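import Cfsg.Statements.S1182
import Cfsg.Agent.H28.Isolated

set_option autoImplicit false
open Cfsg

namespace Cfsg.Agent.S1182

/-- Let z be an isolated involution of the finite group G and H a subgroup normalized by z. If x, y ∈ H both commute with z and y = h x h⁻¹ for some h ∈ H, then y = c x c⁻¹ for some c ∈ H commuting with z. -/
theorem result {G : Type*} [Group G] [Finite G] (z : G) (hz : Cfsg.IsIsolatedInvolution z) (H : Subgroup G) (hzH : z ∈ Subgroup.normalizer (H : Set G)) (x y : G) (hx : x ∈ H) (hy : y ∈ H) (hxz : Commute x z) (hyz : Commute y z) (h : G) (hh : h ∈ H) (hconj : h * x * h⁻¹ = y) : ∃ c ∈ H, Commute c z ∧ c * x * c⁻¹ = y := by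
  have hzz : z * z = 1 := Cfsg.Agent.H28.mul_self_of_order_two hz.1
  have hzi : z⁻¹ = z := inv_eq_of_mul_eq_one_right hzz
  -- the element `h z h⁻¹ z` lies in `H` since `z` normalizes `H`
  have hnorm : ∀ a ∈ H, z * a * z ∈ H := by
    intro a ha
    have := (Subgroup.mem_normalizer_iff.mp hzH a).mp ha
    rwa [hzi] at this
  obtain ⟨n, hodd, hinv, hk, hksq⟩ := Cfsg.Agent.H28.exists_mid hz h
  set r := h * z * h⁻¹ * z with hr
  have hrH : r ∈ H := by
    have : r = h * (z * h⁻¹ * z) := by rw [hr]; group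
    rw [this]
    exact H.mul_mem hh (hnorm _ (H.inv_mem hh))
  set k := r ^ n with hkdef
  have hkH : k ∈ H := H.pow_mem hrH n
  -- `c = k⁻¹ h` centralizes `z`
  set c := k⁻¹ * h with hc
  have hcz : Commute c z := by
    show k⁻¹ * h * z = z * (k⁻¹ * h)
    have h1 : h * z = k * z * k⁻¹ * h := by rw [hk]; group
    calc k⁻¹ * h * z = k⁻¹ * (h * z) := by group
      _ = k⁻¹ * (k * z * k⁻¹ * h) := by rw [h1]
      _ = z * (k⁻¹ * h) := by group
  have hcH : c ∈ H := H.mul_mem (H.inv_mem hkH) hh
  refine ⟨c, hcH, hcz, ?_⟩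
  -- `x' = c x c⁻¹` commutes with `z`
  set x' := c * x * c⁻¹ with hx'
  have hx'z : Commute x' z := ((hcz.mul_left hxz).mul_left hcz.inv_left)
  have hyk : k * x' * k⁻¹ = y := by
    rw [← hconj, hx', hc]; group
  -- conjugating by `z`
  have h1 : k⁻¹ * x' * k = y := by
    have e1 : z * (k * x' * k⁻¹) * z = y := by
      rw [hyk]
      calc z * y * z = y * z * z := by rw [hyz.eq]
        _ = y := by rw [mul_assoc, hzz, mul_one]
    have e2 : z * (k * x' * k⁻¹) * z = (z * k * z) * (z * x' * z) * (z * k⁻¹ * z) := by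
      simp only [mul_assoc]
      rw [← mul_assoc z z, hzz, one_mul, ← mul_assoc z z, hzz, one_mul]
    have e3 : z * x' * z = x' := by
      calc z * x' * z = x' * z * z := by rw [hx'z.eq]
        _ = x' := by rw [mul_assoc, hzz, mul_one]
    have e4 : z * k⁻¹ * z = k := by
      have := Cfsg.Agent.H28.inv_inverted hzz hinv
      rwa [inv_inv] at this
    rw [← e1, e2, hinv, e3, e4]
  have h2 : Commute (k * k) x' := by
    show k * k * x' = x' * (k * k)
    have : k * x' * k⁻¹ = k⁻¹ * x' * k := hyk.trans h1.symm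
    calc k * k * x' = k * (k * x' * k⁻¹) * k := by group
      _ = k * (k⁻¹ * x' * k) * k := by rw [this]
      _ = x' * (k * k) := by group
  have h3 : Commute k x' := Cfsg.Agent.H28.commute_of_sq_commute hodd h2
  rw [← hyk, h3.eq]
  simp

end Cfsg.Agent.S1182
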