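import Mathlib
import Cfsg.Statements.S0989
import Cfsg.Agent.Lib.SmallGroups2
-- import your own Cfsg.Agent.* helpers here

set_option autoImplicit false
open Cfsg

namespace Cfsg.Agent.S0989


/-- In the symmetric group on p or p + 1 letters, p a prime, the normalizer of a Sylow p-subgroup has order p * (p - 1). -/
theorem result {α : Type*} [Fintype α] [DecidableEq α] (p : ℕ) [Fact p.Prime] (hα : Fintype.card α = p ∨ Fintype.card α = p + 1) (P : Sylow p (Equiv.Perm α)) : Nat.card ↥(Subgroup.normalizer ((P : Subgroup (Equiv.Perm α)) : Set (Equiv.Perm α))) = p * (p - 1) := by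
  classical
  have hp : p.Prime := Fact.out
  have hcardG : Nat.card (Equiv.Perm α) = (Fintype.card α).factorial := by
    rw [Nat.card_eq_fintype_card, Fintype.card_perm]
  have hgp2 : 2 ≤ p := hp.two_le
  -- the group order
  have hfac : ∃ m, (Fintype.card α).factorial = p ^ 1 * m ∧ ¬ p ∣ m := by
    rcases hα with h | h
    · refine ⟨(p - 1).factorial, ?_, ?_⟩
      · rw [h, pow_one]
        exact (Nat.mul_factorial_pred hp.ne_zero).symm
      · intro hd
        have := (hp.dvd_factorial).1 hd
        omega
    · refine ⟨(p + 1) * (p - 1).factorial, ?_, ?_⟩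
      · rw [h, pow_one, Nat.factorial_succ, ← Nat.mul_factorial_pred hp.ne_zero]
        ring
      · intro hd
        rcases (Nat.Prime.dvd_mul hp).1 hd with h1 | h1
        · have : p ∣ 1 := by
            have h2 : p ∣ p := dvd_refl p
            exact (Nat.dvd_add_right h2).1 h1
          exact hp.one_lt.ne' (Nat.dvd_one.1 this)
        · have := (hp.dvd_factorial).1 h1
          omega
  obtain ⟨m, hm, hpm⟩ := hfac
  have hG : Nat.card (Equiv.Perm α) = p ^ 1 * m := by rw [hcardG, hm]
  have hPc : ∀ Q : Sylow p (Equiv.Perm α), Nat.card (Q : Subgroup (Equiv.Perm α)) = p := by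
    intro Q
    rw [Cfsg.Agent.Lib.SmallGroups2.sylow_card_of_card_eq hG hpm Q, pow_one]
  have hcount := Cfsg.Agent.Lib.SmallGroups2.card_orderOf_eq_prime hPc
  -- elements of order p have cycle type {p}
  have hle : p ≤ Fintype.card α := by omega
  have hiff : ∀ g : Equiv.Perm α, orderOf g = p ↔ g.cycleType = {p} := by
    intro g
    constructor
    · intro ho
      obtain ⟨n, hn⟩ := Equiv.Perm.cycleType_prime_order (σ := g) (by rw [ho]; exact hp)
      rw [ho] at hn
      have hs := Equiv.Perm.sum_cycleType_le g
      rw [hn, Multiset.sum_replicate, smul_eq_mul] at hs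
      have hn0 : n = 0 := by
        by_contra hne
        have : 2 * p ≤ (n + 1) * p := Nat.mul_le_mul_right p (by omega)
        rcases hα with h | h <;> rw [h] at hs <;> nlinarith
      subst hn0
      simpa using hn
    · intro hc
      rw [← Equiv.Perm.lcm_cycleType, hc]
      simp
  have hc1 := Equiv.Perm.card_of_cycleType_singleton (α := α) hgp2 hle
  have hcard2 : Nat.card {g : Equiv.Perm α // orderOf g = p} = (Finset.univ.filter (fun g : Equiv.Perm α => g.cycleType = {p})).card := by
    rw [Nat.card_eq_fintype_card, Fintype.card_subtype]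
    congr 1
    ext g
    simp [hiff g]
  rw [hcard2] at hcount
  have hN := Cfsg.Agent.Lib.SmallGroups2.card_normalizer_mul_card_sylow P
  rw [hcardG] at hN
  rw [hcount] at hc1
  -- now arithmetic
  have hfact : (Fintype.card α).factorial = p * ((p - 1).factorial * (Fintype.card α).choose p) := by
    rcases hα with h | h
    · rw [h, Nat.choose_self, mul_one]
      exact (Nat.mul_factorial_pred hp.ne_zero).symm
    · rw [h, Nat.choose_succ_self_right, Nat.factorial_succ, ← Nat.mul_factorial_pred hp.ne_zero]
      ring
  set N := Nat.card ↥(Subgroup.normalizer ((P : Subgroup (Equiv.Perm α)) : Set (Equiv.Perm α))) with hNdef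
  set n := Nat.card (Sylow p (Equiv.Perm α)) with hndef
  have hn0 : n ≠ 0 := Nat.card_pos.ne'
  have h5 : n * (N) = n * (p * (p - 1)) := by
    calc n * N = N * n := by ring
      _ = (Fintype.card α).factorial := hN
      _ = p * ((p - 1).factorial * (Fintype.card α).choose p) := hfact
      _ = p * (n * (p - 1)) := by rw [hc1]
      _ = n * (p * (p - 1)) := by ring
  exact Nat.eq_of_mul_eq_mul_left (Nat.pos_of_ne_zero hn0) h5

end Cfsg.Agent.S0989
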