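import Mathlib
import Cfsg.Statements.S0990
import Cfsg.Agent.Lib.SmallGroups
-- import your own Cfsg.Agent.* helpers here

set_option autoImplicit false
open Cfsg

namespace Cfsg.Agent.S0990


/-- Let p be an odd prime and P a Sylow p-subgroup of the symmetric group on a finite set with at least two elements. Then P is contained in the alternating group, and twice the order of the normalizer of P inside the alternating group equals the order of the normalizer of P in the symmetric group. -/
theorem result {α : Type*} [Fintype α] [DecidableEq α] (hα : 2 ≤ Fintype.card α) (p : ℕ) [Fact p.Prime] (hp : p ≠ 2) (P : Sylow p (Equiv.Perm α)) : (P : Subgroup (Equiv.Perm α)) ≤ alternatingGroup α ∧ 2 * Nat.card ↥(Subgroup.normalizer ((((P : Subgroup (Equiv.Perm α)).subgroupOf (alternatingGroup α) : Subgroup ↥(alternatingGroup α)) : Set ↥(alternatingGroup α)))) = Nat.card ↥(Subgroup.normalizer ((P : Subgroup (Equiv.Perm α)) : Set (Equiv.Perm α))) := by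
  classical
  have hle : (P : Subgroup (Equiv.Perm α)) ≤ alternatingGroup α := by
    intro g hg
    obtain ⟨k, hk⟩ := P.isPGroup' ⟨g, hg⟩
    have hk' : g ^ (p ^ k) = 1 := by
      have := congrArg Subtype.val hk
      simpa using this
    have hs : (Equiv.Perm.sign g) ^ (p ^ k) = 1 := by
      rw [← map_pow, hk', map_one]
    rw [Equiv.Perm.mem_alternatingGroup]
    rcases Int.units_eq_one_or (Equiv.Perm.sign g) with h | h
    · exact h
    · exfalso
      rw [h] at hs
      have hodd : Odd (p ^ k) := Odd.pow ((Fact.out : p.Prime).odd_of_ne_two hp)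
      rw [hodd.neg_one_pow] at hs
      exact absurd hs (by decide)
  refine ⟨hle, ?_⟩
  rw [← Subgroup.subgroupOf_normalizer_eq hle]
  set N := Subgroup.normalizer ((P : Subgroup (Equiv.Perm α)) : Set (Equiv.Perm α)) with hN
  have hsup : N ⊔ alternatingGroup α = ⊤ := Sylow.normalizer_sup_eq_top' P hle
  -- the sign restricted to N
  let s : ↥N →* ℤˣ := Equiv.Perm.sign.comp N.subtype
  have hsurj : Function.Surjective s := by
    -- there is an odd element in N
    have hnon : Nontrivial α := Fintype.one_lt_card_iff_nontrivial.1 (by omega)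
    obtain ⟨a, b, hab⟩ := exists_pair_ne α
    have hτ : Equiv.swap a b ∈ ((N ⊔ alternatingGroup α : Subgroup _) : Set (Equiv.Perm α)) := by
      rw [hsup]; trivial
    rw [Subgroup.mul_normal] at hτ
    obtain ⟨n, hn, x, hx, hnx⟩ := Set.mem_mul.1 hτ
    have hodd : s ⟨n, hn⟩ = -1 := by
      have h1 : Equiv.Perm.sign (n * x) = -1 := by
        rw [hnx, Equiv.Perm.sign_swap hab]
      rw [map_mul, (Equiv.Perm.mem_alternatingGroup.1 hx), mul_one] at h1
      exact h1
    intro u
    rcases Int.units_eq_one_or u with h | h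
    · exact ⟨1, by simp [h]⟩
    · exact ⟨⟨n, hn⟩, by rw [hodd, h]⟩
  have hcard : Nat.card N = Nat.card s.ker * 2 := by
    have h1 := Subgroup.card_mul_index s.ker
    have h2 : s.ker.index = 2 := by
      rw [Subgroup.index_ker, (MonoidHom.range_eq_top.2 hsurj), Subgroup.card_top]
      simp
    rw [h2] at h1
    exact h1.symm
  have hequiv : Nat.card ↥(N.subgroupOf (alternatingGroup α)) = Nat.card s.ker := by
    refine Nat.card_congr ⟨fun x => ⟨⟨x.1.1, x.2⟩, ?_⟩, fun y => ⟨⟨y.1.1, ?_⟩, ?_⟩, ?_, ?_⟩
    · show Equiv.Perm.sign x.1.1 = 1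
      exact x.1.2
    · exact y.2
    · exact y.1.2
    · intro x; rfl
    · intro y; rfl
  rw [hequiv, hcard]
  ring

end Cfsg.Agent.S0990
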