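import Mathlib

set_option autoImplicit false

namespace Cfsg.Agent.H97.PS

open Module
open scoped commutatorElement

variable {F V Γ : Type*} [Field F] [AddCommGroup V] [Module F V] [Group Γ]

/-- The fixed space of `ρ g`. -/
def fixSp (ρ : Γ →* End F V) (g : Γ) : Submodule F V := LinearMap.ker (ρ g - 1)

theorem mem_fixSp (ρ : Γ →* End F V) (g : Γ) (v : V) : v ∈ fixSp ρ g ↔ ρ g v = v := by
  simp [fixSp, sub_eq_zero]

theorem rho_inv_rho (ρ : Γ →* End F V) (g : Γ) (v : V) : ρ g⁻¹ (ρ g v) = v := by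
  rw [← Module.End.mul_apply, ← map_mul]; simp

theorem rho_rho_inv (ρ : Γ →* End F V) (g : Γ) (v : V) : ρ g (ρ g⁻¹ v) = v := by
  rw [← Module.End.mul_apply, ← map_mul]; simp

theorem rho_mul_apply (ρ : Γ →* End F V) (g h : Γ) (v : V) : ρ (g * h) v = ρ g (ρ h v) := by
  rw [map_mul, Module.End.mul_apply]

/-- `ρ g` as a linear equivalence. -/
noncomputable def rhoEquiv (ρ : Γ →* End F V) (g : Γ) : V ≃ₗ[F] V :=
  LinearEquiv.ofLinearMap (ρ g) (ρ g⁻¹)
    (by ext v; exact rho_rho_inv ρ g v) (by ext v; exact rho_inv_rho ρ g v)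

theorem rhoEquiv_apply (ρ : Γ →* End F V) (g : Γ) (v : V) : rhoEquiv ρ g v = ρ g v := rfl

theorem finrank_map_rho [FiniteDimensional F V] (ρ : Γ →* End F V) (g : Γ) (W : Submodule F V) :
    finrank F (W.map (ρ g)) = finrank F W :=
  LinearEquiv.finrank_map_eq (rhoEquiv ρ g) W

theorem two_translates [FiniteDimensional F V] (ρ : Γ →* End F V) (g y : Γ) :
    2 * finrank F (fixSp ρ g) ≤ finrank F V + finrank F (fixSp ρ (g⁻¹ * y * g * y⁻¹)) := by
  set W := fixSp ρ g with hW
  set W' := W.map (ρ y) with hW'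
  have h1 : finrank F W' = finrank F W := finrank_map_rho ρ y W
  have h2 : W ⊓ W' ≤ fixSp ρ (g⁻¹ * y * g * y⁻¹) := by
    rintro v ⟨hv, hv'⟩
    obtain ⟨w, hw, rfl⟩ := hv'
    have hwfix : ρ g w = w := (mem_fixSp ρ g w).mp hw
    have hvfix : ρ g (ρ y w) = ρ y w := (mem_fixSp ρ g _).mp hv
    rw [mem_fixSp]
    simp only [rho_mul_apply, rho_inv_rho, hwfix]
    calc ρ g⁻¹ (ρ y w) = ρ g⁻¹ (ρ g (ρ y w)) := by rw [hvfix]
      _ = ρ y w := rho_inv_rho ρ g _
  have h3 := Submodule.finrank_sup_add_finrank_inf_eq W W'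
  have h4 : finrank F (W ⊔ W' : Submodule F V) ≤ finrank F V := Submodule.finrank_le _
  have h5 := Submodule.finrank_mono h2
  omega

/-! ### Clifford-type part -/

section Clifford

/-- conjugation by `ρ γ` -/
def cj (ρ : Γ →* End F V) (γ : Γ) (x : End F V) : End F V := ρ γ * x * ρ γ⁻¹

theorem cj_apply (ρ : Γ →* End F V) (γ : Γ) (x : End F V) (v : V) :
    cj ρ γ x v = ρ γ (x (ρ γ⁻¹ v)) := rfl

theorem cj_cj (ρ : Γ →* End F V) (γ δ : Γ) (x : End F V) : cj ρ γ (cj ρ δ x) = cj ρ (γ * δ) x := by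
  simp only [cj, map_mul, mul_inv_rev]
  simp only [mul_assoc]

theorem cj_one (ρ : Γ →* End F V) (x : End F V) : cj ρ 1 x = x := by
  simp [cj]

theorem cj_mul (ρ : Γ →* End F V) (γ : Γ) (x y : End F V) : cj ρ γ (x * y) = cj ρ γ x * cj ρ γ y := by
  ext v
  simp only [cj_apply, Module.End.mul_apply, rho_inv_rho]

theorem range_cj (ρ : Γ →* End F V) (γ : Γ) (x : End F V) :
    LinearMap.range (cj ρ γ x) = (LinearMap.range x).map (ρ γ) := by
  ext v
  constructor
  · rintro ⟨w, rfl⟩
    exact ⟨x (ρ γ⁻¹ w), ⟨_, rfl⟩, rfl⟩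
  · rintro ⟨_, ⟨w, rfl⟩, rfl⟩
    exact ⟨ρ γ w, by simp [cj_apply, rho_inv_rho]⟩

variable [FiniteDimensional F V]

/-- Commuting nilpotent endomorphisms have a common kernel vector. -/
theorem common_ker_vector [Nontrivial V] (S : Finset (End F V))
    (hcomm : ∀ x ∈ S, ∀ y ∈ S, x * y = y * x) (hnil : ∀ x ∈ S, IsNilpotent x) :
    ∃ v : V, v ≠ 0 ∧ ∀ c ∈ S, c v = 0 := by
  classical
  induction S using Finset.induction_on with
  | empty =>
    obtain ⟨v, hv⟩ := exists_ne (0 : V)
    exact ⟨v, hv, by simp⟩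
  | insert d S hd ih =>
    obtain ⟨v, hv, hvS⟩ := ih (fun x hx y hy => hcomm x (Finset.mem_insert_of_mem hx) y (Finset.mem_insert_of_mem hy))
      (fun x hx => hnil x (Finset.mem_insert_of_mem hx))
    obtain ⟨j, hj⟩ := hnil d (Finset.mem_insert_self _ _)
    have hex : ∃ j : ℕ, (d ^ j) v = 0 := ⟨j, by rw [hj]; rfl⟩
    classical
    let j₀ := Nat.find hex
    have hj₀ : (d ^ j₀) v = 0 := Nat.find_spec hex
    have hj₀pos : j₀ ≠ 0 := by
      intro h
      rw [h] at hj₀
      exact hv (by simpa using hj₀)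
    obtain ⟨i, hi⟩ := Nat.exists_eq_succ_of_ne_zero hj₀pos
    have hi' : (d ^ i) v ≠ 0 := Nat.find_min hex (by omega : i < j₀)
    refine ⟨(d ^ i) v, hi', ?_⟩
    intro c hc
    rcases Finset.mem_insert.mp hc with rfl | hc'
    · have : c * c ^ i = c ^ j₀ := by rw [hi, pow_succ']
      rw [← Module.End.mul_apply, this, hj₀]
    · have hcomm' : Commute c d := hcomm c hc d (Finset.mem_insert_self _ _)
      have : c * d ^ i = d ^ i * c := (hcomm'.pow_right i).eq
      rw [← Module.End.mul_apply, this, Module.End.mul_apply, hvS c hc', map_zero]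

/-- The set-up: a commutative subalgebra stable under conjugation. -/
structure StableComm (ρ : Γ →* End F V) (B : Subalgebra F (End F V)) : Prop where
  comm : ∀ x ∈ B, ∀ y ∈ B, x * y = y * x
  conj : ∀ γ, ∀ x ∈ B, cj ρ γ x ∈ B

variable {ρ : Γ →* End F V} {B : Subalgebra F (End F V)}

theorem nilp_eq_zero [Finite Γ]
    (hirr : ∀ W : Submodule F V, (∀ γ : Γ, ∀ v ∈ W, ρ γ v ∈ W) → W = ⊥ ∨ W = ⊤)
    (hB : StableComm ρ B) (b : End F V) (hbB : b ∈ B) (hb : IsNilpotent b) : b = 0 := by
  classical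
  by_cases hV : Nontrivial V
  · let _ := Fintype.ofFinite Γ
    let S : Finset (End F V) := Finset.univ.image (fun γ => cj ρ γ b)
    have hSB : ∀ x ∈ S, x ∈ B := by
      intro x hx
      obtain ⟨γ, _, rfl⟩ := Finset.mem_image.mp hx
      exact hB.conj γ b hbB
    have hSnil : ∀ x ∈ S, IsNilpotent x := by
      intro x hx
      obtain ⟨γ, _, rfl⟩ := Finset.mem_image.mp hx
      obtain ⟨k, hk⟩ := hb
      refine ⟨k, ?_⟩
      have : ∀ j, (cj ρ γ b) ^ j = cj ρ γ (b ^ j) := by
        intro j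
        induction j with
        | zero =>
          ext v
          simp [cj_apply, rho_rho_inv]
        | succ j ih => rw [pow_succ, pow_succ, cj_mul, ih]
      rw [this, hk]
      ext v
      simp [cj_apply]
    obtain ⟨v, hv, hvS⟩ := common_ker_vector S
      (fun x hx y hy => hB.comm x (hSB x hx) y (hSB y hy)) hSnil
    let U : Submodule F V := ⨅ γ : Γ, LinearMap.ker (cj ρ γ b)
    have hU : ∀ w, w ∈ U ↔ ∀ γ, cj ρ γ b w = 0 := by
      intro w
      simp [U, Submodule.mem_iInf]
    have hvU : v ∈ U := (hU v).mpr (fun γ => hvS _ (Finset.mem_image_of_mem _ (Finset.mem_univ γ)))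
    have hUinv : ∀ γ : Γ, ∀ w ∈ U, ρ γ w ∈ U := by
      intro γ w hw
      rw [hU] at hw ⊢
      intro δ
      have h1 := hw (γ⁻¹ * δ)
      have h2 : cj ρ δ b (ρ γ w) = ρ γ (cj ρ (γ⁻¹ * δ) b w) := by
        simp only [cj_apply, mul_inv_rev, inv_inv, rho_mul_apply, rho_rho_inv]
      rw [h2, h1, map_zero]
    rcases hirr U hUinv with h | h
    · rw [h] at hvU
      exact absurd ((Submodule.mem_bot F).mp hvU) hv
    · ext w
      have h1 : w ∈ U := by rw [h]; trivial
      have h2 := (hU w).mp h1 1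
      rwa [cj_one] at h2
  · rw [not_nontrivial_iff_subsingleton] at hV
    ext v
    exact Subsingleton.elim _ _

/-- Rank of an endomorphism. -/
noncomputable def rk (x : End F V) : ℕ := finrank F (LinearMap.range x)

theorem rk_cj (ρ : Γ →* End F V) (γ : Γ) (x : End F V) : rk (cj ρ γ x) = rk x := by
  unfold rk
  rw [range_cj, finrank_map_rho]

theorem idem_mul_eq (hB : StableComm ρ B) {e f : End F V} (he : e ∈ B) (hee : e * e = e)
    (hf : f ∈ B) (hff : f * f = f) (hne : e * f ≠ 0) (hmin : rk e ≤ rk (e * f)) : e * f = e := by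
  have hcomm : e * f = f * e := hB.comm e he f hf
  have hle : LinearMap.range (e * f) ≤ LinearMap.range e := by
    rintro _ ⟨w, rfl⟩
    exact ⟨f w, rfl⟩
  have heq : LinearMap.range (e * f) = LinearMap.range e :=
    Submodule.eq_of_le_of_finrank_le hle hmin
  have hgg : (e * f) * (e * f) = e * f := by
    calc (e * f) * (e * f) = e * (f * e) * f := by simp only [mul_assoc]
      _ = e * (e * f) * f := by rw [hcomm]
      _ = (e * e) * (f * f) := by simp only [mul_assoc]
      _ = e * f := by rw [hee, hff]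
  ext v
  have h1 : e v ∈ LinearMap.range (e * f) := by rw [heq]; exact ⟨v, rfl⟩
  obtain ⟨w, hw⟩ := h1
  have h2 : (e * f) (e v) = e v := by
    rw [← hw, ← Module.End.mul_apply, hgg]
  have h3 : (e * f) (e v) = (e * f) v := by
    calc (e * f) (e v) = (e * (f * e)) v := rfl
      _ = (e * (e * f)) v := by rw [hcomm]
      _ = ((e * e) * f) v := by rw [mul_assoc]
      _ = (e * f) v := by rw [hee]
  rw [← h3, h2]

/-- The primitivity hypothesis in abstract form. -/
def PrimHyp (ρ : Γ →* End F V) : Prop :=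
  ∀ (t m : ℕ) (D : Fin t → Submodule F V), 2 ≤ t → 0 < m → (∀ i, finrank F (D i) = m) →
    iSupIndep D → iSup D = ⊤ → ¬ ∀ γ : Γ, ∃ σ : Equiv.Perm (Fin t), ∀ i, (D i).map (ρ γ) = D (σ i)

theorem cj_zero (ρ : Γ →* End F V) (γ : Γ) : cj ρ γ (0 : End F V) = 0 := by
  ext v; simp [cj_apply]

theorem cj_inv_cj (ρ : Γ →* End F V) (γ : Γ) (x : End F V) : cj ρ γ⁻¹ (cj ρ γ x) = x := by
  rw [cj_cj, inv_mul_cancel, cj_one]

theorem cj_cj_inv (ρ : Γ →* End F V) (γ : Γ) (x : End F V) : cj ρ γ (cj ρ γ⁻¹ x) = x := by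
  rw [cj_cj, mul_inv_cancel, cj_one]

/-- Only trivial idempotents. -/
theorem idem_trivial [Finite Γ]
    (hirr : ∀ W : Submodule F V, (∀ γ : Γ, ∀ v ∈ W, ρ γ v ∈ W) → W = ⊥ ∨ W = ⊤)
    (hprim : PrimHyp ρ) (hB : StableComm ρ B) (f : End F V) (hfB : f ∈ B) (hff : f * f = f) :
    f = 0 ∨ f = 1 := by
  classical
  by_cases hf0 : f = 0
  · exact Or.inl hf0
  right
  let P : ℕ → Prop := fun k => ∃ x ∈ B, x * x = x ∧ x ≠ 0 ∧ rk x = k
  have hP : ∃ k, P k := ⟨rk f, f, hfB, hff, hf0, rfl⟩
  obtain ⟨e, heB, hee, he0, hek⟩ := Nat.find_spec hP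
  have hmin : ∀ x ∈ B, x * x = x → x ≠ 0 → rk e ≤ rk x := by
    intro x hx hxx hx0
    rw [hek]
    exact Nat.find_min' hP ⟨x, hx, hxx, hx0, rfl⟩
  have hcjB : ∀ γ, cj ρ γ e ∈ B := fun γ => hB.conj γ e heB
  have hcjidem : ∀ γ, cj ρ γ e * cj ρ γ e = cj ρ γ e := by
    intro γ; rw [← cj_mul, hee]
  have hcj0 : ∀ γ, cj ρ γ e ≠ 0 := by
    intro γ h
    apply he0
    rw [← cj_inv_cj ρ γ e, h, cj_zero]
  have hcjrk : ∀ γ, rk (cj ρ γ e) = rk e := fun γ => rk_cj ρ γ e
  -- products of nonzero minimal idempotents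
  have hprodmin : ∀ γ δ, cj ρ γ e * cj ρ δ e ≠ 0 → cj ρ γ e * cj ρ δ e = cj ρ γ e := by
    intro γ δ hne
    apply idem_mul_eq hB (hcjB γ) (hcjidem γ) (hcjB δ) (hcjidem δ) hne
    rw [hcjrk]
    apply hmin _ (B.mul_mem (hcjB γ) (hcjB δ)) _ hne
    calc cj ρ γ e * cj ρ δ e * (cj ρ γ e * cj ρ δ e)
        = cj ρ γ e * (cj ρ δ e * cj ρ γ e) * cj ρ δ e := by simp only [mul_assoc]
      _ = cj ρ γ e * (cj ρ γ e * cj ρ δ e) * cj ρ δ e := by rw [hB.comm _ (hcjB δ) _ (hcjB γ)]
      _ = (cj ρ γ e * cj ρ γ e) * (cj ρ δ e * cj ρ δ e) := by simp only [mul_assoc]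
      _ = _ := by rw [hcjidem, hcjidem]
  have horth : ∀ γ δ, cj ρ γ e ≠ cj ρ δ e → cj ρ γ e * cj ρ δ e = 0 := by
    intro γ δ hne
    by_contra hcon
    apply hne
    have h1 := hprodmin γ δ hcon
    have hcon' : cj ρ δ e * cj ρ γ e ≠ 0 := by
      rwa [hB.comm _ (hcjB δ) _ (hcjB γ)]
    have h2 := hprodmin δ γ hcon'
    rw [← h1, hB.comm _ (hcjB γ) _ (hcjB δ), h2]
  -- the orbit
  let O := {x : End F V // ∃ γ : Γ, x = cj ρ γ e}
  have hOfin : Finite O := Finite.of_surjective (fun γ : Γ => (⟨cj ρ γ e, γ, rfl⟩ : O)) (by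
    rintro ⟨x, γ, rfl⟩
    exact ⟨γ, rfl⟩)
  let _ : Fintype O := Fintype.ofFinite O
  have he1 : e = 1 := by
    by_cases hsub : Subsingleton O
    · have hall : ∀ γ, cj ρ γ e = e := by
        intro γ
        have h1 : (⟨cj ρ γ e, γ, rfl⟩ : O) = ⟨cj ρ 1 e, 1, rfl⟩ := Subsingleton.elim _ _
        have h2 := congrArg Subtype.val h1
        simpa [cj_one] using h2
      have hinv : ∀ γ : Γ, ∀ v ∈ LinearMap.range e, ρ γ v ∈ LinearMap.range e := by
        rintro γ _ ⟨w, rfl⟩
        refine ⟨ρ γ w, ?_⟩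
        have := hall γ
        calc e (ρ γ w) = cj ρ γ e (ρ γ w) := by rw [this]
          _ = ρ γ (e w) := by simp [cj_apply, rho_inv_rho]
      rcases hirr _ hinv with h | h
      · exact absurd (LinearMap.range_eq_bot.mp h) he0
      · ext v
        have : v ∈ LinearMap.range e := by rw [h]; trivial
        obtain ⟨w, rfl⟩ := this
        rw [← Module.End.mul_apply, hee]
        rfl
    · exfalso
      rw [not_subsingleton_iff_nontrivial] at hsub
      have ht : 2 ≤ Fintype.card O := by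
        have := Fintype.one_lt_card_iff_nontrivial.mpr hsub
        omega
      let eq : O ≃ Fin (Fintype.card O) := Fintype.equivFin O
      let D : Fin (Fintype.card O) → Submodule F V := fun i => LinearMap.range (eq.symm i).1
      have hDrk : ∀ i, finrank F (D i) = rk e := by
        intro i
        obtain ⟨γ, hγ⟩ := (eq.symm i).2
        show rk (eq.symm i).1 = rk e
        rw [hγ, hcjrk]
      have hrkpos : 0 < rk e := by
        rw [Nat.pos_iff_ne_zero]
        intro h
        apply he0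
        have : LinearMap.range e = ⊥ := Submodule.finrank_eq_zero.mp h
        exact LinearMap.range_eq_bot.mp this
      have hDindep : iSupIndep D := by
        intro i
        rw [Submodule.disjoint_def]
        intro x hx hx'
        have hidem : (eq.symm i).1 x = x := by
          obtain ⟨w, rfl⟩ := hx
          obtain ⟨γ, hγ⟩ := (eq.symm i).2
          rw [← Module.End.mul_apply, hγ, hcjidem]
        have hle : (⨆ j, ⨆ (_ : j ≠ i), D j) ≤ LinearMap.ker (eq.symm i).1 := by
          apply iSup₂_le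
          rintro j hj _ ⟨w, rfl⟩
          obtain ⟨γ, hγ⟩ := (eq.symm i).2
          obtain ⟨δ, hδ⟩ := (eq.symm j).2
          have hne : cj ρ γ e ≠ cj ρ δ e := by
            rw [← hγ, ← hδ]
            intro h
            apply hj
            have : eq.symm i = eq.symm j := Subtype.ext h
            exact (eq.symm.injective this).symm
          rw [LinearMap.mem_ker, ← Module.End.mul_apply, hγ, hδ, horth γ δ hne]
          rfl
        have := hle hx'
        rw [LinearMap.mem_ker, hidem] at this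
        exact this
      -- the permutation action
      let cjPerm : Γ → Equiv.Perm O := fun γ =>
        { toFun := fun x => ⟨cj ρ γ x.1, by
            obtain ⟨δ, hδ⟩ := x.2
            exact ⟨γ * δ, by rw [hδ, cj_cj]⟩⟩
          invFun := fun x => ⟨cj ρ γ⁻¹ x.1, by
            obtain ⟨δ, hδ⟩ := x.2
            exact ⟨γ⁻¹ * δ, by rw [hδ, cj_cj]⟩⟩
          left_inv := fun x => Subtype.ext (cj_inv_cj ρ γ x.1)
          right_inv := fun x => Subtype.ext (cj_cj_inv ρ γ x.1) }
      have hDmap : ∀ γ : Γ, ∃ σ : Equiv.Perm (Fin (Fintype.card O)), ∀ i, (D i).map (ρ γ) = D (σ i) := by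
        intro γ
        refine ⟨eq.symm.trans ((cjPerm γ).trans eq), fun i => ?_⟩
        show (LinearMap.range (eq.symm i).1).map (ρ γ) = LinearMap.range (eq.symm (eq ((cjPerm γ) (eq.symm i)))).1
        rw [Equiv.symm_apply_apply]
        exact (range_cj ρ γ _).symm
      have hDtop : iSup D = ⊤ := by
        have hinv : ∀ γ : Γ, ∀ v ∈ iSup D, ρ γ v ∈ iSup D := by
          intro γ v hv
          have h1 : (iSup D).map (ρ γ) ≤ iSup D := by
            rw [Submodule.map_iSup]
            apply iSup_le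
            intro i
            obtain ⟨σ, hσ⟩ := hDmap γ
            rw [hσ i]
            exact le_iSup D (σ i)
          exact h1 ⟨v, hv, rfl⟩
        rcases hirr _ hinv with h | h
        · exfalso
          have hi : D ⟨0, by omega⟩ ≤ iSup D := le_iSup D _
          rw [h, le_bot_iff] at hi
          have := hDrk ⟨0, by omega⟩
          rw [hi, finrank_bot] at this
          omega
        · exact h
      exact hprim _ _ D ht hrkpos hDrk hDindep hDtop hDmap
  -- conclude for f
  have h1 : rk e ≤ rk f := hmin f hfB hff hf0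
  have hftop : LinearMap.range f = ⊤ := by
    apply Submodule.eq_top_of_finrank_eq
    apply le_antisymm (Submodule.finrank_le _)
    have h2 : rk e = finrank F V := by
      rw [he1]
      unfold rk
      have : LinearMap.range (1 : End F V) = ⊤ := LinearMap.range_id
      rw [this, finrank_top]
    rw [← h2]
    exact h1
  ext v
  have : v ∈ LinearMap.range f := by rw [hftop]; trivial
  obtain ⟨w, rfl⟩ := this
  rw [← Module.End.mul_apply, hff]
  rfl

/-- Fitting-type dichotomy. -/
theorem unit_or_nilp (hidem : ∀ f ∈ B, f * f = f → f = 0 ∨ f = 1) (b : End F V) (hb : b ∈ B) :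
    IsNilpotent b ∨ LinearMap.ker b = ⊥ := by
  classical
  obtain ⟨Q, hQ0, hQb, hQX⟩ : ∃ Q : Polynomial F, Q ≠ 0 ∧ Polynomial.aeval b Q = 0 ∧ Polynomial.IsRoot Q 0 := by
    have hμ0 : minpoly F b ≠ 0 := minpoly.ne_zero (Algebra.IsIntegral.isIntegral b)
    refine ⟨Polynomial.X * minpoly F b, mul_ne_zero Polynomial.X_ne_zero hμ0, ?_, ?_⟩
    · simp [minpoly.aeval]
    · simp [Polynomial.IsRoot]
  obtain ⟨h, hQ, hnd⟩ := Polynomial.exists_eq_pow_rootMultiplicity_mul_and_not_dvd Q hQ0 0
  have hmpos : 0 < Q.rootMultiplicity 0 := (Polynomial.rootMultiplicity_pos hQ0).mpr hQX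
  generalize Q.rootMultiplicity 0 = m at hQ hmpos
  simp only [map_zero, sub_zero] at hQ hnd
  have hcop : IsCoprime (Polynomial.X ^ m) h :=
    (Polynomial.irreducible_X.coprime_iff_not_dvd.mpr hnd).pow_left
  obtain ⟨u, v, huv⟩ := hcop
  have haeval : ∀ p : Polynomial F, Polynomial.aeval b p ∈ B := by
    intro p
    have h1 : Algebra.adjoin F {b} ≤ B := Algebra.adjoin_le (Set.singleton_subset_iff.mpr hb)
    exact h1 (Polynomial.aeval_mem_adjoin_singleton F b)
  obtain ⟨e, he⟩ : ∃ e, e = Polynomial.aeval b (u * Polynomial.X ^ m) := ⟨_, rfl⟩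
  obtain ⟨e', he'⟩ : ∃ e', e' = Polynomial.aeval b (v * h) := ⟨_, rfl⟩
  have hsum : e + e' = 1 := by
    have := congrArg (Polynomial.aeval b) huv
    simpa [he, he'] using this
  have hprod : e * e' = 0 := by
    rw [he, he', ← map_mul]
    have : u * Polynomial.X ^ m * (v * h) = u * v * Q := by rw [hQ]; ring
    rw [this, map_mul, hQb, mul_zero]
  have hee : e * e = e := by
    have h1 : e = 1 - e' := by rw [← hsum]; abel
    calc e * e = e * (1 - e') := by rw [← h1]
      _ = e := by rw [mul_sub, hprod]; simp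
  have heB : e ∈ B := by rw [he]; exact haeval _
  rcases hidem e heB hee with h0 | h1
  · left
    refine ⟨m, ?_⟩
    have he1 : e' = 1 := by rw [h0, zero_add] at hsum; exact hsum
    have heq : (Polynomial.X ^ m * (v * h) : Polynomial F) = v * Q := by rw [hQ]; ring
    calc b ^ m = b ^ m * e' := by rw [he1, mul_one]
      _ = Polynomial.aeval b (Polynomial.X ^ m * (v * h)) := by
          rw [he', map_mul _ (Polynomial.X ^ m) (v * h), map_pow, Polynomial.aeval_X]
      _ = Polynomial.aeval b (v * Q) := by rw [heq]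
      _ = 0 := by rw [map_mul, hQb, mul_zero]
  · right
    rw [eq_bot_iff]
    intro x hx
    rw [LinearMap.mem_ker] at hx
    have h2 : (b ^ m) x = 0 := by
      obtain ⟨i, hi⟩ := Nat.exists_eq_succ_of_ne_zero hmpos.ne'
      rw [hi, pow_succ, Module.End.mul_apply, hx, map_zero]
    have h3 : e x = x := by rw [h1]; rfl
    rw [Submodule.mem_bot, ← h3, he, map_mul, map_pow, Polynomial.aeval_X, Module.End.mul_apply, h2, map_zero]

/-- Clifford-type conclusion: non-identity elements of an abelian normal subgroup of a primitive group fix no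
non-zero vector. -/
theorem fix_eq_bot_of_abelian_normal [Finite Γ] (hinj : Function.Injective ρ)
    (hirr : ∀ W : Submodule F V, (∀ γ : Γ, ∀ v ∈ W, ρ γ v ∈ W) → W = ⊥ ∨ W = ⊤)
    (hprim : PrimHyp ρ) (A : Subgroup Γ) (hA : A.Normal) (hcomm : ∀ a ∈ A, ∀ b ∈ A, a * b = b * a)
    (a : Γ) (ha : a ∈ A) (ha1 : a ≠ 1) : fixSp ρ a = ⊥ := by
  classical
  let s : Set (End F V) := ρ '' A
  have hs : ∀ x ∈ s, ∀ y ∈ s, x * y = y * x := by
    rintro _ ⟨x, hx, rfl⟩ _ ⟨y, hy, rfl⟩
    rw [← map_mul, ← map_mul, hcomm x hx y hy]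
  let B₀ : Subalgebra F (End F V) := Algebra.adjoin F s
  have hB : StableComm ρ B₀ := by
    constructor
    · intro x hx y hy
      have := (Algebra.isMulCommutative_adjoin F hs).is_comm.comm ⟨x, hx⟩ ⟨y, hy⟩
      exact congrArg Subtype.val this
    · intro γ x hx
      induction hx using Algebra.adjoin_induction with
      | mem x hx =>
        obtain ⟨a', ha', rfl⟩ := hx
        apply Algebra.subset_adjoin
        refine ⟨γ * a' * γ⁻¹, hA.conj_mem a' ha' γ, ?_⟩
        simp only [cj, map_mul]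
      | algebraMap r =>
        have : cj ρ γ (algebraMap F (End F V) r) = algebraMap F (End F V) r := by
          ext v
          simp [cj_apply, rho_rho_inv]
        rw [this]
        exact B₀.algebraMap_mem r
      | add x y _ _ hx hy =>
        have : cj ρ γ (x + y) = cj ρ γ x + cj ρ γ y := by
          ext v
          simp [cj_apply]
        rw [this]
        exact B₀.add_mem hx hy
      | mul x y _ _ hx hy =>
        rw [cj_mul]
        exact B₀.mul_mem hx hy
  have hidem : ∀ f ∈ B₀, f * f = f → f = 0 ∨ f = 1 := fun f hf hff => idem_trivial hirr hprim hB f hf hff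
  have hbB : ρ a - 1 ∈ B₀ := B₀.sub_mem (Algebra.subset_adjoin ⟨a, ha, rfl⟩) B₀.one_mem
  rcases unit_or_nilp hidem _ hbB with hn | hk
  · have := nilp_eq_zero hirr hB _ hbB hn
    exfalso
    apply ha1
    apply hinj
    rw [map_one]
    exact sub_eq_zero.mp this
  · exact hk

end Clifford

/-- Class two normal subgroups. -/
theorem fix_le_half_of_class_two [FiniteDimensional F V] [Finite Γ] {ρ : Γ →* End F V} (hinj : Function.Injective ρ)
    (hirr : ∀ W : Submodule F V, (∀ γ : Γ, ∀ v ∈ W, ρ γ v ∈ W) → W = ⊥ ∨ W = ⊤)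
    (hprim : PrimHyp ρ) (N : Subgroup Γ) (hN : N.Normal)
    (hcl : ∀ x ∈ N, ∀ y ∈ N, ∀ z ∈ N, ⁅x, y⁆ * z = z * ⁅x, y⁆) (u : Γ) (hu : u ∈ N) (hu1 : u ≠ 1) :
    2 * finrank F (fixSp ρ u) ≤ finrank F V := by
  classical
  let A : Subgroup Γ := N ⊓ Subgroup.centralizer (N : Set Γ)
  have hAnormal : A.Normal := by
    exact inferInstance
  have hAcomm : ∀ a ∈ A, ∀ b ∈ A, a * b = b * a := by
    rintro a ⟨_, ha⟩ b ⟨hb, _⟩
    exact (Subgroup.mem_centralizer_iff.mp ha b hb).symm
  by_cases huA : u ∈ A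
  · rw [fix_eq_bot_of_abelian_normal hinj hirr hprim A hAnormal hAcomm u huA hu1, finrank_bot]
    omega
  · have : ∃ t ∈ N, t * u ≠ u * t := by
      by_contra hcon
      push Not at hcon
      exact huA ⟨hu, Subgroup.mem_centralizer_iff.mpr hcon⟩
    obtain ⟨t, ht, htu⟩ := this
    let w : Γ := u⁻¹ * t * u * t⁻¹
    have hwN : w ∈ A := by
      have hw : w = ⁅u⁻¹, t⁆ := by simp only [w, commutatorElement_def, inv_inv]
      refine ⟨?_, ?_⟩
      · exact N.mul_mem (N.mul_mem (N.mul_mem (N.inv_mem hu) ht) hu) (N.inv_mem ht)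
      · apply Subgroup.mem_centralizer_iff.mpr
        intro z hz
        rw [hw]
        exact (hcl u⁻¹ (N.inv_mem hu) t ht z hz).symm
    have hw1 : w ≠ 1 := by
      intro h
      apply htu
      have h1 : u⁻¹ * t * u * t⁻¹ = 1 := h
      have h2 : u⁻¹ * t * u = t := by
        rwa [mul_inv_eq_one] at h1
      calc t * u = u * (u⁻¹ * t * u) := by group
        _ = u * t := by rw [h2]
    have h1 := two_translates ρ u t
    have h2 : fixSp ρ (u⁻¹ * t * u * t⁻¹) = ⊥ :=
      fix_eq_bot_of_abelian_normal hinj hirr hprim A hAnormal hAcomm _ hwN hw1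
    rw [h2, finrank_bot] at h1
    omega

/-- iterated commutators -/
def iterComm (C : Subgroup Γ) : ℕ → Subgroup Γ
  | 0 => C
  | k + 1 => ⁅iterComm C k, iterComm C k⁆

theorem iterComm_normal (C : Subgroup Γ) (hC : C.Normal) (k : ℕ) : (iterComm C k).Normal := by
  induction k with
  | zero => exact hC
  | succ k ih =>
    show (⁅iterComm C k, iterComm C k⁆ : Subgroup Γ).Normal
    exact inferInstance

theorem iterComm_le (C : Subgroup Γ) (hC : C.Normal) (k : ℕ) : iterComm C k ≤ C := by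
  induction k with
  | zero => exact le_rfl
  | succ k ih =>
    have := iterComm_normal C hC k
    exact (Subgroup.commutator_le_left _ _).trans ih

theorem iterComm_le_derived (C : Subgroup Γ) (k : ℕ) : iterComm C k ≤ derivedSeries Γ k := by
  induction k with
  | zero => exact le_top
  | succ k ih =>
    rw [derivedSeries_succ]
    exact Subgroup.commutator_mono ih ih

/-- The main bound in abstract form. -/
theorem fix_bound [FiniteDimensional F V] [Finite Γ] [Group.IsSolvable Γ] {ρ : Γ →* End F V} (hinj : Function.Injective ρ)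
    (hirr : ∀ W : Submodule F V, (∀ γ : Γ, ∀ v ∈ W, ρ γ v ∈ W) → W = ⊥ ∨ W = ⊤)
    (hprim : PrimHyp ρ) (g : Γ) (hg : g ≠ 1) :
    4 * finrank F (fixSp ρ g) ≤ 3 * finrank F V := by
  classical
  -- the common centraliser of all normal subgroups of class at most two
  let C : Subgroup Γ :=
    { carrier := {c | ∀ N : Subgroup Γ, N.Normal → (∀ x ∈ N, ∀ y ∈ N, ∀ z ∈ N, ⁅x, y⁆ * z = z * ⁅x, y⁆) →
        ∀ y ∈ N, c * y = y * c}
      mul_mem' := by
        intro a b ha hb N hN hcl y hy
        rw [mul_assoc, hb N hN hcl y hy, ← mul_assoc, ha N hN hcl y hy, mul_assoc]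
      one_mem' := by
        intro N hN hcl y hy
        simp
      inv_mem' := by
        intro a ha N hN hcl y hy
        have h : Commute a y := ha N hN hcl y hy
        exact h.inv_left.eq }
  have hCmem : ∀ c, c ∈ C ↔ ∀ N : Subgroup Γ, N.Normal →
      (∀ x ∈ N, ∀ y ∈ N, ∀ z ∈ N, ⁅x, y⁆ * z = z * ⁅x, y⁆) → ∀ y ∈ N, c * y = y * c := fun c => Iff.rfl
  have hCnormal : C.Normal := by
    constructor
    intro c hc γ N hN hcl y hy
    have h1 : γ⁻¹ * y * γ ∈ N := by
      have := hN.conj_mem y hy γ⁻¹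
      simpa using this
    have h2 := hc N hN hcl _ h1
    calc γ * c * γ⁻¹ * y = γ * (c * (γ⁻¹ * y * γ)) * γ⁻¹ := by group
      _ = γ * ((γ⁻¹ * y * γ) * c) * γ⁻¹ := by rw [h2]
      _ = y * (γ * c * γ⁻¹) := by group
  obtain ⟨m, hm⟩ := Group.IsSolvable.solvable (G := Γ)
  have hP : ∀ j k, k + j = m → ∀ x ∈ iterComm C k, ∀ y ∈ iterComm C k, x * y = y * x := by
    intro j
    induction j with
    | zero =>
      intro k hk x hx y hy
      have h1 : iterComm C k ≤ ⊥ := by
        have := iterComm_le_derived C k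
        rw [add_zero] at hk
        rw [hk, hm] at this
        rwa [hk]
      have hx1 : x = 1 := Subgroup.mem_bot.mp (h1 hx)
      have hy1 : y = 1 := Subgroup.mem_bot.mp (h1 hy)
      rw [hx1, hy1]
    | succ j ih =>
      intro k hk x hx y hy
      have hk1 := ih (k + 1) (by omega)
      have hn1 : (iterComm C (k + 1)).Normal := iterComm_normal C hCnormal (k + 1)
      have hn0 : (iterComm C k).Normal := iterComm_normal C hCnormal k
      have hcl1 : ∀ a ∈ iterComm C (k + 1), ∀ b ∈ iterComm C (k + 1), ∀ z ∈ iterComm C (k + 1),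
          ⁅a, b⁆ * z = z * ⁅a, b⁆ := by
        intro a ha b hb z _
        have : ⁅a, b⁆ = 1 := commutatorElement_eq_one_iff_mul_comm.mpr (hk1 a ha b hb)
        rw [this, one_mul, mul_one]
      have hcent1 : ∀ c ∈ C, ∀ d ∈ iterComm C (k + 1), c * d = d * c := fun c hc d hd =>
        hc _ hn1 hcl1 d hd
      have hcl0 : ∀ a ∈ iterComm C k, ∀ b ∈ iterComm C k, ∀ z ∈ iterComm C k,
          ⁅a, b⁆ * z = z * ⁅a, b⁆ := by
        intro a ha b hb z hz
        have h1 : ⁅a, b⁆ ∈ iterComm C (k + 1) := Subgroup.commutator_mem_commutator ha hb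
        exact (hcent1 z (iterComm_le C hCnormal k hz) _ h1).symm
      exact (iterComm_le C hCnormal k hx) _ hn0 hcl0 y hy
  have hCcomm : ∀ a ∈ C, ∀ b ∈ C, a * b = b * a := hP m 0 (by omega)
  by_cases hgC : g ∈ C
  · rw [fix_eq_bot_of_abelian_normal hinj hirr hprim C hCnormal hCcomm g hgC hg, finrank_bot]
    omega
  · rw [hCmem] at hgC
    push Not at hgC
    obtain ⟨N, hN, hcl, y, hy, hgy⟩ := hgC
    let u : Γ := g⁻¹ * y * g * y⁻¹
    have huN : u ∈ N := by
      have h1 : g⁻¹ * y * g ∈ N := by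
        have := hN.conj_mem y hy g⁻¹
        simpa using this
      exact N.mul_mem h1 (N.inv_mem hy)
    have hu1 : u ≠ 1 := by
      intro h
      apply hgy
      have h1 : g⁻¹ * y * g * y⁻¹ = 1 := h
      have h2 : g⁻¹ * y * g = y := by rwa [mul_inv_eq_one] at h1
      calc g * y = g * (g⁻¹ * y * g) := by rw [h2]
        _ = y * g := by group
    have h1 := two_translates ρ g y
    have h2 := fix_le_half_of_class_two hinj hirr hprim N hN hcl u huN hu1
    have h3 : finrank F (fixSp ρ (g⁻¹ * y * g * y⁻¹)) = finrank F (fixSp ρ u) := rfl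
    omega

end Cfsg.Agent.H97.PS
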