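-- Statement S0375
import Cfsg.Statements.S0375
import Mathlib
import Cfsg.Agent.S0407
import Cfsg.Agent.Lib.Golay

set_option autoImplicit false
open Cfsg

namespace Cfsg.Agent.S0375

open Cfsg.Agent.Lib.AbstractGolay

theorem mem_of_octad {ι κ : Type*} [Fintype ι] [DecidableEq ι] [Fintype κ] [DecidableEq κ]
    (e : ι ≃ κ) {A : Submodule (ZMod 2) (κ → ZMod 2)} {B : Submodule (ZMod 2) (ι → ZMod 2)}
    (hA : IsAbstractGolay A) (hκ : Fintype.card κ = 24)
    (h : ∀ b ∈ wordsOfWeight (A : Set (κ → ZMod 2)) 8,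
      b.map e.symm.toEmbedding ∈ wordsOfWeight (B : Set (ι → ZMod 2)) 8)
    (w : κ → ZMod 2) (hw : w ∈ A) : (fun i => w (e i)) ∈ B := by
  have hspan := span_octads hA hκ
  rw [← hspan] at hw
  induction hw using Submodule.span_induction with
  | mem w hw =>
    have hb : support₂ w ∈ wordsOfWeight (A : Set (κ → ZMod 2)) 8 :=
      ⟨⟨w, hw.1, rfl⟩, hw.2⟩
    obtain ⟨⟨c, hc, hsc⟩, -⟩ := h _ hb
    have : (fun i => w (e i)) = c := by
      funext i
      have h1 : i ∈ support₂ c ↔ e i ∈ support₂ w := by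
        rw [hsc]; simp
      simp only [support₂, Finset.mem_filter, Finset.mem_univ, true_and] at h1
      have key : ∀ x y : ZMod 2, (x ≠ 0 ↔ y ≠ 0) → y = x := by decide
      exact key _ _ h1
    rw [this]; exact hc
  | zero => exact B.zero_mem
  | add u v _ _ hu hv => exact B.add_mem hu hv
  | smul a u _ hu =>
    have : (fun i => (a • u) (e i)) = a • (fun i => u (e i)) := rfl
    rw [this]; exact B.smul_mem a hu

theorem result (C : Submodule (ZMod 2) (Fin 24 → ZMod 2)) (hdim : Module.finrank (ZMod 2) C = 12) (horth : ∀ v ∈ C, ∀ w ∈ C, ∑ i, v i * w i = 0) (h4 : ∀ w ∈ C, 4 ∣ hammingNorm w) (hno4 : ∀ w ∈ C, hammingNorm w ≠ 4) : ∃ e : Fin 24 ≃ Cfsg.GolayPt, ∀ w : Cfsg.GolayPt → ZMod 2, w ∈ Cfsg.golayCode ↔ (fun i => w (e i)) ∈ C := by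
  have hC : IsAbstractGolay C := by
    refine ⟨hdim, horth, fun w hw hw0 => ?_⟩
    obtain ⟨k, hk⟩ := h4 w hw
    have h0 : hammingNorm w ≠ 0 := by simpa using hw0
    have := hno4 w hw
    omega
  have hG := Cfsg.Agent.Lib.Golay.isAbstractGolay
  have hc1 : Fintype.card (Fin 24) = 24 := by simp
  have hc2 : Fintype.card GolayPt = 24 := by decide
  obtain ⟨e, he⟩ := Cfsg.Agent.S0407.result hc1 hc2 (steiner hC hc1) (steiner hG hc2)
  refine ⟨e, fun w => ⟨fun hw => ?_, fun hw => ?_⟩⟩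
  · refine mem_of_octad e hG hc2 (fun b hb => ?_) w hw
    rw [← he] at hb
    obtain ⟨a, ha, rfl⟩ := hb
    convert ha using 1
    ext x
    simp [Finset.mem_image]
  · have := mem_of_octad e.symm hC hc1 (A := C) (B := golayCode) (fun b hb => ?_) (fun i => w (e i)) hw
    · simpa using this
    · rw [← he]
      refine ⟨b, hb, ?_⟩
      ext x
      simp only [Finset.mem_map, Finset.mem_image, Equiv.coe_toEmbedding, Equiv.symm_symm]

end Cfsg.Agent.S0375
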