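import Mathlib
import Cfsg.Statements.S1451
import Cfsg.Agent.Lib.RankTwoFit
import Cfsg.Agent.Lib.QdCore
import Cfsg.Agent.Lib.RankTwoRep
import Cfsg.Agent.S1456
import Cfsg.Agent.S1335

set_option autoImplicit false
open Cfsg

namespace Cfsg.Agent.S1451

open Subgroup Cfsg.Agent.Lib.PCore Cfsg.Agent.Lib.FittingDer
open scoped commutatorElement

universe u

theorem narrow_of_rank {G : Type u} [Group G] [Finite G] (hr : RankLE 2 ↥(fittingSubgroup G))
    (q : ℕ) [hq : Fact q.Prime] : IsNarrow q ↥(pCore q G) :=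
  Or.inl (Cfsg.Agent.S1335.prankLE_of_injective (Subgroup.inclusion (pCore_le_fittingSubgroup q))
    (Subgroup.inclusion_injective _) (hr q hq.out))

theorem char_map_char {G : Type u} [Group G] {N₁ : Subgroup G} (hc : N₁.Characteristic)
    {N₂ : Subgroup N₁} (hc2 : N₂.Characteristic) : (N₂.map N₁.subtype).Characteristic := by
  rw [Subgroup.characteristic_iff_le_comap]
  intro ϕ
  rintro _ ⟨y, hy, rfl⟩
  have h1 := hc2.fixed (Cfsg.Agent.Lib.RankTwoRep.resAut N₁ hc ϕ)
  have h2 : y ∈ N₂.comap (Cfsg.Agent.Lib.RankTwoRep.resAut N₁ hc ϕ).toMonoidHom := by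
    rw [h1]; exact hy
  exact ⟨_, h2, rfl⟩

theorem hall_aux (B : ℕ) : ∀ (n : ℕ) (G : Type u) [Group G] [Finite G] [Group.IsSolvable G],
    Nat.card G = n → Odd (Nat.card G) → RankLE 2 ↥(fittingSubgroup G) →
    ∃ N : Subgroup G, N.Characteristic ∧ IsPiHall {q | q.Prime ∧ B < q} N := by
  intro n
  induction n using Nat.strong_induction_on with
  | _ n ih =>
    intro G _ _ _ hn hodd hr
    by_cases h : ∀ q : ℕ, q.Prime → q ∣ Nat.card G → B < q
    · refine ⟨⊤, inferInstance, ?_, ?_⟩
      · intro r hr hd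
        rw [Subgroup.card_top] at hd
        exact ⟨hr, h r hr hd⟩
      · intro r hr _ hd
        rw [Subgroup.index_top] at hd
        exact hr.one_lt.ne' (Nat.dvd_one.mp hd)
    · push Not at h
      obtain ⟨q₀, hq₀, hq₀d, hq₀B⟩ := h
      have hG1 : Nat.card G ≠ 1 := by
        intro h1
        rw [h1] at hq₀d
        exact hq₀.one_lt.ne' (Nat.dvd_one.mp hq₀d)
      let p := (Nat.card G).minFac
      have hp : p.Prime := Nat.minFac_prime hG1
      have hpd : p ∣ Nat.card G := Nat.minFac_dvd _
      have hpB : p ≤ B := (Nat.minFac_le_of_dvd hq₀.two_le hq₀d).trans hq₀B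
      have hp2 : p ≠ 2 := by
        intro h2
        rw [h2] at hpd
        exact (Nat.not_even_iff_odd.mpr hodd) (even_iff_two_dvd.mpr hpd)
      have : Fact p.Prime := ⟨hp⟩
      have hmin : ∀ q : ℕ, q.Prime → q ∣ Nat.card G → p ≤ q :=
        fun q hq hd => Nat.minFac_le_of_dvd hq.two_le hd
      have hcF : commutator G ≤ fittingSubgroup G :=
        commutator_le_fitting hodd (fun q _ => narrow_of_rank hr q)
      have hQ := Cfsg.Agent.Lib.RankTwoFit.isPGroup_quotient_of_smallest hodd p hp2
        (narrow_of_rank hr p) hcF hmin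
      let N₁ := pPrimeCore p G
      have hN₁c : N₁.Characteristic := instPPrimeCoreCharacteristic p
      have hN₁n : N₁.Normal := Subgroup.normal_of_characteristic _
      obtain ⟨k, hk⟩ : ∃ k, N₁.index = p ^ k := IsPGroup.iff_card.mp hQ
      have hN₁co : (Nat.card N₁).Coprime p := card_pPrimeCore_coprime p
      have hlt : Nat.card N₁ < n := by
        rw [← hn]
        apply lt_of_le_of_ne (Nat.le_of_dvd Nat.card_pos (Subgroup.card_subgroup_dvd_card _))
        intro h
        rw [h] at hN₁co
        exact hp.one_lt.ne' (Nat.Coprime.eq_one_of_dvd hN₁co.symm hpd)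
      have hsolv : Group.IsSolvable N₁ := inferInstance
      have hodd₁ : Odd (Nat.card N₁) := Odd.of_dvd_nat hodd (Subgroup.card_subgroup_dvd_card _)
      have hr₁ : RankLE 2 ↥(fittingSubgroup N₁) := by
        intro q hq
        have hle : (fittingSubgroup N₁).map N₁.subtype ≤ fittingSubgroup G := by
          apply le_fittingSubgroup
          · exact ConjAct.normal_of_characteristic_of_normal
          · have : Group.IsNilpotent (fittingSubgroup N₁) := isNilpotent_fittingSubgroup
            exact Group.nilpotent_of_mulEquiv ((fittingSubgroup N₁).equivMapOfInjective N₁.subtype N₁.subtype_injective)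
        let f : ↥(fittingSubgroup N₁) →* ↥(fittingSubgroup G) :=
          MonoidHom.codRestrict (N₁.subtype.comp (fittingSubgroup N₁).subtype) _ (by
            intro x
            exact hle ⟨x.1, x.2, rfl⟩)
        apply Cfsg.Agent.S1335.prankLE_of_injective f _ (hr q hq)
        rintro ⟨⟨x, hx⟩, hx'⟩ ⟨⟨y, hy⟩, hy'⟩ hxy
        apply Subtype.ext
        apply Subtype.ext
        have h := congrArg (fun z : ↥(fittingSubgroup G) => (z : G)) hxy
        exact h
      obtain ⟨N₂, hN₂c, h1, h2⟩ := ih _ hlt N₁ rfl hodd₁ hr₁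
      refine ⟨N₂.map N₁.subtype, char_map_char hN₁c hN₂c, ?_, ?_⟩
      · intro r hr hd
        rw [Subgroup.card_map_of_injective N₁.subtype_injective] at hd
        exact h1 r hr hd
      · intro r hr hrπ hd
        rw [Subgroup.index_map_subtype] at hd
        rcases (Nat.Prime.dvd_mul hr).mp hd with h3 | h3
        · exact h2 r hr hrπ h3
        · rw [hk] at h3
          have h4 : r ∣ p := hr.dvd_of_dvd_pow h3
          have h5 : r = p := (Nat.prime_dvd_prime_iff_eq hr hp).mp h4
          have h6 : B < r := hrπ.2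
          omega

theorem normal_part {G : Type u} [Group G] [Finite G] (hcF : commutator G ≤ fittingSubgroup G)
    (q : ℕ) [hq : Fact q.Prime] (S : Sylow q G) (T : Subgroup ↥(S : Subgroup G)) (hT : T.Characteristic)
    (hTle : T.map (S : Subgroup G).subtype ≤ ⁅(S : Subgroup G), (S : Subgroup G)⁆) :
    (T.map (S : Subgroup G).subtype).Normal := by
  set T₀ := T.map (S : Subgroup G).subtype with hT₀
  have hT₀P : T₀ ≤ pCore q G := by
    intro x hx
    have hxS : x ∈ (S : Subgroup G) := by
      obtain ⟨y, -, rfl⟩ := hx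
      exact y.2
    have hxF : x ∈ fittingSubgroup G :=
      hcF (Subgroup.commutator_mono le_top le_top (hTle hx))
    obtain ⟨k, hk⟩ := S.isPGroup' ⟨x, hxS⟩
    have hk' : x ^ q ^ k = 1 := congrArg Subtype.val hk
    exact Cfsg.Agent.S1456.mem_pCore_of_mem_fitting q hxF hk'
  rw [← Subgroup.normalizer_eq_top_iff, eq_top_iff]
  let V := ⨆ r : {r : Nat.Primes // (r : ℕ) ≠ q}, pCore ((r : Nat.Primes) : ℕ) G
  have hFV : fittingSubgroup G ≤ pCore q G ⊔ V := by
    rw [fittingSubgroup_eq_iSup_pCore]
    refine iSup_le fun p => ?_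
    by_cases h : (p : ℕ) = q
    · rw [h]; exact le_sup_left
    · exact le_trans (le_iSup (fun r : {r : Nat.Primes // (r : ℕ) ≠ q} => pCore ((r : Nat.Primes) : ℕ) G)
        ⟨p, h⟩) le_sup_right
  -- elements normalizing `S` normalize `T₀`
  have key : ∀ n ∈ Subgroup.normalizer ((S : Subgroup G) : Set G), ∀ x ∈ T₀, n * x * n⁻¹ ∈ T₀ := by
    intro n hn x hx
    obtain ⟨y, hy, rfl⟩ := hx
    let α : MulAut ↥(S : Subgroup G) := (S : Subgroup G).normalizerMonoidHom ⟨n, hn⟩
    have h5 : y ∈ T.comap α.toMonoidHom := by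
      rw [hT.fixed α]; exact hy
    exact ⟨α y, h5, rfl⟩
  have h1 : Subgroup.normalizer ((S : Subgroup G) : Set G) ≤ Subgroup.normalizer (T₀ : Set G) := by
    intro n hn
    rw [Subgroup.mem_normalizer_iff]
    intro x
    constructor
    · exact key n hn x
    · intro hx
      have h5 := key n⁻¹ (inv_mem hn) _ hx
      have e : n⁻¹ * (n * x * n⁻¹) * n⁻¹⁻¹ = x := by group
      rwa [e] at h5
  have h2 : (S : Subgroup G) ≤ Subgroup.normalizer (T₀ : Set G) :=
    (Subgroup.le_normalizer).trans h1
  have h3 : V ≤ Subgroup.normalizer (T₀ : Set G) := by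
    refine iSup_le fun r => ?_
    have : Fact ((r : Nat.Primes) : ℕ).Prime := ⟨(r : Nat.Primes).2⟩
    intro v hv
    rw [Subgroup.mem_normalizer_iff]
    intro x
    by_cases hx : x ∈ T₀
    · have hc : Commute v x := Cfsg.Agent.S1456.commute_pCore r.2 hv (hT₀P hx)
      have e : v * x * v⁻¹ = x := by rw [hc.eq]; group
      rw [e]
    · have e : v * x * v⁻¹ ∈ T₀ → x ∈ T₀ := by
        intro hy
        have hc : Commute v (v * x * v⁻¹) := Cfsg.Agent.S1456.commute_pCore r.2 hv (hT₀P hy)
        have e2 : v * (v * x * v⁻¹) * v⁻¹ = v * x * v⁻¹ := by rw [hc.eq]; group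
        have e3 : v * x * v⁻¹ = x := by
          have e4 : v⁻¹ * (v * (v * x * v⁻¹) * v⁻¹) * v = v⁻¹ * (v * x * v⁻¹) * v := by rw [e2]
          have e5 : v⁻¹ * (v * (v * x * v⁻¹) * v⁻¹) * v = v * x * v⁻¹ := by group
          have e6 : v⁻¹ * (v * x * v⁻¹) * v = x := by group
          rw [e5, e6] at e4
          exact e4
        rwa [e3] at hy
      exact ⟨fun h => absurd h hx, e⟩
  have hMn : ((S : Subgroup G) ⊔ fittingSubgroup G).Normal := by
    refine ⟨fun n hn g => ?_⟩
    have e : g * n * g⁻¹ = ⁅g, n⁆ * n := by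
      rw [commutatorElement_def]
      group
    rw [e]
    refine mul_mem (Subgroup.mem_sup_right (hcF ?_)) hn
    exact Subgroup.commutator_mem_commutator (mem_top g) (mem_top n)
  have h4 := Sylow.normalizer_sup_eq_top' (N := (S : Subgroup G) ⊔ fittingSubgroup G) S le_sup_left
  rw [← h4]
  refine sup_le h1 (sup_le h2 (hFV.trans (sup_le ((pCore_le_sylow q S).trans h2) h3)))

/-- Let G be a solvable group of odd order such that G, or its Fitting subgroup, has no elementary abelian subgroup of order q ^ 3 for any prime q. Then G' is nilpotent; for every Sylow subgroup S of G, every characteristic subgroup T of S with T ≤ [S, S] is normal in G; and for every prime p, G has a characteristic subgroup that is a Hall subgroup for the set of primes greater than p. -/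
theorem result {G : Type*} [Group G] [Finite G] [Group.IsSolvable G] (hodd : Odd (Nat.card G)) (hr : Cfsg.RankLE 2 G ∨ Cfsg.RankLE 2 (Cfsg.fittingSubgroup G)) :
    Group.IsNilpotent ↥(commutator G) ∧
      (∀ (q : ℕ) [Fact q.Prime] (S : Sylow q G) (T : Subgroup ↥(S : Subgroup G)), T.Characteristic → T.map (S : Subgroup G).subtype ≤ ⁅(S : Subgroup G), (S : Subgroup G)⁆ →
        (T.map (S : Subgroup G).subtype).Normal) ∧
      ∀ p : ℕ, ∃ N : Subgroup G, N.Characteristic ∧ Cfsg.IsPiHall {q | q.Prime ∧ p < q} N := by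
  have hF : RankLE 2 ↥(fittingSubgroup G) := by
    rcases hr with hr | hr
    · intro q hq
      exact Cfsg.Agent.Lib.QdCore.prankLE_subgroup (hr q hq) _
    · exact hr
  have hcF : commutator G ≤ fittingSubgroup G :=
    commutator_le_fitting hodd (fun q _ => narrow_of_rank hF q)
  refine ⟨?_, fun q _ S T hT hle => normal_part hcF q S T hT hle,
    fun p => hall_aux p _ G rfl hodd hF⟩
  have : Group.IsNilpotent (fittingSubgroup G) := isNilpotent_fittingSubgroup
  exact Group.nilpotent_of_mulEquiv (Subgroup.subgroupOfEquivOfLe hcF)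

end Cfsg.Agent.S1451
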