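import Mathlib
import Cfsg.Statements.S1455
import Cfsg.Agent.Lib.RankTwoStruct
import Cfsg.Agent.Lib.NarrowAct
import Cfsg.Agent.Lib.FittingDer
import Cfsg.Agent.Lib.PLengthOne
import Cfsg.Agent.S1335

set_option autoImplicit false
open Cfsg

namespace Cfsg.Agent.S1455

open Subgroup Cfsg.Agent.Lib.PCore

/-- The `p`-rank of a finite group is that of a Sylow subgroup. -/
theorem prankLE_of_sylow {G : Type*} [Group G] [Finite G] {p : ℕ} [Fact p.Prime] (S : Sylow p G)
    {k : ℕ} (h : PRankLE p k ↥(S : Subgroup G)) : PRankLE p k G := by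
  intro A hA hAe
  have hAp : IsPGroup p A := by
    intro a
    refine ⟨1, ?_⟩
    apply Subtype.ext
    rw [pow_one]
    exact hAe a.1 a.2
  obtain ⟨Q, hQ⟩ := hAp.exists_le_sylow
  have h1 : PRankLE p k A := by
    refine Cfsg.Agent.S1335.prankLE_of_injective
      ((Sylow.equiv Q S).toMonoidHom.comp (Subgroup.inclusion hQ)) ?_ h
    intro a b hab
    exact Subgroup.inclusion_injective hQ ((Sylow.equiv Q S).injective hab)
  have h2 := h1 ⊤ ⟨⟨fun a b => Subtype.ext (hA.is_comm.comm a.1 b.1)⟩⟩ (by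
    rintro a -
    apply Subtype.ext
    exact hAe a.1 a.2)
  rwa [Subgroup.card_top] at h2

/-- Let G be a solvable group of odd order, p a prime dividing its order, and S a Sylow p-subgroup of G that is narrow; if S has an elementary abelian subgroup of order p ^ 3 assume also G = O_{p',p,p'}(G). Then every prime dividing the index of O_{p'}(G) is at most p; if p = 3 or p is the smallest prime divisor of #G then G has a normal p-complement; G' has a normal p-complement; every subgroup of G' of order coprime to p lies in O_{p'}(G'); and G' ≤ O_{p',p}(G) with the index of O_{p',p}(G) coprime to p. -/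
theorem result {G : Type*} [Group G] [Finite G] [Group.IsSolvable G] (hodd : Odd (Nat.card G)) (p : ℕ) [Fact p.Prime] (hpG : p ∣ Nat.card G) (S : Sylow p G) (hS : Cfsg.IsNarrow p ↥(S : Subgroup G))
    (hpl : ¬ Cfsg.PRankLE p 2 ↥(S : Subgroup G) → Cfsg.PLengthLE p 1 G) :
    (∀ q : ℕ, q.Prime → q ∣ (Cfsg.pPrimeCore p G).index → q ≤ p) ∧
      ((p = 3 ∨ ∀ q : ℕ, q.Prime → q ∣ Nat.card G → p ≤ q) → Cfsg.HasNormalPComplement p G) ∧
      Cfsg.HasNormalPComplement p ↥(commutator G) ∧
      (∀ L : Subgroup ↥(commutator G), (Nat.card L).Coprime p → L ≤ Cfsg.pPrimeCore p ↥(commutator G)) ∧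
      commutator G ≤ Cfsg.pPrimePCore p G ∧ ((Cfsg.pPrimePCore p G).index).Coprime p := by
  classical
  have hp2 : p ≠ 2 := by
    rintro rfl
    exact (Nat.not_even_iff_odd.mpr hodd) (even_iff_two_dvd.mpr hpG)
  by_cases hr : PRankLE p 2 ↥(S : Subgroup G)
  · obtain ⟨ρ, hk⟩ := Cfsg.Agent.Lib.RankTwoStruct.exists_rep_of_rank hp2 (prankLE_of_sylow S hr)
    exact Cfsg.Agent.Lib.RankTwoStruct.structure_of_rep hodd hp2 ρ hk
  have hl := hpl hr
  have hNn : (pPrimeCore p G).Normal := Subgroup.normal_of_characteristic _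
  let N := pPrimeCore p G
  let Q := G ⧸ N
  let π : G →* Q := QuotientGroup.mk' N
  have hπ : Function.Surjective π := QuotientGroup.mk'_surjective N
  have hQodd : Odd (Nat.card Q) := Odd.of_dvd_nat hodd (Subgroup.index_dvd_card N)
  have hQs : Group.IsSolvable Q := Group.isSolvable_of_surjective hπ
  have hRn' : (pCore p Q).Normal := Subgroup.normal_of_characteristic _
  let f : ↥(S : Subgroup G) →* Q := π.comp (S : Subgroup G).subtype
  have hfinj : Function.Injective f := by
    rw [injective_iff_map_eq_one]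
    rintro ⟨x, hx⟩ hfx
    have hxN : x ∈ N := (QuotientGroup.eq_one_iff x).mp hfx
    apply Subtype.ext
    obtain ⟨k, hk⟩ := S.isPGroup' ⟨x, hx⟩
    have hk' : x ^ p ^ k = 1 := congrArg Subtype.val hk
    have hc : (orderOf x).Coprime p :=
      Nat.Coprime.coprime_dvd_left (Subgroup.orderOf_dvd_natCard _ hxN) (card_pPrimeCore_coprime p)
    exact Cfsg.Agent.Lib.FittingDer.eq_one_of_pow_of_coprime hk' hc
  have hfr : f.range = pCore p Q := by
    apply le_antisymm
    · rintro _ ⟨⟨x, hx⟩, rfl⟩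
      exact Cfsg.Agent.Lib.PLengthOne.isPGroup_le_pPrimePCore hl S.isPGroup' hx
    · intro y hy
      let T : Sylow p Q := S.mapSurjective hπ
      have h2 : y ∈ (T : Subgroup Q) := pCore_le_sylow p T hy
      have h3 : y ∈ (S : Subgroup G).map π := h2
      obtain ⟨s, hs, hsy⟩ := h3
      exact ⟨⟨s, hs⟩, hsy⟩
  have hRn : IsNarrow p ↥(pCore p Q) :=
    Cfsg.Agent.Lib.NarrowAct.isNarrow_of_equiv
      ((MonoidHom.ofInjective hfinj).trans (MulEquiv.subgroupCongr hfr)) hS
  let Φ : Q →* MulAut ↥(pCore p Q) := MulAut.conjNormal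
  have hφ : ∀ a, Φ a = 1 → (orderOf a).Coprime p → a = 1 := by
    intro a ha hco
    have h1 : a ∈ centralizer (pCore p Q : Set Q) := by
      rw [Subgroup.mem_centralizer_iff]
      intro h hh
      have h5 := congrArg (fun f : MulAut ↥(pCore p Q) => ((f ⟨h, hh⟩ : ↥(pCore p Q)) : Q)) ha
      have h6 : a * h * a⁻¹ = h := h5
      rw [mul_inv_eq_iff_eq_mul] at h6
      exact h6.symm
    have h2 : a ∈ pCore p Q :=
      centralizer_pCore_le p (pPrimeCore_quotient_pPrimeCore p) h1
    obtain ⟨k, hk⟩ := isPGroup_pCore (G := Q) p ⟨a, h2⟩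
    have hk' : a ^ p ^ k = 1 := congrArg Subtype.val hk
    exact Cfsg.Agent.Lib.FittingDer.eq_one_of_pow_of_coprime hk' hco
  exact Cfsg.Agent.Lib.RankTwoStruct.structure_of_comm hodd
    (Cfsg.Agent.Lib.NarrowAct.isPGroup_commutator_of_aut hp2 (isPGroup_pCore p) hRn hQodd Φ hφ)
    (fun q hq hqd => Cfsg.Agent.Lib.NarrowAct.prime_le_of_aut hp2 (isPGroup_pCore p) hRn hQodd Φ hφ hq hqd)

end Cfsg.Agent.S1455
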