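import Mathlib
import Cfsg.Statements.S1448
import Cfsg.Agent.Lib.RankTwoA2
import Cfsg.Agent.Lib.RankTwoRep
import Cfsg.Agent.Lib.NarrowAct
import Cfsg.Agent.Lib.OddPGroup
import Cfsg.Agent.S1462
import Cfsg.Agent.S0636

set_option autoImplicit false
open Cfsg

namespace Cfsg.Agent.S1448

open Subgroup Cfsg.Agent.Lib.RankTwoA1 Cfsg.Agent.Lib.RankTwoA2
open scoped commutatorElement

section helpers
variable {G : Type*} [Group G] [Finite G] {p : ℕ} [hp : Fact p.Prime]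

theorem rank_of {R E : Subgroup G} (hr : Cfsg.PRankLE p 2 R) (hER : E ≤ R) (hE : IsElementaryAbelian p E) :
    Nat.card E ≤ p ^ 2 := by
  have h1 := hr (E.subgroupOf R) ⟨⟨fun a b => by
      apply Subtype.ext
      apply Subtype.ext
      have h2 := hE.1.is_comm.comm (⟨a.1.1, a.2⟩ : E) ⟨b.1.1, b.2⟩
      have h3 : (a.1.1 * b.1.1 : G) = b.1.1 * a.1.1 := congrArg Subtype.val h2
      exact h3⟩⟩ (fun a ha => by
      apply Subtype.ext
      exact hE.2 a.1 ha)
  have h2 : Nat.card (E.subgroupOf R) = Nat.card E :=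
    Nat.card_congr (subgroupOfEquivOfLe hER).toEquiv
  rwa [h2] at h1

theorem ea_absorb {R X : Subgroup G} (hr : Cfsg.PRankLE p 2 R) (hXR : X ≤ R) (hX : IsElementaryAbelian p X)
    (hcard : Nat.card X = p ^ 2) {x : G} (hxR : x ∈ R) (hxp : x ^ p = 1) (hxc : ∀ a ∈ X, a * x = x * a) : x ∈ X := by
  obtain ⟨B, hXB, hxB, hB, hmin⟩ := Cfsg.Agent.S1462.elementary_sup hX hxc hxp
  have hBR : B ≤ R := hmin R hXR hxR
  have h1 : Nat.card B ≤ p ^ 2 := rank_of hr hBR hB
  have h2 : X = B := Subgroup.eq_of_le_of_card_ge hXB (by rw [hcard]; exact h1)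
  rw [h2]
  exact hxB

theorem cube {R W : Subgroup G} (hR : IsPGroup p R) (hr : Cfsg.PRankLE p 2 R) (hWR : W ≤ R)
    (he : ∀ x ∈ W, x ^ p = 1) : Nat.card W ≤ p ^ 3 := by
  apply Cfsg.Agent.Lib.RankTwoRep.card_le_cube_of_exponent (hR.to_le hWR)
  intro B hB
  have h1 : B.map W.subtype ≤ R := by
    rintro _ ⟨b, _, rfl⟩
    exact hWR b.2
  have h2 : IsElementaryAbelian p (B.map W.subtype) := by
    refine ⟨⟨⟨?_⟩⟩, ?_⟩
    · rintro ⟨_, a, ha, rfl⟩ ⟨_, b, hb, rfl⟩
      apply Subtype.ext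
      have h3 := hB.is_comm.comm ⟨a, ha⟩ ⟨b, hb⟩
      exact congrArg (fun x : B => ((x : W) : G)) h3
    · rintro _ ⟨a, _, rfl⟩
      exact he a a.2
  have h3 := rank_of hr h1 h2
  rwa [Subgroup.card_map_of_injective W.subtype_injective] at h3

theorem mem_of_cyclic {Z : Type*} [Group Z] [Finite Z] [IsCyclic Z] {z c : Z} (hz : z ^ p = 1) (hz1 : z ≠ 1)
    (hc : c ^ p = 1) : c ∈ zpowers z := by
  classical
  haveI := Fintype.ofFinite Z
  have hpp := hp.out
  have h1 : (Finset.univ.filter (fun a : Z => a ^ p = 1)).card ≤ p := IsCyclic.card_pow_eq_one_le hpp.pos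
  have ho : orderOf z = p := orderOf_eq_prime hz hz1
  let T : Finset Z := Finset.univ.filter (fun a : Z => a ∈ zpowers z)
  have hT : T.card = p := by
    rw [← ho, ← Nat.card_zpowers, Nat.card_eq_fintype_card]
    exact (Fintype.card_subtype _).symm
  have hsub : T ⊆ Finset.univ.filter (fun a : Z => a ^ p = 1) := by
    intro a ha
    have ha' : a ∈ zpowers z := (Finset.mem_filter.mp ha).2
    obtain ⟨k, rfl⟩ := ha'
    simp only [Finset.mem_filter, Finset.mem_univ, true_and]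
    show (z ^ k) ^ p = 1
    rw [← zpow_natCast, ← zpow_mul, mul_comm, zpow_mul, zpow_natCast, hz, one_zpow]
  have heq := Finset.eq_of_subset_of_card_le hsub (by rw [hT]; exact h1)
  have hcT : c ∈ T := by
    rw [heq]
    simp [hc]
  exact (Finset.mem_filter.mp hcT).2

theorem gen_of_card {Y : Subgroup G} (hYcard : Nat.card Y = p) {y u : G} (hy : y ∈ Y) (hy1 : y ≠ 1) (hu : u ∈ Y) :
    ∃ k : ℕ, u = y ^ k := by
  have hg : (⟨y, hy⟩ : Y) ≠ 1 := fun e => hy1 (congrArg Subtype.val e)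
  have h1 := mem_zpowers_of_prime_card (g' := (⟨u, hu⟩ : Y)) hYcard hg
  obtain ⟨k, hk⟩ := Cfsg.Agent.Lib.Class2Det.exists_nat_of_mem_zpowers h1
  exact ⟨k, (congrArg Subtype.val hk).symm⟩

/-- `3 < p`. -/
theorem three_lt {R A : Subgroup G} (hp2 : p ≠ 2) (hR : IsPGroup p R) (hR1 : R ≠ ⊥) (hr : Cfsg.PRankLE p 2 R)
    (hA : A ≤ normalizer (R : Set G)) (hcop : (Nat.card A).Coprime p) (hAodd : Odd (Nat.card A))
    (hRA : ⁅R, A⁆ = R) : 3 < p := by
  have hpp := hp.out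
  by_contra hle
  have hp3 : p = 3 := by
    have := hpp.two_le
    omega
  let D := (Cfsg.Agent.S1447.actHom R A hA).range
  have hd : Nat.card D ∣ Nat.card A := Subgroup.card_range_dvd _
  have hodd : Odd (Nat.card D) := Odd.of_dvd_nat hAodd hd
  have hcopD : (Nat.card D).Coprime p := Nat.Coprime.coprime_dvd_left hd hcop
  have htriv : Nat.card D = 1 := by
    by_contra hne
    obtain ⟨q, hq, hqd⟩ := Nat.exists_prime_and_dvd hne
    have h1 := Cfsg.Agent.Lib.NarrowAct.prime_le_of_aut hp2 hR (Or.inl hr) hodd D.subtype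
      (fun a ha _ => Subtype.ext ha) hq hqd
    have hq2 : q ≠ 2 := by
      rintro rfl
      have : Odd 2 := Odd.of_dvd_nat hodd hqd
      exact absurd this (by decide)
    have hq3 : q = 3 := by
      have := hq.two_le
      omega
    rw [hq3, ← hp3] at hqd
    have h2 := Nat.Coprime.eq_one_of_dvd hcopD.symm hqd
    exact hpp.one_lt.ne' h2
  have hbot : D = ⊥ := Subgroup.card_eq_one.mp htriv
  have hcl := Cfsg.Agent.S1447.closure_act R A hA hRA
  have hle2 : closure {x : R | ∃ g : R, ∃ a ∈ (Cfsg.Agent.S1447.actHom R A hA).range, x = g⁻¹ * a g} ≤ ⊥ := by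
    rw [closure_le]
    rintro x ⟨g, a, ha, rfl⟩
    have ha' : a = 1 := by
      have : a ∈ D := ha
      rw [hbot, mem_bot] at this
      exact this
    rw [ha']
    simp
  rw [hcl] at hle2
  apply hR1
  rw [eq_bot_iff]
  intro x hx
  have h1 : (⟨x, hx⟩ : R) ∈ (⊥ : Subgroup R) := hle2 (mem_top _)
  rw [mem_bot] at h1 ⊢
  exact congrArg Subtype.val h1

/-- If the only element of order `p` central modulo `Y` lie in `Y`, then `R` is cyclic. -/
theorem case_one {R Y : Subgroup G} (hp2 : p ≠ 2) (hR : IsPGroup p R) (hYcard : Nat.card Y = p)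
    (hZY : ∀ c ∈ R, (∀ r ∈ R, c * r = r * c) → c ^ p = 1 → c ∈ Y)
    (hE : ∀ x ∈ R, x ^ p = 1 → (∀ r ∈ R, ⁅x, r⁆ ∈ Y) → x ∈ Y) : IsCyclic R := by
  have hpp := hp.out
  by_contra hnc
  have h1 : ¬ IsCyclic (⊤ : Subgroup R) := by
    intro h
    apply hnc
    exact isCyclic_of_surjective (Subgroup.topEquiv : (⊤ : Subgroup R) ≃* R).toMonoidHom
      (Subgroup.topEquiv : (⊤ : Subgroup R) ≃* R).surjective
  obtain ⟨N, -, hNn, hNe, hNc⟩ := Cfsg.Agent.S0636.result hp2 hR ⊤ h1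
  have hNne : N ≠ ⊥ := by
    rintro rfl
    rw [Subgroup.card_bot] at hNc
    have : 1 < p ^ 2 := Nat.one_lt_pow (by norm_num) hpp.one_lt
    omega
  obtain ⟨z, hzN, hz1, hzc⟩ := Cfsg.Agent.Lib.PuigBasic.exists_mem_center_of_normal hR N hNne
  have hzY : (z : G) ∈ Y := by
    apply hZY z z.2
    · intro r hr
      have h2 := mem_center_iff.mp hzc ⟨r, hr⟩
      exact (congrArg Subtype.val h2).symm
    · exact congrArg Subtype.val (hNe.2 z hzN)
  have hle : N.map R.subtype ≤ Y := by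
    rintro _ ⟨x, hx, rfl⟩
    apply hE x x.2
    · exact congrArg Subtype.val (hNe.2 x hx)
    · intro r hr
      have h3 := comm_mem_zpowers hR hNc.le hzN hz1 hzc hx ⟨r, hr⟩
      obtain ⟨k, hk⟩ := h3
      have h4 : (z : G) ^ k = ⁅(x : G), r⁆ := congrArg Subtype.val hk
      show ⁅(x : G), r⁆ ∈ Y
      rw [← h4]
      exact zpow_mem hzY k
  have h5 := Subgroup.card_le_of_le hle
  rw [Subgroup.card_map_of_injective R.subtype_injective, hNc, hYcard] at h5
  have : p ^ 2 > p := by nlinarith [hpp.two_le]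
  omega

theorem comm_of_proper {E T : Subgroup G} (hE : IsPGroup p E) (hEc : Nat.card E = p ^ 3) (hTE : T ≤ E) (hne : T ≠ E)
    {x y : G} (hx : x ∈ T) (hy : y ∈ T) : x * y = y * x := by
  have hpp := hp.out
  have hT : IsPGroup p T := hE.to_le hTE
  obtain ⟨m, hm⟩ := IsPGroup.iff_card.mp hT
  have h1 : Nat.card T ∣ Nat.card E := Subgroup.card_dvd_of_le hTE
  have h2 : m ≤ 3 := by
    rw [hm, hEc] at h1
    exact (Nat.pow_dvd_pow_iff_le_right hpp.one_lt).mp h1
  have h3 : m ≠ 3 := by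
    rintro rfl
    apply hne
    exact Subgroup.eq_of_le_of_card_ge hTE (by rw [hEc, hm])
  have h4 : m ≤ 2 := by omega
  have h5 : Nat.card T ≤ p ^ 2 := by
    rw [hm]
    exact Nat.pow_le_pow_right hpp.pos h4
  exact congrArg Subtype.val (comm_of_card_le_sq hT h5 ⟨x, hx⟩ ⟨y, hy⟩)

/-- The central product structure. -/
theorem case_three {R E Y : Subgroup G} (hp2 : p ≠ 2) (hR : IsPGroup p R) (hr : Cfsg.PRankLE p 2 R) (hER : E ≤ R)
    (hEe : ∀ x ∈ E, x ^ p = 1) (hEc : Nat.card E = p ^ 3) (hEY : ∀ x ∈ E, ∀ r ∈ R, ⁅x, r⁆ ∈ Y)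
    (hYE : Y ≤ E) (hYcard : Nat.card Y = p) (hYc : ∀ y ∈ Y, ∀ r ∈ R, y * r = r * y)
    (hZY : ∀ c ∈ R, (∀ r ∈ R, c * r = r * c) → c ^ p = 1 → c ∈ Y) :
    ∃ R₁ R₂ : Subgroup G, R₁ ⊔ R₂ = R ∧ (∀ a ∈ R₁, ∀ b ∈ R₂, a * b = b * a) ∧
        ¬ IsMulCommutative R₁ ∧ Nat.card R₁ = p ^ 3 ∧ Monoid.exponent R₁ = p ∧ IsCyclic R₂ ∧
        Subgroup.closure {x : G | x ∈ R₂ ∧ x ^ p = 1} = ⁅R₁, R₁⁆ := by
  classical
  have hpp := hp.out
  have hEp : IsPGroup p E := hR.to_le hER
  have hYR : Y ≤ R := hYE.trans hER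
  have hYe : ∀ y ∈ Y, y ^ p = 1 := fun y hy => hEe y (hYE hy)
  have hlt : p ^ 2 < p ^ 3 := Nat.pow_lt_pow_right hpp.one_lt (by norm_num)
  have hnab : ¬ IsMulCommutative E := by
    intro hc
    have h1 := rank_of hr hER ⟨hc, hEe⟩
    omega
  have hex : ∃ u ∈ E, ∃ v ∈ E, u * v ≠ v * u := by
    by_contra hcon
    push Not at hcon
    exact hnab ⟨⟨fun a b => Subtype.ext (hcon a a.2 b b.2)⟩⟩
  obtain ⟨u, hu, v, hv, huv⟩ := hex
  have hy1 : ⁅u, v⁆ ≠ 1 := by
    intro h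
    rw [commutatorElement_eq_one_iff_mul_comm] at h
    exact huv h
  have hyY : ⁅u, v⁆ ∈ Y := hEY u hu v (hER hv)
  set R₂ : Subgroup G := R ⊓ centralizer (E : Set G) with hR₂
  have hright : ∀ z ∈ E, ∀ r ∈ R, ∀ s ∈ R, ⁅z, r * s⁆ = ⁅z, r⁆ * ⁅z, s⁆ := by
    intro z hz r hr' s hs
    have e : ⁅z, r * s⁆ = ⁅z, r⁆ * (r * ⁅z, s⁆ * r⁻¹) := by
      simp only [commutatorElement_def]
      group
    rw [e, ← hYc _ (hEY z hz s hs) r hr', mul_inv_cancel_right]
  have hpow : ∀ z ∈ E, ∀ r ∈ R, ∀ k : ℕ, ⁅z, r ^ k⁆ = ⁅z, r⁆ ^ k := by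
    intro z hz r hr' k
    induction k with
    | zero => simp
    | succ k ih =>
      rw [pow_succ, hright z hz _ (pow_mem hr' k) r hr', ih, pow_succ]
  have hinv : ∀ z ∈ E, ∀ r ∈ R, ⁅z, r⁻¹⁆ = ⁅z, r⁆⁻¹ := by
    intro z hz r hr'
    have h1 := hright z hz r hr' r⁻¹ (inv_mem hr')
    rw [mul_inv_cancel, commutatorElement_one_right] at h1
    exact (inv_eq_of_mul_eq_one_right h1.symm).symm
  have hsup : ∀ r ∈ R, ∃ e ∈ E, ∃ c ∈ R₂, r = e * c := by
    intro r hr'
    obtain ⟨i, hi⟩ := gen_of_card hYcard hyY hy1 (hEY u hu r hr')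
    obtain ⟨j, hj⟩ := gen_of_card hYcard hyY hy1 (hEY v hv r hr')
    set e := v ^ i * (u ^ j)⁻¹ with he
    have heE : e ∈ E := mul_mem (pow_mem hv i) (inv_mem (pow_mem hu j))
    have hc : e⁻¹ * r ∈ R := mul_mem (inv_mem (hER heE)) hr'
    have huu : ∀ k : ℕ, ⁅u, u ^ k⁆ = 1 := by
      intro k
      rw [hpow u hu u (hER hu), commutatorElement_self, one_pow]
    have hvv : ∀ k : ℕ, ⁅v, v ^ k⁆ = 1 := by
      intro k
      rw [hpow v hv v (hER hv), commutatorElement_self, one_pow]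
    have h1 : ⁅u, e⁆ = ⁅u, v⁆ ^ i := by
      rw [he, hright u hu _ (hER (pow_mem hv i)) _ (hER (inv_mem (pow_mem hu j))),
        hinv u hu _ (hER (pow_mem hu j)), huu, hpow u hu v (hER hv)]
      simp
    have h2 : ⁅v, e⁆ = ⁅u, v⁆ ^ j := by
      rw [he, hright v hv _ (hER (pow_mem hv i)) _ (hER (inv_mem (pow_mem hu j))),
        hinv v hv _ (hER (pow_mem hu j)), hvv, hpow v hv u (hER hu)]
      have e2 : ⁅v, u⁆ = ⁅u, v⁆⁻¹ := (commutatorElement_inv u v).symm
      rw [e2, one_mul, inv_pow, inv_inv]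
    have h3 : ⁅u, e⁻¹ * r⁆ = 1 := by
      have h4 := hright u hu e (hER heE) (e⁻¹ * r) hc
      rw [mul_inv_cancel_left, hi, h1] at h4
      exact (mul_eq_left.mp h4.symm)
    have h4 : ⁅v, e⁻¹ * r⁆ = 1 := by
      have h5 := hright v hv e (hER heE) (e⁻¹ * r) hc
      rw [mul_inv_cancel_left, hj, h2] at h5
      exact (mul_eq_left.mp h5.symm)
    refine ⟨e, heE, e⁻¹ * r, mem_inf.mpr ⟨hc, ?_⟩, by group⟩
    rw [mem_centralizer_iff]
    intro w hw
    by_contra hwc
    let T := E ⊓ centralizer ({e⁻¹ * r} : Set G)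
    have hTE : T ≤ E := inf_le_left
    have hne : T ≠ E := by
      intro hTeq
      have h5 : w ∈ T := by rw [hTeq]; exact hw
      have h6 := mem_centralizer_iff.mp h5.2 (e⁻¹ * r) rfl
      exact hwc h6.symm
    have huT : u ∈ T := mem_inf.mpr ⟨hu, by
      rw [mem_centralizer_iff]
      rintro _ rfl
      rw [commutatorElement_eq_one_iff_mul_comm] at h3
      exact h3.symm⟩
    have hvT : v ∈ T := mem_inf.mpr ⟨hv, by
      rw [mem_centralizer_iff]
      rintro _ rfl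
      rw [commutatorElement_eq_one_iff_mul_comm] at h4
      exact h4.symm⟩
    exact huv (comm_of_proper hEp hEc hTE hne huT hvT)
  have hΩ : ∀ x ∈ R₂, x ^ p = 1 → x ∈ Y := by
    intro x hx hxp
    by_contra hxY
    have hYea : IsElementaryAbelian p Y := by
      refine ⟨⟨⟨fun a b => Subtype.ext (hYc a a.2 b (hYR b.2))⟩⟩, hYe⟩
    obtain ⟨T, hYT, hxT, hTe, hTmin⟩ := Cfsg.Agent.S1462.elementary_sup hYea
      (fun a ha => hYc a ha x hx.1) hxp
    have hTR : T ≤ R := hTmin R hYR hx.1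
    have hTp : IsPGroup p T := hR.to_le hTR
    have hTc : Nat.card T = p ^ 2 := by
      have h1 := rank_of hr hTR hTe
      obtain ⟨m, hm⟩ := IsPGroup.iff_card.mp hTp
      have h2 : m ≤ 2 := by
        rw [hm] at h1
        exact (Nat.pow_le_pow_iff_right hpp.one_lt).mp h1
      have h3 : Nat.card Y ≤ Nat.card T := Subgroup.card_le_of_le hYT
      rw [hYcard, hm] at h3
      interval_cases m
      · simp at h3
        have := hpp.two_le
        omega
      · exfalso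
        apply hxY
        have h4 : Y = T := Subgroup.eq_of_le_of_card_ge hYT (by rw [hYcard, hm, pow_one])
        rw [h4]
        exact hxT
      · exact hm
    have hex : ∃ w ∈ E, w ∉ T := by
      by_contra hcon
      push Not at hcon
      have h1 := Subgroup.card_le_of_le (show E ≤ T from hcon)
      rw [hEc, hTc] at h1
      omega
    obtain ⟨w, hw, hwT⟩ := hex
    apply hwT
    refine ea_absorb hr hTR hTe hTc (hER hw) (hEe w hw) ?_
    have hTQ : T ≤ centralizer ({w} : Set G) := by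
      apply hTmin
      · intro y hy
        rw [mem_centralizer_iff]
        intro g hg
        have hg' : g = w := hg
        rw [hg']
        exact (hYc y hy w (hER hw)).symm
      · rw [mem_centralizer_iff]
        intro g hg
        have hg' : g = w := hg
        rw [hg']
        exact (mem_centralizer_iff.mp (mem_inf.mp hx).2) w hw
    intro a ha
    exact (mem_centralizer_iff.mp (hTQ ha) w rfl).symm
  have hYR₂ : Y ≤ R₂ := by
    intro y hy
    refine mem_inf.mpr ⟨hYR hy, ?_⟩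
    rw [mem_centralizer_iff]
    intro e he
    exact (hYc y hy e (hER he)).symm
  refine ⟨E, R₂, ?_, ?_, hnab, hEc, ?_, ?_, ?_⟩
  · apply le_antisymm
    · exact sup_le hER inf_le_left
    · intro r hr'
      obtain ⟨e, he, c, hc, rfl⟩ := hsup r hr'
      exact mul_mem ((le_sup_left : E ≤ E ⊔ R₂) he) ((le_sup_right : R₂ ≤ E ⊔ R₂) hc)
  · intro a ha b hb
    exact (mem_centralizer_iff.mp hb.2) a ha
  · haveI : Nontrivial E := by
      refine ⟨⟨⟨u, hu⟩, 1, ?_⟩⟩
      intro h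
      have h1 : u = 1 := congrArg Subtype.val h
      rw [h1] at huv
      simp at huv
    rw [Monoid.exponent_eq_prime_iff hpp]
    intro g hg
    exact orderOf_eq_prime (Subtype.ext (hEe g g.2)) hg
  · refine Cfsg.Agent.Lib.OddPGroup.isCyclic_of_unique hp2 (hR.to_le inf_le_left) ?_
    have key : ∀ H : Subgroup R₂, Nat.card H = p → H.map R₂.subtype = Y := by
      intro H hH
      apply Subgroup.eq_of_le_of_card_ge
      · rintro _ ⟨x, hx, rfl⟩
        apply hΩ x x.2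
        have h1 : (⟨x, hx⟩ : H) ^ p = 1 := by
          rw [← hH]
          exact pow_card_eq_one'
        have h2 := congrArg (fun z : H => ((z : R₂) : G)) h1
        exact h2
      · rw [Subgroup.card_map_of_injective R₂.subtype_injective, hH, hYcard]
    intro H K hH hK
    apply Subgroup.map_injective R₂.subtype_injective
    rw [key H hH, key K hK]
  · have hcl1 : closure {x : G | x ∈ R₂ ∧ x ^ p = 1} = Y := by
      apply le_antisymm
      · rw [closure_le]
        rintro x ⟨hx, hxp⟩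
        exact hΩ x hx hxp
      · intro y hy
        exact subset_closure ⟨hYR₂ hy, hYe y hy⟩
    have hcl2 : (⁅E, E⁆ : Subgroup G) = Y := by
      apply le_antisymm
      · rw [Subgroup.commutator_le]
        intro x hx z hz
        exact hEY x hx z (hER hz)
      · intro w hw
        obtain ⟨k, rfl⟩ := gen_of_card hYcard hyY hy1 hw
        exact pow_mem (Subgroup.commutator_mem_commutator hu hv) k
    rw [hcl1, hcl2]

end helpers

/-- Let G be a finite group, p an odd prime, R a nontrivial p-subgroup with no elementary abelian subgroup of order p ^ 3, and A a subgroup of odd order coprime to p normalizing R with [R, A] = R. Then 3 < p, and either R is abelian or R is generated by two elementwise-commuting subgroups R₁, R₂ with R₁ non-abelian of order p ^ 3 and exponent p, R₂ cyclic, and the elements of R₂ of order dividing p generating exactly [R₁, R₁]. -/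
theorem result {G : Type*} [Group G] [Finite G] (p : ℕ) [Fact p.Prime] (hp : p ≠ 2) (R A : Subgroup G) (hR : IsPGroup p R) (hR1 : R ≠ ⊥) (hr : Cfsg.PRankLE p 2 R)
    (hA : (A ≤ Subgroup.normalizer (R : Set G))) (hcop : (Nat.card A).Coprime p) (hAodd : Odd (Nat.card A)) (hRA : ⁅R, A⁆ = R) :
    3 < p ∧ (IsMulCommutative R ∨ ∃ R₁ R₂ : Subgroup G, R₁ ⊔ R₂ = R ∧ (∀ a ∈ R₁, ∀ b ∈ R₂, a * b = b * a) ∧
        ¬ IsMulCommutative R₁ ∧ Nat.card R₁ = p ^ 3 ∧ Monoid.exponent R₁ = p ∧ IsCyclic R₂ ∧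
        Subgroup.closure {x : G | x ∈ R₂ ∧ x ^ p = 1} = ⁅R₁, R₁⁆) := by
  classical
  have hpp : p.Prime := Fact.out
  have hp3 : 3 < p := three_lt hp hR hR1 hr hA hcop hAodd hRA
  refine ⟨hp3, ?_⟩
  have h5 : 5 ≤ p := by
    by_contra hlt
    have h4 : p = 4 := by omega
    rw [h4] at hpp
    exact absurd hpp (by norm_num)
  by_cases hO : ∀ W : Subgroup R, (∀ a ∈ W, a ^ p = 1) → Nat.card W ≤ p ^ 2
  · left
    have hm := Cfsg.Agent.Lib.Huppert2.metacyclic_main hp3 hR hO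
    have h1 := Cfsg.Agent.Lib.MetaAct.comm_of_metacyclic hp hR hm (Cfsg.Agent.S1447.actHom R A hA).range
      (Nat.Coprime.coprime_dvd_left (Subgroup.card_range_dvd _) hcop)
      (Cfsg.Agent.S1447.closure_act R A hA hRA)
    exact ⟨⟨h1⟩⟩
  push Not at hO
  obtain ⟨W₀, hW₀e, hW₀c⟩ := hO
  let W₁ : Subgroup G := W₀.map R.subtype
  have hW₁R : W₁ ≤ R := by
    rintro _ ⟨w, _, rfl⟩
    exact w.2
  have hW₁e : ∀ x ∈ W₁, x ^ p = 1 := by
    rintro _ ⟨w, hw, rfl⟩
    exact congrArg Subtype.val (hW₀e w hw)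
  have hW₁c : p ^ 2 < Nat.card W₁ := by
    rw [Subgroup.card_map_of_injective R.subtype_injective]
    exact hW₀c
  -- the centre
  let Z : Subgroup G := R ⊓ centralizer (R : Set G)
  have hZR : Z ≤ R := inf_le_left
  have hZcen : ∀ z ∈ Z, ∀ r ∈ R, z * r = r * z := fun z hz r hr' =>
    ((mem_centralizer_iff.mp hz.2) r hr').symm
  have hZc : IsCyclic Z := by
    by_contra hnc
    obtain ⟨E₀, hE₀, hE₀c⟩ := Cfsg.Agent.S1447.exists_ea_of_noncyclic hp (hR.to_le hZR) hnc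
    let X₀ : Subgroup G := E₀.map Z.subtype
    have hX₀R : X₀ ≤ R := by
      rintro _ ⟨z, _, rfl⟩
      exact hZR z.2
    have hX₀Z : X₀ ≤ Z := by
      rintro _ ⟨z, _, rfl⟩
      exact z.2
    have hX₀ea : IsElementaryAbelian p X₀ := by
      refine ⟨⟨⟨?_⟩⟩, ?_⟩
      · rintro ⟨a, ha⟩ ⟨b, hb⟩
        apply Subtype.ext
        exact hZcen a (hX₀Z ha) b (hX₀R hb)
      · rintro _ ⟨a, ha, rfl⟩
        exact congrArg Subtype.val (hE₀.2 a ha)
    have hX₀c : Nat.card X₀ = p ^ 2 := by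
      rw [Subgroup.card_map_of_injective Z.subtype_injective, hE₀c]
    have hle : W₁ ≤ X₀ := by
      intro x hx
      exact ea_absorb hr hX₀R hX₀ea hX₀c (hW₁R hx) (hW₁e x hx)
        (fun a ha => hZcen a (hX₀Z ha) x (hW₁R hx))
    have h1 := Subgroup.card_le_of_le hle
    rw [hX₀c] at h1
    omega
  have hZne : Z ≠ ⊥ := by
    have htop : (⊤ : Subgroup R) ≠ ⊥ := by
      intro h
      apply hR1
      rw [eq_bot_iff]
      intro x hx
      have h1 : (⟨x, hx⟩ : R) ∈ (⊥ : Subgroup R) := by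
        rw [← h]
        exact mem_top _
      rw [mem_bot] at h1 ⊢
      exact congrArg Subtype.val h1
    obtain ⟨z, -, hz1, hzc⟩ := Cfsg.Agent.Lib.PuigBasic.exists_mem_center_of_normal hR ⊤ htop
    intro hbot
    have h1 : (z : G) ∈ Z := by
      refine mem_inf.mpr ⟨z.2, ?_⟩
      rw [mem_centralizer_iff]
      intro r hr'
      exact congrArg Subtype.val (mem_center_iff.mp hzc ⟨r, hr'⟩)
    rw [hbot, mem_bot] at h1
    exact hz1 (Subtype.ext h1)
  obtain ⟨z₀, hz₀Z, hz₀1, hz₀p⟩ := exists_order_p (hR.to_le hZR) hZne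
  let Y : Subgroup G := zpowers z₀
  have hYcard : Nat.card Y = p := by
    rw [Nat.card_zpowers]
    exact orderOf_eq_prime hz₀p hz₀1
  have hYZ : Y ≤ Z := zpowers_le.mpr hz₀Z
  have hYR : Y ≤ R := hYZ.trans hZR
  have hYc : ∀ y ∈ Y, ∀ r ∈ R, y * r = r * y := fun y hy => hZcen y (hYZ hy)
  have hYe : ∀ y ∈ Y, y ^ p = 1 := by
    intro y hy
    have h1 : (⟨y, hy⟩ : Y) ^ p = 1 := by
      rw [← hYcard]
      exact pow_card_eq_one'
    exact congrArg Subtype.val h1
  have hZY : ∀ c ∈ R, (∀ r ∈ R, c * r = r * c) → c ^ p = 1 → c ∈ Y := by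
    intro c hc hcen hcp
    have hcZ : c ∈ Z := mem_inf.mpr ⟨hc, by
      rw [mem_centralizer_iff]
      intro r hr'
      exact (hcen r hr').symm⟩
    have h1 := mem_of_cyclic (p := p) (z := (⟨z₀, hz₀Z⟩ : Z)) (c := (⟨c, hcZ⟩ : Z))
      (Subtype.ext hz₀p) (fun e => hz₀1 (congrArg Subtype.val e)) (Subtype.ext hcp)
    obtain ⟨k, hk⟩ := h1
    have h2 : z₀ ^ k = c := congrArg Subtype.val hk
    exact ⟨k, h2⟩
  have haR : ∀ a ∈ A, ∀ r ∈ R, a * r * a⁻¹ ∈ R := fun a ha r hr' =>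
    (mem_normalizer_iff.mp (hA ha) r).mp hr'
  have hYA : ∀ a ∈ A, ∀ y ∈ Y, a * y * a⁻¹ ∈ Y := by
    intro a ha y hy
    apply hZY _ (haR a ha y (hYR hy))
    · intro r hr'
      have h1 := hYc y hy (a⁻¹ * r * a⁻¹⁻¹) (haR a⁻¹ (inv_mem ha) r hr')
      have h2 : a * (y * (a⁻¹ * r * a⁻¹⁻¹)) * a⁻¹ = a * ((a⁻¹ * r * a⁻¹⁻¹) * y) * a⁻¹ := by rw [h1]
      calc a * y * a⁻¹ * r = a * (y * (a⁻¹ * r * a⁻¹⁻¹)) * a⁻¹ := by group
        _ = a * ((a⁻¹ * r * a⁻¹⁻¹) * y) * a⁻¹ := h2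
        _ = r * (a * y * a⁻¹) := by group
    · rw [← conj_pow', hYe y hy]
      simp
  -- the subgroup `S`
  let S : Subgroup G :=
    { carrier := {x | x ∈ R ∧ ∀ r ∈ R, ⁅x, r⁆ ∈ Y}
      one_mem' := ⟨one_mem _, fun r _ => by simp⟩
      mul_mem' := by
        rintro x x' ⟨hx, hxr⟩ ⟨hx', hxr'⟩
        refine ⟨mul_mem hx hx', fun r hr' => ?_⟩
        have e : ⁅x * x', r⁆ = (x * ⁅x', r⁆ * x⁻¹) * ⁅x, r⁆ := by
          simp only [commutatorElement_def]
          group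
        rw [e, ← hYc _ (hxr' r hr') x hx, mul_inv_cancel_right]
        exact mul_mem (hxr' r hr') (hxr r hr')
      inv_mem' := by
        rintro x ⟨hx, hxr⟩
        refine ⟨inv_mem hx, fun r hr' => ?_⟩
        have e : ⁅x⁻¹, r⁆ = x⁻¹ * (⁅x, r⁆)⁻¹ * x⁻¹⁻¹ := by
          simp only [commutatorElement_def]
          group
        rw [e, ← hYc _ (inv_mem (hxr r hr')) _ (inv_mem hx), mul_inv_cancel_right]
        exact inv_mem (hxr r hr') }
  have hSmem : ∀ x, x ∈ S ↔ x ∈ R ∧ ∀ r ∈ R, ⁅x, r⁆ ∈ Y := fun x => Iff.rfl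
  have hSR : S ≤ R := fun x hx => hx.1
  have hSpow : ∀ x y : S, (x * y) ^ p = x ^ p * y ^ p := by
    apply Cfsg.Agent.Lib.Class2Det.mul_pow_prime hp
    · intro x y
      rw [mem_center_iff]
      intro g
      apply Subtype.ext
      exact (hYc _ (x.2.2 y (hSR y.2)) g (hSR g.2)).symm
    · intro x y
      apply Subtype.ext
      exact hYe _ (x.2.2 y (hSR y.2))
  let E : Subgroup G :=
    { carrier := {x | x ∈ S ∧ x ^ p = 1}
      one_mem' := ⟨one_mem _, by simp⟩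
      mul_mem' := by
        rintro x y ⟨hx, hxp⟩ ⟨hy, hyp⟩
        refine ⟨mul_mem hx hy, ?_⟩
        have h1 := hSpow ⟨x, hx⟩ ⟨y, hy⟩
        have h2 : (x * y) ^ p = x ^ p * y ^ p := congrArg Subtype.val h1
        rw [h2, hxp, hyp, one_mul]
      inv_mem' := by
        rintro x ⟨hx, hxp⟩
        exact ⟨inv_mem hx, by rw [inv_pow, hxp, inv_one]⟩ }
  have hEmem : ∀ x, x ∈ E ↔ (x ∈ R ∧ ∀ r ∈ R, ⁅x, r⁆ ∈ Y) ∧ x ^ p = 1 := fun x => Iff.rfl
  have hER : E ≤ R := fun x hx => hx.1.1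
  have hEe : ∀ x ∈ E, x ^ p = 1 := fun x hx => hx.2
  have hEY : ∀ x ∈ E, ∀ r ∈ R, ⁅x, r⁆ ∈ Y := fun x hx => hx.1.2
  have hYE : Y ≤ E := by
    intro y hy
    refine ⟨⟨hYR hy, fun r hr' => ?_⟩, hYe y hy⟩
    have h1 : ⁅y, r⁆ = 1 := by
      rw [commutatorElement_eq_one_iff_mul_comm]
      exact hYc y hy r hr'
    rw [h1]
    exact one_mem _
  have hEA : ∀ a ∈ A, ∀ x ∈ E, a * x * a⁻¹ ∈ E := by
    intro a ha x hx
    refine ⟨⟨haR a ha x (hER hx), fun r hr' => ?_⟩, ?_⟩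
    · have h1 := hEY x hx _ (haR a⁻¹ (inv_mem ha) r hr')
      have h2 := hYA a ha _ h1
      rw [conj_comm] at h2
      have e : a * (a⁻¹ * r * a⁻¹⁻¹) * a⁻¹ = r := by group
      rwa [e] at h2
    · rw [← conj_pow', hEe x hx]
      simp
  have hEp : IsPGroup p E := hR.to_le hER
  have hEc3 := cube hR hr hER hEe
  obtain ⟨m, hm⟩ := IsPGroup.iff_card.mp hEp
  have hm3 : m ≤ 3 := by
    rw [hm] at hEc3
    exact (Nat.pow_le_pow_iff_right hpp.one_lt).mp hEc3
  have hm0 : m ≠ 0 := by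
    rintro rfl
    rw [pow_zero] at hm
    have h1 := Subgroup.card_le_of_le hYE
    rw [hm, hYcard] at h1
    have := hpp.two_le
    omega
  have hm123 : m = 1 ∨ m = 2 ∨ m = 3 := by omega
  rcases hm123 with rfl | rfl | rfl
  · -- `E = Y`: `R` is cyclic
    left
    rw [pow_one] at hm
    have hEeqY : Y = E := Subgroup.eq_of_le_of_card_ge hYE (by rw [hm, hYcard])
    have hc := case_one hp hR hYcard hZY (fun x hx hxp hxr => by
      rw [hEeqY]
      exact ⟨⟨hx, hxr⟩, hxp⟩)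
    exact hc.commutative
  · -- the exceptional configuration
    exfalso
    have hXcomm : ∀ x ∈ E, ∀ y ∈ E, x * y = y * x := fun x hx y hy =>
      congrArg Subtype.val (comm_of_card_le_sq hEp hm.le ⟨x, hx⟩ ⟨y, hy⟩)
    have hEea : IsElementaryAbelian p E := ⟨⟨⟨fun a b => Subtype.ext (hXcomm a a.2 b b.2)⟩⟩, hEe⟩
    have hex : ∃ g₀ ∈ W₁, g₀ ∉ E := by
      by_contra hcon
      push Not at hcon
      have h1 := Subgroup.card_le_of_le (show W₁ ≤ E from hcon)
      rw [hm] at h1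
      omega
    obtain ⟨g₀, hg₀W, hg₀E⟩ := hex
    have hCcomm : ∀ x ∈ R ⊓ centralizer (E : Set G), x ^ p = 1 → x ∈ E := by
      intro x hx hxp
      exact ea_absorb hr hER hEea hm (mem_inf.mp hx).1 hxp
        (fun a ha => mem_centralizer_iff.mp (mem_inf.mp hx).2 a ha)
    have hII : IIb p R A E Y (R ⊓ centralizer (E : Set G)) g₀ :=
      { h5 := h5
        hR := hR
        hA := hA
        hcop := hcop
        hodd := hAodd
        hRA := hRA
        hXR := hER
        hXexp := hEe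
        hXcomm := hXcomm
        hXcard := hm
        hXA := hEA
        hYX := hYE
        hYcard := hYcard
        hYcen := hYc
        hYA := hYA
        hXY := hEY
        hD := rfl
        hDΩ := hCcomm
        hE := fun x hx hxp hxr => ⟨⟨hx, hxr⟩, hxp⟩
        hZ := hZY
        hg₀R := hW₁R hg₀W
        hg₀p := hW₁e g₀ hg₀W
        hg₀D := fun h => hg₀E (hCcomm g₀ h (hW₁e g₀ hg₀W)) }
    exact hII.false
  · right
    exact case_three hp hR hr hER hEe hm hEY hYE hYcard hYc hZY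

end Cfsg.Agent.S1448
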