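import Mathlib
import Cfsg.Agent.S1410
import Cfsg.Agent.S1448
import Cfsg.Agent.Lib.BGFus2

set_option autoImplicit false
open Cfsg

namespace Cfsg.Agent.S1412

/-- Let G be a minimal simple group of odd order, p a prime and P a Sylow p-subgroup of G with no elementary abelian subgroup of order p ^ 3. Then either P is abelian, or P is generated by two elementwise-commuting subgroups P₁, P₂ with P₁ nonabelian of order p ^ 3 and exponent p, P₂ cyclic, and the elements of P₂ of order dividing p generating exactly the centre of P₁. -/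
theorem result {G : Type*} [Group G] [Finite G] (hG : Cfsg.IsMinSimpleOddOrder G) (p : ℕ) [Fact p.Prime] (P : Sylow p G) (hr : Cfsg.PRankLE p 2 (P : Subgroup G)) :
    IsMulCommutative (P : Subgroup G) ∨ ∃ P₁ P₂ : Subgroup G, P₁ ⊔ P₂ = (P : Subgroup G) ∧ (∀ a ∈ P₁, ∀ b ∈ P₂, a * b = b * a) ∧
        ¬ IsMulCommutative P₁ ∧ Nat.card P₁ = p ^ 3 ∧ Monoid.exponent P₁ = p ∧ IsCyclic P₂ ∧
        Subgroup.closure {x : G | x ∈ P₂ ∧ x ^ p = 1} = P₁ ⊓ Subgroup.centralizer (P₁ : Set G) := by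
  classical
  have hpp : p.Prime := Fact.out
  by_cases hP1 : (P : Subgroup G) = ⊥
  · left
    refine ⟨⟨fun a b => ?_⟩⟩
    apply Subtype.ext
    have ha : (a : G) ∈ (⊥ : Subgroup G) := hP1 ▸ a.2
    have hb : (b : G) ∈ (⊥ : Subgroup G) := hP1 ▸ b.2
    rw [Subgroup.mem_bot] at ha hb
    simp [ha, hb]
  obtain ⟨V, hV, hVc⟩ := Cfsg.Agent.Lib.BGFus2.exists_compl P
  have hS11 := Cfsg.Agent.Lib.BGFus.s1411 hG (fun H hH => Cfsg.Agent.S1410.result hG p H hH) P V hV
  have hoddG : Odd (Nat.card G) := hG.1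
  have hp2 : p ≠ 2 := by
    rintro rfl
    have h1 : Nat.card (P : Subgroup G) ≠ 1 := fun h => hP1 (Subgroup.card_eq_one.mp h)
    obtain ⟨k, hk⟩ := IsPGroup.iff_card.mp P.2
    have hk0 : k ≠ 0 := by
      rintro rfl
      exact h1 (by simpa using hk)
    have h2 : 2 ∣ Nat.card (P : Subgroup G) := by
      rw [hk]
      exact dvd_pow_self 2 hk0
    have h3 : Odd (Nat.card (P : Subgroup G)) := Odd.of_dvd_nat hoddG (Subgroup.card_subgroup_dvd_card _)
    exact (Nat.not_even_iff_odd.mpr h3) (even_iff_two_dvd.mpr h2)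
  have hVodd : Odd (Nat.card V) := Odd.of_dvd_nat hoddG (Subgroup.card_subgroup_dvd_card _)
  obtain ⟨-, hR⟩ := Cfsg.Agent.S1448.result p hp2 (P : Subgroup G) V P.2 hP1 hr hV.2.1 hVc hVodd hS11.1.symm
  rcases hR with hc | ⟨R₁, R₂, h1, h2, h3, h4, h5, h6, h7⟩
  · exact Or.inl hc
  · refine Or.inr ⟨R₁, R₂, h1, h2, h3, h4, h5, h6, ?_⟩
    rw [h7]
    exact Cfsg.Agent.Lib.BGFus2.comm_eq_inf_centralizer h3 h4

end Cfsg.Agent.S1412
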