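import Cfsg.Statements.S1414
import Cfsg.Agent.Lib.BGM3

set_option autoImplicit false
open Cfsg

namespace Cfsg.Agent.S1414

/-- Let G be a minimal simple group of odd order, M a maximal subgroup, β(M) the set of ideal primes in α(M), and M_β = O_{β(M)}(M). Then M_β is a Hall β(M)-subgroup of M and of G; M' and M_σ each have a nilpotent Hall β(M)'-subgroup; and for each prime p dividing the order of M with p ∉ β(M), both M' and M_σ have normal p-complements and every prime dividing the index of O_{p'}(M) in M is at most p. -/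
theorem result {G : Type*} [Group G] [Finite G] (hG : Cfsg.IsMinSimpleOddOrder G)
    (M : Subgroup G) (hM : IsCoatom M) :
    Cfsg.IsPiHallOf (Cfsg.beta M) (Cfsg.piCoreOf (Cfsg.beta M) M) M ∧ Cfsg.IsPiHall (Cfsg.beta M) (Cfsg.piCoreOf (Cfsg.beta M) M) ∧
      (∃ H : Subgroup G, Cfsg.IsPiHallOf {q | q.Prime ∧ q ∉ Cfsg.beta M} H ⁅M, M⁆ ∧ Group.IsNilpotent H) ∧
      (∃ H : Subgroup G, Cfsg.IsPiHallOf {q | q.Prime ∧ q ∉ Cfsg.beta M} H (Cfsg.sigmaCore M) ∧ Group.IsNilpotent H) ∧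
      ∀ p : ℕ, p.Prime → p ∣ Nat.card M → p ∉ Cfsg.beta M →
        Cfsg.HasNormalPComplement p ↥⁅M, M⁆ ∧ Cfsg.HasNormalPComplement p ↥(Cfsg.sigmaCore M) ∧
        ∀ q : ℕ, q.Prime → q ∣ (Cfsg.pPrimeCore p ↥M).index → q ≤ p := by
  obtain ⟨h1, h2⟩ := Cfsg.Agent.Lib.BGM3.beta_hall hG hM
  refine ⟨h1, h2, ?_, ?_, ?_⟩
  · refine Cfsg.Agent.Lib.BGM3.hall_of_npc _ _ ?_
    intro q hq hqb hd
    refine Cfsg.Agent.Lib.BGM3.npc_commutator hG hM q hq hqb ?_
    have hle : ⁅M, M⁆ ≤ M := by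
      rw [← Subgroup.map_subtype_commutator M]
      exact Subgroup.map_subtype_le _
    exact hd.trans (Subgroup.card_dvd_of_le hle)
  · refine Cfsg.Agent.Lib.BGM3.hall_of_npc _ _ ?_
    intro q hq hqb hd
    refine Cfsg.Agent.Lib.BGM3.npc_sigmaCore hG hM q hq hqb ?_
    exact hd.trans (Subgroup.card_dvd_of_le Cfsg.Agent.Lib.BGM1.sigmaCore_le)
  · intro p hpp hpd hpb
    refine ⟨Cfsg.Agent.Lib.BGM3.npc_commutator hG hM p hpp hpb hpd,
      Cfsg.Agent.Lib.BGM3.npc_sigmaCore hG hM p hpp hpb hpd,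
      (Cfsg.Agent.Lib.BGM3.npc_facts hG hM hpp hpd hpb).2⟩

end Cfsg.Agent.S1414
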