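import Mathlib
import Cfsg.Statements.S0058
import Cfsg.Agent.Lib.FpfNorm
import Cfsg.Agent.Lib.CoprimeHyper

set_option autoImplicit false
open Cfsg

namespace Cfsg.Agent.S0058

/-- Generation by centralisers: when a noncyclic abelian group A normalises K with coprime orders, K is generated by the fixed-point subgroups of the nonidentity elements of A. -/
theorem result {G : Type*} [Group G] [Finite G] (A K : Subgroup G)
    [IsMulCommutative A] (hA : ¬ IsCyclic A) (hAK : A ≤ Subgroup.normalizer (K : Set G)) (hcop : (Nat.card A).Coprime (Nat.card K)) :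
    (⨆ a ∈ {a : G | a ∈ A ∧ a ≠ 1}, K ⊓ Subgroup.centralizer {a}) = K := by
  classical
  apply le_antisymm
  · exact iSup₂_le fun a _ => inf_le_left
  -- commutative structure
  have hAcomm : ∀ a b : A, a * b = b * a := fun a b => (IsMulCommutative.is_comm (M := A)).comm a b
  letI : CommGroup A := { (inferInstance : Group A) with mul_comm := hAcomm }
  -- a prime with too many solutions of `x ^ q = 1`
  obtain ⟨q, hq, hlt⟩ : ∃ q : ℕ, q.Prime ∧ q < Nat.card (powMonoidHom q : A →* A).ker := by
    by_contra hcon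
    apply hA
    have hprime : ∀ q : ℕ, q.Prime → Nat.card (powMonoidHom q : A →* A).ker ≤ q := by
      intro q hq
      by_contra hlt
      exact hcon ⟨q, hq, by omega⟩
    have key := Cfsg.Agent.Lib.FpfNorm.card_ker_pow_le hprime
    letI := Fintype.ofFinite A
    apply isCyclic_of_card_pow_eq_one_le
    intro n hn
    have h1 := key n hn
    rw [Nat.card_eq_fintype_card, Fintype.card_subtype] at h1
    convert h1 using 2
    ext a
    simp [MonoidHom.mem_ker]
  haveI : Fact q.Prime := ⟨hq⟩
  set T0 := (powMonoidHom q : A →* A).ker with hT0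
  set T : Subgroup G := T0.map A.subtype with hT
  have hTA : T ≤ A := Subgroup.map_subtype_le _
  have hTc : Nat.card T = Nat.card T0 := Subgroup.card_map_of_injective A.subtype_injective
  have hTpow : ∀ a ∈ T, a ^ q = 1 := by
    rintro _ ⟨x, hx, rfl⟩
    have h1 : x ^ q = 1 := hx
    exact congrArg Subtype.val h1
  have hTcomm : IsMulCommutative T := by
    refine ⟨⟨?_⟩⟩
    rintro ⟨x, hx⟩ ⟨y, hy⟩
    apply Subtype.ext
    have := hAcomm ⟨x, hTA hx⟩ ⟨y, hTA hy⟩
    exact congrArg (Subtype.val : A → G) this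
  have hTp : IsPGroup q T := by
    intro x
    refine ⟨1, ?_⟩
    apply Subtype.ext
    simpa using hTpow x x.2
  obtain ⟨k, hk⟩ := IsPGroup.iff_card.1 hTp
  have hqT : q ∣ Nat.card T := by
    rw [hk]
    apply dvd_pow_self
    rintro rfl
    rw [pow_zero] at hk
    rw [hTc] at hk
    have := hq.pos
    omega
  have hqK : ¬ q ∣ Nat.card K := by
    intro h
    have h1 : q ∣ Nat.card A := hqT.trans (Subgroup.card_dvd_of_le hTA)
    exact hq.one_lt.ne' (Nat.eq_one_of_dvd_coprimes hcop h1 h)
  have hmain := Cfsg.Agent.Lib.CoprimeHyper.eq_iSup_inf_centralizer T K hTcomm hTpow hqK (hTA.trans hAK)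
  conv_lhs => rw [hmain]
  refine iSup_le ?_
  rintro ⟨B, hBT, hBi⟩
  -- `B` is nontrivial
  have hB : B ≠ ⊥ := by
    rintro rfl
    rw [Subgroup.relIndex_bot_left] at hBi
    rw [hTc] at hBi
    have := hq.pos
    omega
  obtain ⟨b, hb, hb1⟩ := (Subgroup.ne_bot_iff_exists_ne_one).1 hB |> fun ⟨x, hx⟩ => (⟨(x : G), x.2, fun h => hx (Subtype.ext h)⟩ : ∃ b, b ∈ B ∧ b ≠ 1)
  have hbA : b ∈ A := hTA (hBT hb)
  calc K ⊓ Subgroup.centralizer ((B : Subgroup G) : Set G)
      ≤ K ⊓ Subgroup.centralizer {b} := by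
        apply inf_le_inf_left
        apply Subgroup.centralizer_le
        simpa using hb
    _ ≤ _ := le_iSup₂_of_le b ⟨hbA, hb1⟩ le_rfl

end Cfsg.Agent.S0058
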