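import Mathlib
-- Template for statement S0962 (row 962; see /opt/grader/pristine/manifest.json for weights).
-- Copy to Cfsg/Agent/S0962.lean and replace the sorry. The statement below is byte-identical to the frozen
-- statement Cfsg.CfsgFrozen.S0962 (Cfsg/Statements/S0962.lean; the theorem Cfsg.card_blocks_of_defect_ge_le_card_p_regular_classes);
-- the grader kernel-checks Cfsg.Agent.S0962.result against that frozen type. Keep the theorem IN THIS FILE
-- (a `result` declared elsewhere and merely imported here is not credited); helpers may live anywhere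
-- under Cfsg/Agent/.
import Cfsg.Statements.S0962
import Cfsg.Agent.Lib.BlkCount

set_option autoImplicit false
open Cfsg

namespace Cfsg.Agent.S0962

open Cfsg Cfsg.Agent.Lib.CharBasic Cfsg.Agent.Lib.CharInd Cfsg.Agent.Lib.CharIntegrality
open Cfsg.Agent.Lib.BlockLocal Cfsg.Agent.Lib.BlockIdem Cfsg.Agent.Lib.BlkBasic
open Cfsg.Agent.Lib.BlockOsima Cfsg.Agent.Lib.BlkCount

/-- Fix a maximal ideal M of the algebraic integers containing the prime p and a natural number d. The number of blocks of the finite group G of defect at least d is at most the number of conjugacy classes of p-regular elements of G of defect at least d, where the defect of a class is the exponent of p in the order of the centralizer of any of its elements. -/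
theorem result {G : Type*} [Group G] [Finite G] (p : ℕ) [Fact p.Prime] (M : Ideal Cfsg.AlgInt) (hM : Cfsg.IsPModular p M) (d : ℕ) : Nat.card {B : Set (Cfsg.IrrCharacter G) // Cfsg.IsPBlock M B ∧ d ≤ Cfsg.blockDefect p B} ≤ Nat.card {C : ConjClasses G // ∃ g : G, ConjClasses.mk g = C ∧ Cfsg.IsPRegular p g ∧ d ≤ (Nat.card (Subgroup.centralizer ({g} : Set G))).factorization p} := by
  classical
  letI : Fintype G := Fintype.ofFinite G
  haveI := hM.2.1.isPrime
  letI : Fintype (ConjClasses G) := Fintype.ofFinite _
  let 𝔅 := {B : Set (IrrCharacter G) // IsPBlock M B ∧ d ≤ blockDefect p B}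
  let Pr : ConjClasses G → Prop := fun C => ∃ g : G, ConjClasses.mk g = C ∧ IsPRegular p g ∧
    d ≤ (Nat.card (Subgroup.centralizer ({g} : Set G))).factorization p
  let 𝒞 := {C : ConjClasses G // Pr C}
  letI : Fintype 𝔅 := Fintype.ofFinite _
  letI : Fintype 𝒞 := Fintype.ofFinite _
  have hrep : ∀ B : 𝔅, ∃ χ : IrrCharacter G, B.1 = blockOf M (χ : G → ℂ) := fun B => B.2.1
  choose χB hχB using hrep
  have hχBmem : ∀ B : 𝔅, χB B ∈ B.1 := fun B => by
    rw [hχB B]
    exact mem_blockOf_self _
  choose g hg1 hg2 hg3 using fun C : 𝒞 => C.2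
  have hωR : ∀ (χ : IrrCharacter G) (x : G), MemLocalRing M (centralChar (χ : G → ℂ) x) :=
    fun χ x => memLocalRing_of_isIntegral (isIntegral_centralChar χ x)
  have hfR : ∀ (B : 𝔅) (x : G), MemLocalRing M (blockCoeff B.1 x) :=
    fun B x => memLocalRing_blockCoeff B.2.1 x
  let res := IsLocalRing.residue (localSubring M)
  let A : Matrix 𝔅 𝒞 (IsLocalRing.ResidueField (localSubring M)) :=
    fun B C => res ⟨blockCoeff B.1 (g C), hfR B _⟩
  let W : Matrix 𝒞 𝔅 (IsLocalRing.ResidueField (localSubring M)) :=
    fun C B => res ⟨centralChar (χB B : G → ℂ) (g C), hωR _ _⟩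
  -- the key congruence
  have hkey : ∀ B B' : 𝔅, MemLocalIdeal M (∑ C : 𝒞, blockCoeff B.1 (g C) * centralChar (χB B' : G → ℂ) (g C) -
      @ite ℂ (B = B') (Classical.propDecidable _) 1 0) := by
    intro B B'
    have h1 := omega_eq_sum_classes (χB B') (Cfsg.Agent.Lib.BlkBasic.blockCoeff_isClassFunction B.1)
    rw [Cfsg.Agent.Lib.BlkBasic.omega_blockCoeff] at h1
    have h2 : blkInd B.1 (χB B') = @ite ℂ (B = B') (Classical.propDecidable _) 1 0 := by
      by_cases hBB : B = B'
      · rw [if_pos hBB, hBB]
        exact blkInd_of_mem (hχBmem B')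
      · rw [if_neg hBB]
        apply blkInd_of_not_mem
        intro hmem
        apply hBB
        apply Subtype.ext
        rcases eq_or_disjoint_of_isPBlock B.2.1 B'.2.1 with h3 | h3
        · exact h3
        · exact absurd (hχBmem B') (Set.disjoint_left.mp h3 hmem)
    rw [← h2, h1]
    have h3 : ∑ K : ConjClasses G, blockCoeff B.1 (Quotient.out K) * centralChar (χB B' : G → ℂ) (Quotient.out K) =
        (∑ C : 𝒞, blockCoeff B.1 (g C) * centralChar (χB B' : G → ℂ) (g C)) +
        ∑ K : ConjClasses G, if Pr K then 0 else blockCoeff B.1 (Quotient.out K) * centralChar (χB B' : G → ℂ) (Quotient.out K) := by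
      have h4 : ∀ K : ConjClasses G, blockCoeff B.1 (Quotient.out K) * centralChar (χB B' : G → ℂ) (Quotient.out K) =
          (if Pr K then blockCoeff B.1 (Quotient.out K) * centralChar (χB B' : G → ℂ) (Quotient.out K) else 0) +
          (if Pr K then 0 else blockCoeff B.1 (Quotient.out K) * centralChar (χB B' : G → ℂ) (Quotient.out K)) := by
        intro K
        split_ifs <;> simp
      rw [Finset.sum_congr rfl fun K _ => h4 K, Finset.sum_add_distrib]
      congr 1
      rw [← Finset.sum_filter, Finset.sum_subtype (Finset.univ.filter Pr) (p := Pr) (by simp)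
        (fun K => blockCoeff B.1 (Quotient.out K) * centralChar (χB B' : G → ℂ) (Quotient.out K))]
      refine Finset.sum_congr rfl fun C _ => ?_
      have h5 := out_mk_value B.1 (χB B') (g C)
      rw [hg1 C] at h5
      exact h5
    rw [h3, sub_add_cancel_left]
    refine memLocalIdeal_neg (memLocalIdeal_sum _ _ fun K _ => ?_)
    split_ifs with hK
    · exact memLocalIdeal_zero
    · by_cases hreg : p ∣ orderOf (Quotient.out K)
      · rw [Cfsg.Agent.Lib.BlockOrtho.blockCoeff_eq_zero hM B.2.1 hreg, zero_mul]
        exact memLocalIdeal_zero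
      · refine memLocalIdeal_mul_left (hfR B _) ?_
        by_contra hcon
        have h6 := blockDefect_le_of_centralChar hM B'.2.1 (hχBmem B') hcon
        apply hK
        exact ⟨Quotient.out K, Quotient.out_eq K, hreg, B'.2.2.trans h6⟩
  have hAW : A * W = 1 := by
    ext B B'
    rw [Matrix.mul_apply]
    have h1 : ∑ C : 𝒞, A B C * W C B' = res (∑ C : 𝒞, (⟨blockCoeff B.1 (g C), hfR B _⟩ : localSubring M) *
        ⟨centralChar (χB B' : G → ℂ) (g C), hωR _ _⟩) := by
      rw [map_sum]
      refine Finset.sum_congr rfl fun C _ => ?_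
      rw [map_mul]
    rw [h1]
    by_cases hBB : B = B'
    · subst hBB
      rw [Matrix.one_apply_eq]
      have h2 := residue_eq_zero_of_memLocalIdeal (M := M) ((∑ C : 𝒞, (⟨blockCoeff B.1 (g C), hfR B _⟩ : localSubring M) *
        ⟨centralChar (χB B : G → ℂ) (g C), hωR _ _⟩) - 1) (by
          have h3 := hkey B B
          rw [if_pos rfl] at h3
          simpa using h3)
      rw [map_sub, map_one, sub_eq_zero] at h2
      exact h2
    · rw [Matrix.one_apply_ne hBB]
      apply residue_eq_zero_of_memLocalIdeal
      have h3 := hkey B B'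
      rw [if_neg hBB, sub_zero] at h3
      simpa using h3
  have h := card_le_of_mul_eq_one A W hAW
  rw [Nat.card_eq_fintype_card, Nat.card_eq_fintype_card]
  convert h

end Cfsg.Agent.S0962
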