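import Mathlib
-- Template for statement S0953 (row 953; see /opt/grader/pristine/manifest.json for weights).
-- Copy to Cfsg/Agent/S0953.lean and replace the sorry. The statement below is byte-identical to the frozen
-- statement Cfsg.CfsgFrozen.S0953 (Cfsg/Statements/S0953.lean; the theorem Cfsg.card_blocks_with_sylow_defect_group);
-- the grader kernel-checks Cfsg.Agent.S0953.result against that frozen type. Keep the theorem IN THIS FILE
-- (a `result` declared elsewhere and merely imported here is not credited); helpers may live anywhere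
-- under Cfsg/Agent/.
import Cfsg.Statements.S0953
import Cfsg.Agent.Lib.BlkCount
import Cfsg.Agent.S0962
import Cfsg.Agent.Lib.BlkFMT

set_option autoImplicit false
open Cfsg

namespace Cfsg.Agent.S0953

open Cfsg Cfsg.Agent.Lib.BlkSylow Cfsg.Agent.Lib.BlkCount

theorem isSylowIn_of_mem {G : Type*} [Group G] [Finite G] {p : ℕ} [Fact p.Prime] (P : Sylow p G) {g : G}
    (hg : g ∈ Subgroup.centralizer ((P : Subgroup G) : Set G)) :
    IsSylowIn p (P : Subgroup G) (Subgroup.centralizer ({g} : Set G)) := by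
  have hle : (P : Subgroup G) ≤ Subgroup.centralizer ({g} : Set G) := by
    intro u hu
    rw [Subgroup.mem_centralizer_singleton_iff]
    exact Subgroup.mem_centralizer_iff.mp hg u hu
  refine isSylowIn_of_card_eq P.isPGroup' hle ?_
  rw [Sylow.card_eq_multiplicity P]
  congr 1
  have h1 : (Nat.card G).factorization p ≤ (Nat.card (Subgroup.centralizer ({g} : Set G))).factorization p := by
    have h2 : Nat.card (P : Subgroup G) ∣ Nat.card (Subgroup.centralizer ({g} : Set G)) :=
      Subgroup.card_dvd_of_le hle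
    rw [Sylow.card_eq_multiplicity P] at h2
    exact (Nat.Prime.pow_dvd_iff_le_factorization Fact.out Nat.card_pos.ne').mp h2
  have h3 : (Nat.card (Subgroup.centralizer ({g} : Set G))).factorization p ≤ (Nat.card G).factorization p :=
    (Nat.factorization_le_iff_dvd Nat.card_pos.ne' Nat.card_pos.ne').mpr
      (Subgroup.card_subgroup_dvd_card _) p
  omega

theorem exists_conj_mem_of_defect {G : Type*} [Group G] [Finite G] {p : ℕ} [Fact p.Prime] (P : Sylow p G) {g : G}
    (hg : (Nat.card G).factorization p ≤ (Nat.card (Subgroup.centralizer ({g} : Set G))).factorization p) :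
    ∃ t : G, t * g * t⁻¹ ∈ Subgroup.centralizer ((P : Subgroup G) : Set G) := by
  obtain ⟨Q, hQ⟩ := exists_isSylowIn (p := p) (Subgroup.centralizer ({g} : Set G))
  obtain ⟨Sy, hSy⟩ := hQ.1.exists_le_sylow
  have h1 : Nat.card (Sy : Subgroup G) ≤ Nat.card Q := by
    rw [Sylow.card_eq_multiplicity Sy, hQ.card_eq]
    exact Nat.pow_le_pow_right (Fact.out : p.Prime).pos hg
  have h2 : Q = (Sy : Subgroup G) := Subgroup.eq_of_le_of_card_ge hSy h1
  obtain ⟨t, ht⟩ := MulAction.exists_smul_eq G Sy P
  refine ⟨t, ?_⟩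
  rw [Subgroup.mem_centralizer_iff]
  intro u hu
  have h3 : u ∈ (t • Sy : Sylow p G) := by
    rw [ht]
    exact hu
  have h4 : t⁻¹ * u * t ∈ Q := by
    rw [h2]
    have h5 : ((t • Sy : Sylow p G) : Subgroup G) = (Sy : Subgroup G).map (MulAut.conj t).toMonoidHom :=
      Sylow.coe_subgroup_smul
    have h6 : u ∈ ((t • Sy : Sylow p G) : Subgroup G) := h3
    rw [h5] at h6
    exact conj_mem_map.mp h6
  have h7 := Subgroup.mem_centralizer_singleton_iff.mp (hQ.2.1 h4)
  have h8 : t⁻¹ * u * t * g = g * (t⁻¹ * u * t) := h7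
  calc u * (t * g * t⁻¹) = t * (t⁻¹ * u * t * g) * t⁻¹ := by group
    _ = t * (g * (t⁻¹ * u * t)) * t⁻¹ := by rw [h8]
    _ = t * g * t⁻¹ * u := by group

/-- Let P be a Sylow p-subgroup of the finite group G with normalizer N, and fix a maximal ideal M of the algebraic integers containing p. The number of blocks of G having P as a defect group equals the number of conjugacy classes of N consisting of elements of order prime to p that centralize P. -/
theorem result {G : Type*} [Group G] [Finite G] (p : ℕ) [Fact p.Prime] (M : Ideal Cfsg.AlgInt) (hM : Cfsg.IsPModular p M) (P : Sylow p G) : Nat.card {B : Set (Cfsg.IrrCharacter G) // Cfsg.IsPBlock M B ∧ Cfsg.IsDefectGroup p M B (P : Subgroup G)} = Nat.card {C : ConjClasses (Subgroup.normalizer ((P : Subgroup G) : Set G)) // ∀ n : Subgroup.normalizer ((P : Subgroup G) : Set G), ConjClasses.mk n = C → ¬ p ∣ orderOf n ∧ (n : G) ∈ Subgroup.centralizer ((P : Subgroup G) : Set G)} := by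
  classical
  letI : Fintype G := Fintype.ofFinite G
  haveI := hM.2.1.isPrime
  have hp : p.Prime := Fact.out
  set a := (Nat.card G).factorization p with ha
  let 𝒦 := {C : ConjClasses (Subgroup.normalizer ((P : Subgroup G) : Set G)) //
    ∀ n : Subgroup.normalizer ((P : Subgroup G) : Set G), ConjClasses.mk n = C →
      ¬ p ∣ orderOf n ∧ (n : G) ∈ Subgroup.centralizer ((P : Subgroup G) : Set G)}
  letI : Fintype 𝒦 := Fintype.ofFinite _
  apply le_antisymm
  · -- `≤`: from the count of blocks of maximal defect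
    let 𝔅 := {B : Set (Cfsg.IrrCharacter G) // Cfsg.IsPBlock M B ∧ Cfsg.IsDefectGroup p M B (P : Subgroup G)}
    let 𝔅' := {B : Set (Cfsg.IrrCharacter G) // Cfsg.IsPBlock M B ∧ a ≤ Cfsg.blockDefect p B}
    let 𝒞 := {C : ConjClasses G // ∃ g : G, ConjClasses.mk g = C ∧ Cfsg.IsPRegular p g ∧
      a ≤ (Nat.card (Subgroup.centralizer ({g} : Set G))).factorization p}
    have h1 : Nat.card 𝔅 ≤ Nat.card 𝔅' := by
      refine Nat.card_le_card_of_injective (fun B : 𝔅 => (⟨B.1, B.2.1, ?_⟩ : 𝔅')) ?_
      · have h2 := Cfsg.Agent.Lib.BlockDefect.card_isDefectGroup hM B.2.1 B.2.2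
        rw [Sylow.card_eq_multiplicity P] at h2
        have h3 := Nat.pow_right_injective hp.two_le h2
        exact h3.le
      · intro B B' h
        have h5 : B.1 = B'.1 := congrArg (fun x : 𝔅' => x.1) h
        exact Subtype.ext h5
    have h2 : Nat.card 𝔅' ≤ Nat.card 𝒞 := Cfsg.Agent.S0962.result p M hM a
    -- lifting classes to the normalizer
    have hlift : ∀ C : 𝒞, ∃ (g : G) (t : G), ConjClasses.mk g = C.1 ∧ Cfsg.IsPRegular p g ∧
        t * g * t⁻¹ ∈ Subgroup.centralizer ((P : Subgroup G) : Set G) := by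
      rintro ⟨C, g, h3, h4, h5⟩
      obtain ⟨t, ht⟩ := exists_conj_mem_of_defect P h5
      exact ⟨g, t, h3, h4, ht⟩
    choose g t hg1 hg2 hg3 using hlift
    let n : 𝒞 → Subgroup.normalizer ((P : Subgroup G) : Set G) := fun C =>
      ⟨t C * g C * (t C)⁻¹, Subgroup.centralizer_le_normalizer _ (hg3 C)⟩
    have hn𝒦 : ∀ C : 𝒞, ∀ m : Subgroup.normalizer ((P : Subgroup G) : Set G), ConjClasses.mk m = ConjClasses.mk (n C) →
        ¬ p ∣ orderOf m ∧ (m : G) ∈ Subgroup.centralizer ((P : Subgroup G) : Set G) := by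
      intro C m hm
      obtain ⟨c, hc⟩ := isConj_iff.mp (ConjClasses.mk_eq_mk_iff_isConj.mp hm.symm)
      have hreg : ¬ p ∣ orderOf (n C) := by
        rw [← Subgroup.orderOf_coe]
        have h3 : ((n C : Subgroup.normalizer ((P : Subgroup G) : Set G)) : G) = (MulAut.conj (t C)) (g C) := rfl
        rw [h3, MulEquiv.orderOf_eq]
        exact hg2 C
      constructor
      · rw [← hc]
        have h3 : c * n C * c⁻¹ = (MulAut.conj c) (n C) := rfl
        rw [h3, MulEquiv.orderOf_eq]
        exact hreg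
      · rw [← hc]
        exact Cfsg.Agent.Lib.BlkBrauer.conj_mem_centralizer_of_mem_normalizer c.2 (hg3 C)
    have h3 : Nat.card 𝒞 ≤ Nat.card 𝒦 := by
      refine Nat.card_le_card_of_injective (fun C : 𝒞 => (⟨ConjClasses.mk (n C), hn𝒦 C⟩ : 𝒦)) ?_
      intro C C' h
      have h4 : ConjClasses.mk (n C) = ConjClasses.mk (n C') := congrArg Subtype.val h
      obtain ⟨c, hc⟩ := isConj_iff.mp (ConjClasses.mk_eq_mk_iff_isConj.mp h4)
      apply Subtype.ext
      rw [← hg1 C, ← hg1 C']
      rw [ConjClasses.mk_eq_mk_iff_isConj, isConj_iff]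
      refine ⟨(t C')⁻¹ * c * t C, ?_⟩
      have h5 := congrArg Subtype.val hc
      have h6 : (c : G) * (t C * g C * (t C)⁻¹) * (c : G)⁻¹ = t C' * g C' * (t C')⁻¹ := h5
      calc (t C')⁻¹ * c * t C * g C * ((t C')⁻¹ * c * t C)⁻¹
          = (t C')⁻¹ * ((c : G) * (t C * g C * (t C)⁻¹) * (c : G)⁻¹) * t C' := by group
        _ = (t C')⁻¹ * (t C' * g C' * (t C')⁻¹) * t C' := by rw [h6]
        _ = g C' := by group
    exact h1.trans (h2.trans h3)
  · -- `≥`: Brauer's nilpotency argument
    let n : 𝒦 → G := fun C => ((Quotient.out C.1 : Subgroup.normalizer ((P : Subgroup G) : Set G)) : G)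
    have hn : ∀ C : 𝒦, ¬ p ∣ orderOf (Quotient.out C.1 : Subgroup.normalizer ((P : Subgroup G) : Set G)) ∧
        ((Quotient.out C.1 : Subgroup.normalizer ((P : Subgroup G) : Set G)) : G) ∈ Subgroup.centralizer ((P : Subgroup G) : Set G) :=
      fun C => C.2 _ (Quotient.out_eq _)
    have hreg : ∀ C, ¬ p ∣ orderOf (n C) := by
      intro C
      have h1 := (hn C).1
      rwa [← Subgroup.orderOf_coe] at h1
    have hC : ∀ C, n C ∈ Subgroup.centralizer ((P : Subgroup G) : Set G) := fun C => (hn C).2
    have hinj : ∀ C C', IsConj (n C) (n C') → C = C' := by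
      intro C C' h
      obtain ⟨m, hm, hmc⟩ := Cfsg.Agent.Lib.BlkFMT.exists_normalizer_conj (g := n C) P.isPGroup'
        (isSylowIn_of_mem P (hC C)) (IsConj.refl _) h (hC C) (hC C')
      apply Subtype.ext
      have h1 : IsConj (Quotient.out C.1 : Subgroup.normalizer ((P : Subgroup G) : Set G)) (Quotient.out C'.1) := by
        rw [isConj_iff]
        refine ⟨⟨m, hm⟩, Subtype.ext ?_⟩
        exact hmc
      have h2 := ConjClasses.mk_eq_mk_iff_isConj.mpr h1
      have h3 : ConjClasses.mk (Quotient.out C.1 : Subgroup.normalizer ((P : Subgroup G) : Set G)) = C.1 := Quotient.out_eq _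
      have h4 : ConjClasses.mk (Quotient.out C'.1 : Subgroup.normalizer ((P : Subgroup G) : Set G)) = C'.1 := Quotient.out_eq _
      rw [← h3, ← h4, h2]
    have h := card_le_blocks hM P n hreg hC hinj
    rw [Nat.card_eq_fintype_card]
    exact h

end Cfsg.Agent.S0953
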