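import Mathlib
import Cfsg.Statements.S1516
import Cfsg.Agent.Lib.CoherenceSys
import Cfsg.Agent.Lib.CharDecomp

set_option autoImplicit false
open Cfsg

namespace Cfsg.Agent.S1516

open Cfsg.Agent.Lib.CharBasic Cfsg.Agent.Lib.GenChar Cfsg.Agent.Lib.CoherenceBasic
open Cfsg.Agent.Lib.CoherenceExt Cfsg.Agent.Lib.CoherenceSys Cfsg.Agent.Lib.CharDecomp
open scoped ComplexConjugate

/-- Let (S, τ, R) be a coherence system from L to G with degrees φ 1 = d φ and squared norms ⟨φ, φ⟩ = n φ for φ ∈ S. Let S₁ ⊆ S be a finite subset closed under complex conjugation such that (S₁, L minus 1, τ) is coherent, let χ ∈ S with χ ∉ S₁ and conj χ ∉ S₁, and let χ₁ ∈ S₁ with d χ₁ dividing d χ and 2 d χ d χ₁ < Σ_{φ ∈ S₁} (d φ)² / n φ. Then S₁ together with χ and conj χ is coherent. -/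
theorem result {L : Type*} [Group L] [Fintype L] {G : Type*} [Group G] [Fintype G] (S : Set (L → ℂ)) (τ : (L → ℂ) → (G → ℂ)) (R : (L → ℂ) → Finset (G → ℂ)) (hS : Cfsg.IsCoherenceSystem S τ R) (d n : (L → ℂ) → ℕ) (hd : ∀ φ ∈ S, φ 1 = (d φ : ℂ)) (hn : ∀ φ ∈ S, Cfsg.classInner φ φ = (n φ : ℂ)) (S₁ : Finset (L → ℂ)) (hS₁ : ↑S₁ ⊆ S) (hS₁c : ∀ φ ∈ S₁, Cfsg.conjFun φ ∈ S₁) (hcoh : Cfsg.IsCoherent (↑S₁ : Set (L → ℂ)) {1}ᶜ τ) (χ : L → ℂ) (hχ : χ ∈ S) (hχ₁ : χ ∉ S₁) (hχ₂ : Cfsg.conjFun χ ∉ S₁) (χ₁ : L → ℂ) (hχ₁S : χ₁ ∈ S₁) (hdvd : d χ₁ ∣ d χ) (hineq : (2 * d χ * d χ₁ : ℝ) < ∑ φ ∈ S₁, ((d φ : ℝ) ^ 2 / (n φ : ℝ))) : Cfsg.IsCoherent (↑S₁ ∪ {χ, Cfsg.conjFun χ} : Set (L → ℂ)) {1}ᶜ τ := by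

  classical
  obtain ⟨-, τ₁, hτ₁, hagree⟩ := hcoh
  have hτ := hS.isometry
  have hS₁mem : ∀ φ ∈ S₁, φ ∈ S := fun φ hφ => hS₁ (Finset.mem_coe.mpr hφ)
  have hS₁span : ∀ φ ∈ S₁, φ ∈ zspan (↑S₁ : Set (L → ℂ)) := fun φ hφ =>
    mem_zspan (Finset.mem_coe.mpr hφ)
  have hχ₁mem := hS₁mem χ₁ hχ₁S
  have hχc := hS.conj_mem χ hχ
  -- numbers
  obtain ⟨c, hc⟩ := hdvd
  have hnpos : ∀ φ ∈ S, 0 < n φ := by
    intro φ hφ
    obtain ⟨k, hk0, hk⟩ := sys_norm hS hφ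
    have : (n φ : ℂ) = k := by rw [← hn φ hφ, hk]
    have : n φ = k := by exact_mod_cast this
    omega
  have hd₁pos : 0 < d χ₁ := by
    have h1 := char_one_ne_zero (hS.isCharacter χ₁ hχ₁mem) (sys_ne_zero hS hχ₁mem)
    rw [hd χ₁ hχ₁mem] at h1
    have : d χ₁ ≠ 0 := by exact_mod_cast h1
    omega
  set d₁ := d χ₁ with hd₁
  set n₁ := n χ₁ with hn₁
  set nχ := n χ with hnχ
  have hdχ : χ 1 = (d₁ : ℂ) * c := by rw [hd χ hχ, hc]; push_cast; ring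
  have hd₁χ : χ₁ 1 = (d₁ : ℂ) := hd χ₁ hχ₁mem
  -- orthogonality of `χ`, its conjugate, and `S₁`
  have hχS₁ : ∀ φ ∈ S₁, classInner χ φ = 0 := fun φ hφ =>
    hS.orthogonal χ hχ φ (hS₁mem φ hφ) (fun h => hχ₁ (h ▸ hφ))
  have hS₁χ : ∀ φ ∈ S₁, classInner φ χ = 0 := fun φ hφ =>
    hS.orthogonal φ (hS₁mem φ hφ) χ hχ (fun h => hχ₁ (h ▸ hφ))
  have hχcS₁ : ∀ φ ∈ S₁, classInner (conjFun χ) φ = 0 := fun φ hφ =>
    hS.orthogonal _ hχc φ (hS₁mem φ hφ) (fun h => hχ₂ (h ▸ hφ))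
  have hS₁χc : ∀ φ ∈ S₁, classInner φ (conjFun χ) = 0 := fun φ hφ =>
    hS.orthogonal φ (hS₁mem φ hφ) _ hχc (fun h => hχ₂ (h ▸ hφ))
  have hχχ : classInner χ χ = (nχ : ℂ) := hn χ hχ
  have hχχc : classInner χ (conjFun χ) = 0 := sys_conj_orth hS hχ
  have hχcχ : classInner (conjFun χ) χ = 0 := by
    rw [← classInner_conj_symm, hχχc, map_zero]
  have hχcχc : classInner (conjFun χ) (conjFun χ) = (nχ : ℂ) := by
    rw [classInner_conjFun_conjFun, hχχ]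
    simp
  have hχ₁χ₁ : classInner χ₁ χ₁ = (n₁ : ℂ) := hn χ₁ hχ₁mem
  have hone_conj := sys_one_conj hS hχ
  -- the element `v₀`
  set v₀ : L → ℂ := χ - (c : ℤ) • χ₁ with hv₀
  have hv₀mem : v₀ ∈ zspanOn S {1}ᶜ := by
    rw [mem_zspanOn_compl_one]
    refine ⟨zspan_sub (mem_zspan hχ) (zspan_zsmul (mem_zspan hχ₁mem) _), ?_⟩
    simp only [hv₀, Pi.sub_apply, zsmul_apply, hdχ, hd₁χ]
    push_cast
    ring
  have hdiffmem := sys_diff_mem hS hχ
  set t : G → ℂ := τ (χ - conjFun χ) with ht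
  have htg : IsGeneralizedCharacter G t := iso_gen hτ hdiffmem
  set β : G → ℂ := τ v₀ with hβ
  have hβg : IsGeneralizedCharacter G β := iso_gen hτ hv₀mem
  have hβ₁g : IsGeneralizedCharacter G (τ₁ χ₁) := iso_gen hτ₁ (hS₁span χ₁ hχ₁S)
  set y : G → ℂ := β + (c : ℤ) • τ₁ χ₁ with hy
  have hyg : IsGeneralizedCharacter G y := isGen_add hβg (isGen_zsmul hβ₁g _)
  obtain ⟨m, hm⟩ := classInner_gen_gen hyg hβ₁g
  -- conjugate-closed facts for the span of `S₁`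
  have hcomb : ∀ φ ∈ S₁, (d₁ : ℤ) • φ - (d φ : ℤ) • χ₁ ∈ zspanOn (↑S₁ : Set (L → ℂ)) {1}ᶜ := by
    intro φ hφ
    rw [mem_zspanOn_compl_one]
    refine ⟨zspan_sub (zspan_zsmul (hS₁span φ hφ) _) (zspan_zsmul (hS₁span χ₁ hχ₁S) _), ?_⟩
    simp only [Pi.sub_apply, zsmul_apply, hd₁χ, hd φ (hS₁mem φ hφ)]
    push_cast
    ring
  have hmono : zspanOn (↑S₁ : Set (L → ℂ)) {1}ᶜ ⊆ zspanOn S {1}ᶜ := zspanOn_mono hS₁
  -- (C1)
  have hC1 : ∀ φ ∈ S₁, (d₁ : ℂ) * classInner y (τ₁ φ) = (d φ : ℂ) * m := by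
    intro φ hφ
    have hcm := hcomb φ hφ
    have h1 : τ₁ ((d₁ : ℤ) • φ - (d φ : ℤ) • χ₁) = τ ((d₁ : ℤ) • φ - (d φ : ℤ) • χ₁) :=
      hagree _ hcm
    have h2 : classInner β (τ ((d₁ : ℤ) • φ - (d φ : ℤ) • χ₁)) =
        classInner v₀ ((d₁ : ℤ) • φ - (d φ : ℤ) • χ₁) := iso_inner hτ hv₀mem (hmono hcm)
    have h3 : classInner (τ₁ χ₁) (τ₁ ((d₁ : ℤ) • φ - (d φ : ℤ) • χ₁)) =
        classInner χ₁ ((d₁ : ℤ) • φ - (d φ : ℤ) • χ₁) :=
      iso_inner hτ₁ (hS₁span χ₁ hχ₁S) hcm.1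
    have h4 : classInner y (τ₁ ((d₁ : ℤ) • φ - (d φ : ℤ) • χ₁)) = 0 := by
      rw [hy, classInner_add_left, classInner_zsmul_left, h3, h1, h2, hv₀]
      simp only [classInner_sub_left, classInner_sub_right, classInner_zsmul_left,
        classInner_zsmul_right, hχS₁ φ hφ, hχS₁ χ₁ hχ₁S]
      ring
    rw [iso_sub_zspan hτ₁ (zspan_zsmul (hS₁span φ hφ) _) (zspan_zsmul (hS₁span χ₁ hχ₁S) _),
      iso_zsmul hτ₁ (hS₁span φ hφ), iso_zsmul hτ₁ (hS₁span χ₁ hχ₁S), classInner_sub_right,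
      classInner_zsmul_right, classInner_zsmul_right, hm] at h4
    simp only [Int.cast_natCast] at h4
    linear_combination h4
  -- (C2)
  have hC2 : ∀ φ ∈ S₁, ∀ α ∈ R χ, classInner (τ₁ φ) α = 0 := by
    intro φ hφ α hα
    have hφS := hS₁mem φ hφ
    have hφc := hS₁c φ hφ
    have hdiffφ : φ - conjFun φ ∈ zspanOn (↑S₁ : Set (L → ℂ)) {1}ᶜ := by
      rw [mem_zspanOn_compl_one]
      refine ⟨zspan_sub (hS₁span φ hφ) (hS₁span _ hφc), ?_⟩
      simp [sys_one_conj hS hφS]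
    have hφn : classInner φ φ = (n φ : ℂ) := hn φ hφS
    have hp : ∑ x ∈ R φ, classInner (τ₁ φ) x = ((n φ : ℤ) : ℂ) := by
      rw [sys_sum_inner hS hφS, ← hagree _ hdiffφ, iso_inner hτ₁ (hS₁span φ hφ) hdiffφ.1,
        classInner_sub_right, hφn, sys_conj_orth hS hφS]
      simp
    have hempty : OrthN (∅ : Finset (G → ℂ)) := ⟨by simp, by simp⟩
    have hnorm : (classInner (τ₁ φ) (τ₁ φ)).re ≤ ((n φ : ℤ) : ℝ) + ((0 : ℤ) : ℝ) := by
      rw [iso_inner hτ₁ (hS₁span φ hφ) (hS₁span φ hφ), hφn]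
      simp
    have hφχ : φ ≠ χ := fun h => hχ₁ (h ▸ hφ)
    have hφχc : φ ≠ conjFun χ := fun h => hχ₂ (h ▸ hφ)
    obtain ⟨-, -, t3⟩ := tight' (iso_gen hτ₁ (hS₁span φ hφ)) (sys_orthN hS hφS) hempty
      (sys_orthN hS hχ) (by simp) (sys_R_orth hS hχ hφS hφχ hφχc) (by simp) (hS.virtual φ hφS)
      (by simp) (n φ) 0 hp (by simp) hnorm
    exact t3 α hα
  have hC2' : ∀ φ ∈ S₁, ∀ α ∈ R χ, classInner α (τ₁ φ) = 0 := fun φ hφ α hα => by
    rw [← classInner_conj_symm, hC2 φ hφ α hα, map_zero]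
  have hC3 : ∀ φ ∈ S₁, classInner (τ₁ φ) t = 0 := by
    intro φ hφ
    rw [ht, ← sys_sum_inner hS hχ]
    exact Finset.sum_eq_zero (fun α hα => hC2 φ hφ α hα)
  have hC3' : ∀ φ ∈ S₁, classInner t (τ₁ φ) = 0 := fun φ hφ => by
    rw [← classInner_conj_symm, hC3 φ hφ, map_zero]
  -- norm of `y`
  have hββ : classInner β β = (nχ : ℂ) + (c : ℂ) ^ 2 * n₁ := by
    rw [hβ, iso_inner hτ hv₀mem hv₀mem, hv₀]
    simp only [classInner_sub_left, classInner_sub_right, classInner_zsmul_left,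
      classInner_zsmul_right, hχS₁ χ₁ hχ₁S, hS₁χ χ₁ hχ₁S, hχχ, hχ₁χ₁]
    push_cast
    ring
  have hβ₁ : classInner β (τ₁ χ₁) = (m : ℂ) - (c : ℂ) * n₁ := by
    have h1 : classInner y (τ₁ χ₁) = classInner β (τ₁ χ₁) + (c : ℂ) * n₁ := by
      rw [hy, classInner_add_left, classInner_zsmul_left,
        iso_inner hτ₁ (hS₁span χ₁ hχ₁S) (hS₁span χ₁ hχ₁S), hχ₁χ₁]
      push_cast
      ring
    rw [hm] at h1
    linear_combination -h1
  have hβ₁' : classInner (τ₁ χ₁) β = (m : ℂ) - (c : ℂ) * n₁ := by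
    rw [← classInner_conj_symm, hβ₁]
    simp
  have hyy : classInner y y = (nχ : ℂ) + 2 * (c : ℂ) * m := by
    rw [hy]
    simp only [classInner_add_left, classInner_add_right, classInner_zsmul_left,
      classInner_zsmul_right]
    rw [hββ, hβ₁, hβ₁', iso_inner hτ₁ (hS₁span χ₁ hχ₁S) (hS₁span χ₁ hχ₁S), hχ₁χ₁]
    push_cast
    ring
  -- inner product with `t`
  have hyt : classInner y t = (nχ : ℂ) := by
    rw [hy, classInner_add_left, classInner_zsmul_left, hC3 χ₁ hχ₁S, mul_zero, add_zero, hβ, ht,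
      iso_inner hτ hv₀mem hdiffmem, hv₀]
    simp only [classInner_sub_left, classInner_sub_right, classInner_zsmul_left,
      hS₁χ χ₁ hχ₁S, hS₁χc χ₁ hχ₁S, hχχ, hχχc]
    ring
  have hty : classInner t y = (nχ : ℂ) := by
    rw [← classInner_conj_symm, hyt]
    simp
  have htt : classInner t t = 2 * (nχ : ℂ) := by
    rw [ht, iso_inner hτ hdiffmem hdiffmem]
    simp only [classInner_sub_left, classInner_sub_right]
    rw [hχχ, hχχc, hχcχ, hχcχc]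
    ring
  -- the sum over `R χ`
  have hsumR : ∑ α ∈ R χ, classInner y α = ((nχ : ℤ) : ℂ) := by
    rw [sys_sum_inner hS hχ, hyt]
    simp
  have hint : ∀ α ∈ R χ, ∃ k : ℤ, classInner y α = k := fun α hα =>
    classInner_gen_gen hyg (hS.virtual χ hχ α hα)
  choose! a ha using hint
  have hsuma : ∑ α ∈ R χ, a α = (nχ : ℤ) := by
    have : ((∑ α ∈ R χ, a α : ℤ) : ℂ) = ((nχ : ℤ) : ℂ) := by
      rw [← hsumR]
      push_cast
      exact Finset.sum_congr rfl (fun α hα => (ha α hα).symm)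
    exact_mod_cast this
  have hRsq : (nχ : ℝ) ≤ ∑ α ∈ R χ, ‖classInner y α‖ ^ 2 / 1 := by
    have h1 := int_sum_le_sum_sq (R χ) a
    rw [hsuma] at h1
    have h2 : ∑ α ∈ R χ, ‖classInner y α‖ ^ 2 / 1 = ((∑ α ∈ R χ, (a α) ^ 2 : ℤ) : ℝ) := by
      push_cast
      refine Finset.sum_congr rfl (fun α hα => ?_)
      rw [ha α hα]
      simp
    rw [h2]
    exact_mod_cast h1
  -- Bessel
  set D : ℝ := ∑ φ ∈ S₁, ((d φ : ℝ) ^ 2 / (n φ : ℝ)) with hD
  have hd₁r : (0 : ℝ) < d₁ := by exact_mod_cast hd₁pos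
  have hfirst : ∑ φ ∈ S₁, ‖classInner y (τ₁ φ)‖ ^ 2 / (n φ : ℝ) = ((m : ℝ) ^ 2 / (d₁ : ℝ) ^ 2) * D := by
    rw [hD, Finset.mul_sum]
    refine Finset.sum_congr rfl (fun φ hφ => ?_)
    have h1 := hC1 φ hφ
    have h2 : (d₁ : ℝ) * ‖classInner y (τ₁ φ)‖ = (d φ : ℝ) * |(m : ℝ)| := by
      have h3 := congrArg norm h1
      simp only [norm_mul, Complex.norm_natCast, Complex.norm_intCast] at h3
      exact h3
    have h4 : ‖classInner y (τ₁ φ)‖ = (d φ : ℝ) * |(m : ℝ)| / d₁ := by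
      field_simp
      linarith
    rw [h4]
    have h5 : (n φ : ℝ) ≠ 0 := by
      have := hnpos φ (hS₁mem φ hφ)
      positivity
    rw [div_pow, mul_pow, sq_abs]
    field_simp
  have hbess := bessel (S₁.disjSum (R χ)) (Sum.elim τ₁ id)
    (Sum.elim (fun φ => (n φ : ℝ)) (fun _ => (1 : ℝ)))
    (by
      rintro (φ | α) hi
      · have hφ : φ ∈ S₁ := by simpa using hi
        have := hnpos φ (hS₁mem φ hφ)
        simp only [Sum.elim_inl]
        exact_mod_cast this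
      · simp)
    (by
      rintro (φ | α) hi (φ' | α') hj hij
      · have hφ : φ ∈ S₁ := by simpa using hi
        have hφ' : φ' ∈ S₁ := by simpa using hj
        simp only [Sum.elim_inl]
        rw [iso_inner hτ₁ (hS₁span φ hφ) (hS₁span φ' hφ')]
        exact hS.orthogonal φ (hS₁mem φ hφ) φ' (hS₁mem φ' hφ') (fun h => hij (by rw [h]))
      · have hφ : φ ∈ S₁ := by simpa using hi
        have hα' : α' ∈ R χ := by simpa using hj
        exact hC2 φ hφ α' hα'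
      · have hα : α ∈ R χ := by simpa using hi
        have hφ' : φ' ∈ S₁ := by simpa using hj
        exact hC2' φ' hφ' α hα
      · have hα : α ∈ R χ := by simpa using hi
        have hα' : α' ∈ R χ := by simpa using hj
        exact (sys_orthN hS hχ).1 α hα α' hα' (fun h => hij (by rw [h])))
    (by
      rintro (φ | α) hi
      · have hφ : φ ∈ S₁ := by simpa using hi
        simp only [Sum.elim_inl]
        rw [iso_inner hτ₁ (hS₁span φ hφ) (hS₁span φ hφ), hn φ (hS₁mem φ hφ)]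
        simp
      · have hα : α ∈ R χ := by simpa using hi
        simp only [Sum.elim_inr, id]
        rw [(sys_orthN hS hχ).2 α hα]
        simp)
    y
  rw [Finset.sum_disjSum] at hbess
  simp only [Sum.elim_inl, Sum.elim_inr, id] at hbess
  rw [hfirst, hyy] at hbess
  have hre : ((nχ : ℂ) + 2 * (c : ℂ) * m).re = (nχ : ℝ) + 2 * (c : ℝ) * m := by
    simp [Complex.add_re, Complex.mul_re]
  rw [hre] at hbess
  -- `m = 0`
  have hkey : ((m : ℝ) ^ 2 / (d₁ : ℝ) ^ 2) * D ≤ 2 * (c : ℝ) * m := by linarith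
  have hcd : (d χ : ℝ) = (d₁ : ℝ) * c := by rw [hc]; push_cast; ring
  have hineq' : 2 * (d₁ : ℝ) ^ 2 * c < D := by
    have : (2 * (d χ : ℝ) * (d₁ : ℝ)) < D := hineq
    rw [hcd] at this
    nlinarith
  have hm0 : m = 0 := by
    by_contra hne
    have hcr : (0 : ℝ) ≤ c := by positivity
    have hDpos : 0 < D := by
      have : 0 ≤ 2 * (d₁ : ℝ) ^ 2 * c := by positivity
      linarith
    have h1 : (m : ℝ) ^ 2 * D ≤ 2 * (c : ℝ) * m * (d₁ : ℝ) ^ 2 := by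
      have h2 : (m : ℝ) ^ 2 * D = (((m : ℝ) ^ 2 / (d₁ : ℝ) ^ 2) * D) * (d₁ : ℝ) ^ 2 := by
        field_simp
      rw [h2]
      exact mul_le_mul_of_nonneg_right hkey (by positivity)
    rcases lt_or_gt_of_ne hne with h | h
    · have hmr : (m : ℝ) < 0 := by exact_mod_cast h
      have h3 : 0 < (m : ℝ) ^ 2 * D := by positivity
      have h4 : 2 * (c : ℝ) * m * (d₁ : ℝ) ^ 2 ≤ 0 := by
        have : 2 * (c : ℝ) * (d₁ : ℝ) ^ 2 * (-(m : ℝ)) ≥ 0 :=
          mul_nonneg (by positivity) (by linarith)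
        nlinarith
      linarith
    · have hmr : (1 : ℝ) ≤ m := by exact_mod_cast h
      have hmpos : (0 : ℝ) < m := by linarith
      have h3 : (m : ℝ) * D ≤ 2 * (c : ℝ) * (d₁ : ℝ) ^ 2 := by
        have : (m : ℝ) * ((m : ℝ) * D) ≤ (m : ℝ) * (2 * (c : ℝ) * (d₁ : ℝ) ^ 2) := by
          nlinarith
        exact le_of_mul_le_mul_left this hmpos
      have h4 : D ≤ (m : ℝ) * D := by nlinarith
      nlinarith
  subst hm0
  have hyτ : ∀ φ ∈ S₁, classInner y (τ₁ φ) = 0 := by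
    intro φ hφ
    have h1 := hC1 φ hφ
    simp only [Int.cast_zero, mul_zero] at h1
    have hd₁c : (d₁ : ℂ) ≠ 0 := by exact_mod_cast hd₁pos.ne'
    exact (mul_eq_zero.mp h1).resolve_left hd₁c
  have hτy : ∀ φ ∈ S₁, classInner (τ₁ φ) y = 0 := fun φ hφ => by
    rw [← classInner_conj_symm, hyτ φ hφ, map_zero]
  simp only [Int.cast_zero, mul_zero, add_zero] at hyy
  -- an isometry on the pair
  have hχne : χ ≠ conjFun χ := fun h => hS.conj_ne χ hχ h.symm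
  set f : (L → ℂ) → (G → ℂ) := fun x => if x = χ then y else y - t with hf
  have hfχ : f χ = y := by simp [hf]
  have hfχc : f (conjFun χ) = y - t := by
    simp only [hf]
    rw [if_neg hχne.symm]
  have hpairne : ∀ x ∈ ({χ, conjFun χ} : Set (L → ℂ)), classInner x x ≠ 0 := by
    intro x hx
    have hx' : x ∈ S := by
      rcases hx with rfl | rfl
      · exact hχ
      · exact hχc
    rw [hn x hx']
    have := hnpos x hx'
    exact_mod_cast this.ne'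
  have hpairorth : ∀ x ∈ ({χ, conjFun χ} : Set (L → ℂ)), ∀ z ∈ ({χ, conjFun χ} : Set (L → ℂ)),
      x ≠ z → classInner x z = 0 := by
    intro x hx z hz hxz
    have hx' : x ∈ S := by
      rcases hx with rfl | rfl
      · exact hχ
      · exact hχc
    have hz' : z ∈ S := by
      rcases hz with rfl | rfl
      · exact hχ
      · exact hχc
    exact hS.orthogonal x hx' z hz' hxz
  have hfi : ∀ x ∈ ({χ, conjFun χ} : Set (L → ℂ)), ∀ z ∈ ({χ, conjFun χ} : Set (L → ℂ)),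
      classInner (f x) (f z) = classInner x z := by
    intro x hx z hz
    rcases hx with rfl | hx <;> rcases hz with rfl | hz
    · rw [hfχ, hyy, hχχ]
    · rw [Set.mem_singleton_iff.mp hz, hfχ, hfχc, classInner_sub_right, hyy, hyt, sub_self, hχχc]
    · rw [Set.mem_singleton_iff.mp hx, hfχ, hfχc, classInner_sub_left, hyy, hty, sub_self, hχcχ]
    · rw [Set.mem_singleton_iff.mp hx, Set.mem_singleton_iff.mp hz, hfχc]
      simp only [classInner_sub_left, classInner_sub_right]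
      rw [hyy, hyt, hty, htt, hχcχc]
      ring
  have hfg : ∀ x ∈ ({χ, conjFun χ} : Set (L → ℂ)), IsGeneralizedCharacter G (f x) := by
    intro x hx
    rcases hx with rfl | hx
    · rw [hfχ]; exact hyg
    · rw [Set.mem_singleton_iff.mp hx, hfχc]; exact isGen_sub hyg htg
  obtain ⟨τ₂, hτ₂, hτ₂v⟩ := exists_iso_of_values hpairne hpairorth f hfi hfg
  have hτ₂χ : τ₂ χ = y := by rw [hτ₂v χ (by simp), hfχ]
  have hτ₂χc : τ₂ (conjFun χ) = y - t := by rw [hτ₂v _ (by simp), hfχc]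
  -- glue
  have hXY : ∀ x ∈ (↑S₁ : Set (L → ℂ)), ∀ z ∈ ({χ, conjFun χ} : Set (L → ℂ)), classInner x z = 0 := by
    intro x hx z hz
    rcases hz with rfl | hz
    · exact hS₁χ x hx
    · rw [Set.mem_singleton_iff.mp hz]
      exact hS₁χc x hx
  have hστ : ∀ x ∈ (↑S₁ : Set (L → ℂ)), ∀ z ∈ ({χ, conjFun χ} : Set (L → ℂ)),
      classInner (τ₁ x) (τ₂ z) = 0 := by
    intro x hx z hz
    rcases hz with rfl | hz
    · rw [hτ₂χ]
      exact hτy x hx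
    · rw [Set.mem_singleton_iff.mp hz, hτ₂χc, classInner_sub_right, hτy x hx, hC3 x hx, sub_zero]
  obtain ⟨τ₃, hτ₃, hτ₃v⟩ := glue hXY hτ₁ hτ₂ hστ
  refine ⟨⟨χ - conjFun χ, ?_, ?_⟩, τ₃, hτ₃, ?_⟩
  · rw [mem_zspanOn_compl_one]
    refine ⟨zspan_sub (mem_zspan (Or.inr (by simp))) (mem_zspan (Or.inr (by simp))), ?_⟩
    simp [hone_conj]
  · intro h
    exact hS.conj_ne χ hχ (sub_eq_zero.mp h).symm
  · intro θ hθ
    obtain ⟨a', ha', b, hb, rfl⟩ := exists_union_decomp hθ.1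
    have hb' : b ∈ Submodule.span ℤ ({χ, conjFun χ} : Set (L → ℂ)) := hb
    obtain ⟨e, e', rfl⟩ := Submodule.mem_span_pair.mp hb'
    rw [hτ₃v a' ha' _ hb]
    have hχsp : χ ∈ zspan ({χ, conjFun χ} : Set (L → ℂ)) := mem_zspan (by simp)
    have hχcsp : conjFun χ ∈ zspan ({χ, conjFun χ} : Set (L → ℂ)) := mem_zspan (by simp)
    rw [iso_add hτ₂ (zspan_zsmul hχsp e) (zspan_zsmul hχcsp e'), iso_zsmul hτ₂ hχsp,
      iso_zsmul hτ₂ hχcsp, hτ₂χ, hτ₂χc]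
    -- the element `w`
    set w : L → ℂ := a' + ((e + e') * (c : ℤ)) • χ₁ with hw
    have hθ1 : (a' + (e • χ + e' • conjFun χ)) 1 = 0 := (mem_zspanOn_compl_one.mp hθ).2
    have hwspan : w ∈ zspan (↑S₁ : Set (L → ℂ)) :=
      zspan_add ha' (zspan_zsmul (hS₁span χ₁ hχ₁S) _)
    have hw1 : w 1 = 0 := by
      simp only [Pi.add_apply, zsmul_apply, hone_conj, hdχ] at hθ1
      simp only [hw, Pi.add_apply, zsmul_apply, hd₁χ]
      push_cast
      linear_combination hθ1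
    have hwmem : w ∈ zspanOn (↑S₁ : Set (L → ℂ)) {1}ᶜ := mem_zspanOn_compl_one.mpr ⟨hwspan, hw1⟩
    have hχcv : conjFun χ - (c : ℤ) • χ₁ = v₀ - (χ - conjFun χ) := by
      rw [hv₀]; abel
    have hmem2 : conjFun χ - (c : ℤ) • χ₁ ∈ zspanOn S {1}ᶜ := by
      rw [hχcv]; exact zspanOn_sub hv₀mem hdiffmem
    have hsplit : a' + (e • χ + e' • conjFun χ) =
        w + (e • v₀ + e' • (conjFun χ - (c : ℤ) • χ₁)) := by
      rw [hw, hv₀, smul_sub, smul_sub, add_mul, add_smul, mul_smul, mul_smul]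
      abel
    rw [hsplit, iso_add hτ (hmono hwmem)
      (zspanOn_add (zspanOn_zsmul hv₀mem e) (zspanOn_zsmul hmem2 e')),
      iso_add hτ (zspanOn_zsmul hv₀mem e) (zspanOn_zsmul hmem2 e'), iso_zsmul hτ hv₀mem,
      iso_zsmul hτ hmem2, hχcv, iso_sub_zspanOn hτ hv₀mem hdiffmem, ← hagree w hwmem, hw,
      iso_add hτ₁ ha' (zspan_zsmul (hS₁span χ₁ hχ₁S) _), iso_zsmul hτ₁ (hS₁span χ₁ hχ₁S)]
    rw [hy, add_mul, add_smul, mul_smul, mul_smul]
    simp only [smul_sub, smul_add]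
    abel

end Cfsg.Agent.S1516
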