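import Mathlib
import Cfsg.Statements.S1233
import Cfsg.Agent.Lib.QQFixed

set_option autoImplicit false
open Cfsg

namespace Cfsg.Agent.S1233

open Cfsg.Agent.Lib.SectRank Cfsg.Agent.Lib.QQMeta Cfsg.Agent.Lib.QQFixed QuaternionGroup

/-- `SqBound 2` from a small order. -/
theorem sqBound_two_of_card {T : Type*} [Group T] [Finite T] (hT : IsPGroup 2 T)
    (h8 : Nat.card T ≤ 8) (h : 4 < Nat.card T → ∃ t : T, t ^ 2 ≠ 1) : SqBound 2 T := by
  have : Fact (Nat.Prime 2) := ⟨Nat.prime_two⟩
  intro H N hNH hsq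
  by_contra hlt
  norm_num at hlt
  have h1 := card_eq_relIndex_mul (S := T) hNH
  have h2 : Nat.card H ≤ Nat.card T := Subgroup.card_le_card_group H
  have hNpos : 0 < Nat.card N := Nat.card_pos
  have hN1 : Nat.card N = 1 := by
    by_contra hne
    have : 2 ≤ Nat.card N := by omega
    have : 5 * 2 ≤ N.relIndex H * Nat.card N := Nat.mul_le_mul hlt this
    omega
  rw [hN1, mul_one] at h1
  obtain ⟨k, hk⟩ := IsPGroup.iff_card.1 (hT.to_subgroup H)
  have hH8 : Nat.card H = 8 := by
    have h3 : 4 < Nat.card H := by omega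
    have h4 : Nat.card H ≤ 8 := h2.trans h8
    rw [hk] at h3 h4 ⊢
    have : k = 3 := by
      have h5 : 2 < k := (Nat.pow_lt_pow_iff_right (a := 2) (by norm_num)).1 (by simpa using h3)
      have h6 : k ≤ 3 := (Nat.pow_le_pow_iff_right (a := 2) (by norm_num)).1 (by simpa using h4)
      omega
    rw [this]; norm_num
  have hHtop : H = ⊤ := by
    apply Subgroup.eq_top_of_card_eq
    omega
  have hNbot : N = ⊥ := Subgroup.eq_bot_of_card_eq N hN1
  obtain ⟨t, ht⟩ := h (by omega)
  apply ht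
  have := hsq t (by rw [hHtop]; trivial)
  rw [hNbot] at this
  simpa using this


/-- The central product structure from the hypotheses. -/
theorem exists_QQ {S : Type*} [Group S] [Finite S] (hS : IsPGroup 2 S) (Q Q₁ Q₂ : Subgroup S)
    (e₁ : Q₁ ≃* Q8) (e₂ : Q₂ ≃* Q8)
    (hcomm : ∀ a ∈ Q₁, ∀ b ∈ Q₂, a * b = b * a) (hQ : Q₁ ⊔ Q₂ = Q) (hQ32 : Nat.card Q = 32)
    (hC : Subgroup.centralizer (Q : Set S) ≤ Q) : Nonempty (QQ S) := by
  have : Fact (Nat.Prime 2) := ⟨Nat.prime_two⟩
  let ι₁ : Q8 →* S := Q₁.subtype.comp e₁.symm.toMonoidHom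
  let ι₂ : Q8 →* S := Q₂.subtype.comp e₂.symm.toMonoidHom
  have hι₁ : ∀ p, ι₁ p ∈ Q₁ := fun p => (e₁.symm p).2
  have hι₂ : ∀ p, ι₂ p ∈ Q₂ := fun p => (e₂.symm p).2
  have inj₁ : Function.Injective ι₁ := fun x y h => e₁.symm.injective (Subtype.ext h)
  have inj₂ : Function.Injective ι₂ := fun x y h => e₂.symm.injective (Subtype.ext h)
  have hr₁ : ι₁.range = Q₁ := by
    ext x
    constructor
    · rintro ⟨p, rfl⟩; exact hι₁ p
    · intro hx; exact ⟨e₁ ⟨x, hx⟩, by simp [ι₁]⟩
  have hr₂ : ι₂.range = Q₂ := by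
    ext x
    constructor
    · rintro ⟨p, rfl⟩; exact hι₂ p
    · intro hx; exact ⟨e₂ ⟨x, hx⟩, by simp [ι₂]⟩
  have comm : ∀ p q, ι₁ p * ι₂ q = ι₂ q * ι₁ p := fun p q => hcomm _ (hι₁ p) _ (hι₂ q)
  have comm' : ∀ p q, Commute (ι₁ p) (ι₂ q) := comm
  let f : Q8 × Q8 →* S := ι₁.noncommCoprod ι₂ comm'
  have hf : ∀ p q, f (p, q) = ι₁ p * ι₂ q := fun p q => rfl
  have hrange : f.range = Q := by
    show (ι₁.noncommCoprod ι₂ comm').range = Q
    rw [MonoidHom.noncommCoprod_range, hr₁, hr₂, hQ]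
  have memQ : ∀ x, x ∈ Q ↔ ∃ p q, x = ι₁ p * ι₂ q := by
    intro x
    rw [← hrange]
    constructor
    · rintro ⟨⟨p, q⟩, rfl⟩; exact ⟨p, q, rfl⟩
    · rintro ⟨p, q, rfl⟩; exact ⟨(p, q), rfl⟩
  have hninj : ¬ Function.Injective f := by
    intro hinj
    have h1 : Nat.card f.range = Nat.card (Q8 × Q8) :=
      (Nat.card_congr (MonoidHom.ofInjective hinj).toEquiv).symm
    have h2 : Nat.card Q8 = 8 := by
      rw [Nat.card_eq_fintype_card]; rfl
    rw [hrange, hQ32, Nat.card_prod, h2] at h1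
    norm_num at h1
  have hcen : ∀ u v : Q8, ι₁ u = ι₂ v → (∀ r, u * r = r * u) ∧ (∀ r, v * r = r * v) := by
    intro u v h
    constructor
    · intro r
      apply inj₁
      rw [map_mul, map_mul, h]
      exact (comm r v).symm
    · intro r
      apply inj₂
      rw [map_mul, map_mul, ← h]
      exact comm u r
  have hzeq : ι₁ (QuaternionGroup.a 2) = ι₂ (QuaternionGroup.a 2) := by
    simp only [Function.Injective, not_forall] at hninj
    obtain ⟨⟨p, q⟩, ⟨p', q'⟩, h, hne⟩ := hninj
    rw [hf, hf] at h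
    have h1 : ι₁ (p'⁻¹ * p) = ι₂ (q' * q⁻¹) := by
      rw [map_mul, map_mul, map_inv, map_inv]
      have h2 : ι₁ p = ι₁ p' * ι₂ q' * (ι₂ q)⁻¹ := eq_mul_inv_of_mul_eq h
      rw [h2]; group
    obtain ⟨h2, h3⟩ := hcen _ _ h1
    rcases q8_central _ h2 with h4 | h4 <;> rcases q8_central _ h3 with h5 | h5
    · exfalso
      apply hne
      have h6 : p = p' := by
        have : p' * (p'⁻¹ * p) = p' := by rw [h4, mul_one]
        rw [← this]; group
      have h7 : q = q' := by
        have h8 : (q' * q⁻¹) * q = q' := by group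
        rw [h5, one_mul] at h8
        exact h8
      rw [h6, h7]
    · exfalso
      rw [h4, h5, map_one] at h1
      exact q8_zne (inj₂ (by rw [← h1, map_one]))
    · exfalso
      rw [h4, h5, map_one] at h1
      exact q8_zne (inj₁ (by rw [h1, map_one]))
    · rw [h4, h5] at h1
      exact h1
  have hcentSub : ∀ x, (∀ g : S, g * x = x * g) → x ∈ Q := by
    intro x hx
    apply hC
    rw [Subgroup.mem_centralizer_iff]
    intro y _
    exact hx y
  have hzc : ∀ g, g * ι₁ (QuaternionGroup.a 2) = ι₁ (QuaternionGroup.a 2) * g := by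
    have hnt : Nontrivial S := by
      by_contra hnt
      rw [not_nontrivial_iff_subsingleton] at hnt
      have : Nat.card Q ≤ 1 := by
        have h1 : Nat.card Q ≤ Nat.card S := Subgroup.card_le_card_group Q
        have h2 : Nat.card S = 1 := Nat.card_of_subsingleton (1 : S)
        omega
      omega
    have hz := hS.center_nontrivial
    obtain ⟨⟨w, hw⟩, hne⟩ := exists_ne (1 : Subgroup.center S)
    have hwne : w ≠ 1 := fun h => hne (Subtype.ext h)
    have hwc : ∀ g : S, g * w = w * g := fun g => (Subgroup.mem_center_iff.1 hw g)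
    obtain ⟨p, q, rfl⟩ := (memQ w).1 (hcentSub w hwc)
    have hp : ∀ r, p * r = r * p := by
      intro r
      apply inj₁
      have h3 := hwc (ι₁ r)
      rw [mul_assoc, ← comm, ← mul_assoc, ← mul_assoc] at h3
      rw [map_mul, map_mul]
      exact (mul_right_cancel h3).symm
    have hq : ∀ r, q * r = r * q := by
      intro r
      apply inj₂
      have h3 := hwc (ι₂ r)
      rw [← mul_assoc, ← comm p r, mul_assoc, mul_assoc] at h3
      rw [map_mul, map_mul]
      exact (mul_left_cancel h3).symm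
    rcases q8_central p hp with rfl | rfl <;> rcases q8_central q hq with rfl | rfl
    · simp at hwne
    · rw [map_one, one_mul] at hwc
      rw [hzeq]
      exact hwc
    · rw [map_one, mul_one] at hwc
      exact hwc
    · exfalso
      apply hwne
      rw [← hzeq, ← map_mul]
      have : (QuaternionGroup.a 2 * QuaternionGroup.a 2 : Q8) = 1 := by decide
      rw [this, map_one]
  exact ⟨{
    ι₁ := ι₁, ι₂ := ι₂, inj₁ := inj₁, inj₂ := inj₂, comm := comm
    z := ι₁ (QuaternionGroup.a 2)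
    hz₁ := rfl
    hz₂ := hzeq.symm
    Q := Q
    memQ := memQ
    cent := by
      intro g h1 h2
      apply hC
      rw [Subgroup.mem_centralizer_iff]
      intro y hy
      obtain ⟨p, q, rfl⟩ := (memQ y).1 hy
      calc ι₁ p * ι₂ q * g = ι₁ p * (ι₂ q * g) := by group
        _ = ι₁ p * (g * ι₂ q) := by rw [h2]
        _ = (ι₁ p * g) * ι₂ q := by group
        _ = (g * ι₁ p) * ι₂ q := by rw [h1]
        _ = _ := by group
    zc := hzc }⟩

set_option maxHeartbeats 4000000 in
/-- The main bound. -/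
theorem sqBound_four {S : Type*} [Group S] [Finite S] (hS : IsPGroup 2 S) (t : QQ S) : SqBound 4 S := by
  have : Fact (Nat.Prime 2) := ⟨Nat.prime_two⟩
  obtain ⟨i, j, hn⟩ := t.exists_normal hS
  set A := t.AA i j with hA
  set a := t.ι₁ (al i) with ha_def
  set b := t.ι₂ (al j) with hb_def
  set j₁ := t.ι₁ (ga i) with hj₁
  set j₂ := t.ι₂ (ga j) with hj₂
  have ha : a ^ 2 = t.z := by rw [ha_def, ← map_pow, q8_al_sq, t.hz₁]
  have hb : b ^ 2 = t.z := by rw [hb_def, ← map_pow, q8_al_sq, t.hz₂]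
  have hab : a * b = b * a := t.comm _ _
  have hcomm1 : Commute a b := hab
  have hA_eq : A = Subgroup.closure {a, b} := rfl
  have haA : a ∈ A := Subgroup.subset_closure (Set.mem_insert _ _)
  have hbA : b ∈ A := Subgroup.subset_closure (Set.mem_insert_of_mem _ (Set.mem_singleton _))
  have hab_ne : a ≠ b := by
    intro h
    rcases t.common_central h with h1 | h1
    · exact (q8_alne i).1 h1
    · exact (q8_alne i).2 h1
  have habz_ne : a ≠ b * t.z := by
    intro h
    rw [hb_def, ← t.hz₂, ← map_mul] at h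
    rcases t.common_central h with h1 | h1
    · exact (q8_alne i).1 h1
    · exact (q8_alne i).2 h1
  have hane1 : a * b ≠ 1 := by
    intro h
    apply habz_ne
    rw [← t.inv_of_sq hb]
    exact eq_inv_of_mul_eq_one_left h
  have hanez : a * b ≠ t.z := by
    intro h
    apply hab_ne
    have h3 : a = t.z * b⁻¹ := eq_mul_inv_of_mul_eq h
    rw [h3, t.inv_of_sq hb, ← t.zc, mul_assoc, ← t.zc, ← mul_assoc, mul_assoc, t.zz, mul_one]
  have hAn : A.Normal := ⟨fun x hx g => by
    rw [← hn g]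
    exact ⟨x, hx, rfl⟩⟩
  let P : Subgroup S := Subgroup.centralizer (A : Set S)
  have hPn : P.Normal := inferInstance
  have memP : ∀ x, x ∈ P ↔ x * a = a * x ∧ x * b = b * x := by
    intro x
    constructor
    · intro hx
      have hx' := Subgroup.mem_centralizer_iff.1 hx
      exact ⟨(hx' a haA).symm, (hx' b hbA).symm⟩
    · rintro ⟨h1, h2⟩
      rw [Subgroup.mem_centralizer_iff]
      have hle : A ≤ Subgroup.centralizer {x} := by
        rw [hA_eq, Subgroup.closure_le]
        rintro y (rfl | hy)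
        · rw [SetLike.mem_coe, Subgroup.mem_centralizer_iff]
          rintro _ rfl
          exact h1
        · rw [Set.mem_singleton_iff] at hy
          subst hy
          rw [SetLike.mem_coe, Subgroup.mem_centralizer_iff]
          rintro _ rfl
          exact h2
      intro y hy
      exact (Subgroup.mem_centralizer_iff.1 (hle hy) x rfl).symm
  have hzP : t.z ∈ P := (memP _).2 ⟨(t.zc _).symm, (t.zc _).symm⟩
  have haP : a ∈ P := (memP _).2 ⟨rfl, hab⟩
  have hbP : b ∈ P := (memP _).2 ⟨hab.symm, rfl⟩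
  have hj₁j₁ : j₁ ^ 2 = t.z := by rw [hj₁, ← map_pow, q8_ga_sq, t.hz₁]
  have hj₂j₂ : j₂ ^ 2 = t.z := by rw [hj₂, ← map_pow, q8_ga_sq, t.hz₂]
  have hj₁a : j₁ * a * j₁⁻¹ = a⁻¹ := by
    rw [hj₁, ha_def, ← map_inv, ← map_mul, ← map_mul, q8_ga, map_inv]
  have hj₂b : j₂ * b * j₂⁻¹ = b⁻¹ := by
    rw [hj₂, hb_def, ← map_inv, ← map_mul, ← map_mul, q8_ga, map_inv]
  have hj₁b : j₁ * b = b * j₁ := t.comm _ _
  have hj₂a : j₂ * a = a * j₂ := (t.comm _ _).symm
  have hj₁j₂ : j₁ * j₂ = j₂ * j₁ := t.comm _ _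
  -- the automorphisms of `P`
  let σ₁ : P →* P := (MulAut.conjNormal j₁).toMonoidHom
  let σ₂ : P →* P := (MulAut.conjNormal j₂).toMonoidHom
  have hσ₁ : ∀ g : P, ((σ₁ g : P) : S) = j₁ * g * j₁⁻¹ := fun g => MulAut.conjNormal_apply _ _
  have hσ₂ : ∀ g : P, ((σ₂ g : P) : S) = j₂ * g * j₂⁻¹ := fun g => MulAut.conjNormal_apply _ _
  have hzconj : ∀ (x g : S), x ^ 2 = t.z → x * (x * g * x⁻¹) * x⁻¹ = g := by
    intro x g hx
    have h1 : x * (x * g * x⁻¹) * x⁻¹ = x ^ 2 * g * (x ^ 2)⁻¹ := by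
      rw [pow_two]; group
    rw [h1, hx, ← t.zc g]; group
  let d : Data P := {
    σ₁ := σ₁
    σ₂ := σ₂
    i₁ := ⟨a, haP⟩
    i₂ := ⟨b, hbP⟩
    z := ⟨t.z, hzP⟩
    hz1 := fun h => t.zne (congrArg Subtype.val h)
    hi₁ := Subtype.ext ha
    hi₂ := Subtype.ext hb
    hz2 := Subtype.ext t.zsq
    c₁ := fun g => Subtype.ext ((memP _).1 g.2).1
    c₂ := fun g => Subtype.ext ((memP _).1 g.2).2
    hne := ⟨fun h => hane1 (congrArg Subtype.val h), fun h => hanez (congrArg Subtype.val h)⟩
    s11 := fun g => Subtype.ext (by rw [hσ₁, hσ₁]; exact hzconj _ _ hj₁j₁)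
    s22 := fun g => Subtype.ext (by rw [hσ₂, hσ₂]; exact hzconj _ _ hj₂j₂)
    s12 := fun g => Subtype.ext (by
      rw [hσ₁, hσ₂, hσ₂, hσ₁]
      calc j₁ * (j₂ * (g : S) * j₂⁻¹) * j₁⁻¹ = (j₁ * j₂) * g * (j₁ * j₂)⁻¹ := by group
        _ = (j₂ * j₁) * g * (j₂ * j₁)⁻¹ := by rw [hj₁j₂]
        _ = _ := by group)
    a11 := Subtype.ext (by rw [hσ₁]; exact hj₁a)
    a12 := Subtype.ext (by
      rw [hσ₁]
      show j₁ * b * j₁⁻¹ = b
      rw [hj₁b]; group)
    a21 := Subtype.ext (by
      rw [hσ₂]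
      show j₂ * a * j₂⁻¹ = a
      rw [hj₂a]; group)
    a22 := Subtype.ext (by rw [hσ₂]; exact hj₂b)
    fix := by
      intro g h1 h2
      have h1' : j₁ * (g : S) * j₁⁻¹ = g := by
        have := congrArg Subtype.val h1
        rwa [hσ₁] at this
      have h2' : j₂ * (g : S) * j₂⁻¹ = g := by
        have := congrArg Subtype.val h2
        rwa [hσ₂] at this
      have h3 : (g : S) * j₁ = j₁ * g := by
        conv_lhs => rw [← h1']
        group
      have h4 : (g : S) * j₂ = j₂ * g := by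
        conv_lhs => rw [← h2']
        group
      obtain ⟨h5, h6⟩ := (memP _).1 g.2
      have h7 := t.comm_all₁ i h5 h3
      have h8 := t.comm_all₂ j h6 h4
      rcases t.central_Q (t.cent _ h7 h8) h7 h8 with h | h
      · left; exact Subtype.ext h
      · right; exact Subtype.ext h }
  have h2P : SqBound 2 P := d.sqBound (hS.to_subgroup P)
  -- the quotient
  have hconjz : ∀ x : S, x * t.z * x⁻¹ = t.z := by
    intro x; rw [t.zc]; group
  let ε : Bool → S := fun c => if c then t.z else 1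
  have hε : ∀ c, ε c = 1 ∨ ε c = t.z := by
    intro c; cases c
    · left; rfl
    · right; rfl
  have hconj : ∀ g : S, (∃ c d, g * a * g⁻¹ = a * ε c ∧ g * b * g⁻¹ = b * ε d) ∨
      (∃ c d, g * a * g⁻¹ = b * ε c ∧ g * b * g⁻¹ = a * ε d) := by
    intro g
    have h1 : g * a * g⁻¹ ∈ A := hAn.conj_mem _ haA g
    have h2 : g * b * g⁻¹ ∈ A := hAn.conj_mem _ hbA g
    have h3 : (g * a * g⁻¹) ^ 2 = t.z := by rw [conj_pow, ha, hconjz]
    have h4 : (g * b * g⁻¹) ^ 2 = t.z := by rw [conj_pow, hb, hconjz]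
    have h5 := t.closure_sqz ha hb hab h1 h3
    have h6 := t.closure_sqz ha hb hab h2 h4
    have hor : ∀ x y : S, (x = y ∨ x = y * t.z) → ∃ c, x = y * ε c := by
      rintro x y (h | h)
      · exact ⟨false, by simp [ε, h]⟩
      · exact ⟨true, by simp [ε, h]⟩
    have hmul : g * (a * b) * g⁻¹ = (g * a * g⁻¹) * (g * b * g⁻¹) := by group
    have hback : ∀ w : S, (w = 1 ∨ w = t.z) → g * (a * b) * g⁻¹ ≠ w := by
      intro w hw h
      rcases hw with rfl | rfl
      · apply hane1
        have : a * b = g⁻¹ * (g * (a * b) * g⁻¹) * g := by group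
        rw [this, h]; group
      · apply hanez
        have : a * b = g⁻¹ * (g * (a * b) * g⁻¹) * g := by group
        rw [this, h, mul_assoc, ← t.zc g]; group
    have hsame : ∀ y : S, y ^ 2 = t.z → ∀ c d : Bool, g * a * g⁻¹ = y * ε c → g * b * g⁻¹ = y * ε d → False := by
      intro y hy c d h7 h8
      have h9 : y * y = t.z := by rw [← pow_two]; exact hy
      have hc : ∀ (c : Bool) (x : S), x * ε c = ε c * x := by
        intro c x; cases c
        · simp [ε]
        · exact t.zc x
      have h10 : g * (a * b) * g⁻¹ = t.z * (ε c * ε d) := by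
        rw [hmul, h7, h8]
        calc y * ε c * (y * ε d) = y * (ε c * y) * ε d := by group
          _ = y * (y * ε c) * ε d := by rw [hc c y]
          _ = (y * y) * (ε c * ε d) := by group
          _ = _ := by rw [h9]
      have h11 : t.z * (ε c * ε d) = 1 ∨ t.z * (ε c * ε d) = t.z := by
        cases c <;> cases d <;> simp [ε, t.zz]
      exact hback _ h11 h10
    rcases h5 with h5 | h5 | h5 | h5 <;> rcases h6 with h6 | h6 | h6 | h6
    all_goals first
      | exact (hsame a ha false false (by simpa [ε] using h5) (by simpa [ε] using h6)).elim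
      | exact (hsame a ha false true (by simpa [ε] using h5) (by simpa [ε] using h6)).elim
      | exact (hsame a ha true false (by simpa [ε] using h5) (by simpa [ε] using h6)).elim
      | exact (hsame a ha true true (by simpa [ε] using h5) (by simpa [ε] using h6)).elim
      | exact (hsame b hb false false (by simpa [ε] using h5) (by simpa [ε] using h6)).elim
      | exact (hsame b hb false true (by simpa [ε] using h5) (by simpa [ε] using h6)).elim
      | exact (hsame b hb true false (by simpa [ε] using h5) (by simpa [ε] using h6)).elim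
      | exact (hsame b hb true true (by simpa [ε] using h5) (by simpa [ε] using h6)).elim
      | exact Or.inl ⟨false, false, by simpa [ε] using h5, by simpa [ε] using h6⟩
      | exact Or.inl ⟨false, true, by simpa [ε] using h5, by simpa [ε] using h6⟩
      | exact Or.inl ⟨true, false, by simpa [ε] using h5, by simpa [ε] using h6⟩
      | exact Or.inl ⟨true, true, by simpa [ε] using h5, by simpa [ε] using h6⟩
      | exact Or.inr ⟨false, false, by simpa [ε] using h5, by simpa [ε] using h6⟩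
      | exact Or.inr ⟨false, true, by simpa [ε] using h5, by simpa [ε] using h6⟩
      | exact Or.inr ⟨true, false, by simpa [ε] using h5, by simpa [ε] using h6⟩
      | exact Or.inr ⟨true, true, by simpa [ε] using h5, by simpa [ε] using h6⟩
  let T := S ⧸ P
  -- injectivity of the action on cosets
  have hinj : ∀ q q' : T, q.out * a * q.out⁻¹ = q'.out * a * q'.out⁻¹ →
      q.out * b * q.out⁻¹ = q'.out * b * q'.out⁻¹ → q = q' := by
    intro q q' h1 h2
    rw [← QuotientGroup.out_eq' q, ← QuotientGroup.out_eq' q', QuotientGroup.eq, memP]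
    constructor
    · have : q.out * a = q'.out * a * q'.out⁻¹ * q.out := by rw [← h1]; group
      calc q.out⁻¹ * q'.out * a = q.out⁻¹ * (q'.out * a * q'.out⁻¹ * q.out) * (q.out⁻¹ * q'.out) := by group
        _ = q.out⁻¹ * (q.out * a) * (q.out⁻¹ * q'.out) := by rw [← this]
        _ = _ := by group
    · have : q.out * b = q'.out * b * q'.out⁻¹ * q.out := by rw [← h2]; group
      calc q.out⁻¹ * q'.out * b = q.out⁻¹ * (q'.out * b * q'.out⁻¹ * q.out) * (q.out⁻¹ * q'.out) := by group
        _ = q.out⁻¹ * (q.out * b) * (q.out⁻¹ * q'.out) := by rw [← this]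
        _ = _ := by group
  have hT8 : Nat.card T ≤ 8 := by
    have hex : ∀ q : T, ∃ s : Bool × Bool × Bool,
        q.out * a * q.out⁻¹ = (if s.1 then b else a) * ε s.2.1 ∧
        q.out * b * q.out⁻¹ = (if s.1 then a else b) * ε s.2.2 := by
      intro q
      rcases hconj q.out with ⟨c, d, h1, h2⟩ | ⟨c, d, h1, h2⟩
      · exact ⟨(false, c, d), by simpa using h1, by simpa using h2⟩
      · exact ⟨(true, c, d), by simpa using h1, by simpa using h2⟩
    choose ψ hψ₁ hψ₂ using hex
    have hψ : Function.Injective ψ := by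
      intro q q' h
      apply hinj
      · rw [hψ₁, hψ₁, h]
      · rw [hψ₂, hψ₂, h]
    have := Nat.card_le_card_of_injective ψ hψ
    simpa using this
  have hT4 : 4 < Nat.card T → ∃ x : T, x ^ 2 ≠ 1 := by
    intro h4
    have hswap : ∃ g : S, ∃ c d, g * a * g⁻¹ = b * ε c ∧ g * b * g⁻¹ = a * ε d := by
      by_contra hno
      have hex : ∀ q : T, ∃ s : Bool × Bool,
          q.out * a * q.out⁻¹ = a * ε s.1 ∧ q.out * b * q.out⁻¹ = b * ε s.2 := by
        intro q
        rcases hconj q.out with ⟨c, d, h1, h2⟩ | ⟨c, d, h1, h2⟩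
        · exact ⟨(c, d), h1, h2⟩
        · exact (hno ⟨_, c, d, h1, h2⟩).elim
      choose ψ hψ₁ hψ₂ using hex
      have hψ : Function.Injective ψ := by
        intro q q' h
        apply hinj
        · rw [hψ₁, hψ₁, h]
        · rw [hψ₂, hψ₂, h]
      have := Nat.card_le_card_of_injective ψ hψ
      have h8 : Nat.card (Bool × Bool) = 4 := by simp
      omega
    obtain ⟨g, c, d, h1, h2⟩ := hswap
    have hcε : ∀ (c : Bool) (x : S), x * ε c = ε c * x := by
      intro c x; cases c
      · simp [ε]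
      · exact t.zc x
    have hconjε : ∀ (c : Bool) (x : S), x * ε c * x⁻¹ = ε c := by
      intro c x; rw [hcε]; group
    have hsq : ∀ (x : S) (c d : Bool), x * a * x⁻¹ = b * ε c → x * b * x⁻¹ = a * ε d → c ≠ d →
        ((x : T)) ^ 2 ≠ 1 := by
      intro x c d h1 h2 hcd hx
      have hx2 : x ^ 2 ∈ P := by
        rw [← QuotientGroup.eq_one_iff]
        rw [QuotientGroup.mk_pow]
        exact hx
      have h3 := ((memP _).1 hx2).1
      have h4 : x ^ 2 * a * (x ^ 2)⁻¹ = a := by rw [h3]; group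
      have h5 : x ^ 2 * a * (x ^ 2)⁻¹ = a * (ε d * ε c) := by
        calc x ^ 2 * a * (x ^ 2)⁻¹ = x * (x * a * x⁻¹) * x⁻¹ := by rw [pow_two]; group
          _ = x * (b * ε c) * x⁻¹ := by rw [h1]
          _ = (x * b * x⁻¹) * (x * ε c * x⁻¹) := by group
          _ = _ := by rw [h2, hconjε]; group
      rw [h5] at h4
      have h6 : ε d * ε c = 1 := by
        have : a * (ε d * ε c) = a * 1 := by rw [h4, mul_one]
        exact mul_left_cancel this
      cases c <;> cases d <;> simp [ε] at h6 hcd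
      · exact t.zne h6
      · exact t.zne h6
    by_cases hcd : c = d
    · -- use `g * j₁`
      refine ⟨((g * j₁ : S) : T), ?_⟩
      apply hsq (g * j₁) (!c) d ?_ ?_ (by rw [hcd]; cases d <;> decide)
      · calc g * j₁ * a * (g * j₁)⁻¹ = g * (j₁ * a * j₁⁻¹) * g⁻¹ := by group
          _ = g * a⁻¹ * g⁻¹ := by rw [hj₁a]
          _ = (g * a * g⁻¹)⁻¹ := by group
          _ = (b * ε c)⁻¹ := by rw [h1]
          _ = _ := by
            cases c
            · simp [ε, t.inv_of_sq hb]
            · simp only [ε, Bool.not_true, Bool.false_eq_true, if_false, if_true, mul_one]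
              rw [mul_inv_rev, t.zinv, t.inv_of_sq hb, t.zc b, ← mul_assoc, t.zz, one_mul]
      · calc g * j₁ * b * (g * j₁)⁻¹ = g * (j₁ * b * j₁⁻¹) * g⁻¹ := by group
          _ = g * b * g⁻¹ := by rw [hj₁b]; group
          _ = _ := h2
    · exact ⟨(g : T), hsq g c d h1 h2 hcd⟩
  have h2T : SqBound 2 T := sqBound_two_of_card (hS.to_quotient P) hT8 hT4
  exact SqBound_ext P h2P h2T

/-- Let S be a finite 2-group and Q a subgroup of order 32 generated by two elementwise-commuting subgroups Q₁, Q₂ each isomorphic to the quaternion group of order 8 (so Q = Q₁ ∗ Q₂). If C_S(Q) ≤ Q, then every section of S has 2-rank at most 4. -/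
theorem result {S : Type*} [Group S] [Finite S] (hS : IsPGroup 2 S) (Q Q₁ Q₂ : Subgroup S) (e₁ : Q₁ ≃* QuaternionGroup 2) (e₂ : Q₂ ≃* QuaternionGroup 2) (hcomm : ∀ a ∈ Q₁, ∀ b ∈ Q₂, a * b = b * a) (hQ : Q₁ ⊔ Q₂ = Q) (hQ32 : Nat.card Q = 32) (hC : Subgroup.centralizer (Q : Set S) ≤ Q) : Cfsg.SectionalPRankLE 2 4 S := by
  obtain ⟨t⟩ := exists_QQ hS Q Q₁ Q₂ e₁ e₂ hcomm hQ hQ32 hC
  exact sectional_of_sqBound (sqBound_four hS t)

end Cfsg.Agent.S1233
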