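import Mathlib
import Cfsg.Agent.Lib.Singer
import Cfsg.Agent.Lib.SympEquiv
import Cfsg.Agent.Lib.ClassicalCore
import Cfsg.Agent.Lib.SpOrder
import Cfsg.Statements.S5968
-- import your own Cfsg.Agent.* helpers here

set_option autoImplicit false
open scoped MatrixGroups
open Cfsg

namespace Cfsg.Agent.S5968

open Matrix Module Cfsg.Geo
open Cfsg.Agent.Lib.Singer Cfsg.Agent.Lib.SympEquiv

set_option linter.unusedSimpArgs false
set_option linter.unusedVariables false

variable {F : Type*} [Field F] {n : ℕ}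

local notation "Mt" => Matrix (Fin n) (Fin n) F

/-- A conjugate in the similarity group gives a form preserved up to a scalar. -/
theorem form_of_conj (f : (Fin n → F) → (Fin n → F) → F) (hf : IsSymplecticForm f) (x P : Matrix.SpecialLinearGroup (Fin n) F)
    (h : P⁻¹ * x * P ∈ ((similarityGroup f).comap (Matrix.SpecialLinearGroup.toGL : Matrix.SpecialLinearGroup (Fin n) F →* GL (Fin n) F))) :
    ∃ (g : (Fin n → F) → (Fin n → F) → F) (c : F), IsSymplecticForm g ∧ c ≠ 0 ∧
      ∀ u v, g ((x : Mt) *ᵥ u) ((x : Mt) *ᵥ v) = c * g u v := by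
  classical
  rw [Subgroup.mem_comap] at h
  obtain ⟨c, hc⟩ := h
  let Pm : Mt := (P : Mt)
  let Pi : Mt := ((P⁻¹ : Matrix.SpecialLinearGroup (Fin n) F) : Mt)
  have hval : ((Matrix.SpecialLinearGroup.toGL (P⁻¹ * x * P) : GL (Fin n) F) : Mt) = Pi * (x : Mt) * Pm := rfl
  rw [hval] at hc
  have hQR : Pi * Pm = 1 := by
    have : ((P⁻¹ * P : Matrix.SpecialLinearGroup (Fin n) F) : Mt) = 1 := by rw [inv_mul_cancel]; rfl
    rwa [Matrix.SpecialLinearGroup.coe_mul] at this
  have hRQ : Pm * Pi = 1 := by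
    have : ((P * P⁻¹ : Matrix.SpecialLinearGroup (Fin n) F) : Mt) = 1 := by rw [mul_inv_cancel]; rfl
    rwa [Matrix.SpecialLinearGroup.coe_mul] at this
  have h1 : ∀ a, Pi *ᵥ (Pm *ᵥ a) = a := fun a => by rw [Matrix.mulVec_mulVec, hQR, Matrix.one_mulVec]
  have h2 : ∀ a, Pm *ᵥ (Pi *ᵥ a) = a := fun a => by rw [Matrix.mulVec_mulVec, hRQ, Matrix.one_mulVec]
  refine ⟨fun u v => f (Pi *ᵥ u) (Pi *ᵥ v), c, ?_, c.ne_zero, ?_⟩
  · constructor
    · constructor
      · intro a b v
        simp only [Matrix.mulVec_add]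
        exact hf.bilinear.add_left _ _ _
      · intro t a v
        simp only [Matrix.mulVec_smul]
        exact hf.bilinear.smul_left _ _ _
      · intro v a b
        simp only [Matrix.mulVec_add]
        exact hf.bilinear.add_right _ _ _
      · intro t v a
        simp only [Matrix.mulVec_smul]
        exact hf.bilinear.smul_right _ _ _
    · intro v w
      exact hf.skew _ _
    · intro v
      exact hf.alternating _
    · intro v hv
      have hne : Pi *ᵥ v ≠ 0 := by
        intro h0
        apply hv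
        rw [← h2 v, h0]
        simp
      obtain ⟨⟨a, ha⟩, ⟨b, hb⟩⟩ := hf.nondegenerate _ hne
      refine ⟨⟨Pm *ᵥ a, ?_⟩, ⟨Pm *ᵥ b, ?_⟩⟩
      · simp only [h1]
        exact ha
      · simp only [h1]
        exact hb
  · intro u v
    have := hc (Pi *ᵥ u) (Pi *ᵥ v)
    simp only [← Matrix.mulVec_mulVec, h2] at this
    exact this

theorem c_pow {g : (Fin n → F) → (Fin n → F) → F} {c : F} {x : Mt}
    (hx : ∀ u v, g (x *ᵥ u) (x *ᵥ v) = c * g u v) (k : ℕ) (u v : Fin n → F) :
    g ((x ^ k) *ᵥ u) ((x ^ k) *ᵥ v) = c ^ k * g u v := by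
  induction k generalizing u v with
  | zero => simp
  | succ k ih =>
    rw [pow_succ, ← Matrix.mulVec_mulVec, ← Matrix.mulVec_mulVec, ih, hx, pow_succ, mul_assoc]

theorem exists_ne {g : (Fin n → F) → (Fin n → F) → F} (hg : IsSymplecticForm g) (hn : 0 < n) : ∃ u v, g u v ≠ 0 := by
  classical
  let i₀ : Fin n := ⟨0, hn⟩
  have : (Pi.single i₀ (1 : F) : Fin n → F) ≠ 0 := by
    intro h
    have := congrFun h i₀
    simp at this
  obtain ⟨-, ⟨y, hy⟩⟩ := hg.nondegenerate _ this
  exact ⟨_, _, hy⟩

theorem c_root {g : (Fin n → F) → (Fin n → F) → F} (hg : IsSymplecticForm g) (hn : 0 < n) {c : F} {x : Mt}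
    (hx : ∀ u v, g (x *ᵥ u) (x *ᵥ v) = c * g u v) {k : ℕ} (hk : x ^ k = 1) : c ^ k = 1 := by
  obtain ⟨u, v, huv⟩ := exists_ne hg hn
  have := c_pow hx k u v
  rw [hk, Matrix.one_mulVec, Matrix.one_mulVec] at this
  have h2 : (c ^ k - 1) * g u v = 0 := by linear_combination -this
  exact sub_eq_zero.mp ((mul_eq_zero.mp h2).resolve_right huv)

/-- The case `r = p`: a single Jordan block of size 3. -/
theorem case_p [Fintype F] (p : ℕ) [Fact p.Prime] [CharP F p] (hp2 : p ≠ 2) (hn : 3 ≤ n) :
    ∃ x : Mt, x ^ p = 1 ∧ x.det = 1 ∧ (∀ z : F, x ≠ z • (1 : Mt)) ∧ ∀ (g : (Fin n → F) → (Fin n → F) → F) (c : F), IsSymplecticForm g →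
      (∀ u v, g (x *ᵥ u) (x *ᵥ v) = c * g u v) → False := by
  classical
  have hpp : p.Prime := Fact.out
  have hp3 : 3 ≤ p := by
    have := hpp.two_le
    omega
  let i₀ : Fin n := ⟨0, by omega⟩
  let i₁ : Fin n := ⟨1, by omega⟩
  let i₂ : Fin n := ⟨2, by omega⟩
  have h01 : i₀ ≠ i₁ := by simp [i₀, i₁, Fin.ext_iff]
  have h02 : i₀ ≠ i₂ := by simp [i₀, i₂, Fin.ext_iff]
  have h12 : i₁ ≠ i₂ := by simp [i₁, i₂, Fin.ext_iff]
  let N : Mt := Matrix.single i₁ i₀ 1 + Matrix.single i₂ i₁ 1
  have hN2 : N * N = Matrix.single i₂ i₀ 1 := by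
    simp only [N, Matrix.add_mul, Matrix.mul_add]
    simp [Matrix.single_mul_single_same, Matrix.single_mul_single_of_ne, h01, h02, h12, h01.symm, h02.symm, h12.symm]
  have hN3 : N * (N * N) = 0 := by
    rw [hN2]
    simp only [N, Matrix.add_mul]
    simp [Matrix.single_mul_single_same, Matrix.single_mul_single_of_ne, h01, h02, h12, h01.symm, h02.symm, h12.symm]
  have hNv : ∀ v : Fin n → F, (N * N) *ᵥ v = v i₀ • Pi.single i₂ 1 := by
    intro v
    rw [hN2]
    funext a
    simp only [Matrix.mulVec, dotProduct, Pi.smul_apply, smul_eq_mul, Pi.single_apply, Matrix.single_apply]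
    rw [Finset.sum_eq_single i₀]
    · by_cases ha : a = i₂
      · simp [ha]
      · simp [ha, Ne.symm ha]
    · intro b _ hb
      simp [hb.symm]
    · simp
  let x : Mt := 1 + N
  haveI : Nonempty (Fin n) := ⟨i₀⟩
  haveI : CharP Mt p := Matrix.charP p
  have hNp : N ^ p = 0 := by
    obtain ⟨t, rfl⟩ : ∃ t, p = t + 3 := ⟨p - 3, by omega⟩
    rw [pow_add, pow_succ, pow_two, Matrix.mul_assoc N N N, hN3, mul_zero]
  have hxp : x ^ p = 1 := by
    simp only [x]
    rw [add_pow_char_of_commute p (Commute.one_left N), one_pow, hNp, add_zero]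
  refine ⟨x, hxp, ?_, ?_, ?_⟩
  · have h1 : x.det ^ p = 1 := by rw [← Matrix.det_pow, hxp, Matrix.det_one]
    have h2 : (x.det - 1) ^ p = 0 := by
      rw [sub_pow_char, h1, one_pow, sub_self]
    exact sub_eq_zero.mp (pow_eq_zero_iff hpp.ne_zero |>.mp h2)
  · intro z hz
    have h1 := congrFun (congrFun hz i₁) i₀
    simp [x, N, Matrix.add_apply, Matrix.one_apply, Matrix.single_apply, h01, h01.symm, h12.symm, h02] at h1
  · intro g c hg hgc
    have hc : c = 1 := by
      have h1 := c_root hg (by omega) hgc hxp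
      have h2 : (c - 1) ^ p = 0 := by
        rw [sub_pow_char, h1, one_pow, sub_self]
      exact sub_eq_zero.mp (pow_eq_zero_iff hpp.ne_zero |>.mp h2)
    have hb := hg.bilinear
    have hstar : ∀ u v, g (N *ᵥ u) v + g u (N *ᵥ v) + g (N *ᵥ u) (N *ᵥ v) = 0 := by
      intro u v
      have := hgc u v
      rw [hc, one_mul] at this
      simp only [x, Matrix.add_mulVec, Matrix.one_mulVec, hb.add_left, hb.add_right] at this
      linear_combination this
    have hgN2 : ∀ v, g ((N * N) *ᵥ v) v = 0 := by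
      intro v
      have h1 := hstar ((N * N) *ᵥ v) v
      have e1 : N *ᵥ ((N * N) *ᵥ v) = 0 := by
        rw [Matrix.mulVec_mulVec, hN3, Matrix.zero_mulVec]
      rw [e1] at h1
      have hz1 : ∀ w, g 0 w = 0 := by
        intro w
        have := hb.smul_left 0 0 w
        simpa using this
      rw [hz1, hz1] at h1
      have h2 := hstar (N *ᵥ v) v
      have e2 : N *ᵥ (N *ᵥ v) = (N * N) *ᵥ v := Matrix.mulVec_mulVec _ _ _
      rw [e2, hg.alternating] at h2
      have h3 : g ((N * N) *ᵥ v) (N *ᵥ v) = 0 := by linear_combination h1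
      rw [h3] at h2
      linear_combination h2
    have hkey : ∀ v, v i₀ * g (Pi.single i₂ 1) v = 0 := by
      intro v
      have := hgN2 v
      rw [hNv, hb.smul_left] at this
      exact this
    have hne : (Pi.single i₂ (1 : F) : Fin n → F) ≠ 0 := by
      intro h
      have := congrFun h i₂
      simp at this
    obtain ⟨-, ⟨y, hy⟩⟩ := hg.nondegenerate _ hne
    have hy0 : y i₀ = 0 := (mul_eq_zero.mp (hkey y)).resolve_right hy
    have he0 := hkey (Pi.single i₀ 1)
    simp only [Pi.single_eq_same, one_mul] at he0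
    have hsum := hkey (y + Pi.single i₀ 1)
    simp only [Pi.add_apply, Pi.single_eq_same, hy0, zero_add, one_mul, hb.add_right, he0, add_zero] at hsum
    exact hy hsum

theorem root_one [Fintype F] {r : ℕ} (hr : r.Prime) (hq1 : ¬ r ∣ Fintype.card F - 1) {a : F} (h : a ^ r = 1) : a = 1 := by
  have ha0 : a ≠ 0 := by
    rintro rfl
    rw [zero_pow hr.ne_zero] at h
    exact zero_ne_one h
  have h1 := orderOf_dvd_of_pow_eq_one h
  have h2 := orderOf_dvd_of_pow_eq_one (FiniteField.pow_card_sub_one_eq_one a ha0)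
  have hco : Nat.Coprime r (Fintype.card F - 1) := (Nat.Prime.coprime_iff_not_dvd hr).mpr hq1
  have : orderOf a ∣ 1 := by
    rw [← hco.gcd_eq_one]
    exact Nat.dvd_gcd h1 h2
  exact orderOf_eq_one_iff.mp (Nat.dvd_one.mp this)

theorem pow_blocks {j k : ℕ} (B : Matrix (Fin j) (Fin j) F) (t : ℕ) :
    (fromBlocks B 0 0 1 : Matrix (Fin j ⊕ Fin k) (Fin j ⊕ Fin k) F) ^ t = fromBlocks (B ^ t) 0 0 1 := by
  induction t with
  | zero => simp
  | succ t ih =>
    rw [pow_succ, ih, Matrix.fromBlocks_multiply, pow_succ]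
    simp

/-- The case `r ∤ q - 1`, `r ∣ q^j - 1` with `j` odd. -/
theorem case_B [Fintype F] (p : ℕ) [Fact p.Prime] [CharP F p] {r : ℕ} [Fact r.Prime] {j k : ℕ} (τ : Fin j ⊕ Fin k ≃ Fin n)
    (hj : Odd j) (hk : 0 < k) (hd : r ∣ Fintype.card F ^ j - 1) (hq1 : ¬ r ∣ Fintype.card F - 1) :
    ∃ x : Mt, x ^ r = 1 ∧ x.det = 1 ∧ (∀ z : F, x ≠ z • (1 : Mt)) ∧ ∀ (g : (Fin n → F) → (Fin n → F) → F) (c : F), IsSymplecticForm g →
      (∀ u v, g (x *ᵥ u) (x *ᵥ v) = c * g u v) → False := by
  classical
  have hrp : r.Prime := Fact.out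
  have hj0 : j ≠ 0 := hj.pos.ne'
  obtain ⟨B, hBr, hB1, hBf⟩ := exists_singer (F := F) p (r := r) hj0 hd
  have hn0 : 0 < n := by
    have := Fintype.card_congr τ
    simp at this
    omega
  let M : Matrix (Fin j ⊕ Fin k) (Fin j ⊕ Fin k) F := fromBlocks B 0 0 1
  let x : Mt := Matrix.reindexAlgEquiv F F τ M
  have hxv : ∀ w : Fin j ⊕ Fin k → F, x *ᵥ (w ∘ τ.symm) = (M *ᵥ w) ∘ τ.symm := by
    intro w
    show (Matrix.reindex τ τ M) *ᵥ (w ∘ τ.symm) = _
    rw [Matrix.reindex_apply, Matrix.submatrix_mulVec_equiv]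
    congr 2
    funext s
    simp
  have hxr : x ^ r = 1 := by
    simp only [x]
    rw [← map_pow, pow_blocks, hBr, Matrix.fromBlocks_one, map_one]
  have hxd : x.det = B.det := by
    show (Matrix.reindex τ τ M).det = _
    rw [Matrix.det_reindex_self, Matrix.det_fromBlocks_zero₂₁, Matrix.det_one, mul_one]
  have hBd : B.det = 1 := by
    apply root_one hrp hq1
    rw [← Matrix.det_pow, hBr, Matrix.det_one]
  let ι₁ : (Fin j → F) →ₗ[F] (Fin n → F) :=
    { toFun := fun a => (Sum.elim a 0) ∘ τ.symm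
      map_add' := by
        intro a b
        funext i
        simp only [Function.comp, Pi.add_apply]
        cases τ.symm i <;> simp
      map_smul' := by
        intro t a
        funext i
        simp only [Function.comp, Pi.smul_apply, RingHom.id_apply]
        cases τ.symm i <;> simp }
  let ι₂ : (Fin k → F) →ₗ[F] (Fin n → F) :=
    { toFun := fun a => (Sum.elim (0 : Fin j → F) a) ∘ τ.symm
      map_add' := by
        intro a b
        funext i
        simp only [Function.comp, Pi.add_apply]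
        cases τ.symm i <;> simp
      map_smul' := by
        intro t a
        funext i
        simp only [Function.comp, Pi.smul_apply, RingHom.id_apply]
        cases τ.symm i <;> simp }
  have hι₁ : ∀ a, ι₁ a = (Sum.elim a 0) ∘ τ.symm := fun a => rfl
  have hι₂ : ∀ a, ι₂ a = (Sum.elim (0 : Fin j → F) a) ∘ τ.symm := fun a => rfl
  have hxι₁ : ∀ a, x *ᵥ ι₁ a = ι₁ (B *ᵥ a) := by
    intro a
    rw [hι₁, hι₁, hxv]
    congr 1
    simp only [M]
    rw [Matrix.fromBlocks_mulVec]
    funext s
    cases s <;> simp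
  have hxι₂ : ∀ a, x *ᵥ ι₂ a = ι₂ a := by
    intro a
    rw [hι₂, hxv]
    congr 1
    simp only [M]
    rw [Matrix.fromBlocks_mulVec]
    funext s
    cases s <;> simp
  have hι₁inj : ∀ a, ι₁ a = 0 → a = 0 := by
    intro a h
    funext i
    have := congrFun h (τ (Sum.inl i))
    simpa [hι₁] using this
  have hι₂inj : ∀ a, ι₂ a = 0 → a = 0 := by
    intro a h
    funext i
    have := congrFun h (τ (Sum.inr i))
    simpa [hι₂] using this
  have hdec : ∀ v : Fin n → F, ∃ a b, v = ι₁ a + ι₂ b := by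
    intro v
    refine ⟨v ∘ τ ∘ Sum.inl, v ∘ τ ∘ Sum.inr, ?_⟩
    funext i
    obtain ⟨s, rfl⟩ := τ.surjective i
    rw [Pi.add_apply, hι₁, hι₂]
    cases s <;> simp
  refine ⟨x, hxr, by rw [hxd, hBd], ?_, ?_⟩
  · intro z hz
    have hk0 : (Pi.single (⟨0, hk⟩ : Fin k) (1 : F) : Fin k → F) ≠ 0 := by
      intro h
      have := congrFun h ⟨0, hk⟩
      simp at this
    have hz1 : z = 1 := by
      have h1 := hxι₂ (Pi.single (⟨0, hk⟩ : Fin k) (1 : F))
      rw [hz, Matrix.smul_mulVec, Matrix.one_mulVec, ← map_smul] at h1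
      have h2 : ι₂ ((z - 1) • (Pi.single (⟨0, hk⟩ : Fin k) (1 : F))) = 0 := by
        rw [sub_smul, one_smul, map_sub, h1, sub_self]
      have h3 := hι₂inj _ h2
      rcases smul_eq_zero.mp h3 with h4 | h4
      · exact sub_eq_zero.mp h4
      · exact absurd h4 hk0
    apply hB1
    apply Matrix.toLin'.injective
    apply LinearMap.ext
    intro a
    have h1 := hxι₁ a
    rw [hz, hz1, one_smul, Matrix.one_mulVec] at h1
    have h2 : ι₁ (B *ᵥ a - a) = 0 := by
      rw [map_sub, ← h1, sub_self]
    have h3 := hι₁inj _ h2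
    simp only [Matrix.toLin'_apply, Matrix.one_mulVec]
    exact sub_eq_zero.mp h3
  · intro g c hg hgc
    have hc : c = 1 := root_one hrp hq1 (c_root hg hn0 hgc hxr)
    rw [hc] at hgc
    simp only [one_mul] at hgc
    have hb := hg.bilinear
    -- the orthogonality
    have hsurj : Function.Surjective (Matrix.toLin' B - 1 : (Fin j → F) →ₗ[F] (Fin j → F)) := by
      apply LinearMap.injective_iff_surjective.mp
      intro u v huv
      have h1 : (Matrix.toLin' B - 1 : (Fin j → F) →ₗ[F] (Fin j → F)) (u - v) = 0 := by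
        rw [map_sub, huv, sub_self]
      have h2 : B *ᵥ (u - v) = u - v := by
        have : B *ᵥ (u - v) - (u - v) = 0 := h1
        exact sub_eq_zero.mp this
      exact sub_eq_zero.mp (hBf _ h2)
    have horth : ∀ a b, g (ι₂ b) (ι₁ a) = 0 := by
      intro a b
      obtain ⟨a'', rfl⟩ := hsurj a
      have h1 := hgc (ι₂ b) (ι₁ a'')
      rw [hxι₂, hxι₁] at h1
      have e1 : (Matrix.toLin' B - 1 : (Fin j → F) →ₗ[F] (Fin j → F)) a'' = B *ᵥ a'' - a'' := rfl
      rw [e1, map_sub]
      have e2 : g (ι₂ b) (ι₁ (B *ᵥ a'') - ι₁ a'') = g (ι₂ b) (ι₁ (B *ᵥ a'')) - g (ι₂ b) (ι₁ a'') := by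
        rw [sub_eq_add_neg, hb.add_right]
        have : (- ι₁ a'') = (-1 : F) • ι₁ a'' := by simp
        rw [this, hb.smul_right]
        ring
      rw [e2, h1, sub_self]
    have horth' : ∀ a b, g (ι₁ a) (ι₂ b) = 0 := by
      intro a b
      rw [hg.skew, horth]
      simp
    let Bl : (Fin j → F) →ₗ[F] (Fin j → F) →ₗ[F] F :=
      LinearMap.mk₂ F (fun a b => g (ι₁ a) (ι₁ b))
        (fun a b c => by rw [map_add, hb.add_left])
        (fun t a b => by rw [map_smul, hb.smul_left]; rfl)
        (fun a b c => by rw [map_add, hb.add_right])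
        (fun t a b => by rw [map_smul, hb.smul_right]; rfl)
    have halt : ∀ v, Bl v v = 0 := fun v => hg.alternating _
    have hnd : ∀ v, (∀ w, Bl v w = 0) → v = 0 := by
      intro v hv
      by_contra hne
      have hne' : ι₁ v ≠ 0 := fun h => hne (hι₁inj v h)
      obtain ⟨-, ⟨y, hy⟩⟩ := hg.nondegenerate _ hne'
      obtain ⟨a, b, rfl⟩ := hdec y
      rw [hb.add_right, horth', add_zero] at hy
      exact hy (hv a)
    obtain ⟨m, s, -⟩ := Cfsg.Agent.Lib.SympBasis.exists_symp_basis Bl halt hnd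
    have := Module.finrank_eq_card_basis s
    simp at this
    rw [this] at hj
    exact (Nat.not_odd_iff_even.mpr (by simp)) hj

/-- Row count for a pairing. -/
theorem card_le_of_partners {g : (Fin n → F) → (Fin n → F) → F} (hg : IsSymplecticForm g) (A B : Finset (Fin n))
    (h : ∀ i ∈ A, ∀ j, j ∉ B → g (Pi.single i 1) (Pi.single j 1) = 0) : A.card ≤ B.card := by
  classical
  have hb := hg.bilinear
  let Bl : (Fin n → F) →ₗ[F] (Fin n → F) →ₗ[F] F :=
    LinearMap.mk₂ F g hb.add_left (fun c u v => hb.smul_left c u v) hb.add_right (fun c u v => hb.smul_right c u v)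
  let ρ : A → (B → F) := fun i j => g (Pi.single (i : Fin n) 1) (Pi.single (j : Fin n) 1)
  have hli : LinearIndependent F ρ := by
    rw [Fintype.linearIndependent_iff]
    intro a ha i
    let w : Fin n → F := ∑ i : A, a i • Pi.single (i : Fin n) 1
    have hw : ∀ j, Bl w (Pi.single j 1) = 0 := by
      intro j
      simp only [w, map_sum, map_smul, LinearMap.sum_apply, LinearMap.smul_apply, smul_eq_mul]
      have hBl : ∀ u v, Bl u v = g u v := fun _ _ => rfl
      simp only [hBl]
      by_cases hj : j ∈ B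
      · have := congrFun ha ⟨j, hj⟩
        simpa [ρ] using this
      · apply Finset.sum_eq_zero
        intro i _
        rw [h i i.2 j hj, mul_zero]
    have hw0 : w = 0 := by
      by_contra hne
      obtain ⟨-, ⟨y, hy⟩⟩ := hg.nondegenerate _ hne
      apply hy
      have : Bl w = 0 := (Pi.basisFun F (Fin n)).ext (fun j => by simpa using hw j)
      show Bl w y = 0
      rw [this]
      rfl
    have := congrFun hw0 i
    simp only [w, Finset.sum_apply, Pi.smul_apply, Pi.single_apply, smul_eq_mul, mul_ite, mul_one, mul_zero, Pi.zero_apply] at this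
    rw [Finset.sum_eq_single i] at this
    · simpa using this
    · intro b _ hb
      rw [if_neg]
      intro h'
      exact hb (Subtype.ext h'.symm)
    · simp
  have := hli.fintype_card_le_finrank
  simpa using this

/-- The case `r ∣ q - 1`. -/
theorem case_C {r : ℕ} (hrp : r.Prime) (hr2 : r ≠ 2) (hn : 4 ≤ n) (hgap : ¬ (n = 6 ∧ r = 3)) (ζ : F) (hζ : orderOf ζ = r) :
    ∃ x : Mt, x ^ r = 1 ∧ x.det = 1 ∧ (∀ z : F, x ≠ z • (1 : Mt)) ∧ ∀ (g : (Fin n → F) → (Fin n → F) → F) (c : F), IsSymplecticForm g →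
      (∀ u v, g (x *ᵥ u) (x *ᵥ v) = c * g u v) → False := by
  classical
  have hζr : ζ ^ r = 1 := by rw [← hζ]; exact pow_orderOf_eq_one ζ
  have hζ0 : ζ ≠ 0 := by
    rintro rfl
    rw [zero_pow hrp.ne_zero] at hζr
    exact zero_ne_one hζr
  have hr3' : 3 ≤ r := by
    have := hrp.two_le
    omega
  have hz1 : ζ ≠ 1 := by
    have := pow_ne_one_of_lt_orderOf (x := ζ) (n := 1) one_ne_zero (by omega)
    simpa using this
  have hz2 : ζ ^ 2 ≠ 1 := pow_ne_one_of_lt_orderOf (x := ζ) (n := 2) two_ne_zero (by omega)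
  set z' : F := ζ⁻¹ with hz'
  have hzz : ζ * z' = 1 := mul_inv_cancel₀ hζ0
  have hz'0 : z' ≠ 0 := inv_ne_zero hζ0
  let i₀ : Fin n := ⟨0, by omega⟩
  let i₁ : Fin n := ⟨1, by omega⟩
  let i₂ : Fin n := ⟨2, by omega⟩
  let i₃ : Fin n := ⟨3, by omega⟩
  have h01 : i₀ ≠ i₁ := by simp [i₀, i₁, Fin.ext_iff]
  have h02 : i₀ ≠ i₂ := by simp [i₀, i₂, Fin.ext_iff]
  have h03 : i₀ ≠ i₃ := by simp [i₀, i₃, Fin.ext_iff]
  have h12 : i₁ ≠ i₂ := by simp [i₁, i₂, Fin.ext_iff]
  have h13 : i₁ ≠ i₃ := by simp [i₁, i₃, Fin.ext_iff]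
  have h23 : i₂ ≠ i₃ := by simp [i₂, i₃, Fin.ext_iff]
  let lam : Fin n → F := fun i => if i = i₀ ∨ i = i₁ then ζ else if i = i₂ then z' ^ 2 else 1
  have l0 : lam i₀ = ζ := by simp [lam]
  have l1 : lam i₁ = ζ := by simp [lam]
  have l2 : lam i₂ = z' ^ 2 := by simp [lam, h02.symm, h12.symm]
  have l3 : lam i₃ = 1 := by simp [lam, h03.symm, h13.symm, h23.symm]
  have lo : ∀ i, i ≠ i₀ → i ≠ i₁ → i ≠ i₂ → lam i = 1 := by
    intro i a1 a2 a3
    simp [lam, a1, a2, a3]
  have lall : ∀ i, lam i = ζ ∨ lam i = z' ^ 2 ∨ lam i = 1 := by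
    intro i
    simp only [lam]
    split_ifs
    · exact Or.inl rfl
    · exact Or.inr (Or.inl rfl)
    · exact Or.inr (Or.inr rfl)
  have hz'r : z' ^ r = 1 := by rw [hz', inv_pow, hζr, inv_one]
  let x : Mt := Matrix.diagonal lam
  have hxe : ∀ i, x *ᵥ Pi.single i 1 = lam i • (Pi.single i 1 : Fin n → F) := by
    intro i
    funext a
    simp only [x, Matrix.mulVec_diagonal, Pi.smul_apply, smul_eq_mul]
    by_cases h : a = i
    · subst h
      simp
    · simp [Pi.single_apply, h]
  refine ⟨x, ?_, ?_, ?_, ?_⟩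
  · simp only [x]
    rw [Matrix.diagonal_pow, ← Matrix.diagonal_one]
    congr 1
    funext i
    simp only [Pi.pow_apply, Pi.one_apply]
    rcases lall i with h | h | h <;> rw [h]
    · exact hζr
    · rw [← pow_mul, mul_comm, pow_mul, hz'r, one_pow]
    · exact one_pow _
  · simp only [x]
    rw [Matrix.det_diagonal]
    have hsub : ∏ i ∈ ({i₀, i₁, i₂} : Finset (Fin n)), lam i = ∏ i, lam i := by
      apply Finset.prod_subset (Finset.subset_univ _)
      intro i _ hi
      simp only [Finset.mem_insert, Finset.mem_singleton, not_or] at hi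
      exact lo i hi.1 hi.2.1 hi.2.2
    rw [← hsub, Finset.prod_insert (by simp [h01, h02]), Finset.prod_insert (by simp [h12]), Finset.prod_singleton, l0, l1, l2]
    linear_combination (ζ * z' + 1) * hzz
  · intro z hz
    have h1 := congrFun (congrFun hz i₀) i₀
    have h2 := congrFun (congrFun hz i₃) i₃
    simp only [x, Matrix.diagonal_apply_eq, Matrix.smul_apply, Matrix.one_apply_eq, smul_eq_mul, mul_one, l0, l3] at h1 h2
    apply hz1
    rw [h1, ← h2]
  · intro g c hg hgc
    have hb := hg.bilinear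
    have hpair : ∀ i j, g (Pi.single i 1) (Pi.single j 1) ≠ 0 → lam i * lam j = c := by
      intro i j hij
      have h1 := hgc (Pi.single i 1) (Pi.single j 1)
      rw [hxe, hxe, hb.smul_left, hb.smul_right] at h1
      have h2 : (lam i * lam j - c) * g (Pi.single i 1) (Pi.single j 1) = 0 := by linear_combination h1
      exact sub_eq_zero.mp ((mul_eq_zero.mp h2).resolve_right hij)
    have hpart : ∀ i, ∃ j, g (Pi.single i 1) (Pi.single j 1) ≠ 0 := by
      intro i
      by_contra hall
      push_neg at hall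
      have hne : (Pi.single i (1 : F) : Fin n → F) ≠ 0 := by
        intro h
        have := congrFun h i
        simp at this
      obtain ⟨-, ⟨y, hy⟩⟩ := hg.nondegenerate _ hne
      let Bl : (Fin n → F) →ₗ[F] F :=
        { toFun := g (Pi.single i 1)
          map_add' := hb.add_right _
          map_smul' := fun t v => by rw [hb.smul_right]; rfl }
      have : Bl = 0 := (Pi.basisFun F (Fin n)).ext (fun j => by simpa [Bl] using hall j)
      apply hy
      show Bl y = 0
      rw [this]
      rfl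
    obtain ⟨j₃, hj₃⟩ := hpart i₃
    have hc3 := hpair _ _ hj₃
    rw [l3, one_mul] at hc3
    by_cases hr3 : r = 3
    · -- `r = 3`
      subst hr3
      have hz'2 : z' ^ 2 = ζ := by
        have e1 : ζ ^ 3 = 1 := hζr
        have : (z' ^ 2 - ζ) * ζ ^ 2 = 0 := by
          have e2 : z' ^ 2 * ζ ^ 2 = 1 := by
            have : z' ^ 2 * ζ ^ 2 = (ζ * z') ^ 2 := by ring
            rw [this, hzz, one_pow]
          linear_combination e2 - e1
        exact sub_eq_zero.mp ((mul_eq_zero.mp this).resolve_right (pow_ne_zero _ hζ0))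
      rw [hz'2] at l2
      have lall' : ∀ i, (i = i₀ ∨ i = i₁ ∨ i = i₂) ∧ lam i = ζ ∨ (i ≠ i₀ ∧ i ≠ i₁ ∧ i ≠ i₂) ∧ lam i = 1 := by
        intro i
        by_cases a0 : i = i₀
        · left; subst a0; exact ⟨Or.inl rfl, l0⟩
        by_cases a1 : i = i₁
        · left; subst a1; exact ⟨Or.inr (Or.inl rfl), l1⟩
        by_cases a2 : i = i₂
        · left; subst a2; exact ⟨Or.inr (Or.inr rfl), l2⟩
        · right; exact ⟨⟨a0, a1, a2⟩, lo i a0 a1 a2⟩
      have hcases : c = 1 ∨ c = ζ := by
        rcases lall' j₃ with ⟨-, h⟩ | ⟨-, h⟩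
        · right; rw [← hc3, h]
        · left; rw [← hc3, h]
      rcases hcases with hc1 | hcz
      · obtain ⟨j, hj⟩ := hpart i₀
        have := hpair _ _ hj
        rw [l0, hc1] at this
        rcases lall' j with ⟨-, h⟩ | ⟨-, h⟩
        · rw [h] at this
          apply hz2
          rw [← this]
          ring
        · rw [h, mul_one] at this
          exact hz1 this
      · let A : Finset (Fin n) := {i₀, i₁, i₂}
        have hAc : A.card = 3 := by
          rw [Finset.card_insert_of_notMem (by simp [h01, h02]), Finset.card_insert_of_notMem (by simp [h12]), Finset.card_singleton]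
        have hAcc : Aᶜ.card = n - 3 := by
          rw [Finset.card_compl, hAc, Fintype.card_fin]
        have hmem : ∀ i, i ∈ A ↔ (i = i₀ ∨ i = i₁ ∨ i = i₂) := by
          intro i
          simp [A]
        have h1 := card_le_of_partners hg A Aᶜ (by
          intro i hi j hj
          by_contra hne
          have := hpair _ _ hne
          rw [Finset.mem_compl, not_not, hmem] at hj
          rw [hmem] at hi
          have e1 : lam i = ζ := by
            rcases lall' i with ⟨-, h⟩ | ⟨h, -⟩
            · exact h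
            · rcases hi with a | a | a
              · exact absurd a h.1
              · exact absurd a h.2.1
              · exact absurd a h.2.2
          have e2 : lam j = ζ := by
            rcases lall' j with ⟨-, h⟩ | ⟨h, -⟩
            · exact h
            · rcases hj with a | a | a
              · exact absurd a h.1
              · exact absurd a h.2.1
              · exact absurd a h.2.2
          rw [e1, e2, hcz] at this
          apply hz1
          have h3 : ζ * (ζ - 1) = 0 := by linear_combination this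
          exact sub_eq_zero.mp ((mul_eq_zero.mp h3).resolve_left hζ0))
        have h2 := card_le_of_partners hg Aᶜ A (by
          intro i hi j hj
          by_contra hne
          have := hpair _ _ hne
          rw [Finset.mem_compl, hmem] at hi
          rw [hmem] at hj
          have e1 : lam i = 1 := by
            rcases lall' i with ⟨h, -⟩ | ⟨-, h⟩
            · exact absurd h hi
            · exact h
          have e2 : lam j = 1 := by
            rcases lall' j with ⟨h, -⟩ | ⟨-, h⟩
            · exact absurd h hj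
            · exact h
          rw [e1, e2, hcz] at this
          apply hz1
          rw [← this, mul_one])
        apply hgap
        refine ⟨?_, rfl⟩
        rw [hAc, hAcc] at h1 h2
        omega
    · -- `r ≥ 5`
      have hr5 : 5 ≤ r := by
        by_contra hlt
        have : r = 4 := by omega
        rw [this] at hrp
        norm_num at hrp
      have hz3 : ζ ^ 3 ≠ 1 := pow_ne_one_of_lt_orderOf (x := ζ) (n := 3) (by norm_num) (by omega)
      have hz4 : ζ ^ 4 ≠ 1 := pow_ne_one_of_lt_orderOf (x := ζ) (n := 4) (by norm_num) (by omega)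
      have hzz2 : z' ^ 2 * ζ ^ 2 = 1 := by
        have : z' ^ 2 * ζ ^ 2 = (ζ * z') ^ 2 := by ring
        rw [this, hzz, one_pow]
      have hcases : c = ζ ∨ c = z' ^ 2 ∨ c = 1 := by
        rcases lall j₃ with h | h | h
        · left; rw [← hc3, h]
        · right; left; rw [← hc3, h]
        · right; right; rw [← hc3, h]
      rcases hcases with hcz | hcz | hc1
      · obtain ⟨j, hj⟩ := hpart i₂
        have hh := hpair _ _ hj
        rw [l2, hcz] at hh
        by_cases a0 : j = i₀ ∨ j = i₁
        · have e1 : lam j = ζ := by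
            rcases a0 with rfl | rfl
            · exact l0
            · exact l1
          rw [e1] at hh
          have : z' ^ 2 = 1 := by
            have h3 : (z' ^ 2 - 1) * ζ = 0 := by linear_combination hh
            exact sub_eq_zero.mp ((mul_eq_zero.mp h3).resolve_right hζ0)
          rw [this, one_mul] at hzz2
          exact hz2 hzz2
        · push_neg at a0
          by_cases a2 : j = i₂
          · rw [a2, hg.alternating] at hj
            exact hj rfl
          · have e1 := lo j a0.1 a0.2 a2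
            rw [e1, mul_one] at hh
            apply hz3
            calc ζ ^ 3 = ζ * ζ ^ 2 := by ring
              _ = z' ^ 2 * ζ ^ 2 := by rw [hh]
              _ = 1 := hzz2
      · obtain ⟨j, hj⟩ := hpart i₀
        have hh := hpair _ _ hj
        rw [l0, hcz] at hh
        rcases lall j with h | h | h
        · rw [h] at hh
          apply hz4
          have e2 : ζ ^ 4 = ζ * ζ * ζ ^ 2 := by ring
          rw [e2, hh, hzz2]
        · rw [h] at hh
          apply hz1
          have h3 : (ζ - 1) * z' ^ 2 = 0 := by linear_combination hh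
          exact sub_eq_zero.mp ((mul_eq_zero.mp h3).resolve_right (pow_ne_zero _ hz'0))
        · rw [h, mul_one] at hh
          apply hz3
          calc ζ ^ 3 = ζ * ζ ^ 2 := by ring
            _ = z' ^ 2 * ζ ^ 2 := by rw [← hh]
            _ = 1 := hzz2
      · obtain ⟨j, hj⟩ := hpart i₀
        have hh := hpair _ _ hj
        rw [l0, hc1] at hh
        rcases lall j with h | h | h
        · rw [h] at hh
          apply hz2
          rw [← hh]
          ring
        · rw [h] at hh
          apply hz1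
          have h3 : ζ = 1 := by
            have e1 : ζ * z' ^ 2 = z' := by
              have : ζ * z' ^ 2 = (ζ * z') * z' := by ring
              rw [this, hzz, one_mul]
            rw [e1] at hh
            rw [hh] at hzz
            simpa using hzz
          exact h3
        · rw [h, mul_one] at hh
          exact hz1 hh

theorem prod_gl (q n : ℕ) (hq : 1 ≤ q) :
    ∏ i : Fin n, (q ^ n - q ^ (i : ℕ)) = q ^ (∑ i ∈ Finset.range n, i) * ∏ k ∈ Finset.range n, (q ^ (k + 1) - 1) := by
  rw [Fin.prod_univ_eq_prod_range (fun i => q ^ n - q ^ i) n, ← Finset.prod_pow_eq_pow_sum, ← Finset.prod_range_reflect (fun k => q ^ (k + 1) - 1),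
    ← Finset.prod_mul_distrib]
  apply Finset.prod_congr rfl
  intro i hi
  have hi' : i < n := Finset.mem_range.mp hi
  have e1 : n - 1 - i + 1 = n - i := by omega
  rw [e1, Nat.mul_sub, mul_one, ← pow_add]
  congr 2
  omega

theorem prod_split (q m : ℕ) :
    ∏ k ∈ Finset.range (2 * m), (q ^ (k + 1) - 1) = (∏ k ∈ Finset.range m, (q ^ (2 * k + 1) - 1)) * ∏ k ∈ Finset.range m, (q ^ (2 * (k + 1)) - 1) := by
  induction m with
  | zero => simp
  | succ m ih =>
    rw [show 2 * (m + 1) = 2 * m + 1 + 1 by ring, Finset.prod_range_succ, Finset.prod_range_succ, ih, Finset.prod_range_succ,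
      Finset.prod_range_succ]
    rw [show 2 * m + 1 + 1 = 2 * (m + 1) by ring]
    ring

/-- The index of the similarity group divides the expected quotient. -/
theorem index_cases [Fintype F] (p : ℕ) [Fact p.Prime] [CharP F p] (f : (Fin n → F) → (Fin n → F) → F) (hf : IsSymplecticForm f)
    (m : ℕ) (hn : n = 2 * (m + 1)) {r : ℕ} (hr : r.Prime)
    (hΩ : r ∣ ((similarityGroup f).comap (Matrix.SpecialLinearGroup.toGL : Matrix.SpecialLinearGroup (Fin n) F →* GL (Fin n) F)).index) :
    r = p ∨ ∃ k, k < m ∧ r ∣ Fintype.card F ^ (2 * k + 3) - 1 := by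
  classical
  set H := (similarityGroup f).comap (Matrix.SpecialLinearGroup.toGL : Matrix.SpecialLinearGroup (Fin n) F →* GL (Fin n) F) with hH
  set q := Fintype.card F with hq
  have hq2 : 2 ≤ q := Fintype.one_lt_card
  obtain ⟨ψ, hψ, hψf⟩ := exists_sp_embed (m := m + 1) hn f hf
  have hmem : ∀ A, ψ A ∈ H := by
    intro A
    rw [hH, Subgroup.mem_comap]
    exact ⟨1, fun u v => by simpa using hψf A u v⟩
  let ψ' : Matrix.symplecticGroup (Fin (m + 1)) F →* H := ψ.codRestrict H hmem
  have hψ' : Function.Injective ψ' := by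
    intro a b hab
    exact hψ (congrArg Subtype.val hab)
  obtain ⟨t, ht⟩ : Nat.card (Matrix.symplecticGroup (Fin (m + 1)) F) ∣ Nat.card H := Subgroup.card_dvd_of_injective ψ' hψ'
  have h1 : H.index * Nat.card H = Nat.card (Matrix.SpecialLinearGroup (Fin n) F) := Subgroup.index_mul_card H
  haveI : Nonempty (Fin n) := ⟨⟨0, by omega⟩⟩
  have h2 := Cfsg.Agent.Lib.ClassicalCore.card_GL_eq_mul_card_SL (n := Fin n) (F := F)
  rw [Matrix.card_GL_field, prod_gl _ _ (by omega)] at h2
  have hsp := Cfsg.Agent.Lib.SpOrder.card_Sp (F := F) (m + 1)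
  rw [← hq] at h2 hsp
  set Ev := ∏ i ∈ Finset.range (m + 1), (q ^ (2 * (i + 1)) - 1) with hEv
  set Od := ∏ k ∈ Finset.range m, (q ^ (2 * k + 3) - 1) with hOd
  have hsplit : ∏ k ∈ Finset.range n, (q ^ (k + 1) - 1) = (q - 1) * Od * Ev := by
    rw [hn, prod_split, Finset.prod_range_succ']
    simp only [hOd, hEv]
    congr 1
    rw [mul_comm]
    simp only [show ∀ k, 2 * (k + 1) + 1 = 2 * k + 3 from fun k => by ring]
    simp
  have hsum : ∑ i ∈ Finset.range n, i = (m + 1) ^ 2 + (m + 1) * m := by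
    have := Finset.sum_range_id_mul_two n
    rw [hn] at this ⊢
    have e1 : 2 * (m + 1) * (2 * (m + 1) - 1) = ((m + 1) ^ 2 + (m + 1) * m) * 2 := by
      have : 2 * (m + 1) - 1 = 2 * m + 1 := by omega
      rw [this]
      ring
    rw [e1] at this
    exact Nat.eq_of_mul_eq_mul_right (by norm_num) this
  rw [hsplit, hsum] at h2
  have hq1 : 0 < q - 1 := by omega
  have h3 : Nat.card (Matrix.SpecialLinearGroup (Fin n) F) = q ^ ((m + 1) ^ 2) * Ev * (q ^ ((m + 1) * m) * Od) := by
    apply Nat.eq_of_mul_eq_mul_left hq1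
    rw [← h2, pow_add]
    ring
  rw [← h1, ht, hsp] at h3
  have hne : 0 < q ^ ((m + 1) ^ 2) * Ev := by
    rw [← hsp]
    exact Nat.card_pos
  have h4 : H.index * t = q ^ ((m + 1) * m) * Od := by
    apply Nat.eq_of_mul_eq_mul_left hne
    rw [← h3]
    ring
  have h5 : r ∣ q ^ ((m + 1) * m) * Od := by
    rw [← h4]
    exact dvd_mul_of_dvd_left hΩ _
  rcases (Nat.Prime.dvd_mul hr).mp h5 with h6 | h6
  · left
    have h7 := hr.dvd_of_dvd_pow h6
    obtain ⟨e, -, he⟩ := FiniteField.card F p
    rw [hq, he] at h7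
    exact (Nat.prime_dvd_prime_iff_eq hr Fact.out).mp (hr.dvd_of_dvd_pow h7)
  · right
    obtain ⟨k, hk, h7⟩ := (Prime.dvd_finset_prod_iff hr.prime _).mp h6
    exact ⟨k, Finset.mem_range.mp hk, h7⟩



/-- Derangements of odd prime order of PSL_n(q) on the cosets of a symplectic-type subgroup. Here `T = PSL_n(F)` for a field `F` with `q` elements, `n ≥ 4` even, `f` is a nondegenerate alternating form on `F^n`, and `H` is the subgroup of matrices of determinant 1 preserving `f` up to a scalar — a maximal subgroup of type Sp_n(q); Ω is the set of `T`-conjugates of `H` (cosets of `H`), so an element of `T` of prime order `r` (a matrix `x` of determinant 1 with `x^r` scalar, `x` not scalar) fixes a point of Ω when some conjugate of `x` by a matrix of determinant 1 preserves `f` up to a scalar. For every odd prime `r` dividing the index of `H`, with `(n, r) ≠ (6, 3)`, there is an element of `T` of order `r` with no conjugate in `H`. (For `n = 6`, `r = 3` this can fail: when `(q − 1)_3 = 3` every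 element of order 3 is conjugate into `H`.) -/
theorem result {F : Type*} [Field F] [Fintype F] {p : ℕ} [Fact p.Prime] [CharP F p] {q : ℕ} (hq : Fintype.card F = q)
    (n : ℕ) (hn : 4 ≤ n) (he : Even n) (f : (Fin n → F) → (Fin n → F) → F) (hf : Cfsg.Geo.IsSymplecticForm f)
    (r : ℕ) [Fact r.Prime] (hr2 : r ≠ 2) (hgap : ¬ (n = 6 ∧ r = 3)) (hΩ : r ∣ ((Cfsg.Geo.similarityGroup f).comap (Matrix.SpecialLinearGroup.toGL : Matrix.SpecialLinearGroup (Fin n) F →* GL (Fin n) F)).index) :
    ∃ x : Matrix.SpecialLinearGroup (Fin n) F,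
      (∃ z : F, ((x ^ r : Matrix.SpecialLinearGroup (Fin n) F) : Matrix (Fin n) (Fin n) F) = z • (1 : Matrix (Fin n) (Fin n) F)) ∧
      (∀ z : F, (x : Matrix (Fin n) (Fin n) F) ≠ z • (1 : Matrix (Fin n) (Fin n) F)) ∧
      ∀ P : Matrix.SpecialLinearGroup (Fin n) F, P⁻¹ * x * P ∉ ((Cfsg.Geo.similarityGroup f).comap (Matrix.SpecialLinearGroup.toGL : Matrix.SpecialLinearGroup (Fin n) F →* GL (Fin n) F)) := by
  classical
  have hrp : r.Prime := Fact.out
  have hpp : p.Prime := Fact.out
  obtain ⟨m₀, hm₀⟩ := he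
  obtain ⟨m, hm⟩ : ∃ m, n = 2 * (m + 1) := ⟨m₀ - 1, by omega⟩
  suffices hex : ∃ x : Matrix (Fin n) (Fin n) F, x ^ r = 1 ∧ x.det = 1 ∧ (∀ z : F, x ≠ z • (1 : Matrix (Fin n) (Fin n) F)) ∧
      ∀ (g : (Fin n → F) → (Fin n → F) → F) (c : F), IsSymplecticForm g →
      (∀ u v, g (x *ᵥ u) (x *ᵥ v) = c * g u v) → False by
    obtain ⟨x, hxr, hxd, hns, hno⟩ := hex
    let x₁ : Matrix.SpecialLinearGroup (Fin n) F := ⟨x, hxd⟩
    refine ⟨x₁, ⟨1, ?_⟩, hns, ?_⟩
    · rw [Matrix.SpecialLinearGroup.coe_pow, one_smul]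
      exact hxr
    · intro P hP
      obtain ⟨g, c, hg, hc, h⟩ := form_of_conj f hf x₁ P hP
      exact hno g c hg h
  by_cases hrpe : r = p
  · subst hrpe
    exact case_p r hr2 (by omega)
  by_cases hq1 : r ∣ Fintype.card F - 1
  · have h1 : r ∣ Nat.card Fˣ := by
      rw [Nat.card_eq_fintype_card, Fintype.card_units]
      exact hq1
    obtain ⟨ζ, hζ⟩ := exists_prime_orderOf_dvd_card' r h1
    have hζ' : orderOf (ζ : F) = r := by
      rw [← hζ]
      exact orderOf_units
    exact case_C hrp hr2 hn hgap (ζ : F) hζ'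
  · rcases index_cases p f hf m hm hrp hΩ with h | ⟨k, hk, hd⟩
    · exact absurd h hrpe
    · have hlt : 2 * k + 3 < n := by omega
      let τ : Fin (2 * k + 3) ⊕ Fin (n - (2 * k + 3)) ≃ Fin n :=
        finSumFinEquiv.trans (finCongr (by omega))
      exact case_B p τ ⟨k + 1, by ring⟩ (by omega) hd hq1

end Cfsg.Agent.S5968
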