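import Mathlib
import Cfsg.Agent.Lib.PointCount
import Cfsg.Agent.Lib.HypLevi
import Cfsg.Agent.Lib.OrthMatrix
import Cfsg.Agent.Lib.OrthoCount
import Cfsg.Agent.Lib.Singer
import Cfsg.Agent.Lib.SympBasis
import Cfsg.Agent.Lib.OrthLagr
import Cfsg.Statements.S5985
-- import your own Cfsg.Agent.* helpers here

set_option autoImplicit false
open scoped MatrixGroups
open Cfsg

namespace Cfsg.Agent.S5985

open Matrix Module
open Cfsg.Agent.Lib.OrthGroup Cfsg.Agent.Lib.OrthOmega Cfsg.Agent.Lib.OrthMatrix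
open Cfsg.Agent.Lib.OrthoCount Cfsg.Agent.Lib.HypLevi Cfsg.Agent.Lib.OrthLagr

set_option linter.unusedSimpArgs false
set_option linter.unusedVariables false

variable {F : Type*} [Field F]

/-! ### General lemmas on Ω in characteristic two -/

theorem eq_one_of_mul_self [CharP F 2] (c : F) (h : c * c = 1) : c = 1 := by
  have h2 : (2 : F) = 0 := CharTwo.two_eq_zero
  have h5 : (c - 1) * (c - 1) = 0 := by
    have : (c - 1) * (c - 1) = (c * c - 1) - 2 * (c - 1) := by ring
    rw [this, h, h2]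
    simp
  exact sub_eq_zero.1 (mul_self_eq_zero.1 h5)

section general

variable {ι : Type} [Fintype ι] [DecidableEq ι] (Q : QuadraticForm F (ι → F))

theorem mem_omegaGL_iff (x : GL ι F) :
    x ∈ Cfsg.Geo.omegaGL (⇑Q) ↔ ∃ h : x ∈ Cfsg.isometryGroup F ⇑Q, toO Q ⟨x, h⟩ ∈ commutator ↥(O Q) := by
  unfold Cfsg.Geo.omegaGL
  rw [Subgroup.mem_map]
  constructor
  · rintro ⟨g, hg, rfl⟩
    refine ⟨g.2, ?_⟩
    exact (mem_Omega_iff Q g).1 hg
  · rintro ⟨h, hx⟩
    exact ⟨⟨x, h⟩, (mem_Omega_iff Q _).2 hx, rfl⟩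

theorem isometry_of_mem_omega {x : GL ι F} (hx : x ∈ Cfsg.Geo.omegaGL (⇑Q)) (v : ι → F) :
    Q ((x : Matrix ι ι F) *ᵥ v) = Q v := by
  obtain ⟨h, -⟩ := (mem_omegaGL_iff Q x).1 hx
  exact (mem_isometryGroup _ _).1 h v

/-- Elements of odd order of the isometry group lie in Ω (when reflections generate). -/
theorem mem_omega_of_odd_pow (hOG : O Q ≤ G Q) (x : GL ι F) (hx : x ∈ Cfsg.isometryGroup F ⇑Q)
    {r : ℕ} (hr : Odd r) (h1 : x ^ r = 1) : x ∈ Cfsg.Geo.omegaGL (⇑Q) := by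
  rw [mem_omegaGL_iff]
  refine ⟨hx, ?_⟩
  obtain ⟨k, rfl⟩ := hr
  set g : ↥(Cfsg.isometryGroup F ⇑Q) := ⟨x, hx⟩ with hg
  have hg1 : g ^ (2 * k + 1) = 1 := by
    apply Subtype.ext
    simpa [hg] using h1
  have hsq : g = g ^ (k + 1) * g ^ (k + 1) := by
    rw [← pow_add]
    have : k + 1 + (k + 1) = (2 * k + 1) + 1 := by ring
    rw [this, pow_succ, hg1, one_mul]
  rw [hsq, map_mul]
  exact sq_mem_commutator hOG _

/-- In characteristic two, the parity of the rank of `x - 1` decides membership of Ω. -/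
theorem mem_omega_of_even_fix [Fintype F] [CharP F 2] (hQ : (B Q).Nondegenerate) (hOG : O Q ≤ G Q)
    (x : GL ι F) (hx : x ∈ Cfsg.isometryGroup F ⇑Q)
    (he : Even (finrank F (fix (Cfsg.Agent.Lib.OrthMatrix.glEquiv x)) + finrank F (ι → F))) : x ∈ Cfsg.Geo.omegaGL (⇑Q) := by
  rw [mem_omegaGL_iff]
  refine ⟨hx, ?_⟩
  rw [mem_commutator_iff hQ hOG]
  have hG := hOG (toO Q ⟨x, hx⟩).2
  obtain ⟨L, hL, hLx⟩ := exists_list_of_mem_G hG
  refine ⟨L, hL, Subtype.ext hLx, ?_, isSquare_char_two _⟩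
  have hp := parity_prodR hQ L hL
  rw [← hLx] at hp
  have hcoe : ((toO Q ⟨x, hx⟩ : ↥(O Q)) : (ι → F) ≃ₗ[F] (ι → F)) = Cfsg.Agent.Lib.OrthMatrix.glEquiv x := rfl
  rw [hcoe] at hp
  have h3 : Even (finrank F (fix (Cfsg.Agent.Lib.OrthMatrix.glEquiv x)) + L.length + finrank F (ι → F)) := hp
  rw [Nat.even_add] at he h3
  rw [Nat.even_add] at h3
  tauto

end general

section inv

variable {V : Type*} [AddCommGroup V] [Module F V] [FiniteDimensional F V] (Q : QuadraticForm F V)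

/-- An isometric involution in characteristic two without fixed nonsingular vectors: its fixed space
has half the dimension, which is even.  -/
theorem invol_no_fixed [CharP F 2] (hQ : (B Q).Nondegenerate) (x : V →ₗ[F] V)
    (hx : ∀ v, Q (x v) = Q v) (hx2 : ∀ v, x (x v) = v) (hno : ∀ v, x v = v → Q v = 0) :
    ∃ m, finrank F V = 4 * m ∧ finrank F (LinearMap.ker (x - LinearMap.id)) = 2 * m := by
  classical
  set N : V →ₗ[F] V := x - LinearMap.id with hN
  have h2 : (2 : F) = 0 := CharTwo.two_eq_zero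
  have hB : ∀ a b, B Q (x a) (x b) = B Q a b := by
    intro a b
    rw [B_apply, B_apply, ← map_add, hx, hx, hx]
  have hNv : ∀ v, N v = x v - v := fun v => by simp [hN]
  have hNN : ∀ v, N (N v) = 0 := by
    intro v
    rw [hNv, hNv, map_sub, hx2]
    have : (2 : F) • v = 0 := by rw [h2, zero_smul]
    have h3 : v - x v - (x v - v) = (2 : F) • v - (2 : F) • x v := by
      rw [two_smul, two_smul]; abel
    rw [h3, h2, zero_smul, zero_smul, sub_zero]
  have hker : ∀ v, v ∈ LinearMap.ker N ↔ x v = v := by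
    intro v
    rw [LinearMap.mem_ker, hNv, sub_eq_zero]
  have hQN : ∀ v, Q (N v) = B Q v (N v) := by
    intro v
    rw [hNv, Q_sub, hx, B_comm]
    have : B Q v (x v - v) = B Q v (x v) - B Q v v := by simp
    rw [this, B_self, h2, zero_mul, sub_zero]
    have h3 : Q v + Q v = 0 := by rw [← two_mul, h2, zero_mul]
    rw [h3, zero_sub]
    simp [CharTwo.neg_eq]
  have hBN : ∀ a b, B Q a (N b) = B Q (N a) b := by
    intro a b
    rw [hNv, hNv]
    have h1 : B Q a (x b) = B Q (x a) b := by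
      have := hB a (x b)
      rw [hx2] at this
      exact this.symm
    simp only [map_sub, LinearMap.sub_apply, h1]
  -- the Lagrangian bound
  have hTS : TS Q (LinearMap.ker N) := by
    intro v hv
    exact hno v ((hker v).1 hv)
  have hle := hTS.le_orth
  have hdim := finrank_orth hQ (LinearMap.ker N)
  have h4 := Submodule.finrank_mono hle
  have hrn := LinearMap.finrank_range_add_finrank_ker N
  -- the alternating form on a complement
  obtain ⟨W, hW⟩ := Submodule.exists_isCompl (LinearMap.ker N)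
  have hWd : finrank F W + finrank F (LinearMap.ker N) = finrank F V := Submodule.finrank_add_eq_of_isCompl hW.symm
  let α : V →ₗ[F] V →ₗ[F] F := (B Q).compl₂ N
  let β : W →ₗ[F] W →ₗ[F] F := (α.domRestrict W).compl₂ W.subtype
  have hα : ∀ a b, α a b = B Q a (N b) := fun a b => rfl
  have halt : ∀ v, β v v = 0 := by
    intro v
    change B Q v.1 (N v.1) = 0
    rw [← hQN]
    exact hno _ ((hker _).1 (hNN v.1))
  have hnd : ∀ v, (∀ w, β v w = 0) → v = 0 := by
    intro v hv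
    have hall : ∀ y, B Q (N v.1) y = 0 := by
      intro y
      have hy : y ∈ LinearMap.ker N ⊔ W := by
        rw [hW.sup_eq_top]
        trivial
      obtain ⟨k, hk, w, hw, rfl⟩ := Submodule.mem_sup.1 hy
      rw [map_add, ← hBN, ← hBN, LinearMap.mem_ker.1 hk, map_zero, zero_add]
      exact hv ⟨w, hw⟩
    have h5 : N v.1 = 0 := hQ.1 _ hall
    have h6 : v.1 ∈ LinearMap.ker N := h5
    have h7 : v.1 ∈ LinearMap.ker N ⊓ W := ⟨h6, v.2⟩
    rw [hW.inf_eq_bot] at h7
    exact Subtype.ext (by simpa using h7)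
  obtain ⟨m, s, -⟩ := Cfsg.Agent.Lib.SympBasis.exists_symp_basis β halt hnd
  have hfin : finrank F W = 2 * m := by
    rw [finrank_eq_card_basis s]
    simp
  have hrange : LinearMap.range N ≤ LinearMap.ker N := by
    rintro _ ⟨v, rfl⟩
    exact hNN v
  have h8 := Submodule.finrank_mono hrange
  refine ⟨m, ?_, ?_⟩ <;> omega

end inv

/-! ### The plus form -/

section plus

variable [Fintype F] {d : ℕ}

theorem hf_plus : ⇑(qPlus d F) = Cfsg.quadFormPlus d F := funext (qPlus_apply d)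

theorem hOG_plus (hd : 4 ≤ d) : O (qPlus d F) ≤ G (qPlus d F) :=
  O_le_G (hQ_qPlus d) (hF_plus (Or.inr (by omega)))

theorem q_plus_eq (w : Fin d ⊕ Fin d → F) : Cfsg.quadFormPlus d F w = (w ∘ Sum.inl) ⬝ᵥ (w ∘ Sum.inr) := rfl

/-- `r` divides the number of nonsingular points: arithmetic. -/
theorem dvd_of_count [CharP F 2] {r : ℕ} [hr : Fact r.Prime] (d : ℕ) (hd : 1 ≤ d)
    (hrΩ : r ∣ Nat.card {W : Submodule F (Fin d ⊕ Fin d → F) // Module.finrank F ↥W = 1 ∧ ∃ v ∈ W, Cfsg.quadFormPlus d F v ≠ 0}) :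
    r = 2 ∨ r ∣ Fintype.card F ^ d - 1 := by
  classical
  set q := Fintype.card F with hq
  have hq1 : 1 < q := Fintype.one_lt_card
  obtain ⟨e, rfl⟩ : ∃ e, d = e + 1 := ⟨d - 1, by omega⟩
  have h1 := Cfsg.Agent.Lib.PointCount.card_points (F := F) (V := Fin (e+1) ⊕ Fin (e+1) → F)
    (fun v => Cfsg.quadFormPlus (e+1) F v ≠ 0)
    (by
      rintro v hv rfl
      apply hv
      simp [Cfsg.quadFormPlus])
    (by
      intro c v hc hv
      have : Cfsg.quadFormPlus (e+1) F (c • v) = c * c * Cfsg.quadFormPlus (e+1) F v := by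
        rw [← qPlus_apply, ← qPlus_apply, QuadraticMap.map_smul, smul_eq_mul]
      rw [this]
      exact mul_ne_zero (mul_ne_zero hc hc) hv)
  set N := Nat.card {W : Submodule F (Fin (e+1) ⊕ Fin (e+1) → F) // Module.finrank F ↥W = 1 ∧ ∃ v ∈ W, Cfsg.quadFormPlus (e+1) F v ≠ 0} with hN
  have h2 := zeros_plus_succ (F := F) e
  have hcompl : Nat.card {v : Fin (e+1) ⊕ Fin (e+1) → F // Cfsg.quadFormPlus (e+1) F v ≠ 0} +
      Nat.card {v : Fin (e+1) ⊕ Fin (e+1) → F // qPlus (e+1) F v = 0} = q ^ (2 * (e + 1)) := by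
    have h3 : Nat.card (Fin (e+1) ⊕ Fin (e+1) → F) = q ^ (2 * (e + 1)) := by
      rw [Nat.card_eq_fintype_card, Fintype.card_fun, Fintype.card_sum, Fintype.card_fin, two_mul]
    rw [← h3, Nat.card_eq_fintype_card, Nat.card_eq_fintype_card, Nat.card_eq_fintype_card]
    have h5 : ∀ v : Fin (e+1) ⊕ Fin (e+1) → F, qPlus (e+1) F v = 0 ↔ ¬ (Cfsg.quadFormPlus (e+1) F v ≠ 0) := by
      intro v
      rw [qPlus_apply, not_not]
    simp only [h5]
    exact Fintype.card_subtype_compl (fun v => Cfsg.quadFormPlus (e+1) F v ≠ 0) ▸ (by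
      have := Fintype.card_subtype_le (fun v : Fin (e+1) ⊕ Fin (e+1) → F => Cfsg.quadFormPlus (e+1) F v ≠ 0)
      omega)
  rw [h1] at hcompl
  have h6 : (((q - 1) * N : ℕ) : ℤ) + Nat.card {v : Fin (e+1) ⊕ Fin (e+1) → F // qPlus (e+1) F v = 0} = (q : ℤ) ^ (2 * (e + 1)) := by
    exact_mod_cast hcompl
  rw [h2] at h6
  have hq2 : ((q - 1 : ℕ) : ℤ) = (q : ℤ) - 1 := by
    push_cast [Nat.one_le_of_lt hq1]; ring
  have h7 : (N : ℤ) = (q : ℤ) ^ e * ((q : ℤ) ^ (e + 1) - 1) := by
    have hne : ((q : ℤ) - 1) ≠ 0 := by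
      have : (1 : ℤ) < q := by exact_mod_cast hq1
      omega
    apply mul_left_cancel₀ hne
    rw [Nat.cast_mul, hq2] at h6
    have h8 : ((q : ℤ) - 1) * N = (q : ℤ) ^ (2 * (e + 1)) - ((q : ℤ) ^ (2 * e + 1) + (q : ℤ) ^ (e + 1) - (q : ℤ) ^ e) := by
      linarith
    rw [h8]
    ring
  have h9 : N = q ^ e * (q ^ (e + 1) - 1) := by
    zify [Nat.one_le_pow (e+1) q (by omega)]
    exact h7
  rw [h9] at hrΩ
  rcases (Nat.Prime.dvd_mul hr.out).1 hrΩ with h | h
  · left
    have h3 : r ∣ q := hr.out.dvd_of_dvd_pow h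
    obtain ⟨n, hn, hqn⟩ := FiniteField.card F 2
    rw [hq, hqn] at h3
    have h4 := hr.out.dvd_of_dvd_pow h3
    exact (Nat.prime_dvd_prime_iff_eq hr.out Nat.prime_two).1 (by exact_mod_cast h4)
  · exact Or.inr h

/-- The Singer-type element of odd prime order. -/
theorem exists_bad_odd [CharP F 2] (hd : 4 ≤ d) {r : ℕ} [hr : Fact r.Prime] (hr2 : r ≠ 2)
    (hrd : r ∣ Fintype.card F ^ d - 1) :
    ∃ x : GL (Fin d ⊕ Fin d) F, x ∈ Cfsg.Geo.omegaGL (Cfsg.quadFormPlus d F) ∧ x ^ r = 1 ∧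
      (∀ z : F, (x : Matrix (Fin d ⊕ Fin d) (Fin d ⊕ Fin d) F) ≠ z • (1 : Matrix (Fin d ⊕ Fin d) (Fin d ⊕ Fin d) F)) ∧
      ∀ v, (x : Matrix (Fin d ⊕ Fin d) (Fin d ⊕ Fin d) F) *ᵥ v = v → Cfsg.quadFormPlus d F v = 0 := by
  classical
  haveI : Fact (Nat.Prime 2) := ⟨Nat.prime_two⟩
  obtain ⟨B₀, hB1, hB2, hB3⟩ := Cfsg.Agent.Lib.Singer.exists_singer (F := F) 2 (j := d) (r := r) (by omega) hrd
  have hr0 : r ≠ 0 := hr.out.ne_zero
  let A : GL (Fin d) F := Units.ofPowEqOne B₀ r hB1 hr0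
  have hA : (A : Matrix (Fin d) (Fin d) F) = B₀ := rfl
  have hAr : A ^ r = 1 := by
    apply Units.ext
    simp [hA, hB1]
  let y := leviHom d F A
  have hyval : (((y : ↥(Cfsg.isometryGroup F ⇑(qPlus d F))) : GL (Fin d ⊕ Fin d) F) : Matrix (Fin d ⊕ Fin d) (Fin d ⊕ Fin d) F)
      = fromBlocks (A : Matrix (Fin d) (Fin d) F) 0 0 ((A⁻¹ : GL (Fin d) F) : Matrix (Fin d) (Fin d) F)ᵀ := rfl
  have hyr : y ^ r = 1 := by
    rw [← map_pow, hAr, map_one]
  have hodd : Odd r := hr.out.odd_of_ne_two hr2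
  refine ⟨y.1, ?_, ?_, ?_, ?_⟩
  · rw [← hf_plus]
    refine mem_omega_of_odd_pow _ (hOG_plus hd) _ y.2 hodd ?_
    have := congrArg Subtype.val hyr
    simpa using this
  · have := congrArg Subtype.val hyr
    simpa using this
  · intro z hz
    rw [hyval] at hz
    have h1 : (A : Matrix (Fin d) (Fin d) F) = z • 1 := by
      ext i j
      have := congrFun (congrFun hz (Sum.inl i)) (Sum.inl j)
      simpa [Matrix.one_apply] using this
    have h2 : ((A⁻¹ : GL (Fin d) F) : Matrix (Fin d) (Fin d) F)ᵀ = z • 1 := by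
      ext i j
      have := congrFun (congrFun hz (Sum.inr i)) (Sum.inr j)
      simpa [Matrix.one_apply] using this
    have h3 : ((A⁻¹ : GL (Fin d) F) : Matrix (Fin d) (Fin d) F) = z • 1 := by
      have := congrArg Matrix.transpose h2
      simpa using this
    have h4 : z * z = 1 := by
      have h5 : (A : Matrix (Fin d) (Fin d) F) * ((A⁻¹ : GL (Fin d) F) : Matrix (Fin d) (Fin d) F) = 1 := by
        simp
      rw [h1, h3] at h5
      have h6 := congrFun (congrFun h5 ⟨0, by omega⟩) ⟨0, by omega⟩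
      simpa [Matrix.one_apply, Matrix.smul_mul, Matrix.mul_smul, smul_smul] using h6
    have hz1 : z = 1 := by
      exact eq_one_of_mul_self z h4
    apply hB2
    rw [← hA, h1, hz1, one_smul]
  · intro v hv
    rw [hyval] at hv
    have h1 : (A : Matrix (Fin d) (Fin d) F) *ᵥ (v ∘ Sum.inl) = v ∘ Sum.inl := by
      have : (fromBlocks (A : Matrix (Fin d) (Fin d) F) 0 0 ((A⁻¹ : GL (Fin d) F) : Matrix (Fin d) (Fin d) F)ᵀ *ᵥ v) ∘ Sum.inl = v ∘ Sum.inl := by
        rw [hv]
      rwa [Cfsg.Agent.Lib.OrthBlock.mulVec_inl] at this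
    have h2 := hB3 _ h1
    rw [q_plus_eq, h2]
    simp

/-- The element with Lagrangian fixed space, in even `d`. -/
theorem exists_bad_invol [CharP F 2] (hd : 4 ≤ d) (hde : Even d) :
    ∃ x : GL (Fin d ⊕ Fin d) F, x ∈ Cfsg.Geo.omegaGL (Cfsg.quadFormPlus d F) ∧ x ^ 2 = 1 ∧
      (∀ z : F, (x : Matrix (Fin d ⊕ Fin d) (Fin d ⊕ Fin d) F) ≠ z • (1 : Matrix (Fin d ⊕ Fin d) (Fin d ⊕ Fin d) F)) ∧
      ∀ v, (x : Matrix (Fin d ⊕ Fin d) (Fin d ⊕ Fin d) F) *ᵥ v = v → Cfsg.quadFormPlus d F v = 0 := by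
  classical
  obtain ⟨k, hk⟩ := hde
  have h2 : (2 : F) = 0 := CharTwo.two_eq_zero
  -- a fixed point free involution of `Fin d`
  let e : Fin d ≃ Fin k ⊕ Fin k := (finCongr hk).trans finSumFinEquiv.symm
  let τ : Equiv.Perm (Fin d) := (e.trans (Equiv.sumComm _ _)).trans e.symm
  have hτ2 : ∀ i, τ (τ i) = i := by
    intro i
    simp [τ]
  have hτne : ∀ i, τ i ≠ i := by
    intro i h
    have h1 : e (τ i) = e i := by rw [h]
    have h3 : Sum.swap (e i) = e i := by
      simpa [τ] using h1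
    rcases h4 : e i with a | a <;> simp [h4] at h3
  let A : Matrix (Fin d) (Fin d) F := τ.toPEquiv.toMatrix
  have hAv : ∀ w : Fin d → F, A *ᵥ w = w ∘ τ := fun w => by
    exact PEquiv.toMatrix_toPEquiv_mulVec τ w
  have hAdot : ∀ w : Fin d → F, (A *ᵥ w) ⬝ᵥ w = 0 := by
    intro w
    rw [hAv]
    simp only [dotProduct, Function.comp]
    apply Finset.sum_involution (fun i _ => τ i)
    · intro i _
      rw [hτ2, mul_comm, ← two_mul, h2, zero_mul]
    · intro i _ _ h
      exact hτne i h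
    · intro i _
      exact Finset.mem_univ _
    · intro i _
      exact hτ2 i
  have hAw0 : ∀ w : Fin d → F, A *ᵥ w = 0 → w = 0 := by
    intro w hw
    rw [hAv] at hw
    funext i
    have := congrFun hw (τ i)
    simpa [hτ2] using this
  have hAA : A + A = 0 := by
    rw [← two_smul F A, h2, zero_smul]
  let X : Matrix (Fin d ⊕ Fin d) (Fin d ⊕ Fin d) F := fromBlocks 1 A 0 1
  have hXX : X * X = 1 := by
    simp only [X]
    rw [fromBlocks_multiply]
    simp [hAA, fromBlocks_one]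
  let x : GL (Fin d ⊕ Fin d) F := ⟨X, X, hXX, hXX⟩
  have hxX : (x : Matrix (Fin d ⊕ Fin d) (Fin d ⊕ Fin d) F) = X := rfl
  have hXl : ∀ v : Fin d ⊕ Fin d → F, (X *ᵥ v) ∘ Sum.inl = v ∘ Sum.inl + A *ᵥ (v ∘ Sum.inr) := by
    intro v
    simp only [X]
    rw [fromBlocks_mulVec]
    funext i
    simp
  have hXr : ∀ v : Fin d ⊕ Fin d → F, (X *ᵥ v) ∘ Sum.inr = v ∘ Sum.inr := by
    intro v
    simp only [X]
    rw [fromBlocks_mulVec]
    funext i
    simp
  have hiso : ∀ v, Cfsg.quadFormPlus d F (X *ᵥ v) = Cfsg.quadFormPlus d F v := by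
    intro v
    rw [q_plus_eq, q_plus_eq, hXl, hXr, add_dotProduct, hAdot, add_zero]
  have hfixed : ∀ v, X *ᵥ v = v → v ∘ Sum.inr = 0 := by
    intro v hv
    apply hAw0
    have := hXl v
    rw [hv] at this
    have h3 : (v ∘ Sum.inl) + A *ᵥ (v ∘ Sum.inr) = (v ∘ Sum.inl) + 0 := by
      rw [← this, add_zero]
    exact add_left_cancel h3
  refine ⟨x, ?_, ?_, ?_, ?_⟩
  · rw [← hf_plus]
    refine mem_omega_of_even_fix _ (hQ_qPlus d) (hOG_plus hd) x ?_ ?_
    · rw [mem_isometryGroup, hf_plus]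
      exact hiso
    · -- the fixed space has dimension `d`
      let φ : (Fin d → F) →ₗ[F] (Fin d ⊕ Fin d → F) :=
        (LinearEquiv.sumArrowLequivProdArrow (Fin d) (Fin d) F F).symm.toLinearMap ∘ₗ LinearMap.inl F _ _
      have hφ : ∀ u i, φ u (Sum.inl i) = u i := fun u i => rfl
      have hφ' : ∀ u i, φ u (Sum.inr i) = 0 := fun u i => rfl
      have hinj : Function.Injective φ := by
        intro u u' h
        funext i
        have := congrFun h (Sum.inl i)
        simpa [hφ] using this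
      have hfix : fix (Cfsg.Agent.Lib.OrthMatrix.glEquiv x) = LinearMap.range φ := by
        ext v
        rw [mem_fix, Cfsg.Agent.Lib.OrthMatrix.glEquiv_apply, hxX, LinearMap.mem_range]
        constructor
        · intro hv
          have h3 := hfixed v hv
          refine ⟨v ∘ Sum.inl, ?_⟩
          funext i
          rcases i with i | i
          · rfl
          · have := congrFun h3 i
            simpa [hφ'] using this.symm
        · rintro ⟨u, rfl⟩
          have h3 : φ u ∘ Sum.inr = 0 := by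
            funext i; exact hφ' u i
          funext i
          rcases i with i | i
          · have := congrFun (hXl (φ u)) i
            simp only [Function.comp, Pi.add_apply] at this
            rw [this, h3]
            simp [hφ]
          · have := congrFun (hXr (φ u)) i
            simpa using this
      rw [hfix, LinearMap.finrank_range_of_inj hinj]
      simp only [Module.finrank_fintype_fun_eq_card, Fintype.card_fin, Fintype.card_sum]
      exact ⟨3 * k, by omega⟩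
  · apply Units.ext
    rw [pow_two]
    exact hXX
  · intro z hz
    rw [hxX] at hz
    have hA0 : A = 0 := by
      ext i j
      have := congrFun (congrFun hz (Sum.inl i)) (Sum.inr j)
      simpa [X] using this
    have h3 := hAw0 (Pi.single ⟨0, by omega⟩ 1) (by rw [hA0, Matrix.zero_mulVec])
    have h4 := congrFun h3 ⟨0, by omega⟩
    simp at h4
  · intro v hv
    rw [hxX] at hv
    rw [q_plus_eq, hfixed v hv]
    simp

end plus

/-- The main reduction: fixing a nonsingular 1-space is fixing a nonsingular vector, in characteristic 2. -/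
theorem fixed_of_point [CharP F 2] {ι : Type} [Fintype ι] [DecidableEq ι] (Q : QuadraticForm F (ι → F))
    (x : Matrix ι ι F) (hx : ∀ v, Q (x *ᵥ v) = Q v)
    (W : Submodule F (ι → F)) (hW : finrank F W = 1) {v : ι → F} (hv : v ∈ W) (hQv : Q v ≠ 0)
    (hWx : W.map (Matrix.toLin' x) ≤ W) : x *ᵥ v = v := by
  have hne : v ≠ 0 := by
    rintro rfl
    simp at hQv
  have hne' : (⟨v, hv⟩ : W) ≠ 0 := fun h => hne (congrArg Subtype.val h)
  have hmem : x *ᵥ v ∈ W := hWx ⟨v, hv, rfl⟩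
  obtain ⟨c, hc⟩ := (finrank_eq_one_iff_of_nonzero' (⟨v, hv⟩ : W) hne').1 hW ⟨_, hmem⟩
  have hc' : c • v = x *ᵥ v := congrArg Subtype.val hc
  have h1 := hx v
  rw [← hc', QuadraticMap.map_smul, smul_eq_mul] at h1
  have h2 : c * c = 1 := by
    have h3 : (c * c - 1) * Q v = 0 := by rw [sub_mul, h1]; ring
    have := (mul_eq_zero.1 h3).resolve_right hQv
    exact sub_eq_zero.1 this
  have hc1 : c = 1 := by
    exact eq_one_of_mul_self c h2
  rw [← hc', hc1, one_smul]



/-- Elements of prime order of Ω⁺_n(q), q even, with no fixed nonsingular 1-space. Here `T = PΩ⁺_n(F)`, `n = 2d ≥ 8`, realised through `Ω⁺_n(q)`, the commutator subgroup of the isometry group of `Q = Σ xᵢyᵢ` over the field `F` with `q` elements; an element of `T` of prime order `r` is an element `x` of `Ω⁺_n(q)` with `x^r` scalar and `x` not scalar; `q` is even (so the centre is trivial). Let Ω be the set of 1-dimensional subspaces spanned by a vector `v` with `Q(v) ≠ 0`, and let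 `r` be a prime dividing their number. Then every element of `T` of order `r` fixes some nonsingular 1-space if and only if `r = 2` and `n ≡ 2 (mod 4)` (that is, `d` is odd). -/
theorem result {F : Type*} [Field F] [Fintype F] {p : ℕ} [Fact p.Prime] [CharP F p] {q : ℕ} (hq : Fintype.card F = q)
    (hp : p = 2) (d : ℕ) (hd : 4 ≤ d) (r : ℕ) [Fact r.Prime]
    (hrΩ : r ∣ Nat.card {W : Submodule F (Fin d ⊕ Fin d → F) // Module.finrank F ↥W = 1 ∧ ∃ v ∈ W, Cfsg.quadFormPlus d F v ≠ 0}) :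
    (∀ x : GL (Fin d ⊕ Fin d) F, x ∈ Cfsg.Geo.omegaGL (Cfsg.quadFormPlus d F) →
      (∃ z : F, ((x ^ r : GL (Fin d ⊕ Fin d) F) : Matrix (Fin d ⊕ Fin d) (Fin d ⊕ Fin d) F) = z • (1 : Matrix (Fin d ⊕ Fin d) (Fin d ⊕ Fin d) F)) →
      (∀ z : F, (x : Matrix (Fin d ⊕ Fin d) (Fin d ⊕ Fin d) F) ≠ z • (1 : Matrix (Fin d ⊕ Fin d) (Fin d ⊕ Fin d) F)) →
      ∃ W : Submodule F (Fin d ⊕ Fin d → F), (Module.finrank F ↥W = 1 ∧ ∃ v ∈ W, Cfsg.quadFormPlus d F v ≠ 0) ∧ W.map (Matrix.toLin' (x : Matrix (Fin d ⊕ Fin d) (Fin d ⊕ Fin d) F)) ≤ W) ↔ (r = 2 ∧ Odd d) := by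
  subst hp
  subst hq
  have hsplit := dvd_of_count (F := F) (r := r) d (by omega) hrΩ
  have hfq : ∀ v, Cfsg.quadFormPlus d F v = qPlus d F v := fun v => (qPlus_apply d v).symm
  constructor
  · intro H
    by_cases hr2 : r = 2
    · refine ⟨hr2, ?_⟩
      by_contra hod
      have hde : Even d := Nat.not_odd_iff_even.1 hod
      obtain ⟨x, hx, hx2, hns, hfix⟩ := exists_bad_invol (F := F) hd hde
      subst hr2
      obtain ⟨W, ⟨hW, v, hv, hQv⟩, hWx⟩ := H x hx ⟨1, by rw [hx2]; simp⟩ hns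
      have hxiso : ∀ v, qPlus d F ((x : Matrix (Fin d ⊕ Fin d) (Fin d ⊕ Fin d) F) *ᵥ v) = qPlus d F v := by
        intro v
        rw [← hf_plus] at hx
        exact isometry_of_mem_omega _ hx v
      have h1 := fixed_of_point (qPlus d F) (x : Matrix (Fin d ⊕ Fin d) (Fin d ⊕ Fin d) F) hxiso W hW hv (by rwa [hfq] at hQv) hWx
      exact hQv (hfix v h1)
    · exfalso
      have hrd := hsplit.resolve_left hr2
      obtain ⟨x, hx, hxr, hns, hfix⟩ := exists_bad_odd (F := F) hd hr2 hrd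
      obtain ⟨W, ⟨hW, v, hv, hQv⟩, hWx⟩ := H x hx ⟨1, by rw [hxr]; simp⟩ hns
      have hxiso : ∀ v, qPlus d F ((x : Matrix (Fin d ⊕ Fin d) (Fin d ⊕ Fin d) F) *ᵥ v) = qPlus d F v := by
        intro v
        rw [← hf_plus] at hx
        exact isometry_of_mem_omega _ hx v
      have h1 := fixed_of_point (qPlus d F) (x : Matrix (Fin d ⊕ Fin d) (Fin d ⊕ Fin d) F) hxiso W hW hv (by rwa [hfq] at hQv) hWx
      exact hQv (hfix v h1)
  · rintro ⟨rfl, hod⟩ x hx ⟨z, hz⟩ hns
    have hxiso : ∀ v, qPlus d F ((x : Matrix (Fin d ⊕ Fin d) (Fin d ⊕ Fin d) F) *ᵥ v) = qPlus d F v := by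
      intro v
      rw [← hf_plus] at hx
      exact isometry_of_mem_omega _ hx v
    by_contra hcon
    set X : (Fin d ⊕ Fin d → F) →ₗ[F] (Fin d ⊕ Fin d → F) := Matrix.mulVecLin (x : Matrix (Fin d ⊕ Fin d) (Fin d ⊕ Fin d) F) with hX
    have hXv : ∀ v, X v = (x : Matrix (Fin d ⊕ Fin d) (Fin d ⊕ Fin d) F) *ᵥ v := fun v => rfl
    have hno : ∀ v, X v = v → qPlus d F v = 0 := by
      intro v hv
      by_contra hQv
      apply hcon
      have hne : v ≠ 0 := by
        rintro rfl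
        simp at hQv
      refine ⟨Submodule.span F {v}, ⟨finrank_span_singleton hne, v, Submodule.mem_span_singleton_self _, by rwa [hfq]⟩, ?_⟩
      rintro _ ⟨w, hw, rfl⟩
      obtain ⟨c, rfl⟩ := Submodule.mem_span_singleton.1 hw
      have h1 : Matrix.toLin' (x : Matrix (Fin d ⊕ Fin d) (Fin d ⊕ Fin d) F) (c • v) = c • v := by
        rw [map_smul, Matrix.toLin'_apply, ← hXv, hv]
      rw [h1]
      exact Submodule.smul_mem _ _ (Submodule.mem_span_singleton_self _)
    have hx2 : ∀ v, X (X v) = z • v := by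
      intro v
      rw [hXv, hXv, Matrix.mulVec_mulVec, ← pow_two]
      have : ((x : Matrix (Fin d ⊕ Fin d) (Fin d ⊕ Fin d) F)) ^ 2 = z • 1 := by
        rw [← hz]
        simp
      rw [this, Matrix.smul_mulVec, Matrix.one_mulVec]
    have hz1 : z = 1 := by
      apply eq_one_of_mul_self
      -- a nonsingular vector
      let i0 : Fin d := ⟨0, by omega⟩
      let v : Fin d ⊕ Fin d → F := Sum.elim (Pi.single i0 1) (Pi.single i0 1)
      have hv : qPlus d F v = 1 := by
        rw [qPlus_apply]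
        simp [Cfsg.quadFormPlus, v, Pi.single_apply]
      have h1 := (hxiso ((x : Matrix (Fin d ⊕ Fin d) (Fin d ⊕ Fin d) F) *ᵥ v)).trans (hxiso v)
      have h2 := hx2 v
      rw [hXv, hXv] at h2
      rw [h2, QuadraticMap.map_smul, smul_eq_mul, hv, mul_one] at h1
      exact h1
    have hx2' : ∀ v, X (X v) = v := by
      intro v
      rw [hx2, hz1, one_smul]
    obtain ⟨m, h1, -⟩ := invol_no_fixed (qPlus d F) (hQ_qPlus d) X hxiso hx2' hno
    have h2 : finrank F (Fin d ⊕ Fin d → F) = 2 * d := by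
      simp
      omega
    obtain ⟨k, hk⟩ := hod
    omega

end Cfsg.Agent.S5985
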