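import Mathlib
import Cfsg.Agent.S5985
import Cfsg.Agent.Lib.QuadClass
import Cfsg.Agent.Lib.MinusModel
import Cfsg.Statements.S5986
-- import your own Cfsg.Agent.* helpers here

set_option autoImplicit false
open scoped MatrixGroups
open Cfsg

namespace Cfsg.Agent.S5986

open Matrix Module
open Cfsg.Agent.Lib.OrthGroup Cfsg.Agent.Lib.OrthOmega Cfsg.Agent.Lib.OrthMatrix
open Cfsg.Agent.Lib.OrthoCount Cfsg.Agent.Lib.QuadClass Cfsg.Agent.Lib.MinusModel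
open Cfsg.Agent.S5985

set_option linter.unusedSimpArgs false
set_option linter.unusedVariables false

variable {F : Type*} [Field F] [Fintype F]

/-- `r` divides the number of nonsingular points: arithmetic. -/
theorem dvd_of_count [CharP F 2] {r : ℕ} [hr : Fact r.Prime] (e : ℕ) (a b : F)
    (hab : ∀ x y : F, x ^ 2 + a * x * y + b * y ^ 2 = 0 → x = 0 ∧ y = 0)
    (hrΩ : r ∣ Nat.card {W : Submodule F ((Fin e ⊕ Fin e) ⊕ Fin 2 → F) // Module.finrank F ↥W = 1 ∧ ∃ v ∈ W, Cfsg.quadFormMinus e F a b v ≠ 0}) :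
    r = 2 ∨ r ∣ Fintype.card F ^ (e + 1) + 1 := by
  classical
  set q := Fintype.card F with hq
  have hq1 : 1 < q := Fintype.one_lt_card
  have h1 := Cfsg.Agent.Lib.PointCount.card_points (F := F) (V := (Fin e ⊕ Fin e) ⊕ Fin 2 → F)
    (fun v => Cfsg.quadFormMinus e F a b v ≠ 0)
    (by
      rintro v hv rfl
      apply hv
      simp [Cfsg.quadFormMinus])
    (by
      intro c v hc hv
      have : Cfsg.quadFormMinus e F a b (c • v) = c * c * Cfsg.quadFormMinus e F a b v := by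
        rw [← qMinus_apply, ← qMinus_apply, QuadraticMap.map_smul, smul_eq_mul]
      rw [this]
      exact mul_ne_zero (mul_ne_zero hc hc) hv)
  set N := Nat.card {W : Submodule F ((Fin e ⊕ Fin e) ⊕ Fin 2 → F) // Module.finrank F ↥W = 1 ∧ ∃ v ∈ W, Cfsg.quadFormMinus e F a b v ≠ 0} with hN
  have h2 := zeros_minus (F := F) a b hab e
  have hcompl : Nat.card {v : (Fin e ⊕ Fin e) ⊕ Fin 2 → F // Cfsg.quadFormMinus e F a b v ≠ 0} +
      Nat.card {v : (Fin e ⊕ Fin e) ⊕ Fin 2 → F // qMinus e a b v = 0} = q ^ (2 * (e + 1)) := by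
    have h3 : Nat.card ((Fin e ⊕ Fin e) ⊕ Fin 2 → F) = q ^ (2 * (e + 1)) := by
      rw [Nat.card_eq_fintype_card, Fintype.card_fun, Fintype.card_sum, Fintype.card_sum, Fintype.card_fin, Fintype.card_fin]
      congr 1
      ring
    rw [← h3, Nat.card_eq_fintype_card, Nat.card_eq_fintype_card, Nat.card_eq_fintype_card]
    have h5 : ∀ v : (Fin e ⊕ Fin e) ⊕ Fin 2 → F, qMinus e a b v = 0 ↔ ¬ (Cfsg.quadFormMinus e F a b v ≠ 0) := by
      intro v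
      rw [qMinus_apply, not_not]
    simp only [h5]
    exact Fintype.card_subtype_compl (fun v => Cfsg.quadFormMinus e F a b v ≠ 0) ▸ (by
      have := Fintype.card_subtype_le (fun v : (Fin e ⊕ Fin e) ⊕ Fin 2 → F => Cfsg.quadFormMinus e F a b v ≠ 0)
      omega)
  rw [h1] at hcompl
  have h6 : (((q - 1) * N : ℕ) : ℤ) + Nat.card {v : (Fin e ⊕ Fin e) ⊕ Fin 2 → F // qMinus e a b v = 0} = (q : ℤ) ^ (2 * (e + 1)) := by
    exact_mod_cast hcompl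
  rw [h2] at h6
  have hq2 : ((q - 1 : ℕ) : ℤ) = (q : ℤ) - 1 := by
    push_cast [Nat.one_le_of_lt hq1]; ring
  have h7 : (N : ℤ) = (q : ℤ) ^ e * ((q : ℤ) ^ (e + 1) + 1) := by
    have hne : ((q : ℤ) - 1) ≠ 0 := by
      have : (1 : ℤ) < q := by exact_mod_cast hq1
      omega
    apply mul_left_cancel₀ hne
    rw [Nat.cast_mul, hq2] at h6
    have h8 : ((q : ℤ) - 1) * N = (q : ℤ) ^ (2 * (e + 1)) - ((q : ℤ) ^ (2 * e + 1) + (q : ℤ) ^ e - (q : ℤ) ^ (e + 1)) := by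
      linarith
    rw [h8]
    ring
  have h9 : N = q ^ e * (q ^ (e + 1) + 1) := by
    zify
    exact h7
  rw [h9] at hrΩ
  rcases (Nat.Prime.dvd_mul hr.out).1 hrΩ with h | h
  · left
    have h3 : r ∣ q := hr.out.dvd_of_dvd_pow h
    obtain ⟨n, hn, hqn⟩ := FiniteField.card F 2
    rw [hq, hqn] at h3
    have h4 := hr.out.dvd_of_dvd_pow h3
    exact (Nat.prime_dvd_prime_iff_eq hr.out Nat.prime_two).1 (by exact_mod_cast h4)
  · exact Or.inr h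

/-- The number of zeros of a form with a fixed-point-free automorphism is not the plus count. -/
theorem card_ne_of_fpf (p : ℕ) {K : Type} [Field K] [Fintype K] [Algebra F K] {e r : ℕ} [hr : Fact r.Prime] (hr2 : r ≠ 2)
    (hrd : r ∣ Fintype.card F ^ (e + 1) + 1) (Q₁ : QuadraticForm F K) (ζ : K) (hζr : ζ ^ r = 1) (hζ1 : ζ ≠ 1)
    (hζ : ∀ v, Q₁ (ζ * v) = Q₁ v) :
    (Nat.card {v // Q₁ v = 0} : ℤ) ≠ (Fintype.card F : ℤ) ^ (2 * e + 1) + (Fintype.card F : ℤ) ^ (e + 1) - (Fintype.card F : ℤ) ^ e := by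
  classical
  intro hZ
  let f : Function.End {v // Q₁ v = 0} := fun v => ⟨ζ * v.1, by rw [hζ]; exact v.2⟩
  have hfk : ∀ k (v : {v // Q₁ v = 0}), ((f ^ k) v).1 = ζ ^ k * v.1 := by
    intro k v
    induction k with
    | zero =>
      rw [pow_zero, pow_zero, one_mul]
      rfl
    | succ k ih =>
      rw [pow_succ']
      change ζ * ((f ^ k) v).1 = _
      rw [ih]
      ring
  have hfr : f ^ r ^ 1 = 1 := by
    rw [pow_one]
    funext v
    apply Subtype.ext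
    rw [hfk, hζr, one_mul]
    rfl
  have hcong := Equiv.Perm.card_fixedPoints_modEq (f := f) hfr
  have hfix : Fintype.card (Function.fixedPoints f) = 1 := by
    rw [Fintype.card_eq_one_iff]
    refine ⟨⟨⟨0, QuadraticMap.map_zero _⟩, ?_⟩, ?_⟩
    · apply Subtype.ext
      change ζ * 0 = 0
      simp
    · rintro ⟨⟨v, hv⟩, hv2⟩
      apply Subtype.ext
      apply Subtype.ext
      have h1 : ζ * v = v := congrArg Subtype.val hv2
      have h2 : (ζ - 1) * v = 0 := by rw [sub_mul, h1, one_mul, sub_self]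
      exact (mul_eq_zero.1 h2).resolve_left (sub_ne_zero.2 hζ1)
  rw [hfix, ← Nat.card_eq_fintype_card] at hcong
  have hd : (r : ℤ) ∣ ((Nat.card {v // Q₁ v = 0} : ℕ) : ℤ) - 1 := by
    have := (Nat.modEq_iff_dvd.1 hcong.symm)
    simpa using this
  rw [hZ] at hd
  set Q0 : ℤ := (Fintype.card F : ℤ) with hQ0
  have hd0 : (r : ℤ) ∣ Q0 ^ (e + 1) + 1 := by
    rw [hQ0]
    exact_mod_cast hrd
  have hpr : Prime (r : ℤ) := Nat.prime_iff_prime_int.1 hr.out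
  have h2 : (r : ℤ) ∣ 2 * (Q0 ^ e + 1) := by
    have : 2 * (Q0 ^ e + 1) = (Q0 ^ e + 1) * (Q0 ^ (e + 1) + 1) - (Q0 ^ (2 * e + 1) + Q0 ^ (e + 1) - Q0 ^ e - 1) := by ring
    rw [this]
    exact dvd_sub (Dvd.dvd.mul_left hd0 _) hd
  have h3 : ¬ (r : ℤ) ∣ 2 := by
    intro h
    have : r ∣ 2 := by exact_mod_cast h
    exact hr2 ((Nat.prime_dvd_prime_iff_eq hr.out Nat.prime_two).1 this)
  have h4 : (r : ℤ) ∣ Q0 ^ e + 1 := (hpr.dvd_or_dvd h2).resolve_left h3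
  have h5 : (r : ℤ) ∣ Q0 - 1 := by
    have : Q0 - 1 = Q0 * (Q0 ^ e + 1) - (Q0 ^ (e + 1) + 1) := by ring
    rw [this]
    exact dvd_sub (Dvd.dvd.mul_left h4 _) hd0
  have h6 : (r : ℤ) ∣ Q0 ^ (e + 1) - 1 := by
    have := sub_dvd_pow_sub_pow Q0 1 (e + 1)
    rw [one_pow] at this
    exact h5.trans this
  apply h3
  have : (2 : ℤ) = (Q0 ^ (e + 1) + 1) - (Q0 ^ (e + 1) - 1) := by ring
  rw [this]
  exact dvd_sub hd0 h6

/-- The element of odd prime order without fixed nonzero vectors. -/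
theorem exists_bad_odd [CharP F 2] (e : ℕ) (he : 3 ≤ e) (a b : F)
    (hab : ∀ x y : F, x ^ 2 + a * x * y + b * y ^ 2 = 0 → x = 0 ∧ y = 0) {r : ℕ} [hr : Fact r.Prime] (hr2 : r ≠ 2)
    (hrd : r ∣ Fintype.card F ^ (e + 1) + 1) :
    ∃ x : GL ((Fin e ⊕ Fin e) ⊕ Fin 2) F, x ∈ Cfsg.Geo.omegaGL (Cfsg.quadFormMinus e F a b) ∧ x ^ r = 1 ∧
      (∀ z : F, (x : Matrix ((Fin e ⊕ Fin e) ⊕ Fin 2) ((Fin e ⊕ Fin e) ⊕ Fin 2) F) ≠ z • (1 : Matrix ((Fin e ⊕ Fin e) ⊕ Fin 2) ((Fin e ⊕ Fin e) ⊕ Fin 2) F)) ∧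
      ∀ v, (x : Matrix ((Fin e ⊕ Fin e) ⊕ Fin 2) ((Fin e ⊕ Fin e) ⊕ Fin 2) F) *ᵥ v = v → v = 0 := by
  classical
  haveI : Fact (Nat.Prime 2) := ⟨Nat.prime_two⟩
  obtain ⟨K, iK, fK, aK, Q₁, ζ, hK, hND, hζr, hζ1, hζ⟩ := exists_model (F := F) 2 (d := e + 1) (r := r) (by omega) hrd
  have hc := card_ne_of_fpf (F := F) 2 hr2 hrd Q₁ ζ hζr hζ1 hζ
  haveI : FiniteDimensional F K := Module.Finite.of_finite
  obtain ⟨E, hE⟩ := iso_qMinus hK Q₁ hND hc a b hab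
  have hζ0 : ζ ≠ 0 := by
    rintro rfl
    rw [zero_pow (Fact.out : r.Prime).ne_zero] at hζr
    exact zero_ne_one hζr
  let g : K ≃ₗ[F] K := LinearEquiv.ofLinear (LinearMap.mulLeft F ζ) (LinearMap.mulLeft F ζ⁻¹)
    (by ext v; simp [hζ0]) (by ext v; simp [hζ0])
  have hg : ∀ v, g v = ζ * v := fun v => rfl
  let x : GL ((Fin e ⊕ Fin e) ⊕ Fin 2) F := Cfsg.Agent.Lib.OrthMatrix.glEquiv.symm (E.symm.trans (g.trans E))
  have hx : ∀ w, (x : Matrix ((Fin e ⊕ Fin e) ⊕ Fin 2) ((Fin e ⊕ Fin e) ⊕ Fin 2) F) *ᵥ E w = E (ζ * w) := by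
    intro w
    rw [mulVec_glEquiv_symm]
    simp [hg]
  have hxk : ∀ k w, ((x ^ k : GL ((Fin e ⊕ Fin e) ⊕ Fin 2) F) : Matrix ((Fin e ⊕ Fin e) ⊕ Fin 2) ((Fin e ⊕ Fin e) ⊕ Fin 2) F) *ᵥ E w = E (ζ ^ k * w) := by
    intro k w
    induction k generalizing w with
    | zero => simp
    | succ k ih =>
      rw [pow_succ, Units.val_mul, ← Matrix.mulVec_mulVec, hx, ih]
      congr 1
      ring
  have hxr : x ^ r = 1 := by
    apply Units.ext
    rw [matrix_eq_iff]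
    intro v
    obtain ⟨w, rfl⟩ := E.surjective v
    rw [hxk, hζr, one_mul]
    simp
  have hfix : ∀ v, (x : Matrix ((Fin e ⊕ Fin e) ⊕ Fin 2) ((Fin e ⊕ Fin e) ⊕ Fin 2) F) *ᵥ v = v → v = 0 := by
    intro v hv
    obtain ⟨w, rfl⟩ := E.surjective v
    rw [hx] at hv
    have h1 := E.injective hv
    have h2 : (ζ - 1) * w = 0 := by rw [sub_mul, h1, one_mul, sub_self]
    have h3 := (mul_eq_zero.1 h2).resolve_left (sub_ne_zero.2 hζ1)
    rw [h3, map_zero]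
  have hiso : ∀ v, qMinus e a b ((x : Matrix ((Fin e ⊕ Fin e) ⊕ Fin 2) ((Fin e ⊕ Fin e) ⊕ Fin 2) F) *ᵥ v) = qMinus e a b v := by
    intro v
    obtain ⟨w, rfl⟩ := E.surjective v
    rw [hx, hE, hE, hζ]
  have hf : ⇑(qMinus e a b) = Cfsg.quadFormMinus e F a b := funext (qMinus_apply e a b)
  have hnd : (B (qMinus e a b)).Nondegenerate := Cfsg.Agent.Lib.QuadFF.nondegenerate_of_ND (ND_qMinus a b hab e)
  have hOG : O (qMinus e a b) ≤ G (qMinus e a b) := by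
    apply O_le_G hnd
    right
    simp
    omega
  refine ⟨x, ?_, hxr, ?_, hfix⟩
  · rw [← hf]
    refine mem_omega_of_odd_pow _ hOG x ?_ (hr.out.odd_of_ne_two hr2) hxr
    rw [mem_isometryGroup]
    exact hiso
  · intro z hz
    -- a nonsingular vector
    let v : (Fin e ⊕ Fin e) ⊕ Fin 2 → F := Pi.single (Sum.inr 0) 1
    have hv : qMinus e a b v = 1 := by
      rw [qMinus_apply]
      simp [Cfsg.quadFormMinus, v, Pi.single_apply]
    have h1 := hiso v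
    rw [hz, Matrix.smul_mulVec, Matrix.one_mulVec, QuadraticMap.map_smul, smul_eq_mul, hv, mul_one] at h1
    have hz1 := eq_one_of_mul_self z h1
    have h2 := hfix v (by rw [hz, hz1, one_smul, Matrix.one_mulVec])
    have h3 := congrFun h2 (Sum.inr 0)
    simp [v] at h3



/-- Elements of prime order of Ω⁻_n(q), q even, with no fixed nonsingular 1-space. Here `T = PΩ⁻_n(F)`, `n = 2d ≥ 8`, realised through `Ω⁻_n(q)`, the commutator subgroup of the isometry group of `Q = Σ_{i<d−1} xᵢyᵢ + z₁² + a z₁z₂ + b z₂²` with `z₁² + a z₁z₂ + b z₂²` anisotropic, over the field `F` with `q` elements; an element of `T` of prime order `r` is an element `x` of `Ω⁻_n(q)` with `x^r` scalar and `x` not scalar; `q` is even (so the centre is trivial). Let Ω be the set of 1-dimensional subspaces spanned by a vector `v` with `Q(v) ≠ 0`, and let `r` be a prime dividing their number. Then every element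 of `T` of order `r` fixes some nonsingular 1-space if and only if `r = 2`. -/
theorem result {F : Type*} [Field F] [Fintype F] {p : ℕ} [Fact p.Prime] [CharP F p] {q : ℕ} (hq : Fintype.card F = q)
    (hp : p = 2) (d : ℕ) (hd : 4 ≤ d) (a b : F) (hab : ∀ x y : F, x ^ 2 + a * x * y + b * y ^ 2 = 0 → x = 0 ∧ y = 0) (r : ℕ) [Fact r.Prime]
    (hrΩ : r ∣ Nat.card {W : Submodule F ((Fin (d - 1) ⊕ Fin (d - 1)) ⊕ Fin 2 → F) // Module.finrank F ↥W = 1 ∧ ∃ v ∈ W, Cfsg.quadFormMinus (d - 1) F a b v ≠ 0}) :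
    (∀ x : GL ((Fin (d - 1) ⊕ Fin (d - 1)) ⊕ Fin 2) F, x ∈ Cfsg.Geo.omegaGL (Cfsg.quadFormMinus (d - 1) F a b) →
      (∃ z : F, ((x ^ r : GL ((Fin (d - 1) ⊕ Fin (d - 1)) ⊕ Fin 2) F) : Matrix ((Fin (d - 1) ⊕ Fin (d - 1)) ⊕ Fin 2) ((Fin (d - 1) ⊕ Fin (d - 1)) ⊕ Fin 2) F) = z • (1 : Matrix ((Fin (d - 1) ⊕ Fin (d - 1)) ⊕ Fin 2) ((Fin (d - 1) ⊕ Fin (d - 1)) ⊕ Fin 2) F)) →
      (∀ z : F, (x : Matrix ((Fin (d - 1) ⊕ Fin (d - 1)) ⊕ Fin 2) ((Fin (d - 1) ⊕ Fin (d - 1)) ⊕ Fin 2) F) ≠ z • (1 : Matrix ((Fin (d - 1) ⊕ Fin (d - 1)) ⊕ Fin 2) ((Fin (d - 1) ⊕ Fin (d - 1)) ⊕ Fin 2) F)) →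
      ∃ W : Submodule F ((Fin (d - 1) ⊕ Fin (d - 1)) ⊕ Fin 2 → F), (Module.finrank F ↥W = 1 ∧ ∃ v ∈ W, Cfsg.quadFormMinus (d - 1) F a b v ≠ 0) ∧ W.map (Matrix.toLin' (x : Matrix ((Fin (d - 1) ⊕ Fin (d - 1)) ⊕ Fin 2) ((Fin (d - 1) ⊕ Fin (d - 1)) ⊕ Fin 2) F)) ≤ W) ↔ r = 2 := by
  subst hp
  subst hq
  obtain ⟨e, rfl⟩ : ∃ e, d = e + 1 := ⟨d - 1, by omega⟩
  change r ∣ Nat.card {W : Submodule F ((Fin e ⊕ Fin e) ⊕ Fin 2 → F) // Module.finrank F ↥W = 1 ∧ ∃ v ∈ W, Cfsg.quadFormMinus e F a b v ≠ 0} at hrΩ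
  change (∀ x : GL ((Fin e ⊕ Fin e) ⊕ Fin 2) F, x ∈ Cfsg.Geo.omegaGL (Cfsg.quadFormMinus e F a b) →
      (∃ z : F, ((x ^ r : GL ((Fin e ⊕ Fin e) ⊕ Fin 2) F) : Matrix ((Fin e ⊕ Fin e) ⊕ Fin 2) ((Fin e ⊕ Fin e) ⊕ Fin 2) F) = z • (1 : Matrix ((Fin e ⊕ Fin e) ⊕ Fin 2) ((Fin e ⊕ Fin e) ⊕ Fin 2) F)) →
      (∀ z : F, (x : Matrix ((Fin e ⊕ Fin e) ⊕ Fin 2) ((Fin e ⊕ Fin e) ⊕ Fin 2) F) ≠ z • (1 : Matrix ((Fin e ⊕ Fin e) ⊕ Fin 2) ((Fin e ⊕ Fin e) ⊕ Fin 2) F)) →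
      ∃ W : Submodule F ((Fin e ⊕ Fin e) ⊕ Fin 2 → F), (Module.finrank F ↥W = 1 ∧ ∃ v ∈ W, Cfsg.quadFormMinus e F a b v ≠ 0) ∧ W.map (Matrix.toLin' (x : Matrix ((Fin e ⊕ Fin e) ⊕ Fin 2) ((Fin e ⊕ Fin e) ⊕ Fin 2) F)) ≤ W) ↔ r = 2
  have hsplit := dvd_of_count (F := F) (r := r) e a b hab hrΩ
  have hfq : ∀ v, Cfsg.quadFormMinus e F a b v = qMinus e a b v := fun v => (qMinus_apply e a b v).symm
  have hf : ⇑(qMinus e a b) = Cfsg.quadFormMinus e F a b := funext (qMinus_apply e a b)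
  have hiso : ∀ (x : GL ((Fin e ⊕ Fin e) ⊕ Fin 2) F), x ∈ Cfsg.Geo.omegaGL (Cfsg.quadFormMinus e F a b) →
      ∀ v, qMinus e a b ((x : Matrix ((Fin e ⊕ Fin e) ⊕ Fin 2) ((Fin e ⊕ Fin e) ⊕ Fin 2) F) *ᵥ v) = qMinus e a b v := by
    intro x hx v
    rw [← hf] at hx
    exact isometry_of_mem_omega _ hx v
  constructor
  · intro H
    by_contra hr2
    have hrd := hsplit.resolve_left hr2
    obtain ⟨x, hx, hxr, hns, hfix⟩ := exists_bad_odd (F := F) e (by omega) a b hab hr2 hrd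
    obtain ⟨W, ⟨hW, v, hv, hQv⟩, hWx⟩ := H x hx ⟨1, by rw [hxr]; simp⟩ hns
    have h1 := fixed_of_point (qMinus e a b) (x : Matrix ((Fin e ⊕ Fin e) ⊕ Fin 2) ((Fin e ⊕ Fin e) ⊕ Fin 2) F) (hiso x hx) W hW hv (by rwa [hfq] at hQv) hWx
    have h2 := hfix v h1
    rw [h2] at hQv
    apply hQv
    simp [Cfsg.quadFormMinus]
  · rintro rfl x hx ⟨z, hz⟩ hns
    have hxiso := hiso x hx
    by_contra hcon
    set X : ((Fin e ⊕ Fin e) ⊕ Fin 2 → F) →ₗ[F] ((Fin e ⊕ Fin e) ⊕ Fin 2 → F) := Matrix.mulVecLin (x : Matrix ((Fin e ⊕ Fin e) ⊕ Fin 2) ((Fin e ⊕ Fin e) ⊕ Fin 2) F) with hX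
    have hXv : ∀ v, X v = (x : Matrix ((Fin e ⊕ Fin e) ⊕ Fin 2) ((Fin e ⊕ Fin e) ⊕ Fin 2) F) *ᵥ v := fun v => rfl
    have hno : ∀ v, X v = v → qMinus e a b v = 0 := by
      intro v hv
      by_contra hQv
      apply hcon
      have hne : v ≠ 0 := by
        rintro rfl
        simp at hQv
      refine ⟨Submodule.span F {v}, ⟨finrank_span_singleton hne, v, Submodule.mem_span_singleton_self _, by rwa [hfq]⟩, ?_⟩
      rintro _ ⟨w, hw, rfl⟩
      obtain ⟨c, rfl⟩ := Submodule.mem_span_singleton.1 hw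
      have h1 : Matrix.toLin' (x : Matrix ((Fin e ⊕ Fin e) ⊕ Fin 2) ((Fin e ⊕ Fin e) ⊕ Fin 2) F) (c • v) = c • v := by
        rw [map_smul, Matrix.toLin'_apply, ← hXv, hv]
      rw [h1]
      exact Submodule.smul_mem _ _ (Submodule.mem_span_singleton_self _)
    have hx2 : ∀ v, X (X v) = z • v := by
      intro v
      rw [hXv, hXv, Matrix.mulVec_mulVec, ← pow_two]
      have : ((x : Matrix ((Fin e ⊕ Fin e) ⊕ Fin 2) ((Fin e ⊕ Fin e) ⊕ Fin 2) F)) ^ 2 = z • 1 := by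
        rw [← hz]
        simp
      rw [this, Matrix.smul_mulVec, Matrix.one_mulVec]
    have hz1 : z = 1 := by
      apply eq_one_of_mul_self
      let v : (Fin e ⊕ Fin e) ⊕ Fin 2 → F := Pi.single (Sum.inr 0) 1
      have hv : qMinus e a b v = 1 := by
        rw [qMinus_apply]
        simp [Cfsg.quadFormMinus, v, Pi.single_apply]
      have h1 := (hxiso ((x : Matrix ((Fin e ⊕ Fin e) ⊕ Fin 2) ((Fin e ⊕ Fin e) ⊕ Fin 2) F) *ᵥ v)).trans (hxiso v)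
      have h2 := hx2 v
      rw [hXv, hXv] at h2
      rw [h2, QuadraticMap.map_smul, smul_eq_mul, hv, mul_one] at h1
      exact h1
    have hx2' : ∀ v, X (X v) = v := by
      intro v
      rw [hx2, hz1, one_smul]
    have hnd : (B (qMinus e a b)).Nondegenerate := Cfsg.Agent.Lib.QuadFF.nondegenerate_of_ND (ND_qMinus a b hab e)
    obtain ⟨m, h1, h2⟩ := invol_no_fixed (qMinus e a b) hnd X hxiso hx2' hno
    have h3 : finrank F ((Fin e ⊕ Fin e) ⊕ Fin 2 → F) = 2 * e + 2 := by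
      simp
      ring
    have h4 := finrank_le_of_ts a b hab e (LinearMap.ker (X - LinearMap.id)) (by
      intro v hv
      apply hno
      have h5 := LinearMap.mem_ker.1 hv
      simpa [sub_eq_zero] using h5)
    omega

end Cfsg.Agent.S5986
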