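import Mathlib
import Cfsg.Agent.S5986
import Cfsg.Agent.Lib.QuadClass2
import Cfsg.Agent.Lib.WittForms
import Cfsg.Agent.Lib.SympEquiv
import Cfsg.Agent.Lib.SpOrder
import Cfsg.Agent.Lib.OrthoDihedral
import Cfsg.Agent.Lib.Singer
import Cfsg.Statements.S5983
-- import your own Cfsg.Agent.* helpers here

set_option autoImplicit false
open scoped MatrixGroups
open Cfsg

namespace Cfsg.Agent.S5983

open Matrix Module QuadraticMap
open Cfsg.Agent.Lib.QuadFF Cfsg.Agent.Lib.OrthoCount Cfsg.Agent.Lib.QuadClass Cfsg.Agent.Lib.QuadClass2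
open Cfsg.Agent.Lib.SympForm Cfsg.Agent.Lib.MinusModel

set_option linter.unusedSimpArgs false
set_option linter.unusedVariables false

variable {F : Type*} [Field F] {d e : ℕ}

/-! ### The symplectic form as a bilinear map -/

/-- `sympForm` as a bilinear map. -/
noncomputable def sB (d : ℕ) (F : Type*) [Field F] : LinearMap.BilinForm F (Fin d ⊕ Fin d → F) :=
  LinearMap.mk₂ F (fun u v => sympForm d F u v) sympForm_add_left
    (fun c u v => by rw [sympForm_smul_left]; rfl) sympForm_add_right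
    (fun c u v => by rw [sympForm_smul_right]; rfl)

@[simp] theorem sB_apply (u v : Fin d ⊕ Fin d → F) : sB d F u v = sympForm d F u v := rfl

theorem symp_nd (v : Fin d ⊕ Fin d → F) (h : ∀ w, sympForm d F v w = 0) : v = 0 := by
  classical
  funext i
  rcases i with i | i
  · have := h (Pi.single (Sum.inr i) 1)
    rw [sympForm_apply] at this
    simpa [Pi.single_apply, Finset.sum_ite_eq] using this
  · have := h (Pi.single (Sum.inl i) 1)
    rw [sympForm_apply] at this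
    simpa [Pi.single_apply, Finset.sum_ite_eq] using this

theorem sB_nondeg : (sB d F).Nondegenerate := by
  constructor
  · intro v hv
    exact symp_nd v hv
  · intro v hv
    apply symp_nd v
    intro w
    have := hv w
    rw [sB_apply, sympForm_antisymm] at this
    simpa using this

theorem sB_alt : (sB d F).IsAlt := fun v => sympForm_self v

section two

variable [CharP F 2]

theorem two_zero : (2 : F) = 0 := CharTwo.two_eq_zero

theorem symp_comm (u v : Fin d ⊕ Fin d → F) : sympForm d F u v = sympForm d F v u := by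
  rw [sympForm_antisymm, CharTwo.neg_eq]

/-- The polar form of the standard form is the symplectic form in characteristic two. -/
theorem polar_qPlus (u v : Fin d ⊕ Fin d → F) : polar (qPlus d F) u v = sympForm d F u v := by
  rw [polar, qPlus_apply, qPlus_apply, qPlus_apply, sympForm_apply]
  simp only [Cfsg.quadFormPlus, Pi.add_apply]
  rw [← Finset.sum_sub_distrib, ← Finset.sum_sub_distrib]
  refine Finset.sum_congr rfl fun i _ => ?_
  rw [CharTwo.sub_eq_add (u (Sum.inr i) * _)]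
  ring

/-- The form `v ↦ Q₀(v) + f(v, w)²`. -/
noncomputable def Qw (w : Fin d ⊕ Fin d → F) : QuadraticForm F (Fin d ⊕ Fin d → F) :=
  qPlus d F + QuadraticMap.linMulLin ((sB d F).flip w) ((sB d F).flip w)

theorem Qw_apply (w v : Fin d ⊕ Fin d → F) :
    Qw w v = Cfsg.quadFormPlus d F v + sympForm d F v w * sympForm d F v w := by
  simp [Qw, qPlus_apply, QuadraticMap.linMulLin_apply]

theorem polar_Qw (w u v : Fin d ⊕ Fin d → F) : polar (Qw w) u v = sympForm d F u v := by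
  have h1 := polar_qPlus u v
  rw [polar, qPlus_apply, qPlus_apply, qPlus_apply] at h1
  rw [polar, Qw_apply, Qw_apply, Qw_apply, sympForm_add_left, ← h1]
  have : (sympForm d F u w + sympForm d F v w) * (sympForm d F u w + sympForm d F v w)
      = sympForm d F u w * sympForm d F u w + sympForm d F v w * sympForm d F v w
        + 2 * (sympForm d F u w * sympForm d F v w) := by ring
  rw [this, two_zero]
  ring

theorem ND_Qw (w : Fin d ⊕ Fin d → F) : ND (Qw w) := by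
  intro x hx
  apply symp_nd
  intro y
  rw [← polar_Qw w]
  exact hx y

/-- Vectors of `Q₀`-value zero give forms isometric to `Q₀`. -/
theorem exists_iso_Qw (w : Fin d ⊕ Fin d → F) (hw : Cfsg.quadFormPlus d F w = 0) :
    ∃ t : (Fin d ⊕ Fin d → F) ≃ₗ[F] (Fin d ⊕ Fin d → F), ∀ v, qPlus d F (t v) = Qw w v := by
  let t₀ : (Fin d ⊕ Fin d → F) →ₗ[F] (Fin d ⊕ Fin d → F) := LinearMap.id + ((sB d F).flip w).smulRight w
  have ht₀ : ∀ v, t₀ v = v + sympForm d F v w • w := fun v => rfl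
  have hval : ∀ v, qPlus d F (t₀ v) = Qw w v := by
    intro v
    rw [ht₀, Q_ad, Q_sm, qPlus_apply, qPlus_apply, hw, polar_qPlus, sympForm_smul_right, Qw_apply]
    ring
  have hinj := injective_of_preserves (ND_Qw w) t₀ hval
  exact ⟨LinearEquiv.ofInjectiveEndo t₀ hinj, hval⟩

end two

/-! ### Lagrangians containing an isotropic subspace -/

theorem finrank_V : finrank F (Fin d ⊕ Fin d → F) = 2 * d := by
  simp
  omega

theorem finrank_le_of_iso (I : Submodule F (Fin d ⊕ Fin d → F)) (hI : ∀ u ∈ I, ∀ v ∈ I, sympForm d F u v = 0) :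
    finrank F I ≤ d := by
  have h1 : I ≤ LinearMap.BilinForm.orthogonal (sB d F) I := by
    intro v hv
    rw [LinearMap.BilinForm.mem_orthogonal_iff]
    intro u hu
    exact hI u hu v hv
  have h2 := Submodule.finrank_mono h1
  rw [LinearMap.BilinForm.finrank_orthogonal sB_nondeg, finrank_V] at h2
  have := Submodule.finrank_le I
  rw [finrank_V] at this
  omega

theorem exists_lagrangian (I : Submodule F (Fin d ⊕ Fin d → F)) (hI : ∀ u ∈ I, ∀ v ∈ I, sympForm d F u v = 0) :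
    ∃ L : Submodule F (Fin d ⊕ Fin d → F), I ≤ L ∧ (∀ u ∈ L, ∀ v ∈ L, sympForm d F u v = 0) ∧ finrank F L = d := by
  have main : ∀ k : ℕ, ∀ I : Submodule F (Fin d ⊕ Fin d → F), (∀ u ∈ I, ∀ v ∈ I, sympForm d F u v = 0) →
      d ≤ finrank F I + k → ∃ L : Submodule F (Fin d ⊕ Fin d → F), I ≤ L ∧ (∀ u ∈ L, ∀ v ∈ L, sympForm d F u v = 0) ∧ finrank F L = d := by
    intro k
    induction k with
    | zero =>
      intro I hI h
      exact ⟨I, le_rfl, hI, le_antisymm (finrank_le_of_iso I hI) (by omega)⟩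
    | succ k ih =>
      intro I hI h
      by_cases hd : d ≤ finrank F I
      · exact ⟨I, le_rfl, hI, le_antisymm (finrank_le_of_iso I hI) hd⟩
      · have h1 : I ≤ LinearMap.BilinForm.orthogonal (sB d F) I := by
          intro v hv
          rw [LinearMap.BilinForm.mem_orthogonal_iff]
          intro u hu
          exact hI u hu v hv
        have h2 : finrank F (LinearMap.BilinForm.orthogonal (sB d F) I) = 2 * d - finrank F I := by
          rw [LinearMap.BilinForm.finrank_orthogonal sB_nondeg, finrank_V]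
        have h3 : I < LinearMap.BilinForm.orthogonal (sB d F) I := by
          refine lt_of_le_of_ne h1 ?_
          intro h
          rw [← h] at h2
          omega
        obtain ⟨v, hv, hvI⟩ := SetLike.exists_of_lt h3
        have hvv : ∀ u ∈ I, sympForm d F u v = 0 := by
          intro u hu
          exact (LinearMap.BilinForm.mem_orthogonal_iff.1 hv) u hu
        have hvv' : ∀ u ∈ I, sympForm d F v u = 0 := by
          intro u hu
          rw [sympForm_antisymm, hvv u hu, neg_zero]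
        set I' := I ⊔ Submodule.span F {v} with hI'
        have hlt : I < I' := by
          refine lt_of_le_of_ne le_sup_left ?_
          intro h
          apply hvI
          rw [h, hI']
          exact Submodule.mem_sup_right (Submodule.mem_span_singleton_self v)
        have hfin := Submodule.finrank_lt_finrank_of_lt hlt
        have hiso : ∀ u ∈ I', ∀ w ∈ I', sympForm d F u w = 0 := by
          intro u hu w hw
          obtain ⟨a, ha, b, hb, rfl⟩ := Submodule.mem_sup.1 hu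
          obtain ⟨a', ha', b', hb', rfl⟩ := Submodule.mem_sup.1 hw
          obtain ⟨c, rfl⟩ := Submodule.mem_span_singleton.1 hb
          obtain ⟨c', rfl⟩ := Submodule.mem_span_singleton.1 hb'
          rw [sympForm_add_left, sympForm_add_right, sympForm_add_right, sympForm_smul_left, sympForm_smul_left,
            sympForm_smul_right, sympForm_smul_right, hI a ha a' ha', hvv a ha, hvv' a' ha', sympForm_self]
          simp
        obtain ⟨L, hL1, hL2, hL3⟩ := ih I' hiso (by omega)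
        exact ⟨L, le_trans le_sup_left hL1, hL2, hL3⟩
  exact main d I hI (by omega)

/-- Involutions of `Sp` in characteristic two are conjugate to block unitriangular matrices. -/
theorem exists_conj_block [CharP F 2] (X : Matrix (Fin d ⊕ Fin d) (Fin d ⊕ Fin d) F)
    (hX : ∀ u v, sympForm d F (X *ᵥ u) (X *ᵥ v) = sympForm d F u v) (hX2 : ∀ v, X *ᵥ (X *ᵥ v) = v) :
    ∃ (G : (Fin d ⊕ Fin d → F) ≃ₗ[F] (Fin d ⊕ Fin d → F)) (C : Matrix (Fin d) (Fin d) F),
      (∀ u v, sympForm d F (G u) (G v) = sympForm d F u v) ∧ Cᵀ = C ∧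
      ∀ v, G.symm (X *ᵥ G v) = fromBlocks 1 C 0 1 *ᵥ v := by
  classical
  let N : (Fin d ⊕ Fin d → F) →ₗ[F] (Fin d ⊕ Fin d → F) := Matrix.mulVecLin X - LinearMap.id
  have hN : ∀ v, N v = X *ᵥ v - v := fun v => rfl
  have hNN : ∀ v, N (N v) = 0 := by
    intro v
    rw [hN, hN, mulVec_sub, hX2]
    have h2 : (2 : F) = 0 := two_zero
    have h3 : v - X *ᵥ v - (X *ᵥ v - v) = (2 : F) • v - (2 : F) • X *ᵥ v := by
      rw [two_smul, two_smul]; abel
    rw [h3, h2, zero_smul, zero_smul, sub_zero]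
  have hBN : ∀ a b, sympForm d F a (N b) = sympForm d F (N a) b := by
    intro a b
    rw [hN, hN, sympForm_sub_left, sympForm_sub_right]
    have h1 := hX a (X *ᵥ b)
    rw [hX2] at h1
    rw [← h1]
  have hI : ∀ u ∈ LinearMap.range N, ∀ v ∈ LinearMap.range N, sympForm d F u v = 0 := by
    rintro _ ⟨a, rfl⟩ _ ⟨b, rfl⟩
    rw [hBN, hNN, sympForm_zero_left]
  obtain ⟨L, hIL, hLiso, hLd⟩ := exists_lagrangian _ hI
  have hL0 : finrank F (L0 d F) = finrank F L := by rw [finrank_L0, hLd]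
  let φ : L0 d F ≃ₗ[F] L := LinearEquiv.ofFinrankEq _ _ hL0
  have hL0iso : ∀ u ∈ L0 d F, ∀ v ∈ L0 d F, sympForm d F u v = 0 := by
    intro u hu v hv
    rw [sympForm_apply]
    refine Finset.sum_eq_zero fun i _ => ?_
    rw [mem_L0.1 hu, mem_L0.1 hv]
    ring
  obtain ⟨G, hG1, hG2⟩ := Cfsg.Agent.Lib.WittForms.witt_alt sB_nondeg sB_alt (L0 d F) L φ (by
    intro a b
    rw [sB_apply, sB_apply, hLiso _ (φ a).2 _ (φ b).2, hL0iso _ a.2 _ b.2])
  have hG1' : ∀ u v, sympForm d F (G u) (G v) = sympForm d F u v := hG1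
  have hGs : ∀ u v, sympForm d F (G.symm u) (G.symm v) = sympForm d F u v := by
    intro u v
    have := hG1' (G.symm u) (G.symm v)
    simpa using this.symm
  -- the conjugate
  let y : (Fin d ⊕ Fin d → F) →ₗ[F] (Fin d ⊕ Fin d → F) := G.symm.toLinearMap ∘ₗ Matrix.mulVecLin X ∘ₗ G.toLinearMap
  have hy : ∀ v, y v = G.symm (X *ᵥ G v) := fun v => rfl
  have hL_G : ∀ l ∈ L, G.symm l ∈ L0 d F := by
    intro l hl
    have h1 : G ((φ.symm ⟨l, hl⟩ : L0 d F) : Fin d ⊕ Fin d → F) = l := by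
      rw [hG2]
      simp
    rw [← h1]
    simp
  -- (a) `y v - v` lies in `L0`
  have ha : ∀ v, y v - v ∈ L0 d F := by
    intro v
    have h1 : y v - v = G.symm (N (G v)) := by
      rw [hy, hN, map_sub]
      simp
    rw [h1]
    exact hL_G _ (hIL ⟨_, rfl⟩)
  have hysymp : ∀ u v, sympForm d F (y u) (y v) = sympForm d F u v := by
    intro u v
    rw [hy, hy, hGs, hX, hG1']
  have hyy : ∀ v, y (y v) = v := by
    intro v
    rw [hy, hy]
    simp [hX2]
  -- (b) `y` fixes `L0`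
  have hb : ∀ l ∈ L0 d F, y l = l := by
    intro l hl
    have h1 : y l - l = 0 := by
      apply symp_nd
      intro w
      have h2 : sympForm d F (y l - l) (y w - w) = 0 := hL0iso _ (ha l) _ (ha w)
      have h3 : sympForm d F (y l - l) w = sympForm d F l (y w - w) := by
        rw [sympForm_sub_left, sympForm_sub_right]
        have h4 := hysymp l (y w)
        rw [hyy] at h4
        rw [h4]
      rw [h3]
      exact (hL0iso l hl _ (ha w))
    exact sub_eq_zero.1 h1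
  -- the matrix of `y`
  let Y := LinearMap.toMatrix' y
  have hY : ∀ v, Y *ᵥ v = y v := fun v => LinearMap.toMatrix'_mulVec y v
  let C : Matrix (Fin d) (Fin d) F := Matrix.of fun i j => y (Pi.single (Sum.inr j) 1) (Sum.inl i)
  have hsing : ∀ j, (Pi.single (Sum.inl j) 1 : Fin d ⊕ Fin d → F) ∈ L0 d F := by
    intro j
    rw [mem_L0]
    intro i
    simp
  have hinr : ∀ i j, y (Pi.single (Sum.inr j) 1) (Sum.inr i) = (1 : Matrix (Fin d) (Fin d) F) i j := by
    intro i j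
    have h1 := mem_L0.1 (ha (Pi.single (Sum.inr j) 1)) i
    rw [Pi.sub_apply, sub_eq_zero] at h1
    rw [h1]
    simp [Pi.single_apply, Matrix.one_apply]
  have hYC : Y = fromBlocks 1 C 0 1 := by
    ext i j
    have hent : Y i j = y (Pi.single j 1) i := LinearMap.toMatrix'_apply y i j
    rw [hent]
    rcases i with i | i <;> rcases j with j | j
    · rw [hb _ (hsing j)]
      simp [Pi.single_apply, Matrix.one_apply]
    · rfl
    · rw [hb _ (hsing j)]
      simp [Pi.single_apply]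
    · rw [hinr]
      rfl
  have hCsymm : Cᵀ = C := by
    ext i j
    have h1 := hysymp (Pi.single (Sum.inr j) 1) (Pi.single (Sum.inr i) 1)
    have h2 : sympForm d F (Pi.single (Sum.inr j) 1) (Pi.single (Sum.inr i) 1) = 0 := by
      rw [sympForm_apply]
      simp [Pi.single_apply]
    rw [h2, sympForm_apply] at h1
    simp only [hinr] at h1
    have h3 : ∑ k : Fin d, ((1 : Matrix (Fin d) (Fin d) F) k j * C k i - C k j * (1 : Matrix (Fin d) (Fin d) F) k i) = 0 := h1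
    rw [Finset.sum_sub_distrib] at h3
    simp [Matrix.one_apply] at h3
    have h4 := sub_eq_zero.1 h3
    simpa [Matrix.transpose_apply] using h4
  refine ⟨G, C, hG1', hCsymm, ?_⟩
  intro v
  rw [← hYC, hY]
  exact (hy v).symm

/-! ### The equation `C ℓ = δ` -/

section solve

variable [CharP F 2]

theorem diag_formula (C : Matrix (Fin d) (Fin d) F) (hC : Cᵀ = C) (w : Fin d → F) :
    (C *ᵥ w) ⬝ᵥ w = ∑ i, C i i * (w i * w i) := by
  classical
  have hsym : ∀ i j, C i j = C j i := fun i j => congrFun (congrFun hC j) i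
  simp only [dotProduct, mulVec]
  simp only [Finset.sum_mul]
  rw [← Finset.sum_product', ← Finset.diag_union_offDiag, Finset.sum_union (Finset.disjoint_diag_offDiag _),
    Finset.sum_diag]
  have h0 : ∑ x ∈ (Finset.univ : Finset (Fin d)).offDiag, C x.1 x.2 * w x.2 * w x.1 = 0 := by
    apply Finset.sum_involution (fun p _ => (p.2, p.1))
    · intro p _
      rw [hsym p.2 p.1]
      have : C p.1 p.2 * w p.2 * w p.1 + C p.1 p.2 * w p.1 * w p.2 = 2 * (C p.1 p.2 * w p.2 * w p.1) := by ring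
      rw [this, two_zero, zero_mul]
    · intro p hp _ h
      rw [Finset.mem_offDiag] at hp
      exact hp.2.2 (congrArg Prod.snd h)
    · intro p hp
      rw [Finset.mem_offDiag] at hp ⊢
      exact ⟨hp.2.1, hp.1, fun h => hp.2.2 h.symm⟩
    · intro p _
      rfl
  rw [h0, add_zero]
  refine Finset.sum_congr rfl fun i _ => ?_
  ring

theorem dot_sq (a b : Fin d → F) : (a ⬝ᵥ b) * (a ⬝ᵥ b) = ∑ i, (a i * a i) * (b i * b i) := by
  have h := sum_pow_char 2 (Finset.univ : Finset (Fin d)) (fun i => a i * b i)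
  simp only [dotProduct]
  rw [← pow_two, h]
  refine Finset.sum_congr rfl fun i _ => ?_
  ring

theorem exists_ell [Fintype F] (C : Matrix (Fin d) (Fin d) F) (hC : Cᵀ = C) (δ : Fin d → F)
    (hδ : ∀ i, δ i * δ i = C i i) : ∃ ℓ : Fin d → F, C *ᵥ ℓ = δ := by
  classical
  by_contra hcon
  have hnot : δ ∉ LinearMap.range (Matrix.mulVecLin C) := by
    rintro ⟨ℓ, hℓ⟩
    exact hcon ⟨ℓ, hℓ⟩
  obtain ⟨f, hf1, hf2⟩ := Submodule.exists_le_ker_of_notMem hnot
  let z : Fin d → F := fun i => f (Pi.single i 1)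
  have hfz : ∀ v, f v = z ⬝ᵥ v := by
    intro v
    have h1 : v = ∑ i, v i • (Pi.single i 1 : Fin d → F) := by
      funext j
      simp [Finset.sum_apply, Pi.single_apply]
    conv_lhs => rw [h1]
    rw [map_sum]
    simp only [map_smul, smul_eq_mul, dotProduct, z]
    exact Finset.sum_congr rfl fun i _ => mul_comm _ _
  have h0 : z ⬝ᵥ (C *ᵥ z) = 0 := by
    rw [← hfz]
    exact hf2 ⟨z, rfl⟩
  apply hf1
  rw [hfz]
  have h1 := dot_sq z δ
  have h2 := diag_formula C hC z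
  have h3 : (C *ᵥ z) ⬝ᵥ z = z ⬝ᵥ (C *ᵥ z) := dotProduct_comm _ _
  rw [h3, h0] at h2
  have h4 : (z ⬝ᵥ δ) * (z ⬝ᵥ δ) = 0 := by
    rw [h1, h2]
    refine Finset.sum_congr rfl fun i _ => ?_
    rw [hδ]
    ring
  exact mul_self_eq_zero.1 h4

/-- Formula for the symplectic form against a fixed vector. -/
theorem symp_elim (a : Fin d ⊕ Fin d → F) (m ℓ : Fin d → F) :
    sympForm d F a (Sum.elim m ℓ) = (a ∘ Sum.inr) ⬝ᵥ m + (a ∘ Sum.inl) ⬝ᵥ ℓ := by
  rw [sympForm_apply]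
  simp only [dotProduct, Function.comp, Sum.elim_inl, Sum.elim_inr]
  rw [← Finset.sum_add_distrib]
  refine Finset.sum_congr rfl fun i _ => ?_
  rw [CharTwo.sub_eq_add]

theorem block_inl (C : Matrix (Fin d) (Fin d) F) (v : Fin d ⊕ Fin d → F) :
    (fromBlocks (1 : Matrix (Fin d) (Fin d) F) C 0 (1 : Matrix (Fin d) (Fin d) F) *ᵥ v) ∘ Sum.inl = v ∘ Sum.inl + C *ᵥ (v ∘ Sum.inr) := by
  rw [fromBlocks_mulVec]
  funext i
  simp

theorem block_inr (C : Matrix (Fin d) (Fin d) F) (v : Fin d ⊕ Fin d → F) :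
    (fromBlocks (1 : Matrix (Fin d) (Fin d) F) C 0 (1 : Matrix (Fin d) (Fin d) F) *ᵥ v) ∘ Sum.inr = v ∘ Sum.inr := by
  rw [fromBlocks_mulVec]
  funext i
  simp

theorem q_eq (w : Fin d ⊕ Fin d → F) : Cfsg.quadFormPlus d F w = (w ∘ Sum.inl) ⬝ᵥ (w ∘ Sum.inr) := rfl

/-- The invariance of the form. -/
theorem Qw_inv (C : Matrix (Fin d) (Fin d) F) (hC : Cᵀ = C) (δ : Fin d → F)
    (hδ : ∀ i, δ i * δ i = C i i) (m ℓ : Fin d → F) (hℓ : C *ᵥ ℓ = δ) (v : Fin d ⊕ Fin d → F) :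
    Qw (Sum.elim m ℓ) (fromBlocks 1 C 0 1 *ᵥ v) = Qw (Sum.elim m ℓ) v := by
  rw [Qw_apply, Qw_apply, symp_elim, symp_elim, q_eq, q_eq, block_inl, block_inr, add_dotProduct, add_dotProduct]
  set u := v ∘ Sum.inl
  set w := v ∘ Sum.inr
  have h1 : (C *ᵥ w) ⬝ᵥ ℓ = w ⬝ᵥ δ := by
    rw [← hℓ, dotProduct_mulVec, ← mulVec_transpose, hC]
  have h2 := diag_formula C hC w
  have h3 := dot_sq w δ
  have h4 : (w ⬝ᵥ δ) * (w ⬝ᵥ δ) = (C *ᵥ w) ⬝ᵥ w := by
    rw [h3, h2]
    refine Finset.sum_congr rfl fun i _ => ?_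
    rw [hδ]
    ring
  rw [h1]
  set A := w ⬝ᵥ m + u ⬝ᵥ ℓ with hA
  have h5 : (w ⬝ᵥ m + (u ⬝ᵥ ℓ + w ⬝ᵥ δ)) = A + w ⬝ᵥ δ := by rw [hA]; ring
  rw [h5]
  have h6 : (A + w ⬝ᵥ δ) * (A + w ⬝ᵥ δ) = A * A + (w ⬝ᵥ δ) * (w ⬝ᵥ δ) + 2 * (A * (w ⬝ᵥ δ)) := by ring
  rw [h6, h4, two_zero]
  have h7 : u ⬝ᵥ w + (C *ᵥ w) ⬝ᵥ w + (A * A + (C *ᵥ w) ⬝ᵥ w + 0 * (A * (w ⬝ᵥ δ))) = u ⬝ᵥ w + A * A + 2 * ((C *ᵥ w) ⬝ᵥ w) := by ring
  rw [h7, two_zero]
  ring

/-- The type of `Qw` when the vector has an anisotropic value. -/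
theorem no_ts_Qw [Fintype F] {e : ℕ} (m ℓ : Fin (e + 1) → F) (hℓ : ℓ ≠ 0) {ζ : F} (hζ : ∀ t : F, t ^ 2 + t + ζ ≠ 0)
    (hmℓ : m ⬝ᵥ ℓ = ζ) (K : Submodule F (Fin (e + 1) ⊕ Fin (e + 1) → F)) (hK : ∀ v ∈ K, Qw (Sum.elim m ℓ) v = 0) :
    finrank F K ≤ e := by
  classical
  set w₀ : Fin (e + 1) ⊕ Fin (e + 1) → F := Sum.elim m ℓ with hw₀
  obtain ⟨i, hi⟩ : ∃ i, ℓ i ≠ 0 := by
    by_contra h
    push_neg at h
    exact hℓ (funext h)
  let u₁ : Fin (e + 1) → F := Pi.single i (ℓ i)⁻¹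
  have hu₁ : u₁ ⬝ᵥ ℓ = 1 := by
    simp [u₁, single_dotProduct, hi]
  let v₁ : Fin (e + 1) ⊕ Fin (e + 1) → F := Sum.elim u₁ 0
  have hv₁L : v₁ ∈ L0 (e + 1) F := by
    rw [mem_L0]
    intro j
    rfl
  have hv₁w : sympForm (e + 1) F v₁ w₀ = 1 := by
    rw [hw₀, symp_elim]
    have h1 : v₁ ∘ Sum.inr = 0 := by
      funext j; rfl
    have h2 : v₁ ∘ Sum.inl = u₁ := by
      funext j; rfl
    rw [h1, h2, hu₁]
    simp
  have hQv₁ : Qw w₀ v₁ = 1 := by
    rw [Qw_apply, ← qPlus_apply, qPlus_L0 hv₁L, hv₁w]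
    simp
  have hQw₀ : Qw w₀ w₀ = ζ := by
    rw [Qw_apply, sympForm_self, q_eq, hw₀]
    have h1 : (Sum.elim m ℓ : Fin (e + 1) ⊕ Fin (e + 1) → F) ∘ Sum.inl = m := by
      funext j; rfl
    have h2 : (Sum.elim m ℓ : Fin (e + 1) ⊕ Fin (e + 1) → F) ∘ Sum.inr = ℓ := by
      funext j; rfl
    rw [h1, h2, hmℓ]
    simp
  let A : Submodule F (Fin (e + 1) ⊕ Fin (e + 1) → F) := Submodule.span F {v₁, w₀}
  have hQA : ∀ s t : F, Qw w₀ (s • v₁ + t • w₀) = s ^ 2 + 1 * s * t + ζ * t ^ 2 := by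
    intro s t
    rw [Q_ad, Q_sm, Q_sm, polar_Qw, sympForm_smul_left, sympForm_smul_right, hv₁w, hQv₁, hQw₀]
    ring
  have hv₁0 : v₁ ≠ 0 := by
    intro h
    have := hv₁w
    rw [h, sympForm_zero_left] at this
    exact zero_ne_one this
  have hli : LinearIndependent F ![v₁, w₀] := by
    rw [LinearIndependent.pair_iff]
    intro s t h
    have h1 : t = 0 := by
      have h2 := congrFun h (Sum.inr i)
      simp [v₁, w₀] at h2
      exact (h2.resolve_right hi)
    subst h1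
    simp only [zero_smul, add_zero] at h
    exact ⟨(smul_eq_zero.1 h).resolve_right hv₁0, rfl⟩
  have hAd : finrank F A = 2 := by
    have h1 := finrank_span_eq_card hli
    have hr : Set.range ![v₁, w₀] = {v₁, w₀} := by
      rw [Matrix.range_cons, Matrix.range_cons, Matrix.range_empty, Set.union_empty, Set.singleton_union]
    rw [hr] at h1
    simpa using h1
  have hAmem : ∀ v ∈ A, ∃ s t : F, v = s • v₁ + t • w₀ := by
    intro v hv
    obtain ⟨s, t, rfl⟩ := Submodule.mem_span_pair.1 hv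
    exact ⟨s, t, rfl⟩
  have hAani : ∀ v ∈ A, Qw w₀ v = 0 → v = 0 := by
    intro v hv h
    obtain ⟨s, t, rfl⟩ := hAmem v hv
    rw [hQA] at h
    obtain ⟨rfl, rfl⟩ := ani_of_zeta hζ s t h
    simp
  let f₀ : (Fin (e + 1) ⊕ Fin (e + 1) → F) →ₗ[F] F := (sB (e + 1) F).flip w₀
  have hf₀ : ∀ v, f₀ v = sympForm (e + 1) F v w₀ := fun v => rfl
  let U : Submodule F (Fin (e + 1) ⊕ Fin (e + 1) → F) := L0 (e + 1) F ⊓ LinearMap.ker f₀
  have hUd : finrank F U = e := by
    change finrank F ↥(L0 (e + 1) F ⊓ LinearMap.ker f₀) = e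
    have h1 := Cfsg.Agent.Lib.OrthOmega.finrank_eq_finrank_inf_ker_add_one (L0 (e + 1) F) f₀ hv₁L (by
      rw [hf₀, hv₁w]
      exact one_ne_zero)
    rw [finrank_L0] at h1
    omega
  have hUts : ∀ v ∈ U, Qw w₀ v = 0 := by
    rintro v ⟨h1, h2⟩
    have h3 : sympForm (e + 1) F v w₀ = 0 := h2
    rw [Qw_apply, ← qPlus_apply, qPlus_L0 h1, h3]
    simp
  have hUA : ∀ u ∈ U, ∀ a ∈ A, polar (Qw w₀) u a = 0 := by
    rintro u ⟨h1, h2⟩ a ha
    have h3 : sympForm (e + 1) F u w₀ = 0 := h2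
    obtain ⟨s, t, rfl⟩ := hAmem a ha
    rw [polar_Qw, sympForm_add_right, sympForm_smul_right, sympForm_smul_right, h3]
    have h4 : sympForm (e + 1) F u v₁ = 0 := by
      rw [sympForm_apply]
      refine Finset.sum_eq_zero fun j _ => ?_
      rw [mem_L0.1 h1, mem_L0.1 hv₁L]
      ring
    rw [h4]
    simp
  exact finrank_le_of_witness (ND_Qw w₀) (by rw [finrank_V]; ring) A U hAani hAd hUts hUd hUA K hK

end solve

/-! ### Invariant forms of prescribed type for involutions -/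

section inv

variable [Fintype F] [CharP F 2]

/-- Choice of the solution vector and the isometry with the given form. -/
theorem exists_ell_iso (Q' : QuadraticForm F (Fin d ⊕ Fin d → F))
    (hpol : ∀ u v, polar Q' u v = sympForm d F u v) (hd : 1 ≤ d)
    (hty : (∃ K : Submodule F (Fin d ⊕ Fin d → F), (∀ v ∈ K, Q' v = 0) ∧ finrank F K = d) ∨ Odd d)
    (C : Matrix (Fin d) (Fin d) F) (hC : Cᵀ = C) (δ : Fin d → F) (hδ : ∀ i, δ i * δ i = C i i) :
    ∃ (m ℓ : Fin d → F) (h : (Fin d ⊕ Fin d → F) ≃ₗ[F] (Fin d ⊕ Fin d → F)), C *ᵥ ℓ = δ ∧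
      ∀ v, Q' (h v) = Qw (Sum.elim m ℓ) v := by
  classical
  have hND : ND Q' := by
    intro x hx
    apply symp_nd
    intro y
    rw [← hpol]
    exact hx y
  obtain ⟨ℓ₀, hℓ₀⟩ := exists_ell C hC δ hδ
  by_cases hplus : ∃ K : Submodule F (Fin d ⊕ Fin d → F), (∀ v ∈ K, Q' v = 0) ∧ finrank F K = d
  · obtain ⟨K, hK, hKd⟩ := hplus
    have hw : Cfsg.quadFormPlus d F (Sum.elim 0 ℓ₀) = 0 := by
      simp [Cfsg.quadFormPlus]
    obtain ⟨t, ht⟩ := exists_iso_Qw _ hw
    obtain ⟨b, hb⟩ := hyp_of_ts finrank_V hND K hK hKd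
    obtain ⟨E, hE⟩ := iso_qPlus_of_hyp hb
    refine ⟨0, ℓ₀, t.trans E.symm, hℓ₀, fun v => ?_⟩
    rw [← ht v, LinearEquiv.trans_apply, ← hE, LinearEquiv.apply_symm_apply]
  · have hod : Odd d := hty.resolve_left hplus
    obtain ⟨e, rfl⟩ : ∃ e, d = e + 1 := ⟨d - 1, by omega⟩
    obtain ⟨b, ζ, hb⟩ := minus_of_no_ts (k := e) finrank_V hND (fun K hK hKd => hplus ⟨K, hK, hKd⟩)
    -- a nonzero solution
    obtain ⟨ℓ, hℓ, hℓ0⟩ : ∃ ℓ, C *ᵥ ℓ = δ ∧ ℓ ≠ 0 := by
      by_cases h0 : ℓ₀ = 0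
      · have hδ0 : δ = 0 := by
          rw [← hℓ₀, h0, mulVec_zero]
        by_cases hz : ∃ z : Fin (e + 1) → F, z ≠ 0 ∧ C *ᵥ z = 0
        · obtain ⟨z, hz0, hz1⟩ := hz
          exact ⟨z, by rw [hz1, hδ0], hz0⟩
        · exfalso
          push_neg at hz
          let β : (Fin (e + 1) → F) →ₗ[F] (Fin (e + 1) → F) →ₗ[F] F :=
            LinearMap.mk₂ F (fun a b => a ⬝ᵥ (C *ᵥ b)) (fun a a' b => by rw [add_dotProduct])
              (fun c a b => by rw [smul_dotProduct]) (fun a b b' => by rw [mulVec_add, dotProduct_add])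
              (fun c a b => by rw [mulVec_smul, dotProduct_smul])
          have hβ : ∀ a b, β a b = a ⬝ᵥ (C *ᵥ b) := fun a b => rfl
          obtain ⟨m, s, -⟩ := Cfsg.Agent.Lib.SympBasis.exists_symp_basis β (by
            intro a
            rw [hβ, dotProduct_comm, diag_formula C hC a]
            refine Finset.sum_eq_zero fun i _ => ?_
            rw [← hδ, hδ0]
            simp) (by
            intro a ha
            by_contra hne
            apply hz a hne
            have h1 : ∀ b, (C *ᵥ a) ⬝ᵥ b = 0 := by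
              intro b
              have := ha b
              rw [hβ, dotProduct_mulVec, ← mulVec_transpose, hC] at this
              exact this
            funext j
            have := h1 (Pi.single j 1)
            simpa using this)
          have h1 := finrank_eq_card_basis s
          simp at h1
          obtain ⟨k, hk⟩ := hod
          omega
      · exact ⟨ℓ₀, hℓ₀, h0⟩
    obtain ⟨i, hi⟩ : ∃ i, ℓ i ≠ 0 := by
      by_contra h
      push_neg at h
      exact hℓ0 (funext h)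
    let m : Fin (e + 1) → F := Pi.single i (ζ * (ℓ i)⁻¹)
    have hm : m ⬝ᵥ ℓ = ζ := by
      simp [m, single_dotProduct, hi]
    obtain ⟨b', ζ', hb'⟩ := minus_of_no_ts (k := e) finrank_V (ND_Qw (Sum.elim m ℓ)) (fun K hK hKd => by
      have := no_ts_Qw m ℓ hℓ0 hb.1 hm K hK
      omega)
    obtain ⟨h, hh⟩ := isometry_of_minus (ND_Qw (Sum.elim m ℓ)) hb' hb
    exact ⟨m, ℓ, h, hℓ, hh⟩

/-- Every involution preserves a form isometric to the given one. -/
theorem exists_conj_preserving (Q' : QuadraticForm F (Fin d ⊕ Fin d → F))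
    (hpol : ∀ u v, polar Q' u v = sympForm d F u v) (hd : 1 ≤ d)
    (hty : (∃ K : Submodule F (Fin d ⊕ Fin d → F), (∀ v ∈ K, Q' v = 0) ∧ finrank F K = d) ∨ Odd d)
    (X : Matrix (Fin d ⊕ Fin d) (Fin d ⊕ Fin d) F)
    (hX : ∀ u v, sympForm d F (X *ᵥ u) (X *ᵥ v) = sympForm d F u v) (hX2 : ∀ v, X *ᵥ (X *ᵥ v) = v) :
    ∃ G : (Fin d ⊕ Fin d → F) ≃ₗ[F] (Fin d ⊕ Fin d → F),
      (∀ u v, sympForm d F (G u) (G v) = sympForm d F u v) ∧ ∀ v, Q' (G.symm (X *ᵥ G v)) = Q' v := by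
  classical
  obtain ⟨G₀, C, hG₀, hC, hY⟩ := exists_conj_block X hX hX2
  have hsq : ∀ i, ∃ s : F, s * s = C i i := fun i => by
    obtain ⟨s, hs⟩ := Cfsg.Agent.Lib.OrthMatrix.isSquare_char_two (C i i)
    exact ⟨s, hs.symm⟩
  choose δ hδ using hsq
  obtain ⟨m, ℓ, h, hℓ, hh⟩ := exists_ell_iso Q' hpol hd hty C hC δ hδ
  have hs : ∀ u v, sympForm d F (h u) (h v) = sympForm d F u v := by
    intro u v
    rw [← hpol, ← polar_Qw (Sum.elim m ℓ) u v]
    simp only [polar, ← map_add, hh]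
  refine ⟨h.symm.trans G₀, ?_, ?_⟩
  · intro u v
    simp only [LinearEquiv.trans_apply]
    rw [hG₀]
    have := hs (h.symm u) (h.symm v)
    simpa using this.symm
  · intro v
    simp only [LinearEquiv.trans_apply, LinearEquiv.trans_symm, LinearEquiv.symm_symm]
    rw [hY, hh, Qw_inv C hC δ hδ m ℓ hℓ, ← hh]
    simp

end inv

/-! ### Counting modulo `r` -/

theorem card_modEq_fpf {V : Type*} (Q : V → F) (T : V → V) {r : ℕ} [hr : Fact r.Prime] (z : V)
    (hQz : Q z = 0) (hTz : T z = z) (hQT : ∀ v, Q (T v) = Q v) (hTr : ∀ v, T^[r] v = v)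
    (hfix : ∀ v, T v = v → v = z) [Finite V] : Nat.card {v // Q v = 0} ≡ 1 [MOD r] := by
  classical
  haveI : Fintype V := Fintype.ofFinite V
  let f : Function.End {v // Q v = 0} := fun v => ⟨T v.1, by rw [hQT]; exact v.2⟩
  have hfk : ∀ k (v : {v // Q v = 0}), ((f ^ k) v).1 = T^[k] v.1 := by
    intro k v
    induction k with
    | zero =>
      rw [pow_zero]
      rfl
    | succ k ih =>
      rw [pow_succ', Function.iterate_succ_apply']
      change T ((f ^ k) v).1 = _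
      rw [ih]
  have hfr : f ^ r ^ 1 = 1 := by
    rw [pow_one]
    funext v
    apply Subtype.ext
    rw [hfk, hTr]
    rfl
  have hcong := Equiv.Perm.card_fixedPoints_modEq (f := f) hfr
  have hfixc : Fintype.card (Function.fixedPoints f) = 1 := by
    rw [Fintype.card_eq_one_iff]
    refine ⟨⟨⟨z, hQz⟩, ?_⟩, ?_⟩
    · apply Subtype.ext
      exact hTz
    · rintro ⟨⟨v, hv⟩, hv2⟩
      apply Subtype.ext
      apply Subtype.ext
      exact hfix v (congrArg Subtype.val hv2)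
  rw [hfixc, ← Nat.card_eq_fintype_card] at hcong
  exact hcong

theorem plus_arith {Q0 : ℤ} {r e : ℕ} [hr : Fact r.Prime] (hr2 : r ≠ 2) (hd0 : (r : ℤ) ∣ Q0 ^ (e + 1) + 1)
    (hd : (r : ℤ) ∣ Q0 ^ (2 * e + 1) + Q0 ^ (e + 1) - Q0 ^ e - 1) : False := by
  have hpr : Prime (r : ℤ) := Nat.prime_iff_prime_int.1 hr.out
  have h2 : (r : ℤ) ∣ 2 * (Q0 ^ e + 1) := by
    have : 2 * (Q0 ^ e + 1) = (Q0 ^ e + 1) * (Q0 ^ (e + 1) + 1) - (Q0 ^ (2 * e + 1) + Q0 ^ (e + 1) - Q0 ^ e - 1) := by ring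
    rw [this]
    exact dvd_sub (Dvd.dvd.mul_left hd0 _) hd
  have h3 : ¬ (r : ℤ) ∣ 2 := by
    intro h
    have : r ∣ 2 := by exact_mod_cast h
    exact hr2 ((Nat.prime_dvd_prime_iff_eq hr.out Nat.prime_two).1 this)
  have h4 : (r : ℤ) ∣ Q0 ^ e + 1 := (hpr.dvd_or_dvd h2).resolve_left h3
  have h5 : (r : ℤ) ∣ Q0 - 1 := by
    have : Q0 - 1 = Q0 * (Q0 ^ e + 1) - (Q0 ^ (e + 1) + 1) := by ring
    rw [this]
    exact dvd_sub (Dvd.dvd.mul_left h4 _) hd0
  have h6 : (r : ℤ) ∣ Q0 ^ (e + 1) - 1 := by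
    have := sub_dvd_pow_sub_pow Q0 1 (e + 1)
    rw [one_pow] at this
    exact h5.trans this
  apply h3
  have : (2 : ℤ) = (Q0 ^ (e + 1) + 1) - (Q0 ^ (e + 1) - 1) := by ring
  rw [this]
  exact dvd_sub hd0 h6

theorem minus_arith {Q0 : ℤ} {r e : ℕ} [hr : Fact r.Prime] (hr2 : r ≠ 2) (hd0 : (r : ℤ) ∣ Q0 ^ (e + 1) - 1)
    (hd : (r : ℤ) ∣ Q0 ^ (2 * e + 1) + Q0 ^ e - Q0 ^ (e + 1) - 1) : (r : ℤ) ∣ Q0 - 1 := by
  have hpr : Prime (r : ℤ) := Nat.prime_iff_prime_int.1 hr.out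
  have h2 : (r : ℤ) ∣ 2 * (Q0 ^ e - 1) := by
    have : 2 * (Q0 ^ e - 1) = (Q0 ^ (2 * e + 1) + Q0 ^ e - Q0 ^ (e + 1) - 1) - (Q0 ^ e - 1) * (Q0 ^ (e + 1) - 1) := by ring
    rw [this]
    exact dvd_sub hd (Dvd.dvd.mul_left hd0 _)
  have h3 : ¬ (r : ℤ) ∣ 2 := by
    intro h
    have : r ∣ 2 := by exact_mod_cast h
    exact hr2 ((Nat.prime_dvd_prime_iff_eq hr.out Nat.prime_two).1 this)
  have h4 : (r : ℤ) ∣ Q0 ^ e - 1 := (hpr.dvd_or_dvd h2).resolve_left h3
  have : Q0 - 1 = (Q0 ^ (e + 1) - 1) - Q0 * (Q0 ^ e - 1) := by ring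
  rw [this]
  exact dvd_sub hd0 (Dvd.dvd.mul_left h4 _)

/-! ### Elements -/

section elements

variable [CharP F 2]

theorem mem_spGL_iff (x : GL (Fin d ⊕ Fin d) F) :
    x ∈ Cfsg.spGL d F ↔ ∀ u v, sympForm d F ((x : Matrix (Fin d ⊕ Fin d) (Fin d ⊕ Fin d) F) *ᵥ u) ((x : Matrix (Fin d ⊕ Fin d) (Fin d ⊕ Fin d) F) *ᵥ v) = sympForm d F u v :=
  Iff.rfl

theorem spGL_of_qPlus (x : GL (Fin d ⊕ Fin d) F)
    (h : ∀ v, qPlus d F ((x : Matrix (Fin d ⊕ Fin d) (Fin d ⊕ Fin d) F) *ᵥ v) = qPlus d F v) : x ∈ Cfsg.spGL d F := by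
  rw [mem_spGL_iff]
  intro u v
  rw [← polar_qPlus, ← polar_qPlus]
  simp only [polar, ← mulVec_add, h]

/-- An element of the Levi subgroup. -/
noncomputable def levi (A : GL (Fin d) F) : GL (Fin d ⊕ Fin d) F :=
  (Cfsg.Agent.Lib.HypLevi.leviHom d F A).1

theorem levi_val (A : GL (Fin d) F) : (levi A : Matrix (Fin d ⊕ Fin d) (Fin d ⊕ Fin d) F) =
    fromBlocks (A : Matrix (Fin d) (Fin d) F) 0 0 ((A⁻¹ : GL (Fin d) F) : Matrix (Fin d) (Fin d) F)ᵀ := rfl

theorem levi_iso (A : GL (Fin d) F) (v : Fin d ⊕ Fin d → F) :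
    qPlus d F ((levi A : Matrix (Fin d ⊕ Fin d) (Fin d ⊕ Fin d) F) *ᵥ v) = qPlus d F v :=
  (Cfsg.Agent.Lib.OrthMatrix.mem_isometryGroup _ _).1 (Cfsg.Agent.Lib.HypLevi.leviHom d F A).2 v

theorem levi_pow (A : GL (Fin d) F) (k : ℕ) : levi A ^ k = levi (A ^ k) := by
  simp only [levi]
  rw [map_pow]
  rfl

theorem levi_one : levi (1 : GL (Fin d) F) = 1 := by
  simp only [levi]
  rw [map_one]
  rfl

theorem levi_inl (A : GL (Fin d) F) (v : Fin d ⊕ Fin d → F) :
    ((levi A : Matrix (Fin d ⊕ Fin d) (Fin d ⊕ Fin d) F) *ᵥ v) ∘ Sum.inl = (A : Matrix (Fin d) (Fin d) F) *ᵥ (v ∘ Sum.inl) :=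
  Cfsg.Agent.Lib.OrthBlock.mulVec_inl _ _ v

theorem levi_inr (A : GL (Fin d) F) (v : Fin d ⊕ Fin d → F) :
    ((levi A : Matrix (Fin d ⊕ Fin d) (Fin d ⊕ Fin d) F) *ᵥ v) ∘ Sum.inr = ((A⁻¹ : GL (Fin d) F) : Matrix (Fin d) (Fin d) F)ᵀ *ᵥ (v ∘ Sum.inr) :=
  Cfsg.Agent.Lib.OrthBlock.mulVec_inr _ _ v

theorem levi_nonscalar (hd : 1 ≤ d) (A : GL (Fin d) F) (hA : A ≠ 1) (z : F) :
    (levi A : Matrix (Fin d ⊕ Fin d) (Fin d ⊕ Fin d) F) ≠ z • (1 : Matrix (Fin d ⊕ Fin d) (Fin d ⊕ Fin d) F) := by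
  intro hz
  rw [levi_val] at hz
  have h1 : (A : Matrix (Fin d) (Fin d) F) = z • 1 := by
    ext i j
    have := congrFun (congrFun hz (Sum.inl i)) (Sum.inl j)
    simpa [Matrix.one_apply] using this
  have h2 : ((A⁻¹ : GL (Fin d) F) : Matrix (Fin d) (Fin d) F)ᵀ = z • 1 := by
    ext i j
    have := congrFun (congrFun hz (Sum.inr i)) (Sum.inr j)
    simpa [Matrix.one_apply] using this
  have h3 : ((A⁻¹ : GL (Fin d) F) : Matrix (Fin d) (Fin d) F) = z • 1 := by
    have := congrArg Matrix.transpose h2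
    simpa using this
  have h4 : z * z = 1 := by
    have h5 : (A : Matrix (Fin d) (Fin d) F) * ((A⁻¹ : GL (Fin d) F) : Matrix (Fin d) (Fin d) F) = 1 := by
      simp
    rw [h1, h3] at h5
    have h6 := congrFun (congrFun h5 ⟨0, by omega⟩) ⟨0, by omega⟩
    simpa [Matrix.one_apply, Matrix.smul_mul, Matrix.mul_smul, smul_smul] using h6
  have hz1 := Cfsg.Agent.S5985.eq_one_of_mul_self z h4
  apply hA
  apply Units.ext
  rw [h1, hz1, one_smul]
  rfl

/-- Fixed-point-freeness passes to the dual part. -/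
theorem transpose_fpf (B : Matrix (Fin d) (Fin d) F) (hB : ∀ v, B *ᵥ v = v → v = 0) (w : Fin d → F)
    (hw : Bᵀ *ᵥ w = w) : w = 0 := by
  have h1 : (B - 1).det ≠ 0 := by
    intro h
    obtain ⟨v, hv0, hv⟩ := Matrix.exists_mulVec_eq_zero_iff.2 h
    apply hv0
    apply hB
    rw [Matrix.sub_mulVec, Matrix.one_mulVec] at hv
    exact sub_eq_zero.1 hv
  have h2 : (Bᵀ - 1).det ≠ 0 := by
    have : Bᵀ - 1 = (B - 1)ᵀ := by simp
    rw [this, Matrix.det_transpose]
    exact h1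
  apply Matrix.eq_zero_of_mulVec_eq_zero h2
  rw [Matrix.sub_mulVec, Matrix.one_mulVec, hw, sub_self]

end elements

/-! ### The form as a quadratic form -/

section form

variable [CharP F 2]

/-- The quadratic form attached to the data of the statement. -/
noncomputable def mkQ (Q : (Fin d ⊕ Fin d → F) → F) (hQ : Cfsg.Geo.IsNondegenerateQuadraticForm Q)
    (hQf : ∀ u v, polar Q u v = sympForm d F u v) : QuadraticForm F (Fin d ⊕ Fin d → F) where
  toFun := Q
  toFun_smul c v := by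
    rw [hQ.smul, smul_eq_mul, pow_two]
  exists_companion' := ⟨sB d F, fun x y => by
    have := hQf x y
    rw [polar] at this
    rw [sB_apply, ← this]
    ring⟩

theorem mkQ_apply (Q : (Fin d ⊕ Fin d → F) → F) (hQ : Cfsg.Geo.IsNondegenerateQuadraticForm Q)
    (hQf : ∀ u v, polar Q u v = sympForm d F u v) (v : Fin d ⊕ Fin d → F) : mkQ Q hQ hQf v = Q v := rfl

theorem mkQ_polar (Q : (Fin d ⊕ Fin d → F) → F) (hQ : Cfsg.Geo.IsNondegenerateQuadraticForm Q)
    (hQf : ∀ u v, polar Q u v = sympForm d F u v) (u v : Fin d ⊕ Fin d → F) :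
    polar (mkQ Q hQ hQf) u v = sympForm d F u v := hQf u v

theorem mkQ_ND (Q : (Fin d ⊕ Fin d → F) → F) (hQ : Cfsg.Geo.IsNondegenerateQuadraticForm Q)
    (hQf : ∀ u v, polar Q u v = sympForm d F u v) : ND (mkQ Q hQ hQf) := by
  intro x hx
  apply symp_nd
  intro y
  rw [← mkQ_polar Q hQ hQf]
  exact hx y

/-- Elements of the similarity group in `Sp` are isometries. -/
theorem iso_of_sim (Q : (Fin d ⊕ Fin d → F) → F) (hQf : ∀ u v, polar Q u v = sympForm d F u v) (hd : 1 ≤ d)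
    (y : GL (Fin d ⊕ Fin d) F) (hy : y ∈ Cfsg.spGL d F) (hy2 : y ∈ Cfsg.Geo.quadSimilarityGroup Q) (v : Fin d ⊕ Fin d → F) :
    Q ((y : Matrix (Fin d ⊕ Fin d) (Fin d ⊕ Fin d) F) *ᵥ v) = Q v := by
  classical
  obtain ⟨c, hc⟩ := hy2
  have hc1 : (c : F) = 1 := by
    let i0 : Fin d := ⟨0, by omega⟩
    let a : Fin d ⊕ Fin d → F := Pi.single (Sum.inr i0) 1
    let b : Fin d ⊕ Fin d → F := Pi.single (Sum.inl i0) 1
    have hab : sympForm d F a b = 1 := by
      rw [sympForm_apply]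
      simp [a, b, Pi.single_apply, i0]
    have h1 := (mem_spGL_iff y).1 hy a b
    rw [← hQf, ← hQf] at h1
    simp only [polar, ← mulVec_add, hc] at h1
    have h2 : polar Q a b = 1 := by rw [hQf, hab]
    rw [polar] at h2
    have h3 : (c : F) * (Q (a + b) - Q a - Q b) = Q (a + b) - Q a - Q b := by
      linear_combination h1
    rw [h2] at h3
    simpa using h3
  rw [hc, hc1, one_mul]

open Cfsg.Agent.Lib.OrthoBasic in
/-- The intersection of the similarity group with `Sp` is the orthogonal group of the form. -/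
theorem card_subgroupOf (Q : (Fin d ⊕ Fin d → F) → F) (hQ : Cfsg.Geo.IsNondegenerateQuadraticForm Q)
    (hQf : ∀ u v, polar Q u v = sympForm d F u v) (hd : 1 ≤ d) :
    Nat.card ((Cfsg.Geo.quadSimilarityGroup Q).subgroupOf (Cfsg.spGL d F)) = Nat.card (OG (mkQ Q hQ hQf)) := by
  classical
  have hsymp : ∀ g : OG (mkQ Q hQ hQf), ∀ u v, sympForm d F ((g : (Fin d ⊕ Fin d → F) ≃ₗ[F] (Fin d ⊕ Fin d → F)) u) ((g : (Fin d ⊕ Fin d → F) ≃ₗ[F] (Fin d ⊕ Fin d → F)) v) = sympForm d F u v := by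
    intro g u v
    rw [← hQf, ← hQf]
    simp only [polar, ← map_add]
    have hg : ∀ x, Q ((g : (Fin d ⊕ Fin d → F) ≃ₗ[F] (Fin d ⊕ Fin d → F)) x) = Q x := g.2
    rw [hg, hg, hg]
  refine Nat.card_congr ⟨fun x => ⟨Cfsg.Agent.Lib.OrthMatrix.glEquiv x.1.1, fun v => ?_⟩,
    fun g => ⟨⟨Cfsg.Agent.Lib.OrthMatrix.glEquiv.symm g.1, ?_⟩, ?_⟩, fun x => ?_, fun g => ?_⟩
  · exact iso_of_sim Q hQf hd x.1.1 x.1.2 x.2 v
  · rw [mem_spGL_iff]
    intro u v
    rw [Cfsg.Agent.Lib.OrthMatrix.mulVec_glEquiv_symm, Cfsg.Agent.Lib.OrthMatrix.mulVec_glEquiv_symm]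
    exact hsymp g u v
  · rw [Subgroup.mem_subgroupOf]
    refine ⟨1, fun v => ?_⟩
    change Q _ = _
    rw [Cfsg.Agent.Lib.OrthMatrix.mulVec_glEquiv_symm]
    have hg : ∀ x, Q ((g : (Fin d ⊕ Fin d → F) ≃ₗ[F] (Fin d ⊕ Fin d → F)) x) = Q x := g.2
    rw [hg]
    simp
  · apply Subtype.ext
    apply Subtype.ext
    simp
  · apply Subtype.ext
    simp

/-- The order of `spGL`. -/
theorem card_spGL [Fintype F] : Nat.card (Cfsg.spGL d F) = Nat.card (symplecticGroup (Fin d) F) := by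
  classical
  let f : symplecticGroup (Fin d) F → Cfsg.spGL d F := fun A =>
    ⟨⟨A.1, (A⁻¹ : symplecticGroup (Fin d) F).1, congrArg Subtype.val (mul_inv_cancel A),
      congrArg Subtype.val (inv_mul_cancel A)⟩, fun u v => (mem_symplecticGroup_iff_preserves _).1 A.2 u v⟩
  have hf : Function.Bijective f := by
    constructor
    · intro A A' h
      apply Subtype.ext
      exact congrArg (fun x : Cfsg.spGL d F => (x.1 : Matrix (Fin d ⊕ Fin d) (Fin d ⊕ Fin d) F)) h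
    · intro x
      refine ⟨⟨x.1.1, (mem_symplecticGroup_iff_preserves _).2 x.2⟩, ?_⟩
      apply Subtype.ext
      apply Units.ext
      rfl
  exact (Nat.card_congr (Equiv.ofBijective f hf)).symm

open Cfsg.Agent.Lib.OrthoBasic in
theorem rel_mul_card [Fintype F] (Q : (Fin d ⊕ Fin d → F) → F) (hQ : Cfsg.Geo.IsNondegenerateQuadraticForm Q)
    (hQf : ∀ u v, polar Q u v = sympForm d F u v) (hd : 1 ≤ d) :
    Nat.card (OG (mkQ Q hQ hQf)) * (Cfsg.Geo.quadSimilarityGroup Q).relIndex (Cfsg.spGL d F) =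
      Fintype.card F ^ (d ^ 2) * ∏ i ∈ Finset.range d, (Fintype.card F ^ (2 * (i + 1)) - 1) := by
  have h1 := Subgroup.card_mul_index ((Cfsg.Geo.quadSimilarityGroup Q).subgroupOf (Cfsg.spGL d F))
  rw [card_subgroupOf Q hQ hQf hd, card_spGL] at h1
  rw [Subgroup.relIndex, h1]
  exact Cfsg.Agent.Lib.SpOrder.card_Sp d

theorem prod_pos' [Fintype F] (e : ℕ) : 0 < ∏ i ∈ Finset.range e, (Fintype.card F ^ (2 * (i + 1)) - 1) := by
  apply Finset.prod_pos
  intro i _
  have hq : 1 < Fintype.card F := Fintype.one_lt_card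
  have : 1 < Fintype.card F ^ (2 * (i + 1)) := Nat.one_lt_pow (by omega) hq
  omega

open Cfsg.Agent.Lib.OrthoBasic in
theorem index_plus [Fintype F] (Q : (Fin (e + 1) ⊕ Fin (e + 1) → F) → F) (hQ : Cfsg.Geo.IsNondegenerateQuadraticForm Q)
    (hQf : ∀ u v, polar Q u v = sympForm (e + 1) F u v)
    (E : (Fin (e + 1) ⊕ Fin (e + 1) → F) ≃ₗ[F] (Fin (e + 1) ⊕ Fin (e + 1) → F))
    (hE : ∀ v, qPlus (e + 1) F (E v) = mkQ Q hQ hQf v) :
    (Cfsg.Geo.quadSimilarityGroup Q).relIndex (Cfsg.spGL (e + 1) F) * 2 =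
      Fintype.card F ^ (e + 1) * (Fintype.card F ^ (e + 1) + 1) := by
  have h1 := rel_mul_card Q hQ hQf (by omega)
  rw [Nat.card_congr (OG.congr E hE).toEquiv, Cfsg.Agent.Lib.OrthoOrder.card_OG_plus, Finset.prod_range_succ] at h1
  set R := (Cfsg.Geo.quadSimilarityGroup Q).relIndex (Cfsg.spGL (e + 1) F)
  set q := Fintype.card F with hq
  set P0 := ∏ i ∈ Finset.range e, (q ^ (2 * (i + 1)) - 1) with hP0
  have hq1 : 1 < q := Fintype.one_lt_card
  have hP00 : 0 < P0 := prod_pos' e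
  set a := q ^ (e + 1) with ha
  have ha1 : 1 < a := Nat.one_lt_pow (by omega) hq1
  have h2 : q ^ (2 * (e + 1)) - 1 = (a - 1) * (a + 1) := by
    have : q ^ (2 * (e + 1)) = a ^ 2 := by rw [ha, ← pow_mul]; congr 1; ring
    rw [this]
    zify [ha1.le, Nat.one_le_pow 2 a (by omega)]
    ring
  have h3 : q ^ ((e + 1) ^ 2) = q ^ ((e + 1) * e) * a := by
    rw [ha, ← pow_add]
    congr 1
    ring
  rw [h2, h3] at h1
  have hP : 0 < q ^ ((e + 1) * e) * (a - 1) * P0 := by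
    apply Nat.mul_pos (Nat.mul_pos (pow_pos (by omega) _) (by omega)) hP00
  apply Nat.eq_of_mul_eq_mul_left hP
  calc q ^ ((e + 1) * e) * (a - 1) * P0 * (R * 2) = 2 * q ^ ((e + 1) * e) * (a - 1) * P0 * R := by ring
    _ = q ^ ((e + 1) * e) * a * (P0 * ((a - 1) * (a + 1))) := h1
    _ = _ := by ring

open Cfsg.Agent.Lib.OrthoBasic in
theorem index_minus [Fintype F] (Q : (Fin (e + 1) ⊕ Fin (e + 1) → F) → F) (hQ : Cfsg.Geo.IsNondegenerateQuadraticForm Q)
    (hQf : ∀ u v, polar Q u v = sympForm (e + 1) F u v) {ζ : F} (hζ : ∀ t : F, t ^ 2 + t + ζ ≠ 0)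
    (E : (Fin (e + 1) ⊕ Fin (e + 1) → F) ≃ₗ[F] ((Fin e ⊕ Fin e) ⊕ Fin 2 → F))
    (hE : ∀ v, qMinus e 1 ζ (E v) = mkQ Q hQ hQf v) :
    (Cfsg.Geo.quadSimilarityGroup Q).relIndex (Cfsg.spGL (e + 1) F) * 2 =
      Fintype.card F ^ (e + 1) * (Fintype.card F ^ (e + 1) - 1) := by
  have h1 := rel_mul_card Q hQ hQf (by omega)
  rw [Nat.card_congr (OG.congr E hE).toEquiv, Cfsg.Agent.Lib.OrthoDihedral.card_OG_minus 1 ζ (ani_of_zeta hζ), Finset.prod_range_succ] at h1
  set R := (Cfsg.Geo.quadSimilarityGroup Q).relIndex (Cfsg.spGL (e + 1) F)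
  set q := Fintype.card F with hq
  set P0 := ∏ i ∈ Finset.range e, (q ^ (2 * (i + 1)) - 1) with hP0
  have hq1 : 1 < q := Fintype.one_lt_card
  have hP00 : 0 < P0 := prod_pos' e
  set a := q ^ (e + 1) with ha
  have ha1 : 1 < a := Nat.one_lt_pow (by omega) hq1
  have h2 : q ^ (2 * (e + 1)) - 1 = (a - 1) * (a + 1) := by
    have : q ^ (2 * (e + 1)) = a ^ 2 := by rw [ha, ← pow_mul]; congr 1; ring
    rw [this]
    zify [ha1.le, Nat.one_le_pow 2 a (by omega)]
    ring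
  have h3 : q ^ ((e + 1) ^ 2) = q ^ ((e + 1) * e) * a := by
    rw [ha, ← pow_add]
    congr 1
    ring
  rw [h2, h3] at h1
  have hP : 0 < q ^ ((e + 1) * e) * (a + 1) * P0 := by
    apply Nat.mul_pos (Nat.mul_pos (pow_pos (by omega) _) (by omega)) hP00
  apply Nat.eq_of_mul_eq_mul_left hP
  calc q ^ ((e + 1) * e) * (a + 1) * P0 * (R * 2) = 2 * q ^ ((e + 1) * e) * (a + 1) * P0 * R := by ring
    _ = q ^ ((e + 1) * e) * a * (P0 * ((a - 1) * (a + 1))) := h1
    _ = _ := by ring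

end form

/-! ### The elements used in the statement -/

section final

variable [Fintype F] [CharP F 2]

theorem conj_mulVec {ι : Type} [Fintype ι] [DecidableEq ι] (g x : GL ι F) (v : ι → F) :
    ((g⁻¹ * x * g : GL ι F) : Matrix ι ι F) *ᵥ v = ((g⁻¹ : GL ι F) : Matrix ι ι F) *ᵥ ((x : Matrix ι ι F) *ᵥ ((g : Matrix ι ι F) *ᵥ v)) := by
  simp [Units.val_mul, Matrix.mulVec_mulVec, Matrix.mul_assoc]

theorem inv_mul_apply {ι : Type} [Fintype ι] [DecidableEq ι] (g : GL ι F) (v : ι → F) :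
    (g : Matrix ι ι F) *ᵥ (((g⁻¹ : GL ι F) : Matrix ι ι F) *ᵥ v) = v := by
  rw [Matrix.mulVec_mulVec, ← Units.val_mul, mul_inv_cancel, Units.val_one, Matrix.one_mulVec]

theorem mul_inv_apply {ι : Type} [Fintype ι] [DecidableEq ι] (g : GL ι F) (v : ι → F) :
    ((g⁻¹ : GL ι F) : Matrix ι ι F) *ᵥ ((g : Matrix ι ι F) *ᵥ v) = v := by
  rw [Matrix.mulVec_mulVec, ← Units.val_mul, inv_mul_cancel, Units.val_one, Matrix.one_mulVec]

theorem conj_fpf {ι : Type} [Fintype ι] [DecidableEq ι] (g x : GL ι F) (hx : ∀ v, (x : Matrix ι ι F) *ᵥ v = v → v = 0)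
    (v : ι → F) (hv : ((g⁻¹ * x * g : GL ι F) : Matrix ι ι F) *ᵥ v = v) : v = 0 := by
  rw [conj_mulVec] at hv
  have h1 := congrArg (fun w => (g : Matrix ι ι F) *ᵥ w) hv
  simp only [inv_mul_apply] at h1
  have h2 := hx _ h1
  have h3 := congrArg (fun w => ((g⁻¹ : GL ι F) : Matrix ι ι F) *ᵥ w) h2
  simpa [mul_inv_apply] using h3

theorem conj_pow_one {G : Type*} [Group G] (g x : G) {r : ℕ} (h : x ^ r = 1) : (g⁻¹ * x * g) ^ r = 1 := by
  have := conj_pow (a := g⁻¹) (b := x) (i := r)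
  rw [inv_inv] at this
  rw [this, h]
  simp

/-- The zero count modulo `r` for an isometry without fixed points. -/
theorem count_of_fpf (Qq : QuadraticForm F (Fin d ⊕ Fin d → F)) {r : ℕ} [Fact r.Prime] (y : GL (Fin d ⊕ Fin d) F)
    (hy : ∀ v, Qq ((y : Matrix (Fin d ⊕ Fin d) (Fin d ⊕ Fin d) F) *ᵥ v) = Qq v) (hyr : y ^ r = 1)
    (hfix : ∀ v, (y : Matrix (Fin d ⊕ Fin d) (Fin d ⊕ Fin d) F) *ᵥ v = v → v = 0) :
    Nat.card {v // Qq v = 0} ≡ 1 [MOD r] := by
  have hk : ∀ k v, (fun v => (y : Matrix (Fin d ⊕ Fin d) (Fin d ⊕ Fin d) F) *ᵥ v)^[k] v = ((y ^ k : GL (Fin d ⊕ Fin d) F) : Matrix (Fin d ⊕ Fin d) (Fin d ⊕ Fin d) F) *ᵥ v := by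
    intro k v
    induction k with
    | zero => simp
    | succ k ih =>
      rw [Function.iterate_succ_apply', ih, pow_succ', Units.val_mul, Matrix.mulVec_mulVec]
  exact card_modEq_fpf (fun v => Qq v) (fun v => (y : Matrix (Fin d ⊕ Fin d) (Fin d ⊕ Fin d) F) *ᵥ v) 0
    (QuadraticMap.map_zero _) (Matrix.mulVec_zero _) hy (fun v => by rw [hk, hyr]; simp) hfix

/-- Elements of `Sp` without nonzero fixed vectors are not scalar. -/
theorem nonscalar_of_fpf (hd : 1 ≤ d) (x : GL (Fin d ⊕ Fin d) F) (hx : x ∈ Cfsg.spGL d F)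
    (hfix : ∀ v, (x : Matrix (Fin d ⊕ Fin d) (Fin d ⊕ Fin d) F) *ᵥ v = v → v = 0) (z : F) :
    (x : Matrix (Fin d ⊕ Fin d) (Fin d ⊕ Fin d) F) ≠ z • (1 : Matrix (Fin d ⊕ Fin d) (Fin d ⊕ Fin d) F) := by
  classical
  intro hz
  let i0 : Fin d := ⟨0, by omega⟩
  let a : Fin d ⊕ Fin d → F := Pi.single (Sum.inr i0) 1
  let b : Fin d ⊕ Fin d → F := Pi.single (Sum.inl i0) 1
  have hab : sympForm d F a b = 1 := by
    rw [sympForm_apply]
    simp [a, b, Pi.single_apply, i0]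
  have h1 := (mem_spGL_iff x).1 hx a b
  rw [hz, Matrix.smul_mulVec, Matrix.smul_mulVec, Matrix.one_mulVec, Matrix.one_mulVec, sympForm_smul_left,
    sympForm_smul_right, hab, mul_one] at h1
  have hz1 := Cfsg.Agent.S5985.eq_one_of_mul_self z h1
  have h2 := hfix a (by rw [hz, hz1, one_smul, Matrix.one_mulVec])
  have h3 := congrFun h2 (Sum.inr i0)
  simp [a] at h3

/-- The fixed-point-free element from the field model. -/
theorem exists_bad_K {r e : ℕ} [hr : Fact r.Prime] (hrd : r ∣ Fintype.card F ^ (e + 1) + 1) :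
    ∃ x : GL (Fin (e + 1) ⊕ Fin (e + 1)) F, x ∈ Cfsg.spGL (e + 1) F ∧ x ^ r = 1 ∧
      ∀ v, (x : Matrix (Fin (e + 1) ⊕ Fin (e + 1)) (Fin (e + 1) ⊕ Fin (e + 1)) F) *ᵥ v = v → v = 0 := by
  classical
  haveI : Fact (Nat.Prime 2) := ⟨Nat.prime_two⟩
  obtain ⟨K, iK, fK, aK, Q₁, ζ, hK, hND, hζr, hζ1, hζ⟩ := exists_model (F := F) 2 (d := e + 1) (r := r) (by omega) hrd
  haveI : FiniteDimensional F K := Module.Finite.of_finite
  have h2 : (2 : F) = 0 := two_zero
  obtain ⟨E, hE⟩ := Cfsg.Agent.Lib.SympEquiv.exists_symp_equiv (polarBilin Q₁) (by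
    intro v
    change polar Q₁ v v = 0
    rw [polar_self_eq, h2, zero_mul]) (fun v hv => hND v hv) hK
  have hζ0 : ζ ≠ 0 := by
    rintro rfl
    rw [zero_pow (Fact.out : r.Prime).ne_zero] at hζr
    exact zero_ne_one hζr
  let g : K ≃ₗ[F] K := LinearEquiv.ofLinear (LinearMap.mulLeft F ζ) (LinearMap.mulLeft F ζ⁻¹)
    (by ext v; simp [hζ0]) (by ext v; simp [hζ0])
  have hg : ∀ v, g v = ζ * v := fun v => rfl
  let x : GL (Fin (e + 1) ⊕ Fin (e + 1)) F := Cfsg.Agent.Lib.OrthMatrix.glEquiv.symm (E.trans (g.trans E.symm))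
  have hx : ∀ v, E ((x : Matrix (Fin (e + 1) ⊕ Fin (e + 1)) (Fin (e + 1) ⊕ Fin (e + 1)) F) *ᵥ v) = ζ * E v := by
    intro v
    rw [Cfsg.Agent.Lib.OrthMatrix.mulVec_glEquiv_symm]
    simp [hg]
  have hxk : ∀ k v, E (((x ^ k : GL (Fin (e + 1) ⊕ Fin (e + 1)) F) : Matrix (Fin (e + 1) ⊕ Fin (e + 1)) (Fin (e + 1) ⊕ Fin (e + 1)) F) *ᵥ v) = ζ ^ k * E v := by
    intro k v
    induction k generalizing v with
    | zero => simp
    | succ k ih =>
      rw [pow_succ, Units.val_mul, ← Matrix.mulVec_mulVec, ih, hx]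
      ring
  refine ⟨x, ?_, ?_, ?_⟩
  · rw [mem_spGL_iff]
    intro u v
    rw [← hE, ← hE, hx, hx]
    change polar Q₁ _ _ = polar Q₁ _ _
    simp only [polar, ← mul_add, hζ]
  · apply Units.ext
    rw [Cfsg.Agent.Lib.OrthMatrix.matrix_eq_iff]
    intro v
    apply E.injective
    rw [hxk, hζr, one_mul]
    simp
  · intro v hv
    have h1 := hx v
    rw [hv] at h1
    have h3 : (ζ - 1) * E v = 0 := by rw [sub_mul, ← h1, one_mul, sub_self]
    have h4 := (mul_eq_zero.1 h3).resolve_left (sub_ne_zero.2 hζ1)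
    exact E.injective (by rw [h4, map_zero])

/-- The Singer element in the Levi subgroup. -/
theorem exists_bad_levi {r e : ℕ} [hr : Fact r.Prime] (hrd : r ∣ Fintype.card F ^ (e + 1) - 1) :
    ∃ A : GL (Fin (e + 1)) F, A ≠ 1 ∧ A ^ r = 1 ∧
      ∀ v, (levi A : Matrix (Fin (e + 1) ⊕ Fin (e + 1)) (Fin (e + 1) ⊕ Fin (e + 1)) F) *ᵥ v = v → v = 0 := by
  classical
  haveI : Fact (Nat.Prime 2) := ⟨Nat.prime_two⟩
  obtain ⟨B₀, hB1, hB2, hB3⟩ := Cfsg.Agent.Lib.Singer.exists_singer (F := F) 2 (j := e + 1) (r := r) (by omega) hrd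
  have hr0 : r ≠ 0 := hr.out.ne_zero
  let A : GL (Fin (e + 1)) F := Units.ofPowEqOne B₀ r hB1 hr0
  have hA : (A : Matrix (Fin (e + 1)) (Fin (e + 1)) F) = B₀ := rfl
  have hAr : A ^ r = 1 := by
    apply Units.ext
    simp [hA, hB1]
  refine ⟨A, ?_, hAr, ?_⟩
  · rintro h
    apply hB2
    rw [← hA, h]
    rfl
  · intro v hv
    have h1 : (A : Matrix (Fin (e + 1)) (Fin (e + 1)) F) *ᵥ (v ∘ Sum.inl) = v ∘ Sum.inl := by
      rw [← levi_inl, hv]
    have h2 := hB3 _ h1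
    have h3 : ((A⁻¹ : GL (Fin (e + 1)) F) : Matrix (Fin (e + 1)) (Fin (e + 1)) F)ᵀ *ᵥ (v ∘ Sum.inr) = v ∘ Sum.inr := by
      rw [← levi_inr, hv]
    have h4 : B₀ᵀ *ᵥ (v ∘ Sum.inr) = v ∘ Sum.inr := by
      have h5 : (A : Matrix (Fin (e + 1)) (Fin (e + 1)) F)ᵀ *ᵥ (((A⁻¹ : GL (Fin (e + 1)) F) : Matrix (Fin (e + 1)) (Fin (e + 1)) F)ᵀ *ᵥ (v ∘ Sum.inr)) = v ∘ Sum.inr := by
        rw [Matrix.mulVec_mulVec, ← Matrix.transpose_mul]
        have h7 : ((A⁻¹ : GL (Fin (e + 1)) F) : Matrix (Fin (e + 1)) (Fin (e + 1)) F) * (A : Matrix (Fin (e + 1)) (Fin (e + 1)) F) = 1 := by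
          rw [← Units.val_mul, inv_mul_cancel, Units.val_one]
        rw [h7]
        simp
      rw [h3] at h5
      exact h5
    have h6 := transpose_fpf B₀ hB3 _ h4
    funext i
    rcases i with i | i
    · exact congrFun h2 i
    · exact congrFun h6 i

/-- Fixed-point-free involutions of `Fin d` and their matrices. -/
theorem exists_alt_matrix {d : ℕ} (hde : Even d) :
    ∃ A : Matrix (Fin d) (Fin d) F, (∀ w, (A *ᵥ w) ⬝ᵥ w = 0) ∧ (∀ w, ∃ s, A *ᵥ s = w) := by
  classical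
  obtain ⟨k, hk⟩ := hde
  have h2 : (2 : F) = 0 := two_zero
  let e : Fin d ≃ Fin k ⊕ Fin k := (finCongr hk).trans finSumFinEquiv.symm
  let τ : Equiv.Perm (Fin d) := (e.trans (Equiv.sumComm _ _)).trans e.symm
  have hτ2 : ∀ i, τ (τ i) = i := by
    intro i
    simp [τ]
  have hτne : ∀ i, τ i ≠ i := by
    intro i h
    have h1 : e (τ i) = e i := by rw [h]
    have h3 : Sum.swap (e i) = e i := by
      simpa [τ] using h1
    rcases h4 : e i with a | a <;> simp [h4] at h3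
  let A : Matrix (Fin d) (Fin d) F := τ.toPEquiv.toMatrix
  have hAv : ∀ w : Fin d → F, A *ᵥ w = w ∘ τ := fun w => PEquiv.toMatrix_toPEquiv_mulVec τ w
  refine ⟨A, ?_, ?_⟩
  · intro w
    rw [hAv]
    simp only [dotProduct, Function.comp]
    apply Finset.sum_involution (fun i _ => τ i)
    · intro i _
      rw [hτ2, mul_comm, ← two_mul, h2, zero_mul]
    · intro i _ _ h
      exact hτne i h
    · intro i _
      exact Finset.mem_univ _
    · intro i _
      exact hτ2 i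
  · intro w
    refine ⟨w ∘ τ, ?_⟩
    rw [hAv]
    funext i
    simp [hτ2]

/-- The involution in even `d`: an invariant form vanishes on a Lagrangian. -/
theorem ts_of_invol (hd : 1 ≤ d) (hde : Even d) (Q' : QuadraticForm F (Fin d ⊕ Fin d → F))
    (hpol : ∀ u v, polar Q' u v = sympForm d F u v) :
    ∃ x : GL (Fin d ⊕ Fin d) F, x ∈ Cfsg.spGL d F ∧ x ^ 2 = 1 ∧
      (∀ z : F, (x : Matrix (Fin d ⊕ Fin d) (Fin d ⊕ Fin d) F) ≠ z • (1 : Matrix (Fin d ⊕ Fin d) (Fin d ⊕ Fin d) F)) ∧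
      ∀ g ∈ Cfsg.spGL d F, (∀ v, Q' (((g⁻¹ * x * g : GL (Fin d ⊕ Fin d) F) : Matrix (Fin d ⊕ Fin d) (Fin d ⊕ Fin d) F) *ᵥ v) = Q' v) →
        ∀ l ∈ L0 d F, Q' (((g⁻¹ : GL (Fin d ⊕ Fin d) F) : Matrix (Fin d ⊕ Fin d) (Fin d ⊕ Fin d) F) *ᵥ l) = 0 := by
  classical
  obtain ⟨A, hAdot, hAs⟩ := exists_alt_matrix (F := F) hde
  have h2 : (2 : F) = 0 := two_zero
  let X : Matrix (Fin d ⊕ Fin d) (Fin d ⊕ Fin d) F := fromBlocks 1 A 0 1
  have hAA : A + A = 0 := by
    rw [← two_smul F A, h2, zero_smul]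
  have hXX : X * X = 1 := by
    simp only [X]
    rw [fromBlocks_multiply]
    simp [hAA, fromBlocks_one]
  let x : GL (Fin d ⊕ Fin d) F := ⟨X, X, hXX, hXX⟩
  have hxX : (x : Matrix (Fin d ⊕ Fin d) (Fin d ⊕ Fin d) F) = X := rfl
  have hiso : ∀ v, qPlus d F (X *ᵥ v) = qPlus d F v := by
    intro v
    rw [qPlus_apply, qPlus_apply, q_eq, q_eq]
    simp only [X]
    rw [block_inl, block_inr, add_dotProduct, hAdot, add_zero]
  refine ⟨x, spGL_of_qPlus x hiso, ?_, ?_, ?_⟩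
  · apply Units.ext
    rw [pow_two]
    exact hXX
  · intro z hz
    rw [hxX] at hz
    have hA0 : A = 0 := by
      ext i j
      have := congrFun (congrFun hz (Sum.inl i)) (Sum.inr j)
      simpa [X] using this
    obtain ⟨s, hs⟩ := hAs (Pi.single ⟨0, by omega⟩ 1)
    rw [hA0, Matrix.zero_mulVec] at hs
    have h4 := congrFun hs ⟨0, by omega⟩
    simp at h4
  · intro g hg hy l hl
    -- write `l` as an image
    obtain ⟨s, hs⟩ := hAs (l ∘ Sum.inl)
    let w : Fin d ⊕ Fin d → F := Sum.elim 0 s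
    have hxw : X *ᵥ w = w + l := by
      funext i
      rcases i with i | i
      · have := congrFun (block_inl A w) i
        simp only [X] at this ⊢
        rw [Function.comp_apply] at this
        rw [this]
        have e1 : w ∘ Sum.inl = 0 := by
          funext j; rfl
        have e2 : w ∘ Sum.inr = s := by
          funext j; rfl
        rw [e1, e2, hs]
        simp [w]
      · have := congrFun (block_inr A w) i
        simp only [X] at this ⊢
        rw [Function.comp_apply] at this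
        rw [this, Pi.add_apply, mem_L0.1 hl i, add_zero]
        rfl
    set v := ((g⁻¹ : GL (Fin d ⊕ Fin d) F) : Matrix (Fin d ⊕ Fin d) (Fin d ⊕ Fin d) F) *ᵥ w with hv
    set z := ((g⁻¹ : GL (Fin d ⊕ Fin d) F) : Matrix (Fin d ⊕ Fin d) (Fin d ⊕ Fin d) F) *ᵥ l with hz
    have hyv : ((g⁻¹ * x * g : GL (Fin d ⊕ Fin d) F) : Matrix (Fin d ⊕ Fin d) (Fin d ⊕ Fin d) F) *ᵥ v = v + z := by
      rw [conj_mulVec, hv, inv_mul_apply, hxX, hxw, Matrix.mulVec_add]
    have h5 := hy v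
    rw [hyv, Q_ad] at h5
    have h6 : Q' z = polar Q' v z := by
      have h7 : Q' v + Q' z + polar Q' v z - Q' v = 0 := by rw [h5, sub_self]
      have h8 : Q' z + polar Q' v z = 0 := by linear_combination h7
      have h9 : Q' z = - polar Q' v z := eq_neg_of_add_eq_zero_left h8
      rw [h9, CharTwo.neg_eq]
    rw [h6, hpol, hv, hz]
    have hg' : (g⁻¹ : GL (Fin d ⊕ Fin d) F) ∈ Cfsg.spGL d F := (Cfsg.spGL d F).inv_mem hg
    rw [(mem_spGL_iff _).1 hg', sympForm_apply]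
    have h10 : ∑ i, (w (Sum.inr i) * l (Sum.inl i) - w (Sum.inl i) * l (Sum.inr i)) = (A *ᵥ s) ⬝ᵥ s := by
      simp only [dotProduct]
      refine Finset.sum_congr rfl fun i _ => ?_
      have e0 : l (Sum.inl i) = (A *ᵥ s) i := by rw [hs]; rfl
      have e1 : w (Sum.inr i) = s i := rfl
      have e2 : w (Sum.inl i) = 0 := rfl
      rw [e0, e1, e2]
      ring
    rw [h10, hAdot]

/-- The type of the form in terms of the statement. -/
theorem plus_iff (Q : (Fin d ⊕ Fin d → F) → F) (Q' : QuadraticForm F (Fin d ⊕ Fin d → F)) (hQ' : ∀ v, Q' v = Q v) :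
    Cfsg.Geo.IsPlusTypeOn Q ⊤ ↔ ∃ K : Submodule F (Fin d ⊕ Fin d → F), (∀ v ∈ K, Q' v = 0) ∧ finrank F K = d := by
  constructor
  · rintro ⟨U, -, hU, hUd⟩
    refine ⟨U, fun v hv => by rw [hQ']; exact hU v hv, ?_⟩
    rw [finrank_top, finrank_V] at hUd
    omega
  · rintro ⟨K, hK, hKd⟩
    refine ⟨K, le_top, fun v hv => by rw [← hQ']; exact hK v hv, ?_⟩
    rw [finrank_top, finrank_V, hKd]

theorem levi_scalar_L0 (A : GL (Fin d) F) (lam : F) (hAv : (A : Matrix (Fin d) (Fin d) F) = lam • 1) (l : Fin d ⊕ Fin d → F)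
    (hl : l ∈ L0 d F) : (levi A : Matrix (Fin d ⊕ Fin d) (Fin d ⊕ Fin d) F) *ᵥ l = lam • l := by
  funext i
  rcases i with i | i
  · have := congrFun (levi_inl A l) i
    rw [Function.comp_apply] at this
    rw [this, hAv, Matrix.smul_mulVec, Matrix.one_mulVec]
    rfl
  · have := congrFun (levi_inr A l) i
    rw [Function.comp_apply] at this
    have h1 : l ∘ Sum.inr = 0 := by
      funext j
      exact mem_L0.1 hl j
    rw [this, h1, Matrix.mulVec_zero]
    simp [mem_L0.1 hl i]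

theorem finrank_map_inv (g : GL (Fin d ⊕ Fin d) F) :
    finrank F ((L0 d F).map (Matrix.mulVecLin ((g⁻¹ : GL (Fin d ⊕ Fin d) F) : Matrix (Fin d ⊕ Fin d) (Fin d ⊕ Fin d) F))) = d := by
  have hinj : Function.Injective (Matrix.mulVecLin ((g⁻¹ : GL (Fin d ⊕ Fin d) F) : Matrix (Fin d ⊕ Fin d) (Fin d ⊕ Fin d) F)) := by
    intro a b h
    have h1 := congrArg (fun w => (g : Matrix (Fin d ⊕ Fin d) (Fin d ⊕ Fin d) F) *ᵥ w) h
    simpa [Matrix.mulVecLin_apply, inv_mul_apply] using h1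
  rw [← (Submodule.equivMapOfInjective _ hinj (L0 d F)).finrank_eq, finrank_L0]

/-- A prime dividing a power of `q` is two. -/
theorem eq_two_of_dvd_pow {r n : ℕ} [hr : Fact r.Prime] (h : r ∣ Fintype.card F ^ n) : r = 2 := by
  have h3 : r ∣ Fintype.card F := hr.out.dvd_of_dvd_pow h
  obtain ⟨k, hk, hqn⟩ := FiniteField.card F 2
  rw [hqn] at h3
  have h4 := hr.out.dvd_of_dvd_pow h3
  exact (Nat.prime_dvd_prime_iff_eq hr.out Nat.prime_two).1 (by exact_mod_cast h4)

end final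



/-- Elements of prime order of PSp_n(q), q even, and the subgroups of orthogonal type. Here `T = Sp_{2d}(F)` for a field `F` of characteristic 2 with `q` elements (`d ≥ 2`, `(d, q) ≠ (2, 2)`), realised as the invertible matrices preserving the standard alternating form; `Q` is a non-degenerate quadratic form on `F^{2d}` whose polar form is that alternating form, and `H` is the subgroup of `T` preserving `Q` up to a scalar (equivalently preserving `Q`) — a subgroup of type O^±_{2d}(q) (maximality is not assumed); `Q` is of plus type when `F^{2d}` contains a `d`-dimensional subspace on which `Q` vanishes, of minus type otherwise. Ω is the set of cosets of `H` in `T`, so an element of `T` of prime order `r` (`x ∈ T` with `x^r` scalar, `x` not scalar) fixes a point of Ω exactly when some `T`-conjugate of `x` preserves `Q`. Let `r` be a prime dividing the index of `H`. Then every element of `T` of order `r` fixes a point of Ω if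 and only if `r = 2` and either `Q` is of plus type or `d` is odd. -/
theorem result {F : Type*} [Field F] [Fintype F] {p : ℕ} [Fact p.Prime] [CharP F p] {q : ℕ} (hq : Fintype.card F = q)
    (hp : p = 2) (d : ℕ) (hd : 2 ≤ d) (hT : (d, q) ≠ (2, 2)) (Q : (Fin d ⊕ Fin d → F) → F) (hQ : Cfsg.Geo.IsNondegenerateQuadraticForm Q)
    (hQf : ∀ u v, QuadraticMap.polar Q u v = Cfsg.sympForm d F u v)
    (r : ℕ) [Fact r.Prime]
    (hΩ : r ∣ (Cfsg.Geo.quadSimilarityGroup Q).relIndex (Cfsg.spGL d F)) :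
    (∀ x ∈ Cfsg.spGL d F, (∃ z : F, ((x ^ r : GL (Fin d ⊕ Fin d) F) : Matrix (Fin d ⊕ Fin d) (Fin d ⊕ Fin d) F) = z • (1 : Matrix (Fin d ⊕ Fin d) (Fin d ⊕ Fin d) F)) →
      (∀ z : F, (x : Matrix (Fin d ⊕ Fin d) (Fin d ⊕ Fin d) F) ≠ z • (1 : Matrix (Fin d ⊕ Fin d) (Fin d ⊕ Fin d) F)) →
      ∃ g ∈ Cfsg.spGL d F, g⁻¹ * x * g ∈ Cfsg.Geo.quadSimilarityGroup Q) ↔
    (r = 2 ∧ (Cfsg.Geo.IsPlusTypeOn Q ⊤ ∨ Odd d)) := by
  classical
  subst hp
  subst hq
  obtain ⟨e, rfl⟩ : ∃ e, d = e + 1 := ⟨d - 1, by omega⟩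
  set Qq := mkQ Q hQ hQf with hQq
  have hND := mkQ_ND Q hQ hQf
  have hQQ : ∀ v, Qq v = Q v := fun v => rfl
  have hpol : ∀ u v, polar Qq u v = sympForm (e + 1) F u v := hQf
  rw [plus_iff Q Qq hQQ]
  constructor
  · intro H
    by_cases hplus : ∃ K : Submodule F (Fin (e + 1) ⊕ Fin (e + 1) → F), (∀ v ∈ K, Qq v = 0) ∧ finrank F K = e + 1
    · -- plus type: `r = 2`
      refine ⟨?_, Or.inl hplus⟩
      by_contra hr2
      obtain ⟨K, hK, hKd⟩ := hplus
      obtain ⟨b, hb⟩ := hyp_of_ts finrank_V hND K hK hKd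
      obtain ⟨E, hE⟩ := iso_qPlus_of_hyp hb
      have hidx := index_plus Q hQ hQf E hE
      have hrd : r ∣ Fintype.card F ^ (e + 1) + 1 := by
        have h1 : r ∣ Fintype.card F ^ (e + 1) * (Fintype.card F ^ (e + 1) + 1) := by
          rw [← hidx]
          exact Dvd.dvd.mul_right hΩ _
        rcases (Nat.Prime.dvd_mul (Fact.out : r.Prime)).1 h1 with h | h
        · exact absurd (eq_two_of_dvd_pow h) hr2
        · exact h
      obtain ⟨x, hx, hxr, hfix⟩ := exists_bad_K (F := F) hrd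
      obtain ⟨g, hg, hgx⟩ := H x hx ⟨1, by rw [hxr]; simp⟩ (nonscalar_of_fpf (by omega) x hx hfix)
      have hy := iso_of_sim Q hQf (by omega) _ ((Cfsg.spGL (e + 1) F).mul_mem ((Cfsg.spGL (e + 1) F).mul_mem ((Cfsg.spGL (e + 1) F).inv_mem hg) hx) hg) hgx
      have hcount := count_of_fpf Qq (r := r) _ hy (conj_pow_one g x hxr) (conj_fpf g x hfix)
      have hZ := card_zeros_of_hyp hb
      have hd : (r : ℤ) ∣ ((Nat.card {v // Qq v = 0} : ℕ) : ℤ) - 1 := by
        have := (Nat.modEq_iff_dvd.1 hcount.symm)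
        simpa using this
      rw [hZ] at hd
      refine plus_arith hr2 (Q0 := (Fintype.card F : ℤ)) (e := e) ?_ hd
      exact_mod_cast hrd
    · -- minus type
      obtain ⟨b, ζ, hb⟩ := minus_of_no_ts (k := e) finrank_V hND (fun K hK hKd => hplus ⟨K, hK, hKd⟩)
      obtain ⟨E, hE⟩ := iso_of_minus_basis hND hb
      have hidx := index_minus Q hQ hQf hb.1 E hE
      have hr2 : r = 2 := by
        by_contra hr2
        have hrd : r ∣ Fintype.card F ^ (e + 1) - 1 := by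
          have h1 : r ∣ Fintype.card F ^ (e + 1) * (Fintype.card F ^ (e + 1) - 1) := by
            rw [← hidx]
            exact Dvd.dvd.mul_right hΩ _
          rcases (Nat.Prime.dvd_mul (Fact.out : r.Prime)).1 h1 with h | h
          · exact absurd (eq_two_of_dvd_pow h) hr2
          · exact h
        have hq1 : 1 ≤ Fintype.card F ^ (e + 1) := Nat.one_le_pow _ _ Fintype.card_pos
        have hrd' : (r : ℤ) ∣ (Fintype.card F : ℤ) ^ (e + 1) - 1 := by
          have : ((Fintype.card F ^ (e + 1) - 1 : ℕ) : ℤ) = (Fintype.card F : ℤ) ^ (e + 1) - 1 := by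
            push_cast [hq1]
            ring
          rw [← this]
          exact_mod_cast hrd
        by_cases hq : r ∣ Fintype.card F - 1
        · -- the scalar case
          obtain ⟨lam, hlam⟩ : ∃ lam : Fˣ, orderOf lam = r := by
            apply exists_prime_orderOf_dvd_card'
            rw [Nat.card_eq_fintype_card, Fintype.card_units]
            exact hq
          have hlamr : lam ^ r = 1 := by rw [← hlam]; exact pow_orderOf_eq_one _
          have hlam2 : (lam : F) * lam ≠ 1 := by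
            intro h
            have h1 : lam ^ 2 = 1 := by
              apply Units.ext
              rw [Units.val_pow_eq_pow_val, pow_two, h, Units.val_one]
            have h2 := orderOf_dvd_of_pow_eq_one h1
            rw [hlam] at h2
            exact hr2 ((Nat.prime_dvd_prime_iff_eq Fact.out Nat.prime_two).1 h2)
          let A : GL (Fin (e + 1)) F := Units.map (Matrix.scalar (Fin (e + 1))).toMonoidHom lam
          have hAv : (A : Matrix (Fin (e + 1)) (Fin (e + 1)) F) = (lam : F) • 1 := by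
            ext i j
            simp [A, Matrix.scalar_apply, Matrix.one_apply, Matrix.diagonal_apply]
          have hAr : A ^ r = 1 := by
            rw [← map_pow, hlamr, map_one]
          have hA1 : A ≠ 1 := by
            intro h
            have h1 : (lam : F) = 1 := by
              have h2 := congrArg (fun M : GL (Fin (e + 1)) F => (M : Matrix (Fin (e + 1)) (Fin (e + 1)) F) ⟨0, by omega⟩ ⟨0, by omega⟩) h
              simpa [hAv] using h2
            apply hlam2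
            rw [h1, one_mul]
          let x := levi A
          have hx : x ∈ Cfsg.spGL (e + 1) F := spGL_of_qPlus x (levi_iso A)
          have hxr : x ^ r = 1 := by
            rw [levi_pow, hAr, levi_one]
          obtain ⟨g, hg, hgx⟩ := H x hx ⟨1, by rw [hxr]; simp⟩ (levi_nonscalar (by omega) A hA1)
          have hy := iso_of_sim Q hQf (by omega) _ ((Cfsg.spGL (e + 1) F).mul_mem ((Cfsg.spGL (e + 1) F).mul_mem ((Cfsg.spGL (e + 1) F).inv_mem hg) hx) hg) hgx
          apply hplus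
          refine ⟨(L0 (e + 1) F).map (Matrix.mulVecLin ((g⁻¹ : GL (Fin (e + 1) ⊕ Fin (e + 1)) F) : Matrix (Fin (e + 1) ⊕ Fin (e + 1)) (Fin (e + 1) ⊕ Fin (e + 1)) F)), ?_, ?_⟩
          · rintro _ ⟨l, hl, rfl⟩
            have hxl : (x : Matrix (Fin (e + 1) ⊕ Fin (e + 1)) (Fin (e + 1) ⊕ Fin (e + 1)) F) *ᵥ l = (lam : F) • l :=
              levi_scalar_L0 A lam hAv l hl
            have hv := hy (((g⁻¹ : GL (Fin (e + 1) ⊕ Fin (e + 1)) F) : Matrix (Fin (e + 1) ⊕ Fin (e + 1)) (Fin (e + 1) ⊕ Fin (e + 1)) F) *ᵥ l)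
            rw [conj_mulVec, inv_mul_apply, hxl, Matrix.mulVec_smul] at hv
            change Qq _ = Qq _ at hv
            rw [QuadraticMap.map_smul, smul_eq_mul] at hv
            have h6 : ((lam : F) * lam - 1) * Qq (((g⁻¹ : GL (Fin (e + 1) ⊕ Fin (e + 1)) F) : Matrix (Fin (e + 1) ⊕ Fin (e + 1)) (Fin (e + 1) ⊕ Fin (e + 1)) F) *ᵥ l) = 0 := by
              rw [sub_mul, hv, one_mul, sub_self]
            exact (mul_eq_zero.1 h6).resolve_left (sub_ne_zero.2 hlam2)
          · exact finrank_map_inv g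
        · -- the Singer case
          obtain ⟨A, hA1, hAr, hfix⟩ := exists_bad_levi (F := F) hrd
          let x := levi A
          have hx : x ∈ Cfsg.spGL (e + 1) F := spGL_of_qPlus x (levi_iso A)
          have hxr : x ^ r = 1 := by
            rw [levi_pow, hAr, levi_one]
          obtain ⟨g, hg, hgx⟩ := H x hx ⟨1, by rw [hxr]; simp⟩ (levi_nonscalar (by omega) A hA1)
          have hy := iso_of_sim Q hQf (by omega) _ ((Cfsg.spGL (e + 1) F).mul_mem ((Cfsg.spGL (e + 1) F).mul_mem ((Cfsg.spGL (e + 1) F).inv_mem hg) hx) hg) hgx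
          have hcount := count_of_fpf Qq (r := r) _ hy (conj_pow_one g x hxr) (conj_fpf g x hfix)
          have hZ := card_zeros_of_minus hND hb
          have hd : (r : ℤ) ∣ ((Nat.card {v // Qq v = 0} : ℕ) : ℤ) - 1 := by
            have := (Nat.modEq_iff_dvd.1 hcount.symm)
            simpa using this
          rw [hZ] at hd
          have h5 := minus_arith hr2 hrd' hd
          apply hq
          have hq1' : 1 ≤ Fintype.card F := Fintype.card_pos
          have : ((Fintype.card F - 1 : ℕ) : ℤ) = (Fintype.card F : ℤ) - 1 := by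
            push_cast [hq1']
            ring
          rw [← this] at h5
          exact_mod_cast h5
      refine ⟨hr2, Or.inr ?_⟩
      by_contra hod
      have hde : Even (e + 1) := Nat.not_odd_iff_even.1 hod
      subst hr2
      obtain ⟨x, hx, hx2, hns, hfixQ⟩ := ts_of_invol (by omega) hde Qq hpol
      obtain ⟨g, hg, hgx⟩ := H x hx ⟨1, by rw [hx2]; simp⟩ hns
      have hy := iso_of_sim Q hQf (by omega) _ ((Cfsg.spGL (e + 1) F).mul_mem ((Cfsg.spGL (e + 1) F).mul_mem ((Cfsg.spGL (e + 1) F).inv_mem hg) hx) hg) hgx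
      have h1 := hfixQ g hg hy
      apply hplus
      refine ⟨(L0 (e + 1) F).map (Matrix.mulVecLin ((g⁻¹ : GL (Fin (e + 1) ⊕ Fin (e + 1)) F) : Matrix (Fin (e + 1) ⊕ Fin (e + 1)) (Fin (e + 1) ⊕ Fin (e + 1)) F)), ?_, ?_⟩
      · rintro _ ⟨l, hl, rfl⟩
        exact h1 l hl
      · exact finrank_map_inv g
  · rintro ⟨rfl, hty⟩ x hx ⟨z, hz⟩ hns
    have hx2v : ∀ v, (x : Matrix (Fin (e + 1) ⊕ Fin (e + 1)) (Fin (e + 1) ⊕ Fin (e + 1)) F) *ᵥ ((x : Matrix (Fin (e + 1) ⊕ Fin (e + 1)) (Fin (e + 1) ⊕ Fin (e + 1)) F) *ᵥ v) = z • v := by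
      intro v
      rw [Matrix.mulVec_mulVec, ← pow_two]
      have : ((x : Matrix (Fin (e + 1) ⊕ Fin (e + 1)) (Fin (e + 1) ⊕ Fin (e + 1)) F)) ^ 2 = z • 1 := by
        rw [← hz]
        simp
      rw [this, Matrix.smul_mulVec, Matrix.one_mulVec]
    have hz1 : z = 1 := by
      apply Cfsg.Agent.S5985.eq_one_of_mul_self
      let i0 : Fin (e + 1) := ⟨0, by omega⟩
      let a : Fin (e + 1) ⊕ Fin (e + 1) → F := Pi.single (Sum.inr i0) 1
      let b : Fin (e + 1) ⊕ Fin (e + 1) → F := Pi.single (Sum.inl i0) 1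
      have hab : sympForm (e + 1) F a b = 1 := by
        rw [sympForm_apply]
        simp [a, b, Pi.single_apply, i0]
      have h1 := ((mem_spGL_iff x).1 hx _ _).trans ((mem_spGL_iff x).1 hx a b)
      rw [hx2v, hx2v, sympForm_smul_left, sympForm_smul_right, hab, mul_one] at h1
      exact h1
    have hX2 : ∀ v, (x : Matrix (Fin (e + 1) ⊕ Fin (e + 1)) (Fin (e + 1) ⊕ Fin (e + 1)) F) *ᵥ ((x : Matrix (Fin (e + 1) ⊕ Fin (e + 1)) (Fin (e + 1) ⊕ Fin (e + 1)) F) *ᵥ v) = v := by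
      intro v
      rw [hx2v, hz1, one_smul]
    obtain ⟨G, hG1, hG2⟩ := exists_conj_preserving Qq hpol (by omega) hty _ ((mem_spGL_iff x).1 hx) hX2
    let g : GL (Fin (e + 1) ⊕ Fin (e + 1)) F := Cfsg.Agent.Lib.OrthMatrix.glEquiv.symm G
    have hg : ∀ v, (g : Matrix (Fin (e + 1) ⊕ Fin (e + 1)) (Fin (e + 1) ⊕ Fin (e + 1)) F) *ᵥ v = G v :=
      fun v => Cfsg.Agent.Lib.OrthMatrix.mulVec_glEquiv_symm G v
    have hginv : ∀ v, ((g⁻¹ : GL (Fin (e + 1) ⊕ Fin (e + 1)) F) : Matrix (Fin (e + 1) ⊕ Fin (e + 1)) (Fin (e + 1) ⊕ Fin (e + 1)) F) *ᵥ v = G.symm v := by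
      intro v
      apply G.injective
      rw [← hg, inv_mul_apply, LinearEquiv.apply_symm_apply]
    refine ⟨g, ?_, 1, fun v => ?_⟩
    · rw [mem_spGL_iff]
      intro u v
      rw [hg, hg, hG1]
    · rw [conj_mulVec, hginv, hg, Units.val_one, one_mul]
      exact hG2 v

end Cfsg.Agent.S5983
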