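import Mathlib
import Cfsg.Agent.S5983
import Cfsg.Agent.S5968
import Cfsg.Agent.Lib.SympWitt
import Cfsg.Statements.S5963
-- import your own Cfsg.Agent.* helpers here

set_option autoImplicit false
open scoped MatrixGroups
open Cfsg

namespace Cfsg.Agent.S5963

open Matrix Module
open Cfsg.Agent.Lib.SympForm Cfsg.Agent.S5983
open Cfsg.Agent.Lib.QuadClass2 (L0 mem_L0 finrank_L0)

set_option linter.unusedSimpArgs false
set_option linter.unusedVariables false

variable {F : Type*} [Field F] {d : ℕ}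

/-- The second standard Lagrangian. -/
def L1 (m : ℕ) (F : Type*) [Field F] : Submodule F (Fin m ⊕ Fin m → F) :=
  LinearMap.ker (LinearMap.funLeft F F (fun i : Fin m => (Sum.inl i : Fin m ⊕ Fin m)))

theorem mem_L1 {m : ℕ} {v : Fin m ⊕ Fin m → F} : v ∈ L1 m F ↔ ∀ i, v (Sum.inl i) = 0 := by
  rw [L1, LinearMap.mem_ker]
  constructor
  · intro h i
    exact congrFun h i
  · intro h
    funext i
    exact h i

theorem finrank_L1 (m : ℕ) : finrank F (L1 m F) = m := by
  have h1 := LinearMap.finrank_range_add_finrank_ker (LinearMap.funLeft F F (fun i : Fin m => (Sum.inl i : Fin m ⊕ Fin m)))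
  have hs : Function.Surjective (LinearMap.funLeft F F (fun i : Fin m => (Sum.inl i : Fin m ⊕ Fin m))) :=
    LinearMap.funLeft_surjective_of_injective F F _ (fun i j h => by simpa using h)
  rw [LinearMap.range_eq_top.2 hs, finrank_top] at h1
  simp only [Module.finrank_fintype_fun_eq_card, Fintype.card_fin, Fintype.card_sum] at h1
  change _ + finrank F (L1 m F) = _ at h1
  omega

theorem L0_iso : ∀ u ∈ L0 d F, ∀ v ∈ L0 d F, sympForm d F u v = 0 := by
  intro u hu v hv
  rw [sympForm_apply]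
  refine Finset.sum_eq_zero fun i _ => ?_
  rw [mem_L0.1 hu, mem_L0.1 hv]
  ring

theorem L1_iso : ∀ u ∈ L1 d F, ∀ v ∈ L1 d F, sympForm d F u v = 0 := by
  intro u hu v hv
  rw [sympForm_apply]
  refine Finset.sum_eq_zero fun i _ => ?_
  rw [mem_L1.1 hu, mem_L1.1 hv]
  ring

theorem L0_L1_compl : IsCompl (L0 d F) (L1 d F) := by
  constructor
  · rw [Submodule.disjoint_def]
    intro v h0 h1
    funext i
    rcases i with i | i
    · exact mem_L1.1 h1 i
    · exact mem_L0.1 h0 i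
  · rw [codisjoint_iff, eq_top_iff]
    intro v _
    let a : Fin d ⊕ Fin d → F := Sum.elim (v ∘ Sum.inl) 0
    let b : Fin d ⊕ Fin d → F := Sum.elim 0 (v ∘ Sum.inr)
    have ha : a ∈ L0 d F := mem_L0.2 fun i => rfl
    have hb : b ∈ L1 d F := mem_L1.2 fun i => rfl
    have hab : v = a + b := by
      funext i
      rcases i with i | i <;> simp [a, b]
    rw [hab]
    exact Submodule.add_mem_sup ha hb

/-- The pairs of the statement. -/
abbrev Pairs (d : ℕ) (F : Type*) [Field F] :=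
  {P : Submodule F (Fin d ⊕ Fin d → F) × Submodule F (Fin d ⊕ Fin d → F) // IsCompl P.1 P.2 ∧
    (∀ u ∈ P.1, ∀ v ∈ P.1, Cfsg.sympForm d F u v = 0) ∧ (∀ u ∈ P.2, ∀ v ∈ P.2, Cfsg.sympForm d F u v = 0)}

theorem pair_dims (P : Pairs d F) : finrank F P.1.1 = d ∧ finrank F P.1.2 = d := by
  have h1 := finrank_le_of_iso P.1.1 P.2.2.1
  have h2 := finrank_le_of_iso P.1.2 P.2.2.2
  have h3 := Submodule.finrank_add_eq_of_isCompl P.2.1
  rw [finrank_V] at h3
  omega

/-- A linear map preserving the form is injective. -/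
theorem inj_of_preserves (g : (Fin d ⊕ Fin d → F) →ₗ[F] (Fin d ⊕ Fin d → F))
    (h : ∀ u v, sympForm d F (g u) (g v) = sympForm d F u v) : Function.Injective g := by
  rw [← LinearMap.ker_eq_bot, LinearMap.ker_eq_bot']
  intro x hx
  apply symp_nd
  intro y
  rw [← h, hx, sympForm_zero_left]

/-- Adapted bases of complementary Lagrangians. -/
theorem exists_adapted (P : Pairs d F) :
    ∃ g : Matrix.symplecticGroup (Fin d) F,
      (L0 d F).map (Matrix.mulVecLin (g : Matrix (Fin d ⊕ Fin d) (Fin d ⊕ Fin d) F)) = P.1.1 ∧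
      (L1 d F).map (Matrix.mulVecLin (g : Matrix (Fin d ⊕ Fin d) (Fin d ⊕ Fin d) F)) = P.1.2 := by
  classical
  obtain ⟨⟨U, W⟩, hc, hU, hW⟩ := P
  simp only at hc hU hW
  have hUd : finrank F U = d := (pair_dims ⟨⟨U, W⟩, hc, hU, hW⟩).1
  have hWd : finrank F W = d := (pair_dims ⟨⟨U, W⟩, hc, hU, hW⟩).2
  let e : Basis (Fin d) F U := Module.finBasisOfFinrankEq F U hUd
  let Φ : W →ₗ[F] Module.Dual F U := (sB d F).domRestrict₁₂ W U
  have hΦ : ∀ (w : W) (u : U), Φ w u = sympForm d F w u := fun w u => rfl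
  have hinj : Function.Injective Φ := by
    rw [← LinearMap.ker_eq_bot, LinearMap.ker_eq_bot']
    intro w hw
    apply Subtype.ext
    apply symp_nd
    intro v
    have hv : v ∈ U ⊔ W := by
      rw [hc.sup_eq_top]
      trivial
    obtain ⟨a, ha, b, hb, rfl⟩ := Submodule.mem_sup.1 hv
    rw [sympForm_add_right, hW _ w.2 _ hb, add_zero]
    have := LinearMap.congr_fun hw ⟨a, ha⟩
    rwa [hΦ] at this
  have hfin : finrank F W = finrank F (Module.Dual F U) := by
    rw [Subspace.dual_finrank_eq, hUd, hWd]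
  let Φe : W ≃ₗ[F] Module.Dual F U := LinearEquiv.ofInjectiveOfFinrankEq Φ hinj hfin
  let f : Fin d → W := fun j => Φe.symm (e.coord j)
  have hf : ∀ i j, sympForm d F (f j) (e i) = if j = i then 1 else 0 := by
    intro i j
    have h1 : Φ (f j) = e.coord j := Φe.apply_symm_apply (e.coord j)
    rw [← hΦ, h1]
    simp [Finsupp.single_apply, eq_comm]
  let G : Fin d ⊕ Fin d → (Fin d ⊕ Fin d → F) := Sum.elim (fun i => (e i : Fin d ⊕ Fin d → F)) (fun j => (f j : Fin d ⊕ Fin d → F))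
  let b : Basis (Fin d ⊕ Fin d) F (Fin d ⊕ Fin d → F) := Pi.basisFun F _
  let g : (Fin d ⊕ Fin d → F) →ₗ[F] (Fin d ⊕ Fin d → F) := b.constr F G
  have hg : ∀ a, g (Pi.single a 1) = G a := by
    intro a
    have : (Pi.single a (1 : F) : Fin d ⊕ Fin d → F) = b a := by simp [b]
    rw [this]
    exact b.constr_basis F G a
  have hgs : ∀ u v, sympForm d F (g u) (g v) = sympForm d F u v := by
    have hB : (sB d F).compl₁₂ g g = sB d F := by
      apply b.ext
      intro a
      apply b.ext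
      intro a'
      have ha : b a = Pi.single a 1 := by simp [b]
      have ha' : b a' = Pi.single a' 1 := by simp [b]
      rw [ha, ha', LinearMap.compl₁₂_apply, hg, hg, sB_apply, sB_apply, sympForm_apply (Pi.single a 1)]
      rcases a with i | i <;> rcases a' with j | j
      · simp [G, hU _ (e i).2 _ (e j).2, Pi.single_apply]
      · simp only [G, Sum.elim_inl, Sum.elim_inr]
        rw [sympForm_antisymm, hf i j]
        simp [Pi.single_apply, Finset.sum_ite_eq, eq_comm]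
      · simp only [G, Sum.elim_inl, Sum.elim_inr]
        rw [hf j i]
        simp [Pi.single_apply, Finset.sum_ite_eq, eq_comm]
      · simp [G, hW _ (f i).2 _ (f j).2, Pi.single_apply]
    intro u v
    have := LinearMap.congr_fun (LinearMap.congr_fun hB u) v
    simpa using this
  obtain ⟨A, hA⟩ := Cfsg.Agent.Lib.SympWitt.exists_sp_of_equiv g hgs
  have hAg : Matrix.mulVecLin (A : Matrix (Fin d ⊕ Fin d) (Fin d ⊕ Fin d) F) = g := LinearMap.ext hA
  have hginj := inj_of_preserves g hgs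
  have hexp : ∀ v : Fin d ⊕ Fin d → F, g v = ∑ i, v (Sum.inl i) • G (Sum.inl i) + ∑ i, v (Sum.inr i) • G (Sum.inr i) := by
    intro v
    conv_lhs => rw [pi_eq_sum_univ' v]
    rw [map_sum, Fintype.sum_sum_type]
    congr 1 <;> {
      refine Finset.sum_congr rfl fun i _ => ?_
      rw [map_smul, hg] }
  refine ⟨A, ?_, ?_⟩
  · rw [hAg]
    apply Submodule.eq_of_le_of_finrank_eq
    · rintro _ ⟨l, hl, rfl⟩
      rw [SetLike.mem_coe] at hl
      rw [hexp]
      have h2 : ∑ i, l (Sum.inr i) • G (Sum.inr i) = 0 :=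
        Finset.sum_eq_zero fun i _ => by rw [mem_L0.1 hl, zero_smul]
      rw [h2, add_zero]
      exact Submodule.sum_mem _ fun i _ => U.smul_mem _ (e i).2
    · rw [← (Submodule.equivMapOfInjective g hginj (L0 d F)).finrank_eq, finrank_L0, hUd]
  · rw [hAg]
    apply Submodule.eq_of_le_of_finrank_eq
    · rintro _ ⟨l, hl, rfl⟩
      rw [SetLike.mem_coe] at hl
      rw [hexp]
      have h2 : ∑ i, l (Sum.inl i) • G (Sum.inl i) = 0 :=
        Finset.sum_eq_zero fun i _ => by rw [mem_L1.1 hl, zero_smul]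
      rw [h2, zero_add]
      exact Submodule.sum_mem _ fun i _ => W.smul_mem _ (f i).2
    · rw [← (Submodule.equivMapOfInjective g hginj (L1 d F)).finrank_eq, finrank_L1, hWd]


/-- A symplectic matrix as a linear equivalence. -/
noncomputable def spE (g : symplecticGroup (Fin d) F) : (Fin d ⊕ Fin d → F) ≃ₗ[F] (Fin d ⊕ Fin d → F) :=
  LinearEquiv.ofLinear (mulVecLin (g : Matrix (Fin d ⊕ Fin d) (Fin d ⊕ Fin d) F))
    (mulVecLin ((g⁻¹ : symplecticGroup (Fin d) F) : Matrix (Fin d ⊕ Fin d) (Fin d ⊕ Fin d) F))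
    (by
      apply LinearMap.ext
      intro v
      simp only [LinearMap.comp_apply, mulVecLin_apply, Matrix.mulVec_mulVec, LinearMap.id_apply]
      have : (g : Matrix (Fin d ⊕ Fin d) (Fin d ⊕ Fin d) F) * ((g⁻¹ : symplecticGroup (Fin d) F) : Matrix (Fin d ⊕ Fin d) (Fin d ⊕ Fin d) F) = 1 :=
        congrArg Subtype.val (mul_inv_cancel g)
      rw [this, Matrix.one_mulVec])
    (by
      apply LinearMap.ext
      intro v
      simp only [LinearMap.comp_apply, mulVecLin_apply, Matrix.mulVec_mulVec, LinearMap.id_apply]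
      have : ((g⁻¹ : symplecticGroup (Fin d) F) : Matrix (Fin d ⊕ Fin d) (Fin d ⊕ Fin d) F) * (g : Matrix (Fin d ⊕ Fin d) (Fin d ⊕ Fin d) F) = 1 :=
        congrArg Subtype.val (inv_mul_cancel g)
      rw [this, Matrix.one_mulVec])

theorem spE_apply (g : symplecticGroup (Fin d) F) (v : Fin d ⊕ Fin d → F) :
    spE g v = (g : Matrix (Fin d ⊕ Fin d) (Fin d ⊕ Fin d) F) *ᵥ v := rfl

theorem spE_preserves (g : symplecticGroup (Fin d) F) (u v : Fin d ⊕ Fin d → F) :
    sympForm d F (spE g u) (spE g v) = sympForm d F u v :=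
  (mem_symplecticGroup_iff_preserves _).1 g.2 u v

theorem isCompl_map_equiv {V : Type*} [AddCommGroup V] [Module F V] (e : V ≃ₗ[F] V) {U W : Submodule F V} (h : IsCompl U W) :
    IsCompl (U.map (e : V →ₗ[F] V)) (W.map (e : V →ₗ[F] V)) := by
  have := (Submodule.orderIsoMapComap e).isCompl_iff (x := U) (y := W)
  exact this.1 h

theorem iso_map (g : symplecticGroup (Fin d) F) (U : Submodule F (Fin d ⊕ Fin d → F))
    (hU : ∀ u ∈ U, ∀ v ∈ U, sympForm d F u v = 0) :
    ∀ u ∈ U.map ((spE g : _ ≃ₗ[F] _) : (Fin d ⊕ Fin d → F) →ₗ[F] (Fin d ⊕ Fin d → F)),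
    ∀ v ∈ U.map ((spE g : _ ≃ₗ[F] _) : (Fin d ⊕ Fin d → F) →ₗ[F] (Fin d ⊕ Fin d → F)), sympForm d F u v = 0 := by
  rintro _ ⟨u, hu, rfl⟩ _ ⟨v, hv, rfl⟩
  exact (spE_preserves g u v).trans (hU u hu v hv)

/-- The action on pairs. -/
noncomputable instance pairsAction : MulAction (symplecticGroup (Fin d) F) (Pairs d F) where
  smul g P := ⟨(P.1.1.map ((spE g : _ ≃ₗ[F] _) : (Fin d ⊕ Fin d → F) →ₗ[F] (Fin d ⊕ Fin d → F)),
      P.1.2.map ((spE g : _ ≃ₗ[F] _) : (Fin d ⊕ Fin d → F) →ₗ[F] (Fin d ⊕ Fin d → F))),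
    isCompl_map_equiv _ P.2.1, iso_map g _ P.2.2.1, iso_map g _ P.2.2.2⟩
  one_smul P := by
    have h : ((spE (1 : symplecticGroup (Fin d) F) : _ ≃ₗ[F] _) : (Fin d ⊕ Fin d → F) →ₗ[F] (Fin d ⊕ Fin d → F)) = LinearMap.id := by
      apply LinearMap.ext
      intro v
      show (((1 : symplecticGroup (Fin d) F) : Matrix (Fin d ⊕ Fin d) (Fin d ⊕ Fin d) F)) *ᵥ v = v
      exact Matrix.one_mulVec v
    apply Subtype.ext
    apply Prod.ext
    · show Submodule.map _ _ = _
      rw [h, Submodule.map_id]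
    · show Submodule.map _ _ = _
      rw [h, Submodule.map_id]
  mul_smul g h P := by
    have e : ((spE (g * h) : _ ≃ₗ[F] _) : (Fin d ⊕ Fin d → F) →ₗ[F] (Fin d ⊕ Fin d → F)) =
        ((spE g : _ ≃ₗ[F] _) : (Fin d ⊕ Fin d → F) →ₗ[F] (Fin d ⊕ Fin d → F)) ∘ₗ
          ((spE h : _ ≃ₗ[F] _) : (Fin d ⊕ Fin d → F) →ₗ[F] (Fin d ⊕ Fin d → F)) := by
      apply LinearMap.ext
      intro v
      show ((g * h : symplecticGroup (Fin d) F) : Matrix (Fin d ⊕ Fin d) (Fin d ⊕ Fin d) F) *ᵥ v =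
        (g : Matrix (Fin d ⊕ Fin d) (Fin d ⊕ Fin d) F) *ᵥ ((h : Matrix (Fin d ⊕ Fin d) (Fin d ⊕ Fin d) F) *ᵥ v)
      rw [Matrix.mulVec_mulVec]
      rfl
    apply Subtype.ext
    apply Prod.ext
    · show Submodule.map _ _ = Submodule.map _ (Submodule.map _ _)
      rw [e, Submodule.map_comp]
    · show Submodule.map _ _ = Submodule.map _ (Submodule.map _ _)
      rw [e, Submodule.map_comp]

theorem smul_fst (g : symplecticGroup (Fin d) F) (P : Pairs d F) :
    (g • P).1.1 = P.1.1.map ((spE g : _ ≃ₗ[F] _) : (Fin d ⊕ Fin d → F) →ₗ[F] (Fin d ⊕ Fin d → F)) := rfl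

theorem smul_snd (g : symplecticGroup (Fin d) F) (P : Pairs d F) :
    (g • P).1.2 = P.1.2.map ((spE g : _ ≃ₗ[F] _) : (Fin d ⊕ Fin d → F) →ₗ[F] (Fin d ⊕ Fin d → F)) := rfl

/-- The base point. -/
def P0 (d : ℕ) (F : Type*) [Field F] : Pairs d F := ⟨(L0 d F, L1 d F), L0_L1_compl, L0_iso, L1_iso⟩

theorem orbit_P0 : MulAction.orbit (symplecticGroup (Fin d) F) (P0 d F) = Set.univ := by
  rw [Set.eq_univ_iff_forall]
  intro P
  obtain ⟨g, h1, h2⟩ := exists_adapted P
  refine ⟨g, ?_⟩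
  apply Subtype.ext
  apply Prod.ext
  · exact h1
  · exact h2

/-- Levi embedding. -/
noncomputable def spLevi (d : ℕ) (F : Type*) [Field F] : GL (Fin d) F →* symplecticGroup (Fin d) F where
  toFun A := ⟨fromBlocks (A : Matrix (Fin d) (Fin d) F) 0 0 ((A⁻¹ : GL (Fin d) F) : Matrix (Fin d) (Fin d) F)ᵀ, by
    rw [mem_symplecticGroup_iff_preserves]
    intro u v
    have e1 : ∀ w : Fin d ⊕ Fin d → F, ∀ i, (fromBlocks (A : Matrix (Fin d) (Fin d) F) 0 0 ((A⁻¹ : GL (Fin d) F) : Matrix (Fin d) (Fin d) F)ᵀ *ᵥ w) (Sum.inl i) =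
        ((A : Matrix (Fin d) (Fin d) F) *ᵥ (w ∘ Sum.inl)) i := fun w i => congrFun (Cfsg.Agent.Lib.OrthBlock.mulVec_inl _ _ w) i
    have e2 : ∀ w : Fin d ⊕ Fin d → F, ∀ i, (fromBlocks (A : Matrix (Fin d) (Fin d) F) 0 0 ((A⁻¹ : GL (Fin d) F) : Matrix (Fin d) (Fin d) F)ᵀ *ᵥ w) (Sum.inr i) =
        (((A⁻¹ : GL (Fin d) F) : Matrix (Fin d) (Fin d) F)ᵀ *ᵥ (w ∘ Sum.inr)) i := fun w i => congrFun (Cfsg.Agent.Lib.OrthBlock.mulVec_inr _ _ w) i
    have key : ∀ a b : Fin d → F, (((A⁻¹ : GL (Fin d) F) : Matrix (Fin d) (Fin d) F)ᵀ *ᵥ a) ⬝ᵥ ((A : Matrix (Fin d) (Fin d) F) *ᵥ b) = a ⬝ᵥ b := by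
      intro a b
      rw [Matrix.mulVec_transpose, Matrix.dotProduct_mulVec, Matrix.vecMul_vecMul, Units.inv_mul, Matrix.vecMul_one]
    rw [sympForm_apply, sympForm_apply]
    simp only [e1, e2]
    rw [Finset.sum_sub_distrib, Finset.sum_sub_distrib]
    have k1 := key (u ∘ Sum.inr) (v ∘ Sum.inl)
    have k2 := key (v ∘ Sum.inr) (u ∘ Sum.inl)
    simp only [dotProduct, Function.comp_apply] at k1 k2
    rw [k1]
    congr 1
    calc _ = _ := Finset.sum_congr rfl fun i _ => mul_comm _ _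
      _ = _ := k2
      _ = _ := Finset.sum_congr rfl fun i _ => mul_comm _ _⟩
  map_one' := by
    apply Subtype.ext
    simp [fromBlocks_one]
  map_mul' A C := by
    apply Subtype.ext
    simp [fromBlocks_multiply, Matrix.transpose_mul]

theorem spLevi_val (A : GL (Fin d) F) : ((spLevi d F A : symplecticGroup (Fin d) F) : Matrix (Fin d ⊕ Fin d) (Fin d ⊕ Fin d) F) =
    fromBlocks (A : Matrix (Fin d) (Fin d) F) 0 0 ((A⁻¹ : GL (Fin d) F) : Matrix (Fin d) (Fin d) F)ᵀ := rfl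

theorem spLevi_inj : Function.Injective (spLevi d F) := by
  intro A C h
  apply Units.ext
  have h1 := congrArg Subtype.val h
  rw [spLevi_val, spLevi_val] at h1
  exact (Matrix.fromBlocks_inj.1 h1).1

theorem spLevi_le0 (A : GL (Fin d) F) : (L0 d F).map ((spE (spLevi d F A) : _ ≃ₗ[F] _) : (Fin d ⊕ Fin d → F) →ₗ[F] (Fin d ⊕ Fin d → F)) ≤ L0 d F := by
  rintro _ ⟨v, hv, rfl⟩
  rw [mem_L0]
  intro i
  have hv' : v ∘ Sum.inr = 0 := by
    funext j
    exact mem_L0.1 hv j
  show (fromBlocks (A : Matrix (Fin d) (Fin d) F) 0 0 ((A⁻¹ : GL (Fin d) F) : Matrix (Fin d) (Fin d) F)ᵀ *ᵥ v) (Sum.inr i) = 0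
  have := congrFun (Cfsg.Agent.Lib.OrthBlock.mulVec_inr (A : Matrix (Fin d) (Fin d) F) ((A⁻¹ : GL (Fin d) F) : Matrix (Fin d) (Fin d) F)ᵀ v) i
  rw [Function.comp_apply] at this
  rw [this, hv']
  simp

theorem spLevi_le1 (A : GL (Fin d) F) : (L1 d F).map ((spE (spLevi d F A) : _ ≃ₗ[F] _) : (Fin d ⊕ Fin d → F) →ₗ[F] (Fin d ⊕ Fin d → F)) ≤ L1 d F := by
  rintro _ ⟨v, hv, rfl⟩
  rw [mem_L1]
  intro i
  have hv' : v ∘ Sum.inl = 0 := by
    funext j
    exact mem_L1.1 hv j
  show (fromBlocks (A : Matrix (Fin d) (Fin d) F) 0 0 ((A⁻¹ : GL (Fin d) F) : Matrix (Fin d) (Fin d) F)ᵀ *ᵥ v) (Sum.inl i) = 0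
  have := congrFun (Cfsg.Agent.Lib.OrthBlock.mulVec_inl (A : Matrix (Fin d) (Fin d) F) ((A⁻¹ : GL (Fin d) F) : Matrix (Fin d) (Fin d) F)ᵀ v) i
  rw [Function.comp_apply] at this
  rw [this, hv']
  simp

theorem map_eq_of_le {U : Submodule F (Fin d ⊕ Fin d → F)} (g : symplecticGroup (Fin d) F)
    (h : U.map ((spE g : _ ≃ₗ[F] _) : (Fin d ⊕ Fin d → F) →ₗ[F] (Fin d ⊕ Fin d → F)) ≤ U) :
    U.map ((spE g : _ ≃ₗ[F] _) : (Fin d ⊕ Fin d → F) →ₗ[F] (Fin d ⊕ Fin d → F)) = U := by
  apply Submodule.eq_of_le_of_finrank_eq h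
  exact (Submodule.equivMapOfInjective _ (spE g).injective U).finrank_eq.symm

theorem spLevi_mem (A : GL (Fin d) F) : spLevi d F A ∈ MulAction.stabilizer (symplecticGroup (Fin d) F) (P0 d F) := by
  rw [MulAction.mem_stabilizer_iff]
  apply Subtype.ext
  apply Prod.ext
  · exact map_eq_of_le _ (spLevi_le0 A)
  · exact map_eq_of_le _ (spLevi_le1 A)

theorem card_GL_dvd [Finite F] : Nat.card (GL (Fin d) F) ∣ Nat.card (MulAction.stabilizer (symplecticGroup (Fin d) F) (P0 d F)) := by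
  let f : GL (Fin d) F →* MulAction.stabilizer (symplecticGroup (Fin d) F) (P0 d F) :=
    (spLevi d F).codRestrict _ spLevi_mem
  apply Subgroup.card_dvd_of_injective f
  intro A C h
  exact spLevi_inj (congrArg Subtype.val h)

theorem index_stab : (MulAction.stabilizer (symplecticGroup (Fin d) F) (P0 d F)).index = Nat.card (Pairs d F) := by
  rw [MulAction.index_stabilizer, orbit_P0, Set.ncard_univ]

/-- Divisibility: the number of pairs times the order of `GL` divides the order of `Sp`. -/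
theorem pairs_mul_GL_dvd [Fintype F] : ∃ s, Nat.card (Pairs d F) * s * Nat.card (GL (Fin d) F) = Nat.card (symplecticGroup (Fin d) F) := by
  obtain ⟨s, hs⟩ := card_GL_dvd (d := d) (F := F)
  refine ⟨s, ?_⟩
  rw [← Subgroup.card_mul_index (MulAction.stabilizer (symplecticGroup (Fin d) F) (P0 d F)), hs, index_stab]
  ring

/-- Arithmetic. -/
theorem exists_j [Fintype F] (p : ℕ) [Fact p.Prime] [CharP F p] {r : ℕ} [hr : Fact r.Prime] (hrp : r ≠ p) (hN : r ∣ Nat.card (Pairs d F)) :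
    ∃ j, 1 ≤ j ∧ j ≤ d ∧ r ∣ Fintype.card F ^ j + 1 := by
  obtain ⟨s, hs⟩ := pairs_mul_GL_dvd (d := d) (F := F)
  have h1 := Cfsg.Agent.Lib.SpOrder.card_Sp (F := F) d
  rw [Cfsg.Agent.Lib.SpBasic.Sp, ← hs, Matrix.card_GL_field, Cfsg.Agent.S5968.prod_gl _ _ Fintype.card_pos] at h1
  set q := Fintype.card F with hq
  have hq1 : 1 < q := Fintype.one_lt_card
  have hsplit : ∏ i ∈ Finset.range d, (q ^ (2 * (i + 1)) - 1) =
      (∏ i ∈ Finset.range d, (q ^ (i + 1) - 1)) * ∏ i ∈ Finset.range d, (q ^ (i + 1) + 1) := by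
    rw [← Finset.prod_mul_distrib]
    apply Finset.prod_congr rfl
    intro i _
    have h2 : 1 ≤ q ^ (i + 1) := Nat.one_le_pow _ _ (by omega)
    have h3 : q ^ (2 * (i + 1)) = q ^ (i + 1) * q ^ (i + 1) := by rw [← pow_add]; congr 1; ring
    rw [h3]
    zify [h2, Nat.one_le_iff_ne_zero.2 (Nat.mul_ne_zero (by omega : q ^ (i + 1) ≠ 0) (by omega : q ^ (i + 1) ≠ 0))]
    ring
  have hpos : 0 < ∏ i ∈ Finset.range d, (q ^ (i + 1) - 1) := by
    apply Finset.prod_pos
    intro i _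
    have : 1 < q ^ (i + 1) := Nat.one_lt_pow (by omega) hq1
    omega
  rw [hsplit] at h1
  have h2 : Nat.card (Pairs d F) * s * q ^ (∑ i ∈ Finset.range d, i) = q ^ (d ^ 2) * ∏ i ∈ Finset.range d, (q ^ (i + 1) + 1) := by
    apply Nat.eq_of_mul_eq_mul_right hpos
    calc _ = _ := by ring
      _ = _ := h1
      _ = _ := by ring
  have h3 : r ∣ q ^ (d ^ 2) * ∏ i ∈ Finset.range d, (q ^ (i + 1) + 1) := by
    rw [← h2]
    exact Dvd.dvd.mul_right (Dvd.dvd.mul_right hN _) _
  rcases (Nat.Prime.dvd_mul hr.out).1 h3 with h4 | h4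
  · exfalso
    have h5 : r ∣ q := hr.out.dvd_of_dvd_pow h4
    obtain ⟨n, hn⟩ := FiniteField.card F p
    rw [← hq] at hn
    rw [hn.2] at h5
    have h6 : r ∣ (p : ℕ) := hr.out.dvd_of_dvd_pow h5
    exact hrp ((Nat.prime_dvd_prime_iff_eq hr.out (Fact.out)).1 h6)
  · obtain ⟨i, hi, hi2⟩ := (Prime.dvd_finset_prod_iff hr.out.prime _).1 h4
    exact ⟨i + 1, by omega, by have := Finset.mem_range.1 hi; omega, hi2⟩



/-- Evenness of the number of pairs. -/
theorem even_pairs [Fintype F] (hd : 1 ≤ d) : Even (Nat.card (Pairs d F)) := by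
  classical
  haveI : Fact (Nat.Prime 2) := ⟨Nat.prime_two⟩
  let f : Function.End (Pairs d F) := fun P => ⟨(P.1.2, P.1.1), P.2.1.symm, P.2.2.2, P.2.2.1⟩
  have hf : f ^ 2 ^ 1 = 1 := by
    funext P
    rfl
  haveI : Fintype (Pairs d F) := Fintype.ofFinite _
  have h := Equiv.Perm.card_fixedPoints_modEq (f := f) (p := 2) (n := 1) hf
  have h0 : Fintype.card (Function.fixedPoints f) = 0 := by
    rw [Fintype.card_eq_zero_iff]
    constructor
    rintro ⟨P, hP⟩
    have h1 : P.1.2 = P.1.1 := by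
      have := congrArg (fun Q : Pairs d F => Q.1.1) hP
      exact this
    have h2 := pair_dims P
    have h3 := P.2.1
    rw [h1] at h3
    have h4 : P.1.1 = ⊥ := by
      have := h3.inf_eq_bot
      rwa [inf_idem] at this
    rw [h4] at h2
    simp at h2
    omega
  rw [h0] at h
  rw [Nat.card_eq_fintype_card]
  exact even_iff_two_dvd.2 (Nat.modEq_zero_iff_dvd.1 h)

/-- From the hypothesis `r ∣ N / 2`. -/
theorem dvd_of_half [Fintype F] (hd : 1 ≤ d) {r : ℕ} (h : r ∣ Nat.card (Pairs d F) / 2) : r ∣ Nat.card (Pairs d F) := by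
  obtain ⟨k, hk⟩ := even_pairs (d := d) (F := F) hd
  have : Nat.card (Pairs d F) / 2 * 2 = Nat.card (Pairs d F) := by omega
  rw [← this]
  exact Dvd.dvd.mul_right h 2

/-- The abstract no-fixed-pair argument. -/
theorem no_fixed_pair [Fintype F] (p : ℕ) [Fact p.Prime] [CharP F p] {r j : ℕ} [hr : Fact r.Prime] (hr2 : r ≠ 2) (hrp : r ≠ p) (hj : r ∣ Fintype.card F ^ j + 1)
    (f : (Fin d ⊕ Fin d → F) →ₗ[F] (Fin d ⊕ Fin d → F)) (hfr : f ^ r = 1) (hfs : ∀ u v, sympForm d F (f u) (f v) = sympForm d F u v)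
    (hker : finrank F (LinearMap.ker (f - 1)) + 2 * j = 2 * d)
    (U W : Submodule F (Fin d ⊕ Fin d → F)) (hc : IsCompl U W) (hU : ∀ u ∈ U, ∀ v ∈ U, sympForm d F u v = 0)
    (hW : ∀ u ∈ W, ∀ v ∈ W, sympForm d F u v = 0) (hfU : U.map f = U) (hfW : W.map f = W) : False := by
  classical
  set y : (Fin d ⊕ Fin d → F) →ₗ[F] (Fin d ⊕ Fin d → F) := f - 1 with hy
  have hyv : ∀ v, y v = f v - v := fun v => rfl
  have hr0 : (r : F) ≠ 0 := by
    intro h
    rw [CharP.cast_eq_zero_iff F p] at h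
    exact hrp ((Nat.prime_dvd_prime_iff_eq Fact.out hr.out).1 h).symm
  -- `y² v = 0 → y v = 0`
  have hyy : ∀ v, y (y v) = 0 → y v = 0 := by
    intro v hv
    have h1 : f (y v) = y v := by
      have := hyv (y v)
      rw [hv] at this
      exact (sub_eq_zero.1 this.symm)
    have h2 : ∀ k : ℕ, (f ^ k) v = v + (k : F) • y v := by
      intro k
      induction k with
      | zero => simp
      | succ k ih =>
        rw [pow_succ', Module.End.mul_apply, ih, map_add, map_smul, h1]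
        have : f v = v + y v := by rw [hyv]; abel
        rw [this]
        push_cast
        rw [add_smul, one_smul]
        abel
    have h3 := h2 r
    rw [hfr, Module.End.one_apply] at h3
    have h4 : (r : F) • y v = 0 := by
      have : v + (r : F) • y v = v + 0 := by rw [← h3, add_zero]
      exact add_left_cancel this
    exact (smul_eq_zero.1 h4).resolve_left hr0
  -- stability
  have hfU' : ∀ u ∈ U, f u ∈ U := fun u hu => by
    rw [← hfU]
    exact Submodule.mem_map_of_mem hu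
  have hfW' : ∀ u ∈ W, f u ∈ W := fun u hu => by
    rw [← hfW]
    exact Submodule.mem_map_of_mem hu
  set TU := U.map y with hTU
  set TW := W.map y with hTW
  have hTUU : TU ≤ U := by
    rintro _ ⟨u, hu, rfl⟩
    rw [hyv]
    exact U.sub_mem (hfU' u hu) hu
  have hTWW : TW ≤ W := by
    rintro _ ⟨u, hu, rfl⟩
    rw [hyv]
    exact W.sub_mem (hfW' u hu) hu
  -- orthogonality to the kernel
  have hperp : ∀ u k, y k = 0 → sympForm d F (y u) k = 0 := by
    intro u k hk
    have hfk : f k = k := sub_eq_zero.1 hk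
    rw [hyv, sympForm_sub_left]
    have := hfs u k
    rw [hfk] at this
    rw [this, sub_self]
  -- general bound
  have hbound : ∀ (A : Submodule F (Fin d ⊕ Fin d → F)), (∀ u ∈ A, ∀ v ∈ A, sympForm d F u v = 0) → A.map y ≤ A →
      finrank F (A.map y) ≤ j := by
    intro A hA hAy
    have h1 : A.map y ⊓ LinearMap.ker y = ⊥ := by
      rw [Submodule.eq_bot_iff]
      rintro _ ⟨⟨u, hu, rfl⟩, h2⟩
      exact hyy u h2
    have h2 : A.map y ⊔ LinearMap.ker y ≤ LinearMap.BilinForm.orthogonal (sB d F) (A.map y) := by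
      rw [sup_le_iff]
      constructor
      · intro v hv
        rw [LinearMap.BilinForm.mem_orthogonal_iff]
        intro u hu
        exact hA u (hAy hu) v (hAy hv)
      · intro v hv
        rw [LinearMap.BilinForm.mem_orthogonal_iff]
        rintro _ ⟨u, hu, rfl⟩
        exact hperp u v hv
    have h3 := Submodule.finrank_mono h2
    rw [LinearMap.BilinForm.finrank_orthogonal sB_nondeg, finrank_V] at h3
    have h4 := Submodule.finrank_sup_add_finrank_inf_eq (A.map y) (LinearMap.ker y)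
    rw [h1, finrank_bot] at h4
    have h5 := Submodule.finrank_le (A.map y)
    rw [finrank_V] at h5
    omega
  have hb1 : finrank F TU ≤ j := hbound U hU hTUU
  have hb2 : finrank F TW ≤ j := hbound W hW hTWW
  -- the sum
  have hsum : TU ⊔ TW = LinearMap.range y := by
    rw [hTU, hTW, ← Submodule.map_sup, hc.sup_eq_top, Submodule.map_top]
  have hdisj : TU ⊓ TW = ⊥ := by
    have := hc.inf_eq_bot
    rw [eq_bot_iff] at this ⊢
    exact le_trans (inf_le_inf hTUU hTWW) this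
  have hrange := LinearMap.finrank_range_add_finrank_ker y
  rw [finrank_V] at hrange
  have h4 := Submodule.finrank_sup_add_finrank_inf_eq TU TW
  rw [hdisj, finrank_bot, hsum] at h4
  have hTUj : finrank F TU = j := by omega
  -- fixed-point count
  have hfT : ∀ v ∈ TU, f v ∈ TU := by
    rintro _ ⟨u, hu, rfl⟩
    refine ⟨f u, hfU' u hu, ?_⟩
    rw [hyv, hyv, map_sub]
  let T : TU → TU := fun v => ⟨f v, hfT v v.2⟩
  have hTit : ∀ k (v : TU), (T^[k] v : TU).1 = (f ^ k) v.1 := by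
    intro k v
    induction k generalizing v with
    | zero => simp
    | succ k ih =>
      rw [Function.iterate_succ_apply, ih, pow_succ, Module.End.mul_apply]
  have hmod := card_modEq_fpf (F := F) (V := TU) (fun _ => (0 : F)) T (r := r) (0 : TU) rfl (by
      apply Subtype.ext
      show f 0 = 0
      exact map_zero f) (fun _ => rfl) (by
      intro v
      apply Subtype.ext
      rw [hTit, hfr]
      rfl) (by
      rintro ⟨_, ⟨u, hu, rfl⟩⟩ hv
      apply Subtype.ext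
      have h5 : f (y u) = y u := congrArg Subtype.val hv
      exact hyy u (by rw [hyv, h5, sub_self]))
  have hcard : Nat.card {v : TU // (0 : F) = 0} = Fintype.card F ^ j := by
    rw [Nat.card_congr (Equiv.subtypeUnivEquiv (fun _ => rfl)), Nat.card_eq_fintype_card, Module.card_eq_pow_finrank (K := F) (V := TU), hTUj]
  rw [hcard] at hmod
  have h6 : r ∣ 2 := by
    have h7 : Fintype.card F ^ j + 1 ≡ 1 + 1 [MOD r] := Nat.ModEq.add_right 1 hmod
    have h8 := (Nat.modEq_zero_iff_dvd.2 hj).symm.trans h7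
    exact Nat.modEq_zero_iff_dvd.1 h8.symm
  exact hr2 ((Nat.prime_dvd_prime_iff_eq hr.out Nat.prime_two).1 h6)

/-- The swap case is impossible. -/
theorem no_swap {r : ℕ} (hr : Odd r) (f : (Fin d ⊕ Fin d → F) →ₗ[F] (Fin d ⊕ Fin d → F)) (hfr : f ^ r = 1) (hd : 1 ≤ d)
    (U W : Submodule F (Fin d ⊕ Fin d → F)) (hc : IsCompl U W) (h1 : U.map f = W) (h2 : W.map f = U) : False := by
  have hk : ∀ k : ℕ, U.map (f ^ (2 * k)) = U ∧ U.map (f ^ (2 * k + 1)) = W := by
    intro k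
    induction k with
    | zero =>
      simp [h1, Module.End.one_eq_id]
    | succ k ih =>
      have e1 : U.map (f ^ (2 * (k + 1))) = U := by
        rw [show 2 * (k + 1) = (2 * k + 1) + 1 by ring, pow_succ', Module.End.mul_eq_comp, Submodule.map_comp, ih.2, h2]
      refine ⟨e1, ?_⟩
      rw [pow_succ', Module.End.mul_eq_comp, Submodule.map_comp, e1, h1]
  obtain ⟨k, rfl⟩ := hr
  have h3 := (hk k).2
  rw [hfr, Module.End.one_eq_id, Submodule.map_id] at h3
  subst h3
  have h4 : U = ⊥ := by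
    have := hc.inf_eq_bot
    rwa [inf_idem] at this
  have h5 := hc.sup_eq_top
  rw [h4, sup_idem] at h5
  have h6 : finrank F (⊥ : Submodule F (Fin d ⊕ Fin d → F)) = finrank F (⊤ : Submodule F (Fin d ⊕ Fin d → F)) := by rw [h5]
  rw [finrank_bot, finrank_top, finrank_V] at h6
  omega


section Model

open Cfsg.Agent.Lib.MinusModel

variable {K : Type*} [Field K] [Fintype K] [Algebra F K] [Fintype F]

/-- The alternating form on the field. -/
noncomputable def B1 (j : ℕ) (c : K) : K →ₗ[F] K →ₗ[F] F :=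
  LinearMap.mk₂ F (fun u v => Algebra.trace F K (c * u * sig F K j v))
    (fun u u' v => by rw [mul_add, add_mul, map_add])
    (fun a u v => by
      have e : c * (a • u) * sig F K j v = a • (c * u * sig F K j v) := by
        rw [Algebra.smul_def, Algebra.smul_def]
        ring
      rw [e, LinearMap.map_smul, smul_eq_mul])
    (fun u v v' => by rw [map_add, mul_add, map_add])
    (fun a u v => by
      have e : c * u * sig F K j (a • v) = a • (c * u * sig F K j v) := by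
        rw [map_smul (sig F K j) a v, Algebra.smul_def, Algebra.smul_def]
        ring
      rw [e, LinearMap.map_smul, smul_eq_mul])

theorem B1_apply (j : ℕ) (c u v : K) : B1 (F := F) j c u v = Algebra.trace F K (c * u * sig F K j v) := rfl

theorem B1_alt {j : ℕ} (hK : finrank F K = 2 * j) (h2 : (2 : F) ≠ 0) {c : K} (hc : sig F K j c = -c) (v : K) : B1 (F := F) j c v v = 0 := by
  rw [B1_apply]
  have h1 := Algebra.trace_eq_of_algEquiv (sig F K j) (c * v * sig F K j v)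
  rw [map_mul (sig F K j), map_mul (sig F K j), hc, sig_sig hK] at h1
  have h3 : -c * sig F K j v * v = -(c * v * sig F K j v) := by ring
  rw [h3, map_neg] at h1
  have h4 : (2 : F) * Algebra.trace F K (c * v * sig F K j v) = 0 := by
    have := h1
    rw [two_mul]
    nth_rewrite 1 [← h1]
    ring
  exact (mul_eq_zero.1 h4).resolve_left h2

theorem B1_nd {j : ℕ} (hK : finrank F K = 2 * j) {c : K} (hc : c ≠ 0) (u : K) (hu : ∀ w, B1 (F := F) j c u w = 0) : u = 0 := by
  have h1 : c * u = 0 := by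
    apply (traceForm_nondegenerate F K).1
    intro z
    have := hu (sig F K j z)
    rw [B1_apply, sig_sig hK] at this
    simpa [Algebra.traceForm_apply] using this
  exact (mul_eq_zero.1 h1).resolve_left hc

theorem B1_mul {j : ℕ} (c ζ : K) (hζ : ζ * sig F K j ζ = 1) (u v : K) : B1 (F := F) j c (ζ * u) (ζ * v) = B1 (F := F) j c u v := by
  rw [B1_apply, B1_apply, map_mul (sig F K j)]
  congr 1
  calc c * (ζ * u) * (sig F K j ζ * sig F K j v) = (ζ * sig F K j ζ) * (c * u * sig F K j v) := by ring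
    _ = _ := by rw [hζ, one_mul]

/-- The form on the sum. -/
noncomputable def Bs (j m : ℕ) (c : K) : (K × (Fin m ⊕ Fin m → F)) →ₗ[F] (K × (Fin m ⊕ Fin m → F)) →ₗ[F] F :=
  (B1 j c).compl₁₂ (LinearMap.fst F K _) (LinearMap.fst F K _) + (sB m F).compl₁₂ (LinearMap.snd F K _) (LinearMap.snd F K _)

theorem Bs_apply (j m : ℕ) (c : K) (a b : K × (Fin m ⊕ Fin m → F)) :
    Bs (F := F) j m c a b = B1 j c a.1 b.1 + sympForm m F a.2 b.2 := rfl

/-- Existence of the element `x`, given the model. -/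
theorem exists_x_of_model {j m : ℕ} (hK : finrank F K = 2 * j) (h2 : (2 : F) ≠ 0) (ζ : K) {r : ℕ} (hζr : ζ ^ r = 1)
    (hζ : ζ * sig F K j ζ = 1) (hne : ζ ≠ sig F K j ζ) :
    ∃ x : symplecticGroup (Fin (j + m)) F, x ^ r = 1 ∧
      (∀ z : F, (x : Matrix (Fin (j + m) ⊕ Fin (j + m)) (Fin (j + m) ⊕ Fin (j + m)) F) ≠ z • (1 : Matrix (Fin (j + m) ⊕ Fin (j + m)) (Fin (j + m) ⊕ Fin (j + m)) F)) ∧
      finrank F (LinearMap.ker (Matrix.toLin' (x : Matrix (Fin (j + m) ⊕ Fin (j + m)) (Fin (j + m) ⊕ Fin (j + m)) F) - 1)) + 2 * j = 2 * (j + m) := by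
  classical
  set c : K := ζ - sig F K j ζ with hc
  have hc0 : c ≠ 0 := sub_ne_zero.2 hne
  have hσc : sig F K j c = -c := by
    rw [hc, map_sub, sig_sig hK]
    ring
  have hfin : finrank F (K × (Fin m ⊕ Fin m → F)) = 2 * (j + m) := by
    rw [Module.finrank_prod, hK, finrank_V]
    ring
  obtain ⟨E, hE⟩ := Cfsg.Agent.Lib.SympEquiv.exists_symp_equiv (Bs (F := F) j m c)
    (by
      intro v
      rw [Bs_apply, B1_alt hK h2 hσc, sympForm_self, add_zero])
    (by
      intro v hv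
      apply Prod.ext
      · apply B1_nd hK hc0
        intro w
        have := hv (w, 0)
        rw [Bs_apply] at this
        simpa [sympForm_zero_right] using this
      · apply symp_nd
        intro w
        have := hv (0, w)
        rw [Bs_apply] at this
        simpa [B1_apply] using this) hfin
  let T : (K × (Fin m ⊕ Fin m → F)) →ₗ[F] (K × (Fin m ⊕ Fin m → F)) :=
    LinearMap.prodMap (LinearMap.mulLeft F ζ) LinearMap.id
  have hT : ∀ a, T a = (ζ * a.1, a.2) := fun a => rfl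
  let g : (Fin (j + m) ⊕ Fin (j + m) → F) →ₗ[F] (Fin (j + m) ⊕ Fin (j + m) → F) :=
    (E.symm : (K × (Fin m ⊕ Fin m → F)) →ₗ[F] (Fin (j + m) ⊕ Fin (j + m) → F)) ∘ₗ T ∘ₗ (E : (Fin (j + m) ⊕ Fin (j + m) → F) →ₗ[F] (K × (Fin m ⊕ Fin m → F)))
  have hg : ∀ v, g v = E.symm (T (E v)) := fun v => rfl
  have hgs : ∀ u v, sympForm (j + m) F (g u) (g v) = sympForm (j + m) F u v := by
    intro u v
    rw [← hE, ← hE, hg, hg, LinearEquiv.apply_symm_apply, LinearEquiv.apply_symm_apply, Bs_apply, Bs_apply, hT, hT]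
    simp only
    rw [B1_mul c ζ hζ]
  obtain ⟨x, hx⟩ := Cfsg.Agent.Lib.SympWitt.exists_sp_of_equiv g hgs
  have hxk : ∀ (k : ℕ) (v : Fin (j + m) ⊕ Fin (j + m) → F), E (((x ^ k : symplecticGroup (Fin (j + m)) F) : Matrix (Fin (j + m) ⊕ Fin (j + m)) (Fin (j + m) ⊕ Fin (j + m)) F) *ᵥ v) =
      (ζ ^ k * (E v).1, (E v).2) := by
    intro k
    induction k with
    | zero =>
      intro v
      simp
    | succ k ih =>
      intro v
      rw [pow_succ]
      show E ((((x ^ k : symplecticGroup (Fin (j + m)) F) : Matrix (Fin (j + m) ⊕ Fin (j + m)) (Fin (j + m) ⊕ Fin (j + m)) F) * (x : Matrix (Fin (j + m) ⊕ Fin (j + m)) (Fin (j + m) ⊕ Fin (j + m)) F)) *ᵥ v) = _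
      rw [← Matrix.mulVec_mulVec, ih, hx, hg, LinearEquiv.apply_symm_apply, hT]
      simp only
      rw [pow_succ, mul_assoc]
  have hxE : ∀ v, E ((x : Matrix (Fin (j + m) ⊕ Fin (j + m)) (Fin (j + m) ⊕ Fin (j + m)) F) *ᵥ v) = (ζ * (E v).1, (E v).2) := by
    intro v
    rw [hx, hg, LinearEquiv.apply_symm_apply, hT]
  refine ⟨x, ?_, ?_, ?_⟩
  · apply Subtype.ext
    apply Matrix.toLin'.injective
    apply LinearMap.ext
    intro v
    apply E.injective
    rw [Matrix.toLin'_apply, hxk, hζr, one_mul]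
    simp
  · intro z hz
    have h1 := hxE (E.symm (1, 0))
    rw [hz, Matrix.smul_mulVec, Matrix.one_mulVec, map_smul, LinearEquiv.apply_symm_apply] at h1
    have h3 : z • (1 : K) = ζ := by
      have := congrArg Prod.fst h1
      simpa using this
    apply hne
    rw [← h3, map_smul, map_one]
  · let φ : LinearMap.ker (Matrix.toLin' (x : Matrix (Fin (j + m) ⊕ Fin (j + m)) (Fin (j + m) ⊕ Fin (j + m)) F) - 1) →ₗ[F] (Fin m ⊕ Fin m → F) :=
      (LinearMap.snd F K _) ∘ₗ (E : (Fin (j + m) ⊕ Fin (j + m) → F) →ₗ[F] (K × (Fin m ⊕ Fin m → F))) ∘ₗ (Submodule.subtype _)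
    have hφ : ∀ v, φ v = (E v.1).2 := fun v => rfl
    have hmem : ∀ v, v ∈ LinearMap.ker (Matrix.toLin' (x : Matrix (Fin (j + m) ⊕ Fin (j + m)) (Fin (j + m) ⊕ Fin (j + m)) F) - 1) ↔ (x : Matrix (Fin (j + m) ⊕ Fin (j + m)) (Fin (j + m) ⊕ Fin (j + m)) F) *ᵥ v = v := by
      intro v
      rw [LinearMap.mem_ker, LinearMap.sub_apply, Matrix.toLin'_apply, Module.End.one_apply, sub_eq_zero]
    have hζ1 : ζ ≠ 1 := by
      intro h
      apply hne
      rw [h, map_one]
    have hb : Function.Bijective φ := by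
      constructor
      · rw [← LinearMap.ker_eq_bot, LinearMap.ker_eq_bot']
        rintro ⟨v, hv⟩ h
        apply Subtype.ext
        rw [hφ] at h
        simp only at h
        have h1 := hxE v
        rw [(hmem v).1 hv] at h1
        have h3 : (E v).1 = ζ * (E v).1 := congrArg Prod.fst h1
        have h4 : (ζ - 1) * (E v).1 = 0 := by
          rw [sub_mul, one_mul, ← h3, sub_self]
        have h5 : (E v).1 = 0 := (mul_eq_zero.1 h4).resolve_left (sub_ne_zero.2 hζ1)
        apply E.injective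
        show E v = E 0
        rw [map_zero]
        exact Prod.ext h5 h
      · intro h
        refine ⟨⟨E.symm (0, h), ?_⟩, ?_⟩
        · rw [hmem]
          apply E.injective
          rw [hxE, LinearEquiv.apply_symm_apply]
          simp
        · rw [hφ]
          simp
    have h3 := (LinearEquiv.ofBijective φ hb).finrank_eq
    rw [h3, finrank_V]
    ring

end Model

theorem two_ne_zero_of_odd [Fintype F] (p : ℕ) [Fact p.Prime] [CharP F p] (hodd : Odd (Fintype.card F)) : (2 : F) ≠ 0 := by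
  intro h
  have h1 : ((2 : ℕ) : F) = 0 := by exact_mod_cast h
  rw [CharP.cast_eq_zero_iff F p] at h1
  have h2 : p = 2 := (Nat.prime_dvd_prime_iff_eq Fact.out Nat.prime_two).1 h1
  obtain ⟨n, hn⟩ := FiniteField.card F p
  rw [hn.2, h2] at hodd
  rw [Nat.odd_iff] at hodd
  have h4 : 2 ∣ 2 ^ (n : ℕ) := dvd_pow_self 2 n.pos.ne'
  omega

/-- Existence of the element `x`. -/
theorem exists_x [Fintype F] (p : ℕ) [Fact p.Prime] [CharP F p] {j : ℕ} {r : ℕ} [hr : Fact r.Prime] (hr2 : r ≠ 2) (h2 : (2 : F) ≠ 0)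
    (hj1 : 1 ≤ j) (hjd : j ≤ d) (hj : r ∣ Fintype.card F ^ j + 1) :
    ∃ x : symplecticGroup (Fin d) F, x ^ r = 1 ∧
      (∀ z : F, (x : Matrix (Fin d ⊕ Fin d) (Fin d ⊕ Fin d) F) ≠ z • (1 : Matrix (Fin d ⊕ Fin d) (Fin d ⊕ Fin d) F)) ∧
      finrank F (LinearMap.ker (Matrix.toLin' (x : Matrix (Fin d ⊕ Fin d) (Fin d ⊕ Fin d) F) - 1)) + 2 * j = 2 * d := by
  classical
  open Cfsg.Agent.Lib.MinusModel in
  obtain ⟨m, rfl⟩ := Nat.exists_eq_add_of_le hjd
  have h2d : 2 * j ≠ 0 := by omega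
  haveI : NeZero (2 * j) := ⟨h2d⟩
  let K := FiniteField.Extension F p (2 * j)
  haveI : Fintype K := Fintype.ofFinite K
  have hK : finrank F K = 2 * j := FiniteField.finrank_extension F p (2 * j)
  have hq : 1 ≤ Fintype.card F ^ j := Nat.one_le_pow _ _ Fintype.card_pos
  have h1 : r ∣ Nat.card Kˣ := by
    rw [Nat.card_eq_fintype_card, Fintype.card_units, Cfsg.Agent.Lib.MinusModel.card_K hK]
    have : (Fintype.card F ^ j) ^ 2 - 1 = (Fintype.card F ^ j + 1) * (Fintype.card F ^ j - 1) := by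
      zify [hq, Nat.one_le_pow 2 _ hq]
      ring
    rw [this]
    exact Dvd.dvd.mul_right hj _
  obtain ⟨ζ, hζ⟩ := exists_prime_orderOf_dvd_card' r h1
  have hζr : ((ζ : K)) ^ r = 1 := by
    rw [← Units.val_pow_eq_pow_val, ← hζ, pow_orderOf_eq_one, Units.val_one]
  have hζ1 : (ζ : K) ≠ 1 := by
    intro h
    have : ζ = 1 := Units.ext h
    rw [this, orderOf_one] at hζ
    exact (Fact.out : r.Prime).one_lt.ne hζ
  have hnorm : (ζ : K) * Cfsg.Agent.Lib.MinusModel.sig F K j ζ = 1 := by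
    rw [Cfsg.Agent.Lib.MinusModel.sig_apply, ← pow_succ']
    obtain ⟨c, hc⟩ := hj
    rw [hc, pow_mul, hζr, one_pow]
  have hne : (ζ : K) ≠ Cfsg.Agent.Lib.MinusModel.sig F K j ζ := by
    intro h
    rw [← h] at hnorm
    have hrodd : Odd r := hr.out.odd_of_ne_two hr2
    obtain ⟨k, hk⟩ := hrodd
    apply hζ1
    have h3 : (ζ : K) ^ r = ζ := by
      rw [hk, pow_succ, pow_mul, pow_two, hnorm, one_pow, one_mul]
    rw [← h3, hζr]
  exact exists_x_of_model hK h2 (ζ : K) hζr hnorm hne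



/-- Derangements of odd prime order of PSp_n(q), q odd, on pairs of complementary totally isotropic subspaces. Here `T = PSp_n(q)`, `n = 2d ≥ 4`, `q` odd, realised through the symplectic matrices over the field `F` with `q` elements; Ω is the set of unordered pairs `{U, W}` of complementary totally isotropic `d`-spaces (`F^n = U ⊕ W`), whose stabilizers are the subgroups of type GL_d(q).2 (maximal except in some small cases; maximality is not assumed); an element of `T` of prime order `r` (a symplectic matrix `x` with `x^r` scalar, `x` not scalar) fixes such a pair when it fixes or interchanges `U` and `W`. For every odd prime `r ≠ p` dividing the number of such pairs, some element of `T` of order `r` fixes no such pair (the action is never `r`-elusive for odd `r ≠ p`). -/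
theorem result {F : Type*} [Field F] [Fintype F] {p : ℕ} [Fact p.Prime] [CharP F p] {q : ℕ} (hq : Fintype.card F = q)
    (d : ℕ) (hd : 2 ≤ d) (hT : (d, q) ≠ (2, 2)) (hodd : Odd q)
    (r : ℕ) [Fact r.Prime] (hr2 : r ≠ 2) (hrp : r ≠ p) (hΩ : r ∣ Nat.card {P : Submodule F (Fin d ⊕ Fin d → F) × Submodule F (Fin d ⊕ Fin d → F) // IsCompl P.1 P.2 ∧ (∀ u ∈ P.1, ∀ v ∈ P.1, Cfsg.sympForm d F u v = 0) ∧ (∀ u ∈ P.2, ∀ v ∈ P.2, Cfsg.sympForm d F u v = 0)} / 2) :
    ∃ x : ↥(Matrix.symplecticGroup (Fin d) F),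
      (∃ z : F, ((x ^ r : ↥(Matrix.symplecticGroup (Fin d) F)) : Matrix (Fin d ⊕ Fin d) (Fin d ⊕ Fin d) F) = z • (1 : Matrix (Fin d ⊕ Fin d) (Fin d ⊕ Fin d) F)) ∧
      (∀ z : F, (x : Matrix (Fin d ⊕ Fin d) (Fin d ⊕ Fin d) F) ≠ z • (1 : Matrix (Fin d ⊕ Fin d) (Fin d ⊕ Fin d) F)) ∧
      ¬ (∃ U W : Submodule F (Fin d ⊕ Fin d → F), IsCompl U W ∧ (∀ u ∈ U, ∀ v ∈ U, Cfsg.sympForm d F u v = 0) ∧ (∀ u ∈ W, ∀ v ∈ W, Cfsg.sympForm d F u v = 0) ∧
        ((U.map (Matrix.toLin' (x : Matrix (Fin d ⊕ Fin d) (Fin d ⊕ Fin d) F)) = U ∧ W.map (Matrix.toLin' (x : Matrix (Fin d ⊕ Fin d) (Fin d ⊕ Fin d) F)) = W) ∨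
         (U.map (Matrix.toLin' (x : Matrix (Fin d ⊕ Fin d) (Fin d ⊕ Fin d) F)) = W ∧ W.map (Matrix.toLin' (x : Matrix (Fin d ⊕ Fin d) (Fin d ⊕ Fin d) F)) = U))) := by
  classical
  subst hq
  have h2 : (2 : F) ≠ 0 := two_ne_zero_of_odd p hodd
  obtain ⟨j, hj1, hjd, hj⟩ := exists_j (d := d) p hrp (dvd_of_half (by omega) hΩ)
  obtain ⟨x, hxr, hns, hker⟩ := exists_x (d := d) p hr2 h2 hj1 hjd hj
  refine ⟨x, ⟨1, by rw [hxr]; simp⟩, hns, ?_⟩
  have hfr : (Matrix.toLin' (x : Matrix (Fin d ⊕ Fin d) (Fin d ⊕ Fin d) F)) ^ r = 1 := by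
    have hk : ∀ k : ℕ, (Matrix.toLin' (x : Matrix (Fin d ⊕ Fin d) (Fin d ⊕ Fin d) F)) ^ k = Matrix.toLin' ((x ^ k : Matrix.symplecticGroup (Fin d) F) : Matrix (Fin d ⊕ Fin d) (Fin d ⊕ Fin d) F) := by
      intro k
      induction k with
      | zero => simp [Module.End.one_eq_id]
      | succ k ih =>
        rw [pow_succ, pow_succ, ih]
        exact (Matrix.toLin'_mul _ _).symm
    rw [hk, hxr]
    simp [Module.End.one_eq_id]
  have hfs : ∀ u v, Cfsg.sympForm d F (Matrix.toLin' (x : Matrix (Fin d ⊕ Fin d) (Fin d ⊕ Fin d) F) u) (Matrix.toLin' (x : Matrix (Fin d ⊕ Fin d) (Fin d ⊕ Fin d) F) v) = Cfsg.sympForm d F u v := by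
    intro u v
    exact (Cfsg.Agent.Lib.SympForm.mem_symplecticGroup_iff_preserves _).1 x.2 u v
  rintro ⟨U, W, hc, hU, hW, h | h⟩
  · exact no_fixed_pair p hr2 hrp hj _ hfr hfs hker U W hc hU hW h.1 h.2
  · exact no_swap ((Fact.out : r.Prime).odd_of_ne_two hr2) _ hfr (by omega) U W hc h.1 h.2

end Cfsg.Agent.S5963
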