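import Mathlib
import Cfsg.Agent.Lib.IsomBlock
import Cfsg.Agent.Lib.SympWitt
import Cfsg.Agent.Lib.SympEquiv
import Cfsg.Agent.Lib.SpOrder
import Cfsg.Agent.S5983
import Cfsg.Agent.S5963
import Cfsg.Statements.S5961
-- import your own Cfsg.Agent.* helpers here

set_option autoImplicit false
open scoped MatrixGroups
open Cfsg

namespace Cfsg.Agent.S5961

open Matrix Module Polynomial
open Cfsg.Agent.Lib.IsomBlock

set_option linter.unusedSimpArgs false
set_option linter.unusedVariables false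
set_option linter.unusedSectionVars false

universe u

section abstractSplit

variable {F : Type*} [Field F] {V : Type u} [AddCommGroup V] [Module F V] [FiniteDimensional F V] {B : V →ₗ[F] V →ₗ[F] F} {T : V →ₗ[F] V}

theorem nd_bot (B : V →ₗ[F] V →ₗ[F] F) : NDOn B ⊥ := fun u hu _ => hu

/-- Nondegenerate subspaces of every even dimension. -/
theorem exists_nd_sub (halt : ∀ v, B v v = 0) : ∀ (e : ℕ) (U : Submodule F V), NDOn B U → Even e → e ≤ finrank F U →
    ∃ W ≤ U, NDOn B W ∧ finrank F W = e := by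
  intro e
  induction e using Nat.strong_induction_on with
  | _ e ih =>
    intro U hU he hle
    have hB : GoodForm B := Or.inl halt
    obtain ⟨k, hk⟩ := he
    rcases Nat.eq_zero_or_pos k with rfl | hkpos
    · exact ⟨⊥, bot_le, nd_bot B, by simp [hk]⟩
    have hbot : U ≠ ⊥ := by
      rintro rfl
      rw [finrank_bot] at hle
      omega
    obtain ⟨u, hu, hu0⟩ := (Submodule.ne_bot_iff U).mp hbot
    obtain ⟨w, hw, huw⟩ : ∃ w ∈ U, B u w ≠ 0 := by
      by_contra hall
      apply hu0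
      apply hU u hu
      intro w hw
      by_contra hne
      exact hall ⟨w, hw, hne⟩
    have hanti : ∀ a b, B a b = - B b a := by
      intro a b
      have h1 := halt (a + b)
      simp only [map_add, LinearMap.add_apply, halt, zero_add, add_zero] at h1
      linear_combination h1
    let P : Submodule F V := Submodule.span F (Set.range ![u, w])
    have hli : LinearIndependent F ![u, w] := by
      rw [LinearIndependent.pair_iff]
      intro a b hab
      have h1 := congrArg (fun y => B y w) hab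
      have h2 := congrArg (fun y => B y u) hab
      simp only [map_add, map_smul, LinearMap.add_apply, LinearMap.smul_apply, halt, smul_eq_mul, mul_zero, add_zero, zero_add, map_zero, LinearMap.zero_apply] at h1 h2
      rw [hanti w u] at h2
      have ha : a = 0 := (mul_eq_zero.mp h1).resolve_right huw
      have hb : b = 0 := by
        have h3 : b * B u w = 0 := by linear_combination -h2
        exact (mul_eq_zero.mp h3).resolve_right huw
      exact ⟨ha, hb⟩
    have hPfin : finrank F P = 2 := by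
      have := finrank_span_eq_card hli
      simpa using this
    have hmemP : ∀ y ∈ P, ∃ a b : F, y = a • u + b • w := by
      intro y hy
      simp only [P, Matrix.range_cons, Matrix.range_empty, Set.union_empty, Set.singleton_union] at hy
      obtain ⟨a, b, rfl⟩ := Submodule.mem_span_pair.mp hy
      exact ⟨a, b, rfl⟩
    have huP : u ∈ P := Submodule.subset_span ⟨0, rfl⟩
    have hwP : w ∈ P := Submodule.subset_span ⟨1, rfl⟩
    have hPU : P ≤ U := by
      apply Submodule.span_le.mpr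
      rintro _ ⟨i, rfl⟩
      fin_cases i
      · exact hu
      · exact hw
    have hPnd : NDOn B P := by
      intro y hy h0
      obtain ⟨a, b, rfl⟩ := hmemP y hy
      have h1 := h0 w hwP
      have h2 := h0 u huP
      simp only [map_add, map_smul, LinearMap.add_apply, LinearMap.smul_apply, halt, smul_eq_mul, mul_zero, add_zero, zero_add] at h1 h2
      rw [hanti w u] at h2
      have ha : a = 0 := (mul_eq_zero.mp h1).resolve_right huw
      have hb : b = 0 := by
        have h3 : b * B u w = 0 := by linear_combination -h2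
        exact (mul_eq_zero.mp h3).resolve_right huw
      rw [ha, hb]
      simp
    have hU'fin := finrank_rel hB hPU hPnd
    have hlt : e - 2 < e := by omega
    obtain ⟨W', hW'U, hW'nd, hW'fin⟩ := ih (e - 2) hlt (U ⊓ perp B P) (nd_rel hB hPU hPnd hU) ⟨k - 1, by omega⟩ (by omega)
    have horth : ∀ a ∈ P, ∀ b ∈ W', B a b = 0 := fun a ha b hb => (hW'U hb).2 a ha
    refine ⟨P ⊔ W', sup_le hPU (hW'U.trans inf_le_left), nd_sup hB hPnd hW'nd horth, ?_⟩
    rw [finrank_sup_orth hB hPnd horth, hPfin, hW'fin]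
    omega

variable [Fintype F] {r q : ℕ}

theorem fixS_rel_of_free (hiso : ∀ u v, B (T u) (T v) = B u v) {U W : Submodule F V} (hWinv : InvOn T W) (hW : FixFree T W) :
    fixS T (U ⊓ perp B W) = fixS T U := by
  apply le_antisymm
  · intro v hv
    rw [mem_fixS] at hv ⊢
    exact ⟨hv.1.1, hv.2⟩
  · intro v hv
    rw [mem_fixS] at hv ⊢
    exact ⟨⟨hv.1, fun w hw => fix_orth_free hiso hWinv hW hv.2 w hw⟩, hv.2⟩

theorem perp_sup (W W' : Submodule F V) : perp B (W ⊔ W') = perp B W ⊓ perp B W' := by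
  ext v
  constructor
  · intro h
    exact ⟨fun w hw => h w (Submodule.mem_sup_left hw), fun w hw => h w (Submodule.mem_sup_right hw)⟩
  · rintro ⟨h1, h2⟩ w hw
    obtain ⟨a, ha, b, hb, rfl⟩ := Submodule.mem_sup.mp hw
    rw [map_add, LinearMap.add_apply, h1 a ha, h2 b hb, add_zero]

/-- The inductive choice of one summand. -/
theorem exists_sub_dim [hrf : Fact r.Prime] (hq : Fintype.card F = q) (hr2 : r ≠ 2) (hrF : (r : F) ≠ 0) (halt : ∀ v, B v v = 0)
    (hiso : ∀ u v, B (T u) (T v) = B u v) (hTr : T ^ r = 1) : ∀ (a : ℕ) (U : Submodule F V), NDOn B U → InvOn T U → a ≤ finrank F U → Even a →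
      a % blockDim r q ≤ finrank F (fixS T U) →
      ∃ W ≤ U, NDOn B W ∧ InvOn T W ∧ finrank F W = a ∧
        (finrank F (fixS T U) ≤ finrank F (fixS T (U ⊓ perp B W)) + a % blockDim r q ∨ ∀ u ∈ U ⊓ perp B W, T u = u) := by
  intro a
  have hB : GoodForm B := Or.inl halt
  have hr0 : r ≠ 0 := hrf.out.ne_zero
  have hcpos := blockDim_pos hq hrF
  induction a using Nat.strong_induction_on with
  | _ a ih =>
    intro U hU hinv ha hea hfx
    by_cases hmove : ∃ u ∈ U, T u ≠ u
    · by_cases hac : a < blockDim r q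
      · rw [Nat.mod_eq_of_lt hac] at hfx ⊢
        have hndfix := nd_fixS hB hiso hr0 hrF hTr hU hinv
        obtain ⟨W, hWU, hWnd, hWfin⟩ := exists_nd_sub halt a (fixS T U) hndfix hea hfx
        refine ⟨W, hWU.trans (fixS_le U), hWnd, ?_, hWfin, Or.inl ?_⟩
        · intro w hw
          rw [(mem_fixS.mp (hWU hw)).2]
          exact hw
        · have h1 := finrank_rel hB hWU hWnd
          have h2 : fixS T (U ⊓ perp B W) = fixS T U ⊓ perp B W := by
            ext v
            simp only [mem_fixS, Submodule.mem_inf]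
            tauto
          rw [h2, ← h1, hWfin]
          omega
      · have hca : blockDim r q ≤ a := not_lt.mp hac
        obtain ⟨W₁, hW₁U, hW₁inv, hW₁nd, hW₁free, hW₁fin⟩ := exists_block_rel hq hr2 hrF hB hiso hTr hU hinv hmove
        change finrank F W₁ = blockDim r q at hW₁fin
        have h1 := finrank_rel hB hW₁U hW₁nd
        have hfx1 := fixS_rel_of_free (U := U) hiso hW₁inv hW₁free
        have hmod : (a - blockDim r q) % blockDim r q = a % blockDim r q := (Nat.mod_eq_sub_mod hca).symm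
        have hea' : Even (a - blockDim r q) := by
          rw [Nat.even_sub hca]
          exact iff_of_true hea (blockDim_even r q)
        obtain ⟨W₂, hW₂U, hW₂nd, hW₂inv, hW₂fin, hW₂c⟩ := ih (a - blockDim r q) (by omega) (U ⊓ perp B W₁) (nd_rel hB hW₁U hW₁nd hU)
          (inv_inf hinv (inv_perp hiso hr0 hTr hW₁inv)) (by omega) hea' (by rw [hmod, hfx1]; exact hfx)
        have horth : ∀ a ∈ W₁, ∀ b ∈ W₂, B a b = 0 := fun a ha b hb => (hW₂U hb).2 a ha
        have hperp : U ⊓ perp B (W₁ ⊔ W₂) = (U ⊓ perp B W₁) ⊓ perp B W₂ := by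
          rw [perp_sup, inf_assoc]
        refine ⟨W₁ ⊔ W₂, sup_le hW₁U (hW₂U.trans inf_le_left), nd_sup hB hW₁nd hW₂nd horth, ?_, ?_, ?_⟩
        · intro z hz
          obtain ⟨x, hx, y, hy, rfl⟩ := Submodule.mem_sup.mp hz
          rw [map_add]
          exact Submodule.add_mem_sup (hW₁inv x hx) (hW₂inv y hy)
        · rw [finrank_sup_orth hB hW₁nd horth, hW₁fin, hW₂fin]
          omega
        · rw [hperp]
          rcases hW₂c with h3 | h3
          · left
            rw [hfx1, hmod] at h3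
            exact h3
          · exact Or.inr h3
    · have hall : ∀ u ∈ U, T u = u := by
        intro u hu
        by_contra hne
        exact hmove ⟨u, hu, hne⟩
      obtain ⟨W, hWU, hWnd, hWfin⟩ := exists_nd_sub halt a U hU hea ha
      refine ⟨W, hWU, hWnd, ?_, hWfin, Or.inr fun u hu => hall u hu.1⟩
      intro w hw
      rw [hall w (hWU hw)]
      exact hw

/-- The inductive choice of all summands. -/
theorem exists_split [hrf : Fact r.Prime] (hq : Fintype.card F = q) (hr2 : r ≠ 2) (hrF : (r : F) ≠ 0) (halt : ∀ v, B v v = 0)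
    (hiso : ∀ u v, B (T u) (T v) = B u v) (hTr : T ^ r = 1) (a : ℕ) (hea : Even a) : ∀ (t : ℕ) (U : Submodule F V), NDOn B U → InvOn T U → finrank F U = t * a →
      t * (a % blockDim r q) ≤ finrank F (fixS T U) →
      ∃ D : Fin t → Submodule F V, (∀ j, D j ≤ U ∧ NDOn B (D j) ∧ InvOn T (D j) ∧ finrank F (D j) = a) ∧
        (∀ j l, j ≠ l → ∀ u ∈ D j, ∀ v ∈ D l, B u v = 0) ∧ iSup D = U := by
  have hB : GoodForm B := Or.inl halt
  have hr0 : r ≠ 0 := hrf.out.ne_zero
  intro t
  induction t with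
  | zero =>
    intro U hU hinv hfin hfx
    refine ⟨Fin.elim0, fun j => j.elim0, fun j => j.elim0, ?_⟩
    rw [Nat.zero_mul] at hfin
    have : U = ⊥ := Submodule.finrank_eq_zero.mp hfin
    rw [this, iSup_of_empty]
  | succ t ih =>
    intro U hU hinv hfin hfx
    have hale : a ≤ finrank F U := by
      rw [hfin]
      nlinarith
    have hmodle : a % blockDim r q ≤ finrank F (fixS T U) := by
      have : (t + 1) * (a % blockDim r q) = t * (a % blockDim r q) + a % blockDim r q := by ring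
      omega
    obtain ⟨W, hWU, hWnd, hWinv, hWfin, hWc⟩ := exists_sub_dim hq hr2 hrF halt hiso hTr a U hU hinv hale hea hmodle
    have h1 := finrank_rel hB hWU hWnd
    have hfin' : finrank F (U ⊓ perp B W : Submodule F V) = t * a := by
      have : (t + 1) * a = t * a + a := by ring
      omega
    have hfx' : t * (a % blockDim r q) ≤ finrank F (fixS T (U ⊓ perp B W)) := by
      rcases hWc with h2 | h2
      · have : (t + 1) * (a % blockDim r q) = t * (a % blockDim r q) + a % blockDim r q := by ring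
        omega
      · have h3 : fixS T (U ⊓ perp B W) = U ⊓ perp B W := by
          apply le_antisymm (fixS_le _)
          intro v hv
          exact mem_fixS.mpr ⟨hv, h2 v hv⟩
        rw [h3, hfin']
        exact Nat.mul_le_mul_left t (by
          rcases Nat.eq_zero_or_pos (blockDim r q) with h4 | h4
          · rw [h4, Nat.mod_zero]
          · exact Nat.mod_le _ _)
    obtain ⟨D', hD'1, hD'2, hD'3⟩ := ih (U ⊓ perp B W) (nd_rel hB hWU hWnd hU) (inv_inf hinv (inv_perp hiso hr0 hTr hWinv)) hfin' hfx'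
    refine ⟨Fin.cons W D', ?_, ?_, ?_⟩
    · intro j
      refine Fin.cases ?_ (fun j => ?_) j
      · exact ⟨hWU, hWnd, hWinv, hWfin⟩
      · obtain ⟨h2, h3, h4, h5⟩ := hD'1 j
        exact ⟨h2.trans inf_le_left, h3, h4, h5⟩
    · intro j l
      refine Fin.cases ?_ (fun j => ?_) j
      · refine Fin.cases ?_ (fun l => ?_) l
        · intro h
          exact absurd rfl h
        · intro _ u hu v hv
          exact ((hD'1 l).1 hv).2 u hu
      · refine Fin.cases ?_ (fun l => ?_) l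
        · intro _ u hu v hv
          exact hB.refl (((hD'1 j).1 hu).2 v hv)
        · intro hjl u hu v hv
          exact hD'2 j l (fun h => hjl (by rw [h])) u hu v hv
    · have h5 : iSup (Fin.cons W D' : Fin (t + 1) → Submodule F V) = W ⊔ iSup D' := by
        apply le_antisymm
        · apply iSup_le
          intro j
          refine Fin.cases ?_ (fun j => ?_) j
          · exact le_sup_left
          · exact (le_iSup D' j).trans le_sup_right
        · apply sup_le
          · exact le_iSup (Fin.cons W D' : Fin (t + 1) → Submodule F V) 0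
          · apply iSup_le
            intro j
            exact le_iSup (Fin.cons W D' : Fin (t + 1) → Submodule F V) j.succ
      rw [h5, hD'3]
      exact sup_rel hB hWU hWnd

end abstractSplit

section orbit

variable {F : Type*} [Field F] {V : Type u} [AddCommGroup V] [Module F V] [FiniteDimensional F V] {B : V →ₗ[F] V →ₗ[F] F} {T : V →ₗ[F] V}
  {t a r : ℕ}

theorem D_ne (hB : GoodForm B) {D : Fin t → Submodule F V} (hD : ∀ j, NDOn B (D j)) (hfin : ∀ j, finrank F (D j) = a) (ha : 0 < a)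
    (horth : ∀ j l, j ≠ l → ∀ u ∈ D j, ∀ v ∈ D l, B u v = 0) {j l : Fin t} (h : ∃ u ∈ D j, u ≠ 0 ∧ u ∈ D l) : j = l := by
  by_contra hjl
  obtain ⟨u, hu, hu0, hul⟩ := h
  exact hu0 (hD j u hu fun w hw => hB.refl (horth j l hjl w hw u hul))

theorem exists_ne_zero_D {D : Fin t → Submodule F V} (hfin : ∀ j, finrank F (D j) = a) (ha : 0 < a) (j : Fin t) : ∃ u ∈ D j, u ≠ 0 := by
  have h0 : D j ≠ ⊥ := by
    intro h
    have := hfin j
    rw [h, finrank_bot] at this
    omega
  exact (Submodule.ne_bot_iff _).mp h0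

/-- The orbit of a moved summand has prime length. -/
theorem orbit_ne (hB : GoodForm B) {D : Fin t → Submodule F V} (hD : ∀ j, NDOn B (D j)) (hfin : ∀ j, finrank F (D j) = a) (ha : 0 < a)
    (horth : ∀ j l, j ≠ l → ∀ u ∈ D j, ∀ v ∈ D l, B u v = 0) (σ : Equiv.Perm (Fin t)) (hmap : ∀ j, ∀ u ∈ D j, T u ∈ D (σ j))
    (hr : r.Prime) (hTr : T ^ r = 1) {j₀ : Fin t} (hj₀ : σ j₀ ≠ j₀) :
    ∀ l m : ℕ, l < m → m < r → (σ ^ l) j₀ ≠ (σ ^ m) j₀ := by
  have hpow : ∀ (k : ℕ) (j : Fin t), ∀ u ∈ D j, (T ^ k) u ∈ D ((σ ^ k) j) := by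
    intro k
    induction k with
    | zero =>
      intro j u hu
      simpa using hu
    | succ k ih =>
      intro j u hu
      have h1 : (T ^ (k + 1)) u = T ((T ^ k) u) := by rw [pow_succ']; rfl
      have h2 : (σ ^ (k + 1)) j = σ ((σ ^ k) j) := by rw [pow_succ']; rfl
      rw [h1, h2]
      exact hmap _ _ (ih j u hu)
  have hσr : (σ ^ r) j₀ = j₀ := by
    obtain ⟨u, hu, hu0⟩ := exists_ne_zero_D hfin ha j₀
    have h1 := hpow r j₀ u hu
    rw [hTr] at h1
    exact (D_ne hB hD hfin ha horth ⟨u, hu, hu0, h1⟩).symm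
  have hper : ∀ k, 0 < k → k < r → (σ ^ k) j₀ ≠ j₀ := by
    intro k hk hkr hkj
    have h1 : Function.IsPeriodicPt σ k j₀ := by
      show σ^[k] j₀ = j₀
      rw [Equiv.Perm.iterate_eq_pow]
      exact hkj
    have h2 : Function.IsPeriodicPt σ r j₀ := by
      show σ^[r] j₀ = j₀
      rw [Equiv.Perm.iterate_eq_pow]
      exact hσr
    have h3 := h1.gcd h2
    have h4 : k.gcd r = 1 := by
      rw [Nat.gcd_comm]
      exact (Nat.Prime.coprime_iff_not_dvd hr).mpr (fun h => by
        have := Nat.le_of_dvd hk h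
        omega)
    rw [h4] at h3
    exact hj₀ h3
  intro l m hlm hmr heq
  apply hper (m - l) (by omega) (by omega)
  have h1 : (σ ^ l) ((σ ^ (m - l)) j₀) = (σ ^ l) j₀ := by
    rw [← Equiv.Perm.mul_apply, ← pow_add]
    have : l + (m - l) = m := by omega
    rw [this]
    exact heq.symm
  exact (σ ^ l).injective h1

/-- Bounds from a moved summand. -/
theorem orbit_bounds (hB : GoodForm B) {D : Fin t → Submodule F V} (hD : ∀ j, NDOn B (D j)) (hfin : ∀ j, finrank F (D j) = a) (ha : 0 < a)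
    (horth : ∀ j l, j ≠ l → ∀ u ∈ D j, ∀ v ∈ D l, B u v = 0) (σ : Equiv.Perm (Fin t)) (hmap : ∀ j, ∀ u ∈ D j, T u ∈ D (σ j))
    (hr : r.Prime) (hTr : T ^ r = 1) (hiso : ∀ u v, B (T u) (T v) = B u v) {j₀ : Fin t} (hj₀ : σ j₀ ≠ j₀) :
    a ≤ finrank F (fixS T ⊤) ∧ (r - 1) * a ≤ finrank F (LinearMap.range (T - LinearMap.id)) := by
  classical
  have hpow : ∀ (k : ℕ) (j : Fin t), ∀ u ∈ D j, (T ^ k) u ∈ D ((σ ^ k) j) := by
    intro k
    induction k with
    | zero =>
      intro j u hu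
      simpa using hu
    | succ k ih =>
      intro j u hu
      have h1 : (T ^ (k + 1)) u = T ((T ^ k) u) := by rw [pow_succ']; rfl
      have h2 : (σ ^ (k + 1)) j = σ ((σ ^ k) j) := by rw [pow_succ']; rfl
      rw [h1, h2]
      exact hmap _ _ (ih j u hu)
  have hne := orbit_ne hB hD hfin ha horth σ hmap hr hTr hj₀
  have hne' : ∀ l m : ℕ, l < r → m < r → l ≠ m → (σ ^ l) j₀ ≠ (σ ^ m) j₀ := by
    intro l m hl hm hlm
    rcases lt_or_gt_of_ne hlm with h | h
    · exact hne l m h hm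
    · exact (hne m l h hl).symm
  have hform : ∀ l m : ℕ, l < r → m < r → l ≠ m → ∀ y ∈ D j₀, ∀ z ∈ D j₀, B ((T ^ l) y) ((T ^ m) z) = 0 := by
    intro l m hl hm hlm y hy z hz
    exact horth _ _ (hne' l m hl hm hlm) _ (hpow l j₀ y hy) _ (hpow m j₀ z hz)
  have hr1 := hr.one_lt
  constructor
  · -- the trace map
    let Ψ : D j₀ →ₗ[F] V := ∑ l ∈ Finset.range r, (T ^ l) ∘ₗ (D j₀).subtype
    have hΨ : ∀ y : D j₀, Ψ y = ∑ l ∈ Finset.range r, (T ^ l) (y : V) := by
      intro y
      simp [Ψ, LinearMap.sum_apply]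
    have hfixΨ : ∀ y : D j₀, Ψ y ∈ fixS T ⊤ := by
      intro y
      rw [mem_fixS]
      refine ⟨trivial, ?_⟩
      rw [hΨ, map_sum]
      have h1 : ∀ l, T ((T ^ l) (y : V)) = (T ^ (l + 1)) y := fun l => by
        rw [pow_succ', Module.End.mul_apply]
      simp only [h1]
      have h2 := Finset.sum_range_succ (fun j => (T ^ j) (y : V)) r
      have h3 := Finset.sum_range_succ' (fun j => (T ^ j) (y : V)) r
      rw [h2, hTr] at h3
      simp only [pow_zero] at h3
      exact (add_right_cancel h3).symm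
    let Ψ' : D j₀ →ₗ[F] fixS T ⊤ := Ψ.codRestrict _ hfixΨ
    have hinj : Function.Injective Ψ' := by
      rw [← LinearMap.ker_eq_bot, LinearMap.ker_eq_bot']
      intro y hy
      apply Subtype.ext
      apply hD j₀ y.1 y.2
      intro z hz
      have h1 : Ψ y = 0 := congrArg Subtype.val hy
      rw [hΨ] at h1
      have h2 := congrArg (fun w => B w z) h1
      simp only [map_sum, LinearMap.sum_apply, map_zero, LinearMap.zero_apply] at h2
      rw [Finset.sum_eq_single 0] at h2
      · simpa using h2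
      · intro l hl hl0
        have := hform l 0 (Finset.mem_range.mp hl) hr.pos hl0 y y.2 z hz
        simpa using this
      · intro h0
        exact absurd (Finset.mem_range.mpr hr.pos) h0
    have h1 := LinearMap.finrank_le_finrank_of_injective hinj
    rw [hfin] at h1
    exact h1
  · -- the rank bound
    let Φ : (Fin (r - 1) → D j₀) →ₗ[F] V := ∑ l : Fin (r - 1), (T ^ (l : ℕ)) ∘ₗ (D j₀).subtype ∘ₗ (LinearMap.proj l)
    have hΦ : ∀ y, Φ y = ∑ l : Fin (r - 1), (T ^ (l : ℕ)) (y l : V) := by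
      intro y
      simp [Φ, LinearMap.sum_apply]
    let Φ' : (Fin (r - 1) → D j₀) →ₗ[F] V := (T - LinearMap.id) ∘ₗ Φ
    have hinj : Function.Injective Φ' := by
      rw [← LinearMap.ker_eq_bot, LinearMap.ker_eq_bot']
      intro y hy
      have hy2 : ∑ l : Fin (r - 1), (T ^ ((l : ℕ) + 1)) (y l : V) = ∑ l : Fin (r - 1), (T ^ (l : ℕ)) (y l : V) := by
        have h1 : T (Φ y) - Φ y = 0 := hy
        rw [hΦ, map_sum, sub_eq_zero] at h1
        rw [← h1]
        refine Finset.sum_congr rfl fun l _ => ?_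
        rw [pow_succ', Module.End.mul_apply]
      have hall : ∀ m : ℕ, ∀ hm : m < r - 1, y ⟨m, hm⟩ = 0 := by
        intro m
        induction m using Nat.strong_induction_on with
        | _ m ih =>
          intro hm
          apply Subtype.ext
          apply hD j₀ _ (y ⟨m, hm⟩).2
          intro z hz
          have h1 := congrArg (fun w => B w ((T ^ m) z)) hy2
          simp only [map_sum, LinearMap.sum_apply] at h1
          have h2 : ∑ l : Fin (r - 1), B ((T ^ ((l : ℕ) + 1)) (y l : V)) ((T ^ m) z) = 0 := by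
            apply Finset.sum_eq_zero
            intro l _
            by_cases hlm : (l : ℕ) + 1 = m
            · have hl : (l : ℕ) < m := by omega
              have := ih l hl l.2
              have h3 : y l = 0 := this
              rw [h3]
              simp
            · exact hform _ _ (by omega) (by omega) hlm _ (y l).2 z hz
          rw [h2, Finset.sum_eq_single (⟨m, hm⟩ : Fin (r - 1))] at h1
          · rw [form_pow hiso] at h1
            exact h1.symm
          · intro l _ hl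
            apply hform _ _ (by omega) (by omega) _ _ (y l).2 z hz
            intro h3
            exact hl (Fin.ext h3)
          · simp
      funext l
      exact hall l l.2
    have h1 : finrank F (LinearMap.range Φ') = (r - 1) * a := by
      rw [LinearMap.finrank_range_of_inj hinj, Module.finrank_pi_fintype]
      simp [hfin]
    rw [← h1]
    apply Submodule.finrank_mono
    rintro _ ⟨y, rfl⟩
    exact ⟨Φ y, rfl⟩

/-- The sum of the fixed spaces of the summands. -/
theorem sum_fix_le (hB : GoodForm B) {D : Fin t → Submodule F V} (hD : ∀ j, NDOn B (D j))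
    (horth : ∀ j l, j ≠ l → ∀ u ∈ D j, ∀ v ∈ D l, B u v = 0) : ∑ j, finrank F (fixS T (D j)) ≤ finrank F (fixS T ⊤) := by
  classical
  let Φ : ((j : Fin t) → fixS T (D j)) →ₗ[F] V := ∑ j : Fin t, (fixS T (D j)).subtype ∘ₗ (LinearMap.proj j)
  have hΦ : ∀ y, Φ y = ∑ j : Fin t, (y j : V) := by
    intro y
    simp [Φ, LinearMap.sum_apply]
  have hm : ∀ y, Φ y ∈ fixS T ⊤ := by
    intro y
    rw [mem_fixS]
    refine ⟨trivial, ?_⟩
    rw [hΦ, map_sum]
    refine Finset.sum_congr rfl fun j _ => ?_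
    exact (mem_fixS.mp (y j).2).2
  let Φ' : ((j : Fin t) → fixS T (D j)) →ₗ[F] fixS T ⊤ := Φ.codRestrict _ hm
  have hinj : Function.Injective Φ' := by
    rw [← LinearMap.ker_eq_bot, LinearMap.ker_eq_bot']
    intro y hy
    funext j
    apply Subtype.ext
    have h0 : Φ y = 0 := congrArg Subtype.val hy
    rw [hΦ] at h0
    apply hD j _ (mem_fixS.mp (y j).2).1
    intro z hz
    have h1 := congrArg (fun w => B w z) h0
    simp only [map_sum, LinearMap.sum_apply, map_zero, LinearMap.zero_apply] at h1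
    rw [Finset.sum_eq_single j] at h1
    · exact h1
    · intro l _ hl
      exact horth l j hl _ (mem_fixS.mp (y l).2).1 z hz
    · simp
  have h1 := LinearMap.finrank_le_finrank_of_injective hinj
  rw [Module.finrank_pi_fintype] at h1
  exact h1

end orbit

section model

open Cfsg.Agent.Lib.SympForm Cfsg.Agent.Lib.SympWitt

variable {F : Type*} [Field F] [Fintype F] {d : ℕ}

/-- An element with one block on a space of block size. -/
theorem exists_block_elt {r q c' : ℕ} [hrf : Fact r.Prime] (hq : Fintype.card F = q) (hr2 : r ≠ 2) (hrF : (r : F) ≠ 0) (hc : blockDim r q = 2 * c') :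
    ∃ T₀ : (Fin c' ⊕ Fin c' → F) →ₗ[F] (Fin c' ⊕ Fin c' → F), T₀ ^ r = 1 ∧ (∀ u v, sympForm c' F (T₀ u) (T₀ v) = sympForm c' F u v) ∧
      ∀ u, T₀ u = u → u = 0 := by
  classical
  have hr : r.Prime := hrf.out
  have hcpos := blockDim_pos hq hrF
  have hc'pos : 0 < c' := by omega
  have hrz : (q : ZMod r) ^ (2 * c') = 1 := by
    have h1 : orderOf (q : ZMod r) ∣ 2 * c' := by
      rw [← hc]
      unfold blockDim
      split_ifs
      · exact dvd_rfl
      · exact Dvd.intro_left 2 rfl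
    obtain ⟨k, hk⟩ := h1
    rw [hk, pow_mul, pow_orderOf_eq_one, one_pow]
  have hq1 : 1 < q := by
    rw [← hq]
    exact Fintype.one_lt_card
  have hrdvd : r ∣ q ^ (2 * c') - 1 := by
    apply (ZMod.natCast_eq_zero_iff _ _).mp
    rw [Nat.cast_sub (Nat.one_le_pow _ _ (by omega))]
    push_cast
    rw [hrz, sub_self]
  have hcard : r ∣ Nat.card (symplecticGroup (Fin c') F) := by
    have h1 := Cfsg.Agent.Lib.SpOrder.card_Sp (F := F) c'
    rw [Cfsg.Agent.Lib.SpBasic.Sp] at h1
    rw [h1, hq]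
    apply Dvd.dvd.mul_left
    obtain ⟨k, rfl⟩ : ∃ k, c' = k + 1 := ⟨c' - 1, by omega⟩
    rw [Finset.prod_range_succ]
    exact Dvd.dvd.mul_left hrdvd _
  haveI : Finite (symplecticGroup (Fin c') F) := inferInstance
  obtain ⟨y, hy⟩ := exists_prime_orderOf_dvd_card' r hcard
  let T₀ : (Fin c' ⊕ Fin c' → F) →ₗ[F] (Fin c' ⊕ Fin c' → F) := Matrix.toLin' (y : Matrix (Fin c' ⊕ Fin c') (Fin c' ⊕ Fin c') F)
  have hT₀ : ∀ v, T₀ v = (y : Matrix (Fin c' ⊕ Fin c') (Fin c' ⊕ Fin c') F) *ᵥ v := fun v => Matrix.toLin'_apply _ v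
  have hpow : T₀ ^ r = 1 := by
    have h1 : T₀ ^ r = Matrix.toLinAlgEquiv' ((y ^ r : symplecticGroup (Fin c') F) : Matrix (Fin c' ⊕ Fin c') (Fin c' ⊕ Fin c') F) := by
      have h2 : T₀ = Matrix.toLinAlgEquiv' (y : Matrix (Fin c' ⊕ Fin c') (Fin c' ⊕ Fin c') F) := rfl
      rw [h2, ← map_pow]
      rfl
    rw [h1, ← hy, pow_orderOf_eq_one]
    exact map_one _
  have hiso : ∀ u v, sympForm c' F (T₀ u) (T₀ v) = sympForm c' F u v := by
    intro u v
    rw [hT₀, hT₀]
    exact (mem_symplecticGroup_iff_preserves _).1 y.2 u v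
  have hne : T₀ ≠ 1 := by
    intro h1
    have h2 : (y : Matrix (Fin c' ⊕ Fin c') (Fin c' ⊕ Fin c') F) = 1 := by
      apply Matrix.toLin'.injective
      rw [Matrix.toLin'_one]
      exact h1
    have h3 : y = 1 := Subtype.ext h2
    rw [h3, orderOf_one] at hy
    exact hr.one_lt.ne hy
  obtain ⟨W, -, -, hfree, hfin⟩ := exists_block (B := sympB c' F) (T := T₀) hq hr2 hrF (Or.inl fun v => sympForm_self v)
    (fun v hv => Cfsg.Agent.S5983.symp_nd v hv) hiso hpow hne
  have hWtop : W = ⊤ := by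
    apply Submodule.eq_top_of_finrank_eq
    change finrank F W = blockDim r q at hfin
    rw [hfin, hc, Cfsg.Agent.S5983.finrank_V]
  refine ⟨T₀, hpow, hiso, fun u hu => hfree u (by rw [hWtop]; trivial) hu⟩

/-- Elements with prescribed numbers of blocks. -/
theorem exists_x_blocks {r s c' m : ℕ} (hd : d = s * c' + m) (T₀ : (Fin c' ⊕ Fin c' → F) →ₗ[F] (Fin c' ⊕ Fin c' → F)) (hpow : T₀ ^ r = 1)
    (hiso : ∀ u v, sympForm c' F (T₀ u) (T₀ v) = sympForm c' F u v) (hfree : ∀ u, T₀ u = u → u = 0) :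
    ∃ x : symplecticGroup (Fin d) F, x ^ r = 1 ∧ finrank F (fixS (Matrix.toLin' (x : Matrix (Fin d ⊕ Fin d) (Fin d ⊕ Fin d) F)) ⊤) + s * (2 * c') = 2 * d := by
  classical
  let W := Fin c' ⊕ Fin c' → F
  let M := (Fin s → W) × (Fin m ⊕ Fin m → F)
  let BM : M →ₗ[F] M →ₗ[F] F :=
    ∑ j : Fin s, (sympB c' F).compl₁₂ ((LinearMap.proj j) ∘ₗ LinearMap.fst F _ _) ((LinearMap.proj j) ∘ₗ LinearMap.fst F _ _) +
      (sympB m F).compl₁₂ (LinearMap.snd F _ _) (LinearMap.snd F _ _)
  have hBM : ∀ a b : M, BM a b = ∑ j, sympForm c' F (a.1 j) (b.1 j) + sympForm m F a.2 b.2 := by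
    intro a b
    simp [BM, LinearMap.sum_apply]
    rfl
  have hfin : finrank F M = 2 * d := by
    simp only [M, W]
    rw [Module.finrank_prod, Module.finrank_pi_fintype]
    simp only [Cfsg.Agent.S5983.finrank_V, Finset.sum_const, Finset.card_univ, Fintype.card_fin, smul_eq_mul, hd]
    ring
  obtain ⟨E, hE⟩ := Cfsg.Agent.Lib.SympEquiv.exists_symp_equiv BM
    (by
      intro v
      rw [hBM]
      simp [sympForm_self])
    (by
      intro v hv
      apply Prod.ext
      · funext j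
        apply Cfsg.Agent.S5983.symp_nd
        intro w
        have := hv (Pi.single j w, 0)
        rw [hBM] at this
        rw [Finset.sum_eq_single j] at this
        · simpa [sympForm_zero_right] using this
        · intro l _ hl
          simp [Pi.single_eq_of_ne hl, sympForm_zero_right]
        · simp
      · apply Cfsg.Agent.S5983.symp_nd
        intro w
        have := hv (0, w)
        rw [hBM] at this
        simpa [sympForm_zero_right] using this) hfin
  let TM : M →ₗ[F] M := LinearMap.prodMap (LinearMap.pi fun j => T₀ ∘ₗ LinearMap.proj j) LinearMap.id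
  have hTM : ∀ a : M, TM a = (fun j => T₀ (a.1 j), a.2) := fun a => rfl
  let g : (Fin d ⊕ Fin d → F) →ₗ[F] (Fin d ⊕ Fin d → F) :=
    (E.symm : M →ₗ[F] (Fin d ⊕ Fin d → F)) ∘ₗ TM ∘ₗ (E : (Fin d ⊕ Fin d → F) →ₗ[F] M)
  have hg : ∀ v, g v = E.symm (TM (E v)) := fun v => rfl
  have hgs : ∀ u v, sympForm d F (g u) (g v) = sympForm d F u v := by
    intro u v
    rw [← hE, ← hE, hg, hg, LinearEquiv.apply_symm_apply, LinearEquiv.apply_symm_apply, hBM, hBM, hTM, hTM]
    simp only [hiso]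
  obtain ⟨x, hx⟩ := exists_sp_of_equiv g hgs
  have hxE : ∀ v, E ((x : Matrix (Fin d ⊕ Fin d) (Fin d ⊕ Fin d) F) *ᵥ v) = TM (E v) := by
    intro v
    rw [hx, hg, LinearEquiv.apply_symm_apply]
  have hxk : ∀ (k : ℕ) (v : Fin d ⊕ Fin d → F), E (((x ^ k : symplecticGroup (Fin d) F) : Matrix (Fin d ⊕ Fin d) (Fin d ⊕ Fin d) F) *ᵥ v) =
      (fun j => (T₀ ^ k) ((E v).1 j), (E v).2) := by
    intro k
    induction k with
    | zero =>
      intro v
      simp
    | succ k ih =>
      intro v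
      rw [pow_succ]
      show E ((((x ^ k : symplecticGroup (Fin d) F) : Matrix (Fin d ⊕ Fin d) (Fin d ⊕ Fin d) F) * (x : Matrix (Fin d ⊕ Fin d) (Fin d ⊕ Fin d) F)) *ᵥ v) = _
      rw [← Matrix.mulVec_mulVec, ih, hxE, hTM]
      simp only
      congr 1
  refine ⟨x, ?_, ?_⟩
  · apply Subtype.ext
    apply Matrix.toLin'.injective
    apply LinearMap.ext
    intro v
    apply E.injective
    rw [Matrix.toLin'_apply, hxk, hpow]
    simp
  · have hmem : ∀ v, v ∈ fixS (Matrix.toLin' (x : Matrix (Fin d ⊕ Fin d) (Fin d ⊕ Fin d) F)) ⊤ ↔ (E v).1 = 0 := by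
      intro v
      rw [mem_fixS, Matrix.toLin'_apply]
      constructor
      · rintro ⟨-, h1⟩
        have h2 := hxE v
        rw [h1, hTM] at h2
        funext j
        apply hfree
        have h3 := congrFun (congrArg Prod.fst h2) j
        exact h3.symm
      · intro h1
        refine ⟨trivial, ?_⟩
        apply E.injective
        rw [hxE, hTM]
        apply Prod.ext
        · funext j
          simp [h1]
        · rfl
    let φ : fixS (Matrix.toLin' (x : Matrix (Fin d ⊕ Fin d) (Fin d ⊕ Fin d) F)) ⊤ →ₗ[F] (Fin m ⊕ Fin m → F) :=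
      (LinearMap.snd F _ _) ∘ₗ (E : (Fin d ⊕ Fin d → F) →ₗ[F] M) ∘ₗ (Submodule.subtype _)
    have hφ : ∀ v, φ v = (E v.1).2 := fun v => rfl
    have hb : Function.Bijective φ := by
      constructor
      · rw [← LinearMap.ker_eq_bot, LinearMap.ker_eq_bot']
        rintro ⟨v, hv⟩ h
        apply Subtype.ext
        rw [hφ] at h
        simp only at h
        apply E.injective
        show E v = E 0
        rw [map_zero]
        exact Prod.ext ((hmem v).mp hv) h
      · intro h
        refine ⟨⟨E.symm (0, h), ?_⟩, ?_⟩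
        · rw [hmem, LinearEquiv.apply_symm_apply]
        · rw [hφ]
          simp
    have h3 := (LinearEquiv.ofBijective φ hb).finrank_eq
    rw [h3, Cfsg.Agent.S5983.finrank_V, hd]
    ring

end model

section count

open Cfsg.Agent.Lib.SympForm Cfsg.Agent.Lib.SympWitt
open Cfsg.Agent.S5963 (spE spE_apply spE_preserves)

variable {F : Type*} [Field F] {d a t : ℕ}

/-- The ordered decompositions. -/
abbrev DecP (d a t : ℕ) (F : Type*) [Field F] (D : Fin t → Submodule F (Fin d ⊕ Fin d → F)) : Prop :=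
  Cfsg.Geo.IsMDecomposition a D ∧ (∀ j, ∀ u ∈ D j, u ≠ 0 → ∃ v ∈ D j, Cfsg.sympForm d F u v ≠ 0) ∧
    (∀ j j', j ≠ j' → ∀ u ∈ D j, ∀ v ∈ D j', Cfsg.sympForm d F u v = 0)

abbrev DecSet (d a t : ℕ) (F : Type*) [Field F] := {D : Fin t → Submodule F (Fin d ⊕ Fin d → F) // DecP d a t F D}

theorem decP_map (g : symplecticGroup (Fin d) F) (D : Fin t → Submodule F (Fin d ⊕ Fin d → F)) (h : DecP d a t F D) :
    DecP d a t F (fun j => (D j).map ((spE g : _ ≃ₗ[F] _) : (Fin d ⊕ Fin d → F) →ₗ[F] (Fin d ⊕ Fin d → F))) := by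
  obtain ⟨h1, h2, h3⟩ := h
  refine ⟨⟨h1.two_le, h1.pos, ?_, ?_, ?_⟩, ?_, ?_⟩
  · intro i
    rw [LinearEquiv.finrank_map_eq]
    exact h1.finrank_eq i
  · exact h1.indep.map_orderIso (Submodule.orderIsoMapComap (spE g))
  · rw [← Submodule.map_iSup, h1.iSup_eq_top, Submodule.map_top]
    exact LinearMap.range_eq_top.mpr (spE g).surjective
  · rintro j _ ⟨u, hu, rfl⟩ hu0
    have hu0' : u ≠ 0 := by
      rintro rfl
      exact hu0 (map_zero _)
    obtain ⟨v, hv, huv⟩ := h2 j u hu hu0'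
    refine ⟨spE g v, ⟨v, hv, rfl⟩, ?_⟩
    show Cfsg.sympForm d F (spE g u) (spE g v) ≠ 0
    rw [spE_preserves]
    exact huv
  · rintro j j' hjj' _ ⟨u, hu, rfl⟩ _ ⟨v, hv, rfl⟩
    show Cfsg.sympForm d F (spE g u) (spE g v) = 0
    rw [spE_preserves]
    exact h3 j j' hjj' u hu v hv

/-- The action of `Sp`. -/
noncomputable instance decAction : MulAction (symplecticGroup (Fin d) F) (DecSet d a t F) where
  smul g D := ⟨fun j => (D.1 j).map ((spE g : _ ≃ₗ[F] _) : (Fin d ⊕ Fin d → F) →ₗ[F] (Fin d ⊕ Fin d → F)), decP_map g D.1 D.2⟩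
  one_smul D := by
    have h : ((spE (1 : symplecticGroup (Fin d) F) : _ ≃ₗ[F] _) : (Fin d ⊕ Fin d → F) →ₗ[F] (Fin d ⊕ Fin d → F)) = LinearMap.id := by
      apply LinearMap.ext
      intro v
      show (((1 : symplecticGroup (Fin d) F) : Matrix (Fin d ⊕ Fin d) (Fin d ⊕ Fin d) F)) *ᵥ v = v
      exact Matrix.one_mulVec v
    apply Subtype.ext
    funext j
    show Submodule.map _ _ = _
    rw [h, Submodule.map_id]
  mul_smul g h D := by
    have e : ((spE (g * h) : _ ≃ₗ[F] _) : (Fin d ⊕ Fin d → F) →ₗ[F] (Fin d ⊕ Fin d → F)) =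
        ((spE g : _ ≃ₗ[F] _) : (Fin d ⊕ Fin d → F) →ₗ[F] (Fin d ⊕ Fin d → F)) ∘ₗ
          ((spE h : _ ≃ₗ[F] _) : (Fin d ⊕ Fin d → F) →ₗ[F] (Fin d ⊕ Fin d → F)) := by
      apply LinearMap.ext
      intro v
      show ((g * h : symplecticGroup (Fin d) F) : Matrix (Fin d ⊕ Fin d) (Fin d ⊕ Fin d) F) *ᵥ v =
        (g : Matrix (Fin d ⊕ Fin d) (Fin d ⊕ Fin d) F) *ᵥ ((h : Matrix (Fin d ⊕ Fin d) (Fin d ⊕ Fin d) F) *ᵥ v)
      rw [Matrix.mulVec_mulVec]
      rfl
    apply Subtype.ext
    funext j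
    show Submodule.map _ _ = Submodule.map _ (Submodule.map _ _)
    rw [e, Submodule.map_comp]

theorem smul_val (g : symplecticGroup (Fin d) F) (D : DecSet d a t F) (j : Fin t) :
    (g • D).1 j = (D.1 j).map ((spE g : _ ≃ₗ[F] _) : (Fin d ⊕ Fin d → F) →ₗ[F] (Fin d ⊕ Fin d → F)) := rfl

/-- Parametrising a decomposition by the model. -/
theorem exists_param {a' : ℕ} (ha' : a = 2 * a') (hat : 2 * d = a * t) (D : DecSet d a t F) :
    ∃ Φ : (Fin t → (Fin a' ⊕ Fin a' → F)) ≃ₗ[F] (Fin d ⊕ Fin d → F),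
      (∀ y z, Cfsg.sympForm d F (Φ y) (Φ z) = ∑ j, Cfsg.sympForm a' F (y j) (z j)) ∧
      ∀ j, D.1 j = (LinearMap.range (LinearMap.single F (fun _ : Fin t => (Fin a' ⊕ Fin a' → F)) j)).map (Φ : (Fin t → (Fin a' ⊕ Fin a' → F)) →ₗ[F] (Fin d ⊕ Fin d → F)) := by
  classical
  obtain ⟨⟨h1, h2, h3⟩⟩ : Nonempty (DecP d a t F D.1) := ⟨D.2⟩
  have hE : ∀ j, ∃ E : (Fin a' ⊕ Fin a' → F) ≃ₗ[F] D.1 j, ∀ u v, Cfsg.sympForm d F (E u) (E v) = Cfsg.sympForm a' F u v := by
    intro j
    have := Cfsg.Agent.Lib.SympEquiv.exists_symp_equiv (F := F) (V := D.1 j) ((sympB d F).domRestrict₁₂ (D.1 j) (D.1 j)) (fun v => sympForm_self _)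
      (by
        intro v hv
        by_contra hv0
        have hv0' : (v : Fin d ⊕ Fin d → F) ≠ 0 := fun h => hv0 (Subtype.ext h)
        obtain ⟨w, hw, hvw⟩ := h2 j v v.2 hv0'
        exact hvw (hv ⟨w, hw⟩))
      (m := a') (by rw [h1.finrank_eq j, ha'])
    exact this
  choose E hE using hE
  let Φ₀ : (Fin t → (Fin a' ⊕ Fin a' → F)) →ₗ[F] (Fin d ⊕ Fin d → F) :=
    ∑ j : Fin t, (D.1 j).subtype ∘ₗ (E j : (Fin a' ⊕ Fin a' → F) →ₗ[F] D.1 j) ∘ₗ LinearMap.proj j
  have hΦ₀ : ∀ y, Φ₀ y = ∑ j, (E j (y j) : Fin d ⊕ Fin d → F) := by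
    intro y
    simp [Φ₀, LinearMap.sum_apply]
  have hform : ∀ y z, Cfsg.sympForm d F (Φ₀ y) (Φ₀ z) = ∑ j, Cfsg.sympForm a' F (y j) (z j) := by
    intro y z
    rw [hΦ₀, hΦ₀]
    have h4 : ∀ (s : Finset (Fin t)) (u : Fin d ⊕ Fin d → F), sympForm d F (∑ j ∈ s, (E j (y j) : Fin d ⊕ Fin d → F)) u = ∑ j ∈ s, sympForm d F (E j (y j) : Fin d ⊕ Fin d → F) u := by
      intro s u
      induction s using Finset.induction_on with
      | empty => simp [sympForm_zero_left]
      | insert a s ha ih => rw [Finset.sum_insert ha, Finset.sum_insert ha, sympForm_add_left, ih]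
    have h5 : ∀ (s : Finset (Fin t)) (u : Fin d ⊕ Fin d → F), sympForm d F u (∑ j ∈ s, (E j (z j) : Fin d ⊕ Fin d → F)) = ∑ j ∈ s, sympForm d F u (E j (z j) : Fin d ⊕ Fin d → F) := by
      intro s u
      induction s using Finset.induction_on with
      | empty => simp [sympForm_zero_right]
      | insert a s ha ih => rw [Finset.sum_insert ha, Finset.sum_insert ha, sympForm_add_right, ih]
    rw [h4]
    refine Finset.sum_congr rfl fun j _ => ?_
    rw [h5, Finset.sum_eq_single j, hE]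
    · intro l _ hl
      exact h3 j l (Ne.symm hl) _ (E j (y j)).2 _ (E l (z l)).2
    · simp
  have hinj : Function.Injective Φ₀ := by
    rw [← LinearMap.ker_eq_bot, LinearMap.ker_eq_bot']
    intro y hy
    funext j
    apply Cfsg.Agent.S5983.symp_nd
    intro w
    have h4 := hform y (Pi.single j w)
    rw [hy, sympForm_zero_left, Finset.sum_eq_single j] at h4
    · simpa using h4.symm
    · intro l _ hl
      rw [Pi.single_eq_of_ne hl, sympForm_zero_right]
    · simp
  have hfinrank : finrank F (Fin t → (Fin a' ⊕ Fin a' → F)) = finrank F (Fin d ⊕ Fin d → F) := by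
    rw [Module.finrank_pi_fintype]
    simp only [Cfsg.Agent.S5983.finrank_V, Finset.sum_const, Finset.card_univ, Fintype.card_fin, smul_eq_mul]
    rw [hat, ha']
    ring
  let Φ := LinearEquiv.ofInjectiveOfFinrankEq Φ₀ hinj hfinrank
  have hΦ : ∀ y, Φ y = Φ₀ y := fun y => rfl
  refine ⟨Φ, fun y z => ?_, fun j => ?_⟩
  · rw [hΦ, hΦ, hform]
  · apply le_antisymm
    · intro u hu
      obtain ⟨w, hw⟩ := (E j).surjective ⟨u, hu⟩
      refine ⟨Pi.single j w, ⟨w, rfl⟩, ?_⟩
      show Φ₀ (Pi.single j w) = u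
      rw [hΦ₀, Finset.sum_eq_single j]
      · rw [Pi.single_eq_same, hw]
      · intro l _ hl
        rw [Pi.single_eq_of_ne hl, map_zero]
        rfl
      · simp
    · rintro _ ⟨_, ⟨w, rfl⟩, rfl⟩
      show Φ₀ (LinearMap.single F (fun _ : Fin t => (Fin a' ⊕ Fin a' → F)) j w) ∈ D.1 j
      rw [hΦ₀, Finset.sum_eq_single j]
      · simp
      · intro l _ hl
        simp [Pi.single_eq_of_ne hl]
      · simp

/-- Transitivity. -/
theorem dec_transitive {a' : ℕ} (ha' : a = 2 * a') (hat : 2 * d = a * t) (D D' : DecSet d a t F) :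
    ∃ g : symplecticGroup (Fin d) F, g • D = D' := by
  classical
  obtain ⟨Φ, hΦ1, hΦ2⟩ := exists_param ha' hat D
  obtain ⟨Φ', hΦ'1, hΦ'2⟩ := exists_param ha' hat D'
  let g₀ : (Fin d ⊕ Fin d → F) →ₗ[F] (Fin d ⊕ Fin d → F) :=
    (Φ' : (Fin t → (Fin a' ⊕ Fin a' → F)) →ₗ[F] (Fin d ⊕ Fin d → F)) ∘ₗ (Φ.symm : (Fin d ⊕ Fin d → F) →ₗ[F] (Fin t → (Fin a' ⊕ Fin a' → F)))
  have hg₀ : ∀ u v, sympForm d F (g₀ u) (g₀ v) = sympForm d F u v := by
    intro u v
    show sympForm d F (Φ' (Φ.symm u)) (Φ' (Φ.symm v)) = sympForm d F u v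
    rw [hΦ'1]
    conv_rhs => rw [← Φ.apply_symm_apply u, ← Φ.apply_symm_apply v, hΦ1]
  obtain ⟨A, hA⟩ := exists_sp_of_equiv g₀ hg₀
  refine ⟨A, ?_⟩
  apply Subtype.ext
  funext j
  rw [smul_val, hΦ2 j, hΦ'2 j, ← Submodule.map_comp]
  congr 1
  apply LinearMap.ext
  intro y
  show (A : Matrix (Fin d ⊕ Fin d) (Fin d ⊕ Fin d) F) *ᵥ (Φ y) = Φ' y
  rw [hA]
  show Φ' (Φ.symm (Φ y)) = Φ' y
  rw [LinearEquiv.symm_apply_apply]

/-- Free action of the symmetric group. -/
theorem decP_perm (σ : Equiv.Perm (Fin t)) (D : Fin t → Submodule F (Fin d ⊕ Fin d → F)) (h : DecP d a t F D) :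
    DecP d a t F (fun j => D (σ j)) := by
  obtain ⟨h1, h2, h3⟩ := h
  refine ⟨⟨h1.two_le, h1.pos, fun i => h1.finrank_eq _, h1.indep.comp σ.injective, ?_⟩, fun j => h2 _, fun j j' hjj' => h3 _ _ (fun h => hjj' (σ.injective h))⟩
  rw [← h1.iSup_eq_top]
  exact σ.iSup_comp (g := D)

noncomputable instance permAction : MulAction (Equiv.Perm (Fin t)) (DecSet d a t F) where
  smul σ D := ⟨fun j => D.1 (σ⁻¹ j), decP_perm σ⁻¹ D.1 D.2⟩
  one_smul D := by
    apply Subtype.ext
    funext j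
    rfl
  mul_smul σ τ D := by
    apply Subtype.ext
    funext j
    rfl

theorem fact_dvd [Fintype F] : t.factorial ∣ Nat.card (DecSet d a t F) := by
  classical
  have hfree : ∀ b : DecSet d a t F, MulAction.stabilizer (Equiv.Perm (Fin t)) b = ⊥ := by
    intro b
    rw [eq_bot_iff]
    intro σ hσ
    rw [Subgroup.mem_bot]
    have hσ' : σ • b = b := hσ
    obtain ⟨⟨h1, h2, h3⟩⟩ : Nonempty (DecP d a t F b.1) := ⟨b.2⟩
    have h4 : ∀ j, b.1 (σ⁻¹ j) = b.1 j := fun j => congrFun (congrArg Subtype.val hσ') j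
    apply inv_eq_one.mp
    ext j
    congr 1
    by_contra hne
    have hj : σ⁻¹ j ≠ j := fun h => hne (by rw [h]; rfl)
    have h0 : b.1 j ≠ ⊥ := by
      intro h
      have := h1.finrank_eq j
      rw [h, finrank_bot] at this
      exact h1.pos.ne this
    obtain ⟨u, hu, hu0⟩ := (Submodule.ne_bot_iff _).mp h0
    obtain ⟨v, hv, huv⟩ := h2 j u hu hu0
    apply huv
    apply h3 j (σ⁻¹ j) (Ne.symm hj) u hu v
    rw [h4]
    exact hv
  have h1 := Nat.card_congr (MulAction.selfEquivOrbitsQuotientProd hfree)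
  rw [Nat.card_prod, Nat.card_eq_fintype_card (α := Equiv.Perm (Fin t)), Fintype.card_perm, Fintype.card_fin] at h1
  rw [h1]
  exact Dvd.intro_left _ rfl

theorem card_dvd_sp [Fintype F] {a' : ℕ} (ha' : a = 2 * a') (hat : 2 * d = a * t) (D₀ : DecSet d a t F) :
    Nat.card (DecSet d a t F) ∣ Nat.card (symplecticGroup (Fin d) F) := by
  have h1 : MulAction.orbit (symplecticGroup (Fin d) F) D₀ = Set.univ := by
    rw [Set.eq_univ_iff_forall]
    intro D
    exact dec_transitive ha' hat D₀ D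
  have h2 : (MulAction.stabilizer (symplecticGroup (Fin d) F) D₀).index = Nat.card (DecSet d a t F) := by
    rw [MulAction.index_stabilizer, h1, Set.ncard_univ]
  rw [← h2]
  exact Subgroup.index_dvd_card _

/-- From the abstract splitting to a decomposition. -/
theorem dec_of_split (ht : 2 ≤ t) (ha : 0 < a) (D : Fin t → Submodule F (Fin d ⊕ Fin d → F))
    (hD : ∀ j, NDOn (sympB d F) (D j)) (hfin : ∀ j, finrank F (D j) = a)
    (horth : ∀ j l, j ≠ l → ∀ u ∈ D j, ∀ v ∈ D l, sympB d F u v = 0) (htop : iSup D = ⊤) : DecP d a t F D := by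
  classical
  have hB : GoodForm (sympB d F) := Or.inl fun v => sympForm_self v
  refine ⟨⟨ht, ha, hfin, ?_, htop⟩, ?_, horth⟩
  · rw [iSupIndep_def]
    intro j
    rw [Submodule.disjoint_def]
    intro u hu hu2
    have h1 : (⨆ l, ⨆ (_ : l ≠ j), D l) ≤ perp (sympB d F) (D j) := by
      apply iSup_le
      intro l
      apply iSup_le
      intro hl v hv w hw
      exact horth j l (Ne.symm hl) w hw v hv
    apply hD j u hu
    intro w hw
    exact hB.refl (h1 hu2 w hw)
  · intro j u hu hu0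
    by_contra hall
    apply hu0
    apply hD j u hu
    intro w hw
    by_contra hne
    exact hall ⟨w, hw, hne⟩

end count

section main

open Cfsg.Agent.Lib.SympForm Cfsg.Agent.Lib.SympWitt

variable {F : Type*} [Field F] [Fintype F] {d a t r q : ℕ}

local notation "VV" => (Fin d ⊕ Fin d → F)

/-- A scalar power in the symplectic group. -/
theorem scalar_sq (hd : 0 < d) (x : symplecticGroup (Fin d) F) (z : F)
    (hz : (x : Matrix (Fin d ⊕ Fin d) (Fin d ⊕ Fin d) F) = z • (1 : Matrix (Fin d ⊕ Fin d) (Fin d ⊕ Fin d) F)) : z * z = 1 := by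
  classical
  have h1 := (mem_symplecticGroup_iff_preserves _).1 x.2 (Pi.single (Sum.inr ⟨0, hd⟩) 1) (Pi.single (Sum.inl ⟨0, hd⟩) 1)
  rw [hz, Matrix.smul_mulVec, Matrix.one_mulVec, Matrix.smul_mulVec, Matrix.one_mulVec, sympForm_smul_left, sympForm_smul_right] at h1
  have h2 : sympForm d F (Pi.single (Sum.inr ⟨0, hd⟩) 1) (Pi.single (Sum.inl ⟨0, hd⟩) 1) = 1 := by
    rw [sympForm_apply, Finset.sum_eq_single ⟨0, hd⟩]
    · simp
    · intro b _ hb
      simp [Pi.single_apply, hb]
    · simp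
  rw [h2] at h1
  linear_combination h1

/-- The direction from arithmetic to fixed points. -/
theorem backward_split [hrf : Fact r.Prime] (hq : Fintype.card F = q) (hd : 0 < d) (hr2 : r ≠ 2) (hrF : (r : F) ≠ 0)
    (hat : 2 * d = a * t) (ha : 2 ≤ a) (hae : Even a) (ht : 2 ≤ t) (hk : (2 * d) % blockDim r q = t * (a % blockDim r q))
    (x : symplecticGroup (Fin d) F) (z : F)
    (hz : ((x ^ r : symplecticGroup (Fin d) F) : Matrix (Fin d ⊕ Fin d) (Fin d ⊕ Fin d) F) = z • (1 : Matrix (Fin d ⊕ Fin d) (Fin d ⊕ Fin d) F)) :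
    ∃ D : Fin t → Submodule F VV, DecP d a t F D ∧ ∀ j, (D j).map (Matrix.toLin' (x : Matrix (Fin d ⊕ Fin d) (Fin d ⊕ Fin d) F)) = D j := by
  classical
  have hr : r.Prime := hrf.out
  have hz2 : z * z = 1 := scalar_sq hd _ z hz
  have hz0 : z ≠ 0 := by
    rintro rfl
    simp at hz2
  let T₁ : VV →ₗ[F] VV := Matrix.toLin' (x : Matrix (Fin d ⊕ Fin d) (Fin d ⊕ Fin d) F)
  have hT₁ : ∀ v, T₁ v = (x : Matrix (Fin d ⊕ Fin d) (Fin d ⊕ Fin d) F) *ᵥ v := fun v => Matrix.toLin'_apply _ v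
  have hT₁r : T₁ ^ r = z • 1 := by
    have h2 : T₁ = Matrix.toLinAlgEquiv' (x : Matrix (Fin d ⊕ Fin d) (Fin d ⊕ Fin d) F) := rfl
    have h3 : T₁ ^ r = Matrix.toLinAlgEquiv' ((x ^ r : symplecticGroup (Fin d) F) : Matrix (Fin d ⊕ Fin d) (Fin d ⊕ Fin d) F) := by
      rw [h2, ← map_pow]
      rfl
    rw [h3, hz, map_smul, map_one]
  let T : VV →ₗ[F] VV := z • T₁
  have hTv : ∀ v, T v = z • T₁ v := fun v => rfl
  have hTr : T ^ r = 1 := by
    show (z • T₁) ^ r = 1
    rw [_root_.smul_pow, hT₁r, smul_smul]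
    obtain ⟨k, hk⟩ := hr.odd_of_ne_two hr2
    have h3 : z ^ r * z = 1 := by
      rw [hk, pow_succ, pow_mul, pow_two, hz2, one_pow, one_mul, hz2]
    rw [h3, one_smul]
  have hiso : ∀ u v, sympB d F (T u) (T v) = sympB d F u v := by
    intro u v
    rw [hTv, hTv, sympB_apply, sympB_apply, sympForm_smul_left, sympForm_smul_right, hT₁, hT₁,
      (mem_symplecticGroup_iff_preserves _).1 x.2 u v, ← mul_assoc, hz2, one_mul]
  have halt : ∀ v, sympB d F v v = 0 := fun v => sympForm_self v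
  have hB : GoodForm (sympB d F) := Or.inl halt
  have hnd : NDOn (sympB d F) ⊤ := fun v _ hv => Cfsg.Agent.S5983.symp_nd v fun w => hv w trivial
  have hinv : InvOn T ⊤ := fun _ _ => trivial
  obtain ⟨k, hk'⟩ := finrank_fix_add hq hr2 hrF hB hiso hTr hnd hinv
  have hcpos := blockDim_pos hq hrF
  have htop : finrank F (⊤ : Submodule F VV) = 2 * d := by
    rw [finrank_top, Cfsg.Agent.S5983.finrank_V]
  have hle : t * (a % blockDim r q) ≤ finrank F (fixS T ⊤) := by
    rw [← hk, ← htop, hk', Nat.add_mul_mod_self_left]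
    exact Nat.mod_le _ _
  obtain ⟨D, hD1, hD2, hD3⟩ := exists_split hq hr2 hrF halt hiso hTr a hae t ⊤ hnd hinv (by rw [htop, hat, mul_comm]) hle
  refine ⟨D, dec_of_split ht (by omega) D (fun j => (hD1 j).2.1) (fun j => (hD1 j).2.2.2) hD2 hD3, fun j => ?_⟩
  have hinj : Function.Injective T₁ := by
    intro u v huv
    have h1 : (T ^ r) u = (T ^ r) v := by
      obtain ⟨k, hk⟩ : ∃ k, r = k + 1 := ⟨r - 1, by have := hr.pos; omega⟩
      rw [hk, pow_succ, Module.End.mul_apply, Module.End.mul_apply, hTv, hTv, huv]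
    rw [hTr] at h1
    exact h1
  apply Submodule.eq_of_le_of_finrank_eq
  · rintro _ ⟨u, hu, rfl⟩
    have h1 := (hD1 j).2.2.1 u hu
    rw [hTv] at h1
    have h2 := (D j).smul_mem z h1
    rwa [smul_smul, hz2, one_smul] at h2
  · exact (Submodule.equivMapOfInjective T₁ hinj (D j)).finrank_eq.symm

/-- The consequence of the index hypothesis. -/
theorem block_le [hrf : Fact r.Prime] (hq : Fintype.card F = q) (hr2 : r ≠ 2) (hrF : (r : F) ≠ 0) (hd : 0 < d)
    (hat : 2 * d = a * t) (ha : 2 ≤ a) (hae : Even a) (ht : 2 ≤ t) (hΩ : r ∣ Nat.card (DecSet d a t F) / t.factorial) :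
    blockDim r q ≤ 2 * d := by
  classical
  have hr : r.Prime := hrf.out
  have hrq := not_dvd_card hq hrF
  obtain ⟨a', ha'⟩ := hae
  have ha'2 : a = 2 * a' := by omega
  -- a base point
  have hD₀ : Nonempty (DecSet d a t F) := by
    have hT1 : (LinearMap.id : VV →ₗ[F] VV) ^ r = 1 := by
      rw [← Module.End.one_eq_id, one_pow]
    have halt : ∀ v, sympB d F v v = 0 := fun v => sympForm_self v
    have hnd : NDOn (sympB d F) ⊤ := fun v _ hv => Cfsg.Agent.S5983.symp_nd v fun w => hv w trivial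
    have hfixtop : fixS (LinearMap.id : VV →ₗ[F] VV) ⊤ = ⊤ := by
      apply le_antisymm le_top
      intro v _
      exact mem_fixS.mpr ⟨trivial, rfl⟩
    have htop : finrank F (⊤ : Submodule F VV) = 2 * d := by
      rw [finrank_top, Cfsg.Agent.S5983.finrank_V]
    obtain ⟨D, hD1, hD2, hD3⟩ := exists_split (T := LinearMap.id) hq hr2 hrF halt (fun u v => rfl) hT1 a ⟨a', ha'⟩ t ⊤ hnd (fun _ _ => trivial)
      (by rw [htop, hat, mul_comm]) (by
        rw [hfixtop, htop, hat, mul_comm]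
        exact Nat.mul_le_mul_right t (by
          rcases Nat.eq_zero_or_pos (blockDim r q) with h4 | h4
          · rw [h4, Nat.mod_zero]
          · exact Nat.mod_le _ _))
    exact ⟨⟨D, dec_of_split ht (by omega) D (fun j => (hD1 j).2.1) (fun j => (hD1 j).2.2.2) hD2 hD3⟩⟩
  obtain ⟨D₀⟩ := hD₀
  have h1 : r ∣ Nat.card (DecSet d a t F) := Dvd.dvd.trans (Dvd.intro_left _ rfl) ((Nat.dvd_div_iff_mul_dvd (fact_dvd (d := d) (a := a) (t := t) (F := F))).mp hΩ)
  have h2 : r ∣ Nat.card (symplecticGroup (Fin d) F) := h1.trans (card_dvd_sp ha'2 hat D₀)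
  have h3 := Cfsg.Agent.Lib.SpOrder.card_Sp (F := F) d
  rw [Cfsg.Agent.Lib.SpBasic.Sp, hq] at h3
  rw [h3] at h2
  rcases (Nat.Prime.dvd_mul hr).1 h2 with h4 | h4
  · exact absurd (hr.dvd_of_dvd_pow h4) hrq
  · obtain ⟨j, hj, hj2⟩ := (Prime.dvd_finset_prod_iff hr.prime _).1 h4
    have hj' : j < d := Finset.mem_range.mp hj
    have hq1 : 1 ≤ q ^ (2 * (j + 1)) := Nat.one_le_pow _ _ (Nat.pos_of_ne_zero (fun h => by
      rw [← hq] at h
      exact Fintype.card_ne_zero h))
    have h5 : (q : ZMod r) ^ (2 * (j + 1)) = 1 := by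
      have h6 := (ZMod.natCast_eq_zero_iff _ _).mpr hj2
      rw [Nat.cast_sub hq1] at h6
      push_cast at h6
      exact sub_eq_zero.mp h6
    have h6 : orderOf (q : ZMod r) ∣ 2 * (j + 1) := orderOf_dvd_of_pow_eq_one h5
    have h7 : blockDim r q ≤ 2 * (j + 1) := by
      unfold blockDim
      split_ifs with hev
      · exact Nat.le_of_dvd (by omega) h6
      · have h8 : orderOf (q : ZMod r) ∣ j + 1 := (Nat.Coprime.dvd_of_dvd_mul_left (by
          rw [Nat.coprime_two_right]
          exact Nat.not_even_iff_odd.mp hev) h6)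
        have := Nat.le_of_dvd (by omega) h8
        omega
    omega

/-- The direction from fixed points to arithmetic. -/
theorem forward_split [hrf : Fact r.Prime] (hq : Fintype.card F = q) (hd : 0 < d) (hr2 : r ≠ 2) (hrF : (r : F) ≠ 0)
    (hat : 2 * d = a * t) (ha : 2 ≤ a) (hae : Even a) (ht : 2 ≤ t) (hle : blockDim r q ≤ 2 * d)
    (H : ∀ x : symplecticGroup (Fin d) F, x ^ r = 1 → x ≠ 1 →
      ∃ D : Fin t → Submodule F VV, DecP d a t F D ∧ ∃ σ : Equiv.Perm (Fin t), ∀ j, (D j).map (Matrix.toLin' (x : Matrix (Fin d ⊕ Fin d) (Fin d ⊕ Fin d) F)) = D (σ j)) :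
    blockDim r q ≤ a ∧ (2 * d) % blockDim r q = t * (a % blockDim r q) := by
  classical
  have hr : r.Prime := hrf.out
  have hcpos := blockDim_pos hq hrF
  obtain ⟨c', hc'⟩ := blockDim_even r q
  have hc2 : blockDim r q = 2 * c' := by omega
  obtain ⟨T₀, hT₀1, hT₀2, hT₀3⟩ := exists_block_elt (F := F) hq hr2 hrF hc2
  have halt : ∀ v, sympB d F v v = 0 := fun v => sympForm_self v
  have hB : GoodForm (sympB d F) := Or.inl halt
  have hnd : NDOn (sympB d F) ⊤ := fun v _ hv => Cfsg.Agent.S5983.symp_nd v fun w => hv w trivial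
  -- general facts for any element
  have hfacts : ∀ (x : symplecticGroup (Fin d) F) (hxr : x ^ r = 1) (D : Fin t → Submodule F VV) (hD : DecP d a t F D) (σ : Equiv.Perm (Fin t))
      (hσ : ∀ j, (D j).map (Matrix.toLin' (x : Matrix (Fin d ⊕ Fin d) (Fin d ⊕ Fin d) F)) = D (σ j)),
      (Matrix.toLin' (x : Matrix (Fin d ⊕ Fin d) (Fin d ⊕ Fin d) F)) ^ r = 1 ∧
      (∀ u v, sympB d F (Matrix.toLin' (x : Matrix (Fin d ⊕ Fin d) (Fin d ⊕ Fin d) F) u) (Matrix.toLin' (x : Matrix (Fin d ⊕ Fin d) (Fin d ⊕ Fin d) F) v) = sympB d F u v) ∧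
      (∀ j, NDOn (sympB d F) (D j)) ∧ (∀ j, ∀ u ∈ D j, Matrix.toLin' (x : Matrix (Fin d ⊕ Fin d) (Fin d ⊕ Fin d) F) u ∈ D (σ j)) := by
    intro x hxr D hD σ hσ
    refine ⟨?_, ?_, ?_, ?_⟩
    · have h2 : Matrix.toLin' (x : Matrix (Fin d ⊕ Fin d) (Fin d ⊕ Fin d) F) = Matrix.toLinAlgEquiv' (x : Matrix (Fin d ⊕ Fin d) (Fin d ⊕ Fin d) F) := rfl
      have h3 : (Matrix.toLinAlgEquiv' (x : Matrix (Fin d ⊕ Fin d) (Fin d ⊕ Fin d) F)) ^ r = Matrix.toLinAlgEquiv' ((x ^ r : symplecticGroup (Fin d) F) : Matrix (Fin d ⊕ Fin d) (Fin d ⊕ Fin d) F) := by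
        rw [← map_pow]
        rfl
      rw [h2, h3, hxr]
      exact map_one _
    · intro u v
      rw [sympB_apply, sympB_apply, Matrix.toLin'_apply, Matrix.toLin'_apply]
      exact (mem_symplecticGroup_iff_preserves _).1 x.2 u v
    · intro j u hu h0
      by_contra hu0
      obtain ⟨v, hv, huv⟩ := hD.2.1 j u hu hu0
      exact huv (h0 v hv)
    · intro j u hu
      rw [← hσ j]
      exact ⟨u, hu, rfl⟩
  have hrankfix : ∀ (T : VV →ₗ[F] VV), finrank F (LinearMap.range (T - LinearMap.id)) + finrank F (fixS T ⊤) = 2 * d := by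
    intro T
    have h1 := LinearMap.finrank_range_add_finrank_ker (T - LinearMap.id)
    rw [Cfsg.Agent.S5983.finrank_V] at h1
    have h2 : fixS T ⊤ = LinearMap.ker (T - LinearMap.id) := top_inf_eq _
    rw [h2]
    exact h1
  have hx1ne : ∀ (x : symplecticGroup (Fin d) F) (s : ℕ), 0 < s →
      finrank F (fixS (Matrix.toLin' (x : Matrix (Fin d ⊕ Fin d) (Fin d ⊕ Fin d) F)) ⊤) + s * (2 * c') = 2 * d → x ≠ 1 := by
    rintro x s hs hfx rfl
    have h1 : fixS (Matrix.toLin' ((1 : symplecticGroup (Fin d) F) : Matrix (Fin d ⊕ Fin d) (Fin d ⊕ Fin d) F)) ⊤ = ⊤ := by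
      apply le_antisymm le_top
      intro v _
      rw [mem_fixS]
      refine ⟨trivial, ?_⟩
      rw [Matrix.toLin'_apply]
      exact Matrix.one_mulVec v
    rw [h1, finrank_top, Cfsg.Agent.S5983.finrank_V] at hfx
    have : 0 < s * (2 * c') := Nat.mul_pos hs (by omega)
    omega
  have hc'd : c' ≤ d := by omega
  have hcle : blockDim r q ≤ a := by
    by_contra hlt
    rw [not_le] at hlt
    obtain ⟨m, hm⟩ := Nat.exists_eq_add_of_le hc'd
    obtain ⟨x, hxr, hxfix⟩ := exists_x_blocks (F := F) (d := d) (s := 1) (c' := c') (m := m) (by omega) T₀ hT₀1 hT₀2 hT₀3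
    obtain ⟨D, hD, σ, hσ⟩ := H x hxr (hx1ne x 1 one_pos hxfix)
    obtain ⟨h1, h2, h3, h4⟩ := hfacts x hxr D hD σ hσ
    by_cases hmv : ∃ j₀, σ j₀ ≠ j₀
    · obtain ⟨j₀, hj₀⟩ := hmv
      have h5 := (orbit_bounds hB h3 hD.1.finrank_eq (by omega) hD.2.2 σ h4 hr h1 h2 hj₀).2
      have h6 := hrankfix (Matrix.toLin' (x : Matrix (Fin d ⊕ Fin d) (Fin d ⊕ Fin d) F))
      have h7 := blockDim_le hq hr2 hrF
      have h8 : finrank F (LinearMap.range ((Matrix.toLin' (x : Matrix (Fin d ⊕ Fin d) (Fin d ⊕ Fin d) F)) - LinearMap.id)) = blockDim r q := by omega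
      rw [h8] at h5
      have h9 : (r - 1) * 2 ≤ (r - 1) * a := Nat.mul_le_mul_left _ ha
      have := hr.two_le
      omega
    · have hσ1 : ∀ j, σ j = j := by
        intro j
        by_contra hne
        exact hmv ⟨j, hne⟩
      have hinv : ∀ j, InvOn (Matrix.toLin' (x : Matrix (Fin d ⊕ Fin d) (Fin d ⊕ Fin d) F)) (D j) := by
        intro j u hu
        have := h4 j u hu
        rwa [hσ1] at this
      by_cases hall : ∀ j, ∀ u ∈ D j, Matrix.toLin' (x : Matrix (Fin d ⊕ Fin d) (Fin d ⊕ Fin d) F) u = u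
      · have h5 : fixS (Matrix.toLin' (x : Matrix (Fin d ⊕ Fin d) (Fin d ⊕ Fin d) F)) ⊤ = ⊤ := by
          apply le_antisymm le_top
          conv_lhs => rw [← hD.1.iSup_eq_top]
          apply iSup_le
          intro j u hu
          exact mem_fixS.mpr ⟨trivial, hall j u hu⟩
        rw [h5, finrank_top, Cfsg.Agent.S5983.finrank_V] at hxfix
        omega
      · have hex : ∃ j, ∃ u ∈ D j, Matrix.toLin' (x : Matrix (Fin d ⊕ Fin d) (Fin d ⊕ Fin d) F) u ≠ u := by
          by_contra hno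
          apply hall
          intro j u hu
          by_contra hne
          exact hno ⟨j, u, hu, hne⟩
        obtain ⟨j, u, hu, hne⟩ := hex
        obtain ⟨W, hW1, -, -, -, hW5⟩ := exists_block_rel hq hr2 hrF hB h2 h1 (h3 j) (hinv j) ⟨u, hu, hne⟩
        change finrank F W = blockDim r q at hW5
        have h6 := Submodule.finrank_mono hW1
        rw [hW5, hD.1.finrank_eq j] at h6
        omega
  refine ⟨hcle, ?_⟩
  -- the element with all blocks
  set s := (2 * d) / blockDim r q with hs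
  have hdecomp : blockDim r q * s + (2 * d) % blockDim r q = 2 * d := Nat.div_add_mod _ _
  have hspos : 0 < s := Nat.div_pos hle hcpos
  have hklt : (2 * d) % blockDim r q < blockDim r q := Nat.mod_lt _ hcpos
  obtain ⟨m, hm⟩ : ∃ m, (2 * d) % blockDim r q = 2 * m := by
    have hev : Even ((2 * d) % blockDim r q) := by
      have h1 : Even (blockDim r q * s) := (blockDim_even r q).mul_right s
      have h2 : Even (2 * d) := even_two_mul d
      rw [← hdecomp] at h2
      exact (Nat.even_add.mp h2).mp h1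
    obtain ⟨m, hm⟩ := hev
    exact ⟨m, by omega⟩
  obtain ⟨x, hxr, hxfix⟩ := exists_x_blocks (F := F) (d := d) (s := s) (c' := c') (m := m) (by
    have h0 := hdecomp
    rw [hm, hc2] at h0
    have : 2 * c' * s + 2 * m = 2 * (s * c' + m) := by ring
    omega) T₀ hT₀1 hT₀2 hT₀3
  have hfixk : finrank F (fixS (Matrix.toLin' (x : Matrix (Fin d ⊕ Fin d) (Fin d ⊕ Fin d) F)) ⊤) = (2 * d) % blockDim r q := by
    have h1 : s * (2 * c') = blockDim r q * s := by rw [hc2]; ring
    rw [h1] at hxfix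
    omega
  obtain ⟨D, hD, σ, hσ⟩ := H x hxr (hx1ne x s hspos hxfix)
  obtain ⟨h1, h2, h3, h4⟩ := hfacts x hxr D hD σ hσ
  by_cases hmv : ∃ j₀, σ j₀ ≠ j₀
  · exfalso
    obtain ⟨j₀, hj₀⟩ := hmv
    have h5 := (orbit_bounds hB h3 hD.1.finrank_eq (by omega) hD.2.2 σ h4 hr h1 h2 hj₀).1
    omega
  · have hσ1 : ∀ j, σ j = j := by
      intro j
      by_contra hne
      exact hmv ⟨j, hne⟩
    have hinv : ∀ j, InvOn (Matrix.toLin' (x : Matrix (Fin d ⊕ Fin d) (Fin d ⊕ Fin d) F)) (D j) := by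
      intro j u hu
      have := h4 j u hu
      rwa [hσ1] at this
    have hsum := sum_fix_le (T := Matrix.toLin' (x : Matrix (Fin d ⊕ Fin d) (Fin d ⊕ Fin d) F)) hB h3 hD.2.2
    rw [hfixk] at hsum
    have hge : ∀ j, a % blockDim r q ≤ finrank F (fixS (Matrix.toLin' (x : Matrix (Fin d ⊕ Fin d) (Fin d ⊕ Fin d) F)) (D j)) := by
      intro j
      obtain ⟨k, hk⟩ := finrank_fix_add hq hr2 hrF hB h2 h1 (h3 j) (hinv j)
      rw [hD.1.finrank_eq j] at hk
      rw [hk, Nat.add_mul_mod_self_left]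
      exact Nat.mod_le _ _
    have hle2 : t * (a % blockDim r q) ≤ (2 * d) % blockDim r q := by
      calc t * (a % blockDim r q) = ∑ j : Fin t, a % blockDim r q := by simp
        _ ≤ ∑ j, finrank F (fixS (Matrix.toLin' (x : Matrix (Fin d ⊕ Fin d) (Fin d ⊕ Fin d) F)) (D j)) := Finset.sum_le_sum fun j _ => hge j
        _ ≤ _ := hsum
    have h7 : (2 * d) % blockDim r q = (t * (a % blockDim r q)) % blockDim r q := by
      rw [hat, mul_comm a t, Nat.mul_mod, Nat.mul_mod t (a % blockDim r q), Nat.mod_mod]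
    rw [h7]
    exact Nat.mod_eq_of_lt (by omega)

end main



/-- Elements of odd prime order of PSp_n(q) and imprimitive subgroups. Here `T = PSp_n(q)`, `n = 2d ≥ 4`, `(n, q) ≠ (4, 2)`, realised through the symplectic matrices over the field `F` with `q` elements and the standard alternating form; `n = a·t` with `a` even and `t ≥ 2`, and Ω is the (nonempty) set of orthogonal decompositions of `F^n` into `t` nondegenerate subspaces of dimension `a` (unordered; counted as ordered ones divided by `t!`), whose stabilizers are the imprimitive subgroups of type Sp_a(q) ≀ S_t (maximality is not assumed); an element of `T` of prime order `r` (a symplectic matrix `x` with `x^r` scalar, `x` not scalar) fixes a point of Ω when it permutes the summands of some such decomposition. Let `r ≠ p` be an odd prime dividing the number of such decompositions, let `i` be the multiplicative order of `q` modulo `r`, `c = i` if `i` is even and `c = 2i` if `i` is odd, and write `k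 = n mod c`, `ℓ = a mod c`. Then every element of `T` of order `r` stabilizes such a decomposition if and only if `c ≤ a` and `k = t·ℓ`. -/
theorem result {F : Type*} [Field F] [Fintype F] {p : ℕ} [Fact p.Prime] [CharP F p] {q : ℕ} (hq : Fintype.card F = q)
    (d : ℕ) (hd : 2 ≤ d) (hT : (d, q) ≠ (2, 2))
    (a t : ℕ) (hat : 2 * d = a * t) (ha : 2 ≤ a) (hae : Even a) (ht : 2 ≤ t)
    (r : ℕ) [Fact r.Prime] (hr2 : r ≠ 2) (hrp : r ≠ p) (hΩ : r ∣ Nat.card {D : Fin t → Submodule F (Fin d ⊕ Fin d → F) // (Cfsg.Geo.IsMDecomposition a D ∧ (∀ j, ∀ u ∈ D j, u ≠ 0 → ∃ v ∈ D j, Cfsg.sympForm d F u v ≠ 0) ∧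
          (∀ j j', j ≠ j' → ∀ u ∈ D j, ∀ v ∈ D j', Cfsg.sympForm d F u v = 0))} / Nat.factorial t)
    (i c : ℕ) (hi : i = orderOf (q : ZMod r)) (hc : c = if Even i then i else 2 * i) :
    (∀ x : ↥(Matrix.symplecticGroup (Fin d) F),
      (∃ z : F, ((x ^ r : ↥(Matrix.symplecticGroup (Fin d) F)) : Matrix (Fin d ⊕ Fin d) (Fin d ⊕ Fin d) F) = z • (1 : Matrix (Fin d ⊕ Fin d) (Fin d ⊕ Fin d) F)) →
      (∀ z : F, (x : Matrix (Fin d ⊕ Fin d) (Fin d ⊕ Fin d) F) ≠ z • (1 : Matrix (Fin d ⊕ Fin d) (Fin d ⊕ Fin d) F)) →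
      ∃ D : Fin t → Submodule F (Fin d ⊕ Fin d → F), (Cfsg.Geo.IsMDecomposition a D ∧ (∀ j, ∀ u ∈ D j, u ≠ 0 → ∃ v ∈ D j, Cfsg.sympForm d F u v ≠ 0) ∧
          (∀ j j', j ≠ j' → ∀ u ∈ D j, ∀ v ∈ D j', Cfsg.sympForm d F u v = 0)) ∧
        ∃ σ : Equiv.Perm (Fin t), ∀ j, (D j).map (Matrix.toLin' (x : Matrix (Fin d ⊕ Fin d) (Fin d ⊕ Fin d) F)) = D (σ j)) ↔
    (c ≤ a ∧ (2 * d) % c = t * (a % c)) := by
  classical
  have hrF : (r : F) ≠ 0 := by
    intro h
    have h1 := (CharP.cast_eq_zero_iff F p r).mp h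
    exact hrp ((Nat.prime_dvd_prime_iff_eq (Fact.out : p.Prime) (Fact.out : r.Prime)).mp h1).symm
  have hd0 : 0 < d := by omega
  have hcb : c = blockDim r q := by
    rw [hc, hi]
    rfl
  rw [hcb]
  constructor
  · intro H
    have hle : blockDim r q ≤ 2 * d := block_le hq hr2 hrF hd0 hat ha hae ht hΩ
    refine forward_split hq hd0 hr2 hrF hat ha hae ht hle ?_
    intro x hxr hx1
    obtain ⟨D, hD, hD2⟩ := H x ⟨1, by
      rw [hxr, one_smul]
      rfl⟩ (by
        intro z hz
        have hz2 := scalar_sq hd0 x z hz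
        apply hx1
        apply Subtype.ext
        have h1 := congrArg Subtype.val hxr
        rw [SubmonoidClass.coe_pow, hz, _root_.smul_pow, one_pow] at h1
        have h3 : z ^ r * z = 1 := by
          obtain ⟨k, hk⟩ := (Fact.out : r.Prime).odd_of_ne_two hr2
          rw [hk, pow_succ, pow_mul, pow_two, hz2, one_pow, one_mul, hz2]
        have h4 : z ^ r = 1 := by
          have h5 := congrFun (congrFun h1 (Sum.inl ⟨0, hd0⟩)) (Sum.inl ⟨0, hd0⟩)
          simpa using h5
        rw [h4, one_mul] at h3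
        rw [hz, h3, one_smul]
        rfl)
    exact ⟨D, hD, hD2⟩
  · rintro ⟨-, hk⟩ x ⟨z, hz⟩ hns
    obtain ⟨D, hD, hD2⟩ := backward_split hq hd0 hr2 hrF hat ha hae ht hk x z hz
    exact ⟨D, hD, 1, hD2⟩

end Cfsg.Agent.S5961
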