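import Cfsg.Statements.S2674
import Mathlib
import Cfsg.Agent.Lib.OrthRealize

set_option autoImplicit false
open Cfsg

namespace Cfsg.Agent.S2674

open Polynomial Module QuadraticMap
open Cfsg.Agent.Lib.PrimeFactors Cfsg.Agent.Lib.DualFactors Cfsg.Agent.Lib.SemisimpleGL Cfsg.Agent.Lib.SpRealize
open Cfsg.Agent.Lib.QuadFF Cfsg.Agent.Lib.OrthoBasic Cfsg.Agent.Lib.OrthoCount Cfsg.Agent.Lib.QuadClass Cfsg.Agent.Lib.OrthRealize

section aux

variable {F : Type*} [Field F] [Fintype F]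

theorem nd_plus (m : ℕ) : ND (qPlus m F) := by
  intro x hx
  by_contra hne
  obtain ⟨y, hy⟩ := Cfsg.Agent.Lib.OrthoOrder.nondeg_qPlus m x hne
  exact hy (hx y)

theorem plus_P {p : ℕ} [Fact p.Prime] [CharP F p] {m r : ℕ} (hm : 1 ≤ m) [hrp : Fact r.Prime] (hrF : (r : F) ≠ 0) (hr0 : r ≠ 0)
    (hq : ((Fintype.card F : ℕ) : ZMod r) ≠ 0) (a : ↥(Idx F r) → ℕ)
    (g : ↥(Cfsg.isometryGroup F (Cfsg.quadFormPlus m F))) (hg : orderOf g = r)
    (hc : ((g : Matrix.GeneralLinearGroup (Fin m ⊕ Fin m) F) : Matrix (Fin m ⊕ Fin m) (Fin m ⊕ Fin m) F).charpoly = Pa F r (Fintype.card (Fin m ⊕ Fin m)) a)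
    (h : orderOf ((Fintype.card F : ℕ) : ZMod r) * ∑ j, a j = 2 * m) :
    ((Fintype.card F : ℕ) : ZMod r) ^ m = 1 := by
  classical
  obtain ⟨k, rfl⟩ : ∃ k, m = k + 1 := ⟨m - 1, by omega⟩
  have hcard : Fintype.card (Fin (k + 1) ⊕ Fin (k + 1)) = 2 * (k + 1) := by
    simp [two_mul]
  rw [hcard, Pa_eq_mul, h, Nat.sub_self, pow_zero, mul_one] at hc
  obtain ⟨T, hT⟩ : ∃ T, T = Matrix.toLin' ((g : Matrix.GeneralLinearGroup (Fin (k + 1) ⊕ Fin (k + 1)) F) : Matrix (Fin (k + 1) ⊕ Fin (k + 1)) (Fin (k + 1) ⊕ Fin (k + 1)) F) := ⟨_, rfl⟩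
  have hTv : ∀ v, T v = ((g : Matrix.GeneralLinearGroup (Fin (k + 1) ⊕ Fin (k + 1)) F) : Matrix (Fin (k + 1) ⊕ Fin (k + 1)) (Fin (k + 1) ⊕ Fin (k + 1)) F).mulVec v := fun v => by
    rw [hT]
    rfl
  have hTc : T.charpoly = ∏ j : ↥(Idx F r), (j : F[X]) ^ a j := by
    rw [hT, Matrix.charpoly_toLin', hc]
  have hI : ∀ x, qPlus (k + 1) F (T x) = qPlus (k + 1) F x := by
    intro x
    rw [hTv, qPlus_apply, qPlus_apply]
    exact g.2 x x
  have hTr : T ^ r = 1 := by
    rw [hT, toLin_pow]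
    have h1 : ((g : Matrix.GeneralLinearGroup (Fin (k + 1) ⊕ Fin (k + 1)) F) : Matrix (Fin (k + 1) ⊕ Fin (k + 1)) (Fin (k + 1) ⊕ Fin (k + 1)) F) ^ r = 1 := by
      have h2 : ((g ^ r : ↥(Cfsg.isometryGroup F (Cfsg.quadFormPlus (k + 1) F))) : Matrix.GeneralLinearGroup (Fin (k + 1) ⊕ Fin (k + 1)) F) = 1 := by
        rw [← hg, pow_orderOf_eq_one]
        rfl
      have h3 := congrArg Units.val h2
      rw [Subgroup.coe_pow, Units.val_pow_eq_pow_val] at h3
      exact h3
    rw [h1, Matrix.toLin'_one]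
    rfl
  have hfree : ∀ x, T x = x → x = 0 := free_of_eval (by
    rw [hTc]
    exact eval_prod_ne hrF hr0 a)
  exact (free_type (nd_plus (k + 1)) (k := k) T hI hTr hfree hq).1 ⟨_, hypBasis_qPlus (k + 1)⟩

theorem plus_hex {p : ℕ} [Fact p.Prime] [CharP F p] {m r : ℕ} [hrp : Fact r.Prime] (hr2 : r ≠ 2) (hrF : (r : F) ≠ 0) (hr0 : r ≠ 0)
    (hq : ((Fintype.card F : ℕ) : ZMod r) ≠ 0) (a : ↥(Idx F r) → ℕ) (ha : a ≠ 0)
    (hinv : a ∘ dl (σ := RingHom.id F) (fun x => rfl) rfl hrF hr0 = a)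
    (hle : orderOf ((Fintype.card F : ℕ) : ZMod r) * ∑ j, a j ≤ Fintype.card (Fin m ⊕ Fin m))
    (hP : orderOf ((Fintype.card F : ℕ) : ZMod r) * ∑ j, a j = 2 * m → ((Fintype.card F : ℕ) : ZMod r) ^ m = 1) :
    ∃ g : ↥(Cfsg.isometryGroup F (Cfsg.quadFormPlus m F)),
      ((g : Matrix.GeneralLinearGroup (Fin m ⊕ Fin m) F) : Matrix (Fin m ⊕ Fin m) (Fin m ⊕ Fin m) F).charpoly = Pa F r (Fintype.card (Fin m ⊕ Fin m)) a ∧ orderOf g = r := by
  have hcard : Fintype.card (Fin m ⊕ Fin m) = 2 * m := by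
    simp [two_mul]
  refine exists_elt p _ (qPlus m F) (fun v => (qPlus_apply m v).symm) hr2 hrF hr0 ha hinv hle ?_
  intro U _ _ _ QU T hN hI hTr hfree hdim
  rw [hcard] at hle
  obtain ⟨m', hm'⟩ : ∃ m', orderOf ((Fintype.card F : ℕ) : ZMod r) * ∑ j, a j = 2 * m' := by
    obtain ⟨c, hc⟩ := even_dim hr2 hrF hr0 hinv
    exact ⟨c, by omega⟩
  have hm'0 : m' ≠ 0 := by
    rintro rfl
    apply ha
    have h1 : ∑ j, a j = 0 := by
      have h2 : orderOf ((Fintype.card F : ℕ) : ZMod r) ≠ 0 := by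
        intro h3
        have := card_Idx (F := F) (r := r) hrF
        rw [h3, mul_zero] at this
        have := (Fact.out : r.Prime).two_le
        omega
      rw [mul_zero] at hm'
      exact (mul_eq_zero.1 hm').resolve_left h2
    funext j
    exact (Finset.sum_eq_zero_iff.1 h1) j (Finset.mem_univ j)
  obtain ⟨k, rfl⟩ : ∃ k, m' = k + 1 := ⟨m' - 1, by omega⟩
  have hV : finrank F U = 2 * (k + 1) := by rw [hdim, hm']
  obtain ⟨h₁, h₂⟩ := free_type hN (k := k) T hI hTr hfree hq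
  rcases std_cases hV QU hN with ⟨b, hb⟩ | ⟨k', hk', b, ζ, hb⟩
  · obtain ⟨e, he⟩ := iso_qPlus_of_hyp hb
    exact (show Emb QU (qPlus (k + 1) F) from ⟨e.toLinearMap, he⟩).trans (emb_plus_plus (k + 1) m (by omega))
  · obtain rfl : k = k' := by omega
    by_cases hkm : k + 1 = m
    · exfalso
      have h3 := hP (by rw [hm', hkm])
      have h4 := h₂ ⟨b, ζ, hb⟩
      rw [hkm, h3] at h4
      exact neg_one_ne hr2 h4.symm
    · obtain ⟨e, he⟩ := Cfsg.Agent.Lib.QuadClass2.iso_of_minus_basis hN hb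
      exact (show Emb QU (qMinus k (1 : F) ζ) from ⟨e.toLinearMap, he⟩).trans (emb_minus_plus 1 ζ k m (by omega))

end aux

/-- Number of conjugacy classes of elements of odd prime order r ≠ p in the orthogonal group O⁺_2m(q) of Σ x_j y_j (m ≥ 1): with i the multiplicative order of q mod r and t = (r − 1)/i — if i is odd, C(⌊m/i⌋ + t/2, t/2) − 1; if i is even, C(⌊2m/i⌋ + t, t) − 1 minus, when i divides 2m with odd quotient, the C(2m/i + t − 1, t − 1) tuples using the whole space (an odd number of elliptic i-blocks fills an elliptic, not a hyperbolic, space). -/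
theorem result {F : Type*} [Field F] [Fintype F] {p q : ℕ} [Fact p.Prime] [CharP F p] (hF : Fintype.card F = q) (m r i t : ℕ) (hm : 1 ≤ m) (hr : r.Prime) (hr2 : r ≠ 2) (hrp : r ≠ p) (hi : i = orderOf (q : ZMod r)) (ht : t * i = r - 1) : Nat.card {C : ConjClasses ↥(Cfsg.isometryGroup F (Cfsg.quadFormPlus m F)) // ∃ g : ↥(Cfsg.isometryGroup F (Cfsg.quadFormPlus m F)), ConjClasses.mk g = C ∧ orderOf g = r} = if Odd i then Nat.choose (m / i + t / 2) (t / 2) - 1 else Nat.choose (2 * m / i + t) t - 1 - (if i ∣ 2 * m ∧ Odd (2 * m / i) then Nat.choose (2 * m / i + t - 1) (t - 1) else 0) := by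
  classical
  subst hF
  subst hi
  haveI : Fact r.Prime := ⟨hr⟩
  have hpp : p.Prime := Fact.out
  have hr0 := hr.ne_zero
  have hrF : (r : F) ≠ 0 := by
    rw [Ne, CharP.cast_eq_zero_iff F p]
    intro hd
    exact hrp ((Nat.prime_dvd_prime_iff_eq hpp hr).1 hd).symm
  have hcard := card_Idx (F := F) (r := r) hrF
  have hq : ((Fintype.card F : ℕ) : ZMod r) ≠ 0 := by
    rw [Ne, ZMod.natCast_eq_zero_iff]
    intro hd
    obtain ⟨f, -, hf⟩ := FiniteField.card F p
    rw [hf] at hd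
    have h3 := hr.dvd_of_dvd_pow hd
    exact hrp ((Nat.prime_dvd_prime_iff_eq hr hpp).1 h3)
  have hr2' := hr.two_le
  have hQ : (polarBilin (qPlus m F)).Nondegenerate := nondegenerate_of_ND (nd_plus m)
  have hfix : ∀ j : ↥(Idx F r), dl (σ := RingHom.id F) (fun x => rfl) rfl hrF hr0 j = j ↔ Even (orderOf ((Fintype.card F : ℕ) : ZMod r)) := by
    intro j
    have h1 := dual_fixed_iff (σ := RingHom.id F) (fun x => rfl) hrF j.2 1 (RingHom.id _) (fun x => rfl) (by simp)
    have hx : orderOf ((Fintype.card F : ℕ) : ZMod r) ≠ 0 := by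
      intro h3
      rw [h3, mul_zero] at hcard
      omega
    rw [Nat.cast_one, exists_pow_eq_neg_one_iff hr2 hx] at h1
    rw [← h1]
    exact Subtype.ext_iff
  have key := classes_card p (Cfsg.quadFormPlus m F) (qPlus m F) (fun v => (qPlus_apply m v).symm) hQ hr2 hrF hr0
    (fun a => orderOf ((Fintype.card F : ℕ) : ZMod r) * ∑ j, a j = 2 * m → ((Fintype.card F : ℕ) : ZMod r) ^ m = 1)
    (fun a ha hinv hle hP => plus_hex hr2 hrF hr0 hq a ha hinv hle hP)
    (fun a g hg hc _ h => plus_P hm hrF hr0 hq a g hg hc h)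
  rw [key]
  have hcι : Fintype.card (Fin m ⊕ Fin m) = 2 * m := by
    simp [two_mul]
  rw [hcι]
  obtain ⟨x, hx⟩ : ∃ x : ZMod r, x = ((Fintype.card F : ℕ) : ZMod r) := ⟨_, rfl⟩
  rw [← hx] at hfix hcard ht ⊢
  obtain ⟨i, hi⟩ : ∃ i, i = orderOf x := ⟨_, rfl⟩
  rw [← hi] at hfix hcard ht ⊢
  have hipos : 0 < i := by
    rcases Nat.eq_zero_or_pos i with h | h
    · rw [h, mul_zero] at hcard
      omega
    · exact h
  have hxi : x ^ i = 1 := by
    rw [hi]
    exact pow_orderOf_eq_one x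
  have htc : Fintype.card ↥(Idx F r) = t := Nat.eq_of_mul_eq_mul_right hipos (hcard.trans ht.symm)
  have htpos : 1 ≤ t := by
    rcases Nat.eq_zero_or_pos t with h | h
    · rw [h, zero_mul] at ht
      omega
    · exact h
  have hσ : ∀ x : F, RingHom.id F (RingHom.id F x) = x := fun x => rfl
  split_ifs with hodd hex
  · -- i odd
    have hne : ¬ Even i := Nat.not_even_iff_odd.2 hodd
    have h1 : 2 * m / (2 * i) = m / i := Nat.mul_div_mul_left _ _ (by norm_num)
    rw [← h1, ← htc, ← card_inv_fpf _ (dl_dl (σ := RingHom.id F) (fun x => rfl) rfl hrF hr0) (fun j h => hne ((hfix j).1 h)) i (2 * m) hipos]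
    refine Nat.card_congr (Equiv.subtypeEquivRight fun a => ?_)
    constructor
    · rintro ⟨h2, h3, h4, -⟩
      exact ⟨h2, h3, h4⟩
    · rintro ⟨h2, h3, h4⟩
      refine ⟨h2, h3, h4, fun h5 => ?_⟩
      have h6 : Even (i * ∑ j, a j) := by
        rw [hi]
        have := even_dim hr2 hrF hr0 h3
        rwa [← hx] at this
      have h7 : Even (∑ j, a j) := (Nat.even_mul.1 h6).resolve_left hne
      obtain ⟨s, hs⟩ := h7
      have h8 : m = i * s := by
        rw [hs] at h5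
        nlinarith
      rw [h8, pow_mul, hxi, one_pow]
  · -- i even, the whole space is excluded
    rw [Nat.not_odd_iff_even] at hodd
    obtain ⟨hdvd, hKodd⟩ := hex
    obtain ⟨K, hK⟩ : ∃ K, K = 2 * m / i := ⟨_, rfl⟩
    rw [← hK] at hKodd ⊢
    have hiK : i * K = 2 * m := by
      rw [hK]
      exact Nat.mul_div_cancel' hdvd
    have hK1 : 1 ≤ K := by
      obtain ⟨s, hs⟩ := hKodd
      omega
    have hid : dl (σ := RingHom.id F) (fun x => rfl) rfl hrF hr0 = id := funext fun j => (hfix j).2 hodd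
    obtain ⟨c, hc⟩ : ∃ c, i = 2 * c := by
      obtain ⟨c, hc⟩ := hodd
      exact ⟨c, by omega⟩
    have hcpos : 0 < c := by omega
    have hxc := pow_half hr2 hcpos (hi ▸ hc)
    have hpas : (K + t).choose t = (K + t - 1).choose (t - 1) + (K + t - 1).choose t := by
      obtain ⟨u, rfl⟩ : ∃ u, t = u + 1 := ⟨t - 1, by omega⟩
      have h5 : K + (u + 1) - 1 = K + u := by omega
      rw [h5, show K + (u + 1) = (K + u) + 1 by ring, Nat.add_sub_cancel, Nat.choose_succ_succ]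
    have hcount : Nat.card {a : ↥(Idx F r) → ℕ // a ≠ 0 ∧ a ∘ dl (σ := RingHom.id F) (fun x => rfl) rfl hrF hr0 = a ∧ i * ∑ j, a j ≤ 2 * m ∧
        (i * ∑ j, a j = 2 * m → x ^ m = 1)} = (K + t - 1).choose t - 1 := by
      have h2 := card_tuples_ne (ι := ↥(Idx F r)) (K - 1)
      rw [htc, show K - 1 + t = K + t - 1 by omega] at h2
      rw [← h2]
      refine Nat.card_congr (Equiv.subtypeEquivRight fun a => ?_)
      constructor
      · rintro ⟨h3, -, h4, h5⟩
        refine ⟨h3, ?_⟩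
        have h6 : ∑ j, a j ≤ K := by
          rw [← hiK] at h4
          exact Nat.le_of_mul_le_mul_left h4 hipos
        by_contra h7
        have h8 : ∑ j, a j = K := by omega
        have h9 : i * ∑ j, a j = 2 * m := by rw [h8, hiK]
        have h10 := h5 h9
        have h11 : m = c * K := by
          rw [hc] at hiK
          nlinarith
        rw [h11, pow_mul, hxc, hKodd.neg_one_pow] at h10
        exact neg_one_ne hr2 h10
      · rintro ⟨h3, h4⟩
        refine ⟨h3, by rw [hid]; rfl, ?_, ?_⟩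
        · rw [← hiK]
          exact Nat.mul_le_mul_left i (by omega)
        · intro h5
          exfalso
          rw [← hiK] at h5
          have h6 := Nat.eq_of_mul_eq_mul_left hipos h5
          omega
    rw [hcount, hpas]
    omega
  · -- i even, nothing is excluded
    rw [Nat.not_odd_iff_even] at hodd
    have hid : dl (σ := RingHom.id F) (fun x => rfl) rfl hrF hr0 = id := funext fun j => (hfix j).2 hodd
    obtain ⟨c, hc⟩ : ∃ c, i = 2 * c := by
      obtain ⟨c, hc⟩ := hodd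
      exact ⟨c, by omega⟩
    have hcpos : 0 < c := by omega
    have hxc := pow_half hr2 hcpos (hi ▸ hc)
    rw [Nat.sub_zero, ← htc, ← card_inv_id i (2 * m) hipos]
    refine Nat.card_congr (Equiv.subtypeEquivRight fun a => ?_)
    constructor
    · rintro ⟨h2, -, h4, -⟩
      exact ⟨h2, h4⟩
    · rintro ⟨h2, h4⟩
      refine ⟨h2, by rw [hid]; rfl, h4, fun h5 => ?_⟩
      have hdvd : i ∣ 2 * m := ⟨_, h5.symm⟩
      have h6 : 2 * m / i = ∑ j, a j := by
        rw [← h5]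
        exact Nat.mul_div_cancel_left _ hipos
      have h7 : ¬ Odd (∑ j, a j) := by
        intro h8
        apply hex
        exact ⟨hdvd, by rwa [h6]⟩
      rw [Nat.not_odd_iff_even] at h7
      have h11 : m = c * ∑ j, a j := by
        rw [hc] at h5
        nlinarith
      rw [h11, pow_mul, hxc, h7.neg_one_pow]

end Cfsg.Agent.S2674
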