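import Cfsg.Statements.S2675
import Mathlib
import Cfsg.Agent.Lib.OrthRealize

set_option autoImplicit false
open Cfsg

namespace Cfsg.Agent.S2675

open Polynomial Module QuadraticMap
open Cfsg.Agent.Lib.PrimeFactors Cfsg.Agent.Lib.DualFactors Cfsg.Agent.Lib.SemisimpleGL Cfsg.Agent.Lib.SpRealize
open Cfsg.Agent.Lib.QuadFF Cfsg.Agent.Lib.OrthoBasic Cfsg.Agent.Lib.OrthoCount Cfsg.Agent.Lib.QuadClass Cfsg.Agent.Lib.OrthRealize

section aux

variable {F : Type*} [Field F] [Fintype F]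


theorem cnt_odd {ι : Type*} [Fintype ι] {R : Type*} [Ring R] (δ : ι → ι) (hδ : ∀ j, δ (δ j) = j) (hne : ∀ j, δ j ≠ j)
    (x : R) (hneg : (1 : R) ≠ -1) (i m t : ℕ) (hipos : 0 < i) (hm1 : 1 ≤ m) (hxi : x ^ i = 1)
    (htc : Fintype.card ι = t) (htpos : 1 ≤ t) (hevsum : ∀ a : ι → ℕ, a ∘ δ = a → Even (∑ j, a j)) :
    Nat.card {a : ι → ℕ // a ≠ 0 ∧ a ∘ δ = a ∧ i * ∑ j, a j ≤ 2 * m ∧ (i * ∑ j, a j = 2 * m → x ^ m = -1)} =
      (m / i + t / 2).choose (t / 2) - 1 - (if i ∣ m then (m / i + t / 2 - 1).choose (t / 2 - 1) else 0) := by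
  classical
  have ht2 : 2 ∣ t := by
    rw [← htc]
    haveI : Fintype (Quotient (orbSetoid δ hδ)) := Fintype.ofFinite _
    rw [card_orb δ hδ hne]
    exact dvd_mul_right _ _
  have hu1 : 1 ≤ t / 2 := by omega
  have hfpf := fun n => card_inv_fpf δ hδ hne i n hipos
  rw [htc] at hfpf
  obtain ⟨u, hu⟩ : ∃ u, u = t / 2 := ⟨_, rfl⟩
  rw [← hu] at hfpf hu1 ⊢
  split_ifs with hdvd
  · obtain ⟨K, hK⟩ := hdvd
    have hK1 : 1 ≤ K := by
      rcases Nat.eq_zero_or_pos K with h | h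
      · rw [h, mul_zero] at hK
        omega
      · exact h
    have hdiv : m / i = K := by
      rw [hK]
      exact Nat.mul_div_cancel_left _ hipos
    rw [hdiv]
    have h1 : 2 * i * (K - 1) / (2 * i) = K - 1 := Nat.mul_div_cancel_left _ (by omega)
    have h2 := hfpf (2 * i * (K - 1))
    rw [h1, show K - 1 + u = K + u - 1 by omega] at h2
    have hpas : (K + u).choose u = (K + u - 1).choose (u - 1) + (K + u - 1).choose u := by
      obtain ⟨v, rfl⟩ : ∃ v, u = v + 1 := ⟨u - 1, by omega⟩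
      have h5 : K + (v + 1) - 1 = K + v := by omega
      rw [h5, show K + (v + 1) = (K + v) + 1 by ring, Nat.add_sub_cancel, Nat.choose_succ_succ]
    rw [hpas]
    obtain ⟨A, hA⟩ : ∃ A, A = (K + u - 1).choose (u - 1) := ⟨_, rfl⟩
    obtain ⟨B, hB⟩ : ∃ B, B = (K + u - 1).choose u := ⟨_, rfl⟩
    rw [← hA, ← hB]
    rw [← hB] at h2
    have h3 : A + B - 1 - A = B - 1 := by omega
    rw [h3, ← h2]
    refine Nat.card_congr (Equiv.subtypeEquivRight fun a => ?_)
    constructor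
    · rintro ⟨h4, h5, h6, h7⟩
      refine ⟨h4, h5, ?_⟩
      obtain ⟨s, hs⟩ := hevsum a h5
      rw [hs] at h6 ⊢
      have h8 : s ≤ K := by
        have : i * (s + s) ≤ i * (2 * K) := by
          calc i * (s + s) ≤ 2 * m := h6
            _ = i * (2 * K) := by rw [hK]; ring
        have := Nat.le_of_mul_le_mul_left this hipos
        omega
      have h9 : s ≠ K := by
        intro h10
        have h11 := h7 (by rw [hs, h10, hK]; ring)
        rw [hK, pow_mul, hxi, one_pow] at h11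
        exact hneg h11
      have h10 : s ≤ K - 1 := by omega
      calc i * (s + s) = 2 * i * s := by ring
        _ ≤ 2 * i * (K - 1) := Nat.mul_le_mul_left _ h10
    · rintro ⟨h4, h5, h6⟩
      obtain ⟨s, hs⟩ := hevsum a h5
      have h7 : s ≤ K - 1 := by
        rw [hs] at h6
        have : i * (s + s) ≤ i * (2 * (K - 1)) := by
          calc i * (s + s) ≤ 2 * i * (K - 1) := h6
            _ = i * (2 * (K - 1)) := by ring
        have := Nat.le_of_mul_le_mul_left this hipos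
        omega
      refine ⟨h4, h5, ?_, ?_⟩
      · rw [hs, hK]
        have : s + s ≤ 2 * K := by omega
        calc i * (s + s) ≤ i * (2 * K) := Nat.mul_le_mul_left _ this
          _ = 2 * (i * K) := by ring
      · intro h8
        exfalso
        rw [hs, hK] at h8
        have h9 : i * (s + s) = i * (2 * K) := by rw [h8]; ring
        have h10 := Nat.eq_of_mul_eq_mul_left hipos h9
        omega
  · rw [Nat.sub_zero]
    have h1 : 2 * m / (2 * i) = m / i := Nat.mul_div_mul_left _ _ (by norm_num)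
    rw [← h1, ← hfpf]
    refine Nat.card_congr (Equiv.subtypeEquivRight fun a => ?_)
    constructor
    · rintro ⟨h2, h3, h4, -⟩
      exact ⟨h2, h3, h4⟩
    · rintro ⟨h2, h3, h4⟩
      refine ⟨h2, h3, h4, fun h5 => ?_⟩
      exfalso
      obtain ⟨s, hs⟩ := hevsum a h3
      apply hdvd
      refine ⟨s, ?_⟩
      rw [hs] at h5
      nlinarith

theorem cnt_even {ι : Type*} [Fintype ι] {R : Type*} [Ring R] (δ : ι → ι) (hid : δ = id)
    (x : R) (hneg : (1 : R) ≠ -1) (i m t c' : ℕ) (hipos : 0 < i) (hm1 : 1 ≤ m) (hc : i = 2 * c') (hxc : x ^ c' = -1)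
    (htc : Fintype.card ι = t) (htpos : 1 ≤ t) :
    Nat.card {a : ι → ℕ // a ≠ 0 ∧ a ∘ δ = a ∧ i * ∑ j, a j ≤ 2 * m ∧ (i * ∑ j, a j = 2 * m → x ^ m = -1)} =
      (2 * m / i + t).choose t - 1 - (if i ∣ 2 * m ∧ Even (2 * m / i) then (2 * m / i + t - 1).choose (t - 1) else 0) := by
  classical
  subst hid
  split_ifs with hex
  · obtain ⟨hdvd, hKev⟩ := hex
    obtain ⟨K, hK⟩ : ∃ K, K = 2 * m / i := ⟨_, rfl⟩
    rw [← hK] at hKev ⊢
    have hiK : i * K = 2 * m := by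
      rw [hK]
      exact Nat.mul_div_cancel' hdvd
    have hK1 : 1 ≤ K := by
      rcases Nat.eq_zero_or_pos K with h | h
      · rw [h, mul_zero] at hiK
        omega
      · exact h
    have hpas : (K + t).choose t = (K + t - 1).choose (t - 1) + (K + t - 1).choose t := by
      obtain ⟨u, rfl⟩ : ∃ u, t = u + 1 := ⟨t - 1, by omega⟩
      have h5 : K + (u + 1) - 1 = K + u := by omega
      rw [h5, show K + (u + 1) = (K + u) + 1 by ring, Nat.add_sub_cancel, Nat.choose_succ_succ]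
    have hcount : Nat.card {a : ι → ℕ // a ≠ 0 ∧ a ∘ id = a ∧ i * ∑ j, a j ≤ 2 * m ∧
        (i * ∑ j, a j = 2 * m → x ^ m = -1)} = (K + t - 1).choose t - 1 := by
      have h2 := card_tuples_ne (ι := ι) (K - 1)
      rw [htc, show K - 1 + t = K + t - 1 by omega] at h2
      rw [← h2]
      refine Nat.card_congr (Equiv.subtypeEquivRight fun a => ?_)
      constructor
      · rintro ⟨h3, -, h4, h5⟩
        refine ⟨h3, ?_⟩
        have h6 : ∑ j, a j ≤ K := by
          rw [← hiK] at h4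
          exact Nat.le_of_mul_le_mul_left h4 hipos
        by_contra h7
        have h8 : ∑ j, a j = K := by omega
        have h9 : i * ∑ j, a j = 2 * m := by rw [h8, hiK]
        have h10 := h5 h9
        have h11 : m = c' * K := by
          rw [hc] at hiK
          nlinarith
        rw [h11, pow_mul, hxc, hKev.neg_one_pow] at h10
        exact hneg h10
      · rintro ⟨h3, h4⟩
        refine ⟨h3, rfl, ?_, ?_⟩
        · rw [← hiK]
          exact Nat.mul_le_mul_left i (by omega)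
        · intro h5
          exfalso
          rw [← hiK] at h5
          have h6 := Nat.eq_of_mul_eq_mul_left hipos h5
          omega
    rw [hcount, hpas]
    obtain ⟨A, hA⟩ : ∃ A, A = (K + t - 1).choose (t - 1) := ⟨_, rfl⟩
    obtain ⟨B, hB⟩ : ∃ B, B = (K + t - 1).choose t := ⟨_, rfl⟩
    rw [← hA, ← hB]
    omega
  · rw [Nat.sub_zero, ← htc, ← card_inv_id i (2 * m) hipos]
    refine Nat.card_congr (Equiv.subtypeEquivRight fun a => ?_)
    constructor
    · rintro ⟨h2, -, h4, -⟩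
      exact ⟨h2, h4⟩
    · rintro ⟨h2, h4⟩
      refine ⟨h2, rfl, h4, fun h5 => ?_⟩
      have hdvd : i ∣ 2 * m := ⟨_, h5.symm⟩
      have h6 : 2 * m / i = ∑ j, a j := by
        rw [← h5]
        exact Nat.mul_div_cancel_left _ hipos
      have h7 : ¬ Even (∑ j, a j) := by
        intro h8
        apply hex
        exact ⟨hdvd, by rwa [h6]⟩
      rw [Nat.not_even_iff_odd] at h7
      have h11 : m = c' * ∑ j, a j := by
        rw [hc] at h5
        nlinarith
      rw [h11, pow_mul, hxc, h7.neg_one_pow]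

theorem finrank_minus (k : ℕ) : finrank F ((Fin k ⊕ Fin k) ⊕ Fin 2 → F) = 2 * (k + 1) := by
  rw [Module.finrank_fintype_fun_eq_card]
  simp
  ring

theorem minus_P {p : ℕ} [Fact p.Prime] [CharP F p] {k r : ℕ} {a' c' : F}
    (hac : ∀ z₁ z₂ : F, z₁ ^ 2 + a' * z₁ * z₂ + c' * z₂ ^ 2 = 0 → z₁ = 0 ∧ z₂ = 0) [hrp : Fact r.Prime] (hrF : (r : F) ≠ 0) (hr0 : r ≠ 0)
    (hq : ((Fintype.card F : ℕ) : ZMod r) ≠ 0) (a : ↥(Idx F r) → ℕ)
    (g : ↥(Cfsg.isometryGroup F (Cfsg.quadFormMinus k F a' c'))) (hg : orderOf g = r)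
    (hc : ((g : Matrix.GeneralLinearGroup ((Fin k ⊕ Fin k) ⊕ Fin 2) F) : Matrix ((Fin k ⊕ Fin k) ⊕ Fin 2) ((Fin k ⊕ Fin k) ⊕ Fin 2) F).charpoly = Pa F r (Fintype.card ((Fin k ⊕ Fin k) ⊕ Fin 2)) a)
    (h : orderOf ((Fintype.card F : ℕ) : ZMod r) * ∑ j, a j = 2 * (k + 1)) :
    ((Fintype.card F : ℕ) : ZMod r) ^ (k + 1) = -1 := by
  classical
  have hcard : Fintype.card ((Fin k ⊕ Fin k) ⊕ Fin 2) = 2 * (k + 1) := by
    simp
    ring
  rw [hcard, Pa_eq_mul, h, Nat.sub_self, pow_zero, mul_one] at hc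
  obtain ⟨T, hT⟩ : ∃ T, T = Matrix.toLin' ((g : Matrix.GeneralLinearGroup ((Fin k ⊕ Fin k) ⊕ Fin 2) F) : Matrix ((Fin k ⊕ Fin k) ⊕ Fin 2) ((Fin k ⊕ Fin k) ⊕ Fin 2) F) := ⟨_, rfl⟩
  have hTv : ∀ v, T v = ((g : Matrix.GeneralLinearGroup ((Fin k ⊕ Fin k) ⊕ Fin 2) F) : Matrix ((Fin k ⊕ Fin k) ⊕ Fin 2) ((Fin k ⊕ Fin k) ⊕ Fin 2) F).mulVec v := fun v => by
    rw [hT]
    rfl
  have hTc : T.charpoly = ∏ j : ↥(Idx F r), (j : F[X]) ^ a j := by
    rw [hT, Matrix.charpoly_toLin', hc]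
  have hI : ∀ x, qMinus k a' c' (T x) = qMinus k a' c' x := by
    intro x
    rw [hTv, qMinus_apply, qMinus_apply]
    exact g.2 x x
  have hTr : T ^ r = 1 := by
    rw [hT, toLin_pow]
    have h1 : ((g : Matrix.GeneralLinearGroup ((Fin k ⊕ Fin k) ⊕ Fin 2) F) : Matrix ((Fin k ⊕ Fin k) ⊕ Fin 2) ((Fin k ⊕ Fin k) ⊕ Fin 2) F) ^ r = 1 := by
      have h2 : ((g ^ r : ↥(Cfsg.isometryGroup F (Cfsg.quadFormMinus k F a' c'))) : Matrix.GeneralLinearGroup ((Fin k ⊕ Fin k) ⊕ Fin 2) F) = 1 := by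
        rw [← hg, pow_orderOf_eq_one]
        rfl
      have h3 := congrArg Units.val h2
      rw [Subgroup.coe_pow, Units.val_pow_eq_pow_val] at h3
      exact h3
    rw [h1, Matrix.toLin'_one]
    rfl
  have hfree : ∀ x, T x = x → x = 0 := free_of_eval (by
    rw [hTc]
    exact eval_prod_ne hrF hr0 a)
  have hzc : (Nat.card {v // qMinus k a' c' v = 0} : ℤ) ≠ (Fintype.card F : ℤ) ^ (2 * k + 1) + (Fintype.card F : ℤ) ^ (k + 1) - (Fintype.card F : ℤ) ^ k := by
    rw [zeros_minus a' c' hac k]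
    exact count_ne k
  obtain ⟨b, ζ, hb⟩ := minus_of_card (finrank_minus k) _ (ND_qMinus a' c' hac k) hzc
  exact (free_type (ND_qMinus a' c' hac k) (k := k) T hI hTr hfree hq).2 ⟨b, ζ, hb⟩

theorem minus_hex {p : ℕ} [Fact p.Prime] [CharP F p] {k r : ℕ} {a' c' : F}
    (hac : ∀ z₁ z₂ : F, z₁ ^ 2 + a' * z₁ * z₂ + c' * z₂ ^ 2 = 0 → z₁ = 0 ∧ z₂ = 0) [hrp : Fact r.Prime] (hr2 : r ≠ 2) (hrF : (r : F) ≠ 0) (hr0 : r ≠ 0)
    (hq : ((Fintype.card F : ℕ) : ZMod r) ≠ 0) (a : ↥(Idx F r) → ℕ) (ha : a ≠ 0)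
    (hinv : a ∘ dl (σ := RingHom.id F) (fun x => rfl) rfl hrF hr0 = a)
    (hle : orderOf ((Fintype.card F : ℕ) : ZMod r) * ∑ j, a j ≤ Fintype.card ((Fin k ⊕ Fin k) ⊕ Fin 2))
    (hP : orderOf ((Fintype.card F : ℕ) : ZMod r) * ∑ j, a j = 2 * (k + 1) → ((Fintype.card F : ℕ) : ZMod r) ^ (k + 1) = -1) :
    ∃ g : ↥(Cfsg.isometryGroup F (Cfsg.quadFormMinus k F a' c')),
      ((g : Matrix.GeneralLinearGroup ((Fin k ⊕ Fin k) ⊕ Fin 2) F) : Matrix ((Fin k ⊕ Fin k) ⊕ Fin 2) ((Fin k ⊕ Fin k) ⊕ Fin 2) F).charpoly = Pa F r (Fintype.card ((Fin k ⊕ Fin k) ⊕ Fin 2)) a ∧ orderOf g = r := by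
  have hcard : Fintype.card ((Fin k ⊕ Fin k) ⊕ Fin 2) = 2 * (k + 1) := by
    simp
    ring
  refine exists_elt p _ (qMinus k a' c') (fun v => (qMinus_apply k a' c' v).symm) hr2 hrF hr0 ha hinv hle ?_
  intro U _ _ _ QU T hN hI hTr hfree hdim
  rw [hcard] at hle
  obtain ⟨m', hm'⟩ : ∃ m', orderOf ((Fintype.card F : ℕ) : ZMod r) * ∑ j, a j = 2 * m' := by
    obtain ⟨c, hc⟩ := even_dim hr2 hrF hr0 hinv
    exact ⟨c, by omega⟩
  have hm'0 : m' ≠ 0 := by
    rintro rfl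
    apply ha
    have h1 : ∑ j, a j = 0 := by
      have h2 : orderOf ((Fintype.card F : ℕ) : ZMod r) ≠ 0 := by
        intro h3
        have := card_Idx (F := F) (r := r) hrF
        rw [h3, mul_zero] at this
        have := (Fact.out : r.Prime).two_le
        omega
      rw [mul_zero] at hm'
      exact (mul_eq_zero.1 hm').resolve_left h2
    funext j
    exact (Finset.sum_eq_zero_iff.1 h1) j (Finset.mem_univ j)
  obtain ⟨l, rfl⟩ : ∃ l, m' = l + 1 := ⟨m' - 1, by omega⟩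
  have hV : finrank F U = 2 * (l + 1) := by rw [hdim, hm']
  obtain ⟨h₁, h₂⟩ := free_type hN (k := l) T hI hTr hfree hq
  rcases std_cases hV QU hN with ⟨b, hb⟩ | ⟨k', hk', b, ζ, hb⟩
  · by_cases hkm : l = k
    · exfalso
      subst hkm
      have h3 := hP hm'
      have h4 := h₁ ⟨b, hb⟩
      rw [h3] at h4
      exact neg_one_ne hr2 h4
    · obtain ⟨e, he⟩ := iso_qPlus_of_hyp hb
      exact (show Emb QU (qPlus (l + 1) F) from ⟨e.toLinearMap, he⟩).trans (emb_plus_minus a' c' (l + 1) k (by omega))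
  · obtain rfl : l = k' := by omega
    have hzc : (Nat.card {v // QU v = 0} : ℤ) ≠ (Fintype.card F : ℤ) ^ (2 * l + 1) + (Fintype.card F : ℤ) ^ (l + 1) - (Fintype.card F : ℤ) ^ l := by
      rw [Cfsg.Agent.Lib.QuadClass2.card_zeros_of_minus hN hb]
      exact count_ne l
    obtain ⟨e, he⟩ := iso_qMinus hV QU hN hzc a' c' hac
    exact (show Emb QU (qMinus l a' c') from ⟨e.toLinearMap, he⟩).trans (emb_minus_minus a' c' l k (by omega))

end aux

/-- Number of conjugacy classes of elements of odd prime order r ≠ p in the orthogonal group O⁻_2m(q) of an elliptic form Σ_(j<m−1) x_j y_j + z₁² + a z₁z₂ + c z₂² (binary part anisotropic, m ≥ 1): with i the multiplicative order of q mod r and t = (r − 1)/i — if i is odd, C(⌊m/i⌋ + t/2, t/2) − 1 minus, when i divides m, the C(m/i + t/2 − 1, t/2 − 1) tuples filling the whole space (dual pairs of totally singular blocks fill a hyperbolic space); if i is even, C(⌊2m/i⌋ + t, t) − 1 minus,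 when i divides 2m with even quotient, the C(2m/i + t − 1, t − 1) tuples filling the whole space with an even number of elliptic blocks. -/
theorem result {F : Type*} [Field F] [Fintype F] {p q : ℕ} [Fact p.Prime] [CharP F p] (hF : Fintype.card F = q) (m r i t : ℕ) (hm : 1 ≤ m) (a c : F) (hac : ∀ z₁ z₂ : F, z₁ ^ 2 + a * z₁ * z₂ + c * z₂ ^ 2 = 0 → z₁ = 0 ∧ z₂ = 0) (hr : r.Prime) (hr2 : r ≠ 2) (hrp : r ≠ p) (hi : i = orderOf (q : ZMod r)) (ht : t * i = r - 1) : Nat.card {C : ConjClasses ↥(Cfsg.isometryGroup F (Cfsg.quadFormMinus (m - 1) F a c)) // ∃ g : ↥(Cfsg.isometryGroup F (Cfsg.quadFormMinus (m - 1) F a c)), ConjClasses.mk g = C ∧ orderOf g = r} = if Odd i then Nat.choose (m / i + t / 2) (t / 2) - 1 - (if i ∣ m then Nat.choose (m / i + t / 2 - 1) (t / 2 - 1) else 0) else Nat.choose (2 * m / i + t) t - 1 - (if i ∣ 2 * m ∧ Even (2 * m / i) then Nat.choose (2 * m / i + t - 1) (t - 1) else 0) := by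
  classical
  subst hF
  subst hi
  obtain ⟨k, rfl⟩ : ∃ k, m = k + 1 := ⟨m - 1, by omega⟩
  rw [Nat.add_sub_cancel]
  haveI : Fact r.Prime := ⟨hr⟩
  have hpp : p.Prime := Fact.out
  have hr0 := hr.ne_zero
  have hrF : (r : F) ≠ 0 := by
    rw [Ne, CharP.cast_eq_zero_iff F p]
    intro hd
    exact hrp ((Nat.prime_dvd_prime_iff_eq hpp hr).1 hd).symm
  have hcard := card_Idx (F := F) (r := r) hrF
  have hq : ((Fintype.card F : ℕ) : ZMod r) ≠ 0 := by
    rw [Ne, ZMod.natCast_eq_zero_iff]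
    intro hd
    obtain ⟨f, -, hf⟩ := FiniteField.card F p
    rw [hf] at hd
    have h3 := hr.dvd_of_dvd_pow hd
    exact hrp ((Nat.prime_dvd_prime_iff_eq hr hpp).1 h3)
  have hr2' := hr.two_le
  have hQ : (polarBilin (qMinus k a c)).Nondegenerate := nondegenerate_of_ND (ND_qMinus a c hac k)
  have hfix : ∀ j : ↥(Idx F r), dl (σ := RingHom.id F) (fun x => rfl) rfl hrF hr0 j = j ↔ Even (orderOf ((Fintype.card F : ℕ) : ZMod r)) := by
    intro j
    have h1 := dual_fixed_iff (σ := RingHom.id F) (fun x => rfl) hrF j.2 1 (RingHom.id _) (fun x => rfl) (by simp)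
    have hx : orderOf ((Fintype.card F : ℕ) : ZMod r) ≠ 0 := by
      intro h3
      rw [h3, mul_zero] at hcard
      omega
    rw [Nat.cast_one, exists_pow_eq_neg_one_iff hr2 hx] at h1
    rw [← h1]
    exact Subtype.ext_iff
  have key := classes_card p (Cfsg.quadFormMinus k F a c) (qMinus k a c) (fun v => (qMinus_apply k a c v).symm) hQ hr2 hrF hr0
    (fun a => orderOf ((Fintype.card F : ℕ) : ZMod r) * ∑ j, a j = 2 * (k + 1) → ((Fintype.card F : ℕ) : ZMod r) ^ (k + 1) = -1)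
    (fun a ha hinv hle hP => minus_hex hac hr2 hrF hr0 hq a ha hinv hle hP)
    (fun a g hg hc _ h => minus_P hac hrF hr0 hq a g hg hc h)
  rw [key]
  have hcι : Fintype.card ((Fin k ⊕ Fin k) ⊕ Fin 2) = 2 * (k + 1) := by
    simp
    ring
  rw [hcι]
  obtain ⟨x, hx⟩ : ∃ x : ZMod r, x = ((Fintype.card F : ℕ) : ZMod r) := ⟨_, rfl⟩
  rw [← hx] at hfix hcard ht ⊢
  obtain ⟨i, hi⟩ : ∃ i, i = orderOf x := ⟨_, rfl⟩
  rw [← hi] at hfix hcard ht ⊢
  have hipos : 0 < i := by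
    rcases Nat.eq_zero_or_pos i with h | h
    · rw [h, mul_zero] at hcard
      omega
    · exact h
  have hxi : x ^ i = 1 := by
    rw [hi]
    exact pow_orderOf_eq_one x
  have htc : Fintype.card ↥(Idx F r) = t := Nat.eq_of_mul_eq_mul_right hipos (hcard.trans ht.symm)
  have htpos : 1 ≤ t := by
    rcases Nat.eq_zero_or_pos t with h | h
    · rw [h, zero_mul] at ht
      omega
    · exact h
  obtain ⟨m, hm'⟩ : ∃ m, m = k + 1 := ⟨_, rfl⟩
  rw [← hm'] at ⊢
  have hm1 : 1 ≤ m := by omega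
  by_cases hodd : Odd i
  · rw [if_pos hodd]
    have hne : ¬ Even i := Nat.not_even_iff_odd.2 hodd
    have hevsum : ∀ a : ↥(Idx F r) → ℕ, a ∘ dl (σ := RingHom.id F) (fun x => rfl) rfl hrF hr0 = a → Even (∑ j, a j) := by
      intro a h3
      have h6 : Even (i * ∑ j, a j) := by
        rw [hi]
        have := even_dim hr2 hrF hr0 h3
        rwa [← hx] at this
      exact (Nat.even_mul.1 h6).resolve_left hne
    exact cnt_odd _ (dl_dl (σ := RingHom.id F) (fun x => rfl) rfl hrF hr0) (fun j h => hne ((hfix j).1 h)) x (neg_one_ne hr2).symm i m t hipos hm1 hxi htc htpos hevsum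
  · rw [if_neg hodd]
    rw [Nat.not_odd_iff_even] at hodd
    have hid : dl (σ := RingHom.id F) (fun x => rfl) rfl hrF hr0 = id := funext fun j => (hfix j).2 hodd
    obtain ⟨c', hc⟩ : ∃ c', i = 2 * c' := by
      obtain ⟨c', hc⟩ := hodd
      exact ⟨c', by omega⟩
    have hcpos : 0 < c' := by omega
    have hxc := pow_half hr2 hcpos (hi ▸ hc)
    exact cnt_even _ hid x (neg_one_ne hr2).symm i m t c' hipos hm1 hc hxc htc htpos

end Cfsg.Agent.S2675
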