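import Mathlib
import Cfsg.Statements.S2941
import Cfsg.Agent.Lib.JCompBasic
import Cfsg.Agent.Lib.CharPLocal

set_option autoImplicit false
open Cfsg

namespace Cfsg.Agent.S2941

open Cfsg.Agent.Lib.JCompBasic Cfsg.Agent.Lib.CharPLocal
open scoped commutatorElement

/-- Let G be a finite group of characteristic 2 type in which every 2-local subgroup is solvable and the centralizer of Ω₁(Z(S)) lies in N_G(S) for every Sylow 2-subgroup S, and let T be a nontrivial 2-subgroup and K a J(T)-component (J the Thompson subgroup generated by the elementary abelian 2-subgroups of largest order). If a subgroup Q is normalized by ⟨K, J(T)⟩ and normalizes J(T), then Q normalizes K. -/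
theorem result {G : Type*} [Group G] [Finite G] (hL : Cfsg.IsCharacteristicTwoType G) (hN : ∀ N : Subgroup G, Cfsg.IsTwoLocal N → Group.IsSolvable ↥N)
    (hZ : ∀ S : Sylow 2 G, Subgroup.centralizer (Cfsg.omegaCenterOf (S : Subgroup G) : Set G) ≤ Subgroup.normalizer ((S : Subgroup G) : Set G)) (T : Subgroup G) (hT : IsPGroup 2 ↥T) (hT1 : T ≠ ⊥) (K : Subgroup G) (hK : Cfsg.IsJComponent T K)
    (Q : Subgroup G) (hQ1 : K ⊔ Cfsg.thompsonSubgroupOf 2 T ≤ Subgroup.normalizer (Q : Set G)) (hQ2 : Q ≤ Subgroup.normalizer (Cfsg.thompsonSubgroupOf 2 T : Set G)) :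
    Q ≤ Subgroup.normalizer (K : Set G) := by
  classical
  set J : Subgroup G := Cfsg.thompsonSubgroupOf 2 T with hJdef
  obtain ⟨hgen, hcomm, -, -, -, -⟩ := hK
  have hJp : IsPGroup 2 J := hT.to_le (thompsonSubgroupOf_le 2 T)
  have hJK : J ≤ Subgroup.normalizer (K : Set G) := le_normalizer_of_commutator_eq hcomm
  have hKQ : K ≤ Subgroup.normalizer (Q : Set G) := le_sup_left.trans hQ1
  -- Step 1: `Q` conjugates `K` into `K ⊔ J`.
  have hstep1 : ∀ q ∈ Q, ∀ k ∈ K, q * k * q⁻¹ ∈ K ⊔ J := by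
    intro q hq k hk
    rw [← hcomm] at hk
    rw [Subgroup.commutator_def] at hk
    induction hk using Subgroup.closure_induction with
    | mem x hx =>
      obtain ⟨k₀, hk₀, j, hj, rfl⟩ := hx
      have hq' : k₀⁻¹ * q * k₀ ∈ Q := (Subgroup.mem_normalizer_iff''.mp (hKQ hk₀) q).mp hq
      have hj1 : (k₀⁻¹ * q * k₀) * j * (k₀⁻¹ * q * k₀)⁻¹ ∈ J :=
        (Subgroup.mem_normalizer_iff.mp (hQ2 hq') j).mp hj
      have hj2 : q * j⁻¹ * q⁻¹ ∈ J := (Subgroup.mem_normalizer_iff.mp (hQ2 hq) _).mp (J.inv_mem hj)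
      have e : q * ⁅k₀, j⁆ * q⁻¹ = k₀ * ((k₀⁻¹ * q * k₀) * j * (k₀⁻¹ * q * k₀)⁻¹) * k₀⁻¹ * (q * j⁻¹ * q⁻¹) := by
        simp only [commutatorElement_def]
        group
      rw [e]
      have hk₀' : k₀ ∈ K ⊔ J := (le_sup_left : K ≤ K ⊔ J) hk₀
      exact (K ⊔ J).mul_mem ((K ⊔ J).mul_mem ((K ⊔ J).mul_mem hk₀' ((le_sup_right : J ≤ K ⊔ J) hj1))
        ((K ⊔ J).inv_mem hk₀')) ((le_sup_right : J ≤ K ⊔ J) hj2)
    | one => simp
    | mul x y _ _ hx hy =>
      have e : q * (x * y) * q⁻¹ = (q * x * q⁻¹) * (q * y * q⁻¹) := by group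
      rw [e]
      exact (K ⊔ J).mul_mem hx hy
    | inv x _ hx =>
      have e : q * x⁻¹ * q⁻¹ = (q * x * q⁻¹)⁻¹ := by group
      rw [e]
      exact (K ⊔ J).inv_mem hx
  -- Step 2: `Q` conjugates `K` into `K`.
  have hstep2 : ∀ q ∈ Q, ∀ k ∈ K, q * k * q⁻¹ ∈ K := by
    intro q hq k hk
    rw [← hgen] at hk
    induction hk using Subgroup.closure_induction with
    | mem x hx =>
      obtain ⟨hxK, hxodd⟩ := hx
      have hxK' : x ∈ K := hxK
      apply mem_of_coprime_of_mem_sup (p := 2) hJK hJp (hstep1 q hq x hxK')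
      have : orderOf (q * x * q⁻¹) = orderOf x := by
        have := orderOf_injective (MulAut.conj q).toMonoidHom (MulAut.conj q).injective x
        simpa [MulAut.conj_apply] using this
      rw [this]
      exact Nat.coprime_two_right.mpr hxodd
    | one => simp
    | mul x y _ _ hx hy =>
      have e : q * (x * y) * q⁻¹ = (q * x * q⁻¹) * (q * y * q⁻¹) := by group
      rw [e]
      rw [← hgen]
      rw [← hgen] at hx hy
      exact Subgroup.mul_mem _ hx hy
    | inv x _ hx =>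
      have e : q * x⁻¹ * q⁻¹ = (q * x * q⁻¹)⁻¹ := by group
      rw [e]
      rw [← hgen]
      rw [← hgen] at hx
      exact Subgroup.inv_mem _ hx
  intro q hq
  rw [Subgroup.mem_normalizer_iff]
  intro k
  constructor
  · exact hstep2 q hq k
  · intro hk
    have := hstep2 q⁻¹ (Q.inv_mem hq) _ hk
    have e : q⁻¹ * (q * k * q⁻¹) * q⁻¹⁻¹ = k := by group
    rwa [e] at this


end Cfsg.Agent.S2941
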