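import Mathlib
import Cfsg.Statements.S2943
import Cfsg.Agent.Lib.FFG7

set_option autoImplicit false
open Cfsg

namespace Cfsg.Agent.S2943

open Cfsg.Agent.Lib.FFG Cfsg.Agent.Lib.FFAct Cfsg.Agent.Lib.JCompStruct

/-- Let G be a finite group of characteristic 2 type in which every 2-local subgroup is solvable and the centralizer of Ω₁(Z(S)) lies in N_G(S) for every Sylow 2-subgroup S, and let T be a nontrivial 2-subgroup (below, J is the Thompson subgroup generated by the elementary abelian 2-subgroups of largest order), L a subgroup in which T is a Sylow 2-subgroup with J(T) not contained in O₂(L) and C_G(O₂(L)) ≤ O₂(L), and K a J(T)-component contained in L. If Z(T) meets W_K = [Ω₁(Z(O₂(K))), K] nontrivially, then T normalizes K. -/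
theorem result {G : Type*} [Group G] [Finite G] (hL : Cfsg.IsCharacteristicTwoType G) (hN : ∀ N : Subgroup G, Cfsg.IsTwoLocal N → Group.IsSolvable ↥N)
    (hZ : ∀ S : Sylow 2 G, Subgroup.centralizer (Cfsg.omegaCenterOf (S : Subgroup G) : Set G) ≤ Subgroup.normalizer ((S : Subgroup G) : Set G)) (T : Subgroup G) (hT : IsPGroup 2 ↥T) (hT1 : T ≠ ⊥) (L : Subgroup G) (hLT : L ∈ Cfsg.jOvergroups T)
    (K : Subgroup G) (hK : Cfsg.IsJComponent T K) (hKL : K ≤ L)
    (hZW : T ⊓ Subgroup.centralizer (T : Set G) ⊓ Cfsg.wOf K ≠ ⊥) : T ≤ Subgroup.normalizer (K : Set G) := by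
  have Z : ZNH G := ⟨hL, hN, hZ⟩
  obtain ⟨k, w₁, w₂, h⟩ := Z.kc_of hT hT1 hLT hK hKL
  haveI := h.z.fact
  obtain ⟨z₀, ⟨⟨hz₀T, hz₀C⟩, hz₀W⟩, hz₀1⟩ : ∃ z₀, z₀ ∈ T ⊓ Subgroup.centralizer (T : Set G) ⊓ Cfsg.wOf K ∧ z₀ ≠ 1 := by
    by_contra hcon
    push Not at hcon
    exact hZW ((Subgroup.eq_bot_iff_forall _).mpr hcon)
  intro τ hτ
  have hτL : τ ∈ L := hLT.1.1 hτ
  have hcom := h.com_map
  have hu : EA.mk _ (h.hWX hz₀W) ∈ com h.y := by
    have h1 : z₀ ∈ (com h.y).map (EA.val _) := by rw [hcom]; exact hz₀W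
    obtain ⟨v, hv, he⟩ := h1
    have : EA.mk _ (h.hWX hz₀W) = v := by
      apply EA.val_injective
      rw [he, EA.val_mk]
    rw [this]; exact hv
  apply h.norm_of_meet (n := ⟨τ, hτL⟩) hu
  · intro h1
    have h2 := congrArg (EA.val _) h1
    rw [EA.val_mk, map_one] at h2
    exact hz₀1 h2
  · have : act _ _ h.z.hN ⟨τ, hτL⟩ (EA.mk _ (h.hWX hz₀W)) = EA.mk _ (h.hWX hz₀W) := by
      apply EA.val_injective
      rw [act_val, EA.val_mk]
      have h5 := Subgroup.mem_centralizer_iff.mp hz₀C τ hτ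
      show τ * z₀ * τ⁻¹ = z₀
      rw [h5]; group
    rw [this]; exact hu


end Cfsg.Agent.S2943
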