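import Mathlib
import Cfsg.Statements.S2950
import Cfsg.Agent.Lib.FFG17
import Cfsg.Agent.S2948
import Cfsg.Agent.S2942

set_option autoImplicit false
open Cfsg

namespace Cfsg.Agent.S2950

open Cfsg.Agent.Lib.FFG Cfsg.Agent.Lib.JCompStruct


/-- Uniqueness of the maximal 2-local overgroup. Let G be a finite group of characteristic 2 type in which every 2-local subgroup is solvable and the centralizer of Ω₁(Z(S)) lies in N_G(S) for every Sylow 2-subgroup S; suppose O₂(G) = 1, fix a Sylow 2-subgroup S and a 2-local subgroup M containing N_G(J(S)) (J the Thompson subgroup generated by the elementary abelian 2-subgroups of largest order). Let T be maximal (for the order of a largest elementary abelian subgroup, then the order of J(T), then the order of T) among the nontrivial 2-subgroups of M lying in a 2-local subgroup not inside M, and let K be a J(T)-component not contained in M with J(T) the Thompson subgroup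 of every Sylow 2-subgroup of N_G(W_K) containing J(T), and O₂(⟨K, T⟩) ≠ 1. Then there is exactly one maximal 2-local subgroup L of G containing ⟨K, J(T)⟩; moreover K is subnormal in L and T is a Sylow 2-subgroup of L. -/
theorem result {G : Type*} [Group G] [Finite G] (hL : Cfsg.IsCharacteristicTwoType G) (hN : ∀ N : Subgroup G, Cfsg.IsTwoLocal N → Group.IsSolvable ↥N)
    (hZ : ∀ S : Sylow 2 G, Subgroup.centralizer (Cfsg.omegaCenterOf (S : Subgroup G) : Set G) ≤ Subgroup.normalizer ((S : Subgroup G) : Set G)) (hO : Cfsg.pCore 2 G = ⊥) (S : Sylow 2 G) (M : Subgroup G) (hM : Cfsg.IsTwoLocal M)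
    (hMJ : Subgroup.normalizer (Cfsg.thompsonSubgroupOf 2 (S : Subgroup G) : Set G) ≤ M) (T : Subgroup G) (hT : T ∈ Cfsg.maxStraddlingTwoSubgroups M)
    (K : Subgroup G) (hK : K ∈ Cfsg.jComponentsOutside M T) :
    ∃ L : Subgroup G, Cfsg.IsMaximalTwoLocal L ∧ K ⊔ Cfsg.thompsonSubgroupOf 2 T ≤ L ∧
      (∀ L' : Subgroup G, Cfsg.IsMaximalTwoLocal L' → K ⊔ Cfsg.thompsonSubgroupOf 2 T ≤ L' → L' = L) ∧
      (K.subgroupOf L).IsSubnormal ∧ Cfsg.IsSylowTwoIn T L := by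
  have Z : ZNH G := ⟨hL, hN, hZ⟩
  obtain ⟨hK0, hKM, hP⟩ := hK
  obtain ⟨hTp, hT1, -⟩ := hT.1
  obtain ⟨L₀, hL₀, htop⟩ := MS.exists_top Z hT hMJ hK0 hKM
  haveI : Fact (Nat.Prime 2) := ⟨Nat.prime_two⟩
  have hX₀ : IsTwoLocal (Subgroup.normalizer (pCoreOf 2 (K ⊔ T) : Set G)) :=
    ⟨_, Cfsg.Agent.Lib.BGFit2.isPGroup_pCoreOf 2 _, hP, rfl⟩
  obtain ⟨L₁, hL₁, hX₀L⟩ := exists_maximalTwoLocal_ge hX₀
  have hKTL : K ⊔ T ≤ L₁ := (Cfsg.Agent.Lib.BGFit2.le_normalizer_pCoreOf 2 _).trans hX₀L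
  have hJT : thompsonSubgroupOf 2 T ≤ T := Cfsg.Agent.Lib.JCompBasic.thompsonSubgroupOf_le 2 T
  have hKL : K ≤ L₁ := le_sup_left.trans hKTL
  have hTL : T ≤ L₁ := le_sup_right.trans hKTL
  have hKJL : K ⊔ thompsonSubgroupOf 2 T ≤ L₁ := sup_le hKL (hJT.trans hTL)
  have hLe : L₀ = L₁ := hL₁.2 L₀ hL₀ (htop L₁ hL₁.1 hKJL)
  have hLM : ¬ L₁ ≤ M := fun h => hKM (hKL.trans h)
  obtain ⟨T₀, hJT₀, hT₀⟩ := exists_isSylowTwoIn (hJT.trans hTL) (hTp.to_le hJT)
  obtain ⟨-, -, -, h4⟩ := Cfsg.Agent.S2948.result hL hN hZ hO S M hM hMJ T hT L₁ hL₁.1 hLM T₀ hT₀ hJT₀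
  obtain ⟨hLT, -⟩ := h4 hTL
  refine ⟨L₁, hL₁, hKJL, ?_, Cfsg.Agent.S2942.result hL hN hZ T hTp hT1 L₁ hLT K hK0.1 hKL, hLT.1⟩
  intro L' hL' hKJ'
  have h5 : L₀ = L' := hL'.2 L₀ hL₀ (htop L' hL'.1 hKJ')
  rw [← h5, hLe]


end Cfsg.Agent.S2950
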