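import Mathlib
import Cfsg.Statements.S2947
import Cfsg.Agent.Lib.CharPLocal

set_option autoImplicit false
open Cfsg

namespace Cfsg.Agent.S2947

open Cfsg.Agent.Lib.CharPLocal

/-- Normalizer growth: a `p`-subgroup meeting `M` nontrivially, where `M` contains the normalizers of its
nontrivial `p`-subgroups, lies in `M`. -/
theorem le_of_growth {G : Type*} [Group G] [Finite G] {p : ℕ} [Fact p.Prime] {P M : Subgroup G} (hP : IsPGroup p P)
    (hne : P ⊓ M ≠ ⊥)
    (hN : ∀ U : Subgroup G, IsPGroup p U → U ≠ ⊥ → U ≤ M → Subgroup.normalizer (U : Set G) ≤ M) : P ≤ M := by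
  have hNil : Group.IsNilpotent ↥P := hP.isNilpotent
  have hcond := Group.normalizerCondition_of_isNilpotent (G := ↥P)
  set H : Subgroup ↥P := (P ⊓ M).subgroupOf P with hHdef
  by_contra hle
  have hHtop : H < ⊤ := by
    rw [lt_top_iff_ne_top]
    intro htop
    apply hle
    intro x hx
    have : (⟨x, hx⟩ : ↥P) ∈ H := by rw [htop]; trivial
    exact this.2
  have hlt := hcond H hHtop
  obtain ⟨x, hx, hxH⟩ := SetLike.exists_of_lt hlt
  apply hxH
  have hxM : (x : G) ∈ Subgroup.normalizer (((P ⊓ M : Subgroup G)) : Set G) := by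
    rw [Subgroup.mem_normalizer_iff]
    intro h
    have hxh := Subgroup.mem_normalizer_iff.mp hx
    constructor
    · intro hh
      have h1 : (⟨h, hh.1⟩ : ↥P) ∈ H := hh
      have h2 := (hxh _).mp h1
      exact h2
    · intro hh
      have hhP : h ∈ P := by
        have h3 : h = (x : G)⁻¹ * ((x : G) * h * (x : G)⁻¹) * x := by group
        rw [h3]
        exact P.mul_mem (P.mul_mem (P.inv_mem x.2) hh.1) x.2
      have h1 : x * (⟨h, hhP⟩ : ↥P) * x⁻¹ ∈ H := hh
      exact (hxh _).mpr h1
  exact ⟨x.2, hN _ (hP.to_le inf_le_left) hne inf_le_right hxM⟩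

/-- Let G be a finite group of characteristic 2 type in which every 2-local subgroup is solvable and the centralizer of Ω₁(Z(S)) lies in N_G(S) for every Sylow 2-subgroup S; suppose O₂(G) = 1, fix a Sylow 2-subgroup S and a 2-local subgroup M containing N_G(J(S)) (J the Thompson subgroup generated by the elementary abelian 2-subgroups of largest order). Then M is strongly embedded in G (a proper subgroup of even order whose intersection with each conjugate by an element outside M has odd order) if and only if no nontrivial 2-subgroup of M lies in a 2-local subgroup of G not contained in M. -/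
theorem result {G : Type*} [Group G] [Finite G] (hL : Cfsg.IsCharacteristicTwoType G) (hN : ∀ N : Subgroup G, Cfsg.IsTwoLocal N → Group.IsSolvable ↥N)
    (hZ : ∀ S : Sylow 2 G, Subgroup.centralizer (Cfsg.omegaCenterOf (S : Subgroup G) : Set G) ≤ Subgroup.normalizer ((S : Subgroup G) : Set G)) (hO : Cfsg.pCore 2 G = ⊥) (S : Sylow 2 G) (M : Subgroup G) (hM : Cfsg.IsTwoLocal M)
    (hMJ : Subgroup.normalizer (Cfsg.thompsonSubgroupOf 2 (S : Subgroup G) : Set G) ≤ M) :
    Cfsg.IsStronglyEmbedded M ↔ Cfsg.straddlingTwoSubgroups M = ∅ := by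
  classical
  obtain ⟨Q, hQp, hQ1, rfl⟩ := hM
  set M : Subgroup G := Subgroup.normalizer (Q : Set G) with hMdef
  have hQM : Q ≤ M := Subgroup.le_normalizer
  constructor
  · -- strongly embedded implies no straddling subgroups
    rintro ⟨-, -, hstr⟩
    rw [Set.eq_empty_iff_forall_notMem]
    rintro T ⟨hTp, hT1, hTM, L, ⟨R, hRp, hR1, rfl⟩, hTL, hLM⟩
    have hNM : ∀ U : Subgroup G, IsPGroup 2 U → U ≠ ⊥ → U ≤ M → Subgroup.normalizer (U : Set G) ≤ M := by
      intro U hU hU1 hUM g hg
      by_contra hgM
      have hodd := hstr g hgM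
      have hUle : U ≤ M ⊓ M.map (MulAut.conj g).toMonoidHom := by
        refine le_inf hUM ?_
        intro u hu
        refine ⟨g⁻¹ * u * g, hUM ((Subgroup.mem_normalizer_iff''.mp hg u).mp hu), ?_⟩
        show g * (g⁻¹ * u * g) * g⁻¹ = u
        group
      have hdvd := Subgroup.card_dvd_of_le hUle
      obtain ⟨n, hn⟩ := IsPGroup.iff_card.mp hU
      have hn0 : n ≠ 0 := by
        rintro rfl
        apply hU1
        rw [pow_zero] at hn
        exact Subgroup.eq_bot_of_card_eq U hn
      have h2 : 2 ∣ Nat.card ↥(M ⊓ M.map (MulAut.conj g).toMonoidHom) :=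
        (dvd_trans (by rw [hn]; exact dvd_pow_self 2 hn0) hdvd)
      exact (Nat.not_even_iff_odd.mpr hodd) (even_iff_two_dvd.mpr h2)
    have hTR : IsPGroup 2 (T ⊔ R : Subgroup G) := hTp.to_sup_of_normal_right' hRp hTL
    have hTRM : (T ⊔ R : Subgroup G) ≤ M := by
      apply le_of_growth hTR _ hNM
      intro h0
      apply hT1
      rw [eq_bot_iff, ← h0]
      exact le_inf le_sup_left hTM
    have hRM : R ≤ M := le_sup_right.trans hTRM
    exact hLM (hNM R hRp hR1 hRM)
  · intro hempty
    have hnot : ∀ T : Subgroup G, IsPGroup 2 T → T ≠ ⊥ → T ≤ M → ∀ L, Cfsg.IsTwoLocal L → T ≤ L → L ≤ M := by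
      intro T hT hT1 hTM L hL' hTL
      by_contra hLM
      have : T ∈ Cfsg.straddlingTwoSubgroups M := ⟨hT, hT1, hTM, L, hL', hTL, hLM⟩
      rw [hempty] at this
      exact this
    have hMne : M ≠ ⊤ := by
      intro htop
      have hQn : Q.Normal := Subgroup.normalizer_eq_top_iff.mp htop
      apply hQ1
      rw [eq_bot_iff, ← hO]
      exact Cfsg.Agent.Lib.PCore.le_pCore hQn hQp
    have hQ2 : 2 ∣ Nat.card Q := by
      obtain ⟨n, hn⟩ := IsPGroup.iff_card.mp hQp
      have hn0 : n ≠ 0 := by
        rintro rfl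
        apply hQ1
        rw [pow_zero] at hn
        exact Subgroup.eq_bot_of_card_eq Q hn
      rw [hn]
      exact dvd_pow_self 2 hn0
    refine ⟨hMne, even_iff_two_dvd.mpr (dvd_trans hQ2 (Subgroup.card_dvd_of_le hQM)), ?_⟩
    intro g hgM
    by_contra hodd
    have heven : 2 ∣ Nat.card ↥(M ⊓ M.map (MulAut.conj g).toMonoidHom) :=
      even_iff_two_dvd.mp (Nat.not_odd_iff_even.mp hodd)
    obtain ⟨t, ht⟩ : ∃ t : ↥(M ⊓ M.map (MulAut.conj g).toMonoidHom), orderOf t = 2 := by
      haveI : Fact (Nat.Prime 2) := ⟨Nat.prime_two⟩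
      haveI := Fintype.ofFinite ↥(M ⊓ M.map (MulAut.conj g).toMonoidHom)
      apply exists_prime_orderOf_dvd_card 2
      rwa [← Nat.card_eq_fintype_card]
    set T : Subgroup G := Subgroup.zpowers (t : G) with hTdef
    have htord : orderOf (t : G) = 2 := by rwa [Subgroup.orderOf_coe]
    have hTp : IsPGroup 2 T := by
      apply IsPGroup.of_card (n := 1)
      rw [hTdef, Nat.card_zpowers, htord, pow_one]
    have hT1 : T ≠ ⊥ := by
      intro h0
      have : (t : G) = 1 := by
        have : (t : G) ∈ T := Subgroup.mem_zpowers _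
        rw [h0] at this
        simpa using this
      rw [this] at htord
      simp at htord
    have hTM : T ≤ M := by
      rw [hTdef, Subgroup.zpowers_le]
      exact t.2.1
    have hTMg : T ≤ M.map (MulAut.conj g).toMonoidHom := by
      rw [hTdef, Subgroup.zpowers_le]
      exact t.2.2
    -- `M^g` is 2-local
    have hMg2 : Cfsg.IsTwoLocal (M.map (MulAut.conj g).toMonoidHom) := by
      refine ⟨Q.map (MulAut.conj g).toMonoidHom, hQp.map _, ?_, ?_⟩
      · intro h0
        apply hQ1
        rw [Subgroup.map_eq_bot_iff] at h0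
        rw [eq_bot_iff]
        intro x hx
        have := h0 hx
        simpa using this
      · ext x
        simp only [hMdef, Subgroup.mem_map, Subgroup.mem_normalizer_iff]
        constructor
        · rintro ⟨y, hy, rfl⟩ z
          constructor
          · rintro ⟨w, hw, rfl⟩
            exact ⟨y * w * y⁻¹, (hy w).mp hw, by simp [MulAut.conj_apply, mul_assoc]⟩
          · rintro ⟨w, hw, he⟩
            have h1 : z = (MulAut.conj g).toMonoidHom (y⁻¹ * w * y) := by
              have he' : g * w * g⁻¹ = g * y * g⁻¹ * z * (g * y * g⁻¹)⁻¹ := by simpa [MulAut.conj_apply] using he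
              simp only [MulEquiv.toMonoidHom_eq_coe, MonoidHom.coe_coe, MulAut.conj_apply]
              have : z = (g * y * g⁻¹)⁻¹ * (g * w * g⁻¹) * (g * y * g⁻¹) := by
                rw [he']; group
              rw [this]; group
            refine ⟨y⁻¹ * w * y, ?_, h1.symm⟩
            have := (hy (y⁻¹ * w * y)).mpr (by
              have e : y * (y⁻¹ * w * y) * y⁻¹ = w := by group
              rw [e]; exact hw)
            exact this
        · intro hx
          refine ⟨g⁻¹ * x * g, ?_, by simp [MulAut.conj_apply, mul_assoc]⟩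
          intro w
          have h2 := hx (g * w * g⁻¹)
          have e1 : (∃ v ∈ Q, (MulAut.conj g).toMonoidHom v = g * w * g⁻¹) ↔ w ∈ Q := by
            constructor
            · rintro ⟨v, hv, he⟩
              have : v = w := by simpa [MulAut.conj_apply, mul_assoc] using he
              rwa [← this]
            · intro hw
              exact ⟨w, hw, rfl⟩
          have e2 : (∃ v ∈ Q, (MulAut.conj g).toMonoidHom v = x * (g * w * g⁻¹) * x⁻¹) ↔
              g⁻¹ * x * g * w * (g⁻¹ * x * g)⁻¹ ∈ Q := by
            constructor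
            · rintro ⟨v, hv, he⟩
              have : v = g⁻¹ * x * g * w * (g⁻¹ * x * g)⁻¹ := by
                have he' : g * v * g⁻¹ = x * (g * w * g⁻¹) * x⁻¹ := by simpa [MulAut.conj_apply] using he
                have : v = g⁻¹ * (g * v * g⁻¹) * g := by group
                rw [this, he']; group
              rwa [← this]
            · intro hw
              refine ⟨_, hw, ?_⟩
              simp only [MulEquiv.toMonoidHom_eq_coe, MonoidHom.coe_coe, MulAut.conj_apply]
              group
          rw [← e1, h2, e2]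
    have hle : M.map (MulAut.conj g).toMonoidHom ≤ M := hnot T hTp hT1 hTM _ hMg2 hTMg
    -- `g` normalizes `M`.
    have hgnorm : ∀ x ∈ M, g * x * g⁻¹ ∈ M := fun x hx => hle ⟨x, hx, rfl⟩
    have hcard : Nat.card ↥(M.map (MulAut.conj g).toMonoidHom) = Nat.card M :=
      Nat.card_congr (Subgroup.equivMapOfInjective M _ (MulAut.conj g).injective).toEquiv.symm
    have heq : M.map (MulAut.conj g).toMonoidHom = M := Subgroup.eq_of_le_of_card_ge hle hcard.ge
    have hgnorm' : ∀ x ∈ M, g⁻¹ * x * g ∈ M := by
      intro x hx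
      rw [← heq] at hx
      obtain ⟨y, hy, rfl⟩ := hx
      have : g⁻¹ * (MulAut.conj g).toMonoidHom y * g = y := by
        simp [MulAut.conj_apply, mul_assoc]
      rwa [this]
    -- the 2-core of `M`
    set U : Subgroup G := (Cfsg.pCore 2 ↥M).map M.subtype with hU
    have hUp : IsPGroup 2 U := (Cfsg.Agent.Lib.PCore.isPGroup_pCore 2).map _
    have hQU : Q ≤ U := by
      intro q hq
      have hq' : (⟨q, hQM hq⟩ : ↥M) ∈ Cfsg.pCore 2 ↥M := by
        have hle' : Q.subgroupOf M ≤ Cfsg.pCore 2 ↥M := by
          apply Cfsg.Agent.Lib.PCore.le_pCore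
          · exact (Subgroup.normal_subgroupOf_iff_le_normalizer hQM).mpr le_rfl
          · exact hQp.comap_of_injective M.subtype M.subtype_injective
        exact hle' hq
      exact ⟨_, hq', rfl⟩
    have hU1 : U ≠ ⊥ := by
      intro h0
      apply hQ1
      rw [eq_bot_iff, ← h0]
      exact hQU
    have hUM : U ≤ M := Subgroup.map_subtype_le _
    -- `g` normalizes `U`
    let e : ↥M ≃* ↥M :=
      { toFun := fun x => ⟨g * x * g⁻¹, hgnorm _ x.2⟩
        invFun := fun x => ⟨g⁻¹ * x * g, hgnorm' _ x.2⟩
        left_inv := fun x => by apply Subtype.ext; simp [mul_assoc]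
        right_inv := fun x => by apply Subtype.ext; simp [mul_assoc]
        map_mul' := fun x y => by apply Subtype.ext; simp [mul_assoc] }
    let e' : ↥M ≃* ↥M :=
      { toFun := fun x => ⟨g⁻¹ * x * g, hgnorm' _ x.2⟩
        invFun := fun x => ⟨g * x * g⁻¹, hgnorm _ x.2⟩
        left_inv := fun x => by apply Subtype.ext; simp [mul_assoc]
        right_inv := fun x => by apply Subtype.ext; simp [mul_assoc]
        map_mul' := fun x y => by apply Subtype.ext; simp [mul_assoc] }
    have hgU : g ∈ Subgroup.normalizer (U : Set G) := by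
      rw [Subgroup.mem_normalizer_iff]
      intro u
      constructor
      · rintro ⟨x, hx, rfl⟩
        have := map_pCore_le_of_equiv e ⟨x, hx, rfl⟩
        exact ⟨_, this, rfl⟩
      · intro hu
        obtain ⟨x, hx, he⟩ := hu
        have h1 := map_pCore_le_of_equiv e' ⟨x, hx, rfl⟩
        refine ⟨_, h1, ?_⟩
        have hx' : (x : G) = g * u * g⁻¹ := he
        show g⁻¹ * (x : G) * g = u
        rw [hx']
        group
    have hNU : Subgroup.normalizer (U : Set G) ≤ M := by
      apply hnot T hTp hT1 hTM _ ⟨U, hUp, hU1, rfl⟩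
      intro x hx
      have hxM := hTM hx
      rw [Subgroup.mem_normalizer_iff]
      intro u
      have hnormal : (Cfsg.pCore 2 ↥M).Normal := inferInstance
      constructor
      · rintro ⟨y, hy, rfl⟩
        exact ⟨_, hnormal.conj_mem y hy ⟨x, hxM⟩, rfl⟩
      · intro hu
        obtain ⟨y, hy, he⟩ := hu
        have hy2 := hnormal.conj_mem y hy (⟨x, hxM⟩)⁻¹
        refine ⟨_, hy2, ?_⟩
        have hy' : (y : G) = x * u * x⁻¹ := he
        simp only [Subgroup.subtype_apply, Subgroup.coe_mul, InvMemClass.coe_inv, inv_inv]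
        rw [hy']
        group
    exact hgM (hNU hgU)


end Cfsg.Agent.S2947
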