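import Mathlib
import Cfsg.Statements.S2949
import Cfsg.Agent.Lib.FFG16

set_option autoImplicit false
open Cfsg

namespace Cfsg.Agent.S2949

open Cfsg.Agent.Lib.FFG Cfsg.Agent.Lib.JCompStruct Cfsg.Agent.Lib.FFAct



/-- Let G be a finite group of characteristic 2 type in which every 2-local subgroup is solvable and the centralizer of Ω₁(Z(S)) lies in N_G(S) for every Sylow 2-subgroup S; suppose O₂(G) = 1, fix a Sylow 2-subgroup S and a 2-local subgroup M containing N_G(J(S)) (J the Thompson subgroup generated by the elementary abelian 2-subgroups of largest order). For every T maximal (for the order of a largest elementary abelian subgroup, then the order of J(T), then the order of T) among the nontrivial 2-subgroups of M lying in a 2-local subgroup not inside M, there is a J(T)-component K not contained in M with J(T) the Thompson subgroup of every Sylow 2-subgroup of N_G(W_K) containing J(T), and O₂(⟨K, T⟩) ≠ 1. -/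
theorem result {G : Type*} [Group G] [Finite G] (hL : Cfsg.IsCharacteristicTwoType G) (hN : ∀ N : Subgroup G, Cfsg.IsTwoLocal N → Group.IsSolvable ↥N)
    (hZ : ∀ S : Sylow 2 G, Subgroup.centralizer (Cfsg.omegaCenterOf (S : Subgroup G) : Set G) ≤ Subgroup.normalizer ((S : Subgroup G) : Set G)) (hO : Cfsg.pCore 2 G = ⊥) (S : Sylow 2 G) (M : Subgroup G) (hM : Cfsg.IsTwoLocal M)
    (hMJ : Subgroup.normalizer (Cfsg.thompsonSubgroupOf 2 (S : Subgroup G) : Set G) ≤ M) (T : Subgroup G) (hT : T ∈ Cfsg.maxStraddlingTwoSubgroups M) :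
    (Cfsg.jComponentsOutside M T).Nonempty := by
  have Z : ZNH G := ⟨hL, hN, hZ⟩
  obtain ⟨hTp, hT1, hTM, L, hL2, hTL, hLM⟩ := hT.1
  have hNM := MS.normalizer_le hT hMJ
  obtain ⟨T₆, hTT₆, hT₆⟩ := exists_isSylowTwoIn hTL hTp
  have hJT₆ : thompsonSubgroupOf 2 T ≤ T₆ := (Cfsg.Agent.Lib.JCompBasic.thompsonSubgroupOf_le 2 T).trans hTT₆
  obtain ⟨_, h5, h6⟩ := MS.sylow_facts hT hMJ hL2 hLM hT₆ hJT₆
  obtain ⟨_, h7⟩ := MS.grow hT h6 hJT₆
  have hTe : T = T₆ := Subgroup.eq_of_le_of_card_ge hTT₆ h7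
  have hT' : IsSylowTwoIn T L := by rw [hTe]; exact hT₆
  have hLT : L ∈ jOvergroups T := Z.jover_of_two_local hL2 hT' (fun hle => hLM (hle.trans hNM))
  have z := Z.znc_jover hLT
  haveI := z.fact
  have hXR : omegaCenterOf (pCoreOf 2 L) ≤ pCoreOf 2 L := fun v hv => (omegaCenter_mem hv).1
  by_cases hall : ∀ k ∈ kGenSet (omegaCenterOf (pCoreOf 2 L)) L T, k.1 ∈ M
  · exact absurd (z.le_of_components hXR hNM hTM hall) hLM
  · push Not at hall
    obtain ⟨k, ⟨a, c, h⟩, hkM⟩ := hall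
    have hKM : ¬ h.K ≤ M := fun hle => hkM (hle h.kk)
    refine ⟨h.K, ⟨h.isJ, ?_⟩, hKM, ?_⟩
    · intro S' hJS hS
      have hWp : IsPGroup 2 (wOf h.K) := (Cfsg.Agent.Lib.BGFit2.isPGroup_pCoreOf 2 h.K).to_le (wOf_le_pCoreOf h.K)
      have hW1 : wOf h.K ≠ ⊥ := by
        intro hb
        have h4 := h.isJ.2.2.2.2.1
        rw [hb] at h4
        simp at h4
      have hN2 : IsTwoLocal (Subgroup.normalizer (wOf h.K : Set G)) := ⟨wOf h.K, hWp, hW1, rfl⟩
      have hKN : h.K ≤ Subgroup.normalizer (wOf h.K : Set G) :=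
        Subgroup.le_normalizer.trans (normalizer_le_normalizer_wOf h.K)
      obtain ⟨_, h8, _⟩ := MS.sylow_facts hT hMJ hN2 (fun hle => hKM (hKN.trans hle)) hS hJS
      exact h8
    · intro hb
      have hR1 := ZNH.jover_core_ne_bot hLT
      apply hR1
      rw [eq_bot_iff, ← hb]
      have hKTL : h.K ⊔ T ≤ L := sup_le h.hKY hTL
      apply Cfsg.Agent.Lib.BGFit2.le_pCoreOf
      · exact (core_le_sylow z.syl).trans le_sup_right
      · exact hKTL.trans (Cfsg.Agent.Lib.BGFit2.le_normalizer_pCoreOf 2 L)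
      · exact Cfsg.Agent.Lib.BGFit2.isPGroup_pCoreOf 2 L


end Cfsg.Agent.S2949
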