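import Mathlib
import Cfsg.Statements.S0059
import Cfsg.Agent.Lib.Coprime

set_option autoImplicit false
open Cfsg
open scoped Pointwise

namespace Cfsg.Agent.S0059

section aux

variable {G : Type*} [Group G] [Finite G] (K S : Subgroup G) [K.Normal]

theorem index_subgroupOf_eq (hS : S ⊔ K = ⊤) : (K.subgroupOf S).index = K.index := by
  have h1 : K.relIndex (S ⊔ K) = K.relIndex S := Subgroup.relIndex_sup_right S K
  rw [hS, Subgroup.relIndex_top_right] at h1
  exact h1.symm

theorem card_subgroupOf_dvd : Nat.card (K.subgroupOf S) ∣ Nat.card K := by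
  let f : (K.subgroupOf S) →* K :=
    { toFun := fun x => ⟨((x : S) : G), Subgroup.mem_subgroupOf.mp x.2⟩
      map_one' := rfl
      map_mul' := fun _ _ => rfl }
  have hf : Function.Injective f := by
    intro a b hab
    have : ((a : S) : G) = ((b : S) : G) := congrArg (Subtype.val : K → G) hab
    exact Subtype.ext (Subtype.ext this)
  exact Subgroup.card_dvd_of_injective f hf

theorem solv_transfer (hsolv : Group.IsSolvable K ∨ Group.IsSolvable (G ⧸ K)) :
    Group.IsSolvable (K.subgroupOf S) ∨ Group.IsSolvable (S ⧸ K.subgroupOf S) := by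
  rcases hsolv with h | h
  · left
    let f : (K.subgroupOf S) →* K :=
      { toFun := fun x => ⟨((x : S) : G), Subgroup.mem_subgroupOf.mp x.2⟩
        map_one' := rfl
        map_mul' := fun _ _ => rfl }
    have hf : Function.Injective f := by
      intro a b hab
      have : ((a : S) : G) = ((b : S) : G) := congrArg (Subtype.val : K → G) hab
      exact Subtype.ext (Subtype.ext this)
    exact Group.isSolvable_of_isSolvable_injective hf
  · right
    let f : S ⧸ K.subgroupOf S →* G ⧸ K :=
      QuotientGroup.map (K.subgroupOf S) K S.subtype (fun x hx => Subgroup.mem_subgroupOf.mp hx)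
    have hf : Function.Injective f := by
      rw [injective_iff_map_eq_one]
      intro a
      induction a using QuotientGroup.induction_on with
      | H z =>
        intro hz
        have h1 : ((z : G) : G ⧸ K) = 1 := hz
        rw [QuotientGroup.eq_one_iff] at h1
        exact (QuotientGroup.eq_one_iff z).mpr (Subgroup.mem_subgroupOf.mpr h1)
    exact Group.isSolvable_of_isSolvable_injective hf

theorem exists_compl_in (hS : S ⊔ K = ⊤) (hcop : (Nat.card K).Coprime K.index) :
    ∃ A : Subgroup G, A ≤ S ∧ Nat.card A = K.index := by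
  have hc : (Nat.card (K.subgroupOf S)).Coprime (K.subgroupOf S).index := by
    rw [index_subgroupOf_eq K S hS]
    exact Nat.Coprime.coprime_dvd_left (card_subgroupOf_dvd K S) hcop
  obtain ⟨A, hA⟩ := Subgroup.exists_right_complement'_of_coprime hc
  refine ⟨A.map S.subtype, Subgroup.map_subtype_le A, ?_⟩
  rw [Subgroup.card_map_of_injective S.subtype_injective, ← index_subgroupOf_eq K S hS]
  exact hA.symm.index_eq_card.symm

theorem conj_compl_in (hS : S ⊔ K = ⊤) (hcop : (Nat.card K).Coprime K.index)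
    (hsolv : Group.IsSolvable K ∨ Group.IsSolvable (G ⧸ K)) (A B : Subgroup G) (hAS : A ≤ S)
    (hBS : B ≤ S) (hA : Nat.card A = K.index) (hB : Nat.card B = K.index) :
    ∃ s ∈ S, MulAut.conj s • A = B := by
  have hc : (Nat.card (K.subgroupOf S)).Coprime (K.subgroupOf S).index := by
    rw [index_subgroupOf_eq K S hS]
    exact Nat.Coprime.coprime_dvd_left (card_subgroupOf_dvd K S) hcop
  have hcard : ∀ X : Subgroup G, X ≤ S → Nat.card X = K.index →
      Nat.card (X.subgroupOf S) = (K.subgroupOf S).index := by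
    intro X hX hc
    rw [index_subgroupOf_eq K S hS, ← hc]
    exact Nat.card_congr (Subgroup.subgroupOfEquivOfLe hX).toEquiv
  obtain ⟨s, hs⟩ := Cfsg.Agent.Lib.Coprime.sz_conj_of_card (K.subgroupOf S) hc
    (solv_transfer K S hsolv) (A.subgroupOf S) (B.subgroupOf S) (hcard A hAS hA) (hcard B hBS hB)
  refine ⟨s, s.2, ?_⟩
  ext x
  rw [Subgroup.mem_pointwise_smul_iff_inv_smul_mem, MulAut.smul_def]
  constructor
  · intro hx
    have hxS : x ∈ S := by
      have : (s : G) * ((MulAut.conj (s : G))⁻¹ x) * (s : G)⁻¹ = x := by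
        simp [MulAut.conj_apply]
        group
      rw [← this]
      exact S.mul_mem (S.mul_mem s.2 (hAS hx)) (S.inv_mem s.2)
    have h1 : (⟨x, hxS⟩ : S) ∈ MulAut.conj s • A.subgroupOf S := by
      rw [Subgroup.mem_pointwise_smul_iff_inv_smul_mem, MulAut.smul_def, Subgroup.mem_subgroupOf]
      simpa [MulAut.conj_apply, mul_assoc] using hx
    rw [hs] at h1
    exact Subgroup.mem_subgroupOf.mp h1
  · intro hx
    have h1 : (⟨x, hBS hx⟩ : S) ∈ B.subgroupOf S := Subgroup.mem_subgroupOf.mpr hx
    rw [← hs, Subgroup.mem_pointwise_smul_iff_inv_smul_mem, MulAut.smul_def,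
      Subgroup.mem_subgroupOf] at h1
    simpa [MulAut.conj_apply, mul_assoc] using h1

end aux

/-- Let a finite group act on a set on which a normal subgroup K of coprime order and index is transitive, with K or the quotient solvable. Then any complement H of K has a fixed point, and any two H-fixed points are interchanged by an element of K centralising H. -/
theorem result {G : Type*} [Group G] [Finite G] {X : Type*} [Nonempty X] [MulAction G X]
    (K H : Subgroup G) [K.Normal] (hc : Subgroup.IsComplement' K H) (hcop : (Nat.card K).Coprime K.index)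
    (hsolv : Group.IsSolvable K ∨ Group.IsSolvable (G ⧸ K)) (htrans : MulAction.IsPretransitive K X) :
    (∃ x : X, ∀ h ∈ H, h • x = x) ∧
    ∀ x y : X, (∀ h ∈ H, h • x = x) → (∀ h ∈ H, h • y = y) → ∃ k ∈ K ⊓ Subgroup.centralizer (H : Set G), k • x = y := by
  classical
  have hHc : Nat.card H = K.index := hc.symm.index_eq_card.symm
  have hsup : ∀ x : X, MulAction.stabilizer G x ⊔ K = ⊤ := by
    intro x
    rw [eq_top_iff]
    intro g _
    obtain ⟨k, hk⟩ := MulAction.exists_smul_eq K x (g • x)
    have hk' : (k : G) • x = g • x := hk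
    have h1 : (k : G)⁻¹ * g ∈ MulAction.stabilizer G x := by
      rw [MulAction.mem_stabilizer_iff, mul_smul, ← hk', inv_smul_smul]
    have h2 : g = (k : G) * ((k : G)⁻¹ * g) := by group
    rw [h2, sup_comm]
    exact Subgroup.mul_mem_sup k.2 h1
  constructor
  · obtain ⟨x₀⟩ := ‹Nonempty X›
    obtain ⟨A, hAS, hA⟩ := exists_compl_in K (MulAction.stabilizer G x₀) (hsup x₀) hcop
    obtain ⟨g, hg⟩ := Cfsg.Agent.Lib.Coprime.sz_conj_of_card K hcop hsolv A H hA hHc
    refine ⟨g • x₀, ?_⟩
    intro h hh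
    have h1 : h ∈ MulAut.conj g • A := hg ▸ hh
    rw [Subgroup.mem_pointwise_smul_iff_inv_smul_mem, MulAut.smul_def] at h1
    have h2 : g⁻¹ * h * g ∈ MulAction.stabilizer G x₀ := by
      apply hAS
      simpa [MulAut.conj_apply, mul_assoc] using h1
    rw [MulAction.mem_stabilizer_iff] at h2
    have h3 : h • g • x₀ = g • ((g⁻¹ * h * g) • x₀) := by
      simp only [mul_smul, smul_inv_smul]
    rw [h3, h2]
  · intro x y hx hy
    obtain ⟨k₀, hk₀⟩ := MulAction.exists_smul_eq K x y
    have hk₀' : (k₀ : G) • x = y := hk₀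
    set S := MulAction.stabilizer G y with hSdef
    have hHS : H ≤ S := fun h hh => MulAction.mem_stabilizer_iff.mpr (hy h hh)
    set B : Subgroup G := MulAut.conj (k₀ : G) • H with hB
    have hBmem : ∀ z, z ∈ B ↔ (k₀ : G)⁻¹ * z * (k₀ : G) ∈ H := by
      intro z
      rw [hB, Subgroup.mem_pointwise_smul_iff_inv_smul_mem, MulAut.smul_def]
      simp [MulAut.conj_apply, mul_assoc]
    have hBS : B ≤ S := by
      intro z hz
      rw [hBmem] at hz
      rw [hSdef, MulAction.mem_stabilizer_iff]
      have h2 : z • (k₀ : G) • x = (k₀ : G) • (((k₀ : G)⁻¹ * z * (k₀ : G)) • x) := by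
        simp only [mul_smul, smul_inv_smul]
      rw [← hk₀', h2, hx _ hz]
    have hBc : Nat.card B = K.index := by
      rw [← hHc]
      exact Nat.card_congr (MulEquiv.subgroupMap (MulAut.conj (k₀ : G)) H).symm.toEquiv
    obtain ⟨s, hsS, hs⟩ := conj_compl_in K S (hsup y) hcop hsolv H B hHS hBS hHc hBc
    obtain ⟨⟨k, h⟩, hkh⟩ := hc.2 s
    have hkh' : (k : G) * (h : G) = s := hkh
    have hkS : (k : G) ∈ S := by
      have : (k : G) = s * (h : G)⁻¹ := by rw [← hkh']; group
      rw [this]
      exact S.mul_mem hsS (S.inv_mem (hHS h.2))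
    have hkB : ∀ z, z ∈ H → (k : G) * z * (k : G)⁻¹ ∈ B := by
      intro z hz
      rw [← hs, Subgroup.mem_pointwise_smul_iff_inv_smul_mem, MulAut.smul_def]
      have : (MulAut.conj s)⁻¹ ((k : G) * z * (k : G)⁻¹) = (h : G)⁻¹ * z * h := by
        simp [← hkh', mul_assoc]
      rw [this]
      exact H.mul_mem (H.mul_mem (H.inv_mem h.2) hz) h.2
    have hcK : (k₀ : G)⁻¹ * (k : G) ∈ K := K.mul_mem (K.inv_mem k₀.2) k.2
    have hcent : ∀ z ∈ H, Commute ((k₀ : G)⁻¹ * (k : G)) z := by
      intro z hz
      have h1 := (hBmem _).mp (hkB z hz)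
      set c' : G := (k₀ : G)⁻¹ * (k : G) with hc'
      have h2 : c' * z * c'⁻¹ ∈ H := by
        have : c' * z * c'⁻¹ = (k₀ : G)⁻¹ * ((k : G) * z * (k : G)⁻¹) * (k₀ : G) := by
          rw [hc']; group
        rw [this]
        exact h1
      have h3 : c' * z * c'⁻¹ * z⁻¹ ∈ H := H.mul_mem h2 (H.inv_mem hz)
      have h4 : c' * z * c'⁻¹ * z⁻¹ ∈ K := by
        have : c' * z * c'⁻¹ * z⁻¹ = c' * (z * c'⁻¹ * z⁻¹) := by group
        rw [this]
        exact K.mul_mem hcK (Subgroup.Normal.conj_mem inferInstance _ (K.inv_mem hcK) z)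
      have h5 : c' * z * c'⁻¹ * z⁻¹ = 1 := Subgroup.disjoint_def.mp hc.disjoint h4 h3
      have h6 : c' * z = z * c' := by
        calc c' * z = (c' * z * c'⁻¹ * z⁻¹) * (z * c') := by group
          _ = z * c' := by rw [h5, one_mul]
      exact h6
    refine ⟨(k : G)⁻¹ * (k₀ : G), Subgroup.mem_inf.mpr ⟨K.mul_mem (K.inv_mem k.2) k₀.2, ?_⟩, ?_⟩
    · rw [Subgroup.mem_centralizer_iff]
      intro z hz
      have h1 := (hcent z hz).inv_left
      have h2 : ((k₀ : G)⁻¹ * (k : G))⁻¹ = (k : G)⁻¹ * (k₀ : G) := by group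
      rw [h2] at h1
      exact h1.symm
    · rw [mul_smul, hk₀', inv_smul_eq_iff]
      exact (MulAction.mem_stabilizer_iff.mp hkS).symm

end Cfsg.Agent.S0059
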