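import Mathlib
import Cfsg.Statements.S0173
import Cfsg.Agent.Lib.CharTable

set_option autoImplicit false
set_option linter.style.haveILetI false
open Cfsg

namespace Cfsg.Agent.S0173

open Cfsg.Agent.Lib.CharBasic
open Cfsg.Agent.Lib.CharTable

/-- Brauer's permutation lemma for a single automorphism: the number of conjugacy classes mapped to themselves equals the number of irreducible complex characters χ with χ ∘ α = χ. -/
theorem result {G : Type*} [Group G] [Finite G] (α : G ≃* G) : Nat.card {C : ConjClasses G // ConjClasses.map α.toMonoidHom C = C} = Nat.card {χ : Cfsg.IrrCharacter G // (χ : G → ℂ) ∘ α = (χ : G → ℂ)} := by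
  classical
  haveI : Fintype G := Fintype.ofFinite G
  let σ : IrrCharacter G → IrrCharacter G := fun χ =>
    ⟨(χ : G → ℂ) ∘ α, isIrrCharacter_comp_of_surjective α.toMonoidHom α.surjective χ.2⟩
  have key := card_fixed_irr_eq_card_fixed_class σ (ConjClasses.map α.toMonoidHom) (by
    intro χ g
    show (χ : G → ℂ) (α g) = _
    have : ConjClasses.map α.toMonoidHom (ConjClasses.mk g) = ConjClasses.mk (α g) := rfl
    rw [this]
    exact (char_eq_of_isConj (IsIrrCharacter.isCharacter χ.2) (isConj_out_mk (α g))).symm)
  rw [← key]
  apply Nat.card_congr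
  apply Equiv.subtypeEquivRight
  intro χ
  exact ⟨fun h => congrArg Subtype.val h, fun h => Subtype.ext h⟩

end Cfsg.Agent.S0173
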