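import Mathlib
import Cfsg.Statements.S5638
import Cfsg.Agent.Lib.SympT
-- import your own Cfsg.Agent.* helpers here

set_option autoImplicit false
open Cfsg

namespace Cfsg.Agent.S5638

open Matrix Cfsg Cfsg.Geo Module Cfsg.Agent.Lib.SympT Cfsg.Agent.Lib.TvGL
open scoped Kronecker

local notation:70 g:71 " ⋆ " x:70 => Matrix.mulVec (Units.val g) x

section Two

variable {F : Type*} [Field F] [Fintype F]

/-- The element of order three of `GL₂(2)`. -/
def om (F : Type*) [Field F] : Matrix (Fin 2) (Fin 2) F := !![0, 1; 1, 1]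

theorem elts (hq : Fintype.card F = 2) (a : F) : a = 0 ∨ a = 1 := by
  by_cases h : a = 0
  · exact Or.inl h
  · right
    have := FiniteField.pow_card_sub_one_eq_one a h
    rw [hq] at this
    simpa using this

theorem two_zero (hq : Fintype.card F = 2) : (1 : F) + 1 = 0 := by
  have := FiniteField.cast_card_eq_zero F
  rw [hq] at this
  rw [one_add_one_eq_two]
  exact_mod_cast this

theorem om_mul_om (hq : Fintype.card F = 2) : om F * om F = 1 + om F := by
  have h2 := two_zero hq
  ext i j
  fin_cases i <;> fin_cases j <;> simp [om, Matrix.mul_apply, Fin.sum_univ_two, h2]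

theorem om_cube (hq : Fintype.card F = 2) : om F * (om F * om F) = 1 := by
  have h2 := two_zero hq
  rw [om_mul_om hq, mul_add, mul_one, om_mul_om hq]
  ext i j
  fin_cases i <;> fin_cases j <;> simp [om, h2]

/-- Every invertible `2 × 2` matrix over `F₂` normalises `om`. -/
theorem conj_om (hq : Fintype.card F = 2) (a : Matrix (Fin 2) (Fin 2) F) (ha : IsUnit a) :
    a * om F = om F * a ∨ a * om F = (om F * om F) * a := by
  have h2 := two_zero hq
  rw [om_mul_om hq]
  have hd : a.det ≠ 0 := by
    have := (Matrix.isUnit_iff_isUnit_det _).1 ha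
    exact this.ne_zero
  rw [Matrix.det_fin_two] at hd
  obtain h00 | h00 := elts hq (a 0 0) <;> obtain h01 | h01 := elts hq (a 0 1) <;>
    obtain h10 | h10 := elts hq (a 1 0) <;> obtain h11 | h11 := elts hq (a 1 1) <;>
    simp only [h00, h01, h10, h11, mul_zero, zero_mul, mul_one, sub_zero, zero_sub, neg_eq_zero, sub_self,
      ne_eq, not_true_eq_false, one_ne_zero, not_false_eq_true] at hd <;>
    first
    | (left
       ext i j
       fin_cases i <;> fin_cases j <;>
         simp [om, Matrix.mul_apply, Fin.sum_univ_two, h00, h01, h10, h11, h2]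
       done)
    | (right
       ext i j
       fin_cases i <;> fin_cases j <;>
         simp [om, Matrix.mul_apply, Fin.sum_univ_two, h00, h01, h10, h11, h2]
       done)

end Two

/-- The elements conjugating `W` to `W` or `W⁻¹`. -/
def invNorm {G : Type*} [Group G] (W : G) : Subgroup G where
  carrier := {g | g * W * g⁻¹ = W ∨ g * W * g⁻¹ = W⁻¹}
  mul_mem' := by
    intro a b ha hb
    have e1 : a * b * W * (a * b)⁻¹ = a * (b * W * b⁻¹) * a⁻¹ := by group
    have e2 : a * W⁻¹ * a⁻¹ = (a * W * a⁻¹)⁻¹ := by group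
    show a * b * W * (a * b)⁻¹ = W ∨ a * b * W * (a * b)⁻¹ = W⁻¹
    rw [e1]
    rcases hb with hb | hb <;> rw [hb]
    · exact ha
    · rw [e2]
      rcases ha with ha | ha <;> rw [ha]
      · exact Or.inr rfl
      · rw [inv_inv]
        exact Or.inl rfl
  one_mem' := by
    left
    group
  inv_mem' := by
    intro a ha
    show a⁻¹ * W * a⁻¹⁻¹ = W ∨ a⁻¹ * W * a⁻¹⁻¹ = W⁻¹
    rcases ha with ha | ha
    · left
      nth_rw 1 [← ha]
      group
    · right
      have : W = (a * W * a⁻¹)⁻¹ := by
        rw [ha, inv_inv]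
      nth_rw 1 [this]
      group



/-- Over the field with 2 elements, for n = 2 n₂ ≥ 13, the stabiliser in SL_n of a tensor decomposition with factors of dimensions 2 and n₂ (the conjugate by any P of the Kronecker-product subgroup transported along any bijection Fin n ≃ Fin 2 × Fin n₂, intersected with SL_n) is not a maximal subgroup: some subgroup lies strictly between it and SL_n. -/
theorem result {F : Type*} [Field F] [Fintype F] (n : ℕ) (hn : 13 ≤ n) (hq : Fintype.card F = 2) (n₂ : ℕ) (e : Fin n ≃ Fin 2 × Fin n₂) (P : Matrix.GeneralLinearGroup (Fin n) F) : ∃ K : Subgroup (Matrix.GeneralLinearGroup (Fin n) F), Cfsg.Geo.tensorProductSubgroup 2 n₂ e P ⊓ Cfsg.Geo.specialLinear (Fin n) F < K ∧ K < Cfsg.Geo.specialLinear (Fin n) F := by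
  classical
  have hdetone : ∀ g : GL (Fin n) F, g ∈ specialLinear (Fin n) F := by
    intro g
    rw [mem_specialLinear_iff]
    have h1 : (g : Matrix (Fin n) (Fin n) F).det ≠ 0 :=
      ((Matrix.isUnit_iff_isUnit_det _).1 g.isUnit).ne_zero
    exact (elts hq _).resolve_left h1
  have hSL : specialLinear (Fin n) F = ⊤ := by
    rw [eq_top_iff]
    intro g _
    exact hdetone g
  rw [hSL, inf_top_eq]
  have h2 := two_zero hq
  have hcard : n = 2 * n₂ := by
    have := Fintype.card_congr e
    simpa using this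
  set i₀ : Fin n₂ := ⟨0, by omega⟩ with hi₀
  set i₁ : Fin n₂ := ⟨1, by omega⟩ with hi₁
  have hi : i₀ ≠ i₁ := by
    intro h
    simpa [hi₀, hi₁] using congrArg Fin.val h
  -- the element `W`
  let Om : Matrix (Fin 2 × Fin n₂) (Fin 2 × Fin n₂) F := om F ⊗ₖ (1 : Matrix (Fin n₂) (Fin n₂) F)
  have hOm : Om * (Om * Om) = 1 := by
    simp only [Om]
    rw [← Matrix.mul_kronecker_mul, ← Matrix.mul_kronecker_mul, om_cube hq]
    simp
  have hOm' : (Om * Om) * Om = 1 := by
    rw [mul_assoc]
    have hc : Commute (Om * Om) Om := (Commute.refl Om).mul_left (Commute.refl Om)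
    rw [← mul_assoc, hc.eq, hOm]
  let W : GL (Fin 2 × Fin n₂) F := ⟨Om, Om * Om, hOm, hOm'⟩
  have hWv : (W : Matrix _ _ F) = Om := rfl
  have hWi : ((W⁻¹ : GL (Fin 2 × Fin n₂) F) : Matrix _ _ F) = Om * Om := rfl
  -- elements given by involutions
  have hinvol : ∀ A : Matrix (Fin 2 × Fin n₂) (Fin 2 × Fin n₂) F, A * A = 0 → (1 + A) * (1 + A) = 1 := by
    intro A hA
    have h3 : (1 + A) * (1 + A) = 1 + (1 + 1 : F) • A + A * A := by
      rw [add_smul, one_smul]
      noncomm_ring
    rw [h3, h2, zero_smul, hA, add_zero, add_zero]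
  set E : Matrix (Fin n₂) (Fin n₂) F := Matrix.single i₀ i₁ 1 with hE
  have hEE : E * E = 0 := by
    ext x y
    rw [hE, Matrix.single_mul_single_of_ne _ _ _ _ (Ne.symm hi)]
  have hEapply : ∀ x y, E x y = if x = i₀ ∧ y = i₁ then 1 else 0 := by
    intro x y
    rw [hE, Matrix.single_apply]
    by_cases h : x = i₀ ∧ y = i₁
    · rw [if_pos h, if_pos ⟨h.1.symm, h.2.symm⟩]
    · rw [if_neg h, if_neg (fun h2 => h ⟨h2.1.symm, h2.2.symm⟩)]
  -- the non-tensor element in the normaliser
  let A₁ : Matrix (Fin 2 × Fin n₂) (Fin 2 × Fin n₂) F := om F ⊗ₖ E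
  have hA₁ : A₁ * A₁ = 0 := by
    simp only [A₁]
    rw [← Matrix.mul_kronecker_mul, hEE]
    simp
  let g₁ : GL (Fin 2 × Fin n₂) F := ⟨1 + A₁, 1 + A₁, hinvol _ hA₁, hinvol _ hA₁⟩
  have hg₁ : g₁ ∈ invNorm W := by
    left
    rw [mul_inv_eq_iff_eq_mul]
    apply Units.ext
    show (1 + A₁) * Om = Om * (1 + A₁)
    simp only [A₁, Om]
    rw [add_mul, mul_add, one_mul, mul_one, ← Matrix.mul_kronecker_mul, ← Matrix.mul_kronecker_mul]
    simp
  have hg₁K : g₁ ∉ kroneckerSubgroup 2 n₂ F := by
    rintro ⟨a, b, hab⟩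
    have hent : ∀ x y, (1 + A₁) x y = ((a : Matrix _ _ F) ⊗ₖ (b : Matrix _ _ F)) x y := by
      intro x y
      exact congrFun (congrFun hab x) y
    simp only [A₁, Matrix.add_apply, Matrix.kroneckerMap_apply, hEapply, Matrix.one_apply] at hent
    have h00 := hent (0, i₀) (0, i₀)
    have h01 := hent (0, i₀) (1, i₀)
    have h01' := hent (0, i₀) (1, i₁)
    simp [hi, hi.symm, om] at h00 h01 h01'
    rcases h01 with h | h
    · rw [h] at h01'
      simp at h01'
    · rw [h] at h00
      simp at h00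
  -- the element outside the normaliser
  let A₂ : Matrix (Fin 2 × Fin n₂) (Fin 2 × Fin n₂) F := (Matrix.single 0 0 1 : Matrix (Fin 2) (Fin 2) F) ⊗ₖ E
  have hA₂ : A₂ * A₂ = 0 := by
    simp only [A₂]
    rw [← Matrix.mul_kronecker_mul, hEE]
    simp
  let g₂ : GL (Fin 2 × Fin n₂) F := ⟨1 + A₂, 1 + A₂, hinvol _ hA₂, hinvol _ hA₂⟩
  have hg₂ : g₂ ∉ invNorm W := by
    rintro (h | h)
    · rw [mul_inv_eq_iff_eq_mul] at h
      have h3 : (1 + A₂) * Om = Om * (1 + A₂) := congrArg Units.val h
      simp only [A₂, Om] at h3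
      rw [add_mul, mul_add, one_mul, mul_one, ← Matrix.mul_kronecker_mul, ← Matrix.mul_kronecker_mul] at h3
      have h4 := congrFun (congrFun h3 (0, i₀)) (1, i₁)
      simp [Matrix.add_apply, Matrix.kroneckerMap_apply, hEapply, Matrix.one_apply, om, Matrix.mul_apply, Fin.sum_univ_two, Matrix.single_apply, Matrix.vecMul, dotProduct] at h4
    · rw [mul_inv_eq_iff_eq_mul] at h
      have h3 : (1 + A₂) * Om = (Om * Om) * (1 + A₂) := congrArg Units.val h
      simp only [A₂, Om] at h3
      rw [add_mul, mul_add, one_mul, mul_one, ← Matrix.mul_kronecker_mul, ← Matrix.mul_kronecker_mul,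
        ← Matrix.mul_kronecker_mul] at h3
      have h4 := congrFun (congrFun h3 (0, i₁)) (0, i₁)
      simp [Matrix.add_apply, Matrix.kroneckerMap_apply, hEapply, Matrix.one_apply, om, Matrix.mul_apply, Fin.sum_univ_two, Matrix.single_apply, hi.symm, Matrix.vecMul, dotProduct] at h4
  -- the tensor group normalises
  have hle : kroneckerSubgroup 2 n₂ F ≤ invNorm W := by
    rintro g ⟨a, b, hab⟩
    rcases conj_om hq (a : Matrix _ _ F) a.isUnit with h | h
    · left
      rw [mul_inv_eq_iff_eq_mul]
      apply Units.ext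
      show (g : Matrix _ _ F) * Om = Om * (g : Matrix _ _ F)
      rw [hab]
      simp only [Om]
      rw [← Matrix.mul_kronecker_mul, ← Matrix.mul_kronecker_mul, h]
      simp
    · right
      rw [mul_inv_eq_iff_eq_mul]
      apply Units.ext
      show (g : Matrix _ _ F) * Om = (Om * Om) * (g : Matrix _ _ F)
      rw [hab]
      simp only [Om]
      rw [← Matrix.mul_kronecker_mul, ← Matrix.mul_kronecker_mul, ← Matrix.mul_kronecker_mul, h]
      simp
  have hlt1 : kroneckerSubgroup 2 n₂ F < invNorm W := by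
    rw [SetLike.lt_iff_le_and_exists]
    exact ⟨hle, g₁, hg₁, hg₁K⟩
  have hlt2 : invNorm W < ⊤ := by
    rw [lt_top_iff_ne_top]
    intro h
    apply hg₂
    rw [h]
    trivial
  have hinj1 : Function.Injective (glReindex (F := F) e.symm).toMonoidHom := (glReindex e.symm).injective
  have hinj2 : Function.Injective (MulAut.conj P).toMonoidHom := (MulAut.conj P).injective
  refine ⟨((invNorm W).map (glReindex e.symm).toMonoidHom).map (MulAut.conj P).toMonoidHom, ?_, ?_⟩
  · unfold tensorProductSubgroup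
    rw [Subgroup.map_lt_map_iff_of_injective hinj2, Subgroup.map_lt_map_iff_of_injective hinj1]
    exact hlt1
  · have htop1 : ((⊤ : Subgroup (GL (Fin 2 × Fin n₂) F)).map (glReindex e.symm).toMonoidHom).map
        (MulAut.conj P).toMonoidHom = ⊤ := by
      rw [Subgroup.map_top_of_surjective (glReindex (F := F) e.symm).toMonoidHom (glReindex e.symm).surjective,
        Subgroup.map_top_of_surjective (MulAut.conj P).toMonoidHom (MulAut.conj P).surjective]
    rw [← htop1, Subgroup.map_lt_map_iff_of_injective hinj2, Subgroup.map_lt_map_iff_of_injective hinj1]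
    exact hlt2

end Cfsg.Agent.S5638
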