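import Mathlib
import Cfsg.Agent.Lib.FieldModel
import Cfsg.Agent.Lib.CycBlock
import Cfsg.Agent.Lib.PrimOrder
import Cfsg.Statements.S5970
-- import your own Cfsg.Agent.* helpers here

set_option autoImplicit false
open scoped MatrixGroups
open Cfsg

namespace Cfsg.Agent.S5970

open Matrix Polynomial Module Cfsg.Geo
open Cfsg.Agent.Lib.FieldModel Cfsg.Agent.Lib.CycBlock Cfsg.Agent.Lib.PrimOrder

set_option linter.unusedSimpArgs false
set_option linter.unusedVariables false

variable {F : Type*} [Field F] {n : ℕ}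

local notation "Mt" => Matrix (Fin n) (Fin n) F

/-- Packaging: a conjugator of determinant one in `GL` gives one in `SL`. -/
theorem conj_pack (H : Subgroup (GL (Fin n) F)) (x : Matrix.SpecialLinearGroup (Fin n) F) (P : GL (Fin n) F)
    (hdet : (P : Mt).det = 1) (h : P⁻¹ * (Matrix.SpecialLinearGroup.toGL x) * P ∈ H) :
    ∃ P : Matrix.SpecialLinearGroup (Fin n) F, P⁻¹ * x * P ∈ H.comap (Matrix.SpecialLinearGroup.toGL : Matrix.SpecialLinearGroup (Fin n) F →* GL (Fin n) F) := by
  let P₁ : Matrix.SpecialLinearGroup (Fin n) F := ⟨P, hdet⟩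
  have hP₁ : Matrix.SpecialLinearGroup.toGL P₁ = P := Units.ext rfl
  refine ⟨P₁, ?_⟩
  rw [Subgroup.mem_comap, map_mul, map_mul, map_inv, hP₁]
  exact h

/-- The direction from `q` a primitive root. -/
theorem backward [Fintype F] {p : ℕ} [Fact p.Prime] [CharP F p] [Fact n.Prime] {K : Subalgebra F Mt}
    (hK : IsFieldSubalgebra n K) (hn3 : 3 ≤ n) (hnp : n ≠ p)
    (hord : orderOf ((Fintype.card F : ℕ) : ZMod n) = n - 1) (x : Matrix.SpecialLinearGroup (Fin n) F) (z : F)
    (hz : ((x ^ n : Matrix.SpecialLinearGroup (Fin n) F) : Mt) = z • (1 : Mt))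
    (hx : ∀ z : F, (x : Mt) ≠ z • (1 : Mt)) :
    ∃ P : Matrix.SpecialLinearGroup (Fin n) F, P⁻¹ * x * P ∈ ((subalgebraNormalizer K).comap (Matrix.SpecialLinearGroup.toGL : Matrix.SpecialLinearGroup (Fin n) F →* GL (Fin n) F)) := by
  classical
  have hn : n.Prime := Fact.out
  have hcast : (n : F) ≠ 0 := natCast_ne_zero_of_ne hn Fact.out hnp
  have hΦ := irreducible_cyc (F := F) n hnp hord
  -- `z = 1`
  have hz1 : z = 1 := by
    have hd := congrArg Matrix.det hz
    rw [Matrix.SpecialLinearGroup.coe_pow, Matrix.det_pow, Matrix.det_smul, Matrix.det_one, mul_one] at hd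
    have hxd : (x : Mt).det = 1 := x.2
    rw [hxd, one_pow, Fintype.card_fin] at hd
    have hz0 : z ≠ 0 := by
      rintro rfl
      rw [zero_pow hn.ne_zero] at hd
      exact one_ne_zero hd
    have h1 := FiniteField.pow_card_sub_one_eq_one z hz0
    have hcop : Nat.Coprime n (Fintype.card F - 1) := by
      rw [Nat.Prime.coprime_iff_not_dvd hn]
      intro hdvd
      have h2 : 2 ≤ Fintype.card F := Fintype.one_lt_card
      have h3 : ((Fintype.card F - 1 : ℕ) : ZMod n) = 0 := (ZMod.natCast_eq_zero_iff _ _).mpr hdvd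
      rw [Nat.cast_sub (by omega), sub_eq_zero, Nat.cast_one] at h3
      rw [h3, orderOf_one] at hord
      omega
    have := (pow_gcd_eq_one (a := z)).mpr ⟨hd.symm, h1⟩
    rw [Nat.Coprime.gcd_eq_one hcop, pow_one] at this
    exact this
  subst hz1
  obtain ⟨L, _, _, φ, hφ, hKφ, hfin⟩ := exists_model hn.ne_zero hK
  have hc : finrank F L = Fintype.card (Fin n) := by rw [hfin, Fintype.card_fin]
  obtain ⟨y, hyN, hy1, hyns⟩ := exists_frob φ hn.two_le hKφ hfin hc
  have hfac : (X - C 1 : F[X]) * cyclotomic n F = X ^ n - 1 := mul_cyc n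
  have hxk : aeval ((Matrix.SpecialLinearGroup.toGL x : GL (Fin n) F) : Mt) ((X - C 1) * cyclotomic n F) = 0 := by
    rw [hfac, Matrix.SpecialLinearGroup.coe_GL_coe_matrix]
    simp only [map_sub, map_pow, aeval_X, map_one]
    rw [← Matrix.SpecialLinearGroup.coe_pow, hz, one_smul, sub_self]
  have hyk : aeval (y : Mt) ((X - C 1) * cyclotomic n F) = 0 := by
    rw [hfac]
    simp only [map_sub, map_pow, aeval_X, map_one]
    rw [hy1, sub_self]
  obtain ⟨P, hPd, hP⟩ := exists_conj_det_one (Matrix.SpecialLinearGroup.toGL x) y n hn3 (by simp) (cyclotomic n F) hΦ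
    (cyclotomic.monic n F) (natDegree_cyc n) (coprime_cyc n hcast) hxk hyk
    (by
      intro h
      apply hx 1
      rw [one_smul]
      rw [← Matrix.SpecialLinearGroup.coe_GL_coe_matrix, h]
      rfl)
    (by
      intro h
      apply hyns 1
      rw [h, one_smul]
      rfl)
  apply conj_pack _ x P hPd
  rw [hP]
  exact hyN

/-- Blocks. -/
theorem exists_bad_block [Fintype F] (hn2 : 0 < n) {i : ℕ} (hi : i + 2 ≤ n) (x₀ : Matrix (Fin i) (Fin i) F) (hx₀ : x₀.det ≠ 0)
    (hδ : x₀.det ^ n = 1) (hx₀n : x₀ ^ n = 1) (hm : i + 1 < n) :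
    ∃ X : Mt, X.det = 1 ∧ X ^ n = 1 ∧ (∀ s : F, X = s • 1 → x₀ = s • 1 ∧ s = 1) ∧
      ∀ p : F[X], aeval X (p * ((Polynomial.X - C (x₀.det)⁻¹) * (Polynomial.X - C 1))) = 0 ∨ aeval x₀ p ≠ 0 := by
  classical
  obtain ⟨m, hm'⟩ : ∃ m, n = i + (1 + (m + 1)) := ⟨n - i - 2, by omega⟩
  let τ : Fin i ⊕ (Unit ⊕ Fin (m + 1)) ≃ Fin n := Fintype.equivOfCardEq (by simp [hm'])
  set δ := x₀.det with hδdef
  let d : Unit ⊕ Fin (m + 1) → F := Sum.elim (fun _ => δ⁻¹) (fun _ => 1)
  let D : Matrix (Unit ⊕ Fin (m + 1)) (Unit ⊕ Fin (m + 1)) F := Matrix.diagonal d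
  let M := Matrix.fromBlocks x₀ 0 0 D
  have hDn : D ^ n = 1 := by
    rw [Matrix.diagonal_pow, ← Matrix.diagonal_one]
    congr 1
    funext a
    rcases a with a | a
    · simp [d, inv_pow, hδ]
    · simp [d]
  have hMpow : ∀ k, M ^ k = Matrix.fromBlocks (x₀ ^ k) 0 0 (D ^ k) := by
    intro k
    induction k with
    | zero => simp [Matrix.fromBlocks_one]
    | succ k ih =>
      rw [pow_succ, ih, Matrix.fromBlocks_multiply, pow_succ, pow_succ]
      simp [M]
  have hMn : M ^ n = 1 := by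
    rw [hMpow, hx₀n, hDn, Matrix.fromBlocks_one]
  have hMd : M.det = 1 := by
    rw [Matrix.det_fromBlocks_zero₂₁, Matrix.det_diagonal, Fintype.prod_sum_type]
    simp [d]
    rw [← hδdef, mul_inv_cancel₀ hx₀]
  let R : Matrix (Fin i ⊕ (Unit ⊕ Fin (m + 1))) (Fin i ⊕ (Unit ⊕ Fin (m + 1))) F ≃ₐ[F] Mt := Matrix.reindexAlgEquiv F F τ
  refine ⟨R M, ?_, ?_, ?_, ?_⟩
  · have : R M = Matrix.reindex τ τ M := rfl
    rw [this, Matrix.det_reindex_self, hMd]
  · rw [← map_pow, hMn, map_one]
  · intro s hs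
    have hM : M = s • 1 := by
      apply R.injective
      rw [hs, map_smul, map_one]
    have h1 : s = 1 := by
      have := congrFun (congrFun hM (Sum.inr (Sum.inr 0))) (Sum.inr (Sum.inr 0))
      simpa [M, D, d] using this.symm
    refine ⟨?_, h1⟩
    ext a b
    have := congrFun (congrFun hM (Sum.inl a)) (Sum.inl b)
    simpa [M, Matrix.smul_apply, Matrix.one_apply] using this
  · intro p
    by_cases hp : aeval x₀ p = 0
    · left
      have e1 : aeval (R M) (p * ((Polynomial.X - C δ⁻¹) * (Polynomial.X - C 1))) = R (aeval M (p * ((Polynomial.X - C δ⁻¹) * (Polynomial.X - C 1)))) :=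
        Polynomial.aeval_algHom_apply (R.toAlgHom) M _
      rw [e1, aeval_fromBlocks, map_mul (aeval x₀), hp, zero_mul, map_mul (aeval D)]
      have hD0 : aeval D ((Polynomial.X - C δ⁻¹) * (Polynomial.X - C 1) : F[X]) = 0 := by
        rw [map_mul]
        simp only [map_sub, aeval_X, aeval_C, Algebra.algebraMap_eq_smul_one, one_smul]
        ext a b
        rcases a with a | a <;> rcases b with b | b <;>
          simp [D, d, Matrix.mul_apply, Matrix.sub_apply, Matrix.smul_apply, Matrix.diagonal_apply, Matrix.one_apply, Fintype.sum_sum_type]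
      rw [hD0, mul_zero]
      simp
    · right
      exact hp

/-- The direction where `q` is not a primitive root. -/
theorem forward {p : ℕ} [Fact p.Prime] [CharP F p] [Fintype F] [Fact n.Prime] {K : Subalgebra F Mt}
    (hK : IsFieldSubalgebra n K) (hn3 : 3 < n) (hnp : n ≠ p)
    (hall : ∀ x : Matrix.SpecialLinearGroup (Fin n) F,
      (∃ z : F, ((x ^ n : Matrix.SpecialLinearGroup (Fin n) F) : Matrix (Fin n) (Fin n) F) = z • (1 : Matrix (Fin n) (Fin n) F)) →
      (∀ z : F, (x : Matrix (Fin n) (Fin n) F) ≠ z • (1 : Matrix (Fin n) (Fin n) F)) →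
      ∃ P : Matrix.SpecialLinearGroup (Fin n) F, P⁻¹ * x * P ∈ ((Cfsg.Geo.subalgebraNormalizer K).comap (Matrix.SpecialLinearGroup.toGL : Matrix.SpecialLinearGroup (Fin n) F →* GL (Fin n) F))) :
    orderOf ((Fintype.card F : ℕ) : ZMod n) = n - 1 := by
  classical
  have hn : n.Prime := Fact.out
  by_contra hord
  set q := Fintype.card F with hq
  have hq0 : ((q : ℕ) : ZMod n) ≠ 0 := by
    intro h
    exact not_dvd_card hn hnp ((ZMod.natCast_eq_zero_iff _ _).mp h)
  have hq1 : ((q : ℕ) : ZMod n) ^ (n - 1) = 1 := ZMod.pow_card_sub_one_eq_one hq0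
  set i := orderOf ((q : ℕ) : ZMod n) with hi
  have hi0 : 0 < i := by
    apply orderOf_pos_iff.mpr
    exact isOfFinOrder_iff_pow_eq_one.mpr ⟨n - 1, by omega, hq1⟩
  have hidvd : i ∣ n - 1 := orderOf_dvd_of_pow_eq_one hq1
  have hi2 : 2 * i ≤ n - 1 := by
    obtain ⟨c, hc⟩ := hidvd
    have hc0 : c ≠ 0 := by
      rintro rfl
      omega
    have hc1 : c ≠ 1 := by
      rintro rfl
      omega
    have : 2 ≤ c := by omega
    rw [hc, mul_comm 2 i]
    exact Nat.mul_le_mul_left i this
  haveI : NeZero i := ⟨hi0.ne'⟩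
  let L := FiniteField.Extension F p i
  haveI : Fintype L := Fintype.ofFinite L
  have hfin : finrank F L = i := FiniteField.finrank_extension F p i
  have hcard : Fintype.card L = q ^ i := by
    rw [Fintype.card_eq_nat_card, FiniteField.natCard_extension, Nat.card_eq_fintype_card]
  have hdv : n ∣ Nat.card Lˣ := by
    rw [Nat.card_eq_fintype_card, Fintype.card_units, hcard]
    rw [← ZMod.natCast_eq_zero_iff]
    have h1 : 1 ≤ q ^ i := Nat.one_le_pow _ _ Fintype.card_pos
    rw [Nat.cast_sub h1, sub_eq_zero]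
    simp only [Nat.cast_pow, Nat.cast_one]
    rw [hi]
    exact pow_orderOf_eq_one _
  obtain ⟨ζ, hζ⟩ := exists_prime_orderOf_dvd_card' n hdv
  have hζn : (ζ : L) ^ n = 1 := by
    have := pow_orderOf_eq_one ζ
    rw [hζ] at this
    have := congrArg Units.val this
    simpa using this
  have hζ1 : (ζ : L) ≠ 1 := by
    intro h
    have h2 : ζ = 1 := Units.ext h
    rw [h2, orderOf_one] at hζ
    exact hn.one_lt.ne hζ
  let b : Basis (Fin i) F L := Module.finBasisOfFinrankEq F L hfin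
  let x₀ := Algebra.leftMulMatrix b (ζ : L)
  have hx₀n : x₀ ^ n = 1 := by
    rw [← map_pow, hζn, map_one]
  have hδ : x₀.det ^ n = 1 := by
    rw [← Matrix.det_pow, hx₀n, Matrix.det_one]
  have hx₀d : x₀.det ≠ 0 := by
    intro h
    rw [h, zero_pow hn.ne_zero] at hδ
    exact zero_ne_one hδ
  obtain ⟨X, hXd, hXn, hXs, hXp⟩ := exists_bad_block (F := F) (n := n) hn.pos (i := i) (by omega) x₀ hx₀d hδ hx₀n (by omega)
  set g := minpoly F (ζ : L) with hg
  have hgint : IsIntegral F (ζ : L) := Algebra.IsIntegral.isIntegral _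
  have hg0 : g ≠ 0 := minpoly.ne_zero hgint
  have hgd : g.natDegree ≤ i := by
    rw [← hfin]
    exact minpoly.natDegree_le _
  have hgx₀ : aeval x₀ g = 0 := by
    have : aeval x₀ g = Algebra.leftMulMatrix b (aeval (ζ : L) g) :=
      Polynomial.aeval_algHom_apply (Algebra.leftMulMatrix b) (ζ : L) g
    rw [this, hg, minpoly.aeval, map_zero]
  set G : F[X] := g * ((Polynomial.X - C (x₀.det)⁻¹) * (Polynomial.X - C 1)) with hG
  have hG0 : G ≠ 0 := mul_ne_zero hg0 (mul_ne_zero (X_sub_C_ne_zero _) (X_sub_C_ne_zero _))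
  have hGd : G.natDegree < n := by
    have h1 : G.natDegree = g.natDegree + (1 + 1) := by
      rw [hG, Polynomial.natDegree_mul hg0 (mul_ne_zero (X_sub_C_ne_zero _) (X_sub_C_ne_zero _)),
        Polynomial.natDegree_mul (X_sub_C_ne_zero _) (X_sub_C_ne_zero _), natDegree_X_sub_C, natDegree_X_sub_C]
    omega
  have hGX : aeval X G = 0 := by
    rcases hXp g with h | h
    · exact h
    · exact absurd hgx₀ h
  have hns : ∀ s : F, X ≠ s • (1 : Mt) := by
    intro s hs
    obtain ⟨h1, h2⟩ := hXs s hs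
    subst h2
    rw [one_smul] at h1
    apply hζ1
    apply Algebra.leftMulMatrix_injective b
    rw [map_one]
    exact h1
  let x : Matrix.SpecialLinearGroup (Fin n) F := ⟨X, hXd⟩
  obtain ⟨P, hP⟩ := hall x ⟨1, by
    rw [Matrix.SpecialLinearGroup.coe_pow, one_smul]
    exact hXn⟩ (fun z hz => hns z hz)
  rw [Subgroup.mem_comap, map_mul, map_mul, map_inv] at hP
  obtain ⟨L', _, _, φ, hφ, hKφ, hfin'⟩ := exists_model hn.ne_zero hK
  have hc : finrank F L' = Fintype.card (Fin n) := by rw [hfin', Fintype.card_fin]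
  set PG := Matrix.SpecialLinearGroup.toGL P with hPG
  have hval : (((PG)⁻¹ * Matrix.SpecialLinearGroup.toGL x * PG : GL (Fin n) F) : Mt) = ((PG⁻¹ : GL (Fin n) F) : Mt) * X * (PG : Mt) := rfl
  obtain ⟨s, hs⟩ := scalar_of_low_poly φ hn hφ hKφ hfin' hc _ hP G hG0 hGd (by
    rw [hval, Cfsg.Agent.Lib.PrimOrder.aeval_conj, hGX, Matrix.mul_zero, Matrix.zero_mul])
  apply hns s
  rw [hval] at hs
  have hPP : (PG : Mt) * ((PG⁻¹ : GL (Fin n) F) : Mt) = 1 := Units.mul_inv PG
  calc X = (PG : Mt) * (((PG⁻¹ : GL (Fin n) F) : Mt) * X * (PG : Mt)) * ((PG⁻¹ : GL (Fin n) F) : Mt) := by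
        calc X = ((PG : Mt) * ((PG⁻¹ : GL (Fin n) F) : Mt)) * X * ((PG : Mt) * ((PG⁻¹ : GL (Fin n) F) : Mt)) := by
              rw [hPP, Matrix.one_mul, Matrix.mul_one]
          _ = _ := by simp only [Matrix.mul_assoc]
    _ = s • 1 := by
        rw [hs, Matrix.mul_smul, Matrix.mul_one, Matrix.smul_mul, hPP]



/-- Elements of order `n` of PSL_n(q), `n` prime, and the normalizer of a Singer cycle. Here `T = PSL_n(F)` for a field `F` with `q = p^f` elements (`n ≥ 2`, `(n, q) ≠ (2, 2), (2, 3)`), `k` is a prime dividing `n`, `K` is a subalgebra of the `n × n` matrices that is a field of degree `k` over `F` (an extension-field structure F_{q^k} on `F^n`), and `H` is the subgroup of matrices of determinant 1 normalizing `K` — a subgroup of type GL_{n/k}(q^k) (maximal except in some small cases; maximality is not assumed); Ω is the set of cosets of `H` in `T`, so an element of `T` of prime order `r` (a matrix `x` of determinant 1 with `x^r` scalar, `x` not scalar) fixes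 a point of Ω when some conjugate of `x` by a matrix of determinant 1 normalizes `K`. Take `k = n > 3` prime with `n ≠ p` (so `H` is the normalizer of a Singer cycle), and suppose `n` divides the index of `H`. Then every element of `T` of order `n` is conjugate in `T` into `H` if and only if the multiplicative order of `q` modulo `n` is `n − 1`. -/
theorem result {F : Type*} [Field F] [Fintype F] {p : ℕ} [Fact p.Prime] [CharP F p] {q : ℕ} (hq : Fintype.card F = q)
    (n : ℕ) (hn : 2 ≤ n) (hT : (n, q) ≠ (2, 2) ∧ (n, q) ≠ (2, 3))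
    (k : ℕ) (hk : k.Prime) (hkn : k ∣ n) (K : Subalgebra F (Matrix (Fin n) (Fin n) F)) (hK : Cfsg.Geo.IsFieldSubalgebra k K) (hkn' : k = n) (hn3 : 3 < n) (hnp : n ≠ p) (hΩ : n ∣ ((Cfsg.Geo.subalgebraNormalizer K).comap (Matrix.SpecialLinearGroup.toGL : Matrix.SpecialLinearGroup (Fin n) F →* GL (Fin n) F)).index) :
    (∀ x : Matrix.SpecialLinearGroup (Fin n) F,
      (∃ z : F, ((x ^ n : Matrix.SpecialLinearGroup (Fin n) F) : Matrix (Fin n) (Fin n) F) = z • (1 : Matrix (Fin n) (Fin n) F)) →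
      (∀ z : F, (x : Matrix (Fin n) (Fin n) F) ≠ z • (1 : Matrix (Fin n) (Fin n) F)) →
      ∃ P : Matrix.SpecialLinearGroup (Fin n) F, P⁻¹ * x * P ∈ ((Cfsg.Geo.subalgebraNormalizer K).comap (Matrix.SpecialLinearGroup.toGL : Matrix.SpecialLinearGroup (Fin n) F →* GL (Fin n) F))) ↔
    orderOf (q : ZMod n) = n - 1 := by
  subst hkn'
  haveI : Fact k.Prime := ⟨hk⟩
  subst hq
  refine ⟨fun hall => forward hK hn3 hnp hall, ?_⟩
  rintro hord x ⟨z, hz⟩ hx
  exact backward hK (by omega) hnp hord x z hz hx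

end Cfsg.Agent.S5970
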