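import Mathlib
import Cfsg.Agent.S5970
import Cfsg.Agent.Lib.ClassicalCore
import Cfsg.Agent.Lib.EigenThree
import Cfsg.Statements.S5971
-- import your own Cfsg.Agent.* helpers here

set_option autoImplicit false
open scoped MatrixGroups
open Cfsg

namespace Cfsg.Agent.S5971

open Matrix Polynomial Module Cfsg.Geo
open Cfsg.Agent.Lib.FieldModel Cfsg.Agent.Lib.CycBlock Cfsg.Agent.Lib.PrimOrder Cfsg.Agent.Lib.EigenThree
open Cfsg.Agent.Lib.MatConj

set_option linter.unusedSimpArgs false
set_option linter.unusedVariables false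

variable {F : Type*} [Field F]

local notation "M3" => Matrix (Fin 3) (Fin 3) F

theorem order_two : orderOf (2 : ZMod 3) = 2 := orderOf_eq_prime (by decide) (by decide)

/-- Bad elements. -/
theorem bad_elt [Fintype F] {K : Subalgebra F M3} (hK : IsFieldSubalgebra 3 K)
    (hall : ∀ x : Matrix.SpecialLinearGroup (Fin 3) F,
      (∃ z : F, ((x ^ 3 : Matrix.SpecialLinearGroup (Fin 3) F) : M3) = z • (1 : M3)) →
      (∀ z : F, (x : M3) ≠ z • (1 : M3)) →
      ∃ P : Matrix.SpecialLinearGroup (Fin 3) F, P⁻¹ * x * P ∈ ((Cfsg.Geo.subalgebraNormalizer K).comap (Matrix.SpecialLinearGroup.toGL : Matrix.SpecialLinearGroup (Fin 3) F →* GL (Fin 3) F)))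
    (X : M3) (hXd : X.det = 1) (z : F) (hz : X ^ 3 = z • (1 : M3)) (hns : ∀ s : F, X ≠ s • (1 : M3))
    (G : F[X]) (hG0 : G ≠ 0) (hGd : G.natDegree < 3) (hGX : aeval X G = 0) : False := by
  classical
  have h3 : Nat.Prime 3 := Nat.prime_three
  let x : Matrix.SpecialLinearGroup (Fin 3) F := ⟨X, hXd⟩
  obtain ⟨P, hP⟩ := hall x ⟨z, by
    rw [Matrix.SpecialLinearGroup.coe_pow]
    exact hz⟩ (fun z hz => hns z hz)
  rw [Subgroup.mem_comap, map_mul, map_mul, map_inv] at hP
  obtain ⟨L', _, _, φ, hφ, hKφ, hfin'⟩ := exists_model h3.ne_zero hK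
  have hc : finrank F L' = Fintype.card (Fin 3) := by rw [hfin', Fintype.card_fin]
  set PG := Matrix.SpecialLinearGroup.toGL P with hPG
  have hval : (((PG)⁻¹ * Matrix.SpecialLinearGroup.toGL x * PG : GL (Fin 3) F) : M3) = ((PG⁻¹ : GL (Fin 3) F) : M3) * X * (PG : M3) := rfl
  obtain ⟨s, hs⟩ := scalar_of_low_poly φ h3 hφ hKφ hfin' hc _ hP G hG0 hGd (by
    rw [hval, Cfsg.Agent.Lib.PrimOrder.aeval_conj, hGX, Matrix.mul_zero, Matrix.zero_mul])
  apply hns s
  rw [hval] at hs
  have hPP : (PG : M3) * ((PG⁻¹ : GL (Fin 3) F) : M3) = 1 := Units.mul_inv PG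
  calc X = (PG : M3) * (((PG⁻¹ : GL (Fin 3) F) : M3) * X * (PG : M3)) * ((PG⁻¹ : GL (Fin 3) F) : M3) := by
        calc X = ((PG : M3) * ((PG⁻¹ : GL (Fin 3) F) : M3)) * X * ((PG : M3) * ((PG⁻¹ : GL (Fin 3) F) : M3)) := by
              rw [hPP, Matrix.one_mul, Matrix.mul_one]
          _ = _ := by simp only [Matrix.mul_assoc]
    _ = s • 1 := by
        rw [hs, Matrix.mul_smul, Matrix.mul_one, Matrix.smul_mul, hPP]

/-- Characteristic three: a transvection. -/
theorem bad_char3 [Fintype F] (h3F : (3 : F) = 0) {K : Subalgebra F M3} (hK : IsFieldSubalgebra 3 K)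
    (hall : ∀ x : Matrix.SpecialLinearGroup (Fin 3) F,
      (∃ z : F, ((x ^ 3 : Matrix.SpecialLinearGroup (Fin 3) F) : M3) = z • (1 : M3)) →
      (∀ z : F, (x : M3) ≠ z • (1 : M3)) →
      ∃ P : Matrix.SpecialLinearGroup (Fin 3) F, P⁻¹ * x * P ∈ ((Cfsg.Geo.subalgebraNormalizer K).comap (Matrix.SpecialLinearGroup.toGL : Matrix.SpecialLinearGroup (Fin 3) F →* GL (Fin 3) F))) :
    False := by
  classical
  let X : M3 := !![1, 1, 0; 0, 1, 0; 0, 0, 1]
  have hXd : X.det = 1 := by
    simp [X, Matrix.det_fin_three]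
  have hX2 : (X - 1) * (X - 1) = 0 := by
    ext i j
    fin_cases i <;> fin_cases j <;>
      simp [X, Matrix.mul_apply, Fin.sum_univ_three, Matrix.sub_apply, Matrix.one_apply]
  have hX3 : X ^ 3 = (1 : F) • (1 : M3) := by
    ext i j
    fin_cases i <;> fin_cases j <;>
      simp [X, pow_succ, Matrix.mul_apply, Fin.sum_univ_three, Matrix.one_apply]
    have : (1 + (1 + 1) : F) = 3 := by norm_num
    rw [this, h3F]
  refine bad_elt hK hall X hXd 1 hX3 ?_ ((Polynomial.X - C 1) * (Polynomial.X - C 1))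
    (mul_ne_zero (X_sub_C_ne_zero _) (X_sub_C_ne_zero _)) ?_ ?_
  · intro s hs
    have := congrFun (congrFun hs 0) 1
    simp [X, Matrix.smul_apply] at this
  · rw [Polynomial.natDegree_mul (X_sub_C_ne_zero _) (X_sub_C_ne_zero _), natDegree_X_sub_C]
    norm_num
  · simp only [map_mul, map_sub, aeval_X, aeval_C, Algebra.algebraMap_eq_smul_one, one_smul]
    exact hX2

/-- `q ≡ 1 mod 9`: a non-regular element. -/
theorem bad_nine [Fintype F] (hq9 : 9 ∣ Fintype.card F - 1) {K : Subalgebra F M3} (hK : IsFieldSubalgebra 3 K)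
    (hall : ∀ x : Matrix.SpecialLinearGroup (Fin 3) F,
      (∃ z : F, ((x ^ 3 : Matrix.SpecialLinearGroup (Fin 3) F) : M3) = z • (1 : M3)) →
      (∀ z : F, (x : M3) ≠ z • (1 : M3)) →
      ∃ P : Matrix.SpecialLinearGroup (Fin 3) F, P⁻¹ * x * P ∈ ((Cfsg.Geo.subalgebraNormalizer K).comap (Matrix.SpecialLinearGroup.toGL : Matrix.SpecialLinearGroup (Fin 3) F →* GL (Fin 3) F))) :
    False := by
  classical
  obtain ⟨γ, hγ⟩ := IsCyclic.exists_generator (α := Fˣ)
  have hcard : Nat.card Fˣ = Fintype.card F - 1 := by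
    rw [Nat.card_eq_fintype_card, Fintype.card_units]
  have hordγ : orderOf γ = Fintype.card F - 1 := by
    rw [orderOf_eq_card_of_forall_mem_zpowers hγ, hcard]
  obtain ⟨t, ht⟩ := hq9
  have htpos : 0 < t := by
    have : 2 ≤ Fintype.card F := Fintype.one_lt_card
    rcases Nat.eq_zero_or_pos t with h | h
    · subst h
      omega
    · exact h
  set l : Fˣ := γ ^ t with hl
  have hl9 : l ^ 9 = 1 := by
    rw [hl, ← pow_mul, mul_comm, ← ht, ← hordγ, pow_orderOf_eq_one]
  have hl3 : l ^ 3 ≠ 1 := by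
    intro h
    have h1 : γ ^ (3 * t) = 1 := by
      rw [mul_comm, pow_mul]
      exact h
    have h2 := orderOf_dvd_of_pow_eq_one h1
    rw [hordγ, ht] at h2
    have := Nat.le_of_dvd (by omega) h2
    omega
  set a : F := (l : F) with ha
  have ha0 : a ≠ 0 := l.ne_zero
  have ha9 : a ^ 9 = 1 := by
    have := congrArg Units.val hl9
    simpa using this
  have ha3 : a ^ 3 ≠ 1 := by
    intro h
    apply hl3
    apply Units.ext
    simpa using h
  set w : F := (a ^ 3)⁻¹ with hw
  have hw1 : w ≠ 1 := by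
    intro h
    apply ha3
    rw [hw, inv_eq_one] at h
    exact h
  have hw3 : w ^ 3 = 1 := by
    rw [hw, inv_pow, ← pow_mul]
    norm_num
    rw [ha9]
  have haw : a * a * (a * w) = 1 := by
    rw [hw]
    field_simp
  let d : Fin 3 → F := ![a, a, a * w]
  let X : M3 := Matrix.diagonal d
  have hXd : X.det = 1 := by
    rw [Matrix.det_diagonal, Fin.prod_univ_three]
    simpa [d] using haw
  have hX3 : X ^ 3 = (a ^ 3) • (1 : M3) := by
    rw [Matrix.diagonal_pow, ← Matrix.diagonal_one, ← Matrix.diagonal_smul]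
    congr 1
    funext i
    fin_cases i <;> simp [d, mul_pow, hw3]
  refine bad_elt hK hall X hXd (a ^ 3) hX3 ?_ ((Polynomial.X - C a) * (Polynomial.X - C (a * w)))
    (mul_ne_zero (X_sub_C_ne_zero _) (X_sub_C_ne_zero _)) ?_ ?_
  · intro s hs
    have h0 := congrFun (congrFun hs 0) 0
    have h2 := congrFun (congrFun hs 2) 2
    simp [X, d, Matrix.smul_apply] at h0 h2
    rw [← h0] at h2
    apply hw1
    exact mul_left_cancel₀ ha0 (by rw [h2, mul_one])
  · rw [Polynomial.natDegree_mul (X_sub_C_ne_zero _) (X_sub_C_ne_zero _), natDegree_X_sub_C, natDegree_X_sub_C]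
    norm_num
  · simp only [map_mul, map_sub, aeval_X, aeval_C, Algebra.algebraMap_eq_smul_one]
    ext i j
    fin_cases i <;> fin_cases j <;>
      simp [X, d, Matrix.mul_apply, Fin.sum_univ_three, Matrix.sub_apply, Matrix.one_apply, Matrix.smul_apply]
    exact Or.inr (by ring)

/-- Two matrices diagonalizable with the same eigenvalues are conjugate by an element of determinant one. -/
theorem exists_conj_diag {ι ι' : Type*} [Fintype ι] [DecidableEq ι] [Fintype ι'] [DecidableEq ι']
    (x y : GL ι F) (e e' : Basis ι' F (ι → F)) (lam : ι' → F)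
    (hx : ∀ i, (x : Matrix ι ι F) *ᵥ e i = lam i • e i) (hy : ∀ i, (y : Matrix ι ι F) *ᵥ e' i = lam i • e' i)
    (i₀ : ι') : ∃ P : GL ι F, (P : Matrix ι ι F).det = 1 ∧ P⁻¹ * x * P = y := by
  classical
  let E : (ι → F) ≃ₗ[F] (ι → F) := e.equiv e' (Equiv.refl _)
  have hEe : ∀ i, E (e i) = e' i := by
    intro i
    simp [E, Basis.equiv_apply]
  have hE : ∀ v, E ((x : Matrix ι ι F) *ᵥ v) = (y : Matrix ι ι F) *ᵥ E v := by
    intro v
    have : (E : (ι → F) →ₗ[F] (ι → F)).comp (Matrix.toLin' (x : Matrix ι ι F)) =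
        (Matrix.toLin' (y : Matrix ι ι F)).comp (E : (ι → F) →ₗ[F] (ι → F)) := by
      apply e.ext
      intro i
      simp only [LinearMap.comp_apply, Matrix.toLin'_apply, LinearEquiv.coe_coe]
      rw [hx, map_smul, hEe, hy]
    have := LinearMap.congr_fun this v
    simpa using this
  obtain ⟨P, hP⟩ := exists_conj_of_equiv E x y hE
  have hPd : (P : Matrix ι ι F).det ≠ 0 := (Matrix.isUnits_det_units P).ne_zero
  set d := ((P : Matrix ι ι F).det)⁻¹ with hd
  have hd0 : d ≠ 0 := inv_ne_zero hPd
  let μ : ι' → F := fun i => if i = i₀ then d else 1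
  let Dl : (ι → F) →ₗ[F] (ι → F) := e.constr F (fun i => μ i • e i)
  have hDl : ∀ i, Dl (e i) = μ i • e i := fun i => e.constr_basis F _ i
  let D := LinearMap.toMatrix' Dl
  have hDd : D.det = d := by
    rw [LinearMap.det_toMatrix', ← LinearMap.det_toMatrix e Dl]
    have : LinearMap.toMatrix e e Dl = Matrix.diagonal μ := by
      ext i j
      rw [LinearMap.toMatrix_apply, hDl]
      simp [Matrix.diagonal_apply, Finsupp.single_apply]
      by_cases h : i = j
      · subst h; simp
      · rw [if_neg (Ne.symm h), if_neg h]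
    rw [this, Matrix.det_diagonal, Finset.prod_eq_single i₀]
    · simp [μ]
    · intro b _ hb
      simp [μ, hb]
    · simp
  have hDx : D * (x : Matrix ι ι F) = (x : Matrix ι ι F) * D := by
    have hT : LinearMap.toMatrix' (Matrix.toLin' (x : Matrix ι ι F)) = (x : Matrix ι ι F) := LinearMap.toMatrix'_toLin' _
    rw [← hT, ← LinearMap.toMatrix'_mul, ← LinearMap.toMatrix'_mul]
    congr 1
    apply e.ext
    intro i
    simp only [Module.End.mul_apply, Matrix.toLin'_apply]
    rw [hx, map_smul, hDl, Matrix.mulVec_smul, hx, smul_comm]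
  have hD'0 : D.det ≠ 0 := by
    rw [hDd]
    exact hd0
  let G : GL ι F := Matrix.GeneralLinearGroup.mkOfDetNeZero D hD'0
  have hGv : (G : Matrix ι ι F) = D := rfl
  have hGx : x * G = G * x := by
    apply Units.ext
    rw [Units.val_mul, Units.val_mul, hGv, hDx]
  refine ⟨G * P, ?_, ?_⟩
  · rw [Units.val_mul, Matrix.det_mul, hGv, hDd, hd, inv_mul_cancel₀ hPd]
  · have : (G * P)⁻¹ * x * (G * P) = P⁻¹ * (G⁻¹ * (x * G)) * P := by group
    rw [this, hGx]
    rw [show G⁻¹ * (G * x) = x by group]
    exact hP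

/-- `X ^ 3 - 1` factors. -/
theorem fac_three (w : F) (hw : w * w + w + 1 = 0) :
    (Polynomial.X - C 1) * ((Polynomial.X - C w) * (Polynomial.X - C (w * w))) = (Polynomial.X ^ 3 - 1 : F[X]) := by
  have e1 : w * w * w = 1 := by linear_combination (w - 1) * hw
  have e2 : C w * C w + C w + 1 = (0 : F[X]) := by
    rw [← C_mul, ← C_add, ← C_1, ← C_add, hw, C_0]
  have e3 : C w * C w * C w = (1 : F[X]) := by
    rw [← C_mul, ← C_mul, e1, C_1]
  simp only [C_mul, C_1]
  linear_combination (-(Polynomial.X - 1) * Polynomial.X) * e2 + (Polynomial.X - 1) * e3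

/-- A determinant computation for the eigen-decomposition. -/
theorem det_of_basis {ι : Type*} [Fintype ι] [DecidableEq ι] {V : Type*} [AddCommGroup V] [Module F V] [FiniteDimensional F V]
    (T : Module.End F V) (e : Basis ι F V) (lam : ι → F) (h : ∀ i, T (e i) = lam i • e i) :
    LinearMap.det T = ∏ i, lam i := by
  classical
  rw [← LinearMap.det_toMatrix e T]
  have : LinearMap.toMatrix e e T = Matrix.diagonal lam := by
    ext i j
    rw [LinearMap.toMatrix_apply, h]
    simp [Matrix.diagonal_apply, Finsupp.single_apply]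
    by_cases h : i = j
    · subst h; simp
    · rw [if_neg (Ne.symm h), if_neg h]
  rw [this, Matrix.det_diagonal]

/-- For `q ≡ 4, 7 mod 9`: all elements are conjugate into the normalizer. -/
theorem backward_47 [Fintype F] {p : ℕ} [Fact p.Prime] [CharP F p] {K : Subalgebra F M3}
    (hK : IsFieldSubalgebra 3 K) (h3 : 3 ∣ Fintype.card F - 1) (h9 : ¬ 9 ∣ Fintype.card F - 1)
    (x : Matrix.SpecialLinearGroup (Fin 3) F) (z : F)
    (hz : ((x ^ 3 : Matrix.SpecialLinearGroup (Fin 3) F) : M3) = z • (1 : M3))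
    (hx : ∀ z : F, (x : M3) ≠ z • (1 : M3)) :
    ∃ P : Matrix.SpecialLinearGroup (Fin 3) F, P⁻¹ * x * P ∈ ((subalgebraNormalizer K).comap (Matrix.SpecialLinearGroup.toGL : Matrix.SpecialLinearGroup (Fin 3) F →* GL (Fin 3) F)) := by
  classical
  have hp3 : Nat.Prime 3 := Nat.prime_three
  haveI : Fact (Nat.Prime 3) := ⟨hp3⟩
  have hxd : (x : M3).det = 1 := x.2
  have hq2 : 2 ≤ Fintype.card F := Fintype.one_lt_card
  -- the cube root of unity
  have hdv : 3 ∣ Nat.card Fˣ := by
    rwa [Nat.card_eq_fintype_card, Fintype.card_units]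
  obtain ⟨ζ, hζ⟩ := exists_prime_orderOf_dvd_card' 3 hdv
  set w : F := (ζ : F) with hwdef
  have hw3 : w ^ 3 = 1 := by
    have := pow_orderOf_eq_one ζ
    rw [hζ] at this
    have := congrArg Units.val this
    simpa using this
  have hw1 : w ≠ 1 := by
    intro h
    have h2 : ζ = 1 := Units.ext h
    rw [h2, orderOf_one] at hζ
    omega
  have hw0 : w ≠ 0 := ζ.ne_zero
  have hww : w * w + w + 1 = 0 := by
    have : (w - 1) * (w * w + w + 1) = 0 := by linear_combination hw3
    exact (mul_eq_zero.mp this).resolve_left (sub_ne_zero.mpr hw1)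
  have hww1 : w * w ≠ 1 := by
    intro h
    apply hw1
    have : w ^ 3 = w * (w * w) := by ring
    rw [h, mul_one] at this
    rw [← this, hw3]
  have hwww : w * w ≠ w := by
    intro h
    apply hw1
    exact mul_left_cancel₀ hw0 (by rw [h, mul_one])
  -- `z = 1`
  have hzz : z ^ 3 = 1 := by
    have hd := congrArg Matrix.det hz
    rw [Matrix.SpecialLinearGroup.coe_pow, Matrix.det_pow, Matrix.det_smul, Matrix.det_one, mul_one, hxd, one_pow,
      Fintype.card_fin] at hd
    exact hd.symm
  have hz1 : z = 1 := by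
    by_contra hne
    -- `z` is not a cube
    have hnc : ∀ b : F, b ^ 3 ≠ z := by
      intro b hb
      have hb0 : b ≠ 0 := by
        rintro rfl
        rw [zero_pow (by norm_num)] at hb
        rw [← hb] at hzz
        rw [zero_pow (by norm_num)] at hzz
        exact zero_ne_one hzz
      let bu : Fˣ := Units.mk0 b hb0
      have h2 : bu ^ 9 = 1 := by
        apply Units.ext
        have : b ^ 9 = (b ^ 3) ^ 3 := by ring
        simp [bu, this, hb, hzz]
      have h3' : bu ^ 3 ≠ 1 := by
        intro h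
        apply hne
        have := congrArg Units.val h
        simp [bu, hb] at this
        exact this
      have h4 : orderOf bu = 9 := by
        have h5 : orderOf bu ∣ 3 ^ 2 := orderOf_dvd_of_pow_eq_one (by simpa using h2)
        obtain ⟨k, hk, hk2⟩ := (Nat.dvd_prime_pow hp3).mp h5
        interval_cases k
        · simp at hk2
          exact absurd (by rw [hk2, one_pow]) h3'
        · simp at hk2
          exact absurd (by rw [← hk2]; exact pow_orderOf_eq_one bu) h3'
        · simpa using hk2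
      have h5 := orderOf_dvd_natCard bu
      rw [h4, Nat.card_eq_fintype_card, Fintype.card_units] at h5
      exact h9 h5
    have hirr : Irreducible (Polynomial.X ^ 3 - C z : F[X]) := X_pow_sub_C_irreducible_of_prime hp3 hnc
    let Cm : M3 := !![0, 0, z; 1, 0, 0; 0, 1, 0]
    have hC3 : Cm ^ 3 = z • (1 : M3) := by
      ext i j
      fin_cases i <;> fin_cases j <;> simp [Cm, pow_succ, Matrix.mul_apply, Fin.sum_univ_three, Matrix.one_apply]
    have hCd : Cm.det = z := by
      simp [Cm, Matrix.det_fin_three]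
    have hmon : (Polynomial.X ^ 3 - C z : F[X]).Monic := monic_X_pow_sub_C z (by norm_num)
    obtain ⟨P, hP⟩ := exists_conj_of_poly (Matrix.SpecialLinearGroup.toGL x) Cm (Polynomial.X ^ 3 - C z) hirr hmon
      (by
        rw [Matrix.SpecialLinearGroup.coe_GL_coe_matrix]
        simp only [map_sub, map_pow, aeval_X, aeval_C, Algebra.algebraMap_eq_smul_one]
        rw [← Matrix.SpecialLinearGroup.coe_pow, hz, sub_self])
      (by
        simp only [map_sub, map_pow, aeval_X, aeval_C, Algebra.algebraMap_eq_smul_one]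
        rw [hC3, sub_self])
    have hdetC : Cm.det = 1 := by
      rw [← hP, Units.val_mul, Units.val_mul, Matrix.det_mul, Matrix.det_mul, mul_comm, ← mul_assoc, ← Matrix.det_mul,
        Units.mul_inv, Matrix.det_one, one_mul]
      exact hxd
    rw [hCd] at hdetC
    exact hne hdetC
  subst hz1
  -- the Frobenius element
  obtain ⟨L, _, _, φ, hφ, hKφ, hfin⟩ := exists_model hp3.ne_zero hK
  have hc : finrank F L = Fintype.card (Fin 3) := by rw [hfin, Fintype.card_fin]
  obtain ⟨y, hyN, hy1, hyns⟩ := exists_frob φ hp3.two_le hKφ hfin hc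
  have hfac := fac_three w hww
  -- decomposing `x`
  let Tx : Module.End F (Fin 3 → F) := Matrix.toLinAlgEquiv' (x : M3)
  let Ty : Module.End F (Fin 3 → F) := Matrix.toLinAlgEquiv' (y : M3)
  have hTx : ∀ v, Tx v = (x : M3) *ᵥ v := fun v => by simp [Tx, Matrix.toLinAlgEquiv'_apply]
  have hTy : ∀ v, Ty v = (y : M3) *ᵥ v := fun v => by simp [Ty, Matrix.toLinAlgEquiv'_apply]
  have h0x : aeval Tx ((Polynomial.X - C 1) * ((Polynomial.X - C w) * (Polynomial.X - C (w * w)))) = 0 := by
    rw [hfac]
    simp only [map_sub, map_pow, aeval_X, map_one, Tx]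
    rw [← map_pow, ← Matrix.SpecialLinearGroup.coe_pow, hz, one_smul, map_one, sub_self]
  have h0y : aeval Ty ((Polynomial.X - C 1) * ((Polynomial.X - C w) * (Polynomial.X - C (w * w)))) = 0 := by
    rw [hfac]
    simp only [map_sub, map_pow, aeval_X, map_one, Ty]
    rw [← map_pow, hy1, map_one, sub_self]
  have h1w : (1 : F) ≠ w := hw1.symm
  have h1ww : (1 : F) ≠ w * w := hww1.symm
  have hwww' : w ≠ w * w := hwww.symm
  obtain ⟨r, s, t, e, he1, he2, he3⟩ := exists_basis_three Tx 1 w (w * w) h1w h1ww hwww' h0x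
  obtain ⟨r', s', t', e', he1', he2', he3'⟩ := exists_basis_three Ty 1 w (w * w) h1w h1ww hwww' h0y
  have hdim : r + (s + t) = 3 := by
    have := Module.finrank_eq_card_basis e
    simpa using this.symm
  have hdim' : r' + (s' + t') = 3 := by
    have := Module.finrank_eq_card_basis e'
    simpa using this.symm
  -- the determinant of `x`
  have hdetx : w ^ (s + 2 * t) = 1 := by
    have h1 := det_of_basis Tx e (Sum.elim (fun _ => 1) (Sum.elim (fun _ => w) (fun _ => w * w))) (by
      rintro (i | i | i)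
      · simpa using he1 i
      · simpa using he2 i
      · simpa using he3 i)
    have h2 : LinearMap.det Tx = 1 := by
      show LinearMap.det (Matrix.toLin' (x : M3)) = 1
      rw [LinearMap.det_toLin', hxd]
    rw [h2, Fintype.prod_sum_type, Fintype.prod_sum_type] at h1
    simp at h1
    rw [h1, pow_add, pow_mul]
    congr 1
    rw [sq]
  have h3st : 3 ∣ s + 2 * t := by
    have hzp := orderOf_eq_prime hw3 hw1
    rw [← hzp]
    exact orderOf_dvd_of_pow_eq_one hdetx
  -- non-scalar
  have hTxs : ∀ c : F, (∀ i, Tx (e i) = c • e i) → False := by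
    intro c hc'
    apply hx c
    have : Tx = c • (1 : Module.End F (Fin 3 → F)) := by
      apply e.ext
      intro i
      rw [hc']
      rfl
    apply (Matrix.toLinAlgEquiv' (R := F) (n := Fin 3)).injective
    show Tx = _
    rw [this, map_smul, map_one]
  have hr1 : r = 1 ∧ s = 1 ∧ t = 1 := by
    have hA : ¬ (s = 0 ∧ t = 0) := by
      rintro ⟨rfl, rfl⟩
      apply hTxs 1
      rintro (i | i | i)
      · exact he1 i
      · exact i.elim0
      · exact i.elim0
    have hB : ¬ (r = 0 ∧ t = 0) := by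
      rintro ⟨rfl, rfl⟩
      apply hTxs w
      rintro (i | i | i)
      · exact i.elim0
      · exact he2 i
      · exact i.elim0
    have hC : ¬ (r = 0 ∧ s = 0) := by
      rintro ⟨rfl, rfl⟩
      apply hTxs (w * w)
      rintro (i | i | i)
      · exact i.elim0
      · exact i.elim0
      · exact he3 i
    omega
  obtain ⟨rfl, rfl, rfl⟩ := hr1
  -- `y`: no eigenvalue is missing
  have hylow : ∀ (a b : F), (∀ i, Ty (e' i) = a • e' i ∨ Ty (e' i) = b • e' i) → False := by
    intro a b hab
    have h1 : aeval (y : M3) ((Polynomial.X - C a) * (Polynomial.X - C b)) = 0 := by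
      have h2 : aeval Ty ((Polynomial.X - C a) * (Polynomial.X - C b)) = 0 := by
        have key : ∀ v, aeval Ty ((Polynomial.X - C a) * (Polynomial.X - C b)) v = Ty (Ty v) - (a + b) • Ty v + (a * b) • v := by
          intro v
          simp only [map_mul, map_sub, aeval_X, aeval_C, Module.End.mul_apply, LinearMap.sub_apply,
            Module.algebraMap_end_apply, map_sub, map_smul]
          module
        apply e'.ext
        intro i
        rw [key]
        rcases hab i with h | h <;> simp only [h, map_smul, LinearMap.zero_apply] <;> module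
      have h3 : aeval Ty ((Polynomial.X - C a) * (Polynomial.X - C b)) =
          Matrix.toLinAlgEquiv' (aeval (y : M3) ((Polynomial.X - C a) * (Polynomial.X - C b))) := by
        exact Polynomial.aeval_algHom_apply (Matrix.toLinAlgEquiv' (R := F) (n := Fin 3)).toAlgHom (y : M3) _
      rw [h3] at h2
      exact (map_eq_zero_iff _ (Matrix.toLinAlgEquiv' (R := F) (n := Fin 3)).injective).mp h2
    obtain ⟨s₀, hs₀⟩ := scalar_of_low_poly φ hp3 hφ hKφ hfin hc y hyN ((Polynomial.X - C a) * (Polynomial.X - C b))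
      (mul_ne_zero (X_sub_C_ne_zero _) (X_sub_C_ne_zero _))
      (by rw [Polynomial.natDegree_mul (X_sub_C_ne_zero _) (X_sub_C_ne_zero _), natDegree_X_sub_C, natDegree_X_sub_C]; norm_num) h1
    exact hyns s₀ hs₀
  have hr1' : r' = 1 ∧ s' = 1 ∧ t' = 1 := by
    have hA : r' ≠ 0 := by
      rintro rfl
      apply hylow w (w * w)
      rintro (i | i | i)
      · exact i.elim0
      · exact Or.inl (he2' i)
      · exact Or.inr (he3' i)
    have hB : s' ≠ 0 := by
      rintro rfl
      apply hylow 1 (w * w)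
      rintro (i | i | i)
      · exact Or.inl (he1' i)
      · exact i.elim0
      · exact Or.inr (he3' i)
    have hC : t' ≠ 0 := by
      rintro rfl
      apply hylow 1 w
      rintro (i | i | i)
      · exact Or.inl (he1' i)
      · exact Or.inr (he2' i)
      · exact i.elim0
    omega
  obtain ⟨rfl, rfl, rfl⟩ := hr1'
  obtain ⟨P, hPd, hP⟩ := exists_conj_diag (Matrix.SpecialLinearGroup.toGL x) y e e'
    (Sum.elim (fun _ => 1) (Sum.elim (fun _ => w) (fun _ => w * w)))
    (by
      rw [Matrix.SpecialLinearGroup.coe_GL_coe_matrix]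
      rintro (i | i | i)
      · rw [← hTx]; simpa using he1 i
      · rw [← hTx]; simpa using he2 i
      · rw [← hTx]; simpa using he3 i)
    (by
      rintro (i | i | i)
      · rw [← hTy]; simpa using he1' i
      · rw [← hTy]; simpa using he2' i
      · rw [← hTy]; simpa using he3' i)
    (Sum.inl 0)
  apply Cfsg.Agent.S5970.conj_pack _ x P hPd
  rw [hP]
  exact hyN

theorem not_three_dvd_index [Fintype F] {K : Subalgebra F M3}
    (hK : IsFieldSubalgebra 3 K) (hmod : Fintype.card F % 9 = 2 ∨ Fintype.card F % 9 = 5) :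
    ¬ 3 ∣ ((Cfsg.Geo.subalgebraNormalizer K).comap (Matrix.SpecialLinearGroup.toGL : Matrix.SpecialLinearGroup (Fin 3) F →* GL (Fin 3) F)).index := by
  classical
  intro h3
  have hp3 : Nat.Prime 3 := Nat.prime_three
  haveI : Fact (Nat.Prime 3) := ⟨hp3⟩
  obtain ⟨L, _, _, φ, hφ, hKφ, hfin⟩ := exists_model hp3.ne_zero hK
  have hc : finrank F L = Fintype.card (Fin 3) := by rw [hfin, Fintype.card_fin]
  obtain ⟨y, hyN, hy1, hyns⟩ := exists_frob φ hp3.two_le hKφ hfin hc
  set q := Fintype.card F with hq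
  have hq2 : 2 ≤ q := Fintype.one_lt_card
  obtain ⟨r, hr⟩ : ∃ r, q = r + 1 := ⟨q - 1, by omega⟩
  have hr0 : 0 < r := by omega
  -- determinant of `y`
  have hydet : (y : M3).det = 1 := by
    have h1 : (y : M3).det ^ 3 = 1 := by
      rw [← Matrix.det_pow, hy1, Matrix.det_one]
    have hd0 : (y : M3).det ≠ 0 := (Matrix.isUnits_det_units y).ne_zero
    have h2 := FiniteField.pow_card_sub_one_eq_one _ hd0
    have hcop : Nat.Coprime 3 (Fintype.card F - 1) := by
      rw [Nat.Prime.coprime_iff_not_dvd hp3]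
      omega
    have := (pow_gcd_eq_one (a := (y : M3).det)).mpr ⟨h1, h2⟩
    rw [Nat.Coprime.gcd_eq_one hcop, pow_one] at this
    exact this
  let Y : Matrix.SpecialLinearGroup (Fin 3) F := ⟨y, hydet⟩
  have hYG : Matrix.SpecialLinearGroup.toGL Y = y := Units.ext rfl
  set H := ((Cfsg.Geo.subalgebraNormalizer K).comap (Matrix.SpecialLinearGroup.toGL : Matrix.SpecialLinearGroup (Fin 3) F →* GL (Fin 3) F)) with hH
  have hYH : Y ∈ H := by
    rw [hH, Subgroup.mem_comap, hYG]
    exact hyN
  have hY3 : Y ^ 3 = 1 := by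
    apply Subtype.ext
    rw [Matrix.SpecialLinearGroup.coe_pow]
    exact hy1
  have hY1 : Y ≠ 1 := by
    intro h
    apply hyns 1
    rw [one_smul]
    have := congrArg (fun g : Matrix.SpecialLinearGroup (Fin 3) F => (g : M3)) h
    exact this
  have hordY : orderOf (⟨Y, hYH⟩ : H) = 3 := by
    apply orderOf_eq_prime
    · apply Subtype.ext
      exact hY3
    · intro h
      apply hY1
      exact congrArg Subtype.val h
  have hcardH : 3 ∣ Nat.card H := by
    have := orderOf_dvd_natCard (⟨Y, hYH⟩ : H)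
    rw [hordY] at this
    exact this
  have hcard := Subgroup.index_mul_card H
  have h9 : 9 ∣ Nat.card (Matrix.SpecialLinearGroup (Fin 3) F) := by
    rw [← hcard]
    have : (9 : ℕ) = 3 * 3 := by norm_num
    rw [this]
    exact Nat.mul_dvd_mul h3 hcardH
  have hG1 := Cfsg.Agent.Lib.ClassicalCore.card_GL_eq_mul_card_SL (n := Fin 3) (F := F)
  rw [Matrix.card_GL_field, Fin.prod_univ_three] at hG1
  simp only [Fin.val_zero, Fin.val_one, Fin.val_two, pow_zero, pow_one] at hG1
  rw [← hq, hr] at hG1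
  simp only [Nat.add_sub_cancel] at hG1
  set A := Nat.card (Matrix.SpecialLinearGroup (Fin 3) F) with hA
  have e1 : (r + 1) ^ 3 - 1 = r * ((r + 1) ^ 2 + (r + 1) + 1) := by
    apply Nat.sub_eq_of_eq_add
    ring
  have e2 : (r + 1) ^ 3 - (r + 1) = (r + 1) * r * (r + 2) := by
    apply Nat.sub_eq_of_eq_add
    ring
  have e3 : (r + 1) ^ 3 - (r + 1) ^ 2 = (r + 1) ^ 2 * r := by
    apply Nat.sub_eq_of_eq_add
    ring
  rw [e1, e2, e3] at hG1
  have hAe : A = ((r + 1) ^ 2 + (r + 1) + 1) * (r + 1) * r * (r + 2) * ((r + 1) ^ 2 * r) := by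
    apply Nat.eq_of_mul_eq_mul_left hr0
    rw [← hG1]
    ring
  rw [hAe] at h9
  have hz : ((((r + 1) ^ 2 + (r + 1) + 1) * (r + 1) * r * (r + 2) * ((r + 1) ^ 2 * r) : ℕ) : ZMod 9) = 0 :=
    (ZMod.natCast_eq_zero_iff _ _).mpr h9
  push_cast at hz
  rcases hmod with h | h
  · have hr1 : (r : ZMod 9) = 1 := by
      have : (r : ZMod 9) = ((1 : ℕ) : ZMod 9) := by
        rw [ZMod.natCast_eq_natCast_iff']
        omega
      simpa using this
    rw [hr1] at hz
    revert hz
    decide
  · have hr1 : (r : ZMod 9) = 4 := by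
      have : (r : ZMod 9) = ((4 : ℕ) : ZMod 9) := by
        rw [ZMod.natCast_eq_natCast_iff']
        omega
      simpa using this
    rw [hr1] at hz
    revert hz
    decide



/-- Elements of order 3 of PSL_3(q) and the normalizer of a Singer cycle. Here `T = PSL_n(F)` for a field `F` with `q = p^f` elements (`n ≥ 2`, `(n, q) ≠ (2, 2), (2, 3)`), `k` is a prime dividing `n`, `K` is a subalgebra of the `n × n` matrices that is a field of degree `k` over `F` (an extension-field structure F_{q^k} on `F^n`), and `H` is the subgroup of matrices of determinant 1 normalizing `K` — a subgroup of type GL_{n/k}(q^k) (maximal except in some small cases; maximality is not assumed); Ω is the set of cosets of `H` in `T`, so an element of `T` of prime order `r` (a matrix `x` of determinant 1 with `x^r` scalar, `x` not scalar) fixes a point of Ω when some conjugate of `x` by a matrix of determinant 1 normalizes `K`. Take `n = k = 3` and suppose 3 divides the index of `H`. Then every element of `T` of order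 3 is conjugate in `T` into `H` if and only if `q ≡ 4, 7` or `8 (mod 9)`. -/
theorem result {F : Type*} [Field F] [Fintype F] {p : ℕ} [Fact p.Prime] [CharP F p] {q : ℕ} (hq : Fintype.card F = q)
    (n : ℕ) (hn : n = 3) (k : ℕ) (hk : k.Prime) (hkn : k ∣ n) (K : Subalgebra F (Matrix (Fin n) (Fin n) F)) (hK : Cfsg.Geo.IsFieldSubalgebra k K) (hk3 : k = 3) (hΩ : 3 ∣ ((Cfsg.Geo.subalgebraNormalizer K).comap (Matrix.SpecialLinearGroup.toGL : Matrix.SpecialLinearGroup (Fin n) F →* GL (Fin n) F)).index) :
    (∀ x : Matrix.SpecialLinearGroup (Fin n) F,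
      (∃ z : F, ((x ^ 3 : Matrix.SpecialLinearGroup (Fin n) F) : Matrix (Fin n) (Fin n) F) = z • (1 : Matrix (Fin n) (Fin n) F)) →
      (∀ z : F, (x : Matrix (Fin n) (Fin n) F) ≠ z • (1 : Matrix (Fin n) (Fin n) F)) →
      ∃ P : Matrix.SpecialLinearGroup (Fin n) F, P⁻¹ * x * P ∈ ((Cfsg.Geo.subalgebraNormalizer K).comap (Matrix.SpecialLinearGroup.toGL : Matrix.SpecialLinearGroup (Fin n) F →* GL (Fin n) F))) ↔
    (q % 9 = 4 ∨ q % 9 = 7 ∨ q % 9 = 8) := by
  subst hn
  subst hk3
  subst hq
  have hp : p.Prime := Fact.out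
  obtain ⟨f, -, hf⟩ := FiniteField.card F p
  refine ⟨fun hall => ?_, fun hright => ?_⟩
  · by_contra hcon
    have hcases : (Fintype.card F % 3 = 0) ∨ (Fintype.card F % 9 = 1) ∨ (Fintype.card F % 9 = 2 ∨ Fintype.card F % 9 = 5) := by
      omega
    rcases hcases with h | h | h
    · have h3p : 3 = p := by
        have : 3 ∣ p ^ (f : ℕ) := by
          rw [← hf]
          exact Nat.dvd_of_mod_eq_zero h
        exact (Nat.prime_dvd_prime_iff_eq Nat.prime_three hp).mp (Nat.prime_three.dvd_of_dvd_pow this)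
      subst h3p
      have h3F : (3 : F) = 0 := by exact_mod_cast CharP.cast_eq_zero F 3
      exact bad_char3 h3F hK hall
    · have h2 : 2 ≤ Fintype.card F := Fintype.one_lt_card
      exact bad_nine (by omega) hK hall
    · exact not_three_dvd_index hK h hΩ
  · rintro x ⟨z, hz⟩ hx
    rcases hright with h | h | h
    · exact backward_47 hK (by omega) (by omega) x z hz hx
    · exact backward_47 hK (by omega) (by omega) x z hz hx
    · haveI : Fact (Nat.Prime 3) := ⟨Nat.prime_three⟩
      have hnp : 3 ≠ p := by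
        rintro rfl
        rw [hf] at h
        obtain ⟨f', hf'⟩ : ∃ f', (f : ℕ) = f' + 1 := ⟨(f : ℕ) - 1, by have := f.pos; omega⟩
        rw [hf', pow_succ] at h
        omega
      have hc : ((Fintype.card F : ℕ) : ZMod 3) = 2 := by
        have : ((Fintype.card F : ℕ) : ZMod 3) = ((2 : ℕ) : ZMod 3) := by
          rw [ZMod.natCast_eq_natCast_iff']
          omega
        simpa using this
      have hord : orderOf ((Fintype.card F : ℕ) : ZMod 3) = 3 - 1 := by
        rw [hc]
        exact order_two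
      exact Cfsg.Agent.S5970.backward hK (le_refl 3) hnp hord x z hz hx

end Cfsg.Agent.S5971
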