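import Mathlib
import Cfsg.Agent.S5963
import Cfsg.Agent.S5968
import Cfsg.Agent.S5971
import Cfsg.Agent.Lib.GUParab
import Cfsg.Agent.Lib.UnitarySU
import Cfsg.Agent.Lib.HermOrtho
import Cfsg.Agent.Lib.LawEmbed
import Cfsg.Statements.S5984
-- import your own Cfsg.Agent.* helpers here

set_option autoImplicit false
open scoped MatrixGroups
open Cfsg

namespace Cfsg.Agent.S5984

open Matrix Module
open Cfsg.Agent.Lib.QuadClass2 (L0 mem_L0 finrank_L0)
open Cfsg.Agent.S5963 (L1 mem_L1 finrank_L1 L0_L1_compl)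
open Cfsg.Agent.Lib.UnitaryBasic Cfsg.Agent.Lib.HermCount Cfsg.Agent.Lib.UnitarySU
open Cfsg.Agent.Lib.UnitaryE (hL hL_apply)

set_option linter.unusedSimpArgs false
set_option linter.unusedVariables false
set_option linter.unusedSectionVars false

variable {F : Type*} [Field F] [Fintype F] {q d n : ℕ}

theorem finrank_le_of_ts (hF : Fintype.card F = q ^ 2) (U : Submodule F (Fin n → F))
    (hU : ∀ u ∈ U, ∀ v ∈ U, hermForm n F q u v = 0) : 2 * finrank F U ≤ n := by
  obtain ⟨f, hf, hfW, hspan⟩ := Cfsg.Agent.Lib.GUParab.exists_frame (q := q) rfl hU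
  have h1 := Cfsg.Agent.Lib.GUParab.span_le_perpT hF hf
  have h2 := Cfsg.Agent.Lib.GUParab.finrank_perpT hF hf.1
  rw [hspan] at h1
  have h3 := Submodule.finrank_mono h1
  omega

/-- The hyperbolic form. -/
def hyp (q : ℕ) (u v : Fin d ⊕ Fin d → F) : F :=
  ∑ i, (u (Sum.inl i) * v (Sum.inr i) ^ q + u (Sum.inr i) * v (Sum.inl i) ^ q)

theorem sum_pair (hF : Fintype.card F = q ^ 2) (a b : Fin d → F) (x y : Fin d → Fin n → F)
    (hxy : ∀ i j, hermForm n F q (x i) (y j) = if i = j then 1 else 0) :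
    hermForm n F q (∑ i, a i • x i) (∑ j, b j • y j) = ∑ i, a i * b i ^ q := by
  classical
  rw [Cfsg.Agent.Lib.HermOrtho.herm_sum_left]
  refine Finset.sum_congr rfl fun i _ => ?_
  rw [Cfsg.Agent.Lib.HermOrtho.herm_sum_right hF]
  simp only [herm_smul_left, herm_smul_right, hxy]
  rw [Finset.sum_eq_single i]
  · simp
    ring
  · intro j _ hj
    simp [hj.symm]
  · simp

theorem exists_adapted (hF : Fintype.card F = q ^ 2) (hn : n = 2 * d) {U W : Submodule F (Fin n → F)} (hc : IsCompl U W)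
    (hU : ∀ u ∈ U, ∀ v ∈ U, hermForm n F q u v = 0) (hW : ∀ u ∈ W, ∀ v ∈ W, hermForm n F q u v = 0) :
    ∃ E : (Fin d ⊕ Fin d → F) ≃ₗ[F] (Fin n → F), (∀ u v, hermForm n F q (E u) (E v) = hyp q u v) ∧
      (L0 d F).map (E : (Fin d ⊕ Fin d → F) →ₗ[F] (Fin n → F)) = U ∧ (L1 d F).map (E : (Fin d ⊕ Fin d → F) →ₗ[F] (Fin n → F)) = W := by
  classical
  have hq2 := two_le_q hF
  have hq0 : q ≠ 0 := by omega
  have h1 := finrank_le_of_ts hF U hU
  have h2 := finrank_le_of_ts hF W hW
  have h3 := Submodule.finrank_add_eq_of_isCompl hc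
  rw [Module.finrank_fin_fun] at h3
  have hUd : finrank F U = d := by omega
  have hWd : finrank F W = d := by omega
  let e : Basis (Fin d) F U := Module.finBasisOfFinrankEq F U hUd
  let T : W →ₗ[F] (Fin d → F) := LinearMap.pi (fun i => (hL n F q (e i : Fin n → F)).comp W.subtype)
  have hT : ∀ w i, T w i = hermForm n F q (w : Fin n → F) (e i) := fun w i => rfl
  have hUperp : ∀ (w : Fin n → F), (∀ i, hermForm n F q w (e i) = 0) → ∀ a ∈ U, hermForm n F q w a = 0 := by
    intro w hw a ha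
    have h4 := e.sum_repr ⟨a, ha⟩
    have h5 : ∑ i, (e.repr ⟨a, ha⟩ i) • (e i : Fin n → F) = a := by
      have := congrArg (Submodule.subtype U) h4
      rw [map_sum] at this
      simpa only [map_smul, Submodule.subtype_apply] using this
    calc hermForm n F q w a = hermForm n F q w (∑ i, (e.repr ⟨a, ha⟩ i) • (e i : Fin n → F)) := by rw [h5]
      _ = 0 := by
        rw [Cfsg.Agent.Lib.HermOrtho.herm_sum_right hF]
        refine Finset.sum_eq_zero fun i _ => ?_
        rw [herm_smul_right, hw i, mul_zero]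
  have hinj : Function.Injective T := by
    rw [← LinearMap.ker_eq_bot, LinearMap.ker_eq_bot']
    intro w hw
    apply Subtype.ext
    apply herm_nondeg hF
    intro y
    have hy : y ∈ U ⊔ W := by
      rw [hc.sup_eq_top]
      trivial
    obtain ⟨a, ha, b, hb, rfl⟩ := Submodule.mem_sup.1 hy
    rw [herm_add_right hF, hW _ w.2 _ hb, add_zero]
    apply hUperp _ _ a ha
    intro i
    have := congrFun hw i
    rwa [hT] at this
  have hdim : finrank F W = finrank F (Fin d → F) := by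
    rw [hWd, Module.finrank_fin_fun]
  let T' : W ≃ₗ[F] (Fin d → F) := LinearEquiv.ofInjectiveOfFinrankEq T hinj hdim
  let f : Fin d → W := fun j => T'.symm (Pi.single j 1)
  have hf : ∀ j i, hermForm n F q (f j : Fin n → F) (e i) = if i = j then 1 else 0 := by
    intro j i
    have h4 : T (f j) = Pi.single j 1 := T'.apply_symm_apply _
    rw [← hT, h4]
    simp [Pi.single_apply]
  have hef : ∀ i j, hermForm n F q (e i : Fin n → F) (f j : Fin n → F) = if i = j then 1 else 0 := by
    intro i j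
    rw [← herm_conj hF, hf]
    split_ifs <;> simp [hq0]
  have hfe : ∀ i j, hermForm n F q (f i : Fin n → F) (e j : Fin n → F) = if i = j then 1 else 0 := by
    intro i j
    rw [hf]
    simp [eq_comm]
  let G : Fin d ⊕ Fin d → (Fin n → F) := Sum.elim (fun i => (e i : Fin n → F)) (fun j => (f j : Fin n → F))
  let b : Basis (Fin d ⊕ Fin d) F (Fin d ⊕ Fin d → F) := Pi.basisFun F _
  let E0 : (Fin d ⊕ Fin d → F) →ₗ[F] (Fin n → F) := b.constr F G
  have hE0 : ∀ a, E0 (Pi.single a 1) = G a := by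
    intro a
    have : (Pi.single a (1 : F) : Fin d ⊕ Fin d → F) = b a := by simp [b]
    rw [this]
    exact b.constr_basis F G a
  have hexp : ∀ v : Fin d ⊕ Fin d → F, E0 v = ∑ i, v (Sum.inl i) • (e i : Fin n → F) + ∑ i, v (Sum.inr i) • (f i : Fin n → F) := by
    intro v
    conv_lhs => rw [pi_eq_sum_univ' v]
    rw [map_sum, Fintype.sum_sum_type]
    congr 1 <;> {
      refine Finset.sum_congr rfl fun i _ => ?_
      rw [map_smul, hE0]
      rfl }
  have hmemU : ∀ c : Fin d → F, ∑ i, c i • (e i : Fin n → F) ∈ U := fun c =>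
    Submodule.sum_mem _ fun i _ => U.smul_mem _ (e i).2
  have hmemW : ∀ c : Fin d → F, ∑ i, c i • (f i : Fin n → F) ∈ W := fun c =>
    Submodule.sum_mem _ fun i _ => W.smul_mem _ (f i).2
  have hform : ∀ u v, hermForm n F q (E0 u) (E0 v) = hyp q u v := by
    intro u v
    rw [hexp, hexp, herm_add_left, herm_add_right hF, herm_add_right hF, hU _ (hmemU _) _ (hmemU _),
      hW _ (hmemW _) _ (hmemW _), sum_pair hF _ _ _ _ hef, sum_pair hF _ _ _ _ hfe, hyp, Finset.sum_add_distrib]
    ring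
  have hE0inj : Function.Injective E0 := by
    rw [← LinearMap.ker_eq_bot, LinearMap.ker_eq_bot']
    intro u hu
    have hz : ∀ v, hyp q u v = 0 := by
      intro v
      rw [← hform, hu, Cfsg.Agent.Lib.HermForm.hermForm_zero_left]
    funext a
    rcases a with i | i
    · have := hz (Pi.single (Sum.inr i) 1)
      simpa [hyp, Pi.single_apply, hq0, Finset.sum_ite_eq, ite_pow] using this
    · have := hz (Pi.single (Sum.inl i) 1)
      simpa [hyp, Pi.single_apply, hq0, Finset.sum_ite_eq, ite_pow] using this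
  have hdim2 : finrank F (Fin d ⊕ Fin d → F) = finrank F (Fin n → F) := by
    simp [hn]
    omega
  let E : (Fin d ⊕ Fin d → F) ≃ₗ[F] (Fin n → F) := LinearEquiv.ofInjectiveOfFinrankEq E0 hE0inj hdim2
  have hEE : ∀ v, E v = E0 v := fun v => rfl
  refine ⟨E, ?_, ?_, ?_⟩
  · intro u v
    rw [hEE, hEE, hform]
  · apply Submodule.eq_of_le_of_finrank_eq
    · rintro _ ⟨l, hl, rfl⟩
      rw [SetLike.mem_coe] at hl
      show E0 l ∈ U
      rw [hexp]
      have h5 : ∑ i, l (Sum.inr i) • (f i : Fin n → F) = 0 :=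
        Finset.sum_eq_zero fun i _ => by rw [mem_L0.1 hl, zero_smul]
      rw [h5, add_zero]
      exact hmemU _
    · rw [← (Submodule.equivMapOfInjective (E : (Fin d ⊕ Fin d → F) →ₗ[F] (Fin n → F)) E.injective (L0 d F)).finrank_eq, finrank_L0, hUd]
  · apply Submodule.eq_of_le_of_finrank_eq
    · rintro _ ⟨l, hl, rfl⟩
      rw [SetLike.mem_coe] at hl
      show E0 l ∈ W
      rw [hexp]
      have h5 : ∑ i, l (Sum.inl i) • (e i : Fin n → F) = 0 :=
        Finset.sum_eq_zero fun i _ => by rw [mem_L1.1 hl, zero_smul]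
      rw [h5, zero_add]
      exact hmemW _
    · rw [← (Submodule.equivMapOfInjective (E : (Fin d ⊕ Fin d → F) →ₗ[F] (Fin n → F)) E.injective (L1 d F)).finrank_eq, finrank_L1, hWd]


/-- The Levi block. -/
noncomputable def Msh (hF : Fintype.card F = q ^ 2) (A : GL (Fin d) F) : Matrix (Fin d) (Fin d) F :=
  ((sigma hF).mapMatrix ((A⁻¹ : GL (Fin d) F) : Matrix (Fin d) (Fin d) F))ᵀ

noncomputable def Mm (hF : Fintype.card F = q ^ 2) (A : GL (Fin d) F) : Matrix (Fin d ⊕ Fin d) (Fin d ⊕ Fin d) F :=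
  fromBlocks (A : Matrix (Fin d) (Fin d) F) 0 0 (Msh hF A)

theorem Mm_one (hF : Fintype.card F = q ^ 2) : Mm hF (1 : GL (Fin d) F) = 1 := by
  rw [Mm, Msh, inv_one, Units.val_one, map_one, Matrix.transpose_one, fromBlocks_one]

theorem Mm_mul (hF : Fintype.card F = q ^ 2) (A C : GL (Fin d) F) : Mm hF (A * C) = Mm hF A * Mm hF C := by
  simp only [Mm, Msh, fromBlocks_multiply, mul_zero, zero_mul, add_zero, zero_add, Units.val_mul, _root_.mul_inv_rev,
    ← Matrix.transpose_mul, map_mul]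

theorem Mm_inl (hF : Fintype.card F = q ^ 2) (A : GL (Fin d) F) (v : Fin d ⊕ Fin d → F) (i : Fin d) :
    (Mm hF A *ᵥ v) (Sum.inl i) = ((A : Matrix (Fin d) (Fin d) F) *ᵥ (v ∘ Sum.inl)) i :=
  congrFun (Cfsg.Agent.Lib.OrthBlock.mulVec_inl _ _ v) i

theorem Mm_inr (hF : Fintype.card F = q ^ 2) (A : GL (Fin d) F) (v : Fin d ⊕ Fin d → F) (i : Fin d) :
    (Mm hF A *ᵥ v) (Sum.inr i) = (Msh hF A *ᵥ (v ∘ Sum.inr)) i :=
  congrFun (Cfsg.Agent.Lib.OrthBlock.mulVec_inr _ _ v) i

theorem key_dot {B C : Matrix (Fin d) (Fin d) F} (h : B * C = 1) (a b : Fin d → F) :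
    ∑ i, (Bᵀ *ᵥ a) i * (C *ᵥ b) i = ∑ i, a i * b i := by
  have : (Bᵀ *ᵥ a) ⬝ᵥ (C *ᵥ b) = a ⬝ᵥ b := by
    rw [Matrix.mulVec_transpose, Matrix.dotProduct_mulVec, Matrix.vecMul_vecMul, h, Matrix.vecMul_one]
  exact this

theorem pow_mulVec (hF : Fintype.card F = q ^ 2) (M : Matrix (Fin d) (Fin d) F) (w : Fin d → F) (i : Fin d) :
    (M *ᵥ w) i ^ q = ((sigma hF).mapMatrix M *ᵥ (fun j => w j ^ q)) i :=
  RingHom.map_mulVec (sigma hF) M w i

theorem mapMatrix_mapMatrix (hF : Fintype.card F = q ^ 2) (M : Matrix (Fin d) (Fin d) F) :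
    (sigma hF).mapMatrix ((sigma hF).mapMatrix M) = M := by
  ext i j
  exact sigma_sigma hF _

theorem hyp_Mm (hF : Fintype.card F = q ^ 2) (A : GL (Fin d) F) (u v : Fin d ⊕ Fin d → F) :
    hyp q (Mm hF A *ᵥ u) (Mm hF A *ᵥ v) = hyp q u v := by
  simp only [hyp, Finset.sum_add_distrib, Mm_inl, Mm_inr]
  congr 1
  · have h1 : ∀ i, (Msh hF A *ᵥ (v ∘ Sum.inr)) i ^ q = ((((A⁻¹ : GL (Fin d) F) : Matrix (Fin d) (Fin d) F))ᵀ *ᵥ (fun j => (v (Sum.inr j)) ^ q)) i := by
      intro i
      rw [pow_mulVec hF, Msh]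
      have h3 : (sigma hF).mapMatrix (((sigma hF).mapMatrix ((A⁻¹ : GL (Fin d) F) : Matrix (Fin d) (Fin d) F))ᵀ) =
          ((sigma hF).mapMatrix ((sigma hF).mapMatrix ((A⁻¹ : GL (Fin d) F) : Matrix (Fin d) (Fin d) F)))ᵀ := rfl
      rw [h3, mapMatrix_mapMatrix]
      rfl
    simp only [h1]
    have h2 := key_dot (B := ((A⁻¹ : GL (Fin d) F) : Matrix (Fin d) (Fin d) F)) (C := (A : Matrix (Fin d) (Fin d) F)) (by simp) (fun j => (v (Sum.inr j)) ^ q) (u ∘ Sum.inl)
    calc _ = _ := Finset.sum_congr rfl fun i _ => mul_comm _ _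
      _ = _ := h2
      _ = _ := Finset.sum_congr rfl fun i _ => mul_comm _ _
  · have h1 : ∀ i, ((A : Matrix (Fin d) (Fin d) F) *ᵥ (v ∘ Sum.inl)) i ^ q = ((sigma hF).mapMatrix (A : Matrix (Fin d) (Fin d) F) *ᵥ (fun j => (v (Sum.inl j)) ^ q)) i := by
      intro i
      rw [pow_mulVec hF]
      rfl
    simp only [h1, Msh]
    apply key_dot
    rw [← map_mul, Units.inv_mul, map_one]

theorem det_Mm (hF : Fintype.card F = q ^ 2) (A : GL (Fin d) F) :
    (Mm hF A).det = (A : Matrix (Fin d) (Fin d) F).det * (((A : Matrix (Fin d) (Fin d) F).det) ^ q)⁻¹ := by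
  rw [Mm, Matrix.det_fromBlocks_zero₂₁, Msh, Matrix.det_transpose, ← RingHom.map_det]
  congr 1
  have h1 : ((A⁻¹ : GL (Fin d) F) : Matrix (Fin d) (Fin d) F).det * (A : Matrix (Fin d) (Fin d) F).det = 1 := by
    rw [← Matrix.det_mul]
    simp
  have h2 : (A : Matrix (Fin d) (Fin d) F).det ≠ 0 := right_ne_zero_of_mul_eq_one h1
  rw [eq_inv_of_mul_eq_one_left h1, sigma_apply, inv_pow]

theorem Mm_L0 (hF : Fintype.card F = q ^ 2) (A : GL (Fin d) F) {v : Fin d ⊕ Fin d → F} (hv : v ∈ L0 d F) : Mm hF A *ᵥ v ∈ L0 d F := by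
  rw [mem_L0]
  intro i
  rw [Mm_inr]
  have : v ∘ Sum.inr = 0 := by
    funext j
    exact mem_L0.1 hv j
  rw [this]
  simp

theorem Mm_L1 (hF : Fintype.card F = q ^ 2) (A : GL (Fin d) F) {v : Fin d ⊕ Fin d → F} (hv : v ∈ L1 d F) : Mm hF A *ᵥ v ∈ L1 d F := by
  rw [mem_L1]
  intro i
  rw [Mm_inl]
  have : v ∘ Sum.inl = 0 := by
    funext j
    exact mem_L1.1 hv j
  rw [this]
  simp

section Psi

variable (hF : Fintype.card F = q ^ 2) (E : (Fin d ⊕ Fin d → F) ≃ₗ[F] (Fin n → F))

noncomputable def matP : Matrix (Fin n) (Fin d ⊕ Fin d) F := LinearMap.toMatrix' (E : (Fin d ⊕ Fin d → F) →ₗ[F] (Fin n → F))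
noncomputable def matQ : Matrix (Fin d ⊕ Fin d) (Fin n) F := LinearMap.toMatrix' (E.symm : (Fin n → F) →ₗ[F] (Fin d ⊕ Fin d → F))

theorem matP_mulVec (v : Fin d ⊕ Fin d → F) : matP E *ᵥ v = E v := by
  rw [matP, LinearMap.toMatrix'_mulVec]
  rfl

theorem matQ_mulVec (v : Fin n → F) : matQ E *ᵥ v = E.symm v := by
  rw [matQ, LinearMap.toMatrix'_mulVec]
  rfl

theorem matPQ : matP E * matQ E = 1 := by
  apply Matrix.toLin'.injective
  apply LinearMap.ext
  intro v
  simp [← Matrix.mulVec_mulVec, matP_mulVec, matQ_mulVec]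

theorem matQP : matQ E * matP E = 1 := by
  apply Matrix.toLin'.injective
  apply LinearMap.ext
  intro v
  simp [← Matrix.mulVec_mulVec, matP_mulVec, matQ_mulVec]

theorem conj_mul (X Y : Matrix (Fin d ⊕ Fin d) (Fin d ⊕ Fin d) F) :
    (matP E * X * matQ E) * (matP E * Y * matQ E) = matP E * (X * Y) * matQ E := by
  calc (matP E * X * matQ E) * (matP E * Y * matQ E) = matP E * X * (matQ E * matP E) * Y * matQ E := by
        simp only [Matrix.mul_assoc]
    _ = _ := by
        rw [matQP]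
        simp only [Matrix.mul_assoc, Matrix.mul_one]

/-- The Levi subgroup. -/
noncomputable def Psi : GL (Fin d) F →* GL (Fin n) F where
  toFun A := ⟨matP E * Mm hF A * matQ E, matP E * Mm hF A⁻¹ * matQ E, by
      rw [conj_mul, ← Mm_mul, mul_inv_cancel, Mm_one, Matrix.mul_one, matPQ], by
      rw [conj_mul, ← Mm_mul, inv_mul_cancel, Mm_one, Matrix.mul_one, matPQ]⟩
  map_one' := by
    apply Units.ext
    show matP E * Mm hF 1 * matQ E = 1
    rw [Mm_one, Matrix.mul_one, matPQ]
  map_mul' A C := by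
    apply Units.ext
    show matP E * Mm hF (A * C) * matQ E = (matP E * Mm hF A * matQ E) * (matP E * Mm hF C * matQ E)
    rw [conj_mul, Mm_mul]

theorem Psi_val (A : GL (Fin d) F) : ((Psi hF E A : GL (Fin n) F) : Matrix (Fin n) (Fin n) F) = matP E * Mm hF A * matQ E := rfl

theorem Psi_mulVec (A : GL (Fin d) F) (v : Fin n → F) :
    ((Psi hF E A : GL (Fin n) F) : Matrix (Fin n) (Fin n) F) *ᵥ v = E (Mm hF A *ᵥ E.symm v) := by
  rw [Psi_val, ← Matrix.mulVec_mulVec, ← Matrix.mulVec_mulVec, matQ_mulVec, matP_mulVec]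

theorem Psi_inj : Function.Injective (Psi hF E) := by
  intro A C h
  have h1 : Mm hF A = Mm hF C := by
    have h2 := congrArg (fun g : GL (Fin n) F => matQ E * (g : Matrix (Fin n) (Fin n) F) * matP E) h
    simp only [Psi_val] at h2
    have h3 : ∀ X : Matrix (Fin d ⊕ Fin d) (Fin d ⊕ Fin d) F, matQ E * (matP E * X * matQ E) * matP E = X := by
      intro X
      calc _ = (matQ E * matP E) * X * (matQ E * matP E) := by simp only [Matrix.mul_assoc]
        _ = X := by rw [matQP, Matrix.one_mul, Matrix.mul_one]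
    rwa [h3, h3] at h2
  apply Units.ext
  exact (Matrix.fromBlocks_inj.1 h1).1

theorem Psi_det (A : GL (Fin d) F) : ((Psi hF E A : GL (Fin n) F) : Matrix (Fin n) (Fin n) F).det = (Mm hF A).det := by
  rw [Psi_val, Matrix.det_conj_of_mul_eq_one (matPQ E) (matQP E)]

theorem Psi_mem_GU (hE : ∀ u v, hermForm n F q (E u) (E v) = hyp q u v) (A : GL (Fin d) F) : Psi hF E A ∈ GU n F q := by
  intro u v
  show hermForm n F q (((Psi hF E A : GL (Fin n) F) : Matrix (Fin n) (Fin n) F) *ᵥ u) (((Psi hF E A : GL (Fin n) F) : Matrix (Fin n) (Fin n) F) *ᵥ v) = _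
  rw [Psi_mulVec, Psi_mulVec, hE, hyp_Mm, ← hE, E.apply_symm_apply, E.apply_symm_apply]

theorem Psi_E (A : GL (Fin d) F) (v : Fin d ⊕ Fin d → F) :
    ((Psi hF E A : GL (Fin n) F) : Matrix (Fin n) (Fin n) F) *ᵥ (E v) = E (Mm hF A *ᵥ v) := by
  rw [Psi_mulVec, E.symm_apply_apply]

end Psi

theorem toLin_inj (g : GL (Fin n) F) : Function.Injective (Matrix.toLin' (g : Matrix (Fin n) (Fin n) F)) := by
  intro u v h
  have h1 : (g : Matrix (Fin n) (Fin n) F) *ᵥ u = (g : Matrix (Fin n) (Fin n) F) *ᵥ v := by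
    simpa [Matrix.toLin'_apply] using h
  have h2 := congrArg (fun w => ((g⁻¹ : GL (Fin n) F) : Matrix (Fin n) (Fin n) F) *ᵥ w) h1
  simpa [Matrix.mulVec_mulVec] using h2

theorem map_eq_of_le' (g : GL (Fin n) F) {W : Submodule F (Fin n → F)}
    (h : W.map (Matrix.toLin' (g : Matrix (Fin n) (Fin n) F)) ≤ W) :
    W.map (Matrix.toLin' (g : Matrix (Fin n) (Fin n) F)) = W := by
  apply Submodule.eq_of_le_of_finrank_eq h
  exact (Submodule.equivMapOfInjective _ (toLin_inj g) W).finrank_eq.symm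

theorem map_mul_toLin (a b : GL (Fin n) F) (W : Submodule F (Fin n → F)) :
    W.map (Matrix.toLin' ((a * b : GL (Fin n) F) : Matrix (Fin n) (Fin n) F)) =
      (W.map (Matrix.toLin' (b : Matrix (Fin n) (Fin n) F))).map (Matrix.toLin' (a : Matrix (Fin n) (Fin n) F)) := by
  rw [Units.val_mul, Matrix.toLin'_mul, Submodule.map_comp]

theorem map_inv_toLin (a : GL (Fin n) F) (W : Submodule F (Fin n → F)) :
    (W.map (Matrix.toLin' (a : Matrix (Fin n) (Fin n) F))).map (Matrix.toLin' ((a⁻¹ : GL (Fin n) F) : Matrix (Fin n) (Fin n) F)) = W := by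
  rw [← map_mul_toLin, inv_mul_cancel, Units.val_one, Matrix.toLin'_one, Submodule.map_id]

theorem map_conj (g x : GL (Fin n) F) (W : Submodule F (Fin n → F)) :
    W.map (Matrix.toLin' ((g⁻¹ * x * g : GL (Fin n) F) : Matrix (Fin n) (Fin n) F)) =
      ((W.map (Matrix.toLin' (g : Matrix (Fin n) (Fin n) F))).map (Matrix.toLin' (x : Matrix (Fin n) (Fin n) F))).map
        (Matrix.toLin' ((g⁻¹ : GL (Fin n) F) : Matrix (Fin n) (Fin n) F)) := by
  rw [map_mul_toLin, map_mul_toLin]

/-- Pairs of complementary totally singular subspaces. -/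
structure IsPair (n : ℕ) (F : Type*) [Field F] (q : ℕ) (U W : Submodule F (Fin n → F)) : Prop where
  compl : IsCompl U W
  tsU : ∀ u ∈ U, ∀ v ∈ U, hermForm n F q u v = 0
  tsW : ∀ u ∈ W, ∀ v ∈ W, hermForm n F q u v = 0

theorem exists_det (hd : 1 ≤ d) {m : F} (hm : m ≠ 0) : ∃ A : GL (Fin d) F, (A : Matrix (Fin d) (Fin d) F).det = m := by
  classical
  let i0 : Fin d := ⟨0, by omega⟩
  let D : Fin d → F := Function.update 1 i0 m
  have hD : (Matrix.diagonal D).det = m := by
    rw [Matrix.det_diagonal, Finset.prod_update_of_mem (Finset.mem_univ i0)]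
    simp
  refine ⟨Matrix.GeneralLinearGroup.mkOfDetNeZero (Matrix.diagonal D) (by rw [hD]; exact hm), hD⟩

/-- Transitivity on pairs. -/
theorem exists_SU_map (hF : Fintype.card F = q ^ 2) (hn : n = 2 * d) (hd : 1 ≤ d) {U W U' W' : Submodule F (Fin n → F)}
    (h : IsPair n F q U W) (h' : IsPair n F q U' W') :
    ∃ g ∈ GU n F q ⊓ Cfsg.Geo.specialLinear (Fin n) F,
      U.map (Matrix.toLin' (g : Matrix (Fin n) (Fin n) F)) = U' ∧ W.map (Matrix.toLin' (g : Matrix (Fin n) (Fin n) F)) = W' := by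
  classical
  have hq2 := two_le_q hF
  obtain ⟨E₁, hE₁, h01, h11⟩ := exists_adapted hF hn h.compl h.tsU h.tsW
  obtain ⟨E₂, hE₂, h02, h12⟩ := exists_adapted hF hn h'.compl h'.tsU h'.tsW
  let g₀ : GL (Fin n) F := ⟨matP E₂ * matQ E₁, matP E₁ * matQ E₂, by
    calc matP E₂ * matQ E₁ * (matP E₁ * matQ E₂) = matP E₂ * (matQ E₁ * matP E₁) * matQ E₂ := by simp only [Matrix.mul_assoc]
      _ = 1 := by rw [matQP, Matrix.mul_one, matPQ], by
    calc matP E₁ * matQ E₂ * (matP E₂ * matQ E₁) = matP E₁ * (matQ E₂ * matP E₂) * matQ E₁ := by simp only [Matrix.mul_assoc]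
      _ = 1 := by rw [matQP, Matrix.mul_one, matPQ]⟩
  have hg₀ : ∀ v, (g₀ : Matrix (Fin n) (Fin n) F) *ᵥ E₁ v = E₂ v := by
    intro v
    show (matP E₂ * matQ E₁) *ᵥ E₁ v = E₂ v
    rw [← Matrix.mulVec_mulVec, matQ_mulVec, matP_mulVec, E₁.symm_apply_apply]
  have hg₀U : g₀ ∈ GU n F q := by
    intro u v
    obtain ⟨u, rfl⟩ := E₁.surjective u
    obtain ⟨v, rfl⟩ := E₁.surjective v
    show hermForm n F q ((g₀ : Matrix (Fin n) (Fin n) F) *ᵥ E₁ u) ((g₀ : Matrix (Fin n) (Fin n) F) *ᵥ E₁ v) = _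
    rw [hg₀, hg₀, hE₁, hE₂]
  have ht : nrm q (g₀ : Matrix (Fin n) (Fin n) F).det = 1 := nrm_det hF hg₀U
  have ht0 : (g₀ : Matrix (Fin n) (Fin n) F).det ≠ 0 := by
    intro h0
    rw [h0, nrm] at ht
    simp at ht
  have hl : nrm q ((g₀ : Matrix (Fin n) (Fin n) F).det)⁻¹ = 1 := by
    rw [nrm, inv_pow, ← mul_inv, ← nrm, ht, inv_one]
  obtain ⟨m, hm0, hm⟩ := Cfsg.Agent.Lib.GUParab.hilbert90 hF hl
  obtain ⟨A, hA⟩ := exists_det (F := F) hd hm0
  refine ⟨g₀ * Psi hF E₁ A, ⟨?_, ?_⟩, ?_, ?_⟩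
  · exact (GU n F q).mul_mem hg₀U (Psi_mem_GU hF E₁ hE₁ A)
  · show Matrix.GeneralLinearGroup.det _ = 1
    apply Units.ext
    show ((g₀ * Psi hF E₁ A : GL (Fin n) F) : Matrix (Fin n) (Fin n) F).det = 1
    rw [Units.val_mul, Matrix.det_mul, Psi_det, det_Mm, hA]
    have hmq : m ^ q ≠ 0 := pow_ne_zero _ hm0
    have : m * (m ^ q)⁻¹ = ((g₀ : Matrix (Fin n) (Fin n) F).det)⁻¹ := by
      rw [mul_inv_eq_iff_eq_mul₀ hmq]
      exact hm
    rw [this, mul_inv_cancel₀ ht0]
  · rw [map_mul_toLin]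
    have h3 : U.map (Matrix.toLin' ((Psi hF E₁ A : GL (Fin n) F) : Matrix (Fin n) (Fin n) F)) = U := by
      apply map_eq_of_le'
      rw [← h01]
      rintro _ ⟨_, ⟨l, hl, rfl⟩, rfl⟩
      refine ⟨Mm hF A *ᵥ l, Mm_L0 hF A hl, ?_⟩
      rw [Matrix.toLin'_apply]
      exact (Psi_E hF E₁ A l).symm
    rw [h3, ← h02, ← h01]
    ext y
    constructor
    · rintro ⟨_, ⟨l, hl, rfl⟩, rfl⟩
      exact ⟨l, hl, by rw [Matrix.toLin'_apply]; exact (hg₀ l).symm⟩
    · rintro ⟨l, hl, rfl⟩
      exact ⟨E₁ l, ⟨l, hl, rfl⟩, by rw [Matrix.toLin'_apply]; exact hg₀ l⟩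
  · rw [map_mul_toLin]
    have h3 : W.map (Matrix.toLin' ((Psi hF E₁ A : GL (Fin n) F) : Matrix (Fin n) (Fin n) F)) = W := by
      apply map_eq_of_le'
      rw [← h11]
      rintro _ ⟨_, ⟨l, hl, rfl⟩, rfl⟩
      refine ⟨Mm hF A *ᵥ l, Mm_L1 hF A hl, ?_⟩
      rw [Matrix.toLin'_apply]
      exact (Psi_E hF E₁ A l).symm
    rw [h3, ← h12, ← h11]
    ext y
    constructor
    · rintro ⟨_, ⟨l, hl, rfl⟩, rfl⟩
      exact ⟨l, hl, by rw [Matrix.toLin'_apply]; exact (hg₀ l).symm⟩
    · rintro ⟨l, hl, rfl⟩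
      exact ⟨E₁ l, ⟨l, hl, rfl⟩, by rw [Matrix.toLin'_apply]; exact hg₀ l⟩

theorem card_S (n : ℕ) (q : ℕ) : Nat.card (GU n F q ⊓ Cfsg.Geo.specialLinear (Fin n) F : Subgroup (GL (Fin n) F)) = Nat.card (SU n F q) := by
  symm
  apply Nat.card_eq_of_bijective (fun s : SU n F q => (⟨Matrix.SpecialLinearGroup.toGL s.1, by
    refine ⟨fun u v => s.2 u v, ?_⟩
    show Matrix.GeneralLinearGroup.det _ = 1
    apply Units.ext
    exact s.1.2⟩ : (GU n F q ⊓ Cfsg.Geo.specialLinear (Fin n) F : Subgroup (GL (Fin n) F))))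
  constructor
  · intro a b h
    have h1 := congrArg (fun x : (GU n F q ⊓ Cfsg.Geo.specialLinear (Fin n) F : Subgroup (GL (Fin n) F)) => ((x : GL (Fin n) F) : Matrix (Fin n) (Fin n) F)) h
    apply Subtype.ext
    apply Subtype.ext
    exact h1
  · rintro ⟨x, hx1, hx2⟩
    have h2 : (x : Matrix (Fin n) (Fin n) F).det = 1 := by
      have := congrArg Units.val (show Matrix.GeneralLinearGroup.det x = 1 from hx2)
      simpa using this
    refine ⟨⟨⟨x, h2⟩, fun u v => hx1 u v⟩, ?_⟩
    apply Subtype.ext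
    apply Units.ext
    rfl

theorem prod_split_unitary (q d : ℕ) :
    ∏ i ∈ Finset.range (2 * d), (if Even i then q ^ (i + 1) + 1 else q ^ (i + 1) - 1) =
      (∏ k ∈ Finset.range d, (q ^ (2 * k + 1) + 1)) * ∏ k ∈ Finset.range d, (q ^ (2 * (k + 1)) - 1) := by
  induction d with
  | zero => simp
  | succ d ih =>
    rw [show 2 * (d + 1) = 2 * d + 1 + 1 by ring, Finset.prod_range_succ, Finset.prod_range_succ, ih, Finset.prod_range_succ,
      Finset.prod_range_succ]
    have h1 : Even (2 * d) := even_two_mul d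
    have h2 : ¬ Even (2 * d + 1) := by simp
    rw [if_pos h1, if_neg h2]
    rw [show 2 * d + 1 + 1 = 2 * (d + 1) by ring]
    ring

/-- The index of the pair stabilizer. -/
theorem exists_k (hF : Fintype.card F = q ^ 2) (hn : n = 2 * d) (hd : 1 ≤ d) (p : ℕ) [Fact p.Prime] [CharP F p] (D : Fin 2 → Submodule F (Fin n → F))
    (hP : IsPair n F q (D 0) (D 1)) (r : ℕ) [hr : Fact r.Prime] (hrp : r ≠ p)
    (hΩ : r ∣ (Cfsg.Geo.decompositionStabilizer D).relIndex (GU n F q ⊓ Cfsg.Geo.specialLinear (Fin n) F)) :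
    ∃ k, k < d ∧ r ∣ q ^ (2 * k + 1) + 1 := by
  classical
  have hq2 := two_le_q hF
  obtain ⟨E, hE, h0, h1⟩ := exists_adapted hF hn hP.compl hP.tsU hP.tsW
  let Ψ := Psi hF E
  let φ : GL (Fin d) F →* Fˣ := (Matrix.GeneralLinearGroup.det).comp Ψ
  have hφ : ∀ A, ((φ A : Fˣ) : F) = ((Ψ A : GL (Fin n) F) : Matrix (Fin n) (Fin n) F).det := fun A => rfl
  have hU : ∀ A, Ψ A ∈ GU n F q := fun A => Psi_mem_GU hF E hE A
  let S : Subgroup (GL (Fin n) F) := GU n F q ⊓ Cfsg.Geo.specialLinear (Fin n) F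
  have hS : ∀ A : φ.ker, Ψ A.1 ∈ S := by
    intro A
    refine ⟨hU A.1, ?_⟩
    exact A.2
  have hstab : ∀ A, Ψ A ∈ Cfsg.Geo.decompositionStabilizer D := by
    intro A
    refine ⟨1, fun i => ?_⟩
    apply map_eq_of_le'
    have h2 : ∀ i : Fin 2, D i = (if i = 0 then L0 d F else L1 d F).map (E : (Fin d ⊕ Fin d → F) →ₗ[F] (Fin n → F)) := by
      intro i
      fin_cases i
      · exact h0.symm
      · exact h1.symm
    have h3 : ∀ l ∈ (if i = 0 then L0 d F else L1 d F), Mm hF A *ᵥ l ∈ (if i = 0 then L0 d F else L1 d F) := by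
      intro l hl
      split_ifs at hl ⊢
      · exact Mm_L0 hF A hl
      · exact Mm_L1 hF A hl
    show (D i).map _ ≤ D i
    rw [h2 i]
    rintro _ ⟨_, ⟨l, hl, rfl⟩, rfl⟩
    refine ⟨Mm hF A *ᵥ l, h3 l hl, ?_⟩
    rw [Matrix.toLin'_apply]
    exact (Psi_E hF E A l).symm
  let H' := (Cfsg.Geo.decompositionStabilizer D).subgroupOf S
  let f : φ.ker →* H' :=
    { toFun := fun A => ⟨⟨Ψ A.1, hS A⟩, hstab A.1⟩
      map_one' := by
        apply Subtype.ext
        apply Subtype.ext
        exact map_one Ψ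
      map_mul' := fun A C => by
        apply Subtype.ext
        apply Subtype.ext
        exact map_mul Ψ A.1 C.1 }
  have hfinj : Function.Injective f := by
    intro A C h
    apply Subtype.ext
    apply Psi_inj hF E
    exact congrArg (fun x : H' => ((x : S) : GL (Fin n) F)) h
  obtain ⟨c, hc⟩ := Subgroup.card_dvd_of_injective f hfinj
  have h2 := Subgroup.card_mul_index H'
  have h3 : Nat.card S = Nat.card (SU n F q) := card_S n q
  have h4 := card_SU hF n (by omega)
  have h5 := Subgroup.card_mul_index φ.ker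
  rw [Subgroup.index_ker, Matrix.card_GL_field, hF, Cfsg.Agent.S5968.prod_gl _ _ (Nat.one_le_pow _ _ (by omega))] at h5
  set I := H'.index with hI
  have hI2 : (Cfsg.Geo.decompositionStabilizer D).relIndex (GU n F q ⊓ Cfsg.Geo.specialLinear (Fin n) F) = I := rfl
  rw [hI2] at hΩ
  set R := Nat.card φ.range with hR
  set Kc := Nat.card φ.ker with hKc
  rw [hc] at h2
  rw [h3] at h2
  rw [← h2, hn, prod_split_unitary] at h4
  set Od := ∏ k ∈ Finset.range d, (q ^ (2 * k + 1) + 1) with hOd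
  set N := q ^ (2 * d * (2 * d - 1) / 2) with hN
  have hEv : ∏ k ∈ Finset.range d, ((q ^ 2) ^ (k + 1) - 1) = ∏ k ∈ Finset.range d, (q ^ (2 * (k + 1)) - 1) := by
    apply Finset.prod_congr rfl
    intro k _
    rw [pow_mul]
  rw [hEv] at h5
  set Ev := ∏ k ∈ Finset.range d, (q ^ (2 * (k + 1)) - 1) with hEvd
  have hEv0 : 0 < Ev := by
    apply Finset.prod_pos
    intro i _
    have : 1 < q ^ (2 * (i + 1)) := Nat.one_lt_pow (by omega) (by omega)
    omega
  have h6 : (q + 1) * c * I * (q ^ 2) ^ (∑ i ∈ Finset.range d, i) = N * Od * R := by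
    apply Nat.eq_of_mul_eq_mul_right hEv0
    calc (q + 1) * c * I * (q ^ 2) ^ (∑ i ∈ Finset.range d, i) * Ev
        = (q + 1) * c * I * ((q ^ 2) ^ (∑ i ∈ Finset.range d, i) * Ev) := by ring
      _ = (q + 1) * c * I * (Kc * R) := by rw [h5]
      _ = ((q + 1) * (Kc * c * I)) * R := by ring
      _ = (N * (Od * Ev)) * R := by rw [h4]
      _ = N * Od * R * Ev := by ring
  have h7 : r ∣ N * Od * R := by
    rw [← h6]
    exact Dvd.dvd.mul_right (Dvd.dvd.mul_left hΩ _) _
  have hrp' : ¬ r ∣ q := by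
    intro h8
    have h9 : r ∣ Fintype.card F := by
      rw [hF]
      exact Dvd.dvd.trans h8 (dvd_pow_self q two_ne_zero)
    obtain ⟨m, hm⟩ := FiniteField.card F p
    rw [hm.2] at h9
    exact hrp ((Nat.prime_dvd_prime_iff_eq hr.out (Fact.out)).1 (hr.out.dvd_of_dvd_pow h9))
  rcases (Nat.Prime.dvd_mul hr.out).1 h7 with h8 | h8
  · rcases (Nat.Prime.dvd_mul hr.out).1 h8 with h9 | h9
    · exact absurd (hr.out.dvd_of_dvd_pow h9) hrp'
    · obtain ⟨k, hk, hk2⟩ := (Prime.dvd_finset_prod_iff hr.out.prime _).1 h9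
      exact ⟨k, Finset.mem_range.1 hk, hk2⟩
  · -- an element of order `r` in the range
    obtain ⟨t, ht⟩ := exists_prime_orderOf_dvd_card' r h8
    obtain ⟨A, hA⟩ := t.2
    have h9 : ((t : Fˣ) : F) ^ (q + 1) = 1 := by
      rw [← hA, hφ, ← nrm_eq_pow]
      exact nrm_det hF (hU A)
    have h10 : ((t : Fˣ)) ^ (q + 1) = 1 := by
      apply Units.ext
      simpa using h9
    have h11 : t ^ (q + 1) = 1 := by
      apply Subtype.ext
      simpa using h10
    refine ⟨0, by omega, ?_⟩
    rw [← ht] at *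
    simpa using orderOf_dvd_of_pow_eq_one h11

theorem isPair_map (g : GL (Fin n) F) (hg : g ∈ GU n F q) {U W : Submodule F (Fin n → F)} (h : IsPair n F q U W) :
    IsPair n F q (U.map (Matrix.toLin' (g : Matrix (Fin n) (Fin n) F))) (W.map (Matrix.toLin' (g : Matrix (Fin n) (Fin n) F))) := by
  constructor
  · let e := LinearEquiv.ofInjectiveEndo (Matrix.toLin' (g : Matrix (Fin n) (Fin n) F)) (toLin_inj g)
    have he : (e : (Fin n → F) →ₗ[F] (Fin n → F)) = Matrix.toLin' (g : Matrix (Fin n) (Fin n) F) := LinearMap.ext fun _ => rfl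
    rw [← he]
    exact Cfsg.Agent.S5963.isCompl_map_equiv e h.compl
  · rintro _ ⟨u, hu, rfl⟩ _ ⟨v, hv, rfl⟩
    rw [Matrix.toLin'_apply, Matrix.toLin'_apply]
    exact (hg u v).trans (h.tsU u hu v hv)
  · rintro _ ⟨u, hu, rfl⟩ _ ⟨v, hv, rfl⟩
    rw [Matrix.toLin'_apply, Matrix.toLin'_apply]
    exact (hg u v).trans (h.tsW u hu v hv)

/-- The property of having no fixed pair. -/
structure Bad (n : ℕ) (F : Type*) [Field F] [Fintype F] (q r : ℕ) (x : GL (Fin n) F) : Prop where
  mem : x ∈ GU n F q ⊓ Cfsg.Geo.specialLinear (Fin n) F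
  pow : ∃ z : F, ((x ^ r : GL (Fin n) F) : Matrix (Fin n) (Fin n) F) = z • (1 : Matrix (Fin n) (Fin n) F)
  nonscalar : ∀ z : F, (x : Matrix (Fin n) (Fin n) F) ≠ z • (1 : Matrix (Fin n) (Fin n) F)
  nofix : ∀ U W, IsPair n F q U W → U.map (Matrix.toLin' (x : Matrix (Fin n) (Fin n) F)) = U →
    W.map (Matrix.toLin' (x : Matrix (Fin n) (Fin n) F)) = W → False
  noswap : ∀ U W, IsPair n F q U W → U.map (Matrix.toLin' (x : Matrix (Fin n) (Fin n) F)) = W →
    W.map (Matrix.toLin' (x : Matrix (Fin n) (Fin n) F)) = U → False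

theorem Bad.not_conj {r : ℕ} {x : GL (Fin n) F} (hx : Bad n F q r x) {D : Fin 2 → Submodule F (Fin n → F)}
    (hP : IsPair n F q (D 0) (D 1)) : ∀ g ∈ GU n F q ⊓ Cfsg.Geo.specialLinear (Fin n) F, g⁻¹ * x * g ∉ Cfsg.Geo.decompositionStabilizer D := by
  rintro g hg ⟨σ, hσ⟩
  have hP' := isPair_map g hg.1 hP
  have key : ∀ i, ((D i).map (Matrix.toLin' (g : Matrix (Fin n) (Fin n) F))).map (Matrix.toLin' (x : Matrix (Fin n) (Fin n) F)) =
      (D (σ i)).map (Matrix.toLin' (g : Matrix (Fin n) (Fin n) F)) := by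
    intro i
    have h1 := hσ i
    rw [map_conj] at h1
    rw [← h1]
    have h2 := map_inv_toLin g⁻¹ (((D i).map (Matrix.toLin' (g : Matrix (Fin n) (Fin n) F))).map (Matrix.toLin' (x : Matrix (Fin n) (Fin n) F)))
    rw [inv_inv] at h2
    exact h2.symm
  have hσ2 : (σ 0 = 0 ∧ σ 1 = 1) ∨ (σ 0 = 1 ∧ σ 1 = 0) := by
    have : ∀ τ : Equiv.Perm (Fin 2), (τ 0 = 0 ∧ τ 1 = 1) ∨ (τ 0 = 1 ∧ τ 1 = 0) := by decide
    exact this σ
  rcases hσ2 with ⟨h0, h1⟩ | ⟨h0, h1⟩
  · have k0 := key 0
    have k1 := key 1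
    rw [h0] at k0
    rw [h1] at k1
    exact hx.nofix _ _ hP' k0 k1
  · have k0 := key 0
    have k1 := key 1
    rw [h0] at k0
    rw [h1] at k1
    exact hx.noswap _ _ hP' k0 k1

theorem isPair_dims (hF : Fintype.card F = q ^ 2) (hn : n = 2 * d) {U W : Submodule F (Fin n → F)} (h : IsPair n F q U W) :
    finrank F U = d ∧ finrank F W = d := by
  have h1 := finrank_le_of_ts hF U h.tsU
  have h2 := finrank_le_of_ts hF W h.tsW
  have h3 := Submodule.finrank_add_eq_of_isCompl h.compl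
  rw [Module.finrank_fin_fun] at h3
  omega

/-- Eigenline obstruction. -/
theorem no_fix_eigenline (hF : Fintype.card F = q ^ 2) (x : GL (Fin n) F) {lam : F} {e : Fin n → F} (he : hermForm n F q e e ≠ 0)
    (hx : (x : Matrix (Fin n) (Fin n) F) *ᵥ e = lam • e) (huniq : ∀ v, (x : Matrix (Fin n) (Fin n) F) *ᵥ v = lam • v → ∃ c : F, v = c • e)
    (U W : Submodule F (Fin n → F)) (h : IsPair n F q U W) (hU : U.map (Matrix.toLin' (x : Matrix (Fin n) (Fin n) F)) = U)
    (hW : W.map (Matrix.toLin' (x : Matrix (Fin n) (Fin n) F)) = W) : False := by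
  have hmem : e ∈ U ⊔ W := by
    rw [h.compl.sup_eq_top]
    trivial
  obtain ⟨u, hu, w, hw, rfl⟩ := Submodule.mem_sup.1 hmem
  have hxu : (x : Matrix (Fin n) (Fin n) F) *ᵥ u ∈ U := by
    rw [← hU]
    exact ⟨u, hu, by rw [Matrix.toLin'_apply]⟩
  have hxw : (x : Matrix (Fin n) (Fin n) F) *ᵥ w ∈ W := by
    rw [← hW]
    exact ⟨w, hw, by rw [Matrix.toLin'_apply]⟩
  rw [Matrix.mulVec_add, smul_add] at hx
  have h1 : (x : Matrix (Fin n) (Fin n) F) *ᵥ u - lam • u = lam • w - (x : Matrix (Fin n) (Fin n) F) *ᵥ w := by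
    rw [sub_eq_sub_iff_add_eq_add, hx]
    abel
  have h2 : (x : Matrix (Fin n) (Fin n) F) *ᵥ u - lam • u = 0 := by
    have hdis := h.compl.disjoint
    rw [Submodule.disjoint_def] at hdis
    apply hdis _ (U.sub_mem hxu (U.smul_mem _ hu))
    rw [h1]
    exact W.sub_mem (W.smul_mem _ hw) hxw
  have h3 : (x : Matrix (Fin n) (Fin n) F) *ᵥ w - lam • w = 0 := by
    have : (x : Matrix (Fin n) (Fin n) F) *ᵥ w - lam • w = -(lam • w - (x : Matrix (Fin n) (Fin n) F) *ᵥ w) := by abel
    rw [this, ← h1, h2, neg_zero]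
  obtain ⟨c, hc⟩ := huniq u (sub_eq_zero.1 h2)
  obtain ⟨c', hc'⟩ := huniq w (sub_eq_zero.1 h3)
  have h4 : hermForm n F q u u = 0 := h.tsU u hu u hu
  have h5 : hermForm n F q w w = 0 := h.tsW w hw w hw
  set e' := u + w with he'
  rw [hc, herm_smul_left, herm_smul_right] at h4
  rw [hc', herm_smul_left, herm_smul_right] at h5
  have h6 : c = 0 := by
    by_contra hc0
    exact he (by simpa [hc0, (by have := two_le_q hF; omega : q ≠ 0)] using h4)
  have h7 : c' = 0 := by
    by_contra hc0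
    exact he (by simpa [hc0, (by have := two_le_q hF; omega : q ≠ 0)] using h5)
  have h8 : e' = 0 := by
    rw [he', hc, hc', h6, h7]
    simp
  apply he
  rw [h8]
  exact Cfsg.Agent.Lib.HermForm.hermForm_zero_left _

/-- Rank one elements do not swap. -/
theorem no_swap_rank_one (hF : Fintype.card F = q ^ 2) (hn : n = 2 * d) (hd : 2 ≤ d) (x : GL (Fin n) F) {κ : F} {v : Fin n → F}
    (hx : ∀ w, ∃ c : F, (x : Matrix (Fin n) (Fin n) F) *ᵥ w = κ • w + c • v)
    (U W : Submodule F (Fin n → F)) (h : IsPair n F q U W) (hU : U.map (Matrix.toLin' (x : Matrix (Fin n) (Fin n) F)) = W)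
    (hW : W.map (Matrix.toLin' (x : Matrix (Fin n) (Fin n) F)) = U) : False := by
  classical
  have hUd := (isPair_dims hF hn h).1
  let T : U →ₗ[F] (Fin n → F) := (Matrix.toLin' (x : Matrix (Fin n) (Fin n) F) - κ • LinearMap.id).comp U.subtype
  have hT : ∀ u : U, T u = (x : Matrix (Fin n) (Fin n) F) *ᵥ (u : Fin n → F) - κ • (u : Fin n → F) := fun u => rfl
  have h1 : LinearMap.range T ≤ Submodule.span F {v} := by
    rintro _ ⟨u, rfl⟩
    obtain ⟨c, hc⟩ := hx u
    rw [hT, hc, add_sub_cancel_left]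
    exact Submodule.smul_mem _ _ (Submodule.mem_span_singleton_self v)
  have h2 := Submodule.finrank_mono h1
  have h3 : finrank F (Submodule.span F {v}) ≤ 1 := by
    by_cases hv : v = 0
    · rw [hv, Submodule.span_zero_singleton, finrank_bot]
      omega
    · rw [finrank_span_singleton hv]
  have h4 := LinearMap.finrank_range_add_finrank_ker T
  have h5 : LinearMap.ker T ≠ ⊥ := by
    intro h6
    rw [h6, finrank_bot] at h4
    omega
  obtain ⟨u, hu, hu0⟩ := Submodule.exists_mem_ne_zero_of_ne_bot h5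
  have h6 : (x : Matrix (Fin n) (Fin n) F) *ᵥ (u : Fin n → F) = κ • (u : Fin n → F) := by
    have := LinearMap.mem_ker.1 hu
    rw [hT] at this
    exact sub_eq_zero.1 this
  have h7 : (x : Matrix (Fin n) (Fin n) F) *ᵥ (u : Fin n → F) ∈ W := by
    rw [← hU]
    exact ⟨u, u.2, by rw [Matrix.toLin'_apply]⟩
  have h8 : (x : Matrix (Fin n) (Fin n) F) *ᵥ (u : Fin n → F) ∈ U := by
    rw [h6]
    exact U.smul_mem _ u.2
  have hdis := h.compl.disjoint
  rw [Submodule.disjoint_def] at hdis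
  have h9 := hdis _ h8 h7
  apply hu0
  apply Subtype.ext
  exact toLin_inj x (by rw [Matrix.toLin'_apply, h9]; simp)

/-- Odd order elements do not swap. -/
theorem no_swap_odd (hn : 1 ≤ n) {r : ℕ} (hr : Odd r) (x : GL (Fin n) F) (hxr : x ^ r = 1)
    (U W : Submodule F (Fin n → F)) (h : IsCompl U W) (hU : U.map (Matrix.toLin' (x : Matrix (Fin n) (Fin n) F)) = W)
    (hW : W.map (Matrix.toLin' (x : Matrix (Fin n) (Fin n) F)) = U) : False := by
  have hk : ∀ k : ℕ, U.map (Matrix.toLin' ((x ^ (2 * k) : GL (Fin n) F) : Matrix (Fin n) (Fin n) F)) = U ∧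
      U.map (Matrix.toLin' ((x ^ (2 * k + 1) : GL (Fin n) F) : Matrix (Fin n) (Fin n) F)) = W := by
    intro k
    induction k with
    | zero =>
      simp [hU]
    | succ k ih =>
      have e1 : U.map (Matrix.toLin' ((x ^ (2 * (k + 1)) : GL (Fin n) F) : Matrix (Fin n) (Fin n) F)) = U := by
        rw [show 2 * (k + 1) = (2 * k + 1) + 1 by ring, pow_succ', map_mul_toLin, ih.2, hW]
      refine ⟨e1, ?_⟩
      rw [pow_succ', map_mul_toLin, e1, hU]
  obtain ⟨k, rfl⟩ := hr
  have h3 := (hk k).2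
  rw [hxr, Units.val_one, Matrix.toLin'_one, Submodule.map_id] at h3
  subst h3
  have h4 : U = ⊥ := by
    have := h.inf_eq_bot
    rwa [inf_idem] at this
  have h5 := h.sup_eq_top
  rw [h4, sup_idem] at h5
  have h6 : finrank F (⊥ : Submodule F (Fin n → F)) = finrank F (⊤ : Submodule F (Fin n → F)) := by rw [h5]
  rw [finrank_bot, finrank_top, Module.finrank_fin_fun] at h6
  omega

/-- Case of a transvection. -/
theorem exists_bad_transvection (hF : Fintype.card F = q ^ 2) (hn : n = 2 * d) (hd : 2 ≤ d) (p : ℕ) [Fact p.Prime] [CharP F p] :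
    ∃ x, Bad n F q p x := by
  classical
  have hq2 := two_le_q hF
  have hq0 : q ≠ 0 := by omega
  obtain ⟨a, ha⟩ := Cfsg.Agent.Lib.LawEmbed.exists_nrm_neg_one hF
  obtain ⟨s, hs0, hs⟩ := Cfsg.Agent.Lib.LawEmbed.exists_skew hF
  have hs' : s ^ q = -s := hs
  let i0 : Fin n := ⟨0, by omega⟩
  let i1 : Fin n := ⟨1, by omega⟩
  have h01 : i0 ≠ i1 := by simp [i0, i1, Fin.ext_iff]
  let e0 : Fin n → F := Pi.single i0 1
  let e1 : Fin n → F := Pi.single i1 1
  let v : Fin n → F := e0 + a • e1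
  have hv0 : v ≠ 0 := by
    intro h
    have := congrFun h i0
    simp [v, e0, e1, h01.symm] at this
  have hvv : hermForm n F q v v = 0 := by
    have h1 : ∀ u w, hermForm n F q u (w : Fin n → F) = ∑ j, u j * w j ^ q := fun u w => rfl
    simp only [v, herm_add_left, herm_add_right hF, herm_smul_left, herm_smul_right, e0, e1,
      Cfsg.Agent.Lib.HermForm.hermForm_single_right hF]
    simp [h01, h01.symm]
    have : a * a ^ q = -1 := ha
    linear_combination this
  have hvy : hermForm n F q (0 : Fin n → F) v = 0 := Cfsg.Agent.Lib.HermForm.hermForm_zero_left v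
  have hss : s + s ^ q + hermForm n F q (0 : Fin n → F) 0 = 0 := by
    rw [hs', Cfsg.Agent.Lib.HermForm.hermForm_zero_left]
    ring
  let M := Cfsg.Agent.Lib.UnitaryE.E q v (0 : Fin n → F) s
  have hdet : M.det = 1 := Cfsg.Agent.Lib.UnitaryE.E_det hF hvv hvy
  let x : GL (Fin n) F := Matrix.GeneralLinearGroup.mkOfDetNeZero M (by rw [hdet]; exact one_ne_zero)
  have hxv : ∀ w, (x : Matrix (Fin n) (Fin n) F) *ᵥ w = w + (s * hermForm n F q w v) • v := by
    intro w
    show M *ᵥ w = _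
    rw [Cfsg.Agent.Lib.UnitaryE.E_mulVec, Cfsg.Agent.Lib.HermForm.hermForm_zero_right hF]
    simp [smul_smul, mul_comm]
  have hk : ∀ (k : ℕ) (w : Fin n → F), ((x ^ k : GL (Fin n) F) : Matrix (Fin n) (Fin n) F) *ᵥ w = w + ((k : F) * (s * hermForm n F q w v)) • v := by
    intro k
    induction k with
    | zero =>
      intro w
      simp
    | succ k ih =>
      intro w
      rw [pow_succ, Units.val_mul, ← Matrix.mulVec_mulVec, ih, hxv, herm_add_left, herm_smul_left, hvv]
      push_cast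
      simp only [mul_zero, add_zero, add_assoc, ← add_smul]
      congr 2
      ring
  have hp0 : (p : F) = 0 := CharP.cast_eq_zero F p
  have hnd : ∀ y : Fin n → F, (∀ w, hermForm n F q w y = 0) → y = 0 := by
    intro y hy
    apply herm_nondeg hF
    intro w
    exact Cfsg.Agent.Lib.GUParab.herm_zero_conj hF (hy w)
  refine ⟨x, ⟨⟨fun u w => ?_, ?_⟩, ⟨1, ?_⟩, ?_, ?_, ?_⟩⟩
  · exact Cfsg.Agent.Lib.UnitaryE.E_unitary hF hvv hvy hss u w
  · show Matrix.GeneralLinearGroup.det _ = 1
    apply Units.ext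
    exact hdet
  · apply Matrix.toLin'.injective
    apply LinearMap.ext
    intro w
    rw [Matrix.toLin'_apply, Matrix.toLin'_apply, hk, hp0]
    simp
  · intro z hz
    obtain ⟨w, hw⟩ : ∃ w, hermForm n F q w v ≠ 0 := by
      by_contra hcon
      push Not at hcon
      exact hv0 (hnd v hcon)
    have h1 : z = 1 := by
      have h2 := hxv v
      rw [hvv, hz, Matrix.smul_mulVec, Matrix.one_mulVec] at h2
      simp only [mul_zero, zero_smul, add_zero] at h2
      have h3 : (z - 1) • v = 0 := by rw [sub_smul, one_smul, h2, sub_self]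
      exact sub_eq_zero.1 ((smul_eq_zero.1 h3).resolve_right hv0)
    have h2 := hxv w
    rw [hz, h1, one_smul, Matrix.one_mulVec] at h2
    have h3 : (s * hermForm n F q w v) • v = 0 := by
      have := h2
      nth_rewrite 1 [← add_zero w] at this
      exact (add_left_cancel this).symm
    rcases smul_eq_zero.1 h3 with h4 | h4
    · exact (mul_ne_zero hs0 hw) h4
    · exact hv0 h4
  · intro U W hP hU hW
    have hts : ∀ (A : Submodule F (Fin n → F)), (∀ u ∈ A, ∀ w ∈ A, hermForm n F q u w = 0) →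
        A.map (Matrix.toLin' (x : Matrix (Fin n) (Fin n) F)) = A → ∀ u ∈ A, hermForm n F q u v = 0 := by
      intro A hA hAx u hu
      by_contra hne
      have h1 : (x : Matrix (Fin n) (Fin n) F) *ᵥ u ∈ A := by
        rw [← hAx]
        exact ⟨u, hu, by rw [Matrix.toLin'_apply]⟩
      rw [hxv] at h1
      have h2 : (s * hermForm n F q u v) • v ∈ A := by
        have := A.sub_mem h1 hu
        simpa using this
      have h3 : v ∈ A := (A.smul_mem_iff (mul_ne_zero hs0 hne)).1 h2
      exact hne (hA u hu v h3)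
    apply hv0
    apply hnd
    intro w
    have hmem : w ∈ U ⊔ W := by
      rw [hP.compl.sup_eq_top]
      trivial
    obtain ⟨u, hu, z, hz, rfl⟩ := Submodule.mem_sup.1 hmem
    rw [herm_add_left, hts U hP.tsU hU u hu, hts W hP.tsW hW z hz, add_zero]
  · intro U W hP hU hW
    exact no_swap_rank_one hF hn hd x (κ := 1) (v := v) (fun w => ⟨s * hermForm n F q w v, by rw [hxv, one_smul]⟩) U W hP hU hW

/-- Diagonal elements. -/
noncomputable def diagX (a : Fin n → F) (ha : ∀ i, a i ≠ 0) : GL (Fin n) F :=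
  Matrix.GeneralLinearGroup.mkOfDetNeZero (Matrix.diagonal a) (by
    rw [Matrix.det_diagonal]
    exact Finset.prod_ne_zero_iff.2 fun i _ => ha i)

theorem diagX_val (a : Fin n → F) (ha : ∀ i, a i ≠ 0) : ((diagX a ha : GL (Fin n) F) : Matrix (Fin n) (Fin n) F) = Matrix.diagonal a := rfl

theorem diagX_mem (a : Fin n → F) (ha : ∀ i, a i ≠ 0) (hnorm : ∀ i, nrm q (a i) = 1) (hdet : ∏ i, a i = 1) :
    diagX a ha ∈ GU n F q ⊓ Cfsg.Geo.specialLinear (Fin n) F := by
  refine ⟨fun u v => diagonal_unitary hnorm u v, ?_⟩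
  show Matrix.GeneralLinearGroup.det _ = 1
  apply Units.ext
  show (Matrix.diagonal a).det = 1
  rw [Matrix.det_diagonal, hdet]

theorem diagX_pow (a : Fin n → F) (ha : ∀ i, a i ≠ 0) (k : ℕ) :
    ((diagX a ha ^ k : GL (Fin n) F) : Matrix (Fin n) (Fin n) F) = Matrix.diagonal (a ^ k) := by
  rw [Units.val_pow_eq_pow_val, diagX_val, Matrix.diagonal_pow]

theorem diagX_nofix (hF : Fintype.card F = q ^ 2) (a : Fin n → F) (ha : ∀ i, a i ≠ 0) (i0 : Fin n) (hi : ∀ i, i ≠ i0 → a i ≠ a i0) :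
    ∀ U W, IsPair n F q U W → U.map (Matrix.toLin' ((diagX a ha : GL (Fin n) F) : Matrix (Fin n) (Fin n) F)) = U →
    W.map (Matrix.toLin' ((diagX a ha : GL (Fin n) F) : Matrix (Fin n) (Fin n) F)) = W → False := by
  classical
  have he : hermForm n F q (Pi.single i0 1) (Pi.single i0 1) ≠ 0 := by
    rw [Cfsg.Agent.Lib.HermForm.hermForm_single_right hF]
    simp
  refine no_fix_eigenline hF _ (lam := a i0) he ?_ ?_
  · funext j
    rw [diagX_val, Matrix.mulVec_diagonal]
    by_cases hj : j = i0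
    · subst hj
      simp
    · simp [hj]
  · intro v hv
    refine ⟨v i0, ?_⟩
    funext j
    by_cases hj : j = i0
    · subst hj
      simp
    · have h1 := congrFun hv j
      rw [diagX_val, Matrix.mulVec_diagonal, Pi.smul_apply, smul_eq_mul] at h1
      have h2 : (a j - a i0) * v j = 0 := by linear_combination h1
      have h3 : v j = 0 := (mul_eq_zero.1 h2).resolve_left (sub_ne_zero.2 (hi j hj))
      simp [hj, h3]

theorem exists_zeta {r : ℕ} [hr : Fact r.Prime] (hF : Fintype.card F = q ^ 2) (hrq : r ∣ q + 1) :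
    ∃ ζ : F, ζ ≠ 0 ∧ ζ ≠ 1 ∧ ζ ^ r = 1 := by
  classical
  have hq2 := two_le_q hF
  have h1 : r ∣ Nat.card Fˣ := by
    rw [Nat.card_eq_fintype_card, Fintype.card_units, hF]
    have : q ^ 2 - 1 = (q + 1) * (q - 1) := by
      zify [Nat.one_le_pow 2 q (by omega), (by omega : 1 ≤ q)]
      ring
    rw [this]
    exact Dvd.dvd.mul_right hrq _
  obtain ⟨ζ, hζ⟩ := exists_prime_orderOf_dvd_card' r h1
  have hζr : ((ζ : F)) ^ r = 1 := by
    rw [← Units.val_pow_eq_pow_val, ← hζ, pow_orderOf_eq_one, Units.val_one]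
  refine ⟨ζ, ζ.ne_zero, ?_, hζr⟩
  intro h
  have : ζ = 1 := Units.ext h
  rw [this, orderOf_one] at hζ
  exact hr.out.one_lt.ne hζ

/-- The case `r ∣ q + 1`, `r` odd. -/
theorem exists_bad_C2 (hF : Fintype.card F = q ^ 2) (hn : n = 2 * d) (hd : 2 ≤ d) {r : ℕ} [hr : Fact r.Prime] (hr2 : r ≠ 2) (hrq : r ∣ q + 1) :
    ∃ x, Bad n F q r x := by
  classical
  have hq2 := two_le_q hF
  obtain ⟨ζ, hζ0, hζ1, hζr⟩ := exists_zeta hF hrq
  let i0 : Fin n := ⟨0, by omega⟩
  let i1 : Fin n := ⟨1, by omega⟩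
  let i2 : Fin n := ⟨2, by omega⟩
  have h01 : i0 ≠ i1 := by simp [i0, i1, Fin.ext_iff]
  have h02 : i0 ≠ i2 := by simp [i0, i2, Fin.ext_iff]
  have h12 : i1 ≠ i2 := by simp [i1, i2, Fin.ext_iff]
  let a : Fin n → F := fun i => if i = i0 then ζ else if i = i1 then ζ⁻¹ else 1
  have ha0 : a i0 = ζ := by simp [a]
  have ha1 : a i1 = ζ⁻¹ := by simp [a, h01.symm]
  have ha2 : a i2 = 1 := by simp [a, h02.symm, h12.symm]
  have ha : ∀ i, a i ≠ 0 := by
    intro i
    simp only [a]
    split_ifs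
    · exact hζ0
    · exact inv_ne_zero hζ0
    · exact one_ne_zero
  have hrodd : Odd r := hr.out.odd_of_ne_two hr2
  have hζ2 : ζ⁻¹ ≠ ζ := by
    intro h
    obtain ⟨k, hk⟩ := hrodd
    have h3 : ζ * ζ = 1 := by
      nth_rewrite 1 [← h]
      exact inv_mul_cancel₀ hζ0
    have h4 : ζ ^ r = ζ := by
      rw [hk, pow_succ, pow_mul, pow_two, h3, one_pow, one_mul]
    exact hζ1 (by rw [← h4, hζr])
  have hnζ : nrm q ζ = 1 := by
    rw [nrm_eq_pow]
    obtain ⟨c, hc⟩ := hrq
    rw [hc, pow_mul, hζr, one_pow]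
  have hnorm : ∀ i, nrm q (a i) = 1 := by
    intro i
    simp only [a]
    split_ifs
    · exact hnζ
    · rw [nrm, inv_pow, ← mul_inv, ← nrm, hnζ, inv_one]
    · exact nrm_one
  have hdet : ∏ i, a i = 1 := by
    rw [Finset.prod_eq_mul i0 i1 h01 (fun c _ hc => ?_) (fun h => absurd (Finset.mem_univ _) h) (fun h => absurd (Finset.mem_univ _) h)]
    · rw [ha0, ha1, mul_inv_cancel₀ hζ0]
    · simp [a, hc.1, hc.2]
  have hpow : a ^ r = 1 := by
    funext i
    simp only [Pi.pow_apply, a, Pi.one_apply]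
    split_ifs
    · exact hζr
    · rw [inv_pow, hζr, inv_one]
    · exact one_pow r
  have hxr : diagX a ha ^ r = 1 := by
    apply Units.ext
    rw [diagX_pow, hpow]
    simp
  refine ⟨diagX a ha, diagX_mem a ha hnorm hdet, ⟨1, by rw [hxr]; simp⟩, ?_, ?_, ?_⟩
  · intro z hz
    rw [diagX_val] at hz
    have h1 := congrFun (congrFun hz i0) i0
    have h2 := congrFun (congrFun hz i2) i2
    simp [ha0, ha2] at h1 h2
    exact hζ1 (by rw [h1, h2])
  · apply diagX_nofix hF a ha i0
    intro i hi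
    rw [ha0]
    simp only [a, if_neg hi]
    split_ifs
    · exact hζ2
    · exact hζ1.symm
  · intro U W hP hU hW
    exact no_swap_odd (by omega) hrodd _ hxr U W hP.compl hU hW

theorem two_ne_zero_of_odd_q (hF : Fintype.card F = q ^ 2) (hodd : Odd q) : (2 : F) ≠ 0 := by
  intro h
  obtain ⟨p, hp⟩ := CharP.exists F
  have h1 : ((2 : ℕ) : F) = 0 := by exact_mod_cast h
  rw [CharP.cast_eq_zero_iff F p] at h1
  obtain ⟨m, hm⟩ := FiniteField.card F p
  have hp2 : p = 2 := (Nat.prime_dvd_prime_iff_eq hm.1 Nat.prime_two).1 h1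
  have h3 := hm.2
  rw [hF, hp2] at h3
  have h4 : Even (q ^ 2) := by
    rw [h3]
    exact (Nat.even_pow' m.pos.ne').2 even_two
  have h5 : Odd (q ^ 2) := hodd.pow
  exact (Nat.not_even_iff_odd.2 h5) h4

/-- Elements of norm one with prescribed power. -/
theorem exists_nu (hF : Fintype.card F = q ^ 2) (hodd : Odd q) (hn0 : n ≠ 0) (hv : ¬ padicValNat 2 (q + 1) ≤ padicValNat 2 n) :
    ∃ ν : F, ν ≠ 0 ∧ ν ^ (q + 1) = 1 ∧ ν ^ n = -1 := by
  classical
  haveI : Fact (Nat.Prime 2) := ⟨Nat.prime_two⟩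
  have hq2 := two_le_q hF
  have h20 := two_ne_zero_of_odd_q hF hodd
  set a := padicValNat 2 n with ha
  have h1 : 2 ^ (a + 1) ∣ q + 1 := (padicValNat_dvd_iff_le (by omega)).2 (by omega)
  obtain ⟨c, hc⟩ := h1
  obtain ⟨n', hn'⟩ : 2 ^ a ∣ n := pow_padicValNat_dvd
  have hn'odd : Odd n' := by
    rw [← Nat.not_even_iff_odd]
    rintro ⟨t, ht⟩
    have : 2 ^ (a + 1) ∣ n := ⟨t, by rw [hn', ht]; ring⟩
    exact pow_succ_padicValNat_not_dvd hn0 this
  obtain ⟨g, hg⟩ := IsCyclic.exists_generator (α := Fˣ)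
  have hord : orderOf g = q ^ 2 - 1 := by
    rw [orderOf_eq_card_of_forall_mem_zpowers hg, Nat.card_eq_fintype_card, Fintype.card_units, hF]
  have hM : q ^ 2 - 1 = 2 ^ (a + 1) * c * (q - 1) := by
    rw [← hc]
    zify [Nat.one_le_pow 2 q (by omega), (by omega : 1 ≤ q)]
    ring
  have hgM : g ^ (q ^ 2 - 1) = 1 := by
    rw [← hord, pow_orderOf_eq_one]
  have hc0 : 0 < c := by
    rcases Nat.eq_zero_or_pos c with h | h
    · rw [h] at hc
      omega
    · exact h
  let ν : Fˣ := g ^ (c * (q - 1))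
  have hw : ν ^ (2 ^ a) = Units.mk0 (-1 : F) (neg_ne_zero.2 one_ne_zero) := by
    set w := ν ^ (2 ^ a) with hwd
    have h2 : w ^ 2 = 1 := by
      rw [hwd]
      simp only [ν]
      rw [← pow_mul, ← pow_mul, ← hgM, hM]
      congr 1
      ring
    have h3 : w ≠ 1 := by
      rw [hwd]
      simp only [ν]
      rw [← pow_mul]
      apply pow_ne_one_of_lt_orderOf
      · have : 0 < q - 1 := by omega
        positivity
      · rw [hord, hM, pow_succ]
        have h4 : 0 < c * (q - 1) * 2 ^ a := by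
          have : 0 < q - 1 := by omega
          positivity
        nlinarith
    apply Units.ext
    have h4 : ((w : Fˣ) : F) ^ 2 = 1 := by
      have := congrArg Units.val h2
      simpa using this
    have h5 : ((w : Fˣ) : F) ≠ 1 := fun h => h3 (Units.ext h)
    have h6 : (((w : Fˣ) : F) - 1) * (((w : Fˣ) : F) + 1) = 0 := by linear_combination h4
    have h7 := (mul_eq_zero.1 h6).resolve_left (sub_ne_zero.2 h5)
    simp only [Units.val_mk0]
    linear_combination h7
  refine ⟨ν, ν.ne_zero, ?_, ?_⟩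
  · have : ν ^ (q + 1) = 1 := by
      simp only [ν]
      rw [← pow_mul]
      have e : c * (q - 1) * (q + 1) = (q ^ 2 - 1) * c := by
        have h5 : q ^ 2 - 1 = (q + 1) * (q - 1) := by
          zify [Nat.one_le_pow 2 q (by omega), (by omega : 1 ≤ q)]
          ring
        rw [h5]
        ring
      rw [e, pow_mul, hgM, one_pow]
    have h3 := congrArg Units.val this
    simpa using h3
  · have h3 := congrArg Units.val hw
    simp only [Units.val_pow_eq_pow_val, Units.val_mk0] at h3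
    rw [hn', pow_mul, h3, hn'odd.neg_one_pow]

/-- The case `r = 2`, where the `2`-part of `q + 1` exceeds that of `n`. -/
theorem exists_bad_C3 (hF : Fintype.card F = q ^ 2) (hn : n = 2 * d) (hd : 2 ≤ d) (hodd : Odd q) (hv : ¬ padicValNat 2 (q + 1) ≤ padicValNat 2 n) :
    ∃ x, Bad n F q 2 x := by
  classical
  have hq2 := two_le_q hF
  have h20 := two_ne_zero_of_odd_q hF hodd
  obtain ⟨ν, hν0, hν1, hνn⟩ := exists_nu hF hodd (by omega) hv
  let i0 : Fin n := ⟨0, by omega⟩
  let i1 : Fin n := ⟨1, by omega⟩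
  have h01 : i0 ≠ i1 := by simp [i0, i1, Fin.ext_iff]
  let a : Fin n → F := fun i => if i = i0 then -ν else ν
  have ha0 : a i0 = -ν := by simp [a]
  have ha1 : ∀ i, i ≠ i0 → a i = ν := fun i hi => by simp [a, hi]
  have ha : ∀ i, a i ≠ 0 := by
    intro i
    simp only [a]
    split_ifs
    · exact neg_ne_zero.2 hν0
    · exact hν0
  have hnν : nrm q ν = 1 := by
    rw [nrm_eq_pow, hν1]
  have hnorm : ∀ i, nrm q (a i) = 1 := by
    intro i
    simp only [a]
    split_ifs
    · rw [show -ν = (-1) * ν by ring, nrm_mul', nrm_neg_one hF, hnν, one_mul]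
    · exact hnν
  have hdet : ∏ i, a i = 1 := by
    have h1 : ∀ i, a i = ν * (if i = i0 then -1 else 1) := by
      intro i
      simp only [a]
      split_ifs <;> ring
    simp only [h1]
    rw [Finset.prod_mul_distrib, Finset.prod_const, Finset.card_univ, Fintype.card_fin, hνn, Finset.prod_ite_eq']
    simp
  have hne : -ν ≠ ν := by
    intro h
    have h3 : (2 : F) * ν = 0 := by linear_combination -h
    exact (mul_ne_zero h20 hν0) h3
  refine ⟨diagX a ha, diagX_mem a ha hnorm hdet, ⟨ν ^ 2, ?_⟩, ?_, ?_, ?_⟩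
  · rw [diagX_pow]
    ext i j
    by_cases hij : i = j
    · subst hij
      simp only [Matrix.diagonal_apply_eq, Pi.pow_apply, Matrix.smul_apply, Matrix.one_apply_eq, smul_eq_mul, mul_one, a]
      split_ifs
      · ring
      · rfl
    · simp [hij]
  · intro z hz
    rw [diagX_val] at hz
    have h1 := congrFun (congrFun hz i0) i0
    have h2 := congrFun (congrFun hz i1) i1
    simp [ha0, ha1 i1 h01.symm] at h1 h2
    exact hne (by rw [h1, h2])
  · apply diagX_nofix hF a ha i0
    intro i hi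
    rw [ha0, ha1 i hi]
    exact hne.symm
  · intro U W hP hU hW
    refine no_swap_rank_one hF hn hd _ (κ := ν) (v := Pi.single i0 1) (fun w => ⟨-(2 * ν * w i0), ?_⟩) U W hP hU hW
    funext j
    rw [diagX_val, Matrix.mulVec_diagonal]
    by_cases hj : j = i0
    · rw [hj]
      simp [ha0]
      ring
    · simp [hj, ha1 j hj]

theorem ts_span (hF : Fintype.card F = q ^ 2) {m : ℕ} (f : Fin m → Fin n → F) (hf : ∀ i j, hermForm n F q (f i) (f j) = 0) :
    ∀ u ∈ Submodule.span F (Set.range f), ∀ v ∈ Submodule.span F (Set.range f), hermForm n F q u v = 0 := by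
  intro u hu v hv
  have h1 : ∀ i, hermForm n F q (f i) v = 0 := fun i =>
    Cfsg.Agent.Lib.GUParab.herm_span_right hF (fun j => hf i j) hv
  have h2 : ∀ i, hermForm n F q v (f i) = 0 := fun i => Cfsg.Agent.Lib.GUParab.herm_zero_conj hF (h1 i)
  exact Cfsg.Agent.Lib.GUParab.herm_zero_conj hF (Cfsg.Agent.Lib.GUParab.herm_span_right hF h2 hu)

/-- A nondegenerate space of even dimension is the sum of two totally singular ones. -/
theorem hypPair (hF : Fintype.card F = q ^ 2) (h20 : (2 : F) ≠ 0) {X : Submodule F (Fin n → F)} (hX : Cfsg.Agent.Lib.HermOrtho.ND q X) {m : ℕ}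
    (hm : finrank F X = m + m) :
    ∃ A B : Submodule F (Fin n → F), A ≤ X ∧ B ≤ X ∧ (∀ u ∈ A, ∀ v ∈ A, hermForm n F q u v = 0) ∧
      (∀ u ∈ B, ∀ v ∈ B, hermForm n F q u v = 0) ∧ A ⊔ B = X := by
  classical
  have hq2 := two_le_q hF
  obtain ⟨c, hcX, hco⟩ := Cfsg.Agent.Lib.HermOrtho.exists_orthonormal hF (m + m) X hm hX
  obtain ⟨a, ha⟩ := Cfsg.Agent.Lib.LawEmbed.exists_nrm_neg_one hF
  have ha' : a * a ^ q = -1 := ha
  have ha0 : a ≠ 0 := by
    rintro rfl
    simp [(by omega : q ≠ 0)] at ha'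
  let l : Fin m → Fin n → F := fun i => c (Fin.castAdd m i)
  let r : Fin m → Fin n → F := fun i => c (Fin.natAdd m i)
  have hll : ∀ i j, hermForm n F q (l i) (l j) = if i = j then 1 else 0 := by
    intro i j
    simp only [l, hco]
    simp [Fin.ext_iff]
  have hrr : ∀ i j, hermForm n F q (r i) (r j) = if i = j then 1 else 0 := by
    intro i j
    simp only [r, hco]
    simp [Fin.ext_iff]
  have hlr : ∀ i j, hermForm n F q (l i) (r j) = 0 := by
    intro i j
    simp only [l, r, hco]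
    rw [if_neg]
    simp [Fin.ext_iff]
    have := i.2
    omega
  have hrl : ∀ i j, hermForm n F q (r i) (l j) = 0 := fun i j => Cfsg.Agent.Lib.GUParab.herm_zero_conj hF (hlr j i)
  let α : Fin m → Fin n → F := fun i => l i + a • r i
  let β : Fin m → Fin n → F := fun i => l i + (-a) • r i
  have hαα : ∀ i j, hermForm n F q (α i) (α j) = 0 := by
    intro i j
    simp only [α, herm_add_left, herm_add_right hF, herm_smul_left, herm_smul_right, hll, hrr, hlr, hrl]
    split_ifs with hij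
    · linear_combination ha'
    · ring
  have hββ : ∀ i j, hermForm n F q (β i) (β j) = 0 := by
    intro i j
    have hneg : (-a) ^ q = -(a ^ q) := neg_pow_q hF a
    simp only [β, herm_add_left, herm_add_right hF, herm_smul_left, herm_smul_right, hll, hrr, hlr, hrl, hneg]
    split_ifs with hij
    · linear_combination ha'
    · ring
  refine ⟨Submodule.span F (Set.range α), Submodule.span F (Set.range β), ?_, ?_, ts_span hF α hαα, ts_span hF β hββ, ?_⟩
  · rw [Submodule.span_le]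
    rintro _ ⟨i, rfl⟩
    exact X.add_mem (hcX _) (X.smul_mem _ (hcX _))
  · rw [Submodule.span_le]
    rintro _ ⟨i, rfl⟩
    exact X.add_mem (hcX _) (X.smul_mem _ (hcX _))
  · apply le_antisymm
    · apply sup_le
      · rw [Submodule.span_le]
        rintro _ ⟨i, rfl⟩
        exact X.add_mem (hcX _) (X.smul_mem _ (hcX _))
      · rw [Submodule.span_le]
        rintro _ ⟨i, rfl⟩
        exact X.add_mem (hcX _) (X.smul_mem _ (hcX _))
    · rw [← Cfsg.Agent.Lib.HermOrtho.span_orthonormal hF hm hcX hco, Submodule.span_le]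
      rintro _ ⟨j, rfl⟩
      have hα : ∀ i, α i ∈ Submodule.span F (Set.range α) ⊔ Submodule.span F (Set.range β) := fun i =>
        Submodule.mem_sup_left (Submodule.subset_span ⟨i, rfl⟩)
      have hβ : ∀ i, β i ∈ Submodule.span F (Set.range α) ⊔ Submodule.span F (Set.range β) := fun i =>
        Submodule.mem_sup_right (Submodule.subset_span ⟨i, rfl⟩)
      induction j using Fin.addCases with
      | left i =>
        have e : c (Fin.castAdd m i) = (2 : F)⁻¹ • (α i + β i) := by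
          have : α i + β i = (2 : F) • l i := by
            simp only [α, β, neg_smul, two_smul]
            abel
          rw [this, smul_smul, inv_mul_cancel₀ h20, one_smul]
        show c (Fin.castAdd m i) ∈ _
        rw [e]
        exact Submodule.smul_mem _ _ (Submodule.add_mem _ (hα i) (hβ i))
      | right i =>
        have e : c (Fin.natAdd m i) = ((2 : F) * a)⁻¹ • (α i - β i) := by
          have : α i - β i = ((2 : F) * a) • r i := by
            simp only [α, β, neg_smul, two_mul, add_smul]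
            abel
          rw [this, smul_smul, inv_mul_cancel₀ (mul_ne_zero h20 ha0), one_smul]
        show c (Fin.natAdd m i) ∈ _
        rw [e]
        exact Submodule.smul_mem _ _ (Submodule.sub_mem _ (hα i) (hβ i))

theorem isPair_of_dims (hF : Fintype.card F = q ^ 2) (hn : n = 2 * d) {U W : Submodule F (Fin n → F)}
    (hU : ∀ u ∈ U, ∀ v ∈ U, hermForm n F q u v = 0) (hW : ∀ u ∈ W, ∀ v ∈ W, hermForm n F q u v = 0) (hs : U ⊔ W = ⊤) : IsPair n F q U W := by
  refine ⟨⟨?_, codisjoint_iff.2 hs⟩, hU, hW⟩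
  have h1 := finrank_le_of_ts hF U hU
  have h2 := finrank_le_of_ts hF W hW
  have h3 := Submodule.finrank_sup_add_finrank_inf_eq U W
  rw [hs, finrank_top, Module.finrank_fin_fun] at h3
  have h4 : finrank F (U ⊓ W : Submodule F (Fin n → F)) = 0 := by omega
  rw [disjoint_iff]
  exact Submodule.finrank_eq_zero.1 h4

/-- Existence of a fixed pair, for elements whose square is scalar. -/
theorem exists_fixed_pair (hF : Fintype.card F = q ^ 2) (hn : n = 2 * d) (hd : 1 ≤ d) (hodd : Odd q)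
    (hv : padicValNat 2 (q + 1) ≤ padicValNat 2 n) (x : GL (Fin n) F) (hx : x ∈ GU n F q ⊓ Cfsg.Geo.specialLinear (Fin n) F) {z : F}
    (hz : ((x ^ 2 : GL (Fin n) F) : Matrix (Fin n) (Fin n) F) = z • (1 : Matrix (Fin n) (Fin n) F)) :
    ∃ U W, IsPair n F q U W ∧ U.map (Matrix.toLin' (x : Matrix (Fin n) (Fin n) F)) = U ∧
      W.map (Matrix.toLin' (x : Matrix (Fin n) (Fin n) F)) = W := by
  classical
  haveI : Fact (Nat.Prime 2) := ⟨Nat.prime_two⟩
  have hq2 := two_le_q hF
  have hq0 : q ≠ 0 := by omega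
  have h20 := two_ne_zero_of_odd_q hF hodd
  set A : Matrix (Fin n) (Fin n) F := (x : Matrix (Fin n) (Fin n) F) with hAdef
  have hA : ∀ u v, hermForm n F q (A *ᵥ u) (A *ᵥ v) = hermForm n F q u v := hx.1
  have hdet : A.det = 1 := by
    have := congrArg Units.val (show Matrix.GeneralLinearGroup.det x = 1 from hx.2)
    simpa using this
  have hAA : ∀ v, A *ᵥ (A *ᵥ v) = z • v := by
    intro v
    rw [Matrix.mulVec_mulVec, ← sq]
    have : A ^ 2 = z • (1 : Matrix (Fin n) (Fin n) F) := by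
      rw [← hz, Units.val_pow_eq_pow_val]
    rw [this, Matrix.smul_mulVec, Matrix.one_mulVec]
  let i0 : Fin n := ⟨0, by omega⟩
  let e0 : Fin n → F := Pi.single i0 1
  have he0 : hermForm n F q e0 e0 = 1 := by
    simp only [e0]
    rw [Cfsg.Agent.Lib.HermForm.hermForm_single_right hF]
    simp
  have hzn : z * z ^ q = 1 := by
    have h1 : hermForm n F q (A *ᵥ (A *ᵥ e0)) (A *ᵥ (A *ᵥ e0)) = hermForm n F q e0 e0 := by rw [hA, hA]
    rw [hAA, herm_smul_left, herm_smul_right, he0, mul_one] at h1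
    exact h1
  have hz0 : z ≠ 0 := by
    rintro rfl
    simp [hq0] at hzn
  obtain ⟨m, hm⟩ := hodd
  have hchar : ringChar F ≠ 2 := by
    intro h
    have : (2 : F) = 0 := by
      have h1 := ringChar.Nat.cast_ringChar (R := F)
      rw [h] at h1
      exact_mod_cast h1
    exact h20 this
  have hsq : IsSquare z := by
    rw [FiniteField.isSquare_iff hchar hz0, hF]
    have h1 : q ^ 2 / 2 = (q + 1) * m := by
      have e1 : q ^ 2 = 2 * ((q + 1) * m) + 1 := by
        rw [hm]
        ring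
      omega
    rw [h1, pow_mul]
    have h2 : z ^ (q + 1) = 1 := by
      rw [pow_succ, mul_comm]
      exact hzn
    rw [h2, one_pow]
  obtain ⟨ν, hν⟩ := hsq
  have hν0 : ν ≠ 0 := by
    rintro rfl
    simp at hν
    exact hz0 hν
  have h2ν : (2 : F) * ν ≠ 0 := mul_ne_zero h20 hν0
  have hnrm : (ν * ν ^ q - 1) * (ν * ν ^ q + 1) = 0 := by
    rw [hν, mul_pow] at hzn
    linear_combination hzn
  -- the eigenspaces
  let Ep : Submodule F (Fin n → F) := LinearMap.ker (Matrix.toLin' A - ν • LinearMap.id)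
  let Em : Submodule F (Fin n → F) := LinearMap.ker (Matrix.toLin' A + ν • LinearMap.id)
  have hEp : ∀ v, v ∈ Ep ↔ A *ᵥ v = ν • v := by
    intro v
    simp only [Ep, LinearMap.mem_ker, LinearMap.sub_apply, Matrix.toLin'_apply, LinearMap.smul_apply, LinearMap.id_apply, sub_eq_zero]
  have hEm : ∀ v, v ∈ Em ↔ A *ᵥ v = (-ν) • v := by
    intro v
    simp only [Em, LinearMap.mem_ker, LinearMap.add_apply, Matrix.toLin'_apply, LinearMap.smul_apply, LinearMap.id_apply, neg_smul]
    exact add_eq_zero_iff_eq_neg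
  have hdec : ∀ w, ∃ u ∈ Ep, ∃ v ∈ Em, u + v = w := by
    intro w
    refine ⟨((2 : F) * ν)⁻¹ • (A *ᵥ w + ν • w), ?_, ((2 : F) * ν)⁻¹ • (ν • w - A *ᵥ w), ?_, ?_⟩
    · rw [hEp, Matrix.mulVec_smul, Matrix.mulVec_add, Matrix.mulVec_smul, hAA, hν, smul_comm]
      congr 1
      rw [smul_add, smul_smul, add_comm]
    · rw [hEm, Matrix.mulVec_smul, Matrix.mulVec_sub, Matrix.mulVec_smul, hAA, hν, smul_comm]
      congr 1
      rw [smul_sub, smul_smul, neg_smul]
      have : (-ν * ν) • w = -((ν * ν) • w) := by rw [neg_mul, neg_smul]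
      rw [this]
      abel
    · rw [← smul_add]
      have : A *ᵥ w + ν • w + (ν • w - A *ᵥ w) = ((2 : F) * ν) • w := by
        rw [two_mul, add_smul]
        abel
      rw [this, smul_smul, inv_mul_cancel₀ h2ν, one_smul]
  have hinf : Ep ⊓ Em = ⊥ := by
    rw [Submodule.eq_bot_iff]
    rintro w ⟨h1, h2⟩
    have h3 := ((hEp w).1 h1).symm.trans ((hEm w).1 h2)
    have h4 : ((2 : F) * ν) • w = 0 := by
      rw [two_mul, add_smul]
      nth_rewrite 1 [h3]
      simp
    exact (smul_eq_zero.1 h4).resolve_left h2ν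
  have hsup : Ep ⊔ Em = ⊤ := by
    rw [eq_top_iff]
    intro w _
    obtain ⟨u, hu, v, hv, rfl⟩ := hdec w
    exact Submodule.add_mem_sup hu hv
  have hc : IsCompl Ep Em := ⟨disjoint_iff.2 hinf, codisjoint_iff.2 hsup⟩
  have hstable : ∀ {lam : F} (X : Submodule F (Fin n → F)), (∀ v ∈ X, A *ᵥ v = lam • v) → X.map (Matrix.toLin' A) = X := by
    intro lam X hX
    apply map_eq_of_le' x
    rintro _ ⟨v, hv, rfl⟩
    rw [Matrix.toLin'_apply, hX v hv]
    exact X.smul_mem _ hv
  have hpol : ∀ (a b : F) (u v : Fin n → F), A *ᵥ u = a • u → A *ᵥ v = b • v → a * b ^ q = -1 → hermForm n F q u v = 0 := by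
    intro a b u v hu hv hab
    have h1 := hA u v
    rw [hu, hv, herm_smul_left, herm_smul_right, ← mul_assoc, hab] at h1
    have h3 : (2 : F) * hermForm n F q u v = 0 := by linear_combination -h1
    exact (mul_eq_zero.1 h3).resolve_left h20
  have hνq : (-ν) ^ q = -(ν ^ q) := neg_pow_q hF ν
  rcases mul_eq_zero.1 hnrm with hcase | hcase
  · -- norm one
    have hn1 : ν * ν ^ q = 1 := sub_eq_zero.1 hcase
    have hnν : ν ^ (q + 1) = 1 := by
      rw [pow_succ, mul_comm]
      exact hn1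
    have horth : ∀ u ∈ Ep, ∀ v ∈ Em, hermForm n F q u v = 0 := by
      intro u hu v hv
      apply hpol ν (-ν) u v ((hEp u).1 hu) ((hEm v).1 hv)
      rw [hνq]
      linear_combination -hn1
    have horth' : ∀ u ∈ Em, ∀ v ∈ Ep, hermForm n F q u v = 0 := fun u hu v hv =>
      Cfsg.Agent.Lib.GUParab.herm_zero_conj hF (horth v hv u hu)
    have hNDp : Cfsg.Agent.Lib.HermOrtho.ND q Ep := by
      intro u hu hperp
      apply herm_nondeg hF
      intro w
      obtain ⟨a, ha, b, hb, rfl⟩ := hdec w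
      rw [herm_add_right hF, hperp a ha, horth u hu b hb, add_zero]
    have hNDm : Cfsg.Agent.Lib.HermOrtho.ND q Em := by
      intro u hu hperp
      apply herm_nondeg hF
      intro w
      obtain ⟨a, ha, b, hb, rfl⟩ := hdec w
      rw [herm_add_right hF, hperp b hb, horth' u hu a ha, zero_add]
    -- dimensions
    let b₁ := Module.finBasis F Ep
    let b₂ := Module.finBasis F Em
    let e : Basis (Fin (finrank F Ep) ⊕ Fin (finrank F Em)) F (Fin n → F) := (b₁.prod b₂).map (Submodule.prodEquivOfIsCompl Ep Em hc)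
    have he1 : ∀ i, e (Sum.inl i) = (b₁ i : Fin n → F) := by
      intro i
      simp [e]
    have he2 : ∀ i, e (Sum.inr i) = (b₂ i : Fin n → F) := by
      intro i
      simp [e]
    have hdetA := Cfsg.Agent.S5971.det_of_basis (Matrix.toLin' A) e (Sum.elim (fun _ => ν) (fun _ => -ν)) (by
      rintro (i | i)
      · rw [he1, Matrix.toLin'_apply]
        exact (hEp _).1 (b₁ i).2
      · rw [he2, Matrix.toLin'_apply]
        exact (hEm _).1 (b₂ i).2)
    rw [LinearMap.det_toLin', hdet, Fintype.prod_sum_type] at hdetA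
    simp only [Sum.elim_inl, Sum.elim_inr, Finset.prod_const, Finset.card_univ, Fintype.card_fin] at hdetA
    have hdim := Submodule.finrank_add_eq_of_isCompl hc
    rw [Module.finrank_fin_fun] at hdim
    have hevenb : Even (finrank F Em) := by
      by_contra hodd2
      rw [Nat.not_even_iff_odd] at hodd2
      rw [neg_pow, hodd2.neg_one_pow, ← mul_assoc, mul_comm _ (-1 : F), mul_assoc, ← pow_add, hdim] at hdetA
      have hνn : ν ^ n = -1 := by linear_combination hdetA
      set B := padicValNat 2 (q + 1) with hB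
      obtain ⟨t, ht⟩ : 2 ^ B ∣ q + 1 := pow_padicValNat_dvd
      have htodd : Odd t := by
        rw [← Nat.not_even_iff_odd]
        rintro ⟨t', ht'⟩
        have : 2 ^ (B + 1) ∣ q + 1 := ⟨t', by rw [ht, ht']; ring⟩
        exact pow_succ_padicValNat_not_dvd (by omega) this
      obtain ⟨n₂, hn₂⟩ : 2 ^ B ∣ n := (padicValNat_dvd_iff_le (by omega)).2 hv
      have h1 : ν ^ (n * t) = 1 := by
        have : n * t = (q + 1) * n₂ := by
          rw [hn₂, ht]
          ring
        rw [this, pow_mul, hnν, one_pow]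
      rw [pow_mul, hνn, htodd.neg_one_pow] at h1
      have h3 : (2 : F) = 0 := by linear_combination -h1
      exact h20 h3
    have hevena : Even (finrank F Ep) := by
      have : Even (finrank F Ep + finrank F Em) := by
        rw [hdim, hn]
        exact even_two_mul d
      exact (Nat.even_add.1 this).2 hevenb
    obtain ⟨m₁, hm₁⟩ := hevena
    obtain ⟨m₂, hm₂⟩ := hevenb
    obtain ⟨A₁, B₁, hA₁, hB₁, hAs₁, hBs₁, hAB₁⟩ := hypPair hF h20 hNDp hm₁
    obtain ⟨A₂, B₂, hA₂, hB₂, hAs₂, hBs₂, hAB₂⟩ := hypPair hF h20 hNDm hm₂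
    have hts : ∀ (P₁ P₂ : Submodule F (Fin n → F)), P₁ ≤ Ep → P₂ ≤ Em → (∀ u ∈ P₁, ∀ v ∈ P₁, hermForm n F q u v = 0) →
        (∀ u ∈ P₂, ∀ v ∈ P₂, hermForm n F q u v = 0) → ∀ u ∈ P₁ ⊔ P₂, ∀ v ∈ P₁ ⊔ P₂, hermForm n F q u v = 0 := by
      intro P₁ P₂ h1 h2 h3 h4 u hu v hv
      obtain ⟨u₁, hu₁, u₂, hu₂, rfl⟩ := Submodule.mem_sup.1 hu
      obtain ⟨v₁, hv₁, v₂, hv₂, rfl⟩ := Submodule.mem_sup.1 hv
      rw [herm_add_left, herm_add_right hF, herm_add_right hF, h3 _ hu₁ _ hv₁, h4 _ hu₂ _ hv₂,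
        horth _ (h1 hu₁) _ (h2 hv₂), horth' _ (h2 hu₂) _ (h1 hv₁)]
      ring
    have hstable2 : ∀ (P₁ P₂ : Submodule F (Fin n → F)), P₁ ≤ Ep → P₂ ≤ Em →
        (P₁ ⊔ P₂).map (Matrix.toLin' A) = P₁ ⊔ P₂ := by
      intro P₁ P₂ h1 h2
      apply map_eq_of_le' x
      rintro _ ⟨v, hv, rfl⟩
      obtain ⟨v₁, hv₁, v₂, hv₂, rfl⟩ := Submodule.mem_sup.1 hv
      rw [Matrix.toLin'_apply, Matrix.mulVec_add, (hEp _).1 (h1 hv₁), (hEm _).1 (h2 hv₂)]
      exact Submodule.add_mem_sup (P₁.smul_mem _ hv₁) (P₂.smul_mem _ hv₂)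
    refine ⟨A₁ ⊔ A₂, B₁ ⊔ B₂, isPair_of_dims hF hn (hts _ _ hA₁ hA₂ hAs₁ hAs₂) (hts _ _ hB₁ hB₂ hBs₁ hBs₂) ?_,
      hstable2 _ _ hA₁ hA₂, hstable2 _ _ hB₁ hB₂⟩
    rw [sup_sup_sup_comm, hAB₁, hAB₂, hsup]
  · -- norm minus one
    have hn1 : ν * ν ^ q = -1 := by linear_combination hcase
    refine ⟨Ep, Em, ⟨hc, ?_, ?_⟩, hstable Ep (fun v hv => (hEp v).1 hv), hstable Em (fun v hv => (hEm v).1 hv)⟩
    · intro u hu v hv
      exact hpol ν ν u v ((hEp u).1 hu) ((hEp v).1 hv) hn1
    · intro u hu v hv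
      apply hpol (-ν) (-ν) u v ((hEm u).1 hu) ((hEm v).1 hv)
      rw [hνq]
      linear_combination hn1

section Abstract

variable {X : Type*} [AddCommGroup X] [Module F X] [FiniteDimensional F X] (H : X → X → F)
  (hadd : ∀ x y v, H (x + y) v = H x v + H y v) (hsmul : ∀ (c : F) x v, H (c • x) v = c * H x v)
  (hherm : ∀ v w, H v w = (H w v) ^ q)

include hadd hsmul hherm

theorem H_add_right (hF : Fintype.card F = q ^ 2) (u v w : X) : H u (v + w) = H u v + H u w := by
  rw [hherm, hadd, add_pow_q hF, ← hherm, ← hherm]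

theorem H_smul_right (c : F) (u v : X) : H u (c • v) = c ^ q * H u v := by
  rw [hherm, hsmul, mul_pow, ← hherm]

theorem H_conj_zero (hF : Fintype.card F = q ^ 2) {u v : X} (h : H u v = 0) : H v u = 0 := by
  rw [hherm, h]
  exact zero_pow (by have := two_le_q hF; omega)

theorem H_zero_left (v : X) : H 0 v = 0 := by
  have := hsmul 0 0 v
  simpa using this

theorem H_zero_right (hF : Fintype.card F = q ^ 2) (v : X) : H v 0 = 0 :=
  H_conj_zero H hadd hsmul hherm hF (H_zero_left H hadd hsmul hherm v)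

theorem H_sub_left (x y v : X) : H (x - y) v = H x v - H y v := by
  have h1 := hadd (x - y) y v
  rw [sub_add_cancel] at h1
  rw [h1]
  ring

theorem H_sum_left {ι : Type*} (s : Finset ι) (f : ι → X) (v : X) : H (∑ i ∈ s, f i) v = ∑ i ∈ s, H (f i) v := by
  classical
  induction s using Finset.induction_on with
  | empty => simp [H_zero_left H hadd hsmul hherm]
  | insert a s ha ih => rw [Finset.sum_insert ha, Finset.sum_insert ha, hadd, ih]

theorem H_sum_right (hF : Fintype.card F = q ^ 2) {ι : Type*} (s : Finset ι) (f : ι → X) (u : X) : H u (∑ i ∈ s, f i) = ∑ i ∈ s, H u (f i) := by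
  classical
  induction s using Finset.induction_on with
  | empty => simp [H_zero_right H hadd hsmul hherm hF]
  | insert a s ha ih => rw [Finset.sum_insert ha, Finset.sum_insert ha, H_add_right H hadd hsmul hherm hF, ih]

/-- A nonzero nondegenerate subspace has a vector of norm one. -/
theorem H_exists_norm_one (hF : Fintype.card F = q ^ 2) {W : Submodule F X}
    (hW : ∀ u ∈ W, (∀ v ∈ W, H u v = 0) → u = 0) (hne : W ≠ ⊥) : ∃ x ∈ W, H x x = 1 := by
  have hr := H_add_right H hadd hsmul hherm hF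
  have hs := H_smul_right H hadd hsmul hherm
  obtain ⟨x, hx, hxc⟩ : ∃ x ∈ W, H x x ≠ 0 := by
    by_contra hcon
    push Not at hcon
    apply hne
    rw [eq_bot_iff]
    intro u hu
    rw [Submodule.mem_bot]
    apply hW u hu
    intro v hv
    by_contra ht
    set t := H u v with hdef
    obtain ⟨a, ha⟩ := Cfsg.Agent.Lib.UnitaryE.exists_trace_one hF
    have h1 := hcon (u + (a * (t ^ q)⁻¹) • v) (W.add_mem hu (W.smul_mem _ hv))
    have htq : t ^ q ≠ 0 := pow_ne_zero _ ht
    rw [hadd, hr, hr, hcon u hu, hs, hsmul, hsmul, hs, hcon v hv, hherm v u, ← hdef, mul_pow, inv_pow] at h1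
    have h3 : (t ^ q) ^ q = t := pow_q_pow_q hF t
    rw [h3] at h1
    have h4 : (t⁻¹) * t = 1 := inv_mul_cancel₀ ht
    have h5 : (t ^ q)⁻¹ * t ^ q = 1 := inv_mul_cancel₀ htq
    apply one_ne_zero (α := F)
    calc (1 : F) = a + a ^ q := ha.symm
      _ = a ^ q * (t⁻¹ * t) + a * ((t ^ q)⁻¹ * t ^ q) := by rw [h4, h5]; ring
      _ = 0 := by linear_combination h1
  have hcq : (H x x) ^ q = H x x := (hherm x x).symm
  obtain ⟨a, ha0, ha⟩ := Cfsg.Agent.Lib.FFNorm.exists_norm_eq hF (inv_ne_zero hxc) (by rw [inv_pow, hcq])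
  refine ⟨a • x, W.smul_mem _ hx, ?_⟩
  rw [hsmul, hs, ← mul_assoc, mul_comm a, ← pow_succ, ha, inv_mul_cancel₀ hxc]

/-- Orthonormal families. -/
theorem H_exists_orthonormal (hF : Fintype.card F = q ^ 2) (k : ℕ) : ∀ (W : Submodule F X), finrank F W = k →
    (∀ u ∈ W, (∀ v ∈ W, H u v = 0) → u = 0) →
    ∃ c : Fin k → X, (∀ i, c i ∈ W) ∧ ∀ i j, H (c i) (c j) = if i = j then 1 else 0 := by
  have hr := H_add_right H hadd hsmul hherm hF
  have hs := H_smul_right H hadd hsmul hherm
  induction k with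
  | zero =>
    intro W _ _
    exact ⟨Fin.elim0, fun i => i.elim0, fun i => i.elim0⟩
  | succ k ih =>
    intro W hWk hW
    have hne : W ≠ ⊥ := by
      rintro rfl
      simp at hWk
    obtain ⟨x, hxW, hxx⟩ := H_exists_norm_one H hadd hsmul hherm hF hW hne
    let L : X →ₗ[F] F := { toFun := fun u => H u x, map_add' := fun a b => hadd a b x, map_smul' := fun c a => hsmul c a x }
    let W' : Submodule F X := W ⊓ LinearMap.ker L
    have hmem : ∀ u, u ∈ W' ↔ u ∈ W ∧ H u x = 0 := fun u => by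
      simp only [W', Submodule.mem_inf, LinearMap.mem_ker]
      rfl
    have hxW' : x ∉ W' := by
      intro hh
      rw [hmem, hxx] at hh
      exact one_ne_zero hh.2
    have hsub : ∀ v ∈ W, v - (H v x) • x ∈ W' := by
      intro v hv
      rw [hmem]
      refine ⟨W.sub_mem hv (W.smul_mem _ hxW), ?_⟩
      rw [H_sub_left H hadd hsmul hherm, hsmul, hxx, mul_one, sub_self]
    have hsup : W' ⊔ Submodule.span F {x} = W := by
      apply le_antisymm
      · apply sup_le inf_le_left
        rwa [Submodule.span_singleton_le_iff_mem]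
      · intro v hv
        have h3 : v = (v - (H v x) • x) + (H v x) • x := by abel
        rw [h3]
        exact Submodule.add_mem_sup (hsub v hv) (Submodule.smul_mem _ _ (Submodule.mem_span_singleton_self x))
    have hfin : finrank F W' = k := by
      have := Submodule.finrank_sup_span_singleton hxW'
      rw [hsup, hWk] at this
      omega
    have hND : ∀ u ∈ W', (∀ v ∈ W', H u v = 0) → u = 0 := by
      intro u hu hperp
      obtain ⟨huW, hux⟩ := (hmem u).1 hu
      apply hW u huW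
      intro v hv
      have h3 := hperp _ (hsub v hv)
      have h4 : v = (v - (H v x) • x) + (H v x) • x := by abel
      rw [h4, hr, hs, hux, mul_zero, add_zero]
      exact h3
    obtain ⟨c, hcW, hco⟩ := ih W' hfin hND
    refine ⟨Fin.cons x c, ?_, ?_⟩
    · intro i
      induction i using Fin.cases with
      | zero => simpa using hxW
      | succ i => simpa using ((hmem _).1 (hcW i)).1
    · intro i j
      induction i using Fin.cases with
      | zero =>
        induction j using Fin.cases with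
        | zero => simpa using hxx
        | succ j =>
          have := ((hmem _).1 (hcW j)).2
          simpa [Fin.succ_ne_zero, (Fin.succ_ne_zero j).symm] using H_conj_zero H hadd hsmul hherm hF this
      | succ i =>
        induction j using Fin.cases with
        | zero =>
          have := ((hmem _).1 (hcW i)).2
          simpa [Fin.succ_ne_zero] using this
        | succ j =>
          simpa [Fin.succ_inj] using hco i j

/-- Every nondegenerate Hermitian form over a finite field is the standard one. -/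
theorem exists_herm_equiv (hF : Fintype.card F = q ^ 2) (hnd : ∀ v, (∀ w, H v w = 0) → v = 0) {k : ℕ} (hk : finrank F X = k) :
    ∃ E : (Fin k → F) ≃ₗ[F] X, ∀ u v, H (E u) (E v) = hermForm k F q u v := by
  classical
  have hr := H_add_right H hadd hsmul hherm hF
  have hs := H_smul_right H hadd hsmul hherm
  obtain ⟨c, -, hco⟩ := H_exists_orthonormal H hadd hsmul hherm hF k ⊤ (by rw [finrank_top, hk]) (fun u _ hu => hnd u (fun v => hu v trivial))
  let b : Basis (Fin k) F (Fin k → F) := Pi.basisFun F _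
  let E0 : (Fin k → F) →ₗ[F] X := b.constr F c
  have hE0 : ∀ v, E0 v = ∑ i, v i • c i := by
    intro v
    simp only [E0, Module.Basis.constr_apply_fintype]
    refine Finset.sum_congr rfl fun i _ => ?_
    simp [b]
  have hform : ∀ u v, H (E0 u) (E0 v) = hermForm k F q u v := by
    intro u v
    rw [hE0, hE0, H_sum_left H hadd hsmul hherm]
    refine Finset.sum_congr rfl fun i _ => ?_
    rw [hsmul, H_sum_right H hadd hsmul hherm hF]
    congr 1
    simp only [hs, hco]
    rw [Finset.sum_eq_single i]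
    · simp
    · intro j _ hj
      simp [hj.symm]
    · simp
  have hinj : Function.Injective E0 := by
    rw [← LinearMap.ker_eq_bot, LinearMap.ker_eq_bot']
    intro u hu
    apply herm_nondeg hF
    intro v
    rw [← hform, hu, H_zero_left H hadd hsmul hherm]
  let E : (Fin k → F) ≃ₗ[F] X := LinearEquiv.ofInjectiveOfFinrankEq E0 hinj (by rw [Module.finrank_fin_fun, hk])
  exact ⟨E, fun u v => hform u v⟩

end Abstract

section KModel

variable {K : Type*} [Field K] [Fintype K] [Algebra F K] (τ : K →+* K)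

/-- The Hermitian form on the extension field. -/
noncomputable def HK (F : Type*) [Field F] [Fintype F] {K : Type*} [Field K] [Fintype K] [Algebra F K] (τ : K →+* K) (u v : K) : F :=
  Algebra.trace F K (u * τ v)

theorem trace_tau (hτF : ∀ c : F, τ (algebraMap F K c) = algebraMap F K (c ^ q)) (b : K) :
    Algebra.trace F K (τ b) = (Algebra.trace F K b) ^ q := by
  apply (algebraMap F K).injective
  rw [← hτF, FiniteField.algebraMap_trace_eq_sum_pow, FiniteField.algebraMap_trace_eq_sum_pow, map_sum]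
  simp only [map_pow]

theorem HK_add (x y v : K) : HK F τ (x + y) v = HK F τ x v + HK F τ y v := by
  simp only [HK, add_mul, map_add]

theorem HK_smul (c : F) (x v : K) : HK F τ (c • x) v = c * HK F τ x v := by
  simp only [HK]
  have e : c • x * τ v = c • (x * τ v) := by
    rw [Algebra.smul_def, Algebra.smul_def]
    ring
  rw [e, LinearMap.map_smul, smul_eq_mul]

theorem HK_herm (hτ2 : ∀ a, τ (τ a) = a) (hτF : ∀ c : F, τ (algebraMap F K c) = algebraMap F K (c ^ q)) (v w : K) :
    HK F τ v w = (HK F τ w v) ^ q := by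
  simp only [HK]
  rw [← trace_tau τ hτF, map_mul τ, hτ2, mul_comm]

theorem HK_nd (hτ2 : ∀ a, τ (τ a) = a) (u : K) (hu : ∀ w, HK F τ u w = 0) : u = 0 := by
  apply (traceForm_nondegenerate F K).1
  intro z
  have := hu (τ z)
  simp only [HK, hτ2] at this
  simpa [Algebra.traceForm_apply] using this

theorem HK_mul {ζ : K} (hζ : ζ * τ ζ = 1) (u v : K) : HK F τ (ζ * u) (ζ * v) = HK F τ u v := by
  simp only [HK, map_mul]
  congr 1
  calc ζ * u * (τ ζ * τ v) = (ζ * τ ζ) * (u * τ v) := by ring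
    _ = _ := by rw [hζ, one_mul]

/-- Existence of the element, given the model. -/
theorem exists_x_model (hF : Fintype.card F = q ^ 2) {j m r : ℕ} (hK : finrank F K = j) (hτ2 : ∀ a, τ (τ a) = a)
    (hτF : ∀ c : F, τ (algebraMap F K c) = algebraMap F K (c ^ q)) {ζ : K} (hζ : ζ * τ ζ = 1) (hζr : ζ ^ r = 1) (hζ1 : ζ ≠ 1) (hm : 1 ≤ m) :
    ∃ x : GL (Fin (j + m)) F, x ∈ GU (j + m) F q ∧ x ^ r = 1 ∧
      (∀ z : F, (x : Matrix (Fin (j + m)) (Fin (j + m)) F) ≠ z • (1 : Matrix (Fin (j + m)) (Fin (j + m)) F)) ∧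
      finrank F (LinearMap.ker (Matrix.toLin' (x : Matrix (Fin (j + m)) (Fin (j + m)) F) - 1)) = m := by
  classical
  have hq2 := two_le_q hF
  let Hs : (K × (Fin m → F)) → (K × (Fin m → F)) → F := fun a b => HK F τ a.1 b.1 + hermForm m F q a.2 b.2
  have hfin : finrank F (K × (Fin m → F)) = j + m := by
    rw [Module.finrank_prod, hK, Module.finrank_fin_fun]
  obtain ⟨E, hE⟩ := exists_herm_equiv (q := q) Hs
    (by
      intro x y v
      simp only [Hs, Prod.fst_add, Prod.snd_add, HK_add, herm_add_left]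
      ring)
    (by
      intro c x v
      simp only [Hs, Prod.smul_fst, Prod.smul_snd, HK_smul, herm_smul_left]
      ring)
    (by
      intro v w
      simp only [Hs]
      rw [add_pow_q hF, ← HK_herm (F := F) τ hτ2 hτF, herm_conj hF])
    hF
    (by
      intro v hv
      apply Prod.ext
      · apply HK_nd (F := F) τ hτ2
        intro w
        have := hv (w, 0)
        simp only [Hs] at this
        rw [Cfsg.Agent.Lib.HermForm.hermForm_zero_right hF, add_zero] at this
        exact this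
      · apply herm_nondeg hF
        intro w
        have := hv (0, w)
        simp only [Hs] at this
        have h0 : HK F τ v.1 (0 : K) = 0 := by simp [HK]
        rw [h0, zero_add] at this
        exact this)
    hfin
  let T : (K × (Fin m → F)) →ₗ[F] (K × (Fin m → F)) := LinearMap.prodMap (LinearMap.mulLeft F ζ) LinearMap.id
  have hT : ∀ a, T a = (ζ * a.1, a.2) := fun a => rfl
  let g : (Fin (j + m) → F) →ₗ[F] (Fin (j + m) → F) :=
    (E.symm : (K × (Fin m → F)) →ₗ[F] (Fin (j + m) → F)) ∘ₗ T ∘ₗ (E : (Fin (j + m) → F) →ₗ[F] (K × (Fin m → F)))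
  have hg : ∀ v, g v = E.symm (T (E v)) := fun v => rfl
  have hgs : ∀ u v, hermForm (j + m) F q (g u) (g v) = hermForm (j + m) F q u v := by
    intro u v
    rw [← hE, ← hE, hg, hg, LinearEquiv.apply_symm_apply, LinearEquiv.apply_symm_apply]
    simp only [Hs, hT]
    rw [HK_mul τ hζ]
  let A : Matrix (Fin (j + m)) (Fin (j + m)) F := LinearMap.toMatrix' g
  have hA : ∀ v, A *ᵥ v = g v := fun v => LinearMap.toMatrix'_mulVec g v
  have hAs : ∀ u v, hermForm (j + m) F q (A *ᵥ u) (A *ᵥ v) = hermForm (j + m) F q u v := by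
    intro u v
    rw [hA, hA, hgs]
  let x : GL (Fin (j + m)) F := (GUofMatrix hF A hAs).1
  have hxval : (x : Matrix (Fin (j + m)) (Fin (j + m)) F) = A := rfl
  have hxk : ∀ (k : ℕ) (v : Fin (j + m) → F), E (((x ^ k : GL (Fin (j + m)) F) : Matrix (Fin (j + m)) (Fin (j + m)) F) *ᵥ v) =
      (ζ ^ k * (E v).1, (E v).2) := by
    intro k
    induction k with
    | zero =>
      intro v
      simp
    | succ k ih =>
      intro v
      rw [pow_succ, Units.val_mul, ← Matrix.mulVec_mulVec, ih, hxval, hA, hg, LinearEquiv.apply_symm_apply, hT]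
      simp only
      rw [pow_succ, mul_assoc]
  have hxE : ∀ v, E (A *ᵥ v) = (ζ * (E v).1, (E v).2) := by
    intro v
    rw [hA, hg, LinearEquiv.apply_symm_apply, hT]
  refine ⟨x, (GUofMatrix hF A hAs).2, ?_, ?_, ?_⟩
  · apply Units.ext
    apply Matrix.toLin'.injective
    apply LinearMap.ext
    intro w
    apply E.injective
    rw [Matrix.toLin'_apply, hxk, hζr, one_mul]
    simp
  · intro z hz
    rw [hxval] at hz
    have hz1 : z = 1 := by
      obtain ⟨i0⟩ : Nonempty (Fin m) := ⟨⟨0, by omega⟩⟩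
      have h1 := hxE (E.symm (0, Pi.single i0 1))
      rw [hz, Matrix.smul_mulVec, Matrix.one_mulVec, map_smul, LinearEquiv.apply_symm_apply] at h1
      have h3 := congrFun (congrArg Prod.snd h1) i0
      simpa using h3
    have h1 := hxE (E.symm (1, 0))
    rw [hz, hz1, one_smul, Matrix.one_mulVec, LinearEquiv.apply_symm_apply] at h1
    have h3 := congrArg Prod.fst h1
    apply hζ1
    simpa using h3.symm
  · let φ : LinearMap.ker (Matrix.toLin' (x : Matrix (Fin (j + m)) (Fin (j + m)) F) - 1) →ₗ[F] (Fin m → F) :=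
      (LinearMap.snd F K _) ∘ₗ (E : (Fin (j + m) → F) →ₗ[F] (K × (Fin m → F))) ∘ₗ (Submodule.subtype _)
    have hφ : ∀ v, φ v = (E v.1).2 := fun v => rfl
    have hmem : ∀ v, v ∈ LinearMap.ker (Matrix.toLin' (x : Matrix (Fin (j + m)) (Fin (j + m)) F) - 1) ↔ A *ᵥ v = v := by
      intro v
      rw [LinearMap.mem_ker, LinearMap.sub_apply, Matrix.toLin'_apply, Module.End.one_apply, sub_eq_zero]
      exact Iff.rfl
    have hb : Function.Bijective φ := by
      constructor
      · rw [← LinearMap.ker_eq_bot, LinearMap.ker_eq_bot']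
        rintro ⟨v, hv⟩ h
        apply Subtype.ext
        rw [hφ] at h
        simp only at h
        have h1 := hxE v
        rw [(hmem v).1 hv] at h1
        have h3 : (E v).1 = ζ * (E v).1 := congrArg Prod.fst h1
        have h4 : (ζ - 1) * (E v).1 = 0 := by
          rw [sub_mul, one_mul, ← h3, sub_self]
        have h5 : (E v).1 = 0 := (mul_eq_zero.1 h4).resolve_left (sub_ne_zero.2 hζ1)
        apply E.injective
        show E v = E 0
        rw [map_zero]
        exact Prod.ext h5 h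
      · intro h
        refine ⟨⟨E.symm (0, h), ?_⟩, ?_⟩
        · rw [hmem]
          apply E.injective
          rw [hxE, LinearEquiv.apply_symm_apply]
          simp
        · rw [hφ]
          simp
    have h3 := (LinearEquiv.ofBijective φ hb).finrank_eq
    rw [h3, Module.finrank_fin_fun]

end KModel

/-- The fixed-pair obstruction when the commutator space has odd dimension. -/
theorem no_fix_odd_range (hF : Fintype.card F = q ^ 2) (p : ℕ) [Fact p.Prime] [CharP F p] {r j : ℕ} [hr : Fact r.Prime] (hrp : r ≠ p)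
    (x : GL (Fin n) F) (hxU : x ∈ GU n F q) (hxr : x ^ r = 1)
    (hker : finrank F (LinearMap.ker (Matrix.toLin' (x : Matrix (Fin n) (Fin n) F) - 1)) + j = n) (hj : Odd j)
    (U W : Submodule F (Fin n → F)) (h : IsPair n F q U W)
    (hU : U.map (Matrix.toLin' (x : Matrix (Fin n) (Fin n) F)) = U)
    (hW : W.map (Matrix.toLin' (x : Matrix (Fin n) (Fin n) F)) = W) : False := by
  classical
  set f := Matrix.toLin' (x : Matrix (Fin n) (Fin n) F) with hf
  have hfs : ∀ u v, hermForm n F q (f u) (f v) = hermForm n F q u v := by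
    intro u v
    rw [hf, Matrix.toLin'_apply, Matrix.toLin'_apply]
    exact hxU u v
  have hfr : f ^ r = 1 := by
    have hk : ∀ k : ℕ, f ^ k = Matrix.toLin' ((x ^ k : GL (Fin n) F) : Matrix (Fin n) (Fin n) F) := by
      intro k
      induction k with
      | zero => simp [Module.End.one_eq_id]
      | succ k ih =>
        rw [pow_succ, pow_succ, ih, hf, Units.val_mul, Matrix.toLin'_mul]
        rfl
    rw [hk, hxr]
    simp [Module.End.one_eq_id]
  set y : (Fin n → F) →ₗ[F] (Fin n → F) := f - 1 with hy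
  have hyv : ∀ v, y v = f v - v := fun v => rfl
  have hr0 : (r : F) ≠ 0 := by
    intro h
    rw [CharP.cast_eq_zero_iff F p] at h
    exact hrp ((Nat.prime_dvd_prime_iff_eq Fact.out hr.out).1 h).symm
  have hyy : ∀ v, y (y v) = 0 → y v = 0 := by
    intro v hv
    have h1 : f (y v) = y v := by
      have := hyv (y v)
      rw [hv] at this
      exact (sub_eq_zero.1 this.symm)
    have h2 : ∀ k : ℕ, (f ^ k) v = v + (k : F) • y v := by
      intro k
      induction k with
      | zero => simp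
      | succ k ih =>
        rw [pow_succ', Module.End.mul_apply, ih, map_add, map_smul, h1]
        have : f v = v + y v := by rw [hyv]; abel
        rw [this]
        push_cast
        rw [add_smul, one_smul]
        abel
    have h3 := h2 r
    rw [hfr, Module.End.one_apply] at h3
    have h4 : (r : F) • y v = 0 := by
      have : v + (r : F) • y v = v + 0 := by rw [← h3, add_zero]
      exact add_left_cancel this
    exact (smul_eq_zero.1 h4).resolve_left hr0
  have hfU' : ∀ u ∈ U, f u ∈ U := fun u hu => by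
    rw [← hU]
    exact Submodule.mem_map_of_mem hu
  have hfW' : ∀ u ∈ W, f u ∈ W := fun u hu => by
    rw [← hW]
    exact Submodule.mem_map_of_mem hu
  set TU := U.map y with hTU
  set TW := W.map y with hTW
  have hTUU : TU ≤ U := by
    rintro _ ⟨u, hu, rfl⟩
    rw [hyv]
    exact U.sub_mem (hfU' u hu) hu
  have hTWW : TW ≤ W := by
    rintro _ ⟨u, hu, rfl⟩
    rw [hyv]
    exact W.sub_mem (hfW' u hu) hu
  have hperp : ∀ u k, y k = 0 → hermForm n F q k (y u) = 0 := by
    intro u k hk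
    have hfk : f k = k := sub_eq_zero.1 hk
    rw [hyv, herm_sub_right hF]
    have := hfs k u
    rw [hfk] at this
    rw [this, sub_self]
  have hbound : ∀ (A : Submodule F (Fin n → F)), (∀ u ∈ A, ∀ v ∈ A, hermForm n F q u v = 0) → A.map y ≤ A →
      2 * finrank F (A.map y) ≤ j := by
    intro A hA hAy
    have hts : ∀ u ∈ A.map y, ∀ v ∈ A.map y, hermForm n F q u v = 0 := fun u hu v hv => hA u (hAy hu) v (hAy hv)
    obtain ⟨f₀, hf₀, hf₀W, hspan⟩ := Cfsg.Agent.Lib.GUParab.exists_frame (q := q) rfl hts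
    have h1 : A.map y ⊓ LinearMap.ker y = ⊥ := by
      rw [Submodule.eq_bot_iff]
      rintro _ ⟨⟨u, hu, rfl⟩, h2⟩
      exact hyy u h2
    have h2 : A.map y ⊔ LinearMap.ker y ≤ Cfsg.Agent.Lib.GUParab.perpT q f₀ := by
      rw [sup_le_iff]
      constructor
      · have h5 := Cfsg.Agent.Lib.GUParab.span_le_perpT hF hf₀
        rw [hspan] at h5
        exact h5
      · intro v hv
        rw [Cfsg.Agent.Lib.GUParab.mem_perpT]
        intro i
        obtain ⟨u, hu, hue⟩ := hf₀W.2 i
        rw [← hue]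
        exact hperp u v hv
    have h3 := Submodule.finrank_mono h2
    have h3' := Cfsg.Agent.Lib.GUParab.finrank_perpT hF hf₀.1
    have h4 := Submodule.finrank_sup_add_finrank_inf_eq (A.map y) (LinearMap.ker y)
    rw [h1, finrank_bot] at h4
    omega
  have hb1 : 2 * finrank F TU ≤ j := hbound U h.tsU hTUU
  have hb2 : 2 * finrank F TW ≤ j := hbound W h.tsW hTWW
  have hsum : TU ⊔ TW = LinearMap.range y := by
    rw [hTU, hTW, ← Submodule.map_sup, h.compl.sup_eq_top, Submodule.map_top]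
  have hdisj : TU ⊓ TW = ⊥ := by
    have := h.compl.inf_eq_bot
    rw [eq_bot_iff] at this ⊢
    exact le_trans (inf_le_inf hTUU hTWW) this
  have hrange := LinearMap.finrank_range_add_finrank_ker y
  rw [Module.finrank_fin_fun] at hrange
  have h4 := Submodule.finrank_sup_add_finrank_inf_eq TU TW
  rw [hdisj, finrank_bot, hsum] at h4
  obtain ⟨t, ht⟩ := hj
  omega

/-- The extension field model. -/
theorem exists_bad_C4 (hF : Fintype.card F = q ^ 2) (hn : n = 2 * d) (p : ℕ) [Fact p.Prime] [CharP F p] {r j : ℕ} [hr : Fact r.Prime] (hrp : r ≠ p)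
    (hr2 : r ≠ 2) (hj : Odd j) (hjn : j < n) (hrj : r ∣ q ^ j + 1) (hrq : ¬ r ∣ q + 1) : ∃ x, Bad n F q r x := by
  classical
  have hq2 := two_le_q hF
  obtain ⟨m, rfl⟩ := Nat.exists_eq_add_of_le hjn.le
  have hm : 1 ≤ m := by omega
  have hj0 : j ≠ 0 := by
    rintro rfl
    simp at hj
  haveI : NeZero j := ⟨hj0⟩
  let K := FiniteField.Extension F p j
  haveI : Fintype K := Fintype.ofFinite K
  have hK : finrank F K = j := FiniteField.finrank_extension F p j
  have hcp : CharP F p := inferInstance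
  obtain ⟨p', k, hp', hcp', hqk⟩ := Cfsg.Agent.Lib.HermForm.exists_char_pow hF
  have hpp : p' = p := CharP.eq F hcp' hcp
  subst hpp
  haveI hcK : CharP K p' := charP_of_injective_algebraMap (algebraMap F K).injective p'
  have hQ : q ^ j = p' ^ (k * j) := by rw [hqk, pow_mul]
  have hQ0 : q ^ j ≠ 0 := pow_ne_zero _ (by omega)
  let τ : K →+* K :=
    { toFun := fun a => a ^ (q ^ j)
      map_one' := one_pow _
      map_mul' := fun a b => mul_pow a b _
      map_zero' := zero_pow hQ0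
      map_add' := fun a b => by
        rw [hQ]
        exact add_pow_char_pow a b p' (k * j) }
  have hτ : ∀ a, τ a = a ^ (q ^ j) := fun a => rfl
  have hcardK : Fintype.card K = (q ^ j) ^ 2 := by
    rw [Module.card_eq_pow_finrank (K := F) (V := K), hK, hF, ← pow_mul, ← pow_mul, mul_comm]
  have hτ2 : ∀ a, τ (τ a) = a := by
    intro a
    rw [hτ, hτ, ← pow_mul, ← sq, ← hcardK, FiniteField.pow_card]
  obtain ⟨t, ht⟩ := hj
  have hτF : ∀ c : F, τ (algebraMap F K c) = algebraMap F K (c ^ q) := by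
    intro c
    rw [hτ, ← map_pow]
    congr 1
    have h1 : q ^ j = (q ^ 2) ^ t * q := by
      rw [ht, pow_succ, pow_mul]
    rw [h1, pow_mul, ← hF, FiniteField.pow_card_pow]
  have hq1 : 1 ≤ q ^ j := Nat.one_le_pow _ _ (by omega)
  have h1 : r ∣ Nat.card Kˣ := by
    rw [Nat.card_eq_fintype_card, Fintype.card_units, hcardK]
    have : (q ^ j) ^ 2 - 1 = (q ^ j + 1) * (q ^ j - 1) := by
      zify [hq1, Nat.one_le_pow 2 _ hq1]
      ring
    rw [this]
    exact Dvd.dvd.mul_right hrj _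
  obtain ⟨ζ, hζ⟩ := exists_prime_orderOf_dvd_card' r h1
  have hζr : ((ζ : K)) ^ r = 1 := by
    rw [← Units.val_pow_eq_pow_val, ← hζ, pow_orderOf_eq_one, Units.val_one]
  have hζ1 : (ζ : K) ≠ 1 := by
    intro h
    have : ζ = 1 := Units.ext h
    rw [this, orderOf_one] at hζ
    exact (Fact.out : r.Prime).one_lt.ne hζ
  have hnorm : (ζ : K) * τ ζ = 1 := by
    rw [hτ, ← pow_succ']
    obtain ⟨c, hc⟩ := hrj
    rw [hc, pow_mul, hζr, one_pow]
  obtain ⟨x, hxU, hxr, hns, hker⟩ := exists_x_model τ hF hK hτ2 hτF hnorm hζr hζ1 hm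
  have hdet : Matrix.GeneralLinearGroup.det x = 1 := by
    by_contra hne
    have h2 : (Matrix.GeneralLinearGroup.det x) ^ r = 1 := by
      rw [← map_pow, hxr, map_one]
    have h3 := orderOf_eq_prime h2 hne
    have h4 : r ∣ Nat.card Fˣ := by
      rw [← h3]
      exact orderOf_dvd_natCard _
    rw [Nat.card_eq_fintype_card, Fintype.card_units, hF] at h4
    have h5 : q ^ 2 - 1 = (q + 1) * (q - 1) := by
      zify [Nat.one_le_pow 2 q (by omega), (by omega : 1 ≤ q)]
      ring
    rw [h5] at h4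
    rcases (Nat.Prime.dvd_mul hr.out).1 h4 with h6 | h6
    · exact hrq h6
    · have h7 : 1 ≡ q [MOD r] := (Nat.modEq_iff_dvd' (by omega)).2 h6
      have h8 : 1 ^ j ≡ q ^ j [MOD r] := h7.pow j
      rw [one_pow] at h8
      have h9 : 1 + 1 ≡ q ^ j + 1 [MOD r] := h8.add_right 1
      have h10 : r ∣ 1 + 1 := (Nat.modEq_zero_iff_dvd.1 (h9.trans (Nat.modEq_zero_iff_dvd.2 hrj)))
      exact hr2 ((Nat.prime_dvd_prime_iff_eq hr.out Nat.prime_two).1 h10)
  have hjodd : Odd j := ⟨t, ht⟩
  refine ⟨x, ⟨⟨hxU, hdet⟩, ⟨1, by rw [hxr]; simp⟩, hns, ?_, ?_⟩⟩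
  · intro U W hP hU hW
    exact no_fix_odd_range hF p' hrp x hxU hxr (by omega) hjodd U W hP hU hW
  · intro U W hP hU hW
    exact no_swap_odd (by omega) (hr.out.odd_of_ne_two hr2) x hxr U W hP.compl hU hW



/-- Elements of prime order of PSU_n(q) and the stabilizers of pairs of complementary totally singular subspaces. Here `T = PSU_n(q)` is realised through `SU_n(q)`, the matrices of determinant 1 over the field `F` with `q²` elements preserving the hermitian form `Σ uᵢ vᵢ^q`, with `n ≥ 4` even; `D` is a pair of complementary subspaces of dimension `n/2` on each of which the form vanishes identically, and `H` is the subgroup of `SU_n(q)` fixing or interchanging the two members — a subgroup of type GL_{n/2}(q²).2 (maximality is not assumed). Ω is the set of cosets of `H`, so an element of `T` of prime order `r` (`x ∈ SU_n(q)` with `x^r` scalar, `x` not scalar) fixes a point of Ω exactly when some `SU_n(q)`-conjugate of `x` lies in `H`. Let `r` be a prime dividing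 the index of `H`. Then every element of `T` of order `r` fixes a point of Ω if and only if `r = 2`, `q` is odd and `(q + 1)_2 ≤ (n)_2` (2-parts). -/
theorem result {F : Type*} [Field F] [Fintype F] {p : ℕ} [Fact p.Prime] [CharP F p] {q : ℕ} (hq : Fintype.card F = q ^ 2)
    (n : ℕ) (hn : 4 ≤ n) (he : Even n) (D : Fin 2 → Submodule F (Fin n → F)) (hD : Cfsg.Geo.IsMDecomposition (n / 2) D)
    (hDs : ∀ i, Cfsg.Geo.IsTotallySingularFor (Cfsg.hermForm n F q) (D i))
    (r : ℕ) [Fact r.Prime]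
    (hΩ : r ∣ (Cfsg.Geo.decompositionStabilizer D).relIndex (Cfsg.GU n F q ⊓ Cfsg.Geo.specialLinear (Fin n) F)) :
    (∀ x ∈ Cfsg.GU n F q ⊓ Cfsg.Geo.specialLinear (Fin n) F, (∃ z : F, ((x ^ r : GL (Fin n) F) : Matrix (Fin n) (Fin n) F) = z • (1 : Matrix (Fin n) (Fin n) F)) →
      (∀ z : F, (x : Matrix (Fin n) (Fin n) F) ≠ z • (1 : Matrix (Fin n) (Fin n) F)) →
      ∃ g ∈ Cfsg.GU n F q ⊓ Cfsg.Geo.specialLinear (Fin n) F, g⁻¹ * x * g ∈ Cfsg.Geo.decompositionStabilizer D) ↔
    (r = 2 ∧ Odd q ∧ padicValNat 2 (q + 1) ≤ padicValNat 2 n) := by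
  classical
  obtain ⟨d, hd⟩ := he
  have hnd : n = 2 * d := by omega
  have hd2 : 2 ≤ d := by omega
  have hqq2 := two_le_q hq
  have hP : IsPair n F q (D 0) (D 1) := by
    have h0 : IsCompl (D 0) (D 1) := by
      constructor
      · exact hD.indep.pairwiseDisjoint (by simp)
      · rw [codisjoint_iff]
        have h1 := hD.iSup_eq_top
        have h2 : iSup D = D 0 ⊔ D 1 := by
          apply le_antisymm
          · apply iSup_le
            intro i
            fin_cases i
            · exact le_sup_left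
            · exact le_sup_right
          · exact sup_le (le_iSup D 0) (le_iSup D 1)
        rwa [h2] at h1
    exact ⟨h0, hDs 0, hDs 1⟩
  constructor
  · intro hall
    have hcontra : ∀ x, Bad n F q r x → False := by
      intro x hx
      obtain ⟨g, hg, hg2⟩ := hall x hx.mem hx.pow hx.nonscalar
      exact hx.not_conj hP g hg hg2
    by_cases hrp : r = p
    · subst hrp
      obtain ⟨x, hx⟩ := exists_bad_transvection hq hnd hd2 r
      exact (hcontra x hx).elim
    by_cases hr2 : r = 2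
    · subst hr2
      have hodd : Odd q := by
        by_contra hev
        rw [Nat.not_odd_iff_even] at hev
        have hcp : CharP F p := inferInstance
        obtain ⟨p', k, hp', hcp', hqk⟩ := Cfsg.Agent.Lib.HermForm.exists_char_pow hq
        have hpp : p' = p := CharP.eq F hcp' hcp
        subst hpp
        have h2 : 2 ∣ p' ^ k := by
          rw [← hqk]
          exact hev.two_dvd
        have h3 : 2 ∣ p' := Nat.prime_two.dvd_of_dvd_pow h2
        exact hrp ((Nat.prime_dvd_prime_iff_eq Nat.prime_two hp').1 h3)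
      refine ⟨rfl, hodd, ?_⟩
      by_contra hv
      obtain ⟨x, hx⟩ := exists_bad_C3 hq hnd hd2 hodd hv
      exact (hcontra x hx).elim
    · exfalso
      obtain ⟨k, hk, hk2⟩ := exists_k hq hnd (by omega) p D hP r hrp hΩ
      by_cases hrq : r ∣ q + 1
      · obtain ⟨x, hx⟩ := exists_bad_C2 hq hnd hd2 hr2 hrq
        exact hcontra x hx
      · obtain ⟨x, hx⟩ := exists_bad_C4 hq hnd p hrp hr2 (j := 2 * k + 1) (by simp) (by omega) hk2 hrq
        exact hcontra x hx
  · rintro ⟨rfl, hodd, hv⟩ x hx ⟨z, hz⟩ hns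
    obtain ⟨U, W, hUW, hU, hW⟩ := exists_fixed_pair hq hnd (by omega) hodd hv x hx hz
    obtain ⟨g, hg, hg0, hg1⟩ := exists_SU_map hq hnd (by omega) hP hUW
    refine ⟨g, hg, 1, fun i => ?_⟩
    have hcase : ∀ i : Fin 2, (D i).map (Matrix.toLin' (g : Matrix (Fin n) (Fin n) F)) = (if i = 0 then U else W) := by
      intro i
      fin_cases i
      · exact hg0
      · exact hg1
    have hfx : ∀ i : Fin 2, (if i = 0 then U else W).map (Matrix.toLin' (x : Matrix (Fin n) (Fin n) F)) = (if i = 0 then U else W) := by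
      intro i
      fin_cases i
      · exact hU
      · exact hW
    rw [map_conj, hcase i, hfx i, ← hcase i, map_inv_toLin]
    rfl

end Cfsg.Agent.S5984
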