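import Mathlib
-- Template for statement S1065 (row 1065; see /opt/grader/pristine/manifest.json for weights).
-- Copy to Cfsg/Agent/S1065.lean and replace the sorry. The statement below is byte-identical to the frozen
-- statement Cfsg.CfsgFrozen.S1065 (Cfsg/Statements/S1065.lean; the theorem Cfsg.chevalley_card_e8);
-- the grader kernel-checks Cfsg.Agent.S1065.result against that frozen type. Keep the theorem IN THIS FILE
-- (a `result` declared elsewhere and merely imported here is not credited); helpers may live anywhere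
-- under Cfsg/Agent/.
import Cfsg.Statements.S1065
import Cfsg.Agent.Lib.Chev.OrdE8

set_option autoImplicit false
open Cfsg

namespace Cfsg.Agent.S1065

/-- `|E₈(q)| = q¹²⁰ ∏_{d ∈ {2,8,12,14,18,20,24,30}} (q^d - 1)`. -/
theorem result {F : Type*} [Field F] [Fintype F] {q : ℕ} (hq : Fintype.card F = q) : Nat.card ↥(Cfsg.Lie.chevE8.group F) = q ^ 120 * (q ^ 2 - 1) * (q ^ 8 - 1) * (q ^ 12 - 1) * (q ^ 14 - 1) * (q ^ 18 - 1) * (q ^ 20 - 1) * (q ^ 24 - 1) * (q ^ 30 - 1) := by
  subst hq
  exact Cfsg.Agent.Lib.Chev.OrdE8.card_group (T := _) (X := _) ⟨Cfsg.Agent.Lib.Chev.RelE8.checks, Cfsg.Agent.Lib.Chev.RootE8.checks⟩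

end Cfsg.Agent.S1065
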