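import Mathlib
-- Template for statement S1068 (row 1068; see /opt/grader/pristine/manifest.json for weights).
-- Copy to Cfsg/Agent/S1068.lean and replace the sorry. The statement below is byte-identical to the frozen
-- statement Cfsg.CfsgFrozen.S1068 (Cfsg/Statements/S1068.lean; the theorem Cfsg.twisted_f4_card);
-- the grader kernel-checks Cfsg.Agent.S1068.result against that frozen type. Keep the theorem IN THIS FILE
-- (a `result` declared elsewhere and merely imported here is not credited); helpers may live anywhere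
-- under Cfsg/Agent/.
import Cfsg.Statements.S1068
import Cfsg.Agent.Lib.Chev.TwF4B

set_option autoImplicit false
open Cfsg

namespace Cfsg.Agent.S1068

/-- `|²F₄(q)| = q¹² (q - 1)(q³ + 1)(q⁴ - 1)(q⁶ + 1)` for `q = 2^(2m+1)` (θ = 2^m-th power map), every `m ≥ 0`. -/
theorem result {K : Type*} [Field K] [Fintype K] {m : ℕ} (hK : Fintype.card K = 2 ^ (2 * m + 1)) :
    Nat.card ↥(Cfsg.Lie.twistedF4 K (2 ^ m)) =
      (2 ^ (2 * m + 1)) ^ 12 * (2 ^ (2 * m + 1) - 1) * ((2 ^ (2 * m + 1)) ^ 3 + 1) * ((2 ^ (2 * m + 1)) ^ 4 - 1) * ((2 ^ (2 * m + 1)) ^ 6 + 1) := by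
  obtain ⟨d⟩ := Cfsg.Agent.Lib.Chev.TwF4.exists_dat hK
  rw [d.card_G1, hK]
  generalize 2 ^ (2 * m + 1) = Q
  have hQ : Q ≠ 0 ∨ Q = 0 := Or.symm (Decidable.eq_or_ne Q 0)
  rcases Nat.eq_zero_or_pos Q with rfl | hpos
  · simp
  · obtain ⟨q, rfl⟩ : ∃ q, Q = q + 1 := ⟨Q - 1, by omega⟩
    have h1 : (q + 1) ^ 4 - 1 = q * ((q + 1) ^ 3 + (q + 1) ^ 2 + (q + 1) + 1) := by
      apply Nat.sub_eq_of_eq_add
      ring
    rw [h1, Nat.add_sub_cancel]
    ring

end Cfsg.Agent.S1068
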