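import Mathlib
-- Template for statement S1069 (row 1069; see /opt/grader/pristine/manifest.json for weights).
-- Copy to Cfsg/Agent/S1069.lean and replace the sorry. The statement below is byte-identical to the frozen
-- statement Cfsg.CfsgFrozen.S1069 (Cfsg/Statements/S1069.lean; the theorem Cfsg.twisted_g2_card);
-- the grader kernel-checks Cfsg.Agent.S1069.result against that frozen type. Keep the theorem IN THIS FILE
-- (a `result` declared elsewhere and merely imported here is not credited); helpers may live anywhere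
-- under Cfsg/Agent/.
import Cfsg.Statements.S1069
import Cfsg.Agent.Lib.Chev.TwG2B

set_option autoImplicit false
open Cfsg

namespace Cfsg.Agent.S1069

/-- `|²G₂(q)| = q³ (q - 1)(q³ + 1)` for `q = 3^(2m+1)` (θ = 3^m-th power map), every `m ≥ 0`. -/
theorem result {K : Type*} [Field K] [Fintype K] {m : ℕ} (hK : Fintype.card K = 3 ^ (2 * m + 1)) :
    Nat.card ↥(Cfsg.Lie.twistedG2 K (3 ^ m)) = (3 ^ (2 * m + 1)) ^ 3 * (3 ^ (2 * m + 1) - 1) * ((3 ^ (2 * m + 1)) ^ 3 + 1) := by
  obtain ⟨d⟩ := Cfsg.Agent.Lib.Chev.TwG2.exists_dat hK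
  rw [d.card_G1 (Cfsg.Agent.Lib.Chev.TwG2.hsq hK), hK]

end Cfsg.Agent.S1069
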