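-- Statement S2100: the Schur multiplier of G₂(q) is trivial for q ≥ 5.
import Cfsg.Statements.S2100
import Cfsg.Agent.Lib.ChevTorG2

set_option autoImplicit false
open Cfsg

namespace Cfsg.Agent.S2100

open Cfsg.Agent.Lib.Chev Cfsg.Agent.Lib.ChevStem Cfsg.Agent.Lib.ChevTor Cfsg.Agent.Lib.ChevTorTab
  Cfsg.Agent.Lib.ChevTorG2

/-- Schur multipliers of the Chevalley groups of type G₂: over a field with q ≥ 5 elements the Schur multiplier of G₂(q) is trivial (here the Schur multiplier is described through stem extensions, as in the definitions); the cases q = 3 and q = 4 are exceptional and q = 2 gives a non-simple group. -/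
theorem result {F : Type*} [Field F] [Fintype F] (hF : 5 ≤ Fintype.card F) : Cfsg.HasCyclicSchurMultiplier ↥(Cfsg.Lie.chevG2.group F) 1 := by
  have hq := hF
  have hF : Full _ _ _ Cfsg.Lie.chevG2 := ⟨RelG2.checks, RootG2.checks⟩
  apply multiplier_one
  intro Γ _ _ σ hσ
  refine ker_eq_bot_of_wit hF σ hσ ?_ ?_ ?_ (hTab_of_ok tab_ok) CoxeterMatrix.G₂ (by decide +kernel) brChk_ok
    (tor_inj_of_card hF ?_)
  · intro κ a b
    exact BB_self_of_form hF σ hσ.1 hσ.2.1 (by omega) (dual_of_ok dual_ok κ) a b
  · intro κ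
    exact hchi_of_dual (by omega) (dual_of_ok dual_ok κ)
  · refine wit_of_ok hF σ hσ.1 wit_ok ?_
    intro d hd h
    have h1 : d ≠ 0 := by
      rintro rfl
      simp at hd
    have h2 := Nat.le_of_dvd (Nat.pos_of_ne_zero h1) h
    have h3 : d ≤ 3 := by
      simp at hd
      omega
    omega
  · have := Full.torus_card_G2 (F := F) hF
    rwa [one_mul] at this

end Cfsg.Agent.S2100
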