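import Cfsg.Statements.S1579
import Cfsg.Agent.Lib.Co0Pair

set_option autoImplicit false
open Cfsg

namespace Cfsg.Agent.S1579

/-- The stabiliser of a vector of customary norm 6 is transitive on the 552 minimal vectors that complete it to a sum of two minimal vectors. -/
theorem result (u v v' : ↥Cfsg.leechLattice) (hu : Cfsg.sqNorm (u : Cfsg.GolayPt → ℤ) = 48) (hv : Cfsg.sqNorm (v : Cfsg.GolayPt → ℤ) = 32 ∧ Cfsg.sqNorm ((u - v) : Cfsg.GolayPt → ℤ) = 32) (hv' : Cfsg.sqNorm (v' : Cfsg.GolayPt → ℤ) = 32 ∧ Cfsg.sqNorm ((u - v') : Cfsg.GolayPt → ℤ) = 32) : ∃ g : ↥Cfsg.Co0, g • u = u ∧ g • v = v' := by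
  obtain ⟨hv1, hv2⟩ := hv
  obtain ⟨hv1', hv2'⟩ := hv'
  have key : ∀ a : ↥Cfsg.leechLattice, Cfsg.sqNorm (a : Cfsg.GolayPt → ℤ) = 32 →
      Cfsg.sqNorm ((u - a) : Cfsg.GolayPt → ℤ) = 32 →
      Cfsg.dotInt (a : Cfsg.GolayPt → ℤ) ((u - a : ↥Cfsg.leechLattice) : Cfsg.GolayPt → ℤ) = -8 := by
    intro a h1 h2
    have h3 := Cfsg.Agent.Lib.Co0Mod.sqNorm_add' (a : Cfsg.GolayPt → ℤ) ((u - a : ↥Cfsg.leechLattice) : Cfsg.GolayPt → ℤ)
    have h4 : (a : Cfsg.GolayPt → ℤ) + ((u - a : ↥Cfsg.leechLattice) : Cfsg.GolayPt → ℤ) = (u : Cfsg.GolayPt → ℤ) := by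
      rw [AddSubgroup.coe_sub]
      abel
    rw [h4, hu, h1] at h3
    have h5 : Cfsg.sqNorm ((u - a : ↥Cfsg.leechLattice) : Cfsg.GolayPt → ℤ) = 32 := h2
    rw [h5] at h3
    linarith
  obtain ⟨g, h1, h2⟩ := Cfsg.Agent.Lib.Co0Pair.pairM8 (v := v) (w := u - v) (v' := v') (w' := u - v')
    hv1 hv1' hv2 hv2' (key v hv1 hv2) (key v' hv1' hv2')
  refine ⟨g, ?_, h1⟩
  have h3 : g • u = g • v + g • (u - v) := by
    have h4 : u = v + (u - v) := by abel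
    show (g : Equiv.Perm ↥Cfsg.leechLattice) u = (g : Equiv.Perm ↥Cfsg.leechLattice) v + (g : Equiv.Perm ↥Cfsg.leechLattice) (u - v)
    rw [← g.2.1 v (u - v), ← h4]
  rw [h3, h1, h2]
  abel

end Cfsg.Agent.S1579
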