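import Cfsg.Statements.S1580
import Cfsg.Agent.Lib.CoMcL

set_option autoImplicit false
open Cfsg

namespace Cfsg.Agent.S1580

/-- The McLaughlin configuration: for u of customary norm 6 and v minimal with u − v minimal, there are 275 further such summands x of customary inner product 2 with v, permuted transitively by the stabiliser of u and v. -/
theorem result (u v : ↥Cfsg.leechLattice) (hu : Cfsg.sqNorm (u : Cfsg.GolayPt → ℤ) = 48) (hv : Cfsg.sqNorm (v : Cfsg.GolayPt → ℤ) = 32 ∧ Cfsg.sqNorm ((u - v) : Cfsg.GolayPt → ℤ) = 32) : {x : ↥Cfsg.leechLattice | Cfsg.sqNorm (x : Cfsg.GolayPt → ℤ) = 32 ∧ Cfsg.sqNorm ((u - x) : Cfsg.GolayPt → ℤ) = 32 ∧ Cfsg.dotInt (v : Cfsg.GolayPt → ℤ) (x : Cfsg.GolayPt → ℤ) = 16}.ncard = 275 ∧ ∀ x ∈ {x : ↥Cfsg.leechLattice | Cfsg.sqNorm (x : Cfsg.GolayPt → ℤ) = 32 ∧ Cfsg.sqNorm ((u - x)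 : Cfsg.GolayPt → ℤ) = 32 ∧ Cfsg.dotInt (v : Cfsg.GolayPt → ℤ) (x : Cfsg.GolayPt → ℤ) = 16}, ∀ x' ∈ {x : ↥Cfsg.leechLattice | Cfsg.sqNorm (x : Cfsg.GolayPt → ℤ) = 32 ∧ Cfsg.sqNorm ((u - x) : Cfsg.GolayPt → ℤ) = 32 ∧ Cfsg.dotInt (v : Cfsg.GolayPt → ℤ) (x : Cfsg.GolayPt → ℤ) = 16}, ∃ g : ↥Cfsg.Co0, g • u = u ∧ g • v = v ∧ g • x = x' := by
  have hd : Cfsg.dotInt (u : Cfsg.GolayPt → ℤ) (v : Cfsg.GolayPt → ℤ) = 24 :=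
    (Cfsg.Agent.Lib.CoConf.dot_of_norm_sub hu hv.1).1 hv.2
  rw [Cfsg.Agent.Lib.CoConf.set275_eq u v hu]
  refine ⟨Cfsg.Agent.Lib.CoConf.ncard_275 u v hu hv.1 hd, ?_⟩
  intro x hx x' hx'
  obtain ⟨k, hk, e⟩ := Cfsg.Agent.Lib.CoConf.transOn_275' u v hu hv.1 hd x hx x' hx'
  exact ⟨k, hk (u, 24) (by simp), hk (v, 16) (by simp), e⟩

end Cfsg.Agent.S1580
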