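import Mathlib
import Cfsg.Statements.S0695

set_option autoImplicit false
open Cfsg
open scoped Pointwise

namespace Cfsg.Agent.S0695

section
variable {G : Type*} [Group G] {X : Type*} [MulAction G X]

/-- uniqueness in a regular subgroup -/
lemma eq_of_smul_eq {N : Subgroup G} {a : X} (hreg : MulAction.stabilizer N a = ⊥) {m n : G}
    (hm : m ∈ N) (hn : n ∈ N) (h : m • a = n • a) : m = n := by
  have h1 : (⟨n, hn⟩ : N)⁻¹ * ⟨m, hm⟩ ∈ MulAction.stabilizer N a := by
    rw [MulAction.mem_stabilizer_iff, mul_smul, inv_smul_eq_iff]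
    exact h
  rw [hreg, Subgroup.mem_bot, inv_mul_eq_one] at h1
  exact (congrArg Subtype.val h1).symm

/-- A regular normal subgroup with primitive point stabiliser has exponent two or degree three. -/
lemma sq_eq_one_or_card [Finite X] (a : X)
    (hprim : MulAction.IsPreprimitive (MulAction.stabilizer G a) (SubMulAction.ofStabilizer G a))
    (N : Subgroup G) [hN : N.Normal] (htrans : MulAction.IsPretransitive N X)
    (hreg : ∀ x : X, MulAction.stabilizer N x = ⊥) :
    Nat.card X = 3 ∨ ∀ n ∈ N, n ^ 2 = 1 := by
  classical
  by_cases hall : ∀ n ∈ N, n ^ 2 = 1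
  · exact Or.inr hall
  left
  push Not at hall
  obtain ⟨n, hn, hn2⟩ := hall
  have hninv : n⁻¹ ∈ N := N.inv_mem hn
  have hnne : n • a ≠ n⁻¹ • a := by
    intro h
    have := eq_of_smul_eq (hreg a) hn hninv h
    apply hn2
    rw [pow_two]
    nth_rewrite 1 [this]
    simp
  have hne1 : n • a ≠ a := by
    intro h
    have : n • a = (1 : G) • a := by simpa using h
    have := eq_of_smul_eq (hreg a) hn N.one_mem this
    apply hn2
    simp [this]
  have hne2 : n⁻¹ • a ≠ a := by
    intro h
    have : n⁻¹ • a = (1 : G) • a := by simpa using h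
    have := eq_of_smul_eq (hreg a) hninv N.one_mem this
    apply hn2
    have h3 : n = 1 := by simpa using this
    simp [h3]
  -- the block
  let x₁ : SubMulAction.ofStabilizer G a := ⟨n • a, hne1⟩
  let x₂ : SubMulAction.ofStabilizer G a := ⟨n⁻¹ • a, hne2⟩
  let B : Set (SubMulAction.ofStabilizer G a) := {x₁, x₂}
  -- conjugation
  have hconj : ∀ (g : MulAction.stabilizer G a) (m : G), (g : G) • (m • a) = ((g : G) * m * (g : G)⁻¹) • a := by
    intro g m
    have hg : (g : G)⁻¹ • a = a := by
      rw [inv_smul_eq_iff]
      exact g.2.symm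
    rw [mul_smul, mul_smul, hg]
  have hconjmem : ∀ (g : G) (m : G), m ∈ N → g * m * g⁻¹ ∈ N := fun g m hm => hN.conj_mem m hm g
  have hB : MulAction.IsBlock (MulAction.stabilizer G a) B := by
    rw [MulAction.isBlock_iff_smul_eq_of_nonempty]
    rintro g ⟨y, hy1, hy2⟩
    obtain ⟨x, hx, rfl⟩ := hy1
    -- the conjugate of `n` by `g` lies in `{n, n⁻¹}`
    have hcase : (g : G) * n * (g : G)⁻¹ = n ∨ (g : G) * n * (g : G)⁻¹ = n⁻¹ := by
      have hval : ∀ z ∈ B, (z : X) = n • a ∨ (z : X) = n⁻¹ • a := by
        rintro z (rfl | rfl)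
        · exact Or.inl rfl
        · exact Or.inr rfl
      have hgx : (g : G) • (x : X) = ((g • x : SubMulAction.ofStabilizer G a) : X) := rfl
      rcases hval _ hy2 with h1 | h1 <;> rcases hval _ hx with h2 | h2
      · left
        have h3 : (g : G) • (n • a) = n • a := by
          have h0 : (g : G) • (x : X) = n • a := h1
          rwa [h2] at h0
        rw [hconj] at h3
        exact eq_of_smul_eq (hreg a) (hconjmem _ _ hn) hn h3
      · right
        have h3 : (g : G) • (n⁻¹ • a) = n • a := by
          rw [← h2, hgx]; exact h1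
        rw [hconj] at h3
        have := eq_of_smul_eq (hreg a) (hconjmem _ _ hninv) hn h3
        have e : (g : G) * n * (g : G)⁻¹ = ((g : G) * n⁻¹ * (g : G)⁻¹)⁻¹ := by group
        rw [e, this]
      · right
        have h3 : (g : G) • (n • a) = n⁻¹ • a := by
          rw [← h2, hgx]; exact h1
        rw [hconj] at h3
        exact eq_of_smul_eq (hreg a) (hconjmem _ _ hn) hninv h3
      · left
        have h3 : (g : G) • (n⁻¹ • a) = n⁻¹ • a := by
          have h0 : (g : G) • (x : X) = n⁻¹ • a := h1
          rwa [h2] at h0
        rw [hconj] at h3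
        have := eq_of_smul_eq (hreg a) (hconjmem _ _ hninv) hninv h3
        have e : (g : G) * n * (g : G)⁻¹ = ((g : G) * n⁻¹ * (g : G)⁻¹)⁻¹ := by group
        rw [e, this, inv_inv]
    have hgx₁ : g • x₁ = x₁ ∨ g • x₁ = x₂ := by
      rcases hcase with h | h
      · left
        apply Subtype.ext
        change (g : G) • (n • a) = n • a
        rw [hconj, h]
      · right
        apply Subtype.ext
        change (g : G) • (n • a) = n⁻¹ • a
        rw [hconj, h]
    have hgx₂ : g • x₂ = x₂ ∨ g • x₂ = x₁ := by
      have hinv : (g : G) * n⁻¹ * (g : G)⁻¹ = ((g : G) * n * (g : G)⁻¹)⁻¹ := by group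
      rcases hcase with h | h
      · left
        apply Subtype.ext
        change (g : G) • (n⁻¹ • a) = n⁻¹ • a
        rw [hconj, hinv, h]
      · right
        apply Subtype.ext
        change (g : G) • (n⁻¹ • a) = n • a
        rw [hconj, hinv, h, inv_inv]
    have hsub : g • B ⊆ B := by
      rintro _ ⟨z, hz, rfl⟩
      rcases hz with rfl | rfl
      · rcases hgx₁ with h | h
        · left; exact h
        · right; exact h
      · rcases hgx₂ with h | h
        · right; exact h
        · left; exact h
    -- equality by cardinalities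
    have hfin : B.Finite := Set.toFinite B
    exact Set.eq_of_subset_of_ncard_le hsub (by rw [Set.ncard_smul_set]) hfin
  have htriv := hprim.isTrivialBlock_of_isBlock hB
  rcases htriv with hsub | huniv
  · exfalso
    apply hnne
    have := hsub (show x₁ ∈ B from Or.inl rfl) (show x₂ ∈ B from Or.inr rfl)
    exact congrArg Subtype.val this
  · -- `X = {a, n a, n⁻¹ a}`
    have hX : ∀ y : X, y = a ∨ y = n • a ∨ y = n⁻¹ • a := by
      intro y
      by_cases hya : y = a
      · exact Or.inl hya
      · have : (⟨y, hya⟩ : SubMulAction.ofStabilizer G a) ∈ B := by rw [huniv]; trivial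
        rcases this with h | h
        · exact Or.inr (Or.inl (congrArg Subtype.val h))
        · exact Or.inr (Or.inr (congrArg Subtype.val h))
    have hfin : Fintype X := Fintype.ofFinite X
    rw [Nat.card_eq_fintype_card]
    have huniv' : (Finset.univ : Finset X) = {a, n • a, n⁻¹ • a} := by
      ext y
      simp only [Finset.mem_univ, Finset.mem_insert, Finset.mem_singleton, true_iff]
      exact hX y
    rw [← Finset.card_univ, huniv']
    rw [Finset.card_insert_of_notMem, Finset.card_insert_of_notMem, Finset.card_singleton]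
    · simpa using hnne
    · simp only [Finset.mem_insert, Finset.mem_singleton, not_or]
      exact ⟨hne1.symm, hne2.symm⟩
end

/-- A regular normal subgroup of a doubly primitive group of finite degree at least 2 is an elementary abelian 2-group (and the degree is a power of 2), unless the degree is 3. -/
theorem result {G : Type*} [Group G] {X : Type*} [Fintype X] [MulAction G X] (hX : 2 ≤ Fintype.card X) (h2 : MulAction.IsMultiplyPreprimitive G X 2) (N : Subgroup G) [N.Normal] (htrans : MulAction.IsPretransitive N X) (hreg : ∀ x : X, MulAction.stabilizer N x = ⊥) : Fintype.card X = 3 ∨ (IsMulCommutative N ∧ (∀ n ∈ N, n ^ 2 = 1) ∧ ∃ m : ℕ, Fintype.card X = 2 ^ m) := by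
  classical
  have hpos : Nonempty X := Fintype.card_pos_iff.mp (by omega)
  obtain ⟨a⟩ := hpos
  have hG : MulAction.IsPretransitive G X := by
    constructor
    intro x y
    obtain ⟨n, hn⟩ := htrans.exists_smul_eq x y
    exact ⟨n, hn⟩
  have hprim : MulAction.IsPreprimitive (MulAction.stabilizer G a) (SubMulAction.ofStabilizer G a) := by
    have h3 : MulAction.IsMultiplyPreprimitive (MulAction.stabilizer G a) (SubMulAction.ofStabilizer G a) 1 :=
      (MulAction.isMultiplyPreprimitive_succ_iff_ofStabilizer G X (by norm_num) (n := 1) (a := a)).mp h2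
    exact (MulAction.is_one_preprimitive_iff _ _).mp h3
  rcases sq_eq_one_or_card a hprim N htrans hreg with h | h
  · left
    rwa [Nat.card_eq_fintype_card] at h
  · right
    have hN2 : ∀ n : N, n * n = 1 := by
      intro n
      apply Subtype.ext
      have := h n n.2
      simpa [pow_two] using this
    refine ⟨⟨⟨?_⟩⟩, h, ?_⟩
    · intro x y
      have h1 : (x * y) * (x * y) = 1 := hN2 _
      have h2 : x * x = 1 := hN2 _
      have h3 : y * y = 1 := hN2 _
      calc x * y = x * (x * y * (x * y)) * y := by rw [h1, mul_one]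
        _ = (x * x) * y * x * (y * y) := by group
        _ = y * x := by rw [h2, h3]; group
    · have hfact : Fact (Nat.Prime 2) := ⟨Nat.prime_two⟩
      have hpg : IsPGroup 2 N := by
        intro n
        refine ⟨1, ?_⟩
        apply Subtype.ext
        simpa using h n n.2
      have hfinN : Finite N := Finite.of_injective (fun n : N => n • a) (by
        intro x y hxy
        apply Subtype.ext
        exact eq_of_smul_eq (hreg a) x.2 y.2 hxy)
      obtain ⟨m, hm⟩ := IsPGroup.iff_card.mp hpg
      refine ⟨m, ?_⟩
      rw [← hm, ← Nat.card_eq_fintype_card]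
      refine (Nat.card_congr (Equiv.ofBijective (fun n : N => n • a) ⟨?_, ?_⟩)).symm
      · intro x y hxy
        apply Subtype.ext
        exact eq_of_smul_eq (hreg a) x.2 y.2 hxy
      · intro y
        exact htrans.exists_smul_eq a y

end Cfsg.Agent.S0695
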