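import Mathlib
import Cfsg.Statements.S0696
import Cfsg.Agent.S0695

set_option autoImplicit false
open Cfsg
open scoped Pointwise

namespace Cfsg.Agent.S0696

/-- A triply primitive group of degree at least 3 having a regular normal subgroup has degree 3 or 4. -/
theorem result {G : Type*} [Group G] {X : Type*} [Fintype X] [MulAction G X] (hX : 3 ≤ Fintype.card X) (h3 : MulAction.IsMultiplyPreprimitive G X 3) (N : Subgroup G) [N.Normal] (htrans : MulAction.IsPretransitive N X) (hreg : ∀ x : X, MulAction.stabilizer N x = ⊥) : Fintype.card X = 3 ∨ Fintype.card X = 4 := by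
  classical
  have hcardX : ((3 : ℕ) : ℕ∞) ≤ ENat.card X := by
    rw [ENat.card_eq_coe_fintype_card]
    exact_mod_cast hX
  have h2 : MulAction.IsMultiplyPreprimitive G X 2 :=
    MulAction.isMultiplyPreprimitive_of_le G X h3 (by norm_num) hcardX
  rcases Cfsg.Agent.S0695.result (by omega) h2 N htrans hreg with hc | ⟨-, hsq, -⟩
  · exact Or.inl hc
  right
  -- choose points
  have h1 : 1 < Fintype.card X := by omega
  obtain ⟨a, b, hab⟩ := Fintype.exists_pair_of_one_lt_card h1
  obtain ⟨⟨t, htN⟩, htab⟩ := htrans.exists_smul_eq a b
  have htab' : t • a = b := htab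
  have huniq : ∀ {m n : G} {x : X}, m ∈ N → n ∈ N → m • x = n • x → m = n := fun hm hn h =>
    Cfsg.Agent.S0695.eq_of_smul_eq (hreg _) hm hn h
  have ht1 : t ≠ 1 := by
    rintro rfl
    exact hab (by simpa using htab')
  have httinv : t * t = 1 := by
    have := hsq t htN
    rwa [pow_two] at this
  have htba : t • b = a := by
    rw [← htab', smul_smul, httinv, one_smul]
  let s : Set X := {a, b}
  have hs : s.encard + 1 = ((3 : ℕ) : ℕ∞) := by
    rw [Set.encard_pair hab]
    norm_num
  have hprim := MulAction.IsMultiplyPreprimitive.isPreprimitive_ofFixingSubgroup G 3 hs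
  -- a third point
  have hex : ∃ c : X, c ≠ a ∧ c ≠ b := by
    by_contra hcon
    push Not at hcon
    have : (Finset.univ : Finset X) ⊆ {a, b} := by
      intro y _
      by_cases hya : y = a
      · simp [hya]
      · simp [hcon y hya]
    have h5 := Finset.card_le_card this
    rw [Finset.card_univ] at h5
    have h6 : ({a, b} : Finset X).card ≤ 2 := Finset.card_le_two
    omega
  obtain ⟨c, hca, hcb⟩ := hex
  have htca : t • c ≠ a := by
    intro h
    apply hcb
    rw [← htab', ← h, smul_smul, httinv, one_smul]
  have htcb : t • c ≠ b := by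
    intro h
    apply hca
    rw [← htba, ← h, smul_smul, httinv, one_smul]
  have htcc : t • c ≠ c := by
    intro h
    apply ht1
    have : t • c = (1 : G) • c := by simpa using h
    exact huniq htN N.one_mem this
  have hmem : ∀ {y : X}, y ≠ a → y ≠ b → y ∈ SubMulAction.ofFixingSubgroup G s := by
    intro y h1 h2
    rw [SubMulAction.mem_ofFixingSubgroup_iff]
    rintro (h | h)
    · exact h1 h
    · exact h2 h
  let x₁ : SubMulAction.ofFixingSubgroup G s := ⟨c, hmem hca hcb⟩
  let x₂ : SubMulAction.ofFixingSubgroup G s := ⟨t • c, hmem htca htcb⟩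
  let B : Set (SubMulAction.ofFixingSubgroup G s) := {x₁, x₂}
  -- elements of the fixing subgroup commute with `t`
  have hcomm : ∀ g : fixingSubgroup G s, (g : G) * t = t * (g : G) := by
    intro g
    have hga : (g : G) • a = a := (mem_fixingSubgroup_iff G).mp g.2 a (by simp [s])
    have hgb : (g : G) • b = b := (mem_fixingSubgroup_iff G).mp g.2 b (by simp [s])
    have hga' : (g : G)⁻¹ • a = a := by rw [inv_smul_eq_iff]; exact hga.symm
    have : (g : G) * t * (g : G)⁻¹ = t := by
      apply huniq (x := a) (‹N.Normal›.conj_mem t htN g) htN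
      rw [mul_smul, mul_smul, hga', htab', hgb]
    calc (g : G) * t = (g : G) * t * (g : G)⁻¹ * g := by group
      _ = t * (g : G) := by rw [this]
  have hB : MulAction.IsBlock (fixingSubgroup G s) B := by
    rw [MulAction.isBlock_iff_smul_eq_of_nonempty]
    rintro g ⟨y, hy1, hy2⟩
    obtain ⟨x, hx, rfl⟩ := hy1
    have hval : ∀ z ∈ B, (z : X) = c ∨ (z : X) = t • c := by
      rintro z (rfl | rfl)
      · exact Or.inl rfl
      · exact Or.inr rfl
    have hgt : ∀ y : X, (g : G) • (t • y) = t • ((g : G) • y) := by
      intro y
      rw [smul_smul, hcomm, mul_smul]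
    -- `g c ∈ {c, t c}`
    have hgc : (g : G) • c = c ∨ (g : G) • c = t • c := by
      have h0 : (g : G) • (x : X) = ((g • x : SubMulAction.ofFixingSubgroup G s) : X) := rfl
      have hy3 := hval _ hy2
      rw [← h0] at hy3
      rcases hval _ hx with h | h
      · rw [h] at hy3
        exact hy3
      · rw [h, hgt] at hy3
        rcases hy3 with h4 | h4
        · right
          have : t • (t • ((g : G) • c)) = t • c := by rw [h4]
          rwa [smul_smul, httinv, one_smul] at this
        · left
          exact MulAction.injective t h4
    have hsub : g • B ⊆ B := by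
      rintro _ ⟨z, hz, rfl⟩
      rcases hz with rfl | rfl
      · rcases hgc with h | h
        · left; exact Subtype.ext h
        · right; exact Subtype.ext h
      · rcases hgc with h | h
        · right
          apply Subtype.ext
          change (g : G) • (t • c) = t • c
          rw [hgt, h]
        · left
          apply Subtype.ext
          change (g : G) • (t • c) = c
          rw [hgt, h, smul_smul, httinv, one_smul]
    have hfin : B.Finite := Set.toFinite B
    exact Set.eq_of_subset_of_ncard_le hsub (by rw [Set.ncard_smul_set]) hfin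
  rcases hprim.isTrivialBlock_of_isBlock hB with hsub | huniv
  · exfalso
    have := hsub (show x₁ ∈ B from Or.inl rfl) (show x₂ ∈ B from Or.inr rfl)
    exact htcc (congrArg Subtype.val this).symm
  · have hXall : ∀ y : X, y = a ∨ y = b ∨ y = c ∨ y = t • c := by
      intro y
      by_cases hya : y = a
      · exact Or.inl hya
      by_cases hyb : y = b
      · exact Or.inr (Or.inl hyb)
      have : (⟨y, hmem hya hyb⟩ : SubMulAction.ofFixingSubgroup G s) ∈ B := by rw [huniv]; trivial
      rcases this with h | h
      · exact Or.inr (Or.inr (Or.inl (congrArg Subtype.val h)))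
      · exact Or.inr (Or.inr (Or.inr (congrArg Subtype.val h)))
    have huniv' : (Finset.univ : Finset X) = {a, b, c, t • c} := by
      ext y
      simp only [Finset.mem_univ, Finset.mem_insert, Finset.mem_singleton, true_iff]
      exact hXall y
    rw [← Finset.card_univ, huniv']
    rw [Finset.card_insert_of_notMem, Finset.card_insert_of_notMem, Finset.card_insert_of_notMem, Finset.card_singleton]
    · simpa using htcc.symm
    · simp only [Finset.mem_insert, Finset.mem_singleton, not_or]
      exact ⟨hcb.symm, htcb.symm⟩
    · simp only [Finset.mem_insert, Finset.mem_singleton, not_or]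
      exact ⟨hab, hca.symm, htca.symm⟩

end Cfsg.Agent.S0696
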