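import Mathlib
import Cfsg.Statements.S1160
import Cfsg.Agent.S0126
import Cfsg.Agent.Lib.ConstStab
-- import your own Cfsg.Agent.* helpers here

set_option autoImplicit false
open Cfsg

namespace Cfsg.Agent.S1160

/-- Let `p ≠ 2` be prime and `P` a finite `p`-group acting faithfully by additive automorphisms on a finite elementary abelian `q`-group `E` (`q` prime), such that `|P_a|` is the same for all `a ≠ 0`. Then `P` is cyclic and every non-identity element of `P` fixes only `0`. -/
theorem result {P E : Type*} [Group P] [Finite P]
    [AddCommGroup E] [Finite E] [DistribMulAction P E] [FaithfulSMul P E]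
    {p q : ℕ} [Fact p.Prime] (hp2 : p ≠ 2) (hP : IsPGroup p P) (hq : q.Prime) (hE : ∀ e : E, q • e = 0)
    (hconst : ∀ a b : E, a ≠ 0 → b ≠ 0 →
      Nat.card (MulAction.stabilizer P a) = Nat.card (MulAction.stabilizer P b)) :
    IsCyclic P ∧ ∀ g : P, g ≠ 1 → ∀ a : E, g • a = a → a = 0 := by
  classical
  have hpp : p.Prime := Fact.out
  by_cases hpq : q = p
  · subst hpq
    -- `P` acts trivially
    have hP1 : ∀ g : P, g = 1 := by
      by_cases hE0 : ∀ e : E, e = 0
      · intro g
        apply FaithfulSMul.eq_of_smul_eq_smul (α := E)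
        intro e
        rw [hE0 e]
        simp
      · push Not at hE0
        obtain ⟨e, he⟩ := hE0
        have hord : addOrderOf e = q := addOrderOf_eq_prime (hE e) he
        have hdvd : q ∣ Nat.card E := by
          rw [← hord]
          exact addOrderOf_dvd_natCard e
        have h0 : (0 : E) ∈ MulAction.fixedPoints P E := fun g => smul_zero g
        obtain ⟨b, hb, hne⟩ := hP.exists_fixed_point_of_prime_dvd_card_of_fixed_point E hdvd h0
        have hb0 : b ≠ 0 := fun h => hne h.symm
        have hstab : MulAction.stabilizer P b = ⊤ := by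
          ext g
          simp only [MulAction.mem_stabilizer_iff, Subgroup.mem_top, iff_true]
          exact hb g
        intro g
        apply FaithfulSMul.eq_of_smul_eq_smul (α := E)
        intro a
        rw [one_smul]
        by_cases ha : a = 0
        · rw [ha, smul_zero]
        · have h1 := hconst a b ha hb0
          have h2 : MulAction.stabilizer P a = ⊤ := by
            apply Subgroup.eq_top_of_card_eq
            rw [h1, hstab, Subgroup.card_top]
          have h3 : g ∈ MulAction.stabilizer P a := by rw [h2]; trivial
          exact h3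
    refine ⟨?_, fun g hg => absurd (hP1 g) hg⟩
    have : Subsingleton P := ⟨fun a b => by rw [hP1 a, hP1 b]⟩
    infer_instance
  · have hcop : Nat.Coprime p q := (Nat.coprime_primes hpp hq).2 (Ne.symm hpq)
    obtain ⟨m, _, hm⟩ := Nat.exists_mul_mod_eq_one_of_coprime hcop hq.one_lt
    have hinv : ∀ e : E, (m * p) • e = e := by
      intro e
      have h1 : m * p = q * ((m * p) / q) + 1 := by
        have := Nat.div_add_mod (m * p) q
        rw [mul_comm m p, hm] at this
        rw [mul_comm m p]
        omega
      rw [h1, add_smul, mul_comm, mul_smul, hE e, smul_zero, zero_add, one_smul]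
    have hcyc : IsCyclic P := by
      by_contra hnc
      obtain ⟨A, hAn, hAe, hAc⟩ := Cfsg.Agent.S0126.result hp2 hP hnc
      refine Cfsg.Agent.Lib.ConstStab.no_normal_p2 hp2 hP hinv hconst A hAn ?_ ?_ hAc
      · intro a ha b hb
        have := hAe.1
        have h2 := this.is_comm.comm ⟨a, ha⟩ ⟨b, hb⟩
        exact congrArg Subtype.val h2
      · intro a ha
        exact hAe.2 a ha
    refine ⟨hcyc, ?_⟩
    intro g hg a hga
    obtain ⟨k, hk⟩ := (IsPGroup.iff_orderOf.mp hP) g
    have hk0 : k ≠ 0 := by
      rintro rfl
      rw [pow_zero, orderOf_eq_one_iff] at hk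
      exact hg hk
    obtain ⟨j, rfl⟩ := Nat.exists_eq_succ_of_ne_zero hk0
    set z := g ^ p ^ j with hz
    have hzp : z ^ p = 1 := by
      rw [hz, ← pow_mul, ← pow_succ, ← hk, pow_orderOf_eq_one]
    have hz1 : z ≠ 1 := by
      intro h
      have := orderOf_dvd_of_pow_eq_one h
      rw [hk] at this
      have h2 := Nat.le_of_dvd (pow_pos hpp.pos _) this
      have h3 : p ^ j < p ^ (j + 1) := Nat.pow_lt_pow_right hpp.one_lt (Nat.lt_succ_self j)
      exact absurd h2 (not_le.mpr h3)
    have hzc : z ∈ Subgroup.center P := by
      rw [Subgroup.mem_center_iff]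
      intro h
      have := (IsCyclic.isMulCommutative (α := P)).is_comm.comm h z
      exact this
    have hza : z • a = a := Cfsg.Agent.Lib.ConstStab.pow_smul_of_fixed hga _
    exact Cfsg.Agent.Lib.ConstStab.central_fpf hinv hconst hzc hzp hz1 hza

end Cfsg.Agent.S1160
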