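import Mathlib
import Cfsg.Statements.S4504
import Cfsg.Agent.Lib.WeilG
-- import your own Cfsg.Agent.* helpers here

set_option autoImplicit false
open Cfsg

namespace Cfsg.Agent.S4504

open Cfsg.Agent.Lib.WeilG
open Subgroup Module Cfsg.Agent.Lib.BFaith Cfsg.Agent.Lib.BLat Cfsg.Agent.Lib.RangeLat Cfsg.Agent.Lib.WeilF Cfsg.Agent.Lib.WeilG in
theorem aux_main {G : Type*} [Group G] [Fintype G] [DecidableEq G] {p : ℕ} [hp : Fact p.Prime] {n : ℕ}
    (ρ : G →* Module.End ℂ (Fin n → ℂ)) (hρ : ∀ g, ρ g = 1 → g = 1) {x : G} (hx : orderOf x = p) (hidx : ¬ p ∣ (zpowers x).index)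
    (hnn : ∀ H : Subgroup G, H.Normal → Nat.card H ≠ p) (hdeg : 2 * n + 1 = p) :
    Nonempty ((G ⧸ Subgroup.center G) ≃* Matrix.ProjectiveSpecialLinearGroup (Fin 2) (ZMod p)) := by
  classical
  have hxp : x ^ p = 1 := by rw [← hx, pow_orderOf_eq_one]
  have hx1 : x ≠ 1 := by
    rintro rfl
    rw [orderOf_one] at hx
    exact hp.out.one_lt.ne hx
  have hne : ρ x ≠ 1 := fun h => hx1 (hρ x h)
  have hn0 : n ≠ 0 := by
    rintro rfl
    have := hp.out.one_lt
    omega
  have hρinj : Function.Injective ρ := by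
    rw [injective_iff_map_eq_one]
    exact hρ
  have ht : 2 ≤ n := by
    by_contra hcon
    have hn1 : n = 1 := by omega
    subst hn1
    -- the abelian case
    have hcomm : ∀ A B : Module.End ℂ (Fin 1 → ℂ), A * B = B * A := by
      intro A B
      apply LinearMap.toMatrix'.injective
      rw [LinearMap.toMatrix'_mul, LinearMap.toMatrix'_mul]
      ext i j
      have hi : i = 0 := Subsingleton.elim _ _
      have hj : j = 0 := Subsingleton.elim _ _
      subst hi hj
      rw [Matrix.mul_apply, Matrix.mul_apply, Fin.sum_univ_one, Fin.sum_univ_one]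
      exact mul_comm _ _
    apply hnn (zpowers x) _ (by rw [Nat.card_zpowers, hx])
    refine ⟨fun u hu g => ?_⟩
    have h1 : g * u * g⁻¹ = u := by
      have h3 : g * u = u * g := by
        apply hρinj
        rw [map_mul, map_mul]
        exact hcomm _ _
      rw [h3]
      group
    rwa [h1]
  obtain ⟨M, hM⟩ := Cfsg.Agent.Lib.BlockVal.exists_isPModular hp.out
  obtain ⟨A, hA⟩ := Cfsg.Agent.Lib.RangeChar.exists_dom hM
  haveI : CharP (IsLocalRing.ResidueField A) p := hA.charP hM
  obtain ⟨D⟩ := nonempty_dat (A := A) ρ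
  have hcardG : Nat.card G = p * (zpowers x).index := by
    rw [← Subgroup.card_mul_index (zpowers x), Nat.card_zpowers, hx]
  -- the reduction is faithful
  have hker : ∀ g, redRep D.repT g = 1 → g ^ p = 1 := by
    intro g hg
    have hmod : ¬ p ∣ orderOf (g ^ p) := by
      intro hdvd
      have h1 : orderOf (g ^ p) ∣ (zpowers x).index := by
        apply orderOf_dvd_of_pow_eq_one
        rw [← pow_mul, ← hcardG, pow_card_eq_one']
      exact hidx (hdvd.trans h1)
    have h1 : redRep D.repT (g ^ p) = 1 := by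
      rw [map_pow, hg, one_pow]
    have h2 : ((orderOf (g ^ p) : ℕ) : IsLocalRing.ResidueField A) ≠ 0 := by
      rw [Ne, CharP.cast_eq_zero_iff (IsLocalRing.ResidueField A) p]
      exact hmod
    exact hρ _ (D.rho_eq_one (eq_one_of_red D.repT h1 h2))
  have hinj : Function.Injective (redRep D.repT) := by
    rw [injective_iff_map_eq_one]
    intro g hg
    by_contra hg1
    let K := (redRep D.repT).ker
    have hKp : IsPGroup p K := by
      intro a
      refine ⟨1, ?_⟩
      apply Subtype.ext
      simpa using hker a a.2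
    obtain ⟨a, ha⟩ := IsPGroup.iff_card.1 hKp
    have hdvd : p ^ a ∣ Nat.card G := by
      rw [← ha]
      exact Subgroup.card_subgroup_dvd_card K
    have hgK : g ∈ K := hg
    have ha0 : a ≠ 0 := by
      rintro rfl
      have h1 : Nat.card K = 1 := by simpa using ha
      have h2 := Subgroup.eq_bot_of_card_eq K h1
      rw [h2, Subgroup.mem_bot] at hgK
      exact hg1 hgK
    have ha1 : a = 1 := by
      by_contra hne1
      have h2 : a ≥ 2 := by omega
      have h3 : p ^ 2 ∣ Nat.card G := (pow_dvd_pow p h2).trans hdvd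
      rw [hcardG, sq] at h3
      exact hidx (Nat.dvd_of_mul_dvd_mul_left hp.out.pos h3)
    subst ha1
    exact hnn K inferInstance (by simpa using ha)
  have hcard : finrank (IsLocalRing.ResidueField A) (D.S → IsLocalRing.ResidueField A) ≤ n := by
    rw [Module.finrank_fintype_fun_eq_card, Fintype.card_coe]
    exact D.card_le
  exact main_char_p (redRep D.repT) hinj hx hxp hidx (by omega) (t := n) (by omega) ht hnn (card_conjSub_le ρ hxp hne)
    (fun c hc => central_of_comm ρ hρ hx hidx hnn hdeg (by omega) hc)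


/-- Let G be a finite group whose order is divisible by the prime p exactly once and which has no normal subgroup of order p. If G has a faithful character of degree exactly (p − 1)/2, then G modulo its centre is isomorphic to PSL(2, p). -/
theorem result {G : Type*} [Group G] [Finite G] (p : ℕ) (hp : p.Prime) (hdiv : p ∣ Nat.card G) (hsq : ¬ p ^ 2 ∣ Nat.card G) (hnn : ∀ H : Subgroup G, H.Normal → Nat.card H ≠ p) (χ : G → ℂ) (hχ : Cfsg.IsCharacter G χ) (hfaith : ∀ g : G, χ g = χ 1 → g = 1) (hdeg : 2 * Cfsg.charDegree χ + 1 = p) : Nonempty ((G ⧸ Subgroup.center G) ≃* Matrix.ProjectiveSpecialLinearGroup (Fin 2) (ZMod p)) := by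
  classical
  letI : Fintype G := Fintype.ofFinite G
  haveI : Fact p.Prime := ⟨hp⟩
  obtain ⟨n, ρ, rfl⟩ := hχ
  have hdegn : Cfsg.charDegree ρ.character = n := by
    rw [Cfsg.charDegree, Cfsg.Agent.Lib.CharBasic.char_one_eq_rep]
    simp
  rw [hdegn] at hdeg
  obtain ⟨x, hx⟩ := exists_prime_orderOf_dvd_card' p hdiv
  have hidx : ¬ p ∣ (Subgroup.zpowers x).index := by
    intro h
    apply hsq
    rw [← Subgroup.card_mul_index (Subgroup.zpowers x), Nat.card_zpowers, hx, sq]
    exact mul_dvd_mul_left p h
  refine aux_main (ρ : G →* Module.End ℂ (Fin n → ℂ)) (fun g hg => ?_) hx hidx hnn hdeg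
  apply hfaith
  have h1 : ρ g = ρ 1 := by rw [hg, map_one]
  simp [Representation.character, h1]

end Cfsg.Agent.S4504
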