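import Mathlib
import Cfsg.Statements.S0997
import Cfsg.Agent.Lib.BT97E
import Cfsg.Agent.S4504
import Cfsg.Agent.S4705
import Cfsg.Agent.Lib.RigP
import Cfsg.Agent.Lib.BFaith
import Cfsg.Agent.Lib.ClassicalSmall
import Cfsg.Agent.Lib.Deg2pVal
import Cfsg.Agent.Lib.SchurCoset46

set_option autoImplicit false
set_option linter.style.haveILetI false
set_option linter.unusedVariables false
open Cfsg

namespace Cfsg.Agent.S0997

open Cfsg.Agent.Lib.CharBasic Subgroup Cfsg.Agent.Lib.TICent Cfsg.Agent.Lib.RigA Cfsg.Agent.Lib.RigB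
open Cfsg.Agent.Lib.BT97B Cfsg.Agent.Lib.BT97E Cfsg.Agent.Lib.RigO Cfsg.Agent.Lib.DefectOne Cfsg.Agent.Lib.CharInd
open Cfsg.Agent.Lib.RangeStruct

/-- The numerics for `PSL(2, p)`. -/
theorem first_of_iso {G : Type*} [Group G] [Finite G] (p q b d : ℕ) (hp : p.Prime) (hq : q.Prime)
    (hG' : Nat.card G = p * q ^ b * d) (hd : 2 * d + 1 = p) (hd0 : 0 < d)
    (e : G ≃* Matrix.ProjectiveSpecialLinearGroup (Fin 2) (ZMod p)) :
    ∃ (m : ℕ) (F : Type) (_ : Field F) (_ : Fintype F), Fintype.card F = p ∧ (p = 2 ^ m + 1 ∨ p = 2 ^ m - 1) ∧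
      Nonempty (G ≃* Matrix.ProjectiveSpecialLinearGroup (Fin 2) F) := by
  haveI : Fact p.Prime := ⟨hp⟩
  have hc := Cfsg.Agent.Lib.ClassicalSmall.card_PSL2 (F := ZMod p)
  rw [ZMod.card, ← Nat.card_congr e.toEquiv, hG'] at hc
  have h2 : Nat.gcd 2 (p - 1) = 2 := by
    apply Nat.gcd_eq_left
    exact ⟨d, by omega⟩
  rw [h2] at hc
  have h3 : q ^ b = p + 1 := by
    have h4 : p - 1 = 2 * d := by omega
    rw [h4] at hc
    have hpos : 0 < 2 * p * d := by
      have := hp.pos
      positivity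
    apply Nat.eq_of_mul_eq_mul_left hpos
    linear_combination hc
  have hq2 : q = 2 := by
    have h5 : 2 ∣ q ^ b := by
      rw [h3]
      exact ⟨d + 1, by omega⟩
    exact ((Nat.prime_dvd_prime_iff_eq Nat.prime_two hq).1 (Nat.prime_two.dvd_of_dvd_pow h5)).symm
  subst hq2
  refine ⟨b, ZMod p, inferInstance, inferInstance, ZMod.card p, Or.inr (by omega), ⟨e⟩⟩

/-- `PSL(2, F)` when `SL(2, F)` has trivial centre. -/
theorem psl_of_sl {G : Type*} [Group G] {F : Type} [Field F] (hbot : center G = ⊥)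
    (e : G ≃* Matrix.SpecialLinearGroup (Fin 2) F) : Nonempty (G ≃* Matrix.ProjectiveSpecialLinearGroup (Fin 2) F) := by
  have h1 : center (Matrix.SpecialLinearGroup (Fin 2) F) = ⊥ := by
    rw [eq_bot_iff]
    intro A hA
    have h2 : e.symm A ∈ center G := by
      rw [mem_center_iff]
      intro g
      apply e.injective
      rw [map_mul, map_mul, MulEquiv.apply_symm_apply]
      exact mem_center_iff.1 hA (e g)
    rw [hbot, mem_bot] at h2
    rw [mem_bot]
    have h3 := congrArg e h2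
    rw [MulEquiv.apply_symm_apply, map_one] at h3
    exact h3
  exact ⟨e.trans ((QuotientGroup.quotientMulEquivOfEq h1).trans QuotientGroup.quotientBot).symm⟩

/-- The main argument, for a self-centralizing Sylow subgroup of prime order. -/
theorem main_cent {G : Type*} [Group G] [Fintype G] [DecidableEq G] [IsSimpleGroup G] (hG : ¬ IsCyclic G)
    (hperf : _root_.commutator G = ⊤) (hZ : ∀ c : G, (∀ g : G, c * g = g * c) → c = 1) (hbot : center G = ⊥)
    (hfaith : ∀ χ : IrrCharacter G, χ ≠ oneIrr G → ∀ g : G, (χ : G → ℂ) g = (χ : G → ℂ) 1 → g = 1)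
    (p q b g₀ : ℕ) [hpF : Fact p.Prime] (hq : q.Prime) (hG' : Nat.card G = p * q ^ b * g₀) (hg : g₀ < p - 1) (hg0 : 0 < g₀)
    (hnd : ¬ p ∣ q ^ b * g₀)
    (S : Sylow p G) (hcard : Nat.card (S : Subgroup G) = p) (hC : centralizer ((S : Subgroup G) : Set G) = S) :
    (∃ (m : ℕ) (F : Type) (_ : Field F) (_ : Fintype F), Fintype.card F = p ∧ (p = 2 ^ m + 1 ∨ p = 2 ^ m - 1) ∧
      Nonempty (G ≃* Matrix.ProjectiveSpecialLinearGroup (Fin 2) F)) ∨
    (∃ (m : ℕ) (F : Type) (_ : Field F) (_ : Fintype F), Fintype.card F = 2 ^ m ∧ p = 2 ^ m + 1 ∧ 3 < p ∧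
      Nonempty (G ≃* Matrix.ProjectiveSpecialLinearGroup (Fin 2) F)) := by
  have hp : p.Prime := hpF.out
  have hidx : ¬ p ∣ (S : Subgroup G).index := S.not_dvd_index
  have H₀ := hyp_of hp hcard hC
  letI : Fintype ↥(S : Subgroup G) := Fintype.ofFinite _
  letI : Fintype ↥(MonoidHom.id ↥(S : Subgroup G)).ker := Fintype.ofFinite _
  have hc : ∀ u ∈ (S : Subgroup G), ∀ v ∈ (S : Subgroup G), u * v = v * u := fun u hu v hv => (H₀.comm_P hu hv).symm
  haveI : Finite (↥(S : Subgroup G) →* ℂˣ) := dual_finite hc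
  letI : Fintype (↥(S : Subgroup G) →* ℂˣ) := Fintype.ofFinite _
  obtain ⟨t, hN⟩ : ∃ t, Nat.card (normalizer ((S : Subgroup G) : Set G)) = Nat.card (S : Subgroup G) * t := by
    refine ⟨((S : Subgroup G).subgroupOf (normalizer ((S : Subgroup G) : Set G))).index, ?_⟩
    have h3 := Subgroup.card_mul_index ((S : Subgroup G).subgroupOf (normalizer ((S : Subgroup G) : Set G)))
    have h4 : Nat.card ((S : Subgroup G).subgroupOf (normalizer ((S : Subgroup G) : Set G))) = Nat.card (S : Subgroup G) :=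
      Nat.card_congr (Subgroup.subgroupOfEquivOfLe H₀.le_normalizer).toEquiv
    rw [h4] at h3
    exact h3.symm
  obtain ⟨M, hM⟩ := Cfsg.Agent.Lib.BlockVal.exists_isPModular hp
  obtain ⟨D⟩ := exists_dat H₀ hcard hidx hM hN
  obtain ⟨z₀, hz₀⟩ : ∃ z : ↥(S : Subgroup G), z ≠ 1 := by
    haveI : Nontrivial ↥(S : Subgroup G) := by
      rw [← Finite.one_lt_card_iff_nontrivial, hcard]
      exact hp.one_lt
    exact exists_ne 1
  obtain ⟨f₀', hf₀⟩ := exists_hom_ne (A := ↥(S : Subgroup G)) (fun a b => Subtype.ext (hc a a.2 b b.2)) hz₀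
  have hf₁ : f₀' ≠ 1 := by
    rintro rfl
    exact hf₀ rfl
  obtain ⟨f₀, hf₀'⟩ : ∃ f₀ : NT (S : Subgroup G), f₀ = ⟨f₀', hf₁⟩ := ⟨_, rfl⟩
  obtain ⟨hne, hqd, hdg, hcases, hsum⟩ := stepA H₀ hperf D hcard hN hq hG' hg f₀
  have hmul : Nat.card (Set.range D.ξ) * t = p - 1 := D.hrange
  have hrpos : 0 < Nat.card (Set.range D.ξ) := by
    haveI : Nonempty (Set.range D.ξ) := ⟨⟨D.ξ f₀, f₀, rfl⟩⟩
    exact Nat.card_pos
  have hf' : ∀ g : G, ((D.ξ f₀ : IrrCharacter G) : G → ℂ) g = ((D.ξ f₀ : IrrCharacter G) : G → ℂ) 1 → g = 1 :=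
    fun g hg => hfaith _ hne g hg
  have hdeg0 : 0 < charDegree ((D.ξ f₀ : IrrCharacter G) : G → ℂ) := Cfsg.Agent.Lib.CharKernel.charDegree_pos (D.ξ f₀).2
  have hdiv : p ∣ Nat.card G := by
    rw [hG', mul_assoc]
    exact dvd_mul_right _ _
  have hsq : ¬ p ^ 2 ∣ Nat.card G := by
    intro h
    rw [hG', mul_assoc, sq] at h
    exact hnd (Nat.dvd_of_mul_dvd_mul_left hp.pos h)
  have hnn : ∀ K : Subgroup G, K.Normal → Nat.card K ≠ p := by
    intro K hK hcK
    rcases hK.eq_bot_or_eq_top with h | h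
    · rw [h, Subgroup.card_bot] at hcK
      exact hp.one_lt.ne hcK
    · rw [h, Nat.card_congr Subgroup.topEquiv.toEquiv] at hcK
      exact hG (isCyclic_of_prime_card hcK)
  obtain ⟨d, hdd⟩ : ∃ d, d = charDegree ((D.ξ f₀ : IrrCharacter G) : G → ℂ) := ⟨_, rfl⟩
  rw [← hdd] at hdg hdeg0
  rcases hcases with ⟨hσ, hdt, -⟩ | ⟨hσ, hdt, -⟩
  · -- sign `+1`
    left
    rw [← hdd] at hdt
    subst hdt
    have h1 := Cfsg.Agent.Lib.BFaith.two_mul_deg_add_one p hp hdiv hsq hnn _ (IsIrrCharacter.isCharacter (D.ξ f₀).2) hf'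
    rw [← hdd] at h1
    have hτ : 2 ≤ Nat.card (Set.range D.ξ) := by
      by_contra hcon
      have h2 : Nat.card (Set.range D.ξ) = 1 := by omega
      rw [h2, one_mul] at hmul
      have h3 := Nat.le_of_dvd hg0 hdg
      omega
    have h2t : 2 * d ≤ p - 1 := by
      rw [← hmul]
      exact Nat.mul_le_mul_right _ hτ
    have hp1 := hp.one_lt
    have hd2 : 2 * d + 1 = p := by omega
    have hgd : g₀ = d := by
      obtain ⟨k, hk⟩ := hdg
      have hk0 : k ≠ 0 := by
        rintro rfl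
        rw [mul_zero] at hk
        omega
      by_contra hne1
      have hk2 : 2 ≤ k := by
        by_contra h3
        have : k = 1 := by omega
        rw [this, mul_one] at hk
        exact hne1 hk
      have h4 : d * 2 ≤ d * k := Nat.mul_le_mul_left _ hk2
      omega
    obtain ⟨e⟩ := Cfsg.Agent.S4504.result p hp hdiv hsq hnn _ (IsIrrCharacter.isCharacter (D.ξ f₀).2) hf' (by rw [← hdd]; exact hd2)
    have e' : G ≃* Matrix.ProjectiveSpecialLinearGroup (Fin 2) (ZMod p) :=
      (QuotientGroup.quotientBot.symm.trans (QuotientGroup.quotientMulEquivOfEq hbot.symm)).trans e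
    rw [hgd] at hG'
    exact first_of_iso p q b d hp hq hG' hd2 hdeg0 e'
  · -- sign `-1`
    obtain ⟨hq2, hgd, ht, ht2, hτ⟩ := minus_setup H₀ hperf D hcard hidx hN hq hG' hg f₀ hne hσ hdt (by rw [← hdd]; exact hdg)
    rw [← hdd] at hdt hgd
    subst hq2
    subst hgd
    rcases Nat.lt_or_ge (Nat.card (Set.range D.ξ)) 3 with hτ3 | hτ3
    · -- two exceptional characters
      have hτ2 : Nat.card (Set.range D.ξ) = 2 := by omega
      have hn := tau2 S H₀ hperf D hcard hN hG' hg f₀ hne hσ hdd.symm hdt ht hτ2 hfaith hZ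
      have hz := Cfsg.Agent.Lib.SmallGroups2.orderOf_eq_of_mem_of_ne_one hp hcard z₀.2 (fun h => hz₀ (Subtype.ext h))
      have hCz : centralizer ({(z₀ : G)} : Set G) = zpowers (z₀ : G) := by
        rw [Cfsg.Agent.Lib.RangeP0.star_of_prime hp hcard _ z₀.2 (fun h => hz₀ (Subtype.ext h)), hC,
          Cfsg.Agent.Lib.SmallGroups2.zpowers_eq_of_mem_of_ne_one hp hcard z₀.2 (fun h => hz₀ (Subtype.ext h))]
      rcases Cfsg.Agent.Lib.RigP.s0996 hperf p (z₀ : G) hz hCz hn with ⟨F, hF, hFi, hFc, -, hi⟩ | h2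
      · left
        obtain ⟨c, -, hcc⟩ := (Nat.dvd_prime_pow Nat.prime_two).1 ht
        refine ⟨c + 1, F, hF, hFi, hFc, Or.inl ?_, hi⟩
        rw [hτ2, hcc] at hmul
        have hp1 := hp.one_lt
        rw [pow_succ]
        omega
      · right
        exact h2
    · rcases Nat.lt_or_ge t 3 with ht3 | ht3
      · -- `t = 2`
        have htt : t = 2 := by omega
        subst htt
        right
        have hp5 : 5 < p := by
          have : 3 * 2 ≤ Nat.card (Set.range D.ξ) * 2 := Nat.mul_le_mul_right _ hτ3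
          omega
        obtain ⟨a, F, hF, hFi, hpa, hFc, ⟨e⟩⟩ := Cfsg.Agent.S4705.result p hp5 S hcard (fun hnormal => hnn _ hnormal hcard) _ (D.ξ f₀).2 hf'
          (by rw [← hdd]; omega)
        haveI : Unique ↥(center G) := by
          rw [hbot]
          infer_instance
        exact ⟨a, F, hF, hFi, hFc, hpa, by omega, psl_of_sl hbot (e.trans MulEquiv.prodUnique)⟩
      · exact (tau3_false H₀ hperf D hcard hG' hg f₀ hne hσ hdd.symm hdt ht ht3 hτ3).elim

/-- Let G be a non-cyclic finite simple group of order p * q^b * g₀, where p and q are distinct primes and g₀ < p - 1. Then either p has the form 2^m + 1 or 2^m - 1 and G is isomorphic to the projective special linear group of dimension 2 over the field with p elements, or p = 2^m + 1 > 3 and G is isomorphic to that group over the field with 2^m elements. -/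
theorem result {G : Type*} [Group G] [Finite G] [IsSimpleGroup G] (hG : ¬ IsCyclic G) (p q b g₀ : ℕ) (hp : p.Prime) (hq : q.Prime) (hpq : p ≠ q) (hG' : Nat.card G = p * q ^ b * g₀) (hg : g₀ < p - 1) : (∃ (m : ℕ) (F : Type) (_ : Field F) (_ : Fintype F), Fintype.card F = p ∧ (p = 2 ^ m + 1 ∨ p = 2 ^ m - 1) ∧ Nonempty (G ≃* Matrix.ProjectiveSpecialLinearGroup (Fin 2) F)) ∨ (∃ (m : ℕ) (F : Type) (_ : Field F) (_ : Fintype F), Fintype.card F = 2 ^ m ∧ p = 2 ^ m + 1 ∧ 3 < p ∧ Nonempty (G ≃* Matrix.ProjectiveSpecialLinearGroup (Fin 2) F)) := by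
  classical
  letI : Fintype G := Fintype.ofFinite G
  haveI hpF : Fact p.Prime := ⟨hp⟩
  have hna : ¬ IsMulCommutative G := by
    intro hc
    have hp' := Cfsg.Agent.Lib.SmallGroups2.card_prime_of_isMulCommutative hc
    haveI : Fact (Nat.card G).Prime := ⟨hp'⟩
    exact hG (isCyclic_of_prime_card rfl)
  obtain ⟨a, c, hac⟩ : ∃ a c : G, a * c ≠ c * a := by
    by_contra h
    push Not at h
    exact hna ⟨⟨h⟩⟩
  have hperf : _root_.commutator G = ⊤ :=
    Cfsg.Agent.Lib.SchurCoset46.commutator_eq_top_of_simple (MonoidHom.id G) Function.surjective_id hac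
  have hbot : center G = ⊥ := by
    rcases (inferInstance : (center G).Normal).eq_bot_or_eq_top with h | h
    · exact h
    · exfalso
      have h1 : c ∈ center G := by
        rw [h]
        exact mem_top _
      exact hac (mem_center_iff.1 h1 a)
  have hZ : ∀ c : G, (∀ g : G, c * g = g * c) → c = 1 := by
    intro c hc
    have h1 : c ∈ center G := mem_center_iff.2 (fun g => (hc g).symm)
    rw [hbot] at h1
    exact h1
  have hfaith : ∀ χ : IrrCharacter G, χ ≠ oneIrr G → ∀ g : G, (χ : G → ℂ) g = (χ : G → ℂ) 1 → g = 1 :=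
    fun χ hχ g hg => Cfsg.Agent.Lib.Deg2pData.eq_one_of_char_eq_degree hna hχ hg
  have hg0 : 0 < g₀ := by
    rcases Nat.eq_zero_or_pos g₀ with h4 | h4
    · rw [h4, mul_zero] at hG'
      exact absurd hG' Nat.card_pos.ne'
    · exact h4
  have hnd : ¬ p ∣ q ^ b * g₀ := by
    intro h
    rcases (Nat.Prime.dvd_mul hp).1 h with h1 | h1
    · exact hpq ((Nat.prime_dvd_prime_iff_eq hp hq).1 (hp.dvd_of_dvd_pow h1))
    · have := Nat.le_of_dvd hg0 h1
      omega
  have hfac : (Nat.card G).factorization p = 1 := by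
    have h0 : q ^ b * g₀ ≠ 0 := fun h => hnd (h ▸ dvd_zero p)
    rw [hG', mul_assoc, Nat.factorization_mul hp.ne_zero h0, Finsupp.add_apply, hp.factorization_self,
      Nat.factorization_eq_zero_of_not_dvd hnd]
  obtain ⟨S⟩ : Nonempty (Sylow p G) := inferInstance
  have hcard : Nat.card (S : Subgroup G) = p := by
    rw [Sylow.card_eq_multiplicity, hfac, pow_one]
  have hidx : ¬ p ∣ (S : Subgroup G).index := S.not_dvd_index
  obtain ⟨r, e, H⟩ := exists_hyp p hp S (fun x hx hx1 => Cfsg.Agent.Lib.RangeP0.star_of_prime hp hcard x hx hx1) (by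
    rw [hcard]
    exact hp.one_lt)
  letI : Fintype ↥(S : Subgroup G) := Fintype.ofFinite _
  letI : Fintype (centralizer ((S : Subgroup G) : Set G)) := Fintype.ofFinite _
  letI : Fintype r.ker := Fintype.ofFinite _
  have hc : ∀ u ∈ (S : Subgroup G), ∀ v ∈ (S : Subgroup G), u * v = v * u := fun u hu v hv => (H.comm_P hu hv).symm
  haveI : Finite (↥(S : Subgroup G) →* ℂˣ) := dual_finite hc
  letI : Fintype (↥(S : Subgroup G) →* ℂˣ) := Fintype.ofFinite _
  obtain ⟨t, hN⟩ : ∃ t, Nat.card (normalizer ((S : Subgroup G) : Set G)) = Nat.card (centralizer ((S : Subgroup G) : Set G)) * t := by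
    refine ⟨((centralizer ((S : Subgroup G) : Set G)).subgroupOf (normalizer ((S : Subgroup G) : Set G))).index, ?_⟩
    have h3 := Subgroup.card_mul_index ((centralizer ((S : Subgroup G) : Set G)).subgroupOf (normalizer ((S : Subgroup G) : Set G)))
    have h4 : Nat.card ((centralizer ((S : Subgroup G) : Set G)).subgroupOf (normalizer ((S : Subgroup G) : Set G))) = Nat.card (centralizer ((S : Subgroup G) : Set G)) :=
      Nat.card_congr (Subgroup.subgroupOfEquivOfLe H.le_normalizer).toEquiv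
    rw [h4] at h3
    exact h3.symm
  obtain ⟨M, hM⟩ := Cfsg.Agent.Lib.BlockVal.exists_isPModular hp
  obtain ⟨D⟩ := exists_dat H hcard hidx hM hN
  obtain ⟨z₀, hz₀⟩ : ∃ z : ↥(S : Subgroup G), z ≠ 1 := by
    haveI : Nontrivial ↥(S : Subgroup G) := by
      rw [← Finite.one_lt_card_iff_nontrivial, hcard]
      exact hp.one_lt
    exact exists_ne 1
  obtain ⟨f₀, hf₀⟩ := exists_hom_ne (A := ↥(S : Subgroup G)) (fun a b => Subtype.ext (hc a a.2 b b.2)) hz₀
  have hf₁ : f₀ ≠ 1 := by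
    rintro rfl
    exact hf₀ rfl
  have hC := C_eq_P H hperf D hcard hN hq hG' hg ⟨f₀, hf₁⟩ hfaith
  exact main_cent hG hperf hZ hbot hfaith p q b g₀ hq hG' hg hg0 hnd S hcard hC

end Cfsg.Agent.S0997
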