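import Mathlib
import Cfsg.Statements.S3370
import Cfsg.Agent.Lib.UniqueSub

set_option autoImplicit false
set_option linter.style.haveILetI false
set_option linter.unusedSectionVars false
open Cfsg

namespace Cfsg.Agent.S3370

theorem a1 {p a n : ℕ} (hp : p.Prime) (hodd : p ≠ 2) (h : 2 ^ n = p ^ a + 1) (ha : a ≠ 0) : a = 1 := by
  have hpodd : p % 2 = 1 := hp.eq_two_or_odd.resolve_left hodd
  rcases Nat.even_or_odd' a with ⟨c, rfl | rfl⟩
  · -- even exponent: square is 1 mod 8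
    exfalso
    have h8 : p * p % 8 = 1 := by
      have h1 : p % 8 = 1 ∨ p % 8 = 3 ∨ p % 8 = 5 ∨ p % 8 = 7 := by omega
      rcases h1 with h1 | h1 | h1 | h1 <;> simp [Nat.mul_mod, h1]
    have h9 : p ^ (2 * c) % 8 = 1 := by
      rw [pow_mul, pow_two, Nat.pow_mod, h8]
      simp
    rcases n with _ | _ | _ | n
    · have : 0 < p ^ (2 * c) := pow_pos hp.pos _
      simp at h
      omega
    · have : p ^ (2 * c) = 1 := by
        have h2 : 2 ^ (0 + 1) = 2 := rfl
        rw [h2] at h; omega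
      have hc : 2 * c = 0 := by
        by_contra hne
        have h' := (Nat.pow_eq_one.mp this).resolve_right hne
        exact hp.one_lt.ne' h'
      omega
    · norm_num at h
      omega
    · have h2 : 2 ^ (n + 1 + 1 + 1) = 8 * 2 ^ n := by ring
      rw [h2] at h
      omega
  · -- odd exponent
    have hd : p + 1 ∣ 2 ^ n := by
      rw [h]
      have := Odd.nat_add_dvd_pow_add_pow p 1 (n := 2 * c + 1) (by simp)
      simpa using this
    obtain ⟨k, hk, hpk⟩ := (Nat.dvd_prime_pow Nat.prime_two).mp hd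
    obtain ⟨r, hr⟩ : ∃ r, p = 2 * r + 1 := ⟨p / 2, by omega⟩
    have hsq : p * p = 1 + r * 2 ^ (k + 1) := by
      have : p * p = 1 + r * 2 * (p + 1) := by
        rw [hr]; ring
      rw [this, hpk, pow_succ]; ring
    have hmod : p * p ≡ 1 [MOD 2 ^ (k + 1)] := by
      rw [hsq]
      simp [Nat.ModEq]
    have hpow : p ^ (2 * c + 1) ≡ p [MOD 2 ^ (k + 1)] := by
      have h1 : (p * p) ^ c ≡ 1 ^ c [MOD 2 ^ (k + 1)] := hmod.pow c
      have h2 : (p * p) ^ c * p ≡ 1 ^ c * p [MOD 2 ^ (k + 1)] := h1.mul_right p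
      have h3 : (p * p) ^ c * p = p ^ (2 * c + 1) := by ring
      rw [h3] at h2
      simpa using h2
    have h5 : 2 ^ n ≡ 2 ^ k [MOD 2 ^ (k + 1)] := by
      rw [h, ← hpk]
      exact hpow.add_right 1
    have hkn : k = n := by
      by_contra hne
      have hlt : k < n := lt_of_le_of_ne hk hne
      have h6 : 2 ^ (k + 1) ∣ 2 ^ n := pow_dvd_pow 2 hlt
      have h7 : 2 ^ n % 2 ^ (k + 1) = 0 := Nat.mod_eq_zero_of_dvd h6
      have h8 : 2 ^ k % 2 ^ (k + 1) = 2 ^ k :=
        Nat.mod_eq_of_lt (Nat.pow_lt_pow_right (by norm_num) (by omega))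
      unfold Nat.ModEq at h5
      rw [h7, h8] at h5
      have : 0 < 2 ^ k := by positivity
      omega
    subst hkn
    have h6 : p ^ (2 * c + 1) = p ^ 1 := by
      rw [pow_one]; omega
    have := Nat.pow_right_injective hp.two_le h6
    omega

theorem a2 {q n a : ℕ} (hq : q.Prime) (hq2 : q ≠ 2) (hn : 2 ≤ n) (h : q ^ n = 2 ^ a + 1) :
    q = 3 ∧ n = 2 := by
  have hqodd : q % 2 = 1 := hq.eq_two_or_odd.resolve_left hq2
  have hq3 : 3 ≤ q := by have := hq.two_le; omega
  rcases Nat.even_or_odd' n with ⟨c, rfl | rfl⟩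
  · -- even
    have hc : 1 ≤ c := by omega
    set y := q ^ c with hy
    have hy3 : 3 ≤ y := by
      calc 3 ≤ q := hq3
        _ = q ^ 1 := (pow_one q).symm
        _ ≤ q ^ c := Nat.pow_le_pow_right (by omega) hc
    have hyodd : y % 2 = 1 := by
      rw [hy, Nat.pow_mod, hqodd]; simp
    have hyy : y * y = 2 ^ a + 1 := by
      rw [← h, hy, pow_mul, pow_two]
      ring
    have hprod : (y - 1) * (y + 1) = 2 ^ a := by
      obtain ⟨z, hz⟩ : ∃ z, y = z + 1 := ⟨y - 1, by omega⟩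
      rw [hz] at hyy ⊢
      simp only [Nat.add_sub_cancel]
      nlinarith
    obtain ⟨i, -, hi⟩ := (Nat.dvd_prime_pow Nat.prime_two).mp (Dvd.intro _ hprod)
    obtain ⟨j, -, hj⟩ := (Nat.dvd_prime_pow Nat.prime_two).mp (Dvd.intro_left _ hprod)
    have hij : 2 ^ j = 2 ^ i + 2 := by omega
    have hi1 : i = 1 := by
      rcases i with _ | _ | i
      · simp at hi; omega
      · rfl
      · exfalso
        have h1 : 2 ^ (i + 1 + 1) = 4 * 2 ^ i := by ring
        rw [h1] at hij
        rcases j with _ | _ | j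
        · simp at hij
        · simp at hij
        · have h2 : 2 ^ (j + 1 + 1) = 4 * 2 ^ j := by ring
          rw [h2] at hij
          omega
    subst hi1
    have hy3' : y = 3 := by simp at hi; omega
    have h3 := (Nat.Prime.pow_eq_iff Nat.prime_three).mp (hy.symm.trans hy3')
    exact ⟨h3.1, by omega⟩
  · -- odd
    exfalso
    have hc : 1 ≤ c := by omega
    have hd : q - 1 ∣ 2 ^ a := by
      have h1 := Nat.sub_dvd_pow_sub_pow q 1 (2 * c + 1)
      have h2 : q ^ (2 * c + 1) - 1 ^ (2 * c + 1) = 2 ^ a := by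
        rw [h]; simp
      rwa [h2] at h1
    obtain ⟨k, hk, hqk⟩ := (Nat.dvd_prime_pow Nat.prime_two).mp hd
    obtain ⟨s, hs⟩ : ∃ s, q + 1 = 2 * s := ⟨(q + 1) / 2, by omega⟩
    have hqq : q = 2 ^ k + 1 := by omega
    have hsq : q * q = 1 + s * 2 ^ (k + 1) := by
      have h1 : q * q = 1 + (q - 1) * (q + 1) := by
        obtain ⟨z, hz⟩ : ∃ z, q = z + 1 := ⟨q - 1, by omega⟩
        rw [hz]
        simp only [Nat.add_sub_cancel]
        ring
      rw [h1, hqk, hs, pow_succ]; ring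
    have hmod : q * q ≡ 1 [MOD 2 ^ (k + 1)] := by
      rw [hsq]
      simp [Nat.ModEq]
    have hpow : q ^ (2 * c + 1) ≡ q [MOD 2 ^ (k + 1)] := by
      have h1 : (q * q) ^ c ≡ 1 ^ c [MOD 2 ^ (k + 1)] := hmod.pow c
      have h2 : (q * q) ^ c * q ≡ 1 ^ c * q [MOD 2 ^ (k + 1)] := h1.mul_right q
      have h3 : (q * q) ^ c * q = q ^ (2 * c + 1) := by ring
      rw [h3] at h2
      simpa using h2
    have h5 : 2 ^ a + 1 ≡ 2 ^ k + 1 [MOD 2 ^ (k + 1)] := by
      rw [← h, ← hqq]
      exact hpow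
    have h5' : 2 ^ a ≡ 2 ^ k [MOD 2 ^ (k + 1)] := Nat.ModEq.add_right_cancel' 1 h5
    have hka : k = a := by
      by_contra hne
      have hlt : k < a := lt_of_le_of_ne hk hne
      have h6 : 2 ^ (k + 1) ∣ 2 ^ a := pow_dvd_pow 2 hlt
      have h7 : 2 ^ a % 2 ^ (k + 1) = 0 := Nat.mod_eq_zero_of_dvd h6
      have h8 : 2 ^ k % 2 ^ (k + 1) = 2 ^ k :=
        Nat.mod_eq_of_lt (Nat.pow_lt_pow_right (by norm_num) (by omega))
      unfold Nat.ModEq at h5'
      rw [h7, h8] at h5'
      have : 0 < 2 ^ k := by positivity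
      omega
    subst hka
    have h6 : q ^ (2 * c + 1) = q ^ 1 := by
      rw [pow_one]; omega
    have := Nat.pow_right_injective hq.two_le h6
    omega


section GroupPart

variable {q : ℕ} {V : Type*} [AddCommGroup V] [Module (ZMod q) V]
  {G : Type*} [Group G]

/-- The stabilizer of a vector. -/
def stab (ρ : G →* (V ≃ₗ[ZMod q] V)) (v : V) : Subgroup G where
  carrier := {g | ρ g v = v}
  mul_mem' := by
    intro a b ha hb
    simp only [Set.mem_ofPred_eq, map_mul] at *
    rw [LinearEquiv.mul_apply, hb, ha]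
  one_mem' := by simp
  inv_mem' := by
    intro a ha
    simp only [Set.mem_ofPred_eq] at *
    have h1 : ρ a⁻¹ (ρ a v) = v := by
      rw [← LinearEquiv.mul_apply, ← map_mul]; simp
    rw [ha] at h1
    exact h1

theorem mem_stab {ρ : G →* (V ≃ₗ[ZMod q] V)} {v : V} {g : G} : g ∈ stab ρ v ↔ ρ g v = v := Iff.rfl

/-- The action of `G` on `V`. -/
@[reducible] def act (ρ : G →* (V ≃ₗ[ZMod q] V)) : MulAction G V where
  smul g v := ρ g v
  one_smul v := by
    show ρ 1 v = v
    simp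
  mul_smul a b v := by
    show ρ (a * b) v = ρ a (ρ b v)
    rw [map_mul, LinearEquiv.mul_apply]

theorem eq_one_of_fix {ρ : G →* (V ≃ₗ[ZMod q] V)} (hρ : Function.Injective ρ) {g : G}
    (h : ∀ v, ρ g v = v) : g = 1 := by
  apply hρ
  rw [map_one]
  ext v
  simpa using h v

theorem card_formula [Finite V] [Finite G] (ρ : G →* (V ≃ₗ[ZMod q] V))
    (htrans : ∀ v w : V, v ≠ 0 → w ≠ 0 → ∃ g : G, ρ g v = w) (v₀ : V) (h0 : v₀ ≠ 0) :
    Nat.card G = (Nat.card V - 1) * Nat.card (stab ρ v₀) := by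
  classical
  letI := act ρ
  have horb : MulAction.orbit G v₀ = ({0} : Set V)ᶜ := by
    ext w
    simp only [MulAction.mem_orbit_iff, Set.mem_compl_iff, Set.mem_singleton_iff]
    constructor
    · rintro ⟨g, rfl⟩
      show ρ g v₀ ≠ 0
      simpa using h0
    · intro hw
      exact htrans v₀ w h0 hw
  have hidx := MulAction.index_stabilizer G v₀
  have h1 := Subgroup.card_mul_index (MulAction.stabilizer G v₀)
  rw [hidx, horb, Set.ncard_compl, Set.ncard_singleton] at h1
  have hs : stab ρ v₀ = MulAction.stabilizer G v₀ := by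
    ext g
    rfl
  rw [hs, ← h1, mul_comm]

end GroupPart

section One

variable {q : ℕ} [Fact q.Prime] {V : Type*} [AddCommGroup V] [Module (ZMod q) V]
  {G : Type*} [Group G]

theorem one_dim [Finite V] [Finite G] (ρ : G →* (V ≃ₗ[ZMod q] V))
    (hρ : Function.Injective ρ) (v₀ : V) (h0 : v₀ ≠ 0)
    (hdim : Module.finrank (ZMod q) V = 1) :
    IsCyclic G ∧ stab ρ v₀ = ⊥ := by
  classical
  have hspan : ∀ w : V, ∃ c : ZMod q, c • v₀ = w := (finrank_eq_one_iff_of_nonzero' v₀ h0).mp hdim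
  choose c hc using hspan
  have hinj : ∀ a b : ZMod q, a • v₀ = b • v₀ → a = b := fun a b h => smul_left_injective _ h0 h
  have hmul : ∀ g h : G, c (ρ (g * h) v₀) = c (ρ g v₀) * c (ρ h v₀) := by
    intro g h
    apply hinj
    rw [hc, map_mul, LinearEquiv.mul_apply, mul_comm, mul_smul, hc (ρ g v₀)]
    conv_lhs => rw [← hc (ρ h v₀)]
    rw [map_smul]
  have hone : c (ρ 1 v₀) = 1 := by
    apply hinj
    rw [hc]
    simp
  let χ : G →* ZMod q :=
    { toFun := fun g => c (ρ g v₀)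
      map_one' := hone
      map_mul' := hmul }
  have hfix : ∀ g : G, ρ g v₀ = v₀ → g = 1 := by
    intro g hg
    apply eq_one_of_fix hρ
    intro v
    rw [← hc v, map_smul, hg]
  have hχ : Function.Injective χ := by
    rw [injective_iff_map_eq_one]
    intro g hg
    apply hfix
    have h1 : c (ρ g v₀) = 1 := hg
    rw [← hc (ρ g v₀), h1, one_smul]
  refine ⟨isCyclic_of_subgroup_isDomain χ hχ, ?_⟩
  rw [eq_bot_iff]
  intro g hg
  exact hfix g hg

/-- Triviality of the stabilizer when `|V| = p + 1`. -/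
theorem stab_trivial_odd [Finite V] [Finite G] {p : ℕ} [Fact p.Prime] (hG : IsPGroup p G)
    (ρ : G →* (V ≃ₗ[ZMod q] V)) (hρ : Function.Injective ρ) (v₀ : V) (h0 : v₀ ≠ 0)
    (hV : Nat.card V = p + 1) : stab ρ v₀ = ⊥ := by
  classical
  have hp := Fact.out (p := p.Prime)
  letI := act ρ
  letI : MulAction (stab ρ v₀) V := inferInstance
  have hS : IsPGroup p (stab ρ v₀) := hG.to_subgroup _
  have hm := hS.card_modEq_card_fixedPoints V
  set F := MulAction.fixedPoints (stab ρ v₀) V with hF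
  have hF0 : (0 : V) ∈ F := by
    intro g
    show ρ g.1 0 = 0
    simp
  have hFv : v₀ ∈ F := by
    intro g
    exact g.2
  have hge : 2 ≤ Nat.card F := by
    have h2 : 1 < Nat.card F := by
      haveI : Nontrivial F := ⟨⟨⟨0, hF0⟩, ⟨v₀, hFv⟩, by simpa [Subtype.ext_iff] using h0.symm⟩⟩
      exact Finite.one_lt_card
    omega
  have hle : Nat.card F ≤ Nat.card V := Nat.card_le_card_of_injective _ Subtype.val_injective
  have heq : Nat.card F = Nat.card V := by
    rw [hV] at hm hle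
    have h3 : Nat.card F % p = (p + 1) % p := hm.symm
    have h4 : (p + 1) % p = 1 % p := by simp
    rw [h4] at h3
    rcases Nat.lt_or_ge (Nat.card F) (p + 1) with hlt | hge'
    · exfalso
      rcases Nat.lt_or_ge (Nat.card F) p with h5 | h5
      · rw [Nat.mod_eq_of_lt h5] at h3
        have : 1 % p = 1 := Nat.mod_eq_of_lt hp.one_lt
        omega
      · have h6 : Nat.card F = p := by omega
        rw [h6] at h3
        simp at h3
        have : 1 % p = 1 := Nat.mod_eq_of_lt hp.one_lt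
        omega
    · rw [hV]; omega
  have hall : ∀ v : V, v ∈ F := by
    have hbij := (Function.Injective.bijective_of_nat_card_le (f := (Subtype.val : F → V))
      Subtype.val_injective heq.ge).2
    intro v
    obtain ⟨x, rfl⟩ := hbij v
    exact x.2
  rw [eq_bot_iff]
  intro g hg
  rw [Subgroup.mem_bot]
  apply eq_one_of_fix hρ
  intro v
  exact hall v ⟨g, hg⟩

end One

section Nine

abbrev L3 := GL (Fin 2) (ZMod 3)

def X : L3 := ⟨!![1, 2; 1, 1], !![2, 2; 1, 2], by decide +kernel, by decide +kernel⟩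
def Y : L3 := ⟨!![1, 0; 0, 2], !![1, 0; 0, 2], by decide +kernel, by decide +kernel⟩

theorem Y_mul_Y : Y * Y = 1 := by
  apply Units.ext
  show (!![1, 0; 0, 2] : Matrix (Fin 2) (Fin 2) (ZMod 3)) * !![1, 0; 0, 2] = 1
  decide +kernel

theorem Y_X : Y * X * Y⁻¹ = X ^ 3 := by
  have hY : Y⁻¹ = Y := inv_eq_of_mul_eq_one_left Y_mul_Y
  rw [hY]
  apply Units.ext
  show (!![1, 0; 0, 2] : Matrix (Fin 2) (Fin 2) (ZMod 3)) * !![1, 2; 1, 1] * !![1, 0; 0, 2] = !![1, 2; 1, 1] ^ 3
  decide +kernel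

theorem orderOf_X : orderOf X = 8 := by
  have h1 : ¬ X ^ 2 ^ 2 = 1 := by
    intro h
    have := congrArg (fun M : L3 => (M : Matrix (Fin 2) (Fin 2) (ZMod 3))) h
    have h2 : (!![1, 2; 1, 1] : Matrix (Fin 2) (Fin 2) (ZMod 3)) ^ 2 ^ 2 = 1 := this
    revert h2
    decide +kernel
  have h2 : X ^ 2 ^ (2 + 1) = 1 := by
    apply Units.ext
    show (!![1, 2; 1, 1] : Matrix (Fin 2) (Fin 2) (ZMod 3)) ^ 2 ^ (2 + 1) = 1
    decide +kernel
  exact orderOf_eq_prime_pow h1 h2

theorem orderOf_Y : orderOf Y = 2 := by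
  haveI : Fact (Nat.Prime 2) := ⟨Nat.prime_two⟩
  apply orderOf_eq_prime
  · rw [pow_two, Y_mul_Y]
  · intro h
    have := congrArg (fun M : L3 => (M : Matrix (Fin 2) (Fin 2) (ZMod 3))) h
    have h2 : (!![1, 0; 0, 2] : Matrix (Fin 2) (Fin 2) (ZMod 3)) = 1 := this
    revert h2
    decide +kernel

theorem card_L3 : Nat.card L3 = 48 := by
  rw [Matrix.card_GL_field]
  simp [Fin.prod_univ_two, ZMod.card]

/-- The image of the group in `GL(2,3)`. -/
noncomputable def emb {V : Type*} [AddCommGroup V] [Module (ZMod 3) V]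
    (e : V ≃ₗ[ZMod 3] (Fin 2 → ZMod 3)) : (V ≃ₗ[ZMod 3] V) →* L3 :=
  (Matrix.GeneralLinearGroup.toLin (n := Fin 2) (R := ZMod 3)).symm.toMonoidHom.comp
    ((LinearMap.GeneralLinearGroup.generalLinearEquiv (ZMod 3) (Fin 2 → ZMod 3)).symm.toMonoidHom.comp
      { toFun := fun f => e.symm.trans (f.trans e)
        map_one' := by ext v; simp
        map_mul' := by intro f g; ext v; simp })

theorem emb_inj {V : Type*} [AddCommGroup V] [Module (ZMod 3) V]
    (e : V ≃ₗ[ZMod 3] (Fin 2 → ZMod 3)) : Function.Injective (emb e) := by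
  intro f g h
  simp only [emb, MonoidHom.comp_apply] at h
  have h1 := (Matrix.GeneralLinearGroup.toLin (n := Fin 2) (R := ZMod 3)).symm.injective h
  have h2 := (LinearMap.GeneralLinearGroup.generalLinearEquiv (ZMod 3) (Fin 2 → ZMod 3)).symm.injective h1
  ext v
  have h3 := LinearEquiv.congr_fun h2 (e v)
  simpa using h3

variable {V : Type*} [AddCommGroup V] [Module (ZMod 3) V] {G : Type*} [Group G]

theorem case16 [Finite G] (ι : G →* L3) (hι : Function.Injective ι)
    (h16 : Nat.card G = 16) : IsQuasiDihedral G := by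
  classical
  haveI : Fact (Nat.Prime 2) := ⟨Nat.prime_two⟩
  -- the `2`-subgroup generated by `X, Y`
  have hXp : IsPGroup 2 (Subgroup.zpowers X) :=
    IsPGroup.of_card (n := 3) (by rw [Nat.card_zpowers, orderOf_X]; norm_num)
  have hYp : IsPGroup 2 (Subgroup.zpowers Y) :=
    IsPGroup.of_card (n := 1) (by rw [Nat.card_zpowers, orderOf_Y]; norm_num)
  have hYinv : Y⁻¹ = Y := inv_eq_of_mul_eq_one_left Y_mul_Y
  have hconj : ∀ h ∈ Subgroup.zpowers X, Y * h * Y⁻¹ ∈ Subgroup.zpowers X := by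
    intro h hh
    obtain ⟨k, rfl⟩ := Subgroup.mem_zpowers_iff.mp hh
    have h1 : Y * X ^ k * Y⁻¹ = (Y * X * Y⁻¹) ^ k := by
      rw [conj_zpow]
    rw [h1, Y_X]
    exact Subgroup.zpow_mem _ (Subgroup.pow_mem _ (Subgroup.mem_zpowers X) _) _
  have hnorm : Subgroup.zpowers Y ≤ Subgroup.normalizer (Subgroup.zpowers X : Set L3) := by
    rw [Subgroup.zpowers_le, Subgroup.mem_normalizer_iff]
    intro h
    refine ⟨hconj h, fun hh => ?_⟩
    have := hconj _ hh
    have h2 : Y * (Y * h * Y⁻¹) * Y⁻¹ = h := by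
      rw [hYinv]
      calc Y * (Y * h * Y) * Y = (Y * Y) * h * (Y * Y) := by group
        _ = h := by rw [Y_mul_Y]; simp
    rwa [h2] at this
  have hsup := IsPGroup.to_sup_of_normal_right' hYp hXp hnorm
  obtain ⟨Q', hQ'⟩ := hsup.exists_le_sylow
  have hXQ : X ∈ (Q' : Subgroup L3) := hQ' (Subgroup.mem_sup_right (Subgroup.mem_zpowers X))
  have hYQ : Y ∈ (Q' : Subgroup L3) := hQ' (Subgroup.mem_sup_left (Subgroup.mem_zpowers Y))
  -- the image of `G`
  have hGp : IsPGroup 2 G := IsPGroup.of_card (n := 4) (by rw [h16]; norm_num)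
  have hJcard : Nat.card ι.range = 16 := by
    rw [← h16]
    exact (Nat.card_congr (MonoidHom.ofInjective hι).toEquiv).symm
  have hJp : IsPGroup 2 ι.range := IsPGroup.of_card (n := 4) (by rw [hJcard]; norm_num)
  obtain ⟨Q, hQ⟩ := hJp.exists_le_sylow
  have hQcard : Nat.card (Q : Subgroup L3) = 16 := by
    have h1 : Nat.card ι.range ≤ Nat.card (Q : Subgroup L3) :=
      Subgroup.card_le_of_le hQ
    have h2 : Nat.card (Q : Subgroup L3) ∣ 48 := by
      rw [← card_L3]
      exact Subgroup.card_subgroup_dvd_card _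
    obtain ⟨k, hk⟩ := IsPGroup.iff_card.mp Q.isPGroup'
    rw [hk] at h1 h2 ⊢
    rw [hJcard] at h1
    have hk4 : k ≤ 4 := by
      by_contra hlt
      have h5 : 2 ^ 5 ∣ 2 ^ k := pow_dvd_pow 2 (by omega)
      have := h5.trans h2
      norm_num at this
    interval_cases k <;> simp_all
  have hJQ : ι.range = Q := Subgroup.eq_of_le_of_card_ge hQ (by rw [hQcard, hJcard])
  obtain ⟨g, hg⟩ := MulAction.exists_smul_eq L3 Q' Q
  have hmem : ∀ x ∈ (Q' : Subgroup L3), g * x * g⁻¹ ∈ ι.range := by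
    intro x hx
    rw [hJQ, ← hg, Sylow.coe_subgroup_smul, Subgroup.mem_pointwise_smul_iff_inv_smul_mem]
    simpa [MulAut.smul_def, mul_assoc] using hx
  obtain ⟨a, ha⟩ := hmem X hXQ
  obtain ⟨b, hb⟩ := hmem Y hYQ
  refine ⟨3, le_refl _, by rw [h16]; norm_num, a, b, ?_, ?_, ?_⟩
  · rw [← orderOf_injective ι hι a, ha, ← MulAut.conj_apply, MulEquiv.orderOf_eq, orderOf_X]
    norm_num
  · rw [← orderOf_injective ι hι b, hb, ← MulAut.conj_apply, MulEquiv.orderOf_eq, orderOf_Y]
  · apply hι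
    have e3 : 2 ^ (3 - 1) - 1 = 3 := by norm_num
    rw [map_mul, map_mul, map_inv, e3, map_pow, ha, hb, conj_pow, ← Y_X]
    group


theorem two_eq_neg [Finite G] [Finite V] (ρ : G →* (V ≃ₗ[ZMod 3] V)) (hρ : Function.Injective ρ)
    (hst : ∀ v : V, v ≠ 0 → stab ρ v = ⊥) (t : G) (ht : t ^ 2 = 1) (ht1 : t ≠ 1) (v : V) :
    ρ t v = -v := by
  have htt : ρ t (ρ t v) = v := by
    rw [← LinearEquiv.mul_apply, ← map_mul, ← pow_two, ht]
    simp
  have hw : ρ t (v + ρ t v) = v + ρ t v := by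
    rw [map_add, htt, add_comm]
  by_cases h : v + ρ t v = 0
  · exact eq_neg_of_add_eq_zero_right h
  · exfalso
    have h1 : t ∈ stab ρ (v + ρ t v) := hw
    rw [hst _ h, Subgroup.mem_bot] at h1
    exact ht1 h1

theorem case8 [Finite G] [Finite V] (hG : IsPGroup 2 G) (ρ : G →* (V ≃ₗ[ZMod 3] V))
    (hρ : Function.Injective ρ) (hst : ∀ v : V, v ≠ 0 → stab ρ v = ⊥) (h8 : Nat.card G = 8) :
    IsCyclic G ∨ Nonempty (G ≃* QuaternionGroup 2) := by
  classical
  haveI : Fact (Nat.Prime 2) := ⟨Nat.prime_two⟩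
  have huniq : ∀ H K : Subgroup G, Nat.card H = 2 → Nat.card K = 2 → H = K := by
    have key : ∀ H K : Subgroup G, Nat.card H = 2 → Nat.card K = 2 → H ≤ K := by
      intro H K hH hK x hx
      by_cases hx1 : x = 1
      · rw [hx1]; exact K.one_mem
      · haveI : Nontrivial K := by
          apply Finite.one_lt_card_iff_nontrivial.mp
          omega
        obtain ⟨y, hy⟩ := exists_ne (1 : K)
        have hy1 : (y : G) ≠ 1 := by simpa using hy
        have hx2 : x ^ 2 = 1 := by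
          have h1 : (⟨x, hx⟩ : H) ^ Nat.card H = 1 := pow_card_eq_one'
          rw [hH] at h1
          simpa using congrArg Subtype.val h1
        have hy2 : (y : G) ^ 2 = 1 := by
          have h1 : y ^ Nat.card K = 1 := pow_card_eq_one'
          rw [hK] at h1
          simpa using congrArg Subtype.val h1
        have hxy : x = y := by
          apply hρ
          ext v
          rw [two_eq_neg ρ hρ hst x hx2 hx1, two_eq_neg ρ hρ hst y hy2 hy1]
        rw [hxy]
        exact y.2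
    intro H K hH hK
    exact Subgroup.eq_of_le_of_card_ge (key H K hH hK) (by rw [hH, hK])
  rcases Cfsg.Agent.Lib.UniqueSub.main 2 hG huniq with h | ⟨-, n, ⟨e⟩⟩
  · exact Or.inl h
  · right
    have hc : Nat.card (QuaternionGroup (2 ^ n)) = 4 * 2 ^ n := by
      rw [Nat.card_eq_fintype_card]
      exact QuaternionGroup.card
    have h1 : 2 ^ n = 2 := by
      have h2 := Nat.card_congr e.toEquiv
      rw [h8, hc] at h2
      omega
    rw [h1] at e
    exact ⟨e⟩

theorem case9 [Finite G] [Finite V] (hG : IsPGroup 2 G) (ρ : G →* (V ≃ₗ[ZMod 3] V))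
    (hρ : Function.Injective ρ)
    (htrans : ∀ v w : V, v ≠ 0 → w ≠ 0 → ∃ g : G, ρ g v = w)
    (hdim : Module.finrank (ZMod 3) V = 2) (hV : Nat.card V = 9) :
    (IsCyclic G ∧ Nat.card G = 8) ∨ Nonempty (G ≃* QuaternionGroup 2) ∨
      (Cfsg.IsQuasiDihedral G ∧ Nat.card G = 16) := by
  classical
  haveI : Fact (Nat.Prime 2) := ⟨Nat.prime_two⟩
  haveI : Module.Finite (ZMod 3) V := Module.Finite.of_finite
  let e : V ≃ₗ[ZMod 3] (Fin 2 → ZMod 3) :=
    LinearEquiv.ofFinrankEq _ _ (by rw [hdim]; simp)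
  let ι : G →* L3 := (emb e).comp ρ
  have hι : Function.Injective ι := (emb_inj e).comp hρ
  have hdvd : Nat.card G ∣ 48 := by
    rw [← card_L3]
    exact Subgroup.card_dvd_of_injective ι hι
  obtain ⟨b, hb⟩ := IsPGroup.iff_card.mp hG
  have hcard : ∀ v : V, v ≠ 0 → Nat.card G = 8 * Nat.card (stab ρ v) := by
    intro v hv
    rw [card_formula ρ htrans v hv, hV]
  have hb4 : b ≤ 4 := by
    by_contra hlt
    have h5 : 2 ^ 5 ∣ 2 ^ b := pow_dvd_pow 2 (by omega)
    rw [← hb] at h5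
    have := h5.trans hdvd
    norm_num at this
  haveI : Nontrivial V := by
    apply Finite.one_lt_card_iff_nontrivial.mp
    omega
  obtain ⟨v₀, hv₀⟩ := exists_ne (0 : V)
  have h816 : Nat.card G = 8 ∨ Nat.card G = 16 := by
    have h1 := hcard v₀ hv₀
    have h2 : 0 < Nat.card (stab ρ v₀) := Nat.card_pos
    rw [hb] at h1 ⊢
    interval_cases b <;> omega
  rcases h816 with h8 | h16
  · have hst : ∀ v : V, v ≠ 0 → stab ρ v = ⊥ := by
      intro v hv
      have h1 := hcard v hv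
      rw [h8] at h1
      have h2 : Nat.card (stab ρ v) = 1 := by omega
      exact Subgroup.eq_bot_of_card_eq _ h2
    rcases case8 hG ρ hρ hst h8 with h | h
    · exact Or.inl ⟨h, h8⟩
    · exact Or.inr (Or.inl h)
  · exact Or.inr (Or.inr ⟨case16 ι hι h16, h16⟩)

end Nine


theorem result (q : ℕ) [Fact q.Prime] {V : Type*} [AddCommGroup V] [Module (ZMod q) V] [Finite V] [Nontrivial V]
    {G : Type*} [Group G] [Finite G] [Nontrivial G] (p : ℕ) [Fact p.Prime] (hG : IsPGroup p G)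
    (ρ : G →* (V ≃ₗ[ZMod q] V)) (hρ : Function.Injective ρ)
    (htrans : ∀ v w : V, v ≠ 0 → w ≠ 0 → ∃ g : G, ρ g v = w) :
    (q = 2 ∧ p = Nat.card V - 1 ∧ Nat.card G = p) ∨
    (p = 2 ∧ Nat.card V = q ∧ (∃ m : ℕ, q = 2 ^ m + 1 ∧ Nat.card G = 2 ^ m) ∧ IsCyclic G) ∨
    (p = 2 ∧ q = 3 ∧ Nat.card V = 9 ∧
      ((IsCyclic G ∧ Nat.card G = 8) ∨ Nonempty (G ≃* QuaternionGroup 2) ∨ (Cfsg.IsQuasiDihedral G ∧ Nat.card G = 16))) := by
  classical
  have hq := Fact.out (p := q.Prime)
  have hp := Fact.out (p := p.Prime)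
  obtain ⟨v₀, hv₀⟩ := exists_ne (0 : V)
  have hcard := card_formula ρ htrans v₀ hv₀
  obtain ⟨b, hb⟩ := IsPGroup.iff_card.mp hG
  have hNdvd : Nat.card V - 1 ∣ p ^ b := ⟨_, by rw [← hb, hcard]⟩
  obtain ⟨a, -, ha⟩ := (Nat.dvd_prime_pow hp).mp hNdvd
  haveI : Module.Finite (ZMod q) V := Module.Finite.of_finite
  have hV : Nat.card V = q ^ Module.finrank (ZMod q) V := by
    have h1 := Module.natCard_eq_pow_finrank (K := ZMod q) (V := V)
    rwa [Nat.card_zmod] at h1
  set n := Module.finrank (ZMod q) V with hn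
  have hN2 : 2 ≤ Nat.card V := Finite.one_lt_card
  have hn0 : n ≠ 0 := by
    intro h
    rw [h, pow_zero] at hV
    omega
  have ha0 : a ≠ 0 := by
    rintro rfl
    exfalso
    have h2 : Nat.card V = 2 := by
      rw [pow_zero] at ha
      omega
    obtain ⟨y, -, huy⟩ := (Nat.card_eq_two_iff' (0 : V)).mp h2
    have hall : ∀ v : V, v ≠ 0 → v = v₀ := fun v hv => (huy v hv).trans (huy v₀ hv₀).symm
    obtain ⟨g, hg⟩ := exists_ne (1 : G)
    apply hg
    apply eq_one_of_fix hρ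
    intro v
    by_cases hv : v = 0
    · rw [hv]; simp
    · have h3 : ρ g v ≠ 0 := by simpa using hv
      rw [hall _ h3, hall _ hv]
  have hVa : Nat.card V = p ^ a + 1 := by omega
  by_cases hq2 : q = 2
  · -- `q = 2`
    left
    have hp2 : p ≠ 2 := by
      rintro rfl
      rw [hV, hq2] at hVa
      have h1 : 2 ∣ 2 ^ n := dvd_pow_self 2 hn0
      have h2 : 2 ∣ 2 ^ a := dvd_pow_self 2 ha0
      omega
    have ha1 : a = 1 := by
      apply a1 hp hp2 (n := n) _ ha0
      rw [← hq2, ← hV, hVa]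
    subst ha1
    have hVp : Nat.card V = p + 1 := by simpa using hVa
    have hst := stab_trivial_odd hG ρ hρ v₀ hv₀ hVp
    refine ⟨hq2, by omega, ?_⟩
    rw [hcard, hst]
    simp [hVp]
  · -- `q` odd
    right
    have hqodd : q % 2 = 1 := hq.eq_two_or_odd.resolve_left hq2
    have hNodd : Nat.card V % 2 = 1 := by
      rw [hV, Nat.pow_mod, hqodd]
      simp
    have hp2 : p = 2 := by
      have h1 : 2 ∣ p ^ a := by omega
      have h2 := Nat.Prime.dvd_of_dvd_pow Nat.prime_two h1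
      exact ((Nat.prime_dvd_prime_iff_eq Nat.prime_two hp).mp h2).symm
    subst hp2
    rcases Nat.lt_or_ge n 2 with hlt | hge
    · have hn1 : n = 1 := by omega
      left
      have hVq : Nat.card V = q := by rw [hV, hn1, pow_one]
      obtain ⟨hcyc, hst⟩ := one_dim ρ hρ v₀ hv₀ (by rw [← hn]; exact hn1)
      refine ⟨rfl, hVq, ⟨a, by omega, ?_⟩, hcyc⟩
      rw [hcard, hst, ← ha]
      simp
    · right
      obtain ⟨hq3, hn2⟩ := a2 hq hq2 hge (a := a) (by rw [← hV, hVa])
      subst hq3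
      have hV9 : Nat.card V = 9 := by rw [hV, hn2]; norm_num
      exact ⟨rfl, rfl, hV9, case9 hG ρ hρ htrans (by rw [← hn]; exact hn2) hV9⟩


end Cfsg.Agent.S3370
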