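import Mathlib
import Cfsg.Statements.S3380
import Cfsg.Agent.S0519
import Cfsg.Agent.Lib.UniqueSub
import Cfsg.Agent.Lib.PGrp

set_option autoImplicit false
set_option linter.style.haveILetI false
set_option linter.unusedSectionVars false
open Cfsg

namespace Cfsg.Agent.S3380

section CoreArgument

variable {q : ℕ} [Fact q.Prime] {V : Type*} [AddCommGroup V] [Module (ZMod q) V]
  {G : Type*} [Group G] {p : ℕ} [hp : Fact p.Prime]

/-- The fixed vectors of an element. -/
def fixS (ρ : G →* (V ≃ₗ[ZMod q] V)) (g : G) : Submodule (ZMod q) V where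
  carrier := {v | ρ g v = v}
  add_mem' := by
    intro a b ha hb
    simp only [Set.mem_ofPred_eq] at *
    rw [map_add, ha, hb]
  zero_mem' := by simp
  smul_mem' := by
    intro c v hv
    simp only [Set.mem_ofPred_eq] at *
    rw [map_smul, hv]

theorem mem_fixS {ρ : G →* (V ≃ₗ[ZMod q] V)} {g : G} {v : V} : v ∈ fixS ρ g ↔ ρ g v = v := Iff.rfl

theorem map_mul_apply (ρ : G →* (V ≃ₗ[ZMod q] V)) (g h : G) (v : V) : ρ (g * h) v = ρ g (ρ h v) := by
  rw [map_mul, LinearEquiv.mul_apply]

theorem map_one_apply (ρ : G →* (V ≃ₗ[ZMod q] V)) (v : V) : ρ 1 v = v := by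
  rw [map_one]; rfl

theorem pow_fix {ρ : G →* (V ≃ₗ[ZMod q] V)} {g : G} {v : V} (h : ρ g v = v) (n : ℕ) :
    ρ (g ^ n) v = v := by
  induction n with
  | zero => simp
  | succ n ih => rw [pow_succ, map_mul_apply, h, ih]

/-- Powers indexed by `ZMod p`. -/
def pw (x : G) (k : ZMod p) : G := x ^ k.val

theorem pw_add {x : G} (hx : x ^ p = 1) (i j : ZMod p) : pw x (i + j) = pw x i * pw x j := by
  unfold pw
  rw [ZMod.val_add, ← pow_add]
  exact (pow_eq_pow_mod _ hx).symm

theorem pw_zero (x : G) : pw x (0 : ZMod p) = 1 := by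
  simp [pw]

theorem pw_one (x : G) : pw x (1 : ZMod p) = x := by
  have : (1 : ZMod p).val = 1 := by
    haveI : Fact (1 < p) := ⟨hp.out.one_lt⟩
    exact ZMod.val_one p
  simp [pw, this]

theorem pw_natCast {x : G} (hx : x ^ p = 1) (n : ℕ) : pw x (n : ZMod p) = x ^ n := by
  unfold pw
  rw [ZMod.val_natCast]
  exact (pow_eq_pow_mod _ hx).symm

theorem pw_pow {x : G} (hx : x ^ p = 1) (j : ZMod p) (n : ℕ) : pw x j ^ n = pw x ((n : ZMod p) * j) := by
  induction n with
  | zero => simp [pw_zero]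
  | succ n ih =>
    rw [pow_succ, ih, ← pw_add hx]
    congr 1
    push_cast
    ring

theorem pw_mem (x : G) (k : ZMod p) : pw x k ∈ Subgroup.zpowers x :=
  Subgroup.npow_mem_zpowers x _

theorem pw_inj {x : G} (hx : orderOf x = p) {i j : ZMod p} (h : pw x i = pw x j) : i = j := by
  apply ZMod.val_injective
  have h1 := pow_injOn_Iio_orderOf (x := x)
  apply h1
  · rw [hx]; exact ZMod.val_lt i
  · rw [hx]; exact ZMod.val_lt j
  · exact h

/-- The main construction. -/
theorem core [Finite V] [Nontrivial V] [Finite G] (ρ : G →* (V ≃ₗ[ZMod q] V))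
    (hρ : Function.Injective ρ)
    (hirr : ∀ W : Submodule (ZMod q) V, (∀ g : G, ∀ w ∈ W, ρ g w ∈ W) → W = ⊥ ∨ W = ⊤)
    (hpq : (p : ZMod q) ≠ 0)
    (z a : G) (hzc : ∀ g, g * z = z * g) (hzo : orderOf z = p) (ha : a ^ p = 1)
    (haz : a ∉ Subgroup.zpowers z) (hconj : ∀ g, ∃ t : ZMod p, g * a * g⁻¹ = a * pw z t) :
    ∃ (H : Subgroup G) (W : Fin p → Submodule (ZMod q) V), H.index = p ∧
      iSup W = ⊤ ∧ iSupIndep W ∧
      (∀ h ∈ H, ∀ i, ∀ w ∈ W i, ρ h w ∈ W i) ∧
      (∀ i, ∃ h ∈ H, h ≠ 1 ∧ ∀ w ∈ W i, ρ h w = w) ∧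
      ∀ g : G, g ∉ H → ∃ σ : Equiv.Perm (Fin p), orderOf σ = p ∧ ∀ i, (W i).map (ρ g : V →ₗ[ZMod q] V) = W (σ i) := by
  classical
  have hpp := hp.out
  have hz1 : z ^ p = 1 := by rw [← hzo]; exact pow_orderOf_eq_one z
  have hzne : z ≠ 1 := by
    rintro rfl
    rw [orderOf_one] at hzo
    exact hpp.one_lt.ne hzo
  -- the elements `b j`
  let zp : ZMod p → G := pw z
  have hzp_add : ∀ i j, zp (i + j) = zp i * zp j := pw_add hz1
  have hzp_c : ∀ g j, g * zp j = zp j * g := by
    intro g j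
    show g * z ^ _ = z ^ _ * g
    exact (Commute.pow_right (hzc g) _).eq
  let b : ZMod p → G := fun j => a * zp j
  have hbcomm : ∀ j, Commute a (zp j) := fun j => (hzp_c a j)
  have hb_pow : ∀ j (n : ℕ), b j ^ n = a ^ n * zp ((n : ZMod p) * j) := by
    intro j n
    rw [(hbcomm j).mul_pow]
    congr 1
    exact pw_pow hz1 j n
  have hb1 : ∀ j, b j ^ p = 1 := by
    intro j
    rw [hb_pow, ha, one_mul]
    simp [zp, pw_zero]
  let W' : ZMod p → Submodule (ZMod q) V := fun j => fixS ρ (b j)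
  -- the norm of `z` vanishes
  have hN0 : ∀ v : V, ∑ j : ZMod p, ρ (zp j) v = 0 := by
    intro v
    have hfix : (∑ j : ZMod p, ρ (zp j) v) ∈ fixS ρ z := by
      rw [mem_fixS, map_sum]
      have h1 : ∀ j, ρ z (ρ (zp j) v) = ρ (zp (1 + j)) v := by
        intro j
        rw [← map_mul_apply, hzp_add]
        congr 2
        rw [show zp 1 = z from pw_one z]
      simp_rw [h1]
      exact Equiv.sum_comp (Equiv.addLeft (1 : ZMod p)) (fun j => ρ (zp j) v)
    have hinv : ∀ g : G, ∀ w ∈ fixS ρ z, ρ g w ∈ fixS ρ z := by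
      intro g w hw
      rw [mem_fixS] at hw ⊢
      rw [← map_mul_apply, ← hzc g, map_mul_apply, hw]
    rcases hirr _ hinv with h | h
    · rw [h] at hfix
      simpa using hfix
    · exfalso
      apply hzne
      apply hρ
      rw [map_one]
      ext1 w
      have : w ∈ fixS ρ z := by rw [h]; trivial
      exact this
  have hN0' : ∀ (d : ZMod p), d ≠ 0 → ∀ v : V, ∑ k : ZMod p, ρ (zp (d * k)) v = 0 := by
    intro d hd v
    rw [← hN0 v]
    exact Equiv.sum_comp (Equiv.mulLeft₀ d hd) (fun j => ρ (zp j) v)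
  -- the projections
  let E : ZMod p → V →ₗ[ZMod q] V :=
    fun j => ∑ k : ZMod p, ((ρ (b j ^ k.val) : V ≃ₗ[ZMod q] V) : V →ₗ[ZMod q] V)
  have hE : ∀ j v, E j v = ∑ k : ZMod p, ρ (b j ^ k.val) v := by
    intro j v
    simp [E, LinearMap.sum_apply]
  have hE_mem : ∀ j v, E j v ∈ W' j := by
    intro j v
    show ρ (b j) (E j v) = E j v
    rw [hE, map_sum]
    have h1 : ∀ k : ZMod p, ρ (b j) (ρ (b j ^ k.val) v) = ρ (b j ^ (1 + k).val) v := by
      intro k
      rw [← map_mul_apply]
      have h2 := pw_add (hb1 j) 1 k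
      have h3 : pw (b j) (1 : ZMod p) = b j := pw_one _
      rw [h3] at h2
      show ρ (b j * pw (b j) k) v = ρ (pw (b j) (1 + k)) v
      rw [h2]
    simp_rw [h1]
    exact Equiv.sum_comp (Equiv.addLeft (1 : ZMod p)) (fun k => ρ (b j ^ k.val) v)
  have hE_self : ∀ j, ∀ w ∈ W' j, E j w = p • w := by
    intro j w hw
    rw [hE]
    have hw' : ρ (b j) w = w := hw
    simp_rw [pow_fix hw']
    simp [Finset.card_univ, ZMod.card]
  have hE_other : ∀ i j, i ≠ j → ∀ w ∈ W' i, E j w = 0 := by
    intro i j hij w hw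
    rw [hE]
    have hw' : ρ (b i) w = w := hw
    have h1 : ∀ k : ZMod p, ρ (b j ^ k.val) w = ρ (zp ((j - i) * k)) w := by
      intro k
      have h2 : b j ^ k.val = zp ((j - i) * k) * b i ^ k.val := by
        rw [hb_pow, hb_pow]
        have h3 : ((k.val : ℕ) : ZMod p) = k := ZMod.natCast_zmod_val k
        rw [h3]
        have h4 : zp (k * j) = zp ((j - i) * k) * zp (k * i) := by
          rw [← hzp_add]
          congr 1
          ring
        rw [h4, ← mul_assoc, (hzp_c (a ^ k.val) _), mul_assoc]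
      rw [h2, map_mul_apply, pow_fix hw']
    simp_rw [h1]
    exact hN0' (j - i) (sub_ne_zero.mpr hij.symm) w
  have hE_sum : ∀ v, ∑ j : ZMod p, E j v = p • v := by
    intro v
    simp_rw [hE]
    rw [Finset.sum_comm]
    have h1 : ∀ k : ZMod p, ∑ j : ZMod p, ρ (b j ^ k.val) v = ρ (a ^ k.val) (∑ j : ZMod p, ρ (zp (k * j)) v) := by
      intro k
      rw [map_sum]
      apply Finset.sum_congr rfl
      intro j _
      rw [← map_mul_apply, hb_pow, ZMod.natCast_zmod_val]
    simp_rw [h1]
    rw [Finset.sum_eq_single (0 : ZMod p)]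
    · simp [zp, pw_zero, map_one_apply, Finset.card_univ, ZMod.card]
    · intro k _ hk
      rw [hN0' k hk v, map_zero]
    · simp
  have hsmul : ∀ v : V, (p : ZMod q) • v = p • v := fun v => Nat.cast_smul_eq_nsmul _ _ _
  -- spanning
  have hspan : iSup W' = ⊤ := by
    rw [eq_top_iff]
    intro v _
    have h1 : v = (p : ZMod q)⁻¹ • ∑ j : ZMod p, E j v := by
      rw [hE_sum, ← hsmul, smul_smul, inv_mul_cancel₀ hpq, one_smul]
    rw [h1]
    apply Submodule.smul_mem
    apply Submodule.sum_mem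
    intro j _
    exact Submodule.mem_iSup_of_mem j (hE_mem j v)
  -- independence
  have hindep : iSupIndep W' := by
    intro j
    rw [Submodule.disjoint_def]
    intro v hv hv2
    have h1 : E j v = p • v := hE_self j v hv
    have h2 : (⨆ (i : ZMod p) (_ : i ≠ j), W' i) ≤ LinearMap.ker (E j) := by
      apply iSup₂_le
      intro i hi w hw
      exact hE_other i j hi w hw
    have h3 : E j v = 0 := h2 hv2
    rw [h3, ← hsmul] at h1
    rcases smul_eq_zero.mp h1.symm with h | h
    · exact absurd h hpq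
    · exact h
  have hb_ne : ∀ j, b j ≠ 1 := by
    intro j h
    apply haz
    have h1 : a = (zp j)⁻¹ := eq_inv_of_mul_eq_one_left h
    rw [h1]
    exact Subgroup.inv_mem _ (pw_mem z j)
  -- `a` is not central
  have hnc : ∃ g₀ : G, g₀ * a ≠ a * g₀ := by
    by_contra hno
    push Not at hno
    have hinv : ∀ j, W' j = ⊥ := by
      intro j
      have hcomm : ∀ g, g * b j = b j * g := by
        intro g
        show g * (a * zp j) = a * zp j * g
        rw [← mul_assoc, hno g, mul_assoc, hzp_c, mul_assoc]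
      have h1 : ∀ g : G, ∀ w ∈ W' j, ρ g w ∈ W' j := by
        intro g w hw
        have hw' : ρ (b j) w = w := hw
        show ρ (b j) (ρ g w) = ρ g w
        rw [← map_mul_apply, ← hcomm, map_mul_apply, hw']
      rcases hirr _ h1 with h | h
      · exact h
      · exfalso
        apply hb_ne j
        apply hρ
        rw [map_one]
        ext1 w
        have : w ∈ W' j := by rw [h]; trivial
        exact this
    have h2 : iSup W' = ⊥ := by
      simp [hinv]
    rw [h2] at hspan
    exact bot_ne_top hspan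
  obtain ⟨g₀, hg₀⟩ := hnc
  -- the homomorphism
  choose c hc using hconj
  have hc_mul : ∀ g h, c (g * h) = c g + c h := by
    intro g h
    apply pw_inj hzo
    have h1 := hc (g * h)
    have h2 : g * h * a * (g * h)⁻¹ = g * (h * a * h⁻¹) * g⁻¹ := by group
    rw [h2, hc h] at h1
    have h3 : g * (a * pw z (c h)) * g⁻¹ = (g * a * g⁻¹) * pw z (c h) := by
      have h4 : g * pw z (c h) = pw z (c h) * g := hzp_c g (c h)
      calc g * (a * pw z (c h)) * g⁻¹ = g * a * (pw z (c h) * g⁻¹) := by group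
        _ = g * a * (g⁻¹ * pw z (c h)) := by
            congr 1
            have h5 := hzp_c g⁻¹ (c h)
            exact h5.symm
        _ = _ := by group
    rw [h3, hc g, mul_assoc, ← pw_add hz1] at h1
    exact (mul_left_cancel h1).symm
  let χ : G →* Multiplicative (ZMod p) := MonoidHom.mk' (fun g => Multiplicative.ofAdd (c g)) (by
    intro g h
    rw [hc_mul]
    rfl)
  have hχ : ∀ g, g ∈ χ.ker ↔ g * a = a * g := by
    intro g
    rw [MonoidHom.mem_ker]
    constructor
    · intro h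
      have h0 : c g = 0 := h
      have h1 := hc g
      rw [h0, pw_zero, mul_one] at h1
      exact mul_inv_eq_iff_eq_mul.mp h1
    · intro h
      apply pw_inj hzo (i := c g) (j := 0)
      have h1 := hc g
      rw [h, mul_inv_cancel_right] at h1
      have h2 : a * pw z (c g) = a * 1 := by rw [← h1, mul_one]
      rw [mul_left_cancel h2, pw_zero]
  have hcb : ∀ g j, g * b j * g⁻¹ = b (j + c g) := by
    intro g j
    show g * (a * zp j) * g⁻¹ = a * zp (j + c g)
    rw [hzp_add]
    have h5 : zp j * g⁻¹ = g⁻¹ * zp j := (hzp_c g⁻¹ j).symm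
    calc g * (a * zp j) * g⁻¹ = g * a * (zp j * g⁻¹) := by group
      _ = g * a * g⁻¹ * zp j := by rw [h5]; group
      _ = a * pw z (c g) * zp j := by rw [hc g]
      _ = a * (zp (c g) * zp j) := by rw [mul_assoc]
      _ = a * (zp j * zp (c g)) := by
          congr 1
          exact hzp_c (zp (c g)) j
  have hmap : ∀ g j, (W' j).map (ρ g : V →ₗ[ZMod q] V) = W' (j + c g) := by
    intro g j
    ext v
    constructor
    · rintro ⟨w, hw, rfl⟩
      have hw' : ρ (b j) w = w := hw
      show ρ (b (j + c g)) (ρ g w) = ρ g w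
      rw [← map_mul_apply, ← hcb, inv_mul_cancel_right, map_mul_apply, hw']
    · intro hv
      have hv' : ρ (b (j + c g)) v = v := hv
      refine ⟨ρ g⁻¹ v, ?_, ?_⟩
      · show ρ (b j) (ρ g⁻¹ v) = ρ g⁻¹ v
        rw [← map_mul_apply]
        have h1 : b j * g⁻¹ = g⁻¹ * b (j + c g) := by
          rw [← hcb]
          group
        rw [h1, map_mul_apply, hv']
      · show ρ g (ρ g⁻¹ v) = v
        rw [← map_mul_apply, mul_inv_cancel, map_one_apply]
  -- the index
  have hidx : χ.ker.index = p := by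
    rw [Subgroup.index_ker]
    have h1 : Nat.card χ.range ∣ p := by
      have h2 := Subgroup.card_subgroup_dvd_card χ.range
      have h3 : Nat.card (Multiplicative (ZMod p)) = p := by
        rw [Nat.card_congr Multiplicative.toAdd, Nat.card_zmod]
      rwa [h3] at h2
    rcases (Nat.dvd_prime hpp).mp h1 with h | h
    · exfalso
      have h2 : χ.range = ⊥ := Subgroup.card_eq_one.mp h
      have h3 : χ g₀ ∈ χ.range := ⟨g₀, rfl⟩
      rw [h2, Subgroup.mem_bot] at h3
      exact hg₀ ((hχ g₀).mp h3)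
    · exact h
  -- reindexing
  let e : Fin p ≃ ZMod p := Fintype.equivOfCardEq (by simp [ZMod.card])
  refine ⟨χ.ker, fun i => W' (e i), hidx, ?_, ?_, ?_, ?_, ?_⟩
  · rw [← hspan]
    exact e.iSup_comp (g := W')
  · exact hindep.comp e.injective
  · intro h hh i w hw
    have h1 : h * a = a * h := (hχ h).mp hh
    have hcomm : h * b (e i) = b (e i) * h := by
      show h * (a * zp (e i)) = a * zp (e i) * h
      rw [← mul_assoc, h1, mul_assoc, hzp_c, mul_assoc]
    have hw' : ρ (b (e i)) w = w := hw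
    show ρ (b (e i)) (ρ h w) = ρ h w
    rw [← map_mul_apply, ← hcomm, map_mul_apply, hw']
  · intro i
    refine ⟨b (e i), ?_, hb_ne _, fun w hw => hw⟩
    rw [hχ]
    show a * zp (e i) * a = a * (a * zp (e i))
    rw [mul_assoc, ← hzp_c]
  · intro g hg
    have hcg : c g ≠ 0 := by
      intro h
      apply hg
      rw [MonoidHom.mem_ker]
      show Multiplicative.ofAdd (c g) = 1
      rw [h]
      rfl
    let σ : Equiv.Perm (Fin p) := e.trans ((Equiv.addRight (c g)).trans e.symm)
    have hσ : ∀ i, e (σ i) = e i + c g := by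
      intro i
      simp [σ]
    have hσpow : ∀ (n : ℕ) i, e ((σ ^ n) i) = e i + n • c g := by
      intro n
      induction n with
      | zero => simp
      | succ n ih =>
        intro i
        rw [pow_succ', Equiv.Perm.mul_apply, hσ, ih, succ_nsmul]
        ring
    refine ⟨σ, ?_, ?_⟩
    · apply orderOf_eq_prime
      · ext i
        have h1 := hσpow p i
        have h2 : p • c g = 0 := by
          simp
        rw [h2, add_zero] at h1
        rw [e.injective h1]
        rfl
      · intro h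
        have h1 := hσ (e.symm 0)
        rw [h] at h1
        simp at h1
        exact hcg h1.symm
    · intro i
      show (W' (e i)).map _ = W' (e (σ i))
      rw [hσ, hmap]

end CoreArgument

section Front

variable {G : Type*} [Group G] [Finite G] {p : ℕ} [hp : Fact p.Prime]

/-- In a noncyclic abelian `p`-group there is an element of order dividing `p` outside a given
subgroup of order at most `p`. -/
theorem abelian_exists {A : Type*} [Group A] [Finite A] (hAc : ∀ x y : A, x * y = y * x)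
    (hA : IsPGroup p A) (hnc : ¬ IsCyclic A) (z : A) (hz : z ^ p = 1) :
    ∃ x : A, x ^ p = 1 ∧ x ∉ Subgroup.zpowers z := by
  classical
  have hpp := hp.out
  letI : CommGroup A := { (inferInstance : Group A) with mul_comm := hAc }
  obtain ⟨x₀, hx₀⟩ := Monoid.exists_orderOf_eq_exponent (G := A) (Monoid.ExponentExists.of_finite)
  set C := Subgroup.zpowers x₀ with hC
  have hne : C ≠ ⊤ := by
    intro h
    apply hnc
    exact isCyclic_iff_exists_zpowers_eq_top.mpr ⟨x₀, h⟩
  -- an element of the quotient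
  have hQ : IsPGroup p (A ⧸ C) := hA.to_quotient C
  obtain ⟨N, hN⟩ := IsPGroup.iff_card.mp hQ
  have hdvd : p ∣ Nat.card (A ⧸ C) := by
    rw [hN]
    apply dvd_pow_self
    rintro rfl
    rw [pow_zero] at hN
    exact hne (Subgroup.index_eq_one.mp hN)
  obtain ⟨yb, hyb⟩ := exists_prime_orderOf_dvd_card' p hdvd
  obtain ⟨y, rfl⟩ := QuotientGroup.mk_surjective yb
  have hyC : y ∉ C := by
    intro h
    have : (y : A ⧸ C) = 1 := (QuotientGroup.eq_one_iff y).mpr h
    rw [this, orderOf_one] at hyb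
    exact hpp.one_lt.ne hyb
  have hypC : y ^ p ∈ C := by
    have h1 : (y : A ⧸ C) ^ p = 1 := by rw [← hyb]; exact pow_orderOf_eq_one _
    rw [← QuotientGroup.mk_pow] at h1
    exact (QuotientGroup.eq_one_iff _).mp h1
  obtain ⟨M, hM⟩ := IsPGroup.iff_card.mp hA
  have hord : orderOf x₀ ∣ p ^ M := by rw [← hM]; exact orderOf_dvd_natCard x₀
  obtain ⟨k, -, hk⟩ := (Nat.dvd_prime_pow hpp).mp hord
  have hexp : ∀ x : A, x ^ p ^ k = 1 := by
    intro x
    rw [← hk, hx₀]
    exact Monoid.pow_exponent_eq_one x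
  have hk0 : k ≠ 0 := by
    rintro rfl
    apply hyC
    have := hexp y
    rw [pow_zero, pow_one] at this
    rw [this]
    exact C.one_mem
  obtain ⟨k', rfl⟩ := Nat.exists_eq_succ_of_ne_zero hk0
  have hfin : IsOfFinOrder x₀ := isOfFinOrder_of_finite x₀
  obtain ⟨t, ht⟩ := Submonoid.mem_powers_iff _ _ |>.mp (hfin.mem_powers_iff_mem_zpowers.mpr hypC)
  have hpt : p ∣ t := by
    have h1 : x₀ ^ (t * p ^ k') = 1 := by
      rw [pow_mul, ht, ← pow_mul, ← pow_succ', ]
      exact hexp y
    have h2 := orderOf_dvd_of_pow_eq_one h1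
    rw [hk, pow_succ, mul_comm t] at h2
    exact Nat.dvd_of_mul_dvd_mul_left (pow_pos hpp.pos _) h2
  obtain ⟨s, rfl⟩ := hpt
  let y₁ : A := y * (x₀ ^ s)⁻¹
  have hy₁p : y₁ ^ p = 1 := by
    show (y * (x₀ ^ s)⁻¹) ^ p = 1
    rw [mul_pow, ← ht, inv_pow, ← pow_mul, mul_comm s p, mul_inv_cancel]
  have hy₁C : y₁ ∉ C := by
    intro h
    apply hyC
    have h1 : y = y₁ * x₀ ^ s := by
      show y = y * (x₀ ^ s)⁻¹ * x₀ ^ s
      simp
    rw [h1]
    exact C.mul_mem h (Subgroup.npow_mem_zpowers x₀ s)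
  let w : A := x₀ ^ p ^ k'
  have hwp : w ^ p = 1 := by
    show (x₀ ^ p ^ k') ^ p = 1
    rw [← pow_mul, ← pow_succ]
    exact hexp x₀
  have hw1 : w ≠ 1 := by
    apply pow_ne_one_of_lt_orderOf
    · exact (pow_pos hpp.pos _).ne'
    · rw [hk]
      exact Nat.pow_lt_pow_right hpp.one_lt (by omega)
  have hwC : w ∈ C := Subgroup.npow_mem_zpowers x₀ _
  by_cases h1 : y₁ ∈ Subgroup.zpowers z
  · by_cases h2 : w ∈ Subgroup.zpowers z
    · exfalso
      have hz1 : z ≠ 1 := by
        rintro rfl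
        rw [Subgroup.zpowers_one_eq_bot, Subgroup.mem_bot] at h2
        exact hw1 h2
      have hzo : orderOf z = p := orderOf_eq_prime hz hz1
      have hcard : Nat.card (Subgroup.zpowers z) = p := by rw [Nat.card_zpowers, hzo]
      have h3 := mem_zpowers_of_prime_card hcard (g := ⟨w, h2⟩) (g' := ⟨y₁, h1⟩) (by
        intro h
        exact hw1 (congrArg Subtype.val h))
      obtain ⟨n, hn⟩ := h3
      have h4 : w ^ n = y₁ := by
        have := congrArg Subtype.val hn
        simpa using this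
      apply hy₁C
      rw [← h4]
      exact C.zpow_mem hwC n
    · exact ⟨w, hwp, h2⟩
  · exact ⟨y₁, hy₁p, h1⟩

theorem exists_central_p (hG : IsPGroup p G) (A : Subgroup G) (hAn : A.Normal) (hne : A ≠ ⊥) :
    ∃ z ∈ A, orderOf z = p ∧ ∀ g, g * z = z * g := by
  have hpp := hp.out
  obtain ⟨y, hyA, hy1, hyc⟩ := Cfsg.Agent.Lib.PGrp.exists_central_mem_normal hG A hne
  obtain ⟨M, hM⟩ := IsPGroup.iff_card.mp hG
  have hord : orderOf y ∣ p ^ M := by rw [← hM]; exact orderOf_dvd_natCard y
  obtain ⟨j, -, hj⟩ := (Nat.dvd_prime_pow hpp).mp hord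
  have hj0 : j ≠ 0 := by
    rintro rfl
    rw [pow_zero, orderOf_eq_one_iff] at hj
    exact hy1 hj
  have hpdvd : p ∣ orderOf y := by
    rw [hj]
    exact dvd_pow_self p hj0
  refine ⟨y ^ (orderOf y / p), A.pow_mem hyA _, ?_, ?_⟩
  · exact orderOf_pow_orderOf_div (by rw [hj]; exact (pow_pos hpp.pos _).ne') hpdvd
  · intro g
    have h1 : y ^ (orderOf y / p) ∈ Subgroup.center G := (Subgroup.center G).pow_mem hyc _
    exact (Subgroup.mem_center_iff.mp h1 g)

theorem exists_pair (hG : IsPGroup p G) (A : Subgroup G) (hAn : A.Normal) (hAc : IsMulCommutative A)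
    (hnc : ¬ IsCyclic A) :
    ∃ z a : G, (∀ g, g * z = z * g) ∧ orderOf z = p ∧ a ^ p = 1 ∧ a ∉ Subgroup.zpowers z ∧
      ∀ g, ∃ t : ℕ, g * a * g⁻¹ = a * z ^ t := by
  classical
  have hpp := hp.out
  have hJc : ∀ a ∈ A, ∀ b ∈ A, a * b = b * a := by
    intro a ha b hb
    have := mul_comm' (⟨a, ha⟩ : A) ⟨b, hb⟩
    exact congrArg Subtype.val this
  have hne : A ≠ ⊥ := by
    rintro rfl
    apply hnc
    infer_instance
  obtain ⟨z, hzA, hzo, hzc⟩ := exists_central_p hG A hAn hne
  have hz1 : z ^ p = 1 := by rw [← hzo]; exact pow_orderOf_eq_one z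
  -- the subgroup `Ω`
  let Ω : Subgroup G :=
    { carrier := {x | x ∈ A ∧ x ^ p = 1}
      mul_mem' := by
        rintro a b ⟨ha, ha'⟩ ⟨hb, hb'⟩
        refine ⟨A.mul_mem ha hb, ?_⟩
        rw [(show Commute a b from hJc a ha b hb).mul_pow, ha', hb', one_mul]
      one_mem' := ⟨A.one_mem, one_pow _⟩
      inv_mem' := by
        rintro a ⟨ha, ha'⟩
        exact ⟨A.inv_mem ha, by rw [inv_pow, ha', inv_one]⟩ }
  have hΩn : Ω.Normal := ⟨by
    rintro a ⟨ha, ha'⟩ g
    refine ⟨hAn.conj_mem a ha g, ?_⟩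
    rw [conj_pow, ha', mul_one, mul_inv_cancel]⟩
  haveI hZn : (Subgroup.zpowers z).Normal := ⟨by
    intro n hn g
    obtain ⟨k, rfl⟩ := Subgroup.mem_zpowers_iff.mp hn
    have h1 : g * z ^ k = z ^ k * g := (Commute.zpow_right (show Commute g z from hzc g) k).eq
    rw [h1, mul_inv_cancel_right]
    exact Subgroup.zpow_mem_zpowers z k⟩
  have hAp : IsPGroup p A := hG.to_subgroup A
  obtain ⟨x, hxp, hxz⟩ := abelian_exists (fun x y => mul_comm' x y) hAp hnc ⟨z, hzA⟩
    (Subtype.ext hz1)
  have hxz' : (x : G) ∉ Subgroup.zpowers z := by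
    intro h
    obtain ⟨k, hk⟩ := Subgroup.mem_zpowers_iff.mp h
    apply hxz
    rw [Subgroup.mem_zpowers_iff]
    refine ⟨k, Subtype.ext ?_⟩
    simpa using hk
  -- the central element of the quotient
  let π := QuotientGroup.mk' (Subgroup.zpowers z)
  haveI hMn : (Ω.map π).Normal := hΩn.map π (QuotientGroup.mk'_surjective _)
  have hMne : Ω.map π ≠ ⊥ := by
    intro h
    have h1 : π x ∈ Ω.map π := ⟨x, ⟨x.2, congrArg Subtype.val hxp⟩, rfl⟩
    rw [h, Subgroup.mem_bot] at h1
    apply hxz'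
    exact (QuotientGroup.eq_one_iff _).mp h1
  obtain ⟨yb, ⟨a, ⟨haA, hap⟩, rfl⟩, hyb1, hybc⟩ :=
    Cfsg.Agent.Lib.PGrp.exists_central_mem_normal (hG.to_quotient (Subgroup.zpowers z)) (Ω.map π) hMne
  refine ⟨z, a, hzc, hzo, hap, ?_, ?_⟩
  · intro h
    apply hyb1
    exact (QuotientGroup.eq_one_iff _).mpr h
  · intro g
    have h1 := Subgroup.mem_center_iff.mp hybc (π g)
    have h2 : (π a)⁻¹ * π (g * a * g⁻¹) = 1 := by
      rw [map_mul, map_mul, map_inv, h1]
      group
    have h3 : a⁻¹ * (g * a * g⁻¹) ∈ Subgroup.zpowers z := by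
      apply (QuotientGroup.eq_one_iff _).mp
      have : ((a⁻¹ * (g * a * g⁻¹) : G) : G ⧸ Subgroup.zpowers z) = (π a)⁻¹ * π (g * a * g⁻¹) := by
        simp [π]
      rw [this, h2]
    have hzf : IsOfFinOrder z := isOfFinOrder_of_finite z
    obtain ⟨t, ht⟩ := Submonoid.mem_powers_iff _ _ |>.mp (hzf.mem_powers_iff_mem_zpowers.mpr h3)
    refine ⟨t, ?_⟩
    rw [ht]
    group

theorem unique_sub (hG : IsPGroup p G)
    (hall : ∀ B : Subgroup G, IsMulCommutative B → IsCyclic B) :
    ∀ H K : Subgroup G, Nat.card H = p → Nat.card K = p → H = K := by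
  classical
  have hpp := hp.out
  have key : ∀ (x z : G), orderOf x = p → orderOf z = p → (∀ g, g * z = z * g) →
      x ∈ Subgroup.zpowers z := by
    intro x z hx hz hzc
    let B := Subgroup.closure ({x, z} : Set G)
    have hxB : x ∈ B := Subgroup.subset_closure (by simp)
    have hzB : z ∈ B := Subgroup.subset_closure (by simp)
    have hBc : IsMulCommutative B := by
      apply Subgroup.isMulCommutative_closure
      intro a ha b hb
      simp only [Set.mem_insert_iff, Set.mem_singleton_iff] at ha hb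
      rcases ha with rfl | rfl <;> rcases hb with rfl | rfl
      · rfl
      · exact hzc _
      · exact (hzc _).symm
      · rfl
    haveI hBcyc : IsCyclic B := hall B hBc
    haveI : Fintype B := Fintype.ofFinite B
    have hle := IsCyclic.card_pow_eq_one_le (α := B) (n := p) hpp.pos
    -- the two subgroups are the set of roots
    have hX : ∀ w : G, orderOf w = p → ∀ hw : w ∈ B,
        (Subgroup.zpowers (⟨w, hw⟩ : B) : Set B) = {a : B | a ^ p = 1} := by
      intro w hw hwB
      have hw' : orderOf (⟨w, hwB⟩ : B) = p := by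
        rw [← hw]
        exact Subgroup.orderOf_mk w hwB
      have hsub : (Subgroup.zpowers (⟨w, hwB⟩ : B) : Set B) ⊆ {a : B | a ^ p = 1} := by
        rintro _ ⟨k, rfl⟩
        show _ ^ p = 1
        simp only
        rw [← zpow_natCast, ← zpow_mul, mul_comm, zpow_mul, zpow_natCast, ← hw', pow_orderOf_eq_one, one_zpow]
      apply Set.eq_of_subset_of_ncard_le hsub _ (Set.toFinite _)
      have h1 : (Subgroup.zpowers (⟨w, hwB⟩ : B) : Set B).ncard = p := by
        rw [← Nat.card_coe_set_eq]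
        have := Nat.card_zpowers (⟨w, hwB⟩ : B)
        rw [hw'] at this
        exact this
      rw [h1]
      have h2 : ({a : B | a ^ p = 1} : Set B) = ((Finset.univ.filter fun a : B => a ^ p = 1 : Finset B) : Set B) := by
        ext a
        simp
      rw [h2, Set.ncard_coe_finset]
      exact hle
    have h1 := hX x hx hxB
    have h2 := hX z hz hzB
    have h3 : (⟨x, hxB⟩ : B) ∈ (Subgroup.zpowers (⟨z, hzB⟩ : B) : Set B) := by
      rw [h2, ← h1]
      exact Subgroup.mem_zpowers _
    obtain ⟨k, hk⟩ := h3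
    refine Subgroup.mem_zpowers_iff.mpr ⟨k, ?_⟩
    have := congrArg Subtype.val hk
    simpa using this
  have main : ∀ H : Subgroup G, Nat.card H = p → ∀ z : G, orderOf z = p → (∀ g, g * z = z * g) →
      H = Subgroup.zpowers z := by
    intro H hH z hz hzc
    haveI : Nontrivial H := by
      apply Finite.one_lt_card_iff_nontrivial.mp
      rw [hH]
      exact hpp.one_lt
    obtain ⟨x, hx1⟩ := exists_ne (1 : H)
    have hx1' : (x : G) ≠ 1 := by simpa using hx1
    have hxp : (x : G) ^ p = 1 := by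
      have h1 : x ^ Nat.card H = 1 := pow_card_eq_one'
      rw [hH] at h1
      simpa using congrArg Subtype.val h1
    have hxo : orderOf (x : G) = p := orderOf_eq_prime hxp hx1'
    have hxH : Subgroup.zpowers (x : G) ≤ H := by
      rw [Subgroup.zpowers_le]
      exact x.2
    have h1 : H = Subgroup.zpowers (x : G) := by
      symm
      apply Subgroup.eq_of_le_of_card_ge hxH
      rw [hH, Nat.card_zpowers, hxo]
    rw [h1]
    apply Subgroup.eq_of_le_of_card_ge
    · rw [Subgroup.zpowers_le]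
      exact key _ _ hxo hz hzc
    · rw [Nat.card_zpowers, Nat.card_zpowers, hxo, hz]
  intro H K hH hK
  have hne : (⊤ : Subgroup G) ≠ ⊥ := by
    intro h
    have h1 : H = ⊥ := by
      rw [eq_bot_iff, ← h]
      exact le_top
    rw [h1, Subgroup.card_bot] at hH
    exact hpp.one_lt.ne hH
  obtain ⟨z, -, hzo, hzc⟩ := exists_central_p hG ⊤ inferInstance hne
  rw [main H hH z hzo hzc, main K hK z hzo hzc]

theorem exists_normal_noncyclic (hG : IsPGroup p G) (hnc : ¬ IsCyclic G)
    (hnq : ∀ n : ℕ, ¬ Nonempty (G ≃* QuaternionGroup n))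
    (hnd : ∀ n : ℕ, ¬ Nonempty (G ≃* DihedralGroup n)) (hnsd : ¬ Cfsg.IsQuasiDihedral G) :
    ∃ A : Subgroup G, A.Normal ∧ IsMulCommutative A ∧ ¬ IsCyclic A := by
  by_contra hno
  push Not at hno
  by_cases hm : ∃ B : Subgroup G, IsMulCommutative B ∧ ¬ IsCyclic B
  · obtain ⟨-, h | ⟨n, -, h⟩ | h⟩ := Cfsg.Agent.S0519.result p hG hno hm
    · obtain ⟨n, h⟩ := h
      exact hnq n h
    · exact hnd n h
    · exact hnsd h
  · push Not at hm
    rcases Cfsg.Agent.Lib.UniqueSub.main p hG (unique_sub hG hm) with h | ⟨-, n, ⟨e⟩⟩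
    · exact hnc h
    · exact hnq _ ⟨e⟩

end Front

theorem result
    (q : ℕ) [Fact q.Prime] {V : Type*} [AddCommGroup V] [Module (ZMod q) V] [Finite V] [Nontrivial V]
    {G : Type*} [Group G] [Finite G] (p : ℕ) [Fact p.Prime] (hG : IsPGroup p G)
    (ρ : G →* (V ≃ₗ[ZMod q] V)) (hρ : Function.Injective ρ)
    (hirr : ∀ W : Submodule (ZMod q) V, (∀ g : G, ∀ w ∈ W, ρ g w ∈ W) → W = ⊥ ∨ W = ⊤)
    (hnc : ¬ IsCyclic G) (hnq : ∀ n : ℕ, ¬ Nonempty (G ≃* QuaternionGroup n))
    (hnd : ∀ n : ℕ, ¬ Nonempty (G ≃* DihedralGroup n)) (hnsd : ¬ Cfsg.IsQuasiDihedral G) :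
    ∃ (H : Subgroup G) (W : Fin p → Submodule (ZMod q) V), H.index = p ∧
      iSup W = ⊤ ∧ iSupIndep W ∧
      (∀ h ∈ H, ∀ i, ∀ w ∈ W i, ρ h w ∈ W i) ∧
      (∀ i, ∃ h ∈ H, h ≠ 1 ∧ ∀ w ∈ W i, ρ h w = w) ∧
      ∀ g : G, g ∉ H → ∃ σ : Equiv.Perm (Fin p), orderOf σ = p ∧ ∀ i, (W i).map (ρ g : V →ₗ[ZMod q] V) = W (σ i) := by
  classical
  have hpp : p.Prime := Fact.out
  have hqq : q.Prime := Fact.out
  have hpq : (p : ZMod q) ≠ 0 := by
    intro h0
    have h1 : q ∣ p := (ZMod.natCast_eq_zero_iff p q).mp h0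
    have h2 : q = p := (Nat.prime_dvd_prime_iff_eq hqq hpp).mp h1
    subst h2
    apply hnc
    -- a fixed vector
    letI : MulAction G V :=
      { smul := fun g v => ρ g v
        one_smul := fun v => map_one_apply ρ v
        mul_smul := fun a b v => map_mul_apply ρ a b v }
    have hsm : ∀ (g : G) (v : V), g • v = ρ g v := fun _ _ => rfl
    have hm := hG.card_modEq_card_fixedPoints V
    haveI : Module.Finite (ZMod q) V := Module.Finite.of_finite
    have hV : Nat.card V = q ^ Module.finrank (ZMod q) V := by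
      have h1 := Module.natCard_eq_pow_finrank (K := ZMod q) (V := V)
      rwa [Nat.card_zmod] at h1
    have hn0 : Module.finrank (ZMod q) V ≠ 0 := by
      intro h
      rw [h, pow_zero] at hV
      have := Finite.one_lt_card (α := V)
      omega
    have hdv : q ∣ Nat.card (MulAction.fixedPoints G V) := by
      have h1 : q ∣ Nat.card V := by
        rw [hV]
        exact dvd_pow_self q hn0
      exact (hm.dvd_iff dvd_rfl).mp h1
    have hF0 : (0 : V) ∈ MulAction.fixedPoints G V := by
      intro g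
      rw [hsm]
      simp
    have hcard : 1 < Nat.card (MulAction.fixedPoints G V) := by
      have h1 : 0 < Nat.card (MulAction.fixedPoints G V) := by
        haveI : Nonempty (MulAction.fixedPoints G V) := ⟨⟨0, hF0⟩⟩
        exact Nat.card_pos
      have h2 := Nat.le_of_dvd h1 hdv
      have := hqq.one_lt
      omega
    haveI : Nontrivial (MulAction.fixedPoints G V) := Finite.one_lt_card_iff_nontrivial.mp hcard
    obtain ⟨v, hv⟩ := exists_ne (⟨0, hF0⟩ : MulAction.fixedPoints G V)
    have hv0 : (v : V) ≠ 0 := by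
      intro h
      exact hv (Subtype.ext h)
    have hvf : ∀ g : G, ρ g v = v := fun g => v.2 g
    -- the line is everything
    have hspan : Submodule.span (ZMod q) {(v : V)} = ⊤ := by
      rcases hirr (Submodule.span (ZMod q) {(v : V)}) (by
        intro g w hw
        obtain ⟨c, rfl⟩ := Submodule.mem_span_singleton.mp hw
        rw [map_smul, hvf]
        exact Submodule.smul_mem _ _ (Submodule.mem_span_singleton_self _)) with h | h
      · exfalso
        rw [Submodule.span_singleton_eq_bot] at h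
        exact hv0 h
      · exact h
    haveI : Subsingleton G := by
      constructor
      intro a b
      apply hρ
      ext1 w
      have hw : w ∈ Submodule.span (ZMod q) {(v : V)} := by rw [hspan]; trivial
      obtain ⟨c, rfl⟩ := Submodule.mem_span_singleton.mp hw
      rw [map_smul, map_smul, hvf, hvf]
    infer_instance
  obtain ⟨A, hAn, hAc, hAnc⟩ := exists_normal_noncyclic hG hnc hnq hnd hnsd
  obtain ⟨z, a, hzc, hzo, ha, haz, hconj⟩ := exists_pair hG A hAn hAc hAnc
  have hz1 : z ^ p = 1 := by rw [← hzo]; exact pow_orderOf_eq_one z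
  refine core ρ hρ hirr hpq z a hzc hzo ha haz ?_
  intro g
  obtain ⟨t, ht⟩ := hconj g
  exact ⟨(t : ZMod p), by rw [ht, pw_natCast hz1]⟩

end Cfsg.Agent.S3380
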