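import Mathlib
import Cfsg.Statements.S3382

set_option autoImplicit false
set_option linter.style.haveILetI false
set_option linter.unusedSectionVars false
open Cfsg

namespace Cfsg.Agent.S3382

/-! ### Generalities about automorphisms of odd order -/

theorem pow_apply_of_fix {H : Type*} [Group H] (α : MulAut H) {t c : H} (hc : α t = t * c)
    (hfix : α c = c) (i : ℕ) : (α ^ i) t = t * c ^ i := by
  induction i with
  | zero => simp
  | succ i ih =>
    rw [pow_succ', MulAut.mul_apply, ih, map_mul, map_pow, hc, hfix, pow_succ', mul_assoc]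

/-- A fixed element `c` of `2`-power order, with `α t = t c`, `α` of odd order: `c = 1`. -/
theorem triv {H : Type*} [Group H] (α : MulAut H) {k : ℕ} (hk : Odd k) (hα : α ^ k = 1) {t c : H}
    (hc : α t = t * c) (hfix : α c = c) {n : ℕ} (h2 : c ^ 2 ^ n = 1) : α t = t := by
  have h1 := pow_apply_of_fix α hc hfix k
  rw [hα, MulAut.one_apply] at h1
  have h3 : c ^ k = 1 := by
    have : t * 1 = t * c ^ k := by rw [mul_one]; exact h1
    exact (mul_left_cancel this).symm
  have h4 : orderOf c ∣ k := orderOf_dvd_of_pow_eq_one h3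
  have h5 : orderOf c ∣ 2 ^ n := orderOf_dvd_of_pow_eq_one h2
  have h6 : Nat.Coprime k (2 ^ n) := (Nat.coprime_two_right.mpr hk).pow_right n
  have h7 : orderOf c = 1 := Nat.eq_one_of_dvd_coprimes h6 h4 h5
  rw [hc, orderOf_eq_one_iff.mp h7, mul_one]

theorem pow_apply_of_pow {H : Type*} [Group H] (α : MulAut H) {x : H} {j : ℕ} (hx : α x = x ^ j)
    (i : ℕ) : (α ^ i) x = x ^ (j ^ i) := by
  induction i with
  | zero => simp
  | succ i ih =>
    rw [pow_succ', MulAut.mul_apply, ih, map_pow, hx, ← pow_mul, pow_succ', mul_comm j]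

/-- On a cyclic `2`-group an automorphism of odd order is the identity. -/
theorem cyc {H : Type*} [Group H] (α : MulAut H) {k : ℕ} (hk : Odd k) (hα : α ^ k = 1) {x : H}
    {n : ℕ} (hx : x ^ 2 ^ n = 1) {j : ℕ} (hj : α x = x ^ j) : α x = x := by
  have h1 := pow_apply_of_pow α hj k
  rw [hα, MulAut.one_apply] at h1
  have h2 : x ^ (1 : ℕ) = x ^ (j ^ k) := by rw [pow_one]; exact h1
  have h3 : 1 ≡ j ^ k [MOD orderOf x] := (pow_eq_pow_iff_modEq).mp h2
  obtain ⟨e, -, he⟩ := (Nat.dvd_prime_pow Nat.prime_two).mp (orderOf_dvd_of_pow_eq_one hx)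
  rw [he] at h3
  -- work in `ZMod (2 ^ e)`
  have h4 : ((j : ZMod (2 ^ e))) ^ k = 1 := by
    have := (ZMod.natCast_eq_natCast_iff _ _ _).mpr h3.symm
    simpa using this
  have hk0 : k ≠ 0 := by rintro rfl; simp at hk
  haveI : NeZero (2 ^ e) := ⟨by positivity⟩
  have hu : IsUnit (j : ZMod (2 ^ e)) := IsUnit.of_pow_eq_one h4 hk0
  obtain ⟨u, hu⟩ := hu
  have h5 : u ^ k = 1 := by
    apply Units.ext
    simpa [hu] using h4
  have h6 : u ^ (2 ^ (e - 1)) = 1 := by
    have hc : Nat.card (ZMod (2 ^ e))ˣ = Nat.totient (2 ^ e) := by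
      rw [Nat.card_eq_fintype_card, ZMod.card_units_eq_totient]
    rcases Nat.eq_zero_or_pos e with rfl | hepos
    · simp at hc
      have : Subsingleton (ZMod (2 ^ 0))ˣ := by
        have : Subsingleton (ZMod (2 ^ 0)) := by
          simp only [pow_zero]
          infer_instance
        infer_instance
      exact Subsingleton.elim _ _
    · rw [Nat.totient_prime_pow Nat.prime_two hepos] at hc
      have := pow_card_eq_one' (x := u)
      rw [hc] at this
      simpa using this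
  have h7 : orderOf u = 1 :=
    Nat.eq_one_of_dvd_coprimes ((Nat.coprime_two_right.mpr hk).pow_right (e - 1))
      (orderOf_dvd_of_pow_eq_one h5) (orderOf_dvd_of_pow_eq_one h6)
  have h8 : u = 1 := orderOf_eq_one_iff.mp h7
  have h9 : ((j : ℕ) : ZMod (2 ^ e)) = ((1 : ℕ) : ZMod (2 ^ e)) := by
    rw [← hu, h8]; simp
  have h10 : j ≡ 1 [MOD 2 ^ e] := (ZMod.natCast_eq_natCast_iff _ _ _).mp h9
  rw [← he] at h10
  rw [hj, (pow_eq_pow_iff_modEq).mpr h10, pow_one]

/-! ### Diagonal and antidiagonal maps -/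

section Maps

variable {q : ℕ} [Fact q.Prime]

/-- The ambient group. -/
abbrev E (q : ℕ) := (Fin 2 → ZMod q) ≃ₗ[ZMod q] (Fin 2 → ZMod q)

/-- Diagonal maps. -/
def isD (f : E q) (a s : ZMod q) : Prop := ∀ v, f v = ![a * v 0, s * a⁻¹ * v 1]

/-- Antidiagonal maps. -/
def isW (f : E q) (a s : ZMod q) : Prop := ∀ v, f v = ![s * a⁻¹ * v 1, a * v 0]

theorem D_D {f g : E q} {a b s t : ZMod q} (hf : isD f a s) (hg : isD g b t) :
    isD (f * g) (a * b) (s * t) := by
  intro v
  rw [LinearEquiv.mul_apply, hg, hf]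
  ext i
  fin_cases i
  · simp [mul_assoc]
  · simp only [Fin.mk_one, Matrix.cons_val_one, Matrix.cons_val_zero, mul_inv]
    ring

theorem W_D {f g : E q} {a b s t : ZMod q} (hf : isW f a s) (hg : isD g b t) :
    isW (f * g) (a * b) (s * t) := by
  intro v
  rw [LinearEquiv.mul_apply, hg, hf]
  ext i
  fin_cases i
  · simp only [Fin.zero_eta, Matrix.cons_val_one, Matrix.cons_val_zero, mul_inv]
    ring
  · simp [mul_assoc]

theorem D_W {f g : E q} {a b s t : ZMod q} (hs : s ≠ 0) (hf : isD f a s) (hg : isW g b t) :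
    isW (f * g) (s * a⁻¹ * b) (s * t) := by
  intro v
  rw [LinearEquiv.mul_apply, hg, hf]
  ext i
  fin_cases i
  · simp only [Fin.zero_eta, Matrix.cons_val_one, Matrix.cons_val_zero, mul_inv, inv_inv]
    field_simp
  · simp only [Fin.mk_one, Matrix.cons_val_one, Matrix.cons_val_zero]
    ring

theorem W_W {f g : E q} {a b s t : ZMod q} (hs : s ≠ 0) (hf : isW f a s) (hg : isW g b t) :
    isD (f * g) (s * a⁻¹ * b) (s * t) := by
  intro v
  rw [LinearEquiv.mul_apply, hg, hf]
  ext i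
  fin_cases i
  · simp only [Fin.zero_eta, Matrix.cons_val_one, Matrix.cons_val_zero]
    ring
  · simp only [Fin.mk_one, Matrix.cons_val_one, Matrix.cons_val_zero, mul_inv, inv_inv]
    field_simp

theorem D_one : isD (1 : E q) 1 1 := by
  intro v
  ext i
  fin_cases i <;> simp

theorem D_ext {f g : E q} {a s : ZMod q} (hf : isD f a s) (hg : isD g a s) : f = g := by
  ext1 v
  rw [hf, hg]

theorem W_ext {f g : E q} {a s : ZMod q} (hf : isW f a s) (hg : isW g a s) : f = g := by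
  ext1 v
  rw [hf, hg]

theorem D_eq_one {f : E q} (hf : isD f 1 1) : f = 1 := D_ext hf D_one

theorem D_uniq {f : E q} {a b s t : ZMod q} (ha : a ≠ 0) (hf : isD f a s) (hg : isD f b t) :
    a = b ∧ s = t := by
  have h1 := hf ![1, 1]
  rw [hg] at h1
  have h10 := congrFun h1 0
  have h11 := congrFun h1 1
  simp at h10 h11
  refine ⟨h10.symm, ?_⟩
  rw [h10] at h11
  have ha' : a⁻¹ ≠ 0 := inv_ne_zero ha
  exact mul_right_cancel₀ ha' h11.symm

theorem not_D_W {f : E q} {a b s t : ZMod q} (ha : a ≠ 0) (hf : isD f a s) (hg : isW f b t) :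
    False := by
  have h1 := hf ![1, 0]
  rw [hg] at h1
  have h10 := congrFun h1 0
  simp at h10
  exact ha h10.symm

theorem W_uniq {f : E q} {a b s t : ZMod q} (ha : a ≠ 0) (hf : isW f a s) (hg : isW f b t) :
    a = b ∧ s = t := by
  have h1 := hf ![1, 1]
  rw [hg] at h1
  have h10 := congrFun h1 1
  have h11 := congrFun h1 0
  simp at h10 h11
  refine ⟨h10.symm, ?_⟩
  rw [h10] at h11
  have ha' : a⁻¹ ≠ 0 := inv_ne_zero ha
  exact mul_right_cancel₀ ha' h11.symm

theorem D_pow {f : E q} {a s : ZMod q} (hf : isD f a s) (n : ℕ) : isD (f ^ n) (a ^ n) (s ^ n) := by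
  induction n with
  | zero => simpa using D_one
  | succ n ih =>
    rw [pow_succ, pow_succ, pow_succ]
    exact D_D ih hf

theorem D_comm {f g : E q} {a b s t : ZMod q} (hf : isD f a s) (hg : isD g b t) :
    f * g = g * f := by
  have h1 := D_D hf hg
  have h2 := D_D hg hf
  rw [mul_comm b a, mul_comm t s] at h2
  exact D_ext h1 h2

/-- Squares of antidiagonal maps. -/
theorem W_sq {f : E q} {a s : ZMod q} (ha : a ≠ 0) (hs : s = 1 ∨ s = -1) (hf : isW f a s) :
    isD (f * f) s 1 := by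
  have hs0 : s ≠ 0 := by
    rcases hs with rfl | rfl
    · exact one_ne_zero
    · exact neg_ne_zero.mpr one_ne_zero
  have h1 := W_W hs0 hf hf
  have h2 : s * a⁻¹ * a = s := by field_simp
  have h3 : s * s = 1 := by rcases hs with rfl | rfl <;> simp
  rwa [h2, h3] at h1

theorem W_four {f : E q} {a s : ZMod q} (ha : a ≠ 0) (hs : s = 1 ∨ s = -1) (hf : isW f a s) :
    f ^ 4 = 1 := by
  have h1 := W_sq ha hs hf
  have h2 := D_D h1 h1
  have h3 : s * s = 1 := by rcases hs with rfl | rfl <;> simp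
  rw [h3, one_mul] at h2
  have h4 : f ^ 4 = f * f * (f * f) := by
    simp only [pow_succ, pow_zero, one_mul, mul_assoc]
  rw [h4]
  exact D_eq_one h2

/-- A diagonal element. -/
def mkD (a s : ZMod q) (ha : a ≠ 0) (hs : s ≠ 0) : E q where
  toFun v := ![a * v 0, s * a⁻¹ * v 1]
  map_add' v w := by
    ext i
    fin_cases i <;> simp [mul_add]
  map_smul' c v := by
    ext i
    fin_cases i <;> simp <;> ring
  invFun v := ![a⁻¹ * v 0, s⁻¹ * a * v 1]
  left_inv v := by
    ext i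
    fin_cases i
    · simp [ha]
    · simp; field_simp
  right_inv v := by
    ext i
    fin_cases i
    · simp [ha]
    · simp; field_simp

theorem isD_mkD (a s : ZMod q) (ha : a ≠ 0) (hs : s ≠ 0) : isD (mkD a s ha hs) a s := fun _ => rfl

/-- An antidiagonal element. -/
def mkW (a s : ZMod q) (ha : a ≠ 0) (hs : s ≠ 0) : E q where
  toFun v := ![s * a⁻¹ * v 1, a * v 0]
  map_add' v w := by
    ext i
    fin_cases i <;> simp [mul_add]
  map_smul' c v := by
    ext i
    fin_cases i <;> simp <;> ring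
  invFun v := ![a⁻¹ * v 1, s⁻¹ * a * v 0]
  left_inv v := by
    ext i
    fin_cases i
    · simp [ha]
    · simp; field_simp
  right_inv v := by
    ext i
    fin_cases i
    · simp; field_simp
    · simp [ha]

theorem isW_mkW (a s : ZMod q) (ha : a ≠ 0) (hs : s ≠ 0) : isW (mkW a s ha hs) a s := fun _ => rfl

end Maps


section TLevel

variable {q : ℕ} [Fact q.Prime] {T : Subgroup (E q)}

/-- `T` consists of the given maps. -/
def GoodT (T : Subgroup (E q)) : Prop :=
  ∀ f, f ∈ T ↔ ∃ a s : ZMod q, a ≠ 0 ∧ (s = 1 ∨ s = -1) ∧ (isD f a s ∨ isW f a s)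

/-- Diagonal elements of `T`. -/
def PD (t : T) : Prop := ∃ a s : ZMod q, a ≠ 0 ∧ (s = 1 ∨ s = -1) ∧ isD t.1 a s

/-- Antidiagonal elements of `T`. -/
def PW (t : T) : Prop := ∃ a s : ZMod q, a ≠ 0 ∧ (s = 1 ∨ s = -1) ∧ isW t.1 a s

theorem s_ne {s : ZMod q} (hs : s = 1 ∨ s = -1) : s ≠ 0 := by
  rcases hs with rfl | rfl
  · exact one_ne_zero
  · exact neg_ne_zero.mpr one_ne_zero

theorem s_sq {s : ZMod q} (hs : s = 1 ∨ s = -1) : s ^ 2 = 1 := by
  rcases hs with rfl | rfl <;> simp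

theorem s_mul {s t : ZMod q} (hs : s = 1 ∨ s = -1) (ht : t = 1 ∨ t = -1) : s * t = 1 ∨ s * t = -1 := by
  rcases hs with rfl | rfl <;> rcases ht with rfl | rfl <;> simp

theorem T_cases (hT : GoodT T) (t : T) : PD t ∨ PW t := by
  obtain ⟨a, s, ha, hs, h | h⟩ := (hT t.1).mp t.2
  · exact Or.inl ⟨a, s, ha, hs, h⟩
  · exact Or.inr ⟨a, s, ha, hs, h⟩

theorem not_PD_PW {t : T} (h1 : PD t) (h2 : PW t) : False := by
  obtain ⟨a, s, ha, hs, h⟩ := h1
  obtain ⟨b, r, hb, hr, h'⟩ := h2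
  exact not_D_W ha h h'

theorem PD_mul {x y : T} (hx : PD x) (hy : PD y) : PD (x * y) := by
  obtain ⟨a, s, ha, hs, h⟩ := hx
  obtain ⟨b, r, hb, hr, h'⟩ := hy
  exact ⟨a * b, s * r, mul_ne_zero ha hb, s_mul hs hr, D_D h h'⟩

theorem PW_mul {x y : T} (hx : PW x) (hy : PW y) : PD (x * y) := by
  obtain ⟨a, s, ha, hs, h⟩ := hx
  obtain ⟨b, r, hb, hr, h'⟩ := hy
  exact ⟨s * a⁻¹ * b, s * r, mul_ne_zero (mul_ne_zero (s_ne hs) (inv_ne_zero ha)) hb,
    s_mul hs hr, W_W (s_ne hs) h h'⟩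

theorem PD_PW {x y : T} (hx : PD x) (hy : PW y) : PW (x * y) := by
  obtain ⟨a, s, ha, hs, h⟩ := hx
  obtain ⟨b, r, hb, hr, h'⟩ := hy
  exact ⟨s * a⁻¹ * b, s * r, mul_ne_zero (mul_ne_zero (s_ne hs) (inv_ne_zero ha)) hb,
    s_mul hs hr, D_W (s_ne hs) h h'⟩

theorem PD_one : PD (1 : T) := ⟨1, 1, one_ne_zero, Or.inl rfl, D_one⟩

theorem PD_inv (hT : GoodT T) {x : T} (hx : PD x) : PD x⁻¹ := by
  rcases T_cases hT x⁻¹ with h | h
  · exact h
  · exfalso
    have := PD_PW hx h
    rw [mul_inv_cancel] at this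
    exact not_PD_PW PD_one this

theorem PD_comm {x y : T} (hx : PD x) (hy : PD y) : x * y = y * x := by
  obtain ⟨a, s, ha, hs, h⟩ := hx
  obtain ⟨b, r, hb, hr, h'⟩ := hy
  exact Subtype.ext (D_comm h h')

theorem PD_sq {t : T} {a s : ZMod q} (hs : s = 1 ∨ s = -1) (h : isD t.1 a s) :
    isD (t ^ 2).1 (a ^ 2) 1 := by
  have := D_pow h 2
  rwa [s_sq hs] at this

theorem T_torsion {m : ℕ} (hm : q = 2 ^ m + 1) (hT : GoodT T) (t : T) : ∃ n, t ^ 2 ^ n = 1 := by
  rcases (hT t.1).mp t.2 with ⟨a, s, ha, hs, h | h⟩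
  · refine ⟨m + 1, ?_⟩
    apply Subtype.ext
    have h1 := D_pow h (2 ^ (m + 1))
    have h2 : a ^ 2 ^ (m + 1) = 1 := by
      have h3 : a ^ (q - 1) = 1 := ZMod.pow_card_sub_one_eq_one ha
      have h4 : q - 1 = 2 ^ m := Nat.sub_eq_of_eq_add hm
      rw [h4] at h3
      rw [pow_succ, pow_mul, h3, one_pow]
    have h3 : s ^ 2 ^ (m + 1) = 1 := by
      rw [pow_succ, mul_comm, pow_mul, s_sq hs, one_pow]
    rw [h2, h3] at h1
    exact D_eq_one h1
  · refine ⟨2, ?_⟩
    apply Subtype.ext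
    exact W_four ha hs h

/-- The final step: an automorphism fixing an index-two set. -/
theorem stepE {k : ℕ} (hk : Odd k) (α : MulAut T) (hα : α ^ k = 1)
    (htors : ∀ t : T, ∃ n, t ^ 2 ^ n = 1)
    (P N : T → Prop) (hPN : ∀ t, P t ∨ N t) (hdis : ∀ t, P t → N t → False)
    (hNN : ∀ x y, N x → N y → P (x * y)) (hfix : ∀ t, P t → α t = t) : α = 1 := by
  ext1 t
  rw [MulAut.one_apply]
  rcases hPN t with h | h
  · exact hfix t h
  · have h1 : N (α t) := by
      rcases hPN (α t) with h2 | h2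
      · exfalso
        have h3 := hfix _ h2
        have h4 := α.injective h3
        rw [h4] at h2
        exact hdis t h2 h
      · exact h2
    have h5 : P (t⁻¹ * α t) := by
      rcases hPN (t⁻¹ * α t) with h2 | h2
      · exact h2
      · exfalso
        have h3 := hNN t _ h h2
        rw [mul_inv_cancel_left] at h3
        exact hdis _ h3 h1
    obtain ⟨n, hn⟩ := htors (t⁻¹ * α t)
    exact triv α hk hα (c := t⁻¹ * α t) (by group) (hfix _ h5) hn

end TLevel


section Large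

variable {q : ℕ} [Fact q.Prime] {T : Subgroup (E q)}

/-- The case of large `q`. -/
theorem core_large (hT : GoodT T) {k : ℕ} (hk : Odd k) (α : MulAut T) (hα : α ^ k = 1)
    (ζ : ZMod q) (hζ0 : ζ ≠ 0) (hgen : ∀ a : ZMod q, a ≠ 0 → ∃ i : ℕ, a = ζ ^ i)
    (hζ4 : ζ ^ 4 ≠ 1) (ι : ZMod q) (hι : ι ^ 2 = -1) (hm : ℕ) (hqm : q = 2 ^ hm + 1) : α = 1 := by
  have htors := T_torsion hqm hT
  have hone_ne : (1 : ZMod q) ≠ 0 := one_ne_zero
  have hι0 : ι ≠ 0 := by
    rintro rfl
    have : (1 : ZMod q) = 0 := by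
      have h1 : (0 : ZMod q) ^ 2 = -1 := hι
      simp at h1
    exact hone_ne this
  -- special elements
  let d₀ : T := ⟨mkD ζ 1 hζ0 one_ne_zero, (hT _).mpr ⟨ζ, 1, hζ0, Or.inl rfl, Or.inl (isD_mkD _ _ hζ0 one_ne_zero)⟩⟩
  have hd₀ : isD d₀.1 ζ 1 := isD_mkD _ _ hζ0 one_ne_zero
  have four_ne : ∀ t : T, t ^ 4 ≠ 1 → PD t := by
    intro t ht
    rcases T_cases hT t with h | ⟨a, s, ha, hs, h⟩
    · exact h
    · exfalso
      apply ht
      apply Subtype.ext
      exact W_four ha hs h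
  have four_of : ∀ (t : T) (a s : ZMod q), (s = 1 ∨ s = -1) → isD t.1 a s → a ^ 4 ≠ 1 → t ^ 4 ≠ 1 := by
    intro t a s hs h ha h4
    have h1 := D_pow h 4
    have h2 : (t ^ 4).1 = 1 := by rw [h4]; rfl
    have h3 : isD (t.1 ^ 4) 1 1 := by
      rw [show t.1 ^ 4 = (t ^ 4).1 from rfl, h2]; exact D_one
    have ha0 : a ^ 4 ≠ 0 := by
      intro h0
      have h5 : isD (t.1 ^ 4) 0 (s ^ 4) := h0 ▸ h1
      have h6 := h3 ![1, 1]
      rw [h5] at h6
      have := congrFun h6 0
      simp at this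
    exact ha (D_uniq ha0 h1 h3).1
  -- Step B
  have stepB : ∀ t : T, PD t → PD (α t) := by
    intro t ht
    obtain ⟨a, s, ha, hs, h⟩ := ht
    by_cases ha4 : a ^ 4 = 1
    · -- multiply by `d₀`
      have h1 : isD (t * d₀).1 (a * ζ) (s * 1) := D_D h hd₀
      have h2 : (a * ζ) ^ 4 ≠ 1 := by
        rw [mul_pow, ha4, one_mul]
        exact hζ4
      have h3 : PD (α (t * d₀)) := by
        apply four_ne
        intro h4
        rw [← map_pow] at h4
        have h5 : (t * d₀) ^ 4 = 1 := by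
          apply α.injective
          rw [h4, map_one]
        refine four_of _ _ _ ?_ h1 h2 h5
        rw [mul_one]; exact hs
      have h4 : PD (α d₀) := by
        apply four_ne
        intro h4
        rw [← map_pow] at h4
        have h5 : d₀ ^ 4 = 1 := by
          apply α.injective
          rw [h4, map_one]
        exact four_of _ _ _ (Or.inl rfl) hd₀ hζ4 h5
      have h5 : α t = α (t * d₀) * (α d₀)⁻¹ := by
        rw [map_mul]; group
      rw [h5]
      exact PD_mul h3 (PD_inv hT h4)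
    · apply four_ne
      intro h4
      rw [← map_pow] at h4
      have h5 : t ^ 4 = 1 := by
        apply α.injective
        rw [h4, map_one]
      exact four_of _ _ _ hs h ha4 h5
  -- Step C: squares are fixed
  let x : T := d₀ ^ 2
  have hx : isD x.1 (ζ ^ 2) 1 := PD_sq (Or.inl rfl) hd₀
  obtain ⟨n₀, hn₀⟩ := htors x
  have hαx : α x = x := by
    obtain ⟨a', s', ha', hs', h'⟩ := stepB d₀ ⟨ζ, 1, hζ0, Or.inl rfl, hd₀⟩
    obtain ⟨j, hj⟩ := hgen a' ha'
    apply cyc α hk hα hn₀ (j := j)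
    have h1 : α x = (α d₀) ^ 2 := map_pow _ _ _
    rw [h1]
    apply Subtype.ext
    have h2 := PD_sq hs' h'
    have h3 := D_pow hx j
    rw [one_pow] at h3
    have h4 : (ζ ^ 2) ^ j = a' ^ 2 := by rw [hj, ← pow_mul, ← pow_mul, mul_comm]
    rw [h4] at h3
    exact D_ext h2 h3
  have sq_fix : ∀ t : T, PD t → α (t ^ 2) = t ^ 2 := by
    rintro t ⟨a, s, ha, hs, h⟩
    obtain ⟨i, hi⟩ := hgen a ha
    have h2 := PD_sq hs h
    have h3 := D_pow hx i
    rw [one_pow] at h3
    have h4 : (ζ ^ 2) ^ i = a ^ 2 := by rw [hi, ← pow_mul, ← pow_mul, mul_comm]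
    rw [h4] at h3
    have h5 : t ^ 2 = x ^ i := Subtype.ext (D_ext h2 h3)
    rw [h5, map_pow, hαx]
  -- Step D: elementary abelian part
  let ed : T := ⟨mkD ι 1 hι0 one_ne_zero, (hT _).mpr ⟨ι, 1, hι0, Or.inl rfl, Or.inl (isD_mkD _ _ hι0 one_ne_zero)⟩⟩
  have hed : isD ed.1 ι 1 := isD_mkD _ _ hι0 one_ne_zero
  let n : T := ed ^ 2
  have hn : isD n.1 (-1) 1 := by
    have := PD_sq (Or.inl rfl) hed
    rwa [hι] at this
  have hαn : α n = n := sq_fix ed ⟨ι, 1, hι0, Or.inl rfl, hed⟩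
  have hn2 : n ^ 2 = 1 := by
    apply Subtype.ext
    have h1 := PD_sq (Or.inl rfl) hn
    rw [neg_one_sq] at h1
    exact D_eq_one h1
  have pm : ∀ (t : T) (b s : ZMod q), (s = 1 ∨ s = -1) → b ≠ 0 → isD t.1 b s → t ^ 2 = 1 → b = 1 ∨ b = -1 := by
    intro t b s hs hb h h2
    have h1 := PD_sq hs h
    rw [h2] at h1
    have h4 := (D_uniq (pow_ne_zero 2 hb) h1 D_one).1
    rw [pow_two] at h4
    exact mul_self_eq_one_iff.mp h4
  have om_fix : ∀ c : T, PD c → c ^ 2 = 1 → α c = c := by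
    intro c hc hc2
    have hαc := stepB c hc
    obtain ⟨b, s, hb, hs, h⟩ := hc
    obtain ⟨b', s', hb', hs', h'⟩ := hαc
    have hb1 := pm c b s hs hb h hc2
    have hb1' := pm (α c) b' s' hs' hb' h' (by rw [← map_pow, hc2, map_one])
    have case1 : s = 1 → α c = c := by
      rintro rfl
      rcases hb1 with rfl | rfl
      · have : c = 1 := Subtype.ext (D_eq_one h)
        rw [this, map_one]
      · have : c = n := Subtype.ext (D_ext h hn)
        rw [this, hαn]
    have case2 : s' = 1 → α c = c := by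
      rintro rfl
      rcases hb1' with rfl | rfl
      · have h1 : α c = 1 := Subtype.ext (D_eq_one h')
        have h2 : c = 1 := α.injective (by rw [h1, map_one])
        rw [h2, map_one]
      · have h1 : α c = n := Subtype.ext (D_ext h' hn)
        have h2 : c = n := α.injective (by rw [h1, hαn])
        rw [h2, hαn]
    rcases hs with hs | hs
    · exact case1 hs
    rcases hs' with hs' | hs'
    · exact case2 hs'
    subst hs hs'
    by_cases hbb : b = b'
    · subst hbb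
      exact Subtype.ext (D_ext h' h)
    · have hb'' : b' = b * -1 := by
        rcases hb1 with rfl | rfl <;> rcases hb1' with rfl | rfl <;> simp at hbb ⊢
      have h1 : isD (c * n).1 (b * -1) (-1 * 1) := D_D h hn
      rw [mul_one, ← hb''] at h1
      have h2 : α c = c * n := Subtype.ext (D_ext h' h1)
      exact triv α hk hα h2 hαn (n := 1) (by simpa using hn2)
  have PD_fix : ∀ t : T, PD t → α t = t := by
    intro t ht
    have hc : PD (t⁻¹ * α t) := PD_mul (PD_inv hT ht) (stepB t ht)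
    have hc2 : (t⁻¹ * α t) ^ 2 = 1 := by
      have hcomm : Commute t⁻¹ (α t) := PD_comm (PD_inv hT ht) (stepB t ht)
      rw [hcomm.mul_pow, ← map_pow, sq_fix t ht, inv_pow]
      simp
    exact triv α hk hα (c := t⁻¹ * α t) (by group) (om_fix _ hc hc2) (n := 1) (by simpa using hc2)
  exact stepE hk α hα htors PD PW (T_cases hT) (fun _ => not_PD_PW) (fun _ _ => PW_mul) PD_fix

end Large

section Small

variable {q : ℕ} [Fact q.Prime] {T : Subgroup (E q)}

theorem core3 (hT : GoodT T) {k : ℕ} (hk : Odd k) (α : MulAut T) (hα : α ^ k = 1) (hm : ℕ)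
    (hqm : q = 2 ^ hm + 1) (h3 : ∀ a : ZMod q, a ≠ 0 → a = 1 ∨ a = -1) (hne : (1 : ZMod q) ≠ -1) :
    α = 1 := by
  have hneg : (-1 : ZMod q) ≠ 0 := neg_ne_zero.mpr one_ne_zero
  let R : T := ⟨mkW 1 (-1) one_ne_zero hneg,
    (hT _).mpr ⟨1, -1, one_ne_zero, Or.inr rfl, Or.inr (isW_mkW _ _ one_ne_zero hneg)⟩⟩
  have hR : isW R.1 1 (-1) := isW_mkW _ _ one_ne_zero hneg
  have hsq : ∀ (t : T) (a : ZMod q), a ≠ 0 → isW t.1 a (-1) → isD (t ^ 2).1 (-1) 1 := by
    intro t a ha h
    have := W_sq ha (Or.inr rfl) h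
    rw [pow_two]
    exact this
  let n : T := R ^ 2
  have hn : isD n.1 (-1) 1 := hsq R 1 one_ne_zero hR
  have n_ne : n ≠ 1 := by
    intro h
    rw [h] at hn
    exact hne (D_uniq one_ne_zero D_one hn).1
  have hn2 : n ^ 2 = 1 := by
    apply Subtype.ext
    have h1 := PD_sq (Or.inl rfl) hn
    rw [neg_one_sq] at h1
    exact D_eq_one h1
  have hαR : ∃ a : ZMod q, a ≠ 0 ∧ isW (α R).1 a (-1) := by
    have h1 : (α R) ^ 2 ≠ 1 := by
      rw [← map_pow]
      intro h
      exact n_ne (α.injective (h.trans (map_one α).symm))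
    rcases (hT _).mp (α R).2 with ⟨a, s, ha, hs, h | h⟩
    · exfalso
      apply h1
      apply Subtype.ext
      have h2 := PD_sq hs h
      have h4 : a ^ 2 = 1 := s_sq (h3 a ha)
      rw [h4] at h2
      exact D_eq_one h2
    · rcases hs with rfl | rfl
      · exfalso
        apply h1
        apply Subtype.ext
        have h2 := W_sq ha (Or.inl rfl) h
        rw [pow_two]
        exact D_eq_one h2
      · exact ⟨a, ha, h⟩
  obtain ⟨a, ha, hαR'⟩ := hαR
  have hαn : α n = n := by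
    have h1 : α n = (α R) ^ 2 := map_pow _ _ _
    rw [h1]
    exact Subtype.ext (D_ext (hsq _ a ha hαR') hn)
  have hRfix : α R = R := by
    rcases h3 a ha with rfl | rfl
    · exact Subtype.ext (W_ext hαR' hR)
    · have h1 : isW (R * n).1 (1 * -1) (-1 * 1) := W_D hR hn
      rw [one_mul, mul_one] at h1
      have h2 : α R = R * n := Subtype.ext (W_ext hαR' h1)
      exact triv α hk hα h2 hαn (n := 1) (by simpa using hn2)
  refine stepE hk α hα (T_torsion hqm hT)
    (fun t => ∃ a : ZMod q, a ≠ 0 ∧ (isD t.1 a 1 ∨ isW t.1 a (-1)))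
    (fun t => ∃ a : ZMod q, a ≠ 0 ∧ (isD t.1 a (-1) ∨ isW t.1 a 1)) ?_ ?_ ?_ ?_
  · intro t
    obtain ⟨a, s, ha, hs, h⟩ := (hT _).mp t.2
    rcases hs with rfl | rfl <;> rcases h with h | h
    · exact Or.inl ⟨a, ha, Or.inl h⟩
    · exact Or.inr ⟨a, ha, Or.inr h⟩
    · exact Or.inr ⟨a, ha, Or.inl h⟩
    · exact Or.inl ⟨a, ha, Or.inr h⟩
  · rintro t ⟨a, ha, h | h⟩ ⟨b, hb, h' | h'⟩
    · exact hne (D_uniq ha h h').2
    · exact not_D_W ha h h'
    · exact not_D_W hb h' h
    · exact hne (W_uniq ha h h').2.symm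
  · rintro x y ⟨a, ha, h | h⟩ ⟨b, hb, h' | h'⟩
    · refine ⟨a * b, mul_ne_zero ha hb, Or.inl ?_⟩
      have := D_D h h'
      rwa [neg_mul_neg, one_mul] at this
    · refine ⟨-1 * a⁻¹ * b, mul_ne_zero (mul_ne_zero hneg (inv_ne_zero ha)) hb, Or.inr ?_⟩
      have := D_W hneg h h'
      rwa [mul_one] at this
    · refine ⟨a * b, mul_ne_zero ha hb, Or.inr ?_⟩
      have := W_D h h'
      rwa [one_mul] at this
    · refine ⟨1 * a⁻¹ * b, mul_ne_zero (mul_ne_zero one_ne_zero (inv_ne_zero ha)) hb, Or.inl ?_⟩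
      have := W_W one_ne_zero h h'
      rwa [one_mul 1] at this
  · rintro t ⟨a, ha, h | h⟩
    · rcases h3 a ha with rfl | rfl
      · have : t = 1 := Subtype.ext (D_eq_one h)
        rw [this, map_one]
      · have : t = n := Subtype.ext (D_ext h hn)
        rw [this, hαn]
    · rcases h3 a ha with rfl | rfl
      · have : t = R := Subtype.ext (W_ext h hR)
        rw [this, hRfix]
      · have h1 : isW (R * n).1 (1 * -1) (-1 * 1) := W_D hR hn
        rw [one_mul, mul_one] at h1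
        have : t = R * n := Subtype.ext (W_ext h h1)
        rw [this, map_mul, hRfix, hαn]

theorem core2 (hT : GoodT T) (α : MulAut T) (h2 : ∀ a : ZMod q, a ≠ 0 → a = 1)
    (hne : (-1 : ZMod q) = 1) : α = 1 := by
  have key : ∀ t : T, t ≠ 1 → isW t.1 1 1 := by
    intro t ht
    obtain ⟨a, s, ha, hs, h⟩ := (hT _).mp t.2
    have ha1 := h2 a ha
    have hs1 : s = 1 := by
      rcases hs with rfl | rfl
      · rfl
      · exact hne
    subst ha1 hs1
    rcases h with h | h
    · exact absurd (Subtype.ext (D_eq_one h)) ht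
    · exact h
  ext1 t
  rw [MulAut.one_apply]
  by_cases ht : t = 1
  · rw [ht, map_one]
  · have h1 : α t ≠ 1 := by
      intro h
      exact ht (α.injective (h.trans (map_one α).symm))
    exact Subtype.ext (W_ext (key _ h1) (key _ ht))

end Small

theorem dec2a : ∀ a : ZMod 2, a ≠ 0 → a = 1 := by decide
theorem dec2b : (-1 : ZMod 2) = 1 := by decide
theorem dec3a : ∀ a : ZMod 3, a ≠ 0 → a = 1 ∨ a = -1 := by decide
theorem dec3b : (1 : ZMod 3) ≠ -1 := by decide

theorem core {q : ℕ} [Fact q.Prime] (m : ℕ) (hq : q = 2 ^ m + 1) (hq5 : q ≠ 5)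
    {T : Subgroup (E q)} (hT : GoodT T) {k : ℕ} (hk : Odd k) (α : MulAut T) (hα : α ^ k = 1) :
    α = 1 := by
  rcases m with _ | _ | _ | m
  · simp at hq
    subst hq
    exact core2 hT α dec2a dec2b
  · simp at hq
    subst hq
    exact core3 hT hk α hα 1 (by norm_num) dec3a dec3b
  · exfalso
    apply hq5
    rw [hq]
    norm_num
  · -- large case
    obtain ⟨g, hg⟩ := IsCyclic.exists_generator (α := (ZMod q)ˣ)
    have hord : orderOf g = 2 ^ (m + 3) := by
      rw [orderOf_eq_card_of_forall_mem_zpowers hg, Nat.card_eq_fintype_card, ZMod.card_units_eq_totient,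
        Nat.totient_prime (Fact.out)]
      exact Nat.sub_eq_of_eq_add hq
    have hg0 : (g : ZMod q) ≠ 0 := g.ne_zero
    have hgen : ∀ a : ZMod q, a ≠ 0 → ∃ i : ℕ, a = (g : ZMod q) ^ i := by
      intro a ha
      have h1 := hg (Units.mk0 a ha)
      have h2 := (mem_powers_iff_mem_zpowers (x := g) (y := Units.mk0 a ha)).mpr h1
      obtain ⟨i, hi⟩ := Submonoid.mem_powers_iff _ _ |>.mp h2
      refine ⟨i, ?_⟩
      have := congrArg Units.val hi
      simpa using this.symm
    have hg4 : (g : ZMod q) ^ 4 ≠ 1 := by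
      intro h
      have h1 : g ^ 4 = 1 := by
        apply Units.ext
        simpa using h
      have h2 := orderOf_dvd_of_pow_eq_one h1
      rw [hord] at h2
      have h3 := Nat.le_of_dvd (by norm_num) h2
      have h4 : 8 * 2 ^ m = 2 ^ (m + 3) := by ring
      have h5 : 0 < 2 ^ m := by positivity
      omega
    -- the element `ι`
    let ι : ZMod q := (g : ZMod q) ^ 2 ^ (m + 1)
    have hι : ι ^ 2 = -1 := by
      have h1 : (ι ^ 2) * (ι ^ 2) = 1 := by
        have h2 : g ^ 2 ^ (m + 3) = 1 := by rw [← hord]; exact pow_orderOf_eq_one g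
        have h3 : (ι ^ 2) * (ι ^ 2) = (g : ZMod q) ^ 2 ^ (m + 3) := by
          show ((g : ZMod q) ^ 2 ^ (m + 1)) ^ 2 * ((g : ZMod q) ^ 2 ^ (m + 1)) ^ 2 = _
          ring
        rw [h3]
        have := congrArg Units.val h2
        simpa using this
      rcases mul_self_eq_one_iff.mp h1 with h | h
      · exfalso
        have h1 : g ^ 2 ^ (m + 2) = 1 := by
          apply Units.ext
          have h3 : ι ^ 2 = (g : ZMod q) ^ 2 ^ (m + 2) := by
            show ((g : ZMod q) ^ 2 ^ (m + 1)) ^ 2 = _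
            ring
          rw [h3] at h
          simpa using h
        have h2 := orderOf_dvd_of_pow_eq_one h1
        rw [hord] at h2
        have h3 := Nat.le_of_dvd (by positivity) h2
        have h4 : 2 ^ (m + 3) = 2 * 2 ^ (m + 2) := by ring
        have h5 : 0 < 2 ^ (m + 2) := by positivity
        omega
      · exact h
    exact core_large hT hk α hα g hg0 hgen hg4 ι hι _ hq

theorem result (q m : ℕ) [Fact q.Prime] (hq : q = 2 ^ m + 1) (hq5 : q ≠ 5)
    (T : Subgroup ((Fin 2 → ZMod q) ≃ₗ[ZMod q] (Fin 2 → ZMod q)))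
    (hT : ∀ f, f ∈ T ↔ ∃ a s : ZMod q, a ≠ 0 ∧ (s = 1 ∨ s = -1) ∧
      ((∀ v, f v = ![a * v 0, s * a⁻¹ * v 1]) ∨ (∀ v, f v = ![s * a⁻¹ * v 1, a * v 0]))) :
    IsPGroup 2 (MulAut T) := by
  intro α
  haveI : Finite ((Fin 2 → ZMod q) ≃ₗ[ZMod q] (Fin 2 → ZMod q)) :=
    Finite.of_injective (fun f => (f : (Fin 2 → ZMod q) → (Fin 2 → ZMod q))) DFunLike.coe_injective
  haveI : Finite (MulAut T) :=
    Finite.of_injective (fun f : MulAut T => (f : T → T)) DFunLike.coe_injective
  have hpos : 0 < orderOf α := orderOf_pos α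
  obtain ⟨e, n, hn, hen⟩ := Nat.exists_eq_two_pow_mul_odd hpos.ne'
  refine ⟨e, ?_⟩
  apply core m hq hq5 (T := T) hT hn
  rw [← pow_mul, ← hen, pow_orderOf_eq_one]

end Cfsg.Agent.S3382
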