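import Mathlib
import Cfsg.Statements.S3371
import Cfsg.Agent.S0519
import Cfsg.Agent.S3370
import Cfsg.Agent.S3380
import Cfsg.Agent.S3382
import Cfsg.Agent.Lib.UniqueSub
import Cfsg.Agent.Lib.PGrp

set_option autoImplicit false
set_option linter.style.haveILetI false
set_option linter.unusedSectionVars false
open Cfsg

namespace Cfsg.Agent.S3371

open Cfsg.Agent.S3370 (stab mem_stab act eq_one_of_fix a1 a2)
open Cfsg.Agent.S3380 (fixS mem_fixS map_mul_apply map_one_apply pow_fix)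

section Basics

variable {q : ℕ} [Fact q.Prime] {V : Type*} [AddCommGroup V] [Module (ZMod q) V]
  {G : Type*} [Group G]

/-- All stabilizers of nonzero vectors have the same order. -/
def Half (ρ : G →* (V ≃ₗ[ZMod q] V)) : Prop :=
  ∀ v w : V, v ≠ 0 → w ≠ 0 → Nat.card (stab ρ v) = Nat.card (stab ρ w)

theorem orbit_stab [Finite V] [Finite G] (ρ : G →* (V ≃ₗ[ZMod q] V)) (v : V) :
    Nat.card (stab ρ v) * Nat.card {u : V | ∃ g : G, ρ g v = u} = Nat.card G := by
  classical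
  letI := act ρ
  have hidx := MulAction.index_stabilizer G v
  have h1 := Subgroup.card_mul_index (MulAction.stabilizer G v)
  have hs : stab ρ v = MulAction.stabilizer G v := by
    ext g
    rfl
  have horb : MulAction.orbit G v = {u : V | ∃ g : G, ρ g v = u} := rfl
  rw [hidx, horb, ← Nat.card_coe_set_eq] at h1
  rw [hs]
  exact h1

theorem half_of [Finite V] [Finite G] (ρ : G →* (V ≃ₗ[ZMod q] V))
    (hhalf : ∀ v w : V, v ≠ 0 → w ≠ 0 → Nat.card {u : V | ∃ g : G, ρ g v = u} = Nat.card {u : V | ∃ g : G, ρ g w = u}) :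
    Half ρ := by
  intro v w hv hw
  have h1 := orbit_stab ρ v
  have h2 := orbit_stab ρ w
  rw [hhalf v w hv hw] at h1
  have h3 : 0 < Nat.card {u : V | ∃ g : G, ρ g w = u} := by
    haveI : Nonempty {u : V | ∃ g : G, ρ g w = u} := ⟨⟨w, 1, by simp⟩⟩
    exact Nat.card_pos
  exact Nat.eq_of_mul_eq_mul_right h3 (h1.trans h2.symm)

theorem stab_eq_of_le [Finite G] {ρ : G →* (V ≃ₗ[ZMod q] V)} (hh : Half ρ) {v w : V} (hv : v ≠ 0)
    (hw : w ≠ 0) (hle : stab ρ v ≤ stab ρ w) : stab ρ v = stab ρ w :=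
  Subgroup.eq_of_le_of_card_ge hle (hh w v hw hv).le

variable {p : ℕ} [hp : Fact p.Prime]

/-- A central element of order `p` has no nonzero fixed vector. -/
theorem central_fpf [Finite V] [Finite G] {ρ : G →* (V ≃ₗ[ZMod q] V)} (hh : Half ρ)
    (hρ : Function.Injective ρ) (hpq : (p : ZMod q) ≠ 0) {z : G} (hzc : ∀ g, g * z = z * g)
    (hzo : orderOf z = p) : ∀ v : V, ρ z v = v → v = 0 := by
  classical
  have hpp := hp.out
  have hsmul : ∀ v : V, (p : ZMod q) • v = p • v := fun v => Nat.cast_smul_eq_nsmul _ _ _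
  have hps : ∀ v : V, p • v = 0 → v = 0 := by
    intro v h
    rw [← hsmul] at h
    rcases smul_eq_zero.mp h with h | h
    · exact absurd h hpq
    · exact h
  have hz1 : z ^ p = 1 := by rw [← hzo]; exact pow_orderOf_eq_one z
  have hzne : z ≠ 1 := by
    rintro rfl
    rw [orderOf_one] at hzo
    exact hpp.one_lt.ne hzo
  intro v₀ hv₀
  by_contra hv0
  obtain ⟨y, hy⟩ : ∃ y, ρ z y ≠ y := by
    by_contra hno
    push Not at hno
    exact hzne (eq_one_of_fix hρ hno)
  set N : V → V := fun x => ∑ k ∈ Finset.range p, ρ (z ^ k) x with hN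
  have hNadd : ∀ x x', N (x + x') = N x + N x' := by
    intro x x'
    simp only [hN, map_add, Finset.sum_add_distrib]
  have hNfix : ∀ x, ρ z x = x → N x = p • x := by
    intro x hx
    simp only [hN]
    rw [Finset.sum_congr rfl (fun k _ => pow_fix hx k)]
    simp
  have hNg : ∀ (g : G) x, N (ρ g x) = ρ g (N x) := by
    intro g x
    simp only [hN, map_sum]
    apply Finset.sum_congr rfl
    intro k _
    rw [← map_mul_apply, ← map_mul_apply]
    congr 2
    exact ((Commute.pow_right (show Commute g z from hzc g) k).eq).symm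
  set u₀ := ρ z y - y with hu₀
  have hu0 : u₀ ≠ 0 := sub_ne_zero.mpr hy
  have hNu : N u₀ = 0 := by
    simp only [hN, hu₀, map_sub]
    have h1 : ∀ k, ρ (z ^ k) (ρ z y) = ρ (z ^ (k + 1)) y := by
      intro k
      rw [← map_mul_apply, pow_succ]
    simp_rw [h1]
    have h2 := Finset.sum_range_sub (fun k => ρ (z ^ k) y) p
    rw [h2, hz1]
    simp
  have hw0 : v₀ + u₀ ≠ 0 := by
    intro h
    have h1 : u₀ = -v₀ := eq_neg_of_add_eq_zero_right h
    have h2 : ρ z u₀ = u₀ := by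
      rw [h1, map_neg, hv₀]
    have h3 := hNfix u₀ h2
    rw [hNu] at h3
    exact hu0 (hps _ h3.symm)
  have hNw : N (v₀ + u₀) = p • v₀ := by
    rw [hNadd, hNfix v₀ hv₀, hNu, add_zero]
  have hle : stab ρ (v₀ + u₀) ≤ stab ρ v₀ := by
    intro g hg
    have h1 : ρ g (v₀ + u₀) = v₀ + u₀ := hg
    have h2 := hNg g (v₀ + u₀)
    rw [h1, hNw, map_nsmul] at h2
    have h3 : p • (ρ g v₀ - v₀) = 0 := by
      rw [smul_sub, ← h2, sub_self]
    exact sub_eq_zero.mp (hps _ h3)
  have heq := stab_eq_of_le hh hw0 hv0 hle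
  have hzw : z ∈ stab ρ (v₀ + u₀) := by
    rw [heq]
    exact hv₀
  have h1 : ρ z (v₀ + u₀) = v₀ + u₀ := hzw
  rw [map_add, hv₀] at h1
  have h2 : ρ z u₀ = u₀ := add_left_cancel h1
  have h3 := hNfix u₀ h2
  rw [hNu] at h3
  exact hu0 (hps _ h3.symm)

/-- A group with a unique subgroup of order `p` acts semiregularly. -/
theorem semireg_of_unique [Finite V] [Finite G] (hG : IsPGroup p G) {ρ : G →* (V ≃ₗ[ZMod q] V)} (hh : Half ρ)
    (hρ : Function.Injective ρ) (hpq : (p : ZMod q) ≠ 0)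
    (hU : ∀ H K : Subgroup G, Nat.card H = p → Nat.card K = p → H = K) :
    ∀ v : V, v ≠ 0 → ∀ g : G, ρ g v = v → g = 1 := by
  have hpp := hp.out
  intro v hv g hg
  by_contra hg1
  have hne : (⊤ : Subgroup G) ≠ ⊥ := by
    intro h
    apply hg1
    have : g ∈ (⊤ : Subgroup G) := trivial
    rw [h] at this
    exact this
  obtain ⟨z, -, hzo, hzc⟩ := Cfsg.Agent.S3380.exists_central_p hG ⊤ inferInstance hne
  -- a power of `g` of order `p`
  obtain ⟨M, hM⟩ := IsPGroup.iff_card.mp hG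
  have hord : orderOf g ∣ p ^ M := by rw [← hM]; exact orderOf_dvd_natCard g
  obtain ⟨j, -, hj⟩ := (Nat.dvd_prime_pow hpp).mp hord
  have hj0 : j ≠ 0 := by
    rintro rfl
    rw [pow_zero, orderOf_eq_one_iff] at hj
    exact hg1 hj
  have hpdvd : p ∣ orderOf g := by
    rw [hj]
    exact dvd_pow_self p hj0
  have hg'o : orderOf (g ^ (orderOf g / p)) = p :=
    orderOf_pow_orderOf_div (by rw [hj]; exact (pow_pos hpp.pos _).ne') hpdvd
  have h1 := hU (Subgroup.zpowers (g ^ (orderOf g / p))) (Subgroup.zpowers z)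
    (by rw [Nat.card_zpowers, hg'o]) (by rw [Nat.card_zpowers, hzo])
  have h2 : z ∈ Subgroup.zpowers (g ^ (orderOf g / p)) := by
    rw [h1]
    exact Subgroup.mem_zpowers z
  obtain ⟨k, hk⟩ := Subgroup.mem_zpowers_iff.mp h2
  have hfix : ∀ x ∈ Subgroup.zpowers (g ^ (orderOf g / p)), ρ x v = v := by
    have hS : g ^ (orderOf g / p) ∈ stab ρ v := (stab ρ v).pow_mem hg _
    have : Subgroup.zpowers (g ^ (orderOf g / p)) ≤ stab ρ v := by
      rw [Subgroup.zpowers_le]
      exact hS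
    intro x hx
    exact this hx
  exact hv (central_fpf hh hρ hpq hzc hzo v (hfix z h2))

/-- If `q = p` then the group is trivial. -/
theorem trivial_of_eq [Finite V] [Nontrivial V] [Finite G] (hG : IsPGroup q G)
    {ρ : G →* (V ≃ₗ[ZMod q] V)} (hh : Half ρ) (hρ : Function.Injective ρ) (g : G) : g = 1 := by
  classical
  have hqq : q.Prime := Fact.out
  letI := act ρ
  have hsm : ∀ (g : G) (v : V), g • v = ρ g v := fun _ _ => rfl
  have hm := hG.card_modEq_card_fixedPoints V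
  haveI : Module.Finite (ZMod q) V := Module.Finite.of_finite
  have hV : Nat.card V = q ^ Module.finrank (ZMod q) V := by
    have h1 := Module.natCard_eq_pow_finrank (K := ZMod q) (V := V)
    rwa [Nat.card_zmod] at h1
  have hn0 : Module.finrank (ZMod q) V ≠ 0 := by
    intro h
    rw [h, pow_zero] at hV
    have := Finite.one_lt_card (α := V)
    omega
  have hdv : q ∣ Nat.card (MulAction.fixedPoints G V) := by
    have h1 : q ∣ Nat.card V := by
      rw [hV]
      exact dvd_pow_self q hn0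
    exact (hm.dvd_iff dvd_rfl).mp h1
  have hF0 : (0 : V) ∈ MulAction.fixedPoints G V := by
    intro g
    rw [hsm]
    simp
  have hcard : 1 < Nat.card (MulAction.fixedPoints G V) := by
    have h1 : 0 < Nat.card (MulAction.fixedPoints G V) := by
      haveI : Nonempty (MulAction.fixedPoints G V) := ⟨⟨0, hF0⟩⟩
      exact Nat.card_pos
    have h2 := Nat.le_of_dvd h1 hdv
    have := hqq.one_lt
    omega
  haveI : Nontrivial (MulAction.fixedPoints G V) := Finite.one_lt_card_iff_nontrivial.mp hcard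
  obtain ⟨v, hv⟩ := exists_ne (⟨0, hF0⟩ : MulAction.fixedPoints G V)
  have hv0 : (v : V) ≠ 0 := by
    intro h
    exact hv (Subtype.ext h)
  have hvf : stab ρ (v : V) = ⊤ := by
    rw [eq_top_iff]
    intro g _
    exact v.2 g
  apply eq_one_of_fix hρ
  intro w
  by_cases hw : w = 0
  · rw [hw]; simp
  · have h1 : Nat.card (stab ρ w) = Nat.card G := by
      rw [hh w v hw hv0, hvf]
      exact Nat.card_congr Subgroup.topEquiv.toEquiv
    have h2 : stab ρ w = ⊤ := by
      exact (Subgroup.card_eq_iff_eq_top _).mp h1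
    have h3 : g ∈ stab ρ w := by rw [h2]; trivial
    exact h3

end Basics


section OddPart

open Cfsg.Agent.S3380 (pw pw_add pw_zero pw_one pw_natCast pw_pow pw_mem pw_inj)

variable {q : ℕ} [Fact q.Prime] {V : Type*} [AddCommGroup V] [Module (ZMod q) V]
  {G : Type*} [Group G] {p : ℕ} [hp : Fact p.Prime]

/-- The case of an odd prime `p`: a noncentral normal pair is impossible. -/
theorem odd_contra [Finite V] [Nontrivial V] [Finite G] (ρ : G →* (V ≃ₗ[ZMod q] V))
    (hh : Half ρ) (hρ : Function.Injective ρ) (hpq : (p : ZMod q) ≠ 0) (hodd : (2 : ZMod p) ≠ 0)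
    (z a : G) (hzc : ∀ g, g * z = z * g) (hzo : orderOf z = p) (ha : a ^ p = 1)
    (haz : a ∉ Subgroup.zpowers z) (hconj : ∀ g, ∃ t : ZMod p, g * a * g⁻¹ = a * pw z t) :
    False := by
  classical
  have hpp := hp.out
  have hz1 : z ^ p = 1 := by rw [← hzo]; exact pow_orderOf_eq_one z
  have hzne : z ≠ 1 := by
    rintro rfl
    rw [orderOf_one] at hzo
    exact hpp.one_lt.ne hzo
  let zp : ZMod p → G := pw z
  have hzp_add : ∀ i j, zp (i + j) = zp i * zp j := pw_add hz1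
  have hzp_c : ∀ g j, g * zp j = zp j * g := by
    intro g j
    show g * z ^ _ = z ^ _ * g
    exact (Commute.pow_right (hzc g) _).eq
  let b : ZMod p → G := fun j => a * zp j
  have hbcomm : ∀ j, Commute a (zp j) := fun j => (hzp_c a j)
  have hb_pow : ∀ j (n : ℕ), b j ^ n = a ^ n * zp ((n : ZMod p) * j) := by
    intro j n
    rw [(hbcomm j).mul_pow]
    congr 1
    exact pw_pow hz1 j n
  have hb1 : ∀ j, b j ^ p = 1 := by
    intro j
    rw [hb_pow, ha, one_mul]
    simp [zp, pw_zero]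
  let W' : ZMod p → Submodule (ZMod q) V := fun j => fixS ρ (b j)
  -- the norm of `z` vanishes
  have hN0 : ∀ v : V, ∑ j : ZMod p, ρ (zp j) v = 0 := by
    intro v
    apply central_fpf hh hρ hpq hzc hzo
    rw [map_sum]
    have h1 : ∀ j, ρ z (ρ (zp j) v) = ρ (zp (1 + j)) v := by
      intro j
      rw [← map_mul_apply, hzp_add]
      congr 2
      rw [show zp 1 = z from pw_one z]
    simp_rw [h1]
    exact Equiv.sum_comp (Equiv.addLeft (1 : ZMod p)) (fun j => ρ (zp j) v)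
  have hN0' : ∀ (d : ZMod p), d ≠ 0 → ∀ v : V, ∑ k : ZMod p, ρ (zp (d * k)) v = 0 := by
    intro d hd v
    rw [← hN0 v]
    exact Equiv.sum_comp (Equiv.mulLeft₀ d hd) (fun j => ρ (zp j) v)
  -- the projections
  let E : ZMod p → V →ₗ[ZMod q] V :=
    fun j => ∑ k : ZMod p, ((ρ (b j ^ k.val) : V ≃ₗ[ZMod q] V) : V →ₗ[ZMod q] V)
  have hE : ∀ j v, E j v = ∑ k : ZMod p, ρ (b j ^ k.val) v := by
    intro j v
    simp [E, LinearMap.sum_apply]
  have hE_mem : ∀ j v, E j v ∈ W' j := by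
    intro j v
    show ρ (b j) (E j v) = E j v
    rw [hE, map_sum]
    have h1 : ∀ k : ZMod p, ρ (b j) (ρ (b j ^ k.val) v) = ρ (b j ^ (1 + k).val) v := by
      intro k
      rw [← map_mul_apply]
      have h2 := pw_add (hb1 j) 1 k
      have h3 : pw (b j) (1 : ZMod p) = b j := pw_one _
      rw [h3] at h2
      show ρ (b j * pw (b j) k) v = ρ (pw (b j) (1 + k)) v
      rw [h2]
    simp_rw [h1]
    exact Equiv.sum_comp (Equiv.addLeft (1 : ZMod p)) (fun k => ρ (b j ^ k.val) v)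
  have hE_self : ∀ j, ∀ w ∈ W' j, E j w = p • w := by
    intro j w hw
    rw [hE]
    have hw' : ρ (b j) w = w := hw
    simp_rw [pow_fix hw']
    simp [Finset.card_univ, ZMod.card]
  have hE_other : ∀ i j, i ≠ j → ∀ w ∈ W' i, E j w = 0 := by
    intro i j hij w hw
    rw [hE]
    have hw' : ρ (b i) w = w := hw
    have h1 : ∀ k : ZMod p, ρ (b j ^ k.val) w = ρ (zp ((j - i) * k)) w := by
      intro k
      have h2 : b j ^ k.val = zp ((j - i) * k) * b i ^ k.val := by
        rw [hb_pow, hb_pow]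
        have h3 : ((k.val : ℕ) : ZMod p) = k := ZMod.natCast_zmod_val k
        rw [h3]
        have h4 : zp (k * j) = zp ((j - i) * k) * zp (k * i) := by
          rw [← hzp_add]
          congr 1
          ring
        rw [h4, ← mul_assoc, (hzp_c (a ^ k.val) _), mul_assoc]
      rw [h2, map_mul_apply, pow_fix hw']
    simp_rw [h1]
    exact hN0' (j - i) (sub_ne_zero.mpr hij.symm) w
  have hE_sum : ∀ v, ∑ j : ZMod p, E j v = p • v := by
    intro v
    simp_rw [hE]
    rw [Finset.sum_comm]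
    have h1 : ∀ k : ZMod p, ∑ j : ZMod p, ρ (b j ^ k.val) v = ρ (a ^ k.val) (∑ j : ZMod p, ρ (zp (k * j)) v) := by
      intro k
      rw [map_sum]
      apply Finset.sum_congr rfl
      intro j _
      rw [← map_mul_apply, hb_pow, ZMod.natCast_zmod_val]
    simp_rw [h1]
    rw [Finset.sum_eq_single (0 : ZMod p)]
    · simp [zp, pw_zero, Finset.card_univ, ZMod.card]
    · intro k _ hk
      rw [hN0' k hk v, map_zero]
    · simp
  have hsmul : ∀ v : V, (p : ZMod q) • v = p • v := fun v => Nat.cast_smul_eq_nsmul _ _ _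
  have hps : ∀ v : V, p • v = 0 → v = 0 := by
    intro v h
    rw [← hsmul] at h
    rcases smul_eq_zero.mp h with h | h
    · exact absurd h hpq
    · exact h
  have hpc : ∀ v w : V, p • v = p • w → v = w := by
    intro v w h
    apply sub_eq_zero.mp
    apply hps
    rw [smul_sub, h, sub_self]
  -- spanning
  have hspan : iSup W' = ⊤ := by
    rw [eq_top_iff]
    intro v _
    have h1 : v = (p : ZMod q)⁻¹ • ∑ j : ZMod p, E j v := by
      rw [hE_sum, ← hsmul, smul_smul, inv_mul_cancel₀ hpq, one_smul]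
    rw [h1]
    apply Submodule.smul_mem
    apply Submodule.sum_mem
    intro j _
    exact Submodule.mem_iSup_of_mem j (hE_mem j v)
  have hb_ne : ∀ j, b j ≠ 1 := by
    intro j h
    apply haz
    have h1 : a = (zp j)⁻¹ := eq_inv_of_mul_eq_one_left h
    rw [h1]
    exact Subgroup.inv_mem _ (pw_mem z j)
  -- `a` is not central
  have hnc : ∃ g₀ : G, g₀ * a ≠ a * g₀ := by
    by_contra hno
    push Not at hno
    have hinv : ∀ j, W' j = ⊥ := by
      intro j
      have hcomm : ∀ g, g * b j = b j * g := by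
        intro g
        show g * (a * zp j) = a * zp j * g
        rw [← mul_assoc, hno g, mul_assoc, hzp_c, mul_assoc]
      rw [eq_bot_iff]
      intro w hw
      exact central_fpf hh hρ hpq hcomm (orderOf_eq_prime (hb1 j) (hb_ne j)) w hw
    have h2 : iSup W' = ⊥ := by
      simp [hinv]
    rw [h2] at hspan
    exact bot_ne_top hspan
  obtain ⟨g₀, hg₀⟩ := hnc
  choose c hc using hconj
  have hcg₀ : c g₀ ≠ 0 := by
    intro h
    have h1 := hc g₀
    rw [h, pw_zero, mul_one] at h1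
    exact hg₀ (mul_inv_eq_iff_eq_mul.mp h1)
  have hcb : ∀ g j, g * b j * g⁻¹ = b (j + c g) := by
    intro g j
    show g * (a * zp j) * g⁻¹ = a * zp (j + c g)
    rw [hzp_add]
    have h5 : zp j * g⁻¹ = g⁻¹ * zp j := (hzp_c g⁻¹ j).symm
    calc g * (a * zp j) * g⁻¹ = g * a * (zp j * g⁻¹) := by group
      _ = g * a * g⁻¹ * zp j := by rw [h5]; group
      _ = a * pw z (c g) * zp j := by rw [hc g]
      _ = a * (zp (c g) * zp j) := by rw [mul_assoc]
      _ = a * (zp j * zp (c g)) := by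
          congr 1
          exact hzp_c (zp (c g)) j
  have hact : ∀ g j w, w ∈ W' j → ρ g w ∈ W' (j + c g) := by
    intro g j w hw
    have hw' : ρ (b j) w = w := hw
    show ρ (b (j + c g)) (ρ g w) = ρ g w
    rw [← map_mul_apply, ← hcb, inv_mul_cancel_right, map_mul_apply, hw']
  obtain ⟨j₀, hj₀⟩ : ∃ j, W' j ≠ ⊥ := by
    by_contra hno
    push Not at hno
    have h2 : iSup W' = ⊥ := by
      simp [hno]
    rw [h2] at hspan
    exact bot_ne_top hspan
  obtain ⟨w₀, hw₀, hw₀0⟩ := Submodule.exists_mem_ne_zero_of_ne_bot hj₀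
  set C := c g₀ with hC
  set u := ρ g₀ w₀ with hu_def
  have hu : u ∈ W' (j₀ + C) := hact g₀ j₀ w₀ hw₀
  have hu0 : u ≠ 0 := by
    intro h
    apply hw₀0
    apply (ρ g₀).injective
    rw [← hu_def, h, map_zero]
  have hne1 : j₀ + C ≠ j₀ := by
    intro h
    apply hcg₀
    exact add_eq_left.mp h
  have hE1 : E j₀ (w₀ + u) = p • w₀ := by
    rw [map_add, hE_self j₀ w₀ hw₀, hE_other (j₀ + C) j₀ hne1 u hu, add_zero]
  have hE2 : E (j₀ + C) (w₀ + u) = p • u := by
    rw [map_add, hE_self (j₀ + C) u hu, hE_other j₀ (j₀ + C) hne1.symm w₀ hw₀, zero_add]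
  have hv0 : w₀ + u ≠ 0 := by
    intro h
    rw [h, map_zero] at hE1
    exact hw₀0 (hps _ hE1.symm)
  have hkey : ∀ x, ρ x (w₀ + u) = w₀ + u → ρ x w₀ = w₀ ∧ ρ x u = u := by
    intro x hx
    have h1 := hact x j₀ w₀ hw₀
    have h2 := hact x (j₀ + C) u hu
    rw [map_add] at hx
    have hd : c x = 0 := by
      by_contra hd
      have h3 : E j₀ (ρ x w₀ + ρ x u) = p • w₀ := by rw [hx, hE1]
      rw [map_add, hE_other (j₀ + c x) j₀ (by simpa using hd) _ h1, zero_add] at h3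
      have hcd : j₀ + C + c x = j₀ := by
        by_contra hne
        rw [hE_other _ j₀ hne _ h2] at h3
        exact hw₀0 (hps _ h3.symm)
      have h4 : E (j₀ + C) (ρ x w₀ + ρ x u) = p • u := by rw [hx, hE2]
      rw [map_add, hE_other (j₀ + C + c x) (j₀ + C) (by simpa using hd) _ h2, add_zero] at h4
      have hdc : j₀ + c x = j₀ + C := by
        by_contra hne
        rw [hE_other _ _ hne _ h1] at h4
        exact hu0 (hps _ h4.symm)
      have h5 : c x = C := add_left_cancel hdc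
      have h6 : C + c x = 0 := by linear_combination hcd
      rw [h5] at h6
      have h7 : (2 : ZMod p) * C = 0 := by linear_combination h6
      rcases mul_eq_zero.mp h7 with h | h
      · exact hodd h
      · exact hcg₀ h
    rw [hd, add_zero] at h1 h2
    have h3 : E j₀ (ρ x w₀ + ρ x u) = p • w₀ := by rw [hx, hE1]
    rw [map_add, hE_self j₀ _ h1, hE_other (j₀ + C) j₀ hne1 _ h2, add_zero] at h3
    have h4 : E (j₀ + C) (ρ x w₀ + ρ x u) = p • u := by rw [hx, hE2]
    rw [map_add, hE_self _ _ h2, hE_other j₀ (j₀ + C) hne1.symm _ h1, zero_add] at h4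
    exact ⟨hpc _ _ h3, hpc _ _ h4⟩
  have hle0 : stab ρ (w₀ + u) ≤ stab ρ w₀ := fun x hx => (hkey x hx).1
  have hle1 : stab ρ (w₀ + u) ≤ stab ρ u := fun x hx => (hkey x hx).2
  have he0 := stab_eq_of_le hh hv0 hw₀0 hle0
  have he1 := stab_eq_of_le hh hv0 hu0 hle1
  have hbu : ρ (b j₀) u = u := by
    have h1 : b j₀ ∈ stab ρ u := by
      rw [← he1, he0]
      exact hw₀
    exact h1
  have hzu : ρ (zp C) u = u := by
    have hu' : ρ (b (j₀ + C)) u = u := hu
    have h1 : b (j₀ + C) = zp C * b j₀ := by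
      show a * zp (j₀ + C) = zp C * (a * zp j₀)
      rw [hzp_add, ← mul_assoc]
      exact hzp_c (a * zp j₀) C
    rw [h1, map_mul_apply, hbu] at hu'
    exact hu'
  have hoC : orderOf (zp C) = p := by
    apply orderOf_eq_prime
    · show (z ^ _) ^ p = 1
      rw [← pow_mul, mul_comm, pow_mul, hz1, one_pow]
    · intro h
      apply hcg₀
      apply pw_inj hzo
      rw [pw_zero]
      exact h
  exact hu0 (central_fpf hh hρ hpq (fun g => hzp_c g C) hoC u hzu)

end OddPart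


section GroupLemmas

variable {G : Type*} [Group G] [Finite G]

theorem idx_aux (K T : Subgroup G) (hTK : T ≤ K) (hcard : Nat.card K ≤ 2 * Nat.card T) {a r : G}
    (haK : a ∈ K) (haT : a ∉ T) (hr : r ∈ K) (hrT : r ∉ T) : r * a ∈ T := by
  have h1 : Nat.card (T.subgroupOf K) = Nat.card T :=
    Nat.card_congr (Subgroup.subgroupOfEquivOfLe hTK).toEquiv
  have h2 := Subgroup.card_mul_index (T.subgroupOf K)
  rw [h1] at h2
  have hTpos : 0 < Nat.card T := Nat.card_pos
  have h3 : (T.subgroupOf K).index ≠ 1 := by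
    intro h
    rw [Subgroup.index_eq_one] at h
    have : (⟨a, haK⟩ : K) ∈ T.subgroupOf K := by rw [h]; trivial
    exact haT (Subgroup.mem_subgroupOf.mp this)
  have h4 : (T.subgroupOf K).index ≠ 0 := Subgroup.index_ne_zero_of_finite
  have h5 : (T.subgroupOf K).index ≤ 2 := by
    rw [← h2] at hcard
    exact Nat.le_of_mul_le_mul_left (by linarith) hTpos
  have hi : (T.subgroupOf K).index = 2 := by omega
  have h6 := Subgroup.mul_mem_iff_of_index_two hi (a := (⟨r, hr⟩ : K)) (b := (⟨a, haK⟩ : K))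
  have h7 : (⟨r, hr⟩ : K) * ⟨a, haK⟩ ∈ T.subgroupOf K := by
    rw [h6]
    constructor
    · intro h
      exact absurd (Subgroup.mem_subgroupOf.mp h) hrT
    · intro h
      exact absurd (Subgroup.mem_subgroupOf.mp h) haT
  exact Subgroup.mem_subgroupOf.mp h7

theorem half_T (S T : Subgroup G) (hTS : T ≤ S) {x : G} (hxS : x ∈ S)
    (hX : ∀ b ∈ S, Xor (b * x ∈ T) (b ∈ T)) : Nat.card S = 2 * Nat.card T := by
  have h1 : Nat.card (T.subgroupOf S) = Nat.card T :=
    Nat.card_congr (Subgroup.subgroupOfEquivOfLe hTS).toEquiv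
  have hi : (T.subgroupOf S).index = 2 := by
    rw [Subgroup.index_eq_two_iff]
    refine ⟨⟨x, hxS⟩, ?_⟩
    rintro ⟨b, hb⟩
    simp only [Subgroup.mem_subgroupOf]
    exact hX b hb
  have h2 := Subgroup.card_mul_index (T.subgroupOf S)
  rw [h1, hi] at h2
  omega

end GroupLemmas

section VecLemmas

variable {q : ℕ} [Fact q.Prime] {V : Type*} [AddCommGroup V] [Module (ZMod q) V]
  {G : Type*} [Group G]

theorem card_le_of_maps [Finite V] (ρ : G →* (V ≃ₗ[ZMod q] V)) (g : G)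
    (U U' : Submodule (ZMod q) V) (h : ∀ v ∈ U, ρ g v ∈ U') : Nat.card U ≤ Nat.card U' := by
  apply Nat.card_le_card_of_injective (fun v : U => (⟨ρ g v, h v v.2⟩ : U'))
  intro v w hvw
  have h1 : ρ g v = ρ g w := congrArg Subtype.val hvw
  exact Subtype.ext ((ρ g).injective h1)

theorem card_of_compl [Finite V] (U U' : Submodule (ZMod q) V) (h : IsCompl U U') :
    Nat.card U * Nat.card U' = Nat.card V := by
  rw [← Nat.card_prod]
  exact Nat.card_congr (Submodule.prodEquivOfIsCompl U U' h).toEquiv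

theorem compl_of_inv (ρ : G →* (V ≃ₗ[ZMod q] V)) (h2 : (2 : ZMod q) ≠ 0) {z τ : G}
    (hneg : ∀ v, ρ z v = -v) (hτ : τ * τ = 1) : IsCompl (fixS ρ τ) (fixS ρ (τ * z)) := by
  have hcancel : ∀ v : V, v = -v → v = 0 := by
    intro v hv
    have h3 : (2 : ZMod q) • v = 0 := by
      rw [two_smul]
      nth_rewrite 1 [hv]
      simp
    rcases smul_eq_zero.mp h3 with h | h
    · exact absurd h h2
    · exact h
  have htt : ∀ v, ρ τ (ρ τ v) = v := by
    intro v
    rw [← map_mul_apply, hτ, map_one_apply]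
  constructor
  · rw [Submodule.disjoint_def]
    intro v hv hv'
    rw [mem_fixS] at hv hv'
    rw [map_mul_apply, hneg, map_neg, hv] at hv'
    exact hcancel v hv'.symm
  · rw [codisjoint_iff, eq_top_iff]
    intro v _
    have h3 : v = (2 : ZMod q)⁻¹ • (v + ρ τ v) + (2 : ZMod q)⁻¹ • (v - ρ τ v) := by
      rw [← smul_add]
      have h4 : v + ρ τ v + (v - ρ τ v) = (2 : ZMod q) • v := by
        rw [two_smul]
        abel
      rw [h4, smul_smul, inv_mul_cancel₀ h2, one_smul]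
    rw [h3]
    apply Submodule.add_mem_sup
    · apply Submodule.smul_mem
      rw [mem_fixS, map_add, htt, add_comm]
    · apply Submodule.smul_mem
      rw [mem_fixS, map_mul_apply, hneg, map_neg, map_sub, htt]
      abel

theorem card_nz [Fintype V] (U : Submodule (ZMod q) V) [DecidablePred fun v : V => v ≠ 0 ∧ v ∈ U] :
    (Finset.univ.filter (fun v : V => v ≠ 0 ∧ v ∈ U)).card + 1 = Nat.card U := by
  classical
  have h1 : Nat.card U = (Finset.univ.filter (fun v : V => v ∈ U)).card := by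
    rw [Nat.card_eq_fintype_card, Fintype.card_subtype]
  rw [h1]
  have h2 : Finset.univ.filter (fun v : V => v ∈ U) =
      insert 0 (Finset.univ.filter (fun v : V => v ≠ 0 ∧ v ∈ U)) := by
    ext v
    simp only [Finset.mem_filter, Finset.mem_univ, true_and, Finset.mem_insert]
    constructor
    · intro h
      by_cases hv : v = 0
      · exact Or.inl hv
      · exact Or.inr ⟨hv, h⟩
    · rintro (rfl | h)
      · exact U.zero_mem
      · exact h.2
  rw [h2, Finset.card_insert_of_notMem]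
  simp

theorem card_pow_of_submodule [Finite V] (U : Submodule (ZMod q) V) :
    ∃ d, Nat.card U = q ^ d := by
  haveI : Module.Finite (ZMod q) U := Module.Finite.of_finite
  have h1 := Module.natCard_eq_pow_finrank (K := ZMod q) (V := U)
  rw [Nat.card_zmod] at h1
  exact ⟨_, h1⟩

end VecLemmas

section TwoPart

variable {q : ℕ} [hq : Fact q.Prime] {V : Type*} [AddCommGroup V] [Module (ZMod q) V]
  {G : Type*} [Group G]

/-- The data of the case `p = 2`. -/
structure Setup (ρ : G →* (V ≃ₗ[ZMod q] V)) (z a : G) : Prop where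
  hh : Half ρ
  hρ : Function.Injective ρ
  h2 : (2 : ZMod q) ≠ 0
  hzc : ∀ g, g * z = z * g
  hzo : orderOf z = 2
  ha : a * a = 1
  ha1 : a ≠ 1
  haz : a ≠ z
  hconj : ∀ g, g * a = a * g ∨ g * a = a * z * g
  hnc : ∃ g, g * a = a * z * g

namespace Setup

variable {ρ : G →* (V ≃ₗ[ZMod q] V)} {z a : G} (S : Setup ρ z a)
include S

theorem zz : z * z = 1 := by
  have := pow_orderOf_eq_one z
  rw [S.hzo, pow_two] at this
  exact this

theorem neg [Finite V] [Finite G] (v : V) : ρ z v = -v := by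
  have h2' : ((2 : ℕ) : ZMod q) ≠ 0 := by
    rw [Nat.cast_ofNat]
    exact S.h2
  have h := central_fpf S.hh S.hρ h2' S.hzc S.hzo (v + ρ z v) (by
    rw [map_add, ← map_mul_apply, S.zz, map_one_apply, add_comm])
  exact eq_neg_of_add_eq_zero_right h

theorem cancel2 (v : V) (hv : v = -v) : v = 0 := by
  have h3 : (2 : ZMod q) • v = 0 := by
    rw [two_smul]
    nth_rewrite 1 [hv]
    simp
  rcases smul_eq_zero.mp h3 with h | h
  · exact absurd h S.h2
  · exact h

theorem cancel2' (v : V) (hv : v + v = 0) : v = 0 :=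
  S.cancel2 v (eq_neg_of_add_eq_zero_left hv)

theorem swap : Setup ρ z (a * z) where
  hh := S.hh
  hρ := S.hρ
  h2 := S.h2
  hzc := S.hzc
  hzo := S.hzo
  ha := by
    have h := S.hzc a
    calc a * z * (a * z) = a * (z * a) * z := by group
      _ = a * (a * z) * z := by rw [h]
      _ = (a * a) * (z * z) := by group
      _ = 1 := by rw [S.ha, S.zz, one_mul]
  ha1 := by
    intro h
    apply S.haz
    have h1 : a = z⁻¹ := eq_inv_of_mul_eq_one_left h
    have h2 : z⁻¹ = z := inv_eq_of_mul_eq_one_left S.zz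
    rw [h1, h2]
  haz := by
    intro h
    apply S.ha1
    exact mul_eq_right.mp h
  hconj := by
    intro g
    have hgz := S.hzc g
    rcases S.hconj g with h | h
    · left
      rw [← mul_assoc, h, mul_assoc, hgz, mul_assoc]
    · right
      rw [← mul_assoc, h, mul_assoc, hgz, mul_assoc, mul_assoc, mul_assoc]
  hnc := by
    obtain ⟨g, h⟩ := S.hnc
    refine ⟨g, ?_⟩
    have hgz := S.hzc g
    rw [← mul_assoc, h, mul_assoc, hgz, mul_assoc, mul_assoc, mul_assoc]

theorem act_c {g : G} (h : g * a = a * g) (v : V) : ρ a (ρ g v) = ρ g (ρ a v) := by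
  rw [← map_mul_apply, ← map_mul_apply, h]

theorem act_s [Finite V] [Finite G] {g : G} (h : g * a = a * z * g) (v : V) :
    ρ a (ρ g v) = -ρ g (ρ a v) := by
  rw [← map_mul_apply ρ g a, h, mul_assoc, map_mul_apply, map_mul_apply, S.neg, map_neg, neg_neg]

theorem direct {u₀ u₀' u₁ u₁' : V} (h₀ : ρ a u₀ = u₀) (h₀' : ρ a u₀' = u₀') (h₁ : ρ a u₁ = -u₁)
    (h₁' : ρ a u₁' = -u₁') (h : u₀ + u₁ = u₀' + u₁') : u₀ = u₀' ∧ u₁ = u₁' := by
  have h3 : u₀ - u₀' = u₁' - u₁ := by
    rw [sub_eq_sub_iff_add_eq_add, h, add_comm]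
  have h4 : ρ a (u₀ - u₀') = u₀ - u₀' := by rw [map_sub, h₀, h₀']
  have h5 : ρ a (u₀ - u₀') = -(u₀ - u₀') := by
    rw [h3, map_sub, h₁, h₁']
    abel
  have h6 : u₀ - u₀' = 0 := S.cancel2 _ (h4.symm.trans h5)
  have h7 : u₀ = u₀' := sub_eq_zero.mp h6
  refine ⟨h7, ?_⟩
  rw [h7] at h
  exact add_left_cancel h

theorem key1 [Finite V] [Finite G] {w₀ w₁ : V} (h₀ : ρ a w₀ = w₀) (h₁ : ρ a w₁ = -w₁) {x : G}
    (hx : ρ x (w₀ + w₁) = w₀ + w₁) :
    (ρ x w₀ = w₀ ∧ ρ x w₁ = w₁) ∨ (ρ x w₀ = w₁ ∧ ρ x w₁ = w₀) := by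
  rcases S.hconj x with h | h
  · left
    have h2 := S.act_c h w₀
    have h3 := S.act_c h w₁
    rw [h₀] at h2
    rw [h₁, map_neg] at h3
    rw [map_add] at hx
    exact S.direct h2 h₀ h3 h₁ hx
  · right
    have h2 := S.act_s h w₀
    have h3 := S.act_s h w₁
    rw [h₀] at h2
    rw [h₁, map_neg, neg_neg] at h3
    rw [map_add, add_comm] at hx
    obtain ⟨h4, h5⟩ := S.direct h3 h₀ h2 h₁ hx
    exact ⟨h5, h4⟩

theorem key2 [Finite V] [Finite G] {w₀ w₁ : V} (h₀ : ρ a w₀ = w₀) (h₁ : ρ a w₁ = -w₁)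
    (hw₀ : w₀ ≠ 0) (hw₁ : w₁ ≠ 0) {r : G} (hr : ρ r w₀ = w₀) : ρ r w₁ = w₁ ∨ ρ r w₁ = -w₁ := by
  have hv0 : w₀ + w₁ ≠ 0 := by
    intro h
    have h3 : w₀ + w₁ = 0 + 0 := by rw [h, add_zero]
    have h4 := S.direct h₀ (by simp) h₁ (by simp) h3
    exact hw₀ h4.1
  have hne : w₀ ≠ w₁ := by
    intro h
    rw [← h] at h₁
    exact hw₀ (S.cancel2 w₀ (h₀.symm.trans h₁))
  let K := stab ρ w₀
  let T := K ⊓ stab ρ w₁
  let SS := stab ρ (w₀ + w₁)
  have haK : a ∈ K := h₀
  have haT : a ∉ T := by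
    intro h
    have h3 : ρ a w₁ = w₁ := h.2
    exact hw₁ (S.cancel2 w₁ (h3.symm.trans h₁))
  have hTS : T ≤ SS := by
    intro x hx
    show ρ x (w₀ + w₁) = w₀ + w₁
    have h3 : ρ x w₀ = w₀ := hx.1
    have h4 : ρ x w₁ = w₁ := hx.2
    rw [map_add, h3, h4]
  have hcardSK : Nat.card SS = Nat.card K := S.hh _ _ hv0 hw₀
  by_cases hST : SS ≤ T
  · exfalso
    have h3 : T = K := by
      apply Subgroup.eq_of_le_of_card_ge inf_le_left
      rw [← hcardSK]
      exact Subgroup.card_le_of_le hST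
    apply haT
    rw [h3]
    exact haK
  · obtain ⟨x, hxS, hxT⟩ := SetLike.not_le_iff_exists.mp hST
    have hxS' : ρ x (w₀ + w₁) = w₀ + w₁ := hxS
    have hsw : ρ x w₀ = w₁ ∧ ρ x w₁ = w₀ := (S.key1 h₀ h₁ hxS').resolve_left
      (fun h => hxT ⟨h.1, h.2⟩)
    have hX : ∀ b ∈ SS, Xor (b * x ∈ T) (b ∈ T) := by
      intro b hb
      have hb' : ρ b (w₀ + w₁) = w₀ + w₁ := hb
      rcases S.key1 h₀ h₁ hb' with h | h
      · right
        refine ⟨⟨h.1, h.2⟩, ?_⟩
        intro hbx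
        have h3 : ρ (b * x) w₀ = w₀ := hbx.1
        rw [map_mul_apply, hsw.1, h.2] at h3
        exact hne h3.symm
      · left
        refine ⟨⟨?_, ?_⟩, ?_⟩
        · show ρ (b * x) w₀ = w₀
          rw [map_mul_apply, hsw.1, h.2]
        · show ρ (b * x) w₁ = w₁
          rw [map_mul_apply, hsw.2, h.1]
        · intro hbT
          have h3 : ρ b w₀ = w₀ := hbT.1
          rw [h.1] at h3
          exact hne h3.symm
    have h3 := half_T SS T hTS hxS hX
    have h4 : Nat.card K ≤ 2 * Nat.card T := by rw [← hcardSK, h3]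
    by_cases hrT : r ∈ T
    · left
      exact hrT.2
    · right
      have h5 := idx_aux K T inf_le_left h4 haK haT hr hrT
      have h6 : ρ (r * a) w₁ = w₁ := h5.2
      rw [map_mul_apply, h₁, map_neg] at h6
      exact neg_eq_iff_eq_neg.mp h6

theorem key3 [Finite V] [Finite G] {w₀ : V} (h₀ : ρ a w₀ = w₀) (hw₀ : w₀ ≠ 0) {r : G}
    (hr : ρ r w₀ = w₀) :
    (∀ w, ρ a w = -w → ρ r w = w) ∨ (∀ w, ρ a w = -w → ρ r w = -w) := by
  by_contra hno
  push Not at hno
  obtain ⟨⟨w, hw, hwr⟩, ⟨w', hw', hwr'⟩⟩ := hno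
  have hw0 : w ≠ 0 := by
    rintro rfl
    simp at hwr
  have hw'0 : w' ≠ 0 := by
    rintro rfl
    simp at hwr'
  have h1 : ρ r w = -w := (S.key2 h₀ hw hw₀ hw0 hr).resolve_left hwr
  have h2 : ρ r w' = w' := (S.key2 h₀ hw' hw₀ hw'0 hr).resolve_right hwr'
  by_cases hy : w + w' = 0
  · apply hwr'
    have h3 : w' = -w := eq_neg_of_add_eq_zero_right hy
    rw [h3, map_neg, h1, neg_neg]
  · have h3 : ρ a (w + w') = -(w + w') := by
      rw [map_add, hw, hw', neg_add]
    rcases S.key2 h₀ h3 hw₀ hy hr with h | h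
    · rw [map_add, h1, h2] at h
      have h4 : -w = w := add_right_cancel h
      exact hw0 (S.cancel2 w h4.symm)
    · rw [map_add, h1, h2, neg_add] at h
      have h4 : w' = -w' := add_left_cancel h
      exact hw'0 (S.cancel2 w' h4)

theorem ex_nz [Finite V] [Finite G] [Nontrivial V] : (∃ w, w ≠ 0 ∧ ρ a w = w) ∧ (∃ w, w ≠ 0 ∧ ρ a w = -w) := by
  obtain ⟨g, hg⟩ := S.hnc
  have hswap1 : ∀ w, w ≠ 0 → ρ a w = w → ∃ w', w' ≠ 0 ∧ ρ a w' = -w' := by
    intro w hw h
    refine ⟨ρ g w, ?_, ?_⟩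
    · intro h0
      apply hw
      apply (ρ g).injective
      rw [h0, map_zero]
    · rw [S.act_s hg, h]
  have hswap2 : ∀ w, w ≠ 0 → ρ a w = -w → ∃ w', w' ≠ 0 ∧ ρ a w' = w' := by
    intro w hw h
    refine ⟨ρ g w, ?_, ?_⟩
    · intro h0
      apply hw
      apply (ρ g).injective
      rw [h0, map_zero]
    · rw [S.act_s hg, h, map_neg, neg_neg]
  obtain ⟨v, hv⟩ := exists_ne (0 : V)
  have haa : ∀ v, ρ a (ρ a v) = v := by
    intro v
    rw [← map_mul_apply, S.ha, map_one_apply]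
  by_cases h1 : v + ρ a v = 0
  · have h2 : ρ a v = -v := eq_neg_of_add_eq_zero_right h1
    obtain ⟨w', hw', hw''⟩ := hswap2 v hv h2
    exact ⟨⟨w', hw', hw''⟩, ⟨v, hv, h2⟩⟩
  · have h2 : ρ a (v + ρ a v) = v + ρ a v := by
      rw [map_add, haa, add_comm]
    obtain ⟨w', hw', hw''⟩ := hswap1 _ h1 h2
    exact ⟨⟨_, h1, h2⟩, ⟨w', hw', hw''⟩⟩

theorem key4 [Finite V] [Finite G] [Nontrivial V] {w₀ : V} (h₀ : ρ a w₀ = w₀) (hw₀ : w₀ ≠ 0) {r : G}
    (hr : ρ r w₀ = w₀) : r = 1 ∨ r = a := by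
  obtain ⟨-, ⟨w₁, hw₁, h₁⟩⟩ := S.ex_nz
  have S' := S.swap
  have haa : ∀ v, ρ a (ρ a v) = v := by
    intro v
    rw [← map_mul_apply, S.ha, map_one_apply]
  have hmain : ∀ r' : G, ρ r' w₀ = w₀ → (∀ w, ρ a w = -w → ρ r' w = w) → r' = 1 := by
    intro r' hr' htriv
    have h₁' : ρ (a * z) w₁ = w₁ := by
      rw [map_mul_apply, S.neg, map_neg, h₁, neg_neg]
    rcases S'.key3 h₁' hw₁ (htriv w₁ h₁) with h | h
    · apply eq_one_of_fix S.hρ
      intro v
      have h3 : ρ r' (v + ρ a v) = v + ρ a v := by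
        apply h
        rw [map_mul_apply, S.neg, map_neg, map_add, haa, add_comm]
      have h4 : ρ r' (v - ρ a v) = v - ρ a v := by
        apply htriv
        rw [map_sub, haa]
        abel
      rw [map_add] at h3
      rw [map_sub] at h4
      have h5 : (ρ r' v - v) + (ρ r' v - v) =
          (ρ r' v + ρ r' (ρ a v) - (v + ρ a v)) + (ρ r' v - ρ r' (ρ a v) - (v - ρ a v)) := by
        abel
      rw [h3, h4, sub_self, sub_self, add_zero] at h5
      exact sub_eq_zero.mp (S.cancel2' _ h5)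
    · exfalso
      have h2 : ρ (a * z) w₀ = -w₀ := by
        rw [map_mul_apply, S.neg, map_neg, h₀]
      have h3 := h w₀ h2
      rw [hr'] at h3
      exact hw₀ (S.cancel2 _ h3)
  rcases S.key3 h₀ hw₀ hr with h | h
  · left
    exact hmain r hr h
  · right
    have h5 : r * a = 1 := by
      apply hmain
      · rw [map_mul_apply, h₀, hr]
      · intro w hw
        rw [map_mul_apply, hw, map_neg, h w hw, neg_neg]
    have h6 : r = a⁻¹ := eq_inv_of_mul_eq_one_left h5
    rw [h6]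
    exact inv_eq_of_mul_eq_one_left S.ha

theorem stab_card [Finite V] [Finite G] [Nontrivial V] {w₀ : V} (h₀ : ρ a w₀ = w₀) (hw₀ : w₀ ≠ 0) :
    Nat.card (stab ρ w₀) = 2 := by
  have h1 : stab ρ w₀ = Subgroup.zpowers a := by
    apply le_antisymm
    · intro r hr
      rcases S.key4 h₀ hw₀ hr with rfl | rfl
      · exact Subgroup.one_mem _
      · exact Subgroup.mem_zpowers _
    · rw [Subgroup.zpowers_le]
      exact h₀
  rw [h1, Nat.card_zpowers]
  apply orderOf_eq_prime _ S.ha1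
  rw [pow_two]
  exact S.ha

theorem key6 [Finite V] [Finite G] [Nontrivial V] {w₀ w₁ : V} (h₀ : ρ a w₀ = w₀) (h₁ : ρ a w₁ = -w₁)
    (hw₀ : w₀ ≠ 0) (hw₁ : w₁ ≠ 0) : ∃ g, ρ g w₀ = w₁ ∧ ρ g w₁ = w₀ := by
  have hv0 : w₀ + w₁ ≠ 0 := by
    intro h
    have h3 : w₀ + w₁ = 0 + 0 := by rw [h, add_zero]
    have h4 := S.direct h₀ (by simp) h₁ (by simp) h3
    exact hw₀ h4.1
  have hc : Nat.card (stab ρ (w₀ + w₁)) = 2 := by
    rw [S.hh _ _ hv0 hw₀]
    exact S.stab_card h₀ hw₀
  haveI : Nontrivial (stab ρ (w₀ + w₁)) := by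
    apply Finite.one_lt_card_iff_nontrivial.mp
    rw [hc]
    norm_num
  obtain ⟨x, hx⟩ := exists_ne (1 : stab ρ (w₀ + w₁))
  have hx1 : (x : G) ≠ 1 := by
    intro h
    exact hx (Subtype.ext h)
  have hx2 : ρ (x : G) (w₀ + w₁) = w₀ + w₁ := x.2
  rcases S.key1 h₀ h₁ hx2 with h | h
  · exfalso
    rcases S.key4 h₀ hw₀ h.1 with h3 | h3
    · exact hx1 h3
    · rw [h3] at h
      exact hw₁ (S.cancel2 w₁ (h.2.symm.trans h₁))
  · exact ⟨x, h⟩


theorem mem1 [Finite V] [Finite G] {v : V} : v ∈ fixS ρ (a * z) ↔ ρ a v = -v := by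
  rw [mem_fixS, map_mul_apply, S.neg, map_neg]
  constructor
  · intro h
    exact neg_eq_iff_eq_neg.mp h
  · intro h
    exact neg_eq_iff_eq_neg.mpr h

theorem count [Finite V] [Finite G] [Nontrivial V] {w₀ : V} (h₀ : ρ a w₀ = w₀) (hw₀ : w₀ ≠ 0) :
    Nat.card G = 4 * (Nat.card (fixS ρ a) - 1) ∧ Nat.card (fixS ρ a) = Nat.card (fixS ρ (a * z)) ∧
      Nat.card V = Nat.card (fixS ρ a) * Nat.card (fixS ρ a) := by
  classical
  haveI := Fintype.ofFinite V
  obtain ⟨-, ⟨w₁, hw₁, h₁⟩⟩ := S.ex_nz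
  obtain ⟨g, hg⟩ := S.hnc
  have hQ : Nat.card (fixS ρ a) = Nat.card (fixS ρ (a * z)) := by
    apply le_antisymm
    · apply card_le_of_maps ρ g
      intro v hv
      rw [S.mem1, S.act_s hg, show ρ a v = v from hv]
    · apply card_le_of_maps ρ g
      intro v hv
      rw [S.mem1] at hv
      show ρ a (ρ g v) = ρ g v
      rw [S.act_s hg, hv, map_neg, neg_neg]
  have hV : Nat.card V = Nat.card (fixS ρ a) * Nat.card (fixS ρ a) := by
    have h1 := card_of_compl _ _ (compl_of_inv ρ S.h2 S.neg S.ha)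
    rw [← hQ] at h1
    exact h1.symm
  refine ⟨?_, hQ, hV⟩
  let F₀ := Finset.univ.filter (fun v : V => v ≠ 0 ∧ v ∈ fixS ρ a)
  let F₁ := Finset.univ.filter (fun v : V => v ≠ 0 ∧ v ∈ fixS ρ (a * z))
  have hF₀ : F₀.card + 1 = Nat.card (fixS ρ a) := card_nz _
  have hF₁ : F₁.card + 1 = Nat.card (fixS ρ (a * z)) := card_nz _
  have hdisj : Disjoint F₀ F₁ := by
    rw [Finset.disjoint_left]
    intro v hv hv'
    simp only [F₀, F₁, Finset.mem_filter, Finset.mem_univ, true_and] at hv hv'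
    have h3 : ρ a v = v := hv.2
    have h4 := S.mem1.mp hv'.2
    exact hv.1 (S.cancel2 v (h3.symm.trans h4))
  have horb : {u : V | ∃ g : G, ρ g w₀ = u} = ((F₀ ∪ F₁ : Finset V) : Set V) := by
    ext u
    simp only [Set.mem_ofPred_eq, Finset.coe_union, Set.mem_union, Finset.mem_coe, F₀, F₁,
      Finset.mem_filter, Finset.mem_univ, true_and]
    constructor
    · rintro ⟨x, rfl⟩
      have hne : ρ x w₀ ≠ 0 := by
        intro h
        apply hw₀
        apply (ρ x).injective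
        rw [h, map_zero]
      rcases S.hconj x with h | h
      · left
        refine ⟨hne, ?_⟩
        show ρ a (ρ x w₀) = ρ x w₀
        rw [S.act_c h, h₀]
      · right
        refine ⟨hne, ?_⟩
        rw [S.mem1, S.act_s h, h₀]
    · rintro (⟨hu, hu'⟩ | ⟨hu, hu'⟩)
      · obtain ⟨g₁, h3, -⟩ := S.key6 h₀ h₁ hw₀ hw₁
        obtain ⟨g₂, -, h4⟩ := S.key6 (show ρ a u = u from hu') h₁ hu hw₁
        refine ⟨g₂ * g₁, ?_⟩
        rw [map_mul_apply, h3, h4]
      · obtain ⟨g₁, h3, -⟩ := S.key6 h₀ (S.mem1.mp hu') hw₀ hu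
        exact ⟨g₁, h3⟩
  have h5 := orbit_stab ρ w₀
  rw [S.stab_card h₀ hw₀, Nat.card_coe_set_eq, horb, Set.ncard_coe_finset,
    Finset.card_union_of_disjoint hdisj] at h5
  rw [← h5]
  have h6 : F₁.card = F₀.card := by omega
  rw [h6, ← hF₀]
  simp only [Nat.add_sub_cancel]
  ring

end Setup

/-- The linear map of coordinates. -/
def Lmap (w₀ w₁ : V) : (Fin 2 → ZMod q) →ₗ[ZMod q] V where
  toFun u := u 0 • w₀ + u 1 • w₁
  map_add' u u' := by
    simp only [Pi.add_apply, add_smul]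
    abel
  map_smul' c u := by
    simp only [Pi.smul_apply, smul_eq_mul, RingHom.id_apply, smul_add, mul_smul]

theorem line_of_card [Finite V] (U : Submodule (ZMod q) V) (hU : Nat.card U = q) {w : V} (hw : w ∈ U)
    (hw0 : w ≠ 0) : ∀ v ∈ U, ∃ c : ZMod q, v = c • w := by
  have hqq : q.Prime := Fact.out
  let f : ZMod q → U := fun c => ⟨c • w, U.smul_mem c hw⟩
  have hf : Function.Injective f := by
    intro c c' h
    have h1 : c • w = c' • w := congrArg Subtype.val h
    exact smul_left_injective (ZMod q) hw0 h1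
  haveI : NeZero q := ⟨hqq.ne_zero⟩
  have hb : Function.Bijective f := by
    apply Function.Injective.bijective_of_nat_card_le hf
    rw [hU, Nat.card_zmod]
  intro v hv
  obtain ⟨c, hc⟩ := hb.2 ⟨v, hv⟩
  exact ⟨c, (congrArg Subtype.val hc).symm⟩

theorem f_D {ρ : G →* (V ≃ₗ[ZMod q] V)} {w₀ w₁ : V} (L : (Fin 2 → ZMod q) ≃ₗ[ZMod q] V)
    (hL : ∀ u, L u = u 0 • w₀ + u 1 • w₁) {g : G} {α β : ZMod q} (h0 : ρ g w₀ = α • w₀)
    (h1 : ρ g w₁ = β • w₁) (v : Fin 2 → ZMod q) :
    (L.trans ((ρ g).trans L.symm)) v = ![α * v 0, β * v 1] := by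
  apply L.injective
  simp only [LinearEquiv.trans_apply, LinearEquiv.apply_symm_apply]
  rw [hL, hL, map_add, map_smul, map_smul, h0, h1, smul_smul, smul_smul]
  simp [mul_comm]

theorem f_W {ρ : G →* (V ≃ₗ[ZMod q] V)} {w₀ w₁ : V} (L : (Fin 2 → ZMod q) ≃ₗ[ZMod q] V)
    (hL : ∀ u, L u = u 0 • w₀ + u 1 • w₁) {g : G} {α β : ZMod q} (h0 : ρ g w₀ = α • w₁)
    (h1 : ρ g w₁ = β • w₀) (v : Fin 2 → ZMod q) :
    (L.trans ((ρ g).trans L.symm)) v = ![β * v 1, α * v 0] := by
  apply L.injective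
  simp only [LinearEquiv.trans_apply, LinearEquiv.apply_symm_apply]
  rw [hL, hL, map_add, map_smul, map_smul, h0, h1, smul_smul, smul_smul, add_comm]
  simp [mul_comm]

theorem two_main [Finite V] [Nontrivial V] [Finite G] (hG : IsPGroup 2 G)
    {ρ : G →* (V ≃ₗ[ZMod q] V)} {z a : G} (S : Setup ρ z a) :
    (Nat.card V = q ^ 2 ∧ (∃ m : ℕ, q = 2 ^ m + 1) ∧
      ∃ e : V ≃ₗ[ZMod q] (Fin 2 → ZMod q), ∀ f : (Fin 2 → ZMod q) ≃ₗ[ZMod q] (Fin 2 → ZMod q),
        (∃ g : G, f = e.symm.trans ((ρ g).trans e)) ↔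
        ∃ a s : ZMod q, a ≠ 0 ∧ (s = 1 ∨ s = -1) ∧
          ((∀ v, f v = ![a * v 0, s * a⁻¹ * v 1]) ∨ (∀ v, f v = ![s * a⁻¹ * v 1, a * v 0]))) ∨
    (Nat.card V = 81 ∧ q = 3) := by
  classical
  have hqq : q.Prime := Fact.out
  have hq2 : q ≠ 2 := by
    rintro rfl
    have h3 : ((2 : ℕ) : ZMod 2) = 0 := ZMod.natCast_self 2
    exact S.h2 (by simpa using h3)
  obtain ⟨⟨w₀, hw₀, h₀⟩, ⟨w₁, hw₁, h₁⟩⟩ := S.ex_nz
  obtain ⟨hc1, hc2, hc3⟩ := S.count h₀ hw₀
  obtain ⟨w, hw⟩ := card_pow_of_submodule (fixS ρ a)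
  obtain ⟨M, hM⟩ := IsPGroup.iff_card.mp hG
  have hQ2 : 1 < Nat.card (fixS ρ a) := by
    apply Finite.one_lt_card_iff_nontrivial.mpr
    exact ⟨⟨⟨w₀, h₀⟩, 0, fun h => hw₀ (congrArg Subtype.val h)⟩⟩
  have hd : Nat.card (fixS ρ a) - 1 ∣ 2 ^ M := by
    rw [← hM, hc1]
    exact dvd_mul_left _ _
  obtain ⟨e', -, he'⟩ := (Nat.dvd_prime_pow Nat.prime_two).mp hd
  have hQe : q ^ w = 2 ^ e' + 1 := by
    rw [← hw]
    omega
  have hw0 : w ≠ 0 := by
    rintro rfl
    rw [pow_zero] at hw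
    omega
  by_cases hw1 : w = 1
  · left
    subst hw1
    rw [pow_one] at hw hQe
    have hqpos : 0 < q := hqq.pos
    have hQ' : Nat.card (fixS ρ (a * z)) = q := by rw [← hc2, hw]
    refine ⟨by rw [hc3, hw, pow_two], ⟨e', hQe⟩, ?_⟩
    have hw₁' : w₁ ∈ fixS ρ (a * z) := S.mem1.mpr h₁
    have hl0 := line_of_card (fixS ρ a) hw (show w₀ ∈ fixS ρ a from h₀) hw₀
    have hl1 := line_of_card (fixS ρ (a * z)) hQ' hw₁' hw₁
    -- the coordinates
    have hLinj : Function.Injective (Lmap w₀ w₁ : (Fin 2 → ZMod q) →ₗ[ZMod q] V) := by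
      rw [← LinearMap.ker_eq_bot, LinearMap.ker_eq_bot']
      intro u hu
      have hu' : u 0 • w₀ + u 1 • w₁ = 0 := hu
      have h3 : u 0 • w₀ + u 1 • w₁ = 0 + 0 := by rw [hu', add_zero]
      have h4 := S.direct (u₀ := u 0 • w₀) (u₁ := u 1 • w₁) (u₀' := 0) (u₁' := 0)
        (by rw [map_smul, h₀]) (by simp) (by rw [map_smul, h₁, smul_neg]) (by simp) h3
      funext i
      fin_cases i
      · simpa [hw₀] using h4.1
      · simpa [hw₁] using h4.2
    have hLsurj : Function.Surjective (Lmap w₀ w₁ : (Fin 2 → ZMod q) →ₗ[ZMod q] V) := by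
      intro v
      have hcompl := compl_of_inv ρ S.h2 S.neg S.ha
      have h3 : v ∈ fixS ρ a ⊔ fixS ρ (a * z) := by
        rw [hcompl.sup_eq_top]
        trivial
      obtain ⟨v₀, hv₀, v₁, hv₁, rfl⟩ := Submodule.mem_sup.mp h3
      obtain ⟨c₀, rfl⟩ := hl0 v₀ hv₀
      obtain ⟨c₁, rfl⟩ := hl1 v₁ hv₁
      refine ⟨![c₀, c₁], ?_⟩
      show (![c₀, c₁] : Fin 2 → ZMod q) 0 • w₀ + (![c₀, c₁] : Fin 2 → ZMod q) 1 • w₁ = _
      simp
    let L : (Fin 2 → ZMod q) ≃ₗ[ZMod q] V := LinearEquiv.ofBijective (Lmap w₀ w₁) ⟨hLinj, hLsurj⟩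
    have hL : ∀ u, L u = u 0 • w₀ + u 1 • w₁ := fun u => rfl
    -- the elements `W(c, s)`
    have hW1 : ∀ c : ZMod q, c ≠ 0 → ∃ g, ρ g w₀ = c • w₁ ∧ ρ g w₁ = c⁻¹ • w₀ := by
      intro c hc
      have h3 : ρ a (c • w₁) = -(c • w₁) := by rw [map_smul, h₁, smul_neg]
      have h4 : c • w₁ ≠ 0 := smul_ne_zero hc hw₁
      obtain ⟨g, hg1, hg2⟩ := S.key6 h₀ h3 hw₀ h4
      refine ⟨g, hg1, ?_⟩
      rw [map_smul] at hg2
      rw [← hg2, smul_smul, inv_mul_cancel₀ hc, one_smul]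
    have hW2 : ∀ c s : ZMod q, c ≠ 0 → (s = 1 ∨ s = -1) →
        ∃ g, ρ g w₀ = c • w₁ ∧ ρ g w₁ = (s * c⁻¹) • w₀ := by
      intro c s hc hs
      obtain ⟨g, hg1, hg2⟩ := hW1 c hc
      rcases hs with rfl | rfl
      · refine ⟨g, hg1, ?_⟩
        rw [one_mul, hg2]
      · refine ⟨g * a, ?_, ?_⟩
        · rw [map_mul_apply, h₀, hg1]
        · rw [map_mul_apply, h₁, map_neg, hg2, neg_mul, one_mul, neg_smul]
    have hsw : ∀ (g : G) (c : ZMod q), c ≠ 0 → ρ g w₀ = c • w₁ →
        ∃ s : ZMod q, (s = 1 ∨ s = -1) ∧ ρ g w₁ = (s * c⁻¹) • w₀ := by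
      intro g c hc hg
      obtain ⟨g', hg1, hg2⟩ := hW1 c hc
      have h3 : ρ (g'⁻¹ * g) w₀ = w₀ := by
        rw [map_mul_apply, hg, ← hg1, ← map_mul_apply, inv_mul_cancel, map_one_apply]
      have h4 : g = g' * (g'⁻¹ * g) := by group
      rcases S.key4 h₀ hw₀ h3 with h5 | h5
      · refine ⟨1, Or.inl rfl, ?_⟩
        rw [h4, h5, mul_one, hg2, one_mul]
      · refine ⟨-1, Or.inr rfl, ?_⟩
        rw [h4, h5, map_mul_apply, h₁, map_neg, hg2, neg_mul, one_mul, neg_smul]
    refine ⟨L.symm, ?_⟩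
    rw [LinearEquiv.symm_symm]
    intro f
    constructor
    · rintro ⟨g, rfl⟩
      rcases S.hconj g with h | h
      · -- `g` preserves both lines
        have h3 : ρ g w₀ ∈ fixS ρ a := by
          show ρ a (ρ g w₀) = ρ g w₀
          rw [S.act_c h, h₀]
        have h4 : ρ g w₁ ∈ fixS ρ (a * z) := by
          rw [S.mem1, S.act_c h, h₁, map_neg]
        obtain ⟨α, hα⟩ := hl0 _ h3
        obtain ⟨β, hβ⟩ := hl1 _ h4
        have hα0 : α ≠ 0 := by
          rintro rfl
          rw [zero_smul] at hα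
          apply hw₀
          apply (ρ g).injective
          rw [hα, map_zero]
        have hβ0 : β ≠ 0 := by
          rintro rfl
          rw [zero_smul] at hβ
          apply hw₁
          apply (ρ g).injective
          rw [hβ, map_zero]
        obtain ⟨g₁, hg1, hg2⟩ := S.key6 h₀ h₁ hw₀ hw₁
        obtain ⟨s, hs, hs'⟩ := hsw (g * g₁) β hβ0 (by rw [map_mul_apply, hg1, hβ])
        rw [map_mul_apply, hg2, hα] at hs'
        have hαβ : α = s * β⁻¹ := smul_left_injective (ZMod q) hw₀ hs'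
        have hss : s * s = 1 := by
          rcases hs with rfl | rfl <;> simp
        have hβ' : β = s * α⁻¹ := by
          rw [hαβ, mul_inv, inv_inv]
          have hsi : s⁻¹ = s := by
            rcases hs with rfl | rfl <;> simp
          rw [hsi, ← mul_assoc, hss, one_mul]
        refine ⟨α, s, hα0, hs, Or.inl ?_⟩
        intro v
        have := f_D L hL (g := g) hα (by rw [hβ, hβ']) v
        exact this
      · -- `g` swaps the lines
        have h3 : ρ g w₀ ∈ fixS ρ (a * z) := by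
          rw [S.mem1, S.act_s h, h₀]
        obtain ⟨c, hc⟩ := hl1 _ h3
        have hc0 : c ≠ 0 := by
          rintro rfl
          rw [zero_smul] at hc
          apply hw₀
          apply (ρ g).injective
          rw [hc, map_zero]
        obtain ⟨s, hs, hs'⟩ := hsw g c hc0 hc
        refine ⟨c, s, hc0, hs, Or.inr ?_⟩
        intro v
        exact f_W L hL hc hs' v
    · rintro ⟨α, s, hα, hs, hf | hf⟩
      · -- diagonal
        obtain ⟨g₂, hg21, hg22⟩ := hW2 α 1 hα (Or.inl rfl)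
        have hs0 : s ≠ 0 := by
          rcases hs with rfl | rfl
          · exact one_ne_zero
          · exact neg_ne_zero.mpr one_ne_zero
        obtain ⟨g₁, hg11, hg12⟩ := hW2 s s hs0 hs
        have hss : s * s⁻¹ = 1 := mul_inv_cancel₀ hs0
        refine ⟨g₁ * g₂, ?_⟩
        apply LinearEquiv.ext
        intro v
        rw [hf v]
        have h3 := f_D L hL (g := g₁ * g₂) (α := α) (β := s * α⁻¹)
          (by rw [map_mul_apply, hg21, map_smul, hg12, hss, one_smul])
          (by rw [map_mul_apply, hg22, map_smul, hg11, smul_smul, one_mul, mul_comm]) v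
        exact h3.symm
      · obtain ⟨g₂, hg21, hg22⟩ := hW2 α s hα hs
        refine ⟨g₂, ?_⟩
        apply LinearEquiv.ext
        intro v
        rw [hf v]
        exact (f_W L hL hg21 hg22 v).symm
  · right
    have hw2 : 2 ≤ w := by omega
    obtain ⟨rfl, rfl⟩ := a2 hqq hq2 hw2 hQe
    refine ⟨?_, rfl⟩
    rw [hc3, hw]
    norm_num

end TwoPart


section DihPart

variable {q : ℕ} [hq : Fact q.Prime] {V : Type*} [AddCommGroup V] [Module (ZMod q) V]
  {G : Type*} [Group G]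

theorem acts_neg [Finite V] [Finite G] {ρ : G →* (V ≃ₗ[ZMod q] V)} (hh : Half ρ)
    (hρ : Function.Injective ρ) (h2 : (2 : ZMod q) ≠ 0) {z : G} (hzc : ∀ g, g * z = z * g)
    (hzo : orderOf z = 2) (v : V) : ρ z v = -v := by
  have h2' : ((2 : ℕ) : ZMod q) ≠ 0 := by
    rw [Nat.cast_ofNat]
    exact h2
  have hzz : z * z = 1 := by
    have := pow_orderOf_eq_one z
    rw [hzo, pow_two] at this
    exact this
  have h := central_fpf hh hρ h2' hzc hzo (v + ρ z v) (by
    rw [map_add, ← map_mul_apply, hzz, map_one_apply, add_comm])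
  exact eq_neg_of_add_eq_zero_right h

theorem dih_count [Finite V] [Nontrivial V] [Finite G] {ρ : G →* (V ≃ₗ[ZMod q] V)} (hh : Half ρ)
    (hρ : Function.Injective ρ) (h2 : (2 : ZMod q) ≠ 0) {z : G} (hzc : ∀ g, g * z = z * g)
    (hzo : orderOf z = 2) (A : Subgroup G) (hA2 : ∀ a b, a ∉ A → b ∉ A → a * b ∈ A)
    (hA : ∀ a ∈ A, a ≠ 1 → z ∈ Subgroup.zpowers a)
    (hw : ∀ τ, τ ∉ A → ∃ w, w * τ * w⁻¹ = τ * z) (X : Finset G)
    (hX : ∀ τ, τ ∈ X ↔ τ ∉ A ∧ τ * τ = 1) {t : G} (ht : t ∈ X) {m : ℕ} (hm : X.card = 2 ^ m) :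
    Nat.card V = q ^ 2 ∧ q = 2 ^ m - 1 := by
  classical
  haveI := Fintype.ofFinite V
  have hqq : q.Prime := Fact.out
  have hq2 : q ≠ 2 := by
    rintro rfl
    have h3 : ((2 : ℕ) : ZMod 2) = 0 := ZMod.natCast_self 2
    exact h2 (by simpa using h3)
  have h2' : ((2 : ℕ) : ZMod q) ≠ 0 := by
    rw [Nat.cast_ofNat]
    exact h2
  have hneg := acts_neg hh hρ h2 hzc hzo
  have hz_fix : ∀ v : V, ρ z v = v → v = 0 := central_fpf hh hρ h2' hzc hzo
  have hAfix : ∀ g ∈ A, g ≠ 1 → ∀ v : V, ρ g v = v → v = 0 := by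
    intro g hg hg1 v hv
    have h3 := hA g hg hg1
    have h4 : Subgroup.zpowers g ≤ stab ρ v := Subgroup.zpowers_le.mpr hv
    exact hz_fix v (h4 h3)
  have hQ : ∀ τ ∈ X, Nat.card (fixS ρ τ) * Nat.card (fixS ρ τ) = Nat.card V := by
    intro τ hτ
    obtain ⟨hτA, hττ⟩ := (hX τ).mp hτ
    obtain ⟨w, hw'⟩ := hw τ hτA
    have h3 := card_of_compl _ _ (compl_of_inv ρ h2 hneg hττ)
    have h4 : Nat.card (fixS ρ τ) = Nat.card (fixS ρ (τ * z)) := by
      apply le_antisymm
      · apply card_le_of_maps ρ w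
        intro v hv
        have hv' : ρ τ v = v := hv
        rw [mem_fixS, ← hw', ← map_mul_apply, inv_mul_cancel_right, map_mul_apply, hv']
      · apply card_le_of_maps ρ w⁻¹
        intro v hv
        have hv' : ρ (τ * z) v = v := hv
        rw [← hw'] at hv'
        show ρ τ (ρ w⁻¹ v) = ρ w⁻¹ v
        nth_rewrite 2 [← hv']
        rw [← map_mul_apply, ← map_mul_apply]
        congr 2
        group
    rw [← h4] at h3
    exact h3
  set Q := Nat.card (fixS ρ t) with hQdef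
  have hQτ : ∀ τ ∈ X, Nat.card (fixS ρ τ) = Q := by
    intro τ hτ
    have h3 := hQ τ hτ
    rw [← hQ t ht] at h3
    exact Nat.mul_self_inj.mp h3
  have hQQ : Q * Q = Nat.card V := hQ t ht
  have hV1 : 1 < Nat.card V := Finite.one_lt_card
  have hQ1 : 1 < Q := by
    by_contra h
    have h3 : Q ≤ 1 := by omega
    have h4 : Q * Q ≤ 1 * 1 := Nat.mul_le_mul h3 h3
    omega
  obtain ⟨v₀, hv₀, hv₀0⟩ : ∃ v₀ ∈ fixS ρ t, v₀ ≠ 0 := by
    apply Submodule.exists_mem_ne_zero_of_ne_bot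
    intro h
    rw [hQdef, h] at hQ1
    simp at hQ1
  have htA : t ∉ A := ((hX t).mp ht).1
  have ht1 : t ≠ 1 := by
    rintro rfl
    exact htA A.one_mem
  have hcov : ∀ v : V, v ≠ 0 → ∃ τ ∈ X, ρ τ v = v := by
    intro v hv
    have h3 : Nat.card (stab ρ v) = Nat.card (stab ρ v₀) := hh _ _ hv hv₀0
    have h4 : 1 < Nat.card (stab ρ v₀) := by
      apply Finite.one_lt_card_iff_nontrivial.mpr
      exact ⟨⟨⟨t, hv₀⟩, 1, fun h => ht1 (congrArg Subtype.val h)⟩⟩
    rw [← h3] at h4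
    haveI : Nontrivial (stab ρ v) := Finite.one_lt_card_iff_nontrivial.mp h4
    obtain ⟨x, hx⟩ := exists_ne (1 : stab ρ v)
    have hx1 : (x : G) ≠ 1 := fun h => hx (Subtype.ext h)
    have hx2 : ρ (x : G) v = v := x.2
    have hxA : (x : G) ∉ A := fun h => hv (hAfix _ h hx1 v hx2)
    have hxx : (x : G) * x = 1 := by
      by_contra hne
      exact hv (hAfix _ (hA2 _ _ hxA hxA) hne v (by rw [map_mul_apply, hx2, hx2]))
    exact ⟨x, (hX _).mpr ⟨hxA, hxx⟩, hx2⟩
  let F : G → Finset V := fun τ => Finset.univ.filter (fun v : V => v ≠ 0 ∧ v ∈ fixS ρ τ)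
  have hF : ∀ τ ∈ X, (F τ).card + 1 = Q := by
    intro τ hτ
    rw [← hQτ τ hτ]
    exact card_nz _
  have hdisj : (X : Set G).PairwiseDisjoint F := by
    intro τ hτ τ' hτ' hne
    apply Finset.disjoint_left.mpr
    intro v hv hv'
    simp only [F, Finset.mem_filter, Finset.mem_univ, true_and] at hv hv'
    have h1 : ρ τ v = v := hv.2
    have h3 : ρ τ' v = v := hv'.2
    obtain ⟨hτA, hττ⟩ := (hX τ).mp hτ
    obtain ⟨hτ'A, -⟩ := (hX τ').mp hτ'
    by_cases hone : τ * τ' = 1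
    · apply hne
      have h4 : τ * τ' = τ * τ := by rw [hone, hττ]
      exact (mul_left_cancel h4).symm
    · exact hv.1 (hAfix _ (hA2 _ _ hτA hτ'A) hone v (by rw [map_mul_apply, h3, h1]))
  have hunion : Finset.univ.filter (fun v : V => v ≠ 0) = X.biUnion F := by
    ext v
    simp only [Finset.mem_filter, Finset.mem_univ, true_and, Finset.mem_biUnion, F]
    constructor
    · intro hv
      obtain ⟨τ, hτ, h3⟩ := hcov v hv
      exact ⟨τ, hτ, hv, h3⟩
    · rintro ⟨τ, -, hv, -⟩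
      exact hv
  have hcount : Nat.card V = 1 + X.card * (Q - 1) := by
    have h3 : (Finset.univ.filter (fun v : V => v ≠ 0)).card + 1 = Nat.card V := by
      have h4 := card_nz (⊤ : Submodule (ZMod q) V)
      have h5 : Nat.card (⊤ : Submodule (ZMod q) V) = Nat.card V :=
        Nat.card_congr (LinearEquiv.ofTop (⊤ : Submodule (ZMod q) V) rfl).toEquiv
      rw [h5] at h4
      rw [← h4]
      congr 2
      ext v
      simp
    rw [← h3, hunion, Finset.card_biUnion hdisj, Finset.sum_congr rfl (g := fun _ => Q - 1)]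
    · simp only [Finset.sum_const, smul_eq_mul]
      ring
    · intro τ hτ
      have := hF τ hτ
      omega
  obtain ⟨P, hP⟩ : ∃ P, Q = P + 2 := ⟨Q - 2, by omega⟩
  have hXc : X.card = Q + 1 := by
    rw [hP] at hQQ hcount ⊢
    have h3 : P + 2 - 1 = P + 1 := rfl
    rw [h3] at hcount
    rw [← hQQ] at hcount
    have h4 : (P + 1) * (P + 3) = (P + 1) * X.card := by nlinarith
    exact (Nat.eq_of_mul_eq_mul_left (Nat.succ_pos P) h4).symm
  obtain ⟨d, hd⟩ := card_pow_of_submodule (fixS ρ t)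
  rw [← hQdef] at hd
  have hd0 : d ≠ 0 := by
    rintro rfl
    rw [pow_zero] at hd
    omega
  have h2m : 2 ^ m = q ^ d + 1 := by
    rw [← hm, hXc, hd]
  have hd1 : d = 1 := a1 hqq hq2 h2m hd0
  subst hd1
  rw [pow_one] at hd h2m
  constructor
  · rw [← hQQ, hd, pow_two]
  · omega

theorem z_mem_zpowers {x : G} {k : ℕ} (hk : 1 ≤ k) (hx : x ^ 2 ^ k = 1) (i : ℕ) (hi : x ^ i ≠ 1) :
    x ^ 2 ^ (k - 1) ∈ Subgroup.zpowers (x ^ i) := by
  have hi0 : i ≠ 0 := by
    rintro rfl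
    exact hi (pow_zero x)
  obtain ⟨s, u, hu, rfl⟩ := Nat.exists_eq_two_pow_mul_odd hi0
  have hs : s < k := by
    by_contra h
    push Not at h
    apply hi
    obtain ⟨e, rfl⟩ := Nat.exists_eq_add_of_le h
    rw [pow_add, mul_assoc, pow_mul, hx, one_pow]
  obtain ⟨l, rfl⟩ := hu
  refine Subgroup.mem_zpowers_iff.mpr ⟨((2 ^ (k - 1 - s) : ℕ) : ℤ), ?_⟩
  rw [zpow_natCast, ← pow_mul]
  have h1 : 2 ^ s * (2 * l + 1) * 2 ^ (k - 1 - s) = 2 ^ k * l + 2 ^ (k - 1) := by
    have h2 : 2 ^ k = 2 ^ s * 2 ^ (k - 1 - s) * 2 := by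
      rw [← pow_add, ← pow_succ]
      congr 1
      omega
    have h3 : 2 ^ (k - 1) = 2 ^ s * 2 ^ (k - 1 - s) := by
      rw [← pow_add]
      congr 1
      omega
    rw [h2, h3]
    ring
  rw [h1, pow_add, pow_mul, hx, one_pow, one_mul]

theorem dih_core [Finite V] [Nontrivial V] [Finite G] {ρ : G →* (V ≃ₗ[ZMod q] V)} (hh : Half ρ)
    (hρ : Function.Injective ρ) (h2 : (2 : ZMod q) ≠ 0) {x y : G} {k c r : ℕ} (hk : 3 ≤ k)
    (hc : c ≤ 1) (hx : orderOf x = 2 ^ k) (hG : Nat.card G = 2 ^ (k + 1)) (hyy : y * y = 1)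
    (hyx : y ∉ Subgroup.zpowers x) (hconj : y * x * y⁻¹ = x ^ r) (hr : r + 1 = 2 ^ (k - c)) :
    Nat.card V = q ^ 2 ∧ q = 2 ^ (k - c) - 1 := by
  classical
  let A := Subgroup.zpowers x
  have hx1 : x ^ 2 ^ k = 1 := by rw [← hx]; exact pow_orderOf_eq_one x
  have hAcard : Nat.card A = 2 ^ k := by
    rw [Nat.card_zpowers, hx]
  have hAidx : A.index = 2 := by
    have h1 := Subgroup.card_mul_index A
    rw [hAcard, hG, pow_succ] at h1
    exact Nat.eq_of_mul_eq_mul_left (pow_pos (by norm_num) k) h1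
  have hA2 : ∀ a b, a ∉ A → b ∉ A → a * b ∈ A := by
    intro a b ha hb
    rw [Subgroup.mul_mem_iff_of_index_two hAidx]
    exact iff_of_false ha hb
  have hyi : y⁻¹ = y := inv_eq_of_mul_eq_one_left hyy
  have hconjp : ∀ i : ℕ, y * x ^ i * y⁻¹ = x ^ (r * i) := by
    intro i
    rw [← conj_pow, hconj, ← pow_mul]
  have hform : ∀ τ, τ ∉ A → ∃ i, i < 2 ^ k ∧ τ = x ^ i * y := by
    intro τ hτ
    have h1 : τ * y ∈ A := hA2 _ _ hτ hyx
    have h2 : ∃ i, i < orderOf x ∧ x ^ i = τ * y := by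
      have hf : IsOfFinOrder x := isOfFinOrder_of_finite x
      have h3 := (hf.mem_powers_iff_mem_zpowers (y := τ * y)).mpr h1
      exact (mem_powers_iff_mem_range_orderOf (x := x) (y := τ * y)).mp h3 |> fun h => by
        obtain ⟨i, hi, hi'⟩ := Finset.mem_image.mp h
        exact ⟨i, Finset.mem_range.mp hi, hi'⟩
    obtain ⟨i, hi, hi'⟩ := h2
    rw [hx] at hi
    refine ⟨i, hi, ?_⟩
    rw [hi', mul_assoc, hyy, mul_one]
  let z := x ^ 2 ^ (k - 1)
  have hzo : orderOf z = 2 := by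
    have h1 : x ^ (orderOf x / 2) = z := by
      rw [hx]
      congr 1
      have hk2 : 2 ^ k = 2 * 2 ^ (k - 1) := by
        rw [← pow_succ']
        congr 1
        omega
      rw [hk2]
      exact Nat.mul_div_cancel_left _ (by norm_num)
    rw [← h1]
    apply orderOf_pow_orderOf_div
    · rw [hx]; positivity
    · rw [hx]
      exact dvd_pow_self 2 (by omega)
  have hr0 : ∃ s, r = 2 * s + 1 := by
    have h1 : 2 ∣ r + 1 := by
      rw [hr]
      exact dvd_pow_self 2 (by omega)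
    obtain ⟨t, ht⟩ := h1
    exact ⟨t - 1, by omega⟩
  obtain ⟨s, hs⟩ := hr0
  have hk2 : 2 ^ k = 2 * 2 ^ (k - 1) := by
    rw [← pow_succ']
    congr 1
    omega
  have hk3 : 2 ^ (k - 1) = 2 * 2 ^ (k - 2) := by
    rw [← pow_succ']
    congr 1
    omega
  have hyz : y * z = z * y := by
    have h1 := hconjp (2 ^ (k - 1))
    have h2 : x ^ (r * 2 ^ (k - 1)) = z := by
      have h3 : r * 2 ^ (k - 1) = 2 ^ k * s + 2 ^ (k - 1) := by
        rw [hs, hk2]
        ring
      rw [h3, pow_add, pow_mul, hx1, one_pow, one_mul]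
    rw [h2] at h1
    exact (mul_inv_eq_iff_eq_mul.mp h1)
  have hxz : ∀ i : ℕ, x ^ i * z = z * x ^ i := by
    intro i
    rw [← pow_add, ← pow_add, add_comm]
  have hzc : ∀ g, g * z = z * g := by
    intro g
    by_cases hg : g ∈ A
    · obtain ⟨n, hn⟩ := Subgroup.mem_zpowers_iff.mp hg
      have hxc : Commute x z := (Commute.refl x).pow_right _
      rw [← hn]
      exact (hxc.zpow_left n).eq
    · obtain ⟨i, -, rfl⟩ := hform g hg
      rw [mul_assoc, hyz, ← mul_assoc, hxz, mul_assoc]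
  let w := x ^ 2 ^ (k - 2)
  have hww : w * w = z := by
    show x ^ _ * x ^ _ = x ^ _
    rw [← pow_add, hk3]
    congr 1
    ring
  have hyw : y * w = w⁻¹ * y := by
    have h1 := hconjp (2 ^ (k - 2))
    have h2 : x ^ (r * 2 ^ (k - 2)) * w = 1 := by
      show x ^ _ * x ^ _ = 1
      rw [← pow_add]
      have h3 : r * 2 ^ (k - 2) + 2 ^ (k - 2) = (r + 1) * 2 ^ (k - 2) := by ring
      rw [h3, hr, ← pow_add]
      have h4 : k - c + (k - 2) = k + (k - c - 2) := by omega
      rw [h4, pow_add, pow_mul, hx1, one_pow]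
    have h3 : x ^ (r * 2 ^ (k - 2)) = w⁻¹ := eq_inv_of_mul_eq_one_left h2
    rw [h3] at h1
    exact (mul_inv_eq_iff_eq_mul.mp h1)
  have hywi : y * w⁻¹ = w * y := by
    have h1 : w * y * w = y := by rw [mul_assoc, hyw, mul_inv_cancel_left]
    exact (eq_mul_inv_of_mul_eq h1).symm
  have hxw : ∀ i : ℕ, w * x ^ i = x ^ i * w := by
    intro i
    show x ^ _ * x ^ _ = x ^ _ * x ^ _
    rw [← pow_add, ← pow_add, add_comm]
  have hw : ∀ τ, τ ∉ A → ∃ w, w * τ * w⁻¹ = τ * z := by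
    intro τ hτ
    obtain ⟨i, -, rfl⟩ := hform τ hτ
    refine ⟨w, ?_⟩
    calc w * (x ^ i * y) * w⁻¹ = (w * x ^ i) * (y * w⁻¹) := by group
      _ = x ^ i * w * (w * y) := by rw [hxw, hywi]
      _ = x ^ i * ((w * w) * y) := by group
      _ = x ^ i * (y * z) := by rw [hww, hyz]
      _ = x ^ i * y * z := by group
  have hA : ∀ a ∈ A, a ≠ 1 → z ∈ Subgroup.zpowers a := by
    intro a ha ha1
    have hf : IsOfFinOrder x := isOfFinOrder_of_finite x
    obtain ⟨i, rfl⟩ := (hf.mem_powers_iff_mem_zpowers (y := a)).mpr ha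
    exact z_mem_zpowers (by omega) hx1 i ha1
  -- the involutions
  have hsq : ∀ i : ℕ, (x ^ i * y) * (x ^ i * y) = x ^ (i * 2 ^ (k - c)) := by
    intro i
    have h1 := hconjp i
    have h2 : y * x ^ i = x ^ (r * i) * y := mul_inv_eq_iff_eq_mul.mp h1
    calc (x ^ i * y) * (x ^ i * y) = x ^ i * (y * x ^ i) * y := by group
      _ = x ^ i * (x ^ (r * i) * y) * y := by rw [h2]
      _ = x ^ i * x ^ (r * i) * (y * y) := by group
      _ = x ^ (i * 2 ^ (k - c)) := by
          rw [hyy, mul_one, ← pow_add, ← hr]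
          congr 1
          ring
  let X : Finset G := (Finset.range (2 ^ (k - c))).image (fun j => x ^ (2 ^ c * j) * y)
  have hnotA : ∀ i : ℕ, x ^ i * y ∉ A := by
    intro i h
    apply hyx
    have h1 : x ^ i ∈ A := Subgroup.npow_mem_zpowers x i
    have h2 := A.mul_mem (A.inv_mem h1) h
    rwa [inv_mul_cancel_left] at h2
  have h2ck : 2 ^ c * 2 ^ (k - c) = 2 ^ k := by
    rw [← pow_add]
    congr 1
    omega
  have hX : ∀ τ, τ ∈ X ↔ τ ∉ A ∧ τ * τ = 1 := by
    intro τ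
    constructor
    · intro hτ
      obtain ⟨j, -, rfl⟩ := Finset.mem_image.mp hτ
      refine ⟨hnotA _, ?_⟩
      rw [hsq]
      have h3 : 2 ^ c * j * 2 ^ (k - c) = 2 ^ k * j := by
        rw [← h2ck]
        ring
      rw [h3, pow_mul, hx1, one_pow]
    · rintro ⟨hτ, hττ⟩
      obtain ⟨i, hi, rfl⟩ := hform τ hτ
      rw [hsq] at hττ
      have h3 : 2 ^ k ∣ i * 2 ^ (k - c) := by
        rw [← hx]
        exact orderOf_dvd_of_pow_eq_one hττ
      have h4 : 2 ^ c ∣ i := by
        rw [← h2ck, mul_comm i] at h3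
        rw [mul_comm (2 ^ c)] at h3
        exact Nat.dvd_of_mul_dvd_mul_left (pow_pos (by norm_num) _) h3
      obtain ⟨j, rfl⟩ := h4
      apply Finset.mem_image.mpr
      refine ⟨j, Finset.mem_range.mpr ?_, rfl⟩
      rw [← h2ck] at hi
      exact Nat.lt_of_mul_lt_mul_left hi
  have hXcard : X.card = 2 ^ (k - c) := by
    rw [Finset.card_image_of_injOn, Finset.card_range]
    intro j hj j' hj' h
    have h3 : x ^ (2 ^ c * j) = x ^ (2 ^ c * j') := mul_right_cancel h
    have h4 := pow_injOn_Iio_orderOf (x := x)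
    have hj1 : j < 2 ^ (k - c) := Finset.mem_range.mp hj
    have hj2 : j' < 2 ^ (k - c) := Finset.mem_range.mp hj'
    have h5 : 2 ^ c * j < orderOf x := by
      rw [hx, ← h2ck]
      exact Nat.mul_lt_mul_of_pos_left hj1 (pow_pos (by norm_num) _)
    have h6 : 2 ^ c * j' < orderOf x := by
      rw [hx, ← h2ck]
      exact Nat.mul_lt_mul_of_pos_left hj2 (pow_pos (by norm_num) _)
    have h7 := h4 h5 h6 h3
    exact Nat.eq_of_mul_eq_mul_left (pow_pos (by norm_num) _) h7
  have ht : y ∈ X := by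
    apply Finset.mem_image.mpr
    exact ⟨0, Finset.mem_range.mpr (pow_pos (by norm_num) _), by simp⟩
  exact dih_count hh hρ h2 hzc hzo A hA2 hA hw X hX ht hXcard

theorem dih_case [Finite V] [Nontrivial V] [Finite G] {ρ : G →* (V ≃ₗ[ZMod q] V)} (hh : Half ρ)
    (hρ : Function.Injective ρ) (h2 : (2 : ZMod q) ≠ 0) (hG : IsPGroup 2 G) {n : ℕ} (hn : 8 ≤ n)
    (e : G ≃* DihedralGroup n) :
    Nat.card V = q ^ 2 ∧ ∃ m : ℕ, q = 2 ^ m - 1 ∧ Nonempty (G ≃* DihedralGroup (2 ^ m)) := by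
  classical
  obtain ⟨M, hM⟩ := IsPGroup.iff_card.mp hG
  have hcard : Nat.card G = 2 * n := by
    rw [Nat.card_congr e.toEquiv, DihedralGroup.nat_card]
  have hd : n ∣ 2 ^ M := by
    rw [← hM, hcard]
    exact dvd_mul_left _ _
  obtain ⟨k, -, rfl⟩ := (Nat.dvd_prime_pow Nat.prime_two).mp hd
  have hk : 3 ≤ k := by
    by_contra h
    have h1 : k ≤ 2 := by omega
    have h3 : 2 ^ k ≤ 2 ^ 2 := Nat.pow_le_pow_right (by norm_num) h1
    omega
  have hk0 : 2 ^ k ≠ 0 := (pow_pos (by norm_num) k).ne'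
  haveI : NeZero (2 ^ k) := ⟨hk0⟩
  let x := e.symm (DihedralGroup.r 1)
  let y := e.symm (DihedralGroup.sr 0)
  have hx : orderOf x = 2 ^ k := by
    rw [MulEquiv.orderOf_eq, DihedralGroup.orderOf_r_one]
  have hyy : y * y = 1 := by
    show e.symm _ * e.symm _ = 1
    rw [← map_mul, DihedralGroup.sr_mul_self, map_one]
  have hyx : y ∉ Subgroup.zpowers x := by
    intro h
    have hf : IsOfFinOrder x := isOfFinOrder_of_finite x
    obtain ⟨i, hi⟩ := (hf.mem_powers_iff_mem_zpowers (y := y)).mpr h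
    have h1 : e (x ^ i) = e y := congrArg e hi
    simp only [x, y, map_pow, MulEquiv.apply_symm_apply, DihedralGroup.r_one_pow] at h1
    cases h1
  have hconj : y * x * y⁻¹ = x ^ (2 ^ k - 1) := by
    apply e.injective
    simp only [x, y, map_mul, map_inv, map_pow, MulEquiv.apply_symm_apply, DihedralGroup.r_one_pow,
      DihedralGroup.inv_sr, DihedralGroup.sr_mul_r, DihedralGroup.sr_mul_sr]
    congr 1
    have h3 : ((2 ^ k - 1 : ℕ) : ZMod (2 ^ k)) = -1 := by
      have h6 : (((2 ^ k - 1) + 1 : ℕ) : ZMod (2 ^ k)) = 0 := by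
        have h7 : (2 ^ k - 1) + 1 = 2 ^ k := by
          have : 0 < 2 ^ k := pow_pos (by norm_num) k
          omega
        rw [h7]
        exact ZMod.natCast_self _
      rw [Nat.cast_add, Nat.cast_one] at h6
      exact eq_neg_of_add_eq_zero_left h6
    rw [h3]
    ring
  have hGc : Nat.card G = 2 ^ (k + 1) := by
    rw [hcard, pow_succ']
  have hr : (2 ^ k - 1) + 1 = 2 ^ (k - 0) := by
    have : 0 < 2 ^ k := pow_pos (by norm_num) k
    simp only [Nat.sub_zero]
    omega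
  have h3 := dih_core hh hρ h2 (k := k) (c := 0) hk (by norm_num) hx hGc hyy hyx hconj hr
  simp only [Nat.sub_zero] at h3
  exact ⟨h3.1, k, h3.2, ⟨e⟩⟩

theorem sd_case [Finite V] [Nontrivial V] [Finite G] {ρ : G →* (V ≃ₗ[ZMod q] V)} (hh : Half ρ)
    (hρ : Function.Injective ρ) (h2 : (2 : ZMod q) ≠ 0) (hsd : Cfsg.IsQuasiDihedral G) :
    Nat.card V = q ^ 2 ∧ ∃ m : ℕ, q = 2 ^ m - 1 ∧ Cfsg.IsQuasiDihedral G ∧ Nat.card G = 2 ^ (m + 2) := by
  classical
  obtain ⟨n, hn, hc, x, y, hx, hy, hconj⟩ := hsd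
  have hyy : y * y = 1 := by
    have := pow_orderOf_eq_one y
    rw [hy, pow_two] at this
    exact this
  have h2n : 2 ^ n = 2 * 2 ^ (n - 1) := by
    rw [← pow_succ']
    congr 1
    omega
  have h2n1 : 2 ^ (n - 1) = 2 * 2 ^ (n - 2) := by
    rw [← pow_succ']
    congr 1
    omega
  have h2n2 : 2 ≤ 2 ^ (n - 2) := by
    calc 2 = 2 ^ 1 := rfl
      _ ≤ 2 ^ (n - 2) := Nat.pow_le_pow_right (by norm_num) (by omega)
  have hyx : y ∉ Subgroup.zpowers x := by
    intro h
    obtain ⟨i, rfl⟩ := Subgroup.mem_zpowers_iff.mp h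
    have h1 : x ^ i * x * (x ^ i)⁻¹ = x := by
      rw [← zpow_add_one, ← zpow_neg, ← zpow_add]
      simp
    rw [h1] at hconj
    have h3 : x ^ (2 ^ (n - 1) - 2) = 1 := by
      have h4 : x * x ^ (2 ^ (n - 1) - 2) = x ^ (2 ^ (n - 1) - 1) := by
        rw [← pow_succ']
        congr 1
        omega
      rw [← hconj] at h4
      exact mul_eq_left.mp h4
    have h4 := orderOf_dvd_of_pow_eq_one h3
    rw [hx] at h4
    have h5 := Nat.le_of_dvd (by omega) h4
    omega
  have hr : (2 ^ (n - 1) - 1) + 1 = 2 ^ (n - 1) := by omega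
  have h3 := dih_core hh hρ h2 (k := n) (c := 1) hn (le_refl 1) hx hc hyy hyx hconj hr
  refine ⟨h3.1, n - 1, h3.2, ⟨n, hn, hc, x, y, hx, hy, hconj⟩, ?_⟩
  rw [hc]
  congr 1
  omega

theorem quat_unique [Finite G] {n : ℕ} (e : G ≃* QuaternionGroup n) :
    ∀ H K : Subgroup G, Nat.card H = 2 → Nat.card K = 2 → H = K := by
  classical
  have hn0 : n ≠ 0 := by
    rintro rfl
    have h1 := orderOf_pos (e.symm (QuaternionGroup.a 1))
    rw [MulEquiv.orderOf_eq, QuaternionGroup.orderOf_a_one] at h1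
    simp at h1
  haveI : NeZero n := ⟨hn0⟩
  haveI : NeZero (2 * n) := ⟨by omega⟩
  have hcast0 : (n : ZMod (2 * n)) ≠ 0 := by
    intro h
    have h1 := (ZMod.natCast_eq_zero_iff n (2 * n)).mp h
    have h2 := Nat.le_of_dvd (Nat.pos_of_ne_zero hn0) h1
    omega
  let u := e.symm (QuaternionGroup.a (n : ZMod (2 * n)))
  have hu : ∀ h : G, h * h = 1 → h ≠ 1 → h = u := by
    intro h hh hh1
    apply e.injective
    show e h = e u
    simp only [u, MulEquiv.apply_symm_apply]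
    have h3 : e h * e h = 1 := by rw [← map_mul, hh, map_one]
    have h4 : e h ≠ 1 := by
      intro h5
      apply hh1
      apply e.injective
      rw [h5, map_one]
    rcases hi : e h with i | i
    · rw [hi] at h3 h4
      rw [QuaternionGroup.a_mul_a, QuaternionGroup.one_def] at h3
      have h5 : i + i = 0 := QuaternionGroup.a.inj h3
      have h6 : i ≠ 0 := by
        rintro rfl
        exact h4 QuaternionGroup.a_zero
      congr 1
      have h7 : ((2 * i.val : ℕ) : ZMod (2 * n)) = 0 := by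
        push_cast
        rw [ZMod.natCast_zmod_val, two_mul i, h5]
      have h8 := (ZMod.natCast_eq_zero_iff _ _).mp h7
      have h9 : n ∣ i.val := Nat.dvd_of_mul_dvd_mul_left (by norm_num) h8
      obtain ⟨t, ht⟩ := h9
      have h10 : i.val < 2 * n := ZMod.val_lt i
      have ht2 : t < 2 := by
        rw [ht] at h10
        have : n * t < n * 2 := by rw [mul_comm n 2]; exact h10
        exact Nat.lt_of_mul_lt_mul_left this
      have h11 : t ≠ 0 := by
        rintro rfl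
        apply h6
        apply ZMod.val_injective
        rw [ht, ZMod.val_zero, mul_zero]
      have ht1 : t = 1 := by omega
      rw [← ZMod.natCast_zmod_val i, ht, ht1, mul_one]
    · exfalso
      rw [hi, QuaternionGroup.xa_mul_xa, QuaternionGroup.one_def] at h3
      have h5 := QuaternionGroup.a.inj h3
      apply hcast0
      rw [← h5]
      ring
  have hu1 : u ≠ 1 := by
    intro h
    apply hcast0
    have h3 : e u = 1 := by rw [h, map_one]
    simp only [u, MulEquiv.apply_symm_apply, QuaternionGroup.one_def] at h3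
    exact QuaternionGroup.a.inj h3
  have huu : u * u = 1 := by
    show e.symm _ * e.symm _ = 1
    rw [← map_mul, QuaternionGroup.a_mul_a]
    have h3 : (n : ZMod (2 * n)) + n = 0 := by
      have h4 := ZMod.natCast_self (2 * n)
      rw [Nat.cast_mul, Nat.cast_ofNat, two_mul (n : ZMod (2 * n))] at h4
      exact h4
    rw [h3, QuaternionGroup.a_zero, map_one]
  have huo : orderOf u = 2 := by
    apply orderOf_eq_prime _ hu1
    rw [pow_two]
    exact huu
  have main : ∀ H : Subgroup G, Nat.card H = 2 → H = Subgroup.zpowers u := by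
    intro H hH
    haveI : Nontrivial H := by
      apply Finite.one_lt_card_iff_nontrivial.mp
      rw [hH]
      norm_num
    obtain ⟨x, hx1⟩ := exists_ne (1 : H)
    have hx1' : (x : G) ≠ 1 := by simpa using hx1
    have hxp : (x : G) * x = 1 := by
      have h1 : x ^ Nat.card H = 1 := pow_card_eq_one'
      rw [hH, pow_two] at h1
      simpa using congrArg Subtype.val h1
    have hxu := hu _ hxp hx1'
    symm
    apply Subgroup.eq_of_le_of_card_ge
    · rw [Subgroup.zpowers_le, ← hxu]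
      exact x.2
    · rw [hH, Nat.card_zpowers, huo]
  intro H K hH hK
  rw [main H hH, main K hK]

end DihPart

theorem result
    (q : ℕ) [Fact q.Prime] {V : Type*} [AddCommGroup V] [Module (ZMod q) V] [Finite V] [Nontrivial V]
    {G : Type*} [Group G] [Finite G] (p : ℕ) [Fact p.Prime] (hG : IsPGroup p G)
    (ρ : G →* (V ≃ₗ[ZMod q] V)) (hρ : Function.Injective ρ)
    (hhalf : ∀ v w : V, v ≠ 0 → w ≠ 0 → Nat.card {u : V | ∃ g : G, ρ g v = u} = Nat.card {u : V | ∃ g : G, ρ g w = u}) :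
    ((IsCyclic G ∨ ∃ n : ℕ, Nonempty (G ≃* QuaternionGroup n)) ∧ ∀ v : V, v ≠ 0 → ∀ g : G, ρ g v = v → g = 1) ∨
    (Nat.card V = q ^ 2 ∧ ∃ m : ℕ, q = 2 ^ m - 1 ∧
      (Nonempty (G ≃* DihedralGroup (2 ^ m)) ∨ (Cfsg.IsQuasiDihedral G ∧ Nat.card G = 2 ^ (m + 2)))) ∨
    (Nat.card V = q ^ 2 ∧ (∃ m : ℕ, q = 2 ^ m + 1) ∧
      ∃ e : V ≃ₗ[ZMod q] (Fin 2 → ZMod q), ∀ f : (Fin 2 → ZMod q) ≃ₗ[ZMod q] (Fin 2 → ZMod q),
        (∃ g : G, f = e.symm.trans ((ρ g).trans e)) ↔
        ∃ a s : ZMod q, a ≠ 0 ∧ (s = 1 ∨ s = -1) ∧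
          ((∀ v, f v = ![a * v 0, s * a⁻¹ * v 1]) ∨ (∀ v, f v = ![s * a⁻¹ * v 1, a * v 0]))) ∨
    (Nat.card V = 81 ∧ q = 3 ∧ p = 2) := by
  classical
  have hh : Half ρ := half_of ρ hhalf
  have hpp : p.Prime := Fact.out
  have hqq : q.Prime := Fact.out
  by_cases hpeq : (p : ZMod q) = 0
  · have h1 : q ∣ p := (ZMod.natCast_eq_zero_iff p q).mp hpeq
    have h2 : q = p := (Nat.prime_dvd_prime_iff_eq hqq hpp).mp h1
    subst h2
    have htriv := trivial_of_eq hG hh hρ
    left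
    constructor
    · left
      haveI : Subsingleton G := ⟨fun a b => by rw [htriv a, htriv b]⟩
      infer_instance
    · intro v _ g _
      exact htriv g
  by_cases hA : ∃ A : Subgroup G, A.Normal ∧ IsMulCommutative A ∧ ¬ IsCyclic A
  · obtain ⟨A, hAn, hAc, hAnc⟩ := hA
    obtain ⟨z, a, hzc, hzo, ha, haz, hconj⟩ := Cfsg.Agent.S3380.exists_pair hG A hAn hAc hAnc
    by_cases hp2 : p = 2
    · subst hp2
      have h2 : (2 : ZMod q) ≠ 0 := by
        rw [← Nat.cast_ofNat (R := ZMod q)]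
        exact hpeq
      have hzz : z * z = 1 := by
        have := pow_orderOf_eq_one z
        rw [hzo, pow_two] at this
        exact this
      have haa : a * a = 1 := by
        rw [← pow_two]
        exact ha
      have ha1 : a ≠ 1 := by
        rintro rfl
        exact haz (Subgroup.one_mem _)
      have haz' : a ≠ z := by
        rintro rfl
        exact haz (Subgroup.mem_zpowers _)
      have hconj' : ∀ g, g * a = a * g ∨ g * a = a * z * g := by
        intro g
        obtain ⟨t, ht⟩ := hconj g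
        have h3 := mul_inv_eq_iff_eq_mul.mp ht
        rcases Nat.even_or_odd' t with ⟨s, rfl | rfl⟩
        · left
          rw [pow_mul, pow_two, hzz, one_pow, mul_one] at h3
          exact h3
        · right
          rw [pow_succ, pow_mul, pow_two, hzz, one_pow, one_mul] at h3
          exact h3
      have hnc : ∃ g, g * a = a * z * g := by
        by_contra hno
        push Not at hno
        have hac : ∀ g, g * a = a * g := fun g => (hconj' g).resolve_right (hno g)
        have hao : orderOf a = 2 := by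
          apply orderOf_eq_prime ha ha1
        have hn1 := acts_neg hh hρ h2 hac hao
        have hn2 := acts_neg hh hρ h2 hzc hzo
        have h3 : a * z = 1 := by
          apply eq_one_of_fix hρ
          intro v
          rw [map_mul_apply, hn2, map_neg, hn1, neg_neg]
        apply haz'
        have h4 : a = z⁻¹ := eq_inv_of_mul_eq_one_left h3
        rw [h4]
        exact inv_eq_of_mul_eq_one_left hzz
      have S : Setup ρ z a :=
        { hh := hh, hρ := hρ, h2 := h2, hzc := hzc, hzo := hzo, ha := haa, ha1 := ha1, haz := haz',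
          hconj := hconj', hnc := hnc }
      rcases two_main hG S with h | ⟨h1, h3⟩
      · right; right; left
        exact h
      · right; right; right
        exact ⟨h1, h3, rfl⟩
    · exfalso
      have hz1 : z ^ p = 1 := by rw [← hzo]; exact pow_orderOf_eq_one z
      have hodd : (2 : ZMod p) ≠ 0 := by
        intro h
        rw [← Nat.cast_ofNat (R := ZMod p)] at h
        have h1 := (ZMod.natCast_eq_zero_iff 2 p).mp h
        exact hp2 ((Nat.prime_dvd_prime_iff_eq hpp Nat.prime_two).mp h1)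
      apply odd_contra ρ hh hρ hpeq hodd z a hzc hzo ha haz
      intro g
      obtain ⟨t, ht⟩ := hconj g
      exact ⟨(t : ZMod p), by rw [ht, Cfsg.Agent.S3380.pw_natCast hz1]⟩
  · push Not at hA
    by_cases hm : ∃ B : Subgroup G, IsMulCommutative B ∧ ¬ IsCyclic B
    · obtain ⟨rfl, h⟩ := Cfsg.Agent.S0519.result p hG hA hm
      have h2 : (2 : ZMod q) ≠ 0 := by
        rw [← Nat.cast_ofNat (R := ZMod q)]
        exact hpeq
      rcases h with ⟨n, ⟨e⟩⟩ | ⟨n, hn, ⟨e⟩⟩ | h
      · left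
        exact ⟨Or.inr ⟨n, ⟨e⟩⟩, semireg_of_unique hG hh hρ hpeq (quat_unique e)⟩
      · right; left
        obtain ⟨h1, m, h3, h4⟩ := dih_case hh hρ h2 hG hn e
        exact ⟨h1, m, h3, Or.inl h4⟩
      · right; left
        obtain ⟨h1, m, h3, h4, h5⟩ := sd_case hh hρ h2 h
        exact ⟨h1, m, h3, Or.inr ⟨h4, h5⟩⟩
    · push Not at hm
      have hU := Cfsg.Agent.S3380.unique_sub hG hm
      have hsemi := semireg_of_unique hG hh hρ hpeq hU
      left
      rcases Cfsg.Agent.Lib.UniqueSub.main p hG hU with h | ⟨-, n, he⟩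
      · exact ⟨Or.inl h, hsemi⟩
      · exact ⟨Or.inr ⟨_, he⟩, hsemi⟩

end Cfsg.Agent.S3371
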