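import Mathlib
import Cfsg.Statements.S3360
import Cfsg.Agent.S0519
import Cfsg.Agent.S3370
import Cfsg.Agent.S3371
import Cfsg.Agent.S3380
import Cfsg.Agent.S3382
import Cfsg.Agent.Lib.TransLin
import Cfsg.Agent.Lib.PCore
import Cfsg.Agent.Lib.UniqueSub
import Cfsg.Agent.Lib.Q8Aut

set_option autoImplicit false
set_option linter.style.haveILetI false
set_option linter.unusedSectionVars false
open Cfsg

namespace Cfsg.Agent.S3360

open Cfsg.Agent.S3370 (stab mem_stab act eq_one_of_fix)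
open Cfsg.Agent.S3380 (fixS mem_fixS map_mul_apply map_one_apply pow_fix)
open Cfsg.Agent.S3371 (Half half_of central_fpf)
open Cfsg.Agent.Lib.TransLin
open Cfsg.Agent.Lib.PCore
open Cfsg.Agent.Lib.Q8Aut (Q8)

section Prelim

variable {q : ℕ} [hq : Fact q.Prime] {V : Type*} [AddCommGroup V] [Module (ZMod q) V]
  {G : Type*} [Group G]

/-- Normal subgroups are half-transitive. -/
theorem half_normal [Finite V] [Finite G] (ρ : G →* (V ≃ₗ[ZMod q] V))
    (htrans : ∀ v w : V, v ≠ 0 → w ≠ 0 → ∃ g : G, ρ g v = w) (N : Subgroup G) [hN : N.Normal] :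
    ∀ v w : V, v ≠ 0 → w ≠ 0 → Nat.card {u : V | ∃ g : N, (ρ.comp N.subtype) g v = u} =
      Nat.card {u : V | ∃ g : N, (ρ.comp N.subtype) g w = u} := by
  have key : ∀ v w : V, v ≠ 0 → w ≠ 0 → Nat.card {u : V | ∃ g : N, (ρ.comp N.subtype) g v = u} ≤
      Nat.card {u : V | ∃ g : N, (ρ.comp N.subtype) g w = u} := by
    intro v w hv hw
    obtain ⟨g, hg⟩ := htrans v w hv hw
    have hmem : ∀ u : {u : V | ∃ g : N, (ρ.comp N.subtype) g v = u},
        ρ g u ∈ {u : V | ∃ g : N, (ρ.comp N.subtype) g w = u} := by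
      rintro ⟨_, n, rfl⟩
      refine ⟨⟨g * n * g⁻¹, hN.conj_mem _ n.2 g⟩, ?_⟩
      simp only [MonoidHom.comp_apply, Subgroup.subtype_apply]
      rw [← hg, ← map_mul_apply, inv_mul_cancel_right, map_mul_apply]
    apply Nat.card_le_card_of_injective
      (fun u : {u : V | ∃ g : N, (ρ.comp N.subtype) g v = u} => (⟨ρ g u, hmem u⟩ :
      {u : V | ∃ g : N, (ρ.comp N.subtype) g w = u}))
    intro u u' h
    have h1 : ρ g u = ρ g u' := congrArg Subtype.val h
    exact Subtype.ext ((ρ g).injective h1)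
  intro v w hv hw
  exact le_antisymm (key v w hv hw) (key w v hw hv)

/-- Half-transitive groups of odd prime power order are cyclic. -/
theorem cyc_odd {T : Type*} [Group T] [Finite T] [Finite V] [Nontrivial V] {p : ℕ} [hp : Fact p.Prime]
    (hp2 : p ≠ 2) (hT : IsPGroup p T) (ρ : T →* (V ≃ₗ[ZMod q] V))
    (hh : Half ρ) (hρ : Function.Injective ρ) : IsCyclic T := by
  classical
  have hpp : p.Prime := Fact.out
  have hqq : q.Prime := Fact.out
  by_cases hpeq : (p : ZMod q) = 0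
  · have h1 : q ∣ p := (ZMod.natCast_eq_zero_iff p q).mp hpeq
    have h2 : q = p := (Nat.prime_dvd_prime_iff_eq hqq hpp).mp h1
    subst h2
    have htriv := Cfsg.Agent.S3371.trivial_of_eq hT hh hρ
    haveI : Subsingleton T := ⟨fun a b => by rw [htriv a, htriv b]⟩
    infer_instance
  by_cases hA : ∃ A : Subgroup T, A.Normal ∧ IsMulCommutative A ∧ ¬ IsCyclic A
  · exfalso
    obtain ⟨A, hAn, hAc, hAnc⟩ := hA
    obtain ⟨z, a, hzc, hzo, ha, haz, hconj⟩ := Cfsg.Agent.S3380.exists_pair hT A hAn hAc hAnc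
    have hz1 : z ^ p = 1 := by rw [← hzo]; exact pow_orderOf_eq_one z
    have hodd : (2 : ZMod p) ≠ 0 := by
      intro h
      rw [← Nat.cast_ofNat (R := ZMod p)] at h
      have h1 := (ZMod.natCast_eq_zero_iff 2 p).mp h
      exact hp2 ((Nat.prime_dvd_prime_iff_eq hpp Nat.prime_two).mp h1)
    apply Cfsg.Agent.S3371.odd_contra ρ hh hρ hpeq hodd z a hzc hzo ha haz
    intro g
    obtain ⟨t, ht⟩ := hconj g
    exact ⟨(t : ZMod p), by rw [ht, Cfsg.Agent.S3380.pw_natCast hz1]⟩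
  push Not at hA
  by_cases hm : ∃ B : Subgroup T, IsMulCommutative B ∧ ¬ IsCyclic B
  · exact absurd (Cfsg.Agent.S0519.result p hT hA hm).1 hp2
  push Not at hm
  have hU := Cfsg.Agent.S3380.unique_sub hT hm
  rcases Cfsg.Agent.Lib.UniqueSub.main p hT hU with h | ⟨h, -⟩
  · exact h
  · exact absurd h hp2

theorem mem_zpowers_mul {a b : G} (hab : Commute a b) (hco : Nat.Coprime (orderOf a) (orderOf b)) :
    a ∈ Subgroup.zpowers (a * b) := by
  obtain ⟨k, hk1, hk2⟩ : ∃ k : ℕ, k ≡ 1 [MOD orderOf a] ∧ k ≡ 0 [MOD orderOf b] := by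
    have h := Nat.chineseRemainder hco 1 0
    exact ⟨h.1, h.2.1, h.2.2⟩
  have h1 : (a * b) ^ k = a := by
    rw [hab.mul_pow]
    have h2 : a ^ k = a := by
      calc a ^ k = a ^ 1 := (pow_eq_pow_iff_modEq).mpr hk1
        _ = a := pow_one a
    have h3 : b ^ k = 1 := by
      calc b ^ k = b ^ 0 := (pow_eq_pow_iff_modEq).mpr hk2
        _ = 1 := pow_zero b
    rw [h2, h3, mul_one]
  have h5 : (a * b) ^ k ∈ Subgroup.zpowers (a * b) := Subgroup.npow_mem_zpowers _ k
  rwa [h1] at h5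

theorem self_centralizing [Finite G] [Group.IsSolvable G] {c : G}
    (hc : ∀ g, g * c * g⁻¹ ∈ Subgroup.zpowers c)
    (hF : ∀ x ∈ fittingSubgroup G, x * c = c * x → x ∈ Subgroup.zpowers c) :
    Subgroup.centralizer ({c} : Set G) ≤ Subgroup.zpowers c := by
  classical
  set X := Subgroup.centralizer ({c} : Set G) with hX
  have hcc : ∀ z ∈ Subgroup.zpowers c, ∀ x ∈ X, x * z = z * x := by
    intro z hz x hx
    obtain ⟨k, rfl⟩ := Subgroup.mem_zpowers_iff.mp hz
    have h1 : Commute x c := (Subgroup.mem_centralizer_singleton_iff.mp hx)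
    exact (h1.zpow_right k).eq
  haveI hXn : X.Normal := ⟨by
    intro x hx g
    rw [hX, Subgroup.mem_centralizer_singleton_iff]
    have h1 := hc g⁻¹
    have h2 := hcc _ h1 x hx
    simp only [inv_inv] at h2
    calc g * x * g⁻¹ * c = g * (x * (g⁻¹ * c * g)) * g⁻¹ := by group
      _ = g * ((g⁻¹ * c * g) * x) * g⁻¹ := by rw [h2]
      _ = c * (g * x * g⁻¹) := by group⟩
  let D := (fittingSubgroup X).map X.subtype
  haveI : D.Normal := inferInstance
  have hDnil : Group.IsNilpotent D := by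
    have h1 : Group.IsNilpotent (fittingSubgroup X) := isNilpotent_fittingSubgroup
    exact Group.nilpotent_of_mulEquiv
      ((fittingSubgroup X).equivMapOfInjective X.subtype X.subtype_injective)
  have hDF : D ≤ fittingSubgroup G := le_fittingSubgroup inferInstance hDnil
  have hDc : D ≤ Subgroup.zpowers c := by
    rintro _ ⟨y, hy, rfl⟩
    exact hF _ (hDF ⟨y, hy, rfl⟩) (Subgroup.mem_centralizer_singleton_iff.mp y.2)
  intro x hx
  have h1 : (⟨x, hx⟩ : X) ∈ Subgroup.centralizer (fittingSubgroup X : Set X) := by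
    rw [Subgroup.mem_centralizer_iff]
    intro y hy
    apply Subtype.ext
    have h2 := hDc ⟨y, hy, rfl⟩
    exact (hcc _ h2 x hx).symm
  have h3 := centralizer_fittingSubgroup_le h1
  exact hDc ⟨_, h3, rfl⟩

/-- The odd part of the Fitting subgroup. -/
theorem exists_odd_gen [Finite G] (hodd : ∀ (p : ℕ) [Fact p.Prime], p ≠ 2 → IsCyclic (pCore p G)) :
    ∃ c' : G, Odd (orderOf c') ∧ (∀ g, g * c' * g⁻¹ ∈ Subgroup.zpowers c') ∧
      c' ∈ fittingSubgroup G ∧ fittingSubgroup G ≤ pCore 2 G ⊔ Subgroup.zpowers c' := by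
  classical
  let C' := pPrimeCore 2 G ⊓ fittingSubgroup G
  haveI hC'n : C'.Normal := inferInstance
  have hnilF : Group.IsNilpotent (fittingSubgroup G) := isNilpotent_fittingSubgroup
  have hC'nil : Group.IsNilpotent C' := by
    have hle : C' ≤ fittingSubgroup G := inf_le_right
    have h1 : Group.IsNilpotent (C'.subgroupOf (fittingSubgroup G)) := Subgroup.isNilpotent _
    exact Group.nilpotent_of_mulEquiv (Subgroup.subgroupOfEquivOfLe hle)
  have hC'odd : Nat.Coprime (Nat.card C') 2 := by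
    have h1 : Nat.card C' ∣ Nat.card (pPrimeCore 2 G) := Subgroup.card_dvd_of_le inf_le_left
    exact Nat.Coprime.coprime_dvd_left h1 (card_pPrimeCore_coprime 2)
  haveI hZ : IsZGroup C' := by
    constructor
    intro p hp P
    haveI : Fact p.Prime := ⟨hp⟩
    by_cases hp2 : p = 2
    · subst hp2
      have h1 : Nat.card P ∣ Nat.card C' := Subgroup.card_subgroup_dvd_card _
      have h2 : Nat.Coprime (Nat.card P) 2 := Nat.Coprime.coprime_dvd_left h1 hC'odd
      obtain ⟨k, hk⟩ := IsPGroup.iff_card.mp P.isPGroup'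
      have h3 : Nat.card P = 1 := by
        rw [hk] at h2 ⊢
        have h4 : k = 0 := by
          by_contra h
          have h5 := Nat.Coprime.coprime_dvd_left (dvd_pow_self 2 h) h2
          norm_num at h5
        rw [h4, pow_zero]
      haveI : Subsingleton P := (Nat.card_eq_one_iff_unique.mp h3).1
      infer_instance
    · have hPn : (P : Subgroup C').Normal :=
        ((Group.isNilpotent_of_finite_tfae (G := C')).out 0 3 rfl rfl).mp hC'nil p inferInstance P
      have hchar : (P : Subgroup C').Characteristic := Sylow.characteristic_of_normal P hPn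
      have hmapn : ((P : Subgroup C').map C'.subtype).Normal := inferInstance
      have hpG : IsPGroup p ((P : Subgroup C').map C'.subtype) := P.isPGroup'.map _
      have hle : (P : Subgroup C').map C'.subtype ≤ pCore p G := le_pCore hmapn hpG
      haveI := hodd p hp2
      have h1 : IsCyclic ((P : Subgroup C').map C'.subtype) := by
        have h2 : IsCyclic ((((P : Subgroup C').map C'.subtype).subgroupOf (pCore p G))) :=
          inferInstance
        exact (isCyclic_of_injective ((Subgroup.subgroupOfEquivOfLe hle).symm.toMonoidHom)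
          ((Subgroup.subgroupOfEquivOfLe hle).symm.injective))
      exact isCyclic_of_injective
        ((P : Subgroup C').equivMapOfInjective C'.subtype C'.subtype_injective).toMonoidHom
        ((P : Subgroup C').equivMapOfInjective C'.subtype C'.subtype_injective).injective
  haveI hcyc : IsCyclic C' := inferInstance
  obtain ⟨x, hx⟩ := IsCyclic.exists_generator (α := C')
  have hz : Subgroup.zpowers (x : G) = C' := by
    apply le_antisymm
    · rw [Subgroup.zpowers_le]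
      exact x.2
    · intro y hy
      obtain ⟨k, hk⟩ := Subgroup.mem_zpowers_iff.mp (hx ⟨y, hy⟩)
      rw [Subgroup.mem_zpowers_iff]
      exact ⟨k, by simpa using congrArg Subtype.val hk⟩
  refine ⟨x, ?_, ?_, x.2.2, ?_⟩
  · have h1 : orderOf (x : G) ∣ Nat.card C' := by
      rw [Subgroup.orderOf_coe]
      exact orderOf_dvd_natCard x
    have h2 : Nat.Coprime (orderOf (x : G)) 2 := Nat.Coprime.coprime_dvd_left h1 hC'odd
    exact Nat.coprime_two_right.mp h2
  · intro g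
    rw [hz]
    exact hC'n.conj_mem _ x.2 g
  · rw [fittingSubgroup_eq_iSup_pCore]
    refine iSup_le fun p => ?_
    haveI : Fact (p : ℕ).Prime := ⟨p.2⟩
    by_cases hp2 : (p : ℕ) = 2
    · rw [hp2]
      exact le_sup_left
    · refine le_trans ?_ le_sup_right
      rw [hz]
      exact le_inf (pCore_le_pPrimeCore hp2) (pCore_le_fittingSubgroup _)

end Prelim


section Arith

/-- The arithmetic condition. -/
def TabP (d q n B : ℕ) : Prop :=
  2 ≤ n → B % 2 = 1 → 2 * B ∣ q ^ d - 1 →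
    (q ^ d) ^ n - 1 ∣ d.factorial * 24 * (2 * B) →
    d = 1 ∧ n = 2 ∧ (q = 3 ∨ q = 5 ∨ q = 7 ∨ q = 11 ∨ q = 23)

instance (d q n B : ℕ) : Decidable (TabP d q n B) := by
  unfold TabP
  infer_instance

/-- The guarded condition. -/
def TabQ (d q : ℕ) : Prop :=
  1 ≤ d → 3 ≤ q → q % 2 = 1 → q ^ d ≤ 96 → ∀ n < 6, ∀ B < 48, TabP d q n B

instance (d q : ℕ) : Decidable (TabQ d q) := by
  unfold TabQ
  infer_instance

theorem table' : ∀ d < 5, ∀ q < 97, TabQ d q := by
  decide +kernel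

theorem table (d : ℕ) (hd5 : d < 5) (q : ℕ) (hq : q < 97) (hd : 1 ≤ d) (h3 : 3 ≤ q) (ho : q % 2 = 1)
    (h96 : q ^ d ≤ 96) (n : ℕ) (hn6 : n < 6) (hn : 2 ≤ n) (B : ℕ) (hB : B < 48) (hBo : B % 2 = 1)
    (h2 : 2 * B ∣ q ^ d - 1) (h4 : (q ^ d) ^ n - 1 ∣ d.factorial * 24 * (2 * B)) :
    d = 1 ∧ n = 2 ∧ (q = 3 ∨ q = 5 ∨ q = 7 ∨ q = 11 ∨ q = 23) :=
  table' d hd5 q hq hd h3 ho h96 n hn6 B hB hn hBo h2 h4

theorem three_pow (d : ℕ) (hd : 5 ≤ d) : 24 * d < 3 ^ d := by
  induction d, hd using Nat.le_induction with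
  | base => norm_num
  | succ k hk ih =>
    rw [pow_succ]
    omega

theorem arith {q d n r A B : ℕ} (hq3 : 3 ≤ q) (hqo : q % 2 = 1) (hd : 1 ≤ d) (hn : 2 ≤ n)
    (hr1 : 1 ≤ r) (hrd : r ≤ d) (hA : A ∣ 24) (hB : B % 2 = 1) (h2B : 2 * B ∣ q ^ d - 1)
    (hdvd : (q ^ d) ^ n - 1 ∣ r * A * (2 * B)) :
    d = 1 ∧ n = 2 ∧ (q = 3 ∨ q = 5 ∨ q = 7 ∨ q = 11 ∨ q = 23) := by
  set Q := q ^ d with hQ
  have h3d : 3 ^ d ≤ Q := Nat.pow_le_pow_left hq3 d
  have h3 : 3 ≤ Q := by
    calc 3 = 3 ^ 1 := rfl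
      _ ≤ 3 ^ d := Nat.pow_le_pow_right (by norm_num) hd
      _ ≤ Q := h3d
  have hBpos : 0 < B := by omega
  have hAle : A ≤ 24 := Nat.le_of_dvd (by norm_num) hA
  have hApos : 0 < A := Nat.pos_of_dvd_of_pos hA (by norm_num)
  have h2Ble : 2 * B ≤ Q - 1 := Nat.le_of_dvd (by omega) h2B
  have hpos : 0 < r * A * (2 * B) := by positivity
  have h1 : Q ^ n - 1 ≤ r * A * (2 * B) := Nat.le_of_dvd hpos hdvd
  have h2 : r * A * (2 * B) ≤ (24 * d) * (Q - 1) := by
    calc r * A * (2 * B) = (r * A) * (2 * B) := rfl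
      _ ≤ (d * 24) * (Q - 1) := Nat.mul_le_mul (Nat.mul_le_mul hrd hAle) h2Ble
      _ = (24 * d) * (Q - 1) := by rw [mul_comm d]
  obtain ⟨P, hP⟩ : ∃ P, Q = P + 1 := ⟨Q - 1, by omega⟩
  obtain ⟨m, hm⟩ : ∃ m, n = m + 1 := ⟨n - 1, by omega⟩
  have hm1 : 1 ≤ m := by omega
  have h4 : P * Q ^ m ≤ Q ^ n - 1 := by
    have h5 : Q ^ n = P * Q ^ m + Q ^ m := by
      rw [hm, pow_succ]
      nth_rewrite 2 [hP]
      ring
    have h6 : 1 ≤ Q ^ m := Nat.one_le_pow _ _ (by omega)
    omega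
  have h5 : Q ^ m ≤ 24 * d := by
    have hP0 : 0 < P := by omega
    have h6 : P * Q ^ m ≤ P * (24 * d) := by
      have h7 : Q - 1 = P := by omega
      rw [h7] at h2
      rw [mul_comm P (24 * d)]
      exact h4.trans (h1.trans h2)
    exact Nat.le_of_mul_le_mul_left h6 hP0
  have h6 : Q ≤ 24 * d := by
    calc Q = Q ^ 1 := (pow_one Q).symm
      _ ≤ Q ^ m := Nat.pow_le_pow_right (by omega) hm1
      _ ≤ 24 * d := h5
  have hd5 : d < 5 := by
    by_contra h
    have h7 := three_pow d (by omega)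
    omega
  have hQ96 : Q ≤ 96 := by omega
  have hqle : q ≤ Q := by
    calc q = q ^ 1 := (pow_one q).symm
      _ ≤ q ^ d := Nat.pow_le_pow_right (by omega) hd
  have hm5 : m < 5 := by
    by_contra h
    have h7 : 3 ^ 5 ≤ Q ^ m := by
      calc 3 ^ 5 ≤ 3 ^ m := Nat.pow_le_pow_right (by norm_num) (by omega)
        _ ≤ Q ^ m := Nat.pow_le_pow_left h3 m
    have h8 : (3 : ℕ) ^ 5 = 243 := by norm_num
    omega
  have hB48 : B < 48 := by omega
  refine table d hd5 q (by omega) hd hq3 hqo hQ96 n (by omega) hn B hB48 hB h2B ?_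
  refine dvd_trans hdvd ?_
  exact Nat.mul_dvd_mul (Nat.mul_dvd_mul (Nat.dvd_factorial hr1 hrd) hA) dvd_rfl


end Arith

section Main

variable {q : ℕ} [hq : Fact q.Prime] {V : Type*} [AddCommGroup V] [Module (ZMod q) V]
  {G : Type*} [Group G]

/-- The field form. -/
def FForm (ρ : G →* (V ≃ₗ[ZMod q] V)) : Prop :=
  ∃ (F : Type) (_ : Field F) (_ : Fintype F) (e : V ≃+ F),
    ∀ g : G, ∃ (a : F) (σ : F ≃+* F), ∀ v : V, e (ρ g v) = a * σ (e v)

theorem normal_zpowers {c : G} (hc : ∀ g, g * c * g⁻¹ ∈ Subgroup.zpowers c) :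
    (Subgroup.zpowers c).Normal := ⟨by
  intro n hn g
  obtain ⟨k, rfl⟩ := Subgroup.mem_zpowers_iff.mp hn
  rw [← conj_zpow]
  exact Subgroup.zpow_mem _ (hc g) k⟩

theorem comm_T [Finite G] {c' : G} (hc'odd : Odd (orderOf c'))
    (hc'n : ∀ g, g * c' * g⁻¹ ∈ Subgroup.zpowers c') :
    ∀ t ∈ pCore 2 G, ∀ w ∈ Subgroup.zpowers c', t * w = w * t := by
  have hn := normal_zpowers hc'n
  have hdisj : Disjoint (pCore 2 G) (Subgroup.zpowers c') := by
    rw [Subgroup.disjoint_def]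
    intro x hx hx'
    have h1 : orderOf x ∣ orderOf c' := orderOf_dvd_of_mem_zpowers hx'
    obtain ⟨k, hk⟩ := (IsPGroup.iff_orderOf.mp (isPGroup_pCore (G := G) 2)) ⟨x, hx⟩
    have hk' : orderOf x = 2 ^ k := by
      rw [← hk]
      exact (Subgroup.orderOf_mk x hx).symm
    have h2 : Nat.Coprime (orderOf x) 2 :=
      Nat.Coprime.coprime_dvd_left h1 (Nat.coprime_two_right.mpr hc'odd)
    have h3 : k = 0 := by
      by_contra h
      rw [hk'] at h2
      have h5 := Nat.Coprime.coprime_dvd_left (dvd_pow_self 2 h) h2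
      norm_num at h5
    rw [h3, pow_zero] at hk'
    exact orderOf_eq_one_iff.mp hk'
  intro t ht w hw
  exact Subgroup.commute_of_normal_of_disjoint _ _ inferInstance hn hdisj t w ht hw

theorem main_T [Nontrivial V] [Finite V] [Finite G] [Group.IsSolvable G] (ρ : G →* (V ≃ₗ[ZMod q] V))
    (hρ : Function.Injective ρ) (htrans : ∀ v w : V, v ≠ 0 → w ≠ 0 → ∃ g : G, ρ g v = w)
    {c' : G} (hc'odd : Odd (orderOf c')) (hc'n : ∀ g, g * c' * g⁻¹ ∈ Subgroup.zpowers c')
    (hF : fittingSubgroup G ≤ pCore 2 G ⊔ Subgroup.zpowers c') {t₀ : G} (ht₀ : t₀ ∈ pCore 2 G)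
    (h1 : ∀ g, g * t₀ * g⁻¹ ∈ Subgroup.zpowers t₀)
    (h2 : ∀ t ∈ pCore 2 G, t * t₀ = t₀ * t → t ∈ Subgroup.zpowers t₀) : FForm ρ := by
  classical
  have hcomm := comm_T hc'odd hc'n
  haveI hn := normal_zpowers hc'n
  have hcm : Commute t₀ c' := hcomm t₀ ht₀ c' (Subgroup.mem_zpowers c')
  obtain ⟨k, hk⟩ := (IsPGroup.iff_orderOf.mp (isPGroup_pCore (G := G) 2)) ⟨t₀, ht₀⟩
  have hk' : orderOf t₀ = 2 ^ k := by
    rw [← hk]
    exact (Subgroup.orderOf_mk t₀ ht₀).symm
  have hco : Nat.Coprime (orderOf t₀) (orderOf c') := by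
    rw [hk']
    exact Nat.Coprime.pow_left k (Nat.coprime_two_left.mpr hc'odd)
  let c := t₀ * c'
  have hc1 : t₀ ∈ Subgroup.zpowers c := mem_zpowers_mul hcm hco
  have hc2 : c' ∈ Subgroup.zpowers c := by
    have h3 := mem_zpowers_mul hcm.symm hco.symm
    rw [← hcm.eq] at h3
    exact h3
  have hz1 : Subgroup.zpowers t₀ ≤ Subgroup.zpowers c := Subgroup.zpowers_le.mpr hc1
  have hz2 : Subgroup.zpowers c' ≤ Subgroup.zpowers c := Subgroup.zpowers_le.mpr hc2
  have hcz : ∀ g, g * c * g⁻¹ ∈ Subgroup.zpowers c := by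
    intro g
    have h3 : g * c * g⁻¹ = (g * t₀ * g⁻¹) * (g * c' * g⁻¹) := by
      show g * (t₀ * c') * g⁻¹ = _
      group
    rw [h3]
    exact Subgroup.mul_mem _ (hz1 (h1 g)) (hz2 (hc'n g))
  have hself : Subgroup.centralizer ({c} : Set G) ≤ Subgroup.zpowers c := by
    apply self_centralizing hcz
    intro x hx hxc
    have hxc' : Commute x c := hxc
    obtain ⟨t, ht, w, hw, rfl⟩ := Subgroup.mem_sup_of_normal_right.mp (hF hx)
    have h3 : Commute (t * w) t₀ := by
      obtain ⟨j, hj⟩ := Subgroup.mem_zpowers_iff.mp hc1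
      rw [← hj]
      exact hxc'.zpow_right j
    have h4 : Commute w t₀ := (hcomm t₀ ht₀ w hw).symm
    have h5 : Commute t t₀ := by
      have h6 : t = (t * w) * w⁻¹ := by group
      rw [h6]
      exact h3.mul_left (h4.inv_left)
    exact Subgroup.mul_mem _ (hz1 (h2 t ht h5)) (hz2 hw)
  have hcj : ∀ g, ∃ j : ℕ, g * c * g⁻¹ = c ^ j := by
    intro g
    have hf : IsOfFinOrder c := isOfFinOrder_of_finite c
    obtain ⟨j, hj⟩ := (hf.mem_powers_iff_mem_zpowers (y := g * c * g⁻¹)).mpr (hcz g)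
    exact ⟨j, hj.symm⟩
  exact main_L ρ hρ htrans hcj hself

/-- Normality from an order condition. -/
theorem conj_mem_of_order [Finite G] {t₀ : G} (ht₀ : t₀ ∈ pCore 2 G)
    (h3 : ∀ y ∈ pCore 2 G, orderOf y = orderOf t₀ → y ∈ Subgroup.zpowers t₀) (g : G) :
    g * t₀ * g⁻¹ ∈ Subgroup.zpowers t₀ := by
  apply h3 _ ((inferInstance : (pCore 2 G).Normal).conj_mem _ ht₀ g)
  have h1 : g * t₀ * g⁻¹ = (MulAut.conj g) t₀ := rfl
  rw [h1, MulEquiv.orderOf_eq]

/-- Big quaternion groups. -/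
theorem quat_data [Finite G] {n : ℕ} (hn : 4 ≤ n) (e : pCore 2 G ≃* QuaternionGroup n) :
    ∃ t₀ ∈ pCore 2 G, (∀ y ∈ pCore 2 G, orderOf y = orderOf t₀ → y ∈ Subgroup.zpowers t₀) ∧
      ∀ t ∈ pCore 2 G, t * t₀ = t₀ * t → t ∈ Subgroup.zpowers t₀ := by
  classical
  haveI : NeZero n := ⟨by omega⟩
  haveI : NeZero (2 * n) := ⟨by omega⟩
  let t₁ := e.symm (QuaternionGroup.a 1)
  have hord : orderOf (t₁ : G) = 2 * n := by
    rw [Subgroup.orderOf_coe, MulEquiv.orderOf_eq, QuaternionGroup.orderOf_a_one]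
  have hmem : ∀ i : ZMod (2 * n), ((e.symm (QuaternionGroup.a i) : pCore 2 G) : G) ∈ Subgroup.zpowers (t₁ : G) := by
    intro i
    have h1 : (QuaternionGroup.a i : QuaternionGroup n) = QuaternionGroup.a 1 ^ i.val := by
      rw [QuaternionGroup.a_one_pow, ZMod.natCast_zmod_val]
    rw [h1, map_pow]
    exact Subgroup.npow_mem_zpowers _ _
  refine ⟨t₁, t₁.2, ?_, ?_⟩
  · intro y hy hyo
    have h1 : orderOf (e ⟨y, hy⟩) = 2 * n := by
      rw [MulEquiv.orderOf_eq, Subgroup.orderOf_mk, hyo, hord]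
    rcases hi : e ⟨y, hy⟩ with i | i
    · have h2 : (⟨y, hy⟩ : pCore 2 G) = e.symm (QuaternionGroup.a i) := by
        rw [← hi, MulEquiv.symm_apply_apply]
      have h3 : y = ((e.symm (QuaternionGroup.a i) : pCore 2 G) : G) := by
        rw [← h2]
      rw [h3]
      exact hmem i
    · exfalso
      rw [hi, QuaternionGroup.orderOf_xa] at h1
      omega
  · intro y hy hyc
    rcases hi : e ⟨y, hy⟩ with i | i
    · have h2 : (⟨y, hy⟩ : pCore 2 G) = e.symm (QuaternionGroup.a i) := by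
        rw [← hi, MulEquiv.symm_apply_apply]
      have h3 : y = ((e.symm (QuaternionGroup.a i) : pCore 2 G) : G) := by
        rw [← h2]
      rw [h3]
      exact hmem i
    · exfalso
      have h1 : (⟨y, hy⟩ : pCore 2 G) * t₁ = t₁ * ⟨y, hy⟩ := Subtype.ext hyc
      have h2 := congrArg e h1
      simp only [map_mul, t₁, MulEquiv.apply_symm_apply, hi, QuaternionGroup.xa_mul_a,
        QuaternionGroup.a_mul_xa] at h2
      have h3 := QuaternionGroup.xa.inj h2
      have h4 : (2 : ZMod (2 * n)) = 0 := by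
        linear_combination h3
      have h5 : ((2 : ℕ) : ZMod (2 * n)) = 0 := by
        rw [Nat.cast_ofNat]
        exact h4
      have h6 := (ZMod.natCast_eq_zero_iff 2 (2 * n)).mp h5
      have h7 := Nat.le_of_dvd (by norm_num) h6
      omega

/-- Dihedral groups. -/
theorem dih_data [Finite G] {m : ℕ} (hm : 2 ≤ m) (e : pCore 2 G ≃* DihedralGroup (2 ^ m)) :
    ∃ t₀ ∈ pCore 2 G, (∀ y ∈ pCore 2 G, orderOf y = orderOf t₀ → y ∈ Subgroup.zpowers t₀) ∧
      ∀ t ∈ pCore 2 G, t * t₀ = t₀ * t → t ∈ Subgroup.zpowers t₀ := by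
  classical
  have h4m : 4 ≤ 2 ^ m := by
    calc 4 = 2 ^ 2 := rfl
      _ ≤ 2 ^ m := Nat.pow_le_pow_right (by norm_num) hm
  haveI : NeZero (2 ^ m) := ⟨by omega⟩
  let t₁ := e.symm (DihedralGroup.r 1)
  have hord : orderOf (t₁ : G) = 2 ^ m := by
    rw [Subgroup.orderOf_coe, MulEquiv.orderOf_eq, DihedralGroup.orderOf_r_one]
  have hmem : ∀ i : ZMod (2 ^ m), ((e.symm (DihedralGroup.r i) : pCore 2 G) : G) ∈ Subgroup.zpowers (t₁ : G) := by
    intro i
    have h1 : (DihedralGroup.r i : DihedralGroup (2 ^ m)) = DihedralGroup.r 1 ^ i.val := by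
      rw [DihedralGroup.r_one_pow, ZMod.natCast_zmod_val]
    rw [h1, map_pow]
    exact Subgroup.npow_mem_zpowers _ _
  refine ⟨t₁, t₁.2, ?_, ?_⟩
  · intro y hy hyo
    have h1 : orderOf (e ⟨y, hy⟩) = 2 ^ m := by
      rw [MulEquiv.orderOf_eq, Subgroup.orderOf_mk, hyo, hord]
    rcases hi : e ⟨y, hy⟩ with i | i
    · have h2 : (⟨y, hy⟩ : pCore 2 G) = e.symm (DihedralGroup.r i) := by
        rw [← hi, MulEquiv.symm_apply_apply]
      have h3 : y = ((e.symm (DihedralGroup.r i) : pCore 2 G) : G) := by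
        rw [← h2]
      rw [h3]
      exact hmem i
    · exfalso
      rw [hi, DihedralGroup.orderOf_sr] at h1
      omega
  · intro y hy hyc
    rcases hi : e ⟨y, hy⟩ with i | i
    · have h2 : (⟨y, hy⟩ : pCore 2 G) = e.symm (DihedralGroup.r i) := by
        rw [← hi, MulEquiv.symm_apply_apply]
      have h3 : y = ((e.symm (DihedralGroup.r i) : pCore 2 G) : G) := by
        rw [← h2]
      rw [h3]
      exact hmem i
    · exfalso
      have h1 : (⟨y, hy⟩ : pCore 2 G) * t₁ = t₁ * ⟨y, hy⟩ := Subtype.ext hyc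
      have h2 := congrArg e h1
      simp only [map_mul, t₁, MulEquiv.apply_symm_apply, hi, DihedralGroup.sr_mul_r,
        DihedralGroup.r_mul_sr] at h2
      have h3 := DihedralGroup.sr.inj h2
      have h4 : (2 : ZMod (2 ^ m)) = 0 := by
        linear_combination h3
      have h5 : ((2 : ℕ) : ZMod (2 ^ m)) = 0 := by
        rw [Nat.cast_ofNat]
        exact h4
      have h6 := (ZMod.natCast_eq_zero_iff 2 (2 ^ m)).mp h5
      have h7 := Nat.le_of_dvd (by norm_num) h6
      omega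

/-- Semidihedral groups. -/
theorem sd_data [Finite G] (hsd : Cfsg.IsQuasiDihedral (pCore 2 G)) :
    ∃ t₀ ∈ pCore 2 G, (∀ y ∈ pCore 2 G, orderOf y = orderOf t₀ → y ∈ Subgroup.zpowers t₀) ∧
      ∀ t ∈ pCore 2 G, t * t₀ = t₀ * t → t ∈ Subgroup.zpowers t₀ := by
  classical
  obtain ⟨n, hn, hc, x, y, hx, hy, hconj⟩ := hsd
  have hyy : y * y = 1 := by
    have := pow_orderOf_eq_one y
    rw [hy, pow_two] at this
    exact this
  have hyi : y⁻¹ = y := inv_eq_of_mul_eq_one_left hyy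
  have h2n : 2 ^ n = 2 * 2 ^ (n - 1) := by
    rw [← pow_succ']
    congr 1
    omega
  have h2n1 : 2 ^ (n - 1) = 2 * 2 ^ (n - 2) := by
    rw [← pow_succ']
    congr 1
    omega
  have h2n2 : 2 ≤ 2 ^ (n - 2) := by
    calc 2 = 2 ^ 1 := rfl
      _ ≤ 2 ^ (n - 2) := Nat.pow_le_pow_right (by norm_num) (by omega)
  have hcomm : ¬ Commute y x := by
    intro h
    have h1 : y * x * y⁻¹ = x := by rw [h.eq, mul_inv_cancel_right]
    rw [h1] at hconj
    have h3 : x ^ (2 ^ (n - 1) - 2) = 1 := by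
      have h4 : x * x ^ (2 ^ (n - 1) - 2) = x ^ (2 ^ (n - 1) - 1) := by
        rw [← pow_succ']
        congr 1
        omega
      rw [← hconj] at h4
      exact mul_eq_left.mp h4
    have h4 := orderOf_dvd_of_pow_eq_one h3
    rw [hx] at h4
    have h5 := Nat.le_of_dvd (by omega) h4
    omega
  have hyx : y ∉ Subgroup.zpowers x := by
    intro h
    obtain ⟨i, rfl⟩ := Subgroup.mem_zpowers_iff.mp h
    exact hcomm ((Commute.refl x).zpow_left i)
  have hAcard : Nat.card (Subgroup.zpowers x) = 2 ^ n := by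
    rw [Nat.card_zpowers, hx]
  have hAidx : (Subgroup.zpowers x).index = 2 := by
    have h1 := Subgroup.card_mul_index (Subgroup.zpowers x)
    rw [hAcard, hc, pow_succ] at h1
    exact Nat.eq_of_mul_eq_mul_left (pow_pos (by norm_num) n) h1
  have hform : ∀ τ : pCore 2 G, τ ∉ Subgroup.zpowers x → ∃ i : ℕ, τ = x ^ i * y := by
    intro τ hτ
    have h1 : τ * y ∈ Subgroup.zpowers x := by
      rw [Subgroup.mul_mem_iff_of_index_two hAidx]
      exact iff_of_false hτ hyx
    have hf : IsOfFinOrder x := isOfFinOrder_of_finite x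
    obtain ⟨i, hi⟩ := (hf.mem_powers_iff_mem_zpowers (y := τ * y)).mpr h1
    refine ⟨i, ?_⟩
    have hi' : x ^ i = τ * y := hi
    rw [hi', mul_assoc, hyy, mul_one]
  have hconjp : ∀ i : ℕ, y * x ^ i * y⁻¹ = x ^ ((2 ^ (n - 1) - 1) * i) := by
    intro i
    rw [← conj_pow, hconj, ← pow_mul]
  have hsq : ∀ i : ℕ, (x ^ i * y) * (x ^ i * y) = x ^ (i * 2 ^ (n - 1)) := by
    intro i
    have h1 := hconjp i
    have h2 : y * x ^ i = x ^ ((2 ^ (n - 1) - 1) * i) * y := mul_inv_eq_iff_eq_mul.mp h1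
    calc (x ^ i * y) * (x ^ i * y) = x ^ i * (y * x ^ i) * y := by group
      _ = x ^ i * (x ^ ((2 ^ (n - 1) - 1) * i) * y) * y := by rw [h2]
      _ = x ^ i * x ^ ((2 ^ (n - 1) - 1) * i) * (y * y) := by group
      _ = x ^ (i * 2 ^ (n - 1)) := by
          rw [hyy, mul_one, ← pow_add]
          congr 1
          have h5 : (2 ^ (n - 1) - 1) + 1 = 2 ^ (n - 1) := by omega
          calc i + (2 ^ (n - 1) - 1) * i = ((2 ^ (n - 1) - 1) + 1) * i := by ring
            _ = i * 2 ^ (n - 1) := by rw [h5, mul_comm]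
  have hx1 : x ^ 2 ^ n = 1 := by rw [← hx]; exact pow_orderOf_eq_one x
  have hfour : ∀ τ : pCore 2 G, τ ∉ Subgroup.zpowers x → τ ^ 4 = 1 := by
    intro τ hτ
    obtain ⟨i, rfl⟩ := hform τ hτ
    have h1 : (x ^ i * y) ^ 4 = ((x ^ i * y) * (x ^ i * y)) * ((x ^ i * y) * (x ^ i * y)) := by
      simp only [pow_succ, pow_zero, one_mul, mul_assoc]
    rw [h1, hsq, ← pow_add]
    have h2 : i * 2 ^ (n - 1) + i * 2 ^ (n - 1) = 2 ^ n * i := by
      rw [h2n]
      ring
    rw [h2, pow_mul, hx1, one_pow]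
  have h8n : 8 ≤ 2 ^ n := by
    calc 8 = 2 ^ 3 := rfl
      _ ≤ 2 ^ n := Nat.pow_le_pow_right (by norm_num) hn
  have hcoe : ∀ (τ : pCore 2 G), τ ∈ Subgroup.zpowers x → (τ : G) ∈ Subgroup.zpowers (x : G) := by
    intro τ hτ
    obtain ⟨k, rfl⟩ := Subgroup.mem_zpowers_iff.mp hτ
    rw [Subgroup.mem_zpowers_iff]
    exact ⟨k, by simp⟩
  refine ⟨x, x.2, ?_, ?_⟩
  · intro y' hy' hyo
    apply hcoe ⟨y', hy'⟩
    by_contra hne
    have h1 := hfour ⟨y', hy'⟩ hne
    have h2 : orderOf (⟨y', hy'⟩ : pCore 2 G) ∣ 4 := orderOf_dvd_of_pow_eq_one h1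
    rw [Subgroup.orderOf_mk, hyo, Subgroup.orderOf_coe, hx] at h2
    have h3 := Nat.le_of_dvd (by norm_num) h2
    omega
  · intro t ht htc
    apply hcoe ⟨t, ht⟩
    by_contra hne
    obtain ⟨i, hi⟩ := hform ⟨t, ht⟩ hne
    have h1 : (⟨t, ht⟩ : pCore 2 G) * x = x * ⟨t, ht⟩ := Subtype.ext htc
    rw [hi] at h1
    apply hcomm
    have h2 : x ^ i * y * x = x * (x ^ i * y) := h1
    have h3 : y * x = x * y := by
      have h4 : x ^ i * (y * x) = x ^ i * (x * y) := by
        calc x ^ i * (y * x) = x ^ i * y * x := by group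
          _ = x * (x ^ i * y) := h2
          _ = x * x ^ i * y := by group
          _ = x ^ i * x * y := by rw [(Commute.refl x).pow_right i |>.eq]
          _ = x ^ i * (x * y) := by group
      exact mul_left_cancel h4
    exact h3


/-- The group acts on coordinates. -/
noncomputable def coordHom (ρ : G →* (V ≃ₗ[ZMod q] V)) (e : V ≃ₗ[ZMod q] (Fin 2 → ZMod q)) :
    G →* ((Fin 2 → ZMod q) ≃ₗ[ZMod q] (Fin 2 → ZMod q)) where
  toFun g := e.symm.trans ((ρ g).trans e)
  map_one' := by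
    ext v
    simp
  map_mul' g h := by
    apply LinearEquiv.ext
    intro v
    simp

theorem c_case [Finite V] [Nontrivial V] [Finite G] (ρ : G →* (V ≃ₗ[ZMod q] V))
    (hρ : Function.Injective ρ) (htrans : ∀ v w : V, v ≠ 0 → w ≠ 0 → ∃ g : G, ρ g v = w)
    {m : ℕ} (hm : q = 2 ^ m + 1) (hq2 : q ≠ 2) (hq3 : q ≠ 3) (hq5 : q ≠ 5)
    (hV : Nat.card V = q ^ 2)
    (e : V ≃ₗ[ZMod q] (Fin 2 → ZMod q))
    (he : ∀ f : (Fin 2 → ZMod q) ≃ₗ[ZMod q] (Fin 2 → ZMod q),
        (∃ g : pCore 2 G, f = e.symm.trans (((ρ.comp (pCore 2 G).subtype) g).trans e)) ↔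
        ∃ a s : ZMod q, a ≠ 0 ∧ (s = 1 ∨ s = -1) ∧
          ((∀ v, f v = ![a * v 0, s * a⁻¹ * v 1]) ∨ (∀ v, f v = ![s * a⁻¹ * v 1, a * v 0]))) :
    False := by
  classical
  have hqq : q.Prime := Fact.out
  let Φ := coordHom ρ e
  have hΦ : ∀ g v, Φ g v = e (ρ g (e.symm v)) := fun _ _ => rfl
  have hΦinj : Function.Injective Φ := by
    intro g h hgh
    apply hρ
    apply LinearEquiv.ext
    intro v
    have h1 := congrArg (fun f => f (e v)) hgh
    simp only [hΦ, LinearEquiv.symm_apply_apply] at h1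
    exact e.injective h1
  -- the group of coordinates
  let T₁ : Subgroup ((Fin 2 → ZMod q) ≃ₗ[ZMod q] (Fin 2 → ZMod q)) := (pCore 2 G).map Φ
  have hT₁ : ∀ f, f ∈ T₁ ↔ ∃ a s : ZMod q, a ≠ 0 ∧ (s = 1 ∨ s = -1) ∧
      ((∀ v, f v = ![a * v 0, s * a⁻¹ * v 1]) ∨ (∀ v, f v = ![s * a⁻¹ * v 1, a * v 0])) := by
    intro f
    rw [← he f]
    constructor
    · rintro ⟨g, hg, rfl⟩
      exact ⟨⟨g, hg⟩, rfl⟩
    · rintro ⟨g, rfl⟩
      exact ⟨g, g.2, rfl⟩
  have hP := Cfsg.Agent.S3382.result q m hm hq5 T₁ hT₁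
  let eT : pCore 2 G ≃* T₁ := (pCore 2 G).equivMapOfInjective Φ hΦinj
  have hP' : IsPGroup 2 (MulAut (pCore 2 G)) := hP.of_equiv (MulAut.congr eT.symm)
  -- an element of order three
  have h3q : q % 3 = 1 ∨ q % 3 = 2 := by
    have h1 : ¬ 3 ∣ q := by
      intro h
      exact hq3 ((Nat.prime_dvd_prime_iff_eq Nat.prime_three hqq).mp h).symm
    omega
  have hsq : q ^ 2 % 3 = 1 := by
    rw [Nat.pow_mod]
    rcases h3q with h | h <;> rw [h]
  have h3 : 3 ∣ Nat.card G := by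
    obtain ⟨v₀, hv₀⟩ := exists_ne (0 : V)
    rw [Cfsg.Agent.S3370.card_formula ρ htrans v₀ hv₀, hV]
    apply Dvd.dvd.mul_right
    omega
  haveI : Fact (Nat.Prime 3) := ⟨Nat.prime_three⟩
  obtain ⟨y, hy⟩ := exists_prime_orderOf_dvd_card' 3 h3
  have hy3 : y ^ 3 = 1 := by rw [← hy]; exact pow_orderOf_eq_one y
  have hy1 : y ≠ 1 := by
    rintro rfl
    rw [orderOf_one] at hy
    omega
  -- `y` centralizes the group
  have hcen : ∀ t ∈ pCore 2 G, y * t * y⁻¹ = t := by
    intro t ht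
    let θ : G →* MulAut (pCore 2 G) := MulAut.conjNormal
    obtain ⟨k, hk⟩ := IsPGroup.iff_orderOf.mp hP' (θ y)
    have h4 : orderOf (θ y) ∣ 3 := by
      apply orderOf_dvd_of_pow_eq_one
      rw [← map_pow, hy3, map_one]
    have h5 : orderOf (θ y) = 1 := by
      rw [hk] at h4 ⊢
      rcases k with _ | k
      · rfl
      · exfalso
        have h6 : 2 ∣ 3 := (dvd_pow_self 2 (Nat.succ_ne_zero k)).trans h4
        omega
    have h6 : θ y = 1 := orderOf_eq_one_iff.mp h5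
    have h7 : θ y ⟨t, ht⟩ = ⟨t, ht⟩ := by rw [h6]; rfl
    have h8 := congrArg Subtype.val h7
    simpa [θ, MulAut.conjNormal_apply] using h8
  have h2' : (2 : ZMod q) ≠ 0 := by
    intro h
    have h1 : ((2 : ℕ) : ZMod q) = 0 := by
      rw [Nat.cast_ofNat]
      exact h
    have h5 := (ZMod.natCast_eq_zero_iff 2 q).mp h1
    exact hq2 ((Nat.prime_dvd_prime_iff_eq hqq Nat.prime_two).mp h5)
  have h3' : (3 : ZMod q) ≠ 0 := by
    intro h
    have h1 : ((3 : ℕ) : ZMod q) = 0 := by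
      rw [Nat.cast_ofNat]
      exact h
    have h5 := (ZMod.natCast_eq_zero_iff 3 q).mp h1
    exact hq3 ((Nat.prime_dvd_prime_iff_eq hqq Nat.prime_three).mp h5)
  set u := Φ y with hu
  have hcomm : ∀ t ∈ pCore 2 G, u * Φ t = Φ t * u := by
    intro t ht
    rw [hu, ← map_mul, ← map_mul]
    congr 1
    have h1 := hcen t ht
    exact mul_inv_eq_iff_eq_mul.mp h1
  -- the special maps
  have h1ne : (1 : ZMod q) ≠ 0 := one_ne_zero
  obtain ⟨t₁, ht₁⟩ := (he (Cfsg.Agent.S3382.mkD 2 1 h2' h1ne)).mpr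
    ⟨2, 1, h2', Or.inl rfl, Or.inl (Cfsg.Agent.S3382.isD_mkD 2 1 h2' h1ne)⟩
  obtain ⟨t₂, ht₂⟩ := (he (Cfsg.Agent.S3382.mkW 1 1 h1ne h1ne)).mpr
    ⟨1, 1, h1ne, Or.inl rfl, Or.inr (Cfsg.Agent.S3382.isW_mkW 1 1 h1ne h1ne)⟩
  have hcD : ∀ v, u (![2 * v 0, 1 * 2⁻¹ * v 1]) = ![2 * u v 0, 1 * 2⁻¹ * u v 1] := by
    intro v
    have h1 := hcomm t₁ t₁.2
    have h2 : Φ t₁ = Cfsg.Agent.S3382.mkD 2 1 h2' h1ne := ht₁.symm
    rw [h2] at h1
    have h4 := congrArg (fun f => f v) h1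
    exact h4
  have hcW : ∀ v, u (![1 * 1⁻¹ * v 1, 1 * v 0]) = ![1 * 1⁻¹ * u v 1, 1 * u v 0] := by
    intro v
    have h1 := hcomm t₂ t₂.2
    have h2 : Φ t₂ = Cfsg.Agent.S3382.mkW 1 1 h1ne h1ne := ht₂.symm
    rw [h2] at h1
    have h4 := congrArg (fun f => f v) h1
    exact h4
  -- computing `u`
  set α := u ![1, 0] 0 with hα
  have hβ : u ![1, 0] 1 = 0 := by
    have h1 := hcD ![1, 0]
    have h2 : (![2 * (![1, 0] : Fin 2 → ZMod q) 0, 1 * 2⁻¹ * (![1, 0] : Fin 2 → ZMod q) 1] : Fin 2 → ZMod q)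
        = (2 : ZMod q) • ![1, 0] := by
      ext i
      fin_cases i <;> simp
    rw [h2, map_smul] at h1
    have h4 := congrFun h1 1
    simp only [Pi.smul_apply, smul_eq_mul, Matrix.cons_val_one, Matrix.cons_val_fin_one] at h4
    have h5 : (3 : ZMod q) * u ![1, 0] 1 = 0 := by
      have h6 : (2 : ZMod q) * 2⁻¹ = 1 := mul_inv_cancel₀ h2'
      have h7 : (2 : ZMod q) * ((2 : ZMod q) * u ![1, 0] 1) = 2 * (1 * 2⁻¹ * u ![1, 0] 1) := by rw [h4]
      have h8 : 2 * (1 * 2⁻¹ * u ![1, 0] 1) = (2 * 2⁻¹) * u ![1, 0] 1 := by ring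
      rw [h8, h6] at h7
      linear_combination h7
    exact (mul_eq_zero.mp h5).resolve_left h3'
  have he1 : u ![1, 0] = ![α, 0] := by
    ext i
    fin_cases i
    · rfl
    · exact hβ
  have he2 : u ![0, 1] = ![0, α] := by
    have h1 := hcW ![1, 0]
    have h2 : (![1 * 1⁻¹ * (![1, 0] : Fin 2 → ZMod q) 1, 1 * (![1, 0] : Fin 2 → ZMod q) 0] : Fin 2 → ZMod q)
        = ![0, 1] := by
      ext i
      fin_cases i <;> simp
    rw [h2, he1] at h1
    rw [h1]
    ext i
    fin_cases i <;> simp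
  have huv : ∀ v, u v = α • v := by
    intro v
    have h1 : v = v 0 • ![1, 0] + v 1 • ![0, 1] := by
      ext i
      fin_cases i <;> simp
    rw [h1, map_add, map_smul, map_smul, he1, he2]
    ext i
    fin_cases i <;> simp [mul_comm]
  have hα0 : α ≠ 0 := by
    intro h
    have h1 := huv ![1, 0]
    rw [h, zero_smul] at h1
    have h2 : (![1, 0] : Fin 2 → ZMod q) = 0 := u.injective (by rw [h1, map_zero])
    have h4 := congrFun h2 0
    simp at h4
  have hα3 : α ^ 3 = 1 := by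
    have h1 : u ^ 3 = 1 := by
      rw [hu, ← map_pow, hy3, map_one]
    have h2 : ∀ (n : ℕ) v, (u ^ n) v = α ^ n • v := by
      intro n
      induction n with
      | zero => simp
      | succ n ih =>
        intro v
        rw [pow_succ, LinearEquiv.mul_apply, huv, map_smul, ih, smul_smul, pow_succ, mul_comm]
    have h4 := h2 3 ![1, 0]
    rw [h1] at h4
    have h5 := congrFun h4 0
    simpa using h5.symm
  have hαq : α ^ 2 ^ m = 1 := by
    have h1 := ZMod.pow_card_sub_one_eq_one hα0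
    have h9 : q - 1 = 2 ^ m := by omega
    rwa [h9] at h1
  have hαo : orderOf α = 1 := by
    have h4 : orderOf α ∣ 3 := orderOf_dvd_of_pow_eq_one hα3
    have h5 : orderOf α ∣ 2 ^ m := orderOf_dvd_of_pow_eq_one hαq
    have h6 : Nat.Coprime 3 (2 ^ m) := Nat.Coprime.pow_right m (by norm_num)
    exact Nat.eq_one_of_dvd_coprimes h6 h4 h5
  have hα1 : α = 1 := orderOf_eq_one_iff.mp hαo
  apply hy1
  apply hΦinj
  rw [map_one, ← hu]
  apply LinearEquiv.ext
  intro v
  rw [huv, hα1, one_smul]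
  rfl


/-- The case of a normal `Q8`. -/
theorem q8_core [Nontrivial V] [Finite V] [Finite G] [Group.IsSolvable G] (ρ : G →* (V ≃ₗ[ZMod q] V))
    (hρ : Function.Injective ρ) (htrans : ∀ v w : V, v ≠ 0 → w ≠ 0 → ∃ g : G, ρ g v = w)
    {c' : G} (hc'odd : Odd (orderOf c')) (hc'n : ∀ g, g * c' * g⁻¹ ∈ Subgroup.zpowers c')
    (hF : fittingSubgroup G ≤ pCore 2 G ⊔ Subgroup.zpowers c') (e : pCore 2 G ≃* Q8) :
    FForm ρ ∨ ((q = 3 ∨ q = 5 ∨ q = 7 ∨ q = 11 ∨ q = 23) ∧ Nat.card V = q ^ 2 ∧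
      (∀ g, g * c' = c' * g) ∧ 2 * orderOf c' ∣ q - 1 ∧
      ∀ x : G, (∀ t ∈ pCore 2 G, x * t = t * x) →
        x ∈ Subgroup.zpowers (((e.symm (QuaternionGroup.a 2) : pCore 2 G) : G) * c')) := by
  classical
  have hqq : q.Prime := Fact.out
  haveI : Fact (Nat.Prime 2) := ⟨Nat.prime_two⟩
  have hT2 : IsPGroup 2 (pCore 2 G) := isPGroup_pCore 2
  have hh : Half (ρ.comp (pCore 2 G).subtype) := half_of _ (half_normal ρ htrans (pCore 2 G))
  have hinjT : Function.Injective (ρ.comp (pCore 2 G).subtype) :=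
    hρ.comp (pCore 2 G).subtype_injective
  have hq2 : q ≠ 2 := by
    intro hq2
    subst hq2
    have h := Cfsg.Agent.S3371.trivial_of_eq hT2 hh hinjT (e.symm (QuaternionGroup.a 1))
    have h2 : e.symm (QuaternionGroup.a 1) = e.symm 1 := by rw [h, map_one]
    have h3 := e.symm.injective h2
    exact absurd h3 (by decide +kernel)
  have hzT : ((e.symm (QuaternionGroup.a 2) : pCore 2 G) : G) ∈ pCore 2 G := Subtype.property _
  set z : G := ((e.symm (QuaternionGroup.a 2) : pCore 2 G) : G) with hz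
  have hzo : orderOf z = 2 := by
    rw [hz, Subgroup.orderOf_coe, MulEquiv.orderOf_eq, Cfsg.Agent.Lib.Q8Aut.orderOf_a2]
  have hzc : ∀ g, g * z = z * g := by
    intro g
    have h1 : g * z * g⁻¹ ∈ pCore 2 G := (inferInstance : (pCore 2 G).Normal).conj_mem _ hzT g
    have h2 : (⟨g * z * g⁻¹, h1⟩ : pCore 2 G) ^ 2 = 1 := by
      apply Subtype.ext
      show (g * z * g⁻¹) ^ 2 = 1
      rw [conj_pow, ← hzo, pow_orderOf_eq_one, mul_one, mul_inv_cancel]
    have h3 : e ⟨g * z * g⁻¹, h1⟩ ^ 2 = 1 := by rw [← map_pow, h2, map_one]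
    rcases (Cfsg.Agent.Lib.Q8Aut.sq_eq_one _).mp h3 with h4 | h4
    · exfalso
      have h5 : (⟨g * z * g⁻¹, h1⟩ : pCore 2 G) = 1 := by
        apply e.injective
        rw [h4, map_one]
      have h6 : g * z * g⁻¹ = 1 := congrArg Subtype.val h5
      have h7 : z = 1 := by
        have h8 : g⁻¹ * (g * z * g⁻¹) * g = g⁻¹ * 1 * g := by rw [h6]
        simpa [mul_assoc] using h8
      rw [h7, orderOf_one] at hzo
      omega
    · have h5 : (⟨g * z * g⁻¹, h1⟩ : pCore 2 G) = e.symm (QuaternionGroup.a 2) := by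
        rw [← h4, MulEquiv.symm_apply_apply]
      have h6 : g * z * g⁻¹ = z := congrArg Subtype.val h5
      exact mul_inv_eq_iff_eq_mul.mp h6
  have hcomm := comm_T hc'odd hc'n
  haveI hn' := normal_zpowers hc'n
  have hcm : Commute z c' := (hzc c').symm
  have hco : Nat.Coprime (orderOf z) (orderOf c') := by
    rw [hzo]
    exact Nat.coprime_two_left.mpr hc'odd
  set c := z * c' with hc
  have hordc : orderOf c = 2 * orderOf c' := by
    rw [hc, hcm.orderOf_mul_eq_mul_orderOf_of_coprime hco, hzo]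
  have hc1 : z ∈ Subgroup.zpowers c := mem_zpowers_mul hcm hco
  have hc2 : c' ∈ Subgroup.zpowers c := by
    have h3 := mem_zpowers_mul hcm.symm hco.symm
    rw [← hcm.eq] at h3
    exact h3
  have hz1 : Subgroup.zpowers z ≤ Subgroup.zpowers c := Subgroup.zpowers_le.mpr hc1
  have hz2 : Subgroup.zpowers c' ≤ Subgroup.zpowers c := Subgroup.zpowers_le.mpr hc2
  have hcz : ∀ g, g * c * g⁻¹ ∈ Subgroup.zpowers c := by
    intro g
    have h3 : g * c * g⁻¹ = z * (g * c' * g⁻¹) := by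
      rw [hc, ← mul_assoc g z c', hzc g]
      group
    rw [h3]
    exact Subgroup.mul_mem _ hc1 (hz2 (hc'n g))
  have hcj : ∀ g, ∃ j : ℕ, g * c * g⁻¹ = c ^ j := by
    intro g
    have hf : IsOfFinOrder c := isOfFinOrder_of_finite c
    obtain ⟨j, hj⟩ := (hf.mem_powers_iff_mem_zpowers (y := g * c * g⁻¹)).mpr (hcz g)
    exact ⟨j, hj.symm⟩
  obtain ⟨F, _, _, φ, hinj, hall, hone⟩ := exists_field ρ hcj htrans
  obtain ⟨n, hn0, hn⟩ := card_eq_pow φ
  by_cases hn1 : n = 1
  · subst hn1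
    rw [pow_one] at hn
    exact Or.inl (form_of_card hinj hall hone hcj hn.symm)
  right
  obtain ⟨d, hd, hdle⟩ := index_le hρ hinj hall hone hcj
  have hord := order_dvd hρ hall (c := c)
  have hQ1 : 1 < Nat.card F := Finite.one_lt_card
  -- commuting with `T` and `c`
  have hK : ∀ x : G, (∀ t ∈ pCore 2 G, x * t = t * x) → x * c = c * x → x ∈ Subgroup.zpowers c := by
    intro x hxT hxc
    have hxc' : Commute x c := hxc
    have hxw : ∀ w ∈ Subgroup.zpowers c', Commute x w := by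
      intro w hw
      obtain ⟨j, hj⟩ := Subgroup.mem_zpowers_iff.mp (hz2 hw)
      rw [← hj]
      exact hxc'.zpow_right j
    have hxF : x ∈ Subgroup.centralizer (fittingSubgroup G : Set G) := by
      rw [Subgroup.mem_centralizer_iff]
      intro y hy
      obtain ⟨t, ht, w, hw, rfl⟩ := Subgroup.mem_sup_of_normal_right.mp (hF hy)
      have h1 : Commute x (t * w) := (Commute.mul_right (hxT t ht) (hxw w hw))
      exact h1.eq.symm
    have hxF' := centralizer_fittingSubgroup_le hxF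
    obtain ⟨t, ht, w, hw, rfl⟩ := Subgroup.mem_sup_of_normal_right.mp (hF hxF')
    have htc : ∀ s : Q8, e ⟨t, ht⟩ * s = s * e ⟨t, ht⟩ := by
      intro s
      apply e.symm.injective
      rw [map_mul, map_mul, MulEquiv.symm_apply_apply]
      apply Subtype.ext
      show t * ((e.symm s : pCore 2 G) : G) = ((e.symm s : pCore 2 G) : G) * t
      have hs : ((e.symm s : pCore 2 G) : G) ∈ pCore 2 G := Subtype.property _
      have h1 := hxT _ hs
      have h2 : Commute w ((e.symm s : pCore 2 G) : G) := (hcomm _ hs w hw).symm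
      have h3 : (t * w) * ((e.symm s : pCore 2 G) : G) = t * ((e.symm s : pCore 2 G) : G) * w := by
        rw [mul_assoc, h2.eq, mul_assoc]
      have h4 : t * ((e.symm s : pCore 2 G) : G) * w = ((e.symm s : pCore 2 G) : G) * t * w := by
        rw [← h3, h1, mul_assoc]
      exact mul_right_cancel h4
    have htz : t ∈ Subgroup.zpowers c := by
      rcases (Cfsg.Agent.Lib.Q8Aut.center_eq _).mp htc with h1 | h1
      · have h2 : (⟨t, ht⟩ : pCore 2 G) = 1 := by
          apply e.injective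
          rw [h1, map_one]
        have h3 : t = 1 := congrArg Subtype.val h2
        rw [h3]
        exact Subgroup.one_mem _
      · have h2 : (⟨t, ht⟩ : pCore 2 G) = e.symm (QuaternionGroup.a 2) := by
          rw [← h1, MulEquiv.symm_apply_apply]
        have h3 : t = z := congrArg Subtype.val h2
        rw [h3]
        exact hc1
    exact Subgroup.mul_mem _ htz (hz2 hw)
  -- counting
  let G₀ := Subgroup.centralizer ({c} : Set G)
  let θ : G₀ →* MulAut (pCore 2 G) := (MulAut.conjNormal).comp G₀.subtype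
  have hA : Nat.card θ.range ∣ 24 := by
    have h1 : Nat.card (MulAut (pCore 2 G)) = 24 := by
      rw [Nat.card_congr (MulAut.congr e).toEquiv]
      exact Cfsg.Agent.Lib.Q8Aut.card_aut
    rw [← h1]
    exact Subgroup.card_subgroup_dvd_card _
  have hKcard : Nat.card θ.ker ∣ orderOf c := by
    rw [← Nat.card_zpowers]
    have hle : θ.ker.map G₀.subtype ≤ Subgroup.zpowers c := by
      rintro _ ⟨x, hx, rfl⟩
      apply hK
      · intro t ht
        have h1 : θ x = 1 := hx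
        have h2 := congrArg (fun f => ((f : MulAut (pCore 2 G)) ⟨t, ht⟩ : pCore 2 G)) h1
        have h3 : (x : G) * t * (x : G)⁻¹ = t := congrArg Subtype.val h2
        exact mul_inv_eq_iff_eq_mul.mp h3
      · exact Subgroup.mem_centralizer_singleton_iff.mp x.2
    have h1 : Nat.card (θ.ker.map G₀.subtype) = Nat.card θ.ker :=
      Nat.card_congr (θ.ker.equivMapOfInjective G₀.subtype G₀.subtype_injective).symm.toEquiv
    rw [← h1]
    exact Subgroup.card_dvd_of_le hle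
  have hG₀ : Nat.card θ.ker * Nat.card θ.range = Nat.card G₀ := by
    rw [← Subgroup.index_ker]
    exact Subgroup.card_mul_index _
  have hG : Nat.card G₀ * G₀.index = Nat.card G := Subgroup.card_mul_index G₀
  obtain ⟨v₀, hv₀⟩ := exists_ne (0 : V)
  have hform := Cfsg.Agent.S3370.card_formula ρ htrans v₀ hv₀
  have hV1 : Nat.card V - 1 ∣ Nat.card G := ⟨_, hform⟩
  have hdvd : (q ^ d) ^ n - 1 ∣ G₀.index * Nat.card θ.range * (2 * orderOf c') := by
    rw [← hd, ← hn]
    refine hV1.trans ?_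
    rw [← hG, ← hG₀, ← hordc]
    calc Nat.card θ.ker * Nat.card θ.range * G₀.index
        = G₀.index * Nat.card θ.range * Nat.card θ.ker := by ring
      _ ∣ G₀.index * Nat.card θ.range * orderOf c := Nat.mul_dvd_mul_left _ hKcard
  have hd1 : 1 ≤ d := by
    by_contra h
    have h0 : d = 0 := by omega
    rw [h0, pow_zero] at hd
    omega
  have hq3 : 3 ≤ q := by
    have := hqq.two_le
    omega
  have hqo : q % 2 = 1 := by
    rcases hqq.eq_two_or_odd with h | h
    · exact absurd h hq2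
    · exact h
  have hi1 : 1 ≤ G₀.index := Nat.one_le_iff_ne_zero.mpr Subgroup.index_ne_zero_of_finite
  have hBo : orderOf c' % 2 = 1 := Nat.odd_iff.mp hc'odd
  have h2B : 2 * orderOf c' ∣ q ^ d - 1 := by
    rw [← hordc, ← hd]
    exact hord
  have hres := arith hq3 hqo hd1 (by omega : 2 ≤ n) hi1 hdle hA hBo h2B hdvd
  obtain ⟨rfl, rfl, hqs⟩ := hres
  rw [pow_one] at hd h2B
  have hi : G₀.index = 1 := le_antisymm hdle hi1
  have hG₀top : G₀ = ⊤ := Subgroup.index_eq_one.mp hi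
  have hccen : ∀ g, g * c = c * g := by
    intro g
    have h1 : g ∈ G₀ := by rw [hG₀top]; exact Subgroup.mem_top g
    exact Subgroup.mem_centralizer_singleton_iff.mp h1
  refine ⟨hqs, ?_, ?_, h2B, ?_⟩
  · rw [hn, hd]
  · intro g
    obtain ⟨j, hj⟩ := Subgroup.mem_zpowers_iff.mp hc2
    rw [← hj]
    exact ((show Commute g c from hccen g).zpow_right j).eq
  · intro x hx
    exact hK x hx (hccen x)

/-- Half-transitivity of the normal `p`-core makes it cyclic for odd `p`. -/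
theorem cyc_core [Nontrivial V] [Finite V] [Finite G] (ρ : G →* (V ≃ₗ[ZMod q] V))
    (hρ : Function.Injective ρ) (htrans : ∀ v w : V, v ≠ 0 → w ≠ 0 → ∃ g : G, ρ g v = w)
    (p : ℕ) [Fact p.Prime] (hp : p ≠ 2) : IsCyclic (pCore p G) :=
  cyc_odd hp (isPGroup_pCore p) (ρ.comp (pCore p G).subtype)
    (half_of _ (half_normal ρ htrans (pCore p G))) (hρ.comp (pCore p G).subtype_injective)

theorem pow_two_of_dvd {n M : ℕ} (h : n ∣ 2 ^ M) : ∃ j, n = 2 ^ j := by
  obtain ⟨j, -, rfl⟩ := (Nat.dvd_prime_pow Nat.prime_two).mp h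
  exact ⟨j, rfl⟩

/-- The case of a quaternion group. -/
theorem quat_main [Nontrivial V] [Finite V] [Finite G] [Group.IsSolvable G] (ρ : G →* (V ≃ₗ[ZMod q] V))
    (hρ : Function.Injective ρ) (htrans : ∀ v w : V, v ≠ 0 → w ≠ 0 → ∃ g : G, ρ g v = w)
    {c' : G} (hc'odd : Odd (orderOf c')) (hc'n : ∀ g, g * c' * g⁻¹ ∈ Subgroup.zpowers c')
    (hF : fittingSubgroup G ≤ pCore 2 G ⊔ Subgroup.zpowers c') (hcyc : ¬ IsCyclic (pCore 2 G)) {n : ℕ}
    (e : pCore 2 G ≃* QuaternionGroup n) :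
    (n = 2 ∧ ∃ _e : pCore 2 G ≃* Q8, True) ∨ FForm ρ := by
  classical
  haveI : Fact (Nat.Prime 2) := ⟨Nat.prime_two⟩
  have hcardT : Nat.card (pCore 2 G) = Nat.card (QuaternionGroup n) := Nat.card_congr e.toEquiv
  have hn0 : n ≠ 0 := by
    rintro rfl
    haveI : Finite (QuaternionGroup 0) := Finite.of_equiv _ e.toEquiv
    haveI h1 : Finite ℤ := Finite.of_injective (fun i : ℤ => (QuaternionGroup.a i : QuaternionGroup 0))
      (fun i j h => QuaternionGroup.a.inj h)
    exact not_finite ℤ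
  haveI : NeZero n := ⟨hn0⟩
  obtain ⟨M, hM⟩ := IsPGroup.iff_card.mp (isPGroup_pCore (G := G) 2)
  have h4n : 4 * n = 2 ^ M := by
    rw [← hM, hcardT, Nat.card_eq_fintype_card, QuaternionGroup.card]
  obtain ⟨j, rfl⟩ := pow_two_of_dvd (Dvd.intro_left 4 h4n)
  rcases j with _ | _ | j
  · exfalso
    apply hcyc
    haveI : IsCyclic (QuaternionGroup 1) := QuaternionGroup.quaternionGroup_one_isCyclic
    exact isCyclic_of_injective e.toMonoidHom e.injective
  · exact Or.inl ⟨rfl, e, trivial⟩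
  · right
    have h4 : 4 ≤ 2 ^ (j + 1 + 1) := by
      calc 4 = 2 ^ 2 := rfl
        _ ≤ 2 ^ (j + 1 + 1) := Nat.pow_le_pow_right (by norm_num) (by omega)
    obtain ⟨t₀, ht₀, h3, h2⟩ := quat_data h4 e
    exact main_T ρ hρ htrans hc'odd hc'n hF ht₀ (conj_mem_of_order ht₀ h3) h2

end Main

/-- The main theorem. -/
theorem result
    (q : ℕ) [Fact q.Prime] {V : Type*} [AddCommGroup V] [Module (ZMod q) V] [Finite V] [Nontrivial V]
    {G : Type*} [Group G] [Finite G] (hsol : Group.IsSolvable G)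
    (ρ : G →* (V ≃ₗ[ZMod q] V)) (hρ : Function.Injective ρ)
    (htrans : ∀ v w : V, v ≠ 0 → w ≠ 0 → ∃ g : G, ρ g v = w) :
    (∃ (F : Type) (_ : Field F) (_ : Fintype F) (e : V ≃+ F),
        ∀ g : G, ∃ (a : F) (σ : F ≃+* F), ∀ v : V, e (ρ g v) = a * σ (e v)) ∨
    Nat.card V ∈ ({9, 25, 49, 121, 529, 81} : Set ℕ) := by
  classical
  haveI := hsol
  haveI : Fact (Nat.Prime 2) := ⟨Nat.prime_two⟩
  have hqq : q.Prime := Fact.out
  obtain ⟨c', hc'odd, hc'n, -, hF⟩ := exists_odd_gen (G := G)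
    (fun p _ hp => cyc_core ρ hρ htrans p hp)
  -- the cyclic case
  by_cases hcyc : IsCyclic (pCore 2 G)
  · left
    obtain ⟨x, hx⟩ := IsCyclic.exists_generator (α := pCore 2 G)
    have hz : Subgroup.zpowers (x : G) = pCore 2 G := by
      apply le_antisymm
      · rw [Subgroup.zpowers_le]
        exact x.2
      · intro y hy
        obtain ⟨k, hk⟩ := Subgroup.mem_zpowers_iff.mp (hx ⟨y, hy⟩)
        rw [Subgroup.mem_zpowers_iff]
        exact ⟨k, by simpa using congrArg Subtype.val hk⟩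
    refine main_T ρ hρ htrans hc'odd hc'n hF x.2 ?_ ?_
    · intro g
      rw [hz]
      exact (inferInstance : (pCore 2 G).Normal).conj_mem _ x.2 g
    · intro t ht _
      rw [hz]
      exact ht
  have hres := Cfsg.Agent.S3371.result q 2 (isPGroup_pCore (G := G) 2) (ρ.comp (pCore 2 G).subtype)
    (hρ.comp (pCore 2 G).subtype_injective) (half_normal ρ htrans (pCore 2 G))
  have hmem : ∀ x, x = 9 ∨ x = 25 ∨ x = 49 ∨ x = 121 ∨ x = 529 ∨ x = 81 →
      x ∈ ({9, 25, 49, 121, 529, 81} : Set ℕ) := by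
    intro x hx
    simpa using hx
  rcases hres with ⟨h | ⟨n, ⟨e⟩⟩, -⟩ | ⟨hV, m, hm, h⟩ | ⟨hV, ⟨m, hm⟩, e, he⟩ | ⟨hV, -, -⟩
  · exact absurd h hcyc
  · rcases quat_main ρ hρ htrans hc'odd hc'n hF hcyc e with ⟨-, e', -⟩ | h
    · rcases q8_core ρ hρ htrans hc'odd hc'n hF e' with h | ⟨hq, hV, -⟩
      · exact Or.inl h
      · right
        apply hmem
        rw [hV]
        rcases hq with h | h | h | h | h <;> subst h <;> norm_num
    · exact Or.inl h
  · left
    have hm2 : 2 ≤ m := by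
      have := hqq.two_le
      by_contra h2
      have h3 : m = 0 ∨ m = 1 := by omega
      rcases h3 with h3 | h3 <;> rw [h3] at hm <;> norm_num at hm <;> omega
    rcases h with ⟨⟨e⟩⟩ | ⟨hsd, -⟩
    · obtain ⟨t₀, ht₀, h3, h2⟩ := dih_data hm2 e
      exact main_T ρ hρ htrans hc'odd hc'n hF ht₀ (conj_mem_of_order ht₀ h3) h2
    · obtain ⟨t₀, ht₀, h3, h2⟩ := sd_data hsd
      exact main_T ρ hρ htrans hc'odd hc'n hF ht₀ (conj_mem_of_order ht₀ h3) h2
  · by_cases hq2 : q = 2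
    · exfalso
      subst hq2
      apply hcyc
      have htriv := Cfsg.Agent.S3371.trivial_of_eq (isPGroup_pCore (G := G) 2)
        (half_of _ (half_normal ρ htrans (pCore 2 G))) (hρ.comp (pCore 2 G).subtype_injective)
      haveI : Subsingleton (pCore 2 G) := ⟨fun a b => by rw [htriv a, htriv b]⟩
      infer_instance
    by_cases hq3 : q = 3
    · right
      apply hmem
      rw [hV, hq3]
      norm_num
    by_cases hq5 : q = 5
    · right
      apply hmem
      rw [hV, hq5]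
      norm_num
    · exact (c_case ρ hρ htrans hm hq2 hq3 hq5 hV e he).elim
  · right
    apply hmem
    rw [hV]
    norm_num

end Cfsg.Agent.S3360
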