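import Mathlib
import Cfsg.Statements.S5652
import Cfsg.Agent.Lib.SympT

set_option autoImplicit false
set_option linter.unusedSectionVars false
set_option linter.unusedVariables false
open Cfsg

namespace Cfsg.Agent.S5652

open Matrix Cfsg.Geo Cfsg.Agent.Lib.TvGL Cfsg.Agent.Lib.SympT

local notation:70 g:71 " ⋆ " x:70 => Matrix.mulVec (Units.val g) x

section Core

variable {ι : Type} [Fintype ι] [DecidableEq ι] {F : Type*} [Field F]
  {f : (ι → F) → (ι → F) → F} (hf : IsSymplecticForm f)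

/-- A quadratic form with polar form `f`. -/
structure QF (f : (ι → F) → (ι → F) → F) (Q : (ι → F) → F) : Prop where
  smul : ∀ (c : F) (v : ι → F), Q (c • v) = c ^ 2 * Q v
  add : ∀ u v, Q (u + v) = Q u + Q v + f u v

variable {Q : (ι → F) → F} (hQ : QF f Q) (h2 : ∀ a : F, a + a = 0) (hsq : ∀ a : F, ∃ b : F, b * b = a)

include hf hQ h2 in
theorem refl_pres {v : ι → F} (hv : Q v ≠ 0) (x : ι → F) :
    Q (tvS hf v (Q v)⁻¹ ⋆ x) = Q x := by
  rw [tvS_apply, hQ.add, hQ.smul, hf.bilinear.smul_right]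
  have h1 : ((Q v)⁻¹ * f x v) ^ 2 * Q v = (Q v)⁻¹ * f x v * f x v := by
    field_simp
  rw [h1, add_assoc, h2, add_zero]

include hf hQ in
theorem exists_nonsing (U : Submodule F (ι → F)) (h : Fintype.card ι < 2 * Module.finrank F U) :
    ∃ y ∈ U, Q y ≠ 0 := by
  by_contra hcon
  push Not at hcon
  have hle : U ≤ perp hf U := by
    intro y hy
    rw [mem_perp]
    intro w hw
    have h1 := hQ.add w y
    rw [hcon w hw, hcon y hy, hcon _ (U.add_mem hw hy)] at h1
    simpa using h1.symm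
  have h1 := Submodule.finrank_mono hle
  rw [finrank_perp] at h1
  omega

include hf hQ hsq in
theorem prescribed (C : Finset (ι → F)) (z₀ : ι → F) (δ : F)
    (hC : Fintype.card ι < 2 * (Fintype.card ι - (C.card + 1))) :
    ∃ z, (∀ c ∈ C, f z c = f z₀ c) ∧ Q z = δ := by
  classical
  set S : Submodule F (ι → F) := Submodule.span F ((insert z₀ C : Finset (ι → F)) : Set (ι → F)) with hS
  have hfS : Module.finrank F S ≤ C.card + 1 := by
    have := finrank_span_finset_le_card (R := F) (insert z₀ C)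
    exact this.trans (Finset.card_insert_le _ _)
  have hfU : Fintype.card ι - (C.card + 1) ≤ Module.finrank F (perp hf S) := by
    rw [finrank_perp]
    omega
  obtain ⟨y, hy, hQy⟩ := exists_nonsing hf hQ (perp hf S) (by omega)
  have hyS : ∀ w ∈ S, f w y = 0 := (mem_perp hf).1 hy
  have hyz : f z₀ y = 0 := hyS z₀ (Submodule.subset_span (by simp))
  obtain ⟨μ, hμ⟩ := hsq ((δ - Q z₀) / Q y)
  refine ⟨z₀ + μ • y, ?_, ?_⟩
  · intro c hc
    have h1 : f c y = 0 := hyS c (Submodule.subset_span (by simp [hc]))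
    rw [hf.bilinear.add_left, hf.bilinear.smul_left, hf.skew y c, h1]
    simp
  · rw [hQ.add, hQ.smul, hf.bilinear.smul_right, hyz, mul_zero, add_zero]
    have : μ ^ 2 * Q y = δ - Q z₀ := by
      rw [pow_two, hμ]
      field_simp
    rw [this]
    ring

variable {M : Subgroup (GL ι F)}

/-- Two centres with the same set of admissible scalars. -/
def Same (hf : IsSymplecticForm f) (M : Subgroup (GL ι F)) (x y : ι → F) : Prop :=
  ∀ c, tvS hf x c ∈ M ↔ tvS hf y c ∈ M

theorem Same.symm {x y : ι → F} (h : Same hf M x y) : Same hf M y x := fun c => (h c).symm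

theorem Same.trans {x y z : ι → F} (h : Same hf M x y) (h' : Same hf M y z) : Same hf M x z :=
  fun c => (h c).trans (h' c)

theorem same_of_mem (hM : M ≤ preserving (glToMat ι F) f) {m : GL ι F} (hm : m ∈ M) (x : ι → F) :
    Same hf M x (m ⋆ x) := by
  intro c
  rw [← tvS_conj hf (hM hm)]
  constructor
  · intro h
    exact M.mul_mem (M.mul_mem hm h) (M.inv_mem hm)
  · intro h
    have h1 := M.mul_mem (M.mul_mem (M.inv_mem hm) h) hm
    simpa [mul_assoc] using h1

include hf hQ h2 in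
theorem same_of_pair (hM : M ≤ preserving (glToMat ι F) f)
    (hrefl : ∀ v, Q v ≠ 0 → tvS hf v (Q v)⁻¹ ∈ M) {x y : ι → F} (hval : Q x = Q y)
    (hxy : f x y ≠ 0) : Same hf M x y := by
  have hw : Q (x + y) = f x y := by
    rw [hQ.add, hval, h2, zero_add]
  have hw0 : Q (x + y) ≠ 0 := by
    rw [hw]
    exact hxy
  have h1 := same_of_mem hf hM (hrefl _ hw0) x
  have h3 : tvS hf (x + y) (Q (x + y))⁻¹ ⋆ x = y := by
    rw [tvS_apply, hw, hf.bilinear.add_right, hf.alternating, zero_add, inv_mul_cancel₀ hxy, one_smul]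
    ext i
    have := h2 (x i)
    simp only [Pi.add_apply]
    rw [← add_assoc, this, zero_add]
  rwa [h3] at h1

include hf hQ h2 hsq in
theorem same_of_value (hcard : Fintype.card ι < 2 * (Fintype.card ι - 3))
    (hM : M ≤ preserving (glToMat ι F) f)
    (hrefl : ∀ v, Q v ≠ 0 → tvS hf v (Q v)⁻¹ ∈ M) {x y : ι → F} (hx : x ≠ 0) (hy : y ≠ 0)
    (hval : Q x = Q y) : Same hf M x y := by
  classical
  obtain ⟨a, ha⟩ := (hf.nondegenerate x hx).2
  obtain ⟨b, hb⟩ := (hf.nondegenerate y hy).2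
  obtain ⟨z₀, -, h1, h3⟩ := exists_two hf ⊤ ⟨a, trivial, ha⟩ ⟨b, trivial, hb⟩
  obtain ⟨z, hz1, hz2⟩ := prescribed hf hQ hsq {x, y} z₀ (Q x) (by
    have : ({x, y} : Finset (ι → F)).card ≤ 2 := Finset.card_le_two
    omega)
  have hxz : f x z ≠ 0 := by
    rw [hf.skew, hz1 x (by simp)]
    rw [hf.skew z₀ x, neg_neg]
    exact h1
  have hyz : f y z ≠ 0 := by
    rw [hf.skew, hz1 y (by simp)]
    rw [hf.skew z₀ y, neg_neg]
    exact h3
  have h4 := same_of_pair hf hQ h2 hM hrefl (x := x) (y := z) hz2.symm hxz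
  have h5 := same_of_pair hf hQ h2 hM hrefl (x := y) (y := z) (hz2.trans hval).symm hyz
  exact Same.trans hf h4 (Same.symm hf h5)

include hf hQ h2 hsq in
/-- Two forms with the same polar form differ by the square of a linear form. -/
theorem exists_diff {Q' : (ι → F) → F} (hQ' : QF f Q') {y₀ : ι → F} (hy₀ : Q' y₀ ≠ Q y₀) :
    ∃ a : ι → F, a ≠ 0 ∧ ∀ x, Q' x = Q x + f a x * f a x := by
  classical
  choose sq hsq' using hsq
  have huniq : ∀ a b : F, a * a = b * b → a = b := by
    intro a b hab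
    have h3 : (a + b) * (a + b) = 0 := by
      have : (a + b) * (a + b) = a * a + b * b + (a * b + a * b) := by ring
      rw [this, h2, hab, h2, add_zero]
    have h4 : a + b = 0 := by simpa using h3
    have h5 : b = -a := by
      rw [eq_neg_iff_add_eq_zero, add_comm]
      exact h4
    rw [h5]
    have := h2 a
    rw [neg_eq_of_add_eq_zero_left this]
  let D : (ι → F) → F := fun x => Q' x + Q x
  have hDadd : ∀ x y, D (x + y) = D x + D y := by
    intro x y
    show Q' (x + y) + Q (x + y) = Q' x + Q x + (Q' y + Q y)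
    rw [hQ.add, hQ'.add]
    have := h2 (f x y)
    linear_combination this
  have hDsm : ∀ (c : F) x, D (c • x) = c ^ 2 * D x := by
    intro c x
    show Q' (c • x) + Q (c • x) = c ^ 2 * (Q' x + Q x)
    rw [hQ.smul, hQ'.smul]
    ring
  let ℓ : (ι → F) →ₗ[F] F :=
    { toFun := fun x => sq (D x)
      map_add' := by
        intro x y
        apply huniq
        rw [hsq', hDadd]
        have ha := hsq' (D x)
        have hb := hsq' (D y)
        have hc := h2 (sq (D x) * sq (D y))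
        linear_combination (-1 : F) * ha - hb - hc
      map_smul' := by
        intro c x
        apply huniq
        simp only [RingHom.id_apply, smul_eq_mul]
        rw [hsq', hDsm]
        have := hsq' (D x)
        linear_combination (-(c ^ 2)) * this }
  have hℓ : ∀ x, ℓ x * ℓ x = D x := fun x => hsq' (D x)
  let a := (LinearMap.BilinForm.toDual (Bf hf.bilinear) (Bf_nondeg hf)).symm ℓ
  have ha : ∀ x, f a x = ℓ x := fun x =>
    LinearMap.BilinForm.apply_toDual_symm_apply (B := Bf hf.bilinear) (hB := Bf_nondeg hf) ℓ x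
  refine ⟨a, ?_, ?_⟩
  · intro h0
    have h3 := ha y₀
    rw [h0, f_zero_left hf.bilinear] at h3
    have h4 := hℓ y₀
    rw [← h3] at h4
    apply hy₀
    have h5 : Q' y₀ + Q y₀ = 0 := by
      show D y₀ = 0
      rw [← h4]
      ring
    have h6 := h2 (Q y₀)
    linear_combination h5 - h6
  · intro x
    rw [ha, hℓ]
    show Q' x = Q x + (Q' x + Q x)
    have h6 := h2 (Q x)
    linear_combination (-1 : F) * h6

include hf hQ h2 hsq in
theorem all_same {Q' : (ι → F) → F} (hQ' : QF f Q') {y₀ : ι → F} (hy₀ : Q' y₀ ≠ Q y₀)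
    (hcard : Fintype.card ι < 2 * (Fintype.card ι - 3))
    (hM : M ≤ preserving (glToMat ι F) f)
    (hrefl : ∀ v, Q v ≠ 0 → tvS hf v (Q v)⁻¹ ∈ M)
    (hrefl' : ∀ v, Q' v ≠ 0 → tvS hf v (Q' v)⁻¹ ∈ M)
    {v w : ι → F} (hv : v ≠ 0) (hw : w ≠ 0) : Same hf M v w := by
  classical
  obtain ⟨a, ha0, ha⟩ := exists_diff hf hQ h2 hsq hQ' hy₀
  have hbil := hf.bilinear
  -- a second vector
  obtain ⟨c, hc⟩ : ∃ c : ι → F, c ∉ Submodule.span F {a} := by
    by_contra hcon
    push Not at hcon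
    have h1 : (⊤ : Submodule F (ι → F)) ≤ Submodule.span F {a} := fun x _ => hcon x
    have h3 := Submodule.finrank_mono h1
    rw [finrank_top, Module.finrank_fintype_fun_eq_card, finrank_span_singleton ha0] at h3
    omega
  obtain ⟨z₂, hz₂, hcz₂⟩ := exists_perp_of_notMem hf hc
  have haz₂ : f a z₂ = 0 := (mem_perp hf).1 hz₂ a (Submodule.mem_span_singleton_self a)
  obtain ⟨z₁, hz₁⟩ := (hf.nondegenerate a ha0).2
  obtain ⟨β, hβ⟩ := hsq (Q' w + Q v)
  set z₀ : ι → F := (β / f a z₁) • z₁ + ((1 - (β / f a z₁) * f c z₁) / f c z₂) • z₂ with hz₀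
  have hz₀a : f a z₀ = β := by
    rw [hz₀, hbil.add_right, hbil.smul_right, hbil.smul_right, haz₂]
    field_simp
    ring
  have hz₀c : f c z₀ = 1 := by
    rw [hz₀, hbil.add_right, hbil.smul_right, hbil.smul_right]
    field_simp
    ring
  obtain ⟨z, hz1, hz2⟩ := prescribed hf hQ hsq {a, c} z₀ (Q v) (by
    have : ({a, c} : Finset (ι → F)).card ≤ 2 := Finset.card_le_two
    omega)
  have hza : f a z = β := by
    rw [hf.skew, hz1 a (by simp), hf.skew z₀ a, neg_neg, hz₀a]
  have hzc : f c z = 1 := by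
    rw [hf.skew, hz1 c (by simp), hf.skew z₀ c, neg_neg, hz₀c]
  have hz0 : z ≠ 0 := by
    rintro rfl
    rw [f_zero_right hbil] at hzc
    exact zero_ne_one hzc
  have hQ'z : Q' z = Q' w := by
    rw [ha, hz2, hza, hβ]
    have h6 := h2 (Q v)
    linear_combination h6
  have h4 := same_of_value hf hQ h2 hsq hcard hM hrefl hv hz0 hz2.symm
  have h5 := same_of_value hf hQ' h2 hsq hcard hM hrefl' hz0 hw hQ'z
  exact Same.trans hf h4 h5

include hf hQ h2 hsq in
theorem all_tv {Q' : (ι → F) → F} (hQ' : QF f Q') {y₀ : ι → F} (hy₀ : Q' y₀ ≠ Q y₀)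
    (hcard : Fintype.card ι < 2 * (Fintype.card ι - 3))
    (hM : M ≤ preserving (glToMat ι F) f)
    (hrefl : ∀ v, Q v ≠ 0 → tvS hf v (Q v)⁻¹ ∈ M)
    (hrefl' : ∀ v, Q' v ≠ 0 → tvS hf v (Q' v)⁻¹ ∈ M)
    (w : ι → F) (d : F) : tvS hf w d ∈ M := by
  classical
  by_cases hw : w = 0
  · subst hw
    have h1 : tvS hf (0 : ι → F) d = 1 := by
      have := tvS_smul hf 0 (0 : ι → F) 1
      rw [zero_smul] at this
      have h3 := tvS_smul hf 0 (0 : ι → F) d
      rw [zero_smul] at h3
      rw [h3]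
      simpa using tvS_zero hf (0 : ι → F)
    rw [h1]
    exact M.one_mem
  by_cases hd : d = 0
  · subst hd
    rw [tvS_zero]
    exact M.one_mem
  -- a nonsingular vector
  obtain ⟨v, -, hv⟩ := exists_nonsing hf hQ ⊤ (by
    rw [finrank_top, Module.finrank_fintype_fun_eq_card]
    omega)
  have hv0 : v ≠ 0 := by
    rintro rfl
    apply hv
    have := hQ.smul 0 0
    simpa using this
  obtain ⟨a, ha⟩ := hsq (d * Q v)
  have ha0 : a ≠ 0 := by
    rintro rfl
    simp only [mul_zero] at ha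
    exact (mul_ne_zero hd hv) ha.symm
  have h1 : a • w ≠ 0 := smul_ne_zero ha0 hw
  have h3 := all_same hf hQ h2 hsq hQ' hy₀ hcard hM hrefl hrefl' hv0 h1 (Q v)⁻¹
  have h4 := h3.1 (hrefl v hv)
  rw [tvS_smul] at h4
  have h5 : a ^ 2 * (Q v)⁻¹ = d := by
    rw [pow_two, ha]
    field_simp
  rwa [h5] at h4

end Core

/-- For a finite field F of characteristic two and m ≥ 7, let Q be a non-degenerate quadratic form on F^(2m) whose polar form is the standard alternating form. Then the elements of Sp_2m(F) that are similarities of Q (they are exactly the isometries of Q) form a maximal subgroup of Sp_2m(F). -/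
theorem result {F : Type*} [Field F] [Fintype F] (m : ℕ) (hm : 7 ≤ m) (heven : ¬ Odd (Fintype.card F)) (Q : (Fin m ⊕ Fin m → F) → F) (hQ : Cfsg.Geo.IsNondegenerateQuadraticForm Q) (hpol : ∀ u v, QuadraticMap.polar Q u v = Cfsg.sympForm m F u v) : Cfsg.Geo.IsMaximalIn (Cfsg.spGL m F) (Cfsg.Geo.quadSimilarityGroup Q ⊓ Cfsg.spGL m F) := by
  classical
  have hS := sympForm_isSymplectic (m := m) (F := F)
  have hbil := hS.bilinear
  have hchar : ringChar F = 2 := by
    rw [FiniteField.even_card_iff_char_two]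
    exact Nat.not_odd_iff.mp heven
  have h2' : ((2 : ℕ) : F) = 0 := by
    have := ringChar.Nat.cast_ringChar (R := F)
    rwa [hchar] at this
  have h2 : ∀ a : F, a + a = 0 := by
    intro a
    have : a + a = ((2 : ℕ) : F) * a := by
      push_cast
      ring
    rw [this, h2', zero_mul]
  have hsq : ∀ a : F, ∃ b : F, b * b = a := by
    intro a
    obtain ⟨b, hb⟩ := FiniteField.isSquare_of_char_two hchar a
    exact ⟨b, hb.symm⟩
  have hsub : ∀ a b : F, a - b = a + b := by
    intro a b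
    have := h2 b
    rw [sub_eq_add_neg, neg_eq_of_add_eq_zero_left this]
  have hQF : QF (sympForm m F) Q := by
    refine ⟨hQ.smul, ?_⟩
    intro u v
    rw [← hpol]
    show Q (u + v) = Q u + Q v + (Q (u + v) - Q u - Q v)
    ring
  have hcard : Fintype.card (Fin m ⊕ Fin m) = 2 * m := by
    rw [Fintype.card_sum, Fintype.card_fin]
    ring
  have hcard3 : Fintype.card (Fin m ⊕ Fin m) < 2 * (Fintype.card (Fin m ⊕ Fin m) - 3) := by
    rw [hcard]
    omega
  have hbil' := hS.bilinear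
  have hiso : ∀ g : GL (Fin m ⊕ Fin m) F, g ∈ quadSimilarityGroup Q → g ∈ spGL m F →
      ∀ x, Q (g ⋆ x) = Q x := by
    intro g hg hgS x
    obtain ⟨c, hc⟩ := hg
    -- scaling factor one via the polar form
    obtain ⟨u, v, huv⟩ : ∃ u v, sympForm m F u v ≠ 0 := by
      have hne : Nonempty (Fin m) := ⟨⟨0, by omega⟩⟩
      obtain ⟨i⟩ := hne
      have h0 : (Pi.single (Sum.inl i) 1 : Fin m ⊕ Fin m → F) ≠ 0 := by
        intro h
        have := congrFun h (Sum.inl i)
        simp at this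
      obtain ⟨-, w, hw⟩ := hS.nondegenerate _ h0
      exact ⟨_, w, hw⟩
    have hgp := pres_apply hgS u v
    have h1 := hQF.add (g ⋆ u) (g ⋆ v)
    rw [← Matrix.mulVec_add, hc, hc, hc, hgp, hQF.add] at h1
    have h3 : ((c : F) - 1) * sympForm m F u v = 0 := by
      linear_combination h1
    have h4 : (c : F) = 1 := by
      have := (mul_eq_zero.1 h3).resolve_right huv
      exact sub_eq_zero.1 this
    rw [hc, h4, one_mul]
  have hrefl : ∀ v, Q v ≠ 0 → tvS hS v (Q v)⁻¹ ∈ quadSimilarityGroup Q ⊓ spGL m F := by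
    intro v hv
    refine ⟨⟨1, fun x => ?_⟩, tvS_pres hS _ _⟩
    rw [refl_pres hS hQF h2 hv]
    simp
  refine ⟨?_, ?_⟩
  · refine lt_of_le_of_ne inf_le_right ?_
    intro heq
    -- a non-zero singular vector
    obtain ⟨v, hv0, hv⟩ : ∃ v : Fin m ⊕ Fin m → F, v ≠ 0 ∧ Q v = 0 := by
      have hne : Nonempty (Fin m) := ⟨⟨0, by omega⟩⟩
      obtain ⟨i⟩ := hne
      have h0 : (Pi.single (Sum.inl i) 1 : Fin m ⊕ Fin m → F) ≠ 0 := by
        intro h
        have := congrFun h (Sum.inl i)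
        simp at this
      obtain ⟨-, w, hw⟩ := hS.nondegenerate _ h0
      obtain ⟨z, hz1, hz2⟩ := prescribed hS hQF hsq {(Pi.single (Sum.inl i) 1 : Fin m ⊕ Fin m → F)} w 0 (by
        simp only [Finset.card_singleton]
        omega)
      refine ⟨z, ?_, hz2⟩
      rintro rfl
      have := hz1 (Pi.single (Sum.inl i) 1) (by simp)
      rw [f_zero_left hbil', hS.skew] at this
      exact hw (by simpa using this.symm)
    obtain ⟨x, hx⟩ := (hS.nondegenerate v hv0).1
    have hmem : tvS hS v 1 ∈ quadSimilarityGroup Q ⊓ spGL m F := by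
      rw [heq]
      exact tvS_pres hS _ _
    have h1 := hiso _ hmem.1 hmem.2 x
    rw [tvS_apply, hQF.add, hQF.smul, hv, hbil'.smul_right] at h1
    have h3 : (1 * sympForm m F x v) * (1 * sympForm m F x v) = 0 := by
      have : (1 * sympForm m F x v) * (1 * sympForm m F x v) = Q x + (1 * sympForm m F x v) ^ 2 * 0 + (1 * sympForm m F x v) * sympForm m F x v - Q x := by
        ring
      rw [this, sub_eq_zero]
      simpa using h1
    simp only [one_mul, mul_self_eq_zero] at h3
    exact hx h3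
  · intro M hHM hMS
    by_cases hMH : M ≤ quadSimilarityGroup Q ⊓ spGL m F
    · exact Or.inl (le_antisymm hMH hHM)
    right
    refine le_antisymm hMS ?_
    obtain ⟨g, hgM, hgH⟩ := SetLike.not_le_iff_exists.1 hMH
    have hgS : g ∈ spGL m F := hMS hgM
    have hg' : ¬ ∀ y, Q (g ⋆ y) = Q y := by
      intro h
      apply hgH
      refine ⟨⟨1, fun x => ?_⟩, hgS⟩
      rw [h]
      simp
    push Not at hg'
    obtain ⟨y, hy⟩ := hg'
    let Q' : (Fin m ⊕ Fin m → F) → F := fun x => Q (g⁻¹ ⋆ x)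
    have hgi : g⁻¹ ∈ spGL m F := (spGL m F).inv_mem hgS
    have hQ' : QF (sympForm m F) Q' := by
      refine ⟨?_, ?_⟩
      · intro c v
        show Q (g⁻¹ ⋆ (c • v)) = c ^ 2 * Q (g⁻¹ ⋆ v)
        rw [Matrix.mulVec_smul, hQF.smul]
      · intro u v
        show Q (g⁻¹ ⋆ (u + v)) = Q (g⁻¹ ⋆ u) + Q (g⁻¹ ⋆ v) + sympForm m F u v
        rw [Matrix.mulVec_add, hQF.add, pres_apply hgi]
    have hy' : Q' (g ⋆ y) ≠ Q (g ⋆ y) := by
      show Q (g⁻¹ ⋆ (g ⋆ y)) ≠ _
      rw [inv_mulVec_GL]
      exact Ne.symm hy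
    have hrefl1 : ∀ v, Q v ≠ 0 → tvS hS v (Q v)⁻¹ ∈ M := fun v hv => hHM (hrefl v hv)
    have hrefl2 : ∀ v, Q' v ≠ 0 → tvS hS v (Q' v)⁻¹ ∈ M := by
      intro v hv
      have h1 := hrefl1 (g⁻¹ ⋆ v) hv
      have h3 := M.mul_mem (M.mul_mem hgM h1) (M.inv_mem hgM)
      rw [tvS_conj hS hgS, mulVec_inv_GL] at h3
      exact h3
    exact spGL_le M (fun v c => all_tv hS hQF h2 hsq hQ' hy' hcard3 hMS hrefl1 hrefl2 v c)

end Cfsg.Agent.S5652
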