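import Mathlib
import Cfsg.Statements.S1757

set_option autoImplicit false
open Cfsg

namespace Cfsg.Agent.S1757

theorem nt (p m c l : ℕ) (hp : p.Prime) (hcm : c < m) (hml : m ≤ l) (hdvd : p ^ l ∣ p ^ m - p ^ c) :
    False := by
  obtain ⟨d, rfl⟩ : ∃ d, m = c + (d + 1) := ⟨m - c - 1, by omega⟩
  obtain ⟨e, rfl⟩ : ∃ e, l = c + (e + 1) := ⟨l - c - 1, by omega⟩
  have h1 : p ^ (c + (d + 1)) - p ^ c = p ^ c * (p ^ (d + 1) - 1) := by
    rw [pow_add, Nat.mul_sub, mul_one]
  rw [h1, pow_add] at hdvd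
  have h2 : p ^ (e + 1) ∣ p ^ (d + 1) - 1 :=
    Nat.dvd_of_mul_dvd_mul_left (pow_pos hp.pos c) hdvd
  have h3 : p ∣ p ^ (d + 1) - 1 := (dvd_pow_self p (Nat.succ_ne_zero e)).trans h2
  have h4 : p ∣ p ^ (d + 1) := dvd_pow_self p (Nat.succ_ne_zero d)
  have h5 : 1 ≤ p ^ (d + 1) := Nat.one_le_pow _ _ hp.pos
  have h6 : p ∣ 1 := by
    have := (Nat.dvd_sub h4 h3)
    rwa [Nat.sub_sub_self h5] at this
  exact hp.one_lt.ne' (Nat.dvd_one.mp h6)

/-- Let p be a prime and A, B p-subgroups of the finite group G, each of which meets every conjugate of itself other than itself trivially. Suppose the order of A is at most that of B, A and B intersect trivially, and B normalizes A. Then A and B commute elementwise. -/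
theorem result {G : Type*} [Group G] [Finite G] (p : ℕ) [Fact p.Prime] (A B : Subgroup G)
    (hA : IsPGroup p ↥A) (hB : IsPGroup p ↥B)
    (hAti : ∀ g : G, A.map (MulAut.conj g).toMonoidHom = A ∨ A.map (MulAut.conj g).toMonoidHom ⊓ A = ⊥)
    (hBti : ∀ g : G, B.map (MulAut.conj g).toMonoidHom = B ∨ B.map (MulAut.conj g).toMonoidHom ⊓ B = ⊥)
    (hle : Nat.card ↥A ≤ Nat.card ↥B) (hAB : A ⊓ B = ⊥) (hN : B ≤ Subgroup.normalizer (A : Set G)) : ⁅A, B⁆ = ⊥ := by
  classical
  have hnorm : ∀ b ∈ B, ∀ a ∈ A, b * a * b⁻¹ ∈ A := Subgroup.le_normalizer_iff.mp hN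
  have key : ∀ a ∈ A, ∀ b ∈ B, b ≠ 1 → b * a * b⁻¹ = a → ∀ b' ∈ B, b' * a * b'⁻¹ = a := by
    intro a ha b hb hb1 hab b' hb'
    have h1 : a * b * a⁻¹ = b := by
      have : b * a = a * b := by
        calc b * a = b * a * b⁻¹ * b := by group
          _ = a * b := by rw [hab]
      rw [← this]; group
    have hmem : b ∈ B.map (MulAut.conj a).toMonoidHom ⊓ B := ⟨⟨b, hb, h1⟩, hb⟩
    have hconj : B.map (MulAut.conj a).toMonoidHom = B := by
      rcases hBti a with h | h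
      · exact h
      · exfalso
        rw [h] at hmem
        exact hb1 (Subgroup.mem_bot.mp hmem)
    have h2 : a * b' * a⁻¹ ∈ B := by
      rw [← hconj]
      exact ⟨b', hb', rfl⟩
    have h3 : a * b' * a⁻¹ * b'⁻¹ ∈ B := B.mul_mem h2 (B.inv_mem hb')
    have h4 : a * (b' * a⁻¹ * b'⁻¹) ∈ A := A.mul_mem ha (hnorm b' hb' _ (A.inv_mem ha))
    have h5 : a * b' * a⁻¹ * b'⁻¹ = 1 := by
      have : a * b' * a⁻¹ * b'⁻¹ ∈ A ⊓ B := ⟨by simpa [mul_assoc] using h4, h3⟩
      rw [hAB] at this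
      exact Subgroup.mem_bot.mp this
    have h6 : a * b' = b' * a := by
      calc a * b' = a * b' * a⁻¹ * b'⁻¹ * (b' * a) := by group
        _ = b' * a := by rw [h5, one_mul]
    rw [← h6]; group
  rw [Subgroup.commutator_eq_bot_iff_le_centralizer]
  by_contra hcon
  -- the centralizer of `B` in `A`
  let C : Subgroup G := A ⊓ Subgroup.centralizer (B : Set G)
  have hCmem : ∀ a, a ∈ C ↔ a ∈ A ∧ ∀ b ∈ B, b * a * b⁻¹ = a := by
    intro a
    constructor
    · rintro ⟨h1, h2⟩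
      refine ⟨h1, fun b hb => ?_⟩
      have := Subgroup.mem_centralizer_iff.mp h2 b hb
      rw [this]; group
    · rintro ⟨h1, h2⟩
      refine ⟨h1, Subgroup.mem_centralizer_iff.mpr fun b hb => ?_⟩
      have := h2 b hb
      calc b * a = b * a * b⁻¹ * b := by group
        _ = a * b := by rw [this]
  let X := {a : G // a ∈ A ∧ a ∉ C}
  have hXne : Nonempty X := by
    obtain ⟨a, ha, hac⟩ := Set.not_subset.mp hcon
    refine ⟨⟨a, ha, fun h => hac ?_⟩⟩
    exact h.2
  have hconjC : ∀ b ∈ B, ∀ a, a ∉ C → b * a * b⁻¹ ∉ C := by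
    intro b hb a ha hmem
    apply ha
    have hmem' := (hCmem _).1 hmem
    have h2 := hmem'.2 b⁻¹ (B.inv_mem hb)
    have h3 : a = b * a * b⁻¹ := by
      rw [← h2]; group
    rw [h3]
    exact hmem
  letI inst : MulAction ↥B X :=
    { smul := fun b x => ⟨(b : G) * x.1 * (b : G)⁻¹, hnorm b b.2 x.1 x.2.1, hconjC b b.2 x.1 x.2.2⟩
      one_smul := by
        intro x
        apply Subtype.ext
        change ((1 : ↥B) : G) * x.1 * ((1 : ↥B) : G)⁻¹ = x.1
        simp
      mul_smul := by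
        intro b c x
        apply Subtype.ext
        change ((b * c : ↥B) : G) * x.1 * ((b * c : ↥B) : G)⁻¹ =
          (b : G) * ((c : G) * x.1 * (c : G)⁻¹) * (b : G)⁻¹
        simp only [Subgroup.coe_mul]
        group }
  have hsmul : ∀ (b : ↥B) (x : X), ((b • x : X) : G) = (b : G) * x.1 * (b : G)⁻¹ := fun _ _ => rfl
  have hfree : ∀ x : X, MulAction.stabilizer ↥B x = ⊥ := by
    intro x
    rw [eq_bot_iff]
    intro b hb
    rw [MulAction.mem_stabilizer_iff] at hb
    rw [Subgroup.mem_bot]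
    by_contra hb1
    have hb' : (b : G) ≠ 1 := fun h => hb1 (Subtype.ext h)
    have h1 : (b : G) * x.1 * (b : G)⁻¹ = x.1 := by
      rw [← hsmul, hb]
    apply x.2.2
    rw [hCmem]
    exact ⟨x.2.1, key x.1 x.2.1 b b.2 hb' h1⟩
  have hcardX : Nat.card X = Nat.card (Quotient (MulAction.orbitRel ↥B X)) * Nat.card ↥B := by
    rw [Nat.card_congr (MulAction.selfEquivOrbitsQuotientProd hfree), Nat.card_prod]
  have hdvdX : Nat.card ↥B ∣ Nat.card X := ⟨_, by rw [hcardX, mul_comm]⟩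
  -- the cardinality of X
  have hXcard : Nat.card X = Nat.card ↥A - Nat.card ↥C := by
    have h1 : Nat.card X = (((A : Set G) \ (C : Set G))).ncard := by
      rw [← Nat.card_coe_set_eq]
      rfl
    have h2 : (C : Set G) ⊆ (A : Set G) := fun a ha => ha.1
    rw [h1, Set.ncard_sdiff h2 (Set.toFinite _), ← Nat.card_coe_set_eq, ← Nat.card_coe_set_eq]
    rfl
  have hXpos : 0 < Nat.card X := Nat.card_pos
  obtain ⟨m, hm⟩ := IsPGroup.iff_card.mp hA
  obtain ⟨l, hl⟩ := IsPGroup.iff_card.mp hB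
  have hCle : C ≤ A := inf_le_left
  have hC : IsPGroup p ↥C := hA.to_le hCle
  obtain ⟨c, hc⟩ := IsPGroup.iff_card.mp hC
  have hp : p.Prime := Fact.out
  rw [hXcard] at hdvdX hXpos
  rw [hm, hc] at hXpos
  rw [hm, hc, hl] at hdvdX
  rw [hm, hl] at hle
  have hcm : c < m := (Nat.pow_lt_pow_iff_right hp.one_lt).mp (by omega)
  have hml : m ≤ l := (Nat.pow_le_pow_iff_right hp.one_lt).mp hle
  exact nt p m c l hp hcm hml hdvdX

end Cfsg.Agent.S1757
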