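import Mathlib
import Cfsg.Statements.S1780

set_option autoImplicit false
open Cfsg

namespace Cfsg.Agent.S1780

/-- Let A be a finite abelian 2-group and t an automorphism of A whose order is a power of 2. If every element of A fixed by t² is fixed by t, then t fixes every element of A. -/
theorem result {A : Type*} [CommGroup A] [Finite A]
    (hA : IsPGroup 2 A) (t : MulAut A) (ht : ∃ k : ℕ, orderOf t = 2 ^ k) (hC : ∀ a : A, t (t a) = a → t a = a) :
    ∀ a : A, t a = a := by
  classical
  obtain ⟨k, hk⟩ := ht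
  have htk : t ^ (2 ^ k) = 1 := by rw [← hk]; exact pow_orderOf_eq_one t
  have : Fact (Nat.Prime 2) := ⟨Nat.prime_two⟩
  by_contra hne
  push Not at hne
  obtain ⟨a0, ha0⟩ := hne
  -- the subgroup of fixed points
  let C : Subgroup A :=
    { carrier := {a | t a = a}
      mul_mem' := by
        intro a b ha hb
        change t a = a at ha
        change t b = b at hb
        change t (a * b) = a * b
        rw [map_mul, ha, hb]
      one_mem' := by simp
      inv_mem' := by
        intro a ha
        change t a = a at ha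
        change t a⁻¹ = a⁻¹
        rw [map_inv, ha] }
  have hCmem : ∀ a, a ∈ C ↔ t a = a := fun a => Iff.rfl
  have hCle : C ≤ C.comap t.toMonoidHom := by
    intro a ha
    rw [Subgroup.mem_comap]
    change t (t a) = t a
    rw [(hCmem a).1 ha]
    exact ha
  let f : Function.End (A ⧸ C) := fun x => QuotientGroup.map C C t.toMonoidHom hCle x
  have hf : ∀ a : A, f (a : A ⧸ C) = ((t a : A) : A ⧸ C) := fun a => rfl
  have hfn : ∀ (n : ℕ) (a : A), (f ^ n) (a : A ⧸ C) = (((t ^ n) a : A) : A ⧸ C) := by
    intro n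
    induction n with
    | zero => intro a; rfl
    | succ n ih =>
      intro a
      rw [pow_succ, pow_succ]
      change (f ^ n) (f (a : A ⧸ C)) = _
      rw [hf, ih]
      rfl
  have hfk : f ^ (2 ^ k) = 1 := by
    funext x
    induction x using QuotientGroup.induction_on with
    | H a =>
      rw [hfn, htk]
      rfl
  haveI : Fintype (A ⧸ C) := Fintype.ofFinite _
  have hmod := Equiv.Perm.card_fixedPoints_modEq (p := 2) (n := k) hfk
  -- nontriviality of the quotient
  have hdvd : 2 ∣ Fintype.card (A ⧸ C) := by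
    have hq : IsPGroup 2 (A ⧸ C) := hA.to_quotient C
    rcases hq.card_eq_or_dvd with h1 | h2
    · exfalso
      apply ha0
      have : Subsingleton (A ⧸ C) := (Nat.card_eq_one_iff_unique.mp h1).1
      have h0 : ((a0 : A) : A ⧸ C) = 1 := Subsingleton.elim _ _
      exact (hCmem a0).1 ((QuotientGroup.eq_one_iff a0).1 h0)
    · rwa [Nat.card_eq_fintype_card] at h2
  have hdvd' : 2 ∣ Fintype.card (Function.fixedPoints f) :=
    (Nat.modEq_zero_iff_dvd.mp (hmod.symm.trans (Nat.modEq_zero_iff_dvd.mpr hdvd)))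
  have hone : (1 : A ⧸ C) ∈ Function.fixedPoints f := by
    change f 1 = 1
    exact map_one (QuotientGroup.map C C t.toMonoidHom hCle)
  have hpos : 0 < Fintype.card (Function.fixedPoints f) :=
    Fintype.card_pos_iff.mpr ⟨⟨1, hone⟩⟩
  have h2le : 1 < Fintype.card (Function.fixedPoints f) := by
    have := Nat.le_of_dvd hpos hdvd'
    omega
  obtain ⟨x, hx⟩ := (Fintype.one_lt_card_iff.mp h2le)
  obtain ⟨y, hy⟩ := hx
  -- pick a nontrivial fixed coset
  have hex : ∃ w : A, ((w : A) : A ⧸ C) ≠ 1 ∧ f (w : A ⧸ C) = (w : A ⧸ C) := by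
    by_cases hx1 : (x : A ⧸ C) = 1
    · have hy1 : (y : A ⧸ C) ≠ 1 := by
        intro h
        apply hy
        apply Subtype.ext
        rw [hx1, h]
      obtain ⟨w, hw⟩ := QuotientGroup.mk_surjective (y : A ⧸ C)
      refine ⟨w, ?_, ?_⟩
      · rw [hw]; exact hy1
      · rw [hw]; exact y.2
    · obtain ⟨w, hw⟩ := QuotientGroup.mk_surjective (x : A ⧸ C)
      refine ⟨w, ?_, ?_⟩
      · rw [hw]; exact hx1
      · rw [hw]; exact x.2
  obtain ⟨w, hw1, hw2⟩ := hex
  have hwC : w ∉ C := fun h => hw1 ((QuotientGroup.eq_one_iff w).2 h)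
  rw [hf] at hw2
  have hvC : t w / w ∈ C := by
    rw [← QuotientGroup.eq_one_iff, QuotientGroup.mk_div, hw2, div_self']
  set v := t w / w with hv
  have hv1 : v ≠ 1 := by
    intro h
    apply hwC
    rw [hv, div_eq_one] at h
    exact h
  have htv : t v = v := (hCmem v).1 hvC
  have htw : t w = w * v := by rw [hv, mul_div_cancel]
  obtain ⟨n, hn⟩ := IsPGroup.iff_orderOf.mp hA v
  have hn0 : n ≠ 0 := by
    rintro rfl
    apply hv1
    rw [pow_zero] at hn
    exact orderOf_eq_one_iff.mp hn
  obtain ⟨m, rfl⟩ := Nat.exists_eq_succ_of_ne_zero hn0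
  set v' := v ^ (2 ^ m) with hv'
  have hv'1 : v' ≠ 1 := by
    apply pow_ne_one_of_lt_orderOf (by positivity)
    rw [hn]
    exact Nat.pow_lt_pow_right (by norm_num) (Nat.lt_succ_self m)
  have hv'2 : v' * v' = 1 := by
    rw [hv', ← pow_add, ← two_mul, ← pow_succ', ← hn]
    exact pow_orderOf_eq_one v
  set w' := w ^ (2 ^ m) with hw'
  have htw' : t w' = w' * v' := by
    rw [hw', map_pow, htw, mul_pow]
  have htv' : t v' = v' := by
    rw [hv', map_pow, htv]
  have hfix : t (t w') = w' := by
    rw [htw', map_mul, htw', htv', mul_assoc, hv'2, mul_one]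
  have := hC w' hfix
  rw [htw'] at this
  apply hv'1
  exact mul_left_cancel (this.trans (mul_one w').symm)

end Cfsg.Agent.S1780
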