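import Mathlib
import Cfsg.Statements.S1782
import Cfsg.Agent.Lib.TISubgroups
import Cfsg.Agent.Lib.Frat

set_option autoImplicit false
open Cfsg
open Cfsg.Agent.Lib.TISubgroups

namespace Cfsg.Agent.S1782

/-- a proper subgroup of a 2-group lies in a proper subgroup normalized by the big one -/
theorem exists_normal_proper {S : Type*} [Group S] [Finite S] (hS : IsPGroup 2 S)
    (H R : Subgroup S) (hRH : R ≤ H) (hne : R ≠ H) :
    ∃ M : Subgroup S, R ≤ M ∧ M ≤ H ∧ M ≠ H ∧ ∀ h ∈ H, ∀ x ∈ M, h * x * h⁻¹ ∈ M := by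
  have hfact : Fact (Nat.Prime 2) := ⟨Nat.prime_two⟩
  have hHp : IsPGroup 2 ↥H := hS.to_subgroup H
  have hR' : R.subgroupOf H ≠ ⊤ := by
    intro h
    apply hne
    apply le_antisymm hRH
    intro x hx
    have : (⟨x, hx⟩ : ↥H) ∈ R.subgroupOf H := by rw [h]; trivial
    exact this
  obtain ⟨M₀, hM₀, hle⟩ := (eq_top_or_exists_le_coatom (R.subgroupOf H)).resolve_left hR'
  have hMn : M₀.Normal :=
    Cfsg.Agent.Lib.Frat.normal_of_commutator_le
      (Cfsg.Agent.Lib.Frat.commutator_and_pow_mem_of_isCoatom hHp hM₀).1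
  refine ⟨M₀.map H.subtype, ?_, ?_, ?_, ?_⟩
  · intro x hx
    exact ⟨⟨x, hRH hx⟩, hle hx, rfl⟩
  · rintro _ ⟨y, _, rfl⟩
    exact y.2
  · intro h
    apply hM₀.1
    rw [eq_top_iff]
    intro y _
    have : (y : S) ∈ M₀.map H.subtype := by rw [h]; exact y.2
    obtain ⟨w, hw, hwy⟩ := this
    have hwy' : w = y := Subtype.ext hwy
    rwa [← hwy']
  · rintro h hh _ ⟨y, hy, rfl⟩
    exact ⟨⟨h, hh⟩ * y * (⟨h, hh⟩ : ↥H)⁻¹, hMn.conj_mem y hy _, rfl⟩

theorem mem_map_conj_iff {S : Type*} [Group S] {R : Subgroup S} {g x : S} :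
    x ∈ R.map (MulAut.conj g).toMonoidHom ↔ g⁻¹ * x * g ∈ R := by
  constructor
  · rintro ⟨r, hr, rfl⟩
    have : g⁻¹ * (g * r * g⁻¹) * g = r := by group
    change g⁻¹ * (g * r * g⁻¹) * g ∈ R
    rwa [this]
  · intro h
    refine ⟨_, h, ?_⟩
    change g * (g⁻¹ * x * g) * g⁻¹ = x
    group

/-- Let S be a finite 2-group and Δ a set of subgroups of S closed under conjugation by S, all of the same order, each with nontrivial Frattini subgroup, and such that two distinct members of Δ meet trivially. Then any two distinct members of Δ commute elementwise. -/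
theorem result {S : Type*} [Group S] [Finite S] (hS : IsPGroup 2 S)
    (Δ : Set (Subgroup S)) (hinv : ∀ s : S, ∀ R ∈ Δ, R.map (MulAut.conj s).toMonoidHom ∈ Δ)
    (hΦ : ∀ R ∈ Δ, frattini ↥R ≠ ⊥) (hord : ∀ R ∈ Δ, ∀ T ∈ Δ, Nat.card ↥R = Nat.card ↥T)
    (hti : ∀ R ∈ Δ, ∀ T ∈ Δ, R = T ∨ R ⊓ T = ⊥) :
    ∀ R ∈ Δ, ∀ T ∈ Δ, R ≠ T → ⁅R, T⁆ = ⊥ := by
  classical
  have hfact : Fact (Nat.Prime 2) := ⟨Nat.prime_two⟩
  have hpg : ∀ R : Subgroup S, IsPGroup 2 ↥R := fun R => hS.to_subgroup R
  -- TI: an element commuting with a nontrivial element of `T` normalizes `T`.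
  have hTI : ∀ T ∈ Δ, ∀ u ∈ T, u ≠ 1 → ∀ x : S, x * u * x⁻¹ = u → ∀ t ∈ T, x * t * x⁻¹ ∈ T := by
    intro T hT u hu hu1 x hxu t ht
    have hT' := hinv x T hT
    have hmem : u ∈ T.map (MulAut.conj x).toMonoidHom ⊓ T := ⟨⟨u, hu, hxu⟩, hu⟩
    rcases hti _ hT' T hT with h | h
    · rw [← h]
      exact ⟨t, ht, rfl⟩
    · rw [h] at hmem
      exact absurd (Subgroup.mem_bot.mp hmem) hu1
  have hcomm_of_norm : ∀ R ∈ Δ, ∀ T ∈ Δ, R ≠ T → T ≤ Subgroup.normalizer (R : Set S) → ⁅R, T⁆ = ⊥ := by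
    intro R hR T hT hne hN
    have hinf : R ⊓ T = ⊥ := (hti R hR T hT).resolve_left hne
    have hAti : ∀ X ∈ Δ, ∀ g : S, X.map (MulAut.conj g).toMonoidHom = X ∨
        X.map (MulAut.conj g).toMonoidHom ⊓ X = ⊥ := fun X hX g => hti _ (hinv g X hX) X hX
    exact Cfsg.Agent.S1757.result 2 R T (hpg R) (hpg T) (hAti R hR) (hAti T hT)
      (hord R hR T hT).le hinf hN
  have hmap1 : ∀ R : Subgroup S, R.map (MulAut.conj (1 : S)).toMonoidHom = R := by
    intro R
    ext x
    rw [mem_map_conj_iff]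
    simp
  intro R hR T hT hne
  suffices hsuff : ∀ n, ∀ R ∈ Δ, ∀ T ∈ Δ, R ≠ T → Nat.card ↥(R ⊔ T) = n → ⁅R, T⁆ = ⊥ from
    hsuff _ R hR T hT hne rfl
  intro n
  induction n using Nat.strong_induction_on with
  | _ n ih =>
    intro R hR T hT hne hn
    by_contra hcomm
    have hTN : ¬ T ≤ Subgroup.normalizer (R : Set S) := fun h => hcomm (hcomm_of_norm R hR T hT hne h)
    have hRN : ¬ R ≤ Subgroup.normalizer (T : Set S) := fun h => hcomm (by
      rw [Subgroup.commutator_comm]
      exact hcomm_of_norm T hT R hR hne.symm h)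
    have hRH : R ≠ R ⊔ T := by
      intro h
      have h1 : T ≤ R := by rw [h]; exact le_sup_right
      exact hne (Subgroup.eq_of_le_of_card_ge h1 (hord T hT R hR).ge).symm
    obtain ⟨M, hRM, hMH, hMne, hMn⟩ := exists_normal_proper hS (R ⊔ T) R le_sup_left hRH
    have hMcard : Nat.card ↥M < n := by
      rw [← hn]
      apply lt_of_le_of_ne (Subgroup.card_le_of_le hMH)
      intro h
      exact hMne (Subgroup.eq_of_le_of_card_ge hMH h.ge)
    -- conjugates of `R` under `H` lie in `M`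
    have hconjM : ∀ h ∈ R ⊔ T, R.map (MulAut.conj h).toMonoidHom ≤ M := by
      rintro h hh _ ⟨r, hr, rfl⟩
      exact hMn h hh r (hRM hr)
    -- commuting conjugates
    have hcommH : ∀ h ∈ R ⊔ T, ∀ h' ∈ R ⊔ T,
        R.map (MulAut.conj h).toMonoidHom ≠ R.map (MulAut.conj h').toMonoidHom →
        ∀ x ∈ R.map (MulAut.conj h).toMonoidHom, ∀ x' ∈ R.map (MulAut.conj h').toMonoidHom,
          x * x' = x' * x := by
      intro h hh h' hh' hdist x hx x' hx'
      have hle : R.map (MulAut.conj h).toMonoidHom ⊔ R.map (MulAut.conj h').toMonoidHom ≤ M :=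
        sup_le (hconjM h hh) (hconjM h' hh')
      have hlt : Nat.card ↥(R.map (MulAut.conj h).toMonoidHom ⊔ R.map (MulAut.conj h').toMonoidHom) < n :=
        lt_of_le_of_lt (Subgroup.card_le_of_le hle) hMcard
      have hc := ih _ hlt _ (hinv h R hR) _ (hinv h' R hR) hdist rfl
      rw [Subgroup.commutator_eq_bot_iff_le_centralizer] at hc
      exact (Subgroup.mem_centralizer_iff.mp (hc hx) x' hx').symm
    -- the abelian subgroup generated by the centres of the conjugates of `R`
    let Zset : Set S := {x | ∃ h ∈ R ⊔ T, ∃ c ∈ R, (∀ r ∈ R, c * r = r * c) ∧ x = h * c * h⁻¹}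
    let A : Subgroup S := Subgroup.closure Zset
    have hZcentral : ∀ h ∈ R ⊔ T, ∀ c ∈ R, (∀ r ∈ R, c * r = r * c) →
        ∀ w ∈ R.map (MulAut.conj h).toMonoidHom, (h * c * h⁻¹) * w = w * (h * c * h⁻¹) := by
      rintro h hh c hc hcen _ ⟨r, hr, rfl⟩
      change h * c * h⁻¹ * (h * r * h⁻¹) = h * r * h⁻¹ * (h * c * h⁻¹)
      have := hcen r hr
      calc h * c * h⁻¹ * (h * r * h⁻¹) = h * (c * r) * h⁻¹ := by group
        _ = h * (r * c) * h⁻¹ := by rw [this]
        _ = h * r * h⁻¹ * (h * c * h⁻¹) := by group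
    have hZmem : ∀ h : S, ∀ c ∈ R, h * c * h⁻¹ ∈ R.map (MulAut.conj h).toMonoidHom :=
      fun h c hc => ⟨c, hc, rfl⟩
    have hZcomm : ∀ x ∈ Zset, ∀ y ∈ Zset, x * y = y * x := by
      rintro _ ⟨h, hh, c, hc, hcen, rfl⟩ _ ⟨h', hh', c', hc', hcen', rfl⟩
      by_cases hd : R.map (MulAut.conj h).toMonoidHom = R.map (MulAut.conj h').toMonoidHom
      · apply hZcentral h hh c hc hcen
        rw [hd]
        exact hZmem h' c' hc'
      · exact hcommH h hh h' hh' hd _ (hZmem h c hc) _ (hZmem h' c' hc')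
    have hAa : IsMulCommutative ↥A := Subgroup.isMulCommutative_closure hZcomm
    have hAconj : ∀ h ∈ R ⊔ T, ∀ a ∈ A, h * a * h⁻¹ ∈ A := by
      intro h hh a ha
      induction ha using Subgroup.closure_induction with
      | mem x hx =>
        obtain ⟨h', hh', c, hc, hcen, rfl⟩ := hx
        exact Subgroup.subset_closure ⟨h * h', mul_mem hh hh', c, hc, hcen, by group⟩
      | one => simp
      | mul x y _ _ ihx ihy =>
        have : h * (x * y) * h⁻¹ = (h * x * h⁻¹) * (h * y * h⁻¹) := by group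
        rw [this]
        exact mul_mem ihx ihy
      | inv x _ ih =>
        have : h * x⁻¹ * h⁻¹ = (h * x * h⁻¹)⁻¹ := by group
        rw [this]
        exact inv_mem ih
    have hAR : ∀ a ∈ A, ∀ r ∈ R, a * r = r * a := by
      have hle : A ≤ Subgroup.centralizer (R : Set S) := by
        apply (Subgroup.closure_le _).mpr
        rintro _ ⟨h, hh, c, hc, hcen, rfl⟩
        rw [SetLike.mem_coe, Subgroup.mem_centralizer_iff]
        intro r hr
        by_cases hd : R.map (MulAut.conj h).toMonoidHom = R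
        · have hr' : r ∈ R.map (MulAut.conj h).toMonoidHom := by rw [hd]; exact hr
          exact (hZcentral h hh c hc hcen r hr').symm
        · have hd' : R.map (MulAut.conj h).toMonoidHom ≠ R.map (MulAut.conj (1 : S)).toMonoidHom := by
            rw [hmap1]; exact hd
          have hr' : r ∈ R.map (MulAut.conj (1 : S)).toMonoidHom := by rw [hmap1]; exact hr
          exact (hcommH h hh 1 (one_mem _) hd' _ (hZmem h c hc) r hr').symm
      intro a ha r hr
      exact (Subgroup.mem_centralizer_iff.mp (hle ha) r hr).symm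
    -- an element of `T` with nontrivial square
    have hy : ∃ y ∈ T, y ^ 2 ≠ 1 := by
      by_contra hall
      push Not at hall
      apply hΦ T hT
      rw [eq_bot_iff]
      apply Cfsg.Agent.Lib.Frat.frattini_le_of_commutator_pow (p := 2) ⊥ ?_ ?_
      · have hinvself : ∀ x : ↥T, x⁻¹ = x := fun x => by
          rw [inv_eq_iff_mul_eq_one, ← pow_two]
          exact Subtype.ext (hall x x.2)
        rw [commutator_def, Subgroup.commutator_le]
        intro a _ b _
        rw [Subgroup.mem_bot, commutatorElement_eq_one_iff_mul_comm]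
        calc a * b = (a * b)⁻¹ := (hinvself _).symm
          _ = b⁻¹ * a⁻¹ := mul_inv_rev a b
          _ = b * a := by rw [hinvself, hinvself]
      · intro x
        rw [Subgroup.mem_bot]
        exact Subtype.ext (hall x x.2)
    obtain ⟨y, hyT, hy2⟩ := hy
    have hy1 : y ≠ 1 := by
      rintro rfl
      exact hy2 (one_pow 2)
    have hyH : y ∈ R ⊔ T := (le_sup_right : T ≤ R ⊔ T) hyT
    have hyN : y ∈ Subgroup.normalizer (A : Set S) := by
      rw [Subgroup.mem_normalizer_iff]
      intro a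
      constructor
      · exact hAconj y hyH a
      · intro h
        have := hAconj y⁻¹ (inv_mem hyH) _ h
        have h2 : y⁻¹ * (y * a * y⁻¹) * y⁻¹⁻¹ = a := by group
        rwa [h2] at this
    obtain ⟨k, hk⟩ := IsPGroup.iff_orderOf.mp (hpg T) ⟨y, hyT⟩
    have hk' : orderOf y = 2 ^ k := by
      rw [← hk]
      exact (Subgroup.orderOf_mk y hyT).symm
    have hfixsq : ∀ a ∈ A, y ^ 2 * a * (y ^ 2)⁻¹ = a → y * a * y⁻¹ = a := by
      intro a ha hsq
      have hcommu : a * y ^ 2 * a⁻¹ = y ^ 2 := by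
        have h1 : y ^ 2 * a = a * y ^ 2 := by
          calc y ^ 2 * a = y ^ 2 * a * (y ^ 2)⁻¹ * y ^ 2 := by group
            _ = a * y ^ 2 := by rw [hsq]
        rw [← h1]
        group
      have hnormT := hTI T hT (y ^ 2) (T.pow_mem hyT 2) hy2 a hcommu
      have hcT : a * y * a⁻¹ * y⁻¹ ∈ T := T.mul_mem (hnormT y hyT) (T.inv_mem hyT)
      have hcA : a * y * a⁻¹ * y⁻¹ ∈ A := by
        have h1 : a * y * a⁻¹ * y⁻¹ = a * (y * a⁻¹ * y⁻¹) := by group
        rw [h1]
        exact A.mul_mem ha (hAconj y hyH _ (A.inv_mem ha))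
      by_cases hc1 : a * y * a⁻¹ * y⁻¹ = 1
      · have h1 : a * y = y * a := by
          calc a * y = a * y * a⁻¹ * y⁻¹ * (y * a) := by group
            _ = y * a := by rw [hc1, one_mul]
        rw [← h1]
        group
      · exfalso
        apply hRN
        apply Subgroup.le_normalizer_iff.mpr
        intro r hr t ht
        refine hTI T hT _ hcT hc1 r ?_ t ht
        have := hAR _ hcA r hr
        rw [← this]
        group
    have hfixA := conj_fixed_of_sq A (hpg A) hAa y hyN k hk' hfixsq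
    -- a nontrivial central element of `R`
    have hRnt : Nontrivial ↥R := by
      by_contra hsub
      rw [not_nontrivial_iff_subsingleton] at hsub
      apply hΦ R hR
      rw [eq_bot_iff]
      intro x _
      rw [Subgroup.mem_bot]
      exact Subsingleton.elim _ _
    have hcenR := (hpg R).center_nontrivial
    obtain ⟨⟨c, hc⟩, hc1⟩ := exists_ne (1 : ↥(Subgroup.center ↥R))
    have hx1 : (c : S) ≠ 1 := fun h => hc1 (Subtype.ext (Subtype.ext h))
    have hxcen : ∀ r ∈ R, (c : S) * r = r * c := by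
      intro r hr
      have := Subgroup.mem_center_iff.mp hc ⟨r, hr⟩
      exact (congrArg Subtype.val this).symm
    have hxA : (c : S) ∈ A :=
      Subgroup.subset_closure ⟨1, one_mem _, c, c.2, hxcen, by group⟩
    have hyx : y * c * y⁻¹ = c := hfixA c hxA
    have hxy : (c : S)⁻¹ * y * ((c : S)⁻¹)⁻¹ = y := by
      have h1 : y * c = c * y := by
        calc y * c = y * c * y⁻¹ * y := by group
          _ = c * y := by rw [hyx]
      have h2 : (c : S)⁻¹ * (c * y) * c = y * c := by group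
      rw [inv_inv]
      rw [← h1] at h2
      calc (c : S)⁻¹ * y * c = (c : S)⁻¹ * (y * c) * (c : S)⁻¹ * c := by group
        _ = y := by rw [h1]; group
    have hxnorm := hTI T hT y hyT hy1 (c : S)⁻¹ hxy
    -- an element of `T` moving `R`
    obtain ⟨s, hsT, hsN⟩ := Set.not_subset.mp hTN
    have hsH : s ∈ R ⊔ T := (le_sup_right : T ≤ R ⊔ T) hsT
    have hRs : R.map (MulAut.conj s).toMonoidHom ≠ R := by
      intro h
      apply hsN
      rw [SetLike.mem_coe, Subgroup.mem_normalizer_iff_map_conj_eq]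
      exact h
    set d : S := (c : S)⁻¹ * (s * c * s⁻¹) with hd
    have hdT : d ∈ T := by
      have h1 : d = ((c : S)⁻¹ * s * ((c : S)⁻¹)⁻¹) * s⁻¹ := by rw [hd]; group
      rw [h1]
      exact T.mul_mem (hxnorm s hsT) (T.inv_mem hsT)
    have hd1 : d ≠ 1 := by
      intro h
      have h1 : s * c * s⁻¹ = c := by
        rw [hd] at h
        have := mul_left_cancel (a := (c : S)⁻¹) (h.trans (inv_mul_cancel (c : S)).symm)
        exact this
      have hmem : (c : S) ∈ R.map (MulAut.conj s).toMonoidHom ⊓ R :=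
        ⟨⟨c, c.2, h1⟩, c.2⟩
      rcases hti _ (hinv s R hR) R hR with h2 | h2
      · exact hRs h2
      · rw [h2] at hmem
        exact hx1 (Subgroup.mem_bot.mp hmem)
    apply hRN
    apply Subgroup.le_normalizer_iff.mpr
    intro r hr t ht
    refine hTI T hT d hdT hd1 r ?_ t ht
    have hd' : R.map (MulAut.conj s).toMonoidHom ≠ R.map (MulAut.conj (1 : S)).toMonoidHom := by
      rw [hmap1]; exact hRs
    have hr' : r ∈ R.map (MulAut.conj (1 : S)).toMonoidHom := by rw [hmap1]; exact hr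
    have h1 : (s * c * s⁻¹) * r = r * (s * c * s⁻¹) :=
      hcommH s hsH 1 (one_mem _) hd' _ (hZmem s c c.2) r hr'
    have h2 : (c : S)⁻¹ * r = r * (c : S)⁻¹ := by
      have := hxcen r hr
      calc (c : S)⁻¹ * r = (c : S)⁻¹ * (r * c) * (c : S)⁻¹ := by group
        _ = (c : S)⁻¹ * (c * r) * (c : S)⁻¹ := by rw [this]
        _ = r * (c : S)⁻¹ := by group
    have h3 : r * d = d * r := by
      rw [hd]
      calc r * ((c : S)⁻¹ * (s * c * s⁻¹)) = (r * (c : S)⁻¹) * (s * c * s⁻¹) := by group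
        _ = ((c : S)⁻¹ * r) * (s * c * s⁻¹) := by rw [h2]
        _ = (c : S)⁻¹ * (r * (s * c * s⁻¹)) := by group
        _ = (c : S)⁻¹ * ((s * c * s⁻¹) * r) := by rw [h1]
        _ = (c : S)⁻¹ * (s * c * s⁻¹) * r := by group
    rw [h3]
    group

end Cfsg.Agent.S1782
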