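import Mathlib
import Cfsg.Statements.S0008
import Cfsg.Agent.Lib.PCore

set_option autoImplicit false
open Cfsg

namespace Cfsg.Agent.S0008

/-- Fitting's Theorem: in a finite group the join of all normal nilpotent subgroups is nilpotent, so it is the largest normal nilpotent subgroup. -/
theorem result {G : Type*} [Group G] [Finite G] :
    Group.IsNilpotent (Cfsg.fittingSubgroup G) := by
  exact Cfsg.Agent.Lib.PCore.isNilpotent_fittingSubgroup

end Cfsg.Agent.S0008
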