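import Mathlib
import Cfsg.Statements.S0018
import Cfsg.Agent.Lib.PCore

set_option autoImplicit false
open Cfsg

namespace Cfsg.Agent.S0018

/-- A finite solvable group whose Sylow p-subgroups are abelian has p-length one: a Sylow p-subgroup together with the largest normal subgroup of order prime to p generates a normal subgroup. -/
theorem result {G : Type*} [Group G] [Finite G] [Group.IsSolvable G]
    (p : ℕ) [Fact p.Prime] (P : Sylow p G) (hP : IsMulCommutative P) :
    ((P : Subgroup G) ⊔ Cfsg.pPrimeCore p G).Normal := by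
  open Cfsg.Agent.Lib.PCore in
  set N := pPrimeCore p G with hN
  have hNn : N.Normal := inferInstance
  let π := QuotientGroup.mk' N
  have hsurj : Function.Surjective π := QuotientGroup.mk'_surjective N
  have hbot : pPrimeCore p (G ⧸ N) = ⊥ := pPrimeCore_quotient_pPrimeCore p
  have hcent := centralizer_pCore_le (G := G ⧸ N) p hbot
  -- the image of `P` is a Sylow subgroup of the quotient
  let Q : Sylow p (G ⧸ N) := P.mapSurjective hsurj
  have hQle : pCore p (G ⧸ N) ≤ (Q : Subgroup (G ⧸ N)) := pCore_le_sylow p Q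
  -- `Q` is abelian
  have hQab : ∀ x ∈ (Q : Subgroup (G ⧸ N)), ∀ y ∈ (Q : Subgroup (G ⧸ N)), x * y = y * x := by
    rintro _ ⟨a, ha, rfl⟩ _ ⟨b, hb, rfl⟩
    have := mul_comm' (⟨a, ha⟩ : P) ⟨b, hb⟩
    have h2 : a * b = b * a := congrArg Subtype.val this
    rw [← map_mul, ← map_mul, h2]
  have hQeq : (Q : Subgroup (G ⧸ N)) = pCore p (G ⧸ N) := by
    apply le_antisymm _ hQle
    intro x hx
    apply hcent
    rw [Subgroup.mem_centralizer_iff]
    intro y hy
    exact hQab y (hQle hy) x hx
  have hmapn : ((P : Subgroup G).map π).Normal := by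
    have h : (Q : Subgroup (G ⧸ N)) = (P : Subgroup G).map π := rfl
    rw [← h, hQeq]
    infer_instance
  have hcomap : (((P : Subgroup G).map π).comap π).Normal := Subgroup.Normal.comap hmapn π
  rw [Subgroup.comap_map_eq, QuotientGroup.ker_mk'] at hcomap
  exact hcomap

end Cfsg.Agent.S0018
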