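import Mathlib
import Cfsg.Statements.S0032

set_option autoImplicit false
open Cfsg

namespace Cfsg.Agent.S0032

/-- If an automorphism of a finite group fixes only the identity and maps a normal subgroup N into itself, then the only cosets of N it fixes are those in N: a fixed coset xN forces x ∈ N. -/
theorem result {G : Type*} [Group G] [Finite G] (φ : G ≃* G)
    (hφ : MonoidHom.FixedPointFree (φ : G →* G)) (N : Subgroup G) [N.Normal] (hN : ∀ n ∈ N, φ n ∈ N)
    (x : G) (hx : (φ x)⁻¹ * x ∈ N) : x ∈ N := by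
  have hinj : Function.Injective (fun g : G => (φ g)⁻¹ * g) := by
    intro a b hab
    simp only at hab
    have h1 : b * a⁻¹ = φ b * (φ a)⁻¹ := by
      have : φ b * ((φ a)⁻¹ * a) * a⁻¹ = φ b * ((φ b)⁻¹ * b) * a⁻¹ := by rw [hab]
      simpa [mul_assoc] using this.symm
    have h2 : φ (b * a⁻¹) = b * a⁻¹ := by
      rw [map_mul, map_inv, ← h1]
    have h3 : b * a⁻¹ = 1 := hφ _ h2
    exact (mul_inv_eq_one.mp h3).symm
  let f : N → N := fun n => ⟨(φ n)⁻¹ * n, N.mul_mem (N.inv_mem (hN _ n.2)) n.2⟩
  have hfinj : Function.Injective f := by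
    intro a b hab
    apply Subtype.ext
    apply hinj
    simpa [f] using congrArg Subtype.val hab
  have hfsurj : Function.Surjective f := Finite.surjective_of_injective hfinj
  obtain ⟨n, hn⟩ := hfsurj ⟨(φ x)⁻¹ * x, hx⟩
  have : (n : G) = x := hinj (by simpa [f] using congrArg Subtype.val hn)
  exact this ▸ n.2

end Cfsg.Agent.S0032
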