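import Mathlib
import Cfsg.Statements.S0034
import Cfsg.Agent.Lib.Frobenius

set_option autoImplicit false
open Cfsg

namespace Cfsg.Agent.S0034

/-- A group acting freely on a finite type: the order of the group divides the cardinality. -/
theorem card_dvd_of_free {H X : Type*} [Group H] [MulAction H X] [Finite X]
    (hfree : ∀ x : X, MulAction.stabilizer H x = ⊥) : Nat.card H ∣ Nat.card X := by
  have e := MulAction.selfEquivOrbitsQuotientProd (G := H) (X := X) hfree
  rw [Nat.card_congr e, Nat.card_prod]
  exact Dvd.intro_left _ rfl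

/-- For a Frobenius complement H, the set of elements lying in no conjugate of H, together with 1, has exactly as many elements as the index of H, and that index is congruent to 1 modulo the order of H. -/
theorem result {G : Type*} [Group G] [Finite G] (H : Subgroup G) (hH : Cfsg.IsFrobeniusComplement H) :
    Nat.card (Cfsg.frobeniusKernel H) = H.index ∧ H.index % Nat.card H = 1 % Nat.card H := by
  refine ⟨Cfsg.Agent.Lib.Frobenius.card_kernel hH, ?_⟩
  obtain ⟨hne, htop, hti⟩ := id hH
  -- cosets other than `H`
  let S : SubMulAction H (G ⧸ H) :=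
    { carrier := {q | q ≠ ((1 : G) : G ⧸ H)}
      smul_mem' := by
        intro h q hq hq2
        apply hq
        have h1 : h⁻¹ • (h • q) = q := inv_smul_smul h q
        rw [hq2] at h1
        rw [← h1]
        have h2 : (h⁻¹ : H) • ((1 : G) : G ⧸ H) = (((h⁻¹ : H) : G) * 1 : G) := rfl
        rw [h2, mul_one]
        apply QuotientGroup.eq.mpr
        simp }
  have hfree : ∀ x : S, MulAction.stabilizer H x = ⊥ := by
    rintro ⟨q, hq⟩
    rw [eq_bot_iff]
    intro h hh
    induction q using QuotientGroup.induction_on with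
    | H g =>
    have hg : g ∉ H := fun hgH => hq (QuotientGroup.eq.mpr (by simpa using hgH))
    have h1 : h • ((g : G) : G ⧸ H) = ((g : G) : G ⧸ H) := congrArg Subtype.val hh
    have h2 : (((h : G) * g : G) : G ⧸ H) = ((g : G) : G ⧸ H) := h1
    have h3 := QuotientGroup.eq.mp h2
    have h4 : g⁻¹ * (h : G) * g ∈ H := by
      have := H.inv_mem h3
      simpa [mul_assoc] using this
    have h5 := (Subgroup.mem_inf (x := (h : G))).mpr ⟨h.2, Cfsg.Agent.Lib.Frobenius.mem_conj_iff.mpr h4⟩
    rw [hti g hg, Subgroup.mem_bot] at h5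
    rw [Subgroup.mem_bot]
    exact Subtype.ext h5
  have hdvd := card_dvd_of_free (H := H) (X := S) hfree
  -- the count
  have hcount : Nat.card S + 1 = H.index := by
    classical
    have h1 : Nat.card (G ⧸ H) = H.index := rfl
    rw [← h1]
    let _ : Fintype (G ⧸ H) := Fintype.ofFinite _
    have h2 : Nat.card S = Nat.card {q : G ⧸ H // q ≠ ((1 : G) : G ⧸ H)} := rfl
    rw [h2, Nat.card_eq_fintype_card, Nat.card_eq_fintype_card, Fintype.card_subtype_compl]
    have h3 : Fintype.card {q : G ⧸ H // q = ((1 : G) : G ⧸ H)} = 1 := Fintype.card_subtype_eq _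
    have h4 : 0 < Fintype.card (G ⧸ H) := Fintype.card_pos
    omega
  obtain ⟨c, hc⟩ := hdvd
  rw [← hcount, hc]
  rw [Nat.add_comm, Nat.add_mul_mod_self_left]

end Cfsg.Agent.S0034
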