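import Mathlib
import Cfsg.Statements.S0036
import Cfsg.Agent.Lib.Frobenius

set_option autoImplicit false
open Cfsg
open scoped Pointwise

namespace Cfsg.Agent.S0036

open Cfsg.Agent.Lib.Frobenius

variable {G : Type*} [Group G] {H : Subgroup G}

/-- an element inverting a nonidentity element of a conjugate of `H` lies in that conjugate -/
theorem mem_of_inverts (hH : IsFrobeniusComplement H) {w s g : G} (hw1 : w ≠ 1)
    (hw : g⁻¹ * w * g ∈ H) (hs : s * w * s⁻¹ = w⁻¹) : g⁻¹ * s * g ∈ H := by
  have hw' : (g⁻¹ * w * g)⁻¹ ∈ H := H.inv_mem hw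
  have hw1' : (g⁻¹ * w * g)⁻¹ ≠ 1 := by
    intro h
    apply hw1
    have h1 : g⁻¹ * w * g = 1 := inv_eq_one.mp h
    have : w = g * (g⁻¹ * w * g) * g⁻¹ := by group
    rw [this, h1]; simp
  apply mem_of_conj_mem hH (x := (g⁻¹ * w * g)⁻¹) hw' hw1'
  have : (g⁻¹ * s * g)⁻¹ * (g⁻¹ * w * g)⁻¹ * (g⁻¹ * s * g) = g⁻¹ * w * g := by
    have h2 : s⁻¹ * w⁻¹ * s = w := by
      rw [← hs]; group
    calc (g⁻¹ * s * g)⁻¹ * (g⁻¹ * w * g)⁻¹ * (g⁻¹ * s * g)
        = g⁻¹ * (s⁻¹ * w⁻¹ * s) * g := by group
      _ = g⁻¹ * w * g := by rw [h2]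
  rw [this]
  exact hw

section Invol

variable {t : G}

/-- commutators with an involution of `H` -/
theorem comm_mem_kernel (hH : IsFrobeniusComplement H) (ht : t ∈ H) (ht1 : t ≠ 1)
    (ht2 : t * t = 1) {x : G} (hx : x ∉ H) : x * t * x⁻¹ * t ∈ frobeniusKernel H := by
  have htinv : t⁻¹ = t := inv_eq_of_mul_eq_one_left ht2
  by_contra hcon
  obtain ⟨hw1, g, hg⟩ := not_mem_kernel_iff.mp hcon
  set u := x * t * x⁻¹ with hu
  have huu : u * u = 1 := by
    simp only [hu]
    calc x * t * x⁻¹ * (x * t * x⁻¹) = x * (t * t) * x⁻¹ := by group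
      _ = 1 := by rw [ht2]; simp
  have huinv : u⁻¹ = u := inv_eq_of_mul_eq_one_left huu
  have hs1 : t * (u * t) * t⁻¹ = (u * t)⁻¹ := by
    rw [htinv]
    rw [mul_inv_rev u t, htinv, huinv]
    calc t * (u * t) * t = t * u * (t * t) := by group
      _ = t * u := by rw [ht2, mul_one]
  have h1 : g⁻¹ * t * g ∈ H := mem_of_inverts hH hw1 hg hs1
  have hs2 : u * (u * t) * u⁻¹ = (u * t)⁻¹ := by
    rw [huinv]
    rw [mul_inv_rev u t, htinv, huinv]
    calc u * (u * t) * u = (u * u) * t * u := by group
      _ = t * u := by rw [huu, one_mul]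
  have h2 : g⁻¹ * u * g ∈ H := mem_of_inverts hH hw1 hg hs2
  have hgH : g ∈ H := mem_of_conj_mem hH ht ht1 h1
  have huH : u ∈ H := by
    have := H.mul_mem (H.mul_mem hgH h2) (H.inv_mem hgH)
    have h3 : g * (g⁻¹ * u * g) * g⁻¹ = u := by group
    rwa [h3] at this
  exact hx (mem_of_conj_mem' hH ht ht1 huH)

theorem centralizer_le (hH : IsFrobeniusComplement H) (ht : t ∈ H) (ht1 : t ≠ 1)
    {x : G} (hx : x * t = t * x) : x ∈ H := by
  apply mem_of_conj_mem' hH ht ht1
  have : x * t * x⁻¹ = t := by rw [hx]; group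
  rw [this]; exact ht

/-- Any involution of `H` is central in `H`. -/
theorem central_of_invol [Finite G] (hH : IsFrobeniusComplement H) (ht : t ∈ H) (ht1 : t ≠ 1)
    (ht2 : t * t = 1) : ∀ h ∈ H, h * t = t * h := by
  classical
  letI : Fintype G := Fintype.ofFinite G
  have htinv : t⁻¹ = t := inv_eq_of_mul_eq_one_left ht2
  -- centraliser of `t`
  let C : Subgroup G := Subgroup.centralizer {t}
  have hCH : C ≤ H := by
    intro x hx
    exact centralizer_le hH ht ht1 (Subgroup.mem_centralizer_singleton_iff.mp hx)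
  -- count
  let A : Finset G := (Set.toFinite ((H : Set G)ᶜ)).toFinset
  let K1 : Finset G := (Set.toFinite (frobeniusKernel H \ {1})).toFinset
  let f : G → G := fun x => x * t * x⁻¹ * t
  have hfA : ∀ x ∈ A, f x ∈ K1 := by
    intro x hx
    have hx' : x ∉ H := by simpa [A] using hx
    simp only [K1, Set.Finite.mem_toFinset, Set.mem_sdiff, Set.mem_singleton_iff]
    refine ⟨comm_mem_kernel hH ht ht1 ht2 hx', ?_⟩
    intro h0
    apply hx'
    apply centralizer_le hH ht ht1
    have : x * t * x⁻¹ = t := by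
      have h1 : x * t * x⁻¹ * t * t = t := by rw [show x * t * x⁻¹ * t = 1 from h0, one_mul]
      rwa [mul_assoc (x * t * x⁻¹), ht2, mul_one] at h1
    calc x * t = x * t * x⁻¹ * x := by group
      _ = t * x := by rw [this]
  have hfib : ∀ v ∈ A.image f, (A.filter (fun x => f x = v)).card ≤ Nat.card C := by
    intro v hv
    obtain ⟨x, hx, rfl⟩ := Finset.mem_image.mp hv
    have hinj : Set.InjOn (fun y => x⁻¹ * y) (A.filter (fun y => f y = f x) : Finset G) :=
      fun a _ b _ hab => by simpa using hab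
    have hmaps : ∀ y ∈ A.filter (fun y => f y = f x), x⁻¹ * y ∈ (C : Set G) := by
      intro y hy
      have hy2 : f y = f x := (Finset.mem_filter.mp hy).2
      have h1 : y * t * y⁻¹ = x * t * x⁻¹ := by
        simp only [f] at hy2
        exact mul_right_cancel hy2
      change x⁻¹ * y ∈ Subgroup.centralizer {t}
      rw [Subgroup.mem_centralizer_singleton_iff]
      calc x⁻¹ * y * t = x⁻¹ * (y * t * y⁻¹) * y := by group
        _ = x⁻¹ * (x * t * x⁻¹) * y := by rw [h1]
        _ = t * (x⁻¹ * y) := by group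
    calc (A.filter (fun x_1 => f x_1 = f x)).card
        = ((A.filter (fun x_1 => f x_1 = f x)).image (fun y => x⁻¹ * y)).card :=
          (Finset.card_image_of_injOn hinj).symm
      _ ≤ (Set.toFinite (C : Set G)).toFinset.card := by
          apply Finset.card_le_card
          intro z hz
          obtain ⟨y, hy, rfl⟩ := Finset.mem_image.mp hz
          simpa using hmaps y hy
      _ = Nat.card C := by
          rw [← Set.ncard_eq_toFinset_card]
          exact (Nat.card_coe_set_eq _).symm
  have hineq := Finset.card_le_mul_card_image A (Nat.card C) hfib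
  have himg : (A.image f).card ≤ K1.card := by
    apply Finset.card_le_card
    intro z hz
    obtain ⟨y, hy, rfl⟩ := Finset.mem_image.mp hz
    exact hfA y hy
  have hK1 : K1.card + 1 = H.index := by
    have h1 := card_kernel hH
    rw [Nat.card_coe_set_eq, Set.ncard_eq_toFinset_card _ (Set.toFinite _)] at h1
    rw [← h1]
    have h2 : K1 = (Set.toFinite (frobeniusKernel H)).toFinset.erase 1 := by
      ext z
      simp [K1, and_comm]
    rw [h2, Finset.card_erase_add_one (by simpa using one_mem_kernel)]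
  have hA : A.card + Nat.card H = Nat.card G := by
    have h1 := Set.ncard_add_ncard_compl (H : Set G) (Set.toFinite _) (Set.toFinite _)
    rw [Set.ncard_eq_toFinset_card _ (Set.toFinite (H : Set G)ᶜ)] at h1
    have h3 : (H : Set G).ncard = Nat.card H := (Nat.card_coe_set_eq _).symm
    rw [h3] at h1
    rw [add_comm]
    exact h1
  have hmul : H.index * Nat.card H = Nat.card G := Subgroup.index_mul_card H
  have hidx : 2 ≤ H.index := by
    have h1 : H.index ≠ 0 := Subgroup.index_ne_zero_of_finite
    have h2 : H.index ≠ 1 := fun h => hH.2.1 (Subgroup.index_eq_one.mp h)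
    omega
  have hCcard : Nat.card H ≤ Nat.card C := by
    obtain ⟨m, hm⟩ : ∃ m, H.index = m + 1 := ⟨H.index - 1, by omega⟩
    have hK2 : K1.card = m := by omega
    have hA2 : A.card = m * Nat.card H := by
      rw [hm] at hmul
      nlinarith
    have hmpos : 0 < m := by omega
    have h5 : m * Nat.card H ≤ Nat.card C * m := by
      calc m * Nat.card H = A.card := hA2.symm
        _ ≤ Nat.card C * (A.image f).card := hineq
        _ ≤ Nat.card C * m := by
            apply Nat.mul_le_mul_left
            omega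
    rw [mul_comm] at h5
    exact Nat.le_of_mul_le_mul_right h5 hmpos
  have hCeq : C = H := Subgroup.eq_of_le_of_card_ge hCH hCcard
  intro h hh
  have hhC : h ∈ C := by rw [hCeq]; exact hh
  exact Subgroup.mem_centralizer_singleton_iff.mp hhC

/-- Every kernel element has the form `x t x⁻¹ t`. -/
theorem exists_rep [Finite G] (hH : IsFrobeniusComplement H) (ht : t ∈ H) (ht1 : t ≠ 1)
    (ht2 : t * t = 1) {k : G} (hk : k ∈ frobeniusKernel H) : ∃ x : G, k = x * t * x⁻¹ * t := by
  classical
  have hmem : ∀ q : G ⧸ H, q.out * t * (q.out)⁻¹ * t ∈ frobeniusKernel H := by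
    intro q
    by_cases hq : q.out ∈ H
    · have h1 := central_of_invol hH ht ht1 ht2 _ hq
      have : q.out * t * (q.out)⁻¹ * t = 1 := by
        rw [h1]
        calc t * q.out * (q.out)⁻¹ * t = t * t := by group
          _ = 1 := ht2
      rw [this]
      exact one_mem_kernel
    · exact comm_mem_kernel hH ht ht1 ht2 hq
  let φ : G ⧸ H → frobeniusKernel H := fun q => ⟨_, hmem q⟩
  have hinj : Function.Injective φ := by
    intro q q' h
    have h1 : q.out * t * (q.out)⁻¹ * t = q'.out * t * (q'.out)⁻¹ * t := congrArg Subtype.val h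
    have h2 : q.out * t * (q.out)⁻¹ = q'.out * t * (q'.out)⁻¹ := mul_right_cancel h1
    have h3 : (q'.out)⁻¹ * q.out ∈ H := by
      apply centralizer_le hH ht ht1
      calc (q'.out)⁻¹ * q.out * t = (q'.out)⁻¹ * (q.out * t * (q.out)⁻¹) * q.out := by group
        _ = (q'.out)⁻¹ * (q'.out * t * (q'.out)⁻¹) * q.out := by rw [h2]
        _ = t * ((q'.out)⁻¹ * q.out) := by group
    have h4 : ((q'.out : G) : G ⧸ H) = ((q.out : G) : G ⧸ H) := QuotientGroup.eq.mpr h3
    rw [QuotientGroup.out_eq', QuotientGroup.out_eq'] at h4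
    exact h4.symm
  have hbij : Function.Bijective φ := by
    apply hinj.bijective_of_nat_card_le
    rw [card_kernel hH]
    rfl
  obtain ⟨q, hq⟩ := hbij.2 ⟨k, hk⟩
  exact ⟨q.out, (congrArg Subtype.val hq).symm⟩

/-- An involution of `H` inverts the kernel. -/
theorem inverts [Finite G] (hH : IsFrobeniusComplement H) (ht : t ∈ H) (ht1 : t ≠ 1)
    (ht2 : t * t = 1) {k : G} (hk : k ∈ frobeniusKernel H) : t * k * t = k⁻¹ := by
  obtain ⟨x, rfl⟩ := exists_rep hH ht ht1 ht2 hk
  have htinv : t⁻¹ = t := inv_eq_of_mul_eq_one_left ht2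
  rw [mul_inv_rev, mul_inv_rev, mul_inv_rev, htinv, inv_inv]
  calc t * (x * t * x⁻¹ * t) * t = t * x * t * x⁻¹ * (t * t) := by group
    _ = t * (x * (t * x⁻¹)) := by rw [ht2]; group

theorem comm_kernel [Finite G] (hH : IsFrobeniusComplement H) (ht : t ∈ H) (ht1 : t ≠ 1)
    (ht2 : t * t = 1) {a b : G} (ha : a ∈ frobeniusKernel H) (hb : b ∈ frobeniusKernel H) :
    a * b = b * a := by
  obtain ⟨x, rfl⟩ := exists_rep hH ht ht1 ht2 ha
  have h1 : t * b * t = b⁻¹ := inverts hH ht ht1 ht2 hb
  have hb' := conj_mem_kernel hb x⁻¹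
  have h2 : t * (x⁻¹ * b * x⁻¹⁻¹) * t = (x⁻¹ * b * x⁻¹⁻¹)⁻¹ := inverts hH ht ht1 ht2 hb'
  set u := x * t * x⁻¹ with hu
  have h3 : u * b * u = b⁻¹ := by
    have : u * b * u = x * (t * (x⁻¹ * b * x⁻¹⁻¹) * t) * x⁻¹ := by rw [hu]; group
    rw [this, h2]; group
  have huu : u * u = 1 := by
    rw [hu]
    calc x * t * x⁻¹ * (x * t * x⁻¹) = x * (t * t) * x⁻¹ := by group
      _ = 1 := by rw [ht2]; simp
  have h4 : u * b⁻¹ = b * u := by
    rw [← h3]
    calc u * (u * b * u) = (u * u) * b * u := by group
      _ = b * u := by rw [huu, one_mul]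
  have h5 : t * b = b⁻¹ * t := by
    rw [← h1]
    calc t * b = t * b * (t * t) := by rw [ht2, mul_one]
      _ = t * b * t * t := by group
  calc u * t * b = u * (t * b) := by group
    _ = u * (b⁻¹ * t) := by rw [h5]
    _ = (u * b⁻¹) * t := by group
    _ = b * u * t := by rw [h4]
    _ = b * (u * t) := by group

end Invol

/-- When a Frobenius complement contains an involution, an elementary argument shows the Frobenius kernel is closed under multiplication (hence a subgroup). -/
theorem result {G : Type*} [Group G] [Finite G] (H : Subgroup G) (hH : Cfsg.IsFrobeniusComplement H)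
    (t : G) (ht : t ∈ H) (ht1 : t ≠ 1) (ht2 : t * t = 1) :
    ∀ x ∈ Cfsg.frobeniusKernel H, ∀ y ∈ Cfsg.frobeniusKernel H, x * y ∈ Cfsg.frobeniusKernel H := by
  intro a ha b hb
  by_contra hcon
  obtain ⟨hv1, g, hg⟩ := not_mem_kernel_iff.mp hcon
  have hcomm := comm_kernel hH ht ht1 ht2 ha hb
  have hta := inverts hH ht ht1 ht2 ha
  have htb := inverts hH ht ht1 ht2 hb
  have htinv : t⁻¹ = t := inv_eq_of_mul_eq_one_left ht2
  have hinv : t * (a * b) * t⁻¹ = (a * b)⁻¹ := by
    rw [htinv]
    calc t * (a * b) * t = (t * a * t) * (t * b * t) := by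
          calc t * (a * b) * t = t * a * 1 * b * t := by group
            _ = t * a * (t * t) * b * t := by rw [ht2]
            _ = _ := by group
      _ = a⁻¹ * b⁻¹ := by rw [hta, htb]
      _ = (b * a)⁻¹ := by group
      _ = (a * b)⁻¹ := by rw [hcomm]
  have hgt : g⁻¹ * t * g ∈ H := mem_of_inverts hH hv1 hg hinv
  have hgH : g ∈ H := mem_of_conj_mem hH ht ht1 hgt
  have hvH : a * b ∈ H := by
    have := H.mul_mem (H.mul_mem hgH hg) (H.inv_mem hgH)
    have h3 : g * (g⁻¹ * (a * b) * g) * g⁻¹ = a * b := by group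
    rwa [h3] at this
  have hct := central_of_invol hH ht ht1 ht2 _ hvH
  have hvv : (a * b) * (a * b) = 1 := by
    have h1 : t * (a * b) * t⁻¹ = a * b := by
      rw [← hct]; group
    rw [h1] at hinv
    exact mul_eq_one_iff_eq_inv.mpr hinv
  -- `v = a * b` is an involution in `H`; it also inverts the kernel
  have hvt : (a * b) * t = 1 := by
    by_contra hne
    have hvtH : (a * b) * t ∈ H := H.mul_mem hvH ht
    -- some kernel element is nontrivial
    have hk : a ≠ 1 ∨ b ≠ 1 := by
      by_contra hh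
      push Not at hh
      apply hv1
      rw [hh.1, hh.2, one_mul]
    have hkey : ∀ k ∈ frobeniusKernel H, k ≠ 1 → False := by
      intro k hk hk1
      have hvk := inverts hH hvH hv1 hvv hk
      have htk := inverts hH ht ht1 ht2 hk
      have hcm : k * ((a * b) * t) * k⁻¹ = (a * b) * t := by
        have h1 : (a * b) * t * k = k * ((a * b) * t) := by
          have h2 : t * k = k⁻¹ * t := by
            rw [← htk]
            calc t * k = t * k * (t * t) := by rw [ht2, mul_one]
              _ = t * k * t * t := by group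
          have h3 : (a * b) * k⁻¹ = k * (a * b) := by
            rw [← hvk]
            calc (a * b) * ((a * b) * k * (a * b)) = ((a * b) * (a * b)) * k * (a * b) := by group
              _ = k * (a * b) := by rw [hvv, one_mul]
          calc (a * b) * t * k = (a * b) * (t * k) := by group
            _ = (a * b) * (k⁻¹ * t) := by rw [h2]
            _ = ((a * b) * k⁻¹) * t := by group
            _ = k * (a * b) * t := by rw [h3]
            _ = k * ((a * b) * t) := by group
        rw [← h1]; group
      have hkH : k ∈ H := mem_of_conj_mem' hH hvtH hne (by rw [hcm]; exact hvtH)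
      exact hk1 (eq_one_of_mem_kernel_of_mem hk hkH)
    rcases hk with h | h
    · exact hkey a ha h
    · exact hkey b hb h
  have hvet : a * b = t := by
    have : a * b = t⁻¹ := eq_inv_of_mul_eq_one_left hvt
    rwa [htinv] at this
  -- now `a` is an involution commuting with `t`
  have hb' : b = a⁻¹ * t := by
    rw [← hvet]; group
  have hbb : t * b * t = t * a⁻¹ := by
    rw [hb']
    calc t * (a⁻¹ * t) * t = t * a⁻¹ * (t * t) := by group
      _ = t * a⁻¹ := by rw [ht2, mul_one]
  have hbinv : b⁻¹ = t * a := by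
    rw [hb', mul_inv_rev, htinv, inv_inv]
  rw [htb, hbinv] at hbb
  have haa : a = a⁻¹ := mul_left_cancel hbb
  have hat : a * t = t * a := by
    have h1 : t * a * t = a := by rw [hta, ← haa]
    calc a * t = (t * a * t) * t := by rw [h1]
      _ = t * a * (t * t) := by group
      _ = t * a := by rw [ht2, mul_one]
  have haH : a ∈ H := centralizer_le hH ht ht1 hat
  have ha1 : a = 1 := eq_one_of_mem_kernel_of_mem ha haH
  apply hcon
  rw [ha1, one_mul]
  exact hb

end Cfsg.Agent.S0036
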