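import Mathlib
import Cfsg.Statements.S0039
import Cfsg.Agent.Lib.PCore

set_option autoImplicit false
open Cfsg
open scoped Pointwise

namespace Cfsg.Agent.S0039

open Cfsg.Agent.Lib.PCore in
/-- In a finite group that is a semidirect product of a normal subgroup K by a nontrivial subgroup H, H is a Frobenius complement exactly when each nonidentity element of H acts without nonidentity fixed points on K by conjugation. -/
theorem result {G : Type*} [Group G] [Finite G] (K H : Subgroup G) [K.Normal]
    (hc : Subgroup.IsComplement' K H) (hK : K ≠ ⊥) (hH : H ≠ ⊥) :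
    Cfsg.IsFrobeniusComplement H ↔ ∀ h ∈ H, h ≠ 1 → K ⊓ Subgroup.centralizer {h} = ⊥ := by
  have hnorm := ‹K.Normal›
  have hdis : ∀ x, x ∈ K → x ∈ H → x = 1 := by
    intro x hx hy
    have := Subgroup.disjoint_def.mp hc.disjoint hx hy
    exact this
  constructor
  · rintro ⟨-, -, hF⟩ h hh hh1
    rw [eq_bot_iff]
    intro x hx
    obtain ⟨hxK, hxC⟩ := Subgroup.mem_inf.mp hx
    rw [Subgroup.mem_centralizer_singleton_iff] at hxC
    rw [Subgroup.mem_bot]
    by_cases hxH : x ∈ H
    · exact hdis x hxK hxH
    · exfalso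
      have h1 := hF x hxH
      have h2 : h ∈ H ⊓ MulAut.conj x • H := by
        refine Subgroup.mem_inf.mpr ⟨hh, ?_⟩
        rw [mem_conj_smul_iff]
        have : x⁻¹ * h * x = h := by
          rw [mul_assoc, ← hxC, inv_mul_cancel_left]
        rwa [this]
      rw [h1, Subgroup.mem_bot] at h2
      exact hh1 h2
  · intro hfpf
    refine ⟨hH, ?_, ?_⟩
    · rintro rfl
      apply hK
      have := hc.disjoint
      rwa [disjoint_top] at this
    · intro g hg
      rw [eq_bot_iff]
      intro x hx
      obtain ⟨hxH, hxC⟩ := Subgroup.mem_inf.mp hx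
      rw [mem_conj_smul_iff] at hxC
      rw [Subgroup.mem_bot]
      by_contra hx1
      -- decompose g = k * h₁
      have hg' : g ∈ ((K ⊔ H : Subgroup G) : Set G) := by rw [hc.sup_eq_top]; trivial
      rw [Subgroup.normal_mul] at hg'
      obtain ⟨k, hk, h₁, hh₁, rfl⟩ := hg'
      have hk' : k ∈ K := hk
      have hh₁' : h₁ ∈ H := hh₁
      have hk1 : k ≠ 1 := by
        rintro rfl
        apply hg
        simpa using hh₁'
      let y := (k * h₁)⁻¹ * x * (k * h₁)
      have hy : y ∈ H := hxC
      have hy' : k⁻¹ * x * k ∈ H := by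
        have : k⁻¹ * x * k = h₁ * y * h₁⁻¹ := by
          simp only [y]
          group
        rw [this]
        exact H.mul_mem (H.mul_mem hh₁' hy) (H.inv_mem hh₁')
      have hz : x⁻¹ * (k⁻¹ * x * k) ∈ K := by
        have : x⁻¹ * (k⁻¹ * x * k) = (x⁻¹ * k⁻¹ * x) * k := by group
        rw [this]
        refine K.mul_mem ?_ hk'
        have := hnorm.conj_mem k⁻¹ (K.inv_mem hk') x⁻¹
        simpa using this
      have hz' : x⁻¹ * (k⁻¹ * x * k) ∈ H := H.mul_mem (H.inv_mem hxH) hy'
      have hz1 := hdis _ hz hz'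
      have hcomm : k⁻¹ * x * k = x := by
        rw [inv_mul_eq_one] at hz1
        exact hz1.symm
      have hmem : k ∈ K ⊓ Subgroup.centralizer {x} := by
        refine Subgroup.mem_inf.mpr ⟨hk', ?_⟩
        rw [Subgroup.mem_centralizer_singleton_iff]
        calc k * x = k * (k⁻¹ * x * k) := by rw [hcomm]
          _ = x * k := by group
      rw [hfpf x hxH hx1, Subgroup.mem_bot] at hmem
      exact hk1 hmem

end Cfsg.Agent.S0039
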