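import Mathlib
import Cfsg.Statements.S0040
import Cfsg.Agent.Lib.FrobCompl

set_option autoImplicit false
open Cfsg
open scoped IsMulCommutative
open Cfsg.Agent.Lib.FrobCompl Cfsg.Agent.Lib.FpfNorm

namespace Cfsg.Agent.S0040

/-- Sylow subgroups of Frobenius complements: if H complements a nontrivial normal subgroup K and every nonidentity element of H has trivial centraliser in K, then each Sylow subgroup of H is cyclic or isomorphic to a generalized quaternion group. -/
theorem result {G : Type*} [Group G] [Finite G] (K H : Subgroup G) [K.Normal]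
    (hc : Subgroup.IsComplement' K H) (hK : K ≠ ⊥) (hfpf : ∀ h ∈ H, h ≠ 1 → K ⊓ Subgroup.centralizer {h} = ⊥)
    (p : ℕ) [Fact p.Prime] (P : Sylow p H) :
    IsCyclic P ∨ ∃ n : ℕ, Nonempty (P ≃* QuaternionGroup (2 ^ n)) := by
  classical
  have hHK : H ≤ Subgroup.normalizer (K : Set G) := by
    rw [Subgroup.normalizer_eq_top_iff.mpr inferInstance]
    exact le_top
  have hcopH := coprime_of_fpf K H hHK hfpf
  set A' : Subgroup G := (P : Subgroup H).map H.subtype with hA'
  have hA'H : A' ≤ H := Subgroup.map_subtype_le _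
  have hpA : IsPGroup p A' := P.isPGroup'.map _
  haveI : Group.IsNilpotent A' := hpA.isNilpotent
  obtain ⟨V, hV, hVK, hVc, hA'V⟩ := exists_abelian_of_fpf K A' hK (hA'H.trans hHK)
    (Nat.Coprime.coprime_dvd_left (Subgroup.card_dvd_of_le hA'H) hcopH) (Or.inl inferInstance)
  have hf : IsFpf (conjHom A' V hA'V) := by
    apply conjHom_fpf
    intro a ha ha1
    rw [eq_bot_iff]
    calc V ⊓ Subgroup.centralizer {a} ≤ K ⊓ Subgroup.centralizer {a} := inf_le_inf_right _ hVK
      _ = ⊥ := hfpf a (hA'H ha) ha1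
      _ ≤ ⊥ := le_rfl
  let e : (P : Subgroup H) ≃* A' := Subgroup.equivMapOfInjective _ H.subtype H.subtype_injective
  have hf2 := hf.comp e.toMonoidHom e.injective
  haveI : Nontrivial V := (Subgroup.nontrivial_iff_ne_bot V).mpr hV
  rcases cyclic_or_quaternion_of_fpf P.isPGroup' hf2 with h | ⟨_, n, hn⟩
  · exact Or.inl h
  · exact Or.inr ⟨n, hn⟩

end Cfsg.Agent.S0040
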