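import Mathlib
import Cfsg.Statements.S0043

set_option autoImplicit false
open Cfsg

namespace Cfsg.Agent.S0043

/-- A minimal normal subgroup of a finite solvable group is abelian, and for some prime p all of its elements have order dividing p. -/
theorem result {G : Type*} [Group G] [Finite G] [Group.IsSolvable G]
    (N : Subgroup G) [N.Normal] (hN : N ≠ ⊥) (hmin : ∀ M : Subgroup G, M.Normal → M ≤ N → M = ⊥ ∨ M = N) :
    IsMulCommutative N ∧ ∃ p : ℕ, p.Prime ∧ ∀ x ∈ N, x ^ p = 1 := by
  have hcomm : ⁅N, N⁆ = ⊥ := by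
    rcases hmin ⁅N, N⁆ inferInstance (Subgroup.commutator_le_left N N) with h | h
    · exact h
    · exfalso
      obtain ⟨n, hn⟩ := (isSolvable_def G).mp inferInstance
      have key : ∀ k, N ≤ derivedSeries G k := by
        intro k
        induction k with
        | zero => simp
        | succ k ih =>
          rw [derivedSeries_succ, ← h]
          exact Subgroup.commutator_mono ih ih
      exact hN (le_bot_iff.mp (hn ▸ key n))
  have hc : ∀ x ∈ N, ∀ y ∈ N, x * y = y * x := by
    intro x hx y hy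
    have := Subgroup.commutator_mem_commutator hx hy
    rw [hcomm, Subgroup.mem_bot, commutatorElement_eq_one_iff_mul_comm] at this
    exact this
  refine ⟨⟨⟨fun x y => Subtype.ext (hc x x.2 y y.2)⟩⟩, ?_⟩
  have hNc : Nat.card N ≠ 1 := by
    intro h
    exact hN (Subgroup.card_eq_one.mp h)
  obtain ⟨p, hp, hpd⟩ := Nat.exists_prime_and_dvd hNc
  haveI : Fact p.Prime := ⟨hp⟩
  refine ⟨p, hp, ?_⟩
  let M : Subgroup G :=
    { carrier := {x | x ∈ N ∧ x ^ p = 1}
      mul_mem' := by
        rintro a b ⟨ha, ha'⟩ ⟨hb, hb'⟩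
        refine ⟨N.mul_mem ha hb, ?_⟩
        have : Commute a b := hc a ha b hb
        rw [this.mul_pow, ha', hb', one_mul]
      one_mem' := ⟨N.one_mem, one_pow _⟩
      inv_mem' := by
        rintro a ⟨ha, ha'⟩
        exact ⟨N.inv_mem ha, by rw [inv_pow, ha', inv_one]⟩ }
  have hMn : M.Normal := by
    constructor
    rintro a ⟨ha, ha'⟩ g
    refine ⟨‹N.Normal›.conj_mem a ha g, ?_⟩
    rw [conj_pow, ha', mul_one, mul_inv_cancel]
  obtain ⟨x, hx⟩ := exists_prime_orderOf_dvd_card' (G := N) p hpd
  have hxM : (x : G) ∈ M := by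
    refine ⟨x.2, ?_⟩
    have : x ^ p = 1 := by rw [← hx]; exact pow_orderOf_eq_one x
    simpa using congrArg (Subtype.val) this
  rcases hmin M hMn (fun a ha => ha.1) with h | h
  · exfalso
    rw [h, Subgroup.mem_bot] at hxM
    have hx1 : x = 1 := Subtype.ext hxM
    rw [hx1, orderOf_one] at hx
    exact hp.one_lt.ne hx
  · intro y hy
    rw [← h] at hy
    exact hy.2

end Cfsg.Agent.S0043
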