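import Mathlib
import Cfsg.Statements.S0050
import Cfsg.Agent.Lib.Hall
import Cfsg.Agent.Lib.Subnormal

set_option autoImplicit false
open Cfsg
open scoped Pointwise

namespace Cfsg.Agent.S0050

/-- Frattini argument for Hall subgroups: if L is a solvable normal subgroup and H a subgroup of L of order coprime to its index in L, then L together with the normaliser of H generates the whole group. -/
theorem result {G : Type*} [Group G] [Finite G] (L : Subgroup G) [L.Normal] (hL : Group.IsSolvable L)
    (H : Subgroup G) (hHL : H ≤ L) (hHall : (Nat.card H).Coprime (H.relIndex L)) :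
    L ⊔ Subgroup.normalizer (H : Set G) = ⊤ := by
  classical
  rw [eq_top_iff]
  intro g _
  have hcard : Nat.card (H.subgroupOf L) = Nat.card H :=
    Nat.card_congr (Subgroup.subgroupOfEquivOfLe hHL).toEquiv
  have hLcard : Nat.card L = Nat.card H * H.relIndex L := by
    rw [← hcard]
    exact (Subgroup.card_mul_index (H.subgroupOf L)).symm
  set K : Subgroup G := MulAut.conj g • H with hK
  have hKmem : ∀ x, x ∈ K ↔ g⁻¹ * x * g ∈ H := fun x => Cfsg.Agent.Lib.Subnormal.mem_conj_smul
  have hKL : K ≤ L := by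
    intro x hx
    have h1 := hHL ((hKmem x).mp hx)
    have h2 := Subgroup.Normal.conj_mem (inferInstance : L.Normal) _ h1 g
    have h3 : g * (g⁻¹ * x * g) * g⁻¹ = x := by group
    rwa [h3] at h2
  have hKc : Nat.card K = Nat.card H :=
    Nat.card_congr (MulEquiv.subgroupMap (MulAut.conj g) H).symm.toEquiv
  have hKc' : Nat.card (K.subgroupOf L) = Nat.card H := by
    rw [← hKc]
    exact Nat.card_congr (Subgroup.subgroupOfEquivOfLe hKL).toEquiv
  obtain ⟨l, hl⟩ := (Cfsg.Agent.Lib.Hall.hall_main _ L _ _ rfl hLcard hHall).2 (H.subgroupOf L)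
    (K.subgroupOf L) hcard (by rw [hKc']; exact hHall)
  have hnorm : (l : G)⁻¹ * g ∈ Subgroup.normalizer (H : Set G) := by
    apply Cfsg.Agent.Lib.Subnormal.mem_normalizer_of_conj_mem
    intro d hd
    have h1 : g * d * g⁻¹ ∈ K := by
      rw [hKmem]
      have : g⁻¹ * (g * d * g⁻¹) * g = d := by group
      rwa [this]
    have h2 := hl (Subgroup.mem_subgroupOf.mpr h1 : (⟨g * d * g⁻¹, hKL h1⟩ : L) ∈ K.subgroupOf L)
    rw [Cfsg.Agent.Lib.Subnormal.mem_conj_smul, Subgroup.mem_subgroupOf] at h2
    have h3 : (l : G)⁻¹ * g * d * ((l : G)⁻¹ * g)⁻¹ = (l : G)⁻¹ * (g * d * g⁻¹) * (l : G) := by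
      group
    rw [h3]
    simpa using h2
  have h1 : g = (l : G) * ((l : G)⁻¹ * g) := by group
  rw [h1]
  exact Subgroup.mul_mem_sup l.2 hnorm

end Cfsg.Agent.S0050
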