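import Mathlib
import Cfsg.Statements.S0045
import Cfsg.Agent.Lib.PCore
import Cfsg.Agent.Lib.Coprime
import Cfsg.Agent.Lib.Glauberman2
import Cfsg.Agent.Lib.Subnormal
import Cfsg.Agent.Lib.Replacement
import Cfsg.Agent.S0050

set_option autoImplicit false
open Pointwise
open Cfsg

namespace Cfsg.Agent.S0045

open Cfsg.Agent.Lib.PCore Cfsg.Agent.Lib.Glauberman2
open scoped commutatorElement Pointwise

universe u

/-- Carter subgroups -/
def IsCarter {G : Type*} [Group G] (C : Subgroup G) : Prop :=
  Group.IsNilpotent C ∧ Subgroup.normalizer (C : Set G) = C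

/-- Conjugacy of Carter subgroups -/
def ConjP (G : Type*) [Group G] : Prop :=
  ∀ C D : Subgroup G, IsCarter C → IsCarter D → ∃ g : G, MulAut.conj g • C = D

section Basic

variable {G : Type*} [Group G]

theorem conj_smul_smul (x y : G) (C : Subgroup G) :
    MulAut.conj x • (MulAut.conj y • C) = MulAut.conj (x * y) • C := by
  rw [map_mul, mul_smul]

theorem IsCarter.conj {C : Subgroup G} (hC : IsCarter C) (g : G) : IsCarter (MulAut.conj g • C) := by
  constructor
  · haveI := hC.1
    exact Group.nilpotent_of_mulEquiv (MulEquiv.subgroupMap (MulAut.conj g) C)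
  · ext x
    rw [mem_normalizer_iff_conj_smul_eq, mem_conj_smul_iff]
    have hN : ∀ y, y ∈ C ↔ MulAut.conj y • C = C := by
      intro y
      rw [← mem_normalizer_iff_conj_smul_eq, hC.2]
    rw [hN, conj_smul_smul]
    constructor
    · intro h
      have h1 : MulAut.conj (g⁻¹ * x * g) • C =
          MulAut.conj g⁻¹ • (MulAut.conj (x * g) • C) := by
        rw [conj_smul_smul]
        group
      rw [h1, h, conj_smul_smul, inv_mul_cancel, map_one, one_smul]
    · intro h
      have h1 : x * g = g * (g⁻¹ * x * g) := by group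
      rw [h1, ← conj_smul_smul, h]

theorem IsCarter.subgroupOf {C M : Subgroup G} (hC : IsCarter C) (hCM : C ≤ M) :
    IsCarter (C.subgroupOf M) := by
  constructor
  · haveI := hC.1
    exact Group.nilpotent_of_mulEquiv (Subgroup.subgroupOfEquivOfLe hCM).symm
  · rw [← Subgroup.subgroupOf_normalizer_eq hCM, hC.2]

/-- conjugacy in a subgroup gives conjugacy in the group -/
theorem conj_of_subgroupOf {A B M : Subgroup G} (hA : A ≤ M) (hB : B ≤ M) (y : M)
    (h : MulAut.conj y • A.subgroupOf M = B.subgroupOf M) : MulAut.conj (y : G) • A = B := by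
  have h1 := map_subtype_conj_smul M y (A.subgroupOf M)
  rw [h, Subgroup.map_subgroupOf_eq_of_le hA, Subgroup.map_subgroupOf_eq_of_le hB] at h1
  exact h1.symm

/-- Lemma K. -/
theorem normalizer_sup_eq [Finite G] {C : Subgroup G} (N : Subgroup G) [N.Normal] (hC : IsCarter C)
    (hconj : C ⊔ N ≠ ⊤ → ConjP (↥(C ⊔ N))) :
    Subgroup.normalizer ((C ⊔ N : Subgroup G) : Set G) = C ⊔ N := by
  apply le_antisymm _ Subgroup.le_normalizer
  intro g hg
  by_cases htop : C ⊔ N = ⊤
  · rw [htop]; trivial
  set M := C ⊔ N with hM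
  have hCM : C ≤ M := le_sup_left
  have hgC : MulAut.conj g • C ≤ M := by
    intro x hx
    rw [mem_conj_smul_iff] at hx
    have h1 := hCM hx
    have h2 := (Subgroup.mem_normalizer_iff.mp hg _).mp h1
    convert h2 using 1
    group
  obtain ⟨y, hy⟩ := hconj htop _ _ (hC.subgroupOf hCM) ((hC.conj g).subgroupOf hgC)
  have h1 := conj_of_subgroupOf hCM hgC y hy
  have h2 : (y : G)⁻¹ * g ∈ Subgroup.normalizer (C : Set G) := by
    rw [mem_normalizer_iff_conj_smul_eq, ← conj_smul_smul, ← h1, conj_smul_smul, inv_mul_cancel,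
      map_one, one_smul]
  rw [hC.2] at h2
  have h3 : g = (y : G) * ((y : G)⁻¹ * g) := by group
  rw [h3]
  exact M.mul_mem y.2 (hCM h2)

/-- Lemma L. -/
theorem sup_ker_eq_top [Finite G] {Y : Type*} [Group Y] (f : G →* Y) (hf : Function.Surjective f)
    (hY : Group.IsNilpotent Y) {C : Subgroup G} (hC : IsCarter C)
    (hconj : C ⊔ f.ker ≠ ⊤ → ConjP (↥(C ⊔ f.ker))) : C ⊔ f.ker = ⊤ := by
  haveI : Finite Y := Finite.of_surjective f hf
  have hK := normalizer_sup_eq f.ker hC hconj
  have hcomap : (C.map f).comap f = C ⊔ f.ker := Subgroup.comap_map_eq f C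
  by_contra htop
  have hne : C.map f ≠ ⊤ := by
    intro h
    apply htop
    rw [← hcomap, h, Subgroup.comap_top]
  have hnc := Group.normalizerCondition_of_isNilpotent (G := Y)
  have hlt := hnc (C.map f) (lt_top_iff_ne_top.mpr hne)
  obtain ⟨z, hz, hz'⟩ := SetLike.exists_of_lt hlt
  obtain ⟨x, rfl⟩ := hf z
  have hx : x ∈ Subgroup.normalizer ((C ⊔ f.ker : Subgroup G) : Set G) := by
    apply Cfsg.Agent.Lib.Subnormal.mem_normalizer_of_conj_mem
    intro d hd
    rw [← hcomap] at hd ⊢
    rw [Subgroup.mem_comap] at hd ⊢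
    have h1 := (Subgroup.mem_normalizer_iff.mp hz _).mp hd
    simpa using h1
  rw [hK, ← hcomap, Subgroup.mem_comap] at hx
  exact hz' hx

/-- Images of Carter subgroups are Carter. -/
theorem IsCarter.map_quotient [Finite G] {C : Subgroup G} (N : Subgroup G) [N.Normal]
    (hC : IsCarter C) (hconj : C ⊔ N ≠ ⊤ → ConjP (↥(C ⊔ N))) :
    IsCarter (C.map (QuotientGroup.mk' N)) := by
  set π := QuotientGroup.mk' N with hπ
  have hsurj : Function.Surjective π := QuotientGroup.mk'_surjective N
  have hK := normalizer_sup_eq N hC hconj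
  have hcomap : (C.map π).comap π = C ⊔ N := by
    rw [Subgroup.comap_map_eq, hπ, QuotientGroup.ker_mk']
  constructor
  · haveI := hC.1
    exact Group.nilpotent_of_surjective (π.subgroupMap C) (MonoidHom.subgroupMap_surjective π C)
  · apply le_antisymm _ Subgroup.le_normalizer
    intro z hz
    obtain ⟨x, rfl⟩ := hsurj z
    have hx : x ∈ Subgroup.normalizer ((C ⊔ N : Subgroup G) : Set G) := by
      apply Cfsg.Agent.Lib.Subnormal.mem_normalizer_of_conj_mem
      intro d hd
      rw [← hcomap] at hd ⊢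
      rw [Subgroup.mem_comap] at hd ⊢
      have h1 := (Subgroup.mem_normalizer_iff.mp hz _).mp hd
      simpa using h1
    rw [hK, ← hcomap, Subgroup.mem_comap] at hx
    exact hx

end Basic

section Quot

variable {G : Type*} [Group G] [Finite G]

/-- Lemma M. -/
theorem nilpotent_of_normal_compl (p : ℕ) [Fact p.Prime] (N : Subgroup G) [N.Normal]
    (hNp : IsPGroup p N) (hbar : Group.IsNilpotent (G ⧸ N)) (Q : Subgroup G) (hQn : Q.Normal)
    (hQc : (Nat.card Q).Coprime p)
    (hLQ : (pPrimeCore p (G ⧸ N)).comap (QuotientGroup.mk' N) ≤ N ⊔ Q) : Group.IsNilpotent G := by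
  set π := QuotientGroup.mk' N with hπ
  have hsurj : Function.Surjective π := QuotientGroup.mk'_surjective N
  have hkerπ : π.ker = N := QuotientGroup.ker_mk' N
  set H₁ : Subgroup G := (pCore p (G ⧸ N)).comap π with hH₁
  have hH₁p : IsPGroup p H₁ :=
    (isPGroup_pCore p).comap_of_ker_isPGroup π (by rw [hkerπ]; exact hNp)
  have hH₁n : H₁.Normal := Subgroup.Normal.comap inferInstance π
  have hNH₁ : N ≤ H₁ := by
    intro x hx
    rw [hH₁, Subgroup.mem_comap]
    have : π x = 1 := by
      rw [← MonoidHom.mem_ker, hkerπ]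
      exact hx
    rw [this]
    exact Subgroup.one_mem _
  obtain ⟨a, ha⟩ := IsPGroup.iff_card.mp hNp
  have hQN : ∀ x ∈ Q, x ∈ N → x = 1 := by
    intro x hxQ hxN
    have h1 : orderOf x ∣ Nat.card Q := Subgroup.orderOf_dvd_natCard Q hxQ
    have h2 : orderOf x ∣ Nat.card N := Subgroup.orderOf_dvd_natCard N hxN
    rw [ha] at h2
    have hc : (Nat.card Q).Coprime (p ^ a) := Nat.Coprime.pow_right a hQc
    exact orderOf_eq_one_iff.mp (Nat.eq_one_of_dvd_coprimes hc h1 h2)
  have hQnil : Group.IsNilpotent Q := by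
    haveI := hbar
    apply Subgroup.isNilpotent_of_ker_le_center (π.comp Q.subtype)
    intro x hx
    have h1 : π (x : G) = 1 := hx
    have h2 : (x : G) ∈ N := by
      rw [← hkerπ, MonoidHom.mem_ker]
      exact h1
    have h3 := hQN x x.2 h2
    have h4 : x = 1 := Subtype.ext h3
    rw [h4]
    exact Subgroup.one_mem _
  have hF1 : H₁ ≤ fittingSubgroup G := le_fittingSubgroup hH₁n hH₁p.isNilpotent
  have hF2 : Q ≤ fittingSubgroup G := le_fittingSubgroup hQn hQnil
  have htop : H₁ ⊔ (pPrimeCore p (G ⧸ N)).comap π = ⊤ := by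
    rw [hH₁, Subgroup.comap_sup_eq π _ _ hsurj]
    have h1 := fittingSubgroup_le_sup (G := G ⧸ N) p
    rw [fittingSubgroup_eq_top_of_nilpotent] at h1
    rw [top_le_iff.mp h1, Subgroup.comap_top]
  have hFtop : fittingSubgroup G = ⊤ := by
    rw [eq_top_iff, ← htop]
    refine sup_le hF1 (hLQ.trans (sup_le (hNH₁.trans hF1) hF2))
  have hFnil : Group.IsNilpotent (fittingSubgroup G) := isNilpotent_fittingSubgroup
  refine Group.nilpotent_of_surjective (fittingSubgroup G).subtype ?_
  intro x
  exact ⟨⟨x, by rw [hFtop]; trivial⟩, rfl⟩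

/-- Existence when the quotient by a minimal normal subgroup is nilpotent. -/
theorem exists_carter_of_nilpotent_quotient [Group.IsSolvable G] (p : ℕ) [hp : Fact p.Prime]
    (N : Subgroup G) [N.Normal] (hNp : IsPGroup p N) (hNcomm : ∀ a ∈ N, ∀ b ∈ N, a * b = b * a)
    (hNmin : ∀ M : Subgroup G, M.Normal → M ≤ N → M = ⊥ ∨ M = N)
    (hbar : Group.IsNilpotent (G ⧸ N)) (hG : ¬ Group.IsNilpotent G) : ∃ C : Subgroup G, IsCarter C := by
  classical
  set π := QuotientGroup.mk' N with hπ
  have hsurj : Function.Surjective π := QuotientGroup.mk'_surjective N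
  have hkerπ : π.ker = N := QuotientGroup.ker_mk' N
  set O := pPrimeCore p (G ⧸ N) with hO
  set L : Subgroup G := O.comap π with hL
  have hLn : L.Normal := Subgroup.Normal.comap inferInstance π
  have hNL : N ≤ L := by
    intro x hx
    rw [hL, Subgroup.mem_comap]
    have : π x = 1 := by
      rw [← MonoidHom.mem_ker, hkerπ]
      exact hx
    rw [this]
    exact Subgroup.one_mem _
  set N' : Subgroup L := N.subgroupOf L with hN'
  have hN'n : N'.Normal := inferInstance
  have hN'c : Nat.card N' = Nat.card N := Nat.card_congr (Subgroup.subgroupOfEquivOfLe hNL).toEquiv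
  have hN'i : N'.index = Nat.card O := by
    have hker : (π.subgroupComap O).ker = N' := by
      ext x
      rw [MonoidHom.mem_ker, hN', Subgroup.mem_subgroupOf]
      constructor
      · intro h
        have h1 : π (x : G) = 1 := congrArg Subtype.val h
        exact (QuotientGroup.eq_one_iff _).mp h1
      · intro h
        apply Subtype.ext
        exact (QuotientGroup.eq_one_iff _).mpr h
    rw [← hker, Subgroup.index_ker, MonoidHom.range_eq_top.mpr
      (MonoidHom.subgroupComap_surjective_of_surjective π O hsurj), Subgroup.card_top]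
  obtain ⟨a, ha⟩ := IsPGroup.iff_card.mp hNp
  have hOc : (Nat.card O).Coprime p := card_pPrimeCore_coprime p
  have hcop : (Nat.card N').Coprime N'.index := by
    rw [hN'c, hN'i, ha]
    exact (Nat.Coprime.pow_right a hOc).symm
  obtain ⟨Q', hQ'⟩ := Subgroup.exists_right_complement'_of_coprime hcop
  set Q : Subgroup G := Q'.map L.subtype with hQ
  have hQL : Q ≤ L := Subgroup.map_subtype_le _
  have hQcard : Nat.card Q = Nat.card O := by
    rw [hQ, Subgroup.card_map_of_injective L.subtype_injective, ← hN'i]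
    exact hQ'.symm.index_eq_card.symm
  have hQc : (Nat.card Q).Coprime p := by rw [hQcard]; exact hOc
  have hLQ : L ≤ N ⊔ Q := by
    intro x hx
    obtain ⟨⟨n, q⟩, hnq⟩ := hQ'.2 ⟨x, hx⟩
    have hnq' : ((n : L) : G) * ((q : L) : G) = x := congrArg Subtype.val hnq
    rw [← hnq']
    exact Subgroup.mul_mem_sup (Subgroup.mem_subgroupOf.mp n.2) ⟨q, q.2, rfl⟩
  have hrel : Q.relIndex L = Nat.card N := by
    have h1 : Q.subgroupOf L = Q' := by
      ext x
      rw [Subgroup.mem_subgroupOf, hQ]
      constructor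
      · rintro ⟨y, hy, hyx⟩
        have : y = x := Subtype.ext hyx
        rwa [← this]
      · intro hx
        exact ⟨x, hx, rfl⟩
    rw [Subgroup.relIndex, h1, hQ'.index_eq_card, hN'c]
  have hHall : (Nat.card Q).Coprime (Q.relIndex L) := by
    rw [hrel, ha]
    exact Nat.Coprime.pow_right a hQc
  have hFr := Cfsg.Agent.S0050.result L inferInstance Q hQL hHall
  set C := Subgroup.normalizer (Q : Set G) with hC
  have hQC : Q ≤ C := Subgroup.le_normalizer
  have hNC : N ⊔ C = ⊤ := by
    rw [eq_top_iff, ← hFr]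
    refine sup_le (hLQ.trans (sup_le le_sup_left (hQC.trans le_sup_right))) le_sup_right
  set T := C ⊓ N with hT
  have hTn : T.Normal := by
    rw [← Subgroup.normalizer_eq_top_iff, eq_top_iff, ← hNC]
    refine sup_le ?_ ?_
    · intro n hn
      apply Cfsg.Agent.Lib.Subnormal.mem_normalizer_of_conj_mem
      intro t ht
      have ht2 := (Subgroup.mem_inf.mp ht).2
      have : n * t * n⁻¹ = t := by
        rw [hNcomm n hn t ht2]
        group
      rw [this]
      exact ht
    · intro c hc
      apply Cfsg.Agent.Lib.Subnormal.mem_normalizer_of_conj_mem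
      intro t ht
      obtain ⟨ht1, ht2⟩ := Subgroup.mem_inf.mp ht
      exact Subgroup.mem_inf.mpr ⟨C.mul_mem (C.mul_mem hc ht1) (C.inv_mem hc),
        Subgroup.Normal.conj_mem inferInstance _ ht2 c⟩
  rcases hNmin T hTn inf_le_right with hT0 | hT1
  · -- the main case: `C ∩ N = 1`
    refine ⟨C, ?_, ?_⟩
    · haveI := hbar
      apply Subgroup.isNilpotent_of_ker_le_center (π.comp C.subtype)
      intro x hx
      have h1 : π (x : G) = 1 := hx
      have h2 : (x : G) ∈ N := by
        rw [← hkerπ, MonoidHom.mem_ker]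
        exact h1
      have h3 : (x : G) ∈ T := Subgroup.mem_inf.mpr ⟨x.2, h2⟩
      rw [hT0, Subgroup.mem_bot] at h3
      have h4 : x = 1 := Subtype.ext h3
      rw [h4]
      exact Subgroup.one_mem _
    · apply le_antisymm _ Subgroup.le_normalizer
      intro g hg
      have hgtop : g ∈ ((C ⊔ N : Subgroup G) : Set G) := by
        rw [sup_comm, hNC]; trivial
      rw [Subgroup.mul_normal, Set.mem_mul] at hgtop
      obtain ⟨c, hc, n, hn, rfl⟩ := hgtop
      have hcC : c ∈ C := hc
      have hcN : c ∈ Subgroup.normalizer (C : Set G) := Subgroup.le_normalizer hcC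
      have hnN : n ∈ Subgroup.normalizer (C : Set G) := by
        have := Subgroup.mul_mem _ (Subgroup.inv_mem _ hcN) hg
        simpa using this
      have hnN' : n ∈ N := hn
      have hnC : n ∈ C := by
        apply Cfsg.Agent.Lib.Subnormal.mem_normalizer_of_conj_mem
        intro q hq
        have hqC := hQC hq
        have h1 : n * q * n⁻¹ ∈ C := (Subgroup.mem_normalizer_iff.mp hnN _).mp hqC
        have h2 : n * q * n⁻¹ * q⁻¹ ∈ C := C.mul_mem h1 (C.inv_mem hqC)
        have h3 : n * q * n⁻¹ * q⁻¹ ∈ N := by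
          have e : n * q * n⁻¹ * q⁻¹ = n * (q * n⁻¹ * q⁻¹) := by group
          rw [e]
          exact N.mul_mem hnN' (Subgroup.Normal.conj_mem inferInstance _ (N.inv_mem hnN') q)
        have h4 : n * q * n⁻¹ * q⁻¹ ∈ T := Subgroup.mem_inf.mpr ⟨h2, h3⟩
        rw [hT0, Subgroup.mem_bot] at h4
        have h5 : n * q * n⁻¹ = q := by
          calc n * q * n⁻¹ = (n * q * n⁻¹ * q⁻¹) * q := by group
            _ = q := by rw [h4, one_mul]
        rw [h5]
        exact hq
      exact C.mul_mem hcC hnC
  · -- `N ≤ C`, so `Q` is normal and `G` is nilpotent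
    exfalso
    apply hG
    have hNCle : N ≤ C := by
      rw [← hT1]
      exact inf_le_left
    have hCtop : C = ⊤ := by
      rw [← hNC, sup_eq_right.mpr hNCle]
    have hQn : Q.Normal := Subgroup.normalizer_eq_top_iff.mp hCtop
    exact nilpotent_of_normal_compl p N hNp hbar Q hQn hQc hLQ

/-- Properties of the `p'`-part of a nilpotent subgroup covering the quotient. -/
theorem part_props (p : ℕ) [hp : Fact p.Prime] (N : Subgroup G) [N.Normal] (hNp : IsPGroup p N)
    (X : Subgroup G) (hXn : Group.IsNilpotent X) (hXs : X ⊔ N = ⊤) :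
    X ≤ Subgroup.normalizer (((pPrimeCore p X).map X.subtype : Subgroup G) : Set G) ∧
    (Nat.card ((pPrimeCore p X).map X.subtype : Subgroup G)).Coprime p ∧
    ((pPrimeCore p X).map X.subtype : Subgroup G) ≤
      (pPrimeCore p (G ⧸ N)).comap (QuotientGroup.mk' N) ∧
    (pPrimeCore p (G ⧸ N)).comap (QuotientGroup.mk' N) ≤
      N ⊔ ((pPrimeCore p X).map X.subtype : Subgroup G) := by
  classical
  set π := QuotientGroup.mk' N with hπ
  have hsurj : Function.Surjective π := QuotientGroup.mk'_surjective N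
  have hkerπ : π.ker = N := QuotientGroup.ker_mk' N
  set A : Subgroup G := (pPrimeCore p X).map X.subtype with hA
  have hAc : (Nat.card A).Coprime p := by
    rw [hA, Subgroup.card_map_of_injective X.subtype_injective]
    exact card_pPrimeCore_coprime p
  have hmem : ∀ g : G, ∃ x ∈ X, ∃ n ∈ N, g = x * n := by
    intro g
    have hg : g ∈ ((X ⊔ N : Subgroup G) : Set G) := by rw [hXs]; trivial
    rw [Subgroup.mul_normal, Set.mem_mul] at hg
    obtain ⟨x, hx, n, hn, rfl⟩ := hg
    exact ⟨x, hx, n, hn, rfl⟩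
  have hπn : ∀ n ∈ N, π n = 1 := by
    intro n hn
    rw [← MonoidHom.mem_ker, hkerπ]
    exact hn
  have hnorm : X ≤ Subgroup.normalizer (A : Set G) := by
    intro x hx
    apply Cfsg.Agent.Lib.Subnormal.mem_normalizer_of_conj_mem
    rintro _ ⟨b, hb, rfl⟩
    exact ⟨⟨x, hx⟩ * b * ⟨x, hx⟩⁻¹, Subgroup.Normal.conj_mem inferInstance _ hb _, rfl⟩
  have hAL : A ≤ (pPrimeCore p (G ⧸ N)).comap π := by
    have hn : (A.map π).Normal := by
      constructor
      rintro _ ⟨a, ha, rfl⟩ z
      obtain ⟨g, rfl⟩ := hsurj z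
      obtain ⟨x, hx, n, hn, rfl⟩ := hmem g
      refine ⟨x * a * x⁻¹, (Subgroup.mem_normalizer_iff.mp (hnorm hx) a).mp ha, ?_⟩
      simp [hπn n hn]
    have hc : (Nat.card (A.map π)).Coprime p :=
      Nat.Coprime.coprime_dvd_left (Subgroup.card_map_dvd A π) hAc
    have := le_pPrimeCore hn hc
    intro a ha
    exact this ⟨a, ha, rfl⟩
  refine ⟨hnorm, hAc, hAL, ?_⟩
  -- the covering
  intro y hy
  obtain ⟨c, hc, n, hn, rfl⟩ := hmem y
  have hπc : π c ∈ pPrimeCore p (G ⧸ N) := by
    have : π (c * n) ∈ pPrimeCore p (G ⧸ N) := hy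
    rwa [map_mul, hπn n hn, mul_one] at this
  have htopX : pCore p X ⊔ pPrimeCore p X = ⊤ := by
    have h1 := fittingSubgroup_le_sup (G := X) p
    rw [fittingSubgroup_eq_top_of_nilpotent] at h1
    exact top_le_iff.mp h1
  have hcX : (⟨c, hc⟩ : X) ∈ ((pCore p X ⊔ pPrimeCore p X : Subgroup X) : Set X) := by
    rw [htopX]; trivial
  rw [Subgroup.mul_normal, Set.mem_mul] at hcX
  obtain ⟨u, hu, v, hv, huv⟩ := hcX
  have huv' : (u : G) * (v : G) = c := congrArg Subtype.val huv
  have hvA : (v : G) ∈ A := ⟨v, hv, rfl⟩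
  have hvL : π (v : G) ∈ pPrimeCore p (G ⧸ N) := hAL hvA
  have huL : π (u : G) ∈ pPrimeCore p (G ⧸ N) := by
    have h1 : (u : G) = c * (v : G)⁻¹ := by rw [← huv']; group
    rw [h1, map_mul, map_inv]
    exact Subgroup.mul_mem _ hπc (Subgroup.inv_mem _ hvL)
  -- `u` is a `p`-element
  have huN : (u : G) ∈ N := by
    obtain ⟨k, hk⟩ := (isPGroup_pCore (G := X) p) ⟨u, hu⟩
    have hk' : (u : X) ^ (p ^ k) = 1 := congrArg Subtype.val hk
    have hk'' : (u : G) ^ (p ^ k) = 1 := congrArg Subtype.val hk'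
    have h2 : (π (u : G)) ^ (p ^ k) = 1 := by
      rw [← map_pow, hk'', map_one]
    have h3 : orderOf (π (u : G)) ∣ p ^ k := orderOf_dvd_of_pow_eq_one h2
    have h4 : orderOf (π (u : G)) ∣ Nat.card (pPrimeCore p (G ⧸ N)) :=
      Subgroup.orderOf_dvd_natCard _ huL
    have h5 : (Nat.card (pPrimeCore p (G ⧸ N))).Coprime (p ^ k) :=
      Nat.Coprime.pow_right k (card_pPrimeCore_coprime p)
    have h6 := orderOf_eq_one_iff.mp (Nat.eq_one_of_dvd_coprimes h5 h4 h3)
    rw [← hkerπ, MonoidHom.mem_ker]
    exact h6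
  have e : (u : G) * (v : G) * n = (u : G) * ((v : G) * n * (v : G)⁻¹) * (v : G) := by group
  rw [← huv', e]
  refine Subgroup.mul_mem _ ?_ ((le_sup_right : A ≤ N ⊔ A) hvA)
  exact (le_sup_left : N ≤ N ⊔ A) (N.mul_mem huN (Subgroup.Normal.conj_mem inferInstance _ hn _))

/-- Conjugacy when the quotient by a normal `p`-subgroup is nilpotent. -/
theorem conj_of_nilpotent_quotient [Group.IsSolvable G] (p : ℕ) [hp : Fact p.Prime]
    (N : Subgroup G) [N.Normal] (hNp : IsPGroup p N)
    (hbar : Group.IsNilpotent (G ⧸ N)) (hG : ¬ Group.IsNilpotent G)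
    (hsub : ∀ R : Subgroup G, R ≠ ⊤ → ConjP R) (C D : Subgroup G) (hC : IsCarter C)
    (hD : IsCarter D) (hCs : C ⊔ N = ⊤) (hDs : D ⊔ N = ⊤) : ∃ g : G, MulAut.conj g • C = D := by
  classical
  obtain ⟨hC1, hC2, hC3, hC4⟩ := part_props p N hNp C hC.1 hCs
  obtain ⟨hD1, hD2, hD3, hD4⟩ := part_props p N hNp D hD.1 hDs
  set A : Subgroup G := (pPrimeCore p C).map C.subtype with hA
  set B : Subgroup G := (pPrimeCore p D).map D.subtype with hB
  set π := QuotientGroup.mk' N with hπ
  have hkerπ : π.ker = N := QuotientGroup.ker_mk' N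
  set L : Subgroup G := (pPrimeCore p (G ⧸ N)).comap π with hL
  have hLn : L.Normal := Subgroup.Normal.comap inferInstance π
  have hNL : N ≤ L := by
    intro x hx
    rw [hL, Subgroup.mem_comap]
    have : π x = 1 := by
      rw [← MonoidHom.mem_ker, hkerπ]
      exact hx
    rw [this]
    exact Subgroup.one_mem _
  set N' : Subgroup L := N.subgroupOf L with hN'
  have hN'n : N'.Normal := inferInstance
  have hN'c : Nat.card N' = Nat.card N := Nat.card_congr (Subgroup.subgroupOfEquivOfLe hNL).toEquiv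
  obtain ⟨a, ha⟩ := IsPGroup.iff_card.mp hNp
  have hNtop : Subgroup.normalizer (N : Set G) = ⊤ := Subgroup.normalizer_eq_top_iff.mpr inferInstance
  -- `A` and `B` complement `N'` in `L`
  have hkey : ∀ X : Subgroup G, (Nat.card X).Coprime p → X ≤ L → L ≤ N ⊔ X →
      Nat.card (X.subgroupOf L) = N'.index := by
    intro X hXc hXL hLX
    have h0 : X ⊓ N = ⊥ := by
      rw [eq_bot_iff]
      intro x hx
      obtain ⟨hx1, hx2⟩ := Subgroup.mem_inf.mp hx
      have h1 : orderOf x ∣ Nat.card X := Subgroup.orderOf_dvd_natCard X hx1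
      have h2 : orderOf x ∣ Nat.card N := Subgroup.orderOf_dvd_natCard N hx2
      rw [ha] at h2
      exact orderOf_eq_one_iff.mp (Nat.eq_one_of_dvd_coprimes (Nat.Coprime.pow_right a hXc) h1 h2)
    have h1 := Cfsg.Agent.Lib.Replacement.card_sup_mul_card_inf X N (by rw [hNtop]; exact le_top)
    rw [h0, Subgroup.card_bot, mul_one] at h1
    have h2 : X ⊔ N = L := le_antisymm (sup_le hXL hNL) (by rw [sup_comm]; exact hLX)
    rw [h2] at h1
    have h3 := Subgroup.card_mul_index N'
    rw [h1, hN'c, mul_comm] at h3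
    have h4 : Nat.card (X.subgroupOf L) = Nat.card X :=
      Nat.card_congr (Subgroup.subgroupOfEquivOfLe hXL).toEquiv
    rw [h4]
    exact (Nat.eq_of_mul_eq_mul_right Nat.card_pos h3).symm
  have hAi := hkey A hC2 hC3 hC4
  have hBi := hkey B hD2 hD3 hD4
  have hcop : (Nat.card N').Coprime N'.index := by
    rw [hN'c, ha, ← hAi]
    have h4 : Nat.card (A.subgroupOf L) = Nat.card A :=
      Nat.card_congr (Subgroup.subgroupOfEquivOfLe hC3).toEquiv
    rw [h4]
    exact (Nat.Coprime.pow_right a hC2).symm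
  obtain ⟨l, hl⟩ := Cfsg.Agent.Lib.Coprime.sz_conj_of_card N' hcop (Or.inl inferInstance)
    (A.subgroupOf L) (B.subgroupOf L) hAi hBi
  have hl' := conj_of_subgroupOf hC3 hD3 l hl
  set C₂ : Subgroup G := MulAut.conj (l : G) • C with hC₂
  have hC₂N : C₂ ≤ Subgroup.normalizer (B : Set G) := by
    intro x hx
    rw [hC₂, mem_conj_smul_iff] at hx
    have h1 := hC1 hx
    rw [mem_normalizer_iff_conj_smul_eq] at h1 ⊢
    rw [← hl', conj_smul_smul]
    have e : x * (l : G) = (l : G) * ((l : G)⁻¹ * x * (l : G)) := by group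
    rw [e, ← conj_smul_smul, h1]
  have hC₂C : IsCarter C₂ := hC.conj l
  by_cases hRtop : Subgroup.normalizer (B : Set G) = ⊤
  · exfalso
    apply hG
    have hBn : B.Normal := Subgroup.normalizer_eq_top_iff.mp hRtop
    exact nilpotent_of_normal_compl p N hNp hbar B hBn hD2 hD4
  · obtain ⟨r, hr⟩ := hsub _ hRtop _ _ (hC₂C.subgroupOf hC₂N) (hD.subgroupOf hD1)
    have hr' := conj_of_subgroupOf hC₂N hD1 r hr
    refine ⟨(r : G) * l, ?_⟩
    rw [← conj_smul_smul]
    exact hr'

end Quot

/-- The main induction. -/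
theorem carter_aux (n : ℕ) (G : Type u) [Group G] [Finite G] [Group.IsSolvable G]
    (hn : Nat.card G = n) : (∃ C : Subgroup G, IsCarter C) ∧ ConjP G := by
  induction n using Nat.strong_induction_on generalizing G with
  | _ n ih =>
  classical
  by_cases hnil : Group.IsNilpotent G
  · have hcart : ∀ C : Subgroup G, IsCarter C → C = ⊤ := by
      intro C hC
      by_contra hne
      have hnc := Group.normalizerCondition_of_isNilpotent (G := G)
      have hlt := hnc C (lt_top_iff_ne_top.mpr hne)
      rw [hC.2] at hlt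
      exact lt_irrefl _ hlt
    refine ⟨⟨⊤, ?_, Subgroup.normalizer_eq_top_iff.mpr inferInstance⟩, ?_⟩
    · exact Group.nilpotent_of_mulEquiv Subgroup.topEquiv.symm
    · intro C D hC hD
      refine ⟨1, ?_⟩
      rw [hcart C hC, hcart D hD]
      simp
  -- proper subgroups
  have hsub : ∀ R : Subgroup G, R ≠ ⊤ → (∃ C : Subgroup R, IsCarter C) ∧ ConjP R := by
    intro R hR
    exact ih _ (hn ▸ Cfsg.Agent.Lib.Subnormal.card_lt_of_ne_top hR) R rfl
  have hsubconj : ∀ R : Subgroup G, R ≠ ⊤ → ConjP R := fun R hR => (hsub R hR).2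
  -- a minimal normal subgroup
  haveI : Nontrivial G := by
    by_contra hcon
    rw [not_nontrivial_iff_subsingleton] at hcon
    exact hnil inferInstance
  obtain ⟨p, hp, hcore⟩ := exists_pCore_ne_bot (G := G)
  haveI : Fact p.Prime := ⟨hp⟩
  let S : Set (Subgroup G) := {A | A.Normal ∧ A ≠ ⊥ ∧ A ≤ pCore p G}
  have hSne : S.Nonempty := ⟨pCore p G, inferInstance, hcore, le_rfl⟩
  obtain ⟨N, hNS⟩ := S.toFinite.exists_minimal hSne
  obtain ⟨hNn, hNne, hNcore⟩ := hNS.1
  haveI := hNn
  have hNp : IsPGroup p N := (isPGroup_pCore (G := G) p).to_le hNcore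
  have hNab : ⁅N, N⁆ = ⊥ := by
    by_contra hc
    have hlt : ⁅N, N⁆ < N := Group.IsSolvable.commutator_lt_of_ne_bot hNne
    have hmem : ⁅N, N⁆ ∈ S := ⟨Subgroup.commutator_normal N N, hc, hlt.le.trans hNcore⟩
    exact absurd (hNS.2 hmem hlt.le) (not_le_of_gt hlt)
  have hNcomm : ∀ a ∈ N, ∀ b ∈ N, a * b = b * a := by
    intro a ha b hb
    have h := Subgroup.commutator_mem_commutator ha hb
    rw [hNab, Subgroup.mem_bot] at h
    exact commutatorElement_eq_one_iff_mul_comm.mp h
  have hNmin : ∀ M : Subgroup G, M.Normal → M ≤ N → M = ⊥ ∨ M = N := by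
    intro M hMn hMN
    by_cases hM : M = ⊥
    · exact Or.inl hM
    · right
      have hmem : M ∈ S := ⟨hMn, hM, hMN.trans hNcore⟩
      exact le_antisymm hMN (hNS.2 hmem hMN)
  -- the quotient
  set π := QuotientGroup.mk' N with hπ
  have hsurj : Function.Surjective π := QuotientGroup.mk'_surjective N
  have hkerπ : π.ker = N := QuotientGroup.ker_mk' N
  have hltq : Nat.card (G ⧸ N) < n := by
    have h1 : Nat.card N * N.index = Nat.card G := Subgroup.card_mul_index N
    have h2 : 1 < Nat.card N := by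
      have h3 : Nat.card N ≠ 1 := fun h => hNne (Subgroup.card_eq_one.mp h)
      have h4 : 0 < Nat.card N := Nat.card_pos
      omega
    have h5 : Nat.card (G ⧸ N) = N.index := rfl
    rw [h5, ← hn, ← h1]
    have h6 : 0 < N.index := Nat.pos_of_ne_zero Subgroup.index_ne_zero_of_finite
    nlinarith
  obtain ⟨⟨Cbar, hCbar⟩, hconjbar⟩ := ih _ hltq (G ⧸ N) rfl
  constructor
  · -- existence
    set M := Cbar.comap π with hMdef
    by_cases hM : M = ⊤
    · have hCtop : Cbar = ⊤ := by
        rw [eq_top_iff]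
        intro z _
        obtain ⟨g, rfl⟩ := hsurj z
        have : g ∈ M := by rw [hM]; trivial
        exact this
      have hbar : Group.IsNilpotent (G ⧸ N) := by
        have h1 := hCbar.1
        rw [hCtop] at h1
        exact Group.nilpotent_of_mulEquiv (Subgroup.topEquiv (G := G ⧸ N))
      exact exists_carter_of_nilpotent_quotient p N hNp hNcomm hNmin hbar hnil
    · obtain ⟨C', hC'⟩ := (hsub _ hM).1
      let f : M →* Cbar := π.subgroupComap Cbar
      have hfs : Function.Surjective f :=
        MonoidHom.subgroupComap_surjective_of_surjective π Cbar hsurj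
      have hsup : C' ⊔ f.ker = ⊤ := by
        apply sup_ker_eq_top f hfs hCbar.1 hC'
        intro hne
        refine (ih _ ?_ _ rfl).2
        calc Nat.card ↥(C' ⊔ f.ker) < Nat.card M := Cfsg.Agent.Lib.Subnormal.card_lt_of_ne_top hne
          _ < n := hn ▸ Cfsg.Agent.Lib.Subnormal.card_lt_of_ne_top hM
      set C : Subgroup G := C'.map M.subtype with hC
      have hCM : C ≤ M := Subgroup.map_subtype_le _
      refine ⟨C, ?_, ?_⟩
      · haveI := hC'.1
        exact Group.nilpotent_of_mulEquiv (C'.equivMapOfInjective M.subtype M.subtype_injective)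
      · apply le_antisymm _ Subgroup.le_normalizer
        intro g hg
        -- first `g ∈ M`
        have hmapC : C.map π = Cbar := by
          apply le_antisymm
          · rintro _ ⟨x, hx, rfl⟩
            exact hCM hx
          · intro z hz
            obtain ⟨y, hy⟩ := hfs ⟨z, hz⟩
            have hy' : y ∈ ((C' ⊔ f.ker : Subgroup M) : Set M) := by rw [hsup]; trivial
            rw [Subgroup.mul_normal, Set.mem_mul] at hy'
            obtain ⟨c, hc, k, hk, hck⟩ := hy'
            have hfk : f k = 1 := hk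
            have h1 : f c = ⟨z, hz⟩ := by
              rw [← hy, ← hck, map_mul, hfk, mul_one]
            refine ⟨c, ⟨c, hc, rfl⟩, ?_⟩
            exact congrArg Subtype.val h1
        have hgM : g ∈ M := by
          rw [hMdef, Subgroup.mem_comap]
          rw [← hCbar.2, ← hmapC]
          apply Cfsg.Agent.Lib.Subnormal.mem_normalizer_of_conj_mem
          rintro _ ⟨x, hx, rfl⟩
          refine ⟨g * x * g⁻¹, (Subgroup.mem_normalizer_iff.mp hg x).mp hx, ?_⟩
          simp
        have hg' : (⟨g, hgM⟩ : M) ∈ Subgroup.normalizer (C' : Set M) := by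
          apply Cfsg.Agent.Lib.Subnormal.mem_normalizer_of_conj_mem
          intro d hd
          have h1 : ((d : M) : G) ∈ C := ⟨d, hd, rfl⟩
          obtain ⟨e, he, hee⟩ := (Subgroup.mem_normalizer_iff.mp hg _).mp h1
          have h2 : e = ⟨g, hgM⟩ * d * (⟨g, hgM⟩ : M)⁻¹ := Subtype.ext hee
          rw [← h2]
          exact he
        rw [hC'.2] at hg'
        exact ⟨⟨g, hgM⟩, hg', rfl⟩
  · -- conjugacy
    intro C D hC hD
    have hCbar' : IsCarter (C.map π) := IsCarter.map_quotient N hC (fun h => hsubconj _ h)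
    have hDbar' : IsCarter (D.map π) := IsCarter.map_quotient N hD (fun h => hsubconj _ h)
    obtain ⟨xbar, hxbar⟩ := hconjbar _ _ hCbar' hDbar'
    obtain ⟨x, rfl⟩ := hsurj xbar
    set C₁ : Subgroup G := MulAut.conj x • C with hC₁
    have hC₁C : IsCarter C₁ := hC.conj x
    have hmap : C₁.map π = D.map π := by
      rw [← hxbar]
      ext z
      constructor
      · rintro ⟨y, hy, rfl⟩
        have hy' : y ∈ MulAut.conj x • C := hy
        rw [mem_conj_smul_iff] at hy'
        rw [mem_conj_smul_iff]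
        refine ⟨_, hy', ?_⟩
        simp
      · intro hz
        rw [mem_conj_smul_iff] at hz
        obtain ⟨y, hy, hyz⟩ := hz
        refine ⟨x * y * x⁻¹, ?_, ?_⟩
        · show x * y * x⁻¹ ∈ MulAut.conj x • C
          rw [mem_conj_smul_iff]
          simpa [mul_assoc] using hy
        · rw [map_mul, map_mul, hyz, map_inv]
          group
    have hsupeq : C₁ ⊔ N = D ⊔ N := by
      have h1 := Subgroup.comap_map_eq π C₁
      have h2 := Subgroup.comap_map_eq π D
      rw [hkerπ] at h1 h2
      rw [← h1, ← h2, hmap]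
    have hfinish : ∀ y : G, MulAut.conj y • C₁ = D → ∃ g : G, MulAut.conj g • C = D := by
      intro y hy
      refine ⟨y * x, ?_⟩
      rw [← conj_smul_smul]
      exact hy
    by_cases htop : D ⊔ N = ⊤
    · have hbar : Group.IsNilpotent (G ⧸ N) := by
        haveI := hD.1
        have hs : Function.Surjective (π.comp D.subtype) := by
          intro z
          obtain ⟨g, rfl⟩ := hsurj z
          have hg : g ∈ ((D ⊔ N : Subgroup G) : Set G) := by rw [htop]; trivial
          rw [Subgroup.mul_normal, Set.mem_mul] at hg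
          obtain ⟨d, hd, k, hk, rfl⟩ := hg
          refine ⟨⟨d, hd⟩, ?_⟩
          have hk1 : π k = 1 := by
            rw [← MonoidHom.mem_ker, hkerπ]
            exact hk
          simp [hk1]
        exact Group.nilpotent_of_surjective _ hs
      obtain ⟨y, hy⟩ := conj_of_nilpotent_quotient p N hNp hbar hnil hsubconj C₁ D hC₁C hD
        (hsupeq.trans htop) htop
      exact hfinish y hy
    · have hC₁M : C₁ ≤ D ⊔ N := by
        rw [← hsupeq]
        exact le_sup_left
      have hDM : D ≤ D ⊔ N := le_sup_left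
      obtain ⟨y, hy⟩ := hsubconj _ htop _ _ (hC₁C.subgroupOf hC₁M) (hD.subgroupOf hDM)
      exact hfinish y (conj_of_subgroupOf hC₁M hDM y hy)

/-- Carter subgroups: a finite solvable group contains a nilpotent subgroup equal to its own normaliser, and all such subgroups are conjugate. -/
theorem result {G : Type*} [Group G] [Finite G] [Group.IsSolvable G] :
    (∃ C : Subgroup G, Group.IsNilpotent C ∧ Subgroup.normalizer (C : Set G) = C) ∧
    ∀ C D : Subgroup G, Group.IsNilpotent C → Subgroup.normalizer (C : Set G) = C →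
      Group.IsNilpotent D → Subgroup.normalizer (D : Set G) = D → ∃ g : G, MulAut.conj g • C = D := by
  obtain ⟨⟨C, hC⟩, h2⟩ := carter_aux _ G rfl
  exact ⟨⟨C, hC.1, hC.2⟩, fun C D a b c d => h2 C D ⟨a, b⟩ ⟨c, d⟩⟩

end Cfsg.Agent.S0045
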