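import Mathlib
import Cfsg.Statements.S0047

set_option autoImplicit false
open Cfsg
open scoped commutatorElement

namespace Cfsg.Agent.S0047

variable {G : Type*} [Group G]

theorem conj_comm (u w v : G) (h : u * v = v * u) :
    u * (w * v * w⁻¹ * v⁻¹) * u⁻¹ = (u * w * u⁻¹) * v * (u * w * u⁻¹)⁻¹ * v⁻¹ := by
  have h1 : u⁻¹ * v * u = v := by
    calc u⁻¹ * v * u = u⁻¹ * (v * u) := by group
      _ = u⁻¹ * (u * v) := by rw [h]
      _ = v := by group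
  have h2 : u⁻¹ * v⁻¹ = v⁻¹ * u⁻¹ := by
    rw [← mul_inv_rev, ← mul_inv_rev, h]
  calc u * (w * v * w⁻¹ * v⁻¹) * u⁻¹ = u * w * v * w⁻¹ * (v⁻¹ * u⁻¹) := by group
    _ = u * w * v * w⁻¹ * (u⁻¹ * v⁻¹) := by rw [h2]
    _ = u * w * (u⁻¹ * v * u) * w⁻¹ * (u⁻¹ * v⁻¹) := by rw [h1]
    _ = _ := by group

theorem simp_comm (x y v : G) (h : y * v = v * y) :
    (x * y) * v * (x * y)⁻¹ * v⁻¹ = x * v * x⁻¹ * v⁻¹ := by
  have h1 : y * v * y⁻¹ = v := by rw [h, mul_inv_cancel_right]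
  calc (x * y) * v * (x * y)⁻¹ * v⁻¹ = x * (y * v * y⁻¹) * x⁻¹ * v⁻¹ := by group
    _ = _ := by rw [h1]

/-- A finite group which is the product AB of two abelian subgroups A and B is solvable. -/
theorem result {G : Type*} [Group G] [Finite G] (A B : Subgroup G)
    [IsMulCommutative A] [IsMulCommutative B] (hAB : ∀ g : G, ∃ a ∈ A, ∃ b ∈ B, g = a * b) :
    Group.IsSolvable G := by
  have hA : ∀ x ∈ A, ∀ y ∈ A, x * y = y * x := by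
    intro x hx y hy
    exact congrArg Subtype.val ((IsMulCommutative.is_comm (M := A)).comm ⟨x, hx⟩ ⟨y, hy⟩)
  have hB : ∀ x ∈ B, ∀ y ∈ B, x * y = y * x := by
    intro x hx y hy
    exact congrArg Subtype.val ((IsMulCommutative.is_comm (M := B)).comm ⟨x, hx⟩ ⟨y, hy⟩)
  -- also G = BA
  have hBA : ∀ g : G, ∃ b ∈ B, ∃ a ∈ A, g = b * a := by
    intro g
    obtain ⟨a, ha, b, hb, h⟩ := hAB g⁻¹
    refine ⟨b⁻¹, B.inv_mem hb, a⁻¹, A.inv_mem ha, ?_⟩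
    rw [← mul_inv_rev, ← h, inv_inv]
  -- Ito's key computation
  have hkey : ∀ a ∈ A, ∀ b ∈ B, ∀ a₁ ∈ A, ∀ b₁ ∈ B,
      (a₁ * b₁) * (a * b * a⁻¹ * b⁻¹) * (a₁ * b₁)⁻¹ =
        (b₁ * a₁) * (a * b * a⁻¹ * b⁻¹) * (b₁ * a₁)⁻¹ := by
    intro a ha b hb a₁ ha₁ b₁ hb₁
    obtain ⟨a₂, ha₂, b₂, hb₂, h1⟩ := hAB (b₁ * a * b₁⁻¹)
    obtain ⟨b₃, hb₃, a₃, ha₃, h2⟩ := hBA (a₁ * b * a₁⁻¹)
    have hL : (a₁ * b₁) * (a * b * a⁻¹ * b⁻¹) * (a₁ * b₁)⁻¹ = a₂ * b₃ * a₂⁻¹ * b₃⁻¹ := by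
      have s1 : b₁ * (a * b * a⁻¹ * b⁻¹) * b₁⁻¹ = a₂ * b * a₂⁻¹ * b⁻¹ := by
        rw [conj_comm b₁ a b (hB b₁ hb₁ b hb), h1, simp_comm a₂ b₂ b (hB b₂ hb₂ b hb)]
      have s2 : a₁ * (a₂ * b * a₂⁻¹ * b⁻¹) * a₁⁻¹ = a₂ * b₃ * a₂⁻¹ * b₃⁻¹ := by
        have h3 : a₁ * a₂ * a₁⁻¹ = a₂ := by rw [hA a₁ ha₁ a₂ ha₂, mul_inv_cancel_right]
        calc a₁ * (a₂ * b * a₂⁻¹ * b⁻¹) * a₁⁻¹
            = (a₁ * a₂ * a₁⁻¹) * (a₁ * b * a₁⁻¹) * (a₁ * a₂ * a₁⁻¹)⁻¹ * (a₁ * b * a₁⁻¹)⁻¹ := by group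
          _ = a₂ * (b₃ * a₃) * a₂⁻¹ * (b₃ * a₃)⁻¹ := by rw [h3, h2]
          _ = a₂ * b₃ * (a₃ * a₂⁻¹ * a₃⁻¹) * b₃⁻¹ := by group
          _ = a₂ * b₃ * a₂⁻¹ * b₃⁻¹ := by
              rw [hA a₃ ha₃ _ (A.inv_mem ha₂), mul_inv_cancel_right]
      calc (a₁ * b₁) * (a * b * a⁻¹ * b⁻¹) * (a₁ * b₁)⁻¹
          = a₁ * (b₁ * (a * b * a⁻¹ * b⁻¹) * b₁⁻¹) * a₁⁻¹ := by group
        _ = _ := by rw [s1, s2]
    have hR : (b₁ * a₁) * (a * b * a⁻¹ * b⁻¹) * (b₁ * a₁)⁻¹ = a₂ * b₃ * a₂⁻¹ * b₃⁻¹ := by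
      have s1 : a₁ * (a * b * a⁻¹ * b⁻¹) * a₁⁻¹ = a * b₃ * a⁻¹ * b₃⁻¹ := by
        have h3 : a₁ * a * a₁⁻¹ = a := by rw [hA a₁ ha₁ a ha, mul_inv_cancel_right]
        calc a₁ * (a * b * a⁻¹ * b⁻¹) * a₁⁻¹
            = (a₁ * a * a₁⁻¹) * (a₁ * b * a₁⁻¹) * (a₁ * a * a₁⁻¹)⁻¹ * (a₁ * b * a₁⁻¹)⁻¹ := by group
          _ = a * (b₃ * a₃) * a⁻¹ * (b₃ * a₃)⁻¹ := by rw [h3, h2]
          _ = a * b₃ * (a₃ * a⁻¹ * a₃⁻¹) * b₃⁻¹ := by group
          _ = a * b₃ * a⁻¹ * b₃⁻¹ := by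
              rw [hA a₃ ha₃ _ (A.inv_mem ha), mul_inv_cancel_right]
      have s2 : b₁ * (a * b₃ * a⁻¹ * b₃⁻¹) * b₁⁻¹ = a₂ * b₃ * a₂⁻¹ * b₃⁻¹ := by
        rw [conj_comm b₁ a b₃ (hB b₁ hb₁ b₃ hb₃), h1, simp_comm a₂ b₂ b₃ (hB b₂ hb₂ b₃ hb₃)]
      calc (b₁ * a₁) * (a * b * a⁻¹ * b⁻¹) * (b₁ * a₁)⁻¹
          = b₁ * (a₁ * (a * b * a⁻¹ * b⁻¹) * a₁⁻¹) * b₁⁻¹ := by group
        _ = _ := by rw [s1, s2]
    rw [hL, hR]
  -- generators commute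
  let S : Set G := {g | ∃ a ∈ A, ∃ b ∈ B, a * b * a⁻¹ * b⁻¹ = g}
  have hScomm : ∀ x ∈ S, ∀ y ∈ S, x * y = y * x := by
    rintro _ ⟨a, ha, b, hb, rfl⟩ _ ⟨a', ha', b', hb', rfl⟩
    have h1 := hkey a ha b hb a'⁻¹ (A.inv_mem ha') b'⁻¹ (B.inv_mem hb')
    set c := a * b * a⁻¹ * b⁻¹ with hc
    set d := a' * b' * a'⁻¹ * b'⁻¹ with hd
    have hinv : (b'⁻¹ * a'⁻¹)⁻¹ * (a'⁻¹ * b'⁻¹) = d := by rw [hd]; group
    have h2 : d * c * d⁻¹ = c := by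
      rw [← hinv]
      calc ((b'⁻¹ * a'⁻¹)⁻¹ * (a'⁻¹ * b'⁻¹)) * c * ((b'⁻¹ * a'⁻¹)⁻¹ * (a'⁻¹ * b'⁻¹))⁻¹
          = (b'⁻¹ * a'⁻¹)⁻¹ * ((a'⁻¹ * b'⁻¹) * c * (a'⁻¹ * b'⁻¹)⁻¹) * (b'⁻¹ * a'⁻¹) := by group
        _ = (b'⁻¹ * a'⁻¹)⁻¹ * ((b'⁻¹ * a'⁻¹) * c * (b'⁻¹ * a'⁻¹)⁻¹) * (b'⁻¹ * a'⁻¹) := by rw [h1]
        _ = c := by group
    calc c * d = (d * c * d⁻¹) * d := by rw [h2]
      _ = d * c := by group
  let D : Subgroup G := Subgroup.closure S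
  have hDab : ∀ x ∈ D, ∀ y ∈ D, x * y = y * x := by
    have h1 : D ≤ Subgroup.centralizer S := by
      rw [Subgroup.closure_le]
      intro x hx
      rw [SetLike.mem_coe, Subgroup.mem_centralizer_iff]
      intro y hy
      exact hScomm y hy x hx
    have h2 : S ⊆ Subgroup.centralizer (D : Set G) := by
      intro x hx
      rw [SetLike.mem_coe, Subgroup.mem_centralizer_iff]
      intro y hy
      have := Subgroup.mem_centralizer_iff.mp (h1 hy) x hx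
      exact this.symm
    have h3 : D ≤ Subgroup.centralizer (D : Set G) := (Subgroup.closure_le _).mpr h2
    intro x hx y hy
    exact Subgroup.mem_centralizer_iff.mp (h3 hy) x hx
  -- D is normalised by A and B
  have hDA : ∀ x ∈ A, ∀ d ∈ D, x * d * x⁻¹ ∈ D := by
    intro x hx d hd
    induction hd using Subgroup.closure_induction with
    | mem d hd =>
      obtain ⟨a, ha, b, hb, rfl⟩ := hd
      have h1 : x * (a * b * a⁻¹ * b⁻¹) * x⁻¹ =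
          ((x * a) * b * (x * a)⁻¹ * b⁻¹) * (x * b * x⁻¹ * b⁻¹)⁻¹ := by group
      rw [h1]
      exact D.mul_mem (Subgroup.subset_closure ⟨_, A.mul_mem hx ha, b, hb, rfl⟩)
        (D.inv_mem (Subgroup.subset_closure ⟨x, hx, b, hb, rfl⟩))
    | one => simpa using D.one_mem
    | mul d e _ _ hd he =>
      have : x * (d * e) * x⁻¹ = (x * d * x⁻¹) * (x * e * x⁻¹) := by group
      rw [this]
      exact D.mul_mem hd he
    | inv d _ hd =>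
      have : x * d⁻¹ * x⁻¹ = (x * d * x⁻¹)⁻¹ := by group
      rw [this]
      exact D.inv_mem hd
  have hDB : ∀ x ∈ B, ∀ d ∈ D, x * d * x⁻¹ ∈ D := by
    intro x hx d hd
    induction hd using Subgroup.closure_induction with
    | mem d hd =>
      obtain ⟨a, ha, b, hb, rfl⟩ := hd
      have h1 : x * (a * b * a⁻¹ * b⁻¹) * x⁻¹ =
          (a * x * a⁻¹ * x⁻¹)⁻¹ * (a * (x * b) * a⁻¹ * (x * b)⁻¹) := by group
      rw [h1]
      exact D.mul_mem (D.inv_mem (Subgroup.subset_closure ⟨a, ha, x, hx, rfl⟩))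
        (Subgroup.subset_closure ⟨a, ha, _, B.mul_mem hx hb, rfl⟩)
    | one => simpa using D.one_mem
    | mul d e _ _ hd he =>
      have : x * (d * e) * x⁻¹ = (x * d * x⁻¹) * (x * e * x⁻¹) := by group
      rw [this]
      exact D.mul_mem hd he
    | inv d _ hd =>
      have : x * d⁻¹ * x⁻¹ = (x * d * x⁻¹)⁻¹ := by group
      rw [this]
      exact D.inv_mem hd
  have hDn : D.Normal := by
    constructor
    intro d hd g
    obtain ⟨a, ha, b, hb, rfl⟩ := hAB g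
    have : a * b * d * (a * b)⁻¹ = a * (b * d * b⁻¹) * a⁻¹ := by group
    rw [this]
    exact hDA a ha _ (hDB b hb d hd)
  -- G/D is abelian
  have hcomm : commutator G ≤ D := by
    rw [commutator_def, Subgroup.commutator_le]
    rintro x - y -
    let π := QuotientGroup.mk' D
    have hπ : ∀ u v : G, u * v * u⁻¹ * v⁻¹ ∈ D → Commute (π u) (π v) := by
      intro u v huv
      have h1 : π (u * v * u⁻¹ * v⁻¹) = 1 := (QuotientGroup.eq_one_iff _).mpr huv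
      have h2 : π u * π v * (π u)⁻¹ * (π v)⁻¹ = 1 := by simpa [map_mul, map_inv] using h1
      calc π u * π v = (π u * π v * (π u)⁻¹ * (π v)⁻¹) * (π v * π u) := by group
        _ = π v * π u := by rw [h2, one_mul]
    have hAA : ∀ u ∈ A, ∀ v ∈ A, Commute (π u) (π v) := by
      intro u hu v hv
      have : u * v = v * u := hA u hu v hv
      show π u * π v = π v * π u
      rw [← map_mul, ← map_mul, this]
    have hBB : ∀ u ∈ B, ∀ v ∈ B, Commute (π u) (π v) := by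
      intro u hu v hv
      have : u * v = v * u := hB u hu v hv
      show π u * π v = π v * π u
      rw [← map_mul, ← map_mul, this]
    have hABc : ∀ u ∈ A, ∀ v ∈ B, Commute (π u) (π v) := by
      intro u hu v hv
      exact hπ u v (Subgroup.subset_closure ⟨u, hu, v, hv, rfl⟩)
    obtain ⟨a, ha, b, hb, rfl⟩ := hAB x
    obtain ⟨a', ha', b', hb', rfl⟩ := hAB y
    have hc : Commute (π (a * b)) (π (a' * b')) := by
      rw [map_mul, map_mul]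
      exact ((hAA a ha a' ha').mul_right (hABc a ha b' hb')).mul_left
        (((hABc a' ha' b hb).symm).mul_right (hBB b hb b' hb'))
    rw [← commutatorElement_eq_one_iff_commute, ← map_commutatorElement] at hc
    exact (QuotientGroup.eq_one_iff _).mp hc
  rw [Group.isSolvable_def]
  refine ⟨2, ?_⟩
  rw [derivedSeries_succ, derivedSeries_succ, derivedSeries_zero, ← commutator_def]
  rw [eq_bot_iff, Subgroup.commutator_le]
  intro x hx y hy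
  rw [Subgroup.mem_bot, commutatorElement_eq_one_iff_mul_comm]
  exact hDab x (hcomm hx) y (hcomm hy)

end Cfsg.Agent.S0047
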