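import Mathlib
import Cfsg.Statements.S0048
import Cfsg.Agent.S0043

set_option autoImplicit false
open Cfsg

namespace Cfsg.Agent.S0048

theorem aux (n : ℕ) : ∀ {G : Type _} [Group G] [Finite G] [Group.IsSolvable G]
    (M : Subgroup G), IsCoatom M → Nat.card G = n → IsPrimePow M.index := by
  induction n using Nat.strong_induction_on with
  | _ n ih =>
    intro G _ _ _ M hM hn
    -- a minimal normal subgroup
    have hGnt : Nontrivial G := by
      by_contra h
      rw [not_nontrivial_iff_subsingleton] at h
      exact hM.1 (Subsingleton.elim _ _)
    let S : Set (Subgroup G) := {A | A.Normal ∧ A ≠ ⊥}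
    have hSne : S.Nonempty := ⟨⊤, inferInstance, top_ne_bot⟩
    obtain ⟨N, hNm⟩ := S.toFinite.exists_minimal hSne
    have hNn : N.Normal := hNm.1.1
    have hNb : N ≠ ⊥ := hNm.1.2
    have hmin : ∀ K : Subgroup G, K.Normal → K ≤ N → K = ⊥ ∨ K = N := by
      intro K hK hKN
      by_cases hb : K = ⊥
      · exact Or.inl hb
      · exact Or.inr (le_antisymm hKN (hNm.2 ⟨hK, hb⟩ hKN))
    obtain ⟨hab, p, hp, hpow⟩ := Cfsg.Agent.S0043.result N hNb hmin
    by_cases hNM : N ≤ M
    · -- quotient
      let f := QuotientGroup.mk' N
      have hf : Function.Surjective f := QuotientGroup.mk'_surjective N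
      have hker : f.ker = N := QuotientGroup.ker_mk' N
      have hcm : Subgroup.comap f (M.map f) = M :=
        Subgroup.comap_map_eq_self (by rw [hker]; exact hNM)
      have hM' : IsCoatom (M.map f) := by
        constructor
        · intro h
          apply hM.1
          rw [← hcm, h, Subgroup.comap_top]
        · intro L hL
          have h1 : M < Subgroup.comap f L := by
            refine lt_of_le_of_ne ?_ ?_
            · rw [← hcm]
              exact Subgroup.comap_mono hL.le
            · intro heq
              apply hL.ne
              apply le_antisymm hL.le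
              rw [← Subgroup.map_comap_eq_self_of_surjective hf L, ← heq]
          have h2 := hM.2 _ h1
          rw [← Subgroup.map_comap_eq_self_of_surjective hf L, h2, ← MonoidHom.range_eq_map]
          exact MonoidHom.range_eq_top.mpr hf
      have hidx : (M.map f).index = M.index :=
        Subgroup.index_map_eq M hf (by rw [hker]; exact hNM)
      rw [← hidx]
      have hlt : Nat.card (G ⧸ N) < n := by
        have h1 := N.card_eq_card_quotient_mul_card_subgroup
        have h2 : 1 < Nat.card N := by
          have : Nontrivial N := (Subgroup.nontrivial_iff_ne_bot N).mpr hNb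
          exact Finite.one_lt_card
        have h3 : 0 < Nat.card (G ⧸ N) := Nat.card_pos
        rw [← hn, h1]
        nlinarith
      exact ih _ hlt (M.map f) hM' rfl
    · have htop : N ⊔ M = ⊤ := by
        apply hM.2
        refine lt_of_le_of_ne le_sup_right ?_
        intro h
        exact hNM (by rw [h]; exact le_sup_left)
      have : Fact p.Prime := ⟨hp⟩
      have hNp : IsPGroup p N := by
        intro g
        refine ⟨1, ?_⟩
        rw [pow_one]
        exact Subtype.ext (by simpa using hpow g g.2)
      obtain ⟨k, hk⟩ := IsPGroup.iff_card.mp hNp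
      have hdvd : M.index ∣ Nat.card N := by
        -- N acts transitively on G ⧸ M
        let x0 : G ⧸ M := ((1 : G) : G ⧸ M)
        have horb : MulAction.orbit N x0 = Set.univ := by
          rw [Set.eq_univ_iff_forall]
          intro q
          obtain ⟨g, rfl⟩ := QuotientGroup.mk_surjective q
          have hg : g ∈ ((N ⊔ M : Subgroup G) : Set G) := by rw [htop]; trivial
          rw [Subgroup.normal_mul] at hg
          obtain ⟨a, ha, b, hb, rfl⟩ := hg
          refine ⟨⟨a, ha⟩, ?_⟩
          change ((a • ((1 : G) : G ⧸ M)) : G ⧸ M) = _
          rw [MulAction.Quotient.smul_mk, smul_eq_mul, mul_one]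
          exact QuotientGroup.eq.mpr (by simpa using hb)
        have h1 := MulAction.index_stabilizer N x0
        rw [horb, Set.ncard_univ] at h1
        rw [Subgroup.index, ← h1]
        exact Subgroup.index_dvd_card _
      rw [hk] at hdvd
      obtain ⟨j, hj, hjc⟩ := (Nat.dvd_prime_pow hp).mp hdvd
      have hj0 : j ≠ 0 := by
        intro h0
        rw [h0, pow_zero] at hjc
        exact hM.1 (Subgroup.index_eq_one.mp hjc)
      rw [hjc]
      exact hp.isPrimePow.pow hj0

/-- In a finite solvable group every maximal subgroup has index a prime power. -/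
theorem result {G : Type*} [Group G] [Finite G] [Group.IsSolvable G]
    (M : Subgroup G) (hM : IsCoatom M) : IsPrimePow M.index :=
  aux _ M hM rfl

end Cfsg.Agent.S0048
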