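import Mathlib
import Cfsg.Statements.S0049

set_option autoImplicit false
open Cfsg

namespace Cfsg.Agent.S0049

/-- A prime divisor of the order of a finite group also divides the index of the Frattini subgroup. -/
theorem result {G : Type*} [Group G] [Finite G] (p : ℕ) (hp : p.Prime) (hdvd : p ∣ Nat.card G) :
    p ∣ (frattini G).index := by
  by_contra hnd
  haveI : Fact p.Prime := ⟨hp⟩
  let Φ := frattini G
  obtain ⟨P⟩ : Nonempty (Sylow p Φ) := inferInstance
  have hfr : Subgroup.normalizer (((P : Subgroup Φ).map Φ.subtype : Subgroup G) : Set G) ⊔ Φ = ⊤ :=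
    Sylow.normalizer_sup_eq_top P
  have hntop := frattini_nongenerating hfr
  let Q : Subgroup G := (P : Subgroup Φ).map Φ.subtype
  have hQn : Q.Normal := Subgroup.normalizer_eq_top_iff.mp hntop
  have hQle : Q ≤ Φ := by
    rintro _ ⟨x, _, rfl⟩
    exact x.2
  have hQp : IsPGroup p Q := P.isPGroup'.map _
  have hQidx : ¬ p ∣ Q.index := by
    have h1 : Q.index = (P : Subgroup Φ).index * Φ.index := by
      have := Subgroup.index_map_subtype (P : Subgroup Φ)
      exact this
    rw [h1, hp.dvd_mul]
    rintro (h | h)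
    · exact P.not_dvd_index h
    · exact hnd h
  have hcop : (Nat.card Q).Coprime Q.index := by
    obtain ⟨k, hk⟩ := IsPGroup.iff_card.mp hQp
    rw [hk]
    exact Nat.Coprime.pow_left _ ((Nat.Prime.coprime_iff_not_dvd hp).mpr hQidx)
  obtain ⟨H, hH⟩ := Subgroup.exists_right_complement'_of_coprime hcop
  have hsup : H ⊔ Φ = ⊤ := by
    rw [eq_top_iff, ← hH.sup_eq_top, sup_comm]
    exact sup_le_sup_left hQle H
  have hHtop : H = ⊤ := frattini_nongenerating hsup
  have hdis := hH.disjoint
  rw [hHtop, disjoint_top] at hdis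
  have h2 : Q.index = Nat.card G := by
    rw [hdis]; exact Subgroup.index_bot
  rw [h2] at hQidx
  exact hQidx hdvd

end Cfsg.Agent.S0049
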