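import Mathlib
import Cfsg.Statements.S0051

set_option autoImplicit false
open Cfsg

namespace Cfsg.Agent.S0051

open scoped IsMulCommutative

variable {G : Type*} [Group G]

section Core

variable (K U A : Subgroup G) [K.Normal] [IsMulCommutative K]

/-- The `K`-part of an element of `U = K A`. -/
theorem exists_part (hKA : K ⊔ A = U) (u : U) : ∃ k : K, ((k : G))⁻¹ * (u : G) ∈ A := by
  have hu : (u : G) ∈ ((K ⊔ A : Subgroup G) : Set G) := by rw [hKA]; exact u.2
  rw [sup_comm, Subgroup.mul_normal, Set.mem_mul] at hu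
  obtain ⟨a, ha, k, hk, hak⟩ := hu
  refine ⟨⟨a * k * a⁻¹, Subgroup.Normal.conj_mem inferInstance k hk a⟩, ?_⟩
  have : (a * k * a⁻¹)⁻¹ * (u : G) = a * k⁻¹ * a⁻¹ * (a * k) := by
    rw [← hak]; group
  simp only [this]
  have h2 : a * k⁻¹ * a⁻¹ * (a * k) = a := by group
  rw [h2]
  exact ha

theorem part_unique (hAK : A ⊓ K = ⊥) {g : G} {k k' : K} (h : ((k : G))⁻¹ * g ∈ A)
    (h' : ((k' : G))⁻¹ * g ∈ A) : k = k' := by
  have h1 : ((k : G))⁻¹ * g * (((k' : G))⁻¹ * g)⁻¹ ∈ A := A.mul_mem h (A.inv_mem h')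
  have h2 : ((k : G))⁻¹ * g * (((k' : G))⁻¹ * g)⁻¹ = ((k : G))⁻¹ * k' := by group
  rw [h2] at h1
  have h3 : ((k : G))⁻¹ * k' ∈ A ⊓ K := Subgroup.mem_inf.mpr ⟨h1, K.mul_mem (K.inv_mem k.2) k'.2⟩
  rw [hAK, Subgroup.mem_bot] at h3
  have h4 : (k' : G) = k := by
    calc (k' : G) = k * (((k : G))⁻¹ * k') := by group
      _ = k := by rw [h3, mul_one]
  exact (Subtype.ext h4).symm

end Core

/-- The crossed homomorphism attached to a transversal and a complement. -/
theorem exists_crossed [Finite G] (K U A : Subgroup G) [K.Normal] [IsMulCommutative K]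
    (hKU : K ≤ U) (hAK : A ⊓ K = ⊥) (hKA : K ⊔ A = U) :
    ∃ c : G → K, (∀ g h : G, c (g * h) = c g * MulAut.conjNormal g (c h)) ∧
      ∀ k : K, c k = k ^ U.index := by
  classical
  letI := Fintype.ofFinite (G ⧸ U)
  -- the part map
  let p : U → K := fun u => Classical.choose (exists_part K U A hKA u)
  have hp : ∀ u : U, ((p u : K) : G)⁻¹ * (u : G) ∈ A := fun u =>
    Classical.choose_spec (exists_part K U A hKA u)
  have hpu : ∀ (u : U) (k : K), ((k : G))⁻¹ * (u : G) ∈ A → p u = k := fun u k hk =>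
    part_unique K A hAK (hp u) hk
  have hAU : A ≤ U := hKA ▸ le_sup_right
  have hcomm : ∀ a b : K, (a : G) * b = b * a := fun a b => congrArg Subtype.val (mul_comm a b)
  -- the cocycle law
  have hpmul : ∀ u v : U, p (u * v) = p u * MulAut.conjNormal (u : G) (p v) := by
    intro u v
    apply hpu
    have h1 := hp u
    have h2 := hp v
    have h3 := A.mul_mem h1 h2
    convert h3 using 1
    have h4 : ((p u * MulAut.conjNormal (u : G) (p v) : K) : G) =
        (p u : G) * ((u : G) * (p v : G) * (u : G)⁻¹) := rfl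
    rw [h4, Subgroup.coe_mul]
    -- conjugation by `u` and by `a = (p u)⁻¹ u` agree on `K`
    have hconj := hcomm (p u) ⟨(u : G) * (p v : G) * (u : G)⁻¹,
      Subgroup.Normal.conj_mem inferInstance _ (p v).2 _⟩
    simp only at hconj
    have h5 : ((p u : G) * ((u : G) * (p v : G) * (u : G)⁻¹))⁻¹ * ((u : G) * (v : G)) =
        ((u : G) * (p v : G) * (u : G)⁻¹)⁻¹ * ((p u : G))⁻¹ * ((u : G) * (v : G)) := by group
    rw [h5]
    have h6 : ((u : G) * (p v : G) * (u : G)⁻¹)⁻¹ * ((p u : G))⁻¹ =
        ((p u : G))⁻¹ * ((u : G) * (p v : G) * (u : G)⁻¹)⁻¹ := by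
      rw [← mul_inv_rev, ← mul_inv_rev, hconj]
    rw [h6]
    group
  have hpK : ∀ (u : U) (k : K), (u : G) = k → p u = k := by
    intro u k h
    apply hpu
    rw [h]
    simp
  -- the transversal
  have hw : ∀ (g : G) (x : G ⧸ U), ((g • x).out)⁻¹ * g * x.out ∈ U := by
    intro g x
    have h1 : ((g * x.out : G) : G ⧸ U) = g • x := by
      conv_rhs => rw [← QuotientGroup.out_eq' x]
      rfl
    have h2 : (((g • x).out : G) : G ⧸ U) = ((g * x.out : G) : G ⧸ U) := by
      rw [h1]
      exact QuotientGroup.out_eq' _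
    have h3 := QuotientGroup.eq.mp h2
    convert h3 using 1
    group
  let w : G → G ⧸ U → U := fun g x => ⟨((g • x).out)⁻¹ * g * x.out, hw g x⟩
  let c : G → K := fun g => ∏ x : G ⧸ U, MulAut.conjNormal ((g • x).out) (p (w g x))
  refine ⟨c, ?_, ?_⟩
  · intro g h
    have hterm : ∀ x : G ⧸ U, MulAut.conjNormal (((g * h) • x).out) (p (w (g * h) x)) =
        MulAut.conjNormal ((g • (h • x)).out) (p (w g (h • x))) *
          MulAut.conjNormal g (MulAut.conjNormal ((h • x).out) (p (w h x))) := by
      intro x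
      have hw1 : w (g * h) x = w g (h • x) * w h x := by
        apply Subtype.ext
        show (((g * h) • x).out)⁻¹ * (g * h) * x.out =
          ((g • h • x).out)⁻¹ * g * (h • x).out * (((h • x).out)⁻¹ * h * x.out)
        rw [mul_smul]
        group
      rw [hw1, hpmul, map_mul, mul_smul]
      congr 1
      apply Subtype.ext
      show (g • h • x).out * (((g • h • x).out)⁻¹ * g * (h • x).out * (p (w h x) : G) *
          (((g • h • x).out)⁻¹ * g * (h • x).out)⁻¹) * ((g • h • x).out)⁻¹ =
        g * ((h • x).out * (p (w h x) : G) * ((h • x).out)⁻¹) * g⁻¹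
      group
    show (∏ x : G ⧸ U, _) = (∏ x : G ⧸ U, _) * MulAut.conjNormal g (∏ x : G ⧸ U, _)
    rw [Finset.prod_congr rfl (fun x _ => hterm x), Finset.prod_mul_distrib, map_prod]
    congr 1
    exact (Equiv.prod_comp (MulAction.toPerm h)
      (fun y : G ⧸ U => MulAut.conjNormal ((g • y).out) (p (w g y))))
  · intro k
    have hfix : ∀ x : G ⧸ U, (k : G) • x = x := by
      intro x
      induction x using QuotientGroup.induction_on with
      | H y =>
        apply QuotientGroup.eq.mpr
        apply hKU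
        have := Subgroup.Normal.conj_mem (inferInstance : K.Normal) (k : G)⁻¹ (K.inv_mem k.2) y⁻¹
        have e : ((k : G) • y)⁻¹ * y = y⁻¹ * (k : G)⁻¹ * y⁻¹⁻¹ := by
          rw [smul_eq_mul]
          group
        rw [e]
        exact this
    have hterm : ∀ x : G ⧸ U, MulAut.conjNormal (((k : G) • x).out) (p (w k x)) = k := by
      intro x
      have h1 : (w k x : G) = (x.out)⁻¹ * k * x.out := by
        show (((k : G) • x).out)⁻¹ * k * x.out = _
        rw [hfix]
      have hK' : (x.out)⁻¹ * k * x.out ∈ K := by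
        have := Subgroup.Normal.conj_mem (inferInstance : K.Normal) (k : G) k.2 (x.out)⁻¹
        simpa using this
      have h2 := hpK (w k x) ⟨_, hK'⟩ h1
      apply Subtype.ext
      rw [h2]
      show ((k : G) • x).out * ((x.out)⁻¹ * k * x.out) * (((k : G) • x).out)⁻¹ = k
      rw [hfix]
      group
    show (∏ x : G ⧸ U, _) = _
    rw [Finset.prod_congr rfl (fun x _ => hterm x), Finset.prod_const, Finset.card_univ,
      Subgroup.index, Nat.card_eq_fintype_card]

/-- Gaschütz's Theorem, existence: an abelian normal subgroup K that is complemented inside a subgroup U ≥ K whose index is coprime to the order of K is complemented in the whole group. -/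
theorem result {G : Type*} [Group G] [Finite G] (K U : Subgroup G) [K.Normal] [IsMulCommutative K]
    (hKU : K ≤ U) (hcop : (Nat.card K).Coprime U.index)
    (A : Subgroup G) (hAU : A ≤ U) (hAK : A ⊓ K = ⊥) (hKA : K ⊔ A = U) :
    ∃ H : Subgroup G, Subgroup.IsComplement' K H := by
  classical
  obtain ⟨c, hmul, hK'⟩ := exists_crossed K U A hKU hAK hKA
  have hone : c 1 = 1 := by
    have := hK' 1
    rwa [one_pow, Subgroup.coe_one] at this
  have hinv : ∀ g, c g = 1 → c g⁻¹ = 1 := by
    intro g hg
    have h1 := hmul g g⁻¹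
    rw [mul_inv_cancel, hone, hg, one_mul] at h1
    have h2 : MulAut.conjNormal g (c g⁻¹) = 1 := h1.symm
    exact (map_eq_one_iff (MulAut.conjNormal g) (MulEquiv.injective _)).mp h2
  let H : Subgroup G :=
    { carrier := {g | c g = 1}
      mul_mem' := fun {a b} ha hb => by
        show c (a * b) = 1
        rw [hmul, ha, hb, map_one, one_mul]
      one_mem' := hone
      inv_mem' := fun {a} ha => hinv a ha }
  have hHmem : ∀ g, g ∈ H ↔ c g = 1 := fun g => Iff.rfl
  have hcopK : (Nat.card K).Coprime U.index := hcop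
  have hinjpow : Function.Injective (fun k : K => k ^ U.index) :=
    (powCoprime hcopK).injective
  have hsurjpow : Function.Surjective (fun k : K => k ^ U.index) :=
    (powCoprime hcopK).surjective
  refine ⟨H, Subgroup.isComplement'_of_disjoint_and_mul_eq_univ ?_ ?_⟩
  · rw [Subgroup.disjoint_def]
    intro x hxK hxH
    have h1 : c ((⟨x, hxK⟩ : K) : G) = 1 := hxH
    rw [hK'] at h1
    have h2 : (⟨x, hxK⟩ : K) = 1 := hinjpow (by simpa using h1)
    exact congrArg Subtype.val h2
  · rw [Set.eq_univ_iff_forall]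
    intro g
    obtain ⟨k, hk⟩ := hsurjpow (c g)
    have hk' : k ^ U.index = c g := hk
    have hmem : (k : G)⁻¹ * g ∈ H := by
      rw [hHmem, hmul]
      have h1 : c (k : G)⁻¹ = (k ^ U.index)⁻¹ := by
        have := hK' k⁻¹
        rw [inv_pow] at this
        exact this
      rw [h1, hk']
      have h2 : MulAut.conjNormal (k : G)⁻¹ (c g) = c g := by
        apply Subtype.ext
        show (k : G)⁻¹ * (c g : G) * ((k : G)⁻¹)⁻¹ = c g
        have h3 : (k : G) * (c g : G) = c g * k := congrArg Subtype.val (mul_comm k (c g))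
        rw [inv_inv, mul_assoc, ← h3, ← mul_assoc, inv_mul_cancel, one_mul]
      rw [h2, inv_mul_cancel]
    refine Set.mem_mul.mpr ⟨k, k.2, (k : G)⁻¹ * g, hmem, ?_⟩
    group

end Cfsg.Agent.S0051
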