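import Mathlib
import Cfsg.Statements.S0052

set_option autoImplicit false
open scoped Pointwise IsMulCommutative
open Cfsg

namespace Cfsg.Agent.S0052

/-- Gaschütz's Theorem, conjugacy: for an abelian normal subgroup K ≤ U with the order of K coprime to the index of U, two complements of K in G having the same intersection with U are conjugate. -/
theorem result {G : Type*} [Group G] [Finite G] (K U : Subgroup G) [K.Normal] [IsMulCommutative K]
    (hKU : K ≤ U) (hcop : (Nat.card K).Coprime U.index)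
    (H₀ H₁ : Subgroup G) (h₀ : Subgroup.IsComplement' K H₀) (h₁ : Subgroup.IsComplement' K H₁) (hU : H₀ ⊓ U = H₁ ⊓ U) :
    ∃ g : G, MulAut.conj g • H₀ = H₁ := by
  classical
  letI := Fintype.ofFinite (G ⧸ U)
  have hcomm : ∀ a b : K, (a : G) * b = b * a := fun a b => congrArg Subtype.val (mul_comm a b)
  -- the part map relative to `H₁`
  have hex : ∀ g : G, ∃ k : K, ((k : G))⁻¹ * g ∈ H₁ := by
    intro g
    obtain ⟨⟨k, h⟩, hkh⟩ := h₁.2 g
    have hkh' : (k : G) * (h : G) = g := hkh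
    refine ⟨k, ?_⟩
    rw [← hkh']
    simpa using h.2
  let f : G → K := fun g => Classical.choose (hex g)
  have hf : ∀ g, ((f g : K) : G)⁻¹ * g ∈ H₁ := fun g => Classical.choose_spec (hex g)
  have hfu : ∀ (g : G) (k : K), ((k : G))⁻¹ * g ∈ H₁ → f g = k := by
    intro g k hk
    have h1 : ((f g : K) : G)⁻¹ * g * (((k : G))⁻¹ * g)⁻¹ ∈ H₁ := H₁.mul_mem (hf g) (H₁.inv_mem hk)
    have h2 : ((f g : K) : G)⁻¹ * g * (((k : G))⁻¹ * g)⁻¹ = ((f g : K) : G)⁻¹ * k := by group
    rw [h2] at h1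
    have h3 := Subgroup.disjoint_def.mp h₁.disjoint (K.mul_mem (K.inv_mem (f g).2) k.2) h1
    apply Subtype.ext
    calc ((f g : K) : G) = (f g : G) * (((f g : K) : G)⁻¹ * k) := by rw [h3, mul_one]
      _ = k := by group
  have hfmul : ∀ g h : G, f (g * h) = f g * MulAut.conjNormal g (f h) := by
    intro g h
    apply hfu
    have h1 := H₁.mul_mem (hf g) (hf h)
    have h2 : ((f g * MulAut.conjNormal g (f h) : K) : G) = (f g : G) * (g * (f h : G) * g⁻¹) := rfl
    rw [h2]
    have hconj := hcomm (f g) (MulAut.conjNormal g (f h))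
    have hconj' : (f g : G) * (g * (f h : G) * g⁻¹) = (g * (f h : G) * g⁻¹) * (f g : G) := hconj
    rw [hconj']
    have h3 : ((g * (f h : G) * g⁻¹) * (f g : G))⁻¹ * (g * h) =
        ((f g : G))⁻¹ * (g * (f h : G) * g⁻¹)⁻¹ * (g * h) := by group
    rw [h3]
    have h4 : ((f g : G))⁻¹ * (g * (f h : G) * g⁻¹)⁻¹ * (g * h) =
        ((f g : G))⁻¹ * g * (((f h : G))⁻¹ * h) := by group
    rw [h4]
    exact h1
  have hfA : ∀ a ∈ H₀ ⊓ U, f a = 1 := by
    intro a ha
    apply hfu
    have : a ∈ H₁ ⊓ U := hU ▸ ha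
    simpa using (Subgroup.mem_inf.mp this).1
  -- representatives in `H₀`
  have hrex : ∀ x : G ⧸ U, ∃ r ∈ H₀, ((r : G) : G ⧸ U) = x := by
    intro x
    obtain ⟨⟨k, h⟩, hkh⟩ := h₀.2 x.out
    have hkh' : (k : G) * (h : G) = x.out := hkh
    refine ⟨h, h.2, ?_⟩
    conv_rhs => rw [← QuotientGroup.out_eq' x, ← hkh']
    apply QuotientGroup.eq.mpr
    apply hKU
    have h1 := Subgroup.Normal.conj_mem (inferInstance : K.Normal) (k : G) k.2 (h : G)⁻¹
    have e : ((h : G))⁻¹ * ((k : G) * (h : G)) = (h : G)⁻¹ * (k : G) * ((h : G)⁻¹)⁻¹ := by group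
    rw [e]
    exact h1
  let r : G ⧸ U → G := fun x => Classical.choose (hrex x)
  have hrH : ∀ x, r x ∈ H₀ := fun x => (Classical.choose_spec (hrex x)).1
  have hrm : ∀ x, ((r x : G) : G ⧸ U) = x := fun x => (Classical.choose_spec (hrex x)).2
  set m := U.index with hm
  set D : K := ∏ x : G ⧸ U, f (r x) with hD
  -- the key identity
  have hkey : ∀ h ∈ H₀, MulAut.conjNormal h D = (f h)⁻¹ ^ m * D := by
    intro h hh
    have hterm : ∀ x : G ⧸ U, MulAut.conjNormal h (f (r x)) = (f h)⁻¹ * f (r (h • x)) := by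
      intro x
      have h1 := hfmul h (r x)
      have h2 : (r (h • x))⁻¹ * (h * r x) ∈ H₀ ⊓ U := by
        refine Subgroup.mem_inf.mpr ⟨H₀.mul_mem (H₀.inv_mem (hrH _)) (H₀.mul_mem hh (hrH x)), ?_⟩
        apply QuotientGroup.eq.mp
        rw [hrm]
        have : ((h * r x : G) : G ⧸ U) = h • ((r x : G) : G ⧸ U) := rfl
        rw [this, hrm]
      have h3 : f (h * r x) = f (r (h • x)) := by
        have h4 : h * r x = r (h • x) * ((r (h • x))⁻¹ * (h * r x)) := by group
        rw [h4, hfmul, hfA _ h2, map_one, mul_one]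
      rw [h3] at h1
      rw [h1]
      group
    rw [hD, map_prod, Finset.prod_congr rfl (fun x _ => hterm x), Finset.prod_mul_distrib,
      Finset.prod_const, Finset.card_univ, ← Nat.card_eq_fintype_card]
    congr 1
    exact Equiv.prod_comp (MulAction.toPerm h) (fun y : G ⧸ U => f (r y))
  -- extract a root
  have hinjpow : Function.Injective (fun k : K => k ^ m) := (powCoprime hcop).injective
  have hsurjpow : Function.Surjective (fun k : K => k ^ m) := (powCoprime hcop).surjective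
  obtain ⟨k, hk⟩ := hsurjpow D
  have hk' : k ^ m = D := hk
  have hfk : ∀ h ∈ H₀, f h = k * (MulAut.conjNormal h k)⁻¹ := by
    intro h hh
    apply hinjpow
    show f h ^ m = (k * (MulAut.conjNormal h k)⁻¹) ^ m
    have h1 := hkey h hh
    have h2 : MulAut.conjNormal h D = (MulAut.conjNormal h k) ^ m := by rw [← hk', map_pow]
    rw [h2, inv_pow] at h1
    rw [mul_pow, inv_pow, hk', h1, mul_inv_rev, inv_inv]
    simp
  refine ⟨(k : G)⁻¹, ?_⟩
  apply Subgroup.eq_of_le_of_card_ge
  · intro x hx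
    have hx' : (k : G) * x * (k : G)⁻¹ ∈ H₀ := by
      rw [Subgroup.mem_pointwise_smul_iff_inv_smul_mem, MulAut.smul_def] at hx
      simpa [MulAut.conj_apply] using hx
    set h := (k : G) * x * (k : G)⁻¹ with hh
    have h1 := hf h
    rw [hfk h hx'] at h1
    have h2 : ((k * (MulAut.conjNormal h k)⁻¹ : K) : G) = (k : G) * (h * (k : G)⁻¹ * h⁻¹) := by
      show (k : G) * ((h * (k : G) * h⁻¹))⁻¹ = _
      group
    rw [h2] at h1
    have hconj := hcomm k (MulAut.conjNormal h k⁻¹)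
    have hconj' : (k : G) * (h * (k : G)⁻¹ * h⁻¹) = (h * (k : G)⁻¹ * h⁻¹) * (k : G) := hconj
    rw [hconj'] at h1
    have h3 : ((h * (k : G)⁻¹ * h⁻¹) * (k : G))⁻¹ * h = x := by
      rw [hh]
      group
    rwa [h3] at h1
  · have h2 : Nat.card (MulAut.conj (k : G)⁻¹ • H₀ : Subgroup G) = Nat.card H₀ :=
      Nat.card_congr (MulEquiv.subgroupMap (MulAut.conj (k : G)⁻¹) H₀).symm.toEquiv
    rw [h2, ← h₀.symm.index_eq_card, ← h₁.symm.index_eq_card]

end Cfsg.Agent.S0052
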