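import Mathlib
import Cfsg.Statements.S0053

set_option autoImplicit false
open Cfsg

namespace Cfsg.Agent.S0053

/-- An abelian minimal normal subgroup N of a finite group is complemented exactly when N is not inside the Frattini subgroup. -/
theorem result {G : Type*} [Group G] [Finite G]
    (N : Subgroup G) [N.Normal] [IsMulCommutative N] (hN : N ≠ ⊥)
    (hmin : ∀ M : Subgroup G, M.Normal → M ≤ N → M = ⊥ ∨ M = N) :
    (∃ H : Subgroup G, Subgroup.IsComplement' N H) ↔ ¬ N ≤ frattini G := by
  have hc : ∀ x ∈ N, ∀ y ∈ N, x * y = y * x := by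
    intro x hx y hy
    have := (IsMulCommutative.is_comm (M := N)).comm ⟨x, hx⟩ ⟨y, hy⟩
    exact congrArg Subtype.val this
  constructor
  · rintro ⟨H, hH⟩ hle
    have h1 : H ⊔ frattini G = ⊤ := by
      rw [eq_top_iff, ← hH.sup_eq_top, sup_comm]
      exact sup_le_sup_left hle H
    have h2 : H = ⊤ := frattini_nongenerating h1
    have h3 := hH.disjoint
    rw [h2, disjoint_top] at h3
    exact hN h3
  · intro hnot
    have : ∃ M : Subgroup G, IsCoatom M ∧ ¬ N ≤ M := by
      by_contra hcon
      push Not at hcon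
      apply hnot
      unfold frattini Order.radical
      exact le_iInf₂ hcon
    obtain ⟨M, hM, hNM⟩ := this
    have htop : N ⊔ M = ⊤ := by
      apply hM.2
      refine lt_of_le_of_ne le_sup_right ?_
      intro h
      exact hNM (by rw [h]; exact le_sup_left)
    have hnorm : (N ⊓ M).Normal := by
      constructor
      rintro x ⟨hxN, hxM⟩ g
      have hg : g ∈ ((N ⊔ M : Subgroup G) : Set G) := by rw [htop]; trivial
      rw [Subgroup.normal_mul] at hg
      obtain ⟨n, hn, m, hm, rfl⟩ := hg
      have hn' : n ∈ N := hn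
      have hm' : m ∈ M := hm
      have h1 : m * x * m⁻¹ ∈ N := ‹N.Normal›.conj_mem x hxN m
      have h2 : m * x * m⁻¹ ∈ M := M.mul_mem (M.mul_mem hm' hxM) (M.inv_mem hm')
      have heq : n * m * x * (n * m)⁻¹ = m * x * m⁻¹ := by
        have := hc n hn' _ h1
        calc n * m * x * (n * m)⁻¹ = n * (m * x * m⁻¹) * n⁻¹ := by group
          _ = (m * x * m⁻¹) * n * n⁻¹ := by rw [this]
          _ = m * x * m⁻¹ := by group
      change n * m * x * (n * m)⁻¹ ∈ N ⊓ M
      rw [heq]
      exact ⟨h1, h2⟩
    rcases hmin _ hnorm inf_le_left with h | h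
    · refine ⟨M, Subgroup.isComplement'_of_disjoint_and_mul_eq_univ (disjoint_iff.mpr h) ?_⟩
      rw [← Subgroup.normal_mul, htop]
      rfl
    · exact absurd (inf_eq_left.mp h) hNM

end Cfsg.Agent.S0053
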