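import Mathlib
import Cfsg.Statements.S0054

set_option autoImplicit false
open Cfsg

namespace Cfsg.Agent.S0054

/-- A regular normal subgroup of a finite 2-transitive group is elementary abelian: it is commutative and all its elements have order dividing one prime. -/
theorem result {G : Type*} [Group G] [Finite G]
    {X : Type*} [Nonempty X] [MulAction G X] (h2 : MulAction.IsMultiplyPretransitive G X 2)
    (N : Subgroup G) [N.Normal] (htrans : MulAction.IsPretransitive N X) (hreg : ∀ x : X, MulAction.stabilizer N x = ⊥) :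
    IsMulCommutative N ∧ ∃ p : ℕ, p.Prime ∧ ∀ n ∈ N, n ^ p = 1 := by
  classical
  obtain ⟨x₀⟩ := ‹Nonempty X›
  have hnorm := ‹N.Normal›
  -- free action
  have hfree : ∀ n ∈ N, n • x₀ = x₀ → n = 1 := by
    intro n hn hfix
    have h1 : (⟨n, hn⟩ : N) ∈ MulAction.stabilizer N x₀ := hfix
    rw [hreg, Subgroup.mem_bot] at h1
    exact congrArg Subtype.val h1
  -- conjugacy of non-identity elements
  have hconj : ∀ n ∈ N, ∀ m ∈ N, n ≠ 1 → m ≠ 1 → ∃ g : G, g * n * g⁻¹ = m := by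
    intro n hn m hm hn1 hm1
    have hnx : x₀ ≠ n • x₀ := fun h => hn1 (hfree n hn h.symm)
    have hmx : x₀ ≠ m • x₀ := fun h => hm1 (hfree m hm h.symm)
    rw [MulAction.is_two_pretransitive_iff] at h2
    obtain ⟨g, hg1, hg2⟩ := h2 hnx hmx
    refine ⟨g, ?_⟩
    have h3 : (m⁻¹ * (g * n * g⁻¹)) • x₀ = x₀ := by
      have h4 : g⁻¹ • x₀ = x₀ := by
        conv_lhs => rw [← hg1]
        simp
      rw [mul_smul, mul_smul, mul_smul, h4, hg2, inv_smul_smul]
    have h5 := hfree _ (N.mul_mem (N.inv_mem hm) (hnorm.conj_mem n hn g)) h3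
    rw [inv_mul_eq_one] at h5
    exact h5.symm
  by_cases hbot : N = ⊥
  · subst hbot
    refine ⟨⟨⟨fun a b => Subsingleton.elim _ _⟩⟩, 2, Nat.prime_two, ?_⟩
    intro n hn
    rw [Subgroup.mem_bot] at hn
    simp [hn]
  -- pick prime
  rcases Subgroup.bot_or_exists_ne_one N with h | ⟨n₀, hn₀, hn₁⟩
  · exact absurd h hbot
  have hord : orderOf n₀ ≠ 1 := by rwa [Ne, orderOf_eq_one_iff]
  obtain ⟨p, hp, hpd⟩ := Nat.exists_prime_and_dvd hord
  have : Fact p.Prime := ⟨hp⟩
  have hfin : orderOf n₀ ≠ 0 := (isOfFinOrder_of_finite n₀).orderOf_pos.ne'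
  let m₀ := n₀ ^ (orderOf n₀ / p)
  have hm₀ord : orderOf m₀ = p := orderOf_pow_orderOf_div hfin hpd
  have hm₀N : m₀ ∈ N := N.pow_mem hn₀ _
  have hm₀1 : m₀ ≠ 1 := by
    intro h
    rw [h, orderOf_one] at hm₀ord
    exact hp.one_lt.ne hm₀ord
  have hexp : ∀ n ∈ N, n ^ p = 1 := by
    intro n hn
    by_cases hn1 : n = 1
    · simp [hn1]
    obtain ⟨g, hg⟩ := hconj m₀ hm₀N n hn hm₀1 hn1
    rw [← hg, conj_pow, ← hm₀ord, pow_orderOf_eq_one, mul_one, mul_inv_cancel]
  refine ⟨?_, p, hp, hexp⟩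
  -- commutativity
  have hNp : IsPGroup p N := by
    intro g
    refine ⟨1, ?_⟩
    rw [pow_one]
    exact Subtype.ext (by simpa using hexp g g.2)
  have hNnt : Nontrivial N := (Subgroup.nontrivial_iff_ne_bot N).mpr hbot
  have hZ : Nontrivial (Subgroup.center N) := hNp.center_nontrivial
  obtain ⟨z, hz⟩ := exists_ne (1 : Subgroup.center N)
  have hz1 : ((z : N) : G) ≠ 1 := by
    intro h
    apply hz
    exact Subtype.ext (Subtype.ext h)
  constructor
  constructor
  intro a b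
  by_cases ha : (a : G) = 1
  · have : a = 1 := Subtype.ext ha
    simp [this]
  obtain ⟨g, hg⟩ := hconj _ (z : N).2 a a.2 hz1 ha
  -- b commutes with a
  have hb' : g⁻¹ * (b : G) * g ∈ N := by
    have := hnorm.conj_mem b b.2 g⁻¹
    simpa using this
  have h1 : (z : N) * ⟨_, hb'⟩ = ⟨_, hb'⟩ * (z : N) := (Subgroup.mem_center_iff.mp z.2 ⟨_, hb'⟩).symm
  have h2' : ((z : N) : G) * (g⁻¹ * (b : G) * g) = (g⁻¹ * (b : G) * g) * ((z : N) : G) :=
    congrArg Subtype.val h1
  apply Subtype.ext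
  change (a : G) * (b : G) = (b : G) * (a : G)
  rw [← hg]
  calc g * ((z : N) : G) * g⁻¹ * (b : G)
      = g * (((z : N) : G) * (g⁻¹ * (b : G) * g)) * g⁻¹ := by group
    _ = g * ((g⁻¹ * (b : G) * g) * ((z : N) : G)) * g⁻¹ := by rw [h2']
    _ = (b : G) * (g * ((z : N) : G) * g⁻¹) := by group

end Cfsg.Agent.S0054
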