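import Mathlib
import Cfsg.Statements.S0060
import Cfsg.Agent.Lib.Frobenius
import Cfsg.Agent.Lib.PCore

set_option autoImplicit false
open Cfsg
open scoped Pointwise

namespace Cfsg.Agent.S0060

open Cfsg.Agent.Lib.Frobenius (mem_conj_iff)

theorem mem_smul_iff {G : Type*} [Group G] {p : ℕ} [Fact p.Prime] (g : G) (P : Sylow p G) (x : G) :
    x ∈ ((g • P : Sylow p G) : Subgroup G) ↔ g⁻¹ * x * g ∈ (P : Subgroup G) := by
  change x ∈ MulAut.conj g • (P : Subgroup G) ↔ _
  exact mem_conj_iff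

/-- A `p`-subgroup of `N` lies in an `N`-conjugate of a Sylow subgroup of `G` contained in `N`. -/
theorem exists_conj_le {G : Type*} [Group G] [Finite G] {p : ℕ} [Fact p.Prime] (A : Sylow p G)
    {N : Subgroup G} (hAN : (A : Subgroup G) ≤ N) {E : Subgroup G} (hEN : E ≤ N) (hE : IsPGroup p E) :
    ∃ n ∈ N, E ≤ ((n • A : Sylow p G) : Subgroup G) := by
  have hE' : IsPGroup p (E.subgroupOf N) := hE.comap_of_injective N.subtype N.subtype_injective
  obtain ⟨Q', hQ'⟩ := hE'.exists_le_sylow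
  obtain ⟨n, hn⟩ := MulAction.exists_smul_eq N (A.subtype hAN) Q'
  refine ⟨n, n.2, ?_⟩
  intro x hx
  have h1 : (⟨x, hEN hx⟩ : N) ∈ (Q' : Subgroup N) := hQ' (Subgroup.mem_subgroupOf.mpr hx)
  rw [← hn, Sylow.smul_subtype hAN n, Sylow.coe_subtype, Subgroup.mem_subgroupOf] at h1
  exact h1

/-- Brodkey's Theorem: in a finite group with abelian Sylow p-subgroups and no nontrivial normal p-subgroup, some conjugate of a Sylow p-subgroup meets it trivially. -/
theorem result {G : Type*} [Group G] [Finite G] (p : ℕ) [Fact p.Prime]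
    (S : Sylow p G) (hS : IsMulCommutative S) (hOp : Cfsg.pCore p G = ⊥) :
    ∃ g : G, (S : Subgroup G) ⊓ MulAut.conj g • (S : Subgroup G) = ⊥ := by
  classical
  -- all Sylow subgroups are abelian
  have hab : ∀ (A : Sylow p G), ∀ x ∈ (A : Subgroup G), ∀ y ∈ (A : Subgroup G), x * y = y * x := by
    intro A x hx y hy
    obtain ⟨g, rfl⟩ := MulAction.exists_smul_eq G S A
    have hx' : g⁻¹ * x * g ∈ (S : Subgroup G) := by
      have : x ∈ MulAut.conj g • (S : Subgroup G) := hx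
      exact mem_conj_iff.mp this
    have hy' : g⁻¹ * y * g ∈ (S : Subgroup G) := by
      have : y ∈ MulAut.conj g • (S : Subgroup G) := hy
      exact mem_conj_iff.mp this
    have h1 : (g⁻¹ * x * g) * (g⁻¹ * y * g) = (g⁻¹ * y * g) * (g⁻¹ * x * g) :=
      congrArg Subtype.val ((IsMulCommutative.is_comm (M := S)).comm ⟨_, hx'⟩ ⟨_, hy'⟩)
    have h2 : (g⁻¹ * x * g) * (g⁻¹ * y * g) = g⁻¹ * (x * y) * g := by group
    have h3 : (g⁻¹ * y * g) * (g⁻¹ * x * g) = g⁻¹ * (y * x) * g := by group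
    rw [h2, h3] at h1
    have h4 := mul_right_cancel h1
    exact mul_left_cancel h4
  -- minimal intersection
  let T : Set (Subgroup G) := {D | ∃ A B : Sylow p G, D = (A : Subgroup G) ⊓ (B : Subgroup G)}
  have hTne : T.Nonempty := ⟨_, S, S, rfl⟩
  obtain ⟨D, hD⟩ := T.toFinite.exists_minimal hTne
  obtain ⟨A, B, hDeq⟩ := hD.1
  have hDbot : D = ⊥ := by
    by_contra hne
    -- D is not contained in all Sylow subgroups
    have hexR : ∃ R : Sylow p G, ¬ D ≤ (R : Subgroup G) := by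
      by_contra hcon
      push Not at hcon
      apply hne
      have h1 : D ≤ ⨅ P : Sylow p G, (P : Subgroup G) := le_iInf hcon
      rw [← Cfsg.Agent.Lib.PCore.pCore_eq_iInf_sylow, hOp] at h1
      exact le_bot_iff.mp h1
    obtain ⟨R, hR⟩ := hexR
    let N := Subgroup.normalizer (D : Set G)
    have hnorm : ∀ P : Sylow p G, D ≤ (P : Subgroup G) → (P : Subgroup G) ≤ N := by
      intro P hDP x hx
      rw [Subgroup.mem_normalizer_iff]
      intro y
      constructor
      · intro hy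
        have hyP := hDP hy
        have : x * y * x⁻¹ = y := by
          rw [hab P x hx y hyP]; group
        rw [this]; exact hy
      · intro hy
        have hyP := hDP hy
        have hyP' : y = x⁻¹ * (x * y * x⁻¹) * x := by group
        have : x⁻¹ * (x * y * x⁻¹) * x = x * y * x⁻¹ := by
          rw [hab P x⁻¹ ((P : Subgroup G).inv_mem hx) _ hyP]; group
        rw [hyP', this]; exact hy
    have hAN : (A : Subgroup G) ≤ N := hnorm A (hDeq ▸ inf_le_left)
    have hBN : (B : Subgroup G) ≤ N := hnorm B (hDeq ▸ inf_le_right)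
    -- The subgroup R ⊓ N lies in a conjugate (by N) of A
    obtain ⟨n, hnN, hE⟩ := exists_conj_le A hAN (E := (R : Subgroup G) ⊓ N) inf_le_right R.2.to_inf_left
    let Q : Sylow p G := n • A
    let Q' : Sylow p G := n • B
    have hQ'N : (Q' : Subgroup G) ≤ N := by
      intro x hx
      have h1 : n⁻¹ * x * n ∈ (B : Subgroup G) := (mem_smul_iff n B x).mp hx
      have h2 := hBN h1
      have h3 : x = n * (n⁻¹ * x * n) * n⁻¹ := by group
      rw [h3]
      exact N.mul_mem (N.mul_mem hnN h2) (N.inv_mem hnN)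
    have hQQ' : (Q : Subgroup G) ⊓ (Q' : Subgroup G) ≤ D := by
      rintro x ⟨hx1, hx2⟩
      have h1 : n⁻¹ * x * n ∈ (A : Subgroup G) := (mem_smul_iff n A x).mp hx1
      have h2 : n⁻¹ * x * n ∈ (B : Subgroup G) := (mem_smul_iff n B x).mp hx2
      have h3 : n⁻¹ * x * n ∈ D := by
        rw [hDeq]; exact Subgroup.mem_inf.mpr ⟨h1, h2⟩
      have h4 := (Subgroup.mem_normalizer_iff.mp hnN _).mp h3
      have h5 : n * (n⁻¹ * x * n) * n⁻¹ = x := by group
      rwa [h5] at h4
    have hle : (R : Subgroup G) ⊓ (Q' : Subgroup G) ≤ D := by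
      intro x hx
      obtain ⟨hx1, hx2⟩ := Subgroup.mem_inf.mp hx
      have h1 : x ∈ (Q : Subgroup G) := hE (Subgroup.mem_inf.mpr ⟨hx1, hQ'N hx2⟩)
      exact hQQ' (Subgroup.mem_inf.mpr ⟨h1, hx2⟩)
    have hmem : (R : Subgroup G) ⊓ (Q' : Subgroup G) ∈ T := ⟨R, Q', rfl⟩
    have h6 := hD.2 hmem hle
    exact hR (h6.trans inf_le_left)
  rw [hDbot] at hDeq
  obtain ⟨g, hg⟩ := MulAction.exists_smul_eq G S A
  obtain ⟨g', hg'⟩ := MulAction.exists_smul_eq G S B
  refine ⟨g⁻¹ * g', ?_⟩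
  rw [eq_bot_iff]
  intro x hx
  obtain ⟨hx1, hx2⟩ := Subgroup.mem_inf.mp hx
  have hx3 := mem_conj_iff.mp hx2
  have h1 : g * x * g⁻¹ ∈ (A : Subgroup G) := by
    rw [← hg]
    apply (mem_smul_iff g S _).mpr
    have : g⁻¹ * (g * x * g⁻¹) * g = x := by group
    rwa [this]
  have h2 : g * x * g⁻¹ ∈ (B : Subgroup G) := by
    rw [← hg']
    apply (mem_smul_iff g' S _).mpr
    have : g'⁻¹ * (g * x * g⁻¹) * g' = (g⁻¹ * g') ⁻¹ * x * (g⁻¹ * g') := by group
    rwa [this]
  have h3 : g * x * g⁻¹ ∈ (⊥ : Subgroup G) := by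
    rw [hDeq]; exact Subgroup.mem_inf.mpr ⟨h1, h2⟩
  rw [Subgroup.mem_bot] at h3 ⊢
  have h4 : x = g⁻¹ * (g * x * g⁻¹) * g := by group
  rw [h4, h3]; group

end Cfsg.Agent.S0060
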