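import Mathlib
import Cfsg.Statements.S0061
import Cfsg.Agent.Lib.Frobenius

set_option autoImplicit false
open Cfsg
open scoped Pointwise

namespace Cfsg.Agent.S0061

open Cfsg.Agent.Lib.Frobenius

variable {G : Type*} [Group G]

theorem solvable_of_card_prime_pow [Finite G] {p m : ℕ} (hp : p.Prime) (hG : Nat.card G = p ^ m) :
    Group.IsSolvable G := by
  have : Fact p.Prime := ⟨hp⟩
  have h : IsPGroup p G := IsPGroup.of_card hG
  have := h.isNilpotent
  infer_instance

theorem solvable_of_normal (N : Subgroup G) [N.Normal] (h1 : Group.IsSolvable N)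
    (h2 : Group.IsSolvable (G ⧸ N)) : Group.IsSolvable G :=
  Group.isSolvable_of_ker_le_range N.subtype (QuotientGroup.mk' N)
    (by rw [QuotientGroup.ker_mk', Subgroup.range_subtype])

theorem exists_norm_not_mem' [Finite G] {p : ℕ} [Fact p.Prime] {P D : Subgroup G}
    (hP : IsPGroup p P) (hDM : D < P) :
    ∃ x ∈ P, x ∉ D ∧ x ∈ Subgroup.normalizer (D : Set G) := by
  have hn : Group.IsNilpotent P := hP.isNilpotent
  have hnc : NormalizerCondition P := Group.normalizerCondition_of_isNilpotent
  have h1 : D.subgroupOf P < ⊤ := by
    rw [lt_top_iff_ne_top]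
    intro h
    apply hDM.not_ge
    exact Subgroup.subgroupOf_eq_top.mp h
  have h2 := hnc _ h1
  obtain ⟨y, hy1, hy2⟩ := SetLike.exists_of_lt h2
  refine ⟨y, y.2, fun h => hy2 ?_, ?_⟩
  · exact Subgroup.mem_subgroupOf.mpr h
  · have h3 := Subgroup.subgroupOf_normalizer_eq hDM.le
    have h4 : y ∈ (Subgroup.normalizer (D : Set G)).subgroupOf P := by
      rw [h3]; exact hy1
    exact Subgroup.mem_subgroupOf.mp h4

universe u

theorem aux (p q : ℕ) (hp : p.Prime) (hq : q.Prime) (hpq : p ≠ q) (m : ℕ) (G : Type u) [Group G]
    [Finite G] (hG : Nat.card G = p ^ m * q) : Group.IsSolvable G := by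
  classical
  have : Fact p.Prime := ⟨hp⟩
  have : Fact q.Prime := ⟨hq⟩
  induction m using Nat.strong_induction_on generalizing G with
  | _ m ih =>
    have hcop : Nat.Coprime p q := (Nat.coprime_primes hp hq).mpr hpq
    -- a Sylow subgroup has order p ^ m
    have hcard : ∀ P : Sylow p G, Nat.card P = p ^ m := by
      intro P
      have h1 := P.card_eq_multiplicity
      rw [hG, Nat.factorization_mul (pow_pos hp.pos m).ne' hq.ne_zero] at h1
      simp only [Nat.factorization_pow, Finsupp.add_apply, Finsupp.smul_apply, smul_eq_mul,
        hp.factorization_self, mul_one] at h1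
      rw [Nat.factorization_eq_zero_of_not_dvd, add_zero] at h1
      · exact h1
      · intro hdvd
        exact hpq ((Nat.prime_dvd_prime_iff_eq hp hq).mp hdvd)
    have hsolvP : ∀ P : Sylow p G, Group.IsSolvable P := fun P =>
      solvable_of_card_prime_pow hp (hcard P)
    by_cases hsub : Subsingleton (Sylow p G)
    · -- normal Sylow
      obtain ⟨P⟩ : Nonempty (Sylow p G) := inferInstance
      have hPn : (P : Subgroup G).Normal := Sylow.normal_of_subsingleton P
      have hQ : Nat.card (G ⧸ (P : Subgroup G)) = q ^ 1 := by
        have h1 := (P : Subgroup G).card_eq_card_quotient_mul_card_subgroup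
        rw [hcard, hG] at h1
        rw [pow_one]
        have hpos : 0 < p ^ m := pow_pos hp.pos m
        have h2 : q * p ^ m = Nat.card (G ⧸ (P : Subgroup G)) * p ^ m := by rw [← h1, mul_comm]
        exact (Nat.eq_of_mul_eq_mul_right hpos h2).symm
      exact solvable_of_normal (P : Subgroup G) (hsolvP P) (solvable_of_card_prime_pow hq hQ)
    · rw [not_subsingleton_iff_nontrivial] at hsub
      obtain ⟨P₀, P₀', hP₀⟩ := exists_pair_ne (Sylow p G)
      -- maximal intersection
      let S : Set (Subgroup G) :=
        {D | ∃ P₁ P₂ : Sylow p G, P₁ ≠ P₂ ∧ D = (P₁ : Subgroup G) ⊓ (P₂ : Subgroup G)}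
      have hSne : S.Nonempty := ⟨_, P₀, P₀', hP₀, rfl⟩
      obtain ⟨D, hD⟩ := S.toFinite.exists_maximal hSne
      obtain ⟨P₁, P₂, hne, hDeq⟩ := hD.1
      have hPeq : ∀ A B : Sylow p G, (A : Subgroup G) ≤ B → A = B := fun A B h =>
        Sylow.ext (Subgroup.eq_of_le_of_card_ge h (by rw [hcard, hcard]))
      by_cases hDbot : D = ⊥
      · -- TI case
        have hTI : ∀ A B : Sylow p G, A ≠ B → (A : Subgroup G) ⊓ (B : Subgroup G) = ⊥ := by
          intro A B hAB
          have h1 : (A : Subgroup G) ⊓ (B : Subgroup G) ∈ S := ⟨A, B, hAB, rfl⟩
          have h2 := hD.2 h1 (by rw [hDbot]; exact bot_le)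
          rw [hDbot] at h2
          exact le_bot_iff.mp h2
        have hidx : (P₁ : Subgroup G).index = q := by
          have h1 := (P₁ : Subgroup G).index_mul_card
          rw [hcard, hG, mul_comm] at h1
          exact Nat.eq_of_mul_eq_mul_left (pow_pos hp.pos m) h1
        have hconjSyl : ∀ g : G, ∃ A : Sylow p G, (A : Subgroup G) = MulAut.conj g • (P₁ : Subgroup G) :=
          fun g => ⟨MulAut.conj g • P₁, rfl⟩
        have hNP : Subgroup.normalizer ((P₁ : Subgroup G) : Set G) = P₁ := by
          -- index of the normaliser divides the prime q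
          have hle : (P₁ : Subgroup G) ≤ Subgroup.normalizer ((P₁ : Subgroup G) : Set G) :=
            Subgroup.le_normalizer
          have hdvd : (Subgroup.normalizer ((P₁ : Subgroup G) : Set G)).index ∣ q := by
            rw [← hidx]
            exact Subgroup.index_dvd_of_le hle
          rcases (Nat.dvd_prime hq).mp hdvd with h1 | h1
          · -- normal: contradiction
            exfalso
            have hn := Subgroup.index_eq_one.mp h1
            obtain ⟨g, hg⟩ := MulAction.exists_smul_eq G P₁ P₂
            apply hne
            rw [← hg]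
            have hgn : g ∈ Subgroup.normalizer (((P₁ : Subgroup G)) : Set G) := by rw [hn]; trivial
            exact (Sylow.smul_eq_iff_mem_normalizer.mpr hgn).symm
          · have h2 : (P₁ : Subgroup G).relIndex (Subgroup.normalizer ((P₁ : Subgroup G) : Set G)) = 1 := by
              have h3 := Subgroup.relIndex_mul_index hle
              rw [h1, hidx] at h3
              exact Nat.eq_of_mul_eq_mul_right hq.pos (by rw [h3, one_mul])
            have h4 := Subgroup.relIndex_eq_one.mp h2
            exact le_antisymm h4 hle
        have hP1bot : (P₁ : Subgroup G) ≠ ⊥ := by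
          intro h0
          -- then `P₁` and `P₂` are both trivial
          have h1 : (P₂ : Subgroup G) = ⊥ := by
            have h2 := hcard P₁
            have h3 := hcard P₂
            rw [h0, Subgroup.card_bot] at h2
            rw [← h2] at h3
            exact Subgroup.card_eq_one.mp h3
          apply hne
          apply Sylow.ext
          rw [h0, h1]
        have hF : IsFrobeniusComplement (P₁ : Subgroup G) := by
          refine ⟨hP1bot, ?_, ?_⟩
          · intro h0
            rw [h0, Subgroup.index_top] at hidx
            exact hq.one_lt.ne hidx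
          · intro g hg
            have hgN : g ∉ Subgroup.normalizer ((P₁ : Subgroup G) : Set G) := by rwa [hNP]
            have hne' : P₁ ≠ MulAut.conj g • P₁ := by
              intro heq
              apply hgN
              have h1 : (P₁ : Subgroup G) = MulAut.conj g • (P₁ : Subgroup G) :=
                congrArg (fun A : Sylow p G => (A : Subgroup G)) heq
              rw [Subgroup.mem_normalizer_iff]
              intro x
              have h2 : g * x * g⁻¹ ∈ MulAut.conj g • (P₁ : Subgroup G) ↔ x ∈ (P₁ : Subgroup G) := by
                rw [mem_conj_iff]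
                have : g⁻¹ * (g * x * g⁻¹) * g = x := by group
                rw [this]
              rw [← h1] at h2
              exact h2.symm
            exact hTI _ _ hne'
        have hK := card_kernel hF
        rw [hidx] at hK
        -- an element of order q
        obtain ⟨y, hy⟩ := exists_prime_orderOf_dvd_card' (G := G) q (by rw [hG]; exact dvd_mul_left _ _)
        let Q : Subgroup G := Subgroup.zpowers y
        have hQcard : Nat.card Q = q := by
          rw [Nat.card_zpowers, hy]
        have hQK : (Q : Set G) ⊆ frobeniusKernel (P₁ : Subgroup G) := by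
          intro z hz
          rw [mem_kernel_iff]
          by_cases hz1 : z = 1
          · exact Or.inl hz1
          right
          intro g hg
          -- order of z is q
          have hzord : orderOf z = q := by
            have h1 : orderOf z ∣ q := by
              have h2 : orderOf (⟨z, hz⟩ : Q) ∣ Nat.card Q := orderOf_dvd_natCard _
              rw [hQcard, Subgroup.orderOf_mk] at h2
              exact h2
            rcases (Nat.dvd_prime hq).mp h1 with h2 | h2
            · exact absurd (orderOf_eq_one_iff.mp h2) hz1
            · exact h2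
          have hP := IsPGroup.iff_card.mpr ⟨m, hcard P₁⟩
          have h3 : orderOf (⟨g⁻¹ * z * g, hg⟩ : (P₁ : Subgroup G)) = q := by
            rw [Subgroup.orderOf_mk]
            have : g⁻¹ * z * g = MulAut.conj g⁻¹ z := by simp
            rw [this, MulEquiv.orderOf_eq, hzord]
          have h4 : q ∣ p ^ m := by
            rw [← h3, ← hcard P₁]
            exact orderOf_dvd_natCard _
          have h5 := hq.dvd_of_dvd_pow h4
          exact hpq ((Nat.prime_dvd_prime_iff_eq hq hp).mp h5).symm
        have hQeq : (Q : Set G) = frobeniusKernel (P₁ : Subgroup G) := by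
          apply Set.eq_of_subset_of_ncard_le hQK (ht := Set.toFinite _)
          have h1 : (Q : Set G).ncard = q := by
            rw [← Nat.card_coe_set_eq]; exact hQcard
          rw [h1, ← hK, Nat.card_coe_set_eq]
        have hQn : Q.Normal := by
          constructor
          intro z hz g
          have hz' : z ∈ frobeniusKernel (P₁ : Subgroup G) := by
            rw [← hQeq]; exact hz
          have := conj_mem_kernel hz' g
          rw [← hQeq] at this
          exact this
        have hQsolv : Group.IsSolvable Q :=
          solvable_of_card_prime_pow hq (m := 1) (by rw [hQcard, pow_one])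
        have hquot : Nat.card (G ⧸ Q) = p ^ m := by
          have h1 := Q.card_eq_card_quotient_mul_card_subgroup
          rw [hQcard, hG] at h1
          exact (Nat.eq_of_mul_eq_mul_right hq.pos h1).symm
        exact solvable_of_normal Q hQsolv (solvable_of_card_prime_pow hp hquot)
      · -- nontrivial intersection
        have hD1 : D < (P₁ : Subgroup G) := by
          refine lt_of_le_of_ne (hDeq ▸ inf_le_left) ?_
          intro h
          apply hne
          apply hPeq
          have h1 : D ≤ (P₂ : Subgroup G) := hDeq ▸ inf_le_right
          rwa [h] at h1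
        have hD2 : D < (P₂ : Subgroup G) := by
          refine lt_of_le_of_ne (hDeq ▸ inf_le_right) ?_
          intro h
          apply hne.symm
          apply hPeq
          have h1 : D ≤ (P₁ : Subgroup G) := hDeq ▸ inf_le_left
          rwa [h] at h1
        obtain ⟨x₁, hx₁, hx₁D, hx₁N⟩ := exists_norm_not_mem' P₁.2 hD1
        obtain ⟨x₂, hx₂, hx₂D, hx₂N⟩ := exists_norm_not_mem' P₂.2 hD2
        set N := Subgroup.normalizer (D : Set G) with hN
        have hDN : D ≤ N := Subgroup.le_normalizer
        -- `N` is not a `p`-group
        have hNp : ¬ IsPGroup p N := by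
          intro hpg
          obtain ⟨P₃, hNP₃⟩ := hpg.exists_le_sylow
          have key : ∀ A : Sylow p G, D ≤ (A : Subgroup G) → ∀ x ∈ (A : Subgroup G), x ∉ D →
              x ∈ N → A = P₃ := by
            intro A hDA x hxA hxD hxN
            by_contra hAne
            have h1 : (A : Subgroup G) ⊓ (P₃ : Subgroup G) ∈ S := ⟨A, P₃, hAne, rfl⟩
            have h2 : D ≤ (A : Subgroup G) ⊓ (P₃ : Subgroup G) := le_inf hDA (hDN.trans hNP₃)
            have h3 := hD.2 h1 h2
            exact hxD (h3 (Subgroup.mem_inf.mpr ⟨hxA, hNP₃ hxN⟩))
          have e1 := key P₁ hD1.le x₁ hx₁ hx₁D hx₁N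
          have e2 := key P₂ hD2.le x₂ hx₂ hx₂D hx₂N
          exact hne (e1.trans e2.symm)
        -- so `q` divides its order
        have hqN : q ∣ Nat.card N := by
          by_contra hnd
          apply hNp
          have hdvd : Nat.card N ∣ p ^ m * q := by
            rw [← hG]; exact Subgroup.card_subgroup_dvd_card N
          have h1 : Nat.Coprime (Nat.card N) q :=
            ((Nat.Prime.coprime_iff_not_dvd hq).mpr hnd).symm
          have h2 : Nat.card N ∣ p ^ m := h1.dvd_of_dvd_mul_right hdvd
          obtain ⟨k, -, hk⟩ := (Nat.dvd_prime_pow hp).mp h2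
          exact IsPGroup.of_card hk
        obtain ⟨y, hy⟩ := exists_prime_orderOf_dvd_card' (G := N) q hqN
        let Q : Subgroup G := Subgroup.zpowers (y : G)
        have hQcard : Nat.card Q = q := by
          rw [Nat.card_zpowers, Subgroup.orderOf_coe, hy]
        have hQN : Q ≤ N := by
          rw [Subgroup.zpowers_le]
          exact y.2
        have hPQ : Subgroup.IsComplement' (P₁ : Subgroup G) Q := by
          apply Subgroup.isComplement'_of_coprime
          · rw [hcard, hQcard, hG]
          · rw [hcard, hQcard]
            exact Nat.Coprime.pow_left _ hcop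
        -- normal closure of D inside P₁
        let L : Subgroup G := Subgroup.normalClosure (D : Set G)
        have hLn : L.Normal := Subgroup.normalClosure_normal
        have hDL : D ≤ L := Subgroup.le_normalClosure
        have hLP : L ≤ (P₁ : Subgroup G) := by
          change Subgroup.closure (Group.conjugatesOfSet (D : Set G)) ≤ _
          rw [Subgroup.closure_le]
          intro z hz
          obtain ⟨d, hd, hdz⟩ := Group.mem_conjugatesOfSet_iff.mp hz
          obtain ⟨c, rfl⟩ := isConj_iff.mp hdz
          obtain ⟨⟨x, u⟩, hxu⟩ := hPQ.2 c
          have hxu' : (x : G) * (u : G) = c := hxu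
          have hud : (u : G) * d * (u : G)⁻¹ ∈ D :=
            (Subgroup.mem_normalizer_iff.mp (hQN u.2) d).mp hd
          have hzz : c * d * c⁻¹ = (x : G) * ((u : G) * d * (u : G)⁻¹) * (x : G)⁻¹ := by
            rw [← hxu']; group
          rw [hzz]
          exact (P₁ : Subgroup G).mul_mem
            ((P₁ : Subgroup G).mul_mem x.2 (hD1.le hud)) ((P₁ : Subgroup G).inv_mem x.2)
        have hLbot : L ≠ ⊥ := by
          intro h0
          apply hDbot
          rw [eq_bot_iff, ← h0]
          exact hDL
        have hLcard : Nat.card L ∣ p ^ m := by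
          rw [← hcard P₁]
          exact Subgroup.card_dvd_of_le hLP
        obtain ⟨k, hkm, hk⟩ := (Nat.dvd_prime_pow hp).mp hLcard
        have hk0 : k ≠ 0 := by
          rintro rfl
          rw [pow_zero] at hk
          exact hLbot (Subgroup.card_eq_one.mp hk)
        have hLsolv : Group.IsSolvable L := solvable_of_card_prime_pow hp hk
        have hquot : Nat.card (G ⧸ L) = p ^ (m - k) * q := by
          have h1 := L.card_eq_card_quotient_mul_card_subgroup
          rw [hk, hG] at h1
          have h2 : p ^ m = p ^ (m - k) * p ^ k := by
            rw [← pow_add, Nat.sub_add_cancel hkm]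
          rw [h2] at h1
          have h3 : p ^ (m - k) * q * p ^ k = Nat.card (G ⧸ L) * p ^ k := by
            rw [← h1]; ring
          exact (Nat.eq_of_mul_eq_mul_right (pow_pos hp.pos k) h3).symm
        have hQsolv : Group.IsSolvable (G ⧸ L) :=
          ih (m - k) (by omega) (G ⧸ L) hquot
        exact solvable_of_normal L hLsolv hQsolv

/-- A finite group whose order is a prime power times a prime is solvable. -/
theorem result {G : Type*} [Group G] [Finite G] (p q m : ℕ) (hp : p.Prime) (hq : q.Prime)
    (hG : Nat.card G = p ^ m * q) : Group.IsSolvable G := by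
  by_cases hpq : p = q
  · subst hpq
    exact solvable_of_card_prime_pow hp (m := m + 1) (by rw [hG, pow_succ])
  · exact aux p q hp hq hpq m G hG

end Cfsg.Agent.S0061
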