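import Mathlib
import Cfsg.Statements.S0062
import Cfsg.Agent.S0061

set_option autoImplicit false
open Cfsg

namespace Cfsg.Agent.S0062

open Cfsg.Agent.S0061 (solvable_of_card_prime_pow solvable_of_normal)

theorem solvable_of_dvd_36 {H : Type*} [Group H] [Finite H] (hd : Nat.card H ∣ 36)
    (hne : Nat.card H ≠ 36) : Group.IsSolvable H := by
  have h2 : Nat.Prime 2 := by norm_num
  have h3 : Nat.Prime 3 := by norm_num
  have hmem : Nat.card H ∈ Nat.divisors 36 := Nat.mem_divisors.mpr ⟨hd, by norm_num⟩
  have hdiv : Nat.divisors 36 = {1, 2, 3, 4, 6, 9, 12, 18, 36} := by decide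
  rw [hdiv] at hmem
  simp only [Finset.mem_insert, Finset.mem_singleton] at hmem
  rcases hmem with h | h | h | h | h | h | h | h | h
  · exact solvable_of_card_prime_pow h2 (m := 0) (by rw [h, pow_zero])
  · exact solvable_of_card_prime_pow h2 (m := 1) (by rw [h]; norm_num)
  · exact solvable_of_card_prime_pow h3 (m := 1) (by rw [h]; norm_num)
  · exact solvable_of_card_prime_pow h2 (m := 2) (by rw [h]; norm_num)
  · exact Cfsg.Agent.S0061.result 2 3 1 h2 h3 (by rw [h]; norm_num)
  · exact solvable_of_card_prime_pow h3 (m := 2) (by rw [h]; norm_num)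
  · exact Cfsg.Agent.S0061.result 2 3 2 h2 h3 (by rw [h]; norm_num)
  · exact Cfsg.Agent.S0061.result 3 2 2 h3 h2 (by rw [h]; norm_num)
  · exact absurd h hne

theorem core {G : Type*} [Group G] [Finite G] (p q : ℕ) (hp : p.Prime) (hq : q.Prime) (hlt : q < p)
    (hG : Nat.card G = p ^ 2 * q ^ 2) : Group.IsSolvable G := by
  classical
  have : Fact p.Prime := ⟨hp⟩
  have hpq : p ≠ q := hlt.ne'
  obtain ⟨P⟩ : Nonempty (Sylow p G) := inferInstance
  have hcard : Nat.card P = p ^ 2 := by
    have h1 := P.card_eq_multiplicity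
    rw [hG, Nat.factorization_mul (pow_pos hp.pos 2).ne' (pow_pos hq.pos 2).ne'] at h1
    simp only [Nat.factorization_pow, Finsupp.add_apply, Finsupp.smul_apply, smul_eq_mul,
      hp.factorization_self, mul_one] at h1
    rw [Nat.factorization_eq_zero_of_not_dvd, mul_zero, add_zero] at h1
    · exact h1
    · intro hdvd
      exact hpq ((Nat.prime_dvd_prime_iff_eq hp hq).mp hdvd)
  have hidx : (P : Subgroup G).index = q ^ 2 := by
    have h1 := (P : Subgroup G).index_mul_card
    rw [hcard, hG, mul_comm] at h1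
    exact Nat.eq_of_mul_eq_mul_left (pow_pos hp.pos 2) h1
  have hdvd : Nat.card (Sylow p G) ∣ q ^ 2 := hidx ▸ P.card_dvd_index
  have hmod : Nat.card (Sylow p G) ≡ 1 [MOD p] := card_sylow_modEq_one p G
  obtain ⟨j, hj, hjc⟩ := (Nat.dvd_prime_pow hq).mp hdvd
  have hcases : j = 0 ∨ j = 1 ∨ j = 2 := by omega
  rcases hcases with rfl | rfl | rfl
  · -- normal
    rw [pow_zero] at hjc
    have hsub : Subsingleton (Sylow p G) := (Nat.card_eq_one_iff_unique.mp hjc).1
    have hPn : (P : Subgroup G).Normal := Sylow.normal_of_subsingleton P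
    have hPsolv : Group.IsSolvable P := solvable_of_card_prime_pow hp hcard
    have hQ : Nat.card (G ⧸ (P : Subgroup G)) = q ^ 2 := hidx
    exact solvable_of_normal (P : Subgroup G) hPsolv (solvable_of_card_prime_pow hq hQ)
  · exfalso
    rw [pow_one] at hjc
    rw [hjc] at hmod
    have h1 := (Nat.modEq_iff_dvd' hq.one_lt.le).mp hmod.symm
    have h2 := Nat.le_of_dvd (by have := hq.one_lt; omega) h1
    omega
  · -- order 36
    rw [hjc] at hmod
    have hq1 := hq.one_lt
    have hq2le : 1 ≤ q ^ 2 := Nat.one_le_pow _ _ hq.pos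
    have h1 := (Nat.modEq_iff_dvd' hq2le).mp hmod.symm
    have h2 : q ^ 2 - 1 = (q - 1) * (q + 1) := by
      obtain ⟨r, rfl⟩ : ∃ r, q = r + 1 := ⟨q - 1, by omega⟩
      simp only [Nat.add_sub_cancel]
      ring_nf
      omega
    rw [h2] at h1
    have h3 : p ∣ q + 1 := by
      rcases hp.dvd_mul.mp h1 with h4 | h4
      · exfalso
        have := Nat.le_of_dvd (by omega) h4
        omega
      · exact h4
    have h5 := Nat.le_of_dvd (by omega) h3
    have hpe : p = q + 1 := by omega
    have hqe : q = 2 := by
      rcases Nat.even_or_odd q with he | ho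
      · exact (Nat.Prime.even_iff hq).mp he
      · exfalso
        have hev : Even p := by rw [hpe]; exact ho.add_one
        have := (Nat.Prime.even_iff hp).mp hev
        omega
    have hpe3 : p = 3 := by omega
    subst hqe
    subst hpe3
    have hG36 : Nat.card G = 36 := by rw [hG]; norm_num
    have hn4 : Nat.card (Sylow 3 G) = 4 := by rw [hjc]; norm_num
    let φ := MulAction.toPermHom G (Sylow 3 G)
    let K := φ.ker
    have hKbot : K ≠ ⊥ := by
      intro h0
      have hinj : Function.Injective φ := (MonoidHom.ker_eq_bot_iff φ).mp h0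
      have h6 : Nat.card G ∣ Nat.card (Equiv.Perm (Sylow 3 G)) := Subgroup.card_dvd_of_injective φ hinj
      rw [Nat.card_perm, hn4, hG36] at h6
      revert h6
      decide
    have hKtop : K ≠ ⊤ := by
      intro h0
      -- every element fixes every Sylow subgroup, so there is only one
      have hfix : ∀ (g : G) (Q : Sylow 3 G), g • Q = Q := by
        intro g Q
        have h7 : g ∈ K := by rw [h0]; trivial
        have h8 : φ g = 1 := h7
        exact congrArg (fun e : Equiv.Perm (Sylow 3 G) => e Q) h8
      have hall : ∀ Q Q' : Sylow 3 G, Q = Q' := by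
        intro Q Q'
        obtain ⟨g, hg⟩ := MulAction.exists_smul_eq G Q Q'
        rw [← hg, hfix]
      have : Nat.card (Sylow 3 G) = 1 :=
        Nat.card_eq_one_iff_unique.mpr ⟨⟨hall⟩, ⟨P⟩⟩
      omega
    have hKdvd : Nat.card K ∣ 36 := hG36 ▸ Subgroup.card_subgroup_dvd_card K
    have hKne : Nat.card K ≠ 36 := by
      intro h
      apply hKtop
      apply Subgroup.eq_top_of_card_eq
      rw [h, hG36]
    have hKsolv : Group.IsSolvable K := solvable_of_dvd_36 hKdvd hKne
    have hQdvd : Nat.card (G ⧸ K) ∣ 36 := hG36 ▸ Subgroup.card_quotient_dvd_card K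
    have hQne : Nat.card (G ⧸ K) ≠ 36 := by
      intro h
      apply hKbot
      have h1 := K.card_eq_card_quotient_mul_card_subgroup
      rw [h, hG36] at h1
      have h2 : Nat.card K = 1 := by omega
      exact Subgroup.card_eq_one.mp h2
    have hQsolv : Group.IsSolvable (G ⧸ K) := solvable_of_dvd_36 hQdvd hQne
    exact solvable_of_normal K hKsolv hQsolv

/-- A finite group of order p^2 * q^2 with p and q prime is solvable. -/
theorem result {G : Type*} [Group G] [Finite G] (p q : ℕ) (hp : p.Prime) (hq : q.Prime)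
    (hG : Nat.card G = p ^ 2 * q ^ 2) : Group.IsSolvable G := by
  rcases lt_trichotomy p q with h | h | h
  · exact core q p hq hp h (by rw [hG, mul_comm])
  · subst h
    exact solvable_of_card_prime_pow hp (m := 4) (by rw [hG]; ring)
  · exact core p q hp hq h hG

end Cfsg.Agent.S0062
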