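import Mathlib
import Cfsg.Statements.S0063

set_option autoImplicit false
open Cfsg

namespace Cfsg.Agent.S0063

theorem aux (p : ℕ) [Fact p.Prime] (n : ℕ) : ∀ {G : Type _} [Group G] [Finite G],
    Nat.card G = p ^ n → 1 < n → Group.nilpotencyClass G ≤ n - 1 := by
  induction n using Nat.strong_induction_on with
  | _ n ih =>
    intro G _ _ hG hn
    have hp : p.Prime := Fact.out
    have hpg : IsPGroup p G := IsPGroup.of_card hG
    have : Group.IsNilpotent G := hpg.isNilpotent
    have : Nontrivial G := by
      apply Finite.one_lt_card_iff_nontrivial.mp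
      rw [hG]
      exact Nat.one_lt_pow (by omega) hp.one_lt
    have hZ : Nontrivial (Subgroup.center G) := hpg.center_nontrivial
    have hdvd : Nat.card (G ⧸ Subgroup.center G) ∣ p ^ n := by
      rw [← hG]
      exact Subgroup.card_quotient_dvd_card _
    obtain ⟨j, hj, hjc⟩ := (Nat.dvd_prime_pow hp).mp hdvd
    have hjlt : j < n := by
      have hcard := (Subgroup.center G).card_eq_card_quotient_mul_card_subgroup
      rw [hG, hjc] at hcard
      have h2 : 1 < Nat.card (Subgroup.center G) := Finite.one_lt_card_iff_nontrivial.mpr hZ
      by_contra hge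
      have hje : j = n := by omega
      rw [hje] at hcard
      have hpos : 0 < p ^ n := pow_pos hp.pos n
      nlinarith
    have hcq := Group.nilpotencyClass_eq_quotient_center_plus_one (G := G)
    by_cases hj1 : j ≤ 1
    · -- abelian
      have hcyc : IsCyclic (G ⧸ Subgroup.center G) := by
        rcases Nat.le_one_iff_eq_zero_or_eq_one.mp hj1 with h0 | h1
        · rw [h0, pow_zero] at hjc
          have : Subsingleton (G ⧸ Subgroup.center G) := (Nat.card_eq_one_iff_unique.mp hjc).1
          infer_instance
        · rw [h1, pow_one] at hjc
          exact isCyclic_of_prime_card hjc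
      letI : CommGroup G := commGroupOfCyclicCenterQuotient (QuotientGroup.mk' (Subgroup.center G))
        (QuotientGroup.ker_mk' _).le
      have := CommGroup.nilpotencyClass_le_one (G := G)
      omega
    · have := ih j hjlt (G := G ⧸ Subgroup.center G) hjc (by omega)
      omega

/-- A finite group of prime-power order p ^ m with m > 1 is nilpotent of class at most m - 1. -/
theorem result {G : Type*} [Group G] [Finite G] (p m : ℕ) [Fact p.Prime]
    (hG : Nat.card G = p ^ m) (hm : 1 < m) : Group.nilpotencyClass G ≤ m - 1 :=
  aux p m hG hm

end Cfsg.Agent.S0063
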