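import Mathlib
import Cfsg.Statements.S0064

set_option autoImplicit false
open Cfsg

namespace Cfsg.Agent.S0064

/-- A finite group is nilpotent exactly when each of its subgroups is subnormal. -/
theorem result {G : Type*} [Group G] [Finite G] :
    Group.IsNilpotent G ↔ ∀ H : Subgroup G, H.IsSubnormal := by
  constructor
  · intro hG H
    have hnc : NormalizerCondition G := normalizerCondition_of_isNilpotent
    induction H using WellFoundedGT.induction with
    | ind H ih =>
      by_cases htop : H = ⊤
      · rw [htop]; exact Subgroup.IsSubnormal.top
      · have hlt : H < Subgroup.normalizer (H : Set G) := hnc H (lt_top_iff_ne_top.mpr htop)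
        have h1 := ih _ hlt
        exact Subgroup.IsSubnormal.step H _ hlt.le h1 (Subgroup.normal_in_normalizer)
  · intro h
    refine (Group.isNilpotent_of_finite_tfae (G := G)).out 2 0 |>.mp ?_
    intro H hH
    rcases (h H).lt_normal with h1 | ⟨K, hK, hHK, hKlt⟩
    · exact absurd h1 hH.1
    · have : H = K := by
        by_contra hne
        exact hKlt.ne (hH.2 K (lt_of_le_of_ne hHK hne))
      rw [this]; exact hK

end Cfsg.Agent.S0064
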