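import Mathlib
import Cfsg.Statements.S0065

set_option autoImplicit false
open Cfsg
open scoped commutatorElement

namespace Cfsg.Agent.S0065

/-- A nontrivial normal subgroup of a nilpotent group intersects the centre nontrivially. -/
theorem result {G : Type*} [Group G] [Finite G] [Group.IsNilpotent G]
    (N : Subgroup G) [N.Normal] (hN : N ≠ ⊥) : N ⊓ Subgroup.center G ≠ ⊥ := by
  classical
  obtain ⟨m, hm⟩ := Group.IsNilpotent.nilpotent G
  have hex : ∃ n, N ⊓ Subgroup.upperCentralSeries G n ≠ ⊥ := ⟨m, by simpa [hm] using hN⟩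
  let n := Nat.find hex
  have hn : N ⊓ Subgroup.upperCentralSeries G n ≠ ⊥ := Nat.find_spec hex
  have hn0 : n ≠ 0 := by
    intro h0
    apply hn
    rw [h0, Subgroup.upperCentralSeries_zero, inf_bot_eq]
  obtain ⟨k, hk⟩ := Nat.exists_eq_succ_of_ne_zero hn0
  have hkmin : N ⊓ Subgroup.upperCentralSeries G k = ⊥ := by
    by_contra hne
    have := Nat.find_min' hex hne
    change n ≤ k at this
    omega
  rw [hk] at hn
  rcases Subgroup.bot_or_exists_ne_one (N ⊓ Subgroup.upperCentralSeries G (k + 1)) with h | ⟨x, hx, hx1⟩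
  · exact absurd h hn
  intro hbot
  apply hx1
  have hxc : x ∈ Subgroup.center G := by
    rw [Subgroup.mem_center_iff]
    intro y
    have h1 : ⁅x, y⁆ ∈ Subgroup.upperCentralSeries G k := Subgroup.mem_upperCentralSeries_succ_iff.mp hx.2 y
    have h2 : ⁅x, y⁆ ∈ N := by
      have : ⁅x, y⁆ = x * (y * x⁻¹ * y⁻¹) := by simp [commutatorElement_def, mul_assoc]
      rw [this]
      exact N.mul_mem hx.1 (‹N.Normal›.conj_mem _ (N.inv_mem hx.1) y)
    have h3 : ⁅x, y⁆ ∈ N ⊓ Subgroup.upperCentralSeries G k := ⟨h2, h1⟩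
    rw [hkmin, Subgroup.mem_bot, commutatorElement_eq_one_iff_mul_comm] at h3
    exact h3.symm
  have : x ∈ N ⊓ Subgroup.center G := ⟨hx.1, hxc⟩
  rwa [hbot, Subgroup.mem_bot] at this

end Cfsg.Agent.S0065
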