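import Mathlib
import Cfsg.Statements.S0068

set_option autoImplicit false
open Cfsg

namespace Cfsg.Agent.S0068

/-- Frobenius complements of even order: if H complements a nontrivial normal subgroup K, each nonidentity element of H has trivial centraliser in K, and H has even order, then H contains a unique involution s, K is abelian, and s inverts every element of K. -/
theorem result {G : Type*} [Group G] [Finite G] (K H : Subgroup G) [K.Normal]
    (hc : Subgroup.IsComplement' K H) (hK : K ≠ ⊥) (hfpf : ∀ h ∈ H, h ≠ 1 → K ⊓ Subgroup.centralizer {h} = ⊥)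
    (heven : 2 ∣ Nat.card H) :
    (∃ s ∈ H, orderOf s = 2 ∧ (∀ t ∈ H, orderOf t = 2 → t = s) ∧ ∀ k ∈ K, s * k * s⁻¹ = k⁻¹) ∧ IsMulCommutative K := by
  classical
  have hnorm := ‹K.Normal›
  have : Fact (Nat.Prime 2) := ⟨Nat.prime_two⟩
  -- any involution in H inverts K
  have hinv : ∀ t ∈ H, orderOf t = 2 →
      (∀ k ∈ K, t * k * t⁻¹ = k⁻¹) ∧ (∀ a ∈ K, ∀ b ∈ K, a * b = b * a) := by
    intro t ht ht2
    have ht1 : t ≠ 1 := by
      intro h
      rw [h, orderOf_one] at ht2
      omega
    have htt : t * t = 1 := by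
      have := pow_orderOf_eq_one t
      rw [ht2, pow_two] at this
      exact this
    have htinv : t⁻¹ = t := inv_eq_of_mul_eq_one_left htt
    let φ : K →* K := (MulAut.conjNormal t : MulAut K).toMonoidHom
    have hφ : ∀ k : K, ((φ k : K) : G) = t * k * t⁻¹ := by
      intro k
      simp [φ]
    have hfp : MonoidHom.FixedPointFree φ := by
      intro k hk
      have h1 : t * (k : G) * t⁻¹ = k := by rw [← hφ, hk]
      have h2 : (k : G) ∈ K ⊓ Subgroup.centralizer {t} := by
        refine Subgroup.mem_inf.mpr ⟨k.2, ?_⟩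
        rw [Subgroup.mem_centralizer_singleton_iff]
        calc (k : G) * t = t * (k : G) * t⁻¹ * t := by rw [h1]
          _ = t * k := by group
      rw [hfpf t ht ht1, Subgroup.mem_bot] at h2
      exact Subtype.ext h2
    have hφ2 : Function.Involutive φ := by
      intro k
      apply Subtype.ext
      rw [hφ, hφ]
      calc t * (t * (k : G) * t⁻¹) * t⁻¹ = (t * t) * k * (t * t)⁻¹ := by group
        _ = k := by rw [htt]; simp
    constructor
    · intro k hk
      have := hfp.coe_eq_inv_of_involutive hφ2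
      have h1 := congrFun this ⟨k, hk⟩
      have h2 := hφ ⟨k, hk⟩
      rw [h1] at h2
      simpa using h2.symm
    · intro a ha b hb
      have := hfp.commute_all_of_involutive hφ2 ⟨a, ha⟩ ⟨b, hb⟩
      exact congrArg Subtype.val this
  obtain ⟨s', hs'⟩ := exists_prime_orderOf_dvd_card' (G := H) 2 heven
  have hs'2 : orderOf (s' : G) = 2 := by
    rw [Subgroup.orderOf_coe]
    exact hs'
  have hs := hinv s' s'.2 hs'2
  refine ⟨⟨s', s'.2, hs'2, ?_, hs.1⟩, ⟨⟨fun a b => Subtype.ext (hs.2 a a.2 b b.2)⟩⟩⟩
  intro t ht ht2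
  have htt : t * t = 1 := by
    have := pow_orderOf_eq_one t
    rw [ht2, pow_two] at this
    exact this
  have htinv : t⁻¹ = t := inv_eq_of_mul_eq_one_left htt
  have hss : (s' : G) * s' = 1 := by
    have := pow_orderOf_eq_one (s' : G)
    rw [hs'2, pow_two] at this
    exact this
  have ht' := hinv t ht ht2
  by_contra hne
  have hmul : (s' : G) * t ≠ 1 := by
    intro h
    apply hne
    have : (s' : G) = t⁻¹ := eq_inv_of_mul_eq_one_left h
    rw [this, htinv]
  rcases Subgroup.bot_or_exists_ne_one K with h | ⟨k, hk, hk1⟩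
  · exact hK h
  have hmem : k ∈ K ⊓ Subgroup.centralizer {(s' : G) * t} := by
    refine Subgroup.mem_inf.mpr ⟨hk, ?_⟩
    rw [Subgroup.mem_centralizer_singleton_iff]
    have h1 := ht'.1 k hk
    have h2 := hs.1 (k⁻¹) (K.inv_mem hk)
    have h3 : t * k = k⁻¹ * t := by
      calc t * k = t * k * t⁻¹ * t := by group
        _ = k⁻¹ * t := by rw [h1]
    have h4 : (s' : G) * k⁻¹ = k * s' := by
      calc (s' : G) * k⁻¹ = s' * k⁻¹ * (s' : G)⁻¹ * s' := by group
        _ = k * s' := by rw [h2, inv_inv]
    calc k * ((s' : G) * t) = (k * s') * t := by group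
      _ = ((s' : G) * k⁻¹) * t := by rw [h4]
      _ = s' * (k⁻¹ * t) := by group
      _ = s' * (t * k) := by rw [h3]
      _ = ((s' : G) * t) * k := by group
  rw [hfpf _ (H.mul_mem s'.2 ht) hmul, Subgroup.mem_bot] at hmem
  exact hk1 hmem

end Cfsg.Agent.S0068
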