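import Mathlib
import Cfsg.Statements.S0070
import Cfsg.Agent.Lib.PCore

set_option autoImplicit false
open Cfsg

namespace Cfsg.Agent.S0070

open Cfsg.Agent.Lib.PCore

/-- The Fitting subgroup commutes with passing to the Frattini quotient: the Fitting subgroup of G modulo its Frattini subgroup is the image of the Fitting subgroup of G. -/
theorem result {G : Type*} [Group G] [Finite G] :
    Cfsg.fittingSubgroup (G ⧸ frattini G) = (Cfsg.fittingSubgroup G).map (QuotientGroup.mk' (frattini G)) := by
  classical
  set π := QuotientGroup.mk' (frattini G) with hπ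
  have hsurj : Function.Surjective π := QuotientGroup.mk'_surjective _
  apply le_antisymm
  · rw [fittingSubgroup_eq_iSup_pCore]
    refine iSup_le fun p => ?_
    have : Fact (p : ℕ).Prime := ⟨p.2⟩
    intro x hx
    -- the preimage of the `p`-core
    set C : Subgroup (G ⧸ frattini G) := pCore (p : ℕ) (G ⧸ frattini G) with hC
    set L : Subgroup G := C.comap π with hL
    have hCn : C.Normal := inferInstance
    have hLn : L.Normal := Subgroup.Normal.comap hCn π
    obtain ⟨P⟩ : Nonempty (Sylow (p : ℕ) L) := inferInstance
    have hfsurj : Function.Surjective (π.subgroupComap C) :=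
      MonoidHom.subgroupComap_surjective_of_surjective π C hsurj
    let Q : Sylow (p : ℕ) C := P.mapSurjective hfsurj
    have hQtop : (Q : Subgroup C) = ⊤ := by
      have hp : IsPGroup (p : ℕ) (⊤ : Subgroup C) :=
        ((isPGroup_pCore (p : ℕ) (G := G ⧸ frattini G))).to_subgroup _
      exact (Q.3 hp le_top).symm
    have hNP := Sylow.normalizer_sup_eq_top P
    set P' : Subgroup G := (P : Subgroup L).map L.subtype with hP'
    -- every element of `L` is an element of `P'` modulo the Frattini subgroup
    have hLP : L ≤ P' ⊔ frattini G := by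
      intro g hg
      have hmem : (⟨π g, hg⟩ : C) ∈ (Q : Subgroup C) := by rw [hQtop]; trivial
      obtain ⟨y, hy, hyg⟩ := hmem
      have hyg' : π (y : G) = π g := congrArg Subtype.val hyg
      have hker : (y : G)⁻¹ * g ∈ frattini G := by
        have h0 : π ((y : G)⁻¹ * g) = 1 := by
          rw [map_mul, map_inv, hyg']
          simp
        exact (QuotientGroup.eq_one_iff _).mp h0
      have h1 : g = (y : G) * ((y : G)⁻¹ * g) := by group
      rw [h1]
      exact Subgroup.mul_mem_sup ⟨y, hy, rfl⟩ hker
    have hNtop : Subgroup.normalizer (P' : Set G) ⊔ frattini G = ⊤ := by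
      rw [eq_top_iff, ← hNP, sup_le_iff]
      constructor
      · exact le_sup_left
      · refine hLP.trans (sup_le ?_ le_sup_right)
        exact Subgroup.le_normalizer.trans le_sup_left
    have hPn : P'.Normal := Subgroup.normalizer_eq_top_iff.mp (frattini_nongenerating hNtop)
    have hPp : IsPGroup (p : ℕ) P' := P.isPGroup'.map _
    have hPcore : P' ≤ pCore (p : ℕ) G := le_pCore hPn hPp
    -- conclude
    obtain ⟨g, rfl⟩ := hsurj x
    have hgL : g ∈ L := hx
    have hg2 : g ∈ ((P' ⊔ frattini G : Subgroup G) : Set G) := hLP hgL
    rw [Subgroup.mul_normal, Set.mem_mul] at hg2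
    obtain ⟨y, hy, z, hz, rfl⟩ := hg2
    refine ⟨y, pCore_le_fittingSubgroup _ (hPcore hy), ?_⟩
    have : π z = 1 := (QuotientGroup.eq_one_iff _).mpr hz
    simp [this]
  · have hn : ((fittingSubgroup G).map π).Normal :=
      Subgroup.Normal.map inferInstance π hsurj
    apply le_fittingSubgroup hn
    have : Group.IsNilpotent (fittingSubgroup G) := isNilpotent_fittingSubgroup
    have hs : Function.Surjective (π.subgroupMap (fittingSubgroup G)) :=
      MonoidHom.subgroupMap_surjective π _
    exact Group.nilpotent_of_surjective _ hs

end Cfsg.Agent.S0070
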