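import Mathlib
import Cfsg.Agent.Lib.SmallAut
import Cfsg.Statements.S0073

set_option autoImplicit false
open Cfsg

namespace Cfsg.Agent.S0073

theorem comm_of_card {X : Type*} [Group X] {p k : ℕ} (hp : p.Prime) (hk : k ≤ 2)
    (hc : Nat.card X = p ^ k) : ∀ a b : X, a * b = b * a := by
  haveI : Fact p.Prime := ⟨hp⟩
  have hk' : k = 0 ∨ k = 1 ∨ k = 2 := by omega
  rcases hk' with rfl | rfl | rfl
  · rw [pow_zero] at hc
    haveI : Subsingleton X := (Nat.card_eq_one_iff_unique.1 hc).1
    intro a b
    exact Subsingleton.elim _ _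
  · rw [pow_one] at hc
    haveI : IsCyclic X := isCyclic_of_prime_card hc
    exact fun a b => (IsCyclic.isMulCommutative (α := X)).is_comm.comm a b
  · exact fun a b => (IsPGroup.isMulCommutative_of_card_eq_prime_sq hc).is_comm.comm a b

theorem e1 (p : ℕ) (hp : 1 ≤ p) : p ^ 2 - p ^ 0 = (p - 1) * (p + 1) := by
  obtain ⟨r, rfl⟩ : ∃ r, p = r + 1 := ⟨p - 1, by omega⟩
  simp only [Nat.add_sub_cancel, pow_zero]
  have : (r + 1) ^ 2 = r * (r + 1 + 1) + 1 := by ring
  omega

theorem e2 (p : ℕ) (hp : 1 ≤ p) : p ^ 2 - p ^ 1 = p * (p - 1) := by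
  obtain ⟨r, rfl⟩ : ∃ r, p = r + 1 := ⟨p - 1, by omega⟩
  simp only [Nat.add_sub_cancel, pow_one]
  have : (r + 1) ^ 2 = (r + 1) * r + (r + 1) := by ring
  omega

/-- For a finite non-abelian simple group, either the cube of the least prime divisor of the order divides the order, or 12 does. -/
theorem result {G : Type*} [Group G] [Finite G] [IsSimpleGroup G] (hG : ∃ x y : G, x * y ≠ y * x) : (Nat.card G).minFac ^ 3 ∣ Nat.card G ∨ 12 ∣ Nat.card G := by
  classical
  by_contra hcon
  push Not at hcon
  obtain ⟨h3, h12⟩ := hcon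
  have hone : Nat.card G ≠ 1 := by
    have := Finite.one_lt_card (α := G)
    omega
  set p := (Nat.card G).minFac with hpdef
  have hp : p.Prime := Nat.minFac_prime hone
  haveI : Fact p.Prime := ⟨hp⟩
  have hpG : p ∣ Nat.card G := Nat.minFac_dvd _
  let T : Sylow p G := default
  obtain ⟨k, hk⟩ := T.isPGroup'.exists_card_eq
  have hkG : p ^ k ∣ Nat.card G := by
    rw [← hk]
    exact Subgroup.card_subgroup_dvd_card _
  have hk3 : k ≤ 2 := by
    by_contra hlt
    exact h3 (dvd_trans (pow_dvd_pow p (by omega)) hkG)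
  have hk0 : k ≠ 0 := by
    rintro rfl
    have h1 := Subgroup.card_mul_index (T : Subgroup G)
    rw [hk, pow_zero, one_mul] at h1
    exact T.not_dvd_index (by rw [h1]; exact hpG)
  have hTc : IsMulCommutative T := ⟨⟨comm_of_card hp hk3 hk⟩⟩
  have hnpc : Cfsg.HasNormalPComplement p G := by
    refine Cfsg.Agent.Lib.SmallAut.npc_of_aut_trivial T hTc ?_
    intro q hq hqG hqp β hβ
    haveI : Fact q.Prime := ⟨hq⟩
    have hqgt : p < q := lt_of_le_of_ne (Nat.minFac_le_of_dvd hq.two_le hqG) (Ne.symm hqp)
    apply Cfsg.Agent.Lib.SmallAut.aut_eq_one_of_card β hβ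
    rw [hk]
    intro d hd hne hmod
    obtain ⟨j, hj, rfl⟩ := (Nat.dvd_prime_pow hp).1 hd
    have hj' : j < k := lt_of_le_of_ne hj (fun h => hne (by rw [h]))
    have hle : p ^ j ≤ p ^ k := Nat.pow_le_pow_right hp.pos hj
    have hdvd : q ∣ p ^ k - p ^ j := (Nat.modEq_iff_dvd' hle).1 hmod.symm
    have hp1 : 1 ≤ p - 1 := by have := hp.two_le; omega
    have hnot : ¬ q ∣ p - 1 := fun h => by
      have := Nat.le_of_dvd (by omega) h
      omega
    have hk12 : k = 1 ∨ k = 2 := by omega
    rcases hk12 with rfl | rfl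
    · have hj0 : j = 0 := by omega
      subst hj0
      simp only [pow_one, pow_zero] at hdvd
      exact hnot hdvd
    · have hj01 : j = 0 ∨ j = 1 := by omega
      rcases hj01 with rfl | rfl
      · have e : p ^ 2 - p ^ 0 = (p - 1) * (p + 1) := e1 p hp.one_le
        rw [e] at hdvd
        rcases (Nat.Prime.dvd_mul hq).1 hdvd with h | h
        · exact hnot h
        · have hle' := Nat.le_of_dvd (by omega) h
          have hqe : q = p + 1 := by omega
          have hp2 : p = 2 := by
            rcases hp.eq_two_or_odd' with h2 | hodd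
            · exact h2
            · exfalso
              have heven : Even (p + 1) := hodd.add_one
              have := hq.eq_two_or_odd'
              rw [hqe] at hq
              rcases hq.eq_two_or_odd' with h3' | h3'
              · have := hp.two_le; omega
              · exact (Nat.not_even_iff_odd.2 h3') heven
          have h3q : q = 3 := by omega
          apply h12
          have h4 : 4 ∣ Nat.card G := by
            have : p ^ 2 ∣ Nat.card G := hkG
            rw [hp2] at this
            simpa using this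
          have h3' : 3 ∣ Nat.card G := h3q ▸ hqG
          have : 4 * 3 ∣ Nat.card G := Nat.Coprime.mul_dvd_of_dvd_of_dvd (by norm_num) h4 h3'
          simpa using this
      · have e : p ^ 2 - p ^ 1 = p * (p - 1) := e2 p hp.one_le
        rw [e] at hdvd
        rcases (Nat.Prime.dvd_mul hq).1 hdvd with h | h
        · exact hqp ((Nat.prime_dvd_prime_iff_eq hq hp).1 h)
        · exact hnot h
  obtain ⟨P, N, hN, hc⟩ := hnpc
  have hPc : Nat.card (P : Subgroup G) = p ^ k := by
    rw [← hk]
    exact Nat.card_congr (P.equiv T).toEquiv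
  have hmul := hc.card_mul_card
  rcases IsSimpleGroup.eq_bot_or_eq_top_of_normal N hN with rfl | rfl
  · rw [Subgroup.card_bot, one_mul, hPc] at hmul
    obtain ⟨x, y, hxy⟩ := hG
    exact hxy (comm_of_card hp hk3 hmul.symm x y)
  · rw [Subgroup.card_top, hPc] at hmul
    have h1 : p ^ k = 1 := by
      have hpos : 0 < Nat.card G := Nat.card_pos
      exact Nat.eq_of_mul_eq_mul_left hpos (by rw [hmul, mul_one])
    have h2 := Nat.one_lt_pow hk0 hp.one_lt
    omega

end Cfsg.Agent.S0073
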