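import Mathlib
import Cfsg.Agent.Lib.HyperGen
import Cfsg.Statements.S0075

set_option autoImplicit false
open Cfsg

namespace Cfsg.Agent.S0075

open scoped commutatorElement

/-- For an abelian Sylow p-subgroup T, its intersection with the subgroup generated by the elements of order prime to p is the commutator of T with its normalizer. -/
theorem result {G : Type*} [Group G] [Finite G] {p : ℕ} [Fact p.Prime] (T : Sylow p G) (hT : IsMulCommutative T) : (T : Subgroup G) ⊓ Cfsg.pResidual p G = ⁅(T : Subgroup G), Subgroup.normalizer (T : Set G)⁆ := by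
  classical
  apply le_antisymm
  · refine Cfsg.Agent.Lib.HyperGen.inf_pResidual_le T ⊤
      (fun Q _ g hg => ⟨g, hg, trivial, fun _ _ => rfl⟩) _ ?_
    intro Q hQ n _ y hy
    have hy' : y ∈ (T : Subgroup G) := hQ hy
    have hz : (n : G) * y * (n : G)⁻¹ ∈ (T : Subgroup G) := hQ ((n.2.2 y).1 hy)
    have hz' : ((n : G)⁻¹)⁻¹ * y * (n : G)⁻¹ ∈ (T : Subgroup G) := by simpa using hz
    obtain ⟨m, hm, h⟩ := T.conj_eq_normalizer_conj_of_mem y (n : G)⁻¹ hy' hz'
    have e : y⁻¹ * ((n : G) * y * (n : G)⁻¹) = ⁅y⁻¹, m⁻¹⁆ := by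
      have h' : (n : G) * y * (n : G)⁻¹ = m⁻¹ * y * m := by simpa using h
      rw [h', commutatorElement_def]
      group
    rw [e]
    exact Subgroup.commutator_mem_commutator (inv_mem hy') (inv_mem hm)
  · rw [Subgroup.commutator_le]
    intro t ht n hn
    have hKn : (Cfsg.pResidual p G).Normal := Cfsg.Agent.Lib.PResid.pResidual_normal p
    refine Subgroup.mem_inf.2 ⟨?_, ?_⟩
    · rw [commutatorElement_def]
      have h1 : n * t⁻¹ * n⁻¹ ∈ (T : Subgroup G) := (hn t⁻¹).1 (inv_mem ht)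
      have e : t * n * t⁻¹ * n⁻¹ = t * (n * t⁻¹ * n⁻¹) := by group
      rw [e]
      exact mul_mem ht h1
    · obtain ⟨t₀, ht₀, r, hr, rfl⟩ := Cfsg.Agent.Lib.PResid.exists_sylow_mul_pResidual T n
      have hcomm : t * t₀ = t₀ * t :=
        congrArg (fun a : (T : Subgroup G) => (a : G)) (hT.is_comm.comm ⟨t, ht⟩ ⟨t₀, ht₀⟩)
      have e : ⁅t, t₀ * r⁆ = t₀ * ((t * r * t⁻¹) * r⁻¹) * t₀⁻¹ := by
        rw [commutatorElement_def]
        calc t * (t₀ * r) * t⁻¹ * (t₀ * r)⁻¹ = (t * t₀) * r * t⁻¹ * r⁻¹ * t₀⁻¹ := by group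
          _ = (t₀ * t) * r * t⁻¹ * r⁻¹ * t₀⁻¹ := by rw [hcomm]
          _ = _ := by group
      rw [e]
      exact hKn.conj_mem _ (mul_mem (hKn.conj_mem _ hr t) (inv_mem hr)) t₀

end Cfsg.Agent.S0075
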