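import Mathlib
import Cfsg.Agent.Lib.TransferCore
import Cfsg.Statements.S0076

set_option autoImplicit false
open Cfsg

namespace Cfsg.Agent.S0076

open Cfsg.Agent.Lib.TransferCore in
lemma aux {G : Type*} [Group G] {X Y : Set G} {g h : G}
    (hg : (fun y => g * y * g⁻¹) '' X = Y)
    (hX : (fun y => (g⁻¹ * h * g) * y * (g⁻¹ * h * g)⁻¹) '' X = X) :
    h ∈ Subgroup.normalizer Y := by
  apply mem_normalizer_of_conj_image
  have hg' := conj_image_eq_iff.1 hg
  have hX'' := conj_image_eq_iff.1 hX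
  apply conj_image_eq_iff.2
  intro n
  have e1 : n ∈ Y ↔ g⁻¹ * n * g ∈ X := by
    rw [hg']; simp [mul_assoc]
  have e2 : h * n * h⁻¹ ∈ Y ↔ g⁻¹ * (h * n * h⁻¹) * g ∈ X := by
    rw [hg']; simp [mul_assoc]
  rw [e1, e2, hX'']
  have : g⁻¹ * h * g * (g⁻¹ * n * g) * (g⁻¹ * h * g)⁻¹ = g⁻¹ * (h * n * h⁻¹) * g := by group
  rw [this]

/-- Two P-invariant subsets of a Sylow p-subgroup P that are conjugate in G are conjugate under the normalizer of P. -/
theorem result {G : Type*} [Group G] [Finite G] {p : ℕ} [Fact p.Prime] (P : Sylow p G) (X Y : Set G) (hXP : X ⊆ P) (hYP : Y ⊆ P) (hX : ∀ x ∈ P, (fun y => x * y * x⁻¹) '' X = X) (hY : ∀ x ∈ P, (fun y => x * y * x⁻¹) '' Y = Y) (g : G) (hg : (fun y => g * y * g⁻¹) '' X = Y) : ∃ n ∈ Subgroup.normalizer (P : Set G), (fun y => n * y * n⁻¹) '' X = Y := by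
  classical
  open Cfsg.Agent.Lib.TransferCore in
  have hPS : (P : Subgroup G) ≤ Subgroup.normalizer Y := fun x hx =>
    mem_normalizer_of_conj_image (hY x hx)
  have hgPS : ((g • P : Sylow p G) : Subgroup G) ≤ Subgroup.normalizer Y := by
    intro h hh
    have hh' : g⁻¹ * h * g ∈ P := mem_smul_sylow.1 hh
    exact aux hg (hX _ hh')
  obtain ⟨s, hs, hsP⟩ := Cfsg.Agent.Lib.TransferCore.exists_conj_in_subgroup _ P (g • P) hPS hgPS
  refine ⟨s * g, ?_, ?_⟩
  · rw [Cfsg.Agent.Lib.TransferCore.mem_normalizer_sylow_iff, mul_smul, hsP]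
  · have h1 := Cfsg.Agent.Lib.TransferCore.conj_image_of_mem_normalizer hs
    have : (fun y => s * g * y * (s * g)⁻¹) = (fun y => s * y * s⁻¹) ∘ (fun y => g * y * g⁻¹) := by
      funext y; simp [mul_assoc]
    rw [this, Set.image_comp, hg, h1]

end Cfsg.Agent.S0076
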