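import Mathlib
import Cfsg.Agent.Lib.TransferEval
import Cfsg.Statements.S0077

set_option autoImplicit false
open Cfsg

namespace Cfsg.Agent.S0077



/-- If a subgroup Z of the centre of a Sylow p-subgroup P is weakly closed in P, then P meets the derived subgroup of G exactly where it meets the derived subgroup of the normalizer of Z. -/
theorem result {G : Type*} [Group G] [Finite G] {p : ℕ} [Fact p.Prime] (P : Sylow p G) (Z : Subgroup G) (hZ : Z ≤ Subgroup.centralizer (P : Set G)) (hW : Cfsg.IsWeaklyClosed Z P) : commutator G ⊓ (P : Subgroup G) = ⁅Subgroup.normalizer (Z : Set G), Subgroup.normalizer (Z : Set G)⁆ ⊓ (P : Subgroup G) := by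
  have hPN : (P : Subgroup G) ≤ Subgroup.normalizer (Z : Set G) := by
    intro x hx
    apply Subgroup.centralizer_le_normalizer
    rw [Subgroup.mem_centralizer_iff]
    intro z hz
    exact (Subgroup.mem_centralizer_iff.1 (hZ hz) x hx).symm ▸ rfl
  refine Cfsg.Agent.Lib.TransferEval.commutator_inf_eq_of_control P _ hPN ?_
  intro x hx g hg
  obtain ⟨n, hn, h⟩ := Cfsg.Agent.Lib.TransferEval.weaklyClosed_control P Z hZ hW {x}
    (by simpa using hx) g (by simpa using hg)
  exact ⟨n, hn, h x rfl⟩

end Cfsg.Agent.S0077
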