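import Mathlib
import Cfsg.Agent.Lib.HyperGen
import Cfsg.Agent.Lib.TransferEval
import Cfsg.Agent.Lib.Replacement
import Cfsg.Statements.S0078

set_option autoImplicit false
open Cfsg

namespace Cfsg.Agent.S0078



/-- In a p-normal group, a Sylow p-subgroup P meets O^p(G) exactly where it meets O^p(V), for any subgroup V containing the normalizer of the centre of P. -/
theorem result {G : Type*} [Group G] [Finite G] {p : ℕ} [Fact p.Prime] (P : Sylow p G) (hn : ∀ Q : Sylow p G, (P : Subgroup G) ⊓ Subgroup.centralizer (P : Set G) ≤ (Q : Subgroup G) → (Q : Subgroup G) ⊓ Subgroup.centralizer (Q : Set G) = (P : Subgroup G) ⊓ Subgroup.centralizer (P : Set G)) (V : Subgroup G) (hV : Subgroup.normalizer (((P : Subgroup G) ⊓ Subgroup.centralizer (P : Set G) : Subgroup G) : Set G) ≤ V) : (P : Subgroup G) ⊓ Cfsg.pResidual p G = (P : Subgroup G) ⊓ (Cfsg.pResidual p V).map V.subtype := by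
  classical
  set Z : Subgroup G := (P : Subgroup G) ⊓ Subgroup.centralizer (P : Set G) with hZdef
  have hZP : Z ≤ (P : Subgroup G) := inf_le_left
  have hPV : (P : Subgroup G) ≤ V := by
    refine le_trans ?_ hV
    intro x hx
    rw [Subgroup.mem_normalizer_iff]
    intro z
    constructor
    · intro hz
      have h1 : x * z * x⁻¹ = z := by
        have := Subgroup.mem_centralizer_iff.1 hz.2 x hx
        rw [this]
        group
      rwa [h1]
    · intro hz
      have h1 : x * z * x⁻¹ = x * z * x⁻¹ := rfl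
      have h2 : x⁻¹ * (x * z * x⁻¹) * x⁻¹⁻¹ = x * z * x⁻¹ := by
        have := Subgroup.mem_centralizer_iff.1 hz.2 x⁻¹ (inv_mem hx)
        rw [this]
        group
      have h3 : x⁻¹ * (x * z * x⁻¹) * x⁻¹⁻¹ = z := by group
      rw [← h3, h2]
      exact hz
  have hZc : (Z : Set G) ⊆ Subgroup.centralizer (P : Set G) := fun z hz => hz.2
  have hW : Cfsg.IsWeaklyClosed Z P := by
    refine ⟨hZP, fun g hg => ?_⟩
    have hle : ∀ z ∈ Z, g * z * g⁻¹ ∈ Z := by
      intro z hz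
      have hmem : g * z * g⁻¹ ∈ Z.map (MulAut.conj g).toMonoidHom := ⟨z, hz, rfl⟩
      refine Subgroup.mem_inf.2 ⟨hg hmem, Subgroup.mem_centralizer_iff.2 ?_⟩
      intro u hu
      have hQ : Z ≤ ((g⁻¹ • P : Sylow p G) : Subgroup G) := by
        intro w hw
        rw [Cfsg.Agent.Lib.PResid.coe_smul_eq_conj_map, Cfsg.Agent.Lib.PResid.mem_conj_map]
        have hmem' : g * w * g⁻¹ ∈ Z.map (MulAut.conj g).toMonoidHom := ⟨w, hw, rfl⟩
        simpa using hg hmem'
      have h1 := hn (g⁻¹ • P) hQ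
      have hz' := h1.symm.le hz
      have h2 : g⁻¹ * u * g ∈ ((g⁻¹ • P : Sylow p G) : Subgroup G) := by
        rw [Cfsg.Agent.Lib.PResid.coe_smul_eq_conj_map, Cfsg.Agent.Lib.PResid.mem_conj_map]
        have e : (g⁻¹)⁻¹ * (g⁻¹ * u * g) * g⁻¹ = u := by group
        rw [e]
        exact hu
      have h3 := Subgroup.mem_centralizer_iff.1 hz'.2 (g⁻¹ * u * g) h2
      -- `(g⁻¹ u g) z = z (g⁻¹ u g)`
      calc u * (g * z * g⁻¹) = g * ((g⁻¹ * u * g) * z) * g⁻¹ := by group
        _ = g * (z * (g⁻¹ * u * g)) * g⁻¹ := by rw [h3]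
        _ = (g * z * g⁻¹) * u := by group
    have hinj : Function.Injective (MulAut.conj g).toMonoidHom := (MulAut.conj g).injective
    apply Subgroup.eq_of_le_of_card_ge
    · rintro _ ⟨z, hz, rfl⟩
      exact hle z hz
    · rw [Subgroup.card_map_of_injective hinj]
  have hctrl : ∀ Q : Subgroup G, Q ≤ (P : Subgroup G) → ∀ g ∈ Subgroup.normalizer (Q : Set G),
      ∃ v ∈ Subgroup.normalizer (Q : Set G), v ∈ V ∧ ∀ y ∈ Q, g * y * g⁻¹ = v * y * v⁻¹ := by
    intro Q hQ g hg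
    obtain ⟨n, hn', hnc⟩ := Cfsg.Agent.Lib.TransferEval.weaklyClosed_control P Z hZc hW (Q : Set G)
      (fun x hx => hQ hx) g⁻¹ (fun a ha => by
        have : g * a * g⁻¹ ∈ Q := (hg a).1 ha
        have e : g⁻¹⁻¹ * a * g⁻¹ = g * a * g⁻¹ := by group
        rw [e]
        exact hQ this)
    have hc : ∀ y ∈ Q, g * y * g⁻¹ = n⁻¹ * y * n⁻¹⁻¹ := by
      intro y hy
      have := hnc y hy
      simpa using this.symm
    refine ⟨n⁻¹, ?_, hV (inv_mem hn'), hc⟩
    apply Cfsg.Agent.Lib.Replacement.mem_normalizer_of_forall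
    intro y hy
    rw [← hc y hy]
    exact (hg y).1 hy
  apply le_antisymm
  · refine le_inf inf_le_left (Cfsg.Agent.Lib.HyperGen.inf_pResidual_le P V hctrl _ ?_)
    intro Q hQ n hnr y hy
    have hyV : y ∈ V := hPV (hQ hy)
    let f : Cfsg.FusionSystem.normalizerIn V Q →* V := Subgroup.inclusion inf_le_left
    have h1 : f n ∈ Cfsg.pResidual p V :=
      Cfsg.Agent.Lib.PResid.map_pResidual_le_of_hom f p ⟨n, hnr, rfl⟩
    have hKn : (Cfsg.pResidual p V).Normal := Cfsg.Agent.Lib.PResid.pResidual_normal p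
    refine ⟨(⟨y, hyV⟩ : V)⁻¹ * f n * ((⟨y, hyV⟩ : V)⁻¹)⁻¹ * (f n)⁻¹, ?_, ?_⟩
    · exact mul_mem (hKn.conj_mem _ h1 _) (inv_mem h1)
    · show y⁻¹ * (n : G) * (y⁻¹)⁻¹ * (n : G)⁻¹ = _
      group
  · exact inf_le_inf_left _ (Cfsg.Agent.Lib.PResid.map_pResidual_le p V)

end Cfsg.Agent.S0078
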