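import Mathlib
import Cfsg.Agent.Lib.PComplement
import Cfsg.Statements.S0079

set_option autoImplicit false
open Cfsg

namespace Cfsg.Agent.S0079

open Cfsg.Agent.Lib.PComplement Cfsg.Agent.Lib.TransferCore Cfsg.Agent.Lib.TransferEval in
/-- One prime: a Sylow subgroup of the nilpotent Hall subgroup `H` has a normal complement in `G`. -/
lemma exists_complement_prime {G : Type*} [Group G] [Finite G] (H : Subgroup G)
    (hH : Group.IsNilpotent H) (hHall : Nat.Coprime (Nat.card H) H.index)
    (hctl : ∀ x ∈ H, ∀ y ∈ H, (∃ g : G, g * x * g⁻¹ = y) → ∃ h ∈ H, h * x * h⁻¹ = y)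
    (p : ℕ) [Fact p.Prime] (hp : p ∣ Nat.card H) :
    ∃ N : Subgroup G, N.Normal ∧ (∀ x : G, x ∈ N ↔ Nat.Coprime (orderOf x) p) ∧
      N.index = p ^ (Nat.card H).factorization p := by
  classical
  obtain ⟨S⟩ : Nonempty (Sylow p H) := inferInstance
  have hSn : (S : Subgroup H).Normal :=
    ((Group.isNilpotent_of_finite_tfae (G := H)).out 0 3 rfl rfl).1 hH p inferInstance S
  set T : Subgroup G := (S : Subgroup H).map H.subtype with hT
  have hTp : IsPGroup p T := S.2.map _
  have hTH : T ≤ H := by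
    rintro _ ⟨y, -, rfl⟩; exact y.2
  have hnd : ¬ p ∣ T.index := by
    have h1 : T.index = (S : Subgroup H).index * H.index := by
      rw [hT, Subgroup.index_map, Subgroup.range_subtype, (MonoidHom.ker_eq_bot_iff _).2 H.subtype_injective,
        sup_bot_eq]
    rw [h1, (Nat.Prime.dvd_mul Fact.out)]
    rintro (h2 | h2)
    · exact S.not_dvd_index h2
    · have := Nat.Coprime.eq_one_of_dvd (Nat.Coprime.coprime_dvd_left hp hHall) h2
      exact (Fact.out : p.Prime).one_lt.ne' this
  let P : Sylow p G := hTp.toSylow hnd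
  have hPT : (P : Subgroup G) = T := rfl
  have hmemS : ∀ u : H, u ∈ S ↔ (u : G) ∈ T := by
    intro u
    constructor
    · intro hu; exact ⟨u, hu, rfl⟩
    · rintro ⟨v, hv, hvu⟩
      rwa [← Subtype.ext hvu]
  obtain ⟨N, hN, hc⟩ := exists_complement_of_control P (by
    intro x hx g hg
    have hxH : x ∈ H := hTH hx
    have hgH : g⁻¹ * x * g ∈ H := hTH hg
    obtain ⟨h, hh, hhx⟩ := hctl x hxH _ hgH ⟨g⁻¹, by group⟩
    obtain ⟨a, b, hab, -, -, ⟨k, hk⟩, hbc⟩ := exists_decomp p (⟨h, hh⟩ : H)
    -- `a` lies in the normal Sylow subgroup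
    have ha : a ∈ (S : Subgroup H) := by
      have hap : IsPGroup p (Subgroup.zpowers a) := by
        rw [IsPGroup.iff_card, Nat.card_zpowers]
        obtain ⟨j, -, hj⟩ := (Nat.dvd_prime_pow Fact.out).1 (orderOf_dvd_of_pow_eq_one hk)
        exact ⟨j, hj⟩
      obtain ⟨S', hS'⟩ := hap.exists_le_sylow
      obtain ⟨u, hu⟩ := MulAction.exists_smul_eq H S S'
      haveI : (S : Subgroup H).Normal := hSn
      rw [← hu, Sylow.smul_eq_of_normal] at hS'
      exact hS' (Subgroup.mem_zpowers a)
    -- `b` commutes with `x`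
    have hxS : (⟨x, hxH⟩ : H) ∈ S := (hmemS _).2 hx
    obtain ⟨k', hk'⟩ := S.2 ⟨_, hxS⟩
    have hk'' : (⟨x, hxH⟩ : H) ^ p ^ k' = 1 := congrArg Subtype.val hk'
    have hcomm := commute_of_isNilpotent (x := (⟨x, hxH⟩ : H)) (g := b) ⟨k', hk''⟩ hbc
    have hcomm' : x * (b : G) = b * x := congrArg Subtype.val hcomm
    have hh' : h = (a : G) * b := congrArg Subtype.val hab
    refine ⟨(a : G)⁻¹, ?_, ?_⟩
    · exact inv_mem ((hmemS a).1 ha)
    · rw [inv_inv, ← hhx, hh']
      have : (a : G) * b * x * ((a : G) * b)⁻¹ = a * (b * x) * (b : G)⁻¹ * (a : G)⁻¹ := by group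
      rw [this, ← hcomm']
      group)
  refine ⟨N, hN, mem_of_complement_iff hc, ?_⟩
  have h1 : N.index = Nat.card (P : Subgroup G) := hc.symm.index_eq_card
  rw [h1, hPT, hT]
  have h2 : Nat.card ((S : Subgroup H).map H.subtype) = Nat.card (S : Subgroup H) :=
    Nat.card_congr (Subgroup.equivMapOfInjective _ _ H.subtype_injective).symm.toEquiv
  rw [h2, S.card_eq_multiplicity]

/-- A nilpotent Hall subgroup has a normal complement exactly when elements of it that are conjugate in the whole group are already conjugate inside it. -/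
theorem result {G : Type*} [Group G] [Finite G] (H : Subgroup G) (hH : Group.IsNilpotent H) (hHall : Nat.Coprime (Nat.card H) H.index) : (∃ N : Subgroup G, N.Normal ∧ N.IsComplement' H) ↔ ∀ x ∈ H, ∀ y ∈ H, (∃ g : G, g * x * g⁻¹ = y) → ∃ h ∈ H, h * x * h⁻¹ = y := by
  classical
  constructor
  · rintro ⟨N, hN, hc⟩ x hx y hy ⟨g, hg⟩
    have hgt : g ∈ N ⊔ H := by rw [hc.sup_eq_top]; trivial
    obtain ⟨n, hn, h, hh, rfl⟩ := Cfsg.Agent.Lib.PGrp.exists_mul_of_mem_sup hgt
    refine ⟨h, hh, ?_⟩
    set z := h * x * h⁻¹ with hz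
    have hzH : z ∈ H := mul_mem (mul_mem hh hx) (inv_mem hh)
    have h1 : y * z⁻¹ ∈ N := by
      have : y * z⁻¹ = n * (z * n⁻¹ * z⁻¹) := by
        rw [← hg, hz]; group
      rw [this]
      exact mul_mem hn (hN.conj_mem _ (inv_mem hn) z)
    have h2 : y * z⁻¹ ∈ H := mul_mem hy (inv_mem hzH)
    have h3 := Subgroup.disjoint_def.1 hc.disjoint h1 h2
    exact (mul_inv_eq_one.1 h3).symm
  · intro hctl
    let s := (Nat.card H).primeFactors
    have hchoice : ∀ q : s, ∃ N : Subgroup G, N.Normal ∧ (∀ x : G, x ∈ N ↔ Nat.Coprime (orderOf x) q) ∧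
        N.index = (q : ℕ) ^ (Nat.card H).factorization q := by
      intro q
      have hq := Nat.prime_of_mem_primeFactors q.2
      haveI : Fact (q : ℕ).Prime := ⟨hq⟩
      exact exists_complement_prime H hH hHall hctl q (Nat.dvd_of_mem_primeFactors q.2)
    choose N' hN'n hN'm hN'i using hchoice
    let N : Subgroup G := ⨅ q, N' q
    have hNn : N.Normal := by
      constructor
      intro x hx g
      rw [Subgroup.mem_iInf] at hx ⊢
      intro q
      exact (hN'n q).conj_mem _ (hx q) g
    have hdisj : Disjoint N H := by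
      rw [Subgroup.disjoint_def]
      intro x hx hxH
      rw [Subgroup.mem_iInf] at hx
      by_contra hne
      have h1 : orderOf x ≠ 1 := fun h => hne (orderOf_eq_one_iff.1 h)
      obtain ⟨q, hq, hqd⟩ := Nat.exists_prime_and_dvd h1
      have hqH : q ∣ Nat.card H := hqd.trans (Subgroup.orderOf_dvd_natCard H hxH)
      have hqs : q ∈ s := Nat.mem_primeFactors.2 ⟨hq, hqH, Nat.card_pos.ne'⟩
      have := (hN'm ⟨q, hqs⟩ x).1 (hx _)
      exact (Nat.Prime.coprime_iff_not_dvd hq).1 this.symm hqd
    have hidxle : N.index ≤ Nat.card H := by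
      have h1 := Subgroup.index_iInf_le N'
      have h2 : ∏ q : s, (N' q).index = Nat.card H := by
        simp_rw [hN'i]
        rw [Finset.prod_coe_sort s (fun q => q ^ (Nat.card H).factorization q)]
        exact (Nat.prod_factorization_eq_prod_primeFactors _).symm.trans
          (Nat.factorization_prod_pow_eq_self Nat.card_pos.ne')
      exact h2 ▸ h1
    have hidxge : Nat.card H ≤ N.index := by
      have hinj : Function.Injective ((QuotientGroup.mk' N).comp H.subtype) := by
        rw [injective_iff_map_eq_one]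
        intro h hh
        have h1 : (h : G) ∈ N := (QuotientGroup.eq_one_iff _).1 hh
        have h2 := Subgroup.disjoint_def.1 hdisj h1 h.2
        exact Subtype.ext h2
      exact Nat.card_le_card_of_injective _ hinj
    refine ⟨N, hNn, Subgroup.isComplement'_of_card_mul_and_disjoint ?_ hdisj⟩
    rw [le_antisymm hidxge hidxle]
    exact Subgroup.card_mul_index N

end Cfsg.Agent.S0079
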