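import Mathlib
import Cfsg.Agent.Lib.TransferEval
import Cfsg.Agent.Lib.PGrp
import Cfsg.Statements.S0080

set_option autoImplicit false
open Cfsg

namespace Cfsg.Agent.S0080

open scoped IsMulCommutative

/-- When the index of H is prime to the order of H/H', the focal subgroup of H is G' ∩ H, and H/(G' ∩ H) has a normal complement. -/
theorem result {G : Type*} [Group G] [Finite G] (H : Subgroup G) (h : Nat.Coprime H.index (⁅H, H⁆.relIndex H)) : Subgroup.focalSubgroup H = commutator G ⊓ H ∧ ∃ N : Subgroup G, N.Normal ∧ N ⊓ H = commutator G ⊓ H ∧ N ⊔ H = ⊤ := by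
  classical
  haveI : H.FiniteIndex := inferInstance
  have hcard : Nat.Coprime (Nat.card (H ⧸ H.focalSubgroupOf)) H.index := by
    have h1 : (⁅H, H⁆).subgroupOf H ≤ H.focalSubgroupOf :=
      Subgroup.subgroupOf_mono H H.commutator_le_focalSubgroup
    have h2 : (H.focalSubgroupOf).index ∣ (⁅H, H⁆.subgroupOf H).index := Subgroup.index_dvd_of_le h1
    have h3 : Nat.card (H ⧸ H.focalSubgroupOf) = (H.focalSubgroupOf).index := rfl
    rw [h3]
    exact Nat.Coprime.coprime_dvd_left h2 h.symm
  have hbij := Cfsg.Agent.Lib.TransferEval.pow_bijective_of_coprime (A := H ⧸ H.focalSubgroupOf) hcard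
  have hker : ∀ x : H, (x : G) ∈ H.transferFocal.ker ↔ x ∈ H.focalSubgroupOf := by
    intro x
    rw [MonoidHom.mem_ker, H.transferFocal_eq_pow x]
    constructor
    · intro h1
      have h2 : ((x : H ⧸ H.focalSubgroupOf)) ^ H.index = (1 : H ⧸ H.focalSubgroupOf) ^ H.index := by
        rw [h1, one_pow]
      have h3 := hbij.1 h2
      exact (QuotientGroup.eq_one_iff _).1 h3
    · intro h1
      have h3 : (x : H ⧸ H.focalSubgroupOf) = 1 := (QuotientGroup.eq_one_iff _).2 h1
      rw [h3, one_pow]
  have h1 : H.transferFocal.ker ⊓ H = H.focalSubgroup := by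
    apply le_antisymm
    · rintro x ⟨hx1, hx2⟩
      have := (hker ⟨x, hx2⟩).1 hx1
      exact this
    · intro x hx
      have hxH := H.focalSubgroup_le hx
      exact ⟨(hker ⟨x, hxH⟩).2 hx, hxH⟩
  have h2 : H.focalSubgroup = commutator G ⊓ H := by
    apply le_antisymm (le_inf H.focalSubgroup_le_commutator H.focalSubgroup_le)
    rw [← h1]
    exact inf_le_inf_right _ (Abelianization.commutator_subset_ker H.transferFocal)
  refine ⟨h2, H.transferFocal.ker, inferInstance, by rw [h1, h2], ?_⟩
  apply Cfsg.Agent.Lib.PGrp.ker_sup_eq_top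
  intro g
  obtain ⟨y, hy⟩ := hbij.2 (H.transferFocal g)
  obtain ⟨x, rfl⟩ := QuotientGroup.mk'_surjective _ y
  refine ⟨x, x.2, ?_⟩
  rw [← hy]
  exact (H.transferFocal_eq_pow x).symm

end Cfsg.Agent.S0080
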