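import Mathlib
import Cfsg.Agent.S0081
import Cfsg.Agent.Lib.NPCBasic
import Cfsg.Agent.Lib.PResid
import Cfsg.Agent.Lib.Frat
import Cfsg.Agent.Lib.OddOrderCore
import Cfsg.Statements.S0082

set_option autoImplicit false
open Cfsg

namespace Cfsg.Agent.S0082



/-- With a cyclic Sylow p-subgroup, either there is a normal p-complement or the elements of order prime to p generate the whole group. -/
theorem result {G : Type*} [Group G] [Finite G] {p : ℕ} [Fact p.Prime] (P : Sylow p G) (hP : IsCyclic P) : Cfsg.HasNormalPComplement p G ∨ Cfsg.pResidual p G = ⊤ := by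
  classical
  by_cases htop : Cfsg.pResidual p G = ⊤
  · exact Or.inr htop
  left
  set K : Subgroup G := Cfsg.pResidual p G with hK
  haveI hKn : K.Normal := Cfsg.Agent.Lib.PResid.pResidual_normal p
  have hsup : (P : Subgroup G) ⊔ K = ⊤ := Cfsg.Agent.Lib.PResid.sylow_sup_pResidual P
  have hPK : ¬ (P : Subgroup G) ≤ K := by
    intro h
    rw [sup_eq_right.2 h] at hsup
    exact htop hsup
  have hfr : K ⊓ (P : Subgroup G) ≤ (frattini P).map (P : Subgroup G).subtype := by
    intro x hx
    obtain ⟨hxK, hxP⟩ := hx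
    obtain ⟨c, hc⟩ := hP.exists_generator
    obtain ⟨k, hk⟩ := Subgroup.mem_zpowers_iff.1 (hc ⟨x, hxP⟩)
    have hk' : ∃ m : ℕ, c ^ m = (⟨x, hxP⟩ : (P : Subgroup G)) := by
      haveI : Finite (P : Subgroup G) := inferInstance
      have hmem : (⟨x, hxP⟩ : (P : Subgroup G)) ∈ Subgroup.zpowers c := hc _
      rw [← mem_powers_iff_mem_zpowers] at hmem
      exact hmem
    obtain ⟨m, hm⟩ := hk'
    have hpm : p ∣ m := by
      by_contra hnd
      have hcop : (orderOf ((c : (P : Subgroup G)) : G)).Coprime m := by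
        have h1 : IsPGroup p (P : Subgroup G) := P.isPGroup'
        obtain ⟨n, hn⟩ := h1.exists_card_eq
        have h2 : orderOf ((c : (P : Subgroup G)) : G) ∣ p ^ n := by
          rw [← hn, Subgroup.orderOf_coe]
          exact orderOf_dvd_natCard c
        obtain ⟨j, _, hj⟩ := (Nat.dvd_prime_pow Fact.out).1 h2
        rw [hj]
        exact Nat.Coprime.pow_left _ ((Nat.Prime.coprime_iff_not_dvd Fact.out).2 hnd)
      have h3 : ((c : (P : Subgroup G)) : G) ^ m ∈ K := by
        have := congrArg Subtype.val hm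
        simp only [Subgroup.coe_pow] at this
        rw [this]
        exact hxK
      have h4 := Cfsg.Agent.Lib.OddOrderCore.mem_of_pow_mem_of_coprime hcop h3
      apply hPK
      intro y hy
      have hy' : (⟨y, hy⟩ : (P : Subgroup G)) ∈ Subgroup.zpowers c := hc _
      obtain ⟨i, hi⟩ := Subgroup.mem_zpowers_iff.1 hy'
      have := congrArg Subtype.val hi
      simp only [Subgroup.coe_zpow] at this
      rw [← this]
      exact zpow_mem h4 i
    obtain ⟨m', rfl⟩ := hpm
    refine ⟨(c ^ m') ^ p, ?_, ?_⟩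
    · exact Cfsg.Agent.Lib.Frat.pow_mem_frattini P.isPGroup' _
    · have := congrArg Subtype.val hm
      simp only [Subgroup.coe_pow] at this
      rw [← this, Subgroup.subtype_apply, Subgroup.coe_pow, Subgroup.coe_pow, ← pow_mul, mul_comm]
  have hnpc := Cfsg.Agent.S0081.result P K hfr
  obtain ⟨N, hNn, hNc, j, hj⟩ := (Cfsg.Agent.Lib.NPCBasic.hasNPC_iff).1 hnpc
  have hq : IsPGroup p (K ⧸ N) := by
    haveI := hNn
    intro y
    refine ⟨j, ?_⟩
    have : y ^ N.index = 1 := by
      rw [Subgroup.index_eq_card]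
      exact pow_card_eq_one'
    rwa [hj] at this
  haveI := hNn
  have hNtop : N = ⊤ := by
    rw [eq_top_iff, ← Cfsg.Agent.Lib.PResid.pResidual_pResidual_eq_top p (G := G)]
    exact Cfsg.Agent.Lib.PResid.pResidual_le_of_isPGroup_quotient hq
  have hKc : (Nat.card K).Coprime p := by
    have h1 : Nat.card N = Nat.card K := by
      rw [hNtop]; exact Subgroup.card_top
    rwa [h1] at hNc
  refine ⟨P, K, hKn, ?_⟩
  apply Subgroup.isComplement'_of_disjoint_and_mul_eq_univ
  · rw [disjoint_iff]
    obtain ⟨n, hn⟩ := P.isPGroup'.exists_card_eq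
    apply Subgroup.inf_eq_bot_of_coprime
    rw [hn]
    exact Nat.Coprime.pow_right _ hKc
  · ext x
    simp only [Set.mem_univ, iff_true]
    obtain ⟨t, ht, n, hn, h⟩ := Cfsg.Agent.Lib.PResid.exists_sylow_mul_pResidual P x⁻¹
    refine Set.mem_mul.2 ⟨n⁻¹, inv_mem hn, t⁻¹, inv_mem ht, ?_⟩
    rw [← mul_inv_rev, ← h, inv_inv]

end Cfsg.Agent.S0082
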