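import Mathlib
import Cfsg.Agent.Lib.TransferEval
import Cfsg.Statements.S0083

set_option autoImplicit false
open Cfsg

namespace Cfsg.Agent.S0083

/-- For an abelian Sylow p-subgroup P, a normal p-complement exists exactly when the normalizer of P is an internal direct product of P with some subgroup. -/
theorem result {G : Type*} [Group G] [Finite G] {p : ℕ} [Fact p.Prime] (P : Sylow p G) (hP : IsMulCommutative P) : Cfsg.HasNormalPComplement p G ↔ ∃ Q : Subgroup G, Q ≤ Subgroup.centralizer (P : Set G) ∧ Q ⊓ (P : Subgroup G) = ⊥ ∧ Q ⊔ (P : Subgroup G) = Subgroup.normalizer (P : Set G) := by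
  rw [Cfsg.Agent.Lib.TransferEval.hasNormalPComplement_iff P]
  constructor
  · rintro ⟨N, hN, hc⟩
    have hdisj : N ⊓ (P : Subgroup G) = ⊥ := disjoint_iff.1 hc.disjoint
    have hsup : N ⊔ (P : Subgroup G) = ⊤ := hc.sup_eq_top
    refine ⟨N ⊓ Subgroup.normalizer (P : Set G), ?_, ?_, ?_⟩
    · -- commutes with P
      rintro q ⟨hqN, hqn⟩
      rw [Subgroup.mem_centralizer_iff]
      intro x hx
      have hx' : x ∈ (P : Subgroup G) := hx
      have h1 : q * x * q⁻¹ * x⁻¹ ∈ N := by
        have : q * x * q⁻¹ * x⁻¹ = q * (x * q⁻¹ * x⁻¹) := by group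
        rw [this]
        exact mul_mem hqN (hN.conj_mem _ (inv_mem hqN) x)
      have h2 : q * x * q⁻¹ * x⁻¹ ∈ (P : Subgroup G) :=
        mul_mem ((Subgroup.mem_set_normalizer_iff.1 hqn x).1 hx) (inv_mem hx')
      have h3 : q * x * q⁻¹ * x⁻¹ ∈ N ⊓ (P : Subgroup G) := ⟨h1, h2⟩
      rw [hdisj, Subgroup.mem_bot] at h3
      have h4 : q * x * q⁻¹ = x := mul_inv_eq_one.1 h3
      have h5 : q * x = x * q := by
        calc q * x = q * x * q⁻¹ * q := by group
          _ = x * q := by rw [h4]
      exact h5.symm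
    · rw [eq_bot_iff, ← hdisj]
      rintro x ⟨⟨h1, -⟩, h2⟩
      exact ⟨h1, h2⟩
    · apply le_antisymm
      · exact sup_le inf_le_right Subgroup.le_normalizer
      · intro g hg
        have hg' : g ∈ N ⊔ (P : Subgroup G) := by rw [hsup]; trivial
        have h1 : g ∈ ((N ⊔ (P : Subgroup G) : Subgroup G) : Set G) := hg'
        rw [Subgroup.normal_mul] at h1
        obtain ⟨n, hn, x, hx, rfl⟩ := Set.mem_mul.1 h1
        have hxn : x ∈ Subgroup.normalizer (P : Set G) := Subgroup.le_normalizer hx
        have hnn : n ∈ Subgroup.normalizer (P : Set G) := by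
          have : n = (n * x) * x⁻¹ := by group
          rw [this]
          exact mul_mem hg (inv_mem hxn)
        exact Subgroup.mul_mem_sup ⟨hn, hnn⟩ hx
  · rintro ⟨Q, hQC, -, hQP⟩
    have hle : Subgroup.normalizer (P : Set G) ≤ Subgroup.centralizer (P : Set G) := by
      rw [← hQP]
      refine sup_le hQC ?_
      intro x hx
      rw [Subgroup.mem_centralizer_iff]
      intro y hy
      have := hP.is_comm.comm (⟨x, hx⟩ : (P : Subgroup G)) ⟨y, hy⟩
      exact (congrArg Subtype.val this).symm
    exact ⟨_, inferInstance, MonoidHom.ker_transferSylow_isComplement' P hle⟩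

end Cfsg.Agent.S0083
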