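import Mathlib
import Cfsg.Agent.Lib.SmallAut
import Cfsg.Statements.S0085

set_option autoImplicit false
open Cfsg

namespace Cfsg.Agent.S0085



/-- A group whose Sylow 2-subgroups are elementary abelian of order 8 and whose order is prime to 3 and to 7 has a normal 2-complement. -/
theorem result {G : Type*} [Group G] [Finite G] (T : Sylow 2 G) (h8 : Nat.card T = 8) (he : ∀ x : T, x * x = 1) (h3 : ¬ 3 ∣ Nat.card G) (h7 : ¬ 7 ∣ Nat.card G) : Cfsg.HasNormalPComplement 2 G := by
  classical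
  have hcomm : IsMulCommutative T := by
    refine ⟨⟨fun a b => ?_⟩⟩
    have h1 : (a * b) * (a * b) = 1 := he _
    have ha : a * a = 1 := he a
    have hb : b * b = 1 := he b
    calc a * b = a * (a * b * (a * b)) * b := by rw [h1]; simp
      _ = (a * a) * b * a * (b * b) := by simp only [mul_assoc]
      _ = b * a := by rw [ha, hb]; simp
  refine Cfsg.Agent.Lib.SmallAut.npc_of_aut_trivial T hcomm ?_
  intro q hq hqG hq2 β hβ
  haveI : Fact q.Prime := ⟨hq⟩
  have hc : Nat.card (T : Subgroup G) = 8 := h8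
  have hq3 : q ≠ 3 := by
    rintro rfl
    exact h3 hqG
  have hq7 : q ≠ 7 := by
    rintro rfl
    exact h7 hqG
  apply Cfsg.Agent.Lib.SmallAut.aut_eq_one_of_card β hβ
  rw [hc]
  intro d hd hne hmod
  have hd' : d ∈ Nat.divisors 8 := by simp [hd]
  have hdvd : q ∣ 8 - d := (Nat.modEq_iff_dvd' (Nat.le_of_dvd (by norm_num) hd)).1 hmod.symm
  have hdiv : Nat.divisors 8 = {1, 2, 4, 8} := by decide
  rw [hdiv] at hd'
  simp only [Finset.mem_insert, Finset.mem_singleton] at hd'
  have h7p : Nat.Prime 7 := by norm_num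
  rcases hd' with rfl | rfl | rfl | rfl
  · have : q = 7 := (Nat.prime_dvd_prime_iff_eq hq h7p).1 hdvd
    exact hq7 this
  · have h6 : q ∣ 2 * 3 := hdvd
    rcases (Nat.Prime.dvd_mul hq).1 h6 with h | h
    · exact hq2 ((Nat.prime_dvd_prime_iff_eq hq Nat.prime_two).1 h)
    · exact hq3 ((Nat.prime_dvd_prime_iff_eq hq Nat.prime_three).1 h)
  · have h6 : q ∣ 2 ^ 2 := hdvd
    exact hq2 ((Nat.prime_dvd_prime_iff_eq hq Nat.prime_two).1 (hq.dvd_of_dvd_pow h6))
  · exact hne rfl

end Cfsg.Agent.S0085
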