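import Mathlib
import Cfsg.Agent.Lib.AbelianHall
import Cfsg.Statements.S0087

set_option autoImplicit false
open Cfsg

namespace Cfsg.Agent.S0087



/-- A Hall subgroup that is central in its normalizer has a normal complement. -/
theorem result {G : Type*} [Group G] [Finite G] (H : Subgroup G) (hHall : Nat.Coprime (Nat.card H) H.index) (h : Subgroup.normalizer (H : Set G) ≤ Subgroup.centralizer (H : Set G)) : ∃ N : Subgroup G, N.Normal ∧ N.IsComplement' H := by
  classical
  have hHc : ∀ a ∈ H, ∀ b ∈ H, a * b = b * a := by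
    intro a ha b hb
    have := Subgroup.mem_centralizer_iff.1 (h (Subgroup.le_normalizer hb)) a ha
    exact this
  -- fusion in `H` is trivial
  have key : ∀ x ∈ H, ∀ g₀ : G, g₀⁻¹ * x * g₀ ∈ H → g₀⁻¹ * x * g₀ = x := by
    intro x hx g₀ hy
    set y := g₀⁻¹ * x * g₀ with hydef
    set L := Subgroup.centralizer ({y} : Set G) with hL
    have hHL : H ≤ L := by
      intro u hu
      rw [hL, Subgroup.mem_centralizer_iff]
      intro z hz
      rw [Set.mem_singleton_iff] at hz
      rw [hz]
      exact hHc y hy u hu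
    set H' := H.map (MulAut.conj g₀⁻¹).toMonoidHom with hH'
    have hH'L : H' ≤ L := by
      rintro _ ⟨u, hu, rfl⟩
      rw [hL, Subgroup.mem_centralizer_iff]
      intro z hz
      rw [Set.mem_singleton_iff] at hz
      rw [hz, hydef]
      have h1 := hHc x hx u hu
      simp only [MulEquiv.coe_toMonoidHom, MulAut.conj_apply, inv_inv]
      have e1 : g₀⁻¹ * x * g₀ * (g₀⁻¹ * u * g₀) = g₀⁻¹ * (x * u) * g₀ := by group
      have e2 : g₀⁻¹ * u * g₀ * (g₀⁻¹ * x * g₀) = g₀⁻¹ * (u * x) * g₀ := by group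
      rw [e1, e2, h1]
    have hH'c : ∀ a ∈ H', ∀ b ∈ H', a * b = b * a := by
      rintro _ ⟨u, hu, rfl⟩ _ ⟨v, hv, rfl⟩
      have := hHc u hu v hv
      simp only [MulEquiv.coe_toMonoidHom, MulAut.conj_apply, inv_inv]
      have e1 : g₀⁻¹ * u * g₀ * (g₀⁻¹ * v * g₀) = g₀⁻¹ * (u * v) * g₀ := by group
      have e2 : g₀⁻¹ * v * g₀ * (g₀⁻¹ * u * g₀) = g₀⁻¹ * (v * u) * g₀ := by group
      rw [e1, e2, this]
    have hcard : Nat.card H' = Nat.card H := Cfsg.Agent.Lib.AbelianHall.card_map_conj H _
    obtain ⟨m, hm⟩ : Nat.card H ∣ Nat.card L := Subgroup.card_dvd_of_le hHL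
    have hcop : Nat.Coprime (Nat.card H) m := by
      obtain ⟨t, ht⟩ : Nat.card L ∣ Nat.card G := Subgroup.card_subgroup_dvd_card L
      have h1 : Nat.card G = Nat.card H * H.index := (Subgroup.card_mul_index H).symm
      have h2 : H.index = m * t := by
        have : Nat.card H * H.index = Nat.card H * (m * t) := by
          rw [← h1, ht, hm, mul_assoc]
        exact Nat.eq_of_mul_eq_mul_left Nat.card_pos this
      exact Nat.Coprime.coprime_dvd_right ⟨t, h2⟩ hHall
    obtain ⟨c, hc, hcmap⟩ := Cfsg.Agent.Lib.AbelianHall.abelian_hall_conj _ L H' H rfl hH'L hHL hH'c hHc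
      hcard m (by rw [hcard]; exact hm) (by rw [hcard]; exact hcop)
    -- `n = c g₀⁻¹` normalizes `H`
    have hn : c * g₀⁻¹ ∈ Subgroup.normalizer (H : Set G) := by
      apply Subgroup.mem_normalizer_iff_map_conj_eq.2
      have e : (MulAut.conj (c * g₀⁻¹)).toMonoidHom =
          (MulAut.conj c).toMonoidHom.comp (MulAut.conj g₀⁻¹).toMonoidHom := by
        ext u
        simp [MulAut.conj_apply, mul_assoc]
      change Subgroup.map (MulAut.conj (c * g₀⁻¹)).toMonoidHom H = H
      rw [e, ← Subgroup.map_map]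
      exact hcmap
    have h1 := Subgroup.mem_centralizer_iff.1 (h hn) x hx
    have h2 := Subgroup.mem_centralizer_iff.1 hc y rfl
    -- conclude
    have h3 : c * y * c⁻¹ = x := by
      have e : c * y * c⁻¹ = c * g₀⁻¹ * x * (c * g₀⁻¹)⁻¹ := by rw [hydef]; group
      rw [e, ← h1]; group
    have h4 : c * y * c⁻¹ = y := by rw [← h2]; group
    rw [← h3, h4]
  letI : CommGroup H := { (inferInstance : Group H) with
    mul_comm := fun a b => Subtype.ext (hHc a a.2 b b.2) }
  let f : G →* H := (MonoidHom.id H).transfer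
  have hf : ∀ x : H, f x = x ^ H.index := by
    intro x
    have := MonoidHom.transfer_eq_pow (MonoidHom.id H) (x : G) (fun k g₀ hk =>
      key _ (pow_mem x.2 k) g₀ hk)
    exact (this.trans (by apply Subtype.ext; simp))
  exact ⟨f.ker, inferInstance, Cfsg.Agent.Lib.TransferEval.isComplement_of_pow f hf hHall⟩

end Cfsg.Agent.S0087
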