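import Mathlib
import Cfsg.Agent.S0088
import Cfsg.Statements.S0089

set_option autoImplicit false
open Cfsg

namespace Cfsg.Agent.S0089



/-- When all Sylow subgroups are abelian, the derived subgroup meets the centre trivially. -/
theorem result {G : Type*} [Group G] [Finite G] (h : ∀ p : ℕ, p.Prime → ∀ P : Sylow p G, IsMulCommutative P) : commutator G ⊓ Subgroup.center G = ⊥ := by
  classical
  rw [eq_bot_iff]
  rintro z ⟨hzc, hzZ⟩
  by_contra hz
  have hz1 : z ≠ 1 := hz
  have h1 : orderOf z ≠ 1 := fun h => hz1 (orderOf_eq_one_iff.1 h)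
  set q := (orderOf z).minFac with hq
  have hqp : q.Prime := Nat.minFac_prime h1
  haveI : Fact q.Prime := ⟨hqp⟩
  have hdvd : q ∣ orderOf z := Nat.minFac_dvd _
  obtain ⟨m, hm⟩ := hdvd
  set w := z ^ m with hw
  have hord : orderOf z ≠ 0 := (orderOf_pos z).ne'
  have hm0 : m ≠ 0 := by
    rintro rfl
    rw [mul_zero] at hm
    exact hord hm
  have hwq : orderOf w = q := by
    rw [hw, orderOf_pow_of_dvd hm0 ⟨q, by rw [hm, mul_comm]⟩, hm]
    exact Nat.mul_div_cancel _ (Nat.pos_of_ne_zero hm0)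
  have hwne : w ≠ 1 := by
    intro h
    rw [h, orderOf_one] at hwq
    exact hqp.one_lt.ne hwq
  -- `w` lies in some Sylow `q`-subgroup
  have hpg : IsPGroup q (Subgroup.zpowers w) := by
    rw [IsPGroup.iff_card, Nat.card_zpowers, hwq]
    exact ⟨1, by simp⟩
  obtain ⟨P, hP⟩ := hpg.exists_le_sylow
  have hwP : w ∈ (P : Subgroup G) := hP (Subgroup.mem_zpowers w)
  have h3 := Cfsg.Agent.S0088.result (P : Subgroup G) (h q hqp P) (P.card_coprime_index)
  have h4 : w ∈ (P : Subgroup G) ⊓ commutator G ⊓ Subgroup.center G :=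
    ⟨⟨hwP, pow_mem hzc m⟩, pow_mem hzZ m⟩
  rw [h3, Subgroup.mem_bot] at h4
  exact hwne h4

end Cfsg.Agent.S0089
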