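import Mathlib
import Cfsg.Agent.S0088
import Cfsg.Agent.Lib.OddOrderCore
import Cfsg.Agent.Lib.PGrp
import Cfsg.Statements.S0090

set_option autoImplicit false
open Cfsg

namespace Cfsg.Agent.S0090

open scoped commutatorElement

/-- Fitting's decomposition in the form used below: elements of an abelian normal Hall subgroup lie
in `[A, G] (Z(G) ∩ A)`. -/
lemma mem_sup {G : Type*} [Group G] [Finite G] (A : Subgroup G) [hn : A.Normal] (hc : IsMulCommutative A)
    (hHall : Nat.Coprime (Nat.card A) A.index) (x : G) (hx : x ∈ A) :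
    x ∈ ⁅A, (⊤ : Subgroup G)⁆ ⊔ (Subgroup.center G ⊓ A) := by
  classical
  letI : CommGroup A := { (inferInstance : Group A) with mul_comm := fun a b => hc.is_comm.comm a b }
  haveI : Fintype (G ⧸ A) := Fintype.ofFinite _
  have hAc : ∀ a ∈ A, ∀ b ∈ A, a * b = b * a := fun a ha b hb =>
    congrArg Subtype.val (hc.is_comm.comm ⟨a, ha⟩ ⟨b, hb⟩)
  -- conjugates of `x`
  have hconj : ∀ u : G, u⁻¹ * x * u ∈ A := fun u => by
    have := hn.conj_mem x hx u⁻¹
    simpa using this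
  let w : G → A := fun u => ⟨u⁻¹ * x * u, hconj u⟩
  have hw : ∀ u v : G, (u : G ⧸ A) = v → w u = w v := by
    intro u v huv
    have h1 : u⁻¹ * v ∈ A := QuotientGroup.eq.1 huv
    apply Subtype.ext
    show u⁻¹ * x * u = v⁻¹ * x * v
    have h2 : v = u * (u⁻¹ * v) := by group
    rw [h2]
    set a := u⁻¹ * v with ha
    have h3 := hAc (u⁻¹ * x * u) (hconj u) a h1
    calc u⁻¹ * x * u = a⁻¹ * (a * (u⁻¹ * x * u)) := by group
      _ = a⁻¹ * ((u⁻¹ * x * u) * a) := by rw [h3]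
      _ = _ := by group
  let f : G ⧸ A → A := fun q => w q.out
  have hf : ∀ u : G, f (u : G ⧸ A) = w u := fun u => hw _ _ (by simp [QuotientGroup.out_eq'])
  let M : A := ∏ q : G ⧸ A, f q
  -- `M` is central
  have hMc : (M : G) ∈ Subgroup.center G := by
    rw [Subgroup.mem_center_iff]
    intro g
    -- conjugation by `g` as a homomorphism of `A`
    let c : A →* A := MonoidHom.mk' (fun a => ⟨g⁻¹ * a * g, by
      have := hn.conj_mem a a.2 g⁻¹
      simpa using this⟩) (fun a b => by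
        apply Subtype.ext
        show g⁻¹ * (a * b) * g = (g⁻¹ * a * g) * (g⁻¹ * b * g)
        group)
    have h1 : c M = M := by
      show c (∏ q : G ⧸ A, f q) = ∏ q : G ⧸ A, f q
      rw [map_prod]
      apply Fintype.prod_equiv (Equiv.mulRight (g : G ⧸ A))
      intro q
      show c (f q) = f (q * (g : G ⧸ A))
      have e : q * (g : G ⧸ A) = ((q.out * g : G) : G ⧸ A) := by
        rw [QuotientGroup.mk_mul, QuotientGroup.out_eq']
      rw [e, hf]
      apply Subtype.ext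
      show g⁻¹ * (q.out⁻¹ * x * q.out) * g = (q.out * g)⁻¹ * x * (q.out * g)
      group
    have h2 : g⁻¹ * (M : G) * g = M := congrArg Subtype.val h1
    calc g * (M : G) = g * (g⁻¹ * (M : G) * g) := by rw [h2]
      _ = M * g := by group
  -- comparing with `x ^ index`
  let L : Subgroup A := (⁅A, (⊤ : Subgroup G)⁆).subgroupOf A
  have hLmem : ∀ q : G ⧸ A, f q * (⟨x, hx⟩ : A)⁻¹ ∈ L := by
    intro q
    rw [Subgroup.mem_subgroupOf]
    have h1 : ((f q * (⟨x, hx⟩ : A)⁻¹ : A) : G) = (⁅x, q.out⁻¹⁆)⁻¹ := by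
      show q.out⁻¹ * x * q.out * x⁻¹ = _
      rw [commutatorElement_def]
      group
    rw [h1]
    exact inv_mem (Subgroup.commutator_mem_commutator hx (Subgroup.mem_top _))
  have hprod : M * ((⟨x, hx⟩ : A) ^ A.index)⁻¹ ∈ L := by
    have e : M * ((⟨x, hx⟩ : A) ^ A.index)⁻¹ = ∏ q : G ⧸ A, (f q * (⟨x, hx⟩ : A)⁻¹) := by
      rw [Finset.prod_mul_distrib, Finset.prod_const, Finset.card_univ, inv_pow]
      congr 2
      rw [← Nat.card_eq_fintype_card]
      rfl
    rw [e]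
    exact Subgroup.prod_mem _ (fun q _ => hLmem q)
  rw [Subgroup.mem_subgroupOf] at hprod
  set T : Subgroup G := ⁅A, (⊤ : Subgroup G)⁆ ⊔ (Subgroup.center G ⊓ A) with hT
  have hxn : x ^ A.index ∈ T := by
    have h3 : (M : G) ∈ T := Subgroup.mem_sup_right (Subgroup.mem_inf.2 ⟨hMc, M.2⟩)
    have h4 : (M : G) * (x ^ A.index)⁻¹ ∈ T := by
      apply Subgroup.mem_sup_left
      simpa using hprod
    have h5 : x ^ A.index = ((M : G) * (x ^ A.index)⁻¹)⁻¹ * M := by group
    rw [h5]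
    exact mul_mem (inv_mem h4) h3
  have hord : (orderOf x).Coprime A.index :=
    Nat.Coprime.coprime_dvd_left (Subgroup.orderOf_dvd_natCard A hx) hHall
  exact Cfsg.Agent.Lib.OddOrderCore.mem_of_pow_mem_of_coprime hord hxn

/-- An abelian normal Hall subgroup A splits as the internal direct product of G' ∩ A and Z(G) ∩ A, and [A, G] = G' ∩ A. -/
theorem result {G : Type*} [Group G] [Finite G] (A : Subgroup G) [A.Normal] (hc : IsMulCommutative A) (hHall : Nat.Coprime (Nat.card A) A.index) : ⁅A, (⊤ : Subgroup G)⁆ = commutator G ⊓ A ∧ (commutator G ⊓ A) ⊓ (Subgroup.center G ⊓ A) = ⊥ ∧ (commutator G ⊓ A) ⊔ (Subgroup.center G ⊓ A) = A := by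
  classical
  have hbot := Cfsg.Agent.S0088.result A hc hHall
  have h1 : (commutator G ⊓ A) ⊓ (Subgroup.center G ⊓ A) = ⊥ := by
    rw [eq_bot_iff]
    rintro z ⟨⟨hz1, hz2⟩, hz3, -⟩
    have : z ∈ A ⊓ commutator G ⊓ Subgroup.center G := ⟨⟨hz2, hz1⟩, hz3⟩
    rwa [hbot] at this
  have hle1 : ⁅A, (⊤ : Subgroup G)⁆ ≤ commutator G ⊓ A := by
    apply le_inf
    · exact Subgroup.commutator_mono le_top le_rfl
    · exact Subgroup.commutator_le_left A ⊤
  have heq : ⁅A, (⊤ : Subgroup G)⁆ = commutator G ⊓ A := by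
    apply le_antisymm hle1
    rintro x ⟨hx1, hx2⟩
    obtain ⟨y, hy, z, hz, hyz⟩ : ∃ y ∈ ⁅A, (⊤ : Subgroup G)⁆, ∃ z ∈ Subgroup.center G ⊓ A, x = y * z := by
      haveI : (⁅A, (⊤ : Subgroup G)⁆).Normal := Subgroup.commutator_normal _ _
      obtain ⟨y, hy, z, hz, rfl⟩ := Cfsg.Agent.Lib.PGrp.exists_mul_of_mem_sup (mem_sup A hc hHall x hx2)
      exact ⟨y, hy, z, hz, rfl⟩
    have hz1 : z ∈ (commutator G ⊓ A) ⊓ (Subgroup.center G ⊓ A) := by
      refine Subgroup.mem_inf.2 ⟨?_, hz⟩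
      have e : z = y⁻¹ * x := by rw [hyz]; group
      rw [e]
      exact mul_mem (inv_mem (hle1 hy)) ⟨hx1, hx2⟩
    rw [h1, Subgroup.mem_bot] at hz1
    rw [hyz, hz1, mul_one]
    exact hy
  refine ⟨heq, h1, ?_⟩
  apply le_antisymm
  · exact sup_le inf_le_right inf_le_right
  · intro x hx
    rw [← heq]
    exact mem_sup A hc hHall x hx
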