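import Mathlib
import Cfsg.Agent.Lib.TransferEval
import Cfsg.Agent.Lib.PGrp
import Cfsg.Statements.S0091

set_option autoImplicit false
open Cfsg

namespace Cfsg.Agent.S0091



/-- If a nontrivial Sylow p-subgroup controls its own fusion then it is not contained in the derived subgroup. -/
theorem result {G : Type*} [Group G] [Finite G] {p : ℕ} [Fact p.Prime] (P : Sylow p G) (hp : p ∣ Nat.card G) (h : ∀ x ∈ P, ∀ y ∈ P, (∃ g : G, g * x * g⁻¹ = y) → ∃ z ∈ P, z * x * z⁻¹ = y) : ¬ (P : Subgroup G) ≤ commutator G := by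
  intro hle
  have hPV : (P : Subgroup G) ≤ (P : Subgroup G) := le_rfl
  have h1 := Cfsg.Agent.Lib.TransferEval.commutator_inf_le_of_control P (P : Subgroup G) hPV (by
    intro x hx g hg
    obtain ⟨z, hz, hzz⟩ := h x hx (g⁻¹ * x * g) hg ⟨g⁻¹, by simp⟩
    exact ⟨z⁻¹, inv_mem hz, by simpa using hzz⟩)
  have h2 : (P : Subgroup G) ≤ ⁅(P : Subgroup G), (P : Subgroup G)⁆ := le_trans (le_inf hle le_rfl) h1
  have h4 := Cfsg.Agent.Lib.PGrp.commutator_lt_of_isPGroup P.2 (P.ne_bot_of_dvd_card hp)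
  exact absurd h2 (not_le_of_gt h4)

end Cfsg.Agent.S0091
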