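import Mathlib
import Cfsg.Agent.Lib.SZConj
import Cfsg.Agent.Lib.PResid
import Cfsg.Agent.Lib.PGrp
import Cfsg.Agent.Lib.Replacement
import Cfsg.Agent.S0075
import Cfsg.Agent.S0088
import Cfsg.Statements.S0092

set_option autoImplicit false
open Cfsg

namespace Cfsg.Agent.S0092

open scoped commutatorElement

variable {G : Type*} [Group G] [Finite G] {p : ℕ} [Fact p.Prime]

/-- A supplement meeting `K` in a `p'`-group yields a complement to `K`, if `G/K` is a `p`-group. -/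
theorem complement_of_supplement (K L : Subgroup G) [K.Normal] (hq : IsPGroup p (G ⧸ K))
    (hKL : K ⊔ L = ⊤) (hc : (Nat.card (K ⊓ L : Subgroup G)).Coprime p) :
    ∃ R : Subgroup G, R.IsComplement' K := by
  obtain ⟨a, ha⟩ := hq.exists_card_eq
  have hidx : K.index = p ^ a := ha
  have h1 : K.relIndex L = K.index := by
    rw [← Subgroup.relIndex_sup_left, hKL, Subgroup.relIndex_top_right]
  have h2 : (K ⊓ L).relIndex L = K.relIndex L := Subgroup.inf_relIndex_right K L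
  have h3 : Nat.card (K ⊓ L : Subgroup G) * (K ⊓ L).relIndex L = Nat.card L := by
    have := Subgroup.card_mul_index ((K ⊓ L).subgroupOf L)
    rw [Nat.card_congr (Subgroup.subgroupOfEquivOfLe (inf_le_right : K ⊓ L ≤ L)).toEquiv] at this
    exact this
  have hdvd : p ^ a ∣ Nat.card L := by
    rw [← h3, h2, h1, hidx]
    exact Dvd.intro_left _ rfl
  obtain ⟨R', hR'⟩ := Sylow.exists_subgroup_card_pow_prime p hdvd
  let R : Subgroup G := R'.map L.subtype
  have hRL : R ≤ L := Subgroup.map_subtype_le _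
  have hRc : Nat.card R = p ^ a := by
    rw [← hR']
    exact Subgroup.card_map_of_injective L.subtype_injective
  refine ⟨R, Subgroup.isComplement'_of_card_mul_and_disjoint ?_ ?_⟩
  · rw [hRc, ← hidx, mul_comm]
    exact Subgroup.card_mul_index K
  · rw [disjoint_iff]
    apply Subgroup.eq_bot_of_card_eq
    have h4 : Nat.card (R ⊓ K : Subgroup G) ∣ p ^ a := by
      rw [← hRc]
      exact Subgroup.card_dvd_of_le inf_le_left
    have h5 : Nat.card (R ⊓ K : Subgroup G) ∣ Nat.card (K ⊓ L : Subgroup G) :=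
      Subgroup.card_dvd_of_le (le_inf inf_le_right (inf_le_left.trans hRL))
    exact Nat.eq_one_of_dvd_coprimes ((Nat.Coprime.pow_right a hc)) h5 h4

/-- The core argument. -/
theorem core (K Q : Subgroup G) [K.Normal] (hq : IsPGroup p (G ⧸ K)) (hQK : Q ≤ K)
    (hQp : IsPGroup p Q) (hQs : ¬ p ∣ Q.relIndex K) (hQc : IsMulCommutative Q)
    (hF : Subgroup.normalizer (Q : Set G) ⊔ K = ⊤)
    (hfoc : Q ≤ ⁅Q, K ⊓ Subgroup.normalizer (Q : Set G)⁆) :
    ∃ R : Subgroup G, R.IsComplement' K := by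
  classical
  set L₀ : Subgroup G := Subgroup.normalizer (Q : Set G) with hL₀
  set N₀ : Subgroup G := K ⊓ L₀ with hN₀
  have hQN₀ : Q ≤ N₀ := le_inf hQK Subgroup.le_normalizer
  let A₀ : Subgroup N₀ := Q.subgroupOf N₀
  have hA₀n : A₀.Normal := by
    refine ⟨fun x hx n => ?_⟩
    exact (Subgroup.mem_normalizer_iff.1 n.2.2 x).1 hx
  have hA₀c : IsMulCommutative A₀ := by
    refine ⟨⟨fun a b => Subtype.ext (Subtype.ext ?_)⟩⟩
    have := hQc.is_comm.comm (⟨a.1.1, a.2⟩ : Q) ⟨b.1.1, b.2⟩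
    exact congrArg (fun t : Q => (t : G)) this
  have hcardA₀ : Nat.card A₀ = Nat.card Q :=
    Nat.card_congr (Subgroup.subgroupOfEquivOfLe hQN₀).toEquiv
  have hidx : ¬ p ∣ A₀.index := by
    intro h
    apply hQs
    rw [← Subgroup.relIndex_mul_relIndex Q N₀ K hQN₀ inf_le_left]
    exact Dvd.dvd.mul_right h _
  have hcop : Nat.Coprime (Nat.card A₀) A₀.index := by
    obtain ⟨m, hm⟩ := hQp.exists_card_eq
    rw [hcardA₀, hm]
    exact Nat.Coprime.pow_left _ ((Nat.Prime.coprime_iff_not_dvd Fact.out).2 hidx)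
  obtain ⟨H₀, hH₀⟩ := Subgroup.exists_right_complement'_of_coprime hcop
  set H : Subgroup G := H₀.map N₀.subtype with hH
  have hHN₀ : H ≤ N₀ := Subgroup.map_subtype_le _
  have hHcard : Nat.card H = A₀.index := by
    rw [hH, Subgroup.card_map_of_injective N₀.subtype_injective]
    exact hH₀.symm.index_eq_card.symm
  have hHc : (Nat.card H).Coprime p := by
    rw [hHcard]
    exact ((Nat.Prime.coprime_iff_not_dvd Fact.out).2 hidx).symm
  have hQH : Q ⊓ H = ⊥ := by
    rw [← disjoint_iff]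
    apply Subgroup.disjoint_of_coprime_natCard
    obtain ⟨m, hm⟩ := hQp.exists_card_eq
    rw [hm]
    exact Nat.Coprime.pow_left _ hHc.symm
  have hmul : ∀ y ∈ N₀, ∃ q ∈ Q, ∃ h ∈ H, y = q * h := by
    intro y hy
    obtain ⟨⟨a, b⟩, hab, -⟩ := hH₀.existsUnique (⟨y, hy⟩ : N₀)
    refine ⟨a.1.1, a.2, b.1.1, ⟨b.1, b.2, rfl⟩, ?_⟩
    exact (congrArg Subtype.val hab).symm
  -- `C_Q(H) = 1`
  have hCQ : ∀ x ∈ Q, x ∈ Subgroup.normalizer (H : Set G) → x = 1 := by
    intro x hxQ hxN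
    have hxH : ∀ h ∈ H, x * h = h * x := by
      intro h hh
      have h1 : x * h * x⁻¹ * h⁻¹ ∈ H := mul_mem ((Subgroup.mem_normalizer_iff.1 hxN h).1 hh) (inv_mem hh)
      have h2 : x * h * x⁻¹ * h⁻¹ ∈ Q := by
        have e : x * h * x⁻¹ * h⁻¹ = x * (h * x⁻¹ * h⁻¹) := by group
        rw [e]
        exact mul_mem hxQ ((Subgroup.mem_normalizer_iff.1 (hHN₀ hh).2 x⁻¹).1 (inv_mem hxQ))
      have h3 : x * h * x⁻¹ * h⁻¹ ∈ Q ⊓ H := ⟨h2, h1⟩
      rw [hQH, Subgroup.mem_bot] at h3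
      have h4 : x * h * x⁻¹ = h := by
        calc x * h * x⁻¹ = (x * h * x⁻¹ * h⁻¹) * h := by group
          _ = h := by rw [h3, one_mul]
      calc x * h = (x * h * x⁻¹) * x := by group
        _ = h * x := by rw [h4]
    have hxZ : (⟨x, hQN₀ hxQ⟩ : N₀) ∈ Subgroup.center N₀ := by
      rw [Subgroup.mem_center_iff]
      rintro ⟨y, hy⟩
      apply Subtype.ext
      show y * x = x * y
      obtain ⟨q, hq', h, hh, rfl⟩ := hmul y hy
      have h1 : q * x = x * q := congrArg (fun t : Q => (t : G)) (hQc.is_comm.comm ⟨q, hq'⟩ ⟨x, hxQ⟩)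
      calc q * h * x = q * (h * x) := by group
        _ = q * (x * h) := by rw [hxH h hh]
        _ = (q * x) * h := by group
        _ = (x * q) * h := by rw [h1]
        _ = x * (q * h) := by group
    have hxcomm : (⟨x, hQN₀ hxQ⟩ : N₀) ∈ commutator N₀ := by
      -- from `hfoc`
      have hmap : (⁅A₀, (⊤ : Subgroup N₀)⁆).map N₀.subtype = ⁅Q, N₀⁆ := by
        rw [Subgroup.map_commutator]
        congr 1
        · exact Subgroup.map_subgroupOf_eq_of_le hQN₀
        · rw [← MonoidHom.range_eq_map, Subgroup.range_subtype]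
      have h1 : x ∈ (⁅A₀, (⊤ : Subgroup N₀)⁆).map N₀.subtype := by
        rw [hmap]
        exact hfoc hxQ
      obtain ⟨w, hw, hwx⟩ := h1
      have hw' : w = ⟨x, hQN₀ hxQ⟩ := Subtype.ext hwx
      rw [← hw']
      exact Subgroup.commutator_mono le_top le_rfl hw
    have h3 : (⟨x, hQN₀ hxQ⟩ : N₀) ∈ A₀ ⊓ commutator N₀ ⊓ Subgroup.center N₀ :=
      ⟨⟨hxQ, hxcomm⟩, hxZ⟩
    rw [Cfsg.Agent.S0088.result A₀ hA₀c hcop, Subgroup.mem_bot] at h3
    exact congrArg Subtype.val h3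
  -- Frattini for `H`
  have hFH : ∀ l ∈ L₀, ∃ n ∈ Q, n⁻¹ * l ∈ Subgroup.normalizer (H : Set G) := by
    intro l hl
    set H' : Subgroup G := H.map (MulAut.conj l).toMonoidHom with hH'
    have hlN : ∀ y ∈ N₀, l * y * l⁻¹ ∈ N₀ := by
      intro y hy
      refine ⟨(inferInstance : K.Normal).conj_mem _ hy.1 l, ?_⟩
      exact L₀.mul_mem (L₀.mul_mem hl hy.2) (L₀.inv_mem hl)
    have hH'N : H' ≤ N₀ := by
      rintro _ ⟨h, hh, rfl⟩
      exact hlN h (hHN₀ hh)
    let K₂ : Subgroup N₀ := H'.subgroupOf N₀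
    have hK₂card : Nat.card K₂ = Nat.card H₀ := by
      have h1 : Nat.card K₂ = Nat.card H' := Nat.card_congr (Subgroup.subgroupOfEquivOfLe hH'N).toEquiv
      rw [h1, hH', Subgroup.card_map_of_injective (MulAut.conj l).injective, hH,
        Subgroup.card_map_of_injective N₀.subtype_injective]
    have hK₂dis : Disjoint A₀ K₂ := by
      rw [Subgroup.disjoint_def]
      intro x hx1 hx2
      obtain ⟨h, hh, hhx⟩ := (Subgroup.mem_subgroupOf.1 hx2 : (x : G) ∈ H')
      have hhx' : l * h * l⁻¹ = x := hhx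
      have h1 : (x : G) ∈ Q := hx1
      have h2 : l⁻¹ * (x : G) * l⁻¹⁻¹ ∈ Q := (Subgroup.mem_normalizer_iff.1 (inv_mem hl) _).1 h1
      have h3 : l⁻¹ * (x : G) * l⁻¹⁻¹ = h := by
        rw [← hhx']; group
      rw [h3] at h2
      have h4 : h ∈ Q ⊓ H := ⟨h2, hh⟩
      rw [hQH, Subgroup.mem_bot] at h4
      apply Subtype.ext
      rw [← hhx', h4]
      simp
    have hK₂c : Subgroup.IsComplement' A₀ K₂ := by
      apply Subgroup.isComplement'_of_card_mul_and_disjoint _ hK₂dis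
      rw [hK₂card]
      exact hH₀.card_mul_card
    have hs : Group.IsSolvable A₀ := by
      exact Group.isSolvable_of_comm (fun a b => hA₀c.is_comm.comm a b)
    obtain ⟨n, hn, hn2⟩ := Cfsg.Agent.Lib.SZConj.exists_conj_of_isComplement' A₀ hs hcop hH₀ hK₂c
    refine ⟨(n : G), hn, ?_⟩
    apply Cfsg.Agent.Lib.Replacement.mem_normalizer_of_forall
    intro h hh
    have h1 : l * h * l⁻¹ ∈ H' := ⟨h, hh, rfl⟩
    have h2 : (⟨l * h * l⁻¹, hH'N h1⟩ : N₀) ∈ K₂ := Subgroup.mem_subgroupOf.2 h1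
    rw [hn2] at h2
    obtain ⟨v, hv, hvw⟩ := h2
    have h3 : (n : G) * (v : G) * (n : G)⁻¹ = l * h * l⁻¹ := congrArg Subtype.val hvw
    have e : (n : G)⁻¹ * l * h * ((n : G)⁻¹ * l)⁻¹ = (v : G) := by
      calc (n : G)⁻¹ * l * h * ((n : G)⁻¹ * l)⁻¹ = (n : G)⁻¹ * (l * h * l⁻¹) * n := by group
        _ = (n : G)⁻¹ * ((n : G) * (v : G) * (n : G)⁻¹) * n := by rw [h3]
        _ = (v : G) := by group
    rw [e]
    exact ⟨v, hv, rfl⟩
  set L : Subgroup G := L₀ ⊓ Subgroup.normalizer (H : Set G) with hL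
  have hKL : K ⊔ L = ⊤ := by
    rw [eq_top_iff]
    intro g _
    have hg : g ∈ L₀ ⊔ K := by rw [hF]; trivial
    rw [sup_comm] at hg
    obtain ⟨k, hk, l, hl, rfl⟩ := Cfsg.Agent.Lib.PGrp.exists_mul_of_mem_sup hg
    obtain ⟨n, hn, hw⟩ := hFH l hl
    have hnL : n ∈ L₀ := (hQN₀ hn).2
    have e : k * l = (k * n) * (n⁻¹ * l) := by group
    rw [e]
    refine Subgroup.mul_mem _ (Subgroup.mem_sup_left (mul_mem hk (hQK hn))) (Subgroup.mem_sup_right ?_)
    exact ⟨L₀.mul_mem (L₀.inv_mem hnL) hl, hw⟩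
  have hKLH : K ⊓ L ≤ H := by
    intro y hy
    obtain ⟨hyK, hyL₀, hyN⟩ := hy
    obtain ⟨q, hq', h, hh, rfl⟩ := hmul y ⟨hyK, hyL₀⟩
    have hhN : h ∈ Subgroup.normalizer (H : Set G) := Subgroup.le_normalizer hh
    have hqN : q ∈ Subgroup.normalizer (H : Set G) := by
      have e : q = q * h * h⁻¹ := by group
      rw [e]
      exact Subgroup.mul_mem _ hyN (Subgroup.inv_mem _ hhN)
    rw [hCQ q hq' hqN, one_mul]
    exact hh
  have hc : (Nat.card (K ⊓ L : Subgroup G)).Coprime p :=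
    Nat.Coprime.coprime_dvd_left (Subgroup.card_dvd_of_le hKLH) hHc
  exact complement_of_supplement K L hq hKL hc

/-- If the Sylow p-subgroups of O^p(G) are abelian then G splits over O^p(G). -/
theorem result {G : Type*} [Group G] [Finite G] {p : ℕ} [Fact p.Prime] (h : ∀ Q : Sylow p (Cfsg.pResidual p G), IsMulCommutative Q) : ∃ K : Subgroup G, K.IsComplement' (Cfsg.pResidual p G) := by
  classical
  set K : Subgroup G := Cfsg.pResidual p G with hK
  haveI hKn : K.Normal := Cfsg.Agent.Lib.PResid.pResidual_normal p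
  have hq : IsPGroup p (G ⧸ K) := Cfsg.Agent.Lib.PResid.isPGroup_quotient_pResidual p
  let S : Sylow p K := default
  have hSc := h S
  set Q : Subgroup G := (S : Subgroup K).map K.subtype with hQ
  have hQK : Q ≤ K := Subgroup.map_subtype_le _
  have hmemQ : ∀ x : K, (x : G) ∈ Q ↔ x ∈ (S : Subgroup K) := by
    intro x
    constructor
    · rintro ⟨y, hy, hyx⟩
      have : y = x := Subtype.ext hyx
      rwa [← this]
    · intro hx
      exact ⟨x, hx, rfl⟩
  have hQp : IsPGroup p Q := S.isPGroup'.map _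
  have hQs : ¬ p ∣ Q.relIndex K := by
    have e : Q.subgroupOf K = (S : Subgroup K) := by
      ext x
      rw [Subgroup.mem_subgroupOf]
      exact hmemQ x
    rw [Subgroup.relIndex, e]
    exact S.not_dvd_index
  have hQc : IsMulCommutative Q := by
    refine ⟨⟨?_⟩⟩
    rintro ⟨a, ha⟩ ⟨b, hb⟩
    obtain ⟨a', ha', rfl⟩ := ha
    obtain ⟨b', hb', rfl⟩ := hb
    apply Subtype.ext
    have := hSc.is_comm.comm (⟨a', ha'⟩ : (S : Subgroup K)) ⟨b', hb'⟩
    exact congrArg (fun t : (S : Subgroup K) => ((t : K) : G)) this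
  have hF : Subgroup.normalizer (Q : Set G) ⊔ K = ⊤ := Sylow.normalizer_sup_eq_top S
  have hfoc : Q ≤ ⁅Q, K ⊓ Subgroup.normalizer (Q : Set G)⁆ := by
    have h1 := Cfsg.Agent.S0075.result S hSc
    rw [Cfsg.Agent.Lib.PResid.pResidual_pResidual_eq_top p, inf_top_eq] at h1
    have h2 := congrArg (Subgroup.map K.subtype) h1
    rw [Subgroup.map_commutator] at h2
    rw [hQ]
    conv_lhs => rw [h2]
    apply Subgroup.commutator_mono le_rfl
    rintro _ ⟨k, hk, rfl⟩
    refine ⟨k.2, ?_⟩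
    apply Cfsg.Agent.Lib.Replacement.mem_normalizer_of_forall
    rintro _ ⟨s, hs, rfl⟩
    exact ⟨k * s * k⁻¹, (Subgroup.mem_normalizer_iff.1 hk s).1 hs, rfl⟩
  obtain ⟨R, hR⟩ := core K Q hq hQK hQp hQs hQc hF hfoc
  exact ⟨R, hR⟩

end Cfsg.Agent.S0092
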