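import Mathlib
import Cfsg.Agent.Lib.Frat
import Cfsg.Agent.Lib.ClassTwo
import Cfsg.Statements.S0094

set_option autoImplicit false
open Cfsg

namespace Cfsg.Agent.S0094

open scoped commutatorElement

/-- In a special p-group every central element has order dividing p. -/
theorem result {P : Type*} [Group P] [Finite P] {p : ℕ} [Fact p.Prime] (h : Cfsg.IsSpecial p P) (z : P) (hz : z ∈ Subgroup.center P) : z ^ p = 1 := by
  classical
  obtain ⟨hpg, hfr, hcomm⟩ := h
  have hpow : ∀ x : P, x ^ p ∈ Subgroup.center P := by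
    intro x
    rw [← hfr]
    exact Cfsg.Agent.Lib.Frat.pow_mem_frattini hpg x
  rw [← hcomm, commutator_def, Subgroup.commutator_def] at hz
  have hcentral : ∀ u ∈ Subgroup.closure {g | ∃ g₁ ∈ (⊤ : Subgroup P), ∃ g₂ ∈ (⊤ : Subgroup P), ⁅g₁, g₂⁆ = g}, u ∈ Subgroup.center P := by
    intro u hu
    rw [← Subgroup.commutator_def, ← commutator_def, hcomm] at hu
    exact hu
  induction hz using Subgroup.closure_induction with
  | mem z hz =>
    obtain ⟨g₁, -, g₂, -, rfl⟩ := hz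
    have hc : ⁅g₁, g₂⁆ ∈ Subgroup.center P := hcentral _ (Subgroup.subset_closure ⟨g₁, trivial, g₂, trivial, rfl⟩)
    have hy : (g₁⁻¹) * (g₂⁻¹) = (g₂⁻¹) * (g₁⁻¹) * ⁅g₁, g₂⁆ := by
      rw [commutatorElement_def]; group
    have hcy : Commute ⁅g₁, g₂⁆ (g₁⁻¹) := (Subgroup.mem_center_iff.1 hc _).symm
    have h1 := Cfsg.Agent.Lib.ClassTwo.pow_mul_of_comm hy hcy p
    have h2 : (g₁⁻¹) ^ p * (g₂⁻¹) = (g₂⁻¹) * (g₁⁻¹) ^ p := (Subgroup.mem_center_iff.1 (hpow _) _).symm
    rw [h2] at h1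
    exact (mul_left_cancel (a := g₂⁻¹ * g₁⁻¹ ^ p) (by rw [mul_one]; exact h1)).symm
  | one => simp
  | mul x y hx hy ihx ihy =>
    have hxc := hcentral x hx
    have hcomm' : Commute x y := (Subgroup.mem_center_iff.1 hxc y).symm
    rw [hcomm'.mul_pow, ihx, ihy, one_mul]
  | inv x hx ih => rw [inv_pow, ih, inv_one]

end Cfsg.Agent.S0094
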