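import Mathlib
import Cfsg.Agent.Lib.ClassTwo
import Cfsg.Statements.S0096

set_option autoImplicit false
open Cfsg

namespace Cfsg.Agent.S0096

open scoped commutatorElement

/-- For odd p, in a p-group of class at most two the elements of order dividing p generate a subgroup of exponent dividing p. -/
theorem result {P : Type*} [Group P] [Finite P] {p : ℕ} [Fact p.Prime] (hp : p ≠ 2) (hP : IsPGroup p P) (h2 : ⁅commutator P, (⊤ : Subgroup P)⁆ = ⊥) (g : P) (hg : g ∈ Subgroup.closure {x : P | x ^ p = 1}) : g ^ p = 1 := by
  classical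
  have hpp : p.Prime := Fact.out
  have hcen : ∀ c ∈ commutator P, ∀ g : P, Commute c g := by
    intro c hc g
    have h1 : ⁅c, g⁆ ∈ ⁅commutator P, (⊤ : Subgroup P)⁆ := Subgroup.commutator_mem_commutator hc trivial
    rw [h2, Subgroup.mem_bot] at h1
    exact commutatorElement_eq_one_iff_mul_comm.1 h1
  induction hg using Subgroup.closure_induction with
  | mem z hz => exact hz
  | one => simp
  | mul x y _ _ ihx ihy =>
    have hc : y⁻¹ * x⁻¹ * y * x ∈ commutator P := by
      have := Subgroup.commutator_mem_commutator (Subgroup.mem_top y⁻¹) (Subgroup.mem_top x⁻¹)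
      simpa [commutatorElement_def, commutator_def] using this
    have e : y * x = x * y * (y⁻¹ * x⁻¹ * y * x) := by group
    exact Cfsg.Agent.Lib.ClassTwo.mul_pow_prime_eq_one hpp hp e (hcen _ hc _) (hcen _ hc _) ihx ihy
  | inv x _ ih => rw [inv_pow, ih, inv_one]

end Cfsg.Agent.S0096
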