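import Mathlib
import Cfsg.Agent.S0096
import Cfsg.Agent.Lib.Frat
import Cfsg.Agent.Lib.OddPGroup
import Cfsg.Statements.S0097

set_option autoImplicit false
open Cfsg

namespace Cfsg.Agent.S0097



/-- For odd p and E extraspecial, the subgroup generated by the elements of order dividing p has exponent dividing p and index at most p. -/
theorem result {E : Type*} [Group E] [Finite E] {p : ℕ} [Fact p.Prime] (hp : p ≠ 2) (h : Cfsg.IsExtraspecial p E) : (Subgroup.closure {x : E | x ^ p = 1}).index ≤ p ∧ ∀ g ∈ Subgroup.closure {x : E | x ^ p = 1}, g ^ p = 1 := by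
  classical
  have hpp : p.Prime := Fact.out
  obtain ⟨⟨hpg, hfr, hcomm⟩, hcard⟩ := id h
  have h2 : ⁅commutator E, (⊤ : Subgroup E)⁆ = ⊥ := by
    rw [hcomm, eq_bot_iff, Subgroup.commutator_le]
    intro a ha b _
    rw [Subgroup.mem_bot]
    exact commutatorElement_eq_one_iff_mul_comm.2 (Subgroup.mem_center_iff.1 ha b).symm
  refine ⟨?_, fun g hg => Cfsg.Agent.S0096.result hp hpg h2 g hg⟩
  have hpow : ∀ x : E, x ^ p ∈ Subgroup.center E := by
    intro x
    rw [← hfr]
    exact Cfsg.Agent.Lib.Frat.pow_mem_frattini hpg x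
  have hodd : Odd p := hpp.odd_of_ne_two hp
  have hc : ∀ x y : E, x⁻¹ * y⁻¹ * x * y ∈ Subgroup.center E := by
    intro x y
    rw [← hcomm]
    have := Subgroup.commutator_mem_commutator (Subgroup.mem_top x⁻¹) (Subgroup.mem_top y⁻¹)
    simpa [commutatorElement_def, commutator_def] using this
  let f : E →* Subgroup.center E := MonoidHom.mk' (fun x => ⟨x ^ p, hpow x⟩) (fun x y => by
    apply Subtype.ext
    exact Cfsg.Agent.Lib.OddPGroup.mul_pow_odd hodd hpow hc x y)
  have hker : f.ker ≤ Subgroup.closure {x : E | x ^ p = 1} := by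
    intro x hx
    apply Subgroup.subset_closure
    have : f x = 1 := hx
    exact congrArg Subtype.val this
  have h1 : (Subgroup.closure {x : E | x ^ p = 1}).index ∣ f.ker.index := Subgroup.index_dvd_of_le hker
  have h3 : f.ker.index = Nat.card f.range := Subgroup.index_ker f
  have h4 : Nat.card f.range ≤ Nat.card (Subgroup.center E) := Subgroup.card_le_card_group _
  rw [hcard] at h4
  have hpos : 0 < f.ker.index := Nat.pos_of_ne_zero Subgroup.index_ne_zero_of_finite
  exact (Nat.le_of_dvd hpos h1).trans (h3 ▸ h4)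

end Cfsg.Agent.S0097
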