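import Mathlib
import Cfsg.Agent.Lib.ExtraES2
import Cfsg.Agent.Lib.ExtraBasics
import Cfsg.Statements.S0099

set_option autoImplicit false
open Cfsg

namespace Cfsg.Agent.S0099



/-- Among three extraspecial 2-groups of equal order, some two are isomorphic. -/
theorem result {E₁ : Type*} {E₂ : Type*} {E₃ : Type*} [Group E₁] [Group E₂] [Group E₃] [Finite E₁] [Finite E₂] [Finite E₃] (h₁ : Cfsg.IsExtraspecial 2 E₁) (h₂ : Cfsg.IsExtraspecial 2 E₂) (h₃ : Cfsg.IsExtraspecial 2 E₃) (h12 : Nat.card E₁ = Nat.card E₂) (h23 : Nat.card E₂ = Nat.card E₃) : Nonempty (E₁ ≃* E₂) ∨ Nonempty (E₂ ≃* E₃) ∨ Nonempty (E₁ ≃* E₃) := by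
  haveI : Fact (Nat.Prime 2) := ⟨Nat.prime_two⟩
  obtain ⟨z₁, h₁'⟩ := Cfsg.Agent.Lib.ExtraES2.exists_ES h₁
  obtain ⟨z₂, h₂'⟩ := Cfsg.Agent.Lib.ExtraES2.exists_ES h₂
  obtain ⟨z₃, h₃'⟩ := Cfsg.Agent.Lib.ExtraES2.exists_ES h₃
  obtain ⟨n, -, hn⟩ := Cfsg.Agent.Lib.ExtraBasics.card_of_isExtraspecial h₁
  have hn' : Nat.card E₁ = 2 ^ (2 * n + 1) := by
    rw [hn]; congr 1; ring
  exact Cfsg.Agent.Lib.ExtraES2.two_classes n E₁ E₂ E₃ z₁ z₂ z₃ h₁' h₂' h₃' hn'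
    (by rw [← h12]; exact hn') (by rw [← h23, ← h12]; exact hn')

end Cfsg.Agent.S0099
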