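import Mathlib
import Cfsg.Statements.S0103

set_option autoImplicit false
open Cfsg

namespace Cfsg.Agent.S0103



/-- If a Sylow p-subgroup P intersects every distinct conjugate trivially, then its normalizer controls fusion in P. -/
theorem result {G : Type*} [Group G] [Finite G] {p : ℕ} [Fact p.Prime] (P : Sylow p G) (hTI : ∀ g : G, (P : Subgroup G).map (MulAut.conj g).toMonoidHom ≠ (P : Subgroup G) → (P : Subgroup G) ⊓ (P : Subgroup G).map (MulAut.conj g).toMonoidHom = ⊥) (x y : G) (hx : x ∈ P) (hy : y ∈ P) (hc : ∃ g : G, g * x * g⁻¹ = y) : ∃ n ∈ Subgroup.normalizer (P : Set G), n * x * n⁻¹ = y := by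
  obtain ⟨g, rfl⟩ := hc
  by_cases hx1 : x = 1
  · exact ⟨1, one_mem _, by simp [hx1]⟩
  by_cases hgP : (P : Subgroup G).map (MulAut.conj g).toMonoidHom = (P : Subgroup G)
  · refine ⟨g, ?_, rfl⟩
    rw [Subgroup.mem_set_normalizer_iff]
    intro h
    constructor
    · intro hh
      have : g * h * g⁻¹ ∈ (P : Subgroup G).map (MulAut.conj g).toMonoidHom :=
        ⟨h, hh, by simp [MulAut.conj_apply]⟩
      rwa [hgP] at this
    · intro hh
      have : g * h * g⁻¹ ∈ (P : Subgroup G).map (MulAut.conj g).toMonoidHom := by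
        rw [hgP]; exact hh
      obtain ⟨y, hy, hyy⟩ := this
      have : y = h := by
        simp only [MulEquiv.coe_toMonoidHom, MulAut.conj_apply] at hyy
        exact mul_left_cancel (mul_right_cancel hyy)
      rwa [this] at hy
  · exfalso
    have h1 := hTI g hgP
    have h2 : g * x * g⁻¹ ∈ (P : Subgroup G) ⊓ (P : Subgroup G).map (MulAut.conj g).toMonoidHom :=
      ⟨hy, x, hx, by simp [MulAut.conj_apply]⟩
    rw [h1, Subgroup.mem_bot] at h2
    apply hx1
    have : g⁻¹ * (g * x * g⁻¹) * g = g⁻¹ * 1 * g := by rw [h2]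
    simpa [mul_assoc] using this

end Cfsg.Agent.S0103
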