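import Mathlib
import Cfsg.Agent.Lib.TransferCore
import Cfsg.Statements.S0104

set_option autoImplicit false
open Cfsg

namespace Cfsg.Agent.S0104

open Cfsg.Agent.Lib.TransferCore in
lemma conj_map_le_of_mem_smul {G : Type*} [Group G] {p : ℕ} {Z : Subgroup G} {P : Sylow p G} {a : G}
    (h : Z ≤ ((a • P : Sylow p G) : Subgroup G)) :
    Z.map (MulAut.conj a⁻¹).toMonoidHom ≤ (P : Subgroup G) := by
  rintro _ ⟨z, hz, rfl⟩
  have := mem_smul_sylow.1 (h hz)
  simp only [MulEquiv.coe_toMonoidHom, MulAut.conj_apply, inv_inv]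
  exact this

/-- A subgroup Z of a Sylow p-subgroup P that is normalized by N_G(P) is weakly closed in P exactly when it is normal in every Sylow p-subgroup containing it. -/
theorem result {G : Type*} [Group G] [Finite G] {p : ℕ} [Fact p.Prime] (P : Sylow p G) (Z : Subgroup G) (hZP : Z ≤ (P : Subgroup G)) (hZN : Subgroup.normalizer (P : Set G) ≤ Subgroup.normalizer (Z : Set G)) : Cfsg.IsWeaklyClosed Z P ↔ ∀ R : Sylow p G, Z ≤ (R : Subgroup G) → (R : Subgroup G) ≤ Subgroup.normalizer (Z : Set G) := by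
  open Cfsg.Agent.Lib.TransferCore in
  constructor
  · rintro ⟨-, hW⟩ R hZR
    obtain ⟨a, rfl⟩ : ∃ a : G, a • P = R := MulAction.exists_smul_eq G P R
    have h1 := hW _ (conj_map_le_of_mem_smul hZR)
    have hPN : (P : Subgroup G) ≤ Subgroup.normalizer (Z : Set G) :=
      le_trans Subgroup.le_normalizer hZN
    have ha : a⁻¹ ∈ Subgroup.normalizer (Z : Set G) :=
      Subgroup.mem_normalizer_iff_map_conj_eq.2 h1
    have ha' : a ∈ Subgroup.normalizer (Z : Set G) := by simpa using inv_mem ha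
    intro x hx
    have := mem_smul_sylow.1 hx
    have h2 := hPN this
    have : x = a * (a⁻¹ * x * a) * a⁻¹ := by group
    rw [this]
    exact mul_mem (mul_mem ha' h2) (inv_mem ha')
  · intro h
    refine ⟨hZP, ?_⟩
    intro g hg
    have hPN : (P : Subgroup G) ≤ Subgroup.normalizer (Z : Set G) :=
      le_trans Subgroup.le_normalizer hZN
    have hZR : Z ≤ ((g⁻¹ • P : Sylow p G) : Subgroup G) := by
      intro z hz
      have : g * z * g⁻¹ ∈ (P : Subgroup G) := hg ⟨z, hz, rfl⟩
      have h' : (g⁻¹)⁻¹ * z * g⁻¹ ∈ P := by rw [inv_inv]; exact this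
      exact mem_smul_sylow.2 h'
    have hRN := h _ hZR
    obtain ⟨s, hs, hsP⟩ := exists_conj_in_subgroup _ P (g⁻¹ • P) hPN hRN
    have h1 : s * g⁻¹ ∈ Subgroup.normalizer (P : Set G) := by
      rw [mem_normalizer_sylow_iff, mul_smul, hsP]
    have h2 := hZN h1
    have h3 : g⁻¹ ∈ Subgroup.normalizer (Z : Set G) := by
      have : g⁻¹ = s⁻¹ * (s * g⁻¹) := by group
      rw [this]
      exact mul_mem (inv_mem hs) h2
    have h4 : g ∈ Subgroup.normalizer (Z : Set G) := by simpa using inv_mem h3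
    exact Subgroup.mem_normalizer_iff_map_conj_eq.1 h4

end Cfsg.Agent.S0104
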