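import Mathlib
import Cfsg.Agent.S0090
import Cfsg.Agent.Lib.TransferEval
import Cfsg.Statements.S0105

set_option autoImplicit false
open Cfsg

namespace Cfsg.Agent.S0105

open scoped commutatorElement

/-- With an abelian Sylow p-subgroup P, some quotient of G is isomorphic to the part of P central in N_G(P). -/
theorem result {G : Type*} [Group G] [Finite G] {p : ℕ} [Fact p.Prime] (P : Sylow p G) (hP : IsMulCommutative P) : ∃ (N : Subgroup G) (hN : N.Normal), Nonempty (G ⧸ N ≃* ((P : Subgroup G) ⊓ Subgroup.centralizer (Subgroup.normalizer (P : Set G) : Set G) : Subgroup G)) := by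
  classical
  letI : CommGroup (P : Subgroup G) := { (inferInstance : Group (P : Subgroup G)) with
    mul_comm := fun a b => hP.is_comm.comm a b }
  haveI : IsMulCommutative (P : Subgroup G) := hP
  set N : Subgroup G := Subgroup.normalizer (P : Set G) with hN
  have hPN : (P : Subgroup G) ≤ N := Subgroup.le_normalizer
  let inc : (P : Subgroup G) →* N := Subgroup.inclusion hPN
  let D : Subgroup (P : Subgroup G) := (commutator N).comap inc
  let ϕ : (P : Subgroup G) →* (P : Subgroup G) ⧸ D := QuotientGroup.mk' D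
  have hϕ : ∀ (x : (P : Subgroup G)) (g : G) (hg : g⁻¹ * (x : G) * g ∈ (P : Subgroup G)),
      ϕ ⟨g⁻¹ * (x : G) * g, hg⟩ = ϕ x := by
    intro x g hg
    obtain ⟨n, hn, h⟩ := P.conj_eq_normalizer_conj_of_mem (x : G) g x.2 hg
    symm
    apply QuotientGroup.eq.2
    show inc (x⁻¹ * ⟨g⁻¹ * (x : G) * g, hg⟩) ∈ commutator N
    have e : inc (x⁻¹ * ⟨g⁻¹ * (x : G) * g, hg⟩) = ⁅inc x⁻¹, (⟨n, hn⟩ : N)⁻¹⁆ := by
      apply Subtype.ext
      show (x : G)⁻¹ * (g⁻¹ * (x : G) * g) = _
      rw [h]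
      simp only [commutatorElement_def, Subgroup.coe_mul, Subgroup.coe_inv]
      show (x : G)⁻¹ * (n⁻¹ * (x : G) * n) = (x : G)⁻¹ * n⁻¹ * ((x : G)⁻¹)⁻¹ * (n⁻¹)⁻¹
      group
    rw [e]
    exact Subgroup.commutator_mem_commutator (Subgroup.mem_top _) (Subgroup.mem_top _)
  let V : G →* (P : Subgroup G) ⧸ D := ϕ.transfer
  have hV : ∀ x : (P : Subgroup G), V x = ϕ x ^ (P : Subgroup G).index :=
    Cfsg.Agent.Lib.TransferEval.transfer_eq_pow_of_fusion ϕ hϕ
  -- the central part
  set Aₛ : Subgroup G := (P : Subgroup G) ⊓ Subgroup.centralizer (N : Set G) with hAs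
  let ψ : Aₛ →* (P : Subgroup G) ⧸ D := ϕ.comp (Subgroup.inclusion inf_le_left)
  have hψ : ∀ a : Aₛ, ψ a = ϕ ⟨a, a.2.1⟩ := fun a => rfl
  -- Hall subgroup of the normalizer
  let A₀ : Subgroup N := (P : Subgroup G).subgroupOf N
  haveI hA₀n : A₀.Normal := Subgroup.normal_in_normalizer
  have hA₀c : IsMulCommutative A₀ := by
    refine ⟨⟨fun a b => Subtype.ext (Subtype.ext ?_)⟩⟩
    have := hP.is_comm.comm (⟨a.1.1, a.2⟩ : (P : Subgroup G)) ⟨b.1.1, b.2⟩
    exact congrArg (fun t : (P : Subgroup G) => (t : G)) this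
  have hcop : Nat.Coprime (Nat.card A₀) A₀.index := by
    have h1 : Nat.card A₀ = Nat.card (P : Subgroup G) :=
      Nat.card_congr (Subgroup.subgroupOfEquivOfLe hPN).toEquiv
    rw [h1]
    have h2 : A₀.index ∣ (P : Subgroup G).index := Subgroup.relIndex_dvd_index_of_le hPN
    exact Nat.Coprime.coprime_dvd_right h2 P.card_coprime_index
  have hψinj : Function.Injective ψ := by
    rw [injective_iff_map_eq_one]
    intro a ha
    rw [hψ] at ha
    have h1 : (⟨a, a.2.1⟩ : (P : Subgroup G)) ∈ D := (QuotientGroup.eq_one_iff _).1 ha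
    have h2 : inc ⟨a, a.2.1⟩ ∈ commutator N := h1
    have hbot := Cfsg.Agent.S0088.result A₀ hA₀c hcop
    have h3 : inc ⟨a, a.2.1⟩ ∈ A₀ ⊓ commutator N ⊓ Subgroup.center N := by
      refine Subgroup.mem_inf.2 ⟨Subgroup.mem_inf.2 ⟨a.2.1, h2⟩, Subgroup.mem_center_iff.2 ?_⟩
      intro n
      apply Subtype.ext
      exact Subgroup.mem_centralizer_iff.1 a.2.2 n n.2
    rw [hbot] at h3
    have h4 : ((a : Aₛ) : G) = 1 := congrArg Subtype.val h3
    exact Subtype.ext h4
  have hψsurj : Function.Surjective ψ := by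
    intro w
    obtain ⟨x, rfl⟩ := QuotientGroup.mk'_surjective D w
    have h1 := Cfsg.Agent.S0090.mem_sup A₀ hA₀c hcop (inc x) x.2
    obtain ⟨d, hd, z, hz, he⟩ := Cfsg.Agent.Lib.PGrp.exists_mul_of_mem_sup (N := ⁅A₀, (⊤ : Subgroup N)⁆) h1
    have hdA : d ∈ A₀ := Subgroup.commutator_le_left A₀ ⊤ hd
    have hzA : z ∈ A₀ := hz.2
    have hdc : d ∈ commutator N := Subgroup.commutator_mono le_top le_rfl hd
    refine ⟨⟨z, Subgroup.mem_inf.2 ⟨hzA, Subgroup.mem_centralizer_iff.2 ?_⟩⟩, ?_⟩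
    · intro n hn
      have := Subgroup.mem_center_iff.1 hz.1 ⟨n, hn⟩
      exact congrArg Subtype.val this
    · rw [hψ]
      symm
      apply QuotientGroup.eq.2
      show inc _ ∈ commutator N
      have e : inc (x⁻¹ * ⟨z, hzA⟩) = d⁻¹ := by
        apply Subtype.ext
        have he' : ((inc x : N) : G) = (d : G) * z := congrArg Subtype.val he
        show (x : G)⁻¹ * ((z : N) : G) = ((d : N) : G)⁻¹
        have he'' : (x : G) = (d : G) * z := he'
        rw [he'']
        have hc : ((d : N) : G) * (z : N) = (z : N) * (d : N) :=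
          congrArg Subtype.val (Subgroup.mem_center_iff.1 hz.1 d)
        rw [hc]
        group
      rw [e]
      exact inv_mem hdc
  have hpow : Function.Surjective (fun y : Aₛ => y ^ (P : Subgroup G).index) := by
    apply (Cfsg.Agent.Lib.TransferEval.pow_bijective_of_coprime _).2
    have h1 : Nat.card Aₛ ∣ Nat.card (P : Subgroup G) := Subgroup.card_dvd_of_le inf_le_left
    exact Nat.Coprime.coprime_dvd_left h1 P.card_coprime_index
  have hVsurj : Function.Surjective V := by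
    intro w
    obtain ⟨a, rfl⟩ := hψsurj w
    obtain ⟨b, rfl⟩ := hpow a
    refine ⟨b, ?_⟩
    have h1 := hV ⟨b, b.2.1⟩
    show V b = _
    have h2 : V b = V ((⟨b, b.2.1⟩ : (P : Subgroup G)) : G) := rfl
    rw [h2, h1, ← map_pow]
    rfl
  refine ⟨V.ker, inferInstance, ⟨(QuotientGroup.quotientKerEquivOfSurjective V hVsurj).trans ?_⟩⟩
  exact (MulEquiv.ofBijective ψ ⟨hψinj, hψsurj⟩).symm

end Cfsg.Agent.S0105
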