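import Mathlib
-- Template for statement S0622 (row 622; see /opt/grader/pristine/manifest.json for weights).
-- Copy to Cfsg/Agent/S0622.lean and replace the sorry. The statement below is byte-identical to the frozen
-- statement Cfsg.CfsgFrozen.S0622 (Cfsg/Statements/S0622.lean; the theorem Cfsg.stable_normal_closure_basic_properties);
-- the grader kernel-checks Cfsg.Agent.S0622.result against that frozen type. Keep the theorem IN THIS FILE
-- (a `result` declared elsewhere and merely imported here is not credited); helpers may live anywhere
-- under Cfsg/Agent/.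
import Cfsg.Statements.S0622
import Cfsg.Agent.Lib.StableW

set_option autoImplicit false
universe u
open Cfsg
open scoped commutatorElement

namespace Cfsg.Agent.S0622

/-- Basic properties of the stable normal closure W(S) of Ω₁(Z(S)) in a finite p-group: characteristic, squeezed between Ω₁(Z(S)) and Ω₁(Z(J(S))), nontrivial for S ≠ 1, and transported by group isomorphisms. -/
theorem result {S : Type u} [Group S] [Finite S] {p : ℕ} [Fact p.Prime] (hS : IsPGroup p S) : (Cfsg.stableNormalClosure p S).Characteristic ∧ Cfsg.omegaOne p (Subgroup.center S) ≤ Cfsg.stableNormalClosure p S ∧ Cfsg.stableNormalClosure p S ≤ Cfsg.omegaCenterThompson p S ∧ (Nontrivial S → Cfsg.stableNormalClosure p S ≠ ⊥) ∧ ∀ (S' : Type u) [Group S'] (η : S ≃* S'), (Cfsg.stableNormalClosure p S).map η.toMonoidHom = Cfsg.stableNormalClosure p S' := by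
  open Cfsg.Agent.Lib.StableW in
  refine ⟨stable_characteristic p, omegaCenter_le_stable p, stable_le_omegaCT p, ?_, ?_⟩
  · intro h
    exact stable_ne_bot hS
  · intro S' _ η
    exact map_stable η

end Cfsg.Agent.S0622
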