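import Mathlib
-- Template for statement S0626 (row 626; see /opt/grader/pristine/manifest.json for weights).
-- Copy to Cfsg/Agent/S0626.lean and replace the sorry. The statement below is byte-identical to the frozen
-- statement Cfsg.CfsgFrozen.S0626 (Cfsg/Statements/S0626.lean; the theorem Cfsg.action_p_stable_of_abelian_sylow_two);
-- the grader kernel-checks Cfsg.Agent.S0626.result against that frozen type. Keep the theorem IN THIS FILE
-- (a `result` declared elsewhere and merely imported here is not credited); helpers may live anywhere
-- under Cfsg/Agent/.
import Cfsg.Statements.S0626
import Cfsg.Agent.Lib.ActionStable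

set_option autoImplicit false
open Cfsg
open scoped commutatorElement

namespace Cfsg.Agent.S0626

/-- For odd p, groups whose Sylow 2-subgroups are abelian are p-stable in the action sense. -/
theorem result {G : Type*} [Group G] [Finite G] {p : ℕ} [Fact p.Prime] (hp : p ≠ 2) (hab : ∀ T : Sylow 2 G, IsMulCommutative T) : Cfsg.IsActionPStable p G := by
  exact Cfsg.Agent.Lib.ActionStable.actionStable_of_sylow2 hp hab

end Cfsg.Agent.S0626
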