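import Mathlib
import Cfsg.Agent.S0622
import Cfsg.Agent.S0624
import Cfsg.Agent.S0625
import Cfsg.Agent.S0626
import Cfsg.Agent.Lib.PLocalTools
import Cfsg.Agent.Lib.PSolv
import Cfsg.Agent.Lib.MaxPNilp
import Cfsg.Agent.Lib.PCore
import Cfsg.Statements.S0109

set_option autoImplicit false
open Cfsg

namespace Cfsg.Agent.S0109

theorem core {G : Type*} [Group G] [Finite G] {p : ℕ} [Fact p.Prime] (hst : IsActionPStable p G)
    (hc : Subgroup.centralizer (pCore p G : Set G) ≤ pCore p G) (P : Sylow p G) (g : G) :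
    ∃ a ∈ Subgroup.normalizer (thompsonSubgroupOf p (P : Subgroup G) : Set G),
      ∃ c ∈ Subgroup.centralizer {x : G | x ∈ (P : Subgroup G) ∧ (∀ y ∈ (P : Subgroup G), x * y = y * x) ∧ x ^ p = 1},
        g = a * c := by
  haveI hW : ((stableNormalClosure p ↥(P : Subgroup G)).map (P : Subgroup G).subtype).Normal :=
    Cfsg.Agent.S0624.result hst hc P
  obtain ⟨-, hΩ, hO, -, -⟩ := Cfsg.Agent.S0622.result (S := ↥(P : Subgroup G)) P.2
  set W : Subgroup G := (stableNormalClosure p ↥(P : Subgroup G)).map (P : Subgroup G).subtype with hWdef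
  set D : Subgroup G := Subgroup.centralizer (W : Set G) with hD
  have hJ : thompsonSubgroupOf p (P : Subgroup G) ≤ D := by
    rintro _ ⟨j, hj, rfl⟩
    rw [hD, Subgroup.mem_centralizer_iff]
    rintro _ ⟨s, hs, rfl⟩
    have h1 := Cfsg.Agent.Lib.PLocalTools.omegaOne_le p _ (hO hs)
    have h2 := Subgroup.mem_centralizer_iff.1 (Subgroup.mem_inf.1 h1).2 j hj
    have h3 := congrArg Subtype.val h2
    exact h3.symm
  obtain ⟨d, hd, n, hn, hg⟩ := Cfsg.Agent.Lib.PLocalTools.frattini_thompson P D hJ g⁻¹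
  refine ⟨n⁻¹, inv_mem hn, d⁻¹, ?_, ?_⟩
  · have hsub : {x : G | x ∈ (P : Subgroup G) ∧ (∀ y ∈ (P : Subgroup G), x * y = y * x) ∧ x ^ p = 1} ⊆ (W : Set G) := by
      rintro x ⟨hxP, hxc, hxp⟩
      refine ⟨⟨x, hxP⟩, hΩ (Cfsg.Agent.Lib.PLocalTools.mem_omegaOne ?_ (Subtype.ext hxp)), rfl⟩
      rw [Subgroup.mem_center_iff]
      intro y
      exact Subtype.ext (hxc y y.2).symm
    exact Subgroup.centralizer_le hsub (inv_mem hd)
  · rw [← mul_inv_rev, ← hg, inv_inv]

/-- `hc` from the hypotheses of the solvable factorization theorem. -/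
theorem hc_of_solvable {G : Type*} [Group G] [Finite G] {p : ℕ} [Fact p.Prime] (hs : Group.IsSolvable G)
    (hF : ∀ N : Subgroup G, N.Normal → Nat.Coprime (Nat.card N) p → N = ⊥) :
    Subgroup.centralizer (pCore p G : Set G) ≤ pCore p G := by
  have h1 : pPrimeCore p G = ⊥ :=
    hF _ inferInstance (Cfsg.Agent.Lib.PCore.card_pPrimeCore_coprime p)
  exact Cfsg.Agent.Lib.PSolv.centralizer_pCore_le_of_pSolvable
    (Cfsg.Agent.Lib.MaxPNilp.isPSolvable_of_isSolvable p hs) h1

/-- The Thompson factorization Theorem for solvable groups states that, with p odd (and abelian Sylow 2-subgroups when p = 3) and no nontrivial normal subgroup of order prime to p, every element of G is a product of an element normalizing J(P) and an element centralizing the elements of order dividing p in the centre of P. -/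
theorem result {G : Type*} [Group G] [Finite G] {p : ℕ} [Fact p.Prime] (hp : p ≠ 2) (hs : Group.IsSolvable G) (h3 : p = 3 → ∀ T : Sylow 2 G, IsMulCommutative T) (hF : ∀ N : Subgroup G, N.Normal → Nat.Coprime (Nat.card N) p → N = ⊥) (P : Sylow p G) (g : G) : ∃ a ∈ Subgroup.normalizer (Cfsg.thompsonSubgroupOf p (P : Subgroup G) : Set G), ∃ c ∈ Subgroup.centralizer {x : G | x ∈ (P : Subgroup G) ∧ (∀ y ∈ (P : Subgroup G), x * y = y * x) ∧ x ^ p = 1}, g = a * c := by
  have hst : IsActionPStable p G := by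
    by_cases h3' : p = 3
    · exact Cfsg.Agent.S0626.result hp (h3 h3')
    · have hp5 : 5 ≤ p := by
        have h2 : 2 ≤ p := (Fact.out : p.Prime).two_le
        by_contra hlt
        have h4 : p ≠ 4 := by
          rintro rfl
          exact absurd (Fact.out : Nat.Prime 4) (by norm_num)
        omega
      exact Cfsg.Agent.S0625.result hp5 (Cfsg.Agent.Lib.MaxPNilp.isPSolvable_of_isSolvable p hs)
  exact core hst (hc_of_solvable hs hF) P g

end Cfsg.Agent.S0109
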