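import Mathlib
import Cfsg.Agent.Lib.HomCount
import Cfsg.Statements.S0110

set_option autoImplicit false
open Cfsg

namespace Cfsg.Agent.S0110

open scoped commutatorElement



/-- In a p-group G, an extraspecial subgroup E with [G, E] ≤ Z(E) satisfies G = E C_G(E). -/
theorem result {G : Type*} [Group G] [Finite G] {p : ℕ} [Fact p.Prime] (hG : IsPGroup p G) (E : Subgroup G) (hE : Cfsg.IsExtraspecial p E) (h : ⁅(⊤ : Subgroup G), E⁆ ≤ E ⊓ Subgroup.centralizer (E : Set G)) : E ⊔ Subgroup.centralizer (E : Set G) = ⊤ := by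
  classical
  obtain ⟨⟨hpg, hfr, hcomm⟩, hcard⟩ := id hE
  letI : CommGroup (Subgroup.center E) := { (inferInstance : Group (Subgroup.center E)) with
    mul_comm := fun a b => Subtype.ext (Subgroup.mem_center_iff.1 a.2 b.1).symm }
  have hmem : ∀ g : G, ∀ e ∈ E, g * e * g⁻¹ * e⁻¹ ∈ E ∧ ∀ u ∈ E, u * (g * e * g⁻¹ * e⁻¹) = (g * e * g⁻¹ * e⁻¹) * u := by
    intro g e he
    have h1 : ⁅g, e⁆ ∈ E ⊓ Subgroup.centralizer (E : Set G) :=
      h (Subgroup.commutator_mem_commutator (Subgroup.mem_top g) he)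
    rw [commutatorElement_def] at h1
    refine ⟨h1.1, fun u hu => ?_⟩
    exact (Subgroup.mem_centralizer_iff.1 h1.2 u hu)
  have hval : ∀ g : G, ∀ e : E, ∃ w : Subgroup.center E, ((w : E) : G) = g * e * g⁻¹ * (e : G)⁻¹ := by
    intro g e
    obtain ⟨h1, h2⟩ := hmem g e e.2
    refine ⟨⟨⟨_, h1⟩, ?_⟩, rfl⟩
    rw [Subgroup.mem_center_iff]
    intro u
    apply Subtype.ext
    exact h2 u u.2
  choose w hw using hval
  let F : G → (E →* Subgroup.center E) := fun g => MonoidHom.mk' (w g) (by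
    intro a b
    apply Subtype.ext
    apply Subtype.ext
    have h3 := (hmem g b b.2).2 a a.2
    simp only [Subgroup.coe_mul, hw]
    calc g * ((a : G) * b) * g⁻¹ * ((a : G) * b)⁻¹
        = (g * a * g⁻¹ * (a : G)⁻¹) * ((a : G) * (g * b * g⁻¹ * (b : G)⁻¹)) * (a : G)⁻¹ := by group
      _ = (g * a * g⁻¹ * (a : G)⁻¹) * ((g * b * g⁻¹ * (b : G)⁻¹) * (a : G)) * (a : G)⁻¹ := by rw [h3]
      _ = _ := by group)
  have hF : ∀ g e, (((F g e : Subgroup.center E) : E) : G) = g * e * g⁻¹ * (e : G)⁻¹ := fun g e => hw g e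
  let ι : E →* (E →* Subgroup.center E) := MonoidHom.mk' (fun e₀ => F (e₀ : G)) (by
    intro a b
    ext e
    have e1 := (hmem (b : G) e e.2).2 a a.2
    have e2 : (((F (a : G) e * F (b : G) e : Subgroup.center E) : E) : G) = ((F (b : G) e * F (a : G) e : Subgroup.center E) : E) := by
      rw [mul_comm]
    simp only [MonoidHom.mul_apply]
    rw [e2]
    simp only [Subgroup.coe_mul, hF]
    calc ((a : G) * b) * e * ((a : G) * b)⁻¹ * (e : G)⁻¹
        = (a : G) * ((b : G) * e * (b : G)⁻¹ * (e : G)⁻¹) * (e : G) * (a : G)⁻¹ * (e : G)⁻¹ := by group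
      _ = ((b : G) * e * (b : G)⁻¹ * (e : G)⁻¹) * (a : G) * (e : G) * (a : G)⁻¹ * (e : G)⁻¹ := by rw [e1]
      _ = _ := by group)
  have hιker : ι.ker = Subgroup.center E := by
    ext e₀
    rw [MonoidHom.mem_ker, Subgroup.mem_center_iff]
    constructor
    · intro h0 u
      have h1 : F (e₀ : G) u = 1 := DFunLike.congr_fun h0 u
      have h2 := hF (e₀ : G) u
      rw [h1] at h2
      have h3 : (e₀ : G) * u * (e₀ : G)⁻¹ * (u : G)⁻¹ = 1 := h2.symm
      apply Subtype.ext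
      show (u : G) * e₀ = e₀ * u
      have h4 : (e₀ : G) * u * (e₀ : G)⁻¹ = u := by
        rwa [mul_inv_eq_one] at h3
      calc (u : G) * e₀ = ((e₀ : G) * u * (e₀ : G)⁻¹) * e₀ := by rw [h4]
        _ = e₀ * u := by group
    · intro h0
      ext u
      show ((F (e₀ : G) u : Subgroup.center E) : E).1 = 1
      rw [hF]
      have h4 : (u : G) * e₀ = e₀ * u := congrArg Subtype.val (h0 u)
      rw [← h4]
      group
  haveI : Finite (E →* Subgroup.center E) := Finite.of_injective (fun f => (f : E → Subgroup.center E)) DFunLike.coe_injective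
  have hrange : ι.range = ⊤ := by
    apply Subgroup.eq_top_of_le_card
    have h1 := Cfsg.Agent.Lib.HomCount.card_hom_le_index (E := E) (Z := Subgroup.center E) hcard
    have h2 : (commutator E).index = Nat.card ι.range := by
      rw [hcomm]
      exact (congrArg Subgroup.index hιker).symm.trans (Subgroup.index_ker ι)
    exact h1.trans h2.le
  rw [eq_top_iff]
  intro g _
  have hg : F g ∈ ι.range := by rw [hrange]; trivial
  obtain ⟨e₀, he₀⟩ := hg
  have hcen : (e₀ : G)⁻¹ * g ∈ Subgroup.centralizer (E : Set G) := by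
    rw [Subgroup.mem_centralizer_iff]
    intro u hu
    have h1 : F (e₀ : G) ⟨u, hu⟩ = F g ⟨u, hu⟩ := DFunLike.congr_fun he₀ ⟨u, hu⟩
    have h2 := congrArg (fun t : Subgroup.center E => ((t : E) : G)) h1
    simp only [hF] at h2
    have h3 : (e₀ : G) * u * (e₀ : G)⁻¹ = g * u * g⁻¹ := mul_right_cancel h2
    have h4 : u = ((e₀ : G)⁻¹ * g) * u * ((e₀ : G)⁻¹ * g)⁻¹ := by
      calc u = (e₀ : G)⁻¹ * ((e₀ : G) * u * (e₀ : G)⁻¹) * e₀ := by group
        _ = (e₀ : G)⁻¹ * (g * u * g⁻¹) * e₀ := by rw [h3]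
        _ = _ := by group
    calc u * ((e₀ : G)⁻¹ * g) = ((e₀ : G)⁻¹ * g) * u * ((e₀ : G)⁻¹ * g)⁻¹ * ((e₀ : G)⁻¹ * g) := by rw [← h4]
      _ = _ := by group
  have : g = (e₀ : G) * ((e₀ : G)⁻¹ * g) := by group
  rw [this]
  exact mul_mem (Subgroup.mem_sup_left e₀.2) (Subgroup.mem_sup_right hcen)

end Cfsg.Agent.S0110
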