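import Mathlib
import Cfsg.Agent.Lib.MaxClassTwo2
import Cfsg.Statements.S0113

set_option autoImplicit false
open Cfsg

namespace Cfsg.Agent.S0113



/-- A 2-group of maximal class contains a cyclic subgroup of index 2. -/
theorem result {X : Type*} [Group X] [Finite X] (n : ℕ) (hn : 3 ≤ n) (hX : Nat.card X = 2 ^ n) (hc : Group.nilpotencyClass X = n - 1) : ∃ C : Subgroup X, IsCyclic C ∧ C.index = 2 := by
  have h4 := Cfsg.Agent.Lib.MaxClassTwo2.four_mul_of_class hn hX hc
  obtain ⟨c, g, h1, -, -, -, -⟩ := Cfsg.Agent.Lib.MaxClassTwo2.structure_of_four_mul hn hX h4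
  refine ⟨Subgroup.zpowers c, ?_, h1⟩
  exact Subgroup.isCyclic_zpowers c

end Cfsg.Agent.S0113
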