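import Mathlib
import Cfsg.Agent.Lib.MaxClassTwo2
import Cfsg.Statements.S0115

set_option autoImplicit false
open Cfsg

namespace Cfsg.Agent.S0115



/-- A 2-group of order 2^n, n ≥ 3, is of maximal class exactly when its commutator quotient is a Klein four-group. -/
theorem result {X : Type*} [Group X] [Finite X] (n : ℕ) (hn : 3 ≤ n) (hX : Nat.card X = 2 ^ n) : Group.nilpotencyClass X = n - 1 ↔ IsKleinFour (X ⧸ commutator X) := by
  constructor
  · intro hc
    exact Cfsg.Agent.Lib.MaxClassTwo2.isKleinFour_of_four_mul hn hX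
      (Cfsg.Agent.Lib.MaxClassTwo2.four_mul_of_class hn hX hc)
  · intro hk
    apply Cfsg.Agent.Lib.MaxClassTwo2.class_of_four_mul hn hX
    have h1 := Subgroup.card_eq_card_quotient_mul_card_subgroup (commutator X)
    rw [hk.card_four] at h1
    exact h1.symm

end Cfsg.Agent.S0115
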