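import Mathlib
import Cfsg.Agent.Lib.ConjFam
import Cfsg.Statements.S0116

set_option autoImplicit false
open Cfsg

namespace Cfsg.Agent.S0116

open Cfsg.Agent.Lib.ConjFam

variable {G : Type*} [Group G]

/-- The tame intersections with `P`. -/
def Tame {p : ℕ} (P : Sylow p G) : Set (Subgroup G) :=
  {T | ∃ Q : Sylow p G, T = (P : Subgroup G) ⊓ (Q : Subgroup G) ∧
    ¬ p ∣ ((P : Subgroup G) ⊓ Subgroup.normalizer (T : Set G)).relIndex (Subgroup.normalizer (T : Set G)) ∧
    ¬ p ∣ ((Q : Subgroup G) ⊓ Subgroup.normalizer (T : Set G)).relIndex (Subgroup.normalizer (T : Set G))}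

variable [Finite G] {p : ℕ} [Fact p.Prime]

theorem exists_sylow_over (N U : Subgroup G) (hUN : U ≤ N) (hU : IsPGroup p U) :
    ∃ S : Sylow p G, U ≤ (S : Subgroup G) ∧ ¬ p ∣ ((S : Subgroup G) ⊓ N).relIndex N := by
  have hU' : IsPGroup p (U.subgroupOf N) := hU.comap_of_injective N.subtype N.subtype_injective
  obtain ⟨T, hT⟩ := hU'.exists_le_sylow
  have hTp : IsPGroup p ((T : Subgroup N).map N.subtype) := T.isPGroup'.map _
  obtain ⟨S, hS⟩ := hTp.exists_le_sylow
  refine ⟨S, ?_, ?_⟩
  · intro u hu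
    exact hS ⟨⟨u, hUN hu⟩, hT (Subgroup.mem_subgroupOf.2 hu), rfl⟩
  · have hle : (T : Subgroup N) ≤ ((S : Subgroup G) ⊓ N).subgroupOf N := by
      intro t ht
      refine Subgroup.mem_subgroupOf.2 ⟨hS ⟨t, ht, rfl⟩, t.2⟩
    have hp : IsPGroup p (((S : Subgroup G) ⊓ N).subgroupOf N) :=
      (S.isPGroup'.to_le inf_le_left).comap_of_injective N.subtype N.subtype_injective
    have heq := T.3 hp hle
    rw [Subgroup.relIndex, heq]
    exact T.not_dvd_index

theorem tame_conj (S : Sylow p G) (D : Subgroup G) (c : G)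
    (h : ¬ p ∣ ((S : Subgroup G) ⊓ Subgroup.normalizer (D : Set G)).relIndex (Subgroup.normalizer (D : Set G))) :
    ¬ p ∣ (((c • S : Sylow p G) : Subgroup G) ⊓ Subgroup.normalizer ((D.map (MulAut.conj c).toMonoidHom : Subgroup G) : Set G)).relIndex
      (Subgroup.normalizer ((D.map (MulAut.conj c).toMonoidHom : Subgroup G) : Set G)) := by
  have hinj : Function.Injective (MulAut.conj c).toMonoidHom := (MulAut.conj c).injective
  have e1 : ((c • S : Sylow p G) : Subgroup G) = (S : Subgroup G).map (MulAut.conj c).toMonoidHom := rfl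
  rw [e1, normalizer_map_conj, ← Subgroup.map_inf _ _ _ hinj, Subgroup.relIndex_map_map_of_injective _ _ hinj]
  exact h

/-- The connection relation. -/
def Conn (P X Y : Sylow p G) (A : Set G) : Prop :=
  ∀ g h : G, X = g • P → Y = h • P → Dec (Tame P) (cj g A) (g⁻¹ * h)

theorem Conn.trans {P X Y Z : Sylow p G} {A : Set G} (h1 : Conn P X Y A) (h2 : Conn P Y Z A) :
    Conn P X Z A := by
  intro g k hg hk
  obtain ⟨h, hh⟩ := MulAction.exists_smul_eq G P Y
  have d1 := h1 g h hg hh.symm
  have d2 := h2 h k hh.symm hk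
  have e : cj (g⁻¹ * h) (cj g A) = cj h A := by
    rw [← cj_mul, mul_inv_cancel_left]
  have := d1.trans (B := cj h A) e.subset d2
  have e2 : g⁻¹ * h * (h⁻¹ * k) = g⁻¹ * k := by group
  rwa [e2] at this

theorem mem_smul_iff (S : Sylow p G) (g a : G) : a ∈ ((g • S : Sylow p G) : Subgroup G) ↔ g⁻¹ * a * g ∈ (S : Subgroup G) := by
  show a ∈ (S : Subgroup G).map (MulAut.conj g).toMonoidHom ↔ _
  rw [Cfsg.Agent.Lib.SylowConjLemmas.mem_map_conj]

theorem card_sylow_eq (P X : Sylow p G) : Nat.card (X : Subgroup G) = Nat.card (P : Subgroup G) :=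
  Nat.card_congr (X.equiv P).toEquiv

theorem conn (P X Y : Sylow p G) (A : Set G) (hA : A ⊆ (((X : Subgroup G) ⊓ (Y : Subgroup G) : Subgroup G) : Set G)) :
    Conn P X Y A := by
  induction hn : Nat.card (P : Subgroup G) - Nat.card ((X : Subgroup G) ⊓ (Y : Subgroup G) : Subgroup G)
    using Nat.strong_induction_on generalizing X Y A with
  | _ n ih =>
    subst hn
    have hcardle : ∀ X' Y' : Sylow p G, Nat.card ((X' : Subgroup G) ⊓ (Y' : Subgroup G) : Subgroup G) ≤ Nat.card (P : Subgroup G) := by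
      intro X' Y'
      rw [← card_sylow_eq P X']
      exact Subgroup.card_le_of_le inf_le_left
    have ih' : ∀ (X' Y' : Sylow p G) (A' : Set G),
        A' ⊆ (((X' : Subgroup G) ⊓ (Y' : Subgroup G) : Subgroup G) : Set G) →
        Nat.card ((X : Subgroup G) ⊓ (Y : Subgroup G) : Subgroup G) <
          Nat.card ((X' : Subgroup G) ⊓ (Y' : Subgroup G) : Subgroup G) → Conn P X' Y' A' := by
      intro X' Y' A' hA' hlt
      have := hcardle X' Y'
      exact ih _ (by omega) X' Y' A' hA' rfl
    by_cases hXY : X = Y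
    · subst hXY
      intro g h hg hh
      have hsm : (g⁻¹ * h) • P = P := by
        rw [mul_smul, ← hh, hg, inv_smul_smul]
      have hN : g⁻¹ * h ∈ Subgroup.normalizer ((P : Subgroup G) : Set G) :=
        (Sylow.smul_eq_iff_mem_normalizer).1 hsm
      have hAP : cj g A ⊆ ((P : Subgroup G) : Set G) := by
        rintro _ ⟨a, ha, rfl⟩
        have : a ∈ (X : Subgroup G) := (hA ha).1
        rw [hg] at this
        exact (mem_smul_iff P g a).1 this
      have hT : (P : Subgroup G) ∈ Tame P := by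
        refine ⟨P, (inf_idem _).symm, ?_, ?_⟩ <;>
        · have e : (P : Subgroup G) ⊓ Subgroup.normalizer ((P : Subgroup G) : Set G) = P :=
            inf_eq_left.2 Subgroup.le_normalizer
          rw [e]
          intro hd
          exact P.not_dvd_index (dvd_trans hd (Subgroup.relIndex_dvd_index_of_le Subgroup.le_normalizer))
      have := Dec.cons (𝓕 := Tame P) (P : Subgroup G) (g⁻¹ * h) hT hAP hN (Dec.nil _)
      simpa using this
    · set D : Subgroup G := (X : Subgroup G) ⊓ (Y : Subgroup G) with hD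
      set Nd : Subgroup G := Subgroup.normalizer (D : Set G) with hNd
      have hDX : D < (X : Subgroup G) := by
        refine lt_of_le_of_ne inf_le_left ?_
        intro h
        have hle : (X : Subgroup G) ≤ Y := by
          rw [← h]; exact inf_le_right
        exact hXY (Sylow.ext (X.3 Y.2 hle).symm)
      have hDY : D < (Y : Subgroup G) := by
        refine lt_of_le_of_ne inf_le_right ?_
        intro h
        have hle : (Y : Subgroup G) ≤ X := by
          rw [← h]; exact inf_le_left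
        exact hXY (Sylow.ext (Y.3 X.2 hle))
      have hlt1 := lt_inf_normalizer X.isPGroup' hDX
      have hlt2 := lt_inf_normalizer Y.isPGroup' hDY
      have hcl1 : Nat.card D < Nat.card ((X : Subgroup G) ⊓ Nd : Subgroup G) :=
        Set.ncard_lt_ncard hlt1 (Set.toFinite _)
      have hcl2 : Nat.card D < Nat.card ((Y : Subgroup G) ⊓ Nd : Subgroup G) :=
        Set.ncard_lt_ncard hlt2 (Set.toFinite _)
      obtain ⟨X₁, hX₁, tX⟩ := exists_sylow_over (p := p) Nd ((X : Subgroup G) ⊓ Nd) inf_le_right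
        (X.isPGroup'.to_le inf_le_left)
      obtain ⟨Y₁, hY₁, tY⟩ := exists_sylow_over (p := p) Nd ((Y : Subgroup G) ⊓ Nd) inf_le_right
        (Y.isPGroup'.to_le inf_le_left)
      have hDX₁ : D ≤ (X₁ : Subgroup G) := hlt1.le.trans hX₁
      have hDY₁ : D ≤ (Y₁ : Subgroup G) := hlt2.le.trans hY₁
      have c1 : Conn P X X₁ A := by
        refine ih' X X₁ A (fun a ha => ⟨(hA ha).1, hDX₁ (hA ha)⟩) ?_
        refine lt_of_lt_of_le hcl1 (Subgroup.card_le_of_le (le_inf inf_le_left hX₁))
      have c3 : Conn P Y₁ Y A := by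
        refine ih' Y₁ Y A (fun a ha => ⟨hDY₁ (hA ha), (hA ha).2⟩) ?_
        refine lt_of_lt_of_le hcl2 (Subgroup.card_le_of_le (le_inf hY₁ inf_le_left))
      have c2 : Conn P X₁ Y₁ A := by
        by_cases hlt : Nat.card D < Nat.card ((X₁ : Subgroup G) ⊓ (Y₁ : Subgroup G) : Subgroup G)
        · exact ih' X₁ Y₁ A (fun a ha => ⟨hDX₁ (hA ha), hDY₁ (hA ha)⟩) hlt
        · have hDeq : D = (X₁ : Subgroup G) ⊓ (Y₁ : Subgroup G) :=
            Subgroup.eq_of_le_of_card_ge (le_inf hDX₁ hDY₁) (not_lt.1 hlt)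
          intro g h hg hh
          obtain ⟨k, hkN, hk⟩ := exists_conj_into (R := (X₁ : Subgroup G) ⊓ Nd) (Y := Nd)
            (T := (Y₁ : Subgroup G) ⊓ Nd) (X₁.isPGroup'.to_le inf_le_left) tX inf_le_right
            (Y₁.isPGroup'.to_le inf_le_left)
          set Y₂ : Sylow p G := k • Y₁ with hY₂
          set A' : Set G := cj k⁻¹ A with hA'
          have hcjD : ∀ a ∈ A, k * a * k⁻¹ ∈ D := fun a ha =>
            (Subgroup.mem_normalizer_iff.1 hkN a).1 (hA ha)
          have hA'sub : A' ⊆ (((X₁ : Subgroup G) ⊓ (Y₂ : Subgroup G) : Subgroup G) : Set G) := by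
            rintro _ ⟨a, ha, rfl⟩
            have e : k⁻¹⁻¹ * a * k⁻¹ = k * a * k⁻¹ := by group
            show k⁻¹⁻¹ * a * k⁻¹ ∈ (X₁ : Subgroup G) ⊓ (Y₂ : Subgroup G)
            rw [e]
            refine Subgroup.mem_inf.2 ⟨hDX₁ (hcjD a ha), ?_⟩
            rw [hY₂, mem_smul_iff]
            have e' : k⁻¹ * (k * a * k⁻¹) * k = a := by group
            rw [e']
            exact hDY₁ (hA ha)
          have hcard : Nat.card D < Nat.card ((X₁ : Subgroup G) ⊓ (Y₂ : Subgroup G) : Subgroup G) := by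
            have hm : ((Y₁ : Subgroup G) ⊓ Nd).map (MulAut.conj k).toMonoidHom ≤
                (X₁ : Subgroup G) ⊓ (Y₂ : Subgroup G) := by
              rintro _ ⟨t, ht, rfl⟩
              refine ⟨(hk t ht).1, ?_⟩
              exact ⟨t, ht.1, rfl⟩
            have h1 := Subgroup.card_le_of_le hm
            rw [Subgroup.card_map_of_injective (MulAut.conj k).injective] at h1
            have h2 : Nat.card ((Y : Subgroup G) ⊓ Nd : Subgroup G) ≤ Nat.card ((Y₁ : Subgroup G) ⊓ Nd : Subgroup G) :=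
              Subgroup.card_le_of_le (le_inf hY₁ inf_le_right)
            omega
          have c := ih' X₁ Y₂ A' hA'sub hcard g (k * h) hg (by rw [mul_smul, ← hh])
          -- the tame step
          set E : Subgroup G := D.map (MulAut.conj g⁻¹).toMonoidHom with hE
          have hP : P = g⁻¹ • X₁ := by rw [hg, inv_smul_smul]
          have hEeq : E = (P : Subgroup G) ⊓ ((g⁻¹ • Y₁ : Sylow p G) : Subgroup G) := by
            have hinj : Function.Injective (MulAut.conj g⁻¹).toMonoidHom := (MulAut.conj g⁻¹).injective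
            have e1 : ((g⁻¹ • Y₁ : Sylow p G) : Subgroup G) = (Y₁ : Subgroup G).map (MulAut.conj g⁻¹).toMonoidHom := rfl
            have e2 : (P : Subgroup G) = (X₁ : Subgroup G).map (MulAut.conj g⁻¹).toMonoidHom := by
              rw [hP]; rfl
            rw [e1, e2, hE, hDeq, Subgroup.map_inf _ _ _ hinj]
          have hTame : E ∈ Tame P := by
            refine ⟨g⁻¹ • Y₁, hEeq, ?_, ?_⟩
            · have := tame_conj X₁ D g⁻¹ tX
              rwa [← hP] at this
            · exact tame_conj Y₁ D g⁻¹ tY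
          have hAE : cj g A ⊆ (E : Set G) := by
            rintro _ ⟨a, ha, rfl⟩
            refine ⟨a, hA ha, ?_⟩
            show g⁻¹ * a * g⁻¹⁻¹ = g⁻¹ * a * g
            rw [inv_inv]
          have hx : g⁻¹ * k⁻¹ * g ∈ Subgroup.normalizer (E : Set G) := by
            rw [hE, conj_mem_normalizer_iff]
            have e : g⁻¹⁻¹ * (g⁻¹ * k⁻¹ * g) * g⁻¹ = k⁻¹ := by group
            rw [e]
            exact inv_mem hkN
          have hcj : cj (g⁻¹ * k⁻¹ * g) (cj g A) = cj g A' := by
            rw [← cj_mul, hA', ← cj_mul]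
            congr 1
            group
          have c' : Dec (Tame P) (cj (g⁻¹ * k⁻¹ * g) (cj g A)) (g⁻¹ * (k * h)) := by
            rw [hcj]; exact c
          have hfin := Dec.cons (𝓕 := Tame P) E (g⁻¹ * k⁻¹ * g) hTame hAE hx c'
          have e3 : g⁻¹ * k⁻¹ * g * (g⁻¹ * (k * h)) = g⁻¹ * h := by group
          rwa [e3] at hfin
      exact (c1.trans c2).trans c3

theorem dec_tame (P : Sylow p G) (A : Set G) (g : G) (hA : A ⊆ (P : Set G))
    (hAg : (fun a => g⁻¹ * a * g) '' A ⊆ (P : Set G)) : Dec (Tame P) A g := by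
  have h1 : A ⊆ (((P : Subgroup G) ⊓ ((g • P : Sylow p G) : Subgroup G) : Subgroup G) : Set G) := by
    intro a ha
    refine Subgroup.mem_inf.2 ⟨hA ha, ?_⟩
    rw [mem_smul_iff]
    exact hAg ⟨a, ha, rfl⟩
  have := conn P P (g • P) A h1 1 g (one_smul _ _).symm rfl
  simpa using this

/-- The Alperin fusion Theorem states that conjugation between subsets of a Sylow p-subgroup P factors through normalizers of tame intersections P ∩ Q_i with other Sylow p-subgroups, carrying the subset along step by step. -/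
theorem result {G : Type*} [Group G] [Finite G] {p : ℕ} [Fact p.Prime] (P : Sylow p G) (A : Set G) (g : G) (hA : A ⊆ (P : Set G)) (hAg : (fun a => g⁻¹ * a * g) '' A ⊆ (P : Set G)) : ∃ (n : ℕ) (Q : Fin n → Sylow p G) (x : Fin n → G), (List.ofFn x).prod = g ∧ (∀ i : Fin n, x i ∈ Subgroup.normalizer ((((P : Subgroup G) ⊓ (Q i : Subgroup G)) : Subgroup G) : Set G) ∧ ¬ p ∣ ((P : Subgroup G) ⊓ Subgroup.normalizer ((((P : Subgroup G) ⊓ (Q i : Subgroup G)) : Subgroup G) : Set G)).relIndex (Subgroup.normalizer ((((P : Subgroup G) ⊓ (Q i : Subgroup G)) : Subgroup G) : Set G)) ∧ ¬ p ∣ ((Q i : Subgroup G) ⊓ Subgroup.normalizer ((((P : Subgroup G) ⊓ (Q i : Subgroup G)) : Subgroup G) : Set G)).relIndex (Subgroup.normalizer ((((P : Subgroup G) ⊓ (Q i : Subgroup G)) : Subgroup G) : Set G))) ∧ (∀ h : 0 < n, A ⊆ (((P : Subgroup G) ⊓ (Q ⟨0, h⟩ : Subgroup G) : Subgroup G) : Set G)) ∧ ∀ i : Fin n, ∀ h : i.val + 1 < n, (fun a => (((List.ofFn x).take (i.val + 1)).prod)⁻¹ * a * ((List.ofFn x).take (i.val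 + 1)).prod) '' A ⊆ (((P : Subgroup G) ⊓ (Q ⟨i.val + 1, h⟩ : Subgroup G) : Subgroup G) : Set G) := by
  classical
  obtain ⟨n, T, x, hprod, hT, hx, h0, hs⟩ := (dec_tame P A g hA hAg).exists_list
  choose Q hQ h1 h2 using hT
  refine ⟨n, Q, x, hprod, ?_, ?_, ?_⟩
  · intro i
    have e := hQ i
    refine ⟨?_, ?_, ?_⟩
    · rw [← e]; exact hx i
    · have := h1 i
      rw [e] at this
      exact this
    · have := h2 i
      rw [e] at this
      exact this
  · intro h
    have := h0 h
    rw [hQ] at this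
    exact this
  · intro i h
    have := hs i h
    rw [hQ] at this
    exact this

end Cfsg.Agent.S0116
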