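import Mathlib
import Cfsg.Agent.Lib.CoprimeAut
import Cfsg.Agent.S0093
import Cfsg.Statements.S0119

set_option autoImplicit false
open Cfsg

namespace Cfsg.Agent.S0119

open scoped commutatorElement

/-- If a p'-group A of automorphisms of a p-group G satisfies G = [G, A] and acts trivially on every characteristic abelian subgroup, then G is special with centre equal to the fixed points of A. -/
theorem result {G : Type*} [Group G] [Finite G] {p : ℕ} [Fact p.Prime] (hG : IsPGroup p G) (A : Subgroup (MulAut G)) (hA : Nat.Coprime (Nat.card A) p) (hGA : Subgroup.closure {x : G | ∃ g : G, ∃ a ∈ A, x = g⁻¹ * a g} = ⊤) (hchar : ∀ H : Subgroup G, H.Characteristic → IsMulCommutative H → ∀ a ∈ A, ∀ h ∈ H, a h = h) : Cfsg.IsSpecial p G ∧ (∀ g : G, (g ∈ Subgroup.center G ↔ ∀ a ∈ A, a g = g)) := by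
  classical
  have hpp : p.Prime := Fact.out
  obtain ⟨H, hc, h1, h2, h3⟩ := Cfsg.Agent.S0093.result hG
  haveI := hc
  set X : Subgroup G := Subgroup.centralizer (H : Set G) with hX
  set Z : Subgroup G := H ⊓ X with hZ
  haveI hZc : Z.Characteristic := inferInstance
  -- `A` is trivial on `Z`
  have hAZ : ∀ a ∈ A, ∀ z ∈ Z, a z = z := by
    apply hchar Z hZc
    refine ⟨⟨fun u v => Subtype.ext ?_⟩⟩
    exact Subgroup.mem_centralizer_iff.1 v.2.2 u u.2.1
  have hAC : ∀ a ∈ A, ∀ z ∈ Subgroup.center G, a z = z := by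
    apply hchar (Subgroup.center G) inferInstance
    refine ⟨⟨fun u v => Subtype.ext ?_⟩⟩
    exact (Subgroup.mem_center_iff.1 u.2 v).symm
  -- fixed points of `H` are central
  have hFixH : ∀ k ∈ H, (∀ a ∈ A, a k = k) → k ∈ Subgroup.center G := by
    intro k hk hfix
    have hgen : Subgroup.closure {x : G | ∃ g : G, ∃ a ∈ A, x = g⁻¹ * a g} ≤ Subgroup.centralizer ({k} : Set G) := by
      rw [Subgroup.closure_le]
      rintro _ ⟨g, a, ha, rfl⟩
      rw [SetLike.mem_coe, Subgroup.mem_centralizer_iff]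
      intro w hw
      rw [Set.mem_singleton_iff] at hw
      rw [hw]
      have hm : ⁅k, g⁆ ∈ Z := h2 (Subgroup.commutator_mem_commutator hk (Subgroup.mem_top g))
      have h4 := hAZ a ha _ hm
      rw [map_commutatorElement, hfix a ha] at h4
      simp only [commutatorElement_def] at h4
      have h5 : a g * k⁻¹ * (a g)⁻¹ = g * k⁻¹ * g⁻¹ := by
        have : k * (a g * k⁻¹ * (a g)⁻¹) = k * (g * k⁻¹ * g⁻¹) := by
          calc k * (a g * k⁻¹ * (a g)⁻¹) = k * a g * k⁻¹ * (a g)⁻¹ := by group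
            _ = k * g * k⁻¹ * g⁻¹ := h4
            _ = _ := by group
        exact mul_left_cancel this
      have h6 : (g⁻¹ * a g) * k⁻¹ = k⁻¹ * (g⁻¹ * a g) := by
        calc (g⁻¹ * a g) * k⁻¹ = g⁻¹ * (a g * k⁻¹ * (a g)⁻¹) * a g := by group
          _ = g⁻¹ * (g * k⁻¹ * g⁻¹) * a g := by rw [h5]
          _ = _ := by group
      have h7 : k * (g⁻¹ * a g) = (g⁻¹ * a g) * k := by
        calc k * (g⁻¹ * a g) = k * ((g⁻¹ * a g) * k⁻¹) * k := by group
          _ = k * (k⁻¹ * (g⁻¹ * a g)) * k := by rw [h6]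
          _ = _ := by group
      exact h7
    rw [hGA] at hgen
    rw [Subgroup.mem_center_iff]
    intro g
    have := Subgroup.mem_centralizer_iff.1 (hgen (Subgroup.mem_top g)) k rfl
    exact this.symm
  have hcenH : Subgroup.center G ≤ H := fun z hz =>
    h3 (Subgroup.mem_centralizer_iff.2 fun u _ => (Subgroup.mem_center_iff.1 hz u))
  have hZcen : Z ≤ Subgroup.center G := fun z hz =>
    hFixH z hz.1 (fun a ha => hAZ a ha z hz)
  have hXcen : X ≤ Subgroup.center G := fun u hu => hZcen ⟨h3 hu, hu⟩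
  have hcommut : ∀ (g : G), ∀ h ∈ H, ⁅g, h⁆ ∈ Subgroup.center G := by
    intro g h hh
    have e : ⁅g, h⁆ = (⁅h, g⁆)⁻¹ := by
      simp only [commutatorElement_def]; group
    rw [e]
    exact inv_mem (hZcen (h2 (Subgroup.commutator_mem_commutator hh (Subgroup.mem_top g))))
  -- all elements fixed by `A` are central
  have hFix : ∀ g : G, (∀ a ∈ A, a g = g) → g ∈ Subgroup.center G := by
    intro g hg
    have hinv : ∀ a ∈ A, ∀ h ∈ H, a h ∈ H := by
      intro a ha h hh
      exact Subgroup.characteristic_iff_le_comap.1 hc a hh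
    have hle : H ≤ Subgroup.centralizer ({g} : Set G) := by
      apply Cfsg.Agent.Lib.CoprimeAut.le_of_commutators_and_fixed hG A hA H hinv
      · intro h hh a ha
        rw [Subgroup.mem_centralizer_iff]
        intro w' hw'
        rw [Set.mem_singleton_iff] at hw'
        rw [hw']
        have hw := hcommut g h hh
        have hcom : ⁅g, (a h)⁆ = ⁅g, h⁆ := by
          have := hAC a ha _ hw
          rwa [map_commutatorElement, hg a ha] at this
        set w := ⁅g, h⁆ with hwdef
        have e1 : g * h * g⁻¹ = w * h := by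
          rw [hwdef, commutatorElement_def]; group
        have e2 : g * (a h) * g⁻¹ = w * (a h) := by
          rw [← hcom, commutatorElement_def]; group
        have hwc := Subgroup.mem_center_iff.1 hw
        have e3 : g * (h * (a h)⁻¹) * g⁻¹ = h * (a h)⁻¹ := by
          calc g * (h * (a h)⁻¹) * g⁻¹ = (g * h * g⁻¹) * (g * (a h) * g⁻¹)⁻¹ := by group
            _ = (w * h) * (w * (a h))⁻¹ := by rw [e1, e2]
            _ = w * (h * (a h)⁻¹) * w⁻¹ := by group
            _ = (h * (a h)⁻¹) * w * w⁻¹ := by rw [hwc (h * (a h)⁻¹)]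
            _ = _ := by group
        calc g * (h * (a h)⁻¹) = (g * (h * (a h)⁻¹) * g⁻¹) * g := by group
          _ = _ := by rw [e3]
      · intro h hh hfix
        rw [Subgroup.mem_centralizer_iff]
        intro w' hw'
        rw [Set.mem_singleton_iff] at hw'
        rw [hw']
        exact (Subgroup.mem_center_iff.1 (hFixH h hh hfix) g)
    apply hXcen
    rw [hX, Subgroup.mem_centralizer_iff]
    intro h hh
    have := Subgroup.mem_centralizer_iff.1 (hle hh) g rfl
    exact this.symm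
  refine ⟨?_, fun g => ⟨fun hg a ha => hAC a ha g hg, hFix g⟩⟩
  -- the quotient by the centre
  have hρ : ∀ h ∈ H, ∀ x y : G, ⁅x * y, h⁆ = ⁅x, h⁆ * ⁅y, h⁆ := by
    intro h hh x y
    have hy := hcommut y h hh
    have e : ⁅x * y, h⁆ = x * ⁅y, h⁆ * x⁻¹ * ⁅x, h⁆ := by
      simp only [commutatorElement_def]; group
    rw [e, (Subgroup.mem_center_iff.1 hy x)]
    have : ⁅y, h⁆ * x * x⁻¹ * ⁅x, h⁆ = ⁅y, h⁆ * ⁅x, h⁆ := by group
    rw [this]
    exact (Subgroup.mem_center_iff.1 hy _).symm
  have hpowc : ∀ h ∈ H, ∀ x : G, ∀ n : ℕ, ⁅x ^ n, h⁆ = ⁅x, h⁆ ^ n := by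
    intro h hh x n
    induction n with
    | zero => simp
    | succ n ih =>
      rw [pow_succ, hρ h hh, ih, pow_succ]
  have hcomm2 : ∀ h ∈ H, ∀ (x : G) (n : ℕ), ⁅x, h ^ n⁆ = ⁅x, h⁆ ^ n := by
    intro h hh x n
    induction n with
    | zero => simp
    | succ n ih =>
      have hw := hcommut x h hh
      have e : ⁅x, h ^ (n + 1)⁆ = ⁅x, h ^ n⁆ * (h ^ n * ⁅x, h⁆ * (h ^ n)⁻¹) := by
        simp only [commutatorElement_def]
        rw [pow_succ]
        group
      rw [e, ih, (Subgroup.mem_center_iff.1 hw (h ^ n)), pow_succ, mul_inv_cancel_right]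
  have hcomm3 : ∀ x y : G, ∀ h ∈ H, ⁅⁅x, y⁆, h⁆ = 1 := by
    intro x y h hh
    have hx := hcommut x h hh
    have hy := hcommut y h hh
    have hinv : ∀ u : G, ⁅u⁻¹, h⁆ = (⁅u, h⁆)⁻¹ := by
      intro u
      have h0 := hρ h hh u u⁻¹
      rw [mul_inv_cancel, commutatorElement_one_left] at h0
      exact (eq_inv_of_mul_eq_one_right h0.symm)
    rw [commutatorElement_def x y, hρ h hh, hρ h hh, hρ h hh, hinv, hinv]
    have hcx := Subgroup.mem_center_iff.1 hx
    rw [(hcx ⁅y, h⁆).symm]
    group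
  have hX2 : ∀ u : G, (∀ h ∈ H, ⁅u, h⁆ = 1) → u ∈ Subgroup.center G := by
    intro u hu
    apply hXcen
    rw [hX, Subgroup.mem_centralizer_iff]
    intro h hh
    exact (commutatorElement_eq_one_iff_mul_comm.1 (hu h hh)).symm
  have hcommle : commutator G ≤ Subgroup.center G := by
    rw [commutator_def, Subgroup.commutator_le]
    intro x _ y _
    exact hX2 _ (fun h hh => hcomm3 x y h hh)
  have hpowle : ∀ x : G, x ^ p ∈ Subgroup.center G := by
    intro x
    apply hX2
    intro h hh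
    rw [hpowc h hh, ← hcomm2 h hh]
    apply commutatorElement_eq_one_iff_mul_comm.2
    have h4 : h ^ p ∈ Z := by
      refine ⟨pow_mem hh _, ?_⟩
      apply h1
      refine ⟨(⟨h, hh⟩ : H) ^ p, Cfsg.Agent.Lib.Frat.pow_mem_frattini (hG.to_subgroup H) _, ?_⟩
      simp
    exact (Subgroup.mem_center_iff.1 (hZcen h4) x)
  have hfr : frattini G ≤ Subgroup.center G :=
    Cfsg.Agent.Lib.Frat.frattini_le_of_commutator_pow (p := p) _ hcommle hpowle
  have hcenc : Subgroup.center G ≤ commutator G := fun z hz =>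
    Cfsg.Agent.Lib.CoprimeAut.fixed_mem_commutator hG A hA hGA z (fun a ha => hAC a ha z hz)
  have hcf := Cfsg.Agent.Lib.Frat.commutator_le_frattini hG
  exact ⟨hG, le_antisymm hfr (hcenc.trans hcf), le_antisymm hcommle hcenc⟩

end Cfsg.Agent.S0119
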