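import Mathlib
import Cfsg.Agent.Lib.OddLocalA
import Cfsg.Statements.S0120

set_option autoImplicit false
open Cfsg

namespace Cfsg.Agent.S0120



/-- For odd p, a p'-automorphism of a p-group acting trivially on the elements of order dividing p is trivial. -/
theorem result {G : Type*} [Group G] [Finite G] {p : ℕ} [Fact p.Prime] (hp : p ≠ 2) (hG : IsPGroup p G) (a : MulAut G) (ha : Nat.Coprime (orderOf a) p) (h : ∀ x : G, x ^ p = 1 → a x = x) : a = 1 := by
  classical
  haveI : Finite (MulAut G) := inferInstance
  let S := SemidirectProduct G (MulAut G) (MonoidHom.id _)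
  haveI : Finite S := Finite.of_equiv _ SemidirectProduct.equivProd.symm
  let b : S := SemidirectProduct.inr a
  have hb : orderOf b = orderOf a := orderOf_injective SemidirectProduct.inr SemidirectProduct.inr_injective a
  let P : Subgroup S := (SemidirectProduct.inl : G →* S).range
  have hconj : ∀ g : G, b * (SemidirectProduct.inl g : S) = SemidirectProduct.inl (a g) * b := by
    intro g
    have := SemidirectProduct.inl_aut (φ := MonoidHom.id (MulAut G)) a g
    simp only [MonoidHom.id_apply] at this
    rw [this]
    simp [b, map_inv, mul_assoc]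
  have hP : IsPGroup p P := by
    rintro ⟨x, g, rfl⟩
    obtain ⟨k, hk⟩ := hG g
    refine ⟨k, ?_⟩
    apply Subtype.ext
    simp [← map_pow, hk]
  have key := Cfsg.Agent.Lib.OddLocalA.thompson_omega hp b (by rw [hb]; exact ha) P hP
    (by
      rintro _ ⟨g, rfl⟩
      refine ⟨a g, ?_⟩
      show SemidirectProduct.inl (a g) = b * SemidirectProduct.inl g * b⁻¹
      rw [hconj, mul_inv_cancel_right])
    (by
      rintro _ ⟨g, rfl⟩ hg
      have hg' : g ^ p = 1 := by
        apply SemidirectProduct.inl_injective (φ := MonoidHom.id (MulAut G))
        simpa using hg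
      show b * _ = _ * b
      rw [hconj, h g hg'])
  ext g
  have := key _ ⟨g, rfl⟩
  rw [hconj] at this
  have h2 := mul_right_cancel this
  simpa using SemidirectProduct.inl_injective h2

end Cfsg.Agent.S0120
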