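import Mathlib
import Cfsg.Agent.S0130
import Cfsg.Agent.Lib.NormalKlein
import Cfsg.Agent.Lib.ExtraBasics
import Cfsg.Agent.Lib.SuperSolv2
import Cfsg.Agent.Lib.ClassTwo
import Cfsg.Agent.Lib.PGrp
import Cfsg.Agent.Lib.PResid
import Cfsg.Agent.Lib.Replacement
import Cfsg.Statements.S0122

set_option autoImplicit false
open Cfsg

namespace Cfsg.Agent.S0122

open scoped commutatorElement

universe u

section helpers

variable {G : Type u} [Group G] [Finite G] {p : ℕ} [hp : Fact p.Prime]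

omit hp in
/-- The commutator map bound. -/
theorem card_le_of_comm (F T : Subgroup G) (a : G) (h1 : ∀ f ∈ F, ⁅a, f⁆ ∈ T)
    (h2 : ∀ f ∈ F, ∀ t ∈ T, f * t = t * f) :
    Nat.card F ≤ Nat.card (F ⊓ Subgroup.centralizer ({a} : Set G) : Subgroup G) * Nat.card T := by
  classical
  let τ : F →* T :=
    { toFun := fun f => ⟨⁅a, (f : G)⁆, h1 f f.2⟩
      map_one' := Subtype.ext (commutatorElement_one_right a)
      map_mul' := fun f f' => by
        apply Subtype.ext
        show ⁅a, (f : G) * (f' : G)⁆ = ⁅a, (f : G)⁆ * ⁅a, (f' : G)⁆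
        have e : ⁅a, (f : G) * (f' : G)⁆ = ⁅a, (f : G)⁆ * ((f : G) * ⁅a, (f' : G)⁆ * (f : G)⁻¹) := by
          simp only [commutatorElement_def]
          group
        rw [e, h2 f f.2 _ (h1 f' f'.2)]
        group }
  have hk : Nat.card τ.ker ≤ Nat.card (F ⊓ Subgroup.centralizer ({a} : Set G) : Subgroup G) := by
    refine Nat.card_le_card_of_injective
      (fun k => (⟨k.1.1, k.1.2, ?_⟩ : (F ⊓ Subgroup.centralizer ({a} : Set G) : Subgroup G))) ?_
    · have h3 : ⁅a, (k.1 : G)⁆ = 1 := congrArg Subtype.val k.2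
      rw [commutatorElement_eq_one_iff_mul_comm] at h3
      exact Subgroup.mem_centralizer_singleton_iff.2 h3.symm
    · intro k k' h
      have h' := Subtype.ext_iff.1 h
      exact Subtype.ext (Subtype.ext h')
  have hr : Nat.card τ.range ≤ Nat.card T := Subgroup.card_le_card_group _
  have h := Subgroup.card_mul_index τ.ker
  rw [Subgroup.index_ker] at h
  rw [← h]
  exact Nat.mul_le_mul hk hr

/-- Normal sections of order `p` of a `p`-group are central. -/
theorem comm_mem_of_card (hG : IsPGroup p G) (M N : Subgroup G) [M.Normal] [N.Normal] (hNM : N ≤ M)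
    (hc : Nat.card M = p * Nat.card N) {m : G} (hm : m ∈ M) (g : G) : ⁅m, g⁆ ∈ N := by
  let q := QuotientGroup.mk' N
  let M' : Subgroup (G ⧸ N) := M.map q
  have hc' : Nat.card M' = p := by
    have h3 := Cfsg.Agent.Lib.SuperSolv2.card_map_mk_of_le N M hNM
    rw [hc] at h3
    exact Nat.eq_of_mul_eq_mul_right Nat.card_pos h3
  haveI : M'.Normal := Subgroup.Normal.map inferInstance q (QuotientGroup.mk'_surjective N)
  have hle := Cfsg.Agent.Lib.ExtraBasics.le_center_of_normal_of_card (hG.to_quotient N) M' hc'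
  have hz : q m ∈ Subgroup.center (G ⧸ N) := hle ⟨m, hm, rfl⟩
  have h1 : q (⁅m, g⁆) = 1 := by
    rw [commutatorElement_def, map_mul, map_mul, map_mul, map_inv, map_inv]
    have := Subgroup.mem_center_iff.1 hz (q g)
    rw [← this]
    group
  exact (QuotientGroup.eq_one_iff _).1 h1

omit hp in
theorem commutes_of_index {p : ℕ} (hpp : p.Prime) (A₁ V : Subgroup G) (hle : A₁ ≤ V) (hc : Nat.card V = p * Nat.card A₁) {a d : G}
    (ha : a ∈ V) (ha' : a ∉ A₁) (h1 : ∀ t ∈ A₁, d * t = t * d) (h2 : d * a = a * d) :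
    ∀ v ∈ V, d * v = v * d := by
  set X : Subgroup G := V ⊓ Subgroup.centralizer ({d} : Set G) with hX
  have hA₁X : A₁ ≤ X := fun t ht => ⟨hle ht, Subgroup.mem_centralizer_singleton_iff.2 (h1 t ht).symm⟩
  have haX : a ∈ X := ⟨ha, Subgroup.mem_centralizer_singleton_iff.2 h2.symm⟩
  have hXV : X ≤ V := inf_le_left
  have h3 : A₁.relIndex X * X.relIndex V = A₁.relIndex V := Subgroup.relIndex_mul_relIndex A₁ X V hA₁X hXV
  have h4 : A₁.relIndex V * Nat.card A₁ = Nat.card V := Cfsg.Agent.Lib.ExtraBasics.relIndex_mul_card hle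
  have h5 : A₁.relIndex V = p := by
    rw [hc] at h4
    exact Nat.eq_of_mul_eq_mul_right Nat.card_pos h4
  rw [h5] at h3
  have hVX : V ≤ X := by
    rcases (Nat.dvd_prime hpp).1 (Dvd.intro _ h3) with h6 | h6
    · exfalso
      have : X ≤ A₁ := (Subgroup.relIndex_eq_one).1 h6
      exact ha' (this haX)
    · have h7 : X.relIndex V = 1 := by
        rw [h6] at h3
        exact Nat.eq_of_mul_eq_mul_left hpp.pos (by rw [h3, mul_one])
      exact (Subgroup.relIndex_eq_one).1 h7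
  intro v hv
  have h8 : v ∈ Subgroup.centralizer ({d} : Set G) := (hVX hv).2
  exact (Subgroup.mem_centralizer_singleton_iff.1 h8).symm

theorem card_le_centralizer (hG : IsPGroup p G) (F N : Subgroup G) [N.Normal] (hN : Nat.card N = p ^ 2) :
    Nat.card F ≤ Nat.card (F ⊓ Subgroup.centralizer (N : Set G) : Subgroup G) * p := by
  obtain ⟨A₁, hA₁le, hA₁n, hA₁c⟩ := Cfsg.Agent.Lib.NormalKlein.exists_normal_le_of_dvd (p := p) 1 G hG N inferInstance
    (by rw [hN]; exact pow_dvd_pow p (by norm_num))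
  rw [pow_one] at hA₁c
  haveI := hA₁n
  have hcen := Cfsg.Agent.Lib.ExtraBasics.le_center_of_normal_of_card hG A₁ hA₁c
  have hcc : Nat.card N = p * Nat.card A₁ := by rw [hN, hA₁c, pow_two]
  have hex : ∃ a ∈ N, a ∉ A₁ := by
    by_contra hno
    push Not at hno
    have h1 : Nat.card N ≤ Nat.card A₁ := Subgroup.card_le_of_le hno
    rw [hN, hA₁c] at h1
    have := hp.out.two_le
    nlinarith
  obtain ⟨a, ha, ha'⟩ := hex
  have h1 := card_le_of_comm F A₁ a (fun f _ => comm_mem_of_card hG N A₁ hA₁le hcc ha f)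
    (fun f _ t ht => Subgroup.mem_center_iff.1 (hcen ht) f)
  rw [hA₁c] at h1
  refine le_trans h1 (Nat.mul_le_mul_right _ (Subgroup.card_le_of_le ?_))
  rintro f ⟨hfF, hfC⟩
  refine ⟨hfF, Subgroup.mem_centralizer_iff.2 ?_⟩
  intro v hv
  have h2 := commutes_of_index (p := p) hp.out A₁ N hA₁le hcc ha ha'
    (d := f) (fun t ht => Subgroup.mem_center_iff.1 (hcen ht) f)
    (Subgroup.mem_centralizer_singleton_iff.1 hfC) v hv
  exact h2.symm

omit [Finite G] hp in
theorem exists_mul_of_le_normalizer (H K : Subgroup G) (h : K ≤ Subgroup.normalizer (H : Set G))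
    {y : G} (hy : y ∈ H ⊔ K) : ∃ a ∈ H, ∃ b ∈ K, y = a * b := by
  rw [Subgroup.sup_eq_closure] at hy
  induction hy using Subgroup.closure_induction with
  | mem y hy =>
    rcases hy with hy | hy
    · exact ⟨y, hy, 1, K.one_mem, by simp⟩
    · exact ⟨1, H.one_mem, y, hy, by simp⟩
  | one => exact ⟨1, H.one_mem, 1, K.one_mem, by simp⟩
  | mul x y _ _ ihx ihy =>
    obtain ⟨a, ha, b, hb, rfl⟩ := ihx
    obtain ⟨a', ha', b', hb', rfl⟩ := ihy
    refine ⟨a * (b * a' * b⁻¹), H.mul_mem ha ((Subgroup.mem_normalizer_iff.1 (h hb) a').1 ha'),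
      b * b', K.mul_mem hb hb', by group⟩
  | inv x _ ihx =>
    obtain ⟨a, ha, b, hb, rfl⟩ := ihx
    refine ⟨b⁻¹ * a⁻¹ * b⁻¹⁻¹, (Subgroup.mem_normalizer_iff.1 (h (K.inv_mem hb)) _).1 (H.inv_mem ha),
      b⁻¹, K.inv_mem hb, by group⟩

end helpers

/-- For odd p, a p-group containing an elementary abelian subgroup of order p^4 has a normal elementary abelian subgroup of order p^4. -/
theorem result {G : Type*} [Group G] [Finite G] {p : ℕ} [Fact p.Prime] (hp : p ≠ 2) (hG : IsPGroup p G) (E : Subgroup G) (hE : Cfsg.IsElementaryAbelian p E) (hE4 : Nat.card E = p ^ 4) : ∃ A : Subgroup G, A.Normal ∧ Cfsg.IsElementaryAbelian p A ∧ Nat.card A = p ^ 4 := by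
  classical
  obtain ⟨hEc', hEp⟩ := hE
  have hEc : ∀ a ∈ E, ∀ b ∈ E, a * b = b * a := fun a ha b hb =>
    congrArg (fun t : E => (t : G)) (hEc'.is_comm.comm ⟨a, ha⟩ ⟨b, hb⟩)
  -- a maximal normal elementary abelian subgroup
  obtain ⟨A, hAn, hAe, hAmax⟩ : ∃ A : Subgroup G, A.Normal ∧ Cfsg.IsElementaryAbelian p A ∧
      ∀ B : Subgroup G, B.Normal → Cfsg.IsElementaryAbelian p B → A ≤ B → B = A := by
    let S := {B : Subgroup G // B.Normal ∧ Cfsg.IsElementaryAbelian p B}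
    haveI : Nonempty S := ⟨⟨⊥, inferInstance, ⟨⟨fun a b => Subsingleton.elim _ _⟩⟩, by
      intro a ha
      rw [Subgroup.mem_bot] at ha
      rw [ha, one_pow]⟩⟩
    obtain ⟨A, hA⟩ := Finite.exists_max (fun B : S => Nat.card (B : Subgroup G))
    refine ⟨A.1, A.2.1, A.2.2, fun B hB hBe hle => ?_⟩
    exact (Subgroup.eq_of_le_of_card_ge hle (hA ⟨B, hB, hBe⟩)).symm
  haveI := hAn
  have hS : ∀ x ∈ Subgroup.centralizer (A : Set G), x ^ p = 1 → x ∈ A := by
    intro x hx hxp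
    refine Cfsg.Agent.S0130.result hG 1 (by simpa using hp) A hAe.1 (by simpa using hAe.2)
      (fun B hB hBc hBe hAB => hAmax B hB ⟨hBc, by simpa using hBe⟩ hAB) x hx (by simpa using hxp)
  have hAc : ∀ a ∈ A, ∀ b ∈ A, a * b = b * a := fun a ha b hb =>
    congrArg (fun t : A => (t : G)) (hAe.1.is_comm.comm ⟨a, ha⟩ ⟨b, hb⟩)
  obtain ⟨r, hr⟩ := (hG.to_subgroup A).exists_card_eq
  have hpp : p.Prime := Fact.out
  have hppos : 0 < p := hpp.pos
  have hp2 : 2 ≤ p := hpp.two_le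
  by_cases hr4 : 4 ≤ r
  · obtain ⟨A', hle, hn, hc⟩ := Cfsg.Agent.Lib.NormalKlein.exists_normal_le_of_dvd (p := p) 4 G hG A hAn
      (by rw [hr]; exact pow_dvd_pow p hr4)
    refine ⟨A', hn, ⟨⟨⟨?_⟩⟩, fun a ha => hAe.2 a (hle ha)⟩, hc⟩
    rintro ⟨a, ha⟩ ⟨b, hb⟩
    exact Subtype.ext (hAc a (hle ha) b (hle hb))
  push Not at hr4
  -- `A` has order `p ^ 3`
  have hcardE : ∀ {F : Subgroup G}, F ≤ Subgroup.centralizer (A : Set G) → (∀ a ∈ F, a ^ p = 1) →
      F ≤ A := fun hF hFp a ha => hS a (hF ha) (hFp a ha)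
  have hr3 : r = 3 := by
    by_contra hne
    have hrle : r ≤ 2 := by omega
    have hbig : p ^ 3 < p ^ 4 := Nat.pow_lt_pow_right hpp.one_lt (by norm_num)
    have hr012 : r = 0 ∨ r = 1 ∨ r = 2 := by omega
    rcases hr012 with rfl | rfl | rfl
    · have hbot : A = ⊥ := Subgroup.eq_bot_of_card_eq _ (by simpa using hr)
      have h1 : E ≤ A := hcardE (by
        intro a _
        rw [hbot, Subgroup.mem_centralizer_iff]
        intro h hh
        have : h = 1 := hh
        rw [this]; group) hEp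
      have h2 := Subgroup.card_le_of_le h1
      rw [hE4, hr, pow_zero] at h2
      have : 1 < p ^ 4 := Nat.one_lt_pow (by norm_num) hpp.one_lt
      omega
    · have hcen := Cfsg.Agent.Lib.ExtraBasics.le_center_of_normal_of_card hG A (by simpa using hr)
      have h1 : E ≤ A := hcardE (by
        intro a _
        rw [Subgroup.mem_centralizer_iff]
        intro h hh
        exact (Subgroup.mem_center_iff.1 (hcen hh) a).symm) hEp
      have h2 := Subgroup.card_le_of_le h1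
      rw [hE4, hr, pow_one] at h2
      have : p ^ 1 < p ^ 4 := Nat.pow_lt_pow_right hpp.one_lt (by norm_num)
      rw [pow_one] at this
      omega
    · have h1 := card_le_centralizer hG E A hr
      have h2 : E ⊓ Subgroup.centralizer (A : Set G) ≤ A := hcardE inf_le_right (fun a ha => hEp a ha.1)
      have h3 := Subgroup.card_le_of_le h2
      rw [hr] at h3
      rw [hE4] at h1
      have h4 : p ^ 4 ≤ p ^ 2 * p := h1.trans (Nat.mul_le_mul_right _ h3)
      have h5 : p ^ 2 * p = p ^ 3 := by ring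
      omega
  subst hr3
  have h34 : p ^ 3 < p ^ 4 := Nat.pow_lt_pow_right hpp.one_lt (by norm_num)
  have h45 : p ^ 4 < p ^ 5 := Nat.pow_lt_pow_right hpp.one_lt (by norm_num)
  obtain ⟨V, hVA, hVn, hVc⟩ := Cfsg.Agent.Lib.NormalKlein.exists_normal_le_of_dvd (p := p) 2 G hG A hAn
    (by rw [hr]; exact pow_dvd_pow p (by norm_num))
  haveI := hVn
  have hAV : Nat.card A = p * Nat.card V := by rw [hr, hVc]; ring
  -- replacement
  set F₀ : Subgroup G := E ⊓ Subgroup.centralizer (V : Set G) with hF₀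
  have hF₀c : p ^ 3 ≤ Nat.card F₀ := by
    have h1 := card_le_centralizer hG E V hVc
    rw [hE4] at h1
    have h2 : p ^ 3 * p ≤ Nat.card F₀ * p := by
      calc p ^ 3 * p = p ^ 4 := by ring
        _ ≤ _ := h1
    exact Nat.le_of_mul_le_mul_right h2 hppos
  set E' : Subgroup G := V ⊔ F₀ with hE'
  have hVc' : ∀ v ∈ V, ∀ f ∈ F₀, v * f = f * v := fun v hv f hf =>
    Subgroup.mem_centralizer_iff.1 hf.2 v hv
  have hVV : ∀ a ∈ V, ∀ b ∈ V, a * b = b * a := fun a ha b hb => hAc a (hVA ha) b (hVA hb)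
  have hE'c : ∀ a ∈ E', ∀ b ∈ E', a * b = b * a := by
    intro a ha b hb
    obtain ⟨v, hv, f, hf, rfl⟩ := Cfsg.Agent.Lib.PGrp.exists_mul_of_mem_sup ha
    obtain ⟨v', hv', f', hf', rfl⟩ := Cfsg.Agent.Lib.PGrp.exists_mul_of_mem_sup hb
    calc v * f * (v' * f') = v * (f * v') * f' := by group
      _ = v * (v' * f) * f' := by rw [hVc' v' hv' f hf]
      _ = (v * v') * (f * f') := by group
      _ = (v' * v) * (f' * f) := by rw [hVV v hv v' hv', hEc f hf.1 f' hf'.1]
      _ = v' * (v * f') * f := by group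
      _ = v' * (f' * v) * f := by rw [hVc' v hv f' hf']
      _ = v' * f' * (v * f) := by group
  have hE'p : ∀ a ∈ E', a ^ p = 1 := by
    intro a ha
    obtain ⟨v, hv, f, hf, rfl⟩ := Cfsg.Agent.Lib.PGrp.exists_mul_of_mem_sup ha
    have hcomm : Commute v f := hVc' v hv f hf
    rw [hcomm.mul_pow, hAe.2 v (hVA hv), hEp f hf.1, one_mul]
  obtain ⟨k, hk⟩ := (hG.to_subgroup E').exists_card_eq
  have hk4 : 4 ≤ k := by
    by_cases hVE : V ≤ E
    · have hEE' : E ≤ E' := by
        intro e he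
        exact Subgroup.mem_sup_right ⟨he, Subgroup.mem_centralizer_iff.2 (fun h hh => hEc h (hVE hh) e he)⟩
      have h1 := Subgroup.card_le_of_le hEE'
      rw [hE4, hk] at h1
      exact (Nat.pow_le_pow_iff_right hpp.one_lt).1 h1
    · have hlt : F₀ < E' := by
        refine lt_of_le_of_ne le_sup_right ?_
        intro h
        apply hVE
        have : V ≤ F₀ := by rw [h]; exact le_sup_left
        exact this.trans inf_le_left
      have h1 : Nat.card F₀ < Nat.card E' := Set.ncard_lt_ncard hlt (Set.toFinite _)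
      rw [hk] at h1
      have h2 : p ^ 3 < p ^ k := lt_of_le_of_lt hF₀c h1
      have := (Nat.pow_lt_pow_iff_right hpp.one_lt).1 h2
      omega
  have hVsub : Nat.card (V.subgroupOf E') = p ^ 2 := by
    rw [← hVc]
    exact Nat.card_congr (Subgroup.subgroupOfEquivOfLe le_sup_left).toEquiv
  obtain ⟨K, hKc, hKle⟩ := Sylow.exists_subgroup_card_pow_prime_le p (G := E') (n := 2) (m := 4)
    (by rw [hk]; exact pow_dvd_pow p hk4) (V.subgroupOf E') hVsub (by norm_num)
  set E₁ : Subgroup G := K.map E'.subtype with hE₁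
  have hE₁E' : E₁ ≤ E' := Subgroup.map_subtype_le _
  have hE₁c : Nat.card E₁ = p ^ 4 := by
    rw [hE₁, Subgroup.card_map_of_injective E'.subtype_injective, hKc]
  have hVE₁ : V ≤ E₁ := fun v hv =>
    ⟨⟨v, (le_sup_left : V ≤ E') hv⟩, hKle (Subgroup.mem_subgroupOf.2 hv), rfl⟩
  have hE₁ab : ∀ a ∈ E₁, ∀ b ∈ E₁, a * b = b * a := fun a ha b hb => hE'c a (hE₁E' ha) b (hE₁E' hb)
  have hE₁p : ∀ a ∈ E₁, a ^ p = 1 := fun a ha => hE'p a (hE₁E' ha)
  have hcomA : ∀ d : G, (∀ v ∈ V, d * v = v * d) → ∀ a ∈ A, a ∉ V → d * a = a * d → d ^ p = 1 → d ∈ A := by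
    intro d h1 a ha ha' h2 h3
    apply hS d _ h3
    rw [Subgroup.mem_centralizer_iff]
    intro w hw
    exact (commutes_of_index hpp V A hVA hAV ha ha' h1 h2 w hw).symm
  have hE₁V : ∀ d ∈ E₁, ∀ v ∈ V, d * v = v * d := fun d hd v hv => hE₁ab d hd v (hVE₁ hv)
  have hinf : ∀ y ∈ E₁, y ∈ A → y ∈ V := by
    intro y hy hyA
    by_contra hyV
    have h1 : E₁ ≤ A := fun d hd => hcomA d (hE₁V d hd) y hyA hyV (hE₁ab d hd y hy) (hE₁p d hd)
    have h2 := Subgroup.card_le_of_le h1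
    rw [hE₁c, hr] at h2
    omega
  have hnormal : E₁.Normal := by
    rw [← Subgroup.normalizer_eq_top_iff]
    by_contra hne
    set N₁ : Subgroup G := Subgroup.normalizer (E₁ : Set G) with hN₁
    have hlt : N₁ < ⊤ := lt_top_iff_ne_top.2 hne
    obtain ⟨g, -, hgN, hgg⟩ := Cfsg.Agent.Lib.PGrp.exists_mem_normalizer_of_lt (hG.to_subgroup ⊤) hlt
    set E₂ : Subgroup G := E₁.map (MulAut.conj g).toMonoidHom with hE₂
    have hmem₂ : ∀ y, y ∈ E₂ ↔ g⁻¹ * y * g ∈ E₁ := fun y => Cfsg.Agent.Lib.PResid.mem_conj_map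
    have hE₂c : Nat.card E₂ = p ^ 4 := by
      rw [hE₂, Subgroup.card_map_of_injective (MulAut.conj g).injective, hE₁c]
    have hE₂ab : ∀ a ∈ E₂, ∀ b ∈ E₂, a * b = b * a := by
      rintro _ ⟨a, ha, rfl⟩ _ ⟨b, hb, rfl⟩
      show g * a * g⁻¹ * (g * b * g⁻¹) = g * b * g⁻¹ * (g * a * g⁻¹)
      have e : ∀ s t : G, g * s * g⁻¹ * (g * t * g⁻¹) = g * (s * t) * g⁻¹ := fun s t => by group
      rw [e, e, hE₁ab a ha b hb]
    have hE₂p : ∀ a ∈ E₂, a ^ p = 1 := by
      rintro _ ⟨a, ha, rfl⟩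
      show (g * a * g⁻¹) ^ p = 1
      rw [conj_pow, hE₁p a ha]
      group
    have hVE₂ : V ≤ E₂ := by
      intro v hv
      rw [hmem₂]
      have := hVn.conj_mem v hv g⁻¹
      rw [inv_inv] at this
      exact hVE₁ this
    have hE₂V : ∀ d ∈ E₂, ∀ v ∈ V, d * v = v * d := fun d hd v hv => hE₂ab d hd v (hVE₂ hv)
    have hne₂ : E₂ ≠ E₁ := by
      intro h
      apply hgN
      apply Cfsg.Agent.Lib.Replacement.mem_normalizer_of_forall
      intro x hx
      rw [← h]
      exact ⟨x, hx, rfl⟩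
    have hE₂N₁ : E₂ ≤ Subgroup.normalizer (E₁ : Set G) := by
      rintro _ ⟨e, he, rfl⟩
      exact (Subgroup.mem_normalizer_iff.1 hgg e).1 (Subgroup.le_normalizer he)
    have hE₁N₂ : E₁ ≤ Subgroup.normalizer (E₂ : Set G) := by
      intro e he
      apply Cfsg.Agent.Lib.Replacement.mem_normalizer_of_forall
      intro y hy
      rw [hmem₂]
      have hn : g⁻¹ * e * g ∈ N₁ := by
        have := (Subgroup.mem_normalizer_iff.1 (inv_mem hgg) e).1 (Subgroup.le_normalizer he)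
        rwa [inv_inv] at this
      have h1 := (Subgroup.mem_normalizer_iff.1 hn _).1 ((hmem₂ y).1 hy)
      have e1 : g⁻¹ * (e * y * e⁻¹) * g = g⁻¹ * e * g * (g⁻¹ * y * g) * (g⁻¹ * e * g)⁻¹ := by group
      rw [e1]
      exact h1
    set Y : Subgroup G := E₁ ⊔ E₂ with hY
    have hform : ∀ y ∈ Y, ∃ a ∈ E₁, ∃ b ∈ E₂, y = a * b := fun y hy =>
      exists_mul_of_le_normalizer E₁ E₂ hE₂N₁ hy
    have hYp : ∀ y ∈ Y, y ^ p = 1 := by
      intro y hy
      obtain ⟨e, he, e₂, he₂, rfl⟩ := hform y hy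
      set c : G := e₂⁻¹ * e⁻¹ * e₂ * e with hc
      have hc₁ : c ∈ E₁ := by
        have h1 := (Subgroup.mem_normalizer_iff.1 (inv_mem (hE₂N₁ he₂)) e⁻¹).1 (inv_mem he)
        have e1 : c = e₂⁻¹ * e⁻¹ * e₂⁻¹⁻¹ * e := by rw [hc, inv_inv]
        rw [e1]
        exact mul_mem h1 he
      have hc₂ : c ∈ E₂ := by
        have h1 := (Subgroup.mem_normalizer_iff.1 (inv_mem (hE₁N₂ he)) e₂).1 he₂
        have e1 : c = e₂⁻¹ * (e⁻¹ * e₂ * e⁻¹⁻¹) := by rw [hc, inv_inv]; group
        rw [e1]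
        exact mul_mem (inv_mem he₂) h1
      apply Cfsg.Agent.Lib.ClassTwo.mul_pow_prime_eq_one hpp hp (c := c)
      · rw [hc]; group
      · exact hE₁ab c hc₁ e he
      · exact hE₂ab c hc₂ e₂ he₂
      · exact hE₁p e he
      · exact hE₂p e₂ he₂
    have hYV : ∀ d ∈ Y, ∀ v ∈ V, d * v = v * d := by
      intro d hd v hv
      obtain ⟨e, he, e₂, he₂, rfl⟩ := hform d hd
      calc e * e₂ * v = e * (e₂ * v) := by group
        _ = e * (v * e₂) := by rw [hE₂V e₂ he₂ v hv]
        _ = (e * v) * e₂ := by group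
        _ = (v * e) * e₂ := by rw [hE₁V e he v hv]
        _ = v * (e * e₂) := by group
    obtain ⟨x, hxA, hxV⟩ : ∃ x ∈ A, x ∉ V := by
      by_contra hno
      push Not at hno
      have h1 := Subgroup.card_le_of_le hno
      rw [hr, hVc] at h1
      have : p ^ 2 < p ^ 3 := Nat.pow_lt_pow_right hpp.one_lt (by norm_num)
      omega
    have hb := card_le_of_comm Y V x (fun y _ => comm_mem_of_card hG A V hVA hAV hxA y)
      (fun y hy t ht => hYV y hy t ht)
    have hYCA : Y ⊓ Subgroup.centralizer ({x} : Set G) ≤ A := by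
      rintro d ⟨hdY, hdC⟩
      exact hcomA d (hYV d hdY) x hxA hxV (Subgroup.mem_centralizer_singleton_iff.1 hdC) (hYp d hdY)
    have hYCc := Subgroup.card_le_of_le hYCA
    rw [hr] at hYCc
    rw [hVc] at hb
    have hY5 : Nat.card Y ≤ p ^ 5 := by
      calc Nat.card Y ≤ _ := hb
        _ ≤ p ^ 3 * p ^ 2 := Nat.mul_le_mul_right _ hYCc
        _ = p ^ 5 := by ring
    have hE₁Y : E₁ < Y := by
      refine lt_of_le_of_ne le_sup_left ?_
      intro h
      have h1 : E₂ ≤ E₁ := by rw [h]; exact le_sup_right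
      exact hne₂ (Subgroup.eq_of_le_of_card_ge h1 (by rw [hE₁c, hE₂c]))
    obtain ⟨j, hj⟩ := (hG.to_subgroup Y).exists_card_eq
    have hj5 : Nat.card Y = p ^ 5 := by
      have h1 : Nat.card E₁ < Nat.card Y := Set.ncard_lt_ncard hE₁Y (Set.toFinite _)
      rw [hE₁c, hj] at h1
      have h2 := (Nat.pow_lt_pow_iff_right hpp.one_lt).1 h1
      rw [hj] at hY5
      have h3 := (Nat.pow_le_pow_iff_right hpp.one_lt).1 hY5
      have : j = 5 := by omega
      rw [hj, this]
    have hYC3 : p ^ 3 ≤ Nat.card (Y ⊓ Subgroup.centralizer ({x} : Set G) : Subgroup G) := by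
      rw [hj5] at hb
      have h2 : p ^ 3 * p ^ 2 ≤ Nat.card (Y ⊓ Subgroup.centralizer ({x} : Set G) : Subgroup G) * p ^ 2 := by
        calc p ^ 3 * p ^ 2 = p ^ 5 := by ring
          _ ≤ _ := hb
      exact Nat.le_of_mul_le_mul_right h2 (by positivity)
    have hYeq : Y ⊓ Subgroup.centralizer ({x} : Set G) = A :=
      Subgroup.eq_of_le_of_card_ge hYCA (by rw [hr]; exact hYC3)
    have hAY : A ≤ Y := by
      rw [← hYeq]; exact inf_le_left
    -- `E₁ A = Y`
    have hAnot : ¬ A ≤ E₁ := by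
      intro h
      have h1 : A ≤ V := fun a ha => hinf a (h ha) ha
      have h2 := Subgroup.card_le_of_le h1
      rw [hr, hVc] at h2
      have : p ^ 2 < p ^ 3 := Nat.pow_lt_pow_right hpp.one_lt (by norm_num)
      omega
    have hsup : A ⊔ E₁ = Y := by
      apply Subgroup.eq_of_le_of_card_ge (sup_le hAY le_sup_left)
      have hlt' : E₁ < A ⊔ E₁ := by
        refine lt_of_le_of_ne le_sup_right ?_
        intro h
        apply hAnot
        rw [h]
        exact le_sup_left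
      have h1 : Nat.card E₁ < Nat.card (A ⊔ E₁ : Subgroup G) := Set.ncard_lt_ncard hlt' (Set.toFinite _)
      obtain ⟨m, hm⟩ := (hG.to_subgroup (A ⊔ E₁)).exists_card_eq
      rw [hE₁c, hm] at h1
      have h2 := (Nat.pow_lt_pow_iff_right hpp.one_lt).1 h1
      rw [hj5, hm]
      exact Nat.pow_le_pow_right hppos (by omega)
    obtain ⟨u, huE₂, huE₁⟩ : ∃ u ∈ E₂, u ∉ E₁ := by
      by_contra hno
      push Not at hno
      exact hne₂ (Subgroup.eq_of_le_of_card_ge hno (by rw [hE₁c, hE₂c]))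
    have huY : u ∈ A ⊔ E₁ := by
      rw [hsup]
      exact (le_sup_right : E₂ ≤ Y) huE₂
    obtain ⟨a, haA, e, he, rfl⟩ := Cfsg.Agent.Lib.PGrp.exists_mul_of_mem_sup huY
    have haV : a ∉ V := fun h => huE₁ (mul_mem (hVE₁ h) he)
    have hinter : E₁ ⊓ E₂ ≤ V := by
      rintro d ⟨hd₁, hd₂⟩
      have h1 : d * (a * e) = a * e * d := hE₂ab d hd₂ _ huE₂
      have h2 : d * e = e * d := hE₁ab d hd₁ e he
      have h3 : d * a = a * d := by
        have h4 : d * a * e = a * d * e := by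
          calc d * a * e = d * (a * e) := by group
            _ = a * e * d := h1
            _ = a * (e * d) := by group
            _ = a * (d * e) := by rw [h2]
            _ = a * d * e := by group
        exact mul_right_cancel h4
      exact hinf d hd₁ (hcomA d (hE₁V d hd₁) a haA haV h3 (hE₁p d hd₁))
    have hc1 := Subgroup.card_le_of_le hinter
    rw [hVc] at hc1
    have hi₁ : E₁.relIndex Y = p := by
      have h1 := Cfsg.Agent.Lib.ExtraBasics.relIndex_mul_card (le_sup_left : E₁ ≤ Y)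
      rw [hE₁c, hj5] at h1
      have h2 : E₁.relIndex Y * p ^ 4 = p * p ^ 4 := by rw [h1]; ring
      exact Nat.eq_of_mul_eq_mul_right (by positivity) h2
    have hi₂ : E₂.relIndex Y = p := by
      have h1 := Cfsg.Agent.Lib.ExtraBasics.relIndex_mul_card (le_sup_right : E₂ ≤ Y)
      rw [hE₂c, hj5] at h1
      have h2 : E₂.relIndex Y * p ^ 4 = p * p ^ 4 := by rw [h1]; ring
      exact Nat.eq_of_mul_eq_mul_right (by positivity) h2
    have hi₃ := Subgroup.relIndex_inf_le (H := E₁) (K := E₂) (L := Y)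
    rw [hi₁, hi₂] at hi₃
    have hi₄ := Cfsg.Agent.Lib.ExtraBasics.relIndex_mul_card (inf_le_left.trans le_sup_left : E₁ ⊓ E₂ ≤ Y)
    rw [hj5] at hi₄
    have hfinal : p ^ 5 ≤ p ^ 4 := by
      calc p ^ 5 = (E₁ ⊓ E₂).relIndex Y * Nat.card (E₁ ⊓ E₂ : Subgroup G) := hi₄.symm
        _ ≤ (p * p) * p ^ 2 := Nat.mul_le_mul hi₃ hc1
        _ = p ^ 4 := by ring
    omega
  refine ⟨E₁, hnormal, ⟨⟨⟨?_⟩⟩, hE₁p⟩, hE₁c⟩
  rintro ⟨a, ha⟩ ⟨b, hb⟩
  exact Subtype.ext (hE₁ab a ha b hb)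

end Cfsg.Agent.S0122
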