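import Mathlib
import Cfsg.Agent.Lib.ClassTwo
import Cfsg.Agent.S0124
import Cfsg.Agent.S0096
import Cfsg.Statements.S0123

set_option autoImplicit false
open Cfsg

namespace Cfsg.Agent.S0123

open scoped commutatorElement

/-- For a p-group of small class relative to p (class ≤ 2 with p odd, or class ≤ 3 with p > 3) whose derived subgroup is generated by elements of order dividing p, the p-th power map is multiplicative. -/
theorem result {R : Type*} [Group R] [Finite R] {p : ℕ} [Fact p.Prime] (hR : IsPGroup p R) (hcl : (p ≠ 2 ∧ ⁅commutator R, (⊤ : Subgroup R)⁆ = ⊥) ∨ (3 < p ∧ ⁅⁅commutator R, (⊤ : Subgroup R)⁆, (⊤ : Subgroup R)⁆ = ⊥)) (hder : commutator R ≤ Subgroup.closure {x : R | x ^ p = 1}) (x y : R) : (x * y) ^ p = x ^ p * y ^ p := by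
  classical
  have hpp : p.Prime := Fact.out
  have hu : y⁻¹ * x⁻¹ * y * x ∈ commutator R := by
    have := Subgroup.commutator_mem_commutator (Subgroup.mem_top y⁻¹) (Subgroup.mem_top x⁻¹)
    simpa [commutatorElement_def, commutator_def] using this
  set u := y⁻¹ * x⁻¹ * y * x with hu'
  have e : y * x = x * y * u := by rw [hu']; group
  rcases hcl with ⟨hp2, h2⟩ | ⟨hp3, h3⟩
  · have hcen : ∀ c ∈ commutator R, ∀ g : R, Commute c g := by
      intro c hc g
      have h1 : ⁅c, g⁆ ∈ ⁅commutator R, (⊤ : Subgroup R)⁆ := Subgroup.commutator_mem_commutator hc trivial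
      rw [h2, Subgroup.mem_bot] at h1
      exact commutatorElement_eq_one_iff_mul_comm.1 h1
    have hup : u ^ p = 1 := Cfsg.Agent.S0096.result hp2 hR h2 u (hder hu)
    rw [Cfsg.Agent.Lib.ClassTwo.mul_pow_of_comm e (hcen _ hu _) (hcen _ hu _) p]
    obtain ⟨k, hk⟩ := Cfsg.Agent.Lib.ClassTwo.prime_dvd_choose_two hpp hp2
    rw [hk, pow_mul, hup, one_pow, mul_one]
  · have hcen : ∀ c ∈ ⁅commutator R, (⊤ : Subgroup R)⁆, ∀ g : R, Commute c g := by
      intro c hc g
      have h1 : ⁅c, g⁆ ∈ ⁅⁅commutator R, (⊤ : Subgroup R)⁆, (⊤ : Subgroup R)⁆ := Subgroup.commutator_mem_commutator hc trivial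
      rw [h3, Subgroup.mem_bot] at h1
      exact commutatorElement_eq_one_iff_mul_comm.1 h1
    have hle : ⁅commutator R, (⊤ : Subgroup R)⁆ ≤ commutator R := by
      rw [commutator_def]
      exact Subgroup.commutator_mono le_top le_rfl
    have ha : u⁻¹ * x⁻¹ * u * x ∈ ⁅commutator R, (⊤ : Subgroup R)⁆ := by
      have := Subgroup.commutator_mem_commutator (inv_mem hu) (Subgroup.mem_top x⁻¹)
      simpa [commutatorElement_def] using this
    have hb : u⁻¹ * y⁻¹ * u * y ∈ ⁅commutator R, (⊤ : Subgroup R)⁆ := by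
      have := Subgroup.commutator_mem_commutator (inv_mem hu) (Subgroup.mem_top y⁻¹)
      simpa [commutatorElement_def] using this
    have e1 : u * x = x * u * (u⁻¹ * x⁻¹ * u * x) := by group
    have e2 : u * y = y * u * (u⁻¹ * y⁻¹ * u * y) := by group
    have hup : u ^ p = 1 := Cfsg.Agent.S0124.result hp3 hR h3 u (hder hu)
    have hap : (u⁻¹ * x⁻¹ * u * x) ^ p = 1 := Cfsg.Agent.S0124.result hp3 hR h3 _ (hder (hle ha))
    have hbp : (u⁻¹ * y⁻¹ * u * y) ^ p = 1 := Cfsg.Agent.S0124.result hp3 hR h3 _ (hder (hle hb))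
    rw [Cfsg.Agent.Lib.ClassTwo.mul_pow_class_three e e1 e2 (hcen _ ha _) (hcen _ ha _) (hcen _ ha _)
      (hcen _ hb _) (hcen _ hb _) (hcen _ hb _) (hcen _ ha _) p]
    obtain ⟨k, hk⟩ := (hpp.dvd_choose_self (k := 2) (by norm_num) (by omega))
    obtain ⟨l, hl⟩ := (hpp.dvd_choose_self (k := 3) (by norm_num) (by omega))
    have e3 : p * k + 2 * (p * l) = p * (k + 2 * l) := by ring
    rw [hk, hl, e3, pow_mul, pow_mul, pow_mul, hup, hap, hbp]
    simp

end Cfsg.Agent.S0123
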