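import Mathlib
import Cfsg.Agent.Lib.SylowConjLemmas
import Cfsg.Statements.S0125

set_option autoImplicit false
open Cfsg

namespace Cfsg.Agent.S0125

lemma aux {G : Type*} [Group G] [Finite G] {p : ℕ} [Fact p.Prime] (A C : Subgroup G) (hAC : A ≤ C)
    (hcomm : ∀ c ∈ C, ∀ x ∈ A, x * c = c * x) (R' : Sylow p C)
    (hmemR' : ∀ c : C, c ∈ (R' : Subgroup C) ↔ (c : G) ∈ A) :
    ∃ H : Subgroup G, H ≤ C ∧ Nat.Coprime (Nat.card H) p ∧ C ≤ Subgroup.normalizer (H : Set G) ∧
      H ⊓ A = ⊥ ∧ H ⊔ A = C := by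
  classical
  have hle : Subgroup.normalizer ((R' : Subgroup C) : Set C) ≤ Subgroup.centralizer ((R' : Subgroup C) : Set C) := by
    intro c _
    rw [Subgroup.mem_centralizer_iff]
    intro x hx
    have hx' : (x : G) ∈ A := (hmemR' x).1 hx
    apply Subtype.ext
    exact hcomm c c.2 x hx'
  obtain ⟨K, hKn, hcompl⟩ : ∃ K : Subgroup C, K.Normal ∧ K.IsComplement' (R' : Subgroup C) :=
    ⟨_, inferInstance, MonoidHom.ker_transferSylow_isComplement' R' hle⟩
  refine ⟨K.map C.subtype, ?_, ?_, ?_, ?_, ?_⟩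
  · rintro _ ⟨k, _, rfl⟩; exact k.2
  · have hcard : Nat.card (K.map C.subtype) = Nat.card K :=
      Nat.card_congr (Subgroup.equivMapOfInjective K C.subtype C.subtype_injective).symm.toEquiv
    rw [hcard, ← hcompl.index_eq_card, Nat.coprime_comm, Nat.Prime.coprime_iff_not_dvd Fact.out]
    exact R'.not_dvd_index
  · intro c hc
    rw [Subgroup.mem_normalizer_iff]
    intro h
    constructor
    · rintro ⟨k, hk, rfl⟩
      exact ⟨⟨c, hc⟩ * k * ⟨c, hc⟩⁻¹, hKn.conj_mem k hk _, rfl⟩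
    · rintro ⟨k, hk, hkk⟩
      have hh : h ∈ C := by
        have : h = c⁻¹ * (c * h * c⁻¹) * c := by group
        rw [this, ← hkk]
        exact mul_mem (mul_mem (inv_mem hc) k.2) hc
      refine ⟨⟨h, hh⟩, ?_, rfl⟩
      have : (⟨h, hh⟩ : C) = (⟨c, hc⟩ : C)⁻¹ * k * ((⟨c, hc⟩ : C)⁻¹)⁻¹ := by
        apply Subtype.ext
        simp only [Subgroup.coe_mul, Subgroup.coe_inv, inv_inv]
        have hkk' : (k : G) = c * h * c⁻¹ := hkk
        rw [hkk']
        group
      rw [this]
      exact hKn.conj_mem k hk _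
  · rw [eq_bot_iff]
    rintro x ⟨⟨k, hk, rfl⟩, hxA⟩
    have h1 : k ∈ (R' : Subgroup C) := (hmemR' k).2 hxA
    have h2 := Subgroup.disjoint_def.1 hcompl.disjoint hk h1
    simp [h2]
  · apply le_antisymm
    · refine sup_le ?_ hAC
      rintro _ ⟨k, _, rfl⟩; exact k.2
    · intro c hc
      have h1 : (⟨c, hc⟩ : C) ∈ K ⊔ (R' : Subgroup C) := by
        rw [hcompl.sup_eq_top]; trivial
      have h2 := Subgroup.mem_map_of_mem C.subtype h1
      rw [Subgroup.map_sup] at h2
      have h3 : (R' : Subgroup C).map C.subtype ≤ A := by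
        rintro _ ⟨y, hy, rfl⟩
        exact (hmemR' y).1 hy
      exact sup_le_sup_left h3 _ h2

/-- The centralizer of a self-centralizing normal subgroup A of a Sylow p-subgroup is the direct product of A with a normal p'-subgroup. -/
theorem result {G : Type*} [Group G] [Finite G] {p : ℕ} [Fact p.Prime] (R : Sylow p G) (A : Subgroup G) (hAR : A ≤ (R : Subgroup G)) (hAn : (R : Subgroup G) ≤ Subgroup.normalizer (A : Set G)) (hC : (R : Subgroup G) ⊓ Subgroup.centralizer (A : Set G) = A) : ∃ H : Subgroup G, H ≤ Subgroup.centralizer (A : Set G) ∧ Nat.Coprime (Nat.card H) p ∧ Subgroup.centralizer (A : Set G) ≤ Subgroup.normalizer (H : Set G) ∧ H ⊓ A = ⊥ ∧ H ⊔ A = Subgroup.centralizer (A : Set G) := by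
  classical
  have hCL : Subgroup.centralizer (A : Set G) ≤ Subgroup.normalizer (A : Set G) :=
    Subgroup.centralizer_le_normalizer _
  have hAC : A ≤ Subgroup.centralizer (A : Set G) := by
    intro x hx
    rw [← hC] at hx
    exact hx.2
  have hnorm : ∀ a ∈ Subgroup.normalizer (A : Set G), ∀ b ∈ Subgroup.centralizer (A : Set G),
      a * b * a⁻¹ ∈ Subgroup.centralizer (A : Set G) := by
    intro a ha b hb
    rw [Subgroup.mem_centralizer_iff] at hb ⊢
    intro x hx
    have h1 : a⁻¹ * x * a ∈ A := (Subgroup.mem_set_normalizer_iff''.1 ha x).1 hx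
    have h2 := hb _ h1
    calc x * (a * b * a⁻¹) = a * ((a⁻¹ * x * a) * b) * a⁻¹ := by group
      _ = a * (b * (a⁻¹ * x * a)) * a⁻¹ := by rw [h2]
      _ = a * b * a⁻¹ * x := by group
  obtain ⟨R', hR'⟩ := Cfsg.Agent.Lib.SylowConjLemmas.exists_sylow_subgroupOf_of_normalized _ _
    (R : Subgroup G) hCL hnorm (R.subtype hAn) (R.coe_subtype hAn)
  refine aux A _ hAC ?_ R' ?_
  · intro c hc x hx
    exact Subgroup.mem_centralizer_iff.1 hc x hx
  · intro c
    rw [hR', Subgroup.mem_subgroupOf]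
    constructor
    · intro h
      have h2 : (c : G) ∈ (R : Subgroup G) ⊓ Subgroup.centralizer (A : Set G) := ⟨h, c.2⟩
      rwa [hC] at h2
    · intro h
      exact hAR h

end Cfsg.Agent.S0125
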