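import Mathlib
import Cfsg.Agent.S0130
import Cfsg.Agent.Lib.ExtraBasics
import Cfsg.Agent.Lib.ClassTwo
import Cfsg.Agent.Lib.PComplement
import Cfsg.Statements.S0127

set_option autoImplicit false
open Cfsg

namespace Cfsg.Agent.S0127

open scoped commutatorElement

lemma lte_aux {p m r : ℕ} [hpf : Fact p.Prime] (hp2 : p ≠ 2) (hr : 0 < r) (hm : 1 ≤ m)
    (h : p ^ m ∣ r ^ p - 1) : p ∣ r - 1 ∧ p ^ (m - 1) ∣ r - 1 := by
  have hp : p.Prime := hpf.out
  have h1 : p ∣ r ^ p - 1 := (dvd_pow_self p (by omega)).trans h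
  have h1r : 1 ≤ r := hr
  have h1rp : 1 ≤ r ^ p := Nat.one_le_pow _ _ hr
  have hfer : p ∣ r - 1 := by
    have h2 : ((r ^ p - 1 : ℕ) : ZMod p) = 0 := (ZMod.natCast_eq_zero_iff _ _).2 h1
    rw [Nat.cast_sub h1rp] at h2
    rw [← ZMod.natCast_eq_zero_iff, Nat.cast_sub h1r]
    push_cast at h2 ⊢
    rwa [ZMod.pow_card] at h2
  refine ⟨hfer, ?_⟩
  rcases Nat.lt_or_ge 1 r with hr1 | hr1
  · have hnd : ¬ p ∣ r := by
      intro hd
      have h3 : p ∣ r - (r - 1) := Nat.dvd_sub hd hfer
      have h4 : r - (r - 1) = 1 := by omega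
      rw [h4] at h3
      exact hp.one_lt.ne' (Nat.dvd_one.1 h3)
    have h5 := padicValNat.pow_sub_pow (p := p) (hp.odd_of_ne_two hp2) (x := r) (y := 1) hr1
      (by simpa using hfer) hnd hp.ne_zero
    rw [one_pow, padicValNat_self, Nat.add_comm] at h5
    have h6 : r ^ p - 1 ≠ 0 := by
      have : 2 ^ p ≤ r ^ p := Nat.pow_le_pow_left hr1 p
      have h7 : 1 < 2 ^ p := Nat.one_lt_two_pow hp.ne_zero
      omega
    have h7 := (padicValNat_dvd_iff_le h6).1 h
    have h8 : r - 1 ≠ 0 := by omega
    rw [padicValNat_dvd_iff_le h8]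
    omega
  · have : r = 1 := by omega
    rw [this]
    simp

/-- For odd p, in a non-cyclic p-group with a cyclic subgroup of index p, the elements of order dividing p generate an elementary abelian subgroup of order p^2. -/
theorem result {R : Type*} [Group R] [Finite R] {p : ℕ} [Fact p.Prime] (hp : p ≠ 2) (hR : IsPGroup p R) (hnc : ¬ IsCyclic R) (C : Subgroup R) (hC : IsCyclic C) (hCi : C.index = p) : Cfsg.IsElementaryAbelian p (Subgroup.closure {x : R | x ^ p = 1}) ∧ Nat.card (Subgroup.closure {x : R | x ^ p = 1}) = p ^ 2 := by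
  classical
  have hpp : p.Prime := Fact.out
  haveI hCn : C.Normal := Cfsg.Agent.Lib.ExtraBasics.normal_of_index_eq_prime hR C hCi
  obtain ⟨m, hm⟩ := (hR.to_subgroup C).exists_card_eq
  have hcardR : Nat.card R = p ^ (m + 1) := by
    rw [← Subgroup.card_mul_index C, hm, hCi, pow_succ]
  have hm1 : 1 ≤ m := by
    by_contra h0
    have : m = 0 := by omega
    subst this
    apply hnc
    exact isCyclic_of_prime_card (p := p) (by simpa using hcardR)
  -- generator of `C`
  obtain ⟨⟨c, hcC⟩, hgen⟩ := hC.exists_generator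
  have hCz : C = Subgroup.zpowers c := by
    apply le_antisymm
    · intro u hu
      obtain ⟨k, hk⟩ := Subgroup.mem_zpowers_iff.1 (hgen ⟨u, hu⟩)
      have := congrArg Subtype.val hk
      exact Subgroup.mem_zpowers_iff.2 ⟨k, by simpa using this⟩
    · rw [Subgroup.zpowers_le]; exact hcC
  have hoc : orderOf c = p ^ m := by
    rw [← Nat.card_zpowers, ← hCz, hm]
  -- an element outside `C`
  have hCtop : C ≠ ⊤ := by
    rintro rfl
    rw [Subgroup.index_top] at hCi
    exact hpp.one_lt.ne hCi
  obtain ⟨x, hxC⟩ : ∃ x, x ∉ C := by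
    by_contra hall
    push Not at hall
    exact hCtop (eq_top_iff.2 fun u _ => hall u)
  -- the action of `x`
  have hxc : x * c * x⁻¹ ∈ Subgroup.zpowers c := by
    rw [← hCz]
    exact hCn.conj_mem c hcC x
  have hfin : IsOfFinOrder c := isOfFinOrder_of_finite c
  obtain ⟨r₀, hr₀⟩ := (mem_powers_iff_mem_zpowers.2 hxc)
  have hr₀' : c ^ r₀ = x * c * x⁻¹ := hr₀
  set r := r₀ + p ^ m with hr
  have hrpos : 0 < r := by
    have : 0 < p ^ m := pow_pos hpp.pos m
    omega
  have hxcr : x * c * x⁻¹ = c ^ r := by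
    rw [hr, pow_add, ← hoc, pow_orderOf_eq_one, mul_one, hr₀']
  have hxk : ∀ k : ℕ, x ^ k * c * (x ^ k)⁻¹ = c ^ (r ^ k) := by
    intro k
    induction k with
    | zero => simp
    | succ k ih =>
      have e : x ^ (k + 1) * c * (x ^ (k + 1))⁻¹ = x * (x ^ k * c * (x ^ k)⁻¹) * x⁻¹ := by
        rw [pow_succ']; group
      rw [e, ih, ← conj_pow, hxcr, ← pow_mul, pow_succ']
  have hxp : x ^ p ∈ C := by
    have := Subgroup.pow_index_mem C x
    rwa [hCi] at this
  have hcomm : ∀ a ∈ C, ∀ b ∈ C, a * b = b * a := by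
    intro a ha b hb
    rw [hCz] at ha hb
    obtain ⟨i, rfl⟩ := Subgroup.mem_zpowers_iff.1 ha
    obtain ⟨j, rfl⟩ := Subgroup.mem_zpowers_iff.1 hb
    exact Commute.zpow_zpow_self c i j
  have hrp : p ^ m ∣ r ^ p - 1 := by
    have h1 := hxk p
    have h2 : x ^ p * c * (x ^ p)⁻¹ = c := by
      rw [hcomm _ hxp c hcC]; group
    rw [h2] at h1
    have h1rp : 1 ≤ r ^ p := Nat.one_le_pow _ _ hrpos
    have h3 : c ^ (r ^ p - 1) = 1 := by
      have : c * c ^ (r ^ p - 1) = c * 1 := by
        rw [mul_one, ← pow_succ', Nat.sub_add_cancel h1rp]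
        exact h1.symm
      exact mul_left_cancel this
    rw [← hoc]
    exact orderOf_dvd_of_pow_eq_one h3
  obtain ⟨hr1, hr2⟩ := lte_aux hp hrpos hm1 hrp
  -- the central element
  set z := c ^ p ^ (m - 1) with hz
  have hzp : z ^ p = 1 := by
    rw [hz, ← pow_mul, ← pow_succ, Nat.sub_add_cancel hm1, ← hoc, pow_orderOf_eq_one]
  have hzc : Commute z c := by
    rw [hz]; exact (Commute.refl c).pow_left _
  obtain ⟨t, ht⟩ := hr2
  have hcr : x * c * x⁻¹ = c * z ^ t := by
    rw [hxcr, hz, ← pow_mul, ← ht, ← pow_succ', Nat.sub_add_cancel hrpos]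
  have hzx : Commute z x := by
    have e : x * z * x⁻¹ = z := by
      rw [hz, ← conj_pow, hxcr, ← pow_mul, mul_comm, pow_mul, ← hz]
      obtain ⟨u, hu⟩ := hr1
      have : r = p * u + 1 := by omega
      rw [this, pow_succ, pow_mul, hzp, one_pow, one_mul]
    show z * x = x * z
    calc z * x = (x * z * x⁻¹) * x := by rw [e]
      _ = x * z := by group
  -- generation
  have hgen2 : Subgroup.closure ({c, x} : Set R) = ⊤ := by
    have hle : C ≤ Subgroup.closure ({c, x} : Set R) := by
      rw [hCz, Subgroup.zpowers_le]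
      exact Subgroup.subset_closure (by simp)
    have hd : (Subgroup.closure ({c, x} : Set R)).index ∣ C.index := Subgroup.index_dvd_of_le hle
    rw [hCi, Nat.dvd_prime hpp] at hd
    rcases hd with hd | hd
    · exact Subgroup.index_eq_one.1 hd
    · exfalso
      have h1 : C.index = (Subgroup.closure ({c, x} : Set R)).index := by rw [hCi, hd]
      have heq : C = Subgroup.closure ({c, x} : Set R) := by
        apply Subgroup.eq_of_le_of_card_ge hle
        have e1 := Subgroup.card_mul_index C
        have e2 := Subgroup.card_mul_index (Subgroup.closure ({c, x} : Set R))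
        have e3 : Nat.card C * C.index = Nat.card (Subgroup.closure ({c, x} : Set R)) * C.index := by
          rw [e1, h1, e2]
        have := Nat.eq_of_mul_eq_mul_right (Nat.pos_of_ne_zero (by rw [hCi]; exact hpp.ne_zero)) e3
        exact this.symm.le
      apply hxC
      rw [heq]
      exact Subgroup.subset_closure (by simp)
  have hzcen : z ∈ Subgroup.center R := by
    rw [Subgroup.mem_center_iff]
    intro g
    have hg : g ∈ Subgroup.closure ({c, x} : Set R) := by rw [hgen2]; trivial
    have : Subgroup.closure ({c, x} : Set R) ≤ Subgroup.centralizer ({z} : Set R) := by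
      rw [Subgroup.closure_le]
      intro u hu
      simp only [Set.mem_insert_iff, Set.mem_singleton_iff] at hu
      rw [SetLike.mem_coe, Subgroup.mem_centralizer_iff]
      rintro _ rfl
      rcases hu with hu | hu <;> rw [hu]
      · exact hzc.eq
      · exact hzx.eq
    have h1 := Subgroup.mem_centralizer_iff.1 (this hg) z rfl
    exact h1.symm
  -- commutators lie in `⟨z⟩`
  haveI hZn : (Subgroup.zpowers z).Normal := by
    constructor
    intro a ha g
    obtain ⟨j, rfl⟩ := Subgroup.mem_zpowers_iff.1 ha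
    have : Commute g (z ^ j) := Commute.zpow_right (Subgroup.mem_center_iff.1 hzcen g) j
    rw [this.eq, mul_inv_cancel_right]
    exact ha
  have hcommut : ∀ g h : R, g * h * g⁻¹ * h⁻¹ ∈ Subgroup.zpowers z := by
    have key := Cfsg.Agent.S0130.comm_mod_closure (Subgroup.zpowers z) ({c, x} : Set R) (by
      intro u hu v hv
      simp only [Set.mem_insert_iff, Set.mem_singleton_iff] at hu hv
      have e0 : x * c * x⁻¹ * c⁻¹ = z ^ t := by
        rw [hcr, ← (hzc.pow_left t).eq]
        group
      rcases hu with hu | hu <;> rcases hv with hv | hv <;> rw [hu, hv]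
      · simp
      · have e : c * x * c⁻¹ * x⁻¹ = (z ^ t)⁻¹ := by
          rw [← e0]; group
        rw [e]
        exact inv_mem (pow_mem (Subgroup.mem_zpowers z) t)
      · rw [e0]
        exact pow_mem (Subgroup.mem_zpowers z) t
      · simp)
    intro g h
    exact key g (by rw [hgen2]; trivial) h (by rw [hgen2]; trivial)
  -- the power map is a homomorphism
  have hzpow : ∀ k ∈ Subgroup.zpowers z, k ^ p = 1 := by
    intro k hk
    obtain ⟨j, rfl⟩ := Subgroup.mem_zpowers_iff.1 hk
    rw [← zpow_natCast, ← zpow_mul, mul_comm, zpow_mul, zpow_natCast, hzp, one_zpow]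
  have hzcent : ∀ k ∈ Subgroup.zpowers z, ∀ g : R, Commute k g := by
    intro k hk g
    obtain ⟨j, rfl⟩ := Subgroup.mem_zpowers_iff.1 hk
    exact Commute.zpow_left (show z * g = g * z from (Subgroup.mem_center_iff.1 hzcen g).symm) j
  have hmulpow : ∀ g h : R, (g * h) ^ p = g ^ p * h ^ p := by
    intro g h
    have hk : h⁻¹ * g⁻¹ * h * g ∈ Subgroup.zpowers z := by
      have := hcommut h⁻¹ g⁻¹
      simpa using this
    have e : h * g = g * h * (h⁻¹ * g⁻¹ * h * g) := by group
    rw [Cfsg.Agent.Lib.ClassTwo.mul_pow_of_comm e (hzcent _ hk g) (hzcent _ hk h)]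
    obtain ⟨q, hq⟩ := Cfsg.Agent.Lib.ClassTwo.prime_dvd_choose_two hpp hp
    rw [hq, pow_mul, hzpow _ hk, one_pow, mul_one]
  let f : R →* R := MonoidHom.mk' (fun g => g ^ p) hmulpow
  have hclosure : Subgroup.closure {x : R | x ^ p = 1} = f.ker := by
    have : {x : R | x ^ p = 1} = (f.ker : Set R) := by
      ext g
      simp [MonoidHom.mem_ker, f]
    rw [this, Subgroup.closure_eq]
  -- the image
  have hWC : f.range ≤ C := by
    rintro _ ⟨g, rfl⟩
    have := Subgroup.pow_index_mem C g
    rw [hCi] at this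
    exact this
  have hWne : f.range ≠ C := by
    intro he
    have : c ∈ f.range := by rw [he]; exact hcC
    obtain ⟨y, hy⟩ := this
    have hy' : y ^ p = c := hy
    -- `⟨y⟩` is everything
    have hyC : y ∉ C := by
      intro hyC
      rw [hCz] at hyC
      obtain ⟨j, rfl⟩ := Subgroup.mem_zpowers_iff.1 hyC
      have h1 : (c ^ j) ^ p = c := hy'
      have h2 : c ^ (p ^ (m - 1)) = 1 := by
        calc c ^ (p ^ (m - 1)) = ((c ^ j) ^ p) ^ (p ^ (m - 1)) := by rw [h1]
          _ = (c ^ j) ^ (p ^ m) := by rw [← pow_mul, ← pow_succ', Nat.sub_add_cancel hm1]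
          _ = 1 := by
            rw [← zpow_natCast, ← zpow_mul, mul_comm, zpow_mul, zpow_natCast, ← hoc,
              pow_orderOf_eq_one, one_zpow]
      have h5 := orderOf_dvd_of_pow_eq_one h2
      rw [hoc] at h5
      have h6 := Nat.le_of_dvd (pow_pos hpp.pos _) h5
      have h7 : p ^ (m - 1) < p ^ m := Nat.pow_lt_pow_right hpp.one_lt (by omega)
      omega
    apply hnc
    have hle : C ≤ Subgroup.zpowers y := by
      rw [hCz, Subgroup.zpowers_le, ← hy']
      exact pow_mem (Subgroup.mem_zpowers y) _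
    have hd : (Subgroup.zpowers y).index ∣ C.index := Subgroup.index_dvd_of_le hle
    rw [hCi, Nat.dvd_prime hpp] at hd
    have htop : Subgroup.zpowers y = ⊤ := by
      rcases hd with hd | hd
      · exact Subgroup.index_eq_one.1 hd
      · exfalso
        have heq : C = Subgroup.zpowers y := by
          apply Subgroup.eq_of_le_of_card_ge hle
          have e1 := Subgroup.card_mul_index C
          have e2 := Subgroup.card_mul_index (Subgroup.zpowers y)
          have e3 : Nat.card C * C.index = Nat.card (Subgroup.zpowers y) * C.index := by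
            rw [e1, hCi, ← hd, e2]
          have := Nat.eq_of_mul_eq_mul_right (Nat.pos_of_ne_zero (by rw [hCi]; exact hpp.ne_zero)) e3
          exact this.symm.le
        apply hyC
        rw [heq]
        exact Subgroup.mem_zpowers y
    exact ⟨⟨y, fun u => by
      have : u ∈ Subgroup.zpowers y := by rw [htop]; trivial
      exact this⟩⟩
  have hWlt : f.range < C := lt_of_le_of_ne hWC hWne
  obtain ⟨w, hw⟩ := (hR.to_subgroup f.range).exists_card_eq
  have hw1 : w < m := by
    have := Cfsg.Agent.Lib.PComplement.card_lt_of_lt' hWlt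
    rw [hw, hm] at this
    exact (Nat.pow_lt_pow_iff_right hpp.one_lt).1 this
  have hw2 : m - 1 ≤ w := by
    have hc' : Subgroup.zpowers (c ^ p) ≤ f.range := by
      rw [Subgroup.zpowers_le]
      exact ⟨c, rfl⟩
    have h1 := Subgroup.card_le_of_le hc'
    rw [Nat.card_zpowers, hw] at h1
    have h2 : orderOf (c ^ p) = p ^ (m - 1) := by
      rw [orderOf_pow_of_dvd hpp.ne_zero (by rw [hoc]; exact dvd_pow_self p (by omega)), hoc]
      apply Nat.div_eq_of_eq_mul_left hpp.pos
      rw [← pow_succ, Nat.sub_add_cancel hm1]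
    rw [h2] at h1
    exact (Nat.pow_le_pow_iff_right hpp.one_lt).1 h1
  have hww : w = m - 1 := by omega
  have hker : Nat.card f.ker = p ^ 2 := by
    have h1 := Subgroup.card_mul_index f.ker
    rw [Subgroup.index_ker, hw, hww, hcardR] at h1
    have h2 : p ^ (m + 1) = p ^ 2 * p ^ (m - 1) := by
      rw [← pow_add]; congr 1; omega
    rw [h2] at h1
    exact Nat.eq_of_mul_eq_mul_right (pow_pos hpp.pos _) h1
  rw [hclosure]
  refine ⟨⟨?_, ?_⟩, hker⟩
  · refine ⟨⟨fun a b => ?_⟩⟩
    exact IsPGroup.commutative_of_card_eq_prime_sq hker a b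
  · intro a ha
    exact ha

end Cfsg.Agent.S0127
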