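import Mathlib
import Cfsg.Agent.Lib.PGrp
import Cfsg.Statements.S0131

set_option autoImplicit false
open Cfsg

namespace Cfsg.Agent.S0131



/-- P/P' has a normal complement in G exactly when the focal subgroup G' ∩ P is as small as possible, namely P'. -/
theorem result {G : Type*} [Group G] [Finite G] {p : ℕ} [Fact p.Prime] (P : Sylow p G) : (∃ N : Subgroup G, N.Normal ∧ N ⊓ (P : Subgroup G) = ⁅(P : Subgroup G), (P : Subgroup G)⁆ ∧ N ⊔ (P : Subgroup G) = ⊤) ↔ commutator G ⊓ (P : Subgroup G) = ⁅(P : Subgroup G), (P : Subgroup G)⁆ := by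
  constructor
  · rintro ⟨N, hN, hNP, hNPt⟩
    apply le_antisymm
    · have hle : ⁅(P : Subgroup G), (P : Subgroup G)⁆ ≤ N := by
        rw [← hNP]; exact inf_le_left
      have hG' : commutator G ≤ N := Cfsg.Agent.Lib.PGrp.commutator_le_of_sup_eq_top hNPt hle
      exact (inf_le_inf_right _ hG').trans_eq hNP
    · exact le_inf (Subgroup.commutator_mono le_top le_top) (Subgroup.commutator_le_self _)
  · intro h
    have h1 : (P : Subgroup G).focalSubgroup = ⁅(P : Subgroup G), (P : Subgroup G)⁆ := by
      rw [← Subgroup.commutator_inf_eq_focalSubgroup, h]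
    refine ⟨(P : Subgroup G).transferFocal.ker, inferInstance, ?_, ?_⟩
    · rw [Subgroup.ker_transferFocal_inf_eq_focalSubgroup, h1]
    · apply Cfsg.Agent.Lib.PGrp.ker_sup_eq_top
      intro g
      obtain ⟨y, hy⟩ := Subgroup.focalSubgroupOf.pow_index_surjective P ((P : Subgroup G).transferFocal g)
      obtain ⟨x, rfl⟩ := QuotientGroup.mk'_surjective _ y
      refine ⟨x, x.2, ?_⟩
      rw [← hy]
      exact ((P : Subgroup G).transferFocal_eq_pow x).symm

end Cfsg.Agent.S0131
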