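import Mathlib
import Cfsg.Statements.S0134
import Cfsg.Agent.Lib.CharInd

set_option autoImplicit false
open Cfsg

namespace Cfsg.Agent.S0134

/-- The sum of the squares of the degrees of the irreducible complex characters of a finite group is the order of the group. -/
theorem result {G : Type*} [Group G] [Finite G] : ∑ᶠ χ : Cfsg.IrrCharacter G, (χ : G → ℂ) 1 ^ 2 = (Nat.card G : ℂ) := by
  haveI := Fintype.ofFinite G
  have h := Cfsg.Agent.Lib.CharInd.sum_irr_degree_sq (G := G)
  rw [finsum_eq_sum_of_fintype, ← h]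
  refine Finset.sum_congr rfl fun χ _ => ?_
  obtain ⟨d, hd⟩ := Cfsg.Agent.Lib.CharBasic.isCharacter_one_eq (Cfsg.Agent.Lib.CharBasic.IsIrrCharacter.isCharacter χ.2)
  rw [hd, map_natCast, sq]

end Cfsg.Agent.S0134
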