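import Mathlib
import Cfsg.Statements.S0136
import Cfsg.Agent.Lib.CharInd

set_option autoImplicit false
open Cfsg

namespace Cfsg.Agent.S0136

/-- Two elements of a finite group are conjugate if and only if no irreducible complex character separates them. -/
theorem result {G : Type*} [Group G] [Finite G] (g h : G) : IsConj g h ↔ ∀ χ : Cfsg.IrrCharacter G, (χ : G → ℂ) g = (χ : G → ℂ) h := by
  classical
  haveI := Fintype.ofFinite G
  constructor
  · intro h χ
    obtain ⟨c, rfl⟩ := isConj_iff.mp h
    exact (Cfsg.Agent.Lib.CharBasic.isClassFunction_of_isCharacter (Cfsg.Agent.Lib.CharBasic.IsIrrCharacter.isCharacter χ.2) g c).symm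
  · intro hall
    by_contra hc
    have h1 := Cfsg.Agent.Lib.CharInd.sum_irr_mul_conj g h
    rw [if_neg hc] at h1
    have h2 := Cfsg.Agent.Lib.CharInd.sum_irr_mul_conj h h
    rw [if_pos (IsConj.refl _)] at h2
    have h3 : (Nat.card (Subgroup.centralizer ({h} : Set G)) : ℂ) = 0 := by
      rw [← h2, ← h1]
      refine Finset.sum_congr rfl fun χ _ => ?_
      rw [hall χ]
    have h4 : (Nat.card (Subgroup.centralizer ({h} : Set G))) = 0 := by exact_mod_cast h3
    exact Nat.card_pos.ne' h4

end Cfsg.Agent.S0136
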