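import Mathlib
import Cfsg.Statements.S0145
import Cfsg.Agent.Lib.CharInd

set_option autoImplicit false
open scoped ComplexConjugate
open Cfsg

namespace Cfsg.Agent.S0145

/-- Column orthogonality: the sum over the irreducible characters χ of χ g * conj (χ h) is the order of the centralizer of g if g and h are conjugate, and is 0 otherwise. -/
theorem result {G : Type*} [Group G] [Finite G] (g h : G) : (IsConj g h → ∑ᶠ χ : Cfsg.IrrCharacter G, (χ : G → ℂ) g * conj ((χ : G → ℂ) h) = (Nat.card (Subgroup.centralizer ({g} : Set G)) : ℂ)) ∧ (¬ IsConj g h → ∑ᶠ χ : Cfsg.IrrCharacter G, (χ : G → ℂ) g * conj ((χ : G → ℂ) h) = 0) := by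
  classical
  haveI := Fintype.ofFinite G
  rw [finsum_eq_sum_of_fintype]
  have h1 := Cfsg.Agent.Lib.CharInd.sum_irr_mul_conj g h
  constructor
  · intro hc
    rw [h1, if_pos hc]
    obtain ⟨c, rfl⟩ := isConj_iff.mp hc
    congr 1
    -- centralizers of conjugate elements have the same order
    have e : Subgroup.centralizer ({c * g * c⁻¹} : Set G) ≃ Subgroup.centralizer ({g} : Set G) :=
      { toFun := fun x => ⟨c⁻¹ * x * c, by
          have hx := x.2
          rw [Subgroup.mem_centralizer_singleton_iff] at hx ⊢
          calc c⁻¹ * ↑x * c * g = c⁻¹ * (↑x * (c * g * c⁻¹)) * c := by group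
            _ = c⁻¹ * ((c * g * c⁻¹) * ↑x) * c := by rw [hx]
            _ = g * (c⁻¹ * ↑x * c) := by group⟩
        invFun := fun x => ⟨c * x * c⁻¹, by
          have hx := x.2
          rw [Subgroup.mem_centralizer_singleton_iff] at hx ⊢
          calc c * ↑x * c⁻¹ * (c * g * c⁻¹) = c * (↑x * g) * c⁻¹ := by group
            _ = c * (g * ↑x) * c⁻¹ := by rw [hx]
            _ = c * g * c⁻¹ * (c * ↑x * c⁻¹) := by group⟩
        left_inv := fun x => by
          apply Subtype.ext
          simp [mul_assoc]
        right_inv := fun x => by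
          apply Subtype.ext
          simp [mul_assoc] }
    exact Nat.card_congr e
  · intro hc
    rw [h1, if_neg hc]

end Cfsg.Agent.S0145
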