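import Mathlib
import Cfsg.Statements.S0156
import Cfsg.Agent.Lib.CharInd
import Cfsg.Agent.Lib.PermChar

set_option autoImplicit false
open Cfsg

namespace Cfsg.Agent.S0156

/-- The character of the left regular representation is the sum over the irreducible characters χ of χ 1 • χ. -/
theorem result {G : Type*} [Group G] [Fintype G] : (Representation.leftRegular ℂ G).character = ∑ᶠ χ : Cfsg.IrrCharacter G, (χ : G → ℂ) 1 • (χ : G → ℂ) := by
  classical
  funext g
  rw [Cfsg.Agent.Lib.PermChar.character_leftRegular g, finsum_eq_sum_of_fintype, Finset.sum_apply]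
  have h1 := Cfsg.Agent.Lib.CharInd.sum_irr_mul_conj g (1 : G)
  have h2 : ∑ χ : Cfsg.IrrCharacter G, ((χ : G → ℂ) 1 • (χ : G → ℂ)) g =
      ∑ χ : Cfsg.IrrCharacter G, (χ : G → ℂ) g * (starRingEnd ℂ) ((χ : G → ℂ) 1) := by
    refine Finset.sum_congr rfl fun χ _ => ?_
    obtain ⟨d, hd⟩ := Cfsg.Agent.Lib.CharBasic.isCharacter_one_eq (Cfsg.Agent.Lib.CharBasic.IsIrrCharacter.isCharacter χ.2)
    rw [hd, map_natCast, Pi.smul_apply, smul_eq_mul, mul_comm]
  rw [h2, h1]
  by_cases hg : g = 1
  · subst hg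
    rw [if_pos rfl, if_pos (IsConj.refl _)]
    congr 1
    have : Subgroup.centralizer ({(1 : G)} : Set G) = ⊤ := by
      ext x
      simp [Subgroup.mem_centralizer_iff]
    rw [this]
    exact (Nat.card_congr Subgroup.topEquiv.toEquiv).symm
  · rw [if_neg hg, if_neg]
    intro hc
    exact hg (isConj_one_right.mp hc.symm)

end Cfsg.Agent.S0156
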