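import Mathlib
import Cfsg.Statements.S0159
import Cfsg.Agent.Lib.CharInd
import Cfsg.Agent.Lib.PermChar

set_option autoImplicit false
open Cfsg

namespace Cfsg.Agent.S0159

/-- The number of solutions of s * s = 1 in a finite group equals the sum, over the irreducible characters χ, of (the average over s of χ (s * s)) times χ 1. -/
theorem result {G : Type*} [Group G] [Fintype G] : (Nat.card {s : G // s * s = 1} : ℂ) = ∑ᶠ χ : Cfsg.IrrCharacter G, ((Nat.card G : ℂ)⁻¹ * ∑ s : G, (χ : G → ℂ) (s * s)) * (χ : G → ℂ) 1 := by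
  classical
  rw [finsum_eq_sum_of_fintype]
  have hG : (Nat.card G : ℂ) ≠ 0 := by exact_mod_cast Nat.card_pos.ne'
  have h1 : ∀ s : G, ∑ χ : Cfsg.IrrCharacter G, (χ : G → ℂ) (s * s) * (χ : G → ℂ) 1 =
      if s * s = 1 then (Nat.card G : ℂ) else 0 := by
    intro s
    have h2 := Cfsg.Agent.Lib.CharInd.sum_irr_mul_conj (s * s) (1 : G)
    have h3 : ∑ χ : Cfsg.IrrCharacter G, (χ : G → ℂ) (s * s) * (χ : G → ℂ) 1 =
        ∑ χ : Cfsg.IrrCharacter G, (χ : G → ℂ) (s * s) * (starRingEnd ℂ) ((χ : G → ℂ) 1) := by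
      refine Finset.sum_congr rfl fun χ _ => ?_
      obtain ⟨d, hd⟩ := Cfsg.Agent.Lib.CharBasic.isCharacter_one_eq (Cfsg.Agent.Lib.CharBasic.IsIrrCharacter.isCharacter χ.2)
      rw [hd, map_natCast]
    rw [h3, h2]
    by_cases hs : s * s = 1
    · rw [if_pos hs, hs, if_pos (IsConj.refl _)]
      congr 1
      have : Subgroup.centralizer ({(1 : G)} : Set G) = ⊤ := by
        ext x
        simp [Subgroup.mem_centralizer_iff]
      rw [this]
      exact Nat.card_congr Subgroup.topEquiv.toEquiv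
    · rw [if_neg hs, if_neg]
      intro hc
      exact hs (isConj_one_right.mp hc.symm)
  have h4 : ∑ χ : Cfsg.IrrCharacter G, ((Nat.card G : ℂ)⁻¹ * ∑ s : G, (χ : G → ℂ) (s * s)) * (χ : G → ℂ) 1 =
      (Nat.card G : ℂ)⁻¹ * ∑ s : G, ∑ χ : Cfsg.IrrCharacter G, (χ : G → ℂ) (s * s) * (χ : G → ℂ) 1 := by
    rw [Finset.sum_comm, Finset.mul_sum]
    refine Finset.sum_congr rfl fun χ _ => ?_
    rw [mul_assoc, Finset.sum_mul]
  rw [h4]
  simp_rw [h1]
  rw [Finset.sum_ite, Finset.sum_const, Finset.sum_const_zero, add_zero, nsmul_eq_mul, mul_comm,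
    mul_assoc, mul_inv_cancel₀ hG, mul_one, Nat.card_eq_fintype_card, Fintype.card_subtype]

end Cfsg.Agent.S0159
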