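import Mathlib
import Cfsg.Statements.S0160
import Cfsg.Agent.Lib.CharTable

set_option autoImplicit false
set_option linter.style.haveILetI false
open Cfsg

namespace Cfsg.Agent.S0160

open Cfsg.Agent.Lib.CharBasic
open Cfsg.Agent.Lib.CharTable
open scoped ComplexConjugate

theorem isConj_inv_of {G : Type*} [Group G] {a b : G} (h : IsConj a b) : IsConj a⁻¹ b⁻¹ := by
  obtain ⟨c, rfl⟩ := isConj_iff.mp h
  rw [isConj_iff]
  exact ⟨c, by group⟩

/-- A finite group has as many real-valued irreducible complex characters as conjugacy classes closed under taking inverses. -/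
theorem result {G : Type*} [Group G] [Finite G] : Nat.card {χ : Cfsg.IrrCharacter G // ∀ g : G, ((χ : G → ℂ) g).im = 0} = Nat.card {C : ConjClasses G // ∀ g : G, ConjClasses.mk g = C → IsConj g g⁻¹} := by
  classical
  haveI : Fintype G := Fintype.ofFinite G
  let σ : IrrCharacter G → IrrCharacter G := fun χ =>
    ⟨fun g => conj ((χ : G → ℂ) g), isIrrCharacter_conj χ.2⟩
  let π : ConjClasses G → ConjClasses G := fun C => ConjClasses.mk (Quotient.out C)⁻¹
  have hπ : ∀ g : G, π (ConjClasses.mk g) = ConjClasses.mk g⁻¹ := by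
    intro g
    show ConjClasses.mk (Quotient.out (ConjClasses.mk g))⁻¹ = ConjClasses.mk g⁻¹
    rw [ConjClasses.mk_eq_mk_iff_isConj]
    exact isConj_inv_of (isConj_out_mk g)
  have key := card_fixed_irr_eq_card_fixed_class σ π (by
    intro χ g
    show conj ((χ : G → ℂ) g) = _
    rw [hπ]
    rw [char_eq_of_isConj (IsIrrCharacter.isCharacter χ.2) (isConj_out_mk g⁻¹)]
    exact char_conj_eq_inv (IsIrrCharacter.isCharacter χ.2) g)
  have e1 : Nat.card {χ : Cfsg.IrrCharacter G // ∀ g : G, ((χ : G → ℂ) g).im = 0} =
      Nat.card {χ : IrrCharacter G // σ χ = χ} := by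
    apply Nat.card_congr
    apply Equiv.subtypeEquivRight
    intro χ
    constructor
    · intro h
      apply Subtype.ext
      funext g
      exact Complex.conj_eq_iff_im.mpr (h g)
    · intro h g
      have := congrFun (congrArg Subtype.val h) g
      exact Complex.conj_eq_iff_im.mp this
  have e2 : Nat.card {C : ConjClasses G // ∀ g : G, ConjClasses.mk g = C → IsConj g g⁻¹} =
      Nat.card {C : ConjClasses G // π C = C} := by
    apply Nat.card_congr
    apply Equiv.subtypeEquivRight
    intro C
    obtain ⟨g, rfl⟩ := ConjClasses.mk_surjective C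
    rw [hπ]
    constructor
    · intro h
      exact ConjClasses.mk_eq_mk_iff_isConj.mpr (h g rfl).symm
    · intro h x hx
      have h1 : IsConj x g := ConjClasses.mk_eq_mk_iff_isConj.mp hx
      have h2 : IsConj g⁻¹ g := ConjClasses.mk_eq_mk_iff_isConj.mp h
      have h3 : IsConj x⁻¹ g⁻¹ := isConj_inv_of h1
      exact h1.trans (h2.symm.trans h3.symm)
  rw [e1, e2, key]

end Cfsg.Agent.S0160
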