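import Mathlib
import Cfsg.Statements.S0161
import Cfsg.Agent.S0160

set_option autoImplicit false
set_option linter.style.haveILetI false
open Cfsg

namespace Cfsg.Agent.S0161

open Cfsg.Agent.Lib.CharBasic
open Cfsg.Agent.Lib.CharTable

/-- In a group of odd order, an element conjugate to its inverse is trivial. -/
theorem eq_one_of_isConj_inv {G : Type*} [Group G] [Finite G] (hodd : Odd (Nat.card G)) (x : G)
    (hx : IsConj x x⁻¹) : x = 1 := by
  obtain ⟨c, hc⟩ := isConj_iff.mp hx
  -- c² commutes with x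
  have h1 : c * c * x * (c * c)⁻¹ = x := by
    have : c * c * x * (c * c)⁻¹ = c * (c * x * c⁻¹) * c⁻¹ := by group
    rw [this, hc]
    have h2 : c * x⁻¹ * c⁻¹ = (c * x * c⁻¹)⁻¹ := by group
    rw [h2, hc, inv_inv]
  -- c is a power of c²
  obtain ⟨k, hk⟩ := hodd
  have h3 : (c * c) ^ (k + 1) = c := by
    have hpow : c ^ (Nat.card G) = 1 := pow_card_eq_one'
    rw [hk] at hpow
    calc (c * c) ^ (k + 1) = c ^ (2 * (k + 1)) := by
          rw [pow_mul, pow_two]
      _ = c ^ (2 * k + 1) * c := by
          rw [← pow_succ]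
          congr 1
      _ = c := by rw [hpow, one_mul]
  have h4 : ∀ n : ℕ, (c * c) ^ n * x * ((c * c) ^ n)⁻¹ = x := by
    intro n
    induction n with
    | zero => simp
    | succ n ih =>
      rw [pow_succ]
      calc (c * c) ^ n * (c * c) * x * ((c * c) ^ n * (c * c))⁻¹ =
            (c * c) ^ n * (c * c * x * (c * c)⁻¹) * ((c * c) ^ n)⁻¹ := by group
        _ = x := by rw [h1, ih]
  have h5 := h4 (k + 1)
  rw [h3, hc] at h5
  -- x⁻¹ = x, so x² = 1; x has odd order
  have h6 : x * x = 1 := by
    nth_rewrite 1 [← h5]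
    exact inv_mul_cancel x
  have h7 : x ^ 2 = 1 := by rw [pow_two, h6]
  have hxpow : x ^ (Nat.card G) = 1 := pow_card_eq_one'
  rw [hk, pow_succ, pow_mul, h7, one_pow, one_mul] at hxpow
  exact hxpow

/-- In a finite group of odd order, a real-valued irreducible complex character is the trivial character. -/
theorem result {G : Type*} [Group G] [Finite G] (hodd : Odd (Nat.card G)) (χ : Cfsg.IrrCharacter G) (hreal : ∀ g : G, ((χ : G → ℂ) g).im = 0) : (χ : G → ℂ) = fun _ => 1 := by
  classical
  have hcount := Cfsg.Agent.S0160.result (G := G)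
  have h1 : Nat.card {C : ConjClasses G // ∀ g : G, ConjClasses.mk g = C → IsConj g g⁻¹} = 1 := by
    rw [Nat.card_eq_one_iff_unique]
    constructor
    · constructor
      rintro ⟨C, hC⟩ ⟨D, hD⟩
      obtain ⟨a, rfl⟩ := ConjClasses.mk_surjective C
      obtain ⟨b, rfl⟩ := ConjClasses.mk_surjective D
      have ha := eq_one_of_isConj_inv hodd a (hC a rfl)
      have hb := eq_one_of_isConj_inv hodd b (hD b rfl)
      apply Subtype.ext
      show ConjClasses.mk a = ConjClasses.mk b
      rw [ha, hb]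
    · refine ⟨⟨ConjClasses.mk 1, ?_⟩⟩
      intro g hg
      have : IsConj g 1 := ConjClasses.mk_eq_mk_iff_isConj.mp hg
      rw [isConj_one_left] at this
      subst this
      simp
  rw [h1] at hcount
  have hu := (Nat.card_eq_one_iff_unique.mp hcount).1
  have h2 : (⟨χ, hreal⟩ : {χ : Cfsg.IrrCharacter G // ∀ g : G, ((χ : G → ℂ) g).im = 0}) =
      ⟨⟨fun _ => 1, isIrrCharacter_one⟩, fun g => by simp⟩ := Subsingleton.elim _ _
  exact congrArg (fun z => ((z.1 : Cfsg.IrrCharacter G) : G → ℂ)) h2

end Cfsg.Agent.S0161
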