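import Mathlib
import Cfsg.Statements.S0167
import Cfsg.Agent.Lib.CharAvg
import Cfsg.Agent.Lib.CharIntegrality

set_option autoImplicit false
set_option linter.style.haveILetI false
open Cfsg
open scoped ComplexConjugate

namespace Cfsg.Agent.S0167

open Cfsg.Agent.Lib.CharBasic
open Cfsg.Agent.Lib.CharInd
open Cfsg.Agent.Lib.CharAvg
open Cfsg.Agent.Lib.CharIntegrality

variable {G : Type*} [Group G] [Fintype G]

theorem one_real {χ : G → ℂ} (hχ : IsIrrCharacter G χ) : conj (χ 1) = χ 1 := by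
  obtain ⟨n, hn, h⟩ := irr_one_eq hχ
  rw [h]
  simp

/-- Delta function as a sum over irreducible characters. -/
theorem sum_irr_delta [DecidableEq G] (x : G) :
    ∑ χ : IrrCharacter G, (χ : G → ℂ) 1 * (χ : G → ℂ) x = if x = 1 then (Nat.card G : ℂ) else 0 := by
  classical
  have h1 := sum_irr_mul_conj x (1 : G)
  have h2 : ∑ χ : IrrCharacter G, (χ : G → ℂ) 1 * (χ : G → ℂ) x =
      ∑ χ : IrrCharacter G, (χ : G → ℂ) x * conj ((χ : G → ℂ) 1) := by
    refine Finset.sum_congr rfl fun χ _ => ?_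
    rw [one_real χ.2, mul_comm]
  rw [h2, h1]
  have h3 : Subgroup.centralizer ({1} : Set G) = ⊤ := by
    ext y
    simp [Subgroup.mem_centralizer_singleton_iff]
  by_cases hx : x = 1
  · subst hx
    rw [if_pos (IsConj.refl _), if_pos rfl, h3, Subgroup.card_top]
  · rw [if_neg hx, if_neg (fun h => hx (isConj_one_left.mp h))]

/-- Generalized orthogonality. -/
theorem sum_char_char {χ : G → ℂ} (hχ : IsIrrCharacter G χ) (k : G) :
    χ 1 * ∑ b : G, χ b * χ (b⁻¹ * k) = (Nat.card G : ℂ) * χ k := by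
  obtain ⟨n, ρ, hρ, rfl⟩ := hχ
  have hcl : IsClassFunction G (fun g : G => ρ.character g⁻¹) := by
    intro g h
    show ρ.character (h * g * h⁻¹)⁻¹ = ρ.character g⁻¹
    have : (h * g * h⁻¹)⁻¹ = h * g⁻¹ * h⁻¹ := by group
    rw [this, Representation.char_conj]
  have h1 := sumOp_eq_smul ρ hρ hcl
  have h2 := sum_character_mul_inv ρ hρ
  have hd : ρ.character 1 = (Module.finrank ℂ (Fin n → ℂ) : ℂ) := Representation.char_one ρ
  obtain ⟨hnt, _⟩ := (isIrreducible_iff ρ).mp hρ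
  have hd0 : (Module.finrank ℂ (Fin n → ℂ) : ℂ) ≠ 0 := by
    exact_mod_cast (Module.finrank_pos (R := ℂ) (M := Fin n → ℂ)).ne'
  have hcv : centralValue ρ (fun g : G => ρ.character g⁻¹) =
      (Nat.card G : ℂ) / (Module.finrank ℂ (Fin n → ℂ) : ℂ) := by
    unfold centralValue
    rw [← h2]
    congr 1
    refine Finset.sum_congr rfl fun g _ => ?_
    ring
  -- take the trace after composing with ρ k
  have h3 : LinearMap.trace ℂ _ (sumOp ρ (fun g : G => ρ.character g⁻¹) ∘ₗ ρ k) =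
      ∑ g : G, ρ.character g⁻¹ * ρ.character (g * k) := by
    unfold sumOp
    rw [← Module.End.mul_eq_comp, Finset.sum_mul, map_sum]
    refine Finset.sum_congr rfl fun g _ => ?_
    rw [smul_mul_assoc, map_smul, smul_eq_mul]
    congr 1
    rw [← map_mul]
    rfl
  rw [h1, hcv, LinearMap.smul_comp, LinearMap.id_comp, map_smul, smul_eq_mul] at h3
  have h4 : ∑ b : G, ρ.character b * ρ.character (b⁻¹ * k) =
      ∑ g : G, ρ.character g⁻¹ * ρ.character (g * k) := by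
    rw [← Equiv.sum_comp (Equiv.inv G)]
    refine Finset.sum_congr rfl fun g _ => ?_
    simp
  rw [h4, ← h3, hd]
  have h5 : LinearMap.trace ℂ _ (ρ k) = ρ.character k := rfl
  rw [h5]
  field_simp

/-- The number of commutator expressions. -/
theorem card_mul_sum (g : G) (χ : IrrCharacter G) :
    (χ : G → ℂ) 1 * ((χ : G → ℂ) 1 * ∑ b : G, ∑ a : G, (χ : G → ℂ) (a * b * a⁻¹ * b⁻¹ * g⁻¹)) =
      (Nat.card G : ℂ) * (Nat.card G : ℂ) * (χ : G → ℂ) g⁻¹ := by
  have hc := IsIrrCharacter.isCharacter χ.2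
  have h1 : ∀ b : G, (χ : G → ℂ) 1 * ∑ a : G, (χ : G → ℂ) (a * b * a⁻¹ * b⁻¹ * g⁻¹) =
      (Nat.card G : ℂ) * (χ : G → ℂ) (b⁻¹ * g⁻¹) * (χ : G → ℂ) b := by
    intro b
    rw [← irr_avg χ.2 (b⁻¹ * g⁻¹) b]
    congr 1
    refine Finset.sum_congr rfl fun a _ => ?_
    rw [char_mul_comm' hc (b⁻¹ * g⁻¹) (a * b * a⁻¹)]
    congr 1
    group
  rw [Finset.mul_sum]
  simp_rw [h1]
  have h2 := sum_char_char χ.2 g⁻¹
  have h3 : ∑ b : G, (Nat.card G : ℂ) * (χ : G → ℂ) (b⁻¹ * g⁻¹) * (χ : G → ℂ) b =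
      (Nat.card G : ℂ) * ∑ b : G, (χ : G → ℂ) b * (χ : G → ℂ) (b⁻¹ * g⁻¹) := by
    rw [Finset.mul_sum]
    refine Finset.sum_congr rfl fun b _ => ?_
    ring
  rw [h3, mul_left_comm, h2]
  ring

open Classical in
/-- The count of solutions of `[a,b] = g`. -/
theorem card_commutator_eq (g : G) :
    (((Finset.univ.filter fun p : G × G => p.2 * p.1 * p.2⁻¹ * p.1⁻¹ = g).card : ℕ) : ℂ) =
      (Nat.card G : ℂ) * ∑ χ : IrrCharacter G, (χ : G → ℂ) g⁻¹ / (χ : G → ℂ) 1 := by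
  have hG : (Nat.card G : ℂ) ≠ 0 := natCard_ne_zero'
  apply mul_left_cancel₀ hG
  have h1 : (Nat.card G : ℂ) *
      (((Finset.univ.filter fun p : G × G => p.2 * p.1 * p.2⁻¹ * p.1⁻¹ = g).card : ℕ) : ℂ) =
      ∑ b : G, ∑ a : G, ∑ χ : IrrCharacter G, (χ : G → ℂ) 1 * (χ : G → ℂ) (a * b * a⁻¹ * b⁻¹ * g⁻¹) := by
    simp_rw [sum_irr_delta]
    rw [← Finset.sum_product', Finset.card_filter]
    push_cast
    rw [Finset.mul_sum]
    refine Finset.sum_congr rfl fun p _ => ?_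
    have h2 : p.2 * p.1 * p.2⁻¹ * p.1⁻¹ * g⁻¹ = 1 ↔ p.2 * p.1 * p.2⁻¹ * p.1⁻¹ = g := mul_inv_eq_one
    simp only [h2]
    split_ifs <;> simp
  rw [h1]
  have h3 : ∑ b : G, ∑ a : G, ∑ χ : IrrCharacter G,
      (χ : G → ℂ) 1 * (χ : G → ℂ) (a * b * a⁻¹ * b⁻¹ * g⁻¹) =
      ∑ χ : IrrCharacter G, (χ : G → ℂ) 1 *
        ∑ b : G, ∑ a : G, (χ : G → ℂ) (a * b * a⁻¹ * b⁻¹ * g⁻¹) := by
    rw [Finset.sum_congr rfl (fun b _ => Finset.sum_comm), Finset.sum_comm]
    refine Finset.sum_congr rfl fun χ _ => ?_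
    rw [Finset.mul_sum]
    refine Finset.sum_congr rfl fun b _ => ?_
    rw [Finset.mul_sum]
  rw [h3, Finset.mul_sum, Finset.mul_sum]
  refine Finset.sum_congr rfl fun χ _ => ?_
  have h4 := card_mul_sum g χ
  have h5 := irr_one_ne_zero χ.2
  field_simp
  linear_combination h4

/-- An element g of a finite group is a commutator if and only if the sum over the irreducible characters χ of χ g / χ 1 is nonzero. -/
theorem result {G : Type*} [Group G] [Finite G] (g : G) : (∃ a b : G, g = a * b * a⁻¹ * b⁻¹) ↔ ∑ᶠ χ : Cfsg.IrrCharacter G, (χ : G → ℂ) g / (χ : G → ℂ) 1 ≠ 0 := by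
  classical
  haveI : Fintype G := Fintype.ofFinite G
  rw [finsum_eq_sum_of_fintype]
  have hG : (Nat.card G : ℂ) ≠ 0 := natCard_ne_zero'
  have hconj : conj (∑ χ : IrrCharacter G, (χ : G → ℂ) g⁻¹ / (χ : G → ℂ) 1) =
      ∑ χ : IrrCharacter G, (χ : G → ℂ) g / (χ : G → ℂ) 1 := by
    rw [map_sum]
    refine Finset.sum_congr rfl fun χ _ => ?_
    rw [map_div₀, one_real χ.2, char_conj_eq_inv (IsIrrCharacter.isCharacter χ.2), inv_inv]
  have hcount := card_commutator_eq g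
  constructor
  · rintro ⟨a, b, rfl⟩
    intro h0
    rw [← hconj, map_eq_zero] at h0
    have h1 : (a * b * a⁻¹ * b⁻¹) = a * b * a⁻¹ * b⁻¹ := rfl
    rw [h0, mul_zero] at hcount
    have h2 : (Finset.univ.filter fun p : G × G =>
        p.2 * p.1 * p.2⁻¹ * p.1⁻¹ = a * b * a⁻¹ * b⁻¹).card = 0 := by exact_mod_cast hcount
    rw [Finset.card_eq_zero, Finset.filter_eq_empty_iff] at h2
    exact h2 (Finset.mem_univ (b, a)) rfl
  · intro h0
    rw [← hconj] at h0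
    have h1 : (∑ χ : IrrCharacter G, (χ : G → ℂ) g⁻¹ / (χ : G → ℂ) 1) ≠ 0 := by
      intro h
      apply h0
      rw [h, map_zero]
    have h2 : (((Finset.univ.filter fun p : G × G => p.2 * p.1 * p.2⁻¹ * p.1⁻¹ = g).card : ℕ) : ℂ) ≠ 0 := by
      rw [hcount]
      exact mul_ne_zero hG h1
    have h3 : (Finset.univ.filter fun p : G × G => p.2 * p.1 * p.2⁻¹ * p.1⁻¹ = g).Nonempty := by
      rw [← Finset.card_pos]
      exact Nat.pos_of_ne_zero (by exact_mod_cast h2)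
    obtain ⟨p, hp⟩ := h3
    have hp' : p.2 * p.1 * p.2⁻¹ * p.1⁻¹ = g := by simpa using hp
    exact ⟨p.2, p.1, hp'.symm⟩

end Cfsg.Agent.S0167
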