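import Mathlib
import Cfsg.Statements.S0168
import Cfsg.Agent.Lib.CharBasic
import Cfsg.Agent.Lib.CharValues

set_option autoImplicit false
set_option linter.style.haveILetI false
open Cfsg

namespace Cfsg.Agent.S0168

open Cfsg.Agent.Lib.CharBasic
open scoped ComplexConjugate

/-- The Burnside–Brauer Theorem. Let χ be the character of a faithful complex representation of a finite group, taking m distinct values. Then every irreducible character has nonzero inner product with χ ^ i for some i < m. -/
theorem result {G : Type*} [Group G] [Fintype G] {V : Type*} [AddCommGroup V] [Module ℂ V] [FiniteDimensional ℂ V] (ρ : Representation ℂ G V) (hfaithful : Function.Injective ρ) (ψ : G → ℂ) (hψ : Cfsg.IsIrrCharacter G ψ) : ∃ i : ℕ, i < Nat.card (Set.range ρ.character) ∧ Cfsg.classInner (fun g => ρ.character g ^ i) ψ ≠ 0 := by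
  classical
  by_contra hcon
  push Not at hcon
  set χ := ρ.character with hχ
  let T : Finset ℂ := Finset.univ.image χ
  have hTcard : Nat.card (Set.range χ) = T.card := by
    have : Set.range χ = (T : Set ℂ) := by simp [T]
    rw [this, Nat.card_eq_fintype_card]
    simp
  rw [hTcard] at hcon
  set m := T.card with hm
  let e : Fin m ≃ T := (Finset.equivFinOfCardEq hm.symm).symm
  let b : Fin m → ℂ := fun j => ∑ g : G, if χ g = (e j : ℂ) then conj (ψ g) else 0
  have hcard : (Nat.card G : ℂ) ≠ 0 := by
    exact_mod_cast Nat.card_pos.ne'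
  have hsplit : ∀ f : ℂ → ℂ, ∑ g : G, f (χ g) * conj (ψ g) = ∑ j : Fin m, f (e j) * b j := by
    intro f
    simp only [b, Finset.mul_sum]
    rw [Finset.sum_comm]
    refine Finset.sum_congr rfl fun g _ => ?_
    have hg : χ g ∈ T := Finset.mem_image_of_mem _ (Finset.mem_univ _)
    rw [Finset.sum_eq_single (e.symm ⟨χ g, hg⟩)]
    · simp
    · intro j _ hj
      have : χ g ≠ (e j : ℂ) := by
        intro h
        apply hj
        apply e.injective
        apply Subtype.ext
        simp [h]
      simp [this]
    · intro h
      exact absurd (Finset.mem_univ _) h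
  have hb : b = 0 := by
    let A : Matrix (Fin m) (Fin m) ℂ := Matrix.vandermonde (fun j => (e j : ℂ))
    have hdet : A.det ≠ 0 := by
      rw [Matrix.det_vandermonde_ne_zero_iff]
      intro x y h
      exact e.injective (Subtype.ext h)
    apply Matrix.eq_zero_of_vecMul_eq_zero hdet
    funext i
    have hi := hcon (i : ℕ) i.2
    unfold Cfsg.classInner at hi
    rw [mul_eq_zero] at hi
    have hi2 := hi.resolve_left (inv_ne_zero hcard)
    rw [hsplit (fun t => t ^ (i : ℕ))] at hi2
    simp only [Matrix.vecMul, dotProduct, Pi.zero_apply, A, Matrix.vandermonde_apply]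
    rw [← hi2]
    refine Finset.sum_congr rfl fun j _ => ?_
    ring
  -- now evaluate at the value χ 1
  have h1 : χ 1 ∈ T := Finset.mem_image_of_mem _ (Finset.mem_univ _)
  have hb1 := congrFun hb (e.symm ⟨χ 1, h1⟩)
  simp only [b, Equiv.apply_symm_apply, Pi.zero_apply] at hb1
  have hsingle : (∑ g : G, if χ g = χ 1 then conj (ψ g) else 0) = conj (ψ 1) := by
    rw [Finset.sum_eq_single (1 : G)]
    · simp
    · intro g _ hg
      rw [if_neg]
      intro h
      apply hg
      apply hfaithful
      rw [map_one]
      have h2 : ρ.character g = (Module.finrank ℂ V : ℂ) := by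
        rw [← hχ, h, hχ, Representation.char_one]
      have := (Cfsg.Agent.Lib.CharValues.character_eq_finrank_iff ρ g).mp h2
      rw [this]
      rfl
    · intro h
      exact absurd (Finset.mem_univ _) h
  rw [hsingle] at hb1
  -- ψ 1 ≠ 0
  obtain ⟨n, σ, hσ, rfl⟩ := hψ
  rw [Representation.char_one] at hb1
  obtain ⟨hnt, _⟩ := (isIrreducible_iff σ).mp hσ
  have : 0 < Module.finrank ℂ (Fin n → ℂ) := Module.finrank_pos
  simp only [map_natCast, Nat.cast_eq_zero] at hb1
  omega

end Cfsg.Agent.S0168
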