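import Mathlib
import Cfsg.Statements.S0198
import Cfsg.Agent.Lib.CharLattice

set_option autoImplicit false
open Cfsg

namespace Cfsg.Agent.S0198

open Cfsg.Agent.Lib.CharBasic
open Cfsg.Agent.Lib.CharLattice

/-- The isometry lemma behind exceptional characters. Let τ be a family of generalized characters of a finite group G indexed by Fin n, with τ i₀ = 0, every τ i vanishing at the identity, and inner products ⟨τ i, τ j⟩ = 2 if i = j and 1 otherwise for i, j ≠ i₀. Then there are a sign ε and pairwise distinct irreducible characters μ i with τ i = ε (μ i − μ i₀) for all i. -/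
theorem result {G : Type*} [Group G] [Fintype G] (n : ℕ) (i₀ : Fin n) (τ : Fin n → (G → ℂ)) (h0 : τ i₀ = 0) (hgen : ∀ i, Cfsg.IsGeneralizedCharacter G (τ i)) (hone : ∀ i, τ i 1 = 0) (hgram : ∀ i j, i ≠ i₀ → j ≠ i₀ → Cfsg.classInner (τ i) (τ j) = if i = j then 2 else 1) : ∃ ε : ℂ, (ε = 1 ∨ ε = -1) ∧ ∃ μ : Fin n → (G → ℂ), (∀ i, Cfsg.IsIrrCharacter G (μ i)) ∧ Function.Injective μ ∧ ∀ i, τ i = ε • (μ i - μ i₀) := by
  classical
  have hex : ∀ i, ∃ α β : G → ℂ, IsIrrCharacter G α ∧ IsIrrCharacter G β ∧
      (i ≠ i₀ → α ≠ β ∧ τ i = α - β) := by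
    intro i
    by_cases hi : i = i₀
    · exact ⟨_, _, isIrrCharacter_one, isIrrCharacter_one, fun h => absurd hi h⟩
    · obtain ⟨α, β, ha, hb, hab, h⟩ := exists_sub_of_norm_two (hgen i)
        (by rw [hgram i i hi hi, if_pos rfl]) (hone i)
      exact ⟨α, β, ha, hb, fun _ => ⟨hab, h⟩⟩
  choose α β hα hβ hd using hex
  have hrel : ∀ i j, i ≠ i₀ → j ≠ i₀ → i ≠ j →
      (α i = α j ∧ β i ≠ β j) ∨ (β i = β j ∧ α i ≠ α j) := by
    intro i j hi hj hij
    have := hgram i j hi hj
    rw [if_neg hij, (hd i hi).2, (hd j hj).2] at this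
    exact rel_of_classInner_eq_one (hα i) (hβ i) (hα j) (hβ j) (hd i hi).1 (hd j hj).1 this
  by_cases hB : ∃ i j, i ≠ i₀ ∧ j ≠ i₀ ∧ β i ≠ β j
  · -- all α equal
    obtain ⟨i1, i2, hi1, hi2, hne⟩ := hB
    have hi12 : i1 ≠ i2 := fun h => hne (by rw [h])
    have hα12 : α i1 = α i2 := by
      rcases hrel i1 i2 hi1 hi2 hi12 with h | h
      · exact h.1
      · exact absurd h.1 hne
    have hall : ∀ i, i ≠ i₀ → α i = α i1 := by
      intro i hi
      by_contra hc
      have hii1 : i ≠ i1 := fun h => hc (by rw [h])
      have hii2 : i ≠ i2 := fun h => hc (by rw [h, hα12])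
      have h1 := hrel i i1 hi hi1 hii1
      have h2 := hrel i i2 hi hi2 hii2
      have h3 : β i = β i1 := by
        rcases h1 with h | h
        · exact absurd h.1 hc
        · exact h.1
      have h4 : β i = β i2 := by
        rcases h2 with h | h
        · exact absurd (h.1.trans hα12.symm) hc
        · exact h.1
      exact hne (h3.symm.trans h4)
    refine ⟨-1, Or.inr rfl, fun i => if i = i₀ then α i1 else β i, ?_, ?_, ?_⟩
    · intro i
      dsimp only
      split_ifs
      · exact hα _
      · exact hβ _
    · intro i j hij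
      dsimp only at hij
      by_contra hne'
      split_ifs at hij with h1 h2 h2
      · exact hne' (h1.trans h2.symm)
      · exact (hd j h2).1 ((hall j h2).trans hij)
      · exact (hd i h1).1 ((hall i h1).trans hij.symm)
      · rcases hrel i j h1 h2 hne' with h | h
        · exact h.2 hij
        · exact h.2 (by rw [hall i h1, hall j h2])
    · intro i
      by_cases hi : i = i₀
      · subst hi
        simp [h0]
      · simp only [if_neg hi, if_true]
        rw [(hd i hi).2, hall i hi]
        funext g
        simp
  · push Not at hB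
    -- all β equal
    by_cases hex : ∃ i, i ≠ i₀
    · obtain ⟨i1, hi1⟩ := hex
      refine ⟨1, Or.inl rfl, fun i => if i = i₀ then β i1 else α i, ?_, ?_, ?_⟩
      · intro i
        dsimp only
        split_ifs
        · exact hβ _
        · exact hα _
      · intro i j hij
        dsimp only at hij
        by_contra hne'
        split_ifs at hij with h1 h2 h2
        · exact hne' (h1.trans h2.symm)
        · exact (hd j h2).1 (hij.symm.trans (hB i1 j hi1 h2))
        · exact (hd i h1).1 (hij.trans (hB i1 i hi1 h1))
        · rcases hrel i j h1 h2 hne' with h | h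
          · exact h.2 (hB i j h1 h2)
          · exact h.2 hij
      · intro i
        by_cases hi : i = i₀
        · subst hi
          simp [h0]
        · simp only [if_neg hi, if_true]
          rw [(hd i hi).2, hB i i1 hi hi1]
          simp
    · push Not at hex
      refine ⟨1, Or.inl rfl, fun _ _ => 1, fun _ => isIrrCharacter_one, ?_, ?_⟩
      · intro i j _
        rw [hex i, hex j]
      · intro i
        rw [hex i, h0]
        simp

end Cfsg.Agent.S0198
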