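import Mathlib
import Cfsg.Statements.S0170
import Cfsg.Agent.S0198
import Cfsg.Agent.S0150
import Cfsg.Agent.Lib.CharInd

set_option autoImplicit false
set_option linter.style.haveILetI false
open Cfsg

namespace Cfsg.Agent.S0170

open Cfsg.Agent.Lib.CharBasic
open Cfsg.Agent.Lib.CharInd

/-- Exceptional characters. Let S be a subset of a finite group contained in its normalizer N and meeting its conjugates by elements outside N only in the identity. Given n ≥ 2 distinct irreducible characters of N of equal degree that vanish on N away from S, there exist a sign ε and n distinct irreducible characters θ_i of G such that inducing χ_i − χ_j to G gives ε (θ_i − θ_j) for all i, j. -/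
theorem result {G : Type*} [Group G] [Fintype G] (S : Set G) (hSN : S ⊆ Subgroup.normalizer S) (hTI : ∀ g : G, g ∉ Subgroup.normalizer S → ∀ s ∈ S, g * s * g⁻¹ ∈ S → s = 1) (n : ℕ) (hn : 2 ≤ n) (χ : Fin n → (Subgroup.normalizer S → ℂ)) (hirr : ∀ i, Cfsg.IsIrrCharacter (Subgroup.normalizer S) (χ i)) (hinj : Function.Injective χ) (hvan : ∀ i, ∀ x : Subgroup.normalizer S, (x : G) ∉ S → χ i x = 0) (hdeg : ∀ i j, χ i 1 = χ j 1) : ∃ ε : ℂ, (ε = 1 ∨ ε = -1) ∧ ∃ θ : Fin n → (G → ℂ), (∀ i, Cfsg.IsIrrCharacter G (θ i)) ∧ Function.Injective θ ∧ ∀ i j, Cfsg.indFun (Subgroup.normalizer S) (χ i) - Cfsg.indFun (Subgroup.normalizer S) (χ j) = ε • (θ i - θ j) := by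
  classical
  haveI : Fintype (Subgroup.normalizer S) := Fintype.ofFinite _
  let i₀ : Fin n := ⟨0, by omega⟩
  let ψ : Fin n → ((Subgroup.normalizer S) → ℂ) := fun i => χ i - χ i₀
  let τ : Fin n → (G → ℂ) := fun i => indFun (Subgroup.normalizer S) (χ i) - indFun (Subgroup.normalizer S) (χ i₀)
  have hτψ : ∀ i, τ i = indFun (Subgroup.normalizer S) (ψ i) := fun i => (indFun_sub (Subgroup.normalizer S) _ _).symm
  have hchar : ∀ i, IsCharacter (Subgroup.normalizer S) (χ i) := fun i => IsIrrCharacter.isCharacter (hirr i)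
  have hψc : ∀ i, IsClassFunction (Subgroup.normalizer S) (ψ i) := by
    intro i g h
    simp only [ψ, Pi.sub_apply]
    rw [isClassFunction_of_isCharacter (hchar i) g h, isClassFunction_of_isCharacter (hchar i₀) g h]
  have hψT : ∀ i, ∀ x : (Subgroup.normalizer S), (x : G) ∉ S → ψ i x = 0 := by
    intro i x hx
    simp only [ψ, Pi.sub_apply]
    rw [hvan i x hx, hvan i₀ x hx, sub_zero]
  have hψ1 : ∀ i, ψ i 1 = 0 := by
    intro i
    simp only [ψ, Pi.sub_apply]
    rw [hdeg i i₀, sub_self]
  have hgram : ∀ i j, i ≠ i₀ → j ≠ i₀ → classInner (τ i) (τ j) = if i = j then 2 else 1 := by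
    intro i j hi hj
    rw [hτψ, hτψ]
    have := Cfsg.Agent.S0150.result S hTI hSN (ψ i) (ψ j) (hψc i) (hψc j) (hψT i) (hψT j) (hψ1 i)
    rw [this]
    simp only [ψ]
    rw [classInner_sub_left, classInner_sub_right, classInner_sub_right,
      classInner_irr_ne (hirr i) (hirr i₀) (fun h => hi (hinj h)),
      classInner_irr_ne (hirr i₀) (hirr j) (fun h => hj (hinj h).symm),
      classInner_irr_self (hirr i₀)]
    split_ifs with hij
    · subst hij
      rw [classInner_irr_self (hirr i)]
      norm_num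
    · rw [classInner_irr_ne (hirr i) (hirr j) (fun h => hij (hinj h))]
      norm_num
  have hgen : ∀ i, IsGeneralizedCharacter G (τ i) := fun i =>
    ⟨_, _, indFun_isCharacter (Subgroup.normalizer S) (hchar i), indFun_isCharacter (Subgroup.normalizer S) (hchar i₀), rfl⟩
  have hone : ∀ i, τ i 1 = 0 := by
    intro i
    simp only [τ, Pi.sub_apply]
    rw [indFun_one, indFun_one, hdeg i i₀, sub_self]
  obtain ⟨ε, hε, μ, hμ, hinjμ, hτ⟩ := Cfsg.Agent.S0198.result n i₀ τ (by simp [τ]) hgen hone hgram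
  refine ⟨ε, hε, μ, hμ, hinjμ, fun i j => ?_⟩
  have h1 : indFun (Subgroup.normalizer S) (χ i) - indFun (Subgroup.normalizer S) (χ j) = τ i - τ j := by
    simp only [τ]
    abel
  rw [h1, hτ i, hτ j, ← smul_sub]
  congr 1
  abel

end Cfsg.Agent.S0170
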