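import Mathlib
import Cfsg.Statements.S0171
import Cfsg.Agent.S0173
import Cfsg.Agent.Lib.FrobPair
import Cfsg.Agent.Lib.CharInduction

set_option autoImplicit false
set_option linter.style.haveILetI false
open Cfsg

namespace Cfsg.Agent.S0171

open Cfsg.Agent.Lib.CharBasic
open Cfsg.Agent.Lib.CharInd
open Cfsg.Agent.Lib.CharInduction
open Cfsg.Agent.Lib.FrobPair

/-- Let G = K H with K normal, K ⊓ H trivial, and no non-identity element of H commuting with a non-identity element of K (a Frobenius group with kernel K and complement H). Then every non-principal irreducible character of K induces to an irreducible character of G. -/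
theorem result {G : Type*} [Group G] [Fintype G] (K H : Subgroup G) [K.Normal] (hKH : K ⊓ H = ⊥) (hKH' : K ⊔ H = ⊤) (hfpf : ∀ h ∈ H, h ≠ 1 → ∀ k ∈ K, h * k = k * h → k = 1) (τ : K → ℂ) (hτ : Cfsg.IsIrrCharacter K τ) (hτ1 : τ ≠ fun _ => 1) : Cfsg.IsIrrCharacter G (Cfsg.indFun K τ) := by
  classical
  have hN : K.Normal := inferInstance
  rw [isIrrCharacter_iff_norm_one]
  refine ⟨indFun_isCharacter K (IsIrrCharacter.isCharacter hτ), ?_⟩
  have h1 := natCard_mul_classInner_indFun_self K hN τ hτ
  have hstab : Nat.card {g : G // conjBy K hN g τ = τ} = Nat.card K := by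
    apply Nat.card_congr
    apply Equiv.subtypeEquivRight
    intro g
    constructor
    · intro hg
      by_contra hgK
      -- the automorphism fixes only the trivial class
      let α : K ≃* K := conjAut K hN g
      have hfix := Cfsg.Agent.S0173.result α
      have hone : Nat.card {C : ConjClasses K // ConjClasses.map α.toMonoidHom C = C} = 1 := by
        rw [Nat.card_eq_one_iff_unique]
        have hkey : ∀ C : ConjClasses K, ConjClasses.map α.toMonoidHom C = C →
            C = ConjClasses.mk 1 := by
          intro C hC
          obtain ⟨k, rfl⟩ := ConjClasses.mk_surjective C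
          have h2 : ConjClasses.mk (α k) = ConjClasses.mk k := hC
          rw [ConjClasses.mk_eq_mk_iff_isConj, isConj_iff] at h2
          obtain ⟨s, hs⟩ := h2
          have h3 : ((s : K) : G) * (g * k * g⁻¹) * ((s : K) : G)⁻¹ = k := congrArg Subtype.val hs
          have h4 : (s : G) * g ∉ K := by
            intro hmem
            apply hgK
            have : g = (s : G)⁻¹ * ((s : G) * g) := by group
            rw [this]
            exact K.mul_mem (K.inv_mem s.2) hmem
          have h5 : ((s : G) * g) * k = k * ((s : G) * g) := by
            calc ((s : G) * g) * k = ((s : G) * (g * k * g⁻¹) * (s : G)⁻¹) * ((s : G) * g) := by group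
              _ = k * ((s : G) * g) := by rw [h3]
          have h6 := eq_one_of_commute_of_not_mem K H hKH' hfpf h4 k.2 h5
          have h7 : k = 1 := Subtype.ext h6
          rw [h7]
        constructor
        · constructor
          rintro ⟨C, hC⟩ ⟨D, hD⟩
          apply Subtype.ext
          show C = D
          rw [hkey C hC, hkey D hD]
        · refine ⟨⟨ConjClasses.mk 1, ?_⟩⟩
          have : ConjClasses.map α.toMonoidHom (ConjClasses.mk 1) = ConjClasses.mk (α 1) := rfl
          rw [this, map_one]
      rw [hone] at hfix
      have hu := (Nat.card_eq_one_iff_unique.mp hfix.symm).1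
      have h8 : (⟨⟨τ, hτ⟩, hg⟩ : {χ : IrrCharacter K // (χ : K → ℂ) ∘ α = (χ : K → ℂ)}) =
          ⟨⟨fun _ => 1, isIrrCharacter_one⟩, rfl⟩ := Subsingleton.elim _ _
      exact hτ1 (congrArg (fun z => ((z.1 : IrrCharacter K) : K → ℂ)) h8)
    · intro hg
      funext n
      rw [conjBy_apply]
      exact char_apply_conj (IsIrrCharacter.isCharacter hτ) n ⟨g, hg⟩
  rw [hstab] at h1
  have hne : (Nat.card K : ℂ) ≠ 0 := natCard_subgroup_ne_zero K
  exact mul_left_cancel₀ hne (by rw [h1, mul_one])

end Cfsg.Agent.S0171
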