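import Mathlib
import Cfsg.Statements.S0172
import Cfsg.Agent.Lib.FrobPair

set_option autoImplicit false
set_option linter.style.haveILetI false
open Cfsg

namespace Cfsg.Agent.S0172

open Cfsg.Agent.Lib.FrobPair

theorem commute_conj {G : Type*} [Group G] {a b : G} (t : G) (h : Commute a b) :
    Commute (t * a * t⁻¹) (t * b * t⁻¹) := by
  show t * a * t⁻¹ * (t * b * t⁻¹) = t * b * t⁻¹ * (t * a * t⁻¹)
  have h1 : t * a * t⁻¹ * (t * b * t⁻¹) = t * (a * b) * t⁻¹ := by group
  have h2 : t * b * t⁻¹ * (t * a * t⁻¹) = t * (b * a) * t⁻¹ := by group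
  rw [h1, h2, h.eq]

/-- Class number of a Frobenius group: if G = K H with K normal, K ⊓ H trivial and no non-identity element of H commuting with a non-identity element of K, then |H| * k(G) + 1 = |H| * k(H) + k(K), where k denotes the number of conjugacy classes. -/
theorem result {G : Type*} [Group G] [Finite G] (K H : Subgroup G) [K.Normal] (hKH : K ⊓ H = ⊥) (hKH' : K ⊔ H = ⊤) (hfpf : ∀ h ∈ H, h ≠ 1 → ∀ k ∈ K, h * k = k * h → k = 1) : Nat.card H * Nat.card (ConjClasses G) + 1 = Nat.card H * Nat.card (ConjClasses H) + Nat.card (ConjClasses K) := by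
  classical
  have hK : K.Normal := inferInstance
  have hcG := card_comm_eq_card_conjClasses_mul_card G
  have hcK := card_comm_eq_card_conjClasses_mul_card K
  have hcH := card_comm_eq_card_conjClasses_mul_card H
  have hGcard := card_eq K H hKH hKH'
  let CG := {p : G × G // Commute p.1 p.2}
  let CK := {p : K × K // Commute p.1 p.2}
  let CH := {p : H × H // Commute p.1 p.2}
  let oneH : CH := ⟨(1, 1), Commute.one_left 1⟩
  let Φ : CK ⊕ (K × {q : CH // q ≠ oneH}) → CG := fun x => match x with
    | Sum.inl p => ⟨((p.1.1 : G), (p.1.2 : G)), by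
        show (p.1.1 : G) * (p.1.2 : G) = (p.1.2 : G) * (p.1.1 : G)
        exact congrArg Subtype.val p.2⟩
    | Sum.inr (t, q) => ⟨((t : G) * (q.1.1.1 : G) * (t : G)⁻¹, (t : G) * (q.1.1.2 : G) * (t : G)⁻¹),
        commute_conj (t : G) (by
          show (q.1.1.1 : G) * (q.1.1.2 : G) = (q.1.1.2 : G) * (q.1.1.1 : G)
          exact congrArg Subtype.val q.1.2)⟩
  -- the decomposition of `t a t⁻¹`
  have hconjdec : ∀ {t a : G}, t ∈ K → t * a * t⁻¹ = (t * (a * t⁻¹ * a⁻¹)) * a := by
    intro t a _
    group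
  have hconjK : ∀ {t a : G}, t ∈ K → t * (a * t⁻¹ * a⁻¹) ∈ K := by
    intro t a ht
    exact K.mul_mem ht (hK.conj_mem _ (K.inv_mem ht) a)
  have hconjeq : ∀ {t s a b : G}, t ∈ K → s ∈ K → a ∈ H → b ∈ H →
      t * a * t⁻¹ = s * b * s⁻¹ → a = b := by
    intro t s a b ht hs ha hb h
    rw [hconjdec ht, hconjdec hs] at h
    exact (decomp_unique K H hKH (hconjK ht) (hconjK hs) ha hb h).2
  have hcomm_of : ∀ {s t a : G}, s * a * s⁻¹ = t * a * t⁻¹ → a * (t⁻¹ * s) = (t⁻¹ * s) * a := by
    intro s t a h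
    have h4 : t⁻¹ * (s * a * s⁻¹) * s = t⁻¹ * (t * a * t⁻¹) * s := by rw [h]
    have h5 : t⁻¹ * (s * a * s⁻¹) * s = t⁻¹ * s * a := by group
    have h6 : t⁻¹ * (t * a * t⁻¹) * s = a * (t⁻¹ * s) := by group
    rw [h5, h6] at h4
    exact h4.symm
  have hΦinj : Function.Injective Φ := by
    rintro (p | ⟨t, q⟩) (p' | ⟨t', q'⟩) h
    · -- inl, inl
      have h1 : (p.1.1 : G) = p'.1.1 := congrArg (fun z : CG => z.1.1) h
      have h2 : (p.1.2 : G) = p'.1.2 := congrArg (fun z : CG => z.1.2) h
      congr 1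
      apply Subtype.ext
      apply Prod.ext
      · exact Subtype.ext h1
      · exact Subtype.ext h2
    · exfalso
      have h1 : (p.1.1 : G) = t' * q'.1.1.1 * (t' : G)⁻¹ := congrArg (fun z : CG => z.1.1) h
      have h2 : (p.1.2 : G) = t' * q'.1.1.2 * (t' : G)⁻¹ := congrArg (fun z : CG => z.1.2) h
      apply q'.2
      have hmem : ∀ {z : H} {w : K}, (w : G) = t' * z * (t' : G)⁻¹ → z = 1 := by
        intro z w hw
        have h3 : (z : G) ∈ K := by
          have h4 : (z : G) = (t' : G)⁻¹ * w * t' := by rw [hw]; group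
          rw [h4]
          have := hK.conj_mem _ w.2 (t' : G)⁻¹
          simpa using this
        have h5 : (z : G) ∈ K ⊓ H := ⟨h3, z.2⟩
        rw [hKH, Subgroup.mem_bot] at h5
        exact Subtype.ext h5
      apply Subtype.ext
      apply Prod.ext
      · exact hmem h1
      · exact hmem h2
    · exfalso
      have h1 : (p'.1.1 : G) = t * q.1.1.1 * (t : G)⁻¹ := (congrArg (fun z : CG => z.1.1) h).symm
      have h2 : (p'.1.2 : G) = t * q.1.1.2 * (t : G)⁻¹ := (congrArg (fun z : CG => z.1.2) h).symm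
      apply q.2
      have hmem : ∀ {z : H} {w : K}, (w : G) = t * z * (t : G)⁻¹ → z = 1 := by
        intro z w hw
        have h3 : (z : G) ∈ K := by
          have h4 : (z : G) = (t : G)⁻¹ * w * t := by rw [hw]; group
          rw [h4]
          have := hK.conj_mem _ w.2 (t : G)⁻¹
          simpa using this
        have h5 : (z : G) ∈ K ⊓ H := ⟨h3, z.2⟩
        rw [hKH, Subgroup.mem_bot] at h5
        exact Subtype.ext h5
      apply Subtype.ext
      apply Prod.ext
      · exact hmem h1
      · exact hmem h2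
    · have h1 : (t : G) * q.1.1.1 * (t : G)⁻¹ = t' * q'.1.1.1 * (t' : G)⁻¹ :=
        congrArg (fun z : CG => z.1.1) h
      have h2 : (t : G) * q.1.1.2 * (t : G)⁻¹ = t' * q'.1.1.2 * (t' : G)⁻¹ :=
        congrArg (fun z : CG => z.1.2) h
      have ha : (q.1.1.1 : G) = q'.1.1.1 := hconjeq t.2 t'.2 q.1.1.1.2 q'.1.1.1.2 h1
      have hb : (q.1.1.2 : G) = q'.1.1.2 := hconjeq t.2 t'.2 q.1.1.2.2 q'.1.1.2.2 h2
      have hqq : q = q' := by
        apply Subtype.ext
        apply Subtype.ext
        apply Prod.ext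
        · exact Subtype.ext ha
        · exact Subtype.ext hb
      subst hqq
      -- t'⁻¹ t commutes with a and b
      have hc1 := hcomm_of h1
      have hc2 := hcomm_of h2
      have hmem : (t' : G)⁻¹ * t ∈ K := K.mul_mem (K.inv_mem t'.2) t.2
      have hone : (t' : G)⁻¹ * t = 1 := by
        by_cases hq1 : (q.1.1.1 : G) = 1
        · by_cases hq2 : (q.1.1.2 : G) = 1
          · exfalso
            apply q.2
            apply Subtype.ext
            apply Prod.ext
            · exact Subtype.ext hq1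
            · exact Subtype.ext hq2
          · exact hfpf _ q.1.1.2.2 hq2 _ hmem hc2
        · exact hfpf _ q.1.1.1.2 hq1 _ hmem hc1
      rw [inv_mul_eq_one] at hone
      have ht : t = t' := Subtype.ext hone.symm
      subst ht
      rfl
  have hΦsurj : Function.Surjective Φ := by
    rintro ⟨⟨x, y⟩, hxy⟩
    have hxy' : x * y = y * x := hxy
    obtain ⟨k₁, hk₁, a, ha, rfl⟩ := exists_decomp K H hKH' x
    obtain ⟨k₂, hk₂, b, hb, rfl⟩ := exists_decomp K H hKH' y
    by_cases ha1 : a = 1
    · subst ha1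
      by_cases hb1 : b = 1
      · subst hb1
        refine ⟨Sum.inl ⟨(⟨k₁, hk₁⟩, ⟨k₂, hk₂⟩), ?_⟩, ?_⟩
        · apply Subtype.ext
          simpa using hxy'
        · apply Subtype.ext
          simp [Φ]
      · -- y = t b t⁻¹, x ∈ K commutes
        obtain ⟨t, ht, hty⟩ := exists_conj_of_mem K H hfpf hb hb1 hk₂
        rw [mul_one] at hxy'
        rw [hty] at hxy'
        have h1 : b * (t⁻¹ * k₁ * t) = (t⁻¹ * k₁ * t) * b := by
          have h2 : t⁻¹ * (k₁ * (t * b * t⁻¹)) * t = t⁻¹ * ((t * b * t⁻¹) * k₁) * t := by rw [hxy']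
          have h3 : t⁻¹ * (k₁ * (t * b * t⁻¹)) * t = (t⁻¹ * k₁ * t) * b := by group
          have h4 : t⁻¹ * ((t * b * t⁻¹) * k₁) * t = b * (t⁻¹ * k₁ * t) := by group
          rw [h3, h4] at h2
          exact h2.symm
        have h5 : t⁻¹ * k₁ * t ∈ K := by
          have := hK.conj_mem _ hk₁ t⁻¹
          simpa using this
        have h6 := hfpf b hb hb1 _ h5 h1
        have h7 : k₁ = 1 := by
          have : k₁ = t * (t⁻¹ * k₁ * t) * t⁻¹ := by group
          rw [this, h6]
          group
        subst h7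
        let q : CH := ⟨(1, ⟨b, hb⟩), Commute.one_left _⟩
        have hq : q ≠ oneH := by
          intro h
          apply hb1
          have := congrArg (fun z : CH => ((z.1.2 : H) : G)) h
          simpa [q, oneH] using this
        refine ⟨Sum.inr (⟨t, ht⟩, ⟨q, hq⟩), ?_⟩
        apply Subtype.ext
        apply Prod.ext
        · simp [Φ, q]
        · exact hty.symm
    · -- x = t a t⁻¹
      obtain ⟨t, ht, htx⟩ := exists_conj_of_mem K H hfpf ha ha1 hk₁
      rw [htx] at hxy'
      -- y' = t⁻¹ y t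
      obtain ⟨y, hy⟩ : ∃ y, y = k₂ * b := ⟨_, rfl⟩
      rw [← hy] at hxy'
      obtain ⟨c, hc, b', hb', hdec⟩ := exists_decomp K H hKH' (t⁻¹ * y * t)
      have h1 : a * (c * b') = (c * b') * a := by
        rw [← hdec]
        have h2 : t⁻¹ * ((t * a * t⁻¹) * y) * t = t⁻¹ * (y * (t * a * t⁻¹)) * t := by rw [hxy']
        have h3 : t⁻¹ * ((t * a * t⁻¹) * y) * t = a * (t⁻¹ * y * t) := by group
        have h4 : t⁻¹ * (y * (t * a * t⁻¹)) * t = (t⁻¹ * y * t) * a := by group
        rw [h3, h4] at h2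
        exact h2
      have h2 : (a * c * a⁻¹) * (a * b') = c * (b' * a) := by
        calc (a * c * a⁻¹) * (a * b') = a * (c * b') := by group
          _ = (c * b') * a := h1
          _ = c * (b' * a) := by group
      have h3 := decomp_unique K H hKH (hK.conj_mem _ hc a) hc (H.mul_mem ha hb') (H.mul_mem hb' ha) h2
      have h4 : a * c = c * a := by
        have := h3.1
        rwa [mul_inv_eq_iff_eq_mul] at this
      have h5 : c = 1 := hfpf a ha ha1 c hc h4
      subst h5
      rw [one_mul] at hdec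
      have hcomm : Commute (⟨a, ha⟩ : H) ⟨b', hb'⟩ := by
        apply Subtype.ext
        exact h3.2
      let q : CH := ⟨(⟨a, ha⟩, ⟨b', hb'⟩), hcomm⟩
      have hq : q ≠ oneH := by
        intro h
        apply ha1
        have := congrArg (fun z : CH => ((z.1.1 : H) : G)) h
        simpa [q, oneH] using this
      refine ⟨Sum.inr (⟨t, ht⟩, ⟨q, hq⟩), ?_⟩
      apply Subtype.ext
      apply Prod.ext
      · exact htx.symm
      · show t * b' * t⁻¹ = k₂ * b
        rw [← hy, ← hdec]
        group
  have hcard : Nat.card CG = Nat.card CK + Nat.card K * Nat.card {q : CH // q ≠ oneH} := by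
    rw [← Nat.card_congr (Equiv.ofBijective Φ ⟨hΦinj, hΦsurj⟩), Nat.card_sum, Nat.card_prod]
  have hcH' : Nat.card {q : CH // q ≠ oneH} + 1 = Nat.card CH := by
    haveI : Fintype CH := Fintype.ofFinite _
    rw [Nat.card_eq_fintype_card, Nat.card_eq_fintype_card, Fintype.card_subtype_compl]
    have hpos : 0 < Fintype.card CH := Fintype.card_pos_iff.mpr ⟨oneH⟩
    simp only [Fintype.card_unique]
    omega
  have hKpos : 0 < Nat.card K := Nat.card_pos
  have e1 : Nat.card (ConjClasses G) * (Nat.card K * Nat.card H) =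
      Nat.card (ConjClasses K) * Nat.card K + Nat.card K * Nat.card {q : CH // q ≠ oneH} := by
    rw [hGcard, ← hcG, ← hcK]
    exact hcard
  have e2 : Nat.card K * (Nat.card H * Nat.card (ConjClasses G)) =
      Nat.card K * (Nat.card (ConjClasses K) + Nat.card {q : CH // q ≠ oneH}) := by
    rw [mul_add]
    calc Nat.card K * (Nat.card H * Nat.card (ConjClasses G))
        = Nat.card (ConjClasses G) * (Nat.card K * Nat.card H) := by ring
      _ = Nat.card (ConjClasses K) * Nat.card K + Nat.card K * Nat.card {q : CH // q ≠ oneH} := e1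
      _ = _ := by ring
  have e3 := Nat.eq_of_mul_eq_mul_left hKpos e2
  have e4 : Nat.card {q : CH // q ≠ oneH} + 1 = Nat.card H * Nat.card (ConjClasses H) := by
    rw [hcH', mul_comm]
    exact hcH
  omega

end Cfsg.Agent.S0172
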