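import Mathlib
import Cfsg.Statements.S0176
import Cfsg.Agent.Lib.CharMono

set_option autoImplicit false
set_option linter.style.haveILetI false
open Cfsg

namespace Cfsg.Agent.S0176

open Cfsg.Agent.Lib
open Cfsg.Agent.Lib.CharBasic
open Cfsg.Agent.Lib.CharInd

universe u

/-- A nontrivial nilpotent group has a nontrivial central element. -/
theorem exists_central {Q : Type*} [Group Q] [Group.IsNilpotent Q] [Nontrivial Q] :
    ∃ x : Q, x ≠ 1 ∧ x ∈ Subgroup.center Q := by
  by_contra hcon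
  push Not at hcon
  have h : ∀ n, Subgroup.upperCentralSeries Q n = ⊥ := by
    intro n
    induction n with
    | zero => exact Subgroup.upperCentralSeries_zero Q
    | succ n ih =>
      rw [eq_bot_iff]
      intro x hx
      rw [Subgroup.mem_bot]
      by_contra hx1
      apply hcon x hx1
      rw [Subgroup.mem_center_iff]
      intro y
      rw [Subgroup.mem_upperCentralSeries_succ_iff, ih] at hx
      have h1 := hx y
      rw [Subgroup.mem_bot] at h1
      exact ((commutatorElement_eq_one_iff_mul_comm).mp h1).symm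
  obtain ⟨n, hn⟩ := Group.IsNilpotent.nilpotent Q
  rw [h n] at hn
  exact bot_ne_top hn

section Scalar

variable {G : Type*} [Group G] {V : Type*} [AddCommGroup V] [Module ℂ V]

/-- The elements acting by scalars. -/
def scalarSubgroup (ρ : Representation ℂ G V) : Subgroup G where
  carrier := {g | ∃ c : ℂ, ρ g = c • 1}
  mul_mem' := by
    rintro a b ⟨c, hc⟩ ⟨d, hd⟩
    refine ⟨c * d, ?_⟩
    rw [map_mul, hc, hd, smul_mul_smul_comm, one_mul]
  one_mem' := ⟨1, by simp⟩
  inv_mem' := by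
    rintro a ⟨c, hc⟩
    have h1 : ρ a⁻¹ * ρ a = 1 := by
      rw [← map_mul]
      simp
    rw [hc] at h1
    rw [mul_smul_comm, mul_one] at h1
    by_cases hc0 : c = 0
    · refine ⟨0, ?_⟩
      rw [hc0, zero_smul] at h1
      rw [zero_smul]
      calc ρ a⁻¹ = ρ a⁻¹ * 1 := (mul_one _).symm
        _ = 0 := by rw [← h1, mul_zero]
    · refine ⟨c⁻¹, ?_⟩
      rw [← h1, smul_smul, inv_mul_cancel₀ hc0, one_smul]

theorem mem_scalarSubgroup (ρ : Representation ℂ G V) {g : G} :
    g ∈ scalarSubgroup ρ ↔ ∃ c : ℂ, ρ g = c • 1 := Iff.rfl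

instance scalarSubgroup_normal (ρ : Representation ℂ G V) : (scalarSubgroup ρ).Normal := by
  constructor
  rintro a ⟨c, hc⟩ g
  refine ⟨c, ?_⟩
  rw [map_mul, map_mul, hc, mul_smul_comm, mul_one, smul_mul_assoc, ← map_mul]
  simp

end Scalar

/-- A normal subgroup with commutative image not acting by scalars, when not everything is scalar
in a nilpotent group. -/
theorem exists_normal_noncentral {G : Type*} [Group G] [Group.IsNilpotent G] {V : Type*}
    [AddCommGroup V] [Module ℂ V] (ρ : Representation ℂ G V) (hZ : scalarSubgroup ρ ≠ ⊤) :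
    ∃ A : Subgroup G, A.Normal ∧ (∀ a ∈ A, ∀ b ∈ A, ρ a * ρ b = ρ b * ρ a) ∧
      ∃ a ∈ A, ∀ c : ℂ, ρ a ≠ c • 1 := by
  classical
  set Z := scalarSubgroup ρ with hZdef
  haveI : Nontrivial (G ⧸ Z) := by
    rw [QuotientGroup.nontrivial_iff]
    exact hZ
  obtain ⟨q, hq1, hqc⟩ := exists_central (Q := G ⧸ Z)
  obtain ⟨x, rfl⟩ := QuotientGroup.mk_surjective q
  have hxZ : x ∉ Z := by
    intro h
    exact hq1 ((QuotientGroup.eq_one_iff x).mpr h)
  let A : Subgroup G := Subgroup.comap (QuotientGroup.mk' Z) (Subgroup.zpowers (x : G ⧸ Z))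
  have hmem : ∀ a ∈ A, ∃ (k : ℤ) (c : ℂ), ρ a = c • ρ (x ^ k) := by
    intro a ha
    obtain ⟨k, hk⟩ : (a : G ⧸ Z) ∈ Subgroup.zpowers (x : G ⧸ Z) := ha
    have h1 : ((x ^ k : G) : G ⧸ Z) = (a : G ⧸ Z) := by
      rw [QuotientGroup.mk_zpow]
      exact hk
    have h2 : (x ^ k)⁻¹ * a ∈ Z := QuotientGroup.eq.mp h1
    obtain ⟨c, hc⟩ := h2
    refine ⟨k, c, ?_⟩
    have h3 : a = x ^ k * ((x ^ k)⁻¹ * a) := by group
    rw [h3, map_mul, hc, mul_smul_comm, mul_one]
  refine ⟨A, ?_, ?_, x, ?_, ?_⟩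
  · constructor
    intro a ha g
    show ((g * a * g⁻¹ : G) : G ⧸ Z) ∈ Subgroup.zpowers (x : G ⧸ Z)
    have h1 : (a : G ⧸ Z) ∈ Subgroup.zpowers (x : G ⧸ Z) := ha
    have hcen : (a : G ⧸ Z) ∈ Subgroup.center (G ⧸ Z) :=
      (Subgroup.zpowers_le.mpr hqc) h1
    have h2 : ((g * a * g⁻¹ : G) : G ⧸ Z) = (a : G ⧸ Z) := by
      have h3 := (Subgroup.mem_center_iff.mp hcen) (g : G ⧸ Z)
      rw [QuotientGroup.mk_mul, QuotientGroup.mk_mul, QuotientGroup.mk_inv, h3, mul_assoc,
        mul_inv_cancel, mul_one]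
    rw [h2]
    exact h1
  · intro a ha b hb
    obtain ⟨k, c, hc⟩ := hmem a ha
    obtain ⟨l, d, hd⟩ := hmem b hb
    rw [hc, hd, smul_mul_smul_comm, smul_mul_smul_comm, mul_comm c d, ← map_mul, ← map_mul,
      ← zpow_add, ← zpow_add, add_comm]
  · show ((x : G) : G ⧸ Z) ∈ Subgroup.zpowers (x : G ⧸ Z)
    exact Subgroup.mem_zpowers _
  · intro c hc
    exact hxZ ⟨c, hc⟩

/-- An irreducible representation in which every element acts by a scalar has degree one. -/
theorem finrank_eq_one_of_scalar {G : Type*} [Group G] {n : ℕ}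
    (ρ : Representation ℂ G (Fin n → ℂ)) (hρ : ρ.IsIrreducible) (hZ : scalarSubgroup ρ = ⊤) :
    n = 1 := by
  obtain ⟨hnt, hirr⟩ := (isIrreducible_iff ρ).mp hρ
  obtain ⟨v, hv⟩ := exists_ne (0 : Fin n → ℂ)
  have hinv : ∀ g, ∀ w ∈ Submodule.span ℂ {v}, ρ g w ∈ Submodule.span ℂ {v} := by
    intro g w hw
    have hg : g ∈ scalarSubgroup ρ := by rw [hZ]; trivial
    obtain ⟨c, hc⟩ := hg
    rw [hc]
    exact Submodule.smul_mem _ _ (by simpa using hw)
  rcases hirr (Submodule.span ℂ {v}) hinv with h | h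
  · exfalso
    rw [Submodule.span_singleton_eq_bot] at h
    exact hv h
  · have h1 := finrank_span_singleton (K := ℂ) hv
    rw [h, finrank_top] at h1
    simpa using h1

theorem main (N : ℕ) : ∀ (G : Type u) [Group G] [Fintype G] [Group.IsNilpotent G],
    Nat.card G = N → ∀ χ : G → ℂ, IsIrrCharacter G χ →
      ∃ (H : Subgroup G) (lam : H →* ℂˣ), χ = indFun H (fun h => (lam h : ℂ)) := by
  induction N using Nat.strong_induction_on with
  | _ N ih =>
    intro G _ _ _ hN χ hχ
    classical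
    obtain ⟨n, ρ, hρ, rfl⟩ := hχ
    by_cases hZ : scalarSubgroup ρ = ⊤
    · -- degree one
      have hn := finrank_eq_one_of_scalar ρ hρ hZ
      have h1 : ρ.character 1 = 1 := by
        rw [char_one_eq_rep, hn]
        simp
      obtain ⟨f, hf⟩ := exists_hom_of_degree_one ⟨n, ρ, rfl⟩ h1
      refine ⟨⊤, f.comp (Subgroup.subtype ⊤), ?_⟩
      funext g
      rw [indFun_top, hf]
      · rfl
      · intro a b
        simp [mul_comm]
    · obtain ⟨A, hA, hcomm, a, ha, hna⟩ := exists_normal_noncentral ρ hZ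
      obtain ⟨T, hT, ψ, hψ, hind⟩ := CharMono.exists_induced ρ hρ hA hcomm ha hna
      haveI : Fintype T := Fintype.ofFinite _
      have hcard : Nat.card T < N := by
        rw [← hN]
        apply lt_of_le_of_ne (Subgroup.card_le_card_group T)
        intro h
        exact hT (Subgroup.eq_top_of_card_eq T h)
      obtain ⟨H₀, lam₀, hψ₀⟩ := ih _ hcard T rfl ψ hψ
      obtain ⟨H, hHT, rfl⟩ : ∃ H : Subgroup G, H ≤ T ∧ H.subgroupOf T = H₀ := by
        refine ⟨H₀.map T.subtype, ?_, ?_⟩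
        · rintro _ ⟨t, -, rfl⟩
          exact t.2
        · ext t
          rw [Subgroup.mem_subgroupOf]
          constructor
          · rintro ⟨s, hs, hst⟩
            have : s = t := Subtype.ext hst
            rwa [← this]
          · intro ht
            exact ⟨t, ht, rfl⟩
      let e : H.subgroupOf T ≃* H := Subgroup.subgroupOfEquivOfLe hHT
      refine ⟨H, lam₀.comp e.symm.toMonoidHom, ?_⟩
      rw [← hind, hψ₀, ← IndFunBasic.indFun_indFun H T hHT]
      congr 2

/-- A finite nilpotent group is an M-group: each irreducible complex character is induced from a homomorphism of some subgroup into ℂˣ. -/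
theorem result {G : Type*} [Group G] [Fintype G] [Group.IsNilpotent G] (χ : G → ℂ) (hχ : Cfsg.IsIrrCharacter G χ) : ∃ (H : Subgroup G) (lam : H →* ℂˣ), χ = Cfsg.indFun H (fun h => (lam h : ℂ)) :=
  main _ G rfl χ hχ

end Cfsg.Agent.S0176
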