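import Mathlib
import Cfsg.Statements.S0177
import Cfsg.Agent.Lib.CharInd

set_option autoImplicit false
set_option linter.style.haveILetI false
open Cfsg

namespace Cfsg.Agent.S0177

open Cfsg.Agent.Lib.CharBasic
open Cfsg.Agent.Lib.CharInd

section

variable {G : Type*} [Group G] [Fintype G]

variable (G) in
/-- The `ℤ`-span of the functions induced from linear characters of cyclic subgroups. -/
def cycSpan : AddSubgroup (G → ℂ) :=
  AddSubgroup.closure {f | ∃ (A : Subgroup G) (_ : IsCyclic A) (lam : A →* ℂˣ),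
    f = indFun A (fun a => (lam a : ℂ))}

theorem list_neg_sum (l : List ((A : Subgroup G) × ((A →* ℂˣ) × ℤ))) :
    -(l.map fun t => (t.2.2 : ℂ) • indFun t.1 (fun a => (t.2.1 a : ℂ))).sum =
      ((l.map fun t => (⟨t.1, t.2.1, -t.2.2⟩ : (A : Subgroup G) × ((A →* ℂˣ) × ℤ))).map
        fun t => (t.2.2 : ℂ) • indFun t.1 (fun a => (t.2.1 a : ℂ))).sum := by
  induction l with
  | nil => simp
  | cons a l ih =>
    simp only [List.map_cons, List.sum_cons, neg_add_rev] at ih ⊢
    rw [← ih, add_comm]
    congr 1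
    push_cast
    rw [neg_smul]

/-- Elements of the span are integer combinations given by lists. -/
theorem exists_list_of_mem {f : G → ℂ} (hf : f ∈ cycSpan G) :
    ∃ l : List ((A : Subgroup G) × ((A →* ℂˣ) × ℤ)), (∀ t ∈ l, IsCyclic t.1) ∧
      f = (l.map fun t => (t.2.2 : ℂ) • indFun t.1 (fun a => (t.2.1 a : ℂ))).sum := by
  induction hf using AddSubgroup.closure_induction with
  | mem x hx =>
    obtain ⟨A, hA, lam, rfl⟩ := hx
    refine ⟨[⟨A, lam, 1⟩], ?_, ?_⟩
    · intro t ht
      rw [List.mem_singleton] at ht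
      subst ht
      exact hA
    · simp
  | zero => exact ⟨[], by simp, by simp⟩
  | add x y _ _ hx hy =>
    obtain ⟨l₁, h₁, rfl⟩ := hx
    obtain ⟨l₂, h₂, rfl⟩ := hy
    refine ⟨l₁ ++ l₂, ?_, ?_⟩
    · intro t ht
      rcases List.mem_append.mp ht with h | h
      · exact h₁ t h
      · exact h₂ t h
    · simp
  | neg x _ hx =>
    obtain ⟨l, h, rfl⟩ := hx
    refine ⟨l.map fun t => ⟨t.1, t.2.1, -t.2.2⟩, ?_, ?_⟩
    · intro t ht
      obtain ⟨s, hs, rfl⟩ := List.mem_map.mp ht
      exact h s hs
    · exact list_neg_sum l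

variable (G) in
/-- The functions all of whose products with characters lie in the span. -/
def artinS : AddSubgroup (G → ℂ) where
  carrier := {f | ∀ ψ : G → ℂ, IsCharacter G ψ → f * ψ ∈ cycSpan G}
  add_mem' := by
    intro a b ha hb ψ hψ
    rw [add_mul]
    exact add_mem (ha ψ hψ) (hb ψ hψ)
  zero_mem' := by
    intro ψ _
    rw [zero_mul]
    exact zero_mem _
  neg_mem' := by
    intro a ha ψ hψ
    rw [neg_mul]
    exact neg_mem (ha ψ hψ)

theorem mem_artinS {f : G → ℂ} :
    f ∈ artinS G ↔ ∀ ψ : G → ℂ, IsCharacter G ψ → f * ψ ∈ cycSpan G := Iff.rfl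

/-- The permutation character of a cyclic subgroup is in `artinS`. -/
theorem ind_one_mem (A : Subgroup G) (hA : IsCyclic A) :
    indFun A (fun _ => (1 : ℂ)) ∈ artinS G := by
  classical
  intro ψ hψ
  rw [← indFun_mul_restrict A (fun _ => (1 : ℂ)) (isClassFunction_of_isCharacter hψ)]
  have h1 : ((fun _ => (1 : ℂ)) * fun h : A => ψ h) = fun h : A => ψ h := by
    funext h
    simp
  rw [h1]
  haveI : Fintype A := Fintype.ofFinite _
  obtain ⟨m, hm⟩ := exists_nat_decomp (isCharacter_restrict A hψ)
  rw [hm, indFun_sum]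
  refine sum_mem fun i _ => ?_
  rw [← Nat.cast_smul_eq_nsmul ℂ, indFun_smul, Nat.cast_smul_eq_nsmul]
  refine nsmul_mem ?_ _
  apply AddSubgroup.subset_closure
  -- each irreducible of a cyclic group is linear
  have hi : (i : A → ℂ) 1 = 1 := by
    obtain ⟨χ, hχ⟩ := i
    obtain ⟨n, ρ, hρ, rfl⟩ := hχ
    haveI := hρ
    haveI : IsMulCommutative A := ⟨⟨fun a b => by
      letI := IsCyclic.commGroup (α := A)
      exact mul_comm a b⟩⟩
    have := Representation.IsIrreducible.finrank_eq_one_of_isMulCommutative ρ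
    show ρ.character 1 = 1
    rw [char_one_eq_rep ρ]
    have h2 : n = 1 := by simpa using this
    simp [h2]
  obtain ⟨f, hf⟩ := exists_hom_of_degree_one (IsIrrCharacter.isCharacter i.2) hi
  refine ⟨A, hA, f, ?_⟩
  congr 1
  funext a
  exact hf a

open scoped Classical in
/-- The characteristic count of a cyclic subgroup. -/
noncomputable def eFun (A : Subgroup G) : G → ℂ := fun x =>
  ((Finset.univ.filter fun y : G => Subgroup.zpowers (y⁻¹ * x * y) = A).card : ℂ)

theorem eFun_eq_zero {A : Subgroup G} (hA : ¬ IsCyclic A) : eFun A = 0 := by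
  funext x
  simp only [eFun, Pi.zero_apply, Nat.cast_eq_zero, Finset.card_eq_zero, Finset.filter_eq_empty_iff,
    Finset.mem_univ, forall_true_left]
  intro y hy
  apply hA
  rw [← hy]
  infer_instance

open scoped Classical in
/-- Counting: `∑_{B ≤ A} e_B = |A| • 1_A^G`. -/
theorem sum_eFun_le [Fintype (Subgroup G)] (A : Subgroup G) :
    ∑ B ∈ Finset.univ.filter (· ≤ A), eFun B = (Nat.card A) • indFun A (fun _ => (1 : ℂ)) := by
  classical
  funext x
  rw [Finset.sum_apply, Pi.smul_apply, indFun_apply, nsmul_eq_mul, ← mul_assoc,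
    mul_inv_cancel₀ (natCard_subgroup_ne_zero A), one_mul]
  have hval : ∀ y : G, extendByZero A (fun _ => (1 : ℂ)) (y⁻¹ * x * y)
      = if y⁻¹ * x * y ∈ A then (1 : ℂ) else 0 := by
    intro y
    split_ifs with h
    · rw [extendByZero_of_mem A _ h]
    · rw [extendByZero_of_not_mem A _ h]
  simp only [hval]
  rw [Finset.sum_boole]
  simp only [eFun]
  rw [← Nat.cast_sum]
  congr 1
  rw [Finset.card_eq_sum_card_fiberwise (f := fun y : G => Subgroup.zpowers (y⁻¹ * x * y))
    (t := Finset.univ.filter (· ≤ A))]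
  · refine Finset.sum_congr rfl fun B hB => ?_
    congr 1
    ext y
    simp only [Finset.mem_filter, Finset.mem_univ, true_and]
    constructor
    · intro h
      refine ⟨?_, h⟩
      have hB' : B ≤ A := by simpa using hB
      apply hB'
      rw [← h]
      exact Subgroup.mem_zpowers _
    · intro h
      exact h.2
  · intro y hy
    simp only [Finset.coe_filter, Finset.mem_univ, true_and, Set.mem_ofPred_eq] at hy ⊢
    exact Subgroup.zpowers_le.mpr hy

theorem eFun_mem [Fintype (Subgroup G)] (A : Subgroup G) : eFun A ∈ artinS G := by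
  classical
  induction A using WellFoundedLT.induction with
  | _ A ih =>
    by_cases hA : IsCyclic A
    · have h1 := sum_eFun_le A
      rw [← Finset.add_sum_erase (Finset.univ.filter (· ≤ A)) eFun (a := A) (by simp)] at h1
      rw [eq_sub_of_add_eq h1]
      refine sub_mem (nsmul_mem (ind_one_mem A hA) _) (sum_mem fun B hB => ih B ?_)
      simp only [Finset.mem_erase, Finset.mem_filter, Finset.mem_univ, true_and] at hB
      exact lt_of_le_of_ne hB.2 hB.1
    · rw [eFun_eq_zero hA]
      exact zero_mem _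

theorem sum_eFun [Fintype (Subgroup G)] :
    ∑ B : Subgroup G, eFun B = fun _ => (Nat.card G : ℂ) := by
  classical
  funext x
  rw [Finset.sum_apply]
  simp only [eFun]
  rw [← Nat.cast_sum, ← Finset.card_eq_sum_card_fiberwise (s := Finset.univ)
    (f := fun y : G => Subgroup.zpowers (y⁻¹ * x * y)) (t := Finset.univ)]
  · simp [Nat.card_eq_fintype_card]
  · intro y _
    simp

end

/-- The Artin induction Theorem: for a character χ of a finite group, |G| • χ is a ℤ-linear combination of functions induced from homomorphisms of cyclic subgroups into ℂˣ. -/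
theorem result {G : Type*} [Group G] [Fintype G] (χ : G → ℂ) (hχ : Cfsg.IsCharacter G χ) : ∃ l : List ((A : Subgroup G) × ((A →* ℂˣ) × ℤ)), (∀ t ∈ l, IsCyclic t.1) ∧ (Nat.card G : ℂ) • χ = (l.map fun t => (t.2.2 : ℂ) • Cfsg.indFun t.1 (fun a => (t.2.1 a : ℂ))).sum := by
  classical
  haveI : Fintype (Subgroup G) := Fintype.ofFinite _
  apply exists_list_of_mem
  have h1 : (fun _ => (Nat.card G : ℂ)) ∈ artinS G := by
    rw [← sum_eFun]
    exact sum_mem fun B _ => eFun_mem B
  have h2 := h1 χ hχ
  convert h2 using 1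
  funext x
  simp

end Cfsg.Agent.S0177
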