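import Mathlib
import Cfsg.Statements.S0178
import Cfsg.Agent.Lib.CharInduction

set_option autoImplicit false
set_option linter.style.haveILetI false
open Cfsg

namespace Cfsg.Agent.S0178

open Cfsg.Agent.Lib.CharBasic
open Cfsg.Agent.Lib.CharInduction

/-- The degree of an irreducible complex representation of a finite group is at most the index of any abelian subgroup. -/
theorem result {G : Type*} [Group G] [Finite G] {V : Type*} [AddCommGroup V] [Module ℂ V] [FiniteDimensional ℂ V] (ρ : Representation ℂ G V) [ρ.IsIrreducible] (A : Subgroup G) (hA : ∀ a ∈ A, ∀ b ∈ A, a * b = b * a) : Module.finrank ℂ V ≤ A.index := by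
  classical
  obtain ⟨hnt, hirr⟩ := (isIrreducible_iff ρ).mp inferInstance
  haveI := hnt
  obtain ⟨v, hv0, hv⟩ := exists_common_eigenvector (fun a : A => ρ (a : G)) (by
    intro a b
    show ρ a * ρ b = ρ b * ρ a
    rw [← map_mul, ← map_mul, hA a a.2 b b.2])
  choose μ hμ using hv
  let W : Submodule ℂ V := Submodule.span ℂ (Set.range fun q : G ⧸ A => ρ (Quotient.out q) v)
  have hmem : ∀ g : G, ρ g v ∈ W := by
    intro g
    have hq := QuotientGroup.mk_out_eq_mul A g
    obtain ⟨a, ha⟩ := hq
    have h1 : g = Quotient.out (g : G ⧸ A) * (a : G)⁻¹ := by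
      rw [ha]; group
    rw [h1, map_mul, Module.End.mul_apply]
    have h2 : ρ ((a : G)⁻¹) v = μ a⁻¹ • v := by
      have := hμ a⁻¹
      simpa using this
    rw [h2, map_smul]
    apply Submodule.smul_mem
    apply Submodule.subset_span
    exact ⟨_, rfl⟩
  let W' : Submodule ℂ V := Submodule.span ℂ (Set.range fun g : G => ρ g v)
  have hW'le : W' ≤ W := by
    apply Submodule.span_le.mpr
    rintro _ ⟨g, rfl⟩
    exact hmem g
  have hW'inv : ∀ g, ∀ w ∈ W', ρ g w ∈ W' := by
    intro g w hw
    induction hw using Submodule.span_induction with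
    | mem x hx =>
      obtain ⟨h, rfl⟩ := hx
      apply Submodule.subset_span
      exact ⟨g * h, by simp⟩
    | zero => simp
    | add x y _ _ hx hy =>
      rw [map_add]
      exact W'.add_mem hx hy
    | smul c x _ hx =>
      rw [map_smul]
      exact W'.smul_mem c hx
  have hW'top : W' = ⊤ := by
    rcases hirr W' hW'inv with h | h
    · exfalso
      have : v ∈ W' := by
        apply Submodule.subset_span
        exact ⟨1, by simp⟩
      rw [h] at this
      exact hv0 (Submodule.mem_bot _ |>.mp this)
    · exact h
  have hWtop : W = ⊤ := top_le_iff.mp (hW'top ▸ hW'le)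
  haveI : Fintype (G ⧸ A) := Fintype.ofFinite _
  have h3 : Module.finrank ℂ W ≤ Fintype.card (G ⧸ A) := by
    have := finrank_range_le_card (R := ℂ) (fun q : G ⧸ A => ρ (Quotient.out q) v)
    exact this
  rw [hWtop, finrank_top] at h3
  rw [Subgroup.index_eq_card, Nat.card_eq_fintype_card]
  exact h3

end Cfsg.Agent.S0178
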