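import Mathlib
import Cfsg.Statements.S0180
import Cfsg.Agent.Lib.CharRational
import Cfsg.Agent.Lib.CharAvg
import Cfsg.Agent.Lib.CharTable

set_option autoImplicit false
set_option linter.style.haveILetI false
open Cfsg

namespace Cfsg.Agent.S0180

open Cfsg.Agent.Lib.CharBasic
open Cfsg.Agent.Lib.CharGalois
open Cfsg.Agent.Lib.CharRational

/-- Every irreducible complex character of a finite group takes only rational values if and only if g is conjugate to g ^ m for every element g and every m coprime to the group order. -/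
theorem result {G : Type*} [Group G] [Finite G] : (∀ χ : Cfsg.IrrCharacter G, ∀ g : G, ∃ q : ℚ, (χ : G → ℂ) g = (q : ℂ)) ↔ ∀ m : ℕ, m.Coprime (Nat.card G) → ∀ g : G, IsConj g (g ^ m) := by
  classical
  haveI : Fintype G := Fintype.ofFinite G
  haveI := neZero_card (G := G)
  constructor
  · intro h m hm g
    apply Cfsg.Agent.Lib.CharAvg.isConj_of_forall_irr
    intro χ
    obtain ⟨k, μ, h1, h2⟩ := exists_roots (IsIrrCharacter.isCharacter χ.2) g
    have h3 : (χ : G → ℂ) g = ∑ i, μ i := by simpa using h2 1
    have hrat : ∃ q : ℚ, ∑ i, μ i = (q : ℂ) := by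
      rw [← h3]
      exact h χ g
    have h4 := (sum_roots_rat_iff (Nat.card G) μ h1).mp hrat (ZMod.unitOfCoprime m hm)
    simp only [ZMod.coe_unitOfCoprime] at h4
    rw [h3, h2 m, ← h4]
    exact Finset.sum_congr rfl fun i _ => val_pow_eq (Nat.card G) (h1 i) m
  · intro h χ g
    obtain ⟨k, μ, h1, h2⟩ := exists_roots (IsIrrCharacter.isCharacter χ.2) g
    have h3 : (χ : G → ℂ) g = ∑ i, μ i := by simpa using h2 1
    rw [h3]
    apply (sum_roots_rat_iff (Nat.card G) μ h1).mpr
    intro u
    have hcop := ZMod.val_coe_unit_coprime u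
    have h4 := h _ hcop g
    rw [← h2, ← h3]
    exact (Cfsg.Agent.Lib.CharTable.char_eq_of_isConj (IsIrrCharacter.isCharacter χ.2) h4).symm

end Cfsg.Agent.S0180
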