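import Mathlib
import Cfsg.Statements.S0181
import Cfsg.Agent.Lib.CharBasic

set_option autoImplicit false
set_option linter.style.haveILetI false
open Cfsg

namespace Cfsg.Agent.S0181

open Cfsg.Agent.Lib.CharBasic

/-- Let H be a normal subgroup of a finite group G and ρ an irreducible complex representation whose kernel does not contain H. If g commutes with no non-identity element of H, then the character of ρ vanishes at g. -/
theorem result {G : Type*} [Group G] [Finite G] {V : Type*} [AddCommGroup V] [Module ℂ V] [FiniteDimensional ℂ V] (ρ : Representation ℂ G V) [ρ.IsIrreducible] (H : Subgroup G) [H.Normal] (hker : ∃ h ∈ H, ρ h ≠ LinearMap.id) (g : G) (hg : ∀ h ∈ H, h * g = g * h → h = 1) : ρ.character g = 0 := by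
  classical
  haveI : Fintype H := Fintype.ofFinite H
  -- every element of g H is conjugate to g
  have hconj : ∀ h : H, ρ.character (g * h) = ρ.character g := by
    intro h
    -- the map k ↦ k⁻¹ g k g⁻¹ on H
    let f : H → H := fun k => ⟨(k : G)⁻¹ * (g * (k : G) * g⁻¹), H.mul_mem (H.inv_mem k.2)
      (‹H.Normal›.conj_mem _ k.2 g)⟩
    have hf : Function.Injective f := by
      intro a b hab
      have h1 : (a : G)⁻¹ * (g * (a : G) * g⁻¹) = (b : G)⁻¹ * (g * (b : G) * g⁻¹) :=
        congrArg Subtype.val hab
      have h5 : (a : G)⁻¹ * g * (a : G) = (b : G)⁻¹ * g * (b : G) := by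
        have := congrArg (· * g) h1
        simpa [mul_assoc] using this
      have h2 : (b : G) * (a : G)⁻¹ * g = g * ((b : G) * (a : G)⁻¹) := by
        calc (b : G) * (a : G)⁻¹ * g = (b : G) * ((a : G)⁻¹ * g * (a : G)) * (a : G)⁻¹ := by group
          _ = (b : G) * ((b : G)⁻¹ * g * (b : G)) * (a : G)⁻¹ := by rw [h5]
          _ = g * ((b : G) * (a : G)⁻¹) := by group
      have h4 := hg _ (H.mul_mem b.2 (H.inv_mem a.2)) h2
      rw [mul_inv_eq_one] at h4
      exact Subtype.ext h4.symm
    have hs : Function.Surjective f := Finite.surjective_of_injective hf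
    obtain ⟨k, hk⟩ := hs ⟨g * h * g⁻¹, ‹H.Normal›.conj_mem _ h.2 g⟩
    have hk2 : (k : G)⁻¹ * (g * (k : G) * g⁻¹) = g * h * g⁻¹ := congrArg Subtype.val hk
    have hk3 : g * h = (k : G)⁻¹ * g * (k : G) := by
      have : g * h * g⁻¹ * g = (k : G)⁻¹ * (g * (k : G) * g⁻¹) * g := by rw [hk2]
      simpa [mul_assoc] using this
    rw [hk3]
    have := Representation.char_conj ρ g (k : G)⁻¹
    simpa using this
  -- the sum over H
  let P : V →ₗ[ℂ] V := ∑ h : H, ρ h
  have htrace : LinearMap.trace ℂ V (ρ g ∘ₗ P) = (Nat.card H : ℂ) * ρ.character g := by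
    have h1 : ρ g ∘ₗ P = ∑ h : H, ρ (g * h) := by
      apply LinearMap.ext
      intro v
      simp [P, map_mul]
    rw [h1, map_sum]
    have h2 : ∀ h : H, LinearMap.trace ℂ V (ρ (g * h)) = ρ.character g := by
      intro h
      rw [← hconj h]
      rfl
    simp_rw [h2]
    simp [Nat.card_eq_fintype_card]
  -- the invariants of H are trivial
  let U : Submodule ℂ V :=
    { carrier := {v | ∀ h ∈ H, ρ h v = v}
      add_mem' := by
        intro a b ha hb h hh
        rw [map_add, ha h hh, hb h hh]
      zero_mem' := by
        intro h _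
        exact map_zero _
      smul_mem' := by
        intro c v hv h hh
        rw [map_smul, hv h hh] }
  have hUinv : ∀ x, ∀ v ∈ U, ρ x v ∈ U := by
    intro x v hv h hh
    have h1 : x⁻¹ * h * x ∈ H := by
      have := ‹H.Normal›.conj_mem _ hh x⁻¹
      simpa using this
    have h2 := hv _ h1
    have h3 : ρ h (ρ x v) = ρ x (ρ (x⁻¹ * h * x) v) := by
      rw [← Module.End.mul_apply, ← map_mul, ← Module.End.mul_apply, ← map_mul]
      congr 2
      group
    rw [h3, h2]
  have hU : U = ⊥ := by
    obtain ⟨_, hirr⟩ := (isIrreducible_iff ρ).mp inferInstance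
    rcases hirr U hUinv with h | h
    · exact h
    · exfalso
      obtain ⟨h0, hh0, hne⟩ := hker
      apply hne
      apply LinearMap.ext
      intro v
      have : v ∈ U := by rw [h]; trivial
      exact this h0 hh0
  have hP : P = 0 := by
    apply LinearMap.ext
    intro v
    have hmem : P v ∈ U := by
      intro h hh
      simp only [P, LinearMap.sum_apply, map_sum]
      apply Finset.sum_equiv (Equiv.mulLeft (⟨h, hh⟩ : H))
      · simp
      · intro i _
        simp only [Equiv.coe_mulLeft]
        rw [← Module.End.mul_apply, ← map_mul]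
        rfl
    rw [hU] at hmem
    simpa using hmem
  rw [hP] at htrace
  simp only [LinearMap.comp_zero, map_zero] at htrace
  have hne : (Nat.card H : ℂ) ≠ 0 := by exact_mod_cast Nat.card_pos.ne'
  exact (mul_eq_zero.mp htrace.symm).resolve_left hne

end Cfsg.Agent.S0181
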