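import Mathlib
import Cfsg.Statements.S0185
import Cfsg.Agent.Lib.CharIntegrality
import Cfsg.Agent.Lib.CharLattice

set_option autoImplicit false
set_option linter.style.haveILetI false
open Cfsg

namespace Cfsg.Agent.S0185

open Cfsg.Agent.Lib.CharBasic
open Cfsg.Agent.Lib.CharIntegrality

/-- If a finite group has a faithful complex representation of degree less than the smallest prime dividing its order, the group is abelian. -/
theorem result {G : Type*} [Group G] [Finite G] {V : Type*} [AddCommGroup V] [Module ℂ V] [FiniteDimensional ℂ V] (ρ : Representation ℂ G V) (hfaithful : Function.Injective ρ) (hdeg : ∀ p : ℕ, p.Prime → p ∣ Nat.card G → Module.finrank ℂ V < p) (a b : G) : a * b = b * a := by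
  classical
  haveI : Fintype G := Fintype.ofFinite G
  obtain ⟨m, hm⟩ := exists_nat_decomp_rep V ρ
  -- degrees of constituents
  have hdegs : ∀ i : IrrCharacter G, ∃ d : ℕ, (i : G → ℂ) 1 = d ∧ d ∣ Nat.card G ∧ 0 < d := by
    rintro ⟨_, n, σ, hσ, rfl⟩
    refine ⟨Module.finrank ℂ (Fin n → ℂ), Representation.char_one σ, finrank_dvd_card σ hσ, ?_⟩
    obtain ⟨hnt, _⟩ := (isIrreducible_iff σ).mp hσ
    exact Module.finrank_pos
  choose d hd1 hd2 hd3 using hdegs
  have hone := congrFun hm 1
  simp only [Finset.sum_apply, Pi.smul_apply] at hone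
  simp only [nsmul_eq_mul, hd1, Representation.char_one] at hone
  have hone' : Module.finrank ℂ V = ∑ i, m i * d i := by exact_mod_cast hone
  -- all constituents are linear
  have hlin : ∀ i, m i ≠ 0 → d i = 1 := by
    intro i hi
    by_contra hne
    obtain ⟨p, hp, hpd⟩ := Nat.exists_prime_and_dvd hne
    have h1 := hdeg p hp (hpd.trans (hd2 i))
    have h2 : p ≤ d i := Nat.le_of_dvd (hd3 i) hpd
    have h3 : d i ≤ m i * d i := Nat.le_mul_of_pos_left _ (Nat.pos_of_ne_zero hi)
    have h4 : m i * d i ≤ ∑ j, m j * d j :=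
      Finset.single_le_sum (f := fun j => m j * d j) (fun _ _ => Nat.zero_le _) (Finset.mem_univ i)
    omega
  -- evaluate at the commutator
  have hcomm : ρ.character (a * b * a⁻¹ * b⁻¹) = (Module.finrank ℂ V : ℂ) := by
    rw [hm]
    simp only [Finset.sum_apply, Pi.smul_apply]
    simp only [nsmul_eq_mul]
    rw [hone']
    push_cast
    refine Finset.sum_congr rfl fun i _ => ?_
    by_cases hi : m i = 0
    · simp [hi]
    · have h1 := hlin i hi
      obtain ⟨f, hf⟩ := exists_hom_of_degree_one (IsIrrCharacter.isCharacter i.2)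
        (by rw [hd1, h1]; simp)
      rw [hf]
      have : f (a * b * a⁻¹ * b⁻¹) = 1 := by
        simp only [map_mul, map_inv]
        rw [mul_comm (f a) (f b)]
        group
      rw [this, h1]
      simp
  have h2 := (Cfsg.Agent.Lib.CharValues.character_eq_finrank_iff ρ _).mp hcomm
  have h3 : a * b * a⁻¹ * b⁻¹ = 1 := by
    apply hfaithful
    rw [h2, map_one]
    rfl
  calc a * b = a * b * a⁻¹ * b⁻¹ * (b * a) := by group
    _ = b * a := by rw [h3, one_mul]

end Cfsg.Agent.S0185
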