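import Mathlib
import Cfsg.Statements.S0186

set_option autoImplicit false
set_option linter.style.haveILetI false
open Cfsg

namespace Cfsg.Agent.S0186

theorem index_centralizer_eq {G : Type*} [Group G] [Finite G] (y : G) :
    (Subgroup.centralizer ({y} : Set G)).index = (ConjClasses.mk y).carrier.ncard := by
  have h1 := MulAction.index_stabilizer (ConjAct G) y
  rw [ConjAct.orbit_eq_carrier_conjClasses] at h1
  rw [← h1]
  have h2 : Subgroup.centralizer ({y} : Set G) =
      (MulAction.stabilizer (ConjAct G) y).comap (ConjAct.toConjAct (G := G)).toMonoidHom := by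
    ext g
    rw [Subgroup.mem_centralizer_singleton_iff, Subgroup.mem_comap, MulAction.mem_stabilizer_iff]
    have h3 : (ConjAct.toConjAct (G := G)).toMonoidHom g • y = g * y * g⁻¹ :=
      ConjAct.toConjAct_smul g y
    rw [h3, mul_inv_eq_iff_eq_mul]
  rw [h2]
  exact Subgroup.index_comap_of_surjective _ (ConjAct.toConjAct (G := G)).surjective

theorem commutator_mem {G : Type*} [Group G] [Finite G] (p : ℕ) [hp : Fact p.Prime]
    (P : Subgroup G) (hP : IsPGroup p P) (y : G)
    (hy : (ConjClasses.mk y).carrier.ncard < p ^ 2) {a b : G} (ha : a ∈ P) (hb : b ∈ P) :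
    a * b * a⁻¹ * b⁻¹ ∈ Subgroup.centralizer ({y} : Set G) := by
  set H := Subgroup.centralizer ({y} : Set G) with hH
  set S : Subgroup P := H.subgroupOf P with hS
  have hidx : S.index ≤ H.index := by
    have h1 : H.relIndex ⊤ ≠ 0 := by
      rw [Subgroup.relIndex_top_right]
      exact Subgroup.index_ne_zero_of_finite
    have h2 := Subgroup.relIndex_le_of_le_right (le_top : P ≤ ⊤) h1
    rwa [Subgroup.relIndex_top_right] at h2
  have hlt : S.index < p ^ 2 := by
    rw [hH, index_centralizer_eq] at *
    omega
  obtain ⟨n, hn⟩ := hP.index S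
  have hn1 : n < 2 := by
    rw [hn] at hlt
    exact (Nat.pow_lt_pow_iff_right hp.out.one_lt).mp hlt
  interval_cases n
  · -- S = ⊤
    rw [pow_zero, Subgroup.index_eq_one] at hn
    have ha' : (⟨a, ha⟩ : P) ∈ S := by rw [hn]; trivial
    have hb' : (⟨b, hb⟩ : P) ∈ S := by rw [hn]; trivial
    have ha2 : a ∈ H := ha'
    have hb2 : b ∈ H := hb'
    exact H.mul_mem (H.mul_mem (H.mul_mem ha2 hb2) (H.inv_mem ha2)) (H.inv_mem hb2)
  · rw [pow_one] at hn
    obtain ⟨m, hm⟩ := IsPGroup.iff_card.mp hP
    have hm0 : m ≠ 0 := by
      rintro rfl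
      rw [pow_zero] at hm
      have : S.index ∣ Nat.card P := Subgroup.index_dvd_card S
      rw [hm, hn] at this
      exact hp.out.one_lt.ne' (Nat.dvd_one.mp this)
    have hmf : S.index = (Nat.card P).minFac := by
      rw [hm, hn, Nat.Prime.pow_minFac hp.out hm0]
    haveI hSn : S.Normal := Subgroup.normal_of_index_eq_minFac_card hmf
    have hcardq : Nat.card (P ⧸ S) = p := by
      rw [← Subgroup.index_eq_card, hn]
    haveI : IsCyclic (P ⧸ S) := isCyclic_of_prime_card hcardq
    have hcomm : IsMulCommutative (P ⧸ S) := by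
      infer_instance
    have hle : commutator P ≤ S :=
      Subgroup.Normal.quotient_commutative_iff_commutator_le.mp hcomm
    have hmem : (⟨a, ha⟩ : P) * ⟨b, hb⟩ * (⟨a, ha⟩ : P)⁻¹ * (⟨b, hb⟩ : P)⁻¹ ∈ commutator P := by
      rw [commutator_def]
      exact Subgroup.commutator_mem_commutator (g₁ := (⟨a, ha⟩ : P)) (g₂ := (⟨b, hb⟩ : P))
        (Subgroup.mem_top _) (Subgroup.mem_top _)
    have := hle hmem
    rw [hS, Subgroup.mem_subgroupOf] at this
    simpa using this

/-- Let G be a finite simple group of order n and p a prime dividing n. If G has more than n / p^2 conjugacy classes, then every Sylow p-subgroup of G is abelian. -/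
theorem result {G : Type*} [Group G] [Finite G] [IsSimpleGroup G] (p : ℕ) [Fact p.Prime] (hp : p ∣ Nat.card G) (hmany : Nat.card G < p ^ 2 * Nat.card (ConjClasses G)) (P : Sylow p G) (a b : G) (ha : a ∈ P) (hb : b ∈ P) : a * b = b * a := by
  classical
  by_cases hcomm : ∀ x y : G, x * y = y * x
  · exact hcomm a b
  have hcenter : Subgroup.center G = ⊥ := by
    rcases (inferInstance : (Subgroup.center G).Normal).eq_bot_or_eq_top with h | h
    · exact h
    · exfalso
      apply hcomm
      intro x y
      have hx : x ∈ Subgroup.center G := by rw [h]; trivial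
      exact (Subgroup.mem_center_iff.mp hx y).symm
  have hprime : Nat.Prime p := Fact.out
  by_cases hex : ∃ x : G, x ≠ 1 ∧ (ConjClasses.mk x).carrier.ncard < p ^ 2
  · obtain ⟨x, hx1, hxc⟩ := hex
    -- the centralizer of the class is a normal subgroup, not everything
    let K : Subgroup G :=
      { carrier := {g | ∀ y, IsConj x y → g * y = y * g}
        mul_mem' := by
          intro g h hg hh y hy
          show g * h * y = y * (g * h)
          rw [mul_assoc, hh y hy, ← mul_assoc, hg y hy, mul_assoc]
        one_mem' := by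
          intro y _
          simp
        inv_mem' := by
          intro g hg y hy
          have := hg y hy
          show g⁻¹ * y = y * g⁻¹
          rw [inv_mul_eq_iff_eq_mul, ← mul_assoc, this, mul_assoc, mul_inv_cancel, mul_one] }
    have hKn : K.Normal := by
      constructor
      intro g hg c y hy
      -- c g c⁻¹ commutes with y iff g commutes with c⁻¹ y c
      have h1 : IsConj x (c⁻¹ * y * c) := by
        refine hy.trans ?_
        rw [isConj_iff]
        exact ⟨c⁻¹, by group⟩
      have h2 := hg _ h1
      calc c * g * c⁻¹ * y = c * (g * (c⁻¹ * y * c)) * c⁻¹ := by group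
        _ = c * ((c⁻¹ * y * c) * g) * c⁻¹ := by rw [h2]
        _ = y * (c * g * c⁻¹) := by group
    have hKtop : K ≠ ⊤ := by
      intro h
      have hxz : x ∈ Subgroup.center G := by
        rw [Subgroup.mem_center_iff]
        intro g
        have hg : g ∈ K := by rw [h]; trivial
        exact hg x (IsConj.refl x)
      rw [hcenter] at hxz
      exact hx1 (Subgroup.mem_bot.mp hxz)
    have hKbot : K = ⊥ := (hKn.eq_bot_or_eq_top).resolve_right hKtop
    have hmem : a * b * a⁻¹ * b⁻¹ ∈ K := by
      intro y hy
      have hy' : (ConjClasses.mk y).carrier.ncard < p ^ 2 := by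
        rwa [ConjClasses.mk_eq_mk_iff_isConj.mpr hy.symm]
      have := commutator_mem p (P : Subgroup G) P.isPGroup' y hy' ha hb
      exact Subgroup.mem_centralizer_singleton_iff.mp this
    rw [hKbot, Subgroup.mem_bot] at hmem
    calc a * b = (a * b * a⁻¹ * b⁻¹) * (b * a) := by group
      _ = b * a := by rw [hmem, one_mul]
  · push Not at hex
    -- class equation: p ^ 2 does not divide |G|
    haveI : Fintype (ConjClasses G) := Fintype.ofFinite _
    have hsum : ∑ C : ConjClasses G, C.carrier.ncard = Nat.card G := by
      have := Group.sum_card_conj_classes_eq_card (G := G)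
      rwa [finsum_eq_sum_of_fintype] at this
    set k := Nat.card (ConjClasses G) with hk
    have hkc : k = Fintype.card (ConjClasses G) := Nat.card_eq_fintype_card
    have hbound : 1 + (k - 1) * p ^ 2 ≤ Nat.card G := by
      rw [← hsum, ← Finset.add_sum_erase Finset.univ _ (Finset.mem_univ (ConjClasses.mk (1 : G)))]
      have h1 : (ConjClasses.mk (1 : G)).carrier.ncard = 1 := by
        have : (ConjClasses.mk (1 : G)).carrier = {1} := by
          ext z
          rw [ConjClasses.mem_carrier_iff_mk_eq, ConjClasses.mk_eq_mk_iff_isConj,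
            Set.mem_singleton_iff, isConj_one_left]
        rw [this, Set.ncard_singleton]
      rw [h1]
      apply Nat.add_le_add_left
      have h2 : ((Finset.univ.erase (ConjClasses.mk (1 : G))).card) • p ^ 2 ≤
          ∑ C ∈ Finset.univ.erase (ConjClasses.mk (1 : G)), C.carrier.ncard := by
        apply Finset.card_nsmul_le_sum
        intro C hC
        obtain ⟨z, rfl⟩ := ConjClasses.mk_surjective C
        apply hex
        rintro rfl
        exact (Finset.mem_erase.mp hC).1 rfl
      rw [Finset.card_erase_of_mem (Finset.mem_univ _), Finset.card_univ, ← hkc,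
        smul_eq_mul] at h2
      exact h2
    have hnd : ¬ p ^ 2 ∣ Nat.card G := by
      rintro ⟨m, hm⟩
      have hkpos : 0 < k := Nat.card_pos
      have h1 : k - 1 < m := by
        by_contra hcon
        push Not at hcon
        have : p ^ 2 * m ≤ (k - 1) * p ^ 2 := by
          rw [mul_comm (k - 1)]
          exact Nat.mul_le_mul_left _ hcon
        omega
      have h2 : k ≤ m := by omega
      have : p ^ 2 * k ≤ p ^ 2 * m := Nat.mul_le_mul_left _ h2
      omega
    have hPcard := Sylow.card_eq_multiplicity P
    have hP : IsPGroup p P := P.isPGroup'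
    obtain ⟨m, hm⟩ := IsPGroup.iff_card.mp hP
    have hdvd : p ^ m ∣ Nat.card G := by
      rw [← hm]
      exact Subgroup.card_subgroup_dvd_card _
    have hm2 : m < 2 := by
      by_contra hcon
      push Not at hcon
      exact hnd ((pow_dvd_pow p hcon).trans hdvd)
    interval_cases m
    · rw [pow_zero] at hm
      haveI : Subsingleton P := (Nat.card_eq_one_iff_unique.mp hm).1
      have : (⟨a, ha⟩ : P) = ⟨b, hb⟩ := Subsingleton.elim _ _
      have hab : a = b := congrArg Subtype.val this
      rw [hab]
    · rw [pow_one] at hm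
      haveI : IsCyclic P := isCyclic_of_prime_card hm
      have := mul_comm' (M := P) ⟨a, ha⟩ ⟨b, hb⟩
      exact congrArg Subtype.val this

end Cfsg.Agent.S0186
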