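import Mathlib
import Cfsg.Statements.S0188
import Cfsg.Agent.Lib.CharBasic

set_option autoImplicit false
set_option linter.style.haveILetI false
open Cfsg
open scoped ComplexConjugate

namespace Cfsg.Agent.S0188

open Cfsg.Agent.Lib.CharBasic

theorem classInner_prod {G : Type*} [Group G] [Fintype G] {H : Type*} [Group H] [Fintype H]
    (φ₁ φ₂ : G → ℂ) (ψ₁ ψ₂ : H → ℂ) :
    classInner (fun x : G × H => φ₁ x.1 * ψ₁ x.2) (fun x : G × H => φ₂ x.1 * ψ₂ x.2) =
      classInner φ₁ φ₂ * classInner ψ₁ ψ₂ := by
  unfold classInner
  rw [Nat.card_prod, Fintype.sum_prod_type]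
  push_cast
  rw [mul_inv, mul_mul_mul_comm, Finset.sum_mul_sum]
  congr 1
  refine Finset.sum_congr rfl fun x _ => Finset.sum_congr rfl fun y _ => ?_
  simp only [map_mul]
  ring

/-- The irreducible complex characters of G × H are precisely the functions (g, h) ↦ φ g * ψ h with φ, ψ irreducible characters of G and H. -/
theorem result {G : Type*} [Group G] [Finite G] {H : Type*} [Group H] [Finite H] (θ : G × H → ℂ) : Cfsg.IsIrrCharacter (G × H) θ ↔ ∃ (φ : G → ℂ) (ψ : H → ℂ), Cfsg.IsIrrCharacter G φ ∧ Cfsg.IsIrrCharacter H ψ ∧ θ = fun x => φ x.1 * ψ x.2 := by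
  classical
  haveI : Fintype G := Fintype.ofFinite G
  haveI : Fintype H := Fintype.ofFinite H
  constructor
  · intro hθ
    have hθc := IsIrrCharacter.isCharacter hθ
    have hθcl := isClassFunction_of_isCharacter hθc
    suffices hex : ∃ (φ : IrrCharacter G) (ψ : IrrCharacter H),
        classInner θ (fun x : G × H => (φ : G → ℂ) x.1 * (ψ : H → ℂ) x.2) ≠ 0 by
      obtain ⟨φ, ψ, hne⟩ := hex
      have hirr : IsIrrCharacter (G × H) (fun x : G × H => (φ : G → ℂ) x.1 * (ψ : H → ℂ) x.2) := by
        rw [isIrrCharacter_iff_norm_one]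
        constructor
        · exact isCharacter_mul
            (isCharacter_comp (MonoidHom.fst G H) (IsIrrCharacter.isCharacter φ.2))
            (isCharacter_comp (MonoidHom.snd G H) (IsIrrCharacter.isCharacter ψ.2))
        · rw [classInner_prod, classInner_irr_self φ.2, classInner_irr_self ψ.2, one_mul]
      refine ⟨φ, ψ, φ.2, ψ.2, ?_⟩
      by_contra hcon
      exact hne (classInner_irr_ne hθ hirr hcon)
    by_contra hall
    push Not at hall
    have hG : (Nat.card G : ℂ) ≠ 0 := natCard_ne_zero'
    have hH : (Nat.card H : ℂ) ≠ 0 := natCard_ne_zero'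
    -- first step: fix φ
    have hsum : ∀ (φ : IrrCharacter G) (y : H),
        ∑ x : G, θ (x, y) * conj ((φ : G → ℂ) x) = 0 := by
      intro φ
      have hg : (fun y : H => ∑ x : G, θ (x, y) * conj ((φ : G → ℂ) x)) = 0 := by
        apply eq_zero_of_orthogonal
        · intro y h
          refine Finset.sum_congr rfl fun x _ => ?_
          have := hθcl (x, y) (1, h)
          have h0 : ((1 : G), h) * (x, y) * ((1 : G), h)⁻¹ = (x, h * y * h⁻¹) :=
            Prod.ext (by simp) (by simp)
          rw [h0] at this
          rw [this]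
        · intro ψ
          have h1 := hall φ ψ
          unfold classInner at h1 ⊢
          rw [Nat.card_prod, Fintype.sum_prod_type] at h1
          have h2 := (mul_eq_zero.mp h1).resolve_left (by
            push_cast
            exact inv_ne_zero (mul_ne_zero hG hH))
          rw [Finset.sum_comm] at h2
          rw [mul_eq_zero]
          right
          rw [← h2]
          refine Finset.sum_congr rfl fun y _ => ?_
          rw [Finset.sum_mul]
          refine Finset.sum_congr rfl fun x _ => ?_
          simp only [map_mul]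
          ring
      exact fun y => congrFun hg y
    -- second step: fix y
    have hzero : ∀ y : H, (fun x : G => θ (x, y)) = 0 := by
      intro y
      apply eq_zero_of_orthogonal
      · intro x h
        have := hθcl (x, y) (h, 1)
        have h0 : (h, (1 : H)) * (x, y) * (h, (1 : H))⁻¹ = (h * x * h⁻¹, y) :=
          Prod.ext (by simp) (by simp)
        rw [h0] at this
        exact this
      · intro φ
        unfold classInner
        rw [hsum φ y, mul_zero]
    have h1 : θ (1, 1) = 0 := congrFun (hzero 1) 1
    obtain ⟨n, ρ, hρ, rfl⟩ := hθ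
    rw [show ((1 : G), (1 : H)) = 1 from rfl, Representation.char_one] at h1
    obtain ⟨hnt, _⟩ := (isIrreducible_iff ρ).mp hρ
    have h2 : 0 < Module.finrank ℂ (Fin n → ℂ) := Module.finrank_pos
    have h3 : Module.finrank ℂ (Fin n → ℂ) = 0 := by exact_mod_cast h1
    omega
  · rintro ⟨φ, ψ, hφ, hψ, rfl⟩
    rw [isIrrCharacter_iff_norm_one]
    constructor
    · exact isCharacter_mul
        (isCharacter_comp (MonoidHom.fst G H) (IsIrrCharacter.isCharacter hφ))
        (isCharacter_comp (MonoidHom.snd G H) (IsIrrCharacter.isCharacter hψ))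
    · rw [classInner_prod, classInner_irr_self hφ, classInner_irr_self hψ, one_mul]

end Cfsg.Agent.S0188
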