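import Mathlib
import Cfsg.Statements.S0189

set_option autoImplicit false
set_option linter.style.haveILetI false
open Cfsg

namespace Cfsg.Agent.S0189

/-- If a complex character of a finite group vanishes at every non-identity element of a Sylow p-subgroup P, then |P| divides its degree. -/
theorem result {G : Type*} [Group G] [Finite G] (p : ℕ) [Fact p.Prime] (P : Sylow p G) (χ : G → ℂ) (hχ : Cfsg.IsCharacter G χ) (hvan : ∀ g : G, g ∈ P → g ≠ 1 → χ g = 0) : ∃ k : ℕ, χ 1 = (Nat.card P : ℂ) * k := by
  classical
  obtain ⟨n, ρ, rfl⟩ := hχ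
  let Q : Subgroup G := P
  let σ : Representation ℂ Q (Fin n → ℂ) := ρ.comp Q.subtype
  haveI : Fintype Q := Fintype.ofFinite _
  haveI : NeZero (Nat.card Q : ℂ) := ⟨by simp [Nat.card_eq_fintype_card]⟩
  haveI : Invertible (Nat.card Q : ℂ) := invertibleOfNonzero (NeZero.ne _)
  have key := Representation.card_inv_mul_sum_char_eq_finrank σ
  refine ⟨Module.finrank ℂ (Representation.invariants σ), ?_⟩
  have hcard : (Nat.card P : ℂ) = (Nat.card Q : ℂ) := rfl
  rw [hcard, ← key]
  have hs : ∑ g : Q, σ.character g = ρ.character 1 := by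
    rw [Finset.sum_eq_single (1 : Q)]
    · simp [σ, Representation.character]
    · intro b _ hb
      have : ρ.character (b : G) = 0 := hvan _ b.2 (by simpa using hb)
      simpa [σ, Representation.character] using this
    · simp
  rw [hs, mul_inv_cancel_left₀ (NeZero.ne _)]

end Cfsg.Agent.S0189
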