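import Mathlib
import Cfsg.Statements.S0190

set_option autoImplicit false
open Cfsg

namespace Cfsg.Agent.S0190

theorem extendByZero_one {G : Type*} [Group G] (H : Subgroup G) (z : G) [Decidable (z ∈ H)] :
    extendByZero H (fun _ => (1 : ℂ)) z = if z ∈ H then 1 else 0 := by
  unfold extendByZero
  split_ifs with h
  · have := (Subtype.val_injective (p := (· ∈ H))).extend_apply (fun _ => (1 : ℂ)) 0 ⟨z, h⟩
    simpa using this
  · apply Function.extend_apply'
    rintro ⟨a, rfl⟩
    exact h a.2

/-- For a transitive action of a finite group on X, the permutation character g ↦ (number of fixed points of g) is the function induced from the principal character of the stabilizer of any point. -/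
theorem result {G : Type*} [Group G] [Fintype G] (X : Type*) [MulAction G X] [Finite X] [MulAction.IsPretransitive G X] (x : X) : (fun g : G => (Nat.card (MulAction.fixedBy X g) : ℂ)) = Cfsg.indFun (MulAction.stabilizer G x) (fun _ => 1) := by
  classical
  funext g
  haveI : Fintype X := Fintype.ofFinite X
  set H := MulAction.stabilizer G x with hH
  have hfiber : ∀ z : X, (Finset.univ.filter (fun y : G => y • x = z)).card = Nat.card H := by
    intro z
    obtain ⟨y0, rfl⟩ := MulAction.exists_smul_eq G x z
    rw [Nat.card_eq_fintype_card, ← Finset.card_univ]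
    symm
    apply Finset.card_bij (fun (h : H) _ => y0 * (h : G))
    · intro h _
      simp only [Finset.mem_filter, Finset.mem_univ, true_and]
      rw [mul_smul, (show (h : G) • x = x from h.2)]
    · intro a _ b _ h
      exact Subtype.ext (mul_left_cancel h)
    · intro b hb
      simp only [Finset.mem_filter, Finset.mem_univ, true_and] at hb
      refine ⟨⟨y0⁻¹ * b, ?_⟩, Finset.mem_univ _, by simp⟩
      rw [hH, MulAction.mem_stabilizer_iff, mul_smul, hb, inv_smul_smul]
  have hmem : ∀ y : G, y⁻¹ * g * y ∈ H ↔ y • x ∈ MulAction.fixedBy X g := by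
    intro y
    rw [hH, MulAction.mem_stabilizer_iff, MulAction.mem_fixedBy, mul_smul, mul_smul, inv_smul_eq_iff]
  have hcount : (Finset.univ.filter (fun y : G => y⁻¹ * g * y ∈ H)).card =
      Nat.card (MulAction.fixedBy X g) * Nat.card H := by
    rw [Nat.card_eq_fintype_card (α := MulAction.fixedBy X g)]
    have h1 : Fintype.card (MulAction.fixedBy X g) =
        (Finset.univ.filter (fun z : X => z ∈ MulAction.fixedBy X g)).card := by
      rw [Fintype.card_subtype]
    rw [h1, Finset.card_eq_sum_card_fiberwise (f := fun y : G => y • x)
      (t := Finset.univ.filter (fun z : X => z ∈ MulAction.fixedBy X g))]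
    · rw [Finset.sum_congr rfl (g := fun _ => Nat.card H), Finset.sum_const, smul_eq_mul]
      intro z hz
      rw [← hfiber z]
      congr 1
      ext y
      simp only [Finset.mem_filter, Finset.mem_univ, true_and] at hz ⊢
      constructor
      · rintro ⟨_, h⟩; exact h
      · intro h
        refine ⟨?_, h⟩
        rw [hmem, h]; exact hz
    · intro y hy
      simp only [Finset.coe_filter, Finset.mem_univ, true_and, Set.mem_setOf_eq] at hy ⊢
      exact (hmem y).mp hy
  have hHne : (Nat.card H : ℂ) ≠ 0 := by
    exact_mod_cast Nat.card_pos.ne'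
  unfold indFun
  have hsum : ∑ y : G, extendByZero H (fun _ => (1 : ℂ)) (y⁻¹ * g * y) =
      ((Finset.univ.filter (fun y : G => y⁻¹ * g * y ∈ H)).card : ℂ) := by
    simp_rw [extendByZero_one]
    rw [Finset.sum_ite, Finset.sum_const_zero, add_zero, Finset.sum_const]
    simp
  rw [hsum, hcount]
  push_cast
  field_simp

end Cfsg.Agent.S0190
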