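import Mathlib
import Cfsg.Statements.S0192
import Cfsg.Agent.Lib.CharBasic

set_option autoImplicit false
set_option linter.style.haveILetI false
open Cfsg

namespace Cfsg.Agent.S0192

open Cfsg.Agent.Lib.CharBasic

theorem classInner_restrict_one {G : Type*} [Group G] {n : ℕ}
    (ρ : Representation ℂ G (Fin n → ℂ)) (H : Subgroup G) [Fintype H] :
    Cfsg.classInner (fun x : H => ρ.character x) (fun _ => 1) =
      (Module.finrank ℂ (Representation.invariants (ρ.comp H.subtype)) : ℂ) := by
  haveI : NeZero (Nat.card H : ℂ) := ⟨by simp [Nat.card_eq_fintype_card]⟩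
  haveI : Invertible (Nat.card H : ℂ) := invertibleOfNonzero (NeZero.ne _)
  rw [← Representation.card_inv_mul_sum_char_eq_finrank (ρ.comp H.subtype)]
  unfold Cfsg.classInner
  congr 1
  refine Finset.sum_congr rfl fun x _ => ?_
  simp [Representation.character]

/-- Brauer's generation criterion. Let G be a finite simple group, H₁ and H₂ subgroups, and χ a non-principal irreducible character. If the multiplicity of the principal character in χ restricted to H₁ ⊓ H₂ is less than the sum of the corresponding multiplicities for H₁ and H₂, then H₁ and H₂ do not generate G. -/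
theorem result {G : Type*} [Group G] [Fintype G] [IsSimpleGroup G] (H₁ H₂ : Subgroup G) [Fintype H₁] [Fintype H₂] [Fintype ↥(H₁ ⊓ H₂)] (χ : G → ℂ) (hχ : Cfsg.IsIrrCharacter G χ) (hχ1 : χ ≠ fun _ => 1) (hlt : (Cfsg.classInner (fun x : ↥(H₁ ⊓ H₂) => χ x) (fun _ => 1)).re < (Cfsg.classInner (fun x : H₁ => χ x) (fun _ => 1)).re + (Cfsg.classInner (fun x : H₂ => χ x) (fun _ => 1)).re) : H₁ ⊔ H₂ ≠ ⊤ := by
  classical
  obtain ⟨n, ρ, hρ, rfl⟩ := hχ
  rw [classInner_restrict_one, classInner_restrict_one, classInner_restrict_one] at hlt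
  simp only [Complex.natCast_re] at hlt
  have hlt' : Module.finrank ℂ (Representation.invariants (ρ.comp (H₁ ⊓ H₂).subtype)) <
      Module.finrank ℂ (Representation.invariants (ρ.comp H₁.subtype)) +
      Module.finrank ℂ (Representation.invariants (ρ.comp H₂.subtype)) := by
    exact_mod_cast hlt
  set U1 := Representation.invariants (ρ.comp H₁.subtype) with hU1
  set U2 := Representation.invariants (ρ.comp H₂.subtype) with hU2
  set U12 := Representation.invariants (ρ.comp (H₁ ⊓ H₂).subtype) with hU12
  have hle1 : U1 ≤ U12 := by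
    intro v hv x
    exact hv ⟨x.1, x.2.1⟩
  have hle2 : U2 ≤ U12 := by
    intro v hv x
    exact hv ⟨x.1, x.2.2⟩
  have hsup : U1 ⊔ U2 ≤ U12 := sup_le hle1 hle2
  have hfr := Submodule.finrank_sup_add_finrank_inf_eq U1 U2
  have hfr2 := Submodule.finrank_mono hsup
  have hne : U1 ⊓ U2 ≠ ⊥ := by
    intro h
    rw [h, finrank_bot] at hfr
    omega
  obtain ⟨v, hv, hv0⟩ := Submodule.exists_mem_ne_zero_of_ne_bot hne
  intro htop
  apply hχ1
  -- v is fixed by all of G
  let S : Subgroup G :=
    { carrier := {g | ρ g v = v}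
      mul_mem' := by
        intro a b ha hb
        show ρ (a * b) v = v
        rw [map_mul, Module.End.mul_apply, hb, ha]
      one_mem' := by
        show ρ 1 v = v
        simp
      inv_mem' := by
        intro a ha
        show ρ a⁻¹ v = v
        have : ρ a⁻¹ (ρ a v) = v := by
          rw [← Module.End.mul_apply, ← map_mul]
          simp
        rwa [show ρ a v = v from ha] at this }
  have hS1 : H₁ ≤ S := fun x hx => hv.1 ⟨x, hx⟩
  have hS2 : H₂ ≤ S := fun x hx => hv.2 ⟨x, hx⟩
  have hStop : S = ⊤ := by
    apply top_le_iff.mp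
    rw [← htop]
    exact sup_le hS1 hS2
  have hfix : ∀ g, ρ g v = v := by
    intro g
    have : g ∈ S := by rw [hStop]; trivial
    exact this
  have hspan : Submodule.span ℂ {v} = ⊤ := by
    obtain ⟨_, hirr⟩ := (isIrreducible_iff ρ).mp hρ
    rcases hirr (Submodule.span ℂ {v}) (by
      intro g w hw
      obtain ⟨c, rfl⟩ := Submodule.mem_span_singleton.mp hw
      rw [map_smul, hfix]
      exact Submodule.smul_mem _ _ (Submodule.mem_span_singleton_self v)) with h | h
    · exfalso
      rw [Submodule.span_singleton_eq_bot] at h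
      exact hv0 h
    · exact h
  funext g
  have hid : ρ g = LinearMap.id := by
    apply LinearMap.ext
    intro w
    have hw : w ∈ Submodule.span ℂ {v} := by rw [hspan]; trivial
    obtain ⟨c, rfl⟩ := Submodule.mem_span_singleton.mp hw
    rw [map_smul, hfix]
    rfl
  have hfr1 : Module.finrank ℂ (Fin n → ℂ) = 1 := by
    have := finrank_span_singleton (K := ℂ) hv0
    rw [hspan, finrank_top] at this
    exact this
  show LinearMap.trace ℂ _ (ρ g) = 1
  rw [hid]
  have := LinearMap.trace_id (R := ℂ) (M := Fin n → ℂ)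
  rw [this, hfr1]
  simp

end Cfsg.Agent.S0192
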