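import Mathlib
import Cfsg.Statements.S0194
import Cfsg.Agent.S0161
import Cfsg.Agent.Lib.CharInduction

set_option autoImplicit false
set_option linter.style.haveILetI false
open Cfsg
open scoped ComplexConjugate

namespace Cfsg.Agent.S0194

open Cfsg.Agent.Lib.CharBasic
open Cfsg.Agent.Lib.CharInd
open Cfsg.Agent.Lib.CharTable
open Cfsg.Agent.Lib.CharInduction

theorem extendByZero_conj {G : Type*} [Group G] (H : Subgroup G) (θ : H → ℂ) (z : G) :
    extendByZero H (fun h => conj (θ h)) z = conj (extendByZero H θ z) := by
  by_cases hz : z ∈ H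
  · rw [extendByZero_of_mem H _ hz, extendByZero_of_mem H _ hz]
  · rw [extendByZero_of_not_mem H _ hz, extendByZero_of_not_mem H _ hz, map_zero]

theorem indFun_conj' {G : Type*} [Group G] [Fintype G] (H : Subgroup G) (θ : H → ℂ) :
    (fun g => conj (indFun H θ g)) = indFun H (fun h => conj (θ h)) := by
  funext g
  simp only [indFun_apply, map_mul, map_inv₀, map_natCast, map_sum, extendByZero_conj]

/-- Let G have odd order, H be a normal subgroup and θ a non-principal irreducible character of H. Then the function induced from θ is orthogonal to its complex conjugate. -/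
theorem result {G : Type*} [Group G] [Fintype G] (hodd : Odd (Nat.card G)) (H : Subgroup G) [H.Normal] (θ : H → ℂ) (hθ : Cfsg.IsIrrCharacter H θ) (hθ1 : θ ≠ fun _ => 1) : Cfsg.classInner (fun g => conj (Cfsg.indFun H θ g)) (Cfsg.indFun H θ) = 0 := by
  classical
  haveI : Fintype H := Fintype.ofFinite H
  have hN : H.Normal := inferInstance
  rw [indFun_conj', classInner_indFun_indFun H hN]
  have hθc : IsIrrCharacter H (fun h => conj (θ h)) := isIrrCharacter_conj hθ
  have hzero : ∀ x y : G, classInner (conjBy H hN x (fun h => conj (θ h))) (conjBy H hN y θ) = 0 := by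
    intro x y
    apply classInner_irr_ne (isIrrCharacter_conjBy H hN x hθc) (isIrrCharacter_conjBy H hN y hθ)
    intro heq
    -- θ̄ = θ^g
    set g := y * x⁻¹ with hg
    have h1 : (fun h => conj (θ h)) = conjBy H hN g θ := by
      have h2 := congrArg (conjBy H hN x⁻¹) heq
      rw [conjBy_conjBy, conjBy_conjBy, mul_inv_cancel, conjBy_one] at h2
      exact h2
    have hconjc : ∀ (a : G) (f : H → ℂ), conjBy H hN a (fun h => conj (f h)) =
        fun h => conj (conjBy H hN a f h) := fun a f => rfl
    have h3 : θ = conjBy H hN (g * g) θ := by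
      rw [← conjBy_conjBy, ← h1, hconjc, ← h1]
      funext h
      simp
    have h4 : ∀ n : ℕ, conjBy H hN ((g * g) ^ n) θ = θ := by
      intro n
      induction n with
      | zero => simp [conjBy_one]
      | succ n ih =>
        rw [pow_succ, ← conjBy_conjBy, ih, ← h3]
    obtain ⟨k, hk⟩ := hodd
    have h5 : (g * g) ^ (k + 1) = g := by
      have hpow : g ^ (Nat.card G) = 1 := pow_card_eq_one'
      rw [hk] at hpow
      calc (g * g) ^ (k + 1) = g ^ (2 * (k + 1)) := by
            rw [pow_mul, pow_two]
        _ = g ^ (2 * k + 1) * g := by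
            rw [← pow_succ]
            congr 1
        _ = g := by rw [hpow, one_mul]
    have h6 : conjBy H hN g θ = θ := by
      rw [← h5]
      exact h4 _
    have h7 : (fun h => conj (θ h)) = θ := by rw [h1, h6]
    -- θ is real, H has odd order
    have hoddH : Odd (Nat.card H) := by
      have hd : Nat.card H ∣ Nat.card G := Subgroup.card_subgroup_dvd_card H
      exact Odd.of_dvd_nat ⟨k, hk⟩ hd
    have h8 := Cfsg.Agent.S0161.result hoddH ⟨θ, hθ⟩ (by
      intro h
      have := congrFun h7 h
      exact Complex.conj_eq_iff_im.mp this)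
    exact hθ1 h8
  simp [hzero]

end Cfsg.Agent.S0194
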