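import Mathlib
import Cfsg.Statements.S0196

set_option autoImplicit false
set_option linter.style.haveILetI false
open Cfsg

namespace Cfsg.Agent.S0196

/-- Let A be a subgroup of a finite group G that equals the centralizer of each of its non-identity elements, and let N be its normalizer. Then the index of A in N divides |A| − 1 (N/A permutes the non-identity elements of A in orbits of full length). -/
theorem result {G : Type*} [Group G] [Finite G] (A : Subgroup G) (hA : ∀ x ∈ A, x ≠ 1 → Subgroup.centralizer ({x} : Set G) = A) : (A.subgroupOf (Subgroup.normalizer (A : Set G))).index ∣ Nat.card A - 1 := by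
  classical
  haveI : Fintype G := Fintype.ofFinite G
  set N := Subgroup.normalizer (A : Set G) with hN
  have hAN : A ≤ N := Subgroup.le_normalizer
  let X := {x : G // x ∈ A ∧ x ≠ 1}
  have hmem : ∀ (g : N) (x : G), x ∈ A → (g : G) * x * (g : G)⁻¹ ∈ A := by
    intro g x hx
    exact (Subgroup.mem_normalizer_iff.mp g.2 x).mp hx
  have hne : ∀ (g : N) (x : G), x ≠ 1 → (g : G) * x * (g : G)⁻¹ ≠ 1 := by
    intro g x hx h
    apply hx
    have h' : x = (g : G)⁻¹ * ((g : G) * x * (g : G)⁻¹) * (g : G) := by group
    rw [h', h]; group
  letI act : MulAction N X :=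
    { smul := fun g x => ⟨(g : G) * x.1 * (g : G)⁻¹, hmem g x.1 x.2.1, hne g x.1 x.2.2⟩
      one_smul := by
        intro x
        apply Subtype.ext
        show ((1 : N) : G) * x.1 * ((1 : N) : G)⁻¹ = x.1
        simp
      mul_smul := by
        intro a b x
        apply Subtype.ext
        show ((a * b : N) : G) * x.1 * ((a * b : N) : G)⁻¹ =
          (a : G) * ((b : G) * x.1 * (b : G)⁻¹) * (a : G)⁻¹
        simp only [Subgroup.coe_mul, mul_inv_rev]
        group }
  have hstab : ∀ x : X, MulAction.stabilizer N x = A.subgroupOf N := by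
    intro x
    ext g
    rw [MulAction.mem_stabilizer_iff, Subgroup.mem_subgroupOf, ← hA x.1 x.2.1 x.2.2,
      Subgroup.mem_centralizer_singleton_iff]
    constructor
    · intro h
      have h2 : (g : G) * x.1 * (g : G)⁻¹ = x.1 := congrArg Subtype.val h
      rw [mul_inv_eq_iff_eq_mul] at h2
      exact h2
    · intro h
      apply Subtype.ext
      show (g : G) * x.1 * (g : G)⁻¹ = x.1
      rw [mul_inv_eq_iff_eq_mul]
      exact h
  have hcard : Nat.card X = Nat.card A - 1 := by
    have h1 : Nat.card X = Nat.card {x : A // x ≠ 1} := by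
      apply Nat.card_congr
      exact
        { toFun := fun x => ⟨⟨x.1, x.2.1⟩, fun h => x.2.2 (congrArg Subtype.val h)⟩
          invFun := fun x => ⟨x.1.1, x.1.2, fun h => x.2 (Subtype.ext h)⟩
          left_inv := fun _ => rfl
          right_inv := fun _ => rfl }
    rw [h1]
    haveI : Fintype A := Fintype.ofFinite _
    rw [Nat.card_eq_fintype_card, Nat.card_eq_fintype_card, Fintype.card_subtype_compl]
    simp
  rw [← hcard]
  haveI : Fintype X := Fintype.ofFinite _
  rw [Nat.card_congr (MulAction.selfEquivSigmaOrbits N X), Nat.card_sigma]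
  apply Finset.dvd_sum
  intro ω _
  have := MulAction.index_stabilizer N (Quotient.out ω)
  rw [hstab] at this
  rw [this, Set.ncard]
  exact dvd_rfl

end Cfsg.Agent.S0196
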