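-- Statement S0211
import Cfsg.Statements.S0211
import Cfsg.Agent.Lib.InvolutionPairs

set_option autoImplicit false
open Cfsg

namespace Cfsg.Agent.S0211

open Cfsg.Agent.Lib.InvolutionPairs in
/-- Let x, y be involutions with xy of even order n and z = (xy)^(n/2). Then xz is conjugate to x by an element of the subgroup generated by x, y if and only if 4 divides n. -/
theorem result {G : Type*} [Group G] [Finite G] (x y : G) (hx : orderOf x = 2) (hy : orderOf y = 2) (heven : Even (orderOf (x * y))) : (∃ d ∈ Subgroup.closure ({x, y} : Set G), d * x * d⁻¹ = x * (x * y) ^ (orderOf (x * y) / 2)) ↔ 4 ∣ orderOf (x * y) := by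
  have hx' := mul_self_of_orderOf hx
  have hy' := mul_self_of_orderOf hy
  have hcomm := half_pow_commute_left x y hx' hy' heven
  constructor
  · rintro ⟨d, hd, hdx⟩
    obtain ⟨k, hk⟩ := conj_x_of_mem x y hx' hy' d hd
    rw [hk, ← hcomm.eq] at hdx
    have h1 : (x * y) ^ (2 * k) = (x * y) ^ (((orderOf (x * y) / 2 : ℕ)) : ℤ) := by
      rw [zpow_natCast]
      exact mul_right_cancel hdx
    rw [zpow_eq_zpow_iff_modEq] at h1
    obtain ⟨m, hm⟩ := heven
    have h2 : orderOf (x * y) / 2 = m := by omega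
    rw [h2, hm] at h1
    rw [hm]
    have h3 := h1.symm.dvd
    obtain ⟨c, hc⟩ := h3
    push_cast at hc
    have h4 : (2 * k - m : ℤ) = 2 * (m * c) := by
      rw [hc]; ring
    have h5 : ∃ l : ℤ, (m : ℤ) = 2 * l := ⟨k - m * c, by omega⟩
    obtain ⟨l, hl⟩ := h5
    have h6 : (4 : ℤ) ∣ ((m + m : ℕ) : ℤ) := by
      push_cast
      rw [hl]
      exact ⟨l, by ring⟩
    exact_mod_cast h6
  · rintro ⟨c, hc⟩
    obtain ⟨d, hd, hdx⟩ := exists_conj_of_zpow x y hx' hy' (c : ℤ)
    refine ⟨d, hd, ?_⟩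
    rw [hdx, ← hcomm.eq]
    congr 1
    have h2 : orderOf (x * y) / 2 = 2 * c := by omega
    rw [h2]
    norm_cast

end Cfsg.Agent.S0211
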