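import Cfsg.Statements.S0218
import Mathlib

set_option autoImplicit false
open Cfsg
set_option linter.style.haveILetI false

namespace Cfsg.Agent.S0218

/-- The generalized quaternion group of order 2^(n+3) contains exactly one element of order 2. -/
theorem result (n : ℕ) : Nat.card {x : QuaternionGroup (2 ^ (n + 1)) // orderOf x = 2} = 1 := by
  set m := 2 ^ (n + 1) with hm
  have hm0 : m ≠ 0 := by positivity
  haveI : NeZero m := ⟨hm0⟩
  haveI : NeZero (2 * m) := ⟨by positivity⟩
  -- the central involution
  have hm1 : ((m : ℕ) : ZMod (2 * m)) ≠ 0 := by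
    rw [Ne, ZMod.natCast_eq_zero_iff]
    intro h
    have := Nat.le_of_dvd (by positivity) h
    omega
  have hm2 : ((m : ℕ) : ZMod (2 * m)) + ((m : ℕ) : ZMod (2 * m)) = 0 := by
    rw [← Nat.cast_add, ZMod.natCast_eq_zero_iff]
    exact ⟨1, by ring⟩
  let e : QuaternionGroup m := QuaternionGroup.a (m : ZMod (2 * m))
  have he : orderOf e = 2 := by
    apply orderOf_eq_prime
    · rw [pow_two]
      show QuaternionGroup.a _ * QuaternionGroup.a _ = _
      rw [QuaternionGroup.a_mul_a, hm2]
      rfl
    · intro h
      have h1 : QuaternionGroup.a (m : ZMod (2 * m)) = QuaternionGroup.a 0 := h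
      injection h1 with h2
      exact hm1 h2
  rw [Nat.card_eq_one_iff_unique]
  refine ⟨⟨?_⟩, ⟨⟨e, he⟩⟩⟩
  have huniq : ∀ y : {x : QuaternionGroup m // orderOf x = 2}, y.1 = e := by
    rintro ⟨y | y, hy⟩
    · have h1 : QuaternionGroup.a y * QuaternionGroup.a y = (1 : QuaternionGroup m) := by
        have := pow_orderOf_eq_one (QuaternionGroup.a y : QuaternionGroup m)
        rw [hy, pow_two] at this
        exact this
      rw [QuaternionGroup.a_mul_a] at h1
      have h2 : y + y = 0 := by
        have h3 : QuaternionGroup.a (y + y) = QuaternionGroup.a (0 : ZMod (2 * m)) := h1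
        injection h3
      have h3 : y ≠ 0 := by
        rintro rfl
        have : (QuaternionGroup.a 0 : QuaternionGroup m) = 1 := rfl
        rw [this, orderOf_one] at hy
        omega
      -- `y = m`
      have h4 : ((y.val + y.val : ℕ) : ZMod (2 * m)) = 0 := by
        rw [Nat.cast_add, ZMod.natCast_zmod_val, h2]
      rw [ZMod.natCast_eq_zero_iff] at h4
      have h5 : y.val < 2 * m := ZMod.val_lt y
      have h6 : y.val ≠ 0 := by
        intro h
        exact h3 ((ZMod.val_eq_zero y).1 h)
      obtain ⟨c, hc⟩ := h4
      have h7 : c = 1 := by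
        have h8 : 2 * m * c < 2 * m * 2 := by
          rw [← hc]; omega
        have h9 : c < 2 := Nat.lt_of_mul_lt_mul_left h8
        have h10 : c ≠ 0 := by
          rintro rfl
          omega
        omega
      subst h7
      have h8 : y.val = m := by omega
      have h9 : y = (m : ZMod (2 * m)) :=
        (ZMod.natCast_zmod_val y).symm.trans (congrArg _ h8)
      simp only [e]
      rw [← h9]
    · rw [QuaternionGroup.orderOf_xa] at hy
      omega
  intro a b
  exact Subtype.ext ((huniq a).trans (huniq b).symm)

end Cfsg.Agent.S0218
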