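import Cfsg.Statements.S0244
import Mathlib

set_option autoImplicit false
open Cfsg

namespace Cfsg.Agent.S0244

/-- Sp_2 = SL_2: a matrix on Fin 1 ⊕ Fin 1 lies in Mathlib's symplectic group iff its determinant is 1. -/
theorem result {R : Type*} [CommRing R] (A : Matrix (Fin 1 ⊕ Fin 1) (Fin 1 ⊕ Fin 1) R) : A ∈ Matrix.symplecticGroup (Fin 1) R ↔ A.det = 1 := by
  have hdet : A.det = A (.inl 0) (.inl 0) * A (.inr 0) (.inr 0) - A (.inl 0) (.inr 0) * A (.inr 0) (.inl 0) := by
    have e := Matrix.det_submatrix_equiv_self (finSumFinEquiv (m := 1) (n := 1)).symm A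
    rw [← e, Matrix.det_fin_two]
    have h0 : (finSumFinEquiv (m := 1) (n := 1)).symm 0 = Sum.inl 0 := by decide
    have h1 : (finSumFinEquiv (m := 1) (n := 1)).symm 1 = Sum.inr 0 := by decide
    simp [h0, h1]
  rw [SymplecticGroup.mem_iff]
  constructor
  · intro h
    have := congrFun (congrFun h (.inr 0)) (.inl 0)
    simp [Matrix.mul_apply, Matrix.J, Fintype.sum_sum_type] at this
    rw [hdet]
    linear_combination this
  · intro h
    rw [hdet] at h
    ext i j
    rcases i with i | i <;> rcases j with j | j <;> fin_cases i <;> fin_cases j <;>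
      simp [Matrix.mul_apply, Matrix.J, Fintype.sum_sum_type] <;> first | ring1 | linear_combination h | linear_combination -h

end Cfsg.Agent.S0244
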