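import Cfsg.Statements.S0250
import Mathlib
import Cfsg.Agent.Lib.ClassicalSmall
import Cfsg.Agent.Lib.ClassicalCore

set_option autoImplicit false
open Cfsg

namespace Cfsg.Agent.S0250

/-- SL_2(2) is isomorphic to S_3. -/
theorem result {F : Type*} [Field F] [Fintype F] (hF : Fintype.card F = 2) : Nonempty (Matrix.SpecialLinearGroup (Fin 2) F ≃* Equiv.Perm (Fin 3)) := by
  classical
  have hc := Cfsg.Agent.Lib.ClassicalCore.card_center_SL (n := Fin 2) (F := F)
  rw [hF] at hc
  have hc1 : Subgroup.center (Matrix.SpecialLinearGroup (Fin 2) F) = ⊥ := by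
    apply Subgroup.eq_bot_of_card_eq
    rw [hc]
    simp
  have hcard := Cfsg.Agent.Lib.ClassicalSmall.card_SL2 (F := F)
  rw [hF] at hcard
  have hker := Projectivization.SL_mulAction_ker (K := F) (ι := Fin 2)
  have hinj : Function.Injective (MulAction.toPermHom (Matrix.SpecialLinearGroup (Fin 2) F)
      (Projectivization F (Fin 2 → F))) := by
    rw [← MonoidHom.ker_eq_bot_iff, hker, hc1]
  have hX : Nat.card (Projectivization F (Fin 2 → F)) = 3 := by
    rw [Cfsg.Agent.Lib.ClassicalSmall.card_P1, hF]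
  have e : Projectivization F (Fin 2 → F) ≃ Fin 3 := Finite.equivFinOfCardEq hX
  refine ⟨MulEquiv.ofBijective (e.permCongrHom.toMonoidHom.comp (MulAction.toPermHom _ _)) ?_⟩
  have hinj' : Function.Injective (e.permCongrHom.toMonoidHom.comp (MulAction.toPermHom
      (Matrix.SpecialLinearGroup (Fin 2) F) (Projectivization F (Fin 2 → F)))) :=
    e.permCongrHom.injective.comp hinj
  refine (Nat.bijective_iff_injective_and_card _).mpr ⟨hinj', ?_⟩
  rw [hcard]
  simp [Nat.card_eq_fintype_card, Fintype.card_perm]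
  rfl

end Cfsg.Agent.S0250
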