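import Cfsg.Statements.S0252
import Mathlib
import Cfsg.Agent.Lib.ClassicalSmall

set_option autoImplicit false
open Cfsg

namespace Cfsg.Agent.S0252

/-- PSL_2(4) is isomorphic to A_5. -/
theorem result {F : Type*} [Field F] [Fintype F] (hF : Fintype.card F = 4) : Nonempty (Matrix.ProjectiveSpecialLinearGroup (Fin 2) F ≃* alternatingGroup (Fin 5)) := by
  have h := Cfsg.Agent.Lib.ClassicalSmall.card_PSL2 (F := F)
  rw [hF] at h
  refine Cfsg.Agent.Lib.ClassicalSmall.nonempty_PSL2_equiv_alternating 5 (by omega) ?_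
  norm_num at h
  rw [h]
  rfl

end Cfsg.Agent.S0252
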