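import Cfsg.Statements.S0257
import Cfsg.Agent.Lib.SLTransfer
import Cfsg.Agent.Lib.QuatHom
import Cfsg.Agent.Lib.ClassicalCore

set_option autoImplicit false
open Cfsg

namespace Cfsg.Agent.S0257

open Matrix Cfsg.Agent.Lib.SLTransfer Cfsg.Agent.Lib.QuatHom Cfsg.Agent.Lib.ClassicalCore

/-- `SL_2(3)`. -/
abbrev G3 := SpecialLinearGroup (Fin 2) (ZMod 3)

/-- Elements of order dividing four form a subgroup of `SL_2(3)`. -/
def Qset : Subgroup G3 where
  carrier := {g | g ^ 4 = 1}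
  mul_mem' := by
    have : ∀ a b : G3, a ^ 4 = 1 → b ^ 4 = 1 → (a * b) ^ 4 = 1 := by decide +kernel
    exact fun {a b} => this a b
  one_mem' := by
    change (1 : G3) ^ 4 = 1
    simp
  inv_mem' := by
    intro a ha
    change a ^ 4 = 1 at ha
    change a⁻¹ ^ 4 = 1
    rw [inv_pow, ha, inv_one]

theorem mem_Qset (g : G3) : g ∈ Qset ↔ g ^ 4 = 1 := Iff.rfl

instance Qset_normal : Qset.Normal := by
  constructor
  intro n hn g
  rw [mem_Qset] at hn ⊢
  rw [conj_pow, hn]
  group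

/-- `A`. -/
def A0 : G3 := ⟨!![0, 1; -1, 0], by decide⟩
/-- `W`. -/
def W0 : G3 := ⟨!![1, 1; 1, -1], by decide⟩

theorem exists_quat : ∃ H : Subgroup G3, Nat.card H = 8 ∧ Nonempty (H ≃* QuaternionGroup 2) := by
  have h2 : A0 ^ 2 ≠ 1 := by decide +kernel
  have ho : orderOf A0 = 2 * 2 := by
    have hp : A0 ^ 2 ^ (1 + 1) = 1 := by decide +kernel
    have hn : ¬ A0 ^ 2 ^ 1 = 1 := h2
    have : Fact (Nat.Prime 2) := ⟨Nat.prime_two⟩
    rw [orderOf_eq_prime_pow hn hp]
    norm_num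
  have hW : W0 * W0 = A0 ^ 2 := by decide +kernel
  have hc : W0 * A0 * W0⁻¹ = A0⁻¹ := by decide +kernel
  obtain ⟨H, h1, h2⟩ := exists_subgroup_quaternion A0 W0 h2 ho hW hc
  exact ⟨H, by rw [h1], h2⟩

theorem card_G3 : Nat.card G3 = 24 := by
  rw [Nat.card_eq_fintype_card]
  decide +kernel

theorem card_Qset : Nat.card Qset = 8 := by
  change Nat.card {g : G3 // g ^ 4 = 1} = 8
  rw [Nat.card_eq_fintype_card]
  decide +kernel

theorem exists_Q : Qset.index = 3 ∧ Nonempty (Qset ≃* QuaternionGroup 2) := by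
  obtain ⟨H, hH, ⟨e⟩⟩ := exists_quat
  have hexp : ∀ x : QuaternionGroup 2, x ^ 4 = 1 := by decide
  have hle : H ≤ Qset := by
    intro x hx
    rw [mem_Qset]
    have := hexp (e ⟨x, hx⟩)
    rw [← map_pow, map_eq_one_iff e e.injective] at this
    exact congrArg Subtype.val this
  have heq : H = Qset := Subgroup.eq_of_le_of_card_ge hle (by rw [hH, card_Qset])
  subst heq
  refine ⟨?_, ⟨e⟩⟩
  have := Subgroup.card_mul_index Qset
  rw [hH, card_G3] at this
  omega

/-- SL_2(3) has a normal subgroup of index 3 isomorphic to the quaternion group of order 8, and its centre has order 2. -/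
theorem result {F : Type*} [Field F] [Fintype F] (hF : Fintype.card F = 3) : (∃ Q : Subgroup (Matrix.SpecialLinearGroup (Fin 2) F), Q.Normal ∧ Q.index = 3 ∧ Nonempty (Q ≃* QuaternionGroup 2)) ∧ Nat.card (Subgroup.center (Matrix.SpecialLinearGroup (Fin 2) F)) = 2 := by
  have hp : Nat.Prime 3 := by norm_num
  let e := ZMod.ringEquivOfPrime F hp hF
  refine ⟨?_, ?_⟩
  · let E : SpecialLinearGroup (Fin 2) F ≃* G3 := slEquiv e.symm
    obtain ⟨h1, ⟨h2⟩⟩ := exists_Q
    refine ⟨Qset.map (E.symm : G3 →* SpecialLinearGroup (Fin 2) F), ?_, ?_, ?_⟩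
    · exact Subgroup.Normal.map Qset_normal _ E.symm.surjective
    · rw [Subgroup.index_map_of_bijective (f := (E.symm : G3 →* SpecialLinearGroup (Fin 2) F))
        E.symm.bijective, h1]
    · exact ⟨(E.symm.subgroupMap Qset).symm.trans h2⟩
  · rw [card_center_SL, hF]
    simp

end Cfsg.Agent.S0257
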