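import Cfsg.Statements.S0262
import Cfsg.Agent.Lib.SL2Tori

set_option autoImplicit false
open Cfsg

namespace Cfsg.Agent.S0262

open Cfsg.Agent.Lib.SL2Tori Cfsg.Agent.Lib.ClassicalSmall in

/-- For an odd prime r different from the characteristic, the Sylow r-subgroups of SL_2(q) are cyclic. -/
theorem result {F : Type*} [Field F] [Fintype F] (p : ℕ) [Fact p.Prime] [CharP F p] (r : ℕ) [Fact r.Prime] (hr : r ≠ 2) (hrp : r ≠ p) (R : Sylow r (Matrix.SpecialLinearGroup (Fin 2) F)) : IsCyclic (R : Subgroup (Matrix.SpecialLinearGroup (Fin 2) F)) := by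
  classical
  set q := Fintype.card F with hq
  have hcard : Nat.card (Matrix.SpecialLinearGroup (Fin 2) F) = (q + 1) * q * (q - 1) := card_SL2
  have hrp' : r.Prime := Fact.out
  have hq1 : 1 < q := Fintype.one_lt_card
  have hG0 : Nat.card (Matrix.SpecialLinearGroup (Fin 2) F) ≠ 0 := Nat.card_pos.ne'
  set v := (Nat.card (Matrix.SpecialLinearGroup (Fin 2) F)).factorization r with hv
  have hdvd : r ^ v ∣ (q + 1) * q * (q - 1) := by
    rw [← hcard]; exact Nat.ordProj_dvd _ _
  -- `r` does not divide `q`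
  have hrq : ¬ r ∣ q := by
    obtain ⟨n, hn⟩ := FiniteField.card F p
    intro h
    rw [hq, hn.2] at h
    have := (Nat.prime_dvd_prime_iff_eq hrp' Fact.out).1 (hrp'.dvd_of_dvd_pow h)
    exact hrp this
  have hcop : Nat.Coprime (r ^ v) q := Nat.Coprime.pow_left _ ((Nat.Prime.coprime_iff_not_dvd hrp').2 hrq)
  have hdvd' : r ^ v ∣ (q + 1) * (q - 1) := by
    have h1 : (q + 1) * q * (q - 1) = q * ((q + 1) * (q - 1)) := by ring
    rw [h1] at hdvd
    exact hcop.dvd_of_dvd_mul_left hdvd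
  by_cases hr1 : r ∣ q + 1
  · -- then `r ∤ q - 1`
    have hr2 : ¬ r ∣ q - 1 := by
      intro h
      have h2 : r ∣ 2 := by
        have e : q + 1 = (q - 1) + 2 := by omega
        rw [e] at hr1
        exact (Nat.dvd_add_right h).1 hr1
      have := Nat.le_of_dvd (by norm_num) h2
      have hr2' := hrp'.two_le
      omega
    have hc2 : Nat.Coprime (r ^ v) (q - 1) :=
      Nat.Coprime.pow_left _ ((Nat.Prime.coprime_iff_not_dvd hrp').2 hr2)
    have hd : r ^ v ∣ q + 1 := hc2.dvd_of_dvd_mul_right hdvd'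
    obtain ⟨A, hA, -⟩ := exists_nonsplit (F := F) (d := q + 1) dvd_rfl
    exact isCyclic_sylow_of_cyclic_dvd r (Subgroup.zpowers A) (by rw [Nat.card_zpowers, hA]; exact hd) R
  · have hc2 : Nat.Coprime (r ^ v) (q + 1) :=
      Nat.Coprime.pow_left _ ((Nat.Prime.coprime_iff_not_dvd hrp').2 hr1)
    have hd : r ^ v ∣ q - 1 := hc2.dvd_of_dvd_mul_left hdvd'
    obtain ⟨A, hA, -⟩ := exists_split (F := F) (d := q - 1) dvd_rfl
    exact isCyclic_sylow_of_cyclic_dvd r (Subgroup.zpowers A) (by rw [Nat.card_zpowers, hA]; exact hd) R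

end Cfsg.Agent.S0262
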