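import Cfsg.Statements.S0263
import Mathlib

set_option autoImplicit false
open Cfsg

namespace Cfsg.Agent.S0263

/-- A Sylow p-subgroup of GL_n(q), p the characteristic, has order q^(n(n-1)/2). -/
theorem result {F : Type*} [Field F] [Fintype F] {q : ℕ} (hF : Fintype.card F = q) (p : ℕ) [Fact p.Prime] [CharP F p] (n : ℕ) (P : Sylow p (Matrix.GeneralLinearGroup (Fin n) F)) : Nat.card P = q ^ (n * (n - 1) / 2) := by
  subst hF
  obtain ⟨k, hp, hk⟩ := FiniteField.card F p
  have hpp : p.Prime := Fact.out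
  set q := Fintype.card F with hq
  have hq1 : 1 < q := Fintype.one_lt_card
  rw [Sylow.card_eq_multiplicity, Matrix.card_GL_field n]
  have hprod : ∏ i : Fin n, (q ^ n - q ^ (i : ℕ)) =
      q ^ (∑ i : Fin n, (i : ℕ)) * ∏ i : Fin n, (q ^ (n - (i : ℕ)) - 1) := by
    rw [← Finset.prod_pow_eq_pow_sum, ← Finset.prod_mul_distrib]
    refine Finset.prod_congr rfl fun i _ => ?_
    have hi : (i : ℕ) ≤ n := i.2.le
    rw [Nat.mul_sub, ← pow_add, mul_one, Nat.add_sub_cancel' hi]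
  have hsum : ∑ i : Fin n, (i : ℕ) = n * (n - 1) / 2 := by
    rw [Fin.sum_univ_eq_sum_range (fun i => i) n, Finset.sum_range_id]
  have hcop : Nat.Coprime p (∏ i : Fin n, (q ^ (n - (i : ℕ)) - 1)) := by
    apply Nat.Coprime.prod_right
    intro i _
    have hi : 0 < n - (i : ℕ) := Nat.sub_pos_of_lt i.2
    rw [Nat.Prime.coprime_iff_not_dvd hpp]
    intro hdvd
    have h1 : p ∣ q ^ (n - (i : ℕ)) := by
      rw [hk]
      exact dvd_pow (dvd_pow_self p k.ne_zero) hi.ne'
    have h2 : 1 ≤ q ^ (n - (i : ℕ)) := Nat.one_le_pow _ _ (by omega)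
    have h3 : p ∣ 1 := by
      have := (Nat.dvd_sub h1 hdvd)
      rwa [Nat.sub_sub_self h2] at this
    exact hpp.one_lt.ne' (Nat.dvd_one.mp h3)
  rw [hprod, hsum]
  have hne : (∏ i : Fin n, (q ^ (n - (i : ℕ)) - 1)) ≠ 0 := by
    intro h0
    rw [h0] at hcop
    simp at hcop
    exact hpp.one_lt.ne' hcop
  have hq0 : q ≠ 0 := by omega
  rw [Nat.factorization_mul (pow_ne_zero _ hq0) hne]
  rw [Finsupp.add_apply, Nat.factorization_eq_zero_of_not_dvd ((Nat.Prime.coprime_iff_not_dvd hpp).mp hcop), add_zero]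
  rw [hk, ← pow_mul, hpp.factorization_pow]
  simp

end Cfsg.Agent.S0263
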