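import Cfsg.Statements.S0267
import Mathlib
import Cfsg.Agent.Lib.ClassicalPGL2

set_option autoImplicit false
open Cfsg

namespace Cfsg.Agent.S0267

/-- SL_2(q) is 3-transitive on the q+1 points of the projective line if and only if q is even. -/
theorem result {F : Type*} [Field F] [Fintype F] : MulAction.IsMultiplyPretransitive (Matrix.SpecialLinearGroup (Fin 2) F) (Projectivization F (Fin 2 → F)) 3 ↔ ringChar F = 2 := by
  classical
  constructor
  · intro h3
    by_contra hc
    obtain ⟨a, ha⟩ := FiniteField.exists_nonsquare hc
    have ha0 : a ≠ 0 := by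
      rintro rfl
      exact ha (IsSquare.zero)
    exact ha (Cfsg.Agent.Lib.ClassicalPGL2.isSquare_of_isMultiplyPretransitive_SL h3 a ha0)
  · intro h
    exact Cfsg.Agent.Lib.ClassicalPGL2.isMultiplyPretransitive_SL_of_isSquare
      (fun a => FiniteField.isSquare_of_char_two h a)

end Cfsg.Agent.S0267
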