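import Cfsg.Statements.S0275
import Cfsg.Agent.S0016
import Cfsg.Agent.S0261
import Cfsg.Agent.S0274

set_option autoImplicit false
open Cfsg

namespace Cfsg.Agent.S0275

lemma quat_not_comm (k : ℕ) (hk : 1 ≤ k) :
    ∃ x y : QuaternionGroup (2 ^ k), x * y ≠ y * x := by
  refine ⟨QuaternionGroup.xa 0, QuaternionGroup.a 1, ?_⟩
  rw [QuaternionGroup.xa_mul_a, QuaternionGroup.a_mul_xa]
  intro h
  have h1 := QuaternionGroup.xa.inj h
  have h2 : ((2 : ℕ) : ZMod (2 * 2 ^ k)) = 0 := by
    push_cast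
    linear_combination h1
  rw [ZMod.natCast_eq_zero_iff] at h2
  have h3 : 2 ^ 1 ≤ 2 ^ k := Nat.pow_le_pow_right (by norm_num) hk
  have h4 := Nat.le_of_dvd (by norm_num) h2
  omega

lemma quat_one_comm (x y : QuaternionGroup (2 ^ 0)) : x * y = y * x := by
  revert x y
  decide

/-- If p is odd and H is a subgroup of SL_2(q), q a power of p, with more than one Sylow p-subgroup, then the Sylow 2-subgroups of H are generalised quaternion. -/
theorem result {F : Type*} [Field F] [Fintype F] (p : ℕ) [Fact p.Prime] [CharP F p] (hp : p ≠ 2) (H : Subgroup (Matrix.SpecialLinearGroup (Fin 2) F)) (hH : 1 < Nat.card (Sylow p H)) (S : Sylow 2 H) : ∃ k : ℕ, 1 ≤ k ∧ Nonempty ((S : Subgroup H) ≃* QuaternionGroup (2 ^ k)) := by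
  classical
  have h2F : (2 : F) ≠ 0 := by
    intro h
    have h1 : ((2 : ℕ) : F) = 0 := by
      push_cast
      exact h
    rw [CharP.cast_eq_zero_iff F p 2] at h1
    exact hp ((Nat.prime_dvd_prime_iff_eq Fact.out Nat.prime_two).1 h1)
  obtain ⟨K, hKH, ⟨e⟩⟩ := Cfsg.Agent.S0274.result p hp H hH
  have hoddp : Odd (Fintype.card (ZMod p)) := by
    rw [ZMod.card]
    exact (Fact.out : p.Prime).odd_of_ne_two hp
  obtain ⟨T⟩ : Nonempty (Sylow 2 (Matrix.SpecialLinearGroup (Fin 2) (ZMod p))) := inferInstance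
  obtain ⟨k, hk, ⟨eT⟩⟩ := Cfsg.Agent.S0261.result hoddp T
  obtain ⟨x₀, y₀, hxy₀⟩ := quat_not_comm k hk
  -- the embedding
  let ι : Matrix.SpecialLinearGroup (Fin 2) (ZMod p) →* H :=
    (Subgroup.inclusion hKH).comp e.symm.toMonoidHom
  have hι : Function.Injective ι := by
    intro a b hab
    have h1 := Subgroup.inclusion_injective hKH hab
    exact e.symm.injective h1
  let T' : Subgroup H := (T : Subgroup _).map ι
  have hT' : IsPGroup 2 T' := (T.isPGroup').map ι
  obtain ⟨Q, hQ⟩ := hT'.exists_le_sylow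
  let eQ : (Q : Subgroup H) ≃* (S : Subgroup H) := Sylow.equiv Q S
  -- non-commuting elements of `S`
  have hnc : ∃ x y : (S : Subgroup H), x * y ≠ y * x := by
    let x₁ := eT.symm x₀
    let y₁ := eT.symm y₀
    have hx₁ : ι x₁.1 ∈ (Q : Subgroup H) := hQ ⟨_, x₁.2, rfl⟩
    have hy₁ : ι y₁.1 ∈ (Q : Subgroup H) := hQ ⟨_, y₁.2, rfl⟩
    refine ⟨eQ ⟨_, hx₁⟩, eQ ⟨_, hy₁⟩, ?_⟩
    intro h
    rw [← map_mul, ← map_mul] at h
    have h1 := eQ.injective h
    have h2 := congrArg Subtype.val h1
    simp only [Subgroup.coe_mul] at h2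
    rw [← map_mul, ← map_mul] at h2
    have h3 := hι h2
    have h4 : x₁ * y₁ = y₁ * x₁ := Subtype.ext h3
    apply hxy₀
    have h5 : eT.symm (x₀ * y₀) = eT.symm (y₀ * x₀) := by
      rw [map_mul, map_mul]
      exact h4
    exact eT.symm.injective h5
  -- involutions
  have hinv : ∀ x : (S : Subgroup H), x * x = 1 → x ≠ 1 → (x.1.1 : Matrix.SpecialLinearGroup (Fin 2) F) = -1 := by
    intro x hx hx1
    apply Cfsg.Agent.S0261.eq_neg_one_of_mul_self h2F
    · have := congrArg (fun z : (S : Subgroup H) => (z.1.1 : Matrix.SpecialLinearGroup (Fin 2) F)) hx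
      exact this
    · intro h
      apply hx1
      apply Subtype.ext
      apply Subtype.ext
      exact h
  have hcard : ∀ A : Subgroup (S : Subgroup H), Nat.card A = 2 →
      (∃ a ∈ A, a ≠ 1) ∧ ∀ x ∈ A, x = 1 ∨ (x.1.1 : Matrix.SpecialLinearGroup (Fin 2) F) = -1 := by
    intro A hA
    constructor
    · obtain ⟨a, b, hab⟩ : ∃ a b : A, a ≠ b := by
        have : Nontrivial A := Finite.one_lt_card_iff_nontrivial.1 (by omega)
        exact exists_pair_ne _
      by_cases h1 : a = 1
      · refine ⟨b.1, b.2, ?_⟩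
        intro h
        apply hab
        rw [h1]
        exact (Subtype.ext h).symm
      · refine ⟨a.1, a.2, ?_⟩
        intro h
        exact h1 (Subtype.ext h)
    · intro x hx
      by_cases h1 : x = 1
      · exact Or.inl h1
      · right
        apply hinv x _ h1
        have h2 : (⟨x, hx⟩ : A) ^ Nat.card A = 1 := pow_card_eq_one'
        rw [hA, pow_two] at h2
        exact congrArg Subtype.val h2
  have huniq : ∀ A B : Subgroup (S : Subgroup H), Nat.card A = 2 → Nat.card B = 2 → A = B := by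
    have hle : ∀ A B : Subgroup (S : Subgroup H), Nat.card A = 2 → Nat.card B = 2 → A ≤ B := by
      intro A B hA hB x hx
      obtain ⟨-, h1⟩ := hcard A hA
      obtain ⟨⟨b, hb, hb1⟩, h2⟩ := hcard B hB
      rcases h1 x hx with rfl | h3
      · exact one_mem _
      · have h4 := (h2 b hb).resolve_left hb1
        have : x = b := by
          apply Subtype.ext
          apply Subtype.ext
          rw [h3, h4]
        rwa [this]
    intro A B hA hB
    exact le_antisymm (hle A B hA hB) (hle B A hB hA)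
  obtain ⟨x, y, hxy⟩ := hnc
  have hS : IsPGroup 2 (S : Subgroup H) := S.isPGroup'
  rcases Cfsg.Agent.S0016.result 2 hS huniq with hcyc | ⟨-, n, ⟨en⟩⟩
  · exfalso
    exact hxy (hcyc.isMulCommutative.is_comm.comm x y)
  · refine ⟨n, ?_, ⟨en⟩⟩
    by_contra hn
    have hn0 : n = 0 := by omega
    subst hn0
    apply hxy
    apply en.injective
    rw [map_mul, map_mul]
    exact quat_one_comm _ _

end Cfsg.Agent.S0275
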