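import Cfsg.Statements.S0298
import Cfsg.Agent.Lib.OrthoThree

set_option autoImplicit false
open Cfsg

namespace Cfsg.Agent.S0298

/-- PΩ_3(q) is isomorphic to PSL_2(q) for q odd. -/
theorem result {F : Type*} [Field F] [Fintype F] (hodd : Odd (Fintype.card F)) : Nonempty (Cfsg.POmega F (Cfsg.quadFormOdd 1 F) ≃* Matrix.ProjectiveSpecialLinearGroup (Fin 2) F) := by
  exact Cfsg.Agent.Lib.OrthoThree.pomega_three hodd

end Cfsg.Agent.S0298
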