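import Cfsg.Statements.S0301
import Cfsg.Agent.Lib.OrthoFive

set_option autoImplicit false
open Cfsg

namespace Cfsg.Agent.S0301

/-- PΩ_5(q) is isomorphic to PSp_4(q) for q odd. -/
theorem result {F : Type*} [Field F] [Fintype F] (hodd : Odd (Fintype.card F)) : Nonempty (Cfsg.POmega F (Cfsg.quadFormOdd 2 F) ≃* Cfsg.PSp 2 F) := by
  exact Cfsg.Agent.Lib.OrthoFive.pomega_five hodd

end Cfsg.Agent.S0301
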