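import Mathlib
import Cfsg.Statements.S0304
import Cfsg.Agent.Lib.OrthoOrder
-- import your own Cfsg.Agent.* helpers here

set_option autoImplicit false
open Cfsg

namespace Cfsg.Agent.S0304

section Helpers

open QuadraticMap Cfsg.Agent.Lib.OrthoBasic Cfsg.Agent.Lib.OrthoCount
open scoped Matrix

variable {F : Type*} [Field F] {W : Type*} [AddCommGroup W] [Module F W]

/-- `x² + Q₀(w)` on `F × W`. -/
noncomputable def extQ (Q₀ : QuadraticForm F W) : QuadraticForm F (F × W) :=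
  QuadraticMap.linMulLin (LinearMap.fst F F W) (LinearMap.fst F F W)
    + Q₀.comp (LinearMap.snd F F W)

@[simp] lemma extQ_apply (Q₀ : QuadraticForm F W) (x : F) (w : W) :
    extQ Q₀ (x, w) = x ^ 2 + Q₀ w := by
  simp [extQ, _root_.sq]

/-- The symplectic-type group of the polar form. -/
def SpLin (Q₀ : QuadraticForm F W) : Subgroup (W ≃ₗ[F] W) where
  carrier := {a | ∀ u v, polar Q₀ (a u) (a v) = polar Q₀ u v}
  mul_mem' {a b} ha hb u v := by
    rw [LinearEquiv.mul_apply, LinearEquiv.mul_apply, ha, hb]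
  one_mem' u v := rfl
  inv_mem' {a} ha u v := by
    have h := ha (a⁻¹ u) (a⁻¹ v)
    rw [← LinearEquiv.mul_apply, ← LinearEquiv.mul_apply, mul_inv_cancel] at h
    exact h.symm

lemma SpLin_apply {Q₀ : QuadraticForm F W} (a : SpLin Q₀) (u v : W) :
    polar Q₀ ((a : W ≃ₗ[F] W) u) ((a : W ≃ₗ[F] W) v) = polar Q₀ u v := a.2 u v

section char2

variable [CharP F 2]

lemma two_eq_zero' : (2 : F) = 0 := CharTwo.two_eq_zero

lemma extQ_polar (Q₀ : QuadraticForm F W) (x x' : F) (w w' : W) :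
    polar (extQ Q₀) (x, w) (x', w') = polar Q₀ w w' := by
  simp only [polar, Prod.mk_add_mk, extQ_apply, CharTwo.add_sq]
  ring

lemma g_fixes_e (Q₀ : QuadraticForm F W) (hQ : Nondeg Q₀) (g : OG (extQ Q₀)) :
    (g : (F × W) ≃ₗ[F] (F × W)) (1, 0) = (1, 0) := by
  rcases hval : (g : (F × W) ≃ₗ[F] (F × W)) (1, 0) with ⟨c, w⟩
  have hw : w = 0 := by
    by_contra hne
    obtain ⟨v, hv⟩ := hQ w hne
    apply hv
    -- take the preimage of `(0, v)`
    have h1 := OG_polar (extQ Q₀) g (1, 0) ((g : (F × W) ≃ₗ[F] (F × W)).symm (0, v))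
    rw [hval, LinearEquiv.apply_symm_apply] at h1
    rw [extQ_polar] at h1
    rw [h1]
    rcases ((g : (F × W) ≃ₗ[F] (F × W)).symm (0, v)) with ⟨x, u⟩
    rw [extQ_polar]
    simp
  subst hw
  have h2 := OG_apply (extQ Q₀) g (1, 0)
  rw [hval] at h2
  simp only [extQ_apply, map_zero, add_zero, one_pow] at h2
  have h3 : (c + 1) ^ 2 = 0 := by
    rw [CharTwo.add_sq, h2, one_pow]
    exact CharTwo.add_self_eq_zero 1
  have h4 : c + 1 = 0 := pow_eq_zero_iff (two_ne_zero) |>.1 h3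
  have h5 : c = 1 := by
    have : c = -1 := eq_neg_of_add_eq_zero_left h4
    rw [this, CharTwo.neg_eq]
  rw [h5]

variable [FiniteDimensional F W]

/-- The block of an isometry. -/
noncomputable def blockLin (Q₀ : QuadraticForm F W) (g : OG (extQ Q₀)) : W →ₗ[F] W :=
  (LinearMap.snd F F W).comp (((g : (F × W) ≃ₗ[F] (F × W)) : (F × W) →ₗ[F] (F × W)).comp
    (LinearMap.inr F F W))

lemma blockLin_apply (Q₀ : QuadraticForm F W) (g : OG (extQ Q₀)) (w : W) :
    blockLin Q₀ g w = ((g : (F × W) ≃ₗ[F] (F × W)) (0, w)).2 := rfl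

lemma g_apply (Q₀ : QuadraticForm F W) (hQ : Nondeg Q₀) (g : OG (extQ Q₀)) (x : F) (w : W) :
    (g : (F × W) ≃ₗ[F] (F × W)) (x, w)
      = (x + ((g : (F × W) ≃ₗ[F] (F × W)) (0, w)).1, blockLin Q₀ g w) := by
  have hdec : ((x, w) : F × W) = x • (1, 0) + (0, w) := by simp
  rw [hdec, map_add, map_smul, g_fixes_e Q₀ hQ]
  ext <;> simp [blockLin_apply]

lemma blockLin_injective (Q₀ : QuadraticForm F W) (hQ : Nondeg Q₀) (g : OG (extQ Q₀)) :
    Function.Injective (blockLin Q₀ g) := by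
  rw [injective_iff_map_eq_zero]
  intro w hw
  have h1 : (g : (F × W) ≃ₗ[F] (F × W)) (0, w)
      = ((g : (F × W) ≃ₗ[F] (F × W)) (0, w)).1 • ((g : (F × W) ≃ₗ[F] (F × W)) (1, 0)) := by
    rw [g_fixes_e Q₀ hQ]
    ext
    · simp
    · simp only [Prod.smul_snd, smul_zero]
      exact hw
  rw [← map_smul] at h1
  have h2 := (g : (F × W) ≃ₗ[F] (F × W)).injective h1
  simpa using congrArg Prod.snd h2

/-- The map to the symplectic-type group. -/
noncomputable def toSp (Q₀ : QuadraticForm F W) (hQ : Nondeg Q₀) (g : OG (extQ Q₀)) : SpLin Q₀ :=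
  ⟨LinearEquiv.ofInjectiveEndo (blockLin Q₀ g) (blockLin_injective Q₀ hQ g), by
    intro u v
    change polar Q₀ (blockLin Q₀ g u) (blockLin Q₀ g v) = polar Q₀ u v
    have h := OG_polar (extQ Q₀) g (0, u) (0, v)
    rw [extQ_polar] at h
    rcases hu : (g : (F × W) ≃ₗ[F] (F × W)) (0, u) with ⟨x1, u1⟩
    rcases hv : (g : (F × W) ≃ₗ[F] (F × W)) (0, v) with ⟨x2, v1⟩
    rw [hu, hv, extQ_polar] at h
    rw [blockLin_apply, blockLin_apply, hu, hv]
    exact h⟩

lemma toSp_apply (Q₀ : QuadraticForm F W) (hQ : Nondeg Q₀) (g : OG (extQ Q₀)) (w : W) :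
    ((toSp Q₀ hQ g : SpLin Q₀) : W ≃ₗ[F] W) w = ((g : (F × W) ≃ₗ[F] (F × W)) (0, w)).2 := rfl

lemma toSp_mul (Q₀ : QuadraticForm F W) (hQ : Nondeg Q₀) (g h : OG (extQ Q₀)) :
    toSp Q₀ hQ (g * h) = toSp Q₀ hQ g * toSp Q₀ hQ h := by
  apply Subtype.ext
  apply LinearEquiv.ext
  intro w
  rw [Subgroup.coe_mul, LinearEquiv.mul_apply, toSp_apply, toSp_apply, toSp_apply, Subgroup.coe_mul,
    LinearEquiv.mul_apply]
  rcases hu : (h : (F × W) ≃ₗ[F] (F × W)) (0, w) with ⟨x1, u1⟩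
  rw [g_apply Q₀ hQ g x1 u1]
  rfl

lemma toSp_injective (Q₀ : QuadraticForm F W) (hQ : Nondeg Q₀) :
    Function.Injective (toSp Q₀ hQ) := by
  intro g h hgh
  apply Subtype.ext
  apply LinearEquiv.ext
  rintro ⟨x, w⟩
  have h1 : blockLin Q₀ g w = blockLin Q₀ h w := by
    have := congrArg (fun a : SpLin Q₀ => (a : W ≃ₗ[F] W) w) hgh
    exact this
  have hsq : ∀ a : OG (extQ Q₀), (((a : (F × W) ≃ₗ[F] (F × W)) (0, w)).1) ^ 2 + Q₀ (blockLin Q₀ a w) = Q₀ w := by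
    intro a
    have := OG_apply (extQ Q₀) a (0, w)
    rcases hu : (a : (F × W) ≃ₗ[F] (F × W)) (0, w) with ⟨x1, u1⟩
    rw [hu, extQ_apply, extQ_apply] at this
    rw [blockLin_apply, hu]
    simpa using this
  have h2 := hsq g
  have h3 := hsq h
  rw [h1] at h2
  have h4 : (((g : (F × W) ≃ₗ[F] (F × W)) (0, w)).1) ^ 2 = (((h : (F × W) ≃ₗ[F] (F × W)) (0, w)).1) ^ 2 := by
    linear_combination h2 - h3
  have h5 : ((g : (F × W) ≃ₗ[F] (F × W)) (0, w)).1 = ((h : (F × W) ≃ₗ[F] (F × W)) (0, w)).1 := by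
    have h6 : (((g : (F × W) ≃ₗ[F] (F × W)) (0, w)).1 - ((h : (F × W) ≃ₗ[F] (F × W)) (0, w)).1) ^ 2 = 0 := by
      rw [CharTwo.sub_eq_add, CharTwo.add_sq, h4]
      exact CharTwo.add_self_eq_zero _
    exact sub_eq_zero.1 (pow_eq_zero_iff two_ne_zero |>.1 h6)
  rw [g_apply Q₀ hQ g, g_apply Q₀ hQ h, h1, h5]

variable [Fintype F]

/-- The square root. -/
noncomputable def sqrtF : F ≃+* F := (frobeniusEquiv F 2).symm

lemma sqrtF_sq (x : F) : (sqrtF x) ^ 2 = x := by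
  have := frobenius_apply_frobeniusEquiv_symm F 2 x
  rwa [frobenius_def] at this

lemma sqrtF_of_sq (x : F) : sqrtF (x ^ 2) = x := by
  have := frobeniusEquiv_symm_apply_frobenius F 2 x
  rwa [frobenius_def] at this

/-- The linear form used to lift a symplectic map. -/
noncomputable def ellLin (Q₀ : QuadraticForm F W) (a : SpLin Q₀) : W →ₗ[F] F where
  toFun w := sqrtF (Q₀ w + Q₀ ((a : W ≃ₗ[F] W) w))
  map_add' u v := by
    rw [← map_add sqrtF]
    congr 1
    have h : (a : W ≃ₗ[F] W) (u + v) = (a : W ≃ₗ[F] W) u + (a : W ≃ₗ[F] W) v := map_add _ _ _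
    rw [h, Q_add Q₀ u v, Q_add Q₀ _ _, SpLin_apply]
    have h2 : polar Q₀ u v + polar Q₀ u v = 0 := CharTwo.add_self_eq_zero _
    linear_combination h2
  map_smul' c w := by
    have h : (a : W ≃ₗ[F] W) (c • w) = c • (a : W ≃ₗ[F] W) w := map_smul _ _ _
    rw [h, Q_smul Q₀ c w, Q_smul Q₀ c _, RingHom.id_apply, smul_eq_mul, ← mul_add, map_mul, sqrtF_of_sq]

/-- The lift of a symplectic map. -/
noncomputable def liftLin (Q₀ : QuadraticForm F W) (a : SpLin Q₀) : (F × W) →ₗ[F] (F × W) :=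
  LinearMap.prod (LinearMap.fst F F W + (ellLin Q₀ a).comp (LinearMap.snd F F W))
    (((a : W ≃ₗ[F] W) : W →ₗ[F] W).comp (LinearMap.snd F F W))

lemma liftLin_apply (Q₀ : QuadraticForm F W) (a : SpLin Q₀) (x : F) (w : W) :
    liftLin Q₀ a (x, w) = (x + ellLin Q₀ a w, (a : W ≃ₗ[F] W) w) := rfl

lemma liftLin_Q (Q₀ : QuadraticForm F W) (a : SpLin Q₀) (p : F × W) :
    extQ Q₀ (liftLin Q₀ a p) = extQ Q₀ p := by
  obtain ⟨x, w⟩ := p
  rw [liftLin_apply, extQ_apply, extQ_apply, CharTwo.add_sq]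
  have h1 : (ellLin Q₀ a w) ^ 2 = Q₀ w + Q₀ ((a : W ≃ₗ[F] W) w) := sqrtF_sq _
  rw [h1]
  have h2 : Q₀ ((a : W ≃ₗ[F] W) w) + Q₀ ((a : W ≃ₗ[F] W) w) = 0 := CharTwo.add_self_eq_zero _
  linear_combination h2

lemma liftLin_injective (Q₀ : QuadraticForm F W) (a : SpLin Q₀) :
    Function.Injective (liftLin Q₀ a) := by
  rw [injective_iff_map_eq_zero]
  rintro ⟨x, w⟩ h
  rw [liftLin_apply] at h
  have h1 : (a : W ≃ₗ[F] W) w = 0 := congrArg Prod.snd h
  have h2 : w = 0 := by simpa using h1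
  subst h2
  have h3 : x + ellLin Q₀ a 0 = 0 := congrArg Prod.fst h
  rw [map_zero, add_zero] at h3
  rw [h3]
  rfl

lemma toSp_surjective (Q₀ : QuadraticForm F W) (hQ : Nondeg Q₀) :
    Function.Surjective (toSp Q₀ hQ) := by
  intro a
  refine ⟨⟨LinearEquiv.ofInjectiveEndo (liftLin Q₀ a) (liftLin_injective Q₀ a), liftLin_Q Q₀ a⟩, ?_⟩
  apply Subtype.ext
  apply LinearEquiv.ext
  intro w
  rw [toSp_apply]
  rfl

/-- `O(x² + Q₀) ≅ Sp(polar Q₀)`. -/
noncomputable def OGequivSp (Q₀ : QuadraticForm F W) (hQ : Nondeg Q₀) : OG (extQ Q₀) ≃* SpLin Q₀ :=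
  MulEquiv.ofBijective (MonoidHom.mk' (toSp Q₀ hQ) (toSp_mul Q₀ hQ))
    ⟨toSp_injective Q₀ hQ, toSp_surjective Q₀ hQ⟩

end char2

/-! ### Matrices -/

section matrices

variable [CharP F 2] {m : ℕ}

local notation "J'" => Matrix.J (Fin m) F

lemma polar_qPlus_eq (u v : Fin m ⊕ Fin m → F) :
    polar (qPlus m F) u v = u ⬝ᵥ (Matrix.J (Fin m) F *ᵥ v) := by
  simp only [polar, qPlus_apply, Cfsg.quadFormPlus]
  simp only [Matrix.J, Matrix.fromBlocks_mulVec, dotProduct, Fintype.sum_sum_type]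
  simp [Matrix.neg_mulVec, CharTwo.neg_eq, ← Finset.sum_add_distrib, ← Finset.sum_sub_distrib, Matrix.one_mulVec]
  apply Finset.sum_congr rfl
  intro x _
  ring

lemma dot_transpose (A : Matrix (Fin m ⊕ Fin m) (Fin m ⊕ Fin m) F) (u w : Fin m ⊕ Fin m → F) :
    (A *ᵥ u) ⬝ᵥ w = u ⬝ᵥ (A.transpose *ᵥ w) := by
  rw [dotProduct_comm, Matrix.dotProduct_mulVec, dotProduct_comm, Matrix.mulVec_transpose]

lemma polar_matrix (A : Matrix (Fin m ⊕ Fin m) (Fin m ⊕ Fin m) F) (u v : Fin m ⊕ Fin m → F) :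
    polar (qPlus m F) (A *ᵥ u) (A *ᵥ v)
      = u ⬝ᵥ ((A.transpose * Matrix.J (Fin m) F * A) *ᵥ v) := by
  rw [polar_qPlus_eq, dot_transpose, Matrix.mulVec_mulVec, Matrix.mulVec_mulVec, Matrix.mul_assoc]

lemma sp_preserves {A : Matrix (Fin m ⊕ Fin m) (Fin m ⊕ Fin m) F}
    (hA : A ∈ Matrix.symplecticGroup (Fin m) F) (u v : Fin m ⊕ Fin m → F) :
    polar (qPlus m F) (A *ᵥ u) (A *ᵥ v) = polar (qPlus m F) u v := by
  rw [polar_matrix, SymplecticGroup.mem_iff'.1 hA, polar_qPlus_eq]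

lemma sp_of_preserves {A : Matrix (Fin m ⊕ Fin m) (Fin m ⊕ Fin m) F}
    (hA : ∀ u v, polar (qPlus m F) (A *ᵥ u) (A *ᵥ v) = polar (qPlus m F) u v) :
    A ∈ Matrix.symplecticGroup (Fin m) F := by
  rw [SymplecticGroup.mem_iff']
  apply Matrix.toLin'.injective
  apply LinearMap.ext
  intro v
  simp only [Matrix.toLin'_apply]
  apply dotProduct_eq
  intro u
  rw [dotProduct_comm, dotProduct_comm (Matrix.J (Fin m) F *ᵥ v), ← polar_matrix, hA, polar_qPlus_eq]

/-- From the matrix group to the linear group. -/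
noncomputable def spToLin (A : Matrix.symplecticGroup (Fin m) F) : SpLin (qPlus m F) :=
  ⟨LinearEquiv.ofInjectiveEndo (Matrix.toLin' (A : Matrix (Fin m ⊕ Fin m) (Fin m ⊕ Fin m) F)) (by
      intro x y hxy
      have h1 : (↑(A⁻¹ * A) : Matrix (Fin m ⊕ Fin m) (Fin m ⊕ Fin m) F) = 1 := by
        rw [inv_mul_cancel]; rfl
      have h2 : ∀ z : Fin m ⊕ Fin m → F, ((A⁻¹ : Matrix.symplecticGroup (Fin m) F) : Matrix (Fin m ⊕ Fin m) (Fin m ⊕ Fin m) F) *ᵥ
          ((A : Matrix (Fin m ⊕ Fin m) (Fin m ⊕ Fin m) F) *ᵥ z) = z := by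
        intro z
        rw [Matrix.mulVec_mulVec]
        have : ((A⁻¹ : Matrix.symplecticGroup (Fin m) F) : Matrix (Fin m ⊕ Fin m) (Fin m ⊕ Fin m) F) * (A : Matrix (Fin m ⊕ Fin m) (Fin m ⊕ Fin m) F) = 1 := h1
        rw [this, Matrix.one_mulVec]
      rw [Matrix.toLin'_apply, Matrix.toLin'_apply] at hxy
      rw [← h2 x, ← h2 y, hxy]),
    fun u v => sp_preserves A.2 u v⟩

lemma spToLin_apply (A : Matrix.symplecticGroup (Fin m) F) (v : Fin m ⊕ Fin m → F) :
    ((spToLin A : SpLin (qPlus m F)) : (Fin m ⊕ Fin m → F) ≃ₗ[F] (Fin m ⊕ Fin m → F)) v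
      = (A : Matrix (Fin m ⊕ Fin m) (Fin m ⊕ Fin m) F) *ᵥ v := rfl

/-- The symplectic group as a linear group. -/
noncomputable def spEquiv : Matrix.symplecticGroup (Fin m) F ≃* SpLin (qPlus m F) :=
  MulEquiv.ofBijective
    (MonoidHom.mk' spToLin (by
      intro A B
      apply Subtype.ext
      apply LinearEquiv.ext
      intro v
      rw [Subgroup.coe_mul, LinearEquiv.mul_apply, spToLin_apply, spToLin_apply, spToLin_apply,
        Matrix.mulVec_mulVec]
      rfl))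
    (by
      constructor
      · intro A B hAB
        apply Subtype.ext
        apply Matrix.toLin'.injective
        apply LinearMap.ext
        intro v
        have := congrArg (fun a : SpLin (qPlus m F) =>
          (a : (Fin m ⊕ Fin m → F) ≃ₗ[F] (Fin m ⊕ Fin m → F)) v) hAB
        exact this
      · intro a
        let A : Matrix (Fin m ⊕ Fin m) (Fin m ⊕ Fin m) F :=
          LinearMap.toMatrix' ((a : (Fin m ⊕ Fin m → F) ≃ₗ[F] (Fin m ⊕ Fin m → F)) :
            (Fin m ⊕ Fin m → F) →ₗ[F] (Fin m ⊕ Fin m → F))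
        have hAv : ∀ v, A *ᵥ v = (a : (Fin m ⊕ Fin m → F) ≃ₗ[F] (Fin m ⊕ Fin m → F)) v := by
          intro v
          exact LinearMap.toMatrix'_mulVec _ v
        have hA : A ∈ Matrix.symplecticGroup (Fin m) F := by
          apply sp_of_preserves
          intro u v
          rw [hAv, hAv]
          exact a.2 u v
        refine ⟨⟨A, hA⟩, ?_⟩
        apply Subtype.ext
        apply LinearEquiv.ext
        intro v
        exact hAv v)

/-- Splitting the odd form. -/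
def splitOddZero (m : ℕ) (F : Type*) [Field F] : (Unit ⊕ (Fin m ⊕ Fin m) → F) ≃ₗ[F] F × (Fin m ⊕ Fin m → F) where
  toFun v := (v (.inl ()), fun s => v (.inr s))
  map_add' _ _ := rfl
  map_smul' _ _ := rfl
  invFun p := Sum.elim (fun _ => p.1) p.2
  left_inv v := by
    ext (i | i) <;> simp
  right_inv p := by
    rfl

lemma qOdd_split' (v : Unit ⊕ (Fin m ⊕ Fin m) → F) :
    extQ (qPlus m F) (splitOddZero m F v) = qOdd m F v := by
  change extQ (qPlus m F) (v (.inl ()), fun s => v (.inr s)) = _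
  rw [extQ_apply, qPlus_apply, qOdd_apply]
  rfl

end matrices

theorem main {F : Type*} [Field F] [Fintype F] [CharP F 2] (m : ℕ) :
    Nonempty (Cfsg.isometryGroup F (Cfsg.quadFormOdd m F) ≃* Matrix.symplecticGroup (Fin m) F) := by
  refine ⟨(isoOG _ (qOdd m F) (fun v => (qOdd_apply _ v).symm)).trans
    ((OG.congr (splitOddZero m F) qOdd_split').trans
      ((OGequivSp (qPlus m F) (Cfsg.Agent.Lib.OrthoOrder.nondeg_qPlus m)).trans spEquiv.symm))⟩


end Helpers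


/-- In characteristic 2, O_{2m+1}(q) is isomorphic to Sp_{2m}(q). -/
theorem result {F : Type*} [Field F] [Fintype F] [CharP F 2] (m : ℕ) : Nonempty (Cfsg.isometryGroup F (Cfsg.quadFormOdd m F) ≃* Matrix.symplecticGroup (Fin m) F) := by
  exact main m

end Cfsg.Agent.S0304
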