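import Mathlib
import Cfsg.Statements.S0305
import Cfsg.Agent.Lib.OrthoDihedral
-- import your own Cfsg.Agent.* helpers here

set_option autoImplicit false
open Cfsg

namespace Cfsg.Agent.S0305

/-- GO^+_2(q) is dihedral of order 2(q-1). -/
theorem result {F : Type*} [Field F] [Fintype F] {q : ℕ} (hF : Fintype.card F = q) : Nonempty (Cfsg.isometryGroup F (Cfsg.quadFormPlus 1 F) ≃* DihedralGroup (q - 1)) := by
  exact Cfsg.Agent.Lib.OrthoDihedral.dihedral_plus hF

end Cfsg.Agent.S0305
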