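import Mathlib
import Cfsg.Statements.S0307
-- import your own Cfsg.Agent.* helpers here

set_option autoImplicit false
open scoped MatrixGroups
open Cfsg

namespace Cfsg.Agent.S0307

/-- PSL_n(q) is normal in PGL_n(q) with cyclic quotient of order gcd(n, q-1): the image of the natural map PSL_n → PGL_n is the kernel of a surjective homomorphism onto the cyclic group of that order. -/
theorem result {F : Type*} [Field F] [Fintype F] {q : ℕ} (hF : Fintype.card F = q) (n : ℕ) (hn : 1 ≤ n) : ∃ g : Matrix.ProjGenLinGroup (Fin n) F →* Multiplicative (ZMod (Nat.gcd n (q - 1))), Function.Surjective g ∧ g.ker = (Matrix.ProjectiveSpecialLinearGroup.toPGL : Matrix.ProjectiveSpecialLinearGroup (Fin n) F →* Matrix.ProjGenLinGroup (Fin n) F).range := by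
  classical
  have hne : Nonempty (Fin n) := ⟨⟨0, by omega⟩⟩
  -- the quotient of `Fˣ` by `n`-th powers
  let R : Subgroup Fˣ := (powMonoidHom n : Fˣ →* Fˣ).range
  have hRn : R.Normal := inferInstance
  let Q := Fˣ ⧸ R
  have hQcyc : IsCyclic Q := by
    exact isCyclic_of_surjective (QuotientGroup.mk' R) (QuotientGroup.mk'_surjective R)
  have hQcard : Nat.card Q = Nat.gcd n (q - 1) := by
    change Nat.card (Fˣ ⧸ R) = _
    rw [← Subgroup.index_eq_card, IsCyclic.index_powMonoidHom_range, Nat.gcd_comm,
      Nat.card_eq_fintype_card, Fintype.card_units, hF]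
  have e : Multiplicative (ZMod (Nat.gcd n (q - 1))) ≃* Q := by
    have := zmodCyclicMulEquiv hQcyc
    rw [hQcard] at this
    exact this
  let ψ : GL (Fin n) F →* Q := (QuotientGroup.mk' R).comp Matrix.GeneralLinearGroup.det
  have hψcenter : Subgroup.center (GL (Fin n) F) ≤ ψ.ker := by
    rw [Matrix.GeneralLinearGroup.center_eq_range_scalar]
    rintro _ ⟨u, rfl⟩
    rw [MonoidHom.mem_ker]
    change ((QuotientGroup.mk' R) (Matrix.GeneralLinearGroup.det (Matrix.GeneralLinearGroup.scalar (Fin n) u))) = 1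
    rw [Matrix.GeneralLinearGroup.det_scalar, QuotientGroup.mk'_apply, QuotientGroup.eq_one_iff]
    exact ⟨u, by simp⟩
  let g0 : Matrix.ProjGenLinGroup (Fin n) F →* Q := QuotientGroup.lift _ ψ hψcenter
  have hg0 : ∀ A : GL (Fin n) F, g0 (Matrix.ProjGenLinGroup.mk A) = QuotientGroup.mk (Matrix.GeneralLinearGroup.det A) :=
    fun A => rfl
  refine ⟨e.symm.toMonoidHom.comp g0, ?_, ?_⟩
  · refine e.symm.surjective.comp ?_
    intro x
    obtain ⟨u, rfl⟩ := QuotientGroup.mk_surjective x
    obtain ⟨A, rfl⟩ := Matrix.GeneralLinearGroup.det_surjective (n := Fin n) u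
    exact ⟨Matrix.ProjGenLinGroup.mk A, hg0 A⟩
  · ext x
    rw [MonoidHom.mem_ker, MonoidHom.comp_apply]
    have h1 : e.symm.toMonoidHom (g0 x) = 1 ↔ g0 x = 1 := by
      simp
    rw [h1]
    constructor
    · intro hx
      obtain ⟨A, rfl⟩ := Matrix.ProjGenLinGroup.mk_surjective x
      rw [hg0, QuotientGroup.eq_one_iff] at hx
      obtain ⟨l, hl⟩ := hx
      simp only [powMonoidHom_apply] at hl
      -- correct by a scalar
      let A' : GL (Fin n) F := Matrix.GeneralLinearGroup.scalar (Fin n) l⁻¹ * A
      have hdet : Matrix.GeneralLinearGroup.det A' = 1 := by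
        simp only [A', map_mul, Matrix.GeneralLinearGroup.det_scalar, Fintype.card_fin, ← hl]
        simp
      have hdet' : (A' : Matrix (Fin n) (Fin n) F).det = 1 := by
        have := congrArg (fun u : Fˣ => (u : F)) hdet
        simpa using this
      let s : Matrix.SpecialLinearGroup (Fin n) F := ⟨A'.1, hdet'⟩
      refine ⟨QuotientGroup.mk s, ?_⟩
      rw [Matrix.ProjectiveSpecialLinearGroup.toPGL_mk]
      rw [Matrix.ProjGenLinGroup.mk_eq_mk_iff]
      refine ⟨l, ?_⟩
      have : Matrix.SpecialLinearGroup.toGL s = A' := by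
        ext a b
        rfl
      rw [this]
      simp only [A']
      rw [← Matrix.GeneralLinearGroup.scalar_commute, ← mul_assoc, ← map_mul]
      simp
    · rintro ⟨y, rfl⟩
      obtain ⟨s, rfl⟩ := QuotientGroup.mk_surjective y
      rw [Matrix.ProjectiveSpecialLinearGroup.toPGL_mk, hg0, QuotientGroup.eq_one_iff]
      have : Matrix.GeneralLinearGroup.det (Matrix.SpecialLinearGroup.toGL s) = 1 := by
        ext
        simp
      rw [this]
      exact one_mem _

end Cfsg.Agent.S0307
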