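import Mathlib
import Cfsg.Statements.S0319
import Cfsg.Agent.Lib.BNPair2

set_option autoImplicit false
open Cfsg

namespace Cfsg.Agent.S0319

/-- Simplicity criterion for groups with a (B,N)-pair: if the distinguished generators admit no
splitting into two non-empty mutually commuting parts, `B` is solvable, `G` is perfect and the intersection
of all conjugates of `B` is trivial, then `G` is simple. -/
theorem result {G : Type*} [Group G] [Nontrivial G]
    (P : Cfsg.BNPair G) (hirr : P.Irreducible) (hsolv : Group.IsSolvable P.B) (hperf : commutator G = ⊤)
    (hcore : P.B.normalCore = ⊥) : IsSimpleGroup G :=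
  Cfsg.Agent.Lib.BNPair2.isSimpleGroup_of_bnPair P hirr hsolv hperf hcore

end Cfsg.Agent.S0319
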