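import Mathlib
import Cfsg.Statements.S0320
import Cfsg.Agent.Lib.BNPair
import Cfsg.Agent.Lib.ExchangeCoxeter

set_option autoImplicit false
open Cfsg

namespace Cfsg.Agent.S0320

open Cfsg.Agent.Lib.BNPair Cfsg.Agent.Lib.ExchangeCoxeter

set_option linter.unusedSectionVars false

variable {G : Type*} [Group G] (P : Cfsg.BNPair G)

/-- The word product at the level of representatives. -/
def gp (l : List P.S) : G := (l.map Subtype.val).prod

theorem gp_word (l : List P.S) : IsWordIn P.S (l.map Subtype.val) := by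
  intro x hx
  obtain ⟨y, _, rfl⟩ := List.mem_map.1 hx
  exact y.2

theorem gp_mem (l : List P.S) : gp P l ∈ P.N := (gp_word P l).prod_mem_N subset_rfl

variable [hN : ((P.B ⊓ P.N).subgroupOf P.N).Normal]

/-- The images in `W` of the distinguished representatives. -/
def sW (i : P.S) : P.N ⧸ (P.B ⊓ P.N).subgroupOf P.N :=
  QuotientGroup.mk ⟨(i : G), P.subset i.2⟩

theorem mk_eq_iff {n m : P.N} :
    (QuotientGroup.mk n : P.N ⧸ (P.B ⊓ P.N).subgroupOf P.N) = QuotientGroup.mk m ↔
      (n : G)⁻¹ * m ∈ P.B := by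
  rw [QuotientGroup.eq, Subgroup.mem_subgroupOf]
  constructor
  · intro h
    exact h.1
  · intro h
    exact ⟨h, (n⁻¹ * m).2⟩

theorem wp_eq (l : List P.S) :
    wp (sW P) l = QuotientGroup.mk (⟨gp P l, gp_mem P l⟩ : P.N) := by
  induction l with
  | nil =>
    simp only [wp_nil]
    rfl
  | cons x l ih =>
    rw [wp_cons, ih, sW, ← QuotientGroup.mk_mul]
    congr 1

theorem wp_eq_iff (l l' : List P.S) :
    wp (sW P) l = wp (sW P) l' ↔ (gp P l)⁻¹ * gp P l' ∈ P.B := by
  rw [wp_eq, wp_eq, mk_eq_iff]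

theorem sW_mul_self (i : P.S) : sW P i * sW P i = 1 := by
  rw [sW, ← QuotientGroup.mk_mul]
  have : (QuotientGroup.mk (1 : P.N) : P.N ⧸ (P.B ⊓ P.N).subgroupOf P.N) = 1 := rfl
  rw [← this, mk_eq_iff]
  simpa using P.B.inv_mem (P.sq_mem i i.2)

theorem sW_injective : Function.Injective (sW P) := by
  intro i j h
  rw [sW, sW, mk_eq_iff] at h
  exact Subtype.ext (P.inj i i.2 j j.2 h)

/-- Lifting words. -/
theorem lift_word (l : List G) (hl : IsWordIn P.S l) : ∃ l' : List P.S, l'.map Subtype.val = l := by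
  induction l with
  | nil => exact ⟨[], rfl⟩
  | cons x l ih =>
    obtain ⟨l', rfl⟩ := ih hl.tail
    exact ⟨⟨x, hl.head⟩ :: l', rfl⟩

theorem isRed_iff (l : List P.S) : IsRed (sW P) l ↔ len P (gp P l) = l.length := by
  constructor
  · intro h
    obtain ⟨l₀, hl₀, hlen, h₀⟩ := exists_word_len (P := P) (gp_mem P l)
    obtain ⟨l', rfl⟩ := lift_word P l₀ hl₀
    have h1 := h l' (by
      rw [eq_comm, wp_eq_iff]
      exact h₀)
    have h2 := len_prod_le (P := P) (gp_word P l)
    simp only [List.length_map] at h2 hlen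
    unfold gp at *
    omega
  · intro h l' hl'
    rw [wp_eq_iff] at hl'
    have h1 := len_congr hl'
    have h2 := len_prod_le (P := P) (gp_word P l')
    simp only [List.length_map] at h2
    unfold gp at *
    omega

theorem exch : Exch (sW P) := by
  intro a x ha hx
  rw [isRed_iff] at ha hx
  have hp := gp_mem P a
  have hx' : (x : G) ∈ P.S := x.2
  have e : gp P (x :: a) = (x : G) * gp P a := by simp [gp]
  rw [e] at hx
  simp only [List.length_cons] at hx
  have h1 := len_S_mul_le (P := P) hx' hp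
  obtain ⟨b, hb, hb'⟩ := exists_mem_of_len_le hx' hp (by omega)
  obtain ⟨l₁, t, l₂, e₁, h₂⟩ := exchange hx' hb (a.map Subtype.val) (gp_word P a) hb'
  obtain ⟨a₁, a', rfl, rfl, e₃⟩ := List.map_eq_append_iff.1 e₁
  obtain ⟨y, a₂, rfl, rfl, rfl⟩ := List.map_eq_cons_iff.1 e₃
  refine ⟨a₁, y, a₂, rfl, ?_⟩
  rw [wp_eq_iff]
  have e₄ : gp P (x :: (a₁ ++ y :: a₂)) = (x : G) * ((a₁ ++ y :: a₂).map Subtype.val).prod := by
    simp [gp]
  rw [e₄]
  have e₅ : gp P (a₁ ++ a₂) = (a₁.map Subtype.val ++ a₂.map Subtype.val).prod := by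
    simp [gp]
  rw [e₅]
  exact h₂

/-- Every element of `W` is a word in the `sW`. -/
theorem exists_wp (w : P.N ⧸ (P.B ⊓ P.N).subgroupOf P.N) : ∃ l, wp (sW P) l = w := by
  induction w using QuotientGroup.induction_on with
  | H n =>
    obtain ⟨l₀, hl₀, h₀⟩ := exists_word (P := P) n.2
    obtain ⟨l', rfl⟩ := lift_word P l₀ hl₀
    refine ⟨l', ?_⟩
    rw [wp_eq, eq_comm, mk_eq_iff]
    exact h₀

/-- The Coxeter matrix of the Weyl group. -/
noncomputable def cm : CoxeterMatrix P.S where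
  M := Matrix.of fun i j => orderOf (sW P i * sW P j)
  isSymm := by
    apply Matrix.IsSymm.ext
    intro i j
    simp only [Matrix.of_apply]
    rw [← orderOf_inv]
    congr 1
    have hi : (sW P i)⁻¹ = sW P i := (eq_inv_of_mul_eq_one_left (sW_mul_self P i)).symm
    have hj : (sW P j)⁻¹ = sW P j := (eq_inv_of_mul_eq_one_left (sW_mul_self P j)).symm
    rw [mul_inv_rev, hi, hj]
  diagonal i := by
    simp [sW_mul_self P i]
  off_diagonal i j hij := by
    intro h
    simp only [Matrix.of_apply] at h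
    rw [orderOf_eq_one_iff] at h
    apply hij
    apply sW_injective P
    have := eq_inv_of_mul_eq_one_left h
    rw [this]
    exact (eq_inv_of_mul_eq_one_left (sW_mul_self P j)).symm

theorem result_aux :
    ∃ (M : CoxeterMatrix P.S) (cs : CoxeterSystem M (P.N ⧸ (P.B ⊓ P.N).subgroupOf P.N)),
      ∀ s : P.S, cs.simple s = QuotientGroup.mk (⟨(s : G), P.subset s.2⟩ : P.N) := by
  let M := cm P
  let cs₀ := M.toCoxeterSystem
  have hlift : M.IsLiftable (sW P) := by
    intro i j
    change (sW P i * sW P j) ^ orderOf (sW P i * sW P j) = 1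
    exact pow_orderOf_eq_one _
  let φ : M.Group →* (P.N ⧸ (P.B ⊓ P.N).subgroupOf P.N) := cs₀.lift ⟨sW P, hlift⟩
  have hφ : ∀ i, φ (M.simple i) = sW P i := fun i => cs₀.lift_apply_simple hlift i
  have hφw : ∀ l : List P.S, φ (wp M.simple l) = wp (sW P) l := by
    intro l
    induction l with
    | nil => simp
    | cons x l ih => simp [ih, hφ]
  have hsurj : Function.Surjective φ := by
    intro w
    obtain ⟨l, rfl⟩ := exists_wp P w
    exact ⟨_, hφw l⟩
  have hinj : Function.Injective φ := by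
    rw [injective_iff_map_eq_one]
    intro x hx
    obtain ⟨l, rfl⟩ := cs₀.wordProd_surjective x
    have e : cs₀.wordProd l = wp M.simple l := rfl
    rw [e] at hx ⊢
    rw [hφw] at hx
    refine wp_eq_one_of_exchange (sW_mul_self P) (fun i => cs₀.simple_mul_simple_self i) (exch P)
      (sW_injective P) ?_ l hx
    intro i j
    exact cs₀.simple_mul_simple_pow i j
  let e : M.Group ≃* (P.N ⧸ (P.B ⊓ P.N).subgroupOf P.N) := MulEquiv.ofBijective φ ⟨hinj, hsurj⟩
  refine ⟨M, ⟨e.symm⟩, ?_⟩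
  intro s
  exact hφ s

/-- The Weyl group `W = N / (B ⊓ N)` of a (B,N)-pair, with its distinguished involutions, is a Coxeter system. -/
theorem result {G : Type*} [Group G] (P : Cfsg.BNPair G)
    [hN : ((P.B ⊓ P.N).subgroupOf P.N).Normal] :
    ∃ (M : CoxeterMatrix P.S) (cs : CoxeterSystem M (P.N ⧸ (P.B ⊓ P.N).subgroupOf P.N)),
      ∀ s : P.S, cs.simple s = QuotientGroup.mk (⟨(s : G), P.subset s.2⟩ : P.N) :=
  result_aux P

end Cfsg.Agent.S0320
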