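import Mathlib
import Cfsg.Statements.S0323

set_option autoImplicit false
open Cfsg

namespace Cfsg.Agent.S0323

open scoped Pointwise
open DoubleCoset

/-- A doubly transitive action on a set with at least three points yields a (B,N)-pair of rank one:
`B` is the stabiliser of a point `x`, `N` the setwise stabiliser of a pair `{x, y}`. -/
theorem result {G Ω : Type*} [Group G] [MulAction G Ω]
    (h2 : MulAction.IsMultiplyPretransitive G Ω 2) {x y z : Ω} (hxy : x ≠ y) (hyz : y ≠ z) (hxz : x ≠ z) :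
    ∃ P : Cfsg.BNPair G, P.B = MulAction.stabilizer G x ∧
      P.N = MulAction.stabilizer G ({x, y} : Set Ω) ∧ P.rank = 1 := by
  rw [MulAction.is_two_pretransitive_iff] at h2
  set B := MulAction.stabilizer G x with hB
  set N := MulAction.stabilizer G ({x, y} : Set Ω) with hN
  have memB : ∀ g : G, g ∈ B ↔ g • x = x := fun g => MulAction.mem_stabilizer_iff
  have memN : ∀ g : G, g ∈ N ↔ (g • x = x ∧ g • y = y) ∨ (g • x = y ∧ g • y = x) := by
    intro g
    rw [hN, MulAction.mem_stabilizer_iff, Set.smul_set_insert, Set.smul_set_singleton,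
      Set.pair_eq_pair_iff]
  obtain ⟨s, hsx, hsy⟩ := h2 hxy hxy.symm
  have hsN : s ∈ N := (memN s).2 (Or.inr ⟨hsx, hsy⟩)
  have hs_inv_x : s⁻¹ • x = y := by
    rw [inv_smul_eq_iff, hsy]
  have hs_inv_y : s⁻¹ • y = x := by
    rw [inv_smul_eq_iff, hsx]
  -- every element not fixing `x` lies in `B s B`
  have hdc : ∀ g : G, g • x ≠ x → g ∈ doubleCoset s (B : Set G) B := by
    intro g hg
    obtain ⟨b, hb1, hb2⟩ := h2 hxy hg.symm
    refine mem_doubleCoset.2 ⟨b, (memB b).2 hb1, s⁻¹ * b⁻¹ * g, ?_, by group⟩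
    rw [SetLike.mem_coe, memB, mul_smul, mul_smul]
    rw [show b⁻¹ • g • x = y by rw [inv_smul_eq_iff, hb2], hs_inv_y]
  have hdc1 : ∀ g : G, g • x = x → g ∈ doubleCoset (1 : G) (B : Set G) B := by
    intro g hg
    exact mem_doubleCoset.2 ⟨g, (memB g).2 hg, 1, B.one_mem, by group⟩
  have hdcs : ∀ n : G, n • x ≠ x → doubleCoset n (B : Set G) B = doubleCoset s (B : Set G) B :=
    fun n hn => doubleCoset_eq_of_mem (hdc n hn)
  have hdc1' : ∀ n : G, n • x = x → doubleCoset n (B : Set G) B = doubleCoset (1 : G) (B : Set G) B :=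
    fun n hn => doubleCoset_eq_of_mem (hdc1 n hn)
  refine ⟨{ B := B, N := N, S := {s}, sup_eq_top := ?_, conj_mem := ?_, subset := ?_, sq_mem := ?_,
            inj := ?_, closure_sup := ?_, mul_mem_union := ?_, conj_ne := ?_ }, rfl, rfl, ?_⟩
  · -- sup_eq_top
    rw [eq_top_iff]
    intro g _
    by_cases hg : g • x = x
    · exact (le_sup_left : B ≤ B ⊔ N) ((memB g).2 hg)
    · obtain ⟨c, hc, c', hc', rfl⟩ := mem_doubleCoset.1 (hdc g hg)
      have h1 : c ∈ B ⊔ N := (le_sup_left : B ≤ B ⊔ N) hc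
      have h2' : s ∈ B ⊔ N := (le_sup_right : N ≤ B ⊔ N) hsN
      have h3 : c' ∈ B ⊔ N := (le_sup_left : B ≤ B ⊔ N) hc'
      exact Subgroup.mul_mem _ (Subgroup.mul_mem _ h1 h2') h3
  · -- conj_mem
    rintro n hn t ⟨htB, htN⟩
    have htx : t • x = x := (memB t).1 htB
    have hty : t • y = y := by
      rcases (memN t).1 htN with h | h
      · exact h.2
      · exact absurd (htx.symm.trans h.1) hxy
    rw [memB, mul_smul, mul_smul]
    have : t • n⁻¹ • x = n⁻¹ • x := by
      rcases (memN n).1 hn with h | h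
      · have e : n⁻¹ • x = x := by rw [inv_smul_eq_iff, h.1]
        rw [e, htx]
      · have e : n⁻¹ • x = y := by rw [inv_smul_eq_iff, h.2]
        rw [e, hty]
    rw [this, smul_inv_smul]
  · -- subset
    intro t ht
    rw [Set.mem_singleton_iff.1 ht]
    exact hsN
  · -- sq_mem
    intro t ht
    rw [Set.mem_singleton_iff.1 ht, memB, mul_smul, hsx, hsy]
  · -- inj
    intro t ht t' ht' _
    rw [Set.mem_singleton_iff.1 ht, Set.mem_singleton_iff.1 ht']
  · -- closure_sup
    apply le_antisymm
    · refine sup_le ?_ inf_le_right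
      rw [Subgroup.closure_le]
      intro t ht
      rw [Set.mem_singleton_iff.1 ht]
      exact hsN
    · intro n hn
      rcases (memN n).1 hn with h | h
      · exact (le_sup_right : B ⊓ N ≤ _) ⟨(memB n).2 h.1, hn⟩
      · have h1 : s ∈ Subgroup.closure {s} ⊔ B ⊓ N :=
          (le_sup_left : Subgroup.closure {s} ≤ _) (Subgroup.subset_closure rfl)
        have h3 : s⁻¹ * n ∈ B ⊓ N := by
          refine ⟨(memB _).2 ?_, N.mul_mem (N.inv_mem hsN) hn⟩
          rw [mul_smul, h.1, hs_inv_y]
        have h4 : s⁻¹ * n ∈ Subgroup.closure {s} ⊔ B ⊓ N := (le_sup_right : B ⊓ N ≤ _) h3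
        have e : n = s * (s⁻¹ * n) := by group
        rw [e]
        exact Subgroup.mul_mem _ h1 h4
  · -- mul_mem_union
    intro t ht n hn b hb
    rw [Set.mem_singleton_iff.1 ht]
    have hbx : b • x = x := (memB b).1 hb
    rcases (memN n).1 hn with h | h
    · left
      have : (s * n) • x ≠ x := by
        rw [mul_smul, h.1, hsx]; exact hxy.symm
      rw [hdcs _ this]
      apply hdc
      rw [mul_smul, mul_smul, h.1, hbx, hsx]
      exact hxy.symm
    · by_cases hg : (s * b * n) • x = x
      · left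
        have hsn : (s * n) • x = x := by rw [mul_smul, h.1, hsy]
        rw [hdc1' _ hsn]
        exact hdc1 _ hg
      · right
        have : n • x ≠ x := by rw [h.1]; exact hxy.symm
        rw [hdcs _ this]
        exact hdc _ hg
  · -- conj_ne
    intro t ht e
    rw [Set.mem_singleton_iff.1 ht] at e
    obtain ⟨b, hb1, hb2⟩ := h2 hxy hxz
    have hb : b ∈ B := (memB b).2 hb1
    have : s * b * s ∈ (B : Set G) := by
      rw [← e]
      exact ⟨b, hb, rfl⟩
    have h3 : (s * b * s) • x = x := (memB _).1 this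
    rw [mul_smul, mul_smul, hsx, hb2] at h3
    have h4 : z = y := by
      have := congrArg (fun w => s⁻¹ • w) h3
      simpa [hs_inv_x] using this
    exact hyz h4.symm
  · -- rank
    simp [BNPair.rank]

end Cfsg.Agent.S0323
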