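import Mathlib
import Cfsg.Statements.S0354
import Cfsg.Agent.Lib.SteinerDesign
-- import your own Cfsg.Agent.* helpers here

set_option autoImplicit false
open Cfsg

namespace Cfsg.Agent.S0354

/-- In an S(5, 8, 24), each block is disjoint from exactly 30 blocks. -/
theorem result {α : Type*} [Fintype α] [DecidableEq α] (hα : Fintype.card α = 24) {B : Set (Finset α)} (hB : Cfsg.IsSteinerSystem 5 8 B) {b : Finset α} (hb : b ∈ B) : {c : Finset α | c ∈ B ∧ Disjoint b c}.ncard = 30 := by
  have h := Cfsg.Agent.Lib.SteinerDesign.blockCount_disjoint_eq _ (Cfsg.Agent.Lib.SteinerDesign.hlam5824 hα hB hb)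
  rw [hB.1 b hb] at h
  have h2 : Cfsg.Agent.Lib.SteinerDesign.tri Cfsg.Agent.Lib.SteinerDesign.lam5824 0 8 = 30 := by decide
  rw [h2] at h
  exact_mod_cast h

end Cfsg.Agent.S0354
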