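import Mathlib
import Cfsg.Statements.S0356
import Cfsg.Agent.Lib.SteinerDesign
-- import your own Cfsg.Agent.* helpers here

set_option autoImplicit false
open Cfsg

namespace Cfsg.Agent.S0356

/-- In a Steiner system S(3, 6, 22), two distinct blocks intersect in 0 or 2 points. -/
theorem result {α : Type*} [Fintype α] [DecidableEq α] (hα : Fintype.card α = 22) {B : Set (Finset α)} (hB : Cfsg.IsSteinerSystem 3 6 B) {b c : Finset α} (hb : b ∈ B) (hc : c ∈ B) (hbc : b ≠ c) : (b ∩ c).card = 0 ∨ (b ∩ c).card = 2 := by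
  have h1 := Cfsg.Agent.Lib.SteinerDesign.card_inter_lt hB hb hc hbc
  have h2 := Cfsg.Agent.Lib.SteinerDesign.tri_inter_pos _ (Cfsg.Agent.Lib.SteinerDesign.hlam3622 hα hB hb) hc
  rw [hB.1 b hb] at h2
  generalize (b ∩ c).card = i at *
  interval_cases i
  · simp
  · exfalso; revert h2; decide
  · simp

end Cfsg.Agent.S0356
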