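import Mathlib
import Cfsg.Statements.S0357
import Cfsg.Agent.Lib.SteinerDesign
-- import your own Cfsg.Agent.* helpers here

set_option autoImplicit false
open Cfsg

namespace Cfsg.Agent.S0357

/-- In a Steiner system S(5, 6, 12), the complement of every block is again a block. -/
theorem result {α : Type*} [Fintype α] [DecidableEq α] (hα : Fintype.card α = 12) {B : Set (Finset α)} (hB : Cfsg.IsSteinerSystem 5 6 B) {b : Finset α} (hb : b ∈ B) : bᶜ ∈ B := by
  have h := Cfsg.Agent.Lib.SteinerDesign.blockCount_disjoint_eq _ (Cfsg.Agent.Lib.SteinerDesign.hlam5612 hα hB hb)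
  rw [hB.1 b hb] at h
  have h2 : Cfsg.Agent.Lib.SteinerDesign.tri Cfsg.Agent.Lib.SteinerDesign.lam5612 0 6 = 1 := by decide
  rw [h2] at h
  have h3 : {c : Finset α | c ∈ B ∧ Disjoint b c}.ncard = 1 := by exact_mod_cast h
  obtain ⟨c, hc⟩ := Set.ncard_eq_one.mp h3
  have hc' : c ∈ {c : Finset α | c ∈ B ∧ Disjoint b c} := by rw [hc]; rfl
  obtain ⟨hcB, hdc⟩ := hc'
  have hsub : c ⊆ bᶜ := by
    intro a ha
    rw [Finset.mem_compl]
    intro hab
    exact (Finset.disjoint_left.mp hdc hab) ha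
  have hcard : bᶜ.card ≤ c.card := by
    rw [Finset.card_compl, hα, hB.1 b hb, hB.1 c hcB]
  have : c = bᶜ := Finset.eq_of_subset_of_card_le hsub hcard
  rw [← this]
  exact hcB

end Cfsg.Agent.S0357
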