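import Mathlib
import Cfsg.Statements.S0368
import Cfsg.Agent.Lib.DodecadFacts
-- import your own Cfsg.Agent.* helpers here

set_option autoImplicit false
open scoped Pointwise
open Cfsg

namespace Cfsg.Agent.S0368

/-- The permutation group preserving the length-24 code is transitive on dodecads. -/
theorem result (d d' : Finset Cfsg.GolayPt) (hd : d ∈ Cfsg.dodecads) (hd' : d' ∈ Cfsg.dodecads) : ∃ g : Cfsg.M24, g • d = d' := by
  obtain ⟨g, hg, h⟩ := Cfsg.Agent.Lib.DodecadFacts.exists_smul_dodecad hd hd'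
  exact ⟨⟨g, hg⟩, h⟩

end Cfsg.Agent.S0368
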