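import Mathlib
import Cfsg.Statements.S0370
import Cfsg.Agent.Lib.GolayRep
-- import your own Cfsg.Agent.* helpers here

set_option autoImplicit false
open Cfsg

namespace Cfsg.Agent.S0370

/-- The permutation x ↦ x + 1 of the residues modulo 23, fixing the extra point, lies in the group of the length-24 code. -/
theorem result : Equiv.optionCongr (Equiv.addRight (1 : ZMod 23)) ∈ Cfsg.M24 := by
  have hrep : Cfsg.Agent.Lib.GolayRep.IsRep (Equiv.optionCongr (Equiv.addRight (1 : ZMod 23))) 956302485175575353788796878166559809 :=
    Cfsg.Agent.Lib.GolayRep.isRep_of_table _ (by decide +kernel)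
  exact Cfsg.Agent.Lib.GolayRep.mem_M24_of_isRep hrep (by decide +kernel)

end Cfsg.Agent.S0370
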