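import Mathlib
import Cfsg.Statements.S0371
import Cfsg.Agent.Lib.GolayRep
-- import your own Cfsg.Agent.* helpers here

set_option autoImplicit false
open Cfsg

namespace Cfsg.Agent.S0371

/-- Multiplication by `a` on positions. -/
def mulP (a : ZMod 23) : ℕ :=
  Cfsg.Agent.Lib.GolayRep.packL
    (Cfsg.Agent.Lib.GolayRep.tab fun i => if i = 23 then 23 else (a.val * i) % 23)

theorem mul_rep_none : ∀ a : ZMod 23,
    Cfsg.Agent.Lib.GolayBits.idx none = Cfsg.Agent.Lib.GolayRep.img (mulP a) (Cfsg.Agent.Lib.GolayBits.idx none) := by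
  decide +kernel

theorem mul_rep_some : ∀ a x : ZMod 23,
    Cfsg.Agent.Lib.GolayBits.idx (some (a * x)) = Cfsg.Agent.Lib.GolayRep.img (mulP a) (Cfsg.Agent.Lib.GolayBits.idx (some x)) := by
  decide +kernel

theorem basis_ok : ∀ r : ZMod 23, r ≠ 0 → Cfsg.Agent.Lib.GolayRep.basisOk (mulP (r * r)) = true := by
  decide +kernel

/-- Multiplication by a nonzero square residue modulo 23, fixing the extra point, lies in the group of the length-24 code. -/
theorem result (u : (ZMod 23)ˣ) (hu : IsSquare u) : Equiv.optionCongr (Units.mulLeft u) ∈ Cfsg.M24 := by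
  obtain ⟨r, rfl⟩ := hu
  have hrep : Cfsg.Agent.Lib.GolayRep.IsRep (Equiv.optionCongr (Units.mulLeft (r * r)))
      (mulP (((r * r : (ZMod 23)ˣ) : ZMod 23))) := by
    intro q
    cases q with
    | none => exact (mul_rep_none _)
    | some x => exact (mul_rep_some _ x)
  haveI : Fact (Nat.Prime 23) := ⟨by norm_num⟩
  have hr : (r : ZMod 23) ≠ 0 := r.ne_zero
  apply Cfsg.Agent.Lib.GolayRep.mem_M24_of_isRep hrep
  have := basis_ok (r : ZMod 23) hr
  simpa using this

end Cfsg.Agent.S0371
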