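import Mathlib
import Cfsg.Statements.S0372
import Cfsg.Agent.Lib.GolayRep
-- import your own Cfsg.Agent.* helpers here

set_option autoImplicit false
open Cfsg

namespace Cfsg.Agent.S0372

/-- The involution x ↦ -1/x of the projective line over ZMod 23 lies in the group of the length-24 code. -/
theorem result : Cfsg.projInv ∈ Cfsg.M24 := by
  have hrep : Cfsg.Agent.Lib.GolayRep.IsRep Cfsg.projInv 1795248432537898728475572672376535 :=
    Cfsg.Agent.Lib.GolayRep.isRep_of_table _ (by decide +kernel)
  exact Cfsg.Agent.Lib.GolayRep.mem_M24_of_isRep hrep (by decide +kernel)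

end Cfsg.Agent.S0372
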