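import Mathlib
import Cfsg.Statements.S0384
import Cfsg.Agent.Lib.DodecadFacts
-- import your own Cfsg.Agent.* helpers here

set_option autoImplicit false
open scoped Pointwise
open Cfsg

namespace Cfsg.Agent.S0384

/-- A dodecad stabiliser is sharply 5-transitive on the dodecad. -/
theorem result (d : Finset Cfsg.GolayPt) (hd : d ∈ Cfsg.dodecads) (x y : Fin 5 ↪ Cfsg.GolayPt) (hx : ∀ i, x i ∈ d) (hy : ∀ i, y i ∈ d) : ∃! g : MulAction.stabilizer Cfsg.M24 d, ∀ i, ((g : Cfsg.M24) : Equiv.Perm Cfsg.GolayPt) (x i) = y i := by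
  obtain ⟨g, hg, hgd, hgx⟩ := Cfsg.Agent.Lib.DodecadFacts.exists_dodecad_five hd x y hx hy
  refine ⟨⟨⟨g, hg⟩, hgd⟩, hgx, ?_⟩
  rintro ⟨⟨g', hg'⟩, hg'd⟩ hg'x
  have hg'd' : g' • d = d := hg'd
  have hg'x' : ∀ i, g' (x i) = y i := hg'x
  have h1 : g⁻¹ * g' = 1 := by
    apply Cfsg.Agent.Lib.DodecadFacts.eq_one_of_fix_five hd x hx
      (Cfsg.M24.mul_mem (Cfsg.M24.inv_mem hg) hg')
    · rw [mul_smul, hg'd', inv_smul_eq_iff, hgd]
    · intro i
      rw [Equiv.Perm.mul_apply, hg'x', ← hgx i]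
      simp
  have h2 : g' = g := by
    have := congrArg (fun z => g * z) h1
    simpa using this
  subst h2
  rfl

end Cfsg.Agent.S0384
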