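import Mathlib
import Cfsg.Statements.S0393
import Cfsg.Agent.Lib.Leech
import Cfsg.Agent.Lib.GolayBits

set_option autoImplicit false
open Cfsg

namespace Cfsg.Agent.S0393

open Cfsg.Agent.Lib.Leech

/-- The relative index through a surjective additive map. -/
theorem relIndex_of_hom {A Q : Type*} [AddCommGroup A] [AddGroup Q] (H K : AddSubgroup A)
    (f : K →+ Q) (hs : Function.Surjective f) (hker : ∀ x : K, f x = 0 ↔ x.1 ∈ H) :
    H.relIndex K = Nat.card Q := by
  have h1 : H.addSubgroupOf K = f.ker := by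
    ext x
    rw [AddMonoidHom.mem_ker, hker, AddSubgroup.mem_addSubgroupOf]
  rw [AddSubgroup.relIndex, h1, AddSubgroup.index_ker, AddMonoidHom.range_eq_top.mpr hs]
  exact Nat.card_congr AddSubgroup.topEquiv.toEquiv

/-- The parities relative to the extra point. -/
def e1 : (GolayPt → ℤ) →+ (ZMod 23 → ZMod 2) where
  toFun x t := ((x (some t) - x none : ℤ) : ZMod 2)
  map_zero' := by funext t; simp
  map_add' x y := by
    funext t
    simp only [Pi.add_apply]
    push_cast
    ring

theorem e1_surj : Function.Surjective e1 := by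
  intro v
  refine ⟨fun p => match p with | none => 0 | some t => ((v t).val : ℤ), ?_⟩
  funext t
  show ((((v t).val : ℤ) - 0 : ℤ) : ZMod 2) = v t
  simp

/-- All coordinates have the same parity. -/
def E : AddSubgroup (GolayPt → ℤ) := e1.ker

theorem mem_E {x : GolayPt → ℤ} : x ∈ E ↔ ∀ p, (2 : ℤ) ∣ x p - x none := by
  constructor
  · intro h p
    cases p with
    | none => simp
    | some t =>
      have h1 : e1 x t = 0 := congrFun h t
      exact (ZMod.intCast_zmod_eq_zero_iff_dvd _ 2).mp h1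
  · intro h
    funext t
    exact (ZMod.intCast_zmod_eq_zero_iff_dvd _ 2).mpr (h (some t))

theorem index_E : E.index = 2 ^ 23 := by
  rw [E, AddSubgroup.index_ker, AddMonoidHom.range_eq_top.mpr e1_surj]
  rw [Nat.card_congr AddSubgroup.topEquiv.toEquiv, Nat.card_eq_fintype_card, Fintype.card_fun,
    ZMod.card, ZMod.card]

/-- The halved word of a vector with all coordinates of one parity. -/
def w (x : GolayPt → ℤ) : GolayPt → ZMod 2 := fun p => (((x p - x none) / 2 : ℤ) : ZMod 2)

theorem w_add {x y : GolayPt → ℤ} (hx : x ∈ E) (hy : y ∈ E) : w (x + y) = w x + w y := by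
  funext p
  have h1 := mem_E.mp hx p
  have h2 := mem_E.mp hy p
  simp only [w, Pi.add_apply]
  rw [← Int.cast_add]
  congr 1
  omega

/-- The quotient by the code. -/
abbrev Qt : Type := (GolayPt → ZMod 2) ⧸ golayCode.toAddSubgroup

/-- The class of the halved word. -/
def f : E →+ Qt where
  toFun x := QuotientAddGroup.mk (w x.1)
  map_zero' := by
    have : w ((0 : E) : GolayPt → ℤ) = 0 := by
      funext p
      simp [w]
    rw [this]
    rfl
  map_add' x y := by
    show ((w (x.1 + y.1) : GolayPt → ZMod 2) : Qt) = _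
    rw [w_add x.2 y.2]
    rfl

theorem f_eq_zero (x : E) : f x = 0 ↔ w x.1 ∈ golayCode := by
  show ((w x.1 : GolayPt → ZMod 2) : Qt) = 0 ↔ _
  rw [QuotientAddGroup.eq_zero_iff]
  rfl

theorem one_mem_golay : (1 : GolayPt → ZMod 2) ∈ golayCode := by
  have : ind (Finset.univ : Finset GolayPt) = 1 := ind_univ_eq
  rw [← this, ← mem_codeSets_iff]
  exact univ_mem_codeSets

theorem f_surj : Function.Surjective f := by
  intro q
  obtain ⟨v, rfl⟩ := QuotientAddGroup.mk_surjective q
  refine ⟨⟨fun p => 2 * ((v p).val : ℤ), ?_⟩, ?_⟩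
  · rw [mem_E]
    intro p
    exact ⟨((v p).val : ℤ) - (v none).val, by ring⟩
  · show ((w _ : GolayPt → ZMod 2) : Qt) = _
    rw [QuotientAddGroup.eq]
    show -(w _) + v ∈ golayCode
    have : -(w (fun p => 2 * ((v p).val : ℤ))) + v = (v none) • (1 : GolayPt → ZMod 2) := by
      funext p
      have h1 : (2 * ((v p).val : ℤ) - 2 * ((v none).val : ℤ)) / 2 = ((v p).val : ℤ) - ((v none).val : ℤ) := by
        omega
      simp only [w, h1, Pi.add_apply, Pi.neg_apply, Pi.smul_apply, Pi.one_apply, smul_eq_mul, mul_one]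
      push_cast
      simp only [ZMod.natCast_val, ZMod.cast_id', id_eq]
      ring
    rw [this]
    exact golayCode.smul_mem _ one_mem_golay

theorem card_Qt : Nat.card Qt = 2 ^ 12 := by
  have h1 := AddSubgroup.card_eq_card_quotient_mul_card_addSubgroup golayCode.toAddSubgroup
  have h2 : Nat.card golayCode.toAddSubgroup = 4096 := Cfsg.Agent.Lib.GolayBits.card_golayCode
  have h3 : Nat.card (GolayPt → ZMod 2) = 16777216 := by
    rw [Nat.card_eq_fintype_card, Fintype.card_fun, ZMod.card, Fintype.card_option, ZMod.card]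
    norm_num
  rw [h2, h3] at h1
  have h1' : 16777216 = Nat.card Qt * 4096 := h1
  have h4 : Nat.card Qt = 4096 := by omega
  rw [h4]
  norm_num

/-- The vectors of one parity with halved word in the code. -/
def E' : AddSubgroup (GolayPt → ℤ) := (f.ker).map E.subtype

theorem mem_E' {x : GolayPt → ℤ} : x ∈ E' ↔ x ∈ E ∧ w x ∈ golayCode := by
  constructor
  · rintro ⟨y, hy, rfl⟩
    exact ⟨y.2, (f_eq_zero y).mp hy⟩
  · rintro ⟨h1, h2⟩
    exact ⟨⟨x, h1⟩, (f_eq_zero ⟨x, h1⟩).mpr h2, rfl⟩

theorem relIndex_E' : E'.relIndex E = 2 ^ 12 := by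
  rw [relIndex_of_hom E' E f f_surj, card_Qt]
  intro x
  rw [f_eq_zero, mem_E']
  exact ⟨fun h => ⟨x.2, h⟩, fun h => h.2⟩

theorem E'_le : E' ≤ E := fun _ hx => (mem_E'.mp hx).1

/-- The coordinate sum of a vector of `E'` is divisible by 4. -/
theorem four_dvd_sum {x : GolayPt → ℤ} (hx : x ∈ E') : (4 : ℤ) ∣ ∑ i, x i := by
  obtain ⟨h1, h2⟩ := mem_E'.mp hx
  have h3 := dot_one_right h2
  have h4 : (((∑ i, (x i - x none) / 2 : ℤ)) : ZMod 2) = 0 := by
    rw [← h3]
    simp [dot, w]
  have h5 : (2 : ℤ) ∣ ∑ i, (x i - x none) / 2 := (ZMod.intCast_zmod_eq_zero_iff_dvd _ 2).mp h4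
  have h6 : ∑ i, x i = 24 * x none + 2 * ∑ i, (x i - x none) / 2 := by
    have h7 : ∀ i, x i = x none + 2 * ((x i - x none) / 2) := by
      intro i
      have := mem_E.mp h1 i
      omega
    have h8 : ∑ i, x i = ∑ i, (x none + 2 * ((x i - x none) / 2)) :=
      Finset.sum_congr rfl fun i _ => h7 i
    rw [h8, Finset.sum_add_distrib, ← Finset.mul_sum, Finset.sum_const, Finset.card_univ,
      Fintype.card_option, ZMod.card]
    simp
  rw [h6]
  obtain ⟨k, hk⟩ := h5
  rw [hk]
  exact ⟨6 * x none + k, by ring⟩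

/-- The last parity. -/
def hh : E' →+ ZMod 2 where
  toFun x := (((∑ i, x.1 i - 4 * x.1 none) / 4 : ℤ) : ZMod 2)
  map_zero' := by simp
  map_add' x y := by
    have h1 := four_dvd_sum x.2
    have h2 := four_dvd_sum y.2
    rw [← Int.cast_add]
    congr 1
    simp only [AddSubgroup.coe_add, Pi.add_apply, Finset.sum_add_distrib]
    omega

theorem hh_eq_zero (x : E') : hh x = 0 ↔ (8 : ℤ) ∣ ∑ i, x.1 i - 4 * x.1 none := by
  have h1 := four_dvd_sum x.2
  show (((∑ i, x.1 i - 4 * x.1 none) / 4 : ℤ) : ZMod 2) = 0 ↔ _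
  rw [ZMod.intCast_zmod_eq_zero_iff_dvd _ 2]
  push_cast
  omega

/-- A vector of `E'` with odd last parity. -/
def x4 : GolayPt → ℤ := fun p => match p with | none => 4 | some _ => 0

theorem x4_mem : x4 ∈ E' := by
  rw [mem_E']
  constructor
  · rw [mem_E]
    intro p
    cases p with
    | none => simp
    | some t => exact ⟨-2, by simp [x4]⟩
  · have : w x4 = 0 := by
      funext p
      cases p with
      | none => simp [w, x4]
      | some t =>
        simp only [w, x4, Pi.zero_apply]
        decide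
    rw [this]
    exact Submodule.zero_mem _

theorem hh_surj : Function.Surjective hh := by
  intro q
  have hq : q = 0 ∨ q = 1 := zmod2_eq_zero_or_one q
  rcases hq with rfl | rfl
  · exact ⟨0, map_zero _⟩
  · refine ⟨⟨x4, x4_mem⟩, ?_⟩
    show (((∑ i, x4 i - 4 * x4 none) / 4 : ℤ) : ZMod 2) = 1
    have h : ∑ i, x4 i = 4 := by
      rw [Fintype.sum_option]
      simp [x4]
    rw [h]
    decide

/-- The description of the lattice. -/
theorem mem_L_iff {x : GolayPt → ℤ} : x ∈ leechLattice ↔ ∃ h : x ∈ E', (8 : ℤ) ∣ ∑ i, x i - 4 * x none := by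
  rw [mem_leechLattice_iff]
  constructor
  · rintro ⟨m, α, hα, h1, h2⟩
    have hbr : ∀ i, br α i = 0 ∨ br α i = 1 := by
      intro i
      rcases br_cases α i with ⟨_, h⟩ | ⟨_, h⟩
      · right; exact h
      · left; exact h
    have hE : x ∈ E := by
      rw [mem_E]
      intro p
      have h3 := h1 p
      have h4 := h1 none
      rcases hbr p with h5 | h5 <;> rcases hbr none with h6 | h6 <;> rw [h5] at h3 <;> rw [h6] at h4 <;>
        simp only [Int.ModEq] at h3 h4 <;> omega
    have hw : w x = ind α + (((br α none : ℤ) : ZMod 2)) • (1 : GolayPt → ZMod 2) := by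
      funext p
      have h3 := h1 p
      have h4 := h1 none
      simp only [w, Pi.add_apply, Pi.smul_apply, Pi.one_apply, smul_eq_mul, mul_one, ind]
      rcases br_cases α p with ⟨hp, h5⟩ | ⟨hp, h5⟩ <;> rcases br_cases α none with ⟨hn, h6⟩ | ⟨hn, h6⟩ <;>
        rw [h5] at h3 <;> rw [h6] at h4 <;> rw [h6] <;> simp only [hp, if_true, if_false] <;>
        simp only [Int.ModEq] at h3 h4 <;>
        rw [← sub_eq_zero] <;>
        push_cast [← Int.cast_sub] <;>
        first
        | (have h9 : (2 : ℤ) ∣ ((x p - x none) / 2 - 0) := by omega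
           have := (ZMod.intCast_zmod_eq_zero_iff_dvd _ 2).mpr h9
           simpa using this)
        | (have h9 : (2 : ℤ) ∣ ((x p - x none) / 2 - 1) := by omega
           have := (ZMod.intCast_zmod_eq_zero_iff_dvd _ 2).mpr h9
           simpa using this)
        | (have h9 : (2 : ℤ) ∣ ((x p - x none) / 2) := by omega
           have h10 := (ZMod.intCast_zmod_eq_zero_iff_dvd _ 2).mpr h9
           rw [h10]
           decide)
    have hwC : w x ∈ golayCode := by
      rw [hw]
      exact golayCode.add_mem (mem_codeSets_iff.mp hα) (golayCode.smul_mem _ one_mem_golay)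
    refine ⟨mem_E'.mpr ⟨hE, hwC⟩, ?_⟩
    have h7 := h1 none
    simp only [Int.ModEq] at h2 h7
    rcases hbr none with h5 | h5 <;> rw [h5] at h7 <;> omega
  · rintro ⟨hx, h8⟩
    obtain ⟨hE, hwC⟩ := mem_E'.mp hx
    refine ⟨x none, support₂ (w x), ⟨_, hwC, rfl⟩, fun i => ?_, ?_⟩
    · have h9 := mem_E.mp hE i
      rcases br_cases (support₂ (w x)) i with ⟨hi, h5⟩ | ⟨hi, h5⟩ <;> rw [h5] <;>
        simp only [support₂, Finset.mem_filter, Finset.mem_univ, true_and] at hi <;>
        simp only [w, Int.ModEq] at hi ⊢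
      · have h10 : ¬ ((2 : ℤ) ∣ (x i - x none) / 2) := fun h =>
          hi ((ZMod.intCast_zmod_eq_zero_iff_dvd _ 2).mpr h)
        omega
      · have h10 : ((2 : ℤ) ∣ (x i - x none) / 2) :=
          (ZMod.intCast_zmod_eq_zero_iff_dvd _ 2).mp (not_not.mp hi)
        omega
    · simp only [Int.ModEq]
      omega

theorem relIndex_L : leechLattice.relIndex E' = 2 := by
  rw [relIndex_of_hom leechLattice E' hh hh_surj, Nat.card_zmod]
  intro x
  rw [hh_eq_zero, mem_L_iff]
  exact ⟨fun h => ⟨x.2, h⟩, fun ⟨_, h⟩ => h⟩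

theorem L_le : leechLattice ≤ E' := fun _ hx => (mem_L_iff.mp hx).1

/-- The lattice has index 2^36 in ℤ^24 (unimodular at scale 1/8). -/
theorem result : Cfsg.leechLattice.index = 2 ^ 36 := by
  rw [← AddSubgroup.relIndex_mul_index L_le, ← AddSubgroup.relIndex_mul_index E'_le, relIndex_L,
    relIndex_E', index_E]
  norm_num

end Cfsg.Agent.S0393
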