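import Cfsg.Statements.S0399
import Cfsg.Agent.Lib.CoCo1

set_option autoImplicit false
open Cfsg
open Cfsg.Agent.Lib.CoConf

namespace Cfsg.Agent.S0399

/-- Automorphism group of the lattice modulo its centre is simple of order 4157776806543360000. -/
theorem result : Cfsg.IsCo1 (Cfsg.Co0 ⧸ Subgroup.center Cfsg.Co0) := by
  exact ⟨co1_simple Spor.leechU Cfsg.Agent.Lib.CoCensus.sqNorm_leechU, card_Gq⟩

end Cfsg.Agent.S0399
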