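import Cfsg.Statements.S0412
import Mathlib
import Cfsg.Agent.Lib.SteinerAut
import Cfsg.Agent.Lib.Steiner5824
import Cfsg.Agent.S0363
import Cfsg.Agent.S0364
import Cfsg.Agent.S0365
import Cfsg.Agent.S0366
import Cfsg.Agent.S0369

set_option autoImplicit false
open Cfsg

namespace Cfsg.Agent.S0412

/-- Aut of an S(5, 8, 24) is simple of order 244823040 and 5-transitive on points. -/
theorem result {α : Type*} [Fintype α] [DecidableEq α] (hα : Fintype.card α = 24) {B : Set (Finset α)} (hB : Cfsg.IsSteinerSystem 5 8 B) : Cfsg.IsM24 (Cfsg.setSystemAut B) ∧ MulAction.IsMultiplyPretransitive (Cfsg.setSystemAut B) α 5 := by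
  have hO : Cfsg.IsSteinerSystem 5 8 Cfsg.octads := Cfsg.Agent.S0363.result
  have hcard : Fintype.card Cfsg.GolayPt = 24 := by
    simp [Cfsg.GolayPt, ZMod.card]
  obtain ⟨e, he⟩ := Cfsg.Agent.Lib.SteinerSearch.iso_of_good Cfsg.Agent.Lib.Steiner5824.good hα hcard hB hO
  have hM : Cfsg.M24 = Cfsg.setSystemAut Cfsg.octads := Cfsg.Agent.S0369.result
  have f := Cfsg.Agent.Lib.SteinerAut.autEquiv e he
  have hsimp : IsSimpleGroup (Cfsg.setSystemAut Cfsg.octads) := by
    rw [← hM]; exact Cfsg.Agent.S0365.result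
  have hc : Nat.card (Cfsg.setSystemAut Cfsg.octads) = 244823040 := by
    rw [← hM]; exact Cfsg.Agent.S0364.result
  have hp : MulAction.IsMultiplyPretransitive (Cfsg.setSystemAut Cfsg.octads) Cfsg.GolayPt 5 := by
    rw [← hM]; exact Cfsg.Agent.S0366.result
  refine ⟨⟨f.isSimpleGroup, ?_⟩, Cfsg.Agent.Lib.SteinerAut.pretrans_transport e he 5⟩
  rw [Nat.card_congr f.toEquiv, hc]

end Cfsg.Agent.S0412
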