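import Cfsg.Statements.S0413
import Mathlib
import Cfsg.Agent.Lib.SteinerAut
import Cfsg.Agent.Lib.SteinerDerive
import Cfsg.Agent.Lib.SteinerF4723
import Cfsg.Agent.Lib.AutF4723
import Cfsg.Agent.S0351
import Cfsg.Agent.S0363
import Cfsg.Agent.S0369
import Cfsg.Agent.S0376
import Cfsg.Agent.S0377

set_option autoImplicit false
open Cfsg

namespace Cfsg.Agent.S0413

/-- Aut of an S(4, 7, 23) is simple of order 10200960 and 4-transitive. -/
theorem result {α : Type*} [Fintype α] [DecidableEq α] (hα : Fintype.card α = 23) {B : Set (Finset α)} (hB : Cfsg.IsSteinerSystem 4 7 B) : Cfsg.IsM23 (Cfsg.setSystemAut B) ∧ MulAction.IsMultiplyPretransitive (Cfsg.setSystemAut B) α 4 := by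
  -- the standard system and its group
  have H := Cfsg.Agent.Lib.SteinerF4723.good
  have hp : MulAction.IsMultiplyPretransitive (Cfsg.setSystemAut B) α 4 :=
    Cfsg.Agent.Lib.SteinerAut.pretrans_of_good H (by norm_num) hα hB
  have hc : ∀ {γ : Type} [Fintype γ] [DecidableEq γ] (_ : Fintype.card γ = 23) {D : Set (Finset γ)}
      (_ : Cfsg.IsSteinerSystem 4 7 D), Nat.card (Cfsg.setSystemAut D) = 10200960 := by
    intro γ _ _ hγ D hD
    have := Cfsg.Agent.Lib.SteinerAut.card_aut H (by norm_num) (by norm_num) (fun _ h => h)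
      Cfsg.Agent.Lib.AutF4723.R_ok Cfsg.Agent.Lib.AutF4723.R_nodup hγ hD
    rw [this, Cfsg.Agent.Lib.AutF4723.R_len]
    rfl
  have hcB : Nat.card (Cfsg.setSystemAut B) = 10200960 := by
    have := Cfsg.Agent.Lib.SteinerAut.card_aut H (by norm_num) (by norm_num) (fun _ h => h)
      Cfsg.Agent.Lib.AutF4723.R_ok Cfsg.Agent.Lib.AutF4723.R_nodup hα hB
    rw [this, Cfsg.Agent.Lib.AutF4723.R_len]
    rfl
  -- the derived system at a point of the code
  have hO : Cfsg.IsSteinerSystem 5 8 Cfsg.octads := Cfsg.Agent.S0363.result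
  have hM : Cfsg.M24 = Cfsg.setSystemAut Cfsg.octads := Cfsg.Agent.S0369.result
  let p : Cfsg.GolayPt := none
  have hD : Cfsg.IsSteinerSystem 4 7 (Cfsg.Agent.Lib.SteinerDerive.derive Cfsg.octads p) :=
    Cfsg.Agent.S0351.result hO p
  have hcard : Fintype.card {a : Cfsg.GolayPt // a ≠ p} = 23 := by
    rw [Fintype.card_subtype_compl, Fintype.card_subtype_eq]
    simp [Cfsg.GolayPt, ZMod.card]
  have hcD := hc hcard hD
  let φ := Cfsg.Agent.Lib.SteinerDerive.restrHom Cfsg.M24 Cfsg.octads hM.le p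
  have hinj : Function.Injective φ := Cfsg.Agent.Lib.SteinerDerive.restrHom_inj _ _ _ _
  have hbij : Function.Bijective φ := hinj.bijective_of_nat_card_le (by
    rw [hcD, Cfsg.Agent.S0376.result p])
  have hsimp0 : IsSimpleGroup (MulAction.stabilizer Cfsg.M24 p) := Cfsg.Agent.S0377.result p
  have e0 := MulEquiv.ofBijective φ hbij
  have hsimpD : IsSimpleGroup (Cfsg.setSystemAut (Cfsg.Agent.Lib.SteinerDerive.derive Cfsg.octads p)) :=
    e0.symm.isSimpleGroup
  obtain ⟨e, he⟩ := Cfsg.Agent.Lib.SteinerSearch.iso_of_good H hα hcard hB hD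
  have f := Cfsg.Agent.Lib.SteinerAut.autEquiv e he
  exact ⟨⟨f.isSimpleGroup, hcB⟩, hp⟩

end Cfsg.Agent.S0413
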