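import Mathlib
import Cfsg.Statements.S0416
import Cfsg.Agent.Lib.SharpTrans
-- import your own Cfsg.Agent.* helpers here

set_option autoImplicit false
open Cfsg

namespace Cfsg.Agent.S0416

/-- Degrees of sharply 5-transitive permutation groups are 5, 6, 7, 12. -/
theorem result {α : Type*} [Fintype α] [DecidableEq α] (G : Subgroup (Equiv.Perm α)) (h5 : 5 ≤ Fintype.card α) [MulAction.IsMultiplyPretransitive G α 5] (hsharp : ∀ x : Fin 5 ↪ α, MulAction.stabilizer G x = ⊥) : Fintype.card α = 5 ∨ Fintype.card α = 6 ∨ Fintype.card α = 7 ∨ Fintype.card α = 12 := by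
  have hG := Cfsg.Agent.Lib.SharpTrans.sharpOn_of (k := 5) G hsharp
  have hne : Nonempty α := by
    rw [← Fintype.card_pos_iff]; omega
  obtain ⟨a⟩ := hne
  have hG' := hG.reduce (Finset.mem_univ a)
  have hc : (Finset.univ.erase a).card = Fintype.card α - 1 := by
    rw [Finset.card_erase_of_mem (Finset.mem_univ a), Finset.card_univ]
  have := hG'.degree (by rw [hc]; omega)
  rw [hc] at this
  omega

end Cfsg.Agent.S0416
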