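import Cfsg.Statements.S0417
import Mathlib
import Cfsg.Agent.Lib.SharpTrans
import Cfsg.Agent.Lib.SharpTrans2

set_option autoImplicit false
open Cfsg

namespace Cfsg.Agent.S0417

/-- For k ≥ 6, sharply k-transitive groups have degree k, k+1 or k+2. -/
theorem result {α : Type*} [Fintype α] [DecidableEq α] (G : Subgroup (Equiv.Perm α)) (k : ℕ) (hk : 6 ≤ k) (hn : k ≤ Fintype.card α) [MulAction.IsMultiplyPretransitive G α k] (hsharp : ∀ x : Fin k ↪ α, MulAction.stabilizer G x = ⊥) : Fintype.card α = k ∨ Fintype.card α = k + 1 ∨ Fintype.card α = k + 2 := by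
  have hG := Cfsg.Agent.Lib.SharpTrans.sharpOn_of (k := k) G hsharp
  have hk' : (k - 6) + 6 = k := by omega
  obtain ⟨G₁, Ω₁, h1, h1c⟩ := Cfsg.Agent.Lib.SharpTrans2.reduce_to (k - 6) 6 G Finset.univ
    (by rw [Nat.add_comm, hk']; exact hG) (by rw [Finset.card_univ]; omega)
  rw [Finset.card_univ] at h1c
  obtain ⟨G₂, Ω₂, h2, h2c⟩ := Cfsg.Agent.Lib.SharpTrans2.reduce_to 2 4 G₁ Ω₁ h1 (by omega)
  have h3 := h2.degree (by omega)
  have h13 : Ω₁.card ≠ 13 := fun h => Cfsg.Agent.Lib.SharpTrans2.no13 h1 h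
  omega

end Cfsg.Agent.S0417
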