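import Cfsg.Statements.S0425
import Mathlib
import Cfsg.Agent.Lib.SteinerAut
import Cfsg.Agent.Lib.SteinerF5612
import Cfsg.Agent.S0419

set_option autoImplicit false
open Cfsg

namespace Cfsg.Agent.S0425

/-- Aut of an S(5, 6, 12) is simple of order 95040 and sharply 5-transitive on points. -/
theorem result {α : Type*} [Fintype α] [DecidableEq α] (hα : Fintype.card α = 12) {B : Set (Finset α)} (hB : Cfsg.IsSteinerSystem 5 6 B) : Cfsg.IsM12 (Cfsg.setSystemAut B) ∧ MulAction.IsMultiplyPretransitive (Cfsg.setSystemAut B) α 5 ∧ ∀ x : Fin 5 ↪ α, MulAction.stabilizer (Cfsg.setSystemAut B) x = ⊥ := by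
  have H := Cfsg.Agent.Lib.SteinerF5612.good
  have hp : MulAction.IsMultiplyPretransitive (Cfsg.setSystemAut B) α 5 :=
    Cfsg.Agent.Lib.SteinerAut.pretrans_of_good H (by norm_num) hα hB
  have hroot : Cfsg.Agent.Lib.SteinerAut.dfsRoot 12 5 Cfsg.Agent.Lib.SteinerF5612.Lstd
      Cfsg.Agent.Lib.SteinerF5612.Lstd 5 = [Cfsg.Agent.Lib.SteinerAut.idCode 12] := by decide +kernel
  have hs : ∀ x : Fin 5 ↪ α, MulAction.stabilizer (Cfsg.setSystemAut B) x = ⊥ := fun x =>
    Cfsg.Agent.Lib.SteinerAut.stab_bot H (by norm_num) (by norm_num) (fun _ h => h) hroot hα hB x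
  exact ⟨Cfsg.Agent.S0419.result hα (Cfsg.setSystemAut B) hs, hp, hs⟩

end Cfsg.Agent.S0425
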