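-- Statement S0427: the block graph of S(3,6,22) is strongly regular with parameters (77,16,0,4).
import Mathlib
import Cfsg.Statements.S0427
import Cfsg.Agent.Lib.S322

set_option autoImplicit false
open Cfsg

namespace Cfsg.Agent.S0427

open Finset Cfsg.Agent.Lib.S322 Cfsg.Agent.Lib.Steiner

/-- The block graph (adjacent = disjoint) of an S(3, 6, 22) is strongly regular with parameters (77, 16, 0, 4). -/
theorem result {α : Type*} [Fintype α] (hα : Fintype.card α = 22) {B : Set (Finset α)} (hB : Cfsg.IsSteinerSystem 3 6 B) [Fintype B] [DecidableRel (Cfsg.blockGraph B).Adj] : (Cfsg.blockGraph B).IsSRGWith 77 16 0 4 := by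
  classical
  refine ⟨card_B hα hB, ?_, ?_, ?_⟩
  · intro b
    rw [← SimpleGraph.card_neighborSet_eq_degree]
    rw [card_set_eq _ ((blocksOver B ∅).filter (fun d => Disjoint d b.1))]
    · exact card_disjoint_block hα hB b.2
    · intro d
      simp only [mem_filter, mem_BF, SimpleGraph.mem_neighborSet, adj_block hB]
      constructor
      · rintro ⟨h1, h2⟩
        exact ⟨h1, h2.symm⟩
      · rintro ⟨h1, h2⟩
        exact ⟨h1, h2.symm⟩
  · intro b c hbc
    rw [adj_block hB] at hbc
    rw [card_set_eq _ ∅]
    · rfl
    · intro d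
      simp only [notMem_empty, false_iff]
      rintro ⟨hd, h⟩
      rw [SimpleGraph.mem_commonNeighbors, adj_block hB, adj_block hB] at h
      exact no_triangle hα hB b.2 c.2 hd hbc h.1.symm h.2.symm
  · intro b c hne hbc
    rw [adj_block hB] at hbc
    rw [card_set_eq _ ((blocksOver B ∅).filter (fun d => Disjoint d b.1 ∧ Disjoint d c.1))]
    · apply card_disjoint_meeting hα hB b.2 c.2
      have hne' : (b : Finset α) ≠ c := fun h => hne (Subtype.ext h)
      rcases inter_zero_or_two hα hB b.2 c.2 hne' with h0 | h0
      · exfalso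
        apply hbc
        rw [Finset.disjoint_iff_inter_eq_empty, inter_comm]
        exact card_eq_zero.1 h0
      · exact h0
    · intro d
      simp only [mem_filter, mem_BF, SimpleGraph.mem_commonNeighbors, adj_block hB]
      constructor
      · rintro ⟨h1, h2, h3⟩
        exact ⟨h1, h2.symm, h3.symm⟩
      · rintro ⟨h1, h2, h3⟩
        exact ⟨h1, h2.symm, h3.symm⟩

end Cfsg.Agent.S0427
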