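-- Statement S0428: the point-block graph of S(3,6,22) is strongly regular with parameters (100,22,0,6).
import Mathlib
import Cfsg.Statements.S0428
import Cfsg.Agent.Lib.S322

set_option autoImplicit false
open Cfsg

namespace Cfsg.Agent.S0428

open Finset Cfsg.Agent.Lib.S322 Cfsg.Agent.Lib.Steiner

/-- The point-block graph of an S(3, 6, 22) is strongly regular with parameters (100, 22, 0, 6). -/
theorem result {α : Type*} [Fintype α] (hα : Fintype.card α = 22) {B : Set (Finset α)} (hB : Cfsg.IsSteinerSystem 3 6 B) [Fintype B] [DecidableRel (Cfsg.pointBlockGraph B).Adj] : (Cfsg.pointBlockGraph B).IsSRGWith 100 22 0 6 := by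
  classical
  refine ⟨?_, ?_, ?_, ?_⟩
  · simp [card_B hα hB, hα]
  · rintro (_ | a | b)
    · rw [← SimpleGraph.card_neighborSet_eq_degree]
      rw [card_of_parts _ 0 univ ∅]
      · simp [hα]
      · intro h; simp [pb_none_none] at h
      · intro _; rfl
      · intro a; simpa using pb_none_inl B a
      · intro d; simp [pb_none_inr]
    · rw [← SimpleGraph.card_neighborSet_eq_degree]
      rw [card_of_parts _ 1 ∅ (blocksOver B {a})]
      · rw [lam1 hα hB (by simp)]; simp
      · intro _; rfl
      · intro h; exact absurd (pb_inl_none B a) (by simpa using h)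
      · intro a'; simp [pb_inl_inl]
      · intro d
        simp only [SimpleGraph.mem_neighborSet, pb_inl_inr, mem_blocksOver, singleton_subset_iff]
        constructor
        · rintro ⟨h1, h2⟩; exact ⟨h1, h2⟩
        · rintro ⟨h1, h2⟩; exact ⟨h1, h2⟩
    · rw [← SimpleGraph.card_neighborSet_eq_degree]
      rw [card_of_parts _ 0 b.1 ((blocksOver B ∅).filter (fun d => Disjoint d b.1))]
      · rw [card_self_block hB b.2, card_disjoint_block hα hB b.2]
      · intro h; simp [pb_inr_none] at h
      · intro _; rfl
      · intro a; simp [pb_inr_inl]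
      · intro d
        simp only [SimpleGraph.mem_neighborSet, pb_inr_inr hB, mem_filter, mem_BF]
        constructor
        · rintro ⟨h1, h2⟩; exact ⟨h1, h2.symm⟩
        · rintro ⟨h1, h2⟩; exact ⟨h1, h2.symm⟩
  · -- adjacent pairs have no common neighbours
    intro v w hvw
    rw [card_of_parts _ 0 ∅ ∅]
    · simp
    · intro h
      exfalso
      rw [SimpleGraph.mem_commonNeighbors] at h
      rcases v with _ | a | b <;> rcases w with _ | a' | c
      · exact pb_none_none B h.1
      · exact pb_none_none B h.1
      · exact pb_none_none B h.1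
      · exact pb_none_none B h.2
      · exact absurd hvw (pb_inl_inl B a a')
      · exact pb_inr_none B c h.2
      · exact pb_inr_none B b hvw
      · exact pb_inr_none B b h.1
      · exact pb_inr_none B b h.1
    · intro _; rfl
    · intro a
      simp only [notMem_empty, false_iff, SimpleGraph.mem_commonNeighbors]
      rintro ⟨h1, h2⟩
      rcases v with _ | a1 | b <;> rcases w with _ | a2 | c
      · exact pb_none_none B hvw
      · exact pb_inl_inl B a2 a h2
      · exact pb_none_inr B c hvw
      · exact pb_inl_inl B a1 a h1
      · exact pb_inl_inl B a1 a h1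
      · exact pb_inl_inl B a1 a h1
      · exact pb_none_inr B b hvw.symm
      · exact pb_inl_inl B a2 a h2
      · have h3 := (pb_inr_inr hB b c).1 hvw
        have h4 := (pb_inr_inl B a b).1 h1
        have h5 := (pb_inr_inl B a c).1 h2
        exact (disjoint_left.1 h3) h4 h5
    · intro d
      simp only [notMem_empty, false_iff, SimpleGraph.mem_commonNeighbors]
      rintro ⟨hd, h1, h2⟩
      rcases v with _ | a1 | b <;> rcases w with _ | a2 | c
      · exact pb_none_none B hvw
      · exact pb_none_inr B _ h1
      · exact pb_none_inr B _ h1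
      · exact pb_none_inr B _ h2
      · exact pb_inl_inl B a1 a2 hvw
      · have h3 := (pb_inl_inr B a1 c).1 hvw
        have h4 := (pb_inl_inr B a1 _).1 h1
        have h5 := (pb_inr_inr hB c _).1 h2
        exact (disjoint_left.1 h5) h3 h4
      · exact pb_none_inr B _ h2
      · have h3 := (pb_inr_inl B a2 b).1 hvw
        have h4 := (pb_inl_inr B a2 _).1 h2
        have h5 := (pb_inr_inr hB b _).1 h1
        exact (disjoint_left.1 h5) h3 h4
      · have h3 := (pb_inr_inr hB b c).1 hvw
        have h4 := (pb_inr_inr hB b _).1 h1
        have h5 := (pb_inr_inr hB c _).1 h2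
        exact no_triangle hα hB b.2 c.2 hd h3 h4.symm h5.symm
  · -- nonadjacent pairs have 6 common neighbours
    intro v w hne hvw
    rcases v with _ | a1 | b <;> rcases w with _ | a2 | c
    · exact absurd rfl hne
    · exact absurd (pb_none_inl B a2) hvw
    · rw [card_of_parts _ 0 c.1 ∅]
      · simp [card_self_block hB c.2]
      · intro h; exact absurd h.1 (pb_none_none B)
      · intro _; rfl
      · intro a
        simp only [SimpleGraph.mem_commonNeighbors, pb_inr_inl]
        constructor
        · intro h; exact ⟨pb_none_inl B a, h⟩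
        · rintro ⟨_, h⟩; exact h
      · intro d
        simp only [notMem_empty, false_iff, SimpleGraph.mem_commonNeighbors]
        rintro ⟨hd, h1, h2⟩
        exact pb_none_inr B _ h1
    · exact absurd (pb_inl_none B a1) hvw
    · have hne' : a1 ≠ a2 := fun h => hne (by rw [h])
      rw [card_of_parts _ 1 ∅ (blocksOver B {a1, a2})]
      · rw [lam2 hα hB (card_pair hne')]; simp
      · intro _; rfl
      · intro h
        exact absurd ⟨pb_inl_none B a1, pb_inl_none B a2⟩ h
      · intro a
        simp only [notMem_empty, false_iff, SimpleGraph.mem_commonNeighbors]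
        rintro ⟨h1, h2⟩
        exact pb_inl_inl B _ _ h1
      · intro d
        simp only [SimpleGraph.mem_commonNeighbors, pb_inl_inr, mem_blocksOver, insert_subset_iff,
          singleton_subset_iff]
        constructor
        · rintro ⟨h1, h2, h3⟩; exact ⟨h1, h2, h3⟩
        · rintro ⟨h1, h2, h3⟩; exact ⟨h1, h2, h3⟩
    · have ha : a1 ∉ c.1 := fun h => hvw ((pb_inl_inr B a1 c).2 h)
      rw [card_of_parts _ 0 ∅ ((blocksOver B {a1}).filter (fun d => Disjoint d c.1))]
      · rw [card_through_disjoint hα hB c.2 ha]; simp
      · intro h; exact absurd h.2 (pb_inr_none B c)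
      · intro _; rfl
      · intro a
        simp only [notMem_empty, false_iff, SimpleGraph.mem_commonNeighbors]
        rintro ⟨h1, h2⟩
        exact pb_inl_inl B _ _ h1
      · intro d
        simp only [SimpleGraph.mem_commonNeighbors, pb_inl_inr, pb_inr_inr hB, mem_filter,
          mem_blocksOver, singleton_subset_iff]
        constructor
        · rintro ⟨⟨h1, h2⟩, h3⟩; exact ⟨h1, h2, h3.symm⟩
        · rintro ⟨h1, h2, h3⟩; exact ⟨⟨h1, h2⟩, h3.symm⟩
    · rw [card_of_parts _ 0 b.1 ∅]
      · simp [card_self_block hB b.2]
      · intro h; exact absurd h.2 (pb_none_none B)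
      · intro _; rfl
      · intro a
        simp only [SimpleGraph.mem_commonNeighbors, pb_inr_inl]
        constructor
        · intro h; exact ⟨h, pb_none_inl B a⟩
        · rintro ⟨h, _⟩; exact h
      · intro d
        simp only [notMem_empty, false_iff, SimpleGraph.mem_commonNeighbors]
        rintro ⟨hd, h1, h2⟩
        exact pb_none_inr B _ h2
    · have ha : a2 ∉ b.1 := fun h => hvw ((pb_inr_inl B a2 b).2 h)
      rw [card_of_parts _ 0 ∅ ((blocksOver B {a2}).filter (fun d => Disjoint d b.1))]
      · rw [card_through_disjoint hα hB b.2 ha]; simp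
      · intro h; exact absurd h.1 (pb_inr_none B b)
      · intro _; rfl
      · intro a
        simp only [notMem_empty, false_iff, SimpleGraph.mem_commonNeighbors]
        rintro ⟨h1, h2⟩
        exact pb_inl_inl B _ _ h2
      · intro d
        simp only [SimpleGraph.mem_commonNeighbors, pb_inl_inr, pb_inr_inr hB, mem_filter,
          mem_blocksOver, singleton_subset_iff]
        constructor
        · rintro ⟨⟨h1, h2⟩, h3⟩; exact ⟨h1, h3.symm, h2⟩
        · rintro ⟨h1, h2, h3⟩; exact ⟨⟨h1, h3⟩, h2.symm⟩
    · have hne' : (b : Finset α) ≠ c := fun h => hne (by rw [Subtype.ext h])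
      have hnd : ¬ Disjoint (b : Finset α) c := fun h => hvw ((pb_inr_inr hB b c).2 h)
      have h2 : (c.1 ∩ b.1).card = 2 := by
        rcases inter_zero_or_two hα hB b.2 c.2 hne' with h0 | h0
        · exfalso
          apply hnd
          rw [Finset.disjoint_iff_inter_eq_empty, inter_comm]
          exact card_eq_zero.1 h0
        · exact h0
      rw [card_of_parts _ 0 (c.1 ∩ b.1)
        ((blocksOver B ∅).filter (fun d => Disjoint d b.1 ∧ Disjoint d c.1))]
      · rw [h2, card_disjoint_meeting hα hB b.2 c.2 h2]
      · intro h; exact absurd h.1 (pb_inr_none B b)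
      · intro _; rfl
      · intro a
        simp only [SimpleGraph.mem_commonNeighbors, pb_inr_inl, mem_inter]
        tauto
      · intro d
        simp only [SimpleGraph.mem_commonNeighbors, pb_inr_inr hB, mem_filter, mem_BF]
        constructor
        · rintro ⟨h1, h2, h3⟩; exact ⟨h1, h2.symm, h3.symm⟩
        · rintro ⟨h1, h2, h3⟩; exact ⟨h1, h2.symm, h3.symm⟩

end Cfsg.Agent.S0428
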