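import Cfsg.Statements.S0430
import Mathlib
import Cfsg.Agent.Lib.SRG100

set_option autoImplicit false
open Cfsg

namespace Cfsg.Agent.S0430

/-- Uniqueness of the strongly regular graph with parameters (100, 22, 0, 6). -/
theorem result {V W : Type*} [Fintype V] [Fintype W] {G : SimpleGraph V} {H : SimpleGraph W} [DecidableRel G.Adj] [DecidableRel H.Adj] (hG : G.IsSRGWith 100 22 0 6) (hH : H.IsSRGWith 100 22 0 6) : Nonempty (G ≃g H) := by
  classical
  obtain ⟨o⟩ : Nonempty V := by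
    apply Fintype.card_pos_iff.1
    rw [hG.card]; norm_num
  obtain ⟨o'⟩ : Nonempty W := by
    apply Fintype.card_pos_iff.1
    rw [hH.card]; norm_num
  obtain ⟨φ, -⟩ := Cfsg.Agent.Lib.SRG100.pointed_iso (Cfsg.Agent.Lib.SRG100.facts_of_srg hG)
    (Cfsg.Agent.Lib.SRG100.facts_of_srg hH) o o'
  exact ⟨φ⟩

end Cfsg.Agent.S0430
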