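import Cfsg.Statements.S0431
import Mathlib
import Cfsg.Agent.Lib.SRG100Aut

set_option autoImplicit false
open Cfsg

namespace Cfsg.Agent.S0431

/-- Aut of the point-block graph of an S(3, 6, 22) contains a simple subgroup of order 44352000. -/
theorem result {α : Type*} [Fintype α] (hα : Fintype.card α = 22) {B : Set (Finset α)} (hB : Cfsg.IsSteinerSystem 3 6 B) : ∃ H : Subgroup (Cfsg.pointBlockGraph B ≃g Cfsg.pointBlockGraph B), Cfsg.IsHS H := by
  classical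
  let Γ := Cfsg.pointBlockGraph B
  have hF0 := Cfsg.Agent.Lib.SRG100Model.facts0
  obtain ⟨φ0, -⟩ := Cfsg.Agent.Lib.SRG100.iso_pointBlock hF0 0
  have e : Cfsg.SetSystemIso (Cfsg.Agent.Lib.SRG100.sys Cfsg.Agent.Lib.SRG100Model.G0 0) B :=
    Cfsg.Agent.Lib.SteinerSearch.iso_of_good Cfsg.Agent.Lib.Steiner3622.good
      (Cfsg.Agent.Lib.SRG100.card_points hF0 0) hα (Cfsg.Agent.Lib.SRG100.steiner hF0 0) hB
  obtain ⟨ψ, -⟩ := Cfsg.Agent.Lib.SRG100.pointBlock_congr e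
  have hF : Cfsg.Agent.Lib.SRG100.Facts Γ :=
    Cfsg.Agent.Lib.SRG100Aut.facts_of_iso (φ0.trans ψ) hF0
  exact Cfsg.Agent.Lib.SRG100Aut.exists_HS hF none

end Cfsg.Agent.S0431
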