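import Cfsg.Statements.S0439
import Mathlib

set_option autoImplicit false
open Cfsg

namespace Cfsg.Agent.S0439

/-- In the symmetric group of degree n ≥ 2, the set of transpositions is a conjugacy class of 3-transpositions which generates the group. -/
theorem result (n : ℕ) (hn : 2 ≤ n) : Cfsg.IsThreeTranspositionClass {σ : Equiv.Perm (Fin n) | σ.IsSwap} := by
  classical
  have hne : (⟨0, by omega⟩ : Fin n) ≠ ⟨1, by omega⟩ := by
    simp [Fin.ext_iff]
  have h2 : ∀ σ : Equiv.Perm (Fin n), σ.IsSwap → orderOf σ = 2 := by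
    rintro σ ⟨x, y, hxy, rfl⟩
    exact orderOf_eq_prime (Equiv.swap_mul_self x y ▸ by rw [pow_two]) (by simpa [Equiv.swap_eq_one_iff] using hxy)
  refine ⟨⟨?_, ?_⟩, ⟨Equiv.swap ⟨0, by omega⟩ ⟨1, by omega⟩, ⟨_, _, hne, rfl⟩, ?_⟩, Equiv.Perm.closure_isSwap⟩
  · intro σ hσ
    exact h2 σ hσ
  · rintro σ ⟨a, b, hab, rfl⟩ τ ⟨c, d, hcd, rfl⟩
    -- share a point, or disjoint
    have key : ∀ x y z : Fin n, (Equiv.swap x y * Equiv.swap x z) ^ 2 = 1 ∨ (Equiv.swap x y * Equiv.swap x z) ^ 3 = 1 := by
      intro x y z
      by_cases hxy : x = y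
      · subst hxy
        left
        have : Equiv.swap x x = 1 := Equiv.swap_self x
        rw [this, one_mul, pow_two, Equiv.swap_mul_self]
      by_cases hxz : x = z
      · subst hxz
        left
        have : Equiv.swap x x = 1 := Equiv.swap_self x
        rw [this, mul_one, pow_two, Equiv.swap_mul_self]
      by_cases hyz : y = z
      · subst hyz
        left
        rw [Equiv.swap_mul_self, one_pow]
      · right
        have := Equiv.Perm.isThreeCycle_swap_mul_swap_same hxy hxz hyz
        rw [← this.orderOf]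
        exact pow_orderOf_eq_one _
    by_cases h1 : a = c
    · subst h1
      exact key a b d
    by_cases h2' : a = d
    · subst h2'
      rw [Equiv.swap_comm c a]
      exact key a b c
    by_cases h3 : b = c
    · subst h3
      rw [Equiv.swap_comm a b]
      exact key b a d
    by_cases h4 : b = d
    · subst h4
      rw [Equiv.swap_comm a b, Equiv.swap_comm c b]
      exact key b a c
    left
    have h5 : Equiv.swap a b * Equiv.swap c d = Equiv.swap c d * Equiv.swap a b := by
      rw [Equiv.mul_swap_eq_swap_mul, Equiv.swap_apply_of_ne_of_ne (Ne.symm h1) (Ne.symm h3),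
        Equiv.swap_apply_of_ne_of_ne (Ne.symm h2') (Ne.symm h4)]
    rw [pow_two]
    calc Equiv.swap a b * Equiv.swap c d * (Equiv.swap a b * Equiv.swap c d)
        = Equiv.swap a b * Equiv.swap c d * (Equiv.swap c d * Equiv.swap a b) := by rw [h5]
      _ = 1 := by
        rw [mul_assoc, ← mul_assoc (Equiv.swap c d), Equiv.swap_mul_self, one_mul,
          Equiv.swap_mul_self]
  · ext σ
    simp only [conjugatesOf, isConj_iff]
    constructor
    · rintro ⟨x, y, hxy, rfl⟩
      exact isConj_iff.mp (Equiv.Perm.isConj_swap hne hxy)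
    · rintro ⟨g, rfl⟩
      refine ⟨g ⟨0, by omega⟩, g ⟨1, by omega⟩, ?_, ?_⟩
      · simp
      · rw [Equiv.swap_apply_apply] 

end Cfsg.Agent.S0439
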