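import Cfsg.Statements.S0440
import Mathlib
import Cfsg.Agent.Lib.SympGen

set_option autoImplicit false
open Cfsg

namespace Cfsg.Agent.S0440


open Matrix Cfsg.Agent.Lib.SympForm Cfsg.Agent.Lib.SympGen

abbrev F2 := ZMod 2

theorem f2_eq_one {a : F2} (h : a ≠ 0) : a = 1 := by
  revert a; decide

theorem f2_cases (a : F2) : a = 0 ∨ a = 1 := by
  revert a; decide

theorem f2_add_self (a : F2) : a + a = 0 := by
  revert a; decide

theorem f2_neg (a : F2) : -a = a := by
  revert a; decide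

variable {n : ℕ}

local notation "Sp" => Matrix.symplecticGroup (Fin n) F2
local notation "Vec" => (Fin n ⊕ Fin n → F2)

/-- The matrix of `g` acts as `x + f(x,w) w`. -/
theorem eq_transvElt_of_mulVec (g : Sp) (w : Vec)
    (h : ∀ x : Vec, (g : Matrix (Fin n ⊕ Fin n) (Fin n ⊕ Fin n) F2) *ᵥ x = x + sympForm n F2 x w • w) :
    g = transvElt w 1 := by
  apply Subtype.ext
  ext a b
  have h1 := h (Pi.single b 1)
  have h2 := mulVec_sympTransvection (F := F2) w 1 (Pi.single b 1)
  rw [one_mul] at h2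
  rw [← h2] at h1
  have h3 := congrFun h1 a
  rw [mulVec_single_one, mulVec_single_one] at h3
  exact h3

/-- Elements with `g - 1` of rank one are transvections. -/
theorem exists_transvection_of_rank_one (g : Sp)
    (hg : ((g : Matrix (Fin n ⊕ Fin n) (Fin n ⊕ Fin n) F2) - 1).rank = 1) :
    ∃ w : Vec, w ≠ 0 ∧ g = transvElt w 1 := by
  set M : Matrix (Fin n ⊕ Fin n) (Fin n ⊕ Fin n) F2 := (g : Matrix (Fin n ⊕ Fin n) (Fin n ⊕ Fin n) F2) - 1 with hM
  have hr : Module.finrank F2 (LinearMap.range M.mulVecLin) = 1 := hg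
  obtain ⟨a, ha0, ha⟩ := finrank_eq_one_iff'.mp hr
  have hrange : ∀ x : Vec, ∃ c : F2, M *ᵥ x = c • (a : Vec) := by
    intro x
    obtain ⟨c, hc⟩ := ha ⟨M *ᵥ x, LinearMap.mem_range_self M.mulVecLin x⟩
    exact ⟨c, (congrArg Subtype.val hc).symm⟩
  choose c hc using hrange
  have hgx : ∀ x : Vec, (g : Matrix (Fin n ⊕ Fin n) (Fin n ⊕ Fin n) F2) *ᵥ x = x + c x • (a : Vec) := by
    intro x
    rw [← hc x, hM, sub_mulVec, one_mulVec]
    abel
  have ha0' : (a : Vec) ≠ 0 := fun h => ha0 (Subtype.ext h)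
  -- `M ≠ 0`
  obtain ⟨y₀, hy₀⟩ : ∃ y, c y = 1 := by
    by_contra hall
    push Not at hall
    have hall0 : ∀ y, c y = 0 := fun y => by
      by_contra h
      exact hall y (f2_eq_one h)
    have : (a : Vec) = 0 := by
      have hmem := a.2
      obtain ⟨x, hx⟩ := LinearMap.mem_range.mp hmem
      have h1 : M *ᵥ x = (a : Vec) := hx
      rw [hc x, hall0 x, zero_smul] at h1
      exact h1.symm
    exact ha0' this
  have hpres : ∀ x y : Vec, c y * sympForm n F2 x a + c x * sympForm n F2 a y = 0 := by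
    intro x y
    have h1 := sp_preserves g x y
    rw [hgx, hgx] at h1
    simp only [sympForm_add_left, sympForm_add_right, sympForm_smul_left, sympForm_smul_right,
      sympForm_self, mul_zero, add_zero] at h1
    linear_combination h1
  -- `f(a, y₀) = 1`
  have hfa : sympForm n F2 a y₀ ≠ 0 := by
    intro h0
    obtain ⟨w, hw⟩ := exists_sympForm_ne_zero ha0'
    have h1 := hpres w y₀
    rw [hy₀, h0, one_mul, mul_zero, add_zero] at h1
    apply hw
    rw [sympForm_antisymm, h1]
    simp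
  have hfa1 := f2_eq_one hfa
  have hcx : ∀ x : Vec, c x = sympForm n F2 x a := by
    intro x
    have h1 := hpres x y₀
    rw [hy₀, hfa1, one_mul, mul_one] at h1
    have h2 : sympForm n F2 x a = - c x := eq_neg_of_add_eq_zero_left h1
    rw [h2, f2_neg]
  refine ⟨a, ha0', eq_transvElt_of_mulVec g a ?_⟩
  intro x
  rw [hgx, hcx]

theorem transvElt_val (w : Vec) :
    ((transvElt w 1 : Sp) : Matrix (Fin n ⊕ Fin n) (Fin n ⊕ Fin n) F2) = sympTransvection n w 1 := rfl

theorem transvElt_mulVec (w x : Vec) :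
    ((transvElt w 1 : Sp) : Matrix (Fin n ⊕ Fin n) (Fin n ⊕ Fin n) F2) *ᵥ x = x + sympForm n F2 x w • w := by
  rw [transvElt_val, mulVec_sympTransvection, one_mul]

theorem sp_ext {g h : Sp}
    (H : ∀ x : Vec, (g : Matrix (Fin n ⊕ Fin n) (Fin n ⊕ Fin n) F2) *ᵥ x =
      (h : Matrix (Fin n ⊕ Fin n) (Fin n ⊕ Fin n) F2) *ᵥ x) : g = h := by
  apply Subtype.ext
  ext a b
  have h3 := congrFun (H (Pi.single b 1)) a
  rwa [mulVec_single_one, mulVec_single_one] at h3


theorem exists_form_ne (w : Vec) (hw : w ≠ 0) : ∃ x : Vec, sympForm n F2 x w ≠ 0 := by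
  obtain ⟨x, hx⟩ := exists_sympForm_ne_zero hw
  refine ⟨x, ?_⟩
  rw [sympForm_antisymm]
  exact neg_ne_zero.2 hx

theorem transvElt_ne_one (w : Vec) (hw : w ≠ 0) : (transvElt w 1 : Sp) ≠ 1 := by
  intro h
  obtain ⟨x, hx⟩ := exists_form_ne w hw
  have h1 := transvElt_mulVec w x
  rw [h] at h1
  have h2 : x = x + sympForm n F2 x w • w := by
    rw [← h1]; simp
  have h3 : sympForm n F2 x w • w = 0 := by
    have := add_eq_left.mp h2.symm
    exact this
  rcases smul_eq_zero.mp h3 with h4 | h4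
  · exact hx h4
  · exact hw h4

/-- Rank one for a transvection. -/
theorem rank_transvElt (w : Vec) (hw : w ≠ 0) :
    (((transvElt w 1 : Sp) : Matrix (Fin n ⊕ Fin n) (Fin n ⊕ Fin n) F2) - 1).rank = 1 := by
  have h1 : ((transvElt w 1 : Sp) : Matrix (Fin n ⊕ Fin n) (Fin n ⊕ Fin n) F2) - 1 =
      Matrix.vecMulVec w (J (Fin n) F2 *ᵥ w) := by
    rw [transvElt_val, sympTransvection]
    simp
  rw [h1]
  apply le_antisymm (Matrix.rank_vecMulVec_le _ _)
  rw [Nat.one_le_iff_ne_zero]
  intro h0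
  have h2 : LinearMap.range (Matrix.vecMulVec w (J (Fin n) F2 *ᵥ w)).mulVecLin = ⊥ :=
    Submodule.finrank_eq_zero.mp h0
  obtain ⟨x, hx⟩ := exists_form_ne w hw
  have h3 : (Matrix.vecMulVec w (J (Fin n) F2 *ᵥ w)) *ᵥ x = sympForm n F2 x w • w := by
    have h4 := transvElt_mulVec w x
    rw [← sub_eq_iff_eq_add'] at h4
    rw [← h4, ← h1, sub_mulVec, one_mulVec]
  have h5 : (Matrix.vecMulVec w (J (Fin n) F2 *ᵥ w)) *ᵥ x ∈
      LinearMap.range (Matrix.vecMulVec w (J (Fin n) F2 *ᵥ w)).mulVecLin :=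
    LinearMap.mem_range_self _ x
  rw [h2, Submodule.mem_bot, h3] at h5
  rcases smul_eq_zero.mp h5 with h4 | h4
  · exact hx h4
  · exact hw h4

theorem transvElt_sq (w : Vec) : (transvElt w 1 : Sp) * transvElt w 1 = 1 := by
  apply sp_ext
  intro x
  rw [mulVec_val_mul, transvElt_mulVec, transvElt_mulVec]
  simp only [sympForm_add_left, sympForm_smul_left, sympForm_self, mul_zero, add_zero]
  have h1 : (((1 : Sp) : Matrix (Fin n ⊕ Fin n) (Fin n ⊕ Fin n) F2)) = 1 := rfl
  rw [h1, one_mulVec, add_assoc, ← add_smul, f2_add_self, zero_smul, add_zero]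

theorem mulVec_inv_left (A : Sp) (x : Vec) :
    (A : Matrix (Fin n ⊕ Fin n) (Fin n ⊕ Fin n) F2) *ᵥ ((A⁻¹ : Sp) : Matrix (Fin n ⊕ Fin n) (Fin n ⊕ Fin n) F2) *ᵥ x = x := by
  rw [← mulVec_val_mul]
  simp

/-- Conjugation formula. -/
theorem conj_transvElt (A : Sp) (w : Vec) :
    A * transvElt w 1 * A⁻¹ = transvElt ((A : Matrix (Fin n ⊕ Fin n) (Fin n ⊕ Fin n) F2) *ᵥ w) 1 := by
  apply sp_ext
  intro x
  rw [mulVec_val_mul, mulVec_val_mul, transvElt_mulVec, transvElt_mulVec, mulVec_add, mulVec_smul,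
    mulVec_inv_left]
  congr 2
  have := sp_preserves A (((A⁻¹ : Sp) : Matrix (Fin n ⊕ Fin n) (Fin n ⊕ Fin n) F2) *ᵥ x) w
  rw [mulVec_inv_left] at this
  exact this.symm

theorem orderOf_transvElt (w : Vec) (hw : w ≠ 0) : orderOf (transvElt w 1 : Sp) = 2 := by
  apply orderOf_eq_prime
  · rw [pow_two, transvElt_sq]
  · exact transvElt_ne_one w hw

theorem three_transp (u v : Vec) :
    ((transvElt u 1 : Sp) * transvElt v 1) ^ 2 = 1 ∨ ((transvElt u 1 : Sp) * transvElt v 1) ^ 3 = 1 := by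
  by_cases h : sympForm n F2 v u = 0
  · left
    have h' : sympForm n F2 u v = 0 := by rw [sympForm_antisymm, h]; simp
    have hc : Commute (transvElt u 1 : Sp) (transvElt v 1) := by
      show (transvElt u 1 : Sp) * transvElt v 1 = transvElt v 1 * transvElt u 1
      apply sp_ext
      intro x
      rw [mulVec_val_mul, mulVec_val_mul, transvElt_mulVec, transvElt_mulVec, transvElt_mulVec,
        transvElt_mulVec]
      simp only [sympForm_add_left, sympForm_smul_left, h, h', mul_zero, add_zero]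
      rw [add_right_comm]
    rw [hc.mul_pow, pow_two, pow_two, transvElt_sq, transvElt_sq, one_mul]
  · right
    have h1 := f2_eq_one h
    have h' : sympForm n F2 u v = 1 := by rw [sympForm_antisymm, h1, f2_neg]
    have hb1 : (transvElt u 1 : Sp) * transvElt v 1 * transvElt u 1 = transvElt (v + u) 1 := by
      have := conj_transvElt (transvElt u 1 : Sp) v
      rw [transvElt_mulVec, h1, one_smul] at this
      rwa [inv_eq_of_mul_eq_one_left (transvElt_sq u)] at this
    have hb2 : (transvElt v 1 : Sp) * transvElt u 1 * transvElt v 1 = transvElt (v + u) 1 := by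
      have := conj_transvElt (transvElt v 1 : Sp) u
      rw [transvElt_mulVec, h', one_smul, add_comm] at this
      rwa [inv_eq_of_mul_eq_one_left (transvElt_sq v)] at this
    calc ((transvElt u 1 : Sp) * transvElt v 1) ^ 3
        = ((transvElt u 1 : Sp) * transvElt v 1 * transvElt u 1) *
            ((transvElt v 1 : Sp) * transvElt u 1 * transvElt v 1) := by
          simp only [pow_succ, pow_zero, one_mul, mul_assoc]
      _ = 1 := by rw [hb1, hb2, transvElt_sq]

theorem mulVec_ne_zero (A : Sp) {w : Vec} (hw : w ≠ 0) :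
    (A : Matrix (Fin n ⊕ Fin n) (Fin n ⊕ Fin n) F2) *ᵥ w ≠ 0 := by
  intro h
  apply hw
  have h1 := mulVec_inv_left A⁻¹ w
  rw [inv_inv, h, mulVec_zero] at h1
  exact h1.symm

theorem main (n : ℕ) (hn : 1 ≤ n) :
    Cfsg.IsThreeTranspositionClass {g : Matrix.symplecticGroup (Fin n) (ZMod 2) |
      ((g : Matrix (Fin n ⊕ Fin n) (Fin n ⊕ Fin n) (ZMod 2)) - 1).rank = 1} := by
  set D : Set (Matrix.symplecticGroup (Fin n) (ZMod 2)) :=
    {g | ((g : Matrix (Fin n ⊕ Fin n) (Fin n ⊕ Fin n) (ZMod 2)) - 1).rank = 1} with hD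
  have hchar : ∀ g ∈ D, ∃ w : (Fin n ⊕ Fin n → ZMod 2), w ≠ 0 ∧ g = transvElt w 1 :=
    fun g hg => exists_transvection_of_rank_one g hg
  have hmem : ∀ w : (Fin n ⊕ Fin n → ZMod 2), w ≠ 0 → (transvElt w 1 : Matrix.symplecticGroup (Fin n) (ZMod 2)) ∈ D :=
    fun w hw => rank_transvElt w hw
  let i₀ : Fin n := ⟨0, hn⟩
  let w₀ : (Fin n ⊕ Fin n → ZMod 2) := Pi.single (Sum.inl i₀) 1
  have hw₀ : w₀ ≠ 0 := by
    intro h
    have := congrFun h (Sum.inl i₀)
    simp [w₀] at this
  refine ⟨⟨?_, ?_⟩, ⟨transvElt w₀ 1, hmem w₀ hw₀, ?_⟩, ?_⟩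
  · intro g hg
    obtain ⟨w, hw, rfl⟩ := hchar g hg
    exact orderOf_transvElt w hw
  · intro g hg g' hg'
    obtain ⟨w, _, rfl⟩ := hchar g hg
    obtain ⟨w', _, rfl⟩ := hchar g' hg'
    exact three_transp w w'
  · ext g
    constructor
    · intro hg
      obtain ⟨w, hw, rfl⟩ := hchar g hg
      obtain ⟨A, _, hA⟩ := exists_transv_vector hw₀ hw
      show IsConj _ _
      rw [isConj_iff]
      refine ⟨A, ?_⟩
      rw [conj_transvElt, hA]
    · intro hg
      have hg' : IsConj (transvElt w₀ 1) g := hg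
      rw [isConj_iff] at hg'
      obtain ⟨A, rfl⟩ := hg'
      rw [conj_transvElt]
      exact hmem _ (mulVec_ne_zero A hw₀)
  · rw [eq_top_iff, ← transvGroup_eq_top (m := n) (K := ZMod 2), Subgroup.closure_le]
    rintro A ⟨w, c, hA⟩
    have hc : c = 0 ∨ c = 1 := f2_cases c
    by_cases hw : w = 0
    · have : A = 1 := by
        apply Subtype.ext
        rw [hA, hw, sympTransvection]
        simp
      rw [this]
      exact one_mem _
    rcases hc with rfl | rfl
    · have : A = 1 := by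
        apply Subtype.ext
        rw [hA, sympTransvection]
        simp
      rw [this]
      exact one_mem _
    · have : A = transvElt w 1 := Subtype.ext hA
      rw [this]
      exact Subgroup.subset_closure (hmem w hw)


/-- In the symplectic group in dimension 2n ≥ 2 over the field with two elements, the elements g for which g - 1 has rank one (the symplectic transvections) form a conjugacy class of 3-transpositions generating the group. -/
theorem result (n : ℕ) (hn : 1 ≤ n) : Cfsg.IsThreeTranspositionClass {g : Matrix.symplecticGroup (Fin n) (ZMod 2) | ((g : Matrix (Fin n ⊕ Fin n) (Fin n ⊕ Fin n) (ZMod 2)) - 1).rank = 1} := by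
  exact main n hn

end Cfsg.Agent.S0440
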