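import Cfsg.Statements.S0442
import Mathlib

set_option autoImplicit false
open Cfsg

namespace Cfsg.Agent.S0442

/-- A standard trick for producing elements of an involution centraliser: for an involution a and an element g, let b be the conjugate g⁻¹ * a * g. If a * b has odd order 2m + 1 then g * (a * b) ^ m commutes with a; if a * b has even order 2m then (a * b) ^ m and (a * (g * a * g⁻¹)) ^ m commute with a. -/
theorem result {G : Type*} [Group G] (a g : G) (ha : orderOf a = 2) : (∀ m : ℕ, orderOf (a * (g⁻¹ * a * g)) = 2 * m + 1 → Commute (g * (a * (g⁻¹ * a * g)) ^ m) a) ∧ (∀ m : ℕ, orderOf (a * (g⁻¹ * a * g)) = 2 * m → Commute ((a * (g⁻¹ * a * g)) ^ m) a ∧ Commute ((a * (g * a * g⁻¹)) ^ m) a) := by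
  have ha2 : a * a = 1 := by
    have h := pow_orderOf_eq_one a
    rw [ha, pow_two] at h
    exact h
  have hainv : a⁻¹ = a := inv_eq_of_mul_eq_one_left ha2
  -- a inverts the product of a with any conjugate of a
  have key : ∀ h : G, ∀ n : ℕ, a * (a * (h⁻¹ * a * h)) ^ n * a = ((a * (h⁻¹ * a * h)) ^ n)⁻¹ := by
    intro h n
    have hb : (h⁻¹ * a * h) * (h⁻¹ * a * h) = 1 := by
      calc (h⁻¹ * a * h) * (h⁻¹ * a * h) = h⁻¹ * (a * a) * h := by group
        _ = 1 := by rw [ha2]; group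
    have hbinv : (h⁻¹ * a * h)⁻¹ = h⁻¹ * a * h := inv_eq_of_mul_eq_one_left hb
    have h1 : a * (a * (h⁻¹ * a * h)) * a = (a * (h⁻¹ * a * h))⁻¹ := by
      rw [mul_inv_rev, hainv, hbinv, ← mul_assoc, ha2, one_mul]
    have h2 : a * (a * (h⁻¹ * a * h)) ^ n * a = (a * (a * (h⁻¹ * a * h)) * a) ^ n := by
      have h3 : a * (a * (h⁻¹ * a * h)) * a = a * (a * (h⁻¹ * a * h)) * a⁻¹ := by rw [hainv]
      rw [h3, conj_pow, hainv]
    rw [h2, h1, inv_pow]
  -- a commutes with `w ^ n` if `w ^ (2 * n) = 1`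
  have key2 : ∀ h : G, ∀ n : ℕ, (a * (h⁻¹ * a * h)) ^ (2 * n) = 1 →
      Commute ((a * (h⁻¹ * a * h)) ^ n) a := by
    intro h n hn
    have h1 := key h n
    have h2 : ((a * (h⁻¹ * a * h)) ^ n)⁻¹ = (a * (h⁻¹ * a * h)) ^ n := by
      apply inv_eq_of_mul_eq_one_left
      rw [← pow_add, ← two_mul, hn]
    rw [h2] at h1
    show (a * (h⁻¹ * a * h)) ^ n * a = a * (a * (h⁻¹ * a * h)) ^ n
    calc (a * (h⁻¹ * a * h)) ^ n * a = (a * (a * (h⁻¹ * a * h)) ^ n * a) * a := by rw [h1]
      _ = a * (a * (h⁻¹ * a * h)) ^ n := by rw [mul_assoc _ a a, ha2, mul_one]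
  refine ⟨?_, ?_⟩
  · intro m hm
    set w := a * (g⁻¹ * a * g) with hw
    have hw1 : w ^ (2 * m + 1) = 1 := by rw [← hm]; exact pow_orderOf_eq_one w
    have h1 := key g m
    rw [← hw] at h1
    have hb : g⁻¹ * a * g = a * w := by
      rw [hw, ← mul_assoc, ha2, one_mul]
    -- `g⁻¹ * a * g * w ^ m = a * w * w ^ m = w ^ m * a` after using `w ^ (2m+1) = 1`
    have h2 : w ^ m * a = a * (w ^ m)⁻¹ := by
      have := congrArg (fun y => a * y) h1
      simp only [← mul_assoc, ha2, one_mul] at this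
      exact this
    have h3 : (w ^ m)⁻¹ = w * w ^ m := by
      apply inv_eq_of_mul_eq_one_left
      rw [← pow_succ', ← pow_add, ← hw1]
      congr 1
      ring
    have h4 : a * g * w ^ m = g * w ^ m * a := by
      have h5 : a * g = g * (a * w) := by
        rw [← hb]; group
      calc a * g * w ^ m = g * (a * w) * w ^ m := by rw [h5]
        _ = g * (a * (w * w ^ m)) := by simp only [mul_assoc]
        _ = g * (a * (w ^ m)⁻¹) := by rw [h3]
        _ = g * (w ^ m * a) := by rw [h2]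
        _ = g * w ^ m * a := by rw [mul_assoc]
    show g * w ^ m * a = a * (g * w ^ m)
    rw [← mul_assoc]
    exact h4.symm
  · intro m hm
    refine ⟨key2 g m (by rw [← hm]; exact pow_orderOf_eq_one _), ?_⟩
    have h0 := key2 g⁻¹
    simp only [inv_inv] at h0
    apply h0
    set w := a * (g⁻¹ * a * g) with hw
    have hw1 : w ^ (2 * m) = 1 := by rw [← hm]; exact pow_orderOf_eq_one w
    have h6 : a * (g * a * g⁻¹) = g * w⁻¹ * g⁻¹ := by
      rw [hw, mul_inv_rev, hainv]
      have : (g⁻¹ * a * g)⁻¹ = g⁻¹ * a * g := by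
        apply inv_eq_of_mul_eq_one_left
        calc (g⁻¹ * a * g) * (g⁻¹ * a * g) = g⁻¹ * (a * a) * g := by group
          _ = 1 := by rw [ha2]; group
      rw [this]
      group
    rw [h6, conj_pow, inv_pow, hw1]
    simp

end Cfsg.Agent.S0442
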