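import Cfsg.Statements.S0444
import Mathlib
import Cfsg.Agent.Lib.ThreeTransS3

set_option autoImplicit false
open Cfsg

namespace Cfsg.Agent.S0444

/-- Two members of a set of 3-transpositions which do not commute generate a subgroup isomorphic to the symmetric group on three letters. -/
theorem result {G : Type*} [Group G] {E : Set G} (hE : Cfsg.IsThreeTranspositionSet E) {d e : G} (hd : d ∈ E) (he : e ∈ E) (h : ¬ Commute d e) : Nonempty (Subgroup.closure ({d, e} : Set G) ≃* Equiv.Perm (Fin 3)) := by
  rcases Cfsg.Agent.Lib.ThreeTrans.commute_or_braid hE hd he with h1 | h1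
  · exact absurd h1 h
  · refine Cfsg.Agent.Lib.ThreeTransS3.nonempty_closure_equiv
      (Cfsg.Agent.Lib.ThreeTrans.mul_self hE hd) (Cfsg.Agent.Lib.ThreeTrans.mul_self hE he) h1 ?_ ?_
    · rintro rfl
      exact h (Commute.one_left e)
    · rintro rfl
      exact h (Commute.refl d)

end Cfsg.Agent.S0444
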