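import Mathlib
import Cfsg.Statements.S0445

set_option autoImplicit false
open Cfsg

namespace Cfsg.Agent.S0445

open Matrix

abbrev R := ZMod 2

/-- The matrices commuting with the transvection `1 + E₀₁`. -/
def mkMat (x : R) (a : Fin 4 → R) (b : Fin 3 → R) (B : Matrix (Fin 3) (Fin 3) R) :
    Matrix (Fin 5) (Fin 5) R :=
  !![x, a 0, a 1, a 2, a 3;
     0, x, 0, 0, 0;
     0, b 0, B 0 0, B 0 1, B 0 2;
     0, b 1, B 1 0, B 1 1, B 1 2;
     0, b 2, B 2 0, B 2 1, B 2 2]

theorem det_mkMat (x : R) (a : Fin 4 → R) (b : Fin 3 → R) (B : Matrix (Fin 3) (Fin 3) R) :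
    (mkMat x a b B).det = x * x * B.det := by
  rw [mkMat, Matrix.det_succ_column_zero]
  simp [Fin.sum_univ_succ, Matrix.det_succ_row_zero, Matrix.submatrix, Fin.succAbove]
  ring

/-- Entries of the commutation relation with `1 + E₀₁`. -/
theorem comm_iff (M : Matrix (Fin 5) (Fin 5) R) :
    M * transvection 0 1 1 = transvection 0 1 1 * M ↔
      ∀ i j, (if j = 1 then M i 0 else 0) = (if i = 0 then M 1 j else 0) := by
  have h1 : ∀ i j, (M * transvection (0 : Fin 5) 1 (1 : R)) i j = M i j + (if j = 1 then M i 0 else 0) := by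
    intro i j
    rw [transvection, Matrix.mul_add, Matrix.mul_one, Matrix.add_apply]
    congr 1
    by_cases hj : j = 1
    · subst hj
      simp [Matrix.mul_single_apply_same]
    · simp [hj, Matrix.mul_single_apply_of_ne, Ne.symm hj]
  have h2 : ∀ i j, (transvection (0 : Fin 5) 1 (1 : R) * M) i j = M i j + (if i = 0 then M 1 j else 0) := by
    intro i j
    rw [transvection, Matrix.add_mul, Matrix.one_mul, Matrix.add_apply]
    congr 1
    by_cases hi : i = 0
    · subst hi
      simp [Matrix.single_mul_apply_same]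
    · simp [hi, Matrix.single_mul_apply_of_ne, Ne.symm hi]
  constructor
  · intro h i j
    have := congrFun (congrFun h i) j
    rw [h1, h2] at this
    exact add_left_cancel this
  · intro h
    ext i j
    rw [h1, h2, h]

theorem eq_mkMat (M : Matrix (Fin 5) (Fin 5) R)
    (h : M * transvection 0 1 1 = transvection 0 1 1 * M) :
    M = mkMat (M 0 0) (fun i => M 0 i.succ) (fun i => M (i.succ.succ) 1)
      (M.submatrix (fun i => i.succ.succ) (fun i => i.succ.succ)) := by
  rw [comm_iff] at h
  have h10 : M 1 0 = 0 := by simpa using h 1 1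
  have h20 : M 2 0 = 0 := by simpa using h 2 1
  have h30 : M 3 0 = 0 := by simpa using h 3 1
  have h40 : M 4 0 = 0 := by simpa using h 4 1
  have h00 : M 0 0 = M 1 1 := by simpa using h 0 1
  have h12 : M 1 2 = 0 := by simpa using (h 0 2).symm
  have h13 : M 1 3 = 0 := by simpa using (h 0 3).symm
  have h14 : M 1 4 = 0 := by simpa using (h 0 4).symm
  ext i j
  fin_cases i <;> fin_cases j <;>
    first | rfl | exact h10 | exact h20 | exact h30 | exact h40 | exact h00.symm | exact h12 | exact h13 | exact h14

theorem mkMat_comm (a : Fin 4 → R) (b : Fin 3 → R) (B : Matrix (Fin 3) (Fin 3) R) :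
    mkMat 1 a b B * transvection 0 1 1 = transvection 0 1 1 * mkMat 1 a b B := by
  rw [comm_iff]
  intro i j
  fin_cases i <;> fin_cases j <;> simp [mkMat]

theorem one_of_mul_det (x d : R) (h : x * x * d = 1) : x = 1 ∧ d = 1 := by
  revert x d; decide

theorem det_aux (d : R) (h : d ≠ 0) : 1 * 1 * d = 1 := by
  revert d; decide

noncomputable def theEquiv (s : SpecialLinearGroup (Fin 5) R)
    (hs : (s : Matrix (Fin 5) (Fin 5) R) = transvection 0 1 1) :
    Subgroup.centralizer ({s} : Set (SpecialLinearGroup (Fin 5) R)) ≃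
      (Fin 4 → R) × (Fin 3 → R) × GL (Fin 3) R := by
  have key : ∀ g : Subgroup.centralizer ({s} : Set (SpecialLinearGroup (Fin 5) R)),
      (g.1 : Matrix (Fin 5) (Fin 5) R) * transvection 0 1 1 =
        transvection 0 1 1 * (g.1 : Matrix (Fin 5) (Fin 5) R) := by
    intro g
    have h1 := Subgroup.mem_centralizer_singleton_iff.mp g.2
    have h2 := congrArg (fun y : SpecialLinearGroup (Fin 5) R => (y : Matrix (Fin 5) (Fin 5) R)) h1
    simpa [hs] using h2
  have keydet : ∀ g : Subgroup.centralizer ({s} : Set (SpecialLinearGroup (Fin 5) R)),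
      (g.1 : Matrix (Fin 5) (Fin 5) R) 0 0 = 1 ∧
      ((g.1 : Matrix (Fin 5) (Fin 5) R).submatrix (fun i : Fin 3 => i.succ.succ)
        (fun i : Fin 3 => i.succ.succ)).det = 1 := by
    intro g
    have h1 := eq_mkMat _ (key g)
    have h2 : (g.1 : Matrix (Fin 5) (Fin 5) R).det = 1 := g.1.2
    rw [h1, det_mkMat] at h2
    exact one_of_mul_det _ _ h2
  exact
  { toFun := fun g =>
      (fun i => (g.1 : Matrix (Fin 5) (Fin 5) R) 0 i.succ,
       fun i => (g.1 : Matrix (Fin 5) (Fin 5) R) i.succ.succ 1,
       GeneralLinearGroup.mkOfDetNeZero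
        ((g.1 : Matrix (Fin 5) (Fin 5) R).submatrix (fun i : Fin 3 => i.succ.succ)
          (fun i : Fin 3 => i.succ.succ)) (by rw [(keydet g).2]; exact one_ne_zero))
    invFun := fun p =>
      ⟨⟨mkMat 1 p.1 p.2.1 (p.2.2 : Matrix (Fin 3) (Fin 3) R), by
        rw [det_mkMat]
        have h3 : (p.2.2 : Matrix (Fin 3) (Fin 3) R).det ≠ 0 := by
          exact (Matrix.isUnits_det_units p.2.2).ne_zero
        exact det_aux _ h3⟩, by
        refine Subgroup.mem_centralizer_singleton_iff.mpr ?_
        apply Subtype.ext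
        show mkMat 1 p.1 p.2.1 _ * _ = _ * mkMat 1 p.1 p.2.1 _
        rw [hs]
        exact mkMat_comm _ _ _⟩
    left_inv := by
      intro g
      apply Subtype.ext
      apply Subtype.ext
      show mkMat 1 _ _ _ = _
      have h1 := eq_mkMat _ (key g)
      have h2 := (keydet g).1
      rw [h2] at h1
      exact h1.symm
    right_inv := by
      intro p
      refine Prod.ext ?_ (Prod.ext ?_ ?_)
      · funext i
        fin_cases i <;> rfl
      · funext i
        fin_cases i <;> rfl
      · apply Units.ext
        ext i j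
        fin_cases i <;> fin_cases j <;> rfl }

/-- In the special linear group of dimension 5 over the field with two elements, the centraliser of a transvection has order 21504 = 2 ^ 7 · 168 (it is an extension of an extraspecial group of order 2 ^ 7 by the simple group of order 168). -/
theorem result (s : Matrix.SpecialLinearGroup (Fin 5) (ZMod 2)) (hs : (s : Matrix (Fin 5) (Fin 5) (ZMod 2)) = Matrix.transvection 0 1 1) : Nat.card (Subgroup.centralizer ({s} : Set (Matrix.SpecialLinearGroup (Fin 5) (ZMod 2)))) = 21504 := by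
  rw [Nat.card_congr (theEquiv s hs), Nat.card_prod, Nat.card_prod, Matrix.card_GL_field]
  simp [Nat.card_eq_fintype_card, ZMod.card, Fin.prod_univ_three]

end Cfsg.Agent.S0445
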