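import Cfsg.Statements.S0446
import Mathlib
import Cfsg.Agent.Lib.ThreeTrans

set_option autoImplicit false
open Cfsg

namespace Cfsg.Agent.S0446

/-- Every finite group of even order contains a 2-central involution, i.e. an element of order 2 in the centre of some Sylow 2-subgroup. -/
theorem result {G : Type*} [Group G] [Finite G] (h : Even (Nat.card G)) : ∃ t : G, Cfsg.IsTwoCentralInvolution t := by
  obtain ⟨P⟩ : Nonempty (Sylow 2 G) := inferInstance
  have hdvd : 2 ∣ Nat.card G := h.two_dvd
  have hnt : Nontrivial (P : Subgroup G) := by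
    have hne : Nat.card P ≠ 1 := by
      have hcard := P.card_eq_multiplicity
      rw [hcard]
      have : (Nat.card G).factorization 2 ≠ 0 := by
        have h2 : Nat.Prime 2 := Nat.prime_two
        exact Nat.one_le_iff_ne_zero.mp ((h2.dvd_iff_one_le_factorization Nat.card_pos.ne').mp hdvd)
      simpa [Nat.pow_eq_one] using this
    exact (Finite.one_lt_card_iff_nontrivial).mp (lt_of_le_of_ne Nat.card_pos (Ne.symm hne))
  obtain ⟨t, ht, h1, h2⟩ := Cfsg.Agent.Lib.ThreeTrans.exists_central_involution P hnt
  exact ⟨t, ht, P, h1, h2⟩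

end Cfsg.Agent.S0446
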