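-- Statement S0458 (row 458).
import Cfsg.Statements.S0458
import Cfsg.Agent.Lib.J3LChain
import Cfsg.Agent.Lib.CosetPerm

set_option autoImplicit false
open Cfsg

namespace Cfsg.Agent.S0458

open Cfsg.Agent.Lib.J3Chain Cfsg.Agent.Lib.J3Main Cfsg.Agent.Lib.J3LChain Cfsg.Agent.Lib.CosetPerm

theorem card_cosets : Nat.card (↥G3 ⧸ LG) = 6155 + 1 := by
  have h := Subgroup.card_mul_index LG
  rw [card_G3, card_LG, Subgroup.index_eq_card] at h
  omega

/-- Janko's third group exists as a transitive permutation group of degree 6156 with point stabiliser of order 8160: a simple group of order 50232960. -/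
theorem result : ∃ H : Subgroup (Equiv.Perm (Fin 6156)), Cfsg.IsJ3 H ∧ MulAction.IsPretransitive H (Fin 6156) ∧ Nat.card (MulAction.stabilizer H (0 : Fin 6156)) = 8160 := by
  obtain ⟨H, ⟨e⟩, ht⟩ : ∃ H : Subgroup (Equiv.Perm (Fin 6156)),
      Nonempty ((↥G3 ⧸ Subgroup.center ↥G3) ≃* H) ∧ MulAction.IsPretransitive H (Fin 6156) :=
    exists_rep LG 6155 card_cosets (by norm_num) center_le_LG
      (fun N hN => by have := hN; exact normal_dichotomy N)
  have hcard : Nat.card H = 50232960 := by
    rw [← Nat.card_congr e.toEquiv]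
    exact card_quot
  refine ⟨H, ⟨?_, hcard⟩, ht, ?_⟩
  · have : IsSimpleGroup (↥G3 ⧸ Subgroup.center ↥G3) := simple_quot
    exact e.symm.isSimpleGroup
  · have h := card_stabilizer H (0 : Fin 6156)
    rw [hcard, Nat.card_eq_fintype_card, Fintype.card_fin] at h
    omega

end Cfsg.Agent.S0458
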