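import Mathlib
import Cfsg.Statements.S0477
import Cfsg.Agent.Lib.LyDce.McLFinal

set_option autoImplicit false
set_option linter.all false
open Cfsg

namespace Cfsg.Agent.S0477

open Cfsg.Agent.Lib.LyDce

/-- In some simple group of the Lyons group's order there is an element of order 3 whose centraliser has centre of order 3 with quotient by the centre simple of order 898128000 (a triple cover of a group of McLaughlin's order). -/
theorem result : ∃ (G : Type) (_ : Group G) (_ : Finite G), Cfsg.IsLy G ∧ ∃ x : G, orderOf x = 3 ∧ Nat.card (Subgroup.center (Subgroup.centralizer ({x} : Set G))) = 3 ∧ Cfsg.IsMcL ((Subgroup.centralizer ({x} : Set G)) ⧸ Subgroup.center (Subgroup.centralizer ({x} : Set G))) := by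
  haveI : Finite G := finite_G
  exact ⟨G, inferInstance, finite_G, ⟨simple_G, card_G⟩, (xC : G), orderOf_eq_prime xC_cube' xC_ne', mcl_main⟩

end Cfsg.Agent.S0477
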