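-- Statement S0478 (row 478).
import Cfsg.Statements.S0478
import Cfsg.Agent.Lib.J3Transport

set_option autoImplicit false
set_option linter.style.haveILetI false
open Cfsg

namespace Cfsg.Agent.S0478

open Cfsg.Spor Subgroup Matrix
open Cfsg.Agent.Lib.F4Mat Cfsg.Agent.Lib.ChainCert Cfsg.Agent.Lib.J3Code Cfsg.Agent.Lib.J3Data
  Cfsg.Agent.Lib.J3Chain Cfsg.Agent.Lib.J3Main Cfsg.Agent.Lib.J3Transport

abbrev M9 : Type := Matrix (Fin 9) (Fin 9) K4

/-- Frobenius as a ring hom -/
def frob : K4 →+* K4 where
  toFun x := x ^ 2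
  map_one' := by decide
  map_zero' := by decide
  map_add' := by decide
  map_mul' := by decide

theorem frob_apply (x : K4) : frob x = x ^ 2 := rfl

/-- the unitary condition -/
def U (A : M9) : Prop := Aᵀ * A.map frob = 1

theorem U_one : U 1 := by
  unfold U
  ext i j
  simp [Matrix.one_apply, apply_ite]

theorem U_mul {A B : M9} (hA : U A) (hB : U B) : U (A * B) := by
  unfold U at *
  rw [Matrix.transpose_mul, Matrix.map_mul, mul_assoc, ← mul_assoc Aᵀ, hA, one_mul, hB]

/-- Preservation of the form. -/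
theorem herm_of_U {A : M9} (hA : U A) (u v : Fin 9 → K4) :
    hermForm 9 K4 2 (A *ᵥ u) (A *ᵥ v) = hermForm 9 K4 2 u v := by
  have h1 : ∀ a b : Fin 9 → K4, hermForm 9 K4 2 a b = a ⬝ᵥ (frob ∘ b) := by
    intro a b
    rfl
  rw [h1, h1]
  have h2 : (frob ∘ (A *ᵥ v)) = (A.map frob) *ᵥ (frob ∘ v) := by
    funext i
    exact RingHom.map_mulVec frob A v i
  have h3 : A *ᵥ u = u ᵥ* Aᵀ := (Matrix.vecMul_transpose A u).symm
  have hU : Aᵀ * A.map frob = 1 := hA
  rw [h2, Matrix.dotProduct_mulVec, h3, Matrix.vecMul_vecMul, hU, Matrix.vecMul_one]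

/-- reindexed matrix -/
def toFin (x : GK) : M9 := (x : Mat).submatrix e9.symm e9.symm

theorem toFin_one : toFin 1 = 1 := by
  unfold toFin
  exact Matrix.submatrix_one_equiv _

theorem toFin_mul (x y : GK) : toFin (x * y) = toFin x * toFin y := by
  unfold toFin
  rw [Units.val_mul, Matrix.submatrix_mul_equiv]

theorem toFin_R {x : GK} {n : ℕ} (h : R x n) : toFin x = dec K4.w n := by
  unfold toFin
  rw [show (x : Mat) = _ from h]
  ext i j
  simp

theorem U_a : U (dec K4.w aC) := by
  show (dec K4.w aC)ᵀ * (dec K4.w aC).map frob = 1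
  decide +kernel

theorem U_a2 : U (dec K4.w a2C) := by
  show (dec K4.w a2C)ᵀ * (dec K4.w a2C).map frob = 1
  decide +kernel

theorem det_one_of_pow {A : M9} (h : A ^ 19 = 1) : A.det = 1 := by
  have h1 : A.det ^ 19 = 1 := by
    rw [← Matrix.det_pow, h, Matrix.det_one]
  have h2 : ∀ c : K4, c ^ 19 = 1 → c = 1 := by decide
  exact h2 _ h1

theorem toFin_pow (x : GK) (n : ℕ) : toFin (x ^ n) = toFin x ^ n := by
  induction n with
  | zero => simpa using toFin_one
  | succ n ih => rw [pow_succ, pow_succ, toFin_mul, ih]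

theorem det_a : (toFin aE).det = 1 := by
  apply det_one_of_pow
  rw [← toFin_pow, aE_pow, toFin_one]

theorem a2E_pow : a2E ^ 19 = 1 := by
  have h : powC a2C 19 = oneC := by decide +kernel
  have h1 := R_pow a2E_R 19
  rw [h] at h1
  exact R_inj h1 R_one

theorem det_a2 : (toFin a2E).det = 1 := by
  apply det_one_of_pow
  rw [← toFin_pow, a2E_pow, toFin_one]

theorem all_G3 : ∀ x ∈ G3, U (toFin x) ∧ (toFin x).det = 1 := by
  rw [G3_eq_H]
  refine closure_induction_left_finite _ _ ?_ ?_
  · rw [toFin_one]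
    exact ⟨U_one, Matrix.det_one⟩
  · rintro s ⟨g, hg, rfl⟩ x ⟨h1, h2⟩
    have hg' : g < 2 := hg
    rw [toFin_mul, Matrix.det_mul, h2, mul_one]
    refine ⟨U_mul ?_ h1, ?_⟩
    · interval_cases g
      · simp only [sxT, if_true]
        rw [toFin_R aE_R]; exact U_a
      · simp only [sxT, one_ne_zero, if_false]
        rw [toFin_R a2E_R]; exact U_a2
    · interval_cases g
      · simpa [sxT] using det_a
      · simpa [sxT] using det_a2

/-- the representation into the unitary group -/
noncomputable def rho : ↥G3 →* ↥(SU 9 K4 2) where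
  toFun x := ⟨⟨toFin x, (all_G3 x x.2).2⟩, fun u v => herm_of_U (all_G3 x x.2).1 u v⟩
  map_one' := by
    apply Subtype.ext
    apply Subtype.ext
    exact toFin_one
  map_mul' x y := by
    apply Subtype.ext
    apply Subtype.ext
    exact toFin_mul _ _

theorem rho_inj : Function.Injective rho := by
  intro x y h
  have h1 : toFin (x : GK) = toFin (y : GK) := congrArg (fun z : ↥(SU 9 K4 2) => ((z : Matrix.SpecialLinearGroup (Fin 9) K4) : M9)) h
  apply Subtype.ext
  apply Units.ext
  ext i j
  have := congrFun (congrFun h1 (e9 i)) (e9 j)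
  simpa [toFin] using this

/-- The unitary copy of the cover. -/
noncomputable def rhoE : ↥G3 ≃* ↥rho.range := MonoidHom.ofInjective rho_inj

/-- A triple cover of Janko's third group inside a unitary group: for a field F with four elements, the special unitary group of dimension 9 (with respect to the form with q = 2) has a subgroup whose centre has order 3 and whose quotient by its centre is simple of order 50232960. -/
theorem result : ∃ (F : Type) (_ : Field F) (_ : Fintype F), Fintype.card F = 4 ∧ ∃ H : Subgroup (Cfsg.SU 9 F 2), Nat.card (Subgroup.center H) = 3 ∧ Cfsg.IsJ3 (H ⧸ Subgroup.center H) := by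
  refine ⟨K4, inferInstance, inferInstance, K4.card_eq, rho.range, ?_, ?_, ?_⟩
  · rw [← Nat.card_congr (centerCongr rhoE).toEquiv]
    exact card_center
  · haveI := simple_quot
    exact (quotEquiv rhoE).symm.isSimpleGroup
  · rw [← Nat.card_congr (quotEquiv rhoE).toEquiv]
    exact card_quot

end Cfsg.Agent.S0478
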