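import Cfsg.Statements.S0481
import Mathlib
import Cfsg.Agent.Lib.ThreeTrans

set_option autoImplicit false
open Cfsg

namespace Cfsg.Agent.S0481

open scoped Pointwise

/-- Large extraspecial subgroups: let z be an involution of a finite group G whose centraliser C contains a normal 2-subgroup Q with centre of order 2 and all squares central, such that every element of G centralising Q lies in Q. Then C contains a Sylow 2-subgroup of G, and any involution of G whose centraliser contains a Sylow 2-subgroup of G is conjugate to z. -/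
theorem result {G : Type*} [Group G] [Finite G] (z : G) (hz : orderOf z = 2) (Q : Subgroup G) (hQC : Q ≤ Subgroup.centralizer ({z} : Set G)) (hQn : ∀ g ∈ Subgroup.centralizer ({z} : Set G), ∀ q ∈ Q, g * q * g⁻¹ ∈ Q) (hQ2 : IsPGroup 2 Q) (hZ : Nat.card (Subgroup.center Q) = 2) (hsq : ∀ x : Q, x ^ 2 ∈ Subgroup.center Q) (hlarge : Subgroup.centralizer (Q : Set G) ≤ Q) : (∃ P : Sylow 2 G, (P : Subgroup G) ≤ Subgroup.centralizer ({z} : Set G)) ∧ ∀ u : G, orderOf u = 2 → (∃ P : Sylow 2 G, (P : Subgroup G) ≤ Subgroup.centralizer ({u} : Set G)) → IsConj z u := by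
  obtain ⟨S, hS⟩ := hQ2.exists_le_sylow
  -- `z` lies in the centre of `Q`
  have hz1 : z ≠ 1 := by
    rintro rfl
    simp at hz
  have hzQ : z ∈ Q := hlarge (by
    rw [Subgroup.mem_centralizer_iff]
    intro q hq
    exact (Subgroup.mem_centralizer_singleton_iff.mp (hQC hq)))
  have hzZ : (⟨z, hzQ⟩ : Q) ∈ Subgroup.center Q := by
    rw [Subgroup.mem_center_iff]
    intro q
    have := Subgroup.mem_centralizer_singleton_iff.mp (hQC q.2)
    exact Subtype.ext this
  -- every non-identity element central in `S` equals `z`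
  have key : ∀ x ∈ (S : Subgroup G), (∀ y ∈ (S : Subgroup G), y * x = x * y) → x ≠ 1 → x = z := by
    intro x hx hc hx1
    have hxQ : x ∈ Q := hlarge (by
      rw [Subgroup.mem_centralizer_iff]
      intro q hq
      exact hc q (hS hq))
    have hxZ : (⟨x, hxQ⟩ : Q) ∈ Subgroup.center Q := by
      rw [Subgroup.mem_center_iff]
      intro q
      exact Subtype.ext (hc q.1 (hS q.2))
    -- the centre of `Q` has exactly two elements
    have hne1 : (⟨⟨x, hxQ⟩, hxZ⟩ : Subgroup.center Q) ≠ 1 := by
      intro h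
      exact hx1 (congrArg (fun w : Subgroup.center Q => ((w : Q) : G)) h)
    have hne2 : (⟨⟨z, hzQ⟩, hzZ⟩ : Subgroup.center Q) ≠ 1 := by
      intro h
      exact hz1 (congrArg (fun w : Subgroup.center Q => ((w : Q) : G)) h)
    by_contra hxz
    have hne3 : (⟨⟨x, hxQ⟩, hxZ⟩ : Subgroup.center Q) ≠ ⟨⟨z, hzQ⟩, hzZ⟩ := by
      intro h
      exact hxz (congrArg (fun w : Subgroup.center Q => ((w : Q) : G)) h)
    have hcard : 3 ≤ Nat.card (Subgroup.center Q) := by
      classical
      haveI : Fintype (Subgroup.center Q) := Fintype.ofFinite _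
      rw [Nat.card_eq_fintype_card]
      have hs : ({1, ⟨⟨x, hxQ⟩, hxZ⟩, ⟨⟨z, hzQ⟩, hzZ⟩} : Finset (Subgroup.center Q)).card = 3 := by
        rw [Finset.card_insert_of_notMem, Finset.card_insert_of_notMem, Finset.card_singleton]
        · simpa using hne3
        · simp only [Finset.mem_insert, Finset.mem_singleton, not_or]
          exact ⟨hne1.symm, hne2.symm⟩
      rw [← hs]
      exact Finset.card_le_univ _
    omega
  -- a non-identity central element of `S` exists
  have hSnt : Nontrivial (S : Subgroup G) :=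
    ⟨⟨z, hS hzQ⟩, 1, fun h => hz1 (congrArg Subtype.val h)⟩
  obtain ⟨t, ht, htS, htc⟩ := Cfsg.Agent.Lib.ThreeTrans.exists_central_involution S hSnt
  have htz : t = z := key t htS htc (by rintro rfl; simp at ht)
  subst htz
  refine ⟨⟨S, ?_⟩, ?_⟩
  · intro x hx
    exact Subgroup.mem_centralizer_singleton_iff.mpr (htc x hx)
  · rintro u hu ⟨P, hP⟩
    have huP := Cfsg.Agent.Lib.ThreeTrans.mem_sylow_of_le_centralizer hu P hP
    -- conjugate `P` onto `S`
    obtain ⟨g, hg⟩ := MulAction.exists_smul_eq G P S
    have hu1 : u ≠ 1 := by rintro rfl; simp at hu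
    have hcoe : ((g • P : Sylow 2 G) : Subgroup G) = MulAut.conj g • (P : Subgroup G) := rfl
    have hconj : g * u * g⁻¹ = t := by
      apply key
      · rw [← hg, hcoe]
        exact Subgroup.smul_mem_pointwise_smul u (MulAut.conj g) _ huP
      · intro y hy
        rw [← hg, hcoe, Subgroup.mem_smul_pointwise_iff_exists] at hy
        obtain ⟨k, hk, rfl⟩ := hy
        have h1 : k * u = u * k := Subgroup.mem_centralizer_singleton_iff.mp (hP hk)
        show (g * k * g⁻¹) * (g * u * g⁻¹) = (g * u * g⁻¹) * (g * k * g⁻¹)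
        calc (g * k * g⁻¹) * (g * u * g⁻¹) = g * (k * u) * g⁻¹ := by group
          _ = g * (u * k) * g⁻¹ := by rw [h1]
          _ = (g * u * g⁻¹) * (g * k * g⁻¹) := by group
      · intro h
        apply hu1
        have : u = g⁻¹ * (g * u * g⁻¹) * g := by group
        rw [this, h]; group
    exact (isConj_iff.mpr ⟨g, hconj⟩).symm

end Cfsg.Agent.S0481
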