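import Cfsg.Statements.S0501
import Cfsg.Agent.Lib.MacWMain

set_option autoImplicit false
open Cfsg

namespace Cfsg.Agent.S0501

/-- A finite 2-group in which every normal elementary abelian subgroup has order at most 4 has sectional rank at most
4: every quotient of every subgroup has no elementary abelian subgroup of order exceeding 16. -/
theorem result {P : Type*} [Group P] [Finite P] (hP : IsPGroup 2 P)
    (h : ∀ A : Subgroup P, A.Normal → IsMulCommutative A → (∀ a ∈ A, a ^ 2 = 1) → Nat.card A ≤ 4) :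
    Cfsg.SectionalPRankLE 2 4 P := by
  intro H N _ A hAc hAs
  let K : Subgroup H := A.comap (QuotientGroup.mk' N)
  have hKmem : ∀ b : H, b ∈ K ↔ (b : H ⧸ N) ∈ A := fun b => Iff.rfl
  have hNK : N ≤ K := by
    intro n hn
    rw [hKmem]
    have : (n : H ⧸ N) = 1 := (QuotientGroup.eq_one_iff n).mpr hn
    rw [this]
    exact one_mem _
  have hsec : Cfsg.Agent.Lib.MacWSec.Sec (K.map H.subtype) (N.map H.subtype) := by
    refine ⟨Subgroup.map_mono hNK, ?_, ?_⟩
    · rintro _ ⟨b, hb, rfl⟩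
      refine ⟨b * b, ?_, rfl⟩
      have h1 := hAs _ ((hKmem b).mp hb)
      rw [pow_two] at h1
      exact (QuotientGroup.eq_one_iff _).mp h1
    · rintro _ ⟨b, hb, rfl⟩ _ ⟨c, hc, rfl⟩
      refine ⟨b * c * b⁻¹ * c⁻¹, ?_, rfl⟩
      have h1 := hAc.is_comm.comm (⟨_, (hKmem b).mp hb⟩ : A) (⟨_, (hKmem c).mp hc⟩ : A)
      have h2 : (b : H ⧸ N) * (c : H ⧸ N) = (c : H ⧸ N) * (b : H ⧸ N) := congrArg Subtype.val h1
      refine (QuotientGroup.eq_one_iff _).mp ?_
      have h3 : ((b * c * b⁻¹ * c⁻¹ : H) : H ⧸ N) =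
          (b : H ⧸ N) * (c : H ⧸ N) * (b : H ⧸ N)⁻¹ * (c : H ⧸ N)⁻¹ := rfl
      rw [h3, h2]
      group
  have hb := Cfsg.Agent.Lib.MacWMain.main_bound hP h hsec
  have hc1 : Nat.card (K.map H.subtype) = Nat.card K :=
    Subgroup.card_map_of_injective (Subgroup.subtype_injective H)
  have hc2 : Nat.card (N.map H.subtype) = Nat.card N :=
    Subgroup.card_map_of_injective (Subgroup.subtype_injective H)
  rw [hc1, hc2] at hb
  let f : K →* A := ((QuotientGroup.mk' N).comp K.subtype).codRestrict A (fun x => x.2)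
  have hfs : Function.Surjective f := by
    rintro ⟨a, ha⟩
    obtain ⟨b, rfl⟩ := QuotientGroup.mk_surjective a
    exact ⟨⟨b, ha⟩, rfl⟩
  have hker : Nat.card f.ker = Nat.card N := by
    refine Nat.card_congr ⟨fun x => ⟨x.1.1, ?_⟩, fun n => ⟨⟨n.1, hNK n.2⟩, ?_⟩, ?_, ?_⟩
    · have h1 : f x.1 = 1 := x.2
      have h2 : ((x.1.1 : H) : H ⧸ N) = 1 := congrArg Subtype.val h1
      exact (QuotientGroup.eq_one_iff _).mp h2
    · show f _ = 1
      apply Subtype.ext
      exact (QuotientGroup.eq_one_iff _).mpr n.2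
    · intro x; rfl
    · intro x; rfl
  have hrange : Nat.card f.range = Nat.card A := by
    rw [MonoidHom.range_eq_top.mpr hfs]
    exact Subgroup.card_top
  have hcard := Subgroup.card_mul_index f.ker
  rw [Subgroup.index_ker, hker, hrange] at hcard
  rw [← hcard] at hb
  have hpos : 0 < Nat.card N := Nat.card_pos
  have : Nat.card A ≤ 16 := by
    have h3 : Nat.card N * Nat.card A ≤ Nat.card N * 16 := by
      calc Nat.card N * Nat.card A ≤ 16 * Nat.card N := hb
        _ = Nat.card N * 16 := Nat.mul_comm _ _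
    exact Nat.le_of_mul_le_mul_left h3 hpos
  simpa using this

end Cfsg.Agent.S0501
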