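import Mathlib
import Cfsg.Statements.S0502
import Cfsg.Agent.Lib.KleinTools

set_option autoImplicit false
open Cfsg
open Cfsg.Agent.Lib.KleinTools

namespace Cfsg.Agent.S0502

variable {P : Type*} [Group P]

/-- Conjugation by `a` on a normal subgroup. -/
def conjE (E : Subgroup P) [hN : E.Normal] (a : P) (e : E) : E :=
  ⟨a * e * a⁻¹, hN.conj_mem _ e.2 a⟩

theorem conjE_mul (E : Subgroup P) [hN : E.Normal] (a : P) (x y : E) :
    conjE E a (x * y) = conjE E a x * conjE E a y := by
  apply Subtype.ext
  simp only [conjE, Subgroup.coe_mul]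
  group

/-- The map `e ↦ e * a e a⁻¹` on a commutative normal subgroup. -/
def normMap (E : Subgroup P) [E.Normal] (hE : IsMulCommutative E) (a : P) : E →* E where
  toFun e := e * conjE E a e
  map_one' := by
    apply Subtype.ext; simp [conjE]
  map_mul' := by
    intro x y
    rw [conjE_mul]
    have := hE
    have h := mul_comm' (conjE E a x) y
    calc x * y * (conjE E a x * conjE E a y)
        = x * (y * conjE E a x) * conjE E a y := by simp only [mul_assoc]
      _ = x * (conjE E a x * y) * conjE E a y := by rw [← h]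
      _ = _ := by simp only [mul_assoc]

/-- A third element of `C_E(a)`. -/
theorem exists_third (E : Subgroup P) [E.Normal] (hE : IsMulCommutative E)
    (hE2 : ∀ e ∈ E, e ^ 2 = 1) (hE8 : 8 ≤ Nat.card E) (a z : P) (hz : z ∈ E) (ha : a ^ 2 = 1) [Finite P] :
    ∃ w ∈ E, w ≠ 1 ∧ w ≠ z ∧ a * w = w * a := by
  classical
  by_contra hcon
  push Not at hcon
  -- every element of `E` commuting with `a` is `1` or `z`
  have hC : ∀ w ∈ E, a * w = w * a → w = 1 ∨ w = z := by
    intro w hw hcomm
    by_contra hne
    push Not at hne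
    exact hcon w hw hne.1 hne.2 hcomm
  let zE : E := ⟨z, hz⟩
  have ha' : a * a = 1 := by rw [← pow_two]; exact ha
  have hainv : a⁻¹ = a := inv_eq_of_mul_eq_one_left ha'
  -- kernel and range of normMap are small
  have hker : Nat.card (normMap E hE a).ker ≤ 2 := by
    apply card_le_two_of_subset _ zE
    intro x hx
    have hx' : (x : P) * (a * x * a⁻¹) = 1 := by
      have := congrArg Subtype.val (MonoidHom.mem_ker.mp hx)
      simpa [normMap, conjE] using this
    have hxinv : (x : P) * x = 1 := by rw [← pow_two]; exact hE2 x x.2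
    have hcomm : a * (x : P) = x * a := by
      have h1 : a * (x : P) * a⁻¹ = x := by
        have h3 : (x : P)⁻¹ = x := inv_eq_of_mul_eq_one_left hxinv
        have h4 : a * (x : P) * a⁻¹ = (x : P)⁻¹ := eq_inv_of_mul_eq_one_right hx'
        rw [h4, h3]
      calc a * (x : P) = a * x * a⁻¹ * a := by group
        _ = x * a := by rw [h1]
    rcases hC x x.2 hcomm with h | h
    · left; exact Subtype.ext h
    · right; exact Subtype.ext h
  have hrange : Nat.card (normMap E hE a).range ≤ 2 := by
    apply card_le_two_of_subset _ zE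
    rintro x ⟨y, rfl⟩
    have hcomm : a * ((normMap E hE a y : E) : P) = (normMap E hE a y : E) * a := by
      have h1 : ((normMap E hE a y : E) : P) = y * (a * y * a⁻¹) := rfl
      have := hE
      have h2 : (y : P) * (a * y * a⁻¹) = (a * y * a⁻¹) * y := by
        have h := mul_comm' y (conjE E a y)
        simpa [conjE] using congrArg Subtype.val h
      rw [h1]
      rw [hainv] at h2 ⊢
      calc a * ((y : P) * (a * y * a)) = (a * y * a) * (a * a) * y * a := by
            rw [ha', mul_one]; simp only [mul_assoc]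
        _ = (a * y * a) * y * a := by rw [ha', mul_one]
        _ = ((y : P) * (a * y * a)) * a := by rw [h2]
    rcases hC _ (normMap E hE a y).2 hcomm with h | h
    · left; exact Subtype.ext h
    · right; exact Subtype.ext h
  have hcard := Subgroup.card_mul_index (normMap E hE a).ker
  rw [Subgroup.index_ker] at hcard
  have : Nat.card (normMap E hE a).ker * Nat.card (normMap E hE a).range ≤ 2 * 2 :=
    Nat.mul_le_mul hker hrange
  omega

/-- If a finite 2-group has a normal elementary abelian subgroup of order at least 8, then any two of its Klein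
four-subgroups are joined by a chain of Klein four-subgroups with consecutive members commuting elementwise. -/
theorem result {P : Type*} [Group P] [Finite P] (hP : IsPGroup 2 P)
    (E : Subgroup P) [E.Normal] (hE : IsMulCommutative E) (hE2 : ∀ e ∈ E, e ^ 2 = 1) (hE8 : 8 ≤ Nat.card E) :
    Cfsg.IsFourConnected P := by
  haveI : Fact (Nat.Prime 2) := ⟨Nat.prime_two⟩
  have hEbot : E ≠ ⊥ := by
    intro h
    rw [h] at hE8
    simp at hE8
  obtain ⟨z, hzE, hz1, hzc⟩ := exists_central_of_normal hP E hEbot
  have hzz : z ^ 2 = 1 := hE2 z hzE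
  -- Every Klein four-group is joined to one inside `E`.
  have key : ∀ U : Subgroup P, IsKleinFour U →
      ∃ V : Subgroup P, IsKleinFour V ∧ V ≤ E ∧ Relation.ReflTransGen (CommRel P) U V := by
    intro U hU
    obtain ⟨a, haU, b, hbU, ha1, hb1, hab, hUeq⟩ := exists_gens_klein hU
    -- choose an element `c ∈ U` with `c ≠ 1`, `c ≠ z`
    obtain ⟨c, hcU, hc1, hcz⟩ : ∃ c ∈ U, c ≠ 1 ∧ c ≠ z := by
      by_cases h : a = z
      · exact ⟨b, hbU, hb1, fun h' => hab (h.trans h'.symm)⟩
      · exact ⟨a, haU, ha1, h⟩
    have hcc : c ^ 2 = 1 := pow_two_of_mem_klein hU hcU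
    obtain ⟨w, hwE, hw1, hwz, hcw⟩ := exists_third E hE hE2 hE8 c z hzE hcc
    -- `U' = ⟨c, z⟩`
    have hcz' : c * z = z * c := (hzc c)
    let U' := kleinOf c z hcc hzz hcz'
    have hU' : IsKleinFour U' := isKleinFour_kleinOf hcc hzz hcz' hc1 hz1 hcz
    have hzw : z * w = w * z := (hzc w).symm
    have hww : w ^ 2 = 1 := hE2 w hwE
    let V := kleinOf z w hzz hww hzw
    have hV : IsKleinFour V := isKleinFour_kleinOf hzz hww hzw hz1 hw1 (Ne.symm hwz)
    have hVE : V ≤ E := by
      intro x hx
      rcases mem_kleinOf.mp hx with rfl | rfl | rfl | rfl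
      · exact E.one_mem
      · exact hzE
      · exact hwE
      · exact E.mul_mem hzE hwE
    refine ⟨V, hV, hVE, ?_⟩
    have h1 : CommRel P U U' := by
      refine ⟨hU, hU', ?_⟩
      intro x hx y hy
      rcases mem_kleinOf.mp hy with rfl | rfl | rfl | rfl
      · simp
      · exact comm_of_mem_klein hU hx hcU
      · exact (hzc x)
      · rw [← mul_assoc, comm_of_mem_klein hU hx hcU, mul_assoc, hzc x, mul_assoc]
    have h2 : CommRel P U' V := by
      refine ⟨hU', hV, ?_⟩
      intro x hx y hy
      have hc : ∀ y ∈ V, c * y = y * c := by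
        intro y hy
        rcases mem_kleinOf.mp hy with rfl | rfl | rfl | rfl
        · simp
        · exact hcz'
        · exact hcw
        · rw [← mul_assoc, hcz', mul_assoc, hcw, mul_assoc]
      have hz : ∀ y : P, z * y = y * z := fun y => (hzc y).symm
      rcases mem_kleinOf.mp hx with rfl | rfl | rfl | rfl
      · simp
      · exact hc y hy
      · exact hz y
      · rw [mul_assoc, hz y, ← mul_assoc, hc y hy, mul_assoc]
    exact (Relation.ReflTransGen.single h1).tail h2
  intro U V hU hV
  obtain ⟨U', hU', hU'E, hUU'⟩ := key U hU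
  obtain ⟨V', hV', hV'E, hVV'⟩ := key V hV
  have hUV : CommRel P U' V' := by
    refine ⟨hU', hV', ?_⟩
    intro x hx y hy
    have := hE
    have h := mul_comm' (⟨x, hU'E hx⟩ : E) ⟨y, hV'E hy⟩
    simpa using congrArg Subtype.val h
  exact (hUU'.tail hUV).trans (reachable_symm hVV')

end Cfsg.Agent.S0502
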