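import Mathlib
import Cfsg.Statements.S0505
import Cfsg.Agent.Lib.PCore

set_option autoImplicit false
open Cfsg
open Cfsg.Agent.Lib.PCore

namespace Cfsg.Agent.S0505

variable {G : Type*} [Group G]

/-- A `p`-element commuted into a coset by a `p'`-element is fixed. -/
theorem coprime_fix {p : ℕ} (x y c : G) (hx : (orderOf x).Coprime p)
    (hcp : ∃ k, c ^ p ^ k = 1)
    (hxc : x * c = c * x) (h : x * y * x⁻¹ = c * y) : x * y = y * x := by
  have hpow : ∀ k : ℕ, x ^ k * y * (x ^ k)⁻¹ = c ^ k * y := by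
    intro k
    induction k with
    | zero => simp
    | succ k ih =>
      have hcomm : x * c ^ k = c ^ k * x := ((Commute.pow_right hxc k)).eq
      calc x ^ (k + 1) * y * (x ^ (k + 1))⁻¹ = x * (x ^ k * y * (x ^ k)⁻¹) * x⁻¹ := by
            rw [pow_succ']; group
        _ = x * (c ^ k * y) * x⁻¹ := by rw [ih]
        _ = c ^ k * (x * y * x⁻¹) := by
            rw [← mul_assoc, hcomm]; group
        _ = c ^ (k + 1) * y := by rw [h, pow_succ]; group
  have h1 := hpow (orderOf x)
  rw [pow_orderOf_eq_one] at h1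
  simp only [one_mul, inv_one, mul_one] at h1
  have hc1 : c ^ orderOf x = 1 := by
    have : y * y⁻¹ = c ^ orderOf x * y * y⁻¹ := by rw [← h1]
    simpa using this.symm
  obtain ⟨k, hk⟩ := hcp
  have h2 : orderOf c ∣ orderOf x := orderOf_dvd_of_pow_eq_one hc1
  have h3 : orderOf c ∣ p ^ k := orderOf_dvd_of_pow_eq_one hk
  have h4 : orderOf c = 1 := by
    have : Nat.Coprime (orderOf x) (p ^ k) := Nat.Coprime.pow_right _ hx
    exact Nat.eq_one_of_dvd_coprimes this h2 h3
  have hc1' : c = 1 := orderOf_eq_one_iff.mp h4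
  rw [hc1', one_mul] at h
  calc x * y = x * y * x⁻¹ * x := by group
    _ = y * x := by rw [h]

/-- Normalizer growth in a finite `p`-group, relative form. -/
theorem exists_normalizer_step [Finite G] {p : ℕ} [Fact p.Prime] {W U : Subgroup G} (hW : IsPGroup p W)
    (hUW : U ≤ W) (hne : U ≠ W) : ∃ t ∈ W, t ∉ U ∧ t ∈ Subgroup.normalizer (U : Set G) := by
  have hlt : U.subgroupOf W < ⊤ := by
    refine lt_of_le_of_ne le_top ?_
    intro htop
    apply hne
    refine le_antisymm hUW ?_
    intro x hx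
    have : (⟨x, hx⟩ : W) ∈ U.subgroupOf W := by rw [htop]; trivial
    exact this
  have hnil : Group.IsNilpotent W := hW.isNilpotent
  have hlt2 := (Group.normalizerCondition_of_isNilpotent (G := W)) _ hlt
  obtain ⟨t, ht, htn⟩ := SetLike.exists_of_lt hlt2
  rw [← Subgroup.subgroupOf_normalizer_eq hUW] at ht
  exact ⟨t, t.2, htn, ht⟩

theorem mem_normalizer_of_comm {U : Subgroup G} {c : G} (hc : ∀ u ∈ U, c * u = u * c) :
    c ∈ Subgroup.normalizer (U : Set G) := by
  rw [Subgroup.mem_normalizer_iff]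
  intro u
  constructor
  · intro hu
    have hu' : u ∈ U := hu
    have : c * u * c⁻¹ = u := by rw [hc u hu']; group
    rw [this]; exact hu
  · intro hu
    have hu' : c * u * c⁻¹ ∈ U := hu
    have h6 := hc _ hu'
    have h7 : u = c * u * c⁻¹ := by
      have h8 : c * (c * u * c⁻¹) = (c * u * c⁻¹) * c := h6
      have h9 : c * (c * u * c⁻¹) = c * u := by simpa using h8
      exact (mul_left_cancel h9).symm
    rw [h7]; exact hu

/-- **Chain lemma.** A `p'`-element `x` normalizing a `p`-subgroup `W` and centralizing a subgroup `U` of `W` together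
with `N_W(U)` centralizes `W`. -/
theorem chain [Finite G] {p : ℕ} [Fact p.Prime] (W : Subgroup G) (hW : IsPGroup p W) (x : G)
    (hx : (orderOf x).Coprime p) (hxW : ∀ w ∈ W, x * w * x⁻¹ ∈ W) (U : Subgroup G) (hUW : U ≤ W)
    (hU : ∀ u ∈ U, x * u = u * x)
    (hN : ∀ w ∈ W, w ∈ Subgroup.normalizer (U : Set G) → x * w = w * x) :
    ∀ w ∈ W, x * w = w * x := by
  classical
  induction' hn : Nat.card W - Nat.card U using Nat.strong_induction_on with n ih generalizing U
  by_cases hUeq : U = W
  · subst hUeq; exact hU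
  -- the next term of the normalizer chain
  let U₁ : Subgroup G := W ⊓ Subgroup.normalizer (U : Set G)
  have hU₁W : U₁ ≤ W := inf_le_left
  have hUU₁ : U ≤ U₁ := le_inf hUW Subgroup.le_normalizer
  have hU₁c : ∀ u ∈ U₁, x * u = u * x := fun u hu => hN u hu.1 hu.2
  -- `U < U₁`
  obtain ⟨t, htW, htU, htN⟩ := exists_normalizer_step hW hUW hUeq
  have hcard : Nat.card U < Nat.card U₁ := by
    by_contra hlt
    have h := Subgroup.eq_of_le_of_card_ge hUU₁ (not_lt.mp hlt)
    apply htU
    rw [h]
    exact ⟨htW, htN⟩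
  have hle : Nat.card U₁ ≤ Nat.card W := Subgroup.card_le_of_le hU₁W
  refine ih (Nat.card W - Nat.card U₁) (by omega) U₁ hU₁W hU₁c ?_ rfl
  -- `x` centralizes `N_W(U₁)`
  intro y hyW hyN
  -- the element `c = x y x⁻¹ y⁻¹` lies in `U₁`
  have hxinv : ∀ u ∈ U₁, x * u * x⁻¹ = u := by
    intro u hu
    rw [hU₁c u hu]; group
  have hy' : x * y * x⁻¹ ∈ W := hxW y hyW
  have hc : x * y * x⁻¹ * y⁻¹ ∈ U₁ := by
    -- `y⁻¹ (x y x⁻¹)` centralizes `U`
    have hcent : ∀ u ∈ U, (y⁻¹ * (x * y * x⁻¹)) * u = u * (y⁻¹ * (x * y * x⁻¹)) := by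
      intro u hu
      -- `y u y⁻¹ ∈ U₁`
      have h1 : y * u * y⁻¹ ∈ U₁ := (Subgroup.mem_normalizer_iff.mp hyN u).mp (hUU₁ hu)
      have h2 : x * (y * u * y⁻¹) * x⁻¹ = y * u * y⁻¹ := hxinv _ h1
      have h3 : x * u * x⁻¹ = u := hxinv _ (hUU₁ hu)
      have h4 : x⁻¹ * u * x = u := by
        calc x⁻¹ * u * x = x⁻¹ * (x * u * x⁻¹) * x := by rw [h3]
          _ = u := by group
      -- compute
      calc (y⁻¹ * (x * y * x⁻¹)) * u = y⁻¹ * x * y * (x⁻¹ * u * x) * x⁻¹ := by group
        _ = y⁻¹ * x * y * u * x⁻¹ := by rw [h4]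
        _ = y⁻¹ * (x * (y * u * y⁻¹) * x⁻¹) * (x * y * x⁻¹) := by group
        _ = y⁻¹ * (y * u * y⁻¹) * (x * y * x⁻¹) := by rw [h2]
        _ = u * (y⁻¹ * (x * y * x⁻¹)) := by group
    have hmem : y⁻¹ * (x * y * x⁻¹) ∈ U₁ := by
      exact ⟨W.mul_mem (W.inv_mem hyW) hy', mem_normalizer_of_comm hcent⟩
    have := (Subgroup.mem_normalizer_iff.mp hyN _).mp hmem
    have e : y * (y⁻¹ * (x * y * x⁻¹)) * y⁻¹ = x * y * x⁻¹ * y⁻¹ := by group
    rwa [e] at this
  have hcp : ∃ k, (x * y * x⁻¹ * y⁻¹) ^ p ^ k = 1 := by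
    obtain ⟨k, hk⟩ := hW ⟨_, hU₁W hc⟩
    exact ⟨k, by simpa using congrArg Subtype.val hk⟩
  refine coprime_fix x y (x * y * x⁻¹ * y⁻¹) hx hcp (hU₁c _ hc) ?_
  group

/-- Step A: odd-order subgroups centralizing `T` and normalized by `N_G(T)` are trivial. -/
theorem stepA [Finite G]
    (hs : ∀ t : G, orderOf t = 2 → Group.IsSolvable (Subgroup.centralizer ({t} : Set G)))
    (hc : ∀ t : G, orderOf t = 2 → Cfsg.oddCore (Subgroup.centralizer ({t} : Set G)) = ⊥)
    (T : Subgroup G) (hT : IsPGroup 2 T) (hTne : T ≠ ⊥) (X : Subgroup G)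
    (hXodd : (Nat.card X).Coprime 2) (hXT : ∀ x ∈ X, ∀ t ∈ T, x * t = t * x)
    (hXN : ∀ y ∈ Subgroup.normalizer (T : Set G), ∀ x ∈ X, y * x * y⁻¹ ∈ X) : X = ⊥ := by
  classical
  haveI : Fact (Nat.Prime 2) := ⟨Nat.prime_two⟩
  -- an involution in the centre of `T`
  have hTnt : Nontrivial T := (Subgroup.nontrivial_iff_ne_bot T).mpr hTne
  obtain ⟨z, hz1⟩ : ∃ z : Subgroup.center T, z ≠ 1 := by
    have := hT.center_nontrivial
    exact exists_ne 1
  have h2dvd : 2 ∣ Nat.card (Subgroup.center T) := by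
    have hcp : IsPGroup 2 (Subgroup.center T) := hT.to_subgroup _
    have := hT.center_nontrivial
    obtain ⟨n, hn0, hn⟩ := hcp.nontrivial_iff_card.mp inferInstance
    exact hn.symm ▸ dvd_pow_self _ (ne_of_gt hn0)
  obtain ⟨z', hz'⟩ := exists_prime_orderOf_dvd_card' 2 h2dvd
  have hzT : (z' : T).1 ∈ T := (z' : T).2
  have hzord : orderOf ((z' : T).1) = 2 := by
    rw [Subgroup.orderOf_coe, Subgroup.orderOf_coe]; exact hz'
  have hzc : ∀ t ∈ T, t * (z' : T).1 = (z' : T).1 * t := by
    intro t ht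
    have := (Subgroup.mem_center_iff.mp z'.2) ⟨t, ht⟩
    simpa using congrArg Subtype.val this
  set z : G := (z' : T).1 with hzdef
  let C : Subgroup G := Subgroup.centralizer ({z} : Set G)
  have hCs : Group.IsSolvable C := hs z hzord
  have hCc : pPrimeCore 2 C = ⊥ := hc z hzord
  have hTC : T ≤ C := by
    intro t ht
    rw [Subgroup.mem_centralizer_singleton_iff]
    exact hzc t ht
  have hXC : X ≤ C := by
    intro x hx
    rw [Subgroup.mem_centralizer_singleton_iff]
    exact hXT x hx z hzT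
  let R : Subgroup C := pCore 2 C
  let T' : Subgroup C := T.subgroupOf C
  have hT'2 : IsPGroup 2 T' := hT.of_equiv (Subgroup.subgroupOfEquivOfLe hTC).symm
  have hR2 : IsPGroup 2 R := isPGroup_pCore 2
  let W : Subgroup C := R ⊔ T'
  have hW2 : IsPGroup 2 W := IsPGroup.to_sup_of_normal_left hR2 hT'2
  rw [eq_bot_iff]
  intro x hx
  let x' : C := ⟨x, hXC hx⟩
  have hxodd : (orderOf x').Coprime 2 := by
    have h1 : orderOf x' = orderOf (⟨x, hx⟩ : X) := by
      rw [Subgroup.orderOf_mk, Subgroup.orderOf_mk]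
    rw [h1]
    exact Nat.Coprime.coprime_dvd_left (orderOf_dvd_natCard _) hXodd
  -- `x'` normalizes `W`
  have hxT : ∀ t ∈ T', x' * t = t * x' := by
    intro u hu
    apply Subtype.ext
    exact hXT x hx u hu
  have hxW : ∀ w ∈ W, x' * w * x'⁻¹ ∈ W := by
    have hle : W ≤ W.comap (MulAut.conj x').toMonoidHom := by
      refine sup_le ?_ ?_
      · intro r hr
        exact Subgroup.mem_sup_left ((inferInstance : R.Normal).conj_mem r hr x')
      · intro t ht
        have : (MulAut.conj x').toMonoidHom t = t := by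
          show x' * t * x'⁻¹ = t
          rw [hxT t ht]; group
        show (MulAut.conj x').toMonoidHom t ∈ W
        rw [this]
        exact Subgroup.mem_sup_right ht
    exact fun w hw => hle hw
  have hx'cent : ∀ w ∈ W, x' * w = w * x' := by
    refine chain W hW2 x' hxodd hxW T' le_sup_right ?_ ?_
    · exact hxT
    · intro w hw hwN
      have hwmul : (w : C) ∈ ((R ⊔ T' : Subgroup C) : Set C) := hw
      rw [Subgroup.normal_mul] at hwmul
      obtain ⟨r, hr, t, ht, rfl⟩ := Set.mem_mul.mp hwmul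
      have hrN : r ∈ Subgroup.normalizer ((T' : Subgroup C) : Set C) := by
        have h1 : t⁻¹ ∈ Subgroup.normalizer ((T' : Subgroup C) : Set C) :=
          Subgroup.le_normalizer (T'.inv_mem ht)
        have := Subgroup.mul_mem _ hwN h1
        simpa using this
      have hrN' : (r : G) ∈ Subgroup.normalizer ((T : Subgroup G) : Set G) := by
        rw [show T' = T.subgroupOf C from rfl, ← Subgroup.subgroupOf_normalizer_eq hTC] at hrN
        exact hrN
      -- the commutator `r x r⁻¹ x⁻¹` is trivial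
      have ha : (r : G) * x * (r : G)⁻¹ * x⁻¹ ∈ X := X.mul_mem (hXN r hrN' x hx) (X.inv_mem hx)
      have hb : r * (x' * r⁻¹ * x'⁻¹) ∈ R :=
        R.mul_mem hr ((inferInstance : R.Normal).conj_mem r⁻¹ (R.inv_mem hr) x')
      let a' : C := r * (x' * r⁻¹ * x'⁻¹)
      have ha' : orderOf a' = 1 := by
        obtain ⟨k, hk⟩ := hR2 ⟨a', hb⟩
        have hk' : a' ^ 2 ^ k = 1 := by simpa using congrArg Subtype.val hk
        have h1 : orderOf a' ∣ 2 ^ k := orderOf_dvd_of_pow_eq_one hk'
        have hval : (a' : G) = (r : G) * x * (r : G)⁻¹ * x⁻¹ := by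
          simp [a', x', mul_assoc]
        have hX : (a' : G) ∈ X := by rw [hval]; exact ha
        have h2 : orderOf a' = orderOf (⟨(a' : G), hX⟩ : X) := by
          exact (Subgroup.orderOf_mk (a' : G) hX |>.trans (Subgroup.orderOf_coe a')).symm
        have h3 : (orderOf a').Coprime 2 := by
          rw [h2]
          exact Nat.Coprime.coprime_dvd_left (orderOf_dvd_natCard _) hXodd
        exact Nat.eq_one_of_dvd_coprimes (Nat.Coprime.pow_right k h3) dvd_rfl h1
      have ha1 : a' = 1 := orderOf_eq_one_iff.mp ha'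
      have hcomm : x' * r = r * x' := by
        have h4 : r * (x' * r⁻¹ * x'⁻¹) = 1 := ha1
        have h5 : r * x' * r⁻¹ * x'⁻¹ = 1 := by simpa [mul_assoc] using h4
        have h6 : r * x' = x' * r := by
          calc r * x' = r * x' * r⁻¹ * x'⁻¹ * (x' * r) := by group
            _ = x' * r := by rw [h5, one_mul]
        exact h6.symm
      calc x' * (r * t) = (x' * r) * t := by group
        _ = r * (x' * t) := by rw [hcomm]; group
        _ = r * (t * x') := by rw [hxT t ht]
        _ = r * t * x' := by group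
  have hmem : x' ∈ R := by
    refine centralizer_pCore_le 2 hCc ?_
    rw [Subgroup.mem_centralizer_iff]
    intro r hr
    exact (hx'cent r (Subgroup.mem_sup_left hr)).symm
  -- `x'` is a `2`-element of odd order
  obtain ⟨k, hk⟩ := hR2 ⟨x', hmem⟩
  have hk' : x' ^ 2 ^ k = 1 := by simpa using congrArg Subtype.val hk
  have h1 : orderOf x' ∣ 2 ^ k := orderOf_dvd_of_pow_eq_one hk'
  have h2 : orderOf x' = 1 :=
    Nat.eq_one_of_dvd_coprimes (Nat.Coprime.pow_right k hxodd) dvd_rfl h1
  have h3 : x' = 1 := orderOf_eq_one_iff.mp h2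
  rw [Subgroup.mem_bot]
  simpa [x'] using congrArg Subtype.val h3

/-- Let G be a finite group of even order in which the centralizer of every involution is solvable and has trivial
core (no nontrivial normal subgroup of odd order). Then G is of characteristic 2 type. -/
theorem result {G : Type*} [Group G] [Finite G]
    (h2 : Even (Nat.card G))
    (hs : ∀ t : G, orderOf t = 2 → Group.IsSolvable (Subgroup.centralizer ({t} : Set G)))
    (hc : ∀ t : G, orderOf t = 2 → Cfsg.oddCore (Subgroup.centralizer ({t} : Set G)) = ⊥) :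
    Cfsg.IsCharacteristicTwoType G := by
  classical
  haveI : Fact (Nat.Prime 2) := ⟨Nat.prime_two⟩
  refine ⟨h2, ?_⟩
  intro T hT hTne
  unfold IsOfCharacteristicTwo
  -- notation
  let N : Subgroup G := Subgroup.normalizer (T : Set G)
  change Subgroup.centralizer (pCore 2 N : Set N) ≤ pCore 2 N
  let Q : Subgroup N := pCore 2 N
  let K : Subgroup N := Subgroup.centralizer (Q : Set N)
  -- `T` inside `N`
  let T' : Subgroup N := T.subgroupOf N
  have hT'N : T'.Normal := Subgroup.normal_subgroupOf_of_le_normalizer le_rfl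
  have hT'2 : IsPGroup 2 T' := hT.of_equiv (Subgroup.subgroupOfEquivOfLe Subgroup.le_normalizer).symm
  have hT'Q : T' ≤ Q := le_pCore hT'N hT'2
  have hKN : K.Normal := inferInstance
  -- an involution in `T`
  have hTnt : Nontrivial T := (Subgroup.nontrivial_iff_ne_bot T).mpr hTne
  have h2dvd : 2 ∣ Nat.card T := by
    obtain ⟨n, hn0, hn⟩ := hT.nontrivial_iff_card.mp inferInstance
    exact hn.symm ▸ dvd_pow_self _ (ne_of_gt hn0)
  obtain ⟨z', hz'⟩ := exists_prime_orderOf_dvd_card' 2 h2dvd
  have hzord : orderOf (z' : G) = 2 := by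
    rw [Subgroup.orderOf_coe]; exact hz'
  -- elements of `K` commute with elements of `T`
  have hKT : ∀ k ∈ K, ∀ t ∈ T, ((k : N) : G) * t = t * ((k : N) : G) := by
    intro k hk t ht
    have ht' : (⟨t, Subgroup.le_normalizer ht⟩ : N) ∈ T' := ht
    have := (Subgroup.mem_centralizer_iff.mp hk) _ (hT'Q ht')
    exact (congrArg Subtype.val this).symm
  -- `K` is solvable
  have hKs : Group.IsSolvable K := by
    have hCs := hs _ hzord
    let f : K →* Subgroup.centralizer ({(z' : G)} : Set G) :=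
      MonoidHom.codRestrict (N.subtype.comp K.subtype) _ (by
        intro k
        rw [Subgroup.mem_centralizer_singleton_iff]
        exact (hKT k k.2 z' z'.2))
    have hf : Function.Injective f := by
      intro a b hab
      have := congrArg Subtype.val hab
      exact Subtype.ext (Subtype.ext this)
    exact solvable_of_solvable_injective hf
  -- its odd core is trivial
  have hKc : pPrimeCore 2 K = ⊥ := by
    let O : Subgroup K := pPrimeCore 2 K
    let ON : Subgroup N := O.map K.subtype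
    have hONn : ON.Normal := inferInstance
    let X : Subgroup G := ON.map N.subtype
    have hXbot : X = ⊥ := by
      refine stepA hs hc T hT hTne X ?_ ?_ ?_
      · have e1 : Nat.card X = Nat.card ON :=
          Nat.card_congr (ON.equivMapOfInjective _ N.subtype_injective).toEquiv.symm
        have e2 : Nat.card ON = Nat.card O :=
          Nat.card_congr (O.equivMapOfInjective _ K.subtype_injective).toEquiv.symm
        rw [e1, e2]
        exact card_pPrimeCore_coprime 2
      · rintro _ ⟨_, ⟨k, _, rfl⟩, rfl⟩ t ht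
        exact hKT k k.2 t ht
      · rintro y hy _ ⟨n, hn, rfl⟩
        have := hONn.conj_mem n hn ⟨y, hy⟩
        exact ⟨_, this, rfl⟩
    have h1 : ON = ⊥ := (Subgroup.map_eq_bot_iff_of_injective _ N.subtype_injective).mp hXbot
    exact (Subgroup.map_eq_bot_iff_of_injective _ K.subtype_injective).mp h1
  -- `O_2(K)` lies in `Q`
  have hRQ : ((pCore 2 K).map K.subtype) ≤ Q := by
    apply le_pCore
    · infer_instance
    · have : IsPGroup 2 (pCore 2 K) := isPGroup_pCore 2
      exact this.map _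
  intro w hw
  have hmem : (⟨w, hw⟩ : K) ∈ Subgroup.centralizer ((pCore 2 K : Subgroup K) : Set K) := by
    rw [Subgroup.mem_centralizer_iff]
    intro r hr
    apply Subtype.ext
    have hr' : (r : N) ∈ Q := hRQ ⟨r, hr, rfl⟩
    exact (Subgroup.mem_centralizer_iff.mp hw) _ hr'
  have := centralizer_pCore_le 2 hKc hmem
  exact hRQ ⟨_, this, rfl⟩

end Cfsg.Agent.S0505
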