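import Mathlib
import Cfsg.Statements.S0520
import Cfsg.Agent.Lib.KleinTools

set_option autoImplicit false
open Cfsg
open Cfsg.Agent.Lib.KleinTools

namespace Cfsg.Agent.S0520

variable {G : Type*} [Group G]

theorem isKleinFour_of_mulEquiv {A B : Type*} [Group A] [Group B] (e : A ≃* B) (h : IsKleinFour A) :
    IsKleinFour B :=
  ⟨by rw [← Nat.card_congr e.toEquiv]; exact h.card_four,
   by rw [← Monoid.exponent_eq_of_mulEquiv e]; exact h.exponent_two⟩

/-- Conjugate of a subgroup. -/
abbrev cj (g : G) (A : Subgroup G) : Subgroup G := A.map (MulAut.conj g).toMonoidHom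

theorem mem_cj {g x : G} {A : Subgroup G} : x ∈ cj g A ↔ g⁻¹ * x * g ∈ A := by
  constructor
  · rintro ⟨y, hy, rfl⟩
    simpa [mul_assoc] using hy
  · intro h
    exact ⟨_, h, by simp [mul_assoc]⟩

theorem conj_mem_cj {g x : G} {A : Subgroup G} (hx : x ∈ A) : g * x * g⁻¹ ∈ cj g A :=
  ⟨x, hx, by simp⟩

theorem cj_mul (g h : G) (A : Subgroup G) : cj (g * h) A = cj g (cj h A) := by
  ext x
  simp only [mem_cj, mul_inv_rev]
  simp only [mul_assoc]

theorem cj_one (A : Subgroup G) : cj 1 A = A := by
  ext x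
  simp

theorem isKleinFour_cj (g : G) {A : Subgroup G} (h : IsKleinFour A) : IsKleinFour (cj g A) :=
  isKleinFour_of_mulEquiv (A.equivMapOfInjective _ (MulAut.conj g).injective) h

theorem commRel_cj (g : G) {A B : Subgroup G} (h : CommRel G A B) : CommRel G (cj g A) (cj g B) := by
  refine ⟨isKleinFour_cj g h.1, isKleinFour_cj g h.2.1, ?_⟩
  rintro _ ⟨a, ha, rfl⟩ _ ⟨b, hb, rfl⟩
  have := h.2.2 a ha b hb
  simp only [MulEquiv.toMonoidHom_eq_coe, MonoidHom.coe_coe, MulAut.conj_apply]
  calc g * a * g⁻¹ * (g * b * g⁻¹) = g * (a * b) * g⁻¹ := by group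
    _ = g * (b * a) * g⁻¹ := by rw [this]
    _ = _ := by group

/-- Reachability in the commuting graph. -/
abbrev Reach (G : Type*) [Group G] : Subgroup G → Subgroup G → Prop :=
  Relation.ReflTransGen (CommRel G)

theorem reach_cj (g : G) {A B : Subgroup G} (h : Reach G A B) : Reach G (cj g A) (cj g B) :=
  Relation.ReflTransGen.lift (cj g) (fun _ _ h => commRel_cj g h) _ _ h

/-- From the failure of the rank bound, a Klein four-subgroup. -/
theorem exists_klein_of_not_rank {X : Type*} [Group X] [Finite X] (h : ¬ PRankLE 2 1 X) :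
    ∃ U : Subgroup X, IsKleinFour U := by
  classical
  unfold PRankLE at h
  push Not at h
  obtain ⟨A, hA, hA2, hc⟩ := h
  by_contra hcon
  have : ∀ a ∈ A, ∀ b ∈ A, a ≠ 1 → b ≠ 1 → a = b := by
    intro a ha b hb ha1 hb1
    by_contra hab
    have hcomm : a * b = b * a := by
      have h := hA
      have h' := mul_comm' (⟨a, ha⟩ : A) ⟨b, hb⟩
      simpa using congrArg Subtype.val h'
    exact hcon ⟨_, isKleinFour_kleinOf (hA2 a ha) (hA2 b hb) hcomm ha1 hb1 hab⟩
  by_cases hex : ∃ a ∈ A, a ≠ 1
  · obtain ⟨a, ha, ha1⟩ := hex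
    have hle := card_le_two_of_subset A a (fun x hx => by
      by_cases hx1 : x = 1
      · exact Or.inl hx1
      · exact Or.inr (this x hx a ha hx1 ha1))
    simp at hc
    omega
  · push Not at hex
    have hle := card_le_two_of_subset A 1 (fun x hx => Or.inl (hex x hx))
    simp at hc
    omega

theorem not_rank_of_klein_le {Q U : Subgroup G} (hU : IsKleinFour U) (hUQ : U ≤ Q) :
    ¬ PRankLE 2 1 Q := by
  intro h
  have hKl : IsKleinFour (U.subgroupOf Q) :=
    isKleinFour_of_mulEquiv (Subgroup.subgroupOfEquivOfLe hUQ).symm hU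
  have h1 := h (U.subgroupOf Q) hKl.isMulCommutative (by
    intro a ha
    have := pow_two_of_mem_klein hKl ha
    exact this)
  rw [hKl.card_four] at h1
  omega

theorem exists_klein_le_of_not_rank [Finite G] {Q : Subgroup G} (h : ¬ PRankLE 2 1 Q) :
    ∃ U : Subgroup G, U ≤ Q ∧ IsKleinFour U := by
  obtain ⟨U, hU⟩ := exists_klein_of_not_rank h
  refine ⟨U.map Q.subtype, ?_, ?_⟩
  · rintro _ ⟨x, _, rfl⟩
    exact x.2
  · exact isKleinFour_of_mulEquiv (U.equivMapOfInjective _ Q.subtype_injective) hU

/-- Reachability in a subgroup lifts. -/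
theorem reach_of_le {S : Subgroup G} (hS : IsFourConnected S) {U V : Subgroup G}
    (hU : IsKleinFour U) (hV : IsKleinFour V) (hUS : U ≤ S) (hVS : V ≤ S) : Reach G U V := by
  have hU' : IsKleinFour (U.subgroupOf S) :=
    isKleinFour_of_mulEquiv (Subgroup.subgroupOfEquivOfLe hUS).symm hU
  have hV' : IsKleinFour (V.subgroupOf S) :=
    isKleinFour_of_mulEquiv (Subgroup.subgroupOfEquivOfLe hVS).symm hV
  have h := hS _ _ hU' hV'
  have h2 : Reach G ((U.subgroupOf S).map S.subtype) ((V.subgroupOf S).map S.subtype) := by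
    refine Relation.ReflTransGen.lift (fun A : Subgroup S => A.map S.subtype) ?_ _ _ h
    intro A B hAB
    refine ⟨isKleinFour_of_mulEquiv (A.equivMapOfInjective _ S.subtype_injective) hAB.1,
      isKleinFour_of_mulEquiv (B.equivMapOfInjective _ S.subtype_injective) hAB.2.1, ?_⟩
    rintro _ ⟨a, ha, rfl⟩ _ ⟨b, hb, rfl⟩
    have := hAB.2.2 a ha b hb
    simpa using congrArg Subtype.val this
  rwa [Subgroup.subgroupOf_map_subtype, Subgroup.subgroupOf_map_subtype, inf_eq_left.mpr hUS,
    inf_eq_left.mpr hVS] at h2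

/-- A `p`-subgroup of a finite group can be conjugated into any Sylow subgroup. -/
theorem exists_cj_le_sylow [Finite G] {p : ℕ} [Fact p.Prime] (S : Sylow p G) {R : Subgroup G}
    (hR : IsPGroup p R) : ∃ g : G, cj g R ≤ S := by
  obtain ⟨T, hT⟩ := hR.exists_le_sylow
  obtain ⟨g, hg⟩ := MulAction.exists_smul_eq G T S
  refine ⟨g, ?_⟩
  rintro _ ⟨x, hx, rfl⟩
  have : g * x * g⁻¹ ∈ (g • T) := by
    rw [Sylow.smul_def]
    exact Subgroup.mem_map_of_mem _ (hT hx)
  rw [hg] at this
  exact this

/-- A `p`-subgroup of a subgroup `H` containing a Sylow subgroup `S` can be conjugated in `H` into `S`. -/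
theorem exists_cj_le_sylow_of_le [Finite G] {p : ℕ} [Fact p.Prime] (S : Sylow p G) {H R : Subgroup G}
    (hSH : (S : Subgroup G) ≤ H) (hRH : R ≤ H) (hR : IsPGroup p R) : ∃ h ∈ H, cj h R ≤ S := by
  have hR' : IsPGroup p (R.subgroupOf H) :=
    hR.of_equiv (Subgroup.subgroupOfEquivOfLe hRH).symm
  obtain ⟨h, hh⟩ := exists_cj_le_sylow (S.subtype hSH) hR'
  refine ⟨h, h.2, ?_⟩
  rintro _ ⟨x, hx, rfl⟩
  have hxH : x ∈ H := hRH hx
  have h1 : (⟨x, hxH⟩ : H) ∈ R.subgroupOf H := hx
  have h2 : (h * ⟨x, hxH⟩ * h⁻¹ : H) ∈ cj h (R.subgroupOf H) := conj_mem_cj h1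
  have h3 := hh h2
  rw [Sylow.coe_subtype] at h3
  exact h3

/-- Normalizers of conjugates. -/
theorem normalizer_cj_le {H : Subgroup G} {R : Subgroup G} {h : G} (hh : h ∈ H)
    (hN : Subgroup.normalizer ((cj h R : Subgroup G) : Set G) ≤ H) :
    Subgroup.normalizer ((R : Subgroup G) : Set G) ≤ H := by
  intro x hx
  have h1 : h * x * h⁻¹ ∈ Subgroup.normalizer ((cj h R : Subgroup G) : Set G) := by
    rw [Subgroup.mem_normalizer_iff]
    intro y
    rw [mem_cj, mem_cj]
    rw [Subgroup.mem_normalizer_iff] at hx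
    have := hx (h⁻¹ * y * h)
    rw [this]
    have e : x * (h⁻¹ * y * h) * x⁻¹ = h⁻¹ * (h * x * h⁻¹ * y * (h * x * h⁻¹)⁻¹) * h := by group
    rw [e]
  have h2 := hN h1
  have : x = h⁻¹ * (h * x * h⁻¹) * h := by group
  rw [this]
  exact H.mul_mem (H.mul_mem (H.inv_mem hh) h2) hh

/-- Let G be a finite group of 2-rank at least 2 and S a Sylow 2-subgroup whose commuting graph of Klein four-subgroups is
connected. Then the commuting graph of Klein four-subgroups of G is disconnected if and only if the 2-generated core — the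
subgroup generated by the normalizers N_G(Q) of the subgroups Q of S that contain a Klein four-group — is a proper
subgroup of G. -/
theorem result {G : Type*} [Group G] [Finite G] (h2 : ¬ Cfsg.PRankLE 2 1 G)
    (S : Sylow 2 G) (hS : Cfsg.IsFourConnected (S : Subgroup G)) :
    ¬ Cfsg.IsFourConnected G ↔
      (⨆ Q : {Q : Subgroup G // Q ≤ (S : Subgroup G) ∧ ¬ Cfsg.PRankLE 2 1 Q},
          Subgroup.normalizer ((Q : Subgroup G) : Set G)) ≠ ⊤ := by
  classical
  haveI : Fact (Nat.Prime 2) := ⟨Nat.prime_two⟩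
  set H : Subgroup G := (⨆ Q : {Q : Subgroup G // Q ≤ (S : Subgroup G) ∧ ¬ Cfsg.PRankLE 2 1 Q},
          Subgroup.normalizer ((Q : Subgroup G) : Set G)) with hH
  have hsup : ∀ Q : Subgroup G, Q ≤ S → ¬ PRankLE 2 1 Q → Subgroup.normalizer ((Q : Subgroup G) : Set G) ≤ H := by
    intro Q hQ hQ2
    exact le_iSup_of_le (⟨Q, hQ, hQ2⟩ : {Q : Subgroup G // Q ≤ (S : Subgroup G) ∧ ¬ Cfsg.PRankLE 2 1 Q}) le_rfl
  -- A Klein four-group in `S`.
  obtain ⟨U₁, hU₁⟩ := exists_klein_of_not_rank h2
  have hU₁2 : IsPGroup 2 U₁ := by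
    intro x
    refine ⟨1, ?_⟩
    have := pow_two_of_mem_klein hU₁ x.2
    apply Subtype.ext
    simpa using this
  obtain ⟨U₀, hU₀, hU₀S⟩ : ∃ U₀ : Subgroup G, IsKleinFour U₀ ∧ U₀ ≤ S := by
    obtain ⟨g₀, hg₀⟩ := exists_cj_le_sylow S hU₁2
    exact ⟨cj g₀ U₁, isKleinFour_cj g₀ hU₁, hg₀⟩
  have hS2 : ¬ PRankLE 2 1 (S : Subgroup G) := not_rank_of_klein_le hU₀ hU₀S
  have hSH : (S : Subgroup G) ≤ H := (Subgroup.le_normalizer).trans (hsup S le_rfl hS2)
  have hNSH : Subgroup.normalizer ((S : Subgroup G) : Set G) ≤ H := hsup S le_rfl hS2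
  constructor
  · -- If `H = ⊤` then `G` is connected.
    intro hFC hTop
    apply hFC
    -- all conjugates of `U₀` are reachable from `U₀`
    let K : Subgroup G :=
      { carrier := {g | Reach G U₀ (cj g U₀)}
        one_mem' := by
          show Reach G U₀ (cj 1 U₀)
          rw [cj_one]
        mul_mem' := by
          intro a b ha hb
          show Reach G U₀ (cj (a * b) U₀)
          rw [cj_mul]
          exact Relation.ReflTransGen.trans ha (reach_cj a hb)
        inv_mem' := by
          intro a ha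
          show Reach G U₀ (cj a⁻¹ U₀)
          have h1 : Reach G (cj a⁻¹ U₀) (cj a⁻¹ (cj a U₀)) := reach_cj a⁻¹ ha
          rw [← cj_mul, inv_mul_cancel, cj_one] at h1
          exact reachable_symm h1 }
    have hHK : H ≤ K := by
      refine iSup_le ?_
      rintro ⟨Q, hQS, hQ2⟩ x hx
      obtain ⟨U, hUQ, hU⟩ := exists_klein_le_of_not_rank hQ2
      show Reach G U₀ (cj x U₀)
      have hUx : IsKleinFour (cj x U) := isKleinFour_cj x hU
      have hUxQ : cj x U ≤ Q := by
        rintro _ ⟨y, hy, rfl⟩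
        exact (Subgroup.mem_normalizer_iff.mp hx y).mp (hUQ hy)
      have h1 : Reach G U₀ (cj x U) := reach_of_le hS hU₀ hUx hU₀S (hUxQ.trans hQS)
      have h3 : Reach G U₀ U := reach_of_le hS hU₀ hU hU₀S (hUQ.trans hQS)
      exact h1.trans (reachable_symm (reach_cj x h3))
    have hKtop : ∀ g : G, Reach G U₀ (cj g U₀) := by
      intro g
      have : g ∈ H := by rw [hTop]; trivial
      exact hHK this
    have hall : ∀ V : Subgroup G, IsKleinFour V → Reach G U₀ V := by
      intro V hV
      have hV2 : IsPGroup 2 V := by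
        intro x
        refine ⟨1, ?_⟩
        have := pow_two_of_mem_klein hV x.2
        apply Subtype.ext
        simpa using this
      obtain ⟨x, hx⟩ := exists_cj_le_sylow S hV2
      have h1 : Reach G U₀ (cj x V) := reach_of_le hS hU₀ (isKleinFour_cj x hV) hU₀S hx
      have h3 : Reach G (cj x⁻¹ U₀) (cj x⁻¹ (cj x V)) := reach_cj x⁻¹ h1
      rw [← cj_mul, inv_mul_cancel, cj_one] at h3
      exact (hKtop x⁻¹).trans h3
    intro U V hU hV
    exact (reachable_symm (hall U hU)).trans (hall V hV)
  · -- If `G` is connected then `H = ⊤`.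
    intro hne
    by_contra hFC
    apply hne
    -- 2-subgroups of `H` containing a Klein four-group have normalizer in `H`.
    have hnorm : ∀ R : Subgroup G, R ≤ H → IsPGroup 2 R → ¬ PRankLE 2 1 R →
        Subgroup.normalizer ((R : Subgroup G) : Set G) ≤ H := by
      intro R hRH hR2 hRk
      obtain ⟨h, hhH, hle⟩ := exists_cj_le_sylow_of_le S hSH hRH hR2
      refine normalizer_cj_le hhH (hsup _ hle ?_)
      obtain ⟨U, hUR, hU⟩ := exists_klein_le_of_not_rank hRk
      exact not_rank_of_klein_le (isKleinFour_cj h hU) (Subgroup.map_mono hUR)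
    -- every Klein four-group lies in `H`
    have hklein : ∀ V : Subgroup G, Reach G U₀ V → IsKleinFour V → V ≤ H := by
      intro V hV
      induction hV with
      | refl => intro _; exact hU₀S.trans hSH
      | @tail b c _ hbc ih =>
        intro _
        have hb : b ≤ H := ih hbc.1
        have hb2 : IsPGroup 2 b := by
          intro x
          refine ⟨1, ?_⟩
          have := pow_two_of_mem_klein hbc.1 x.2
          apply Subtype.ext
          simpa using this
        have hN := hnorm b hb hb2 (not_rank_of_klein_le hbc.1 le_rfl)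
        intro x hx
        apply hN
        rw [Subgroup.mem_normalizer_iff]
        intro y
        have hcomm : ∀ y ∈ b, x * y = y * x := fun y hy => (hbc.2.2 y hy x hx).symm
        constructor
        · intro hy
          rw [hcomm y hy]
          simpa using hy
        · intro hy
          have h6 := hcomm _ hy
          have h7 : y = x * y * x⁻¹ := by
            have h8 : x * y * x⁻¹ * x = x * (x * y * x⁻¹) := h6.symm
            have h9 : x * y = x * (x * y * x⁻¹) := by simpa using h8
            exact mul_left_cancel h9 |>.trans (by rfl)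
          rw [h7]
          exact hy
    -- Every conjugate of `S` lies in `H`.
    have hSconj : ∀ g : G, cj g (S : Subgroup G) ≤ H := by
      intro g
      have hV : IsKleinFour (cj g U₀) := isKleinFour_cj g hU₀
      have hVH : cj g U₀ ≤ H := hklein _ (hFC U₀ _ hU₀ hV) hV
      have hT2 : IsPGroup 2 (cj g (S : Subgroup G)) := S.isPGroup'.map _
      set T : Subgroup G := cj g (S : Subgroup G) with hT
      have hVT : cj g U₀ ≤ T := Subgroup.map_mono hU₀S
      set R : Subgroup G := T ⊓ H with hR
      have hRH : R ≤ H := inf_le_right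
      have hRT : R ≤ T := inf_le_left
      have hR2 : IsPGroup 2 R := hT2.to_le hRT
      have hVR : cj g U₀ ≤ R := le_inf hVT hVH
      have hRk : ¬ PRankLE 2 1 R := not_rank_of_klein_le hV hVR
      have hN := hnorm R hRH hR2 hRk
      by_contra hTH
      have hlt : R.subgroupOf T < ⊤ := by
        refine lt_of_le_of_ne le_top ?_
        intro htop
        apply hTH
        intro x hx
        have : (⟨x, hx⟩ : T) ∈ R.subgroupOf T := by rw [htop]; trivial
        exact hRH this
      have hnil : Group.IsNilpotent T := hT2.isNilpotent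
      have hlt2 := (Group.normalizerCondition_of_isNilpotent (G := T)) _ hlt
      obtain ⟨t, ht, htn⟩ := SetLike.exists_of_lt hlt2
      rw [← Subgroup.subgroupOf_normalizer_eq hRT] at ht
      have htH : (t : G) ∈ H := hN ht
      apply htn
      show (t : G) ∈ R
      exact ⟨t.2, htH⟩
    rw [eq_top_iff]
    intro g _
    have hT2 : IsPGroup 2 (cj g (S : Subgroup G)) := S.isPGroup'.map _
    obtain ⟨h, hh, hle⟩ := exists_cj_le_sylow_of_le S hSH (hSconj g) hT2
    have hEq : cj h (cj g (S : Subgroup G)) = S := by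
      apply Subgroup.eq_of_le_of_card_ge hle
      have h1 := Nat.card_congr ((S : Subgroup G).equivMapOfInjective (MulAut.conj g).toMonoidHom (MulAut.conj g).injective).toEquiv
      have h2 := Nat.card_congr ((cj g (S : Subgroup G)).equivMapOfInjective (MulAut.conj h).toMonoidHom (MulAut.conj h).injective).toEquiv
      exact (h1.trans h2).le
    rw [← cj_mul] at hEq
    have hmem : h * g ∈ Subgroup.normalizer ((S : Subgroup G) : Set G) :=
      Subgroup.mem_normalizer_iff_map_conj_eq.mpr hEq
    have := H.mul_mem (H.inv_mem hh) (hNSH hmem)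
    simpa using this

end Cfsg.Agent.S0520
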