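import Mathlib
import Cfsg.Statements.S0521
import Cfsg.Agent.Lib.TransvPair
import Cfsg.Agent.Lib.PCore
import Cfsg.Agent.Lib.BaerSuzuki
import Cfsg.Agent.Lib.Glauberman
import Cfsg.Agent.Lib.Frat

set_option autoImplicit false
set_option linter.style.haveILetI false
set_option linter.unusedSectionVars false
open Cfsg
open scoped commutatorElement

namespace Cfsg.Agent.S0521

open Cfsg.Agent.Lib.PCore Cfsg.Agent.Lib.TransvPair Cfsg.Agent.Lib.Frat

variable {Y : Type*} [Group Y] [Finite Y] {p : ℕ} [hp : Fact p.Prime]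

/-- The Frattini subgroup of a normal subgroup, inside the group. -/
def phiOf (Q : Subgroup Y) : Subgroup Y := (frattini Q).map Q.subtype

instance phiOf_normal (Q : Subgroup Y) [hQ : Q.Normal] : (phiOf Q).Normal := by
  constructor
  rintro _ ⟨f, hf, rfl⟩ y
  have hchar : (frattini Q).Characteristic := inferInstance
  let σ : Q ≃* Q := MulAut.conjNormal y
  have h1 : σ f ∈ frattini Q := by
    have h2 := hchar.fixed σ.symm
    have h3 : σ f ∈ (frattini Q).comap σ.symm.toMonoidHom := by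
      simpa using hf
    rwa [h2] at h3
  exact ⟨σ f, h1, by simp [σ]⟩

/-- A `p`-element acts on the normal `p`-subgroup through a cyclic commutator. -/
theorem exists_line (hS : ∀ S : Sylow p Y, IsCyclic (commutator (S : Subgroup Y))) (Q : Subgroup Y) [hQn : Q.Normal]
    (hQ : IsPGroup p Q) (x : Y) (hx : ∃ n : ℕ, x ^ p ^ n = 1) :
    ∃ u ∈ Q, ∀ q ∈ Q, ∃ k : ℕ, x * q * x⁻¹ = u ^ k * q := by
  classical
  have hzp : IsPGroup p (Subgroup.zpowers x) := by
    obtain ⟨n, hn⟩ := hx
    rintro ⟨g, hg⟩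
    obtain ⟨j, rfl⟩ := Subgroup.mem_zpowers_iff.mp hg
    refine ⟨n, Subtype.ext ?_⟩
    show (x ^ j) ^ p ^ n = 1
    rw [← zpow_natCast, ← zpow_mul, mul_comm, zpow_mul, zpow_natCast, hn, one_zpow]
  obtain ⟨S₁, hS₁⟩ := hzp.exists_le_sylow
  have hxS : x ∈ (S₁ : Subgroup Y) := hS₁ (Subgroup.mem_zpowers x)
  have hQS : Q ≤ (S₁ : Subgroup Y) := hQ.le_sylow_of_normal S₁
  let D' : Subgroup Y := (commutator (S₁ : Subgroup Y)).map (S₁ : Subgroup Y).subtype
  let D : Subgroup Y := D' ⊓ Q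
  haveI hcyc := hS S₁
  have hD'c : IsCyclic D' := by
    have e₁ := (commutator (S₁ : Subgroup Y)).equivMapOfInjective _ (S₁ : Subgroup Y).subtype_injective
    exact isCyclic_of_surjective e₁.toMonoidHom e₁.surjective
  have hDc : IsCyclic D :=
    isCyclic_of_injective (Subgroup.inclusion (inf_le_left : D ≤ D')) (Subgroup.inclusion_injective _)
  obtain ⟨⟨u, hu⟩, hgen⟩ := hDc.exists_generator
  refine ⟨u, hu.2, fun q hq => ?_⟩
  have hcD : x * q * x⁻¹ * q⁻¹ ∈ D := by
    constructor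
    · refine ⟨⁅(⟨x, hxS⟩ : (S₁ : Subgroup Y)), (⟨q, hQS hq⟩ : (S₁ : Subgroup Y))⁆, ?_, ?_⟩
      · exact Subgroup.commutator_mem_commutator (Subgroup.mem_top _) (Subgroup.mem_top _)
      · rfl
    · exact Q.mul_mem (hQn.conj_mem q hq x) (Q.inv_mem hq)
  have h1 := hgen ⟨_, hcD⟩
  rw [mem_zpowers_iff_mem_range_orderOf] at h1
  obtain ⟨k, -, hk⟩ := Finset.mem_image.mp h1
  refine ⟨k, ?_⟩
  have h2 : u ^ k = x * q * x⁻¹ * q⁻¹ := by
    simpa using congrArg Subtype.val hk
  rw [h2]
  group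

/-- Two `p`-elements generate a `p`-group. -/
theorem isPGroup_closure [Group.IsSolvable Y] (hp2 : p ≠ 2) (hodd : Odd (Nat.card Y)) (hcore : pPrimeCore p Y = ⊥)
    (hS : ∀ S : Sylow p Y, IsCyclic (commutator (S : Subgroup Y)))
    (x y : Y) (hx : ∃ n : ℕ, x ^ p ^ n = 1) (hy : ∃ n : ℕ, y ^ p ^ n = 1) :
    IsPGroup p (Subgroup.closure ({x, y} : Set Y)) := by
  classical
  set Q := pCore p Y with hQdef
  have hQ : IsPGroup p Q := isPGroup_pCore p
  haveI hQn : Q.Normal := Cfsg.pCore_normal p Y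
  let π := QuotientGroup.mk' (phiOf Q)
  let V : Subgroup (Y ⧸ phiOf Q) := Q.map π
  have hZodd : Odd (Nat.card (Y ⧸ phiOf Q)) :=
    Odd.of_dvd_nat hodd (Subgroup.card_quotient_dvd_card _)
  have hπ : ∀ a b : Y, a * b⁻¹ ∈ phiOf Q → π a = π b := by
    intro a b h
    apply (QuotientGroup.eq_iff_div_mem).mpr
    rwa [div_eq_mul_inv]
  have hVc : ∀ a ∈ V, ∀ b ∈ V, a * b = b * a := by
    rintro _ ⟨q₁, hq₁, rfl⟩ _ ⟨q₂, hq₂, rfl⟩
    rw [← map_mul, ← map_mul]
    apply hπ
    have h1 : ⁅(⟨q₁, hq₁⟩ : Q), (⟨q₂, hq₂⟩ : Q)⁆ ∈ frattini Q :=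
      commutator_le_frattini hQ (Subgroup.commutator_mem_commutator (Subgroup.mem_top _) (Subgroup.mem_top _))
    refine ⟨_, h1, ?_⟩
    simp [commutatorElement_def]
    group
  have hVp : ∀ v ∈ V, v ^ p = 1 := by
    rintro _ ⟨q, hq, rfl⟩
    rw [← map_pow]
    apply (QuotientGroup.eq_one_iff _).mpr
    exact ⟨_, pow_mem_frattini hQ (⟨q, hq⟩ : Q), by simp⟩
  have hline : ∀ z : Y, (∃ n : ℕ, z ^ p ^ n = 1) → ∃ u ∈ V, ∀ v ∈ V, ∃ k : ℕ, π z * v * (π z)⁻¹ = u ^ k * v := by
    intro z hz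
    obtain ⟨u, hu, h⟩ := exists_line hS Q hQ z hz
    refine ⟨π u, ⟨u, hu, rfl⟩, ?_⟩
    rintro _ ⟨q, hq, rfl⟩
    obtain ⟨k, hk⟩ := h q hq
    refine ⟨k, ?_⟩
    rw [← map_inv, ← map_mul, ← map_mul, hk, map_mul, map_pow]
  obtain ⟨u, hu, hux⟩ := hline x hx
  obtain ⟨w, hw, hwy⟩ := hline y hy
  have hpowbar : ∀ z : Y, (∃ n : ℕ, z ^ p ^ n = 1) → ∃ n : ℕ, π z ^ p ^ n = 1 := by
    rintro z ⟨n, hn⟩
    exact ⟨n, by rw [← map_pow, hn, map_one]⟩
  rintro ⟨g, hg⟩
  -- the `p'`-part of `g`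
  set o := orderOf g with ho
  have ho0 : o ≠ 0 := (orderOf_pos g).ne'
  let k := o.factorization p
  have hpk : p ^ k ∣ o := Nat.ordProj_dvd o p
  have hh'ord : orderOf (g ^ p ^ k) = o / p ^ k :=
    orderOf_pow_of_dvd (pow_ne_zero _ hp.out.ne_zero) hpk
  have hmco : (o / p ^ k).Coprime p := (Nat.coprime_ordCompl hp.out ho0).symm
  set h' := g ^ p ^ k with hh'
  have hh'cl : h' ∈ Subgroup.closure ({x, y} : Set Y) := Subgroup.pow_mem _ hg _
  have hπcl : π h' ∈ Subgroup.closure ({π x, π y} : Set (Y ⧸ phiOf Q)) := by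
    have h1 := Subgroup.mem_map_of_mem π hh'cl
    rw [MonoidHom.map_closure, Set.image_pair] at h1
    exact h1
  have hπco : (orderOf (π h')).Coprime p := by
    apply Nat.Coprime.coprime_dvd_left (orderOf_map_dvd π h')
    rw [hh'ord]
    exact hmco
  have hcomm := core hp2 hZodd V hVc hVp hu hw (hpowbar x hx) (hpowbar y hy) hux hwy hπcl hπco
  -- `h'` centralizes `Q`
  have hcen : Subgroup.zpowers h' ≤ Subgroup.centralizer (Q : Set Y) := by
    apply Cfsg.Agent.Lib.Glauberman.le_centralizer_of_frattini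
    · intro a _
      rw [Subgroup.normalizer_eq_top]
      trivial
    · have h1 : IsPGroup p (frattini Q) := hQ.to_subgroup _
      obtain ⟨t, ht⟩ := IsPGroup.iff_card.mp h1
      rw [ht, Nat.card_zpowers, hh'ord]
      exact Nat.Coprime.pow_right _ hmco
    · rintro a ha q hq
      obtain ⟨j, rfl⟩ := Subgroup.mem_zpowers_iff.mp ha
      have h1 : π (h' ^ j) * π q = π q * π (h' ^ j) := by
        rw [map_zpow]
        have : Commute (π h') (π q) := hcomm _ ⟨q, hq, rfl⟩
        exact (this.zpow_left j).eq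
      have h2 : π (h' ^ j * q * (h' ^ j)⁻¹ * q⁻¹) = 1 := by
        rw [map_mul, map_mul, map_mul, map_inv, map_inv, h1]
        group
      exact (QuotientGroup.eq_one_iff _).mp h2
  have hh'Q : h' ∈ Q := by
    apply centralizer_pCore_le p hcore
    exact hcen (Subgroup.mem_zpowers h')
  obtain ⟨t, ht⟩ := hQ ⟨h', hh'Q⟩
  have h1 : h' ^ p ^ t = 1 := by simpa using congrArg Subtype.val ht
  have h2 : orderOf h' ∣ p ^ t := orderOf_dvd_of_pow_eq_one h1
  have h3 : orderOf h' = 1 := by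
    have hco : (orderOf h').Coprime (p ^ t) := by
      rw [hh'ord]
      exact Nat.Coprime.pow_right _ hmco
    exact Nat.Coprime.eq_one_of_dvd hco h2
  have h4 : h' = 1 := orderOf_eq_one_iff.mp h3
  refine ⟨k, Subtype.ext ?_⟩
  show g ^ p ^ k = 1
  exact h4

/-- The theorem when `O_{p'}` is trivial. -/
theorem main_Y [Group.IsSolvable Y] (hodd : Odd (Nat.card Y)) (hcore : pPrimeCore p Y = ⊥)
    (hS : ∀ S : Sylow p Y, IsCyclic (commutator (S : Subgroup Y))) (S : Sylow p Y) : (S : Subgroup Y).Normal := by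
  by_cases hp2 : p = 2
  · subst hp2
    have h1 : Nat.card (S : Subgroup Y) = 1 := by
      obtain ⟨t, ht⟩ := IsPGroup.iff_card.mp S.2
      have hd : Nat.card (S : Subgroup Y) ∣ Nat.card Y := Subgroup.card_subgroup_dvd_card _
      have hoddS : Odd (Nat.card (S : Subgroup Y)) := Odd.of_dvd_nat hodd hd
      rw [ht] at hoddS ⊢
      cases t with
      | zero => simp
      | succ t =>
        exfalso
        rw [pow_succ] at hoddS
        exact (Nat.not_odd_iff_even.mpr (Even.mul_left even_two _)) hoddS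
    have h2 : (S : Subgroup Y) = ⊥ := Subgroup.eq_bot_of_card_eq _ h1
    rw [h2]
    exact Subgroup.normal_bot
  have hQ : IsPGroup p (pCore p Y) := isPGroup_pCore p
  have hle : (S : Subgroup Y) ≤ pCore p Y := by
    intro x hx
    have hxp : ∃ n : ℕ, x ^ p ^ n = 1 := by
      obtain ⟨n, hn⟩ := S.2 ⟨x, hx⟩
      exact ⟨n, by simpa using congrArg Subtype.val hn⟩
    have hzp : IsPGroup p (Subgroup.zpowers x) := by
      obtain ⟨n, hn⟩ := hxp
      rintro ⟨g, hg⟩
      obtain ⟨j, rfl⟩ := Subgroup.mem_zpowers_iff.mp hg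
      refine ⟨n, Subtype.ext ?_⟩
      show (x ^ j) ^ p ^ n = 1
      rw [← zpow_natCast, ← zpow_mul, mul_comm, zpow_mul, zpow_natCast, hn, one_zpow]
    obtain ⟨N, hNn, hNp, hxN⟩ := Cfsg.Agent.Lib.BaerSuzuki.baer_suzuki (Subgroup.zpowers x) hzp (by
      intro g
      have h1 := isPGroup_closure hp2 hodd hcore hS x (g * x * g⁻¹) hxp (by
        obtain ⟨n, hn⟩ := hxp
        refine ⟨n, ?_⟩
        rw [conj_pow, hn]
        group)
      refine h1.to_le ?_
      refine sup_le ?_ ?_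
      · rw [Subgroup.zpowers_le]
        exact Subgroup.subset_closure (by simp)
      · rw [Subgroup.map_le_iff_le_comap, Subgroup.zpowers_le]
        exact Subgroup.subset_closure (by simp))
    exact le_pCore hNn hNp (hxN (Subgroup.mem_zpowers x))
  have hge : pCore p Y ≤ (S : Subgroup Y) := pCore_le_sylow p S
  have heq : (S : Subgroup Y) = pCore p Y := le_antisymm hle hge
  rw [heq]
  exact Cfsg.pCore_normal p Y

/-- Surjective images of groups with cyclic commutator subgroup. -/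
theorem isCyclic_commutator_of_surjective {A B : Type*} [Group A] [Group B] (f : A →* B)
    (hf : Function.Surjective f) (h : IsCyclic (commutator A)) : IsCyclic (commutator B) := by
  have hmap : (commutator A).map f = commutator B := by
    rw [commutator_def, commutator_def, Subgroup.map_commutator, ← MonoidHom.range_eq_map,
      MonoidHom.range_eq_top.mpr hf]
  let g : commutator A →* commutator B :=
    (f.comp (commutator A).subtype).codRestrict _ (fun a => by
      rw [← hmap]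
      exact ⟨a, a.2, rfl⟩)
  apply isCyclic_of_surjective g
  rintro ⟨b, hb⟩
  rw [← hmap] at hb
  obtain ⟨a, ha, rfl⟩ := hb
  exact ⟨⟨a, ha⟩, rfl⟩

/-- Let X be a finite solvable group of odd order, p a prime and S a Sylow p-subgroup of X whose commutator subgroup is
cyclic. Then the product of the largest normal subgroup of X of order prime to p with S is a normal subgroup of X. -/
theorem result {X : Type*} [Group X] [Finite X] [Group.IsSolvable X]
    (hX : Odd (Nat.card X)) (p : ℕ) [Fact p.Prime] (S : Sylow p X) (hS : IsCyclic (commutator (S : Subgroup X))) :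
    (Cfsg.pPrimeCore p X ⊔ (S : Subgroup X)).Normal := by
  set N := Cfsg.pPrimeCore p X with hN
  haveI hNn : N.Normal := Cfsg.pPrimeCore_normal p X
  let π := QuotientGroup.mk' N
  have hπ : Function.Surjective π := QuotientGroup.mk'_surjective N
  have hodd : Odd (Nat.card (X ⧸ N)) := Odd.of_dvd_nat hX (Subgroup.card_quotient_dvd_card _)
  have hcore : pPrimeCore p (X ⧸ N) = ⊥ := pPrimeCore_quotient_pPrimeCore p
  have hall : ∀ T : Sylow p (X ⧸ N), IsCyclic (commutator (T : Subgroup (X ⧸ N))) := by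
    intro T
    obtain ⟨S', rfl⟩ := Sylow.mapSurjective_surjective hπ p T
    obtain ⟨g, rfl⟩ := MulAction.exists_smul_eq X S S'
    have h1 : IsCyclic (commutator ((g • S : Sylow p X) : Subgroup X)) :=
      isCyclic_commutator_of_surjective (S.equivSMul g).toMonoidHom (S.equivSMul g).surjective hS
    let f : ((g • S : Sylow p X) : Subgroup X) →* (((g • S : Sylow p X).mapSurjective hπ : Sylow p (X ⧸ N)) : Subgroup (X ⧸ N)) :=
      (π.comp ((g • S : Sylow p X) : Subgroup X).subtype).codRestrict _ (fun a => ⟨a, a.2, rfl⟩)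
    apply isCyclic_commutator_of_surjective f _ h1
    rintro ⟨b, hb⟩
    obtain ⟨a, ha, rfl⟩ := hb
    exact ⟨⟨a, ha⟩, rfl⟩
  have hmain := main_Y hodd hcore hall (S.mapSurjective hπ)
  have heq : N ⊔ (S : Subgroup X) = ((S.mapSurjective hπ : Sylow p (X ⧸ N)) : Subgroup (X ⧸ N)).comap π := by
    rw [Sylow.coe_mapSurjective, Subgroup.comap_map_eq, QuotientGroup.ker_mk', sup_comm]
  rw [heq]
  exact Subgroup.Normal.comap hmain _

end Cfsg.Agent.S0521
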