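import Mathlib
import Cfsg.Statements.S0522
import Cfsg.Agent.S1480
import Cfsg.Agent.Lib.PConstr63
import Cfsg.Agent.Lib.SylowConjLemmas

set_option autoImplicit false
open Cfsg

namespace Cfsg.Agent.S0522

/-- Transitivity Theorem (odd-order setting). Let X be a finite group of odd order in which the normalizer of every
nontrivial p-subgroup is solvable, P a Sylow p-subgroup, and B an abelian subgroup of P, normalized by P, with
C_P(B) = B and containing an elementary abelian subgroup of order p^3. Then for every prime q ≠ p, any two q-subgroups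
that are maximal among the q-subgroups normalized by B are conjugate by an element of the centralizer of B. -/
theorem result {X : Type*} [Group X] [Finite X] (hX : Odd (Nat.card X)) (p : ℕ)
    [Fact p.Prime] (hloc : ∀ T : Subgroup X, IsPGroup p T → T ≠ ⊥ → Group.IsSolvable (Subgroup.normalizer (T : Set X)))
    (P : Sylow p X) (B : Subgroup X) (hBP : B ≤ (P : Subgroup X))
    (hBn : ∀ x ∈ (P : Subgroup X), ∀ b ∈ B, x * b * x⁻¹ ∈ B) (hBa : IsMulCommutative B)
    (hBc : (P : Subgroup X) ⊓ Subgroup.centralizer (B : Set X) = B)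
    (hB3 : ∃ E : Subgroup X, E ≤ B ∧ (∀ e ∈ E, e ^ p = 1) ∧ p ^ 3 ≤ Nat.card E)
    (q : ℕ) [Fact q.Prime] (hqp : q ≠ p) (Q₁ Q₂ : Subgroup X)
    (h₁ : IsPGroup q Q₁ ∧ B ≤ Subgroup.normalizer (Q₁ : Set X) ∧
      ∀ R : Subgroup X, IsPGroup q R → B ≤ Subgroup.normalizer (R : Set X) → Q₁ ≤ R → R = Q₁)
    (h₂ : IsPGroup q Q₂ ∧ B ≤ Subgroup.normalizer (Q₂ : Set X) ∧
      ∀ R : Subgroup X, IsPGroup q R → B ≤ Subgroup.normalizer (R : Set X) → Q₂ ≤ R → R = Q₂) :
    ∃ c ∈ Subgroup.centralizer (B : Set X), Q₂ = Q₁.map (MulAut.conj c).toMonoidHom := by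
  classical
  have hBcomm : ∀ x ∈ B, ∀ y ∈ B, x * y = y * x := by
    intro x hx y hy
    have := hBa.is_comm.comm ⟨x, hx⟩ ⟨y, hy⟩
    exact congrArg Subtype.val this
  obtain ⟨E, hEB, hEp, hEcard⟩ := hB3
  have hp3 : 1 < p ^ 3 := Nat.one_lt_pow (by norm_num) (Fact.out : p.Prime).one_lt
  -- `p` is odd
  have hpodd : p ≠ 2 := by
    rintro rfl
    have hEP : IsPGroup 2 E := P.isPGroup'.to_le (hEB.trans hBP)
    obtain ⟨k, hk⟩ := IsPGroup.iff_card.mp hEP
    have hd : 2 ∣ Nat.card X := by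
      have h1 : Nat.card E ∣ Nat.card X := Subgroup.card_subgroup_dvd_card E
      have h2 : 2 ∣ Nat.card E := by
        rw [hk]
        rcases k with _ | k
        · rw [hk] at hEcard
          norm_num at hEcard
        · exact dvd_pow_self 2 (Nat.succ_ne_zero k)
      exact h2.trans h1
    exact (Nat.not_even_iff_odd.2 hX) (even_iff_two_dvd.2 hd)
  have hBN : (P : Subgroup X) ≤ Subgroup.normalizer (B : Set X) := by
    rw [Subgroup.le_normalizer_iff]
    exact hBn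
  have hloc' : ∀ T : Subgroup X, IsPGroup p T → T ≠ ⊥ →
      Cfsg.IsPConstrained p ↥(Subgroup.normalizer (T : Set X)) := by
    intro T hT hT1
    have := hloc T hT hT1
    exact Cfsg.Agent.Lib.PConstr63.isPConstrained_iff.2
      (Cfsg.Agent.Lib.PCore.centralizer_pCore_le p (Cfsg.Agent.Lib.PCore.pPrimeCore_quotient_pPrimeCore p))
  have hE3 : ¬ Cfsg.PRankLE p 2 B := by
    intro h
    have h1 := h (E.subgroupOf B) ⟨⟨by
      rintro ⟨a, ha⟩ ⟨b, hb⟩
      apply Subtype.ext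
      apply Subtype.ext
      exact hBcomm _ a.2 _ b.2⟩⟩ (by
      intro a ha
      apply Subtype.ext
      exact hEp _ (Subgroup.mem_subgroupOf.1 ha))
    have h2 : Nat.card (E.subgroupOf B) = Nat.card E :=
      Nat.card_congr (Subgroup.subgroupOfEquivOfLe hEB).toEquiv
    rw [h2] at h1
    have h3 : p ^ 3 ≤ p ^ 2 := hEcard.trans h1
    have h4 := Nat.pow_lt_pow_right (Fact.out : p.Prime).one_lt (show 2 < 3 by norm_num)
    omega
  have hEfull : ∀ x ∈ Subgroup.centralizer (B : Set X), IsPGroup p (Subgroup.zpowers x) → x ∈ B := by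
    intro x hx hxp
    have hxN : Subgroup.zpowers x ≤ Subgroup.normalizer (B : Set X) := by
      rw [Subgroup.zpowers_le]
      exact Subgroup.centralizer_le_normalizer _ hx
    obtain ⟨k, hk, hkx⟩ := Cfsg.Agent.Lib.SylowConjLemmas.exists_conj_mem_of_le P _ hBN _ hxp hxN
    have h1 := hkx x (Subgroup.mem_zpowers x)
    have hkB : ∀ b ∈ B, k⁻¹ * b * k ∈ B := by
      intro b hb
      have := Subgroup.le_normalizer_iff.mp (le_refl _) k⁻¹ (Subgroup.inv_mem _ hk) b hb
      simpa using this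
    have h2 : k * x * k⁻¹ ∈ (P : Subgroup X) ⊓ Subgroup.centralizer (B : Set X) := by
      refine Subgroup.mem_inf.2 ⟨h1, ?_⟩
      rw [Subgroup.mem_centralizer_iff]
      intro b hb
      have h3 : (k⁻¹ * b * k) * x = x * (k⁻¹ * b * k) :=
        Subgroup.mem_centralizer_iff.mp hx _ (hkB b hb)
      calc b * (k * x * k⁻¹) = k * ((k⁻¹ * b * k) * x) * k⁻¹ := by group
        _ = k * (x * (k⁻¹ * b * k)) * k⁻¹ := by rw [h3]
        _ = k * x * k⁻¹ * b := by group
    rw [hBc] at h2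
    have h4 := Subgroup.le_normalizer_iff.mp (le_refl _) k⁻¹ (Subgroup.inv_mem _ hk) _ h2
    have h5 : k⁻¹ * (k * x * k⁻¹) * k⁻¹⁻¹ = x := by group
    rwa [h5] at h4
  have hinv : ∀ Y : Subgroup X, IsPGroup q Y → B ≤ Subgroup.normalizer (Y : Set X) →
      Y ∈ Cfsg.invSubgroups ⊤ B {q} := by
    intro Y hY hBY
    refine ⟨le_top, ?_, hBY⟩
    intro r hr hd
    obtain ⟨k, hk⟩ := IsPGroup.iff_card.mp hY
    rw [hk] at hd
    exact (Nat.prime_dvd_prime_iff_eq hr (Fact.out : q.Prime)).1 (hr.dvd_of_dvd_pow hd)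
  have hinv' : ∀ Y : Subgroup X, Y ∈ Cfsg.invSubgroups ⊤ B {q} → IsPGroup q Y := by
    rintro Y ⟨-, h1, h2⟩
    have h3 : Nat.card Y = q ^ (Nat.card Y).primeFactorsList.length :=
      Nat.eq_prime_pow_of_unique_prime_dvd Nat.card_pos.ne' (fun {d} hd hdc => h1 d hd hdc)
    exact IsPGroup.of_card h3
  have hmax : ∀ Q : Subgroup X, (IsPGroup q Q ∧ B ≤ Subgroup.normalizer (Q : Set X) ∧
      ∀ R : Subgroup X, IsPGroup q R → B ≤ Subgroup.normalizer (R : Set X) → Q ≤ R → R = Q) →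
      Q ∈ Cfsg.maxInvSubgroups ⊤ B {q} := by
    rintro Q ⟨h1, h2, h3⟩
    exact ⟨hinv Q h1 h2, fun R hR hle => h3 R (hinv' R hR) hR.2.2 hle⟩
  obtain ⟨k, hk, hke⟩ := Cfsg.Agent.S1480.result p hloc' (fun h => absurd h hpodd) B
    (P.isPGroup'.to_le hBP) hBa hE3 hEfull q hqp Q₁ (hmax Q₁ h₁) Q₂ (hmax Q₂ h₂)
  refine ⟨k, ?_, hke⟩
  obtain ⟨y, -, rfl⟩ := hk
  exact y.2

end Cfsg.Agent.S0522
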