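import Mathlib
import Cfsg.Agent.Lib.SuperSolv
-- Template for statement S0524 (row 524; see /opt/grader/pristine/manifest.json for weights).
-- Copy to Cfsg/Agent/S0524.lean and replace the sorry. The statement below is byte-identical to the frozen
-- statement Cfsg.CfsgFrozen.S0524 (Cfsg/Statements/S0524.lean; the theorem Cfsg.supersolvable_subgroup_and_quotient);
-- the grader kernel-checks Cfsg.Agent.S0524.result against that frozen type. Keep the theorem IN THIS FILE
-- (a `result` declared elsewhere and merely imported here is not credited); helpers may live anywhere
-- under Cfsg/Agent/.
import Cfsg.Statements.S0524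
-- import your own Cfsg.Agent.* helpers here

set_option autoImplicit false
open Cfsg

namespace Cfsg.Agent.S0524

/-- The class of supersolvable groups is closed under subgroups and quotients: if a finite group has a chain of normal subgroups from the trivial subgroup to the whole group with cyclic steps, then so do each of its subgroups and each of its quotient groups. -/
theorem result {G : Type*} [Group G] [Finite G] (hG : Cfsg.IsSupersolvable G) (H N : Subgroup G) [N.Normal] : Cfsg.IsSupersolvable H ∧ Cfsg.IsSupersolvable (G ⧸ N) := by
  exact ⟨Cfsg.Agent.Lib.SuperSolv.isSupersolvable_subgroup hG H,
    Cfsg.Agent.Lib.SuperSolv.isSupersolvable_quotient hG N⟩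

end Cfsg.Agent.S0524
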