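import Mathlib
import Cfsg.Agent.Lib.SuperSolv2
-- Template for statement S0527 (row 527; see /opt/grader/pristine/manifest.json for weights).
-- Copy to Cfsg/Agent/S0527.lean and replace the sorry. The statement below is byte-identical to the frozen
-- statement Cfsg.CfsgFrozen.S0527 (Cfsg/Statements/S0527.lean; the theorem Cfsg.supersolvable_maximal_subgroup_prime_index);
-- the grader kernel-checks Cfsg.Agent.S0527.result against that frozen type. Keep the theorem IN THIS FILE
-- (a `result` declared elsewhere and merely imported here is not credited); helpers may live anywhere
-- under Cfsg/Agent/.
import Cfsg.Statements.S0527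
-- import your own Cfsg.Agent.* helpers here

set_option autoImplicit false
open Cfsg

namespace Cfsg.Agent.S0527

/-- In a finite supersolvable group the index of any maximal subgroup is a prime number. -/
theorem result {G : Type*} [Group G] [Finite G] (hG : Cfsg.IsSupersolvable G) (M : Subgroup G) (hM : IsCoatom M) : M.index.Prime := by
  exact Cfsg.Agent.Lib.SuperSolv2.index_coatom_prime hG M hM

end Cfsg.Agent.S0527
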