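import Mathlib
import Cfsg.Agent.Lib.SuperSolv2
-- Template for statement S0530 (row 530; see /opt/grader/pristine/manifest.json for weights).
-- Copy to Cfsg/Agent/S0530.lean and replace the sorry. The statement below is byte-identical to the frozen
-- statement Cfsg.CfsgFrozen.S0530 (Cfsg/Statements/S0530.lean; the theorem Cfsg.supersolvable_of_card_two_mul_prime_pow);
-- the grader kernel-checks Cfsg.Agent.S0530.result against that frozen type. Keep the theorem IN THIS FILE
-- (a `result` declared elsewhere and merely imported here is not credited); helpers may live anywhere
-- under Cfsg/Agent/.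
import Cfsg.Statements.S0530
-- import your own Cfsg.Agent.* helpers here

set_option autoImplicit false
open Cfsg

namespace Cfsg.Agent.S0530

/-- A finite group whose order is twice a prime power is supersolvable. -/
theorem result {G : Type*} [Group G] [Finite G] (p n : ℕ) (hp : p.Prime) (hG : Nat.card G = 2 * p ^ n) : Cfsg.IsSupersolvable G := by
  exact Cfsg.Agent.Lib.SuperSolv2.isSupersolvable_of_card_eq p hp n hG

end Cfsg.Agent.S0530
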