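import Mathlib
import Cfsg.Agent.Lib.HClt
-- Template for statement S0532 (row 532; see /opt/grader/pristine/manifest.json for weights).
-- Copy to Cfsg/Agent/S0532.lean and replace the sorry. The statement below is byte-identical to the frozen
-- statement Cfsg.CfsgFrozen.S0532 (Cfsg/Statements/S0532.lean; the theorem Cfsg.normal_sylow_largest_prime_of_hereditary_clt);
-- the grader kernel-checks Cfsg.Agent.S0532.result against that frozen type. Keep the theorem IN THIS FILE
-- (a `result` declared elsewhere and merely imported here is not credited); helpers may live anywhere
-- under Cfsg/Agent/.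
import Cfsg.Statements.S0532
-- import your own Cfsg.Agent.* helpers here

set_option autoImplicit false
open Cfsg

namespace Cfsg.Agent.S0532

/-- If each subgroup of a finite group satisfies the converse of Lagrange's theorem, then a Sylow subgroup for the largest prime dividing the group order is normal. -/
theorem result {G : Type*} [Group G] [Finite G] (h : ∀ H : Subgroup G, Cfsg.HasSubgroupOfEveryOrder H) (p : ℕ) [Fact p.Prime] (hdvd : p ∣ Nat.card G) (hmax : ∀ q : ℕ, q.Prime → q ∣ Nat.card G → q ≤ p) (P : Sylow p G) : (P : Subgroup G).Normal := by
  exact Cfsg.Agent.Lib.HCltLib.sylow_normal_of_largest h p hdvd hmax P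

end Cfsg.Agent.S0532
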