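import Mathlib
import Cfsg.Agent.Lib.HClt
-- Template for statement S0533 (row 533; see /opt/grader/pristine/manifest.json for weights).
-- Copy to Cfsg/Agent/S0533.lean and replace the sorry. The statement below is byte-identical to the frozen
-- statement Cfsg.CfsgFrozen.S0533 (Cfsg/Statements/S0533.lean; the theorem Cfsg.supersolvable_of_hereditary_clt);
-- the grader kernel-checks Cfsg.Agent.S0533.result against that frozen type. Keep the theorem IN THIS FILE
-- (a `result` declared elsewhere and merely imported here is not credited); helpers may live anywhere
-- under Cfsg/Agent/.
import Cfsg.Statements.S0533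
-- import your own Cfsg.Agent.* helpers here

set_option autoImplicit false
open Cfsg

namespace Cfsg.Agent.S0533

/-- If every subgroup of a finite group has subgroups of all orders dividing its order, then the group is supersolvable. -/
theorem result {G : Type*} [Group G] [Finite G] (h : ∀ H : Subgroup G, Cfsg.HasSubgroupOfEveryOrder H) : Cfsg.IsSupersolvable G := by
  exact Cfsg.Agent.Lib.HCltLib.isSupersolvable_of_hclt h

end Cfsg.Agent.S0533
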