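import Mathlib
import Cfsg.Agent.Lib.SuperSolv2
import Cfsg.Agent.Lib.Hall
-- Template for statement S0534 (row 534; see /opt/grader/pristine/manifest.json for weights).
-- Copy to Cfsg/Agent/S0534.lean and replace the sorry. The statement below is byte-identical to the frozen
-- statement Cfsg.CfsgFrozen.S0534 (Cfsg/Statements/S0534.lean; the theorem Cfsg.solvable_prod_abelian_has_subgroup_of_every_order);
-- the grader kernel-checks Cfsg.Agent.S0534.result against that frozen type. Keep the theorem IN THIS FILE
-- (a `result` declared elsewhere and merely imported here is not credited); helpers may live anywhere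
-- under Cfsg/Agent/.
import Cfsg.Statements.S0534
-- import your own Cfsg.Agent.* helpers here

set_option autoImplicit false
open Cfsg

namespace Cfsg.Agent.S0534

open Subgroup Cfsg.Agent.Lib.SuperSolv in
/-- Finite abelian groups are supersolvable. -/
theorem isSupersolvable_of_comm {A : Type*} [CommGroup A] [Finite A] : Cfsg.IsSupersolvable A := by
  induction hc : Nat.card A using Nat.strong_induction_on generalizing A with
  | _ m ih =>
    by_cases hnt : Nontrivial A
    · obtain ⟨x, hx⟩ := exists_ne (1 : A)
      have hb : zpowers x ≠ ⊥ := by simpa using hx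
      have hlt : Nat.card (A ⧸ zpowers x) < m :=
        hc ▸ Cfsg.Agent.Lib.SuperSolv2.card_quotient_lt _ hb
      exact isSupersolvable_of_zpowers x (ih _ hlt rfl)
    · rw [not_nontrivial_iff_subsingleton] at hnt
      exact isSupersolvable_of_subsingleton

/-- Let G be a finite solvable group and A a finite abelian group such that every prime dividing the order of A divides the order of G and, for each prime p dividing the order of G, the exponent of p in the order of A is one less than its exponent in the order of G. Then G × A has a subgroup of every order dividing its order. -/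
theorem result {G A : Type*} [Group G] [CommGroup A] [Finite G] [Finite A] [Group.IsSolvable G] (hA : ∀ p : ℕ, p.Prime → p ∣ Nat.card A → p ∣ Nat.card G) (hexp : ∀ p : ℕ, p.Prime → p ∣ Nat.card G → (Nat.card A).factorization p + 1 = (Nat.card G).factorization p) : Cfsg.HasSubgroupOfEveryOrder (G × A) := by
  classical
  intro d hd
  set nG := Nat.card G with hnG
  set nA := Nat.card A with hnA
  have hcard : Nat.card (G × A) = nG * nA := Nat.card_prod G A
  rw [hcard] at hd
  have hnG0 : nG ≠ 0 := Nat.card_pos.ne'
  have hnA0 : nA ≠ 0 := Nat.card_pos.ne'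
  have hd0 : d ≠ 0 := fun h => by
    rw [h, zero_dvd_iff] at hd
    exact (mul_ne_zero hnG0 hnA0) hd
  let P : ℕ → Prop := fun p => nG.factorization p ≤ d.factorization p
  let f := nG.factorization.filter P
  let f' := nG.factorization.filter (fun p => ¬ P p)
  let m := f.prod (· ^ ·)
  let n := f'.prod (· ^ ·)
  have hprimes : ∀ (g : ℕ →₀ ℕ), (∀ p, g p ≠ 0 → nG.factorization p ≠ 0) →
      (g.prod (· ^ ·)).factorization = g := by
    intro g hg
    apply Nat.prod_pow_factorization_eq_self
    intro p hp
    have := hg p (Finsupp.mem_support_iff.1 hp)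
    exact Nat.prime_of_mem_primeFactors (by
      rw [← Nat.support_factorization]
      exact Finsupp.mem_support_iff.2 this)
  have hm : m.factorization = f := hprimes f (fun p hp => by
    simp only [f, Finsupp.filter_apply] at hp
    by_cases hP : P p
    · simpa [hP] using hp
    · simp [hP] at hp)
  have hn : n.factorization = f' := hprimes f' (fun p hp => by
    simp only [f', Finsupp.filter_apply] at hp
    by_cases hP : P p
    · simp [hP] at hp
    · simpa [hP] using hp)
  have hmn : m * n = nG := by
    have h1 := Finsupp.prod_filter_mul_prod_filter_not P nG.factorization (· ^ ·)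
    rw [Nat.prod_factorization_pow_eq_self hnG0] at h1
    exact h1
  have hm0 : m ≠ 0 := left_ne_zero_of_mul (hmn ▸ hnG0)
  have hn0 : n ≠ 0 := right_ne_zero_of_mul (hmn ▸ hnG0)
  have hcop : m.Coprime n := by
    apply Nat.coprime_of_dvd
    intro r hr h1 h2
    have h3 : f r ≠ 0 := by
      rw [← hm]
      exact (hr.factorization_pos_of_dvd hm0 h1).ne'
    have h4 : f' r ≠ 0 := by
      rw [← hn]
      exact (hr.factorization_pos_of_dvd hn0 h2).ne'
    simp only [f, Finsupp.filter_apply] at h3
    simp only [f', Finsupp.filter_apply] at h4
    by_cases hP : P r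
    · simp [hP] at h4
    · simp [hP] at h3
  obtain ⟨H, hH⟩ := (Cfsg.Agent.Lib.Hall.hall_main _ G m n rfl hmn.symm hcop).1
  have hmd : m ∣ d := by
    rw [← Nat.factorization_le_iff_dvd hm0 hd0, hm]
    intro r
    simp only [f, Finsupp.filter_apply]
    by_cases hP : P r
    · simp only [hP, if_true]
      exact hP
    · simp [hP]
  have he0 : d / m ≠ 0 := (Nat.div_pos (Nat.le_of_dvd (Nat.pos_of_ne_zero hd0) hmd)
    (Nat.pos_of_ne_zero hm0)).ne'
  have hdle : ∀ r, d.factorization r ≤ nG.factorization r + nA.factorization r := by
    intro r
    have h1 := (Nat.factorization_le_iff_dvd hd0 (mul_ne_zero hnG0 hnA0)).2 hd r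
    rwa [Nat.factorization_mul hnG0 hnA0] at h1
  have hed : d / m ∣ nA := by
    rw [← Nat.factorization_le_iff_dvd he0 hnA0, Nat.factorization_div hmd, hm]
    intro r
    simp only [Finsupp.coe_tsub, Pi.sub_apply, f, Finsupp.filter_apply]
    have h5 := hdle r
    by_cases hr : r.Prime
    · by_cases hrG : r ∣ nG
      · have h6 := hexp r hr hrG
        by_cases hP : P r
        · simp only [hP, if_true]
          omega
        · simp only [hP, if_false]
          have h7 : ¬ nG.factorization r ≤ d.factorization r := hP
          omega
      · have h6 : nG.factorization r = 0 := Nat.factorization_eq_zero_of_not_dvd hrG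
        have h7 : nA.factorization r = 0 := Nat.factorization_eq_zero_of_not_dvd
          (fun h8 => hrG (hA r hr h8))
        omega
    · have h6 : d.factorization r = 0 := Nat.factorization_eq_zero_of_not_prime d hr
      omega
  have hAss : Cfsg.IsSupersolvable A := isSupersolvable_of_comm
  obtain ⟨E, hE⟩ := Cfsg.Agent.Lib.SuperSolv2.hasSubgroupOfEveryOrder hAss (d / m) hed
  refine ⟨H.prod E, ?_⟩
  have hc : Nat.card (H.prod E) = Nat.card H * Nat.card E :=
    (Nat.card_congr (Subgroup.prodEquiv H E).toEquiv).trans (Nat.card_prod H E)
  rw [hc, hH, hE, Nat.mul_div_cancel' hmd]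

end Cfsg.Agent.S0534
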