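import Mathlib
import Cfsg.Agent.Lib.HallConverse
import Cfsg.Agent.Lib.SysNorm
import Cfsg.Agent.Lib.SuperSolv2
-- Template for statement S0535 (row 535; see /opt/grader/pristine/manifest.json for weights).
-- Copy to Cfsg/Agent/S0535.lean and replace the sorry. The statement below is byte-identical to the frozen
-- statement Cfsg.CfsgFrozen.S0535 (Cfsg/Statements/S0535.lean; the theorem Cfsg.solvable_of_hereditary_prime_power_index_subgroups);
-- the grader kernel-checks Cfsg.Agent.S0535.result against that frozen type. Keep the theorem IN THIS FILE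
-- (a `result` declared elsewhere and merely imported here is not credited); helpers may live anywhere
-- under Cfsg/Agent/.
import Cfsg.Statements.S0535
-- import your own Cfsg.Agent.* helpers here

set_option autoImplicit false
open Cfsg

namespace Cfsg.Agent.S0535

/-- Suppose that for every nontrivial subgroup H of a finite group and every prime p dividing the order of H there is a proper subgroup of H whose index in H is a power of p. Then the group is solvable. -/
theorem result {G : Type*} [Group G] [Finite G] (h : ∀ H : Subgroup G, H ≠ ⊥ → ∀ p : ℕ, p.Prime → p ∣ Nat.card H → ∃ K : Subgroup H, K ≠ ⊤ ∧ ∃ k : ℕ, K.index = p ^ k) : Group.IsSolvable G := by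
  classical
  apply Cfsg.Agent.Lib.HallConverse.isSolvable_of_hall_complements _ G rfl
  intro p hp
  have key : ∀ (n : ℕ) (H : Subgroup G), Nat.card H = n →
      ∃ C : Subgroup G, ¬ p ∣ Nat.card C ∧ ∃ j : ℕ, Nat.card H = p ^ j * Nat.card C := by
    intro n
    induction n using Nat.strong_induction_on with
    | _ n ih =>
      intro H hH
      by_cases hd : p ∣ Nat.card H
      · have hb : H ≠ ⊥ := by
          rintro rfl
          rw [Subgroup.card_bot] at hd
          exact hp.one_lt.ne' (Nat.dvd_one.1 hd)
        obtain ⟨K, hK, k, hk⟩ := h H hb p hp hd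
        have h1 := K.index_mul_card
        rw [hk] at h1
        have hlt : Nat.card (K.map H.subtype) < n := by
          rw [Cfsg.Agent.Lib.SuperSolv2.card_map_subtype, ← hH, ← h1]
          have h2 : 1 < p ^ k := by
            have h3 : K.index ≠ 1 := fun h4 => hK (Subgroup.index_eq_one.1 h4)
            rw [hk] at h3
            have h4 : k ≠ 0 := by
              rintro rfl
              exact h3 (pow_zero p)
            exact Nat.one_lt_pow h4 hp.one_lt
          have h3 : 0 < Nat.card K := Nat.card_pos
          nlinarith
        obtain ⟨C, hC, j, hj⟩ := ih _ hlt _ rfl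
        refine ⟨C, hC, k + j, ?_⟩
        rw [Cfsg.Agent.Lib.SuperSolv2.card_map_subtype] at hj
        rw [← h1, hj, pow_add, mul_assoc]
      · exact ⟨H, hd, 0, by simp⟩
  obtain ⟨C, hC, j, hj⟩ := key _ ⊤ rfl
  rw [Subgroup.card_top] at hj
  refine ⟨C, ?_⟩
  have h1 := C.index_mul_card
  have hfac : (Nat.card G).factorization p = j := by
    rw [hj]
    apply Cfsg.Agent.Lib.SysNorm.factorization_pow_mul_of_coprime hp
    · exact ((Nat.Prime.coprime_iff_not_dvd hp).2 hC).symm
    · exact Nat.card_pos.ne'
  rw [hfac]
  rw [hj] at h1
  exact Nat.eq_of_mul_eq_mul_right Nat.card_pos h1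

end Cfsg.Agent.S0535
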