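import Mathlib
import Cfsg.Agent.S0046
import Cfsg.Agent.Lib.Frat
import Cfsg.Agent.Lib.PComplement
import Cfsg.Agent.Lib.PCore
import Cfsg.Agent.Lib.SuperSolv2
-- Template for statement S0536 (row 536; see /opt/grader/pristine/manifest.json for weights).
-- Copy to Cfsg/Agent/S0536.lean and replace the sorry. The statement below is byte-identical to the frozen
-- statement Cfsg.CfsgFrozen.S0536 (Cfsg/Statements/S0536.lean; the theorem Cfsg.minimal_non_nilpotent_structure);
-- the grader kernel-checks Cfsg.Agent.S0536.result against that frozen type. Keep the theorem IN THIS FILE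
-- (a `result` declared elsewhere and merely imported here is not credited); helpers may live anywhere
-- under Cfsg/Agent/.
import Cfsg.Statements.S0536
-- import your own Cfsg.Agent.* helpers here

set_option autoImplicit false
set_option linter.style.haveILetI false
open Cfsg

namespace Cfsg.Agent.S0536

open Subgroup

variable {G : Type*} [Group G]

theorem index_prime_of_normal_coatom [Finite G] (M : Subgroup G) [M.Normal] (hM : IsCoatom M) :
    M.index.Prime := by
  have hne : M.index ≠ 1 := fun h => hM.1 (Subgroup.index_eq_one.1 h)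
  obtain ⟨p, hp, hd⟩ := Nat.exists_prime_and_dvd hne
  haveI : Fact p.Prime := ⟨hp⟩
  have hd' : p ∣ Nat.card (G ⧸ M) := hd
  obtain ⟨y, hy⟩ := exists_prime_orderOf_dvd_card' p hd'
  have hy1 : y ≠ 1 := by
    rintro rfl
    rw [orderOf_one] at hy
    exact hp.one_lt.ne hy
  set T : Subgroup G := (zpowers y).comap (QuotientGroup.mk' M) with hT
  have hMT : M ≤ T := by
    intro m hm
    rw [hT, Subgroup.mem_comap]
    have : QuotientGroup.mk' M m = 1 := (QuotientGroup.eq_one_iff m).2 hm
    rw [this]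
    exact Subgroup.one_mem _
  have hTne : T ≠ M := by
    intro h
    obtain ⟨g, rfl⟩ := QuotientGroup.mk_surjective y
    have : g ∈ T := by
      rw [hT, Subgroup.mem_comap]
      exact Subgroup.mem_zpowers _
    rw [h] at this
    exact hy1 ((QuotientGroup.eq_one_iff g).2 this)
  have hTtop : T = ⊤ := hM.2 T (lt_of_le_of_ne hMT hTne.symm)
  have hztop : zpowers y = ⊤ := by
    rw [eq_top_iff]
    intro x _
    obtain ⟨g, rfl⟩ := QuotientGroup.mk_surjective x
    have : g ∈ T := hTtop ▸ Subgroup.mem_top g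
    exact this
  have hcard : Nat.card (G ⧸ M) = p := by
    rw [← Subgroup.card_top, ← hztop, Nat.card_zpowers, hy]
  have : M.index = p := hcard
  rw [this]
  exact hp

/-- In a group of prime order quotient, `r`-elements with `r ≠ p` lie in the kernel. -/
theorem mem_of_pow_of_index {M : Subgroup G} [M.Normal] [Finite G] {r k : ℕ} (hr : r.Prime)
    (hrM : ¬ r ∣ M.index) {x : G} (hx : x ^ r ^ k = 1) : x ∈ M := by
  have h1 : ((x : G ⧸ M)) ^ r ^ k = 1 := by
    rw [← QuotientGroup.mk_pow, hx, QuotientGroup.mk_one]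
  have h2 : ((x : G ⧸ M)) ^ M.index = 1 := by
    have : ((x : G ⧸ M)) ^ Nat.card (G ⧸ M) = 1 := pow_card_eq_one'
    exact this
  have hc : Nat.Coprime (r ^ k) M.index :=
    Nat.Coprime.pow_left k ((Nat.Prime.coprime_iff_not_dvd hr).2 hrM)
  have h3 : orderOf (x : G ⧸ M) ∣ Nat.gcd (r ^ k) M.index :=
    Nat.dvd_gcd (orderOf_dvd_of_pow_eq_one h1) (orderOf_dvd_of_pow_eq_one h2)
  rw [hc, Nat.dvd_one, orderOf_eq_one_iff] at h3
  exact (QuotientGroup.eq_one_iff x).1 h3

/-- Elements of nilpotent subgroups with coprime orders commute. -/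
theorem commute_in_nilpotent [Finite G] (T : Subgroup G) (hT : Group.IsNilpotent T) {p : ℕ}
    [Fact p.Prime] {x y : G} (hxT : x ∈ T) (hyT : y ∈ T) (hx : ∃ k : ℕ, x ^ p ^ k = 1)
    (hy : Nat.Coprime (orderOf y) p) : x * y = y * x := by
  have h := Cfsg.Agent.Lib.PComplement.commute_of_isNilpotent (G := T) (p := p)
    (x := ⟨x, hxT⟩) (g := ⟨y, hyT⟩)
    (by
      obtain ⟨k, hk⟩ := hx
      refine ⟨k, Subtype.ext ?_⟩
      simpa using hk)
    (by rwa [Subgroup.orderOf_mk])
  exact congrArg Subtype.val h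

theorem coprime_orderOf_of_mem_sylow [Finite G] {p q : ℕ} [hp : Fact p.Prime] [hq : Fact q.Prime]
    (hne : p ≠ q) (Q : Sylow q G) {y : G} (hy : y ∈ (Q : Subgroup G)) :
    Nat.Coprime (orderOf y) p := by
  obtain ⟨n, hn⟩ := Q.isPGroup' ⟨y, hy⟩
  have h1 : y ^ q ^ n = 1 := by
    have := congrArg Subtype.val hn
    simpa using this
  have h2 : orderOf y ∣ q ^ n := orderOf_dvd_of_pow_eq_one h1
  refine Nat.Coprime.coprime_dvd_left h2 ?_
  apply Nat.Coprime.pow_left
  exact (Nat.coprime_primes hq.out hp.out).2 hne.symm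

theorem exists_pow_of_mem_sylow [Finite G] {p : ℕ} [hp : Fact p.Prime] (P : Sylow p G) {x : G}
    (hx : x ∈ (P : Subgroup G)) : ∃ k : ℕ, x ^ p ^ k = 1 := by
  obtain ⟨n, hn⟩ := P.isPGroup' ⟨x, hx⟩
  refine ⟨n, ?_⟩
  have := congrArg Subtype.val hn
  simpa using this


/-- Structure of minimal non-nilpotent groups: if a finite group is not nilpotent but all its proper subgroups are, then there are distinct primes p and q, a cyclic Sylow p-subgroup P and a normal Sylow q-subgroup Q with G generated by P and Q. -/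
theorem result {G : Type*} [Group G] [Finite G] (hG : Cfsg.IsMinimalNonNilpotent G) : ∃ p q : ℕ, p.Prime ∧ q.Prime ∧ p ≠ q ∧ ∃ (P : Sylow p G) (Q : Sylow q G), IsCyclic P ∧ (Q : Subgroup G).Normal ∧ (P : Subgroup G) ⊔ Q = ⊤ := by
  classical
  obtain ⟨hnn, hprop⟩ := hG
  haveI hsolv : Group.IsSolvable G := Cfsg.Agent.S0046.result (fun M hM => hprop M hM.1)
  haveI hnt : Nontrivial G := by
    by_contra h
    rw [not_nontrivial_iff_subsingleton] at h
    exact hnn inferInstance
  have hlt : commutator G ≠ ⊤ := (Group.IsSolvable.commutator_lt_top_of_nontrivial G).ne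
  obtain ⟨M, hM, hleM⟩ := (eq_top_or_exists_le_coatom (commutator G)).resolve_left hlt
  haveI hMn : M.Normal := Cfsg.Agent.Lib.Frat.normal_of_commutator_le hleM
  have hMp : M.index.Prime := index_prime_of_normal_coatom M hM
  set p := M.index with hpdef
  haveI hfp : Fact p.Prime := ⟨hMp⟩
  haveI hMnil : Group.IsNilpotent M := hprop M hM.1
  have hnorm : ∀ (r : ℕ) [Fact r.Prime], r ≠ p → ∀ R : Sylow r G, (R : Subgroup G).Normal := by
    intro r hr hrp R
    have hrM : ¬ r ∣ M.index := by
      intro h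
      exact hrp ((Nat.prime_dvd_prime_iff_eq hr.out hMp).1 h)
    have hRM : (R : Subgroup G) ≤ M := by
      intro x hx
      obtain ⟨k, hk⟩ := exists_pow_of_mem_sylow R hx
      exact mem_of_pow_of_index hr.out hrM hk
    have hRp : IsPGroup r ((R : Subgroup G).subgroupOf M) :=
      R.isPGroup'.comap_of_injective (M.subtype) M.subtype_injective
    obtain ⟨S, hS⟩ := hRp.exists_le_sylow
    have hSn : (S : Subgroup M).Normal := inferInstance
    haveI : (S : Subgroup M).Characteristic := Sylow.characteristic_of_normal S hSn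
    have hS'n : ((S : Subgroup M).map M.subtype).Normal :=
      Cfsg.Agent.Lib.SuperSolv2.normal_map_subtype_of_characteristic M (S : Subgroup M)
    have hS'p : IsPGroup r ((S : Subgroup M).map M.subtype) := S.isPGroup'.map M.subtype
    have hRS' : (R : Subgroup G) ≤ (S : Subgroup M).map M.subtype := by
      intro x hx
      exact ⟨⟨x, hRM hx⟩, hS hx, rfl⟩
    have heq := R.is_maximal' hS'p hRS'
    rwa [heq] at hS'n
  obtain ⟨P⟩ : Nonempty (Sylow p G) := inferInstance
  have hPnn : ¬ (P : Subgroup G).Normal := by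
    intro hP
    apply hnn
    apply ((Group.isNilpotent_of_finite_tfae (G := G)).out 0 3).2
    intro r hr R
    by_cases hrp : r = p
    · subst hrp
      haveI := Sylow.unique_of_normal P hP
      rw [Subsingleton.elim R P]
      exact hP
    · exact hnorm r hrp R
  have hex : ∃ (q : ℕ) (_ : Fact q.Prime), q ≠ p ∧ ∃ Q : Sylow q G,
      ∃ x ∈ (P : Subgroup G), ∃ y ∈ (Q : Subgroup G), x * y ≠ y * x := by
    by_contra hcon
    push Not at hcon
    apply hPnn
    have htop : normalizer ((P : Subgroup G) : Set G) = ⊤ := by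
      apply Cfsg.Agent.Lib.PCore.eq_top_of_forall_sylow_le
      intro q _
      by_cases hq : q = p
      · subst hq
        exact ⟨P, Subgroup.le_normalizer⟩
      · obtain ⟨Q⟩ : Nonempty (Sylow q G) := inferInstance
        refine ⟨Q, fun y hy => ?_⟩
        rw [Subgroup.mem_normalizer_iff]
        intro x
        have hc := hcon q inferInstance hq Q
        constructor
        · intro hx
          have h1 := hc x hx y hy
          have : y * x * y⁻¹ = x := by rw [← h1]; group
          rw [this]; exact hx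
        · intro hx
          have h1 := hc (y * x * y⁻¹) hx y hy
          have : x = y * x * y⁻¹ := by
            have h2 : y * x * y⁻¹ * y * y⁻¹ = y * (y * x * y⁻¹) * y⁻¹ := by rw [h1]
            have h3 : y * x * y⁻¹ * y * y⁻¹ = y * x * y⁻¹ := by group
            rw [h3] at h2
            have h4 : y⁻¹ * (y * x * y⁻¹) * y = y⁻¹ * (y * (y * x * y⁻¹) * y⁻¹) * y := by rw [← h2]
            have h5 : y⁻¹ * (y * x * y⁻¹) * y = x := by group
            have h6 : y⁻¹ * (y * (y * x * y⁻¹) * y⁻¹) * y = y * x * y⁻¹ := by group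
            rw [h5, h6] at h4
            exact h4
          rw [this]; exact hx
    exact Subgroup.normalizer_eq_top_iff.1 htop
  obtain ⟨q, hfq, hqp, Q, x₀, hx₀, y₀, hy₀, hxy₀⟩ := hex
  have hQn : (Q : Subgroup G).Normal := hnorm q hqp Q
  haveI := hQn
  have hdisj : Disjoint (P : Subgroup G) (Q : Subgroup G) :=
    IsPGroup.disjoint_of_ne p q (Ne.symm hqp) _ _ P.isPGroup' Q.isPGroup'
  have hcent_of_ne : ∀ x ∈ (P : Subgroup G), ∀ T : Subgroup G, T ≠ ⊤ → x ∈ T →
      (Q : Subgroup G) ≤ T → ∀ y ∈ (Q : Subgroup G), x * y = y * x := by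
    intro x hx T hT hxT hQT y hy
    exact commute_in_nilpotent T (hprop T hT) hxT (hQT hy) (exists_pow_of_mem_sylow P hx)
      (coprime_orderOf_of_mem_sylow (Ne.symm hqp) Q hy)
  have hsup : (P : Subgroup G) ⊔ Q = ⊤ := by
    by_contra hT
    exact hxy₀ (hcent_of_ne x₀ hx₀ _ hT ((le_sup_left : (P : Subgroup G) ≤ _) hx₀) le_sup_right
      y₀ hy₀)
  have hcyc : IsCyclic P := by
    by_contra hnc
    have hall : ∀ x ∈ (P : Subgroup G), ∀ y ∈ (Q : Subgroup G), x * y = y * x := by
      intro x hx
      apply hcent_of_ne x hx ((Q : Subgroup G) ⊔ zpowers x) _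
        ((le_sup_right : zpowers x ≤ _) (mem_zpowers x)) le_sup_left
      intro hT
      apply hnc
      refine ⟨⟨x, hx⟩, fun u => ?_⟩
      have hu : (u : G) ∈ (Q : Subgroup G) ⊔ zpowers x := hT ▸ mem_top _
      rw [← SetLike.mem_coe, Subgroup.normal_mul] at hu
      obtain ⟨v, hv, w, hw, hvw⟩ := Set.mem_mul.mp hu
      obtain ⟨i, rfl⟩ := Subgroup.mem_zpowers_iff.mp hw
      have hvP : v ∈ (P : Subgroup G) := by
        have : v = u * (x ^ i)⁻¹ := by rw [← hvw]; group
        rw [this]
        exact (P : Subgroup G).mul_mem u.2 ((P : Subgroup G).inv_mem ((P : Subgroup G).zpow_mem hx i))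
      have hv1 : v = 1 := Subgroup.disjoint_def.1 hdisj hvP hv
      rw [hv1, one_mul] at hvw
      refine Subgroup.mem_zpowers_iff.mpr ⟨i, ?_⟩
      apply Subtype.ext
      simpa using hvw
    exact hxy₀ (hall x₀ hx₀ y₀ hy₀)
  exact ⟨p, q, hMp, hfq.out, Ne.symm hqp, P, Q, hcyc, hQn, hsup⟩

end Cfsg.Agent.S0536
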