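import Mathlib
import Cfsg.Agent.S0536
import Cfsg.Agent.Lib.PCore
-- Template for statement S0537 (row 537; see /opt/grader/pristine/manifest.json for weights).
-- Copy to Cfsg/Agent/S0537.lean and replace the sorry. The statement below is byte-identical to the frozen
-- statement Cfsg.CfsgFrozen.S0537 (Cfsg/Statements/S0537.lean; the theorem Cfsg.minimal_non_abelian_structure);
-- the grader kernel-checks Cfsg.Agent.S0537.result against that frozen type. Keep the theorem IN THIS FILE
-- (a `result` declared elsewhere and merely imported here is not credited); helpers may live anywhere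
-- under Cfsg/Agent/.
import Cfsg.Statements.S0537
-- import your own Cfsg.Agent.* helpers here

set_option autoImplicit false
set_option linter.style.haveILetI false
open Cfsg

namespace Cfsg.Agent.S0537

open Subgroup

variable {G : Type*} [Group G]

theorem isNilpotent_of_forall_comm {H : Type*} [Group H] (h : ∀ a b : H, a * b = b * a) :
    Group.IsNilpotent H := by
  letI : CommGroup H := { (inferInstance : Group H) with mul_comm := h }
  exact CommGroup.isNilpotent

theorem comm_of_mem (H : Subgroup G) (hH : IsMulCommutative H) {a b : G} (ha : a ∈ H)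
    (hb : b ∈ H) : a * b = b * a := by
  have := hH.is_comm.comm ⟨a, ha⟩ ⟨b, hb⟩
  exact congrArg Subtype.val this

theorem isMulCommutative_of_center_eq_top (h : center G = ⊤) : IsMulCommutative G := by
  refine ⟨⟨fun a b => ?_⟩⟩
  have : a ∈ center G := h ▸ mem_top a
  exact (Subgroup.mem_center_iff.1 this b).symm

theorem nilp_case [Finite G] (hnil : Group.IsNilpotent G) (hna : ¬ IsMulCommutative G)
    (h : ∀ H : Subgroup G, H ≠ ⊤ → IsMulCommutative H) : ∃ p : ℕ, p.Prime ∧ IsPGroup p G := by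
  by_contra hcon
  push Not at hcon
  apply hna
  apply isMulCommutative_of_center_eq_top
  have hprop : ∀ (r : ℕ) [Fact r.Prime] (R : Sylow r G), (R : Subgroup G) ≠ ⊤ := by
    intro r hr R hR
    apply hcon r hr.out
    have h1 := R.isPGroup'
    rw [hR] at h1
    intro g
    obtain ⟨k, hk⟩ := h1 ⟨g, mem_top g⟩
    refine ⟨k, ?_⟩
    have := congrArg Subtype.val hk
    simpa using this
  apply Cfsg.Agent.Lib.PCore.eq_top_of_forall_sylow_le
  intro r hr
  obtain ⟨R⟩ : Nonempty (Sylow r G) := inferInstance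
  refine ⟨R, fun x hx => ?_⟩
  rw [Subgroup.mem_center_iff]
  intro y
  have htop : centralizer {x} = ⊤ := by
    apply Cfsg.Agent.Lib.PCore.eq_top_of_forall_sylow_le
    intro s hs
    obtain ⟨S⟩ : Nonempty (Sylow s G) := inferInstance
    refine ⟨S, fun z hz => ?_⟩
    rw [mem_centralizer_singleton_iff]
    by_cases hsr : s = r
    · subst hsr
      have hRn : (R : Subgroup G).Normal := inferInstance
      haveI := Sylow.unique_of_normal R hRn
      rw [Subsingleton.elim S R] at hz
      exact comm_of_mem _ (h _ (hprop s R)) hz hx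
    · have h1 := Cfsg.Agent.Lib.PComplement.commute_of_isNilpotent (G := G) (p := r) (x := x) (g := z)
        (Cfsg.Agent.S0536.exists_pow_of_mem_sylow R hx)
        (Cfsg.Agent.S0536.coprime_orderOf_of_mem_sylow (Ne.symm hsr) S hz)
      exact h1.symm
  have : y ∈ centralizer {x} := htop ▸ mem_top y
  rw [mem_centralizer_singleton_iff] at this
  exact this

/-- The `q`-th powers of an abelian subgroup. -/
def powSub (Q : Subgroup G) (hQ : ∀ a ∈ Q, ∀ b ∈ Q, a * b = b * a) (q : ℕ) : Subgroup G where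
  carrier := {z | ∃ x ∈ Q, x ^ q = z}
  mul_mem' := by
    rintro _ _ ⟨x, hx, rfl⟩ ⟨y, hy, rfl⟩
    exact ⟨x * y, Q.mul_mem hx hy, (Commute.mul_pow (hQ x hx y hy) q)⟩
  one_mem' := ⟨1, Q.one_mem, one_pow q⟩
  inv_mem' := by
    rintro _ ⟨x, hx, rfl⟩
    exact ⟨x⁻¹, Q.inv_mem hx, inv_pow x q⟩

/-- The `q`-torsion of an abelian subgroup. -/
def omegaSub (Q : Subgroup G) (hQ : ∀ a ∈ Q, ∀ b ∈ Q, a * b = b * a) (q : ℕ) : Subgroup G where
  carrier := {z | z ∈ Q ∧ z ^ q = 1}
  mul_mem' := by
    rintro x y ⟨hx, hx'⟩ ⟨hy, hy'⟩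
    exact ⟨Q.mul_mem hx hy, by rw [Commute.mul_pow (hQ x hx y hy), hx', hy', one_mul]⟩
  one_mem' := ⟨Q.one_mem, one_pow q⟩
  inv_mem' := by
    rintro x ⟨hx, hx'⟩
    exact ⟨Q.inv_mem hx, by rw [inv_pow, hx', inv_one]⟩

theorem key [Finite G] (Q P : Subgroup G) [hQn : Q.Normal]
    (hQ : ∀ a ∈ Q, ∀ b ∈ Q, a * b = b * a) (q : ℕ) [Fact q.Prime] (hQq : IsPGroup q Q)
    (hL : ∀ L : Subgroup G, L.Normal → L ≤ Q → L ≠ Q → ∀ l ∈ L, ∀ y ∈ P, y * l = l * y)
    (hcop : ∀ y ∈ P, (orderOf y).Coprime q) (a : G) (ha : a ∈ Q) (ha' : a ^ q ≠ 1) :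
    ∀ y ∈ P, ∀ x ∈ Q, y * x = x * y := by
  set L1 := powSub Q hQ q with hL1def
  set W := omegaSub Q hQ q with hWdef
  have hL1n : L1.Normal :=
    ⟨by rintro _ ⟨x, hx, rfl⟩ g; exact ⟨g * x * g⁻¹, hQn.conj_mem x hx g, conj_pow⟩⟩
  have hWn : W.Normal :=
    ⟨by rintro x ⟨hx, hx'⟩ g; exact ⟨hQn.conj_mem x hx g, by rw [conj_pow, hx']; group⟩⟩
  have hL1le : L1 ≤ Q := by
    rintro _ ⟨x, hx, rfl⟩
    exact Q.pow_mem hx q
  have hWle : W ≤ Q := fun x hx => hx.1
  have hWne : W ≠ Q := by
    intro h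
    apply ha'
    have : a ∈ W := h ▸ ha
    exact this.2
  have hL1ne : L1 ≠ Q := by
    intro h
    have hpow : ∀ n : ℕ, ∀ x ∈ Q, ∃ x' ∈ Q, x' ^ q ^ n = x := by
      intro n
      induction n with
      | zero => intro x hx; exact ⟨x, hx, by simp⟩
      | succ n ih =>
        intro x hx
        obtain ⟨x1, hx1, h1⟩ := ih x hx
        have : x1 ∈ L1 := h ▸ hx1
        obtain ⟨x2, hx2, h2⟩ := this
        exact ⟨x2, hx2, by rw [pow_succ', pow_mul, h2, h1]⟩
    obtain ⟨m, hm⟩ := IsPGroup.iff_card.1 hQq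
    obtain ⟨a1, ha1Q, h3⟩ := hpow m a ha
    have h4 : a1 ^ q ^ m = 1 := by
      have h5 := pow_card_eq_one' (G := Q) (x := ⟨a1, ha1Q⟩)
      rw [hm] at h5
      have := congrArg Subtype.val h5
      simpa using this
    rw [h4] at h3
    apply ha'
    rw [← h3, one_pow]
  have hc1 := hL L1 hL1n hL1le hL1ne
  have hc2 := hL W hWn hWle hWne
  intro y hy x hx
  set u := x⁻¹ * (y * x * y⁻¹) with hu
  have hxc : y * x * y⁻¹ ∈ Q := hQn.conj_mem x hx y
  have huQ : u ∈ Q := Q.mul_mem (Q.inv_mem hx) hxc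
  have huq : u ^ q = 1 := by
    have h1 : y * x ^ q = x ^ q * y := hc1 _ ⟨x, hx, rfl⟩ y hy
    have h2 : (y * x * y⁻¹) ^ q = x ^ q := by
      rw [conj_pow, h1]; group
    rw [hu, Commute.mul_pow (hQ x⁻¹ (Q.inv_mem hx) _ hxc), h2, inv_pow, inv_mul_cancel]
  have huW : u ∈ W := ⟨huQ, huq⟩
  have hyu : y * u = u * y := hc2 u huW y hy
  have hind : ∀ n : ℕ, y ^ n * x * (y ^ n)⁻¹ = x * u ^ n := by
    intro n
    induction n with
    | zero => simp
    | succ n ih =>
      have h1 : y * u ^ n * y⁻¹ = u ^ n := by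
        have : Commute y (u ^ n) := (show Commute y u from hyu).pow_right n
        rw [this.eq]; group
      calc y ^ (n + 1) * x * (y ^ (n + 1))⁻¹ = y * (y ^ n * x * (y ^ n)⁻¹) * y⁻¹ := by
            rw [pow_succ']; group
        _ = y * (x * u ^ n) * y⁻¹ := by rw [ih]
        _ = (y * x * y⁻¹) * (y * u ^ n * y⁻¹) := by group
        _ = x * u * u ^ n := by rw [h1, hu]; group
        _ = x * u ^ (n + 1) := by rw [pow_succ', mul_assoc]
  have h5 := hind (orderOf y)
  rw [pow_orderOf_eq_one, one_mul, inv_one, mul_one] at h5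
  have h6 : u ^ orderOf y = 1 := by
    have := mul_left_cancel (a := x) (b := u ^ orderOf y) (c := 1) (by rw [mul_one]; exact h5.symm)
    exact this
  have h7 : orderOf u ∣ Nat.gcd (orderOf y) q :=
    Nat.dvd_gcd (orderOf_dvd_of_pow_eq_one h6) (orderOf_dvd_of_pow_eq_one huq)
  rw [hcop y hy, Nat.dvd_one, orderOf_eq_one_iff] at h7
  have h8 : y * x * y⁻¹ = x := by
    rw [hu] at h7
    have h9 := (inv_mul_eq_one.1 h7)
    exact h9.symm
  calc y * x = (y * x * y⁻¹) * y := by group
    _ = x * y := by rw [h8]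


/-- A finite non-abelian group in which every proper subgroup is abelian is either of prime-power order, or is generated by a cyclic Sylow p-subgroup and a normal Sylow q-subgroup that is elementary abelian, for distinct primes p and q. -/
theorem result {G : Type*} [Group G] [Finite G] (hna : ¬ IsMulCommutative G) (h : ∀ H : Subgroup G, H ≠ ⊤ → IsMulCommutative H) : (∃ p : ℕ, p.Prime ∧ IsPGroup p G) ∨ ∃ p q : ℕ, p.Prime ∧ q.Prime ∧ p ≠ q ∧ ∃ (P : Sylow p G) (Q : Sylow q G), IsCyclic P ∧ (Q : Subgroup G).Normal ∧ Cfsg.IsElementaryAbelian q (Q : Subgroup G) ∧ (P : Subgroup G) ⊔ Q = ⊤ := by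
  classical
  by_cases hnil : Group.IsNilpotent G
  · exact Or.inl (nilp_case hnil hna h)
  right
  have hmin : Cfsg.IsMinimalNonNilpotent G := by
    refine ⟨hnil, fun H hH => isNilpotent_of_forall_comm ?_⟩
    intro a b
    exact (h H hH).is_comm.comm a b
  obtain ⟨p, q, hp, hq, hne, P, Q, hcyc, hQn, hsup⟩ := Cfsg.Agent.S0536.result hmin
  haveI hfp : Fact p.Prime := ⟨hp⟩
  haveI hfq : Fact q.Prime := ⟨hq⟩
  haveI := hQn
  have hQtop : (Q : Subgroup G) ≠ ⊤ := by
    intro hQ
    apply hnil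
    have h1 : IsPGroup q G := by
      intro g
      obtain ⟨k, hk⟩ := Q.isPGroup' ⟨g, hQ ▸ mem_top g⟩
      refine ⟨k, ?_⟩
      have := congrArg Subtype.val hk
      simpa using this
    exact h1.isNilpotent
  have hQcomm : ∀ a ∈ (Q : Subgroup G), ∀ b ∈ (Q : Subgroup G), a * b = b * a := by
    intro a ha b hb
    exact comm_of_mem _ (h _ hQtop) ha hb
  have hQab : IsMulCommutative (Q : Subgroup G) := h _ hQtop
  refine ⟨p, q, hp, hq, hne, P, Q, hcyc, hQn, ⟨hQab, ?_⟩, hsup⟩
  by_contra hcon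
  push Not at hcon
  obtain ⟨a, ha, ha'⟩ := hcon
  have hdisj : Disjoint (P : Subgroup G) (Q : Subgroup G) :=
    IsPGroup.disjoint_of_ne p q hne _ _ P.isPGroup' Q.isPGroup'
  have hL : ∀ L : Subgroup G, L.Normal → L ≤ (Q : Subgroup G) → L ≠ (Q : Subgroup G) →
      ∀ l ∈ L, ∀ y ∈ (P : Subgroup G), y * l = l * y := by
    intro L hLn hLQ hLne l hl y hy
    haveI := hLn
    have hT : L ⊔ (P : Subgroup G) ≠ ⊤ := by
      intro hT
      apply hLne
      apply le_antisymm hLQ
      intro x hx
      have hu : x ∈ L ⊔ (P : Subgroup G) := hT ▸ mem_top _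
      rw [← SetLike.mem_coe, Subgroup.normal_mul] at hu
      obtain ⟨v, hv, w, hw, hvw⟩ := Set.mem_mul.mp hu
      have hwQ : w ∈ (Q : Subgroup G) := by
        have : w = v⁻¹ * x := by rw [← hvw]; group
        rw [this]
        exact (Q : Subgroup G).mul_mem ((Q : Subgroup G).inv_mem (hLQ hv)) hx
      have hw1 : w = 1 := Subgroup.disjoint_def.1 hdisj hw hwQ
      rw [hw1, mul_one] at hvw
      rw [← hvw]
      exact hv
    exact comm_of_mem _ (h _ hT) ((le_sup_right : (P : Subgroup G) ≤ _) hy)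
      ((le_sup_left : L ≤ _) hl)
  have hcop : ∀ y ∈ (P : Subgroup G), (orderOf y).Coprime q := fun y hy =>
    Cfsg.Agent.S0536.coprime_orderOf_of_mem_sylow (Ne.symm hne) P hy
  have hcent := key (Q : Subgroup G) (P : Subgroup G) hQcomm q Q.isPGroup' hL hcop a ha ha'
  -- `P` centralizes `Q`: the group is abelian
  apply hna
  apply isMulCommutative_of_center_eq_top
  have hPcomm : ∀ a ∈ (P : Subgroup G), ∀ b ∈ (P : Subgroup G), a * b = b * a := by
    intro a ha b hb
    have := (IsCyclic.commGroup (α := P)).mul_comm ⟨a, ha⟩ ⟨b, hb⟩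
    exact congrArg Subtype.val this
  rw [eq_top_iff, ← hsup, sup_le_iff]
  constructor
  · intro y hy
    rw [Subgroup.mem_center_iff]
    intro g
    have htop : centralizer {y} = ⊤ := by
      rw [eq_top_iff, ← hsup, sup_le_iff]
      constructor
      · intro z hz
        rw [mem_centralizer_singleton_iff]
        exact hPcomm z hz y hy
      · intro z hz
        rw [mem_centralizer_singleton_iff]
        exact (hcent y hy z hz).symm
    have : g ∈ centralizer {y} := htop ▸ mem_top g
    rw [mem_centralizer_singleton_iff] at this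
    exact this
  · intro x hx
    rw [Subgroup.mem_center_iff]
    intro g
    have htop : centralizer {x} = ⊤ := by
      rw [eq_top_iff, ← hsup, sup_le_iff]
      constructor
      · intro z hz
        rw [mem_centralizer_singleton_iff]
        exact hcent z hz x hx
      · intro z hz
        rw [mem_centralizer_singleton_iff]
        exact hQcomm z hz x hx
    have : g ∈ centralizer {x} := htop ▸ mem_top g
    rw [mem_centralizer_singleton_iff] at this
    exact this

end Cfsg.Agent.S0537
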