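import Mathlib
import Cfsg.Agent.Lib.Subnormal
-- Template for statement S0538 (row 538; see /opt/grader/pristine/manifest.json for weights).
-- Copy to Cfsg/Agent/S0538.lean and replace the sorry. The statement below is byte-identical to the frozen
-- statement Cfsg.CfsgFrozen.S0538 (Cfsg/Statements/S0538.lean; the theorem Cfsg.subnormal_sup);
-- the grader kernel-checks Cfsg.Agent.S0538.result against that frozen type. Keep the theorem IN THIS FILE
-- (a `result` declared elsewhere and merely imported here is not credited); helpers may live anywhere
-- under Cfsg/Agent/.
import Cfsg.Statements.S0538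
-- import your own Cfsg.Agent.* helpers here

set_option autoImplicit false
open Cfsg

namespace Cfsg.Agent.S0538

/-- The join of two subnormal subgroups of a finite group is subnormal. -/
theorem result {G : Type*} [Group G] [Finite G] (A B : Subgroup G) (hA : A.IsSubnormal) (hB : B.IsSubnormal) : (A ⊔ B).IsSubnormal := by
  exact Cfsg.Agent.Lib.Subnormal.sup_isSubnormal A B hA hB

end Cfsg.Agent.S0538
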