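import Mathlib
import Cfsg.Agent.Lib.Subnormal2
-- Template for statement S0542 (row 542; see /opt/grader/pristine/manifest.json for weights).
-- Copy to Cfsg/Agent/S0542.lean and replace the sorry. The statement below is byte-identical to the frozen
-- statement Cfsg.CfsgFrozen.S0542 (Cfsg/Statements/S0542.lean; the theorem Cfsg.subnormal_inf_sylow);
-- the grader kernel-checks Cfsg.Agent.S0542.result against that frozen type. Keep the theorem IN THIS FILE
-- (a `result` declared elsewhere and merely imported here is not credited); helpers may live anywhere
-- under Cfsg/Agent/.
import Cfsg.Statements.S0542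
-- import your own Cfsg.Agent.* helpers here

set_option autoImplicit false
open Cfsg

namespace Cfsg.Agent.S0542

/-- A Sylow p-subgroup of a finite group meets every subnormal subgroup H in a Sylow p-subgroup of H. -/
theorem result {G : Type*} [Group G] [Finite G] (p : ℕ) [Fact p.Prime] (H : Subgroup G) (hH : H.IsSubnormal) (S : Sylow p G) : ∃ Q : Sylow p H, (Q : Subgroup H) = (S : Subgroup G).subgroupOf H := by
  exact Cfsg.Agent.Lib.Subnormal2.exists_sylow_of_subnormal p H hH S

end Cfsg.Agent.S0542
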