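import Mathlib
import Cfsg.Agent.Lib.SysNorm
-- Template for statement S0543 (row 543; see /opt/grader/pristine/manifest.json for weights).
-- Copy to Cfsg/Agent/S0543.lean and replace the sorry. The statement below is byte-identical to the frozen
-- statement Cfsg.CfsgFrozen.S0543 (Cfsg/Statements/S0543.lean; the theorem Cfsg.complement_systems_conjugate);
-- the grader kernel-checks Cfsg.Agent.S0543.result against that frozen type. Keep the theorem IN THIS FILE
-- (a `result` declared elsewhere and merely imported here is not credited); helpers may live anywhere
-- under Cfsg/Agent/.
import Cfsg.Statements.S0543
-- import your own Cfsg.Agent.* helpers here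

set_option autoImplicit false
open Pointwise
open Cfsg

namespace Cfsg.Agent.S0543

/-- In a finite solvable group any two Hall complement systems are simultaneously conjugate: one element conjugates every member of the first system to the corresponding member of the second. -/
theorem result {G : Type*} [Group G] [Finite G] [Group.IsSolvable G] (K L : Nat.Primes → Subgroup G) (hK : Cfsg.IsComplementSystem K) (hL : Cfsg.IsComplementSystem L) : ∃ g : G, ∀ p : Nat.Primes, MulAut.conj g • K p = L p := by
  exact Cfsg.Agent.Lib.SysNorm.exists_conj_systems K L hK hL

end Cfsg.Agent.S0543
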