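import Mathlib
import Cfsg.Agent.Lib.SysNorm
-- Template for statement S0544 (row 544; see /opt/grader/pristine/manifest.json for weights).
-- Copy to Cfsg/Agent/S0544.lean and replace the sorry. The statement below is byte-identical to the frozen
-- statement Cfsg.CfsgFrozen.S0544 (Cfsg/Statements/S0544.lean; the theorem Cfsg.system_normalizer_nilpotent);
-- the grader kernel-checks Cfsg.Agent.S0544.result against that frozen type. Keep the theorem IN THIS FILE
-- (a `result` declared elsewhere and merely imported here is not credited); helpers may live anywhere
-- under Cfsg/Agent/.
import Cfsg.Statements.S0544
-- import your own Cfsg.Agent.* helpers here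

set_option autoImplicit false
open Cfsg

namespace Cfsg.Agent.S0544

/-- In a finite solvable group the intersection of the normalizers of the members of a Hall complement system is a nilpotent subgroup. -/
theorem result {G : Type*} [Group G] [Finite G] [Group.IsSolvable G] (K : Nat.Primes → Subgroup G) (hK : Cfsg.IsComplementSystem K) : Group.IsNilpotent (Cfsg.systemNormalizer K) := by
  exact Cfsg.Agent.Lib.SysNorm.isNilpotent_systemNormalizer hK

end Cfsg.Agent.S0544
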