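import Mathlib
import Cfsg.Agent.Lib.SysNorm
-- Template for statement S0545 (row 545; see /opt/grader/pristine/manifest.json for weights).
-- Copy to Cfsg/Agent/S0545.lean and replace the sorry. The statement below is byte-identical to the frozen
-- statement Cfsg.CfsgFrozen.S0545 (Cfsg/Statements/S0545.lean; the theorem Cfsg.system_normalizer_map_quotient);
-- the grader kernel-checks Cfsg.Agent.S0545.result against that frozen type. Keep the theorem IN THIS FILE
-- (a `result` declared elsewhere and merely imported here is not credited); helpers may live anywhere
-- under Cfsg/Agent/.
import Cfsg.Statements.S0545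
-- import your own Cfsg.Agent.* helpers here

set_option autoImplicit false
open Cfsg

namespace Cfsg.Agent.S0545

/-- Let K be a Hall complement system of a finite solvable group G and N a normal subgroup. Then the images of the K p in G modulo N form a Hall complement system of the quotient, and its system normalizer is the image of the system normalizer of K. -/
theorem result {G : Type*} [Group G] [Finite G] [Group.IsSolvable G] (K : Nat.Primes → Subgroup G) (hK : Cfsg.IsComplementSystem K) (N : Subgroup G) [N.Normal] : Cfsg.IsComplementSystem (fun p => (K p).map (QuotientGroup.mk' N)) ∧ Cfsg.systemNormalizer (fun p => (K p).map (QuotientGroup.mk' N)) = (Cfsg.systemNormalizer K).map (QuotientGroup.mk' N) := by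
  exact ⟨Cfsg.Agent.Lib.SysNorm.isComplementSystem_map _ (QuotientGroup.mk'_surjective N) hK,
    Cfsg.Agent.Lib.SysNorm.systemNormalizer_map K hK N⟩

end Cfsg.Agent.S0545
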