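import Mathlib
import Cfsg.Agent.Lib.CoreFree
-- Template for statement S0549 (row 549; see /opt/grader/pristine/manifest.json for weights).
-- Copy to Cfsg/Agent/S0549.lean and replace the sorry. The statement below is byte-identical to the frozen
-- statement Cfsg.CfsgFrozen.S0549 (Cfsg/Statements/S0549.lean; the theorem Cfsg.corefree_maximal_centralizer_of_normal);
-- the grader kernel-checks Cfsg.Agent.S0549.result against that frozen type. Keep the theorem IN THIS FILE
-- (a `result` declared elsewhere and merely imported here is not credited); helpers may live anywhere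
-- under Cfsg/Agent/.
import Cfsg.Statements.S0549
-- import your own Cfsg.Agent.* helpers here

set_option autoImplicit false
open Cfsg

namespace Cfsg.Agent.S0549

/-- Let U be a maximal subgroup of a finite group G whose normal core is trivial, and N a nontrivial normal subgroup with centralizer C. Then C ∩ U = 1, and either C = 1 or C is a minimal normal subgroup of G. -/
theorem result {G : Type*} [Group G] [Finite G] (U : Subgroup G) (hU : IsCoatom U) (hcore : U.normalCore = ⊥) (N : Subgroup G) [N.Normal] (hN : N ≠ ⊥) : Subgroup.centralizer (N : Set G) ⊓ U = ⊥ ∧ (Subgroup.centralizer (N : Set G) = ⊥ ∨ (Subgroup.centralizer (N : Set G) ≠ ⊥ ∧ ∀ K : Subgroup G, K.Normal → K ≤ Subgroup.centralizer (N : Set G) → K = ⊥ ∨ K = Subgroup.centralizer (N : Set G))) := by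
  refine ⟨Cfsg.Agent.Lib.CoreFree.centralizer_inf_eq_bot hU hcore hN, ?_⟩
  by_cases hC : Subgroup.centralizer (N : Set G) = ⊥
  · exact Or.inl hC
  · exact Or.inr ⟨hC, fun K hK hKC => Cfsg.Agent.Lib.CoreFree.eq_bot_or_eq_centralizer hU hcore hN hK hKC⟩

end Cfsg.Agent.S0549
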