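import Mathlib
import Cfsg.Agent.Lib.CoreFree2
-- Template for statement S0551 (row 551; see /opt/grader/pristine/manifest.json for weights).
-- Copy to Cfsg/Agent/S0551.lean and replace the sorry. The statement below is byte-identical to the frozen
-- statement Cfsg.CfsgFrozen.S0551 (Cfsg/Statements/S0551.lean; the theorem Cfsg.solvable_corefree_maximal_subgroups_conjugate);
-- the grader kernel-checks Cfsg.Agent.S0551.result against that frozen type. Keep the theorem IN THIS FILE
-- (a `result` declared elsewhere and merely imported here is not credited); helpers may live anywhere
-- under Cfsg/Agent/.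
import Cfsg.Statements.S0551
-- import your own Cfsg.Agent.* helpers here

set_option autoImplicit false
open Pointwise
open Cfsg

namespace Cfsg.Agent.S0551

/-- In a finite solvable group all core-free maximal subgroups are conjugate. -/
theorem result {G : Type*} [Group G] [Finite G] [Group.IsSolvable G] (U V : Subgroup G) (hU : IsCoatom U) (hV : IsCoatom V) (hUc : U.normalCore = ⊥) (hVc : V.normalCore = ⊥) : ∃ g : G, MulAut.conj g • U = V := by
  exact Cfsg.Agent.Lib.CoreFree2.coreFree_conj U V hU hV hUc hVc

end Cfsg.Agent.S0551
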