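import Mathlib
import Cfsg.Agent.Lib.PCore
-- Template for statement S0552 (row 552; see /opt/grader/pristine/manifest.json for weights).
-- Copy to Cfsg/Agent/S0552.lean and replace the sorry. The statement below is byte-identical to the frozen
-- statement Cfsg.CfsgFrozen.S0552 (Cfsg/Statements/S0552.lean; the theorem Cfsg.solvable_aut_fixing_fitting_order_not_coprime);
-- the grader kernel-checks Cfsg.Agent.S0552.result against that frozen type. Keep the theorem IN THIS FILE
-- (a `result` declared elsewhere and merely imported here is not credited); helpers may live anywhere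
-- under Cfsg/Agent/.
import Cfsg.Statements.S0552
-- import your own Cfsg.Agent.* helpers here

set_option autoImplicit false
open Cfsg

namespace Cfsg.Agent.S0552

/-- Let σ be an automorphism of a finite solvable group G fixing every element of the Fitting subgroup. If σ is not the identity then the order of σ and the order of G have a common prime factor. -/
theorem result {G : Type*} [Group G] [Finite G] [Group.IsSolvable G] (σ : G ≃* G) (hσ : ∀ x ∈ Cfsg.fittingSubgroup G, σ x = x) (hne : σ ≠ MulEquiv.refl G) : ¬ (orderOf σ).Coprime (Nat.card G) := by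
  intro hcop
  apply hne
  have hC := Cfsg.Agent.Lib.PCore.centralizer_fittingSubgroup_le (G := G)
  have hFn : (Cfsg.fittingSubgroup G).Normal := inferInstance
  ext g
  set z := g⁻¹ * σ g with hz
  have hz1 : z ∈ Subgroup.centralizer ((Cfsg.fittingSubgroup G : Subgroup G) : Set G) := by
    apply Subgroup.mem_centralizer_iff.2
    intro x hx
    have h1 : g * x * g⁻¹ ∈ Cfsg.fittingSubgroup G := hFn.conj_mem x hx g
    have h2 := hσ _ h1
    rw [map_mul, map_mul, map_inv, hσ x hx] at h2
    have h3 : σ g * x = g * x * g⁻¹ * σ g := by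
      rw [← h2]; group
    rw [hz]
    calc x * (g⁻¹ * σ g) = g⁻¹ * (g * x * g⁻¹ * σ g) := by group
      _ = g⁻¹ * (σ g * x) := by rw [h3]
      _ = g⁻¹ * σ g * x := by group
  have hzF : z ∈ Cfsg.fittingSubgroup G := hC hz1
  have hσz : σ z = z := hσ z hzF
  have hgz : σ g = g * z := by rw [hz]; group
  have hpow : ∀ n : ℕ, (σ ^ n) g = g * z ^ n := by
    intro n
    induction n with
    | zero => simp
    | succ n ih =>
      rw [pow_succ', MulAut.mul_apply, ih, map_mul, map_pow, hσz, hgz, pow_succ', mul_assoc]
  have h1 : z ^ orderOf σ = 1 := by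
    have h2 := hpow (orderOf σ)
    rw [pow_orderOf_eq_one] at h2
    have h3 : g = g * z ^ orderOf σ := h2
    exact (mul_eq_left.1 h3.symm)
  have h2 : orderOf z ∣ orderOf σ := orderOf_dvd_of_pow_eq_one h1
  have h3 : orderOf z ∣ Nat.card G := orderOf_dvd_natCard z
  have h4 : orderOf z = 1 := Nat.eq_one_of_dvd_coprimes hcop h2 h3
  rw [orderOf_eq_one_iff] at h4
  rw [hgz, h4, mul_one]
  rfl

end Cfsg.Agent.S0552
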