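import Mathlib
import Cfsg.Agent.Lib.CoreFree2
-- Template for statement S0553 (row 553; see /opt/grader/pristine/manifest.json for weights).
-- Copy to Cfsg/Agent/S0553.lean and replace the sorry. The statement below is byte-identical to the frozen
-- statement Cfsg.CfsgFrozen.S0553 (Cfsg/Statements/S0553.lean; the theorem Cfsg.solvable_maximal_coprime_order_index_normal_sylow);
-- the grader kernel-checks Cfsg.Agent.S0553.result against that frozen type. Keep the theorem IN THIS FILE
-- (a `result` declared elsewhere and merely imported here is not credited); helpers may live anywhere
-- under Cfsg/Agent/.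
import Cfsg.Statements.S0553
-- import your own Cfsg.Agent.* helpers here

set_option autoImplicit false
open Cfsg

namespace Cfsg.Agent.S0553

/-- Let G be a nontrivial finite solvable group in which every maximal subgroup has order coprime to its index. Then for some prime p dividing the order of G the Sylow p-subgroups of G are normal. -/
theorem result {G : Type*} [Group G] [Finite G] [Group.IsSolvable G] [Nontrivial G] (h : ∀ M : Subgroup G, IsCoatom M → (Nat.card M).Coprime M.index) : ∃ p : ℕ, p.Prime ∧ p ∣ Nat.card G ∧ ∀ P : Sylow p G, (P : Subgroup G).Normal := by
  exact Cfsg.Agent.Lib.CoreFree2.exists_normal_sylow_of_coprime_coatoms h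

end Cfsg.Agent.S0553
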