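import Mathlib
-- Template for statement S0555 (row 555; see /opt/grader/pristine/manifest.json for weights).
-- Copy to Cfsg/Agent/S0555.lean and replace the sorry. The statement below is byte-identical to the frozen
-- statement Cfsg.CfsgFrozen.S0555 (Cfsg/Statements/S0555.lean; the theorem Cfsg.derived_series_two_consecutive_cyclic_factors);
-- the grader kernel-checks Cfsg.Agent.S0555.result against that frozen type. Keep the theorem IN THIS FILE
-- (a `result` declared elsewhere and merely imported here is not credited); helpers may live anywhere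
-- under Cfsg/Agent/.
import Cfsg.Statements.S0555
-- import your own Cfsg.Agent.* helpers here

set_option autoImplicit false
open Cfsg

namespace Cfsg.Agent.S0555

open scoped commutatorElement

theorem exists_zpow_of_isCyclic {G : Type*} [Group G] (H N : Subgroup G) [N.Normal]
    (h : IsCyclic (H ⧸ N.subgroupOf H)) :
    ∃ c ∈ H, ∀ a ∈ H, ∃ n : ℤ, (c ^ n)⁻¹ * a ∈ N := by
  obtain ⟨g, hg⟩ := h.exists_generator
  obtain ⟨c, rfl⟩ := QuotientGroup.mk_surjective g
  refine ⟨c, c.2, fun a ha => ?_⟩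
  obtain ⟨n, hn⟩ := Subgroup.mem_zpowers_iff.1 (hg (QuotientGroup.mk (⟨a, ha⟩ : H)))
  refine ⟨n, ?_⟩
  have h1 : ((c ^ n : H) : H ⧸ N.subgroupOf H) = (QuotientGroup.mk (⟨a, ha⟩ : H)) := by
    rw [← hn]; rfl
  have h2 := QuotientGroup.eq.1 h1
  rw [Subgroup.mem_subgroupOf] at h2
  simpa using h2

theorem commute_commutator_of_conj {Q : Type*} [Group Q] (c : Q)
    (hconj : ∀ x : Q, ∃ m : ℤ, x * c * x⁻¹ = c ^ m) (x y : Q) :
    ⁅x, y⁆ * c * ⁅x, y⁆⁻¹ = c := by
  obtain ⟨m1, hy⟩ := hconj y⁻¹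
  obtain ⟨m2, hx⟩ := hconj x⁻¹
  rw [inv_inv] at hy hx
  have hy' : y * c ^ m1 * y⁻¹ = c := by rw [← hy]; group
  have hx' : x * c ^ m2 * x⁻¹ = c := by rw [← hx]; group
  calc ⁅x, y⁆ * c * ⁅x, y⁆⁻¹
      = x * y * (x⁻¹ * (y⁻¹ * c * y) * x) * y⁻¹ * x⁻¹ := by
        simp only [commutatorElement_def]; group
    _ = x * y * ((x⁻¹ * c * x) ^ m1) * y⁻¹ * x⁻¹ := by
        rw [hy]
        have := (conj_zpow (a := x⁻¹) (b := c) (i := m1))
        rw [inv_inv] at this
        rw [this]
    _ = x * y * (c ^ m2) ^ m1 * y⁻¹ * x⁻¹ := by rw [hx]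
    _ = x * (y * (c ^ m1) ^ m2 * y⁻¹) * x⁻¹ := by
        rw [← zpow_mul, ← zpow_mul, mul_comm m2 m1]; group
    _ = x * (y * c ^ m1 * y⁻¹) ^ m2 * x⁻¹ := by rw [conj_zpow]
    _ = x * c ^ m2 * x⁻¹ := by rw [hy']
    _ = c := hx'

theorem core {G : Type*} [Group G] (A1 A B : Subgroup G) [hA : A.Normal] [hB : B.Normal]
    (hA1 : A1 ≤ commutator G) (hAeq : A = ⁅A1, A1⁆)
    (h₁ : IsCyclic (A1 ⧸ A.subgroupOf A1)) (h₂ : IsCyclic (A ⧸ B.subgroupOf A)) : A ≤ B := by
  obtain ⟨c, hcA, hc⟩ := exists_zpow_of_isCyclic A B h₂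
  obtain ⟨b, hbA1, hb⟩ := exists_zpow_of_isCyclic A1 A h₁
  set q := QuotientGroup.mk' B with hq
  have hqs : Function.Surjective q := QuotientGroup.mk'_surjective B
  have hgen : ∀ a ∈ A, ∃ n : ℤ, q a = q c ^ n := by
    intro a ha
    obtain ⟨n, hn⟩ := hc a ha
    refine ⟨n, ?_⟩
    have : q ((c ^ n)⁻¹ * a) = 1 := by
      rw [hq, QuotientGroup.mk'_apply, QuotientGroup.eq_one_iff]; exact hn
    rw [map_mul, map_inv, map_zpow, inv_mul_eq_one] at this
    exact this.symm
  have hconj : ∀ x : G ⧸ B, ∃ m : ℤ, x * q c * x⁻¹ = q c ^ m := by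
    intro x
    obtain ⟨g, rfl⟩ := hqs x
    obtain ⟨m, hm⟩ := hgen (g * c * g⁻¹) (hA.conj_mem c hcA g)
    refine ⟨m, ?_⟩
    rw [← hm, map_mul, map_mul, map_inv]
  have hcomm : ∀ u ∈ A1, Commute (q u) (q c) := by
    intro u hu
    have hle : commutator G ≤ (Subgroup.centralizer {q c}).comap q := by
      rw [commutator_def, Subgroup.commutator_le]
      intro x _ y _
      rw [Subgroup.mem_comap, Subgroup.mem_centralizer_singleton_iff, map_commutatorElement]
      have := commute_commutator_of_conj (q c) hconj (q x) (q y)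
      rw [mul_inv_eq_iff_eq_mul] at this
      exact this
    have h1 := hle (hA1 hu)
    rw [Subgroup.mem_comap, Subgroup.mem_centralizer_singleton_iff] at h1
    exact h1
  have hdecomp : ∀ u ∈ A1, ∃ n k : ℤ, q u = q b ^ n * q c ^ k := by
    intro u hu
    obtain ⟨n, hn⟩ := hb u hu
    obtain ⟨k, hk⟩ := hgen _ hn
    refine ⟨n, k, ?_⟩
    rw [map_mul, map_inv, map_zpow] at hk
    rw [← hk]; group
  rw [hAeq, Subgroup.commutator_le]
  intro u hu v hv
  rw [← QuotientGroup.ker_mk' B, MonoidHom.mem_ker]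
  change q ⁅u, v⁆ = 1
  rw [map_commutatorElement, commutatorElement_eq_one_iff_commute]
  obtain ⟨n1, k1, h1⟩ := hdecomp u hu
  obtain ⟨n2, k2, h2⟩ := hdecomp v hv
  rw [h1, h2]
  have hbc : Commute (q b) (q c) := hcomm b hbA1
  apply Commute.mul_left
  · apply Commute.mul_right
    · exact (Commute.refl (q b)).zpow_zpow _ _
    · exact hbc.zpow_zpow _ _
  · apply Commute.mul_right
    · exact hbc.symm.zpow_zpow _ _
    · exact (Commute.refl (q c)).zpow_zpow _ _


/-- Let i ≥ 1. If in the derived series of a group the quotient of the i-th term by the (i+1)-st and the quotient of the (i+1)-st by the (i+2)-nd are both cyclic, then the (i+1)-st and (i+2)-nd terms coincide. -/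
theorem result {G : Type*} [Group G] (i : ℕ) (hi : 1 ≤ i) (h₁ : IsCyclic (↥(derivedSeries G i) ⧸ (derivedSeries G (i + 1)).subgroupOf (derivedSeries G i))) (h₂ : IsCyclic (↥(derivedSeries G (i + 1)) ⧸ (derivedSeries G (i + 2)).subgroupOf (derivedSeries G (i + 1)))) : derivedSeries G (i + 1) = derivedSeries G (i + 2) := by
  obtain ⟨j, rfl⟩ : ∃ j, i = j + 1 := ⟨i - 1, by omega⟩
  have hle : derivedSeries G (j + 1) ≤ commutator G := by
    have : derivedSeries G (j + 1) ≤ derivedSeries G 1 := derivedSeries_antitone G (by omega)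
    simpa using this
  have hBA : derivedSeries G (j + 1 + 2) ≤ derivedSeries G (j + 1 + 1) :=
    derivedSeries_antitone G (by omega)
  apply le_antisymm _ hBA
  exact core _ _ _ hle rfl h₁ h₂

end Cfsg.Agent.S0555
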