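import Mathlib
import Cfsg.Statements.S0561
import Cfsg.Agent.Lib.Hall
import Cfsg.Agent.Lib.Factorized
import Cfsg.Agent.S0581

set_option autoImplicit false
set_option linter.style.haveILetI false
open Cfsg

namespace Cfsg.Agent.S0561

open Subgroup Cfsg.Agent.Lib.Factorized
open scoped Pointwise
open Cfsg.Agent.S0581 (card_conj)

variable {G : Type*} [Group G]

theorem conj_eq_of_normal {A H : Subgroup G} (hA : A ≤ H) (hAn : (A.subgroupOf H).Normal) {h : G}
    (hh : h ∈ H) : MulAut.conj h • A = A := by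
  have key : ∀ {k : G}, k ∈ H → ∀ {a : G}, a ∈ A → k * a * k⁻¹ ∈ A := by
    intro k hk a ha
    have h1 : (⟨a, hA ha⟩ : H) ∈ A.subgroupOf H := ha
    have h2 := hAn.conj_mem _ h1 ⟨k, hk⟩
    exact h2
  ext a
  rw [mem_conj_iff]
  constructor
  · intro h1
    have := key hh h1
    have h2 : h * (h⁻¹ * a * h) * h⁻¹ = a := by group
    rwa [h2] at this
  · intro h1
    have := key (H.inv_mem hh) h1
    rwa [inv_inv] at this

theorem conj_mul_conj (w : G) (s t : Subgroup G) :
    ((MulAut.conj w • s : Subgroup G) : Set G) * ((MulAut.conj w • t : Subgroup G) : Set G) =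
      (fun g => w * g * w⁻¹) '' ((s : Set G) * (t : Set G)) := by
  ext g
  constructor
  · rintro ⟨a, ha, b, hb, rfl⟩
    have ha' : w⁻¹ * a * w ∈ s := mem_conj_iff.mp ha
    have hb' : w⁻¹ * b * w ∈ t := mem_conj_iff.mp hb
    refine ⟨(w⁻¹ * a * w) * (w⁻¹ * b * w), ⟨_, ha', _, hb', rfl⟩, ?_⟩
    group
  · rintro ⟨_, ⟨a, ha, b, hb, rfl⟩, rfl⟩
    refine ⟨w * a * w⁻¹, ?_, w * b * w⁻¹, ?_, ?_⟩
    · show w * a * w⁻¹ ∈ MulAut.conj w • s
      rw [mem_conj_iff]
      have : w⁻¹ * (w * a * w⁻¹) * w = a := by group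
      rw [this]; exact ha
    · show w * b * w⁻¹ ∈ MulAut.conj w • t
      rw [mem_conj_iff]
      have : w⁻¹ * (w * b * w⁻¹) * w = b := by group
      rw [this]; exact hb
    · group

/-- Let the finite solvable group G be the product HK of subgroups, and let A be normal in H and B normal in K, where A and B are Hall subgroups of G (order coprime to index). Then for all x, y the product set of xAx⁻¹ and yBy⁻¹ is a subgroup of G. -/
theorem result {G : Type*} [Group G] [Finite G] [Group.IsSolvable G] (H K A B : Subgroup G) (hHK : ∀ g : G, ∃ h ∈ H, ∃ k ∈ K, g = h * k) (hA : A ≤ H) (hAn : (A.subgroupOf H).Normal) (hB : B ≤ K) (hBn : (B.subgroupOf K).Normal) (hAh : (Nat.card A).Coprime A.index) (hBh : (Nat.card B).Coprime B.index) (x y : G) : ∃ S : Subgroup G, (S : Set G) = ((MulAut.conj x • A : Subgroup G) : Set G) * ((MulAut.conj y • B : Subgroup G) : Set G) := by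
  classical
  -- every product is a conjugate of `A B`
  have hshift : ∀ x y : G, ∃ w : G, ((MulAut.conj x • A : Subgroup G) : Set G) * ((MulAut.conj y • B : Subgroup G) : Set G) =
      (fun g => w * g * w⁻¹) '' ((A : Set G) * (B : Set G)) := by
    intro x y
    obtain ⟨k, hk, h, hh, hz⟩ := exists_mul_swap hHK (y⁻¹ * x)
    refine ⟨y * k, ?_⟩
    rw [← conj_mul_conj]
    have hx : x = y * k * h := by
      rw [mul_assoc, ← hz]; group
    have e1 : MulAut.conj x • A = MulAut.conj (y * k) • A := by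
      rw [hx, map_mul, mul_smul, conj_eq_of_normal hA hAn hh]
    have hy : y = y * k * k⁻¹ := by group
    have e2 : MulAut.conj y • B = MulAut.conj (y * k) • B := by
      conv_lhs => rw [hy, map_mul, mul_smul, conj_eq_of_normal hB hBn (K.inv_mem hk)]
    rw [e1, e2]
  -- the numbers
  set a := Nat.card A with ha
  set b := Nat.card B with hb
  set n := Nat.card G with hn
  set m := Nat.lcm a b with hm
  have ham : a ∣ m := Nat.dvd_lcm_left a b
  have hbm : b ∣ m := Nat.dvd_lcm_right a b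
  have hmn : m ∣ n := Nat.lcm_dvd (Subgroup.card_subgroup_dvd_card A) (Subgroup.card_subgroup_dvd_card B)
  obtain ⟨n', hn'⟩ := hmn
  have hca : a.Coprime n' := by
    obtain ⟨c, hc⟩ := ham
    have h1 : a * A.index = a * (c * n') := by
      rw [A.card_mul_index, ← hn, hn', hc, mul_assoc]
    have h2 : A.index = c * n' := Nat.eq_of_mul_eq_mul_left Nat.card_pos h1
    exact Nat.Coprime.coprime_dvd_right (h2 ▸ Dvd.intro_left c rfl) hAh
  have hcb : b.Coprime n' := by
    obtain ⟨c, hc⟩ := hbm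
    have h1 : b * B.index = b * (c * n') := by
      rw [B.card_mul_index, ← hn, hn', hc, mul_assoc]
    have h2 : B.index = c * n' := Nat.eq_of_mul_eq_mul_left Nat.card_pos h1
    exact Nat.Coprime.coprime_dvd_right (h2 ▸ Dvd.intro_left c rfl) hBh
  have hcm : m.Coprime n' :=
    Nat.Coprime.coprime_dvd_left (Nat.lcm_dvd_mul a b) (Nat.Coprime.mul_left hca hcb)
  obtain ⟨⟨S, hS⟩, hdom⟩ := Cfsg.Agent.Lib.Hall.hall_main n G m n' rfl hn' hcm
  obtain ⟨g1, hg1⟩ := hdom S A hS hca
  obtain ⟨g2, hg2⟩ := hdom S B hS hcb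
  have hT1 : MulAut.conj g1⁻¹ • A ≤ S := by
    intro t ht
    rw [mem_conj_iff, inv_inv] at ht
    have h1 := hg1 ht
    rw [mem_conj_iff] at h1
    have e : g1⁻¹ * (g1 * t * g1⁻¹) * g1 = t := by group
    rwa [e] at h1
  have hT2 : MulAut.conj g2⁻¹ • B ≤ S := by
    intro t ht
    rw [mem_conj_iff, inv_inv] at ht
    have h1 := hg2 ht
    rw [mem_conj_iff] at h1
    have e : g2⁻¹ * (g2 * t * g2⁻¹) * g2 = t := by group
    rwa [e] at h1
  set T1 : Subgroup G := MulAut.conj g1⁻¹ • A with hT1def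
  set T2 : Subgroup G := MulAut.conj g2⁻¹ • B with hT2def
  have hcT1 : Nat.card T1 = a := card_conj A _
  have hcT2 : Nat.card T2 = b := card_conj B _
  have hprod : ((T1 : Set G) * (T2 : Set G)) = (S : Set G) := by
    have hsub : ((T1 : Set G) * (T2 : Set G)) ⊆ (S : Set G) := by
      rintro _ ⟨u, hu, v, hv, rfl⟩
      exact S.mul_mem (hT1 hu) (hT2 hv)
    apply Set.eq_of_subset_of_ncard_le hsub _ (Set.toFinite _)
    have h1 := card_mul_mul_card_inf T1 T2
    rw [hcT1, hcT2] at h1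
    rw [← Nat.card_coe_set_eq, ← Nat.card_coe_set_eq]
    have h2 : Nat.card ↑(S : Set G) = m := hS
    rw [h2]
    set t := Nat.card ↑((T1 : Set G) * (T2 : Set G)) with ht
    set c := Nat.card ↥(T1 ⊓ T2) with hc
    have hc1 : c ∣ a := hcT1 ▸ Subgroup.card_dvd_of_le inf_le_left
    have hc2 : c ∣ b := hcT2 ▸ Subgroup.card_dvd_of_le inf_le_right
    have hc3 : c ∣ Nat.gcd a b := Nat.dvd_gcd hc1 hc2
    have hgl : Nat.gcd a b * m = a * b := Nat.gcd_mul_lcm a b
    have hd : 0 < Nat.gcd a b := Nat.gcd_pos_of_pos_left _ Nat.card_pos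
    have hcle : c ≤ Nat.gcd a b := Nat.le_of_dvd hd hc3
    by_contra hlt
    push Not at hlt
    have hm0 : 0 < m := Nat.pos_of_dvd_of_pos (Dvd.intro _ hn'.symm) Nat.card_pos
    have h3 : t * c < m * Nat.gcd a b :=
      lt_of_le_of_lt (Nat.mul_le_mul_left t hcle) (Nat.mul_lt_mul_of_pos_right hlt hd)
    rw [h1, mul_comm m, hgl] at h3
    exact lt_irrefl _ h3
  -- conclude
  obtain ⟨w, hw⟩ := hshift x y
  obtain ⟨w0, hw0⟩ := hshift g1⁻¹ g2⁻¹
  refine ⟨MulAut.conj (w * w0⁻¹) • S, ?_⟩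
  rw [hw]
  have hS2 : (S : Set G) = (fun g => w0 * g * w0⁻¹) '' ((A : Set G) * (B : Set G)) := by
    rw [← hprod]
    exact hw0
  ext g
  rw [SetLike.mem_coe, mem_conj_iff, ← SetLike.mem_coe, hS2]
  constructor
  · rintro ⟨u, hu, hue⟩
    refine ⟨u, hu, ?_⟩
    have : g = (w * w0⁻¹) * (w0 * u * w0⁻¹) * (w * w0⁻¹)⁻¹ := by
      rw [show (fun g => w0 * g * w0⁻¹) u = w0 * u * w0⁻¹ from rfl] at hue
      rw [hue]; group
    rw [this]; group
  · rintro ⟨u, hu, rfl⟩
    refine ⟨u, hu, ?_⟩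
    show w0 * u * w0⁻¹ = _
    group

end Cfsg.Agent.S0561
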