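import Mathlib
import Cfsg.Statements.S0562

set_option autoImplicit false
open Cfsg

namespace Cfsg.Agent.S0562

/-- Let the finite group G be the product HK of subgroups, A normal in H, B normal in K, and L the normalizer of the subgroup generated by A and B. Then every element of L is a product of an element of L ∩ H and an element of L ∩ K. -/
theorem result {G : Type*} [Group G] [Finite G] (H K A B : Subgroup G) (hHK : ∀ g : G, ∃ h ∈ H, ∃ k ∈ K, g = h * k) (hA : A ≤ H) (hAn : (A.subgroupOf H).Normal) (hB : B ≤ K) (hBn : (B.subgroupOf K).Normal) : ∀ g ∈ Subgroup.normalizer ((A ⊔ B : Subgroup G) : Set G), ∃ h ∈ Subgroup.normalizer ((A ⊔ B : Subgroup G) : Set G) ⊓ H, ∃ k ∈ Subgroup.normalizer ((A ⊔ B : Subgroup G) : Set G) ⊓ K, g = h * k := by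
  intro g hg
  obtain ⟨h, hh, k, hk, rfl⟩ := hHK g
  -- conjugation facts
  have hAconj : ∀ a ∈ A, ∀ t ∈ H, t * a * t⁻¹ ∈ A := by
    intro a ha t ht
    have := hAn.conj_mem ⟨a, hA ha⟩ (by simpa [Subgroup.mem_subgroupOf] using ha) ⟨t, ht⟩
    simpa [Subgroup.mem_subgroupOf] using this
  have hBconj : ∀ b ∈ B, ∀ t ∈ K, t * b * t⁻¹ ∈ B := by
    intro b hb t ht
    have := hBn.conj_mem ⟨b, hB hb⟩ (by simpa [Subgroup.mem_subgroupOf] using hb) ⟨t, ht⟩
    simpa [Subgroup.mem_subgroupOf] using this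
  set D : Subgroup G := A ⊔ B with hD
  have hcomm : ∀ x, x ∈ D ↔ (h * k) * x * (h * k)⁻¹ ∈ D := by
    intro x
    exact Subgroup.mem_normalizer_iff.mp hg x
  -- conjugation by `k⁻¹` maps `D` into `D`
  have key : ∀ x ∈ D, k⁻¹ * x * k ∈ D := by
    have hsub : D ≤ D.comap (MulAut.conj k⁻¹).toMonoidHom := by
      refine sup_le ?_ ?_
      · intro a ha
        have h1 : h * a * h⁻¹ ∈ A := hAconj a ha h hh
        have h2 : (h * k) * (k⁻¹ * a * k) * (h * k)⁻¹ = h * a * h⁻¹ := by group
        have h3 : k⁻¹ * a * k ∈ D := by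
          rw [hcomm, h2]
          exact Subgroup.mem_sup_left h1
        simpa [MulAut.conj_apply] using h3
      · intro b hb
        have h1 : k⁻¹ * b * k⁻¹⁻¹ ∈ B := hBconj b hb k⁻¹ (K.inv_mem hk)
        have h3 : k⁻¹ * b * k⁻¹⁻¹ ∈ D := Subgroup.mem_sup_right h1
        simpa [MulAut.conj_apply] using h3
    intro x hx
    simpa [MulAut.conj_apply] using hsub hx
  -- hence by finiteness `k` normalizes `D`
  have hkN : k ∈ Subgroup.normalizer (D : Set G) := by
    rw [Subgroup.mem_normalizer_iff]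
    intro x
    constructor
    · intro hx
      let φ : D → D := fun y => ⟨k⁻¹ * y * k, key y y.2⟩
      have hφ : Function.Injective φ := by
        intro y z hyz
        have : k⁻¹ * (y : G) * k = k⁻¹ * (z : G) * k := congrArg Subtype.val hyz
        exact Subtype.ext (by simpa using this)
      obtain ⟨y, hy⟩ := (Finite.injective_iff_surjective.mp hφ) ⟨x, hx⟩
      have hy' : k⁻¹ * (y : G) * k = x := congrArg Subtype.val hy
      have : k * x * k⁻¹ = y := by rw [← hy']; group
      rw [this]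
      exact y.2
    · intro hx
      have := key _ hx
      have h4 : k⁻¹ * (k * x * k⁻¹) * k = x := by group
      rwa [h4] at this
  have hhN : h ∈ Subgroup.normalizer (D : Set G) := by
    have h5 : h = (h * k) * k⁻¹ := by group
    rw [h5]
    exact Subgroup.mul_mem _ hg (Subgroup.inv_mem _ hkN)
  exact ⟨h, ⟨hhN, hh⟩, k, ⟨hkN, hk⟩, rfl⟩

end Cfsg.Agent.S0562
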