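import Mathlib
import Cfsg.Statements.S0563
import Cfsg.Agent.Lib.Wielandt3
import Cfsg.Agent.S0561

set_option autoImplicit false
open Pointwise
open Cfsg

namespace Cfsg.Agent.S0563

theorem hall_part {G : Type*} [Group G] [Finite G] (A B : Subgroup G)
    (hcop : (Nat.card A).Coprime (Nat.card B)) (hAidx : A.index = Nat.card B) {p : ℕ} [Fact p.Prime]
    (P : Sylow p A) :
    (Nat.card ((P : Subgroup A).map A.subtype : Subgroup G)).Coprime
      ((P : Subgroup A).map A.subtype : Subgroup G).index := by
  have hc : Nat.card ((P : Subgroup A).map A.subtype : Subgroup G) = Nat.card (P : Subgroup A) :=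
    Subgroup.card_map_of_injective A.subtype_injective
  have hle : (P : Subgroup A).map A.subtype ≤ A := Subgroup.map_subtype_le _
  obtain ⟨i, hi⟩ := IsPGroup.iff_card.1 P.isPGroup'
  rw [hc, hi]
  rcases Nat.eq_zero_or_pos i with rfl | hpos
  · simp
  apply Nat.Coprime.pow_left
  apply (Nat.Prime.coprime_iff_not_dvd Fact.out).2
  rw [← Subgroup.relIndex_mul_index hle, hAidx]
  intro h
  rcases (Fact.out : p.Prime).dvd_mul.1 h with h | h
  · have e : ((P : Subgroup A).map A.subtype).relIndex A = (P : Subgroup A).index := by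
      show (((P : Subgroup A).map A.subtype).comap A.subtype).index = _
      rw [Subgroup.comap_map_eq_self_of_injective A.subtype_injective]
    rw [e] at h
    exact P.not_dvd_index h
  · have h1 : p ∣ Nat.card A := by
      have : p ∣ Nat.card (P : Subgroup A) := by
        rw [hi]
        exact dvd_pow_self p hpos.ne'
      exact this.trans (Subgroup.card_subgroup_dvd_card _)
    have := Nat.Coprime.eq_one_of_dvd (Nat.Coprime.coprime_dvd_left h1 hcop) h
    exact (Fact.out : p.Prime).one_lt.ne' this

theorem normal_part {G : Type*} [Group G] (A : Subgroup G) (P : Subgroup A) (hP : P.Normal) :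
    ((P.map A.subtype).subgroupOf A).Normal := by
  have : (P.map A.subtype).subgroupOf A = P :=
    Subgroup.comap_map_eq_self_of_injective A.subtype_injective P
  rw [this]
  exact hP

/-- If a finite group G is the product AB of two nilpotent subgroups of coprime orders, then G is solvable, and for every Sylow p-subgroup P of A and Sylow q-subgroup Q of B the product set PQ is a subgroup. -/
theorem result {G : Type*} [Group G] [Finite G] (A B : Subgroup G) (hA : Group.IsNilpotent A) (hB : Group.IsNilpotent B) (hcop : (Nat.card A).Coprime (Nat.card B)) (hAB : ∀ g : G, ∃ a ∈ A, ∃ b ∈ B, g = a * b) : Group.IsSolvable G ∧ ∀ (p q : ℕ) [Fact p.Prime] [Fact q.Prime] (P : Sylow p A) (Q : Sylow q B), ∃ S : Subgroup G, (S : Set G) = (((P : Subgroup A).map A.subtype : Subgroup G) : Set G) * (((Q : Subgroup B).map B.subtype : Subgroup G) : Set G) := by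
  have hsol : Group.IsSolvable G :=
    Cfsg.Agent.Lib.Wielandt3.solvable_main _ G A B rfl hA hB hcop hAB
  refine ⟨hsol, ?_⟩
  intro p q _ _ P Q
  have hcard : Nat.card G = Nat.card A * Nat.card B := by
    have h1 := Cfsg.Agent.Lib.Factorized.card_mul_card_inf_of_factorization hAB
    have hbot : A ⊓ B = ⊥ := by
      rw [eq_bot_iff]
      rintro x ⟨hxA, hxB⟩
      exact Cfsg.Agent.Lib.Wielandt.eq_one_of_mem_of_coprime hcop hxA hxB
    rwa [hbot, Subgroup.card_bot, mul_one] at h1
  have hAidx : A.index = Nat.card B := by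
    have h2 := A.card_mul_index
    rw [hcard] at h2
    exact Nat.eq_of_mul_eq_mul_left Nat.card_pos h2
  have hBidx : B.index = Nat.card A := by
    have h2 := B.card_mul_index
    rw [hcard, mul_comm (Nat.card A)] at h2
    exact Nat.eq_of_mul_eq_mul_left Nat.card_pos h2
  have hN := (Group.isNilpotent_of_finite_tfae (G := A)).out 0 3 rfl rfl
  have hN' := (Group.isNilpotent_of_finite_tfae (G := B)).out 0 3 rfl rfl
  obtain ⟨S, hS⟩ := Cfsg.Agent.S0561.result A B _ _ hAB (Subgroup.map_subtype_le (P : Subgroup A))
    (normal_part A _ (hN.1 hA p inferInstance P)) (Subgroup.map_subtype_le (Q : Subgroup B))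
    (normal_part B _ (hN'.1 hB q inferInstance Q)) (hall_part A B hcop hAidx P)
    (hall_part B A hcop.symm hBidx Q) 1 1
  refine ⟨S, ?_⟩
  rw [hS]
  simp

end Cfsg.Agent.S0563
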