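import Mathlib
import Cfsg.Statements.S0565
import Cfsg.Agent.Lib.KegelWielandt

set_option autoImplicit false
set_option linter.style.haveILetI false
open Cfsg

namespace Cfsg.Agent.S0565

open Subgroup Cfsg.Agent.Lib.PCore Cfsg.Agent.Lib.Wielandt

universe u

theorem sup_eq_top_of_map_eq_top {G : Type u} [Group G] {C R : Subgroup G} [R.Normal]
    (h : C.map (QuotientGroup.mk' R) = ⊤) : C ⊔ R = ⊤ := by
  rw [eq_top_iff]
  intro g _
  have h1 : QuotientGroup.mk' R g ∈ C.map (QuotientGroup.mk' R) := by rw [h]; trivial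
  obtain ⟨c, hc, e⟩ := h1
  have h2 : c⁻¹ * g ∈ R := QuotientGroup.eq.1 e
  have : g = c * (c⁻¹ * g) := by group
  rw [this]
  exact Subgroup.mul_mem _ (Subgroup.mem_sup_left hc) (Subgroup.mem_sup_right h2)

/-- The key step: `C_p` is trivial when `C` is proper and supplements all nontrivial normal
subgroups, and `G` has a nontrivial normal `p`-subgroup. -/
theorem part_eq_bot {G : Type u} [Group G] [Finite G] {C N : Subgroup G} [hNn : N.Normal]
    {p : ℕ} [Fact p.Prime] (hC : Group.IsNilpotent C) (hNp : IsPGroup p N) (hNbot : N ≠ ⊥)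
    (hCtop : C ≠ ⊤) (hsup : ∀ R : Subgroup G, R.Normal → R ≠ ⊥ → C ⊔ R = ⊤) : part C p = ⊥ := by
  by_contra hne
  have hpart : IsPGroup p (part C p) := isPGroup_part p
  set Q := part C p ⊔ N with hQ
  have hQp : IsPGroup p Q := hpart.to_sup_of_normal_right hNp
  have hCN := hsup N hNn hNbot
  have hQn : Q.Normal := by
    rw [← Subgroup.normalizer_eq_top_iff, eq_top_iff, ← hCN]
    apply sup_le
    · intro c hc
      apply mem_normalizer_of_forall_conj
      intro x hx
      have hle : part C p ⊔ N ≤ (part C p ⊔ N).comap (MulAut.conj c).toMonoidHom := by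
        apply sup_le
        · intro y hy
          exact Subgroup.mem_sup_left (conj_mem_part hC hc hy)
        · intro y hy
          exact Subgroup.mem_sup_right (hNn.conj_mem y hy c)
      exact hle hx
    · intro n hn
      apply mem_normalizer_of_forall_conj
      intro x hx
      have hn' : n ∈ Q := Subgroup.mem_sup_right hn
      exact Q.mul_mem (Q.mul_mem hn' hx) (Q.inv_mem hn')
  haveI := hQn
  set Z := Q ⊓ centralizer (Q : Set G) with hZ
  have hZn : Z.Normal := Subgroup.normal_inf_normal Q _
  have hQne : Q ≠ ⊥ := by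
    intro h
    apply hNbot
    rw [eq_bot_iff, ← h]
    exact le_sup_right
  have hZne : Z ≠ ⊥ := by
    haveI : Nontrivial Q := (Subgroup.nontrivial_iff_ne_bot _).2 hQne
    have hc := hQp.center_nontrivial
    obtain ⟨⟨z, hzc⟩, hz1⟩ := exists_ne (1 : Subgroup.center Q)
    intro hbot
    have hz : (z : G) ∈ Z := by
      refine ⟨z.2, mem_centralizer_iff.2 ?_⟩
      intro x hx
      have := (Subgroup.mem_center_iff.1 hzc) ⟨x, hx⟩
      exact congrArg Subtype.val this
    rw [hbot, Subgroup.mem_bot] at hz
    apply hz1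
    exact Subtype.ext (Subtype.ext hz)
  have hCZ := hsup Z hZn hZne
  have hPn : (part C p).Normal := by
    rw [← Subgroup.normalizer_eq_top_iff, eq_top_iff, ← hCZ]
    apply sup_le
    · intro c hc
      exact mem_normalizer_of_forall_conj (fun x hx => conj_mem_part hC hc hx)
    · intro z hz
      apply mem_normalizer_of_forall_conj
      intro x hx
      have h1 : x * z = z * x := mem_centralizer_iff.1 hz.2 x (Subgroup.mem_sup_left hx)
      rw [← h1]
      simp only [mul_inv_cancel_right]
      exact hx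
  have hCP := hsup _ hPn hne
  apply hCtop
  rw [← hCP, sup_eq_left.2 (part_le p)]

theorem main : ∀ (n : ℕ) (G : Type u) [Group G] [Finite G] (A B : Subgroup G), Nat.card G = n →
    Group.IsNilpotent A → Group.IsNilpotent B → (∀ g : G, ∃ a ∈ A, ∃ b ∈ B, g = a * b) →
    (A ≠ ⊤ ∨ B ≠ ⊤) → ∃ N : Subgroup G, N.Normal ∧ N ≠ ⊤ ∧ (A ≤ N ∨ B ≤ N) := by
  intro n
  induction n using Nat.strong_induction_on with
  | _ n ih =>
  intro G _ _ A B hn hA hB hf hprop
  by_contra hcon
  push Not at hcon
  have hR : ∀ R : Subgroup G, R.Normal → R ≠ ⊥ → A ⊔ R = ⊤ ∧ B ⊔ R = ⊤ := by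
    intro R hRn hRbot
    haveI := hRn
    have hlt : Nat.card (G ⧸ R) < n := by
      rw [← hn, Subgroup.card_eq_card_quotient_mul_card_subgroup R]
      have h1 : 1 < Nat.card R := by
        have h2 : Nat.card R ≠ 1 := fun h => hRbot (Subgroup.eq_bot_of_card_eq R h)
        have h3 : 0 < Nat.card R := Nat.card_pos
        omega
      have h2 : 0 < Nat.card (G ⧸ R) := Nat.card_pos
      nlinarith
    set f := QuotientGroup.mk' R with hf'
    have hfsurj : Function.Surjective f := QuotientGroup.mk'_surjective R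
    by_cases h : A.map f ≠ ⊤ ∨ B.map f ≠ ⊤
    · exfalso
      obtain ⟨N, hNn, hNtop, hN⟩ := ih _ hlt (G ⧸ R) (A.map f) (B.map f) rfl
        (by
          haveI := hA
          exact Group.nilpotent_of_surjective (f.subgroupMap A) (f.subgroupMap_surjective A))
        (by
          haveI := hB
          exact Group.nilpotent_of_surjective (f.subgroupMap B) (f.subgroupMap_surjective B))
        (by
          intro q
          obtain ⟨g, rfl⟩ := hfsurj q
          obtain ⟨a, ha, b, hb, e⟩ := hf g
          exact ⟨f a, ⟨a, ha, rfl⟩, f b, ⟨b, hb, rfl⟩, by rw [e, map_mul]⟩)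
        h
      have hcomaptop : N.comap f ≠ ⊤ := by
        intro htop
        apply hNtop
        rw [eq_top_iff]
        intro q _
        obtain ⟨g, rfl⟩ := hfsurj q
        have : g ∈ N.comap f := by rw [htop]; trivial
        exact this
      have h1 := hcon (N.comap f) (Subgroup.Normal.comap hNn f) hcomaptop
      rcases hN with h2 | h2
      · exact h1.1 (Subgroup.map_le_iff_le_comap.1 h2)
      · exact h1.2 (Subgroup.map_le_iff_le_comap.1 h2)
    · push Not at h
      exact ⟨sup_eq_top_of_map_eq_top h.1, sup_eq_top_of_map_eq_top h.2⟩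
  haveI hsol : Group.IsSolvable G := Cfsg.Agent.Lib.KegelWielandt.solvable_main _ G A B rfl hA hB hf
  haveI hnt : Nontrivial G := by
    by_contra hnt
    rw [not_nontrivial_iff_subsingleton] at hnt
    rcases hprop with h | h
    · exact h (Subsingleton.elim _ _)
    · exact h (Subsingleton.elim _ _)
  -- the nilpotent case
  have hnilcase : ∀ C D : Subgroup G, Group.IsNilpotent D → D = ⊤ → C ≠ ⊤ →
      (∀ R : Subgroup G, R.Normal → R ≠ ⊥ → C ⊔ R = ⊤) → C.Normal := by
    intro C D hD hDtop hCtop hsup
    subst hDtop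
    haveI : Group.IsNilpotent G := (Group.isNilpotent_congr Subgroup.topEquiv).1 hD
    have hc := hsup (center G) inferInstance (Group.IsNilpotent.center_ne_bot G)
    rw [← Subgroup.normalizer_eq_top_iff, eq_top_iff, ← hc]
    apply sup_le
    · exact Subgroup.le_normalizer
    · intro z hz
      apply mem_normalizer_of_forall_conj
      intro x hx
      have h1 : z * x = x * z := (Subgroup.mem_center_iff.1 hz x).symm
      rw [h1]
      simp only [mul_inv_cancel_right]
      exact hx
  by_cases hAtop : A = ⊤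
  · have hBtop : B ≠ ⊤ := by
      rcases hprop with h | h
      · exact absurd hAtop h
      · exact h
    have := hnilcase B A hA hAtop hBtop (fun R h1 h2 => (hR R h1 h2).2)
    exact (hcon B this hBtop).2 le_rfl
  by_cases hBtop : B = ⊤
  · have := hnilcase A B hB hBtop hAtop (fun R h1 h2 => (hR R h1 h2).1)
    exact (hcon A this hAtop).1 le_rfl
  obtain ⟨p, hp, hNbot⟩ := exists_pCore_ne_bot (G := G)
  haveI : Fact p.Prime := ⟨hp⟩
  have hNp : IsPGroup p (pCore p G) := isPGroup_pCore p
  have hA0 := part_eq_bot hA hNp hNbot hAtop (fun R h1 h2 => (hR R h1 h2).1)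
  have hB0 := part_eq_bot hB hNp hNbot hBtop (fun R h1 h2 => (hR R h1 h2).2)
  have hpA : ¬ p ∣ Nat.card A := fun h => part_ne_bot h hA hA0
  have hpB : ¬ p ∣ Nat.card B := fun h => part_ne_bot h hB hB0
  have hpG : p ∣ Nat.card G := by
    obtain ⟨k, hk⟩ := IsPGroup.iff_card.1 hNp
    have hk0 : k ≠ 0 := by
      rintro rfl
      rw [pow_zero] at hk
      exact hNbot (Subgroup.eq_bot_of_card_eq _ hk)
    have h1 : p ∣ Nat.card (pCore p G) := by
      rw [hk]
      exact dvd_pow_self p hk0
    exact h1.trans (Subgroup.card_subgroup_dvd_card _)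
  have hcard := Cfsg.Agent.Lib.Factorized.card_mul_card_inf_of_factorization hf
  have h2 : p ∣ Nat.card A * Nat.card B := by
    rw [← hcard]
    exact Dvd.dvd.mul_right hpG _
  rcases hp.dvd_mul.1 h2 with h | h
  · exact hpA h
  · exact hpB h

/-- Let the finite group G be the product AB of nilpotent subgroups A and B, not both equal to G. Then there is a proper normal subgroup of G containing A or containing B. -/
theorem result {G : Type*} [Group G] [Finite G] (A B : Subgroup G) (hA : Group.IsNilpotent A) (hB : Group.IsNilpotent B) (hAB : ∀ g : G, ∃ a ∈ A, ∃ b ∈ B, g = a * b) (hproper : A ≠ ⊤ ∨ B ≠ ⊤) : ∃ N : Subgroup G, N.Normal ∧ N ≠ ⊤ ∧ (A ≤ N ∨ B ≤ N) :=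
  main _ G A B rfl hA hB hAB hproper

end Cfsg.Agent.S0565
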