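import Mathlib
import Cfsg.Statements.S0568
import Cfsg.Agent.Lib.SysNorm
import Cfsg.Agent.Lib.MinNorm

set_option autoImplicit false
set_option linter.style.haveILetI false
open Cfsg

namespace Cfsg.Agent.S0568

open Subgroup
open scoped commutatorElement
open Cfsg.Agent.Lib.SysNorm

variable {X : Type*} [Group X]

/-- A subgroup of a finite nilpotent group contained in its commutator with the group is trivial. -/
theorem eq_bot_of_le_commutator [Group.IsNilpotent X] (L : Subgroup X) (h : L ≤ ⁅L, (⊤ : Subgroup X)⁆) :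
    L = ⊥ := by
  have key : ∀ n : ℕ, L ≤ Subgroup.lowerCentralSeries (⊤ : Subgroup X) n := by
    intro n
    induction n with
    | zero => simp
    | succ n ih =>
      exact h.trans (Subgroup.commutator_mono ih le_rfl)
  obtain ⟨n, hn⟩ := Subgroup.nilpotent_iff_lowerCentralSeries.mp (inferInstance : Group.IsNilpotent X)
  have := key n
  rw [hn] at this
  exact le_bot_iff.mp this

/-- A system normalizer avoids non-central minimal normal subgroups. -/
theorem avoid [Finite X] [Group.IsSolvable X] (K : Nat.Primes → Subgroup X)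
    (hK : Cfsg.IsComplementSystem K) (N : Subgroup X) [hNn : N.Normal] (hN0 : N ≠ ⊥)
    (hmin : ∀ L : Subgroup X, L.Normal → L ≤ N → L = ⊥ ∨ L = N)
    (hnc : ¬ N ≤ Subgroup.center X) {x : X} (hxN : x ∈ N) (hxD : x ∈ Cfsg.systemNormalizer K) :
    x = 1 := by
  classical
  by_contra hx1
  obtain ⟨p, hp, hcomm, hexp⟩ := Cfsg.Agent.Lib.MinNorm.minimal_normal_abelian N hN0 hmin
  haveI : Fact p.Prime := ⟨hp⟩
  have hNp : IsPGroup p N := Cfsg.Agent.Lib.MinNorm.isPGroup_of_exponent hexp
  obtain ⟨P⟩ : Nonempty (Sylow p X) := inferInstance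
  let pp : Nat.Primes := ⟨p, hp⟩
  have hNP : N ≤ (P : Subgroup X) := hNp.le_sylow_of_normal P
  have hxN' : x ∈ Subgroup.normalizer (K pp : Set X) := (Subgroup.mem_iInf.1 hxD) pp
  have hcop := card_coprime_of_system hK pp
  -- `x` centralizes `K pp`
  have hcent : ∀ k ∈ K pp, x * k * x⁻¹ = k := by
    intro k hk
    have h1 : x * k * x⁻¹ ∈ K pp := (Subgroup.mem_normalizer_iff.1 hxN' k).1 hk
    have h2 : x * k * x⁻¹ * k⁻¹ ∈ K pp := (K pp).mul_mem h1 ((K pp).inv_mem hk)
    have h3 : x * k * x⁻¹ * k⁻¹ ∈ N := by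
      have h4 := hNn.conj_mem x⁻¹ (N.inv_mem hxN) k
      have e : x * k * x⁻¹ * k⁻¹ = x * (k * x⁻¹ * k⁻¹) := by group
      rw [e]
      exact N.mul_mem hxN h4
    have h5 : orderOf (x * k * x⁻¹ * k⁻¹) ∣ p := orderOf_dvd_of_pow_eq_one (hexp _ h3)
    have h6 : orderOf (x * k * x⁻¹ * k⁻¹) ∣ Nat.card (K pp) := Subgroup.orderOf_dvd_natCard _ h2
    have h7 : orderOf (x * k * x⁻¹ * k⁻¹) = 1 := Nat.eq_one_of_dvd_coprimes hcop h6 h5
    rw [orderOf_eq_one_iff] at h7
    calc x * k * x⁻¹ = (x * k * x⁻¹ * k⁻¹) * k := by group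
      _ = k := by rw [h7, one_mul]
  -- the factorization `X = P * K pp`
  have hcompl : (P : Subgroup X).IsComplement' (K pp) := by
    apply Subgroup.isComplement'_of_coprime
    · have h1 := (K pp).index_mul_card
      rw [hK pp] at h1
      rw [← h1, P.card_eq_multiplicity]
    · rw [P.card_eq_multiplicity]
      exact Nat.Coprime.pow_left _ hcop.symm
  -- the subgroup `J`
  let S : Set X := {y | ∃ g : X, y = g * x * g⁻¹ * x⁻¹}
  let J : Subgroup X := Subgroup.closure S
  have hJn : J.Normal := by
    refine ⟨fun n hn h => ?_⟩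
    have : J ≤ J.comap (MulAut.conj h).toMonoidHom := by
      rw [Subgroup.closure_le]
      rintro _ ⟨g, rfl⟩
      have e : h * (g * x * g⁻¹ * x⁻¹) * h⁻¹ =
          ((h * g) * x * (h * g)⁻¹ * x⁻¹) * (h * x * h⁻¹ * x⁻¹)⁻¹ := by group
      show h * (g * x * g⁻¹ * x⁻¹) * h⁻¹ ∈ J
      rw [e]
      exact J.mul_mem (Subgroup.subset_closure ⟨_, rfl⟩) (J.inv_mem (Subgroup.subset_closure ⟨_, rfl⟩))
    exact this hn
  have hJN : J ≤ N := by
    rw [Subgroup.closure_le]
    rintro _ ⟨g, rfl⟩
    exact N.mul_mem (hNn.conj_mem x hxN g) (N.inv_mem hxN)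
  rcases hmin J hJn hJN with hJ | hJ
  · -- `x` is central
    have hxc : x ∈ Subgroup.center X := by
      rw [Subgroup.mem_center_iff]
      intro g
      have h1 : g * x * g⁻¹ * x⁻¹ ∈ J := Subgroup.subset_closure ⟨g, rfl⟩
      rw [hJ, Subgroup.mem_bot] at h1
      calc g * x = (g * x * g⁻¹ * x⁻¹) * (x * g) := by group
        _ = x * g := by rw [h1, one_mul]
    have hn2 : (N ⊓ Subgroup.center X).Normal := Subgroup.normal_inf_normal _ _
    rcases hmin _ hn2 inf_le_left with h1 | h1
    · have : x ∈ N ⊓ Subgroup.center X := ⟨hxN, hxc⟩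
      rw [h1, Subgroup.mem_bot] at this
      exact hx1 this
    · exact hnc (inf_eq_left.mp h1)
  · -- `J = N` is impossible
    haveI : Group.IsNilpotent (P : Subgroup X) := IsPGroup.isNilpotent P.isPGroup'
    let N' : Subgroup (P : Subgroup X) := N.subgroupOf (P : Subgroup X)
    have hle : N' ≤ ⁅N', (⊤ : Subgroup (P : Subgroup X))⁆ := by
      let M : Subgroup X := (⁅N', (⊤ : Subgroup (P : Subgroup X))⁆).map (P : Subgroup X).subtype
      have hJM : J ≤ M := by
        rw [Subgroup.closure_le]
        rintro _ ⟨g, rfl⟩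
        obtain ⟨⟨t, k⟩, rfl⟩ := hcompl.2 g
        have hk : x * (k : X) * x⁻¹ = k := hcent k k.2
        have hk2 : (k : X) * x * (k : X)⁻¹ = x := by
          have h1 : x * (k : X) = k * x := by
            calc x * (k : X) = (x * (k : X) * x⁻¹) * x := by group
              _ = k * x := by rw [hk]
          rw [← h1]; group
        have e : ((t : X) * k) * x * ((t : X) * k)⁻¹ * x⁻¹ = ((x * (t : X) * x⁻¹ * (t : X)⁻¹))⁻¹ := by
          calc ((t : X) * k) * x * ((t : X) * k)⁻¹ * x⁻¹ = (t : X) * ((k : X) * x * (k : X)⁻¹) * (t : X)⁻¹ * x⁻¹ := by group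
            _ = (t : X) * x * (t : X)⁻¹ * x⁻¹ := by rw [hk2]
            _ = _ := by group
        show ((t : X) * k) * x * ((t : X) * k)⁻¹ * x⁻¹ ∈ M
        rw [e]
        apply M.inv_mem
        refine ⟨⁅(⟨x, hNP hxN⟩ : (P : Subgroup X)), t⁆, ?_, rfl⟩
        exact Subgroup.commutator_mem_commutator (show (⟨x, hNP hxN⟩ : (P : Subgroup X)) ∈ N' from hxN) (mem_top t)
      intro a ha
      have h1 : (a : X) ∈ J := by
        rw [hJ]
        exact ha
      obtain ⟨b, hb, hbe⟩ := hJM h1
      have : b = a := Subtype.ext hbe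
      exact this ▸ hb
    have hbot := eq_bot_of_le_commutator N' hle
    apply hN0
    rw [eq_bot_iff]
    intro a ha
    have : (⟨a, hNP ha⟩ : (P : Subgroup X)) ∈ N' := ha
    rw [hbot, Subgroup.mem_bot] at this
    exact Subgroup.mem_bot.mpr (congrArg Subtype.val this)

/-- Let D be the system normalizer of a Hall complement system of a finite solvable group G, and let A < B be normal subgroups with no normal subgroup of G strictly between them (a chief factor). If G centralizes B modulo A then B ≤ A ⊔ D (D covers the factor); otherwise B ∩ D ≤ A (D avoids it). -/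
theorem result {G : Type*} [Group G] [Finite G] [Group.IsSolvable G] (K : Nat.Primes → Subgroup G) (hK : Cfsg.IsComplementSystem K) (A B : Subgroup G) [A.Normal] [B.Normal] (hAB : A < B) (hchief : ∀ N : Subgroup G, N.Normal → A ≤ N → N ≤ B → N = A ∨ N = B) : (⁅B, (⊤ : Subgroup G)⁆ ≤ A → B ≤ A ⊔ Cfsg.systemNormalizer K) ∧ (¬ ⁅B, (⊤ : Subgroup G)⁆ ≤ A → B ⊓ Cfsg.systemNormalizer K ≤ A) := by
  classical
  let π := QuotientGroup.mk' A
  have hπs : Function.Surjective π := QuotientGroup.mk'_surjective A
  have hKbar : Cfsg.IsComplementSystem (fun p => (K p).map π) := isComplementSystem_map π hπs hK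
  have hD := systemNormalizer_map K hK A
  have hmemA : ∀ {x : G}, π x = 1 ↔ x ∈ A := fun {x} => QuotientGroup.eq_one_iff x
  constructor
  · intro hc b hb
    have hcent : π b ∈ Subgroup.center (G ⧸ A) := by
      rw [Subgroup.mem_center_iff]
      intro g
      obtain ⟨g, rfl⟩ := hπs g
      have h1 : ⁅b, g⁆ ∈ A := hc (Subgroup.commutator_mem_commutator hb (mem_top g))
      rw [← hmemA, map_commutatorElement, commutatorElement_eq_one_iff_mul_comm] at h1
      exact h1.symm
    have h2 : π b ∈ Cfsg.systemNormalizer (fun p => (K p).map π) := by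
      apply Subgroup.mem_iInf.2
      intro p
      apply Cfsg.Agent.Lib.Subnormal.mem_normalizer_of_conj_mem
      intro t ht
      have := Subgroup.mem_center_iff.mp hcent t
      rw [← this, mul_inv_cancel_right]
      exact ht
    have hD' : Cfsg.systemNormalizer (fun p => (K p).map π) = (Cfsg.systemNormalizer K).map π := hD
    rw [hD'] at h2
    obtain ⟨d, hd, hde⟩ := h2
    have h3 : d⁻¹ * b ∈ A := by
      rw [← hmemA, map_mul, map_inv, hde, inv_mul_cancel]
    have h5 : b = d * (d⁻¹ * b) := by group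
    rw [h5]
    exact (Subgroup.mul_mem _ ((le_sup_right : Cfsg.systemNormalizer K ≤ _) hd) ((le_sup_left : A ≤ _) h3))
  · intro hnc x hx
    let N : Subgroup (G ⧸ A) := B.map π
    haveI hNn : N.Normal := (inferInstance : B.Normal).map π hπs
    have hN0 : N ≠ ⊥ := by
      intro h
      have hBA : B ≤ A := by
        intro b hb
        have : π b ∈ N := Subgroup.mem_map_of_mem π hb
        rw [h, Subgroup.mem_bot] at this
        exact hmemA.mp this
      exact absurd hBA (not_le_of_gt hAB)
    have hAleB : A ≤ B := hAB.le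
    have hmin : ∀ L : Subgroup (G ⧸ A), L.Normal → L ≤ N → L = ⊥ ∨ L = N := by
      intro L hL hLN
      have h1 : (L.comap π).Normal := hL.comap π
      have h2 : A ≤ L.comap π := by
        intro a ha
        show π a ∈ L
        rw [hmemA.mpr ha]
        exact L.one_mem
      have h3 : L.comap π ≤ B := by
        intro a ha
        obtain ⟨b, hb, hbe⟩ := hLN ha
        have h4 : b⁻¹ * a ∈ A := by
          rw [← hmemA, map_mul, map_inv, hbe, inv_mul_cancel]
        have h5 : a = b * (b⁻¹ * a) := by group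
        rw [h5]
        exact B.mul_mem hb (hAleB h4)
      rcases hchief _ h1 h2 h3 with h4 | h4
      · left
        rw [eq_bot_iff]
        intro l hl
        obtain ⟨g, rfl⟩ := hπs l
        have : g ∈ L.comap π := hl
        rw [h4] at this
        exact Subgroup.mem_bot.mpr (hmemA.mpr this)
      · right
        apply le_antisymm hLN
        rintro _ ⟨b, hb, rfl⟩
        rw [← h4] at hb
        exact hb
    have hncN : ¬ N ≤ Subgroup.center (G ⧸ A) := by
      intro h
      apply hnc
      rw [Subgroup.commutator_le]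
      intro b hb g _
      rw [← hmemA, map_commutatorElement, commutatorElement_eq_one_iff_mul_comm]
      exact (Subgroup.mem_center_iff.mp (h (Subgroup.mem_map_of_mem π hb)) (π g)).symm
    have hxD : π x ∈ Cfsg.systemNormalizer (fun p => (K p).map π) := by
      have hD' : Cfsg.systemNormalizer (fun p => (K p).map π) = (Cfsg.systemNormalizer K).map π := hD
      rw [hD']
      exact Subgroup.mem_map_of_mem π hx.2
    exact hmemA.mp (avoid (fun p => (K p).map π) hKbar N hN0 hmin hncN (Subgroup.mem_map_of_mem π hx.1) hxD)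

end Cfsg.Agent.S0568
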