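import Mathlib
import Cfsg.Statements.S0569
import Cfsg.Agent.Lib.Carter

set_option autoImplicit false
set_option linter.style.haveILetI false
open Cfsg

namespace Cfsg.Agent.S0569

open Subgroup Cfsg.Agent.Lib.Carter Cfsg.Agent.Lib.SysNorm
open scoped Pointwise
open Cfsg.Agent.Lib.Factorized (mem_conj_iff)

/-- In a finite solvable group: each nilpotent self-normalizing subgroup contains the system normalizer of some Hall complement system, and the system normalizer of any Hall complement system lies in some nilpotent self-normalizing subgroup. -/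
theorem result {G : Type*} [Group G] [Finite G] [Group.IsSolvable G] : (∀ C : Subgroup G, Cfsg.IsCarterSubgroup C → ∃ K : Nat.Primes → Subgroup G, Cfsg.IsComplementSystem K ∧ Cfsg.systemNormalizer K ≤ C) ∧ ∀ K : Nat.Primes → Subgroup G, Cfsg.IsComplementSystem K → ∃ C : Subgroup G, Cfsg.IsCarterSubgroup C ∧ Cfsg.systemNormalizer K ≤ C := by
  constructor
  · intro C hC
    obtain ⟨K0, hK0⟩ := exists_complementSystem (G := G)
    obtain ⟨C0, hC0, hD, -⟩ := exists_carter_compat _ G rfl K0 hK0
    obtain ⟨g, rfl⟩ := carter_conj _ G rfl C0 C hC0 hC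
    refine ⟨fun p => MulAut.conj g • K0 p, isComplementSystem_conj hK0 g, ?_⟩
    exact systemNormalizer_conj_le K0 g |>.trans
      (Subgroup.pointwise_smul_le_pointwise_smul_iff.mpr hD)
  · intro K hK
    obtain ⟨C0, hC0, hD, -⟩ := exists_carter_compat _ G rfl K hK
    exact ⟨C0, hC0, hD⟩

end Cfsg.Agent.S0569
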