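import Mathlib
import Cfsg.Statements.S0570
import Cfsg.Agent.Lib.Carter

set_option autoImplicit false
set_option linter.style.haveILetI false
open Cfsg

namespace Cfsg.Agent.S0570

open Subgroup Cfsg.Agent.Lib.Carter Cfsg.Agent.Lib.SysNorm
open scoped Pointwise
open Cfsg.Agent.Lib.Factorized (mem_conj_iff)
open Cfsg.Agent.Lib.PComplement (commute_of_isNilpotent)
open Cfsg.Agent.Lib.NilpCover (exists_decomp)
open Cfsg.Agent.Lib.Subnormal (mem_normalizer_of_conj_mem)

/-- In nilpotent length at most two, a Carter subgroup compatible with a system lies in the system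
normalizer. -/
theorem carter_le_sysnorm {G : Type*} [Group G] [Finite G] [Group.IsSolvable G] (F : Subgroup G)
    [hFn : F.Normal] (hF : Group.IsNilpotent F) (hGF : Group.IsNilpotent (G ⧸ F))
    (K : Nat.Primes → Subgroup G) (hK : Cfsg.IsComplementSystem K) (C : Subgroup G)
    (hC : Cfsg.IsCarterSubgroup C)
    (hcomp : ∀ (r : Nat.Primes), ∀ c ∈ C, (orderOf c).Coprime r → c ∈ K r) :
    C ≤ Cfsg.systemNormalizer K := by
  classical
  let π := QuotientGroup.mk' F
  have hπs : Function.Surjective π := QuotientGroup.mk'_surjective F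
  have hCtop : C.map π = ⊤ := by
    have h1 := image_carter' hC F
    haveI : Group.IsNilpotent ↥(⊤ : Subgroup (G ⧸ F)) := inferInstance
    exact eq_of_le_nilpotent le_top inferInstance h1.2
  intro c hc
  apply Subgroup.mem_iInf.2
  intro s
  have hs : (s : ℕ).Prime := s.2
  haveI : Fact (s : ℕ).Prime := ⟨hs⟩
  haveI hCnil := hC.1
  haveI := hF
  obtain ⟨Y', hYn, hYc, hYall⟩ := exists_hall_part (C := F) (s : ℕ)
  set W : Subgroup G := Y'.map F.subtype with hW
  have hWmem : ∀ x ∈ F, (orderOf x).Coprime s → x ∈ W := by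
    intro x hx hxc
    refine ⟨⟨x, hx⟩, hYall _ ?_, rfl⟩
    rwa [Subgroup.orderOf_mk]
  have hWord : ∀ x ∈ W, (orderOf x).Coprime s := by
    rintro _ ⟨y, hy, rfl⟩
    have h1 : orderOf (y : G) = orderOf y := Subgroup.orderOf_coe y
    simp only [Subgroup.coe_subtype]
    rw [h1]
    exact Nat.Coprime.coprime_dvd_left (Subgroup.orderOf_dvd_natCard Y' hy) hYc
  have hWF : W ≤ F := by
    rintro _ ⟨y, -, rfl⟩
    exact y.2
  haveI hWn : W.Normal := by
    refine ⟨fun n hn g => ?_⟩
    apply hWmem _ (hFn.conj_mem n (hWF hn) g)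
    have h1 : orderOf (g * n * g⁻¹) = orderOf n := by
      rw [← MulAut.conj_apply, MulEquiv.orderOf_eq]
    rw [h1]
    exact hWord n hn
  have hWc : (Nat.card W).Coprime s := by
    rw [hW, Subgroup.card_map_of_injective F.subtype_injective]
    exact hYc
  have hWK : W ≤ K s := by
    apply normal_le_of_coprime
    rw [hK s]
    exact Nat.Coprime.pow_right _ hWc
  have hKord : ∀ k ∈ K s, (orderOf k).Coprime s := fun k hk =>
    Nat.Coprime.coprime_dvd_left (Subgroup.orderOf_dvd_natCard _ hk) (card_coprime_of_system hK s)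
  -- decomposition of `c`
  obtain ⟨u, v, hcuv, huv, hu, hv, -, -⟩ := exists_decomp (s : ℕ) (⟨c, hc⟩ : C)
  have hvK : (v : G) ∈ K s := hcomp s v v.2 (by rwa [Subgroup.orderOf_coe])
  have huN : (u : G) ∈ Subgroup.normalizer (K s : Set G) := by
    apply mem_normalizer_of_conj_mem
    intro k hk
    have hk1 : π k ∈ C.map π := by
      rw [hCtop]; exact mem_top _
    obtain ⟨c', hc', hce⟩ := hk1
    obtain ⟨u', v', hcuv', huv', ⟨a, ha⟩, hv', hu2, -⟩ := exists_decomp (s : ℕ) (⟨c', hc'⟩ : C)
    have hfF : c'⁻¹ * k ∈ F := QuotientGroup.eq.mp hce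
    have hu'1 : π (u' : G) = 1 := by
      obtain ⟨i, hi⟩ := Subgroup.mem_zpowers_iff.mp hu2
      have h3 : π (u' : G) = (π k) ^ i := by
        rw [← hi, ← hce]
        simp
      refine eq_one_of_pow_of_coprime (k := a) (m := orderOf k) (p := (s : ℕ)) ?_ ?_ (hKord k hk)
      · have : ((u' : G)) ^ (s : ℕ) ^ a = 1 := by
          have := congrArg Subtype.val ha
          simpa using this
        rw [← map_pow, this, map_one]
      · rw [h3, ← zpow_natCast, ← zpow_mul, mul_comm, zpow_mul, zpow_natCast, ← map_pow,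
          pow_orderOf_eq_one, map_one, one_zpow]
    have hu'F : (u' : G) ∈ F := (QuotientGroup.eq_one_iff _).1 hu'1
    have hv'K : (v' : G) ∈ K s := hcomp s v' v'.2 (by rwa [Subgroup.orderOf_coe])
    have hc'e : c' = (u' : G) * v' := congrArg Subtype.val hcuv'
    have hc'e2 : c' = (v' : G) * u' := by
      have := congrArg Subtype.val huv'
      rw [hc'e]
      exact this
    set f' : G := (u' : G) * (c'⁻¹ * k) with hf'
    have hf'F : f' ∈ F := F.mul_mem hu'F hfF
    have hke : k = (v' : G) * f' := by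
      rw [hf']
      have : (v' : G) * ((u' : G) * (c'⁻¹ * k)) = ((v' : G) * u') * (c'⁻¹ * k) := by group
      rw [this, ← hc'e2]
      group
    have hf'K : f' ∈ K s := by
      have e : f' = (v' : G)⁻¹ * k := by
        rw [hke]; group
      rw [e]
      exact (K s).mul_mem ((K s).inv_mem hv'K) hk
    have hf'W : f' ∈ W := hWmem f' hf'F (hKord f' hf'K)
    have hcomm : (u : C) * v' = v' * u := commute_of_isNilpotent hu (by exact hv')
    have hcomm2 : (u : G) * v' = v' * u := congrArg Subtype.val hcomm
    have e : (u : G) * k * (u : G)⁻¹ = (v' : G) * ((u : G) * f' * (u : G)⁻¹) := by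
      rw [hke]
      calc (u : G) * ((v' : G) * f') * (u : G)⁻¹ = ((u : G) * v') * f' * (u : G)⁻¹ := by group
        _ = (v' * (u : G)) * f' * (u : G)⁻¹ := by rw [hcomm2]
        _ = _ := by group
    rw [e]
    exact (K s).mul_mem hv'K (hWK (hWn.conj_mem f' hf'W u))
  have : c = (u : G) * v := congrArg Subtype.val hcuv
  rw [this]
  exact Subgroup.mul_mem _ huN (Subgroup.le_normalizer hvK)

/-- Let G be a finite group with a nilpotent normal subgroup F such that G modulo F is nilpotent (nilpotent length at most two). Then a subgroup of G is a Carter subgroup if and only if it is the system normalizer of some Hall complement system. -/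
theorem result {G : Type*} [Group G] [Finite G] (F : Subgroup G) [F.Normal] (hF : Group.IsNilpotent F) (hGF : Group.IsNilpotent (G ⧸ F)) (C : Subgroup G) : Cfsg.IsCarterSubgroup C ↔ ∃ K : Nat.Primes → Subgroup G, Cfsg.IsComplementSystem K ∧ C = Cfsg.systemNormalizer K := by
  haveI hsol : Group.IsSolvable G := by
    haveI := hF
    haveI := hGF
    exact Group.isSolvable_of_ker_le_range F.subtype (QuotientGroup.mk' F)
      (by rw [QuotientGroup.ker_mk', Subgroup.range_subtype])
  constructor
  · intro hC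
    obtain ⟨K0, hK0⟩ := exists_complementSystem (G := G)
    obtain ⟨C0, hC0, hD, hcomp⟩ := exists_carter_compat _ G rfl K0 hK0
    obtain ⟨g, rfl⟩ := carter_conj _ G rfl C0 C hC0 hC
    have hKc := isComplementSystem_conj hK0 g
    refine ⟨fun p => MulAut.conj g • K0 p, hKc, ?_⟩
    apply le_antisymm
    · apply carter_le_sysnorm F hF hGF _ hKc _ hC
      intro r c hc hco
      rw [mem_conj_iff] at hc ⊢
      apply hcomp r _ hc
      have h1 : orderOf (g⁻¹ * c * g) = orderOf c := by
        have e : g⁻¹ * c * g = g⁻¹ * c * g⁻¹⁻¹ := by group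
        rw [e, ← MulAut.conj_apply, MulEquiv.orderOf_eq]
      rwa [h1]
    · exact systemNormalizer_conj_le K0 g |>.trans
        (Subgroup.pointwise_smul_le_pointwise_smul_iff.mpr hD)
  · rintro ⟨K, hK, rfl⟩
    obtain ⟨C0, hC0, hD, hcomp⟩ := exists_carter_compat _ G rfl K hK
    have : Cfsg.systemNormalizer K = C0 :=
      le_antisymm hD (carter_le_sysnorm F hF hGF K hK C0 hC0 hcomp)
    rw [this]
    exact hC0

end Cfsg.Agent.S0570
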