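import Mathlib
import Cfsg.Statements.S0572

set_option autoImplicit false
open Cfsg

namespace Cfsg.Agent.S0572

variable {G : Type*} [Group G]

/-- The commutator in the form `a⁻¹ b⁻¹ a b`. -/
def c (a b : G) : G := a⁻¹ * b⁻¹ * a * b

lemma conj_fix {a t : G} (h : a * t = t * a) : t⁻¹ * a * t = a := by
  rw [mul_assoc, h, inv_mul_cancel_left]

lemma conj_fix_inv {a t : G} (h : a * t = t * a) : t⁻¹ * a⁻¹ * t = a⁻¹ := by
  have h1 := conj_fix h
  calc t⁻¹ * a⁻¹ * t = (t⁻¹ * a * t)⁻¹ := by group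
    _ = a⁻¹ := by rw [h1]

lemma c_conj_right {a a1 : G} (b : G) (h : a * a1 = a1 * a) :
    a1⁻¹ * c a b * a1 = c a (a1⁻¹ * b * a1) := by
  calc a1⁻¹ * c a b * a1
      = (a1⁻¹ * a⁻¹ * a1) * (a1⁻¹ * b⁻¹ * a1) * (a1⁻¹ * a * a1) * (a1⁻¹ * b * a1) := by
        unfold c; group
    _ = a⁻¹ * (a1⁻¹ * b⁻¹ * a1) * a * (a1⁻¹ * b * a1) := by rw [conj_fix h, conj_fix_inv h]
    _ = c a (a1⁻¹ * b * a1) := by unfold c; group

lemma c_mul_right {a a3 : G} (b3 : G) (h : a * a3 = a3 * a) :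
    c a (a3 * b3) = c a b3 := by
  calc c a (a3 * b3) = a⁻¹ * b3⁻¹ * (a3⁻¹ * a * a3) * b3 := by unfold c; group
    _ = a⁻¹ * b3⁻¹ * a * b3 := by rw [conj_fix h]
    _ = c a b3 := rfl

lemma c_conj_left {b b1 : G} (a : G) (h : b * b1 = b1 * b) :
    b1⁻¹ * c a b * b1 = c (b1⁻¹ * a * b1) b := by
  calc b1⁻¹ * c a b * b1
      = (b1⁻¹ * a⁻¹ * b1) * (b1⁻¹ * b⁻¹ * b1) * (b1⁻¹ * a * b1) * (b1⁻¹ * b * b1) := by
        unfold c; group
    _ = (b1⁻¹ * a⁻¹ * b1) * b⁻¹ * (b1⁻¹ * a * b1) * b := by rw [conj_fix h, conj_fix_inv h]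
    _ = c (b1⁻¹ * a * b1) b := by unfold c; group

lemma c_mul_left {b b2 : G} (a2 : G) (h : b * b2 = b2 * b) :
    c (b2 * a2) b = c a2 b := by
  calc c (b2 * a2) b = a2⁻¹ * (b2⁻¹ * b⁻¹ * b2) * a2 * b := by unfold c; group
    _ = a2⁻¹ * b⁻¹ * a2 * b := by rw [conj_fix_inv h]
    _ = c a2 b := rfl

section
variable (A B : Subgroup G)

lemma comm_of_mem [IsMulCommutative A] {x y : G} (hx : x ∈ A) (hy : y ∈ A) : x * y = y * x := by
  have := IsMulCommutative.is_comm.comm (⟨x, hx⟩ : A) ⟨y, hy⟩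
  exact congrArg Subtype.val this

/-- `G = BA` also. -/
lemma exists_mul_BA (hAB : ∀ g : G, ∃ a ∈ A, ∃ b ∈ B, g = a * b) (g : G) : ∃ b ∈ B, ∃ a ∈ A, g = b * a := by
  obtain ⟨a, ha, b, hb, e⟩ := hAB g⁻¹
  refine ⟨b⁻¹, B.inv_mem hb, a⁻¹, A.inv_mem ha, ?_⟩
  rw [← mul_inv_rev, ← e, inv_inv]

variable [IsMulCommutative A] [IsMulCommutative B]

/-- The key computation of Itô. -/
lemma c_comm_aux (hAB : ∀ g : G, ∃ a ∈ A, ∃ b ∈ B, g = a * b) {a a1 b b1 : G} (ha : a ∈ A) (ha1 : a1 ∈ A)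
    (hb : b ∈ B) (hb1 : b1 ∈ B) : c a b * c a1⁻¹ b1⁻¹ = c a1⁻¹ b1⁻¹ * c a b := by
  obtain ⟨a3, ha3, b3, hb3, e3⟩ := hAB (a1⁻¹ * b * a1)
  obtain ⟨b2, hb2, a2, ha2, e2⟩ := exists_mul_BA A B hAB (b1⁻¹ * a * b1)
  have e3' : a1⁻¹ * c a b * a1 = c a b3 := by
    rw [c_conj_right b (comm_of_mem A ha ha1), e3, c_mul_right b3 (comm_of_mem A ha ha3)]
  have e1 : (a1 * b1)⁻¹ * c a b * (a1 * b1) = c a2 b3 := by
    calc (a1 * b1)⁻¹ * c a b * (a1 * b1) = b1⁻¹ * (a1⁻¹ * c a b * a1) * b1 := by group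
      _ = b1⁻¹ * c a b3 * b1 := by rw [e3']
      _ = c (b1⁻¹ * a * b1) b3 := c_conj_left a (comm_of_mem B hb3 hb1)
      _ = c a2 b3 := by
        rw [e2, c_mul_left a2 (comm_of_mem B hb3 hb2)]
  have e4 : (b1 * a1)⁻¹ * c a b * (b1 * a1) = c a2 b3 := by
    calc (b1 * a1)⁻¹ * c a b * (b1 * a1) = a1⁻¹ * (b1⁻¹ * c a b * b1) * a1 := by group
      _ = a1⁻¹ * c (b1⁻¹ * a * b1) b * a1 := by rw [c_conj_left a (comm_of_mem B hb hb1)]
      _ = a1⁻¹ * c a2 b * a1 := by rw [e2, c_mul_left a2 (comm_of_mem B hb hb2)]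
      _ = c a2 (a1⁻¹ * b * a1) := c_conj_right b (comm_of_mem A ha2 ha1)
      _ = c a2 b3 := by rw [e3, c_mul_right b3 (comm_of_mem A ha2 ha3)]
  have e5 : (a1 * b1)⁻¹ * c a b * (a1 * b1) = (b1 * a1)⁻¹ * c a b * (b1 * a1) := e1.trans e4.symm
  have ew : c a1⁻¹ b1⁻¹ = (a1 * b1) * (b1 * a1)⁻¹ := by unfold c; group
  rw [ew]
  set x := c a b
  calc x * ((a1 * b1) * (b1 * a1)⁻¹) = (a1 * b1) * ((a1 * b1)⁻¹ * x * (a1 * b1)) * (b1 * a1)⁻¹ := by group
    _ = (a1 * b1) * ((b1 * a1)⁻¹ * x * (b1 * a1)) * (b1 * a1)⁻¹ := by rw [e5]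
    _ = (a1 * b1) * (b1 * a1)⁻¹ * x := by group

lemma c_comm (hAB : ∀ g : G, ∃ a ∈ A, ∃ b ∈ B, g = a * b) {a a1 b b1 : G} (ha : a ∈ A) (ha1 : a1 ∈ A)
    (hb : b ∈ B) (hb1 : b1 ∈ B) : c a b * c a1 b1 = c a1 b1 * c a b := by
  have := c_comm_aux A B hAB (a1 := a1⁻¹) (b1 := b1⁻¹) ha (A.inv_mem ha1) hb (B.inv_mem hb1)
  simpa using this

/-- The set of commutators. -/
def S : Set G := {g | ∃ a ∈ A, ∃ b ∈ B, g = c a b}

lemma conj_mem_closure (hAB : ∀ g : G, ∃ a ∈ A, ∃ b ∈ B, g = a * b) :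
    Subgroup.closure (S A B) ∈ {D : Subgroup G | D.Normal} := by
  have hA' : ∀ t ∈ A, ∀ x ∈ Subgroup.closure (S A B), t⁻¹ * x * t ∈ Subgroup.closure (S A B) := by
    intro t ht x hx
    induction hx using Subgroup.closure_induction with
    | mem x hx =>
      obtain ⟨a, ha, b, hb, rfl⟩ := hx
      obtain ⟨a3, ha3, b3, hb3, e3⟩ := hAB (t⁻¹ * b * t)
      apply Subgroup.subset_closure
      refine ⟨a, ha, b3, hb3, ?_⟩
      rw [c_conj_right b (comm_of_mem A ha ht), e3, c_mul_right b3 (comm_of_mem A ha ha3)]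
    | one => simp
    | mul x y _ _ hx hy =>
      have : t⁻¹ * (x * y) * t = (t⁻¹ * x * t) * (t⁻¹ * y * t) := by group
      rw [this]
      exact mul_mem hx hy
    | inv x _ hx =>
      have : t⁻¹ * x⁻¹ * t = (t⁻¹ * x * t)⁻¹ := by group
      rw [this]
      exact inv_mem hx
  have hB' : ∀ t ∈ B, ∀ x ∈ Subgroup.closure (S A B), t⁻¹ * x * t ∈ Subgroup.closure (S A B) := by
    intro t ht x hx
    induction hx using Subgroup.closure_induction with
    | mem x hx =>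
      obtain ⟨a, ha, b, hb, rfl⟩ := hx
      obtain ⟨b2, hb2, a2, ha2, e2⟩ := exists_mul_BA A B hAB (t⁻¹ * a * t)
      apply Subgroup.subset_closure
      refine ⟨a2, ha2, b, hb, ?_⟩
      rw [c_conj_left a (comm_of_mem B hb ht), e2, c_mul_left a2 (comm_of_mem B hb hb2)]
    | one => simp
    | mul x y _ _ hx hy =>
      have : t⁻¹ * (x * y) * t = (t⁻¹ * x * t) * (t⁻¹ * y * t) := by group
      rw [this]
      exact mul_mem hx hy
    | inv x _ hx =>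
      have : t⁻¹ * x⁻¹ * t = (t⁻¹ * x * t)⁻¹ := by group
      rw [this]
      exact inv_mem hx
  refine ⟨fun x hx g => ?_⟩
  obtain ⟨a, ha, b, hb, e⟩ := hAB g⁻¹
  have h1 := hB' b hb _ (hA' a ha x hx)
  have h2 : g * x * g⁻¹ = b⁻¹ * (a⁻¹ * x * a) * b := by
    have hg : g = b⁻¹ * a⁻¹ := by
      rw [← mul_inv_rev, ← e, inv_inv]
    rw [hg]
    group
  rw [h2]
  exact h1

end

/-- Itô's Theorem: if a group G is the product AB of two abelian subgroups, then the commutator subgroup of G is abelian, i.e. the second term of the derived series is trivial. -/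
theorem result {G : Type*} [Group G] (A B : Subgroup G) [IsMulCommutative A] [IsMulCommutative B] (hAB : ∀ g : G, ∃ a ∈ A, ∃ b ∈ B, g = a * b) : derivedSeries G 2 = ⊥ := by
  set D := Subgroup.closure (S A B) with hD
  haveI hDn : D.Normal := conj_mem_closure A B hAB
  -- `G' ≤ D`
  have h1 : derivedSeries G 1 ≤ D := by
    rw [derivedSeries_one, commutator_def, Subgroup.commutator_le]
    intro g _ h _
    have hcomm : ∀ a ∈ A, ∀ b ∈ B, Commute (a : G ⧸ D) (b : G ⧸ D) := by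
      intro a ha b hb
      have h2 : c a b ∈ D := Subgroup.subset_closure ⟨a, ha, b, hb, rfl⟩
      have h3 : ((c a b : G) : G ⧸ D) = 1 := (QuotientGroup.eq_one_iff _).mpr h2
      unfold c at h3
      simp only [QuotientGroup.mk_mul, QuotientGroup.mk_inv] at h3
      show (a : G ⧸ D) * (b : G ⧸ D) = (b : G ⧸ D) * (a : G ⧸ D)
      have h4 : ((a : G ⧸ D)⁻¹ * (b : G ⧸ D)⁻¹ * (a : G ⧸ D) * (b : G ⧸ D)) = 1 := h3
      have h5 : ((b : G ⧸ D) * (a : G ⧸ D))⁻¹ * ((a : G ⧸ D) * (b : G ⧸ D)) = 1 := by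
        rw [mul_inv_rev]
        rw [← mul_assoc]
        exact h4
      exact (inv_mul_eq_one.mp h5).symm
    obtain ⟨a, ha, b, hb, rfl⟩ := hAB g
    obtain ⟨a1, ha1, b1, hb1, rfl⟩ := hAB h
    have hAc : Commute (a : G ⧸ D) (a1 : G ⧸ D) := by
      show _ * _ = _ * _
      rw [← QuotientGroup.mk_mul, ← QuotientGroup.mk_mul, comm_of_mem A ha ha1]
    have hBc : Commute (b : G ⧸ D) (b1 : G ⧸ D) := by
      show _ * _ = _ * _
      rw [← QuotientGroup.mk_mul, ← QuotientGroup.mk_mul, comm_of_mem B hb hb1]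
    have hc : Commute ((a * b : G) : G ⧸ D) ((a1 * b1 : G) : G ⧸ D) := by
      simp only [QuotientGroup.mk_mul]
      exact ((hAc.mul_right (hcomm a ha b1 hb1)).mul_left
        ((hcomm a1 ha1 b hb).symm.mul_right hBc))
    rw [← QuotientGroup.eq_one_iff]
    simp only [commutatorElement_def, QuotientGroup.mk_mul, QuotientGroup.mk_inv] at hc ⊢
    have h6 := hc.eq
    rw [h6]
    group
  -- `D` is abelian
  have hS : ∀ x ∈ S A B, ∀ y ∈ S A B, x * y = y * x := by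
    rintro _ ⟨a, ha, b, hb, rfl⟩ _ ⟨a1, ha1, b1, hb1, rfl⟩
    exact c_comm A B hAB ha ha1 hb hb1
  have hS2 : ∀ x ∈ S A B, ∀ y ∈ D, x * y = y * x := by
    intro x hx y hy
    induction hy using Subgroup.closure_induction with
    | mem y hy => exact hS x hx y hy
    | one => simp
    | mul y z _ _ hy hz =>
      rw [← mul_assoc, hy, mul_assoc, hz, mul_assoc]
    | inv y _ hy =>
      exact (Commute.inv_right (a := x) (b := y) hy)
  have hS3 : ∀ x ∈ D, ∀ y ∈ D, x * y = y * x := by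
    intro x hx y hy
    induction hx using Subgroup.closure_induction with
    | mem x hx => exact hS2 x hx y hy
    | one => simp
    | mul x z _ _ hx hz =>
      rw [mul_assoc, hz, ← mul_assoc, hx, mul_assoc]
    | inv x _ hx =>
      exact (Commute.inv_left (a := x) (b := y) hx)
  rw [eq_bot_iff]
  have h2 : derivedSeries G 2 = ⁅derivedSeries G 1, derivedSeries G 1⁆ := rfl
  rw [h2, Subgroup.commutator_le]
  intro x hx y hy
  have := hS3 x (h1 hx) y (h1 hy)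
  rw [Subgroup.mem_bot, commutatorElement_eq_one_iff_mul_comm]
  exact this

end Cfsg.Agent.S0572
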