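import Mathlib
import Cfsg.Statements.S0573
import Cfsg.Agent.S0572
import Cfsg.Agent.Lib.Factorized

set_option autoImplicit false
open Cfsg

namespace Cfsg.Agent.S0573

open Cfsg.Agent.Lib.Factorized
open scoped commutatorElement

variable {G : Type*} [Group G]

/-- Itô's identity. -/
theorem ito_identity {e x0 Φ f z z' : G} (h1 : e * x0 = x0 * e) (h2 : e * Φ = Φ * e)
    (h3 : f * z = z * f) (h4 : f * z' = z' * f) (hz : z * x0 = Φ * z') :
    z * ((e * f)⁻¹ * (x0 * (e * f) * x0⁻¹)) * z⁻¹ = (e * f)⁻¹ * (Φ * (e * f) * Φ⁻¹) := by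
  have c1 : (e * f)⁻¹ * (x0 * (e * f) * x0⁻¹) = f⁻¹ * x0 * f * x0⁻¹ := by
    calc (e * f)⁻¹ * (x0 * (e * f) * x0⁻¹) = f⁻¹ * e⁻¹ * (x0 * e) * f * x0⁻¹ := by group
      _ = f⁻¹ * e⁻¹ * (e * x0) * f * x0⁻¹ := by rw [h1]
      _ = f⁻¹ * x0 * f * x0⁻¹ := by group
  have c2 : (e * f)⁻¹ * (Φ * (e * f) * Φ⁻¹) = f⁻¹ * Φ * f * Φ⁻¹ := by
    calc (e * f)⁻¹ * (Φ * (e * f) * Φ⁻¹) = f⁻¹ * e⁻¹ * (Φ * e) * f * Φ⁻¹ := by group
      _ = f⁻¹ * e⁻¹ * (e * Φ) * f * Φ⁻¹ := by rw [h2]
      _ = f⁻¹ * Φ * f * Φ⁻¹ := by group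
  rw [c1, c2]
  have hc1 : z * f⁻¹ = f⁻¹ * z := by
    rw [eq_inv_mul_iff_mul_eq, ← mul_assoc, h3, mul_assoc, mul_inv_cancel, mul_one]
  have hc2 : z' * f * z'⁻¹ = f := by
    rw [← h4]; group
  calc z * (f⁻¹ * x0 * f * x0⁻¹) * z⁻¹ = (z * f⁻¹) * x0 * f * (z * x0)⁻¹ := by group
    _ = f⁻¹ * (z * x0) * f * (z * x0)⁻¹ := by rw [hc1]; group
    _ = f⁻¹ * (Φ * z') * f * (Φ * z')⁻¹ := by rw [hz]
    _ = f⁻¹ * Φ * (z' * f * z'⁻¹) * Φ⁻¹ := by group
    _ = f⁻¹ * Φ * f * Φ⁻¹ := by rw [hc2]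

/-- The key inequality. -/
theorem card_lt (W A B : Subgroup G) [Finite G] [hW : W.Normal] [IsMulCommutative A] [IsMulCommutative B]
    (hAB : ∀ g : G, ∃ a ∈ A, ∃ b ∈ B, g = a * b)
    (hdich : ∀ g : G, ∀ v ∈ W, v ≠ 1 → g * v * g⁻¹ = v → ∀ w ∈ W, g * w * g⁻¹ = w)
    {x0 : G} (hx0 : x0 ∈ A) {y0 : G} (hy0 : y0 ∈ W) (hne : x0 * y0 * x0⁻¹ ≠ y0) :
    Nat.card (B.map (MulAut.conjNormal : G →* MulAut W)) <
      Nat.card (A.map (MulAut.conjNormal : G →* MulAut W)) := by
  classical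
  let φ : G →* MulAut W := MulAut.conjNormal
  have hφ : ∀ (g : G) (w : W), ((φ g w : W) : G) = g * w * g⁻¹ := fun g w => rfl
  obtain ⟨e, he, f, hf, rfl⟩ := hAB y0
  have hcA : ∀ {x y : G}, x ∈ A → y ∈ A → x * y = y * x := fun hx hy => setLike_mul_comm hx hy
  have hcB : ∀ {x y : G}, x ∈ B → y ∈ B → x * y = y * x := fun hx hy => setLike_mul_comm hx hy
  set y := e * f with hy
  set v := y⁻¹ * (x0 * y * x0⁻¹) with hv
  have hvW : v ∈ W := W.mul_mem (W.inv_mem hy0) (hW.conj_mem _ hy0 _)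
  have hv1 : v ≠ 1 := by
    intro h
    apply hne
    rw [hv, inv_mul_eq_one] at h
    exact h.symm
  -- the map
  have hchoose : ∀ τ : B.map φ, ∃ z ∈ B, φ z = τ := by
    rintro ⟨_, z, hz, rfl⟩
    exact ⟨z, hz, rfl⟩
  choose zz hzz hzφ using hchoose
  have hchoose2 : ∀ τ : B.map φ, ∃ Φ ∈ A, ∃ z' ∈ B, zz τ * x0 = Φ * z' := fun τ => hAB _
  choose Φ hΦ z' hz' hzΦ using hchoose2
  let F : B.map φ → A.map φ := fun τ => ⟨φ (Φ τ), Subgroup.mem_map_of_mem φ (hΦ τ)⟩
  have hid : ∀ τ, zz τ * v * (zz τ)⁻¹ = y⁻¹ * (Φ τ * y * (Φ τ)⁻¹) := fun τ =>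
    ito_identity (hcA he hx0) (hcA he (hΦ τ)) (hcB hf (hzz τ)) (hcB hf (hz' τ)) (hzΦ τ)
  have hFinj : Function.Injective F := by
    intro τ1 τ2 h
    have h1 : φ (Φ τ1) = φ (Φ τ2) := congrArg Subtype.val h
    have h2 : Φ τ1 * y * (Φ τ1)⁻¹ = Φ τ2 * y * (Φ τ2)⁻¹ := by
      have := congrArg (fun α : MulAut W => ((α ⟨y, hy0⟩ : W) : G)) h1
      exact this
    have h3 : zz τ1 * v * (zz τ1)⁻¹ = zz τ2 * v * (zz τ2)⁻¹ := by
      rw [hid, hid, h2]
    have h4 : ((zz τ2)⁻¹ * zz τ1) * v * ((zz τ2)⁻¹ * zz τ1)⁻¹ = v := by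
      calc ((zz τ2)⁻¹ * zz τ1) * v * ((zz τ2)⁻¹ * zz τ1)⁻¹ = (zz τ2)⁻¹ * (zz τ1 * v * (zz τ1)⁻¹) * zz τ2 := by group
        _ = (zz τ2)⁻¹ * (zz τ2 * v * (zz τ2)⁻¹) * zz τ2 := by rw [h3]
        _ = v := by group
    have h5 := hdich _ v hvW hv1 h4
    apply Subtype.ext
    rw [← hzφ τ1, ← hzφ τ2]
    ext w
    show zz τ1 * w * (zz τ1)⁻¹ = zz τ2 * w * (zz τ2)⁻¹
    have h6 := h5 w w.2
    calc zz τ1 * w * (zz τ1)⁻¹ = zz τ2 * (((zz τ2)⁻¹ * zz τ1) * w * ((zz τ2)⁻¹ * zz τ1)⁻¹) * (zz τ2)⁻¹ := by group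
      _ = zz τ2 * w * (zz τ2)⁻¹ := by rw [h6]
  have hFns : ¬ Function.Surjective F := by
    intro hs
    obtain ⟨τ, hτ⟩ := hs ⟨1, Subgroup.one_mem _⟩
    have h1 : φ (Φ τ) = 1 := congrArg Subtype.val hτ
    have h2 : Φ τ * y * (Φ τ)⁻¹ = y := by
      have := congrArg (fun α : MulAut W => ((α ⟨y, hy0⟩ : W) : G)) h1
      exact this
    have h3 := hid τ
    rw [h2, inv_mul_cancel] at h3
    apply hv1
    have : v = (zz τ)⁻¹ * (zz τ * v * (zz τ)⁻¹) * zz τ := by group
    rw [this, h3]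
    group
  cases nonempty_fintype G
  have hlt := Fintype.card_lt_of_injective_not_surjective F hFinj hFns
  simpa [Nat.card_eq_fintype_card] using hlt

/-- If a nontrivial finite group G is the product AB of abelian subgroups A and B, then some nontrivial normal subgroup of G is contained in A or in B. -/
theorem result {G : Type*} [Group G] [Finite G] [Nontrivial G] (A B : Subgroup G) [IsMulCommutative A] [IsMulCommutative B] (hAB : ∀ g : G, ∃ a ∈ A, ∃ b ∈ B, g = a * b) : ∃ N : Subgroup G, N.Normal ∧ N ≠ ⊥ ∧ (N ≤ A ∨ N ≤ B) := by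
  classical
  have hcA : ∀ {x y : G}, x ∈ A → y ∈ A → x * y = y * x := fun hx hy => setLike_mul_comm hx hy
  have hcB : ∀ {x y : G}, x ∈ B → y ∈ B → x * y = y * x := fun hx hy => setLike_mul_comm hx hy
  by_cases hZ : Subgroup.center G = ⊥
  swap
  · -- a nontrivial central element
    obtain ⟨z, hz, hz1⟩ := (Subgroup.bot_or_exists_ne_one _).resolve_left hZ
    obtain ⟨a, ha, b, hb, rfl⟩ := hAB z
    have hzc : ∀ g, g * (a * b) = (a * b) * g := fun g => (Subgroup.mem_center_iff.mp hz g)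
    have haC : a ∈ Subgroup.center G := by
      rw [Subgroup.mem_center_iff]
      intro g
      obtain ⟨c, hc, d, hd, rfl⟩ := hAB g
      have h1 : d * a = a * d := by
        have h2 := hzc d
        have h3 : d * b = b * d := hcB hd hb
        calc d * a = d * (a * b) * b⁻¹ := by group
          _ = (a * b) * d * b⁻¹ := by rw [h2]
          _ = a * (b * d) * b⁻¹ := by group
          _ = a * (d * b) * b⁻¹ := by rw [h3]
          _ = a * d := by group
      calc c * d * a = c * (d * a) := by group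
        _ = c * (a * d) := by rw [h1]
        _ = (c * a) * d := by group
        _ = (a * c) * d := by rw [hcA hc ha]
        _ = a * (c * d) := by group
    have hbC : b ∈ Subgroup.center G := by
      have : b = a⁻¹ * (a * b) := by group
      rw [this]
      exact (Subgroup.center G).mul_mem ((Subgroup.center G).inv_mem haC) hz
    have hnorm : ∀ S : Subgroup G, (Subgroup.center G ⊓ S).Normal := by
      intro S
      refine ⟨fun n hn g => ?_⟩
      have hn1 := Subgroup.mem_center_iff.mp hn.1 g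
      rw [hn1, mul_assoc, mul_inv_cancel, mul_one]
      exact hn
    by_cases ha1 : a = 1
    · refine ⟨Subgroup.center G ⊓ B, hnorm B, ?_, Or.inr inf_le_right⟩
      intro h
      have : b ∈ Subgroup.center G ⊓ B := ⟨hbC, hb⟩
      rw [h, Subgroup.mem_bot] at this
      apply hz1
      rw [ha1, this, one_mul]
    · refine ⟨Subgroup.center G ⊓ A, hnorm A, ?_, Or.inl inf_le_right⟩
      intro h
      have : a ∈ Subgroup.center G ⊓ A := ⟨haC, ha⟩
      rw [h, Subgroup.mem_bot] at this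
      exact ha1 this
  -- trivial center
  have hG' : commutator G ≠ ⊥ := by
    intro h
    have hcomm : ∀ x y : G, x * y = y * x := by
      intro x y
      have : ⁅x, y⁆ ∈ commutator G := by
        rw [commutator_def]
        exact Subgroup.commutator_mem_commutator (Subgroup.mem_top x) (Subgroup.mem_top y)
      rw [h, Subgroup.mem_bot, commutatorElement_eq_one_iff_mul_comm] at this
      exact this
    obtain ⟨x, hx⟩ := exists_ne (1 : G)
    have : x ∈ Subgroup.center G := by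
      rw [Subgroup.mem_center_iff]
      intro g
      exact hcomm g x
    rw [hZ, Subgroup.mem_bot] at this
    exact hx this
  have hmeta : ∀ {x y : G}, x ∈ commutator G → y ∈ commutator G → x * y = y * x := by
    intro x y hx hy
    have h2 := Cfsg.Agent.S0572.result A B hAB
    have h3 : ⁅x, y⁆ ∈ derivedSeries G 2 := by
      show ⁅x, y⁆ ∈ ⁅derivedSeries G 1, derivedSeries G 1⁆
      have h1 : derivedSeries G 1 = commutator G := by
        simp [derivedSeries_succ, commutator_def]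
      rw [h1]
      exact Subgroup.commutator_mem_commutator hx hy
    rw [h2, Subgroup.mem_bot, commutatorElement_eq_one_iff_mul_comm] at h3
    exact h3
  -- minimal normal
  let S : Set (Subgroup G) := {N | N.Normal ∧ N ≠ ⊥ ∧ N ≤ commutator G}
  obtain ⟨W, hWmin⟩ := (Set.toFinite S).exists_minimal ⟨commutator G, inferInstance, hG', le_rfl⟩
  have hWn : W.Normal := hWmin.1.1
  have hW0 : W ≠ ⊥ := hWmin.1.2.1
  have hWle : W ≤ commutator G := hWmin.1.2.2
  have hdich : ∀ g : G, ∀ v ∈ W, v ≠ 1 → g * v * g⁻¹ = v → ∀ w ∈ W, g * w * g⁻¹ = w := by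
    intro g v hv hv1 hgv w hw
    let C : Subgroup G := W ⊓ Subgroup.centralizer {g}
    have hCmem : ∀ u, u ∈ C ↔ u ∈ W ∧ g * u * g⁻¹ = u := by
      intro u
      show u ∈ W ⊓ Subgroup.centralizer {g} ↔ _
      rw [Subgroup.mem_inf, Subgroup.mem_centralizer_singleton_iff]
      constructor
      · rintro ⟨h1, h2⟩
        exact ⟨h1, by rw [← h2, mul_assoc, mul_inv_cancel, mul_one]⟩
      · rintro ⟨h1, h2⟩
        refine ⟨h1, ?_⟩
        calc u * g = (g * u * g⁻¹) * g := by rw [h2]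
          _ = g * u := by group
    have hCn : C.Normal := by
      refine ⟨fun u hu h => ?_⟩
      rw [hCmem] at hu ⊢
      refine ⟨hWn.conj_mem _ hu.1 h, ?_⟩
      have hc : h⁻¹ * g * h * g⁻¹ ∈ commutator G := by
        have : h⁻¹ * g * h * g⁻¹ = ⁅h⁻¹, g⁆ := by
          rw [commutatorElement_def, inv_inv]
        rw [this, commutator_def]
        exact Subgroup.commutator_mem_commutator (Subgroup.mem_top _) (Subgroup.mem_top _)
      have hc2 := hmeta hc (hWle hu.1)
      set c := h⁻¹ * g * h * g⁻¹ with hcdef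
      have hgh : g * h = h * c * g := by
        rw [hcdef]; group
      calc g * (h * u * h⁻¹) * g⁻¹ = (g * h) * u * (g * h)⁻¹ := by group
        _ = (h * c * g) * u * (h * c * g)⁻¹ := by rw [hgh]
        _ = h * c * (g * u * g⁻¹) * c⁻¹ * h⁻¹ := by group
        _ = h * c * u * c⁻¹ * h⁻¹ := by rw [hu.2]
        _ = h * (c * u) * c⁻¹ * h⁻¹ := by group
        _ = h * (u * c) * c⁻¹ * h⁻¹ := by rw [hc2]
        _ = h * u * h⁻¹ := by group
    have hCS : C ∈ S := by
      refine ⟨hCn, ?_, inf_le_left.trans hWle⟩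
      intro h
      have : v ∈ C := (hCmem v).2 ⟨hv, hgv⟩
      rw [h, Subgroup.mem_bot] at this
      exact hv1 this
    have hCW : W ≤ C := hWmin.2 hCS inf_le_left
    exact ((hCmem w).1 (hCW hw)).2
  have hAB' := exists_mul_swap hAB
  by_cases hBc : ∀ x ∈ B, ∀ y ∈ W, x * y * x⁻¹ = y
  · -- B centralises W
    refine ⟨W, hWn, hW0, Or.inr ?_⟩
    intro y hy
    obtain ⟨e, he, f, hf, rfl⟩ := hAB y
    have heC : e ∈ Subgroup.center G := by
      rw [Subgroup.mem_center_iff]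
      intro g
      obtain ⟨c, hc, d, hd, rfl⟩ := hAB g
      have h1 : d * e = e * d := by
        have h2 := hBc d hd _ hy
        have h3 : d * f = f * d := hcB hd hf
        have h4 : f * d * f⁻¹ = d := by
          rw [← h3]; group
        calc d * e = d * (e * f) * d⁻¹ * (d * f⁻¹) := by group
          _ = (e * f) * (d * f⁻¹) := by rw [h2]
          _ = e * (f * d * f⁻¹) := by group
          _ = e * d := by rw [h4]
      calc c * d * e = c * (d * e) := by group
        _ = c * (e * d) := by rw [h1]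
        _ = (c * e) * d := by group
        _ = (e * c) * d := by rw [hcA hc he]
        _ = e * (c * d) := by group
    rw [hZ, Subgroup.mem_bot] at heC
    rw [heC, one_mul]
    exact hf
  by_cases hAc : ∀ x ∈ A, ∀ y ∈ W, x * y * x⁻¹ = y
  · -- A centralises W
    refine ⟨W, hWn, hW0, Or.inl ?_⟩
    intro y hy
    obtain ⟨e, he, f, hf, rfl⟩ := hAB y
    have hfC : f ∈ Subgroup.center G := by
      rw [Subgroup.mem_center_iff]
      intro g
      obtain ⟨c, hc, d, hd, rfl⟩ := hAB' g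
      have h1 : d * f = f * d := by
        have h2 := hAc d hd _ hy
        have h3 : d * e = e * d := hcA hd he
        have h4 : d * (e * f) * d⁻¹ = e * (d * f * d⁻¹) := by
          calc d * (e * f) * d⁻¹ = (d * e) * f * d⁻¹ := by group
            _ = (e * d) * f * d⁻¹ := by rw [h3]
            _ = e * (d * f * d⁻¹) := by group
        rw [h4] at h2
        have h5 := mul_left_cancel h2
        calc d * f = d * f * d⁻¹ * d := by group
          _ = f * d := by rw [h5]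
      calc c * d * f = c * (d * f) := by group
        _ = c * (f * d) := by rw [h1]
        _ = (c * f) * d := by group
        _ = (f * c) * d := by rw [hcB hc hf]
        _ = f * (c * d) := by group
    rw [hZ, Subgroup.mem_bot] at hfC
    rw [hfC, mul_one]
    exact he
  · exfalso
    push_neg at hBc hAc
    obtain ⟨x1, hx1, y1, hy1, hne1⟩ := hBc
    obtain ⟨x2, hx2, y2, hy2, hne2⟩ := hAc
    have h1 := card_lt W A B hAB hdich hx2 hy2 hne2
    have h2 := card_lt W B A hAB' hdich hx1 hy1 hne1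
    exact lt_asymm h1 h2

end Cfsg.Agent.S0573
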