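import Mathlib
import Cfsg.Statements.S0571
import Cfsg.Agent.S0573
import Cfsg.Agent.Lib.SuperSolv
import Cfsg.Agent.Lib.SuperSolv2

set_option autoImplicit false
open Cfsg

namespace Cfsg.Agent.S0571

open Cfsg.Agent.Lib.SuperSolv Cfsg.Agent.Lib.SuperSolv2

/-- If a finite group G is the product AB of two cyclic subgroups (every element is a product ab), then G is supersolvable. -/
theorem result {G : Type*} [Group G] [Finite G] (A B : Subgroup G) [IsCyclic A] [IsCyclic B] (hAB : ∀ g : G, ∃ a ∈ A, ∃ b ∈ B, g = a * b) : Cfsg.IsSupersolvable G := by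
  induction hc : Nat.card G using Nat.strong_induction_on generalizing G with
  | _ n ih =>
    by_cases hnt : Nontrivial G
    swap
    · rw [not_nontrivial_iff_subsingleton] at hnt
      exact isSupersolvable_of_subsingleton
    haveI : IsMulCommutative A := ⟨⟨fun x y => by
      letI := IsCyclic.commGroup (α := A)
      exact mul_comm x y⟩⟩
    haveI : IsMulCommutative B := ⟨⟨fun x y => by
      letI := IsCyclic.commGroup (α := B)
      exact mul_comm x y⟩⟩
    obtain ⟨N, hN, hN0, hN2⟩ := Cfsg.Agent.S0573.result A B hAB
    haveI : IsCyclic N := by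
      rcases hN2 with h | h
      · exact isCyclic_of_injective (Subgroup.inclusion h) (Subgroup.inclusion_injective h)
      · exact isCyclic_of_injective (Subgroup.inclusion h) (Subgroup.inclusion_injective h)
    apply isSupersolvable_of_cyclic_normal N
    let π := QuotientGroup.mk' N
    haveI : IsCyclic (A.map π) :=
      isCyclic_of_surjective (π.subgroupMap A) (π.subgroupMap_surjective A)
    haveI : IsCyclic (B.map π) :=
      isCyclic_of_surjective (π.subgroupMap B) (π.subgroupMap_surjective B)
    refine ih _ ?_ (A.map π) (B.map π) ?_ rfl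
    · rw [← hc]
      exact card_quotient_lt N hN0
    · intro g
      obtain ⟨g, rfl⟩ := QuotientGroup.mk'_surjective N g
      obtain ⟨a, ha, b, hb, rfl⟩ := hAB g
      exact ⟨π a, Subgroup.mem_map_of_mem π ha, π b, Subgroup.mem_map_of_mem π hb, map_mul π a b⟩

end Cfsg.Agent.S0571
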