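import Mathlib
import Cfsg.Statements.S0574
import Cfsg.Agent.S0572
import Cfsg.Agent.S0564
import Cfsg.Agent.S0577

set_option autoImplicit false
set_option linter.style.haveILetI false
open Cfsg

namespace Cfsg.Agent.S0574

universe u

open Subgroup
open scoped commutatorElement

section aux

variable {X : Type u} [Group X]

/-- A quotient by a normal subgroup containing the derived group of one factor is metabelian. -/
theorem derived_two_le {A D W : Subgroup X} [hW : W.Normal]
    (hAc : ∀ a ∈ A, ∀ a' ∈ A, a * a' = a' * a) (hE : ⁅D, D⁆ ≤ W)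
    (hf : ∀ g : X, ∃ a ∈ A, ∃ b ∈ D, g = a * b) : derivedSeries X 2 ≤ W := by
  set q := QuotientGroup.mk' W with hq
  haveI hcA : IsMulCommutative ↥(A.map q) := ⟨⟨by
    rintro ⟨_, a, ha, rfl⟩ ⟨_, a', ha', rfl⟩
    apply Subtype.ext
    show q a * q a' = q a' * q a
    rw [← map_mul, hAc a ha a' ha', map_mul]⟩⟩
  haveI hcD : IsMulCommutative ↥(D.map q) := ⟨⟨by
    rintro ⟨_, d, hd, rfl⟩ ⟨_, d', hd', rfl⟩
    apply Subtype.ext
    show q d * q d' = q d' * q d
    have h1 : ⁅d, d'⁆ ∈ W := hE (commutator_mem_commutator hd hd')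
    have h2 : q ⁅d, d'⁆ = 1 := by
      rw [hq, ← MonoidHom.mem_ker, QuotientGroup.ker_mk']
      exact h1
    rw [map_commutatorElement, commutatorElement_eq_one_iff_mul_comm] at h2
    exact h2⟩⟩
  have h := Cfsg.Agent.S0572.result (A.map q) (D.map q) (by
    intro g
    obtain ⟨x, rfl⟩ := QuotientGroup.mk'_surjective W g
    obtain ⟨a, ha, b, hb, e⟩ := hf x
    exact ⟨q a, ⟨a, ha, rfl⟩, q b, ⟨b, hb, rfl⟩, by rw [e, map_mul]⟩)
  have h2 := map_derivedSeries_le_derivedSeries q 2
  rw [h, le_bot_iff] at h2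
  intro x hx
  have h3 : q x ∈ (derivedSeries X 2).map q := ⟨x, hx, rfl⟩
  rw [h2, Subgroup.mem_bot] at h3
  rw [← QuotientGroup.ker_mk' W, MonoidHom.mem_ker]
  exact h3

/-- Derived series and subgroups containing a term. -/
theorem derivedSeries_add_le (H : Subgroup X) (k m : ℕ) (h : derivedSeries X k ≤ H) :
    derivedSeries X (k + m) ≤ (derivedSeries H m).map H.subtype := by
  induction m with
  | zero =>
    intro x hx
    exact ⟨⟨x, h hx⟩, by simp, rfl⟩
  | succ m ih =>
    rw [← add_assoc, derivedSeries_succ, derivedSeries_succ, Subgroup.map_commutator]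
    exact commutator_mono ih ih

theorem length_lt_of_dvd {m n : ℕ} (hd : m ∣ n) (hne : m ≠ n) (hn : n ≠ 0) :
    m.primeFactorsList.length < n.primeFactorsList.length := by
  obtain ⟨k, rfl⟩ := hd
  have hm : m ≠ 0 := fun h => hn (by rw [h, zero_mul])
  have hk : k ≠ 0 := fun h => hn (by rw [h, mul_zero])
  have hk1 : k ≠ 1 := fun h => hne (by rw [h, mul_one])
  have h1 := (Nat.perm_primeFactorsList_mul hm hk).length_eq
  rw [h1, List.length_append]
  have h2 : k.primeFactorsList ≠ [] := by
    intro h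
    rcases Nat.primeFactorsList_eq_nil k |>.1 h with h | h
    · exact hk h
    · exact hk1 h
  have h3 := List.length_pos_of_ne_nil h2
  omega

/-- The main commutator computation. -/
theorem commutator_mem_of_mem_sup {A D W : Subgroup X} [hW : W.Normal]
    (hAc : ∀ a ∈ A, ∀ a' ∈ A, a * a' = a' * a)
    (hE : ∀ e ∈ ⁅D, D⁆, ∀ y ∈ D, e * y = y * e)
    (hf : ∀ g : X, ∃ a ∈ A, ∃ b ∈ D, g = a * b) (hWdef : W = normalClosure ((⁅D, D⁆ : Subgroup X) : Set X))
    {y₁ y₂ : X} (hy₁ : y₁ ∈ D) (hy₂ : y₂ ∈ D) (hy₁' : y₁ ∈ A ⊔ W) (hy₂' : y₂ ∈ A ⊔ W) :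
    ⁅y₁, y₂⁆ ∈ ⁅W, W⁆ := by
  haveI hWW : (⁅W, W⁆).Normal := Subgroup.commutator_normal W W
  set q := QuotientGroup.mk' ⁅W, W⁆ with hq
  have hker : ∀ x, q x = 1 ↔ x ∈ ⁅W, W⁆ := by
    intro x
    rw [hq, ← MonoidHom.mem_ker, QuotientGroup.ker_mk']
  have hcW : ∀ u ∈ W, ∀ v ∈ W, Commute (q u) (q v) := by
    intro u hu v hv
    have h1 := (hker ⁅u, v⁆).2 (commutator_mem_commutator hu hv)
    rw [map_commutatorElement, commutatorElement_eq_one_iff_mul_comm] at h1
    exact h1
  have hcA : ∀ a ∈ A, ∀ a' ∈ A, Commute (q a) (q a') := by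
    intro a ha a' ha'
    show q a * q a' = q a' * q a
    rw [← map_mul, hAc a ha a' ha', map_mul]
  have hEW : ⁅D, D⁆ ≤ W := by
    rw [hWdef]
    exact Subgroup.subset_normalClosure
  -- elements `a` with `a u ∈ D` centralize `W` modulo `W'`
  have hcAW : ∀ a ∈ A, ∀ u ∈ W, a * u ∈ D → ∀ z ∈ W, Commute (q a) (q z) := by
    intro a ha u hu hau
    have he : ∀ e ∈ ⁅D, D⁆, Commute (q a) (q e) := by
      intro e he
      have h1 : Commute (q (a * u)) (q e) := by
        show q (a * u) * q e = q e * q (a * u)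
        rw [← map_mul, ← map_mul, hE e he _ hau]
      rw [map_mul] at h1
      have h2 := hcW u hu e (hEW he)
      have h3 := h1.mul_left h2.inv_left
      simpa using h3
    have hle0 : normalClosure ((⁅D, D⁆ : Subgroup X) : Set X) ≤
        (centralizer ({q a} : Set (X ⧸ ⁅W, W⁆))).comap q := by
      rw [normalClosure, Subgroup.closure_le]
      intro x hx
      obtain ⟨e, he', hex⟩ := Group.mem_conjugatesOfSet_iff.1 hx
      obtain ⟨c, rfl⟩ := isConj_iff.1 hex
      obtain ⟨a', ha', d, hd, rfl⟩ := hf c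
      have h1 : d * e * d⁻¹ = e := by
        have := hE e he' d hd
        rw [← this]
        group
      have h2 : a' * d * e * (a' * d)⁻¹ = a' * e * a'⁻¹ := by
        calc a' * d * e * (a' * d)⁻¹ = a' * (d * e * d⁻¹) * a'⁻¹ := by group
          _ = a' * e * a'⁻¹ := by rw [h1]
      rw [h2]
      show q (a' * e * a'⁻¹) ∈ centralizer ({q a} : Set (X ⧸ ⁅W, W⁆))
      rw [mem_centralizer_iff]
      intro w hw
      rw [Set.mem_singleton_iff.1 hw]
      have h3 : Commute (q a) (q (a' * e * a'⁻¹)) := by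
        rw [map_mul, map_mul, map_inv]
        exact ((hcA a ha a' ha').mul_right (he e he')).mul_right (hcA a ha a' ha').inv_right
      exact h3
    intro z hz
    have h1 := hle0 (hWdef.le hz)
    have h2 : q z ∈ centralizer ({q a} : Set (X ⧸ ⁅W, W⁆)) := h1
    exact mem_centralizer_iff.1 h2 (q a) rfl
  obtain ⟨a₁, ha₁, u₁, hu₁, rfl⟩ := Subgroup.mem_sup_of_normal_right.1 hy₁'
  obtain ⟨a₂, ha₂, u₂, hu₂, rfl⟩ := Subgroup.mem_sup_of_normal_right.1 hy₂'
  rw [← hker, map_commutatorElement, commutatorElement_eq_one_iff_mul_comm]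
  have hc : Commute (q (a₁ * u₁)) (q (a₂ * u₂)) := by
    rw [map_mul, map_mul]
    apply Commute.mul_left
    · apply Commute.mul_right
      · exact hcA a₁ ha₁ a₂ ha₂
      · exact hcAW a₁ ha₁ u₁ hu₁ hy₁ u₂ hu₂
    · apply Commute.mul_right
      · exact (hcAW a₂ ha₂ u₂ hu₂ hy₂ u₁ hu₁).symm
      · exact hcW u₁ hu₁ u₂ hu₂
  exact hc

end aux

theorem main (n : ℕ) : ∀ (X : Type u) [Group X] [Finite X] (A D : Subgroup X),
    (∀ a ∈ A, ∀ a' ∈ A, a * a' = a' * a) → (∀ e ∈ ⁅D, D⁆, ∀ y ∈ D, e * y = y * e) →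
    (∀ g : X, ∃ a ∈ A, ∃ b ∈ D, g = a * b) →
    (Nat.card ↥(⁅D, D⁆ : Subgroup X)).primeFactorsList.length ≤ n →
    derivedSeries X (2 * (1 + n)) = ⊥ := by
  induction n with
  | zero =>
    intro X _ _ A D hAc hE hf hlen
    have h0 : (Nat.card ↥(⁅D, D⁆ : Subgroup X)).primeFactorsList = [] :=
      List.length_eq_zero_iff.1 (Nat.le_zero.1 hlen)
    have h1 : Nat.card ↥(⁅D, D⁆ : Subgroup X) = 1 := by
      rcases Nat.primeFactorsList_eq_nil _ |>.1 h0 with h | h
      · exact absurd h Nat.card_pos.ne'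
      · exact h
    have h2 : (⁅D, D⁆ : Subgroup X) = ⊥ := Subgroup.eq_bot_of_card_eq _ h1
    have h3 := derived_two_le (W := ⊥) hAc h2.le hf
    exact le_bot_iff.1 h3
  | succ n ih =>
    intro X _ _ A D hAc hE hf hlen
    by_cases hbot : (⁅D, D⁆ : Subgroup X) = ⊥
    · have h3 := derived_two_le (W := ⊥) hAc hbot.le hf
      apply le_bot_iff.1
      refine le_trans (derivedSeries_antitone X (by omega)) h3
    set E : Subgroup X := ⁅D, D⁆ with hEdef
    set W : Subgroup X := normalClosure (E : Set X) with hW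
    haveI hWn : W.Normal := inferInstance
    have hEW : E ≤ W := Subgroup.subset_normalClosure
    have hd2 : derivedSeries X 2 ≤ W := derived_two_le hAc hEW hf
    set X₁ := A ⊔ W with hX₁
    have hAX : A ≤ X₁ := le_sup_left
    have hWX : W ≤ X₁ := le_sup_right
    -- solvability of `X`
    have hAnil : Group.IsNilpotent A :=
      Cfsg.Agent.S0577.isNilpotent_of_forall_comm (fun a b => Subtype.ext (hAc a a.2 b b.2))
    have hDnil : Group.IsNilpotent D := by
      have hle : commutator D ≤ center D := by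
        intro x hx
        rw [Subgroup.mem_center_iff]
        intro y
        have h1 : (x : X) ∈ ⁅D, D⁆ := by
          rw [← Subgroup.map_subtype_commutator]
          exact ⟨x, hx, rfl⟩
        exact Subtype.ext (hE x h1 y y.2).symm
      haveI hnil : Group.IsNilpotent (D ⧸ commutator D) :=
        Cfsg.Agent.S0577.isNilpotent_of_forall_comm
          (fun a b => mul_comm (show Abelianization D from a) (show Abelianization D from b))
      exact Subgroup.isNilpotent_of_ker_le_center (QuotientGroup.mk' (commutator D))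
        (by rw [QuotientGroup.ker_mk']; exact hle)
    haveI hsol : Group.IsSolvable X := Cfsg.Agent.S0564.result A D hAnil hDnil hf
    -- the smaller derived group
    set S₁ : Subgroup X := ⁅D ⊓ X₁, D ⊓ X₁⁆ with hS₁
    have hS₁E : S₁ ≤ E := commutator_mono inf_le_left inf_le_left
    have hS₁W : S₁ ≤ ⁅W, W⁆ := by
      rw [hS₁, commutator_le]
      intro y₁ hy₁ y₂ hy₂
      exact commutator_mem_of_mem_sup hAc hE hf rfl hy₁.1 hy₂.1 hy₁.2 hy₂.2
    have hS₁ne : S₁ ≠ E := by
      intro h
      have h1 : E ≤ ⁅W, W⁆ := h ▸ hS₁W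
      haveI : (⁅W, W⁆).Normal := Subgroup.commutator_normal W W
      have h2 : W ≤ ⁅W, W⁆ := Subgroup.normalClosure_le_normal h1
      obtain ⟨k, hk⟩ := (Group.isSolvable_def X).1 hsol
      have h3 : ∀ j, W ≤ derivedSeries X j := by
        intro j
        induction j with
        | zero => exact le_top
        | succ j ihj =>
          rw [derivedSeries_succ]
          exact h2.trans (commutator_mono ihj ihj)
      have h4 := h3 k
      rw [hk, le_bot_iff] at h4
      apply hbot
      rw [← le_bot_iff, ← h4]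
      exact hEW
    -- the subgroups of `X₁`
    set D₁ := D.subgroupOf X₁ with hD₁
    have hmapD : D₁.map X₁.subtype = D ⊓ X₁ := Subgroup.subgroupOf_map_subtype D X₁
    have hcard : Nat.card ↥(⁅D₁, D₁⁆ : Subgroup X₁) = Nat.card S₁ := by
      rw [hS₁, ← hmapD, ← Subgroup.map_commutator]
      exact (Subgroup.card_map_of_injective X₁.subtype_injective).symm
    have hlen' : (Nat.card ↥(⁅D₁, D₁⁆ : Subgroup X₁)).primeFactorsList.length ≤ n := by
      rw [hcard]
      have h1 : Nat.card S₁ ∣ Nat.card E := Subgroup.card_dvd_of_le hS₁E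
      have h2 : Nat.card S₁ ≠ Nat.card E := fun h =>
        hS₁ne (Subgroup.eq_of_le_of_card_ge hS₁E h.ge)
      have h3 := length_lt_of_dvd h1 h2 Nat.card_pos.ne'
      omega
    have hIH := ih X₁ (A.subgroupOf X₁) D₁
      (fun a ha a' ha' => Subtype.ext (hAc a ha a' ha'))
      (by
        intro e he y hy
        have h1 : (e : X) ∈ S₁ := by
          rw [hS₁, ← hmapD, ← Subgroup.map_commutator]
          exact ⟨e, he, rfl⟩
        exact Subtype.ext (hE e (hS₁E h1) y hy))
      (by
        rintro ⟨g, hg⟩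
        obtain ⟨a, ha, d, hd, e⟩ := hf g
        have hdX : d ∈ X₁ := by
          have : d = a⁻¹ * g := by rw [e]; group
          rw [this]
          exact X₁.mul_mem (X₁.inv_mem (hAX ha)) hg
        exact ⟨⟨a, hAX ha⟩, ha, ⟨d, hdX⟩, hd, Subtype.ext e⟩)
      hlen'
    have h5 := derivedSeries_add_le X₁ 2 (2 * (1 + n)) (hd2.trans hWX)
    rw [hIH, Subgroup.map_bot, le_bot_iff] at h5
    have e : 2 * (1 + (n + 1)) = 2 + 2 * (1 + n) := by ring
    rw [e]
    exact h5

/-- Let the finite group G be the product AB of an abelian subgroup A and a subgroup B of nilpotency class at most two, and let Ω be the number of prime factors, with multiplicity, of the order of the commutator subgroup of B. Then the term of index 2(1 + Ω) of the derived series of G is trivial. -/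
theorem result {G : Type*} [Group G] [Finite G] (A B : Subgroup G) [IsMulCommutative A] (hB : commutator ↥B ≤ Subgroup.center ↥B) (hAB : ∀ g : G, ∃ a ∈ A, ∃ b ∈ B, g = a * b) : derivedSeries G (2 * (1 + (Nat.card ↥(commutator ↥B)).primeFactorsList.length)) = ⊥ := by
  refine main _ G A B ?_ ?_ hAB ?_
  · intro a ha a' ha'
    exact Cfsg.Agent.S0572.comm_of_mem A ha ha'
  · intro e he y hy
    rw [← Subgroup.map_subtype_commutator] at he
    obtain ⟨x, hx, rfl⟩ := he
    have h1 := Subgroup.mem_center_iff.1 (hB hx) ⟨y, hy⟩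
    exact (congrArg Subtype.val h1).symm
  · have : Nat.card ↥(⁅B, B⁆ : Subgroup G) = Nat.card ↥(commutator ↥B) := by
      rw [← Subgroup.map_subtype_commutator]
      exact Subgroup.card_map_of_injective B.subtype_injective
    rw [this]

end Cfsg.Agent.S0574
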