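import Mathlib
import Cfsg.Statements.S0576

set_option autoImplicit false
open Cfsg

namespace Cfsg.Agent.S0576

/-- Let H be a normal subgroup of a finite group G with H contained in the Frattini subgroup of G. Then the group of inner automorphisms of H is contained in the Frattini subgroup of the automorphism group of H. -/
theorem result {G : Type*} [Group G] [Finite G] (H : Subgroup G) [H.Normal] (hH : H ≤ frattini G) : (MulAut.conj : ↥H →* MulAut ↥H).range ≤ frattini (MulAut ↥H) := by
  refine le_iInf₂ fun M hM => ?_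
  by_contra hNM
  let φ : G →* MulAut ↥H := MulAut.conjNormal
  have hφ : ∀ h : H, φ (h : G) = MulAut.conj h := by
    intro h
    ext x
    simp [φ, MulAut.conjNormal_apply]
  haveI : (MulAut.conj : ↥H →* MulAut ↥H).range.Normal := by
    refine ⟨?_⟩
    rintro _ ⟨h, rfl⟩ α
    refine ⟨α h, ?_⟩
    ext x
    simp [MulAut.conj_apply, MulAut.mul_apply]
  have hsup : M ⊔ (MulAut.conj : ↥H →* MulAut ↥H).range = ⊤ := by
    apply hM.2
    refine lt_of_le_of_ne le_sup_left ?_
    intro e
    exact hNM (e ▸ le_sup_right)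
  have hK : M.comap φ ⊔ frattini G = ⊤ := by
    rw [eq_top_iff]
    rintro g -
    have hx : φ g ∈ (MulAut.conj : ↥H →* MulAut ↥H).range ⊔ M := by
      rw [sup_comm, hsup]; trivial
    rw [Subgroup.mem_sup_of_normal_left] at hx
    obtain ⟨_, ⟨h, rfl⟩, m, hm, e⟩ := hx
    have hm' : (h : G)⁻¹ * g ∈ M.comap φ := by
      rw [Subgroup.mem_comap, map_mul, map_inv, hφ, ← e]
      simpa using hm
    have hg : g = (h : G) * ((h : G)⁻¹ * g) := by group
    rw [hg]
    exact mul_mem (Subgroup.mem_sup_right (hH h.2)) (Subgroup.mem_sup_left hm')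
  have hKtop : M.comap φ = ⊤ := frattini_nongenerating hK
  apply hNM
  rintro _ ⟨h, rfl⟩
  have : (h : G) ∈ M.comap φ := by rw [hKtop]; trivial
  rw [Subgroup.mem_comap, hφ] at this
  exact this

end Cfsg.Agent.S0576
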