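import Mathlib
import Cfsg.Statements.S0578

set_option autoImplicit false
open Cfsg

namespace Cfsg.Agent.S0578

universe u

/-- The closure of a commuting set is commutative. -/
theorem comm_closure {G : Type*} [Group G] {S : Set G} (hS : ∀ x ∈ S, ∀ y ∈ S, x * y = y * x) :
    IsMulCommutative (Subgroup.closure S) := by
  have hS2 : ∀ x ∈ S, ∀ y ∈ Subgroup.closure S, x * y = y * x := by
    intro x hx y hy
    induction hy using Subgroup.closure_induction with
    | mem y hy => exact hS x hx y hy
    | one => simp
    | mul y z _ _ hy hz =>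
      rw [← mul_assoc, hy, mul_assoc, hz, mul_assoc]
    | inv y _ hy =>
      exact (Commute.inv_right (a := x) (b := y) hy)
  have hS3 : ∀ x ∈ Subgroup.closure S, ∀ y ∈ Subgroup.closure S, x * y = y * x := by
    intro x hx y hy
    induction hx using Subgroup.closure_induction with
    | mem x hx => exact hS2 x hx y hy
    | one => simp
    | mul x z _ _ hx hz =>
      rw [mul_assoc, hz, ← mul_assoc, hx, mul_assoc]
    | inv x _ hx =>
      exact (Commute.inv_left (a := x) (b := y) hx)
  exact ⟨⟨fun a b => Subtype.ext (hS3 a a.2 b b.2)⟩⟩

/-- Sylow subgroups are abelian under the hypothesis. -/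
theorem sylow_comm {G : Type u} [Group G] [Finite G]
    (h : ∀ A : Subgroup G, IsMulCommutative A → Subgroup.normalizer (A : Set G) = Subgroup.centralizer (A : Set G))
    {p : ℕ} [Fact p.Prime] (P : Sylow p G) : IsMulCommutative (P : Subgroup G) := by
  classical
  let S : Set (Subgroup G) := {A | A ≤ P ∧ IsMulCommutative A}
  have hne : S.Nonempty := ⟨⊥, bot_le, inferInstance⟩
  obtain ⟨A, hA⟩ := S.toFinite.exists_maximal hne
  have hAP : A ≤ (P : Subgroup G) := hA.1.1
  haveI hAc : IsMulCommutative A := hA.1.2
  by_cases hEq : A = P
  · rw [← hEq]; exact hAc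
  exfalso
  -- normalizer growth in the `p`-group `P`
  haveI : Group.IsNilpotent (P : Subgroup G) := P.isPGroup'.isNilpotent
  have hlt : A.subgroupOf (P : Subgroup G) < ⊤ := by
    refine lt_top_iff_ne_top.mpr ?_
    intro e
    rw [Subgroup.subgroupOf_eq_top] at e
    exact hEq (le_antisymm hAP e)
  have hcond := Group.normalizerCondition_of_isNilpotent (G := (P : Subgroup G)) _ hlt
  obtain ⟨x, hx1, hx2⟩ := SetLike.lt_iff_le_and_exists.mp hcond |>.2
  have hxN : (x : G) ∈ Subgroup.normalizer (A : Set G) := by
    rw [← Subgroup.subgroupOf_normalizer_eq hAP] at hx1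
    simpa [Subgroup.mem_subgroupOf] using hx1
  have hxC : (x : G) ∈ Subgroup.centralizer (A : Set G) := by
    rwa [← h A hAc]
  -- `A ⊔ ⟨x⟩` is abelian
  let B : Subgroup G := Subgroup.closure ((A : Set G) ∪ {(x : G)})
  have hABle : A ≤ B := by
    rw [show A = Subgroup.closure (A : Set G) from (Subgroup.closure_eq A).symm]
    exact Subgroup.closure_mono Set.subset_union_left
  have hxB : (x : G) ∈ B := Subgroup.subset_closure (Set.mem_union_right _ rfl)
  have hBP : B ≤ (P : Subgroup G) := by
    rw [Subgroup.closure_le]
    rintro y (hy | rfl)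
    · exact hAP hy
    · exact x.2
  have hBc : IsMulCommutative B := by
    apply comm_closure
    have hxC' : ∀ a ∈ A, a * (x : G) = x * a := by
      intro a ha
      exact Subgroup.mem_centralizer_iff.mp hxC a ha
    rintro y (hy | rfl) z (hz | rfl)
    · exact setLike_mul_comm hy hz
    · exact hxC' y hy
    · exact (hxC' z hz).symm
    · rfl
  have hBS : B ∈ S := ⟨hBP, hBc⟩
  have hBA : B ≤ A := hA.2 hBS hABle
  exact hx2 (by simpa [Subgroup.mem_subgroupOf] using hBA hxB)

theorem aux : ∀ (n : ℕ) (G : Type u) [Group G] [Finite G], Nat.card G = n →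
    (∀ A : Subgroup G, IsMulCommutative A → Subgroup.normalizer (A : Set G) = Subgroup.centralizer (A : Set G)) →
    IsMulCommutative G := by
  intro n
  induction n using Nat.strong_induction_on with
  | _ n ih =>
    intro G _ _ hcard h
    by_cases hn1 : n = 1
    · subst hn1
      haveI : Subsingleton G := (Nat.card_eq_one_iff_unique.mp hcard).1
      exact ⟨⟨fun a b => Subsingleton.elim _ _⟩⟩
    obtain ⟨p, hp, hpd⟩ := Nat.exists_prime_and_dvd hn1
    haveI : Fact p.Prime := ⟨hp⟩
    rw [← hcard] at hpd
    obtain ⟨P⟩ : Nonempty (Sylow p G) := inferInstance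
    haveI hPc : IsMulCommutative (P : Subgroup G) := sylow_comm h P
    have hNC : Subgroup.normalizer (P : Set G) ≤ Subgroup.centralizer (P : Set G) :=
      (h P hPc).le
    have hcompl := MonoidHom.ker_transferSylow_isComplement' P hNC
    set K := (MonoidHom.transferSylow P hNC).ker with hK
    have hKn : K.Normal := MonoidHom.normal_ker _
    -- K is a proper subgroup
    have hcardK : Nat.card K < n := by
      have h1 := hcompl.card_mul_card
      have hPcard : 1 < Nat.card (P : Subgroup G) := by
        have : Nontrivial (P : Subgroup G) :=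
          (Subgroup.nontrivial_iff_ne_bot _).mpr (P.ne_bot_of_dvd_card hpd)
        exact Finite.one_lt_card
      rw [hcard] at h1
      have h2 : 0 < Nat.card K := Nat.card_pos
      nlinarith
    -- the hypothesis restricted to K
    have hKh : ∀ A : Subgroup K, IsMulCommutative A → Subgroup.normalizer (A : Set K) = Subgroup.centralizer (A : Set K) := by
      intro A hA
      let A' : Subgroup G := A.map K.subtype
      haveI hA'c : IsMulCommutative A' := inferInstance
      have hA' := h A' hA'c
      refine le_antisymm ?_ ?_
      · intro x hx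
        rw [Subgroup.mem_centralizer_iff]
        intro a ha
        have hx' : (x : G) ∈ Subgroup.normalizer (A' : Set G) := by
          rw [Subgroup.mem_normalizer_iff]
          intro y
          rw [Subgroup.mem_normalizer_iff] at hx
          constructor
          · rintro ⟨z, hz, rfl⟩
            exact ⟨x * z * x⁻¹, (hx z).mp hz, by simp⟩
          · rintro ⟨z, hz, hzy⟩
            refine ⟨x⁻¹ * z * x, ?_, ?_⟩
            · have := (hx (x⁻¹ * z * x))
              refine this.mpr ?_
              have e : x * (x⁻¹ * z * x) * x⁻¹ = z := by group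
              rwa [e]
            · simp only [Subgroup.subtype_apply, Subgroup.coe_mul, Subgroup.coe_inv] at hzy ⊢
              rw [hzy]; group
        rw [hA'] at hx'
        have := Subgroup.mem_centralizer_iff.mp hx' (a : G) ⟨a, ha, rfl⟩
        exact Subtype.ext this
      · intro x hx
        rw [Subgroup.mem_centralizer_iff] at hx
        rw [Subgroup.mem_normalizer_iff]
        intro y
        constructor
        · intro hy
          have := hx y hy
          have e : x * y * x⁻¹ = y := by
            rw [← this, mul_inv_cancel_right]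
          rwa [e]
        · intro hy
          have := hx _ hy
          have e : x⁻¹ * (x * y * x⁻¹) * x = y := by group
          have h3 : x * y * x⁻¹ * x = x * (x * y * x⁻¹) := this
          have h4 : x * y = x * (x * y * x⁻¹) := by simpa using h3
          have h5 : y = x * y * x⁻¹ := mul_left_cancel h4
          rwa [← h5] at hy
    haveI hKc : IsMulCommutative K := ih _ hcardK K rfl hKh
    have hKcent : ∀ g : G, g ∈ Subgroup.centralizer (K : Set G) := by
      intro g
      rw [← h K hKc, Subgroup.normalizer_eq_top_iff.mpr hKn]
      trivial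
    have hprod : ∀ g : G, ∃ k ∈ K, ∃ q ∈ (P : Subgroup G), k * q = g := by
      intro g
      have : g ∈ K ⊔ (P : Subgroup G) := by
        rw [hcompl.sup_eq_top]; trivial
      exact Subgroup.mem_sup_of_normal_left.mp this
    refine ⟨⟨fun a b => ?_⟩⟩
    obtain ⟨k, hk, q, hq, rfl⟩ := hprod a
    obtain ⟨k', hk', q', hq', rfl⟩ := hprod b
    have c1 : ∀ (k : G), k ∈ K → ∀ g : G, k * g = g * k := by
      intro k hk g
      exact (Subgroup.mem_centralizer_iff.mp (hKcent g) k hk)
    have c2 : q * q' = q' * q := setLike_mul_comm hq hq'
    calc k * q * (k' * q') = k * k' * (q * q') := by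
          rw [mul_assoc k, ← mul_assoc q, ← c1 k' hk' q, mul_assoc k', mul_assoc k]
      _ = k' * k * (q' * q) := by rw [c1 k hk k', c2]
      _ = k' * q' * (k * q) := by
          rw [mul_assoc k', ← mul_assoc k, c1 k hk q', mul_assoc q', mul_assoc k']

/-- If in a finite group the normalizer of each abelian subgroup coincides with its centralizer, then the group is abelian. -/
theorem result {G : Type*} [Group G] [Finite G] (h : ∀ A : Subgroup G, IsMulCommutative A → Subgroup.normalizer (A : Set G) = Subgroup.centralizer (A : Set G)) : IsMulCommutative G :=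
  aux _ G rfl h

end Cfsg.Agent.S0578
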