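import Mathlib
import Cfsg.Statements.S0582
import Cfsg.Agent.S0580
import Cfsg.Agent.S0581
import Cfsg.Agent.Lib.Hall
import Cfsg.Agent.Lib.Factorized
import Cfsg.Agent.Lib.SuperSolv
import Cfsg.Agent.Lib.SuperSolv2

set_option autoImplicit false
set_option linter.style.haveILetI false
open Cfsg

namespace Cfsg.Agent.S0582

open Subgroup Cfsg.Agent.Lib.Factorized
open scoped Pointwise
open Cfsg.Agent.Lib.Hall (exists_conj_le_of_not_dvd_index)
open Cfsg.Agent.S0581 (card_conj index_conj card_subgroupOf_dvd)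

universe u

variable {G : Type*} [Group G]

theorem conj_conj (x y : G) (H : Subgroup G) :
    MulAut.conj x • (MulAut.conj y • H) = MulAut.conj (x * y) • H := by
  rw [smul_smul, map_mul]

theorem super_conj (H : Subgroup G) (hH : Cfsg.IsSupersolvable H) (x : G) :
    Cfsg.IsSupersolvable ↥(MulAut.conj x • H) :=
  Cfsg.Agent.Lib.SuperSolv.isSupersolvable_of_mulEquiv (Subgroup.equivSMul (MulAut.conj x) H) hH

theorem card_subgroupOf_of_le (A M : Subgroup G) (h : A ≤ M) :
    Nat.card ↥(A.subgroupOf M) = Nat.card A :=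
  Nat.card_congr (Subgroup.subgroupOfEquivOfLe h).toEquiv

/-- The Sylow subgroup at the largest prime of the order of a supersolvable Hall subgroup. -/
theorem exists_sylow_part [Finite G] (H : Subgroup G) (hH : Cfsg.IsSupersolvable H)
    (hc : (Nat.card H).Coprime H.index) (p : ℕ) [hp : Fact p.Prime] (hd : p ∣ Nat.card H)
    (hmax : ∀ q : ℕ, q.Prime → q ∣ Nat.card H → q ≤ p) :
    ∃ P : Subgroup G, P ≤ H ∧ H ≤ Subgroup.normalizer (P : Set G) ∧ IsPGroup p P ∧
      ¬ p ∣ P.index ∧ P ≠ ⊥ := by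
  obtain ⟨P0⟩ : Nonempty (Sylow p H) := inferInstance
  have hn : (P0 : Subgroup H).Normal := Cfsg.Agent.S0580.sylow_largest_normal
    (fun M hM => Cfsg.Agent.Lib.SuperSolv2.index_coatom_prime hH M hM) p hmax P0
  refine ⟨(P0 : Subgroup H).map H.subtype, ?_, ?_, P0.isPGroup'.map _, ?_, ?_⟩
  · rintro _ ⟨a, -, rfl⟩
    exact a.2
  · intro h hh
    rw [Subgroup.mem_normalizer_iff]
    intro w
    constructor
    · rintro ⟨a, ha, rfl⟩
      exact ⟨⟨h, hh⟩ * a * ⟨h, hh⟩⁻¹, hn.conj_mem a ha _, by simp⟩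
    · rintro ⟨a, ha, hae⟩
      refine ⟨⟨h, hh⟩⁻¹ * a * ⟨h, hh⟩, ?_, ?_⟩
      · have := hn.conj_mem a ha (⟨h, hh⟩⁻¹)
        rw [inv_inv] at this
        exact this
      · simp only [Subgroup.coe_subtype, Subgroup.coe_mul, Subgroup.coe_inv]
        simp only [Subgroup.coe_subtype] at hae
        rw [hae]
        group
  · rw [Subgroup.index_map_subtype]
    intro h
    rcases (Nat.Prime.dvd_mul hp.out).1 h with h1 | h1
    · exact P0.not_dvd_index h1
    · exact hp.out.not_dvd_one (hc ▸ Nat.dvd_gcd hd h1)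
  · intro h
    have h1 : ((P0 : Subgroup H).map H.subtype) = ⊥ := h
    rw [Subgroup.map_eq_bot_iff_of_injective _ H.subtype_injective] at h1
    have h2 := P0.not_dvd_index
    rw [h1, Subgroup.index_bot] at h2
    exact h2 hd

/-- The induction. -/
theorem main (n : ℕ) : ∀ (G : Type u) [Group G] [Finite G], Nat.card G = n →
    ∀ H K : Subgroup G, Cfsg.IsSupersolvable H → Cfsg.IsSupersolvable K →
    Nat.card H = Nat.card K → (Nat.card H).Coprime H.index → ∃ x : G, MulAut.conj x • H = K := by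
  induction n using Nat.strong_induction_on with
  | _ n ih =>
  intro G _ _ hG H K hH hK hcard hc
  by_cases h1 : Nat.card H = 1
  · refine ⟨1, ?_⟩
    have hHb : H = ⊥ := Subgroup.eq_bot_of_card_eq H h1
    have hKb : K = ⊥ := Subgroup.eq_bot_of_card_eq K (hcard ▸ h1)
    rw [hHb, hKb]
    simp
  obtain ⟨p, hp, hpd, hpmax⟩ := Cfsg.Agent.S0580.exists_largest_prime (Nat.card_pos.ne') h1
  haveI : Fact p.Prime := ⟨hp⟩
  have hcK : (Nat.card K).Coprime K.index := by
    have : K.index = H.index := by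
      have h2 := H.card_mul_index
      have h3 := K.card_mul_index
      rw [hcard] at h2
      exact Nat.eq_of_mul_eq_mul_left Nat.card_pos (h3.trans h2.symm)
    rw [← hcard, this]
    exact hc
  obtain ⟨P, hPH, hHN, hPp, hPi, hPb⟩ := exists_sylow_part H hH hc p hpd hpmax
  obtain ⟨Q, hQK, hKN, hQp, hQi, hQb⟩ := exists_sylow_part K hK hcK p (hcard ▸ hpd)
    (fun q hq hqd => hpmax q hq (hcard ▸ hqd))
  -- conjugate `P` to `Q`
  obtain ⟨g, hg⟩ := exists_conj_le_of_not_dvd_index hQp hPi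
  obtain ⟨g', hg'⟩ := exists_conj_le_of_not_dvd_index hPp hQi
  have hPQ : MulAut.conj g • P = Q := by
    symm
    apply Subgroup.eq_of_le_of_card_ge hg
    rw [card_conj]
    have := Subgroup.card_le_of_le hg'
    rwa [card_conj] at this
  set H1 : Subgroup G := MulAut.conj g • H with hH1
  have hH1s : Cfsg.IsSupersolvable H1 := super_conj H hH g
  have hQH1 : Q ≤ H1 := by
    rw [← hPQ, hH1]
    exact Subgroup.pointwise_smul_le_pointwise_smul_iff.mpr hPH
  have hH1N : H1 ≤ Subgroup.normalizer (Q : Set G) := by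
    intro h1 hh1
    rw [hH1, mem_conj_iff] at hh1
    have h2 := hHN hh1
    rw [Subgroup.mem_normalizer_iff] at h2 ⊢
    intro w
    rw [← hPQ]
    simp only [mem_conj_iff]
    have h3 := h2 (g⁻¹ * w * g)
    have h4 : g⁻¹ * h1 * g * (g⁻¹ * w * g) * (g⁻¹ * h1 * g)⁻¹ = g⁻¹ * (h1 * w * h1⁻¹) * g := by
      group
    rw [h3, h4]
  set M : Subgroup G := Subgroup.normalizer (Q : Set G) with hM
  haveI hQn : (Q.subgroupOf M).Normal := Subgroup.normal_in_normalizer
  let π := QuotientGroup.mk' (Q.subgroupOf M)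
  set H2 : Subgroup M := H1.subgroupOf M with hH2
  set K2 : Subgroup M := K.subgroupOf M with hK2
  have hkerH : π.ker ≤ H2 := by
    rw [QuotientGroup.ker_mk']
    intro a ha
    exact hQH1 ha
  have hkerK : π.ker ≤ K2 := by
    rw [QuotientGroup.ker_mk']
    intro a ha
    exact hQK ha
  have hH2s : Cfsg.IsSupersolvable H2 :=
    Cfsg.Agent.Lib.SuperSolv.isSupersolvable_of_mulEquiv (Subgroup.subgroupOfEquivOfLe hH1N).symm hH1s
  have hK2s : Cfsg.IsSupersolvable K2 :=
    Cfsg.Agent.Lib.SuperSolv.isSupersolvable_of_mulEquiv (Subgroup.subgroupOfEquivOfLe hKN).symm hK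
  have hcH2 : Nat.card H2 = Nat.card H := by
    rw [hH2, card_subgroupOf_of_le _ _ hH1N, hH1, card_conj]
  have hcK2 : Nat.card K2 = Nat.card K := card_subgroupOf_of_le _ _ hKN
  have hcbar : Nat.card (H2.map π) = Nat.card (K2.map π) := by
    have h2 := Cfsg.Agent.Lib.Hall.card_map_of_ker_le π hkerH
    have h3 := Cfsg.Agent.Lib.Hall.card_map_of_ker_le π hkerK
    rw [hcH2] at h2
    rw [hcK2, ← hcard, ← h2] at h3
    exact Nat.eq_of_mul_eq_mul_right Nat.card_pos h3.symm
  have hidx : (H2.map π).index = H2.index :=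
    Subgroup.index_map_eq _ (QuotientGroup.mk'_surjective _) hkerH
  have hcop : (Nat.card (H2.map π)).Coprime (H2.map π).index := by
    rw [hidx]
    have h2 : H2.index ∣ H.index := by
      have h3 : H2.index ∣ H1.index := Dvd.intro _ (Subgroup.relIndex_mul_index hH1N)
      rwa [hH1, index_conj] at h3
    have h3 : Nat.card (H2.map π) ∣ Nat.card H := hcH2 ▸ Subgroup.card_map_dvd _ π
    exact Nat.Coprime.coprime_dvd_left h3 (Nat.Coprime.coprime_dvd_right h2 hc)
  have hQ2 : Q.subgroupOf M ≠ ⊥ := by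
    intro h
    apply hQb
    rw [eq_bot_iff]
    intro a ha
    have : (⟨a, Subgroup.le_normalizer ha⟩ : M) ∈ Q.subgroupOf M := ha
    rw [h, Subgroup.mem_bot] at this
    exact Subgroup.mem_bot.mpr (congrArg Subtype.val this)
  have hcardbar : Nat.card (M ⧸ Q.subgroupOf M) < n := by
    rw [← hG]
    exact (Cfsg.Agent.Lib.SuperSolv2.card_quotient_lt _ hQ2).trans_le (Subgroup.card_le_card_group M)
  obtain ⟨x', hx'⟩ := ih _ hcardbar (M ⧸ Q.subgroupOf M) rfl (H2.map π) (K2.map π)
    (Cfsg.Agent.Lib.SuperSolv.isSupersolvable_of_surjective hH2s (π.subgroupMap H2) (π.subgroupMap_surjective H2))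
    (Cfsg.Agent.Lib.SuperSolv.isSupersolvable_of_surjective hK2s (π.subgroupMap K2) (π.subgroupMap_surjective K2))
    hcbar hcop
  obtain ⟨x, rfl⟩ := QuotientGroup.mk'_surjective _ x'
  have hle : MulAut.conj (x : G) • H1 ≤ K := by
    intro y hy
    rw [mem_conj_iff] at hy
    have hyh := hH1N hy
    have hyM : y ∈ M := by
      have : y = x * ((x : G)⁻¹ * y * x) * (x : G)⁻¹ := by group
      rw [this]
      exact M.mul_mem (M.mul_mem x.2 hyh) (M.inv_mem x.2)
    have h2 : π ⟨y, hyM⟩ ∈ K2.map π := by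
      rw [← hx', mem_conj_iff]
      refine ⟨⟨_, hyh⟩, hy, ?_⟩
      rw [← map_inv, ← map_mul, ← map_mul]
      congr 1
    obtain ⟨k, hk, hke⟩ := h2
    have h3 : k⁻¹ * ⟨y, hyM⟩ ∈ π.ker := by
      rw [MonoidHom.mem_ker, map_mul, map_inv, hke, inv_mul_cancel]
    have h4 := K2.mul_mem hk (hkerK h3)
    rw [mul_inv_cancel_left] at h4
    exact h4
  refine ⟨x * g, ?_⟩
  rw [← conj_conj]
  apply Subgroup.eq_of_le_of_card_ge hle
  rw [card_conj, hH1, card_conj, hcard]

/-- Let H and K be supersolvable subgroups of a finite group G of the same order, that order being coprime to their index. Then H and K are conjugate in G. -/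
theorem result {G : Type*} [Group G] [Finite G] (H K : Subgroup G) (hH : Cfsg.IsSupersolvable H) (hK : Cfsg.IsSupersolvable K) (hcard : Nat.card H = Nat.card K) (hHall : (Nat.card H).Coprime H.index) : ∃ x : G, MulAut.conj x • H = K :=
  main _ G rfl H K hH hK hcard hHall

end Cfsg.Agent.S0582
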