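import Mathlib
import Cfsg.Statements.S0584

set_option autoImplicit false
open Cfsg

namespace Cfsg.Agent.S0584

/-- The Frattini argument for a `p`-subgroup of a normal subgroup of index prime to `p`. -/
theorem frattini_arg {G : Type*} [Group G] [Finite G] {p : ℕ} [Fact p.Prime] {N P : Subgroup G} [N.Normal]
    (hPN : P ≤ N) (hp : IsPGroup p P) (hidx : ¬ p ∣ P.relIndex N) :
    Subgroup.normalizer (P : Set G) ⊔ N = ⊤ := by
  have hp' : IsPGroup p (P.subgroupOf N) := by
    rw [IsPGroup.iff_card] at hp ⊢
    rwa [Nat.card_congr (Subgroup.subgroupOfEquivOfLe hPN).toEquiv]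
  let S : Sylow p N := hp'.toSylow hidx
  have h := Sylow.normalizer_sup_eq_top S
  have e : (S : Subgroup N).map N.subtype = P := by
    change (P.subgroupOf N).map N.subtype = P
    rw [Subgroup.subgroupOf_map_subtype, inf_eq_left.mpr hPN]
  rw [e] at h
  exact h

/-- Let B ≤ A be normal subgroups of a finite group G with B contained in the Frattini subgroup of G. If A modulo B is nilpotent then A is nilpotent. -/
theorem result {G : Type*} [Group G] [Finite G] (A B : Subgroup G) [A.Normal] [B.Normal] (hBA : B ≤ A) (hB : B ≤ frattini G) (h : Group.IsNilpotent (↥A ⧸ B.subgroupOf A)) : Group.IsNilpotent A := by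
  refine ((Group.isNilpotent_of_finite_tfae (G := A)).out 0 3 rfl rfl).mpr ?_
  intro p hp P
  let B' : Subgroup A := B.subgroupOf A
  let π := QuotientGroup.mk' B'
  have hsurj : Function.Surjective π := QuotientGroup.mk'_surjective _
  let Q : Sylow p (A ⧸ B') := P.mapSurjective hsurj
  have hQ : (Q : Subgroup (A ⧸ B')).Normal :=
    ((Group.isNilpotent_of_finite_tfae (G := A ⧸ B')).out 0 3 rfl rfl).mp h p hp Q
  have hQc : (Q : Subgroup (A ⧸ B')).Characteristic := Sylow.characteristic_of_normal Q hQ
  let N : Subgroup A := (Q : Subgroup (A ⧸ B')).comap π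
  have hNeq : N = (P : Subgroup A) ⊔ B' := by
    have : N = ((P : Subgroup A).map π).comap π := rfl
    rw [this, Subgroup.comap_map_eq, QuotientGroup.ker_mk']
  let N' : Subgroup G := N.map A.subtype
  let P' : Subgroup G := (P : Subgroup A).map A.subtype
  have hP'N' : P' ≤ N' := Subgroup.map_mono (by rw [hNeq]; exact le_sup_left)
  haveI hN'n : N'.Normal := by
    refine ⟨?_⟩
    rintro _ ⟨y, hy, rfl⟩ g
    let α : A ≃* A := MulAut.conjNormal g
    have hα : B'.map α.toMonoidHom = B' := by
      ext x
      constructor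
      · rintro ⟨b, hb, rfl⟩
        exact ‹B.Normal›.conj_mem _ hb g
      · intro hx
        refine ⟨α.symm x, ?_, by simp⟩
        have : ((α.symm x : A) : G) = g⁻¹ * x * g := by
          simp [α, MulAut.conjNormal_symm_apply]
        show ((α.symm x : A) : G) ∈ B
        rw [this]
        have := ‹B.Normal›.conj_mem _ hx g⁻¹
        simpa using this
    let ψ : (A ⧸ B') ≃* (A ⧸ B') := QuotientGroup.congr B' B' α hα
    have h1 : (Q : Subgroup (A ⧸ B')).map ψ.toMonoidHom = Q :=
      (Subgroup.characteristic_iff_map_eq.mp hQc) ψ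
    have h2 : π (α y) ∈ (Q : Subgroup (A ⧸ B')) := by
      rw [← h1]
      exact ⟨π y, hy, rfl⟩
    exact ⟨α y, h2, by simp [α, MulAut.conjNormal_apply]⟩
  have hidx : ¬ p ∣ P'.relIndex N' := by
    have h1 := Subgroup.relIndex_mul_relIndex P' N' A hP'N' (Subgroup.map_subtype_le _)
    have h2 : P'.relIndex A = (P : Subgroup A).index := by
      show (P'.subgroupOf A).index = _
      rw [show P'.subgroupOf A = (P : Subgroup A) from
        Subgroup.comap_map_eq_self_of_injective A.subtype_injective _]
    rw [h2] at h1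
    intro hd
    exact P.not_dvd_index (h1 ▸ hd.mul_right _)
  have hpP' : IsPGroup p P' := P.isPGroup'.map _
  have hF := frattini_arg hP'N' hpP' hidx
  have hN'le : N' ≤ Subgroup.normalizer (P' : Set G) ⊔ frattini G := by
    rw [show N' = N.map A.subtype from rfl, hNeq, Subgroup.map_sup]
    refine sup_le ?_ ?_
    · exact Subgroup.le_normalizer.trans le_sup_left
    · have : B'.map A.subtype ≤ B := Subgroup.map_subgroupOf_eq_of_le hBA |>.le
      exact (this.trans hB).trans le_sup_right
  have hF2 : Subgroup.normalizer (P' : Set G) ⊔ frattini G = ⊤ := by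
    rw [eq_top_iff, ← hF]
    exact sup_le le_sup_left hN'le
  have hnorm := frattini_nongenerating hF2
  have hP'normal : P'.Normal := Subgroup.normalizer_eq_top_iff.mp hnorm
  exact hP'normal.of_map_subtype

end Cfsg.Agent.S0584
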