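import Mathlib
import Cfsg.Statements.S0585
import Cfsg.Agent.S0575

set_option autoImplicit false
open Cfsg

namespace Cfsg.Agent.S0585

/-- If the Frattini subgroup of a finite group G is trivial, then every abelian normal subgroup of G has a complement in G. -/
theorem result {G : Type*} [Group G] [Finite G] (hΦ : frattini G = ⊥) (A : Subgroup G) [A.Normal] [IsMulCommutative A] : ∃ H : Subgroup G, Subgroup.IsComplement' A H := by
  classical
  -- a minimal supplement
  let S : Set (Subgroup G) := {H | A ⊔ H = ⊤}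
  have hSne : S.Nonempty := ⟨⊤, by simp [S]⟩
  obtain ⟨H, hH⟩ := S.toFinite.exists_minimal hSne
  have hAH : A ⊔ H = ⊤ := hH.1
  have hmin : ∀ K : Subgroup G, A ⊔ K = ⊤ → K ≤ H → H ≤ K := fun K hK hKH => hH.2 hK hKH
  let N : Subgroup G := A ⊓ H
  -- N is normal in G
  have hNnormal : N.Normal := by
    refine ⟨fun n hn g => ?_⟩
    have hg : g ∈ A ⊔ H := by rw [hAH]; trivial
    rw [Subgroup.mem_sup_of_normal_left] at hg
    obtain ⟨a, ha, h, hh, rfl⟩ := hg
    have hnA : n ∈ A := (Subgroup.mem_inf.mp hn).1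
    have hnH : n ∈ H := (Subgroup.mem_inf.mp hn).2
    have h1 : h * n * h⁻¹ ∈ A := ‹A.Normal›.conj_mem n hnA h
    have h2 : h * n * h⁻¹ ∈ H := H.mul_mem (H.mul_mem hh hnH) (H.inv_mem hh)
    have hcomm : a * (h * n * h⁻¹) = (h * n * h⁻¹) * a := by
      have := IsMulCommutative.is_comm.comm (⟨a, ha⟩ : A) ⟨_, h1⟩
      exact congrArg Subtype.val this
    have e : a * h * n * (a * h)⁻¹ = h * n * h⁻¹ := by
      calc a * h * n * (a * h)⁻¹ = (a * (h * n * h⁻¹)) * a⁻¹ := by group
        _ = h * n * h⁻¹ := by rw [hcomm]; group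
    rw [e]
    exact ⟨h1, h2⟩
  -- N lies in the Frattini subgroup of H
  have hNΦ : N ≤ (frattini ↥H).map H.subtype := by
    intro n hn
    refine ⟨⟨n, hn.2⟩, ?_, rfl⟩
    refine (Subgroup.mem_iInf.mpr fun K => Subgroup.mem_iInf.mpr fun hK => ?_)
    by_contra hnK
    -- K' := image of K
    let K' : Subgroup G := K.map H.subtype
    have hK'H : K' ≤ H := Subgroup.map_subtype_le _
    have hsup : K ⊔ Subgroup.zpowers (⟨n, hn.2⟩ : H) = ⊤ := by
      apply hK.2
      refine lt_of_le_of_ne le_sup_left ?_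
      intro e
      apply hnK
      rw [e]
      exact Subgroup.mem_sup_right (Subgroup.mem_zpowers _)
    have hA : A ⊔ K' = ⊤ := by
      rw [eq_top_iff, ← hAH]
      refine sup_le le_sup_left ?_
      intro h hh
      have hx : (⟨h, hh⟩ : H) ∈ K ⊔ Subgroup.zpowers (⟨n, hn.2⟩ : H) := by rw [hsup]; trivial
      have hmap := Subgroup.mem_map_of_mem H.subtype hx
      rw [Subgroup.map_sup] at hmap
      refine (sup_le le_sup_right ?_ : _ ≤ A ⊔ K') hmap
      rintro _ ⟨z, hz, rfl⟩
      obtain ⟨k, rfl⟩ := Subgroup.mem_zpowers_iff.mp hz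
      apply Subgroup.mem_sup_left
      have hnA : n ∈ A := (Subgroup.mem_inf.mp hn).1
      simpa using Subgroup.zpow_mem A hnA k
    have hHK' := hmin K' hA hK'H
    have : K = ⊤ := by
      rw [eq_top_iff]
      rintro ⟨x, hx⟩ -
      obtain ⟨y, hy, e⟩ := hHK' hx
      have : y = ⟨x, hx⟩ := Subtype.ext e
      rwa [← this]
    exact hK.1 this
  have hNbot : N ≤ ⊥ := by
    rw [← hΦ]
    exact Cfsg.Agent.S0575.normal_le_frattini_of_le H N hNΦ
  refine ⟨H, ?_⟩
  refine Subgroup.isComplement'_of_disjoint_and_mul_eq_univ ?_ ?_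
  · rw [disjoint_iff]
    exact le_bot_iff.mp hNbot
  · rw [← Subgroup.normal_mul, hAH]
    rfl

end Cfsg.Agent.S0585
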