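import Mathlib
import Cfsg.Statements.S0586
import Cfsg.Agent.Lib.PCore
import Cfsg.Agent.S0575
import Cfsg.Agent.S0585

set_option autoImplicit false
open Cfsg

namespace Cfsg.Agent.S0586

open Cfsg.Agent.Lib.PCore

/-- In a finite nilpotent group, the commutator subgroup lies in the Frattini subgroup. -/
theorem commutator_le_frattini_of_nilpotent {F : Type*} [Group F] [Finite F] (h : Group.IsNilpotent F) :
    commutator F ≤ frattini F := by
  refine le_iInf₂ fun M hM => ?_
  have hMn : M.Normal := ((Group.isNilpotent_of_finite_tfae (G := F)).out 0 2 rfl rfl).mp h M hM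
  obtain ⟨x, hx⟩ : ∃ x, x ∉ M := by
    by_contra hall
    push Not at hall
    exact hM.1 (eq_top_iff.mpr fun y _ => hall y)
  have hsup : M ⊔ Subgroup.zpowers x = ⊤ := by
    apply hM.2
    refine lt_of_le_of_ne le_sup_left ?_
    intro e
    exact hx (e ▸ Subgroup.mem_sup_right (Subgroup.mem_zpowers x))
  have hrep : ∀ y : F, ∃ k : ℤ, (y : F ⧸ M) = (x : F ⧸ M) ^ k := by
    intro y
    have hy : y ∈ M ⊔ Subgroup.zpowers x := by rw [hsup]; trivial
    obtain ⟨m, hm, z, hz, rfl⟩ := Subgroup.mem_sup_of_normal_left.mp hy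
    obtain ⟨k, rfl⟩ := Subgroup.mem_zpowers_iff.mp hz
    refine ⟨k, ?_⟩
    rw [QuotientGroup.mk_mul, (QuotientGroup.eq_one_iff m).mpr hm, one_mul, QuotientGroup.mk_zpow]
  rw [commutator_def, Subgroup.commutator_le]
  intro a _ b _
  rw [← QuotientGroup.eq_one_iff]
  obtain ⟨i, hi⟩ := hrep a
  obtain ⟨j, hj⟩ := hrep b
  have hab : (a : F ⧸ M) * b = b * a := by
    rw [hi, hj, ← zpow_add, ← zpow_add, add_comm]
  rw [commutatorElement_def, QuotientGroup.mk_mul, QuotientGroup.mk_mul, QuotientGroup.mk_mul,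
    QuotientGroup.mk_inv, QuotientGroup.mk_inv, hab]
  group

/-- If the Frattini subgroup of a finite group G is trivial, then the Fitting subgroup of G equals the join of all abelian minimal normal subgroups of G. -/
theorem result {G : Type*} [Group G] [Finite G] (hΦ : frattini G = ⊥) : Cfsg.fittingSubgroup G = sSup {N : Subgroup G | N.Normal ∧ N ≠ ⊥ ∧ IsMulCommutative N ∧ ∀ K : Subgroup G, K.Normal → K ≤ N → K = ⊥ ∨ K = N} := by
  classical
  set F : Subgroup G := Cfsg.fittingSubgroup G with hF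
  haveI hFn : F.Normal := fittingSubgroup_normal
  have hFnil : Group.IsNilpotent F := isNilpotent_fittingSubgroup
  -- F is abelian
  have hΦF : frattini ↥F = ⊥ := by
    have h1 : (frattini ↥F).map F.subtype ≤ frattini G := Cfsg.Agent.S0575.result F
    rw [hΦ, le_bot_iff] at h1
    exact (Subgroup.map_eq_bot_iff_of_injective _ F.subtype_injective).mp h1
  have hFc : ∀ x ∈ F, ∀ y ∈ F, x * y = y * x := by
    intro x hx y hy
    have h1 := commutator_le_frattini_of_nilpotent hFnil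
    rw [hΦF, le_bot_iff, commutator_def, Subgroup.commutator_eq_bot_iff_le_centralizer] at h1
    have h2 := h1 (Subgroup.mem_top (⟨y, hy⟩ : F))
    have h3 := Subgroup.mem_centralizer_iff.mp h2 ⟨x, hx⟩ (Subgroup.mem_top _)
    exact congrArg Subtype.val h3
  set S : Set (Subgroup G) := {N : Subgroup G | N.Normal ∧ N ≠ ⊥ ∧ IsMulCommutative N ∧ ∀ K : Subgroup G, K.Normal → K ≤ N → K = ⊥ ∨ K = N} with hS
  set T : Subgroup G := sSup S with hT
  -- T ≤ F
  have hTF : T ≤ F := by
    refine sSup_le ?_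
    rintro N ⟨hNn, _, hNc, _⟩
    refine le_fittingSubgroup hNn ?_
    haveI : IsMulCommutative N := hNc
    letI : CommGroup N := { (inferInstance : Group N) with mul_comm := mul_comm' }
    infer_instance
  haveI hTn : T.Normal := by
    refine ⟨fun x hx g => ?_⟩
    have hle : T ≤ T.comap (MulAut.conj g).toMonoidHom := by
      refine sSup_le ?_
      rintro N hN n hn
      have h1 : g * n * g⁻¹ ∈ N := hN.1.conj_mem n hn g
      exact (le_sSup hN) h1
    exact hle hx
  haveI hTc : IsMulCommutative T := ⟨⟨fun a b => Subtype.ext (hFc a (hTF a.2) b (hTF b.2))⟩⟩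
  obtain ⟨H, hH⟩ := Cfsg.Agent.S0585.result hΦ T
  have hTH : T ⊔ H = ⊤ := hH.sup_eq_top
  have hdisj : T ⊓ H = ⊥ := disjoint_iff.mp hH.disjoint
  refine le_antisymm ?_ hTF
  -- `C = F ⊓ H` is normal
  let C : Subgroup G := F ⊓ H
  have hCn : C.Normal := by
    refine ⟨fun c hc g => ?_⟩
    have hg : g ∈ T ⊔ H := by rw [hTH]; trivial
    obtain ⟨t, ht, h, hh, rfl⟩ := Subgroup.mem_sup_of_normal_left.mp hg
    obtain ⟨hcF, hcH⟩ := Subgroup.mem_inf.mp hc
    have h1 : h * c * h⁻¹ ∈ F := hFn.conj_mem c hcF h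
    have h2 : h * c * h⁻¹ ∈ H := H.mul_mem (H.mul_mem hh hcH) (H.inv_mem hh)
    have e : t * h * c * (t * h)⁻¹ = h * c * h⁻¹ := by
      have hcomm := hFc t (hTF ht) _ h1
      calc t * h * c * (t * h)⁻¹ = (t * (h * c * h⁻¹)) * t⁻¹ := by group
        _ = h * c * h⁻¹ := by rw [hcomm]; group
    rw [e]
    exact Subgroup.mem_inf.mpr ⟨h1, h2⟩
  have hCbot : C = ⊥ := by
    by_contra hne
    let U : Set (Subgroup G) := {N | N.Normal ∧ N ≠ ⊥ ∧ N ≤ C}
    obtain ⟨N, hN⟩ := U.toFinite.exists_minimal ⟨C, hCn, hne, le_rfl⟩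
    obtain ⟨hNn, hNne, hNC⟩ := hN.1
    have hNS : N ∈ S := by
      refine ⟨hNn, hNne, ?_, ?_⟩
      · refine ⟨⟨fun a b => Subtype.ext (hFc a ?_ b ?_)⟩⟩
        · exact (hNC a.2 : (a : G) ∈ C).1
        · exact (hNC b.2 : (b : G) ∈ C).1
      · intro K hKn hKN
        by_cases hK : K = ⊥
        · exact Or.inl hK
        · right
          have : K ∈ U := ⟨hKn, hK, hKN.trans hNC⟩
          exact le_antisymm hKN (hN.2 this hKN)
    have hNT : N ≤ T := le_sSup hNS
    have hNH : N ≤ H := hNC.trans inf_le_right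
    apply hNne
    rw [eq_bot_iff, ← hdisj]
    exact le_inf hNT hNH
  intro x hx
  have hxs : x ∈ T ⊔ H := by rw [hTH]; trivial
  obtain ⟨t, ht, h, hh, rfl⟩ := Subgroup.mem_sup_of_normal_left.mp hxs
  have hhF : h ∈ F := by
    have := F.mul_mem (F.inv_mem (hTF ht)) hx
    simpa using this
  have hhC : h ∈ C := Subgroup.mem_inf.mpr ⟨hhF, hh⟩
  rw [hCbot, Subgroup.mem_bot] at hhC
  rw [hhC, mul_one]
  exact ht

end Cfsg.Agent.S0586
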