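import Mathlib
import Cfsg.Statements.S0587
import Cfsg.Agent.Lib.PCore
import Cfsg.Agent.Lib.Frat
import Cfsg.Agent.S0575

set_option autoImplicit false
open Cfsg

namespace Cfsg.Agent.S0587

open Cfsg.Agent.Lib.PCore

/-- Let G be a finite group whose largest normal p-subgroup L is nontrivial, and M a maximal subgroup of G with trivial normal core. Then L is elementary abelian, M is a complement to L, L is a minimal normal subgroup of G, the centralizer of L is L, and for every prime q such that the largest normal q-subgroup of M is nontrivial, the order of L is congruent to 1 modulo q and q ≠ p. -/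
theorem result {G : Type*} [Group G] [Finite G] (p : ℕ) [Fact p.Prime] (hL : Cfsg.pCore p G ≠ ⊥) (M : Subgroup G) (hM : IsCoatom M) (hcore : M.normalCore = ⊥) : Cfsg.IsElementaryAbelian p (Cfsg.pCore p G) ∧ Subgroup.IsComplement' (Cfsg.pCore p G) M ∧ (∀ K : Subgroup G, K.Normal → K ≤ Cfsg.pCore p G → K = ⊥ ∨ K = Cfsg.pCore p G) ∧ Subgroup.centralizer ((Cfsg.pCore p G : Subgroup G) : Set G) = Cfsg.pCore p G ∧ ∀ (q : ℕ) [Fact q.Prime], Cfsg.pCore q ↥M ≠ ⊥ → Nat.card (Cfsg.pCore p G) % q = 1 % q ∧ q ≠ p := by
  classical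
  set L : Subgroup G := Cfsg.pCore p G with hLdef
  have hLn : L.Normal := pCore_normal p
  have hLp : IsPGroup p L := isPGroup_pCore p
  -- normal subgroups in `M` are trivial
  have hNM : ∀ N : Subgroup G, N.Normal → N ≤ M → N = ⊥ := by
    intro N hN hle
    have : N ≤ M.normalCore := (Subgroup.normal_le_normalCore (hN := hN)).mpr hle
    rw [hcore] at this
    exact le_bot_iff.mp this
  -- Frattini subgroup of L is trivial
  have hΦ : frattini ↥L = ⊥ := by
    have h1 : (frattini ↥L).map L.subtype ≤ frattini G := Cfsg.Agent.S0575.result L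
    have h2 : (frattini ↥L).map L.subtype ≤ M := h1.trans (frattini_le_coatom hM)
    have h3 := hNM _ inferInstance h2
    exact (Subgroup.map_eq_bot_iff_of_injective _ L.subtype_injective).mp h3
  have hLcomm : ∀ x ∈ L, ∀ y ∈ L, x * y = y * x := by
    intro x hx y hy
    have h1 := Cfsg.Agent.Lib.Frat.commutator_le_frattini (G := ↥L) hLp
    rw [hΦ, le_bot_iff, commutator_def, Subgroup.commutator_eq_bot_iff_le_centralizer] at h1
    have h2 := h1 (Subgroup.mem_top (⟨y, hy⟩ : L))
    have h3 := Subgroup.mem_centralizer_iff.mp h2 ⟨x, hx⟩ (Subgroup.mem_top _)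
    exact congrArg Subtype.val h3
  have hLpow : ∀ a ∈ L, a ^ p = 1 := by
    intro a ha
    have h1 := Cfsg.Agent.Lib.Frat.pow_mem_frattini (G := ↥L) hLp ⟨a, ha⟩
    rw [hΦ, Subgroup.mem_bot] at h1
    simpa using congrArg Subtype.val h1
  have hEA : Cfsg.IsElementaryAbelian p L :=
    ⟨⟨⟨fun a b => Subtype.ext (hLcomm a a.2 b b.2)⟩⟩, hLpow⟩
  -- supplement
  have hsupN : ∀ N : Subgroup G, N.Normal → N ≠ ⊥ → N ⊔ M = ⊤ := by
    intro N hN hne
    rw [sup_comm]
    apply hM.2
    refine lt_of_le_of_ne le_sup_left ?_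
    intro e
    exact hne (hNM N hN (e ▸ le_sup_right))
  have hLM : L ⊔ M = ⊤ := hsupN L hLn hL
  have hprod : ∀ g : G, ∃ l ∈ L, ∃ m ∈ M, l * m = g := by
    intro g
    have : g ∈ L ⊔ M := by rw [hLM]; trivial
    exact Subgroup.mem_sup_of_normal_left.mp this
  -- criterion for normality: normalized by L and M
  have hnormal : ∀ D : Subgroup G, (∀ l ∈ L, ∀ d ∈ D, l * d * l⁻¹ ∈ D) → (∀ m ∈ M, ∀ d ∈ D, m * d * m⁻¹ ∈ D) → D.Normal := by
    intro D h1 h2
    refine ⟨fun d hd g => ?_⟩
    obtain ⟨l, hl, m, hm, rfl⟩ := hprod g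
    have : l * m * d * (l * m)⁻¹ = l * (m * d * m⁻¹) * l⁻¹ := by group
    rw [this]
    exact h1 l hl _ (h2 m hm d hd)
  -- L ⊓ M is trivial
  have hLMbot : L ⊓ M = ⊥ := by
    apply hNM _ _ inf_le_right
    apply hnormal
    · intro l hl d hd
      have hdL : d ∈ L := (Subgroup.mem_inf.mp hd).1
      have e : l * d * l⁻¹ = d := by rw [hLcomm l hl d hdL]; group
      rwa [e]
    · intro m hm d hd
      obtain ⟨hdL, hdM⟩ := Subgroup.mem_inf.mp hd
      exact Subgroup.mem_inf.mpr ⟨hLn.conj_mem d hdL m, M.mul_mem (M.mul_mem hm hdM) (M.inv_mem hm)⟩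
  have hmem : ∀ x ∈ L, x ∈ M → x = 1 := by
    intro x h1 h2
    have : x ∈ L ⊓ M := Subgroup.mem_inf.mpr ⟨h1, h2⟩
    rwa [hLMbot, Subgroup.mem_bot] at this
  -- complement
  have hcompl : Subgroup.IsComplement' L M := by
    refine Subgroup.isComplement'_of_disjoint_and_mul_eq_univ ?_ ?_
    · rw [disjoint_iff]; exact hLMbot
    · rw [← Subgroup.normal_mul, hLM]; rfl
  -- minimal normality
  have hminimal : ∀ K : Subgroup G, K.Normal → K ≤ L → K = ⊥ ∨ K = L := by
    intro K hKn hKL
    by_cases hK : K = ⊥
    · exact Or.inl hK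
    right
    refine le_antisymm hKL ?_
    intro x hx
    have hxs : x ∈ K ⊔ M := by rw [hsupN K hKn hK]; trivial
    obtain ⟨k, hk, m, hm, rfl⟩ := Subgroup.mem_sup_of_normal_left.mp hxs
    have hmL : m ∈ L := by
      have := L.mul_mem (L.inv_mem (hKL hk)) hx
      simpa using this
    rw [hmem m hmL hm, mul_one]
    exact hk
  -- centralizer
  have hC : Subgroup.centralizer (L : Set G) = L := by
    refine le_antisymm ?_ ?_
    · intro x hx
      obtain ⟨l, hl, m, hm, rfl⟩ := hprod x
      have hlC : l ∈ Subgroup.centralizer (L : Set G) := by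
        rw [Subgroup.mem_centralizer_iff]
        intro y hy
        exact hLcomm y hy l hl
      have hmC : m ∈ Subgroup.centralizer (L : Set G) := by
        have := Subgroup.mul_mem _ (Subgroup.inv_mem _ hlC) hx
        simpa using this
      -- `C ⊓ M` is normal
      have hD : Subgroup.centralizer (L : Set G) ⊓ M = ⊥ := by
        apply hNM _ _ inf_le_right
        have hCn : (Subgroup.centralizer (L : Set G)).Normal := inferInstance
        apply hnormal
        · intro l' hl' d hd
          obtain ⟨hdC, hdM⟩ := Subgroup.mem_inf.mp hd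
          have e : l' * d = d * l' := (Subgroup.mem_centralizer_iff.mp hdC l' hl')
          have e2 : l' * d * l'⁻¹ = d := by rw [e]; group
          rwa [e2]
        · intro m' hm' d hd
          obtain ⟨hdC, hdM⟩ := Subgroup.mem_inf.mp hd
          exact Subgroup.mem_inf.mpr ⟨hCn.conj_mem d hdC m', M.mul_mem (M.mul_mem hm' hdM) (M.inv_mem hm')⟩
      have hm1 : m ∈ Subgroup.centralizer (L : Set G) ⊓ M := Subgroup.mem_inf.mpr ⟨hmC, hm⟩
      rw [hD, Subgroup.mem_bot] at hm1
      rw [hm1, mul_one]
      exact hl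
    · intro x hx
      rw [Subgroup.mem_centralizer_iff]
      intro y hy
      exact hLcomm y hy x hx
  refine ⟨hEA, hcompl, hminimal, hC, ?_⟩
  intro q _ hT
  set T : Subgroup M := Cfsg.pCore q ↥M with hTdef
  have hTn : T.Normal := pCore_normal q
  let T' : Subgroup G := T.map M.subtype
  have hT'q : IsPGroup q T' := (isPGroup_pCore (G := ↥M) q).map M.subtype
  have hT'M : T' ≤ M := Subgroup.map_subtype_le _
  have hT'conj : ∀ m ∈ M, ∀ t ∈ T', m * t * m⁻¹ ∈ T' := by
    rintro m hm _ ⟨τ, hτ, rfl⟩
    exact ⟨(⟨m, hm⟩ : M) * τ * (⟨m, hm⟩ : M)⁻¹, hTn.conj_mem τ hτ _, by simp⟩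
  have hT'ne : T' ≠ ⊥ := by
    intro e
    apply hT
    exact (Subgroup.map_eq_bot_iff_of_injective _ M.subtype_injective).mp e
  have hT'notL : ¬ T' ≤ L := by
    intro hle
    apply hT'ne
    rw [eq_bot_iff, ← hLMbot]
    exact le_inf hle hT'M
  constructor
  · -- the congruence
    let φ : T' →* MulAut L := (MulAut.conjNormal : G →* MulAut L).comp T'.subtype
    letI act : MulAction T' L := MulAction.compHom L φ
    have hsmul : ∀ (t : T') (x : L), ((t • x : L) : G) = (t : G) * x * (t : G)⁻¹ := by
      intro t x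
      rfl
    -- the fixed points form the identity only
    have hD : L ⊓ Subgroup.centralizer (T' : Set G) = ⊥ := by
      have hDn : (L ⊓ Subgroup.centralizer (T' : Set G)).Normal := by
        apply hnormal
        · intro l' hl' d hd
          obtain ⟨hdL, hdC⟩ := Subgroup.mem_inf.mp hd
          have e2 : l' * d * l'⁻¹ = d := by rw [hLcomm l' hl' d hdL]; group
          rw [e2]
          exact hd
        · intro m hm d hd
          obtain ⟨hdL, hdC⟩ := Subgroup.mem_inf.mp hd
          refine Subgroup.mem_inf.mpr ⟨hLn.conj_mem d hdL m, ?_⟩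
          rw [Subgroup.mem_centralizer_iff]
          intro t ht
          have h1 := hT'conj m⁻¹ (M.inv_mem hm) t ht
          have h2 := Subgroup.mem_centralizer_iff.mp hdC _ h1
          simp only [inv_inv] at h2
          calc t * (m * d * m⁻¹) = m * ((m⁻¹ * t * m) * d) * m⁻¹ := by group
            _ = m * (d * (m⁻¹ * t * m)) * m⁻¹ := by rw [h2]
            _ = m * d * m⁻¹ * t := by group
      rcases hminimal _ hDn inf_le_left with h | h
      · exact h
      · exfalso
        apply hT'notL
        intro t ht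
        rw [← hC, Subgroup.mem_centralizer_iff]
        intro l hl
        have hl' : l ∈ L ⊓ Subgroup.centralizer (T' : Set G) := by rw [h]; exact hl
        exact (Subgroup.mem_centralizer_iff.mp (Subgroup.mem_inf.mp hl').2 t ht).symm
    have hfixed : Nat.card (MulAction.fixedPoints T' L) = 1 := by
      rw [Nat.card_eq_one_iff_unique]
      refine ⟨⟨?_⟩, ⟨⟨1, ?_⟩⟩⟩
      · rintro ⟨x, hx⟩ ⟨y, hy⟩
        have key : ∀ z : L, z ∈ MulAction.fixedPoints T' L → z = 1 := by
          intro z hz
          have : (z : G) ∈ L ⊓ Subgroup.centralizer (T' : Set G) := by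
            refine Subgroup.mem_inf.mpr ⟨z.2, ?_⟩
            rw [Subgroup.mem_centralizer_iff]
            intro t ht
            have h1 := hz ⟨t, ht⟩
            have h2 : t * (z : G) * t⁻¹ = z := by
              have := congrArg Subtype.val h1
              rwa [hsmul] at this
            exact mul_inv_eq_iff_eq_mul.mp h2
          rw [hD, Subgroup.mem_bot] at this
          exact Subtype.ext this
        exact Subtype.ext ((key x hx).trans (key y hy).symm)
      · intro t
        apply Subtype.ext
        rw [hsmul]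
        simp
    have hcong := hT'q.card_modEq_card_fixedPoints L
    rw [hfixed] at hcong
    exact hcong
  · -- q ≠ p
    rintro rfl
    haveI hXn : (L ⊔ T').Normal := by
      apply hnormal
      · intro l hl d hd
        exact mul_mem (mul_mem (Subgroup.mem_sup_left hl) hd) (inv_mem (Subgroup.mem_sup_left hl))
      · intro m hm d hd
        have hle : L ⊔ T' ≤ (L ⊔ T').comap (MulAut.conj m).toMonoidHom := by
          refine sup_le ?_ ?_
          · intro l hl
            exact Subgroup.mem_sup_left (hLn.conj_mem l hl m)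
          · intro t ht
            exact Subgroup.mem_sup_right (hT'conj m hm t ht)
        exact hle hd
    have hXp : IsPGroup q (L ⊔ T' : Subgroup G) := by
      haveI := hLn
      exact IsPGroup.to_sup_of_normal_left hLp hT'q
    have hXL : L ⊔ T' ≤ L := le_pCore hXn hXp
    exact hT'notL (le_sup_right.trans hXL)

end Cfsg.Agent.S0587
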