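import Mathlib
import Cfsg.Statements.S0588

set_option autoImplicit false
open Cfsg

namespace Cfsg.Agent.S0588

/-- If a subgroup H of a finite group G contains the centralizer of every non-identity element of H, then the order of H is coprime to its index. -/
theorem result {G : Type*} [Group G] [Finite G] (H : Subgroup G) (h : ∀ x ∈ H, x ≠ 1 → Subgroup.centralizer ({x} : Set G) ≤ H) : (Nat.card H).Coprime H.index := by
  classical
  by_contra hcop
  obtain ⟨p, hp, hpH, hpI⟩ := Nat.Prime.not_coprime_iff_dvd.mp hcop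
  haveI : Fact p.Prime := ⟨hp⟩
  obtain ⟨x, hx⟩ := exists_prime_orderOf_dvd_card' p hpH
  have hx1 : (x : G) ≠ 1 := by
    intro h1
    have : x = 1 := Subtype.ext h1
    rw [this, orderOf_one] at hx
    exact hp.one_lt.ne hx
  have hzp : IsPGroup p (Subgroup.zpowers (x : G)) := by
    rw [IsPGroup.iff_card, Nat.card_zpowers, Subgroup.orderOf_coe, hx]
    exact ⟨1, (pow_one p).symm⟩
  obtain ⟨R, hR⟩ := hzp.exists_le_sylow
  have hxR : (x : G) ∈ (R : Subgroup G) := hR (Subgroup.mem_zpowers _)
  -- R is nontrivial, so has a nontrivial central element z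
  have hRnt : Nontrivial (R : Subgroup G) := by
    refine ⟨⟨⟨x, hxR⟩, 1, ?_⟩⟩
    intro h1
    exact hx1 (congrArg Subtype.val h1)
  have hcent : Nontrivial (Subgroup.center (R : Subgroup G)) := R.isPGroup'.center_nontrivial
  obtain ⟨z, hz⟩ := exists_ne (1 : Subgroup.center (R : Subgroup G))
  have hzcomm : ∀ y : (R : Subgroup G), z.1 * y = y * z.1 := fun y => (Subgroup.mem_center_iff.mp z.2 y).symm
  have hz1 : ((z : (R : Subgroup G)) : G) ≠ 1 := by
    intro h1
    apply hz
    exact Subtype.ext (Subtype.ext h1)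
  have hzH : ((z : (R : Subgroup G)) : G) ∈ H := by
    apply h x x.2 hx1
    rw [Subgroup.mem_centralizer_iff]
    rintro y hy
    rw [Set.mem_singleton_iff] at hy
    subst hy
    have := hzcomm ⟨x, hxR⟩
    exact (congrArg Subtype.val this).symm
  have hRH : (R : Subgroup G) ≤ H := by
    intro y hy
    apply h _ hzH hz1
    rw [Subgroup.mem_centralizer_iff]
    rintro w hw
    rw [Set.mem_singleton_iff] at hw
    subst hw
    have := hzcomm ⟨y, hy⟩
    exact congrArg Subtype.val this
  have h1 : H.index ∣ (R : Subgroup G).index := Subgroup.index_dvd_of_le hRH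
  exact R.not_dvd_index (hpI.trans h1)

end Cfsg.Agent.S0588
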