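import Mathlib
import Cfsg.Statements.S0589
import Cfsg.Agent.S0588

set_option autoImplicit false
open Cfsg
open Pointwise

namespace Cfsg.Agent.S0589

open MulAction in
/-- If every nonidentity element of a nontrivial finite group has exactly one fixed point on a finite
set, then the group has a common fixed point. -/
theorem exists_fixed {Γ X : Type*} [Group Γ] [Finite Γ] [Finite X] [MulAction Γ X] [Nontrivial Γ]
    (h : ∀ γ : Γ, γ ≠ 1 → ∃! x : X, γ • x = x) : ∃ x : X, ∀ γ : Γ, γ • x = x := by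
  classical
  cases nonempty_fintype Γ
  cases nonempty_fintype X
  let Ω := orbitRel.Quotient Γ X
  haveI : Fintype Ω := Fintype.ofFinite _
  haveI : ∀ γ : Γ, Fintype (fixedBy X γ) := fun _ => Fintype.ofFinite _
  haveI : ∀ q : Ω, Fintype (orbit Γ q.out) := fun _ => Fintype.ofFinite _
  have hB := sum_card_fixedBy_eq_card_orbits_mul_card_group Γ X
  set a := Fintype.card Γ with ha
  set N := Fintype.card X with hN
  set k := Fintype.card Ω with hk
  have ha2 : 2 ≤ a := Fintype.one_lt_card
  -- sum of fixed points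
  have h1 : ∀ γ ∈ (Finset.univ : Finset Γ).erase 1, Fintype.card (fixedBy X γ) = 1 := by
    intro γ hγ
    have hne : γ ≠ 1 := (Finset.mem_erase.mp hγ).1
    obtain ⟨x, hx, hu⟩ := h γ hne
    rw [Fintype.card_eq_one_iff]
    refine ⟨⟨x, hx⟩, ?_⟩
    rintro ⟨y, hy⟩
    exact Subtype.ext (hu y hy)
  have h2 : Fintype.card (fixedBy X (1 : Γ)) = N := by
    have : fixedBy X (1 : Γ) = Set.univ := by
      ext x; simp
    rw [hN]
    simp only [this]
    exact Fintype.card_setUniv
  have hsum : ∑ γ : Γ, Fintype.card (fixedBy X γ) + 1 = N + a := by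
    rw [← Finset.add_sum_erase Finset.univ (fun γ : Γ => Fintype.card (fixedBy X γ)) (Finset.mem_univ 1)]
    rw [Finset.sum_congr rfl h1, h2]
    simp only [Finset.sum_const, smul_eq_mul, mul_one]
    rw [Finset.card_erase_of_mem (Finset.mem_univ _), Finset.card_univ]
    omega
  -- sum over orbits
  let s : Ω → ℕ := fun q => Fintype.card (orbit Γ q.out)
  have hNs : N = ∑ q : Ω, s q := by
    rw [hN, Fintype.card_congr (selfEquivSigmaOrbits Γ X), Fintype.card_sigma]
  have hsdvd : ∀ q : Ω, s q ∣ a := by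
    intro q
    have := card_orbit_mul_card_stabilizer_eq_card_group Γ q.out
    exact ⟨_, this.symm⟩
  have hsle : ∀ q : Ω, s q ≤ a := fun q => Nat.le_of_dvd (by omega) (hsdvd q)
  let f : Ω → ℕ := fun q => a - s q
  have hf : ∑ q : Ω, f q + 1 = a := by
    have h3 : ∑ q : Ω, (s q + f q) = k * a := by
      rw [Finset.sum_congr rfl (fun q _ => (Nat.add_sub_cancel' (hsle q) : s q + f q = a))]
      simp [hk]
    rw [Finset.sum_add_distrib, ← hNs] at h3
    omega
  -- conclusion
  by_contra hcontra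
  push Not at hcontra
  have hs1 : ∀ q : Ω, s q ≠ 1 := by
    intro q hq
    obtain ⟨γ, hγ⟩ := hcontra q.out
    rw [Fintype.card_eq_one_iff] at hq
    obtain ⟨w, hw⟩ := hq
    apply hγ
    have h4 := hw ⟨γ • q.out, mem_orbit _ _⟩
    have h5 := hw ⟨q.out, mem_orbit_self _⟩
    exact congrArg Subtype.val (h4.trans h5.symm)
  have hfbig : ∀ q : Ω, f q ≠ 0 → a ≤ 2 * f q := by
    intro q hq
    have h6 : s q < a := by
      have : f q = a - s q := rfl
      omega
    obtain ⟨c, hc⟩ := hsdvd q
    have hc2 : 2 ≤ c := by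
      rcases c with _ | _ | c
      · omega
      · omega
      · omega
    have : 2 * s q ≤ a := by
      rw [hc, mul_comm]
      exact Nat.mul_le_mul_left _ hc2
    have : f q = a - s q := rfl
    omega
  have hex : ∃ q ∈ (Finset.univ : Finset Ω), f q ≠ 0 := by
    apply Finset.exists_ne_zero_of_sum_ne_zero
    omega
  obtain ⟨q0, -, hq0⟩ := hex
  have hfne : f q0 + 1 ≠ a := by
    intro e
    have h7 := hsle q0
    have : f q0 = a - s q0 := rfl
    apply hs1 q0
    omega
  have hsplit := Finset.add_sum_erase Finset.univ f (Finset.mem_univ q0)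
  have hex2 : ∃ q ∈ (Finset.univ : Finset Ω).erase q0, f q ≠ 0 := by
    apply Finset.exists_ne_zero_of_sum_ne_zero
    omega
  obtain ⟨q1, hq1m, hq1⟩ := hex2
  have hle := Finset.single_le_sum (f := f) (fun _ _ => Nat.zero_le _) hq1m
  have := hfbig q0 hq0
  have := hfbig q1 hq1
  omega

/-- Let H be a Frobenius complement in a finite group G and L a subgroup of G whose order divides the order of H. Then L is contained in some conjugate of H. -/
theorem result {G : Type*} [Group G] [Finite G] (H : Subgroup G) (hH : Cfsg.IsFrobeniusComplement H) (L : Subgroup G) (hL : Nat.card L ∣ Nat.card H) : ∃ x : G, L ≤ MulAut.conj x • H := by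
  classical
  obtain ⟨-, -, hfrob⟩ := hH
  by_cases hLb : L = ⊥
  · exact ⟨1, by rw [hLb]; exact bot_le⟩
  haveI : Nontrivial L := (Subgroup.nontrivial_iff_ne_bot L).mpr hLb
  -- conjugate membership
  have hmemconj : ∀ {g x : G}, x ∈ MulAut.conj g • H ↔ g⁻¹ * x * g ∈ H := by
    intro g x
    rw [Subgroup.mem_pointwise_smul_iff_inv_smul_mem]
    simp [MulAut.smul_def]
  -- centralizers of nonidentity elements of `H`
  have hcent : ∀ x ∈ H, x ≠ 1 → Subgroup.centralizer ({x} : Set G) ≤ H := by
    intro x hx hx1 g hg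
    by_contra hgH
    have hbot := hfrob g hgH
    have hcomm : g * x = x * g := (Subgroup.mem_centralizer_iff.mp hg x rfl).symm
    have hxm : x ∈ H ⊓ (MulAut.conj g • H) := by
      refine Subgroup.mem_inf.mpr ⟨hx, hmemconj.mpr ?_⟩
      have : g⁻¹ * x * g = x := by rw [mul_assoc, ← hcomm, inv_mul_cancel_left]
      rwa [this]
    rw [hbot, Subgroup.mem_bot] at hxm
    exact hx1 hxm
  have hcop := Cfsg.Agent.S0588.result H hcent
  -- fixed point criterion
  have hfix : ∀ x g : G, x • ((g : G) : G ⧸ H) = (g : G ⧸ H) ↔ g⁻¹ * x * g ∈ H := by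
    intro x g
    rw [MulAction.Quotient.smul_mk, QuotientGroup.eq] 
    constructor
    · intro h
      have := H.inv_mem h
      simpa [mul_assoc] using this
    · intro h
      have := H.inv_mem h
      simpa [mul_assoc] using this
  obtain ⟨ω, hω⟩ := exists_fixed (Γ := L) (X := G ⧸ H) (by
    rintro ⟨x, hxL⟩ hγ
    have hx1 : x ≠ 1 := fun e => hγ (Subtype.ext e)
    have hsmul : ∀ ω : G ⧸ H, ((⟨x, hxL⟩ : L) • ω) = x • ω := fun _ => rfl
    simp only [hsmul]
    -- existence
    have hord : orderOf x ≠ 1 := by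
      intro e; exact hx1 (orderOf_eq_one_iff.mp e)
    obtain ⟨p, hp, hpd⟩ := Nat.exists_prime_and_dvd hord
    haveI : Fact p.Prime := ⟨hp⟩
    have hpL : p ∣ Nat.card L := by
      have h1 : orderOf (⟨x, hxL⟩ : L) = orderOf x := Subgroup.orderOf_mk x hxL
      rw [← h1] at hpd
      exact hpd.trans (orderOf_dvd_natCard _)
    have hpH : p ∣ Nat.card H := hpL.trans hL
    have hpI : ¬ p ∣ H.index := by
      intro h
      exact hp.one_lt.ne' (Nat.eq_one_of_dvd_coprimes hcop hpH h)
    have hordpos : orderOf x ≠ 0 := (orderOf_pos x).ne'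
    obtain ⟨a, m, hm, hn⟩ := Nat.exists_eq_pow_mul_and_not_dvd hordpos p hp.ne_one
    have hapos : a ≠ 0 := by
      rintro rfl
      apply hm
      rw [pow_zero, one_mul] at hn
      rw [← hn]
      exact hpd
    let y := x ^ m
    have hy1 : y ≠ 1 := by
      intro e
      have := orderOf_dvd_of_pow_eq_one e
      rw [hn] at this
      exact hm ((dvd_pow_self p hapos).trans ((dvd_mul_right _ _).trans this))
    have hyp : y ^ (p ^ a) = 1 := by
      show (x ^ m) ^ (p ^ a) = 1
      rw [← pow_mul, mul_comm, ← hn, pow_orderOf_eq_one]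
    have hypg : IsPGroup p (Subgroup.zpowers y) := by
      rw [IsPGroup.iff_card, Nat.card_zpowers]
      obtain ⟨b, -, hb⟩ := (Nat.dvd_prime_pow hp).mp (orderOf_dvd_of_pow_eq_one hyp)
      exact ⟨b, hb⟩
    obtain ⟨ω0, hω0⟩ := hypg.nonempty_fixed_point_of_prime_not_dvd_card (G ⧸ H) hpI
    obtain ⟨g, rfl⟩ := QuotientGroup.mk_surjective ω0
    have hyg : g⁻¹ * y * g ∈ H := by
      rw [← hfix]
      exact hω0 ⟨y, Subgroup.mem_zpowers y⟩
    have hxg : g⁻¹ * x * g ∈ H := by
      have hy1' : g⁻¹ * y * g ≠ 1 := by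
        intro e
        apply hy1
        have : y = g * (g⁻¹ * y * g) * g⁻¹ := by group
        rw [this, e]; group
      apply hcent _ hyg hy1'
      rw [Subgroup.mem_centralizer_iff]
      rintro _ rfl
      have hc : y * x = x * y := by
        show x ^ m * x = x * x ^ m
        rw [← pow_succ, pow_succ']
      calc g⁻¹ * y * g * (g⁻¹ * x * g) = g⁻¹ * (y * x) * g := by group
        _ = g⁻¹ * (x * y) * g := by rw [hc]
        _ = g⁻¹ * x * g * (g⁻¹ * y * g) := by group
    refine ⟨(g : G ⧸ H), (hfix x g).mpr hxg, ?_⟩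
    -- uniqueness
    intro ω2 hω2
    obtain ⟨g2, rfl⟩ := QuotientGroup.mk_surjective ω2
    have hxg2 : g2⁻¹ * x * g2 ∈ H := (hfix x g2).mp hω2
    symm
    rw [QuotientGroup.eq]
    by_contra hu
    have hbot := hfrob _ hu
    have hz : g⁻¹ * x * g ∈ H ⊓ (MulAut.conj (g⁻¹ * g2) • H) := by
      refine Subgroup.mem_inf.mpr ⟨hxg, hmemconj.mpr ?_⟩
      have e : (g⁻¹ * g2)⁻¹ * (g⁻¹ * x * g) * (g⁻¹ * g2) = g2⁻¹ * x * g2 := by group
      rwa [e]
    rw [hbot, Subgroup.mem_bot] at hz
    apply hx1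
    have : x = g * (g⁻¹ * x * g) * g⁻¹ := by group
    rw [this, hz]; group)
  obtain ⟨g, rfl⟩ := QuotientGroup.mk_surjective ω
  refine ⟨g, fun y hy => hmemconj.mpr ?_⟩
  exact (hfix y g).mp (hω ⟨y, hy⟩)

end Cfsg.Agent.S0589
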