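import Mathlib
-- Template for statement S0590 (row 590; see /opt/grader/pristine/manifest.json for weights).
-- Copy to Cfsg/Agent/S0590.lean and replace the sorry. The statement below is byte-identical to the frozen
-- statement Cfsg.CfsgFrozen.S0590 (Cfsg/Statements/S0590.lean; the theorem Cfsg.quadratic_action_quotient_elementary_abelian);
-- the grader kernel-checks Cfsg.Agent.S0590.result against that frozen type. Keep the theorem IN THIS FILE
-- (a `result` declared elsewhere and merely imported here is not credited); helpers may live anywhere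
-- under Cfsg/Agent/.
import Cfsg.Statements.S0590
import Cfsg.Agent.Lib.ThompsonJ

set_option autoImplicit false
open Cfsg
open scoped commutatorElement

namespace Cfsg.Agent.S0590


/-- Quadratic action on an elementary abelian p-group forces the acting group modulo the kernel of the action to be elementary abelian. -/
theorem result {G : Type*} [Group G] [Finite G] {p : ℕ} [Fact p.Prime] (V H : Subgroup G) (hV : Cfsg.IsElementaryAbelian p V) (hHV : H ≤ Subgroup.normalizer (V : Set G)) (hq : ⁅⁅V, H⁆, H⁆ = ⊥) : ⁅H, H⁆ ≤ Subgroup.centralizer (V : Set G) ∧ ∀ a ∈ H, a ^ p ∈ Subgroup.centralizer (V : Set G) := by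
  constructor
  · have h1 : ⁅⁅H, V⁆, H⁆ = ⊥ := by rw [Subgroup.commutator_comm H V]; exact hq
    have h2 := Subgroup.commutator_commutator_eq_bot_of_rotate h1 hq
    exact Subgroup.commutator_eq_bot_iff_le_centralizer.mp h2
  · intro a ha
    rw [Subgroup.mem_centralizer_iff]
    intro v hv
    -- `c = ⁅a, v⁆`
    set c : G := a * v * a⁻¹ * v⁻¹ with hc
    have hcV : c ∈ V := V.mul_mem ((Subgroup.mem_normalizer_iff.mp (hHV ha) v).mp hv) (V.inv_mem hv)
    have hcomm : ⁅⁅v, a⁆, a⁆ = 1 := by
      have := Subgroup.commutator_mem_commutator (Subgroup.commutator_mem_commutator hv ha) ha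
      rw [hq] at this
      exact Subgroup.mem_bot.mp this
    have hca : a * c = c * a := by
      have h3 : Commute ⁅v, a⁆ a := commutatorElement_eq_one_iff_commute.mp hcomm
      have h4 : c = ⁅v, a⁆⁻¹ := by
        rw [commutatorElement_inv, commutatorElement_def]
      rw [h4]
      exact (h3.inv_left).eq.symm
    have hav : a * v = c * v * a := by rw [hc]; group
    have hvc : v * c = c * v := Cfsg.Agent.Lib.ThompsonJ.ea_comm hV hv hcV
    have key : ∀ n : ℕ, a ^ n * v = c ^ n * v * a ^ n := by
      intro n
      induction n with
      | zero => simp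
      | succ n ih =>
        have h5 : a * c ^ n = c ^ n * a := ((show Commute a c from hca).pow_right n).eq
        calc a ^ (n + 1) * v = a * (a ^ n * v) := by rw [pow_succ', mul_assoc]
          _ = a * (c ^ n * v * a ^ n) := by rw [ih]
          _ = (a * c ^ n) * v * a ^ n := by group
          _ = c ^ n * (a * v) * a ^ n := by rw [h5]; group
          _ = c ^ n * (c * v * a) * a ^ n := by rw [hav]
          _ = c ^ (n + 1) * v * a ^ (n + 1) := by rw [pow_succ, pow_succ' a]; group
    have h6 := key p
    rw [hV.2 c hcV, one_mul] at h6
    exact h6.symm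

end Cfsg.Agent.S0590
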