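import Mathlib
-- Template for statement S0591 (row 591; see /opt/grader/pristine/manifest.json for weights).
-- Copy to Cfsg/Agent/S0591.lean and replace the sorry. The statement below is byte-identical to the frozen
-- statement Cfsg.CfsgFrozen.S0591 (Cfsg/Statements/S0591.lean; the theorem Cfsg.card_le_sq_card_centralizer_of_quadratic);
-- the grader kernel-checks Cfsg.Agent.S0591.result against that frozen type. Keep the theorem IN THIS FILE
-- (a `result` declared elsewhere and merely imported here is not credited); helpers may live anywhere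
-- under Cfsg/Agent/.
import Cfsg.Statements.S0591
import Cfsg.Agent.Lib.Replacement

set_option autoImplicit false
open Cfsg
open scoped commutatorElement

namespace Cfsg.Agent.S0591

/-- For a quadratically acting element a on an elementary abelian p-group V, the fixed points C_V(a) have order at least the square root of the order of V. -/
theorem result {G : Type*} [Group G] [Finite G] {p : ℕ} [Fact p.Prime] (V : Subgroup G) (hV : Cfsg.IsElementaryAbelian p V) (a : G) (ha : a ∈ Subgroup.normalizer (V : Set G)) (hq : ⁅⁅V, Subgroup.zpowers a⁆, Subgroup.zpowers a⁆ = ⊥) : Nat.card V ≤ Nat.card ↥(V ⊓ Subgroup.centralizer (Subgroup.zpowers a : Set G)) ^ 2 := by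
  -- `C = C_V(a)`
  have hVc := fun x hx y hy => Cfsg.Agent.Lib.ThompsonJ.ea_comm (A := V) (p := p) hV (a := x) (b := y) hx hy
  have hnorm : ∀ v ∈ V, a * v * a⁻¹ ∈ V := fun v hv => (Subgroup.mem_normalizer_iff.mp ha v).mp hv
  set C := V ⊓ Subgroup.centralizer (Subgroup.zpowers a : Set G) with hC
  have hmemC : ∀ x ∈ V, a * x * a⁻¹ = x → x ∈ C := by
    intro x hx hax
    refine Subgroup.mem_inf.mpr ⟨hx, ?_⟩
    have : Subgroup.zpowers a ≤ Subgroup.centralizer (({x} : Set G)) := by
      rw [Subgroup.zpowers_le, Subgroup.mem_centralizer_singleton_iff]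
      exact eq_mul_of_mul_inv_eq hax
    rw [Subgroup.mem_centralizer_iff]
    intro h hh
    exact Subgroup.mem_centralizer_singleton_iff.mp (this hh)
  have key := Cfsg.Agent.Lib.Replacement.card_mul_le_of_fiber V C C ⊥
    (fun v => a * v * a⁻¹ * v⁻¹) ?_ ?_ inf_le_left bot_le
  · rw [Subgroup.card_bot, mul_one] at key
    rw [pow_two]
    exact key
  · intro v hv
    have hcV : a * v * a⁻¹ * v⁻¹ ∈ V := V.mul_mem (hnorm v hv) (V.inv_mem hv)
    apply hmemC _ hcV
    have hcomm := Subgroup.commutator_mem_commutator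
      (Subgroup.commutator_mem_commutator hv (Subgroup.mem_zpowers a)) (Subgroup.mem_zpowers a)
    rw [hq] at hcomm
    have h3 : Commute ⁅v, a⁆ a := commutatorElement_eq_one_iff_commute.mp (Subgroup.mem_bot.mp hcomm)
    have h4 : a * v * a⁻¹ * v⁻¹ = ⁅v, a⁆⁻¹ := by
      rw [commutatorElement_inv, commutatorElement_def]
    rw [h4]
    have h5 := (h3.inv_left).eq
    rw [← h5, mul_inv_cancel_right]
  · intro v hv v' hv' h
    have h1 : (a * v * a⁻¹ * v⁻¹)⁻¹ * (a * v' * a⁻¹ * v'⁻¹) = 1 := Subgroup.mem_bot.mp h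
    apply hmemC _ (V.mul_mem (V.inv_mem hv) hv')
    have h2 : a * v * a⁻¹ * v⁻¹ = a * v' * a⁻¹ * v'⁻¹ := by
      have := inv_mul_eq_one.mp h1
      exact this
    -- compute in `V`
    have hv1 := hnorm v hv
    have hv2 := hnorm v' hv'
    have h3 : a * (v⁻¹ * v') * a⁻¹ = (a * v * a⁻¹)⁻¹ * (a * v' * a⁻¹) := by group
    rw [h3]
    have h4 : a * v' * a⁻¹ = (a * v * a⁻¹) * v⁻¹ * v' := by
      have := congrArg (fun t => t * v') h2
      simp only [inv_mul_cancel_right] at this
      exact this.symm
    rw [h4]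
    group

end Cfsg.Agent.S0591
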