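import Mathlib
-- Template for statement S0592 (row 592; see /opt/grader/pristine/manifest.json for weights).
-- Copy to Cfsg/Agent/S0592.lean and replace the sorry. The statement below is byte-identical to the frozen
-- statement Cfsg.CfsgFrozen.S0592 (Cfsg/Statements/S0592.lean; the theorem Cfsg.two_quadratic_generators_map_to_sl_two);
-- the grader kernel-checks Cfsg.Agent.S0592.result against that frozen type. Keep the theorem IN THIS FILE
-- (a `result` declared elsewhere and merely imported here is not credited); helpers may live anywhere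
-- under Cfsg/Agent/.
import Cfsg.Statements.S0592
import Cfsg.Agent.Lib.QuadPair

set_option autoImplicit false
open Cfsg
open scoped commutatorElement

namespace Cfsg.Agent.S0592

/-- Two quadratically acting generators of a linear group that is not a p-group, with the p'-part of the order of their product dividing q - 1, give a homomorphism onto a subgroup of SL(2, q) that is not a p-group. -/
theorem result {K : Type*} [Field K] [Fintype K] {p : ℕ} [Fact p.Prime] [CharP K p] {W : Type*} [AddCommGroup W] [Module K W] [FiniteDimensional K W] [Finite W] [Nontrivial W] (H : Subgroup (W ≃ₗ[K] W)) (a b : W ≃ₗ[K] W) (hH : H = Subgroup.closure {a, b}) (ha : ∀ w : W, a (a w - w) = a w - w) (hb : ∀ w : W, b (b w - w) = b w - w) (hnp : ¬ IsPGroup p H) (hk : ∃ e k : ℕ, orderOf (a * b) = p ^ e * k ∧ k ∣ Fintype.card K - 1) : ∃ φ : H →* Matrix.SpecialLinearGroup (Fin 2) K, ¬ IsPGroup p φ.range := by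
  classical
  subst hH
  set H := Subgroup.closure ({a, b} : Set (W ≃ₗ[K] W)) with hHdef
  have haH : a ∈ H := Subgroup.subset_closure (by simp)
  have hbH : b ∈ H := Subgroup.subset_closure (by simp)
  -- the representation of `H`
  let ρ : H →* Module.End K W :=
    { toFun := fun g => ((g : W ≃ₗ[K] W) : W →ₗ[K] W)
      map_one' := rfl
      map_mul' := fun _ _ => rfl }
  have hρ : ∀ g w, ρ g w = (g : W ≃ₗ[K] W) w := fun _ _ => rfl
  have hρinj : ∀ g : H, ρ g = 1 → g = 1 := by
    intro g hg
    apply Subtype.ext
    ext w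
    exact congrArg (fun f => f w) hg
  let a' : H := ⟨a, haH⟩
  let b' : H := ⟨b, hbH⟩
  have hgen : Subgroup.closure ({a', b'} : Set H) = ⊤ := by
    rw [eq_top_iff]
    rintro ⟨g, hg⟩ -
    have key : ∀ x (hx : x ∈ Subgroup.closure ({a, b} : Set (W ≃ₗ[K] W))), (⟨x, hx⟩ : H) ∈
        Subgroup.closure ({a', b'} : Set H) := by
      intro x hx
      induction hx using Subgroup.closure_induction with
      | mem y hy =>
        rcases hy with rfl | hy
        · exact Subgroup.subset_closure (Or.inl rfl)
        · rcases hy with rfl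
          exact Subgroup.subset_closure (Or.inr rfl)
      | one => exact Subgroup.one_mem _
      | mul y z hy hz hy' hz' =>
        exact Subgroup.mul_mem _ hy' hz'
      | inv y hy hy' =>
        exact Subgroup.inv_mem _ hy'
    exact key g hg
  have hquad : ∀ c : W ≃ₗ[K] W, (∀ w : W, c (c w - w) = c w - w) → ∀ g : H, (g : W ≃ₗ[K] W) = c →
      (ρ g - 1) * (ρ g - 1) = 0 := by
    intro c hc g hg
    ext w
    simp only [Module.End.mul_apply, LinearMap.sub_apply, Module.End.one_apply, hρ, hg,
      LinearMap.zero_apply]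
    rw [hc w, sub_self]
  obtain ⟨e, k, he, hk'⟩ := hk
  have hord : ρ (a' * b') ^ (p ^ e * k) = 1 := by
    rw [← map_pow, ← he]
    have : (a' * b') ^ orderOf (a * b) = 1 := by
      apply Subtype.ext
      simp only [Subgroup.coe_pow, Subgroup.coe_mul, Subgroup.coe_one]
      exact pow_orderOf_eq_one _
    change ρ ((a' * b') ^ orderOf (a * b)) = 1
    rw [this, map_one]
  -- a non `p`-element
  rw [IsPGroup] at hnp
  push Not at hnp
  obtain ⟨h, hh⟩ := hnp
  have hh' : ∀ m, ρ h ^ p ^ m ≠ 1 := by
    intro m hm
    apply hh m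
    apply hρinj
    rw [map_pow, hm]
  obtain ⟨φ, c, -, -, -, hφ⟩ := Cfsg.Agent.Lib.QuadPair.exists_sl2_rep (p := p) hgen hk' h _ W rfl ρ
    (hquad a ha a' rfl) (hquad b hb b' rfl) hord hh'
  refine ⟨φ, ?_⟩
  intro hp
  obtain ⟨m, hm⟩ := hp ⟨φ h, ⟨h, rfl⟩⟩
  exact hφ m (congrArg Subtype.val hm)

end Cfsg.Agent.S0592
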