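import Mathlib
-- Template for statement S0597 (row 597; see /opt/grader/pristine/manifest.json for weights).
-- Copy to Cfsg/Agent/S0597.lean and replace the sorry. The statement below is byte-identical to the frozen
-- statement Cfsg.CfsgFrozen.S0597 (Cfsg/Statements/S0597.lean; the theorem Cfsg.commutator_subnormal_le_p_core_of_successive_centralizing);
-- the grader kernel-checks Cfsg.Agent.S0597.result against that frozen type. Keep the theorem IN THIS FILE
-- (a `result` declared elsewhere and merely imported here is not credited); helpers may live anywhere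
-- under Cfsg/Agent/.
import Cfsg.Statements.S0597
import Cfsg.Agent.Lib.QuadLocal
import Cfsg.Agent.S0590

set_option autoImplicit false
open Cfsg
open scoped commutatorElement

namespace Cfsg.Agent.S0597

/-- If two subnormal subgroups of a faithful group on an elementary abelian p-group satisfy [V, E₁, E₂] = 1, then their commutator lies in the largest normal p-subgroup. -/
theorem result {G : Type*} [Group G] [Finite G] {p : ℕ} [Fact p.Prime] (V H : Subgroup G) (hV : Cfsg.IsElementaryAbelian p V) (hHV : H ≤ Subgroup.normalizer (V : Set G)) (hf : H ⊓ Subgroup.centralizer (V : Set G) = ⊥) (E₁ E₂ : Subgroup G) (h₁ : E₁ ≤ H) (h₂ : E₂ ≤ H) (hs₁ : (E₁.subgroupOf H).IsSubnormal) (hs₂ : (E₂.subgroupOf H).IsSubnormal) (hc : ⁅⁅V, E₁⁆, E₂⁆ = ⊥) : ⁅E₁, E₂⁆ ≤ (Cfsg.pCore p H).map H.subtype := by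
  open Cfsg.Agent.Lib.QuadLocal in
  have hHV' : ∀ u ∈ H, ∀ v ∈ V, u * v * u⁻¹ ∈ V := fun u hu v hv =>
    (Subgroup.mem_normalizer_iff.mp (hHV hu) v).mp hv
  have hYV : ⁅V, E₁⁆ ≤ V := comm_le_of_normalizes (fun u hu => hHV' u (h₁ hu))
  set Y := ⁅V, E₁⁆ with hY
  let TG := stabT H V Y hYV hHV'
  have hE₂ : E₂ ≤ Subgroup.centralizer (Y : Set G) := by
    rw [← Subgroup.commutator_eq_bot_iff_le_centralizer, Subgroup.commutator_comm]; exact hc
  have hs1 : E₁.subgroupOf H ≤ TG.subgroupOf H := by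
    intro x hx
    rw [Subgroup.mem_subgroupOf] at hx ⊢
    refine ⟨x.2, fun v hv => Subgroup.commutator_mem_commutator hv hx⟩
  have hs2 : E₂.subgroupOf H ≤ (Subgroup.centralizer (Y : Set G)).subgroupOf H := by
    intro y hy
    rw [Subgroup.mem_subgroupOf] at hy ⊢
    exact hE₂ hy
  have hs3 : ∀ x ∈ E₁.subgroupOf H, ∀ k ∈ (Subgroup.centralizer (Y : Set G)).subgroupOf H, x * k * x⁻¹ ∈ (Subgroup.centralizer (Y : Set G)).subgroupOf H := by
    intro x hx k hk
    rw [Subgroup.mem_subgroupOf] at hx hk ⊢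
    refine Subgroup.mem_centralizer_iff.mpr fun t ht => ?_
    have hxt : (x : G)⁻¹ * t * x ∈ Y := by
      have := conj_mem_comm hYV (E₁.inv_mem hx) ht
      simpa using this
    have h1 : ((x : G)⁻¹ * t * x) * k = k * ((x : G)⁻¹ * t * x) :=
      Subgroup.mem_centralizer_iff.mp hk _ hxt
    have h2 : ((x * k * x⁻¹ : H) : G) = x * k * (x : G)⁻¹ := by simp
    rw [h2]
    calc t * (x * k * (x : G)⁻¹) = x * (((x : G)⁻¹ * t * x) * k) * (x : G)⁻¹ := by group
      _ = x * (k * ((x : G)⁻¹ * t * x)) * (x : G)⁻¹ := by rw [h1]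
      _ = x * k * (x : G)⁻¹ * t := by group
  have hs4 : ∀ y ∈ (Subgroup.centralizer (Y : Set G)).subgroupOf H, ∀ t ∈ TG.subgroupOf H, y * t * y⁻¹ ∈ TG.subgroupOf H := by
    intro y hy t ht
    rw [Subgroup.mem_subgroupOf] at hy ht ⊢
    obtain ⟨htH, htV⟩ := mem_stabT.mp ht
    refine mem_stabT.mpr ⟨H.mul_mem (H.mul_mem y.2 htH) (H.inv_mem y.2), fun v hv => ?_⟩
    have hw : (y : G)⁻¹ * v * y ∈ V := by
      have := hHV' _ (H.inv_mem y.2) v hv
      simpa using this
    have h1 := htV _ hw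
    have h2 : (⁅v, ((y * t * y⁻¹ : H) : G)⁆ : G) = y * ⁅(y : G)⁻¹ * v * y, (t : G)⁆ * (y : G)⁻¹ := by
      simp only [commutatorElement_def, Subgroup.coe_mul, Subgroup.coe_inv]; group
    rw [h2]
    have h3 : (⁅(y : G)⁻¹ * v * y, (t : G)⁆ : G) * y = y * ⁅(y : G)⁻¹ * v * y, (t : G)⁆ :=
      Subgroup.mem_centralizer_iff.mp hy _ h1
    rw [← h3, mul_inv_cancel_right]
    exact h1
  obtain ⟨D, hDs, hDT, hDK, hDc⟩ := exists_subnormal_comm_le (E₁.subgroupOf H) (E₂.subgroupOf H)
    (TG.subgroupOf H) ((Subgroup.centralizer (Y : Set G)).subgroupOf H) hs₁ hs₂ hs1 hs2 hs3 hs4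
  have hDp : IsPGroup p D := by
    intro a
    refine ⟨1, ?_⟩
    have ha := a.2
    have haT : ((a : H) : G) ∈ TG := hDT ha
    have haC : ((a : H) : G) ∈ Subgroup.centralizer (Y : Set G) := hDK ha
    have hz1 : Subgroup.zpowers ((a : H) : G) ≤ TG := Subgroup.zpowers_le.mpr haT
    have hz2 : Subgroup.zpowers ((a : H) : G) ≤ Subgroup.centralizer (Y : Set G) :=
      Subgroup.zpowers_le.mpr haC
    have hz3 : Subgroup.zpowers ((a : H) : G) ≤ H :=
      Subgroup.zpowers_le.mpr (a : H).2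
    have hc1 : ⁅V, Subgroup.zpowers ((a : H) : G)⁆ ≤ Y := by
      rw [Subgroup.commutator_le]
      intro v hv u hu
      exact (mem_stabT.mp (hz1 hu)).2 v hv
    have hq : ⁅⁅V, Subgroup.zpowers ((a : H) : G)⁆, Subgroup.zpowers ((a : H) : G)⁆ = ⊥ := by
      rw [← le_bot_iff]
      refine (Subgroup.commutator_mono hc1 le_rfl).trans ?_
      rw [le_bot_iff, Subgroup.commutator_comm, Subgroup.commutator_eq_bot_iff_le_centralizer]
      exact hz2
    have h1 := (Cfsg.Agent.S0590.result V (Subgroup.zpowers ((a : H) : G)) hV (hz3.trans hHV) hq).2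
      _ (Subgroup.mem_zpowers _)
    have h2 : ((a : H) : G) ^ p ∈ H ⊓ Subgroup.centralizer (V : Set G) :=
      Subgroup.mem_inf.mpr ⟨H.pow_mem (a : H).2 p, h1⟩
    rw [hf, Subgroup.mem_bot] at h2
    apply Subtype.ext
    apply Subtype.ext
    simpa using h2
  have hDle := Cfsg.Agent.Lib.PResid.le_pCore_of_isSubnormal hDs hDp
  rw [Subgroup.commutator_le]
  intro x hx y hy
  have h1 : (⟨x, h₁ hx⟩ : H) ∈ E₁.subgroupOf H := by simpa [Subgroup.mem_subgroupOf] using hx
  have h2 : (⟨y, h₂ hy⟩ : H) ∈ E₂.subgroupOf H := by simpa [Subgroup.mem_subgroupOf] using hy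
  have h3 := hDle (hDc (Subgroup.commutator_mem_commutator h1 h2))
  exact ⟨_, h3, rfl⟩

end Cfsg.Agent.S0597
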