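import Mathlib
-- Template for statement S0598 (row 598; see /opt/grader/pristine/manifest.json for weights).
-- Copy to Cfsg/Agent/S0598.lean and replace the sorry. The statement below is byte-identical to the frozen
-- statement Cfsg.CfsgFrozen.S0598 (Cfsg/Statements/S0598.lean; the theorem Cfsg.thompson_replacement_dichotomy);
-- the grader kernel-checks Cfsg.Agent.S0598.result against that frozen type. Keep the theorem IN THIS FILE
-- (a `result` declared elsewhere and merely imported here is not credited); helpers may live anywhere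
-- under Cfsg/Agent/.
import Cfsg.Statements.S0598
import Cfsg.Agent.Lib.Replacement

set_option autoImplicit false
open Cfsg

namespace Cfsg.Agent.S0598

/-- Thompson's replacement dichotomy: for A acting with abelian image on an elementary abelian p-group V and U ≤ V, either some subgroup of A increases the product of its order with the order of its fixed points, or C_A([U,A]) preserves that product and has fixed points exactly [U,A]C_V(A). -/
theorem result {G : Type*} [Group G] [Finite G] {p : ℕ} [Fact p.Prime] (V A : Subgroup G) (hV : Cfsg.IsElementaryAbelian p V) (hAV : A ≤ Subgroup.normalizer (V : Set G)) (hab : ⁅A, A⁆ ≤ Subgroup.centralizer (V : Set G)) (U : Subgroup G) (hU : U ≤ V) : ∃ B : Subgroup G, B ≤ A ∧ ((Nat.card A * Nat.card ↥(V ⊓ Subgroup.centralizer (A : Set G)) < Nat.card B * Nat.card ↥(V ⊓ Subgroup.centralizer (B : Set G))) ∨ (B = A ⊓ Subgroup.centralizer ((⁅U, A⁆ : Subgroup G) : Set G) ∧ (V ⊓ Subgroup.centralizer (B : Set G)) = ⁅U, A⁆ ⊔ (V ⊓ Subgroup.centralizer (A : Set G)) ∧ Nat.card A * Nat.card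 ↥(V ⊓ Subgroup.centralizer (A : Set G)) = Nat.card B * Nat.card ↥(V ⊓ Subgroup.centralizer (B : Set G)))) := by
  have hVc : ∀ x ∈ V, ∀ y ∈ V, x * y = y * x := fun x hx y hy => Cfsg.Agent.Lib.ThompsonJ.ea_comm hV hx hy
  have hAV2 : ∀ a ∈ A, ∀ v ∈ V, a * v * a⁻¹ ∈ V := fun a ha v hv =>
    (Subgroup.mem_normalizer_iff.mp (hAV ha) v).mp hv
  by_cases hmax : ∀ B : Subgroup G, B ≤ A →
      Cfsg.Agent.Lib.Replacement.fB V B ≤ Cfsg.Agent.Lib.Replacement.fB V A
  · have h := Cfsg.Agent.Lib.Replacement.replacement_of_max hVc hAV2 hab hmax hU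
    exact ⟨_, inf_le_left, Or.inr ⟨rfl, h.1, h.2⟩⟩
  · push Not at hmax
    obtain ⟨B, hB, hlt⟩ := hmax
    exact ⟨B, hB, Or.inl hlt⟩

end Cfsg.Agent.S0598
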