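import Mathlib
-- Template for statement S0600 (row 600; see /opt/grader/pristine/manifest.json for weights).
-- Copy to Cfsg/Agent/S0600.lean and replace the sorry. The statement below is byte-identical to the frozen
-- statement Cfsg.CfsgFrozen.S0600 (Cfsg/Statements/S0600.lean; the theorem Cfsg.p_core_mod_centralizer_trivial_of_generated_by_sylow_fixed_points);
-- the grader kernel-checks Cfsg.Agent.S0600.result against that frozen type. Keep the theorem IN THIS FILE
-- (a `result` declared elsewhere and merely imported here is not credited); helpers may live anywhere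
-- under Cfsg/Agent/.
import Cfsg.Statements.S0600
import Cfsg.Agent.Lib.PLocalTools

set_option autoImplicit false
open Cfsg
open scoped commutatorElement

namespace Cfsg.Agent.S0600

/-- A normal elementary abelian p-subgroup generated by the fixed points of the Sylow p-subgroups admits no nontrivial normal p-subgroup of G modulo its centralizer. -/
theorem result {G : Type*} [Group G] [Finite G] {p : ℕ} [Fact p.Prime] (V : Subgroup G) [V.Normal] (hV : Cfsg.IsElementaryAbelian p V) (hgen : V = ⨆ S : Sylow p G, V ⊓ Subgroup.centralizer ((S : Subgroup G) : Set G)) : Cfsg.pCore p (G ⧸ Subgroup.centralizer (V : Set G)) = ⊥ := by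
  rw [eq_bot_iff]
  intro t ht
  obtain ⟨x, rfl⟩ := QuotientGroup.mk_surjective t
  rw [Subgroup.mem_bot, QuotientGroup.eq_one_iff]
  have h0 : V ≤ Subgroup.centralizer ({x} : Set G) := by
    refine hgen.le.trans (iSup_le fun S => ?_)
    obtain ⟨s, hs, c, hc, rfl⟩ :=
      Cfsg.Agent.Lib.PLocalTools.exists_sylow_mul_of_mk_mem_pCore _ S ht
    intro y hy
    refine Subgroup.mem_centralizer_singleton_iff.mpr ?_
    have h1 : y * s = s * y := (Subgroup.mem_centralizer_iff.mp (Subgroup.mem_inf.mp hy).2 s hs).symm
    have h2 : y * c = c * y := Subgroup.mem_centralizer_iff.mp hc y (Subgroup.mem_inf.mp hy).1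
    calc y * (s * c) = (y * s) * c := (mul_assoc _ _ _).symm
      _ = s * (y * c) := by rw [h1, mul_assoc]
      _ = s * (c * y) := by rw [h2]
      _ = (s * c) * y := (mul_assoc _ _ _).symm
  exact Subgroup.mem_centralizer_iff.mpr fun y hy =>
    Subgroup.mem_centralizer_singleton_iff.mp (h0 hy)

end Cfsg.Agent.S0600
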