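import Mathlib
-- Template for statement S0601 (row 601; see /opt/grader/pristine/manifest.json for weights).
-- Copy to Cfsg/Agent/S0601.lean and replace the sorry. The statement below is byte-identical to the frozen
-- statement Cfsg.CfsgFrozen.S0601 (Cfsg/Statements/S0601.lean; the theorem Cfsg.sylow_center_omega_closure_of_characteristic_p);
-- the grader kernel-checks Cfsg.Agent.S0601.result against that frozen type. Keep the theorem IN THIS FILE
-- (a `result` declared elsewhere and merely imported here is not credited); helpers may live anywhere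
-- under Cfsg/Agent/.
import Cfsg.Statements.S0601
import Cfsg.Agent.Lib.PLocalTools

set_option autoImplicit false
open Cfsg
open scoped commutatorElement

namespace Cfsg.Agent.S0601

/-- When O_p(G) contains its centralizer, the normal closure of Ω₁(Z(S)) is elementary abelian and G has no nontrivial normal p-subgroup modulo its centralizer. -/
theorem result {G : Type*} [Group G] [Finite G] {p : ℕ} [Fact p.Prime] (hc : Subgroup.centralizer (Cfsg.pCore p G : Set G) ≤ Cfsg.pCore p G) : (⨆ S : Sylow p G, Cfsg.omegaOne p (((S : Subgroup G)) ⊓ Subgroup.centralizer ((S : Subgroup G) : Set G))).Normal ∧ Cfsg.IsElementaryAbelian p (⨆ S : Sylow p G, Cfsg.omegaOne p (((S : Subgroup G)) ⊓ Subgroup.centralizer ((S : Subgroup G) : Set G))) ∧ ∀ D : Subgroup G, D.Normal → Subgroup.centralizer ((⨆ S : Sylow p G, Cfsg.omegaOne p (((S : Subgroup G)) ⊓ Subgroup.centralizer ((S : Subgroup G) : Set G)) : Subgroup G) : Set G) ≤ D → (∃ k : ℕ, (Subgroup.centralizer ((⨆ S : Sylow p G, Cfsg.omegaOne p (((S : Subgroup G)) ⊓ Subgroup.centralizer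 ((S : Subgroup G) : Set G)) : Subgroup G) : Set G)).relIndex D = p ^ k) → D = Subgroup.centralizer ((⨆ S : Sylow p G, Cfsg.omegaOne p (((S : Subgroup G)) ⊓ Subgroup.centralizer ((S : Subgroup G) : Set G)) : Subgroup G) : Set G) := by
  have hN := Cfsg.Agent.Lib.PLocalTools.omegaSup_normal (G := G) p
  refine ⟨hN, ?_, ?_⟩
  · set P := pCore p G with hP
    have hZ : ∀ S : Sylow p G, (S : Subgroup G) ⊓ Subgroup.centralizer ((S : Subgroup G) : Set G) ≤
        P ⊓ Subgroup.centralizer (P : Set G) := by
      intro S x hx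
      have h1 : P ≤ (S : Subgroup G) := Cfsg.Agent.Lib.PCore.pCore_le_sylow p S
      have h2 : x ∈ Subgroup.centralizer (P : Set G) :=
        Subgroup.centralizer_le (SetLike.coe_mono h1) (Subgroup.mem_inf.mp hx).2
      exact Subgroup.mem_inf.mpr ⟨hc h2, h2⟩
    have hle : Cfsg.Agent.Lib.PLocalTools.omegaSup p G ≤
        omegaOne p (P ⊓ Subgroup.centralizer (P : Set G)) :=
      iSup_le fun S => Cfsg.Agent.Lib.PLocalTools.omegaOne_mono p (hZ S)
    refine Cfsg.Agent.Lib.ThompsonJ.ea_mono (Cfsg.Agent.Lib.PLocalTools.omegaOne_ea ?_) hle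
    intro x hx y hy
    exact (Subgroup.mem_centralizer_iff.mp (Subgroup.mem_inf.mp hy).2 x (Subgroup.mem_inf.mp hx).1)
  · intro D hD hCD hk
    apply le_antisymm _ hCD
    intro x hx
    haveI := hN
    have hm := Cfsg.Agent.Lib.PLocalTools.mk_mem_pCore_of_relIndex _ D hD hCD hk hx
    have h0 : Cfsg.Agent.Lib.PLocalTools.omegaSup p G ≤ Subgroup.centralizer ({x} : Set G) := by
      refine iSup_le fun S => ?_
      obtain ⟨s, hs, c, hc, rfl⟩ :=
        Cfsg.Agent.Lib.PLocalTools.exists_sylow_mul_of_mk_mem_pCore _ S hm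
      intro y hy
      exact Subgroup.mem_centralizer_singleton_iff.mpr
        (Cfsg.Agent.Lib.PLocalTools.comm_of_sylow_mul S hs hc hy)
    exact Subgroup.mem_centralizer_iff.mpr fun y hy =>
      Subgroup.mem_centralizer_singleton_iff.mp (h0 hy)

end Cfsg.Agent.S0601
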