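import Mathlib
-- Template for statement S0602 (row 602; see /opt/grader/pristine/manifest.json for weights).
-- Copy to Cfsg/Agent/S0602.lean and replace the sorry. The statement below is byte-identical to the frozen
-- statement Cfsg.CfsgFrozen.S0602 (Cfsg/Statements/S0602.lean; the theorem Cfsg.thompson_subgroup_characteristic_ne_bot);
-- the grader kernel-checks Cfsg.Agent.S0602.result against that frozen type. Keep the theorem IN THIS FILE
-- (a `result` declared elsewhere and merely imported here is not credited); helpers may live anywhere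
-- under Cfsg/Agent/.
import Cfsg.Statements.S0602
import Cfsg.Agent.Lib.ThompsonJ

set_option autoImplicit false
open Cfsg

namespace Cfsg.Agent.S0602

/-- The Thompson subgroup is characteristic, and nontrivial as soon as p divides the group order. -/
theorem result {G : Type*} [Group G] [Finite G] {p : ℕ} [Fact p.Prime] : (Cfsg.thompsonSubgroup p G).Characteristic ∧ (p ∣ Nat.card G → Cfsg.thompsonSubgroup p G ≠ ⊥) := by
  refine ⟨Cfsg.Agent.Lib.ThompsonJ.thompson_characteristic p, ?_⟩
  intro hp hbot
  obtain ⟨x, hx⟩ := exists_prime_orderOf_dvd_card' p hp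
  obtain ⟨A, hA⟩ := Cfsg.Agent.Lib.ThompsonJ.exists_mem_max p G
  have hA1 : A = ⊥ := by
    have := Cfsg.Agent.Lib.ThompsonJ.le_thompson hA
    rw [hbot] at this
    exact le_bot_iff.mp this
  have hz : IsElementaryAbelian p (Subgroup.zpowers x) := by
    rw [Subgroup.zpowers_eq_closure]
    apply Cfsg.Agent.Lib.ThompsonJ.isElementaryAbelian_closure
    · rintro a rfl b rfl; rfl
    · rintro a rfl; rw [← hx]; exact pow_orderOf_eq_one _
  have h1 := hA.2 _ hz
  rw [hA1] at h1
  have h2 : Nat.card ↥(⊥ : Subgroup G) = 1 := Subgroup.card_bot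
  rw [h2, Nat.card_zpowers, hx] at h1
  exact absurd h1 (by have := (Fact.out : p.Prime).one_lt; omega)

end Cfsg.Agent.S0602
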