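import Mathlib
-- Template for statement S0603 (row 603; see /opt/grader/pristine/manifest.json for weights).
-- Copy to Cfsg/Agent/S0603.lean and replace the sorry. The statement below is byte-identical to the frozen
-- statement Cfsg.CfsgFrozen.S0603 (Cfsg/Statements/S0603.lean; the theorem Cfsg.thompson_subgroup_eq_of_le);
-- the grader kernel-checks Cfsg.Agent.S0603.result against that frozen type. Keep the theorem IN THIS FILE
-- (a `result` declared elsewhere and merely imported here is not credited); helpers may live anywhere
-- under Cfsg/Agent/.
import Cfsg.Statements.S0603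
import Cfsg.Agent.Lib.ThompsonJ

set_option autoImplicit false
open Cfsg

namespace Cfsg.Agent.S0603

/-- The Thompson subgroup of any subgroup containing J(G) is J(G) itself. -/
theorem result {G : Type*} [Group G] [Finite G] {p : ℕ} [Fact p.Prime] (U : Subgroup G) (hU : Cfsg.thompsonSubgroup p G ≤ U) : Cfsg.thompsonSubgroupOf p U = Cfsg.thompsonSubgroup p G := by
  exact Cfsg.Agent.Lib.ThompsonJ.thompsonOf_eq hU

end Cfsg.Agent.S0603
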