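import Mathlib
-- Template for statement S0604 (row 604; see /opt/grader/pristine/manifest.json for weights).
-- Copy to Cfsg/Agent/S0604.lean and replace the sorry. The statement below is byte-identical to the frozen
-- statement Cfsg.CfsgFrozen.S0604 (Cfsg/Statements/S0604.lean; the theorem Cfsg.thompson_subgroup_eq_sup_sylow_thompson);
-- the grader kernel-checks Cfsg.Agent.S0604.result against that frozen type. Keep the theorem IN THIS FILE
-- (a `result` declared elsewhere and merely imported here is not credited); helpers may live anywhere
-- under Cfsg/Agent/.
import Cfsg.Statements.S0604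
import Cfsg.Agent.Lib.ThompsonJ

set_option autoImplicit false
open Cfsg

namespace Cfsg.Agent.S0604

/-- The Thompson subgroup of G is the join of the Thompson subgroups of its Sylow p-subgroups. -/
theorem result {G : Type*} [Group G] [Finite G] {p : ℕ} [Fact p.Prime] : Cfsg.thompsonSubgroup p G = ⨆ S : Sylow p G, Cfsg.thompsonSubgroupOf p (S : Subgroup G) := by
  exact Cfsg.Agent.Lib.ThompsonJ.thompson_eq_iSup_sylow

end Cfsg.Agent.S0604
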