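import Mathlib
-- Template for statement S0605 (row 605; see /opt/grader/pristine/manifest.json for weights).
-- Copy to Cfsg/Agent/S0605.lean and replace the sorry. The statement below is byte-identical to the frozen
-- statement Cfsg.CfsgFrozen.S0605 (Cfsg/Statements/S0605.lean; the theorem Cfsg.mem_thompson_subgroup_of_order_p_centralizing);
-- the grader kernel-checks Cfsg.Agent.S0605.result against that frozen type. Keep the theorem IN THIS FILE
-- (a `result` declared elsewhere and merely imported here is not credited); helpers may live anywhere
-- under Cfsg/Agent/.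
import Cfsg.Statements.S0605
import Cfsg.Agent.Lib.ThompsonJ

set_option autoImplicit false
open Cfsg

namespace Cfsg.Agent.S0605

/-- Elements of order p in the centralizer of the Thompson subgroup belong to the Thompson subgroup (so to its centre). -/
theorem result {G : Type*} [Group G] [Finite G] {p : ℕ} [Fact p.Prime] (x : G) (hx : x ∈ Subgroup.centralizer (Cfsg.thompsonSubgroup p G : Set G)) (ho : orderOf x = p) : x ∈ Cfsg.thompsonSubgroup p G := by
  obtain ⟨A, hA⟩ := Cfsg.Agent.Lib.ThompsonJ.exists_mem_max p G
  have hxp : x ^ p = 1 := by rw [← ho]; exact pow_orderOf_eq_one x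
  have := Cfsg.Agent.Lib.ThompsonJ.mem_of_mem_max hA hxp
    (Subgroup.centralizer_le (Cfsg.Agent.Lib.ThompsonJ.le_thompson hA) hx)
  exact Cfsg.Agent.Lib.ThompsonJ.le_thompson hA this

end Cfsg.Agent.S0605
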