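import Mathlib
-- Template for statement S0608 (row 608; see /opt/grader/pristine/manifest.json for weights).
-- Copy to Cfsg/Agent/S0608.lean and replace the sorry. The statement below is byte-identical to the frozen
-- statement Cfsg.CfsgFrozen.S0608 (Cfsg/Statements/S0608.lean; the theorem Cfsg.thompson_factorizable_iff_thompson_le_centralizer);
-- the grader kernel-checks Cfsg.Agent.S0608.result against that frozen type. Keep the theorem IN THIS FILE
-- (a `result` declared elsewhere and merely imported here is not credited); helpers may live anywhere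
-- under Cfsg/Agent/.
import Cfsg.Statements.S0608
import Cfsg.Agent.Lib.PLocalTools

set_option autoImplicit false
open Cfsg
open scoped commutatorElement

namespace Cfsg.Agent.S0608

/-- With trivial p'-core, Thompson factorizability is equivalent to J(G) centralizing the subgroup generated by all Ω₁(Z(S)), S Sylow. -/
theorem result {G : Type*} [Group G] [Finite G] {p : ℕ} [Fact p.Prime] (hO : Cfsg.pPrimeCore p G = ⊥) : Cfsg.IsThompsonFactorizable p G ↔ Cfsg.thompsonSubgroup p G ≤ Subgroup.centralizer ((⨆ S : Sylow p G, Cfsg.omegaOne p (((S : Subgroup G)) ⊓ Subgroup.centralizer ((S : Subgroup G) : Set G)) : Subgroup G) : Set G) := by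
  open Cfsg.Agent.Lib.PLocalTools Cfsg.Agent.Lib.ThompsonJ in
  constructor
  · intro hfact
    rw [thompson_eq_iSup_sylow]
    refine iSup_le fun T => ?_
    rw [Subgroup.le_centralizer_iff]
    refine iSup_le fun S => ?_
    obtain ⟨g, rfl⟩ := MulAction.exists_smul_eq G S T
    rw [Subgroup.le_centralizer_iff, coe_sylow_smul, thompsonOf_map_conj]
    rintro _ ⟨y, hy, rfl⟩
    obtain ⟨x, hx, c, hc, n, hn, hg⟩ := hfact S g
    rw [hO, Subgroup.mem_bot] at hx
    refine Subgroup.mem_centralizer_iff.mpr fun z hz => ?_
    have hy2 : n * y * n⁻¹ ∈ thompsonSubgroupOf p (S : Subgroup G) :=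
      (Subgroup.mem_normalizer_iff.mp hn y).mp hy
    have hzc : z * c = c * z := (Subgroup.mem_centralizer_iff.mp hc z hz)
    have hzS : z ∈ Subgroup.centralizer ((S : Subgroup G) : Set G) :=
      (omegaOne_le p _).trans inf_le_right hz
    have hzy : z * (n * y * n⁻¹) = (n * y * n⁻¹) * z :=
      (Subgroup.mem_centralizer_iff.mp hzS _ (thompsonOf_le p _ hy2)).symm
    have hgval : MulAut.conj g y = c * (n * y * n⁻¹) * c⁻¹ := by
      rw [MulAut.conj_apply, hg, hx]; group
    change z * (MulAut.conj g y) = (MulAut.conj g y) * z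
    rw [hgval]
    calc z * (c * (n * y * n⁻¹) * c⁻¹) = (z * c) * (n * y * n⁻¹) * c⁻¹ := by group
      _ = c * (z * (n * y * n⁻¹)) * c⁻¹ := by rw [hzc]; group
      _ = c * ((n * y * n⁻¹) * z) * c⁻¹ := by rw [hzy]
      _ = c * (n * y * n⁻¹) * (z * c⁻¹) := by group
      _ = c * (n * y * n⁻¹) * (c⁻¹ * z) := by
          congr 1
          exact (show Commute z c from hzc).inv_right.eq
      _ = c * (n * y * n⁻¹) * c⁻¹ * z := by group
  · intro hJ S g
    haveI : (omegaSup p G).Normal := omegaSup_normal p
    have hJS := (thompsonOf_sylow_le S).trans hJ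
    obtain ⟨d, hd, n, hn, rfl⟩ := frattini_thompson S (Subgroup.centralizer (omegaSup p G : Set G)) hJS g
    refine ⟨1, one_mem _, d, ?_, n, hn, by simp⟩
    refine Subgroup.centralizer_le (SetLike.coe_mono ?_) hd
    exact le_iSup (fun S : Sylow p G => omegaOne p ((S : Subgroup G) ⊓ Subgroup.centralizer ((S : Subgroup G) : Set G))) S

end Cfsg.Agent.S0608
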