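import Mathlib
-- Template for statement S0609 (row 609; see /opt/grader/pristine/manifest.json for weights).
-- Copy to Cfsg/Agent/S0609.lean and replace the sorry. The statement below is byte-identical to the frozen
-- statement Cfsg.CfsgFrozen.S0609 (Cfsg/Statements/S0609.lean; the theorem Cfsg.thompson_factorizable_iff_quotient_p_prime_core);
-- the grader kernel-checks Cfsg.Agent.S0609.result against that frozen type. Keep the theorem IN THIS FILE
-- (a `result` declared elsewhere and merely imported here is not credited); helpers may live anywhere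
-- under Cfsg/Agent/.
import Cfsg.Statements.S0609
import Cfsg.Agent.Lib.PLocalTools2

set_option autoImplicit false
open Cfsg
open scoped commutatorElement

namespace Cfsg.Agent.S0609

/-- Thompson factorizability passes to and from the quotient by the largest normal subgroup of order prime to p. -/
theorem result {G : Type*} [Group G] [Finite G] {p : ℕ} [Fact p.Prime] : Cfsg.IsThompsonFactorizable p G ↔ Cfsg.IsThompsonFactorizable p (G ⧸ Cfsg.pPrimeCore p G) := by
  open Cfsg.Agent.Lib.PLocalTools Cfsg.Agent.Lib.PLocalTools2 Cfsg.Agent.Lib.ThompsonJ Cfsg.Agent.Lib.Replacement in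
  set O := pPrimeCore p G with hOdef
  have hOc : (Nat.card O).Coprime p := Cfsg.Agent.Lib.PCore.card_pPrimeCore_coprime p
  let π : G →* G ⧸ O := QuotientGroup.mk' O
  have hsurj : Function.Surjective π := QuotientGroup.mk'_surjective O
  have hinj : ∀ S : Sylow p G, ∀ x ∈ (S : Subgroup G), π x = 1 → x = 1 :=
    fun S x hx h => eq_one_of_mk_eq_one S.isPGroup' hOc hx h
  have hΩ : ∀ S : Sylow p G, omegaOne p (((S : Subgroup G).map π) ⊓
      Subgroup.centralizer (((S : Subgroup G).map π : Subgroup _) : Set _)) =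
      (omegaOne p ((S : Subgroup G) ⊓ Subgroup.centralizer ((S : Subgroup G) : Set G))).map π := by
    intro S
    rw [map_omegaOne_of_inj p _ π (fun x hx => hinj S x (Subgroup.mem_inf.mp hx).1),
      map_inf_centralizer_of_inj _ π (hinj S)]
  have hJ : ∀ S : Sylow p G, thompsonSubgroupOf p ((S : Subgroup G).map π) =
      (thompsonSubgroupOf p (S : Subgroup G)).map π :=
    fun S => thompsonOf_map _ π (hinj S)
  constructor
  · intro h T g
    obtain ⟨S, rfl⟩ := Sylow.mapSurjective_surjective hsurj p T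
    obtain ⟨g, rfl⟩ := hsurj g
    obtain ⟨x, hx, c, hc, n, hn, rfl⟩ := h S g
    rw [Sylow.coe_mapSurjective, hΩ, hJ]
    refine ⟨1, one_mem _, π c, ?_, π n, ?_, ?_⟩
    · refine Subgroup.mem_centralizer_iff.mpr ?_
      rintro _ ⟨z, hz, rfl⟩
      have : z * c = c * z := Subgroup.mem_centralizer_iff.mp hc z hz
      rw [← map_mul, this, map_mul]
    · apply mem_normalizer_of_forall
      rintro _ ⟨j, hj, rfl⟩
      refine ⟨n * j * n⁻¹, (Subgroup.mem_normalizer_iff.mp hn j).mp hj, ?_⟩
      simp only [map_mul, map_inv]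
    · have hx1 : π x = 1 := (QuotientGroup.eq_one_iff x).mpr hx
      rw [map_mul, map_mul, hx1]
  · intro h S g
    obtain ⟨xb, hxb, cb, hcb, nb, hnb, hg⟩ := h (S.mapSurjective hsurj) (π g)
    rw [Sylow.coe_mapSurjective] at hcb hnb
    rw [hΩ] at hcb
    rw [hJ] at hnb
    rw [Cfsg.Agent.Lib.PCore.pPrimeCore_quotient_pPrimeCore, Subgroup.mem_bot] at hxb
    subst hxb
    obtain ⟨c₀, rfl⟩ := hsurj cb
    obtain ⟨n₀, rfl⟩ := hsurj nb
    have hSp := S.isPGroup'
    have hΩp : IsPGroup p (omegaOne p ((S : Subgroup G) ⊓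
        Subgroup.centralizer ((S : Subgroup G) : Set G))) :=
      hSp.to_le ((omegaOne_le p _).trans inf_le_left)
    have hJp : IsPGroup p (thompsonSubgroupOf p (S : Subgroup G)) :=
      hSp.to_le (thompsonOf_le p _)
    obtain ⟨y₁, hy₁, c₁, hc₁, hc₀⟩ := exists_mul_centralizer hΩp hOc (t := c₀) (by
      intro x hx
      have h1 : π x * π c₀ = π c₀ * π x := Subgroup.mem_centralizer_iff.mp hcb (π x) ⟨x, hx, rfl⟩
      have h2 : π (x⁻¹ * (c₀ * x * c₀⁻¹)) = 1 := by
        simp only [map_mul, map_inv]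
        rw [← h1]
        group
      exact (QuotientGroup.eq_one_iff _).mp h2)
    obtain ⟨y₂, hy₂, n₁, hn₁, hn₀⟩ := exists_mul_normalizer hJp hOc (t := n₀) (by
      intro x hx
      have h1 : π n₀ * π x * (π n₀)⁻¹ ∈ (thompsonSubgroupOf p (S : Subgroup G)).map π :=
        (Subgroup.mem_normalizer_iff.mp hnb (π x)).mp ⟨x, hx, rfl⟩
      obtain ⟨j, hj, hjx⟩ := h1
      have h2 : π (j⁻¹ * (n₀ * x * n₀⁻¹)) = 1 := by
        simp only [map_mul, map_inv]
        rw [hjx]
        group
      have h3 : n₀ * x * n₀⁻¹ = j * (j⁻¹ * (n₀ * x * n₀⁻¹)) := by group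
      rw [h3]
      exact Subgroup.mul_mem _ (Subgroup.mem_sup_left hj)
        (Subgroup.mem_sup_right ((QuotientGroup.eq_one_iff _).mp h2)))
    have hy : g * (c₀ * n₀)⁻¹ ∈ O := by
      have h2 : π (g * (c₀ * n₀)⁻¹) = 1 := by
        simp only [map_mul, map_inv]
        rw [hg]
        group
      exact (QuotientGroup.eq_one_iff _).mp h2
    have hnO : O.Normal := inferInstance
    refine ⟨(g * (c₀ * n₀)⁻¹) * y₁ * (c₁ * y₂ * c₁⁻¹), ?_, c₁, hc₁, n₁, hn₁, ?_⟩
    · exact O.mul_mem (O.mul_mem hy hy₁) (hnO.conj_mem y₂ hy₂ c₁)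
    · rw [hc₀, hn₀]
      group

end Cfsg.Agent.S0609
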