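import Mathlib
-- Template for statement S0623 (row 623; see /opt/grader/pristine/manifest.json for weights).
-- Copy to Cfsg/Agent/S0623.lean and replace the sorry. The statement below is byte-identical to the frozen
-- statement Cfsg.CfsgFrozen.S0623 (Cfsg/Statements/S0623.lean; the theorem Cfsg.stable_normal_closure_quadratic_imp_central);
-- the grader kernel-checks Cfsg.Agent.S0623.result against that frozen type. Keep the theorem IN THIS FILE
-- (a `result` declared elsewhere and merely imported here is not credited); helpers may live anywhere
-- under Cfsg/Agent/.
import Cfsg.Statements.S0623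
import Cfsg.Agent.Lib.StableW

set_option autoImplicit false
open Cfsg
open scoped commutatorElement

namespace Cfsg.Agent.S0623

/-- No element of a finite p-group acts quadratically and nontrivially on the stable normal closure W(S). -/
theorem result {S : Type*} [Group S] [Finite S] {p : ℕ} [Fact p.Prime] (hS : IsPGroup p S) (x : S) (hq : ⁅⁅Cfsg.stableNormalClosure p S, Subgroup.zpowers x⁆, Subgroup.zpowers x⁆ = ⊥) : ⁅Cfsg.stableNormalClosure p S, Subgroup.zpowers x⁆ = ⊥ := by
  exact Cfsg.Agent.Lib.StableW.noQuad_stable x hq

end Cfsg.Agent.S0623
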