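import Mathlib
-- Template for statement S0627 (row 627; see /opt/grader/pristine/manifest.json for weights).
-- Copy to Cfsg/Agent/S0627.lean and replace the sorry. The statement below is byte-identical to the frozen
-- statement Cfsg.CfsgFrozen.S0627 (Cfsg/Statements/S0627.lean; the theorem Cfsg.p_separable_eq_p_prime_core_mul_normalizer_stable_closure);
-- the grader kernel-checks Cfsg.Agent.S0627.result against that frozen type. Keep the theorem IN THIS FILE
-- (a `result` declared elsewhere and merely imported here is not credited); helpers may live anywhere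
-- under Cfsg/Agent/.
import Cfsg.Statements.S0627
import Cfsg.Agent.Lib.ActionStable

set_option autoImplicit false
open Cfsg
open scoped commutatorElement

namespace Cfsg.Agent.S0627

/-- In a p-separable group with p at least 5, the normalizer of W(S) supplements the largest normal subgroup of order prime to p. -/
theorem result {G : Type*} [Group G] [Finite G] {p : ℕ} [Fact p.Prime] (hp : 5 ≤ p) (hsep : Cfsg.IsPSolvable p G) (S : Sylow p G) : Cfsg.pPrimeCore p G ⊔ Subgroup.normalizer (((Cfsg.stableNormalClosure p ↥(S : Subgroup G)).map (S : Subgroup G).subtype) : Set G) = ⊤ := by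
  classical
  open Cfsg.Agent.Lib.ActionStable Cfsg.Agent.Lib.PCore Cfsg.Agent.Lib.PSolv Cfsg.Agent.Lib.StableW
    Cfsg.Agent.Lib.StableZJ in
  set R := pPrimeCore p G with hR
  haveI hRn : R.Normal := by rw [hR]; infer_instance
  let π := QuotientGroup.mk' R
  have hπs : Function.Surjective π := QuotientGroup.mk'_surjective R
  have hπk : π.ker = R := QuotientGroup.ker_mk' R
  have hsep' : IsPSolvable p (G ⧸ R) := isPSolvable_quotient hsep R
  have hcore : pPrimeCore p (G ⧸ R) = ⊥ := pPrimeCore_eq_bot_of_surjective p π hπs hπk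
  have hc := centralizer_pCore_le_of_pSolvable hsep' hcore
  have hst := actionStable_of_psep hp hsep'
  have hcopR : (Nat.card R).Coprime p := card_pPrimeCore_coprime p
  obtain ⟨k, hk⟩ := IsPGroup.iff_card.mp S.2
  have hSR : (S : Subgroup G) ⊓ R = ⊥ := by
    apply disjoint_iff.mp
    apply Subgroup.disjoint_of_coprime_natCard
    rw [hk]
    exact (Nat.Coprime.pow_right k hcopR).symm
  let Sb : Sylow p (G ⧸ R) := S.mapSurjective hπs
  have hSb : (Sb : Subgroup (G ⧸ R)) = (S : Subgroup G).map π := rfl
  have hN := Cfsg.Agent.Lib.StableZJ.wOf_normal hst hc Sb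
  -- the isomorphism from `S` to its image
  let η₀ : ↥(S : Subgroup G) →* ↥(Sb : Subgroup (G ⧸ R)) := π.subgroupMap (S : Subgroup G)
  have hη₀ : Function.Bijective η₀ := by
    constructor
    · rw [injective_iff_map_eq_one]
      rintro ⟨x, hx⟩ hx2
      apply Subtype.ext
      have h1 : π x = 1 := congrArg Subtype.val hx2
      have h2 : x ∈ R := by rw [← hπk]; exact h1
      have h3 : x ∈ (S : Subgroup G) ⊓ R := ⟨hx, h2⟩
      rw [hSR] at h3
      exact h3
    · exact π.subgroupMap_surjective (S : Subgroup G)
  let η : ↥(S : Subgroup G) ≃* ↥(Sb : Subgroup (G ⧸ R)) := MulEquiv.ofBijective η₀ hη₀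
  set W := (stableNormalClosure p ↥(S : Subgroup G)).map (S : Subgroup G).subtype with hW
  have hWb : W.map π = (stableNormalClosure p ↥(Sb : Subgroup (G ⧸ R))).map (Sb : Subgroup (G ⧸ R)).subtype := by
    rw [← map_stable η, Subgroup.map_map, Subgroup.map_map]
    rfl
  haveI hWn : (W.map π).Normal := by rw [hWb]; exact hN
  set D := R ⊔ W with hD
  have hDeq : D = (W.map π).comap π := by
    rw [Subgroup.comap_map_eq, hπk, sup_comm]
  haveI hDn : D.Normal := by rw [hDeq]; exact Subgroup.Normal.comap hWn π
  have hWS : W ≤ (S : Subgroup G) := by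
    rw [hW]
    exact Subgroup.map_subtype_le _
  have hWp : IsPGroup p W := S.2.to_le hWS
  have hWD : W ≤ D := le_sup_right
  have hWR : R ⊓ W = ⊥ := by
    rw [eq_bot_iff, ← hSR, inf_comm]
    exact inf_le_inf_right _ hWS
  -- index of `W` in `D`
  have hidx : W.relIndex D = Nat.card R := by
    have h1 := Subgroup.relIndex_mul_relIndex ⊥ W D bot_le hWD
    have h2 := Subgroup.relIndex_mul_relIndex ⊥ R D bot_le le_sup_left
    have h3 : R.relIndex D = Nat.card W := by
      rw [hD, Subgroup.relIndex_sup_left, ← Subgroup.inf_relIndex_right, hWR, Subgroup.relIndex_bot_left]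
    rw [Subgroup.relIndex_bot_left, Subgroup.relIndex_bot_left] at h1 h2
    rw [h3] at h2
    have hpos : 0 < Nat.card W := Nat.card_pos
    apply Nat.eq_of_mul_eq_mul_left hpos
    rw [h1, ← h2, mul_comm]
  have hWp' : IsPGroup p (W.subgroupOf D) := hWp.comap_of_injective D.subtype D.subtype_injective
  have hnd : ¬ p ∣ (W.subgroupOf D).index := by
    show ¬ p ∣ W.relIndex D
    rw [hidx]
    intro hd
    have := Nat.Coprime.eq_one_of_dvd hcopR.symm hd
    exact (Fact.out : p.Prime).one_lt.ne' this
  let P : Sylow p D := hWp'.toSylow hnd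
  have hfr := Sylow.normalizer_sup_eq_top P
  have hPm : ((P : Subgroup D).map D.subtype) = W := by
    show (W.subgroupOf D).map D.subtype = W
    rw [Subgroup.subgroupOf_map_subtype, inf_eq_left.mpr hWD]
  rw [hPm] at hfr
  rw [eq_top_iff, ← hfr]
  refine sup_le le_sup_right (sup_le le_sup_left ?_)
  exact Subgroup.le_normalizer.trans le_sup_right

end Cfsg.Agent.S0627
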