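import Mathlib
import Cfsg.Statements.S0633
import Cfsg.Agent.Lib.HHB3
import Cfsg.Agent.Lib.PCore
import Cfsg.Agent.Lib.QuadAbs
import Cfsg.Agent.Lib.SylowConjLemmas

set_option autoImplicit false
open Cfsg

namespace Cfsg.Agent.S0633

open Module Cfsg.Agent.Lib.HHB3 Cfsg.Agent.Lib.HHB2 Cfsg.Agent.Lib.HHCrit
open scoped TensorProduct

/-- Theorem B of Hall and Higman on the minimal polynomial of a p-element of order p^n in a p-solvable linear group on a nonzero vector space in characteristic p with no nontrivial normal p-subgroup: its degree is p^n, except when some p^n₀ - 1 (n₀ ≤ n) is a power of a prime q for which the Sylow q-subgroups are non-abelian, in which case the degree is at least p^(n-n₀)(p^n₀ - 1). -/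
theorem result {F : Type*} [Field F] {p : ℕ} [Fact p.Prime] [CharP F p] {V : Type*} [AddCommGroup V] [Module F V] [FiniteDimensional F V] [Nontrivial V] (H : Subgroup (V ≃ₗ[F] V)) [Finite H] (hsol : Cfsg.IsPSolvable p H) (hOp : Cfsg.pCore p H = ⊥) (x : V ≃ₗ[F] V) (hx : x ∈ H) (n : ℕ) (hn : orderOf x = p ^ n) (r : ℕ) (hr : minpoly F (x : Module.End F V) = (Polynomial.X - 1) ^ r) : r = p ^ n ∨ ∃ n₀ q m : ℕ, 1 ≤ n₀ ∧ n₀ ≤ n ∧ q.Prime ∧ 1 ≤ m ∧ p ^ n₀ - 1 = q ^ m ∧ (∀ Q : Sylow q H, ¬ IsMulCommutative Q) ∧ p ^ (n - n₀) * (p ^ n₀ - 1) ≤ r := by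
  classical
  have hpp : p.Prime := Fact.out
  -- the endomorphism
  let ι : (V ≃ₗ[F] V) →* End F V := LinearEquiv.automorphismGroup.toLinearMapMonoidHom
  have hιinj : Function.Injective ι := fun a b h => LinearEquiv.toLinearMap_injective h
  have hιx : ι x = (x : End F V) := rfl
  -- degree bookkeeping
  have hdeg : ∀ k : ℕ, (((Polynomial.X : Polynomial F) - 1) ^ k).natDegree = k := by
    intro k
    have h1 : ((Polynomial.X : Polynomial F) - 1) = Polynomial.X - Polynomial.C 1 := by simp
    rw [h1, Polynomial.natDegree_pow, Polynomial.natDegree_X_sub_C, mul_one]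
  have hmon : ∀ k : ℕ, (((Polynomial.X : Polynomial F) - 1) ^ k).Monic := by
    intro k
    have h1 : ((Polynomial.X : Polynomial F) - 1) = Polynomial.X - Polynomial.C 1 := by simp
    rw [h1]
    exact (Polynomial.monic_X_sub_C 1).pow k
  have hxr : ((x : End F V) - 1) ^ r = 0 := by
    have h1 := minpoly.aeval F (x : End F V)
    rw [hr] at h1
    simpa using h1
  have hxN : x ^ p ^ n = 1 := by rw [← hn]; exact pow_orderOf_eq_one x
  have hιxN : (ι x) ^ p ^ n = 1 := by rw [← map_pow, hxN, map_one]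
  have hrle : r ≤ p ^ n := by
    have h1 : ((x : End F V) - 1) ^ p ^ n = 0 := by
      rw [sub_one_pow_char_pow (K := F) p n, ← hιx, hιxN, sub_self]
    have h2 : minpoly F (x : End F V) ∣ ((Polynomial.X : Polynomial F) - 1) ^ p ^ n := by
      apply minpoly.dvd
      simpa using h1
    rw [hr] at h2
    have h3 := Polynomial.natDegree_le_of_dvd h2 ((hmon _).ne_zero)
    rwa [hdeg, hdeg] at h3
  rcases Nat.eq_zero_or_pos n with rfl | hnpos
  · left
    simp only [pow_zero] at hrle ⊢
    -- `x = 1`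
    have hx1 : x = 1 := orderOf_eq_one_iff.mp (by simpa using hn)
    have h1 : minpoly F (x : End F V) = Polynomial.X - Polynomial.C 1 := by
      rw [← hιx, hx1, map_one]
      exact minpoly.one F (End F V)
    rw [hr] at h1
    have h2 := congrArg Polynomial.natDegree h1
    rw [hdeg, Polynomial.natDegree_X_sub_C] at h2
    exact h2
  obtain ⟨n', rfl⟩ : ∃ n', n = n' + 1 := ⟨n - 1, by omega⟩
  -- base change
  let K := AlgebraicClosure F
  let φ : End F V →ₐ[F] End K (K ⊗[F] V) := Module.End.baseChangeHom F K V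
  have hφinj : Function.Injective φ := LinearMap.baseChangeHom_injective F V K
  have : Nontrivial (K ⊗[F] V) := by
    obtain ⟨v, hv⟩ := exists_ne (0 : V)
    have h1 := Module.Flat.tensorProduct_mk_injective F V K
    refine ⟨⟨(1 : K) ⊗ₜ[F] v, 0, ?_⟩⟩
    intro h
    exact hv (h1 (by simpa using h))
  let ρH : H →* End K (K ⊗[F] V) :=
    (φ : End F V →* End K (K ⊗[F] V)).comp (ι.comp H.subtype)
  have hρHinj : Function.Injective ρH := by
    intro a b hab
    exact Subtype.ext (hιinj (hφinj hab))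
  let xh : H := ⟨x, hx⟩
  have hxhN : xh ^ p ^ (n' + 1) = 1 := Subtype.ext hxN
  have hxhz : xh ^ p ^ n' ≠ 1 := by
    intro h
    have h1 : x ^ p ^ n' = 1 := congrArg Subtype.val h
    have h2 := orderOf_dvd_of_pow_eq_one h1
    rw [hn] at h2
    have h3 := Nat.le_of_dvd (Nat.pow_pos hpp.pos) h2
    have h4 := Nat.pow_lt_pow_right hpp.one_lt (Nat.lt_succ_self n')
    rw [Nat.succ_eq_add_one] at h4
    omega
  let Γ : Subgroup H := pPrimeCore p H
  let ρ : Γ →* End K (K ⊗[F] V) := ρH.comp Γ.subtype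
  let X : End K (K ⊗[F] V) := ρH xh
  let σ : MulAut Γ := MulAut.conjNormal xh
  have hσpow : ∀ (i : ℕ) (g : Γ), (((σ ^ i) g : Γ) : H) = xh ^ i * g * (xh ^ i)⁻¹ := by
    intro i g
    have : σ ^ i = MulAut.conjNormal (xh ^ i) := by simp [σ]
    rw [this, MulAut.conjNormal_apply]
  have hData : Data p n' ρ X σ :=
    { hcop := Cfsg.Agent.Lib.PCore.card_pPrimeCore_coprime p
      hXN := by
        simp only [X]
        rw [← map_pow, hxhN, map_one]
      hσN := by
        have : σ ^ p ^ (n' + 1) = MulAut.conjNormal (xh ^ p ^ (n' + 1)) := by simp [σ]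
        rw [this, hxhN, map_one]
      hXρ := by
        intro g
        simp only [X, ρ, MonoidHom.comp_apply, Subgroup.coe_subtype, σ, MulAut.conjNormal_apply]
        rw [← map_mul, ← map_mul]
        congr 1
        group
      hZ := by
        by_contra hcon
        push Not at hcon
        -- `z` centralises `O_{p'}(H)`
        have hz : xh ^ p ^ n' ∈ Subgroup.centralizer (Γ : Set H) := by
          rw [Subgroup.mem_centralizer_iff]
          intro g hg
          have h1 : (((σ ^ p ^ n') ⟨g, hg⟩ : Γ) : H) = g := hρHinj (hcon ⟨g, hg⟩)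
          rw [hσpow] at h1
          have h2 := eq_mul_inv_iff_mul_eq.mp h1.symm
          exact h2
        have hz' := Cfsg.Agent.Lib.QuadAbs.centralizer_pPrimeCore_le hsol hOp hz
        -- but `z` is a `p`-element
        have h1 : (xh ^ p ^ n') ^ p = 1 := by
          rw [← pow_mul, ← pow_succ, hxhN]
        have h2 : orderOf (⟨xh ^ p ^ n', hz'⟩ : Γ) ∣ Nat.card Γ := orderOf_dvd_natCard _
        have h3 : orderOf (⟨xh ^ p ^ n', hz'⟩ : Γ) ∣ p := by
          apply orderOf_dvd_of_pow_eq_one
          exact Subtype.ext h1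
        have h4 : orderOf (⟨xh ^ p ^ n', hz'⟩ : Γ) = 1 := by
          apply Nat.Coprime.eq_one_of_dvd _ h3
          exact Nat.Coprime.coprime_dvd_left h2 (Cfsg.Agent.Lib.PCore.card_pPrimeCore_coprime p)
        rw [orderOf_eq_one_iff] at h4
        exact hxhz (congrArg Subtype.val h4) }
  have hc := main (K := K) p n' (K ⊗[F] V) Γ ρ X σ hData
  have hXr : (X - 1) ^ r = 0 := by
    have h1 : X - 1 = φ ((x : End F V) - 1) := by
      rw [map_sub, map_one]
      rfl
    rw [h1, ← map_pow, hxr, map_zero]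
  rcases hc with hc | ⟨n₀, q, m, h1, h2, h3, h4, h5, ⟨R, hR, a, ha, b, hb, hab⟩, h7⟩
  · left
    exact le_antisymm hrle (hc r hXr)
  · right
    refine ⟨n₀, q, m, h1, h2, h3, h4, h5, ?_, h7 r hXr⟩
    intro Q hQab
    have : Fact q.Prime := ⟨h3⟩
    -- `R` maps into a conjugate of `Q`
    have hR' : IsPGroup q (R.map Γ.subtype) := hR.map _
    obtain ⟨g, hg⟩ := Cfsg.Agent.Lib.SylowConjLemmas.exists_conj_mem Q (R.map Γ.subtype) hR'
    have ha' := hg _ (Subgroup.mem_map_of_mem Γ.subtype ha)
    have hb' := hg _ (Subgroup.mem_map_of_mem Γ.subtype hb)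
    apply hab
    have hcomm := hQab.is_comm.comm ⟨_, ha'⟩ ⟨_, hb'⟩
    have hcomm2 := congrArg Subtype.val hcomm
    simp only [Subgroup.coe_mul, Subgroup.coe_subtype] at hcomm2
    have h9 : (a : H) * b = b * a := by
      have h10 : g * ((a : H) * b) * g⁻¹ = g * ((b : H) * a) * g⁻¹ := by
        calc g * ((a : H) * b) * g⁻¹ = (g * a * g⁻¹) * (g * b * g⁻¹) := by group
          _ = (g * b * g⁻¹) * (g * a * g⁻¹) := hcomm2
          _ = g * ((b : H) * a) * g⁻¹ := by group
      exact mul_left_cancel (mul_right_cancel h10)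
    exact Subtype.ext h9

end Cfsg.Agent.S0633
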