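import Cfsg.Statements.S0637
import Mathlib
import Cfsg.Agent.Lib.Huppert2
import Cfsg.Agent.S0638
import Cfsg.Agent.S0639

set_option autoImplicit false
open Cfsg

namespace Cfsg.Agent.S0637

/-- For p greater than 3, the bound p² on the order of the subgroup generated by the elements of order dividing p passes from a p-group to all its quotients. -/
theorem result {R : Type*} [Group R] [Finite R] {p : ℕ} [Fact p.Prime] (hp : 3 < p) (hR : IsPGroup p R) (hO : Nat.card ↥(Cfsg.omegaOne p (⊤ : Subgroup R)) ≤ p ^ 2) (T : Subgroup R) [T.Normal] : Nat.card ↥(Cfsg.omegaOne p (⊤ : Subgroup (R ⧸ T))) ≤ p ^ 2 := by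
  have hpp : p.Prime := Fact.out
  have hm : Cfsg.IsMetacyclic R := Cfsg.Agent.S0639.result hp hR hO
  have hQ : IsPGroup p (R ⧸ T) := hR.of_surjective (QuotientGroup.mk' T) (QuotientGroup.mk'_surjective T)
  have hmQ : Cfsg.IsMetacyclic (R ⧸ T) :=
    Cfsg.Agent.Lib.Huppert2.isMetacyclic_of_surjective (QuotientGroup.mk' T) (QuotientGroup.mk'_surjective T) hm
  by_cases hc : IsCyclic (R ⧸ T)
  · have hexp : ∀ x ∈ Cfsg.omegaOne p (⊤ : Subgroup (R ⧸ T)), x ^ p = 1 := by
      intro x hx
      unfold Cfsg.omegaOne at hx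
      induction hx using Subgroup.closure_induction with
      | mem x hx => exact hx.2
      | one => exact one_pow p
      | mul a b _ _ ha hb =>
        have hcomm : Commute a b := hc.isMulCommutative.is_comm.comm a b
        rw [hcomm.mul_pow, ha, hb, one_mul]
      | inv a _ ha => rw [inv_pow, ha, inv_one]
    have h1 : Nat.card (Cfsg.omegaOne p (⊤ : Subgroup (R ⧸ T))) ≤ p :=
      Cfsg.Agent.Lib.Huppert2.card_cyclic_le (fun x => Subtype.ext (by simpa using hexp x x.2))
    exact h1.trans (Nat.le_self_pow (by norm_num) p)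
  · exact (Cfsg.Agent.S0638.result (by omega) hQ hmQ hc).2.le

end Cfsg.Agent.S0637
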