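import Mathlib
import Cfsg.Statements.S0641

set_option autoImplicit false
open Cfsg

namespace Cfsg.Agent.S0641

/-- Regularity of a p-group passes to quotient groups. -/
theorem result {G : Type*} [Group G] {p : ℕ} [Fact p.Prime] (hG : Cfsg.IsRegularPGroup p G) (N : Subgroup G) [N.Normal] : Cfsg.IsRegularPGroup p (G ⧸ N) := by
  obtain ⟨hp, hreg⟩ := hG
  refine ⟨hp.to_quotient N, ?_⟩
  intro a b n
  obtain ⟨x, rfl⟩ := QuotientGroup.mk'_surjective N a
  obtain ⟨y, rfl⟩ := QuotientGroup.mk'_surjective N b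
  obtain ⟨c, hc, hab⟩ := hreg x y n
  set π := QuotientGroup.mk' N
  refine ⟨π c, ?_, ?_⟩
  · -- map of the closure
    have hmap : (Cfsg.powerClosure p n ⁅Subgroup.closure ({x, y} : Set G), Subgroup.closure ({x, y} : Set G)⁆).map π ≤
        Cfsg.powerClosure p n ⁅Subgroup.closure ({π x, π y} : Set (G ⧸ N)), Subgroup.closure ({π x, π y} : Set (G ⧸ N))⁆ := by
      unfold Cfsg.powerClosure
      rw [MonoidHom.map_closure]
      apply Subgroup.closure_mono
      rintro _ ⟨_, ⟨z, hz, rfl⟩, rfl⟩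
      refine ⟨π z, ?_, by simp⟩
      have hcl : (Subgroup.closure ({x, y} : Set G)).map π = Subgroup.closure ({π x, π y} : Set (G ⧸ N)) := by
        rw [MonoidHom.map_closure, Set.image_pair]
      have h2 : (⁅Subgroup.closure ({x, y} : Set G), Subgroup.closure ({x, y} : Set G)⁆).map π =
          ⁅Subgroup.closure ({π x, π y} : Set (G ⧸ N)), Subgroup.closure ({π x, π y} : Set (G ⧸ N))⁆ := by
        rw [Subgroup.map_commutator, hcl]
      rw [← h2]
      exact ⟨z, hz, rfl⟩
    exact hmap ⟨c, hc, rfl⟩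
  · rw [← map_mul, ← map_pow, hab]; simp

end Cfsg.Agent.S0641
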