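import Mathlib
import Cfsg.Statements.S0642
import Cfsg.Agent.S0641

set_option autoImplicit false
open Cfsg

namespace Cfsg.Agent.S0642

/-- Main induction on the cardinality. -/
theorem comm_aux (k : ℕ) : ∀ {G : Type _} [Group G] [Finite G], Nat.card G = k → Cfsg.IsRegularPGroup 2 G → ∀ a b : G, a * b = b * a := by
  induction k using Nat.strong_induction_on with
  | _ k ih =>
    intro G _ _ hk hreg a b
    have : Fact (Nat.Prime 2) := ⟨Nat.prime_two⟩
    by_cases hne : Nontrivial G
    · -- central subgroup of order 2
      have hreg' := hreg
      obtain ⟨hp, hR⟩ := hreg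
      have hZ : Nontrivial (Subgroup.center G) := hp.center_nontrivial
      have hpg : IsPGroup 2 (Subgroup.center G) := hp.to_subgroup _
      obtain ⟨z, hz⟩ := exists_prime_orderOf_dvd_card' (G := Subgroup.center G) 2 (by
        obtain ⟨m, hm⟩ := IsPGroup.iff_card.mp hpg
        have : Nat.card (Subgroup.center G) ≠ 1 := Finite.one_lt_card.ne'
        rw [hm] at this ⊢
        have hm' : m ≠ 0 := by rintro rfl; simp at this
        exact dvd_pow_self 2 hm')
      let N : Subgroup G := Subgroup.zpowers (z : G)
      have hzG : orderOf (z : G) = 2 := by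
        rw [← hz]; exact Subgroup.orderOf_coe z
      have hNc : N ≤ Subgroup.center G := by
        rw [Subgroup.zpowers_le]; exact z.2
      have hNn : N.Normal := ⟨fun n hn g => by
        have h1 := hNc hn
        rw [Subgroup.mem_center_iff] at h1
        rw [h1 g, mul_assoc, mul_inv_cancel, mul_one]
        exact hn⟩
      have hNcard : Nat.card N = 2 := by
        rw [Nat.card_zpowers]; exact hzG
      have hNsq : ∀ x ∈ N, x ^ 2 = 1 := by
        intro x hx
        have := orderOf_dvd_natCard (⟨x, hx⟩ : N)
        rw [hNcard] at this
        have h2 : (⟨x, hx⟩ : N) ^ 2 = 1 := orderOf_dvd_iff_pow_eq_one.mp this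
        exact congrArg Subtype.val h2
      have hlt : Nat.card (G ⧸ N) < k := by
        have h1 := Subgroup.card_mul_index N
        have h2 : N.index = Nat.card (G ⧸ N) := rfl
        have hpos : 0 < Nat.card G := Nat.card_pos
        rw [hNcard] at h1
        rw [← h2]
        omega
      have hab := @ih _ hlt (G ⧸ N) _ _ rfl (Cfsg.Agent.S0641.result hreg' N)
      -- the commutator of G lies in N
      have hcomm : ⁅(⊤ : Subgroup G), (⊤ : Subgroup G)⁆ ≤ N := by
        rw [Subgroup.commutator_le]
        intro g₁ _ g₂ _
        rw [← QuotientGroup.eq_one_iff]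
        have := hab (g₁ : G ⧸ N) (g₂ : G ⧸ N)
        simp only [commutatorElement_def, QuotientGroup.mk_mul, QuotientGroup.mk_inv]
        rw [this]; group
      obtain ⟨c, hc, hab'⟩ := hR a b 1
      have hc1 : c = 1 := by
        have hle : Cfsg.powerClosure 2 1 ⁅Subgroup.closure ({a, b} : Set G), Subgroup.closure ({a, b} : Set G)⁆ ≤ ⊥ := by
          unfold Cfsg.powerClosure
          rw [Subgroup.closure_le]
          rintro _ ⟨x, hx, rfl⟩
          have hxN : x ∈ N := hcomm (Subgroup.commutator_mono le_top le_top hx)
          simp [hNsq x hxN]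
        simpa using hle hc
      rw [hc1, mul_one, pow_one] at hab'
      have h3 : a * (b * a) * b = a * (a * b) * b := by
        have : (a * b) ^ 2 = a ^ 2 * b ^ 2 := hab'
        simp only [pow_two] at this
        calc a * (b * a) * b = a * b * (a * b) := by group
          _ = a * a * (b * b) := this
          _ = a * (a * b) * b := by group
      have h4 : b * a = a * b := by
        have := mul_right_cancel h3
        exact mul_left_cancel this
      exact h4.symm
    · rw [not_nontrivial_iff_subsingleton] at hne
      exact Subsingleton.elim _ _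

/-- Among finite 2-groups the regular ones are exactly the abelian ones. -/
theorem result {G : Type*} [Group G] [Finite G] (hG : IsPGroup 2 G) : Cfsg.IsRegularPGroup 2 G ↔ ∀ a b : G, a * b = b * a := by
  constructor
  · intro h
    exact comm_aux _ rfl h
  · intro h
    refine ⟨hG, fun a b n => ⟨1, Subgroup.one_mem _, ?_⟩⟩
    rw [mul_one]
    have hcomm : Commute a b := h a b
    exact hcomm.mul_pow _

end Cfsg.Agent.S0642
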