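-- Statement S0656
import Mathlib
import Cfsg.Agent.S0274
import Cfsg.Agent.Lib.QuadSection
import Cfsg.Statements.S0656

set_option autoImplicit false
open Cfsg

namespace Cfsg.Agent.S0656

/-- For odd p, a faithful group on an elementary abelian p-group with no nontrivial normal p-subgroup in which some nontrivial p-element acts quadratically has a section isomorphic to SL(2, p). -/
theorem result {G : Type*} [Group G] [Finite G] {p : ℕ} [Fact p.Prime] (hp : p ≠ 2) (V H : Subgroup G) (hV : Cfsg.IsElementaryAbelian p V) (hHV : H ≤ Subgroup.normalizer (V : Set G)) (hf : H ⊓ Subgroup.centralizer (V : Set G) = ⊥) (hO : Cfsg.pCore p ↥H = ⊥) (x : G) (hxH : x ∈ H) (hx1 : x ≠ 1) (hxp : ∃ k : ℕ, orderOf x = p ^ k) (hq : ⁅⁅V, Subgroup.zpowers x⁆, Subgroup.zpowers x⁆ = ⊥) : ∃ (K L : Subgroup G) (hL : (L.subgroupOf K).Normal), K ≤ H ∧ Nonempty ((K ⧸ L.subgroupOf K) ≃* Matrix.SpecialLinearGroup (Fin 2) (ZMod p)) := by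
  classical
  have hD : Cfsg.Agent.Lib.QuadSection.DicksonProp p := fun F _ _ _ H' hH' =>
    Cfsg.Agent.S0274.result p hp H' hH'
  have hVp : IsPGroup p V := fun v => ⟨1, Subtype.ext (by simpa using hV.2 v v.2)⟩
  obtain ⟨k, hk⟩ := hxp
  let x' : H := ⟨x, hxH⟩
  let X : Subgroup H := Subgroup.zpowers x'
  have hXp : IsPGroup p X := by
    rintro ⟨_, n, rfl⟩
    refine ⟨k, Subtype.ext ?_⟩
    have h1 : x' ^ p ^ k = 1 := by
      apply Subtype.ext
      show x ^ p ^ k = 1
      rw [← hk]; exact pow_orderOf_eq_one x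
    show (x' ^ n) ^ p ^ k = 1
    rw [← zpow_natCast, ← _root_.zpow_mul, mul_comm, _root_.zpow_mul, zpow_natCast, h1, _root_.one_zpow]
  by_cases hall : ∀ g : H, IsPGroup p ↥(X ⊔ X.map (MulAut.conj g).toMonoidHom)
  · exfalso
    obtain ⟨N, hNn, hNp, hXN⟩ := Cfsg.Agent.Lib.BaerSuzuki.baer_suzuki X hXp hall
    have h1 := Cfsg.Agent.Lib.PCore.le_pCore hNn hNp (hXN (Subgroup.mem_zpowers x'))
    rw [hO] at h1
    exact hx1 (congrArg Subtype.val (Subgroup.mem_bot.mp h1))
  · push Not at hall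
    obtain ⟨g, hg⟩ := hall
    have hnp : ∃ y ∈ X ⊔ X.map (MulAut.conj g).toMonoidHom, ∀ m : ℕ, y ^ p ^ m ≠ 1 := by
      by_contra hcon
      push Not at hcon
      apply hg
      intro y
      obtain ⟨m, hm⟩ := hcon y y.2
      exact ⟨m, Subtype.ext hm⟩
    obtain ⟨y, hy, hym⟩ := hnp
    have ha := Cfsg.Agent.Lib.QuadSection.quad_of_comm hq
    have hgN : (g : G) ∈ Subgroup.normalizer (V : Set G) := hHV g.2
    have hb := Cfsg.Agent.Lib.QuadSection.quad_conj hgN ha
    set b : G := (g : G) * x * (g : G)⁻¹ with hbdef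
    have hbH : b ∈ H := H.mul_mem (H.mul_mem g.2 hxH) (H.inv_mem g.2)
    have hle : Subgroup.closure ({x, b} : Set G) ≤ H := by
      rw [Subgroup.closure_le]
      rintro _ (rfl | rfl)
      · exact hxH
      · exact hbH
    have hXle : X ⊔ X.map (MulAut.conj g).toMonoidHom ≤ (Subgroup.closure ({x, b} : Set G)).subgroupOf H := by
      apply sup_le
      · rw [Subgroup.zpowers_le, Subgroup.mem_subgroupOf]
        exact Subgroup.subset_closure (by simp [x'])
      · rw [Subgroup.map_le_iff_le_comap, Subgroup.zpowers_le, Subgroup.mem_comap, Subgroup.mem_subgroupOf]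
        apply Subgroup.subset_closure
        right
        simp [x', hbdef, MulAut.conj_apply]
    have hyc : (y : G) ∈ Subgroup.closure ({x, b} : Set G) := Subgroup.mem_subgroupOf.mp (hXle hy)
    have hnp' : ∀ m : ℕ, (y : G) ^ p ^ m ∉ Subgroup.centralizer (V : Set G) := by
      intro m hm
      have h1 : (y : G) ^ p ^ m ∈ H ⊓ Subgroup.centralizer (V : Set G) := ⟨H.pow_mem y.2 _, hm⟩
      rw [hf] at h1
      apply hym m
      apply Subtype.ext
      simpa using Subgroup.mem_bot.mp h1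
    have hsec := Cfsg.Agent.Lib.QuadSection.hasSec_of_quadratic hD V hVp (hHV hxH) (hHV hbH) ha hb y hyc hnp'
    exact (hsec.mono hle).exists_quot

end Cfsg.Agent.S0656
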