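import Mathlib
import Cfsg.Statements.S0660

set_option autoImplicit false
open Cfsg

namespace Cfsg.Agent.S0660

/-- Under a coprime action on an abelian group, an invariant subgroup that is complemented admits an invariant complement. -/
theorem result {G : Type*} [Group G] [Finite G] (V A U : Subgroup G) (hVab : IsMulCommutative V) (hAV : A ≤ Subgroup.normalizer (V : Set G)) (hcop : (Nat.card A).Coprime (Nat.card V)) (hUV : U ≤ V) (hAU : A ≤ Subgroup.normalizer (U : Set G)) (W : Subgroup G) (hWV : W ≤ V) (hUW : U ⊓ W = ⊥) (hUWV : U ⊔ W = V) : ∃ W' : Subgroup G, W' ≤ V ∧ A ≤ Subgroup.normalizer (W' : Set G) ∧ U ⊓ W' = ⊥ ∧ U ⊔ W' = V := by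
  classical
  cases nonempty_fintype A
  -- V is a commutative group
  let _ : CommGroup V := { (inferInstance : Group V) with mul_comm := fun a b => mul_comm' a b }
  have hcommV : ∀ x ∈ V, ∀ y ∈ V, x * y = y * x := fun x hx y hy =>
    congrArg Subtype.val (mul_comm' (⟨x, hx⟩ : V) ⟨y, hy⟩)
  -- projection: each v decomposes uniquely as u * w
  have hdec : ∀ v : V, ∃ u ∈ U, ∃ w ∈ W, (v : G) = u * w := by
    intro v
    have hv : (v : G) ∈ U ⊔ W := hUWV ▸ v.2
    have hW : (W.subgroupOf V).Normal := inferInstance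
    have hU : (U.subgroupOf V).Normal := inferInstance
    have : (v : V) ∈ (U.subgroupOf V) ⊔ (W.subgroupOf V) := by
      have h : (U.subgroupOf V) ⊔ (W.subgroupOf V) = ⊤ := by
        apply Subgroup.map_injective V.subtype_injective
        rw [Subgroup.map_sup, Subgroup.map_subgroupOf_eq_of_le hUV, Subgroup.map_subgroupOf_eq_of_le hWV,
          hUWV, ← MonoidHom.range_eq_map, Subgroup.range_subtype]
      rw [h]; trivial
    obtain ⟨u, hu, w, hw, huw⟩ := Subgroup.mem_sup.mp this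
    exact ⟨u, hu, w, hw, by rw [← huw]; simp⟩
  choose pr hpr wq hwq hprwq using hdec
  have hmulU : ∀ u₁ ∈ U, ∀ w₁ ∈ W, ∀ u₂ ∈ U, ∀ w₂ ∈ W, u₁ * w₁ = u₂ * w₂ → u₁ = u₂ := by
    intro u₁ hu₁ w₁ hw₁ u₂ hu₂ w₂ hw₂ h
    have h1 : u₂⁻¹ * u₁ = w₂ * w₁⁻¹ := by
      calc u₂⁻¹ * u₁ = u₂⁻¹ * (u₁ * w₁) * w₁⁻¹ := by group
        _ = u₂⁻¹ * (u₂ * w₂) * w₁⁻¹ := by rw [h]
        _ = w₂ * w₁⁻¹ := by group
    have h2 : u₂⁻¹ * u₁ ∈ U ⊓ W := ⟨U.mul_mem (U.inv_mem hu₂) hu₁, h1 ▸ W.mul_mem hw₂ (W.inv_mem hw₁)⟩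
    rw [hUW, Subgroup.mem_bot] at h2
    exact (inv_mul_eq_one.mp h2).symm
  have hpr_mul : ∀ x y : V, pr (x * y) = pr x * pr y := by
    intro x y
    have h1 : ((x * y : V) : G) = (pr x * pr y) * (wq x * wq y) := by
      have hx := hprwq x
      have hy := hprwq y
      show (x : G) * (y : G) = _
      rw [hx, hy]
      have h2 : wq x * pr y = pr y * wq x :=
        hcommV _ (hWV (hwq x)) _ (hUV (hpr y))
      calc pr x * wq x * (pr y * wq y) = pr x * (wq x * pr y) * wq y := by group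
        _ = pr x * (pr y * wq x) * wq y := by rw [h2]
        _ = _ := by group
    exact hmulU _ (hpr _) _ (hwq _) _ (U.mul_mem (hpr x) (hpr y)) _ (W.mul_mem (hwq x) (hwq y)) ((hprwq _).symm.trans h1)
  have hpr_U : ∀ x : V, (x : G) ∈ U → pr x = x := by
    intro x hx
    have h1 : (x : G) * 1 = pr x * wq x := by rw [mul_one]; exact hprwq x
    exact (hmulU _ hx _ W.one_mem _ (hpr x) _ (hwq x) h1).symm
  -- conjugation action of a ∈ A on V
  have hconjV : ∀ a : A, ∀ v : V, (a : G) * v * (a : G)⁻¹ ∈ V := by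
    intro a v
    exact (Subgroup.mem_normalizer_iff.mp (hAV a.2) v).mp v.2
  have hconjU : ∀ a : A, ∀ u ∈ U, (a : G) * u * (a : G)⁻¹ ∈ U := by
    intro a u hu
    exact (Subgroup.mem_normalizer_iff.mp (hAU a.2) u).mp hu
  -- the averaged map
  let conjV : A → V → V := fun a v => ⟨(a : G) * v * (a : G)⁻¹, hconjV a v⟩
  -- f a v = a pr(a⁻¹ v a) a⁻¹ ∈ U
  let f : A → V → V := fun a v => conjV a ⟨pr (conjV a⁻¹ v), hUV (hpr _)⟩
  have hfU : ∀ a v, ((f a v : V) : G) ∈ U := by
    intro a v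
    exact hconjU a _ (hpr _)
  have hf_mul : ∀ a x y, f a (x * y) = f a x * f a y := by
    intro a x y
    apply Subtype.ext
    have h1 : conjV a⁻¹ (x * y) = conjV a⁻¹ x * conjV a⁻¹ y := by
      apply Subtype.ext
      simp only [conjV, Subgroup.coe_mul]
      group
    show (a : G) * pr (conjV a⁻¹ (x * y)) * (a : G)⁻¹ = ((a : G) * pr (conjV a⁻¹ x) * (a : G)⁻¹) * ((a : G) * pr (conjV a⁻¹ y) * (a : G)⁻¹)
    rw [h1, hpr_mul]
    group
  let φ : V →* V :=
    { toFun := fun v => ∏ a : A, f a v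
      map_one' := by
        apply Finset.prod_eq_one
        intro a _
        have : f a 1 = f a (1 * 1) := by rw [mul_one]
        have h2 := hf_mul a 1 1
        rw [mul_one] at h2
        exact left_eq_mul.mp h2
      map_mul' := by
        intro x y
        show (∏ a : A, f a (x * y)) = (∏ a : A, f a x) * ∏ a : A, f a y
        rw [← Finset.prod_mul_distrib]
        exact Finset.prod_congr rfl (fun a _ => hf_mul a x y) }
  have hφU : ∀ v, ((φ v : V) : G) ∈ U := by
    intro v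
    show (((∏ a : A, f a v : V)) : G) ∈ U
    have : ∀ s : Finset A, ((∏ a ∈ s, f a v : V) : G) ∈ U := by
      intro s
      induction s using Finset.induction_on with
      | empty => simp
      | insert a s ha ih =>
        rw [Finset.prod_insert ha]
        exact U.mul_mem (hfU a v) ih
    exact this _
  have hφ_on_U : ∀ v : V, (v : G) ∈ U → φ v = v ^ Nat.card A := by
    intro v hv
    have h1 : ∀ a : A, f a v = v := by
      intro a
      apply Subtype.ext
      have h2 : ((conjV a⁻¹ v : V) : G) ∈ U := hconjU a⁻¹ _ hv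
      have h3 := hpr_U (conjV a⁻¹ v) h2
      show (a : G) * pr (conjV a⁻¹ v) * (a : G)⁻¹ = v
      rw [h3]
      simp [conjV]
      group
    show (∏ a : A, f a v) = _
    rw [Finset.prod_congr rfl (fun a _ => h1 a)]
    simp [Nat.card_eq_fintype_card]
  have hφ_conj : ∀ (b : A) (v : V), φ (conjV b v) = conjV b (φ v) := by
    intro b v
    -- conjV b is a hom
    let cb : V →* V :=
      { toFun := conjV b
        map_one' := by apply Subtype.ext; simp [conjV]
        map_mul' := by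
          intro x y; apply Subtype.ext; simp only [conjV, Subgroup.coe_mul]; group }
    have h1 : ∀ a : A, f a (conjV b v) = cb (f (b⁻¹ * a) v) := by
      intro a
      apply Subtype.ext
      show (a : G) * pr (conjV a⁻¹ (conjV b v)) * (a : G)⁻¹ = (b : G) * (((b⁻¹ * a : A) : G) * pr (conjV (b⁻¹ * a)⁻¹ v) * ((b⁻¹ * a : A) : G)⁻¹) * (b : G)⁻¹
      have h2 : conjV a⁻¹ (conjV b v) = conjV (b⁻¹ * a)⁻¹ v := by
        apply Subtype.ext
        simp only [conjV, Subgroup.coe_inv, Subgroup.coe_mul]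
        group
      rw [h2]
      simp only [Subgroup.coe_inv, Subgroup.coe_mul]
      group
    show (∏ a : A, f a (conjV b v)) = cb (∏ a : A, f a v)
    rw [map_prod]
    rw [Finset.prod_congr rfl (fun a _ => h1 a)]
    exact Fintype.prod_equiv (Equiv.mulLeft b⁻¹) _ _ (fun a => rfl)
  -- W' is the kernel
  let W' : Subgroup G := (φ.ker).map V.subtype
  have hW'V : W' ≤ V := Subgroup.map_subtype_le _
  have hpow_inj : ∀ x : V, x ^ Nat.card A = 1 → x = 1 := by
    intro x hx
    have h1 : orderOf x ∣ Nat.card A := orderOf_dvd_of_pow_eq_one hx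
    have h2 : orderOf x ∣ Nat.card V := orderOf_dvd_natCard x
    have := Nat.Coprime.eq_one_of_dvd (Nat.Coprime.coprime_dvd_left h1 hcop) h2
    exact orderOf_eq_one_iff.mp this
  refine ⟨W', hW'V, ?_, ?_, ?_⟩
  · intro a ha
    rw [Subgroup.mem_normalizer_iff]
    intro h
    constructor
    · rintro ⟨x, hx, rfl⟩
      refine ⟨conjV ⟨a, ha⟩ x, ?_, rfl⟩
      rw [SetLike.mem_coe, MonoidHom.mem_ker] at hx ⊢
      rw [hφ_conj, hx]
      apply Subtype.ext
      simp [conjV]
    · rintro ⟨x, hx, hxh⟩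
      have hh : h = (a : G)⁻¹ * x * a := by
        have : (x : G) = a * h * a⁻¹ := hxh
        rw [this]; group
      have hinvV : (a : G)⁻¹ * x * a ∈ V := by
        have := hconjV ⟨a, ha⟩⁻¹ x
        simpa using this
      refine ⟨⟨(a : G)⁻¹ * x * a, hinvV⟩, ?_, hh.symm⟩
      rw [SetLike.mem_coe, MonoidHom.mem_ker] at hx ⊢
      have h2 : (⟨(a : G)⁻¹ * x * a, hinvV⟩ : V) = conjV (⟨a, ha⟩ : A)⁻¹ x := by
        apply Subtype.ext
        simp [conjV]
      rw [h2, hφ_conj, hx]
      apply Subtype.ext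
      simp [conjV]
  · rw [eq_bot_iff]
    rintro x ⟨hxU, y, hy, rfl⟩
    rw [SetLike.mem_coe, MonoidHom.mem_ker] at hy
    rw [hφ_on_U y hxU] at hy
    have := hpow_inj y hy
    simp [this]
  · apply le_antisymm (sup_le hUV hW'V)
    intro v hv
    -- φ v ∈ U is a |A|-th power
    have hcop' : (Nat.card A).Coprime (Nat.card U) :=
      Nat.Coprime.coprime_dvd_right (Subgroup.card_dvd_of_le hUV) hcop
    let bij := powCoprime (G := U) hcop'.symm
    let u : U := bij.symm ⟨(φ ⟨v, hv⟩ : G), hφU _⟩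
    have hu : u ^ Nat.card A = ⟨(φ ⟨v, hv⟩ : G), hφU _⟩ := bij.apply_symm_apply _
    have huV : (u : G) ∈ V := hUV u.2
    have h1 : φ ⟨u, huV⟩ = φ ⟨v, hv⟩ := by
      rw [hφ_on_U ⟨u, huV⟩ u.2]
      apply Subtype.ext
      have := congrArg Subtype.val hu
      simpa using this
    have h2 : (⟨u, huV⟩ : V)⁻¹ * ⟨v, hv⟩ ∈ φ.ker := by
      rw [MonoidHom.mem_ker, map_mul, map_inv, h1]
      simp
    have h3 : v = u * ((u : G)⁻¹ * v) := by group
    rw [h3]
    refine Subgroup.mul_mem_sup u.2 ⟨_, h2, ?_⟩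
    simp

end Cfsg.Agent.S0660
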