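import Mathlib
import Cfsg.Statements.S0666
import Cfsg.Agent.Lib.FrobPartition

set_option autoImplicit false
open Cfsg

namespace Cfsg.Agent.S0666

/-- A Frobenius group acting on a nontrivial abelian group of order prime to that of its kernel, with the kernel acting without nontrivial fixed points, has a complement with a nontrivial fixed point. -/
theorem result {G : Type*} [Group G] [Finite G] (V F : Subgroup G) (hVab : IsMulCommutative V) (hV1 : V ≠ ⊥) (hFV : F ≤ Subgroup.normalizer (V : Set G)) (H : Subgroup ↥F) (hH : Cfsg.IsFrobeniusComplement H) (hcop : (Nat.card V).Coprime (Nat.card (Cfsg.frobeniusKernel H))) (hCK : V ⊓ Subgroup.centralizer (Subtype.val '' Cfsg.frobeniusKernel H : Set G) = ⊥) : V ⊓ Subgroup.centralizer ((H.map F.subtype : Subgroup G) : Set G) ≠ ⊥ := by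
  classical
  intro hfix
  obtain ⟨N, hNset, -, -⟩ := Cfsg.Agent.Lib.FrobeniusThm.exists_kernel_subgroup hH
  letI : CommGroup V := { (inferInstance : Group V) with mul_comm := fun a b => hVab.is_comm.comm a b }
  let φ : F →* MulAut V := Cfsg.Agent.Lib.FpfNorm.conjHom F V hFV
  have hφ : ∀ (a : F) (v : V), ((φ a v : V) : G) = (a : G) * (v : G) * (a : G)⁻¹ := fun a v => rfl
  have key : ∀ (S : Set F) (v : V), (∀ a ∈ S, φ a v = v) →
      (v : G) ∈ V ⊓ Subgroup.centralizer (Subtype.val '' S : Set G) := by
    intro S v hv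
    refine Subgroup.mem_inf.mpr ⟨v.2, ?_⟩
    rw [Subgroup.mem_centralizer_iff]
    rintro _ ⟨a, ha, rfl⟩
    have h2 := congrArg (Subtype.val) (hv a ha)
    rw [hφ] at h2
    calc (a : G) * (v : G) = (a : G) * (v : G) * (a : G)⁻¹ * a := by group
      _ = v * a := by rw [h2]
  have hpow := Cfsg.Agent.Lib.FrobPartition.pow_card_kernel_eq_one φ H hH N hNset ?_ ?_
  · apply hV1
    rw [eq_bot_iff]
    intro x hx
    have h1 := hpow ⟨x, hx⟩
    have hc : (Nat.card V).Coprime (Nat.card N) := by
      have : Nat.card N = Nat.card (Cfsg.frobeniusKernel H) := by rw [← hNset]; rfl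
      rw [this]; exact hcop
    have h2 : orderOf (⟨x, hx⟩ : V) ∣ Nat.card N := orderOf_dvd_of_pow_eq_one h1
    have h3 : orderOf (⟨x, hx⟩ : V) ∣ Nat.card V := orderOf_dvd_natCard _
    have h4 := orderOf_eq_one_iff.mp (Nat.eq_one_of_dvd_coprimes hc h3 h2)
    exact Subgroup.mem_bot.mpr (congrArg Subtype.val h4)
  · intro v hv
    have h1 := key (H : Set F) v hv
    have h2 : Subtype.val '' (H : Set F) = ((H.map F.subtype : Subgroup G) : Set G) := by
      ext x
      simp [Subgroup.mem_map]
    rw [h2, hfix] at h1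
    exact Subtype.ext (Subgroup.mem_bot.mp h1)
  · intro v hv
    have h1 := key (Cfsg.frobeniusKernel H) v (fun a ha => by
      apply hv
      rw [← SetLike.mem_coe, hNset]
      exact ha)
    rw [hCK] at h1
    exact Subtype.ext (Subgroup.mem_bot.mp h1)

end Cfsg.Agent.S0666
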