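import Mathlib
import Cfsg.Statements.S0668
import Cfsg.Agent.Lib.PermModule2

set_option autoImplicit false
open Cfsg
open Cfsg.Agent.Lib.PermModule Cfsg.Agent.Lib.PermModule2

namespace Cfsg.Agent.S0668

/-- The equivariant linear maps between the permutation modules of two finite `G`-sets form a space whose dimension is the number of `G`-orbits on the product of the two sets. -/
theorem result {G : Type*} [Group G] {K : Type*} [Field K] {Ω₁ Ω₂ : Type*} [Fintype Ω₁] [Fintype Ω₂] [MulAction G Ω₁] [MulAction G Ω₂] : Module.finrank K ((Cfsg.permRep K G Ω₁).linHom (Cfsg.permRep K G Ω₂)).invariants = Nat.card (MulAction.orbitRel.Quotient G (Ω₁ × Ω₂)) := by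
  classical
  set Q := MulAction.orbitRel.Quotient G (Ω₁ × Ω₂) with hQ
  have hfinQ : Finite Q := Quotient.finite _
  have hfQ : Fintype Q := Fintype.ofFinite Q
  let δ : Ω₁ → (Ω₁ → K) := fun x => fun y => if x = y then 1 else 0
  have hρδ : ∀ (g : G) (x : Ω₁), permRep K G Ω₁ g (δ x) = δ (g • x) := by
    intro g x
    ext y
    simp only [permRep_apply, δ]
    by_cases h : x = g⁻¹ • y
    · rw [if_pos h, if_pos (by rw [h, smul_inv_smul])]
    · rw [if_neg h, if_neg]
      intro h2
      apply h
      rw [← h2, inv_smul_smul]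
  -- invariance in terms of matrix entries
  have hinv : ∀ (φ : (Ω₁ → K) →ₗ[K] (Ω₂ → K)), φ ∈ ((permRep K G Ω₁).linHom (permRep K G Ω₂)).invariants →
      ∀ (g : G) (x : Ω₁) (y : Ω₂), φ (δ (g • x)) (g • y) = φ (δ x) y := by
    intro φ hφ g x y
    have h1 := (Representation.mem_invariants _ φ).mp hφ g
    rw [Representation.linHom_apply] at h1
    have h2 := congrArg (fun ψ : (Ω₁ → K) →ₗ[K] (Ω₂ → K) => ψ (δ (g • x)) (g • y)) h1
    simp only [LinearMap.comp_apply] at h2
    rw [hρδ] at h2
    simp only [inv_smul_smul, permRep_apply] at h2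
    exact h2.symm
  let E : ((permRep K G Ω₁).linHom (permRep K G Ω₂)).invariants ≃ₗ[K] (Q → K) :=
    { toFun := fun φ q => Quotient.liftOn q (fun p : Ω₁ × Ω₂ => (φ : (Ω₁ → K) →ₗ[K] (Ω₂ → K)) (δ p.1) p.2) (by
        rintro ⟨x, y⟩ ⟨x', y'⟩ h
        obtain ⟨g, hg⟩ := MulAction.mem_orbit_iff.mp (MulAction.orbitRel_apply.mp h)
        have h1 : g • x' = x := congrArg Prod.fst hg
        have h2 : g • y' = y := congrArg Prod.snd hg
        change (φ : (Ω₁ → K) →ₗ[K] (Ω₂ → K)) (δ x) y = (φ : (Ω₁ → K) →ₗ[K] (Ω₂ → K)) (δ x') y'
        rw [← h1, ← h2]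
        exact hinv _ φ.2 g x' y')
      map_add' := by
        intro φ ψ
        ext q
        induction q using Quotient.inductionOn with | _ p => rfl
      map_smul' := by
        intro c φ
        ext q
        induction q using Quotient.inductionOn with | _ p => rfl
      invFun := fun A =>
        ⟨kernelMap (fun y x => A (Quotient.mk _ (x, y))), by
          rw [Representation.mem_invariants]
          intro g
          rw [Representation.linHom_apply]
          apply LinearMap.ext
          intro u
          have hB : ∀ (g : G) (y : Ω₂) (x : Ω₁), A (Quotient.mk _ (g • x, g • y)) = A (Quotient.mk _ (x, y)) := by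
            intro g y x
            congr 1
            apply Quotient.sound
            apply MulAction.orbitRel_apply.mpr
            exact MulAction.mem_orbit_iff.mpr ⟨g, rfl⟩
          have h1 := kernelMap_equivariant (K := K) (A := fun y x => A (Quotient.mk _ (x, y))) hB g⁻¹ u
          simp only [LinearMap.comp_apply]
          rw [h1]
          ext y
          simp [permRep_apply]⟩
      left_inv := by
        intro φ
        apply Subtype.ext
        apply LinearMap.ext
        intro u
        ext y
        change ∑ x, ((φ : (Ω₁ → K) →ₗ[K] (Ω₂ → K)) (δ x) y) * u x = (φ : (Ω₁ → K) →ₗ[K] (Ω₂ → K)) u y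
        rw [LinearMap.pi_apply_eq_sum_univ (φ : (Ω₁ → K) →ₗ[K] (Ω₂ → K)) u]
        simp only [Finset.sum_apply, Pi.smul_apply, smul_eq_mul]
        exact Finset.sum_congr rfl fun x _ => by ring
      right_inv := by
        intro A
        ext q
        induction q using Quotient.inductionOn with | _ p => ?_
        obtain ⟨x, y⟩ := p
        change ∑ x', A (Quotient.mk _ (x', y)) * δ x x' = A (Quotient.mk _ (x, y))
        simp [δ] }
  rw [E.finrank_eq, Module.finrank_fintype_fun_eq_card, Nat.card_eq_fintype_card]

end Cfsg.Agent.S0668
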