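import Mathlib
import Cfsg.Statements.S0669

set_option autoImplicit false
open Cfsg

namespace Cfsg.Agent.S0669

/-- The rank of a transitive action: orbits on ordered pairs correspond to orbits of a point stabiliser. -/
theorem result {G : Type*} [Group G] {Ω : Type*} [Finite Ω] [MulAction G Ω] [MulAction.IsPretransitive G Ω] (a : Ω) : Nat.card (MulAction.orbitRel.Quotient G (Ω × Ω)) = Nat.card (MulAction.orbitRel.Quotient (MulAction.stabilizer G a) Ω) := by
  classical
  symm
  refine Nat.card_congr (Equiv.ofBijective (Quotient.lift (fun x : Ω => (Quotient.mk (MulAction.orbitRel G (Ω × Ω)) (a, x) : MulAction.orbitRel.Quotient G (Ω × Ω))) ?_) ⟨?_, ?_⟩)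
  · intro x y hxy
    obtain ⟨g, hg⟩ := MulAction.mem_orbit_iff.mp (MulAction.orbitRel_apply.mp hxy)
    apply Quotient.sound
    apply MulAction.orbitRel_apply.mpr
    refine MulAction.mem_orbit_iff.mpr ⟨(g : G), ?_⟩
    have h1 : (g : G) • a = a := g.2
    have h2 : (g : G) • y = x := hg
    simp [Prod.smul_mk, h1, h2]
  · intro p q
    induction p using Quotient.inductionOn with | _ x => ?_
    induction q using Quotient.inductionOn with | _ y => ?_
    intro h
    have h' := Quotient.exact h
    obtain ⟨g, hg⟩ := MulAction.mem_orbit_iff.mp (MulAction.orbitRel_apply.mp h')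
    have hg' : g • (a, y) = (a, x) := hg
    simp only [Prod.smul_mk, Prod.mk.injEq] at hg'
    apply Quotient.sound
    apply MulAction.orbitRel_apply.mpr
    exact MulAction.mem_orbit_iff.mpr ⟨⟨g, hg'.1⟩, hg'.2⟩
  · intro p
    induction p using Quotient.inductionOn with | _ q => ?_
    obtain ⟨x, y⟩ := q
    obtain ⟨g, hg⟩ := MulAction.exists_smul_eq G x a
    refine ⟨Quotient.mk _ (g • y), ?_⟩
    apply Quotient.sound
    apply MulAction.orbitRel_apply.mpr
    refine MulAction.mem_orbit_iff.mpr ⟨g, ?_⟩
    simp [hg]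

end Cfsg.Agent.S0669
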