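import Mathlib
import Cfsg.Statements.S0677
import Cfsg.Agent.Lib.PrimeDeg2
import Cfsg.Agent.Lib.PrimeDeg3
import Cfsg.Agent.Lib.PrimeDeg4
import Cfsg.Agent.S0676

set_option autoImplicit false
open Cfsg
open Cfsg.Agent.Lib.PermModule Cfsg.Agent.Lib.PrimeDeg MulAction

namespace Cfsg.Agent.S0677

/-- In a transitive permutation group of prime degree `p` whose Sylow `p`-normaliser has even order, the point stabilisers are the only subgroups of index `p`. -/
theorem result {α : Type*} [Fintype α] [DecidableEq α] {p : ℕ} [Fact p.Prime] (hα : Fintype.card α = p) (G : Subgroup (Equiv.Perm α)) [MulAction.IsPretransitive G α] (P : Sylow p G) (heven : Even (Nat.card (Subgroup.normalizer ((P : Subgroup G) : Set G)))) (H : Subgroup G) (hH : H.index = p) : ∃ a : α, H = MulAction.stabilizer G a := by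
  classical
  have hpp : p.Prime := Fact.out
  have hcardG : Nat.card H * p = Nat.card G := by
    rw [← hH]
    exact Subgroup.card_mul_index H
  have hHp : ¬ p ∣ Nat.card H := by
    intro h
    apply not_sq_dvd_card (G := G) hα
    rw [← hcardG, sq]
    exact mul_dvd_mul h dvd_rfl
  suffices hfix : ∃ a : α, ∀ h ∈ H, h • a = a by
    obtain ⟨a, ha⟩ := hfix
    refine ⟨a, ?_⟩
    have hle : H ≤ stabilizer G a := fun h hh => ha h hh
    have h1 := ncard_orbit_mul_card_stabilizer (G := G) a
    rw [orbit_eq_univ, Set.ncard_univ, Nat.card_eq_fintype_card, hα] at h1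
    apply Subgroup.eq_of_le_of_card_ge hle
    rw [← hcardG, mul_comm] at h1
    exact (Nat.eq_of_mul_eq_mul_right hpp.pos h1).le
  obtain ⟨σ, hσP, hσ, hPσ⟩ := sylow_setup hα P
  obtain ⟨e, he⟩ : ∃ e : ZMod p ≃ α, ∀ i, e (i + 1) = σ • e i := by
    obtain ⟨e, he⟩ := exists_coord hα (toPermHom G α σ) (by rw [orderOf_toPermHom, hσ])
    exact ⟨e, he⟩
  by_cases hp2 : p = 2
  · subst hp2
    exact exists_fixed_of_affine H hHp e
      (fun g => Cfsg.Agent.S0676.all_affine_two (e.symm.permCongrHom (toPermHom G α g)))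
  -- the action on cosets
  letI : Fintype (G ⧸ H) := Fintype.ofFinite _
  have hY : Fintype.card (G ⧸ H) = p := by
    rw [← Nat.card_eq_fintype_card]
    exact hH
  haveI hfaith : FaithfulSMul G (G ⧸ H) := faithful_quotient hα H hHp
  obtain ⟨e', he'⟩ : ∃ e' : ZMod p ≃ G ⧸ H, ∀ i, e' (i + 1) = σ • e' i := by
    obtain ⟨e', he'⟩ := exists_coord hY (toPermHom G (G ⧸ H) σ) (by rw [orderOf_toPermHom, hσ])
    exact ⟨e', he'⟩
  rcases Cfsg.Agent.Lib.PrimeDeg.affine_or_two_trans hY σ e' he' with haff | h2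
  · apply exists_fixed_of_affine H hHp e
    intro g
    obtain ⟨a, b, hab⟩ := haff g
    have hgσ : g * σ = σ ^ a.val * g := by
      apply FaithfulSMul.eq_of_smul_eq_smul (α := G ⧸ H)
      intro y
      obtain ⟨x, rfl⟩ := e'.surjective y
      rw [mul_smul, mul_smul, ← he', act_of_symm hab, act_of_symm hab, pow_smul_coord he',
        ZMod.natCast_zmod_val]
      congr 1
      ring
    have hstep : ∀ i, e.symm (g • e (i + 1)) = e.symm (g • e i) + a := by
      intro i
      rw [he, ← mul_smul, hgσ, mul_smul]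
      have h5 : g • e i = e (e.symm (g • e i)) := by simp
      rw [h5, pow_smul_coord he, ZMod.natCast_zmod_val]
      simp
    exact ⟨a, e.symm (g • e 0), fun x => affine_of_step (τ := fun i => e.symm (g • e i)) hstep x⟩
  · obtain ⟨t, htN, ht, ht1⟩ := exists_involution_normalizer (P : Subgroup G) heven
    rw [hPσ] at htN
    obtain ⟨b, hb⟩ := involution_setup hp2 σ t e he htN ht ht1
    -- `t` fixes a coset
    obtain ⟨y, hy⟩ : ∃ y : G ⧸ H, (toPermHom G (G ⧸ H) t) y = y := by
      have hodd : ¬ 2 ∣ Fintype.card (G ⧸ H) := by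
        rw [hY]
        intro h5
        exact hp2 ((Nat.prime_dvd_prime_iff_eq Nat.prime_two hpp).mp h5).symm
      haveI : Fact (Nat.Prime 2) := ⟨Nat.prime_two⟩
      refine Equiv.Perm.exists_fixed_point_of_prime (p := 2) (n := 1) hodd ?_
      rw [pow_one, pow_two, ← map_mul, ht, map_one]
    obtain ⟨g, rfl⟩ := QuotientGroup.mk_surjective y
    have hgt : g⁻¹ * t * g ∈ H := by
      have h5 : ((t * g : G) : G ⧸ H) = (g : G ⧸ H) := hy
      have h6 := QuotientGroup.eq.mp h5.symm
      rwa [← mul_assoc] at h6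
    let e₂ : ZMod p ≃ α := e.trans (MulAction.toPerm g⁻¹)
    have he₂ : ∀ i, e₂ i = g⁻¹ • e i := fun _ => rfl
    refine fixed_of_two_trans' hp2 H hHp h2 (g⁻¹ * σ * g) (g⁻¹ * t * g) e₂ ?_ hgt b ?_
    · intro i
      rw [he₂, he₂, he]
      simp [mul_smul]
    · intro i
      rw [he₂, he₂, ← hb]
      simp [mul_smul]

end Cfsg.Agent.S0677
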