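-- Non-solvable transitive groups of degree 7 not containing the alternating group.
import Mathlib
import Cfsg.Agent.Lib.BurnsidePQ
import Cfsg.Agent.Lib.Coprime

set_option autoImplicit false
set_option linter.style.haveILetI false
set_option linter.unusedSectionVars false
open Cfsg

namespace Cfsg.Agent.S0678

open Equiv Equiv.Perm MulAction Subgroup

universe u

private theorem burn (p q : ℕ) (hp : p.Prime) (hq : q.Prime) {H : Type u} [Group H] [Finite H]
    (a b : ℕ) (h : Nat.card H = p ^ a * q ^ b) : Group.IsSolvable H :=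
  Cfsg.Agent.Lib.BurnsidePQ.isSolvable_of_card_eq p q hp hq _ H rfl ⟨a, b, h⟩

private theorem sol_ext {H : Type u} [Group H] (P : Subgroup H) [P.Normal]
    (h1 : Group.IsSolvable P) (h2 : Group.IsSolvable (H ⧸ P)) : Group.IsSolvable H := by
  refine Group.isSolvable_of_ker_le_range P.subtype (QuotientGroup.mk' P) ?_
  simp

private theorem card_sylow (p : ℕ) [Fact p.Prime] {H : Type u} [Group H] [Finite H] (m : ℕ)
    (hm : Nat.card H = p * m) (hpm : ¬ p ∣ m) (P : Sylow p H) :
    Nat.card P = p ∧ (P : Subgroup H).index = m := by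
  have hp : p.Prime := Fact.out
  have hm0 : m ≠ 0 := by
    rintro rfl
    exact hpm (dvd_zero _)
  have h1 : Nat.card P = p ^ Nat.factorization (Nat.card H) p := P.card_eq_multiplicity
  have h2 : Nat.factorization (p * m) p = 1 := by
    rw [Nat.factorization_mul hp.ne_zero hm0, Finsupp.add_apply, Nat.Prime.factorization_self hp,
      Nat.factorization_eq_zero_of_not_dvd hpm]
  have h3 : Nat.card P = p := by
    rw [h1, hm, h2, pow_one]
  refine ⟨h3, ?_⟩
  have h4 := (P : Subgroup H).card_mul_index
  have h5 : Nat.card (P : Subgroup H) = p := h3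
  rw [h5, hm] at h4
  exact Nat.eq_of_mul_eq_mul_left hp.pos h4

/-- If the Sylow `7`-subgroup is normal and the order is `7 * m` with `m = 6` or `12`, the group
is solvable. -/
private theorem sol_7 {H : Type u} [Group H] [Finite H] (m : ℕ) (hm : Nat.card H = 7 * m)
    (hm' : m = 6 ∨ m = 12) : Group.IsSolvable H := by
  haveI : Fact (Nat.Prime 7) := ⟨by norm_num⟩
  obtain ⟨P⟩ : Nonempty (Sylow 7 H) := inferInstance
  have h7m : ¬ 7 ∣ m := by
    rcases hm' with rfl | rfl <;> norm_num
  obtain ⟨h1, h2⟩ := card_sylow 7 m hm h7m P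
  have h3 : Nat.card (Sylow 7 H) ≡ 1 [MOD 7] := card_sylow_modEq_one 7 H
  have h4 : Nat.card (Sylow 7 H) ∣ m := by
    rw [← h2]
    exact Sylow.card_dvd_index P
  have h5 : Nat.card (Sylow 7 H) = 1 := by
    have hm0 : 0 < m := by rcases hm' with rfl | rfl <;> norm_num
    have h6 := Nat.le_of_dvd hm0 h4
    unfold Nat.ModEq at h3
    rcases hm' with rfl | rfl
    · interval_cases (Nat.card (Sylow 7 H)) <;> omega
    · interval_cases (Nat.card (Sylow 7 H)) <;> omega
  have h6 : (normalizer (P : Set H)).index = 1 := by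
    rw [← Sylow.card_eq_index_normalizer]; exact h5
  have h7 : normalizer ((P : Subgroup H) : Set H) = ⊤ := Subgroup.index_eq_one.mp h6
  haveI : (P : Subgroup H).Normal := Subgroup.normalizer_eq_top_iff.mp h7
  refine sol_ext (P : Subgroup H) ?_ ?_
  · exact burn 7 2 (by norm_num) (by norm_num) 1 0 (by
      rw [pow_one, pow_zero, mul_one]; exact h1)
  · have h8 : Nat.card (H ⧸ (P : Subgroup H)) = m := h2
    rcases hm' with rfl | rfl
    · exact burn 2 3 (by norm_num) (by norm_num) 1 1 (by rw [h8]; norm_num)
    · exact burn 2 3 (by norm_num) (by norm_num) 2 1 (by rw [h8]; norm_num)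

/-- Every group of order a proper divisor of `168` is solvable. -/
private theorem sol_168 {H : Type u} [Group H] [Finite H] (hd : Nat.card H ∣ 168)
    (hne : Nat.card H ≠ 168) : Group.IsSolvable H := by
  have h : Nat.card H ∈ Nat.divisors 168 := Nat.mem_divisors.mpr ⟨hd, by norm_num⟩
  have hdiv : Nat.divisors 168 = {1, 2, 3, 4, 6, 7, 8, 12, 14, 21, 24, 28, 42, 56, 84, 168} := by
    decide +kernel
  rw [hdiv] at h
  simp only [Finset.mem_insert, Finset.mem_singleton] at h
  have p2 : Nat.Prime 2 := by norm_num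
  have p3 : Nat.Prime 3 := by norm_num
  have p7 : Nat.Prime 7 := by norm_num
  rcases h with h | h | h | h | h | h | h | h | h | h | h | h | h | h | h | h
  · exact burn 2 3 p2 p3 0 0 (by rw [h]; norm_num)
  · exact burn 2 3 p2 p3 1 0 (by rw [h]; norm_num)
  · exact burn 2 3 p2 p3 0 1 (by rw [h]; norm_num)
  · exact burn 2 3 p2 p3 2 0 (by rw [h]; norm_num)
  · exact burn 2 3 p2 p3 1 1 (by rw [h]; norm_num)
  · exact burn 2 7 p2 p7 0 1 (by rw [h]; norm_num)
  · exact burn 2 3 p2 p3 3 0 (by rw [h]; norm_num)
  · exact burn 2 3 p2 p3 2 1 (by rw [h]; norm_num)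
  · exact burn 2 7 p2 p7 1 1 (by rw [h]; norm_num)
  · exact burn 3 7 p3 p7 1 1 (by rw [h]; norm_num)
  · exact burn 2 3 p2 p3 3 1 (by rw [h]; norm_num)
  · exact burn 2 7 p2 p7 2 1 (by rw [h]; norm_num)
  · exact sol_7 6 (by rw [h]) (Or.inl rfl)
  · exact burn 2 7 p2 p7 3 1 (by rw [h]; norm_num)
  · exact sol_7 12 (by rw [h]) (Or.inr rfl)
  · exact absurd h hne

/-- An element of `p`-power order in a finite group has a conjugate in any subgroup whose order
is divisible by the full `p`-part of the group order. -/
private theorem exists_conj_mem {A : Type*} [Group A] [Finite A] (p : ℕ) [Fact p.Prime] (k : ℕ)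
    (hA : ¬ p ^ (k + 1) ∣ Nat.card A) (G : Subgroup A) (hG : p ^ k ∣ Nat.card G) (c : A)
    (hc : IsPGroup p (zpowers c)) : ∃ h : A, h * c * h⁻¹ ∈ G := by
  have hp : p.Prime := Fact.out
  obtain ⟨P', hP'⟩ := Sylow.exists_subgroup_card_pow_prime p hG
  set P : Subgroup A := P'.map G.subtype with hPdef
  have hPcard : Nat.card P = p ^ k := by
    rw [hPdef, Subgroup.card_map_of_injective G.subtype_injective, hP']
  have hPp : IsPGroup p P := IsPGroup.of_card hPcard
  obtain ⟨Q', hQ'⟩ := hPp.exists_le_sylow
  obtain ⟨Q, hQ⟩ := hc.exists_le_sylow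
  have hQ'card : Nat.card (Q' : Subgroup A) ≤ Nat.card P := by
    rw [hPcard]
    obtain ⟨j, hj⟩ := (IsPGroup.iff_card.mp Q'.2)
    have hdvd : Nat.card (Q' : Subgroup A) ∣ Nat.card A := Subgroup.card_subgroup_dvd_card _
    rw [hj] at hdvd ⊢
    have hjk : j ≤ k := by
      by_contra hjk
      apply hA
      exact (pow_dvd_pow p (by omega)).trans hdvd
    exact Nat.pow_le_pow_right hp.pos hjk
  have hPQ : P = (Q' : Subgroup A) := Subgroup.eq_of_le_of_card_ge hQ' hQ'card
  obtain ⟨h, hh⟩ := MulAction.exists_smul_eq A Q Q'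
  refine ⟨h, ?_⟩
  have h1 : c ∈ (Q : Subgroup A) := hQ (mem_zpowers c)
  have h2 : h * c * h⁻¹ ∈ (Q' : Subgroup A) := by
    rw [← hh, Sylow.coe_subgroup_smul]
    exact Subgroup.mem_pointwise_smul_iff_inv_smul_mem.mpr (by
      simpa [MulAut.smul_def, MulAut.conj_apply, mul_assoc] using h1)
  rw [← hPQ] at h2
  exact (Subgroup.map_subtype_le P') h2

variable {α : Type*} [Fintype α] [DecidableEq α]

private theorem isPGroup_of_cycleType {p : ℕ} [Fact p.Prime] (c : Perm α)
    (hc : c.cycleType = {p}) : IsPGroup p (zpowers c) := by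
  refine IsPGroup.of_card (n := 1) ?_
  rw [Nat.card_zpowers, pow_one, ← Equiv.Perm.lcm_cycleType]
  simp [hc]

private theorem moved_of_ne_one {X : Type*} [Group X] [MulAction X α] [FaithfulSMul X α] {x : X}
    (hx : x ≠ 1) : ∃ a : α, x • a ≠ a := by
  by_contra h
  push Not at h
  apply hx
  apply eq_of_smul_eq_smul (α := α)
  intro a
  rw [h a, one_smul]

private theorem trans_of_seven {X : Type*} [Group X] [Finite X] [MulAction X α]
    (hα : Fintype.card α = 7) (hX : Nat.card X = 7) (a : α) (x : X) (hx : x • a ≠ a) :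
    IsPretransitive X α := by
  rw [isPretransitive_iff_orbit_eq_univ a]
  have h1 : (stabilizer X a).index = (orbit X a).ncard := index_stabilizer X a
  have h2 : (stabilizer X a).index ∣ Nat.card X := Subgroup.index_dvd_card _
  rw [hX, h1] at h2
  have h3 : (orbit X a).ncard ≠ 1 := by
    intro h
    obtain ⟨y, hy⟩ := Set.ncard_eq_one.mp h
    have ha : a ∈ orbit X a := mem_orbit_self a
    have hb : x • a ∈ orbit X a := mem_orbit a x
    rw [hy] at ha hb
    exact hx (hb.trans ha.symm)
  have h4 : (orbit X a).ncard = 7 := by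
    rcases (Nat.dvd_prime (by norm_num)).mp h2 with h | h
    · exact absurd h h3
    · exact h
  apply Set.eq_of_subset_of_ncard_le (Set.subset_univ _)
  rw [Set.ncard_univ, h4, Nat.card_eq_fintype_card, hα]

section main

variable (G : Subgroup (Perm α))

private theorem faithful_sub (K : Subgroup G) : FaithfulSMul K α :=
  ⟨fun {x y} h => by
    apply Subtype.ext
    apply Subtype.ext
    ext a
    exact h a⟩

private theorem seven_dvd_of_normal [IsPretransitive G α] (hα : Fintype.card α = 7) (K : Subgroup G)
    [K.Normal] (hK : K ≠ ⊥) : 7 ∣ Nat.card K := by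
  have hcard : Nat.card α = 7 := by rw [Nat.card_eq_fintype_card, hα]
  haveI : IsPreprimitive G α := IsPreprimitive.of_prime_card (by rw [hcard]; norm_num)
  haveI : FaithfulSMul K α := faithful_sub G K
  obtain ⟨x, hx1⟩ := (Subgroup.ne_bot_iff_exists_ne_one).mp hK
  obtain ⟨a, ha⟩ := moved_of_ne_one (X := K) (x := x) (α := α) hx1
  have hfix : fixedPoints K α ≠ Set.univ := by
    intro h
    have : a ∈ fixedPoints K α := by rw [h]; trivial
    exact ha (this _)
  haveI : IsPretransitive K α := IsQuasiPreprimitive.isPretransitive_of_normal hfix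
  have h1 : (stabilizer K a).index = Nat.card α := index_stabilizer_of_transitive K a
  rw [← hcard, ← h1]
  exact Subgroup.index_dvd_card _

/-- The normaliser of a subgroup of order `7` in a transitive group of degree `7` has order
dividing `42`. -/
private theorem card_normalizer_dvd (hα : Fintype.card α = 7) (P : Subgroup G)
    (hP : Nat.card P = 7) : Nat.card (normalizer (P : Set G)) ∣ 42 := by
  haveI : FaithfulSMul P α := faithful_sub G P
  have hP1 : Nontrivial P := by
    rw [← Finite.one_lt_card_iff_nontrivial, hP]; norm_num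
  obtain ⟨x, hx⟩ := exists_ne (1 : P)
  obtain ⟨a, ha⟩ := moved_of_ne_one (α := α) hx
  haveI : IsPretransitive P α := trans_of_seven hα hP a x ha
  -- the centraliser has order dividing `7`
  have hC : Nat.card (centralizer (P : Set G)) ∣ 7 := by
    have hst : stabilizer (centralizer (P : Set G)) a = ⊥ := by
      rw [eq_bot_iff]
      intro y hy
      rw [Subgroup.mem_bot]
      apply Subtype.ext
      apply Subtype.ext
      ext b
      obtain ⟨p, hp⟩ := MulAction.exists_smul_eq P a b
      have hy' : ((y : G) : Perm α) a = a := hy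
      have hcomm : (y : G) * (p : G) = (p : G) * (y : G) := by
        have := (Subgroup.mem_centralizer_iff.mp y.2) (p : G) p.2
        exact this.symm
      have hcomm' := congrArg (fun z : G => (z : Perm α) a) hcomm
      simp only [Subgroup.coe_mul, Perm.mul_apply] at hcomm'
      rw [hy'] at hcomm'
      have hpb : ((p : G) : Perm α) a = b := hp
      rw [hpb] at hcomm'
      simpa using hcomm'
    have h1 : (stabilizer (centralizer (P : Set G)) a).index
        = (orbit (centralizer (P : Set G)) a).ncard := index_stabilizer _ a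
    rw [hst, Subgroup.index_bot] at h1
    have h2 : (orbit (centralizer (P : Set G)) a).ncard ≤ 7 := by
      have := Set.ncard_le_card (orbit (centralizer (P : Set G)) a)
      rwa [Nat.card_eq_fintype_card, hα] at this
    have hPC : P ≤ centralizer (P : Set G) := by
      intro p hp
      rw [Subgroup.mem_centralizer_iff]
      intro q hq
      haveI : Fact (Nat.Prime 7) := ⟨by norm_num⟩
      haveI : IsCyclic P := isCyclic_of_prime_card (p := 7) hP
      have := mul_comm' (⟨q, hq⟩ : P) ⟨p, hp⟩
      exact congrArg Subtype.val this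
    have h3 : 7 ∣ Nat.card (centralizer (P : Set G)) := by
      rw [← hP]
      exact Subgroup.card_dvd_of_le hPC
    have h4 : Nat.card (centralizer (P : Set G)) ≤ 7 := by rw [h1]; exact h2
    have h5 : Nat.card (centralizer (P : Set G)) = 7 :=
      le_antisymm h4 (Nat.le_of_dvd (Nat.card_pos) h3)
    rw [h5]
  have hK : Nat.card (normalizerMonoidHom P).ker ∣ 7 := by
    rw [normalizerMonoidHom_ker]
    refine dvd_trans ?_ hC
    exact Cfsg.Agent.Lib.Coprime.card_subgroupOf_dvd _ _
  have hR : Nat.card (normalizerMonoidHom P).range ∣ 6 := by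
    haveI : Fact (Nat.Prime 7) := ⟨by norm_num⟩
    haveI : IsCyclic P := isCyclic_of_prime_card (p := 7) hP
    have h1 : Nat.card (MulAut P) = 6 := by
      rw [IsCyclic.card_mulAut, hP]; decide
    rw [← h1]
    exact Subgroup.card_subgroup_dvd_card _
  have h := Subgroup.card_mul_index (normalizerMonoidHom P).ker
  rw [Subgroup.index_ker] at h
  rw [← h]
  exact mul_dvd_mul hK hR

/-- A group with the full Sylow `7`-subgroup self-normalising and order `7 * 120`: impossible. -/
private theorem not_840 [IsPretransitive G α] (hα : Fintype.card α = 7) (hG : Nat.card G = 7 * 120)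
    (P : Sylow 7 G) (hP : Nat.card P = 7) (hN : Nat.card (normalizer ((P : Subgroup G) : Set G)) = 7) :
    False := by
  haveI : Fact (Nat.Prime 7) := ⟨by norm_num⟩
  have hle : normalizer (P : Set G) ≤ centralizer (P : Set G) := by
    have h1 : (P : Subgroup G) ≤ normalizer (P : Set G) := Subgroup.le_normalizer
    have h2 : (P : Subgroup G) = normalizer (P : Set G) :=
      Subgroup.eq_of_le_of_card_ge h1 (hN.le.trans hP.ge)
    rw [← h2]
    intro p hp
    rw [Subgroup.mem_centralizer_iff]
    intro q hq
    haveI : IsCyclic (P : Subgroup G) := isCyclic_of_prime_card (p := 7) hP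
    have := mul_comm' (⟨q, hq⟩ : (P : Subgroup G)) ⟨p, hp⟩
    exact congrArg Subtype.val this
  set K := (MonoidHom.transferSylow P hle).ker with hK
  have hnd : ¬ 7 ∣ Nat.card K := MonoidHom.not_dvd_card_ker_transferSylow P hle
  have hcompl := MonoidHom.ker_transferSylow_isComplement' P hle
  have hcard := hcompl.card_mul_card
  have hne : K ≠ ⊥ := by
    intro h
    rw [← hK, h, Subgroup.card_bot, one_mul, hG] at hcard
    have h' : Nat.card (P : Subgroup G) = 7 := hP
    omega
  exact hnd (seven_dvd_of_normal G hα K hne)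

theorem main_result (hα : Fintype.card α = 7) [IsPretransitive G α] (hG : ¬ Group.IsSolvable G)
    (hA : ¬ alternatingGroup α ≤ G) : Nat.card G = 168 ∧ IsSimpleGroup G := by
  classical
  have hcard : Nat.card α = 7 := by rw [Nat.card_eq_fintype_card, hα]
  haveI hprim : IsPreprimitive G α := IsPreprimitive.of_prime_card (by rw [hcard]; norm_num)
  haveI f2 : Fact (Nat.Prime 2) := ⟨by norm_num⟩
  haveI f3 : Fact (Nat.Prime 3) := ⟨by norm_num⟩
  haveI f7 : Fact (Nat.Prime 7) := ⟨by norm_num⟩
  have hperm : Nat.card (Perm α) = 5040 := by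
    rw [Nat.card_eq_fintype_card, Fintype.card_perm, hα]; decide
  have h7 : 7 ∣ Nat.card G := by
    obtain ⟨a⟩ : Nonempty α := by
      rw [← Fintype.card_pos_iff, hα]; norm_num
    have h1 : (stabilizer G a).index = Nat.card α := index_stabilizer_of_transitive G a
    rw [← hcard, ← h1]
    exact Subgroup.index_dvd_card _
  have hdvd : Nat.card G ∣ 5040 := by
    rw [← hperm]; exact Subgroup.card_subgroup_dvd_card _
  -- no `3`-cycles
  have h9 : ¬ 9 ∣ Nat.card G := by
    intro h9
    obtain ⟨c, hc⟩ := (Equiv.Perm.exists_with_cycleType_iff α (m := {3})).mpr (by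
      simp [hα])
    obtain ⟨g, hg⟩ := exists_conj_mem (A := Perm α) 3 2 (by rw [hperm]; norm_num) G
      (by simpa using h9) c (isPGroup_of_cycleType c hc)
    refine hA (alternatingGroup_le_of_isPreprimitive_of_isThreeCycle_mem hprim (g := g * c * g⁻¹)
      ?_ hg)
    unfold IsThreeCycle
    rw [Equiv.Perm.cycleType_conj, hc]
  -- no transpositions
  have h16 : ¬ 16 ∣ Nat.card G := by
    intro h16
    obtain ⟨x, y, hxy⟩ : ∃ x y : α, x ≠ y := by
      have : Nontrivial α := by
        rw [← Fintype.one_lt_card_iff_nontrivial, hα]; norm_num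
      exact exists_pair_ne α
    have hc : (swap x y).cycleType = {2} := by
      rw [(Equiv.Perm.isCycle_swap hxy).cycleType, Equiv.Perm.card_support_swap hxy]
    obtain ⟨g, hg⟩ := exists_conj_mem (A := Perm α) 2 4 (by rw [hperm]; norm_num) G
      (by simpa using h16) (swap x y) (isPGroup_of_cycleType _ hc)
    have hs : IsSwap (g * swap x y * g⁻¹) := by
      refine ⟨g x, g y, fun h => hxy (g.injective h), ?_⟩
      exact (Equiv.swap_apply_apply g x y).symm
    have htop := subgroup_eq_top_of_isPreprimitive_of_isSwap_mem hprim _ hs hg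
    exact hA (by rw [htop]; exact le_top)
  obtain ⟨m, hm⟩ := h7
  have hm720 : m ∣ 720 := by
    have : 7 * m ∣ 7 * 720 := by rw [← hm]; exact hdvd
    exact (Nat.mul_dvd_mul_iff_left (by norm_num)).mp this
  have hm120 : m ∣ 120 := by
    have key : ∀ m ∈ Finset.range 721, m ∣ 720 → ¬ 9 ∣ 7 * m → ¬ 16 ∣ 7 * m → m ∣ 120 := by
      decide +kernel
    refine key m (Finset.mem_range.mpr ?_) hm720 (by rwa [← hm]) (by rwa [← hm])
    have := Nat.le_of_dvd (by norm_num) hm720
    omega
  have h7m : ¬ 7 ∣ m := by
    intro h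
    have : (7 : ℕ) ∣ 120 := h.trans hm120
    omega
  by_cases h5 : 5 ∣ m
  · exfalso
    obtain ⟨P⟩ : Nonempty (Sylow 7 G) := inferInstance
    obtain ⟨hP, hI⟩ := card_sylow 7 m hm h7m P
    have hN : Nat.card (normalizer ((P : Subgroup G) : Set G)) ∣ 42 :=
      card_normalizer_dvd G hα P hP
    set d := Nat.card (normalizer ((P : Subgroup G) : Set G)) with hd
    have hidx : (normalizer ((P : Subgroup G) : Set G)).index ≡ 1 [MOD 7] := by
      have h1 : Nat.card (Sylow 7 G) = (normalizer ((P : Subgroup G) : Set G)).index :=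
        Sylow.card_eq_index_normalizer P
      rw [← h1]
      exact card_sylow_modEq_one 7 G
    have hmul : d * (normalizer ((P : Subgroup G) : Set G)).index = 7 * m := by
      rw [hd, Subgroup.card_mul_index, hm]
    have hd0 : 0 < d := Nat.pos_of_dvd_of_pos hN (by norm_num)
    have hidx' : (7 * m / d) % 7 = 1 := by
      rw [← hmul, Nat.mul_div_cancel_left _ hd0]
      exact hidx
    have hdm : d ∣ 7 * m := ⟨_, hmul.symm⟩
    have key : ∀ m ∈ Finset.range 121, ∀ d ∈ Finset.range 43, m ∣ 120 → 5 ∣ m → d ∣ 42 →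
        d ∣ 7 * m → (7 * m / d) % 7 = 1 →
        (m = 15 ∧ d = 7) ∨ (m = 30 ∧ d = 14) ∨ (m = 120 ∧ d = 7) := by
      decide +kernel
    have hm121 : m < 121 := by
      have := Nat.le_of_dvd (by norm_num) hm120
      omega
    have hd43 : d < 43 := by
      have := Nat.le_of_dvd (by norm_num) hN
      omega
    rcases key m (Finset.mem_range.mpr hm121) d (Finset.mem_range.mpr hd43) hm120 h5 hN hdm hidx'
      with ⟨rfl, -⟩ | ⟨rfl, -⟩ | ⟨rfl, hd7⟩
    · apply hG
      haveI : IsZGroup G := IsZGroup.of_squarefree (by rw [hm]; decide +kernel)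
      infer_instance
    · apply hG
      haveI : IsZGroup G := IsZGroup.of_squarefree (by rw [hm]; decide +kernel)
      infer_instance
    · exact not_840 G hα hm P hP hd7
  · have hm24 : m ∣ 24 := by
      have key : ∀ m ∈ Finset.range 121, m ∣ 120 → ¬ 5 ∣ m → m ∣ 24 := by
        decide +kernel
      refine key m (Finset.mem_range.mpr ?_) hm120 h5
      have := Nat.le_of_dvd (by norm_num) hm120
      omega
    have h168d : Nat.card G ∣ 168 := by
      rw [hm]; exact Nat.mul_dvd_mul_left 7 hm24
    have h168 : Nat.card G = 168 := by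
      by_contra hne
      exact hG (sol_168 h168d hne)
    refine ⟨h168, ?_⟩
    haveI : Nontrivial G := by
      rw [← Finite.one_lt_card_iff_nontrivial, h168]; norm_num
    refine ⟨fun N hN => ?_⟩
    by_contra hcon
    push Not at hcon
    obtain ⟨hbot, htop⟩ := hcon
    apply hG
    have hNd : Nat.card N ∣ 168 := by
      rw [← h168]; exact Subgroup.card_subgroup_dvd_card N
    have hNne : Nat.card N ≠ 168 := by
      intro h
      apply htop
      rw [← h168] at h
      exact Subgroup.eq_top_of_card_eq N h
    have hN1 : Nat.card N ≠ 1 := by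
      intro h
      exact hbot (Subgroup.card_eq_one.mp h)
    have hQ := N.card_mul_index
    have hQd : Nat.card (G ⧸ N) ∣ 168 := by
      rw [← h168, ← hQ]
      exact Dvd.intro_left _ rfl
    have hQne : Nat.card (G ⧸ N) ≠ 168 := by
      intro h
      have h' : N.index = 168 := h
      rw [h', h168] at hQ
      apply hN1
      omega
    exact sol_ext N (sol_168 hNd hNne) (sol_168 hQd hQne)

end main

/-- A non-solvable transitive permutation group on 7 points that does not contain the alternating group is a simple group of order 168. -/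
theorem result {α : Type*} [Fintype α] [DecidableEq α] (hα : Fintype.card α = 7) (G : Subgroup (Equiv.Perm α)) [MulAction.IsPretransitive G α] (hG : ¬ Group.IsSolvable G) (hA : ¬ alternatingGroup α ≤ G) : Nat.card G = 168 ∧ IsSimpleGroup G :=
  main_result G hα hG hA

end Cfsg.Agent.S0678
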