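import Mathlib
import Cfsg.Statements.S0680
import Cfsg.Agent.Lib.Sharply2

set_option autoImplicit false
open Cfsg
open Cfsg.Agent.Lib.Sharply2

namespace Cfsg.Agent.S0680

/-- A finite sharply doubly transitive permutation group has degree a prime power `p ^ j`; a Sylow `p`-subgroup is normal, elementary abelian and regular, and consists of the identity together with the elements without fixed points. (Frobenius' Theorem is not needed.) -/
theorem result {α : Type*} [Fintype α] [DecidableEq α] (G : Subgroup (Equiv.Perm α)) [MulAction.IsMultiplyPretransitive G α 2] (hsharp : ∀ x : Fin 2 ↪ α, MulAction.stabilizer G x = ⊥) (h2 : 2 ≤ Fintype.card α) : ∃ p j : ℕ, p.Prime ∧ 1 ≤ j ∧ Fintype.card α = p ^ j ∧ ∀ (hp : Fact p.Prime) (P : Sylow p G), (P : Subgroup G).Normal ∧ IsMulCommutative (P : Subgroup G) ∧ (∀ x ∈ (P : Subgroup G), x ^ p = 1) ∧ MulAction.IsPretransitive (P : Subgroup G) α ∧ (∀ a : α, MulAction.stabilizer (P : Subgroup G) a = ⊥) ∧ ∀ g : G, g ∈ (P : Subgroup G) ↔ g = 1 ∨ ∀ a : α, g • a ≠ a := by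
  classical
  have hH := IsSharp2.of_stabilizer G hsharp
  obtain ⟨p, hp, hexp, j, hj, hcard, hcardF⟩ := hH.exists_prime_exponent h2
  refine ⟨p, j, hp, hj, hcard, ?_⟩
  intro hfact P
  set F := hH.fpfSubgroup with hF
  set F' : Subgroup G := F.subgroupOf G with hF'
  have hF'mem : ∀ g : G, g ∈ F' ↔ (g = 1 ∨ ∀ a : α, g • a ≠ a) := by
    intro g
    rw [hF', Subgroup.mem_subgroupOf, hF, IsSharp2.mem_fpfSubgroup]
    constructor
    · rintro ⟨-, h | h⟩
      · exact Or.inl (Subtype.ext h)
      · exact Or.inr h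
    · rintro (h | h)
      · exact ⟨g.2, Or.inl (by rw [h]; rfl)⟩
      · exact ⟨g.2, Or.inr h⟩
  have hF'n : F'.Normal := by
    constructor
    intro n hn g
    rw [hF', Subgroup.mem_subgroupOf] at hn ⊢
    exact hH.conj_mem_fpf g.2 hn
  -- cardinalities
  have hle : F ≤ G := hH.fpfSubgroup_le
  have hcF' : Nat.card F' = p ^ j := by
    rw [← hcardF]
    exact Nat.card_congr (Subgroup.subgroupOfEquivOfLe hle).toEquiv
  have hcardG : Nat.card G = Fintype.card α * (Fintype.card α - 1) := by
    have hnt : Nontrivial α := Fintype.one_lt_card_iff_nontrivial.mp (by omega)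
    obtain ⟨b, c, hbc⟩ := exists_pair_ne α
    let x₀ : Fin 2 ↪ α := Function.Embedding.embFinTwo hbc
    have : Nat.card G = Nat.card (Fin 2 ↪ α) := by
      refine Nat.card_congr (Equiv.ofBijective (fun g : G => g • x₀) ⟨?_, ?_⟩)
      · intro g g' hgg
        have e0 : ((g : Equiv.Perm α)) b = (g' : Equiv.Perm α) b := by
          have := DFunLike.congr_fun hgg 0
          have e : (g • x₀) 0 = (g' • x₀) 0 := this
          simp only [Function.Embedding.smul_apply, x₀, Function.Embedding.embFinTwo_apply_zero] at e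
          exact e
        have e1 : ((g : Equiv.Perm α)) c = (g' : Equiv.Perm α) c := by
          have := DFunLike.congr_fun hgg 1
          have e : (g • x₀) 1 = (g' • x₀) 1 := this
          simp only [Function.Embedding.smul_apply, x₀, Function.Embedding.embFinTwo_apply_one] at e
          exact e
        exact Subtype.ext (hH.uniq g.2 g'.2 hbc e0 e1)
      · intro y
        exact MulAction.exists_smul_eq G x₀ y
    rw [this, Nat.card_eq_fintype_card, Fintype.card_embedding_eq]
    simp [Nat.descFactorial, mul_comm]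
  have hindex : F'.index = Fintype.card α - 1 := by
    have h1 := Subgroup.card_mul_index F'
    rw [hcF', hcardG, hcard] at h1
    have hpos : 0 < p ^ j := pow_pos hp.pos _
    rw [hcard]
    exact Nat.eq_of_mul_eq_mul_left hpos h1
  have hpg : IsPGroup p F' := by
    apply IsPGroup.of_card hcF'
  have hnd : ¬ p ∣ F'.index := by
    rw [hindex, hcard]
    intro hd
    have h3 : p ∣ p ^ j := dvd_pow_self p (by omega)
    have h4 : p ^ j - 1 + 1 = p ^ j := Nat.sub_add_cancel (Nat.one_le_pow _ _ hp.pos)
    have h5 : p ∣ 1 := by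
      have := (Nat.dvd_add_right hd).mp (h4 ▸ h3)
      exact this
    exact hp.one_lt.ne' (Nat.dvd_one.mp h5)
  have hPeq : (P : Subgroup G) = F' := by
    have hle' : F' ≤ P := by
      have := hF'n
      exact hpg.le_sylow_of_normal P
    exact (hpg.toSylow hnd).is_maximal' P.isPGroup' (by simpa using hle')
  rw [hPeq]
  refine ⟨hF'n, ?_, ?_, ?_, ?_, hF'mem⟩
  · constructor
    constructor
    intro x y
    apply Subtype.ext
    apply Subtype.ext
    have hx : ((x : G) : Equiv.Perm α) ∈ F := Subgroup.mem_subgroupOf.mp x.2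
    have hy : ((y : G) : Equiv.Perm α) ∈ F := Subgroup.mem_subgroupOf.mp y.2
    exact hH.commute_of_mem_fpf hx hy
  · intro x hx
    have hx' : (x : Equiv.Perm α) ∈ F := Subgroup.mem_subgroupOf.mp hx
    apply Subtype.ext
    simpa using hexp _ hx'
  · constructor
    intro a b
    obtain ⟨y, hy, hyab⟩ := hH.regular_exists a b
    refine ⟨⟨⟨y, hH.fpfSubgroup_le hy⟩, Subgroup.mem_subgroupOf.mpr hy⟩, hyab⟩
  · intro a
    rw [eq_bot_iff]
    intro x hx
    have hx' : ((x : G) : Equiv.Perm α) ∈ F := Subgroup.mem_subgroupOf.mp x.2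
    have hfix : ((x : G) : Equiv.Perm α) a = a := hx
    have : ((x : G) : Equiv.Perm α) = 1 :=
      hH.regular_unique hx' (one_mem _) (b := a) (by simpa using hfix)
    exact Subgroup.mem_bot.mpr (Subtype.ext (Subtype.ext this))

end Cfsg.Agent.S0680
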