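import Mathlib
import Cfsg.Statements.S0681
import Cfsg.Agent.Lib.NearFieldBasic

set_option autoImplicit false
open Cfsg
open Cfsg.Agent.Lib.NearFieldBasic

namespace Cfsg.Agent.S0681

variable {F : Type*} [NearField F]

/-- The affine permutation `x ↦ x * a + b`. -/
noncomputable def affinePerm (a b : F) (ha : a ≠ 0) : Equiv.Perm F where
  toFun x := x * a + b
  invFun y := (y + -b) * nfInv a ha
  left_inv x := by
    change (x * a + b + -b) * nfInv a ha = x
    rw [add_neg_cancel_right, mul_assoc, mul_nfInv, mul_one]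
  right_inv y := by
    change (y + -b) * nfInv a ha * a + b = y
    rw [mul_assoc, nfInv_mul, mul_one, neg_add_cancel_right]

@[simp] lemma affinePerm_apply (a b : F) (ha : a ≠ 0) (x : F) : affinePerm a b ha x = x * a + b := rfl

/-- The affine maps `x ↦ x * a + b`, `a ≠ 0`, of a near-field form a sharply doubly transitive permutation group. -/
theorem result {F : Type*} [Cfsg.NearField F] : ∃ H : Subgroup (Equiv.Perm F), (∀ σ : Equiv.Perm F, σ ∈ H ↔ ∃ a b : F, a ≠ 0 ∧ ∀ x : F, σ x = x * a + b) ∧ MulAction.IsMultiplyPretransitive H F 2 ∧ ∀ x : Fin 2 ↪ F, MulAction.stabilizer H x = ⊥ := by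
  classical
  let H : Subgroup (Equiv.Perm F) :=
    { carrier := {σ | ∃ a b : F, a ≠ 0 ∧ ∀ x : F, σ x = x * a + b}
      one_mem' := ⟨1, 0, one_ne_zero', fun x => by simp⟩
      mul_mem' := by
        rintro σ τ ⟨a, b, ha, hσ⟩ ⟨c, d, hc, hτ⟩
        refine ⟨c * a, d * a + b, mul_ne_zero' hc ha, fun x => ?_⟩
        rw [Equiv.Perm.mul_apply, hτ, hσ, NearField.right_distrib, add_assoc, mul_assoc]
      inv_mem' := by
        rintro σ ⟨a, b, ha, hσ⟩
        refine ⟨nfInv a ha, (-b) * nfInv a ha, fun h => ?_, fun x => ?_⟩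
        · have := mul_nfInv a ha
          rw [h, NearField.mul_zero] at this
          exact one_ne_zero' this.symm
        · rw [Equiv.Perm.inv_eq_iff_eq, hσ, NearField.right_distrib, mul_assoc, mul_assoc,
            nfInv_mul, mul_one, mul_one, neg_add_cancel_right] }
  have hmem : ∀ σ : Equiv.Perm F, σ ∈ H ↔ ∃ a b : F, a ≠ 0 ∧ ∀ x : F, σ x = x * a + b := fun σ => Iff.rfl
  refine ⟨H, hmem, ?_, ?_⟩
  · rw [MulAction.is_two_pretransitive_iff]
    intro x₁ x₂ y₁ y₂ hx hy
    have hd : x₁ + -x₂ ≠ 0 := fun h => hx (add_neg_eq_zero.mp h)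
    have hd' : y₁ + -y₂ ≠ 0 := fun h => hy (add_neg_eq_zero.mp h)
    set a := nfInv (x₁ + -x₂) hd * (y₁ + -y₂) with ha
    have hda : (x₁ + -x₂) * a = y₁ + -y₂ := by
      rw [ha, ← mul_assoc, mul_nfInv, one_mul]
    have hane : a ≠ 0 := by
      intro h
      rw [h, NearField.mul_zero] at hda
      exact hd' hda.symm
    set b := -(x₂ * a) + y₂ with hb
    refine ⟨⟨affinePerm a b hane, ⟨a, b, hane, fun x => rfl⟩⟩, ?_, ?_⟩
    · change x₁ * a + b = y₁
      have h1 := nf_sub_mul x₁ x₂ a
      rw [hda] at h1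
      rw [hb, ← add_assoc, ← h1]
      simp
    · change x₂ * a + b = y₂
      rw [hb]
      simp
  · intro x
    rw [eq_bot_iff]
    rintro ⟨σ, a, b, ha, hσ⟩ hfix
    have hne : x 0 ≠ x 1 := fun h => absurd (x.injective h) (by decide)
    have h0 : σ (x 0) = x 0 := by
      have := congrArg (fun f : Fin 2 ↪ F => f 0) hfix
      exact this
    have h1 : σ (x 1) = x 1 := by
      have := congrArg (fun f : Fin 2 ↪ F => f 1) hfix
      exact this
    rw [hσ] at h0 h1
    have hd : x 0 + -x 1 ≠ 0 := fun h => hne (add_neg_eq_zero.mp h)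
    have h2 : (x 0 + -x 1) * a = x 0 + -x 1 := by
      rw [nf_sub_mul]
      have e0 : x 0 * a = x 0 + -b := eq_add_neg_of_add_eq h0
      have e1 : x 1 * a = x 1 + -b := eq_add_neg_of_add_eq h1
      rw [e0, e1]
      simp [add_assoc]
    have h3 : a = 1 := by
      have h4 : nfInv _ hd * ((x 0 + -x 1) * a) = nfInv _ hd * (x 0 + -x 1) := by rw [h2]
      rw [← mul_assoc, nfInv_mul, one_mul] at h4
      exact h4
    have h4 : b = 0 := by
      rw [h3, mul_one] at h0
      exact left_eq_add.mp h0.symm |>.symm ▸ rfl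
    have : σ = 1 := by
      ext y
      rw [hσ, h3, h4]
      simp
    rw [Subgroup.mem_bot]
    exact Subtype.ext this

end Cfsg.Agent.S0681
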