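import Mathlib
import Cfsg.Statements.S0682
import Cfsg.Agent.Lib.NearFieldBasic

set_option autoImplicit false
open Cfsg
open Cfsg.Agent.Lib.NearFieldBasic

namespace Cfsg.Agent.S0682

/-- A finite near-field has prime-power order; its additive group is commutative of prime exponent. -/
theorem result {F : Type*} [Cfsg.NearField F] [Finite F] : ∃ p j : ℕ, p.Prime ∧ 1 ≤ j ∧ Nat.card F = p ^ j ∧ (∀ x y : F, x + y = y + x) ∧ ∀ x : F, p • x = 0 := by
  classical
  have hnt : Nontrivial F := ⟨⟨0, 1, NearField.zero_ne_one⟩⟩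
  have hcard1 : 1 < Nat.card F := Finite.one_lt_card
  obtain ⟨p, hp, hpd⟩ := Nat.exists_prime_and_dvd hcard1.ne'
  have hfact : Fact p.Prime := ⟨hp⟩
  obtain ⟨x₀, hx₀⟩ := exists_prime_addOrderOf_dvd_card' (G := F) p hpd
  have hx₀ne : x₀ ≠ 0 := by
    rintro rfl
    rw [addOrderOf_zero] at hx₀
    exact hp.one_lt.ne hx₀
  have hpx₀ : p • x₀ = 0 := by
    rw [← hx₀]
    exact addOrderOf_nsmul_eq_zero x₀
  have hexp : ∀ x : F, p • x = 0 := by
    intro x
    have hx : x = x₀ * (nfInv x₀ hx₀ne * x) := by
      rw [← mul_assoc, mul_nfInv, one_mul]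
    rw [hx, ← nsmul_mul, hpx₀, nf_zero_mul]
  have hpg : IsPGroup p (Multiplicative F) := by
    intro g
    refine ⟨1, ?_⟩
    rw [pow_one]
    have := hexp (Multiplicative.toAdd g)
    exact congrArg Multiplicative.ofAdd this
  obtain ⟨j, hj⟩ := IsPGroup.iff_card.mp hpg
  have hcardF : Nat.card F = p ^ j := by
    rw [← hj]
    exact Nat.card_congr Multiplicative.toAdd.symm
  have hnt2 : Nontrivial (Multiplicative F) := ⟨⟨Multiplicative.ofAdd 0, Multiplicative.ofAdd 1, fun h =>
    NearField.zero_ne_one (F := F) (Multiplicative.ofAdd.injective h)⟩⟩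
  have hfin2 : Finite (Multiplicative F) := inferInstanceAs (Finite F)
  have hcn := hpg.center_nontrivial
  obtain ⟨⟨z, hz⟩, hz1⟩ := exists_ne (1 : Subgroup.center (Multiplicative F))
  have hz0 : Multiplicative.toAdd z ≠ (0 : F) := by
    intro h
    apply hz1
    apply Subtype.ext
    exact Multiplicative.toAdd.injective h
  have hzc : ∀ y : F, y + Multiplicative.toAdd z = Multiplicative.toAdd z + y := by
    intro y
    have := (Subgroup.mem_center_iff.mp hz) (Multiplicative.ofAdd y)
    exact congrArg Multiplicative.toAdd this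
  refine ⟨p, j, hp, ?_, hcardF, ?_, hexp⟩
  · rcases Nat.eq_zero_or_pos j with rfl | h
    · rw [hcardF] at hcard1
      simp at hcard1
    · exact h
  · intro x y
    by_cases hx : x = 0
    · simp [hx]
    set z₀ := Multiplicative.toAdd z with hz₀
    set c := nfInv z₀ hz0 * x with hc
    have hcne : c ≠ 0 := by
      intro h
      apply hx
      have : z₀ * c = x := by
        rw [hc, ← mul_assoc, mul_nfInv, one_mul]
      rw [← this, h, NearField.mul_zero]
    have hxc : x = z₀ * c := by
      rw [hc, ← mul_assoc, mul_nfInv, one_mul]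
    have hyc : y = (y * nfInv c hcne) * c := by
      rw [mul_assoc, nfInv_mul, mul_one]
    calc x + y = z₀ * c + (y * nfInv c hcne) * c := by rw [← hxc, ← hyc]
      _ = (z₀ + y * nfInv c hcne) * c := (NearField.right_distrib _ _ _).symm
      _ = (y * nfInv c hcne + z₀) * c := by rw [hzc]
      _ = (y * nfInv c hcne) * c + z₀ * c := NearField.right_distrib _ _ _
      _ = y + x := by rw [← hxc, ← hyc]

end Cfsg.Agent.S0682
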