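import Mathlib
import Cfsg.Statements.S0683
import Cfsg.Agent.Lib.Sharply2

set_option autoImplicit false
open Cfsg
open Cfsg.Agent.Lib.Sharply2

namespace Cfsg.Agent.S0683

/-- A finite sharply doubly transitive permutation group is the affine group of a near-field: the permuted set carries a near-field structure for which the group consists exactly of the maps `x ↦ x * a + b` with `a ≠ 0`. -/
theorem result {α : Type*} [Fintype α] [DecidableEq α] (H : Subgroup (Equiv.Perm α)) [MulAction.IsMultiplyPretransitive H α 2] (hsharp : ∀ x : Fin 2 ↪ α, MulAction.stabilizer H x = ⊥) (h2 : 2 ≤ Fintype.card α) : ∃ _ : Cfsg.NearField α, ∀ σ : Equiv.Perm α, σ ∈ H ↔ ∃ a b : α, a ≠ 0 ∧ ∀ x : α, σ x = x * a + b := by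
  classical
  have hH := IsSharp2.of_stabilizer H hsharp
  have hnt : Nontrivial α := Fintype.one_lt_card_iff_nontrivial.mp (by omega)
  obtain ⟨o, u, hou⟩ := exists_pair_ne α
  set F := hH.fpfSubgroup with hF
  -- translations
  choose τ hτF hτo using (fun x => hH.regular_exists o x)
  have hτuniq : ∀ {y : Equiv.Perm α} {x : α}, y ∈ F → y o = x → y = τ x := by
    intro y x hy hyx
    exact hH.regular_unique hy (hτF x) (by rw [hyx, hτo])
  have hτzero : τ o = 1 := (hτuniq (one_mem _) rfl).symm
  have hτmul : ∀ x y, τ (τ x y) = τ x * τ y := by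
    intro x y
    symm
    apply hτuniq (mul_mem (hτF x) (hτF y))
    simp [hτo]
  have hτcomm : ∀ x y, τ x * τ y = τ y * τ x := fun x y => hH.commute_of_mem_fpf (hτF x) (hτF y)
  have hτinv : ∀ x, τ ((τ x)⁻¹ o) = (τ x)⁻¹ := by
    intro x
    symm
    exact hτuniq (inv_mem (hτF x)) rfl
  -- the point stabiliser
  have key : ∀ a, a ≠ o → ∃ h ∈ H, h o = o ∧ h u = a := fun a ha => hH.tr hou ha.symm
  choose! h hhH hho hhu using key
  have hhuniq : ∀ {k : Equiv.Perm α} {a : α}, k ∈ H → a ≠ o → k o = o → k u = a → k = h a := by
    intro k a hk ha h1 h2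
    exact hH.uniq hk (hhH a ha) hou (by rw [h1, hho a ha]) (by rw [h2, hhu a ha])
  have hhne : ∀ a, a ≠ o → ∀ x, x ≠ o → h a x ≠ o := by
    intro a ha x hx hcon
    apply hx
    apply (h a).injective
    rw [hcon, hho a ha]
  have hhone : h u = 1 := (hhuniq (one_mem _) hou.symm rfl rfl).symm
  have hhcomp : ∀ a b, a ≠ o → b ≠ o → h (h b a) = h b * h a := by
    intro a b ha hb
    symm
    apply hhuniq (H.mul_mem (hhH b hb) (hhH a ha)) (hhne b hb a ha)
    · simp [hho, ha, hb]
    · simp [hhu, ha]
  have hconjτ : ∀ c, c ≠ o → ∀ x, h c * τ x * (h c)⁻¹ = τ (h c x) := by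
    intro c hc x
    apply hτuniq (hH.conj_mem_fpf (hhH c hc) (hτF x))
    have e : (h c)⁻¹ o = o := by
      rw [Equiv.Perm.inv_eq_iff_eq]
      exact (hho c hc).symm
    simp only [Equiv.Perm.coe_mul, Function.comp_apply]
    rw [e, hτo]
  -- the structures
  let instA : Add α := ⟨fun x y => τ x y⟩
  let instZ : Zero α := ⟨o⟩
  let instNe : Neg α := ⟨fun x => (τ x)⁻¹ o⟩
  let instAG : AddGroup α := AddGroup.ofLeftAxioms
    (by
      intro x y z
      change τ (τ x y) z = τ x (τ y z)
      rw [hτmul]
      rfl)
    (by
      intro x
      change τ o x = x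
      rw [hτzero]
      rfl)
    (by
      intro x
      change τ ((τ x)⁻¹ o) x = o
      rw [hτinv, Equiv.Perm.inv_eq_iff_eq, hτo])
  let instM : Monoid α :=
    { mul := fun x a => if a = o then o else h a x
      one := u
      mul_assoc := by
        intro x a b
        change (if b = o then o else h b (if a = o then o else h a x)) =
          (if (if b = o then o else h b a) = o then o else h (if b = o then o else h b a) x)
        by_cases hb : b = o
        · simp [hb]
        · by_cases ha : a = o
          · simp [hb, ha, hho b hb]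
          · have := hhne b hb a ha
            simp only [hb, ha, if_false, this]
            rw [hhcomp a b ha hb]
            rfl
      one_mul := by
        intro a
        change (if a = o then o else h a u) = a
        by_cases ha : a = o
        · simp [ha]
        · simp [ha, hhu a ha]
      mul_one := by
        intro x
        change (if u = o then o else h u x) = x
        simp [hou.symm, hhone] }
  let instN : Cfsg.NearField α :=
    { instAG, instM with
      right_distrib := by
        intro x y c
        change (if c = o then o else h c (τ x y)) =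
          τ (if c = o then o else h c x) (if c = o then o else h c y)
        by_cases hc : c = o
        · simp [hc, hτo]
        · simp only [hc, if_false]
          rw [← hconjτ c hc x]
          simp
      mul_zero := by
        intro a
        change (if o = o then o else h o a) = o
        simp
      zero_ne_one := hou
      exists_inv := by
        intro a ha
        change a ≠ o at ha
        have hbo : (h a)⁻¹ u ≠ o := by
          intro hcon
          apply hou
          have : h a ((h a)⁻¹ u) = u := by simp
          rw [hcon, hho a ha] at this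
          exact this
        refine ⟨(h a)⁻¹ u, ?_, ?_⟩
        · change (if (h a)⁻¹ u = o then o else h ((h a)⁻¹ u) a) = u
          simp only [hbo, if_false]
          have h3 : h ((h a)⁻¹ u) = (h a)⁻¹ := by
            symm
            apply hhuniq (H.inv_mem (hhH a ha)) hbo
            · rw [Equiv.Perm.inv_eq_iff_eq]
              exact (hho a ha).symm
            · rfl
          rw [h3, Equiv.Perm.inv_eq_iff_eq, hhu a ha]
        · change (if a = o then o else h a ((h a)⁻¹ u)) = u
          simp [ha] }
  refine ⟨instN, ?_⟩
  have hzero : (0 : α) = o := rfl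
  have hmulN : ∀ x a : α, a ≠ o → x * a = h a x := by
    intro x a ha
    change (if a = o then o else h a x) = h a x
    simp [ha]
  have haddN : ∀ x y : α, x + y = τ x y := fun _ _ => rfl
  intro σ
  constructor
  · intro hσ
    set b := σ o with hb
    have hk : (τ b)⁻¹ * σ ∈ H := H.mul_mem (H.inv_mem (hH.fpfSubgroup_le (hτF b))) hσ
    have hko : ((τ b)⁻¹ * σ) o = o := by
      simp only [Equiv.Perm.coe_mul, Function.comp_apply]
      rw [Equiv.Perm.inv_eq_iff_eq, hτo]
    set a := ((τ b)⁻¹ * σ) u with ha
    have hao : a ≠ o := by
      intro hcon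
      apply hou
      apply ((τ b)⁻¹ * σ).injective
      rw [hko, ← ha, hcon]
    have hk2 := hhuniq hk hao hko rfl
    refine ⟨a, b, hao, ?_⟩
    intro x
    rw [hmulN x a hao, haddN]
    have h4 : σ = τ b * h a := by
      rw [← hk2]
      group
    have h5 : τ (h a x) b = (τ (h a x) * τ b) o := by simp [hτo]
    rw [h5, hτcomm, h4]
    simp [hτo]
  · rintro ⟨a, b, hao, hf⟩
    have hao' : a ≠ o := hao
    have h4 : σ = τ b * h a := by
      ext x
      rw [hf, hmulN x a hao', haddN]
      have h5 : τ (h a x) b = (τ (h a x) * τ b) o := by simp [hτo]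
      rw [h5, hτcomm]
      simp [hτo]
    rw [h4]
    exact H.mul_mem (hH.fpfSubgroup_le (hτF b)) (hhH a hao')

end Cfsg.Agent.S0683
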