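import Cfsg.Statements.S0684
import Cfsg.Agent.Lib.RegLin

set_option autoImplicit false
open Cfsg
open Cfsg.Agent.Lib.RegLin

namespace Cfsg.Agent.S0684

/-- Point stabiliser of a sharply doubly transitive group not of semilinear type: a maximal normal abelian subgroup `A` of a linear group `H` that is regular on non-zero vectors and has no irreducible cyclic normal subgroup is cyclic and reducible, and the order of `A` divides `p ^ k - 1` for `k` the dimension of a minimal `A`-invariant subspace. -/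
theorem result {p : ℕ} [Fact p.Prime] {V : Type*} [AddCommGroup V] [Module (ZMod p) V] [Finite V] (H : Subgroup (V ≃ₗ[ZMod p] V)) (hreg : ∀ v w : V, v ≠ 0 → w ≠ 0 → ∃! h : H, (h : V ≃ₗ[ZMod p] V) v = w) (hI : ∀ A : Subgroup H, A.Normal → IsCyclic A → ∃ W : Submodule (ZMod p) V, W ≠ ⊥ ∧ W ≠ ⊤ ∧ ∀ a ∈ A, ∀ v ∈ W, ((a : H) : V ≃ₗ[ZMod p] V) v ∈ W) (A : Subgroup H) (hAn : A.Normal) (hAc : IsMulCommutative A) (hAmax : ∀ B : Subgroup H, B.Normal → IsMulCommutative B → A ≤ B → B = A) : IsCyclic A ∧ ∃ W : Submodule (ZMod p) V, W ≠ ⊥ ∧ W ≠ ⊤ ∧ (∀ a ∈ A, ∀ v ∈ W, ((a : H) : V ≃ₗ[ZMod p] V) v ∈ W) ∧ (∀ W' : Submodule (ZMod p) V, W' ≤ W → (∀ a ∈ A, ∀ v ∈ W', ((a : H) : V ≃ₗ[ZMod p] V) v ∈ W') → W' = ⊥ ∨ W' = W) ∧ Nat.card A ∣ p ^ Module.finrank (ZMod p) W - 1 := by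
  have hreg' : Reg H := hreg
  have hV : Nontrivial V := by
    obtain ⟨W, hW, -, -⟩ := hI ⊥ inferInstance inferInstance
    obtain ⟨u, _, hu⟩ := Submodule.exists_mem_ne_zero_of_ne_bot hW
    exact ⟨⟨u, 0, hu⟩⟩
  have hcyc : IsCyclic A := hreg'.isCyclic hV hAn hAc
  refine ⟨hcyc, ?_⟩
  obtain ⟨W₀, hW₀, hW₀t, hinv⟩ := hI A hAn hcyc
  obtain ⟨W, hle, hW⟩ := exists_isMin A W₀ hW₀ hinv
  refine ⟨W, hW.ne, ?_, hW.inv, hW.min, ?_⟩
  · intro h
    apply hW₀t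
    rw [h] at hle
    exact top_le_iff.mp hle
  · have h1 := hreg'.card_dvd hV hAn hAc
    have h2 : Nat.card W = p ^ Module.finrank (ZMod p) W := by
      rw [Module.natCard_eq_pow_finrank (K := ZMod p), Nat.card_zmod]
    rw [hreg'.card_adj_eq hAn hAc hW, h2] at h1
    exact h1

end Cfsg.Agent.S0684
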