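import Cfsg.Statements.S0685
import Cfsg.Agent.Lib.RegLin

set_option autoImplicit false
open Cfsg
open Cfsg.Agent.Lib.RegLin

namespace Cfsg.Agent.S0685

/-- In a linear group over the prime field that is regular on non-zero vectors and has no irreducible cyclic normal subgroup, a maximal normal abelian subgroup is properly contained in its centraliser, which is non-abelian. -/
theorem result {p : ℕ} [Fact p.Prime] {V : Type*} [AddCommGroup V] [Module (ZMod p) V] [Finite V] (H : Subgroup (V ≃ₗ[ZMod p] V)) (hreg : ∀ v w : V, v ≠ 0 → w ≠ 0 → ∃! h : H, (h : V ≃ₗ[ZMod p] V) v = w) (hI : ∀ A : Subgroup H, A.Normal → IsCyclic A → ∃ W : Submodule (ZMod p) V, W ≠ ⊥ ∧ W ≠ ⊤ ∧ ∀ a ∈ A, ∀ v ∈ W, ((a : H) : V ≃ₗ[ZMod p] V) v ∈ W) (A : Subgroup H) (hAn : A.Normal) (hAc : IsMulCommutative A) (hAmax : ∀ B : Subgroup H, B.Normal → IsMulCommutative B → A ≤ B → B = A) : A < Subgroup.centralizer (A : Set H) ∧ ¬ IsMulCommutative (Subgroup.centralizer (A : Set H)) := by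
  have hreg' : Reg H := hreg
  have hV : Nontrivial V := by
    obtain ⟨W, hW, -, -⟩ := hI ⊥ inferInstance inferInstance
    obtain ⟨u, _, hu⟩ := Submodule.exists_mem_ne_zero_of_ne_bot hW
    exact ⟨⟨u, 0, hu⟩⟩
  have hcyc : IsCyclic A := hreg'.isCyclic hV hAn hAc
  obtain ⟨W₀, hW₀, hW₀t, hinv⟩ := hI A hAn hcyc
  obtain ⟨W, hle, hW⟩ := exists_isMin A W₀ hW₀ hinv
  have hWt : W ≠ ⊤ := by
    intro h
    apply hW₀t
    rw [h] at hle
    exact top_le_iff.mp hle
  have hAC : A ≤ Subgroup.centralizer (A : Set H) := by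
    intro a ha
    rw [Subgroup.mem_centralizer_iff]
    intro b hb
    exact congrArg Subtype.val (hAc.is_comm.comm ⟨b, hb⟩ ⟨a, ha⟩)
  have hna : ¬ IsMulCommutative (Subgroup.centralizer (A : Set H)) := by
    intro hc
    have hCA : Subgroup.centralizer (A : Set H) = A := hAmax _ inferInstance hc hAC
    refine hreg'.not_self_centralizing hAn hAc (fun x hx => ?_) hW hWt
    rw [← hCA, Subgroup.mem_centralizer_iff]
    intro a ha
    exact (hx a ha).symm
  refine ⟨lt_of_le_of_ne hAC ?_, hna⟩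
  intro h
  apply hna
  rw [← h]
  exact hAc

end Cfsg.Agent.S0685
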