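import Cfsg.Statements.S0687
import Cfsg.Agent.Lib.RegLin

set_option autoImplicit false
open Cfsg
open Cfsg.Agent.Lib.RegLin

namespace Cfsg.Agent.S0687

/-- In a linear group over the prime field that is regular on non-zero vectors and has no irreducible cyclic normal subgroup, a normal subgroup `N` minimal among the non-abelian normal subgroups centralising a maximal normal abelian subgroup `A` is irreducible on `V`, and its centraliser is `A`. -/
theorem result {p : ℕ} [Fact p.Prime] {V : Type*} [AddCommGroup V] [Module (ZMod p) V] [Finite V] (H : Subgroup (V ≃ₗ[ZMod p] V)) (hreg : ∀ v w : V, v ≠ 0 → w ≠ 0 → ∃! h : H, (h : V ≃ₗ[ZMod p] V) v = w) (hI : ∀ A : Subgroup H, A.Normal → IsCyclic A → ∃ W : Submodule (ZMod p) V, W ≠ ⊥ ∧ W ≠ ⊤ ∧ ∀ a ∈ A, ∀ v ∈ W, ((a : H) : V ≃ₗ[ZMod p] V) v ∈ W) (A : Subgroup H) (hAn : A.Normal) (hAc : IsMulCommutative A) (hAmax : ∀ B : Subgroup H, B.Normal → IsMulCommutative B → A ≤ B → B = A) (N : Subgroup H) (hNn : N.Normal) (hNle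 : N ≤ Subgroup.centralizer (A : Set H)) (hNna : ¬ IsMulCommutative N) (hNmin : ∀ M : Subgroup H, M.Normal → M ≤ N → ¬ IsMulCommutative M → M = N) : (∀ W : Submodule (ZMod p) V, (∀ n ∈ N, ∀ v ∈ W, ((n : H) : V ≃ₗ[ZMod p] V) v ∈ W) → W = ⊥ ∨ W = ⊤) ∧ Subgroup.centralizer (N : Set H) = A := by
  have hreg' : Reg H := hreg
  have hV : Nontrivial V := by
    obtain ⟨W, hW, -, -⟩ := hI ⊥ inferInstance inferInstance
    obtain ⟨u, _, hu⟩ := Submodule.exists_mem_ne_zero_of_ne_bot hW
    exact ⟨⟨u, 0, hu⟩⟩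
  have hirr := hreg'.irreducible_of_not_comm hNn hNna
  refine ⟨hirr, ?_⟩
  have hAC : A ≤ Subgroup.centralizer (N : Set H) := by
    intro a ha
    rw [Subgroup.mem_centralizer_iff]
    intro n hn
    exact (Subgroup.mem_centralizer_iff.mp (hNle hn)) a ha |>.symm
  have hc : IsMulCommutative (Subgroup.centralizer (N : Set H)) := by
    refine ⟨⟨fun x y => Subtype.ext ?_⟩⟩
    refine centralizer_comm_of_irreducible hV hirr (fun n hn => ?_) (fun n hn => ?_)
    · exact (Subgroup.mem_centralizer_iff.mp x.2 n hn).symm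
    · exact (Subgroup.mem_centralizer_iff.mp y.2 n hn).symm
  exact hAmax _ inferInstance hc hAC

end Cfsg.Agent.S0687
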