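import Cfsg.Statements.S0691
import Cfsg.Agent.Lib.GL2Reg

set_option autoImplicit false
open Cfsg

namespace Cfsg.Agent.S0691

/-- The table of second columns as one big numeral. -/
def tbl : ℕ := 8457166396279458348604838997012745256129387878865532183236142542320657396828918912204800

/-- Look up the second column. -/
def tt (i : ℕ) : ℕ := tbl / 4096 ^ i % 4096

/-- The generators' codes. -/
def gens : List Lib.GL2Reg.Q := [(2, 0, 0, 3), (0, 4, 1, 0), (1, 2, 1, 3)]

theorem chk : Lib.GL2Reg.check 5 5 3 gens tt = true := by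
  decide +kernel

instance fact_p : Fact (Nat.Prime 5) := ⟨by norm_num⟩


/-- An exceptional sharply doubly transitive group of degree 5^2: the listed matrices generate a subgroup of GL(2,5) of order 24 acting regularly on the non-zero vectors. -/
theorem result (A : Matrix.GeneralLinearGroup (Fin 2) (ZMod 5)) (B : Matrix.GeneralLinearGroup (Fin 2) (ZMod 5)) (C : Matrix.GeneralLinearGroup (Fin 2) (ZMod 5)) (hA : (A : Matrix (Fin 2) (Fin 2) (ZMod 5)) = !![2, 0; 0, -2]) (hB : (B : Matrix (Fin 2) (Fin 2) (ZMod 5)) = !![0, -1; 1, 0]) (hC : (C : Matrix (Fin 2) (Fin 2) (ZMod 5)) = !![1, 2; 1, -2]) : Nat.card (Subgroup.closure ({A, B, C} : Set (Matrix.GeneralLinearGroup (Fin 2) (ZMod 5)))) = 24 ∧ ∀ v w : Fin 2 → ZMod 5, v ≠ 0 → w ≠ 0 → ∃! h : Subgroup.closure ({A, B, C} : Set (Matrix.GeneralLinearGroup (Fin 2) (ZMod 5))), Matrix.mulVec ((h : Matrix.GeneralLinearGroup (Fin 2) (ZMod 5)) : Matrix (Fin 2) (Fin 2) (ZMod 5)) v = w := by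
  have hm : ∀ (M : Matrix (Fin 2) (Fin 2) (ZMod 5)) (c : Lib.GL2Reg.Q), M 0 0 = (c.1 : ZMod 5) → M 0 1 = (c.2.1 : ZMod 5) →
      M 1 0 = (c.2.2.1 : ZMod 5) → M 1 1 = (c.2.2.2 : ZMod 5) → M = Lib.GL2Reg.dec 5 c := by
    intro M c h1 h2 h3 h4
    ext r s
    fin_cases r <;> fin_cases s <;> simp [Lib.GL2Reg.dec, h1, h2, h3, h4]
  have hA' : (A : Matrix (Fin 2) (Fin 2) (ZMod 5)) = Lib.GL2Reg.dec 5 (2, 0, 0, 3) := by
    apply hm <;> rw [hA] <;> decide +kernel
  have hB' : (B : Matrix (Fin 2) (Fin 2) (ZMod 5)) = Lib.GL2Reg.dec 5 (0, 4, 1, 0) := by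
    apply hm <;> rw [hB] <;> decide +kernel
  have hC' : (C : Matrix (Fin 2) (Fin 2) (ZMod 5)) = Lib.GL2Reg.dec 5 (1, 2, 1, 3) := by
    apply hm <;> rw [hC] <;> decide +kernel
  refine Lib.GL2Reg.main _ gens tt 5 3 24 ?_ ?_ chk (by norm_num)
  · rintro g hg
    simp only [Set.mem_insert_iff, Set.mem_singleton_iff] at hg
    rcases hg with rfl | rfl | rfl
    · exact ⟨_, by simp [gens], hA'⟩
    · exact ⟨_, by simp [gens], hB'⟩
    · exact ⟨_, by simp [gens], hC'⟩
  · intro c hc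
    simp only [gens, List.mem_cons, List.not_mem_nil, or_false] at hc
    rcases hc with rfl | rfl | rfl
    · exact ⟨A, by simp, hA'⟩
    · exact ⟨B, by simp, hB'⟩
    · exact ⟨C, by simp, hC'⟩

end Cfsg.Agent.S0691
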