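import Cfsg.Statements.S0692
import Cfsg.Agent.Lib.GL2Reg

set_option autoImplicit false
open Cfsg

namespace Cfsg.Agent.S0692

/-- The table of second columns as one big numeral. -/
def tbl : ℕ := 3620357174613530145060119783226356098634170771964493610677203221202915207392016735749970396367983592248739728049722249777492161393903440457995787148620089372197586563625730103796987880616482817711593207694588545419688363972904789672983906912085084417203362749749673377120009851144770898285578860515641377019969827812631898652724272764547391279785637559430346808576348943582986156517373566535239821723868747165324737901043045176464302080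

/-- Look up the second column. -/
def tt (i : ℕ) : ℕ := tbl / 4096 ^ i % 4096

/-- The generators' codes. -/
def gens : List Lib.GL2Reg.Q := [(0, 10, 1, 0), (2, 4, 1, 8)]

theorem chk : Lib.GL2Reg.check 11 7 9 gens tt = true := by
  decide +kernel

instance fact_p : Fact (Nat.Prime 11) := ⟨by norm_num⟩


/-- An exceptional sharply doubly transitive group of degree 11^2: the listed matrices generate a subgroup of GL(2,11) of order 120 acting regularly on the non-zero vectors. -/
theorem result (A : Matrix.GeneralLinearGroup (Fin 2) (ZMod 11)) (B : Matrix.GeneralLinearGroup (Fin 2) (ZMod 11)) (hA : (A : Matrix (Fin 2) (Fin 2) (ZMod 11)) = !![0, -1; 1, 0]) (hB : (B : Matrix (Fin 2) (Fin 2) (ZMod 11)) = !![2, 4; 1, -3]) : Nat.card (Subgroup.closure ({A, B} : Set (Matrix.GeneralLinearGroup (Fin 2) (ZMod 11)))) = 120 ∧ ∀ v w : Fin 2 → ZMod 11, v ≠ 0 → w ≠ 0 → ∃! h : Subgroup.closure ({A, B} : Set (Matrix.GeneralLinearGroup (Fin 2) (ZMod 11))), Matrix.mulVec ((h : Matrix.GeneralLinearGroup (Fin 2) (ZMod 11)) : Matrix (Fin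 2) (Fin 2) (ZMod 11)) v = w := by
  have hm : ∀ (M : Matrix (Fin 2) (Fin 2) (ZMod 11)) (c : Lib.GL2Reg.Q), M 0 0 = (c.1 : ZMod 11) → M 0 1 = (c.2.1 : ZMod 11) →
      M 1 0 = (c.2.2.1 : ZMod 11) → M 1 1 = (c.2.2.2 : ZMod 11) → M = Lib.GL2Reg.dec 11 c := by
    intro M c h1 h2 h3 h4
    ext r s
    fin_cases r <;> fin_cases s <;> simp [Lib.GL2Reg.dec, h1, h2, h3, h4]
  have hA' : (A : Matrix (Fin 2) (Fin 2) (ZMod 11)) = Lib.GL2Reg.dec 11 (0, 10, 1, 0) := by
    apply hm <;> rw [hA] <;> decide +kernel
  have hB' : (B : Matrix (Fin 2) (Fin 2) (ZMod 11)) = Lib.GL2Reg.dec 11 (2, 4, 1, 8) := by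
    apply hm <;> rw [hB] <;> decide +kernel
  refine Lib.GL2Reg.main _ gens tt 7 9 120 ?_ ?_ chk (by norm_num)
  · rintro g hg
    simp only [Set.mem_insert_iff, Set.mem_singleton_iff] at hg
    rcases hg with rfl | rfl
    · exact ⟨_, by simp [gens], hA'⟩
    · exact ⟨_, by simp [gens], hB'⟩
  · intro c hc
    simp only [gens, List.mem_cons, List.not_mem_nil, or_false] at hc
    rcases hc with rfl | rfl
    · exact ⟨A, by simp, hA'⟩
    · exact ⟨B, by simp, hB'⟩

end Cfsg.Agent.S0692
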