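import Mathlib
import Cfsg.Statements.S0694

set_option autoImplicit false
open Cfsg
open Finset

namespace Cfsg.Agent.S0694

lemma modEq_one_iff (M z : ℕ) (hz : 1 ≤ z) : z ≡ 1 [MOD M] ↔ M ∣ z - 1 := by
  rw [Nat.ModEq.comm]
  exact Nat.modEq_iff_dvd' hz

lemma dvd_sub_one_iff_cast (N z : ℕ) (hz : 1 ≤ z) : N ∣ z - 1 ↔ (z : ZMod N) = 1 := by
  rw [← modEq_one_iff N z hz, ← Nat.cast_one (R := ZMod N), ZMod.natCast_eq_natCast_iff]

/-- The geometric sum. -/
lemma geom_eq (x i : ℕ) : (x + 1) ^ i - 1 = (∑ j ∈ range i, (x + 1) ^ j) * x := by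
  have := geom_sum_mul_add x i
  omega

lemma cast_geom {s x : ℕ} (hs : s ∣ x) (i : ℕ) : ((∑ j ∈ range i, (x + 1) ^ j : ℕ) : ZMod s) = i := by
  have h1 : (x : ZMod s) = 0 := (ZMod.natCast_eq_zero_iff x s).mpr hs
  push_cast
  rw [h1]
  simp

/-- Lifting out a power prime to `s` when `s` divides `x - 1`. -/
lemma dvd_of_pow_sub {s x r a : ℕ} (hs : s.Prime) (hx : 1 ≤ x) (hsx : s ∣ x - 1) (hsr : ¬ s ∣ r)
    (h : s ^ a ∣ x ^ r - 1) : s ^ a ∣ x - 1 := by
  obtain ⟨y, rfl⟩ : ∃ y, x = y + 1 := ⟨x - 1, by omega⟩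
  simp only [Nat.add_sub_cancel] at hsx ⊢
  rw [geom_eq] at h
  refine Nat.Coprime.dvd_of_dvd_mul_left ?_ h
  apply Nat.Coprime.pow_left
  rw [Nat.Prime.coprime_iff_not_dvd hs]
  intro hdvd
  have h1 := (ZMod.natCast_eq_zero_iff _ s).mpr hdvd
  rw [cast_geom hsx, ZMod.natCast_eq_zero_iff] at h1
  exact hsr h1

/-- Orders modulo a prime power. -/
lemma unit_pow {s a y e m : ℕ} (hs : s.Prime) (hsy : ¬ s ∣ y) (h : s ^ a ∣ y ^ e - 1) (hy : 1 ≤ y)
    (hg : Nat.gcd e (Nat.totient (s ^ a)) ∣ m) : s ^ a ∣ y ^ m - 1 := by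
  have hpos : ∀ k, 1 ≤ y ^ k := fun k => Nat.one_le_pow _ _ hy
  rw [dvd_sub_one_iff_cast _ _ (hpos _)] at h ⊢
  push_cast at h ⊢
  have hco : Nat.Coprime y (s ^ a) := by
    apply Nat.Coprime.pow_right
    rw [Nat.coprime_comm, Nat.Prime.coprime_iff_not_dvd hs]
    exact hsy
  have ht : (y : ZMod (s ^ a)) ^ Nat.totient (s ^ a) = 1 := by
    have := Nat.ModEq.pow_totient hco
    have h2 := (ZMod.natCast_eq_natCast_iff _ _ _).mpr this
    simpa using h2
  have hgcd := pow_gcd_eq_one.mpr ⟨h, ht⟩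
  obtain ⟨k, rfl⟩ := hg
  rw [pow_mul, hgcd, one_pow]

/-- Forward direction: valuations of geometric sums. -/
lemma val_geom {p x i : ℕ} [hp : Fact p.Prime] (hpx : p ∣ x) (hx : x ≠ 0) (hi : i ≠ 0)
    (hcase : p ≠ 2 ∨ (p = 2 ∧ 4 ∣ x)) :
    padicValNat p (∑ j ∈ range i, (x + 1) ^ j) = padicValNat p i := by
  have hg0 : (∑ j ∈ range i, (x + 1) ^ j) ≠ 0 := by
    intro h
    have h1 : ((x + 1) ^ i - 1) = 0 := by rw [geom_eq, h, zero_mul]
    have h2 : 1 < (x + 1) ^ i := Nat.one_lt_pow hi (by omega)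
    omega
  have hnd : ¬ p ∣ x + 1 := by
    intro h
    have := (Nat.dvd_add_right hpx).mp h
    exact hp.out.one_lt.ne' (Nat.dvd_one.mp this)
  have hmul : padicValNat p ((x + 1) ^ i - 1) =
      padicValNat p (∑ j ∈ range i, (x + 1) ^ j) + padicValNat p x := by
    rw [geom_eq, padicValNat.mul hg0 hx]
  rcases hcase with h2 | ⟨rfl, h4⟩
  · have hodd : Odd p := hp.out.odd_of_ne_two h2
    have h3 := padicValNat.pow_sub_pow (p := p) hodd (x := x + 1) (y := 1) (by omega)
      (by simpa using hpx) hnd hi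
    simp only [one_pow, Nat.add_sub_cancel] at h3
    omega
  · by_cases hev : Even i
    · have h3 := padicValNat.pow_two_sub_one (x := x + 1) (n := i) (by omega) hnd hi hev
      simp only [Nat.add_sub_cancel] at h3
      have h5 : padicValNat 2 (x + 1 + 1) = 1 := by
        obtain ⟨t, rfl⟩ := h4
        have h6 : 4 * t + 1 + 1 = 2 * (2 * t + 1) := by ring
        rw [h6, padicValNat.mul (by norm_num) (by omega), padicValNat_self,
          padicValNat.eq_zero_of_not_dvd (by omega)]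
      omega
    · have hiodd : ¬ 2 ∣ i := fun h => hev (even_iff_two_dvd.mpr h)
      rw [padicValNat.eq_zero_of_not_dvd hiodd]
      apply padicValNat.eq_zero_of_not_dvd
      intro h
      have h1 := (ZMod.natCast_eq_zero_iff _ 2).mpr h
      rw [cast_geom hpx, ZMod.natCast_eq_zero_iff] at h1
      exact hiodd h1

/-- The forward direction: the order of `q` modulo `n (q - 1)`. -/
lemma key_forward {x n : ℕ} (hx : x ≠ 0) (hn : n ≠ 0)
    (h1 : ∀ r : ℕ, r.Prime → r ∣ n → r ∣ x) (h4 : 4 ∣ n → 4 ∣ x) {i : ℕ} (hi : i ≠ 0) :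
    n ∣ ∑ j ∈ range i, (x + 1) ^ j ↔ n ∣ i := by
  have hg0 : (∑ j ∈ range i, (x + 1) ^ j) ≠ 0 := by
    intro h
    have h1 : ((x + 1) ^ i - 1) = 0 := by rw [geom_eq, h, zero_mul]
    have h2 : 1 < (x + 1) ^ i := Nat.one_lt_pow hi (by omega)
    omega
  rw [Nat.dvd_iff_prime_pow_dvd_dvd, Nat.dvd_iff_prime_pow_dvd_dvd]
  refine forall_congr' fun p => forall_congr' fun k => ?_
  refine forall_congr' fun hp => ?_
  apply imp_congr_right
  intro hpk
  haveI : Fact p.Prime := ⟨hp⟩
  rcases Nat.eq_zero_or_pos k with rfl | hk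
  · simp
  have hpn : p ∣ n := (dvd_pow_self p hk.ne').trans hpk
  have hpx := h1 p hp hpn
  by_cases hc : p ≠ 2 ∨ (p = 2 ∧ 4 ∣ x)
  · rw [padicValNat_dvd_iff_le hg0, padicValNat_dvd_iff_le hi, val_geom hpx hx hi hc]
  · push Not at hc
    obtain ⟨hp2, h4x⟩ := hc
    subst hp2
    have h4n : ¬ 4 ∣ n := fun h => h4x rfl (h4 h)
    have hk1 : k = 1 := by
      by_contra hne
      apply h4n
      have hk2 : 2 ≤ k := by omega
      exact (pow_dvd_pow 2 hk2).trans hpk
    subst hk1
    rw [pow_one]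
    rw [← ZMod.natCast_eq_zero_iff, cast_geom hpx, ZMod.natCast_eq_zero_iff]

/-- The Dickson pair condition: for a prime power `q` and `n > 1`, (every prime factor of `n` divides `q - 1`, and `4 ∣ n → 4 ∣ q - 1`) holds exactly when `q ^ n ≡ 1` modulo `n * (q - 1)` but `q ^ i` is not, for `0 < i < n`. -/
theorem result (q n : ℕ) (hq : IsPrimePow q) (hn : 1 < n) : ((∀ r : ℕ, r.Prime → r ∣ n → r ∣ q - 1) ∧ (4 ∣ n → 4 ∣ q - 1)) ↔ (q ^ n ≡ 1 [MOD n * (q - 1)] ∧ ∀ i : ℕ, 0 < i → i < n → ¬ q ^ i ≡ 1 [MOD n * (q - 1)]) := by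
  have hq2 : 2 ≤ q := hq.two_le
  obtain ⟨x, rfl⟩ : ∃ x, q = x + 1 := ⟨q - 1, by omega⟩
  have hx : x ≠ 0 := by omega
  simp only [Nat.add_sub_cancel]
  have hq1 : ∀ k, 1 ≤ (x + 1) ^ k := fun k => Nat.one_le_pow _ _ (by omega)
  have hM : ∀ k, (x + 1) ^ k ≡ 1 [MOD n * x] ↔ n * x ∣ (x + 1) ^ k - 1 :=
    fun k => modEq_one_iff _ _ (hq1 k)
  constructor
  · rintro ⟨h1, h4⟩
    have hkey : ∀ i, i ≠ 0 → ((x + 1) ^ i ≡ 1 [MOD n * x] ↔ n ∣ i) := by
      intro i hi
      rw [hM, geom_eq, Nat.mul_dvd_mul_iff_right (by omega)]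
      exact key_forward hx (by omega) h1 h4 hi
    refine ⟨(hkey n (by omega)).mpr dvd_rfl, fun i hi0 hin h => ?_⟩
    have := (hkey i hi0.ne').mp h
    exact absurd (Nat.le_of_dvd hi0 this) (by omega)
  · rintro ⟨h1, hmin⟩
    have hMd : n * x ∣ (x + 1) ^ n - 1 := (hM n).mp h1
    have hsq : ∀ s : ℕ, s.Prime → s ∣ n * x → ¬ s ∣ x + 1 := by
      intro s hs hsM hsq
      have h2 : s ∣ (x + 1) ^ n := hsq.trans (dvd_pow_self _ (by omega))
      have h3 : s ∣ (x + 1) ^ n - 1 := hsM.trans hMd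
      have h4 := (Nat.dvd_sub h2 h3)
      rw [Nat.sub_sub_self (hq1 n)] at h4
      exact hs.one_lt.ne' (Nat.dvd_one.mp h4)
    have hxm : ∀ m, x ∣ (x + 1) ^ m - 1 := by
      intro m
      rw [geom_eq]
      exact dvd_mul_left _ _
    have hprime : ∀ r : ℕ, r.Prime → r ∣ n → r ∣ x := by
      by_contra hcon
      push Not at hcon
      obtain ⟨r₀, hr₀, hr₀n, hr₀x⟩ := hcon
      let S := n.primeFactors.filter (fun s => ¬ s ∣ x)
      have hS : S.Nonempty := ⟨r₀, by
        simp only [S, Finset.mem_filter, Nat.mem_primeFactors]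
        exact ⟨⟨hr₀, hr₀n, by omega⟩, hr₀x⟩⟩
      let r := S.max' hS
      have hrS : r ∈ S := S.max'_mem hS
      simp only [S, Finset.mem_filter, Nat.mem_primeFactors] at hrS
      obtain ⟨⟨hr, hrn, -⟩, hrx⟩ := hrS
      have hmaxr : ∀ s : ℕ, s.Prime → s ∣ n → ¬ s ∣ x → s ≤ r := by
        intro s hs hsn hsx
        apply S.le_max'
        simp only [S, Finset.mem_filter, Nat.mem_primeFactors]
        exact ⟨⟨hs, hsn, by omega⟩, hsx⟩
      clear_value r
      obtain ⟨m, hm⟩ := hrn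
      have hm0 : 0 < m := by
        rcases Nat.eq_zero_or_pos m with rfl | h
        · simp at hm; omega
        · exact h
      have hmn : m < n := by
        rw [hm]
        have := hr.two_le
        nlinarith
      apply hmin m hm0 hmn
      rw [hM, Nat.dvd_iff_prime_pow_dvd_dvd]
      intro s a hs hsa
      rcases Nat.eq_zero_or_pos a with rfl | ha
      · simp
      have hsM : s ∣ n * x := (dvd_pow_self s ha.ne').trans hsa
      have hsnq := hsq s hs hsM
      have hsaq : s ^ a ∣ (x + 1) ^ n - 1 := hsa.trans hMd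
      by_cases hsx : s ∣ x
      · have hsr : s ≠ r := fun h => hrx (h ▸ hsx)
        have hndvd : ¬ s ∣ r := fun h => hsr ((Nat.prime_dvd_prime_iff_eq hs hr).mp h)
        refine dvd_of_pow_sub (r := r) hs (hq1 m) (hsx.trans (hxm m)) hndvd ?_
        rw [← pow_mul, mul_comm m r, ← hm]
        exact hsaq
      · have hsn : s ∣ n := (hs.dvd_mul.mp hsM).resolve_right hsx
        have hle := hmaxr s hs hsn hsx
        rcases hle.eq_or_lt with rfl | hlt
        · -- the prime `r` itself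
          have hcop : Nat.Coprime (s ^ a) x := by
            apply Nat.Coprime.pow_left
            rw [Nat.Prime.coprime_iff_not_dvd hs]
            exact hsx
          have hsan : s ^ a ∣ n := hcop.dvd_of_dvd_mul_right hsa
          obtain ⟨b, rfl⟩ : ∃ b, a = b + 1 := ⟨a - 1, by omega⟩
          have hm' : s ^ b ∣ m := by
            rw [hm, pow_succ'] at hsan
            exact Nat.dvd_of_mul_dvd_mul_left hs.pos hsan
          obtain ⟨m', rfl⟩ := hm'
          refine unit_pow hs hsnq hsaq (by omega) ?_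
          rw [Nat.totient_prime_pow_succ hs, hm]
          have h2 : s * (s ^ b * m') = s ^ b * (s * m') := by ring
          rw [h2, Nat.gcd_mul_left]
          apply Nat.mul_dvd_mul_left
          have hcop2 : Nat.Coprime s (s - 1) := by
            rw [Nat.Prime.coprime_iff_not_dvd hs]
            intro h
            have h2le := hs.two_le
            have := Nat.le_of_dvd (by omega) h
            omega
          rw [Nat.Coprime.gcd_mul_left_cancel _ hcop2]
          exact Nat.gcd_dvd_left _ _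
        · -- smaller primes
          have hco : Nat.gcd r (Nat.totient (s ^ a)) = 1 := by
            obtain ⟨b, rfl⟩ : ∃ b, a = b + 1 := ⟨a - 1, by omega⟩
            rw [Nat.totient_prime_pow_succ hs]
            apply Nat.Coprime.mul_right
            · apply Nat.Coprime.pow_right
              exact (Nat.coprime_primes hr hs).mpr (Ne.symm hlt.ne)
            · apply Nat.coprime_of_lt_prime (by have := hs.two_le; omega) (by omega) hr
          have h3 := unit_pow (m := 1) (e := r) (y := (x + 1) ^ m) hs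
            (fun h => hsnq (hs.dvd_of_dvd_pow h))
            (by rw [← pow_mul, mul_comm m r, ← hm]; exact hsaq) (hq1 m) (by rw [hco])
          rwa [pow_one] at h3
    refine ⟨hprime, fun h4n => ?_⟩
    by_contra h4x
    have h2n : 2 ∣ n := (by norm_num : 2 ∣ 4).trans h4n
    have h2x := hprime 2 Nat.prime_two h2n
    obtain ⟨c, hc⟩ := h2x
    have hcodd : ¬ 2 ∣ c := by
      intro h
      apply h4x
      obtain ⟨d, rfl⟩ := h
      exact ⟨d, by rw [hc]; ring⟩
    obtain ⟨m, hm⟩ := h2n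
    have hm0 : 0 < m := by omega
    have hmn : m < n := by omega
    have hmev : Even m := by
      rw [even_iff_two_dvd]
      omega
    apply hmin m hm0 hmn
    rw [hM, Nat.dvd_iff_prime_pow_dvd_dvd]
    intro s a hs hsa
    rcases Nat.eq_zero_or_pos a with rfl | ha
    · simp
    have hsM : s ∣ n * x := (dvd_pow_self s ha.ne').trans hsa
    by_cases hs2 : s = 2
    · subst hs2
      have hf : Fact (Nat.Prime 2) := ⟨Nat.prime_two⟩
      have hne : (x + 1) ^ m - 1 ≠ 0 := by
        have : 1 < (x + 1) ^ m := Nat.one_lt_pow (by omega) (by omega)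
        omega
      rw [padicValNat_dvd_iff_le hne]
      have hnx : n * x ≠ 0 := by
        apply Nat.mul_ne_zero <;> omega
      have h3 := (padicValNat_dvd_iff_le hnx).mp hsa
      have h5 : padicValNat 2 (n * x) = padicValNat 2 m + 2 := by
        rw [padicValNat.mul (by omega) hx, hm, padicValNat.mul (by norm_num) (by omega), hc,
          padicValNat.mul (by norm_num) (by omega), padicValNat_self,
          padicValNat.eq_zero_of_not_dvd hcodd]
        ring
      have h6 := padicValNat.pow_two_sub_one_ge (x := x + 1) (n := m) (by omega) (by omega) hm0.ne' hmev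
      omega
    · have hsx : s ∣ x := by
        rcases hs.dvd_mul.mp hsM with h | h
        · exact hprime s hs h
        · exact h
      have hnd : ¬ s ∣ 2 := fun h => hs2 ((Nat.prime_dvd_prime_iff_eq hs Nat.prime_two).mp h)
      refine dvd_of_pow_sub (r := 2) hs (hq1 m) (hsx.trans (hxm m)) hnd ?_
      rw [← pow_mul, mul_comm m 2, ← hm]
      exact hsa.trans hMd

end Cfsg.Agent.S0694
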