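import Mathlib
import Cfsg.Statements.S0699
import Cfsg.Agent.Lib.NormalTrans
import Cfsg.Agent.Lib.PermModule

set_option autoImplicit false
open Cfsg
open MulAction Cfsg.Agent.Lib.PermModule

namespace Cfsg.Agent.S0699

section sylow

variable {N : Type*} [Group N] [Finite N]

/-- Conjugacy of two subgroups of the same order in an ambient subgroup, when they are Sylow. -/
lemma sylow_conj_in {p : ℕ} [Fact p.Prime] (D P₁ P₂ : Subgroup N) (h₁ : P₁ ≤ D) (h₂ : P₂ ≤ D)
    (hp₁ : IsPGroup p P₁) (hp₂ : IsPGroup p P₂) (hc₁ : ¬ p ^ (Nat.factorization (Nat.card P₁) p + 1) ∣ Nat.card D)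
    (hcard : Nat.card P₁ = Nat.card P₂) :
    ∃ y ∈ D, ∀ x ∈ P₂, y⁻¹ * x * y ∈ P₁ := by
  have hp := (Fact.out : p.Prime)
  -- to subgroups of `D`
  have hmap : ∀ P : Subgroup N, P ≤ D → Nat.card (P.subgroupOf D) = Nat.card P := by
    intro P hP
    exact (Nat.card_congr (Subgroup.subgroupOfEquivOfLe hP).toEquiv)
  have hP₁ : IsPGroup p (P₁.subgroupOf D) := IsPGroup.of_card (n := Nat.factorization (Nat.card P₁) p) (by
    rw [hmap P₁ h₁]
    obtain ⟨n, hn⟩ := IsPGroup.iff_card.mp hp₁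
    rw [hn]
    simp [Nat.Prime.factorization_self hp, Nat.Prime.factorization hp])
  have hP₂ : IsPGroup p (P₂.subgroupOf D) := IsPGroup.of_card (n := Nat.factorization (Nat.card P₁) p) (by
    rw [hmap P₂ h₂, ← hcard]
    obtain ⟨n, hn⟩ := IsPGroup.iff_card.mp hp₁
    rw [hn]
    simp [Nat.Prime.factorization_self hp, Nat.Prime.factorization hp])
  have hidx : ∀ P : Subgroup N, P ≤ D → Nat.card P = Nat.card P₁ → ¬ p ∣ (P.subgroupOf D).index := by
    intro P hP hPc hdvd
    apply hc₁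
    have h1 := Subgroup.card_mul_index (P.subgroupOf D)
    rw [hmap P hP, hPc] at h1
    rw [← h1, pow_succ]
    apply mul_dvd_mul _ hdvd
    exact Nat.ordProj_dvd _ _
  let S₁ := hP₁.toSylow (hidx P₁ h₁ rfl)
  let S₂ := hP₂.toSylow (hidx P₂ h₂ hcard.symm)
  obtain ⟨y, hy⟩ := MulAction.exists_smul_eq D S₁ S₂
  refine ⟨y, y.2, fun x hx => ?_⟩
  have h1 : (⟨x, h₂ hx⟩ : D) ∈ (S₂ : Subgroup D) := by
    change (⟨x, h₂ hx⟩ : D) ∈ P₂.subgroupOf D
    exact hx
  rw [← hy, Sylow.coe_subgroup_smul, Subgroup.mem_pointwise_smul_iff_inv_smul_mem] at h1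
  have h2 : (MulAut.conj y)⁻¹ • (⟨x, h₂ hx⟩ : D) ∈ P₁.subgroupOf D := h1
  rw [Subgroup.mem_subgroupOf] at h2
  simpa [MulAut.smul_def, MulAut.conj_inv_apply] using h2

end sylow

section W

variable (N : Type*) [Group N] {X : Type*} [MulAction N X]

/-- Pointwise stabiliser of two points. -/
def RR (a b : X) : Subgroup N := stabilizer N a ⊓ stabilizer N b

/-- Setwise stabiliser of two points. -/
def DD (a b : X) : Subgroup N where
  carrier := {g | (g • a = a ∧ g • b = b) ∨ (g • a = b ∧ g • b = a)}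
  mul_mem' := by
    rintro g h (⟨h1, h2⟩ | ⟨h1, h2⟩) (⟨h3, h4⟩ | ⟨h3, h4⟩)
    · left; simp [mul_smul, *]
    · right; simp [mul_smul, *]
    · right; simp [mul_smul, *]
    · left; simp [mul_smul, *]
  one_mem' := Or.inl ⟨one_smul _ _, one_smul _ _⟩
  inv_mem' := by
    rintro g (⟨h1, h2⟩ | ⟨h1, h2⟩)
    · left; exact ⟨by rw [inv_smul_eq_iff, h1], by rw [inv_smul_eq_iff, h2]⟩
    · right; exact ⟨by rw [inv_smul_eq_iff, h2], by rw [inv_smul_eq_iff, h1]⟩

variable {N}

lemma mem_RR {a b : X} {g : N} : g ∈ RR N a b ↔ g • a = a ∧ g • b = b := Iff.rfl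

lemma mem_DD {a b : X} {g : N} :
    g ∈ DD N a b ↔ (g • a = a ∧ g • b = b) ∨ (g • a = b ∧ g • b = a) := Iff.rfl

lemma RR_le_DD {a b : X} : RR N a b ≤ DD N a b := fun _ h => Or.inl h

lemma card_of_swap [Finite N] {a b : X} (hab : a ≠ b) (A : Subgroup N) (hA : A ≤ DD N a b) {x : N}
    (hx : x ∈ A) (hxa : x • a = b) :
    Nat.card A = 2 * Nat.card ↥(A ⊓ RR N a b) := by
  have h1 := ncard_orbit_mul_card_stabilizer (G := A) a
  have h2 : orbit A a = {a, b} := by
    ext y
    constructor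
    · rintro ⟨⟨g, hg⟩, rfl⟩
      rcases hA hg with h | h
      · left; exact h.1
      · right; exact h.1
    · rintro (rfl | rfl)
      · exact mem_orbit_self _
      · exact ⟨⟨x, hx⟩, hxa⟩
  rw [h2, Set.ncard_pair hab] at h1
  have h3 : (stabilizer A a).map A.subtype = A ⊓ RR N a b := by
    ext g
    constructor
    · rintro ⟨⟨g, hg⟩, hgs, rfl⟩
      have hgs' : g • a = a := hgs
      refine ⟨hg, ?_⟩
      rcases hA hg with h | h
      · exact h
      · exact absurd (h.1.symm.trans hgs').symm hab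
    · rintro ⟨hg, hg2⟩
      exact ⟨⟨g, hg⟩, hg2.1, rfl⟩
  rw [← h1, ← h3]
  congr 1
  exact (Subgroup.card_map_of_injective A.subtype_injective).symm

theorem RR_transitive [Finite N] (h2 : ∀ {u v u' v' : X}, u ≠ v → u' ≠ v' → ∃ g : N, g • u = u' ∧ g • v = v')
    {a b : X} (hab : a ≠ b) (hT : ∀ c, c ≠ a → c ≠ b → ∃ x : N, x • c = c ∧ x • a = b ∧ x • b = a)
    (hO : ∀ c, c ≠ a → c ≠ b → ¬ 2 ∣ (orbit (RR N a b) c).ncard) :
    ∀ c d, c ≠ a → c ≠ b → d ≠ a → d ≠ b → ∃ r ∈ RR N a b, r • c = d := by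
  have hf2 : Fact (Nat.Prime 2) := ⟨Nat.prime_two⟩
  set R := RR N a b with hR
  set D := DD N a b with hD
  obtain ⟨Q⟩ : Nonempty (Sylow 2 R) := inferInstance
  let Qt : Subgroup N := (Q : Subgroup R).map R.subtype
  have hQtR : Qt ≤ R := by
    rintro _ ⟨q, _, rfl⟩
    exact q.2
  have hQcard : Nat.card Qt = Nat.card (Q : Subgroup R) :=
    Subgroup.card_map_of_injective R.subtype_injective
  have hQt2 : IsPGroup 2 Qt := by
    obtain ⟨n, hn⟩ := IsPGroup.iff_card.mp Q.isPGroup'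
    exact IsPGroup.of_card (n := n) (by rw [hQcard, hn])
  obtain ⟨e, he⟩ := IsPGroup.iff_card.mp hQt2
  have hRno : ¬ 2 ^ (e + 1) ∣ Nat.card R := by
    intro h
    have h1 := Q.pow_dvd_card_of_pow_dvd_card h
    rw [← hQcard, he] at h1
    have := (Nat.pow_dvd_pow_iff_le_right (by norm_num)).mp h1
    omega
  have hUno : ∀ u v : X, u ≠ v → ¬ 2 ^ (e + 1) ∣ Nat.card (RR N u v) := by
    intro u v huv
    obtain ⟨g, hg1, hg2⟩ := h2 hab huv
    have h3 : RR N u v = R.map (MulAut.conj g).toMonoidHom := by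
      ext z
      constructor
      · rintro ⟨hz1, hz2⟩
        refine ⟨g⁻¹ * z * g, ?_, by simp [mul_assoc]⟩
        constructor
        · change (g⁻¹ * z * g) • a = a
          have hz1' : z • u = u := hz1
          rw [mul_smul, mul_smul, hg1, hz1', ← hg1, inv_smul_smul]
        · change (g⁻¹ * z * g) • b = b
          have hz2' : z • v = v := hz2
          rw [mul_smul, mul_smul, hg2, hz2', ← hg2, inv_smul_smul]
      · rintro ⟨z', hz', rfl⟩
        have hz'1 : z' • a = a := hz'.1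
        have hz'2 : z' • b = b := hz'.2
        constructor
        · change (g * z' * g⁻¹) • u = u
          rw [← hg1]
          simp [mul_smul, hz'1]
        · change (g * z' * g⁻¹) • v = v
          rw [← hg2]
          simp [mul_smul, hz'2]
    rw [h3, Subgroup.card_map_of_injective (MulAut.conj g).injective]
    exact hRno
  -- the order of `D`
  obtain ⟨x₀, hx₀a, hx₀b⟩ := h2 hab hab.symm
  have hDcard : Nat.card D = 2 * Nat.card R := by
    have h1 := card_of_swap hab D le_rfl (x := x₀) (Or.inr ⟨hx₀a, hx₀b⟩) hx₀a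
    rw [inf_eq_right.mpr RR_le_DD] at h1
    exact h1
  have hDno : ¬ 2 ^ (e + 1 + 1) ∣ Nat.card D := by
    intro h
    rw [hDcard, pow_succ, mul_comm] at h
    exact hRno (Nat.dvd_of_mul_dvd_mul_left (by norm_num) h)
  -- the two-groups attached to a fixed point
  have hstep : ∀ c, c ≠ a → c ≠ b → (∀ q ∈ Qt, q • c = c) →
      ∃ P : Subgroup N, IsPGroup 2 P ∧ P ≤ D ∧ (∀ p ∈ P, p • c = c) ∧ (∃ x ∈ P, x • a = b ∧ x • b = a) ∧
        Nat.card P = 2 ^ (e + 1) := by
    intro c hca hcb hfix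
    obtain ⟨x, hxc, hxa, hxb⟩ := hT c hca hcb
    let A : Subgroup N := D ⊓ stabilizer N c
    have hxA : x ∈ A := ⟨Or.inr ⟨hxa, hxb⟩, hxc⟩
    have hAcard := card_of_swap hab A inf_le_left hxA hxa
    have hQtA : Qt ≤ A ⊓ R := by
      intro q hq
      exact ⟨⟨RR_le_DD (hQtR hq), hfix q hq⟩, hQtR hq⟩
    have hdvdA : 2 ^ (e + 1) ∣ Nat.card A := by
      rw [hAcard, pow_succ, mul_comm, ← he]
      exact mul_dvd_mul_left 2 (Subgroup.card_dvd_of_le hQtA)
    obtain ⟨S⟩ : Nonempty (Sylow 2 A) := inferInstance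
    have hS := S.pow_dvd_card_of_pow_dvd_card hdvdA
    let P : Subgroup N := (S : Subgroup A).map A.subtype
    have hPcard : Nat.card P = Nat.card (S : Subgroup A) :=
      Subgroup.card_map_of_injective A.subtype_injective
    have hP2 : IsPGroup 2 P := by
      obtain ⟨n, hn⟩ := IsPGroup.iff_card.mp S.isPGroup'
      exact IsPGroup.of_card (n := n) (by rw [hPcard, hn])
    have hPA : P ≤ A := by
      rintro _ ⟨s, _, rfl⟩
      exact s.2
    obtain ⟨f, hf⟩ := IsPGroup.iff_card.mp hP2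
    have hef : e + 1 ≤ f := by
      rw [← hPcard, hf] at hS
      exact (Nat.pow_dvd_pow_iff_le_right (by norm_num)).mp hS
    have hfe : f ≤ e + 1 := by
      by_contra hcon
      apply hDno
      have h1 : Nat.card P ∣ Nat.card D := Subgroup.card_dvd_of_le (hPA.trans inf_le_left)
      rw [hf] at h1
      exact (pow_dvd_pow 2 (by omega)).trans h1
    have hfeq : f = e + 1 := le_antisymm hfe hef
    refine ⟨P, hP2, hPA.trans inf_le_left, fun p hp => (hPA hp).2, ?_, by rw [hf, hfeq]⟩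
    -- `P` is not inside `R`
    by_contra hcon
    push Not at hcon
    have hPR : P ≤ R := by
      intro p hp
      rcases (hPA hp).1 with h | h
      · exact h
      · exact absurd h.2 (hcon p hp h.1)
    apply hRno
    have h1 : Nat.card P ∣ Nat.card R := Subgroup.card_dvd_of_le hPR
    rwa [hf, hfeq] at h1
  -- uniqueness of the fixed point
  have huniq : ∀ (P : Subgroup N) (c d : X), c ≠ d → (∀ p ∈ P, p • c = c) → (∀ p ∈ P, p • d = d) →
      Nat.card P = 2 ^ (e + 1) → False := by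
    intro P c d hcd h1 h3 h4
    apply hUno c d hcd
    rw [← h4]
    exact Subgroup.card_dvd_of_le (fun p hp => ⟨h1 p hp, h3 p hp⟩)
  -- transitivity on fixed points
  have hFP : ∀ c d, c ≠ a → c ≠ b → d ≠ a → d ≠ b → (∀ q ∈ Qt, q • c = c) → (∀ q ∈ Qt, q • d = d) →
      ∃ r ∈ R, r • c = d := by
    intro c d hca hcb hda hdb hfc hfd
    obtain ⟨P₁, hP₁2, hP₁D, hP₁c, -, hP₁card⟩ := hstep c hca hcb hfc
    obtain ⟨P₂, hP₂2, hP₂D, hP₂d, ⟨x₂, hx₂, hx₂a, hx₂b⟩, hP₂card⟩ := hstep d hda hdb hfd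
    have hfac : Nat.factorization (Nat.card P₁) 2 = e + 1 := by
      rw [hP₁card]
      simp [Nat.Prime.factorization Nat.prime_two]
    obtain ⟨y, hyD, hy⟩ := sylow_conj_in D P₁ P₂ hP₁D hP₂D hP₁2 hP₂2 (by rw [hfac]; exact hDno)
      (by rw [hP₁card, hP₂card])
    have hyc : y • c = d := by
      by_contra hne
      apply huniq P₂ (y • c) d hne _ hP₂d hP₂card
      intro p hp
      have h1 := hP₁c _ (hy p hp)
      have h3 : p • (y • c) = y • ((y⁻¹ * p * y) • c) := by
        simp [mul_smul]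
      rw [h3, h1]
    rcases hyD with h | h
    · exact ⟨y, h, hyc⟩
    · refine ⟨x₂ * y, ⟨?_, ?_⟩, ?_⟩
      · change (x₂ * y) • a = a
        rw [mul_smul, h.1, hx₂b]
      · change (x₂ * y) • b = b
        rw [mul_smul, h.2, hx₂a]
      · rw [mul_smul, hyc]
        exact hP₂d x₂ hx₂
  -- fixed points in every orbit
  have hmove : ∀ c, c ≠ a → c ≠ b → ∃ r ∈ R, (r • c ≠ a ∧ r • c ≠ b) ∧ ∀ q ∈ Qt, q • (r • c) = r • c := by
    intro c hca hcb
    have hnd : ¬ 2 ∣ Nat.card (orbit R c) := by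
      rw [Nat.card_coe_set_eq]
      exact hO c hca hcb
    obtain ⟨⟨z, hz⟩, hzfix⟩ := Q.isPGroup'.nonempty_fixed_point_of_prime_not_dvd_card (orbit R c) hnd
    obtain ⟨⟨r, hr⟩, rfl⟩ := hz
    refine ⟨r, hr, ⟨?_, ?_⟩, ?_⟩
    · intro h
      apply hca
      have h1 : r • a = a := hr.1
      apply MulAction.injective r
      change r • c = r • a
      rw [h1]
      exact h
    · intro h
      apply hcb
      have h1 : r • b = b := hr.2
      apply MulAction.injective r
      change r • c = r • b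
      rw [h1]
      exact h
    · rintro _ ⟨q, hq, rfl⟩
      have := hzfix ⟨q, hq⟩
      exact congrArg Subtype.val this
  intro c d hca hcb hda hdb
  obtain ⟨r₁, hr₁, ⟨h1, h3⟩, h4⟩ := hmove c hca hcb
  obtain ⟨r₂, hr₂, ⟨h5, h6⟩, h7⟩ := hmove d hda hdb
  obtain ⟨r, hr, hrc⟩ := hFP _ _ h1 h3 h5 h6 h4 h7
  refine ⟨r₂⁻¹ * r * r₁, R.mul_mem (R.mul_mem (R.inv_mem hr₂) hr) hr₁, ?_⟩
  rw [mul_smul, mul_smul, hrc, inv_smul_smul]

end W

section main

variable {G : Type*} [Group G] [Finite G] {X : Type*} [Fintype X] [MulAction G X]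

lemma three_trans_elim (hG : IsMultiplyPretransitive G X 3) {a b c a' b' c' : X}
    (h1 : a ≠ b) (h2 : a ≠ c) (h3 : b ≠ c) (h1' : a' ≠ b') (h2' : a' ≠ c') (h3' : b' ≠ c') :
    ∃ g : G, g • a = a' ∧ g • b = b' ∧ g • c = c' := by
  let x : Fin 3 ↪ X := ⟨![a, b, c], by
    intro i j hij
    fin_cases i <;> fin_cases j <;> simp_all⟩
  let y : Fin 3 ↪ X := ⟨![a', b', c'], by
    intro i j hij
    fin_cases i <;> fin_cases j <;> simp_all⟩
  obtain ⟨g, hg⟩ := hG.exists_smul_eq x y
  refine ⟨g, ?_, ?_, ?_⟩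
  · exact congrArg (fun f : Fin 3 ↪ X => f 0) hg
  · exact congrArg (fun f : Fin 3 ↪ X => f 1) hg
  · exact congrArg (fun f : Fin 3 ↪ X => f 2) hg

/-- Some 2-element interchanges two given points and has a fixed point. -/
lemma exists_swap_fix {N : Type*} [Group N] [Finite N] [MulAction N X] (hodd : Odd (Fintype.card X))
    {a b : X} {x₀ : N} (hxa : x₀ • a = b) (hxb : x₀ • b = a) :
    ∃ x : N, ∃ c : X, x • c = c ∧ x • a = b ∧ x • b = a := by
  classical
  have hf2 : Fact (Nat.Prime 2) := ⟨Nat.prime_two⟩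
  have hord : orderOf x₀ ≠ 0 := (orderOf_pos x₀).ne'
  obtain ⟨i, m, hm, hi⟩ := Nat.exists_eq_two_pow_mul_odd hord
  obtain ⟨j, hj⟩ := hm
  have heven : ∀ k : ℕ, x₀ ^ (2 * k) • a = a ∧ x₀ ^ (2 * k) • b = b := by
    intro k
    induction k with
    | zero => simp
    | succ k ih =>
      have h2 : 2 * (k + 1) = 2 * k + 1 + 1 := by ring
      constructor
      · rw [h2, pow_succ, pow_succ, mul_smul, mul_smul, hxa, hxb, ih.1]
      · rw [h2, pow_succ, pow_succ, mul_smul, mul_smul, hxb, hxa, ih.2]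
  let x := x₀ ^ m
  have hxa' : x • a = b := by
    change x₀ ^ m • a = b
    rw [hj, pow_succ, mul_smul, hxa, (heven j).2]
  have hxb' : x • b = a := by
    change x₀ ^ m • b = a
    rw [hj, pow_succ, mul_smul, hxb, (heven j).1]
  have hpow : (toPermHom N X x) ^ 2 ^ i = 1 := by
    rw [← map_pow]
    have : x ^ 2 ^ i = 1 := by
      change (x₀ ^ m) ^ 2 ^ i = 1
      rw [← pow_mul, mul_comm, ← hi, pow_orderOf_eq_one]
    rw [this, map_one]
  have hndvd : ¬ 2 ∣ Fintype.card X := by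
    rw [← even_iff_two_dvd]
    exact Nat.not_even_iff_odd.mpr hodd
  obtain ⟨c, hc⟩ := Equiv.Perm.exists_fixed_point_of_prime hndvd hpow
  exact ⟨x, c, hc, hxa', hxb'⟩

end main

/-- Wagner's Theorem: a non-trivial normal subgroup of a triply transitive permutation group of odd degree at least 5 is triply transitive. -/
theorem result {α : Type*} [Fintype α] [DecidableEq α] (G : Subgroup (Equiv.Perm α)) (hodd : Odd (Fintype.card α)) (h5 : 5 ≤ Fintype.card α) (hG : MulAction.IsMultiplyPretransitive G α 3) (N : Subgroup G) [N.Normal] (hN : N ≠ ⊥) : MulAction.IsMultiplyPretransitive N α 3 := by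
  have h2N : IsMultiplyPretransitive N α 2 := by
    rcases Cfsg.Agent.Lib.NormalTrans.main_trans 1 G α (by rw [Nat.card_eq_fintype_card]; omega) hG N hN with
      h | ⟨_, _, hsq⟩
    · exact h
    · exfalso
      have hG2 : IsMultiplyPretransitive G α 2 :=
        isMultiplyPretransitive_of_le (n := 3) (by norm_num) (by rw [Nat.card_eq_fintype_card]; omega)
      have hprim : IsPreprimitive G α := isPreprimitive_of_is_two_pretransitive hG2
      have htr : IsPretransitive N α := Cfsg.Agent.Lib.NormalTrans.pretransitive_of_normal N hN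
      have hP : IsPGroup 2 N := by
        intro n
        refine ⟨1, ?_⟩
        apply Subtype.ext
        simpa using hsq n n.2
      obtain ⟨j, hj⟩ := IsPGroup.iff_card.mp hP
      have ha : Nonempty α := by
        apply Fintype.card_pos_iff.mp
        omega
      obtain ⟨a⟩ := ha
      have h1 := ncard_orbit_mul_card_stabilizer (G := N) a
      rw [orbit_eq_univ, Set.ncard_univ, Nat.card_eq_fintype_card, hj] at h1
      have h3 : Fintype.card α ∣ 2 ^ j := Dvd.intro _ h1
      obtain ⟨i, _, hi2⟩ := (Nat.dvd_prime_pow Nat.prime_two).mp h3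
      rcases Nat.eq_zero_or_pos i with hi | hi
      · subst hi
        simp at hi2
        omega
      · rw [hi2] at hodd
        exact (Nat.not_even_iff_odd.mpr hodd) (Nat.even_pow.mpr ⟨even_two, hi.ne'⟩)
  have h2' : ∀ {u v u' v' : α}, u ≠ v → u' ≠ v' → ∃ g : N, g • u = u' ∧ g • v = v' :=
    fun h1 h3 => is_two_pretransitive_iff.mp h2N h1 h3
  have hT : ∀ a b c : α, a ≠ b → c ≠ a → c ≠ b → ∃ x : N, x • c = c ∧ x • a = b ∧ x • b = a := by
    intro a b c hab hca hcb
    obtain ⟨x₀, hx₀a, hx₀b⟩ := h2' hab hab.symm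
    obtain ⟨x, c₀, hc₀, hxa, hxb⟩ := exists_swap_fix hodd hx₀a hx₀b
    have hc₀a : a ≠ c₀ := by
      rintro rfl
      exact hab (hc₀.symm.trans hxa)
    have hc₀b : b ≠ c₀ := by
      rintro rfl
      exact hab.symm (hc₀.symm.trans hxb)
    obtain ⟨g, hg1, hg2, hg3⟩ := three_trans_elim hG hab hc₀a hc₀b hab hca.symm hcb.symm
    refine ⟨⟨g * (x : G) * g⁻¹, Subgroup.Normal.conj_mem inferInstance _ x.2 g⟩, ?_, ?_, ?_⟩
    · change (g * (x : G) * g⁻¹) • c = c
      rw [← hg3, mul_smul, mul_smul, inv_smul_smul]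
      congr 1
    · change (g * (x : G) * g⁻¹) • a = b
      rw [← hg1, ← hg2, mul_smul, mul_smul, inv_smul_smul]
      congr 1
    · change (g * (x : G) * g⁻¹) • b = a
      rw [← hg1, ← hg2, mul_smul, mul_smul, inv_smul_smul]
      congr 1
  have hO : ∀ a b c : α, a ≠ b → c ≠ a → c ≠ b → ¬ 2 ∣ (orbit (RR N a b) c).ncard := by
    intro a b c hab hca hcb
    let s : Set α := {a, b}
    let K := fixingSubgroup G s
    let Δ := SubMulAction.ofFixingSubgroup G s
    let M : Subgroup K := N.subgroupOf K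
    have hmemK : ∀ g : G, g • a = a → g • b = b → g ∈ K := by
      intro g h1 h3
      rw [mem_fixingSubgroup_iff]
      rintro y (rfl | rfl)
      · exact h1
      · exact h3
    have hKtr : IsPretransitive K Δ := by
      refine ⟨fun u v => ?_⟩
      have hu : (u : α) ∉ s := u.2
      have hv : (v : α) ∉ s := v.2
      have hu1 : a ≠ (u : α) := fun h => hu (Or.inl h.symm)
      have hu2 : b ≠ (u : α) := fun h => hu (Or.inr h.symm)
      have hv1 : a ≠ (v : α) := fun h => hv (Or.inl h.symm)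
      have hv2 : b ≠ (v : α) := fun h => hv (Or.inr h.symm)
      obtain ⟨g, hg1, hg2, hg3⟩ := three_trans_elim hG hab hu1 hu2 hab hv1 hv2
      exact ⟨⟨g, hmemK g hg1 hg2⟩, Subtype.ext hg3⟩
    let c' : Δ := ⟨c, by
      intro h
      rcases h with h | h
      · exact hca h
      · exact hcb h⟩
    have hblock : IsBlock K (orbit M c') := IsBlock.orbit_of_normal c'
    have hdvd := hblock.ncard_dvd_card ⟨c', mem_orbit_self _⟩
    have horb : orbit (RR N a b) c = Subtype.val '' orbit M c' := by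
      ext z
      constructor
      · rintro ⟨⟨r, hr⟩, rfl⟩
        have hr1 : r • a = a := hr.1
        have hr2 : r • b = b := hr.2
        exact ⟨_, ⟨⟨⟨(r : G), hmemK _ hr1 hr2⟩, r.2⟩, rfl⟩, rfl⟩
      · rintro ⟨_, ⟨m, rfl⟩, rfl⟩
        have hm := (mem_fixingSubgroup_iff G).mp m.1.2
        have hm1 := hm a (Or.inl rfl)
        have hm2 := hm b (Or.inr rfl)
        exact ⟨⟨⟨((m : K) : G), m.2⟩, ⟨hm1, hm2⟩⟩, rfl⟩
    rw [horb, Set.ncard_image_of_injective _ Subtype.val_injective]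
    intro h2
    have hcardΔ : Nat.card Δ = (sᶜ : Set α).ncard := by
      rw [← Nat.card_coe_set_eq]
      rfl
    have h3 := Set.ncard_add_ncard_compl s
    rw [Set.ncard_pair hab, Nat.card_eq_fintype_card, ← hcardΔ] at h3
    have h4 := h2.trans hdvd
    obtain ⟨k, hk⟩ := hodd
    omega
  refine ⟨fun x y => ?_⟩
  have h01x : x 0 ≠ x 1 := x.injective.ne (by decide)
  have h02x : x 0 ≠ x 2 := x.injective.ne (by decide)
  have h12x : x 1 ≠ x 2 := x.injective.ne (by decide)
  have h01y : y 0 ≠ y 1 := y.injective.ne (by decide)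
  have h02y : y 0 ≠ y 2 := y.injective.ne (by decide)
  have h12y : y 1 ≠ y 2 := y.injective.ne (by decide)
  obtain ⟨g, hg0, hg1⟩ := h2' h01x h01y
  have hne0 : g • x 2 ≠ y 0 := by
    rw [← hg0]
    exact (MulAction.injective g).ne h02x.symm
  have hne1 : g • x 2 ≠ y 1 := by
    rw [← hg1]
    exact (MulAction.injective g).ne h12x.symm
  obtain ⟨r, hr, hrc⟩ := RR_transitive h2' h01y (fun c h1 h3 => hT _ _ c h01y h1 h3)
    (fun c h1 h3 => hO _ _ c h01y h1 h3) (g • x 2) (y 2) hne0 hne1 h02y.symm h12y.symm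
  refine ⟨r * g, ?_⟩
  ext i
  rw [Function.Embedding.smul_apply]
  fin_cases i
  · change (r * g) • x 0 = y 0
    rw [mul_smul, hg0]
    exact hr.1
  · change (r * g) • x 1 = y 1
    rw [mul_smul, hg1]
    exact hr.2
  · change (r * g) • x 2 = y 2
    rw [mul_smul, hrc]

end Cfsg.Agent.S0699
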