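import Mathlib
import Cfsg.Statements.S0700
import Cfsg.Agent.Lib.NormalTrans
import Cfsg.Agent.Lib.ZassCore

set_option autoImplicit false
open Cfsg
open MulAction
open scoped Pointwise

namespace Cfsg.Agent.S0700

variable {G : Type*} [Group G] {X : Type*} [MulAction G X]

/-- The regular case: a regular minimal normal subgroup of a doubly transitive group is
elementary abelian. -/
theorem regular_case [Finite G] [FaithfulSMul G X]
    (h2 : ∀ {u v u' v' : X}, u ≠ v → u' ≠ v' → ∃ g : G, g • u = u' ∧ g • v = v')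
    (N : Subgroup G) [hNn : N.Normal] (hN : N ≠ ⊥)
    (hreg : ∀ a : X, stabilizer N a = ⊥) :
    IsMulCommutative N ∧ ∃ p : ℕ, p.Prime ∧ ∀ n ∈ N, n ^ p = 1 := by
  classical
  obtain ⟨x₀, hx₀⟩ := Subgroup.ne_bot_iff_exists_ne_one.mp hN
  have hne : Nonempty X := by
    by_contra hcon
    rw [not_nonempty_iff] at hcon
    apply hx₀
    apply Subtype.ext
    apply FaithfulSMul.eq_of_smul_eq_smul (α := X)
    intro x
    exact (hcon.false x).elim
  obtain ⟨a⟩ := hne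
  have huniq : ∀ {m n : G}, m ∈ N → n ∈ N → m • a = n • a → m = n := fun hm hn h =>
    Cfsg.Agent.S0695.eq_of_smul_eq (hreg a) hm hn h
  have hmove : ∀ {m : G}, m ∈ N → m ≠ 1 → a ≠ m • a := by
    intro m hm hm1 h
    exact hm1 (huniq hm N.one_mem (by rw [one_smul]; exact h.symm))
  have hconj : ∀ {m n : G}, m ∈ N → n ∈ N → m ≠ 1 → n ≠ 1 → ∃ g : G, g * m * g⁻¹ = n := by
    intro m n hm hn hm1 hn1
    obtain ⟨g, hg1, hg2⟩ := h2 (hmove hm hm1) (hmove hn hn1)
    refine ⟨g, huniq (hNn.conj_mem m hm g) hn ?_⟩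
    have h3 : g⁻¹ • a = a := by
      rw [inv_smul_eq_iff]
      exact hg1.symm
    rw [mul_smul, mul_smul, h3, hg2]
  -- the prime
  have hcard1 : Nat.card N ≠ 1 := by
    intro h
    have := (Nat.card_eq_one_iff_unique.mp h).1
    exact hx₀ (Subsingleton.elim _ _)
  let p := (Nat.card N).minFac
  have hp : p.Prime := Nat.minFac_prime hcard1
  haveI : Fact p.Prime := ⟨hp⟩
  obtain ⟨y, hy⟩ := exists_prime_orderOf_dvd_card' (G := N) p (Nat.minFac_dvd _)
  have hy1 : (y : G) ≠ 1 := by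
    intro h
    have h1 : y = 1 := Subtype.ext h
    rw [h1, orderOf_one] at hy
    exact hp.one_lt.ne hy
  have hyp : (y : G) ^ p = 1 := by
    have := pow_orderOf_eq_one y
    rw [hy] at this
    exact congrArg Subtype.val this
  have hexp : ∀ n ∈ N, n ^ p = 1 := by
    intro n hn
    by_cases hn1 : n = 1
    · rw [hn1, one_pow]
    · obtain ⟨g, hg⟩ := hconj y.2 hn hy1 hn1
      rw [← hg, conj_pow, hyp]
      simp
  refine ⟨?_, p, hp, hexp⟩
  -- commutativity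
  have hP : IsPGroup p N := by
    intro n
    refine ⟨1, ?_⟩
    apply Subtype.ext
    simpa using hexp n n.2
  haveI : Nontrivial N := ⟨⟨x₀, 1, hx₀⟩⟩
  have hcen : Nontrivial (Subgroup.center N) := hP.center_nontrivial
  obtain ⟨z, hz⟩ := exists_ne (1 : Subgroup.center N)
  have hz1 : ((z : N) : G) ≠ 1 := by
    intro h
    apply hz
    apply Subtype.ext
    apply Subtype.ext
    exact h
  have hzcomm : ∀ m ∈ N, ((z : N) : G) * m = m * ((z : N) : G) := by
    intro m hm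
    have := (Subgroup.mem_center_iff.mp z.2 ⟨m, hm⟩).symm
    exact congrArg Subtype.val this
  have hcentral : ∀ n ∈ N, ∀ m ∈ N, n * m = m * n := by
    intro n hn m hm
    by_cases hn1 : n = 1
    · simp [hn1]
    · obtain ⟨g, hg⟩ := hconj (z : N).2 hn hz1 hn1
      have h1 := hzcomm (g⁻¹ * m * g) (by
        have := hNn.conj_mem m hm g⁻¹
        simpa using this)
      rw [← hg]
      calc g * ((z : N) : G) * g⁻¹ * m = g * (((z : N) : G) * (g⁻¹ * m * g)) * g⁻¹ := by group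
        _ = g * ((g⁻¹ * m * g) * ((z : N) : G)) * g⁻¹ := by rw [h1]
        _ = m * (g * ((z : N) : G) * g⁻¹) := by group
  exact ⟨⟨fun a b => Subtype.ext (hcentral a a.2 b b.2)⟩⟩

/-- The elementary form of a block. -/
def Blk (N : Subgroup G) (S : Set X) : Prop := ∀ n ∈ N, ∀ x ∈ S, n • x ∈ S → ∀ y ∈ S, n • y ∈ S

lemma Blk.smul {N : Subgroup G} [hN : N.Normal] {S : Set X} (h : Blk N S) (g : G) : Blk N (g • S) := by
  intro n hn x hx hnx y hy
  rw [Set.mem_smul_set_iff_inv_smul_mem] at hx hnx hy ⊢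
  have h1 : g⁻¹ * n * g ∈ N := by
    have := hN.conj_mem n hn g⁻¹
    simpa using this
  have h2 := h _ h1 _ hx (by simpa [mul_smul] using hnx) _ hy
  simpa [mul_smul] using h2

lemma Blk.inter {N : Subgroup G} {S S' : Set X} (h : Blk N S) (h' : Blk N S') : Blk N (S ∩ S') :=
  fun n hn x hx hnx y hy => ⟨h n hn x hx.1 hnx.1 y hy.1, h' n hn x hx.2 hnx.2 y hy.2⟩

lemma Blk.of_isBlock [Finite X] {N : Subgroup G} {S : Set X} (h : IsBlock N S) : Blk N S := by
  intro n hn x hx hnx y hy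
  have h1 := h.smul_eq_of_mem (g := (⟨n, hn⟩ : N)) hx hnx
  have h2 : (⟨n, hn⟩ : N) • y ∈ (⟨n, hn⟩ : N) • S := Set.smul_mem_smul_set hy
  rw [h1] at h2
  exact h2

/-- A proper block of a transitive normal subgroup of a doubly transitive group makes two-point
stabilisers trivial. -/
theorem free_of_imprimitive [Finite X] [FaithfulSMul G X]
    (h2 : ∀ {u v u' v' : X}, u ≠ v → u' ≠ v' → ∃ g : G, g • u = u' ∧ g • v = v')
    (N : Subgroup G) [hNn : N.Normal] {B : Set X} (hB : Blk N B) (hB1 : ¬ B.Subsingleton)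
    (hB2 : B ≠ Set.univ) :
    ∀ n ∈ N, ∀ x y : X, x ≠ y → n • x = x → n • y = y → n = 1 := by
  classical
  -- a minimal block
  let P : Set X → Prop := fun S => Blk N S ∧ ¬ S.Subsingleton ∧ S ≠ Set.univ
  have hex : ∃ m, ∃ S, P S ∧ S.ncard = m := ⟨_, B, ⟨hB, hB1, hB2⟩, rfl⟩
  obtain ⟨S, hPS, hSm⟩ := Nat.find_spec hex
  have hmin : ∀ S', P S' → S.ncard ≤ S'.ncard := fun S' h => by
    rw [hSm]
    exact Nat.find_min' hex ⟨S', h, rfl⟩
  obtain ⟨hSb, hSn, hSu⟩ := hPS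
  obtain ⟨a, ha, b, hb, hab⟩ := Set.not_subsingleton_iff.mp hSn
  -- lines
  let IsLine : Set X → Prop := fun ℓ => ∃ g : G, ℓ = g • S
  have hlineb : ∀ ℓ, IsLine ℓ → Blk N ℓ := by
    rintro ℓ ⟨g, rfl⟩
    exact hSb.smul g
  have hlinec : ∀ ℓ, IsLine ℓ → ℓ.ncard = S.ncard := by
    rintro ℓ ⟨g, rfl⟩
    exact Set.ncard_smul_set g S
  have hlineu : ∀ ℓ, IsLine ℓ → ℓ ≠ Set.univ := by
    rintro ℓ ⟨g, rfl⟩ h
    apply hSu
    have h3 : S = g⁻¹ • (g • S) := by simp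
    rw [h3, h]
    simp
  have hL1 : ∀ u v : X, u ≠ v → ∃ ℓ, IsLine ℓ ∧ u ∈ ℓ ∧ v ∈ ℓ := by
    intro u v huv
    obtain ⟨g, hg1, hg2⟩ := h2 hab huv
    refine ⟨g • S, ⟨g, rfl⟩, ?_, ?_⟩
    · rw [← hg1]; exact Set.smul_mem_smul_set ha
    · rw [← hg2]; exact Set.smul_mem_smul_set hb
  have hL2 : ∀ ℓ ℓ', IsLine ℓ → IsLine ℓ' → ∀ u v : X, u ≠ v → u ∈ ℓ → u ∈ ℓ' → v ∈ ℓ → v ∈ ℓ' → ℓ = ℓ' := by
    intro ℓ ℓ' hℓ hℓ' u v huv hu hu' hv hv'
    have hP' : P (ℓ ∩ ℓ') := by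
      refine ⟨(hlineb ℓ hℓ).inter (hlineb ℓ' hℓ'), ?_, ?_⟩
      · rw [Set.not_subsingleton_iff]
        exact ⟨u, ⟨hu, hu'⟩, v, ⟨hv, hv'⟩, huv⟩
      · intro h
        apply hlineu ℓ hℓ
        rw [Set.eq_univ_iff_forall] at h ⊢
        exact fun x => (h x).1
    have h3 := hmin _ hP'
    have h4 : ℓ ∩ ℓ' = ℓ := Set.eq_of_subset_of_ncard_le Set.inter_subset_left
      (by rw [hlinec ℓ hℓ]; exact h3)
    have h5 : ℓ ∩ ℓ' = ℓ' := Set.eq_of_subset_of_ncard_le Set.inter_subset_right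
      (by rw [hlinec ℓ' hℓ']; exact h3)
    exact h4.symm.trans h5
  have hL3 : ∀ ℓ, IsLine ℓ → ∀ n ∈ N, ∀ x ∈ ℓ, n • x = x → ∀ y ∈ ℓ, n • y ∈ ℓ := by
    intro ℓ hℓ n hn x hx hnx y hy
    exact hlineb ℓ hℓ n hn x hx (by rw [hnx]; exact hx) y hy
  intro n hn x y hxy hnx hny
  obtain ⟨ℓ₀, hℓ₀, hxℓ₀, hyℓ₀⟩ := hL1 x y hxy
  obtain ⟨z, hz⟩ : ∃ z, z ∉ ℓ₀ := by
    by_contra hcon
    push Not at hcon
    exact hlineu ℓ₀ hℓ₀ (Set.eq_univ_iff_forall.mpr hcon)
  have hoff : ∀ w, w ∉ ℓ₀ → n • w = w := by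
    intro w hw
    by_contra hne
    have hxw : x ≠ w := fun h => hw (h ▸ hxℓ₀)
    have hyw : y ≠ w := fun h => hw (h ▸ hyℓ₀)
    obtain ⟨ℓ₁, hℓ₁, hx1, hw1⟩ := hL1 x w hxw
    obtain ⟨ℓ₂, hℓ₂, hy2, hw2⟩ := hL1 y w hyw
    have h3 := hL3 ℓ₁ hℓ₁ n hn x hx1 hnx w hw1
    have h4 := hL3 ℓ₂ hℓ₂ n hn y hy2 hny w hw2
    have h5 : ℓ₁ = ℓ₂ := hL2 ℓ₁ ℓ₂ hℓ₁ hℓ₂ w (n • w) (Ne.symm hne) hw1 hw2 h3 h4
    have h6 : ℓ₀ = ℓ₁ := hL2 ℓ₀ ℓ₁ hℓ₀ hℓ₁ x y hxy hxℓ₀ hx1 hyℓ₀ (h5 ▸ hy2)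
    exact hw (h6 ▸ hw1)
  apply FaithfulSMul.eq_of_smul_eq_smul (α := X)
  intro w
  rw [one_smul]
  by_cases hw : w ∈ ℓ₀
  · by_contra hne
    have hzw : z ≠ w := fun h => hz (h ▸ hw)
    obtain ⟨ℓ₃, hℓ₃, hz3, hw3⟩ := hL1 z w hzw
    have h3 := hL3 ℓ₀ hℓ₀ n hn x hxℓ₀ hnx w hw
    have h4 := hL3 ℓ₃ hℓ₃ n hn z hz3 (hoff z hz) w hw3
    have h5 : ℓ₀ = ℓ₃ := hL2 ℓ₀ ℓ₃ hℓ₀ hℓ₃ w (n • w) (Ne.symm hne) hw hw3 h3 h4
    exact hz (h5 ▸ hz3)
  · exact hoff w hw

/-- The imprimitive case is impossible for a minimal normal subgroup with non-trivial stabilisers. -/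
theorem primitive_of_nonregular [Finite G] [Finite X] [FaithfulSMul G X]
    (h2 : ∀ {u v u' v' : X}, u ≠ v → u' ≠ v' → ∃ g : G, g • u = u' ∧ g • v = v')
    (N : Subgroup G) [hNn : N.Normal]
    (hmin : ∀ M : Subgroup G, M.Normal → M ≤ N → M = ⊥ ∨ M = N)
    [htr : IsPretransitive N X] {a : X} (ha : stabilizer N a ≠ ⊥) : IsPreprimitive N X := by
  classical
  by_contra hnp
  obtain ⟨B, hB, hB1, hB2⟩ : ∃ B, IsBlock N B ∧ ¬ B.Subsingleton ∧ B ≠ Set.univ := by
    by_contra hno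
    push Not at hno
    apply hnp
    refine ⟨fun {B} hB => ?_⟩
    by_cases h : B.Subsingleton
    · exact Or.inl h
    · exact Or.inr (hno B hB (Set.not_subsingleton_iff.mp h))
  have hfree := free_of_imprimitive h2 N (Blk.of_isBlock hB) hB1 hB2
  -- a second point
  obtain ⟨b, hb⟩ : ∃ b, b ≠ a := by
    by_contra hcon
    push Not at hcon
    apply hB1
    intro x _ y _
    rw [hcon x, hcon y]
  obtain ⟨R, hRn, hRmem, hRreg⟩ := Cfsg.Agent.Lib.ZassCore.exists_regular_kernel (A := N) (X := X)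
    (fun g x y hg h3 h4 => by
      by_contra hxy
      apply hg
      apply Subtype.ext
      exact hfree g g.2 x y hxy h3 h4) a b (Ne.symm hb) ha
  have hRt : (R.map N.subtype).Normal := by
    refine ⟨fun r hr g => ?_⟩
    obtain ⟨r', hr', rfl⟩ := hr
    have hconjN : g * (r' : G) * g⁻¹ ∈ N := hNn.conj_mem _ r'.2 g
    refine ⟨⟨_, hconjN⟩, ?_, rfl⟩
    rw [SetLike.mem_coe, hRmem]
    rcases (hRmem r').mp hr' with h | h
    · left
      apply Subtype.ext
      simp [h]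
    · right
      intro x hx
      apply h (g⁻¹ • x)
      have h3 : (g * (r' : G) * g⁻¹) • x = x := hx
      have h4 : (r' : G) • (g⁻¹ • x) = g⁻¹ • x := by
        rw [eq_inv_smul_iff, ← mul_smul, ← mul_smul] 
        simpa [mul_smul] using h3
      exact h4
  rcases hmin _ hRt (by
    rintro _ ⟨r, _, rfl⟩
    exact r.2) with h | h
  · -- trivial kernel
    obtain ⟨r, hr, _⟩ := hRreg a b
    apply hb
    have h3 : ((r : N) : G) ∈ R.map N.subtype := ⟨r, r.2, rfl⟩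
    rw [h, Subgroup.mem_bot] at h3
    have h4 : (r : N) • a = b := hr
    rw [← h4]
    change ((r : N) : G) • a = a
    rw [h3, one_smul]
  · obtain ⟨n, hn⟩ := Subgroup.ne_bot_iff_exists_ne_one.mp ha
    have h3 : (((n : stabilizer N a) : N) : G) ∈ R.map N.subtype := by
      rw [h]
      exact ((n : stabilizer N a) : N).2
    obtain ⟨r, hr, hr2⟩ := h3
    have hrn : r = (n : stabilizer N a) := Subtype.ext hr2
    rw [hrn] at hr
    rcases (hRmem _).mp hr with h4 | h4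
    · apply hn
      exact Subtype.ext h4
    · exact h4 a n.2

/-- A non-normal minimal normal subgroup of the transitive normal subgroup cannot exist. -/
theorem no_proper_minimal [Finite G] [Finite X] [FaithfulSMul G X]
    (h2 : ∀ {u v u' v' : X}, u ≠ v → u' ≠ v' → ∃ g : G, g • u = u' ∧ g • v = v')
    (N T : Subgroup G) [hNn : N.Normal] (hTN : T ≤ N) (hTne : T ≠ ⊥)
    (hTnn : ∀ n ∈ N, ∀ t ∈ T, n * t * n⁻¹ ∈ T)
    (hTmin : ∀ M ≤ T, (∀ n ∈ N, ∀ m ∈ M, n * m * n⁻¹ ∈ M) → M = ⊥ ∨ M = T)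
    (hnn : ¬ T.Normal) (htr : ∀ x y : X, ∃ t ∈ T, t • x = y) : False := by
  classical
  let Tg : G → Subgroup G := fun g => T.map (MulAut.conj g).toMonoidHom
  have hTgmem : ∀ g s, s ∈ Tg g ↔ ∃ t ∈ T, g * t * g⁻¹ = s := by
    intro g s
    simp [Tg, Subgroup.mem_map]
  have hTgcard : ∀ g, Nat.card (Tg g) = Nat.card T := fun g =>
    Subgroup.card_map_of_injective (MulAut.conj g).injective
  have hTgN : ∀ g, Tg g ≤ N := by
    intro g s hs
    obtain ⟨t, ht, rfl⟩ := (hTgmem g s).mp hs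
    exact hNn.conj_mem t (hTN ht) g
  have hTgnn : ∀ g, ∀ n ∈ N, ∀ s ∈ Tg g, n * s * n⁻¹ ∈ Tg g := by
    intro g n hn s hs
    obtain ⟨t, ht, rfl⟩ := (hTgmem g s).mp hs
    refine (hTgmem g _).mpr ⟨(g⁻¹ * n * g) * t * (g⁻¹ * n * g)⁻¹, hTnn _ ?_ t ht, by group⟩
    have := hNn.conj_mem n hn g⁻¹
    simpa using this
  have hcase : ∀ g, Tg g = T ∨ ∀ t ∈ T, ∀ s ∈ Tg g, t * s = s * t := by
    intro g
    rcases hTmin (T ⊓ Tg g) inf_le_left (fun n hn m hm =>
      ⟨hTnn n hn m hm.1, hTgnn g n hn m hm.2⟩) with h | h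
    · right
      intro t ht s hs
      have hc : t * s * t⁻¹ * s⁻¹ ∈ T ⊓ Tg g := by
        constructor
        · have h1 := hTnn s (hTgN g hs) t⁻¹ (T.inv_mem ht)
          have h3 := T.mul_mem ht h1
          have h4 : t * s * t⁻¹ * s⁻¹ = t * (s * t⁻¹ * s⁻¹) := by group
          change t * s * t⁻¹ * s⁻¹ ∈ T
          rw [h4]
          exact h3
        · exact (Tg g).mul_mem (hTgnn g t (hTN ht) s hs) ((Tg g).inv_mem hs)
      rw [h, Subgroup.mem_bot] at hc
      have h3 : t * s * t⁻¹ * s⁻¹ = 1 := hc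
      calc t * s = (t * s * t⁻¹ * s⁻¹) * (s * t) := by group
        _ = s * t := by rw [h3, one_mul]
    · left
      have hle : T ≤ Tg g := by
        rw [← h]
        exact inf_le_right
      exact (Subgroup.eq_of_le_of_card_ge hle (hTgcard g).le).symm
  obtain ⟨g₀, hg₀⟩ : ∃ g, Tg g ≠ T := by
    by_contra hcon
    push Not at hcon
    apply hnn
    refine ⟨fun t ht g => ?_⟩
    rw [← hcon g]
    exact (hTgmem g _).mpr ⟨t, ht, rfl⟩
  have hcomm₀ := (hcase g₀).resolve_left hg₀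
  have htrg : ∀ g, ∀ x y : X, ∃ s ∈ Tg g, s • x = y := by
    intro g x y
    obtain ⟨t, ht, hty⟩ := htr (g⁻¹ • x) (g⁻¹ • y)
    refine ⟨g * t * g⁻¹, (hTgmem g _).mpr ⟨t, ht, rfl⟩, ?_⟩
    rw [mul_smul, mul_smul, hty, smul_inv_smul]
  have hsemi : ∀ t ∈ T, ∀ x : X, t • x = x → t = 1 := by
    intro t ht x hx
    apply FaithfulSMul.eq_of_smul_eq_smul (α := X)
    intro y
    obtain ⟨s, hs, rfl⟩ := htrg g₀ x y
    rw [one_smul, ← mul_smul, hcomm₀ t ht s hs, mul_smul, hx]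
  -- the prime
  obtain ⟨x₀, hx₀⟩ := Subgroup.ne_bot_iff_exists_ne_one.mp hTne
  have hcard1 : Nat.card T ≠ 1 := by
    intro h
    have := (Nat.card_eq_one_iff_unique.mp h).1
    exact hx₀ (Subsingleton.elim _ _)
  let p := (Nat.card T).minFac
  have hp : p.Prime := Nat.minFac_prime hcard1
  have hfp : Fact p.Prime := ⟨hp⟩
  obtain ⟨y, hy⟩ := exists_prime_orderOf_dvd_card' (G := T) p (Nat.minFac_dvd _)
  have hy1 : (y : G) ≠ 1 := by
    intro h
    have h1 : y = 1 := Subtype.ext h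
    rw [h1, orderOf_one] at hy
    exact hp.one_lt.ne hy
  have hyp : (y : G) ^ p = 1 := by
    have := pow_orderOf_eq_one y
    rw [hy] at this
    exact congrArg Subtype.val this
  obtain ⟨a⟩ : Nonempty X := by
    by_contra hcon
    rw [not_nonempty_iff] at hcon
    apply hy1
    apply FaithfulSMul.eq_of_smul_eq_smul (α := X)
    intro x
    exact (hcon.false x).elim
  have hmove : ∀ t ∈ T, t ≠ 1 → a ≠ t • a := by
    intro t ht ht1 h
    exact ht1 (hsemi t ht a h.symm)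
  have hexp : ∀ t ∈ T, t ^ p = 1 := by
    intro t ht
    by_cases ht1 : t = 1
    · rw [ht1, one_pow]
    obtain ⟨g, hg1, hg2⟩ := h2 (hmove y y.2 hy1) (hmove t ht ht1)
    have hga : g⁻¹ • a = a := by
      rw [inv_smul_eq_iff]
      exact hg1.symm
    set τ := g * (y : G) * g⁻¹ with hτ
    have hτa : τ • a = t • a := by
      rw [hτ, mul_smul, mul_smul, hga, hg2]
    have hτp : τ ^ p = 1 := by
      rw [hτ, conj_pow, hyp]
      simp
    have hτmem : τ ∈ Tg g := (hTgmem g _).mpr ⟨y, y.2, rfl⟩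
    rcases hcase g with h | h
    · have hτT : τ ∈ T := h ▸ hτmem
      have h3 : t⁻¹ * τ = 1 := hsemi _ (T.mul_mem (T.inv_mem ht) hτT) a (by
        rw [mul_smul, hτa, inv_smul_smul])
      have h4 : τ = t := by
        rw [inv_mul_eq_one] at h3
        exact h3.symm
      rw [← h4, hτp]
    · have hpow : ∀ k : ℕ, τ ^ k • a = t ^ k • a := by
        intro k
        induction k with
        | zero => simp
        | succ k ih =>
          rw [pow_succ, mul_smul, hτa, ← mul_smul, ← h t ht _ ((Tg g).pow_mem hτmem k), mul_smul, ih,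
            ← mul_smul, ← pow_succ']
      apply hsemi _ (T.pow_mem ht p) a
      rw [← hpow, hτp, one_smul]
  -- a central element
  have hP : IsPGroup p T := by
    intro n
    refine ⟨1, ?_⟩
    apply Subtype.ext
    simpa using hexp n n.2
  have hnt : Nontrivial T := ⟨⟨x₀, 1, hx₀⟩⟩
  have hcen : Nontrivial (Subgroup.center T) := hP.center_nontrivial
  obtain ⟨z, hz⟩ := exists_ne (1 : Subgroup.center T)
  have hz1 : ((z : T) : G) ≠ 1 := by
    intro h
    apply hz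
    apply Subtype.ext
    apply Subtype.ext
    exact h
  have hzcomm : ∀ m ∈ T, ((z : T) : G) * m = m * ((z : T) : G) := by
    intro m hm
    have := (Subgroup.mem_center_iff.mp z.2 ⟨m, hm⟩).symm
    exact congrArg Subtype.val this
  let Z : Subgroup G := T ⊓ Subgroup.centralizer (T : Set G)
  have hzZ : ((z : T) : G) ∈ Z := ⟨(z : T).2, by
    refine Subgroup.mem_centralizer_iff.mpr ?_
    intro h hh
    exact (hzcomm h hh).symm⟩
  have hZT : Z = T := by
    rcases hTmin Z inf_le_left (fun n hn m hm => ⟨hTnn n hn m hm.1, by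
      refine Subgroup.mem_centralizer_iff.mpr ?_
      intro t ht
      have h3 : n⁻¹ * t * n ∈ T := by
        have := hTnn n⁻¹ (N.inv_mem hn) t ht
        simpa using this
      have h4 := (Subgroup.mem_centralizer_iff.mp hm.2) _ h3
      calc t * (n * m * n⁻¹) = n * ((n⁻¹ * t * n) * m) * n⁻¹ := by group
        _ = n * (m * (n⁻¹ * t * n)) * n⁻¹ := by rw [h4]
        _ = n * m * n⁻¹ * t := by group⟩) with h | h
    · rw [h, Subgroup.mem_bot] at hzZ
      exact absurd hzZ hz1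
    · exact h
  have hab : ∀ t ∈ T, ∀ t' ∈ T, t * t' = t' * t := by
    intro t ht t' ht'
    rw [← hZT] at ht'
    exact (Subgroup.mem_centralizer_iff.mp ht'.2 t ht)
  apply hg₀
  apply Subgroup.eq_of_le_of_card_ge _ (hTgcard g₀).ge
  intro s hs
  obtain ⟨t, ht, hts⟩ := htr a (s • a)
  have h3 : t⁻¹ * s = 1 := by
    apply FaithfulSMul.eq_of_smul_eq_smul (α := X)
    intro w
    obtain ⟨t', ht', rfl⟩ := htr a w
    have h4 : (t⁻¹ * s) * t' = t' * (t⁻¹ * s) := by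
      rw [mul_assoc, ← hcomm₀ t' ht' s hs, ← mul_assoc, ← mul_assoc,
        hab t⁻¹ (T.inv_mem ht) t' ht']
    rw [← mul_smul, h4, mul_smul, mul_smul, ← hts, inv_smul_smul, one_smul]
  have h4 : s = t := by
    rw [inv_mul_eq_one] at h3
    exact h3.symm
  rw [h4]
  exact ht

/-- Burnside's Theorem on doubly transitive groups: a minimal normal subgroup of a finite doubly transitive permutation group is elementary abelian and regular, or simple and primitive. -/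
theorem result {α : Type*} [Fintype α] [DecidableEq α] (G : Subgroup (Equiv.Perm α)) (hG : MulAction.IsMultiplyPretransitive G α 2) (N : Subgroup G) [N.Normal] (hN : N ≠ ⊥) (hmin : ∀ M : Subgroup G, M.Normal → M ≤ N → M = ⊥ ∨ M = N) : (IsMulCommutative N ∧ (∃ p : ℕ, p.Prime ∧ ∀ n ∈ N, n ^ p = 1) ∧ ∀ a : α, MulAction.stabilizer N a = ⊥) ∨ (IsSimpleGroup N ∧ MulAction.IsPreprimitive N α) := by
  classical
  have h2 : ∀ {u v u' v' : α}, u ≠ v → u' ≠ v' → ∃ g : G, g • u = u' ∧ g • v = v' :=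
    fun h1 h3 => is_two_pretransitive_iff.mp hG h1 h3
  have hprimG : IsPreprimitive G α := isPreprimitive_of_is_two_pretransitive hG
  have htr : IsPretransitive N α := Cfsg.Agent.Lib.NormalTrans.pretransitive_of_normal N hN
  by_cases hreg : ∀ a : α, stabilizer N a = ⊥
  · obtain ⟨h1, h3⟩ := regular_case h2 N hN hreg
    exact Or.inl ⟨h1, h3, hreg⟩
  right
  push Not at hreg
  obtain ⟨a, ha⟩ := hreg
  have hprim : IsPreprimitive N α := primitive_of_nonregular h2 N hmin ha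
  refine ⟨?_, hprim⟩
  obtain ⟨x₀, hx₀⟩ := Subgroup.ne_bot_iff_exists_ne_one.mp hN
  have hnt : Nontrivial N := ⟨⟨x₀, 1, hx₀⟩⟩
  refine ⟨fun U hU => ?_⟩
  by_contra hcon
  rw [not_or] at hcon
  obtain ⟨hU1, hU2⟩ := hcon
  -- a minimal normal subgroup inside `U`
  let P : Subgroup N → Prop := fun V => V.Normal ∧ V ≠ ⊥ ∧ V ≤ U
  have hex : ∃ m, ∃ V, P V ∧ Nat.card V = m := ⟨_, U, ⟨hU, hU1, le_rfl⟩, rfl⟩
  obtain ⟨V, ⟨hV1, hV2, hV3⟩, hVm⟩ := Nat.find_spec hex
  have hVmin : ∀ V', P V' → Nat.card V ≤ Nat.card V' := fun V' h => by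
    rw [hVm]
    exact Nat.find_min' hex ⟨V', h, rfl⟩
  let T : Subgroup G := V.map N.subtype
  have hTmem : ∀ t, t ∈ T ↔ ∃ h : t ∈ N, (⟨t, h⟩ : N) ∈ V := by
    intro t
    constructor
    · rintro ⟨v, hv, rfl⟩
      exact ⟨v.2, hv⟩
    · rintro ⟨h, hv⟩
      exact ⟨_, hv, rfl⟩
  have hTN : T ≤ N := by
    rintro _ ⟨v, _, rfl⟩
    exact v.2
  refine no_proper_minimal (X := α) h2 N T hTN ?_ ?_ ?_ ?_ ?_
  · intro h
    apply hV2
    rw [eq_bot_iff]
    intro v hv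
    have : (v : G) ∈ T := ⟨v, hv, rfl⟩
    rw [h, Subgroup.mem_bot] at this
    exact Subgroup.mem_bot.mpr (Subtype.ext this)
  · rintro n hn _ ⟨v, hv, rfl⟩
    exact ⟨_, hV1.conj_mem v hv ⟨n, hn⟩, rfl⟩
  · intro M hMT hMn
    let V' : Subgroup N := M.subgroupOf N
    have hV' : V'.Normal := by
      refine ⟨fun m hm n => ?_⟩
      exact hMn n n.2 m hm
    have hV'le : V' ≤ V := by
      intro m hm
      obtain ⟨h, hv⟩ := (hTmem m).mp (hMT hm)
      exact hv
    by_cases hbot : V' = ⊥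
    · left
      rw [eq_bot_iff]
      intro m hm
      have hmN : m ∈ N := hTN (hMT hm)
      have : (⟨m, hmN⟩ : N) ∈ V' := hm
      rw [hbot, Subgroup.mem_bot] at this
      exact Subgroup.mem_bot.mpr (congrArg Subtype.val this)
    · right
      have hc := hVmin V' ⟨hV', hbot, hV'le.trans hV3⟩
      have heq : V' = V := Subgroup.eq_of_le_of_card_ge hV'le hc
      apply le_antisymm hMT
      intro t ht
      obtain ⟨h, hv⟩ := (hTmem t).mp ht
      rw [← heq] at hv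
      exact hv
  · intro hTn
    rcases hmin T hTn hTN with h | h
    · apply hV2
      rw [eq_bot_iff]
      intro v hv
      have : (v : G) ∈ T := ⟨v, hv, rfl⟩
      rw [h, Subgroup.mem_bot] at this
      exact Subgroup.mem_bot.mpr (Subtype.ext this)
    · apply hU2
      rw [eq_top_iff]
      intro n _
      have hn : (n : G) ∈ T := by
        rw [h]
        exact n.2
      obtain ⟨_, hv⟩ := (hTmem _).mp hn
      exact hV3 hv
  · intro x y
    have htrV : IsPretransitive V α := Cfsg.Agent.Lib.NormalTrans.pretransitive_of_normal V hV2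
    obtain ⟨v, hv⟩ := htrV.exists_smul_eq x y
    exact ⟨_, ⟨v, v.2, rfl⟩, hv⟩

end Cfsg.Agent.S0700
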