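import Mathlib
import Cfsg.Statements.S0701

set_option autoImplicit false
open Cfsg

namespace Cfsg.Agent.S0701

/-- The centraliser in the full symmetric group of a transitive permutation group `G` is semiregular, and it is transitive if and only if `G` is regular. -/
theorem result {α : Type*} (G : Subgroup (Equiv.Perm α)) [MulAction.IsPretransitive G α] : (∀ c ∈ Subgroup.centralizer (G : Set (Equiv.Perm α)), ∀ a : α, c a = a → c = 1) ∧ (MulAction.IsPretransitive (Subgroup.centralizer (G : Set (Equiv.Perm α))) α ↔ ∀ a : α, MulAction.stabilizer G a = ⊥) := by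
  have hcomm : ∀ c ∈ Subgroup.centralizer (G : Set (Equiv.Perm α)), ∀ g ∈ G, ∀ x : α, c (g x) = g (c x) := by
    intro c hc g hg x
    have := Subgroup.mem_centralizer_iff.mp hc g hg
    have h2 : (g * c) x = (c * g) x := by rw [this]
    simpa using h2.symm
  have hsemi : ∀ c ∈ Subgroup.centralizer (G : Set (Equiv.Perm α)), ∀ a : α, c a = a → c = 1 := by
    intro c hc a ha
    ext x
    obtain ⟨g, hg⟩ := MulAction.exists_smul_eq G a x
    have hg' : (g : Equiv.Perm α) a = x := hg
    rw [← hg', hcomm c hc g g.2, ha]
    rfl
  refine ⟨hsemi, ?_, ?_⟩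
  · intro htrans a
    rw [eq_bot_iff]
    intro g hg
    have hg' : (g : Equiv.Perm α) a = a := hg
    have : (g : Equiv.Perm α) = 1 := by
      ext x
      obtain ⟨c, hc⟩ := htrans.exists_smul_eq a x
      have hc' : (c : Equiv.Perm α) a = x := hc
      rw [← hc']
      have := hcomm c c.2 g g.2 a
      rw [hg'] at this
      simpa using this.symm
    exact Subgroup.mem_bot.mpr (Subtype.ext this)
  · intro hreg
    classical
    -- uniqueness of group element carrying a to b
    have huniq : ∀ (a : α) (g h : G), (g : Equiv.Perm α) a = (h : Equiv.Perm α) a → g = h := by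
      intro a g h hgh
      have : h⁻¹ * g ∈ MulAction.stabilizer G a := by
        change (h⁻¹ * g) • a = a
        rw [mul_smul, inv_smul_eq_iff]
        exact hgh
      rw [hreg a, Subgroup.mem_bot] at this
      exact (inv_mul_eq_one.mp this).symm
    constructor
    intro a b
    -- define c (g a) = g b
    choose f hf using (fun x => MulAction.exists_smul_eq G a x)
    have hf' : ∀ x, (f x : Equiv.Perm α) a = x := hf
    have hfg : ∀ (g : G), f ((g : Equiv.Perm α) a) = g := fun g => huniq a _ _ (hf' _)
    let cfun : α → α := fun x => (f x : Equiv.Perm α) b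
    let dfun : α → α := fun x => (f x : Equiv.Perm α)⁻¹ a
    -- inverse: x ↦ g⁻¹ a where g b = x  -- construct via choice again
    choose f' hf2 using (fun x => MulAction.exists_smul_eq G b x)
    have hf2' : ∀ x, (f' x : Equiv.Perm α) b = x := hf2
    have hfg' : ∀ (g : G), f' ((g : Equiv.Perm α) b) = g := fun g => huniq b _ _ (hf2' _)
    let c : Equiv.Perm α :=
      { toFun := fun x => (f x : Equiv.Perm α) b
        invFun := fun x => (f' x : Equiv.Perm α) a
        left_inv := by
          intro x
          change (f' ((f x : Equiv.Perm α) b) : Equiv.Perm α) a = x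
          rw [hfg', hf']
        right_inv := by
          intro x
          change (f ((f' x : Equiv.Perm α) a) : Equiv.Perm α) b = x
          rw [hfg, hf2'] }
    have hcapp : ∀ (g : G), c ((g : Equiv.Perm α) a) = (g : Equiv.Perm α) b := by
      intro g
      change (f ((g : Equiv.Perm α) a) : Equiv.Perm α) b = _
      rw [hfg]
    have hcc : c ∈ Subgroup.centralizer (G : Set (Equiv.Perm α)) := by
      rw [Subgroup.mem_centralizer_iff]
      intro g hg
      ext x
      obtain ⟨h, hh⟩ := MulAction.exists_smul_eq G a x
      have hh' : (h : Equiv.Perm α) a = x := hh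
      subst hh'
      change g (c ((h : Equiv.Perm α) a)) = c (g ((h : Equiv.Perm α) a))
      rw [hcapp]
      have : g ((h : Equiv.Perm α) a) = (((⟨g, hg⟩ : G) * h : G) : Equiv.Perm α) a := rfl
      rw [this, hcapp]
      rfl
    refine ⟨⟨c, hcc⟩, ?_⟩
    change c a = b
    have := hcapp 1
    simpa using this

end Cfsg.Agent.S0701
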