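import Mathlib
import Cfsg.Statements.S0702

set_option autoImplicit false
open Cfsg

namespace Cfsg.Agent.S0702

variable {α : Type*} (G : Subgroup (Equiv.Perm α)) [MulAction.IsPretransitive G α] (a : α)

/-- key construction -/
lemma exists_c (n : G) (hn : n ∈ Subgroup.normalizer ((MulAction.stabilizer G a : Subgroup G) : Set G)) :
    ∃ c : Equiv.Perm α, c ∈ Subgroup.centralizer (G : Set (Equiv.Perm α)) ∧
      ∀ g : G, c ((g : Equiv.Perm α) a) = ((g * n⁻¹ : G) : Equiv.Perm α) a := by
  classical
  choose f hf using (fun x => MulAction.exists_smul_eq G a x)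
  have hf' : ∀ x, (f x : Equiv.Perm α) a = x := hf
  have hnmem : ∀ m ∈ Subgroup.normalizer ((MulAction.stabilizer G a : Subgroup G) : Set G),
      ∀ g : G, (f ((g : Equiv.Perm α) a) : Equiv.Perm α) ((m : Equiv.Perm α) a) = ((g * m : G) : Equiv.Perm α) a := by
    intro m hm g
    have hs : g⁻¹ * f ((g : Equiv.Perm α) a) ∈ MulAction.stabilizer G a := by
      change (g⁻¹ * f ((g : Equiv.Perm α) a)) • a = a
      rw [mul_smul, inv_smul_eq_iff]
      exact hf' _
    have h1 : m⁻¹ * (g⁻¹ * f ((g : Equiv.Perm α) a)) * m ∈ MulAction.stabilizer G a := by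
      have hm' := Subgroup.mem_normalizer_iff.mp (Subgroup.inv_mem _ hm)
      have := (hm' _).mp hs
      simpa using this
    have h2 : (m⁻¹ * (g⁻¹ * f ((g : Equiv.Perm α) a)) * m) • a = a := h1
    have h3 : (f ((g : Equiv.Perm α) a) * m) • a = (g * m) • a := by
      have : f ((g : Equiv.Perm α) a) * m = (g * m) * (m⁻¹ * (g⁻¹ * f ((g : Equiv.Perm α) a)) * m) := by group
      rw [this, mul_smul, h2]
    exact h3
  let c : Equiv.Perm α :=
    { toFun := fun x => (f x : Equiv.Perm α) (((n⁻¹ : G) : Equiv.Perm α) a)
      invFun := fun x => (f x : Equiv.Perm α) (((n : G) : Equiv.Perm α) a)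
      left_inv := by
        intro x
        have h1 := hnmem n⁻¹ (Subgroup.inv_mem _ hn) (f x)
        rw [hf'] at h1
        change (f ((f x : Equiv.Perm α) (((n⁻¹ : G) : Equiv.Perm α) a)) : Equiv.Perm α) (((n : G) : Equiv.Perm α) a) = x
        rw [h1]
        have h2 := hnmem n hn (f x * n⁻¹)
        rw [h2]
        simp [hf']
      right_inv := by
        intro x
        have h1 := hnmem n hn (f x)
        rw [hf'] at h1
        change (f ((f x : Equiv.Perm α) (((n : G) : Equiv.Perm α) a)) : Equiv.Perm α) (((n⁻¹ : G) : Equiv.Perm α) a) = x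
        rw [h1]
        have h2 := hnmem n⁻¹ (Subgroup.inv_mem _ hn) (f x * n)
        rw [h2]
        simp [hf'] }
  have hcapp : ∀ g : G, c ((g : Equiv.Perm α) a) = ((g * n⁻¹ : G) : Equiv.Perm α) a := by
    intro g
    change (f ((g : Equiv.Perm α) a) : Equiv.Perm α) (((n⁻¹ : G) : Equiv.Perm α) a) = _
    exact hnmem n⁻¹ (Subgroup.inv_mem _ hn) g
  refine ⟨c, ?_, hcapp⟩
  rw [Subgroup.mem_centralizer_iff]
  intro g hg
  ext x
  obtain ⟨h, hh⟩ := MulAction.exists_smul_eq G a x
  have hh' : (h : Equiv.Perm α) a = x := hh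
  subst hh'
  change g (c ((h : Equiv.Perm α) a)) = c (g ((h : Equiv.Perm α) a))
  rw [hcapp]
  have : g ((h : Equiv.Perm α) a) = (((⟨g, hg⟩ : G) * h : G) : Equiv.Perm α) a := rfl
  rw [this, hcapp]
  rfl

lemma comm_apply {c : Equiv.Perm α} (hc : c ∈ Subgroup.centralizer (G : Set (Equiv.Perm α)))
    (g : G) (x : α) : c ((g : Equiv.Perm α) x) = (g : Equiv.Perm α) (c x) := by
  have := Subgroup.mem_centralizer_iff.mp hc (g : Equiv.Perm α) g.2
  have h2 : ((g : Equiv.Perm α) * c) x = (c * (g : Equiv.Perm α)) x := by rw [this]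
  simpa using h2.symm

lemma semireg {c : Equiv.Perm α} (hc : c ∈ Subgroup.centralizer (G : Set (Equiv.Perm α))) {a : α}
    (ha : c a = a) : c = 1 := by
  ext x
  obtain ⟨g, hg⟩ := MulAction.exists_smul_eq G a x
  have hg' : (g : Equiv.Perm α) a = x := hg
  rw [← hg', comm_apply G hc, ha]
  rfl

lemma mem_normalizer_of_fixed [Finite α] (h : G)
    (hfix : ∀ s ∈ MulAction.stabilizer G a, s • (h • a) = h • a) :
    h ∈ Subgroup.normalizer ((MulAction.stabilizer G a : Subgroup G) : Set G) := by
  classical
  -- `h⁻¹ S h ≤ S`, and finiteness gives equality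
  have hle : ∀ s ∈ MulAction.stabilizer G a, h⁻¹ * s * h ∈ MulAction.stabilizer G a := by
    intro s hs
    change (h⁻¹ * s * h) • a = a
    rw [mul_smul, mul_smul, inv_smul_eq_iff]
    exact hfix s hs
  have : Finite G := inferInstance
  have hmap : (MulAction.stabilizer G a).map (MulAut.conj h⁻¹).toMonoidHom ≤ MulAction.stabilizer G a := by
    rintro _ ⟨s, hs, rfl⟩
    simpa [MulAut.conj_apply] using hle s hs
  have hcard : Nat.card ((MulAction.stabilizer G a).map (MulAut.conj h⁻¹).toMonoidHom) = Nat.card (MulAction.stabilizer G a) :=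
    Subgroup.card_map_of_injective (MulAut.conj h⁻¹).injective
  have heq : (MulAction.stabilizer G a).map (MulAut.conj h⁻¹).toMonoidHom = MulAction.stabilizer G a :=
    Subgroup.eq_of_le_of_card_ge hmap hcard.ge
  rw [Subgroup.mem_normalizer_iff]
  intro s
  constructor
  · intro hs
    have : s ∈ (MulAction.stabilizer G a).map (MulAut.conj h⁻¹).toMonoidHom := by rw [heq]; exact hs
    obtain ⟨t, ht, rfl⟩ := this
    simpa [MulAut.conj_apply, mul_assoc] using ht
  · intro hs
    have := hle _ hs
    simpa [mul_assoc] using this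

/-- For a transitive permutation group `G` on a finite set, the centraliser of `G` in the symmetric group is isomorphic to `N_G(G_ω)/G_ω`, and its orbit of `ω` is the set of fixed points of `G_ω`. -/
theorem result {α : Type*} [Finite α] (G : Subgroup (Equiv.Perm α)) [MulAction.IsPretransitive G α] (a : α) : Nonempty (Subgroup.centralizer (G : Set (Equiv.Perm α)) ≃* Subgroup.normalizer ((MulAction.stabilizer G a : Subgroup G) : Set G) ⧸ (MulAction.stabilizer G a).subgroupOf (Subgroup.normalizer ((MulAction.stabilizer G a : Subgroup G) : Set G))) ∧ MulAction.orbit (Subgroup.centralizer (G : Set (Equiv.Perm α))) a = MulAction.fixedPoints (MulAction.stabilizer G a) α := by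
  classical
  constructor
  · set N := Subgroup.normalizer ((MulAction.stabilizer G a : Subgroup G) : Set G) with hN
    set C := Subgroup.centralizer (G : Set (Equiv.Perm α)) with hC
    choose! cc hcc1 hcc2 using (fun n (hn : n ∈ N) => exists_c G a n hn)
    let φfun : N → C := fun n => ⟨cc n, hcc1 n n.2⟩
    have hφapp : ∀ (n : N) (g : G), ((φfun n : C) : Equiv.Perm α) ((g : Equiv.Perm α) a) = ((g * (n : G)⁻¹ : G) : Equiv.Perm α) a := fun n g => hcc2 n n.2 g
    have hφmul : ∀ x y : N, φfun (x * y) = φfun x * φfun y := by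
      intro x y
      apply Subtype.ext
      ext p
      obtain ⟨g, hg⟩ := MulAction.exists_smul_eq G a p
      have hg' : (g : Equiv.Perm α) a = p := hg
      subst hg'
      change ((φfun (x * y) : C) : Equiv.Perm α) _ = ((φfun x : C) : Equiv.Perm α) (((φfun y : C) : Equiv.Perm α) _)
      rw [hφapp, hφapp, hφapp]
      congr 2
    let φ : N →* C := MonoidHom.mk' φfun hφmul
    have hsurj : Function.Surjective φ := by
      intro c
      obtain ⟨h, hh⟩ := MulAction.exists_smul_eq G a ((c : Equiv.Perm α) a)
      have hh' : (h : Equiv.Perm α) a = (c : Equiv.Perm α) a := hh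
      have hN' : h ∈ N := by
        apply mem_normalizer_of_fixed
        intro s hs
        have hs' : s • a = a := hs
        change s • (h • a) = h • a
        have e : h • a = (c : Equiv.Perm α) a := hh
        rw [e]
        change (s : Equiv.Perm α) ((c : Equiv.Perm α) a) = (c : Equiv.Perm α) a
        rw [← comm_apply G c.2]
        congr 1
      refine ⟨⟨h⁻¹, Subgroup.inv_mem _ hN'⟩, ?_⟩
      apply Subtype.ext
      ext p
      obtain ⟨g, hg⟩ := MulAction.exists_smul_eq G a p
      have hg' : (g : Equiv.Perm α) a = p := hg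
      subst hg'
      change ((φfun ⟨h⁻¹, _⟩ : C) : Equiv.Perm α) _ = _
      rw [hφapp, comm_apply G c.2, ← hh']
      simp
    have hker : φ.ker = (MulAction.stabilizer G a).subgroupOf N := by
      ext n
      rw [MonoidHom.mem_ker, Subgroup.mem_subgroupOf]
      constructor
      · intro h
        have h2 := hφapp n 1
        have h3 : ((φfun n : C) : Equiv.Perm α) = 1 := by
          have : φ n = 1 := h
          have h4 : ((φ n : C) : Equiv.Perm α) = 1 := by rw [this]; rfl
          exact h4
        rw [h3] at h2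
        change _ • a = a
        have h5 : a = (((n : G)⁻¹ : G) : Equiv.Perm α) a := by simpa using h2
        have h6 : ((n : G)⁻¹) • a = a := h5.symm
        have : (n : G) ∈ MulAction.stabilizer G a := by
          have : ((n : G)⁻¹) ∈ MulAction.stabilizer G a := h6
          simpa using this
        exact this
      · intro h
        apply Subtype.ext
        change cc n = 1
        apply semireg G (hcc1 n n.2) (a := a)
        have h2 := hcc2 n n.2 1
        simp only [Subgroup.coe_one, Equiv.Perm.coe_one, id, one_mul] at h2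
        have hin : ((n : G)⁻¹) ∈ MulAction.stabilizer G a := Subgroup.inv_mem _ h
        have h6 : ((n : G)⁻¹) • a = a := hin
        have h7 : (((n : G)⁻¹ : G) : Equiv.Perm α) a = a := h6
        rw [h7] at h2
        exact h2
    exact ⟨(QuotientGroup.quotientKerEquivOfSurjective φ hsurj).symm.trans (QuotientGroup.quotientMulEquivOfEq hker)⟩
  · ext x
    constructor
    · rintro ⟨c, rfl⟩
      rw [MulAction.mem_fixedPoints]
      intro s
      have hs : (s : G) • a = a := s.2
      change ((s : G) : Equiv.Perm α) ((c : Equiv.Perm α) a) = (c : Equiv.Perm α) a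
      rw [← comm_apply G c.2]
      congr 1
    · intro hx
      rw [MulAction.mem_fixedPoints] at hx
      obtain ⟨h, hh⟩ := MulAction.exists_smul_eq G a x
      have hN : h ∈ Subgroup.normalizer ((MulAction.stabilizer G a : Subgroup G) : Set G) := by
        apply mem_normalizer_of_fixed
        intro s hs
        rw [hh]
        exact hx ⟨s, hs⟩
      obtain ⟨c, hc1, hc2⟩ := exists_c G a h⁻¹ (Subgroup.inv_mem _ hN)
      refine ⟨⟨c, hc1⟩, ?_⟩
      have := hc2 1
      simp only [Subgroup.coe_one, Equiv.Perm.coe_one, id, one_mul, inv_inv] at this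
      change c a = x
      rw [this]
      exact hh

end Cfsg.Agent.S0702
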