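import Mathlib
import Cfsg.Statements.S0703
import Cfsg.Agent.Lib.PermCore

set_option autoImplicit false
open Cfsg
open Cfsg.Agent.Lib.PermCore

namespace Cfsg.Agent.S0703

/-- An abelian transitive minimal normal subgroup `M` of a permutation group on a finite set is self-centralising in the symmetric group, regular, elementary abelian, and is the unique minimal normal subgroup. -/
theorem result {α : Type*} [Finite α] (G : Subgroup (Equiv.Perm α)) (M : Subgroup G) [M.Normal] (hM : M ≠ ⊥) (hmin : ∀ L : Subgroup G, L.Normal → L ≤ M → L = ⊥ ∨ L = M) (hab : IsMulCommutative M) (htrans : MulAction.IsPretransitive M α) : Subgroup.centralizer ((M.map G.subtype : Subgroup (Equiv.Perm α)) : Set (Equiv.Perm α)) = M.map G.subtype ∧ (∀ a : α, MulAction.stabilizer M a = ⊥) ∧ (∃ p : ℕ, p.Prime ∧ ∀ m ∈ M, m ^ p = 1) ∧ ∀ L : Subgroup G, L.Normal → L ≠ ⊥ → (∀ L' : Subgroup G, L'.Normal → L' ≤ L → L' = ⊥ ∨ L' = L) → L = M := by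
  classical
  have hcomm : ∀ x ∈ M, ∀ y ∈ M, x * y = y * x := by
    intro x hx y hy
    have := hab.is_comm.comm ⟨x, hx⟩ ⟨y, hy⟩
    exact congrArg Subtype.val this
  have hT : ∀ s ∈ (M.map G.subtype : Subgroup (Equiv.Perm α)), ∀ t ∈ (M.map G.subtype : Subgroup (Equiv.Perm α)), Commute s t := by
    rintro _ ⟨s, hs, rfl⟩ _ ⟨t, ht, rfl⟩
    have := hcomm s hs t ht
    exact congrArg Subtype.val this
  have hne : M ≠ ⊥ := hM
  -- α is nonempty since M is nontrivial
  have hαne : Nonempty α := by
    by_contra hcon
    rw [not_nonempty_iff] at hcon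
    apply hM
    rw [eq_bot_iff]
    intro m _
    have : ((m : G) : Equiv.Perm α) = 1 := by
      ext x
      exact (hcon.false x).elim
    exact Subgroup.mem_bot.mpr (Subtype.ext this)
  have hselfc := centralizer_le_of_comm_transitive (M.map G.subtype) (map_subtype_transitive M) hT
  refine ⟨hselfc, ?_, ?_, ?_⟩
  · -- regular
    intro a
    rw [eq_bot_iff]
    intro m hm
    have hm' : ((m : G) : Equiv.Perm α) a = a := hm
    have h1 : ((m : G) : Equiv.Perm α) = 1 := by
      apply eq_one_of_commute_of_transitive _ (map_subtype_transitive M) _ hm'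
      intro t ht
      exact hT t ht _ ⟨m, m.2, rfl⟩
    exact Subgroup.mem_bot.mpr (Subtype.ext (Subtype.ext h1))
  · -- exponent
    have : Finite G := inferInstance
    have hntriv : Nontrivial M := by
      rw [Subgroup.nontrivial_iff_ne_bot]; exact hM
    obtain ⟨p, hp, hpd⟩ := Nat.exists_prime_and_dvd (Finite.one_lt_card (α := M)).ne'
    refine ⟨p, hp, ?_⟩
    let K : Subgroup G :=
      { carrier := {g | g ∈ M ∧ g ^ p = 1}
        mul_mem' := by
          rintro a b ⟨ha, ha'⟩ ⟨hb, hb'⟩
          refine ⟨M.mul_mem ha hb, ?_⟩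
          rw [(show Commute a b from hcomm a ha b hb).mul_pow, ha', hb', one_mul]
        one_mem' := ⟨M.one_mem, one_pow p⟩
        inv_mem' := by
          rintro a ⟨ha, ha'⟩
          exact ⟨M.inv_mem ha, by rw [inv_pow, ha', inv_one]⟩ }
    have hKn : K.Normal := by
      constructor
      rintro a ⟨ha, ha'⟩ g
      refine ⟨‹M.Normal›.conj_mem a ha g, ?_⟩
      rw [conj_pow, ha', mul_one, mul_inv_cancel]
    have hKle : K ≤ M := fun g hg => hg.1
    have hKne : K ≠ ⊥ := by
      have : Fact p.Prime := ⟨hp⟩
      obtain ⟨x, hx⟩ := exists_prime_orderOf_dvd_card' p hpd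
      intro hbot
      have hxK : (x : G) ∈ K := ⟨x.2, by
        have := pow_orderOf_eq_one x
        rw [hx] at this
        exact congrArg Subtype.val this⟩
      rw [hbot, Subgroup.mem_bot] at hxK
      have hx1 : x = 1 := Subtype.ext hxK
      rw [hx1, orderOf_one] at hx
      exact hp.one_lt.ne hx
    rcases hmin K hKn hKle with h | h
    · exact absurd h hKne
    · intro m hm
      have : m ∈ K := h ▸ hm
      exact this.2
  · -- uniqueness
    intro L hLn hLne hLmin
    have hLM := hmin (L ⊓ M) (by have := hLn; infer_instance) inf_le_right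
    have hLL := hLmin (L ⊓ M) (by have := hLn; infer_instance) inf_le_left
    rcases hLL with h0 | h1
    · -- commuting
      exfalso
      apply hLne
      rw [eq_bot_iff]
      intro l hl
      have hlcomm : ∀ m ∈ M, l * m = m * l := by
        intro m hm
        have h1 : l * m * l⁻¹ * m⁻¹ ∈ L := by
          have := hLn.conj_mem l⁻¹ (L.inv_mem hl) m
          have h2 : l * (m * l⁻¹ * m⁻¹) ∈ L := L.mul_mem hl this
          simpa [mul_assoc] using h2
        have h2 : l * m * l⁻¹ * m⁻¹ ∈ M := by
          have := ‹M.Normal›.conj_mem m hm l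
          exact M.mul_mem this (M.inv_mem hm)
        have h3 : l * m * l⁻¹ * m⁻¹ ∈ L ⊓ M := ⟨h1, h2⟩
        rw [h0, Subgroup.mem_bot] at h3
        have h4 : l * m * l⁻¹ = m := by
          have := mul_inv_eq_one.mp h3
          exact this
        calc l * m = l * m * l⁻¹ * l := by group
          _ = m * l := by rw [h4]
      have hlc : ((l : G) : Equiv.Perm α) ∈ Subgroup.centralizer ((M.map G.subtype : Subgroup (Equiv.Perm α)) : Set (Equiv.Perm α)) := by
        rw [Subgroup.mem_centralizer_iff]
        rintro _ ⟨m, hm, rfl⟩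
        have := hlcomm m hm
        exact (congrArg Subtype.val this).symm
      rw [hselfc] at hlc
      obtain ⟨m, hm, hml⟩ := hlc
      have hlm : l = m := (Subtype.ext hml).symm
      subst hlm
      have : l ∈ L ⊓ M := ⟨hl, hm⟩
      rw [h0] at this
      exact this
    · have hLle : L ≤ M := by
        rw [← h1]; exact inf_le_right
      rcases hmin L hLn hLle with h | h
      · exact absurd h hLne
      · exact h

end Cfsg.Agent.S0703
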