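import Mathlib
import Cfsg.Statements.S0704
import Cfsg.Agent.Lib.PermCore

set_option autoImplicit false
open Cfsg
open Cfsg.Agent.Lib.PermCore

namespace Cfsg.Agent.S0704

/-- Two distinct transitive minimal normal subgroups `M`, `N` of a permutation group are regular, non-abelian, isomorphic, each other's centraliser in the symmetric group, and the only minimal normal subgroups. -/
theorem result {α : Type*} (G : Subgroup (Equiv.Perm α)) (M N : Subgroup G) [M.Normal] [N.Normal] (hM : M ≠ ⊥) (hN : N ≠ ⊥) (hMmin : ∀ L : Subgroup G, L.Normal → L ≤ M → L = ⊥ ∨ L = M) (hNmin : ∀ L : Subgroup G, L.Normal → L ≤ N → L = ⊥ ∨ L = N) (hMN : M ≠ N) (hMt : MulAction.IsPretransitive M α) (hNt : MulAction.IsPretransitive N α) : (∀ a : α, MulAction.stabilizer M a = ⊥) ∧ (∀ a : α, MulAction.stabilizer N a = ⊥) ∧ ¬ IsMulCommutative M ∧ Nonempty (M ≃* N) ∧ Subgroup.centralizer ((M.map G.subtype : Subgroup (Equiv.Perm α)) : Set (Equiv.Perm α)) = N.map G.subtype ∧ Subgroup.centralizer ((N.map G.subtype : Subgroup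 (Equiv.Perm α)) : Set (Equiv.Perm α)) = M.map G.subtype ∧ ∀ L : Subgroup G, L.Normal → L ≠ ⊥ → (∀ L' : Subgroup G, L'.Normal → L' ≤ L → L' = ⊥ ∨ L' = L) → L = M ∨ L = N := by
  classical
  have hαne : Nonempty α := by
    by_contra hcon
    rw [not_nonempty_iff] at hcon
    apply hM
    rw [eq_bot_iff]
    intro m _
    have : ((m : G) : Equiv.Perm α) = 1 := by
      ext x
      exact (hcon.false x).elim
    exact Subgroup.mem_bot.mpr (Subtype.ext this)
  obtain ⟨a₀⟩ := hαne
  have hdisj : M ⊓ N = ⊥ := by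
    rcases hMmin (M ⊓ N) inferInstance inf_le_left with h | h
    · exact h
    · exfalso
      have hle : M ≤ N := by rw [← h]; exact inf_le_right
      rcases hNmin M inferInstance hle with h' | h'
      · exact hM h'
      · exact hMN h'
  have hcomm : ∀ x ∈ M, ∀ y ∈ N, x * y = y * x := by
    intro x hx y hy
    have h1 : x * y * x⁻¹ * y⁻¹ ∈ M ⊓ N := by
      constructor
      · have := ‹N.Normal›
        have h2 := ‹M.Normal›.conj_mem x⁻¹ (M.inv_mem hx) y
        have h3 : x * (y * x⁻¹ * y⁻¹) ∈ M := M.mul_mem hx h2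
        simpa [mul_assoc] using h3
      · have h2 := ‹N.Normal›.conj_mem y hy x
        exact N.mul_mem h2 (N.inv_mem hy)
    rw [hdisj, Subgroup.mem_bot] at h1
    have h4 : x * y * x⁻¹ = y := mul_inv_eq_one.mp h1
    calc x * y = x * y * x⁻¹ * x := by group
      _ = y * x := by rw [h4]
  have hT : ∀ s ∈ (M.map G.subtype : Subgroup (Equiv.Perm α)), ∀ t ∈ (N.map G.subtype : Subgroup (Equiv.Perm α)), Commute s t := by
    rintro _ ⟨s, hs, rfl⟩ _ ⟨t, ht, rfl⟩
    exact congrArg Subtype.val (hcomm s hs t ht)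
  have hT' : ∀ s ∈ (N.map G.subtype : Subgroup (Equiv.Perm α)), ∀ t ∈ (M.map G.subtype : Subgroup (Equiv.Perm α)), Commute s t := fun s hs t ht => (hT t ht s hs).symm
  have hC1 := centralizer_eq_of_commuting_transitive (M.map G.subtype) (N.map G.subtype) (map_subtype_transitive M) (map_subtype_transitive N) hT a₀
  have hC2 := centralizer_eq_of_commuting_transitive (N.map G.subtype) (M.map G.subtype) (map_subtype_transitive N) (map_subtype_transitive M) hT' a₀
  have hmapinj : ∀ A B : Subgroup G, A.map G.subtype = B.map G.subtype → A = B := fun A B h =>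
    Subgroup.map_injective G.subtype_injective h
  have hreg : ∀ a : α, MulAction.stabilizer M a = ⊥ := by
    intro a
    rw [eq_bot_iff]
    intro m hm
    have hm' : ((m : G) : Equiv.Perm α) a = a := hm
    have h1 : ((m : G) : Equiv.Perm α) = 1 := by
      apply eq_one_of_commute_of_transitive _ (map_subtype_transitive N) _ hm'
      intro t ht
      exact hT' t ht _ ⟨m, m.2, rfl⟩
    exact Subgroup.mem_bot.mpr (Subtype.ext (Subtype.ext h1))
  have hreg' : ∀ a : α, MulAction.stabilizer N a = ⊥ := by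
    intro a
    rw [eq_bot_iff]
    intro m hm
    have hm' : ((m : G) : Equiv.Perm α) a = a := hm
    have h1 : ((m : G) : Equiv.Perm α) = 1 := by
      apply eq_one_of_commute_of_transitive _ (map_subtype_transitive M) _ hm'
      intro t ht
      exact hT t ht _ ⟨m, m.2, rfl⟩
    exact Subgroup.mem_bot.mpr (Subtype.ext (Subtype.ext h1))
  refine ⟨hreg, hreg', ?_, ?_, hC1, hC2, ?_⟩
  · intro hab
    have hcomm' : ∀ s ∈ (M.map G.subtype : Subgroup (Equiv.Perm α)), ∀ t ∈ (M.map G.subtype : Subgroup (Equiv.Perm α)), Commute s t := by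
      rintro _ ⟨s, hs, rfl⟩ _ ⟨t, ht, rfl⟩
      have := hab.is_comm.comm ⟨s, hs⟩ ⟨t, ht⟩
      exact congrArg (fun x : M => ((x : G) : Equiv.Perm α)) this
    have : Nonempty α := ⟨a₀⟩
    have h3 := centralizer_le_of_comm_transitive (M.map G.subtype) (map_subtype_transitive M) hcomm'
    rw [hC1] at h3
    exact hMN (hmapinj _ _ h3.symm)
  · -- the isomorphism
    have hNuniq : ∀ n n' : N, ((n : G) : Equiv.Perm α) a₀ = ((n' : G) : Equiv.Perm α) a₀ → n = n' := by
      intro n n' h
      have : n'⁻¹ * n ∈ MulAction.stabilizer N a₀ := by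
        change (n'⁻¹ * n) • a₀ = a₀
        rw [mul_smul, inv_smul_eq_iff]
        exact h
      rw [hreg' a₀, Subgroup.mem_bot] at this
      exact (inv_mul_eq_one.mp this).symm
    have hMuniq : ∀ n n' : M, ((n : G) : Equiv.Perm α) a₀ = ((n' : G) : Equiv.Perm α) a₀ → n = n' := by
      intro n n' h
      have : n'⁻¹ * n ∈ MulAction.stabilizer M a₀ := by
        change (n'⁻¹ * n) • a₀ = a₀
        rw [mul_smul, inv_smul_eq_iff]
        exact h
      rw [hreg a₀, Subgroup.mem_bot] at this
      exact (inv_mul_eq_one.mp this).symm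
    choose ψ hψ using (fun m : M => MulAction.exists_smul_eq N a₀ ((((m⁻¹ : M) : G) : Equiv.Perm α) a₀))
    have hψ' : ∀ m : M, ((ψ m : G) : Equiv.Perm α) a₀ = (((m⁻¹ : M) : G) : Equiv.Perm α) a₀ := hψ
    have hperm : ∀ (m : M) (n : N) (x : α), ((m : G) : Equiv.Perm α) (((n : G) : Equiv.Perm α) x) = ((n : G) : Equiv.Perm α) (((m : G) : Equiv.Perm α) x) := by
      intro m n x
      have := hT _ ⟨m, m.2, rfl⟩ _ ⟨n, n.2, rfl⟩
      have h2 : (((m : G) : Equiv.Perm α) * ((n : G) : Equiv.Perm α)) x = (((n : G) : Equiv.Perm α) * ((m : G) : Equiv.Perm α)) x := by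
        have h3 : ((m : G) : Equiv.Perm α) * ((n : G) : Equiv.Perm α) = ((n : G) : Equiv.Perm α) * ((m : G) : Equiv.Perm α) := this
        rw [h3]
      exact h2
    have hψmul : ∀ x y : M, ψ (x * y) = ψ x * ψ y := by
      intro x y
      apply hNuniq
      have e1 : ((ψ (x * y) : G) : Equiv.Perm α) a₀ = ((y⁻¹ : M) : G).1 (((x⁻¹ : M) : G).1 a₀) := by
        rw [hψ' (x * y), mul_inv_rev]
        rfl
      have e2 : ((ψ x * ψ y : N) : G).1 a₀ = ((ψ x : G) : Equiv.Perm α) (((ψ y : G) : Equiv.Perm α) a₀) := rfl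
      rw [e1, e2, hψ' y, ← hψ' x]
      exact hperm _ _ _
    let Ψ : M →* N := MonoidHom.mk' ψ hψmul
    have hbij : Function.Bijective Ψ := by
      constructor
      · intro x y hxy
        have h2 : ψ x = ψ y := hxy
        have h3 : (((x⁻¹ : M) : G) : Equiv.Perm α) a₀ = (((y⁻¹ : M) : G) : Equiv.Perm α) a₀ := by
          rw [← hψ' x, ← hψ' y, h2]
        exact inv_injective (hMuniq _ _ h3)
      · intro n
        obtain ⟨m, hm⟩ := MulAction.exists_smul_eq M a₀ (((n : G) : Equiv.Perm α) a₀)
        refine ⟨m⁻¹, ?_⟩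
        apply hNuniq
        change ((ψ m⁻¹ : G) : Equiv.Perm α) a₀ = _
        rw [hψ', inv_inv]
        exact hm
    exact ⟨MulEquiv.ofBijective Ψ hbij⟩
  · intro L hLn hLne hLmin
    have hLcentr : ∀ K : Subgroup G, K.Normal → L ⊓ K = ⊥ → ∀ l ∈ L, ∀ m ∈ K, l * m = m * l := by
      intro K hK h0 l hl m hm
      have h1 : l * m * l⁻¹ * m⁻¹ ∈ L := by
        have := hLn.conj_mem l⁻¹ (L.inv_mem hl) m
        have h2 : l * (m * l⁻¹ * m⁻¹) ∈ L := L.mul_mem hl this
        simpa [mul_assoc] using h2
      have h2 : l * m * l⁻¹ * m⁻¹ ∈ K := by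
        have := hK.conj_mem m hm l
        exact K.mul_mem this (K.inv_mem hm)
      have h3 : l * m * l⁻¹ * m⁻¹ ∈ L ⊓ K := ⟨h1, h2⟩
      rw [h0, Subgroup.mem_bot] at h3
      have h4 : l * m * l⁻¹ = m := mul_inv_eq_one.mp h3
      calc l * m = l * m * l⁻¹ * l := by group
        _ = m * l := by rw [h4]
    by_cases hLM : L ⊓ M = ⊥
    · by_cases hLN : L ⊓ N = ⊥
      · exfalso
        apply hLne
        rw [eq_bot_iff]
        intro l hl
        have hlc : ((l : G) : Equiv.Perm α) ∈ Subgroup.centralizer ((M.map G.subtype : Subgroup (Equiv.Perm α)) : Set (Equiv.Perm α)) := by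
          rw [Subgroup.mem_centralizer_iff]
          rintro _ ⟨m, hm, rfl⟩
          exact (congrArg Subtype.val (hLcentr M inferInstance hLM l hl m hm)).symm
        rw [hC1] at hlc
        obtain ⟨m, hm, hml⟩ := hlc
        have hlm : l = m := (Subtype.ext hml).symm
        subst hlm
        have : l ∈ L ⊓ N := ⟨hl, hm⟩
        rw [hLN] at this
        exact this
      · right
        rcases hLmin (L ⊓ N) (by have := hLn; infer_instance) inf_le_left with h | h
        · exact absurd h hLN
        · have hle : L ≤ N := by rw [← h]; exact inf_le_right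
          rcases hNmin L hLn hle with h' | h'
          · exact absurd h' hLne
          · exact h'
    · left
      rcases hLmin (L ⊓ M) (by have := hLn; infer_instance) inf_le_left with h | h
      · exact absurd h hLM
      · have hle : L ≤ M := by rw [← h]; exact inf_le_right
        rcases hMmin L hLn hle with h' | h'
        · exact absurd h' hLne
        · exact h'

end Cfsg.Agent.S0704
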