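import Mathlib
import Cfsg.Statements.S0705

set_option autoImplicit false
open Cfsg
open scoped Pointwise

namespace Cfsg.Agent.S0705

variable {α : Type*} [Fintype α] [DecidableEq α]

/-- extension of a partial injection inside a `(k+1)`-set by an element of `G` -/
lemma exists_of_range_subset (G : Subgroup (Equiv.Perm α)) {k : ℕ}
    (hgen : ∀ s : Finset α, s.card = k + 1 → ∀ σ : Equiv.Perm ↥s, ∃ g ∈ G, ∀ x : ↥s, g (x : α) = σ x)
    {ι : Type*} [Finite ι] (x y : ι ↪ α) (s : Finset α) (hs : s.card = k + 1)
    (hx : ∀ i, x i ∈ s) (hy : ∀ i, y i ∈ s) : ∃ g ∈ G, ∀ i, g (x i) = y i := by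
  let x' : ι ↪ ↥s := ⟨fun i => ⟨x i, hx i⟩, fun i j h => x.injective (congrArg Subtype.val h)⟩
  let y' : ι ↪ ↥s := ⟨fun i => ⟨y i, hy i⟩, fun i j h => y.injective (congrArg Subtype.val h)⟩
  obtain ⟨σ, hσ⟩ := Equiv.Perm.exists_smul_eq_embedding x' y'
  obtain ⟨g, hg, hg2⟩ := hgen s hs σ
  refine ⟨g, hg, fun i => ?_⟩
  have h1 := hg2 (x' i)
  have h2 : σ (x' i) = y' i := by
    have := congrArg (fun f : ι ↪ ↥s => f i) hσ
    exact this
  rw [h2] at h1
  exact h1

lemma exists_of_card_union_le (G : Subgroup (Equiv.Perm α)) {k : ℕ} (hk : k < Fintype.card α)
    (hgen : ∀ s : Finset α, s.card = k + 1 → ∀ σ : Equiv.Perm ↥s, ∃ g ∈ G, ∀ x : ↥s, g (x : α) = σ x)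
    (x y : Fin k ↪ α) (h : (Finset.univ.image x ∪ Finset.univ.image y).card ≤ k + 1) :
    ∃ g ∈ G, ∀ i, g (x i) = y i := by
  obtain ⟨s, hs1, hs2⟩ := Finset.exists_superset_card_eq h hk
  refine exists_of_range_subset G hgen x y s hs2 (fun i => hs1 ?_) (fun i => hs1 ?_)
  · exact Finset.mem_union_left _ (Finset.mem_image_of_mem _ (Finset.mem_univ _))
  · exact Finset.mem_union_right _ (Finset.mem_image_of_mem _ (Finset.mem_univ _))

lemma exists_smul_eq_aux (G : Subgroup (Equiv.Perm α)) {k : ℕ} (hk : k < Fintype.card α)
    (hgen : ∀ s : Finset α, s.card = k + 1 → ∀ σ : Equiv.Perm ↥s, ∃ g ∈ G, ∀ x : ↥s, g (x : α) = σ x)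
    (m : ℕ) : ∀ (x y : Fin k ↪ α), (Finset.univ.image x \ Finset.univ.image y).card = m →
    ∃ g ∈ G, ∀ i, g (x i) = y i := by
  induction m using Nat.strong_induction_on with
  | _ m ih =>
    intro x y hm
    have hcx : (Finset.univ.image x).card = k := by
      rw [Finset.card_image_of_injective _ x.injective]; simp
    have hcy : (Finset.univ.image y).card = k := by
      rw [Finset.card_image_of_injective _ y.injective]; simp
    by_cases hm1 : m ≤ 1
    · apply exists_of_card_union_le G hk hgen
      have := Finset.card_union_add_card_inter (Finset.univ.image x) (Finset.univ.image y)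
      have h2 := Finset.card_sdiff_add_card_inter (Finset.univ.image x) (Finset.univ.image y)
      omega
    · push Not at hm1
      -- pick `u ∈ x \ y` and `v ∈ y \ x`
      have hne : (Finset.univ.image x \ Finset.univ.image y).Nonempty := by
        rw [← Finset.card_pos]; omega
      obtain ⟨u, hu⟩ := hne
      have hne2 : (Finset.univ.image y \ Finset.univ.image x).Nonempty := by
        rw [← Finset.card_pos]
        have h1 := Finset.card_sdiff_add_card_inter (Finset.univ.image x) (Finset.univ.image y)
        have h2 := Finset.card_sdiff_add_card_inter (Finset.univ.image y) (Finset.univ.image x)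
        rw [Finset.inter_comm] at h2
        omega
      obtain ⟨v, hv⟩ := hne2
      rw [Finset.mem_sdiff, Finset.mem_image] at hu hv
      obtain ⟨⟨i, -, rfl⟩, hu2⟩ := hu
      obtain ⟨⟨j, -, rfl⟩, hv2⟩ := hv
      -- replace the value of `x` at `i` by `y j`
      have hinj : Function.Injective (Function.update (x : Fin k → α) i (y j)) := by
        intro p q hpq
        by_cases hp : p = i
        · by_cases hq : q = i
          · rw [hp, hq]
          · subst hp
            simp only [Function.update_self, Function.update_of_ne hq] at hpq
            exact absurd (Finset.mem_image.mpr ⟨q, Finset.mem_univ _, hpq.symm⟩) hv2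
        · by_cases hq : q = i
          · subst hq
            simp only [Function.update_self, Function.update_of_ne hp] at hpq
            exact absurd (Finset.mem_image.mpr ⟨p, Finset.mem_univ _, hpq⟩) hv2
          · simp only [Function.update_of_ne hp, Function.update_of_ne hq] at hpq
            exact x.injective hpq
      let x' : Fin k ↪ α := ⟨Function.update (x : Fin k → α) i (y j), hinj⟩
      have hx' : ∀ p, x' p = Function.update (x : Fin k → α) i (y j) p := fun _ => rfl
      have hsub : Finset.univ.image x' ⊆ insert (y j) (Finset.univ.image x) := by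
        intro w hw
        obtain ⟨p, -, rfl⟩ := Finset.mem_image.mp hw
        rw [hx']
        by_cases hp : p = i
        · subst hp; simp
        · rw [Function.update_of_ne hp]
          exact Finset.mem_insert_of_mem (Finset.mem_image_of_mem _ (Finset.mem_univ _))
      obtain ⟨g1, hg1, hg1'⟩ : ∃ g ∈ G, ∀ p, g (x p) = x' p := by
        apply exists_of_card_union_le G hk hgen
        have : (Finset.univ.image x ∪ Finset.univ.image x') ⊆ insert (y j) (Finset.univ.image x) := by
          apply Finset.union_subset (Finset.subset_insert _ _) hsub
        have h3 := Finset.card_le_card this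
        have h4 := Finset.card_insert_le (y j) (Finset.univ.image x)
        omega
      have hlt : (Finset.univ.image x' \ Finset.univ.image y).card < m := by
        rw [← hm]
        apply Finset.card_lt_card
        refine ⟨?_, ?_⟩
        · intro w hw
          rw [Finset.mem_sdiff] at hw ⊢
          refine ⟨?_, hw.2⟩
          obtain ⟨p, -, rfl⟩ := Finset.mem_image.mp hw.1
          rw [hx']
          by_cases hp : p = i
          · subst hp
            exfalso
            apply hw.2
            rw [hx', Function.update_self]
            exact Finset.mem_image_of_mem _ (Finset.mem_univ _)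
          · rw [Function.update_of_ne hp]
            exact Finset.mem_image_of_mem _ (Finset.mem_univ _)
        · intro hcon
          have hxi : x i ∈ Finset.univ.image x \ Finset.univ.image y := by
            rw [Finset.mem_sdiff]
            exact ⟨Finset.mem_image_of_mem _ (Finset.mem_univ _), hu2⟩
          have := hcon hxi
          rw [Finset.mem_sdiff, Finset.mem_image] at this
          obtain ⟨⟨p, -, hp⟩, -⟩ := this
          rw [hx'] at hp
          by_cases hpi : p = i
          · subst hpi
            rw [Function.update_self] at hp
            exact hu2 (Finset.mem_image.mpr ⟨j, Finset.mem_univ _, hp⟩)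
          · rw [Function.update_of_ne hpi] at hp
            exact hpi (x.injective hp)
      obtain ⟨g2, hg2, hg2'⟩ := ih _ hlt x' y rfl
      refine ⟨g2 * g1, G.mul_mem hg2 hg1, fun p => ?_⟩
      rw [Equiv.Perm.mul_apply, hg1', hg2']

/-- A generously `k`-transitive permutation group (every `(k+1)`-subset has its full symmetric group induced by the setwise stabiliser) of degree greater than `k` is `k`-transitive, and for a `k`-subset the setwise and pointwise stabilisers have the same orbits outside it. -/
theorem result {α : Type*} [Fintype α] [DecidableEq α] (G : Subgroup (Equiv.Perm α)) {k : ℕ} (hk : k < Fintype.card α) (hgen : ∀ s : Finset α, s.card = k + 1 → ∀ σ : Equiv.Perm ↥s, ∃ g ∈ G, ∀ x : ↥s, g (x : α) = σ x) : MulAction.IsMultiplyPretransitive G α k ∧ ∀ s : Finset α, s.card = k → ∀ a b : α, a ∉ s → b ∉ s → (∃ g ∈ G, g • s = s ∧ g a = b) → ∃ g ∈ G, (∀ x ∈ s, g x = x) ∧ g a = b := by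
  constructor
  · constructor
    intro x y
    obtain ⟨g, hg, hg2⟩ := exists_smul_eq_aux G hk hgen _ x y rfl
    refine ⟨⟨g, hg⟩, ?_⟩
    ext i
    exact hg2 i
  · rintro s hs a b ha hb ⟨g, hg, hgs, hgab⟩
    have hmem : ∀ u ∈ s, g u ∈ s := by
      intro u hu
      have : g • u ∈ g • s := Finset.smul_mem_smul_finset hu
      rw [hgs] at this
      exact this
    let x : Option ↥s ↪ α :=
      ⟨fun o => o.elim b (fun u => g u), by
        intro p q hpq
        cases p with
        | none =>
          cases q with
          | none => rfl
          | some q =>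
            have h1 : b = g q := hpq
            exact absurd (h1 ▸ hmem q.1 q.2) hb
        | some p =>
          cases q with
          | none =>
            have h1 : g p = b := hpq
            exact absurd (h1 ▸ hmem p.1 p.2) hb
          | some q =>
            have : g p = g q := hpq
            have h2 := g.injective this
            rw [Subtype.ext h2]⟩
    let y : Option ↥s ↪ α :=
      ⟨fun o => o.elim b (fun u => (u : α)), by
        intro p q hpq
        cases p with
        | none =>
          cases q with
          | none => rfl
          | some q =>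
            have h1 : b = q := hpq
            exact absurd (h1 ▸ q.2) hb
        | some p =>
          cases q with
          | none =>
            have h1 : (p : α) = b := hpq
            exact absurd (h1 ▸ p.2) hb
          | some q =>
            have : (p : α) = q := hpq
            rw [Subtype.ext this]⟩
    have hcard : (insert b s).card = k + 1 := by
      rw [Finset.card_insert_of_notMem hb, hs]
    obtain ⟨h, hh, hh2⟩ := exists_of_range_subset G hgen x y (insert b s) hcard
      (by
        intro o
        cases o with
        | none => exact Finset.mem_insert_self _ _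
        | some u => exact Finset.mem_insert_of_mem (hmem u.1 u.2))
      (by
        intro o
        cases o with
        | none => exact Finset.mem_insert_self _ _
        | some u => exact Finset.mem_insert_of_mem u.2)
    refine ⟨h * g, G.mul_mem hh hg, ?_, ?_⟩
    · intro u hu
      exact hh2 (some ⟨u, hu⟩)
    · rw [Equiv.Perm.mul_apply, hgab]
      exact hh2 none

end Cfsg.Agent.S0705
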