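import Mathlib
import Cfsg.Statements.S0706
import Cfsg.Agent.S0705
import Cfsg.Agent.Lib.PermModule

set_option autoImplicit false
open Cfsg
open MulAction Cfsg.Agent.Lib.PermModule
open scoped Pointwise

namespace Cfsg.Agent.S0706

section

variable {G : Type*} [Group G] [Finite G] {α : Type*} [Fintype α] [DecidableEq α] [MulAction G α]

theorem main {k : ℕ} (htrans : IsMultiplyPretransitive G α k)
    (hgen : ∀ s : Finset α, s.card = k + 1 → ∀ σ : Equiv.Perm ↥s, ∃ g : G, ∀ x : ↥s, g • (x : α) = σ x)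
    {p : ℕ} (hp : p.Prime) (hpk : p ≤ k) (Γ : Finset α) (hΓ : Γ.card = k) (f : Fin p → α)
    (hf : ∀ i, f i ∉ Γ)
    (hdist : ∀ i j, i ≠ j → f j ∉ orbit (fixingSubgroup G (Γ : Set α)) (f i)) :
    ∃ i, p ∣ Nat.card (orbit (fixingSubgroup G (Γ : Set α)) (f i)) := by
  classical
  haveI : Fact p.Prime := ⟨hp⟩
  by_contra hcon
  push Not at hcon
  set B := fixingSubgroup G (Γ : Set α) with hB
  obtain ⟨Γ₁, hΓ₁, hΓ₁c⟩ := Finset.exists_subset_card_eq (s := Γ) (n := p) (by omega)
  obtain e₀ : ZMod p ≃ ↥Γ₁ := Fintype.equivOfCardEq (by simp [ZMod.card, hΓ₁c])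
  let e : ZMod p → α := fun i => (e₀ i : α)
  have he_inj : Function.Injective e := fun i j h => e₀.injective (Subtype.ext h)
  have he_mem : ∀ i, e i ∈ Γ₁ := fun i => (e₀ i).2
  have he_surj : ∀ x ∈ Γ₁, ∃ i, e i = x := by
    intro x hx
    obtain ⟨i, hi⟩ := e₀.surjective ⟨x, hx⟩
    exact ⟨i, congrArg Subtype.val hi⟩
  let σ₀ : Equiv.Perm ↥Γ₁ := e₀.permCongr (Equiv.addRight 1)
  let c : Equiv.Perm α := Equiv.Perm.ofSubtype σ₀
  have hc1 : ∀ i, c (e i) = e (i + 1) := by
    intro i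
    have : c (e i) = σ₀ (e₀ i) := Equiv.Perm.ofSubtype_apply_coe σ₀ (e₀ i)
    rw [this]
    simp [σ₀, e, Equiv.permCongr_apply]
  have hc2 : ∀ x, x ∉ Γ₁ → c x = x := fun x hx => Equiv.Perm.ofSubtype_apply_of_not_mem σ₀ hx
  -- the group `E`
  let E : Subgroup G :=
    { carrier := {g | ∃ d : ZMod p, (∀ i, g • e i = e (i + d)) ∧ ∀ γ ∈ Γ \ Γ₁, g • γ = γ}
      mul_mem' := by
        rintro g₁ g₂ ⟨d₁, h₁, h₁'⟩ ⟨d₂, h₂, h₂'⟩
        refine ⟨d₂ + d₁, fun i => ?_, fun γ hγ => ?_⟩
        · rw [mul_smul, h₂, h₁, add_assoc]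
        · rw [mul_smul, h₂' γ hγ, h₁' γ hγ]
      one_mem' := ⟨0, fun i => by simp, fun γ _ => one_smul _ _⟩
      inv_mem' := by
        rintro g ⟨d, h, h'⟩
        refine ⟨-d, fun i => ?_, fun γ hγ => ?_⟩
        · rw [inv_smul_eq_iff, h]
          simp
        · rw [inv_smul_eq_iff, h' γ hγ] }
  have hEmem : ∀ g, g ∈ E ↔ ∃ d : ZMod p, (∀ i, g • e i = e (i + d)) ∧ ∀ γ ∈ Γ \ Γ₁, g • γ = γ :=
    fun _ => Iff.rfl
  have hBE : B ≤ E := by
    intro b hb
    rw [hB, mem_fixingSubgroup_iff] at hb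
    refine ⟨0, fun i => ?_, fun γ hγ => hb γ (Finset.mem_coe.mpr (Finset.mem_sdiff.mp hγ).1)⟩
    rw [add_zero]
    exact hb _ (Finset.mem_coe.mpr (hΓ₁ (he_mem i)))
  -- elements inducing the cycle
  have hgi : ∀ i, ∃ g : G, g ∈ E ∧ g • f i = f i ∧ ∀ j, g • e j = e (j + 1) := by
    intro i
    have hnot : f i ∉ Γ₁ := fun h => hf i (hΓ₁ h)
    let s : Finset α := insert (f i) Γ
    have hs : s.card = k + 1 := by
      rw [Finset.card_insert_of_notMem (hf i), hΓ]
    have hcs : ∀ x, c x ∈ s ↔ x ∈ s := by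
      intro x
      by_cases hx : x ∈ Γ₁
      · obtain ⟨j, rfl⟩ := he_surj x hx
        rw [hc1]
        have h1 : e (j + 1) ∈ s := Finset.mem_insert_of_mem (hΓ₁ (he_mem _))
        have h2 : e j ∈ s := Finset.mem_insert_of_mem (hΓ₁ (he_mem _))
        exact ⟨fun _ => h2, fun _ => h1⟩
      · rw [hc2 x hx]
    obtain ⟨g, hg⟩ := hgen s hs (c.subtypePerm hcs)
    have hg' : ∀ x ∈ s, g • x = c x := by
      intro x hx
      exact hg ⟨x, hx⟩
    refine ⟨g, ⟨1, fun j => ?_, fun γ hγ => ?_⟩, ?_, fun j => ?_⟩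
    · rw [hg' _ (Finset.mem_insert_of_mem (hΓ₁ (he_mem _))), hc1]
    · rw [Finset.mem_sdiff] at hγ
      rw [hg' _ (Finset.mem_insert_of_mem hγ.1), hc2 _ hγ.2]
    · rw [hg' _ (Finset.mem_insert_self _ _), hc2 _ hnot]
    · rw [hg' _ (Finset.mem_insert_of_mem (hΓ₁ (he_mem _))), hc1]
  choose g₁ hg₁E hg₁f hg₁e using hgi
  have hpow : ∀ (i : Fin p) (n : ℕ) (j : ZMod p), (g₁ i) ^ n • e j = e (j + n) := by
    intro i n
    induction n with
    | zero => simp
    | succ n ih =>
      intro j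
      rw [pow_succ, mul_smul, hg₁e, ih]
      congr 1
      push_cast
      ring
  have hpowf : ∀ (i : Fin p) (n : ℕ), (g₁ i) ^ n • f i = f i := by
    intro i n
    induction n with
    | zero => simp
    | succ n ih =>
      rw [pow_succ, mul_smul, hg₁f, ih]
  have hpowE : ∀ (i : Fin p) (n : ℕ), (g₁ i) ^ n ∈ E := fun i n => E.pow_mem (hg₁E i) n
  -- `E`-orbits of the `f i` are `B`-orbits
  have hmemB : ∀ g : G, (∀ j, g • e j = e j) → (∀ γ ∈ Γ \ Γ₁, g • γ = γ) → g ∈ B := by
    intro g h1 h2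
    rw [hB, mem_fixingSubgroup_iff]
    intro y hy
    by_cases hy1 : y ∈ Γ₁
    · obtain ⟨j, rfl⟩ := he_surj y hy1
      exact h1 j
    · exact h2 y (Finset.mem_sdiff.mpr ⟨Finset.mem_coe.mp hy, hy1⟩)
  have horbit : ∀ i, orbit E (f i) = orbit B (f i) := by
    intro i
    ext x
    constructor
    · rintro ⟨⟨g, hg⟩, rfl⟩
      obtain ⟨d, hd, hd'⟩ := hg
      have hgn : g * ((g₁ i) ^ d.val)⁻¹ ∈ B := by
        apply hmemB
        · intro j
          have h3 : ((g₁ i) ^ d.val)⁻¹ • e j = e (j - d) := by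
            rw [inv_smul_eq_iff, hpow, ZMod.natCast_zmod_val]
            simp
          rw [mul_smul, h3, hd]
          simp
        · intro γ hγ
          obtain ⟨d', hd2, hd3⟩ := E.inv_mem (hpowE i d.val)
          rw [mul_smul, hd3 γ hγ, hd' γ hγ]
      refine ⟨⟨_, hgn⟩, ?_⟩
      change (g * ((g₁ i) ^ d.val)⁻¹) • f i = g • f i
      rw [mul_smul]
      congr 1
      rw [inv_smul_eq_iff, hpowf]
    · rintro ⟨⟨b, hb⟩, rfl⟩
      exact ⟨⟨b, hBE hb⟩, rfl⟩
  -- the order of `E`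
  have hcardE : p * Nat.card B = Nat.card E := by
    have i₀ : Fin p := ⟨0, hp.pos⟩
    have h1 := ncard_orbit_mul_card_stabilizer (G := E) (e 0)
    have h2 : orbit E (e 0) = Set.range e := by
      ext x
      constructor
      · rintro ⟨⟨g, d, hd, _⟩, rfl⟩
        exact ⟨0 + d, (hd 0).symm⟩
      · rintro ⟨j, rfl⟩
        refine ⟨⟨_, hpowE i₀ j.val⟩, ?_⟩
        change (g₁ i₀) ^ j.val • e 0 = e j
        rw [hpow, ZMod.natCast_zmod_val, zero_add]
    have h3 : (Set.range e).ncard = p := by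
      rw [← Set.image_univ, Set.ncard_image_of_injective _ he_inj, Set.ncard_univ, Nat.card_zmod]
    have h4 : (stabilizer E (e 0)).map E.subtype = B := by
      ext g
      constructor
      · rintro ⟨⟨x, hx⟩, hxs, rfl⟩
        obtain ⟨d, hd, hd'⟩ := hx
        have h5 : x • e 0 = e 0 := hxs
        rw [hd, zero_add] at h5
        have h6 : d = 0 := by
          have := he_inj h5
          exact this
        subst h6
        refine hmemB x (fun j => ?_) hd'
        rw [hd, add_zero]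
      · intro hg
        refine ⟨⟨g, hBE hg⟩, ?_, rfl⟩
        change g • e 0 = e 0
        rw [hB, mem_fixingSubgroup_iff] at hg
        exact hg _ (Finset.mem_coe.mpr (hΓ₁ (he_mem 0)))
    have h5 : Nat.card (stabilizer E (e 0)) = Nat.card B := by
      rw [← h4]
      exact (Subgroup.card_map_of_injective E.subtype_injective).symm
    rw [h2, h3, h5] at h1
    exact h1
  -- the Sylow subgroup and its fixed points
  obtain ⟨T⟩ : Nonempty (Sylow p E) := inferInstance
  have hfixT : ∀ i, ∃ y ∈ orbit B (f i), ∀ t ∈ (T : Subgroup E), ((t : E) : G) • y = y := by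
    intro i
    have hnd : ¬ p ∣ Nat.card (orbit E (f i)) := by
      rw [horbit]
      exact hcon i
    obtain ⟨y, hy⟩ := T.isPGroup'.nonempty_fixed_point_of_prime_not_dvd_card (orbit E (f i)) hnd
    refine ⟨y, by rw [← horbit]; exact y.2, fun t ht => ?_⟩
    have := hy ⟨t, ht⟩
    exact congrArg Subtype.val this
  choose y hyB hyT using hfixT
  have hyΓ : ∀ i, y i ∉ Γ := by
    intro i hi
    obtain ⟨⟨b, hb⟩, hb2⟩ := hyB i
    change b • f i = y i at hb2
    rw [hB, mem_fixingSubgroup_iff] at hb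
    have h1 := hb _ (Finset.mem_coe.mpr hi)
    rw [← hb2] at h1
    have h2 := MulAction.injective b h1
    apply hf i
    rw [← h2]
    rw [hb2]
    exact hi
  have hyinj : Function.Injective y := by
    intro i j hij
    by_contra hne
    apply hdist i j hne
    have h1 : orbit B (y i) = orbit B (f i) := orbit_eq_iff.mpr (hyB i)
    have h2 : orbit B (y j) = orbit B (f j) := orbit_eq_iff.mpr (hyB j)
    rw [← h1, hij, h2]
    exact mem_orbit_self _
  let Γ' : Finset α := (Γ \ Γ₁) ∪ Finset.univ.image y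
  have hΓ' : Γ'.card = k := by
    rw [Finset.card_union_of_disjoint, Finset.card_sdiff_of_subset hΓ₁, hΓ, hΓ₁c,
      Finset.card_image_of_injective _ hyinj, Finset.card_univ, Fintype.card_fin]
    · omega
    · rw [Finset.disjoint_left]
      intro x hx hx2
      obtain ⟨i, _, rfl⟩ := Finset.mem_image.mp hx2
      exact hyΓ i (Finset.mem_sdiff.mp hx).1
  have htrans2 : IsPretransitive G (Set.powersetCard α k) :=
    Set.powersetCard.isPretransitive_of_isMultiplyPretransitive G htrans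
  obtain ⟨g, hg⟩ := htrans2.exists_smul_eq ⟨Γ, hΓ⟩ ⟨Γ', hΓ'⟩
  have hg' : g • Γ = Γ' := congrArg (fun s : Set.powersetCard α k => (s : Finset α)) hg
  have hfixcard : Nat.card (fixingSubgroup G (Γ' : Set α)) = Nat.card B := by
    have h1 : (Γ' : Set α) = g • (Γ : Set α) := by
      rw [← hg', Finset.coe_smul_finset]
    rw [h1, SubMulAction.fixingSubgroup_smul_eq_fixingSubgroup_map_conj]
    exact Subgroup.card_map_of_injective (MulAut.conj g).injective
  have hTle : (T : Subgroup E).map E.subtype ≤ fixingSubgroup G (Γ' : Set α) := by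
    rintro _ ⟨t, ht, rfl⟩
    rw [mem_fixingSubgroup_iff]
    intro x hx
    rw [Finset.mem_coe, Finset.mem_union] at hx
    rcases hx with hx | hx
    · obtain ⟨d, _, hd⟩ := t.2
      exact hd x hx
    · obtain ⟨i, _, rfl⟩ := Finset.mem_image.mp hx
      exact hyT i t ht
  have hTcard : Nat.card (T : Subgroup E) ∣ Nat.card B := by
    rw [← hfixcard, ← Subgroup.card_map_of_injective (K := (T : Subgroup E)) E.subtype_injective]
    exact Subgroup.card_dvd_of_le hTle
  have hB0 : Nat.card B ≠ 0 := Nat.card_pos.ne'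
  have h1 : p ^ (padicValNat p (Nat.card B) + 1) ∣ Nat.card E := by
    rw [← hcardE, pow_succ, mul_comm]
    exact mul_dvd_mul_left p pow_padicValNat_dvd
  have h2 := T.pow_dvd_card_of_pow_dvd_card h1
  exact pow_succ_padicValNat_not_dvd hB0 (h2.trans hTcard)

end

/-- In a generously `k`-transitive permutation group, for a prime `p ≤ k` and a `k`-set `Γ`, there are no `p` points outside `Γ` lying in distinct orbits of the pointwise stabiliser of `Γ` all of length prime to `p` (at most `p - 1` such orbits). -/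
theorem result {α : Type*} [Fintype α] [DecidableEq α] (G : Subgroup (Equiv.Perm α)) {k : ℕ} (hk : k < Fintype.card α) (hgen : ∀ s : Finset α, s.card = k + 1 → ∀ σ : Equiv.Perm ↥s, ∃ g ∈ G, ∀ x : ↥s, g (x : α) = σ x) {p : ℕ} (hp : p.Prime) (hpk : p ≤ k) (Γ : Finset α) (hΓ : Γ.card = k) (f : Fin p → α) (hf : ∀ i, f i ∉ Γ) (hdist : ∀ i j, i ≠ j → f j ∉ MulAction.orbit (fixingSubgroup G (Γ : Set α)) (f i)) : ∃ i, p ∣ Nat.card (MulAction.orbit (fixingSubgroup G (Γ : Set α)) (f i)) := by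
  have htrans := (Cfsg.Agent.S0705.result G hk hgen).1
  refine main htrans ?_ hp hpk Γ hΓ f hf hdist
  intro s hs σ
  obtain ⟨g, hg, hg2⟩ := hgen s hs σ
  exact ⟨⟨g, hg⟩, hg2⟩

end Cfsg.Agent.S0706
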