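import Mathlib
import Cfsg.Statements.S0707

set_option autoImplicit false
open Cfsg

namespace Cfsg.Agent.S0707

/-- In a primitive permutation group, distinct points have distinct stabilisers unless the group is regular of prime degree. -/
theorem result {α : Type*} (G : Subgroup (Equiv.Perm α)) [MulAction.IsPreprimitive G α] (h : ¬ (Nat.card α).Prime ∨ ∃ a : α, MulAction.stabilizer G a ≠ ⊥) {a b : α} (hab : a ≠ b) : MulAction.stabilizer G a ≠ MulAction.stabilizer G b := by
  classical
  intro heq
  have hnt : Nontrivial α := ⟨⟨a, b, hab⟩⟩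
  have hco := MulAction.IsPreprimitive.isCoatom_stabilizer_of_isPreprimitive (G := G) (X := α) a
  set S := MulAction.stabilizer G a with hS
  obtain ⟨g, hg⟩ := MulAction.exists_smul_eq G a b
  have hconj : ∀ h : G, MulAction.stabilizer G (h • a) = S.map (MulAut.conj h).toMonoidHom := by
    intro h
    exact MulAction.stabilizer_smul_eq_stabilizer_map_conj h a
  have hgN : g ∈ Subgroup.normalizer (S : Set G) := by
    rw [Subgroup.mem_normalizer_iff]
    intro s
    have h1 : S.map (MulAut.conj g).toMonoidHom = S := by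
      rw [← hconj g, hg, ← heq]
    constructor
    · intro hs
      have : g * s * g⁻¹ ∈ S.map (MulAut.conj g).toMonoidHom := ⟨s, hs, by simp [MulAut.conj_apply]⟩
      rw [h1] at this
      exact this
    · intro hs
      rw [← h1] at hs
      obtain ⟨t, ht, hts⟩ := hs
      have : t = s := by
        simpa [MulAut.conj_apply] using hts
      exact this ▸ ht
  have hgS : g ∉ S := by
    intro hgS
    have : g • a = a := hgS
    rw [hg] at this
    exact hab this.symm
  have hNtop : Subgroup.normalizer (S : Set G) = ⊤ := by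
    apply hco.2
    refine lt_of_le_of_ne Subgroup.le_normalizer ?_
    intro hEq
    exact hgS (hEq ▸ hgN)
  have hSfix : ∀ (s : G), s ∈ S → ∀ x : α, s • x = x := by
    intro s hs x
    obtain ⟨k, hk⟩ := MulAction.exists_smul_eq G a x
    have hkN : k⁻¹ ∈ Subgroup.normalizer (S : Set G) := by rw [hNtop]; trivial
    have h2 : k⁻¹ * s * k⁻¹⁻¹ ∈ S := (Subgroup.mem_normalizer_iff.mp hkN s).mp hs
    rw [inv_inv] at h2
    have h3 : (k⁻¹ * s * k) • a = a := h2
    rw [mul_smul, mul_smul, inv_smul_eq_iff, hk] at h3
    exact h3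
  have hSbot : S = ⊥ := by
    rw [eq_bot_iff]
    intro s hs
    have : (s : Equiv.Perm α) = 1 := by
      ext x
      exact hSfix s hs x
    exact Subgroup.mem_bot.mpr (Subtype.ext this)
  have hallbot : ∀ x : α, MulAction.stabilizer G x = ⊥ := by
    intro x
    obtain ⟨k, hk⟩ := MulAction.exists_smul_eq G a x
    rw [← hk, hconj, hSbot, Subgroup.map_bot]
  have hnotprime : ¬ (Nat.card α).Prime := by
    rcases h with h | ⟨x, hx⟩
    · exact h
    · exact absurd (hallbot x) hx
  -- G has no proper nontrivial subgroups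
  have hco' : IsCoatom (⊥ : Subgroup G) := hSbot ▸ hco
  have hg1 : g ≠ 1 := by
    intro h1
    apply hgS
    rw [h1]
    exact S.one_mem
  have hnt' : Nontrivial G := ⟨⟨g, 1, hg1⟩⟩
  have hsub : ∀ H : Subgroup G, H = ⊥ ∨ H = ⊤ := by
    intro H
    by_cases hH : H = ⊥
    · exact Or.inl hH
    · exact Or.inr (hco'.2 H (bot_lt_iff_ne_bot.mpr hH))
  have hcyc : IsCyclic G := by
    refine ⟨⟨g, ?_⟩⟩
    have : Subgroup.zpowers g = ⊤ := by
      rcases hsub (Subgroup.zpowers g) with h | h
      · exact absurd (Subgroup.zpowers_eq_bot.mp h) hg1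
      · exact h
    exact (Subgroup.eq_top_iff' _).1 this
  have hcomm : IsMulCommutative G := by
    letI := IsCyclic.commGroup (α := G)
    exact ⟨⟨fun x y => mul_comm x y⟩⟩
  have hsimple : IsSimpleGroup G :=
    { eq_bot_or_eq_top_of_normal := fun H _ => hsub H }
  have hprime : (Nat.card G).Prime := Group.is_simple_iff_prime_card.mp hsimple
  have hcard : Nat.card G = Nat.card α := by
    refine Nat.card_congr (Equiv.ofBijective (fun x : G => x • a) ⟨?_, ?_⟩)
    · intro x y hxy
      have : y⁻¹ * x ∈ S := by
        change (y⁻¹ * x) • a = a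
        rw [mul_smul, inv_smul_eq_iff]
        exact hxy
      rw [hSbot, Subgroup.mem_bot] at this
      exact (inv_mul_eq_one.mp this).symm
    · intro x
      exact MulAction.exists_smul_eq G a x
  exact hnotprime (hcard ▸ hprime)

end Cfsg.Agent.S0707
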