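import Mathlib
import Cfsg.Statements.S0708
import Cfsg.Agent.Lib.MultiTrans

set_option autoImplicit false
set_option linter.style.haveILetI false
open Cfsg

namespace Cfsg.Agent.S0708

open MulAction

variable {G Ω : Type*} [Group G] [MulAction G Ω]

/-- four distinct points -/
def D4 (p q r t : Ω) : Prop := p ≠ q ∧ p ≠ r ∧ p ≠ t ∧ q ≠ r ∧ q ≠ t ∧ r ≠ t

variable (G Ω) in
/-- only the identity fixes four distinct points -/
def Fix4 : Prop :=
  ∀ (g : G) (p q r t : Ω), D4 p q r t → g • p = p → g • q = q → g • r = r → g • t = t → g = 1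

variable (G Ω) in
/-- four transitivity -/
def Tr4 : Prop :=
  ∀ p q r t p' q' r' t' : Ω, D4 p q r t → D4 p' q' r' t' →
    ∃ g : G, g • p = p' ∧ g • q = q' ∧ g • r = r' ∧ g • t = t'

/-- `g` swaps `p`, `q` and fixes `r`, `t` -/
def Sw (g : G) (p q r t : Ω) : Prop := g • p = q ∧ g • q = p ∧ g • r = r ∧ g • t = t

omit [MulAction G Ω] in
lemma D4.rot {p q r t : Ω} (h : D4 p q r t) : D4 r t p q := by
  obtain ⟨h1, h2, h3, h4, h5, h6⟩ := h
  exact ⟨h6, h2.symm, h4.symm, h3.symm, h5.symm, h1⟩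

omit [MulAction G Ω] in
lemma D4.sw1 {p q r t : Ω} (h : D4 p q r t) : D4 q p r t := by
  obtain ⟨h1, h2, h3, h4, h5, h6⟩ := h
  exact ⟨h1.symm, h4, h5, h2, h3, h6⟩

omit [MulAction G Ω] in
lemma D4.sw2 {p q r t : Ω} (h : D4 p q r t) : D4 p q t r := by
  obtain ⟨h1, h2, h3, h4, h5, h6⟩ := h
  exact ⟨h1, h3, h2, h5, h4, h6.symm⟩

lemma D4.smul {p q r t : Ω} (h : D4 p q r t) (g : G) : D4 (g • p) (g • q) (g • r) (g • t) := by
  obtain ⟨h1, h2, h3, h4, h5, h6⟩ := h
  exact ⟨fun e => h1 (MulAction.injective g e), fun e => h2 (MulAction.injective g e),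
    fun e => h3 (MulAction.injective g e), fun e => h4 (MulAction.injective g e),
    fun e => h5 (MulAction.injective g e), fun e => h6 (MulAction.injective g e)⟩

lemma uniq (hU : Fix4 G Ω) {p q r t : Ω} (hD : D4 p q r t) {g g' : G}
    (h1 : g • p = g' • p) (h2 : g • q = g' • q) (h3 : g • r = g' • r) (h4 : g • t = g' • t) :
    g = g' := by
  have := hU (g'⁻¹ * g) p q r t hD (by rw [mul_smul, h1, inv_smul_smul])
    (by rw [mul_smul, h2, inv_smul_smul]) (by rw [mul_smul, h3, inv_smul_smul])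
    (by rw [mul_smul, h4, inv_smul_smul])
  exact (inv_mul_eq_one.mp this).symm

lemma Sw.uniq (hU : Fix4 G Ω) {p q r t : Ω} (hD : D4 p q r t) {g g' : G}
    (h : Sw g p q r t) (h' : Sw g' p q r t) : g = g' :=
  Cfsg.Agent.S0708.uniq hU hD (h.1.trans h'.1.symm) (h.2.1.trans h'.2.1.symm)
    (h.2.2.1.trans h'.2.2.1.symm) (h.2.2.2.trans h'.2.2.2.symm)

lemma Sw.sq (hU : Fix4 G Ω) {p q r t : Ω} (hD : D4 p q r t) {g : G} (h : Sw g p q r t) :
    g * g = 1 :=
  hU _ p q r t hD (by rw [mul_smul, h.1, h.2.1]) (by rw [mul_smul, h.2.1, h.1])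
    (by rw [mul_smul, h.2.2.1, h.2.2.1]) (by rw [mul_smul, h.2.2.2, h.2.2.2])

lemma Sw.smul_smul (hU : Fix4 G Ω) {p q r t : Ω} (hD : D4 p q r t) {g : G} (h : Sw g p q r t)
    (x : Ω) : g • (g • x) = x := by
  rw [← mul_smul, h.sq hU hD, one_smul]

lemma Sw.conj {p q r t : Ω} {g : G} (h : Sw g p q r t) (k : G) :
    Sw (k * g * k⁻¹) (k • p) (k • q) (k • r) (k • t) := by
  obtain ⟨h1, h2, h3, h4⟩ := h
  refine ⟨?_, ?_, ?_, ?_⟩ <;> simp [mul_smul, h1, h2, h3, h4]

lemma Sw.swap1 {p q r t : Ω} {g : G} (h : Sw g p q r t) : Sw g q p r t :=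
  ⟨h.2.1, h.1, h.2.2.1, h.2.2.2⟩

lemma Sw.swap2 {p q r t : Ω} {g : G} (h : Sw g p q r t) : Sw g p q t r :=
  ⟨h.1, h.2.1, h.2.2.2, h.2.2.1⟩

lemma exists_Sw (hT : Tr4 G Ω) {p q r t : Ω} (hD : D4 p q r t) : ∃ g : G, Sw g p q r t := by
  obtain ⟨g, h1, h2, h3, h4⟩ := hT p q r t q p r t hD hD.sw1
  exact ⟨g, h1, h2, h3, h4⟩

/-- an element that preserves the data of an involution commutes with it -/
lemma comm_of_sw (hU : Fix4 G Ω) {p q r t : Ω} (hD : D4 p q r t) {i : G} (hi : Sw i p q r t)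
    (z : G) (hz : Sw i (z • p) (z • q) (z • r) (z • t)) : z * i = i * z := by
  have h1 := (hi.conj z).uniq hU (hD.smul z) hz
  rw [mul_inv_eq_iff_eq_mul] at h1
  exact h1

/-- `g` has a third fixed point -/
def Third (g : G) (r t : Ω) : Prop := ∃ e, e ≠ r ∧ e ≠ t ∧ g • e = e

variable (G Ω) in
/-- some "transposition" fixes a third point -/
def CaseB : Prop :=
  ∃ (g : G) (p q r t : Ω), D4 p q r t ∧ Sw g p q r t ∧ Third g r t

lemma third_of_caseB (hT : Tr4 G Ω) (hU : Fix4 G Ω) (hB : CaseB G Ω) {g' : G} {p' q' r' t' : Ω}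
    (hD' : D4 p' q' r' t') (hg' : Sw g' p' q' r' t') : Third g' r' t' := by
  obtain ⟨g, p, q, r, t, hD, hg, e, he1, he2, he3⟩ := hB
  obtain ⟨k, h1, h2, h3, h4⟩ := hT p q r t p' q' r' t' hD hD'
  have hconj : Sw (k * g * k⁻¹) p' q' r' t' := by
    have := hg.conj k
    rwa [h1, h2, h3, h4] at this
  have heq := hg'.uniq hU hD' hconj
  refine ⟨k • e, ?_, ?_, ?_⟩
  · rw [← h3]; exact fun h => he1 (MulAction.injective k h)
  · rw [← h4]; exact fun h => he2 (MulAction.injective k h)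
  · rw [heq]; simp [mul_smul, he3]

lemma encard_le_three_of_no4 (S : Set Ω)
    (h : ∀ p q r t, p ∈ S → q ∈ S → r ∈ S → t ∈ S → D4 p q r t → False) : S.encard ≤ 3 := by
  by_contra hc
  have h4 : (4 : ℕ∞) ≤ S.encard := by
    have := not_le.mp hc
    exact Order.add_one_le_of_lt this
  obtain ⟨T, hTS, hT4⟩ := Set.exists_subset_encard_eq h4
  obtain ⟨x, y, z, w, h1, h2, h3, h4, h5, h6, rfl⟩ := Set.encard_eq_four.mp hT4
  exact h x y z w (hTS (by simp)) (hTS (by simp)) (hTS (by simp)) (hTS (by simp))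
    ⟨h1, h2, h3, h4, h5, h6⟩

lemma encard_le_two_of_no3 (S : Set Ω)
    (h : ∀ p q r, p ∈ S → q ∈ S → r ∈ S → p ≠ q → p ≠ r → q ≠ r → False) : S.encard ≤ 2 := by
  by_contra hc
  have h4 : (3 : ℕ∞) ≤ S.encard := by
    have := not_le.mp hc
    exact Order.add_one_le_of_lt this
  obtain ⟨T, hTS, hT4⟩ := Set.exists_subset_encard_eq h4
  obtain ⟨x, y, z, h1, h2, h3, rfl⟩ := Set.encard_eq_three.mp hT4
  exact h x y z (hTS (by simp)) (hTS (by simp)) (hTS (by simp)) h1 h2 h3

/-- Case A: no "transposition" has a third fixed point; then there are at most 7 points. -/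
theorem bound_A (hT : Tr4 G Ω) (hU : Fix4 G Ω) (hA : ¬ CaseB G Ω) {a b c d : Ω}
    (hD : D4 a b c d) : (Set.univ : Set Ω).encard ≤ 7 := by
  obtain ⟨z, hz⟩ := exists_Sw hT hD
  obtain ⟨s, hs⟩ := exists_Sw hT hD.rot
  have noThird : ∀ (g : G) (p q r t : Ω), D4 p q r t → Sw g p q r t → ∀ e, e ≠ r → e ≠ t →
      g • e ≠ e := fun g p q r t hD' hg e h1 h2 h3 => hA ⟨g, p, q, r, t, hD', hg, e, h1, h2, h3⟩
  have hzz := hz.smul_smul hU hD
  have key : ∀ x, x ≠ a → x ≠ b → x ≠ c → x ≠ d → s • x = z • x := by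
    intro x hxa hxb hxc hxd
    have hx'x : z • x ≠ x := noThird z a b c d hD hz x hxc hxd
    have hx'a : z • x ≠ a := fun h => hxb (by
      have := hzz x; rw [h, hz.1] at this; exact this.symm)
    have hx'b : z • x ≠ b := fun h => hxa (by
      have := hzz x; rw [h, hz.2.1] at this; exact this.symm)
    have hD2 : D4 x (z • x) a b := ⟨hx'x.symm, hxa, hxb, hx'a, hx'b, hD.1⟩
    obtain ⟨i, hi⟩ := exists_Sw hT hD2
    have comm : z * i = i * z := comm_of_sw hU hD2 hi z (by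
      rw [hzz x, hz.1, hz.2.1]
      exact hi.swap1.swap2)
    have h1 : z • (i • c) = i • c := by
      rw [← mul_smul, comm, mul_smul, hz.2.2.1]
    have hic : i • c ≠ c := noThird i x (z • x) a b hD2 hi c hD.2.1.symm hD.2.2.2.1.symm
    have hid : i • c = d := by
      by_contra hcon
      exact noThird z a b c d hD hz (i • c) hic hcon h1
    have hid' : i • d = c := by
      rw [← hid]; exact hi.smul_smul hU hD2 c
    have hS : Sw i c d a b := ⟨hid, hid', hi.2.2.1, hi.2.2.2⟩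
    have his : i = s := hS.uniq hU hD.rot hs
    rw [← his]
    exact hi.1
  have hne : z⁻¹ * s ≠ 1 := by
    intro h
    have h2 : s = z := (inv_mul_eq_one.mp h).symm
    have h3 : s • a = a := hs.2.2.1
    rw [h2, hz.1] at h3
    exact hD.1 h3.symm
  have hS : ({x | x ≠ a ∧ x ≠ b ∧ x ≠ c ∧ x ≠ d} : Set Ω).encard ≤ 3 := by
    apply encard_le_three_of_no4
    rintro p q r t ⟨hp1, hp2, hp3, hp4⟩ ⟨hq1, hq2, hq3, hq4⟩ ⟨hr1, hr2, hr3, hr4⟩
      ⟨ht1, ht2, ht3, ht4⟩ hD3
    exact hne (hU _ p q r t hD3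
      (by rw [mul_smul, key p hp1 hp2 hp3 hp4, inv_smul_smul])
      (by rw [mul_smul, key q hq1 hq2 hq3 hq4, inv_smul_smul])
      (by rw [mul_smul, key r hr1 hr2 hr3 hr4, inv_smul_smul])
      (by rw [mul_smul, key t ht1 ht2 ht3 ht4, inv_smul_smul]))
  have hsub : (Set.univ : Set Ω) ⊆ {a, b, c, d} ∪ {x | x ≠ a ∧ x ≠ b ∧ x ≠ c ∧ x ≠ d} := by
    intro x _
    by_cases h1 : x = a
    · simp [h1]
    by_cases h2 : x = b
    · simp [h2]
    by_cases h3 : x = c
    · simp [h3]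
    by_cases h4 : x = d
    · simp [h4]
    right
    exact ⟨h1, h2, h3, h4⟩
  have h4 : ({a, b, c, d} : Set Ω).encard ≤ 4 := by
    refine (Set.encard_insert_le _ _).trans ?_
    have h3 : ({b, c, d} : Set Ω).encard ≤ 3 := by
      refine (Set.encard_insert_le _ _).trans ?_
      have h2 : ({c, d} : Set Ω).encard ≤ 2 :=
        (Set.encard_insert_le _ _).trans (by rw [Set.encard_singleton]; norm_num)
      calc ({c, d} : Set Ω).encard + 1 ≤ 2 + 1 := by gcongr
        _ = 3 := by norm_num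
    calc ({b, c, d} : Set Ω).encard + 1 ≤ 3 + 1 := by gcongr
      _ = 4 := by norm_num
  calc (Set.univ : Set Ω).encard ≤ _ := Set.encard_le_encard hsub
    _ ≤ _ := Set.encard_union_le _ _
    _ ≤ 4 + 3 := by gcongr
    _ = 7 := by norm_num

/-- `i` is an involution fixing `a`, `b`, `y` -/
def Inv3 (i : G) (a b y : Ω) : Prop := i * i = 1 ∧ i ≠ 1 ∧ i • a = a ∧ i • b = b ∧ i • y = y

lemma fix_unique (hU : Fix4 G Ω) {g : G} (hg : g ≠ 1) {r t e w : Ω} (hrt : r ≠ t) (hre : r ≠ e)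
    (hte : t ≠ e) (fr : g • r = r) (ft : g • t = t) (fe : g • e = e) (fw : g • w = w) :
    w = r ∨ w = t ∨ w = e := by
  by_contra hcon
  push Not at hcon
  exact hg (hU g r t e w ⟨hrt, hre, hcon.1.symm, hte, hcon.2.1.symm, hcon.2.2.symm⟩ fr ft fe fw)

/-- Uniqueness of the involution with three given fixed points in case B. -/
lemma Inv3.unique (hT : Tr4 G Ω) (hU : Fix4 G Ω) (hB : CaseB G Ω) {a b y p q r t : Ω}
    (hDany : D4 p q r t) (hab : a ≠ b) (hay : a ≠ y) (hby : b ≠ y) {i₁ i₂ : G}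
    (h₁ : Inv3 i₁ a b y) (h₂ : Inv3 i₂ a b y) : i₁ = i₂ := by
  -- a point moved by `i₁`
  obtain ⟨x, hx⟩ : ∃ x, i₁ • x ≠ x := by
    by_contra hcon
    push Not at hcon
    exact h₁.2.1 (hU _ p q r t hDany (hcon p) (hcon q) (hcon r) (hcon t))
  have hi₁ : ∀ w : Ω, i₁ • (i₁ • w) = w := fun w => by rw [← mul_smul, h₁.1, one_smul]
  have hi₂ : ∀ w : Ω, i₂ • (i₂ • w) = w := fun w => by rw [← mul_smul, h₂.1, one_smul]
  have hxa : x ≠ a := fun h => hx (by rw [h, h₁.2.2.1])
  have hxb : x ≠ b := fun h => hx (by rw [h, h₁.2.2.2.1])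
  have hxy : x ≠ y := fun h => hx (by rw [h, h₁.2.2.2.2])
  have hx₂ : i₂ • x ≠ x := fun h =>
    h₂.2.1 (hU _ a b y x ⟨hab, hay, hxa.symm, hby, hxb.symm, hxy.symm⟩ h₂.2.2.1 h₂.2.2.2.1 h₂.2.2.2.2 h)
  -- general construction
  have step : ∀ i : G, Inv3 i a b y → i • x ≠ x → ∃ j : G, Sw j a b x (i • x) ∧ j • y = y ∧
      ∀ w, j • w = w → w = x ∨ w = i • x ∨ w = y := by
    intro i hi hix
    have hii : ∀ w : Ω, i • (i • w) = w := fun w => by rw [← mul_smul, hi.1, one_smul]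
    have hixa : i • x ≠ a := fun h => hxa (by rw [← hii x, h, hi.2.2.1])
    have hixb : i • x ≠ b := fun h => hxb (by rw [← hii x, h, hi.2.2.2.1])
    have hD : D4 a b x (i • x) := ⟨hab, hxa.symm, hixa.symm, hxb.symm, hixb.symm, hix.symm⟩
    obtain ⟨j, hj⟩ := exists_Sw hT hD
    have comm : i * j = j * i := comm_of_sw hU hD hj i (by
      rw [hi.2.2.1, hi.2.2.2.1, hii x]
      exact hj.swap2)
    have hjne : j ≠ 1 := fun h => hab (by have := hj.1; rw [h, one_smul] at this; exact this)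
    obtain ⟨w, hw1, hw2, hw3⟩ := third_of_caseB hT hU hB hD hj
    have hfixj : ∀ w', j • w' = w' → w' = x ∨ w' = i • x ∨ w' = w := fun w' h' =>
      fix_unique hU hjne hix.symm hw1.symm hw2.symm hj.2.2.1 hj.2.2.2 hw3 h'
    have hiw : j • (i • w) = i • w := by
      rw [← mul_smul, ← comm, mul_smul, hw3]
    have hiw' : i • w = w := by
      rcases hfixj _ hiw with h | h | h
      · exact absurd (by rw [← hii w, h]) hw2
      · exact absurd (by rw [← hii w, h, hii x]) hw1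
      · exact h
    have hwa : w ≠ a := fun h => by
      have h3 := hj.1
      rw [← h, hw3] at h3
      exact hab (h.symm.trans h3)
    have hwb : w ≠ b := fun h => by
      have h3 := hj.2.1
      rw [← h, hw3] at h3
      exact hab (h3.symm.trans h)
    have hwy : w = y := by
      rcases fix_unique hU hi.2.1 hab hay hby hi.2.2.1 hi.2.2.2.1 hi.2.2.2.2 hiw' with h | h | h
      · exact absurd h hwa
      · exact absurd h hwb
      · exact h
    subst hwy
    exact ⟨j, hj, hw3, hfixj⟩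
  obtain ⟨j₁, hj₁, hj₁y, hj₁f⟩ := step i₁ h₁ hx
  obtain ⟨j₂, hj₂, hj₂y, hj₂f⟩ := step i₂ h₂ hx₂
  have heq : j₁ = j₂ := Cfsg.Agent.S0708.uniq hU (p := a) (q := b) (r := x) (t := y)
    ⟨hab, hxa.symm, hay, hxb.symm, hby, hxy⟩
    (hj₁.1.trans hj₂.1.symm) (hj₁.2.1.trans hj₂.2.1.symm)
    (hj₁.2.2.1.trans hj₂.2.2.1.symm) (hj₁y.trans hj₂y.symm)
  have h2 : j₁ • (i₂ • x) = i₂ • x := by rw [heq]; exact hj₂.2.2.2
  have hxx : i₂ • x = i₁ • x := by
    rcases hj₁f _ h2 with h | h | h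
    · exact absurd h hx₂
    · exact h
    · exfalso
      apply hxy
      rw [← hi₂ x, h, h₂.2.2.2.2]
  exact Cfsg.Agent.S0708.uniq hU (p := a) (q := b) (r := y) (t := x)
    ⟨hab, hay, hxa.symm, hby, hxb.symm, hxy.symm⟩
    (h₁.2.2.1.trans h₂.2.2.1.symm) (h₁.2.2.2.1.trans h₂.2.2.2.1.symm)
    (h₁.2.2.2.2.trans h₂.2.2.2.2.symm) hxx.symm

/-- Case B: "transpositions" have a third fixed point; then there are at most 11 points, and an
involution with exactly three fixed points exists. -/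
theorem bound_B (hT : Tr4 G Ω) (hU : Fix4 G Ω) (hB : CaseB G Ω) {a b c d : Ω}
    (hD : D4 a b c d) : (Set.univ : Set Ω).encard ≤ 11 := by
  obtain ⟨z, hz⟩ := exists_Sw hT hD
  obtain ⟨e, he1, he2, he3⟩ := third_of_caseB hT hU hB hD hz
  have hzz := hz.smul_smul hU hD
  have hzne : z ≠ 1 := fun h => hD.1 (by have := hz.1; rw [h, one_smul] at this; exact this)
  have hfz : ∀ w, z • w = w → w = c ∨ w = d ∨ w = e := fun w h =>
    fix_unique hU hzne hD.2.2.2.2.2 he1.symm he2.symm hz.2.2.1 hz.2.2.2 he3 h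
  have hea : e ≠ a := fun h => by
    have h3 := hz.1
    rw [← h, he3] at h3
    exact hD.1 (h.symm.trans h3)
  have heb : e ≠ b := fun h => by
    have h3 := hz.2.1
    rw [← h, he3] at h3
    exact hD.1 (h3.symm.trans h)
  -- the classes
  let C : Ω → Set Ω := fun y => {x | x ≠ a ∧ x ≠ b ∧ x ≠ c ∧ x ≠ d ∧ x ≠ e ∧
    ∃ i : G, Inv3 i a b y ∧ i • x = z • x}
  have hCbound : ∀ y, y = c ∨ y = d ∨ y = e → (C y).encard ≤ 2 := by
    intro y hy
    have hay : a ≠ y := by
      rcases hy with rfl | rfl | rfl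
      · exact hD.2.1
      · exact hD.2.2.1
      · exact hea.symm
    have hby : b ≠ y := by
      rcases hy with rfl | rfl | rfl
      · exact hD.2.2.2.1
      · exact hD.2.2.2.2.1
      · exact heb.symm
    apply encard_le_two_of_no3
    rintro x₁ x₂ x₃ ⟨h11, h12, h13, h14, h15, i₁, hi₁, hx₁⟩ ⟨h21, h22, h23, h24, h25, i₂, hi₂, hx₂⟩
      ⟨h31, h32, h33, h34, h35, i₃, hi₃, hx₃⟩ h12' h13' h23'
    have e1 := Inv3.unique hT hU hB hD hD.1 hay hby hi₁ hi₂
    have e2 := Inv3.unique hT hU hB hD hD.1 hay hby hi₁ hi₃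
    subst e1
    subst e2
    have hy1 : x₁ ≠ y := by rcases hy with rfl | rfl | rfl <;> assumption
    have hy2 : x₂ ≠ y := by rcases hy with rfl | rfl | rfl <;> assumption
    have hy3 : x₃ ≠ y := by rcases hy with rfl | rfl | rfl <;> assumption
    have hone : z⁻¹ * i₁ = 1 := hU _ x₁ x₂ x₃ y ⟨h12', h13', hy1, h23', hy2, hy3⟩
      (by rw [mul_smul, hx₁, inv_smul_smul]) (by rw [mul_smul, hx₂, inv_smul_smul])
      (by rw [mul_smul, hx₃, inv_smul_smul])
      (by
        have hzy : z • y = y := by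
          rcases hy with rfl | rfl | rfl
          · exact hz.2.2.1
          · exact hz.2.2.2
          · exact he3
        have h5 : z⁻¹ • y = y := by
          rw [inv_smul_eq_iff]; exact hzy.symm
        rw [mul_smul, hi₁.2.2.2.2, h5])
    have h2 : i₁ = z := (inv_mul_eq_one.mp hone).symm
    have h3 := hi₁.2.2.1
    rw [h2, hz.1] at h3
    exact hD.1 h3.symm
  -- every other point lies in a class
  have hcover : ∀ x, x ≠ a → x ≠ b → x ≠ c → x ≠ d → x ≠ e → x ∈ C c ∨ x ∈ C d ∨ x ∈ C e := by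
    intro x hxa hxb hxc hxd hxe
    have hx'x : z • x ≠ x := fun h => by
      rcases hfz x h with h' | h' | h'
      · exact hxc h'
      · exact hxd h'
      · exact hxe h'
    have hx'a : z • x ≠ a := fun h => hxb (by
      have := hzz x; rw [h, hz.1] at this; exact this.symm)
    have hx'b : z • x ≠ b := fun h => hxa (by
      have := hzz x; rw [h, hz.2.1] at this; exact this.symm)
    have hD2 : D4 x (z • x) a b := ⟨hx'x.symm, hxa, hxb, hx'a, hx'b, hD.1⟩
    obtain ⟨i, hi⟩ := exists_Sw hT hD2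
    have comm : z * i = i * z := comm_of_sw hU hD2 hi z (by
      rw [hzz x, hz.1, hz.2.1]
      exact hi.swap1.swap2)
    have hine : i ≠ 1 := fun h => hx'x (by have := hi.1; rw [h, one_smul] at this; exact this.symm)
    obtain ⟨y, hy1, hy2, hy3⟩ := third_of_caseB hT hU hB hD2 hi
    have hfi : ∀ w, i • w = w → w = a ∨ w = b ∨ w = y := fun w h =>
      fix_unique hU hine hD.1 hy1.symm hy2.symm hi.2.2.1 hi.2.2.2 hy3 h
    have hzy : i • (z • y) = z • y := by
      rw [← mul_smul, ← comm, mul_smul, hy3]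
    have hzy' : z • y = y := by
      rcases hfi _ hzy with h | h | h
      · exact absurd (by rw [← hzz y, h, hz.1]) hy2
      · exact absurd (by rw [← hzz y, h, hz.2.1]) hy1
      · exact h
    have hI : Inv3 i a b y := ⟨hi.sq hU hD2, hine, hi.2.2.1, hi.2.2.2, hy3⟩
    have hmem : x ∈ C y := ⟨hxa, hxb, hxc, hxd, hxe, i, hI, hi.1⟩
    rcases hfz y hzy' with h | h | h
    · subst h; exact Or.inl hmem
    · subst h; exact Or.inr (Or.inl hmem)
    · subst h; exact Or.inr (Or.inr hmem)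
  have hsub : (Set.univ : Set Ω) ⊆ ({a, b, c, d, e} ∪ C c) ∪ (C d ∪ C e) := by
    intro x _
    by_cases h1 : x = a
    · simp [h1]
    by_cases h2 : x = b
    · simp [h2]
    by_cases h3 : x = c
    · simp [h3]
    by_cases h4 : x = d
    · simp [h4]
    by_cases h5 : x = e
    · simp [h5]
    rcases hcover x h1 h2 h3 h4 h5 with h | h | h
    · exact Or.inl (Or.inr h)
    · exact Or.inr (Or.inl h)
    · exact Or.inr (Or.inr h)
  have h5 : ({a, b, c, d, e} : Set Ω).encard ≤ 5 := by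
    refine (Set.encard_insert_le _ _).trans ?_
    have h4 : ({b, c, d, e} : Set Ω).encard ≤ 4 := by
      refine (Set.encard_insert_le _ _).trans ?_
      have h3 : ({c, d, e} : Set Ω).encard ≤ 3 := by
        refine (Set.encard_insert_le _ _).trans ?_
        have h2 : ({d, e} : Set Ω).encard ≤ 2 :=
          (Set.encard_insert_le _ _).trans (by rw [Set.encard_singleton]; norm_num)
        calc ({d, e} : Set Ω).encard + 1 ≤ 2 + 1 := by gcongr
          _ = 3 := by norm_num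
      calc ({c, d, e} : Set Ω).encard + 1 ≤ 3 + 1 := by gcongr
        _ = 4 := by norm_num
    calc ({b, c, d, e} : Set Ω).encard + 1 ≤ 4 + 1 := by gcongr
      _ = 5 := by norm_num
  have hc := hCbound c (Or.inl rfl)
  have hd := hCbound d (Or.inr (Or.inl rfl))
  have he := hCbound e (Or.inr (Or.inr rfl))
  calc (Set.univ : Set Ω).encard ≤ _ := Set.encard_le_encard hsub
    _ ≤ _ := Set.encard_union_le _ _
    _ ≤ (({a, b, c, d, e} : Set Ω).encard + (C c).encard) + ((C d).encard + (C e).encard) := by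
      gcongr <;> exact Set.encard_union_le _ _
    _ ≤ (5 + 2) + (2 + 2) := by gcongr
    _ = 11 := by norm_num

/-- In case B the degree is odd. -/
theorem odd_B [Finite Ω] (hT : Tr4 G Ω) (hU : Fix4 G Ω) (hB : CaseB G Ω) {a b c d : Ω}
    (hD : D4 a b c d) : Odd (Nat.card Ω) := by
  classical
  have := Fintype.ofFinite Ω
  obtain ⟨z, hz⟩ := exists_Sw hT hD
  obtain ⟨e, he1, he2, he3⟩ := third_of_caseB hT hU hB hD hz
  have hzne : z ≠ 1 := fun h => hD.1 (by have := hz.1; rw [h, one_smul] at this; exact this)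
  have hfz : ∀ w, z • w = w → w = c ∨ w = d ∨ w = e := fun w h =>
    fix_unique hU hzne hD.2.2.2.2.2 he1.symm he2.symm hz.2.2.1 hz.2.2.2 he3 h
  let f : Function.End Ω := fun x => z • x
  have hf : f ^ 2 ^ 1 = 1 := by
    funext x
    change z • (z • x) = x
    exact hz.smul_smul hU hD x
  haveI : Fact (Nat.Prime 2) := ⟨Nat.prime_two⟩
  have hm := Equiv.Perm.card_fixedPoints_modEq (p := 2) (n := 1) hf
  have hfp : f.fixedPoints = {c, d, e} := by
    ext w
    constructor
    · intro h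
      rcases hfz w h with h' | h' | h' <;> simp [h']
    · rintro (rfl | rfl | rfl)
      · exact hz.2.2.1
      · exact hz.2.2.2
      · exact he3
  have hcard : Fintype.card f.fixedPoints = 3 := by
    rw [← Nat.card_eq_fintype_card, Nat.card_coe_set_eq, hfp]
    exact Set.ncard_eq_three.mpr ⟨c, d, e, hD.2.2.2.2.2, he1.symm, he2.symm, rfl⟩
  rw [hcard] at hm
  rw [Nat.card_eq_fintype_card, Nat.odd_iff]
  exact hm

/-- Tits' argument: a sharply 4-transitive group (no finiteness assumed) has finite degree at most 11, and at most 6 when the degree is even. -/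
theorem result {G : Type*} [Group G] {Ω : Type*} [MulAction G Ω] (h4 : MulAction.IsMultiplyPretransitive G Ω 4) (hsharp : ∀ x : Fin 4 ↪ Ω, MulAction.stabilizer G x = ⊥) (hne : Nonempty (Fin 4 ↪ Ω)) : Finite Ω ∧ Nat.card Ω ≤ 11 ∧ (Even (Nat.card Ω) → Nat.card Ω ≤ 6) := by
  -- four-point data
  have tup : ∀ p q r t : Ω, D4 p q r t → Function.Injective ![p, q, r, t] := by
    rintro p q r t ⟨h1, h2, h3, h4, h5, h6⟩ i j hij
    fin_cases i <;> fin_cases j <;> simp_all
  have hT : Tr4 G Ω := by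
    intro p q r t p' q' r' t' hD hD'
    obtain ⟨g, hg⟩ := Lib.MultiTrans.exists_smul_tuple h4 _ _ (tup p q r t hD) (tup p' q' r' t' hD')
    exact ⟨g, hg 0, hg 1, hg 2, hg 3⟩
  have hU : Fix4 G Ω := by
    intro g p q r t hD h1 h2 h3 h4'
    have hmem : g ∈ MulAction.stabilizer G (⟨![p, q, r, t], tup p q r t hD⟩ : Fin 4 ↪ Ω) := by
      rw [MulAction.mem_stabilizer_iff]
      ext i
      fin_cases i
      · exact h1
      · exact h2
      · exact h3
      · exact h4'
    rw [hsharp] at hmem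
    exact hmem
  obtain ⟨x⟩ := hne
  have hD : D4 (x 0) (x 1) (x 2) (x 3) := by
    refine ⟨?_, ?_, ?_, ?_, ?_, ?_⟩ <;> exact fun h => by
      have := x.injective h
      simp at this
  by_cases hB : CaseB G Ω
  · have hb := bound_B hT hU hB hD
    have hb' : (Set.univ : Set Ω).encard ≤ (11 : ℕ) := by simpa using hb
    obtain ⟨hfin, hcard⟩ := Set.encard_le_coe_iff_finite_ncard_le.mp hb'
    have : Finite Ω := Set.finite_univ_iff.mp hfin
    refine ⟨this, by rwa [Set.ncard_univ] at hcard, fun hev => ?_⟩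
    have hodd := odd_B hT hU hB hD
    exact absurd hev (Nat.not_even_iff_odd.mpr hodd)
  · have hb := bound_A hT hU hB hD
    have hb' : (Set.univ : Set Ω).encard ≤ (7 : ℕ) := by simpa using hb
    obtain ⟨hfin, hcard⟩ := Set.encard_le_coe_iff_finite_ncard_le.mp hb'
    have : Finite Ω := Set.finite_univ_iff.mp hfin
    rw [Set.ncard_univ] at hcard
    refine ⟨this, by omega, fun hev => ?_⟩
    rcases Nat.even_iff.mp hev with h
    omega

end Cfsg.Agent.S0708
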