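import Mathlib
import Cfsg.Statements.S0709

set_option autoImplicit false
open Cfsg

namespace Cfsg.Agent.S0709

open Equiv

/-- `k`-transitivity on a subset. -/
def TransOn {α : Type*} (A : Subgroup (Perm α)) (Ω : Set α) (k : ℕ) : Prop :=
  ∀ x y : Fin k → α, Function.Injective x → Function.Injective y → (∀ i, x i ∈ Ω) →
    (∀ i, y i ∈ Ω) → ∃ g ∈ A, ∀ i, g (x i) = y i

section step

variable {W : Type*} [Group W]

/-- The double coset step. -/
lemma dc_step (A B : Subgroup W) (s x : W) (hBA : B ≤ A) (hx : x ∈ A)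
    (hsB : ∀ b ∈ B, s * b * s⁻¹ ∈ B) (hs2 : s ^ 2 ∈ B)
    (hdc : ∀ a ∈ A, a ∈ B ∨ ∃ b₁ ∈ B, ∃ b₂ ∈ B, a = b₁ * x * b₂)
    (hbr : (x * s) ^ 3 ∈ A) :
    ∀ g ∈ Subgroup.closure ((A : Set W) ∪ {s}), g ∈ A ∨ ∃ a₁ ∈ A, ∃ a₂ ∈ A, g = a₁ * s * a₂ := by
  have hsB' : ∀ b ∈ B, s⁻¹ * b * s ∈ B := by
    intro b hb
    have h1 := hsB b hb
    have e : s⁻¹ * b * s = (s ^ 2)⁻¹ * (s * b * s⁻¹) * s ^ 2 := by group
    rw [e]
    exact B.mul_mem (B.mul_mem (B.inv_mem hs2) h1) hs2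
  have hL : ∀ a ∈ A, s * a * s ∈ A ∨ ∃ a₁ ∈ A, ∃ a₂ ∈ A, s * a * s = a₁ * s * a₂ := by
    intro a ha
    rcases hdc a ha with hb | ⟨b₁, hb₁, b₂, hb₂, rfl⟩
    · left
      have : s * a * s = (s * a * s⁻¹) * s ^ 2 := by group
      rw [this]
      exact hBA (B.mul_mem (hsB a hb) hs2)
    · right
      refine ⟨(s * b₁ * s⁻¹) * x⁻¹ * (x * s) ^ 3,
        A.mul_mem (A.mul_mem (hBA (hsB b₁ hb₁)) (A.inv_mem hx)) hbr,
        (s ^ 2)⁻¹ * x⁻¹ * (s⁻¹ * b₂ * s),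
        A.mul_mem (A.mul_mem (A.inv_mem (hBA hs2)) (A.inv_mem hx)) (hBA (hsB' b₂ hb₂)), ?_⟩
      simp only [pow_succ, pow_zero, one_mul]
      group
  have hleft : ∀ a ∈ A, ∀ g, (g ∈ A ∨ ∃ a₁ ∈ A, ∃ a₂ ∈ A, g = a₁ * s * a₂) →
      (a * g ∈ A ∨ ∃ a₁ ∈ A, ∃ a₂ ∈ A, a * g = a₁ * s * a₂) := by
    rintro a ha g (hg | ⟨a₁, h1, a₂, h2, rfl⟩)
    · exact Or.inl (A.mul_mem ha hg)
    · exact Or.inr ⟨a * a₁, A.mul_mem ha h1, a₂, h2, by group⟩
  have hright : ∀ a ∈ A, ∀ g, (g ∈ A ∨ ∃ a₁ ∈ A, ∃ a₂ ∈ A, g = a₁ * s * a₂) →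
      (g * a ∈ A ∨ ∃ a₁ ∈ A, ∃ a₂ ∈ A, g * a = a₁ * s * a₂) := by
    rintro a ha g (hg | ⟨a₁, h1, a₂, h2, rfl⟩)
    · exact Or.inl (A.mul_mem hg ha)
    · exact Or.inr ⟨a₁, h1, a₂ * a, A.mul_mem h2 ha, by group⟩
  let C : Subgroup W :=
    { carrier := {g | g ∈ A ∨ ∃ a₁ ∈ A, ∃ a₂ ∈ A, g = a₁ * s * a₂}
      one_mem' := Or.inl A.one_mem
      mul_mem' := by
        rintro g g' (hg | ⟨a₁, h1, a₂, h2, rfl⟩) hg'
        · exact hleft g hg g' hg'
        · rcases hg' with hg' | ⟨a₃, h3, a₄, h4, rfl⟩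
          · exact Or.inr ⟨a₁, h1, a₂ * g', A.mul_mem h2 hg', by group⟩
          · have e : a₁ * s * a₂ * (a₃ * s * a₄) = a₁ * (s * (a₂ * a₃) * s) * a₄ := by group
            rw [e]
            exact hright a₄ h4 _ (hleft a₁ h1 _ (hL _ (A.mul_mem h2 h3)))
      inv_mem' := by
        rintro g (hg | ⟨a₁, h1, a₂, h2, rfl⟩)
        · exact Or.inl (A.inv_mem hg)
        · refine Or.inr ⟨a₂⁻¹, A.inv_mem h2, (s ^ 2)⁻¹ * a₁⁻¹,
            A.mul_mem (A.inv_mem (hBA hs2)) (A.inv_mem h1), ?_⟩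
          group }
  have hle : Subgroup.closure ((A : Set W) ∪ {s}) ≤ C := by
    rw [Subgroup.closure_le]
    rintro y (hy | hy)
    · exact Or.inl hy
    · rw [Set.mem_singleton_iff] at hy
      subst hy
      exact Or.inr ⟨1, A.one_mem, 1, A.one_mem, by group⟩
  intro g hg
  exact hle hg

end step

lemma trans_step {α : Type*} (A C : Subgroup (Perm α)) (Ω : Set α) (p : α) (k : ℕ) (hAC : A ≤ C)
    (hAfix : ∀ a ∈ A, a p = p) (hTr : TransOn A (Ω \ {p}) k)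
    (hcp : ∀ x ∈ Ω, ∃ c ∈ C, c x = p) (hpres : ∀ c ∈ C, ∀ x ∈ Ω, c x ∈ Ω) :
    TransOn C Ω (k + 1) := by
  intro x y hx hy hxΩ hyΩ
  obtain ⟨c₁, hc₁, h1⟩ := hcp _ (hxΩ 0)
  obtain ⟨c₂, hc₂, h2⟩ := hcp _ (hyΩ 0)
  obtain ⟨a, ha, hax⟩ := hTr (fun l => c₁ (x l.succ)) (fun l => c₂ (y l.succ))
    (fun l l' h => Fin.succ_injective _ (hx (c₁.injective h)))
    (fun l l' h => Fin.succ_injective _ (hy (c₂.injective h)))
    (fun l => ⟨hpres c₁ hc₁ _ (hxΩ _), fun h => by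
      rw [Set.mem_singleton_iff, ← h1] at h
      have := hx (c₁.injective h)
      exact Fin.succ_ne_zero _ this⟩)
    (fun l => ⟨hpres c₂ hc₂ _ (hyΩ _), fun h => by
      rw [Set.mem_singleton_iff, ← h2] at h
      have := hy (c₂.injective h)
      exact Fin.succ_ne_zero _ this⟩)
  refine ⟨c₂⁻¹ * a * c₁, C.mul_mem (C.mul_mem (C.inv_mem hc₂) (hAC ha)) hc₁, fun l => ?_⟩
  refine Fin.cases ?_ (fun l => ?_) l
  · simp only [Perm.mul_apply]
    rw [h1, hAfix a ha, ← h2]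
    simp
  · simp only [Perm.mul_apply]
    rw [hax l]
    simp

/-- Witt's Lemma for constructing transitive extensions. Points `q 1, …, q t` (`t ≥ 2`) of a finite set are given; `G` fixes `q i` for `i ≥ 3` and is doubly transitive on the remaining points; `s 1 ∈ G` swaps `q 1, q 2`; for `2 ≤ i ≤ t-1`, `s i` swaps `q i, q (i+1)` and fixes the other `q j`; with `H` the stabiliser of `q 1, q 2` in `G`: `s i ^ 2 ∈ H`, `(s i * s (i+1)) ^ 3 ∈ H`, `(s i * s j) ^ 2 ∈ H` for `j ≥ i + 2`, and `s i` (`i ≥ 2`) normalises the stabiliser of `q 2` in `G`. Then `G` and the `s i` generate a `t`-transitive group whose pointwise stabiliser of the `q`'s is `H`. -/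
theorem result {α : Type*} [Fintype α] [DecidableEq α] (t : ℕ) (ht : 2 ≤ t) (q : ℕ → α) (hq : ∀ i j : ℕ, 1 ≤ i → i ≤ t → 1 ≤ j → j ≤ t → q i = q j → i = j) (G : Subgroup (Equiv.Perm α)) (hfix : ∀ g ∈ G, ∀ i : ℕ, 3 ≤ i → i ≤ t → g (q i) = q i) (h2 : ∀ a b c d : α, (∀ i, 3 ≤ i → i ≤ t → a ≠ q i ∧ b ≠ q i ∧ c ≠ q i ∧ d ≠ q i) → a ≠ b → c ≠ d → ∃ g ∈ G, g a = c ∧ g b = d) (s : ℕ → Equiv.Perm α) (hs1 : s 1 ∈ G) (hs1q : s 1 (q 1) = q 2 ∧ s 1 (q 2) = q 1) (hsq : ∀ i : ℕ, 2 ≤ i → i + 1 ≤ t → s i (q i) = q (i + 1) ∧ s i (q (i + 1)) = q i ∧ ∀ j : ℕ, 1 ≤ j → j ≤ t → j ≠ i → j ≠ i + 1 → s i (q j) = q j) (H : Subgroup (Equiv.Perm α)) (hH : H = G ⊓ MulAction.stabilizer (Equiv.Perm α) (q 1) ⊓ MulAction.stabilizer (Equiv.Perm α) (q 2)) (hsq2 : ∀ i : ℕ, 1 ≤ i → i + 1 ≤ t → s i ^ 2 ∈ H) (hbraid : ∀ i : ℕ, 1 ≤ i → i + 2 ≤ t → (s i * s (i + 1)) ^ 3 ∈ H) (hcomm : ∀ i j : ℕ, 1 ≤ i → i + 2 ≤ j → j + 1 ≤ t → (s i * s j) ^ 2 ∈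 H ∧ (s j * s i) ^ 2 ∈ H) (hnorm : ∀ i : ℕ, 2 ≤ i → i + 1 ≤ t → ∀ g ∈ G ⊓ MulAction.stabilizer (Equiv.Perm α) (q 2), s i * g * (s i)⁻¹ ∈ G ⊓ MulAction.stabilizer (Equiv.Perm α) (q 2)) : MulAction.IsMultiplyPretransitive ↥(Subgroup.closure ((G : Set (Equiv.Perm α)) ∪ {x | ∃ i : ℕ, 2 ≤ i ∧ i + 1 ≤ t ∧ x = s i})) α t ∧ Subgroup.closure ((G : Set (Equiv.Perm α)) ∪ {x | ∃ i : ℕ, 2 ≤ i ∧ i + 1 ≤ t ∧ x = s i}) ⊓ fixingSubgroup (Equiv.Perm α) {x | ∃ i : ℕ, 1 ≤ i ∧ i ≤ t ∧ x = q i} = H := by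
  classical
  have hHmem : ∀ h, h ∈ H ↔ h ∈ G ∧ h (q 1) = q 1 ∧ h (q 2) = q 2 := by
    intro h
    rw [hH, Subgroup.mem_inf, Subgroup.mem_inf, MulAction.mem_stabilizer_iff,
      MulAction.mem_stabilizer_iff, and_assoc]
    rfl
  have hHG : H ≤ G := fun h hh => ((hHmem h).1 hh).1
  set M : Subgroup (Perm α) := G ⊓ MulAction.stabilizer (Equiv.Perm α) (q 2) with hM
  have hMmem : ∀ h, h ∈ M ↔ h ∈ G ∧ h (q 2) = q 2 := by
    intro h
    rw [hM, Subgroup.mem_inf, MulAction.mem_stabilizer_iff]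
    rfl
  have hHM : H ≤ M := fun h hh => (hMmem h).2 ⟨((hHmem h).1 hh).1, ((hHmem h).1 hh).2.2⟩
  let A : ℕ → Subgroup (Perm α) := fun i =>
    Subgroup.closure ((G : Set (Perm α)) ∪ {x | ∃ j : ℕ, 2 ≤ j ∧ j ≤ i ∧ x = s j})
  have hGA : ∀ i, G ≤ A i := fun i g hg => Subgroup.subset_closure (Or.inl hg)
  have hsA : ∀ i j, 2 ≤ j → j ≤ i → s j ∈ A i := fun i j h1 h3 =>
    Subgroup.subset_closure (Or.inr ⟨j, h1, h3, rfl⟩)
  have hA1 : A 1 = G := by
    apply le_antisymm _ (hGA 1)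
    show Subgroup.closure _ ≤ G
    rw [Subgroup.closure_le]
    rintro x (hx | ⟨j, h1, h3, -⟩)
    · exact hx
    · omega
  have hmono : ∀ i, A i ≤ A (i + 1) := by
    intro i
    apply Subgroup.closure_mono
    rintro x (hx | ⟨j, h1, h3, rfl⟩)
    · exact Or.inl hx
    · exact Or.inr ⟨j, h1, by omega, rfl⟩
  have hsucc : ∀ i, A (i + 1) ≤ Subgroup.closure ((A i : Set (Perm α)) ∪ {s (i + 1)}) := by
    intro i
    show Subgroup.closure _ ≤ _
    rw [Subgroup.closure_le]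
    rintro x (hx | ⟨j, h1, h3, rfl⟩)
    · exact Subgroup.subset_closure (Or.inl (hGA i hx))
    · by_cases hj : j = i + 1
      · subst hj
        exact Subgroup.subset_closure (Or.inr rfl)
      · exact Subgroup.subset_closure (Or.inl (hsA i j h1 (by omega)))
  -- elements of `A i` fix the last points
  have hF : ∀ i, 1 ≤ i → ∀ g ∈ A i, ∀ j, i + 2 ≤ j → j ≤ t → g (q j) = q j := by
    intro i hi g hg j hj hjt
    have hle : A i ≤ MulAction.stabilizer (Perm α) (q j) := by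
      show Subgroup.closure _ ≤ _
      rw [Subgroup.closure_le]
      rintro x (hx | ⟨l, h1, h3, rfl⟩)
      · exact hfix x hx j (by omega) hjt
      · exact (hsq l h1 (by omega)).2.2 j (by omega) hjt (by omega) (by omega)
    exact hle hg
  -- `G` is a double coset union over `M`
  have hDC0 : ∀ g ∈ G, g ∈ M ∨ ∃ m₁ ∈ M, ∃ m₂ ∈ M, g = m₁ * s 1 * m₂ := by
    intro g hg
    by_cases hg2 : g (q 2) = q 2
    · exact Or.inl ((hMmem g).2 ⟨hg, hg2⟩)
    · right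
      have hwne : ∀ i, 3 ≤ i → i ≤ t → g (q 2) ≠ q i := by
        intro i h3 hit h
        rw [← hfix g hg i h3 hit] at h
        have := hq 2 i (by omega) ht (by omega) hit (g.injective h)
        omega
      have h12 : q 2 ≠ q 1 := fun h => by
        have := hq 2 1 (by omega) ht (by omega) (by omega) h
        omega
      have hqne : ∀ (i l : ℕ), (l = 1 ∨ l = 2) → 3 ≤ i → i ≤ t → q l ≠ q i := by
        intro i l hl h3 hit h
        have := hq l i (by omega) (by omega) (by omega) hit h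
        omega
      obtain ⟨m₁, hm₁, hm₁2, hm₁1⟩ := h2 (q 2) (q 1) (q 2) (g (q 2))
        (fun i h3 hit => ⟨hqne i 2 (Or.inr rfl) h3 hit, hqne i 1 (Or.inl rfl) h3 hit,
          hqne i 2 (Or.inr rfl) h3 hit, hwne i h3 hit⟩) h12 (fun h => hg2 h.symm)
      refine ⟨m₁, (hMmem _).2 ⟨hm₁, hm₁2⟩, (s 1)⁻¹ * m₁⁻¹ * g, (hMmem _).2 ⟨
        G.mul_mem (G.mul_mem (G.inv_mem hs1) (G.inv_mem hm₁)) hg, ?_⟩, by group⟩
      simp only [Perm.mul_apply]
      have e1 : m₁⁻¹ (g (q 2)) = q 1 := by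
        rw [Perm.inv_eq_iff_eq]; exact hm₁1.symm
      rw [e1, Perm.inv_eq_iff_eq]
      exact hs1q.2.symm
  have hs2H : ∀ j, 1 ≤ j → j + 1 ≤ t → s j ^ 2 ∈ H := hsq2
  have hs1M : s 1 ∈ G := hs1
  -- conjugates of `s l` under `s j`
  have hconj_s : ∀ l j, 1 ≤ l → l + 2 ≤ j → j + 1 ≤ t →
      s j * s l * (s j)⁻¹ = (s j * s l) ^ 2 * (s l)⁻¹ * (s j ^ 2)⁻¹ := by
    intro l j _ _ _
    simp only [pow_succ, pow_zero, one_mul]
    group
  -- `s j` normalises `G` for `j ≥ 3`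
  have hN1 : ∀ j, 3 ≤ j → j + 1 ≤ t → ∀ g ∈ G, s j * g * (s j)⁻¹ ∈ G := by
    intro j hj hjt g hg
    have hh1 : s j * s 1 * (s j)⁻¹ ∈ G := by
      rw [hconj_s 1 j (by omega) (by omega) hjt]
      exact G.mul_mem (G.mul_mem (hHG (hcomm 1 j (by omega) (by omega) hjt).2) (G.inv_mem hs1))
        (G.inv_mem (hHG (hsq2 j (by omega) hjt)))
    rcases hDC0 g hg with hm | ⟨m₁, hm₁, m₂, hm₂, rfl⟩
    · exact ((hMmem _).1 (hnorm j (by omega) hjt g hm)).1
    · have e : s j * (m₁ * s 1 * m₂) * (s j)⁻¹ =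
          (s j * m₁ * (s j)⁻¹) * (s j * s 1 * (s j)⁻¹) * (s j * m₂ * (s j)⁻¹) := by group
      rw [e]
      exact G.mul_mem (G.mul_mem ((hMmem _).1 (hnorm j (by omega) hjt m₁ hm₁)).1 hh1)
        ((hMmem _).1 (hnorm j (by omega) hjt m₂ hm₂)).1
  -- `s j` normalises `A i` for `j ≥ i + 2`
  have hN2 : ∀ i j, 1 ≤ i → i + 2 ≤ j → j + 1 ≤ t → ∀ x ∈ A i, s j * x * (s j)⁻¹ ∈ A i := by
    intro i j hi hij hjt x hx
    have hle : A i ≤ (A i).comap (MulAut.conj (s j)).toMonoidHom := by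
      show Subgroup.closure _ ≤ _
      rw [Subgroup.closure_le]
      rintro y (hy | ⟨l, h1, h3, rfl⟩)
      · exact hGA i (hN1 j (by omega) hjt y hy)
      · show s j * s l * (s j)⁻¹ ∈ A i
        rw [hconj_s l j (by omega) (by omega) hjt]
        exact (A i).mul_mem ((A i).mul_mem (hGA i (hHG (hcomm l j (by omega) (by omega) hjt).2))
          ((A i).inv_mem (hsA i l h1 h3))) ((A i).inv_mem (hGA i (hHG (hsq2 j (by omega) hjt))))
    exact hle hx
  -- double cosets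
  have hDC : ∀ i, 2 ≤ i → i + 1 ≤ t → ∀ g ∈ A i,
      g ∈ A (i - 1) ∨ ∃ a₁ ∈ A (i - 1), ∃ a₂ ∈ A (i - 1), g = a₁ * s i * a₂ := by
    intro i hi
    induction i, hi using Nat.le_induction with
    | base =>
      intro hit g hg
      have hstep := dc_step G M (s 2) (s 1) inf_le_left hs1
        (hnorm 2 (by omega) hit) (hHM (hsq2 2 (by omega) hit)) hDC0
        (hHG (hbraid 1 (by omega) (by omega)))
      have hg' := hsucc 1 hg
      rw [hA1] at hg'
      have := hstep g hg'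
      simpa [hA1] using this
    | succ i hi ih =>
      intro hit g hg
      have hstep := dc_step (A i) (A (i - 1)) (s (i + 1)) (s i)
        (by
          have := hmono (i - 1)
          rwa [show i - 1 + 1 = i by omega] at this)
        (hsA i i hi (le_refl _))
        (hN2 (i - 1) (i + 1) (by omega) (by omega) hit)
        (hGA _ (hHG (hsq2 (i + 1) (by omega) hit)))
        (ih (by omega))
        (hGA _ (hHG (hbraid i (by omega) (by omega))))
      exact hstep g (hsucc i hg)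
  -- transitivity
  let Ωf : ℕ → Set α := fun i => {x | ∀ j, i + 2 ≤ j → j ≤ t → x ≠ q j}
  have hqΩ : ∀ i l, 1 ≤ l → l ≤ i + 1 → i + 1 ≤ t → q l ∈ Ωf i := by
    intro i l h1 h3 hit j hj hjt h
    have := hq l j h1 (by omega) (by omega) hjt h
    omega
  have hTrans : ∀ i, 1 ≤ i → i + 1 ≤ t →
      TransOn (A i) (Ωf i) (i + 1) ∧ ∀ x ∈ Ωf i, ∀ y ∈ Ωf i, ∃ g ∈ A i, g x = y := by
    intro i hi
    induction i, hi using Nat.le_induction with
    | base =>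
      intro _
      rw [hA1]
      have hnoq : ∀ x ∈ Ωf 1, ∀ j, 3 ≤ j → j ≤ t → x ≠ q j := fun x hx j h3 hj => hx j h3 hj
      constructor
      · intro x y hx hy hxΩ hyΩ
        obtain ⟨g, hg, h3, h4⟩ := h2 (x 0) (x 1) (y 0) (y 1)
          (fun j h3 hj => ⟨hnoq _ (hxΩ 0) j h3 hj, hnoq _ (hxΩ 1) j h3 hj,
            hnoq _ (hyΩ 0) j h3 hj, hnoq _ (hyΩ 1) j h3 hj⟩)
          (fun h => by simpa using hx h) (fun h => by simpa using hy h)
        refine ⟨g, hg, fun l => ?_⟩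
        fin_cases l
        · exact h3
        · exact h4
      · intro x hx y hy
        have h12 : (q 1 : α) ≠ q 2 := fun h => by
          have := hq 1 2 (by omega) (by omega) (by omega) ht h
          omega
        obtain ⟨b, hbq, hbx⟩ : ∃ b, (b = q 1 ∨ b = q 2) ∧ x ≠ b := by
          by_cases h : x = q 1
          · exact ⟨q 2, Or.inr rfl, fun h' => h12 (h.symm.trans h')⟩
          · exact ⟨q 1, Or.inl rfl, h⟩
        obtain ⟨d, hdq, hdy⟩ : ∃ d, (d = q 1 ∨ d = q 2) ∧ y ≠ d := by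
          by_cases h : y = q 1
          · exact ⟨q 2, Or.inr rfl, fun h' => h12 (h.symm.trans h')⟩
          · exact ⟨q 1, Or.inl rfl, h⟩
        have hq12 : ∀ (e : α), (e = q 1 ∨ e = q 2) → ∀ j, 3 ≤ j → j ≤ t → e ≠ q j := by
          rintro e (rfl | rfl) j h3 hj h
          · have := hq 1 j (by omega) (by omega) (by omega) hj h
            omega
          · have := hq 2 j (by omega) ht (by omega) hj h
            omega
        obtain ⟨g, hg, h3, -⟩ := h2 x b y d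
          (fun j h3 hj => ⟨hnoq _ hx j h3 hj, hq12 _ hbq j h3 hj, hnoq _ hy j h3 hj,
            hq12 _ hdq j h3 hj⟩) hbx hdy
        exact ⟨g, hg, h3⟩
    | succ i hi ih =>
      intro hit
      obtain ⟨hTr, hTra⟩ := ih (by omega)
      have hsq' := hsq (i + 1) (by omega) (by omega)
      have hcp : ∀ x ∈ Ωf (i + 1), ∃ c ∈ A (i + 1), c x = q (i + 2) := by
        intro x hx
        by_cases hxp : x = q (i + 2)
        · exact ⟨1, (A _).one_mem, by rw [hxp]; rfl⟩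
        · have hxΩ : x ∈ Ωf i := by
            intro j hj hjt
            by_cases hj2 : j = i + 2
            · rw [hj2]; exact hxp
            · exact hx j (by omega) hjt
          obtain ⟨a, ha, hax⟩ := hTra x hxΩ (q (i + 1)) (hqΩ i (i + 1) (by omega) (le_refl _) (by omega))
          refine ⟨s (i + 1) * a, (A _).mul_mem (hsA _ _ (by omega) (le_refl _)) (hmono i ha), ?_⟩
          rw [Perm.mul_apply, hax]
          exact hsq'.1
      have hpres : ∀ c ∈ A (i + 1), ∀ x ∈ Ωf (i + 1), c x ∈ Ωf (i + 1) := by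
        intro c hc x hx j hj hjt h
        rw [← hF (i + 1) (by omega) c hc j hj hjt] at h
        exact hx j hj hjt (c.injective h)
      have hset : Ωf (i + 1) \ {q (i + 2)} = Ωf i := by
        ext x
        constructor
        · rintro ⟨h1, h3⟩ j hj hjt
          by_cases hj2 : j = i + 2
          · rw [hj2]; exact h3
          · exact h1 j (by omega) hjt
        · intro h1
          exact ⟨fun j hj hjt => h1 j (by omega) hjt, fun h3 => h1 (i + 2) (le_refl _) hit h3⟩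
      refine ⟨trans_step (A i) (A (i + 1)) (Ωf (i + 1)) (q (i + 2)) (i + 1) (hmono i)
        (fun a ha => hF i hi a ha (i + 2) (le_refl _) hit) (by rw [hset]; exact hTr) hcp hpres, ?_⟩
      intro x hx y hy
      obtain ⟨c₁, hc₁, h1⟩ := hcp x hx
      obtain ⟨c₂, hc₂, h3⟩ := hcp y hy
      refine ⟨c₂⁻¹ * c₁, (A _).mul_mem ((A _).inv_mem hc₂) hc₁, ?_⟩
      rw [Perm.mul_apply, h1, Perm.inv_eq_iff_eq]
      exact h3.symm
  -- the closure in the statement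
  have hcl : Subgroup.closure ((G : Set (Equiv.Perm α)) ∪ {x | ∃ i : ℕ, 2 ≤ i ∧ i + 1 ≤ t ∧ x = s i})
      = A (t - 1) := by
    show _ = Subgroup.closure _
    congr 1
    ext x
    simp only [Set.mem_union]
    constructor
    · rintro (hx | ⟨j, h1, h3, rfl⟩)
      · exact Or.inl hx
      · exact Or.inr ⟨j, h1, by omega, rfl⟩
    · rintro (hx | ⟨j, h1, h3, rfl⟩)
      · exact Or.inl hx
      · exact Or.inr ⟨j, h1, by omega, rfl⟩
  -- descending to `G`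
  have hstab : ∀ i, 2 ≤ i → i + 1 ≤ t → ∀ g ∈ A i, g (q (i + 1)) = q (i + 1) → g ∈ A (i - 1) := by
    intro i hi hit g hg hgq
    rcases hDC i hi hit g hg with h | ⟨a₁, h1, a₂, h3, rfl⟩
    · exact h
    · exfalso
      rw [Perm.mul_apply, Perm.mul_apply, hF (i - 1) (by omega) a₂ h3 (i + 1) (by omega) hit,
        (hsq i hi hit).2.1] at hgq
      have e : q i = q (i + 1) := by
        have h4 := hF (i - 1) (by omega) a₁ h1 (i + 1) (by omega) hit
        rw [← h4] at hgq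
        exact a₁.injective hgq
      have := hq i (i + 1) (by omega) (by omega) (by omega) hit e
      omega
  have hdesc : ∀ i, 1 ≤ i → i + 1 ≤ t → ∀ g ∈ A i, (∀ j, 1 ≤ j → j ≤ i + 1 → g (q j) = q j) →
      g ∈ H := by
    intro i hi
    induction i, hi using Nat.le_induction with
    | base =>
      intro _ g hg hgq
      rw [hA1] at hg
      exact (hHmem g).2 ⟨hg, hgq 1 (by omega) (by omega), hgq 2 (by omega) (by omega)⟩
    | succ i hi ih =>
      intro hit g hg hgq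
      have h1 := hstab (i + 1) (by omega) hit g hg (hgq (i + 2) (by omega) (le_refl _))
      rw [show i + 1 - 1 = i by omega] at h1
      exact ih (by omega) g h1 (fun j h3 h4 => hgq j h3 (by omega))
  constructor
  · rw [hcl]
    have hTr := (hTrans (t - 1) (by omega) (by omega)).1
    rw [show t - 1 + 1 = t by omega] at hTr
    refine ⟨fun x y => ?_⟩
    obtain ⟨g, hg, hgx⟩ := hTr x y x.injective y.injective
      (fun i j hj hjt => by omega) (fun i j hj hjt => by omega)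
    refine ⟨⟨g, hg⟩, ?_⟩
    ext i
    exact hgx i
  · rw [hcl]
    apply le_antisymm
    · rintro g ⟨hg1, hg2⟩
      have hg2' := (mem_fixingSubgroup_iff (Perm α)).1 hg2
      refine hdesc (t - 1) (by omega) (by omega) g hg1 (fun j h1 h3 => ?_)
      exact hg2' (q j) ⟨j, h1, by omega, rfl⟩
    · intro g hg
      refine ⟨hGA _ (hHG hg), (mem_fixingSubgroup_iff (Perm α)).2 ?_⟩
      rintro y ⟨j, h1, h3, rfl⟩
      obtain ⟨hg1, hg2, hg3⟩ := (hHmem g).1 hg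
      by_cases hj1 : j = 1
      · rw [hj1]; exact hg2
      · by_cases hj2 : j = 2
        · rw [hj2]; exact hg3
        · exact hfix g hg1 j (by omega) h3

end Cfsg.Agent.S0709
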