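import Mathlib
import Cfsg.Statements.S0710

set_option autoImplicit false
set_option linter.style.haveILetI false
open Cfsg

namespace Cfsg.Agent.S0710

open Subgroup

/-- No transitive permutation group on 13 points has order `13 * 12 * 11 * 10 * 9 * 8`. -/
theorem result {α : Type*} [Fintype α] [DecidableEq α] (hα : Fintype.card α = 13) (G : Subgroup (Equiv.Perm α)) [MulAction.IsPretransitive G α] : Nat.card G ≠ 13 * 12 * 11 * 10 * 9 * 8 := by
  intro hcard
  have hp13 : Nat.Prime 13 := by norm_num
  haveI : Fact (Nat.Prime 13) := ⟨hp13⟩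
  have hfin : Finite G := inferInstance
  let P : Sylow 13 G := default
  have hfact : (Nat.card G).factorization 13 = 1 := by
    rw [hcard, show 13 * 12 * 11 * 10 * 9 * 8 = 13 * 95040 by norm_num,
      Nat.factorization_mul (by norm_num) (by norm_num)]
    simp only [Finsupp.add_apply]
    rw [hp13.factorization_self, Nat.factorization_eq_zero_of_not_dvd (by norm_num)]
  have hcardP : Nat.card P = 13 := by
    rw [P.card_eq_multiplicity, hfact, pow_one]
  -- `P` is abelian
  have hPprime : IsCyclic P := isCyclic_of_prime_card hcardP
  have hcomm : ∀ x y : P, x * y = y * x := fun x y => (IsCyclic.commGroup (α := P)).mul_comm x y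
  -- some point is moved
  have hmoved : ∃ a : α, ∃ x : P, (x : G) • a ≠ a := by
    by_contra hcon
    push Not at hcon
    have h1 : ∀ x : P, x = 1 := by
      intro x
      apply Subtype.ext
      apply Subtype.ext
      ext b
      exact hcon b x
    have : Nat.card P = 1 := Nat.card_eq_one_iff_unique.mpr ⟨⟨fun x y => by rw [h1 x, h1 y]⟩, ⟨1⟩⟩
    omega
  obtain ⟨b, x, hx⟩ := hmoved
  have horb : MulAction.orbit (P : Subgroup G) b = Set.univ := by
    have h1 := MulAction.index_stabilizer (P : Subgroup G) b
    have h2 : (MulAction.stabilizer (P : Subgroup G) b).index ∣ 13 := by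
      have h0 := Subgroup.index_dvd_card (MulAction.stabilizer (P : Subgroup G) b)
      rwa [hcardP] at h0
    have h3 := (Nat.dvd_prime hp13).mp h2
    rcases h3 with h3 | h3
    · exfalso
      rw [h3] at h1
      have h4 : (MulAction.orbit (P : Subgroup G) b).ncard = 1 := h1.symm
      obtain ⟨c, hc⟩ := Set.ncard_eq_one.mp h4
      have h5 : b ∈ MulAction.orbit (P : Subgroup G) b := MulAction.mem_orbit_self b
      have h6 : x • b ∈ MulAction.orbit (P : Subgroup G) b := MulAction.mem_orbit _ _
      rw [hc] at h5 h6
      exact hx (h6.trans h5.symm)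
    · rw [h3] at h1
      apply Set.eq_of_subset_of_ncard_le (Set.subset_univ _)
      rw [Set.ncard_univ, Nat.card_eq_fintype_card, hα, ← h1]
  -- the centraliser of `P` is `P`
  have hcentr : centralizer ((P : Subgroup G) : Set G) = (P : Subgroup G) := by
    apply le_antisymm
    · intro c hc
      have hbmem : c • b ∈ MulAction.orbit (P : Subgroup G) b := by rw [horb]; trivial
      obtain ⟨y, hy⟩ := hbmem
      have hy' : (y : G) • b = c • b := hy
      have hone : (y : G)⁻¹ * c = 1 := by
        apply Subtype.ext
        ext a
        have hamem : a ∈ MulAction.orbit (P : Subgroup G) b := by rw [horb]; trivial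
        obtain ⟨z, rfl⟩ := hamem
        have hcz : c * (z : G) = (z : G) * c := (mem_centralizer_iff.mp hc _ z.2).symm
        have hyz : (y : G)⁻¹ * (z : G) = (z : G) * (y : G)⁻¹ := by
          have : y⁻¹ * z = z * y⁻¹ := hcomm _ _
          exact congrArg Subtype.val this
        have h7 : ((y : G)⁻¹ * c) • (z • b) = z • b := by
          change ((y : G)⁻¹ * c) • ((z : G) • b) = (z : G) • b
          rw [smul_smul, mul_assoc, hcz, ← mul_assoc, hyz, mul_assoc, mul_smul, mul_smul, ← hy', inv_smul_smul]
        have h8 : (((y : G)⁻¹ * c : G) : Equiv.Perm α) (z • b) = z • b := h7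
        simpa using h8
      have : c = y := by
        have := eq_of_inv_mul_eq_one hone
        exact this.symm
      rw [this]; exact y.2
    · intro c hc
      rw [mem_centralizer_iff]
      intro d hd
      have : (⟨d, hd⟩ : (P : Subgroup G)) * ⟨c, hc⟩ = ⟨c, hc⟩ * ⟨d, hd⟩ := hcomm _ _
      exact congrArg Subtype.val this
  -- the normaliser
  set N := normalizer ((P : Subgroup G) : Set G) with hN
  have key := card_dvd_of_injective _ (QuotientGroup.kerLift_injective (P : Subgroup G).normalizerMonoidHom)
  rw [normalizerMonoidHom_ker, ← index, ← relIndex, hcentr, hPprime.card_mulAut, hcardP] at key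
  have h12 : Nat.totient 13 = 12 := by
    rw [Nat.totient_prime hp13]
  rw [h12] at key
  have hrel := relIndex_mul_index (le_normalizer (H := (P : Subgroup G)))
  have hs := card_sylow_modEq_one 13 G
  rw [P.card_eq_index_normalizer] at hs
  have hcardmul := card_mul_index (P : Subgroup G)
  rw [hcardP, ← hrel, hcard] at hcardmul
  set d := (P : Subgroup G).relIndex (normalizer ((P : Subgroup G) : Set G)) with hd
  set s := (normalizer ((P : Subgroup G) : Set G)).index with hs'
  have hds : d * s = 95040 := by omega
  have hmod : d % 13 = 10 := by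
    have h1 : d * s ≡ d * 1 [MOD 13] := Nat.ModEq.mul_left d hs
    rw [hds, mul_one] at h1
    have h2 : 95040 % 13 = d % 13 := h1
    omega
  have hd12 : d ≤ 12 := Nat.le_of_dvd (by norm_num) key
  have h10 : d = 10 := by omega
  rw [h10] at key
  norm_num at key

end Cfsg.Agent.S0710
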