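import Mathlib
import Cfsg.Statements.S0711
import Cfsg.Agent.Lib.MultiTrans

set_option autoImplicit false
open Cfsg

namespace Cfsg.Agent.S0711

open MulAction

variable {α : Type*} [Fintype α] [DecidableEq α]

lemma exists_segment (h : Equiv.Perm α) : ∀ d ≤ h.support.card, ∃ D : Finset α, D ⊆ h.support ∧
    D.card = d ∧ (D.filter (fun x => h x ∉ D)).card ≤ 1 := by
  intro d
  induction d with
  | zero => intro _; exact ⟨∅, by simp, by simp, by simp⟩
  | succ d ih =>
    intro hd
    obtain ⟨D, hDS, hDc, hB⟩ := ih (by omega)
    rcases Nat.eq_zero_or_pos (D.filter (fun x => h x ∉ D)).card with h0 | h1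
    · -- no boundary
      have : ∃ u ∈ h.support, u ∉ D := by
        by_contra hcon
        push Not at hcon
        have := Finset.card_le_card (fun x hx => hcon x hx : h.support ⊆ D)
        omega
      obtain ⟨u, huS, huD⟩ := this
      refine ⟨insert u D, Finset.insert_subset huS hDS, ?_, ?_⟩
      · rw [Finset.card_insert_of_notMem huD, hDc]
      · have hsub : (insert u D).filter (fun x => h x ∉ insert u D) ⊆ {u} := by
          intro x hx
          rw [Finset.mem_filter, Finset.mem_insert] at hx
          rw [Finset.mem_singleton]
          rcases hx.1 with rfl | hxD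
          · rfl
          · exfalso
            have h0' : D.filter (fun x => h x ∉ D) = ∅ := Finset.card_eq_zero.1 h0
            have : x ∉ D.filter (fun x => h x ∉ D) := by rw [h0']; simp
            rw [Finset.mem_filter] at this
            push Not at this
            have hh := this hxD
            exact hx.2 (Finset.mem_insert_of_mem hh)
        simpa using Finset.card_le_card hsub
    · -- exactly one boundary
      have h1' : (D.filter (fun x => h x ∉ D)).card = 1 := by omega
      obtain ⟨v, hv⟩ := Finset.card_eq_one.1 h1'
      have hvm : v ∈ D.filter (fun x => h x ∉ D) := by rw [hv]; simp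
      rw [Finset.mem_filter] at hvm
      refine ⟨insert (h v) D, ?_, ?_, ?_⟩
      · apply Finset.insert_subset _ hDS
        exact Equiv.Perm.apply_mem_support.2 (hDS hvm.1)
      · rw [Finset.card_insert_of_notMem hvm.2, hDc]
      · have hsub : (insert (h v) D).filter (fun x => h x ∉ insert (h v) D) ⊆ {h v} := by
          intro x hx
          rw [Finset.mem_filter, Finset.mem_insert] at hx
          rw [Finset.mem_singleton]
          rcases hx.1 with rfl | hxD
          · rfl
          · exfalso
            have hx2 : h x ∉ D := fun hh => hx.2 (Finset.mem_insert_of_mem hh)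
            have : x ∈ D.filter (fun x => h x ∉ D) := Finset.mem_filter.2 ⟨hxD, hx2⟩
            rw [hv, Finset.mem_singleton] at this
            subst this
            exact hx.2 (Finset.mem_insert_self _ _)
        simpa using Finset.card_le_card hsub

lemma comm_support (h τ : Equiv.Perm α) (D P : Finset α) (hDS : D ⊆ h.support)
    (hPS : P ⊆ h.support)
    (hτD : ∀ x ∈ D, τ x = x) (hτP : ∀ x ∈ P, τ x ∈ h.support) :
    (h⁻¹ * τ⁻¹ * h * τ).support.card + (D.filter (fun x => h x ∈ D)).card + P.card
      ≤ 2 * h.support.card := by
  classical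
  set S := h.support with hS
  set Q := Finset.univ.filter (fun x => x ∉ S ∧ τ x ∈ S) with hQ
  set F := D.filter (fun x => h x ∈ D) with hF
  have hQcard : Q.card + P.card ≤ S.card := by
    have h1 : (Q.image τ) ∪ (P.image τ) ⊆ S := by
      intro x hx
      rw [Finset.mem_union, Finset.mem_image, Finset.mem_image] at hx
      rcases hx with ⟨y, hy, rfl⟩ | ⟨y, hy, rfl⟩
      · exact (Finset.mem_filter.1 hy).2.2
      · exact hτP y hy
    have h2 : Disjoint (Q.image τ) (P.image τ) := by
      rw [Finset.disjoint_left]
      intro x hx hx'
      rw [Finset.mem_image] at hx hx'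
      obtain ⟨y, hy, rfl⟩ := hx
      obtain ⟨y', hy', hyy⟩ := hx'
      have := τ.injective hyy
      subst this
      exact (Finset.mem_filter.1 hy).2.1 (hPS hy')
    have := Finset.card_le_card h1
    rw [Finset.card_union_of_disjoint h2, Finset.card_image_of_injective _ τ.injective,
      Finset.card_image_of_injective _ τ.injective] at this
    exact this
  have hsupp : (h⁻¹ * τ⁻¹ * h * τ).support ⊆ (S ∪ Q) \ F := by
    intro x hx
    rw [Equiv.Perm.mem_support] at hx
    rw [Finset.mem_sdiff, Finset.mem_union]
    constructor
    · by_contra hcon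
      push Not at hcon
      obtain ⟨hxS, hxQ⟩ := hcon
      have hτx : τ x ∉ S := fun hh => hxQ (by simp [hQ, hxS, hh])
      apply hx
      have e1 : h (τ x) = τ x := by
        simpa [hS, Equiv.Perm.mem_support] using hτx
      have e2 : h x = x := by
        simpa [hS, Equiv.Perm.mem_support] using hxS
      have e3 : h⁻¹ x = x := by
        rw [Equiv.Perm.inv_eq_iff_eq]; exact e2.symm
      simp only [Equiv.Perm.mul_apply, e1]
      rw [← Equiv.Perm.mul_apply τ⁻¹ τ, inv_mul_cancel, Equiv.Perm.one_apply, e3]
    · intro hxF
      rw [Finset.mem_filter] at hxF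
      apply hx
      simp only [Equiv.Perm.mul_apply]
      rw [hτD x hxF.1]
      have e1 : τ⁻¹ (h x) = h x := by
        rw [Equiv.Perm.inv_eq_iff_eq]; exact (hτD _ hxF.2).symm
      rw [e1, ← Equiv.Perm.mul_apply h⁻¹ h, inv_mul_cancel, Equiv.Perm.one_apply]
  have hFsub : F ⊆ S ∪ Q := fun x hx =>
    Finset.mem_union_left _ (hDS (Finset.mem_filter.1 hx).1)
  have h1 := Finset.card_le_card hsupp
  rw [Finset.card_sdiff_of_subset hFsub] at h1
  have h2 := Finset.card_union_le S Q
  have h3 := Finset.card_le_card hFsub
  omega

lemma exists_tau {G : Subgroup (Equiv.Perm α)} {k : ℕ} (hkn : k ≤ Fintype.card α)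
    (hG : IsMultiplyPretransitive G α k) (P : Finset α) (hP : P.card ≤ k) (f : α → α)
    (hf : Set.InjOn f (P : Set α)) : ∃ τ ∈ G, ∀ x ∈ P, τ x = f x := by
  have hG' : IsMultiplyPretransitive G α P.card :=
    isMultiplyPretransitive_of_le' (n := k) hP (by
      rw [ENat.card_eq_coe_fintype_card]; exact_mod_cast hkn)
  let e := P.equivFin
  obtain ⟨g, hg⟩ := Cfsg.Agent.Lib.MultiTrans.exists_smul_tuple hG'
    (fun i => ((e.symm i : P) : α)) (fun i => f (e.symm i : P))
    (fun i j hij => e.symm.injective (Subtype.ext hij))
    (fun i j hij => e.symm.injective (Subtype.ext (hf (e.symm i).2 (e.symm j).2 hij)))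
  refine ⟨g.1, g.2, fun x hx => ?_⟩
  have := hg (e ⟨x, hx⟩)
  simp only [Equiv.symm_apply_apply] at this
  exact this

lemma step {G : Subgroup (Equiv.Perm α)} {k : ℕ} (hk : 3 ≤ k) (hkn : k ≤ Fintype.card α)
    (hG : IsMultiplyPretransitive G α k) {h : Equiv.Perm α} (hh : h ∈ G)
    (h4 : 4 ≤ h.support.card) (hmk : h.support.card + 3 ≤ 2 * k) :
    ∃ c ∈ G, c ≠ 1 ∧ c.support.card < h.support.card := by
  by_cases hS : ∃ z, z ∉ h.support
  · obtain ⟨z, hz⟩ := hS
    set m := h.support.card with hm
    obtain ⟨D, hDS, hDc, hB⟩ := exists_segment h (m / 2 + 1) (by omega)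
    have hcommG : ∀ τ ∈ G, h⁻¹ * τ⁻¹ * h * τ ∈ G := fun τ hτ =>
      G.mul_mem (G.mul_mem (G.mul_mem (G.inv_mem hh) (G.inv_mem hτ)) hh) hτ
    have hnecomm : ∀ τ : Equiv.Perm α, h⁻¹ * τ⁻¹ * h * τ = 1 → ∀ x, h (τ x) = τ (h x) := by
      intro τ hc x
      have h1 : h * τ = τ * h := by
        have : h⁻¹ * τ⁻¹ * h * τ = (τ * h)⁻¹ * (h * τ) := by group
        rw [this, inv_mul_eq_one] at hc
        exact hc.symm
      exact congrArg (fun p : Equiv.Perm α => p x) h1
    have hpart : (D.filter (fun x => h x ∈ D)).card + (D.filter (fun x => h x ∉ D)).card = D.card :=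
      Finset.card_filter_add_card_filter_not _
    rcases Nat.eq_zero_or_pos (D.filter (fun x => h x ∉ D)).card with h0 | h1
    · -- D is a union of complete cycles
      have : ∃ y ∈ h.support, y ∉ D := by
        by_contra hcon
        push Not at hcon
        have := Finset.card_le_card (fun x hx => hcon x hx : h.support ⊆ D)
        omega
      obtain ⟨y, hyS, hyD⟩ := this
      have hzD : z ∉ D := fun hh => hz (hDS hh)
      obtain ⟨τ, hτG, hτ⟩ := exists_tau hkn hG (insert y D)
        (by rw [Finset.card_insert_of_notMem hyD, hDc]; omega)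
        (fun x => if x ∈ D then x else z) (by
          intro a ha b hb hab
          simp only [Finset.coe_insert, Set.mem_insert_iff, Finset.mem_coe] at ha hb
          by_cases had : a ∈ D <;> by_cases hbd : b ∈ D
          · simpa [had, hbd] using hab
          · simp only [had, hbd, if_true, if_false] at hab
            exact absurd (hab ▸ had) hzD
          · simp only [had, hbd, if_true, if_false] at hab
            exact absurd (hab ▸ hbd) hzD
          · have ha' : a = y := ha.resolve_right had
            have hb' : b = y := hb.resolve_right hbd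
            rw [ha', hb'])
      have hτD : ∀ x ∈ D, τ x = x := fun x hx => by
        rw [hτ x (Finset.mem_insert_of_mem hx)]; simp [hx]
      have hτy : τ y = z := by
        rw [hτ y (Finset.mem_insert_self _ _)]; simp [hyD]
      refine ⟨_, hcommG τ hτG, ?_, ?_⟩
      · intro hc
        have h2 := hnecomm τ hc y
        rw [hτy] at h2
        have e1 : h z = z := by
          simpa [Equiv.Perm.mem_support] using hz
        rw [e1] at h2
        rw [← hτy] at h2
        have := τ.injective h2
        exact (Equiv.Perm.mem_support.1 hyS) this.symm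
      · have := comm_support h τ D D hDS hDS hτD (fun x hx => by rw [hτD x hx]; exact hDS hx)
        omega
    · have h1' : (D.filter (fun x => h x ∉ D)).card = 1 := by omega
      obtain ⟨v, hv⟩ := Finset.card_eq_one.1 h1'
      have hvm : v ∈ D.filter (fun x => h x ∉ D) := by rw [hv]; simp
      rw [Finset.mem_filter] at hvm
      have hτv : ∀ τ : Equiv.Perm α, τ v = v → τ (h v) ≠ h v → h⁻¹ * τ⁻¹ * h * τ ≠ 1 := by
        intro τ h1 h2 hc
        have h3 := hnecomm τ hc v
        rw [h1] at h3
        exact h2 h3.symm
      have hyS : h v ∈ h.support := Equiv.Perm.apply_mem_support.2 (hDS hvm.1)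
      by_cases hm4 : m = 4
      · -- use an outside point
        have hzD : z ∉ D := fun hh => hz (hDS hh)
        obtain ⟨τ, hτG, hτ⟩ := exists_tau hkn hG (insert (h v) D)
          (by rw [Finset.card_insert_of_notMem hvm.2, hDc]; omega)
          (fun x => if x ∈ D then x else z) (by
            intro a ha b hb hab
            simp only [Finset.coe_insert, Set.mem_insert_iff, Finset.mem_coe] at ha hb
            by_cases had : a ∈ D <;> by_cases hbd : b ∈ D
            · simpa [had, hbd] using hab
            · simp only [had, hbd, if_true, if_false] at hab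
              exact absurd (hab ▸ had) hzD
            · simp only [had, hbd, if_true, if_false] at hab
              exact absurd (hab ▸ hbd) hzD
            · have ha' : a = h v := ha.resolve_right had
              have hb' : b = h v := hb.resolve_right hbd
              rw [ha', hb'])
        have hτD : ∀ x ∈ D, τ x = x := fun x hx => by
          rw [hτ x (Finset.mem_insert_of_mem hx)]; simp [hx]
        have hτy : τ (h v) = z := by
          rw [hτ _ (Finset.mem_insert_self _ _)]; simp [hvm.2]
        refine ⟨_, hcommG τ hτG, hτv τ (hτD v hvm.1) ?_, ?_⟩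
        · rw [hτy]
          intro hzv
          exact hz (hzv ▸ hyS)
        · have := comm_support h τ D D hDS hDS hτD (fun x hx => by rw [hτD x hx]; exact hDS hx)
          omega
      · -- m ≥ 5: use a point of the support
        have : ∃ w ∈ h.support, w ∉ D ∧ w ≠ h v := by
          by_contra hcon
          push Not at hcon
          have hsub : h.support ⊆ insert (h v) D := by
            intro x hx
            by_cases hxD : x ∈ D
            · exact Finset.mem_insert_of_mem hxD
            · rw [hcon x hx hxD]; exact Finset.mem_insert_self _ _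
          have h5 := Finset.card_le_card hsub
          rw [Finset.card_insert_of_notMem hvm.2, hDc] at h5
          omega
        obtain ⟨w, hwS, hwD, hwy⟩ := this
        obtain ⟨τ, hτG, hτ⟩ := exists_tau hkn hG (insert (h v) D)
          (by rw [Finset.card_insert_of_notMem hvm.2, hDc]; omega)
          (fun x => if x ∈ D then x else w) (by
            intro a ha b hb hab
            simp only [Finset.coe_insert, Set.mem_insert_iff, Finset.mem_coe] at ha hb
            by_cases had : a ∈ D <;> by_cases hbd : b ∈ D
            · simpa [had, hbd] using hab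
            · simp only [had, hbd, if_true, if_false] at hab
              exact absurd (hab ▸ had) hwD
            · simp only [had, hbd, if_true, if_false] at hab
              exact absurd (hab ▸ hbd) hwD
            · have ha' : a = h v := ha.resolve_right had
              have hb' : b = h v := hb.resolve_right hbd
              rw [ha', hb'])
        have hτD : ∀ x ∈ D, τ x = x := fun x hx => by
          rw [hτ x (Finset.mem_insert_of_mem hx)]; simp [hx]
        have hτy : τ (h v) = w := by
          rw [hτ _ (Finset.mem_insert_self _ _)]; simp [hvm.2]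
        refine ⟨_, hcommG τ hτG, hτv τ (hτD v hvm.1) (by rw [hτy]; exact hwy), ?_⟩
        have := comm_support h τ D (insert (h v) D) hDS (Finset.insert_subset hyS hDS) hτD
          (fun x hx => by
            rcases Finset.mem_insert.1 hx with rfl | hxD
            · rw [hτy]; exact hwS
            · rw [hτD x hxD]; exact hDS hxD)
        rw [Finset.card_insert_of_notMem hvm.2] at this
        omega
  · -- fixed point free: use a point stabiliser
    push Not at hS
    have hcard : h.support.card = Fintype.card α := by
      rw [← Finset.card_univ]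
      congr 1
      ext x
      simp [hS x]
    have h3 : 3 ≤ Fintype.card α := by omega
    obtain ⟨x, y, z, hxy, hxz, hyz⟩ : ∃ x y z : α, x ≠ y ∧ x ≠ z ∧ y ≠ z := by
      have h2lt : 2 < Fintype.card α := by omega
      obtain ⟨a, b, c, h1, h2, h3⟩ := Fintype.two_lt_card_iff.1 h2lt
      exact ⟨a, b, c, h1, h2, h3⟩
    obtain ⟨τ, hτG, hτ⟩ := exists_tau hkn hG {x, y}
      (by rw [Finset.card_pair hxy]; omega) (fun u => if u = x then x else z) (by
        intro a ha b hb hab
        simp only [Finset.coe_insert, Finset.coe_singleton, Set.mem_insert_iff,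
          Set.mem_singleton_iff] at ha hb
        rcases ha with rfl | rfl <;> rcases hb with rfl | rfl
        · rfl
        · simp [hxy.symm] at hab; exact absurd hab hxz
        · simp [hxy.symm] at hab; exact absurd hab.symm hxz
        · rfl)
    have hτx : τ x = x := by rw [hτ x (by simp)]; simp
    have hτy : τ y = z := by rw [hτ y (by simp)]; simp [hxy.symm]
    refine ⟨τ, hτG, ?_, ?_⟩
    · intro hc
      rw [hc] at hτy
      exact hyz hτy
    · rw [hcard, ← Finset.card_univ]
      apply Finset.card_lt_card
      rw [Finset.ssubset_univ_iff]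
      intro hu
      have : x ∈ τ.support := hu ▸ Finset.mem_univ x
      exact (Equiv.Perm.mem_support.1 this) hτx

lemma small_exists {G : Subgroup (Equiv.Perm α)} {k : ℕ} (hk : 3 ≤ k) (hkn : k ≤ Fintype.card α)
    (hG : IsMultiplyPretransitive G α k) :
    ∀ (n : ℕ) (h : Equiv.Perm α), h ∈ G → h ≠ 1 → h.support.card = n → n + 3 ≤ 2 * k →
      ∃ c ∈ G, c ≠ 1 ∧ c.support.card ≤ 3 := by
  intro n
  induction n using Nat.strong_induction_on with
  | _ n ih =>
    intro h hh h1 hn hnk
    by_cases h4 : n ≤ 3
    · exact ⟨h, hh, h1, by omega⟩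
    · obtain ⟨c, hc, hc1, hcn⟩ := step hk hkn hG hh (by omega) (by omega)
      exact ih _ (by omega) c hc hc1 rfl (by omega)

/-- A `k`-transitive permutation group (`k ≥ 3`) with a non-identity element of support smaller than `2k - 2` contains a non-identity element of support at most 3, and therefore contains the alternating group. -/
theorem result {α : Type*} [Fintype α] [DecidableEq α] (G : Subgroup (Equiv.Perm α)) {k : ℕ} (hk : 3 ≤ k) (hkn : k ≤ Fintype.card α) (hG : MulAction.IsMultiplyPretransitive G α k) (g : Equiv.Perm α) (hg : g ∈ G) (hg1 : g ≠ 1) (hsupp : g.support.card < 2 * k - 2) : (∃ h : Equiv.Perm α, h ∈ G ∧ h ≠ 1 ∧ h.support.card ≤ 3) ∧ alternatingGroup α ≤ G := by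
  obtain ⟨c, hc, hc1, hc3⟩ := small_exists hk hkn hG _ g hg hg1 rfl (by omega)
  refine ⟨⟨c, hc, hc1, hc3⟩, ?_⟩
  have h2 : IsMultiplyPretransitive G α 2 :=
    isMultiplyPretransitive_of_le' (n := k) (by omega) (by
      rw [ENat.card_eq_coe_fintype_card]; exact_mod_cast hkn)
  have hprim : IsPreprimitive G α := isPreprimitive_of_is_two_pretransitive h2
  have hne : c.support.card ≠ 0 := by
    intro h0
    exact hc1 (Equiv.Perm.support_eq_empty_iff.1 (Finset.card_eq_zero.1 h0))
  have hne1 : c.support.card ≠ 1 := Equiv.Perm.card_support_ne_one c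
  have hcases : c.support.card = 2 ∨ c.support.card = 3 := by omega
  rcases hcases with h2' | h3'
  · rw [Equiv.Perm.subgroup_eq_top_of_isPreprimitive_of_isSwap_mem hprim c
      (Equiv.Perm.card_support_eq_two.1 h2') hc]
    exact le_top
  · exact Equiv.Perm.alternatingGroup_le_of_isPreprimitive_of_isThreeCycle_mem hprim
      (card_support_eq_three_iff.1 h3') hc

end Cfsg.Agent.S0711
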