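import Mathlib
import Cfsg.Statements.S0714

set_option autoImplicit false
set_option linter.style.haveILetI false
set_option linter.unusedSectionVars false
open Cfsg

namespace Cfsg.Agent.S0714

open Equiv

variable {α : Type*} [Fintype α] [DecidableEq α] {K : Type*} [Field K]

/-- the delta function -/
def E (K : Type*) [Field K] (x : α) : α → K := Pi.single x 1

lemma E_comp (x : α) (σ : Perm α) : (fun y => E K x (σ y)) = E K (σ⁻¹ x) := by
  funext y
  simp only [E, Pi.single_apply]
  have : σ y = x ↔ y = σ⁻¹ x := by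
    rw [Perm.eq_inv_iff_eq]
  by_cases h : σ y = x
  · rw [if_pos h, if_pos (this.mp h)]
  · rw [if_neg h, if_neg (fun h' => h (this.mpr h'))]

lemma mem_alt_two {p q r s : α} (h1 : p ≠ q) (h2 : r ≠ s) :
    swap p q * swap r s ∈ alternatingGroup α := by
  rw [Equiv.Perm.mem_alternatingGroup, Perm.sign_mul, Perm.sign_swap h1, Perm.sign_swap h2]
  norm_num

lemma key_delta (hα : 5 ≤ Fintype.card α) (W : Submodule K (α → K))
    (hcomp : ∀ σ ∈ alternatingGroup α, ∀ f ∈ W, (fun x => f (σ x)) ∈ W)
    (f : α → K) (hf : f ∈ W) (a b : α) (hab : f a ≠ f b) :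
    ∃ p q : α, p ≠ q ∧ E K p - E K q ∈ W := by
  have hne : a ≠ b := fun h => hab (by rw [h])
  -- three further points
  obtain ⟨c, d, e, hca, hcb, hda, hdb, hea, heb, hcd, hce, hde⟩ :
      ∃ c d e : α, c ≠ a ∧ c ≠ b ∧ d ≠ a ∧ d ≠ b ∧ e ≠ a ∧ e ≠ b ∧ c ≠ d ∧ c ≠ e ∧ d ≠ e := by
    have h1 : 3 ≤ (Finset.univ \ ({a, b} : Finset α)).card := by
      rw [Finset.card_sdiff_of_subset (Finset.subset_univ _), Finset.card_univ, Finset.card_pair hne]
      omega
    obtain ⟨t, ht, htc⟩ := Finset.exists_subset_card_eq h1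
    obtain ⟨c, d, e, hcd, hce, hde, rfl⟩ := Finset.card_eq_three.mp htc
    have hc := ht (by simp : c ∈ ({c, d, e} : Finset α))
    have hd := ht (by simp : d ∈ ({c, d, e} : Finset α))
    have he := ht (by simp : e ∈ ({c, d, e} : Finset α))
    simp only [Finset.mem_sdiff, Finset.mem_univ, true_and, Finset.mem_insert, Finset.mem_singleton,
      not_or] at hc hd he
    exact ⟨c, d, e, hc.1, hc.2, hd.1, hd.2, he.1, he.2, hcd, hce, hde⟩
  -- the first difference
  set σ : Perm α := swap a b * swap b c with hσ
  have hσA : σ ∈ alternatingGroup α := mem_alt_two hne hcb.symm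
  set g : α → K := f - fun x => f (σ x) with hg
  have hgW : g ∈ W := W.sub_mem hf (hcomp σ hσA f hf)
  have hσa : σ a = b := by
    simp [hσ, Perm.mul_apply, swap_apply_of_ne_of_ne hne hca.symm]
  have hσb : σ b = c := by
    simp [hσ, Perm.mul_apply, swap_apply_of_ne_of_ne hca hcb]
  have hσc : σ c = a := by
    simp [hσ, Perm.mul_apply]
  have hσx : ∀ x, x ≠ a → x ≠ b → x ≠ c → σ x = x := by
    intro x h1 h2 h3
    simp [hσ, Perm.mul_apply, swap_apply_of_ne_of_ne h2 h3, swap_apply_of_ne_of_ne h1 h2]
  have hgx : ∀ x, x ≠ a → x ≠ b → x ≠ c → g x = 0 := by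
    intro x h1 h2 h3
    simp [hg, hσx x h1 h2 h3]
  have hga : g a ≠ 0 := by
    simp only [hg, Pi.sub_apply, hσa]
    exact sub_ne_zero.mpr hab
  have hsum3 : g a + g b + g c = 0 := by
    simp only [hg, Pi.sub_apply, hσa, hσb, hσc]
    ring
  have hgd : g d = 0 := hgx d hda hdb hcd.symm
  have hge : g e = 0 := hgx e hea heb hce.symm
  -- general two-swap computation
  have htwo : ∀ (p q : α), p ≠ q → ∀ (r s : α), r ≠ s → r ≠ p → r ≠ q → s ≠ p → s ≠ q →
      (∀ x, x ≠ p → x ≠ q → x ≠ r → x ≠ s → x ≠ a → x ≠ b → x ≠ c → g x = 0) →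
      g r = 0 → g s = 0 →
      (g p - g q) • (E K p - E K q) ∈ W := by
    intro p q hpq r s hrs hrp hrq hsp hsq hx0 hr0 hs0
    have hτ := mem_alt_two hpq hrs
    have hmem := W.sub_mem hgW (hcomp _ hτ g hgW)
    have e1 : (g - fun x => g ((swap p q * swap r s) x)) = (g p - g q) • (E K p - E K q) := by
      funext x
      simp only [Pi.sub_apply, Pi.smul_apply, smul_eq_mul, E, Pi.single_apply, Perm.mul_apply]
      by_cases h1 : x = p
      · subst h1
        simp [swap_apply_of_ne_of_ne hrp.symm hsp.symm, hpq]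
      by_cases h2 : x = q
      · subst h2
        simp [swap_apply_of_ne_of_ne hrq.symm hsq.symm, h1]
      by_cases h3 : x = r
      · subst h3
        simp [swap_apply_of_ne_of_ne hsp hsq, h1, h2, hr0, hs0]
      by_cases h4 : x = s
      · subst h4
        simp [swap_apply_of_ne_of_ne hrp hrq, h1, h2, hr0, hs0]
      rw [swap_apply_of_ne_of_ne h3 h4, swap_apply_of_ne_of_ne h1 h2]
      simp [h1, h2]
    rwa [e1] at hmem
  by_cases hβ : g a = g b
  · by_cases hγ : g a = g c
    · -- all equal
      refine ⟨c, e, hce, ?_⟩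
      have hτ : swap c d * swap d e ∈ alternatingGroup α := mem_alt_two hcd hde
      have hmem := W.sub_mem hgW (hcomp _ hτ g hgW)
      have e1 : (g - fun x => g ((swap c d * swap d e) x)) = (g c) • (E K c - E K e) := by
        funext x
        simp only [Pi.sub_apply, Pi.smul_apply, smul_eq_mul, E, Pi.single_apply, Perm.mul_apply]
        by_cases h1 : x = c
        · subst h1
          simp [swap_apply_of_ne_of_ne hcd hce, hgd, hce]
        by_cases h2 : x = d
        · subst h2
          simp [hgd, hge, hde, h1, swap_apply_of_ne_of_ne hce.symm hde.symm]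
        by_cases h3 : x = e
        · subst h3
          simp [hge, h1]
        rw [swap_apply_of_ne_of_ne h2 h3, swap_apply_of_ne_of_ne h1 h2]
        simp [h1, h3]
      rw [e1] at hmem
      have hc0 : g c ≠ 0 := hγ ▸ hga
      have := W.smul_mem (g c)⁻¹ hmem
      rwa [smul_smul, inv_mul_cancel₀ hc0, one_smul] at this
    · refine ⟨a, c, hca.symm, ?_⟩
      have := htwo a c hca.symm d e hde hda hcd.symm hea hce.symm
        (fun x _ _ _ _ h5 h6 h7 => hgx x h5 h6 h7) hgd hge
      have h3 := W.smul_mem (g a - g c)⁻¹ this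
      rwa [smul_smul, inv_mul_cancel₀ (sub_ne_zero.mpr hγ), one_smul] at h3
  · refine ⟨a, b, hne, ?_⟩
    have := htwo a b hne d e hde hda hdb hea heb
      (fun x _ _ _ _ h5 h6 h7 => hgx x h5 h6 h7) hgd hge
    have h3 := W.smul_mem (g a - g b)⁻¹ this
    rwa [smul_smul, inv_mul_cancel₀ (sub_ne_zero.mpr hβ), one_smul] at h3

/-- Over any field, the permutation module of the alternating group of degree at least 5 has exactly four invariant subspaces: zero, the constant functions, the functions with coordinate sum zero, and everything. -/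
theorem result {α : Type*} [Fintype α] [DecidableEq α] (hα : 5 ≤ Fintype.card α) {K : Type*} [Field K] (W : Subrepresentation (Cfsg.permRep K (alternatingGroup α) α)) : W.toSubmodule = ⊥ ∨ W = Cfsg.permConstants K (alternatingGroup α) α ∨ W = Cfsg.permSumZero K (alternatingGroup α) α ∨ W.toSubmodule = ⊤ := by
  classical
  have hcomp : ∀ σ ∈ alternatingGroup α, ∀ f ∈ W.toSubmodule, (fun x => f (σ x)) ∈ W.toSubmodule := by
    intro σ hσ f hf
    have h := W.apply_mem_toSubmodule (⟨σ, hσ⟩⁻¹ : alternatingGroup α) hf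
    have h2 : (Cfsg.permRep K (alternatingGroup α) α (⟨σ, hσ⟩⁻¹ : alternatingGroup α)) f = fun x => f (σ x) := by
      funext x
      change f ((⟨σ, hσ⟩⁻¹ : alternatingGroup α)⁻¹ • x) = f (σ x)
      rw [inv_inv]
      rfl
    rwa [h2] at h
  by_cases hconst : ∀ f ∈ W.toSubmodule, ∀ x y, f x = f y
  · -- `W` inside the constants
    by_cases hbot : W.toSubmodule = ⊥
    · exact Or.inl hbot
    right; left
    obtain ⟨f, hf, hf0⟩ := Submodule.exists_mem_ne_zero_of_ne_bot hbot
    obtain ⟨x₀, hx₀⟩ : ∃ x, f x ≠ 0 := by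
      by_contra hcon
      push Not at hcon
      exact hf0 (funext hcon)
    have h1 : (fun _ => (1 : K)) ∈ W.toSubmodule := by
      have : (fun _ => (1 : K)) = (f x₀)⁻¹ • f := by
        funext y
        simp only [Pi.smul_apply, smul_eq_mul]
        rw [hconst f hf y x₀, inv_mul_cancel₀ hx₀]
      rw [this]
      exact W.toSubmodule.smul_mem _ hf
    apply Subrepresentation.toSubmodule_injective
    apply le_antisymm
    · intro g hg
      change g ∈ Submodule.span K {fun _ => (1 : K)}
      rw [Submodule.mem_span_singleton]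
      obtain ⟨z⟩ : Nonempty α := by
        rw [← Fintype.card_pos_iff]; omega
      refine ⟨g z, ?_⟩
      funext y
      simp [hconst g hg y z]
    · change Submodule.span K {fun _ => (1 : K)} ≤ _
      rw [Submodule.span_le]
      simpa using h1
  · right; right
    push Not at hconst
    obtain ⟨f, hf, a, b, hab⟩ := hconst
    -- a difference of deltas in `W`
    obtain ⟨p, q, hpq, hE⟩ : ∃ p q : α, p ≠ q ∧ E K p - E K q ∈ W.toSubmodule :=
      key_delta hα W.toSubmodule hcomp f hf a b hab
    -- 2-transitivity of the alternating group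
    have h2 : MulAction.IsMultiplyPretransitive (alternatingGroup α) α 2 := by
      have h1 := alternatingGroup.isMultiplyPretransitive α
      refine MulAction.isMultiplyPretransitive_of_le' (n := Nat.card α - 2) ?_ ?_
      · rw [Nat.card_eq_fintype_card]; omega
      · rw [ENat.card_eq_coe_fintype_card, Nat.card_eq_fintype_card]
        exact_mod_cast Nat.sub_le _ _
    rw [MulAction.is_two_pretransitive_iff] at h2
    have hEall : ∀ p' q' : α, E K p' - E K q' ∈ W.toSubmodule := by
      intro p' q'
      by_cases h : p' = q'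
      · rw [h, sub_self]; exact W.toSubmodule.zero_mem
      obtain ⟨g, hg1, hg2⟩ := h2 h hpq
      have h3 := hcomp (g : Perm α) g.2 _ hE
      have h4 : (fun x => (E K p - E K q) ((g : Perm α) x)) = E K p' - E K q' := by
        funext x
        have e1 := congrFun (E_comp (K := K) p (g : Perm α)) x
        have e2 := congrFun (E_comp (K := K) q (g : Perm α)) x
        have e3 : (g : Perm α)⁻¹ p = p' := by
          rw [Perm.inv_eq_iff_eq]; exact hg1.symm
        have e4 : (g : Perm α)⁻¹ q = q' := by
          rw [Perm.inv_eq_iff_eq]; exact hg2.symm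
        simp only [Pi.sub_apply]
        rw [e1, e2, e3, e4]
      rwa [h4] at h3
    obtain ⟨x₀⟩ : Nonempty α := by
      rw [← Fintype.card_pos_iff]; omega
    have hS : ∀ h : α → K, ∑ x, h x = 0 → h ∈ W.toSubmodule := by
      intro h hh
      have e : h = ∑ x, h x • (E K x - E K x₀) := by
        funext y
        simp only [Finset.sum_apply, Pi.smul_apply, Pi.sub_apply, smul_eq_mul, mul_sub,
          Finset.sum_sub_distrib, ← Finset.sum_mul, hh, zero_mul, sub_zero, E, Pi.single_apply,
          mul_ite, mul_one, mul_zero]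
        by_cases hy : y = x₀ <;> simp [hy, hh]
      rw [e]
      exact W.toSubmodule.sum_mem fun x _ => W.toSubmodule.smul_mem _ (hEall x x₀)
    by_cases hsum : ∀ h ∈ W.toSubmodule, ∑ x, h x = 0
    · left
      apply Subrepresentation.toSubmodule_injective
      apply le_antisymm
      · exact fun h hh => hsum h hh
      · exact fun h hh => hS h hh
    · right
      push Not at hsum
      obtain ⟨h, hh, hh0⟩ := hsum
      rw [eq_top_iff]
      intro g _
      have e : g = (g - ((∑ x, g x) / (∑ x, h x)) • h) + ((∑ x, g x) / (∑ x, h x)) • h := by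
        abel
      rw [e]
      refine W.toSubmodule.add_mem (hS _ ?_) (W.toSubmodule.smul_mem _ hh)
      simp only [Pi.sub_apply, Pi.smul_apply, smul_eq_mul, Finset.sum_sub_distrib, ← Finset.mul_sum]
      field_simp
      simp

end Cfsg.Agent.S0714
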