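import Mathlib
import Cfsg.Statements.S0716
import Cfsg.Agent.Lib.PermChar

set_option autoImplicit false
open Cfsg

namespace Cfsg.Agent.S0716

open Cfsg.Agent.Lib.PermChar MulAction

/-- (a) If all non-principal irreducible constituents of the permutation character of a transitive group have the same degree `f`, the character is multiplicity-free and all non-trivial subdegrees equal `f`. (b) A transitive group of rank at most 5 has multiplicity-free permutation character. -/
theorem result {G : Type*} [Group G] [Fintype G] {Ω : Type*} [Fintype Ω] [MulAction G Ω] [MulAction.IsPretransitive G Ω] (a : Ω) : ((f : ℕ) → (∀ χ : G → ℂ, Cfsg.IsIrrCharacter G χ → χ ≠ (fun _ => 1) → Cfsg.classInner (fun g : G => (Nat.card (MulAction.fixedBy Ω g) : ℂ)) χ ≠ 0 → χ 1 = f) → (∀ χ : G → ℂ, Cfsg.IsIrrCharacter G χ → Cfsg.classInner (fun g : G => (Nat.card (MulAction.fixedBy Ω g) : ℂ)) χ = 0 ∨ Cfsg.classInner (fun g : G => (Nat.card (MulAction.fixedBy Ω g) : ℂ)) χ = 1) ∧ ∀ b : Ω, b ≠ a → Nat.card (MulAction.orbit (MulAction.stabilizer G a) b) =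 f) ∧ (Nat.card (MulAction.orbitRel.Quotient (MulAction.stabilizer G a) Ω) ≤ 5 → ∀ χ : G → ℂ, Cfsg.IsIrrCharacter G χ → Cfsg.classInner (fun g : G => (Nat.card (MulAction.fixedBy Ω g) : ℂ)) χ = 0 ∨ Cfsg.classInner (fun g : G => (Nat.card (MulAction.fixedBy Ω g) : ℂ)) χ = 1) := by
  classical
  obtain ⟨m, hinner, htriv, hsq, hdeg⟩ := mult_data (G := G) a
  set r := Nat.card (orbitRel.Quotient (stabilizer G a) Ω) with hr
  have hr1 : 1 ≤ r := by
    have : Nonempty (orbitRel.Quotient (stabilizer G a) Ω) := ⟨Quotient.mk'' a⟩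
    exact Nat.card_pos
  -- multiplicity free from m ≤ 1
  have hmf : (∀ i, m i ≤ 1) → ∀ χ : G → ℂ, Cfsg.IsIrrCharacter G χ → Cfsg.classInner (fun g : G => (Nat.card (MulAction.fixedBy Ω g) : ℂ)) χ = 0 ∨ Cfsg.classInner (fun g : G => (Nat.card (MulAction.fixedBy Ω g) : ℂ)) χ = 1 := by
    intro h χ hχ
    have h1 := hinner ⟨χ, hχ⟩
    have h2 := h ⟨χ, hχ⟩
    have h3 : m ⟨χ, hχ⟩ = 0 ∨ m ⟨χ, hχ⟩ = 1 := by omega
    rcases h3 with h3 | h3
    · left; rw [h1, h3]; simp
    · right; rw [h1, h3]; simp
  have hsplit_sq : 1 + ∑ i ∈ Finset.univ.erase (triv G), m i ^ 2 = r := by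
    rw [← hsq, ← Finset.add_sum_erase _ _ (Finset.mem_univ (triv G)), htriv]
    simp
  have hsplit_deg : 1 + ∑ i ∈ Finset.univ.erase (triv G), m i * deg i = Fintype.card Ω := by
    rw [← hdeg, ← Finset.add_sum_erase _ _ (Finset.mem_univ (triv G)), htriv]
    have h1 : deg (triv G) = 1 := by
      have := deg_spec (triv G)
      have h2 : ((triv G : IrrCharacter G) : G → ℂ) 1 = 1 := rfl
      rw [h2] at this
      exact_mod_cast this.symm
    rw [h1]
  have hsubdeg_pos : ∀ b : Ω, 1 ≤ Nat.card (orbit (stabilizer G a) b) := by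
    intro b
    have : Nonempty (orbit (stabilizer G a) b) := ⟨⟨b, mem_orbit_self b⟩⟩
    exact Nat.card_pos
  constructor
  · intro f hf
    have hdvd : ∀ b : Ω, b ≠ a → f ∣ Nat.card (orbit (stabilizer G a) b) := by
      intro b hb
      refine dvd_subdegree f (fun χ hχ hne hin => ⟨1, ?_⟩) a b hb
      rw [hf χ hχ hne hin]; simp
    have hdegf : ∀ i ∈ Finset.univ.erase (triv G), m i * deg i = m i * f := by
      intro i hi
      by_cases hmi : m i = 0
      · simp [hmi]
      · congr 1
        have h1 : classInner (pc G Ω) (i : G → ℂ) ≠ 0 := by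
          rw [hinner]
          exact_mod_cast hmi
        have h2 := hf i i.2 (fun h => (Finset.ne_of_mem_erase hi) (Subtype.ext h)) h1
        have h3 := deg_spec i
        rw [h2] at h3
        exact_mod_cast h3.symm
    rw [Finset.sum_congr rfl hdegf, ← Finset.sum_mul] at hsplit_deg
    have hk : ∀ b : Ω, b ≠ a → f ≤ Nat.card (orbit (stabilizer G a) b) := fun b hb =>
      Nat.le_of_dvd (hsubdeg_pos b) (hdvd b hb)
    obtain ⟨hb1, hb2⟩ := rank_bound (G := G) a f hk
    rw [← hr] at hb1 hb2
    -- the inequality on multiplicities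
    by_cases hf0 : f = 0
    · -- then there are no non-principal constituents
      have hzero : ∀ i ∈ Finset.univ.erase (triv G), m i = 0 := by
        intro i hi
        by_contra hmi
        have h1 : classInner (pc G Ω) (i : G → ℂ) ≠ 0 := by
          rw [hinner]
          exact_mod_cast hmi
        have h2 := hf i i.2 (fun h => (Finset.ne_of_mem_erase hi) (Subtype.ext h)) h1
        have h3 := deg_spec i
        rw [h2, hf0] at h3
        have h4 := one_le_deg i
        have h5 : deg i = 0 := by exact_mod_cast h3.symm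
        omega
      constructor
      · apply hmf
        intro i
        by_cases hi : i = triv G
        · rw [hi, htriv]
        · rw [hzero i (Finset.mem_erase.2 ⟨hi, Finset.mem_univ _⟩)]; omega
      · intro b hb
        have h1 := hsplit_deg
        rw [hf0, mul_zero, add_zero] at h1
        exfalso
        apply hb
        exact (Fintype.card_le_one_iff.1 (by omega)) b a
    · have hfpos : 0 < f := Nat.pos_of_ne_zero hf0
      have hle : (r - 1) ≤ ∑ i ∈ Finset.univ.erase (triv G), m i := by
        have h1 : (r - 1) * f ≤ (∑ i ∈ Finset.univ.erase (triv G), m i) * f := by omega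
        exact Nat.le_of_mul_le_mul_right h1 hfpos
      have hsq' : ∑ i ∈ Finset.univ.erase (triv G), m i ^ 2 = r - 1 := by omega
      have htermle : ∀ i ∈ Finset.univ.erase (triv G), m i ≤ m i ^ 2 := by
        intro i _
        exact Nat.le_self_pow (by omega) _
      have heq : ∑ i ∈ Finset.univ.erase (triv G), m i = ∑ i ∈ Finset.univ.erase (triv G), m i ^ 2 :=
        le_antisymm (Finset.sum_le_sum htermle) (by omega)
      have hterm : ∀ i ∈ Finset.univ.erase (triv G), m i = m i ^ 2 :=
        (Finset.sum_eq_sum_iff_of_le htermle).1 heq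
      constructor
      · apply hmf
        intro i
        by_cases hi : i = triv G
        · rw [hi, htriv]
        · have h1 := hterm i (Finset.mem_erase.2 ⟨hi, Finset.mem_univ _⟩)
          by_contra hge
          push Not at hge
          have h2 : m i * 2 ≤ m i * m i := Nat.mul_le_mul_left _ hge
          rw [sq] at h1
          omega
      · apply hb2
        have h1 : ∑ i ∈ Finset.univ.erase (triv G), m i = r - 1 := by rw [heq, hsq']
        rw [h1] at hsplit_deg
        omega
  · intro hr5
    apply hmf
    intro j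
    by_contra hj
    push Not at hj
    have hjt : j ≠ triv G := by
      intro h
      rw [h, htriv] at hj
      omega
    have hjmem : j ∈ Finset.univ.erase (triv G) := Finset.mem_erase.2 ⟨hjt, Finset.mem_univ _⟩
    -- squares
    have h1 : m j ^ 2 ≤ ∑ i ∈ Finset.univ.erase (triv G), m i ^ 2 :=
      Finset.single_le_sum (f := fun i => m i ^ 2) (fun _ _ => Nat.zero_le _) hjmem
    have h2 : 4 ≤ m j ^ 2 := by nlinarith
    have hr5' : r = 5 := by omega
    have hmj : m j ^ 2 = 4 := by omega
    have hmj2 : m j = 2 := by nlinarith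
    have hothers : ∑ i ∈ (Finset.univ.erase (triv G)).erase j, m i ^ 2 = 0 := by
      have := Finset.add_sum_erase (Finset.univ.erase (triv G)) (fun i => m i ^ 2) hjmem
      omega
    have hzero : ∀ i ∈ (Finset.univ.erase (triv G)).erase j, m i = 0 := by
      intro i hi
      have := (Finset.sum_eq_zero_iff_of_nonneg (fun _ _ => Nat.zero_le _)).1 hothers i hi
      exact pow_eq_zero_iff (by omega) |>.1 this
    have hcard : 1 + 2 * deg j = Fintype.card Ω := by
      rw [← hsplit_deg, ← Finset.add_sum_erase _ _ hjmem, hmj2,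
        Finset.sum_eq_zero (fun i hi => by rw [hzero i hi, zero_mul])]
      ring
    -- `deg j` divides all subdegrees
    have hdvd : ∀ b : Ω, b ≠ a → deg j ∣ Nat.card (orbit (stabilizer G a) b) := by
      intro b hb
      refine dvd_subdegree (deg j) (fun χ hχ hne hin => ?_) a b hb
      have hi : (⟨χ, hχ⟩ : IrrCharacter G) = j := by
        by_contra hne2
        have hmem : (⟨χ, hχ⟩ : IrrCharacter G) ∈ (Finset.univ.erase (triv G)).erase j := by
          refine Finset.mem_erase.2 ⟨hne2, Finset.mem_erase.2 ⟨fun h => hne ?_, Finset.mem_univ _⟩⟩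
          exact congrArg Subtype.val h
        have h3 := hinner ⟨χ, hχ⟩
        rw [hzero _ hmem] at h3
        apply hin
        simpa using h3
      refine ⟨1, ?_⟩
      have h4 : χ = (j : G → ℂ) := congrArg Subtype.val hi
      rw [h4, deg_spec j]
      simp
    have hk : ∀ b : Ω, b ≠ a → deg j ≤ Nat.card (orbit (stabilizer G a) b) := fun b hb =>
      Nat.le_of_dvd (hsubdeg_pos b) (hdvd b hb)
    have hb1 := (rank_bound (G := G) a (deg j) hk).1
    rw [← hr, hr5'] at hb1
    have := one_le_deg j
    omega

end Cfsg.Agent.S0716
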