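import Mathlib
import Cfsg.Statements.S0717
import Cfsg.Agent.Lib.MultFree2

set_option autoImplicit false
open Cfsg

namespace Cfsg.Agent.S0717

open Representation Module Matrix
open Cfsg.Agent.Lib.CharBasic Cfsg.Agent.Lib.MultFree Cfsg.Agent.Lib.MultFree2
  Cfsg.Agent.Lib.PermChar
open scoped ComplexOrder

variable {G : Type*} [Group G] [Fintype G] {Ω : Type*} [Fintype Ω] [DecidableEq Ω] [MulAction G Ω]

/-- Forward direction: reality of the constituents. -/
theorem real_of_swap (hswap : ∀ a b : Ω, ∃ g : G, g • a = b ∧ g • b = a)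
    {n : ℕ} (ρ₀ : Representation ℂ G (Fin n → ℂ)) (hirr : ρ₀.IsIrreducible)
    (F : IntertwiningMap ρ₀ (permRep ℂ G Ω)) (hF : F ≠ 0) (g : G) :
    (starRingEnd ℂ) (ρ₀.character g) = ρ₀.character g := by
  classical
  have hsym : ∀ A : Matrix Ω Ω ℂ, IsInvMat G A → Aᵀ = A := by
    intro A hA
    ext x y
    obtain ⟨h, h1, h2⟩ := hswap x y
    rw [transpose_apply]
    have := hA h x y
    rw [h1, h2] at this
    exact this
  have hcomm : ∀ A B : Matrix Ω Ω ℂ, IsInvMat G A → IsInvMat G B → A * B = B * A := by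
    intro A B hA hB
    have h1 := hsym _ (hA.mul hB)
    rw [transpose_mul, hsym _ hA, hsym _ hB] at h1
    exact h1.symm
  obtain ⟨L, hL1, hL2⟩ := exists_left_inv hirr (permRep ℂ G Ω) F hF
  -- the idempotent
  let Q : (Ω → ℂ) →ₗ[ℂ] (Ω → ℂ) := F.toLinearMap ∘ₗ L
  have hQ : ∀ x, Q (F x) = F x := fun x => by
    show F (L (F x)) = F x
    rw [hL2]
  have hQinv : ∀ h : G, Q ∘ₗ permRep ℂ G Ω h = permRep ℂ G Ω h ∘ₗ Q := by
    intro h
    apply LinearMap.ext
    intro v
    show F (L (permRep ℂ G Ω h v)) = permRep ℂ G Ω h (F (L v))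
    rw [hL1]
    exact LinearMap.congr_fun (F.isIntertwining' h) (L v)
  let A : Matrix Ω Ω ℂ := LinearMap.toMatrix' Q
  have hA : IsInvMat G A := (toLin'_mem Q).1 hQinv
  have hAA : A * A = A := by
    show LinearMap.toMatrix' Q * LinearMap.toMatrix' Q = LinearMap.toMatrix' Q
    rw [← LinearMap.toMatrix'_comp]
    congr 1
    apply LinearMap.ext
    intro v
    show Q (Q v) = Q v
    exact hQ (L v)
  have hA0 : A ≠ 0 := by
    intro h0
    apply hF
    have hQ0 : Q = 0 := by
      have : LinearMap.toMatrix' Q = LinearMap.toMatrix' 0 := by rw [map_zero]; exact h0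
      exact LinearMap.toMatrix'.injective this
    apply IntertwiningMap.ext
    apply LinearMap.ext
    intro x
    have h1 := hQ x
    rw [hQ0] at h1
    exact h1.symm
  let B : Matrix Ω Ω ℂ := A.map (starRingEnd ℂ)
  have hB : IsInvMat G B := hA.map_conj
  have hBeq : B = Aᴴ := by
    rw [conjTranspose, hsym A hA]
    rfl
  have hBB : B * B = B := by
    show A.map (starRingEnd ℂ) * A.map (starRingEnd ℂ) = A.map (starRingEnd ℂ)
    rw [← Matrix.map_mul, hAA]
  have hAB0 : A * B ≠ 0 := by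
    rw [hBeq]
    intro h0
    exact hA0 (Matrix.self_mul_conjTranspose_eq_zero.1 h0)
  have hABc := hcomm A B hA hB
  -- Schur
  obtain ⟨c, hc⟩ := schur_scalar hirr (L ∘ₗ toLin' B ∘ₗ F.toLinearMap) (fun h => by
    apply LinearMap.ext
    intro u
    simp only [LinearMap.comp_apply]
    have h1 : F.toLinearMap (ρ₀ h u) = permRep ℂ G Ω h (F.toLinearMap u) :=
      LinearMap.congr_fun (F.isIntertwining' h) u
    have h2 := LinearMap.congr_fun ((isInvMat_iff B).2 hB h) (F.toLinearMap u)
    simp only [LinearMap.comp_apply] at h2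
    rw [h1, h2, hL1])
  have hABA : A * B * A = c • A := by
    have h1 : LinearMap.toMatrix' (Q ∘ₗ toLin' B ∘ₗ Q) = c • A := by
      have : Q ∘ₗ toLin' B ∘ₗ Q = c • Q := by
        apply LinearMap.ext
        intro v
        have h2 := LinearMap.congr_fun hc (L v)
        simp only [LinearMap.comp_apply, LinearMap.smul_apply, LinearMap.id_apply] at h2
        show F (L (toLin' B (F (L v)))) = c • F (L v)
        have h3 : L (toLin' B (F.toLinearMap (L v))) = c • L v := h2
        have h4 : toLin' B (F (L v)) = toLin' B (F.toLinearMap (L v)) := rfl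
        rw [h4, h3, map_smul]
      rw [this, map_smul]
    have h0 := LinearMap.toMatrix'_comp Q (toLin' B ∘ₗ Q)
    have h00 := LinearMap.toMatrix'_comp (toLin' B) Q
    rw [h0, h00, LinearMap.toMatrix'_toLin'] at h1
    rw [mul_assoc]
    exact h1
  have hBA : B * A = c • A := by
    rw [← hABA, hABc, mul_assoc, hAA]
  have hc0 : c ≠ 0 := by
    rintro rfl
    rw [zero_smul] at hBA
    rw [hABc] at hAB0
    exact hAB0 hBA
  have hcc : c * c = c := by
    have h1 : B * (B * A) = c • (c • A) := by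
      rw [hBA, Matrix.mul_smul, hBA]
    rw [← mul_assoc, hBB, hBA, smul_smul] at h1
    by_contra hne
    have h2 : (c * c - c) • A = 0 := by
      rw [sub_smul, ← h1, sub_self]
    rcases smul_eq_zero.1 h2 with h3 | h3
    · exact hne (sub_eq_zero.1 h3)
    · exact hA0 h3
  have hc1 : c = 1 := by
    have : c * (c - 1) = 0 := by
      rw [mul_sub, hcc, mul_one, sub_self]
    rcases mul_eq_zero.1 this with h | h
    · exact absurd h hc0
    · exact sub_eq_zero.1 h
  rw [hc1, one_smul] at hBA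
  have hAB : A * B = B := by
    have := congrArg (fun M : Matrix Ω Ω ℂ => M.map (starRingEnd ℂ)) hBA
    simp only [Matrix.map_mul] at this
    have hAA' : B.map (starRingEnd ℂ) = A := by
      ext x y
      simp [B, map_apply]
    rw [hAA'] at this
    exact this
  have hAreal : B = A := by
    rw [← hAB, hABc, hBA]
  -- the trace
  have htr : ρ₀.character g = Matrix.trace (A * LinearMap.toMatrix' (permRep ℂ G Ω g)) := by
    have h1 : ρ₀.character g = LinearMap.trace ℂ _ (ρ₀ g) := rfl
    have h2 : ρ₀ g = L ∘ₗ (F.toLinearMap ∘ₗ ρ₀ g) := by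
      apply LinearMap.ext
      intro u
      exact (hL2 _).symm
    have h3 : F.toLinearMap ∘ₗ ρ₀ g = permRep ℂ G Ω g ∘ₗ F.toLinearMap := F.isIntertwining' g
    rw [h1, h2, h3, ← LinearMap.comp_assoc, LinearMap.trace_comp_comm']
    have h4 : F.toLinearMap ∘ₗ (L ∘ₗ permRep ℂ G Ω g) = Q ∘ₗ permRep ℂ G Ω g := rfl
    rw [h4, LinearMap.trace_eq_matrix_trace ℂ (Pi.basisFun ℂ Ω), LinearMap.toMatrix_eq_toMatrix']
    have h6 := LinearMap.toMatrix'_comp Q (permRep ℂ G Ω g)
    rw [h6]
  rw [htr]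
  have h5 : (starRingEnd ℂ) (Matrix.trace (A * LinearMap.toMatrix' (permRep ℂ G Ω g))) =
      Matrix.trace ((A * LinearMap.toMatrix' (permRep ℂ G Ω g)).map (starRingEnd ℂ)) := by
    simp only [Matrix.trace, Matrix.diag, map_sum, Matrix.map_apply]
  rw [h5, Matrix.map_mul, toMatrix_permRep_map_conj]
  show Matrix.trace (B * _) = _
  rw [hAreal]

/-- Backward direction: all intertwiners are symmetric. -/
theorem sym_of_real
    (hmf : ∀ χ : G → ℂ, Cfsg.IsIrrCharacter G χ →
      Cfsg.classInner (permRep ℂ G Ω).character χ ≠ 0 →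
      Cfsg.classInner (permRep ℂ G Ω).character χ = 1 ∧ ∀ g : G, (starRingEnd ℂ) (χ g) = χ g)
    (S : (Ω → ℂ) →ₗ[ℂ] (Ω → ℂ)) (hS : ∀ g : G, S ∘ₗ permRep ℂ G Ω g = permRep ℂ G Ω g ∘ₗ S) :
    (LinearMap.toMatrix' S)ᵀ = LinearMap.toMatrix' S := by
  classical
  set ρ := permRep ℂ G Ω with hρ
  have key : ∀ χ : IrrCharacter G, ∃ c : ℂ, S ∘ₗ opOf (χ : G → ℂ) ρ = c • opOf (χ : G → ℂ) ρ ∧
      (LinearMap.toMatrix' (opOf (χ : G → ℂ) ρ))ᵀ = LinearMap.toMatrix' (opOf (χ : G → ℂ) ρ) := by
    intro χ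
    obtain ⟨n, ρ₀, hirr, hχ⟩ := χ.2
    rw [← hχ]
    have hin := classInner_eq_finrank ρ₀ ρ
    by_cases h0 : classInner ρ.character ρ₀.character = 0
    · have hfin : finrank ℂ (IntertwiningMap ρ₀ ρ) = 0 := by
        rw [h0] at hin
        exact_mod_cast hin.symm
      have hsub : Subsingleton (IntertwiningMap ρ₀ ρ) := finrank_zero_iff.1 hfin
      rw [opOf_eq_zero_of_subsingleton ρ₀ ρ hsub]
      exact ⟨0, by simp, by simp⟩
    · obtain ⟨h1, hreal⟩ := hmf _ ⟨n, ρ₀, hirr, rfl⟩ h0
      have hfin : finrank ℂ (IntertwiningMap ρ₀ ρ) = 1 := by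
        rw [h1] at hin
        exact_mod_cast hin.symm
      obtain ⟨c, hc⟩ := comp_opOf_eq_smul ρ₀ ρ hfin.le S hS
      refine ⟨c, hc, ?_⟩
      -- the matrix of `opOf` is symmetric
      have hm : LinearMap.toMatrix' (opOf ρ₀.character ρ) =
          ∑ g : G, ρ₀.character g • LinearMap.toMatrix' (ρ g⁻¹) := by
        unfold opOf
        rw [map_sum]
        simp only [map_smul]
      rw [hm, Matrix.transpose_sum]
      simp only [Matrix.transpose_smul]
      simp only [hρ, toMatrix_permRep_transpose, inv_inv]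
      rw [← Equiv.sum_comp (Equiv.inv G)]
      refine Finset.sum_congr rfl fun g _ => ?_
      simp only [Equiv.inv_apply]
      congr 1
      rw [← char_conj_eq_inv (isCharacter_of_rep' ρ₀), hreal]
  choose c hc1 hc2 using key
  have hsum := sum_opOf ρ
  have h1 : (Nat.card G : ℂ) • LinearMap.toMatrix' S =
      ∑ χ : IrrCharacter G, ((χ : G → ℂ) 1 * c χ) • LinearMap.toMatrix' (opOf (χ : G → ℂ) ρ) := by
    have h2 : (Nat.card G : ℂ) • S = S ∘ₗ ((Nat.card G : ℂ) • LinearMap.id) := by
      rw [LinearMap.comp_smul, LinearMap.comp_id]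
    have h4 : S ∘ₗ (∑ χ : IrrCharacter G, (χ : G → ℂ) 1 • opOf (χ : G → ℂ) ρ) =
        ∑ χ : IrrCharacter G, ((χ : G → ℂ) 1 * c χ) • opOf (χ : G → ℂ) ρ := by
      apply LinearMap.ext
      intro v
      simp only [LinearMap.comp_apply, LinearMap.sum_apply, LinearMap.smul_apply, map_sum, map_smul]
      refine Finset.sum_congr rfl fun χ _ => ?_
      have := LinearMap.congr_fun (hc1 χ) v
      simp only [LinearMap.comp_apply, LinearMap.smul_apply] at this
      rw [this, smul_smul]
    rw [← map_smul, h2, ← hsum, h4, map_sum]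
    refine Finset.sum_congr rfl fun χ _ => ?_
    rw [map_smul]
  have hcard : (Nat.card G : ℂ) ≠ 0 := natCard_ne_zero'
  have h3 : (Nat.card G : ℂ) • (LinearMap.toMatrix' S)ᵀ = (Nat.card G : ℂ) • LinearMap.toMatrix' S := by
    rw [← Matrix.transpose_smul, h1, Matrix.transpose_sum]
    refine Finset.sum_congr rfl fun χ _ => ?_
    rw [Matrix.transpose_smul, hc2]
  exact smul_right_injective _ hcard h3

/-- All suborbits of a transitive group are self-paired (every pair of points is interchanged by some group element) if and only if the permutation character is multiplicity-free and each of its irreducible constituents is real-valued. -/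
theorem result {G : Type*} [Group G] [Fintype G] {Ω : Type*} [Fintype Ω] [MulAction G Ω] [MulAction.IsPretransitive G Ω] : (∀ a b : Ω, ∃ g : G, g • a = b ∧ g • b = a) ↔ ∀ χ : G → ℂ, Cfsg.IsIrrCharacter G χ → Cfsg.classInner (fun g : G => (Nat.card (MulAction.fixedBy Ω g) : ℂ)) χ ≠ 0 → Cfsg.classInner (fun g : G => (Nat.card (MulAction.fixedBy Ω g) : ℂ)) χ = 1 ∧ ∀ g : G, (starRingEnd ℂ) (χ g) = χ g := by
  classical
  have hchar : (fun g : G => (Nat.card (MulAction.fixedBy Ω g) : ℂ)) = (permRep ℂ G Ω).character :=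
    (permRep_character (G := G) (Ω := Ω)).symm
  rw [hchar]
  constructor
  · intro hswap χ hχ hne
    have hsym : ∀ A : Matrix Ω Ω ℂ, IsInvMat G A → Aᵀ = A := by
      intro A hA
      ext x y
      obtain ⟨h, h1, h2⟩ := hswap x y
      rw [transpose_apply]
      have := hA h x y
      rw [h1, h2] at this
      exact this
    have hcomm : ∀ S T : (Ω → ℂ) →ₗ[ℂ] (Ω → ℂ), (∀ g : G, S ∘ₗ permRep ℂ G Ω g = permRep ℂ G Ω g ∘ₗ S) →
        (∀ g : G, T ∘ₗ permRep ℂ G Ω g = permRep ℂ G Ω g ∘ₗ T) → S ∘ₗ T = T ∘ₗ S := by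
      intro S T hS hT
      have hA := (toLin'_mem S).1 hS
      have hB := (toLin'_mem T).1 hT
      have h1 := hsym _ (hA.mul hB)
      rw [transpose_mul, hsym _ hA, hsym _ hB, ← LinearMap.toMatrix'_comp,
        ← LinearMap.toMatrix'_comp] at h1
      exact (LinearMap.toMatrix'.injective h1).symm
    have h01 := (mf_of_comm _ hcomm χ hχ).resolve_left hne
    refine ⟨h01, fun g => ?_⟩
    obtain ⟨n, ρ₀, hirr, rfl⟩ := hχ
    have hfin : finrank ℂ (IntertwiningMap ρ₀ (permRep ℂ G Ω)) = 1 := by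
      have := classInner_eq_finrank ρ₀ (permRep ℂ G Ω)
      rw [h01] at this
      exact_mod_cast this.symm
    have hnt : Nontrivial (IntertwiningMap ρ₀ (permRep ℂ G Ω)) :=
      Module.nontrivial_of_finrank_pos (R := ℂ) (by omega)
    obtain ⟨F, hF⟩ := exists_ne (0 : IntertwiningMap ρ₀ (permRep ℂ G Ω))
    exact real_of_swap hswap ρ₀ hirr F hF g
  · intro hmf a b
    -- the orbital matrix
    let A : Matrix Ω Ω ℂ := fun x y => if ∃ g : G, g • a = x ∧ g • b = y then 1 else 0
    have hA : IsInvMat G A := by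
      intro g x y
      simp only [A]
      have : (∃ h : G, h • a = g • x ∧ h • b = g • y) ↔ ∃ h : G, h • a = x ∧ h • b = y := by
        constructor
        · rintro ⟨h, h1, h2⟩
          refine ⟨g⁻¹ * h, ?_, ?_⟩
          · rw [mul_smul, h1, inv_smul_smul]
          · rw [mul_smul, h2, inv_smul_smul]
        · rintro ⟨h, h1, h2⟩
          refine ⟨g * h, ?_, ?_⟩
          · rw [mul_smul, h1]
          · rw [mul_smul, h2]
      simp only [this]
    have hS : ∀ g : G, toLin' A ∘ₗ permRep ℂ G Ω g = permRep ℂ G Ω g ∘ₗ toLin' A :=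
      (isInvMat_iff A).2 hA
    have hsym := sym_of_real hmf (toLin' A) hS
    rw [LinearMap.toMatrix'_toLin'] at hsym
    have h1 : A a b = 1 := by
      simp only [A]
      rw [if_pos ⟨1, one_smul _ _, one_smul _ _⟩]
    have h2 : A b a = 1 := by
      rw [← h1]
      exact congrFun (congrFun hsym a) b
    simp only [A] at h2
    by_contra hcon
    rw [if_neg hcon] at h2
    exact zero_ne_one h2

end Cfsg.Agent.S0717
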