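import Mathlib
import Cfsg.Statements.S0718
import Cfsg.Agent.Lib.MultFree

set_option autoImplicit false
open Cfsg

namespace Cfsg.Agent.S0718

open Cfsg.Agent.Lib.MultFree Cfsg.Agent.Lib.PermChar

theorem mem_inv_iff {G : Type*} [Group G] {V : Type*} [AddCommGroup V] [Module ℂ V]
    (ρ : Representation ℂ G V) [FiniteDimensional ℂ V] (S : V →ₗ[ℂ] V) :
    S ∈ (ρ.linHom ρ).invariants ↔ ∀ g, S ∘ₗ ρ g = ρ g ∘ₗ S := by
  constructor
  · intro h g
    have h1 := ((Representation.mem_linHom_invariants_iff_isIntertwining (ρ := ρ) (σ := ρ) S).1 h)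
    apply LinearMap.ext
    intro v
    exact h1.isIntertwining g v
  · intro h
    refine (Representation.mem_linHom_invariants_iff_isIntertwining (ρ := ρ) (σ := ρ) S).2 ⟨fun g v => ?_⟩
    exact LinearMap.congr_fun (h g) v

/-- Multiplicity-freeness of the permutation character is equivalent to commutativity of the centraliser ring, i.e. of the algebra of `G`-equivariant endomorphisms of the complex permutation module. -/
theorem result {G : Type*} [Group G] [Fintype G] {Ω : Type*} [Fintype Ω] [MulAction G Ω] : (∀ χ : G → ℂ, Cfsg.IsIrrCharacter G χ → Cfsg.classInner (fun g : G => (Nat.card (MulAction.fixedBy Ω g) : ℂ)) χ = 0 ∨ Cfsg.classInner (fun g : G => (Nat.card (MulAction.fixedBy Ω g) : ℂ)) χ = 1) ↔ ∀ S T : (Ω → ℂ) →ₗ[ℂ] (Ω → ℂ), S ∈ ((Cfsg.permRep ℂ G Ω).linHom (Cfsg.permRep ℂ G Ω)).invariants → T ∈ ((Cfsg.permRep ℂ G Ω).linHom (Cfsg.permRep ℂ G Ω)).invariants → S ∘ₗ T = T ∘ₗ S := by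
  have hchar : (fun g : G => (Nat.card (MulAction.fixedBy Ω g) : ℂ)) = (permRep ℂ G Ω).character :=
    (permRep_character (G := G) (Ω := Ω)).symm
  rw [hchar]
  constructor
  · intro h S T hS hT
    rw [mem_inv_iff] at hS hT
    exact comm_of_mf _ h S T hS hT
  · intro h χ hχ
    refine mf_of_comm _ (fun S T hS hT => h S T ?_ ?_) χ hχ
    · rwa [mem_inv_iff]
    · rwa [mem_inv_iff]

end Cfsg.Agent.S0718
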