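import Mathlib
import Cfsg.Statements.S0719
import Cfsg.Agent.Lib.MultFree3

set_option autoImplicit false
set_option linter.unusedSectionVars false
open Cfsg

namespace Cfsg.Agent.S0719

open Representation Module Matrix Finset
open Cfsg.Agent.Lib.CharBasic Cfsg.Agent.Lib.MultFree Cfsg.Agent.Lib.MultFree2
  Cfsg.Agent.Lib.MultFree3 Cfsg.Agent.Lib.PermChar
open scoped Pointwise

/-- The arithmetic of the parameters. -/
theorem arith {k l lam v m : ℤ} (hk : 2 ≤ k) (hl : 2 ≤ l) (hm : 2 ≤ m) (h1 : k + l + 1 = 2 * m)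
    (h2 : v = k + (k - m * (v - lam)) * (-k + m * (v - lam) - (v - lam)))
    (h3 : k ^ 2 = k + k * lam + l * v) :
    ∃ a : ℕ, 0 < a ∧ m = 2 * a ^ 2 + 2 * a + 1 ∧
      ((k = a * (2 * a + 1) ∧ l = (a + 1) * (2 * a + 1)) ∨
        (k = (a + 1) * (2 * a + 1) ∧ l = a * (2 * a + 1))) := by
  set u : ℤ := v - lam with hu
  have hE0 : m * (2 * k ^ 2 - 2 * k - 4 * (m - 1) * k * u + (2 * m - 1) * (m - 1) * u ^ 2) = 0 := by
    rw [hu] at h2 ⊢
    linear_combination h3 + v * h1 + (2 * m - 1) * h2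
  have hE : 2 * k ^ 2 - 2 * k - 4 * (m - 1) * k * u + (2 * m - 1) * (m - 1) * u ^ 2 = 0 :=
    (mul_eq_zero.1 hE0).resolve_left (by omega)
  have hX : (2 * k - 2 * (m - 1) * u - 1) ^ 2 = 1 + 2 * (m - 1) * (u * (2 - u)) := by
    linear_combination 2 * hE
  have hu012 : u = 0 ∨ u = 1 ∨ u = 2 := by
    by_contra hcon
    push Not at hcon
    obtain ⟨h01, h02, h03⟩ := hcon
    have h4 : u * (2 - u) ≤ -3 := by
      rcases lt_or_gt_of_ne h01 with h5 | h5
      · nlinarith
      · have h6 : 3 ≤ u := by omega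
        nlinarith
    have h5 : 0 ≤ (2 * k - 2 * (m - 1) * u - 1) ^ 2 := sq_nonneg _
    nlinarith
  rcases hu012 with hu0 | hu1 | hu2
  · rw [hu0] at hX
    nlinarith
  · -- the main case
    rw [hu1] at hX
    have hl' : l = 2 * m - 1 - k := by linarith
    have hd : (k - l) ^ 2 = k + l := by
      rw [hl']
      have : 2 * k - (2 * m - 1) = k - (2 * m - 1 - k) := by ring
      nlinarith
    obtain ⟨t, ht⟩ := Int.even_or_odd' (k - l)
    rcases ht with ht | ht
    · exfalso
      rw [ht] at hd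
      have h5 : 4 * t ^ 2 = k + l := by linarith
      omega
    · rw [ht] at hd
      by_cases ht0 : 0 ≤ t
      · -- `k ≥ l`
        refine ⟨t.toNat, ?_, ?_, Or.inr ?_⟩
        · have h6 : t ≠ 0 := by
            rintro rfl
            norm_num at hd
            omega
          omega
        · rw [Int.toNat_of_nonneg ht0]
          have h7 : 2 * m = 2 * (2 * t ^ 2 + 2 * t + 1) := by linear_combination -h1 - hd
          linarith
        · rw [Int.toNat_of_nonneg ht0]
          have h7 : 2 * k = 2 * ((t + 1) * (2 * t + 1)) := by linear_combination ht - hd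
          have h8 : 2 * l = 2 * (t * (2 * t + 1)) := by linear_combination -ht - hd
          constructor <;> linarith
      · -- `k < l`
        have ht1 : 0 ≤ -t - 1 := by omega
        refine ⟨(-t - 1).toNat, ?_, ?_, Or.inl ?_⟩
        · have h6 : t ≠ -1 := by
            rintro rfl
            norm_num at hd
            omega
          omega
        · rw [Int.toNat_of_nonneg ht1]
          have h7 : 2 * m = 2 * (2 * (-t - 1) ^ 2 + 2 * (-t - 1) + 1) := by
            linear_combination -h1 - hd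
          linarith
        · rw [Int.toNat_of_nonneg ht1]
          have h7 : 2 * k = 2 * ((-t - 1) * (2 * (-t - 1) + 1)) := by linear_combination ht - hd
          have h8 : 2 * l = 2 * ((-t - 1 + 1) * (2 * (-t - 1) + 1)) := by
            linear_combination -ht - hd
          constructor <;> linarith
  · rw [hu2] at hX
    have hl' : 2 * m = k + l + 1 := by linarith
    have h5 : (2 * k - 2 * (m - 1) * 2 - 1) = 1 - 2 * l := by
      have : 2 * (m - 1) * 2 = 2 * (2 * m) - 4 := by ring
      rw [this, hl']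
      ring
    rw [h5] at hX
    nlinarith

variable {Ω : Type*} [Fintype Ω] [DecidableEq Ω]

/-- A matching invariant under a primitive group does not exist. -/
theorem no_matching {G : Type*} [Group G] [MulAction G Ω] (hprim : MulAction.IsPreprimitive G Ω)
    (hcard : 2 < Fintype.card Ω) (R : Ω → Ω → Prop) (hsm : ∀ (g : G) x y, R x y → R (g • x) (g • y))
    (hsym : ∀ x y, R x y → R y x) (hfun : ∀ x y y', R x y → R x y' → y = y') {x₀ y₀ : Ω}
    (h0 : R x₀ y₀) (hne : x₀ ≠ y₀) : False := by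
  let B : Set Ω := {x₀, y₀}
  have hfun' : ∀ x x' y, R x y → R x' y → x = x' := fun x x' y h h' => hfun y x x' (hsym _ _ h) (hsym _ _ h')
  have hB : MulAction.IsBlock G B := by
    rw [MulAction.isBlock_iff_smul_eq_or_disjoint]
    intro g
    have hg1 : R (g • x₀) (g • y₀) := hsm g _ _ h0
    have hg2 : R (g • y₀) (g • x₀) := hsym _ _ hg1
    have hy₁ : R y₀ x₀ := hsym _ _ h0
    have hgB : g • B = {g • x₀, g • y₀} := by
      simp [B, Set.smul_set_insert]
    rw [hgB]
    by_cases hc : g • x₀ = x₀ ∨ g • x₀ = y₀ ∨ g • y₀ = x₀ ∨ g • y₀ = y₀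
    · left
      have hcases : (g • x₀ = x₀ ∧ g • y₀ = y₀) ∨ (g • x₀ = y₀ ∧ g • y₀ = x₀) := by
        rcases hc with h | h | h | h
        · left
          refine ⟨h, ?_⟩
          rw [h] at hg1
          exact hfun _ _ _ hg1 h0
        · right
          refine ⟨h, ?_⟩
          rw [h] at hg1
          exact hfun _ _ _ hg1 hy₁
        · right
          refine ⟨?_, h⟩
          rw [h] at hg2
          exact hfun _ _ _ hg2 h0
        · left
          refine ⟨?_, h⟩
          rw [h] at hg1
          exact hfun' _ _ _ hg1 h0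
      rcases hcases with ⟨h1, h2⟩ | ⟨h1, h2⟩
      · rw [h1, h2]
      · rw [h1, h2]
        exact Set.pair_comm _ _
    · right
      push Not at hc
      obtain ⟨h1, h2, h3, h4⟩ := hc
      rw [Set.disjoint_left]
      rintro v (rfl | rfl) (h5 | h5)
      · exact h1 h5
      · exact h2 h5
      · exact h3 h5
      · exact h4 h5
  have htriv := hprim.isTrivialBlock_of_isBlock hB
  rcases htriv with h1 | h1
  · exact hne (h1 (by simp [B]) (by simp [B]))
  · have h2 : Set.ncard B ≤ 2 := by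
      simp only [B]
      exact Set.ncard_insert_le _ _ |>.trans (by simp)
    rw [h1, Set.ncard_univ, Nat.card_eq_fintype_card] at h2
    omega

/-- The pointwise expansion of the square. -/
theorem core {m : ℕ} (hcard : Fintype.card Ω = 2 * m) (hm : 2 ≤ m)
    (A : Ω → Ω → ℤ) (hA01 : ∀ x y, A x y = 0 ∨ A x y = 1) (hdiag : ∀ x, A x x = 0)
    (hsym : ∀ x y, A x y = A y x) {k l : ℤ} (hrow : ∀ x, ∑ y, A x y = k)
    (hkl : k + l + 1 = 2 * m)
    (M : Matrix Ω Ω ℂ) (c₀ p₂ d : ℂ)
    (hM : ∀ x y, M x y = (if x = y then c₀ else 0) + p₂ + d * (A x y : ℂ))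
    (hMM : M * M = M) (htr : Matrix.trace M = m) (hrow0 : ∀ x, ∑ y, M x y = 0)
    {x₀ b c : Ω} (hb : A x₀ b = 1) (hc : A x₀ c = 0) (hc0 : x₀ ≠ c) :
    let lam := ∑ z, A x₀ z * A z b
    let v := ∑ z, A x₀ z * A z c
    v = k + (k - m * (v - lam)) * (-k + m * (v - lam) - (v - lam)) ∧
      k ^ 2 = k + k * lam + l * v := by
  intro lam v
  have hm0 : (m : ℂ) ≠ 0 := by
    have : m ≠ 0 := by omega
    exact_mod_cast this
  have hcardC : ((Fintype.card Ω : ℕ) : ℂ) = 2 * m := by
    rw [hcard]; push_cast; ring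
  have hk1 : ∀ x, ∑ z, (A x z : ℂ) = k := by
    intro x
    have := hrow x
    exact_mod_cast this
  have hk2 : ∀ y, ∑ z, (A z y : ℂ) = k := by
    intro y
    rw [← hk1 y]
    exact Finset.sum_congr rfl fun z _ => by rw [hsym]
  -- the expansion
  have hexp : ∀ x y, ∑ z, M x z * M z y =
      (if x = y then c₀ ^ 2 else 0) + 2 * c₀ * p₂ + 2 * c₀ * d * (A x y : ℂ) + 2 * m * p₂ ^ 2 +
        2 * p₂ * d * k + d ^ 2 * ((∑ z, A x z * A z y : ℤ) : ℂ) := by
    intro x y
    have h1 : ∀ z, M x z * M z y =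
        (if x = z then c₀ * ((if z = y then c₀ else 0) + p₂ + d * (A z y : ℂ)) else 0) +
          (if z = y then (p₂ + d * (A x z : ℂ)) * c₀ else 0) +
          p₂ ^ 2 + p₂ * d * (A z y : ℂ) + p₂ * d * (A x z : ℂ) +
          d ^ 2 * ((A x z * A z y : ℤ) : ℂ) := by
      intro z
      rw [hM, hM]
      split_ifs <;> push_cast <;> ring
    simp only [h1, Finset.sum_add_distrib, Finset.sum_ite_eq, Finset.sum_ite_eq', Finset.mem_univ,
      if_true, Finset.sum_const, Finset.card_univ, nsmul_eq_mul, hcardC, ← Finset.mul_sum, hk1, hk2]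
    push_cast
    by_cases hxy : x = y
    · subst hxy
      simp only [if_true]
      ring
    · simp only [hxy, if_false]
      ring
  -- the main identity
  set G' : ℂ := p₂ - 2 * c₀ * p₂ - 2 * m * p₂ ^ 2 - 2 * p₂ * d * k with hG'
  have hmain : ∀ x y, d ^ 2 * ((∑ z, A x z * A z y : ℤ) : ℂ) =
      (if x = y then c₀ - c₀ ^ 2 else 0) + G' + (d - 2 * c₀ * d) * (A x y : ℂ) := by
    intro x y
    have h1 := congrFun (congrFun hMM x) y
    rw [Matrix.mul_apply, hexp, hM] at h1
    by_cases hxy : x = y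
    · simp only [hxy, if_true] at h1 ⊢
      rw [hG']
      linear_combination h1
    · simp only [hxy, if_false] at h1 ⊢
      rw [hG']
      linear_combination h1
  -- the trace
  have hp : c₀ + p₂ = 1 / 2 := by
    have h1 : Matrix.trace M = ∑ _x : Ω, (c₀ + p₂) := by
      simp only [Matrix.trace, Matrix.diag]
      refine Finset.sum_congr rfl fun x _ => ?_
      rw [hM, hdiag]
      simp
    rw [h1, Finset.sum_const, Finset.card_univ, nsmul_eq_mul, hcardC] at htr
    have h2 : (m : ℂ) * (2 * (c₀ + p₂) - 1) = 0 := by linear_combination htr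
    have h3 := (mul_eq_zero.1 h2).resolve_left hm0
    linear_combination (1 / 2) * h3
  -- the row sum
  have hR : c₀ + 2 * m * p₂ + d * k = 0 := by
    have h1 := hrow0 x₀
    simp only [hM, Finset.sum_add_distrib, Finset.sum_ite_eq, Finset.mem_univ, if_true,
      Finset.sum_const, Finset.card_univ, nsmul_eq_mul, hcardC, ← Finset.mul_sum, hk1] at h1
    exact h1
  have hbne : x₀ ≠ b := by
    rintro rfl
    rw [hdiag] at hb
    exact zero_ne_one hb
  have hSk : (∑ z, A x₀ z * A z x₀) = k := by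
    rw [← hrow x₀]
    refine Finset.sum_congr rfl fun z _ => ?_
    rw [hsym z x₀]
    rcases hA01 x₀ z with h | h <;> rw [h] <;> norm_num
  have hi := hmain x₀ b
  have hii := hmain x₀ c
  have hiii := hmain x₀ x₀
  simp only [hbne, if_false, hb, hc0, hc, if_true, hdiag, hSk] at hi hii hiii
  push_cast at hi hii hiii
  have hlamC : ((lam : ℤ) : ℂ) = ∑ z, (A x₀ z : ℂ) * (A z b : ℂ) := by
    simp only [lam]; push_cast; rfl
  have hvC : ((v : ℤ) : ℂ) = ∑ z, (A x₀ z : ℂ) * (A z c : ℂ) := by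
    simp only [v]; push_cast; rfl
  rw [← hlamC] at hi
  rw [← hvC] at hii
  -- `d ≠ 0`
  have hd : d ≠ 0 := by
    intro hd0
    rw [hd0] at hi hii hiii hR
    have h1 : c₀ * (c₀ - 1) = 0 := by linear_combination hiii - hii
    have hm1 : (m : ℂ) ≠ 1 := by
      have : m ≠ 1 := by omega
      exact_mod_cast this
    rcases mul_eq_zero.1 h1 with h2 | h2
    · apply hm0
      have : p₂ = 1 / 2 := by rw [h2] at hp; linear_combination hp
      rw [h2, this] at hR
      linear_combination hR
    · apply hm1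
      have h3 : c₀ = 1 := by linear_combination h2
      have : p₂ = - (1 / 2) := by rw [h3] at hp; linear_combination hp
      rw [h3, this] at hR
      linear_combination -hR
  set u : ℂ := (v : ℂ) - lam with hu
  have ha : d * u = 2 * c₀ - 1 := by
    have h1 : d * (d * u - (2 * c₀ - 1)) = 0 := by
      rw [hu]
      linear_combination hii - hi
    exact sub_eq_zero.1 ((mul_eq_zero.1 h1).resolve_left hd)
  have hp2 : p₂ = 1 / 2 - c₀ := by linear_combination hp
  set E : ℂ := (2 * m - 1) * u - 2 * k with hE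
  have hdE : d * E = 1 := by
    rw [hE]
    linear_combination (2 * (m : ℂ) - 1) * ha - 2 * hR + 4 * (m : ℂ) * hp
  have h4 : 4 * d ^ 2 * ((k : ℂ) - v) = 1 - d ^ 2 * u ^ 2 := by
    have h5 : d ^ 2 * ((k : ℂ) - v) = c₀ - c₀ ^ 2 := by linear_combination hiii - hii
    have h6 : d ^ 2 * u ^ 2 = (2 * c₀ - 1) ^ 2 := by rw [← ha]; ring
    rw [h6]
    linear_combination 4 * h5
  have h7 : 4 * ((k : ℂ) - v) = E ^ 2 - u ^ 2 := by
    linear_combination (E ^ 2) * h4 - (d * E + 1) * (4 * ((k : ℂ) - v) + u ^ 2) * hdE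
  constructor
  · have h8 : (v : ℂ) = k + (k - m * u) * (-k + m * u - u) := by
      rw [hE] at h7
      linear_combination (-1 / 4 : ℂ) * h7
    rw [hu] at h8
    exact_mod_cast h8
  · -- the row sum of the square
    have hd2 : d ^ 2 ≠ 0 := pow_ne_zero _ hd
    have hcast : ∀ (s t : ℤ), d ^ 2 * (s : ℂ) = d ^ 2 * (t : ℂ) → s = t := by
      intro s t hst
      exact_mod_cast mul_left_cancel₀ hd2 hst
    have hpt : ∀ y, (∑ z, A x₀ z * A z y) =
        (if x₀ = y then k else 0) + lam * A x₀ y +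
          v * (1 - (if x₀ = y then 1 else 0) - A x₀ y) := by
      intro y
      by_cases hy : x₀ = y
      · subst hy
        simp only [if_true, hdiag, hSk]
        ring
      · have hm := hmain x₀ y
        simp only [hy, if_false] at hm ⊢
        rcases hA01 x₀ y with h | h
        · rw [h] at hm ⊢
          apply hcast
          push_cast at hm ⊢
          rw [hm]
          linear_combination -hii
        · rw [h] at hm ⊢
          apply hcast
          push_cast at hm ⊢
          rw [hm]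
          linear_combination -hi
    have hsum : ∑ y, (∑ z, A x₀ z * A z y) = k ^ 2 := by
      rw [Finset.sum_comm]
      have : ∀ z, ∑ y, A x₀ z * A z y = A x₀ z * k := by
        intro z
        rw [← Finset.mul_sum, hrow]
      simp only [this, ← Finset.sum_mul, hrow]
      ring
    have hcardZ : ((Fintype.card Ω : ℕ) : ℤ) = 2 * m := by
      rw [hcard]; push_cast; ring
    rw [← hsum]
    simp only [hpt, Finset.sum_add_distrib, Finset.sum_ite_eq, Finset.mem_univ, if_true,
      ← Finset.mul_sum, hrow, Finset.sum_sub_distrib, Finset.sum_const, Finset.card_univ,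
      nsmul_eq_mul, hcardZ]
    have hl : l = 2 * m - 1 - k := by linarith
    rw [hl]
    ring

section grp

variable {G : Type*} [Group G] {Ω' : Type*} [MulAction G Ω']

open MulAction

omit [Fintype Ω] in
theorem mem_orbit_iff_rel {a₀ b y : Ω'} :
    y ∈ orbit (stabilizer G a₀) b ↔ orbRel G a₀ b a₀ y := by
  constructor
  · rintro ⟨⟨g, hg⟩, rfl⟩
    exact ⟨g, hg, rfl⟩
  · rintro ⟨g, hg, rfl⟩
    exact ⟨⟨g, hg⟩, rfl⟩

theorem exists_reps [Fintype Ω'] (a₀ : Ω')
    (hrank : Nat.card (orbitRel.Quotient (stabilizer G a₀) Ω') = 3) :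
    ∃ b c : Ω', b ≠ a₀ ∧ c ≠ a₀ ∧ c ∉ orbit (stabilizer G a₀) b ∧
      ∀ y, y = a₀ ∨ y ∈ orbit (stabilizer G a₀) b ∨ y ∈ orbit (stabilizer G a₀) c := by
  classical
  let Q := orbitRel.Quotient (stabilizer G a₀) Ω'
  letI : Fintype Q := Fintype.ofFinite Q
  have h3 : Fintype.card Q = 3 := by rw [← Nat.card_eq_fintype_card]; exact hrank
  let q₀ : Q := Quotient.mk'' a₀
  have h2 : (Finset.univ.erase q₀).card = 2 := by
    rw [Finset.card_erase_of_mem (Finset.mem_univ _), Finset.card_univ, h3]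
  obtain ⟨q₁, q₂, hne, heq⟩ := Finset.card_eq_two.1 h2
  have hq1 : q₁ ∈ Finset.univ.erase q₀ := by rw [heq]; simp
  have hq2 : q₂ ∈ Finset.univ.erase q₀ := by rw [heq]; simp
  obtain ⟨b, hb⟩ : ∃ b : Ω', Quotient.mk'' b = q₁ := Quotient.exists_rep q₁
  obtain ⟨c, hc⟩ : ∃ c : Ω', Quotient.mk'' c = q₂ := Quotient.exists_rep q₂
  refine ⟨b, c, ?_, ?_, ?_, ?_⟩
  · rintro rfl
    exact (Finset.mem_erase.1 hq1).1 hb.symm
  · rintro rfl
    exact (Finset.mem_erase.1 hq2).1 hc.symm
  · intro hcb
    apply hne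
    rw [← hb, ← hc]
    exact (Quotient.eq''.2 (orbitRel_apply.2 hcb)).symm
  · intro y
    by_cases hy : (Quotient.mk'' y : Q) = q₀
    · left
      have h4 : y ∈ orbit (stabilizer G a₀) a₀ := orbitRel_apply.1 (Quotient.eq''.1 hy)
      obtain ⟨⟨g, hg⟩, rfl⟩ := h4
      exact hg
    · right
      have h5 : (Quotient.mk'' y : Q) ∈ Finset.univ.erase q₀ :=
        Finset.mem_erase.2 ⟨hy, Finset.mem_univ _⟩
      rw [heq] at h5
      rcases Finset.mem_insert.1 h5 with h6 | h6
      · left
        rw [← hb] at h6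
        exact orbitRel_apply.1 (Quotient.eq''.1 h6)
      · right
        rw [Finset.mem_singleton, ← hc] at h6
        exact orbitRel_apply.1 (Quotient.eq''.1 h6)

theorem tri [IsPretransitive G Ω'] {a₀ b c : Ω'}
    (htri : ∀ y, y = a₀ ∨ y ∈ orbit (stabilizer G a₀) b ∨ y ∈ orbit (stabilizer G a₀) c)
    (x y : Ω') : x = y ∨ orbRel G a₀ b x y ∨ orbRel G a₀ c x y := by
  obtain ⟨g, rfl⟩ := exists_smul_eq G a₀ x
  rcases htri (g⁻¹ • y) with h | h | h
  · left
    rw [← h, smul_inv_smul]
  · right; left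
    rw [mem_orbit_iff_rel] at h
    obtain ⟨t, h1, h2⟩ := h
    refine ⟨g * t, ?_, ?_⟩
    · rw [mul_smul, h1]
    · rw [mul_smul, h2, smul_inv_smul]
  · right; right
    rw [mem_orbit_iff_rel] at h
    obtain ⟨t, h1, h2⟩ := h
    refine ⟨g * t, ?_, ?_⟩
    · rw [mul_smul, h1]
    · rw [mul_smul, h2, smul_inv_smul]

theorem excl {a₀ b c x y : Ω'} (hcb : c ∉ orbit (stabilizer G a₀) b)
    (h1 : orbRel G a₀ b x y) (h2 : orbRel G a₀ c x y) : False := by
  obtain ⟨g, rfl, rfl⟩ := h1
  obtain ⟨h, h1, h2⟩ := h2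
  apply hcb
  rw [mem_orbit_iff_rel]
  refine ⟨h⁻¹ * g, ?_, ?_⟩
  · rw [mul_smul, ← h1, inv_smul_smul]
  · rw [mul_smul, ← h2, inv_smul_smul]

theorem rel_ne {a₀ b x : Ω'} (hb : b ≠ a₀) (h : orbRel G a₀ b x x) : False := by
  obtain ⟨g, h1, h2⟩ := h
  exact hb (MulAction.injective g (h2.trans h1.symm))

theorem rel_fun [Finite Ω'] {a₀ b : Ω'} (h : Nat.card (orbit (stabilizer G a₀) b) = 1) {x y y' : Ω'}
    (h1 : orbRel G a₀ b x y) (h2 : orbRel G a₀ b x y') : y = y' := by
  obtain ⟨g, rfl, rfl⟩ := h1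
  obtain ⟨g', hg', rfl⟩ := h2
  have hss : Subsingleton (orbit (stabilizer G a₀) b) := (Nat.card_eq_one_iff_unique.1 h).1
  have hs : g⁻¹ * g' ∈ stabilizer G a₀ := by
    rw [mem_stabilizer_iff, mul_smul, hg', inv_smul_smul]
  have h3 : (⟨b, mem_orbit_self b⟩ : orbit (stabilizer G a₀) b) =
      ⟨(g⁻¹ * g') • b, ⟨⟨g⁻¹ * g', hs⟩, rfl⟩⟩ := Subsingleton.elim _ _
  have h4 : b = (g⁻¹ * g') • b := congrArg Subtype.val h3
  rw [mul_smul] at h4
  calc g • b = g • (g⁻¹ • g' • b) := by rw [← h4]
    _ = g' • b := smul_inv_smul _ _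

end grp

/-- Groups of Wielandt type: if a primitive group of degree `2m` has rank 3 and permutation character `1 + χ₁ + χ₂` with irreducible `χ₁, χ₂` of degrees `m - 1` and `m`, then `m = 2a² + 2a + 1` for some positive integer `a` and the two non-trivial subdegrees are `a(2a+1)` and `(a+1)(2a+1)`. -/
theorem result {G : Type*} [Group G] [Fintype G] {Ω : Type*} [Fintype Ω] [MulAction G Ω] (hprim : MulAction.IsPreprimitive G Ω) {m : ℕ} (hm : Fintype.card Ω = 2 * m) (a₀ : Ω) (hrank : Nat.card (MulAction.orbitRel.Quotient (MulAction.stabilizer G a₀) Ω) = 3) (χ₁ χ₂ : G → ℂ) (h₁ : Cfsg.IsIrrCharacter G χ₁) (h₂ : Cfsg.IsIrrCharacter G χ₂) (hπ : (fun g : G => (Nat.card (MulAction.fixedBy Ω g) : ℂ)) = fun g => 1 + χ₁ g + χ₂ g) (hd₁ : χ₁ 1 = (m : ℂ) - 1) (hd₂ : χ₂ 1 = m) : ∃ a : ℕ, 0 < a ∧ m = 2 * a ^ 2 + 2 * a + 1 ∧ ∀ b : Ω, b ≠ a₀ → Nat.card (MulAction.orbit (MulAction.stabilizer G a₀) b) = a * (2 * a + 1) ∨ Nat.card (MulAction.orbit (MulAction.stabilizer G a₀) b) = (a + 1) * (2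 * a + 1) := by
  classical
  have hpre : MulAction.IsPretransitive G Ω := hprim.toIsPretransitive
  obtain ⟨b, c, hb0, hc0, hcb, htri⟩ := exists_reps a₀ hrank
  have htr := tri htri
  have hbmem : b ∈ MulAction.orbit (MulAction.stabilizer G a₀) b := MulAction.mem_orbit_self b
  have hcmem : c ∈ MulAction.orbit (MulAction.stabilizer G a₀) c := MulAction.mem_orbit_self c
  -- the subdegrees
  set k := Nat.card (MulAction.orbit (MulAction.stabilizer G a₀) b) with hk
  set l := Nat.card (MulAction.orbit (MulAction.stabilizer G a₀) c) with hl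
  have hk1 : 1 ≤ k := by
    have : Nonempty (MulAction.orbit (MulAction.stabilizer G a₀) b) := ⟨⟨b, hbmem⟩⟩
    exact Nat.card_pos
  have hl1 : 1 ≤ l := by
    have : Nonempty (MulAction.orbit (MulAction.stabilizer G a₀) c) := ⟨⟨c, hcmem⟩⟩
    exact Nat.card_pos
  let A := orbMat G a₀ b
  let B := orbMat G a₀ c
  have hrowA : ∀ x, ∑ y, A x y = k := by
    intro x
    have := sum_row (G := G) a₀ b x
    exact_mod_cast this
  have hrowB : ∀ x, ∑ y, B x y = l := by
    intro x
    have := sum_row (G := G) a₀ c x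
    exact_mod_cast this
  have hAB : ∀ x y, (if x = y then (1 : ℤ) else 0) + A x y + B x y = 1 := by
    intro x y
    rcases htr x y with rfl | h | h
    · have h1 : ¬ orbRel G a₀ b x x := fun h => rel_ne hb0 h
      have h2 : ¬ orbRel G a₀ c x x := fun h => rel_ne hc0 h
      simp [A, B, orbMat, h1, h2]
    · have h1 : x ≠ y := by
        rintro rfl
        exact rel_ne hb0 h
      have h2 : ¬ orbRel G a₀ c x y := fun h' => excl hcb h h'
      simp [A, B, orbMat, h, h1, h2]
    · have h1 : x ≠ y := by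
        rintro rfl
        exact rel_ne hc0 h
      have h2 : ¬ orbRel G a₀ b x y := fun h' => excl hcb h' h
      simp [A, B, orbMat, h, h1, h2]
  have hkl : (k : ℤ) + l + 1 = 2 * m := by
    have h1 := Finset.sum_congr (rfl : (Finset.univ : Finset Ω) = Finset.univ)
      (fun y _ => hAB a₀ y)
    simp only [Finset.sum_add_distrib, Finset.sum_ite_eq, Finset.mem_univ, if_true, hrowA, hrowB,
      Finset.sum_const, Finset.card_univ, hm, nsmul_eq_mul] at h1
    push_cast at h1
    linarith
  have hm2 : 2 ≤ m := by omega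
  have hcard2 : 2 < Fintype.card Ω := by omega
  have hΩ : (Fintype.card Ω : ℤ) ≠ 0 := by
    have : Fintype.card Ω ≠ 0 := by omega
    exact_mod_cast this
  -- the orbital of `b` is self-paired
  have hRb : orbRel G a₀ b b a₀ := by
    rcases htr b a₀ with h | h | h
    · exact absurd h hb0
    · exact h
    · exfalso
      obtain ⟨g, hg1, hg2⟩ := h
      have hswap : ∀ x y, orbRel G a₀ b x y ↔ orbRel G a₀ c y x := by
        intro x y
        constructor
        · rintro ⟨h, rfl, rfl⟩
          exact ⟨h * g, by rw [mul_smul, hg1], by rw [mul_smul, hg2]⟩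
        · rintro ⟨h, rfl, rfl⟩
          refine ⟨h * g⁻¹, ?_, ?_⟩
          · rw [mul_smul, ← hg2, inv_smul_smul]
          · rw [mul_smul, ← hg1, inv_smul_smul]
      have h1 : (∑ x, ∑ y, A x y) = ∑ x, ∑ y, B x y := by
        rw [Finset.sum_comm]
        refine Finset.sum_congr rfl fun y _ => Finset.sum_congr rfl fun x _ => ?_
        simp only [A, B, orbMat, hswap]
      simp only [hrowA, hrowB, Finset.sum_const, Finset.card_univ, nsmul_eq_mul] at h1
      have h2 : (k : ℤ) = l := mul_left_cancel₀ hΩ h1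
      have h3 : k = l := by exact_mod_cast h2
      rw [← h3] at hkl
      omega
  have hRs : ∀ x y, orbRel G a₀ b x y → orbRel G a₀ b y x := by
    rintro x y ⟨h, rfl, rfl⟩
    obtain ⟨g, hg1, hg2⟩ := hRb
    exact ⟨h * g, by rw [mul_smul, hg1], by rw [mul_smul, hg2]⟩
  have hSs : ∀ x y, orbRel G a₀ c x y → orbRel G a₀ c y x := by
    intro x y h
    rcases htr y x with h1 | h1 | h1
    · subst h1
      exact absurd h (fun h => rel_ne hc0 h)
    · exact absurd (hRs _ _ h1) (fun h' => excl hcb h' h)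
    · exact h1
  have hk2 : k ≠ 1 := by
    intro h
    exact no_matching hprim hcard2 (orbRel G a₀ b)
      (fun g x y h => (orbRel_smul g).2 h) hRs (fun x y y' h1 h2 => rel_fun h h1 h2)
      (x₀ := b) (y₀ := a₀) hRb hb0
  have hl2 : l ≠ 1 := by
    intro h
    have hRc : orbRel G a₀ c a₀ c := ⟨1, one_smul _ _, one_smul _ _⟩
    exact no_matching hprim hcard2 (orbRel G a₀ c)
      (fun g x y h => (orbRel_smul g).2 h) hSs (fun x y y' h1 h2 => rel_fun h h1 h2)
      (x₀ := c) (y₀ := a₀) (hSs _ _ hRc) hc0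
  -- the character
  have h₂' := h₂
  obtain ⟨n, ρ₀, hirr, rfl⟩ := h₂
  have hmne1 : (m : ℂ) ≠ 1 := by
    have : m ≠ 1 := by omega
    exact_mod_cast this
  have hnm : n = m := by
    rw [Representation.char_one, Module.finrank_fin_fun] at hd₂
    exact_mod_cast hd₂
  subst hnm
  have hne1 : (fun _ => (1 : ℂ)) ≠ ρ₀.character := by
    intro h
    have := congrFun h 1
    rw [hd₂] at this
    exact hmne1 this.symm
  have hne2 : χ₁ ≠ ρ₀.character := by
    intro h
    have := congrFun h 1
    rw [hd₂, hd₁] at this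
    have h5 : (1 : ℂ) = 0 := by linear_combination -this
    exact one_ne_zero h5
  have h1 : classInner (permRep ℂ G Ω).character ρ₀.character = 1 := by
    have h2 : (permRep ℂ G Ω).character = ((fun _ => (1 : ℂ)) + χ₁) + ρ₀.character := by
      rw [permRep_character]
      exact hπ
    rw [h2, classInner_add_left, classInner_add_left, classInner_irr_ne isIrrCharacter_one h₂' hne1,
      classInner_irr_ne h₁ h₂' hne2, classInner_irr_self h₂']
    ring
  have hid := idem_of_mult_one (permRep ℂ G Ω) ρ₀ hirr h1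
  simp only at hid
  set P : (Ω → ℂ) →ₗ[ℂ] (Ω → ℂ) := ((n : ℂ) / (Nat.card G : ℂ)) • opOf ρ₀.character (permRep ℂ G Ω)
    with hP
  obtain ⟨hPc, hPP, hPt⟩ := hid
  let M := LinearMap.toMatrix' P
  have hMinv : IsInvMat G M := (toLin'_mem P).1 hPc
  have hMM : M * M = M := by
    simp only [M]
    rw [← LinearMap.toMatrix'_comp, hPP]
  have hMt : Matrix.trace M = n := by
    rw [← hPt, LinearMap.trace_eq_matrix_trace ℂ (Pi.basisFun ℂ Ω), LinearMap.toMatrix_eq_toMatrix']
  have hMrow : ∀ x, ∑ y, M x y = 0 := by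
    intro x
    have h0 : P (fun _ => 1) = 0 := by
      rw [hP, LinearMap.smul_apply, opOf_const h₂' hne1.symm (permRep ℂ G Ω) (fun _ => 1) ?_, smul_zero]
      intro g
      funext z
      rw [permRep_apply']
    have h3 := congrFun h0 x
    rw [← LinearMap.toMatrix'_mulVec] at h3
    simpa [Matrix.mulVec, dotProduct, M] using h3
  -- the values
  have hMval : ∀ x y, M x y = (if x = y then M a₀ a₀ - M a₀ c else 0) + M a₀ c +
      (M a₀ b - M a₀ c) * ((A x y : ℤ) : ℂ) := by
    intro x y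
    rcases htr x y with rfl | h | h
    · obtain ⟨g, rfl⟩ := MulAction.exists_smul_eq G a₀ x
      have h2 : ¬ orbRel G a₀ b (g • a₀) (g • a₀) := fun h => rel_ne hb0 h
      simp only [A, orbMat, h2, if_false, if_true, hMinv g a₀ a₀]
      push_cast
      ring
    · have h2 : x ≠ y := by
        rintro rfl
        exact rel_ne hb0 h
      simp only [A, orbMat, h, if_true, h2, if_false]
      obtain ⟨g, rfl, rfl⟩ := h
      rw [hMinv g a₀ b]
      push_cast
      ring
    · have h2 : x ≠ y := by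
        rintro rfl
        exact rel_ne hc0 h
      have h3 : ¬ orbRel G a₀ b x y := fun h' => excl hcb h' h
      simp only [A, orbMat, h3, if_false, h2]
      obtain ⟨g, rfl, rfl⟩ := h
      rw [hMinv g a₀ c]
      push_cast
      ring
  have hA01 : ∀ x y, A x y = 0 ∨ A x y = 1 := by
    intro x y
    simp only [A, orbMat]
    split_ifs <;> simp
  have hAdiag : ∀ x, A x x = 0 := by
    intro x
    have h2 : ¬ orbRel G a₀ b x x := fun h => rel_ne hb0 h
    simp [A, orbMat, h2]
  have hAsym : ∀ x y, A x y = A y x := by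
    intro x y
    have h2 : orbRel G a₀ b x y ↔ orbRel G a₀ b y x := ⟨hRs x y, hRs y x⟩
    simp only [A, orbMat, h2]
  have hAb : A a₀ b = 1 := by
    have h2 : orbRel G a₀ b a₀ b := ⟨1, one_smul _ _, one_smul _ _⟩
    simp [A, orbMat, h2]
  have hAc : A a₀ c = 0 := by
    have h2 : orbRel G a₀ c a₀ c := ⟨1, one_smul _ _, one_smul _ _⟩
    have h3 : ¬ orbRel G a₀ b a₀ c := fun h' => excl hcb h' h2
    simp [A, orbMat, h3]
  obtain ⟨h2, h3⟩ := core hm hm2 A hA01 hAdiag hAsym hrowA hkl M _ _ _ hMval hMM hMt hMrow hAb hAc hc0.symm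
  obtain ⟨a, ha, hma, hcases⟩ := arith (k := k) (l := l) (by omega) (by omega) (by exact_mod_cast hm2) hkl h2 h3
  refine ⟨a, ha, by exact_mod_cast hma, ?_⟩
  intro b' hb'
  rcases htri b' with h | h | h
  · exact absurd h hb'
  · rw [MulAction.orbit_eq_iff.2 h, ← hk]
    rcases hcases with ⟨h5, h6⟩ | ⟨h5, h6⟩
    · left
      exact_mod_cast h5
    · right
      exact_mod_cast h5
  · rw [MulAction.orbit_eq_iff.2 h, ← hl]
    rcases hcases with ⟨h5, h6⟩ | ⟨h5, h6⟩
    · right
      exact_mod_cast h6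
    · left
      exact_mod_cast h6

end Cfsg.Agent.S0719
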