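import Mathlib
import Cfsg.Statements.S0720
import Cfsg.Agent.Lib.TwoP2

set_option autoImplicit false
open Cfsg

namespace Cfsg.Agent.S0720

open Cfsg.Agent.Lib.TwoP Finset

set_option linter.unusedSectionVars false

variable {α : Type*} [Fintype α] [DecidableEq α]

/-- Fixed points of powers. -/
theorem fix_of_pow {p : ℕ} (hp : p.Prime) {σ : Equiv.Perm α} (hσ : σ ^ p = 1) {k : ℕ} (hk0 : 0 < k)
    (hkp : k < p) {y : α} (hy : (σ ^ k) y = y) : σ y = y := by
  have hcop : Nat.Coprime p k := (Nat.Prime.coprime_iff_not_dvd hp).2 (Nat.not_dvd_of_pos_of_lt hk0 hkp)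
  have h1 := Nat.gcd_eq_gcd_ab p k
  rw [hcop] at h1
  have h2 : σ = (σ ^ p) ^ (Nat.gcdA p k) * (σ ^ k) ^ (Nat.gcdB p k) := by
    rw [← zpow_natCast, ← zpow_natCast, ← zpow_mul, ← zpow_mul, ← zpow_add, ← h1]
    simp
  rw [hσ, one_zpow, one_mul] at h2
  rw [h2]
  exact Equiv.Perm.zpow_apply_eq_self_of_apply_eq_self hy _

/-- The coordinates attached to a fixed point free element of prime order. -/
theorem exists_phi {p : ℕ} [hp : Fact p.Prime] (hα : Fintype.card α = 2 * p)
    {G : Subgroup (Equiv.Perm α)} {x : G} (hx : orderOf x = p)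
    (hfix : ∀ y : α, (x : Equiv.Perm α) y ≠ y) :
    ∃ φ : ZMod p × Fin 2 ≃ α, ∀ i e, x • φ (i, e) = φ (i + 1, e) := by
  classical
  set σ : Equiv.Perm α := (x : Equiv.Perm α) with hσdef
  have hσ : σ ^ p = 1 := by
    have h1 := pow_orderOf_eq_one x
    rw [hx] at h1
    have := congrArg Subtype.val h1
    simpa using this
  have hp1 := hp.out
  have hinj : ∀ (y : α) (i j : ZMod p), (σ ^ i.val) y = (σ ^ j.val) y → i = j := by
    have key : ∀ (y : α) (i j : ZMod p), i.val < j.val → (σ ^ i.val) y ≠ (σ ^ j.val) y := by
      intro y i j hij heq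
      have h2 : (σ ^ j.val) y = (σ ^ i.val) ((σ ^ (j.val - i.val)) y) := by
        rw [← Equiv.Perm.mul_apply, ← pow_add]
        congr 2
        omega
      rw [h2] at heq
      have h3 := (σ ^ i.val).injective heq
      exact hfix y (fix_of_pow hp1 hσ (by omega) (by have := ZMod.val_lt j; omega) h3.symm)
    intro y i j heq
    rcases lt_trichotomy i.val j.val with h | h | h
    · exact absurd heq (key y i j h)
    · exact ZMod.val_injective p h
    · exact absurd heq.symm (key y j i h)
  have hne : Nonempty α := by
    apply Fintype.card_pos_iff.1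
    have := hp1.pos
    omega
  obtain ⟨x₁⟩ := hne
  let S : Finset α := univ.image (fun j : ZMod p => (σ ^ j.val) x₁)
  have hS : S.card < Fintype.card α := by
    have h1 : S.card ≤ p := by
      refine Finset.card_image_le.trans ?_
      rw [Finset.card_univ, ZMod.card]
    have := hp1.pos
    omega
  obtain ⟨x₂, hx₂⟩ : ∃ y, y ∉ S := by
    by_contra hcon
    push Not at hcon
    have : S = univ := Finset.eq_univ_iff_forall.2 hcon
    rw [this, Finset.card_univ] at hS
    exact lt_irrefl _ hS
  have hsep : ∀ i j : ZMod p, (σ ^ i.val) x₁ ≠ (σ ^ j.val) x₂ := by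
    intro i j heq
    apply hx₂
    have h1 : x₂ = (σ ^ (p - j.val)) ((σ ^ j.val) x₂) := by
      rw [← Equiv.Perm.mul_apply, ← pow_add]
      have : p - j.val + j.val = p := by have := ZMod.val_lt j; omega
      rw [this, hσ]
      rfl
    rw [← heq, ← Equiv.Perm.mul_apply, ← pow_add] at h1
    refine Finset.mem_image.2 ⟨((p - j.val + i.val : ℕ) : ZMod p), Finset.mem_univ _, ?_⟩
    rw [ZMod.val_natCast, ← pow_eq_pow_mod _ hσ]
    exact h1.symm
  let z : Fin 2 → α := fun e => if e = 0 then x₁ else x₂
  let f : ZMod p × Fin 2 → α := fun q => (σ ^ q.1.val) (z q.2)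
  have hfinj : Function.Injective f := by
    rintro ⟨i, e⟩ ⟨j, e'⟩ h
    have he : ∀ e : Fin 2, e = 0 ∨ e = 1 := by
      intro e
      fin_cases e <;> simp
    simp only [f, z] at h
    rcases he e with rfl | rfl <;> rcases he e' with rfl | rfl
    · simp only [if_true] at h
      rw [hinj _ _ _ h]
    · simp at h
      exact absurd h (hsep i j)
    · simp at h
      exact absurd h.symm (hsep j i)
    · simp at h
      rw [hinj _ _ _ h]
  have hfbij : Function.Bijective f := by
    rw [Fintype.bijective_iff_injective_and_card]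
    refine ⟨hfinj, ?_⟩
    rw [hα, Fintype.card_prod, ZMod.card, Fintype.card_fin, mul_comm]
  refine ⟨Equiv.ofBijective f hfbij, fun i e => ?_⟩
  simp only [Equiv.ofBijective_apply, f]
  show σ ((σ ^ i.val) (z e)) = _
  rw [← Equiv.Perm.mul_apply, ← pow_succ']
  congr 1
  rw [ZMod.val_add, ZMod.val_one, ← pow_eq_pow_mod _ hσ]

/-- Wielandt's Theorem on primitive groups of degree `2p`: such a group is doubly transitive, or it has rank 3, `p = 2a² + 2a + 1`, and subdegrees `a(2a+1)` and `(a+1)(2a+1)`. -/
theorem result {α : Type*} [Fintype α] [DecidableEq α] {p : ℕ} (hp : p.Prime) (hα : Fintype.card α = 2 * p) (G : Subgroup (Equiv.Perm α)) (hG : MulAction.IsPreprimitive G α) (a₀ : α) : MulAction.IsMultiplyPretransitive G α 2 ∨ (Nat.card (MulAction.orbitRel.Quotient (MulAction.stabilizer G a₀) α) = 3 ∧ ∃ a : ℕ, 0 < a ∧ p = 2 * a ^ 2 + 2 * a + 1 ∧ ∀ b : α, b ≠ a₀ → Nat.card (MulAction.orbit (MulAction.stabilizer G a₀) b) = a * (2 * a + 1) ∨ Nat.card (MulAction.orbit (MulAction.stabilizer G a₀) b) = (a + 1) * (2 * a + 1)) := by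
  classical
  have hfact : Fact p.Prime := ⟨hp⟩
  let _ : Fintype G := Fintype.ofFinite _
  have htrans : MulAction.IsPretransitive G α := hG.toIsPretransitive
  -- an element of order `p`
  have hdvd : p ∣ Fintype.card G := by
    have h1 := MulAction.card_orbit_mul_card_stabilizer_eq_card_group G a₀
    have h2 : MulAction.orbit G a₀ = Set.univ := MulAction.orbit_eq_univ G a₀
    have h3 : Fintype.card (MulAction.orbit G a₀) = 2 * p := by
      rw [← hα, Fintype.card_congr (Equiv.setCongr h2), Fintype.card_setUniv]
    rw [h3] at h1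
    rw [← h1]
    exact ⟨2 * Fintype.card (MulAction.stabilizer G a₀), by ring⟩
  obtain ⟨x, hx⟩ := exists_prime_orderOf_dvd_card p hdvd
  have hordσ : orderOf (x : Equiv.Perm α) = p := by
    rw [Subgroup.orderOf_coe, hx]
  by_cases hfix : ∀ y : α, (x : Equiv.Perm α) y ≠ y
  · obtain ⟨φ, hφ⟩ := exists_phi hα hx hfix
    rcases main_dichotomy (φ := φ) (G := G) hG hφ with h | ⟨A, Op, Om, hA0, hpA, hOne, hOpd, hOmd, hall, hnp, hnm⟩
    · exact Or.inl h
    · right
      set d := oo G (φ (0, 0)) (φ (0, 0)) with hd
      have hd' : oo G a₀ a₀ = d := oo_diag _ _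
      -- the suborbits versus the orbitals
      refine ⟨?_, A, hA0, hpA, ?_⟩
      · let F : MulAction.orbitRel.Quotient (MulAction.stabilizer G a₀) α → Orbl G α :=
          Quotient.lift (fun b => oo G a₀ b) (by
            intro b c hbc
            obtain ⟨g, hg⟩ := MulAction.mem_orbit_iff.1 hbc
            exact oo_eq_iff.2 ⟨g.1, g.2, hg⟩)
        have hF : Function.Bijective F := by
          constructor
          · intro b c
            induction b using Quotient.inductionOn with | _ b => ?_
            induction c using Quotient.inductionOn with | _ c => ?_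
            intro h
            obtain ⟨g, hg1, hg2⟩ := oo_eq_iff.1 h
            apply Quotient.sound
            exact MulAction.mem_orbit_iff.2 ⟨⟨g, hg1⟩, hg2⟩
          · intro O
            obtain ⟨y, hy⟩ := exists_row O a₀
            exact ⟨Quotient.mk _ y, hy⟩
        rw [Nat.card_congr (Equiv.ofBijective F hF)]
        let _ : Fintype (Orbl G α) := Fintype.ofFinite _
        rw [Nat.card_eq_fintype_card, ← Finset.card_univ]
        have huniv : (univ : Finset (Orbl G α)) = {d, Op, Om} := by
          ext O
          simp only [Finset.mem_univ, Finset.mem_insert, Finset.mem_singleton, true_iff]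
          exact hall O
        rw [huniv, Finset.card_insert_of_notMem, Finset.card_pair hOne]
        simp only [Finset.mem_insert, Finset.mem_singleton, not_or]
        exact ⟨hOpd.symm, hOmd.symm⟩
      · intro b hb
        -- the orbit is a fibre
        have hcard : (Nat.card (MulAction.orbit (MulAction.stabilizer G a₀) b) : ℤ) =
            nz φ G (oo G a₀ b) := by
          have h1 : MulAction.orbit (MulAction.stabilizer G a₀) b =
              ((univ.filter fun w => oo G a₀ w = oo G a₀ b : Finset α) : Set α) := by
            ext w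
            simp only [Finset.coe_filter, Finset.mem_univ, true_and, Set.mem_ofPred_eq]
            constructor
            · intro h
              obtain ⟨g, hg⟩ := MulAction.mem_orbit_iff.1 h
              exact oo_eq_iff.2 ⟨g.1, g.2, hg⟩
            · intro h
              obtain ⟨g, hg1, hg2⟩ := oo_eq_iff.1 h
              exact MulAction.mem_orbit_iff.2 ⟨⟨g, hg1⟩, hg2⟩
          rw [h1, Nat.card_coe_set_eq, Set.ncard_coe_finset]
          have h2 := sum_row_Ao (φ := φ) (oo G a₀ b) a₀
          have h3 : ∑ w, Ao (oo G a₀ b) a₀ w = ((univ.filter fun w => oo G a₀ w = oo G a₀ b).card : ℚ) := by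
            unfold Ao
            rw [Finset.sum_boole]
          rw [h3] at h2
          exact_mod_cast h2
        have hbne : oo G a₀ b ≠ d := by
          intro h
          rw [← hd'] at h
          exact hb (eq_of_oo_diag h).symm
        rcases hall (oo G a₀ b) with h | h | h
        · exact absurd h hbne
        · left
          rw [h, hnp] at hcard
          exact_mod_cast hcard
        · right
          rw [h, hnm] at hcard
          exact_mod_cast hcard
  · -- the element has a fixed point: Jordan
    left
    push Not at hfix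
    obtain ⟨y, hy⟩ := hfix
    have hsupp : (x : Equiv.Perm α).support.card < 2 * orderOf (x : Equiv.Perm α) := by
      rw [hordσ, ← hα]
      apply Finset.card_lt_univ_of_notMem (x := y)
      simpa [Equiv.Perm.mem_support] using hy
    have hcyc : (x : Equiv.Perm α).IsCycle :=
      Equiv.Perm.isCycle_of_prime_order (by rw [hordσ]; exact hp) hsupp
    have hcard : (x : Equiv.Perm α).support.card = p := by
      rw [← hcyc.orderOf, hordσ]
    have hns : (((x : Equiv.Perm α).support : Set α)ᶜ).ncard = (p - 1) + 1 := by
      rw [← Finset.coe_compl, Set.ncard_coe_finset, Finset.card_compl, hcard, hα]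
      have := hp.pos
      omega
    have hnc : (p - 1) + 2 < Nat.card α := by
      rw [Nat.card_eq_fintype_card, hα]
      have := hp.two_le
      omega
    exact hG.is_two_pretransitive hns hnc (Equiv.Perm.isPretransitive_of_isCycle_mem hcyc x.2)

end Cfsg.Agent.S0720
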