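import Mathlib
import Cfsg.Statements.S0721

set_option autoImplicit false
open Cfsg

namespace Cfsg.Agent.S0721

variable {H : Type*} [Group H]

/-- `U` is normalised by `N`. -/
def NN (N U : Subgroup H) : Prop := ∀ n ∈ N, ∀ u ∈ U, n * u * n⁻¹ ∈ U

/-- Conjugate subgroup. -/
def cj (h : H) (U : Subgroup H) : Subgroup H := U.map (MulAut.conj h).toMonoidHom

lemma mem_cj {h x : H} {U : Subgroup H} : x ∈ cj h U ↔ h⁻¹ * x * h ∈ U := by
  unfold cj
  rw [Subgroup.mem_map]
  constructor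
  · rintro ⟨u, hu, rfl⟩
    simpa [mul_assoc] using hu
  · intro hx
    refine ⟨_, hx, ?_⟩
    simp [mul_assoc]

lemma cj_cj (h : H) (U : Subgroup H) : cj h⁻¹ (cj h U) = U := by
  ext x
  rw [mem_cj, mem_cj]
  simp [mul_assoc]

lemma cj_cj' (h : H) (U : Subgroup H) : cj h (cj h⁻¹ U) = U := by
  have := cj_cj h⁻¹ U
  rwa [inv_inv] at this

lemma cj_mono (h : H) {U V : Subgroup H} (hUV : U ≤ V) : cj h U ≤ cj h V := by
  intro x hx
  rw [mem_cj] at hx ⊢
  exact hUV hx

lemma cj_le_of_normal (h : H) {U N : Subgroup H} [N.Normal] (hUN : U ≤ N) : cj h U ≤ N := by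
  intro x hx
  rw [mem_cj] at hx
  have := ‹N.Normal›.conj_mem _ (hUN hx) h
  have e : h * (h⁻¹ * x * h) * h⁻¹ = x := by group
  rwa [e] at this

lemma cj_bot (h : H) : cj h (⊥ : Subgroup H) = ⊥ := by
  ext x
  rw [mem_cj, Subgroup.mem_bot, Subgroup.mem_bot]
  constructor
  · intro hx
    have : x = h * (h⁻¹ * x * h) * h⁻¹ := by group
    rw [this, hx]; group
  · rintro rfl; group

lemma NN_cj {N U : Subgroup H} [N.Normal] (h : H) (hU : NN N U) : NN N (cj h U) := by
  intro n hn x hx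
  rw [mem_cj] at hx ⊢
  have h1 : h⁻¹ * n * h ∈ N := by
    have := ‹N.Normal›.conj_mem n hn h⁻¹
    simpa using this
  have := hU _ h1 _ hx
  have e : h⁻¹ * (n * x * n⁻¹) * h = h⁻¹ * n * h * (h⁻¹ * x * h) * (h⁻¹ * n * h)⁻¹ := by group
  rw [e]
  exact this

lemma NN_inf {N U V : Subgroup H} (hU : NN N U) (hV : NN N V) : NN N (U ⊓ V) :=
  fun n hn x hx => ⟨hU n hn x hx.1, hV n hn x hx.2⟩

lemma commute_of_inf {N A B : Subgroup H} (hA : NN N A) (hB : NN N B) (hAN : A ≤ N) (hBN : B ≤ N)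
    (hAB : A ⊓ B = ⊥) {a b : H} (ha : a ∈ A) (hb : b ∈ B) : a * b = b * a := by
  have h1 : a * (b * a⁻¹ * b⁻¹) ∈ A := A.mul_mem ha (hA b (hBN hb) _ (A.inv_mem ha))
  have h2 : a * (b * a⁻¹ * b⁻¹) ∈ B := by
    have := B.mul_mem (hB a (hAN ha) b hb) (B.inv_mem hb)
    have e : a * (b * a⁻¹ * b⁻¹) = a * b * a⁻¹ * b⁻¹ := by group
    rw [e]; exact this
  have h3 : a * (b * a⁻¹ * b⁻¹) ∈ A ⊓ B := ⟨h1, h2⟩
  rw [hAB, Subgroup.mem_bot] at h3
  have e : a * b = (a * (b * a⁻¹ * b⁻¹)) * (b * a) := by group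
  rw [e, h3, one_mul]

section main

variable {N : Subgroup H} [hNn : N.Normal] {T₀ : Subgroup H}

/-- Minimal property of `T₀`. -/
def IsMin (N T₀ : Subgroup H) : Prop :=
  T₀ ≤ N ∧ T₀ ≠ ⊥ ∧ NN N T₀ ∧ ∀ U : Subgroup H, NN N U → U ≤ T₀ → U = ⊥ ∨ U = T₀

omit hNn in
lemma exists_isMin [Finite H] (N : Subgroup H) (hN : N ≠ ⊥) : ∃ T₀, IsMin N T₀ := by
  classical
  have hfin : ({U : Subgroup H | U ≤ N ∧ U ≠ ⊥ ∧ NN N U}).Finite := Set.toFinite _
  obtain ⟨T₀, hT₀⟩ := hfin.exists_minimal ⟨N, le_refl _, hN, fun n hn u hu =>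
    N.mul_mem (N.mul_mem hn hu) (N.inv_mem hn)⟩
  refine ⟨T₀, hT₀.1.1, hT₀.1.2.1, hT₀.1.2.2, fun U hU hle => ?_⟩
  by_cases hb : U = ⊥
  · exact Or.inl hb
  · right
    exact le_antisymm hle (hT₀.2 ⟨hle.trans hT₀.1.1, hb, hU⟩ hle)

lemma IsMin.cj (hT : IsMin N T₀) (h : H) : IsMin N (Cfsg.Agent.S0721.cj h T₀) := by
  refine ⟨cj_le_of_normal h hT.1, ?_, NN_cj h hT.2.2.1, ?_⟩
  · intro hb
    apply hT.2.1
    have := cj_cj h T₀
    rw [hb, cj_bot] at this
    exact this.symm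
  · intro U hU hle
    have h1 : Cfsg.Agent.S0721.cj h⁻¹ U ≤ T₀ := by
      have := cj_mono h⁻¹ hle
      rwa [cj_cj] at this
    rcases hT.2.2.2 _ (NN_cj h⁻¹ hU) h1 with h2 | h2
    · left
      have := cj_cj' h U
      rw [h2, cj_bot] at this
      exact this.symm
    · right
      have := cj_cj' h U
      rw [h2] at this
      exact this.symm

variable (hmin : ∀ M : Subgroup H, M.Normal → M ≤ N → M = ⊥ ∨ M = N)
include hmin

/-- The conjugates generate `N`. -/
lemma le_of_forall_cj (hT : IsMin N T₀) (S : Subgroup H)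
    (hS : ∀ h, Cfsg.Agent.S0721.cj h T₀ ≤ S) : N ≤ S := by
  have hnc : Subgroup.normalClosure (T₀ : Set H) ≤ N :=
    Subgroup.normalClosure_le_normal hT.1
  have hne : Subgroup.normalClosure (T₀ : Set H) ≠ ⊥ := by
    intro hb
    apply hT.2.1
    rw [eq_bot_iff, ← hb]
    exact Subgroup.le_normalClosure
  rcases hmin _ Subgroup.normalClosure_normal hnc with h1 | h1
  · exact absurd h1 hne
  · rw [← h1]
    show Subgroup.closure (Group.conjugatesOfSet (T₀ : Set H)) ≤ S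
    rw [Subgroup.closure_le]
    intro x hx
    rw [Group.mem_conjugatesOfSet_iff] at hx
    obtain ⟨a, ha, hax⟩ := hx
    rw [isConj_iff] at hax
    obtain ⟨c, rfl⟩ := hax
    apply hS c
    rw [mem_cj]
    have e : c⁻¹ * (c * a * c⁻¹) * c = a := by group
    rw [e]; exact ha

/-- The minimal normal subgroup of `N` is simple. -/
lemma isSimple (hT : IsMin N T₀) : IsSimpleGroup ↥T₀ := by
  have hnt : Nontrivial ↥T₀ := (Subgroup.nontrivial_iff_ne_bot T₀).2 hT.2.1
  refine ⟨fun M hM => ?_⟩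
  set M' : Subgroup H := M.map T₀.subtype with hM'
  have hle : M' ≤ T₀ := by
    rintro _ ⟨x, -, rfl⟩
    exact x.2
  have hNN : NN N M' := by
    -- normaliser of M' contains all conjugates
    have hS : N ≤ Subgroup.normalizer (M' : Set H) := by
      apply le_of_forall_cj hmin hT
      intro h t ht
      have hcj := hT.cj h
      rw [Subgroup.mem_normalizer_iff]
      by_cases hinf : Cfsg.Agent.S0721.cj h T₀ ⊓ T₀ = ⊥
      · -- commuting
        intro x
        have key : ∀ y ∈ T₀, t * y * t⁻¹ = y := by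
          intro y hy
          have := commute_of_inf hcj.2.2.1 hT.2.2.1 hcj.1 hT.1 hinf ht hy
          rw [this]; group
        constructor
        · intro hx
          rw [key x (hle hx)]; exact hx
        · intro hx
          have hxT : x ∈ T₀ := by
            have h1 : t * x * t⁻¹ ∈ T₀ := hle hx
            have h2 : t ∈ N := hcj.1 ht
            have h3 := hT.2.2.1 t⁻¹ (N.inv_mem h2) _ h1
            have e : t⁻¹ * (t * x * t⁻¹) * t⁻¹⁻¹ = x := by group
            rwa [e] at h3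
          rw [key x hxT] at hx
          exact hx
      · -- equal
        have h1 : Cfsg.Agent.S0721.cj h T₀ ⊓ T₀ = T₀ := by
          rcases hT.2.2.2 _ (NN_inf hcj.2.2.1 hT.2.2.1) inf_le_right with h2 | h2
          · exact absurd h2 hinf
          · exact h2
        have h2 : T₀ ≤ Cfsg.Agent.S0721.cj h T₀ := inf_eq_right.1 h1
        have h3 : T₀ = Cfsg.Agent.S0721.cj h T₀ := by
          rcases hcj.2.2.2 _ hT.2.2.1 h2 with h4 | h4
          · exact absurd h4 hT.2.1
          · exact h4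
        rw [← h3] at ht
        intro x
        have hnormal : ∀ y : H, y ∈ M' → t * y * t⁻¹ ∈ M' := by
          rintro _ ⟨y, hy, rfl⟩
          refine ⟨⟨t, ht⟩ * y * ⟨t, ht⟩⁻¹, hM.conj_mem y hy _, ?_⟩
          simp
        have hnormal' : ∀ y : H, y ∈ M' → t⁻¹ * y * t ∈ M' := by
          rintro _ ⟨y, hy, rfl⟩
          refine ⟨⟨t, ht⟩⁻¹ * y * ⟨t, ht⟩, ?_, ?_⟩
          · have := hM.conj_mem y hy (⟨t, ht⟩⁻¹)
            simpa using this
          · simp
        constructor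
        · exact hnormal x
        · intro hx
          have := hnormal' _ hx
          have e : t⁻¹ * (t * x * t⁻¹) * t = x := by group
          rwa [e] at this
    intro n hn u hu
    exact (Subgroup.mem_normalizer_iff.1 (hS hn) u).1 hu
  rcases hT.2.2.2 M' hNN hle with h1 | h1
  · left
    rw [hM', Subgroup.map_eq_bot_iff_of_injective _ T₀.subtype_injective] at h1
    exact h1
  · right
    rw [eq_top_iff]
    rintro ⟨x, hx⟩ -
    rw [← h1] at hx
    obtain ⟨y, hy, hyx⟩ := hx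
    have : y = ⟨x, by rw [← hyx]; exact y.2⟩ := Subtype.ext hyx
    rw [← this]
    exact hy

/-- A maximal direct power. -/
lemma exists_pi [Finite H] (hT : IsMin N T₀) :
    ∃ (m : ℕ) (φ : (Fin m → ↥T₀) →* H), 0 < m ∧ Function.Injective φ ∧ φ.range = N := by
  classical
  let KK : Set (Subgroup H) := {K | K ≤ N ∧ NN N K ∧ ∃ (m : ℕ) (φ : (Fin m → ↥T₀) →* H),
    0 < m ∧ Function.Injective φ ∧ φ.range = K}
  have hne : KK.Nonempty := by
    refine ⟨T₀, hT.1, hT.2.2.1, 1, T₀.subtype.comp (Pi.evalMonoidHom _ 0), Nat.one_pos, ?_, ?_⟩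
    · intro x y hxy
      have h0 : x 0 = y 0 := T₀.subtype_injective hxy
      funext i
      rw [Subsingleton.elim i 0, h0]
    · ext z
      constructor
      · rintro ⟨x, rfl⟩
        exact (x 0).2
      · intro hz
        exact ⟨fun _ => ⟨z, hz⟩, rfl⟩
  obtain ⟨K, hK⟩ := (Set.toFinite KK).exists_maximal hne
  obtain ⟨hKN, hKNN, m, φ, hm, hφ, hφK⟩ := hK.1
  refine ⟨m, φ, hm, hφ, ?_⟩
  rw [hφK]
  apply le_antisymm hKN
  apply le_of_forall_cj hmin hT
  intro h
  by_contra hnot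
  set T' := Cfsg.Agent.S0721.cj h T₀ with hT'
  have hcj : IsMin N T' := hT.cj h
  have hinf : T' ⊓ K = ⊥ := by
    rcases hcj.2.2.2 (T' ⊓ K) (NN_inf hcj.2.2.1 hKNN) inf_le_left with h1 | h1
    · exact h1
    · exact absurd (inf_eq_left.1 h1) hnot
  let c : ↥T₀ →* H := (MulAut.conj h).toMonoidHom.comp T₀.subtype
  have hc : ∀ t, c t ∈ T' := fun t => Subgroup.mem_map_of_mem _ t.2
  have hcsurj : ∀ z ∈ T', ∃ t, c t = z := by
    rintro z ⟨t, ht, rfl⟩
    exact ⟨⟨t, ht⟩, rfl⟩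
  have hcinj : Function.Injective c := fun x y hxy => by
    have : (x : H) = y := (MulAut.conj h).injective hxy
    exact Subtype.ext this
  have hKmem : ∀ y, φ y ∈ K := fun y => hφK ▸ ⟨y, rfl⟩
  have hcomm : ∀ y t, φ y * c t = c t * φ y := fun y t =>
    commute_of_inf hKNN hcj.2.2.1 hKN hcj.1 (by rw [inf_comm]; exact hinf) (hKmem y) (hc t)
  let φ' : (Fin (m + 1) → ↥T₀) →* H :=
    { toFun := fun x => φ (Fin.tail x) * c (x 0)
      map_one' := by
        have : Fin.tail (1 : Fin (m + 1) → ↥T₀) = 1 := rfl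
        simp [this]
      map_mul' := fun x y => by
        have : Fin.tail (x * y) = Fin.tail x * Fin.tail y := rfl
        simp only [this, map_mul, Pi.mul_apply]
        have h1 := hcomm (Fin.tail y) (x 0)
        calc φ (Fin.tail x) * φ (Fin.tail y) * (c (x 0) * c (y 0))
            = φ (Fin.tail x) * (φ (Fin.tail y) * c (x 0)) * c (y 0) := by group
          _ = φ (Fin.tail x) * (c (x 0) * φ (Fin.tail y)) * c (y 0) := by rw [h1]
          _ = φ (Fin.tail x) * c (x 0) * (φ (Fin.tail y) * c (y 0)) := by group }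
  have hφ'def : ∀ x, φ' x = φ (Fin.tail x) * c (x 0) := fun x => rfl
  have hφ'cons : ∀ t y, φ' (Fin.cons t y) = φ y * c t := fun t y => by
    rw [hφ'def, Fin.tail_cons, Fin.cons_zero]
  have hφ'inj : Function.Injective φ' := by
    rw [injective_iff_map_eq_one]
    intro x hx
    rw [hφ'def] at hx
    have h1 : φ (Fin.tail x) = (c (x 0))⁻¹ := eq_inv_of_mul_eq_one_left hx
    have h2 : φ (Fin.tail x) ∈ T' ⊓ K := ⟨by rw [h1]; exact T'.inv_mem (hc _), hKmem _⟩
    rw [hinf, Subgroup.mem_bot] at h2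
    have h3 : Fin.tail x = 1 := hφ (by rw [h2, map_one])
    have h4 : c (x 0) = 1 := by rw [h2, one_mul] at hx; exact hx
    have h5 : x 0 = 1 := hcinj (by rw [h4, map_one])
    funext i
    refine Fin.cases h5 (fun j => ?_) i
    exact congrFun h3 j
  have hK' : φ'.range ∈ KK := by
    refine ⟨?_, ?_, m + 1, φ', Nat.succ_pos m, hφ'inj, rfl⟩
    · rintro _ ⟨x, rfl⟩
      show φ' x ∈ N
      rw [hφ'def]
      exact N.mul_mem (hKN (hKmem _)) (hcj.1 (hc _))
    · rintro n hn _ ⟨x, rfl⟩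
      show n * φ' x * n⁻¹ ∈ φ'.range
      rw [hφ'def]
      have h1 := hKNN n hn _ (hKmem (Fin.tail x))
      have h2 := hcj.2.2.1 n hn _ (hc (x 0))
      rw [← hφK] at h1
      obtain ⟨y, hy⟩ := h1
      obtain ⟨t, ht⟩ := hcsurj _ h2
      refine ⟨Fin.cons t y, ?_⟩
      rw [hφ'cons, hy, ht]
      group
  have hle : K ≤ φ'.range := by
    intro z hz
    rw [← hφK] at hz
    obtain ⟨y, rfl⟩ := hz
    refine ⟨Fin.cons 1 y, ?_⟩
    rw [hφ'cons, map_one, mul_one]
  have hge : φ'.range ≤ K := hK.2 hK' hle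
  apply hnot
  intro z hz
  obtain ⟨t, rfl⟩ := hcsurj z hz
  apply hge
  refine ⟨Fin.cons t 1, ?_⟩
  rw [hφ'cons, map_one, one_mul]

end main

/-- A minimal normal subgroup of a finite group is isomorphic to a direct power `T ^ m` of a simple group `T` (possibly of prime order). -/
theorem result {H : Type*} [Group H] [Finite H] (N : Subgroup H) [N.Normal] (hN : N ≠ ⊥) (hmin : ∀ M : Subgroup H, M.Normal → M ≤ N → M = ⊥ ∨ M = N) : ∃ (T : Type) (_ : Group T) (m : ℕ), IsSimpleGroup T ∧ 0 < m ∧ Nonempty (N ≃* (Fin m → T)) := by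
  classical
  obtain ⟨T₀, hT⟩ := exists_isMin N hN
  have hsimple := isSimple hmin hT
  obtain ⟨m, φ, hm, hinj, hrange⟩ := exists_pi hmin hT
  -- transfer T₀ to `Type`
  have hsmall : Small.{0} ↥T₀ := inferInstance
  let e' : Shrink.{0} ↥T₀ ≃* ↥T₀ := Shrink.mulEquiv
  refine ⟨Shrink.{0} ↥T₀, inferInstance, m, e'.isSimpleGroup, hm, ?_⟩
  refine ⟨(MulEquiv.subgroupCongr hrange).symm.trans ((MonoidHom.ofInjective hinj).symm.trans
    (MulEquiv.piCongrRight (fun _ => e'.symm)))⟩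

end Cfsg.Agent.S0721
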