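import Mathlib
import Cfsg.Statements.S0722

set_option autoImplicit false
open Cfsg

namespace Cfsg.Agent.S0722

open MulAction

/-- In a primitive group `H`, with `N` a minimal normal subgroup and `K` a point stabiliser, `K ⊓ N` is maximal among proper `K`-invariant subgroups of `N`. -/
theorem result {α : Type*} [Finite α] (H : Subgroup (Equiv.Perm α)) [MulAction.IsPreprimitive H α] (N : Subgroup H) [N.Normal] (hN : N ≠ ⊥) (hmin : ∀ M : Subgroup H, M.Normal → M ≤ N → M = ⊥ ∨ M = N) (a : α) (X : Subgroup H) (hX : X ≤ N) (hKX : MulAction.stabilizer H a ⊓ N ≤ X) (hinv : MulAction.stabilizer H a ≤ Subgroup.normalizer (X : Set H)) : X = MulAction.stabilizer H a ⊓ N ∨ X = N := by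
  have hnt : Nontrivial α := by
    by_contra hcon
    rw [not_nontrivial_iff_subsingleton] at hcon
    apply hN
    rw [eq_bot_iff]
    intro x _
    have : x = 1 := by
      apply Subtype.ext
      exact Subsingleton.elim (α := Equiv.Perm α) _ _
    rw [this]
    exact Subgroup.one_mem _
  have hco : IsCoatom (MulAction.stabilizer H a) :=
    (isCoatom_stabilizer_iff_preprimitive (G := H) (X := α) a).mpr inferInstance
  have hle : MulAction.stabilizer H a ≤ MulAction.stabilizer H a ⊔ X := le_sup_left
  rcases hco.le_iff.mp hle with h | h
  · -- `X` generates the whole group with `K`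
    have hnorm : Subgroup.normalizer (X : Set H) = ⊤ := by
      rw [eq_top_iff, ← h]
      exact sup_le hinv Subgroup.le_normalizer
    have hXn : X.Normal := Subgroup.normalizer_eq_top_iff.mp hnorm
    rcases hmin X hXn hX with h1 | h1
    · left
      rw [h1]
      rw [h1] at hKX
      exact le_antisymm bot_le hKX
    · exact Or.inr h1
  · left
    apply le_antisymm _ hKX
    exact le_inf (h ▸ le_sup_right) hX

end Cfsg.Agent.S0722
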