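import Mathlib
import Cfsg.Statements.S0723
import Cfsg.Agent.S0721
import Cfsg.Agent.S0722

set_option autoImplicit false
open Cfsg

namespace Cfsg.Agent.S0723

open Cfsg.Agent.S0721

variable {G : Type*} [Group G]

section basics

variable {N : Subgroup G} [hNn : N.Normal]
variable (hmin : ∀ M : Subgroup G, M.Normal → M ≤ N → M = ⊥ ∨ M = N)
variable (hnab : ¬ IsMulCommutative N)

/-- Index type: minimal normal subgroups of `N`. -/
abbrev Idx (N : Subgroup G) := {U : Subgroup G // IsMin N U}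

omit hNn in
lemma Idx.inf_bot {U V : Subgroup G} (hU : IsMin N U) (hV : IsMin N V) (hne : U ≠ V) :
    U ⊓ V = ⊥ := by
  rcases hU.2.2.2 _ (NN_inf hU.2.2.1 hV.2.2.1) inf_le_left with h | h
  · exact h
  · exfalso
    have hle : U ≤ V := inf_eq_left.1 h
    rcases hV.2.2.2 U hU.2.2.1 hle with h2 | h2
    · exact hU.2.1 h2
    · exact hne h2

omit hNn in
lemma Idx.comm {U V : Subgroup G} (hU : IsMin N U) (hV : IsMin N V) (hne : U ≠ V) {u v : G}
    (hu : u ∈ U) (hv : v ∈ V) : u * v = v * u :=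
  commute_of_inf hU.2.2.1 hV.2.2.1 hU.1 hV.1 (Idx.inf_bot hU hV hne) hu hv

/-- Trivial centre of `N`. -/
lemma centerless (hmin : ∀ M : Subgroup G, M.Normal → M ≤ N → M = ⊥ ∨ M = N)
    (hnab : ¬ IsMulCommutative N) {x : G} (hx : x ∈ N) (hc : ∀ y ∈ N, y * x = x * y) : x = 1 := by
  have hZn : (N ⊓ Subgroup.centralizer (N : Set G)).Normal := by
    refine ⟨fun z hz g => (Subgroup.mem_inf).2 ⟨hNn.conj_mem z hz.1 g, ?_⟩⟩
    rw [Subgroup.mem_centralizer_iff]
    intro y hy
    have hy' : g⁻¹ * y * g ∈ N := by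
      have := hNn.conj_mem y hy g⁻¹
      simpa using this
    have h1 := (Subgroup.mem_centralizer_iff.1 hz.2) _ hy'
    calc y * (g * z * g⁻¹) = g * ((g⁻¹ * y * g) * z) * g⁻¹ := by group
      _ = g * (z * (g⁻¹ * y * g)) * g⁻¹ := by rw [h1]
      _ = g * z * g⁻¹ * y := by group
  rcases hmin _ hZn inf_le_left with h | h
  · have : x ∈ N ⊓ Subgroup.centralizer (N : Set G) :=
      ⟨hx, Subgroup.mem_centralizer_iff.2 hc⟩
    rw [h, Subgroup.mem_bot] at this
    exact this
  · exfalso
    apply hnab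
    refine ⟨⟨fun a b => ?_⟩⟩
    have hb : (b : G) ∈ N ⊓ Subgroup.centralizer (N : Set G) := by rw [h]; exact b.2
    have := (Subgroup.mem_centralizer_iff.1 hb.2) a a.2
    exact Subtype.ext this

variable {T₀ : Subgroup G}

/-- An element commuting with every conjugate of a minimal subgroup is trivial. -/
lemma eq_one_of_comm_cj (hmin : ∀ M : Subgroup G, M.Normal → M ≤ N → M = ⊥ ∨ M = N)
    (hnab : ¬ IsMulCommutative N) (hT : IsMin N T₀) {x : G} (hx : x ∈ N)
    (hc : ∀ h, ∀ y ∈ Cfsg.Agent.S0721.cj h T₀, y * x = x * y) : x = 1 := by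
  apply centerless hmin hnab hx
  have hle : N ≤ Subgroup.centralizer ({x} : Set G) := by
    apply le_of_forall_cj hmin hT
    intro h y hy
    rw [Subgroup.mem_centralizer_iff]
    intro z hz
    rw [Set.mem_singleton_iff] at hz
    rw [hz]
    exact (hc h y hy).symm
  intro y hy
  have := (Subgroup.mem_centralizer_iff.1 (hle hy)) x (Set.mem_singleton x)
  exact this.symm

/-- Centre of a factor is trivial. -/
lemma factor_center (hmin : ∀ M : Subgroup G, M.Normal → M ≤ N → M = ⊥ ∨ M = N)
    (hnab : ¬ IsMulCommutative N) (hT : IsMin N T₀) {u : G} (hu : u ∈ T₀)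
    (hc : ∀ y ∈ T₀, y * u = u * y) : u = 1 := by
  apply eq_one_of_comm_cj hmin hnab hT (hT.1 hu)
  intro h y hy
  by_cases he : Cfsg.Agent.S0721.cj h T₀ = T₀
  · rw [he] at hy
    exact hc y hy
  · exact Idx.comm (hT.cj h) hT he hy hu

/-- All minimal subgroups are conjugate. -/
lemma conj_trans (hmin : ∀ M : Subgroup G, M.Normal → M ≤ N → M = ⊥ ∨ M = N)
    (hnab : ¬ IsMulCommutative N) {U V : Subgroup G} (hU : IsMin N U) (hV : IsMin N V) :
    ∃ g, V = Cfsg.Agent.S0721.cj g U := by
  by_contra hcon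
  push Not at hcon
  apply hV.2.1
  rw [eq_bot_iff]
  intro v hv
  rw [Subgroup.mem_bot]
  apply eq_one_of_comm_cj hmin hnab hU (hV.1 hv)
  intro h y hy
  exact Idx.comm (hU.cj h) hV (hcon h).symm hy hv

/-- The "centraliser part". -/
def CC (N U : Subgroup G) : Subgroup G := N ⊓ Subgroup.centralizer (U : Set G)

omit hNn in
lemma mem_CC {U : Subgroup G} {c : G} : c ∈ CC N U ↔ c ∈ N ∧ ∀ w ∈ U, w * c = c * w := by
  unfold CC
  rw [Subgroup.mem_inf, Subgroup.mem_centralizer_iff]
  rfl

/-- Decomposition `n = u c`. -/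
lemma exists_split (hmin : ∀ M : Subgroup G, M.Normal → M ≤ N → M = ⊥ ∨ M = N)
    (hU : IsMin N T₀) {n : G} (hn : n ∈ N) : ∃ u ∈ T₀, u⁻¹ * n ∈ CC N T₀ := by
  let A : Subgroup G :=
    { carrier := {x | ∃ u ∈ T₀, ∃ c ∈ CC N T₀, x = u * c}
      one_mem' := ⟨1, T₀.one_mem, 1, (CC N T₀).one_mem, by simp⟩
      mul_mem' := by
        rintro _ _ ⟨u, hu, c, hc, rfl⟩ ⟨u', hu', c', hc', rfl⟩
        refine ⟨u * u', T₀.mul_mem hu hu', c * c', (CC N T₀).mul_mem hc hc', ?_⟩
        have h1 := (mem_CC.1 hc).2 u' hu'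
        calc u * c * (u' * c') = u * (c * u') * c' := by group
          _ = u * (u' * c) * c' := by rw [h1]
          _ = u * u' * (c * c') := by group
      inv_mem' := by
        rintro _ ⟨u, hu, c, hc, rfl⟩
        refine ⟨u⁻¹, T₀.inv_mem hu, c⁻¹, (CC N T₀).inv_mem hc, ?_⟩
        have h1 := (mem_CC.1 hc).2 u hu
        have h2 : (u * c)⁻¹ = u⁻¹ * c⁻¹ := by
          have h3 : u⁻¹ * c⁻¹ = (c * u)⁻¹ := by group
          rw [h3, h1]
        exact h2 }
  have hNA : N ≤ A := by
    apply le_of_forall_cj hmin hU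
    intro h y hy
    by_cases he : Cfsg.Agent.S0721.cj h T₀ = T₀
    · rw [he] at hy
      exact ⟨y, hy, 1, (CC N T₀).one_mem, by simp⟩
    · refine ⟨1, T₀.one_mem, y, ?_, by simp⟩
      rw [mem_CC]
      refine ⟨(hU.cj h).1 hy, fun w hw => ?_⟩
      exact (Idx.comm (hU.cj h) hU he hy hw).symm
  obtain ⟨u, hu, c, hc, he⟩ := hNA hn
  refine ⟨u, hu, ?_⟩
  rw [he]
  simpa using hc

/-- Uniqueness of the decomposition. -/
lemma split_unique (hmin : ∀ M : Subgroup G, M.Normal → M ≤ N → M = ⊥ ∨ M = N)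
    (hnab : ¬ IsMulCommutative N) (hU : IsMin N T₀) {n u u' : G} (hu : u ∈ T₀) (hu' : u' ∈ T₀)
    (h1 : u⁻¹ * n ∈ CC N T₀) (h2 : u'⁻¹ * n ∈ CC N T₀) : u = u' := by
  have h3 : u'⁻¹ * u ∈ CC N T₀ := by
    have := (CC N T₀).mul_mem h2 ((CC N T₀).inv_mem h1)
    have e : u'⁻¹ * n * (u⁻¹ * n)⁻¹ = u'⁻¹ * u := by group
    rwa [e] at this
  have h4 : u'⁻¹ * u = 1 :=
    factor_center hmin hnab hU (T₀.mul_mem (T₀.inv_mem hu') hu) (mem_CC.1 h3).2
  rw [inv_mul_eq_one] at h4
  exact h4.symm

/-- The projection. -/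
noncomputable def pr (hmin : ∀ M : Subgroup G, M.Normal → M ≤ N → M = ⊥ ∨ M = N)
    (hnab : ¬ IsMulCommutative N) (U : Idx N) : N →* U.1 :=
  MonoidHom.mk' (fun n => ⟨(exists_split hmin U.2 n.2).choose, (exists_split hmin U.2 n.2).choose_spec.1⟩)
    (by
      intro a b
      apply Subtype.ext
      have ha := (exists_split hmin U.2 a.2).choose_spec
      have hb := (exists_split hmin U.2 b.2).choose_spec
      have hab := (exists_split hmin U.2 (a * b).2).choose_spec
      set ua := (exists_split hmin U.2 a.2).choose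
      set ub := (exists_split hmin U.2 b.2).choose
      set uab := (exists_split hmin U.2 (a * b).2).choose
      show uab = ua * ub
      apply split_unique hmin hnab U.2 hab.1 (U.1.mul_mem ha.1 hb.1) hab.2
      have h1 := (mem_CC.1 ha.2).2 ub hb.1
      have h2 := (CC N U.1).mul_mem ha.2 hb.2
      have e : (ua * ub)⁻¹ * ((a * b : N) : G) = ua⁻¹ * (a : G) * (ub⁻¹ * (b : G)) := by
        have e1 : ub⁻¹ * (ua⁻¹ * (a : G)) = (ua⁻¹ * (a : G)) * ub⁻¹ := by
          have := (CC N U.1).one_mem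
          have h3 : ub * (ua⁻¹ * (a : G)) = (ua⁻¹ * (a : G)) * ub := h1
          calc ub⁻¹ * (ua⁻¹ * (a : G)) = ub⁻¹ * ((ua⁻¹ * (a : G)) * ub) * ub⁻¹ := by group
            _ = ub⁻¹ * (ub * (ua⁻¹ * (a : G))) * ub⁻¹ := by rw [h3]
            _ = (ua⁻¹ * (a : G)) * ub⁻¹ := by group
        calc (ua * ub)⁻¹ * ((a * b : N) : G) = ub⁻¹ * (ua⁻¹ * (a : G)) * (b : G) := by
              simp [mul_assoc]
          _ = (ua⁻¹ * (a : G)) * ub⁻¹ * (b : G) := by rw [e1]
          _ = ua⁻¹ * (a : G) * (ub⁻¹ * (b : G)) := by group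
      rw [e]
      exact h2)

lemma pr_mem (U : Idx N) (n : N) : ((pr hmin hnab U n : U.1) : G) ∈ U.1 := (pr hmin hnab U n).2

lemma pr_spec (U : Idx N) (n : N) :
    ((pr hmin hnab U n : U.1) : G)⁻¹ * (n : G) ∈ CC N U.1 :=
  (exists_split hmin U.2 n.2).choose_spec.2

lemma pr_eq (U : Idx N) (n : N) {u : G} (hu : u ∈ U.1) (h : u⁻¹ * (n : G) ∈ CC N U.1) :
    ((pr hmin hnab U n : U.1) : G) = u :=
  split_unique hmin hnab U.2 (pr_mem hmin hnab U n) hu (pr_spec hmin hnab U n) h

lemma pr_self (U : Idx N) (n : N) (hn : (n : G) ∈ U.1) :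
    ((pr hmin hnab U n : U.1) : G) = n :=
  pr_eq hmin hnab U n hn (by simp [(CC N U.1).one_mem])

lemma pr_other (U V : Idx N) (hne : V ≠ U) (n : N) (hn : (n : G) ∈ V.1) :
    pr hmin hnab U n = 1 := by
  apply Subtype.ext
  have hne' : V.1 ≠ U.1 := fun h => hne (Subtype.ext h)
  show ((pr hmin hnab U n : U.1) : G) = 1
  refine pr_eq hmin hnab U n U.1.one_mem ?_
  simp only [inv_one, one_mul]
  rw [mem_CC]
  exact ⟨n.2, fun w hw => (Idx.comm V.2 U.2 hne' hn hw).symm⟩

/-- Separation. -/
lemma pr_sep (n : N) (h : ∀ U, pr hmin hnab U n = 1) (U₀ : Idx N) : n = 1 := by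
  apply Subtype.ext
  apply eq_one_of_comm_cj hmin hnab U₀.2 n.2
  intro g y hy
  have h1 := pr_spec hmin hnab ⟨_, U₀.2.cj g⟩ n
  rw [h] at h1
  simp only [OneMemClass.coe_one, inv_one, one_mul] at h1
  exact (mem_CC.1 h1).2 y hy

/-- Joint surjectivity. -/
lemma pr_surj [Finite G] (t : ∀ U : Idx N, U.1) : ∃ n : N, ∀ U, pr hmin hnab U n = t U := by
  classical
  have : Fintype (Idx N) := Fintype.ofFinite _
  have key : ∀ S : Finset (Idx N), ∃ n : N, ∀ U, pr hmin hnab U n = if U ∈ S then t U else 1 := by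
    intro S
    induction S using Finset.induction_on with
    | empty =>
      refine ⟨1, fun U => ?_⟩
      simp
    | insert V S hV ih =>
      obtain ⟨n, hn⟩ := ih
      have hvN : ((t V : V.1) : G) ∈ N := V.2.1 (t V).2
      refine ⟨n * ⟨_, hvN⟩, fun U => ?_⟩
      rw [map_mul, hn]
      by_cases hUV : U = V
      · subst hUV
        have h1 : pr hmin hnab U ⟨_, hvN⟩ = t U := by
          apply Subtype.ext
          exact pr_self hmin hnab U ⟨_, hvN⟩ (t U).2
        rw [h1]
        simp [hV]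
      · rw [pr_other hmin hnab U V (Ne.symm hUV) ⟨_, hvN⟩ (t V).2]
        simp [hUV]
  obtain ⟨n, hn⟩ := key Finset.univ
  exact ⟨n, fun U => by simpa using hn U⟩

/-- Action on the index set. -/
def Idx.cj (g : G) (U : Idx N) : Idx N := ⟨Cfsg.Agent.S0721.cj g U.1, U.2.cj g⟩

/-- Conjugating an element of `N`. -/
def cjN (g : G) (n : N) : N := ⟨g * n * g⁻¹, hNn.conj_mem _ n.2 g⟩

lemma pr_cj (g : G) (U : Idx N) (n : N) :
    ((pr hmin hnab (Idx.cj g U) (cjN g n) : _) : G) = g * ((pr hmin hnab U n : U.1) : G) * g⁻¹ := by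
  refine pr_eq hmin hnab (Idx.cj g U) (cjN g n) ?_ ?_
  · rw [Idx.cj, mem_cj]
    have e : g⁻¹ * (g * ((pr hmin hnab U n : U.1) : G) * g⁻¹) * g = ((pr hmin hnab U n : U.1) : G) := by
      group
    rw [e]
    exact pr_mem hmin hnab U n
  · have h := pr_spec hmin hnab U n
    set u := ((pr hmin hnab U n : U.1) : G)
    rw [mem_CC] at h ⊢
    refine ⟨?_, fun w hw => ?_⟩
    · have := hNn.conj_mem _ h.1 g
      have e : (g * u * g⁻¹)⁻¹ * ((cjN g n : N) : G) = g * (u⁻¹ * (n : G)) * g⁻¹ := by
        simp only [cjN]; group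
      rw [e]; exact this
    · have hw' : g⁻¹ * w * g ∈ U.1 := mem_cj.1 hw
      have h2 := h.2 _ hw'
      have e : (g * u * g⁻¹)⁻¹ * ((cjN g n : N) : G) = g * (u⁻¹ * (n : G)) * g⁻¹ := by
        simp only [cjN]; group
      rw [e]
      calc w * (g * (u⁻¹ * (n : G)) * g⁻¹) = g * ((g⁻¹ * w * g) * (u⁻¹ * (n : G))) * g⁻¹ := by group
        _ = g * ((u⁻¹ * (n : G)) * (g⁻¹ * w * g)) * g⁻¹ := by rw [h2]
        _ = g * (u⁻¹ * (n : G)) * g⁻¹ * w := by group

end basics

section kernels

variable {D A B : Type*} [Group D] [Group A] [Group B]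

/-- Two surjections to simple groups with different kernels. -/
lemma ker_map_top (f : D →* A) (g : D →* B) (hf : Function.Surjective f)
    (hg : Function.Surjective g) (hA : IsSimpleGroup A) (hB : IsSimpleGroup B)
    (hne : f.ker ≠ g.ker) (t : B) : ∃ d, f d = 1 ∧ g d = t := by
  have hL : (f.ker.map g).Normal := Subgroup.Normal.map inferInstance g hg
  rcases hB.eq_bot_or_eq_top_of_normal _ hL with h | h
  · exfalso
    have hle : f.ker ≤ g.ker := by
      intro d hd
      have : g d ∈ f.ker.map g := Subgroup.mem_map_of_mem g hd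
      rw [h, Subgroup.mem_bot] at this
      exact this
    have hM : (g.ker.map f).Normal := Subgroup.Normal.map inferInstance f hf
    rcases hA.eq_bot_or_eq_top_of_normal _ hM with h2 | h2
    · apply hne
      apply le_antisymm hle
      intro d hd
      have : f d ∈ g.ker.map f := Subgroup.mem_map_of_mem f hd
      rw [h2, Subgroup.mem_bot] at this
      exact this
    · -- g is trivial
      have htriv : ∀ d, g d = 1 := by
        intro d
        have : f d ∈ g.ker.map f := by rw [h2]; exact Subgroup.mem_top _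
        obtain ⟨e, he, hef⟩ := this
        have h3 : e⁻¹ * d ∈ f.ker := by
          rw [MonoidHom.mem_ker, map_mul, map_inv, hef, inv_mul_cancel]
        have h4 := hle h3
        rw [MonoidHom.mem_ker, map_mul, map_inv] at h4
        have he' : g e = 1 := he
        rw [he', inv_one, one_mul] at h4
        exact h4
      obtain ⟨x, y, hxy⟩ := hB.toNontrivial.exists_pair_ne
      obtain ⟨a, rfl⟩ := hg x
      obtain ⟨b, rfl⟩ := hg y
      exact hxy (by rw [htriv, htriv])
  · have : t ∈ f.ker.map g := by rw [h]; exact Subgroup.mem_top _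
    obtain ⟨d, hd, hdt⟩ := this
    exact ⟨d, hd, hdt⟩

/-- Same kernels give an isomorphism. -/
lemma exists_iso_of_ker_eq (f : D →* A) (g : D →* B) (hf : Function.Surjective f)
    (hg : Function.Surjective g) (h : f.ker = g.ker) : ∃ ψ : A ≃* B, ∀ d, ψ (f d) = g d := by
  refine ⟨(QuotientGroup.quotientKerEquivOfSurjective f hf).symm.trans
    ((QuotientGroup.quotientMulEquivOfEq h).trans
      (QuotientGroup.quotientKerEquivOfSurjective g hg)), fun d => ?_⟩
  have h1 : (QuotientGroup.quotientKerEquivOfSurjective f hf).symm (f d) = (d : D ⧸ f.ker) := by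
    rw [MulEquiv.symm_apply_eq]
    rfl
  simp only [MulEquiv.trans_apply, h1]
  rfl

variable {ι : Type*} {Af : ι → Type*} [∀ i, Group (Af i)] (π : ∀ i, D →* Af i)

/-- Common kernel. -/
def kerOn (S : Finset ι) : Subgroup D where
  carrier := {d | ∀ i ∈ S, π i d = 1}
  one_mem' := fun i _ => map_one _
  mul_mem' := fun {a b} ha hb i hi => by rw [map_mul, ha i hi, hb i hi, one_mul]
  inv_mem' := fun {a} ha i hi => by rw [map_inv, ha i hi, inv_one]

omit [∀ i, Group (Af i)] in
lemma kerOn_normal [∀ i, Group (Af i)] (π : ∀ i, D →* Af i) (S : Finset ι) : (kerOn π S).Normal := by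
  refine ⟨fun d hd g i hi => ?_⟩
  rw [map_mul, map_mul, hd i hi, mul_one, map_inv, mul_inv_cancel]

/-- Avoiding finitely many kernels. -/
lemma avoid [DecidableEq ι] (hs : ∀ i, Function.Surjective (π i)) (hsim : ∀ i, IsSimpleGroup (Af i))
    (hz : ∀ i, ∀ a : Af i, (∀ b, b * a = a * b) → a = 1) (v : ι) (S : Finset ι) :
    (∀ i ∈ S, (π i).ker ≠ (π v).ker) → ∀ t : Af v, ∃ d, (∀ i ∈ S, π i d = 1) ∧ π v d = t := by
  induction S using Finset.induction_on with
  | empty =>
    intro _ t
    obtain ⟨d, hd⟩ := hs v t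
    exact ⟨d, by simp, hd⟩
  | insert W S hW ih =>
    intro hne t
    have ih' := ih (fun i hi => hne i (Finset.mem_insert_of_mem hi))
    have hWne := hne W (Finset.mem_insert_self _ _)
    -- `L = kerOn S ⊓ ker W`
    have hLn : (((kerOn π S) ⊓ (π W).ker).map (π v)).Normal := by
      have := kerOn_normal π S
      exact Subgroup.Normal.map inferInstance _ (hs v)
    rcases (hsim v).eq_bot_or_eq_top_of_normal _ hLn with h | h
    · exfalso
      -- then `A v` is commutative
      have hcomm : ∀ x y : Af v, x * y = y * x := by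
        intro x y
        obtain ⟨a, ha, rfl⟩ := ih' x
        obtain ⟨b, hb, rfl⟩ := ker_map_top (π W) (π v) (hs W) (hs v) (hsim W) (hsim v) hWne y
        have h1 : a * b * a⁻¹ * b⁻¹ ∈ (kerOn π S) ⊓ (π W).ker := by
          refine ⟨fun i hi => ?_, ?_⟩
          · have : π i (a * (b * a⁻¹ * b⁻¹)) = 1 := by
              rw [map_mul, map_mul, map_mul, map_inv, map_inv, ha i hi]
              simp
            rwa [show a * b * a⁻¹ * b⁻¹ = a * (b * a⁻¹ * b⁻¹) by group]
          · show π W (a * b * a⁻¹ * b⁻¹) = 1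
            rw [map_mul, map_mul, map_mul, map_inv, map_inv, hb]
            simp
        have h2 : π v (a * b * a⁻¹ * b⁻¹) ∈ (((kerOn π S) ⊓ (π W).ker).map (π v)) :=
          Subgroup.mem_map_of_mem _ h1
        rw [h, Subgroup.mem_bot, map_mul, map_mul, map_mul, map_inv, map_inv] at h2
        have h3 : π v a * π v b = (π v a * π v b * (π v a)⁻¹ * (π v b)⁻¹) * (π v b * π v a) := by
          group
        rw [h3, h2, one_mul]
      obtain ⟨x, y, hxy⟩ := (hsim v).toNontrivial.exists_pair_ne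
      have h1 := hz v x (fun b => hcomm b x)
      have h2 := hz v y (fun b => hcomm b y)
      exact hxy (h1.trans h2.symm)
    · have : t ∈ (((kerOn π S) ⊓ (π W).ker).map (π v)) := by rw [h]; exact Subgroup.mem_top _
      obtain ⟨d, hd, hdt⟩ := this
      refine ⟨d, fun i hi => ?_, hdt⟩
      rcases Finset.mem_insert.1 hi with rfl | hi'
      · exact hd.2
      · exact hd.1 i hi'

/-- Chinese remainder for pairwise different kernels. -/
lemma crt [DecidableEq ι] (hs : ∀ i, Function.Surjective (π i)) (hsim : ∀ i, IsSimpleGroup (Af i))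
    (hz : ∀ i, ∀ a : Af i, (∀ b, b * a = a * b) → a = 1) (t : ∀ i, Af i) (S : Finset ι) :
    (∀ i ∈ S, ∀ j ∈ S, (π i).ker = (π j).ker → i = j) → ∃ d, ∀ i ∈ S, π i d = t i := by
  induction S using Finset.induction_on with
  | empty =>
    intro _
    exact ⟨1, by simp⟩
  | insert W S hW ih =>
    intro hne
    obtain ⟨d₀, hd₀⟩ := ih (fun i hi j hj h => hne i (Finset.mem_insert_of_mem hi) j
      (Finset.mem_insert_of_mem hj) h)
    obtain ⟨e, he, heW⟩ := avoid π hs hsim hz W S (fun i hi h => hW (by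
      have := hne i (Finset.mem_insert_of_mem hi) W (Finset.mem_insert_self _ _) h
      rw [← this]; exact hi)) ((π W d₀)⁻¹ * t W)
    refine ⟨d₀ * e, fun i hi => ?_⟩
    rcases Finset.mem_insert.1 hi with rfl | hi'
    · rw [map_mul, heW]; group
    · rw [map_mul, he i hi', hd₀ i hi', mul_one]

end kernels

section main

variable {N : Subgroup G} [hNn : N.Normal]
variable (hmin : ∀ M : Subgroup G, M.Normal → M ≤ N → M = ⊥ ∨ M = N)
variable (hnab : ¬ IsMulCommutative N)

include hmin hnab in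
lemma idx_center (U : Idx N) (a : ↥U.1) (h : ∀ b, b * a = a * b) : a = 1 := by
  apply Subtype.ext
  apply factor_center hmin hnab U.2 a.2
  intro y hy
  exact congrArg Subtype.val (h ⟨y, hy⟩)

lemma idx_cj_self (U : Idx N) {n : G} (hn : n ∈ N) : Idx.cj n U = U := by
  apply Subtype.ext
  ext x
  show x ∈ Cfsg.Agent.S0721.cj n U.1 ↔ x ∈ U.1
  rw [mem_cj]
  constructor
  · intro h
    have := U.2.2.2.1 n hn _ h
    have e : n * (n⁻¹ * x * n) * n⁻¹ = x := by group
    rwa [e] at this
  · intro h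
    have := U.2.2.2.1 n⁻¹ (N.inv_mem hn) _ h
    simpa using this

lemma idx_cj_mul (g h : G) (U : Idx N) : Idx.cj (g * h) U = Idx.cj g (Idx.cj h U) := by
  apply Subtype.ext
  ext x
  show x ∈ Cfsg.Agent.S0721.cj (g * h) U.1 ↔ x ∈ Cfsg.Agent.S0721.cj g (Cfsg.Agent.S0721.cj h U.1)
  rw [mem_cj, mem_cj, mem_cj]
  have e : (g * h)⁻¹ * x * (g * h) = h⁻¹ * (g⁻¹ * x * g) * h := by group
  rw [e]

lemma idx_cj_inv (g : G) (U : Idx N) : Idx.cj g⁻¹ (Idx.cj g U) = U :=
  Subtype.ext (cj_cj g U.1)

lemma idx_cj_inv' (g : G) (U : Idx N) : Idx.cj g (Idx.cj g⁻¹ U) = U :=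
  Subtype.ext (cj_cj' g U.1)

variable (K : Subgroup G)

lemma cjN_mem {k : G} (hk : k ∈ K) {n : N} (hn : n ∈ K.subgroupOf N) :
    cjN k n ∈ K.subgroupOf N := by
  rw [Subgroup.mem_subgroupOf] at hn ⊢
  exact K.mul_mem (K.mul_mem hk hn) (K.inv_mem hk)

/-- Projection of `K ⊓ N` to a factor. -/
noncomputable def KU (U : Idx N) : Subgroup U.1 := (K.subgroupOf N).map (pr hmin hnab U)

lemma KU_cj {k : G} (hk : k ∈ K) (U : Idx N) (u : U.1) (hu : u ∈ KU hmin hnab K U)
    (v : (Idx.cj k U).1) (hv : (v : G) = k * (u : G) * k⁻¹) :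
    v ∈ KU hmin hnab K (Idx.cj k U) := by
  obtain ⟨d, hd, hdu⟩ := hu
  refine ⟨cjN k d, cjN_mem K hk hd, ?_⟩
  apply Subtype.ext
  rw [pr_cj, hv, ← hdu]

/-- The product of the projections. -/
noncomputable def XX : Subgroup N :=
  ⨅ U, (KU hmin hnab K U).comap (pr hmin hnab U)

lemma mem_XX {n : N} : n ∈ XX hmin hnab K ↔ ∀ U, pr hmin hnab U n ∈ KU hmin hnab K U := by
  unfold XX
  rw [Subgroup.mem_iInf]
  rfl

lemma XX_cj {k : G} (hk : k ∈ K) {n : N} (hn : n ∈ XX hmin hnab K) :
    cjN k n ∈ XX hmin hnab K := by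
  rw [mem_XX] at hn ⊢
  intro V
  have hV := idx_cj_inv' k V
  rw [← hV]
  have hU := hn (Idx.cj k⁻¹ V)
  exact KU_cj hmin hnab K hk _ _ hU _ (pr_cj hmin hnab k _ n)

/-- Building the isomorphism from factor identifications. -/
noncomputable def EEhom {T : Type} [Group T] {m : ℕ} (θ : ∀ U : Idx N, U.1 ≃* T)
    (f : Idx N ≃ Fin m) : N →* (Fin m → T) :=
  MonoidHom.pi (fun i => (θ (f.symm i)).toMonoidHom.comp (pr hmin hnab (f.symm i)))

lemma EEhom_bij [Finite G] {T : Type} [Group T] {m : ℕ} (θ : ∀ U : Idx N, U.1 ≃* T)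
    (f : Idx N ≃ Fin m) (U₀ : Idx N) : Function.Bijective (EEhom hmin hnab θ f) := by
  constructor
  · rw [injective_iff_map_eq_one]
    intro n hn
    apply pr_sep hmin hnab n _ U₀
    intro U
    have h1 := congrFun hn (f U)
    have h2 : θ (f.symm (f U)) (pr hmin hnab (f.symm (f U)) n) = 1 := h1
    rw [Equiv.symm_apply_apply] at h2
    exact (map_eq_one_iff (θ U) (θ U).injective).1 h2
  · intro x
    obtain ⟨n, hn⟩ := pr_surj hmin hnab (fun U => (θ U).symm (x (f U)))
    refine ⟨n, ?_⟩
    funext i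
    show θ (f.symm i) (pr hmin hnab (f.symm i) n) = x i
    rw [hn]
    simp

include hmin hnab in
/-- The abstract core of the O'Nan-Scott theorem. -/
theorem core [Finite G] (hKN : ∀ g, ∃ k ∈ K, ∃ n ∈ N, g = k * n) (hne : ∃ n ∈ N, n ∉ K)
    (hmax : ∀ X : Subgroup G, X ≤ N → K ⊓ N ≤ X → (∀ k ∈ K, ∀ x ∈ X, k * x * k⁻¹ ∈ X) →
      X = K ⊓ N ∨ X = N) :
    ∃ (T : Type) (_ : Group T) (m : ℕ) (e : N ≃* (Fin m → T)), IsSimpleGroup T ∧
      ¬ IsMulCommutative T ∧ 0 < m ∧
      ((∃ Kf : Fin m → Subgroup T, (∀ i, Kf i ≠ ⊤) ∧ ∀ n : N, (n : G) ∈ K ↔ ∀ i, e n i ∈ Kf i) ∨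
       (∃ (k : ℕ) (c : Fin m → Fin m), 2 ≤ k ∧
          (∀ j : Fin m, Nat.card {i : Fin m // c i = j} = k ∨ Nat.card {i : Fin m // c i = j} = 0) ∧
          ∀ n : N, (n : G) ∈ K ↔ ∀ i j : Fin m, c i = c j → e n i = e n j)) := by
  classical
  have hN0 : N ≠ ⊥ := by
    obtain ⟨n, hn, hnK⟩ := hne
    intro h
    rw [h, Subgroup.mem_bot] at hn
    rw [hn] at hnK
    exact hnK K.one_mem
  obtain ⟨T₀, hT₀⟩ := exists_isMin N hN0
  let U₀ : Idx N := ⟨T₀, hT₀⟩
  have : Finite (Idx N) := inferInstance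
  have : Nonempty (Idx N) := ⟨U₀⟩
  let m := Nat.card (Idx N)
  let f : Idx N ≃ Fin m := Finite.equivFin _
  have hm : 0 < m := Nat.card_pos
  -- the group `T`
  have : IsSimpleGroup ↥T₀ := isSimple hmin hT₀
  let T := Shrink.{0} ↥T₀
  let es : T ≃* ↥T₀ := Shrink.mulEquiv
  have hTs : IsSimpleGroup T := es.isSimpleGroup
  have hTc : ¬ IsMulCommutative T := by
    intro hc
    apply hT₀.2.1
    rw [eq_bot_iff]
    intro u hu
    rw [Subgroup.mem_bot]
    apply factor_center hmin hnab hT₀ hu
    intro y hy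
    have := hc.is_comm.comm (es.symm ⟨y, hy⟩) (es.symm ⟨u, hu⟩)
    have h2 := congrArg es this
    simp only [map_mul, MulEquiv.apply_symm_apply] at h2
    exact congrArg Subtype.val h2
  have hθ : ∀ U : Idx N, Nonempty (U.1 ≃* T) := by
    intro U
    obtain ⟨g, hg⟩ := conj_trans hmin hnab hT₀ U.2
    exact ⟨(MulEquiv.subgroupCongr hg).trans
      ((T₀.equivMapOfInjective (MulAut.conj g).toMonoidHom (MulAut.conj g).injective).symm.trans
        es.symm)⟩
  let θ : ∀ U : Idx N, U.1 ≃* T := fun U => (hθ U).some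
  -- transitivity of K
  have htrans : ∀ U V : Idx N, ∃ k ∈ K, V = Idx.cj k U := by
    intro U V
    obtain ⟨g, hg⟩ := conj_trans hmin hnab U.2 V.2
    obtain ⟨k, hk, n, hn, rfl⟩ := hKN g
    refine ⟨k, hk, ?_⟩
    have h1 : V = Idx.cj (k * n) U := Subtype.ext hg
    rw [h1, idx_cj_mul, idx_cj_self U hn]
  -- the subgroup X
  have hX := hmax ((XX hmin hnab K).map N.subtype) (Subgroup.map_subtype_le _)
    (by
      rintro x ⟨hxK, hxN⟩
      refine ⟨⟨x, hxN⟩, ?_, rfl⟩
      rw [SetLike.mem_coe, mem_XX]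
      intro U
      exact Subgroup.mem_map_of_mem _ hxK)
    (by
      rintro k hk _ ⟨n, hn, rfl⟩
      exact ⟨cjN k n, XX_cj hmin hnab K hk hn, rfl⟩)
  have hXmem : ∀ n : N, (n : G) ∈ (XX hmin hnab K).map N.subtype ↔ n ∈ XX hmin hnab K := by
    intro n
    constructor
    · rintro ⟨n', hn', he⟩
      have : n' = n := Subtype.ext he
      rw [← this]; exact hn'
    · intro h
      exact ⟨n, h, rfl⟩
  rcases hX with hX | hX
  · -- product case
    refine ⟨T, inferInstance, m, MulEquiv.ofBijective _ (EEhom_bij hmin hnab θ f U₀), hTs, hTc, hm,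
      Or.inl ⟨fun i => (KU hmin hnab K (f.symm i)).map (θ (f.symm i)).toMonoidHom, ?_, ?_⟩⟩
    · intro i hi
      -- every projection is then full
      have hKU1 : KU hmin hnab K (f.symm i) = ⊤ := by
        rw [eq_top_iff]
        intro u _
        have hi' : (KU hmin hnab K (f.symm i)).map (θ (f.symm i)).toMonoidHom = ⊤ := hi
        have : θ (f.symm i) u ∈ (KU hmin hnab K (f.symm i)).map (θ (f.symm i)).toMonoidHom := by
          rw [hi']; exact Subgroup.mem_top _
        obtain ⟨u', hu', he⟩ := this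
        have : u' = u := (θ (f.symm i)).injective he
        rw [← this]; exact hu'
      have hall : ∀ V, KU hmin hnab K V = ⊤ := by
        intro V
        obtain ⟨k, hk, rfl⟩ := htrans (f.symm i) V
        rw [eq_top_iff]
        intro v _
        have hv' : k⁻¹ * (v : G) * k ∈ (f.symm i).1 := mem_cj.1 v.2
        refine KU_cj hmin hnab K hk _ ⟨_, hv'⟩ (by rw [hKU1]; exact Subgroup.mem_top _) v ?_
        show (v : G) = k * (k⁻¹ * (v : G) * k) * k⁻¹
        group
      obtain ⟨n, hnN, hnK⟩ := hne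
      apply hnK
      have h1 : (⟨n, hnN⟩ : N) ∈ XX hmin hnab K := by
        rw [mem_XX]
        intro U
        rw [hall U]
        exact Subgroup.mem_top _
      have h2 := (hXmem ⟨n, hnN⟩).2 h1
      rw [hX] at h2
      exact h2.1
    · intro n
      constructor
      · intro hn i
        refine ⟨pr hmin hnab (f.symm i) n, ?_, rfl⟩
        exact Subgroup.mem_map_of_mem _ hn
      · intro h
        have h1 : n ∈ XX hmin hnab K := by
          rw [mem_XX]
          have h2 : ∀ i, pr hmin hnab (f.symm i) n ∈ KU hmin hnab K (f.symm i) := by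
            intro i
            obtain ⟨u, hu, he⟩ := h i
            have h3 : θ (f.symm i) u = θ (f.symm i) (pr hmin hnab (f.symm i) n) := he
            have h4 := (θ (f.symm i)).injective h3
            rwa [← h4]
          intro U
          have := h2 (f U)
          rwa [Equiv.symm_apply_apply] at this
        have h2 := (hXmem n).2 h1
        rw [hX] at h2
        exact h2.1
  · -- diagonal case
    have hKUall : ∀ (U : Idx N) (u : U.1), u ∈ KU hmin hnab K U := by
      intro U u
      have hn : (⟨u, U.2.1 u.2⟩ : N) ∈ XX hmin hnab K := by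
        rw [← hXmem, hX]
        exact U.2.1 u.2
      have h1 := (mem_XX hmin hnab K).1 hn U
      have h2 : pr hmin hnab U ⟨u, U.2.1 u.2⟩ = u := by
        apply Subtype.ext
        exact pr_self hmin hnab U ⟨u, U.2.1 u.2⟩ u.2
      rwa [h2] at h1
    let D : Subgroup N := K.subgroupOf N
    let π : ∀ U : Idx N, ↥D →* U.1 := fun U => (pr hmin hnab U).comp D.subtype
    have hs : ∀ U, Function.Surjective (π U) := by
      intro U u
      obtain ⟨d, hd, hdu⟩ := hKUall U u
      exact ⟨⟨d, hd⟩, hdu⟩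
    have hsim : ∀ U : Idx N, IsSimpleGroup U.1 := fun U => isSimple hmin U.2
    have hz : ∀ (U : Idx N) (a : U.1), (∀ b, b * a = a * b) → a = 1 := idx_center hmin hnab
    let kerOf : Idx N → Subgroup ↥D := fun U => (π U).ker
    let rep : Idx N → Idx N := fun U => Function.invFun kerOf (kerOf U)
    have hrep : ∀ U, kerOf (rep U) = kerOf U := fun U => Function.invFun_eq ⟨U, rfl⟩
    have hrep_eq : ∀ {U V}, kerOf U = kerOf V → rep U = rep V := fun {U V} h => by
      show Function.invFun kerOf (kerOf U) = Function.invFun kerOf (kerOf V)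
      rw [h]
    have hrep_iff : ∀ {U V}, rep U = rep V ↔ kerOf U = kerOf V := by
      intro U V
      constructor
      · intro h
        rw [← hrep U, ← hrep V, h]
      · exact hrep_eq
    have hψ : ∀ U, ∃ ψ : U.1 ≃* (rep U).1, ∀ d, ψ (π U d) = π (rep U) d := fun U =>
      exists_iso_of_ker_eq _ _ (hs U) (hs _) (hrep U).symm
    choose ψ hψ' using hψ
    let θ' : ∀ U : Idx N, U.1 ≃* T := fun U => (ψ U).trans (θ (rep U))
    have hθ'D : ∀ U (d : ↥D), θ' U (π U d) = θ (rep U) (π (rep U) d) := by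
      intro U d
      show θ (rep U) (ψ U (π U d)) = _
      rw [hψ']
    let e : N ≃* (Fin m → T) := MulEquiv.ofBijective _ (EEhom_bij hmin hnab θ' f U₀)
    have heapp : ∀ n i, e n i = θ' (f.symm i) (pr hmin hnab (f.symm i) n) := fun n i => rfl
    let c : Fin m → Fin m := fun i => f (rep (f.symm i))
    have hc_iff : ∀ i j, c i = c j ↔ kerOf (f.symm i) = kerOf (f.symm j) := by
      intro i j
      constructor
      · intro h
        exact hrep_iff.1 (f.injective h)
      · intro h
        exact congrArg f (hrep_eq h)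
    -- conjugation and kernels
    have hkerconj : ∀ (g : G) (hg : g ∈ K) (U : Idx N) (d : ↥D), d ∈ kerOf (Idx.cj g U) ↔
        (⟨cjN g⁻¹ d.1, cjN_mem K (K.inv_mem hg) d.2⟩ : ↥D) ∈ kerOf U := by
      intro g hg U d
      show pr hmin hnab (Idx.cj g U) d.1 = 1 ↔ pr hmin hnab U (cjN g⁻¹ d.1) = 1
      have h1 : d.1 = cjN g (cjN g⁻¹ d.1) := by
        apply Subtype.ext
        simp only [cjN]
        group
      have h2 := pr_cj hmin hnab g U (cjN g⁻¹ d.1)
      rw [← h1] at h2
      constructor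
      · intro h
        rw [h] at h2
        apply Subtype.ext
        have h3 : (1 : G) = g * ((pr hmin hnab U (cjN g⁻¹ d.1) : U.1) : G) * g⁻¹ := h2
        have h4 : ((pr hmin hnab U (cjN g⁻¹ d.1) : U.1) : G) = g⁻¹ * 1 * g := by
          rw [h3]; group
        rw [h4]; simp
      · intro h
        rw [h] at h2
        apply Subtype.ext
        rw [h2]
        simp
    have hconj : ∀ g ∈ K, ∀ U V, kerOf U = kerOf V → kerOf (Idx.cj g U) = kerOf (Idx.cj g V) := by
      intro g hg U V h
      ext d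
      rw [hkerconj g hg U d, hkerconj g hg V d, h]
    let k := Nat.card {U : Idx N // kerOf U = kerOf U₀}
    have hcard : ∀ V : Idx N, Nat.card {U : Idx N // kerOf U = kerOf V} = k := by
      intro V
      obtain ⟨g, hg, rfl⟩ := htrans U₀ V
      apply Nat.card_congr
      symm
      exact
        { toFun := fun U => ⟨Idx.cj g U.1, hconj g hg _ _ U.2⟩
          invFun := fun U => ⟨Idx.cj g⁻¹ U.1, by
            have := hconj g⁻¹ (K.inv_mem hg) _ _ U.2
            rwa [idx_cj_inv] at this⟩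
          left_inv := fun U => Subtype.ext (idx_cj_inv g U.1)
          right_inv := fun U => Subtype.ext (idx_cj_inv' g U.1) }
    have hk2 : 2 ≤ k := by
      by_contra hlt
      have hle : k ≤ 1 := by omega
      have hinj : Function.Injective kerOf := by
        intro U V hUV
        have h1 : Nat.card {W : Idx N // kerOf W = kerOf V} ≤ 1 := by rw [hcard V]; exact hle
        rw [Finite.card_le_one_iff_subsingleton] at h1
        have := Subsingleton.elim (⟨U, hUV⟩ : {W : Idx N // kerOf W = kerOf V}) ⟨V, rfl⟩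
        exact congrArg Subtype.val this
      obtain ⟨n, hnN, hnK⟩ := hne
      apply hnK
      letI := Fintype.ofFinite (Idx N)
      obtain ⟨d, hd⟩ := crt π hs hsim hz (fun U => pr hmin hnab U ⟨n, hnN⟩) Finset.univ
        (fun i _ j _ h => hinj h)
      have h1 : (⟨n, hnN⟩ : N) * (d : N)⁻¹ = 1 := by
        apply pr_sep hmin hnab _ _ U₀
        intro U
        rw [map_mul, map_inv]
        have := hd U (Finset.mem_univ _)
        show pr hmin hnab U ⟨n, hnN⟩ * (π U d)⁻¹ = 1
        rw [this, mul_inv_cancel]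
      have h2 : (⟨n, hnN⟩ : N) = d := mul_inv_eq_one.1 h1
      have h3 : n = ((d : N) : G) := congrArg Subtype.val h2
      rw [h3]
      exact d.2
    refine ⟨T, inferInstance, m, e, hTs, hTc, hm, Or.inr ⟨k, c, hk2, ?_, ?_⟩⟩
    · intro j
      by_cases hj : ∃ i₀, c i₀ = j
      · left
        obtain ⟨i₀, rfl⟩ := hj
        rw [← hcard (f.symm i₀)]
        apply Nat.card_congr
        exact Equiv.subtypeEquiv f.symm (fun i => hc_iff i i₀)
      · right
        push Not at hj
        have : IsEmpty {i : Fin m // c i = j} := ⟨fun i => hj i.1 i.2⟩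
        exact Nat.card_of_isEmpty
    · intro n
      constructor
      · intro hn i j hij
        let d : ↥D := ⟨n, hn⟩
        have h1 : e n i = θ' (f.symm i) (π (f.symm i) d) := heapp n i
        have h2 : e n j = θ' (f.symm j) (π (f.symm j) d) := heapp n j
        rw [h1, h2, hθ'D, hθ'D]
        have h3 : rep (f.symm i) = rep (f.symm j) := f.injective hij
        exact congrArg (fun W => θ W (π W d)) h3
      · intro h
        letI := Fintype.ofFinite (Idx N)
        obtain ⟨d, hd⟩ := crt π hs hsim hz (fun U => pr hmin hnab U n) (Finset.univ.image rep)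
          (by
            intro i hi j hj hij
            obtain ⟨U, -, rfl⟩ := Finset.mem_image.1 hi
            obtain ⟨V, -, rfl⟩ := Finset.mem_image.1 hj
            have h1 : kerOf U = kerOf V := by
              rw [← hrep U, ← hrep V]; exact hij
            exact hrep_eq h1)
        have hkey : ∀ U, pr hmin hnab U n = π U d := by
          intro U
          set r := rep U with hr
          have hrr : rep r = rep U := hrep_eq (hrep U)
          have hrS : r ∈ Finset.univ.image rep := Finset.mem_image_of_mem _ (Finset.mem_univ _)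
          have hF := h (f U) (f r) (by
            show f (rep (f.symm (f U))) = f (rep (f.symm (f r)))
            rw [Equiv.symm_apply_apply, Equiv.symm_apply_apply, hrr])
          have hF1 : e n (f U) = (fun V => θ' V (pr hmin hnab V n)) (f.symm (f U)) := rfl
          have hF2 : e n (f r) = (fun V => θ' V (pr hmin hnab V n)) (f.symm (f r)) := rfl
          rw [hF1, hF2, Equiv.symm_apply_apply, Equiv.symm_apply_apply] at hF
          simp only at hF
          have h5 : pr hmin hnab r n = π r d := (hd r hrS).symm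
          rw [h5, hθ'D] at hF
          have h6 : θ (rep r) (π (rep r) d) = θ (rep U) (π (rep U) d) :=
            congrArg (fun W => θ W (π W d)) hrr
          rw [h6, ← hθ'D] at hF
          exact (θ' U).injective hF
        have h1 : n * (d : N)⁻¹ = 1 := by
          apply pr_sep hmin hnab _ _ U₀
          intro U
          rw [map_mul, map_inv, hkey U]
          show π U d * (π U d)⁻¹ = 1
          rw [mul_inv_cancel]
        have h2 : n = d := mul_inv_eq_one.1 h1
        rw [h2]
        exact d.2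

end main

/-- The core of the O'Nan–Scott Theorem. Let `H` be a primitive permutation group on a finite set whose unique minimal normal subgroup `N` is non-abelian, and `K` a point stabiliser. Then there are a non-abelian simple group `T` and an isomorphism `N ≃* T^m` (`m ≥ 1`) under which `K ⊓ N` becomes either a product `∏ K_i` of proper subgroups `K_i < T`, or the set of functions constant on each block of a partition of the index set into blocks of one common size `k ≥ 2`. -/
theorem result {α : Type*} [Finite α] (H : Subgroup (Equiv.Perm α)) [MulAction.IsPreprimitive H α] (N : Subgroup H) [N.Normal] (hN : N ≠ ⊥) (hmin : ∀ M : Subgroup H, M.Normal → M ≤ N → M = ⊥ ∨ M = N) (huniq : ∀ L : Subgroup H, L.Normal → L ≠ ⊥ → (∀ M : Subgroup H, M.Normal → M ≤ L → M = ⊥ ∨ M = L) → L = N) (hnab : ¬ IsMulCommutative N) (a : α) : ∃ (T : Type) (_ : Group T) (m : ℕ) (e : N ≃* (Fin m → T)), IsSimpleGroup T ∧ ¬ IsMulCommutative T ∧ 0 < m ∧ ((∃ K : Fin m → Subgroup T, (∀ i, K i ≠ ⊤) ∧ ∀ n :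 N, (n : H) ∈ MulAction.stabilizer H a ↔ ∀ i, e n i ∈ K i) ∨ (∃ (k : ℕ) (c : Fin m → Fin m), 2 ≤ k ∧ (∀ j : Fin m, Nat.card {i : Fin m // c i = j} = k ∨ Nat.card {i : Fin m // c i = j} = 0) ∧ ∀ n : N, (n : H) ∈ MulAction.stabilizer H a ↔ ∀ i j : Fin m, c i = c j → e n i = e n j)) := by
  classical
  have hnt : Nontrivial α := by
    by_contra hcon
    rw [not_nontrivial_iff_subsingleton] at hcon
    apply hN
    rw [eq_bot_iff]
    intro x _
    have : x = 1 := by
      apply Subtype.ext
      exact Subsingleton.elim (α := Equiv.Perm α) _ _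
    rw [this]
    exact Subgroup.one_mem _
  have hco : IsCoatom (MulAction.stabilizer H a) :=
    (MulAction.isCoatom_stabilizer_iff_preprimitive (G := H) (X := α) a).mpr inferInstance
  -- `N` is not inside the stabiliser
  have hne : ∃ n ∈ N, n ∉ MulAction.stabilizer H a := by
    by_contra hcon
    push Not at hcon
    apply hN
    rw [eq_bot_iff]
    intro x hx
    rw [Subgroup.mem_bot]
    apply Subtype.ext
    ext y
    -- transitivity
    obtain ⟨g, hg⟩ := MulAction.exists_smul_eq H a y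
    have h1 : g⁻¹ * x * g ∈ N := by
      have := ‹N.Normal›.conj_mem x hx g⁻¹
      simpa using this
    have h2 := hcon _ h1
    rw [MulAction.mem_stabilizer_iff, mul_smul, mul_smul, hg] at h2
    have h3 : x • y = y := by
      have h4 := congrArg (fun z => g • z) h2
      simp only [smul_inv_smul] at h4
      rw [hg] at h4
      exact h4
    exact h3
  have hsup : MulAction.stabilizer H a ⊔ N = ⊤ := by
    rcases hco.le_iff.mp (le_sup_left : MulAction.stabilizer H a ≤ MulAction.stabilizer H a ⊔ N) with h | h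
    · exact h
    · exfalso
      obtain ⟨n, hn, hnK⟩ := hne
      exact hnK (h ▸ (le_sup_right : N ≤ MulAction.stabilizer H a ⊔ N) hn)
  have hKN : ∀ g : H, ∃ k ∈ MulAction.stabilizer H a, ∃ n ∈ N, g = k * n := by
    intro g
    have : g ∈ MulAction.stabilizer H a ⊔ N := by rw [hsup]; exact Subgroup.mem_top _
    rw [Subgroup.mem_sup_of_normal_right] at this
    obtain ⟨k, hk, n, hn, he⟩ := this
    exact ⟨k, hk, n, hn, he.symm⟩
  refine core hmin hnab (MulAction.stabilizer H a) hKN hne ?_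
  intro X hXN hKX hinv
  refine Cfsg.Agent.S0722.result H N hN hmin a X hXN hKX ?_
  intro k hk
  rw [Subgroup.mem_normalizer_iff]
  intro x
  constructor
  · exact hinv k hk x
  · intro h
    have := hinv k⁻¹ (Subgroup.inv_mem _ hk) _ h
    simpa [mul_assoc] using this

end Cfsg.Agent.S0723
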