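import Mathlib
import Cfsg.Statements.S0724

set_option autoImplicit false
open Cfsg

namespace Cfsg.Agent.S0724

open MulAction
open scoped BigOperators

variable {α : Type*} [Fintype α]

/-- the sum of `fix(g)^k` over the group is divisible by the group order (Burnside's lemma on tuples) -/
lemma dvd_sum_pow (G : Subgroup (Equiv.Perm α)) [Fintype G] (k : ℕ) :
    (Nat.card G : ℤ) ∣ ∑ g : G, (Nat.card (MulAction.fixedBy α (g : Equiv.Perm α)) : ℤ) ^ k := by
  classical
  have hb := MulAction.sum_card_fixedBy_eq_card_orbits_mul_card_group G (Fin k → α)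
  have h2 : ∀ g : G, Fintype.card (MulAction.fixedBy (Fin k → α) g) =
      (Nat.card (MulAction.fixedBy α (g : Equiv.Perm α))) ^ k := by
    intro g
    rw [← Nat.card_eq_fintype_card]
    have e : (MulAction.fixedBy (Fin k → α) g) ≃ (Fin k → MulAction.fixedBy α (g : Equiv.Perm α)) :=
      { toFun := fun t i => ⟨t.1 i, congrFun t.2 i⟩
        invFun := fun t => ⟨fun i => (t i).1, funext fun i => (t i).2⟩
        left_inv := fun t => rfl
        right_inv := fun t => rfl }
    rw [Nat.card_congr e, Nat.card_fun, Nat.card_eq_fintype_card (α := Fin k), Fintype.card_fin]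
  have h3 : (∑ g : G, (Nat.card (MulAction.fixedBy α (g : Equiv.Perm α)) : ℤ) ^ k) =
      ((Fintype.card (orbitRel.Quotient G (Fin k → α)) * Fintype.card G : ℕ) : ℤ) := by
    rw [← hb]
    push_cast
    apply Finset.sum_congr rfl
    intro g _
    rw [h2 g]
    push_cast
    rfl
  rw [h3, Nat.card_eq_fintype_card]
  exact ⟨_, by push_cast; ring⟩

/-- Blichfeldt's Theorem: if a finite set `L` of natural numbers contains the number of fixed points of every non-identity element of a permutation group `G` of degree `n`, then the order of `G` divides `∏ (n - l)` over `l ∈ L`. -/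
theorem result {α : Type*} [Fintype α] [DecidableEq α] (G : Subgroup (Equiv.Perm α)) (L : Finset ℕ) (hL : ∀ g ∈ G, g ≠ 1 → Nat.card (MulAction.fixedBy α g) ∈ L) : Nat.card G ∣ ∏ l ∈ L, (Fintype.card α - l) := by
  classical
  have := Fintype.ofFinite G
  by_cases hbig : ∃ l ∈ L, Fintype.card α ≤ l
  · obtain ⟨l, hl, hln⟩ := hbig
    rw [Finset.prod_eq_zero hl (Nat.sub_eq_zero_of_le hln)]
    exact dvd_zero _
  push Not at hbig
  -- the polynomial
  let P : Polynomial ℤ := ∏ l ∈ L, (Polynomial.X - Polynomial.C (l : ℤ))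
  have hP : ∀ z : ℤ, P.eval z = ∏ l ∈ L, (z - (l : ℤ)) := by
    intro z
    simp [P, Polynomial.eval_prod]
  let f : G → ℤ := fun g => (Nat.card (MulAction.fixedBy α (g : Equiv.Perm α)) : ℤ)
  have hsum : (Nat.card G : ℤ) ∣ ∑ g : G, P.eval (f g) := by
    have : ∑ g : G, P.eval (f g) = ∑ i ∈ Finset.range (P.natDegree + 1), P.coeff i * ∑ g : G, f g ^ i := by
      simp_rw [Polynomial.eval_eq_sum_range, Finset.mul_sum]
      rw [Finset.sum_comm]
    rw [this]
    apply Finset.dvd_sum
    intro i _
    exact Dvd.dvd.mul_left (dvd_sum_pow G i) _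
  have hzero : ∀ g : G, g ≠ 1 → P.eval (f g) = 0 := by
    intro g hg
    rw [hP]
    apply Finset.prod_eq_zero (hL g g.2 (fun h => hg (Subtype.ext h)))
    simp [f]
  have hone : ∑ g : G, P.eval (f g) = P.eval (f 1) := by
    apply Finset.sum_eq_single_of_mem _ (Finset.mem_univ _)
    intro g _ hg
    exact hzero g hg
  have hf1 : f 1 = (Fintype.card α : ℤ) := by
    simp only [f]
    congr 1
    rw [← Nat.card_eq_fintype_card]
    exact Nat.card_congr ⟨fun x => x.1, fun x => ⟨x, by simp [MulAction.mem_fixedBy]⟩, fun x => rfl, fun x => rfl⟩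
  rw [hone, hf1, hP] at hsum
  have hcast : ((∏ l ∈ L, (Fintype.card α - l) : ℕ) : ℤ) = ∏ l ∈ L, ((Fintype.card α : ℤ) - (l : ℤ)) := by
    push_cast
    apply Finset.prod_congr rfl
    intro l hl
    rw [Nat.cast_sub (hbig l hl).le]
  rw [← hcast] at hsum
  exact Int.natCast_dvd_natCast.mp hsum

end Cfsg.Agent.S0724
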