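import Mathlib
import Cfsg.Statements.S0726

set_option autoImplicit false
open Cfsg

namespace Cfsg.Agent.S0726

/-- The left and right regular permutation representations of a group are each other's centralisers in the symmetric group: the centraliser of the left regular image is the right regular image, and a transitive subgroup centralising the left regular image is the whole right regular image. -/
theorem result {G : Type*} [Group G] : Subgroup.centralizer ((MulAction.toPermHom G G).range : Set (Equiv.Perm G)) = (MulAction.toPermHom Gᵐᵒᵖ G).range ∧ ∀ H : Subgroup (Equiv.Perm G), H ≤ Subgroup.centralizer ((MulAction.toPermHom G G).range : Set (Equiv.Perm G)) → MulAction.IsPretransitive H G → H = (MulAction.toPermHom Gᵐᵒᵖ G).range := by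
  have key : Subgroup.centralizer ((MulAction.toPermHom G G).range : Set (Equiv.Perm G)) = (MulAction.toPermHom Gᵐᵒᵖ G).range := by
    ext σ
    constructor
    · intro hσ
      refine ⟨MulOpposite.op (σ 1), ?_⟩
      ext x
      have h1 : (MulAction.toPermHom G G x) ∈ ((MulAction.toPermHom G G).range : Set (Equiv.Perm G)) :=
        ⟨x, rfl⟩
      have h2 := (Subgroup.mem_centralizer_iff.mp hσ) _ h1
      have h3 := congrArg (fun f : Equiv.Perm G => f 1) h2
      simp only [Equiv.Perm.mul_apply, MulAction.toPermHom_apply, MulAction.toPerm_apply, smul_eq_mul, mul_one] at h3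
      simp only [MulAction.toPermHom_apply, MulAction.toPerm_apply, MulOpposite.smul_eq_mul_unop, MulOpposite.unop_op]
      exact h3
    · rintro ⟨y, rfl⟩
      rw [Subgroup.mem_centralizer_iff]
      rintro _ ⟨x, rfl⟩
      ext z
      simp [MulOpposite.smul_eq_mul_unop, mul_assoc]
  refine ⟨key, fun H hH htr => ?_⟩
  rw [key] at hH
  refine le_antisymm hH ?_
  rintro _ ⟨y, rfl⟩
  obtain ⟨⟨h, hh⟩, hy⟩ := MulAction.IsPretransitive.exists_smul_eq (M := H) (1 : G) (y • (1 : G))
  have hhr := hH hh
  obtain ⟨z, rfl⟩ := hhr
  have : z = y := by
    have h1 : (MulAction.toPermHom Gᵐᵒᵖ G z) 1 = y • (1 : G) := hy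
    simp only [MulAction.toPermHom_apply, MulAction.toPerm_apply, MulOpposite.smul_eq_mul_unop, one_mul] at h1
    exact MulOpposite.unop_injective h1
  rw [← this]
  exact hh

end Cfsg.Agent.S0726
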