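import Mathlib
import Cfsg.Statements.S0733

set_option autoImplicit false
open Cfsg

namespace Cfsg.Agent.S0733

open MulAction
open scoped Pointwise

/-- A permutation group of affine type — generated by the translations of a finite vector space `V` over `ZMod p` together with a group `G₀` of linear automorphisms — is primitive on `V` if and only if `G₀` is irreducible on `V`. -/
theorem result {p : ℕ} [Fact p.Prime] {V : Type*} [AddCommGroup V] [Module (ZMod p) V] [Finite V] [Nontrivial V] (G₀ : Subgroup (V ≃ₗ[ZMod p] V)) (G : Subgroup (Equiv.Perm V)) (hG : ∀ σ : Equiv.Perm V, σ ∈ G ↔ ∃ g ∈ G₀, ∃ b : V, ∀ x : V, σ x = (g : V ≃ₗ[ZMod p] V) x + b) : MulAction.IsPreprimitive G V ↔ ∀ W : Submodule (ZMod p) V, (∀ g ∈ G₀, ∀ v ∈ W, (g : V ≃ₗ[ZMod p] V) v ∈ W) → W = ⊥ ∨ W = ⊤ := by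
  classical
  -- translations
  let τ : V → G := fun b => ⟨Equiv.addRight b, (hG _).mpr ⟨1, G₀.one_mem, b, fun x => by simp⟩⟩
  have hτ : ∀ b x : V, τ b • x = x + b := fun b x => rfl
  -- linear maps
  let lin : G₀ → G := fun g => ⟨(g : V ≃ₗ[ZMod p] V).toEquiv, (hG _).mpr ⟨g, g.2, 0, fun x => by simp⟩⟩
  have hlin : ∀ (g : G₀) (x : V), lin g • x = (g : V ≃ₗ[ZMod p] V) x := fun g x => rfl
  have hsmul : ∀ (σ : G) (x : V), σ • x = (σ : Equiv.Perm V) x := fun σ x => rfl
  constructor
  · intro hprim W hW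
    -- `W` is a block
    have hblock : IsBlock G (W : Set V) := by
      rw [isBlock_iff_smul_eq_or_disjoint]
      intro σ
      obtain ⟨g, hg, b, hσ⟩ := (hG _).mp σ.2
      by_cases hd : Disjoint (σ • (W : Set V)) (W : Set V)
      · exact Or.inr hd
      left
      rw [Set.not_disjoint_iff] at hd
      obtain ⟨z, hz1, hz2⟩ := hd
      obtain ⟨y, hy, rfl⟩ := Set.mem_smul_set.mp hz1
      rw [hsmul, hσ] at hz2
      have hb : b ∈ W := by
        have h1 : (g : V ≃ₗ[ZMod p] V) y ∈ W := hW g hg y hy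
        have h2 := W.sub_mem hz2 h1
        simpa using h2
      have hginv : ∀ v ∈ W, (g⁻¹ : V ≃ₗ[ZMod p] V) v ∈ W := fun v hv => hW g⁻¹ (G₀.inv_mem hg) v hv
      ext w
      constructor
      · intro hw
        obtain ⟨v, hv, rfl⟩ := Set.mem_smul_set.mp hw
        rw [hsmul, hσ]
        exact W.add_mem (hW g hg v hv) hb
      · intro hw
        refine Set.mem_smul_set.mpr ⟨(g⁻¹ : V ≃ₗ[ZMod p] V) (w - b), hginv _ (W.sub_mem hw hb), ?_⟩
        rw [hsmul, hσ]
        have : g ((g⁻¹ : V ≃ₗ[ZMod p] V) (w - b)) = w - b := by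
          change (g * g⁻¹) (w - b) = w - b
          rw [mul_inv_cancel]; rfl
        rw [this]
        simp
    rcases hprim.isTrivialBlock_of_isBlock hblock with h | h
    · left
      rw [eq_bot_iff]
      intro v hv
      exact h hv W.zero_mem
    · right
      exact SetLike.coe_injective (by simpa using h)
  · intro hirr
    have htr : IsPretransitive G V := ⟨fun x y => ⟨τ (y - x), by rw [hτ]; abel⟩⟩
    apply IsPreprimitive.of_isTrivialBlock_base (0 : V)
    intro B h0 hB
    -- translation property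
    have hadd : ∀ a ∈ B, ∀ x ∈ B, x + a ∈ B := by
      intro a ha x hx
      have hb1 := isBlock_iff_smul_eq_or_disjoint.mp hB (τ a)
      rcases hb1 with h1 | h1
      · rw [← h1]
        exact Set.mem_smul_set.mpr ⟨x, hx, hτ a x⟩
      · exact absurd ha (Set.disjoint_left.mp h1 (Set.mem_smul_set.mpr ⟨0, h0, by rw [hτ]; simp⟩))
    have hnsmul : ∀ (n : ℕ), ∀ x ∈ B, n • x ∈ B := by
      intro n x hx
      induction n with
      | zero => simpa using h0
      | succ n ih => rw [succ_nsmul]; exact hadd x hx _ ih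
    have hsmulz : ∀ (c : ZMod p), ∀ x ∈ B, c • x ∈ B := by
      intro c x hx
      have : c • x = c.val • x := by
        conv_lhs => rw [← ZMod.natCast_zmod_val c]
        rw [Nat.cast_smul_eq_nsmul]
      rw [this]
      exact hnsmul _ x hx
    let W : Submodule (ZMod p) V :=
      { carrier := B
        add_mem' := fun {a b} ha hb => by rw [add_comm]; exact hadd a ha b hb
        zero_mem' := h0
        smul_mem' := fun c x hx => hsmulz c x hx }
    have hW : ∀ g ∈ G₀, ∀ v ∈ W, (g : V ≃ₗ[ZMod p] V) v ∈ W := by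
      intro g hg v hv
      have hb1 := isBlock_iff_smul_eq_or_disjoint.mp hB (lin ⟨g, hg⟩)
      rcases hb1 with h1 | h1
      · change g v ∈ B
        rw [← h1]
        exact Set.mem_smul_set.mpr ⟨v, hv, hlin ⟨g, hg⟩ v⟩
      · exact absurd h0 (Set.disjoint_left.mp h1 (Set.mem_smul_set.mpr ⟨0, h0, by rw [hlin]; simp⟩))
    rcases hirr W hW with h | h
    · left
      intro x hx y hy
      have h1 : x ∈ W := hx
      have h2 : y ∈ W := hy
      rw [h, Submodule.mem_bot] at h1 h2
      rw [h1, h2]
    · right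
      ext x
      simp only [Set.mem_univ, iff_true]
      have h1 : x ∈ W := by rw [h]; trivial
      exact h1

end Cfsg.Agent.S0733
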