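import Mathlib
import Cfsg.Statements.S0734

set_option autoImplicit false
open Cfsg

namespace Cfsg.Agent.S0734

open MulAction
open scoped Pointwise

/-- Higman's criterion for primitivity: a transitive action on a finite set is primitive if and only if every non-trivial orbital graph (edges = images of a fixed pair of distinct points) is connected. -/
theorem result {G : Type*} [Group G] {Ω : Type*} [Finite Ω] [MulAction G Ω] [MulAction.IsPretransitive G Ω] [Nontrivial Ω] : MulAction.IsPreprimitive G Ω ↔ ∀ a b : Ω, a ≠ b → (SimpleGraph.fromRel fun x y : Ω => ∃ g : G, g • a = x ∧ g • b = y).Connected := by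
  constructor
  · intro hprim a b hab
    -- the orbital graph
    set Γ := SimpleGraph.fromRel fun x y : Ω => ∃ g : G, g • a = x ∧ g • b = y with hΓ
    have hinv : ∀ (g : G) (x y : Ω), Γ.Adj x y → Γ.Adj (g • x) (g • y) := by
      intro g x y hxy
      rw [hΓ, SimpleGraph.fromRel_adj] at hxy ⊢
      obtain ⟨hne, h | h⟩ := hxy
      · obtain ⟨k, rfl, rfl⟩ := h
        exact ⟨fun e => hne (MulAction.injective g e), Or.inl ⟨g * k, mul_smul _ _ _, mul_smul _ _ _⟩⟩
      · obtain ⟨k, rfl, rfl⟩ := h
        exact ⟨fun e => hne (MulAction.injective g e), Or.inr ⟨g * k, mul_smul _ _ _, mul_smul _ _ _⟩⟩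
    have hreach : ∀ (g : G) (x y : Ω), Γ.Reachable x y → Γ.Reachable (g • x) (g • y) := by
      intro g x y h
      obtain ⟨w⟩ := h
      induction w with
      | nil => exact SimpleGraph.Reachable.refl _
      | cons hadj _ ih => exact (hinv g _ _ hadj).reachable.trans ih
    -- the component of `a` is a block
    let B : Set Ω := {x | Γ.Reachable a x}
    have hblock : IsBlock G B := by
      rw [isBlock_iff_smul_eq_or_disjoint]
      intro g
      by_cases hd : Disjoint (g • B) B
      · exact Or.inr hd
      left
      rw [Set.not_disjoint_iff] at hd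
      obtain ⟨z, hz1, hz2⟩ := hd
      obtain ⟨y, hy, rfl⟩ := Set.mem_smul_set.mp hz1
      have hga : Γ.Reachable (g • a) a := (hreach g a y hy).trans hz2.symm
      ext w
      constructor
      · rintro hw
        obtain ⟨v, hv, rfl⟩ := Set.mem_smul_set.mp hw
        exact hga.symm.trans (hreach g a v hv)
      · intro hw
        refine Set.mem_smul_set.mpr ⟨g⁻¹ • w, ?_, by simp⟩
        have h1 : Γ.Reachable (g⁻¹ • (g • a)) (g⁻¹ • w) := hreach g⁻¹ _ _ (hga.trans hw)
        rw [inv_smul_smul] at h1
        exact h1
    have hab' : Γ.Adj a b := by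
      rw [hΓ, SimpleGraph.fromRel_adj]
      exact ⟨hab, Or.inl ⟨1, by simp, by simp⟩⟩
    have htriv := hprim.isTrivialBlock_of_isBlock hblock
    have huniv : B = Set.univ := by
      rcases htriv with h | h
      · exact absurd (h (SimpleGraph.Reachable.refl _) hab'.reachable) hab
      · exact h
    have hconn : Γ.Preconnected := by
      intro x y
      have hx : x ∈ B := huniv ▸ Set.mem_univ x
      have hy : y ∈ B := huniv ▸ Set.mem_univ y
      exact SimpleGraph.Reachable.trans (SimpleGraph.Reachable.symm hx) hy
    exact (SimpleGraph.connected_iff _).mpr ⟨hconn, ⟨a⟩⟩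
  · intro hconn
    refine { isTrivialBlock_of_isBlock := ?_ }
    intro B hB
    by_cases hsub : B.Subsingleton
    · exact Or.inl hsub
    right
    rw [Set.not_subsingleton_iff] at hsub
    obtain ⟨a, ha, b, hb, hab⟩ := hsub
    -- every edge meeting `B` stays in `B`
    have hstep : ∀ x y : Ω, (SimpleGraph.fromRel fun x y : Ω => ∃ g : G, g • a = x ∧ g • b = y).Adj x y →
        x ∈ B → y ∈ B := by
      intro x y hxy hx
      rw [SimpleGraph.fromRel_adj] at hxy
      obtain ⟨-, h | h⟩ := hxy
      · obtain ⟨g, rfl, rfl⟩ := h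
        have hb1 := isBlock_iff_smul_eq_or_disjoint.mp hB g
        rcases hb1 with h1 | h1
        · rw [← h1]; exact Set.smul_mem_smul_set hb
        · exact absurd hx (Set.disjoint_left.mp h1 (Set.smul_mem_smul_set ha))
      · obtain ⟨g, rfl, rfl⟩ := h
        have hb1 := isBlock_iff_smul_eq_or_disjoint.mp hB g
        rcases hb1 with h1 | h1
        · rw [← h1]; exact Set.smul_mem_smul_set ha
        · exact absurd hx (Set.disjoint_left.mp h1 (Set.smul_mem_smul_set hb))
    ext z
    simp only [Set.mem_univ, iff_true]
    obtain ⟨w⟩ := (hconn a b hab).preconnected a z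
    have : ∀ {u v : Ω} (w : (SimpleGraph.fromRel fun x y : Ω => ∃ g : G, g • a = x ∧ g • b = y).Walk u v), u ∈ B → v ∈ B := by
      intro u v w
      induction w with
      | nil => exact id
      | cons hadj _ ih => exact fun hu => ih (hstep _ _ hadj hu)
    exact this w ha

end Cfsg.Agent.S0734
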