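import Mathlib
import Cfsg.Statements.S0735
import Cfsg.Agent.Lib.Homog

set_option autoImplicit false
open Cfsg

namespace Cfsg.Agent.S0735

open MulAction
open scoped Pointwise

variable {α : Type*} [Fintype α] [DecidableEq α]

lemma pair_image {G : Type*} [Group G] [MulAction G α] {h : G} {a b c d : α}
    (hg : ({a, b} : Finset α).image (fun x => h • x) = {c, d}) (hab : a ≠ b) (hcd : c ≠ d) :
    (h • a = c ∧ h • b = d) ∨ (h • a = d ∧ h • b = c) := by
  have h1 : h • a ∈ ({c, d} : Finset α) := by
    rw [← hg]; exact Finset.mem_image_of_mem _ (by simp)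
  have h2 : h • b ∈ ({c, d} : Finset α) := by
    rw [← hg]; exact Finset.mem_image_of_mem _ (by simp)
  simp only [Finset.mem_insert, Finset.mem_singleton] at h1 h2
  have hne : h • a ≠ h • b := fun e => hab (MulAction.injective h e)
  rcases h1 with h1 | h1 <;> rcases h2 with h2 | h2
  · exact absurd (h1.trans h2.symm) hne
  · exact Or.inl ⟨h1, h2⟩
  · exact Or.inr ⟨h1, h2⟩
  · exact absurd (h1.trans h2.symm) hne

/-- A 2-homogeneous permutation group (transitive on 2-subsets) of even order is doubly transitive; a non-trivial 2-homogeneous group is primitive. -/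
theorem result {α : Type*} [Fintype α] [DecidableEq α] (G : Subgroup (Equiv.Perm α)) (h2 : MulAction.IsPretransitive G (Set.powersetCard α 2)) (hα : 3 ≤ Fintype.card α) : (Even (Nat.card G) → MulAction.IsMultiplyPretransitive G α 2) ∧ (G ≠ ⊥ → MulAction.IsPreprimitive G α) := by
  have hex : ∀ a b c d : α, a ≠ b → c ≠ d →
      ∃ g : G, (g • a = c ∧ g • b = d) ∨ (g • a = d ∧ g • b = c) := by
    intro a b c d hab hcd
    obtain ⟨g, hg⟩ := Lib.Homog.exists_image_eq h2 (s := {a, b}) (t := {c, d})
      (Finset.card_pair hab) (Finset.card_pair hcd)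
    exact ⟨g, pair_image hg hab hcd⟩
  have hthird : ∀ a b : α, ∃ c, c ≠ a ∧ c ≠ b := by
    intro a b
    by_contra hcon
    push Not at hcon
    have hsub : (Finset.univ : Finset α) ⊆ {a, b} := by
      intro x _
      by_cases h : x = a
      · simp [h]
      · simp [hcon x h]
    have := Finset.card_le_card hsub
    have h3 : ({a, b} : Finset α).card ≤ 2 := Finset.card_le_two
    rw [Finset.card_univ] at this
    omega
  constructor
  · intro hev
    -- an involution
    obtain ⟨t, ht⟩ := exists_prime_orderOf_dvd_card' (G := G) 2 (by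
      exact even_iff_two_dvd.mp hev)
    have ht1 : (t : Equiv.Perm α) ≠ 1 := by
      intro h
      have : t = 1 := Subtype.ext h
      rw [this, orderOf_one] at ht
      norm_num at ht
    obtain ⟨a, ha⟩ : ∃ a, (t : Equiv.Perm α) a ≠ a := by
      by_contra hcon
      push Not at hcon
      exact ht1 (Equiv.ext hcon)
    have htt : t * t = 1 := by
      rw [← pow_two, ← ht, pow_orderOf_eq_one]
    have htb : t • (t • a) = a := by
      rw [← mul_smul, htt, one_smul]
    -- every pair can be swapped
    have hswap : ∀ c d : α, c ≠ d → ∃ g : G, g • c = d ∧ g • d = c := by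
      intro c d hcd
      have hab : a ≠ t • a := fun e => ha e.symm
      obtain ⟨g, hg⟩ := hex a (t • a) c d hab hcd
      refine ⟨g * t * g⁻¹, ?_⟩
      rcases hg with ⟨h1, h2⟩ | ⟨h1, h2⟩
      · rw [← h1, ← h2]
        simp [mul_smul, htb]
      · rw [← h1, ← h2]
        simp [mul_smul, htb]
    rw [is_two_pretransitive_iff]
    intro a' b' c' d' hab' hcd'
    obtain ⟨g, hg⟩ := hex a' b' c' d' hab' hcd'
    rcases hg with hg | ⟨h1, h2⟩
    · exact ⟨g, hg⟩
    · obtain ⟨k, hk1, hk2⟩ := hswap c' d' hcd'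
      exact ⟨k * g, by rw [mul_smul, h1, hk2], by rw [mul_smul, h2, hk1]⟩
  · intro _
    have htr : IsPretransitive G α := by
      refine ⟨fun a b => ?_⟩
      by_cases hab : a = b
      · exact ⟨1, by simp [hab]⟩
      obtain ⟨c, hca, hcb⟩ := hthird a b
      obtain ⟨g, hg⟩ := hex a c b c (Ne.symm hca) (Ne.symm hcb)
      rcases hg with ⟨h1, _⟩ | ⟨h1, h2⟩
      · exact ⟨g, h1⟩
      · exact ⟨g * g, by rw [mul_smul, h1, h2]⟩
    refine { htr with isTrivialBlock_of_isBlock := ?_ }
    intro B hB
    by_cases hsub : B.Subsingleton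
    · exact Or.inl hsub
    right
    rw [Set.not_subsingleton_iff] at hsub
    obtain ⟨a, ha, b, hb, hab⟩ := hsub
    by_contra hne
    obtain ⟨c, hc⟩ := (Set.ne_univ_iff_exists_notMem B).mp hne
    have hac : a ≠ c := fun e => hc (e ▸ ha)
    obtain ⟨g, hg⟩ := hex a b a c hab hac
    have hblock := isBlock_iff_smul_eq_or_disjoint.mp hB g
    have key : g • B = B := by
      rcases hblock with h | h
      · exact h
      · exfalso
        rcases hg with ⟨h1, _⟩ | ⟨_, h2⟩
        · exact Set.disjoint_left.mp h (Set.mem_smul_set.mpr ⟨a, ha, h1⟩) ha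
        · exact Set.disjoint_left.mp h (Set.mem_smul_set.mpr ⟨b, hb, h2⟩) ha
    apply hc
    rw [← key]
    rcases hg with ⟨_, h2⟩ | ⟨h1, _⟩
    · exact Set.mem_smul_set.mpr ⟨b, hb, h2⟩
    · exact Set.mem_smul_set.mpr ⟨a, ha, h1⟩

end Cfsg.Agent.S0735
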