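import Mathlib
import Cfsg.Statements.S0736
import Cfsg.Agent.Lib.Homog

set_option autoImplicit false
set_option linter.style.haveILetI false
set_option linter.unusedSectionVars false
open Cfsg

namespace Cfsg.Agent.S0736

open MulAction

lemma choose_mod (p : ℕ) [hp : Fact p.Prime] (e k' : ℕ) :
    Nat.choose (p ^ e * k' + p ^ e - 1) (p ^ e * k') ≡ 1 [MOD p] := by
  induction e with
  | zero => simp [Nat.ModEq]
  | succ e ih =>
    have hppos : 0 < p := hp.out.pos
    have hpe : 0 < p ^ e := pow_pos hppos e
    set a := p ^ e * k' + p ^ e - 1 with ha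
    have ha1 : a + 1 = p ^ e * k' + p ^ e := by omega
    have h1 : p ^ (e + 1) * k' + p ^ (e + 1) - 1 = p * a + (p - 1) := by
      have : p ^ (e + 1) * k' + p ^ (e + 1) = p * (a + 1) := by rw [ha1]; ring
      rw [this, Nat.mul_add, mul_one]
      omega
    have h2 : p ^ (e + 1) * k' = p * (p ^ e * k') := by ring
    rw [h1, h2]
    have h := Choose.choose_modEq_choose_mod_mul_choose_div_nat (n := p * a + (p - 1))
      (k := p * (p ^ e * k')) (p := p)
    have e1 : (p * a + (p - 1)) % p = p - 1 := by
      rw [Nat.mul_add_mod]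
      exact Nat.mod_eq_of_lt (by omega)
    have e2 : (p * (p ^ e * k')) % p = 0 := Nat.mul_mod_right _ _
    have e3 : (p * a + (p - 1)) / p = a := by
      rw [Nat.mul_add_div hppos, Nat.div_eq_of_lt (by omega)]
      simp
    have e4 : (p * (p ^ e * k')) / p = p ^ e * k' := Nat.mul_div_cancel_left _ hppos
    rw [e1, e2, e3, e4, Nat.choose_zero_right, one_mul] at h
    exact h.trans ih

variable {α : Type*} [Fintype α] [DecidableEq α]

/-- A `k`-homogeneous permutation group of degree `n`, `k ≥ 2`, with `k + q - 1 ≤ n` for every prime power `q` dividing `k`, is `(k-1)`-homogeneous. -/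
theorem result {α : Type*} [Fintype α] [DecidableEq α] (G : Subgroup (Equiv.Perm α)) {k : ℕ} (hk : 2 ≤ k) (hG : MulAction.IsPretransitive G (Set.powersetCard α k)) (hq : ∀ q : ℕ, IsPrimePow q → q ∣ k → k + q - 1 ≤ Fintype.card α) : MulAction.IsPretransitive G (Set.powersetCard α (k - 1)) := by
  classical
  obtain ⟨p0, hp0, hp0k⟩ := Nat.exists_prime_and_dvd (show k ≠ 1 by omega)
  have hkn : k + 1 ≤ Fintype.card α := by
    have := hq p0 hp0.isPrimePow hp0k
    have := hp0.two_le
    omega
  obtain ⟨A0, -, hA0⟩ := Finset.exists_subset_card_eq (s := (Finset.univ : Finset α)) (n := k - 1)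
    (by rw [Finset.card_univ]; omega)
  let X : Finset (Finset α) := (Finset.powersetCard (k - 1) Finset.univ).filter
    (fun U => ∃ g : G, A0.image (fun x => g • x) = U)
  have hcardimg : ∀ (g : G) (U : Finset α), (U.image (fun x => g • x)).card = U.card := fun g U =>
    Finset.card_image_of_injective _ (MulAction.injective g)
  have hXmem : ∀ U, U ∈ X ↔ ∃ g : G, A0.image (fun x => g • x) = U := by
    intro U
    simp only [X, Finset.mem_filter, Finset.mem_powersetCard, Finset.subset_univ, true_and]
    constructor
    · exact fun h => h.2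
    · intro h
      obtain ⟨g, rfl⟩ := h
      exact ⟨by rw [hcardimg, hA0], g, rfl⟩
  have hXcard : ∀ U ∈ X, U.card = k - 1 := by
    intro U hU
    obtain ⟨g, rfl⟩ := (hXmem U).mp hU
    rw [hcardimg, hA0]
  have himgimg : ∀ (g h : G) (U : Finset α), (U.image (fun x => h • x)).image (fun x => g • x) =
      U.image (fun x => (g * h) • x) := by
    intro g h U
    rw [Finset.image_image]
    apply Finset.image_congr
    intro x _
    simp [mul_smul]
  have hXinv : ∀ (g : G), ∀ U ∈ X, U.image (fun x => g • x) ∈ X := by
    intro g U hU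
    obtain ⟨h, rfl⟩ := (hXmem U).mp hU
    rw [hXmem]
    exact ⟨g * h, (himgimg g h A0).symm⟩
  let cnt : Finset α → ℕ := fun T => (X.filter (fun U => U ⊆ T)).card
  have hcntle : ∀ T T' : Finset α, T.card = k → T'.card = k → cnt T ≤ cnt T' := by
    intro T T' hT hT'
    obtain ⟨g, hg⟩ := Lib.Homog.exists_image_eq hG hT hT'
    apply Finset.card_le_card_of_injOn (fun U => U.image (fun x => g • x))
    · intro U hU
      have hU' := Finset.mem_filter.mp hU
      refine Finset.mem_filter.mpr ⟨hXinv g U hU'.1, ?_⟩
      rw [← hg]
      exact Finset.image_subset_image hU'.2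
    · intro U _ V _ hUV
      exact Finset.image_injective (MulAction.injective g) hUV
  have hcnt : ∀ T T' : Finset α, T.card = k → T'.card = k → cnt T = cnt T' := fun T T' hT hT' =>
    le_antisymm (hcntle T T' hT hT') (hcntle T' T hT' hT)
  -- a base `k`-set
  obtain ⟨z, hz⟩ : ∃ z, z ∉ A0 := by
    by_contra hcon
    push Not at hcon
    have : A0 = Finset.univ := Finset.eq_univ_iff_forall.mpr hcon
    rw [this, Finset.card_univ] at hA0
    omega
  let T0 : Finset α := insert z A0
  have hT0 : T0.card = k := by
    rw [Finset.card_insert_of_notMem hz, hA0]; omega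
  set c := cnt T0 with hc
  have hcpos : 0 < c := by
    apply Finset.card_pos.mpr
    refine ⟨A0, Finset.mem_filter.mpr ⟨(hXmem A0).mpr ⟨1, ?_⟩, Finset.subset_insert _ _⟩⟩
    simp
  have hcT : ∀ T : Finset α, T.card = k → cnt T = c := fun T hT => hcnt T T0 hT hT0
  -- the divisibility
  have hqdvd : ∀ (p e : ℕ), p.Prime → p ^ e ∣ k → 0 < e → p ^ e ∣ c := by
    intro p e hp hpk he
    haveI : Fact p.Prime := ⟨hp⟩
    set q := p ^ e with hqdef
    have hqpos : 0 < q := pow_pos hp.pos e
    have hqk := hq q (by
      exact (isPrimePow_nat_iff _).mpr ⟨p, e, hp, he, rfl⟩) hpk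
    obtain ⟨S, -, hS⟩ := Finset.exists_subset_card_eq (s := (Finset.univ : Finset α))
      (n := k + q - 1) (by rw [Finset.card_univ]; exact hqk)
    let s := Finset.powersetCard k S
    let t := X.filter (fun U => U ⊆ S)
    have hdc := Finset.sum_card_bipartiteAbove_eq_sum_card_bipartiteBelow
      (s := s) (t := t) (fun (T U : Finset α) => U ⊆ T)
    have hleft : ∀ T ∈ s, (Finset.bipartiteAbove (fun (T U : Finset α) => U ⊆ T) t T).card = c := by
      intro T hT
      have hT' := Finset.mem_powersetCard.mp hT
      rw [← hcT T hT'.2]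
      apply congrArg Finset.card
      ext U
      simp only [Finset.bipartiteAbove, t, Finset.mem_filter]
      constructor
      · rintro ⟨⟨h1, _⟩, h3⟩
        exact ⟨h1, h3⟩
      · rintro ⟨h1, h3⟩
        exact ⟨⟨h1, h3.trans hT'.1⟩, h3⟩
    have hright : ∀ U ∈ t, (Finset.bipartiteBelow (fun (T U : Finset α) => U ⊆ T) s U).card = q := by
      intro U hU
      have hU' := Finset.mem_filter.mp hU
      have hUcard := hXcard U hU'.1
      have hbelow : Finset.bipartiteBelow (fun (T U : Finset α) => U ⊆ T) s U =
          (S \ U).image (fun w => insert w U) := by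
        ext T
        simp only [Finset.bipartiteBelow, s, Finset.mem_filter, Finset.mem_powersetCard,
          Finset.mem_image, Finset.mem_sdiff]
        constructor
        · rintro ⟨⟨h1, h2⟩, h3⟩
          have h4 : (T \ U).card = 1 := by
            rw [Finset.card_sdiff_of_subset h3, h2, hUcard]; omega
          obtain ⟨w, hw⟩ := Finset.card_eq_one.mp h4
          have hwT : w ∈ T \ U := by rw [hw]; simp
          rw [Finset.mem_sdiff] at hwT
          refine ⟨w, ⟨h1 hwT.1, hwT.2⟩, ?_⟩
          ext y
          rw [Finset.mem_insert]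
          constructor
          · rintro (rfl | hy)
            · exact hwT.1
            · exact h3 hy
          · intro hy
            by_cases hyU : y ∈ U
            · exact Or.inr hyU
            · left
              have : y ∈ T \ U := Finset.mem_sdiff.mpr ⟨hy, hyU⟩
              rw [hw] at this
              simpa using this
        · rintro ⟨w, ⟨hw1, hw2⟩, rfl⟩
          refine ⟨⟨?_, ?_⟩, Finset.subset_insert _ _⟩
          · intro y hy
            rw [Finset.mem_insert] at hy
            rcases hy with rfl | hy
            · exact hw1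
            · exact hU'.2 hy
          · rw [Finset.card_insert_of_notMem hw2, hUcard]; omega
      rw [hbelow, Finset.card_image_of_injOn]
      · rw [Finset.card_sdiff_of_subset hU'.2, hS, hUcard]; omega
      · intro w hw w' hw' h
        simp only [Finset.coe_sdiff, Set.mem_diff, Finset.mem_coe] at hw hw'
        have h1 : w ∈ insert w' U := by
          have : w ∈ insert w U := Finset.mem_insert_self _ _
          rw [show insert w U = insert w' U from h] at this
          exact this
        rw [Finset.mem_insert] at h1
        rcases h1 with h1 | h1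
        · exact h1
        · exact absurd h1 hw.2
    rw [Finset.sum_congr rfl hleft, Finset.sum_congr rfl hright, Finset.sum_const, Finset.sum_const,
      smul_eq_mul, smul_eq_mul] at hdc
    have hscard : s.card = Nat.choose (k + q - 1) k := by
      simp only [s]
      rw [Finset.card_powersetCard, hS]
    rw [hscard] at hdc
    -- coprimality
    obtain ⟨k', hk'⟩ := hpk
    have hchoose := choose_mod p e k'
    rw [← hqdef, ← hk', add_comm] at hchoose
    have hchoose2 : Nat.choose (k + q - 1) k ≡ 1 [MOD p] := by
      rw [add_comm k q]; exact hchoose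
    have hcop : Nat.Coprime q (Nat.choose (k + q - 1) k) := by
      apply Nat.Coprime.pow_left
      rw [hp.coprime_iff_not_dvd]
      intro hdvd
      have h1 : Nat.choose (k + q - 1) k % p = 0 := Nat.mod_eq_zero_of_dvd hdvd
      have h2 : 1 % p = 0 := by
        rw [← (show Nat.choose (k + q - 1) k % p = 1 % p from hchoose2)]; exact h1
      have h3 : p ∣ 1 := Nat.dvd_of_mod_eq_zero h2
      exact hp.one_lt.ne' (Nat.dvd_one.mp h3)
    have h5 : q ∣ Nat.choose (k + q - 1) k * c := ⟨t.card, by rw [hdc]; ring⟩
    exact hcop.dvd_of_dvd_mul_left h5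
  -- `k` divides `c`
  have hkc : k ∣ c := by
    rw [← Nat.factorization_prime_le_iff_dvd (by omega) hcpos.ne']
    intro p hp
    by_cases hpk : p ∣ k
    · have hv : 0 < k.factorization p := hp.factorization_pos_of_dvd (by omega) hpk
      have h1 := hqdvd p (k.factorization p) hp (Nat.ordProj_dvd k p) hv
      exact (hp.pow_dvd_iff_le_factorization hcpos.ne').mp h1
    · rw [Nat.factorization_eq_zero_of_not_dvd hpk]
      exact Nat.zero_le _
  -- every `k - 1` subset lies in `X`
  have hchoose : k.choose (k - 1) = k := by
    obtain ⟨m, rfl⟩ := Nat.exists_eq_succ_of_ne_zero (show k ≠ 0 by omega)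
    simpa using Nat.choose_succ_self_right m
  have hfull : ∀ T : Finset α, T.card = k → X.filter (fun U => U ⊆ T) = Finset.powersetCard (k - 1) T := by
    intro T hT
    have h1 : X.filter (fun U => U ⊆ T) ⊆ Finset.powersetCard (k - 1) T := by
      intro U hU
      have hU' := Finset.mem_filter.mp hU
      exact Finset.mem_powersetCard.mpr ⟨hU'.2, hXcard U hU'.1⟩
    have h2 := Finset.card_le_card h1
    rw [Finset.card_powersetCard, hT, hchoose] at h2
    have h3 : c = k := by
      apply le_antisymm
      · rw [← hcT T hT]; exact h2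
      · exact Nat.le_of_dvd hcpos hkc
    apply Finset.eq_of_subset_of_card_le h1
    rw [Finset.card_powersetCard, hT, hchoose]
    have h4 := hcT T hT
    rw [h3] at h4
    exact h4.ge
  have hall : ∀ U : Finset α, U.card = k - 1 → U ∈ X := by
    intro U hU
    obtain ⟨w, hw⟩ : ∃ w, w ∉ U := by
      by_contra hcon
      push Not at hcon
      have : U = Finset.univ := Finset.eq_univ_iff_forall.mpr hcon
      rw [this, Finset.card_univ] at hU
      omega
    have hT : (insert w U).card = k := by
      rw [Finset.card_insert_of_notMem hw, hU]; omega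
    have h5 : U ∈ Finset.powersetCard (k - 1) (insert w U) :=
      Finset.mem_powersetCard.mpr ⟨Finset.subset_insert _ _, hU⟩
    rw [← hfull _ hT] at h5
    exact (Finset.mem_filter.mp h5).1
  apply Lib.Homog.of_exists_image_eq
  intro U V hU hV
  obtain ⟨g, hg⟩ := (hXmem U).mp (hall U hU)
  obtain ⟨h, hh⟩ := (hXmem V).mp (hall V hV)
  refine ⟨h * g⁻¹, ?_⟩
  rw [← hg, himgimg, ← hh]
  simp

end Cfsg.Agent.S0736
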