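import Mathlib
import Cfsg.Statements.S0743
import Cfsg.Agent.Lib.MultiTrans

set_option autoImplicit false
set_option linter.style.haveILetI false
open Cfsg

namespace Cfsg.Agent.S0743

open MulAction

variable {α : Type*} [Fintype α] [DecidableEq α]

/-- A `p`-group acting on an invariant finite set: size congruent to the number of fixed points. -/
lemma card_mod {P : Type*} [Group P] [MulAction P α] {p : ℕ} [Fact p.Prime] (hP : IsPGroup p P)
    [DecidablePred (fun z => z ∈ fixedPoints P α)] (O : Finset α) (hO : ∀ g : P, ∀ x ∈ O, g • x ∈ O) :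
    O.card ≡ (O.filter (fun z => z ∈ fixedPoints P α)).card [MOD p] := by
  classical
  let O' : SubMulAction P α :=
    { carrier := (O : Set α)
      smul_mem' := fun g x hx => hO g x hx }
  have h := hP.card_modEq_card_fixedPoints O'
  have h1 : Nat.card O' = O.card := by
    have : Nat.card O' = Nat.card (O : Set α) := rfl
    rw [this, Nat.card_eq_fintype_card]
    simp
  have h2 : Nat.card (fixedPoints P O') = (O.filter (fun z => z ∈ fixedPoints P α)).card := by
    let e : fixedPoints P O' ≃ (O.filter (fun z => z ∈ fixedPoints P α) : Finset α) :=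
      { toFun := fun z => ⟨z.1.1, Finset.mem_filter.mpr ⟨z.1.2, fun g => by
            have := z.2 g
            exact congrArg Subtype.val this⟩⟩
        invFun := fun z => ⟨⟨z.1, (Finset.mem_filter.mp z.2).1⟩, fun g => by
            apply Subtype.ext
            exact (Finset.mem_filter.mp z.2).2 g⟩
        left_inv := fun z => rfl
        right_inv := fun z => rfl }
    rw [Nat.card_congr e, Nat.card_eq_fintype_card, Fintype.card_coe]
  rwa [h1, h2] at h

lemma claim (G : Subgroup (Equiv.Perm α)) {p k : ℕ} (hp : p.Prime) (hkn : k < Fintype.card α)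
    (h : ∀ s : Finset α, s.card = k → ∃ P : Subgroup G, IsPGroup p P ∧
      MulAction.fixedPoints P α = (s : Set α))
    (S : Finset α) (hS : S.card < k) (x y : α) (hx : x ∉ S) (hy : y ∉ S) :
    ∃ g : G, (∀ s ∈ S, g • s = s) ∧ g • x = y := by
  classical
  haveI : Fact p.Prime := ⟨hp⟩
  by_cases hxy : x = y
  · exact ⟨1, fun s _ => one_smul _ _, by simp [hxy]⟩
  by_contra hcon
  push Not at hcon
  -- the set `T`
  let U : Finset α := Finset.univ \ (S ∪ {x, y})
  have hU : k - S.card - 1 ≤ U.card := by
    have h1 : U.card = Fintype.card α - (S ∪ {x, y}).card := by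
      rw [Finset.card_sdiff_of_subset (Finset.subset_univ _), Finset.card_univ]
    have h2 : (S ∪ {x, y}).card = S.card + 2 := by
      rw [Finset.card_union_of_disjoint, Finset.card_pair hxy]
      rw [Finset.disjoint_left]
      intro z hz hz'
      simp only [Finset.mem_insert, Finset.mem_singleton] at hz'
      rcases hz' with rfl | rfl
      · exact hx hz
      · exact hy hz
    omega
  obtain ⟨T, hTU, hTcard⟩ := Finset.exists_subset_card_eq hU
  have hTmem : ∀ z ∈ T, z ∉ S ∧ z ≠ x ∧ z ≠ y := by
    intro z hz
    have := hTU hz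
    simp only [U, Finset.mem_sdiff, Finset.mem_univ, true_and, Finset.mem_union, Finset.mem_insert,
      Finset.mem_singleton, not_or] at this
    exact this
  have hdisj : Disjoint S T := by
    rw [Finset.disjoint_right]
    intro z hz
    exact (hTmem z hz).1
  have hSTcard : (S ∪ T).card = k - 1 := by
    rw [Finset.card_union_of_disjoint hdisj, hTcard]
    omega
  have hxST : x ∉ S ∪ T := by
    simp only [Finset.mem_union, not_or]
    exact ⟨hx, fun hz => (hTmem x hz).2.1 rfl⟩
  have hyST : y ∉ S ∪ T := by
    simp only [Finset.mem_union, not_or]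
    exact ⟨hy, fun hz => (hTmem y hz).2.2 rfl⟩
  obtain ⟨P, hP, hfP⟩ := h (insert x (S ∪ T)) (by rw [Finset.card_insert_of_notMem hxST, hSTcard]; omega)
  obtain ⟨P', hP', hfP'⟩ := h (insert y (S ∪ T)) (by rw [Finset.card_insert_of_notMem hyST, hSTcard]; omega)
  -- the orbit
  let O : Finset α := Finset.univ.filter (fun z => ∃ g : G, (∀ s ∈ S, g • s = s) ∧ g • x = z)
  have hxO : x ∈ O := by
    simp only [O, Finset.mem_filter, Finset.mem_univ, true_and]
    exact ⟨1, fun s _ => one_smul _ _, one_smul _ _⟩
  have hyO : y ∉ O := by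
    simp only [O, Finset.mem_filter, Finset.mem_univ, true_and, not_exists, not_and]
    exact hcon
  have hinv : ∀ (Q : Subgroup G) (u : α), (MulAction.fixedPoints Q α = ((insert u (S ∪ T) : Finset α) : Set α)) →
      ∀ g : Q, ∀ z ∈ O, g • z ∈ O := by
    intro Q u hQ g z hz
    simp only [O, Finset.mem_filter, Finset.mem_univ, true_and] at hz ⊢
    obtain ⟨k', hk1, hk2⟩ := hz
    refine ⟨(g : G) * k', fun s hs => ?_, ?_⟩
    · rw [mul_smul, hk1 s hs]
      have hmem : s ∈ MulAction.fixedPoints Q α := by
        rw [hQ]; simp [hs]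
      exact hmem g
    · rw [mul_smul, hk2]
      rfl
  have h1 := card_mod hP O (hinv P x hfP)
  have h2 := card_mod hP' O (hinv P' y hfP')
  have e1 : O.filter (fun z => z ∈ fixedPoints P α) = insert x (O.filter (fun z => z ∈ S ∪ T)) := by
    ext z
    simp only [Finset.mem_filter, Finset.mem_insert]
    rw [hfP]
    simp only [Finset.mem_coe, Finset.mem_insert]
    constructor
    · rintro ⟨h3, rfl | h4⟩
      · exact Or.inl rfl
      · exact Or.inr ⟨h3, h4⟩
    · rintro (rfl | ⟨h3, h4⟩)
      · exact ⟨hxO, Or.inl rfl⟩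
      · exact ⟨h3, Or.inr h4⟩
  have e2 : O.filter (fun z => z ∈ fixedPoints P' α) = O.filter (fun z => z ∈ S ∪ T) := by
    ext z
    simp only [Finset.mem_filter]
    rw [hfP']
    simp only [Finset.mem_coe, Finset.mem_insert]
    constructor
    · rintro ⟨h3, rfl | h4⟩
      · exact absurd h3 hyO
      · exact ⟨h3, h4⟩
    · rintro ⟨h3, h4⟩
      exact ⟨h3, Or.inr h4⟩
  rw [e1, Finset.card_insert_of_notMem (fun hh => hxST (Finset.mem_filter.mp hh).2)] at h1
  rw [e2] at h2
  have h3 := h1.symm.trans h2
  have h4 : (O.filter (fun z => z ∈ S ∪ T)).card + 1 ≡ (O.filter (fun z => z ∈ S ∪ T)).card + 0 [MOD p] := h3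
  have h5 := Nat.ModEq.add_left_cancel' _ h4
  have h6 : p ∣ 1 := (Nat.modEq_zero_iff_dvd).mp h5
  exact hp.one_lt.ne' (Nat.dvd_one.mp h6)

/-- Gleason's Lemma: let `p` be a prime and `1 ≤ k < n`; if every `k`-subset of the `n` points is exactly the fixed-point set of some `p`-subgroup of `G`, then `G` is `k`-transitive. -/
theorem result {α : Type*} [Fintype α] [DecidableEq α] (G : Subgroup (Equiv.Perm α)) {p k : ℕ} (hp : p.Prime) (hk : 1 ≤ k) (hkn : k < Fintype.card α) (h : ∀ s : Finset α, s.card = k → ∃ P : Subgroup G, IsPGroup p P ∧ MulAction.fixedPoints P α = (s : Set α)) : MulAction.IsMultiplyPretransitive G α k := by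
  have hstep : ∀ j, j ≤ k → IsMultiplyPretransitive G α j := by
    intro j
    induction j with
    | zero => intro _; exact is_zero_pretransitive' (G := G) (α := α)
    | succ j ih =>
      intro hj
      have hm := ih (by omega)
      obtain ⟨S, -, hS⟩ := Finset.exists_subset_card_eq (s := (Finset.univ : Finset α)) (n := j)
        (by rw [Finset.card_univ]; omega)
      have hr : IsMultiplyPretransitive (fixingSubgroup G (S : Set α))
          (SubMulAction.ofFixingSubgroup G (S : Set α)) 1 := by
        rw [is_one_pretransitive_iff]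
        refine ⟨fun x y => ?_⟩
        have hx : x.1 ∉ S := fun hh => x.2 hh
        have hy : y.1 ∉ S := fun hh => y.2 hh
        obtain ⟨g, hg1, hg2⟩ := claim G hp hkn h S (by omega) x.1 y.1 hx hy
        refine ⟨⟨g, ?_⟩, Subtype.ext hg2⟩
        rw [mem_fixingSubgroup_iff]
        exact fun s hs => hg1 s hs
      exact Lib.MultiTrans.isMultiplyPretransitive_add (S : Set α) (by rw [Set.ncard_coe_finset, hS]) hm hr
  exact hstep k le_rfl

end Cfsg.Agent.S0743
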