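import Mathlib
import Cfsg.Statements.S0744
import Cfsg.Agent.Lib.MultiTrans

set_option autoImplicit false
set_option linter.style.haveILetI false
set_option linter.unusedSectionVars false
open Cfsg

namespace Cfsg.Agent.S0744

open MulAction

variable {α : Type*} [Fintype α] [DecidableEq α]

/-- An invariant finite set whose orbits all have size `w` has size divisible by `w`. -/
lemma dvd_card_of_inv {K : Type*} [Group K] [MulAction K α] (w : ℕ) :
    ∀ O : Finset α, (∀ g : K, ∀ x ∈ O, g • x ∈ O) →
      (∀ y ∈ O, (orbit K y).ncard = w) → w ∣ O.card := by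
  classical
  intro O
  induction O using Finset.strongInduction with
  | H O ih =>
    intro hinv hw
    by_cases hO : O = ∅
    · simp [hO]
    obtain ⟨y, hy⟩ := Finset.nonempty_iff_ne_empty.mpr hO
    have hsub : (orbit K y).toFinset ⊆ O := by
      intro z hz
      rw [Set.mem_toFinset] at hz
      obtain ⟨g, rfl⟩ := hz
      exact hinv g y hy
    have hcard : (orbit K y).toFinset.card = w := by
      rw [← Set.ncard_eq_toFinset_card', hw y hy]
    have hlt : O \ (orbit K y).toFinset ⊂ O := by
      refine Finset.ssubset_iff_subset_ne.mpr ⟨Finset.sdiff_subset, fun he => ?_⟩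
      have : y ∈ O \ (orbit K y).toFinset := by rw [he]; exact hy
      rw [Finset.mem_sdiff, Set.mem_toFinset] at this
      exact this.2 (mem_orbit_self y)
    have h1 := ih _ hlt (fun g x hx => by
      rw [Finset.mem_sdiff, Set.mem_toFinset] at hx ⊢
      refine ⟨hinv g x hx.1, fun hc => hx.2 ?_⟩
      rw [mem_orbit_iff] at hc ⊢
      obtain ⟨k, hk⟩ := hc
      exact ⟨g⁻¹ * k, by rw [mul_smul, hk, inv_smul_smul]⟩)
      (fun z hz => hw z (Finset.mem_sdiff.mp hz).1)
    have h2 : O.card = (O \ (orbit K y).toFinset).card + w := by
      rw [← hcard, Finset.card_sdiff_add_card_eq_card hsub]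
    rw [h2]
    exact Dvd.dvd.add h1 (dvd_refl _)

variable (G : Subgroup (Equiv.Perm α))

/-- Orbit size of a fixer. -/
lemma orbit_size (s : Finset α) (x : α) (hx : x ∉ s) :
    (orbit (fixingSubgroup G (s : Set α)) x).ncard *
      Nat.card (fixingSubgroup G ((insert x s : Finset α) : Set α)) =
      Nat.card (fixingSubgroup G (s : Set α)) := by
  have h1 := index_stabilizer (fixingSubgroup G (s : Set α)) x
  have h2 := Subgroup.index_mul_card (stabilizer (fixingSubgroup G (s : Set α)) x)
  rw [← h1]
  have h3 : Nat.card (fixingSubgroup G ((insert x s : Finset α) : Set α)) =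
      Nat.card (stabilizer (fixingSubgroup G (s : Set α)) x) := by
    apply Nat.card_congr
    refine ⟨fun g => ⟨⟨g.1, ?_⟩, ?_⟩, fun g => ⟨g.1.1, ?_⟩, fun g => rfl, fun g => rfl⟩
    · rw [mem_fixingSubgroup_iff]
      intro y hy
      exact (mem_fixingSubgroup_iff _).mp g.2 y (by simp [Finset.mem_coe.mp hy])
    · rw [mem_stabilizer_iff]
      exact (mem_fixingSubgroup_iff _).mp g.2 x (by simp)
    · rw [mem_fixingSubgroup_iff]
      intro y hy
      have hy' : y ∈ insert x s := hy
      rw [Finset.mem_insert] at hy'
      rcases hy' with rfl | hy'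
      · exact g.2
      · exact (mem_fixingSubgroup_iff _).mp g.1.2 y hy'
  rw [h3, h2]

/-- If for some `k > 1` the pointwise stabilisers of all `(k-1)`-subsets have the same order `> 1` and those of all `k`-subsets have the same order, then the group is `(k-1)`-transitive. -/
theorem result {α : Type*} [Fintype α] [DecidableEq α] (G : Subgroup (Equiv.Perm α)) {k : ℕ} (hk : 1 < k) (hkn : k ≤ Fintype.card α) (l m : ℕ) (hl : 1 < l) (hkm1 : ∀ s : Finset α, s.card = k - 1 → Nat.card (fixingSubgroup G (s : Set α)) = l) (hkm : ∀ s : Finset α, s.card = k → Nat.card (fixingSubgroup G (s : Set α)) = m) : MulAction.IsMultiplyPretransitive G α (k - 1) := by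
  classical
  -- `m` is positive
  obtain ⟨s₀, -, hs₀⟩ := Finset.exists_subset_card_eq (s := (Finset.univ : Finset α)) (n := k)
    (by rw [Finset.card_univ]; exact hkn)
  have hm0 : 0 < m := by
    rw [← hkm s₀ hs₀]; exact Nat.card_pos
  -- all relevant orbits have the same size
  have horb : ∀ (s : Finset α) (x : α), s.card = k - 1 → x ∉ s →
      (orbit (fixingSubgroup G (s : Set α)) x).ncard = l / m := by
    intro s x hs hx
    have h1 := orbit_size G s x hx
    rw [hkm1 s hs, hkm (insert x s) (by rw [Finset.card_insert_of_notMem hx, hs]; omega)] at h1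
    rw [← h1, Nat.mul_div_cancel _ hm0]
  -- the size is at least two
  have hw : 2 ≤ l / m := by
    obtain ⟨s₁, -, hs₁⟩ := Finset.exists_subset_card_eq (s := (Finset.univ : Finset α)) (n := k - 1)
      (by rw [Finset.card_univ]; omega)
    have hnt : Nontrivial (fixingSubgroup G (s₁ : Set α)) := by
      rw [← Finite.one_lt_card_iff_nontrivial, hkm1 s₁ hs₁]; exact hl
    obtain ⟨g, hg⟩ := exists_ne (1 : fixingSubgroup G (s₁ : Set α))
    obtain ⟨x, hx⟩ : ∃ x : α, g • x ≠ x := by
      by_contra hcon
      push Not at hcon
      apply hg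
      apply Subtype.ext
      apply Subtype.ext
      ext y
      exact hcon y
    have hxs : x ∉ s₁ := fun h => hx ((mem_fixingSubgroup_iff _).mp g.2 x h)
    rw [← horb s₁ x hs₁ hxs]
    have h2 : 1 < (orbit (fixingSubgroup G (s₁ : Set α)) x).ncard := by
      rw [Set.one_lt_ncard]
      exact ⟨x, mem_orbit_self x, g • x, mem_orbit _ _, fun h => hx h.symm⟩
    exact h2
  -- transitivity at the top level
  have htop : ∀ (t : Finset α) (a b : α), t.card = k - 2 → a ∉ t → b ∉ t →
      ∃ g : fixingSubgroup G (t : Set α), g • a = b := by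
    intro t a b ht ha hb
    by_contra hcon
    push Not at hcon
    let O : Finset α := Finset.univ.filter (fun z => ∃ g : fixingSubgroup G (t : Set α), g • a = z)
    have haO : a ∈ O := by
      simp only [O, Finset.mem_filter, Finset.mem_univ, true_and]
      exact ⟨1, one_smul _ _⟩
    have hbO : b ∉ O := by
      simp only [O, Finset.mem_filter, Finset.mem_univ, true_and, not_exists]
      exact hcon
    have hOt : ∀ z ∈ O, z ∉ t := by
      intro z hz hzt
      simp only [O, Finset.mem_filter, Finset.mem_univ, true_and] at hz
      obtain ⟨g, rfl⟩ := hz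
      apply ha
      have h1 := (mem_fixingSubgroup_iff _).mp g.2 _ hzt
      have h2 : ((g : G)) • a = (g : G) • ((g : G) • a) := h1.symm
      exact Finset.mem_coe.mp (by
        have h3 := MulAction.injective (g : G) h2
        rw [h3]
        exact hzt)
    have hinvO : ∀ (u : α) (g : fixingSubgroup G ((insert u t : Finset α) : Set α)), ∀ z ∈ O, g • z ∈ O := by
      intro u g z hz
      simp only [O, Finset.mem_filter, Finset.mem_univ, true_and] at hz ⊢
      obtain ⟨h, rfl⟩ := hz
      refine ⟨⟨(g : G) * (h : G), ?_⟩, ?_⟩
      · rw [mem_fixingSubgroup_iff]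
        intro y hy
        rw [mul_smul, (mem_fixingSubgroup_iff _).mp h.2 y hy]
        exact (mem_fixingSubgroup_iff _).mp g.2 y (by simp [Finset.mem_coe.mp hy])
      · change ((g : G) * (h : G)) • a = (g : G) • ((h : G) • a)
        exact mul_smul _ _ _
    have hdvd1 : l / m ∣ (O.erase a).card := by
      apply dvd_card_of_inv (K := fixingSubgroup G ((insert a t : Finset α) : Set α))
      · intro g x hx
        rw [Finset.mem_erase] at hx ⊢
        refine ⟨fun h => hx.1 ?_, hinvO a g x hx.2⟩
        have h2 : g • a = a := (mem_fixingSubgroup_iff _).mp g.2 a (by simp)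
        exact MulAction.injective g (h.trans h2.symm)
      · intro y hy
        rw [Finset.mem_erase] at hy
        apply horb _ _ (by rw [Finset.card_insert_of_notMem ha, ht]; omega)
        simp only [Finset.mem_insert, not_or]
        exact ⟨hy.1, hOt y hy.2⟩
    have hdvd2 : l / m ∣ O.card := by
      apply dvd_card_of_inv (K := fixingSubgroup G ((insert b t : Finset α) : Set α))
      · intro g x hx
        exact hinvO b g x hx
      · intro y hy
        apply horb _ _ (by rw [Finset.card_insert_of_notMem hb, ht]; omega)
        simp only [Finset.mem_insert, not_or]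
        exact ⟨fun h => hbO (h ▸ hy), hOt y hy⟩
    have hcard : O.card = (O.erase a).card + 1 := by
      rw [Finset.card_erase_of_mem haO]
      have := Finset.card_pos.mpr ⟨a, haO⟩
      omega
    rw [hcard] at hdvd2
    have h1 : l / m ∣ 1 := (Nat.dvd_add_right hdvd1).mp hdvd2
    have h2 := Nat.le_of_dvd (by norm_num) h1
    omega
  -- descending to smaller sets
  have hall : ∀ (d : ℕ) (S : Finset α), S.card + d = k - 2 → ∀ a b : α, a ∉ S → b ∉ S →
      ∃ g : fixingSubgroup G (S : Set α), g • a = b := by
    intro d
    induction d with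
    | zero =>
      intro S hS a b ha hb
      exact htop S a b (by omega) ha hb
    | succ d ih =>
      intro S hS a b ha hb
      by_cases hab : a = b
      · exact ⟨1, by simp [hab]⟩
      -- a further point
      have hcard : 0 < (Finset.univ \ (S ∪ {a, b})).card := by
        rw [Finset.card_sdiff_of_subset (Finset.subset_univ _), Finset.card_univ]
        have h2 : (S ∪ {a, b}).card = S.card + 2 := by
          rw [Finset.card_union_of_disjoint, Finset.card_pair hab]
          rw [Finset.disjoint_left]
          intro z hz hz'
          simp only [Finset.mem_insert, Finset.mem_singleton] at hz'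
          rcases hz' with rfl | rfl
          · exact ha hz
          · exact hb hz
        omega
      obtain ⟨z, hz⟩ := Finset.card_pos.mp hcard
      simp only [Finset.mem_sdiff, Finset.mem_univ, true_and, Finset.mem_union, Finset.mem_insert,
        Finset.mem_singleton, not_or] at hz
      obtain ⟨g, hg⟩ := ih (insert z S) (by rw [Finset.card_insert_of_notMem hz.1]; omega) a b
        (by simp only [Finset.mem_insert, not_or]; exact ⟨fun h => hz.2.1 h.symm, ha⟩)
        (by simp only [Finset.mem_insert, not_or]; exact ⟨fun h => hz.2.2 h.symm, hb⟩)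
      refine ⟨⟨g.1, ?_⟩, hg⟩
      rw [mem_fixingSubgroup_iff]
      intro y hy
      exact (mem_fixingSubgroup_iff _).mp g.2 y (by simp [Finset.mem_coe.mp hy])
  -- assembling
  have hstep : ∀ j, j ≤ k - 1 → IsMultiplyPretransitive G α j := by
    intro j
    induction j with
    | zero => intro _; exact is_zero_pretransitive' (G := G) (α := α)
    | succ j ih =>
      intro hj
      have hm := ih (by omega)
      obtain ⟨S, -, hS⟩ := Finset.exists_subset_card_eq (s := (Finset.univ : Finset α)) (n := j)
        (by rw [Finset.card_univ]; omega)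
      have hr : IsMultiplyPretransitive (fixingSubgroup G (S : Set α))
          (SubMulAction.ofFixingSubgroup G (S : Set α)) 1 := by
        rw [is_one_pretransitive_iff]
        refine ⟨fun x y => ?_⟩
        have hx : x.1 ∉ S := fun hh => x.2 hh
        have hy : y.1 ∉ S := fun hh => y.2 hh
        obtain ⟨g, hg⟩ := hall (k - 2 - S.card) S (by omega) x.1 y.1 hx hy
        exact ⟨g, Subtype.ext hg⟩
      exact Lib.MultiTrans.isMultiplyPretransitive_add (S : Set α) (by rw [Set.ncard_coe_finset, hS]) hm hr
  exact hstep (k - 1) le_rfl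

end Cfsg.Agent.S0744
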