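import Mathlib
import Cfsg.Statements.S0745
import Cfsg.Agent.Lib.LVMain

set_option autoImplicit false
open Cfsg

namespace Cfsg.Agent.S0745

open Cfsg.Agent.Lib.LVBasic Cfsg.Agent.Lib.LVMain

/-- Let `G` have degree `n` and `3 ≤ k ≤ n`; suppose `G` is `(k-2)`-transitive but not `(k-1)`-transitive, and is `(k-1)`-homogeneous and `k`-homogeneous. Then `k = n` and `G` is the alternating group, or `n = 5, k = 4, |G| = 20`, or `n = 6, k = 5, |G| = 120`, or `n = 9, k = 5, |G| ∈ {504, 1512}`. -/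
theorem result {α : Type*} [Fintype α] [DecidableEq α] (G : Subgroup (Equiv.Perm α)) {k : ℕ} (hk : 3 ≤ k) (hkn : k ≤ Fintype.card α) (ht : MulAction.IsMultiplyPretransitive G α (k - 2)) (hnt : ¬ MulAction.IsMultiplyPretransitive G α (k - 1)) (hh1 : MulAction.IsPretransitive G (Set.powersetCard α (k - 1))) (hh : MulAction.IsPretransitive G (Set.powersetCard α k)) : (k = Fintype.card α ∧ G = alternatingGroup α) ∨ (Fintype.card α = 5 ∧ k = 4 ∧ Nat.card G = 20) ∨ (Fintype.card α = 6 ∧ k = 5 ∧ Nat.card G = 120) ∨ (Fintype.card α = 9 ∧ k = 5 ∧ (Nat.card G = 504 ∨ Nat.card G = 1512)) := by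
  obtain ⟨j, rfl⟩ : ∃ j, k = j + 1 := ⟨k - 1, by omega⟩
  have e1 : j + 1 - 2 = j - 1 := by omega
  have e2 : j + 1 - 1 = j := by omega
  rw [e1] at ht
  rw [e2] at hnt hh1
  have hTr : TrS G (j - 1) := trS_of_isMultiplyPretransitive ht (by omega)
  have hH0 : HomS G (j - 1) :=
    homS_of_pretransitive (Set.powersetCard.isPretransitive_of_isMultiplyPretransitive G ht)
  have hnot : ¬ TrS G j := fun h => hnt (isMultiplyPretransitive_of_trS h)
  rcases classify (by omega) hkn hTr hH0 (homS_of_pretransitive hh1) (homS_of_pretransitive hh) hnot with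
    ⟨h1, h2⟩ | ⟨h1, h2, h3⟩ | ⟨h1, h2, h3⟩ | ⟨h1, h2, h3⟩
  · left
    refine ⟨h1.symm, Equiv.Perm.eq_alternatingGroup_of_index_eq_two ?_⟩
    have h3 := Subgroup.card_mul_index G
    rw [Nat.card_perm, Nat.card_eq_fintype_card (α := α), ← h2] at h3
    exact Nat.eq_of_mul_eq_mul_left Nat.card_pos h3
  · right; left
    exact ⟨h1, by omega, h3⟩
  · right; right; left
    exact ⟨h1, by omega, h3⟩
  · right; right; right
    exact ⟨h1, by omega, h3⟩

end Cfsg.Agent.S0745
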