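import Mathlib
import Cfsg.Statements.S0746
import Cfsg.Agent.Lib.LWBasic
import Cfsg.Agent.Lib.LWDescent
import Cfsg.Agent.Lib.LWMain

set_option autoImplicit false
open Cfsg

namespace Cfsg.Agent.S0746


section Aux

open Equiv Cfsg.Agent.Lib.LWBasic Cfsg.Agent.Lib.LWMain

variable {α : Type*} [Fintype α] [DecidableEq α]

lemma HG_of_pretrans (G : Subgroup (Perm α)) {k : ℕ}
    (hh : MulAction.IsPretransitive G (Set.powersetCard α k)) : HG G k := by
  intro A B hA hB
  obtain ⟨g, hg⟩ := hh.exists_smul_eq (⟨A, Set.powersetCard.mem_iff.mpr hA⟩ : Set.powersetCard α k)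
    ⟨B, Set.powersetCard.mem_iff.mpr hB⟩
  refine ⟨g.1, g.2, ?_⟩
  have h1 := congrArg Subtype.val hg
  simp only [Set.powersetCard.coe_smul] at h1
  rw [← h1]
  ext x
  simp [Finset.mem_smul_finset, Subgroup.smul_def]

lemma multTrans_of_PT (G : Subgroup (Perm α)) {j : ℕ} (h : PT G j) :
    MulAction.IsMultiplyPretransitive G α j := by
  refine ⟨fun x y => ?_⟩
  let f : α → α := Function.extend x y id
  have hf : ∀ i, f (x i) = y i := fun i => x.injective.extend_apply y id i
  have hinj : Set.InjOn f (↑(Finset.univ.map x) : Set α) := by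
    intro a ha b hb hab
    simp only [Finset.coe_map, Finset.coe_univ, Set.image_univ, Set.mem_range] at ha hb
    obtain ⟨i, rfl⟩ := ha
    obtain ⟨i', rfl⟩ := hb
    rw [hf, hf] at hab
    rw [y.injective hab]
  obtain ⟨g, hg, hg'⟩ := h (Finset.univ.map x) f (by simp) hinj
  refine ⟨⟨g, hg⟩, ?_⟩
  ext i
  have h1 := hg' (x i) (by simp)
  rw [hf] at h1
  simpa [Subgroup.smul_def] using h1

end Aux


/-- The Livingstone–Wagner Theorem, first form: a `k`-homogeneous group of degree `n` with `4 ≤ 2k ≤ n` is `(k-1)`-transitive. -/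
theorem result {α : Type*} [Fintype α] [DecidableEq α] (G : Subgroup (Equiv.Perm α)) {k : ℕ} (hk : 2 ≤ k) (hkn : 2 * k ≤ Fintype.card α) (hh : MulAction.IsPretransitive G (Set.powersetCard α k)) : MulAction.IsMultiplyPretransitive G α (k - 1) := by
  have h1 : Cfsg.Agent.Lib.LWBasic.HG G k := HG_of_pretrans G hh
  obtain ⟨t, rfl⟩ : ∃ t, k = t + 2 := ⟨k - 2, by omega⟩
  have h2 : Cfsg.Agent.Lib.LWBasic.HG G (t + 1) :=
    Cfsg.Agent.Lib.LWDescent.HG_descent h1 (by omega)
  have h3 : Cfsg.Agent.Lib.LWBasic.PT G (t + 1) :=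
    Cfsg.Agent.Lib.LWMain.PT_of_HG (t := t + 1) h1 (by omega)
  simpa using multTrans_of_PT G h3


end Cfsg.Agent.S0746
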