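import Mathlib
-- Template for statement S0747 (row 747; see /opt/grader/pristine/manifest.json for weights).
-- Copy to Cfsg/Agent/S0747.lean and replace the sorry. The statement below is byte-identical to the frozen
-- statement Cfsg.CfsgFrozen.S0747 (Cfsg/Statements/S0747.lean; the theorem Cfsg.k_transitive_some_set_stabilizer_induces_alternating);
-- the grader kernel-checks Cfsg.Agent.S0747.result against that frozen type. Keep the theorem IN THIS FILE
-- (a `result` declared elsewhere and merely imported here is not credited); helpers may live anywhere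
-- under Cfsg/Agent/.
import Cfsg.Statements.S0747
import Cfsg.Agent.Lib.LWAlt4

set_option autoImplicit false
open scoped Pointwise
open Cfsg
open scoped commutatorElement

namespace Cfsg.Agent.S0747

/-- In a `k`-transitive permutation group with `4 ≤ k < n`, some `(k+1)`-subset `Δ` has the property that every even permutation of `Δ` is induced by an element of the group stabilising `Δ`. -/
theorem result {α : Type*} [Fintype α] [DecidableEq α] (G : Subgroup (Equiv.Perm α)) {k : ℕ} (hk : 4 ≤ k) (hkn : k < Fintype.card α) (hG : MulAction.IsMultiplyPretransitive G α k) : ∃ Δ : Finset α, Δ.card = k + 1 ∧ ∀ σ : Equiv.Perm ↥Δ, σ ∈ alternatingGroup ↥Δ → ∃ g ∈ G, ∀ x : ↥Δ, g (x : α) = σ x := by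
  obtain ⟨Δ, hΔ, hA3⟩ := Cfsg.Agent.Lib.LWAlt4.exists_A3 hk hkn (Cfsg.Agent.Lib.LWAlt4.PT_of_multTrans G hG)
  exact ⟨Δ, hΔ, fun σ hσ => Cfsg.Agent.Lib.LWAlt4.alt_of_A3 hA3 σ hσ⟩

end Cfsg.Agent.S0747
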