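import Mathlib
-- Template for statement S0748 (row 748; see /opt/grader/pristine/manifest.json for weights).
-- Copy to Cfsg/Agent/S0748.lean and replace the sorry. The statement below is byte-identical to the frozen
-- statement Cfsg.CfsgFrozen.S0748 (Cfsg/Statements/S0748.lean; the theorem Cfsg.livingstone_wagner_k_homogeneous_k_transitive);
-- the grader kernel-checks Cfsg.Agent.S0748.result against that frozen type. Keep the theorem IN THIS FILE
-- (a `result` declared elsewhere and merely imported here is not credited); helpers may live anywhere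
-- under Cfsg/Agent/.
import Cfsg.Statements.S0748
import Cfsg.Agent.Lib.LWAlt7
import Cfsg.Agent.S0746

set_option autoImplicit false
open Cfsg
open scoped commutatorElement

namespace Cfsg.Agent.S0748

/-- The Livingstone–Wagner Theorem: a `k`-homogeneous permutation group of degree `n` with `10 ≤ 2k ≤ n` is `k`-transitive. -/
theorem result {α : Type*} [Fintype α] [DecidableEq α] (G : Subgroup (Equiv.Perm α)) {k : ℕ} (hk : 5 ≤ k) (hkn : 2 * k ≤ Fintype.card α) (hh : MulAction.IsPretransitive G (Set.powersetCard α k)) : MulAction.IsMultiplyPretransitive G α k := by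
  obtain ⟨t, rfl⟩ : ∃ t, k = t + 1 := ⟨k - 1, by omega⟩
  have h1 := Cfsg.Agent.S0746.HG_of_pretrans G hh
  exact Cfsg.Agent.S0746.multTrans_of_PT G
    (Cfsg.Agent.Lib.LWAlt7.PT_of_HG_five (by omega) hkn h1)

end Cfsg.Agent.S0748
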