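import Cfsg.Statements.S0753
-- import your own Cfsg.Agent.* helpers here

set_option autoImplicit false
open Cfsg

namespace Cfsg.Agent.S0753

/-- If σ is a ring endomorphism of the field F other than the identity and B is a σ-sesquilinear conjugate-symmetric form with B v v = 0 for every v, then B = 0. -/
theorem result {F V : Type*} [Field F] [AddCommGroup V] [Module F V] (σ : F →+* F) (hσ : σ ≠ RingHom.id F) (B : V →ₛₗ[σ] V →ₗ[F] F) (hS : B.IsSymm) (h0 : ∀ v : V, B v v = 0) : B = 0 := by
  classical
  obtain ⟨a, ha⟩ : ∃ a : F, σ a ≠ a := by
    by_contra h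
    push Not at h
    exact hσ (RingHom.ext h)
  have hadd : ∀ x y : V, B x y + B y x = 0 := by
    intro x y
    have h := h0 (x + y)
    simp only [map_add, LinearMap.add_apply, h0 x, h0 y, zero_add, add_zero] at h
    linear_combination h
  ext x y
  have h1 := hadd (a • x) y
  have h2 := hadd x y
  simp only [LinearMap.map_smulₛₗ, LinearMap.smul_apply, smul_eq_mul, map_smul] at h1
  have h3 : (σ a - a) * B x y = 0 := by
    have : B y x = - B x y := by linear_combination h2
    rw [this] at h1
    linear_combination h1
  have h4 : B x y = 0 := by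
    rcases mul_eq_zero.mp h3 with h | h
    · exact absurd (sub_eq_zero.mp h) ha
    · exact h
  simpa using h4

end Cfsg.Agent.S0753
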