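import Mathlib
import Cfsg.Statements.S0755
import Cfsg.Agent.Lib.SigmaNorm
-- import your own Cfsg.Agent.* helpers here

set_option autoImplicit false
open Cfsg

namespace Cfsg.Agent.S0755

section
variable {F V : Type*} [Field F] [AddCommGroup V] [Module F V] {σ : F →+* F}
  (B : V →ₛₗ[σ] V →ₗ[F] F)

/-- orthonormal tuples -/
def Rel (m : ℕ) (e : Fin m → V) : Prop := ∀ i j, B (e i) (e j) = if i = j then 1 else 0

/-- the orthogonal complement of a tuple -/
def perp {m : ℕ} (e : Fin m → V) : Submodule F V where
  carrier := {v | ∀ i, B (e i) v = 0}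
  add_mem' {a b} ha hb i := by simp [ha i, hb i]
  zero_mem' i := by simp
  smul_mem' c a ha i := by simp [ha i]

/-- the projection -/
noncomputable def proj {m : ℕ} (e : Fin m → V) (v : V) : V := ∑ i, B (e i) v • e i

variable {B}

theorem sub_proj_mem {m : ℕ} {e : Fin m → V} (h : Rel B m e) (v : V) :
    v - proj B e v ∈ perp B e := by
  classical
  intro j
  simp only [proj, map_sub, map_sum, map_smul, smul_eq_mul, h j]
  simp

theorem indep {m : ℕ} {e : Fin m → V} (h : Rel B m e) (a : Fin m → F) (x : V)
    (hx : x ∈ perp B e) (hsum : ∑ i, a i • e i + x = 0) : a = 0 ∧ x = 0 := by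
  classical
  have ha : a = 0 := by
    funext j
    have h1 := congrArg (fun t => B (e j) t) hsum
    simp only [map_add, map_sum, map_smul, smul_eq_mul, h j, hx j, map_zero, mul_ite, mul_one,
      mul_zero, add_zero] at h1
    simpa using h1
  refine ⟨ha, ?_⟩
  simpa [ha] using hsum

theorem bound [FiniteDimensional F V] {m : ℕ} {e : Fin m → V} (h : Rel B m e) :
    m ≤ Module.finrank F V := by
  have hli : LinearIndependent F e := by
    rw [Fintype.linearIndependent_iff]
    intro g hg i
    have := indep h g 0 (perp B e).zero_mem (by rw [add_zero]; exact hg)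
    exact congrFun this.1 i
  have := hli.fintype_card_le_finrank
  simpa using this

theorem extend (hS : B.IsSymm) {m : ℕ} {e : Fin m → V} (h : Rel B m e) {x : V}
    (hx : x ∈ perp B e) (hxx : B x x = 1) :
    Rel B (m + 1) (Fin.snoc e x : Fin (m + 1) → V) := by
  intro i j
  induction i using Fin.lastCases with
  | last =>
    induction j using Fin.lastCases with
    | last => simpa using hxx
    | cast j =>
      simp only [Fin.snoc_last, Fin.snoc_castSucc]
      rw [if_neg (ne_of_gt (Fin.castSucc_lt_last j)), ← hS.eq (e j) x, hx j, map_zero]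
  | cast i =>
    induction j using Fin.lastCases with
    | last =>
      simp only [Fin.snoc_last, Fin.snoc_castSucc, hx i]
      rw [if_neg (ne_of_lt (Fin.castSucc_lt_last i))]
    | cast j =>
      simp only [Fin.snoc_castSucc, h i j, Fin.castSucc_inj]

theorem exists_maximal [Finite F] [FiniteDimensional F V] (hσ : σ ≠ RingHom.id F)
    (hσ2 : ∀ a : F, σ (σ a) = a) (hS : B.IsSymm) (hB : B.Nondegenerate) :
    ∃ (m : ℕ) (e : Fin m → V), Rel B m e ∧ perp B e = ⊥ := by
  by_contra hcon
  push Not at hcon
  have key : ∀ m : ℕ, ∃ e : Fin m → V, Rel B m e := by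
    intro m
    induction m with
    | zero => exact ⟨Fin.elim0, fun i => i.elim0⟩
    | succ m ih =>
      obtain ⟨e, h⟩ := ih
      have hne := hcon m e h
      obtain ⟨x, hx, hx0⟩ := (Submodule.ne_bot_iff _).1 hne
      -- a non-isotropic vector in the complement
      obtain ⟨y, hy, hyy⟩ : ∃ y ∈ perp B e, B y y ≠ 0 := by
        by_contra hall
        push Not at hall
        obtain ⟨a, ha⟩ : ∃ a : F, σ a ≠ a := by
          by_contra h
          push Not at h
          exact hσ (RingHom.ext h)
        have hadd : ∀ u ∈ perp B e, ∀ v ∈ perp B e, B u v + B v u = 0 := by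
          intro u hu v hv
          have h1 := hall (u + v) ((perp B e).add_mem hu hv)
          simp only [map_add, LinearMap.add_apply, hall u hu, hall v hv, zero_add, add_zero] at h1
          linear_combination h1
        have hzero : ∀ u ∈ perp B e, ∀ v ∈ perp B e, B u v = 0 := by
          intro u hu v hv
          have h1 := hadd (a • u) ((perp B e).smul_mem a hu) v hv
          have h2 := hadd u hu v hv
          simp only [LinearMap.map_smulₛₗ, LinearMap.smul_apply, smul_eq_mul, map_smul] at h1
          have h3 : (σ a - a) * B u v = 0 := by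
            have : B v u = - B u v := by linear_combination h2
            rw [this] at h1
            linear_combination h1
          exact (mul_eq_zero.1 h3).resolve_left (sub_ne_zero.2 ha)
        apply hx0
        apply hB.1
        intro v
        have h0 : v = proj B e v + (v - proj B e v) := by abel
        rw [h0, map_add, hzero x hx _ (sub_proj_mem h v), add_zero]
        simp only [proj, map_sum, map_smul, smul_eq_mul]
        refine Finset.sum_eq_zero fun i _ => ?_
        rw [← hS.eq (e i) x, hx i, map_zero, mul_zero]
      have hfix : σ (B y y) = B y y := hS.eq y y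
      obtain ⟨a, ha0, ha⟩ := Cfsg.Agent.Lib.SigmaNorm.exists_sigma_norm_eq σ hσ hσ2
        (inv_ne_zero hyy) (by rw [map_inv₀, hfix])
      refine ⟨_, extend hS h ((perp B e).smul_mem a hy) (x := a • y) ?_⟩
      simp only [LinearMap.map_smulₛₗ, LinearMap.smul_apply, map_smul, smul_eq_mul]
      rw [← mul_assoc, mul_comm a, ha, inv_mul_cancel₀ hyy]
  obtain ⟨e, h⟩ := key (Module.finrank F V + 1)
  have := bound h
  omega
end



/-- Classification of Hermitian forms over finite fields: if σ is a non-identity involutive automorphism of the finite field F and B is a non-degenerate conjugate-symmetric σ-sesquilinear form on the finite-dimensional space V, then V has a B-orthonormal basis. -/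
theorem result {F V : Type*} [Field F] [Finite F] [AddCommGroup V] [Module F V] [FiniteDimensional F V] (σ : F →+* F) (hσ : σ ≠ RingHom.id F) (hσ2 : ∀ a : F, σ (σ a) = a) (B : V →ₛₗ[σ] V →ₗ[F] F) (hS : B.IsSymm) (hB : B.Nondegenerate) : ∃ b : Module.Basis (Fin (Module.finrank F V)) F V, ∀ i j, B (b i) (b j) = if i = j then 1 else 0 := by
  classical
  obtain ⟨m, e, hrel, hperp⟩ := exists_maximal hσ hσ2 hS hB
  have hv : LinearIndependent F e := by
    rw [Fintype.linearIndependent_iff]
    intro g hg i
    have := indep hrel g 0 (perp B e).zero_mem (by rw [add_zero]; exact hg)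
    exact congrFun this.1 i
  have hspan : ⊤ ≤ Submodule.span F (Set.range e) := by
    intro y _
    have h1 : proj B e y ∈ Submodule.span F (Set.range e) :=
      Submodule.sum_mem _ fun i _ => Submodule.smul_mem _ _ (Submodule.subset_span ⟨i, rfl⟩)
    have h2 : y - proj B e y = 0 := by
      have := sub_proj_mem hrel y
      rw [hperp] at this
      exact this
    rw [sub_eq_zero.1 h2]
    exact h1
  let b := Module.Basis.mk hv hspan
  have hb : ∀ i, b i = e i := fun i => Module.Basis.mk_apply hv hspan i
  have hm : m = Module.finrank F V := by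
    rw [Module.finrank_eq_card_basis b]
    simp
  subst hm
  refine ⟨b, ?_⟩
  intro i j
  rw [hb, hb]
  exact hrel i j

end Cfsg.Agent.S0755
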