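import Mathlib
import Cfsg.Statements.S0757
-- import your own Cfsg.Agent.* helpers here

set_option autoImplicit false
open Cfsg

namespace Cfsg.Agent.S0757

/-- The two diagonal forms Σ x_i^2 and Σ_(i<n) x_i^2 + α x_n^2 on F^(n+1), with α a non-square and 2 ≠ 0 in F, are inequivalent quadratic forms (so over a finite field of odd order there are exactly two classes of non-singular symmetric bilinear forms in each dimension). -/
theorem result {F : Type*} [Field F] (h2 : (2 : F) ≠ 0) (n : ℕ) (α : F) (hα : ¬ IsSquare α) : ¬ (QuadraticMap.weightedSumSquares F (fun _ : Fin (n + 1) => (1 : F))).Equivalent (QuadraticMap.weightedSumSquares F (fun i : Fin (n + 1) => if i = Fin.last n then α else (1 : F))) := by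
  classical
  rintro ⟨f⟩
  set w : Fin (n + 1) → F := fun i => if i = Fin.last n then α else 1 with hw
  have hQ : ∀ (u : Fin (n + 1) → F) (x y : Fin (n + 1) → F),
      QuadraticMap.weightedSumSquares F u (x + y) - QuadraticMap.weightedSumSquares F u x
        - QuadraticMap.weightedSumSquares F u y = 2 * ∑ k, u k * (x k * y k) := by
    intro u x y
    simp only [QuadraticMap.weightedSumSquares_apply, smul_eq_mul, Pi.add_apply,
      ← Finset.sum_sub_distrib, Finset.mul_sum]
    refine Finset.sum_congr rfl fun k _ => ?_
    ring
  have hf : ∀ x : Fin (n + 1) → F, QuadraticMap.weightedSumSquares F w (f x)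
      = QuadraticMap.weightedSumSquares F (fun _ => (1 : F)) x := fun x => f.map_app x
  set P : Matrix (Fin (n + 1)) (Fin (n + 1)) F := LinearMap.toMatrix' f.toLinearEquiv.toLinearMap with hP
  have hPx : ∀ x, P.mulVec x = f x := by
    intro x
    rw [hP, LinearMap.toMatrix'_mulVec]
    rfl
  have key : P.transpose * Matrix.diagonal w * P = 1 := by
    ext i j
    have h1 := hQ w (f (Pi.single i 1)) (f (Pi.single j 1))
    have h3 := hQ (fun _ => (1 : F)) (Pi.single i 1) (Pi.single j 1)
    rw [← map_add, hf, hf, hf, h3] at h1
    have h4 := mul_left_cancel₀ h2 h1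
    simp only [← hPx, Matrix.mulVec_single_one] at h4
    rw [Matrix.mul_apply]
    simp only [Matrix.mul_diagonal, Matrix.transpose_apply, Matrix.one_apply]
    have h5 : ∑ k : Fin (n + 1), (1 : F) * ((Pi.single i (1 : F) : Fin (n + 1) → F) k * (Pi.single j (1 : F) : Fin (n + 1) → F) k) = if i = j then 1 else 0 := by
      by_cases hij : i = j
      · subst hij
        simp [Pi.single_apply]
      · simp [Pi.single_apply, hij]
        intro h
        exact absurd h.symm hij
    rw [h5] at h4
    refine Eq.trans ?_ h4.symm
    refine Finset.sum_congr rfl fun k _ => ?_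
    simp only [Matrix.col_apply]
    ring
  have hdet := congrArg Matrix.det key
  rw [Matrix.det_mul, Matrix.det_mul, Matrix.det_transpose, Matrix.det_diagonal, Matrix.det_one] at hdet
  have hprod : ∏ i, w i = α := by
    rw [Fin.prod_univ_castSucc]
    simp [hw, Fin.castSucc_ne_last]
  rw [hprod] at hdet
  apply hα
  have hd : P.det ≠ 0 := by
    rintro h
    rw [h] at hdet
    simp at hdet
  refine ⟨P.det⁻¹, ?_⟩
  field_simp
  linear_combination hdet

end Cfsg.Agent.S0757
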