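import Mathlib
import Cfsg.Statements.S0758
-- import your own Cfsg.Agent.* helpers here

set_option autoImplicit false
open Cfsg

namespace Cfsg.Agent.S0758

/-- For a finite field F of odd order q and a non-square α: the form x² + y² is isotropic iff q ≡ 1 mod 4, and the form x² + α y² is isotropic iff q ≡ 3 mod 4. -/
theorem result {F : Type*} [Field F] [Fintype F] (h2 : (2 : F) ≠ 0) (α : F) (hα : ¬ IsSquare α) : ((∃ x y : F, (x ≠ 0 ∨ y ≠ 0) ∧ x ^ 2 + y ^ 2 = 0) ↔ Fintype.card F % 4 = 1) ∧ ((∃ x y : F, (x ≠ 0 ∨ y ≠ 0) ∧ x ^ 2 + α * y ^ 2 = 0) ↔ Fintype.card F % 4 = 3) := by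
  classical
  have hchar : ringChar F ≠ 2 := by
    intro h
    apply h2
    have := ringChar.Nat.cast_ringChar (R := F)
    rw [h] at this
    exact_mod_cast this
  have hodd : Fintype.card F % 2 = 1 := FiniteField.odd_card_of_char_ne_two hchar
  have hmod : Fintype.card F % 4 = 1 ∨ Fintype.card F % 4 = 3 := by omega
  have hsq := FiniteField.isSquare_neg_one_iff (F := F)
  constructor
  · constructor
    · rintro ⟨x, y, hne, hxy⟩
      have hy : y ≠ 0 := by
        rintro rfl
        have hx : x = 0 := by simpa using hxy
        simp [hx] at hne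
      have : IsSquare (-1 : F) := by
        refine ⟨x / y, ?_⟩
        field_simp
        linear_combination -hxy
      have := hsq.1 this
      omega
    · intro h
      obtain ⟨i, hi⟩ := hsq.2 (by omega)
      refine ⟨i, 1, Or.inr one_ne_zero, ?_⟩
      rw [pow_two, ← hi]
      ring
  · constructor
    · rintro ⟨x, y, hne, hxy⟩
      have hy : y ≠ 0 := by
        rintro rfl
        have hx : x = 0 := by simpa using hxy
        simp [hx] at hne
      by_contra hc
      have h1 : Fintype.card F % 4 ≠ 3 := hc
      obtain ⟨i, hi⟩ := hsq.2 h1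
      apply hα
      refine ⟨i * x / y, ?_⟩
      field_simp
      have : α * y ^ 2 = i * i * x ^ 2 := by
        rw [← hi]
        linear_combination hxy
      linear_combination this
    · intro h
      have h1 : ¬ IsSquare (-1 : F) := fun hs => (hsq.1 hs) h
      have h3 : quadraticChar F (-1) = -1 := (quadraticChar_neg_one_iff_not_isSquare).2 h1
      have h4 : quadraticChar F α = -1 := (quadraticChar_neg_one_iff_not_isSquare).2 hα
      have h5 : quadraticChar F (-α) = 1 := by
        have : (-α) = (-1) * α := by ring
        rw [this, map_mul, h3, h4]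
        norm_num
      obtain ⟨t, ht⟩ := (quadraticChar_one_iff_isSquare (by
        intro h0
        have : α = 0 := by simpa using h0
        exact hα (this ▸ IsSquare.zero))).1 h5
      refine ⟨t, 1, Or.inr one_ne_zero, ?_⟩
      rw [pow_two, ← ht]
      ring

end Cfsg.Agent.S0758
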