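import Mathlib
import Cfsg.Statements.S0759
-- import your own Cfsg.Agent.* helpers here

set_option autoImplicit false
open Cfsg

namespace Cfsg.Agent.S0759

section
open Matrix
variable {F : Type*} [Field F]

theorem forward (h2 : (2 : F) ≠ 0) (m : ℕ) (W : Submodule F (Fin (2 * m) → F))
    (hW : Module.finrank F W = m) (h0 : ∀ w ∈ W, ∑ i, w i ^ 2 = 0) : IsSquare ((-1 : F) ^ m) := by
  classical
  have hdot : ∀ u ∈ W, ∀ v ∈ W, ∑ i, u i * v i = 0 := by
    intro u hu v hv
    have h1 := h0 (u + v) (W.add_mem hu hv)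
    have h3 := h0 u hu
    have h4 := h0 v hv
    have h5 : ∑ i, (u + v) i ^ 2 = ∑ i, u i ^ 2 + ∑ i, v i ^ 2 + 2 * ∑ i, u i * v i := by
      rw [Finset.mul_sum, ← Finset.sum_add_distrib, ← Finset.sum_add_distrib]
      refine Finset.sum_congr rfl fun i _ => ?_
      simp only [Pi.add_apply]
      ring
    rw [h5, h3, h4, zero_add, zero_add] at h1
    exact (mul_eq_zero.1 h1).resolve_left h2
  obtain ⟨C, hC⟩ := Submodule.exists_isCompl W
  have hCr : Module.finrank F C = m := by
    have h1 := Submodule.finrank_add_eq_of_isCompl hC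
    simp only [Module.finrank_fintype_fun_eq_card, Fintype.card_fin] at h1
    omega
  let bW : Module.Basis (Fin m) F W := Module.finBasisOfFinrankEq F W hW
  let bC : Module.Basis (Fin m) F C := Module.finBasisOfFinrankEq F C hCr
  let b : Module.Basis (Fin m ⊕ Fin m) F (Fin (2 * m) → F) :=
    (bW.prod bC).map (Submodule.prodEquivOfIsCompl W C hC)
  have hbl : ∀ i, b (Sum.inl i) = (bW i : Fin (2 * m) → F) := by
    intro i
    simp [b]
  let e : (Fin m ⊕ Fin m) ≃ Fin (2 * m) := finSumFinEquiv.trans (finCongr (two_mul m).symm)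
  let P : Matrix (Fin m ⊕ Fin m) (Fin m ⊕ Fin m) F := Matrix.of fun r c => b c (e r)
  have hPdet : P.det ≠ 0 := by
    intro h
    obtain ⟨v, hv, hPv⟩ := Matrix.exists_mulVec_eq_zero_iff.2 h
    apply hv
    have h1 : ∑ c, v c • b c = 0 := by
      funext s
      have := congrFun hPv (e.symm s)
      simp only [mulVec, dotProduct, P, of_apply, Equiv.apply_symm_apply, Pi.zero_apply] at this
      simp only [Finset.sum_apply, Pi.smul_apply, smul_eq_mul, Pi.zero_apply]
      rw [← this]
      exact Finset.sum_congr rfl fun c _ => mul_comm _ _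
    funext c
    exact (Fintype.linearIndependent_iff.1 b.linearIndependent) v h1 c
  set G := Pᵀ * P with hG
  have hGe : ∀ c d, G c d = ∑ s, b c s * b d s := by
    intro c d
    rw [hG, Matrix.mul_apply, ← Equiv.sum_comp e]
    rfl
  have hGsymm : Gᵀ = G := by
    rw [hG, transpose_mul, transpose_transpose]
  have h11 : G.toBlocks₁₁ = 0 := by
    ext i j
    change G (Sum.inl i) (Sum.inl j) = 0
    rw [hGe, hbl, hbl]
    exact hdot _ (bW i).2 _ (bW j).2
  have h21 : G.toBlocks₂₁ = (G.toBlocks₁₂)ᵀ := by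
    ext i j
    change G (Sum.inr i) (Sum.inl j) = G (Sum.inl j) (Sum.inr i)
    exact congrFun (congrFun hGsymm (Sum.inl j)) (Sum.inr i)
  set A := G.toBlocks₁₂ with hA
  set D := G.toBlocks₂₂ with hD
  have hGb : G = fromBlocks 0 A Aᵀ D := by
    conv_lhs => rw [← fromBlocks_toBlocks G, h11, h21]
  have hJ : (J (Fin m) F).det = 1 := SymplecticGroup.det_eq_one (SymplecticGroup.J_mem _ _)
  have hGJ : G * J (Fin m) F = fromBlocks A 0 D (-Aᵀ) := by
    rw [hGb, J, fromBlocks_multiply]
    simp
  have hdet : P.det * P.det = (-1 : F) ^ m * (A.det * A.det) := by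
    have h1 := congrArg Matrix.det hGJ
    rw [det_mul, hJ, mul_one, det_fromBlocks_zero₁₂, det_neg, det_transpose, hG, det_mul,
      det_transpose] at h1
    rw [h1]
    simp only [Fintype.card_fin]
    ring
  have hA0 : A.det ≠ 0 := by
    intro h
    rw [h] at hdet
    simp only [mul_zero] at hdet
    exact hPdet (mul_self_eq_zero.1 hdet)
  refine ⟨P.det / A.det, ?_⟩
  field_simp
  linear_combination -hdet

theorem of_linear_map {ι κ : Type*} [Fintype ι] [Fintype κ] [DecidableEq ι] [DecidableEq κ] {m : ℕ}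
    (hι : Fintype.card ι = 2 * m) (hκ : Fintype.card κ = m) (L : (κ → F) →ₗ[F] (ι → F))
    (hL : Function.Injective L) (hz : ∀ y, ∑ i, (L y i) ^ 2 = 0) :
    ∃ W : Submodule F (Fin (2 * m) → F), Module.finrank F W = m ∧ ∀ w ∈ W, ∑ i, w i ^ 2 = 0 := by
  let e : ι ≃ Fin (2 * m) := Fintype.equivFinOfCardEq hι
  let T : (ι → F) ≃ₗ[F] (Fin (2 * m) → F) := LinearEquiv.funCongrLeft F F e.symm
  refine ⟨LinearMap.range (T.toLinearMap ∘ₗ L), ?_, ?_⟩
  · have hinj : Function.Injective (T.toLinearMap ∘ₗ L) := fun a b h => hL (T.injective h)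
    rw [LinearMap.finrank_range_of_inj hinj]
    simp [hκ]
  · rintro _ ⟨y, rfl⟩
    have : ∀ j, (T.toLinearMap ∘ₗ L) y j = L y (e.symm j) := fun j => rfl
    simp only [this]
    rw [Equiv.sum_comp e.symm (fun i => (L y i) ^ 2)]
    exact hz y

theorem backward_one {i : F} (hi : -1 = i * i) (m : ℕ) :
    ∃ W : Submodule F (Fin (2 * m) → F), Module.finrank F W = m ∧ ∀ w ∈ W, ∑ i, w i ^ 2 = 0 := by
  classical
  let L : (Fin m → F) →ₗ[F] (Fin m × Fin 2 → F) :=
    LinearMap.pi fun p => (![1, i] p.2 : F) • LinearMap.proj p.1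
  have hLa : ∀ y p, L y p = (![1, i] p.2 : F) * y p.1 := fun y p => rfl
  refine of_linear_map (ι := Fin m × Fin 2) (κ := Fin m) (by simp [mul_comm]) (by simp) L ?_ ?_
  · intro y y' h
    funext k
    have := congrFun h (k, 0)
    simpa [hLa] using this
  · intro y
    rw [Fintype.sum_prod_type]
    refine Finset.sum_eq_zero fun k _ => ?_
    simp only [Fin.sum_univ_two, hLa]
    simp only [Matrix.cons_val_zero, Matrix.cons_val_one]
    linear_combination (-(y k) ^ 2) * hi

theorem backward_two {a b : F} (hab : a ^ 2 + b ^ 2 + 1 = 0) (r : ℕ) :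
    ∃ W : Submodule F (Fin (2 * (r + r)) → F), Module.finrank F W = r + r ∧
      ∀ w ∈ W, ∑ i, w i ^ 2 = 0 := by
  classical
  let c : Fin 4 → Fin 2 → F := ![![1, 0], ![0, 1], ![a, b], ![b, -a]]
  let L : (Fin r × Fin 2 → F) →ₗ[F] (Fin r × Fin 4 → F) :=
    LinearMap.pi fun p => ∑ l : Fin 2, c p.2 l • LinearMap.proj (p.1, l)
  have hLa : ∀ y p, L y p = ∑ l : Fin 2, c p.2 l * y (p.1, l) := by
    intro y p
    simp [L, LinearMap.pi_apply]
  refine of_linear_map (ι := Fin r × Fin 4) (κ := Fin r × Fin 2) (by simp; ring) (by simp; ring) L ?_ ?_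
  · intro y y' h
    funext ⟨k, l⟩
    fin_cases l
    · have := congrFun h (k, 0)
      simpa [hLa, c, Fin.sum_univ_two] using this
    · have := congrFun h (k, 1)
      simpa [hLa, c, Fin.sum_univ_two] using this
  · intro y
    rw [Fintype.sum_prod_type]
    refine Finset.sum_eq_zero fun k _ => ?_
    simp only [Fin.sum_univ_four, hLa, Fin.sum_univ_two, c]
    simp
    linear_combination (y (k, 0) ^ 2 + y (k, 1) ^ 2) * hab
end



/-- Type of the orthonormal form: over a finite field of odd order q and for m ≥ 1, the quadratic form Σ_(i<2m) x_i² on F^(2m) admits an m-dimensional subspace on which it vanishes identically if and only if it is not the case that q ≡ 3 (mod 4) and m is odd. -/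
theorem result {F : Type*} [Field F] [Fintype F] (h2 : (2 : F) ≠ 0) (m : ℕ) (hm : 1 ≤ m) : (∃ W : Submodule F (Fin (2 * m) → F), Module.finrank F W = m ∧ ∀ w ∈ W, ∑ i, w i ^ 2 = 0) ↔ ¬ (Fintype.card F % 4 = 3 ∧ Odd m) := by
  classical
  have hchar : ringChar F ≠ 2 := by
    intro hc
    apply h2
    have := ringChar.Nat.cast_ringChar (R := F)
    rw [hc] at this
    exact_mod_cast this
  have hodd : Fintype.card F % 2 = 1 := FiniteField.odd_card_of_char_ne_two hchar
  have hsq := FiniteField.isSquare_neg_one_iff (F := F)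
  constructor
  · rintro ⟨W, hW, h0⟩ ⟨h3, hm2⟩
    have := forward h2 m W hW h0
    rw [hm2.neg_one_pow] at this
    exact (hsq.1 this) h3
  · intro h
    by_cases h1 : Fintype.card F % 4 = 3
    · have hm2 : ¬ Odd m := fun hm => h ⟨h1, hm⟩
      rw [Nat.not_odd_iff_even] at hm2
      obtain ⟨r, rfl⟩ := hm2
      obtain ⟨a, b, hab⟩ := FiniteField.exists_root_sum_quadratic
        (f := Polynomial.X ^ 2) (g := Polynomial.X ^ 2 + 1)
        (by simp) (by
          rw [Polynomial.degree_add_eq_left_of_degree_lt]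
          · simp
          · simp) hodd
      simp only [Polynomial.eval_add, Polynomial.eval_pow, Polynomial.eval_X, Polynomial.eval_one] at hab
      exact backward_two (a := a) (b := b) (by linear_combination hab) r
    · obtain ⟨i, hi⟩ := hsq.2 h1
      exact backward_one hi m

end Cfsg.Agent.S0759
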