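import Mathlib
import Cfsg.Statements.S0760
import Cfsg.Agent.Lib.WittForms
-- import your own Cfsg.Agent.* helpers here

set_option autoImplicit false
open Cfsg

namespace Cfsg.Agent.S0760

theorem le_of_le {F V : Type*} [Field F] [AddCommGroup V] [Module F V] [FiniteDimensional F V]
    (Q : QuadraticForm F V) (hQ : (QuadraticMap.polarBilin Q).Nondegenerate) (W₁ W₂ : Submodule F V)
    (h₁ : ∀ w ∈ W₁, Q w = 0) (h₂ : ∀ w ∈ W₂, Q w = 0)
    (hmax₁ : ∀ W : Submodule F V, W₁ ≤ W → (∀ w ∈ W, Q w = 0) → W = W₁)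
    (hle : Module.finrank F W₁ ≤ Module.finrank F W₂) :
    Module.finrank F W₂ ≤ Module.finrank F W₁ := by
  obtain ⟨L, hL⟩ := finrank_le_iff_exists_linearMap.1 hle
  have hinj : Function.Injective (W₂.subtype ∘ₗ L) :=
    (Submodule.injective_subtype W₂).comp hL
  let φ := LinearEquiv.ofInjective (W₂.subtype ∘ₗ L) hinj
  have hφ : ∀ x, (φ x : V) = (L x : V) := fun x => rfl
  obtain ⟨g, hg1, hg2⟩ := Cfsg.Agent.Lib.WittForms.witt_quad hQ W₁ _ φ (by
    intro x
    rw [hφ, h₂ _ (L x).2, h₁ _ x.2])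
  have hW := hmax₁ (W₂.comap g.toLinearMap) (by
      intro x hx
      have h1 := hg2 ⟨x, hx⟩
      rw [hφ] at h1
      change g x ∈ W₂
      rw [h1]
      exact (L _).2) (by
      intro w hw
      rw [← hg1]
      exact h₂ _ hw)
  rw [← hW]
  have : Submodule.comap g.toLinearMap W₂ = Submodule.map g.symm.toLinearMap W₂ := by
    ext v
    simp only [Submodule.mem_comap, Submodule.mem_map]
    constructor
    · intro h
      exact ⟨g v, h, by simp⟩
    · rintro ⟨y, hy, rfl⟩
      simpa using hy
  rw [this, LinearEquiv.finrank_map_eq]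



/-- Witt index is well defined: if Q is a quadratic form on a finite-dimensional space V over a finite field with non-degenerate polar form, and W₁, W₂ are subspaces on which Q vanishes that are maximal with this property, then W₁ and W₂ have the same dimension, and twice this dimension is at most dim V. -/
theorem result {F V : Type*} [Field F] [Finite F] [AddCommGroup V] [Module F V] [FiniteDimensional F V] (Q : QuadraticForm F V) (hQ : (QuadraticMap.polarBilin Q).Nondegenerate) (W₁ W₂ : Submodule F V) (h₁ : ∀ w ∈ W₁, Q w = 0) (h₂ : ∀ w ∈ W₂, Q w = 0) (hmax₁ : ∀ W : Submodule F V, W₁ ≤ W → (∀ w ∈ W, Q w = 0) → W = W₁) (hmax₂ : ∀ W : Submodule F V, W₂ ≤ W → (∀ w ∈ W, Q w = 0) → W = W₂) : Module.finrank F W₁ = Module.finrank F W₂ ∧ 2 * Module.finrank F W₁ ≤ Module.finrank F V := by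
  refine ⟨?_, ?_⟩
  · rcases le_total (Module.finrank F W₁) (Module.finrank F W₂) with h | h
    · exact le_antisymm h (le_of_le Q hQ W₁ W₂ h₁ h₂ hmax₁ h)
    · exact le_antisymm (le_of_le Q hQ W₂ W₁ h₂ h₁ hmax₂ h) h
  · have hle : W₁ ≤ LinearMap.BilinForm.orthogonal (QuadraticMap.polarBilin Q) W₁ := by
      intro x hx y hy
      change QuadraticMap.polar (⇑Q) y x = 0
      simp only [QuadraticMap.polar]
      rw [h₁ _ (W₁.add_mem hy hx), h₁ _ hx, h₁ _ hy]
      simp
    have h1 := Submodule.finrank_mono hle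
    rw [LinearMap.BilinForm.finrank_orthogonal hQ] at h1
    have h2 := Submodule.finrank_le W₁
    omega

end Cfsg.Agent.S0760
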