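import Mathlib
import Cfsg.Statements.S0761
-- import your own Cfsg.Agent.* helpers here

set_option autoImplicit false
open Cfsg

namespace Cfsg.Agent.S0761

/-- Hyperbolic partners: let B be a non-degenerate bilinear form on a finite-dimensional space, either alternating, or symmetric with 2 ≠ 0. If Z is a subspace on which B vanishes, x ∉ Z is isotropic and orthogonal to Z, then there is an isotropic y with B x y = 1 which is orthogonal to Z. -/
theorem result {F V : Type*} [Field F] [AddCommGroup V] [Module F V] [FiniteDimensional F V] (B : LinearMap.BilinForm F V) (hB : B.Nondegenerate) (hform : B.IsAlt ∨ (B.IsSymm ∧ (2 : F) ≠ 0)) (x : V) (Z : Submodule F V) (hxZ : x ∉ Z) (hx : B x x = 0) (hxz : ∀ z ∈ Z, B x z = 0) (hZ : ∀ z ∈ Z, ∀ z' ∈ Z, B z z' = 0) : ∃ y : V, B y y = 0 ∧ B x y = 1 ∧ ∀ z ∈ Z, B z y = 0 := by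
  classical
  obtain ⟨φ, hφx, hφZ⟩ : ∃ φ : Module.Dual F V, φ x = 1 ∧ ∀ z ∈ Z, φ z = 0 := by
    obtain ⟨f, hfx, hfZ⟩ := Submodule.exists_dual_map_eq_bot_of_notMem hxZ inferInstance
    refine ⟨(f x)⁻¹ • f, by simp [hfx], ?_⟩
    intro z hz
    have : f z ∈ Submodule.map f Z := Submodule.mem_map_of_mem hz
    rw [hfZ] at this
    simp only [Submodule.mem_bot] at this
    simp [this]
  let y0 : V := (LinearMap.BilinForm.toDual B.flip hB.flip).symm φ
  have hy0 : ∀ v, B v y0 = φ v := by
    intro v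
    exact LinearMap.BilinForm.apply_toDual_symm_apply (B := B.flip) (hB := hB.flip) φ v
  have hzx : ∀ z ∈ Z, B z x = 0 := by
    intro z hz
    rcases hform with h | ⟨h, -⟩
    · exact (LinearMap.IsAlt.eq_iff h).1 (hxz z hz)
    · exact (LinearMap.BilinForm.IsSymm.eq_iff h).1 (hxz z hz)
  rcases hform with h | ⟨h, h2⟩
  · refine ⟨y0, h y0, by rw [hy0, hφx], fun z hz => by rw [hy0, hφZ z hz]⟩
  · refine ⟨y0 - (B y0 y0 / 2) • x, ?_, ?_, ?_⟩
    · have h1 : B y0 x = 1 := by
        have := h.eq x y0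
        rw [← this, hy0, hφx]
      simp only [map_sub, map_smul, LinearMap.sub_apply, LinearMap.smul_apply, smul_eq_mul, hx, h1, hy0 x, hφx]
      field_simp
      ring
    · simp only [map_sub, map_smul, smul_eq_mul, hx, hy0, hφx]
      ring
    · intro z hz
      simp only [map_sub, map_smul, smul_eq_mul, hzx z hz, hy0, hφZ z hz]
      ring

end Cfsg.Agent.S0761
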