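import Mathlib
import Cfsg.Statements.S0762
-- import your own Cfsg.Agent.* helpers here

set_option autoImplicit false
open Cfsg

namespace Cfsg.Agent.S0762

/-- In characteristic two over a finite field, a quadratic form on a space of dimension at least 3 vanishes on some non-zero vector. -/
theorem result {F V : Type*} [Field F] [Finite F] [CharP F 2] [AddCommGroup V] [Module F V] [FiniteDimensional F V] (Q : QuadraticForm F V) (h3 : 3 ≤ Module.finrank F V) : ∃ v : V, v ≠ 0 ∧ Q v = 0 := by
  classical
  have := Fintype.ofFinite F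
  have hchar : ringChar F = 2 := ringChar.eq F 2
  have htwo : (2 : F) = 0 := by
    have := CharP.cast_eq_zero F 2
    exact_mod_cast this
  have hsqrt : ∀ a : F, ∃ t : F, t * t = a := by
    intro a
    obtain ⟨t, ht⟩ := FiniteField.isSquare_of_char_two hchar a
    exact ⟨t, ht.symm⟩
  -- the key reduction
  have key : ∀ r w : V, r ≠ 0 → (∀ t : F, w + t • r ≠ 0) → QuadraticMap.polar Q w r = 0 →
      ∃ v : V, v ≠ 0 ∧ Q v = 0 := by
    intro r w hr hw hp
    by_cases hQr : Q r = 0
    · exact ⟨r, hr, hQr⟩
    · obtain ⟨t, ht⟩ := hsqrt (Q w / Q r)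
      refine ⟨w + t • r, hw t, ?_⟩
      rw [QuadraticMap.map_add (⇑Q), QuadraticMap.map_smul, QuadraticMap.polar_smul_right, hp, ht]
      simp only [smul_eq_mul, mul_zero, add_zero]
      field_simp
      linear_combination (Q w) * htwo
  let b := Module.finBasis F V
  let v : Fin 3 → V := fun i => b (Fin.castLE h3 i)
  have hv : LinearIndependent F v := b.linearIndependent.comp _ (Fin.castLE_injective h3)
  have indep : ∀ s t u : F, s • v 0 + t • v 1 + u • v 2 = 0 → s = 0 ∧ t = 0 ∧ u = 0 := by
    intro s t u h
    have := Fintype.linearIndependent_iff.1 hv ![s, t, u] (by simpa [Fin.sum_univ_three] using h)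
    exact ⟨this 0, this 1, this 2⟩
  have hne0 : v 0 ≠ 0 := hv.ne_zero 0
  have hne1 : v 1 ≠ 0 := hv.ne_zero 1
  have hself : ∀ x : V, QuadraticMap.polar Q x x = 0 := by
    intro x
    rw [QuadraticMap.polar_self]
    simp [htwo]
  set c := QuadraticMap.polar Q (v 0) (v 1) with hc
  by_cases hc0 : c = 0
  · refine key (v 0) (v 1) hne0 ?_ ?_
    · intro t h
      have := indep t 1 0 (by rw [add_comm] at h; simpa using h)
      exact one_ne_zero this.2.1
    · rw [QuadraticMap.polar_comm]; exact hc0
  · set a := QuadraticMap.polar Q (v 1) (v 2) with ha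
    set d := QuadraticMap.polar Q (v 2) (v 0) with hd
    refine key (a • v 0 + d • v 1 + c • v 2) (v 0) ?_ ?_ ?_
    · intro h
      exact hc0 (indep a d c h).2.2
    · intro t h
      have h' : (1 + t * a) • v 0 + (t * d) • v 1 + (t * c) • v 2 = 0 := by
        rw [← h]
        simp only [smul_add, add_smul, one_smul, mul_smul]
        abel
      have ht := (indep _ _ _ h').2.2
      have ht0 : t = 0 := (mul_eq_zero.1 ht).resolve_right hc0
      have := (indep _ _ _ h').1
      rw [ht0] at this
      simp at this
    · simp only [QuadraticMap.polar_add_right, QuadraticMap.polar_smul_right, hself, smul_eq_mul,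
        mul_zero, zero_add]
      rw [← hc, QuadraticMap.polar_comm Q (v 0) (v 2), ← hd]
      linear_combination (d * c) * htwo

end Cfsg.Agent.S0762
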