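import Mathlib
import Cfsg.Statements.S0763
-- import your own Cfsg.Agent.* helpers here

set_option autoImplicit false
open Cfsg

namespace Cfsg.Agent.S0763

/-- Binary quadratic forms in characteristic two over a finite field: if Q is a quadratic form on a 2-dimensional space whose polar form is non-degenerate, then either there are vectors v, w with Q v = Q w = 0 and polar value 1 (Q is xy in these coordinates), or there are v, w and μ with Q v = 1, Q w = μ, polar value 1 and x² + x + μ without roots in F (Q is x² + xy + μy²). -/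
theorem result {F V : Type*} [Field F] [Finite F] [CharP F 2] [AddCommGroup V] [Module F V] (Q : QuadraticForm F V) (h2 : Module.finrank F V = 2) (hQ : (QuadraticMap.polarBilin Q).Nondegenerate) : (∃ v w : V, LinearIndependent F ![v, w] ∧ Q v = 0 ∧ Q w = 0 ∧ QuadraticMap.polar Q v w = 1) ∨ (∃ (v w : V) (μ : F), LinearIndependent F ![v, w] ∧ (∀ x : F, x ^ 2 + x + μ ≠ 0) ∧ Q v = 1 ∧ Q w = μ ∧ QuadraticMap.polar Q v w = 1) := by
  classical
  have := Fintype.ofFinite F
  have hchar : ringChar F = 2 := ringChar.eq F 2
  have htwo : (2 : F) = 0 := by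
    have := CharP.cast_eq_zero F 2
    exact_mod_cast this
  have hsqrt : ∀ a : F, ∃ t : F, t * t = a := by
    intro a
    obtain ⟨t, ht⟩ := FiniteField.isSquare_of_char_two hchar a
    exact ⟨t, ht.symm⟩
  have hself : ∀ x : V, QuadraticMap.polar Q x x = 0 := by
    intro x
    rw [QuadraticMap.polar_self]
    simp [htwo]
  have hsep : ∀ x : V, x ≠ 0 → ∃ u, QuadraticMap.polar Q x u = 1 := by
    intro x hx
    by_contra hcon
    push Not at hcon
    apply hx
    apply hQ.1
    intro y
    by_contra hy
    have hy' : QuadraticMap.polar Q x y ≠ 0 := hy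
    apply hcon ((QuadraticMap.polar Q x y)⁻¹ • y)
    rw [QuadraticMap.polar_smul_right, smul_eq_mul, inv_mul_cancel₀ hy']
  have hind : ∀ v w : V, v ≠ 0 → QuadraticMap.polar Q v w = 1 → LinearIndependent F ![v, w] := by
    intro v w hv hp
    rw [LinearIndependent.pair_iff]
    intro s t h
    have h1 : QuadraticMap.polar Q v (s • v + t • w) = 0 := by
      rw [h]; exact QuadraticMap.polar_zero_right Q v
    rw [QuadraticMap.polar_add_right, QuadraticMap.polar_smul_right, QuadraticMap.polar_smul_right,
      hself, hp] at h1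
    have ht : t = 0 := by simpa using h1
    refine ⟨?_, ht⟩
    rw [ht, zero_smul, add_zero] at h
    exact (smul_eq_zero.1 h).resolve_right hv
  by_cases hiso : ∃ v : V, v ≠ 0 ∧ Q v = 0
  · left
    obtain ⟨v, hv, hQv⟩ := hiso
    obtain ⟨u, hu⟩ := hsep v hv
    refine ⟨v, u + Q u • v, ?_, hQv, ?_, ?_⟩
    · apply hind v _ hv
      rw [QuadraticMap.polar_add_right, QuadraticMap.polar_smul_right, hself, hu]
      simp
    · rw [QuadraticMap.map_add (⇑Q), QuadraticMap.map_smul, hQv, QuadraticMap.polar_smul_right,
        QuadraticMap.polar_comm, hu]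
      simp only [smul_eq_mul, mul_zero, add_zero, mul_one]
      linear_combination (Q u) * htwo
    · rw [QuadraticMap.polar_add_right, QuadraticMap.polar_smul_right, hself, hu]
      simp
  · right
    push Not at hiso
    have : Nontrivial V := Module.nontrivial_of_finrank_pos (R := F) (by omega)
    obtain ⟨v', hv'⟩ := exists_ne (0 : V)
    obtain ⟨a, ha⟩ := hsqrt (Q v')⁻¹
    have hQv' : Q v' ≠ 0 := hiso v' hv'
    have ha0 : a ≠ 0 := by
      rintro rfl
      simp only [mul_zero] at ha
      exact inv_ne_zero hQv' ha.symm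
    have hv : a • v' ≠ 0 := smul_ne_zero ha0 hv'
    have hQv : Q (a • v') = 1 := by
      rw [QuadraticMap.map_smul, ha, smul_eq_mul, inv_mul_cancel₀ hQv']
    obtain ⟨w, hw⟩ := hsep _ hv
    refine ⟨a • v', w, Q w, hind _ _ hv hw, ?_, hQv, rfl, hw⟩
    intro x hx
    have hne : w + x • (a • v') ≠ 0 := by
      intro h
      have h1 : QuadraticMap.polar Q (a • v') (w + x • (a • v')) = 0 := by
        rw [h]; exact QuadraticMap.polar_zero_right Q _
      rw [QuadraticMap.polar_add_right, QuadraticMap.polar_smul_right, hself, hw] at h1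
      simp at h1
    apply hiso _ hne
    rw [QuadraticMap.map_add (⇑Q), QuadraticMap.map_smul, hQv, QuadraticMap.polar_smul_right,
      QuadraticMap.polar_comm, hw]
    simp only [smul_eq_mul, mul_one]
    linear_combination hx

end Cfsg.Agent.S0763
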