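import Mathlib
import Cfsg.Statements.S0770
-- import your own Cfsg.Agent.* helpers here

set_option autoImplicit false
open Cfsg

namespace Cfsg.Agent.S0770

/-- For a field with at least 3 elements, an invertible matrix normalises the subgroup of invertible diagonal matrices of GL_n if and only if it is monomial (exactly one non-zero entry in each row). -/
theorem result {F : Type*} [Field F] (hF : ∃ a : F, a ≠ 0 ∧ a ≠ 1) (n : ℕ) (g : Matrix.GeneralLinearGroup (Fin n) F) : g ∈ Subgroup.normalizer ((Units.map (Matrix.diagonalRingHom (Fin n) F).toMonoidHom).range : Subgroup (Matrix.GeneralLinearGroup (Fin n) F)) ↔ ∀ i : Fin n, ∃! j : Fin n, (g : Matrix (Fin n) (Fin n) F) i j ≠ 0 := by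
  classical
  set D : Subgroup (Matrix.GeneralLinearGroup (Fin n) F) :=
    (Units.map (Matrix.diagonalRingHom (Fin n) F).toMonoidHom).range with hDdef
  -- membership in `D` in terms of diagonal matrices
  have hD : ∀ h : Matrix.GeneralLinearGroup (Fin n) F,
      h ∈ D ↔ ∃ d : Fin n → F, (h : Matrix (Fin n) (Fin n) F) = Matrix.diagonal d := by
    intro h
    constructor
    · rintro ⟨u, rfl⟩
      exact ⟨(u : Fin n → F), rfl⟩
    · rintro ⟨d, hd⟩
      have hdet : ∏ i, d i ≠ 0 := by
        rw [← Matrix.det_diagonal, ← hd]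
        exact (Matrix.isUnit_iff_isUnit_det _).1 h.isUnit |>.ne_zero
      have hdi : ∀ i, d i ≠ 0 := fun i => (Finset.prod_ne_zero_iff.1 hdet) i (Finset.mem_univ i)
      let u : (Fin n → F)ˣ :=
        ⟨d, fun i => (d i)⁻¹, by ext i; simp [hdi i], by ext i; simp [hdi i]⟩
      refine ⟨u, ?_⟩
      ext i j
      have : (Matrix.diagonal d) i j = (h : Matrix (Fin n) (Fin n) F) i j := by rw [hd]
      simp only [Units.coe_map, MonoidHom.coe_coe]
      rw [← this]
      rfl
  have hcoe : ∀ a b : Matrix.GeneralLinearGroup (Fin n) F,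
      ((a * b : Matrix.GeneralLinearGroup (Fin n) F) : Matrix (Fin n) (Fin n) F)
        = (a : Matrix (Fin n) (Fin n) F) * (b : Matrix (Fin n) (Fin n) F) := fun _ _ => rfl
  have hdetg : (g : Matrix (Fin n) (Fin n) F).det ≠ 0 :=
    ((Matrix.isUnit_iff_isUnit_det _).1 g.isUnit).ne_zero
  rw [Subgroup.mem_normalizer_iff]
  constructor
  · intro hg i
    obtain ⟨a, ha0, ha1⟩ := hF
    -- a non-zero entry in the row
    obtain ⟨j, hj⟩ : ∃ j, (g : Matrix (Fin n) (Fin n) F) i j ≠ 0 := by
      by_contra hcon
      push Not at hcon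
      exact hdetg (Matrix.det_eq_zero_of_row_eq_zero i hcon)
    refine ⟨j, hj, ?_⟩
    intro j' hj'
    by_contra hne
    -- the diagonal matrix with `a` at `j` and `1` elsewhere
    let d : Fin n → F := fun k => if k = j then a else 1
    have hd0 : ∀ k, d k ≠ 0 := by
      intro k
      by_cases hk : k = j <;> simp [d, hk, ha0]
    let u : (Fin n → F)ˣ :=
      ⟨d, fun i => (d i)⁻¹, by ext i; simp [hd0 i], by ext i; simp [hd0 i]⟩
    let h : Matrix.GeneralLinearGroup (Fin n) F := Units.map (Matrix.diagonalRingHom (Fin n) F).toMonoidHom u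
    have hh : h ∈ D := ⟨u, rfl⟩
    have hhm : (h : Matrix (Fin n) (Fin n) F) = Matrix.diagonal d := rfl
    obtain ⟨e, he⟩ := (hD _).1 ((hg h).1 hh)
    have hgh : (g : Matrix (Fin n) (Fin n) F) * Matrix.diagonal d = Matrix.diagonal e * (g : Matrix (Fin n) (Fin n) F) := by
      rw [← he, ← hhm, ← hcoe, ← hcoe]
      congr 1
      group
    have h1 := congrFun (congrFun hgh i) j
    have h2 := congrFun (congrFun hgh i) j'
    rw [Matrix.mul_diagonal, Matrix.diagonal_mul] at h1 h2
    have h3 : d j = e i := by
      apply mul_left_cancel₀ hj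
      rw [h1]; ring
    have h4 : d j' = e i := by
      apply mul_left_cancel₀ hj'
      rw [h2]; ring
    have h5 : d j = a := by simp [d]
    have h6 : d j' = 1 := by simp [d, hne]
    rw [h5] at h3
    rw [h6] at h4
    exact ha1 (h3.trans h4.symm)
  · intro hg h
    choose π hπ hπu using hg
    have hsurj : Function.Surjective π := by
      intro j
      by_contra hcon
      push Not at hcon
      apply hdetg
      apply Matrix.det_eq_zero_of_column_eq_zero j
      intro i
      by_contra hne
      exact hcon i (hπu i j hne).symm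
    have hinj : Function.Injective π := Finite.injective_iff_surjective.2 hsurj
    let σ : Equiv.Perm (Fin n) := Equiv.ofBijective π ⟨hinj, hsurj⟩
    have hgd : ∀ d : Fin n → F, (g : Matrix (Fin n) (Fin n) F) * Matrix.diagonal d
        = Matrix.diagonal (d ∘ π) * (g : Matrix (Fin n) (Fin n) F) := by
      intro d
      ext i k
      rw [Matrix.mul_diagonal, Matrix.diagonal_mul]
      by_cases hk : (g : Matrix (Fin n) (Fin n) F) i k = 0
      · simp [hk]
      · have := hπu i k hk
        subst this
        simp [mul_comm]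
    have hginv : ∀ x y : Matrix.GeneralLinearGroup (Fin n) F,
        (g : Matrix (Fin n) (Fin n) F) * (x : Matrix (Fin n) (Fin n) F)
          = (y : Matrix (Fin n) (Fin n) F) * (g : Matrix (Fin n) (Fin n) F) → g * x * g⁻¹ = y := by
      intro x y hxy
      have : g * x = y * g := Units.ext hxy
      rw [this]
      group
    constructor
    · intro hh
      obtain ⟨d, hd⟩ := (hD h).1 hh
      rw [hD]
      refine ⟨d ∘ π, ?_⟩
      have : (g : Matrix (Fin n) (Fin n) F) * (h : Matrix (Fin n) (Fin n) F)
          * ((g⁻¹ : Matrix.GeneralLinearGroup (Fin n) F) : Matrix (Fin n) (Fin n) F)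
          = Matrix.diagonal (d ∘ π) := by
        rw [hd, hgd, Matrix.mul_assoc, ← hcoe]
        simp
      simpa [hcoe] using this
    · intro hh
      obtain ⟨e, he⟩ := (hD _).1 hh
      rw [hD]
      refine ⟨e ∘ σ.symm, ?_⟩
      have h1 : (g : Matrix (Fin n) (Fin n) F) * (h : Matrix (Fin n) (Fin n) F)
          = Matrix.diagonal e * (g : Matrix (Fin n) (Fin n) F) := by
        rw [← he, ← hcoe, ← hcoe]
        congr 1
        group
      have h2 : (g : Matrix (Fin n) (Fin n) F) * Matrix.diagonal (e ∘ σ.symm)
          = Matrix.diagonal e * (g : Matrix (Fin n) (Fin n) F) := by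
        rw [hgd]
        congr 2
        ext i
        have : σ.symm (π i) = i := σ.symm_apply_apply i
        simp [this]
      have h3 : (g : Matrix (Fin n) (Fin n) F) * (h : Matrix (Fin n) (Fin n) F)
          = (g : Matrix (Fin n) (Fin n) F) * Matrix.diagonal (e ∘ σ.symm) := by
        rw [h1, h2]
      exact (g.isUnit.mul_right_inj).1 h3

end Cfsg.Agent.S0770
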