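import Mathlib
import Cfsg.Statements.S0777
import Cfsg.Agent.Lib.SpLevi
-- import your own Cfsg.Agent.* helpers here

set_option autoImplicit false
open Cfsg

namespace Cfsg.Agent.S0777

open Matrix Cfsg Cfsg.Agent.Lib.SympForm Cfsg.Agent.Lib.SympWitt Cfsg.Agent.Lib.SpLevi

section
variable {F : Type*} [Field F] {m : ℕ}

/-- the standard basis vector. -/
local notation "ee" => fun (a : Fin m ⊕ Fin m) => (Pi.single a (1 : F) : Fin m ⊕ Fin m → F)

/-- The torus. -/
def TT (m : ℕ) (F : Type*) [Field F] : Subgroup (symplecticGroup (Fin m) F) :=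
  ⨅ i : Fin m ⊕ Fin m, stabilizing (spToMat m F) ((Submodule.span F {(Pi.single i (1 : F) : Fin m ⊕ Fin m → F)} : Submodule F (Fin m ⊕ Fin m → F)) : Set (Fin m ⊕ Fin m → F))

theorem inv_mulVec_mulVec (g : symplecticGroup (Fin m) F) (x : Fin m ⊕ Fin m → F) :
    (g⁻¹).1 *ᵥ (g.1 *ᵥ x) = x := by
  rw [← mulVec_val_mul, inv_mul_cancel]
  exact Matrix.one_mulVec x

theorem mulVec_inv_mulVec (g : symplecticGroup (Fin m) F) (x : Fin m ⊕ Fin m → F) :
    g.1 *ᵥ ((g⁻¹).1 *ᵥ x) = x := by
  rw [← mulVec_val_mul, mul_inv_cancel]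
  exact Matrix.one_mulVec x

theorem mulVec_inj (g : symplecticGroup (Fin m) F) {x y : Fin m ⊕ Fin m → F}
    (h : g.1 *ᵥ x = g.1 *ᵥ y) : x = y := by
  have := congrArg (fun z => (g⁻¹).1 *ᵥ z) h
  simpa only [inv_mulVec_mulVec] using this

theorem ee_ne_zero (a : Fin m ⊕ Fin m) : (Pi.single a (1 : F) : Fin m ⊕ Fin m → F) ≠ 0 := by
  intro h
  have := congrFun h a
  simp at this

theorem mem_TT_iff (t : symplecticGroup (Fin m) F) :
    t ∈ TT m F ↔ ∀ a, ∃ c : F, t.1 *ᵥ (ee a) = c • (ee a) := by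
  unfold TT
  rw [Subgroup.mem_iInf]
  constructor
  · intro h a
    have h1 := (h a (Pi.single a 1)).1 (Submodule.mem_span_singleton_self _)
    obtain ⟨c, hc⟩ := Submodule.mem_span_singleton.1 h1
    exact ⟨c, hc.symm⟩
  · intro h a v
    obtain ⟨c, hc⟩ := h a
    have hc0 : c ≠ 0 := by
      rintro rfl
      rw [zero_smul] at hc
      have := mulVec_inj t (x := ee a) (y := 0) (by rw [hc, Matrix.mulVec_zero])
      exact ee_ne_zero a this
    constructor
    · intro hv
      obtain ⟨r, rfl⟩ := Submodule.mem_span_singleton.1 hv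
      refine Submodule.mem_span_singleton.2 ⟨r * c, ?_⟩
      change _ = t.1 *ᵥ (r • ee a)
      rw [Matrix.mulVec_smul, hc, smul_smul]
    · intro hv
      obtain ⟨r, hr⟩ := Submodule.mem_span_singleton.1 hv
      refine Submodule.mem_span_singleton.2 ⟨r * c⁻¹, ?_⟩
      apply mulVec_inj t
      rw [Matrix.mulVec_smul, hc, smul_smul, inv_mul_cancel_right₀ hc0]
      exact hr

/-- the weight of a torus element. -/
def wt (w : Fin m → Fˣ) : Fin m ⊕ Fin m → F
  | Sum.inl i => (w i : F)
  | Sum.inr i => ((w i)⁻¹ : Fˣ)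

theorem exists_torus (w : Fin m → Fˣ) :
    ∃ t : symplecticGroup (Fin m) F, ∀ v a, (t.1 *ᵥ v) a = wt w a * v a := by
  let g : (Fin m ⊕ Fin m → F) →ₗ[F] (Fin m ⊕ Fin m → F) := Matrix.toLin' (Matrix.diagonal (wt w))
  have hg : ∀ v a, g v a = wt w a * v a := by
    intro v a
    simp [g, Matrix.mulVec_diagonal]
  obtain ⟨t, ht⟩ := exists_sp_of_equiv g (by
    intro u v
    rw [sympForm_apply, sympForm_apply]
    refine Finset.sum_congr rfl fun i _ => ?_
    simp only [hg, wt]
    have h1 : ((w i)⁻¹ : Fˣ) * (w i : F) = 1 := by simp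
    linear_combination (u (Sum.inr i) * v (Sum.inl i) - u (Sum.inl i) * v (Sum.inr i)) * h1)
  exact ⟨t, fun v a => by rw [ht, hg]⟩

theorem torus_mem {t : symplecticGroup (Fin m) F} {w : Fin m → Fˣ}
    (ht : ∀ v a, (t.1 *ᵥ v) a = wt w a * v a) : t ∈ TT m F := by
  rw [mem_TT_iff]
  intro a
  refine ⟨wt w a, ?_⟩
  funext b
  rw [ht]
  by_cases h : b = a
  · subst h; simp
  · simp [h]

theorem exists_wt_ne {d : Fˣ} (hd : d * d ≠ 1) {a b : Fin m ⊕ Fin m} (hab : a ≠ b) :
    ∃ w : Fin m → Fˣ, wt w a ≠ wt (F := F) w b := by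
  classical
  have hd1 : d ≠ 1 := by rintro rfl; simp at hd
  have hd2 : d ≠ d⁻¹ := by
    intro h
    apply hd
    nth_rw 2 [h]
    simp
  have hd1' : (d : F) ≠ 1 := by simpa using hd1
  have hd3 : ((d⁻¹ : Fˣ) : F) ≠ 1 := by simpa using hd1
  have hd4 : (d : F) ≠ ((d⁻¹ : Fˣ) : F) := fun h => hd2 (Units.ext h)
  rcases a with i | i
  · refine ⟨fun j => if j = i then d else 1, ?_⟩
    rcases b with j | j
    · have : j ≠ i := fun h => hab (by rw [h])
      simp [wt, this, hd1']
    · by_cases h : j = i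
      · subst h
        simpa [wt] using hd4
      · simp [wt, h, hd1']
  · refine ⟨fun j => if j = i then d else 1, ?_⟩
    rcases b with j | j
    · by_cases h : j = i
      · subst h
        simpa [wt] using hd4.symm
      · simpa [wt, h] using hd3
    · have : j ≠ i := fun h => hab (by rw [h])
      simpa [wt, this] using hd3

/-- A common eigenvector of the torus is on an axis. -/
theorem on_axis {d : Fˣ} (hd : d * d ≠ 1) {x : Fin m ⊕ Fin m → F} (hx : x ≠ 0)
    (h : ∀ t ∈ TT m F, ∃ l : F, t.1 *ᵥ x = l • x) :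
    ∃ a, ∃ c : Fˣ, x = (c : F) • ee a := by
  classical
  obtain ⟨a, ha⟩ : ∃ a, x a ≠ 0 := by
    by_contra hc
    push Not at hc
    exact hx (funext hc)
  refine ⟨a, Units.mk0 _ ha, ?_⟩
  have key : ∀ b, b ≠ a → x b = 0 := by
    intro b hb
    by_contra hxb
    obtain ⟨w, hw⟩ := exists_wt_ne (F := F) hd hb
    obtain ⟨t, ht⟩ := exists_torus w
    obtain ⟨l, hl⟩ := h t (torus_mem ht)
    have h1 := congrFun hl a
    have h2 := congrFun hl b
    rw [ht] at h1 h2
    simp only [Pi.smul_apply, smul_eq_mul] at h1 h2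
    have h3 : wt w a = l := mul_right_cancel₀ ha h1
    have h4 : wt w b = l := mul_right_cancel₀ hxb h2
    exact hw (h4.trans h3.symm)
  funext b
  by_cases hb : b = a
  · subst hb; simp
  · simp [key b hb, hb]

theorem exists_d {q : ℕ} [Fintype F] (hF : Fintype.card F = q) (hq : 4 ≤ q) :
    ∃ d : Fˣ, d * d ≠ 1 := by
  classical
  by_contra h
  push Not at h
  have h1 : ∀ d : Fˣ, d ∈ ({1, -1} : Finset Fˣ) := by
    intro d
    have h2 := h d
    have h3 : ((d : F) - 1) * ((d : F) + 1) = 0 := by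
      have := congrArg (Units.val) h2
      simp only [Units.val_mul, Units.val_one] at this
      linear_combination this
    rcases mul_eq_zero.1 h3 with h4 | h4
    · simp only [Finset.mem_insert, Finset.mem_singleton]
      left
      apply Units.ext
      simpa using sub_eq_zero.1 h4
    · simp only [Finset.mem_insert, Finset.mem_singleton]
      right
      apply Units.ext
      simpa using eq_neg_of_add_eq_zero_left h4
  have h5 : Fintype.card Fˣ ≤ 2 := by
    calc Fintype.card Fˣ = (Finset.univ : Finset Fˣ).card := rfl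
      _ ≤ ({1, -1} : Finset Fˣ).card := Finset.card_le_card (fun x _ => h1 x)
      _ ≤ 2 := Finset.card_le_two
  rw [Fintype.card_units, hF] at h5
  omega

/-- Elements of the normaliser are monomial. -/
theorem mono_of_mem_normalizer {d : Fˣ} (hd : d * d ≠ 1) {g : symplecticGroup (Fin m) F}
    (hg : g ∈ Subgroup.normalizer (TT m F : Set (symplecticGroup (Fin m) F))) (a : Fin m ⊕ Fin m) :
    ∃ b, ∃ c : Fˣ, g.1 *ᵥ (ee a) = (c : F) • ee b := by
  refine on_axis hd ?_ ?_
  · intro h
    exact ee_ne_zero a (mulVec_inj g (by rw [h, Matrix.mulVec_zero]))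
  · intro t ht
    have h1 : g⁻¹ * t * g ∈ TT m F := (Subgroup.mem_set_normalizer_iff''.1 hg t).1 ht
    obtain ⟨c, hc⟩ := (mem_TT_iff _).1 h1 a
    refine ⟨c, ?_⟩
    have h2 : g.1 *ᵥ ((g⁻¹ * t * g).1 *ᵥ ee a) = g.1 *ᵥ (c • ee a) := by rw [hc]
    rw [Matrix.mulVec_smul] at h2
    rw [← h2, mul_assoc, mulVec_val_mul, mulVec_inv_mulVec, mulVec_val_mul]

/-- monomial implies conjugation preserves the torus -/
theorem conj_mem {g t : symplecticGroup (Fin m) F}
    (hg : ∀ a, ∃ b, ∃ c : Fˣ, (g⁻¹).1 *ᵥ (ee a) = (c : F) • ee b) (ht : t ∈ TT m F) :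
    g * t * g⁻¹ ∈ TT m F := by
  rw [mem_TT_iff] at ht ⊢
  intro a
  obtain ⟨b, c, hb⟩ := hg a
  obtain ⟨l, hl⟩ := ht b
  refine ⟨l, ?_⟩
  rw [mul_assoc, mulVec_val_mul, mulVec_val_mul, hb, Matrix.mulVec_smul, hl, smul_comm, Matrix.mulVec_smul, ← hb, mulVec_inv_mulVec]

/-- monomial elements have monomial inverses -/
theorem mono_inv {g : symplecticGroup (Fin m) F}
    (hg : ∀ a, ∃ b, ∃ c : Fˣ, g.1 *ᵥ (ee a) = (c : F) • ee b) :
    ∀ a, ∃ b, ∃ c : Fˣ, (g⁻¹).1 *ᵥ (ee a) = (c : F) • ee b := by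
  classical
  choose π c hπ using hg
  have hinj : Function.Injective π := by
    intro a a' h
    have h1 : g.1 *ᵥ (((c a') : F) • ee a) = g.1 *ᵥ (((c a) : F) • ee a') := by
      rw [Matrix.mulVec_smul, Matrix.mulVec_smul, hπ, hπ, h, smul_smul, smul_smul, mul_comm]
    have h2 := congrFun (mulVec_inj g h1) a
    by_contra hne
    have hne' : a ≠ a' := hne
    simp [hne'] at h2
  have hsurj := Finite.injective_iff_surjective.1 hinj
  intro a
  obtain ⟨a₀, rfl⟩ := hsurj a
  refine ⟨a₀, (c a₀)⁻¹, ?_⟩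
  have h1 := hπ a₀
  have h2 : (g⁻¹).1 *ᵥ (g.1 *ᵥ ee a₀) = (g⁻¹).1 *ᵥ (((c a₀) : F) • ee (π a₀)) := by rw [h1]
  rw [inv_mulVec_mulVec, Matrix.mulVec_smul] at h2
  rw [h2, smul_smul]
  simp

theorem mem_normalizer_of_mono {g : symplecticGroup (Fin m) F}
    (hg : ∀ a, ∃ b, ∃ c : Fˣ, g.1 *ᵥ (ee a) = (c : F) • ee b) :
    g ∈ Subgroup.normalizer (TT m F : Set (symplecticGroup (Fin m) F)) := by
  intro t
  constructor
  · intro ht
    exact conj_mem (mono_inv hg) ht
  · intro ht
    have h1 : g⁻¹ * (g * t * g⁻¹) * (g⁻¹)⁻¹ ∈ TT m F := conj_mem (g := g⁻¹) (by simpa using hg) ht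
    have h2 : g⁻¹ * (g * t * g⁻¹) * (g⁻¹)⁻¹ = t := by group
    rwa [h2] at h1

/-- the positions -/
def side (b : Bool) (i : Fin m) : Fin m ⊕ Fin m := if b then Sum.inl i else Sum.inr i

theorem form_side (b b' : Bool) (i j : Fin m) :
    sympForm m F (ee (side b i)) (ee (side b' j)) =
      if i = j then (if b then (if b' then 0 else -1) else (if b' then 1 else 0)) else 0 := by
  rw [sympForm_single]
  cases b <;> cases b' <;> simp [side]

/-- the data. -/
abbrev Data (m : ℕ) (F : Type*) [Field F] := Equiv.Perm (Fin m) × (Fin m → Bool) × (Fin m → Fˣ)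

/-- the images of the basis vectors -/
def img (D : Data m F) : Fin m ⊕ Fin m → (Fin m ⊕ Fin m → F)
  | Sum.inl i => (D.2.2 i : F) • ee (side (D.2.1 i) (D.1 i))
  | Sum.inr i => (if D.2.1 i then (((D.2.2 i)⁻¹ : Fˣ) : F) else -(((D.2.2 i)⁻¹ : Fˣ) : F)) •
      ee (side (!D.2.1 i) (D.1 i))

theorem img_form (D : Data m F) (a b : Fin m ⊕ Fin m) :
    sympForm m F (img D a) (img D b) = sympForm m F (ee a) (ee b) := by
  obtain ⟨τ, s, c⟩ := D
  rcases a with i | i <;> rcases b with j | j <;>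
    simp only [img, sympForm_smul_left, sympForm_smul_right, form_side] <;>
    rw [sympForm_single] <;> simp only [τ.injective.eq_iff]
  · by_cases hij : i = j
    · subst hij
      cases s i <;> simp
    · simp [hij]
  · by_cases hij : i = j
    · subst hij
      cases h : s i <;> simp
    · simp [hij]
  · by_cases hij : i = j
    · subst hij
      cases h : s i <;> simp
    · simp [hij]
  · by_cases hij : i = j
    · subst hij
      cases s i <;> simp
    · simp [hij]

theorem exists_Phi (D : Data m F) :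
    ∃ g : symplecticGroup (Fin m) F, ∀ a, g.1 *ᵥ ee a = img D a := by
  classical
  let g₀ : (Fin m ⊕ Fin m → F) →ₗ[F] (Fin m ⊕ Fin m → F) := (Pi.basisFun F _).constr F (img D)
  have h0 : ∀ a, g₀ (ee a) = img D a := by
    intro a
    have := (Pi.basisFun F (Fin m ⊕ Fin m)).constr_basis F (img D) a
    rw [Pi.basisFun_apply] at this
    exact this
  have h1 : ((sympB m F).compl₁₂ g₀ g₀) = sympB m F := by
    apply LinearMap.BilinForm.ext_basis (Pi.basisFun F (Fin m ⊕ Fin m))
    intro i j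
    simp only [Pi.basisFun_apply, LinearMap.compl₁₂_apply, sympB_apply]
    rw [h0, h0, img_form]
  obtain ⟨g, hg⟩ := exists_sp_of_equiv g₀ (by
    intro u v
    have := LinearMap.congr_fun₂ h1 u v
    simpa using this)
  exact ⟨g, fun a => by rw [hg, h0]⟩

theorem img_mono (D : Data m F) (a : Fin m ⊕ Fin m) :
    ∃ b, ∃ c : Fˣ, img D a = (c : F) • ee b := by
  obtain ⟨τ, s, c⟩ := D
  rcases a with i | i
  · exact ⟨_, c i, rfl⟩
  · by_cases h : s i
    · refine ⟨side (!s i) (τ i), (c i)⁻¹, ?_⟩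
      simp [img, h]
    · refine ⟨side (!s i) (τ i), -(c i)⁻¹, ?_⟩
      simp [img, h]

theorem side_inj {b b' : Bool} {i j : Fin m} (h : side b i = side b' j) : b = b' ∧ i = j := by
  cases b <;> cases b' <;> simp_all [side]

theorem smul_ee_inj {c c' : Fˣ} {a a' : Fin m ⊕ Fin m}
    (h : (c : F) • (Pi.single a (1 : F) : Fin m ⊕ Fin m → F) = (c' : F) • Pi.single a' (1 : F)) :
    c = c' ∧ a = a' := by
  classical
  have h1 := congrFun h a
  by_cases ha : a = a'
  · subst ha
    simp at h1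
    exact ⟨Units.ext h1, rfl⟩
  · simp [ha] at h1

theorem img_inj {D D' : Data m F} (h : ∀ a, img D a = img D' a) : D = D' := by
  obtain ⟨τ, s, c⟩ := D
  obtain ⟨τ', s', c'⟩ := D'
  have key : ∀ i, c i = c' i ∧ s i = s' i ∧ τ i = τ' i := by
    intro i
    have := h (Sum.inl i)
    simp only [img] at this
    obtain ⟨h1, h2⟩ := smul_ee_inj this
    obtain ⟨h3, h4⟩ := side_inj h2
    exact ⟨h1, h3, h4⟩
  have h1 : τ = τ' := Equiv.ext fun i => (key i).2.2
  have h2 : s = s' := funext fun i => (key i).2.1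
  have h3 : c = c' := funext fun i => (key i).1
  rw [h1, h2, h3]

theorem side_rep (x : Fin m ⊕ Fin m) : ∃ b i, x = side b i := by
  rcases x with i | i
  · exact ⟨true, i, rfl⟩
  · exact ⟨false, i, rfl⟩

/-- A monomial symplectic matrix comes from data. -/
theorem mono_data {g : symplecticGroup (Fin m) F}
    (hg : ∀ a, ∃ b, ∃ c : Fˣ, g.1 *ᵥ (ee a) = (c : F) • ee b) :
    ∃ D : Data m F, ∀ a, g.1 *ᵥ ee a = img D a := by
  classical
  choose π c hπ using hg
  have hrep : ∀ i : Fin m, ∃ b k, π (Sum.inl i) = side b k := fun i => side_rep _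
  choose s τ₀ hτ using hrep
  have hform : ∀ a a', ((c a : F) * (c a' : F)) * sympForm m F (ee (π a)) (ee (π a')) = sympForm m F (ee a) (ee a') := by
    intro a a'
    have := sp_preserves g (ee a) (ee a')
    rw [hπ, hπ, sympForm_smul_left, sympForm_smul_right] at this
    rw [← this]
    ring
  have hinj : Function.Injective τ₀ := by
    intro i j hij
    by_contra hne
    have h1 := hform (Sum.inl i) (Sum.inl j)
    rw [hτ, hτ, form_side, sympForm_single, if_pos hij] at h1
    simp only at h1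
    have hci := (c (Sum.inl i)).ne_zero
    have hcj := (c (Sum.inl j)).ne_zero
    have hs : s i = s j := by
      cases hsi : s i <;> cases hsj : s j <;> simp_all
    have h2 : π (Sum.inl i) = π (Sum.inl j) := by rw [hτ, hτ, hs, hij]
    have h3 : g.1 *ᵥ (((c (Sum.inl j)) : F) • ee (Sum.inl i)) = g.1 *ᵥ (((c (Sum.inl i)) : F) • ee (Sum.inl j)) := by
      rw [Matrix.mulVec_smul, Matrix.mulVec_smul, hπ, hπ, h2, smul_smul, smul_smul, mul_comm]
    have h4 := congrFun (mulVec_inj g h3) (Sum.inl i)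
    simp [hne] at h4
  let τ : Equiv.Perm (Fin m) := Equiv.ofBijective τ₀ (Finite.injective_iff_bijective.1 hinj)
  have hττ : ∀ i, τ i = τ₀ i := fun i => rfl
  refine ⟨(τ, s, fun i => c (Sum.inl i)), ?_⟩
  rintro (i | i)
  · rw [hπ, hτ]
    rfl
  · rw [hπ]
    obtain ⟨t, k, ht⟩ := side_rep (π (Sum.inr i))
    have h1 := hform (Sum.inl i) (Sum.inr i)
    rw [hτ, ht, form_side, sympForm_single] at h1
    simp only [if_true] at h1
    have hci := (c (Sum.inl i)).ne_zero
    have hk : τ₀ i = k := by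
      by_contra hne
      simp [hne] at h1
    subst hk
    simp only [if_true] at h1
    rw [ht]
    simp only [img, hττ]
    cases hsi : s i <;> cases ht' : t <;> simp [hsi, ht'] at h1 ⊢
    · have : ((c (Sum.inr i) : Fˣ) : F) = -((c (Sum.inl i) : Fˣ) : F)⁻¹ := by
        field_simp
        linear_combination h1
      rw [this, neg_smul]
    · have : ((c (Sum.inr i) : Fˣ) : F) = ((c (Sum.inl i) : Fˣ) : F)⁻¹ := by
        field_simp
        linear_combination h1
      rw [this]

end


/-- Weyl group of type C_m: for q ≥ 4 the diagonal matrices of Sp_2m(q) form a torus T ≅ (C_(q−1))^m (the elements stabilising every coordinate axis), and the normaliser of T in Sp_2m(q) has order 2^m · m! · (q − 1)^m. -/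
theorem result {F : Type*} [Field F] [Fintype F] {q : ℕ} (hF : Fintype.card F = q) (hq : 4 ≤ q) (m : ℕ) : Nat.card ↥(Subgroup.normalizer (⨅ i : Fin m ⊕ Fin m, Cfsg.stabilizing (Cfsg.spToMat m F) ((Submodule.span F {(Pi.single i (1 : F) : Fin m ⊕ Fin m → F)} : Submodule F (Fin m ⊕ Fin m → F)) : Set (Fin m ⊕ Fin m → F)) : Set (Matrix.symplecticGroup (Fin m) F))) = 2 ^ m * Nat.factorial m * (q - 1) ^ m := by
  classical
  obtain ⟨d, hd⟩ := exists_d (F := F) hF hq
  have hset : (⨅ i : Fin m ⊕ Fin m, ((stabilizing (spToMat m F) ((Submodule.span F {(Pi.single i (1 : F) : Fin m ⊕ Fin m → F)} : Submodule F (Fin m ⊕ Fin m → F)) : Set (Fin m ⊕ Fin m → F))) : Set (symplecticGroup (Fin m) F))) = (TT m F : Set (symplecticGroup (Fin m) F)) := by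
    ext x
    simp only [TT, Set.iInf_eq_iInter, Set.mem_iInter, SetLike.mem_coe, Subgroup.mem_iInf]
  rw [hset]
  choose Φ hΦ using exists_Phi (m := m) (F := F)
  have hmem : ∀ D, Φ D ∈ Subgroup.normalizer (TT m F : Set (symplecticGroup (Fin m) F)) := by
    intro D
    apply mem_normalizer_of_mono
    intro a
    rw [hΦ]
    exact img_mono D a
  let Ψ : Data m F → ↥(Subgroup.normalizer (TT m F : Set (symplecticGroup (Fin m) F))) :=
    fun D => ⟨Φ D, hmem D⟩
  have hbij : Function.Bijective Ψ := by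
    constructor
    · intro D D' h
      apply img_inj
      intro a
      rw [← hΦ, ← hΦ]
      have : Φ D = Φ D' := congrArg Subtype.val h
      rw [this]
    · rintro ⟨g, hg⟩
      obtain ⟨D, hD⟩ := mono_data (mono_of_mem_normalizer hd hg)
      refine ⟨D, ?_⟩
      apply Subtype.ext
      apply Subtype.ext
      apply Matrix.mulVec_injective
      change (Φ D).1.mulVec = g.1.mulVec
      ext1 v
      have h1 : Matrix.toLin' (Φ D).1 = Matrix.toLin' g.1 := by
        apply (Pi.basisFun F (Fin m ⊕ Fin m)).ext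
        intro a
        simp only [Pi.basisFun_apply, Matrix.toLin'_apply]
        rw [hΦ, hD]
      have h2 := LinearMap.congr_fun h1 v
      simpa only [Matrix.toLin'_apply] using h2
  rw [← Nat.card_congr (Equiv.ofBijective Ψ hbij)]
  rw [Nat.card_eq_fintype_card, Fintype.card_prod, Fintype.card_prod, Fintype.card_perm, Fintype.card_fun, Fintype.card_fun, Fintype.card_units, hF]
  simp
  ring

end Cfsg.Agent.S0777
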