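import Mathlib
import Cfsg.Statements.S0778
import Cfsg.Agent.Lib.SympForm
-- import your own Cfsg.Agent.* helpers here

set_option autoImplicit false
open Cfsg

namespace Cfsg.Agent.S0778

section
open Matrix
variable {F : Type*} [Field F] {m : ℕ}

abbrev EE (m : ℕ) := Fin m ⊕ Fin m

/-- the subgroup in question. -/
abbrev HH (m : ℕ) (F : Type*) [Field F] : Subgroup (symplecticGroup (Fin m) F) :=
  Cfsg.stabilizing (Cfsg.spToMat m F) {v : Fin m ⊕ Fin m → F | ∀ i : Fin m, v (Sum.inr i) = 0} ⊓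
    Cfsg.stabilizing (Cfsg.spToMat m F) {v : Fin m ⊕ Fin m → F | ∀ i : Fin m, v (Sum.inl i) = 0}

theorem hblock (h : HH m F) : ((h.1 : symplecticGroup (Fin m) F) : Matrix (EE m) (EE m) F)
      = fromBlocks ((h.1 : Matrix (EE m) (EE m) F).toBlocks₁₁) 0 0
          ((h.1 : Matrix (EE m) (EE m) F).toBlocks₂₂) := by
  have h1 := h.2.1
  have h2 := h.2.2
  conv_lhs => rw [← fromBlocks_toBlocks ((h.1 : Matrix (EE m) (EE m) F))]
  congr 1
  · ext i j
    have := ((h2 (Pi.single (Sum.inr j) 1)).1 (by intro k; simp)) i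
    simpa [mulVec_single_one, toBlocks₁₂] using this
  · ext i j
    have := ((h1 (Pi.single (Sum.inl j) 1)).1 (by intro k; simp)) i
    simpa [mulVec_single_one, toBlocks₂₁] using this

theorem hsymp (h : HH m F) : ((h.1 : Matrix (EE m) (EE m) F).toBlocks₁₁) *
    ((h.1 : Matrix (EE m) (EE m) F).toBlocks₂₂)ᵀ = 1 := by
  have hs := SymplecticGroup.mem_iff.1 h.1.2
  rw [hblock h, J, fromBlocks_transpose, fromBlocks_multiply, fromBlocks_multiply] at hs
  have := (fromBlocks_inj.1 hs).2.1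
  simpa using this

/-- the upper-left block as a group element. -/
noncomputable def toGL (h : HH m F) : GL (Fin m) F :=
  ⟨(h.1 : Matrix (EE m) (EE m) F).toBlocks₁₁, (h.1 : Matrix (EE m) (EE m) F).toBlocks₂₂ᵀ, hsymp h,
    mul_eq_one_comm.1 (hsymp h)⟩

theorem toGL_coe (h : HH m F) : (toGL h : Matrix (Fin m) (Fin m) F) = (h.1 : Matrix (EE m) (EE m) F).toBlocks₁₁ := rfl

theorem toBlocks_mul (h k : HH m F) : ((h * k).1 : Matrix (EE m) (EE m) F).toBlocks₁₁
    = (h.1 : Matrix (EE m) (EE m) F).toBlocks₁₁ * (k.1 : Matrix (EE m) (EE m) F).toBlocks₁₁ := by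
  have : (((h * k : HH m F) : symplecticGroup (Fin m) F) : Matrix (EE m) (EE m) F) = (h.1 : Matrix (EE m) (EE m) F) * (k.1 : Matrix (EE m) (EE m) F) := rfl
  rw [this, hblock h, hblock k, fromBlocks_multiply]
  simp

/-- the block-diagonal element attached to an invertible matrix. -/
noncomputable def ofGL (X : GL (Fin m) F) : Matrix (EE m) (EE m) F :=
  fromBlocks (X : Matrix (Fin m) (Fin m) F) 0 0 ((X⁻¹ : GL (Fin m) F) : Matrix (Fin m) (Fin m) F)ᵀ

theorem ofGL_mem (X : GL (Fin m) F) : ofGL X ∈ symplecticGroup (Fin m) F := by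
  rw [SymplecticGroup.mem_iff, ofGL, J, fromBlocks_transpose, fromBlocks_multiply, fromBlocks_multiply]
  have h1 : (X : Matrix (Fin m) (Fin m) F) * ((X⁻¹ : GL (Fin m) F) : Matrix (Fin m) (Fin m) F) = 1 := by
    rw [← Units.val_mul, mul_inv_cancel, Units.val_one]
  have h2 : ((X⁻¹ : GL (Fin m) F) : Matrix (Fin m) (Fin m) F)ᵀ * (X : Matrix (Fin m) (Fin m) F)ᵀ = 1 := by
    rw [← transpose_mul, h1, transpose_one]
  simp only [Matrix.zero_mul, Matrix.mul_zero, add_zero, zero_add, transpose_zero, Matrix.mul_one, Matrix.mul_neg,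
    transpose_transpose, Matrix.neg_mul, h1, h2, neg_zero]

theorem mulVec_inr (A D : Matrix (Fin m) (Fin m) F) (v : EE m → F) (i : Fin m) :
    (fromBlocks A 0 0 D *ᵥ v) (Sum.inr i) = (D *ᵥ (fun j => v (Sum.inr j))) i := by
  simp [mulVec, dotProduct, Fintype.sum_sum_type]

theorem mulVec_inl (A D : Matrix (Fin m) (Fin m) F) (v : EE m → F) (i : Fin m) :
    (fromBlocks A 0 0 D *ᵥ v) (Sum.inl i) = (A *ᵥ (fun j => v (Sum.inl j))) i := by
  simp [mulVec, dotProduct, Fintype.sum_sum_type]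

theorem forall_zero_iff {Z Y : Matrix (Fin m) (Fin m) F} (hZY : Z * Y = 1) (w : Fin m → F) :
    (∀ i, w i = 0) ↔ ∀ i, (Y *ᵥ w) i = 0 := by
  constructor
  · intro h i
    have : w = 0 := funext h
    simp [this]
  · intro h i
    have h0 : Y *ᵥ w = 0 := funext h
    have := congrArg (Z *ᵥ ·) h0
    simp only [mulVec_mulVec, mulVec_zero, hZY, one_mulVec] at this
    rw [this]
    rfl

theorem ofGL_mem_H (X : GL (Fin m) F) : (⟨ofGL X, ofGL_mem X⟩ : symplecticGroup (Fin m) F) ∈ HH m F := by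
  constructor
  · intro v
    change (∀ i, v (Sum.inr i) = 0) ↔ ∀ i, (ofGL X *ᵥ v) (Sum.inr i) = 0
    simp only [ofGL, mulVec_inr]
    have h1 : ((X⁻¹ : GL (Fin m) F) : Matrix (Fin m) (Fin m) F) * (X : Matrix (Fin m) (Fin m) F) = 1 := by
      rw [← Units.val_mul, inv_mul_cancel, Units.val_one]
    have h2 : (X : Matrix (Fin m) (Fin m) F)ᵀ * ((X⁻¹ : GL (Fin m) F) : Matrix (Fin m) (Fin m) F)ᵀ = 1 := by
      rw [← transpose_mul, h1, transpose_one]
    exact forall_zero_iff h2 _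
  · intro v
    change (∀ i, v (Sum.inl i) = 0) ↔ ∀ i, (ofGL X *ᵥ v) (Sum.inl i) = 0
    simp only [ofGL, mulVec_inl]
    have h1 : ((X⁻¹ : GL (Fin m) F) : Matrix (Fin m) (Fin m) F) * (X : Matrix (Fin m) (Fin m) F) = 1 := by
      rw [← Units.val_mul, inv_mul_cancel, Units.val_one]
    exact forall_zero_iff h1 _

/-- the homomorphism to `GL`. -/
noncomputable def phi : HH m F →* GL (Fin m) F where
  toFun := toGL
  map_one' := by
    apply Units.ext
    rw [toGL_coe]
    ext i j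
    simp [toBlocks₁₁, Matrix.one_apply]
  map_mul' h k := by
    apply Units.ext
    rw [toGL_coe, toBlocks_mul]
    rfl

theorem phi_bijective : Function.Bijective (phi : HH m F →* GL (Fin m) F) := by
  constructor
  · intro h k hhk
    have h1 : (h.1 : Matrix (EE m) (EE m) F).toBlocks₁₁ = (k.1 : Matrix (EE m) (EE m) F).toBlocks₁₁ :=
      congrArg Units.val hhk
    have h2 : (h.1 : Matrix (EE m) (EE m) F).toBlocks₂₂ᵀ = (k.1 : Matrix (EE m) (EE m) F).toBlocks₂₂ᵀ :=
      congrArg (fun u : GL (Fin m) F => ((u⁻¹ : GL (Fin m) F) : Matrix (Fin m) (Fin m) F)) hhk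
    have h3 : (h.1 : Matrix (EE m) (EE m) F).toBlocks₂₂ = (k.1 : Matrix (EE m) (EE m) F).toBlocks₂₂ := by
      simpa using congrArg transpose h2
    apply Subtype.ext
    apply Subtype.ext
    rw [hblock h, hblock k, h1, h3]
  · intro X
    refine ⟨⟨⟨ofGL X, ofGL_mem X⟩, ofGL_mem_H X⟩, ?_⟩
    apply Units.ext
    change (ofGL X).toBlocks₁₁ = _
    simp [ofGL]
end



/-- The elements of Sp_2m(F) stabilising both W = ⟨e_1..e_m⟩ and U = ⟨f_1..f_m⟩ form a subgroup isomorphic to GL_m(F) (block-diagonal matrices diag(X, X^(−ᵀ)) up to the sign convention of J), for m ≥ 1 or m = 0 alike. -/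
theorem result {F : Type*} [Field F] (m : ℕ) : Nonempty (↥(Cfsg.stabilizing (Cfsg.spToMat m F) {v : Fin m ⊕ Fin m → F | ∀ i : Fin m, v (Sum.inr i) = 0} ⊓ Cfsg.stabilizing (Cfsg.spToMat m F) {v : Fin m ⊕ Fin m → F | ∀ i : Fin m, v (Sum.inl i) = 0}) ≃* Matrix.GeneralLinearGroup (Fin m) F) := by
  exact ⟨MulEquiv.ofBijective phi phi_bijective⟩

end Cfsg.Agent.S0778
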