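import Mathlib
import Cfsg.Statements.S0786
import Cfsg.Agent.Lib.OrthMatrix
-- import your own Cfsg.Agent.* helpers here

set_option autoImplicit false
open Cfsg

namespace Cfsg.Agent.S0786

/-- Generation by reflections: if F is finite, Q is a quadratic form on F^n with non-degenerate polar form, and (|F|, n) ≠ (2, 4), then the isometry group of Q is generated by the reflections r_v, Q(v) ≠ 0. -/
theorem result {F : Type*} [Field F] [Fintype F] {n : ℕ} (Q : QuadraticForm F (Fin n → F)) (hQ : (QuadraticMap.polarBilin Q).Nondegenerate) (h : Fintype.card F ≠ 2 ∨ n ≠ 4) : Subgroup.closure {g : ↥(Cfsg.isometryGroup F ⇑Q) | ∃ v : Fin n → F, Q v ≠ 0 ∧ ((g : Matrix.GeneralLinearGroup (Fin n) F) : Matrix (Fin n) (Fin n) F) = Cfsg.reflectionMatrix ⇑Q v} = ⊤ := by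
  classical
  have hOG : Cfsg.Agent.Lib.OrthGroup.O Q ≤ Cfsg.Agent.Lib.OrthGroup.G Q :=
    Cfsg.Agent.Lib.OrthGroup.O_le_G hQ (Cfsg.Agent.Lib.OrthMatrix.hF_of h (by simp))
  rw [eq_top_iff]
  rintro g -
  obtain ⟨L, hL, hg⟩ := Cfsg.Agent.Lib.OrthOmega.exists_list_of_mem_G (hOG (Cfsg.Agent.Lib.OrthMatrix.toO Q g).2)
  have hg' : Cfsg.Agent.Lib.OrthMatrix.toO Q g = Cfsg.Agent.Lib.OrthOmega.prodO Q L := Subtype.ext hg
  have key : ∀ L : List (Fin n → F), (∀ v ∈ L, Q v ≠ 0) → ∀ g : ↥(Cfsg.isometryGroup F ⇑Q),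
      Cfsg.Agent.Lib.OrthMatrix.toO Q g = Cfsg.Agent.Lib.OrthOmega.prodO Q L →
      g ∈ Subgroup.closure {g : ↥(Cfsg.isometryGroup F ⇑Q) | ∃ v : Fin n → F, Q v ≠ 0 ∧ ((g : Matrix.GeneralLinearGroup (Fin n) F) : Matrix (Fin n) (Fin n) F) = Cfsg.reflectionMatrix ⇑Q v} := by
    intro L
    induction L with
    | nil =>
      intro _ g hg
      have : g = 1 := by
        apply (Cfsg.Agent.Lib.OrthMatrix.toO Q).injective
        rw [hg, map_one]
        rfl
      rw [this]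
      exact Subgroup.one_mem _
    | cons v L ih =>
      intro hL g hg
      rw [Cfsg.Agent.Lib.OrthOmega.prodO_cons] at hg
      have hv : Q v ≠ 0 := hL v List.mem_cons_self
      let r := (Cfsg.Agent.Lib.OrthMatrix.toO Q).symm (Cfsg.Agent.Lib.OrthOmega.reflO Q v)
      let g' := (Cfsg.Agent.Lib.OrthMatrix.toO Q).symm (Cfsg.Agent.Lib.OrthOmega.prodO Q L)
      have hgr : g = r * g' := by
        apply (Cfsg.Agent.Lib.OrthMatrix.toO Q).injective
        rw [hg, map_mul]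
        simp [r, g']
      rw [hgr]
      refine Subgroup.mul_mem _ (Subgroup.subset_closure ⟨v, hv, ?_⟩) (ih (fun w hw => hL w (List.mem_cons_of_mem _ hw)) g' (by simp [g']))
      rw [Cfsg.Agent.Lib.OrthMatrix.toO_eq_reflO_iff]
      simp [r]
  exact key L hL g hg'

end Cfsg.Agent.S0786
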