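import Mathlib
import Cfsg.Statements.S0792
import Cfsg.Agent.Lib.OrthRefl

set_option autoImplicit false
open Cfsg

namespace Cfsg.Agent.S0792

open Matrix Cfsg.Agent.Lib.OrthRefl Cfsg.Agent.Lib.OrthMatrix
open scoped MatrixGroups

/-- For q odd and Q with non-degenerate polar form on F^n, the determinant-one isometries form the subgroup generated by all products r_u r_v of two reflections (Q(u), Q(v) ≠ 0). -/
theorem result {F : Type*} [Field F] [Fintype F] (h2 : (2 : F) ≠ 0) {n : ℕ} (Q : QuadraticForm F (Fin n → F)) (hQ : (QuadraticMap.polarBilin Q).Nondegenerate) : Cfsg.specialIsometryGroup F ⇑Q = Subgroup.closure {g : ↥(Cfsg.isometryGroup F ⇑Q) | ∃ u v : Fin n → F, Q u ≠ 0 ∧ Q v ≠ 0 ∧ ((g : Matrix.GeneralLinearGroup (Fin n) F) : Matrix (Fin n) (Fin n) F) = Cfsg.reflectionMatrix ⇑Q u * Cfsg.reflectionMatrix ⇑Q v} := by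
  classical
  have hne : (-1 : F) ≠ 1 := by
    intro h
    apply h2
    have : (2 : F) = 1 - (-1) := by ring
    rw [this, h]; ring
  have hF : (∃ a : F, a ≠ 0 ∧ a ≠ 1) ∨ Module.finrank F (Fin n → F) ≠ 4 :=
    Or.inl ⟨-1, neg_ne_zero.mpr one_ne_zero, hne⟩
  -- even products lie in the closure
  have key : ∀ (k : ℕ) (L : List (Fin n → F)), L.length = 2 * k → (∀ v ∈ L, Q v ≠ 0) →
      elt Q L ∈ Subgroup.closure {g : ↥(Cfsg.isometryGroup F ⇑Q) | ∃ u v : Fin n → F, Q u ≠ 0 ∧ Q v ≠ 0 ∧ ((g : Matrix.GeneralLinearGroup (Fin n) F) : Matrix (Fin n) (Fin n) F) = Cfsg.reflectionMatrix ⇑Q u * Cfsg.reflectionMatrix ⇑Q v} := by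
    intro k
    induction k with
    | zero =>
      intro L hL _
      have : L = [] := List.length_eq_zero_iff.mp (by omega)
      rw [this, elt_nil]
      exact Subgroup.one_mem _
    | succ k ih =>
      intro L hL hLQ
      match L, hL with
      | a :: b :: t, hL =>
        have h1 : elt Q (a :: b :: t) = (elt Q [a] * elt Q [b]) * elt Q t := by
          rw [elt_cons, elt_cons Q b, mul_assoc]
        rw [h1]
        refine Subgroup.mul_mem _ (Subgroup.subset_closure ⟨a, b, hLQ a (by simp), hLQ b (by simp), ?_⟩)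
          (ih t (by simp at hL; omega) (fun v hv => hLQ v (by simp [hv])))
        have h2 : (((elt Q [a] * elt Q [b] : ↥(Cfsg.isometryGroup F ⇑Q)) : GL (Fin n) F) : Matrix (Fin n) (Fin n) F) =
            ((elt Q [a] : GL (Fin n) F) : Matrix (Fin n) (Fin n) F) * ((elt Q [b] : GL (Fin n) F) : Matrix (Fin n) (Fin n) F) := rfl
        rw [h2, coe_elt_singleton, coe_elt_singleton]
  apply le_antisymm
  · intro g hg
    obtain ⟨L, hL, rfl⟩ := exists_elt Q hQ hF g
    have hdet : ((elt Q L : GL (Fin n) F) : Matrix (Fin n) (Fin n) F).det = 1 := by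
      have := MonoidHom.mem_ker.mp hg
      have h3 := congrArg Units.val this
      simpa using h3
    rw [det_elt Q L hL] at hdet
    have heven : Even L.length := by
      by_contra hodd
      rw [Nat.not_even_iff_odd] at hodd
      rw [hodd.neg_one_pow] at hdet
      exact hne hdet
    obtain ⟨k, hk⟩ := heven
    exact key k L (by omega) hL
  · rw [Subgroup.closure_le]
    rintro g ⟨u, v, hu, hv, hg⟩
    show g ∈ (Matrix.GeneralLinearGroup.det.comp (Cfsg.isometryGroup F ⇑Q).subtype).ker
    rw [MonoidHom.mem_ker]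
    apply Units.ext
    have : ((Matrix.GeneralLinearGroup.det.comp (Cfsg.isometryGroup F ⇑Q).subtype) g : F) =
      ((g : GL (Fin n) F) : Matrix (Fin n) (Fin n) F).det := rfl
    rw [this, hg, Matrix.det_mul, Cfsg.Agent.Lib.OrthForm.det_reflection Q hu, Cfsg.Agent.Lib.OrthForm.det_reflection Q hv]
    simp

end Cfsg.Agent.S0792
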