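import Mathlib
import Cfsg.Statements.S0793

set_option autoImplicit false
open Cfsg

namespace Cfsg.Agent.S0793

lemma polarVec_dot {F : Type*} [Field F] {n : ℕ} (Q : QuadraticForm F (Fin n → F)) (u x : Fin n → F) :
    (Cfsg.polarVec (⇑Q) u) ⬝ᵥ x = QuadraticMap.polar ⇑Q x u := by
  have h1 : x = ∑ j, x j • (Pi.single j (1:F) : Fin n → F) := by
    ext i; simp [Finset.sum_apply, Pi.single_apply]
  have h2 : QuadraticMap.polar ⇑Q x u = QuadraticMap.polarBilin Q x u := rfl
  have h3 : ∀ j, QuadraticMap.polar ⇑Q u (Pi.single j (1:F)) = QuadraticMap.polar ⇑Q (Pi.single j (1:F)) u :=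
    fun j => QuadraticMap.polar_comm _ _ _
  rw [h2]
  conv_rhs => rw [h1]
  simp only [map_sum, map_smul, LinearMap.sum_apply, LinearMap.smul_apply, dotProduct, Cfsg.polarVec, smul_eq_mul]
  refine Finset.sum_congr rfl fun j _ => ?_
  rw [h3 j, mul_comm]; rfl

lemma siegel_mulVec {F : Type*} [Field F] {n : ℕ} (Q : QuadraticForm F (Fin n → F)) (u v : Fin n → F) (c : F)
    (x : Fin n → F) :
    (Cfsg.siegelMatrix (⇑Q) u v c).mulVec x = x + (c * QuadraticMap.polar ⇑Q x u) • v - (c * QuadraticMap.polar ⇑Q x v) • u := by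
  unfold Cfsg.siegelMatrix
  rw [Matrix.add_mulVec, Matrix.one_mulVec, Matrix.smul_mulVec, Matrix.sub_mulVec,
    Matrix.vecMulVec_mulVec, Matrix.vecMulVec_mulVec, polarVec_dot, polarVec_dot]
  ext i
  simp [Pi.smul_apply, smul_eq_mul]
  ring

/-- Root elements: if Q(u) = Q(v) = 0 and f(u, v) = 0 (f the polar form), then for every c the Siegel matrix T_(u,v)(c) preserves Q, fixes u and v, and T(c) T(d) = T(c + d). -/
theorem result {F : Type*} [Field F] {n : ℕ} (Q : QuadraticForm F (Fin n → F)) (u v : Fin n → F) (hu : Q u = 0) (hv : Q v = 0) (huv : QuadraticMap.polar ⇑Q u v = 0) : (∀ c x, Q ((Cfsg.siegelMatrix ⇑Q u v c).mulVec x) = Q x) ∧ (∀ c, (Cfsg.siegelMatrix ⇑Q u v c).mulVec u = u ∧ (Cfsg.siegelMatrix ⇑Q u v c).mulVec v = v) ∧ ∀ c d, Cfsg.siegelMatrix ⇑Q u v c * Cfsg.siegelMatrix ⇑Q u v d = Cfsg.siegelMatrix ⇑Q u v (c + d) := by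
  classical
  -- the polar form as a bilinear map
  set f := QuadraticMap.polarBilin Q with hf
  have hfp : ∀ a b, QuadraticMap.polar ⇑Q a b = f a b := fun _ _ => rfl
  have hsymm : ∀ a b, f a b = f b a := fun a b => QuadraticMap.polar_comm _ _ _
  have huu : f u u = 0 := by
    have := QuadraticMap.polar_self Q u
    rw [hfp] at this
    rw [this, hu]; simp
  have hvv : f v v = 0 := by
    have := QuadraticMap.polar_self Q v
    rw [hfp] at this
    rw [this, hv]; simp
  have huv' : f u v = 0 := huv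
  have hvu' : f v u = 0 := by rw [hsymm]; exact huv'
  have hQadd : ∀ a b, Q (a + b) = Q a + Q b + f a b := by
    intro a b
    have : QuadraticMap.polar ⇑Q a b = Q (a + b) - Q a - Q b := rfl
    rw [← hfp, this]; ring
  have hT : ∀ c x, (Cfsg.siegelMatrix (⇑Q) u v c).mulVec x = x + (c * f x u) • v + (-(c * f x v)) • u := by
    intro c x
    rw [siegel_mulVec, hfp, hfp, sub_eq_add_neg, neg_smul]
  have hfT : ∀ c x w, f ((Cfsg.siegelMatrix (⇑Q) u v c).mulVec x) w = f x w + (c * f x u) * f v w - (c * f x v) * f u w := by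
    intro c x w
    rw [hT]
    simp only [map_add, LinearMap.add_apply, map_smul, LinearMap.smul_apply, smul_eq_mul]
    ring
  refine ⟨?_, ?_, ?_⟩
  · intro c x
    rw [hT, hQadd, hQadd]
    simp only [map_add, LinearMap.add_apply, map_smul, LinearMap.smul_apply, smul_eq_mul,
      QuadraticMap.map_smul, hu, hv, LinearMap.map_add, huu, hvv, huv', hvu']
    ring_nf
  · intro c
    constructor
    · rw [hT, huu, hsymm u v, hvu']; simp [huv']
    · rw [hT, hvv, hvu']; simp
  · intro c d
    apply Matrix.mulVec_injective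
    funext x
    rw [← Matrix.mulVec_mulVec, hT c, hfT, hfT, hT d, hT (c + d), huu, hvv, huv', hvu']
    ext i
    simp only [Pi.add_apply, Pi.smul_apply, smul_eq_mul]
    ring

end Cfsg.Agent.S0793
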