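import Mathlib
import Cfsg.Statements.S0795
import Cfsg.Agent.Lib.OrthSiegel2

set_option autoImplicit false
open Cfsg

namespace Cfsg.Agent.S0795

open Module Matrix
open Cfsg.Agent.Lib.OrthGroup Cfsg.Agent.Lib.OrthOmega Cfsg.Agent.Lib.OrthMatrix Cfsg.Agent.Lib.OrthSiegel Cfsg.Agent.Lib.OrthSiegel2

/-- Generation of Ω by root elements: for q odd, n ≥ 5 and Q with non-degenerate polar form on F^n, the commutator subgroup of the isometry group equals the subgroup generated by the isometries whose matrices are Siegel transformations T_(u,v)(c) with u, v singular and orthogonal. -/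
theorem result {F : Type*} [Field F] [Fintype F] (h2 : (2 : F) ≠ 0) {n : ℕ} (hn : 5 ≤ n) (Q : QuadraticForm F (Fin n → F)) (hQ : (QuadraticMap.polarBilin Q).Nondegenerate) : Cfsg.Omega F ⇑Q = Subgroup.closure {g : ↥(Cfsg.isometryGroup F ⇑Q) | ∃ (u v : Fin n → F) (c : F), Q u = 0 ∧ Q v = 0 ∧ QuadraticMap.polar ⇑Q u v = 0 ∧ ((g : Matrix.GeneralLinearGroup (Fin n) F) : Matrix (Fin n) (Fin n) F) = Cfsg.siegelMatrix ⇑Q u v c} := by
  have hn' : 5 ≤ finrank F (Fin n → F) := by rw [finrank_fin_fun]; exact hn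
  apply le_antisymm
  · intro g hg
    have h1 : toO Q g ∈ E hQ := commutator_le_E hQ h2 hn' ((mem_Omega_iff Q g).mp hg)
    have main : ∀ h ∈ E hQ, (toO Q).symm h ∈ Subgroup.closure {g : ↥(Cfsg.isometryGroup F ⇑Q) | ∃ (u v : Fin n → F) (c : F), Q u = 0 ∧ Q v = 0 ∧ QuadraticMap.polar ⇑Q u v = 0 ∧ ((g : Matrix.GeneralLinearGroup (Fin n) F) : Matrix (Fin n) (Fin n) F) = Cfsg.siegelMatrix ⇑Q u v c} := by
      intro h hh
      induction hh using Subgroup.closure_induction with
      | mem x hx =>
        obtain ⟨u, v, hu, hv, huv, rfl⟩ := hx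
        apply Subgroup.subset_closure
        refine ⟨u, v, 1, hu, hv, huv, ?_⟩
        rw [matrix_eq_iff]
        intro y
        rw [siegelMatrix_mulVec, ← toO_apply, MulEquiv.apply_symm_apply, eichO_siegel_apply hQ hu hv huv]
        simp
      | one => simp
      | mul x y _ _ hx hy => rw [map_mul]; exact mul_mem hx hy
      | inv x _ hx => rw [map_inv]; exact inv_mem hx
    have := main _ h1
    simpa using this
  · rw [Subgroup.closure_le]
    rintro g ⟨u, v, c, hu, hv, huv, hg⟩
    have := siegel_mem_commutatorSet Q h2 hn' hQ hu hv huv c g hg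
    exact Subgroup.subset_closure (by simpa [commutatorSet] using this)

end Cfsg.Agent.S0795
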