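import Mathlib
import Cfsg.Statements.S0796

set_option autoImplicit false
open Cfsg

namespace Cfsg.Agent.S0796

/-- If G is finite and acts faithfully and primitively on X, H is the stabiliser of a point, A is a normal subgroup of H whose normal closure in G is G, then for every non-trivial normal subgroup K of G the quotient G ⧸ K is isomorphic to A ⧸ B for some normal subgroup B of A. -/
theorem result {G X : Type*} [Group G] [Finite G] [MulAction G X] [FaithfulSMul G X] (hprim : MulAction.IsPreprimitive G X) (x : X) (A : Subgroup G) (hA : A ≤ MulAction.stabilizer G x) (hAn : (A.subgroupOf (MulAction.stabilizer G x)).Normal) (hgen : Subgroup.normalClosure (A : Set G) = ⊤) (K : Subgroup G) [K.Normal] (hK : K ≠ ⊥) : ∃ (B : Subgroup A) (_ : B.Normal), Nonempty (G ⧸ K ≃* A ⧸ B) := by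
  classical
  have := hprim
  have hfix : MulAction.fixedPoints K X ≠ Set.univ := by
    intro h
    apply hK
    rw [Subgroup.eq_bot_iff_forall]
    intro k hk
    apply FaithfulSMul.eq_of_smul_eq_smul (α := X)
    intro y
    rw [one_smul]
    have hy : y ∈ MulAction.fixedPoints K X := h ▸ Set.mem_univ y
    exact hy ⟨k, hk⟩
  have htrans : MulAction.IsPretransitive K X :=
    MulAction.IsQuasiPreprimitive.isPretransitive_of_normal hfix
  have hconj : ∀ g : G, ∀ a ∈ A, g * a * g⁻¹ ∈ A ⊔ K := by
    intro g a ha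
    obtain ⟨k, hk⟩ := MulAction.exists_smul_eq K x (g • x)
    have hk' : (k : G) • x = g • x := hk
    have hh : (k : G)⁻¹ * g ∈ MulAction.stabilizer G x := by
      rw [MulAction.mem_stabilizer_iff, mul_smul, ← hk', inv_smul_smul]
    have ha' : ((k : G)⁻¹ * g) * a * ((k : G)⁻¹ * g)⁻¹ ∈ A := by
      have h1 : (⟨a, hA ha⟩ : MulAction.stabilizer G x) ∈ A.subgroupOf (MulAction.stabilizer G x) := by
        simpa [Subgroup.mem_subgroupOf] using ha
      have h2 := hAn.conj_mem _ h1 ⟨_, hh⟩
      simpa [Subgroup.mem_subgroupOf] using h2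
    set a' := ((k : G)⁻¹ * g) * a * ((k : G)⁻¹ * g)⁻¹ with ha'def
    have e : g * a * g⁻¹ = ((k : G) * (a' * (k : G)⁻¹ * a'⁻¹)) * a' := by
      simp only [ha'def]; group
    rw [e]
    refine Subgroup.mul_mem _ ?_ (Subgroup.mem_sup_left ha')
    refine (le_sup_right : K ≤ A ⊔ K) ?_
    exact K.mul_mem k.2 (‹K.Normal›.conj_mem _ (K.inv_mem k.2) _)
  have hle : Subgroup.normalClosure (A : Set G) ≤ A ⊔ K := by
    rw [Subgroup.normalClosure, Subgroup.closure_le]
    intro y hy
    rw [Group.mem_conjugatesOfSet_iff] at hy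
    obtain ⟨a, ha, hay⟩ := hy
    obtain ⟨c, rfl⟩ := isConj_iff.mp hay
    exact hconj c a ha
  rw [hgen, top_le_iff] at hle
  let φ : A →* G ⧸ K := (QuotientGroup.mk' K).comp A.subtype
  have hφ : Function.Surjective φ := by
    intro y
    obtain ⟨g, rfl⟩ := QuotientGroup.mk'_surjective K y
    have hg : g ∈ A ⊔ K := hle ▸ Subgroup.mem_top g
    have hg' : g ∈ ((A ⊔ K : Subgroup G) : Set G) := hg
    rw [Subgroup.mul_normal, Set.mem_mul] at hg'
    obtain ⟨a, ha, k, hk, rfl⟩ := hg'
    refine ⟨⟨a, ha⟩, ?_⟩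
    simp only [φ, MonoidHom.comp_apply, Subgroup.subtype_apply, QuotientGroup.mk'_apply]
    rw [QuotientGroup.eq]
    simpa using hk
  exact ⟨φ.ker, inferInstance, ⟨(QuotientGroup.quotientKerEquivOfSurjective φ hφ).symm⟩⟩

end Cfsg.Agent.S0796
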