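import Mathlib
import Cfsg.Statements.S0797
import Cfsg.Agent.Lib.OrthSpin

set_option autoImplicit false
open Cfsg

namespace Cfsg.Agent.S0797

open Module Matrix
open Cfsg.Agent.Lib.OrthGroup Cfsg.Agent.Lib.OrthOmega Cfsg.Agent.Lib.OrthMatrix Cfsg.Agent.Lib.OrthSiegel2 Cfsg.Agent.Lib.OrthSpin

/-- O^ε_2m(q) ≅ Ω.2² for q odd: if F is finite of odd characteristic, n ≥ 2 is even and Q has non-degenerate polar form on F^n, the isometry group of Q has exactly three subgroups of index 2. -/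
theorem result {F : Type*} [Field F] [Fintype F] (h2 : (2 : F) ≠ 0) {n : ℕ} (hn : 2 ≤ n) (heven : Even n) (Q : QuadraticForm F (Fin n → F)) (hQ : (QuadraticMap.polarBilin Q).Nondegenerate) : Nat.card {H : Subgroup ↥(Cfsg.isometryGroup F ⇑Q) // H.index = 2} = 3 := by
  classical
  have hn' : 2 ≤ finrank F (Fin n → F) := by rw [finrank_fin_fun]; exact hn
  have hm1 : (-1 : F) ≠ 1 := by
    intro h
    apply h2
    linear_combination -h
  have hOG : O Q ≤ G Q := O_le_G hQ (Or.inl ⟨-1, neg_ne_zero.mpr one_ne_zero, hm1⟩)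
  have hchar : ringChar F ≠ 2 := by
    intro h
    apply h2
    have h3 : ((2 : ℕ) : F) = 0 := by
      rw [CharP.cast_eq_zero_iff F (ringChar F)]
      rw [h]
    simpa using h3
  obtain ⟨e, he⟩ := FiniteField.exists_nonsquare hchar
  have hχe : quadraticChar F e = -1 := quadraticChar_neg_one_iff_not_isSquare.mpr he
  have he0 : e ≠ 0 := by
    rintro rfl
    exact he (IsSquare.zero)
  obtain ⟨a, ha, -, -⟩ := exists_norm_perp (s := 0) hQ h2 (k := 0) Fin.elim0 (fun i => i.elim0) (fun i => i.elim0) (by simp) (fun i => i.elim0)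
    (Or.inr ⟨rfl, by omega⟩) 1
  obtain ⟨b, hb, -, -⟩ := exists_norm_perp (s := 0) hQ h2 (k := 0) Fin.elim0 (fun i => i.elim0) (fun i => i.elim0) (by simp) (fun i => i.elim0)
    (Or.inr ⟨rfl, by omega⟩) e
  have ha0 : Q a ≠ 0 := by rw [ha]; exact one_ne_zero
  have hb0 : Q b ≠ 0 := by rw [hb]; exact he0
  have hwa : ∀ ε₁ ε₂ : ℤˣ, wt Q ε₁ ε₂ a = ε₁ := by
    intro ε₁ ε₂
    rw [wt, if_pos]
    rw [ha, map_one]
  have hwb : ∀ ε₁ ε₂ : ℤˣ, wt Q ε₁ ε₂ b = ε₂ := by
    intro ε₁ ε₂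
    rw [wt, if_neg]
    rw [hb, hχe]
    decide
  refine count_three ((toO Q).symm (reflO Q a)) ((toO Q).symm (reflO Q b))
    ((classHom hQ hOG (-1) 1).comp (toO Q).toMonoidHom) ((classHom hQ hOG 1 (-1)).comp (toO Q).toMonoidHom) ?_ ?_ ?_ ?_ ?_
  · simp [classHom_reflO hQ hOG _ _ ha0, hwa]
  · simp [classHom_reflO hQ hOG _ _ hb0, hwb]
  · simp [classHom_reflO hQ hOG _ _ ha0, hwa]
  · simp [classHom_reflO hQ hOG _ _ hb0, hwb]
  · intro g h1 h3
    rw [mem_commutator_equiv (toO Q)]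
    exact mem_commutator_of_classHom hQ hOG _ h1 h3

end Cfsg.Agent.S0797
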