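import Mathlib
import Cfsg.Statements.S0798
import Cfsg.Agent.Lib.OrthAc

set_option autoImplicit false
open Cfsg

namespace Cfsg.Agent.S0798

open Module Matrix
open Cfsg.Agent.Lib.OrthGroup Cfsg.Agent.Lib.OrthOmega Cfsg.Agent.Lib.OrthMatrix Cfsg.Agent.Lib.OrthSiegel2 Cfsg.Agent.Lib.OrthSpin Cfsg.Agent.Lib.OrthAc

/-- For q odd, n ≥ 2 even, Q with non-degenerate polar form (n, |F|) ≠ (4, 3), and a fixed c ≠ 0: the subgroup of the isometry group generated by the reflections r_v with Q(v) ∈ c·(F^×)² has index 2. -/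
theorem result {F : Type*} [Field F] [Fintype F] (h2 : (2 : F) ≠ 0) {n : ℕ} (hn : 2 ≤ n) (heven : Even n) (Q : QuadraticForm F (Fin n → F)) (hQ : (QuadraticMap.polarBilin Q).Nondegenerate) (h43 : ¬ (n = 4 ∧ Fintype.card F = 3)) (c : F) (hc : c ≠ 0) : (Subgroup.closure {g : ↥(Cfsg.isometryGroup F ⇑Q) | ∃ (v : Fin n → F) (t : F), t ≠ 0 ∧ Q v = c * t ^ 2 ∧ ((g : Matrix.GeneralLinearGroup (Fin n) F) : Matrix (Fin n) (Fin n) F) = Cfsg.reflectionMatrix ⇑Q v}).index = 2 := by
  classical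
  have hrank : finrank F (Fin n → F) = n := finrank_fin_fun F
  have hm1 : (-1 : F) ≠ 1 := by
    intro h
    apply h2
    linear_combination -h
  have hOG : O Q ≤ G Q := O_le_G hQ (Or.inl ⟨-1, neg_ne_zero.mpr one_ne_zero, hm1⟩)
  have hchar : ringChar F ≠ 2 := by
    intro h
    apply h2
    have h3 : ((2 : ℕ) : F) = 0 := by
      rw [CharP.cast_eq_zero_iff F (ringChar F)]
      rw [h]
    simpa using h3
  obtain ⟨e, he⟩ := FiniteField.exists_nonsquare hchar
  have hχe : quadraticChar F e = -1 := quadraticChar_neg_one_iff_not_isSquare.mpr he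
  have he0 : e ≠ 0 := by
    rintro rfl
    exact he (IsSquare.zero)
  obtain ⟨b, hb, -, -⟩ := exists_norm_perp (s := 0) hQ h2 (k := 0) Fin.elim0 (fun i => i.elim0) (fun i => i.elim0) (by simp) (fun i => i.elim0)
    (Or.inr ⟨rfl, by omega⟩) (e * c)
  have hb0 : Q b ≠ 0 := by rw [hb]; exact mul_ne_zero he0 hc
  have hbc : quadraticChar F (Q b) ≠ quadraticChar F c := by
    rw [hb, map_mul, hχe]
    intro h
    have h3 : quadraticChar F c = 0 := by linarith
    rw [quadraticChar_eq_zero_iff] at h3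
    exact hc h3
  have hidx := Ac_index hQ h2 hOG hc (by rwa [hrank]) (by rwa [hrank]) hb0 hbc
  have hcomap : Subgroup.closure {g : ↥(Cfsg.isometryGroup F ⇑Q) | ∃ (v : Fin n → F) (t : F), t ≠ 0 ∧ Q v = c * t ^ 2 ∧ ((g : Matrix.GeneralLinearGroup (Fin n) F) : Matrix (Fin n) (Fin n) F) = Cfsg.reflectionMatrix ⇑Q v} = (Ac Q c).comap (toO Q).toMonoidHom := by
    apply le_antisymm
    · rw [Subgroup.closure_le]
      rintro g ⟨v, t, ht, hv, hg⟩
      show toO Q g ∈ Ac Q c
      rw [(toO_eq_reflO_iff Q g v).1 hg]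
      exact Subgroup.subset_closure ⟨v, t, ht, hv, rfl⟩
    · intro g hg
      have hg' : toO Q g ∈ Ac Q c := hg
      have main : ∀ h ∈ Ac Q c, (toO Q).symm h ∈ Subgroup.closure {g : ↥(Cfsg.isometryGroup F ⇑Q) | ∃ (v : Fin n → F) (t : F), t ≠ 0 ∧ Q v = c * t ^ 2 ∧ ((g : Matrix.GeneralLinearGroup (Fin n) F) : Matrix (Fin n) (Fin n) F) = Cfsg.reflectionMatrix ⇑Q v} := by
        intro h hh
        induction hh using Subgroup.closure_induction with
        | mem x hx =>
          obtain ⟨v, t, ht, hv, rfl⟩ := hx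
          apply Subgroup.subset_closure
          refine ⟨v, t, ht, hv, ?_⟩
          rw [toO_eq_reflO_iff]
          simp
        | one => simp
        | mul x y _ _ hx hy => rw [map_mul]; exact mul_mem hx hy
        | inv x _ hx => rw [map_inv]; exact inv_mem hx
      simpa using main _ hg'
  rw [hcomap, Subgroup.index_comap_of_surjective _ (toO Q).surjective]
  exact hidx

end Cfsg.Agent.S0798
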