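import Mathlib
import Cfsg.Statements.S0800

set_option autoImplicit false
open Cfsg

namespace Cfsg.Agent.S0800

open Polynomial Matrix

lemma pow_eq_one_of_dvd {F : Type*} [Field F] (g : Matrix.SpecialLinearGroup (Fin 2) F) (k : ℕ)
    (h : (g.1).charpoly ∣ (X ^ k - 1 : F[X])) : g ^ k = 1 := by
  have h1 : aeval g.1 (X ^ k - 1 : F[X]) = 0 := by
    obtain ⟨f, hf⟩ := h
    rw [hf, map_mul, Matrix.aeval_self_charpoly, zero_mul]
  simp only [map_sub, map_pow, aeval_X, map_one] at h1
  apply Subtype.ext
  exact (Matrix.SpecialLinearGroup.coe_pow g k).trans (sub_eq_zero.mp h1)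

lemma charpoly_eq {F : Type*} [Field F] (g : Matrix.SpecialLinearGroup (Fin 2) F) :
    (g.1).charpoly = X ^ 2 - C (g.1.trace) * X + C 1 := by
  rw [Matrix.charpoly_fin_two, g.2]

/-- irreducible case: `P ∣ X^(q+1) - 1`. -/
lemma dvd_of_irreducible {F : Type*} [Field F] [Fintype F] (t : F)
    (hirr : Irreducible (X ^ 2 - C t * X + C 1 : F[X])) :
    (X ^ 2 - C t * X + C 1 : F[X]) ∣ X ^ (Fintype.card F + 1) - 1 := by
  classical
  set P : F[X] := X ^ 2 - C t * X + C 1 with hP
  have : Fact (Irreducible P) := ⟨hirr⟩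
  let K := AdjoinRoot P
  have hP0 : P ≠ 0 := hirr.ne_zero
  let α : K := AdjoinRoot.root P
  have h0 : aeval α P = 0 := by
    rw [AdjoinRoot.aeval_eq, AdjoinRoot.mk_self]
  have hα : α ^ 2 - algebraMap F K t * α + 1 = 0 := by
    simpa [hP] using h0
  have h1 : aeval (FiniteField.frobeniusAlgHom F K α) P = 0 := by
    rw [Polynomial.aeval_algHom_apply, h0, map_zero]
  have hβ' : FiniteField.frobeniusAlgHom F K α = α ^ (Fintype.card F) := rfl
  rw [hβ'] at h1
  have hβ : (α ^ (Fintype.card F)) ^ 2 - algebraMap F K t * (α ^ (Fintype.card F)) + 1 = 0 := by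
    simpa [hP] using h1
  set β := α ^ (Fintype.card F) with hβdef
  have hfac : (β - α) * (β - (algebraMap F K t - α)) = 0 := by
    linear_combination hβ - hα
  rcases mul_eq_zero.mp hfac with h2 | h2
  · -- β = α : then P ∣ X^q - X, impossible
    exfalso
    have h3 : AdjoinRoot.mk P (X ^ (Fintype.card F) - X) = 0 := by
      rw [map_sub, map_pow, AdjoinRoot.mk_X]
      exact h2
    have h4 : P ∣ X ^ (Fintype.card F) - X := AdjoinRoot.mk_eq_zero.mp h3
    have hcard : 1 < Fintype.card F := Fintype.one_lt_card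
    have hne : (X ^ (Fintype.card F) - X : F[X]) ≠ 0 := FiniteField.X_pow_card_sub_X_ne_zero F hcard
    have hs : (X ^ (Fintype.card F) - X : F[X]).Splits := by
      rw [Polynomial.splits_iff_card_roots, FiniteField.roots_X_pow_card_sub_X, FiniteField.X_pow_card_sub_X_natDegree_eq F hcard]
      simp
    have hs' : P.Splits := hs.of_dvd hne h4
    have hdeg : P.natDegree = 2 := by
      rw [hP]; compute_degree!
    obtain ⟨a, ha⟩ := hs'.exists_eval_eq_zero (by
      rw [Polynomial.degree_eq_natDegree hP0, hdeg]; simp)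
    have := Polynomial.degree_eq_one_of_irreducible_of_root hirr ha
    rw [Polynomial.degree_eq_natDegree hP0, hdeg] at this
    simp at this
  · have h3 : β * α = 1 := by
      have : β = algebraMap F K t - α := sub_eq_zero.mp h2
      rw [this]
      linear_combination -hα
    rw [← AdjoinRoot.mk_eq_zero, map_sub, map_pow, AdjoinRoot.mk_X, map_one, pow_succ]
    exact sub_eq_zero.mpr h3

/-- split semisimple case. -/
lemma dvd_of_root {F : Type*} [Field F] [Fintype F] (t a : F)
    (ha : a ^ 2 - t * a + 1 = 0) (ha2 : a ^ 2 ≠ 1) :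
    (X ^ 2 - C t * X + C 1 : F[X]) ∣ X ^ (Fintype.card F - 1) - 1 := by
  classical
  have ha0 : a ≠ 0 := by
    rintro rfl; simp at ha
  have hfact : (X ^ 2 - C t * X + C 1 : F[X]) = (X - C a) * (X - C a⁻¹) := by
    have ht : t = a + a⁻¹ := by
      field_simp
      linear_combination -ha
    rw [ht]
    have h1 : a * a⁻¹ = 1 := mul_inv_cancel₀ ha0
    have h2 : (C a * C a⁻¹ : F[X]) = 1 := by
      rw [← C_mul, h1, C_1]
    simp only [C_add, C_1]
    linear_combination -h2
  rw [hfact]
  have hne : a ≠ a⁻¹ := by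
    intro h
    apply ha2
    have : a * a = a * a⁻¹ := by rw [← h]
    rw [mul_inv_cancel₀ ha0] at this
    rw [pow_two, this]
  have hcop : IsCoprime (X - C a : F[X]) (X - C a⁻¹) :=
    Polynomial.isCoprime_X_sub_C_of_isUnit_sub (sub_ne_zero.mpr hne).isUnit
  apply hcop.mul_dvd
  · rw [Polynomial.dvd_iff_isRoot]
    simp [FiniteField.pow_card_sub_one_eq_one a ha0]
  · rw [Polynomial.dvd_iff_isRoot]
    simp [FiniteField.pow_card_sub_one_eq_one a⁻¹ (inv_ne_zero ha0)]

/-- Tori of SL_2(q): if g ∈ SL_2(q) has order coprime to the characteristic p, then the order of g divides q − 1 or q + 1. -/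
theorem result {F : Type*} [Field F] [Fintype F] {q : ℕ} (hF : Fintype.card F = q) (p : ℕ) [Fact p.Prime] [CharP F p] (g : Matrix.SpecialLinearGroup (Fin 2) F) (hg : Nat.Coprime (orderOf g) p) : orderOf g ∣ q - 1 ∨ orderOf g ∣ q + 1 := by
  classical
  subst hF
  set t := g.1.trace with ht
  have hP := charpoly_eq g
  by_cases hroot : ∃ a : F, a ^ 2 - t * a + 1 = 0
  · obtain ⟨a, ha⟩ := hroot
    by_cases ha2 : a ^ 2 = 1
    · -- unipotent case
      left
      have hpp : p.Prime := Fact.out
      -- Cayley-Hamilton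
      have hCH : g.1 ^ 2 - t • g.1 + 1 = 0 := by
        have h := Matrix.aeval_self_charpoly g.1
        rw [hP] at h
        simpa [Algebra.algebraMap_eq_smul_one] using h
      have hta : t = 2 * a := by
        have ha0 : a ≠ 0 := by
          rintro rfl; simp at ha
        have h1 : a * (t - 2 * a) = 0 := by linear_combination -ha - ha2
        have := (mul_eq_zero.mp h1).resolve_left ha0
        exact sub_eq_zero.mp this
      set N : Matrix (Fin 2) (Fin 2) F := g.1 - a • 1 with hN
      have hN2 : N * N = 0 := by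
        have : N * N = g.1 ^ 2 - t • g.1 + (a ^ 2) • 1 := by
          rw [hN, hta, two_mul, pow_two, pow_two, sub_mul, mul_sub, mul_sub]
          simp only [smul_mul_assoc, mul_smul_comm, mul_one, one_mul, smul_smul, add_smul]
          abel
        rw [this, ha2, one_smul]
        exact hCH
      have hNp : N ^ p = 0 := by
        have h2 : 2 ≤ p := hpp.two_le
        obtain ⟨k, rfl⟩ := Nat.exists_eq_add_of_le h2
        rw [pow_add, pow_two, hN2, zero_mul]
      have hcomm : Commute (a • (1 : Matrix (Fin 2) (Fin 2) F)) N := by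
        rw [hN]
        apply Commute.smul_left
        exact Commute.one_left _
      have hA : g.1 = a • 1 + N := by rw [hN]; abel
      have hAp : g.1 ^ p = a ^ p • 1 := by
        rw [hA, add_pow_char_of_commute p hcomm, hNp, add_zero, _root_.smul_pow, one_pow]
      have hA2p : g.1 ^ (2 * p) = 1 := by
        rw [mul_comm, pow_mul, hAp, _root_.smul_pow, one_pow, ← pow_mul, mul_comm p 2, pow_mul, ha2, one_pow, one_smul]
      have hg2p : g ^ (2 * p) = 1 := by
        apply Subtype.ext
        exact (Matrix.SpecialLinearGroup.coe_pow g _).trans hA2p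
      have hdvd : orderOf g ∣ 2 * p := orderOf_dvd_of_pow_eq_one hg2p
      have hdvd2 : orderOf g ∣ 2 := hg.dvd_of_dvd_mul_right hdvd
      by_cases hp2 : p = 2
      · subst hp2
        have : orderOf g = 1 := Nat.Coprime.eq_one_of_dvd hg hdvd2
        rw [this]; exact one_dvd _
      · refine hdvd2.trans ?_
        have hodd : Fintype.card F % 2 = 1 := by
          apply FiniteField.odd_card_of_char_ne_two
          rw [ringChar.eq F p]
          exact hp2
        omega
    · left
      apply orderOf_dvd_of_pow_eq_one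
      apply pow_eq_one_of_dvd
      rw [hP]
      exact dvd_of_root t a ha ha2
  · right
    apply orderOf_dvd_of_pow_eq_one
    apply pow_eq_one_of_dvd
    rw [hP]
    apply dvd_of_irreducible
    have hdeg : (X ^ 2 - C t * X + C 1 : F[X]).natDegree = 2 := by compute_degree!
    have hmonic : (X ^ 2 - C t * X + C 1 : F[X]).Monic := by monicity!
    rw [hmonic.irreducible_iff_roots_eq_zero_of_degree_le_three (by omega) (by omega)]
    rw [Multiset.eq_zero_iff_forall_notMem]
    intro a ha
    have := (Polynomial.mem_roots'.mp ha).2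
    apply hroot
    refine ⟨a, ?_⟩
    simpa [IsRoot] using this

end Cfsg.Agent.S0800
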