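import Mathlib
import Cfsg.Statements.S0802
import Cfsg.Agent.Lib.TraceTriple
import Cfsg.Agent.Lib.ClassicalSmall

set_option autoImplicit false
open Cfsg

namespace Cfsg.Agent.S0802

open Cfsg.Agent.Lib.SL2Core Cfsg.Agent.Lib.TraceTriple Cfsg.Agent.Lib.SmallPres

/-- PSL_2(p^n) has a subgroup isomorphic to A_4 if and only if it is not the case that p = 2 and n is odd. -/
theorem result {F : Type*} [Field F] [Fintype F] (p n : ℕ) [Fact p.Prime] [CharP F p] (hF : Fintype.card F = p ^ n) : (∃ H : Subgroup (Matrix.ProjectiveSpecialLinearGroup (Fin 2) F), Nonempty (H ≃* alternatingGroup (Fin 4))) ↔ ¬ (p = 2 ∧ Odd n) := by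
  classical
  constructor
  · rintro ⟨H, ⟨e⟩⟩ ⟨rfl, hn⟩
    have h2 : (2 : F) = 0 := CharTwo.two_eq_zero
    refine (no_A4 h2 ?_ H).false e
    rw [hF]
    have hmod : 2 ^ n % 3 = 2 := by
      obtain ⟨k, rfl⟩ := hn
      rw [pow_succ, pow_mul]
      norm_num [Nat.mul_mod, Nat.pow_mod]
    omega
  · intro h
    by_cases hp : p = 2
    · subst hp
      have hn : ¬ Odd n := fun hn => h ⟨rfl, hn⟩
      have h2 : (2 : F) = 0 := CharTwo.two_eq_zero
      obtain ⟨k, rfl⟩ := Nat.not_odd_iff_even.mp hn
      have h3 : 3 ∣ Fintype.card F - 1 := by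
        rw [hF, ← two_mul, pow_mul]
        have h4 : 4 ^ k % 3 = 1 := by
          norm_num [Nat.pow_mod]
        norm_num
        omega
      -- a primitive cube root of unity
      have h5 : 3 ∣ Nat.card Fˣ := by
        rw [Nat.card_eq_fintype_card, Fintype.card_units]
        exact h3
      have : Fact (Nat.Prime 3) := ⟨by norm_num⟩
      obtain ⟨u, hu⟩ := exists_prime_orderOf_dvd_card' 3 h5
      have hu3 : u ^ 3 = 1 := by rw [← hu]; exact pow_orderOf_eq_one u
      have hu1 : u ≠ 1 := by
        rintro rfl
        simp at hu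
      set w : F := (u : F) with hw
      have hw3 : w ^ 3 = 1 := by
        rw [hw, ← Units.val_pow_eq_pow_val, hu3]; rfl
      have hw1 : w ≠ 1 := fun h => hu1 (Units.ext h)
      have hww : w * w + w + 1 = 0 := by
        have : (w - 1) * (w * w + w + 1) = 0 := by linear_combination hw3
        exact (mul_eq_zero.mp this).resolve_left (sub_ne_zero.mpr hw1)
      let a : SL2 F := mk2 1 1 0 1 (by ring)
      let b : SL2 F := mk2 w 0 0 (w + 1) (by linear_combination hww - h2)
      have ha : tr a = 0 := by
        rw [tr_eq]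
        show (1 : F) + 1 = 0
        linear_combination h2
      have hb : tr b = 1 := by
        rw [tr_eq]
        show w + (w + 1) = 1
        linear_combination w * h2
      have hab : tr (a * b) = 1 := by
        rw [tr_eq]
        show (((a : Matrix (Fin 2) (Fin 2) F) * (b : Matrix (Fin 2) (Fin 2) F)) 0 0 + ((a : Matrix (Fin 2) (Fin 2) F) * (b : Matrix (Fin 2) (Fin 2) F)) 1 1) = 1
        simp [a, b, Matrix.mul_apply, Fin.sum_univ_two]
        linear_combination w * h2
      have ha1 : proj a ≠ 1 := by
        intro h6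
        have e01 : ∀ Z : SL2 F, (Z = 1 ∨ Z = negS 1) → (Z : Matrix (Fin 2) (Fin 2) F) 0 1 = 0 := by
          rintro Z (rfl | rfl)
          · rfl
          · simp
        have := e01 a (eq_or_of_proj_eq_one h6)
        exact one_ne_zero this
      have hb1 : proj b ≠ 1 := by
        intro h6
        have e00 : (b : Matrix (Fin 2) (Fin 2) F) 0 0 = w := rfl
        rcases eq_or_of_proj_eq_one h6 with h7 | h7
        · rw [h7] at e00
          have : w = 1 := by simpa using e00.symm
          exact hw1 this
        · rw [h7] at e00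
          have : w = -1 := by simpa using e00.symm
          apply hw1
          rw [this]
          linear_combination -h2
      exact exists_A4 ha hb hab ha1 hb1
    · have h2 : (2 : F) ≠ 0 := by
        intro h3
        have h4 : ((2 : ℕ) : F) = 0 := by exact_mod_cast h3
        rw [CharP.cast_eq_zero_iff F p] at h4
        have h5 := (Nat.prime_dvd_prime_iff_eq (Fact.out) Nat.prime_two).mp h4
        exact hp h5
      obtain ⟨a, b, ha, hb, hab⟩ := exists_triple (1 : F) one_ne_zero
      exact exists_A4 ha hb hab (proj_a_ne_one_of_two h2 ha) (proj_b_ne_one ha hab one_ne_zero)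

end Cfsg.Agent.S0802
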