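import Mathlib
import Cfsg.Statements.S0803
import Cfsg.Agent.Lib.TraceTriple
import Cfsg.Agent.Lib.ClassicalSmall

set_option autoImplicit false
open Cfsg

namespace Cfsg.Agent.S0803

open Cfsg.Agent.Lib.TraceTriple Cfsg.Agent.Lib.SmallPres

/-- PSL_2(q) has a subgroup isomorphic to S_4 iff q² ≡ 1 (mod 16). -/
theorem result {F : Type*} [Field F] [Fintype F] {q : ℕ} (hF : Fintype.card F = q) : (∃ H : Subgroup (Matrix.ProjectiveSpecialLinearGroup (Fin 2) F), Nonempty (H ≃* Equiv.Perm (Fin 4))) ↔ q ^ 2 % 16 = 1 := by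
  have hq1 : 1 < q := by rw [← hF]; exact Fintype.one_lt_card
  have hcard := Cfsg.Agent.Lib.ClassicalSmall.card_PSL2 (F := F)
  rw [hF] at hcard
  constructor
  · rintro ⟨H, ⟨e⟩⟩
    have h24 : Nat.card H = 24 := by
      rw [Nat.card_congr e.toEquiv, Nat.card_perm]
      simp
      decide
    have hd24 : 24 ∣ Nat.card (Matrix.ProjectiveSpecialLinearGroup (Fin 2) F) := by
      rw [← h24]; exact Subgroup.card_subgroup_dvd_card H
    by_cases hodd : Odd q
    · -- odd case: orders
      have h2 : Nat.gcd 2 (q - 1) = 2 := by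
        apply Nat.gcd_eq_left
        obtain ⟨k, rfl⟩ := hodd
        exact ⟨k, by omega⟩
      rw [h2] at hcard
      obtain ⟨c, hc⟩ := hd24
      rw [hc] at hcard
      obtain ⟨k, rfl⟩ := hodd
      have h3 : (2 * k + 1 + 1) * (2 * k + 1) * (2 * k + 1 - 1) = 2 * (24 * c) := hcard.symm
      have h4 : 2 * k + 1 - 1 = 2 * k := by omega
      rw [h4] at h3
      have h5 : ((k + 1) * k) * (2 * k + 1) = 12 * c := by nlinarith
      -- `(k+1) k` is even and `2k+1` is odd: `4 ∣ (k+1) k`
      have h6 : 4 ∣ (k + 1) * k := by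
        have h7 : 4 ∣ ((k + 1) * k) * (2 * k + 1) := by rw [h5]; exact ⟨3 * c, by ring⟩
        have h8 : Nat.Coprime 4 (2 * k + 1) := by
          have : Nat.Coprime 2 (2 * k + 1) := by simp
          exact Nat.Coprime.pow_left 2 this
        exact h8.dvd_of_dvd_mul_right h7
      obtain ⟨d, hd⟩ := h6
      have h9 : (2 * k + 1) ^ 2 = 16 * d + 1 := by nlinarith
      rw [h9]
      omega
    · exfalso
      have heven : Fintype.card F % 2 = 0 := by
        rw [hF]
        have := Nat.not_odd_iff.mp hodd
        omega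
      have h2F : (2 : F) = 0 := by
        have h1 : ringChar F = 2 := by
          by_contra h
          have := FiniteField.odd_card_of_char_ne_two h
          omega
        have h3 := ringChar.Nat.cast_ringChar (R := F)
        rw [h1] at h3
        exact_mod_cast h3
      let z : Matrix.ProjectiveSpecialLinearGroup (Fin 2) F := (e.symm (XS * YS) : H)
      have h4 : z ^ 4 = 1 := by
        show ((e.symm (XS * YS) : H) : Matrix.ProjectiveSpecialLinearGroup (Fin 2) F) ^ 4 = 1
        rw [← Subgroup.coe_pow, ← map_pow, hXYS, map_one]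
        rfl
      have h5 := no_order_four h2F z h4
      have h6 : (e.symm (XS * YS)) ^ 2 = 1 := by
        apply Subtype.ext
        rw [Subgroup.coe_pow]
        exact h5
      rw [← map_pow] at h6
      have h7 : (XS * YS) ^ 2 = 1 := by
        apply e.symm.injective
        rw [h6, map_one]
      exact absurd h7 (by decide)
  · intro h
    have h8 : q % 8 = 1 ∨ q % 8 = 7 := by
      have h1 : q ^ 2 % 16 = (q % 16) ^ 2 % 16 := Nat.pow_mod q 2 16
      have h2 : q % 16 < 16 := Nat.mod_lt _ (by norm_num)
      have h3 : q % 8 = (q % 16) % 8 := by omega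
      rw [h1] at h
      rw [h3]
      generalize q % 16 = r at *
      interval_cases r <;> simp_all
    have hodd : Odd q := by
      rw [Nat.odd_iff]
      omega
    have h2 : (2 : F) ≠ 0 := Cfsg.Agent.Lib.SL2Inv.two_ne_zero_of_odd (by rw [hF]; exact hodd)
    have hs : IsSquare (2 : F) := by
      rw [FiniteField.isSquare_two_iff, hF]
      omega
    obtain ⟨s, hs⟩ := hs
    exact exists_S4 h2 hs.symm

end Cfsg.Agent.S0803
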