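import Mathlib
import Cfsg.Statements.S0804
import Cfsg.Agent.Lib.TraceTriple
import Cfsg.Agent.Lib.ClassicalSmall

set_option autoImplicit false
open Cfsg

namespace Cfsg.Agent.S0804

open Cfsg.Agent.Lib.TraceTriple

/-- PSL_2(q) has a subgroup isomorphic to A_5 iff 5 ∣ q(q² − 1). -/
theorem result {F : Type*} [Field F] [Fintype F] {q : ℕ} (hF : Fintype.card F = q) : (∃ H : Subgroup (Matrix.ProjectiveSpecialLinearGroup (Fin 2) F), Nonempty (H ≃* alternatingGroup (Fin 5))) ↔ 5 ∣ q * (q ^ 2 - 1) := by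
  have hq1 : 1 < q := by rw [← hF]; exact Fintype.one_lt_card
  have hcard := Cfsg.Agent.Lib.ClassicalSmall.card_PSL2 (F := F)
  rw [hF] at hcard
  have heq : q * (q ^ 2 - 1) = (q + 1) * q * (q - 1) := by
    obtain ⟨k, rfl⟩ : ∃ k, q = k + 1 := ⟨q - 1, by omega⟩
    simp only [Nat.add_sub_cancel]
    have : (k + 1) ^ 2 - 1 = k * (k + 2) := by
      have : (k + 1) ^ 2 = k * (k + 2) + 1 := by ring
      omega
    rw [this]
    ring
  rw [heq, ← hcard]
  constructor
  · rintro ⟨H, ⟨e⟩⟩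
    have h60 : Nat.card H = 60 := by
      rw [Nat.card_congr e.toEquiv, nat_card_alternatingGroup]
      simp
      decide
    have h5 : 5 ∣ Nat.card H := by rw [h60]; norm_num
    exact Dvd.dvd.mul_left (h5.trans (Subgroup.card_subgroup_dvd_card H)) _
  · intro h
    have hg : Nat.Coprime 5 (Nat.gcd 2 (q - 1)) := by
      have h2 : Nat.gcd 2 (q - 1) ∣ 2 := Nat.gcd_dvd_left _ _
      exact Nat.Coprime.coprime_dvd_right h2 (by norm_num)
    have h5 := hg.dvd_of_dvd_mul_left h
    obtain ⟨t, ht⟩ := exists_root_of_dvd h5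
    exact exists_A5 ht

end Cfsg.Agent.S0804
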