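import Mathlib
import Cfsg.Statements.S0807
import Cfsg.Agent.Lib.SL2Klein
import Cfsg.Agent.Lib.ClassicalSmall

set_option autoImplicit false
open Cfsg

namespace Cfsg.Agent.S0807

open Cfsg.Agent.Lib.SL2Core Cfsg.Agent.Lib.SL2Klein Cfsg.Agent.Lib.KleinGroup

/-- For q odd, twelve times the number of Klein four-subgroups of PSL_2(q) equals the order of PSL_2(q). -/
theorem result {F : Type*} [Field F] [Fintype F] {q : ℕ} (hF : Fintype.card F = q) (hodd : Odd q) : 12 * Nat.card {V : Subgroup (Matrix.ProjectiveSpecialLinearGroup (Fin 2) F) // IsKleinFour V} = Nat.card (Matrix.ProjectiveSpecialLinearGroup (Fin 2) F) := by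
  classical
  have h2 : (2 : F) ≠ 0 := Cfsg.Agent.Lib.SL2Inv.two_ne_zero_of_odd (by rw [hF]; exact hodd)
  have h1 := card_AC (F := F) h2
  rw [card_AC_eq h2, card_pairs, Cfsg.Agent.Lib.ClassicalSmall.card_SL2] at h1
  have h3 := Cfsg.Agent.Lib.ClassicalSmall.card_PSL2 (F := F)
  have h4 : Nat.gcd 2 (Fintype.card F - 1) = 2 := by
    rw [hF]
    apply Nat.gcd_eq_left
    obtain ⟨k, rfl⟩ := hodd
    exact ⟨k, by omega⟩
  rw [h4] at h3
  have h5 : 2 * (12 * Nat.card {V : Subgroup (Matrix.ProjectiveSpecialLinearGroup (Fin 2) F) // IsKleinFour V}) = 2 * Nat.card (Matrix.ProjectiveSpecialLinearGroup (Fin 2) F) := by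
    rw [h3, ← h1]
    ring
  omega

end Cfsg.Agent.S0807
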