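import Cfsg.Statements.S0814
import Cfsg.Agent.Lib.AutPSp.Graph

set_option autoImplicit false
open Cfsg

namespace Cfsg.Agent.S0814

open Cfsg.Agent.Lib.AutPSp

/-- |Aut(PSp_2m(q))| = gcd(2, q−1) · f · |PSp_2m(q)| for q = p^f, m ≥ 2, (m, q) ≠ (2, 2), with an extra factor 2 exactly when m = 2 and p = 2. -/
theorem result {F : Type*} [Field F] [Fintype F] (p f : ℕ) [Fact p.Prime] (hf : 1 ≤ f) (hF : Fintype.card F = p ^ f) (m : ℕ) (hm : 2 ≤ m) (h22 : m = 2 → 3 ≤ p ^ f) : Nat.card (MulAut (Cfsg.PSp m F)) = (if m = 2 ∧ p = 2 then 2 else 1) * Nat.gcd 2 (p ^ f - 1) * f * Nat.card (Cfsg.PSp m F) := by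
  haveI : NeZero m := ⟨by omega⟩
  have hS : Nat.card (Cfsg.Agent.Lib.SpBasic.Sp (Fin m) F) = Nat.gcd 2 (p ^ f - 1) * Nat.card (Cfsg.PSp m F) := by
    rw [card_Sp_eq, hF]
  by_cases hex : m = 2 ∧ p = 2
  · obtain ⟨rfl, rfl⟩ := hex
    rw [if_pos ⟨rfl, rfl⟩]
    have h2 : (2 : F) = 0 := by
      have h3 : ((Fintype.card F : ℕ) : F) = 0 := FiniteField.cast_card_eq_zero F
      rw [hF, Nat.cast_pow] at h3
      have h4 := pow_eq_zero_iff (by omega) |>.mp h3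
      exact_mod_cast h4
    rw [card_aut_two hf hF h2 (by rw [hF]; exact h22 rfl), hS]
    ring
  · rw [if_neg hex, one_mul, card_of_all hf hF hm, hS]
    · ring
    · intro β
      push Not at hex
      obtain ⟨G, σ, hG, hGi⟩ := exists_induced hf hF hm hex β
      exact ⟨⟨G, hG⟩, σ, (isInduced_iff ⟨G, hG⟩ σ β).mp hGi⟩

end Cfsg.Agent.S0814
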