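import Mathlib
import Cfsg.Statements.S0817
import Cfsg.Agent.Lib.TriOutOdd
import Cfsg.Agent.Lib.GammaFinal
import Cfsg.Agent.Lib.AutOrthFam
import Cfsg.Agent.Lib.Tri.NotGamma

set_option autoImplicit false
open Cfsg

namespace Cfsg.Agent.S0817

open Cfsg.Agent.Lib.Tri in
lemma index_three {F : Type*} [Field F] [Fintype F] :
    (gammaPOmega F (quadFormPlus 4 F)).index = 3 := by
  set Γ := gammaPOmega F (quadFormPlus 4 F) with hΓ
  set τ : MulAut (POmega F (quadFormPlus 4 F)) := tauP F with hτ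
  have h3 : τ ^ 3 = 1 := tauP_cube
  have h1 : τ ∉ Γ := tauP_not_mem
  have h2 : τ ^ 2 ∉ Γ := by
    intro h
    apply h1
    have : τ = (τ ^ 2)⁻¹ := by
      rw [eq_inv_iff_mul_eq_one, ← pow_succ', h3]
    rw [this]
    exact Γ.inv_mem h
  let φ : Fin 3 → MulAut (POmega F (quadFormPlus 4 F)) ⧸ Γ := fun i => QuotientGroup.mk (τ ^ (i : ℕ))
  have hinj : Function.Injective φ := by
    intro i j hij
    have hij' : (τ ^ (i : ℕ))⁻¹ * τ ^ (j : ℕ) ∈ Γ := QuotientGroup.eq.1 hij
    by_contra hne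
    have e1 : τ⁻¹ = τ ^ 2 := by
      rw [inv_eq_iff_mul_eq_one, ← pow_succ', h3]
    have e2 : (τ ^ 2)⁻¹ = τ := by
      rw [inv_eq_iff_mul_eq_one, ← pow_succ, h3]
    have key : ∀ a b : ℕ, a < 3 → b < 3 → a ≠ b → (τ ^ a)⁻¹ * τ ^ b ∉ Γ := by
      intro a b ha hb hab hm
      have hb' : (τ ^ a)⁻¹ * τ ^ b = τ ∨ (τ ^ a)⁻¹ * τ ^ b = τ ^ 2 := by
        interval_cases a <;> interval_cases b <;> first
          | exact absurd rfl hab
          | (left; simp [e2]; done)
          | (right; simp [e1]; done)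
          | (left; rw [pow_one, pow_two, inv_mul_cancel_left]; done)
          | (right; rw [pow_one, e2, ← pow_two]; done)
      rcases hb' with e | e
      · rw [e] at hm; exact h1 hm
      · rw [e] at hm; exact h2 hm
    exact key i j i.2 j.2 (fun h => hne (Fin.ext h)) hij'
  have hsurj : Function.Surjective φ := by
    intro x
    induction x using QuotientGroup.induction_on with
    | H α =>
      rcases Cfsg.Agent.Lib.TriAct.aut_cosets α⁻¹ with h | h | h
      · refine ⟨0, ?_⟩
        refine QuotientGroup.eq.2 ?_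
        simpa using Γ.inv_mem h
      · refine ⟨1, ?_⟩
        refine QuotientGroup.eq.2 ?_
        simpa using Γ.inv_mem h
      · refine ⟨2, ?_⟩
        refine QuotientGroup.eq.2 ?_
        simpa using Γ.inv_mem h
  have := Nat.card_congr (Equiv.ofBijective φ ⟨hinj, hsurj⟩)
  rw [Subgroup.index, ← this]
  simp

/-- |Aut(PΩ⁺_2m(q))| for q = p^f, m ≥ 4: |PΩ⁺_2m(q)| times f, times 3 when m = 4, times 2 if p = 2, and times 8 or 4 if p is odd according as m(q−1)/2 is even or odd. -/
theorem result {F : Type*} [Field F] [Fintype F] (p f : ℕ) [Fact p.Prime] (hf : 1 ≤ f) (hF : Fintype.card F = p ^ f) (m : ℕ) (hm : 4 ≤ m) : Nat.card (MulAut (Cfsg.POmega F (Cfsg.quadFormPlus m F))) = (if m = 4 then 3 else 1) * (if p = 2 then 2 else (if Even (m * (p ^ f - 1) / 2) then 8 else 4)) * f * Nat.card (Cfsg.POmega F (Cfsg.quadFormPlus m F)) := by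
  have h := Cfsg.Agent.Lib.GammaFinal.card_aut_plus_of_index (F := F) (p := p) (f := f) hf hF m hm
  by_cases h4 : m = 4
  · subst h4
    have hi := index_three (F := F)
    have hc := Subgroup.card_mul_index (gammaPOmega F (quadFormPlus 4 F))
    rw [hi, h] at hc
    rw [if_pos rfl, ← hc]
    ring
  · have h5 : 5 ≤ m := by omega
    rw [if_neg h4, one_mul, ← h, Cfsg.Agent.Lib.AutOrth.plus_top h5]
    exact (Nat.card_congr Subgroup.topEquiv.toEquiv).symm

end Cfsg.Agent.S0817
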