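import Cfsg.Statements.S0819
import Cfsg.Agent.Lib.SLTransfer

set_option autoImplicit false
open Cfsg

namespace Cfsg.Agent.S0819

open Matrix Cfsg.Agent.Lib.SLTransfer

/-- The quadratic `X² + X + 1` is irreducible modulo two. -/
instance factK4 : Fact (∀ r : ZMod 2, r ^ 2 ≠ 1 + 1 * r) := ⟨by decide⟩

/-- The field with four elements. -/
abbrev K4 := QuadraticAlgebra (ZMod 2) 1 1

instance fintypeK4 : Fintype K4 := Fintype.ofEquiv _ (QuadraticAlgebra.equivProd 1 1).symm

theorem card_K4 : Fintype.card K4 = 4 := by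
  rw [Fintype.card_congr (QuadraticAlgebra.equivProd (R := ZMod 2) 1 1), Fintype.card_prod, ZMod.card]

/-- One step of multiplication by `X` modulo `X³ + a X² + b X + 1`. -/
def step (a b : K4) (c : K4 × K4 × K4) : K4 × K4 × K4 :=
  (c.2.2, c.1 + c.2.2 * b, c.2.1 + c.2.2 * a)

/-- The powers of `X` modulo `X³ + a X² + b X + 1`. -/
def stepPow (a b : K4) : ℕ → K4 × K4 × K4
  | 0 => (1, 0, 0)
  | n + 1 => step a b (stepPow a b n)

theorem check : ∀ a b : K4, ∃ n ∈ ([3, 4, 5, 21] : List ℕ),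
    (stepPow a b n).2.1 = 0 ∧ (stepPow a b n).2.2 = 0 := by
  decide +kernel

theorem neg_eq (x : K4) : -x = x := by
  revert x
  decide +kernel

theorem pow_eq {m : Matrix (Fin 3) (Fin 3) K4} {a b : K4} (hm : m ^ 3 = a • m ^ 2 + b • m + 1) (n : ℕ) :
    m ^ n = (stepPow a b n).1 • 1 + (stepPow a b n).2.1 • m + (stepPow a b n).2.2 • m ^ 2 := by
  induction n with
  | zero => simp [stepPow]
  | succ n ih =>
    rw [pow_succ', ih]
    simp only [stepPow, step]
    have e : m * ((stepPow a b n).1 • 1 + (stepPow a b n).2.1 • m + (stepPow a b n).2.2 • m ^ 2) =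
        (stepPow a b n).1 • m + (stepPow a b n).2.1 • m ^ 2 + (stepPow a b n).2.2 • m ^ 3 := by
      rw [mul_add, mul_add, mul_smul_comm, mul_smul_comm, mul_smul_comm, mul_one, ← pow_two,
        ← pow_succ']
    rw [e, hm]
    simp only [add_smul, smul_add, smul_smul]
    abel_nf

theorem cayley (g : SpecialLinearGroup (Fin 3) K4) :
    ∃ a b : K4, g.1 ^ 3 = a • g.1 ^ 2 + b • g.1 + 1 := by
  set m : Matrix (Fin 3) (Fin 3) K4 := g.1 with hm
  have h0 := Matrix.aeval_self_charpoly m
  have hdeg : m.charpoly.natDegree = 3 := by rw [Matrix.charpoly_natDegree_eq_dim]; simp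
  have hmonic : m.charpoly.Monic := Matrix.charpoly_monic m
  rw [Polynomial.aeval_eq_sum_range, hdeg, Finset.sum_range_succ, Finset.sum_range_succ,
    Finset.sum_range_succ, Finset.sum_range_one] at h0
  have hc3 : m.charpoly.coeff 3 = 1 := by
    have := hmonic.coeff_natDegree
    rwa [hdeg] at this
  have hdet : m.det = 1 := g.2
  have hc0 : m.charpoly.coeff 0 = 1 := by
    have := Matrix.det_eq_sign_charpoly_coeff m
    rw [hdet] at this
    simp at this
    rw [neg_eq, one_pow, one_mul] at this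
    exact this.symm
  refine ⟨m.charpoly.coeff 2, m.charpoly.coeff 1, ?_⟩
  rw [hc3, hc0, pow_zero, pow_one, one_smul, one_smul] at h0
  have h2 : ∀ x y : Matrix (Fin 3) (Fin 3) K4, x + y = 0 → x = y := by
    intro x y hxy
    have : x = - y := eq_neg_of_add_eq_zero_left hxy
    rw [this]
    refine Matrix.ext fun i j => ?_
    rw [Matrix.neg_apply, neg_eq]
  apply h2
  rw [← h0]
  abel

theorem key (g : SpecialLinearGroup (Fin 3) K4) :
    ∃ n ∈ ([3, 4, 5, 21] : List ℕ), g ^ n ∈ Subgroup.center (SpecialLinearGroup (Fin 3) K4) := by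
  obtain ⟨a, b, hab⟩ := cayley g
  obtain ⟨n, hn, h1, h2⟩ := check a b
  refine ⟨n, hn, ?_⟩
  have hp := pow_eq hab n
  rw [h1, h2, zero_smul, zero_smul, add_zero, add_zero] at hp
  set c := (stepPow a b n).1 with hc
  rw [Matrix.SpecialLinearGroup.mem_center_iff]
  refine ⟨c, ?_, ?_⟩
  · have hdet : (g ^ n).1.det = 1 := (g ^ n).2
    have e : (g ^ n).1 = g.1 ^ n := rfl
    rw [e, hp] at hdet
    simpa using hdet
  · have e : (g ^ n).1 = g.1 ^ n := rfl
    change _ = (g ^ n).1
    rw [e, hp, Matrix.scalar_apply, Matrix.smul_one_eq_diagonal]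

theorem orderOf_ne (g : ProjectiveSpecialLinearGroup (Fin 3) K4) : orderOf g ≠ 15 := by
  intro h
  obtain ⟨g', rfl⟩ := QuotientGroup.mk_surjective g
  obtain ⟨n, hn, hc⟩ := key g'
  have h1 : ((g' : ProjectiveSpecialLinearGroup (Fin 3) K4)) ^ n = 1 := by
    rw [← QuotientGroup.mk_pow]
    exact (QuotientGroup.eq_one_iff _).2 hc
  have h2 : 15 ∣ n := h ▸ orderOf_dvd_of_pow_eq_one h1
  simp only [List.mem_cons, List.not_mem_nil, or_false] at hn
  rcases hn with rfl | rfl | rfl | rfl <;> omega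

/-- No element of PSL_3(4) has order 15. -/
theorem result {F : Type*} [Field F] [Fintype F] (hF : Fintype.card F = 4) (g : Matrix.ProjectiveSpecialLinearGroup (Fin 3) F) : orderOf g ≠ 15 := by
  let e : F ≃+* K4 := FiniteField.ringEquivOfCardEq (K := F) (K' := K4) (by rw [hF, card_K4])
  let E : ProjectiveSpecialLinearGroup (Fin 3) F ≃* ProjectiveSpecialLinearGroup (Fin 3) K4 := pslEquiv e
  rw [← MulEquiv.orderOf_eq E]
  exact orderOf_ne _

end Cfsg.Agent.S0819
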