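import Mathlib
import Cfsg.Statements.S0839

set_option autoImplicit false
open Cfsg

namespace Cfsg.Agent.S0839

open Matrix

lemma rank_one_factor {F : Type*} [Field F] {ι : Type} [Fintype ι] [DecidableEq ι] (N : Matrix ι ι F) (h : N.rank = 1) :
    ∃ a b : ι → F, a ≠ 0 ∧ b ≠ 0 ∧ N = vecMulVec a b := by
  have h1 : Module.finrank F (LinearMap.range N.mulVecLin) = 1 := h
  obtain ⟨⟨a, ha⟩, ha0, hspan⟩ := finrank_eq_one_iff'.mp h1
  have hc : ∀ j, ∃ c : F, c • a = N.mulVecLin (Pi.single j 1) := by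
    intro j
    obtain ⟨c, hc⟩ := hspan ⟨N.mulVecLin (Pi.single j 1), LinearMap.mem_range_self _ _⟩
    exact ⟨c, congrArg Subtype.val hc⟩
  choose b hb using hc
  have hN : N = vecMulVec a b := by
    ext i j
    have := congrFun (hb j) i
    simp only [mulVecLin_apply, mulVec_single, Pi.smul_apply, smul_eq_mul, MulOpposite.op_one, one_smul] at this
    rw [vecMulVec_apply, mul_comm, this]
    simp
  refine ⟨a, b, fun h => ha0 (Subtype.ext h), ?_, hN⟩
  intro hb0
  rw [hb0, vecMulVec_zero] at hN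
  rw [hN, Matrix.rank_zero] at h
  exact zero_ne_one h

/-- Every nonzero row vector can be moved to `e_0` by `SL`. -/
lemma exists_sl_row {F : Type*} [Field F] (n : ℕ) (b : Fin (n + 2) → F) (hb : b ≠ 0) :
    ∃ g : Matrix.SpecialLinearGroup (Fin (n + 2)) F, Matrix.vecMul b (g : Matrix (Fin (n + 2)) (Fin (n + 2)) F) = Pi.single 0 1 := by
  classical
  -- the case b 0 ≠ 0
  have key : ∀ b : Fin (n + 2) → F, b 0 ≠ 0 →
      ∃ g : Matrix.SpecialLinearGroup (Fin (n + 2)) F, Matrix.vecMul b (g : Matrix (Fin (n + 2)) (Fin (n + 2)) F) = Pi.single 0 1 := by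
    intro b hb0
    let M : Matrix (Fin (n + 2)) (Fin (n + 2)) F := fun i j =>
      if j = 0 then (if i = 0 then (b 0)⁻¹ else 0)
      else if j = 1 then (if i = 1 then b 0 else if i = 0 then - b 1 else 0)
      else (if i = j then 1 else if i = 0 then - (b j / b 0) else 0)
    have hdet : M.det = 1 := by
      rw [Matrix.det_of_isUpperTriangular]
      · rw [Fin.prod_univ_succ, Fin.prod_univ_succ]
        have h01 : (1 : Fin (n + 2)) ≠ 0 := by simp
        have h0 : M 0 0 = (b 0)⁻¹ := by simp [M]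
        have h1 : M 1 1 = b 0 := by simp [M]
        have h2 : ∀ i : Fin n, M i.succ.succ i.succ.succ = 1 := by
          intro i
          have h3 : (i.succ.succ : Fin (n + 2)) ≠ 0 := Fin.succ_ne_zero _
          have h4 : (i.succ.succ : Fin (n + 2)) ≠ 1 := by
            intro h
            have := congrArg Fin.val h
            simp at this
          simp [M, h3, h4]
        rw [h0]
        have : (0 : Fin (n+1)).succ = (1 : Fin (n + 2)) := rfl
        rw [this, h1]
        simp only [h2, Finset.prod_const_one, mul_one]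
        field_simp
      · intro i j hij
        have hij' : j < i := hij
        have hi0 : i ≠ 0 := by
          intro h; rw [h] at hij'; exact Fin.not_lt_zero _ hij'
        have hne : i ≠ j := ne_of_gt hij'
        by_cases hj0 : j = 0
        · simp [M, hj0, hi0]
        · by_cases hj1 : j = 1
          · have hi1 : i ≠ 1 := by
              intro h; rw [h, hj1] at hij'; exact lt_irrefl _ hij'
            simp [M, hj1, hi0, hi1]
          · simp [M, hj0, hj1, hi0, hne]
    refine ⟨⟨M, hdet⟩, ?_⟩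
    ext j
    show (Matrix.vecMul b M) j = _
    rw [Matrix.vecMul, dotProduct]
    have h10 : (1 : Fin (n + 2)) ≠ 0 := by simp
    by_cases hj0 : j = 0
    · subst hj0
      rw [Finset.sum_eq_single 0]
      · simp [M, hb0]
      · intro i _ hi
        simp [M, hi]
      · simp
    · by_cases hj1 : j = 1
      · subst hj1
        rw [Finset.sum_eq_add (1 : Fin (n+2)) 0 h10]
        · simp [M, h10, hj0]
          ring
        · intro i _ hi
          simp [M, h10, hi.1, hi.2]
        · simp
        · simp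
      · rw [Finset.sum_eq_add j 0 hj0]
        · simp [M, hj0, hj1, Pi.single_apply, Ne.symm hj0]
          field_simp
          ring
        · intro i _ hi
          simp [M, hj0, hj1, hi.1, hi.2]
        · simp
        · simp
  -- general case
  by_cases h0 : b 0 = 0
  · obtain ⟨j, hj⟩ := Function.ne_iff.mp hb
    have hj' : b j ≠ 0 := hj
    have hj0 : j ≠ 0 := by
      rintro rfl; exact hj' h0
    -- the transvection adding row j to ... : T = 1 + E_j0
    have hT : (Matrix.transvection j 0 (1:F)).det = 1 := Matrix.det_transvection_of_ne j 0 hj0 1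
    let T : Matrix.SpecialLinearGroup (Fin (n + 2)) F := ⟨Matrix.transvection j 0 (1:F), hT⟩
    have hb' : (Matrix.vecMul b (Matrix.transvection j 0 (1:F))) 0 ≠ 0 := by
      have : (Matrix.vecMul b (Matrix.transvection j 0 (1:F))) 0 = b 0 + b j := by
        rw [Matrix.transvection, Matrix.vecMul_add, Matrix.vecMul_one, Pi.add_apply]
        congr 1
        simp only [Matrix.vecMul, dotProduct, Matrix.single_apply]
        rw [Finset.sum_eq_single j]
        · simp
        · intro i _ hi
          simp [hi.symm]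
        · simp
      rw [this, h0, zero_add]
      exact hj'
    obtain ⟨g, hg⟩ := key _ hb'
    refine ⟨T * g, ?_⟩
    have : ((T * g : Matrix.SpecialLinearGroup (Fin (n + 2)) F) : Matrix (Fin (n + 2)) (Fin (n + 2)) F) = Matrix.transvection j 0 (1:F) * (g : Matrix (Fin (n + 2)) (Fin (n + 2)) F) := rfl
    rw [this, ← Matrix.vecMul_vecMul]
    exact hg
  · exact key b h0

/-- Every transvection t ∈ SL_(n+2)(F) (rank(t − 1) = 1, (t − 1)² = 0) is conjugate in SL_(n+2)(F) to 1 + v·e_0ᵀ for some column vector v with v_0 = 0 (the group A of matrices that are the identity except in the first column below the diagonal); the dimension is written n + 2 ≥ 2. -/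
theorem result {F : Type*} [Field F] (n : ℕ) (t : Matrix.SpecialLinearGroup (Fin (n + 2)) F) (ht : Cfsg.IsTransvection (t : Matrix (Fin (n + 2)) (Fin (n + 2)) F)) : ∃ (g : Matrix.SpecialLinearGroup (Fin (n + 2)) F) (v : Fin (n + 2) → F), v 0 = 0 ∧ ((g⁻¹ * t * g : Matrix.SpecialLinearGroup (Fin (n + 2)) F) : Matrix (Fin (n + 2)) (Fin (n + 2)) F) = 1 + Matrix.vecMulVec v (Pi.single 0 1) := by
  classical
  obtain ⟨hrk, hsq⟩ := ht
  obtain ⟨a, b, ha, hb, hN⟩ := rank_one_factor _ hrk
  obtain ⟨g, hg⟩ := exists_sl_row n b hb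
  -- b ⬝ a = 0
  have hba : b ⬝ᵥ a = 0 := by
    rw [hN] at hsq
    have h1 : vecMulVec a b * vecMulVec a b = (b ⬝ᵥ a) • vecMulVec a b := by
      rw [vecMulVec_mul_vecMulVec]
      ext i j
      simp [vecMulVec_apply, MulOpposite.smul_eq_mul_unop, mul_comm, mul_left_comm, mul_assoc, Pi.smul_apply]
    rw [h1] at hsq
    have hne : vecMulVec a b ≠ 0 := vecMulVec_ne_zero ha hb
    exact (smul_eq_zero.mp hsq).resolve_right hne
  let G : Matrix (Fin (n + 2)) (Fin (n + 2)) F := (g : Matrix (Fin (n + 2)) (Fin (n + 2)) F)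
  let Gi : Matrix (Fin (n + 2)) (Fin (n + 2)) F := ((g⁻¹ : Matrix.SpecialLinearGroup (Fin (n + 2)) F) : Matrix (Fin (n + 2)) (Fin (n + 2)) F)
  have hGiG : Gi * G = 1 := by
    have : ((g⁻¹ * g : Matrix.SpecialLinearGroup (Fin (n + 2)) F) : Matrix (Fin (n + 2)) (Fin (n + 2)) F) = 1 := by
      rw [inv_mul_cancel]; rfl
    exact this
  have hGGi : G * Gi = 1 := by
    have : ((g * g⁻¹ : Matrix.SpecialLinearGroup (Fin (n + 2)) F) : Matrix (Fin (n + 2)) (Fin (n + 2)) F) = 1 := by
      rw [mul_inv_cancel]; rfl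
    exact this
  refine ⟨g, Gi *ᵥ a, ?_, ?_⟩
  · have h1 : b = Matrix.vecMul (Pi.single 0 1) Gi := by
      rw [← hg, Matrix.vecMul_vecMul]
      show b = b ᵥ* (G * Gi)
      rw [hGGi, Matrix.vecMul_one]
    have h2 : (Pi.single (0 : Fin (n + 2)) (1 : F)) ⬝ᵥ (Gi *ᵥ a) = (Gi *ᵥ a) 0 := by
      simp
    rw [← h2, Matrix.dotProduct_mulVec, ← h1]
    exact hba
  · have ht1 : (t : Matrix (Fin (n + 2)) (Fin (n + 2)) F) = 1 + vecMulVec a b := by
      rw [← hN]; abel
    have hcoe : ((g⁻¹ * t * g : Matrix.SpecialLinearGroup (Fin (n + 2)) F) : Matrix (Fin (n + 2)) (Fin (n + 2)) F) = Gi * (t : Matrix (Fin (n + 2)) (Fin (n + 2)) F) * G := rfl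
    rw [hcoe, ht1, mul_add, add_mul, mul_one, hGiG, Matrix.mul_vecMulVec, Matrix.vecMulVec_mul]
    show 1 + vecMulVec (Gi *ᵥ a) (b ᵥ* G) = _
    have : b ᵥ* G = Pi.single 0 1 := hg
    rw [this]

end Cfsg.Agent.S0839
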