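import Mathlib
import Cfsg.Statements.S0820
import Cfsg.Agent.S0839

set_option autoImplicit false
open Cfsg

namespace Cfsg.Agent.S0820

open Matrix

variable {F : Type*} [Field F]

local notation "Mat" => Matrix (Fin 3) (Fin 3) F
local notation "SL3" => Matrix.SpecialLinearGroup (Fin 3) F
local notation "PSL3" => Matrix.ProjectiveSpecialLinearGroup (Fin 3) F

/-- The standard transvection. -/
def T₀ : SL3 := ⟨!![1, 0, 0; 1, 1, 0; 0, 0, 1], by simp [det_fin_three]⟩

lemma conj_T₀ (v : Fin 3 → F) (hv0 : v 0 = 0) (hv : v ≠ 0) (t : SL3)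
    (ht : (t : Mat) = 1 + vecMulVec v (Pi.single 0 1)) : ∃ h : SL3, h * t * h⁻¹ = T₀ := by
  have key : ∀ h : SL3, (h : Mat) * (t : Mat) = ((T₀ : SL3) : Mat) * (h : Mat) → h * t * h⁻¹ = T₀ := by
    intro h he
    have : h * t = T₀ * h := Subtype.ext he
    rw [this]
    group
  by_cases hv1 : v 1 = 0
  · have hv2 : v 2 ≠ 0 := by
      intro h2
      apply hv
      ext i
      fin_cases i
      · exact hv0
      · exact hv1
      · exact h2
    refine ⟨⟨!![1, 0, 0; 0, 0, (v 2)⁻¹; 0, -v 2, 0], ?_⟩, key _ ?_⟩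
    · simp [det_fin_three, hv2]
    · rw [ht]
      show (!![1, 0, 0; 0, 0, (v 2)⁻¹; 0, -v 2, 0] : Mat) * _ = (!![1, 0, 0; 1, 1, 0; 0, 0, 1] : Mat) * _
      ext i j
      fin_cases i <;> fin_cases j <;>
        simp [Matrix.mul_apply, Fin.sum_univ_three, vecMulVec_apply, Matrix.one_apply, hv0, hv1, hv2, Pi.single_apply]
  · refine ⟨⟨!![1, 0, 0; 0, (v 1)⁻¹, 0; 0, -v 2, v 1], ?_⟩, key _ ?_⟩
    · simp [det_fin_three, hv1]
    · rw [ht]
      show (!![1, 0, 0; 0, (v 1)⁻¹, 0; 0, -v 2, v 1] : Mat) * _ = (!![1, 0, 0; 1, 1, 0; 0, 0, 1] : Mat) * _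
      ext i j
      fin_cases i <;> fin_cases j <;>
        simp [Matrix.mul_apply, Fin.sum_univ_three, vecMulVec_apply, Matrix.one_apply, hv0, hv1, Pi.single_apply]
      ring

lemma rank_of_sq_zero {N : Mat} (h : N * N = 0) (h0 : N ≠ 0) : N.rank = 1 := by
  have h1 := rank_add_rank_le_card_of_mul_eq_zero h
  rw [Fintype.card_fin] at h1
  have h2 : N.rank ≠ 0 := by
    intro h3
    apply h0
    have h4 : LinearMap.range N.mulVecLin = ⊥ := by
      rw [← Submodule.finrank_eq_zero]
      exact h3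
    have h5 : N.mulVecLin = 0 := LinearMap.range_eq_bot.mp h4
    ext i j
    have h6 := congrFun (LinearMap.congr_fun h5 (Pi.single j 1)) i
    simpa using h6
  omega

/-- Every involution of `PSL₃` in characteristic two lifts to a transvection. -/
lemma lift_transvection [Fintype F] (h2 : (2 : F) = 0) (x : PSL3) (hx : orderOf x = 2) :
    ∃ B : SL3, (QuotientGroup.mk B : PSL3) = x ∧ IsTransvection (B : Mat) := by
  obtain ⟨A, rfl⟩ := QuotientGroup.mk_surjective x
  have hsq : (QuotientGroup.mk (A * A) : PSL3) = 1 := by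
    have := pow_orderOf_eq_one (QuotientGroup.mk A : PSL3)
    rw [hx, pow_two] at this
    exact this
  rw [QuotientGroup.eq_one_iff, Matrix.SpecialLinearGroup.mem_center_iff] at hsq
  obtain ⟨z, hz3, hz⟩ := hsq
  rw [Fintype.card_fin] at hz3
  have hAA : (A : Mat) * (A : Mat) = scalar (Fin 3) z := hz.symm
  let B : SL3 := ⟨z • (A : Mat), by rw [det_smul, A.2, Fintype.card_fin, hz3, mul_one]⟩
  have hB : (B : Mat) = z • (A : Mat) := rfl
  have hBB : (B : Mat) * (B : Mat) = 1 := by
    rw [hB, Matrix.smul_mul, Matrix.mul_smul, hAA, smul_smul]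
    ext i j
    by_cases hij : i = j
    · subst hij
      simp [Matrix.scalar_apply]
      rw [← hz3]
      ring
    · simp [Matrix.scalar_apply, hij]
  have hinv : (A⁻¹ * B : SL3) ∈ Subgroup.center SL3 := by
    rw [Matrix.SpecialLinearGroup.mem_center_iff]
    refine ⟨z, by rw [Fintype.card_fin]; exact hz3, ?_⟩
    have hA : ((A⁻¹ : SL3) : Mat) * (A : Mat) = 1 := by
      have : ((A⁻¹ * A : SL3) : Mat) = 1 := by rw [inv_mul_cancel]; rfl
      exact this
    show _ = ((A⁻¹ : SL3) : Mat) * (B : Mat)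
    rw [hB, Matrix.mul_smul, hA]
    ext i j
    simp [Matrix.scalar_apply, Matrix.smul_apply, Matrix.diagonal_apply, Matrix.one_apply]
  refine ⟨B, ?_, ?_⟩
  · exact (QuotientGroup.eq.mpr hinv).symm
  · have hsq' : ((B : Mat) - 1) * ((B : Mat) - 1) = 0 := by
      calc ((B : Mat) - 1) * ((B : Mat) - 1) = (B : Mat) * (B : Mat) - (B : Mat) - (B : Mat) + 1 := by
            rw [sub_mul, mul_sub, mul_sub, Matrix.mul_one, Matrix.one_mul, Matrix.mul_one]
            abel
        _ = (2 : F) • (1 : Mat) - (2 : F) • (B : Mat) := by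
            rw [hBB, two_smul, two_smul]
            abel
        _ = 0 := by rw [h2, zero_smul, zero_smul, sub_zero]
    refine ⟨rank_of_sq_zero hsq' ?_, hsq'⟩
    intro h0
    have hB1 : B = 1 := Subtype.ext (sub_eq_zero.mp h0)
    have : (QuotientGroup.mk A : PSL3) = 1 := by
      have := QuotientGroup.eq.mpr hinv
      rw [this, hB1]
      rfl
    rw [this] at hx
    simp at hx

/-- Every involution is conjugate to the image of `T₀`. -/
lemma conj_base [Fintype F] (h2 : (2 : F) = 0) (x : PSL3) (hx : orderOf x = 2) :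
    IsConj x (QuotientGroup.mk T₀ : PSL3) := by
  obtain ⟨B, rfl, hB⟩ := lift_transvection h2 x hx
  obtain ⟨g, v, hv0, hv⟩ := Cfsg.Agent.S0839.result (F := F) 1 B hB
  have hv' : v ≠ 0 := by
    rintro rfl
    have h3 : ((g⁻¹ * B * g : SL3) : Mat) = 1 := by
      rw [show ((g⁻¹ * B * g : SL3) : Mat) = _ from hv]
      simp
    have h4 : g⁻¹ * B * g = 1 := Subtype.ext h3
    have h5 : B = 1 := by
      have : B = g * (g⁻¹ * B * g) * g⁻¹ := by group
      rw [this, h4]
      group
    rw [h5] at hB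
    have := hB.1
    simp at this
  obtain ⟨h, hh⟩ := conj_T₀ v hv0 hv' (g⁻¹ * B * g) hv
  rw [isConj_iff]
  refine ⟨(QuotientGroup.mk (h * g⁻¹) : PSL3), ?_⟩
  rw [← hh]
  show (QuotientGroup.mk (h * g⁻¹ * B * (h * g⁻¹)⁻¹) : PSL3) = _
  congr 1
  group

/-- Any two elements of order 2 of PSL_3(4) are conjugate. -/
theorem result {F : Type*} [Field F] [Fintype F] (hF : Fintype.card F = 4) (x y : Matrix.ProjectiveSpecialLinearGroup (Fin 3) F) (hx : orderOf x = 2) (hy : orderOf y = 2) : IsConj x y := by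
  have h2 : (2 : F) = 0 := by
    have h1 : ringChar F = 2 := by
      by_contra h
      have := FiniteField.odd_card_of_char_ne_two h
      omega
    have h3 := ringChar.Nat.cast_ringChar (R := F)
    rw [h1] at h3
    exact_mod_cast h3
  exact (conj_base h2 x hx).trans (conj_base h2 y hy).symm

end Cfsg.Agent.S0820
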