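import Mathlib
import Cfsg.Statements.S0821
import Cfsg.Agent.Lib.PSpClasses
import Cfsg.Agent.Lib.OmegaOddClasses

set_option autoImplicit false
open Cfsg

namespace Cfsg.Agent.S0821

/-- PSp_2m(q) ≇ PΩ_(2m+1)(q) for q odd and m ≥ 3 (they have the same order). -/
theorem result {F : Type*} [Field F] [Fintype F] (hodd : Odd (Fintype.card F)) (m : ℕ) (hm : 3 ≤ m) : IsEmpty (Cfsg.PSp m F ≃* Cfsg.POmega F (Cfsg.quadFormOdd m F)) := by
  refine ⟨fun φ => ?_⟩
  classical
  have h2 := Cfsg.Agent.Lib.OrthoChar.char_ne_two_of_odd hodd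
  obtain ⟨c, hc1, hc2⟩ := Cfsg.Agent.Lib.PSpClasses.exists_class_fn (m := m) h2 (by omega)
  obtain ⟨x, hx1, hx2⟩ := Cfsg.Agent.Lib.OmegaOddClasses.exists_invols hodd m (by omega)
  have hord : ∀ i, orderOf (φ.symm (x i)) = 2 := by
    intro i
    rw [MulEquiv.orderOf_eq]
    exact hx1 i
  obtain ⟨i, -, j, -, hij, hg⟩ := Finset.exists_ne_map_eq_of_card_lt_of_maps_to
    (s := (Finset.univ : Finset (Fin m))) (t := Finset.range (m / 2 + 1))
    (f := fun i => c (φ.symm (x i))) (by
      rw [Finset.card_univ, Fintype.card_fin, Finset.card_range]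
      omega) (by
      intro i _
      have := hc1 _ (hord i)
      simp only [Finset.coe_range, Set.mem_Iio]
      omega)
  apply hij
  apply hx2
  have h3 := hc2 _ _ (hord i) (hord j) hg
  have h4 := MonoidHom.map_isConj φ.toMonoidHom h3
  simpa using h4

end Cfsg.Agent.S0821
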