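import Mathlib
import Cfsg.Statements.S0822
import Cfsg.Agent.Lib.U42Mat
import Cfsg.Agent.Lib.U42Abs
import Cfsg.Agent.Lib.SUTransfer
import Cfsg.Agent.Lib.UnitarySU
import Cfsg.Agent.Lib.SpOrder
import Cfsg.Agent.Lib.SpSimple
import Cfsg.Agent.Lib.SpCenter

set_option autoImplicit false
open Cfsg

namespace Cfsg.Agent.S0822

open Matrix Cfsg.Agent.Lib.U42Mat Cfsg.Agent.Lib.U42Chain Cfsg.Agent.Lib.U42Abs
open Cfsg.Agent.Lib.SLTransfer Cfsg.Agent.Lib.SUTransfer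

/-- `SU_4(2)`. -/
abbrev SU4 := SU 4 K4 2
/-- `Sp_4(3)`. -/
abbrev Sp4 := symplecticGroup (Fin 2) (ZMod 3)

/-- Squaring in `K4`. -/
def sqH : K4 →+* K4 where
  toFun x := x ^ 2
  map_one' := one_pow 2
  map_mul' x y := mul_pow x y 2
  map_zero' := zero_pow two_ne_zero
  map_add' := add_sq_K4

lemma sqH_mulVec (A : Matrix (Fin 4) (Fin 4) K4) (v : Fin 4 → K4) :
    (fun i => ((A *ᵥ v) i) ^ 2) = A.map (fun x => x ^ 2) *ᵥ (fun i => v i ^ 2) := by
  funext i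
  exact RingHom.map_mulVec sqH A v i

lemma herm_of_her (A : Matrix (Fin 4) (Fin 4) K4) (h : Aᵀ * A.map (fun x => x ^ 2) = 1) (u v : Fin 4 → K4) :
    hermForm 4 K4 2 (A *ᵥ u) (A *ᵥ v) = hermForm 4 K4 2 u v := by
  have h1 : ∀ u v : Fin 4 → K4, hermForm 4 K4 2 u v = u ⬝ᵥ (fun i => v i ^ 2) := fun u v => rfl
  rw [h1, h1, sqH_mulVec, ← vecMul_transpose, ← dotProduct_mulVec, mulVec_mulVec, h, one_mulVec]

/-- Generator of `SU_4(2)`. -/
def sA1 : SU4 := Cfsg.Agent.Lib.UnitarySU.SUofMatrix A1 det_A1 (herm_of_her A1 her_A1)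
/-- Generator of `SU_4(2)`. -/
def sA2 : SU4 := Cfsg.Agent.Lib.UnitarySU.SUofMatrix A2 det_A2 (herm_of_her A2 her_A2)
/-- Generator of `Sp_4(3)`. -/
def sB1 : Sp4 := ⟨B1, SymplecticGroup.mem_iff.2 sp_B1⟩
/-- Generator of `Sp_4(3)`. -/
def sB2 : Sp4 := ⟨B2, SymplecticGroup.mem_iff.2 sp_B2⟩

/-- The action on the disjoint union. -/
def rho (γ : SU4 × Sp4) : V1 ⊕ V2 → V1 ⊕ V2 := act (γ.1.1.1, γ.2.1)

lemma rho_one (x : V1 ⊕ V2) : rho 1 x = x := by
  rcases x with v | w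
  · show Sum.inl ((1 : Matrix (Fin 4) (Fin 4) K4) *ᵥ v) = _
    rw [one_mulVec]
  · show Sum.inr ((1 : Matrix (Fin 2 ⊕ Fin 2) (Fin 2 ⊕ Fin 2) (ZMod 3)) *ᵥ w) = _
    rw [one_mulVec]

lemma rho_mul (g h : SU4 × Sp4) (x : V1 ⊕ V2) : rho (g * h) x = rho g (rho h x) := by
  rcases x with v | w
  · show Sum.inl ((g.1.1.1 * h.1.1.1) *ᵥ v) = Sum.inl (g.1.1.1 *ᵥ (h.1.1.1 *ᵥ v))
    rw [mulVec_mulVec]
  · show Sum.inr ((g.2.1 * h.2.1) *ᵥ w) = Sum.inr (g.2.1 *ᵥ (h.2.1 *ᵥ w))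
    rw [mulVec_mulVec]

lemma S_injective : Function.Injective S := fun i j h => S_inj i j h

/-- The order of `Sp_4(3)`. -/
lemma card_Sp4 : Nat.card Sp4 = 51840 := by
  have h := Cfsg.Agent.Lib.SpOrder.card_Sp (F := ZMod 3) 2
  rw [ZMod.card] at h
  rw [h]
  decide +kernel

/-- The order of `SU_4(2)`. -/
lemma card_SU4 : Nat.card SU4 = 25920 := by
  have h := Cfsg.Agent.Lib.UnitarySU.card_SU (F := K4) (q := 2) card_K4 4 (by norm_num)
  have h2 : (2 : ℕ) ^ (4 * (4 - 1) / 2) * ∏ i ∈ Finset.range 4, (if Even i then 2 ^ (i + 1) + 1 else 2 ^ (i + 1) - 1) = 77760 := by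
    decide +kernel
  rw [h2] at h
  have h3 : 3 * Nat.card SU4 = 77760 := h
  omega

theorem exists_psi : ∃ ψ : Sp4 →* SU4, ψ sB1 = sA1 ∧ ψ sB2 = sA2 := by
  refine exists_graph_hom (n := 200) rho rho_one rho_mul S S_injective P1 P2 (sA1, sB1) (sA2, sB2) rep1 rep2
    (({120, 128, 122, 146} : Finset (Fin 200)) : Set (Fin 200)) ?_ ?_ ?_ ?_
  · intro s b hb
    obtain ⟨w, hw⟩ := S_b b hb
    rw [hw]
    show Sum.inr ((1 : Matrix (Fin 2 ⊕ Fin 2) (Fin 2 ⊕ Fin 2) (ZMod 3)) *ᵥ w) = _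
    rw [one_mulVec]
  · intro x hx hfix
    rw [← G0_eq] at hx
    exact rigid x hx (hfix _ (by simp)) (hfix _ (by simp)) (hfix _ (by simp)) (hfix _ (by simp))
  · intro s hs
    have h1 : ∀ j : Fin 4, s.1.1 *ᵥ (Pi.single j 1) = Pi.single j 1 := by
      intro j
      have h2 := hs (![36, 6, 3, 0] j)
      rw [S_e] at h2
      exact Sum.inl_injective h2
    apply Subtype.ext
    apply Subtype.ext
    refine Matrix.ext fun i j => ?_
    have h2 := congrFun (h1 j) i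
    rw [mulVec_single_one] at h2
    simpa [one_apply, Pi.single_apply, eq_comm] using h2
  · rw [← G0_eq, card0, card_Sp4]

/-- `Sp_4(3)/Z ≃ SU_4(2)`. -/
theorem quot_iso : Nonempty ((Sp4 ⧸ Subgroup.center Sp4) ≃* SU4) := by
  obtain ⟨ψ, h1, h2⟩ := exists_psi
  have hs : IsSimpleGroup (Sp4 ⧸ Subgroup.center Sp4) :=
    Cfsg.Agent.Lib.SpSimple.isSimpleGroup_PSp' (F := ZMod 3) 2 le_rfl (fun _ => by rw [ZMod.card])
  refine quot_equiv hs ψ sB1 sB2 ?_ ?_ ?_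
  · rw [h1, h2]
    intro h
    apply A_ne
    exact congrArg (fun x : SU4 => x.1.1) h
  · have := Cfsg.Agent.Lib.SpCenter.card_center (l := Fin 2) (F := ZMod 3)
    rw [ZMod.card] at this
    exact this
  · rw [card_SU4, card_Sp4]

/-- The centre of `SU_4(2)` is trivial. -/
theorem center_SU4 : Subgroup.center SU4 = ⊥ := by
  have h := Cfsg.Agent.Lib.UnitarySU.card_center_SU (F := K4) (q := 2) (n := 4) card_K4 (by norm_num)
  exact Subgroup.eq_bot_of_card_eq _ (by rw [h]; decide)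

/-- `Sp_4` along ring isomorphisms. -/
lemma map_J {K L : Type*} [Field K] [Field L] (φ : K ≃+* L) :
    (J (Fin 2) K).map φ = J (Fin 2) L := by
  ext i j
  rcases i with i | i <;> rcases j with j | j <;> simp [J, one_apply, apply_ite φ]

lemma map_mem_sp {K L : Type*} [Field K] [Field L] (φ : K ≃+* L) (A : Matrix (Fin 2 ⊕ Fin 2) (Fin 2 ⊕ Fin 2) K)
    (hA : A ∈ symplecticGroup (Fin 2) K) : A.map φ ∈ symplecticGroup (Fin 2) L := by
  rw [SymplecticGroup.mem_iff] at hA ⊢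
  have h := congrArg (fun B => Matrix.map B φ) hA
  simp only [Matrix.map_mul] at h
  rw [map_J] at h
  simpa [transpose_map] using h

/-- The symplectic group along a ring isomorphism. -/
def spEquiv {K L : Type*} [Field K] [Field L] (φ : K ≃+* L) : symplecticGroup (Fin 2) K ≃* symplecticGroup (Fin 2) L where
  toFun A := ⟨A.1.map φ, map_mem_sp φ A.1 A.2⟩
  invFun A := ⟨A.1.map φ.symm, map_mem_sp φ.symm A.1 A.2⟩
  left_inv A := by
    apply Subtype.ext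
    ext i j
    simp
  right_inv A := by
    apply Subtype.ext
    ext i j
    simp
  map_mul' A B := by
    apply Subtype.ext
    exact Matrix.map_mul

/-- PSU_4(2) ≅ PSp_4(3): with |F| = 4 and |K| = 3, the projective special unitary group of the standard Hermitian form on F^4 is isomorphic to PSp_4(K). -/
theorem result {F K : Type*} [Field F] [Fintype F] [Field K] [Fintype K] (hF : Fintype.card F = 4) (hK : Fintype.card K = 3) : Nonempty (Cfsg.PSU 4 F 2 ≃* Cfsg.PSp 2 K) := by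
  classical
  let φ : F ≃+* K4 := FiniteField.ringEquivOfCardEq (K := F) (K' := K4) (by rw [hF, card_K4]; norm_num)
  let θ : K ≃+* ZMod 3 := FiniteField.ringEquivOfCardEq (K := K) (K' := ZMod 3) (by rw [hK, ZMod.card])
  obtain ⟨e⟩ := quot_iso
  have e1 : Cfsg.PSU 4 F 2 ≃* (SU4 ⧸ Subgroup.center SU4) := quotCenterEquiv (suEquiv φ)
  have e2 : (SU4 ⧸ Subgroup.center SU4) ≃* SU4 :=
    (QuotientGroup.quotientMulEquivOfEq center_SU4).trans QuotientGroup.quotientBot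
  have e3 : Cfsg.PSp 2 K ≃* (Sp4 ⧸ Subgroup.center Sp4) := quotCenterEquiv (spEquiv θ)
  exact ⟨e1.trans (e2.trans (e.symm.trans e3.symm))⟩

end Cfsg.Agent.S0822
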