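import Cfsg.Statements.S0823
import Cfsg.Agent.Lib.IsomTransfer
import Cfsg.Agent.Lib.OrthoOrder

set_option autoImplicit false
open Cfsg

namespace Cfsg.Agent.S0823

open Matrix Equiv Cfsg.Agent.Lib.IsomTransfer

/-- The index set of the matrices. -/
abbrev I3 := Unit ⊕ (Fin 1 ⊕ Fin 1)
/-- The field with three elements. -/
abbrev Z3 := ZMod 3


/-- A basis of the sum-zero vectors of length four, as columns. -/
def A : Matrix (Fin 4) I3 Z3 := fun x j =>
  match j with
  | .inl _ => ![1, -1, 0, 0] x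
  | .inr (.inl _) => ![1, 1, 1, 0] x
  | .inr (.inr _) => ![-1, -1, 0, -1] x

/-- The coordinates in the basis. -/
def D : Matrix I3 (Fin 4) Z3 := fun i x =>
  match i with
  | .inl _ => ![-1, 1, 0, 0] x
  | .inr (.inl _) => ![-1, -1, 0, -1] x
  | .inr (.inr _) => ![1, 1, 1, 0] x

/-- The sign. -/
def s (σ : Perm (Fin 4)) : Z3 := ((Perm.sign σ : ℤ) : Z3)

/-- The matrix of a permutation, made of determinant one by the sign. -/
def M (σ : Perm (Fin 4)) : Matrix I3 I3 Z3 := s σ • (D * (A.submatrix (⇑σ⁻¹) id))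

theorem M_one : M 1 = 1 := by decide +kernel

theorem M_mul : ∀ σ τ : Perm (Fin 4), M (σ * τ) = M σ * M τ := by decide +kernel

theorem Q_M : ∀ (σ : Perm (Fin 4)) (c : I3 → Z3), Cfsg.quadFormOdd 1 Z3 (M σ *ᵥ c) = Cfsg.quadFormOdd 1 Z3 c := by
  decide +kernel

theorem det_M : ∀ σ : Perm (Fin 4), (M σ).det = 1 := by decide +kernel

theorem M_inj : ∀ σ : Perm (Fin 4), M σ = 1 → σ = 1 := by decide +kernel

/-- The order of the special orthogonal group. -/
theorem card_special {F : Type*} [Field F] [Fintype F] (hF : Fintype.card F = 3) :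
    Nat.card (Cfsg.specialIsometryGroup F (Cfsg.quadFormOdd 1 F)) = 24 := by
  have h1 : Nat.card (Cfsg.isometryGroup F (Cfsg.quadFormOdd 1 F)) = 48 := by
    rw [Cfsg.Agent.Lib.OrthoOrder.card_isometry_odd (q := 3) hF (by decide) 1]
    decide
  have hu : ∀ u : Fˣ, u = 1 ∨ u = -1 := by
    intro u
    have h3 : (u : F) ^ (Fintype.card F - 1) = 1 := FiniteField.pow_card_sub_one_eq_one _ u.ne_zero
    rw [hF] at h3
    have h4 : ((u : F) - 1) * ((u : F) + 1) = 0 := by linear_combination h3
    rcases mul_eq_zero.1 h4 with h5 | h5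
    · left
      exact Units.ext (sub_eq_zero.1 h5)
    · right
      apply Units.ext
      simp only [Units.val_neg, Units.val_one]
      linear_combination h5
  let f : Cfsg.isometryGroup F (Cfsg.quadFormOdd 1 F) →* Fˣ :=
    Matrix.GeneralLinearGroup.det.comp (Cfsg.isometryGroup F (Cfsg.quadFormOdd 1 F)).subtype
  have hsurj : Function.Surjective f := by
    intro u
    rcases hu u with rfl | rfl
    · exact ⟨1, map_one f⟩
    · refine ⟨⟨-1, ?_⟩, ?_⟩
      · intro v _
        change Cfsg.quadFormOdd 1 F (((-1 : GL I3 F) : Matrix I3 I3 F) *ᵥ v) = Cfsg.quadFormOdd 1 F v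
        have e1 : ((-1 : GL I3 F) : Matrix I3 I3 F) = -1 := rfl
        rw [e1, Matrix.neg_mulVec, Matrix.one_mulVec]
        simp [Cfsg.quadFormOdd]
      · apply Units.ext
        change ((-1 : GL I3 F) : Matrix I3 I3 F).det = _
        have e1 : ((-1 : GL I3 F) : Matrix I3 I3 F) = -1 := rfl
        rw [e1, Matrix.det_neg]
        simp only [Fintype.card_sum, Fintype.card_unit, Fintype.card_fin, Matrix.det_one, mul_one,
          Units.val_neg, Units.val_one]
        ring
  have h2 := Subgroup.card_mul_index f.ker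
  have h3 : f.ker.index = 2 := by
    have : f.ker.index = Nat.card Fˣ :=
      Nat.card_congr (QuotientGroup.quotientKerEquivOfSurjective f hsurj).toEquiv
    rw [this, Nat.card_units, Nat.card_eq_fintype_card, hF]
  rw [h3, h1] at h2
  have h4 : Nat.card f.ker = 24 := by omega
  exact h4

/-- SO_3(3) ≅ S_4: the determinant-one isometries of the form x_0² + x_1y_1 over the field with 3 elements form a group isomorphic to the symmetric group on 4 letters. -/
theorem result {F : Type*} [Field F] [Fintype F] (hF : Fintype.card F = 3) : Nonempty (↥(Cfsg.specialIsometryGroup F (Cfsg.quadFormOdd 1 F)) ≃* Equiv.Perm (Fin 4)) := by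
  let e : Z3 ≃+* F := ZMod.ringEquivOfPrime F (p := 3) (by norm_num) hF
  have hQ : ∀ v : I3 → Z3, Cfsg.quadFormOdd 1 F (e ∘ v) = e (Cfsg.quadFormOdd 1 Z3 v) := by
    intro v
    simp [Cfsg.quadFormOdd, map_add, map_mul, map_pow]
  let E := isometryEquiv e hQ
  let Φ : Perm (Fin 4) →* Matrix I3 I3 Z3 :=
    { toFun := M, map_one' := M_one, map_mul' := M_mul }
  let Ψ : Perm (Fin 4) →* Cfsg.isometryGroup Z3 (Cfsg.quadFormOdd 1 Z3) :=
    (MonoidHom.toHomUnits Φ).codRestrict _ (fun σ _ _ => Q_M σ _)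
  have hΨ : ∀ σ, ((Ψ σ).1 : Matrix I3 I3 Z3) = M σ := fun _ => rfl
  let Ψ' : Perm (Fin 4) →* Cfsg.specialIsometryGroup F (Cfsg.quadFormOdd 1 F) :=
    ((E : _ →* _).comp Ψ).codRestrict _ (fun σ => by
      apply Units.ext
      change ((E (Ψ σ)).1 : Matrix I3 I3 F).det = 1
      change ((glEquiv e (Ψ σ).1 : GL I3 F) : Matrix I3 I3 F).det = 1
      rw [det_glEquiv, hΨ, det_M, map_one])
  have hbij : Function.Bijective Ψ' := by
    rw [Nat.bijective_iff_injective_and_card]
    constructor
    · rw [injective_iff_map_eq_one]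
      intro σ hσ
      have h1 : E (Ψ σ) = 1 := congrArg Subtype.val hσ
      have h2 : Ψ σ = 1 := by simpa using h1
      apply M_inj
      rw [← hΨ, h2]
      rfl
    · rw [card_special hF, Nat.card_eq_fintype_card, Fintype.card_perm, Fintype.card_fin]
      decide
  exact ⟨(MulEquiv.ofBijective Ψ' hbij).symm⟩

end Cfsg.Agent.S0823
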