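import Mathlib
import Cfsg.Statements.S0824
import Cfsg.Agent.Lib.IsomTransfer
import Cfsg.Agent.Lib.OrthoDihedral

set_option autoImplicit false
open Cfsg

namespace Cfsg.Agent.S0824

open Matrix Equiv Cfsg.Agent.Lib.IsomTransfer

/-- The index set of the matrices. -/
abbrev I4 := (Fin 1 ⊕ Fin 1) ⊕ Fin 2

/-- The field with two elements. -/
abbrev Z2 := ZMod 2

/-- A basis of the even subsets of five points, as bit masks. -/
def bm : I4 → ℕ
  | .inl (.inl 0) => 0b01111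
  | .inl (.inr 0) => 0b10111
  | .inr 0 => 0b00011
  | .inr 1 => 0b00110

/-- The dual basis. -/
def bd : I4 → ℕ
  | .inl (.inl 0) => 0b10111
  | .inl (.inr 0) => 0b01111
  | .inr 0 => 0b00110
  | .inr 1 => 0b00011

/-- The basis vectors, as columns. -/
def A : Matrix (Fin 5) I4 Z2 := fun x j => if (bm j).testBit x.val then 1 else 0

/-- The coordinates in the basis, by pairing with the dual basis. -/
def D : Matrix I4 (Fin 5) Z2 := fun i x => if (bd i).testBit x.val then 1 else 0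

theorem DA : D * A = 1 := by decide +kernel

theorem even_A : ∀ c : I4 → Z2, ∑ x, (A *ᵥ c) x = 0 := by decide +kernel

theorem AD : ∀ w : Fin 5 → Z2, ∑ x, w x = 0 → A *ᵥ (D *ᵥ w) = w := by
  decide +kernel

/-- The weight of a vector. -/
def wt (w : Fin 5 → Z2) : ℕ := ∑ x, (w x).val

/-- The quadratic form on even vectors. -/
def q5 (w : Fin 5 → Z2) : Z2 := ((wt w / 2 : ℕ) : Z2)

theorem Q_D : ∀ w : Fin 5 → Z2, ∑ x, w x = 0 → Cfsg.quadFormMinus 1 Z2 1 1 (D *ᵥ w) = q5 w := by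
  decide +kernel

theorem q5_A : ∀ c : I4 → Z2, q5 (A *ᵥ c) = Cfsg.quadFormMinus 1 Z2 1 1 c := by decide +kernel

/-- The action of permutations on vectors. -/
def act (σ : Perm (Fin 5)) (w : Fin 5 → Z2) : Fin 5 → Z2 := fun x => w (σ⁻¹ x)

/-- The matrix of a permutation. -/
def M (σ : Perm (Fin 5)) : Matrix I4 I4 Z2 := D * (A.submatrix (⇑σ⁻¹) id)

theorem M_mulVec (σ : Perm (Fin 5)) (c : I4 → Z2) : M σ *ᵥ c = D *ᵥ act σ (A *ᵥ c) := by
  rw [M, ← Matrix.mulVec_mulVec]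
  rfl

theorem sum_act (σ : Perm (Fin 5)) (w : Fin 5 → Z2) : ∑ x, act σ w x = ∑ x, w x :=
  Equiv.sum_comp σ⁻¹ w

theorem wt_act (σ : Perm (Fin 5)) (w : Fin 5 → Z2) : wt (act σ w) = wt w :=
  Equiv.sum_comp σ⁻¹ (fun x => (w x).val)

theorem M_one : M 1 = 1 := by
  rw [M, inv_one]
  exact DA

theorem M_mul (σ τ : Perm (Fin 5)) : M (σ * τ) = M σ * M τ := by
  apply Matrix.mulVec_injective
  funext c
  rw [← Matrix.mulVec_mulVec, M_mulVec τ, M_mulVec σ, M_mulVec (σ * τ)]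
  set w := act τ (A *ᵥ c) with hw
  have hw0 : ∑ x, w x = 0 := by rw [hw, sum_act, even_A]
  rw [AD w hw0]
  congr 1

theorem Q_M (σ : Perm (Fin 5)) (c : I4 → Z2) :
    Cfsg.quadFormMinus 1 Z2 1 1 (M σ *ᵥ c) = Cfsg.quadFormMinus 1 Z2 1 1 c := by
  rw [M_mulVec, Q_D _ (by rw [sum_act, even_A]), ← q5_A]
  unfold q5
  rw [wt_act]

theorem act_single (σ : Perm (Fin 5)) (x : Fin 5) :
    act σ (Pi.single x (1 : Z2)) = Pi.single (σ x) 1 := by
  funext z
  simp only [act, Pi.single_apply, Perm.inv_eq_iff_eq]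

theorem pairs_eq : ∀ x y x' y' : Fin 5, x ≠ y → x' ≠ y' →
    (Pi.single x' (1 : Z2) + Pi.single y' 1 : Fin 5 → Z2) = Pi.single x 1 + Pi.single y 1 →
    (x' = x ∧ y' = y) ∨ (x' = y ∧ y' = x) := by
  decide +kernel

theorem M_inj (σ : Perm (Fin 5)) (h : M σ = 1) : σ = 1 := by
  have key : ∀ x y : Fin 5, x ≠ y → (σ x = x ∧ σ y = y) ∨ (σ x = y ∧ σ y = x) := by
    intro x y hxy
    apply pairs_eq x y (σ x) (σ y) hxy (fun e => hxy (σ.injective e))
    set w₀ : Fin 5 → Z2 := Pi.single x 1 + Pi.single y 1 with hw₀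
    have h0 : ∑ z, w₀ z = 0 := by
      rw [hw₀]
      simp only [Pi.add_apply, Finset.sum_add_distrib, Finset.sum_pi_single', Finset.mem_univ, if_true]
      rfl
    have h1 := M_mulVec σ (D *ᵥ w₀)
    rw [h, Matrix.one_mulVec, AD w₀ h0] at h1
    have h3 : act σ w₀ = Pi.single (σ x) 1 + Pi.single (σ y) 1 := by
      rw [← act_single, ← act_single]
      rfl
    have h4 : ∑ z, act σ w₀ z = 0 := by rw [sum_act, h0]
    have h5 := congrArg (fun v => A *ᵥ v) h1
    simp only [AD w₀ h0, AD _ h4] at h5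
    rw [← h3, ← h5]
  ext x
  obtain ⟨y, hy⟩ : ∃ y, x ≠ y := ⟨x + 1, by revert x; decide⟩
  obtain ⟨z, hz, hyz⟩ : ∃ z, x ≠ z ∧ y ≠ z := by
    revert x y
    decide
  rcases key x y hy with ⟨h1, -⟩ | ⟨h1, -⟩
  · rw [h1]; rfl
  · rcases key x z hz with ⟨h2, -⟩ | ⟨h2, -⟩
    · rw [h2]; rfl
    · exact absurd (h1.symm.trans h2) hyz

/-- The morphism to the matrices. -/
def Phi : Perm (Fin 5) →* Matrix I4 I4 Z2 where
  toFun := M
  map_one' := M_one
  map_mul' := M_mul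

/-- The morphism to the isometry group. -/
def Psi : Perm (Fin 5) →* Cfsg.isometryGroup Z2 (Cfsg.quadFormMinus 1 Z2 1 1) :=
  (MonoidHom.toHomUnits Phi).codRestrict _ (fun σ _ _ => Q_M σ _)

theorem Psi_coe (σ : Perm (Fin 5)) : ((Psi σ).1 : Matrix I4 I4 Z2) = M σ := rfl

theorem Psi_bijective : Function.Bijective Psi := by
  rw [Nat.bijective_iff_injective_and_card]
  constructor
  · rw [injective_iff_map_eq_one]
    intro σ hσ
    apply M_inj
    rw [← Psi_coe, hσ]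
    rfl
  · have : Nat.card (Cfsg.isometryGroup Z2 (Cfsg.quadFormMinus 1 Z2 1 1)) = _ :=
      Cfsg.Agent.Lib.OrthoDihedral.card_isometry_minus (F := Z2) (q := 2) (ZMod.card 2) 2 (by norm_num) 1 1 (by decide)
    rw [this, Nat.card_eq_fintype_card, Fintype.card_perm, Fintype.card_fin]
    decide

/-- O⁻_4(2) ≅ S_5: the isometry group of the form x y + z_1² + z_1 z_2 + z_2² over the field with 2 elements is isomorphic to the symmetric group on 5 letters. -/
theorem result {F : Type*} [Field F] [Fintype F] (hF : Fintype.card F = 2) : Nonempty (↥(Cfsg.isometryGroup F (Cfsg.quadFormMinus 1 F 1 1)) ≃* Equiv.Perm (Fin 5)) := by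
  let e : Z2 ≃+* F := ZMod.ringEquivOfPrime F Nat.prime_two hF
  have hQ : ∀ v : I4 → Z2, Cfsg.quadFormMinus 1 F 1 1 (e ∘ v) = e (Cfsg.quadFormMinus 1 Z2 1 1 v) := by
    intro v
    simp only [Cfsg.quadFormMinus, map_add, map_mul, map_pow, map_sum, map_one, Function.comp]
  exact ⟨(isometryEquiv e hQ).symm.trans (MulEquiv.ofBijective Psi Psi_bijective).symm⟩

end Cfsg.Agent.S0824
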