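import Cfsg.Statements.S0825
import Cfsg.Agent.Lib.IsomTransfer
import Cfsg.Agent.Lib.OrthoOrder

set_option autoImplicit false
open Cfsg

namespace Cfsg.Agent.S0825

open Matrix Equiv Cfsg.Agent.Lib.IsomTransfer

/-- The index set of the matrices. -/
abbrev I6 := Fin 3 ⊕ Fin 3

/-- The field with two elements. -/
abbrev Z2 := ZMod 2

/-- A hyperbolic basis of even subsets of eight points, modulo the full set, as bit masks. -/
def bm : I6 → ℕ
  | .inl 0 => 0b00001111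
  | .inl 1 => 0b01100011
  | .inl 2 => 0b11000101
  | .inr 0 => 0b00010111
  | .inr 1 => 0b10100011
  | .inr 2 => 0b00111001

/-- The basis vectors, as columns. -/
def A : Matrix (Fin 8) I6 Z2 := fun x j => if (bm j).testBit x.val then 1 else 0

/-- The coordinates in the basis, by pairing with the dual basis. -/
def D : Matrix I6 (Fin 8) Z2 := fun i x => if (bm i.swap).testBit x.val then 1 else 0

theorem DA : D * A = 1 := by decide +kernel

theorem even_A : ∀ c : I6 → Z2, ∑ x, (A *ᵥ c) x = 0 := by decide +kernel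

theorem AD : ∀ w : Fin 8 → Z2, ∑ x, w x = 0 → ∃ ε : Z2, A *ᵥ (D *ᵥ w) = fun x => w x + ε := by
  decide +kernel

theorem D_const : D *ᵥ (fun _ => (1 : Z2)) = 0 := by decide +kernel

/-- The weight of a vector. -/
def wt (w : Fin 8 → Z2) : ℕ := ∑ x, (w x).val

/-- The quadratic form on even vectors. -/
def q8 (w : Fin 8 → Z2) : Z2 := ((wt w / 2 : ℕ) : Z2)

theorem Q_D : ∀ w : Fin 8 → Z2, ∑ x, w x = 0 → Cfsg.quadFormPlus 3 Z2 (D *ᵥ w) = q8 w := by
  decide +kernel

theorem q8_A : ∀ c : I6 → Z2, q8 (A *ᵥ c) = Cfsg.quadFormPlus 3 Z2 c := by decide +kernel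

theorem D_pairs : ∀ x y x' y' : Fin 8, x ≠ y → x' ≠ y' →
    D *ᵥ (Pi.single x' (1 : Z2) + Pi.single y' 1) = D *ᵥ (Pi.single x 1 + Pi.single y 1) →
    (x' = x ∧ y' = y) ∨ (x' = y ∧ y' = x) := by
  decide +kernel

/-- The action of permutations on vectors. -/
def act (σ : Perm (Fin 8)) (w : Fin 8 → Z2) : Fin 8 → Z2 := fun x => w (σ⁻¹ x)

/-- The matrix of a permutation. -/
def M (σ : Perm (Fin 8)) : Matrix I6 I6 Z2 := D * (A.submatrix (⇑σ⁻¹) id)

theorem M_mulVec (σ : Perm (Fin 8)) (c : I6 → Z2) : M σ *ᵥ c = D *ᵥ act σ (A *ᵥ c) := by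
  rw [M, ← Matrix.mulVec_mulVec]
  rfl

theorem D_add_const (u : Fin 8 → Z2) (ε : Z2) : D *ᵥ (fun x => u x + ε) = D *ᵥ u := by
  have : (fun x => u x + ε) = u + ε • (fun _ => (1 : Z2)) := by
    funext x
    simp
  rw [this, Matrix.mulVec_add, Matrix.mulVec_smul, D_const]
  simp

theorem sum_act (σ : Perm (Fin 8)) (w : Fin 8 → Z2) : ∑ x, act σ w x = ∑ x, w x :=
  Equiv.sum_comp σ⁻¹ w

theorem wt_act (σ : Perm (Fin 8)) (w : Fin 8 → Z2) : wt (act σ w) = wt w :=
  Equiv.sum_comp σ⁻¹ (fun x => (w x).val)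

theorem M_one : M 1 = 1 := by
  rw [M, inv_one]
  exact DA

theorem M_mul (σ τ : Perm (Fin 8)) : M (σ * τ) = M σ * M τ := by
  apply Matrix.mulVec_injective
  funext c
  rw [← Matrix.mulVec_mulVec, M_mulVec τ, M_mulVec σ, M_mulVec (σ * τ)]
  set w := act τ (A *ᵥ c) with hw
  have hw0 : ∑ x, w x = 0 := by rw [hw, sum_act, even_A]
  obtain ⟨ε, hε⟩ := AD w hw0
  rw [hε]
  have h1 : act σ (fun x => w x + ε) = fun x => act σ w x + ε := rfl
  rw [h1, D_add_const]
  congr 1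

theorem Q_M (σ : Perm (Fin 8)) (c : I6 → Z2) :
    Cfsg.quadFormPlus 3 Z2 (M σ *ᵥ c) = Cfsg.quadFormPlus 3 Z2 c := by
  rw [M_mulVec, Q_D _ (by rw [sum_act, even_A]), ← q8_A]
  unfold q8
  rw [wt_act]

theorem act_single (σ : Perm (Fin 8)) (x : Fin 8) :
    act σ (Pi.single x (1 : Z2)) = Pi.single (σ x) 1 := by
  funext z
  simp only [act, Pi.single_apply, Perm.inv_eq_iff_eq]

theorem M_inj (σ : Perm (Fin 8)) (h : M σ = 1) : σ = 1 := by
  have key : ∀ x y : Fin 8, x ≠ y → (σ x = x ∧ σ y = y) ∨ (σ x = y ∧ σ y = x) := by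
    intro x y hxy
    apply D_pairs x y (σ x) (σ y) hxy (fun e => hxy (σ.injective e))
    set w₀ : Fin 8 → Z2 := Pi.single x 1 + Pi.single y 1 with hw₀
    have h0 : ∑ z, w₀ z = 0 := by
      rw [hw₀]
      simp only [Pi.add_apply, Finset.sum_add_distrib, Finset.sum_pi_single', Finset.mem_univ, if_true]
      rfl
    obtain ⟨ε, hε⟩ := AD w₀ h0
    have h1 := M_mulVec σ (D *ᵥ w₀)
    rw [h, Matrix.one_mulVec, hε] at h1
    have h2 : act σ (fun x => w₀ x + ε) = fun x => act σ w₀ x + ε := rfl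
    rw [h2, D_add_const] at h1
    have h3 : act σ w₀ = Pi.single (σ x) 1 + Pi.single (σ y) 1 := by
      rw [← act_single, ← act_single]
      rfl
    rw [← h3, ← h1]
  ext x
  obtain ⟨y, hy⟩ : ∃ y, x ≠ y := ⟨x + 1, by revert x; decide⟩
  obtain ⟨z, hz, hyz⟩ : ∃ z, x ≠ z ∧ y ≠ z := by
    revert x y
    decide
  rcases key x y hy with ⟨h1, -⟩ | ⟨h1, -⟩
  · rw [h1]; rfl
  · rcases key x z hz with ⟨h2, -⟩ | ⟨h2, -⟩
    · rw [h2]; rfl
    · exact absurd (h1.symm.trans h2) hyz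

/-- The morphism to the isometry group. -/
def Phi : Perm (Fin 8) →* Matrix I6 I6 Z2 where
  toFun := M
  map_one' := M_one
  map_mul' := M_mul

/-- The morphism to the isometry group. -/
def Psi : Perm (Fin 8) →* Cfsg.isometryGroup Z2 (Cfsg.quadFormPlus 3 Z2) :=
  (MonoidHom.toHomUnits Phi).codRestrict _ (fun σ _ _ => Q_M σ _)

theorem Psi_coe (σ : Perm (Fin 8)) : ((Psi σ).1 : Matrix I6 I6 Z2) = M σ := rfl

theorem Psi_bijective : Function.Bijective Psi := by
  rw [Nat.bijective_iff_injective_and_card]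
  constructor
  · rw [injective_iff_map_eq_one]
    intro σ hσ
    apply M_inj
    rw [← Psi_coe, hσ]
    rfl
  · have := Cfsg.Agent.Lib.OrthoOrder.card_isometry_plus (F := Z2) (q := 2) (ZMod.card 2) 3 (by norm_num)
    rw [this, Nat.card_eq_fintype_card, Fintype.card_perm, Fintype.card_fin]
    decide

/-- O⁺_6(2) ≅ S_8: the isometry group of the hyperbolic form x_1y_1 + x_2y_2 + x_3y_3 over the field with 2 elements is isomorphic to the symmetric group on 8 letters. -/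
theorem result {F : Type*} [Field F] [Fintype F] (hF : Fintype.card F = 2) : Nonempty (↥(Cfsg.isometryGroup F (Cfsg.quadFormPlus 3 F)) ≃* Equiv.Perm (Fin 8)) := by
  let e : Z2 ≃+* F := ZMod.ringEquivOfPrime F Nat.prime_two hF
  have hQ : ∀ v : I6 → Z2, Cfsg.quadFormPlus 3 F (e ∘ v) = e (Cfsg.quadFormPlus 3 Z2 v) := by
    intro v
    simp [Cfsg.quadFormPlus, map_sum]
  exact ⟨(isometryEquiv e hQ).symm.trans (MulEquiv.ofBijective Psi Psi_bijective).symm⟩

end Cfsg.Agent.S0825
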