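import Mathlib
import Cfsg.Statements.S0826

set_option autoImplicit false
set_option linter.unusedSectionVars false
set_option linter.unusedSimpArgs false
open Cfsg

namespace Cfsg.Agent.S0826

open Matrix Equiv

variable {n : ℕ}

/-- The field with two elements. -/
local notation "Z2" => ZMod 2

/-- first kind of basis vector: a prefix -/
def a (i : Fin (n - 1)) (x : Fin (2 * n)) : Z2 := if x.val < 2 * i.val + 2 then 1 else 0
/-- second kind of basis vector: two adjacent points -/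
def b (i : Fin (n - 1)) (x : Fin (2 * n)) : Z2 := if x.val = 2 * i.val + 1 ∨ x.val = 2 * i.val + 2 then 1 else 0

/-- The basis vectors, as columns. -/
def A : Matrix (Fin (2 * n)) (Fin (n - 1) ⊕ Fin (n - 1)) Z2 :=
  fun x j => Sum.elim (fun i => a i x) (fun i => b i x) j

/-- The coordinates in the basis, by pairing with the dual basis. -/
def D : Matrix (Fin (n - 1) ⊕ Fin (n - 1)) (Fin (2 * n)) Z2 :=
  fun j x => Sum.elim (fun i => b i x) (fun i => a i x) j

/-- prefix sums -/
def P (v : Fin (2 * n) → Z2) (j : ℕ) : Z2 := ∑ x : Fin (2 * n), if x.val < j then v x else 0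

theorem P_zero (v : Fin (2 * n) → Z2) : P v 0 = 0 := by
  simp [P]

theorem P_succ (v : Fin (2 * n) → Z2) {j : ℕ} (hj : j < 2 * n) : P v (j + 1) = P v j + v ⟨j, hj⟩ := by
  unfold P
  have h1 : ∀ x : Fin (2 * n), (if x.val < j + 1 then v x else 0) = (if x.val < j then v x else 0) + (if x = ⟨j, hj⟩ then v x else 0) := by
    intro x
    by_cases h2 : x.val < j
    · have h3 : x ≠ ⟨j, hj⟩ := by
        intro h
        rw [h] at h2
        exact lt_irrefl _ h2
      simp [h2, Nat.lt_succ_of_lt h2, h3]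
    · by_cases h3 : x = ⟨j, hj⟩
      · subst h3
        simp
      · have h4 : ¬ x.val < j + 1 := by
          intro h5
          apply h3
          apply Fin.ext
          show x.val = j
          omega
        simp [h2, h3, h4]
  simp only [h1]
  rw [Finset.sum_add_distrib]
  simp

theorem P_top (v : Fin (2 * n) → Z2) : P v (2 * n) = ∑ x, v x := by
  unfold P
  apply Finset.sum_congr rfl
  intro x _
  simp [x.2]

theorem sum_pair (v : Fin (2 * n) → Z2) {k : ℕ} (hk : k + 1 < 2 * n) :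
    (∑ x : Fin (2 * n), (if x.val = k ∨ x.val = k + 1 then (1 : Z2) else 0) * v x) = v ⟨k, by omega⟩ + v ⟨k + 1, hk⟩ := by
  have h1 : ∀ x : Fin (2 * n), (if x.val = k ∨ x.val = k + 1 then (1 : Z2) else 0) * v x =
      (if x = ⟨k, by omega⟩ then v x else 0) + (if x = ⟨k + 1, hk⟩ then v x else 0) := by
    intro x
    have e1 : x = ⟨k, by omega⟩ ↔ x.val = k := Fin.ext_iff
    have e2 : x = ⟨k + 1, hk⟩ ↔ x.val = k + 1 := Fin.ext_iff
    by_cases h2 : x.val = k
    · have h3 : x.val ≠ k + 1 := by omega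
      simp [e1, e2, h2]
    · by_cases h3 : x.val = k + 1
      · simp [e1, e2, h3]
      · simp [e1, e2, h2, h3]
  simp only [h1]
  rw [Finset.sum_add_distrib]
  simp

theorem two_eq : (2 : Z2) = 0 := rfl

theorem bound (i : Fin (n - 1)) : 2 * i.val + 2 < 2 * n := by
  have := i.2
  omega

theorem mul_a (i : Fin (n - 1)) (v : Fin (2 * n) → Z2) : (∑ x, a i x * v x) = P v (2 * i.val + 2) := by
  unfold P a
  apply Finset.sum_congr rfl
  intro x _
  by_cases h : x.val < 2 * i.val + 2 <;> simp [h]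

theorem mul_b (i : Fin (n - 1)) (v : Fin (2 * n) → Z2) :
    (∑ x, b i x * v x) = v ⟨2 * i.val + 1, by have := bound i; omega⟩ + v ⟨2 * i.val + 2, bound i⟩ := by
  unfold b
  exact sum_pair v (k := 2 * i.val + 1) (bound i)

theorem P_one {j : ℕ} (hj : j ≤ 2 * n) : P (fun _ : Fin (2 * n) => (1 : Z2)) j = (j : Z2) := by
  induction j with
  | zero => simp [P_zero]
  | succ j ih =>
    rw [P_succ _ (by omega), ih (by omega)]
    push_cast
    rfl

theorem sum_a (i : Fin (n - 1)) : (∑ x, a i x) = 0 := by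
  have h := mul_a i (fun _ => (1 : Z2))
  simp only [mul_one] at h
  rw [h, P_one (bound i).le]
  push_cast
  rw [two_eq]
  simp

theorem sum_b (i : Fin (n - 1)) : (∑ x, b i x) = 0 := by
  have h := mul_b i (fun _ => (1 : Z2))
  simp only [mul_one] at h
  rw [h]
  rfl

theorem a_mul_a (i j : Fin (n - 1)) (x : Fin (2 * n)) : a i x * a j x = a (min i j) x := by
  unfold a
  rcases le_total i j with h | h
  · rw [min_eq_left h]
    have h' : i.val ≤ j.val := h
    by_cases h1 : x.val < 2 * i.val + 2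
    · have h2 : x.val < 2 * j.val + 2 := by omega
      simp [h1, h2]
    · simp [h1]
  · rw [min_eq_right h]
    have h' : j.val ≤ i.val := h
    by_cases h1 : x.val < 2 * j.val + 2
    · have h2 : x.val < 2 * i.val + 2 := by omega
      simp [h1, h2]
    · simp [h1]

theorem dot_aa (i j : Fin (n - 1)) : (∑ x, a i x * a j x) = 0 := by
  simp only [a_mul_a]
  exact sum_a _

theorem dot_ab (i j : Fin (n - 1)) : (∑ x, b j x * a i x) = if i = j then 1 else 0 := by
  rw [mul_b]
  unfold a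
  by_cases h : i = j
  · subst h
    simp
  · rw [if_neg h]
    have h' : i.val ≠ j.val := fun e => h (Fin.ext e)
    rcases Nat.lt_or_gt_of_ne h' with h1 | h1
    · have h2 : ¬ 2 * j.val + 1 < 2 * i.val + 2 := by omega
      have h3 : ¬ 2 * j.val + 2 < 2 * i.val + 2 := by omega
      simp [h2, h3]
    · have h2 : 2 * j.val + 1 < 2 * i.val + 2 := by omega
      have h3 : 2 * j.val + 2 < 2 * i.val + 2 := by omega
      simp [h2, h3]
      rfl

theorem dot_bb (i j : Fin (n - 1)) : (∑ x, b j x * b i x) = 0 := by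
  rw [mul_b]
  unfold b
  by_cases h : i = j
  · subst h
    simp
    rfl
  · have h' : i.val ≠ j.val := fun e => h (Fin.ext e)
    have h2 : ¬ (2 * j.val + 1 = 2 * i.val + 1 ∨ 2 * j.val + 1 = 2 * i.val + 2) := by omega
    have h3 : ¬ (2 * j.val + 2 = 2 * i.val + 1 ∨ 2 * j.val + 2 = 2 * i.val + 2) := by omega
    simp only [h2, h3, if_false, add_zero]

theorem neg_one_eq : (-1 : Z2) = 1 := rfl

/-- The Gram matrix of the basis. -/
theorem dot_AA (j k : Fin (n - 1) ⊕ Fin (n - 1)) :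
    (∑ x, (A : Matrix (Fin (2 * n)) _ Z2) x j * A x k) = J (Fin (n - 1)) Z2 j k := by
  rcases j with i | i <;> rcases k with i' | i'
  · simpa [A, J] using dot_aa i i'
  · have := dot_ab i i'
    simp only [A, J, Sum.elim_inl, Sum.elim_inr, Matrix.fromBlocks_apply₁₂]
    rw [show (∑ x : Fin (2 * n), a i x * b i' x) = ∑ x, b i' x * a i x from
      Finset.sum_congr rfl (fun x _ => mul_comm _ _), this]
    by_cases h : i = i' <;> simp [h, Matrix.one_apply, neg_one_eq]
  · have := dot_ab i' i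
    simp only [A, J, Sum.elim_inl, Sum.elim_inr, Matrix.fromBlocks_apply₂₁]
    rw [this]
    by_cases h : i = i'
    · simp [h, Matrix.one_apply]
    · simp [h, Ne.symm h, Matrix.one_apply]
  · simpa [A, J] using dot_bb i' i

theorem DA : D (n := n) * A (n := n) = 1 := by
  ext j k
  rw [Matrix.mul_apply]
  rcases j with i | i <;> rcases k with i' | i'
  · simp only [D, A, Sum.elim_inl]
    rw [dot_ab]
    by_cases h : i = i'
    · subst h
      simp
    · simp [h, Ne.symm h]
  · simp only [D, A, Sum.elim_inl, Sum.elim_inr]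
    rw [dot_bb]
    simp
  · simp only [D, A, Sum.elim_inl, Sum.elim_inr]
    rw [dot_aa]
    simp
  · simp only [D, A, Sum.elim_inr]
    rw [show (∑ x : Fin (2 * n), a i x * b i' x) = ∑ x, b i' x * a i x from
      Finset.sum_congr rfl (fun x _ => mul_comm _ _), dot_ab]
    by_cases h : i = i'
    · subst h
      simp
    · simp [h, Ne.symm h]

/-- Columns are even. -/
theorem sum_col (j : Fin (n - 1) ⊕ Fin (n - 1)) : (∑ x, (A : Matrix (Fin (2 * n)) _ Z2) x j) = 0 := by
  rcases j with i | i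
  · exact sum_a i
  · exact sum_b i

theorem even_A (c : Fin (n - 1) ⊕ Fin (n - 1) → Z2) : (∑ x, ((A : Matrix (Fin (2 * n)) _ Z2) *ᵥ c) x) = 0 := by
  simp only [Matrix.mulVec, dotProduct]
  rw [Finset.sum_comm]
  apply Finset.sum_eq_zero
  intro j _
  rw [← Finset.sum_mul, sum_col, zero_mul]

/-- Rows of `D` are even. -/
theorem D_const : (D : Matrix _ (Fin (2 * n)) Z2) *ᵥ (fun _ => (1 : Z2)) = 0 := by
  funext j
  simp only [Matrix.mulVec, dotProduct, mul_one, Pi.zero_apply]
  rcases j with i | i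
  · exact sum_b i
  · exact sum_a i

/-- An even vector killed by `D` is constant. -/
theorem const_of_ker (hn : 1 ≤ n) (v : Fin (2 * n) → Z2) (h0 : ∑ x, v x = 0) (hD : (D : Matrix _ (Fin (2 * n)) Z2) *ᵥ v = 0) :
    ∀ x, v x = v ⟨0, by omega⟩ := by
  have hb : ∀ i : Fin (n - 1), v ⟨2 * i.val + 1, by have := bound i; omega⟩ + v ⟨2 * i.val + 2, bound i⟩ = 0 := by
    intro i
    have := congrFun hD (Sum.inl i)
    simp only [Matrix.mulVec, dotProduct, Pi.zero_apply, D, Sum.elim_inl] at this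
    rwa [mul_b] at this
  have hP : ∀ i, i ≤ n → P v (2 * i) = 0 := by
    intro i hi
    rcases Nat.eq_zero_or_pos i with rfl | hpos
    · exact P_zero v
    · by_cases hin : i = n
      · subst hin
        rw [P_top, h0]
      · obtain ⟨k, rfl⟩ : ∃ k, i = k + 1 := ⟨i - 1, by omega⟩
        have hk : k < n - 1 := by omega
        have := congrFun hD (Sum.inr ⟨k, hk⟩)
        simp only [Matrix.mulVec, dotProduct, Pi.zero_apply, D, Sum.elim_inr] at this
        rw [mul_a] at this
        rw [show 2 * (k + 1) = 2 * k + 2 by ring]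
        exact this
  have heven : ∀ i (hi : i < n), v ⟨2 * i, by omega⟩ + v ⟨2 * i + 1, by omega⟩ = 0 := by
    intro i hi
    have h1 := hP i hi.le
    have h2 := hP (i + 1) hi
    rw [show 2 * (i + 1) = 2 * i + 1 + 1 by ring, P_succ v (by omega), P_succ v (by omega), h1, zero_add] at h2
    exact h2
  have hstep : ∀ k (hk : k + 1 < 2 * n), v ⟨k, by omega⟩ = v ⟨k + 1, hk⟩ := by
    intro k hk
    have hch : ∀ a b : Z2, a + b = 0 → a = b := by decide
    rcases Nat.even_or_odd' k with ⟨i, rfl | rfl⟩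
    · exact hch _ _ (heven i (by omega))
    · exact hch _ _ (hb ⟨i, by omega⟩)
  have hall : ∀ k (hk : k < 2 * n), v ⟨k, hk⟩ = v ⟨0, by omega⟩ := by
    intro k
    induction k with
    | zero => intro _; rfl
    | succ k ih =>
      intro hk
      rw [← hstep k hk, ih (by omega)]
  intro x
  exact hall x.val x.2

theorem AD (hn : 1 ≤ n) (w : Fin (2 * n) → Z2) (h0 : ∑ x, w x = 0) :
    ∃ ε : Z2, (A : Matrix (Fin (2 * n)) _ Z2) *ᵥ ((D : Matrix _ (Fin (2 * n)) Z2) *ᵥ w) = fun x => w x + ε := by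
  set c := (D : Matrix _ (Fin (2 * n)) Z2) *ᵥ w with hc
  set v : Fin (2 * n) → Z2 := (A : Matrix (Fin (2 * n)) _ Z2) *ᵥ c + w with hv
  have hsum : ∑ x, v x = 0 := by
    simp only [hv, Pi.add_apply, Finset.sum_add_distrib, even_A, h0, add_zero]
  have hDv : (D : Matrix _ (Fin (2 * n)) Z2) *ᵥ v = 0 := by
    rw [hv, Matrix.mulVec_add, Matrix.mulVec_mulVec, DA, Matrix.one_mulVec, ← hc]
    funext j
    exact CharTwo.add_self_eq_zero _
  have hk := const_of_ker hn v hsum hDv
  refine ⟨v ⟨0, by omega⟩, ?_⟩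
  funext x
  have h1 := hk x
  rw [← h1, hv]
  simp only [Pi.add_apply]
  have := CharTwo.add_self_eq_zero (w x)
  linear_combination -this

/-- The action of permutations on vectors. -/
def act (σ : Perm (Fin (2 * n))) (w : Fin (2 * n) → Z2) : Fin (2 * n) → Z2 := fun x => w (σ⁻¹ x)

/-- The matrix of a permutation. -/
def M (σ : Perm (Fin (2 * n))) : Matrix (Fin (n - 1) ⊕ Fin (n - 1)) (Fin (n - 1) ⊕ Fin (n - 1)) Z2 :=
  D (n := n) * ((A (n := n)).submatrix (⇑σ⁻¹) id)

theorem M_mulVec (σ : Perm (Fin (2 * n))) (c : Fin (n - 1) ⊕ Fin (n - 1) → Z2) :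
    M σ *ᵥ c = D (n := n) *ᵥ act σ (A (n := n) *ᵥ c) := by
  rw [M, ← Matrix.mulVec_mulVec]
  rfl

theorem D_add_const (u : Fin (2 * n) → Z2) (ε : Z2) : D (n := n) *ᵥ (fun x => u x + ε) = D (n := n) *ᵥ u := by
  have : (fun x => u x + ε) = u + ε • (fun _ => (1 : Z2)) := by
    funext x
    simp
  rw [this, Matrix.mulVec_add, Matrix.mulVec_smul, D_const]
  simp

theorem sum_act (σ : Perm (Fin (2 * n))) (w : Fin (2 * n) → Z2) : ∑ x, act σ w x = ∑ x, w x :=
  Equiv.sum_comp σ⁻¹ w

theorem M_one : M (1 : Perm (Fin (2 * n))) = 1 := by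
  rw [M, inv_one]
  exact DA

theorem M_mul (hn : 1 ≤ n) (σ τ : Perm (Fin (2 * n))) : M (σ * τ) = M σ * M τ := by
  apply Matrix.mulVec_injective
  funext c
  rw [← Matrix.mulVec_mulVec, M_mulVec τ, M_mulVec σ, M_mulVec (σ * τ)]
  set w := act τ (A (n := n) *ᵥ c) with hw
  have hw0 : ∑ x, w x = 0 := by rw [hw, sum_act, even_A]
  obtain ⟨ε, hε⟩ := AD hn w hw0
  rw [hε]
  have h1 : act σ (fun x => w x + ε) = fun x => act σ w x + ε := rfl
  rw [h1, D_add_const]
  congr 1

/-- The columns of `A * M σ`. -/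
theorem A_M (hn : 1 ≤ n) (σ : Perm (Fin (2 * n))) (j : Fin (n - 1) ⊕ Fin (n - 1)) :
    ∃ ε : Z2, ∀ x, (A (n := n) * M σ) x j = A (n := n) (σ⁻¹ x) j + ε := by
  classical
  set e : Fin (n - 1) ⊕ Fin (n - 1) → Z2 := Pi.single j 1 with he
  have h1 : ∀ (B : Matrix (Fin (2 * n)) (Fin (n - 1) ⊕ Fin (n - 1)) Z2) x, (B *ᵥ e) x = B x j := by
    intro B x
    simp [he]
  have h2 : ∑ x, act σ (A (n := n) *ᵥ e) x = 0 := by rw [sum_act, even_A]
  obtain ⟨ε, hε⟩ := AD hn _ h2
  refine ⟨ε, fun x => ?_⟩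
  have h3 := congrFun hε x
  rw [← M_mulVec, Matrix.mulVec_mulVec, h1] at h3
  rw [h3]
  show act σ _ x + ε = _
  simp only [act, h1]

theorem sum_inv (σ : Perm (Fin (2 * n))) (f : Fin (2 * n) → Z2) : ∑ x, f (σ⁻¹ x) = ∑ x, f x :=
  Equiv.sum_comp σ⁻¹ f

theorem A_M_gram (hn : 1 ≤ n) (σ : Perm (Fin (2 * n))) :
    (A (n := n) * M σ)ᵀ * (A (n := n) * M σ) = J (Fin (n - 1)) Z2 := by
  ext j k
  obtain ⟨ε₁, h1⟩ := A_M hn σ j
  obtain ⟨ε₂, h2⟩ := A_M hn σ k
  rw [Matrix.mul_apply]
  simp only [Matrix.transpose_apply, h1, h2]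
  have e : ∀ x, (A (n := n) (σ⁻¹ x) j + ε₁) * (A (n := n) (σ⁻¹ x) k + ε₂) =
      A (n := n) (σ⁻¹ x) j * A (n := n) (σ⁻¹ x) k + ε₂ * A (n := n) (σ⁻¹ x) j + ε₁ * A (n := n) (σ⁻¹ x) k + ε₁ * ε₂ := by
    intro x; ring
  simp only [e, Finset.sum_add_distrib, ← Finset.mul_sum]
  rw [sum_inv σ (fun x => A (n := n) x j * A (n := n) x k), sum_inv σ (fun x => A (n := n) x j),
    sum_inv σ (fun x => A (n := n) x k), sum_col, sum_col, dot_AA]
  have h3 : (∑ _x : Fin (2 * n), ε₂) = 0 := by
    rw [Finset.sum_const, Finset.card_univ, Fintype.card_fin]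
    rw [nsmul_eq_mul]
    push_cast
    rw [two_eq]
    simp
  rw [h3]
  simp

theorem A_gram : (A (n := n))ᵀ * A (n := n) = J (Fin (n - 1)) Z2 := by
  ext j k
  rw [Matrix.mul_apply]
  exact dot_AA j k

theorem M_mem (hn : 1 ≤ n) (σ : Perm (Fin (2 * n))) : M σ ∈ Matrix.symplecticGroup (Fin (n - 1)) Z2 := by
  rw [SymplecticGroup.mem_iff']
  have e : (M σ)ᵀ * ((A (n := n))ᵀ * A (n := n)) * M σ = (A (n := n) * M σ)ᵀ * (A (n := n) * M σ) := by
    rw [Matrix.transpose_mul]
    simp only [Matrix.mul_assoc]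
  rw [← A_gram, e]
  exact (A_M_gram hn σ).trans A_gram.symm

/-- The homomorphism. -/
def f (hn : 1 ≤ n) : Perm (Fin (2 * n)) →* Matrix.symplecticGroup (Fin (n - 1)) Z2 where
  toFun σ := ⟨M σ, M_mem hn σ⟩
  map_one' := Subtype.ext M_one
  map_mul' σ τ := Subtype.ext (M_mul hn σ τ)

theorem act_single (σ : Perm (Fin (2 * n))) (x : Fin (2 * n)) :
    act σ (Pi.single x (1 : Z2)) = Pi.single (σ x) 1 := by
  funext z
  simp only [act, Pi.single_apply, Perm.inv_eq_iff_eq]

theorem M_inj (hn : 3 ≤ n) (σ : Perm (Fin (2 * n))) (h : M σ = 1) : σ = 1 := by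
  have hn1 : 1 ≤ n := by omega
  have hpt : ∀ x y x' y' : Fin (2 * n), ∃ z, z ≠ x ∧ z ≠ y ∧ z ≠ x' ∧ z ≠ y' := by
    intro x y x' y'
    by_contra hc
    push Not at hc
    have : (Finset.univ : Finset (Fin (2 * n))) ⊆ {x, y, x', y'} := by
      intro z _
      by_cases h1 : z = x
      · simp [h1]
      by_cases h2 : z = y
      · simp [h2]
      by_cases h3 : z = x'
      · simp [h3]
      simp [hc z h1 h2 h3]
    have h4 := Finset.card_le_card this
    have h5 : ({x, y, x', y'} : Finset (Fin (2 * n))).card ≤ 4 := Finset.card_le_four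
    rw [Finset.card_univ, Fintype.card_fin] at h4
    omega
  have key : ∀ x y : Fin (2 * n), x ≠ y → (σ x = x ∧ σ y = y) ∨ (σ x = y ∧ σ y = x) := by
    intro x y hxy
    set w₀ : Fin (2 * n) → Z2 := Pi.single x 1 + Pi.single y 1 with hw₀
    have h0 : ∑ z, w₀ z = 0 := by
      rw [hw₀]
      simp only [Pi.add_apply, Finset.sum_add_distrib, Finset.sum_pi_single', Finset.mem_univ, if_true]
      rfl
    obtain ⟨ε, hε⟩ := AD hn1 w₀ h0
    have h1 := M_mulVec σ (D (n := n) *ᵥ w₀)
    rw [h, Matrix.one_mulVec, hε] at h1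
    have h2 : act σ (fun x => w₀ x + ε) = fun x => act σ w₀ x + ε := rfl
    rw [h2, D_add_const] at h1
    have h3 : act σ w₀ = Pi.single (σ x) 1 + Pi.single (σ y) 1 := by
      rw [← act_single, ← act_single]
      rfl
    -- `act σ w₀ - w₀` is constant
    have h4 : ∑ z, (act σ w₀ + w₀) z = 0 := by
      simp only [Pi.add_apply, Finset.sum_add_distrib, sum_act, h0, add_zero]
    have h5 : D (n := n) *ᵥ (act σ w₀ + w₀) = 0 := by
      rw [Matrix.mulVec_add, ← h1]
      funext j
      exact CharTwo.add_self_eq_zero _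
    have h6 := const_of_ker hn1 _ h4 h5
    obtain ⟨z, hz1, hz2, hz3, hz4⟩ := hpt x y (σ x) (σ y)
    have hval : ∀ t, (act σ w₀ + w₀) t = 0 := by
      intro t
      rw [h6 t, ← h6 z, h3, hw₀]
      simp [Pi.single_apply, hz1, hz2, hz3, hz4]
    have hx := hval x
    have hy := hval y
    rw [h3, hw₀] at hx hy
    simp only [Pi.add_apply, Pi.single_apply, hxy, hxy.symm, if_true, if_false] at hx hy
    have hne : σ x ≠ σ y := fun e => hxy (σ.injective e)
    have hx' : x = σ x ∨ x = σ y := by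
      by_contra hc
      push Not at hc
      simp [hc.1, hc.2] at hx
    have hy' : y = σ x ∨ y = σ y := by
      by_contra hc
      push Not at hc
      simp [hc.1, hc.2] at hy
    rcases hx' with e1 | e1
    · left
      refine ⟨e1.symm, ?_⟩
      rcases hy' with e2 | e2
      · exact absurd (e1.trans e2.symm) hxy
      · exact e2.symm
    · right
      refine ⟨?_, e1.symm⟩
      rcases hy' with e2 | e2
      · exact e2.symm
      · exact absurd (e1.trans e2.symm) hxy
  ext x
  obtain ⟨y, hy, -, -, -⟩ := hpt x x x x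
  obtain ⟨z, hz, hzy, -, -⟩ := hpt x y x y
  rcases key x y hy.symm with ⟨h1, -⟩ | ⟨h1, -⟩
  · rw [h1]; rfl
  · rcases key x z hz.symm with ⟨h2, -⟩ | ⟨h2, -⟩
    · rw [h2]; rfl
    · exact absurd (h1.symm.trans h2).symm hzy

/-- S_2n ≤ Sp_(2n−2)(2) for n ≥ 3: there is an injective homomorphism from the symmetric group on 2n letters into the symplectic group of degree 2n − 2 over the field with two elements. -/
theorem result (n : ℕ) (hn : 3 ≤ n) : ∃ f : Equiv.Perm (Fin (2 * n)) →* Matrix.symplecticGroup (Fin (n - 1)) (ZMod 2), Function.Injective f := by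
  refine ⟨f (by omega), ?_⟩
  rw [injective_iff_map_eq_one]
  intro σ hσ
  apply M_inj hn
  exact congrArg Subtype.val hσ

end Cfsg.Agent.S0826
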