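import Cfsg.Statements.S0827
import Cfsg.Agent.Lib.SUTransfer
import Cfsg.Agent.Lib.UnitarySU
import Cfsg.Agent.Lib.QuatHom

set_option autoImplicit false
open Cfsg

namespace Cfsg.Agent.S0827

open Matrix Cfsg Cfsg.Agent.Lib.SLTransfer Cfsg.Agent.Lib.SUTransfer Cfsg.Agent.Lib.QuatHom

/-- The quadratic `X² + X + 1` is irreducible modulo two. -/
instance factK4 : Fact (∀ r : ZMod 2, r ^ 2 ≠ 1 + 1 * r) := ⟨by decide⟩

/-- The field with four elements. -/
abbrev K4 := QuadraticAlgebra (ZMod 2) 1 1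

instance fintypeK4 : Fintype K4 := Fintype.ofEquiv _ (QuadraticAlgebra.equivProd 1 1).symm

theorem card_K4 : Fintype.card K4 = 2 ^ 2 := by
  rw [Fintype.card_congr (QuadraticAlgebra.equivProd (R := ZMod 2) 1 1), Fintype.card_prod, ZMod.card]
  rfl

/-- `SL_3(4)`. -/
abbrev SL3 := SpecialLinearGroup (Fin 3) K4

/-- A primitive cube root of unity. -/
def w : K4 := ⟨0, 1⟩
/-- The other primitive cube root of unity. -/
def w2 : K4 := ⟨1, 1⟩

/-- A generator of the extraspecial group. -/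
def x0 : SL3 := ⟨!![1, 0, 0; 0, w, 0; 0, 0, w2], by decide +kernel⟩
/-- A generator of the extraspecial group. -/
def y0 : SL3 := ⟨!![0, 0, 1; 1, 0, 0; 0, 1, 0], by decide +kernel⟩
/-- A generator of the centre. -/
def z0 : SL3 := ⟨!![w, 0, 0; 0, w, 0; 0, 0, w], by decide +kernel⟩
/-- A generator of a quaternion group. -/
def A0 : SL3 := ⟨!![1, 1, 1; 1, w, w2; 1, w2, w], by decide +kernel⟩
/-- A generator of a quaternion group. -/
def W0 : SL3 := ⟨!![1, w2, w2; w, w, w2; w, w2, w], by decide +kernel⟩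

/-- The elements of the extraspecial group. -/
def psi (a b c : Fin 3) : SL3 := x0 ^ a.val * y0 ^ b.val * z0 ^ c.val

theorem psi_mul : ∀ a b c a' b' c' : Fin 3,
    psi a b c * psi a' b' c' = psi (a + a') (b + b') (c + c' + 2 * a' * b) := by decide +kernel

theorem psi_one : psi 0 0 0 = 1 := by decide +kernel

theorem psi_cube : ∀ a b c : Fin 3, (psi a b c) ^ 3 = 1 := by decide +kernel

theorem psi_inj : ∀ a b c a' b' c' : Fin 3, psi a b c = psi a' b' c' →
    a = a' ∧ b = b' ∧ c = c' := by decide +kernel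

theorem psi_A : ∀ a b c : Fin 3, ∃ a' b' c' : Fin 3, A0 * psi a b c = psi a' b' c' * A0 := by
  decide +kernel

theorem psi_W : ∀ a b c : Fin 3, ∃ a' b' c' : Fin 3, W0 * psi a b c = psi a' b' c' * W0 := by
  decide +kernel

theorem rWW : W0 * W0 = A0 ^ 2 := by decide +kernel
theorem rWA : W0 * A0 = A0 ^ 3 * W0 := by decide +kernel
theorem rA4 : A0 ^ 4 = 1 := by decide +kernel
theorem rA2 : A0 ^ 2 ≠ 1 := by decide +kernel
theorem psi_z : psi 0 0 1 = z0 := by decide +kernel

/-- The extraspecial group. -/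
def Nh0 : Subgroup SL3 where
  carrier := {g | ∃ a b c : Fin 3, g = psi a b c}
  mul_mem' := by
    rintro _ _ ⟨a, b, c, rfl⟩ ⟨a', b', c', rfl⟩
    exact ⟨_, _, _, psi_mul a b c a' b' c'⟩
  one_mem' := ⟨0, 0, 0, psi_one.symm⟩
  inv_mem' := by
    rintro _ ⟨a, b, c, rfl⟩
    have h : (psi a b c)⁻¹ = psi a b c * psi a b c := by
      apply inv_eq_of_mul_eq_one_right
      rw [← psi_cube a b c]
      simp only [pow_succ, pow_zero, one_mul, mul_assoc]
    rw [h]
    exact ⟨_, _, _, psi_mul a b c a b c⟩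

theorem card_Nh0 : Nat.card Nh0 = 27 := by
  have hf : Function.Injective (fun t : Fin 3 × Fin 3 × Fin 3 => psi t.1 t.2.1 t.2.2) := by
    rintro ⟨a, b, c⟩ ⟨a', b', c'⟩ h
    obtain ⟨rfl, rfl, rfl⟩ := psi_inj a b c a' b' c' h
    rfl
  have h := Nat.card_range_of_injective hf
  have e : (Set.range (fun t : Fin 3 × Fin 3 × Fin 3 => psi t.1 t.2.1 t.2.2)) = (Nh0 : Set SL3) := by
    ext g
    constructor
    · rintro ⟨⟨a, b, c⟩, rfl⟩
      exact ⟨a, b, c, rfl⟩
    · rintro ⟨a, b, c, rfl⟩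
      exact ⟨⟨a, b, c⟩, rfl⟩
  rw [e] at h
  have h2 : Nat.card (Nh0 : Set SL3) = Nat.card Nh0 := rfl
  rw [← h2, h]
  simp

/-- The matrix form of the unitary condition. -/
theorem herm_of_matrix {A : Matrix (Fin 3) (Fin 3) K4} (h : A.transpose * A.map (fun a => a ^ 2) = 1)
    (u v : Fin 3 → K4) : hermForm 3 K4 2 (A *ᵥ u) (A *ᵥ v) = hermForm 3 K4 2 u v := by
  let σ := Cfsg.Agent.Lib.UnitaryBasic.sigma card_K4
  have h1 : ∀ (u v : Fin 3 → K4), hermForm 3 K4 2 u v = u ⬝ᵥ (σ ∘ v) := fun u v => rfl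
  have h2 : σ ∘ (A *ᵥ v) = (A.map σ) *ᵥ (σ ∘ v) := by
    funext i
    exact σ.map_mulVec A v i
  have h3 : A.transpose * A.map σ = 1 := h
  rw [h1, h1, h2, Matrix.dotProduct_mulVec, ← Matrix.vecMul_transpose, Matrix.vecMul_vecMul, h3,
    Matrix.vecMul_one]

theorem mem_SU_of {g : SL3} (h : g.1.transpose * g.1.map (fun a => a ^ 2) = 1) : g ∈ SU 3 K4 2 :=
  fun u v => herm_of_matrix h u v

/-- `SU_3(2)`. -/
abbrev G := SU 3 K4 2

theorem x0_mem : x0 ∈ G := mem_SU_of (by decide +kernel)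
theorem y0_mem : y0 ∈ G := mem_SU_of (by decide +kernel)
theorem z0_mem : z0 ∈ G := mem_SU_of (by decide +kernel)
theorem A0_mem : A0 ∈ G := mem_SU_of (by decide +kernel)
theorem W0_mem : W0 ∈ G := mem_SU_of (by decide +kernel)

theorem Nh0_le : Nh0 ≤ G := by
  rintro _ ⟨a, b, c, rfl⟩
  exact mul_mem (mul_mem (pow_mem x0_mem _) (pow_mem y0_mem _)) (pow_mem z0_mem _)

/-- The extraspecial group as a subgroup of `G`. -/
def Nh : Subgroup G := Nh0.subgroupOf G

theorem card_Nh : Nat.card Nh = 27 := by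
  rw [← card_Nh0]
  exact Nat.card_congr (Subgroup.subgroupOfEquivOfLe Nh0_le).toEquiv

theorem mem_Nh (g : G) : g ∈ Nh ↔ ∃ a b c : Fin 3, g.1 = psi a b c := Iff.rfl

theorem cube_of_mem_Nh {g : G} (hg : g ∈ Nh) : g ^ 3 = 1 := by
  obtain ⟨a, b, c, h⟩ := (mem_Nh g).1 hg
  apply Subtype.ext
  change g.1 ^ 3 = 1
  rw [h, psi_cube]

/-- An element of `G`. -/
def A : G := ⟨A0, A0_mem⟩
/-- An element of `G`. -/
def W : G := ⟨W0, W0_mem⟩
/-- An element of `G`. -/
def z : G := ⟨z0, z0_mem⟩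

theorem hA4 : A ^ (2 * 2) = 1 := Subtype.ext rA4
theorem hA2 : A ^ 2 ≠ 1 := fun h => rA2 (congrArg Subtype.val h)
theorem hWW : W * W = A ^ 2 := Subtype.ext rWW
theorem hAinv : A⁻¹ = A ^ 3 := by
  apply inv_eq_of_mul_eq_one_right
  rw [← pow_succ', hA4]
theorem hWA : W * A * W⁻¹ = A⁻¹ := by
  rw [hAinv, mul_inv_eq_iff_eq_mul]
  exact Subtype.ext rWA
theorem horder : orderOf A = 2 * 2 := by
  have hn : ¬ A ^ 2 ^ 1 = 1 := hA2
  have hp : A ^ 2 ^ (1 + 1) = 1 := hA4
  have : Fact (Nat.Prime 2) := ⟨Nat.prime_two⟩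
  rw [orderOf_eq_prime_pow hn hp]
  norm_num

/-- The morphism from the quaternion group. -/
noncomputable def L : QuaternionGroup 2 →* G := lift hA4 hWW hWA

theorem L_injective : Function.Injective L := lift_injective hA4 hWW hWA hA2 horder

/-- The quaternion subgroup. -/
noncomputable def H : Subgroup G := L.range

theorem card_H : Nat.card H = 8 := by
  have e : QuaternionGroup 2 ≃* H := MonoidHom.ofInjective L_injective
  rw [← Nat.card_congr e.toEquiv, Nat.card_eq_fintype_card, QuaternionGroup.card]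

theorem card_PSU_K4 : Nat.card (PSU 3 K4 2) = 72 := by
  have := Cfsg.Agent.Lib.UnitarySU.card_PSU card_K4 3 (by norm_num)
  simp only [Finset.prod_range_succ, Finset.prod_range_zero] at this
  norm_num [Nat.even_iff] at this
  omega

theorem card_Z : Nat.card (Subgroup.center G) = 3 := by
  have := Cfsg.Agent.Lib.UnitarySU.card_center_SU' card_K4 3 (le_refl 3)
  rw [this]
  decide

theorem card_G : Nat.card G = 216 := by
  have h := Subgroup.card_eq_card_quotient_mul_card_subgroup (Subgroup.center G)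
  have h2 : Nat.card (G ⧸ Subgroup.center G) = 72 := card_PSU_K4
  rw [h, h2, card_Z]

theorem isCompl : Subgroup.IsComplement' Nh H :=
  Subgroup.isComplement'_of_coprime (by rw [card_Nh, card_H, card_G]) (by rw [card_Nh, card_H]; decide)

/-- The elements normalising the extraspecial group. -/
def Mon : Submonoid G where
  carrier := {g | ∀ n ∈ Nh, g * n * g⁻¹ ∈ Nh}
  one_mem' := fun n hn => by simpa using hn
  mul_mem' := by
    intro a b ha hb n hn
    have := ha _ (hb n hn)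
    simpa [mul_assoc] using this

theorem A_mem_Mon : A ∈ Mon := by
  intro n hn
  obtain ⟨a, b, c, h⟩ := (mem_Nh n).1 hn
  obtain ⟨a', b', c', h'⟩ := psi_A a b c
  refine (mem_Nh _).2 ⟨a', b', c', ?_⟩
  have : A * n = (⟨psi a' b' c', Nh0_le ⟨a', b', c', rfl⟩⟩ : G) * A := by
    apply Subtype.ext
    change A0 * n.1 = _
    rw [h, h']
    rfl
  rw [this]
  simp

theorem W_mem_Mon : W ∈ Mon := by
  intro n hn
  obtain ⟨a, b, c, h⟩ := (mem_Nh n).1 hn
  obtain ⟨a', b', c', h'⟩ := psi_W a b c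
  refine (mem_Nh _).2 ⟨a', b', c', ?_⟩
  have : W * n = (⟨psi a' b' c', Nh0_le ⟨a', b', c', rfl⟩⟩ : G) * W := by
    apply Subtype.ext
    change W0 * n.1 = _
    rw [h, h']
    rfl
  rw [this]
  simp

theorem H_le_Mon {g : G} (hg : g ∈ H) : g ∈ Mon := by
  obtain ⟨q, rfl⟩ := hg
  rcases q with i | i
  · exact pow_mem A_mem_Mon _
  · exact mul_mem W_mem_Mon (pow_mem A_mem_Mon _)

instance Nh_normal : Nh.Normal := by
  constructor
  intro n hn g
  obtain ⟨⟨⟨a, ha⟩, ⟨b, hb⟩⟩, rfl⟩ := isCompl.2 g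
  have h1 : b ∈ Mon := H_le_Mon hb
  have h2 := h1 n hn
  have e : a * b * n * (a * b)⁻¹ = a * (b * n * b⁻¹) * a⁻¹ := by group
  rw [e]
  exact mul_mem (mul_mem ha h2) (inv_mem ha)

theorem z0_ne : z0 ≠ 1 := by decide +kernel

theorem z0_scalar : z0.1 = Matrix.scalar (Fin 3) w := by decide +kernel

theorem Z_le : Subgroup.center G ≤ Nh := by
  have hz : z ∈ Subgroup.center G := by
    rw [Subgroup.mem_center_iff]
    intro g
    apply Subtype.ext
    apply Subtype.ext
    change g.1.1 * z0.1 = z0.1 * g.1.1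
    rw [z0_scalar]
    exact (Matrix.scalar_commute w (Commute.all w) g.1.1).symm
  have hzN : z ∈ Nh := (mem_Nh z).2 ⟨0, 0, 1, psi_z.symm⟩
  have hz3 : orderOf z = 3 := by
    have h1 : z ^ 3 = 1 := cube_of_mem_Nh hzN
    have h2 : z ≠ 1 := by
      intro h
      have : z0 = 1 := congrArg Subtype.val h
      exact z0_ne this
    exact orderOf_eq_prime h1 h2
  have hle : Subgroup.zpowers z ≤ Subgroup.center G := by
    rw [Subgroup.zpowers_le]
    exact hz
  have heq : Subgroup.zpowers z = Subgroup.center G :=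
    Subgroup.eq_of_le_of_card_ge hle (by rw [card_Z, Nat.card_zpowers, hz3])
  rw [← heq, Subgroup.zpowers_le]
  exact hzN

theorem eq_one_of_pow3_pow8 {X : Type*} [Group X] {h : X} (h1 : h ^ 3 = 1) (h2 : h ^ 8 = 1) :
    h = 1 := by
  have h3 : h ^ 9 = 1 := by
    have : h ^ 9 = (h ^ 3) ^ 3 := by rw [← pow_mul]
    rw [this, h1, one_pow]
  have h4 : h ^ 9 = h ^ 8 * h := pow_succ h 8
  rw [h2, one_mul] at h4
  rw [← h4, h3]

theorem H_inf {h : G} (hH : h ∈ H) (hN : h ∈ Nh) : h = 1 := by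
  have h1 : h ^ 3 = 1 := cube_of_mem_Nh hN
  have h2 : h ^ 8 = 1 := by
    have := pow_card_eq_one' (x := (⟨h, hH⟩ : H))
    rw [card_H] at this
    have h5 := congrArg H.subtype this
    rw [map_pow, map_one] at h5
    exact h5
  exact eq_one_of_pow3_pow8 h1 h2

/-- The quotient of `G` by the extraspecial group. -/
theorem exists_quot : Nonempty ((G ⧸ Nh) ≃* QuaternionGroup 2) := by
  let f : QuaternionGroup 2 →* (G ⧸ Nh) := (QuotientGroup.mk' Nh).comp L
  have hf : Function.Bijective f := by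
    rw [Nat.bijective_iff_injective_and_card]
    constructor
    · rw [injective_iff_map_eq_one]
      intro q hq
      have h1 : L q ∈ Nh := (QuotientGroup.eq_one_iff _).1 hq
      have h2 : L q = 1 := H_inf ⟨q, rfl⟩ h1
      exact L_injective (h2.trans (map_one L).symm)
    · have h := Subgroup.card_eq_card_quotient_mul_card_subgroup Nh
      rw [card_G, card_Nh] at h
      rw [Nat.card_eq_fintype_card (α := QuaternionGroup 2), QuaternionGroup.card]
      omega
  exact ⟨(MulEquiv.ofBijective f hf).symm⟩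

/-- The theorem over the model of the field with four elements. -/
theorem main : ∃ (N : Subgroup (PSU 3 K4 2)) (_ : N.Normal), Nat.card N = 9 ∧ (∀ x ∈ N, x ^ 3 = 1) ∧
    Nonempty (PSU 3 K4 2 ⧸ N ≃* QuaternionGroup 2) := by
  let N : Subgroup (PSU 3 K4 2) := Nh.map (QuotientGroup.mk' (Subgroup.center G))
  have hN : N.Normal := Subgroup.Normal.map Nh_normal _ (QuotientGroup.mk'_surjective _)
  obtain ⟨e⟩ := exists_quot
  let e3 : PSU 3 K4 2 ⧸ N ≃* G ⧸ Nh :=
    QuotientGroup.quotientQuotientEquivQuotient (Subgroup.center G) Nh Z_le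
  refine ⟨N, hN, ?_, ?_, ⟨e3.trans e⟩⟩
  · have h1 := Subgroup.card_mul_index N
    have h2 : N.index = 8 := by
      have : N.index = Nat.card (PSU 3 K4 2 ⧸ N) := rfl
      rw [this, Nat.card_congr (e3.trans e).toEquiv, Nat.card_eq_fintype_card, QuaternionGroup.card]
    rw [h2, card_PSU_K4] at h1
    omega
  · rintro _ ⟨g, hg, rfl⟩
    rw [← map_pow, cube_of_mem_Nh hg, map_one]

/-- U_3(2) ≅ 3².Q_8: PSU_3(2) (form over the field with 4 elements) has a normal subgroup N which is elementary abelian of order 9 such that the quotient by N is isomorphic to the quaternion group of order 8. -/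
theorem result {F : Type*} [Field F] [Fintype F] (hF : Fintype.card F = 4) : ∃ (N : Subgroup (Cfsg.PSU 3 F 2)) (_ : N.Normal), Nat.card N = 9 ∧ (∀ x ∈ N, x ^ 3 = 1) ∧ Nonempty (Cfsg.PSU 3 F 2 ⧸ N ≃* QuaternionGroup 2) := by
  let φ : K4 ≃+* F := FiniteField.ringEquivOfCardEq (K := K4) (K' := F) (by rw [hF, card_K4]; norm_num)
  let E : PSU 3 K4 2 ≃* PSU 3 F 2 := quotCenterEquiv (suEquiv φ)
  obtain ⟨N, hN, h1, h2, ⟨e⟩⟩ := main
  refine ⟨N.map (E : PSU 3 K4 2 →* PSU 3 F 2), Subgroup.Normal.map hN _ E.surjective, ?_, ?_, ?_⟩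
  · rw [Subgroup.card_map_of_injective (f := (E : PSU 3 K4 2 →* PSU 3 F 2)) E.injective, h1]
  · rintro _ ⟨x, hx, rfl⟩
    change (E x) ^ 3 = 1
    rw [← map_pow, h2 x hx, map_one]
  · have := hN
    have : (N.map (E : PSU 3 K4 2 →* PSU 3 F 2)).Normal := Subgroup.Normal.map hN _ E.surjective
    exact ⟨(QuotientGroup.congr N _ E rfl).symm.trans e⟩

end Cfsg.Agent.S0827
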