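import Mathlib
import Cfsg.Statements.S0828
import Cfsg.Agent.Lib.SympForm
import Cfsg.Agent.Lib.SubCount

set_option autoImplicit false
set_option linter.unusedSectionVars false
set_option linter.unusedSimpArgs false
open Cfsg

namespace Cfsg.Agent.S0828

open Module Cfsg.Agent.Lib.SympForm Cfsg.Agent.Lib.SubCount

variable {F : Type*} [Field F] [Fintype F]

local notation "V" => (Fin 2 ⊕ Fin 2 → F)

/-- The linear functional `sympForm v`. -/
def bl (v : V) : V →ₗ[F] F where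
  toFun := sympForm 2 F v
  map_add' := sympForm_add_right v
  map_smul' a x := by
    rw [sympForm_smul_right]; rfl

theorem bl_apply (v x : V) : bl v x = sympForm 2 F v x := rfl

theorem finrank_V : finrank F V = 4 := by
  simp

theorem finrank_T {v : V} (hv : v ≠ 0) : finrank F (LinearMap.ker (bl v)) = 3 := by
  have hne : (bl v) ≠ 0 := by
    obtain ⟨w, hw⟩ := exists_sympForm_ne_zero hv
    intro h
    apply hw
    have := LinearMap.congr_fun h w
    simpa [bl_apply] using this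
  have := Module.Dual.finrank_ker_add_one_of_ne_zero hne
  rw [finrank_V] at this
  omega

/-- Totally isotropic. -/
def Iso (W : Submodule F V) : Prop := ∀ u ∈ W, ∀ v ∈ W, sympForm 2 F u v = 0

instance : Finite (Submodule F V) := Cfsg.Agent.Lib.SubCount.finite_submodule

theorem iso_span_pair {v w : V} (hvw : sympForm 2 F v w = 0) : Iso (Submodule.span F {v, w} : Submodule F V) := by
  have hwv : sympForm 2 F w v = 0 := by rw [sympForm_antisymm, hvw, neg_zero]
  intro a ha b hb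
  obtain ⟨α, β, rfl⟩ := Submodule.mem_span_pair.mp ha
  obtain ⟨γ, δ, rfl⟩ := Submodule.mem_span_pair.mp hb
  simp only [sympForm_add_left, sympForm_add_right, sympForm_smul_left, sympForm_smul_right, hvw, hwv, sympForm_self, mul_zero, add_zero]

/-- The count of planes through a nonzero vector. -/
theorem card_through {q : ℕ} (hF : Fintype.card F = q) {v : V} (hv : v ≠ 0) :
    Nat.card {W : Submodule F V // finrank F W = 2 ∧ v ∈ W ∧ ∀ u ∈ W, ∀ w ∈ W, sympForm 2 F u w = 0} = q + 1 := by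
  classical
  have hq : 2 ≤ q := by
    rw [← hF]
    exact Fintype.one_lt_card
  have hvL : finrank F (Submodule.span F {v} : Submodule F V) = 1 := finrank_span_singleton hv
  have hvT : Submodule.span F {v} ≤ LinearMap.ker (bl v) := by
    rw [Submodule.span_singleton_le_iff_mem, LinearMap.mem_ker, bl_apply, sympForm_self]
  have hS : Nat.card {w : V // w ∈ LinearMap.ker (bl v) ∧ w ∉ Submodule.span F {v}} = q ^ 3 - q := by
    rw [card_diff hvT, finrank_T hv, hvL, hF, pow_one]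
  have hdc := double_count
    (α := {w : V // w ∈ LinearMap.ker (bl v) ∧ w ∉ Submodule.span F {v}})
    (β := {W : Submodule F V // finrank F W = 2 ∧ v ∈ W ∧ ∀ u ∈ W, ∀ w ∈ W, sympForm 2 F u w = 0})
    (fun w W => w.1 ∈ W.1) 1 (q ^ 2 - q) ?_ ?_
  · rw [hS, mul_one] at hdc
    obtain ⟨r, rfl⟩ : ∃ r, q = r + 2 := ⟨q - 2, by omega⟩
    have e1 : (r + 2) ^ 2 - (r + 2) = (r + 2) * (r + 1) := Nat.sub_eq_of_eq_add (by ring)
    have e2 : (r + 2) ^ 3 - (r + 2) = (r + 3) * ((r + 2) * (r + 1)) := Nat.sub_eq_of_eq_add (by ring)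
    rw [e1, e2] at hdc
    exact (Nat.eq_of_mul_eq_mul_right (by positivity) hdc).symm
  · rintro ⟨w, hwT, hwL⟩
    have hvw : sympForm 2 F v w = 0 := hwT
    rw [Nat.card_eq_one_iff_unique]
    have hW2 := finrank_span_pair hv hwL
    refine ⟨⟨?_⟩, ⟨⟨⟨Submodule.span F {v, w}, hW2, Submodule.subset_span (by simp), iso_span_pair hvw⟩, Submodule.subset_span (by simp)⟩⟩⟩
    rintro ⟨⟨W, hW, hvW, hI⟩, hwW⟩ ⟨⟨W', hW', hvW', hI'⟩, hwW'⟩
    have key : ∀ W₀ : Submodule F V, finrank F W₀ = 2 → v ∈ W₀ → w ∈ W₀ → W₀ = Submodule.span F {v, w} := by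
      intro W₀ h2 h3 h4
      symm
      apply Submodule.eq_of_le_of_finrank_eq
      · rw [Submodule.span_le]
        rintro x (rfl | rfl)
        · exact h3
        · exact h4
      · rw [hW2, h2]
    apply Subtype.ext
    apply Subtype.ext
    show W = W'
    rw [key W hW hvW hwW, key W' hW' hvW' hwW']
  · rintro ⟨W, hW, hvW, hI⟩
    have hvWL : Submodule.span F {v} ≤ W := by
      rwa [Submodule.span_singleton_le_iff_mem]
    have h1 := card_diff hvWL
    rw [hW, hvL, hF, pow_one] at h1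
    rw [← h1]
    apply Nat.card_congr
    refine ⟨fun x => ⟨x.1.1, x.2, x.1.2.2⟩, fun x => ⟨⟨x.1, hI v hvW x.1 x.2.1, x.2.2⟩, x.2.1⟩, fun x => rfl, fun x => rfl⟩

theorem card_all {q : ℕ} (hF : Fintype.card F = q) :
    Nat.card {W : Submodule F V // finrank F W = 2 ∧ ∀ u ∈ W, ∀ v ∈ W, sympForm 2 F u v = 0} = (q + 1) * (q ^ 2 + 1) := by
  classical
  have hq : 2 ≤ q := by
    rw [← hF]
    exact Fintype.one_lt_card
  have hdc := double_count
    (α := {W : Submodule F V // finrank F W = 2 ∧ ∀ u ∈ W, ∀ v ∈ W, sympForm 2 F u v = 0})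
    (β := {w : V // w ∈ (⊤ : Submodule F V) ∧ w ∉ (⊥ : Submodule F V)})
    (fun W w => w.1 ∈ W.1) (q ^ 2 - 1) (q + 1) ?_ ?_
  · have h1 := card_diff (F := F) (bot_le : (⊥ : Submodule F V) ≤ ⊤)
    rw [finrank_top, finrank_V, finrank_bot, pow_zero, hF] at h1
    rw [h1] at hdc
    obtain ⟨r, rfl⟩ : ∃ r, q = r + 2 := ⟨q - 2, by omega⟩
    have e1 : (r + 2) ^ 2 - 1 = (r + 3) * (r + 1) := Nat.sub_eq_of_eq_add (by ring)
    have e2 : (r + 2) ^ 4 - 1 = ((r + 2) ^ 2 + 1) * ((r + 3) * (r + 1)) := Nat.sub_eq_of_eq_add (by ring)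
    rw [e1, e2] at hdc
    have h3 : Nat.card {W : Submodule F V // finrank F W = 2 ∧ ∀ u ∈ W, ∀ v ∈ W, sympForm 2 F u v = 0} * ((r + 3) * (r + 1))
        = ((r + 2 + 1) * ((r + 2) ^ 2 + 1)) * ((r + 3) * (r + 1)) := by
      rw [hdc]
      ring
    exact Nat.eq_of_mul_eq_mul_right (by positivity) h3
  · rintro ⟨W, hW, hI⟩
    have h1 := card_diff (F := F) (bot_le : (⊥ : Submodule F V) ≤ W)
    rw [hW, finrank_bot, pow_zero, hF] at h1
    rw [← h1]
    apply Nat.card_congr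
    refine ⟨fun x => ⟨x.1.1, x.2, x.1.2.2⟩, fun x => ⟨⟨x.1, trivial, x.2.2⟩, x.2.1⟩, fun x => rfl, fun x => rfl⟩
  · rintro ⟨w, -, hw⟩
    have hw0 : w ≠ 0 := fun h => hw (by rw [h]; exact Submodule.zero_mem _)
    rw [← card_through hF hw0]
    apply Nat.card_congr
    refine ⟨fun x => ⟨x.1.1, x.1.2.1, x.2, x.1.2.2⟩, fun x => ⟨⟨x.1, x.2.1, x.2.2.2⟩, x.2.2.1⟩, fun x => rfl, fun x => rfl⟩

/-- The symplectic generalised quadrangle over a field with q elements: the number of 2-dimensional subspaces of F^4 on which the symplectic form vanishes is (q + 1)(q² + 1), and every non-zero vector lies in exactly q + 1 of them. -/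
theorem result {F : Type*} [Field F] [Fintype F] {q : ℕ} (hF : Fintype.card F = q) : Nat.card {W : Submodule F (Fin 2 ⊕ Fin 2 → F) // Module.finrank F W = 2 ∧ ∀ u ∈ W, ∀ v ∈ W, Cfsg.sympForm 2 F u v = 0} = (q + 1) * (q ^ 2 + 1) ∧ ∀ v : Fin 2 ⊕ Fin 2 → F, v ≠ 0 → Nat.card {W : Submodule F (Fin 2 ⊕ Fin 2 → F) // Module.finrank F W = 2 ∧ v ∈ W ∧ ∀ u ∈ W, ∀ w ∈ W, Cfsg.sympForm 2 F u w = 0} = q + 1 :=
  ⟨card_all hF, fun _ hv => card_through hF hv⟩

end Cfsg.Agent.S0828
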