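import Mathlib
import Cfsg.Statements.S0830
import Cfsg.Agent.Lib.HermLines

set_option autoImplicit false
open Cfsg

namespace Cfsg.Agent.S0830

open Module Cfsg.Agent.Lib.HermLines

/-- The unitary quadrangle of PSU_5(q): with |F| = q², the number of 2-dimensional subspaces of F^5 on which the Hermitian form vanishes is (q³ + 1)(q⁵ + 1). -/
theorem result {F : Type*} [Field F] [Fintype F] {q : ℕ} (hF : Fintype.card F = q ^ 2) : Nat.card {W : Submodule F (Fin 5 → F) // Module.finrank F W = 2 ∧ ∀ u ∈ W, ∀ v ∈ W, Cfsg.hermForm 5 F q u v = 0} = (q ^ 3 + 1) * (q ^ 5 + 1) := by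
  have hq := two_le_q hF
  have hI := Cfsg.Agent.Lib.HermCount.card_isotropic hF 5
  rw [if_neg (by decide)] at hI
  obtain ⟨r, rfl⟩ : ∃ r, q = r + 2 := ⟨q - 2, by omega⟩
  have e1 : (r + 2) ^ 2 - 1 = (r + 1) * (r + 3) := Nat.sub_eq_of_eq_add (by ring)
  have e2 : ((r + 2) ^ 2) ^ 2 - (r + 2) ^ 2 = (r + 2) ^ 2 * ((r + 1) * (r + 3)) := Nat.sub_eq_of_eq_add (by ring)
  have e3 : (r + 2) ^ (5 - 1) - 1 = (r + 1) * (r + 3) * ((r + 2) ^ 2 + 1) := Nat.sub_eq_of_eq_add (by ring)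
  have e4 : ((r + 2) ^ 2) ^ 2 - 1 = (r + 1) * (r + 3) * ((r + 2) ^ 2 + 1) := Nat.sub_eq_of_eq_add (by ring)
  rw [e3] at hI
  have hN : ∀ v : Fin 5 → F, v ≠ 0 → Cfsg.hermForm 5 F (r + 2) v v = 0 → Nat.card {W : Submodule F (Fin 5 → F) // finrank F W = 2 ∧ v ∈ W ∧ ∀ u ∈ W, ∀ w ∈ W, Cfsg.hermForm 5 F (r + 2) u w = 0} = (r + 2) ^ 3 + 1 := by
    intro v hv0 hv
    have h1 := card_through hF hv0 hv
    have h2 := card_iso_split hF v
    have h3 := card_E hF hv0 hv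
    rw [e2] at h1
    rw [e1] at h2
    have h5 : Nat.card {w : Fin 5 → F // Cfsg.hermForm 5 F (r + 2) w w = 0 ∧ Cfsg.hermForm 5 F (r + 2) w v = 1} = (r + 2) ^ 7 := by
      apply Nat.eq_of_mul_eq_mul_left (show 0 < (r + 2) ^ 3 by positivity)
      rw [show (r + 2) ^ 3 * Nat.card {w : Fin 5 → F // Cfsg.hermForm 5 F (r + 2) w w = 0 ∧ Cfsg.hermForm 5 F (r + 2) w v = 1} = (r + 2) * Nat.card {w : Fin 5 → F // Cfsg.hermForm 5 F (r + 2) w w = 0 ∧ Cfsg.hermForm 5 F (r + 2) w v = 1} * (r + 2) ^ 2 by ring, h3]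
      ring
    rw [h5, h1, hI] at h2
    apply Nat.eq_of_mul_eq_mul_right (show 0 < (r + 2) ^ 2 * ((r + 1) * (r + 3)) by positivity)
    have h6 : ((r + 2) ^ 3 + 1) * ((r + 2) ^ 2 * ((r + 1) * (r + 3))) + (r + 2) ^ 2 + (r + 1) * (r + 3) * (r + 2) ^ 7 =
      ((r + 2) ^ 5 + 1) * ((r + 1) * (r + 3) * ((r + 2) ^ 2 + 1)) + 1 := by ring
    rw [← h6] at h2
    omega
  have hT := card_total hF hN
  rw [hI, e4] at hT
  apply Nat.eq_of_mul_eq_mul_right (show 0 < (r + 1) * (r + 3) * ((r + 2) ^ 2 + 1) by positivity)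
  have h7 : (((r + 2) ^ 5 + 1) * ((r + 1) * (r + 3) * ((r + 2) ^ 2 + 1)) + 1) * ((r + 2) ^ 3 + 1) =
    ((r + 2) ^ 3 + 1) * ((r + 2) ^ 5 + 1) * ((r + 1) * (r + 3) * ((r + 2) ^ 2 + 1)) + ((r + 2) ^ 3 + 1) := by ring
  rw [h7] at hT
  omega

end Cfsg.Agent.S0830
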