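import Mathlib
import Cfsg.Statements.S0833
import Cfsg.Agent.Lib.TensorForms

set_option autoImplicit false
open Cfsg

namespace Cfsg.Agent.S0833

open Cfsg.Agent.Lib.TensorForms TensorProduct

/-- If B₁, B₂ are non-degenerate alternating forms on U (dim 2k) and W (dim 2l), then B₁ ⊗ B₂ on U ⊗ W is symmetric, non-degenerate, and vanishes identically on some subspace of dimension 2kl (half of dim U ⊗ W). -/
theorem result {F U W : Type*} [Field F] [Fintype F] [AddCommGroup U] [Module F U] [FiniteDimensional F U] [AddCommGroup W] [Module F W] [FiniteDimensional F W] (B₁ : LinearMap.BilinForm F U) (B₂ : LinearMap.BilinForm F W) (h₁ : B₁.Nondegenerate) (h₂ : B₂.Nondegenerate) (hA₁ : B₁.IsAlt) (hA₂ : B₂.IsAlt) (k l : ℕ) (hU : Module.finrank F U = 2 * k) (hW : Module.finrank F W = 2 * l) : (B₁.tmul B₂).IsSymm ∧ (B₁.tmul B₂).Nondegenerate ∧ (∃ X : Submodule F (TensorProduct F U W), Module.finrank F X = 2 * k * l ∧ ∀ x ∈ X, ∀ y ∈ X, (B₁.tmul B₂) x y = 0) := by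
  refine ⟨?_, tmul_nondegenerate h₁ h₂, ?_⟩
  · constructor
    intro x y
    show (B₁.tmul B₂) x y = (B₁.tmul B₂) y x
    induction x using TensorProduct.induction_on with
    | zero => simp
    | add a b ha hb => simp [ha, hb]
    | tmul a b =>
      induction y using TensorProduct.induction_on with
      | zero => simp
      | add c d hc hd => simp only [map_add, LinearMap.add_apply, hc, hd]
      | tmul c d =>
        rw [tmul_tmul, tmul_tmul, ← LinearMap.BilinForm.IsAlt.neg_eq hA₁ a c, ← LinearMap.BilinForm.IsAlt.neg_eq hA₂ b d]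
        ring
  · obtain ⟨L, hLd, hL⟩ := exists_ti_alt h₁ hA₁ hU k le_rfl
    obtain ⟨X, hXd, hX⟩ := exists_ti_tensor B₂ L hL
    refine ⟨X, ?_, hX⟩
    rw [hXd, hLd, hW]
    ring

end Cfsg.Agent.S0833
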