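import Mathlib
import Cfsg.Statements.S0834
import Cfsg.Agent.Lib.DiscType

set_option autoImplicit false
open Cfsg

namespace Cfsg.Agent.S0834

open Module Cfsg.Agent.Lib.DiscType

/-- Over a finite field with 2 ≠ 0: if B₁ on U (dim 2k, k ≥ 1) and B₂ on W (dim 2l, l ≥ 1) are non-degenerate symmetric forms admitting no totally isotropic subspaces of dimensions k, resp. l (minus type), then B₁ ⊗ B₂ admits a totally isotropic subspace of dimension 2kl (plus type). -/
theorem result {F U W : Type*} [Field F] [Fintype F] [AddCommGroup U] [Module F U] [FiniteDimensional F U] [AddCommGroup W] [Module F W] [FiniteDimensional F W] (h2 : (2 : F) ≠ 0) (B₁ : LinearMap.BilinForm F U) (B₂ : LinearMap.BilinForm F W) (h₁ : B₁.Nondegenerate) (h₂ : B₂.Nondegenerate) (hS₁ : B₁.IsSymm) (hS₂ : B₂.IsSymm) (k l : ℕ) (hk : 1 ≤ k) (hl : 1 ≤ l) (hU : Module.finrank F U = 2 * k) (hW : Module.finrank F W = 2 * l) (hm₁ : ¬ (∃ X : Submodule F (U), Module.finrank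 F X = k ∧ ∀ x ∈ X, ∀ y ∈ X, (B₁) x y = 0)) (hm₂ : ¬ (∃ X : Submodule F (W), Module.finrank F X = l ∧ ∀ x ∈ X, ∀ y ∈ X, (B₂) x y = 0)) : (∃ X : Submodule F (TensorProduct F U W), Module.finrank F X = 2 * k * l ∧ ∀ x ∈ X, ∀ y ∈ X, (B₁.tmul B₂) x y = 0) := by
  classical
  let b₁ := finBasisOfFinrankEq F U hU
  let b₂ := finBasisOfFinrankEq F W hW
  have hnd : (B₁.tmul B₂).Nondegenerate := Cfsg.Agent.Lib.TensorForms.tmul_nondegenerate h₁ h₂
  have hS : LinearMap.BilinForm.IsSymm (B₁.tmul B₂) :=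
    LinearMap.BilinForm.isSymm_iff.2 (LinearMap.IsSymm.tmul (LinearMap.BilinForm.isSymm_iff.1 hS₁) (LinearMap.BilinForm.isSymm_iff.1 hS₂))
  apply exists_ti_of_isSquare h2 hnd hS (b₁.tensorProduct b₂) (m := 2 * k * l) (by
    have : 1 ≤ k * l := Nat.mul_pos hk hl
    nlinarith) (by
    rw [finrank_tensorProduct, hU, hW]
    ring)
  rw [det_tmul, Even.neg_one_pow (by exact ⟨k * l, by ring⟩), one_mul]
  simp only [Fintype.card_fin]
  refine ⟨(LinearMap.BilinForm.toMatrix b₁ B₁).det ^ l * (LinearMap.BilinForm.toMatrix b₂ B₂).det ^ k, ?_⟩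
  ring

end Cfsg.Agent.S0834
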