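import Mathlib
import Cfsg.Statements.S0835
import Cfsg.Agent.Lib.DiscType

set_option autoImplicit false
open Cfsg

namespace Cfsg.Agent.S0835

open Module Cfsg.Agent.Lib.DiscType

/-- Over a finite field with 2 ≠ 0: if B₁ on U (dim 2k, k ≥ 1) is non-degenerate symmetric of minus type (no totally isotropic k-subspace) and B₂ on W (dim 2l + 1) is non-degenerate symmetric, then B₁ ⊗ B₂ (dimension 2k(2l+1)) admits no totally isotropic subspace of dimension k(2l+1) (minus type). -/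
theorem result {F U W : Type*} [Field F] [Fintype F] [AddCommGroup U] [Module F U] [FiniteDimensional F U] [AddCommGroup W] [Module F W] [FiniteDimensional F W] (h2 : (2 : F) ≠ 0) (B₁ : LinearMap.BilinForm F U) (B₂ : LinearMap.BilinForm F W) (h₁ : B₁.Nondegenerate) (h₂ : B₂.Nondegenerate) (hS₁ : B₁.IsSymm) (hS₂ : B₂.IsSymm) (k l : ℕ) (hk : 1 ≤ k) (hU : Module.finrank F U = 2 * k) (hW : Module.finrank F W = 2 * l + 1) (hm₁ : ¬ (∃ X : Submodule F (U), Module.finrank F X = k ∧ ∀ x ∈ X, ∀ y ∈ X, (B₁) x y = 0)) : ¬ (∃ X : Submodule F (TensorProduct F U W), Module.finrank F X = k * (2 * l + 1) ∧ ∀ x ∈ X, ∀ y ∈ X, (B₁.tmul B₂) x y = 0) := by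
  classical
  rintro ⟨X, hX, hti⟩
  let b₁ := finBasisOfFinrankEq F U hU
  let b₂ := finBasisOfFinrankEq F W hW
  have hS : LinearMap.BilinForm.IsSymm (B₁.tmul B₂) :=
    LinearMap.BilinForm.isSymm_iff.2 (LinearMap.IsSymm.tmul (LinearMap.BilinForm.isSymm_iff.1 hS₁) (LinearMap.BilinForm.isSymm_iff.1 hS₂))
  have hV : finrank F (TensorProduct F U W) = 2 * (k * (2 * l + 1)) := by
    rw [finrank_tensorProduct, hU, hW]
    ring
  have h := isSquare_of_ti hS (b₁.tensorProduct b₂) hV hX hti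
  rw [det_tmul] at h
  simp only [Fintype.card_fin] at h
  set d₁ := (LinearMap.BilinForm.toMatrix b₁ B₁).det with hd₁
  set d₂ := (LinearMap.BilinForm.toMatrix b₂ B₂).det with hd₂
  have hd₁0 : d₁ ≠ 0 := (LinearMap.BilinForm.nondegenerate_iff_det_ne_zero b₁).1 h₁
  have hd₂0 : d₂ ≠ 0 := (LinearMap.BilinForm.nondegenerate_iff_det_ne_zero b₂).1 h₂
  apply hm₁
  apply exists_ti_of_isSquare h2 h₁ hS₁ b₁ hk hU
  obtain ⟨r, hr⟩ := h
  refine ⟨r / (d₁ ^ l * d₂ ^ k * (-1) ^ (k * l)), ?_⟩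
  have hne : d₁ ^ l * d₂ ^ k * (-1 : F) ^ (k * l) ≠ 0 := by
    apply mul_ne_zero (mul_ne_zero (pow_ne_zero _ hd₁0) (pow_ne_zero _ hd₂0))
    exact pow_ne_zero _ (neg_ne_zero.mpr one_ne_zero)
  rw [div_mul_div_comm, eq_div_iff (mul_ne_zero hne hne), ← hr]
  have e1 : ((-1 : F) ^ (k * (2 * l + 1))) = (-1) ^ k * ((-1) ^ (k * l) * (-1) ^ (k * l)) := by
    rw [← pow_add, ← pow_add]
    congr 1
    ring
  rw [e1]
  ring

end Cfsg.Agent.S0835
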