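import Mathlib
import Cfsg.Statements.S0836

set_option autoImplicit false
open Cfsg

namespace Cfsg.Agent.S0836

open Matrix
open scoped commutatorElement

/-- The SL element of a transvection. -/
noncomputable def tv {F : Type*} [Field F] {n : ℕ} (i j : Fin n) (h : i ≠ j) (c : F) :
    Matrix.SpecialLinearGroup (Fin n) F :=
  ⟨Matrix.transvection i j c, Matrix.det_transvection_of_ne i j h c⟩

lemma sl_ext {F : Type*} [Field F] {n : ℕ} {A B : Matrix.SpecialLinearGroup (Fin n) F}
    (h : (A : Matrix (Fin n) (Fin n) F) = (B : Matrix (Fin n) (Fin n) F)) : A = B := Subtype.ext h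

lemma coe_tv {F : Type*} [Field F] {n : ℕ} (i j : Fin n) (h : i ≠ j) (c : F) :
    ((tv i j h c : Matrix.SpecialLinearGroup (Fin n) F) : Matrix (Fin n) (Fin n) F) = 1 + Matrix.single i j c := rfl

lemma tv_mul {F : Type*} [Field F] {n : ℕ} (i j : Fin n) (h : i ≠ j) (c d : F) :
    tv i j h c * tv i j h d = tv i j h (c + d) := by
  apply Subtype.ext
  exact Matrix.transvection_mul_transvection_same i j h c d

lemma tv_zero {F : Type*} [Field F] {n : ℕ} (i j : Fin n) (h : i ≠ j) :
    tv i j h (0:F) = 1 := by
  apply Subtype.ext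
  simp [tv]

lemma tv_inv {F : Type*} [Field F] {n : ℕ} (i j : Fin n) (h : i ≠ j) (c : F) :
    (tv i j h c)⁻¹ = tv i j h (-c) := by
  rw [inv_eq_iff_mul_eq_one, tv_mul, add_neg_cancel, tv_zero]

lemma comm_three {F : Type*} [Field F] {n : ℕ} (i j k : Fin n) (hij : i ≠ j) (hik : i ≠ k) (hkj : k ≠ j) (c : F) :
    ⁅tv i k hik c, tv k j hkj (1:F)⁆ = tv i j hij c := by
  rw [commutatorElement_def, tv_inv, tv_inv]
  apply Subtype.ext
  have key : (1 + Matrix.single i k c) * (1 + Matrix.single k j 1) * (1 + Matrix.single i k (-c)) * (1 + Matrix.single k j (-1))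
      = (1 + Matrix.single i j c : Matrix (Fin n) (Fin n) F) := by
    have h1 : (Matrix.single i k (-c) : Matrix (Fin n) (Fin n) F) = - Matrix.single i k c := by
      ext p q; simp [Matrix.single_apply]; split_ifs <;> simp
    have h2 : (Matrix.single k j (-1 : F) : Matrix (Fin n) (Fin n) F) = - Matrix.single k j 1 := by
      ext p q; simp [Matrix.single_apply]; split_ifs <;> simp
    rw [h1, h2]
    simp [Matrix.add_mul, Matrix.mul_add, Matrix.single_mul_single_same, hij.symm, hik, hkj, hij, hik.symm, hkj.symm]
    abel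
  exact key

/-- For i ≠ j and any scalar c, the elementary transvection 1 + c E_ij is a commutator ⁅g, h⁆ of two elements of SL_n(F) provided n ≥ 3, or n = 2 and F contains x ≠ 0 with x² ≠ 1. -/
theorem result {F : Type*} [Field F] (n : ℕ) (hn : 3 ≤ n ∨ (n = 2 ∧ ∃ x : F, x ≠ 0 ∧ x ^ 2 ≠ 1)) (i j : Fin n) (hij : i ≠ j) (c : F) (t : Matrix.SpecialLinearGroup (Fin n) F) (ht : (t : Matrix (Fin n) (Fin n) F) = Matrix.transvection i j c) : t ∈ commutatorSet (Matrix.SpecialLinearGroup (Fin n) F) := by
  classical
  have ht' : t = tv i j hij c := Subtype.ext ht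
  subst ht'
  clear ht
  rcases hn with hn | ⟨hn, x, hx0, hx2⟩
  · -- pick k ≠ i, j
    have : ∃ k : Fin n, k ≠ i ∧ k ≠ j := by
      by_contra hcon
      push Not at hcon
      have hsub : (Finset.univ : Finset (Fin n)) ⊆ {i, j} := by
        intro k _
        by_cases hk : k = i
        · simp [hk]
        · simp [hcon k hk]
      have := Finset.card_le_card hsub
      have h2 : ({i, j} : Finset (Fin n)).card ≤ 2 := Finset.card_le_two
      simp at this
      omega
    obtain ⟨k, hki, hkj⟩ := this
    exact ⟨tv i k hki.symm c, tv k j hkj 1, comm_three i j k hij hki.symm hkj c⟩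
  · subst hn
    -- the diagonal element
    have hdet : (Matrix.diagonal (fun k => if k = i then x else x⁻¹)).det = 1 := by
      rw [Matrix.det_diagonal]
      have hp : ∀ k : Fin 2, k = i ∨ k = j := by
        omega
      have huniv : (Finset.univ : Finset (Fin 2)) = {i, j} := by
        ext k; simpa using hp k
      rw [huniv, Finset.prod_pair hij]
      simp [hij.symm, hx0]
    let D : Matrix.SpecialLinearGroup (Fin 2) F := ⟨Matrix.diagonal (fun k => if k = i then x else x⁻¹), hdet⟩
    have hconj : ∀ a : F, D * tv i j hij a = tv i j hij (x * x * a) * D := by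
      intro a
      apply Subtype.ext
      show Matrix.diagonal (fun k => if k = i then x else x⁻¹) * (1 + Matrix.single i j a) = (1 + Matrix.single i j (x * x * a)) * Matrix.diagonal (fun k => if k = i then x else x⁻¹)
      rw [mul_add, add_mul, mul_one, one_mul]
      congr 1
      ext p q
      rw [Matrix.diagonal_mul, Matrix.mul_diagonal]
      by_cases hp : p = i
      · by_cases hq : q = j
        · subst hp hq
          simp [hij.symm]
          field_simp
        · have hq' : ¬ (i = p ∧ j = q) := fun h => hq h.2.symm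
          simp [Matrix.single_apply, hq']
      · have hq' : ¬ (i = p ∧ j = q) := fun h => hp h.1.symm
        simp [Matrix.single_apply, hq']
    have hx3 : x * x - 1 ≠ 0 := by
      intro h
      apply hx2
      rw [pow_two]
      exact sub_eq_zero.mp h
    refine ⟨D, tv i j hij (c / (x * x - 1)), ?_⟩
    rw [commutatorElement_def, hconj, tv_inv, mul_assoc (tv _ _ _ _) D, mul_inv_cancel, mul_one, tv_mul]
    congr 1
    field_simp
    ring

end Cfsg.Agent.S0836
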