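import Mathlib
import Cfsg.Statements.S0837
import Cfsg.Agent.Lib.HermOrtho
import Cfsg.Agent.Lib.OrthMatrix

set_option autoImplicit false
set_option linter.unusedSectionVars false
set_option linter.unusedSimpArgs false
set_option linter.unusedVariables false
open Cfsg

namespace Cfsg.Agent.S0837

open scoped Matrix
open Module Cfsg.Agent.Lib.HermForm Cfsg.Agent.Lib.HermLines Cfsg.Agent.Lib.HermOrtho Cfsg.Agent.Lib.OrthMatrix

variable {F : Type*} [Field F] [Fintype F] {q : ℕ}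

theorem herm_lin (hF : Fintype.card F = q ^ 2) {m k : ℕ} {c : Fin k → Fin m → F}
    (hco : ∀ i j, hermForm m F q (c i) (c j) = if i = j then 1 else 0) (x x' : Fin k → F) :
    hermForm m F q (Fintype.linearCombination F c x) (Fintype.linearCombination F c x') = hermForm k F q x x' := by
  rw [Fintype.linearCombination_apply, Fintype.linearCombination_apply, herm_sum_left]
  simp only [herm_sum_right hF, hermForm_smul_left, hermForm_smul_right, hco]
  show _ = ∑ i, x i * x' i ^ q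
  refine Finset.sum_congr rfl fun i _ => ?_
  rw [Finset.sum_eq_single i]
  · simp [mul_comm]
  · intro j _ hj
    simp [hj.symm]
  · simp

theorem inj_of_iso (hF : Fintype.card F = q ^ 2) {m : ℕ} (f : (Fin m → F) →ₗ[F] (Fin m → F))
    (hf : ∀ x x', hermForm m F q (f x) (f x') = hermForm m F q x x') : Function.Injective f := by
  rw [← LinearMap.ker_eq_bot, LinearMap.ker_eq_bot']
  intro x hx
  by_contra hx0
  obtain ⟨z, hz⟩ := exists_hermForm_ne_zero hF hx0
  apply hz
  rw [← hf, hx, hermForm_zero_left]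

theorem nondeg_left (hF : Fintype.card F = q ^ 2) {m : ℕ} {x : Fin m → F} (h : ∀ z, hermForm m F q x z = 0) : x = 0 := by
  by_contra hx0
  obtain ⟨z, hz⟩ := exists_hermForm_ne_zero hF hx0
  exact hz (h z)

/-- If W ≤ F^n (|F| = q²) is a k-dimensional subspace on which the Hermitian form Σ x_i y_i^q is non-degenerate, then the stabiliser of W in GU_n(q) is isomorphic to GU_k(q) × GU_(n−k)(q). -/
theorem result {F : Type*} [Field F] [Fintype F] {q : ℕ} (hF : Fintype.card F = q ^ 2) (n k : ℕ) (hk : k ≤ n) (W : Submodule F (Fin n → F)) (hWk : Module.finrank F W = k) (hW : ∀ u ∈ W, (∀ v ∈ W, Cfsg.hermForm n F q u v = 0) → u = 0) : Nonempty (↥((Cfsg.stabilizing (Cfsg.glToMat (Fin n) F) (W : Set (Fin n → F))).subgroupOf (Cfsg.GU n F q)) ≃* ↥(Cfsg.GU k F q) × ↥(Cfsg.GU (n - k) F q)) := by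
  classical
  have hND : ND q W := hW
  obtain ⟨hfin, hNDp⟩ := perp_props hF hND hWk
  obtain ⟨c₁, hc₁, hco₁⟩ := exists_orthonormal hF k W hWk hND
  obtain ⟨c₂, hc₂, hco₂⟩ := exists_orthonormal hF (n - k) (perp (q := q) W) hfin hNDp
  let L₁ : (Fin k → F) →ₗ[F] (Fin n → F) := Fintype.linearCombination F c₁
  let L₂ : (Fin (n - k) → F) →ₗ[F] (Fin n → F) := Fintype.linearCombination F c₂
  have hL₁W : ∀ x, L₁ x ∈ W := by
    intro x
    rw [show L₁ x = _ from Fintype.linearCombination_apply F c₁ x]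
    exact W.sum_mem (fun i _ => W.smul_mem _ (hc₁ i))
  have hL₂W : ∀ y, L₂ y ∈ perp (q := q) W := by
    intro y
    rw [show L₂ y = _ from Fintype.linearCombination_apply F c₂ y]
    exact Submodule.sum_mem _ (fun i _ => Submodule.smul_mem _ _ (hc₂ i))
  have hL₁L₁ : ∀ x x', hermForm n F q (L₁ x) (L₁ x') = hermForm k F q x x' := herm_lin hF hco₁
  have hL₂L₂ : ∀ y y', hermForm n F q (L₂ y) (L₂ y') = hermForm (n - k) F q y y' := herm_lin hF hco₂
  have hL₂L₁ : ∀ x y, hermForm n F q (L₂ y) (L₁ x) = 0 := fun x y => hL₂W y _ (hL₁W x)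
  have hL₁L₂ : ∀ x y, hermForm n F q (L₁ x) (L₂ y) = 0 := fun x y => conj_zero hF (hL₂L₁ x y)
  let Φ₀ : ((Fin k → F) × (Fin (n - k) → F)) →ₗ[F] (Fin n → F) := L₁.coprod L₂
  have hΦ₀ : ∀ z, Φ₀ z = L₁ z.1 + L₂ z.2 := fun z => rfl
  have hiso₀ : ∀ z z', hermForm n F q (Φ₀ z) (Φ₀ z') = hermForm k F q z.1 z'.1 + hermForm (n - k) F q z.2 z'.2 := by
    intro z z'
    rw [hΦ₀, hΦ₀, hermForm_add_left, hermForm_add_right hF, hermForm_add_right hF, hL₁L₁, hL₂L₂, hL₁L₂, hL₂L₁]
    ring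
  have hinj : Function.Injective Φ₀ := by
    rw [← LinearMap.ker_eq_bot, LinearMap.ker_eq_bot']
    intro z hz
    have h1 : z.1 = 0 := by
      apply nondeg_left hF
      intro x'
      have := hiso₀ z (x', 0)
      rw [hz, hermForm_zero_left, hermForm_zero_right hF] at this
      simpa using this.symm
    have h2 : z.2 = 0 := by
      apply nondeg_left hF
      intro y'
      have := hiso₀ z (0, y')
      rw [hz, hermForm_zero_left, hermForm_zero_right hF] at this
      simpa using this.symm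
    exact Prod.ext h1 h2
  have hdim : finrank F ((Fin k → F) × (Fin (n - k) → F)) = finrank F (Fin n → F) := by
    simp
    omega
  let Φ : ((Fin k → F) × (Fin (n - k) → F)) ≃ₗ[F] (Fin n → F) := LinearMap.linearEquivOfInjective Φ₀ hinj hdim
  have hΦ : ∀ z, Φ z = L₁ z.1 + L₂ z.2 := fun z => rfl
  have hiso : ∀ z z', hermForm n F q (Φ z) (Φ z') = hermForm k F q z.1 z'.1 + hermForm (n - k) F q z.2 z'.2 := hiso₀
  have hW₁ : ∀ z, Φ z ∈ W ↔ z.2 = 0 := by
    intro z
    constructor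
    · intro h
      apply nondeg_left hF
      intro y'
      apply conj_zero hF
      have h1 := hL₂W y' _ h
      rw [show L₂ y' = Φ (0, y') by simp [hΦ], hiso] at h1
      simpa [hermForm_zero_left] using h1
    · intro h
      rw [hΦ, h, map_zero, add_zero]
      exact hL₁W _
  have hW₂ : ∀ z, Φ z ∈ perp (q := q) W ↔ z.1 = 0 := by
    intro z
    constructor
    · intro h
      apply nondeg_left hF
      intro x'
      have h1 := h _ (hL₁W x')
      rw [show L₁ x' = Φ (x', 0) by simp [hΦ], hiso] at h1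
      simpa [hermForm_zero_right hF] using h1
    · intro h
      rw [hΦ, h, map_zero, zero_add]
      exact hL₂W _
  -- the map
  let Lm : ↥(Cfsg.GU k F q) → ↥(Cfsg.GU (n - k) F q) → ((Fin n → F) ≃ₗ[F] (Fin n → F)) := fun a b =>
    Φ.symm.trans (((glEquiv a.1).prodCongr (glEquiv b.1)).trans Φ)
  have hLm : ∀ a b z, Lm a b (Φ z) = Φ (glEquiv a.1 z.1, glEquiv b.1 z.2) := by
    intro a b z
    simp [Lm]
  have hGU : ∀ a b, glEquiv.symm (Lm a b) ∈ Cfsg.GU n F q := by
    intro a b u v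
    show hermForm n F q (((glEquiv.symm (Lm a b) : Matrix.GeneralLinearGroup (Fin n) F) : Matrix (Fin n) (Fin n) F) *ᵥ u) (((glEquiv.symm (Lm a b) : Matrix.GeneralLinearGroup (Fin n) F) : Matrix (Fin n) (Fin n) F) *ᵥ v) = _
    rw [mulVec_glEquiv_symm, mulVec_glEquiv_symm]
    obtain ⟨z, rfl⟩ := Φ.surjective u
    obtain ⟨z', rfl⟩ := Φ.surjective v
    rw [hLm, hLm, hiso, hiso]
    have h1 := a.2 z.1 z'.1
    have h2 := b.2 z.2 z'.2
    simp only [Units.coeHom_apply] at h1 h2
    rw [← h1, ← h2]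
    rfl
  have hStab : ∀ a b, (⟨glEquiv.symm (Lm a b), hGU a b⟩ : ↥(Cfsg.GU n F q)) ∈ (Cfsg.stabilizing (Cfsg.glToMat (Fin n) F) (W : Set (Fin n → F))).subgroupOf (Cfsg.GU n F q) := by
    intro a b
    rw [Subgroup.mem_subgroupOf]
    intro v
    show v ∈ W ↔ ((glEquiv.symm (Lm a b) : Matrix.GeneralLinearGroup (Fin n) F) : Matrix (Fin n) (Fin n) F) *ᵥ v ∈ W
    rw [mulVec_glEquiv_symm]
    obtain ⟨z, rfl⟩ := Φ.surjective v
    rw [hLm, hW₁, hW₁]
    simp only
    constructor
    · intro h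
      rw [h, map_zero]
    · intro h
      exact (glEquiv b.1).injective (by rw [h, map_zero])
  let ψ : ↥(Cfsg.GU k F q) × ↥(Cfsg.GU (n - k) F q) →* ↥((Cfsg.stabilizing (Cfsg.glToMat (Fin n) F) (W : Set (Fin n → F))).subgroupOf (Cfsg.GU n F q)) :=
    { toFun := fun p => ⟨⟨glEquiv.symm (Lm p.1 p.2), hGU p.1 p.2⟩, hStab p.1 p.2⟩
      map_one' := by
        apply Subtype.ext
        apply Subtype.ext
        show glEquiv.symm (Lm 1 1) = 1
        rw [map_eq_one_iff _ glEquiv.symm.injective]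
        apply LinearEquiv.ext
        intro v
        obtain ⟨z, rfl⟩ := Φ.surjective v
        rw [hLm]
        simp
      map_mul' := by
        intro p p'
        apply Subtype.ext
        apply Subtype.ext
        show glEquiv.symm (Lm (p * p').1 (p * p').2) = glEquiv.symm (Lm p.1 p.2) * glEquiv.symm (Lm p'.1 p'.2)
        rw [← map_mul]
        congr 1
        apply LinearEquiv.ext
        intro v
        obtain ⟨z, rfl⟩ := Φ.surjective v
        show Lm (p * p').1 (p * p').2 (Φ z) = Lm p.1 p.2 (Lm p'.1 p'.2 (Φ z))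
        rw [hLm, hLm, hLm]
        simp only [Prod.fst_mul, Prod.snd_mul, Subgroup.coe_mul, map_mul]
        rfl }
  have hψinj : Function.Injective ψ := by
    rintro ⟨a, b⟩ ⟨a', b'⟩ h
    have h1 : glEquiv.symm (Lm a b) = glEquiv.symm (Lm a' b') := congrArg (fun x => x.1.1) h
    have h2 : Lm a b = Lm a' b' := glEquiv.symm.injective h1
    have h3 : ∀ z : (Fin k → F) × (Fin (n - k) → F), (glEquiv a.1 z.1, glEquiv b.1 z.2) = (glEquiv a'.1 z.1, glEquiv b'.1 z.2) := by
      intro z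
      apply Φ.injective
      rw [← hLm, ← hLm, h2]
    have ha : a = a' := by
      apply Subtype.ext
      apply glEquiv.injective
      apply LinearEquiv.ext
      intro x
      exact congrArg Prod.fst (h3 (x, 0))
    have hb : b = b' := by
      apply Subtype.ext
      apply glEquiv.injective
      apply LinearEquiv.ext
      intro y
      exact congrArg Prod.snd (h3 (0, y))
    rw [ha, hb]
  have hψsurj : Function.Surjective ψ := by
    rintro ⟨⟨g, hgU⟩, hgS⟩
    let G := glEquiv g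
    have hGiso : ∀ u v, hermForm n F q (G u) (G v) = hermForm n F q u v := hgU
    have hGstab : ∀ v, v ∈ W ↔ G v ∈ W := Subgroup.mem_subgroupOf.1 hgS
    have hGperp : ∀ u ∈ perp (q := q) W, G u ∈ perp (q := q) W := by
      intro u hu v hv
      have h1 : G.symm v ∈ W := by
        rw [hGstab]
        simpa using hv
      have h2 := hGiso u (G.symm v)
      rw [LinearEquiv.apply_symm_apply] at h2
      rw [h2]
      exact hu _ h1
    let a₀ : (Fin k → F) →ₗ[F] (Fin k → F) := (LinearMap.fst F _ _) ∘ₗ Φ.symm.toLinearMap ∘ₗ G.toLinearMap ∘ₗ L₁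
    let b₀ : (Fin (n - k) → F) →ₗ[F] (Fin (n - k) → F) := (LinearMap.snd F _ _) ∘ₗ Φ.symm.toLinearMap ∘ₗ G.toLinearMap ∘ₗ L₂
    have key₁ : ∀ x, G (L₁ x) = Φ (a₀ x, 0) := by
      intro x
      have h1 : Φ (Φ.symm (G (L₁ x))) ∈ W := by
        rw [LinearEquiv.apply_symm_apply]
        exact (hGstab _).1 (hL₁W x)
      have h2 := (hW₁ _).1 h1
      have h3 : Φ.symm (G (L₁ x)) = (a₀ x, 0) := Prod.ext rfl h2
      rw [← h3, LinearEquiv.apply_symm_apply]
    have key₂ : ∀ y, G (L₂ y) = Φ (0, b₀ y) := by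
      intro y
      have h1 : Φ (Φ.symm (G (L₂ y))) ∈ perp (q := q) W := by
        rw [LinearEquiv.apply_symm_apply]
        exact hGperp _ (hL₂W y)
      have h2 := (hW₂ _).1 h1
      have h3 : Φ.symm (G (L₂ y)) = (0, b₀ y) := Prod.ext h2 rfl
      rw [← h3, LinearEquiv.apply_symm_apply]
    have ha₀ : ∀ x x', hermForm k F q (a₀ x) (a₀ x') = hermForm k F q x x' := by
      intro x x'
      calc hermForm k F q (a₀ x) (a₀ x') = hermForm n F q (Φ (a₀ x, 0)) (Φ (a₀ x', 0)) := by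
            rw [hiso]
            simp [hermForm_zero_left]
        _ = hermForm n F q (G (L₁ x)) (G (L₁ x')) := by rw [key₁, key₁]
        _ = hermForm n F q (L₁ x) (L₁ x') := hGiso _ _
        _ = _ := hL₁L₁ x x'
    have hb₀ : ∀ y y', hermForm (n - k) F q (b₀ y) (b₀ y') = hermForm (n - k) F q y y' := by
      intro y y'
      calc hermForm (n - k) F q (b₀ y) (b₀ y') = hermForm n F q (Φ (0, b₀ y)) (Φ (0, b₀ y')) := by
            rw [hiso]
            simp [hermForm_zero_left]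
        _ = hermForm n F q (G (L₂ y)) (G (L₂ y')) := by rw [key₂, key₂]
        _ = hermForm n F q (L₂ y) (L₂ y') := hGiso _ _
        _ = _ := hL₂L₂ y y'
    let a₁ := LinearEquiv.ofInjectiveEndo a₀ (inj_of_iso hF a₀ ha₀)
    let b₁ := LinearEquiv.ofInjectiveEndo b₀ (inj_of_iso hF b₀ hb₀)
    have ha₁ : ∀ x, a₁ x = a₀ x := fun x => rfl
    have hb₁ : ∀ x, b₁ x = b₀ x := fun x => rfl
    have haU : glEquiv.symm a₁ ∈ Cfsg.GU k F q := by
      intro u v
      show hermForm k F q (((glEquiv.symm a₁ : Matrix.GeneralLinearGroup (Fin k) F) : Matrix (Fin k) (Fin k) F) *ᵥ u) (((glEquiv.symm a₁ : Matrix.GeneralLinearGroup (Fin k) F) : Matrix (Fin k) (Fin k) F) *ᵥ v) = _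
      rw [mulVec_glEquiv_symm, mulVec_glEquiv_symm, ha₁, ha₁, ha₀]
    have hbU : glEquiv.symm b₁ ∈ Cfsg.GU (n - k) F q := by
      intro u v
      show hermForm (n - k) F q (((glEquiv.symm b₁ : Matrix.GeneralLinearGroup (Fin (n - k)) F) : Matrix (Fin (n - k)) (Fin (n - k)) F) *ᵥ u) (((glEquiv.symm b₁ : Matrix.GeneralLinearGroup (Fin (n - k)) F) : Matrix (Fin (n - k)) (Fin (n - k)) F) *ᵥ v) = _
      rw [mulVec_glEquiv_symm, mulVec_glEquiv_symm, hb₁, hb₁, hb₀]
    refine ⟨(⟨_, haU⟩, ⟨_, hbU⟩), ?_⟩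
    apply Subtype.ext
    apply Subtype.ext
    show glEquiv.symm (Lm ⟨_, haU⟩ ⟨_, hbU⟩) = g
    rw [MulEquiv.symm_apply_eq]
    apply LinearEquiv.ext
    intro v
    obtain ⟨z, rfl⟩ := Φ.surjective v
    rw [hLm]
    simp only [MulEquiv.apply_symm_apply]
    show Φ (a₀ z.1, b₀ z.2) = G (Φ z)
    rw [hΦ z, map_add, key₁, key₂, hΦ, hΦ, hΦ]
    simp
  exact ⟨(MulEquiv.ofBijective ψ ⟨hψinj, hψsurj⟩).symm⟩

end Cfsg.Agent.S0837
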