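import Mathlib
import Cfsg.Statements.S0838
import Cfsg.Agent.Lib.OrthSiegel2

set_option autoImplicit false
set_option linter.unusedSectionVars false
set_option linter.unusedSimpArgs false
set_option linter.unusedVariables false
open Cfsg

namespace Cfsg.Agent.S0838

open Module
open Cfsg.Agent.Lib.OrthGroup Cfsg.Agent.Lib.OrthSiegel2

variable {F V : Type*} [Field F] [Fintype F] [AddCommGroup V] [Module F V] [FiniteDimensional F V]
variable {Q : QuadraticForm F V}

/-- An orthonormal family of size less than the dimension. -/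
theorem exists_unit_family (hQ : (B Q).Nondegenerate) (h2 : (2 : F) ≠ 0) (k : ℕ) (hk : k < finrank F V) :
    ∃ t : Fin k → V, (∀ i, Q (t i) = 1) ∧ ∀ i j, i ≠ j → B Q (t i) (t j) = 0 := by
  induction k with
  | zero => exact ⟨Fin.elim0, fun i => i.elim0, fun i => i.elim0⟩
  | succ k ih =>
    obtain ⟨t, h1, h3⟩ := ih (by omega)
    obtain ⟨w, hw, htw, -⟩ := exists_norm_perp (s := 0) hQ h2 t (fun i => by rw [h1]; exact one_ne_zero) h3 (by simp) (by simp)
      (Or.inr ⟨rfl, hk⟩) 1
    refine ⟨Fin.snoc t w, ?_, ?_⟩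
    · intro i
      induction i using Fin.lastCases with
      | last => simpa using hw
      | cast i => simpa using h1 i
    · intro i j hij
      induction i using Fin.lastCases with
      | last =>
        induction j using Fin.lastCases with
        | last => exact absurd rfl hij
        | cast j =>
          simp only [Fin.snoc_last, Fin.snoc_castSucc]
          rw [B_comm]
          exact htw j
      | cast i =>
        induction j using Fin.lastCases with
        | last =>
          simp only [Fin.snoc_last, Fin.snoc_castSucc]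
          exact htw i
        | cast j =>
          simp only [Fin.snoc_castSucc]
          exact h3 i j (fun h => hij (by rw [h]))

/-- An orthogonal basis `1, …, 1, d`, indexed by a type `ι ⊕ Unit`. -/
theorem exists_normal (hQ : (B Q).Nondegenerate) (h2 : (2 : F) ≠ 0) (ι : Type) [Fintype ι] [DecidableEq ι]
    (hcard : Fintype.card ι + 1 = finrank F V) :
    ∃ (b : Basis (ι ⊕ Unit) F V) (d : F), d ≠ 0 ∧ (∀ i, Q (b (Sum.inl i)) = 1) ∧ Q (b (Sum.inr ())) = d ∧
      ∀ i j, i ≠ j → B Q (b i) (b j) = 0 := by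
  obtain ⟨t, h1, h3⟩ := exists_unit_family hQ h2 (Fintype.card ι) (by omega)
  obtain ⟨w, hw, htw, -⟩ := exists_aniso Q hQ h2 t (fun i => by rw [h1]; exact one_ne_zero) h3 (s := 0) (by simp) (by simp)
    (Or.inr ⟨rfl, by omega⟩)
  let e := Fintype.equivFin ι
  let T : ι ⊕ Unit → V := Sum.elim (fun i => t (e i)) (fun _ => w)
  have hT1 : ∀ i j, i ≠ j → B Q (T i) (T j) = 0 := by
    intro i j hij
    rcases i with i | i <;> rcases j with j | j
    · exact h3 _ _ (fun h => hij (by rw [e.injective h]))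
    · exact htw _
    · show B Q w (t (e j)) = 0
      rw [B_comm]
      exact htw _
    · exact absurd (by simp) hij
  have hT2 : ∀ i, Q (T i) ≠ 0 := by
    intro i
    rcases i with i | i
    · show Q (t (e i)) ≠ 0
      rw [h1]
      exact one_ne_zero
    · exact hw
  have hli : LinearIndependent F T := by
    rw [Fintype.linearIndependent_iff]
    intro g hg i
    have h4 := congrArg (B Q (T i)) hg
    rw [map_sum, Finset.sum_eq_single i] at h4
    · rw [map_smul, smul_eq_mul, B_self, map_zero] at h4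
      exact (mul_eq_zero.mp h4).resolve_right (mul_ne_zero h2 (hT2 i))
    · intro j _ hj
      rw [map_smul, hT1 i j hj.symm, smul_zero]
    · simp
  have hc : Fintype.card (ι ⊕ Unit) = finrank F V := by
    simpa using hcard
  have : Nonempty (ι ⊕ Unit) := ⟨Sum.inr ()⟩
  let b := basisOfLinearIndependentOfCardEqFinrank hli hc
  have hb : ∀ i, b i = T i := fun i => by
    simp [b]
  refine ⟨b, Q w, hw, ?_, ?_, ?_⟩
  · intro i
    rw [hb]
    exact h1 _
  · rw [hb]
    rfl
  · intro i j hij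
    rw [hb, hb]
    exact hT1 i j hij

theorem similar_of_odd (h2 : (2 : F) ≠ 0) (m : ℕ) (hn : finrank F V = 2 * m + 1) {Q₁ Q₂ : QuadraticForm F V}
    (h₁ : (B Q₁).Nondegenerate) (h₂ : (B Q₂).Nondegenerate) :
    ∃ (g : V ≃ₗ[F] V) (c : F), c ≠ 0 ∧ ∀ v, Q₂ (g v) = c * Q₁ v := by
  classical
  have hcard : Fintype.card (Fin m × Bool) + 1 = finrank F V := by
    rw [hn]
    simp
    ring
  obtain ⟨b₁, d₁, hd₁, h11, h12, h13⟩ := exists_normal h₁ h2 (Fin m × Bool) hcard
  obtain ⟨b₂, d₂, hd₂, h21, h22, h23⟩ := exists_normal h₂ h2 (Fin m × Bool) hcard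
  set c : F := d₂ / d₁ with hc
  have hc0 : c ≠ 0 := div_ne_zero hd₂ hd₁
  have hcd : c * d₁ = d₂ := by rw [hc]; field_simp
  obtain ⟨p, s, hps⟩ := exists_sum_eq h2 (one_ne_zero (α := F)) (one_ne_zero (α := F)) c
  simp only [mul_one] at hps
  let sg : Bool → F := fun x => if x then 1 else -1
  have hsg : ∀ x : Bool, sg (!x) = - sg x := by
    intro x
    cases x <;> simp [sg]
  have hsg2 : ∀ x : Bool, sg x * sg x = 1 := by
    intro x
    cases x <;> simp [sg]
  let w : (Fin m × Bool) ⊕ Unit → V := Sum.elim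
    (fun i => p • b₂ (Sum.inl i) + (sg i.2 * s) • b₂ (Sum.inl (i.1, !i.2))) (fun _ => b₂ (Sum.inr ()))
  let g₀ : V →ₗ[F] V := b₁.constr F w
  have hg₀ : ∀ i, g₀ (b₁ i) = w i := fun i => by
    simp [g₀, Basis.constr_basis]
  have hBself₁ : ∀ i, B Q₁ (b₁ (Sum.inl i)) (b₁ (Sum.inl i)) = 2 := by
    intro i
    rw [B_self, h11, mul_one]
  have hBself₂ : ∀ i, B Q₂ (b₂ (Sum.inl i)) (b₂ (Sum.inl i)) = 2 := by
    intro i
    rw [B_self, h21, mul_one]
  have hne2 : ∀ (i : Fin m × Bool), (i.1, !i.2) ≠ i := by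
    rintro ⟨a, x⟩ h
    have := congrArg Prod.snd h
    simp at this
  have hinv : ∀ (i : Fin m × Bool), ((i.1, !i.2).1, !(i.1, !i.2).2) = i := by
    rintro ⟨a, x⟩
    simp
  have hbil : ∀ i j, B Q₂ (w i) (w j) = c * B Q₁ (b₁ i) (b₁ j) := by
    intro i j
    have hK₂ : ∀ x y : Fin m × Bool, B Q₂ (b₂ (Sum.inl x)) (b₂ (Sum.inl y)) = if x = y then 2 else 0 := by
      intro x y
      split_ifs with hxy
      · subst hxy
        exact hBself₂ x
      · exact h23 _ _ (fun h => hxy (Sum.inl.inj h))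
    have hK₁ : ∀ x y : Fin m × Bool, B Q₁ (b₁ (Sum.inl x)) (b₁ (Sum.inl y)) = if x = y then 2 else 0 := by
      intro x y
      split_ifs with hxy
      · subst hxy
        exact hBself₁ x
      · exact h13 _ _ (fun h => hxy (Sum.inl.inj h))
    rcases i with i | ⟨⟩ <;> rcases j with j | ⟨⟩
    · -- two left indices
      show B Q₂ (p • b₂ (Sum.inl i) + (sg i.2 * s) • b₂ (Sum.inl (i.1, !i.2))) (p • b₂ (Sum.inl j) + (sg j.2 * s) • b₂ (Sum.inl (j.1, !j.2))) = _
      simp only [map_add, map_smul, LinearMap.add_apply, LinearMap.smul_apply, smul_eq_mul, hK₁, hK₂]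
      obtain ⟨a, x⟩ := i
      obtain ⟨a', y⟩ := j
      simp only [Prod.mk.injEq]
      by_cases ha : a = a'
      · subst ha
        cases x <;> cases y <;> simp [sg]
        · linear_combination (2 : F) * hps
        · ring
        · ring
        · linear_combination (2 : F) * hps
      · simp [ha]
    · show B Q₂ (p • b₂ (Sum.inl i) + (sg i.2 * s) • b₂ (Sum.inl (i.1, !i.2))) (b₂ (Sum.inr ())) = c * B Q₁ (b₁ (Sum.inl i)) (b₁ (Sum.inr ()))
      rw [h13 _ _ (by simp)]
      simp only [map_add, map_smul, LinearMap.add_apply, LinearMap.smul_apply, smul_eq_mul]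
      rw [h23 _ _ (by simp), h23 _ _ (by simp)]
      ring
    · show B Q₂ (b₂ (Sum.inr ())) (p • b₂ (Sum.inl j) + (sg j.2 * s) • b₂ (Sum.inl (j.1, !j.2))) = c * B Q₁ (b₁ (Sum.inr ())) (b₁ (Sum.inl j))
      rw [h13 _ _ (by simp)]
      simp only [map_add, map_smul, LinearMap.add_apply, LinearMap.smul_apply, smul_eq_mul]
      rw [h23 _ _ (by simp), h23 _ _ (by simp)]
      ring
    · show B Q₂ (b₂ (Sum.inr ())) (b₂ (Sum.inr ())) = c * B Q₁ (b₁ (Sum.inr ())) (b₁ (Sum.inr ()))
      rw [B_self, B_self, h12, h22, ← hcd]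
      ring
  have hB : ∀ x y, B Q₂ (g₀ x) (g₀ y) = c * B Q₁ x y := by
    have h4 : ((B Q₂).compl₁₂ g₀ g₀) = c • B Q₁ := by
      apply b₁.ext
      intro i
      apply b₁.ext
      intro j
      simp only [LinearMap.compl₁₂_apply, LinearMap.smul_apply, smul_eq_mul, hg₀, hbil]
    intro x y
    have := LinearMap.congr_fun (LinearMap.congr_fun h4 x) y
    simpa using this
  have hQg : ∀ v, Q₂ (g₀ v) = c * Q₁ v := by
    intro v
    have h4 := hB v v
    rw [B_self, B_self] at h4
    apply mul_left_cancel₀ h2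
    linear_combination h4
  have hinj : Function.Injective g₀ := by
    rw [← LinearMap.ker_eq_bot, LinearMap.ker_eq_bot']
    intro x hx
    apply h₁.1
    intro y
    have h4 := hB x y
    rw [hx, map_zero, LinearMap.zero_apply] at h4
    exact (mul_eq_zero.mp h4.symm).resolve_left hc0
  exact ⟨LinearEquiv.ofInjectiveEndo g₀ hinj, c, hc0, fun v => hQg v⟩

/-- Over a finite field with 2 ≠ 0 and n odd: two quadratic forms Q₁, Q₂ on F^n with non-degenerate polar forms are similar — there are an invertible linear map g and a scalar c ≠ 0 with Q₂ (g v) = c · Q₁ v for all v. -/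
theorem result {F : Type*} [Field F] [Fintype F] (h2 : (2 : F) ≠ 0) {n : ℕ} (hn : Odd n) (Q₁ Q₂ : QuadraticForm F (Fin n → F)) (h₁ : (QuadraticMap.polarBilin Q₁).Nondegenerate) (h₂ : (QuadraticMap.polarBilin Q₂).Nondegenerate) : ∃ (g : (Fin n → F) ≃ₗ[F] (Fin n → F)) (c : F), c ≠ 0 ∧ ∀ v, Q₂ (g v) = c * Q₁ v := by
  obtain ⟨m, rfl⟩ := hn
  exact similar_of_odd h2 m (finrank_fin_fun F) h₁ h₂

end Cfsg.Agent.S0838
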