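import Mathlib
import Cfsg.Statements.S0840
import Cfsg.Agent.Lib.CharAvg

set_option autoImplicit false
set_option linter.style.haveILetI false
open Cfsg

namespace Cfsg.Agent.S0840

open scoped ComplexConjugate
open Cfsg.Agent.Lib.CharBasic
open Cfsg.Agent.Lib.CharInd
open Cfsg.Agent.Lib.CharAvg

variable {G : Type*} [Group G] [Fintype G]

open scoped Classical in
/-- Summing over the conjugation action. -/
theorem sum_conj (a : G) (f : G → ℂ) :
    ∑ g : G, f (g * a * g⁻¹) =
      (Nat.card (Subgroup.centralizer ({a} : Set G)) : ℂ) *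
        ∑ x : G, if IsConj a x then f x else 0 := by
  classical
  rw [← Finset.sum_fiberwise (s := Finset.univ) (g := fun g : G => g * a * g⁻¹)
    (f := fun g => f (g * a * g⁻¹)), Finset.mul_sum]
  refine Finset.sum_congr rfl fun x _ => ?_
  have h1 : ∀ g ∈ Finset.univ.filter (fun g : G => g * a * g⁻¹ = x), f (g * a * g⁻¹) = f x := by
    intro g hg
    rw [(Finset.mem_filter.mp hg).2]
  rw [Finset.sum_congr rfl h1, Finset.sum_const, nsmul_eq_mul]
  split_ifs with hx
  · congr 2
    obtain ⟨g₀, hg₀⟩ := isConj_iff.mp hx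
    have hmem : ∀ g : G, g * a * g⁻¹ = x → g₀⁻¹ * g ∈ Subgroup.centralizer ({a} : Set G) := by
      intro g hg'
      rw [Subgroup.mem_centralizer_singleton_iff]
      have h2 : g * a * g⁻¹ = g₀ * a * g₀⁻¹ := hg'.trans hg₀.symm
      have h3 : g₀⁻¹ * g * a = g₀⁻¹ * (g * a * g⁻¹) * g := by group
      rw [h3, h2]
      group
    rw [Nat.card_eq_fintype_card, ← Finset.card_univ]
    refine Finset.card_bij (fun g hg => (⟨g₀⁻¹ * g, hmem g (Finset.mem_filter.mp hg).2⟩ :
      Subgroup.centralizer ({a} : Set G))) (fun _ _ => Finset.mem_univ _) ?_ ?_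
    · intro g₁ _ g₂ _ h
      have h3 := congrArg Subtype.val h
      exact mul_left_cancel h3
    · intro c _
      refine ⟨g₀ * c, ?_, ?_⟩
      · simp only [Finset.mem_filter, Finset.mem_univ, true_and]
        have h2 := Subgroup.mem_centralizer_singleton_iff.mp c.2
        calc g₀ * (c : G) * a * (g₀ * (c : G))⁻¹ = g₀ * ((c : G) * a) * (c : G)⁻¹ * g₀⁻¹ := by group
          _ = g₀ * a * g₀⁻¹ := by rw [h2]; group
          _ = x := hg₀
      · apply Subtype.ext
        simp
  · have h0 : (Finset.univ.filter fun g : G => g * a * g⁻¹ = x) = ∅ := by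
      rw [Finset.filter_eq_empty_iff]
      intro g _ hg
      exact hx (isConj_iff.mpr ⟨g, hg⟩)
    rw [h0]
    simp

open scoped Classical in
/-- The double count of `E`. -/
theorem card_pairs (a b c : G) :
    ∑ g : G, ∑ h : G, (if (g * a * g⁻¹) * (h * b * h⁻¹) = c then (1 : ℂ) else 0) =
      (Nat.card (Subgroup.centralizer ({a} : Set G)) : ℂ) *
        (Nat.card (Subgroup.centralizer ({b} : Set G)) : ℂ) *
        (Nat.card {p : G × G // IsConj a p.1 ∧ IsConj b p.2 ∧ p.1 * p.2 = c} : ℂ) := by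
  classical
  have h1 : (Nat.card {p : G × G // IsConj a p.1 ∧ IsConj b p.2 ∧ p.1 * p.2 = c} : ℂ) =
      ∑ x : G, if IsConj a x then (∑ y : G, if IsConj b y then
        (if x * y = c then (1 : ℂ) else 0) else 0) else 0 := by
    rw [Nat.card_eq_fintype_card, Fintype.card_subtype]
    rw [Finset.card_eq_sum_ones, Finset.sum_filter]
    push_cast
    rw [Fintype.sum_prod_type]
    refine Finset.sum_congr rfl fun x _ => ?_
    by_cases hx : IsConj a x
    · rw [if_pos hx]
      refine Finset.sum_congr rfl fun y _ => ?_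
      by_cases hy : IsConj b y
      · simp only [hx, hy, true_and, if_true]
      · simp only [hx, hy, true_and, false_and, if_false]
    · rw [if_neg hx]
      simp only [hx, false_and, if_false, Finset.sum_const_zero]
  rw [h1]
  rw [Finset.mul_sum (a := _)]
  have h2 : ∀ g : G, ∑ h : G, (if (g * a * g⁻¹) * (h * b * h⁻¹) = c then (1 : ℂ) else 0) =
      (Nat.card (Subgroup.centralizer ({b} : Set G)) : ℂ) *
        ∑ y : G, if IsConj b y then (if (g * a * g⁻¹) * y = c then (1 : ℂ) else 0) else 0 := by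
    intro g
    exact sum_conj b (fun y => if (g * a * g⁻¹) * y = c then (1 : ℂ) else 0)
  simp only [h2]
  have h3 := sum_conj a (fun x => (Nat.card (Subgroup.centralizer ({b} : Set G)) : ℂ) *
        ∑ y : G, if IsConj b y then (if x * y = c then (1 : ℂ) else 0) else 0)
  rw [h3, Finset.mul_sum]
  refine Finset.sum_congr rfl fun x _ => ?_
  by_cases hx : IsConj a x
  · rw [if_pos hx, if_pos hx]
    ring
  · rw [if_neg hx, if_neg hx]
    simp

open scoped Classical in
/-- The other count of `E`. -/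
theorem card_triple (a b c : G) :
    ∑ g : G, ∑ h : G, (if (g * a * g⁻¹) * (h * b * h⁻¹) = c then (1 : ℂ) else 0) =
      (Nat.card (Subgroup.centralizer ({c} : Set G)) : ℂ) *
        ∑ l : G, (if IsConj (a * (l * b * l⁻¹)) c then (1 : ℂ) else 0) := by
  classical
  have hG : (Nat.card G : ℂ) ≠ 0 := by exact_mod_cast Nat.card_pos.ne'
  apply mul_left_cancel₀ hG
  set E := ∑ g : G, ∑ h : G, (if (g * a * g⁻¹) * (h * b * h⁻¹) = c then (1 : ℂ) else 0) with hE
  have h1 : ∀ k : G, ∑ g : G, ∑ h : G,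
      (if (g * a * g⁻¹) * (h * b * h⁻¹) = k * c * k⁻¹ then (1 : ℂ) else 0) = E := by
    intro k
    rw [hE]
    refine Fintype.sum_equiv (Equiv.mulLeft k⁻¹) _ _ fun g => ?_
    refine Fintype.sum_equiv (Equiv.mulLeft k⁻¹) _ _ fun h => ?_
    have h2 : ((g * a * g⁻¹) * (h * b * h⁻¹) = k * c * k⁻¹) ↔
        (((Equiv.mulLeft k⁻¹) g * a * ((Equiv.mulLeft k⁻¹) g)⁻¹) *
          ((Equiv.mulLeft k⁻¹) h * b * ((Equiv.mulLeft k⁻¹) h)⁻¹) = c) := by
      simp only [Equiv.coe_mulLeft]
      constructor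
      · intro h3
        have : k⁻¹ * g * a * (k⁻¹ * g)⁻¹ * (k⁻¹ * h * b * (k⁻¹ * h)⁻¹) =
            k⁻¹ * ((g * a * g⁻¹) * (h * b * h⁻¹)) * k := by group
        rw [this, h3]
        group
      · intro h3
        have : (g * a * g⁻¹) * (h * b * h⁻¹) =
            k * (k⁻¹ * g * a * (k⁻¹ * g)⁻¹ * (k⁻¹ * h * b * (k⁻¹ * h)⁻¹)) * k⁻¹ := by group
        rw [this, h3]
    simp only [h2]
  have h2 : (Nat.card G : ℂ) * E = ∑ k : G, ∑ g : G, ∑ h : G,
      (if (g * a * g⁻¹) * (h * b * h⁻¹) = k * c * k⁻¹ then (1 : ℂ) else 0) := by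
    simp only [h1]
    simp [Nat.card_eq_fintype_card]
  rw [h2, Finset.sum_comm]
  have h3 : ∀ g : G, ∑ k : G, ∑ h : G,
      (if (g * a * g⁻¹) * (h * b * h⁻¹) = k * c * k⁻¹ then (1 : ℂ) else 0) =
      (Nat.card (Subgroup.centralizer ({c} : Set G)) : ℂ) *
        ∑ l : G, (if IsConj (a * (l * b * l⁻¹)) c then (1 : ℂ) else 0) := by
    intro g
    rw [Finset.sum_comm]
    have h4 : ∀ h : G, ∑ k : G,
        (if (g * a * g⁻¹) * (h * b * h⁻¹) = k * c * k⁻¹ then (1 : ℂ) else 0) =
        (Nat.card (Subgroup.centralizer ({c} : Set G)) : ℂ) *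
          (if IsConj (a * ((g⁻¹ * h) * b * (g⁻¹ * h)⁻¹)) c then (1 : ℂ) else 0) := by
      intro h
      have h5 := sum_conj c (fun x => if (g * a * g⁻¹) * (h * b * h⁻¹) = x then (1 : ℂ) else 0)
      rw [h5]
      congr 1
      have h6 : (g * a * g⁻¹) * (h * b * h⁻¹) = g * (a * ((g⁻¹ * h) * b * (g⁻¹ * h)⁻¹)) * g⁻¹ := by
        group
      rw [Finset.sum_eq_single ((g * a * g⁻¹) * (h * b * h⁻¹))]
      · rw [if_pos rfl, h6]
        by_cases hc : IsConj (a * ((g⁻¹ * h) * b * (g⁻¹ * h)⁻¹)) c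
        · rw [if_pos hc, if_pos]
          exact (IsConj.trans (isConj_iff.mpr ⟨g⁻¹, by group⟩) hc).symm
        · rw [if_neg hc, if_neg]
          intro h7
          exact hc (IsConj.trans (isConj_iff.mpr ⟨g, rfl⟩) h7.symm)
      · intro y _ hy
        rw [if_neg (Ne.symm hy)]
        simp
      · intro h7
        exact absurd (Finset.mem_univ _) h7
    simp only [h4]
    rw [← Finset.mul_sum]
    refine congrArg _ ?_
    exact Fintype.sum_equiv (Equiv.mulLeft g⁻¹) _ _ fun h => rfl
  simp only [h3]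
  simp only [Finset.sum_const, Finset.card_univ, nsmul_eq_mul, Nat.card_eq_fintype_card]

theorem irr_sum (a b c : G) :
    ∑ χ : IrrCharacter G, (χ : G → ℂ) a * (χ : G → ℂ) b * conj ((χ : G → ℂ) c) / (χ : G → ℂ) 1 =
      (Nat.card G : ℂ)⁻¹ * ((Nat.card (Subgroup.centralizer ({c} : Set G)) : ℂ) *
        ∑ l : G, (open scoped Classical in if IsConj (a * (l * b * l⁻¹)) c then (1 : ℂ) else 0)) := by
  classical
  have hG : (Nat.card G : ℂ) ≠ 0 := by exact_mod_cast Nat.card_pos.ne'
  have h1 : ∀ χ : IrrCharacter G, (χ : G → ℂ) a * (χ : G → ℂ) b * conj ((χ : G → ℂ) c) / (χ : G → ℂ) 1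
      = (Nat.card G : ℂ)⁻¹ * ∑ l : G, (χ : G → ℂ) (a * (l * b * l⁻¹)) * conj ((χ : G → ℂ) c) := by
    intro χ
    have h2 := irr_avg χ.2 a b
    have h3 := irr_one_ne_zero χ.2
    rw [← Finset.sum_mul]
    field_simp
    linear_combination (-(conj ((χ : G → ℂ) c))) * h2
  simp only [h1]
  rw [← Finset.mul_sum, Finset.sum_comm]
  congr 1
  rw [Finset.mul_sum]
  refine Finset.sum_congr rfl fun l _ => ?_
  rw [sum_irr_mul_conj]
  split_ifs <;> simp

/-- Class multiplication coefficients from the character table: for elements a, b, c of a finite group G, the number of ordered pairs (x, y) with x conjugate to a, y conjugate to b and x * y = c equals the product of the sizes of the conjugacy classes of a and b, divided by the order of G, times the sum over the irreducible characters χ of χ a * χ b * conj (χ c) / χ 1. -/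
theorem result {G : Type*} [Group G] [Finite G] (a b c : G) : (Nat.card {p : G × G // IsConj a p.1 ∧ IsConj b p.2 ∧ p.1 * p.2 = c} : ℂ) = (Nat.card {x : G // IsConj a x} : ℂ) * (Nat.card {x : G // IsConj b x} : ℂ) / (Nat.card G : ℂ) * ∑ᶠ χ : Cfsg.IrrCharacter G, (χ : G → ℂ) a * (χ : G → ℂ) b * conj ((χ : G → ℂ) c) / (χ : G → ℂ) 1 := by
  classical
  letI := Fintype.ofFinite G
  rw [finsum_eq_sum_of_fintype, irr_sum]
  have hG : (Nat.card G : ℂ) ≠ 0 := by exact_mod_cast Nat.card_pos.ne'
  have h1 := card_pairs a b c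
  rw [card_triple a b c] at h1
  have hA : (Nat.card {x : G // IsConj a x} : ℂ) * (Nat.card (Subgroup.centralizer ({a} : Set G)) : ℂ)
      = Nat.card G := by exact_mod_cast card_conj_mul_card_centralizer a
  have hB : (Nat.card {x : G // IsConj b x} : ℂ) * (Nat.card (Subgroup.centralizer ({b} : Set G)) : ℂ)
      = Nat.card G := by exact_mod_cast card_conj_mul_card_centralizer b
  rw [h1]
  set A := (Nat.card {x : G // IsConj a x} : ℂ)
  set B := (Nat.card {x : G // IsConj b x} : ℂ)
  set Ca := (Nat.card (Subgroup.centralizer ({a} : Set G)) : ℂ)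
  set Cb := (Nat.card (Subgroup.centralizer ({b} : Set G)) : ℂ)
  set N := (Nat.card {p : G × G // IsConj a p.1 ∧ IsConj b p.2 ∧ p.1 * p.2 = c} : ℂ)
  calc N = (A * Ca) * (B * Cb) / (Nat.card G : ℂ) / (Nat.card G : ℂ) * N := by
        rw [hA, hB]
        field_simp
    _ = _ := by
        field_simp

end Cfsg.Agent.S0840
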