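import Mathlib
import Cfsg.Statements.S0841

set_option autoImplicit false
open Cfsg

namespace Cfsg.Agent.S0841

/-- If the commutator subgroup of G lies in the centre, then for all x, y in G and every natural number n one has (x * y) ^ n = x ^ n * y ^ n * c ^ (n * (n - 1) / 2) with c = y⁻¹ * x⁻¹ * y * x. -/
theorem result {G : Type*} [Group G] (hG : commutator G ≤ Subgroup.center G) (x y : G) (n : ℕ) : (x * y) ^ n = x ^ n * y ^ n * (y⁻¹ * x⁻¹ * y * x) ^ (n * (n - 1) / 2) := by
  set c := y⁻¹ * x⁻¹ * y * x with hc
  have hcc : c ∈ Subgroup.center G := hG (by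
    have := Subgroup.commutator_mem_commutator (Subgroup.mem_top y⁻¹) (Subgroup.mem_top x⁻¹)
    rw [commutator_def]
    simpa [commutatorElement_def, hc] using this)
  have hcomm : ∀ g, g * c = c * g := fun g => Subgroup.mem_center_iff.mp hcc g
  have hpow : ∀ (m : ℕ) (g : G), g * c ^ m = c ^ m * g := by
    intro m g
    exact ((Commute.pow_right (show Commute g c from hcomm g) m))
  have hyx : y * x = x * y * c := by rw [hc]; group
  have hyn : ∀ m : ℕ, y ^ m * x = x * y ^ m * c ^ m := by
    intro m
    induction m with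
    | zero => simp
    | succ m ih =>
      calc y ^ (m + 1) * x = y ^ m * (y * x) := by rw [pow_succ, mul_assoc]
        _ = (y ^ m * x) * y * c := by rw [hyx]; simp only [mul_assoc]
        _ = x * y ^ m * (c ^ m * y) * c := by rw [ih]; simp only [mul_assoc]
        _ = x * y ^ m * (y * c ^ m) * c := by rw [hpow m y]
        _ = x * y ^ (m + 1) * c ^ (m + 1) := by
          rw [pow_succ y, pow_succ c]; simp only [mul_assoc]
  induction n with
  | zero => simp
  | succ n ih =>
    have ht : (n + 1) * (n + 1 - 1) / 2 = n * (n - 1) / 2 + n := Nat.triangle_succ n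
    rw [ht, pow_add c, pow_succ (x * y), ih]
    set T := n * (n - 1) / 2
    calc x ^ n * y ^ n * c ^ T * (x * y)
        = x ^ n * y ^ n * (c ^ T * x) * y := by simp only [mul_assoc]
      _ = x ^ n * y ^ n * (x * c ^ T) * y := by rw [hpow T x]
      _ = x ^ n * (y ^ n * x) * (c ^ T * y) := by simp only [mul_assoc]
      _ = x ^ n * (x * y ^ n * c ^ n) * (y * c ^ T) := by rw [hyn n, hpow T y]
      _ = x ^ n * x * y ^ n * (c ^ n * y) * c ^ T := by simp only [mul_assoc]
      _ = x ^ n * x * y ^ n * (y * c ^ n) * c ^ T := by rw [hpow n y]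
      _ = x ^ (n + 1) * y ^ (n + 1) * (c ^ T * c ^ n) := by
        rw [pow_succ x, pow_succ y]
        have : c ^ n * c ^ T = c ^ T * c ^ n := (Commute.pow_pow (Commute.refl c) n T)
        simp only [mul_assoc]
        rw [this]

end Cfsg.Agent.S0841
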