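import Mathlib
import Cfsg.Statements.S0842
import Cfsg.Agent.Lib.QuatSylow

set_option autoImplicit false
open Cfsg

namespace Cfsg.Agent.S0842

/-- Suppose a Sylow 2-subgroup S of the finite group G is generalized quaternion of order at least 16, and let D be the commutator subgroup of S, C its centralizer and N its normalizer in G. Then there is a subgroup K of odd order, contained in C and normalized by N, with K ⊔ S = N and K ⊔ (S ⊓ C) = C, and C has index 2 in N. -/
theorem result {G : Type*} [Group G] [Finite G] (S : Sylow 2 G) (n : ℕ) (e : (S : Subgroup G) ≃* QuaternionGroup (2 ^ (n + 2))) (D : Subgroup G) (hD : D = ⁅(S : Subgroup G), (S : Subgroup G)⁆) : ∃ K : Subgroup G, Odd (Nat.card K) ∧ K ≤ Subgroup.centralizer (D : Set G) ∧ Subgroup.normalizer (D : Set G) ≤ Subgroup.normalizer (K : Set G) ∧ K ⊔ (S : Subgroup G) = Subgroup.normalizer (D : Set G) ∧ K ⊔ ((S : Subgroup G) ⊓ Subgroup.centralizer (D : Set G)) = Subgroup.centralizer (D : Set G) ∧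 ((Subgroup.centralizer (D : Set G)).subgroupOf (Subgroup.normalizer (D : Set G))).index = 2 := by
  classical
  have hm4 : 4 ≤ 2 ^ (n + 2) := by
    calc 4 = 2 ^ 2 := by norm_num
      _ ≤ 2 ^ (n + 2) := Nat.pow_le_pow_right (by norm_num) (by omega)
  have hd := Cfsg.Agent.Lib.QuatSylow.quatData_of_equiv (S : Subgroup G) (by omega) e
  set a := ((e.symm (QuaternionGroup.a 1) : (S : Subgroup G)) : G) with ha
  set x := ((e.symm (QuaternionGroup.xa 0) : (S : Subgroup G)) : G) with hx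
  have hDeq : D = Subgroup.zpowers (a ^ 2) := by rw [hD, hd.commutator_eq]
  subst hDeq
  have hcx : x * a ^ 2 * x⁻¹ ≠ a ^ 2 := Cfsg.Agent.Lib.QuatSylow.QuatData.x_ne hd (by omega)
  have hc : ∃ e : ℤ, a ^ 2 = a ^ e := ⟨2, by norm_cast⟩
  have hmk : 2 ^ (n + 2) = 2 ^ ((n + 1) + 1) := by ring_nf
  obtain ⟨K, h1, h2, h3, h4, h5, -⟩ := Cfsg.Agent.Lib.QuatSylow.exists_KV hd hmk hc hcx
  obtain ⟨h6, h7, h8, h9⟩ := Cfsg.Agent.Lib.QuatSylow.exists_K_struct hd hmk hc hcx h1 h3 h4 h5
  exact ⟨K, h2, h1, h6, h7, h8, h9⟩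

end Cfsg.Agent.S0842
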