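import Mathlib
import Cfsg.Statements.S0843
import Cfsg.Agent.Lib.QuatSylow

set_option autoImplicit false
open Cfsg

namespace Cfsg.Agent.S0843

/-- Suppose a Sylow 2-subgroup S of the finite group G is generalized quaternion of order at least 16; let D be the commutator subgroup of S and X the set of elements of the centralizer of D whose order is divisible by the order of D. Then D is contained in the cyclic subgroup generated by any element of X; an element of G conjugating some element of X into the centralizer of D normalizes D; and the normalizer of D maps X to itself under conjugation. -/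
theorem result {G : Type*} [Group G] [Finite G] (S : Sylow 2 G) (n : ℕ) (e : (S : Subgroup G) ≃* QuaternionGroup (2 ^ (n + 2))) (D : Subgroup G) (hD : D = ⁅(S : Subgroup G), (S : Subgroup G)⁆) : (∀ y : G, y ∈ Subgroup.centralizer (D : Set G) → Nat.card D ∣ orderOf y → D ≤ Subgroup.zpowers y) ∧ (∀ g y : G, y ∈ Subgroup.centralizer (D : Set G) → Nat.card D ∣ orderOf y → g * y * g⁻¹ ∈ Subgroup.centralizer (D : Set G) → g ∈ Subgroup.normalizer (D : Set G)) ∧ (∀ g y : G, g ∈ Subgroup.normalizer (D : Set G) → y ∈ Subgroup.centralizer (D : Set G) → Nat.card D ∣ orderOf y → g * y * g⁻¹ ∈ Subgroup.centralizer (D : Set G) ∧ Nat.card D ∣ orderOf (g * y * g⁻¹)) := by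
  classical
  have hm4 : 4 ≤ 2 ^ (n + 2) := by
    calc 4 = 2 ^ 2 := by norm_num
      _ ≤ 2 ^ (n + 2) := Nat.pow_le_pow_right (by norm_num) (by omega)
  have hd := Cfsg.Agent.Lib.QuatSylow.quatData_of_equiv (S : Subgroup G) (by omega) e
  set a := ((e.symm (QuaternionGroup.a 1) : (S : Subgroup G)) : G) with ha
  set x := ((e.symm (QuaternionGroup.xa 0) : (S : Subgroup G)) : G) with hx
  have hDeq : D = Subgroup.zpowers (a ^ 2) := by rw [hD, hd.commutator_eq]
  subst hDeq
  have hcx : x * a ^ 2 * x⁻¹ ≠ a ^ 2 := Cfsg.Agent.Lib.QuatSylow.QuatData.x_ne hd (by omega)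
  have hc : ∃ e : ℤ, a ^ 2 = a ^ e := ⟨2, by norm_cast⟩
  have hmk : 2 ^ (n + 2) = 2 ^ ((n + 1) + 1) := by ring_nf
  have key : ∀ y : G, y ∈ Subgroup.centralizer ((Subgroup.zpowers (a ^ 2) : Subgroup G) : Set G) →
      Nat.card (Subgroup.zpowers (a ^ 2)) ∣ orderOf y → a ^ 2 ∈ Subgroup.zpowers y := by
    intro y hy hdvd
    rw [Nat.card_zpowers] at hdvd
    exact Cfsg.Agent.Lib.QuatSylow.mem_zpowers_of_dvd hd hmk hc hcx hy hdvd
  refine ⟨?_, ?_, ?_⟩
  · intro y hy hdvd
    exact Subgroup.zpowers_le.2 (key y hy hdvd)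
  · intro g y hy hdvd hgy
    have h1 := key y hy hdvd
    have h2 : a ^ 2 ∈ Subgroup.zpowers (g * y * g⁻¹) := key _ hgy (by
      rw [Cfsg.Agent.Lib.QuatSylow.orderOf_conj_aux]; exact hdvd)
    have h3 : g * a ^ 2 * g⁻¹ ∈ Subgroup.zpowers (g * y * g⁻¹) := by
      obtain ⟨l, hl⟩ := Subgroup.mem_zpowers_iff.1 h1
      rw [← hl, ← conj_zpow]
      exact zpow_mem (Subgroup.mem_zpowers _) l
    apply Cfsg.Agent.Lib.QuatSylow.mem_NN_of_eq
    apply le_antisymm
    · rw [Subgroup.zpowers_le]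
      apply Cfsg.Agent.Lib.QuatSylow.mem_zpowers_of_orderOf_dvd h2 h3
      rw [Cfsg.Agent.Lib.QuatSylow.orderOf_conj_aux]
    · rw [Subgroup.zpowers_le]
      apply Cfsg.Agent.Lib.QuatSylow.mem_zpowers_of_orderOf_dvd h3 h2
      rw [Cfsg.Agent.Lib.QuatSylow.orderOf_conj_aux]
  · intro g y hg hy hdvd
    refine ⟨Cfsg.Agent.Lib.QuatSylow.conj_mem_LL hg hy, ?_⟩
    rw [Cfsg.Agent.Lib.QuatSylow.orderOf_conj_aux]
    exact hdvd

end Cfsg.Agent.S0843
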