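import Mathlib
import Cfsg.Statements.S0845
import Cfsg.Agent.Lib.QuatBS

set_option autoImplicit false
open Cfsg

namespace Cfsg.Agent.S0845

/-- Suppose a Sylow 2-subgroup S of the finite group G is generalized quaternion of order at least 16. Then G has a normal subgroup M of even order such that G / M is non-abelian, that is, M does not contain the commutator subgroup of G. -/
theorem result {G : Type*} [Group G] [Finite G] (S : Sylow 2 G) (n : ℕ) (e : (S : Subgroup G) ≃* QuaternionGroup (2 ^ (n + 2))) : ∃ M : Subgroup G, M.Normal ∧ Even (Nat.card M) ∧ ¬ commutator G ≤ M := by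
  classical
  letI : Fintype G := Fintype.ofFinite G
  have hm4 : 2 ≤ 2 ^ (n + 2) := by
    calc 2 = 2 ^ 1 := by norm_num
      _ ≤ 2 ^ (n + 2) := Nat.pow_le_pow_right (by norm_num) (by omega)
  have hd := Cfsg.Agent.Lib.QuatSylow.quatData_of_equiv (S : Subgroup G) hm4 e
  obtain ⟨χ₁, χ₂, -, -, h3, -, h5, -⟩ := Cfsg.Agent.Lib.QuatBS.core hd rfl
  have hc : IsCharacter G (χ₁ : G → ℂ) := Cfsg.Agent.Lib.CharBasic.IsIrrCharacter.isCharacter χ₁.2
  refine ⟨Cfsg.Agent.Lib.CharKernel.charKer hc, Cfsg.Agent.Lib.CharKernel.charKer_normal hc, ?_, ?_⟩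
  · have hz : (((e.symm (QuaternionGroup.a 1) : (S : Subgroup G)) : G) ^ (2 ^ (n + 2))) ∈
        Cfsg.Agent.Lib.CharKernel.charKer hc := (Cfsg.Agent.Lib.CharKernel.mem_charKer hc).2 h5
    have h6 : orderOf (⟨_, hz⟩ : Cfsg.Agent.Lib.CharKernel.charKer hc) = 2 := by
      rw [Subgroup.orderOf_mk]
      apply orderOf_eq_prime _ hd.z_ne_one
      rw [_root_.sq, hd.z_mul_z]
    have h7 : 2 ∣ Nat.card (Cfsg.Agent.Lib.CharKernel.charKer hc) := by
      rw [← h6]
      exact orderOf_dvd_natCard _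
    exact even_iff_two_dvd.2 h7
  · intro h
    have h8 := Cfsg.Agent.Lib.QuatBS.degree_one_of_commutator_le χ₁.2 h
    rw [h8] at h3
    obtain ⟨d, hd0, hd1⟩ := Cfsg.Agent.Lib.CharAvg.irr_one_eq χ₂.2
    rw [hd1] at h3
    have h9 : ((d : ℂ)) = 0 := by linear_combination -h3
    have h10 : d = 0 := by exact_mod_cast h9
    omega

end Cfsg.Agent.S0845
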