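import Mathlib
import Cfsg.Statements.S0849
import Cfsg.Agent.Lib.CharInd

set_option autoImplicit false
open Cfsg

namespace Cfsg.Agent.S0849

open Cfsg.Agent.Lib.CharBasic Cfsg.Agent.Lib.CharInd

/-- Let H be a subgroup of a finite group G and S a subset of H that is mapped to itself under conjugation by H, is disjoint from its conjugate by any element outside H, and is closed under inverses. Let φ be a class function of H vanishing on H away from S, and let u, v be involutions of G. Then the sum of the induced function of φ over all products a * b with a conjugate to u and b conjugate to v equals the index of H times the sum of φ (a * b) over such pairs with a and b in H. -/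
theorem result {G : Type*} [Group G] [Fintype G] (H : Subgroup G) (S : Set G) (hSH : S ⊆ H) (hHS : ∀ h ∈ H, ∀ s ∈ S, h * s * h⁻¹ ∈ S) (hTI : ∀ g : G, g ∉ H → ∀ s ∈ S, g * s * g⁻¹ ∉ S) (hinv : ∀ s ∈ S, s⁻¹ ∈ S) (φ : H → ℂ) (hφ : Cfsg.IsClassFunction H φ) (hφS : ∀ x : H, (x : G) ∉ S → φ x = 0) (u v : G) (hu : orderOf u = 2) (hv : orderOf v = 2) : ∑ᶠ p ∈ {p : G × G | IsConj u p.1 ∧ IsConj v p.2}, Cfsg.indFun H φ (p.1 * p.2) = (H.index : ℂ) * ∑ᶠ p ∈ {p : H × H | IsConj u (p.1 : G) ∧ IsConj v (p.2 : G)}, φ (p.1 * p.2) := by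
  classical
  set A : Finset (G × G) := Finset.univ.filter (fun p => IsConj u p.1 ∧ IsConj v p.2) with hA
  set B : Finset (H × H) := Finset.univ.filter
    (fun p => IsConj u (p.1 : G) ∧ IsConj v (p.2 : G)) with hB
  have hAs : {p : G × G | IsConj u p.1 ∧ IsConj v p.2} = (A : Set (G × G)) := by
    ext p; simp [hA]
  have hBs : {p : H × H | IsConj u (p.1 : G) ∧ IsConj v (p.2 : G)} = (B : Set (H × H)) := by
    ext p; simp [hB]
  rw [hAs, hBs, finsum_mem_coe_finset, finsum_mem_coe_finset]
  -- involutions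
  have hinvol : ∀ t w : G, orderOf t = 2 → IsConj t w → w * w = 1 := by
    intro t w ht hw
    obtain ⟨c, hc⟩ := isConj_iff.mp hw
    have : orderOf w = 2 := by
      rw [← hc, ← ht]
      exact (MulAut.conj c).orderOf_eq t
    rw [← sq, ← this]
    exact pow_orderOf_eq_one w
  -- conjugation preserves `A`
  have hsum : ∀ x : G, ∑ p ∈ A, extendByZero H φ (x⁻¹ * (p.1 * p.2) * x) =
      ∑ p ∈ A, extendByZero H φ (p.1 * p.2) := by
    intro x
    refine Finset.sum_bij (fun p _ => (x⁻¹ * p.1 * x, x⁻¹ * p.2 * x)) ?_ ?_ ?_ ?_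
    · intro p hp
      simp only [hA, Finset.mem_filter, Finset.mem_univ, true_and] at hp ⊢
      exact ⟨hp.1.trans (isConj_iff.mpr ⟨x⁻¹, by simp⟩), hp.2.trans (isConj_iff.mpr ⟨x⁻¹, by simp⟩)⟩
    · intro p _ q _ hpq
      simp only [Prod.mk.injEq, mul_left_inj, mul_right_inj] at hpq
      exact Prod.ext hpq.1 hpq.2
    · intro q hq
      refine ⟨(x * q.1 * x⁻¹, x * q.2 * x⁻¹), ?_, ?_⟩
      · simp only [hA, Finset.mem_filter, Finset.mem_univ, true_and] at hq ⊢
        exact ⟨hq.1.trans (isConj_iff.mpr ⟨x, rfl⟩), hq.2.trans (isConj_iff.mpr ⟨x, rfl⟩)⟩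
      · apply Prod.ext <;> simp [mul_assoc]
    · intro p _
      congr 1
      group
  have h1 : ∑ p ∈ A, indFun H φ (p.1 * p.2) =
      (H.index : ℂ) * ∑ p ∈ A, extendByZero H φ (p.1 * p.2) := by
    simp only [indFun_apply]
    rw [← Finset.mul_sum, Finset.sum_comm]
    simp only [hsum, Finset.sum_const, Finset.card_univ, nsmul_eq_mul]
    rw [Fintype.card_eq_nat_card, ← Subgroup.card_mul_index H]
    push_cast
    have hne := natCard_subgroup_ne_zero H
    field_simp
  rw [h1]
  congr 1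
  -- the key claim
  have hkey : ∀ p ∈ A, extendByZero H φ (p.1 * p.2) ≠ 0 → p.1 ∈ H ∧ p.2 ∈ H := by
    intro p hp hne
    simp only [hA, Finset.mem_filter, Finset.mem_univ, true_and] at hp
    have ha := hinvol u p.1 hu hp.1
    have hb := hinvol v p.2 hv hp.2
    have hS : p.1 * p.2 ∈ S := by
      by_contra hn
      by_cases hm : p.1 * p.2 ∈ H
      · rw [extendByZero_of_mem H φ hm] at hne
        exact hne (hφS _ hn)
      · exact hne (extendByZero_of_not_mem H φ hm)
    have hainv : p.1⁻¹ = p.1 := inv_eq_of_mul_eq_one_left ha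
    have hbinv : p.2⁻¹ = p.2 := inv_eq_of_mul_eq_one_left hb
    have hsinv : (p.1 * p.2)⁻¹ = p.2 * p.1 := by
      rw [mul_inv_rev, hainv, hbinv]
    constructor
    · by_contra hn
      apply hTI p.1 hn _ hS
      have : p.1 * (p.1 * p.2) * p.1⁻¹ = p.2 * p.1 := by
        rw [hainv, ← mul_assoc, ha, one_mul]
      rw [this, ← hsinv]
      exact hinv _ hS
    · by_contra hn
      apply hTI p.2 hn _ hS
      have : p.2 * (p.1 * p.2) * p.2⁻¹ = p.2 * p.1 := by
        rw [hbinv, mul_assoc, mul_assoc, hb, mul_one]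
      rw [this, ← hsinv]
      exact hinv _ hS
  symm
  have h2 : ∑ p ∈ A, extendByZero H φ (p.1 * p.2) =
      ∑ p ∈ A.filter (fun p => p.1 ∈ H ∧ p.2 ∈ H), extendByZero H φ (p.1 * p.2) := by
    symm
    apply Finset.sum_filter_of_ne
    intro p hp hne
    exact hkey p hp hne
  rw [h2]
  refine Finset.sum_bij (fun p _ => ((p.1 : G), (p.2 : G))) ?_ ?_ ?_ ?_
  · intro p hp
    simp only [hB, Finset.mem_filter, Finset.mem_univ, true_and] at hp
    simp only [hA, Finset.mem_filter, Finset.mem_univ, true_and]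
    exact ⟨hp, p.1.2, p.2.2⟩
  · intro p _ q _ hpq
    simp only [Prod.mk.injEq] at hpq
    exact Prod.ext (Subtype.ext hpq.1) (Subtype.ext hpq.2)
  · intro q hq
    simp only [hA, Finset.mem_filter, Finset.mem_univ, true_and] at hq
    refine ⟨(⟨q.1, hq.2.1⟩, ⟨q.2, hq.2.2⟩), ?_, rfl⟩
    simp only [hB, Finset.mem_filter, Finset.mem_univ, true_and]
    exact hq.1
  · intro p _
    have := extendByZero_coe H φ (p.1 * p.2)
    rw [← this]
    rfl

end Cfsg.Agent.S0849
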