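import Mathlib
import Cfsg.Statements.S0850
import Cfsg.Agent.Lib.CharInd

set_option autoImplicit false
open Cfsg

namespace Cfsg.Agent.S0850

open Cfsg.Agent.Lib.CharBasic Cfsg.Agent.Lib.CharInd

/-- No element of `N` outside `K` is conjugate into `K`. -/
theorem no_conj {G : Type*} [Group G] [Finite G] (K : Subgroup G)
    (hC : ∀ k ∈ K, k ≠ 1 → Subgroup.centralizer ({k} : Set G) ≤ K) :
    ∀ x ∈ Subgroup.normalizer (K : Set G), x ∉ K → ∀ g : G, g * x * g⁻¹ ∉ K := by
  classical
  intro x hxN hxK g hy
  have hx1 : x ≠ 1 := fun h => hxK (h ▸ K.one_mem)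
  have hn : orderOf x ≠ 1 := by rwa [Ne, orderOf_eq_one_iff]
  obtain ⟨q, hq, hqn⟩ := Nat.exists_prime_and_dvd hn
  haveI : Fact q.Prime := ⟨hq⟩
  set z := x ^ (orderOf x / q) with hz
  have hzord : orderOf z = q := orderOf_pow_orderOf_div (orderOf_pos x).ne' hqn
  have hzN : z ∈ Subgroup.normalizer (K : Set G) := Subgroup.pow_mem _ hxN _
  have hz1 : z ≠ 1 := by
    intro h
    rw [h, orderOf_one] at hzord
    exact hq.one_lt.ne hzord
  have hzK : z ∉ K := by
    intro h
    apply hxK
    apply hC z h hz1
    rw [Subgroup.mem_centralizer_singleton_iff]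
    rw [hz]
    exact (Commute.pow_self x _).eq.symm
  -- the conjugate of `z` lies in `K` and has order `q`
  have hyz : g * z * g⁻¹ ∈ K := by
    have : g * z * g⁻¹ = (g * x * g⁻¹) ^ (orderOf x / q) := by
      rw [hz, conj_pow]
    rw [this]
    exact K.pow_mem hy _
  have hqK : q ∣ Nat.card K := by
    have h1 : orderOf (⟨g * z * g⁻¹, hyz⟩ : K) = q := by
      rw [Subgroup.orderOf_mk]
      have : orderOf (g * z * g⁻¹) = orderOf z := (MulAut.conj g).orderOf_eq z
      rw [this, hzord]
    rw [← h1]
    exact orderOf_dvd_natCard _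
  -- action of the `q`-group generated by `z` on `K`
  have hZq : IsPGroup q (Subgroup.zpowers z) := by
    apply IsPGroup.of_card (n := 1)
    rw [Nat.card_zpowers, hzord, pow_one]
  have hmem : ∀ s : Subgroup.zpowers z, (s : G) ∈ Subgroup.normalizer (K : Set G) := by
    intro s
    have : Subgroup.zpowers z ≤ Subgroup.normalizer (K : Set G) := by
      rw [Subgroup.zpowers_le]; exact hzN
    exact this s.2
  letI act : MulAction (Subgroup.zpowers z) K :=
    { smul := fun s k => ⟨(s : G) * k * (s : G)⁻¹, (Subgroup.mem_normalizer_iff.mp (hmem s) k).mp k.2⟩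
      one_smul := fun k => by
        apply Subtype.ext
        show ((1 : Subgroup.zpowers z) : G) * (k : G) * ((1 : Subgroup.zpowers z) : G)⁻¹ = k
        simp
      mul_smul := fun a b k => by
        apply Subtype.ext
        show ((a * b : Subgroup.zpowers z) : G) * (k : G) * ((a * b : Subgroup.zpowers z) : G)⁻¹ =
          (a : G) * ((b : G) * (k : G) * (b : G)⁻¹) * (a : G)⁻¹
        simp only [Subgroup.coe_mul, mul_inv_rev]
        group }
  have hfix : Nat.card (MulAction.fixedPoints (Subgroup.zpowers z) K) = 1 := by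
    rw [Nat.card_eq_one_iff_unique]
    refine ⟨⟨?_⟩, ⟨⟨1, ?_⟩⟩⟩
    · rintro ⟨k, hk⟩ ⟨k', hk'⟩
      have key : ∀ k : K, k ∈ MulAction.fixedPoints (Subgroup.zpowers z) K → k = 1 := by
        intro k hk
        by_contra hne
        have h1 := hk ⟨z, Subgroup.mem_zpowers z⟩
        have h2 : z * (k : G) * z⁻¹ = k := congrArg (fun y : K => (y : G)) h1
        apply hzK
        apply hC k k.2 (fun h => hne (Subtype.ext h))
        rw [Subgroup.mem_centralizer_singleton_iff]
        calc z * (k : G) = z * (k : G) * z⁻¹ * z := by group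
          _ = k * z := by rw [h2]
      apply Subtype.ext
      show k = k'
      rw [key k hk, key k' hk']
    · intro s
      apply Subtype.ext
      show (s : G) * ((1 : K) : G) * (s : G)⁻¹ = ((1 : K) : G)
      simp
  have hmod := hZq.card_modEq_card_fixedPoints K
  rw [hfix] at hmod
  have h1 : Nat.card K % q = 0 := Nat.mod_eq_zero_of_dvd hqK
  have h2 : Nat.card K % q = 1 % q := hmod
  rw [h1, Nat.mod_eq_of_lt hq.one_lt] at h2
  exact zero_ne_one h2

/-- The computation of the induced function. -/
theorem part_b {G : Type*} [Group G] [Fintype G] (K N : Subgroup G)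
    (hTI : ∀ g : G, g ∉ N → ∀ k ∈ K, g * k * g⁻¹ ∈ K → k = 1)
    (hA : ∀ x ∈ N, x ∉ K → ∀ g : G, g * x * g⁻¹ ∉ K)
    (ϑ : N → ℂ) (hcl : Cfsg.IsClassFunction N ϑ) (h0 : ∀ x : N, (x : G) ∉ K → ϑ x = 0)
    (h1 : ϑ 1 = 0) (x : N) : Cfsg.indFun N ϑ x = ϑ x := by
  classical
  have hext0 : ∀ y : G, y ∉ K → extendByZero N ϑ y = 0 := by
    intro y hy
    by_cases hyN : y ∈ N
    · rw [extendByZero_of_mem N ϑ hyN]
      exact h0 ⟨y, hyN⟩ hy
    · exact extendByZero_of_not_mem N ϑ hyN
  rw [indFun_apply]
  by_cases hxK : (x : G) ∈ K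
  · by_cases hx1 : (x : G) = 1
    · have hx : x = 1 := Subtype.ext hx1
      subst hx
      have : ∀ g : G, extendByZero N ϑ (g⁻¹ * ((1 : N) : G) * g) = 0 := by
        intro g
        have h2 : g⁻¹ * ((1 : N) : G) * g = 1 := by simp
        rw [h2, extendByZero_of_mem N ϑ N.one_mem]
        exact h1
      simp only [this, Finset.sum_const_zero, mul_zero]
      exact h1.symm
    · have hterm : ∀ g : G, extendByZero N ϑ (g⁻¹ * (x : G) * g) =
          if g ∈ N then ϑ x else 0 := by
        intro g
        split_ifs with hg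
        · have hmem : g⁻¹ * (x : G) * g ∈ N :=
            N.mul_mem (N.mul_mem (N.inv_mem hg) x.2) hg
          rw [extendByZero_of_mem N ϑ hmem]
          have := hcl x ⟨g⁻¹, N.inv_mem hg⟩
          have h3 : (⟨g⁻¹, N.inv_mem hg⟩ * x * (⟨g⁻¹, N.inv_mem hg⟩ : N)⁻¹ : N) =
              ⟨g⁻¹ * (x : G) * g, hmem⟩ := by
            ext; simp
          rw [← h3]
          exact this
        · apply hext0
          intro hmem
          have hg' : g⁻¹ ∉ N := fun h => hg (by simpa using N.inv_mem h)
          exact hx1 (hTI g⁻¹ hg' x hxK (by simpa using hmem))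
      simp only [hterm]
      rw [Finset.sum_ite, Finset.sum_const_zero, add_zero, Finset.sum_const, nsmul_eq_mul]
      have hcard : ((Finset.univ.filter (· ∈ N)).card : ℂ) = (Nat.card N : ℂ) := by
        rw [Nat.card_eq_fintype_card, Fintype.card_subtype]
      rw [hcard]
      have hne := natCard_subgroup_ne_zero N
      field_simp
  · have : ∀ g : G, extendByZero N ϑ (g⁻¹ * (x : G) * g) = 0 := by
      intro g
      apply hext0
      have := hA x x.2 hxK g⁻¹
      simpa using this
    simp only [this, Finset.sum_const_zero, mul_zero]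
    exact (h0 x hxK).symm

/-- Let K be a subgroup of the finite group G that meets each conjugate by an element outside its normalizer N trivially, is properly contained in N, and contains the centralizer of each of its non-identity elements (a T.I. subgroup with Frobenius normalizer). Then no element of N outside K is conjugate in G to an element of K, and for every class function ϑ of N that vanishes on N away from K and at the identity, the function induced from ϑ to G agrees with ϑ on all of N. -/
theorem result {G : Type*} [Group G] [Fintype G] (K : Subgroup G) (hTI : ∀ g : G, g ∉ Subgroup.normalizer (K : Set G) → ∀ k ∈ K, g * k * g⁻¹ ∈ K → k = 1) (hlt : K < Subgroup.normalizer (K : Set G)) (hC : ∀ k ∈ K, k ≠ 1 → Subgroup.centralizer ({k} : Set G) ≤ K) : (∀ x ∈ Subgroup.normalizer (K : Set G), x ∉ K → ∀ g : G, g * x * g⁻¹ ∉ K) ∧ ∀ (ϑ : Subgroup.normalizer (K : Set G) → ℂ), Cfsg.IsClassFunction (Subgroup.normalizer (K : Set G)) ϑ → (∀ x : Subgroup.normalizer (K : Set G), (x : G) ∉ K → ϑ x = 0) → ϑ 1 = 0 → ∀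 x : Subgroup.normalizer (K : Set G), Cfsg.indFun (Subgroup.normalizer (K : Set G)) ϑ x = ϑ x := by
  have hA := no_conj K hC
  exact ⟨hA, fun ϑ hcl h0 h1 x => part_b K _ hTI hA ϑ hcl h0 h1 x⟩

end Cfsg.Agent.S0850
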