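import Mathlib
import Cfsg.Statements.S0851
import Cfsg.Agent.S0170
import Cfsg.Agent.Lib.FrobNorm
import Cfsg.Agent.Lib.Gagola2

set_option autoImplicit false
set_option linter.style.haveILetI false
set_option linter.unusedSectionVars false
open Cfsg

namespace Cfsg.Agent.S0851

open Cfsg.Agent.Lib
open Cfsg.Agent.Lib.CharBasic Cfsg.Agent.Lib.CharInd Cfsg.Agent.Lib.CharKernel
open Cfsg.Agent.Lib.FrobNorm
open scoped ComplexConjugate

section Abelian

variable {M : Type*} [Group M] [Fintype M] (K : Subgroup M) [hN : K.Normal]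

theorem deg_eq (hC : ∀ k ∈ K, k ≠ 1 → ∀ g : M, g * k = k * g → g ∈ K)
    (hab : ∀ a ∈ K, ∀ b ∈ K, a * b = b * a) {χ : M → ℂ} (hχ : IsIrrCharacter M χ)
    (hrel : Relevant K χ) : χ 1 = (K.index : ℂ) := by
  obtain ⟨θ, hθ, -, rfl⟩ := exists_ind K hC hχ hrel
  have h1 : IsMulCommutative K :=
    ⟨⟨fun a b => Subtype.ext (hab a a.2 b b.2)⟩⟩
  rw [indFun_one, Gagola2.irr_one_of_comm hθ, mul_one]

open scoped Classical in
theorem card_of_unique (hC : ∀ k ∈ K, k ≠ 1 → ∀ g : M, g * k = k * g → g ∈ K)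
    (hab : ∀ a ∈ K, ∀ b ∈ K, a * b = b * a) (χ : IrrCharacter M) (hχ : Relevant K χ)
    (huniq : ∀ ξ : IrrCharacter M, Relevant K ξ → ξ = χ) : Nat.card K = K.index + 1 := by
  have h4 := sum_ker_deg_sq K
  have h5 := sum_charDegree_sq (G := M)
  have hidx : 0 < K.index := Nat.pos_of_ne_zero Subgroup.index_ne_zero_of_finite
  have hdeg : charDegree (χ : M → ℂ) = K.index := by
    have h1 := deg_eq K hC hab χ.2 hχ
    rw [one_eq_charDegree (IsIrrCharacter.isCharacter χ.2)] at h1
    exact_mod_cast h1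
  have hrelχ : ¬ ∀ n ∈ K, (χ : M → ℂ) n = (χ : M → ℂ) 1 := by
    obtain ⟨k, hk, hk'⟩ := hχ
    exact fun h => hk' (h k hk)
  set A : ℕ := ∑ χ : IrrCharacter M, (if ∀ n ∈ K, (χ : M → ℂ) n = (χ : M → ℂ) 1 then
        (charDegree (χ : M → ℂ)) ^ 2 else 0) with hA
  have hsum : A + K.index ^ 2 = Nat.card M := by
    rw [← h5, ← hdeg, ← Finset.add_sum_erase _ _ (Finset.mem_univ χ), hA,
      ← Finset.add_sum_erase _ _ (Finset.mem_univ χ), if_neg hrelχ, zero_add, add_comm]
    congr 1
    refine Finset.sum_congr rfl fun ξ hξ => ?_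
    rw [if_pos]
    by_contra hcon
    push Not at hcon
    obtain ⟨k, hk, hk'⟩ := hcon
    exact (Finset.mem_erase.1 hξ).1 (huniq ξ ⟨k, hk, hk'⟩)
  have hM := Subgroup.card_mul_index K
  have hKpos : 0 < Nat.card K := Nat.card_pos
  have hAe : A = K.index := by
    apply Nat.eq_of_mul_eq_mul_left hKpos
    rw [h4, hM]
  rw [hAe, ← hM] at hsum
  have h6 : K.index * (K.index + 1) = K.index * Nat.card K := by
    rw [mul_comm K.index (Nat.card K), ← hsum]
    ring
  exact (Nat.eq_of_mul_eq_mul_left hidx h6).symm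

theorem elementary (hC : ∀ k ∈ K, k ≠ 1 → ∀ g : M, g * k = k * g → g ∈ K)
    (hab : ∀ a ∈ K, ∀ b ∈ K, a * b = b * a) (hcard : Nat.card K = K.index + 1) :
    ∃ p : ℕ, p.Prime ∧ ∀ a ∈ K, a ^ p = 1 := by
  classical
  letI : Fintype K := Fintype.ofFinite _
  have hidx : 0 < K.index := Nat.pos_of_ne_zero Subgroup.index_ne_zero_of_finite
  have hK1 : Nat.card K ≠ 1 := by omega
  let p := (Nat.card K).minFac
  have hp : p.Prime := Nat.minFac_prime hK1
  haveI : Fact p.Prime := ⟨hp⟩
  obtain ⟨x, hx⟩ := exists_prime_orderOf_dvd_card' (G := K) p (Nat.minFac_dvd _)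
  have hx1 : x ≠ 1 := by
    rintro rfl
    rw [orderOf_one] at hx
    exact hp.one_lt.ne hx
  have hxG : (x : M) ≠ 1 := fun h => hx1 (Subtype.ext h)
  have hxp : (x : M) ^ p = 1 := by
    have h1 := pow_orderOf_eq_one x
    rw [hx] at h1
    exact congrArg Subtype.val h1
  -- the conjugation map on cosets
  let φ : M ⧸ K → {a : K // a ≠ 1} := fun q => Quotient.liftOn' q
    (fun g => (⟨⟨g * x * g⁻¹, hN.conj_mem _ x.2 g⟩, fun h => hxG (by
      have h1 := congrArg Subtype.val h
      simpa using h1)⟩ : {a : K // a ≠ 1}))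
    (by
      intro a b hab'
      have h1 : a⁻¹ * b ∈ K := QuotientGroup.leftRel_apply.1 hab'
      apply Subtype.ext
      apply Subtype.ext
      show a * x * a⁻¹ = b * x * b⁻¹
      have h2 := hab _ h1 _ x.2
      have h3 : b = a * (a⁻¹ * b) := by group
      rw [h3]
      calc a * x * a⁻¹ = a * ((a⁻¹ * b) * x * (a⁻¹ * b)⁻¹) * a⁻¹ := by
            rw [h2]
            group
        _ = a * (a⁻¹ * b) * x * (a * (a⁻¹ * b))⁻¹ := by group)
  have hφ : ∀ g : M, φ (g : M ⧸ K) = ⟨⟨g * x * g⁻¹, hN.conj_mem _ x.2 g⟩, fun h => hxG (by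
      have h1 := congrArg Subtype.val h
      simpa using h1)⟩ := fun g => rfl
  have hinj : Function.Injective φ := by
    intro a b hab'
    induction a using QuotientGroup.induction_on with
    | H a =>
    induction b using QuotientGroup.induction_on with
    | H b =>
    rw [hφ, hφ] at hab'
    have h1 : a * x * a⁻¹ = b * x * b⁻¹ := congrArg (fun z : {a : K // a ≠ 1} => ((z.1 : K) : M)) hab'
    rw [QuotientGroup.eq]
    apply hC x x.2 hxG
    calc a⁻¹ * b * x = a⁻¹ * (b * x * b⁻¹) * b := by group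
      _ = a⁻¹ * (a * x * a⁻¹) * b := by rw [h1]
      _ = x * (a⁻¹ * b) := by group
  have hsurj : Function.Surjective φ := by
    apply (Function.Injective.bijective_of_nat_card_le hinj _).2
    have h1 := Fintype.card_subtype_compl (fun a : K => a = 1)
    rw [Fintype.card_subtype_eq] at h1
    have h2 : Nat.card {a : K // a ≠ 1} = Fintype.card K - 1 := by
      rw [Nat.card_eq_fintype_card, ← h1]
    rw [h2, ← Nat.card_eq_fintype_card, hcard]
    exact le_of_eq rfl
  refine ⟨p, hp, fun a ha => ?_⟩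
  by_cases ha1 : a = 1
  · rw [ha1, one_pow]
  obtain ⟨q, hq⟩ := hsurj ⟨⟨a, ha⟩, fun h => ha1 (congrArg Subtype.val h)⟩
  induction q using QuotientGroup.induction_on with
  | H g =>
  rw [hφ] at hq
  have h1 : g * x * g⁻¹ = a := congrArg (fun z : {a : K // a ≠ 1} => ((z.1 : K) : M)) hq
  rw [← h1, conj_pow, hxp]
  group

end Abelian

/-- Let K be a subgroup of the finite group G that meets each conjugate by an element outside its normalizer N trivially, is properly contained in N, and contains the centralizer of each of its non-identity elements (a T.I. subgroup with Frobenius normalizer). Suppose K is abelian, let e be the index of K in N, and call an irreducible character of N relevant when it takes at some element of K a value different from its degree. Then either there is exactly one relevant character and K is an elementary abelian p-group of order e + 1 for some prime p, or there are a sign ε and an injective map f from the relevant characters to the irreducible characters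 of G such that inducing χ - ξ to G gives ε (f χ - f ξ) for all relevant χ and ξ. -/
theorem result {G : Type*} [Group G] [Fintype G] (K : Subgroup G) (hTI : ∀ g : G, g ∉ Subgroup.normalizer (K : Set G) → ∀ k ∈ K, g * k * g⁻¹ ∈ K → k = 1) (hlt : K < Subgroup.normalizer (K : Set G)) (hC : ∀ k ∈ K, k ≠ 1 → Subgroup.centralizer ({k} : Set G) ≤ K) (hab : ∀ a ∈ K, ∀ b ∈ K, a * b = b * a) : (Nat.card {χ : Cfsg.IrrCharacter (Subgroup.normalizer (K : Set G)) // ∃ k : Subgroup.normalizer (K : Set G), (k : G) ∈ K ∧ (χ : ↥(Subgroup.normalizer (K : Set G)) → ℂ) k ≠ (χ : ↥(Subgroup.normalizer (K : Set G)) → ℂ) 1} = 1 ∧ ∃ p : ℕ, p.Prime ∧ Cfsg.IsElementaryAbelian p K ∧ Nat.card K = (K.subgroupOf (Subgroup.normalizer (K : Set G))).index + 1) ∨ ∃ (ε : ℂ) (f : {χ : Cfsg.IrrCharacter (Subgroup.normalizer (K : Set G)) // ∃ k : Subgroup.normalizer (K : Set G), (k : G) ∈ K ∧ (χ : ↥(Subgroup.normalizer (K : Set G)) → ℂ) k ≠ (χ : ↥(Subgroup.normalizer (K : Set G)) → ℂ) 1} → Cfsg.IrrCharacter G),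 (ε = 1 ∨ ε = -1) ∧ Function.Injective f ∧ ∀ χ ξ, Cfsg.indFun (Subgroup.normalizer (K : Set G)) ((χ.1 : ↥(Subgroup.normalizer (K : Set G)) → ℂ) - (ξ.1 : ↥(Subgroup.normalizer (K : Set G)) → ℂ)) = ε • ((f χ : G → ℂ) - (f ξ : G → ℂ)) := by
  classical
  letI : Fintype (Subgroup.normalizer (K : Set G)) := Fintype.ofFinite _
  have hKN : K ≤ Subgroup.normalizer (K : Set G) := hlt.le
  let K' : Subgroup (Subgroup.normalizer (K : Set G)) := K.subgroupOf (Subgroup.normalizer (K : Set G))
  haveI hK'n : K'.Normal := by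
    constructor
    intro n hn g
    rw [Subgroup.mem_subgroupOf] at hn ⊢
    exact (Subgroup.mem_normalizer_iff.1 g.2 _).1 hn
  have hC' : ∀ k ∈ K', k ≠ 1 → ∀ g : Subgroup.normalizer (K : Set G), g * k = k * g → g ∈ K' := by
    intro k hk hk1 g hg
    rw [Subgroup.mem_subgroupOf]
    apply hC _ (Subgroup.mem_subgroupOf.1 hk) (fun h => hk1 (Subtype.ext h))
    rw [Subgroup.mem_centralizer_iff]
    intro y hy
    rw [Set.mem_singleton_iff] at hy
    subst hy
    exact (congrArg Subtype.val hg).symm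
  have hab' : ∀ a ∈ K', ∀ b ∈ K', a * b = b * a := by
    intro a ha b hb
    exact Subtype.ext (hab _ (Subgroup.mem_subgroupOf.1 ha) _ (Subgroup.mem_subgroupOf.1 hb))
  have hrel : ∀ {χ : Subgroup.normalizer (K : Set G) → ℂ},
      (∃ k : Subgroup.normalizer (K : Set G), (k : G) ∈ K ∧ χ k ≠ χ 1) → Relevant K' χ := by
    rintro χ ⟨k, hk, hne⟩
    exact ⟨k, Subgroup.mem_subgroupOf.2 hk, hne⟩
  have hrel' : ∀ {χ : Subgroup.normalizer (K : Set G) → ℂ}, Relevant K' χ →
      ∃ k : Subgroup.normalizer (K : Set G), (k : G) ∈ K ∧ χ k ≠ χ 1 := by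
    rintro χ ⟨k, hk, hne⟩
    exact ⟨k, Subgroup.mem_subgroupOf.1 hk, hne⟩
  set R := {χ : Cfsg.IrrCharacter (Subgroup.normalizer (K : Set G)) // ∃ k : Subgroup.normalizer (K : Set G), (k : G) ∈ K ∧ (χ : ↥(Subgroup.normalizer (K : Set G)) → ℂ) k ≠ (χ : ↥(Subgroup.normalizer (K : Set G)) → ℂ) 1} with hR
  have hcases : Nat.card R = 0 ∨ Nat.card R = 1 ∨ 2 ≤ Nat.card R := by omega
  rcases hcases with h0 | h1 | h2
  · -- no relevant character
    right
    haveI : IsEmpty R := by
      rw [Nat.card_eq_zero] at h0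
      rcases h0 with h0 | h0
      · exact h0
      · exact absurd (inferInstance : Finite R) (not_finite_iff_infinite.2 h0)
    exact ⟨1, isEmptyElim, Or.inl rfl, fun a => isEmptyElim a, fun a => isEmptyElim a⟩
  · -- exactly one
    left
    refine ⟨h1, ?_⟩
    obtain ⟨⟨χ, hχ⟩, huniq⟩ := (Nat.card_eq_one_iff_unique.1 h1).2.elim fun x =>
      (⟨x, fun y => (Nat.card_eq_one_iff_unique.1 h1).1.elim y x⟩ : ∃ x : R, ∀ y : R, y = x)
    have hcard := card_of_unique K' hC' hab' χ (hrel hχ) (fun ξ hξ =>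
      congrArg Subtype.val (huniq ⟨ξ, hrel' hξ⟩))
    obtain ⟨p, hp, hpow⟩ := elementary K' hC' hab' hcard
    refine ⟨p, hp, ⟨⟨⟨fun a b => Subtype.ext (hab a a.2 b b.2)⟩⟩, fun a ha => ?_⟩, ?_⟩
    · have h3 := hpow ⟨a, hKN ha⟩ (Subgroup.mem_subgroupOf.2 ha)
      exact congrArg Subtype.val h3
    · rw [← hcard]
      exact Nat.card_congr (Subgroup.subgroupOfEquivOfLe hKN).toEquiv.symm
  · -- at least two
    right
    set n := Nat.card R with hn
    let e : R ≃ Fin n := Finite.equivFin R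
    have hdeg : ∀ χ : R, ((χ.1 : IrrCharacter (Subgroup.normalizer (K : Set G))) : Subgroup.normalizer (K : Set G) → ℂ) 1 = (K'.index : ℂ) := fun χ =>
      deg_eq K' hC' hab' χ.1.2 (hrel χ.2)
    obtain ⟨ε, hε, θ, hθ, hinj, hdiff⟩ := Cfsg.Agent.S0170.result (K : Set G) hKN hTI n h2
      (fun i => (((e.symm i).1 : IrrCharacter (Subgroup.normalizer (K : Set G))) : Subgroup.normalizer (K : Set G) → ℂ))
      (fun i => (e.symm i).1.2)
      (by
        intro i j hij
        apply e.symm.injective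
        exact Subtype.ext (Subtype.ext hij))
      (by
        intro i x hx
        exact vanish K' hC' (e.symm i).1.2 (hrel (e.symm i).2)
          (fun h => hx (Subgroup.mem_subgroupOf.1 h)))
      (by
        intro i j
        show (((e.symm i).1 : IrrCharacter (Subgroup.normalizer (K : Set G))) : Subgroup.normalizer (K : Set G) → ℂ) 1 = (((e.symm j).1 : IrrCharacter (Subgroup.normalizer (K : Set G))) : Subgroup.normalizer (K : Set G) → ℂ) 1
        rw [hdeg, hdeg])
    refine ⟨ε, fun χ => ⟨θ (e χ), hθ _⟩, hε, ?_, ?_⟩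
    · intro a b hab2
      exact e.injective (hinj (congrArg Subtype.val hab2))
    · intro χ ξ
      have h3 := hdiff (e χ) (e ξ)
      simp only [Equiv.symm_apply_apply] at h3
      rw [indFun_sub]
      exact h3

end Cfsg.Agent.S0851
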