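import Mathlib
import Cfsg.Statements.S0853
import Cfsg.Agent.Lib.FrobNorm
import Cfsg.Agent.Lib.CoherenceBasic
import Cfsg.Agent.Lib.IndFunBasic

set_option autoImplicit false
set_option linter.style.haveILetI false
set_option linter.unusedSectionVars false
open Cfsg

namespace Cfsg.Agent.S0853

open Cfsg.Agent.Lib
open Cfsg.Agent.Lib.CharBasic Cfsg.Agent.Lib.CharInd Cfsg.Agent.Lib.CharKernel Cfsg.Agent.Lib.GenChar
open Cfsg.Agent.Lib.FrobNorm Cfsg.Agent.Lib.CoherenceBasic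
open scoped ComplexConjugate

/-- The inner product with a difference. -/
theorem inner_sub_right {X : Type*} [Group X] [Fintype X] (f a b : X → ℂ) :
    classInner f (a - b) = classInner f a - classInner f b := by
  unfold classInner
  simp only [Pi.sub_apply, map_sub, mul_sub, Finset.sum_sub_distrib]

theorem inner_sub_left {X : Type*} [Group X] [Fintype X] (f a b : X → ℂ) :
    classInner (a - b) f = classInner a f - classInner b f := by
  unfold classInner
  simp only [Pi.sub_apply, sub_mul, Finset.sum_sub_distrib, mul_sub]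

section Coh

variable {G : Type*} [Group G] [Fintype G] (K : Subgroup G)
  [Fintype ↥(Subgroup.normalizer (K : Set G))]

local notation "𝒩" => Subgroup.normalizer (K : Set G)
local notation "𝒦" => K.subgroupOf (Subgroup.normalizer (K : Set G))

variable (hTI : ∀ g : G, g ∉ Subgroup.normalizer (K : Set G) → ∀ k ∈ K, g * k * g⁻¹ ∈ K → k = 1)
  (hC : ∀ k ∈ K, k ≠ 1 → Subgroup.centralizer ({k} : Set G) ≤ K)
  (S : Set (↥(Subgroup.normalizer (K : Set G)) → ℂ))
  (hS : S = {χ : ↥(Subgroup.normalizer (K : Set G)) → ℂ | Cfsg.IsIrrCharacter ↥(Subgroup.normalizer (K : Set G)) χ ∧ ∃ k : ↥(Subgroup.normalizer (K : Set G)), (k : G) ∈ K ∧ χ k ≠ χ 1})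
  (star : (↥(Subgroup.normalizer (K : Set G)) → ℂ) → (G → ℂ))
  (hstar : Cfsg.IsLinearIsometryOn (Cfsg.zspan S) star)
  (hext : ∀ α ∈ Cfsg.zspanOn S ({1}ᶜ : Set ↥(Subgroup.normalizer (K : Set G))), star α = Cfsg.indFun (Subgroup.normalizer (K : Set G)) α)

include hC in
theorem hC' : ∀ k ∈ 𝒦, k ≠ 1 → ∀ g : 𝒩, g * k = k * g → g ∈ 𝒦 := by
  intro k hk hk1 g hg
  rw [Subgroup.mem_subgroupOf]
  apply hC _ (Subgroup.mem_subgroupOf.1 hk) (fun h => hk1 (Subtype.ext h))
  rw [Subgroup.mem_centralizer_iff]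
  intro y hy
  rw [Set.mem_singleton_iff] at hy
  subst hy
  exact (congrArg Subtype.val hg).symm

include hS in
theorem mem_S_iff {χ : 𝒩 → ℂ} : χ ∈ S ↔ IsIrrCharacter 𝒩 χ ∧ Relevant 𝒦 χ := by
  rw [hS]
  constructor
  · rintro ⟨h1, k, hk, hne⟩
    exact ⟨h1, k, Subgroup.mem_subgroupOf.2 hk, hne⟩
  · rintro ⟨h1, k, hk, hne⟩
    exact ⟨h1, k, Subgroup.mem_subgroupOf.1 hk, hne⟩

include hS in
theorem alpha_mem {a b : 𝒩 → ℂ} (ha : a ∈ S) (hb : b ∈ S) :
    (charDegree b : ℤ) • a - (charDegree a : ℤ) • b ∈ zspanOn S ({1}ᶜ : Set 𝒩) := by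
  rw [mem_zspanOn_compl_one]
  refine ⟨zspan_sub (zspan_zsmul (mem_zspan ha) _) (zspan_zsmul (mem_zspan hb) _), ?_⟩
  have ha' := ((mem_S_iff K S hS).1 ha).1
  have hb' := ((mem_S_iff K S hS).1 hb).1
  simp only [Pi.sub_apply, Pi.smul_apply]
  simp only [zsmul_eq_mul, Int.cast_natCast]
  rw [one_eq_charDegree (IsIrrCharacter.isCharacter ha'), one_eq_charDegree (IsIrrCharacter.isCharacter hb')]
  ring

include hC hS in
theorem perp_const {f : 𝒩 → ℂ} (hf : IsClassFunction 𝒩 f)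
    (h : ∀ α ∈ zspanOn S ({1}ᶜ : Set 𝒩), classInner f α = 0) :
    ∃ c : ℂ, ∀ k : 𝒩, (k : G) ∈ K → k ≠ 1 → f k = c := by
  obtain ⟨c, hc⟩ := const_of_perp 𝒦 (hf := hf) (by
    intro ξ ξ' hξ hξ'
    have h1 := h _ (alpha_mem K S hS ((mem_S_iff K S hS).2 ⟨ξ.2, hξ⟩) ((mem_S_iff K S hS).2 ⟨ξ'.2, hξ'⟩))
    rw [inner_sub_right, classInner_zsmul_right, classInner_zsmul_right] at h1
    push_cast at h1
    linear_combination h1)
  exact ⟨c, fun k hk hk1 => hc k (Subgroup.mem_subgroupOf.2 hk) hk1⟩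

include hC hS hstar hext in
theorem const_star {χ : 𝒩 → ℂ} (hχ : χ ∈ S) :
    ∃ c : ℂ, ∀ k : 𝒩, (k : G) ∈ K → k ≠ 1 → star χ k - χ k = c := by
  have hgen := iso_gen hstar (mem_zspan hχ)
  have hχ' := ((mem_S_iff K S hS).1 hχ).1
  have hcl := isGen_isClassFunction hgen
  have hcl' := isClassFunction_of_isCharacter (IsIrrCharacter.isCharacter hχ')
  apply perp_const K hC S hS (f := fun n : 𝒩 => star χ n - χ n)
  · intro g h
    show star χ ((h * g * h⁻¹ : 𝒩) : G) - χ (h * g * h⁻¹) = star χ (g : G) - χ g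
    rw [hcl' g h]
    congr 1
    exact hcl (g : G) (h : G)
  · intro α hα
    have e2 := iso_inner hstar hα.1 (mem_zspan hχ)
    rw [hext α hα, frobenius 𝒩 α hcl] at e2
    have e3 : (fun n : 𝒩 => star χ n - χ n) = (fun n : 𝒩 => star χ n) - χ := rfl
    rw [e3, inner_sub_left, ← classInner_conj_symm, e2, classInner_conj_symm, sub_self]

include hTI hC hS hstar hext in
theorem eq_mul {χ ξ : 𝒩 → ℂ} (hχ : χ ∈ S) (hξ : ξ ∈ S) (k : 𝒩) (hk : (k : G) ∈ K) (hk1 : k ≠ 1) :
    (charDegree ξ : ℂ) * (star χ k - χ k) = (charDegree χ : ℂ) * (star ξ k - ξ k) := by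
  have hα := alpha_mem K S hS hχ hξ
  have hχ' := (mem_S_iff K S hS).1 hχ
  have hξ' := (mem_S_iff K S hS).1 hξ
  have h1 := hext _ hα
  rw [iso_sub_zspan hstar (zspan_zsmul (mem_zspan hχ) _) (zspan_zsmul (mem_zspan hξ) _),
    iso_zsmul hstar (mem_zspan hχ), iso_zsmul hstar (mem_zspan hξ)] at h1
  have hcl : IsClassFunction 𝒩 ((charDegree ξ : ℤ) • χ - (charDegree χ : ℤ) • ξ) :=
    isGen_isClassFunction (isGen_sub (isGen_zsmul (isGen_of_isIrr hχ'.1) _)
      (isGen_zsmul (isGen_of_isIrr hξ'.1) _))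
  have hvan : ∀ x : 𝒩, (x : G) ∉ (K : Set G) → ((charDegree ξ : ℤ) • χ - (charDegree χ : ℤ) • ξ) x = 0 := by
    intro x hx
    have hx' : x ∉ 𝒦 := fun h => hx (Subgroup.mem_subgroupOf.1 h)
    simp only [Pi.sub_apply, Pi.smul_apply]
    rw [vanish 𝒦 (hC' K hC) hχ'.1 hχ'.2 hx', vanish 𝒦 (hC' K hC) hξ'.1 hξ'.2 hx']
    simp
  have h2 := IndFunBasic.indFun_normalizer_eq (K : Set G) hTI _ hcl hvan k hk hk1
  rw [← h1] at h2
  simp only [Pi.sub_apply, Pi.smul_apply] at h2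
  simp only [zsmul_eq_mul, Int.cast_natCast] at h2
  linear_combination h2

include hTI hC hS hstar hext in
theorem main : ∃ m : ℤ, ∀ χ ∈ S, ∀ k : 𝒩, (k : G) ∈ K → k ≠ 1 → star χ k - χ k = (m : ℂ) * χ 1 / ((K.subgroupOf (Subgroup.normalizer (K : Set G))).index : ℂ) := by
  classical
  letI : Fintype 𝒦 := Fintype.ofFinite _
  by_cases hne : ∃ χ, χ ∈ S
  swap
  · push Not at hne
    exact ⟨0, fun χ hχ => absurd hχ (hne χ)⟩
  obtain ⟨χ₀, hχ₀⟩ := hne
  have hχ₀' := (mem_S_iff K S hS).1 hχ₀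
  obtain ⟨k₀, hk₀, hk₀ne⟩ := hχ₀'.2
  have hk₀1 : k₀ ≠ 1 := by
    rintro rfl
    exact hk₀ne rfl
  have hkG : (k₀ : G) ∈ K := Subgroup.mem_subgroupOf.1 hk₀
  have hcard : Nat.card 𝒦 ≠ 1 := by
    intro h1
    have h2 := (Subgroup.card_eq_one (H := 𝒦)).1 h1
    rw [h2] at hk₀
    exact hk₀1 (Subgroup.mem_bot.1 hk₀)
  have hd0 : ∀ {χ : 𝒩 → ℂ}, χ ∈ S → (charDegree χ : ℂ) ≠ 0 := by
    intro χ hχ
    exact_mod_cast (charDegree_pos ((mem_S_iff K S hS).1 hχ).1).ne'
  -- `c`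
  let c : ℂ := (star χ₀ k₀ - χ₀ k₀) / (charDegree χ₀ : ℂ)
  have hc : ∀ χ ∈ S, ∀ k : 𝒩, (k : G) ∈ K → k ≠ 1 → star χ k - χ k = c * (charDegree χ : ℂ) := by
    intro χ hχ k hk hk1
    obtain ⟨n, hn⟩ := const_star K hC S hS star hstar hext hχ
    have h1 := eq_mul K hTI hC S hS star hstar hext hχ hχ₀ k₀ hkG hk₀1
    rw [hn k hk hk1]
    rw [hn k₀ hkG hk₀1] at h1
    have h2 := hd0 hχ₀
    simp only [c]
    field_simp
    linear_combination h1
  -- integrality of the differences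
  have hint : ∀ χ ∈ S, ∃ z : ℤ, c * (charDegree χ : ℂ) = z := by
    intro χ hχ
    have hχ' := (mem_S_iff K S hS).1 hχ
    have hgen := iso_gen hstar (mem_zspan hχ)
    have hF : IsGeneralizedCharacter 𝒦 (fun k : 𝒦 => star χ ((k : 𝒩) : G) - χ k) := by
      have h1 := isGen_restrict 𝒦 (isGen_sub (isGen_restrict 𝒩 hgen) (isGen_of_isIrr hχ'.1))
      exact h1
    apply int_of_const hcard hF
    intro k hk
    apply hc χ hχ
    · exact Subgroup.mem_subgroupOf.1 k.2
    · intro h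
      exact hk (Subtype.ext h)
  have hint2 : ∃ m : ℤ, c * ((𝒦).index : ℂ) = m := by
    apply bez hcard
    intro θ hθ
    have hirr := ind_irr 𝒦 (hC' K hC) θ.2 hθ
    have hrel := ind_relevant 𝒦 (hC' K hC) θ.2 hθ
    have hmem : indFun 𝒦 (θ : 𝒦 → ℂ) ∈ S := (mem_S_iff K S hS).2 ⟨hirr, hrel⟩
    obtain ⟨z, hz⟩ := hint _ hmem
    refine ⟨z, ?_⟩
    rw [← hz, ← one_eq_charDegree (IsIrrCharacter.isCharacter hirr), indFun_one]
    ring
  obtain ⟨m, hm⟩ := hint2
  refine ⟨m, fun χ hχ k hk hk1 => ?_⟩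
  have hidx : ((𝒦).index : ℂ) ≠ 0 := by
    exact_mod_cast Subgroup.index_ne_zero_of_finite
  rw [hc χ hχ k hk hk1, ← hm,
    one_eq_charDegree (IsIrrCharacter.isCharacter ((mem_S_iff K S hS).1 hχ).1)]
  field_simp

end Coh

/-- Let K be a subgroup of the finite group G that meets each conjugate by an element outside its normalizer N trivially, is properly contained in N, and contains the centralizer of each of its non-identity elements (a T.I. subgroup with Frobenius normalizer). Let S be the set of irreducible characters of N taking at some element of K a value different from their degree, suppose S has at least two members, and let star be a linear isometry on the integer span of S into the generalized characters of G that agrees with induction on the members vanishing at the identity (so S is coherent, with star as the extending isometry). Then there is a single integer m such that star χ k - χ k = m * χ 1 / e for every χ in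 S and every non-identity element k of K, where e is the index of K in N. -/
theorem result {G : Type*} [Group G] [Fintype G] (K : Subgroup G) (hTI : ∀ g : G, g ∉ Subgroup.normalizer (K : Set G) → ∀ k ∈ K, g * k * g⁻¹ ∈ K → k = 1) (hlt : K < Subgroup.normalizer (K : Set G)) (hC : ∀ k ∈ K, k ≠ 1 → Subgroup.centralizer ({k} : Set G) ≤ K) [Fintype ↥(Subgroup.normalizer (K : Set G))] (S : Set (↥(Subgroup.normalizer (K : Set G)) → ℂ)) (hS : S = {χ : ↥(Subgroup.normalizer (K : Set G)) → ℂ | Cfsg.IsIrrCharacter ↥(Subgroup.normalizer (K : Set G)) χ ∧ ∃ k : ↥(Subgroup.normalizer (K : Set G)), (k : G) ∈ K ∧ χ k ≠ χ 1}) (htwo : ∃ χ ∈ S, ∃ ξ ∈ S, χ ≠ ξ) (star : (↥(Subgroup.normalizer (K : Set G)) → ℂ) → (G → ℂ)) (hstar : Cfsg.IsLinearIsometryOn (Cfsg.zspan S) star) (hext : ∀ α ∈ Cfsg.zspanOn S ({1}ᶜ : Set ↥(Subgroup.normalizer (K : Set G))), star α = Cfsg.indFun (Subgroup.normalizer (K : Set G)) α) : ∃ m : ℤ, ∀ χ ∈ S, ∀ k : ↥(Subgroup.normalizer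 (K : Set G)), (k : G) ∈ K → k ≠ 1 → star χ k - χ k = (m : ℂ) * χ 1 / ((K.subgroupOf (Subgroup.normalizer (K : Set G))).index : ℂ) :=
  main K hTI hC S hS star hstar hext

end Cfsg.Agent.S0853
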