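import Mathlib
import Cfsg.Statements.S0852
import Cfsg.Agent.S0853

set_option autoImplicit false
set_option linter.style.haveILetI false
set_option linter.unusedSectionVars false
open Cfsg

namespace Cfsg.Agent.S0852

open Cfsg.Agent.Lib
open Cfsg.Agent.Lib.CharBasic Cfsg.Agent.Lib.CharInd Cfsg.Agent.Lib.CharKernel Cfsg.Agent.Lib.GenChar
open Cfsg.Agent.Lib.FrobNorm Cfsg.Agent.Lib.CoherenceBasic
open Cfsg.Agent.S0853
open scoped ComplexConjugate

section Constant

variable {M : Type*} [Group M] [Fintype M] (K : Subgroup M) [hN : K.Normal]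

open scoped Classical in
/-- A relevant character constant on the non-identity elements of `K` is the only relevant character. -/
theorem not_const (hC : ∀ k ∈ K, k ≠ 1 → ∀ g : M, g * k = k * g → g ∈ K) {χ ξ : IrrCharacter M}
    (hχ : Relevant K χ) (hξ : Relevant K ξ) (hne : χ ≠ ξ) {v : ℂ}
    (hv : ∀ k ∈ K, k ≠ 1 → (χ : M → ℂ) k = v) : False := by
  letI : Fintype K := Fintype.ofFinite _
  have hχc := IsIrrCharacter.isCharacter χ.2
  set d : ℕ := charDegree (χ : M → ℂ) with hd
  have hd1 : (χ : M → ℂ) 1 = d := one_eq_charDegree hχc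
  -- the sum over `K`
  have h1 : (d : ℂ) + ((Nat.card K : ℂ) - 1) * v = 0 := by
    have h2 := CharNormal.sum_mul_normal_eq_zero χ.2 K hχ 1
    simp only [one_mul] at h2
    rw [← Finset.add_sum_erase _ _ (Finset.mem_univ (1 : K))] at h2
    have h3 : ∀ n ∈ Finset.univ.erase (1 : K), (χ : M → ℂ) n = v := by
      intro n hn
      exact hv n n.2 (fun h => (Finset.mem_erase.1 hn).1 (Subtype.ext h))
    rw [Finset.sum_congr rfl h3, Finset.sum_const, Finset.card_erase_of_mem (Finset.mem_univ _),
      Finset.card_univ, nsmul_eq_mul, OneMemClass.coe_one, hd1, ← Nat.card_eq_fintype_card,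
      Nat.cast_sub Nat.card_pos] at h2
    simpa using h2
  -- the norm
  have h2 : (Nat.card M : ℂ) = (Nat.card K : ℂ) * (v * conj v) + ((d : ℂ) * d - v * conj v) := by
    have h3 := classInner_irr_self χ.2
    unfold classInner at h3
    have hM : (Nat.card M : ℂ) ≠ 0 := by exact_mod_cast Nat.card_pos.ne'
    have h4 : ∑ g : M, (χ : M → ℂ) g * conj ((χ : M → ℂ) g) = (Nat.card M : ℂ) := by
      field_simp at h3
      exact h3
    rw [← h4]
    have h5 : ∀ g : M, (χ : M → ℂ) g * conj ((χ : M → ℂ) g) =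
        (if g ∈ K then v * conj v else 0) + (if g = 1 then (d : ℂ) * d - v * conj v else 0) := by
      intro g
      by_cases hg : g ∈ K
      · rw [if_pos hg]
        by_cases hg1 : g = 1
        · subst hg1
          rw [if_pos rfl, hd1, map_natCast]
          ring
        · rw [if_neg hg1, hv g hg hg1, add_zero]
      · have hg1 : g ≠ 1 := by
          rintro rfl
          exact hg K.one_mem
        rw [if_neg hg, if_neg hg1, vanish K hC χ.2 hχ hg, zero_mul, add_zero]
    simp only [h5]
    rw [Finset.sum_add_distrib, IndFunBasic.sum_ite_mem, Finset.sum_ite_eq' Finset.univ (1 : M)]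
    simp
  have h3 : ((Nat.card K : ℂ) - 1) * (Nat.card M : ℂ) = (Nat.card K : ℂ) * ((d : ℂ) * d) := by
    have hc : (d : ℂ) + ((Nat.card K : ℂ) - 1) * conj v = 0 := by
      have := congrArg conj h1
      simpa using this
    rw [h2]
    generalize (Nat.card K : ℂ) = K' at *
    generalize (d : ℂ) = D at *
    generalize conj v = V at *
    have e1 : (K' - 1) * v = -D := by linear_combination h1
    have e2 : (K' - 1) * V = -D := by linear_combination hc
    linear_combination (K' - 1) * V * e1 + (-D) * e2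
  -- counting
  have h4 := sum_ker_deg_sq K
  have h5 := sum_charDegree_sq (G := M)
  set A : ℕ := ∑ χ : IrrCharacter M, (if ∀ n ∈ K, (χ : M → ℂ) n = (χ : M → ℂ) 1 then
        (charDegree (χ : M → ℂ)) ^ 2 else 0) with hA
  let R : ℕ := ∑ χ : IrrCharacter M, (if ∀ n ∈ K, (χ : M → ℂ) n = (χ : M → ℂ) 1 then 0 else
        (charDegree (χ : M → ℂ)) ^ 2)
  have hAR : A + R = Nat.card M := by
    rw [← h5, hA, ← Finset.sum_add_distrib]
    refine Finset.sum_congr rfl fun ψ _ => ?_
    split_ifs <;> simp
  have hR : R = d ^ 2 := by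
    have hK0 : (Nat.card K : ℂ) ≠ 0 := by exact_mod_cast Nat.card_pos.ne'
    have h6 : ((R : ℕ) : ℂ) = (d : ℂ) ^ 2 := by
      apply mul_left_cancel₀ hK0
      have e1 : (Nat.card K : ℂ) * (A : ℂ) = (Nat.card M : ℂ) := by exact_mod_cast h4
      have e2 : (A : ℂ) + (R : ℂ) = (Nat.card M : ℂ) := by exact_mod_cast hAR
      linear_combination (Nat.card K : ℂ) * e2 - e1 + h3
    exact_mod_cast h6
  have hge : d ^ 2 + charDegree (ξ : M → ℂ) ^ 2 ≤ R := by
    have hχ' : ¬ ∀ n ∈ K, (χ : M → ℂ) n = (χ : M → ℂ) 1 := by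
      obtain ⟨k, hk, hk'⟩ := hχ
      exact fun h => hk' (h k hk)
    have hξ' : ¬ ∀ n ∈ K, (ξ : M → ℂ) n = (ξ : M → ℂ) 1 := by
      obtain ⟨k, hk, hk'⟩ := hξ
      exact fun h => hk' (h k hk)
    have e := Finset.add_sum_erase Finset.univ (fun ψ : IrrCharacter M =>
      if ∀ n ∈ K, (ψ : M → ℂ) n = (ψ : M → ℂ) 1 then 0 else
        (charDegree (ψ : M → ℂ)) ^ 2) (Finset.mem_univ χ)
    have e' := Finset.add_sum_erase (Finset.univ.erase χ) (fun ψ : IrrCharacter M =>
      if ∀ n ∈ K, (ψ : M → ℂ) n = (ψ : M → ℂ) 1 then 0 else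
        (charDegree (ψ : M → ℂ)) ^ 2) (Finset.mem_erase.2 ⟨hne.symm, Finset.mem_univ ξ⟩)
    simp only [if_neg hχ', if_neg hξ'] at e e'
    show _ ≤ ∑ χ : IrrCharacter M, (if ∀ n ∈ K, (χ : M → ℂ) n = (χ : M → ℂ) 1 then 0 else
        (charDegree (χ : M → ℂ)) ^ 2)
    rw [← e, ← e']
    have e2 : d ^ 2 = charDegree (χ : M → ℂ) ^ 2 := rfl
    rw [e2]
    omega
  have hpos := charDegree_pos ξ.2
  have : 0 < charDegree (ξ : M → ℂ) ^ 2 := by positivity
  omega

end Constant

/-- Let K be a subgroup of the finite group G that meets each conjugate by an element outside its normalizer N trivially, is properly contained in N, and contains the centralizer of each of its non-identity elements (a T.I. subgroup with Frobenius normalizer). Let S be the set of irreducible characters of N taking at some element of K a value different from their degree, suppose S has at least two members, and let star be a linear isometry on the integer span of S into the generalized characters of G that agrees with induction on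 the members vanishing at the identity (so S is coherent, with star as the extending isometry). Then an irreducible character ψ of G is of the form star χ or -star χ for some χ in S if and only if ψ is not constant on the non-identity elements of K. -/
theorem result {G : Type*} [Group G] [Fintype G] (K : Subgroup G) (hTI : ∀ g : G, g ∉ Subgroup.normalizer (K : Set G) → ∀ k ∈ K, g * k * g⁻¹ ∈ K → k = 1) (hlt : K < Subgroup.normalizer (K : Set G)) (hC : ∀ k ∈ K, k ≠ 1 → Subgroup.centralizer ({k} : Set G) ≤ K) [Fintype ↥(Subgroup.normalizer (K : Set G))] (S : Set (↥(Subgroup.normalizer (K : Set G)) → ℂ)) (hS : S = {χ : ↥(Subgroup.normalizer (K : Set G)) → ℂ | Cfsg.IsIrrCharacter ↥(Subgroup.normalizer (K : Set G)) χ ∧ ∃ k : ↥(Subgroup.normalizer (K : Set G)), (k : G) ∈ K ∧ χ k ≠ χ 1}) (htwo : ∃ χ ∈ S, ∃ ξ ∈ S, χ ≠ ξ) (star : (↥(Subgroup.normalizer (K : Set G)) → ℂ) → (G → ℂ)) (hstar : Cfsg.IsLinearIsometryOn (Cfsg.zspan S) star) (hext : ∀ α ∈ Cfsg.zspanOn S ({1}ᶜ : Set ↥(Subgroup.normalizer (K : Set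 G))), star α = Cfsg.indFun (Subgroup.normalizer (K : Set G)) α) (ψ : G → ℂ) (hψ : Cfsg.IsIrrCharacter G ψ) : (∃ χ ∈ S, ψ = star χ ∨ ψ = -star χ) ↔ ∃ a ∈ K, ∃ b ∈ K, a ≠ 1 ∧ b ≠ 1 ∧ ψ a ≠ ψ b := by
  classical
  have hC'' := hC' K hC
  constructor
  · rintro ⟨χ, hχ, hψχ⟩
    by_contra hcon
    push Not at hcon
    obtain ⟨χ₁, hχ₁, ξ₁, hξ₁, hne⟩ := htwo
    obtain ⟨ξ, hξ, hξne⟩ : ∃ ξ ∈ S, χ ≠ ξ := by
      by_cases h : χ = χ₁
      · exact ⟨ξ₁, hξ₁, by rwa [h]⟩
      · exact ⟨χ₁, hχ₁, h⟩
    have hχ' := (mem_S_iff K S hS).1 hχ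
    have hξ' := (mem_S_iff K S hS).1 hξ
    obtain ⟨n, hn⟩ := const_star K hC S hS star hstar hext hχ
    obtain ⟨k₀, hk₀, hk₀ne⟩ := hχ'.2
    have hk₀1 : k₀ ≠ 1 := by
      rintro rfl
      exact hk₀ne rfl
    have hkG : (k₀ : G) ∈ K := Subgroup.mem_subgroupOf.1 hk₀
    have hk₀G : (k₀ : G) ≠ 1 := fun h => hk₀1 (Subtype.ext h)
    -- `star χ` is constant
    have hconst : ∀ k : Subgroup.normalizer (K : Set G), (k : G) ∈ K → k ≠ 1 →
        χ k = star χ k₀ - n := by
      intro k hk hk1
      have h1 := hn k hk hk1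
      have h2 : star χ (k : G) = star χ (k₀ : G) := by
        have h3 := hcon (k : G) hk (k₀ : G) hkG (fun h => hk1 (Subtype.ext h)) hk₀G
        rcases hψχ with h4 | h4
        · rw [h4] at h3
          exact h3
        · rw [h4] at h3
          simpa using h3
      rw [← h2, ← h1]
      ring
    exact not_const (Subgroup.subgroupOf K (Subgroup.normalizer (K : Set G))) hC''
      (χ := ⟨χ, hχ'.1⟩) (ξ := ⟨ξ, hξ'.1⟩) hχ'.2 hξ'.2
      (fun h => hξne (congrArg Subtype.val h))
      (fun k hk hk1 => hconst k (Subgroup.mem_subgroupOf.1 hk) hk1)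
  · rintro ⟨a, ha, b, hb, ha1, hb1, hab⟩
    by_contra hcon
    push Not at hcon
    -- orthogonality
    have horth : ∀ χ ∈ S, classInner (star χ) ψ = 0 := by
      intro χ hχ
      have hχ' := (mem_S_iff K S hS).1 hχ
      obtain ⟨h1, h2⟩ := hcon χ hχ
      rcases iso_irr hstar (mem_zspan hχ) (classInner_irr_self hχ'.1) with h3 | h3
      · exact classInner_irr_ne h3 hψ (Ne.symm h1)
      · have h4 := classInner_irr_ne h3 hψ (fun h => h2 h.symm)
        rw [classInner_neg_left] at h4
        exact neg_eq_zero.1 h4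
    have horth2 : ∀ α ∈ zspan S, classInner (star α) ψ = 0 := by
      intro α hα
      have hα' : α ∈ Submodule.span ℤ S := hα
      induction hα' using Submodule.span_induction with
      | mem x hx => exact horth x hx
      | zero =>
        rw [iso_zero hstar (zspan_zero S)]
        unfold classInner
        simp
      | add x y hx hy ihx ihy =>
        rw [iso_add hstar hx hy, classInner_add_left, ihx hx, ihy hy, add_zero]
      | smul n x hx ih =>
        rw [iso_zsmul hstar hx, classInner_zsmul_left, ih hx, mul_zero]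
    have hψc := isClassFunction_of_isCharacter (IsIrrCharacter.isCharacter hψ)
    obtain ⟨c, hc⟩ := perp_const K hC S hS (f := fun n : Subgroup.normalizer (K : Set G) => ψ n)
      (fun g h => hψc (g : G) (h : G)) (by
        intro α hα
        have h1 := horth2 α hα.1
        rw [hext α hα, frobenius _ α hψc] at h1
        rw [← classInner_conj_symm, h1, map_zero])
    have hKN : K ≤ Subgroup.normalizer (K : Set G) := hlt.le
    have h1 := hc ⟨a, hKN ha⟩ ha (fun h => ha1 (congrArg Subtype.val h))
    have h2 := hc ⟨b, hKN hb⟩ hb (fun h => hb1 (congrArg Subtype.val h))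
    exact hab (h1.trans h2.symm)

end Cfsg.Agent.S0852
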