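import Mathlib
import Cfsg.Statements.S0855
import Cfsg.Agent.S4456
import Cfsg.Agent.Lib.CliffDvd
import Cfsg.Agent.Lib.CharWeight
import Cfsg.Agent.Lib.BlockExt

set_option autoImplicit false
open Cfsg

namespace Cfsg.Agent.S0855

/-- For a finite group G and a prime p: every irreducible character of G has degree a power of p if and only if G has an abelian normal subgroup whose order is prime to p and whose index is a power of p. -/
theorem result {G : Type*} [Group G] [Finite G] (p : ℕ) (hp : p.Prime) : (∀ χ : Cfsg.IrrCharacter G, ∃ k : ℕ, (χ : G → ℂ) 1 = (p : ℂ) ^ k) ↔ ∃ A : Subgroup G, A.Normal ∧ (∀ a ∈ A, ∀ b ∈ A, a * b = b * a) ∧ Nat.Coprime (Nat.card A) p ∧ ∃ k : ℕ, A.index = p ^ k := by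
  classical
  constructor
  · intro h
    have hdeg : ∀ χ : Cfsg.IrrCharacter G, Cfsg.charDegree (χ : G → ℂ) ≠ 1 → p ∣ Cfsg.charDegree (χ : G → ℂ) := by
      intro χ hne
      obtain ⟨k, hk⟩ := h χ
      rw [Cfsg.Agent.Lib.CharKernel.one_eq_charDegree (Cfsg.Agent.Lib.CharBasic.IsIrrCharacter.isCharacter χ.2)] at hk
      have h1 : Cfsg.charDegree (χ : G → ℂ) = p ^ k := by exact_mod_cast hk
      have hk0 : k ≠ 0 := by
        intro h0
        apply hne
        rw [h1, h0, pow_zero]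
      rw [h1]
      exact dvd_pow_self p hk0
    obtain ⟨N, hN, hcop, k, hk⟩ := Cfsg.Agent.S4456.result p hp hdeg
    refine ⟨N, hN, ?_, hcop, k, hk⟩
    letI := Fintype.ofFinite G
    letI : Fintype N := Fintype.ofFinite N
    have hall : ∀ θ : Cfsg.IrrCharacter N, (θ : N → ℂ) 1 = 1 := by
      intro θ
      obtain ⟨χ, hχ⟩ := Cfsg.Agent.Lib.BlockExt.exists_constituent N θ
      have h1 := Cfsg.Agent.Lib.CliffDvd.degree_dvd N θ.2 χ.2 hχ
      obtain ⟨j, hj⟩ := h χ
      rw [Cfsg.Agent.Lib.CharKernel.one_eq_charDegree (Cfsg.Agent.Lib.CharBasic.IsIrrCharacter.isCharacter χ.2)] at hj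
      have h2 : Cfsg.charDegree (χ : G → ℂ) = p ^ j := by exact_mod_cast hj
      rw [h2] at h1
      have h3 := Cfsg.Agent.Lib.CharKernel.charDegree_dvd_card θ.2
      have h4 : Nat.Coprime (Nat.card N) (p ^ j) := Nat.Coprime.pow_right j hcop
      have h5 : Cfsg.charDegree (θ : N → ℂ) = 1 := Nat.Coprime.eq_one_of_dvd (h4.coprime_dvd_left h3) h1 |> fun h => h
      rw [Cfsg.Agent.Lib.CharKernel.one_eq_charDegree (Cfsg.Agent.Lib.CharBasic.IsIrrCharacter.isCharacter θ.2), h5]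
      simp
    intro a ha b hb
    exact congrArg Subtype.val (Cfsg.Agent.Lib.CliffDvd.comm_of_all_linear hall ⟨a, ha⟩ ⟨b, hb⟩)
  · rintro ⟨A, hA, hcomm, -, k, hk⟩ ⟨χ, n, ρ, hρ, rfl⟩
    have h1 := Cfsg.Agent.Lib.CharWeight.finrank_dvd_index ρ hρ hA hcomm
    rw [hk, Module.finrank_fin_fun] at h1
    obtain ⟨j, -, hj⟩ := (Nat.dvd_prime_pow hp).mp h1
    refine ⟨j, ?_⟩
    show ρ.character 1 = _
    rw [Cfsg.Agent.Lib.CharBasic.char_one_eq_rep, hj]
    push_cast
    rfl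

end Cfsg.Agent.S0855
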