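import Mathlib
import Cfsg.Statements.S0856
import Cfsg.Agent.Lib.CosetAvg

set_option autoImplicit false
open Cfsg

namespace Cfsg.Agent.S0856

open Cfsg.Agent.Lib.CosetAvg Cfsg.Agent.Lib.CharBasic Cfsg.Agent.Lib.CharInd
open Cfsg.Agent.Lib.CharInduction Cfsg.Agent.Lib.Clifford
open scoped ComplexConjugate

/-- Let N be a normal subgroup of the finite group G and φ, ϑ irreducible characters of N that are invariant under conjugation by G, such that the pointwise product φ * ϑ is irreducible and ϑ is the restriction of an irreducible character χ of G. Then multiplication by χ is a bijection from the set of irreducible characters of G having nonzero inner product with the function induced from φ onto the set of those having nonzero inner product with the function induced from φ * ϑ. -/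
theorem result {G : Type*} [Group G] [Fintype G] (N : Subgroup G) [hN : N.Normal] (φ ϑ : N → ℂ) (hφ : Cfsg.IsIrrCharacter N φ) (hϑ : Cfsg.IsIrrCharacter N ϑ) (hφinv : ∀ (g : G) (n : N), φ ⟨g * n * g⁻¹, hN.conj_mem (n : G) n.2 g⟩ = φ n) (hϑinv : ∀ (g : G) (n : N), ϑ ⟨g * n * g⁻¹, hN.conj_mem (n : G) n.2 g⟩ = ϑ n) (hprod : Cfsg.IsIrrCharacter N (φ * ϑ)) (χ : G → ℂ) (hχ : Cfsg.IsIrrCharacter G χ) (hext : ∀ n : N, χ n = ϑ n) : Set.BijOn (fun β : G → ℂ => β * χ) {β : G → ℂ | Cfsg.IsIrrCharacter G β ∧ Cfsg.classInner (Cfsg.indFun N φ) β ≠ 0} {ψ : G → ℂ | Cfsg.IsIrrCharacter G ψ ∧ Cfsg.classInner (Cfsg.indFun N (φ * ϑ)) ψ ≠ 0} := by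
  classical
  haveI : Fintype N := Fintype.ofFinite _
  have hχc := IsIrrCharacter.isCharacter hχ
  have hcl := isClassFunction_of_isCharacter hχc
  have hϑeq : (fun h : N => χ h) = ϑ := funext hext
  have hΩ : indFun N (φ * ϑ) = indFun N φ * χ := by
    rw [← hϑeq]
    exact indFun_mul_restrict N φ hcl
  obtain ⟨m, hm⟩ := exists_nat_decomp (indFun_isCharacter N (IsIrrCharacter.isCharacter hφ))
  have hdec : ∀ i : IrrCharacter G, ∃ k : IrrCharacter G → ℕ,
      (i : G → ℂ) * χ = ∑ j, k j • (j : G → ℂ) := fun i =>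
    exists_nat_decomp (isCharacter_mul (IsIrrCharacter.isCharacter i.2) hχc)
  choose c hc using hdec
  have hcij : ∀ i j : IrrCharacter G, classInner ((i : G → ℂ) * χ) (j : G → ℂ) = c i j := by
    intro i j
    rw [hc i]
    exact classInner_nat_decomp (c i) _ j.2
  have hmi : ∀ i : IrrCharacter G, classInner (indFun N φ) (i : G → ℂ) = m i := by
    intro i
    rw [hm]
    exact classInner_nat_decomp m _ i.2
  -- multiplicities of `(φϑ)^G`
  let b : IrrCharacter G → ℕ := fun j => ∑ i, m i * c i j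
  have hbj : ∀ j : IrrCharacter G, classInner (indFun N (φ * ϑ)) (j : G → ℂ) = b j := by
    intro j
    have h1 : indFun N φ * χ = ∑ i : IrrCharacter G, (m i : ℂ) • ((i : G → ℂ) * χ) := by
      rw [hm]
      funext g
      simp [Finset.sum_apply, Finset.sum_mul, mul_assoc]
    rw [hΩ, h1, classInner_sum_left]
    simp only [classInner_smul_left, hcij, b]
    push_cast
    rfl
  -- Clifford for `φ`
  have hres1 : ∀ i : IrrCharacter G, m i ≠ 0 →
      (fun n : N => (i : G → ℂ) n) = (m i : ℂ) • φ := by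
    intro i hi
    have h1 : classInner (fun n : N => (i : G → ℂ) n) φ = m i := by
      rw [← classInner_indFun_eq N hφ (IsIrrCharacter.isCharacter i.2), hmi]
    obtain ⟨e, -, h2, h3⟩ := restrict_eq_smul_of_invariant N hφ hφinv i.2
      (by rw [h1]; exact_mod_cast hi)
    rw [h1] at h3
    have h4 : m i = e := by exact_mod_cast h3
    rw [h4]
    exact h2
  -- Clifford for `φϑ`
  have hprodinv : ∀ (g : G) (n : N),
      (φ * ϑ) ⟨g * n * g⁻¹, hN.conj_mem (n : G) n.2 g⟩ = (φ * ϑ) n := by
    intro g n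
    simp only [Pi.mul_apply]
    rw [hφinv, hϑinv]
  have hres2 : ∀ j : IrrCharacter G, b j ≠ 0 →
      (fun n : N => (j : G → ℂ) n) = (b j : ℂ) • (φ * ϑ) := by
    intro j hj
    have h1 : classInner (fun n : N => (j : G → ℂ) n) (φ * ϑ) = b j := by
      rw [← classInner_indFun_eq N hprod (IsIrrCharacter.isCharacter j.2), hbj]
    obtain ⟨e, -, h2, h3⟩ := restrict_eq_smul_of_invariant N hprod hprodinv j.2
      (by rw [h1]; exact_mod_cast hj)
    rw [h1] at h3
    have h4 : b j = e := by exact_mod_cast h3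
    rw [h4]
    exact h2
  have hd : (φ * ϑ) (1 : N) ≠ 0 := irr_degree_ne_zero hprod
  have hχ1 : χ 1 = ϑ 1 := hext 1
  have hble : ∀ i j, m i * c i j ≤ b j := fun i j =>
    Finset.single_le_sum (f := fun i => m i * c i j) (fun _ _ => Nat.zero_le _) (Finset.mem_univ i)
  -- degree comparison
  have hdeg : ∀ i : IrrCharacter G, m i ≠ 0 → m i = ∑ j, c i j * b j := by
    intro i hi
    have h1 : ((i : G → ℂ) * χ) 1 = (m i : ℂ) * (φ * ϑ) (1 : N) := by
      have h2 := congrFun (hres1 i hi) 1
      simp only [Pi.smul_apply, smul_eq_mul] at h2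
      simp only [Pi.mul_apply]
      rw [hχ1]
      have h3 : (i : G → ℂ) 1 = (m i : ℂ) * φ 1 := h2
      rw [h3]
      ring
    have h2 : ((i : G → ℂ) * χ) 1 = ∑ j, (c i j : ℂ) * (j : G → ℂ) 1 := by
      rw [hc i]
      simp [Finset.sum_apply]
    have h3 : ∀ j : IrrCharacter G, (c i j : ℂ) * (j : G → ℂ) 1 =
        ((c i j * b j : ℕ) : ℂ) * (φ * ϑ) (1 : N) := by
      intro j
      by_cases hcj : c i j = 0
      · simp [hcj]
      · have hbj0 : b j ≠ 0 := by
          have h4 := hble i j
          have h5 : 0 < m i * c i j := Nat.mul_pos (Nat.pos_of_ne_zero hi) (Nat.pos_of_ne_zero hcj)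
          omega
        have h4 := congrFun (hres2 j hbj0) 1
        simp only [Pi.smul_apply, smul_eq_mul] at h4
        have h5 : (j : G → ℂ) 1 = (b j : ℂ) * (φ * ϑ) (1 : N) := h4
        rw [h5]
        push_cast
        ring
    rw [h1] at h2
    simp only [h3] at h2
    rw [← Finset.sum_mul] at h2
    have h4 := mul_right_cancel₀ hd h2
    exact_mod_cast h4
  -- the norm of `i χ`
  have hnorm : ∀ i : IrrCharacter G, m i ≠ 0 → ∑ j, c i j ^ 2 ≤ 1 := by
    intro i hi
    have h1 : m i * ∑ j, c i j ^ 2 ≤ m i := by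
      conv_rhs => rw [hdeg i hi]
      rw [Finset.mul_sum]
      apply Finset.sum_le_sum
      intro j _
      calc m i * c i j ^ 2 = c i j * (m i * c i j) := by ring
        _ ≤ c i j * b j := Nat.mul_le_mul_left _ (hble i j)
    exact Nat.le_of_mul_le_mul_left (by simpa using h1) (Nat.pos_of_ne_zero hi)
  have hmulne : ∀ i : IrrCharacter G, (i : G → ℂ) * χ ≠ 0 := by
    intro i h0
    have h1 := congrFun h0 1
    simp only [Pi.mul_apply, Pi.zero_apply] at h1
    rcases mul_eq_zero.mp h1 with h2 | h2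
    · exact irr_degree_ne_zero i.2 h2
    · exact irr_degree_ne_zero hχ h2
  have hirr : ∀ i : IrrCharacter G, m i ≠ 0 → IsIrrCharacter G ((i : G → ℂ) * χ) := by
    intro i hi
    apply isIrrCharacter_of_norm_one (isCharacter_mul (IsIrrCharacter.isCharacter i.2) hχc)
    have h1 : classInner ((i : G → ℂ) * χ) ((i : G → ℂ) * χ) = ((∑ j, c i j ^ 2 : ℕ) : ℂ) := by
      rw [hc i]
      exact classInner_nat_decomp_self _
    have h2 := hnorm i hi
    have h3 : ∑ j, c i j ^ 2 ≠ 0 := by
      intro h0
      apply hmulne i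
      apply classInner_self_eq_zero
      rw [h1, h0]
      simp
    have h4 : ∑ j, c i j ^ 2 = 1 := by omega
    rw [h1, h4]
    simp
  have hself : ∀ i : IrrCharacter G, ∀ hi : m i ≠ 0,
      c i ⟨(i : G → ℂ) * χ, hirr i hi⟩ = 1 := by
    intro i hi
    have h1 := hcij i ⟨(i : G → ℂ) * χ, hirr i hi⟩
    rw [classInner_irr_self (hirr i hi)] at h1
    exact_mod_cast h1.symm
  refine ⟨?_, ?_, ?_⟩
  · -- maps to
    rintro β ⟨hβ, hβ0⟩
    let i : IrrCharacter G := ⟨β, hβ⟩
    have hi : m i ≠ 0 := by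
      intro h0
      apply hβ0
      have := hmi i
      rw [h0] at this
      simpa using this
    refine ⟨hirr i hi, ?_⟩
    have h1 := hbj ⟨(i : G → ℂ) * χ, hirr i hi⟩
    show classInner (indFun N (φ * ϑ)) ((i : G → ℂ) * χ) ≠ 0
    rw [h1]
    have h2 := hble i ⟨(i : G → ℂ) * χ, hirr i hi⟩
    rw [hself i hi, mul_one] at h2
    have h3 : b ⟨(i : G → ℂ) * χ, hirr i hi⟩ ≠ 0 := by
      have := Nat.pos_of_ne_zero hi
      omega
    exact_mod_cast h3
  · -- injective
    rintro β ⟨hβ, hβ0⟩ β' ⟨hβ', hβ'0⟩ heq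
    by_contra hne
    let i : IrrCharacter G := ⟨β, hβ⟩
    let i' : IrrCharacter G := ⟨β', hβ'⟩
    have hii' : i ≠ i' := fun h => hne (congrArg Subtype.val h)
    have hi : m i ≠ 0 := by
      intro h0
      apply hβ0
      have := hmi i
      rw [h0] at this
      simpa using this
    have hi' : m i' ≠ 0 := by
      intro h0
      apply hβ'0
      have := hmi i'
      rw [h0] at this
      simpa using this
    let j : IrrCharacter G := ⟨(i : G → ℂ) * χ, hirr i hi⟩
    have hcj : c i j = 1 := hself i hi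
    have hcj' : c i' j = 1 := by
      have h1 := hcij i' j
      have h2 : (i' : G → ℂ) * χ = (j : G → ℂ) := heq.symm
      rw [h2, classInner_irr_self j.2] at h1
      exact_mod_cast h1.symm
    have h3 : m i * c i j + m i' * c i' j ≤ b j := by
      have := Finset.sum_le_sum_of_subset (f := fun k => m k * c k j)
        (Finset.subset_univ ({i, i'} : Finset (IrrCharacter G)))
      rwa [Finset.sum_pair hii'] at this
    rw [hcj, hcj', mul_one, mul_one] at h3
    have h4 : c i j * b j ≤ m i := by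
      conv_rhs => rw [hdeg i hi]
      exact Finset.single_le_sum (f := fun j => c i j * b j) (fun _ _ => Nat.zero_le _)
        (Finset.mem_univ j)
    rw [hcj, one_mul] at h4
    have := Nat.pos_of_ne_zero hi'
    omega
  · -- surjective
    rintro ψ ⟨hψ, hψ0⟩
    let j : IrrCharacter G := ⟨ψ, hψ⟩
    have hbj0 : b j ≠ 0 := by
      intro h0
      apply hψ0
      have := hbj j
      rw [h0] at this
      simpa using this
    obtain ⟨i, -, hi⟩ : ∃ i ∈ (Finset.univ : Finset (IrrCharacter G)), m i * c i j ≠ 0 := by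
      by_contra hall
      push Not at hall
      exact hbj0 (Finset.sum_eq_zero hall)
    have hmi0 : m i ≠ 0 := fun h => hi (by rw [h, zero_mul])
    have hcij0 : c i j ≠ 0 := fun h => hi (by rw [h, mul_zero])
    refine ⟨(i : G → ℂ), ⟨i.2, ?_⟩, ?_⟩
    · rw [hmi]
      exact_mod_cast hmi0
    · by_contra hne
      have h1 := classInner_irr_ne (hirr i hmi0) hψ hne
      have h2 := hcij i j
      have h3 : classInner ((i : G → ℂ) * χ) ψ = c i j := h2
      rw [h1] at h3
      apply hcij0
      exact_mod_cast h3.symm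

end Cfsg.Agent.S0856
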