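import Mathlib
import Cfsg.Statements.S0861
import Cfsg.Agent.Lib.CharInd
import Cfsg.Agent.Lib.CharValues
import Cfsg.Agent.Lib.CharGalois
import Cfsg.Agent.Lib.DefectZero
import Cfsg.Agent.Lib.Clifford
import Cfsg.Agent.Lib.DegreeDiv
import Cfsg.Agent.Lib.CharCodegP

set_option autoImplicit false
open Cfsg

namespace Cfsg.Agent.S0861

open Cfsg.Agent.Lib.CharBasic Cfsg.Agent.Lib.CharInd Cfsg.Agent.Lib.CharValues
open Cfsg.Agent.Lib.CharGalois Cfsg.Agent.Lib.DefectZero
open scoped ComplexConjugate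

/-- A character of degree prime to `p` does not vanish at `p`-elements. -/
theorem char_ne_zero_of_not_dvd {G : Type*} [Group G] [Finite G] {χ : G → ℂ}
    (hχ : IsCharacter G χ) {p : ℕ} (hp : p.Prime) {g : G} {b : ℕ} (hg : g ^ (p ^ b) = 1) {d : ℕ}
    (hd : χ 1 = d) (hcop : ¬ p ∣ d) : χ g ≠ 0 := by
  classical
  obtain ⟨n, ρ, rfl⟩ := hχ
  intro h0
  have hdn : d = n := by
    rw [char_one_eq_rep] at hd
    exact_mod_cast hd.symm
  obtain ⟨B, μ, h1, h2⟩ := exists_eigenbasis (ρ g) (pow_pos hp.pos b)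
    (by rw [← map_pow, hg, map_one])
  have htr := trace_eq_sum_of_eigenbasis (ρ g) B μ h1
  have hint : ∀ i, IsIntegral ℤ (μ i) := fun i =>
    IsIntegral.of_pow (pow_pos hp.pos b) (by rw [h2]; exact isIntegral_one)
  let μ' : Fin _ → IntC := fun i => ⟨μ i, hint i⟩
  obtain ⟨I, hI, hpI⟩ := exists_prime_over p hp
  have h3 : ∀ i, μ' i - 1 ∈ I := fun i =>
    sub_one_mem hp I hpI (μ' i) b (Subtype.ext (by simpa [μ'] using h2 i))
  have h4 : ∑ i, (μ' i - 1) ∈ I := I.sum_mem fun i _ => h3 i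
  have h5 : ∑ i, (μ' i - 1) = -(n : IntC) := by
    apply Subtype.ext
    have h6 : ∑ i, μ i = 0 := by rw [← htr]; exact h0
    have h7 : ((∑ i, (μ' i - 1) : IntC) : ℂ) = ∑ i, (μ i - 1) := by
      simp [μ']
    rw [h7, Finset.sum_sub_distrib, h6]
    simp
  rw [h5] at h4
  have h6 : (n : IntC) ∈ I := by simpa using I.neg_mem h4
  have hcopr : Nat.Coprime p n := (Nat.Prime.coprime_iff_not_dvd hp).mpr (hdn ▸ hcop)
  obtain ⟨u, v, huv⟩ := Nat.isCoprime_iff_coprime.mpr hcopr
  have h7 : ((u : IntC)) * (p : IntC) + (v : IntC) * (n : IntC) = 1 := by exact_mod_cast huv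
  have h8 : (1 : IntC) ∈ I := by
    rw [← h7]
    exact I.add_mem (I.mul_mem_left _ hpI) (I.mul_mem_left _ h6)
  exact hI.ne_top ((Ideal.eq_top_iff_one I).mpr h8)

/-- A finite group all of whose irreducible characters have degree one is commutative. -/
theorem comm_of_irr_degree_one {Q : Type*} [Group Q] [Fintype Q]
    (h : ∀ β : Q → ℂ, IsIrrCharacter Q β → β 1 = 1) (x y : Q) : x * y = y * x := by
  classical
  have hc : ∀ β : IrrCharacter Q, (β : Q → ℂ) (x * y * x⁻¹ * y⁻¹) = 1 := by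
    intro β
    obtain ⟨f, hf⟩ := exists_hom_of_degree_one (IsIrrCharacter.isCharacter β.2) (h _ β.2)
    have hcomm : f (x * y * x⁻¹ * y⁻¹) = 1 := by
      simp only [map_mul, map_inv]
      rw [mul_comm (f x) (f y)]
      simp
    rw [hf, hcomm, Units.val_one]
  have h1 := sum_irr_mul_conj (x * y * x⁻¹ * y⁻¹) (1 : Q)
  have h2 : ∑ χ : IrrCharacter Q, (χ : Q → ℂ) (x * y * x⁻¹ * y⁻¹) * conj ((χ : Q → ℂ) 1) =
      (Fintype.card (IrrCharacter Q) : ℂ) := by
    simp only [hc, h _ (Subtype.prop _)]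
    simp
  rw [h2] at h1
  have h3 : IsConj (x * y * x⁻¹ * y⁻¹) 1 := by
    by_contra hne
    rw [if_neg hne] at h1
    have h4 : Fintype.card (IrrCharacter Q) = 0 := by exact_mod_cast h1
    have : Nonempty (IrrCharacter Q) := ⟨⟨fun _ => 1, isIrrCharacter_one⟩⟩
    exact Fintype.card_ne_zero h4
  have h5 : x * y * x⁻¹ * y⁻¹ = 1 := isConj_one_right.mp h3.symm
  have h6 : x * y * x⁻¹ = y := by
    rw [mul_inv_eq_one] at h5
    exact h5
  rw [mul_inv_eq_iff_eq_mul] at h6
  exact h6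

/-- The Ito divisibility for abelian normal subgroups, character form -/
theorem deg_not_dvd {G : Type*} [Group G] [Finite G] (p : ℕ) [Fact p.Prime] (P : Sylow p G)
    [(P : Subgroup G).Normal] (hab : ∀ a ∈ P, ∀ b ∈ P, a * b = b * a) {χ : G → ℂ}
    (hχ : IsIrrCharacter G χ) {d : ℕ} (hd : χ 1 = d) : ¬ p ∣ d := by
  classical
  haveI : Fintype G := Fintype.ofFinite G
  haveI : Fintype (P : Subgroup G) := Fintype.ofFinite _
  have hχP := isCharacter_restrict (P : Subgroup G) (IsIrrCharacter.isCharacter hχ)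
  have hcl := isClassFunction_of_isCharacter hχP
  obtain ⟨lam, hlam⟩ : ∃ lam : IrrCharacter (P : Subgroup G),
      classInner (fun x : (P : Subgroup G) => χ x) lam.1 ≠ 0 := by
    by_contra hall
    push Not at hall
    have h1 := classFunction_eq_sum hcl
    have h2 : (fun x : (P : Subgroup G) => χ x) = 0 := by
      rw [h1]
      apply Finset.sum_eq_zero
      intro i _
      rw [hall i, zero_smul]
    exact Cfsg.Agent.Lib.Clifford.irr_degree_ne_zero hχ (congrFun h2 1)
  have hcomm : ∀ a b : (P : Subgroup G), a * b = b * a := fun a b =>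
    Subtype.ext (hab a a.2 b b.2)
  have h1 := Cfsg.Agent.Lib.CharCodegP.irr_one_of_comm hcomm lam.2
  have h2 := Cfsg.Agent.Lib.DegreeDiv.degree_div (P : Subgroup G) hχ lam.2 hlam hd
    (d := 1) (by simpa using h1)
  have h3 : d ∣ (P : Subgroup G).index := by
    simpa using h2.2
  intro h4
  exact P.not_dvd_index (h4.trans h3)

/-- Let P be a normal abelian Sylow p-subgroup of the finite group G and suppose some element g of P has centralizer exactly P. Then the number of irreducible characters of G is at most the order of P, and if equality holds then G / P is abelian (the commutator subgroup lies in P). -/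
theorem result {G : Type*} [Group G] [Finite G] (p : ℕ) [Fact p.Prime] (P : Sylow p G) [(P : Subgroup G).Normal] (hab : ∀ a ∈ P, ∀ b ∈ P, a * b = b * a) (g : G) (hg : g ∈ P) (hC : Subgroup.centralizer ({g} : Set G) = P) : Nat.card (Cfsg.IrrCharacter G) ≤ Nat.card P ∧ (Nat.card (Cfsg.IrrCharacter G) = Nat.card P → commutator G ≤ P) := by
  classical
  haveI : Fintype G := Fintype.ofFinite G
  have hp : p.Prime := Fact.out
  -- the Galois orbit of `g`
  let Ω : Finset G := Finset.univ.filter fun x => ∃ j : ℕ, j.Coprime (Nat.card G) ∧ x = g ^ j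
  have hΩg : g ∈ Ω := by
    simp only [Ω, Finset.mem_filter, Finset.mem_univ, true_and]
    exact ⟨1, Nat.coprime_one_left _, (pow_one g).symm⟩
  have hΩpos : 0 < Ω.card := Finset.card_pos.mpr ⟨g, hΩg⟩
  have hΩpow : ∀ x ∈ Ω, ∀ k : ℕ, k.Coprime (Nat.card G) → x ^ k ∈ Ω := by
    intro x hx k hk
    simp only [Ω, Finset.mem_filter, Finset.mem_univ, true_and] at hx ⊢
    obtain ⟨j, hj, rfl⟩ := hx
    exact ⟨j * k, Nat.Coprime.mul_left hj hk, (pow_mul g j k).symm⟩
  have hΩP : ∀ x ∈ Ω, x ∈ (P : Subgroup G) := by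
    intro x hx
    simp only [Ω, Finset.mem_filter, Finset.mem_univ, true_and] at hx
    obtain ⟨j, -, rfl⟩ := hx
    exact Subgroup.pow_mem _ hg j
  have hΩC : ∀ x ∈ Ω, Subgroup.centralizer ({x} : Set G) = P := by
    intro x hx
    rw [← hC]
    simp only [Ω, Finset.mem_filter, Finset.mem_univ, true_and] at hx
    obtain ⟨j, hj, rfl⟩ := hx
    ext y
    simp only [Subgroup.mem_centralizer_singleton_iff]
    constructor
    · intro h
      have h1 : g ^ j ∈ Subgroup.centralizer ({y} : Set G) := by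
        rw [Subgroup.mem_centralizer_singleton_iff]
        exact h.symm
      have h2 := mem_of_pow_mem _ hj h1
      rw [Subgroup.mem_centralizer_singleton_iff] at h2
      exact h2.symm
    · intro h
      have h1 : Commute y g := h
      exact (h1.pow_right j)
  -- non-vanishing
  have hnz : ∀ (χ : IrrCharacter G), ∀ x ∈ Ω, (χ : G → ℂ) x ≠ 0 := by
    intro χ x hx
    obtain ⟨d, -, hd⟩ := Cfsg.Agent.Lib.Clifford.irr_degree_pos χ.2
    have hxp : ∃ k : ℕ, x ^ (p ^ k) = 1 := by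
      obtain ⟨k, hk⟩ := P.isPGroup' ⟨x, hΩP x hx⟩
      exact ⟨k, congrArg Subtype.val hk⟩
    obtain ⟨k, hk⟩ := hxp
    exact char_ne_zero_of_not_dvd (IsIrrCharacter.isCharacter χ.2) hp hk hd
      (deg_not_dvd p P hab χ.2 hd)
  -- AM-GM
  have hamgm : ∀ χ : IrrCharacter G, (Ω.card : ℝ) ≤ ∑ x ∈ Ω, ‖(χ : G → ℂ) x‖ ^ 2 := fun χ =>
    card_le_sum_norm_sq (IsIrrCharacter.isCharacter χ.2) Ω hΩpow (hnz χ)
  -- second orthogonality
  have horth : ∀ x ∈ Ω, ∑ χ : IrrCharacter G, ‖(χ : G → ℂ) x‖ ^ 2 = (Nat.card P : ℝ) := by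
    intro x hx
    have h1 := sum_irr_mul_conj x x
    rw [if_pos (IsConj.refl _), hΩC x hx] at h1
    have h2 : ∑ χ : IrrCharacter G, (χ : G → ℂ) x * conj ((χ : G → ℂ) x) =
        ((∑ χ : IrrCharacter G, ‖(χ : G → ℂ) x‖ ^ 2 : ℝ) : ℂ) := by
      push_cast
      refine Finset.sum_congr rfl fun χ _ => ?_
      rw [Complex.mul_conj, Complex.normSq_eq_norm_sq]
      push_cast
      rfl
    rw [h2] at h1
    exact_mod_cast h1
  have htotal : ∑ χ : IrrCharacter G, ∑ x ∈ Ω, ‖(χ : G → ℂ) x‖ ^ 2 =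
      (Ω.card : ℝ) * (Nat.card P : ℝ) := by
    rw [Finset.sum_comm, Finset.sum_congr rfl horth]
    simp
  have hcard : (Nat.card (IrrCharacter G) : ℝ) = Fintype.card (IrrCharacter G) := by
    rw [Nat.card_eq_fintype_card]
  have hle : (Nat.card (IrrCharacter G) : ℝ) * (Ω.card : ℝ) ≤ (Ω.card : ℝ) * (Nat.card P : ℝ) := by
    rw [← htotal, hcard]
    calc (Fintype.card (IrrCharacter G) : ℝ) * (Ω.card : ℝ)
        = ∑ _χ : IrrCharacter G, (Ω.card : ℝ) := by simp
      _ ≤ _ := Finset.sum_le_sum fun χ _ => hamgm χ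
  have hΩposR : (0 : ℝ) < Ω.card := by exact_mod_cast hΩpos
  refine ⟨?_, ?_⟩
  · have h1 : (Nat.card (IrrCharacter G) : ℝ) ≤ (Nat.card P : ℝ) := by
      rw [mul_comm] at hle
      exact le_of_mul_le_mul_left hle hΩposR
    exact_mod_cast h1
  · intro heq
    -- each sum is exactly the size of the orbit
    have hsum : ∑ _χ : IrrCharacter G, (Ω.card : ℝ) =
        ∑ χ : IrrCharacter G, ∑ x ∈ Ω, ‖(χ : G → ℂ) x‖ ^ 2 := by
      rw [htotal, ← heq, hcard]
      simp [mul_comm]
    have heach : ∀ χ : IrrCharacter G, (Ω.card : ℝ) = ∑ x ∈ Ω, ‖(χ : G → ℂ) x‖ ^ 2 := by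
      intro χ
      exact (Finset.sum_eq_sum_iff_of_le fun χ _ => hamgm χ).mp hsum χ (Finset.mem_univ _)
    -- characters of the quotient
    haveI : Fintype (G ⧸ (P : Subgroup G)) := Fintype.ofFinite _
    have hQ : ∀ β : (G ⧸ (P : Subgroup G)) → ℂ, IsIrrCharacter _ β → β 1 = 1 := by
      intro β hβ
      let mk : G →* G ⧸ (P : Subgroup G) := QuotientGroup.mk' _
      have hmk : Function.Surjective mk := QuotientGroup.mk'_surjective _
      have hirr : IsIrrCharacter G (β ∘ mk) := isIrrCharacter_comp_of_surjective mk hmk hβ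
      have h1 := heach ⟨β ∘ mk, hirr⟩
      have h2 : ∀ x ∈ Ω, ‖(β ∘ mk) x‖ ^ 2 = ‖β 1‖ ^ 2 := by
        intro x hx
        have h3 : mk x = 1 := (QuotientGroup.eq_one_iff x).mpr (hΩP x hx)
        simp only [Function.comp_apply]
        rw [h3]
      simp only at h1
      rw [Finset.sum_congr rfl h2] at h1
      simp only [Finset.sum_const, nsmul_eq_mul] at h1
      have h4 : ‖β 1‖ ^ 2 = 1 := by
        have h5 := mul_left_cancel₀ hΩposR.ne' (h1.symm.trans (mul_one _).symm)
        exact h5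
      obtain ⟨d, hd0, hd⟩ := Cfsg.Agent.Lib.Clifford.irr_degree_pos hβ
      rw [hd] at h4 ⊢
      have h6 : ((d : ℝ)) ^ 2 = 1 := by simpa using h4
      have h7 : d ^ 2 = 1 := by exact_mod_cast h6
      have h8 : d = 1 := by
        simpa using h7
      rw [h8]
      simp
    have hcomm := comm_of_irr_degree_one hQ
    rw [commutator_def, Subgroup.commutator_le]
    intro x _ y _
    rw [← QuotientGroup.eq_one_iff]
    simp only [commutatorElement_def, QuotientGroup.mk_mul, QuotientGroup.mk_inv]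
    rw [hcomm (x : G ⧸ (P : Subgroup G)) y]
    simp

end Cfsg.Agent.S0861
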