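import Mathlib
import Cfsg.Statements.S0864
import Cfsg.Agent.Lib.LinearExt

set_option autoImplicit false
open Cfsg

namespace Cfsg.Agent.S0864

open Cfsg.Agent.Lib.LinearExt

/-- Let N be a normal subgroup of the finite group G and λ a character of N of degree 1 invariant under conjugation by G. Suppose that for every prime p dividing the order of λ (in the group of functions under pointwise multiplication) there is a subgroup H containing N, of index prime to p and with the index of N in H a power of p, together with a character of H of degree 1 restricting to λ. Then λ is the restriction of a character of G of degree 1. -/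
theorem result {G : Type*} [Group G] [Finite G] (N : Subgroup G) [hN : N.Normal] (lam : N → ℂ) (hlam : Cfsg.IsCharacter N lam ∧ lam 1 = 1) (hinv : ∀ (g : G) (n : N), lam ⟨g * n * g⁻¹, hN.conj_mem (n : G) n.2 g⟩ = lam n) (hsyl : ∀ p : ℕ, p.Prime → p ∣ orderOf lam → ∃ (H : Subgroup G) (hNH : N ≤ H) (ν : H → ℂ), Nat.Coprime H.index p ∧ (∃ k : ℕ, N.relIndex H = p ^ k) ∧ Cfsg.IsCharacter H ν ∧ ν 1 = 1 ∧ ∀ n : N, ν ⟨(n : G), hNH n.2⟩ = lam n) : ∃ μ : G → ℂ, Cfsg.IsCharacter G μ ∧ μ 1 = 1 ∧ ∀ n : N, μ n = lam n := by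
  obtain ⟨f, hf⟩ := exists_hom hlam
  have hfinv : ∀ (g : G) (n : N), f ⟨g * n * g⁻¹, hN.conj_mem (n : G) n.2 g⟩ = f n := by
    intro g n
    apply Units.ext
    rw [← hf, ← hf, hinv]
  -- the order of `lam`
  have ho0 : orderOf lam ≠ 0 := by
    have h1 : lam ^ Nat.card N = 1 := by
      funext n
      rw [Pi.pow_apply, hf, Pi.one_apply, ← Units.val_pow_eq_pow_val, ← map_pow, pow_card_eq_one',
        map_one, Units.val_one]
    have h2 := orderOf_dvd_of_pow_eq_one h1
    intro h3
    rw [h3] at h2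
    have := Nat.eq_zero_of_zero_dvd h2
    exact Nat.card_pos.ne' this
  have ho : ∀ x, f x ^ orderOf lam = 1 := by
    intro x
    have h1 := congrFun (pow_orderOf_eq_one lam) x
    rw [Pi.pow_apply, hf, Pi.one_apply, ← Units.val_pow_eq_pow_val] at h1
    exact Units.ext h1
  obtain ⟨μ, hμ⟩ := exists_extension N f hfinv ho ho0 (by
    intro p hp hpo
    obtain ⟨H, hNH, ν, hcop, -, hνc, hν1, hν⟩ := hsyl p hp hpo
    obtain ⟨ν', hν'⟩ := exists_hom ⟨hνc, hν1⟩
    refine ⟨H, hNH, ν', hcop, fun n => ?_⟩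
    apply Units.ext
    rw [← hν', hν, hf])
  refine ⟨fun g => ((μ g : ℂˣ) : ℂ), isCharacter_of_hom μ, by simp, fun n => ?_⟩
  rw [hf]
  show ((μ n : ℂˣ) : ℂ) = _
  rw [hμ]

end Cfsg.Agent.S0864
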