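import Mathlib
import Cfsg.Statements.S0868
import Cfsg.Agent.Lib.CosetAvg

set_option autoImplicit false
open Cfsg
open scoped ComplexConjugate

namespace Cfsg.Agent.S0868

open Cfsg.Agent.Lib.CosetAvg Cfsg.Agent.Lib.CharBasic

/-- Let N be a normal subgroup of the finite group G, χ an irreducible character of G whose restriction ϑ to N is irreducible, and ψ an irreducible character of G. Define η on G by η g = (1 / order of N) * Σ over n in N of ψ (n * g) * conj (χ (n * g)). Then: if the restriction of ψ to N has nonzero inner product with ϑ, η is an irreducible character of G; if that inner product is zero, η vanishes identically; and if ψ = χ then η is identically 1. -/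
theorem result {G : Type*} [Group G] [Fintype G] (N : Subgroup G) [N.Normal] [Fintype N] (χ : G → ℂ) (hχ : Cfsg.IsIrrCharacter G χ) (hχN : Cfsg.IsIrrCharacter N (fun n : N => χ n)) (ψ : G → ℂ) (hψ : Cfsg.IsIrrCharacter G ψ) (η : G → ℂ) (hη : η = fun g => (Nat.card N : ℂ)⁻¹ * ∑ n : N, ψ ((n : G) * g) * conj (χ ((n : G) * g))) : (Cfsg.classInner (fun n : N => ψ n) (fun n : N => χ n) ≠ 0 → Cfsg.IsIrrCharacter G η) ∧ (Cfsg.classInner (fun n : N => ψ n) (fun n : N => χ n) = 0 → η = 0) ∧ (ψ = χ → η = fun _ => 1) := by
  have hχc := IsIrrCharacter.isCharacter hχ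
  have hψc := IsIrrCharacter.isCharacter hψ
  have hη' : η = cosetAvg N ψ χ := hη
  refine ⟨fun h => ?_, fun h => ?_, fun h => ?_⟩
  · rw [hη']
    exact isIrr_cosetAvg N hχc hχN hψ h
  · rw [hη']
    apply eq_zero_of_one_eq_zero (isCharacter_cosetAvg N hψc hχc)
    rw [cosetAvg_one, h]
  · subst h
    rw [hη']
    funext g
    exact avg_norm_sq_eq_one N hχc hχN g

end Cfsg.Agent.S0868
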