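import Mathlib
import Cfsg.Statements.S0875
import Cfsg.Agent.Lib.HallParts

set_option autoImplicit false
open Cfsg

namespace Cfsg.Agent.S0875

/-- Let G be a finite group of order m * n with m and n coprime, and g an element whose order is coprime to m. Every x in G factors uniquely as x = u * v with u, v commuting, the order of u coprime to n and the order of v coprime to m; let ϑ be the function on G equal to n at those x whose factor v is conjugate to g and equal to 0 elsewhere. Then ϑ is a linear combination of the irreducible characters of G with algebraic-integer coefficients. -/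
theorem result {G : Type*} [Group G] [Fintype G] (m n : ℕ) (hmn : Nat.card G = m * n) (hcop : Nat.Coprime m n) (g : G) (hg : Nat.Coprime (orderOf g) m) (ϑ : G → ℂ) (hϑ1 : ∀ x : G, (∃ v : G, IsConj v g ∧ (∃ u : G, x = u * v ∧ Commute u v ∧ Nat.Coprime (orderOf u) n ∧ Nat.Coprime (orderOf v) m)) → ϑ x = n) (hϑ0 : ∀ x : G, (¬ ∃ v : G, IsConj v g ∧ (∃ u : G, x = u * v ∧ Commute u v ∧ Nat.Coprime (orderOf u) n ∧ Nat.Coprime (orderOf v) m)) → ϑ x = 0) : ∃ c : Cfsg.IrrCharacter G → ℂ, (∀ χ, c χ ∈ Cfsg.AlgInt) ∧ ϑ = ∑ᶠ χ : Cfsg.IrrCharacter G, c χ • (χ : G → ℂ) := by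
  classical
  obtain ⟨k, k', h1, h2, h3, h4⟩ := Cfsg.Agent.Lib.HallParts.exists_exps m n hcop
  have hdvd : ∀ y : G, y ^ (m * n) = 1 := by
    intro y
    rw [← hmn]
    exact pow_card_eq_one'
  let τ : G → ℂ := fun b => if IsConj b g then 1 else 0
  have hτ : ∀ b, IsIntegral ℤ (τ b) := by
    intro b
    simp only [τ]
    split_ifs
    · exact isIntegral_one
    · exact isIntegral_zero
  have hval : ∀ a b : G, a ^ m = 1 → b ^ n = 1 → Commute a b → ϑ (a * b) = n * τ b := by
    intro a b ha hb hab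
    by_cases hc : IsConj b g
    · simp only [τ, if_pos hc, mul_one]
      refine hϑ1 _ ⟨b, hc, a, rfl, hab, ?_, ?_⟩
      · exact Nat.Coprime.coprime_dvd_left (orderOf_dvd_of_pow_eq_one ha) hcop
      · exact Nat.Coprime.coprime_dvd_left (orderOf_dvd_of_pow_eq_one hb) hcop.symm
    · simp only [τ, if_neg hc, mul_zero]
      apply hϑ0
      rintro ⟨v, hv, u, hx, hcomm, hu, hv'⟩
      apply hc
      have hu1 : u ^ m = 1 := by
        apply orderOf_dvd_iff_pow_eq_one.mp
        exact hu.dvd_of_dvd_mul_right (orderOf_dvd_of_pow_eq_one (hdvd u))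
      have hv1 : v ^ n = 1 := by
        apply orderOf_dvd_iff_pow_eq_one.mp
        exact hv'.dvd_of_dvd_mul_left (orderOf_dvd_of_pow_eq_one (hdvd v))
      have h5 := Cfsg.Agent.Lib.HallParts.part_right_eq h3 h4 hab ha hb
      have h6 := Cfsg.Agent.Lib.HallParts.part_right_eq h3 h4 hcomm hu1 hv1
      rw [← hx] at h6
      rw [← h5, h6]
      exact hv
  have hparts : ∀ x : G, x = x ^ k * x ^ k' := fun x =>
    (Cfsg.Agent.Lib.HallParts.parts_mul hcop h1 h2 h3 h4 (hdvd x)).symm
  have hclass : Cfsg.IsClassFunction G ϑ := by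
    intro x t
    have ha : (x ^ k) ^ m = 1 := Cfsg.Agent.Lib.HallParts.part_pow_left h2 (hdvd x)
    have hb : (x ^ k') ^ n = 1 := Cfsg.Agent.Lib.HallParts.part_pow_right h3 (hdvd x)
    have hc : Commute (x ^ k) (x ^ k') := (Commute.refl x).pow_pow k k'
    have h5 : t * x * t⁻¹ = (t * x ^ k * t⁻¹) * (t * x ^ k' * t⁻¹) := by
      conv_lhs => rw [hparts x]
      group
    have h6 : (t * x ^ k * t⁻¹) ^ m = 1 := by
      rw [conj_pow, ha]
      simp
    have h7 : (t * x ^ k' * t⁻¹) ^ n = 1 := by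
      rw [conj_pow, hb]
      simp
    have h8 : Commute (t * x ^ k * t⁻¹) (t * x ^ k' * t⁻¹) := by
      unfold Commute SemiconjBy
      simp only [conj_mul]
      rw [show x ^ k * x ^ k' = x ^ k' * x ^ k from hc]
    rw [h5, hval _ _ h6 h7 h8]
    conv_rhs => rw [hparts x, hval _ _ ha hb hc]
    congr 1
    simp only [τ]
    have h9 : IsConj (t * x ^ k' * t⁻¹) g ↔ IsConj (x ^ k') g := by
      constructor
      · exact fun h => (isConj_iff.mpr ⟨t, rfl⟩).trans h
      · exact fun h => (isConj_iff.mpr ⟨t, rfl⟩).symm.trans h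
    simp only [h9]
  have hint : ∀ χ : Cfsg.IrrCharacter G, IsIntegral ℤ (Cfsg.classInner ϑ (χ : G → ℂ)) := by
    intro χ
    apply Cfsg.Agent.Lib.HallParts.isIntegral_inner_global hclass _ (Cfsg.Agent.Lib.CharBasic.IsIrrCharacter.isCharacter χ.2)
    intro E p hp hE _ ψ hψ
    haveI : Fact p.Prime := ⟨hp⟩
    haveI : Group.IsNilpotent E := Cfsg.Agent.Lib.Monomial.isNilpotent_of_isElementary hE
    have hcard : Nat.card E ∣ m * n := by
      rw [← hmn]
      exact Subgroup.card_subgroup_dvd_card E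
    refine Cfsg.Agent.Lib.HallParts.isIntegral_inner_section hcop hcard (fun e : E => τ e)
      (fun e => hτ e) (fun e : E => ϑ e) ?_ hψ
    intro a b ha hb hab
    exact hval a b (congrArg Subtype.val ha) (congrArg Subtype.val hb) (congrArg Subtype.val hab)
  refine ⟨fun χ => Cfsg.classInner ϑ (χ : G → ℂ), hint, ?_⟩
  rw [finsum_eq_sum_of_fintype]
  exact Cfsg.Agent.Lib.CharBasic.classFunction_eq_sum hclass

end Cfsg.Agent.S0875
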