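import Mathlib
import Cfsg.Statements.S0876
import Cfsg.Agent.S0875
import Cfsg.Agent.Lib.BlkOrth
import Cfsg.Agent.Lib.BlockLocal
import Cfsg.Agent.Lib.CharValues
import Cfsg.Agent.Lib.DefectZero

set_option autoImplicit false
open Cfsg

namespace Cfsg.Agent.S0876

open Module in
/-- The value of a character at `x` and at the `p`-regular part of `x` are congruent. -/
theorem part_congr {G : Type*} [Group G] [Finite G] {p : ℕ} {M : Ideal Cfsg.AlgInt}
    (hM : Cfsg.IsPModular p M) (χ : G → ℂ) (hχ : Cfsg.IsCharacter G χ) (x a : G)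
    (ha : Cfsg.IsPPart p x a) : Cfsg.MemLocalIdeal M (χ x - χ (a⁻¹ * x)) := by
  classical
  have hprime := hM.2.1.isPrime
  have hp := hM.1
  obtain ⟨N, hN⟩ := Cfsg.Agent.Lib.BlkOrth.pPart_exists_pow hp ha
  obtain ⟨x₀, hx₀, hc, ⟨k, hk⟩, -⟩ := ha
  have hak : a ^ (p ^ k) = 1 := by
    rw [← hk]
    exact pow_orderOf_eq_one a
  obtain ⟨n, ρ, rfl⟩ := hχ
  obtain ⟨b, μ, h1, h2, h3, h4⟩ := Cfsg.Agent.Lib.CharValues.exists_eigenbasis_rep ρ x
  have hpow : ∀ (j : ℕ) (i : Fin (finrank ℂ (Fin n → ℂ))), ρ (x ^ j) (b i) = μ i ^ j • b i := by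
    intro j i
    induction j with
    | zero => simp
    | succ j ih =>
      rw [pow_succ, map_mul, Module.End.mul_apply, h1, map_smul, ih, smul_smul, pow_succ, mul_comm]
  have hint : ∀ (i : Fin (finrank ℂ (Fin n → ℂ))) (j : ℕ), IsIntegral ℤ (μ i ^ j) := by
    intro i j
    have hi : IsIntegral ℤ (μ i) := by
      refine IsIntegral.of_pow (n := Nat.card G) Nat.card_pos ?_
      rw [h2]
      exact isIntegral_one
    exact hi.pow j
  have hJ : a⁻¹ * x = x ^ (N * (Nat.card G - 1) + 1) := by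
    have h5 : (x ^ N) ^ (Nat.card G - 1) * x ^ N = 1 := by
      rw [← pow_succ, Nat.sub_add_cancel Nat.card_pos]
      exact pow_card_eq_one'
    have h6 : a⁻¹ = x ^ (N * (Nat.card G - 1)) := by
      rw [pow_mul, ← hN]
      exact (eq_inv_of_mul_eq_one_left h5).symm |> fun h => h.symm ▸ rfl
    rw [h6, pow_succ]
  have hch : ρ.character (a⁻¹ * x) = ∑ i, μ i ^ (N * (Nat.card G - 1) + 1) := by
    rw [hJ]
    exact Cfsg.Agent.Lib.CharValues.trace_eq_sum_of_eigenbasis _ b _ (hpow _)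
  rw [hch, h4, ← Finset.sum_sub_distrib]
  refine Cfsg.Agent.Lib.BlockLocal.memLocalIdeal_sum _ _ fun i _ => ?_
  have hroot : (μ i ^ N) ^ (p ^ k) = 1 := by
    have h7 := hpow (N * p ^ k) i
    rw [pow_mul x, hN, hak, map_one, Module.End.one_apply] at h7
    have hne : b i ≠ 0 := b.ne_zero i
    rw [← pow_mul]
    have h8 : (1 - μ i ^ (N * p ^ k)) • b i = 0 := by
      rw [sub_smul, one_smul, ← h7, sub_self]
    rcases smul_eq_zero.mp h8 with h9 | h9
    · exact (sub_eq_zero.mp h9).symm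
    · exact absurd h9 hne
  have hxi : (⟨μ i ^ N, hint i N⟩ : Cfsg.AlgInt) ^ (p ^ k) = 1 := by
    apply Subtype.ext
    simpa using hroot
  have h10 := Cfsg.Agent.Lib.DefectZero.sub_one_mem hp M hM.2.2 _ k hxi
  have h11 : Cfsg.MemLocalIdeal M (μ i ^ N - 1) := by
    have := Cfsg.Agent.Lib.BlockLocal.memLocalIdeal_coe h10
    simpa using this
  have h12 : μ i - μ i ^ (N * (Nat.card G - 1) + 1) =
      μ i ^ (N * (Nat.card G - 1) + 1) * (μ i ^ N - 1) := by
    have h13 : μ i ^ (N * (Nat.card G - 1) + 1) * μ i ^ N = μ i := by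
      rw [← pow_add]
      have h14 : N * (Nat.card G - 1) + 1 + N = N * Nat.card G + 1 := by
        have := Nat.card_pos (α := G)
        obtain ⟨c, hc⟩ : ∃ c, Nat.card G = c + 1 := ⟨Nat.card G - 1, by omega⟩
        rw [hc]
        simp
        ring
      rw [h14, pow_succ, pow_mul', h2, one_pow, one_mul]
    rw [mul_sub, h13, mul_one]
  rw [h12]
  exact Cfsg.Agent.Lib.BlockLocal.memLocalIdeal_mul_left
    (Cfsg.Agent.Lib.BlockLocal.memLocalRing_of_isIntegral (hint i _)) h11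

/-- Let G be a finite group, p a prime and M a maximal ideal of the ring of algebraic integers containing p. Let x, y be elements with p-parts a and b (so a⁻¹ * x and b⁻¹ * y are their p-regular parts). Then a⁻¹ * x and b⁻¹ * y are conjugate in G if and only if, for every irreducible character χ, the difference χ x - χ y lies in the local ideal at M. -/
theorem result {G : Type*} [Group G] [Finite G] (p : ℕ) (M : Ideal Cfsg.AlgInt) (hM : Cfsg.IsPModular p M) (x y a b : G) (ha : Cfsg.IsPPart p x a) (hb : Cfsg.IsPPart p y b) : IsConj (a⁻¹ * x) (b⁻¹ * y) ↔ ∀ χ : Cfsg.IrrCharacter G, Cfsg.MemLocalIdeal M ((χ : G → ℂ) x - (χ : G → ℂ) y) := by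
  classical
  have hprime := hM.2.1.isPrime
  have hp := hM.1
  constructor
  · intro hconj χ
    have h1 := part_congr hM (χ : G → ℂ) (Cfsg.Agent.Lib.CharBasic.IsIrrCharacter.isCharacter χ.2) x a ha
    have h2 := part_congr hM (χ : G → ℂ) (Cfsg.Agent.Lib.CharBasic.IsIrrCharacter.isCharacter χ.2) y b hb
    have h3 : (χ : G → ℂ) (a⁻¹ * x) = (χ : G → ℂ) (b⁻¹ * y) := by
      obtain ⟨c, hc⟩ := isConj_iff.mp hconj
      rw [← hc]
      exact (Cfsg.Agent.Lib.CharBasic.char_apply_conj (Cfsg.Agent.Lib.CharBasic.IsIrrCharacter.isCharacter χ.2) _ c).symm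
    have h4 : (χ : G → ℂ) x - (χ : G → ℂ) y =
        ((χ : G → ℂ) x - (χ : G → ℂ) (a⁻¹ * x)) - ((χ : G → ℂ) y - (χ : G → ℂ) (b⁻¹ * y)) := by
      rw [h3]; ring
    rw [h4]
    exact Cfsg.Agent.Lib.BlockLocal.memLocalIdeal_sub h1 h2
  · intro hall
    by_contra hnc
    letI : Fintype G := Fintype.ofFinite G
    obtain ⟨α, n, hn, hcard⟩ : ∃ α n : ℕ, ¬ p ∣ n ∧ Nat.card G = p ^ α * n := by
      refine ⟨(Nat.card G).factorization p, ordCompl[p] (Nat.card G), ?_, ?_⟩
      · exact Nat.not_dvd_ordCompl hp Nat.card_pos.ne'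
      · exact (Nat.ordProj_mul_ordCompl_eq_self _ _).symm
    have hpn := (Nat.Prime.coprime_iff_not_dvd hp).mpr hn
    have hcop : Nat.Coprime (p ^ α) n := Nat.Coprime.pow_left _ hpn
    obtain ⟨x₀, hx₀, hcx, hak, hx₀o⟩ := ha
    have hb' := hb
    obtain ⟨y₀, hy₀, hcy, hbk, hy₀o⟩ := hb
    have hxe : a⁻¹ * x = x₀ := by rw [← hx₀]; group
    have hye : b⁻¹ * y = y₀ := by rw [← hy₀]; group
    rw [hxe, hye] at hnc
    have hgo : Nat.Coprime (orderOf x₀) (p ^ α) :=
      Nat.Coprime.pow_right _ (Nat.coprime_comm.mp ((Nat.Prime.coprime_iff_not_dvd hp).mpr hx₀o))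
    let ϑ : G → ℂ := fun z => if (∃ v : G, IsConj v x₀ ∧ (∃ u : G, z = u * v ∧ Commute u v ∧
        Nat.Coprime (orderOf u) n ∧ Nat.Coprime (orderOf v) (p ^ α))) then (n : ℂ) else 0
    obtain ⟨c, hc, hϑ⟩ := Cfsg.Agent.S0875.result (p ^ α) n hcard hcop x₀ hgo ϑ
      (fun z hz => if_pos hz) (fun z hz => if_neg hz)
    have hϑx : ϑ x = n := by
      apply if_pos
      refine ⟨x₀, IsConj.refl _, a, hx₀.symm, hcx, ?_, hgo⟩
      obtain ⟨k, hk⟩ := hak
      rw [hk]
      exact Nat.Coprime.pow_left _ hpn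
    have hϑy : ϑ y = 0 := by
      apply if_neg
      rintro ⟨v, hv, u, huv, hcuv, huo, hvo⟩
      have h0u : orderOf u ∣ p ^ α * n := by
        rw [← hcard]
        exact orderOf_dvd_natCard u
      have h0v : orderOf v ∣ p ^ α * n := by
        rw [← hcard]
        exact orderOf_dvd_natCard v
      have hu : ∃ k, orderOf u = p ^ k := by
        have h2 : orderOf u ∣ p ^ α := huo.dvd_of_dvd_mul_right h0u
        obtain ⟨k, -, hk⟩ := (Nat.dvd_prime_pow hp).mp h2
        exact ⟨k, hk⟩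
      have hvp : ¬ p ∣ orderOf v := by
        intro h
        exact hn (h.trans (hvo.dvd_of_dvd_mul_left h0v))
      have hpart : Cfsg.IsPPart p y u := ⟨v, huv.symm, hcuv, hu, hvp⟩
      have hub := Cfsg.Agent.Lib.BlkOrth.pPart_unique hp hpart hb'
      have hvy : v = y₀ := by
        have : b * v = b * y₀ := by
          rw [← hub, ← huv, hub, hy₀]
        exact mul_left_cancel this
      rw [hvy] at hv
      exact hnc hv.symm
    have hval : ∀ z, ϑ z = ∑ χ : Cfsg.IrrCharacter G, c χ * (χ : G → ℂ) z := by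
      intro z
      rw [hϑ, finsum_eq_sum_of_fintype, Finset.sum_apply]
      rfl
    have hloc : Cfsg.MemLocalIdeal M (n : ℂ) := by
      have h1 : (n : ℂ) = ∑ χ : Cfsg.IrrCharacter G, c χ * ((χ : G → ℂ) x - (χ : G → ℂ) y) := by
        have h2 : (n : ℂ) = ϑ x - ϑ y := by rw [hϑx, hϑy, sub_zero]
        rw [h2, hval x, hval y, ← Finset.sum_sub_distrib]
        refine Finset.sum_congr rfl fun χ _ => ?_
        ring
      rw [h1]
      refine Cfsg.Agent.Lib.BlockLocal.memLocalIdeal_sum _ _ fun χ _ => ?_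
      exact Cfsg.Agent.Lib.BlockLocal.memLocalIdeal_mul_left
        (Cfsg.Agent.Lib.BlockLocal.memLocalRing_of_isIntegral (hc χ)) (hall χ)
    exact Cfsg.Agent.Lib.BlockLocal.not_memLocalIdeal_natCast hM hn hloc

end Cfsg.Agent.S0876
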