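import Mathlib
import Cfsg.Statements.S0877
import Cfsg.Agent.Lib.BrauerSuzukiGroup
import Cfsg.Agent.Lib.CharKernel
import Cfsg.Agent.Lib.GenChar
import Cfsg.Agent.Lib.BrauerGlobal
import Cfsg.Agent.Lib.Monomial

set_option autoImplicit false
set_option linter.unusedVariables false
set_option linter.unusedSectionVars false
open Cfsg

namespace Cfsg.Agent.S0877

open Cfsg.Agent.Lib.CharBasic Cfsg.Agent.Lib.HallParts Cfsg.Agent.Lib.BrauerSuzuki
open scoped ComplexConjugate

section Hat

variable {G : Type*} [Group G] [Finite G] {H : Subgroup G}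

open Classical in
/-- The extension of a function on `H` to `G` through the `H`-part of the element. -/
noncomputable def hat (H : Subgroup G) (k : ℕ) (ψ : H → ℂ) (x : G) : ℂ :=
  if h : ∃ t : G, t * x ^ k * t⁻¹ ∈ H then
    ψ ⟨Classical.choose h * x ^ k * (Classical.choose h)⁻¹, Classical.choose_spec h⟩ else 0

theorem hat_eq (hB : BS H) {ψ : H → ℂ} (hψ : IsClassFunction H ψ) {k : ℕ} {x t : G}
    (ht : t * x ^ k * t⁻¹ ∈ H) : hat H k ψ x = ψ ⟨t * x ^ k * t⁻¹, ht⟩ := by
  have hex : ∃ t : G, t * x ^ k * t⁻¹ ∈ H := ⟨t, ht⟩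
  rw [hat, dif_pos hex]
  have ht₀ := Classical.choose_spec hex
  obtain ⟨c, hc, hcg⟩ := hB.fus _ ht₀ _ ht
    (isConj_iff.mpr ⟨t * (Classical.choose hex)⁻¹, by group⟩)
  have h5 := hψ ⟨_, ht₀⟩ ⟨c, hc⟩
  rw [← h5]
  congr 1
  exact Subtype.ext hcg

variable {k : ℕ} (hB : BS H) (h1 : k ≡ 1 [MOD Nat.card H]) (h2 : k ≡ 0 [MOD H.index])

include hB h2 in
theorem hpow (x : G) : (x ^ k) ^ Nat.card H = 1 := by
  refine part_pow_left h2 ?_
  rw [← card_eq_mul hB]
  exact pow_card_eq_one'

include hB h2 in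
theorem hat_class {ψ : H → ℂ} (hψ : IsClassFunction H ψ) : IsClassFunction G (hat H k ψ) := by
  intro x s
  obtain ⟨t, ht⟩ := exists_conj_into hB (hpow hB h2 x)
  have h5 : (t * s⁻¹) * (s * x * s⁻¹) ^ k * (t * s⁻¹)⁻¹ = t * x ^ k * t⁻¹ := by
    rw [conj_pow]
    group
  have ht' : (t * s⁻¹) * (s * x * s⁻¹) ^ k * (t * s⁻¹)⁻¹ ∈ H := by
    rw [h5]
    exact ht
  rw [hat_eq hB hψ ht', hat_eq hB hψ ht]
  congr 1
  exact Subtype.ext h5

include hB h1 h2 in
theorem hat_pow {ψ : H → ℂ} (hψ : IsClassFunction H ψ) (x : G) : hat H k ψ (x ^ k) = hat H k ψ x := by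
  have h5 : (x ^ k) ^ k = x ^ k := by
    rw [pow_eq_of_modEq (hpow hB h2 x) h1, pow_one]
  obtain ⟨t, ht⟩ := exists_conj_into hB (hpow hB h2 x)
  have ht' : t * (x ^ k) ^ k * t⁻¹ ∈ H := by
    rw [h5]
    exact ht
  rw [hat_eq hB hψ ht', hat_eq hB hψ ht]
  congr 1
  apply Subtype.ext
  simp only [h5]

include hB h1 in
theorem hat_mem {ψ : H → ℂ} (hψ : IsClassFunction H ψ) (h : H) : hat H k ψ h = ψ h := by
  have h5 : (h : G) ^ k = h := by
    rw [pow_eq_of_modEq (pow_card_H hB h.2) h1, pow_one]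
  have ht : (1 : G) * (h : G) ^ k * 1⁻¹ ∈ H := by
    rw [h5]
    simpa using h.2
  rw [hat_eq hB hψ ht]
  congr 1
  apply Subtype.ext
  simp [h5]

include hB h1 h2 in
/-- The extension of a character is a generalized character. -/
theorem hat_isGen {ψ : H → ℂ} (hψ : IsCharacter H ψ) : IsGeneralizedCharacter G (hat H k ψ) := by
  classical
  letI := Fintype.ofFinite G
  have hψc := isClassFunction_of_isCharacter hψ
  apply Cfsg.Agent.Lib.BrauerGlobal.isGeneralizedCharacter_of_elementary (hat_class hB h2 hψc)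
  intro E p hp hE
  haveI : Fact p.Prime := ⟨hp⟩
  haveI : Group.IsNilpotent E := Cfsg.Agent.Lib.Monomial.isNilpotent_of_isElementary hE
  have hcop := hB.hall
  have hcard : Nat.card E ∣ Nat.card H * H.index := by
    rw [← card_eq_mul hB]
    exact Subgroup.card_subgroup_dvd_card E
  let A : Subgroup E := killed hcop hcard
  have hAcard : Nat.card A ∣ Nat.card H :=
    card_killed'_dvd hcop.symm (by rwa [mul_comm])
  let A' : Subgroup G := A.map E.subtype
  have hA'card : Nat.card A' = Nat.card A :=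
    (Nat.card_congr (A.equivMapOfInjective E.subtype E.subtype_injective).toEquiv).symm
  have hA'el : IsElementary p A' :=
    Cfsg.Agent.Lib.BrauerInd.IsElementary_of_mulEquiv
      (A.equivMapOfInjective E.subtype E.subtype_injective) (isElementary_subgroup hp hE A)
  obtain ⟨g, hg⟩ := hB.elem A' p hp hA'el (by rw [hA'card]; exact hAcard)
  have hex : ∀ e : E, e ^ (Nat.card H * H.index) = 1 := pow_total hcard
  have hmem : ∀ e : E, e ^ k ∈ A := fun e => part_pow_left h2 (hex e)
  have hgm : ∀ e : E, g * (e : G) ^ k * g⁻¹ ∈ H := by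
    intro e
    apply hg
    refine ⟨((e ^ k : E) : G), ⟨e ^ k, hmem e, rfl⟩, ?_⟩
    simp [MulAut.conj_apply]
  obtain ⟨k₀, k', -, -, h3, h4⟩ := exists_exps _ _ hcop
  have hmulpow : ∀ a b : E, (a * b) ^ k = a ^ k * b ^ k := by
    intro a b
    have hmem' : ∀ e : E, e ^ k' ∈ killed' hcop hcard := fun e => part_pow_right h3 (hex e)
    have ha := parts_mul hcop h1 h2 h3 h4 (hex a)
    have hb := parts_mul hcop h1 h2 h3 h4 (hex b)
    have hc : Commute (a ^ k') (b ^ k) := (killed_commute hcop hcard _ _ (hmem b) (hmem' a)).symm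
    have h5 : a * b = (a ^ k * b ^ k) * (a ^ k' * b ^ k') := by
      calc a * b = (a ^ k * a ^ k') * (b ^ k * b ^ k') := by rw [ha, hb]
        _ = a ^ k * (a ^ k' * b ^ k) * b ^ k' := by group
        _ = a ^ k * (b ^ k * a ^ k') * b ^ k' := by rw [hc.eq]
        _ = _ := by group
    have h6 : a ^ k * b ^ k ∈ A := A.mul_mem (hmem a) (hmem b)
    have h7 : a ^ k' * b ^ k' ∈ killed' hcop hcard :=
      (killed' hcop hcard).mul_mem (hmem' a) (hmem' b)
    conv_lhs => rw [h5]
    exact part_left_eq h1 h2 (killed_commute hcop hcard _ _ h6 h7) h6 h7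
  let f : E →* H :=
    { toFun := fun e => ⟨g * (e : G) ^ k * g⁻¹, hgm e⟩
      map_one' := by
        apply Subtype.ext
        simp
      map_mul' := by
        intro a b
        apply Subtype.ext
        have h5 : ((a * b : E) : G) ^ k = (a : G) ^ k * (b : G) ^ k := by
          have := congrArg (Subtype.val) (hmulpow a b)
          simpa using this
        show g * ((a * b : E) : G) ^ k * g⁻¹ = (g * (a : G) ^ k * g⁻¹) * (g * (b : G) ^ k * g⁻¹)
        rw [h5]
        group }
  have hcomp : (fun e : E => hat H k ψ e) = ψ ∘ f := by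
    funext e
    exact hat_eq hB hψc (hgm e)
  rw [hcomp]
  exact Cfsg.Agent.Lib.GenChar.isGen_of_isChar (isCharacter_comp f hψ)

include hB h1 h2 in
/-- The extension is an isometry. -/
theorem hat_inner [Fintype G] [Fintype H] {ψ φ : H → ℂ} (hψ : IsClassFunction H ψ)
    (hφ : IsClassFunction H φ) : classInner (hat H k ψ) (hat H k φ) = classInner ψ φ := by
  unfold classInner
  let f : G → ℂ := fun u => hat H k ψ u * conj (hat H k φ u)
  have hf : IsClassFunction G f := by
    intro x s
    simp only [f]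
    rw [hat_class hB h2 hψ, hat_class hB h2 hφ]
  have h3 := sum_part hB h1 h2 f hf
  have h4 : ∀ x, f (x ^ k) = f x := by
    intro x
    simp only [f]
    rw [hat_pow hB h1 h2 hψ, hat_pow hB h1 h2 hφ]
  simp only [h4] at h3
  have h5 : ∑ h : H, f h = ∑ h : H, ψ h * conj (φ h) := by
    refine Finset.sum_congr rfl fun h _ => ?_
    simp only [f]
    rw [hat_mem hB h1 hψ, hat_mem hB h1 hφ]
  show (Nat.card G : ℂ)⁻¹ * ∑ x, f x = _
  rw [h3, h5, ← mul_assoc]
  congr 1
  rw [card_eq_mul hB]
  have hm0' : (Nat.card H : ℂ) ≠ 0 := by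
    exact_mod_cast (Nat.card_pos (α := H)).ne'
  have hn0' : (H.index : ℂ) ≠ 0 := by
    exact_mod_cast (Subgroup.index_ne_zero_of_finite (H := H))
  push_cast
  field_simp

include hB h1 h2 in
/-- The extension of an irreducible character is irreducible. -/
theorem hat_irr [Fintype G] [Fintype H] {ψ : H → ℂ} (hψ : IsIrrCharacter H ψ) :
    IsIrrCharacter G (hat H k ψ) := by
  have hχ := IsIrrCharacter.isCharacter hψ
  have hc := isClassFunction_of_isCharacter hχ
  have hnorm : classInner (hat H k ψ) (hat H k ψ) = 1 := by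
    rw [hat_inner hB h1 h2 hc hc]
    exact classInner_irr_self hψ
  rcases Cfsg.Agent.Lib.GenChar.gen_norm_one (hat_isGen hB h1 h2 hχ) hnorm with h | h
  · exact h
  · exfalso
    have h3 := Cfsg.Agent.Lib.CharKernel.charDegree_pos h
    have h4 := Cfsg.Agent.Lib.CharKernel.charDegree_pos hψ
    have h5 := Cfsg.Agent.Lib.CharKernel.one_eq_charDegree (IsIrrCharacter.isCharacter h)
    have h6 := Cfsg.Agent.Lib.CharKernel.one_eq_charDegree hχ
    have h7 : hat H k ψ 1 = ψ 1 := hat_mem hB h1 hc (1 : H)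
    have h8 : (-hat H k ψ) 1 = -ψ 1 := by
      rw [Pi.neg_apply, h7]
    rw [h8, h6] at h5
    have h9 : (charDegree ψ : ℂ) + (charDegree (-hat H k ψ) : ℂ) = 0 := by
      rw [← h5]
      ring
    have h10 : charDegree ψ + charDegree (-hat H k ψ) = 0 := by exact_mod_cast h9
    omega

include hB h1 h2 in
theorem card_part_one [Fintype G] [Fintype H] : Nat.card {x : G // x ^ k = 1} = H.index := by
  classical
  let f : G → ℂ := fun u => if u = 1 then 1 else 0
  have hf : IsClassFunction G f := by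
    intro x s
    simp only [f]
    have h5 : s * x * s⁻¹ = 1 ↔ x = 1 := by
      constructor
      · intro h
        have h6 : x = s⁻¹ * (s * x * s⁻¹) * s := by group
        rw [h6, h]
        group
      · rintro rfl
        group
    simp only [h5]
  have h3 := sum_part hB h1 h2 f hf
  have h4 : ∑ h : H, f h = 1 := by
    rw [Finset.sum_eq_single (1 : H)]
    · simp [f]
    · intro b _ hb
      simp only [f]
      rw [if_neg]
      intro h
      exact hb (Subtype.ext h)
    · simp
  rw [h4, mul_one] at h3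
  simp only [f] at h3
  rw [← card_as_sum] at h3
  exact_mod_cast h3

include hB h1 h2 in
/-- An element in the kernels of all extensions has trivial part. -/
theorem part_eq_one_of_kernels [Fintype G] [Fintype H] {x : G}
    (hx : ∀ ψ : IrrCharacter H, hat H k (ψ : H → ℂ) x = hat H k (ψ : H → ℂ) 1) : x ^ k = 1 := by
  classical
  obtain ⟨t, ht⟩ := exists_conj_into hB (hpow hB h2 x)
  have hval : ∀ ψ : IrrCharacter H, (ψ : H → ℂ) ⟨t * x ^ k * t⁻¹, ht⟩ = (ψ : H → ℂ) 1 := by
    intro ψ
    have hc := isClassFunction_of_isCharacter (IsIrrCharacter.isCharacter ψ.2)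
    have h5 := hx ψ
    rw [hat_eq hB hc ht, show (1 : G) = ((1 : H) : G) from rfl, hat_mem hB h1 hc] at h5
    exact h5
  have h3 := Cfsg.Agent.Lib.CharKernel.sum_irr_deg_mul (⟨t * x ^ k * t⁻¹, ht⟩ : H)
  have h4 := Cfsg.Agent.Lib.CharKernel.sum_irr_deg_mul (1 : H)
  have h5 : ∑ χ : IrrCharacter H, (χ : H → ℂ) 1 * (χ : H → ℂ) ⟨t * x ^ k * t⁻¹, ht⟩ =
      ∑ χ : IrrCharacter H, (χ : H → ℂ) 1 * (χ : H → ℂ) 1 :=
    Finset.sum_congr rfl fun χ _ => by rw [hval χ]
  rw [h5, h4, if_pos rfl] at h3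
  by_cases h6 : (⟨t * x ^ k * t⁻¹, ht⟩ : H) = 1
  · have h7 : t * x ^ k * t⁻¹ = 1 := congrArg Subtype.val h6
    have h8 : x ^ k = t⁻¹ * (t * x ^ k * t⁻¹) * t := by group
    rw [h8, h7]
    group
  · rw [if_neg h6] at h3
    exact absurd h3 (by exact_mod_cast (Nat.card_pos (α := H)).ne')

end Hat

/-- Let H be a subgroup of the finite group G whose order is coprime to its index. Suppose that elements of H conjugate in G are conjugate in H, and that every subgroup E of G that is elementary for some prime (in the sense used for Brauer's characterisation of characters) and whose order divides the order of H is conjugate to a subgroup of H. Then there is a normal subgroup K with K ⊔ H = ⊤ and K ⊓ H trivial. -/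
theorem result {G : Type*} [Group G] [Finite G] (H : Subgroup G) (hHall : Nat.Coprime (Nat.card H) H.index) (hfus : ∀ x ∈ H, ∀ y ∈ H, IsConj x y → ∃ h ∈ H, h * x * h⁻¹ = y) (helem : ∀ (E : Subgroup G) (p : ℕ), p.Prime → Cfsg.IsElementary p E → Nat.card E ∣ Nat.card H → ∃ g : G, E.map (MulAut.conj g).toMonoidHom ≤ H) : ∃ K : Subgroup G, K.Normal ∧ K ⊔ H = ⊤ ∧ K ⊓ H = ⊥ := by
  classical
  letI : Fintype G := Fintype.ofFinite G
  letI : Fintype H := Fintype.ofFinite H
  have hB : BS H := ⟨hHall, hfus, helem⟩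
  obtain ⟨k, k', h1, h2, -, -⟩ := exists_exps _ _ hHall
  let K : Subgroup G := ⨅ ψ : IrrCharacter H,
    Cfsg.Agent.Lib.CharKernel.charKer (IsIrrCharacter.isCharacter (hat_irr hB h1 h2 ψ.2))
  have hmemK : ∀ x : G, x ∈ K ↔ x ^ k = 1 := by
    intro x
    simp only [K, Subgroup.mem_iInf, Cfsg.Agent.Lib.CharKernel.mem_charKer]
    constructor
    · exact fun h => part_eq_one_of_kernels hB h1 h2 h
    · intro h ψ
      have hc := isClassFunction_of_isCharacter (IsIrrCharacter.isCharacter ψ.2)
      rw [← hat_pow hB h1 h2 hc x, h]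
  have hnormal : K.Normal := by
    constructor
    intro x hx s
    rw [hmemK] at hx ⊢
    rw [conj_pow, hx]
    group
  have hcardK : Nat.card K = H.index := by
    rw [← card_part_one hB h1 h2]
    exact Nat.card_congr (Equiv.subtypeEquivRight hmemK)
  have hdisj : Disjoint K H := by
    rw [Subgroup.disjoint_def]
    intro x hx hxH
    rw [hmemK] at hx
    have h5 : x ^ k = x := by
      rw [pow_eq_of_modEq (pow_card_H hB hxH) h1, pow_one]
    rw [← h5, hx]
  refine ⟨K, hnormal, ?_, disjoint_iff.mp hdisj⟩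
  apply Subgroup.IsComplement'.sup_eq_top
  apply Subgroup.isComplement'_of_card_mul_and_disjoint _ hdisj
  rw [hcardK, mul_comm, Subgroup.card_mul_index]

end Cfsg.Agent.S0877
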