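import Mathlib
import Cfsg.Statements.S0878
import Cfsg.Agent.Lib.Zassenhaus

set_option autoImplicit false
open Cfsg

namespace Cfsg.Agent.S0878

open Cfsg.Agent.Lib.Zassenhaus MulAction

/-- Let G be a Zassenhaus group on the finite set Ω, a a point, and let H be the subgroup of the stabilizer of a consisting of the identity and the elements fixing no point other than a (given here as a subgroup of the stabilizer of order one less than the number of points whose non-identity elements fix only a; it is the Frobenius kernel of the stabilizer). Then an element outside the stabilizer of a conjugates no non-identity element of H into H, and the normalizer of H is exactly the stabilizer of a. -/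
theorem result {G Ω : Type*} [Group G] [Finite G] [MulAction G Ω] [Fintype Ω] (hZ : Cfsg.IsZassenhausGroup G Ω) (a : Ω) (H : Subgroup G) (hHa : H ≤ MulAction.stabilizer G a) (hHcard : Nat.card H + 1 = Fintype.card Ω) (hHfix : ∀ u ∈ H, u ≠ 1 → ∀ c : Ω, u • c = c → c = a) : (∀ g : G, g ∉ MulAction.stabilizer G a → ∀ u ∈ H, g * u * g⁻¹ ∈ H → u = 1) ∧ Subgroup.normalizer (H : Set G) = MulAction.stabilizer G a := by
  classical
  have h1 : ∀ g : G, g ∉ MulAction.stabilizer G a → ∀ u ∈ H, g * u * g⁻¹ ∈ H → u = 1 := by
    intro g hg u hu hgu
    by_contra hu1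
    apply hg
    have hne : g * u * g⁻¹ ≠ 1 := by
      intro h
      apply hu1
      have : u = g⁻¹ * (g * u * g⁻¹) * g := by group
      rw [this, h]; simp
    have hfix : (g * u * g⁻¹) • (g • a) = g • a := by
      have hua : u • a = a := hHa hu
      simp [mul_smul, hua]
    exact hHfix _ hgu hne _ hfix
  refine ⟨h1, ?_⟩
  have hconj : ∀ g : G, g • a = a → ∀ u ∈ H, g * u * g⁻¹ ∈ H := by
    intro g hg u hu
    by_cases hu1 : u = 1
    · rw [hu1]; simp [H.one_mem]
    · apply mem_kernel_of_fix_only hZ a H hHa hHcard hHfix
      · have hua : u • a = a := hHa hu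
        have : g⁻¹ • a = a := by rw [inv_smul_eq_iff, hg]
        simp [mul_smul, this, hua, hg]
      · intro c hc
        have hc2 : u • (g⁻¹ • c) = g⁻¹ • c := by
          have h5 : g • (u • g⁻¹ • c) = c := by simpa [mul_smul] using hc
          exact eq_inv_smul_iff.mpr h5
        have := hHfix u hu hu1 _ hc2
        rw [inv_smul_eq_iff] at this
        rw [this, hg]
  apply le_antisymm
  · intro g hg
    by_contra hgs
    -- pick a non-trivial element of `H`
    have h3 := three_le_card hZ
    have hH2 : 1 < Nat.card H := by omega
    haveI : Finite H := inferInstance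
    rw [Finite.one_lt_card_iff_nontrivial] at hH2
    obtain ⟨u, hu⟩ := exists_ne (1 : H)
    have hu' : (u : G) ≠ 1 := fun h => hu (Subtype.ext h)
    apply hu'
    apply h1 g hgs u u.2
    exact (Subgroup.mem_normalizer_iff.mp hg u).mp u.2
  · intro g hg
    rw [Subgroup.mem_normalizer_iff]
    intro u
    constructor
    · intro hu
      exact hconj g hg u hu
    · intro hu
      have hg' : g⁻¹ • a = a := by rw [inv_smul_eq_iff]; exact (show g • a = a from hg).symm
      have := hconj g⁻¹ hg' _ hu
      simpa [mul_assoc] using this

end Cfsg.Agent.S0878
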