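import Mathlib
import Cfsg.Statements.S0879
import Cfsg.Agent.Lib.Zassenhaus

set_option autoImplicit false
open Cfsg

namespace Cfsg.Agent.S0879

open Cfsg.Agent.Lib.Zassenhaus MulAction

/-- An element conjugating a non-trivial element of the two-point stabiliser into it preserves the
pair. -/
theorem pair_of_conj {G Ω : Type*} [Group G] [MulAction G Ω] (hZ : Cfsg.IsZassenhausGroup G Ω)
    {a b : Ω} (hab : a ≠ b) {g x : G} (hx1 : x ≠ 1) (hxa : x • a = a) (hxb : x • b = b)
    (h1 : (g * x * g⁻¹) • a = a) (h2 : (g * x * g⁻¹) • b = b) :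
    (g • a = a ∧ g • b = b) ∨ (g • a = b ∧ g • b = a) := by
  have hne : g * x * g⁻¹ ≠ 1 := by
    intro h
    apply hx1
    have : x = g⁻¹ * (g * x * g⁻¹) * g := by group
    rw [this, h]; simp
  have ha : (g * x * g⁻¹) • (g • a) = g • a := by simp [mul_smul, hxa]
  have hb : (g * x * g⁻¹) • (g • b) = g • b := by simp [mul_smul, hxb]
  have hga := eq_or_eq_of_fix hZ hab hne h1 h2 ha
  have hgb := eq_or_eq_of_fix hZ hab hne h1 h2 hb
  have hgab : g • a ≠ g • b := fun h => hab (smul_left_cancel g h)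
  rcases hga with hga | hga <;> rcases hgb with hgb | hgb
  · exact absurd (hga.trans hgb.symm) hgab
  · exact Or.inl ⟨hga, hgb⟩
  · exact Or.inr ⟨hga, hgb⟩
  · exact absurd (hga.trans hgb.symm) hgab

/-- Let G be a Zassenhaus group on the finite set Ω and E the stabilizer of two distinct points a, b. Then an element outside the normalizer of E conjugates no non-identity element of E into E, and E has index 2 in its normalizer. -/
theorem result {G Ω : Type*} [Group G] [Finite G] [MulAction G Ω] [Fintype Ω] (hZ : Cfsg.IsZassenhausGroup G Ω) {a b : Ω} (hab : a ≠ b) : (∀ g : G, g ∉ Subgroup.normalizer ((MulAction.stabilizer G a ⊓ MulAction.stabilizer G b : Subgroup G) : Set G) → ∀ x ∈ (MulAction.stabilizer G a ⊓ MulAction.stabilizer G b : Subgroup G), g * x * g⁻¹ ∈ (MulAction.stabilizer G a ⊓ MulAction.stabilizer G b : Subgroup G) → x = 1) ∧ ((MulAction.stabilizer G a ⊓ MulAction.stabilizer G b : Subgroup G).subgroupOf (Subgroup.normalizer ((MulAction.stabilizer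 G a ⊓ MulAction.stabilizer G b : Subgroup G) : Set G))).index = 2 := by
  classical
  set E : Subgroup G := MulAction.stabilizer G a ⊓ MulAction.stabilizer G b with hE
  have hmemE : ∀ x : G, x ∈ E ↔ x • a = a ∧ x • b = b := by
    intro x
    simp [hE, Subgroup.mem_inf, MulAction.mem_stabilizer_iff]
  -- elements preserving the pair normalize `E`
  have hginv : ∀ g : G, ((g • a = a ∧ g • b = b) ∨ (g • a = b ∧ g • b = a)) →
      (g⁻¹ • a = a ∧ g⁻¹ • b = b) ∨ (g⁻¹ • a = b ∧ g⁻¹ • b = a) := by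
    intro g hg
    rcases hg with ⟨h1, h2⟩ | ⟨h1, h2⟩
    · left
      exact ⟨by rw [inv_smul_eq_iff, h1], by rw [inv_smul_eq_iff, h2]⟩
    · right
      exact ⟨by rw [inv_smul_eq_iff, h2], by rw [inv_smul_eq_iff, h1]⟩
  have hconj : ∀ g : G, ((g • a = a ∧ g • b = b) ∨ (g • a = b ∧ g • b = a)) →
      ∀ x ∈ E, g * x * g⁻¹ ∈ E := by
    intro g hg x hx
    obtain ⟨hxa, hxb⟩ := (hmemE x).mp hx
    rw [hmemE]
    simp only [mul_smul]
    rcases hginv g hg with ⟨h1, h2⟩ | ⟨h1, h2⟩
    · rw [h1, h2, hxa, hxb]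
      rcases hg with ⟨h3, h4⟩ | ⟨h3, h4⟩
      · exact ⟨h3, h4⟩
      · exact absurd (h1.symm.trans (by rw [inv_smul_eq_iff, h4])) hab
    · rw [h1, h2, hxa, hxb]
      rcases hg with ⟨h3, h4⟩ | ⟨h3, h4⟩
      · exact absurd (h1.symm.trans (by rw [inv_smul_eq_iff, h3])) hab.symm
      · exact ⟨h4, h3⟩
  have hnorm : ∀ g : G, ((g • a = a ∧ g • b = b) ∨ (g • a = b ∧ g • b = a)) →
      g ∈ Subgroup.normalizer (E : Set G) := by
    intro g hg
    rw [Subgroup.mem_normalizer_iff]
    intro x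
    constructor
    · exact hconj g hg x
    · intro hx
      have := hconj g⁻¹ (hginv g hg) _ hx
      simpa [mul_assoc] using this
  -- non-trivial element
  obtain ⟨x₀, hx₀, hx₀a, hx₀b⟩ := exists_ne_one_fix hZ hab
  have hx₀E : x₀ ∈ E := (hmemE x₀).mpr ⟨hx₀a, hx₀b⟩
  -- the normalizer preserves the pair
  have hpair : ∀ g ∈ Subgroup.normalizer (E : Set G),
      (g • a = a ∧ g • b = b) ∨ (g • a = b ∧ g • b = a) := by
    intro g hg
    have h1 := (Subgroup.mem_normalizer_iff.mp hg x₀).mp hx₀E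
    have h2 := (hmemE _).mp h1
    exact pair_of_conj hZ hab hx₀ hx₀a hx₀b h2.1 h2.2
  constructor
  · intro g hg x hx hgx
    by_contra hx1
    apply hg
    have h1 := (hmemE _).mp hx
    have h2 := (hmemE _).mp hgx
    exact hnorm g (pair_of_conj hZ hab hx1 h1.1 h1.2 h2.1 h2.2)
  · obtain ⟨t, ht1, ht2⟩ := two_trans hZ hab hab.symm
    have htN : t ∈ Subgroup.normalizer (E : Set G) := hnorm t (Or.inr ⟨ht1, ht2⟩)
    rw [Subgroup.index_eq_two_iff]
    refine ⟨⟨t, htN⟩, ?_⟩
    rintro ⟨y, hy⟩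
    simp only [Subgroup.mem_subgroupOf, Subgroup.coe_mul]
    rw [hmemE, hmemE]
    have hpy := hpair y hy
    rcases hpy with ⟨h1, h2⟩ | ⟨h1, h2⟩
    · right
      refine ⟨⟨h1, h2⟩, ?_⟩
      rintro ⟨h3, -⟩
      rw [mul_smul, ht1, h2] at h3
      exact hab h3.symm
    · left
      refine ⟨⟨?_, ?_⟩, ?_⟩
      · rw [mul_smul, ht1, h2]
      · rw [mul_smul, ht2, h1]
      · rintro ⟨h3, -⟩
        rw [h1] at h3
        exact hab h3.symm

end Cfsg.Agent.S0879
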