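import Cfsg.Statements.S0881
import Mathlib
import Cfsg.Agent.Lib.ZassChar

set_option autoImplicit false
open Cfsg

namespace Cfsg.Agent.S0881

/-- Let G be a finite simple Zassenhaus group on Ω with n points, a ≠ b points with two-point stabilizer E of odd order less than n - 2, and let H be the subgroup of the stabilizer of a consisting of the identity and the elements fixing no point other than a (given here as a subgroup of the stabilizer of order one less than the number of points whose non-identity elements fix only a; it is the Frobenius kernel of the stabilizer). Let μ be a character of degree 1 of the stabilizer of a that is identically 1 on H but not identically 1. Then the function induced from μ to G is an irreducible character of G, and it takes the value 1 at every non-identity element of H. -/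
theorem result {G Ω : Type*} [Group G] [Fintype G] [MulAction G Ω] [Fintype Ω] (hZ : Cfsg.IsZassenhausGroup G Ω) {a b : Ω} (hab : a ≠ b) [IsSimpleGroup G] (hodd : Odd (Nat.card ↥(MulAction.stabilizer G a ⊓ MulAction.stabilizer G b : Subgroup G))) (hlt : Nat.card ↥(MulAction.stabilizer G a ⊓ MulAction.stabilizer G b : Subgroup G) < Fintype.card Ω - 2) (H : Subgroup G) (hHa : H ≤ MulAction.stabilizer G a) (hHcard : Nat.card H + 1 = Fintype.card Ω) (hHfix : ∀ u ∈ H, u ≠ 1 → ∀ c : Ω, u • c = c → c = a) (μ : MulAction.stabilizer G a → ℂ) (hμ : Cfsg.IsCharacter (MulAction.stabilizer G a) μ ∧ μ 1 = 1) (hμH : ∀ u : MulAction.stabilizer G a, (u : G) ∈ H → μ u = 1) (hμne : μ ≠ fun _ => 1) : Cfsg.IsIrrCharacter G (Cfsg.indFun (MulAction.stabilizer G a) μ) ∧ ∀ u ∈ H, u ≠ 1 → Cfsg.indFun (MulAction.stabilizer G a) μ u = 1 := by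
  classical
  have : Fintype (MulAction.stabilizer G a) := Fintype.ofFinite _
  obtain ⟨f, hf⟩ := Cfsg.Agent.Lib.CharBasic.exists_hom_of_degree_one hμ.1 hμ.2
  have hμeq : μ = fun y => ((f y : ℂˣ) : ℂ) := funext hf
  subst hμeq
  have hI := Cfsg.Agent.Lib.ZassInv.oddInv_of_simple hZ hab hodd
  have hK := Cfsg.Agent.Lib.ZassInv2.isKernelAt_of_fix hZ a H hHa hHcard hHfix
  have hfK : ∀ u : MulAction.stabilizer G a, (u : G) ∈ H → f u = 1 := by
    intro u hu
    apply Units.ext
    simpa using hμH u hu
  have hfne : ∃ u, f u ≠ 1 := by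
    by_contra hc
    push Not at hc
    apply hμne
    funext y
    simp [hc y]
  refine ⟨?_, fun u hu hu1 => Cfsg.Agent.Lib.ZassChar.value_kernel hK f hfK hu hu1⟩
  apply Cfsg.Agent.Lib.CharBasic.isIrrCharacter_of_norm_one
  · apply Cfsg.Agent.Lib.CharInd.indFun_isCharacter
    exact hμ.1
  · exact Cfsg.Agent.Lib.ZassChar.norm_one hZ hI hK f hfK hab hfne

end Cfsg.Agent.S0881
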