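import Mathlib
import Cfsg.Statements.S0889
import Cfsg.Agent.Lib.BergerGroup
import Cfsg.Agent.Lib.BergerChain
import Cfsg.Agent.Lib.IndFunBasic

set_option autoImplicit false
open Cfsg

namespace Cfsg.Agent.S0889

/-- Let G be a finite solvable group and χ an irreducible character of G such that for every normal subgroup N the restriction of χ to N is a natural-number multiple of one irreducible character of N. Then χ is not induced from a character of any proper subgroup. -/
theorem result {G : Type*} [Group G] [Fintype G] [Group.IsSolvable G] (χ : G → ℂ) (hχ : Cfsg.IsIrrCharacter G χ) (hqp : ∀ (N : Subgroup G), N.Normal → ∃ (ϑ : N → ℂ) (e : ℕ), Cfsg.IsIrrCharacter N ϑ ∧ (fun n : N => χ n) = (e : ℂ) • ϑ) (K : Subgroup G) (hK : K ≠ ⊤) (ψ : K → ℂ) (hψ : Cfsg.IsCharacter K ψ) : Cfsg.indFun K ψ ≠ χ := by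
  classical
  intro heq
  obtain ⟨H, hH, hKH⟩ := (eq_top_or_exists_le_coatom K).resolve_left hK
  let ψ' : K.subgroupOf H → ℂ := fun x => ψ ⟨(x : H), Subgroup.mem_subgroupOf.mp x.2⟩
  have hψ' : Cfsg.IsCharacter (K.subgroupOf H) ψ' :=
    Cfsg.Agent.Lib.CharBasic.isCharacter_comp (Subgroup.subgroupOfEquivOfLe hKH).toMonoidHom hψ
  have hϑ := Cfsg.Agent.Lib.CharInd.indFun_isCharacter (K.subgroupOf H) hψ'
  have hind : Cfsg.indFun H (Cfsg.indFun (K.subgroupOf H) ψ') = χ := by
    rw [← heq]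
    exact Cfsg.Agent.Lib.IndFunBasic.indFun_indFun K H hKH ψ
  obtain ⟨L, V, hLn, hVn, hLV, hLH, hHV, hidx, hnd⟩ := Cfsg.Agent.Lib.BergerGroup.group_part H hH
  exact hnd (Cfsg.Agent.Lib.BergerChain.char_part χ hχ hqp hϑ hind hLn hVn hLV hLH hHV hidx)


end Cfsg.Agent.S0889
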