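import Mathlib
import Cfsg.Statements.S0893
import Cfsg.Agent.Lib.CosetAvg
import Cfsg.Agent.Lib.LinearExt
import Cfsg.Agent.Lib.CharValues

set_option autoImplicit false
set_option linter.unusedVariables false
set_option linter.style.haveILetI false
open Cfsg

namespace Cfsg.Agent.S0893

open Cfsg.Agent.Lib.CharBasic Cfsg.Agent.Lib.CharInd Cfsg.Agent.Lib.CosetAvg
open Cfsg.Agent.Lib.LinearExt Cfsg.Agent.Lib.CharInduction
open scoped ComplexConjugate

/-- The sum of a nontrivial linear character vanishes. -/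
theorem sum_hom_eq_zero {P : Type*} [Group P] [Fintype P] (ω : P →* ℂˣ) {y : P} (hy : ω y ≠ 1) :
    ∑ x, ((ω x : ℂˣ) : ℂ) = 0 := by
  have h1 : ∑ x, ((ω x : ℂˣ) : ℂ) = ((ω y : ℂˣ) : ℂ) * ∑ x, ((ω x : ℂˣ) : ℂ) := by
    rw [Finset.mul_sum]
    refine (Equiv.sum_comp (Equiv.mulLeft y) (fun x => ((ω x : ℂˣ) : ℂ))).symm.trans ?_
    refine Finset.sum_congr rfl fun x _ => ?_
    simp
  have h2 : (1 - ((ω y : ℂˣ) : ℂ)) * ∑ x, ((ω x : ℂˣ) : ℂ) = 0 := by
    rw [sub_mul, one_mul, ← h1, sub_self]
  have h3 : (1 - ((ω y : ℂˣ) : ℂ)) ≠ 0 := by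
    intro h
    apply hy
    apply Units.ext
    rw [Units.val_one]
    linear_combination -h
  exact (mul_eq_zero.mp h2).resolve_left h3

/-- Let P be an extraspecial p-group of order p ^ (2 * n + 1), A an abelian subgroup of order p ^ (n + 1), and λ a character of A of degree 1 that is not identically 1 on the elements of A lying in the centre of P. Then the function induced from λ to P is an irreducible character of P and vanishes at every element outside the centre. -/
theorem result {P : Type*} [Group P] [Fintype P] (p n : ℕ) [Fact p.Prime] (hP : Cfsg.IsExtraspecial p P) (hcard : Nat.card P = p ^ (2 * n + 1)) (A : Subgroup P) (hab : ∀ a ∈ A, ∀ b ∈ A, a * b = b * a) (hA : Nat.card A = p ^ (n + 1)) (lam : A → ℂ) (hlam : Cfsg.IsCharacter A lam ∧ lam 1 = 1) (hZ : ∃ a : A, (a : P) ∈ Subgroup.center P ∧ lam a ≠ 1) : Cfsg.IsIrrCharacter P (Cfsg.indFun A lam) ∧ ∀ x : P, x ∉ Subgroup.center P → Cfsg.indFun A lam x = 0 := by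
  classical
  obtain ⟨⟨hpg, hfr, hcomm⟩, hZcard⟩ := hP
  have hp : p.Prime := Fact.out
  haveI : Fintype A := Fintype.ofFinite _
  obtain ⟨a₀, ha₀Z, ha₀⟩ := hZ
  obtain ⟨f, hf⟩ := exists_hom hlam
  have hcZ : ∀ a b : P, a * b * a⁻¹ * b⁻¹ ∈ Subgroup.center P := by
    intro a b
    rw [← hcomm]
    exact Subgroup.commutator_mem_commutator (Subgroup.mem_top a) (Subgroup.mem_top b)
  -- the centre lies in `A`
  have ha₀1 : (⟨a₀, ha₀Z⟩ : Subgroup.center P) ≠ 1 := by
    intro h
    have h1 : a₀ = 1 := Subtype.ext (congrArg (fun w : Subgroup.center P => (w : P)) h)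
    apply ha₀
    rw [h1]
    exact hlam.2
  have hZA : Subgroup.center P ≤ A := by
    intro z hz
    obtain ⟨k, hk⟩ := Subgroup.mem_zpowers_iff.mp
      (mem_zpowers_of_prime_card hZcard (g' := (⟨z, hz⟩ : Subgroup.center P)) ha₀1)
    have h1 : z = (a₀ : P) ^ k := by
      have := congrArg Subtype.val hk
      simpa using this.symm
    rw [h1]
    exact A.zpow_mem a₀.2 k
  have hAn : A.Normal := by
    constructor
    intro a ha g
    have h1 : g * a * g⁻¹ = (g * a * g⁻¹ * a⁻¹) * a := by group
    rw [h1]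
    exact A.mul_mem (hZA (hcZ g a)) ha
  -- values of `f` on the centre
  have hcentral : ∀ z ∈ Subgroup.center P, ∀ x : P, z * x = x * z := by
    intro z hz x
    exact (Subgroup.mem_center_iff.mp hz x).symm
  have hfZ : ∀ z (hz : z ∈ Subgroup.center P), z ≠ 1 → f ⟨z, hZA hz⟩ ≠ 1 := by
    intro z hz hz1 h0
    have hz1' : (⟨z, hz⟩ : Subgroup.center P) ≠ 1 := by
      intro h
      exact hz1 (congrArg Subtype.val h)
    obtain ⟨k, hk⟩ := Subgroup.mem_zpowers_iff.mp
      (mem_zpowers_of_prime_card hZcard (g' := (⟨a₀, ha₀Z⟩ : Subgroup.center P)) hz1')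
    have h1 : a₀ = (⟨z, hZA hz⟩ : A) ^ k := by
      apply Subtype.ext
      have := congrArg Subtype.val hk
      simpa using this.symm
    apply ha₀
    rw [hf, h1, map_zpow, h0, one_zpow, Units.val_one]
  have hidx : A.index = p ^ n := by
    have h1 := Subgroup.card_mul_index A
    rw [hA, hcard] at h1
    have h2 : p ^ (2 * n + 1) = p ^ (n + 1) * p ^ n := by ring
    rw [h2] at h1
    exact Nat.eq_of_mul_eq_mul_left (pow_pos hp.pos _) h1
  -- vanishing
  have hvan : ∀ x : P, x ∉ Subgroup.center P → indFun A lam x = 0 := by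
    intro g hg
    by_cases hgA : g ∈ A
    · -- the commutator homomorphism
      let c : P → P := fun x => g⁻¹ * x⁻¹ * g * x
      have hc : ∀ x, c x ∈ Subgroup.center P := fun x => by
        have := hcZ g⁻¹ x⁻¹
        simpa [c] using this
      have hcmul : ∀ x y, c (x * y) = c x * c y := by
        intro x y
        have h1 : x⁻¹ * g * x = g * c x := by
          simp only [c]
          group
        calc c (x * y) = g⁻¹ * y⁻¹ * (x⁻¹ * g * x) * y := by
              simp only [c]
              group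
          _ = g⁻¹ * y⁻¹ * (g * c x) * y := by rw [h1]
          _ = g⁻¹ * y⁻¹ * g * (c x * y) := by group
          _ = g⁻¹ * y⁻¹ * g * (y * c x) := by rw [hcentral _ (hc x)]
          _ = c y * c x := by
              simp only [c]
              group
          _ = c x * c y := hcentral _ (hc y) _
      let ω : P →* ℂˣ := MonoidHom.mk' (fun x => f ⟨c x, hZA (hc x)⟩) (by
        intro x y
        rw [← map_mul]
        congr 1
        exact Subtype.ext (hcmul x y))
      have hωy : ∃ y, ω y ≠ 1 := by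
        have h1 : ∃ y, y * g ≠ g * y := by
          by_contra hall
          push Not at hall
          exact hg (Subgroup.mem_center_iff.mpr hall)
        obtain ⟨y, hy⟩ := h1
        refine ⟨y, hfZ _ (hc y) ?_⟩
        intro h2
        apply hy
        have h3 : g⁻¹ * y⁻¹ * g * y = 1 := h2
        have h4 : (y * g)⁻¹ * (g * y) = 1 := by
          rw [← h3]
          group
        exact (inv_mul_eq_one.mp h4)
      obtain ⟨y, hy⟩ := hωy
      have hval : ∀ x : P, extendByZero A lam (x⁻¹ * g * x) = lam ⟨g, hgA⟩ * ((ω x : ℂˣ) : ℂ) := by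
        intro x
        have hmem : x⁻¹ * g * x ∈ A := by
          have := hAn.conj_mem g hgA x⁻¹
          simpa using this
        rw [extendByZero_of_mem A lam hmem, hf, hf, ← Units.val_mul]
        congr 1
        show f _ = f ⟨g, hgA⟩ * f ⟨c x, hZA (hc x)⟩
        rw [← map_mul]
        congr 1
        apply Subtype.ext
        simp only [c, Subgroup.coe_mul]
        group
      rw [indFun_apply]
      simp only [hval]
      rw [← Finset.mul_sum, sum_hom_eq_zero ω hy, mul_zero, mul_zero]
    · exact indFun_eq_zero_of_not_mem A hAn lam hgA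
  refine ⟨?_, hvan⟩
  -- the norm
  have hΨ := indFun_isCharacter A hlam.1
  apply isIrrCharacter_of_norm_one hΨ
  haveI : Fintype (Subgroup.center P) := Fintype.ofFinite _
  have hvalZ : ∀ z : Subgroup.center P, indFun A lam z = (p : ℂ) ^ n * lam ⟨z, hZA z.2⟩ := by
    intro z
    have hinv : ∀ x : P, x⁻¹ * (z : P) * x = z := by
      intro x
      rw [mul_assoc, hcentral _ z.2 x]
      group
    rw [indFun_apply]
    have h1 : ∀ x : P, extendByZero A lam (x⁻¹ * (z : P) * x) = lam ⟨z, hZA z.2⟩ := by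
      intro x
      rw [hinv]
      exact extendByZero_of_mem A lam (hZA z.2)
    simp only [h1, Finset.sum_const, Finset.card_univ, nsmul_eq_mul]
    rw [← Nat.card_eq_fintype_card, ← mul_assoc]
    congr 1
    have h2 : ((Nat.card P : ℕ) : ℂ) = (Nat.card A : ℂ) * (A.index : ℂ) := by
      rw [← Nat.cast_mul, Subgroup.card_mul_index]
    rw [h2, ← mul_assoc, inv_mul_cancel₀ (natCard_subgroup_ne_zero A), one_mul, hidx]
    push_cast
    rfl
  have hlamnorm : ∀ a : A, lam a * conj (lam a) = 1 := by
    intro a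
    rw [Complex.mul_conj, Complex.normSq_eq_norm_sq, hf]
    have h1 : ((f a : ℂˣ) : ℂ) ^ Nat.card A = 1 := by
      rw [← Units.val_pow_eq_pow_val, ← map_pow, pow_card_eq_one', map_one, Units.val_one]
    have h2 := Cfsg.Agent.Lib.CharValues.norm_eq_one_of_pow_eq_one Nat.card_pos h1
    rw [h2]
    simp
  unfold classInner
  have hsum : ∑ g, indFun A lam g * conj (indFun A lam g) =
      ∑ z : Subgroup.center P, indFun A lam z * conj (indFun A lam z) := by
    apply sum_of_vanish_off
    intro g hg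
    rw [hvan g hg, zero_mul]
  rw [hsum]
  have hterm : ∀ z : Subgroup.center P, indFun A lam z * conj (indFun A lam z) = (p : ℂ) ^ (2 * n) := by
    intro z
    rw [hvalZ, map_mul, map_pow, Complex.conj_natCast]
    calc (p : ℂ) ^ n * lam ⟨z, hZA z.2⟩ * ((p : ℂ) ^ n * conj (lam ⟨z, hZA z.2⟩))
        = (p : ℂ) ^ (2 * n) * (lam ⟨z, hZA z.2⟩ * conj (lam ⟨z, hZA z.2⟩)) := by ring
      _ = _ := by rw [hlamnorm, mul_one]
  simp only [hterm, Finset.sum_const, Finset.card_univ, nsmul_eq_mul]
  rw [← Nat.card_eq_fintype_card, hZcard, hcard]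
  have hpC : (p : ℂ) ≠ 0 := by exact_mod_cast hp.ne_zero
  push_cast
  field_simp
  ring

end Cfsg.Agent.S0893
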