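import Mathlib
import Cfsg.Statements.S0894
import Cfsg.Agent.Lib.CosetAvg
import Cfsg.Agent.Lib.CharValues
import Cfsg.Agent.Lib.CharKernel
import Cfsg.Agent.Lib.CharCodegP
import Cfsg.Agent.Lib.ExtraBasics

set_option autoImplicit false
set_option linter.unusedVariables false
set_option linter.style.haveILetI false
open Cfsg

namespace Cfsg.Agent.S0894

open Cfsg.Agent.Lib.CharBasic Cfsg.Agent.Lib.CosetAvg Cfsg.Agent.Lib.CharKernel
open Cfsg.Agent.Lib.Clifford Cfsg.Agent.Lib
open scoped ComplexConjugate

section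

variable {P : Type*} [Group P] [Fintype P] {p n : ℕ} [Fact p.Prime]

/-- An irreducible character of an extraspecial group has degree `1` or `p ^ n`. -/
theorem degree_dichotomy (hP : IsExtraspecial p P) (hcard : Nat.card P = p ^ (2 * n + 1))
    {χ : P → ℂ} (hχ : IsIrrCharacter P χ) : χ 1 = 1 ∨ χ 1 = (p : ℂ) ^ n := by
  classical
  obtain ⟨⟨hpg, hfr, hcomm⟩, hZcard⟩ := hP
  have hp : p.Prime := Fact.out
  haveI : Fintype (Subgroup.center P) := Fintype.ofFinite _
  have hcZ : ∀ a b : P, a * b * a⁻¹ * b⁻¹ ∈ Subgroup.center P := by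
    intro a b
    rw [← hcomm]
    exact Subgroup.commutator_mem_commutator (Subgroup.mem_top a) (Subgroup.mem_top b)
  by_cases hker : ∀ z ∈ Subgroup.center P, χ z = χ 1
  · left
    obtain ⟨χ', hχ', hval⟩ := exists_quotient_irr (Subgroup.center P) hχ hker
    have hqc : ∀ a b : P ⧸ Subgroup.center P, a * b = b * a := by
      intro a b
      induction a using QuotientGroup.induction_on with
      | H a =>
        induction b using QuotientGroup.induction_on with
        | H b =>
          rw [← QuotientGroup.mk_mul, ← QuotientGroup.mk_mul, QuotientGroup.eq]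
          have := hcZ b⁻¹ a⁻¹
          simpa [mul_assoc] using this
    have h1 := CharCodegP.irr_one_of_comm hqc hχ'
    rw [← hval 1]
    exact h1
  · right
    push Not at hker
    obtain ⟨z₀, hz₀, hz₀ne⟩ := hker
    obtain ⟨k, ρ, hρ, rfl⟩ := hχ
    -- scalars
    have hscal : ∀ z ∈ Subgroup.center P, ∃ c : ℂ, ρ z = c • LinearMap.id := by
      intro z hz
      apply schur_scalar hρ
      intro g
      rw [← Module.End.mul_eq_comp, ← Module.End.mul_eq_comp, ← map_mul, ← map_mul,
        (Subgroup.mem_center_iff.mp hz g)]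
    have hfr' : Module.finrank ℂ (Fin k → ℂ) = k := by simp
    -- vanishing off the centre
    have hvan : ∀ x : P, x ∉ Subgroup.center P → ρ.character x = 0 := by
      intro x hx
      obtain ⟨y, hy⟩ : ∃ y, y * x ≠ x * y := by
        by_contra hall
        push Not at hall
        exact hx (Subgroup.mem_center_iff.mpr hall)
      let w : P := x⁻¹ * y⁻¹ * x * y
      have hwZ : w ∈ Subgroup.center P := by
        have := hcZ x⁻¹ y⁻¹
        simpa [w] using this
      have hw1 : w ≠ 1 := by
        intro h
        apply hy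
        have h2 : x⁻¹ * y⁻¹ * x * y = 1 := h
        have h3 : (y * x)⁻¹ * (x * y) = 1 := by
          rw [← h2]
          group
        exact inv_mul_eq_one.mp h3
      obtain ⟨c, hc⟩ := hscal w hwZ
      have hc1 : c ≠ 1 := by
        rintro rfl
        apply hz₀ne
        have hw1' : (⟨w, hwZ⟩ : Subgroup.center P) ≠ 1 := by
          intro h
          exact hw1 (congrArg (fun u : Subgroup.center P => (u : P)) h)
        obtain ⟨m, hm⟩ := Subgroup.mem_zpowers_iff.mp
          (mem_zpowers_of_prime_card hZcard (g' := (⟨z₀, hz₀⟩ : Subgroup.center P)) hw1')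
        have h2 : z₀ = w ^ m := by
          have := congrArg (fun u : Subgroup.center P => (u : P)) hm
          simpa using this.symm
        have hwid : ρ w = 1 := by
          rw [hc, one_smul]
          rfl
        have h3 : ρ z₀ = 1 := by
          have h4 : ρ.asGroupHom w = 1 := Units.ext (by
            rw [Representation.asGroupHom_apply, hwid]
            rfl)
          have h5 : ρ.asGroupHom z₀ = 1 := by
            rw [h2, map_zpow, h4, one_zpow]
          have h6 := congrArg (fun u : (Module.End ℂ (Fin k → ℂ))ˣ => (u : Module.End ℂ (Fin k → ℂ))) h5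
          simpa [Representation.asGroupHom_apply] using h6
        show LinearMap.trace ℂ _ (ρ z₀) = LinearMap.trace ℂ _ (ρ 1)
        have h7 : ρ (1 : P) = 1 := map_one ρ
        rw [h3, h7]
      have h2 : y⁻¹ * x * y = x * w := by
        simp only [w]
        group
      have h3 : ρ.character (x * w) = c * ρ.character x := by
        show LinearMap.trace ℂ _ (ρ (x * w)) = c * LinearMap.trace ℂ _ (ρ x)
        rw [map_mul, hc]
        have h4 : ρ x * (c • LinearMap.id) = c • ρ x := by
          ext v
          simp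
        rw [h4, map_smul, smul_eq_mul]
      have h4 : ρ.character (y⁻¹ * x * y) = ρ.character x := by
        have := char_apply_conj ⟨k, ρ, rfl⟩ x y⁻¹
        simpa using this
      rw [h2, h3] at h4
      have h5 : (c - 1) * ρ.character x = 0 := by
        rw [sub_mul, h4, one_mul, sub_self]
      exact (mul_eq_zero.mp h5).resolve_left (sub_ne_zero.mpr hc1)
    -- the norm
    have h1 := sum_normSq_of_vanish (Subgroup.center P) hvan
    rw [sum_normSq_eq ⟨k, ρ, hρ, rfl⟩, hcard] at h1
    have h2 : ∀ z : Subgroup.center P, Complex.normSq (ρ.character z) = (k : ℝ) ^ 2 := by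
      intro z
      have h3 := (CharValues.norm_character_eq_iff ρ (z : P)).mpr (hscal z z.2)
      rw [hfr'] at h3
      rw [Complex.normSq_eq_norm_sq, h3]
    simp only [h2, Finset.sum_const, Finset.card_univ, nsmul_eq_mul] at h1
    rw [← Nat.card_eq_fintype_card, hZcard] at h1
    have h3 : p ^ (2 * n + 1) = p * k ^ 2 := by exact_mod_cast h1
    have h4 : k ^ 2 = (p ^ n) ^ 2 := by
      have h5 : p ^ (2 * n + 1) = p * (p ^ n) ^ 2 := by ring
      rw [h5] at h3
      exact (Nat.eq_of_mul_eq_mul_left hp.pos h3).symm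
    have h5 : k = p ^ n := Nat.pow_left_injective (n := 2) (by omega) h4
    rw [char_one_eq_rep, h5]
    push_cast
    rfl

end

/-- Let P be an extraspecial p-group of order p ^ (2 * n + 1). Then every irreducible character of P has degree 1 or p ^ n, and exactly p - 1 of them have degree p ^ n. -/
theorem result {P : Type*} [Group P] [Finite P] (p n : ℕ) [Fact p.Prime] (hP : Cfsg.IsExtraspecial p P) (hcard : Nat.card P = p ^ (2 * n + 1)) : (∀ χ : Cfsg.IrrCharacter P, (χ : P → ℂ) 1 = 1 ∨ (χ : P → ℂ) 1 = (p : ℂ) ^ n) ∧ Nat.card {χ : Cfsg.IrrCharacter P // (χ : P → ℂ) 1 = (p : ℂ) ^ n} = p - 1 := by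
  classical
  haveI : Fintype P := Fintype.ofFinite P
  have hp : p.Prime := Fact.out
  have hdich : ∀ χ : IrrCharacter P, (χ : P → ℂ) 1 = 1 ∨ (χ : P → ℂ) 1 = (p : ℂ) ^ n := fun χ =>
    degree_dichotomy hP hcard χ.2
  refine ⟨hdich, ?_⟩
  -- `n ≥ 1`
  have hn : 1 ≤ n := by
    obtain ⟨n', hn', hc⟩ := ExtraBasics.card_of_isExtraspecial hP
    rw [hcard] at hc
    have h1 : 2 * n + 1 = 1 + 2 * n' := Nat.pow_right_injective hp.two_le hc
    omega
  have hpn : (p : ℂ) ^ n ≠ 1 := by
    have h1 : 1 < p ^ n := Nat.one_lt_pow (by omega) hp.one_lt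
    intro h
    have h2 : p ^ n = 1 := by exact_mod_cast h
    omega
  obtain ⟨⟨hpg, hfr, hcomm⟩, hZcard⟩ := hP
  have hcZ : ∀ a b : P, a * b * a⁻¹ * b⁻¹ ∈ Subgroup.center P := by
    intro a b
    rw [← hcomm]
    exact Subgroup.commutator_mem_commutator (Subgroup.mem_top a) (Subgroup.mem_top b)
  let Z := Subgroup.center P
  -- the quotient
  let Q := P ⧸ Z
  haveI : Fintype Q := Fintype.ofFinite _
  have hqc : ∀ a b : Q, a * b = b * a := by
    intro a b
    induction a using QuotientGroup.induction_on with
    | H a =>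
      induction b using QuotientGroup.induction_on with
      | H b =>
        rw [← QuotientGroup.mk_mul, ← QuotientGroup.mk_mul, QuotientGroup.eq]
        have := hcZ b⁻¹ a⁻¹
        simpa [mul_assoc] using this
  have hQcard : Nat.card Q = p ^ (2 * n) := by
    have h1 := Subgroup.card_mul_index Z
    rw [hcard, hZcard, Subgroup.index_eq_card] at h1
    have h2 : p ^ (2 * n + 1) = p * p ^ (2 * n) := by ring
    rw [h2] at h1
    exact Nat.eq_of_mul_eq_mul_left hp.pos h1
  have hdeg1 : ∀ β : IrrCharacter Q, charDegree (β : Q → ℂ) = 1 := by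
    intro β
    have h1 := CharCodegP.irr_one_of_comm hqc β.2
    have h2 := one_eq_charDegree (IsIrrCharacter.isCharacter β.2)
    rw [h1] at h2
    exact_mod_cast h2.symm
  have hIrrQ : Nat.card (IrrCharacter Q) = p ^ (2 * n) := by
    have h1 := sum_charDegree_sq (G := Q)
    simp only [hdeg1, one_pow, Finset.sum_const, Finset.card_univ, smul_eq_mul, mul_one] at h1
    rw [Nat.card_eq_fintype_card, h1, hQcard]
  -- linear characters
  let mk : P →* Q := QuotientGroup.mk' Z
  have hmk : Function.Surjective mk := QuotientGroup.mk'_surjective Z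
  have hT1 : Nat.card {χ : IrrCharacter P // (χ : P → ℂ) 1 = 1} = p ^ (2 * n) := by
    rw [← hIrrQ]
    symm
    apply Nat.card_eq_of_bijective
      (fun β : IrrCharacter Q => (⟨⟨(β : Q → ℂ) ∘ mk, isIrrCharacter_comp_of_surjective mk hmk β.2⟩,
        by
          show (β : Q → ℂ) (mk 1) = 1
          rw [map_one]
          exact CharCodegP.irr_one_of_comm hqc β.2⟩ :
        {χ : IrrCharacter P // (χ : P → ℂ) 1 = 1}))
    constructor
    · intro a b hab
      apply Subtype.ext
      funext q
      obtain ⟨x, rfl⟩ := hmk q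
      have := congrArg (fun u : {χ : IrrCharacter P // (χ : P → ℂ) 1 = 1} => (u.1 : P → ℂ) x) hab
      exact this
    · rintro ⟨χ, hχ⟩
      obtain ⟨f, hf⟩ := exists_hom_of_degree_one (IsIrrCharacter.isCharacter χ.2) hχ
      have hker : ∀ z ∈ Z, (χ : P → ℂ) z = (χ : P → ℂ) 1 := by
        intro z hz
        rw [hχ, hf]
        have hle : commutator P ≤ f.ker := by
          rw [commutator_def, Subgroup.commutator_le]
          intro a _ b _
          rw [MonoidHom.mem_ker, commutatorElement_def]
          simp only [map_mul, map_inv]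
          rw [mul_comm (f a) (f b)]
          simp
        have hz' : z ∈ commutator P := by
          rw [hcomm]
          exact hz
        have h1 : f z = 1 := hle hz'
        rw [h1, Units.val_one]
      obtain ⟨χ', hχ', hval⟩ := exists_quotient_irr Z χ.2 hker
      refine ⟨⟨χ', hχ'⟩, ?_⟩
      apply Subtype.ext
      apply Subtype.ext
      funext x
      exact hval x
  -- the total count
  have hsum := sum_charDegree_sq (G := P)
  let s₁ : Finset (IrrCharacter P) := Finset.univ.filter fun χ => (χ : P → ℂ) 1 = 1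
  let s₂ : Finset (IrrCharacter P) := Finset.univ.filter fun χ => (χ : P → ℂ) 1 = (p : ℂ) ^ n
  have hs₁ : s₁.card = p ^ (2 * n) := by
    rw [← hT1, Nat.card_eq_fintype_card, Fintype.card_subtype]
  have hs₂ : Nat.card {χ : IrrCharacter P // (χ : P → ℂ) 1 = (p : ℂ) ^ n} = s₂.card := by
    rw [Nat.card_eq_fintype_card, Fintype.card_subtype]
  rw [hs₂]
  have hcompl : (Finset.univ.filter fun χ : IrrCharacter P => ¬ (χ : P → ℂ) 1 = 1) = s₂ := by
    ext χ
    simp only [Finset.mem_filter, Finset.mem_univ, true_and, s₂]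
    constructor
    · intro h
      exact (hdich χ).resolve_left h
    · intro h h1
      rw [h] at h1
      exact hpn h1
  rw [← Finset.sum_filter_add_sum_filter_not Finset.univ (fun χ : IrrCharacter P => (χ : P → ℂ) 1 = 1),
    hcompl] at hsum
  have hd1 : ∀ χ ∈ s₁, charDegree (χ : P → ℂ) ^ 2 = 1 := by
    intro χ hχ
    have h1 := (Finset.mem_filter.mp hχ).2
    have h2 := one_eq_charDegree (IsIrrCharacter.isCharacter χ.2)
    rw [h1] at h2
    have h3 : charDegree (χ : P → ℂ) = 1 := by exact_mod_cast h2.symm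
    rw [h3, one_pow]
  have hd2 : ∀ χ ∈ s₂, charDegree (χ : P → ℂ) ^ 2 = p ^ (2 * n) := by
    intro χ hχ
    have h1 := (Finset.mem_filter.mp hχ).2
    have h2 := one_eq_charDegree (IsIrrCharacter.isCharacter χ.2)
    rw [h1] at h2
    have h3 : charDegree (χ : P → ℂ) = p ^ n := by exact_mod_cast h2.symm
    rw [h3]
    ring
  rw [Finset.sum_congr rfl hd1, Finset.sum_congr rfl hd2, hcard] at hsum
  simp only [Finset.sum_const, smul_eq_mul, mul_one] at hsum
  rw [hs₁] at hsum
  have h5 : p ^ (2 * n + 1) = p * p ^ (2 * n) := by ring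
  rw [h5] at hsum
  have h6 : p ^ (2 * n) * (1 + s₂.card) = p ^ (2 * n) * p := by
    rw [mul_add, mul_one, mul_comm _ s₂.card, hsum, mul_comm]
  have h7 := Nat.eq_of_mul_eq_mul_left (pow_pos hp.pos _) h6
  omega

end Cfsg.Agent.S0894
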