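import Mathlib
import Cfsg.Statements.S0895
import Cfsg.Agent.Lib.CharBasic

set_option autoImplicit false
set_option linter.unusedVariables false
set_option linter.unusedSectionVars false
open Cfsg

namespace Cfsg.Agent.S0895

open Cfsg.Agent.Lib.CharBasic Matrix
open scoped ComplexConjugate

variable {G : Type*} [Group G] [Fintype G] {n : ℕ} (ρ : Representation ℂ G (Fin n → ℂ))

/-- The matrix of an element. -/
noncomputable def Amat (g : G) : Matrix (Fin n) (Fin n) ℂ := LinearMap.toMatrix' (ρ g)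

theorem Amat_mul (g h : G) : Amat ρ (g * h) = Amat ρ g * Amat ρ h := by
  unfold Amat
  rw [map_mul]
  exact LinearMap.toMatrix'_mul _ _

theorem Amat_one : Amat ρ 1 = 1 := by
  unfold Amat
  rw [map_one]
  exact LinearMap.toMatrix'_one

theorem toLin_Amat (g : G) : Matrix.toLin' (Amat ρ g) = ρ g := Matrix.toLin'_toMatrix' _

theorem trace_Amat (g : G) : (Amat ρ g).trace = ρ.character g := by
  have h := Matrix.trace_toLin'_eq (Amat ρ g)
  rw [toLin_Amat] at h
  exact h.symm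

/-- Invariant matrices. -/
def IsInv (Y : Matrix (Fin n) (Fin n) ℂ) : Prop := ∀ g, Amat ρ g * Y * (Amat ρ g)ᵀ = Y

/-- The averaging operator. -/
noncomputable def avg (X : Matrix (Fin n) (Fin n) ℂ) : Matrix (Fin n) (Fin n) ℂ :=
  (Nat.card G : ℂ)⁻¹ • ∑ g, Amat ρ g * X * (Amat ρ g)ᵀ

theorem avg_isInv (X : Matrix (Fin n) (Fin n) ℂ) : IsInv ρ (avg ρ X) := by
  intro h
  unfold avg
  rw [Matrix.mul_smul, Matrix.smul_mul, Matrix.mul_sum, Matrix.sum_mul]
  congr 1
  refine Eq.trans (Finset.sum_congr rfl fun g _ => ?_)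
    (Equiv.sum_comp (Equiv.mulLeft h) (fun g => Amat ρ g * X * (Amat ρ g)ᵀ))
  simp only [Equiv.coe_mulLeft, Amat_mul, Matrix.transpose_mul, Matrix.mul_assoc]

theorem avg_of_isInv {Y : Matrix (Fin n) (Fin n) ℂ} (hY : IsInv ρ Y) : avg ρ Y = Y := by
  unfold avg
  simp only [hY _, Finset.sum_const, Finset.card_univ]
  rw [← Nat.card_eq_fintype_card, ← Nat.cast_smul_eq_nsmul ℂ, smul_smul, inv_mul_cancel₀ natCard_ne_zero',
    one_smul]

/-- The entries of the average. -/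
theorem avg_apply (X : Matrix (Fin n) (Fin n) ℂ) (a b : Fin n) :
    avg ρ X a b = ∑ c, ∑ d, X c d * ((Nat.card G : ℂ)⁻¹ * ∑ g, Amat ρ g a c * Amat ρ g b d) := by
  unfold avg
  rw [Matrix.smul_apply, Matrix.sum_apply, smul_eq_mul]
  simp only [Finset.mul_sum]
  rw [Finset.sum_comm]
  simp only [Matrix.mul_apply, Matrix.transpose_apply, Finset.sum_mul, Finset.mul_sum]
  rw [Finset.sum_comm]
  refine Finset.sum_congr rfl fun c _ => ?_
  rw [Finset.sum_comm]
  refine Finset.sum_congr rfl fun d _ => ?_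
  refine Finset.sum_congr rfl fun g _ => ?_
  ring

/-- The average of a matrix unit. -/
noncomputable def unitAvg (c d : Fin n) : Matrix (Fin n) (Fin n) ℂ :=
  avg ρ (Matrix.single c d 1)

theorem unitAvg_apply (c d a b : Fin n) :
    unitAvg ρ c d a b = (Nat.card G : ℂ)⁻¹ * ∑ g, Amat ρ g a c * Amat ρ g b d := by
  unfold unitAvg
  rw [avg_apply]
  rw [Finset.sum_eq_single c]
  · rw [Finset.sum_eq_single d]
    · simp
    · intro d' _ hd'
      simp [hd'.symm]
    · simp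
  · intro c' _ hc'
    apply Finset.sum_eq_zero
    intro d' _
    simp [hc'.symm]
  · simp

variable (hρ : ρ.IsIrreducible)

theorem Amat_transpose_inv (g : G) : (Amat ρ g)ᵀ * (Amat ρ g⁻¹)ᵀ = 1 := by
  rw [← Matrix.transpose_mul, ← Amat_mul, inv_mul_cancel, Amat_one, Matrix.transpose_one]

theorem Amat_transpose_inv' (g : G) : (Amat ρ g⁻¹)ᵀ * (Amat ρ g)ᵀ = 1 := by
  rw [← Matrix.transpose_mul, ← Amat_mul, mul_inv_cancel, Amat_one, Matrix.transpose_one]

theorem intertwine {Y : Matrix (Fin n) (Fin n) ℂ} (hY : IsInv ρ Y) (g : G) :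
    Amat ρ g * Y = Y * (Amat ρ g⁻¹)ᵀ := by
  conv_rhs => rw [← hY g]
  rw [Matrix.mul_assoc, Amat_transpose_inv, Matrix.mul_one]

include hρ in
/-- A nonzero invariant matrix is invertible. -/
theorem isUnit_det_of_isInv {Y : Matrix (Fin n) (Fin n) ℂ} (hY : IsInv ρ Y) (h0 : Y ≠ 0) :
    IsUnit Y := by
  rw [Cfsg.Agent.Lib.CharBasic.isIrreducible_iff] at hρ
  have h1 := hρ.2 (LinearMap.range Y.mulVecLin) (by
    rintro g v ⟨w, rfl⟩
    refine ⟨(Amat ρ g⁻¹)ᵀ *ᵥ w, ?_⟩
    simp only [Matrix.mulVecLin_apply]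
    rw [Matrix.mulVec_mulVec, ← intertwine ρ hY g, ← Matrix.mulVec_mulVec, ← toLin_Amat ρ g]
    rfl)
  rcases h1 with h1 | h1
  · exfalso
    apply h0
    rw [LinearMap.range_eq_bot] at h1
    ext a b
    have h2 := congrFun (congrArg (fun f : (Fin n → ℂ) →ₗ[ℂ] (Fin n → ℂ) => f (Pi.single b 1)) h1) a
    simpa using h2
  · have hsurj : Function.Surjective Y.mulVecLin := LinearMap.range_eq_top.mp h1
    exact (Matrix.mulVec_surjective_iff_isUnit).mp hsurj

include hρ in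
/-- Invariant matrices are proportional. -/
theorem exists_scalar_of_isInv {M₀ Y : Matrix (Fin n) (Fin n) ℂ} (hM : IsInv ρ M₀)
    (hM0 : IsUnit M₀) (hY : IsInv ρ Y) : ∃ c : ℂ, Y = c • M₀ := by
  classical
  obtain ⟨U, rfl⟩ := hM0
  let Z : Matrix (Fin n) (Fin n) ℂ := Y * (U⁻¹ : (Matrix (Fin n) (Fin n) ℂ)ˣ).val
  have hU1 : ∀ g, (U⁻¹ : (Matrix (Fin n) (Fin n) ℂ)ˣ).val * Amat ρ g =
      (Amat ρ g⁻¹)ᵀ * (U⁻¹ : (Matrix (Fin n) (Fin n) ℂ)ˣ).val := by
    intro g
    have h1 := intertwine ρ hM g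
    calc (U⁻¹ : (Matrix (Fin n) (Fin n) ℂ)ˣ).val * Amat ρ g
        = (U⁻¹ : (Matrix (Fin n) (Fin n) ℂ)ˣ).val * (Amat ρ g * U.val) *
            (U⁻¹ : (Matrix (Fin n) (Fin n) ℂ)ˣ).val := by
          rw [Matrix.mul_assoc, Matrix.mul_assoc, Units.mul_inv, Matrix.mul_one]
      _ = (U⁻¹ : (Matrix (Fin n) (Fin n) ℂ)ˣ).val * (U.val * (Amat ρ g⁻¹)ᵀ) *
            (U⁻¹ : (Matrix (Fin n) (Fin n) ℂ)ˣ).val := by rw [h1]
      _ = _ := by
          rw [← Matrix.mul_assoc, Units.inv_mul, Matrix.one_mul]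
  have hcomm : ∀ g, Matrix.toLin' Z ∘ₗ ρ g = ρ g ∘ₗ Matrix.toLin' Z := by
    intro g
    rw [← toLin_Amat ρ g, ← Matrix.toLin'_mul, ← Matrix.toLin'_mul]
    congr 1
    show Y * (U⁻¹ : (Matrix (Fin n) (Fin n) ℂ)ˣ).val * Amat ρ g =
      Amat ρ g * (Y * (U⁻¹ : (Matrix (Fin n) (Fin n) ℂ)ˣ).val)
    rw [Matrix.mul_assoc, hU1, ← Matrix.mul_assoc, ← Matrix.mul_assoc, intertwine ρ hY g]
  obtain ⟨c, hc⟩ := schur_scalar hρ (Matrix.toLin' Z) hcomm
  refine ⟨c, ?_⟩
  have hZ : Z = c • 1 := by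
    apply Matrix.toLin'.injective
    rw [hc, map_smul, Matrix.toLin'_one]
  calc Y = Z * U.val := by
        show Y = Y * (U⁻¹ : (Matrix (Fin n) (Fin n) ℂ)ˣ).val * U.val
        rw [Matrix.mul_assoc, Units.inv_mul, Matrix.mul_one]
    _ = _ := by rw [hZ, Matrix.smul_mul, Matrix.one_mul]

include hρ in
/-- An invariant invertible matrix in odd degree is symmetric. -/
theorem isSymm_of_isInv {M₀ : Matrix (Fin n) (Fin n) ℂ} (hM : IsInv ρ M₀)
    (hM0 : IsUnit M₀) (hodd : Odd n) : M₀ᵀ = M₀ := by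
  have hT : IsInv ρ M₀ᵀ := by
    intro g
    have h1 := congrArg Matrix.transpose (hM g)
    simp only [Matrix.transpose_mul, Matrix.transpose_transpose, Matrix.mul_assoc] at h1
    rw [Matrix.mul_assoc]
    exact h1
  obtain ⟨c, hc⟩ := exists_scalar_of_isInv ρ hρ hM hM0 hT
  have hdet : IsUnit M₀.det := (Matrix.isUnit_iff_isUnit_det _).mp hM0
  have hc2 : c ^ 2 = 1 := by
    have h1 := congrArg Matrix.transpose hc
    rw [Matrix.transpose_transpose, Matrix.transpose_smul, hc, smul_smul] at h1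
    have h2 : (1 - c * c) • M₀ = 0 := by
      rw [sub_smul, one_smul, ← h1, sub_self]
    have h3 : M₀ ≠ 0 := by
      rintro rfl
      have hn : n ≠ 0 := by
        rintro rfl
        simp at hodd
      haveI : Nonempty (Fin n) := ⟨⟨0, Nat.pos_of_ne_zero hn⟩⟩
      simp at hdet
    have h4 := (smul_eq_zero.mp h2).resolve_right h3
    linear_combination -h4
  have hc1 : c = 1 := by
    have hfac : (c - 1) * (c + 1) = 0 := by linear_combination hc2
    rcases mul_eq_zero.mp hfac with h | h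
    · exact sub_eq_zero.mp h
    · exfalso
      have h : c = -1 := by linear_combination h
      have h1 := congrArg Matrix.det hc
      rw [Matrix.det_transpose, Matrix.det_smul, h, Fintype.card_fin, hodd.neg_one_pow] at h1
      have h2 : M₀.det = 0 := by linear_combination (1 / 2 : ℂ) * h1
      rw [h2] at hdet
      exact not_isUnit_zero hdet
  rw [hc, hc1, one_smul]

theorem sum3_comm {ι κ : Type*} [Fintype ι] [Fintype κ] (f : κ → ι → ι → ℂ) :
    ∑ a, ∑ b, ∑ g, f g a b = ∑ g, ∑ a, ∑ b, f g a b := by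
  calc ∑ a, ∑ b, ∑ g, f g a b = ∑ a, ∑ g, ∑ b, f g a b :=
        Finset.sum_congr rfl fun a _ => Finset.sum_comm
    _ = ∑ g, ∑ a, ∑ b, f g a b := Finset.sum_comm

/-- Let χ be a real-valued irreducible character of a finite group G whose degree is an odd natural number. Then the average over s in G of χ (s * s) equals 1. -/
theorem result {G : Type*} [Group G] [Fintype G] (χ : G → ℂ) (hχ : Cfsg.IsIrrCharacter G χ) (hreal : ∀ g : G, (χ g).im = 0) (d : ℕ) (hd : χ 1 = d) (hodd : Odd d) : (Nat.card G : ℂ)⁻¹ * ∑ s : G, χ (s * s) = 1 := by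
  classical
  obtain ⟨n, ρ, hρ, rfl⟩ := hχ
  have hn : d = n := by
    rw [char_one_eq_rep] at hd
    exact_mod_cast hd.symm
  subst hn
  have hsq : (Nat.card G : ℂ)⁻¹ * ∑ g, ρ.character g * ρ.character g = 1 := by
    have h1 := classInner_irr_self ⟨d, ρ, hρ, rfl⟩
    unfold classInner at h1
    rw [← h1]
    congr 1
    refine Finset.sum_congr rfl fun g _ => ?_
    congr 1
    exact (Complex.conj_eq_iff_im.mpr (hreal g)).symm
  have hdiag : ∑ a, ∑ b, unitAvg ρ a b a b = 1 := by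
    rw [← hsq]
    simp only [unitAvg_apply, ← Finset.mul_sum]
    congr 1
    rw [sum3_comm (fun g a b => Amat ρ g a a * Amat ρ g b b)]
    refine Finset.sum_congr rfl fun g _ => ?_
    rw [← trace_Amat, Matrix.trace, Finset.sum_mul_sum]
    rfl
  obtain ⟨i, j, hij⟩ : ∃ i j, unitAvg ρ i j ≠ 0 := by
    by_contra hall
    push Not at hall
    simp [hall] at hdiag
  let M₀ := unitAvg ρ i j
  have hM : IsInv ρ M₀ := avg_isInv ρ _
  have hU : IsUnit M₀ := isUnit_det_of_isInv ρ hρ hM hij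
  have hsymm : M₀ᵀ = M₀ := isSymm_of_isInv ρ hρ hM hU hodd
  have hφex := fun c e => exists_scalar_of_isInv ρ hρ hM hU (avg_isInv ρ (Matrix.single c e 1))
  choose φ hφ using hφex
  obtain ⟨a₀, b₀, hab⟩ : ∃ a b, M₀ a b ≠ 0 := by
    by_contra hall
    push Not at hall
    apply hij
    ext a b
    exact hall a b
  have h1 : ∑ c, ∑ e, M₀ c e * φ c e = 1 := by
    have h2 := congrFun (congrFun (avg_of_isInv ρ hM) a₀) b₀
    rw [avg_apply] at h2
    have h3 : ∀ c e, (Nat.card G : ℂ)⁻¹ * ∑ g, Amat ρ g a₀ c * Amat ρ g b₀ e =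
        φ c e * M₀ a₀ b₀ := by
      intro c e
      rw [← unitAvg_apply]
      have h4 := congrFun (congrFun (hφ c e) a₀) b₀
      exact h4
    simp only [h3] at h2
    apply mul_right_cancel₀ hab
    calc (∑ c, ∑ e, M₀ c e * φ c e) * M₀ a₀ b₀ = ∑ c, ∑ e, M₀ c e * (φ c e * M₀ a₀ b₀) := by
          simp only [Finset.sum_mul, mul_assoc]
      _ = M₀ a₀ b₀ := h2
      _ = 1 * M₀ a₀ b₀ := (one_mul _).symm
  have hν : (Nat.card G : ℂ)⁻¹ * ∑ s : G, ρ.character (s * s) = ∑ a, ∑ b, unitAvg ρ b a a b := by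
    simp only [unitAvg_apply, ← Finset.mul_sum]
    congr 1
    rw [sum3_comm (fun g a b => Amat ρ g a b * Amat ρ g b a)]
    refine Finset.sum_congr rfl fun s _ => ?_
    rw [← trace_Amat, Amat_mul, Matrix.trace]
    refine Finset.sum_congr rfl fun a _ => ?_
    rw [Matrix.diag_apply, Matrix.mul_apply]
  rw [hν, ← h1, Finset.sum_comm]
  refine Finset.sum_congr rfl fun b _ => ?_
  refine Finset.sum_congr rfl fun a _ => ?_
  have h4 := congrFun (congrFun (hφ b a) a) b
  have h5 : M₀ a b = M₀ b a := congrFun (congrFun hsymm b) a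
  calc unitAvg ρ b a a b = φ b a * M₀ a b := h4
    _ = M₀ b a * φ b a := by rw [h5]; ring

end Cfsg.Agent.S0895
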