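import Mathlib
-- Template for statement S0901 (row 901; see /opt/grader/pristine/manifest.json for weights).
-- Copy to Cfsg/Agent/S0901.lean and replace the sorry. The statement below is byte-identical to the frozen
-- statement Cfsg.CfsgFrozen.S0901 (Cfsg/Statements/S0901.lean; the theorem Cfsg.coprime_roots_of_unity_lift_residue_field);
-- the grader kernel-checks Cfsg.Agent.S0901.result against that frozen type. Keep the theorem IN THIS FILE
-- (a `result` declared elsewhere and merely imported here is not credited); helpers may live anywhere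
-- under Cfsg/Agent/.
import Cfsg.Statements.S0901
import Cfsg.Agent.Lib.BlkVal

set_option autoImplicit false
open Cfsg

namespace Cfsg.Agent.S0901

theorem natCast_not_mem {p : ℕ} {M : Ideal Cfsg.AlgInt} (hM : Cfsg.IsPModular p M) {n : ℕ}
    (h : ¬ p ∣ n) : (n : Cfsg.AlgInt) ∉ M := by
  intro h1
  have hcop : Nat.Coprime p n := (Nat.Prime.coprime_iff_not_dvd hM.1).mpr h
  obtain ⟨u, v, huv⟩ : ∃ u v : ℤ, u * (p : ℤ) + v * (n : ℤ) = 1 := by
    refine ⟨Nat.gcdA p n, Nat.gcdB p n, ?_⟩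
    have := Nat.gcd_eq_gcd_ab p n
    rw [hcop.gcd_eq_one] at this
    rw [mul_comm (Nat.gcdA p n), mul_comm (Nat.gcdB p n)]
    exact_mod_cast this.symm
  have h2 : ((u : Cfsg.AlgInt) * (p : Cfsg.AlgInt) + (v : Cfsg.AlgInt) * (n : Cfsg.AlgInt)) = 1 := by
    exact_mod_cast huv
  have h3 : (1 : Cfsg.AlgInt) ∈ M := by
    rw [← h2]
    exact M.add_mem (M.mul_mem_left _ hM.2.2) (M.mul_mem_left _ h1)
  exact hM.2.1.ne_top ((Ideal.eq_top_iff_one M).mpr h3)

theorem sub_one_eq {A : Type*} [CommRing A] (M : Ideal A) {w : A} (hw : w - 1 ∈ M) (n : ℕ) :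
    (∑ i ∈ Finset.range n, w ^ i) - (n : A) ∈ M := by
  induction n with
  | zero => simp
  | succ n ih =>
    rw [Finset.sum_range_succ]
    push_cast
    have h1 : w ^ n - 1 ∈ M := by
      have := sub_one_dvd_pow_sub_one (R := A) w n  
      exact M.mem_of_dvd this hw 
    have h2 : (∑ i ∈ Finset.range n, w ^ i) + w ^ n - ((n : A) + 1) =
        ((∑ i ∈ Finset.range n, w ^ i) - (n : A)) + (w ^ n - 1) := by ring
    rw [h2]
    exact M.add_mem ih h1


/-- Let M be a maximal ideal of the ring of algebraic integers containing the prime p, and let U be the set of complex roots of unity of order prime to p. Then reduction modulo M is injective on U, and every algebraic integer not in M is congruent modulo M to an element of U (so U maps bijectively onto the nonzero residues). -/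
theorem result (p : ℕ) [Fact p.Prime] (M : Ideal Cfsg.AlgInt) (hM : Cfsg.IsPModular p M) : (∀ ε₁ ε₂ : Cfsg.AlgInt, (∃ m : ℕ, ¬ p ∣ m ∧ (ε₁ : ℂ) ^ m = 1) → (∃ m : ℕ, ¬ p ∣ m ∧ (ε₂ : ℂ) ^ m = 1) → ε₁ - ε₂ ∈ M → ε₁ = ε₂) ∧ (∀ a : Cfsg.AlgInt, a ∉ M → ∃ ε : Cfsg.AlgInt, (∃ m : ℕ, ¬ p ∣ m ∧ (ε : ℂ) ^ m = 1) ∧ a - ε ∈ M) := by
  constructor
  · rintro ε₁ ε₂ ⟨m, hm, h1⟩ ⟨m', hm', h2⟩ h12
    have hp := hM.1
    have hm'0 : m' ≠ 0 := by
      rintro rfl
      exact hm' (dvd_zero p)
    have h1' : ε₁ ^ m = 1 := Subtype.ext (by simpa using h1)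
    have h2' : ε₂ ^ m' = 1 := Subtype.ext (by simpa using h2)
    obtain ⟨m₁, rfl⟩ : ∃ m₁, m' = m₁ + 1 := ⟨m' - 1, by omega⟩
    set w := ε₁ * ε₂ ^ m₁ with hw
    have hw1 : w - 1 ∈ M := by
      have : w - 1 = (ε₁ - ε₂) * ε₂ ^ m₁ := by
        rw [hw, sub_mul, ← pow_succ', h2']
      rw [this]
      exact M.mul_mem_right _ h12
    have hwn : w ^ (m * (m₁ + 1)) = 1 := by
      rw [hw, mul_pow, pow_mul ε₁, h1', one_pow, one_mul]
      have : (ε₂ ^ m₁) ^ (m * (m₁ + 1)) = (ε₂ ^ (m₁ + 1)) ^ (m₁ * m) := by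
        rw [← pow_mul, ← pow_mul]
        congr 1
        ring
      rw [this, h2', one_pow]
    by_contra hne
    have hw1' : w ≠ 1 := by
      intro h3
      apply hne
      calc ε₁ = ε₁ * (ε₂ * ε₂ ^ m₁) := by rw [← pow_succ', h2', mul_one]
        _ = w * ε₂ := by rw [hw]; ring
        _ = ε₂ := by rw [h3, one_mul]
    have hsum : ∑ i ∈ Finset.range (m * (m₁ + 1)), w ^ i = 0 := by
      have := mul_geom_sum w (m * (m₁ + 1))
      rw [hwn, sub_self] at this
      exact (mul_eq_zero.mp this).resolve_left (sub_ne_zero.mpr hw1')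
    have h3 := sub_one_eq M hw1 (m * (m₁ + 1))
    rw [hsum, zero_sub] at h3
    have h4 : ((m * (m₁ + 1) : ℕ) : Cfsg.AlgInt) ∈ M := by
      have := M.neg_mem h3
      rwa [neg_neg] at this
    refine natCast_not_mem hM ?_ h4
    intro h5
    rcases (Nat.Prime.dvd_mul hp).mp h5 with h | h
    · exact hm h
    · exact hm' h
  · intro a ha
    have hp := hM.1
    haveI : Fact p.Prime := ⟨hp⟩
    haveI hmax := hM.2.1
    letI : Field (Cfsg.AlgInt ⧸ M) := Ideal.Quotient.field M
    have hchar : CharP (Cfsg.AlgInt ⧸ M) p := by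
      rw [CharP.charP_iff_prime_eq_zero hp]
      have : ((p : Cfsg.AlgInt) : Cfsg.AlgInt ⧸ M) = 0 := Ideal.Quotient.eq_zero_iff_mem.mpr hM.2.2
      simpa using this
    letI : Algebra (ZMod p) (Cfsg.AlgInt ⧸ M) := ZMod.algebra _ p
    set abar : Cfsg.AlgInt ⧸ M := Ideal.Quotient.mk M a with habar
    have hne : abar ≠ 0 := fun h => ha (Ideal.Quotient.eq_zero_iff_mem.mp h)
    have hint : IsIntegral (ZMod p) abar := by
      have h1 : IsIntegral ℤ a := by
        obtain ⟨P, hPm, hP⟩ := a.2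
        refine ⟨P, hPm, ?_⟩
        apply Subtype.ext
        simpa [Polynomial.eval₂_eq_sum_range, Polynomial.eval₂_eq_sum_range] using hP
      have h2 : IsIntegral ℤ abar := by
        have := h1.map (Ideal.Quotient.mkₐ ℤ M)
        exact this
      exact h2.tower_top
    -- finite order
    have hfd : FiniteDimensional (ZMod p) (IntermediateField.adjoin (ZMod p) {abar}) :=
      IntermediateField.adjoin.finiteDimensional hint
    have hfin : Finite (IntermediateField.adjoin (ZMod p) {abar}) :=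
      Module.finite_of_finite (ZMod p)
    have habarmem : abar ∈ IntermediateField.adjoin (ZMod p) {abar} :=
      IntermediateField.mem_adjoin_simple_self _ _
    obtain ⟨i, j, hij, heq⟩ := Finite.exists_ne_map_eq_of_infinite
      (fun k : ℕ => (⟨abar ^ k, pow_mem habarmem k⟩ : IntermediateField.adjoin (ZMod p) {abar}))
    have heq' : abar ^ i = abar ^ j := congrArg Subtype.val heq
    obtain ⟨N, hN0, hN⟩ : ∃ N : ℕ, 0 < N ∧ abar ^ N = 1 := by
      rcases lt_or_gt_of_ne hij with h | h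
      · refine ⟨j - i, by omega, ?_⟩
        have : abar ^ j = abar ^ i * abar ^ (j - i) := by rw [← pow_add]; congr 1; omega
        rw [this] at heq'
        exact (mul_eq_left₀ (pow_ne_zero _ hne)).mp heq'.symm
      · refine ⟨i - j, by omega, ?_⟩
        have : abar ^ i = abar ^ j * abar ^ (i - j) := by rw [← pow_add]; congr 1; omega
        rw [this] at heq'
        exact (mul_eq_left₀ (pow_ne_zero _ hne)).mp heq'
    -- a power prime to `p`
    obtain ⟨k, m, hm, hNm⟩ := Nat.exists_eq_pow_mul_and_not_dvd hN0.ne' p hp.ne_one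
    have hm0 : 0 < m := Nat.pos_of_ne_zero (by
      rintro rfl
      exact hm (dvd_zero p))
    have hm1 : abar ^ m = 1 := by
      have h1 : (abar ^ m) ^ (p ^ k) = 1 := by
        rw [← pow_mul, mul_comm, ← hNm, hN]
      have h2 : (abar ^ m - 1) ^ (p ^ k) = 0 := by
        rw [sub_pow_char_pow, h1, one_pow, sub_self]
      exact sub_eq_zero.mp (pow_eq_zero_iff (pow_ne_zero _ hp.ne_zero) |>.mp h2)
    have hmem : a ^ m - 1 ∈ M := by
      have : Ideal.Quotient.mk M (a ^ m - 1) = 0 := by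
        rw [map_sub, map_pow, map_one, ← habar, hm1, sub_self]
      exact Ideal.Quotient.eq_zero_iff_mem.mp this
    -- roots of unity
    haveI hpr := hmax.isPrime
    have hprim := Complex.isPrimitiveRoot_exp m hm0.ne'
    have hmem' := Cfsg.Agent.Lib.BlockLocal.memLocalIdeal_coe hmem
    have hint1 : ∀ μ ∈ Polynomial.nthRootsFinset m (1 : ℂ), IsIntegral ℤ μ := by
      intro μ hμ
      have h1 : μ ^ m = 1 := (Polynomial.mem_nthRootsFinset hm0 1).mp hμ
      apply IsIntegral.of_pow hm0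
      rw [h1]
      exact isIntegral_one
    have hprod : (((a ^ m - 1 : Cfsg.AlgInt)) : ℂ) =
        ∏ μ ∈ Polynomial.nthRootsFinset m (1 : ℂ), ((a : ℂ) - μ) := by
      have h1 := Polynomial.X_pow_sub_one_eq_prod hm0 hprim
      have h2 := congrArg (Polynomial.eval (a : ℂ)) h1
      simp only [Polynomial.eval_sub, Polynomial.eval_pow, Polynomial.eval_X, Polynomial.eval_one,
        Polynomial.eval_prod, Polynomial.eval_C] at h2
      push_cast
      exact h2
    rw [hprod, Cfsg.Agent.Lib.BlockLocal.memLocalIdeal_prod_iff _ _ (fun μ hμ =>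
      Cfsg.Agent.Lib.BlockLocal.memLocalRing_of_isIntegral (a.2.sub (hint1 μ hμ)))] at hmem'
    obtain ⟨μ, hμ, hμ'⟩ := hmem'
    refine ⟨⟨μ, hint1 μ hμ⟩, ⟨m, hm, (Polynomial.mem_nthRootsFinset hm0 1).mp hμ⟩, ?_⟩
    apply Cfsg.Agent.Lib.BlockLocal.memLocalIdeal_coe_iff.mp
    exact hμ'

end Cfsg.Agent.S0901
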