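import Mathlib
-- Template for statement S0902 (row 902; see /opt/grader/pristine/manifest.json for weights).
-- Copy to Cfsg/Agent/S0902.lean and replace the sorry. The statement below is byte-identical to the frozen
-- statement Cfsg.CfsgFrozen.S0902 (Cfsg/Statements/S0902.lean; the theorem Cfsg.same_block_independent_of_maximal_ideal);
-- the grader kernel-checks Cfsg.Agent.S0902.result against that frozen type. Keep the theorem IN THIS FILE
-- (a `result` declared elsewhere and merely imported here is not credited); helpers may live anywhere
-- under Cfsg/Agent/.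
import Cfsg.Statements.S0902
import Cfsg.Agent.Lib.BlkLink

set_option autoImplicit false
open Cfsg

namespace Cfsg.Agent.S0902



/-- If two irreducible characters of a finite group lie in the same block relative to one maximal ideal M of the algebraic integers containing the prime p, then at every element the difference of their central characters is an algebraic integer lying in every maximal ideal containing p; in particular they lie in the same block relative to any such ideal. -/
theorem result {G : Type*} [Group G] [Finite G] (p : ℕ) [Fact p.Prime] (M : Ideal Cfsg.AlgInt) (hM : Cfsg.IsPModular p M) (χ ψ : Cfsg.IrrCharacter G) (h : Cfsg.SameBlock M (χ : G → ℂ) (ψ : G → ℂ)) (M' : Ideal Cfsg.AlgInt) (hM' : Cfsg.IsPModular p M') (g : G) : ∃ r : Cfsg.AlgInt, r ∈ M' ∧ (r : ℂ) = Cfsg.centralChar (χ : G → ℂ) g - Cfsg.centralChar (ψ : G → ℂ) g := by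
  classical
  letI := Fintype.ofFinite G
  haveI := hM'.2.1.isPrime
  have h1 := Cfsg.Agent.Lib.BlkLink.sameBlock_of_sameBlock hM hM' h
  have hint : IsIntegral ℤ (Cfsg.centralChar (χ : G → ℂ) g - Cfsg.centralChar (ψ : G → ℂ) g) :=
    (Cfsg.Agent.Lib.BlockIdem.isIntegral_centralChar χ g).sub
      (Cfsg.Agent.Lib.BlockIdem.isIntegral_centralChar ψ g)
  exact ⟨⟨_, hint⟩, Cfsg.Agent.Lib.BlockLocal.memLocalIdeal_coe_iff.mp (h1 g), rfl⟩

end Cfsg.Agent.S0902
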