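import Mathlib
-- Template for statement S0903 (row 903; see /opt/grader/pristine/manifest.json for weights).
-- Copy to Cfsg/Agent/S0903.lean and replace the sorry. The statement below is byte-identical to the frozen
-- statement Cfsg.CfsgFrozen.S0903 (Cfsg/Statements/S0903.lean; the theorem Cfsg.brauer_map_pair_count_congruence);
-- the grader kernel-checks Cfsg.Agent.S0903.result against that frozen type. Keep the theorem IN THIS FILE
-- (a `result` declared elsewhere and merely imported here is not credited); helpers may live anywhere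
-- under Cfsg/Agent/.
import Cfsg.Statements.S0903
import Cfsg.Agent.Lib.BlkAct

set_option autoImplicit false
open Cfsg

namespace Cfsg.Agent.S0903



/-- Let P be a p-subgroup of the finite group G, let c centralize P and let g, h ∈ G. The number of pairs (x, y) with x conjugate to g, y conjugate to h and x * y = c is congruent modulo p to the number of such pairs in which x and y both centralize P. (This is why the Brauer map on class sums is multiplicative.) -/
theorem result {G : Type*} [Group G] [Finite G] (p : ℕ) [Fact p.Prime] (P : Subgroup G) (hP : IsPGroup p P) (c : G) (hc : c ∈ Subgroup.centralizer (P : Set G)) (g h : G) : Nat.card {xy : G × G // IsConj g xy.1 ∧ IsConj h xy.2 ∧ xy.1 * xy.2 = c} ≡ Nat.card {xy : G × G // IsConj g xy.1 ∧ IsConj h xy.2 ∧ xy.1 * xy.2 = c ∧ xy.1 ∈ Subgroup.centralizer (P : Set G) ∧ xy.2 ∈ Subgroup.centralizer (P : Set G)} [MOD p] := by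
  classical
  have key := Cfsg.Agent.Lib.BlkAct.card_pairs_modEq hP {xy : G × G | IsConj g xy.1 ∧ IsConj h xy.2 ∧ xy.1 * xy.2 = c} ?_
  · refine key.trans ?_
    suffices e : Nat.card {xy : G × G // xy ∈ {xy : G × G | IsConj g xy.1 ∧ IsConj h xy.2 ∧ xy.1 * xy.2 = c} ∧ xy.1 ∈ Subgroup.centralizer (P : Set G) ∧ xy.2 ∈ Subgroup.centralizer (P : Set G)} = Nat.card {xy : G × G // IsConj g xy.1 ∧ IsConj h xy.2 ∧ xy.1 * xy.2 = c ∧ xy.1 ∈ Subgroup.centralizer (P : Set G) ∧ xy.2 ∈ Subgroup.centralizer (P : Set G)} by rw [e]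
    apply Nat.card_congr
    exact ⟨fun t => ⟨t.1, t.2.1.1, t.2.1.2.1, t.2.1.2.2, t.2.2.1, t.2.2.2⟩, fun t => ⟨t.1, ⟨t.2.1, t.2.2.1, t.2.2.2.1⟩, t.2.2.2.2.1, t.2.2.2.2.2⟩, fun _ => rfl, fun _ => rfl⟩
  · rintro u hu xy ⟨h1, h2, h3⟩
    refine ⟨h1.trans (isConj_iff.mpr ⟨u, rfl⟩), h2.trans (isConj_iff.mpr ⟨u, rfl⟩), ?_⟩
    have h4 := (Subgroup.mem_centralizer_iff.mp hc) u hu
    show u * xy.1 * u⁻¹ * (u * xy.2 * u⁻¹) = c
    calc u * xy.1 * u⁻¹ * (u * xy.2 * u⁻¹) = u * (xy.1 * xy.2) * u⁻¹ := by group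
      _ = u * c * u⁻¹ := by rw [h3]
      _ = c := by rw [h4]; group

end Cfsg.Agent.S0903
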