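import Mathlib
-- Template for statement S0905 (row 905; see /opt/grader/pristine/manifest.json for weights).
-- Copy to Cfsg/Agent/S0905.lean and replace the sorry. The statement below is byte-identical to the frozen
-- statement Cfsg.CfsgFrozen.S0905 (Cfsg/Statements/S0905.lean; the theorem Cfsg.class_sum_avoiding_centralizer_pcore_nilpotent);
-- the grader kernel-checks Cfsg.Agent.S0905.result against that frozen type. Keep the theorem IN THIS FILE
-- (a `result` declared elsewhere and merely imported here is not credited); helpers may live anywhere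
-- under Cfsg/Agent/.
import Cfsg.Statements.S0905
import Cfsg.Agent.Lib.BlockNormal
import Cfsg.Agent.Lib.BlkBasic
import Cfsg.Agent.Lib.PCore

set_option autoImplicit false
open Cfsg

namespace Cfsg.Agent.S0905

open Cfsg Cfsg.Agent.Lib.BlockNormal Cfsg.Agent.Lib.CharIntegrality Cfsg.Agent.Lib.BlkBasic

/-- Let F be a field of characteristic p and let g be an element of the finite group G no conjugate of which centralizes O_p(G). Then the class sum of g is a nilpotent element of the group algebra F[G]. -/
theorem result {G : Type*} [Group G] [Finite G] (p : ℕ) [Fact p.Prime] (F : Type*) [Field F] [CharP F p] (g : G) (hg : ∀ x : G, IsConj g x → x ∉ Subgroup.centralizer (Cfsg.pCore p G : Set G)) : IsNilpotent (∑ᶠ x ∈ ConjClasses.carrier (ConjClasses.mk g), MonoidAlgebra.single x (1 : F) : MonoidAlgebra F G) := by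
  classical
  letI := Fintype.ofFinite G
  set P := pCore p G with hPdef
  letI : Fintype P := Fintype.ofFinite _
  haveI : P.Normal := Cfsg.Agent.Lib.PCore.pCore_normal p
  have hP : IsPGroup p P := Cfsg.Agent.Lib.PCore.isPGroup_pCore p
  set f : G → ℤ := classIndicator g with hf
  have ha : ∀ x : G, ∑ u : P, ((f (x * u) : ℤ) : ZMod p) = 0 := by
    intro x
    rw [← Int.cast_sum]
    exact (ZMod.intCast_zmod_eq_zero_iff_dvd _ _).2 (dvd_sum_classIndicator P hP g (hg g (IsConj.refl g)) x)
  obtain ⟨m, hm⟩ := nil_on_module P hP (fun g => ((f g : ℤ) : ZMod p)) ha _ (G → ZMod p) (regRep p G) rfl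
  have hdvd : ∀ z, ((powConv f m z : ℤ) : F) = 0 := by
    intro z
    have h1 : ((powConv f m z : ℤ) : ZMod p) = 0 := by
      rw [powConv_cast, hm]
      simp
    have h2 : (p : ℤ) ∣ powConv f m z := (ZMod.intCast_zmod_eq_zero_iff_dvd _ _).1 h1
    exact (CharP.intCast_eq_zero_iff F p _).2 h2
  let toA : (G → ℤ) → MonoidAlgebra F G := fun k => ∑ z, MonoidAlgebra.single z ((k z : ℤ) : F)
  have hA0 : (∑ᶠ x ∈ ConjClasses.carrier (ConjClasses.mk g), MonoidAlgebra.single x (1 : F) : MonoidAlgebra F G) = toA f := by
    rw [finsum_mem_eq_finite_toFinset_sum _ (Set.toFinite _)]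
    show _ = ∑ z, MonoidAlgebra.single z ((f z : ℤ) : F)
    have h1 : ∀ z : G, MonoidAlgebra.single z ((f z : ℤ) : F) = if z ∈ (Set.toFinite (ConjClasses.carrier (ConjClasses.mk g))).toFinset then MonoidAlgebra.single z (1 : F) else 0 := by
      intro z
      by_cases hz : IsConj g z
      · rw [if_pos, hf, classIndicator_of_conj hz]
        · simp
        · simp only [Set.Finite.mem_toFinset, ConjClasses.mem_carrier_iff_mk_eq]
          exact ConjClasses.mk_eq_mk_iff_isConj.mpr hz.symm
      · rw [if_neg, hf, classIndicator_of_not_conj hz]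
        · simp
        · simp only [Set.Finite.mem_toFinset, ConjClasses.mem_carrier_iff_mk_eq]
          intro h
          exact hz (ConjClasses.mk_eq_mk_iff_isConj.mp h).symm
    simp_rw [h1]
    rw [Finset.sum_ite_mem, Finset.univ_inter]
  have hA1 : ∀ k, toA (convZ f k) = toA f * toA k := by
    intro k
    show ∑ z, MonoidAlgebra.single z ((convZ f k z : ℤ) : F) = (∑ z, MonoidAlgebra.single z ((f z : ℤ) : F)) * (∑ z, MonoidAlgebra.single z ((k z : ℤ) : F))
    rw [Finset.sum_mul_sum]
    simp only [convZ, MonoidAlgebra.single_mul_single]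
    have h2 : ∀ z : G, MonoidAlgebra.single z ((∑ x : G, f x * k (x⁻¹ * z) : ℤ) : F) = ∑ x : G, (MonoidAlgebra.single z (((f x : ℤ) : F) * ((k (x⁻¹ * z) : ℤ) : F)) : MonoidAlgebra F G) := by
      intro z
      push_cast
      exact map_sum (MonoidAlgebra.singleAddHom z) _ _
    simp_rw [h2]
    rw [Finset.sum_comm]
    refine Finset.sum_congr rfl fun x _ => ?_
    refine Fintype.sum_equiv (Equiv.mulLeft x⁻¹) _ _ fun z => ?_
    simp
  have hApow : ∀ n, toA (powConv f n) = (toA f) ^ n := by
    intro n
    induction n with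
    | zero =>
      rw [pow_zero]
      show ∑ z, MonoidAlgebra.single z (((powConv f 0 z : ℤ)) : F) = 1
      rw [Finset.sum_eq_single (1 : G)]
      · simp [powConv, MonoidAlgebra.one_def]
      · intro z _ hz
        simp [powConv, hz]
      · simp
    | succ n ih =>
      have : powConv f (n + 1) = convZ f (powConv f n) := rfl
      rw [this, hA1, ih, pow_succ']
  refine ⟨m, ?_⟩
  rw [hA0, ← hApow]
  apply Finset.sum_eq_zero
  intro z _
  rw [hdvd z]
  simp

end Cfsg.Agent.S0905
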