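import Mathlib
-- Template for statement S0911 (row 911; see /opt/grader/pristine/manifest.json for weights).
-- Copy to Cfsg/Agent/S0911.lean and replace the sorry. The statement below is byte-identical to the frozen
-- statement Cfsg.CfsgFrozen.S0911 (Cfsg/Statements/S0911.lean; the theorem Cfsg.min_max_defect_class);
-- the grader kernel-checks Cfsg.Agent.S0911.result against that frozen type. Keep the theorem IN THIS FILE
-- (a `result` declared elsewhere and merely imported here is not credited); helpers may live anywhere
-- under Cfsg/Agent/.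
import Cfsg.Statements.S0911
import Cfsg.Agent.Lib.BlockDefect
import Cfsg.Agent.Lib.BlkSylow

set_option autoImplicit false
open Cfsg

namespace Cfsg.Agent.S0911

open Cfsg.Agent.Lib.BlockDefect Cfsg.Agent.Lib.BlkSylow

/-- The min–max Theorem for defect classes. Let B be a block of the finite group G relative to a maximal ideal M of the algebraic integers containing the prime p, let g represent a defect class of B and let D be a Sylow p-subgroup of the centralizer of g (viewed in G). For any h: (a) if the idempotent coefficient of B at h is a local integer outside the local ideal, then some conjugate of D contains a Sylow p-subgroup of the centralizer of h; (b) if the central character of some member of B at h is outside the local ideal, then some conjugate of D is contained in a Sylow p-subgroup of the centralizer of h. -/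
theorem result {G : Type*} [Group G] [Finite G] (p : ℕ) [Fact p.Prime] (M : Ideal Cfsg.AlgInt) (hM : Cfsg.IsPModular p M) (B : Set (Cfsg.IrrCharacter G)) (hB : Cfsg.IsPBlock M B) (g : G) (hg : Cfsg.IsDefectClass M B g) (D : Sylow p (Subgroup.centralizer ({g} : Set G))) (h : G) : (Cfsg.MemLocalRing M (Cfsg.blockCoeff B h) → ¬ Cfsg.MemLocalIdeal M (Cfsg.blockCoeff B h) → ∃ (x : G) (Q : Sylow p (Subgroup.centralizer ({h} : Set G))), (Q : Subgroup (Subgroup.centralizer ({h} : Set G))).map (Subgroup.centralizer ({h} : Set G)).subtype ≤ ((D : Subgroup (Subgroup.centralizer ({g} : Set G))).map (Subgroup.centralizer ({g} : Set G)).subtype).map (MulAut.conj x).toMonoidHom) ∧ ((∃ χ ∈ B, ¬ Cfsg.MemLocalIdeal M (Cfsg.centralChar (χ : G → ℂ) h)) → ∃ (x : G) (Q : Sylow p (Subgroup.centralizer ({h} : Set G))), ((D : Subgroup (Subgroup.centralizer ({g} : Set G))).map (Subgroup.centralizer ({g} : Set G)).subtype).map (MulAut.conj x).toMonoidHom ≤ (Q : Subgroup (Subgroup.centralizer ({h} : Set G))).map (Subgroup.centralizer ({h} : Set G)).subtype) := by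
  classical
  letI := Fintype.ofFinite G
  haveI := hM.2.1.isPrime
  obtain ⟨χ, hχB⟩ := id hB
  have hχ : χ ∈ B := by
    rw [hχB]
    exact Cfsg.Agent.Lib.BlockIdem.mem_blockOf_self χ
  refine ⟨?_, ?_⟩
  · intro _ hh
    have h1 := leDefect_of_coeff hM hB hχ (hg.2.2 χ hχ) (leDefect_of_sylow g D) hh
    obtain ⟨Q⟩ : Nonempty (Sylow p (Subgroup.centralizer ({h} : Set G))) := inferInstance
    obtain ⟨t, ht⟩ := h1 _ (isSylowIn_of_sylow Q).1 (isSylowIn_of_sylow Q).2.1
    refine ⟨t⁻¹, Q, ?_⟩
    intro x hx
    rw [conj_mem_map]
    have := ht ⟨x, hx, rfl⟩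
    simpa using this
  · rintro ⟨ψ, hψ, hψh⟩
    obtain ⟨Q⟩ : Nonempty (Sylow p (Subgroup.centralizer ({h} : Set G))) := inferInstance
    have h1 := leDefect_of_coeff hM hB hψ hψh (leDefect_of_sylow h Q) hg.2.1
    obtain ⟨t, ht⟩ := h1 _ (isSylowIn_of_sylow D).1 (isSylowIn_of_sylow D).2.1
    exact ⟨t, Q, ht⟩

end Cfsg.Agent.S0911
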