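import Mathlib
-- Template for statement S0918 (row 918; see /opt/grader/pristine/manifest.json for weights).
-- Copy to Cfsg/Agent/S0918.lean and replace the sorry. The statement below is byte-identical to the frozen
-- statement Cfsg.CfsgFrozen.S0918 (Cfsg/Statements/S0918.lean; the theorem Cfsg.induced_block_eq_iff_brauer_map);
-- the grader kernel-checks Cfsg.Agent.S0918.result against that frozen type. Keep the theorem IN THIS FILE
-- (a `result` declared elsewhere and merely imported here is not credited); helpers may live anywhere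
-- under Cfsg/Agent/.
import Cfsg.Statements.S0918
import Cfsg.Agent.Lib.BlkBrauer

set_option autoImplicit false
open Cfsg

namespace Cfsg.Agent.S0918

open Cfsg.Agent.Lib.BlkBrauer Cfsg.Agent.Lib.BlockLocal

/-- Let P be a p-subgroup of the finite group G and H a subgroup with P·C_G(P) ≤ H ≤ N_G(P); let b be a block of H and B a block of G relative to a maximal ideal M of the algebraic integers containing p. Then b induces B if and only if, for every g ∈ G, every ξ ∈ b and every χ ∈ B, the central character of χ at g is congruent modulo the local ideal at M to the sum of ξ h / ξ 1 over the elements h of H conjugate in G to g and centralizing P. -/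
theorem result {G : Type*} [Group G] [Finite G] (p : ℕ) [Fact p.Prime] (M : Ideal Cfsg.AlgInt) (hM : Cfsg.IsPModular p M) (P H : Subgroup G) (hP : IsPGroup p P) (hPH : P ≤ H) (hCH : Subgroup.centralizer (P : Set G) ≤ H) (hHN : H ≤ Subgroup.normalizer (P : Set G)) (b : Set (Cfsg.IrrCharacter H)) (hb : Cfsg.IsPBlock M b) (B : Set (Cfsg.IrrCharacter G)) (hB : Cfsg.IsPBlock M B) : Cfsg.IsInducedBlock M H b B ↔ ∀ ξ ∈ b, ∀ χ ∈ B, ∀ g : G, Cfsg.MemLocalIdeal M (Cfsg.brauerCentralChar P H (ξ : H → ℂ) g - Cfsg.centralChar (χ : G → ℂ) g) := by
  classical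
  letI := Fintype.ofFinite G
  letI := Fintype.ofFinite H
  haveI := hM.2.1.isPrime
  constructor
  · intro hind ξ hξ χ hχ g
    have h1 := induced_sub_brauer hM hP hPH hHN ξ g
    have h2 := hind.2.2 ξ hξ χ hχ g
    have h3 := memLocalIdeal_sub h2 h1
    convert h3 using 1
    ring
  · intro h
    refine ⟨hb, hB, fun ξ hξ χ hχ g => ?_⟩
    have h1 := induced_sub_brauer hM hP hPH hHN ξ g
    have h2 := h ξ hξ χ hχ g
    have h3 := memLocalIdeal_add h1 h2
    convert h3 using 1
    ring

end Cfsg.Agent.S0918
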