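import Mathlib
-- Template for statement S0921 (row 921; see /opt/grader/pristine/manifest.json for weights).
-- Copy to Cfsg/Agent/S0921.lean and replace the sorry. The statement below is byte-identical to the frozen
-- statement Cfsg.CfsgFrozen.S0921 (Cfsg/Statements/S0921.lean; the theorem Cfsg.same_block_same_constituents_on_p_prime_core);
-- the grader kernel-checks Cfsg.Agent.S0921.result against that frozen type. Keep the theorem IN THIS FILE
-- (a `result` declared elsewhere and merely imported here is not credited); helpers may live anywhere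
-- under Cfsg/Agent/.
import Cfsg.Statements.S0921
import Cfsg.Agent.Lib.BlkNormalSub
import Cfsg.Agent.Lib.PCore

set_option autoImplicit false
open Cfsg

namespace Cfsg.Agent.S0921



/-- Let N = O_p'(G) be the largest normal subgroup of the finite group G of order prime to p, and fix a maximal ideal M of the algebraic integers containing p. If two irreducible characters χ, ψ of G lie in the same block relative to M, then an irreducible character of N occurs in the restriction of χ exactly when it occurs in the restriction of ψ. -/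
theorem result {G : Type*} [Group G] [Finite G] (p : ℕ) [Fact p.Prime] (M : Ideal Cfsg.AlgInt) (hM : Cfsg.IsPModular p M) [Fintype G] (χ ψ : Cfsg.IrrCharacter G) (h : Cfsg.SameBlock M (χ : G → ℂ) (ψ : G → ℂ)) (θ : Cfsg.IrrCharacter (Cfsg.pPrimeCore p G)) [Fintype (Cfsg.pPrimeCore p G)] : Cfsg.classInner (fun n : Cfsg.pPrimeCore p G => (χ : G → ℂ) n) (θ : Cfsg.pPrimeCore p G → ℂ) ≠ 0 ↔ Cfsg.classInner (fun n : Cfsg.pPrimeCore p G => (ψ : G → ℂ) n) (θ : Cfsg.pPrimeCore p G → ℂ) ≠ 0 := by
---
  classical
  haveI := hM.2.1.isPrime
  have hN : (Cfsg.pPrimeCore p G).Normal := inferInstance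
  have hN' : ¬ p ∣ Nat.card (Cfsg.pPrimeCore p G) := Cfsg.Agent.Lib.PCore.not_dvd_card_pPrimeCore p
  exact ⟨fun hc => Cfsg.Agent.Lib.BlkNormalSub.constituent_of_sameBlock_of_coprime hM hN hN' h hc,
    fun hc => Cfsg.Agent.Lib.BlkNormalSub.constituent_of_sameBlock_of_coprime hM hN hN'
      (Cfsg.Agent.Lib.BlockIdem.sameBlock_symm (M := M) h) hc⟩

end Cfsg.Agent.S0921
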