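import Mathlib
import Cfsg.Statements.S0923
import Cfsg.Agent.Lib.BlockSecond

set_option autoImplicit false
set_option linter.style.haveILetI false
open Cfsg

namespace Cfsg.Agent.S0923

open Cfsg.Agent.Lib.BlockSecond Cfsg.Agent.Lib.BlockIdem Cfsg.Agent.Lib.BlockNormal
open Cfsg.Agent.Lib.CharBasic

/-- Brauer's Second Main Theorem, in terms of ordinary characters. Let x be a p-element of the finite group G with centralizer C, let χ lie in the block B of G and let b be a block of C that does not induce B (relative to a maximal ideal M of the algebraic integers containing p). Form the class function ϑ(c) = χ(x c) on C and its b-part (the sum over ψ ∈ b of the inner product of ϑ with ψ, times ψ). Then the b-part of ϑ vanishes at every p-regular element of C. (Equivalently, the generalized decomposition numbers of χ with respect to b are zero.) -/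
theorem result {G : Type*} [Group G] [Finite G] (p : ℕ) [Fact p.Prime] (M : Ideal Cfsg.AlgInt) (hM : Cfsg.IsPModular p M) (x : G) (hx : ∃ k : ℕ, orderOf x = p ^ k) (B : Set (Cfsg.IrrCharacter G)) (hB : Cfsg.IsPBlock M B) (χ : Cfsg.IrrCharacter G) (hχ : χ ∈ B) (b : Set (Cfsg.IrrCharacter (Subgroup.centralizer ({x} : Set G)))) (hb : Cfsg.IsPBlock M b) (hnot : ¬ Cfsg.IsInducedBlock M (Subgroup.centralizer ({x} : Set G)) b B) (y : Subgroup.centralizer ({x} : Set G)) (hy : ¬ p ∣ orderOf y) : Cfsg.blockPart b (fun c : Subgroup.centralizer ({x} : Set G) => (χ : G → ℂ) (x * (c : G))) y = 0 := by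
  classical
  letI : Fintype G := Fintype.ofFinite G
  letI : Fintype (Subgroup.centralizer ({x} : Set G)) := Fintype.ofFinite _
  have hp : p.Prime := Fact.out
  haveI := hM.2.1.isPrime
  have hPp : IsPGroup p (Subgroup.zpowers x) := by
    obtain ⟨k, hk⟩ := hx
    apply IsPGroup.of_card (n := k)
    rw [Nat.card_zpowers, hk]
  obtain ⟨B', hB'⟩ := exists_isInducedBlock_centralizer hM hPp
    (centralizer_zpowers_eq x).symm hb
  have hne : B' ≠ B := fun h => hnot (h ▸ hB')
  have hχ' : χ ∉ B' := by
    rcases eq_or_disjoint_of_isPBlock hB'.2.1 hB with h | h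
    · exact absurd h hne
    · exact fun h1 => Set.disjoint_left.1 h h1 hχ
  have hxC : x ∈ Subgroup.centralizer ({x} : Set G) := by
    rw [Subgroup.mem_centralizer_singleton_iff]
  have hy' : ¬ p ∣ orderOf (y : G) := by rwa [Subgroup.orderOf_coe]
  have hcomm : Commute x (y : G) :=
    ((Subgroup.mem_centralizer_singleton_iff.1 y.2).symm : x * y = y * x)
  have hz : IsPPart p (x * (y : G)) x := Cfsg.Agent.Lib.BlkOrth.pPart_of_mul hcomm hx hy'
  have key := sum_blockCoeff_mul_irr_eq_zero hM hB'
    (Subgroup.mul_mem _ hxC y.2) hz le_rfl χ hχ'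
  have hcl := isClassFunction_of_isCharacter (IsIrrCharacter.isCharacter χ.2)
  have hϑ : IsClassFunction (Subgroup.centralizer ({x} : Set G))
      (fun c : Subgroup.centralizer ({x} : Set G) => (χ : G → ℂ) (x * (c : G))) := by
    intro g h
    simp only [Subgroup.coe_mul, Subgroup.coe_inv]
    have h1 : x * ((h : G) * g * (h : G)⁻¹) = (h : G) * (x * g) * (h : G)⁻¹ := by
      have h2 : x * (h : G) = h * x := (Subgroup.mem_centralizer_singleton_iff.1 h.2).symm
      calc x * ((h : G) * g * (h : G)⁻¹) = (x * h) * g * (h : G)⁻¹ := by group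
        _ = (h * x) * g * (h : G)⁻¹ := by rw [h2]
        _ = _ := by group
    rw [h1, hcl]
  rw [← sum_blockCoeff_mul_eq_blockPart b hϑ y, ← key]
  refine Finset.sum_congr rfl fun k _ => ?_
  congr 1
  have h2 : x * (k : G) = k * x := (Subgroup.mem_centralizer_singleton_iff.1 k.2).symm
  simp only [Subgroup.coe_mul]
  have h3 : x * ((k : G) * y) = k * (x * y) := by
    calc x * ((k : G) * y) = (x * k) * y := by group
      _ = (k * x) * y := by rw [h2]
      _ = _ := by group
  rw [h3]

end Cfsg.Agent.S0923
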