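import Mathlib
-- Template for statement S0924 (row 924; see /opt/grader/pristine/manifest.json for weights).
-- Copy to Cfsg/Agent/S0924.lean and replace the sorry. The statement below is byte-identical to the frozen
-- statement Cfsg.CfsgFrozen.S0924 (Cfsg/Statements/S0924.lean; the theorem Cfsg.character_vanishes_off_defect_group_sections);
-- the grader kernel-checks Cfsg.Agent.S0924.result against that frozen type. Keep the theorem IN THIS FILE
-- (a `result` declared elsewhere and merely imported here is not credited); helpers may live anywhere
-- under Cfsg/Agent/.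
import Cfsg.Statements.S0924
import Cfsg.Agent.Lib.BlkDefect

set_option autoImplicit false
open Cfsg

namespace Cfsg.Agent.S0924



/-- Let χ be an irreducible character of the finite group G and g ∈ G, and fix a maximal ideal M of the algebraic integers containing the prime p. If the p-part of g is contained in no defect group of the block of χ, then χ g = 0. -/
theorem result {G : Type*} [Group G] [Finite G] (p : ℕ) [Fact p.Prime] (M : Ideal Cfsg.AlgInt) (hM : Cfsg.IsPModular p M) (χ : Cfsg.IrrCharacter G) (g x : G) (hx : Cfsg.IsPPart p g x) (hD : ∀ D : Subgroup G, Cfsg.IsDefectGroup p M (Cfsg.blockOf M (χ : G → ℂ)) D → x ∉ D) : (χ : G → ℂ) g = 0 := by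
  classical
  letI := Fintype.ofFinite G
  haveI := hM.2.1.isPrime
  exact Cfsg.Agent.Lib.BlkDefect.char_eq_zero_of_not_mem_defect hM ⟨χ, rfl⟩ hx hD (Cfsg.Agent.Lib.BlockIdem.mem_blockOf_self χ)

end Cfsg.Agent.S0924
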