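import Mathlib
import Cfsg.Statements.S0925
import Cfsg.Agent.Lib.BlockOrth

set_option autoImplicit false
open Cfsg

namespace Cfsg.Agent.S0925

open Cfsg.Agent.Lib.BlockOrth Cfsg.Agent.Lib.CharBasic
open scoped ComplexConjugate

/-- (i) Let ϑ be a class function on the finite group G and x a p-element, and suppose ϑ vanishes at every element whose p-part is conjugate to x. Then for every block B (relative to a maximal ideal M of the algebraic integers containing p) the B-part of ϑ — the sum over χ ∈ B of the inner product of ϑ with χ, times χ — also vanishes at every such element. (ii) Block orthogonality, its corollary: if the p-parts of g and h are not conjugate, then the sum over χ ∈ B of χ g * χ h⁻¹ is zero for every block B. -/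
theorem result {G : Type*} [Group G] [Finite G] (p : ℕ) [Fact p.Prime] (M : Ideal Cfsg.AlgInt) (hM : Cfsg.IsPModular p M) : (∀ (ϑ : G → ℂ), Cfsg.IsClassFunction G ϑ → ∀ x : G, (∃ k : ℕ, orderOf x = p ^ k) → (∀ u z : G, Cfsg.IsPPart p u z → IsConj x z → ϑ u = 0) → ∀ B : Set (Cfsg.IrrCharacter G), Cfsg.IsPBlock M B → ∀ u z : G, Cfsg.IsPPart p u z → IsConj x z → Cfsg.blockPart B ϑ u = 0) ∧ (∀ g h x y : G, Cfsg.IsPPart p g x → Cfsg.IsPPart p h y → ¬ IsConj x y → ∀ B : Set (Cfsg.IrrCharacter G), Cfsg.IsPBlock M B → ∑ᶠ χ ∈ B, (χ : G → ℂ) g * (χ : G → ℂ) h⁻¹ = 0) := by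
  classical
  letI : Fintype G := Fintype.ofFinite G
  constructor
  · intro ϑ _ x _ hϑ B hB u z hu hz
    show ∑ᶠ χ ∈ B, classInner ϑ (χ : G → ℂ) * (χ : G → ℂ) u = 0
    rw [finsum_mem_eq_finite_toFinset_sum _ (Set.toFinite B)]
    have h1 : ∀ χ : IrrCharacter G, classInner ϑ (χ : G → ℂ) * (χ : G → ℂ) u =
        (Nat.card G : ℂ)⁻¹ * ∑ w : G, ϑ w * ((χ : G → ℂ) u * (χ : G → ℂ) w⁻¹) := fun χ => by
      unfold classInner
      rw [mul_assoc, Finset.sum_mul]
      congr 1
      refine Finset.sum_congr rfl fun w _ => ?_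
      rw [char_conj_eq_inv (IsIrrCharacter.isCharacter χ.2) w]
      ring
    simp only [h1]
    rw [← Finset.mul_sum, Finset.sum_comm]
    have h2 : ∀ w : G, ∑ χ ∈ (Set.toFinite B).toFinset, ϑ w * ((χ : G → ℂ) u * (χ : G → ℂ) w⁻¹) = 0 := by
      intro w
      rw [← Finset.mul_sum]
      obtain ⟨z', hz'⟩ := exists_isPPart (Fact.out : p.Prime) w
      by_cases hc : IsConj x z'
      · rw [hϑ w z' hz' hc, zero_mul]
      · have hnc : ¬ IsConj z z' := fun h => hc (hz.trans h)
        have := block_orthogonality hM hB hu hz' hnc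
        rw [finsum_mem_eq_finite_toFinset_sum _ (Set.toFinite B)] at this
        rw [this, mul_zero]
    simp only [h2, Finset.sum_const_zero, mul_zero]
  · intro g h x y hg hh hxy B hB
    exact block_orthogonality hM hB hg hh hxy

end Cfsg.Agent.S0925
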