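import Mathlib
-- Template for statement S0926 (row 926; see /opt/grader/pristine/manifest.json for weights).
-- Copy to Cfsg/Agent/S0926.lean and replace the sorry. The statement below is byte-identical to the frozen
-- statement Cfsg.CfsgFrozen.S0926 (Cfsg/Statements/S0926.lean; the theorem Cfsg.height_zero_character_detects_defect_group);
-- the grader kernel-checks Cfsg.Agent.S0926.result against that frozen type. Keep the theorem IN THIS FILE
-- (a `result` declared elsewhere and merely imported here is not credited); helpers may live anywhere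
-- under Cfsg/Agent/.
import Cfsg.Statements.S0926
import Cfsg.Agent.Lib.BlkDefect

set_option autoImplicit false
open Cfsg

namespace Cfsg.Agent.S0926

open Cfsg.Agent.Lib.BlkSylow Cfsg.Agent.Lib.BlkDefect Cfsg.Agent.Lib.BlockDefect

/-- Let B be a block of the finite group G with defect group D (relative to a maximal ideal M of the algebraic integers containing p), let χ ∈ B have height zero, and let x be a p-element. Then some conjugate of x lies in D if and only if χ does not vanish on the whole p-section of x (the elements whose p-part is conjugate to x). -/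
theorem result {G : Type*} [Group G] [Finite G] (p : ℕ) [Fact p.Prime] (M : Ideal Cfsg.AlgInt) (hM : Cfsg.IsPModular p M) (B : Set (Cfsg.IrrCharacter G)) (hB : Cfsg.IsPBlock M B) (D : Subgroup G) (hD : Cfsg.IsDefectGroup p M B D) (χ : Cfsg.IrrCharacter G) (hχ : χ ∈ B) (h0 : Cfsg.blockHeight p B (χ : G → ℂ) = 0) (x : G) (hx : ∃ k : ℕ, orderOf x = p ^ k) : (∃ g : G, g * x * g⁻¹ ∈ D) ↔ ∃ u : G, (∃ z : G, Cfsg.IsPPart p u z ∧ IsConj x z) ∧ (χ : G → ℂ) u ≠ 0 := by
  classical
  letI := Fintype.ofFinite G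
  haveI := hM.2.1.isPrime
  constructor
  · rintro ⟨g, hg⟩
    obtain ⟨y, hy, P, rfl⟩ := id hD
    have hSyl := isSylowIn_of_sylow P
    have hreg := regular_of_isDefectClass hM hB hy
    have hcomm : Commute (g * x * g⁻¹) y := Subgroup.mem_centralizer_singleton_iff.mp (hSyl.2.1 hg)
    obtain ⟨k, hk⟩ := pow_eq_one_of_mem_isPGroup hSyl.1 hg
    obtain ⟨j, hj⟩ := hx
    refine ⟨(g * x * g⁻¹) * y, ⟨g * x * g⁻¹, ?_, isConj_iff.mpr ⟨g, rfl⟩⟩, ?_⟩
    · refine Cfsg.Agent.Lib.BlkOrth.pPart_of_mul hcomm ⟨j, ?_⟩ hreg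
      rw [← hj]
      exact (MulAut.conj g).orderOf_eq x
    · intro h
      apply char_not_mem_of_height_zero hM hB hy hχ h0 hcomm hk
      rw [h]
      exact Cfsg.Agent.Lib.BlockLocal.memLocalIdeal_zero
  · rintro ⟨u, ⟨z, hz, hxz⟩, hu⟩
    by_contra hcon
    apply hu
    refine char_eq_zero_of_not_mem_defect hM hB hz ?_ hχ
    intro D' hD' hzD'
    -- `D'` is conjugate into `D`
    obtain ⟨g', hg', P', rfl⟩ := id hD'
    have hL := IsDefectGroup.sylow_conj hM hB hD hg'.2.1
    obtain ⟨t, ht⟩ := hL _ (isSylowIn_of_sylow P').1 (isSylowIn_of_sylow P').2.1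
    obtain ⟨c, hc⟩ := isConj_iff.mp hxz
    apply hcon
    refine ⟨t * c, ?_⟩
    have h1 : t * z * t⁻¹ ∈ D := ht ⟨z, hzD', rfl⟩
    rw [← hc] at h1
    have h2 : t * c * x * (t * c)⁻¹ = t * (c * x * c⁻¹) * t⁻¹ := by group
    rw [h2]
    exact h1

end Cfsg.Agent.S0926
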