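import Mathlib
-- Template for statement S0927 (row 927; see /opt/grader/pristine/manifest.json for weights).
-- Copy to Cfsg/Agent/S0927.lean and replace the sorry. The statement below is byte-identical to the frozen
-- statement Cfsg.CfsgFrozen.S0927 (Cfsg/Statements/S0927.lean; the theorem Cfsg.height_zero_nonzero_mod_p_on_defect_class);
-- the grader kernel-checks Cfsg.Agent.S0927.result against that frozen type. Keep the theorem IN THIS FILE
-- (a `result` declared elsewhere and merely imported here is not credited); helpers may live anywhere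
-- under Cfsg/Agent/.
import Cfsg.Statements.S0927
import Cfsg.Agent.Lib.BlkDefect

set_option autoImplicit false
open Cfsg

namespace Cfsg.Agent.S0927

open Cfsg.Agent.Lib.BlkSylow Cfsg.Agent.Lib.BlkDefect

/-- Let B be a block of the finite group G relative to a maximal ideal M of the algebraic integers containing p, let y represent a defect class of B and let P be a Sylow p-subgroup of the centralizer of y. (a) If x ∈ P and χ ∈ B has height zero, then χ (x * y) is not in the local ideal at M. (b) If x lies in the centre of P, then for every χ ∈ B the central character of χ at x * y is not in the local ideal at M. -/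
theorem result {G : Type*} [Group G] [Finite G] (p : ℕ) [Fact p.Prime] (M : Ideal Cfsg.AlgInt) (hM : Cfsg.IsPModular p M) (B : Set (Cfsg.IrrCharacter G)) (hB : Cfsg.IsPBlock M B) (y : G) (hy : Cfsg.IsDefectClass M B y) (P : Sylow p (Subgroup.centralizer ({y} : Set G))) (x : Subgroup.centralizer ({y} : Set G)) (hx : x ∈ (P : Subgroup (Subgroup.centralizer ({y} : Set G)))) : (∀ χ ∈ B, Cfsg.blockHeight p B (χ : G → ℂ) = 0 → ¬ Cfsg.MemLocalIdeal M ((χ : G → ℂ) ((x : G) * y))) ∧ ((∀ w ∈ (P : Subgroup (Subgroup.centralizer ({y} : Set G))), x * w = w * x) → ∀ χ ∈ B, ¬ Cfsg.MemLocalIdeal M (Cfsg.centralChar (χ : G → ℂ) ((x : G) * y))) := by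
  classical
  letI := Fintype.ofFinite G
  haveI := hM.2.1.isPrime
  have hSyl := isSylowIn_of_sylow P
  have hxP : (x : G) ∈ (P : Subgroup (Subgroup.centralizer ({y} : Set G))).map (Subgroup.centralizer ({y} : Set G)).subtype :=
    ⟨x, hx, rfl⟩
  refine ⟨?_, ?_⟩
  · intro χ hχ h0
    obtain ⟨k, hk⟩ := pow_eq_one_of_mem_isPGroup hSyl.1 hxP
    exact char_not_mem_of_height_zero hM hB hy hχ h0 (Subgroup.mem_centralizer_singleton_iff.mp x.2) hk
  · intro hw χ hχ
    refine centralChar_not_mem_of_center hM hB hy hSyl hxP ?_ hχ
    rintro _ ⟨w, hw1, rfl⟩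
    have := hw w hw1
    exact congrArg Subtype.val this

end Cfsg.Agent.S0927
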