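import Mathlib
-- Template for statement S0928 (row 928; see /opt/grader/pristine/manifest.json for weights).
-- Copy to Cfsg/Agent/S0928.lean and replace the sorry. The statement below is byte-identical to the frozen
-- statement Cfsg.CfsgFrozen.S0928 (Cfsg/Statements/S0928.lean; the theorem Cfsg.knorr_vanishing_on_order_p_elements);
-- the grader kernel-checks Cfsg.Agent.S0928.result against that frozen type. Keep the theorem IN THIS FILE
-- (a `result` declared elsewhere and merely imported here is not credited); helpers may live anywhere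
-- under Cfsg/Agent/.
import Cfsg.Statements.S0928
import Cfsg.Agent.Lib.BlkFrob
import Cfsg.Agent.Lib.BlockVal
import Cfsg.Agent.Lib.CharKernel

set_option autoImplicit false
open Cfsg

namespace Cfsg.Agent.S0928



/-- Let χ be an irreducible character of the finite group G and p a prime. If χ g = 0 for every element g of order p, then the exponent of p in the degree χ(1) equals the exponent of p in the order of G (χ has p-defect zero). -/
theorem result {G : Type*} [Group G] [Finite G] (p : ℕ) [Fact p.Prime] (χ : Cfsg.IrrCharacter G) (hvan : ∀ g : G, orderOf g = p → (χ : G → ℂ) g = 0) : (Cfsg.charDegree (χ : G → ℂ)).factorization p = (Nat.card G).factorization p := by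
  classical
  letI := Fintype.ofFinite G
  have hp : p.Prime := Fact.out
  obtain ⟨M, hM⟩ := Cfsg.Agent.Lib.BlockVal.exists_isPModular (p := p) hp
  haveI := hM.2.1.isPrime
  have hχ1 := Cfsg.Agent.Lib.BlockIdem.irr_one_ne_zero' χ.2
  -- `s` acts as the identity
  have hcs : Cfsg.Agent.Lib.BlkFrob.cs p χ = 1 := by
    unfold Cfsg.Agent.Lib.BlkFrob.cs Cfsg.Agent.Lib.BlockIdem.omega Cfsg.Agent.Lib.BlkFrob.solFun
    rw [Finset.sum_eq_single (1 : G)]
    · simp [hχ1]
    · intro x _ hx
      by_cases h : x ^ p = 1
      · rw [hvan x (orderOf_eq_prime h hx), mul_zero]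
      · simp [h]
    · intro h
      exact absurd (Finset.mem_univ _) h
  have hsing := Cfsg.Agent.Lib.BlkFrob.blockOf_eq_singleton hM χ (by
    rw [hcs]
    exact Cfsg.Agent.Lib.BlockLocal.not_memLocalIdeal_one)
  have hB : Cfsg.IsPBlock M ({χ} : Set (Cfsg.IrrCharacter G)) := ⟨χ, hsing.symm⟩
  have hvanish : ∀ g : G, p ∣ orderOf g → (χ : G → ℂ) g = 0 := by
    intro g hg
    have h1 := Cfsg.Agent.Lib.BlkOrth.block_orth_weak hM hB (x := 1) (y := g) (by
      rw [orderOf_one]
      intro h
      exact hp.one_lt.ne' (Nat.dvd_one.mp h)) hg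
    rw [finsum_mem_singleton] at h1
    have h2 := (mul_eq_zero.mp h1).resolve_left hχ1
    exact (map_eq_zero _).mp h2
  have h3 := Cfsg.Agent.Lib.BlockOrtho.dvd_charDegree_of_vanish hp
    (Cfsg.Agent.Lib.CharBasic.IsIrrCharacter.isCharacter χ.2) hvanish
  have h4 := Cfsg.Agent.Lib.CharKernel.charDegree_dvd_card χ.2
  have h5 := Cfsg.Agent.Lib.CharKernel.charDegree_ne_zero χ.2
  apply le_antisymm
  · exact (Nat.factorization_le_iff_dvd h5 Nat.card_pos.ne').mpr h4 p
  · exact (hp.pow_dvd_iff_le_factorization h5).mp h3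

end Cfsg.Agent.S0928
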