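import Mathlib
-- Template for statement S0929 (row 929; see /opt/grader/pristine/manifest.json for weights).
-- Copy to Cfsg/Agent/S0929.lean and replace the sorry. The statement below is byte-identical to the frozen
-- statement Cfsg.CfsgFrozen.S0929 (Cfsg/Statements/S0929.lean; the theorem Cfsg.central_char_nonzero_class_meets_centralizer_of_defect_group);
-- the grader kernel-checks Cfsg.Agent.S0929.result against that frozen type. Keep the theorem IN THIS FILE
-- (a `result` declared elsewhere and merely imported here is not credited); helpers may live anywhere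
-- under Cfsg/Agent/.
import Cfsg.Statements.S0929
import Cfsg.Agent.Lib.BlkFirst

set_option autoImplicit false
open Cfsg

namespace Cfsg.Agent.S0929

open Cfsg.Agent.Lib.BlkBrauer Cfsg.Agent.Lib.BlockLocal Cfsg.Agent.Lib.BlockDefect Cfsg.Agent.Lib.BlkSylow Cfsg.Agent.Lib.BlockIdem Cfsg.Agent.Lib.BlkFirst

/-- Let B be a block of the finite group G with defect group P (relative to a maximal ideal M of the algebraic integers containing p), and let g be an element at which the central character of some member of B is not in the local ideal at M. Then some conjugate x of g centralizes P and has its p-part in the centre of P. -/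
theorem result {G : Type*} [Group G] [Finite G] (p : ℕ) [Fact p.Prime] (M : Ideal Cfsg.AlgInt) (hM : Cfsg.IsPModular p M) (B : Set (Cfsg.IrrCharacter G)) (hB : Cfsg.IsPBlock M B) (P : Subgroup G) (hP : Cfsg.IsDefectGroup p M B P) (g : G) (hg : ∃ χ ∈ B, ¬ Cfsg.MemLocalIdeal M (Cfsg.centralChar (χ : G → ℂ) g)) : ∃ x : G, IsConj g x ∧ x ∈ Subgroup.centralizer (P : Set G) ∧ ∀ z : G, Cfsg.IsPPart p x z → z ∈ P ∧ ∀ w ∈ P, z * w = w * z := by
  classical
  letI := Fintype.ofFinite G
  letI : Fintype (P ⊔ Subgroup.centralizer (P : Set G) : Subgroup G) := Fintype.ofFinite _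
  obtain ⟨χ, hχ, hg'⟩ := hg
  exact exists_center_of_central hM (H := P ⊔ Subgroup.centralizer (P : Set G)) le_sup_left le_sup_right
    (sup_le Subgroup.le_normalizer (Subgroup.centralizer_le_normalizer _)) hB hP hχ hg'

end Cfsg.Agent.S0929
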