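import Mathlib
-- Template for statement S0930 (row 930; see /opt/grader/pristine/manifest.json for weights).
-- Copy to Cfsg/Agent/S0930.lean and replace the sorry. The statement below is byte-identical to the frozen
-- statement Cfsg.CfsgFrozen.S0930 (Cfsg/Statements/S0930.lean; the theorem Cfsg.induced_block_center_of_defect_group_fusion);
-- the grader kernel-checks Cfsg.Agent.S0930.result against that frozen type. Keep the theorem IN THIS FILE
-- (a `result` declared elsewhere and merely imported here is not credited); helpers may live anywhere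
-- under Cfsg/Agent/.
import Cfsg.Statements.S0930
import Cfsg.Agent.Lib.BlkFirst

set_option autoImplicit false
open Cfsg

namespace Cfsg.Agent.S0930

open Cfsg.Agent.Lib.BlkBrauer Cfsg.Agent.Lib.BlockLocal Cfsg.Agent.Lib.BlockDefect Cfsg.Agent.Lib.BlkSylow Cfsg.Agent.Lib.BlockIdem Cfsg.Agent.Lib.BlkFirst Cfsg.Agent.Lib.BlkDefect Cfsg.Agent.Lib.BlkOrth

/-- Let H be a subgroup of the finite group G and fix a maximal ideal M of the algebraic integers containing the prime p. If the block b of H with defect group D induces the block B of G with defect group P, then every element of the centre of P is conjugate in G to an element of the centre of D. -/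
theorem result {G : Type*} [Group G] [Finite G] (p : ℕ) [Fact p.Prime] (M : Ideal Cfsg.AlgInt) (hM : Cfsg.IsPModular p M) (H : Subgroup G) (b : Set (Cfsg.IrrCharacter H)) (B : Set (Cfsg.IrrCharacter G)) (hind : Cfsg.IsInducedBlock M H b B) (D : Subgroup H) (hD : Cfsg.IsDefectGroup p M b D) (P : Subgroup G) (hP : Cfsg.IsDefectGroup p M B P) (x : G) (hx : x ∈ P) (hxc : ∀ w ∈ P, x * w = w * x) : ∃ g : G, g * x * g⁻¹ ∈ D.map H.subtype ∧ ∀ w ∈ D.map H.subtype, (g * x * g⁻¹) * w = w * (g * x * g⁻¹) := by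
  classical
  letI := Fintype.ofFinite G
  letI := Fintype.ofFinite H
  haveI := hM.2.1.isPrime
  obtain ⟨y, hy, S, rfl⟩ := id hP
  have hSyl := isSylowIn_of_sylow S
  obtain ⟨χ, hχB⟩ := id hind.2.1
  have hχ : χ ∈ B := mem_self_of_block hχB
  obtain ⟨ξ, hξb⟩ := id hind.1
  have hξ : ξ ∈ b := mem_self_of_block hξb
  have h1 := centralChar_not_mem_of_center hM hind.2.1 hy hSyl hx (fun w hw => hxc w hw) hχ
  have h2 := hind.2.2 ξ hξ χ hχ (x * y)
  have h3 : ¬ MemLocalIdeal M (inducedCentralChar H (ξ : H → ℂ) (x * y)) := fun h => h1 (by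
    have := memLocalIdeal_sub h h2
    rwa [sub_sub_cancel] at this)
  obtain ⟨u, hu, hu2⟩ := exists_of_inducedCentralChar H ξ h3
  letI : Fintype (D ⊔ Subgroup.centralizer (D : Set H) : Subgroup H) := Fintype.ofFinite _
  obtain ⟨v, hv1, hv2, hv3⟩ := exists_center_of_central hM (H := D ⊔ Subgroup.centralizer (D : Set H)) le_sup_left le_sup_right
    (sup_le Subgroup.le_normalizer (Subgroup.centralizer_le_normalizer _)) hind.1 hD hξ hu2
  -- the `p`-part of `v` in `H`
  obtain ⟨z, hz⟩ := exists_isPPart hM.1 v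
  obtain ⟨hzD, hzc⟩ := hv3 z hz
  -- conjugating in `G`
  have hcG : IsConj (x * y) (v : G) := by
    obtain ⟨c, hc⟩ := isConj_iff.mp hv1
    refine hu.trans (isConj_iff.mpr ⟨c, ?_⟩)
    exact congrArg Subtype.val hc
  obtain ⟨c, hc⟩ := isConj_iff.mp hcG
  have hreg := regular_of_isDefectClass hM hind.2.1 hy
  have hxC : Commute x y := Subgroup.mem_centralizer_singleton_iff.mp (hSyl.2.1 hx)
  obtain ⟨j, hj⟩ : ∃ j, orderOf x = p ^ j := by
    have := (IsPGroup.iff_orderOf.mp hSyl.1) ⟨x, hx⟩
    simpa [Subgroup.orderOf_coe] using this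
  have hp1 : IsPPart p (x * y) x := pPart_of_mul hxC ⟨j, hj⟩ hreg
  have hp2 : IsPPart p (v : G) (c * x * c⁻¹) := by
    rw [← hc]
    exact pPart_conj hp1 c
  -- the `p`-part of `v` in `G`
  have hp3 : IsPPart p (v : G) (z : G) := by
    obtain ⟨w, h4, h5, ⟨a, ha⟩, h6⟩ := hz
    refine ⟨w, congrArg Subtype.val h4, congrArg Subtype.val h5.eq, ⟨a, ?_⟩, ?_⟩
    · rw [Subgroup.orderOf_coe, ha]
    · rwa [Subgroup.orderOf_coe]
  have heq : c * x * c⁻¹ = z := pPart_unique hM.1 hp2 hp3
  refine ⟨c, ?_, ?_⟩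
  · rw [heq]
    exact ⟨z, hzD, rfl⟩
  · rintro _ ⟨w, hw, rfl⟩
    rw [heq]
    exact congrArg Subtype.val (hzc w hw)

end Cfsg.Agent.S0930
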