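import Mathlib
-- Template for statement S0931 (row 931; see /opt/grader/pristine/manifest.json for weights).
-- Copy to Cfsg/Agent/S0931.lean and replace the sorry. The statement below is byte-identical to the frozen
-- statement Cfsg.CfsgFrozen.S0931 (Cfsg/Statements/S0931.lean; the theorem Cfsg.induced_block_defect_zero_iff);
-- the grader kernel-checks Cfsg.Agent.S0931.result against that frozen type. Keep the theorem IN THIS FILE
-- (a `result` declared elsewhere and merely imported here is not credited); helpers may live anywhere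
-- under Cfsg/Agent/.
import Cfsg.Statements.S0931
import Cfsg.Agent.Lib.BlkFirst
import Cfsg.Agent.S0930

set_option autoImplicit false
open Cfsg

namespace Cfsg.Agent.S0931

open Cfsg.Agent.Lib.BlkBrauer Cfsg.Agent.Lib.BlockLocal Cfsg.Agent.Lib.BlockDefect Cfsg.Agent.Lib.BlkSylow Cfsg.Agent.Lib.BlockIdem Cfsg.Agent.Lib.BlkFirst

/-- Let H be a subgroup of the finite group G and fix a maximal ideal M of the algebraic integers containing the prime p. If the block b of H induces the block B of G, then b has defect 0 if and only if B has defect 0. -/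
theorem result {G : Type*} [Group G] [Finite G] (p : ℕ) [Fact p.Prime] (M : Ideal Cfsg.AlgInt) (hM : Cfsg.IsPModular p M) (H : Subgroup G) (b : Set (Cfsg.IrrCharacter H)) (B : Set (Cfsg.IrrCharacter G)) (hind : Cfsg.IsInducedBlock M H b B) : Cfsg.blockDefect p b = 0 ↔ Cfsg.blockDefect p B = 0 := by
  classical
  letI := Fintype.ofFinite G
  letI := Fintype.ofFinite H
  haveI := hM.2.1.isPrime
  obtain ⟨D, hD⟩ := exists_isDefectGroup hM hind.1
  obtain ⟨P, hP⟩ := exists_isDefectGroup hM hind.2.1
  have h1 := card_isDefectGroup hM hind.1 hD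
  have h2 := card_isDefectGroup hM hind.2.1 hP
  have hzero : ∀ {n : ℕ}, p ^ n = 1 → n = 0 := by
    intro n hn
    by_contra h
    exact (Nat.one_lt_pow h (Fact.out : p.Prime).one_lt).ne' hn
  constructor
  · intro h0
    rw [h0, pow_zero] at h1
    -- `D` is trivial
    have hDbot : ∀ w ∈ D.map H.subtype, w = 1 := by
      rintro _ ⟨w, hw, rfl⟩
      have hsub : Subsingleton D := (Nat.card_eq_one_iff_unique.mp h1).1
      have := Subsingleton.elim (⟨w, hw⟩ : D) 1
      simpa using congrArg (fun z : D => ((z : H) : G)) this
    have hPp : IsPGroup p P := by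
      obtain ⟨g, -, S, rfl⟩ := hP
      exact (isSylowIn_of_sylow S).1
    have hP1 : Nat.card P = 1 := by
      by_contra hne
      haveI : Nontrivial P := Finite.one_lt_card_iff_nontrivial.mp (Nat.lt_of_le_of_ne Nat.card_pos (Ne.symm hne))
      haveI := hPp.center_nontrivial
      obtain ⟨z, hz⟩ := exists_ne (1 : Subgroup.center P)
      have hzP : ((z : P) : G) ∈ P := (z : P).2
      have hzc : ∀ w ∈ P, ((z : P) : G) * w = w * ((z : P) : G) := by
        intro w hw
        have := Subgroup.mem_center_iff.mp z.2 ⟨w, hw⟩
        exact (congrArg Subtype.val this).symm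
      obtain ⟨g, hg, -⟩ := Cfsg.Agent.S0930.result p M hM H b B hind D hD P hP _ hzP hzc
      have h3 := hDbot _ hg
      have h4 : ((z : P) : G) = 1 := by
        have : g * ((z : P) : G) * g⁻¹ = g * 1 * g⁻¹ := by rw [h3]; group
        exact (MulAut.conj g).injective this
      apply hz
      exact Subtype.ext (Subtype.ext h4)
    rw [hP1] at h2
    exact hzero h2.symm
  · intro h0
    rw [h0, pow_zero] at h2
    obtain ⟨E, hE, hDE⟩ := Cfsg.Agent.S0917.result p M hM H b hind.1 B hind.2.1 hind D hD
    have h3 := card_isDefectGroup hM hind.2.1 hE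
    rw [h0, pow_zero] at h3
    have h4 := Subgroup.card_dvd_of_le hDE
    rw [h3, Subgroup.card_map_of_injective H.subtype_injective, Nat.dvd_one, h1] at h4
    exact hzero h4

end Cfsg.Agent.S0931
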