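import Mathlib
-- Template for statement S0933 (row 933; see /opt/grader/pristine/manifest.json for weights).
-- Copy to Cfsg/Agent/S0933.lean and replace the sorry. The statement below is byte-identical to the frozen
-- statement Cfsg.CfsgFrozen.S0933 (Cfsg/Statements/S0933.lean; the theorem Cfsg.irreducible_induction_induces_block);
-- the grader kernel-checks Cfsg.Agent.S0933.result against that frozen type. Keep the theorem IN THIS FILE
-- (a `result` declared elsewhere and merely imported here is not credited); helpers may live anywhere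
-- under Cfsg/Agent/.
import Cfsg.Statements.S0933
import Cfsg.Agent.Lib.BlkBrauer

set_option autoImplicit false
open Cfsg

namespace Cfsg.Agent.S0933

open Cfsg.Agent.Lib.BlkBrauer Cfsg.Agent.Lib.BlockLocal

/-- Let H be a subgroup of the finite group G and ξ an irreducible character of H such that the induced function ξ^G is an irreducible character of G. Then, relative to any maximal ideal M of the algebraic integers containing the prime p, the block of ξ induces the block of ξ^G. -/
theorem result {G : Type*} [Group G] [Fintype G] (p : ℕ) [Fact p.Prime] (M : Ideal Cfsg.AlgInt) (hM : Cfsg.IsPModular p M) (H : Subgroup G) (ξ : Cfsg.IrrCharacter H) (hind : Cfsg.IsIrrCharacter G (Cfsg.indFun H (ξ : H → ℂ))) : Cfsg.IsInducedBlock M H (Cfsg.blockOf M (ξ : H → ℂ)) (Cfsg.blockOf M (Cfsg.indFun H (ξ : H → ℂ))) := by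
  classical
  letI : Fintype H := Fintype.ofFinite H
  haveI := hM.2.1.isPrime
  set χ : Cfsg.IrrCharacter G := ⟨Cfsg.indFun H (ξ : H → ℂ), hind⟩ with hχ
  refine ⟨⟨ξ, rfl⟩, ⟨χ, rfl⟩, fun ξ' hξ' χ' hχ' g => ?_⟩
  have h1 := inducedCentralChar_sub_of_sameBlock (M := M) H hξ' g
  have h2 := Cfsg.Agent.Lib.BlkBasic.centralChar_indFun H (ξ : H → ℂ) g
  have h3 := hχ' g
  have h4 := memLocalIdeal_sub h3 h1
  rw [h2] at h4
  convert h4 using 1
  ring

end Cfsg.Agent.S0933
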