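import Mathlib
-- Template for statement S0934 (row 934; see /opt/grader/pristine/manifest.json for weights).
-- Copy to Cfsg/Agent/S0934.lean and replace the sorry. The statement below is byte-identical to the frozen
-- statement Cfsg.CfsgFrozen.S0934 (Cfsg/Statements/S0934.lean; the theorem Cfsg.induced_block_contains_character_over);
-- the grader kernel-checks Cfsg.Agent.S0934.result against that frozen type. Keep the theorem IN THIS FILE
-- (a `result` declared elsewhere and merely imported here is not credited); helpers may live anywhere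
-- under Cfsg/Agent/.
import Cfsg.Statements.S0934
import Cfsg.Agent.Lib.BlkBrauer

set_option autoImplicit false
open Cfsg

namespace Cfsg.Agent.S0934

open Cfsg.Agent.Lib.BlkBrauer Cfsg.Agent.Lib.BlockLocal Cfsg.Agent.Lib.BlockIdem Cfsg.Agent.Lib.BlkBasic Cfsg.Agent.Lib.CharBasic Cfsg.Agent.Lib.CharInd Cfsg.Agent.Lib.CharIntegrality
open scoped ComplexConjugate

/-- Let H be a subgroup of the finite group G and fix a maximal ideal M of the algebraic integers containing the prime p. If the block b of H induces the block B of G and ξ ∈ b, then there is χ ∈ B whose restriction to H has nonzero inner product with ξ. -/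
theorem result {G : Type*} [Group G] [Fintype G] (p : ℕ) [Fact p.Prime] (M : Ideal Cfsg.AlgInt) (hM : Cfsg.IsPModular p M) (H : Subgroup G) [Fintype H] (b : Set (Cfsg.IrrCharacter H)) (B : Set (Cfsg.IrrCharacter G)) (hind : Cfsg.IsInducedBlock M H b B) (ξ : Cfsg.IrrCharacter H) (hξ : ξ ∈ b) : ∃ χ ∈ B, Cfsg.classInner (fun h : H => (χ : G → ℂ) h) (ξ : H → ℂ) ≠ 0 := by
  classical
  haveI := hM.2.1.isPrime
  by_contra hcon
  push Not at hcon
  obtain ⟨χ₀, hχB⟩ := id hind.2.1
  have hχ₀ : χ₀ ∈ B := by
    rw [hχB]
    exact mem_blockOf_self χ₀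
  have hcl := Cfsg.Agent.Lib.BlkBasic.blockCoeff_isClassFunction B
  have hR := memLocalRing_blockCoeff hind.2.1
  have h1 := Cfsg.Agent.Lib.BlockInduced.memLocalIdeal_trunc_sub H (ξ : H → ℂ) χ₀ (hind.2.2 ξ hξ χ₀ hχ₀) hcl hR
  rw [omega_blockCoeff, blkInd_of_mem hχ₀] at h1
  have h2 : ∑ h : H, blockCoeff B (h : G) * (ξ : H → ℂ) h / (ξ : H → ℂ) 1 = 0 := by
    rw [← Finset.sum_div]
    have h3 : ∑ h : H, blockCoeff B (h : G) * (ξ : H → ℂ) h = 0 := by
      simp_rw [blockCoeff_apply, Finset.sum_mul]
      rw [Finset.sum_comm]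
      refine Finset.sum_eq_zero fun χ _ => ?_
      by_cases hχ : χ ∈ B
      · have h4 := hcon χ hχ
        unfold Cfsg.classInner at h4
        have h5 : (Nat.card H : ℂ) ≠ 0 := by
          exact_mod_cast Nat.card_pos.ne'
        have h6 : ∑ h : H, (χ : G → ℂ) h * conj ((ξ : H → ℂ) h) = 0 := by
          have := (mul_eq_zero.mp h4).resolve_left (inv_ne_zero h5)
          exact this
        have h7 : ∑ h : H, conj ((χ : G → ℂ) h) * (ξ : H → ℂ) h = 0 := by
          have := congrArg conj h6
          rw [map_sum, map_zero] at this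
          rw [← this]
          refine Finset.sum_congr rfl fun h _ => ?_
          rw [map_mul, Complex.conj_conj]
        have h8 : ∀ h : H, blkInd B χ * ec (χ : G → ℂ) (h : G) * (ξ : H → ℂ) h = (blkInd B χ * (χ : G → ℂ) 1 / (Nat.card G : ℂ)) * (conj ((χ : G → ℂ) h) * (ξ : H → ℂ) h) := by
          intro h
          unfold ec
          rw [← char_conj_eq_inv (IsIrrCharacter.isCharacter χ.2)]
          ring
        simp_rw [h8]
        rw [← Finset.mul_sum, h7, mul_zero]
      · rw [blkInd_of_not_mem hχ]
        simp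
    rw [h3, zero_div]
  rw [h2, zero_sub] at h1
  have h9 := memLocalIdeal_neg h1
  rw [neg_neg] at h9
  exact not_memLocalIdeal_one h9

end Cfsg.Agent.S0934
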