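import Mathlib
-- Template for statement S0935 (row 935; see /opt/grader/pristine/manifest.json for weights).
-- Copy to Cfsg/Agent/S0935.lean and replace the sorry. The statement below is byte-identical to the frozen
-- statement Cfsg.CfsgFrozen.S0935 (Cfsg/Statements/S0935.lean; the theorem Cfsg.okuyama_height_zero_restriction_criterion);
-- the grader kernel-checks Cfsg.Agent.S0935.result against that frozen type. Keep the theorem IN THIS FILE
-- (a `result` declared elsewhere and merely imported here is not credited); helpers may live anywhere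
-- under Cfsg/Agent/.
import Cfsg.Statements.S0935
import Cfsg.Agent.Lib.BlkHeight

set_option autoImplicit false
open Cfsg

namespace Cfsg.Agent.S0935

open Cfsg Cfsg.Agent.Lib.CharBasic Cfsg.Agent.Lib.CharInd Cfsg.Agent.Lib.CharIntegrality
open Cfsg.Agent.Lib.BlockLocal Cfsg.Agent.Lib.BlockIdem Cfsg.Agent.Lib.BlkBasic Cfsg.Agent.Lib.BlkLink
open Cfsg.Agent.Lib.BlkHeight Cfsg.Agent.Lib.BlkFirst Cfsg.Agent.Lib.BlkDefect
open scoped ComplexConjugate

/-- Let H be a subgroup of the finite group G and χ an irreducible character of G whose restriction to H is irreducible; fix a maximal ideal M of the algebraic integers containing the prime p and suppose χ and its restriction have height zero in their blocks B and b. If e is a block of H whose induced block is defined, then e induces B if and only if e = b. -/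
theorem result {G : Type*} [Group G] [Finite G] (p : ℕ) [Fact p.Prime] (M : Ideal Cfsg.AlgInt) (hM : Cfsg.IsPModular p M) (H : Subgroup G) (χ : Cfsg.IrrCharacter G) (hres : Cfsg.IsIrrCharacter H (fun h : H => (χ : G → ℂ) h)) (hχ0 : Cfsg.blockHeight p (Cfsg.blockOf M (χ : G → ℂ)) (χ : G → ℂ) = 0) (hψ0 : Cfsg.blockHeight p (Cfsg.blockOf M (fun h : H => (χ : G → ℂ) h)) (fun h : H => (χ : G → ℂ) h) = 0) (e : Set (Cfsg.IrrCharacter H)) (he : Cfsg.InducedBlockDefined M H e) : Cfsg.IsInducedBlock M H e (Cfsg.blockOf M (χ : G → ℂ)) ↔ e = Cfsg.blockOf M (fun h : H => (χ : G → ℂ) h) := by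
  classical
  letI := Fintype.ofFinite G
  letI := Fintype.ofFinite H
  haveI := hM.2.1.isPrime
  set θ : IrrCharacter H := ⟨fun h : H => (χ : G → ℂ) h, hres⟩ with hθ
  have hz : (fun h : H => zReg p (χ : G → ℂ) (h : G)) = zReg p (θ : H → ℂ) := by
    funext h
    unfold zReg
    simp only [Subgroup.orderOf_coe]
    congr
  have key : ∀ (ξ₀ : IrrCharacter H) (ψ : IrrCharacter G), (∀ g : G, MemLocalIdeal M (inducedCentralChar H (ξ₀ : H → ℂ) g - centralChar (ψ : G → ℂ) g)) →
      MemLocalIdeal M (omega (ξ₀ : H → ℂ) (zReg p (θ : H → ℂ)) - omega (ψ : G → ℂ) (zReg p (χ : G → ℂ))) := by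
    intro ξ₀ ψ hg
    have h1 := Cfsg.Agent.Lib.BlockInduced.memLocalIdeal_trunc_sub H (ξ₀ : H → ℂ) ψ hg
      (zReg_isClassFunction (p := p) (IsIrrCharacter.isCharacter χ.2)) (memLocalRing_zReg χ)
    have h3 : ∑ h : H, zReg p (χ : G → ℂ) (h : G) * (ξ₀ : H → ℂ) h / (ξ₀ : H → ℂ) 1 = omega (ξ₀ : H → ℂ) (fun h : H => zReg p (χ : G → ℂ) (h : G)) := by
      unfold omega
      rw [Finset.sum_div]
    rwa [h3, hz] at h1
  constructor
  · intro hind
    obtain ⟨ξ₀, hξ₀⟩ := id hind.1
    have h1 := key ξ₀ χ (hind.2.2 ξ₀ (mem_self_of_block hξ₀) χ (mem_blockOf_self χ))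
    have h2 := omega_zReg_not_mem_of_height_zero hM ⟨χ, rfl⟩ (mem_blockOf_self χ) hχ0 (mem_blockOf_self χ)
    have h3 : ¬ MemLocalIdeal M (omega (ξ₀ : H → ℂ) (zReg p (θ : H → ℂ))) := fun h => h2 (by
      have := memLocalIdeal_sub h h1
      rwa [sub_sub_cancel] at this)
    have h4 := sameBlock_of_omega_zReg_ne hM (ne_zero_of_not_memLocalIdeal h3)
    rw [hξ₀]
    exact (blockOf_eq_of_mem (χ := ξ₀) (ψ := θ) h4).symm
  · intro he2
    obtain ⟨B', hB'⟩ := he
    have hθb : θ ∈ e := by
      rw [he2]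
      exact mem_blockOf_self θ
    obtain ⟨ψ, hψ⟩ := id hB'.2.1
    have hψ' : ψ ∈ B' := mem_self_of_block hψ
    have h1 := key θ ψ (hB'.2.2 θ hθb ψ hψ')
    have h2 := omega_zReg_not_mem_of_height_zero hM (B := blockOf M (θ : H → ℂ)) ⟨θ, rfl⟩ (mem_blockOf_self θ) hψ0 (mem_blockOf_self θ)
    have h3 : ¬ MemLocalIdeal M (omega (ψ : G → ℂ) (zReg p (χ : G → ℂ))) := fun h => h2 (by
      have := memLocalIdeal_add h1 h
      rwa [sub_add_cancel] at this)
    have h4 := sameBlock_of_omega_zReg_ne hM (ne_zero_of_not_memLocalIdeal h3)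
    have h5 : B' = blockOf M (χ : G → ℂ) := by
      rw [hψ]
      exact (blockOf_eq_of_mem (χ := ψ) (ψ := χ) h4).symm
    rwa [h5] at hB'

end Cfsg.Agent.S0935
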