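import Mathlib
-- Template for statement S0937 (row 937; see /opt/grader/pristine/manifest.json for weights).
-- Copy to Cfsg/Agent/S0937.lean and replace the sorry. The statement below is byte-identical to the frozen
-- statement Cfsg.CfsgFrozen.S0937 (Cfsg/Statements/S0937.lean; the theorem Cfsg.blau_height_zero_constituent);
-- the grader kernel-checks Cfsg.Agent.S0937.result against that frozen type. Keep the theorem IN THIS FILE
-- (a `result` declared elsewhere and merely imported here is not credited); helpers may live anywhere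
-- under Cfsg/Agent/.
import Cfsg.Statements.S0937
import Cfsg.Agent.Lib.BlkHeight

set_option autoImplicit false
open Cfsg

namespace Cfsg.Agent.S0937

open Cfsg Cfsg.Agent.Lib.CharBasic Cfsg.Agent.Lib.CharInd Cfsg.Agent.Lib.CharIntegrality
open Cfsg.Agent.Lib.BlockLocal Cfsg.Agent.Lib.BlockIdem Cfsg.Agent.Lib.BlkBasic Cfsg.Agent.Lib.BlkLink
open Cfsg.Agent.Lib.BlkHeight Cfsg.Agent.Lib.BlkFirst Cfsg.Agent.Lib.BlkDefect
open scoped ComplexConjugate

/-- The regular part of the restriction. -/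
theorem zReg_restrict_eq {G : Type*} [Group G] [Fintype G] {p : ℕ} (H : Subgroup G) [Fintype H] (χ : G → ℂ)
    (m : IrrCharacter H → ℕ) (hm : (fun h : H => χ h) = ∑ i, m i • (i : H → ℂ)) :
    (fun h : H => zReg p χ (h : G)) = ∑ i, m i • zReg p (i : H → ℂ) := by
  classical
  funext h
  rw [Finset.sum_apply]
  simp only [Pi.smul_apply]
  have h1 : χ (h : G) = ∑ i, m i • (i : H → ℂ) h := by
    have := congrFun hm h
    simpa [Finset.sum_apply] using this
  unfold zReg
  simp only [Subgroup.orderOf_coe]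
  by_cases hr : ¬ p ∣ orderOf h
  · rw [if_pos hr, h1, map_sum]
    refine Finset.sum_congr rfl fun i _ => ?_
    rw [if_pos hr]
    simp
  · simp [if_neg hr]

/-- Let H be a subgroup of the finite group G and fix a maximal ideal M of the algebraic integers containing the prime p. If the block b of H induces the block B of G and χ ∈ B has height zero, then there is ξ ∈ b of height zero whose multiplicity in the restriction of χ to H is a natural number not divisible by p. -/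
theorem result {G : Type*} [Group G] [Fintype G] (p : ℕ) [Fact p.Prime] (M : Ideal Cfsg.AlgInt) (hM : Cfsg.IsPModular p M) (H : Subgroup G) [Fintype H] (b : Set (Cfsg.IrrCharacter H)) (B : Set (Cfsg.IrrCharacter G)) (hind : Cfsg.IsInducedBlock M H b B) (χ : Cfsg.IrrCharacter G) (hχ : χ ∈ B) (h0 : Cfsg.blockHeight p B (χ : G → ℂ) = 0) : ∃ ξ ∈ b, Cfsg.blockHeight p b (ξ : H → ℂ) = 0 ∧ ∃ n : ℕ, Cfsg.classInner (fun h : H => (χ : G → ℂ) h) (ξ : H → ℂ) = (n : ℂ) ∧ ¬ p ∣ n := by
  classical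
  haveI := hM.2.1.isPrime
  have hχH : IsCharacter H (fun h : H => (χ : G → ℂ) h) := isCharacter_restrict H (IsIrrCharacter.isCharacter χ.2)
  obtain ⟨m, hm⟩ := exists_nat_decomp hχH
  obtain ⟨ξ₀, hξ₀b⟩ := id hind.1
  have hξ₀ : ξ₀ ∈ b := mem_self_of_block hξ₀b
  have hcl : IsClassFunction G (zReg p (χ : G → ℂ)) := zReg_isClassFunction (IsIrrCharacter.isCharacter χ.2)
  have hR : ∀ g, MemLocalRing M (zReg p (χ : G → ℂ) g) := memLocalRing_zReg χ
  have h1 := Cfsg.Agent.Lib.BlockInduced.memLocalIdeal_trunc_sub H (ξ₀ : H → ℂ) χ (hind.2.2 ξ₀ hξ₀ χ hχ) hcl hR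
  have h2 := omega_zReg_not_mem_of_height_zero hM hind.2.1 hχ h0 hχ
  have h3 : ∑ h : H, zReg p (χ : G → ℂ) (h : G) * (ξ₀ : H → ℂ) h / (ξ₀ : H → ℂ) 1 = omega (ξ₀ : H → ℂ) (fun h : H => zReg p (χ : G → ℂ) (h : G)) := by
    unfold omega
    rw [Finset.sum_div]
  rw [h3, zReg_restrict_eq H _ m hm, omega_sum] at h1
  have h4 : ¬ MemLocalIdeal M (∑ i : IrrCharacter H, omega (ξ₀ : H → ℂ) (m i • zReg p (i : H → ℂ))) := fun h => h2 (by
    have := memLocalIdeal_sub h h1
    rwa [sub_sub_cancel] at this)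
  have h5 : ∃ ξ : IrrCharacter H, ¬ MemLocalIdeal M (omega (ξ₀ : H → ℂ) (m ξ • zReg p (ξ : H → ℂ))) := by
    by_contra hcon
    push Not at hcon
    exact h4 (memLocalIdeal_sum _ _ fun ξ _ => hcon ξ)
  obtain ⟨ξ, hξ⟩ := h5
  have h6 : omega (ξ₀ : H → ℂ) (m ξ • zReg p (ξ : H → ℂ)) = (m ξ : ℂ) * omega (ξ₀ : H → ℂ) (zReg p (ξ : H → ℂ)) := by
    rw [← Nat.cast_smul_eq_nsmul ℂ, omega_smul]
  rw [h6] at hξ
  have h7 : ¬ MemLocalIdeal M (omega (ξ₀ : H → ℂ) (zReg p (ξ : H → ℂ))) := fun h =>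
    hξ (memLocalIdeal_mul_left (memLocalRing_natCast _) h)
  have h8 : ¬ p ∣ m ξ := by
    rintro ⟨c, hc⟩
    apply hξ
    rw [hc]
    push_cast
    rw [mul_assoc]
    refine memLocalIdeal_mul_right (memLocalIdeal_natCast_prime hM) ?_
    exact memLocalRing_mul (memLocalRing_natCast _) (Cfsg.Agent.Lib.BlkHeight.memLocalRing_omega_zReg ξ₀ ξ)
  have h9 : ξ ∈ b := by
    have h10 : omega (ξ₀ : H → ℂ) (zReg p (ξ : H → ℂ)) ≠ 0 := ne_zero_of_not_memLocalIdeal h7
    have h11 := sameBlock_of_omega_zReg_ne hM h10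
    rw [hξ₀b]
    exact h11
  refine ⟨ξ, h9, height_zero_of_omega_zReg hM hind.1 hξ₀ h7, m ξ, ?_, h8⟩
  rw [hm, classInner_nat_decomp m ξ ξ.2]

end Cfsg.Agent.S0937
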