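import Mathlib
-- Template for statement S0938 (row 938; see /opt/grader/pristine/manifest.json for weights).
-- Copy to Cfsg/Agent/S0938.lean and replace the sorry. The statement below is byte-identical to the frozen
-- statement Cfsg.CfsgFrozen.S0938 (Cfsg/Statements/S0938.lean; the theorem Cfsg.block_kernel_eq_p_prime_core_of_character_kernel);
-- the grader kernel-checks Cfsg.Agent.S0938.result against that frozen type. Keep the theorem IN THIS FILE
-- (a `result` declared elsewhere and merely imported here is not credited); helpers may live anywhere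
-- under Cfsg/Agent/.
import Cfsg.Statements.S0938
import Cfsg.Agent.Lib.BlkNormalSub
import Cfsg.Agent.Lib.CharKernel

set_option autoImplicit false
open Cfsg

namespace Cfsg.Agent.S0938

open Cfsg.Agent.Lib.BlkNormalSub in

/-- Let B be a block of the finite group G relative to a maximal ideal M of the algebraic integers containing the prime p, and let χ ∈ B. Then the kernel of B (the set of g with ψ g = ψ 1 for all ψ ∈ B) is a normal subgroup of order prime to p contained in the kernel of χ, and it contains every normal subgroup of order prime to p on which χ takes the value χ(1); that is, it is O_p' of the kernel of χ. -/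
theorem result {G : Type*} [Group G] [Finite G] (p : ℕ) [Fact p.Prime] (M : Ideal Cfsg.AlgInt) (hM : Cfsg.IsPModular p M) (B : Set (Cfsg.IrrCharacter G)) (hB : Cfsg.IsPBlock M B) (χ : Cfsg.IrrCharacter G) (hχ : χ ∈ B) : ∃ K : Subgroup G, K.Normal ∧ (K : Set G) = Cfsg.blockKer B ∧ ¬ p ∣ Nat.card K ∧ (∀ g ∈ K, (χ : G → ℂ) g = (χ : G → ℂ) 1) ∧ ∀ N : Subgroup G, N.Normal → ¬ p ∣ Nat.card N → (∀ g ∈ N, (χ : G → ℂ) g = (χ : G → ℂ) 1) → N ≤ K := by
  classical
  haveI := hM.2.1.isPrime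
  letI : Fintype G := Fintype.ofFinite G
  -- The kernel of the block as a subgroup.
  have hker : ∀ ψ : Cfsg.IrrCharacter G, ∀ g : G, (ψ : G → ℂ) g = (ψ : G → ℂ) 1 ↔
      g ∈ Cfsg.Agent.Lib.CharKernel.charKer (Cfsg.Agent.Lib.CharBasic.IsIrrCharacter.isCharacter ψ.2) :=
    fun ψ g => (Cfsg.Agent.Lib.CharKernel.mem_charKer _).symm
  let K : Subgroup G := ⨅ ψ : {ψ : Cfsg.IrrCharacter G // ψ ∈ B},
    Cfsg.Agent.Lib.CharKernel.charKer (Cfsg.Agent.Lib.CharBasic.IsIrrCharacter.isCharacter ψ.1.2)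
  have hKmem : ∀ g, g ∈ K ↔ ∀ ψ ∈ B, (ψ : G → ℂ) g = (ψ : G → ℂ) 1 := by
    intro g
    simp only [K, Subgroup.mem_iInf]
    constructor
    · intro h ψ hψ
      exact (hker ψ g).mpr (h ⟨ψ, hψ⟩)
    · intro h ψ
      exact (hker ψ.1 g).mp (h ψ.1 ψ.2)
  have hKn : K.Normal := by
    constructor
    intro n hn g
    rw [hKmem] at hn ⊢
    intro ψ hψ
    rw [Cfsg.Agent.Lib.CharBasic.isClassFunction_of_isCharacter
      (Cfsg.Agent.Lib.CharBasic.IsIrrCharacter.isCharacter ψ.2) n g]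
    exact hn ψ hψ
  refine ⟨K, hKn, ?_, ?_, ?_, ?_⟩
  · ext g
    simp only [SetLike.mem_coe, hKmem]
    rfl
  · intro hp
    obtain ⟨x, hx⟩ := exists_prime_orderOf_dvd_card' (G := K) p hp
    have hx1 : p ∣ orderOf ((x : K) : G) := by
      rw [Subgroup.orderOf_coe, hx]
    have h1 := Cfsg.Agent.Lib.BlkOrth.block_orth_weak hM hB (x := (1 : G)) (y := ((x : K) : G))
      (by rw [orderOf_one]; exact fun h => hM.1.one_lt.ne' (Nat.dvd_one.mp h)) hx1
    have h2 : ∑ᶠ χ ∈ B, (χ : G → ℂ) 1 * (starRingEnd ℂ) ((χ : G → ℂ) ((x : K) : G)) =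
        ∑ᶠ χ ∈ B, (((Cfsg.charDegree (χ : G → ℂ)) ^ 2 : ℕ) : ℂ) := by
      refine finsum_congr fun ψ => finsum_congr fun hψ => ?_
      rw [(hKmem _).mp x.2 ψ hψ, Cfsg.Agent.Lib.CharKernel.one_eq_charDegree
        (Cfsg.Agent.Lib.CharBasic.IsIrrCharacter.isCharacter ψ.2)]
      simp [sq]
    rw [h2, Cfsg.Agent.Lib.BlkBasic.finsum_mem_eq_sum_blkInd] at h1
    have h3 : ∑ ψ : Cfsg.IrrCharacter G, Cfsg.Agent.Lib.BlkBasic.blkInd B ψ *
        (((Cfsg.charDegree (ψ : G → ℂ)) ^ 2 : ℕ) : ℂ) =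
        (((∑ ψ : Cfsg.IrrCharacter G, if ψ ∈ B then (Cfsg.charDegree (ψ : G → ℂ)) ^ 2 else 0) : ℕ) : ℂ) := by
      push_cast
      refine Finset.sum_congr rfl fun ψ _ => ?_
      by_cases hψ : ψ ∈ B
      · rw [Cfsg.Agent.Lib.BlkBasic.blkInd_of_mem hψ, if_pos hψ, one_mul]
      · rw [Cfsg.Agent.Lib.BlkBasic.blkInd_of_not_mem hψ, if_neg hψ, zero_mul]
    rw [h3] at h1
    have h4 : (∑ ψ : Cfsg.IrrCharacter G, if ψ ∈ B then (Cfsg.charDegree (ψ : G → ℂ)) ^ 2 else 0) = 0 := by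
      exact_mod_cast h1
    rw [Finset.sum_eq_zero_iff] at h4
    have h5 := h4 χ (Finset.mem_univ _)
    rw [if_pos hχ] at h5
    exact Cfsg.Agent.Lib.CharKernel.charDegree_ne_zero χ.2 (pow_eq_zero_iff (two_ne_zero) |>.mp h5)
  · intro g hg
    exact (hKmem g).mp hg χ hχ
  · intro N hNn hN hχN g hg
    rw [hKmem]
    intro ψ hψ
    letI : Fintype N := Fintype.ofFinite N
    have h1 : Cfsg.SameBlock M (χ : G → ℂ) (ψ : G → ℂ) := by
      obtain ⟨χ₀, rfl⟩ := id hB
      exact Cfsg.Agent.Lib.BlockIdem.sameBlock_trans (Cfsg.Agent.Lib.BlockIdem.sameBlock_symm hχ) hψ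
    have h2 := constituent_one_of_forall (N := N) χ (fun n => hχN n n.2)
    have h3 := constituent_of_sameBlock_of_coprime hM hNn hN h1 h2
    exact eq_of_constituent_one hNn ψ h3 ⟨g, hg⟩

end Cfsg.Agent.S0938
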