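import Mathlib
-- Template for statement S0939 (row 939; see /opt/grader/pristine/manifest.json for weights).
-- Copy to Cfsg/Agent/S0939.lean and replace the sorry. The statement below is byte-identical to the frozen
-- statement Cfsg.CfsgFrozen.S0939 (Cfsg/Statements/S0939.lean; the theorem Cfsg.principal_block_of_group_with_normal_p_complement);
-- the grader kernel-checks Cfsg.Agent.S0939.result against that frozen type. Keep the theorem IN THIS FILE
-- (a `result` declared elsewhere and merely imported here is not credited); helpers may live anywhere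
-- under Cfsg/Agent/.
import Cfsg.Statements.S0939
import Cfsg.Agent.Lib.BlkNormalSub
import Cfsg.Agent.Lib.PCore

set_option autoImplicit false
open Cfsg

namespace Cfsg.Agent.S0939

open Cfsg.Agent.Lib.BlkNormalSub in

/-- Let G be a finite group with a normal p-complement (the largest normal subgroup O_p'(G) of order prime to p has p-power index). Then, relative to any maximal ideal M of the algebraic integers containing p, the principal block of G is the set of irreducible characters χ with χ n = χ 1 for every n ∈ O_p'(G). -/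
theorem result {G : Type*} [Group G] [Finite G] (p : ℕ) [Fact p.Prime] (M : Ideal Cfsg.AlgInt) (hM : Cfsg.IsPModular p M) (hnc : ∃ k : ℕ, (Cfsg.pPrimeCore p G).index = p ^ k) : Cfsg.principalBlock M G = {χ : Cfsg.IrrCharacter G | ∀ n ∈ Cfsg.pPrimeCore p G, (χ : G → ℂ) n = (χ : G → ℂ) 1} := by
  classical
  haveI := hM.2.1.isPrime
  letI : Fintype G := Fintype.ofFinite G
  letI : Fintype (Cfsg.pPrimeCore p G) := Fintype.ofFinite _
  have hNn : (Cfsg.pPrimeCore p G).Normal := inferInstance
  have hN' : ¬ p ∣ Nat.card (Cfsg.pPrimeCore p G) := Cfsg.Agent.Lib.PCore.not_dvd_card_pPrimeCore p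
  let χ₁ : Cfsg.IrrCharacter G := ⟨fun _ => 1, Cfsg.Agent.Lib.CharBasic.isIrrCharacter_one⟩
  have h1 : Cfsg.classInner (fun n : Cfsg.pPrimeCore p G => (χ₁ : G → ℂ) n) (oneIrr (Cfsg.pPrimeCore p G) : _ → ℂ) ≠ 0 :=
    constituent_one_of_forall χ₁ (fun n => rfl)
  ext χ
  constructor
  · intro h n hn
    have h2 : Cfsg.SameBlock M (χ₁ : G → ℂ) (χ : G → ℂ) := h
    exact eq_of_constituent_one hNn χ (constituent_of_sameBlock_of_coprime hM hNn hN' h2 h1) ⟨n, hn⟩
  · intro h
    have h2 := constituent_one_of_forall (N := Cfsg.pPrimeCore p G) χ (fun n => h n n.2)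
    have h3 : Cfsg.SameBlock M (χ₁ : G → ℂ) (χ : G → ℂ) :=
      sameBlock_of_covers_of_index hM hNn hnc (Cfsg.Agent.Lib.BlockIdem.sameBlock_refl _) h1 h2
    exact h3

end Cfsg.Agent.S0939
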