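import Mathlib
import Cfsg.Statements.S0940
import Cfsg.Agent.Lib.BlkFrobPow
import Cfsg.Agent.Lib.BlockPrincipal

set_option autoImplicit false
set_option linter.style.haveILetI false
open Cfsg

namespace Cfsg.Agent.S0940

open Cfsg.Agent.Lib.BlockPrincipal Cfsg.Agent.Lib.BlockIdem Cfsg.Agent.Lib.BlockNormal
open Cfsg.Agent.Lib.BlkFrob Cfsg.Agent.Lib.BlkFrobPow Cfsg.Agent.Lib.BlockLocal

/-- Let G be a finite group and M a maximal ideal of the algebraic integers containing the prime p. For every p-regular g, the idempotent coefficient of the principal block at g (the inverse of the group order times the sum over χ in the principal block of χ 1 * conj (χ g)) is congruent modulo the local ideal at M to N / R, where N is the number of pairs (x, y) with x of p-power order, y of order prime to p and x * y = g, and R is the number of elements of G of order prime to p. -/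
theorem result {G : Type*} [Group G] [Finite G] (p : ℕ) [Fact p.Prime] (M : Ideal Cfsg.AlgInt) (hM : Cfsg.IsPModular p M) (g : G) (hg : ¬ p ∣ orderOf g) : Cfsg.MemLocalIdeal M (Cfsg.blockCoeff (Cfsg.principalBlock M G) g - (Nat.card {xy : G × G // (∃ k : ℕ, orderOf xy.1 = p ^ k) ∧ ¬ p ∣ orderOf xy.2 ∧ xy.1 * xy.2 = g} : ℂ) / (Nat.card {y : G // ¬ p ∣ orderOf y} : ℂ)) := by
  classical
  letI : Fintype G := Fintype.ofFinite G
  haveI hMp := hM.2.1.isPrime
  have hp : p.Prime := Fact.out
  set B := principalBlock M G with hBdef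
  have hB : IsPBlock M B := isPBlock_principalBlock M
  set R := Nat.card {y : G // ¬ p ∣ orderOf y} with hRdef
  have hRp : ¬ p ∣ R := not_dvd_card_regular
  have hRne : (R : ℂ) ≠ 0 := by
    intro h
    have : R = 0 := by exact_mod_cast h
    exact hRp (this ▸ dvd_zero p)
  have hRinv : MemLocalRing M (R : ℂ)⁻¹ := memLocalRing_inv_natCast hM hRp
  -- the normalised class sum of the `p`-regular elements
  let w : G → ℂ := fun y => (R : ℂ)⁻¹ * regInd p G y
  have hwc : IsClassFunction G w := fun a b => by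
    simp only [w]
    rw [regInd_isClassFunction a b]
  have hwl : ∀ y, MemLocalRing M (w y) := fun y => memLocalRing_mul hRinv (memLocalRing_regInd y)
  let c : IrrCharacter G → ℂ := fun θ => omega (θ : G → ℂ) w
  have hcZ : c ∈ Zc M := mem_Zc_of_classFunction hwc hwl
  have hinvc : invF c = w := invF_omega hwc
  let ι : IrrCharacter G → ℂ := fun χ => @ite ℂ (χ ∈ B) (Classical.propDecidable _) 1 0
  have hιZ : ι ∈ Zc M := indicator_mem_Zc hB
  have hinvι : invF ι = blockCoeff B := (blockCoeff_eq_invF B).symm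
  have hιι : ι * ι = ι := by
    funext χ
    simp only [Pi.mul_apply, ι]
    split_ifs <;> simp
  have hcω : ∀ θ : IrrCharacter G, c θ = (R : ℂ)⁻¹ * omega (θ : G → ℂ) (regInd p G) := by
    intro θ
    have := omega_smul (θ : G → ℂ) ((R : ℂ)⁻¹) (regInd p G)
    exact this
  -- central characters of `c`
  have hy : ∀ θ, MemLocalIdeal M ((c - ι) θ) := by
    intro θ
    simp only [Pi.sub_apply]
    by_cases hθ : θ ∈ B
    · have h1 : ι θ = 1 := if_pos hθ
      rw [h1]
      have h2 : MemLocalIdeal M (c (irrOne G) - c θ) := memLocalIdeal_sub_of_mem_Zc hcZ hθ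
      have h3 : c (irrOne G) = 1 := by
        rw [hcω, omega_irrOne_regInd, inv_mul_cancel₀ hRne]
      rw [h3] at h2
      have h4 := memLocalIdeal_neg h2
      rwa [neg_sub] at h4
    · have h1 : ι θ = 0 := if_neg hθ
      rw [h1, sub_zero, hcω, omega_regInd_eq_zero hM hθ, mul_zero]
      exact memLocalIdeal_zero
  obtain ⟨N₀, hN₀⟩ := Cf_pow_large hM hy
  -- the exponent
  obtain ⟨a, m, hm, hcard⟩ :=
    Nat.exists_eq_pow_mul_and_not_dvd (Nat.card_pos (α := G)).ne' p hp.ne_one
  have hm0 : 0 < m := Nat.pos_of_ne_zero fun h => hm (h ▸ dvd_zero p)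
  set n := m.totient * (N₀ + a + 1) with hn
  have hn1 : N₀ + a + 1 ≤ n := Nat.le_mul_of_pos_left _ (Nat.totient_pos.2 hm0)
  set q := p ^ n with hq
  have hnq : n < q := Nat.lt_pow_self hp.one_lt
  have hgq : g ^ q = g := by
    have h1 : orderOf g ∣ m := by
      have h2 : orderOf g ∣ p ^ a * m := by
        rw [← hcard]
        exact orderOf_dvd_natCard g
      exact (Nat.Coprime.dvd_of_dvd_mul_left
        (((Nat.Prime.coprime_iff_not_dvd hp).2 hg).symm.pow_right a) h2)
    have h3 : p ^ m.totient ≡ 1 [MOD m] :=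
      Nat.ModEq.pow_totient ((Nat.Prime.coprime_iff_not_dvd hp).2 hm)
    have h4 : q ≡ 1 [MOD m] := by
      rw [hq, hn, pow_mul]
      simpa using h3.pow (N₀ + a + 1)
    have h5 : q ≡ 1 [MOD orderOf g] := h4.of_dvd h1
    have h6 := pow_eq_pow_iff_modEq.2 h5
    rwa [pow_one] at h6
  -- step 1: `c ^ q` is congruent to the indicator
  obtain ⟨r, hr⟩ := exists_add_pow_prime_pow_eq hp (⟨ι, hιZ⟩ : Zc M) ⟨c - ι, (Zc M).sub_mem hcZ hιZ⟩ n
  have hr' := congrArg Subtype.val hr
  simp only [Subring.coe_add, Subring.coe_pow, Subring.coe_mul, Subring.coe_natCast] at hr'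
  have hιq : ι ^ q = ι := (show IsIdempotentElem ι from hιι).pow_succ_eq (q - 1) |> fun h => by
    rwa [Nat.sub_add_cancel (pow_pos hp.pos n)] at h
  set r₃ : IrrCharacter G → ℂ := ι * (c - ι) * (r : IrrCharacter G → ℂ) with hr₃
  have hr₃Z : r₃ ∈ Zc M := (Zc M).mul_mem ((Zc M).mul_mem hιZ ((Zc M).sub_mem hcZ hιZ)) r.2
  have hcq : c ^ q = ι + (c - ι) ^ q + (p : ℂ) • r₃ := by
    have h1 : ι + (c - ι) = c := by abel
    rw [h1, hιq] at hr'
    rw [hr']
    congr 1
    funext θ
    simp [hr₃, mul_assoc]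
  have h1 : invF (c ^ q) g = blockCoeff B g + invF ((c - ι) ^ q) g + (p : ℂ) * invF r₃ g := by
    rw [hcq, invF_add, invF_add, invF_smul, hinvι]
    simp
  rw [invF_pow, hinvc] at h1
  -- step 2: Frobenius
  obtain ⟨r₂, hr₂, h2⟩ := pw_pow_eq hp n hwc (localSubring M) hwl g
  rw [hgq] at h2
  -- the sum
  set N := Nat.card {xy : G × G // (∃ k : ℕ, orderOf xy.1 = p ^ k) ∧ ¬ p ∣ orderOf xy.2 ∧ xy.1 * xy.2 = g} with hNdef
  have hsum : (∑ y : G, if y ^ p ^ n = 1 then w (y * g) ^ p ^ n else 0) =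
      ((R : ℂ)⁻¹) ^ q * (N : ℂ) := by
    have e1 : ∀ y : G, (if y ^ p ^ n = 1 then w (y * g) ^ p ^ n else 0) =
        ((R : ℂ)⁻¹) ^ q * (if y ^ q = 1 ∧ ¬ p ∣ orderOf (y * g) then 1 else 0) := by
      intro y
      by_cases h3 : y ^ q = 1
      · by_cases h4 : p ∣ orderOf (y * g)
        · simp only [w]
          rw [← hq, if_pos h3, regInd_of_sing h4, if_neg (by tauto), mul_zero, zero_pow]
          · simp
          · exact (pow_pos hp.pos n).ne'
        · simp only [w]
          rw [← hq, if_pos h3, regInd_of_reg h4, if_pos ⟨h3, h4⟩, mul_one, mul_one]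
      · rw [← hq, if_neg h3, if_neg (by tauto), mul_zero]
    simp_rw [e1]
    rw [← Finset.mul_sum, Finset.sum_boole]
    congr 1
    rw [hNdef, ← Fintype.card_subtype]
    norm_cast
    rw [← Nat.card_eq_fintype_card]
    refine (Nat.card_congr ?_).symm
    have hpow : ∀ x : G, (∃ k : ℕ, orderOf x = p ^ k) ↔ x ^ q = 1 := by
      intro x
      constructor
      · rintro ⟨k, hk⟩
        have h3 : p ^ k ∣ p ^ a * m := by
          rw [← hcard, ← hk]
          exact orderOf_dvd_natCard x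
        have h4 : p ^ k ∣ p ^ a :=
          Nat.Coprime.dvd_of_dvd_mul_right
            (((Nat.Prime.coprime_iff_not_dvd hp).2 hm).pow_left k) h3
        have h5 : k ≤ a := (Nat.pow_dvd_pow_iff_le_right hp.one_lt).1 h4
        have h6 : k ≤ n := by omega
        have h7 : orderOf x ∣ q := by
          rw [hk, hq]
          exact pow_dvd_pow p h6
        exact orderOf_dvd_iff_pow_eq_one.1 h7
      · intro h
        obtain ⟨k, -, hk⟩ := (Nat.dvd_prime_pow hp).1 (orderOf_dvd_of_pow_eq_one h)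
        exact ⟨k, hk⟩
    exact
      { toFun := fun xy => ⟨xy.1.1⁻¹, by
          refine ⟨?_, ?_⟩
          · rw [inv_pow, ((hpow _).1 xy.2.1), inv_one]
          · have h3 : xy.1.1⁻¹ * g = xy.1.2 := by
              rw [inv_mul_eq_iff_eq_mul]
              exact xy.2.2.2.symm
            rw [h3]
            exact xy.2.2.1⟩
        invFun := fun y => ⟨(y.1⁻¹, y.1 * g), by
          refine ⟨(hpow _).2 (by rw [inv_pow, y.2.1, inv_one]), y.2.2, ?_⟩
          group⟩
        left_inv := fun xy => by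
          apply Subtype.ext
          apply Prod.ext
          · simp
          · show xy.1.1⁻¹ * g = xy.1.2
            rw [inv_mul_eq_iff_eq_mul]
            exact xy.2.2.2.symm
        right_inv := fun y => by
          apply Subtype.ext
          simp }
  rw [hsum] at h2
  -- step 3: conclude
  have hR1 : MemLocalIdeal M (((R : ℂ)⁻¹) ^ q - (R : ℂ)⁻¹) := by
    have h3 : ((R : ℂ)⁻¹) ^ q - (R : ℂ)⁻¹ = ((R : ℂ)⁻¹) ^ q * (R : ℂ)⁻¹ * ((R : ℂ) - (R : ℂ) ^ q) := by
      have hu : (R : ℂ)⁻¹ * (R : ℂ) = 1 := inv_mul_cancel₀ hRne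
      have hu2 : ((R : ℂ)⁻¹) ^ q * (R : ℂ) ^ q = 1 := by rw [← mul_pow, hu, one_pow]
      linear_combination (-((R : ℂ)⁻¹) ^ q) * hu + (R : ℂ)⁻¹ * hu2
    rw [h3]
    refine memLocalIdeal_mul_left (memLocalRing_mul (memLocalRing_pow hRinv _) hRinv) ?_
    have h4 : ((R : ℂ) - (R : ℂ) ^ q) = (((R : ℤ) - (R : ℤ) ^ q : ℤ) : ℂ) := by
      push_cast
      ring
    rw [h4, memLocalIdeal_intCast_iff hM, ← ZMod.intCast_zmod_eq_zero_iff_dvd]
    haveI : Fact p.Prime := ⟨hp⟩
    push_cast
    rw [hq, ZMod.pow_card_pow, sub_self]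
  have hpM : MemLocalIdeal M (p : ℂ) := memLocalIdeal_natCast_of_dvd hM dvd_rfl
  have hfin : blockCoeff B g - (N : ℂ) / (R : ℂ) =
      (((R : ℂ)⁻¹) ^ q - (R : ℂ)⁻¹) * (N : ℂ) + (p : ℂ) * r₂ - invF ((c - ι) ^ q) g -
        (p : ℂ) * invF r₃ g := by
    have h5 := h1.symm.trans h2
    rw [div_eq_mul_inv]
    linear_combination h5
  rw [hfin]
  refine memLocalIdeal_sub (memLocalIdeal_sub (memLocalIdeal_add
    (memLocalIdeal_mul_right hR1 (memLocalRing_natCast N))
    (memLocalIdeal_mul_right hpM hr₂)) (hN₀ q (by omega) g))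
    (memLocalIdeal_mul_right hpM (hr₃Z g))

end Cfsg.Agent.S0940
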