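import Mathlib
-- Template for statement S0941 (row 941; see /opt/grader/pristine/manifest.json for weights).
-- Copy to Cfsg/Agent/S0941.lean and replace the sorry. The statement below is byte-identical to the frozen
-- statement Cfsg.CfsgFrozen.S0941 (Cfsg/Statements/S0941.lean; the theorem Cfsg.blocks_of_quotient_by_normal_p_subgroup_with_p_group_action);
-- the grader kernel-checks Cfsg.Agent.S0941.result against that frozen type. Keep the theorem IN THIS FILE
-- (a `result` declared elsewhere and merely imported here is not credited); helpers may live anywhere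
-- under Cfsg/Agent/.
import Cfsg.Statements.S0941
import Cfsg.Agent.Lib.BlkQuot

set_option autoImplicit false
open Cfsg

namespace Cfsg.Agent.S0941

open Cfsg.Agent.Lib.BlkNormalSub Cfsg.Agent.Lib.BlkQuot in

/-- Let P be a normal p-subgroup of the finite group G such that the index of C_G(P) is a power of p, and fix a maximal ideal M of the algebraic integers containing p. Then (i) two irreducible characters of G ⧸ P lie in the same block if and only if their inflations to G do, and (ii) every block of G contains the inflation of some irreducible character of G ⧸ P; so inflation induces a bijection between the blocks of G ⧸ P and the blocks of G. -/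
theorem result {G : Type*} [Group G] [Finite G] (p : ℕ) [Fact p.Prime] (M : Ideal Cfsg.AlgInt) (hM : Cfsg.IsPModular p M) (P : Subgroup G) [P.Normal] (hP : IsPGroup p P) (hC : ∃ k : ℕ, (Subgroup.centralizer (P : Set G)).index = p ^ k) : (∀ χ ψ : Cfsg.IrrCharacter (G ⧸ P), Cfsg.SameBlock M (χ : G ⧸ P → ℂ) (ψ : G ⧸ P → ℂ) ↔ Cfsg.SameBlock M ((χ : G ⧸ P → ℂ) ∘ QuotientGroup.mk) ((ψ : G ⧸ P → ℂ) ∘ QuotientGroup.mk)) ∧ ∀ B : Set (Cfsg.IrrCharacter G), Cfsg.IsPBlock M B → ∃ χ : Cfsg.IrrCharacter (G ⧸ P), ∃ θ ∈ B, (θ : G → ℂ) = (χ : G ⧸ P → ℂ) ∘ QuotientGroup.mk := by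
  classical
  haveI := hM.2.1.isPrime
  letI : Fintype G := Fintype.ofFinite G
  refine ⟨fun χ ψ => sameBlock_infl_iff P hM hP hC χ ψ, fun B hB => ?_⟩
  obtain ⟨θ, hθ, hker⟩ := exists_mem_block_ker hM hB P inferInstance hP
  obtain ⟨ψ₀, hψ₀, hψe⟩ := Cfsg.Agent.Lib.CharKernel.exists_quotient_irr P θ.2 hker
  refine ⟨⟨ψ₀, hψ₀⟩, θ, hθ, ?_⟩
  funext g
  exact (hψe g).symm

end Cfsg.Agent.S0941
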