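import Mathlib
-- Template for statement S0943 (row 943; see /opt/grader/pristine/manifest.json for weights).
-- Copy to Cfsg/Agent/S0943.lean and replace the sorry. The statement below is byte-identical to the frozen
-- statement Cfsg.CfsgFrozen.S0943 (Cfsg/Statements/S0943.lean; the theorem Cfsg.irreducible_character_multiplicative_on_constant_class_product);
-- the grader kernel-checks Cfsg.Agent.S0943.result against that frozen type. Keep the theorem IN THIS FILE
-- (a `result` declared elsewhere and merely imported here is not credited); helpers may live anywhere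
-- under Cfsg/Agent/.
import Cfsg.Statements.S0943
import Cfsg.Agent.Lib.CharAvg

set_option autoImplicit false
open Cfsg

namespace Cfsg.Agent.S0943



/-- Let χ be an irreducible character of the finite group G and u, v ∈ G. If χ (x * y) = χ (u * v) whenever x is conjugate to u and y is conjugate to v, then χ u * χ v = χ 1 * χ (u * v). (Multiply the class sums of u and v and apply the central character of χ.) -/
theorem result {G : Type*} [Group G] [Finite G] (χ : Cfsg.IrrCharacter G) (u v : G) (hc : ∀ x y : G, IsConj u x → IsConj v y → (χ : G → ℂ) (x * y) = (χ : G → ℂ) (u * v)) : (χ : G → ℂ) u * (χ : G → ℂ) v = (χ : G → ℂ) 1 * (χ : G → ℂ) (u * v) := by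
  have h := Cfsg.Agent.Lib.CharAvg.irr_mul_of_const χ.2 u v ((χ : G → ℂ) (u * v)) (fun b =>
    hc u (b * v * b⁻¹) (IsConj.refl u) (isConj_iff.mpr ⟨b, rfl⟩))
  exact h.symm

end Cfsg.Agent.S0943
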