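import Mathlib
-- Template for statement S0944 (row 944; see /opt/grader/pristine/manifest.json for weights).
-- Copy to Cfsg/Agent/S0944.lean and replace the sorry. The statement below is byte-identical to the frozen
-- statement Cfsg.CfsgFrozen.S0944 (Cfsg/Statements/S0944.lean; the theorem Cfsg.character_value_at_involution_integer_congr_degree);
-- the grader kernel-checks Cfsg.Agent.S0944.result against that frozen type. Keep the theorem IN THIS FILE
-- (a `result` declared elsewhere and merely imported here is not credited); helpers may live anywhere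
-- under Cfsg/Agent/.
import Cfsg.Statements.S0944
import Cfsg.Agent.Lib.CharValues

set_option autoImplicit false
open Cfsg

namespace Cfsg.Agent.S0944



/-- Let χ be an irreducible character of the finite group G and u an involution. Then χ u is a rational integer n with n ≡ χ 1 (mod 2). -/
theorem result {G : Type*} [Group G] [Finite G] (χ : Cfsg.IrrCharacter G) (u : G) (hu : orderOf u = 2) : ∃ n : ℤ, (χ : G → ℂ) u = (n : ℂ) ∧ (2 : ℤ) ∣ (Cfsg.charDegree (χ : G → ℂ) : ℤ) - n := by
  classical
  obtain ⟨χ, n, ρ, hρ, rfl⟩ := χ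
  have h2 : (ρ u) ^ 2 = 1 := by
    have : u ^ 2 = 1 := by rw [← hu]; exact pow_orderOf_eq_one u
    rw [← map_pow, this, map_one]
  obtain ⟨b, μ, h1, hμ⟩ := Cfsg.Agent.Lib.CharValues.exists_eigenbasis (ρ u) (by norm_num) h2
  have htr := Cfsg.Agent.Lib.CharValues.trace_eq_sum_of_eigenbasis (ρ u) b μ h1
  have hμ' : ∀ i, μ i = 1 ∨ μ i = -1 := fun i =>
    mul_self_eq_one_iff.mp (by rw [← sq]; exact hμ i)
  let ε : Fin (Module.finrank ℂ (Fin n → ℂ)) → ℤ := fun i => if μ i = 1 then 1 else -1
  have hε : ∀ i, ((ε i : ℤ) : ℂ) = μ i := by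
    intro i
    by_cases h : μ i = 1
    · simp [ε, h]
    · simp only [ε, h, if_false, (hμ' i).resolve_left h]
      norm_num
  have hchi : ρ.character u = ((∑ i, ε i : ℤ) : ℂ) := by
    push_cast
    simp only [hε]
    exact htr
  refine ⟨∑ i, ε i, hchi, ?_⟩
  have hdeg : Cfsg.charDegree ρ.character = Module.finrank ℂ (Fin n → ℂ) := by
    unfold Cfsg.charDegree
    rw [Representation.char_one]
    simp
  show (2 : ℤ) ∣ (Cfsg.charDegree ρ.character : ℤ) - ∑ i, ε i
  rw [hdeg]
  have h3 : ((Module.finrank ℂ (Fin n → ℂ) : ℕ) : ℤ) = ∑ _i : Fin (Module.finrank ℂ (Fin n → ℂ)), (1 : ℤ) := by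
    simp
  rw [h3, ← Finset.sum_sub_distrib]
  apply Finset.dvd_sum
  intro i _
  by_cases h : μ i = 1
  · simp [ε, h]
  · simp [ε, h]

end Cfsg.Agent.S0944
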