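import Mathlib
import Cfsg.Statements.S0946
import Cfsg.Agent.S0945

set_option autoImplicit false
set_option linter.all false
open Cfsg

namespace Cfsg.Agent.S0946

open Cfsg.Agent.S0945

theorem result {G : Type*} [Group G] [Finite G] (P : Sylow 2 G) (m : ℕ) (hm : 1 ≤ m) (e : (P : Subgroup G) ≃* Multiplicative (ZMod (2 ^ m) × ZMod (2 ^ m))) : (∃ N : Subgroup G, N.Normal ∧ Subgroup.IsComplement' N (P : Subgroup G)) ∨ ∀ s t : G, orderOf s = 2 → orderOf t = 2 → IsConj s t := by
  classical
  obtain ⟨h3, hker, hidx, hodd⟩ := main_facts P m hm e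
  rcases (Cfsg.Agent.S0945.result P m hm e).1 with h1 | h1
  · left
    have hle : Subgroup.normalizer (P : Set G) ≤ Subgroup.centralizer (P : Set G) :=
      Subgroup.relIndex_eq_one.mp h1
    exact ⟨_, MonoidHom.normal_ker _, MonoidHom.ker_transferSylow_isComplement' P hle⟩
  · right
    -- every involution is conjugate to one in `P`
    have hconj : ∀ s : G, orderOf s = 2 → ∃ t : S0945.Inv (P : Subgroup G), IsConj s t.1 := by
      intro s hs
      have hp : IsPGroup 2 (Subgroup.zpowers s) := by
        rw [IsPGroup.iff_card]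
        exact ⟨1, by rw [Nat.card_zpowers, hs, pow_one]⟩
      obtain ⟨Q, hQ⟩ := hp.exists_le_sylow
      obtain ⟨g, hg⟩ := MulAction.exists_smul_eq G Q P
      have hsQ : s ∈ (Q : Subgroup G) := hQ (Subgroup.mem_zpowers s)
      have hsP : g * s * g⁻¹ ∈ (P : Subgroup G) := by
        rw [← hg]
        rw [Sylow.coe_subgroup_smul]
        rw [Subgroup.mem_pointwise_smul_iff_inv_smul_mem]
        simpa [MulAut.smul_def, MulAut.conj_apply, mul_assoc] using hsQ
      have hs1 : s ≠ 1 := by
        rintro rfl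
        rw [orderOf_one] at hs
        omega
      have hs2 : s ^ 2 = 1 := by rw [← hs]; exact pow_orderOf_eq_one s
      refine ⟨⟨g * s * g⁻¹, hsP, fun h => hs1 (conj_eq_one_iff.mp h), by rw [conj_pow, hs2]; simp⟩, ?_⟩
      exact isConj_iff.mpr ⟨g, rfl⟩
    -- a nontrivial element of the range
    have hrange : ∃ g : Subgroup.normalizer ((P : Subgroup G) : Set G), conjPerm (P : Subgroup G) g ≠ 1 := by
      by_contra hcon
      push Not at hcon
      have h2 : (conjPerm (P : Subgroup G)).range = ⊥ := by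
        rw [eq_bot_iff]
        rintro _ ⟨g, rfl⟩
        rw [Subgroup.mem_bot]
        exact hcon g
      have h4 : (Subgroup.centralizer ((P : Subgroup G) : Set G)).relIndex (Subgroup.normalizer ((P : Subgroup G) : Set G)) = 3 := h1
      rw [hidx, h2, Subgroup.card_bot] at h4
      omega
    obtain ⟨g₀, hg₀⟩ := hrange
    have hcube := perm_cube P m hm e h1 g₀
    have htrans : ∀ u v : S0945.Inv (P : Subgroup G), IsConj u.1 v.1 := by
      intro u v
      rcases perm_three_trans h3 _ hcube hg₀ u v with h | h | h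
      · rw [h]
      · rw [h]
        exact isConj_iff.mpr ⟨g₀, rfl⟩
      · rw [h]
        have h5 : IsConj (u.1) ((conjPerm (P : Subgroup G) g₀ u).1) := isConj_iff.mpr ⟨g₀, rfl⟩
        have h6 : IsConj ((conjPerm (P : Subgroup G) g₀ u).1) ((conjPerm (P : Subgroup G) g₀ (conjPerm (P : Subgroup G) g₀ u)).1) :=
          isConj_iff.mpr ⟨g₀, rfl⟩
        exact h5.trans h6
    intro s t hs ht
    obtain ⟨u, hu⟩ := hconj s hs
    obtain ⟨v, hv⟩ := hconj t ht
    exact hu.trans ((htrans u v).trans hv.symm)

end Cfsg.Agent.S0946
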