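import Mathlib
import Cfsg.Statements.S0950
import Cfsg.Agent.Lib.Q8Fusion

set_option autoImplicit false
open Cfsg

namespace Cfsg.Agent.S0950

/-- Let S be a Sylow 2-subgroup of the finite group G that is isomorphic to the quaternion group of order 8, and suppose S has no normal complement in G. Then any two subgroups of order 4 of S are conjugate by an element of the normalizer of S. -/
theorem result {G : Type*} [Group G] [Finite G] (S : Sylow 2 G) (e : (S : Subgroup G) ≃* QuaternionGroup 2) (hnc : ∀ N : Subgroup G, N.Normal → ¬ Subgroup.IsComplement' N (S : Subgroup G)) (A B : Subgroup G) (hA : A ≤ S) (hB : B ≤ S) (hA4 : Nat.card A = 4) (hB4 : Nat.card B = 4) : ∃ n ∈ Subgroup.normalizer ((S : Subgroup G) : Set G), B = A.map (MulAut.conj n).toMonoidHom := by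
  classical
  have hd := Cfsg.Agent.Lib.QuatSylow.quatData_of_equiv (S : Subgroup G) (by norm_num) e
  have h := Cfsg.Agent.Lib.Q8Fusion.Q8On.of_quatData hd
  -- each subgroup of order 4 is generated by an element of order 4
  have key : ∀ C : Subgroup G, C ≤ (S : Subgroup G) → Nat.card C = 4 →
      ∃ g ∈ (S : Subgroup G), g * g ≠ 1 ∧ C = Subgroup.zpowers g := by
    intro C hC hC4
    by_cases hex : ∃ g ∈ C, g * g ≠ 1
    · obtain ⟨g, hgC, hgg⟩ := hex
      refine ⟨g, hC hgC, hgg, ?_⟩
      have hgs := h.sq_eq (hC hgC) hgg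
      haveI : Fact (Nat.Prime 2) := ⟨Nat.prime_two⟩
      have hord : orderOf g = 2 ^ (1 + 1) := by
        apply orderOf_eq_prime_pow
        · rw [pow_one, pow_two, hgs]
          exact h.z1
        · have : g ^ 2 ^ (1 + 1) = (g * g) * (g * g) := by
            have h4 : (2 : ℕ) ^ (1 + 1) = 4 := by norm_num
            rw [h4]
            simp only [pow_succ, pow_zero, one_mul, mul_assoc]
          rw [this, hgs]
          exact h.zz
      symm
      apply Subgroup.eq_of_le_of_card_ge
      · rw [Subgroup.zpowers_le]
        exact hgC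
      · rw [hC4, Nat.card_zpowers, hord]
        norm_num
    · exfalso
      push Not at hex
      set z : G := ((e.symm (QuaternionGroup.a 1) : S) : G) ^ 2 with hz
      have hle : C ≤ Subgroup.zpowers z := by
        intro g hg
        rcases h.eq_of_sq (hC hg) (hex g hg) with rfl | rfl
        · exact one_mem _
        · exact Subgroup.mem_zpowers _
      have hzo : orderOf z = 2 := by
        apply orderOf_eq_prime
        · rw [pow_two]; exact h.zz
        · exact h.z1
      have h1 := Subgroup.card_le_of_le hle
      rw [hC4, Nat.card_zpowers, hzo] at h1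
      omega
  obtain ⟨g, hgS, hgg, rfl⟩ := key A hA hA4
  obtain ⟨g', hgS', hgg', rfl⟩ := key B hB hB4
  obtain ⟨n, hn, hng⟩ := h.conj_pair S hnc hgS hgg hgS' hgg'
  refine ⟨n, hn, ?_⟩
  rw [MonoidHom.map_zpowers]
  congr 1
  rw [← hng]
  rfl

end Cfsg.Agent.S0950
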