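import Mathlib
import Cfsg.Statements.S0952
import Cfsg.Agent.Lib.BlockOrtho

set_option autoImplicit false
open scoped ComplexConjugate
open Cfsg

namespace Cfsg.Agent.S0952

open Cfsg.Agent.Lib.BlockOrtho Cfsg.Agent.Lib.BlockIdem

/-- Let χ and ψ be irreducible characters of the finite group G lying in different blocks relative to a maximal ideal M of the algebraic integers containing the prime p. Then the sum of χ x * conj (ψ x) over the elements x of order prime to p is zero. -/
theorem result {G : Type*} [Group G] [Finite G] (p : ℕ) [Fact p.Prime] (M : Ideal Cfsg.AlgInt) (hM : Cfsg.IsPModular p M) (χ ψ : Cfsg.IrrCharacter G) (h : ¬ Cfsg.SameBlock M (χ : G → ℂ) (ψ : G → ℂ)) : ∑ᶠ x ∈ {x : G | ¬ p ∣ orderOf x}, (χ : G → ℂ) x * conj ((ψ : G → ℂ) x) = 0 := by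
  classical
  letI : Fintype G := Fintype.ofFinite G
  haveI := hM.2.1.isPrime
  have hB : IsPBlock M (blockOf M (χ : G → ℂ)) := ⟨χ, rfl⟩
  have h1 := classInner_pRegularPart_eq_zero hM hB (mem_blockOf_self χ) (ψ := ψ) h
  unfold classInner at h1
  have hG : (Nat.card G : ℂ)⁻¹ ≠ 0 := inv_ne_zero (by exact_mod_cast Nat.card_pos.ne')
  have h2 := (mul_eq_zero.1 h1).resolve_left hG
  rw [finsum_mem_eq_finite_toFinset_sum _ (Set.toFinite _)]
  rw [← h2, ← Finset.sum_filter_add_sum_filter_not Finset.univ (fun x : G => ¬ p ∣ orderOf x)]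
  have h3 : ∑ x ∈ Finset.univ.filter (fun x : G => ¬ ¬ p ∣ orderOf x),
      pRegularPart p (χ : G → ℂ) x * conj ((ψ : G → ℂ) x) = 0 :=
    Finset.sum_eq_zero fun x hx => by
      rw [pRegularPart_of_sing _ (not_not.1 (Finset.mem_filter.1 hx).2), zero_mul]
  rw [h3, add_zero]
  refine Finset.sum_congr (by ext x; simp) fun x hx => ?_
  rw [pRegularPart_of_reg _ (Finset.mem_filter.1 hx).2]

end Cfsg.Agent.S0952
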