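import Mathlib
-- Template for statement S0957 (row 957; see /opt/grader/pristine/manifest.json for weights).
-- Copy to Cfsg/Agent/S0957.lean and replace the sorry. The statement below is byte-identical to the frozen
-- statement Cfsg.CfsgFrozen.S0957 (Cfsg/Statements/S0957.lean; the theorem Cfsg.sylow_coset_pair_count_divisibility);
-- the grader kernel-checks Cfsg.Agent.S0957.result against that frozen type. Keep the theorem IN THIS FILE
-- (a `result` declared elsewhere and merely imported here is not credited); helpers may live anywhere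
-- under Cfsg/Agent/.
import Cfsg.Statements.S0957
import Cfsg.Agent.Lib.BlkAct

set_option autoImplicit false
open Cfsg

namespace Cfsg.Agent.S0957

open Cfsg.Agent.Lib.BlkSylow Cfsg.Agent.Lib.BlkAct

/-- Let P be a Sylow p-subgroup of the finite group G, let g, h ∈ G and let p ^ d be the order of a Sylow p-subgroup of the centralizer of g. Then the number of pairs (y, z) with y conjugate to g, z conjugate to h and z * y⁻¹ ∈ P is divisible by the order of P divided by p ^ d. -/
theorem result {G : Type*} [Group G] [Finite G] (p : ℕ) [Fact p.Prime] (P : Sylow p G) (g h : G) (S : Sylow p (Subgroup.centralizer ({g} : Set G))) : Nat.card P / Nat.card S ∣ Nat.card {yz : G × G // IsConj g yz.1 ∧ IsConj h yz.2 ∧ yz.2 * yz.1⁻¹ ∈ (P : Subgroup G)} := by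
  classical
  set T : Set (G × G) := {yz : G × G | IsConj g yz.1 ∧ IsConj h yz.2 ∧ yz.2 * yz.1⁻¹ ∈ (P : Subgroup G)} with hT
  have hS : ∀ u ∈ (P : Subgroup G), ∀ xy ∈ T, (u * xy.1 * u⁻¹, u * xy.2 * u⁻¹) ∈ T := by
    rintro u hu xy ⟨h1, h2, h3⟩
    refine ⟨h1.trans (isConj_iff.mpr ⟨u, rfl⟩), h2.trans (isConj_iff.mpr ⟨u, rfl⟩), ?_⟩
    show u * xy.2 * u⁻¹ * (u * xy.1 * u⁻¹)⁻¹ ∈ (P : Subgroup G)
    have : u * xy.2 * u⁻¹ * (u * xy.1 * u⁻¹)⁻¹ = u * (xy.2 * xy.1⁻¹) * u⁻¹ := by group
    rw [this]
    exact P.1.mul_mem (P.1.mul_mem hu h3) (P.1.inv_mem hu)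
  letI := pairAction (P : Subgroup G) T hS
  have hSyl := isSylowIn_of_sylow S
  have hcardS : Nat.card S = Nat.card ((S : Subgroup (Subgroup.centralizer ({g} : Set G))).map (Subgroup.centralizer ({g} : Set G)).subtype) := by
    rw [Subgroup.card_map_of_injective (Subgroup.subtype_injective _)]
  -- |S| divides |P|
  have hSP : Nat.card S ∣ Nat.card P := by
    rw [hcardS]
    have hpg : IsPGroup p ((S : Subgroup (Subgroup.centralizer ({g} : Set G))).map (Subgroup.centralizer ({g} : Set G)).subtype) := hSyl.1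
    obtain ⟨Q, hQ⟩ := hpg.exists_le_sylow
    have h1 : Nat.card (Q : Subgroup G) = Nat.card P := (Q.card_eq_multiplicity).trans P.card_eq_multiplicity.symm
    rw [← h1]
    exact (Subgroup.card_dvd_of_le hQ)
  have hdiv : ∀ xy : T, Nat.card P / Nat.card S ∣ Nat.card (MulAction.orbit (P : Subgroup G) xy) := by
    intro xy
    obtain ⟨a, ha⟩ := isConj_iff.mp xy.2.1
    have horb : Nat.card (MulAction.orbit (P : Subgroup G) xy) * Nat.card (MulAction.stabilizer (P : Subgroup G) xy) = Nat.card P := by
      rw [mul_comm, ← Subgroup.card_mul_index (MulAction.stabilizer (P : Subgroup G) xy), MulAction.index_stabilizer, Nat.card_coe_set_eq]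
    set W : Subgroup G := (MulAction.stabilizer (P : Subgroup G) xy).map (P : Subgroup G).subtype with hW
    have hWcard : Nat.card W = Nat.card (MulAction.stabilizer (P : Subgroup G) xy) :=
      Subgroup.card_map_of_injective (Subgroup.subtype_injective _)
    have hWp : IsPGroup p W := IsPGroup.map (IsPGroup.to_subgroup P.isPGroup' _) _
    have hWle : W ≤ Subgroup.centralizer ({xy.1.1} : Set G) := by
      rintro w ⟨v, hv, rfl⟩
      rw [Subgroup.mem_centralizer_singleton_iff]
      have h2 : (((v : G) * xy.1.1 * (v : G)⁻¹, (v : G) * xy.1.2 * (v : G)⁻¹) : G × G) = xy.1 := congrArg Subtype.val hv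
      have h3 := congrArg Prod.fst h2
      simp only at h3
      show (v : G) * xy.1.1 = xy.1.1 * (v : G)
      calc (v : G) * xy.1.1 = ((v : G) * xy.1.1 * (v : G)⁻¹) * v := by group
        _ = _ := by rw [h3]
    have hW' : W.map (MulAut.conj a⁻¹).toMonoidHom ≤ Subgroup.centralizer ({g} : Set G) := by
      have h4 := map_conj_le a⁻¹ hWle
      rw [centralizer_map_conj, ← ha] at h4
      have : a⁻¹ * (a * g * a⁻¹) * a⁻¹⁻¹ = g := by group
      rwa [this] at h4
    obtain ⟨w, hw, hle⟩ := exists_conj_ge_of_isSylowIn hSyl (hWp.map (MulAut.conj a⁻¹).toMonoidHom) hW'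
    have h5 : Nat.card (MulAction.stabilizer (P : Subgroup G) xy) ∣ Nat.card S := by
      have := Subgroup.card_dvd_of_le hle
      rw [card_map_conj, card_map_conj, hWcard, ← hcardS] at this
      exact this
    obtain ⟨k, hk⟩ := h5
    obtain ⟨m, hm⟩ := hSP
    have hSpos : 0 < Nat.card S := Nat.card_pos
    rw [hm, Nat.mul_div_cancel_left _ hSpos]
    refine ⟨k, ?_⟩
    have ht : 0 < Nat.card (MulAction.stabilizer (P : Subgroup G) xy) := Nat.card_pos
    apply Nat.eq_of_mul_eq_mul_right ht
    rw [horb, hm, hk]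
    ring
  exact (dvd_card_of_dvd_orbits hdiv : _ ∣ Nat.card T)

end Cfsg.Agent.S0957
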