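import Mathlib
-- Template for statement S0958 (row 958; see /opt/grader/pristine/manifest.json for weights).
-- Copy to Cfsg/Agent/S0958.lean and replace the sorry. The statement below is byte-identical to the frozen
-- statement Cfsg.CfsgFrozen.S0958 (Cfsg/Statements/S0958.lean; the theorem Cfsg.block_induced_from_local_subgroup_iff_defect_group_contains);
-- the grader kernel-checks Cfsg.Agent.S0958.result against that frozen type. Keep the theorem IN THIS FILE
-- (a `result` declared elsewhere and merely imported here is not credited); helpers may live anywhere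
-- under Cfsg/Agent/.
import Cfsg.Statements.S0958
import Cfsg.Agent.Lib.BlkFirst

set_option autoImplicit false
open Cfsg

namespace Cfsg.Agent.S0958

open Cfsg.Agent.Lib.BlkBrauer Cfsg.Agent.Lib.BlockLocal Cfsg.Agent.Lib.BlockDefect Cfsg.Agent.Lib.BlkSylow Cfsg.Agent.Lib.BlockIdem Cfsg.Agent.Lib.BlkFirst

/-- Let P be a p-subgroup of the finite group G and H a subgroup with P ⊔ C_G(P) ≤ H ≤ N_G(P); fix a maximal ideal M of the algebraic integers containing p. Then a block B of G is induced by some block of H if and only if some conjugate of P is contained in a defect group of B. -/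
theorem result {G : Type*} [Group G] [Finite G] (p : ℕ) [Fact p.Prime] (M : Ideal Cfsg.AlgInt) (hM : Cfsg.IsPModular p M) (P H : Subgroup G) (hP : IsPGroup p P) (hPH : P ⊔ Subgroup.centralizer (P : Set G) ≤ H) (hHN : H ≤ Subgroup.normalizer (P : Set G)) (B : Set (Cfsg.IrrCharacter G)) (hB : Cfsg.IsPBlock M B) : (∃ b : Set (Cfsg.IrrCharacter H), Cfsg.IsInducedBlock M H b B) ↔ ∃ D : Subgroup G, Cfsg.IsDefectGroup p M B D ∧ ∃ x : G, P.map (MulAut.conj x).toMonoidHom ≤ D := by
  classical
  letI := Fintype.ofFinite G
  letI := Fintype.ofFinite H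
  haveI := hM.2.1.isPrime
  have hP1 : P ≤ H := le_sup_left.trans hPH
  have hCH : Subgroup.centralizer (P : Set G) ≤ H := le_sup_right.trans hPH
  constructor
  · rintro ⟨b, hind⟩
    obtain ⟨D, hD⟩ := exists_isDefectGroup hM hind.1
    have hle := normal_le_defect hM (normal_subgroupOf hP1 hHN)
      (IsPGroup.comap_of_injective hP H.subtype H.subtype_injective) hind.1 hD
    obtain ⟨E, hE, hDE⟩ := Cfsg.Agent.S0917.result p M hM H b hind.1 B hB hind D hD
    refine ⟨E, hE, 1, ?_⟩
    rw [map_conj_one]
    intro u hu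
    exact hDE ⟨⟨u, hP1 hu⟩, hle (by simpa [Subgroup.mem_subgroupOf] using hu), rfl⟩
  · rintro ⟨D, hD, x, hx⟩
    obtain ⟨ξ, hξ⟩ := exists_irr_of_defect hM hP hCH hHN hB hD hx
    exact ⟨_, isInducedBlock_of_lam hM hP hP1 hCH hHN ξ hB hξ⟩

end Cfsg.Agent.S0958
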