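import Mathlib
-- Template for statement S0959 (row 959; see /opt/grader/pristine/manifest.json for weights).
-- Copy to Cfsg/Agent/S0959.lean and replace the sorry. The statement below is byte-identical to the frozen
-- statement Cfsg.CfsgFrozen.S0959 (Cfsg/Statements/S0959.lean; the theorem Cfsg.brauer_map_nonzero_on_block_idempotent_iff);
-- the grader kernel-checks Cfsg.Agent.S0959.result against that frozen type. Keep the theorem IN THIS FILE
-- (a `result` declared elsewhere and merely imported here is not credited); helpers may live anywhere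
-- under Cfsg/Agent/.
import Cfsg.Statements.S0959
import Cfsg.Agent.Lib.BlkBrauer

set_option autoImplicit false
open Cfsg

namespace Cfsg.Agent.S0959

open Cfsg.Agent.Lib.BlkBrauer Cfsg.Agent.Lib.BlockLocal Cfsg.Agent.Lib.BlockDefect Cfsg.Agent.Lib.BlkSylow

/-- Let B be a block of the finite group G with defect group D (relative to a maximal ideal M of the algebraic integers containing the prime p), and let P be a p-subgroup. Then there is an element g whose idempotent coefficient for B is a local integer outside the local ideal at M and which has a conjugate centralizing P, if and only if some conjugate of P is contained in D. -/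
theorem result {G : Type*} [Group G] [Finite G] (p : ℕ) [Fact p.Prime] (M : Ideal Cfsg.AlgInt) (hM : Cfsg.IsPModular p M) (B : Set (Cfsg.IrrCharacter G)) (hB : Cfsg.IsPBlock M B) (D : Subgroup G) (hD : Cfsg.IsDefectGroup p M B D) (P : Subgroup G) (hP : IsPGroup p P) : (∃ g : G, Cfsg.MemLocalRing M (Cfsg.blockCoeff B g) ∧ ¬ Cfsg.MemLocalIdeal M (Cfsg.blockCoeff B g) ∧ ∃ c : G, IsConj g c ∧ c ∈ Subgroup.centralizer (P : Set G)) ↔ ∃ x : G, P.map (MulAut.conj x).toMonoidHom ≤ D := by
  classical
  letI := Fintype.ofFinite G
  haveI := hM.2.1.isPrime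
  constructor
  · rintro ⟨g, -, hg, c, hc, hcP⟩
    have hL := IsDefectGroup.sylow_conj hM hB hD hg
    obtain ⟨t, rfl⟩ := isConj_iff.mp hc
    have hL2 := LeDefect.conj hL t
    have hle : P ≤ Subgroup.centralizer ({t * g * t⁻¹} : Set G) := by
      intro u hu
      rw [Subgroup.mem_centralizer_singleton_iff]
      exact Subgroup.mem_centralizer_iff.mp hcP u hu
    obtain ⟨x, hx⟩ := hL2 P hP hle
    exact ⟨x, hx⟩
  · rintro ⟨x, hx⟩
    obtain ⟨y, hy, Q, rfl⟩ := id hD
    have hSyl := isSylowIn_of_sylow Q
    refine ⟨y, hy.1, hy.2.1, x⁻¹ * y * x, ?_, ?_⟩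
    · exact isConj_iff.mpr ⟨x⁻¹, by group⟩
    · rw [Subgroup.mem_centralizer_iff]
      intro u hu
      have h1 : x * u * x⁻¹ ∈ Subgroup.centralizer ({y} : Set G) := hSyl.2.1 (hx ⟨u, hu, rfl⟩)
      have h2 := Subgroup.mem_centralizer_singleton_iff.mp h1
      calc u * (x⁻¹ * y * x) = x⁻¹ * ((x * u * x⁻¹) * y) * x := by group
        _ = x⁻¹ * (y * (x * u * x⁻¹)) * x := by rw [h2]
        _ = _ := by group

end Cfsg.Agent.S0959
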