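import Mathlib
-- Template for statement S0961 (row 961; see /opt/grader/pristine/manifest.json for weights).
-- Copy to Cfsg/Agent/S0961.lean and replace the sorry. The statement below is byte-identical to the frozen
-- statement Cfsg.CfsgFrozen.S0961 (Cfsg/Statements/S0961.lean; the theorem Cfsg.p_power_times_character_on_p_regular_is_generalized_character);
-- the grader kernel-checks Cfsg.Agent.S0961.result against that frozen type. Keep the theorem IN THIS FILE
-- (a `result` declared elsewhere and merely imported here is not credited); helpers may live anywhere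
-- under Cfsg/Agent/.
import Cfsg.Statements.S0961
import Cfsg.Agent.Lib.BrauerGlobal
import Cfsg.Agent.Lib.Monomial
import Cfsg.Agent.Lib.PCore
import Cfsg.Agent.Lib.CharInduction
import Cfsg.Agent.Lib.GenChar
import Cfsg.Agent.Lib.BlkOrth

set_option autoImplicit false
open Cfsg

namespace Cfsg.Agent.S0961

open Cfsg Cfsg.Agent.Lib.CharBasic Cfsg.Agent.Lib.CharInd Cfsg.Agent.Lib.CharInduction
open Cfsg.Agent.Lib.PCore Cfsg.Agent.Lib.BrauerGlobal

theorem exists_reg_subgroup {E : Type*} [Group E] [Finite E] [hnil : Group.IsNilpotent E] (p : ℕ) [hp : Fact p.Prime] :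
    ∃ K : Subgroup E, K.Normal ∧ (∀ e, e ∈ K ↔ ¬ p ∣ orderOf e) ∧ ∃ j, K.index = p ^ j := by
  set K := pPrimeCore p E with hK
  set Q := pCore p E with hQ
  have hKn : K.Normal := inferInstance
  have hQn : Q.Normal := inferInstance
  have hsup : (⊤ : Subgroup E) ≤ Q ⊔ K := by
    have h1 : (⊤ : Subgroup E) ≤ fittingSubgroup E := by
      apply le_fittingSubgroup (Subgroup.normal_top)
      exact Subgroup.isNilpotent _
    exact h1.trans (fittingSubgroup_le_sup p)
  have hKp : ¬ p ∣ Nat.card K := not_dvd_card_pPrimeCore p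
  have hQp : IsPGroup p Q := isPGroup_pCore p
  have hdis : Disjoint Q K := by
    rw [Subgroup.disjoint_def]
    intro x hx hx'
    obtain ⟨k, hk⟩ := hQp ⟨x, hx⟩
    have h1 : x ^ p ^ k = 1 := by
      have := congrArg Subtype.val hk
      simpa using this
    have h2 : orderOf x ∣ p ^ k := orderOf_dvd_of_pow_eq_one h1
    have h3 : orderOf x ∣ Nat.card K := by
      have := orderOf_dvd_natCard (⟨x, hx'⟩ : K)
      rwa [Subgroup.orderOf_mk] at this
    have hcop : Nat.Coprime (p ^ k) (Nat.card K) :=
      Nat.Coprime.pow_left _ ((Nat.Prime.coprime_iff_not_dvd hp.out).mpr hKp)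
    exact orderOf_eq_one_iff.mp (Nat.Coprime.eq_one_of_dvd (Nat.Coprime.coprime_dvd_left h2 hcop) h3)
  refine ⟨K, hKn, fun e => ⟨fun he h => ?_, fun he => ?_⟩, ?_⟩
  · apply hKp
    have := orderOf_dvd_natCard (⟨e, he⟩ : K)
    rw [Subgroup.orderOf_mk] at this
    exact h.trans this
  · have h1 : e ∈ Q ⊔ K := hsup (Subgroup.mem_top e)
    obtain ⟨u, hu, k, hk, rfl⟩ := Subgroup.mem_sup_of_normal_right.mp h1
    have hcomm : Commute u k := Subgroup.commute_of_normal_of_disjoint _ _ hQn hKn hdis u k hu hk
    have hord : ∃ j, orderOf u = p ^ j := by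
      obtain ⟨t, ht⟩ := hQp ⟨u, hu⟩
      have h2 : u ^ p ^ t = 1 := by
        have := congrArg Subtype.val ht
        simpa using this
      obtain ⟨j, -, hj⟩ := (Nat.dvd_prime_pow hp.out).mp (orderOf_dvd_of_pow_eq_one h2)
      exact ⟨j, hj⟩
    have hkreg : ¬ p ∣ orderOf k := by
      intro h
      apply hKp
      have := orderOf_dvd_natCard (⟨k, hk⟩ : K)
      rw [Subgroup.orderOf_mk] at this
      exact h.trans this
    have hpart := Cfsg.Agent.Lib.BlkOrth.pPart_of_mul hcomm hord hkreg
    have hu1 := (Cfsg.Agent.Lib.BlkOrth.pPart_regular_iff hp.out hpart).mp he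
    rw [hu1, one_mul]
    exact hk
  · have h1 : K.relIndex (Q ⊔ K) = K.relIndex Q := Subgroup.relIndex_sup_right Q K
    have h2 : Q ⊔ K = ⊤ := top_le_iff.mp hsup
    rw [h2, Subgroup.relIndex_top_right] at h1
    have h3 : K.relIndex Q ∣ Nat.card Q := Subgroup.relIndex_dvd_card K Q
    obtain ⟨t, ht⟩ := IsPGroup.iff_card.mp hQp
    rw [ht, ← h1] at h3
    obtain ⟨j, -, hj⟩ := (Nat.dvd_prime_pow hp.out).mp h3
    exact ⟨j, hj⟩

/-- Let χ be an irreducible character of the finite group G and let p ^ a be the largest power of the prime p dividing the order of G. Then the function equal to p ^ a * χ x at elements x of order prime to p and to 0 elsewhere is a generalized character (a difference of characters). -/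
theorem result {G : Type*} [Group G] [Finite G] (p : ℕ) [Fact p.Prime] (χ : Cfsg.IrrCharacter G) : Cfsg.IsGeneralizedCharacter G (fun x : G => if p ∣ orderOf x then 0 else ((p ^ (Nat.card G).factorization p : ℕ) : ℂ) * (χ : G → ℂ) x) := by
  classical
  letI : Fintype G := Fintype.ofFinite G
  have hp : p.Prime := Fact.out
  apply isGeneralizedCharacter_of_elementary
  · intro g h
    have h1 : orderOf (h * g * h⁻¹) = orderOf g := by
      have : h * g * h⁻¹ = (MulAut.conj h) g := rfl
      rw [this, MulEquiv.orderOf_eq]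
    simp only [h1]
    rw [Cfsg.Agent.Lib.CharBasic.isClassFunction_of_isCharacter
      (Cfsg.Agent.Lib.CharBasic.IsIrrCharacter.isCharacter χ.2) g h]
  · intro E q hq hE
    haveI : Fact q.Prime := ⟨hq⟩
    letI : Fintype E := Fintype.ofFinite _
    haveI : Group.IsNilpotent E := Cfsg.Agent.Lib.Monomial.isNilpotent_of_isElementary hE
    obtain ⟨K, hKn, hK, j, hj⟩ := exists_reg_subgroup (E := E) p
    letI : Fintype K := Fintype.ofFinite _
    have hdvd : p ^ j ∣ Nat.card G := by
      rw [← hj]
      exact (Subgroup.index_dvd_card K).trans (Subgroup.card_subgroup_dvd_card E)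
    have hja : j ≤ (Nat.card G).factorization p :=
      (Nat.Prime.pow_dvd_iff_le_factorization hp Nat.card_pos.ne').mp hdvd
    obtain ⟨m, hm⟩ := pow_dvd_pow p hja
    have hχc := Cfsg.Agent.Lib.CharBasic.IsIrrCharacter.isCharacter χ.2
    have hc : IsCharacter E (m • (indFun K (fun _ => (1 : ℂ)) * (fun e : E => (χ : G → ℂ) e))) :=
      isCharacter_nsmul (isCharacter_mul (indFun_isCharacter K isCharacter_one)
        (isCharacter_restrict E hχc)) m
    have heq : (fun e : E => if p ∣ orderOf ((e : E) : G) then 0 else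
        ((p ^ (Nat.card G).factorization p : ℕ) : ℂ) * (χ : G → ℂ) e) =
        m • (indFun K (fun _ => (1 : ℂ)) * (fun e : E => (χ : G → ℂ) e)) := by
      funext e
      simp only [Pi.smul_apply, Pi.mul_apply, nsmul_eq_mul]
      rw [Subgroup.orderOf_coe]
      by_cases he : p ∣ orderOf e
      · rw [if_pos he, indFun_of_not_mem_normal K hKn _ (fun h => (hK e).mp h he)]
        simp
      · rw [if_neg he]
        have heK : e ∈ K := (hK e).mpr he
        have h1 := indFun_of_mem_normal K hKn (fun _ => (1 : ℂ)) ⟨e, heK⟩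
        have h2 : indFun K (fun _ => (1 : ℂ)) e = (p ^ j : ℕ) := by
          change indFun K (fun _ => (1 : ℂ)) ((⟨e, heK⟩ : K) : E) = _
          rw [h1]
          simp only [conjBy_apply, Finset.sum_const, Finset.card_univ, nsmul_eq_mul, mul_one]
          rw [← hj, Fintype.card_eq_nat_card]
          have h3 := Subgroup.card_mul_index K
          have h4 : (Nat.card K : ℂ) ≠ 0 := by exact_mod_cast Nat.card_pos.ne'
          rw [← h3]
          push_cast
          field_simp
        rw [h2, hm]
        push_cast
        ring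
    rw [heq]
    exact Cfsg.Agent.Lib.GenChar.isGen_of_isChar hc

end Cfsg.Agent.S0961
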