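import Mathlib
-- Template for statement S0963 (row 963; see /opt/grader/pristine/manifest.json for weights).
-- Copy to Cfsg/Agent/S0963.lean and replace the sorry. The statement below is byte-identical to the frozen
-- statement Cfsg.CfsgFrozen.S0963 (Cfsg/Statements/S0963.lean; the theorem Cfsg.constituent_of_restriction_iff_central_characters_agree);
-- the grader kernel-checks Cfsg.Agent.S0963.result against that frozen type. Keep the theorem IN THIS FILE
-- (a `result` declared elsewhere and merely imported here is not credited); helpers may live anywhere
-- under Cfsg/Agent/.
import Cfsg.Statements.S0963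
import Cfsg.Agent.Lib.BlkNormalSub

set_option autoImplicit false
open Cfsg

namespace Cfsg.Agent.S0963



/-- Let N be a normal subgroup of the finite group G, χ an irreducible character of G and θ an irreducible character of N. Then θ occurs in the restriction of χ to N if and only if, for every n ∈ N, the central character of χ at n (class size in G times χ n over χ 1) equals the sum of θ m / θ 1 over the elements m of N conjugate in G to n. -/
theorem result {G : Type*} [Group G] [Fintype G] (N : Subgroup G) [N.Normal] [Fintype N] (χ : Cfsg.IrrCharacter G) (θ : Cfsg.IrrCharacter N) : Cfsg.classInner (fun n : N => (χ : G → ℂ) n) (θ : N → ℂ) ≠ 0 ↔ ∀ n : N, Cfsg.centralChar (χ : G → ℂ) (n : G) = Cfsg.inducedCentralChar N (θ : N → ℂ) (n : G) := by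
---
  exact Cfsg.Agent.Lib.BlkNormalSub.constituent_iff inferInstance χ θ

end Cfsg.Agent.S0963
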