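import Mathlib
-- Template for statement S0964 (row 964; see /opt/grader/pristine/manifest.json for weights).
-- Copy to Cfsg/Agent/S0964.lean and replace the sorry. The statement below is byte-identical to the frozen
-- statement Cfsg.CfsgFrozen.S0964 (Cfsg/Statements/S0964.lean; the theorem Cfsg.block_constituents_lie_in_conjugate_blocks);
-- the grader kernel-checks Cfsg.Agent.S0964.result against that frozen type. Keep the theorem IN THIS FILE
-- (a `result` declared elsewhere and merely imported here is not credited); helpers may live anywhere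
-- under Cfsg/Agent/.
import Cfsg.Statements.S0964
import Cfsg.Agent.Lib.BlkNormalSub

set_option autoImplicit false
open Cfsg

namespace Cfsg.Agent.S0964

open Cfsg.Agent.Lib.BlkNormalSub in

/-- Let N be a normal subgroup of the finite group G, B a block of G and b a block of N relative to a maximal ideal M of the algebraic integers containing the prime p. Suppose some χ ∈ B has a constituent θ ∈ b on restriction to N. Then for every χ' ∈ B and every constituent ψ of the restriction of χ' to N there are g ∈ G and θ' ∈ b with ψ n = θ' (g n g⁻¹) for all n ∈ N. -/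
theorem result {G : Type*} [Group G] [Fintype G] (p : ℕ) [Fact p.Prime] (M : Ideal Cfsg.AlgInt) (hM : Cfsg.IsPModular p M) (N : Subgroup G) [hN : N.Normal] [Fintype N] (B : Set (Cfsg.IrrCharacter G)) (hB : Cfsg.IsPBlock M B) (b : Set (Cfsg.IrrCharacter N)) (hb : Cfsg.IsPBlock M b) (χ : Cfsg.IrrCharacter G) (hχ : χ ∈ B) (θ : Cfsg.IrrCharacter N) (hθ : θ ∈ b) (hcon : Cfsg.classInner (fun n : N => (χ : G → ℂ) n) (θ : N → ℂ) ≠ 0) (χ' : Cfsg.IrrCharacter G) (hχ' : χ' ∈ B) (ψ : Cfsg.IrrCharacter N) (hψ : Cfsg.classInner (fun n : N => (χ' : G → ℂ) n) (ψ : N → ℂ) ≠ 0) : ∃ g : G, ∃ θ' ∈ b, ∀ n : N, (ψ : N → ℂ) n = (θ' : N → ℂ) ⟨g * n * g⁻¹, hN.conj_mem n n.2 g⟩ := by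
  haveI := hM.2.1.isPrime
  obtain ⟨χ₀, rfl⟩ := id hB
  obtain ⟨θ₀, rfl⟩ := id hb
  have h1 : ∀ n : N, Cfsg.MemLocalIdeal M (Cfsg.centralChar (χ' : G → ℂ) (n : G) -
      Cfsg.inducedCentralChar N (θ : N → ℂ) (n : G)) := fun n =>
    memLocalIdeal_of_covers hN (Cfsg.Agent.Lib.BlockIdem.sameBlock_refl _ ) (Cfsg.Agent.Lib.BlockIdem.sameBlock_refl _) 
      hcon n |> fun h2 => by
        have h3 := Cfsg.Agent.Lib.BlockIdem.sameBlock_trans (Cfsg.Agent.Lib.BlockIdem.sameBlock_symm hχ) hχ' (n : G)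
        have h4 := Cfsg.Agent.Lib.BlockLocal.memLocalIdeal_sub_comm h3
        exact Cfsg.Agent.Lib.BlockLocal.memLocalIdeal_sub_trans h4 h2
  obtain ⟨g, hg⟩ := mem_orbitSet_of_congr hN (blockClosed_of_isPBlock (⟨θ₀, rfl⟩ : Cfsg.IsPBlock M (Cfsg.blockOf M (θ₀ : N → ℂ)))) hθ h1 hψ
  refine ⟨g⁻¹, _, hg, fun n => ?_⟩
  rw [conjIrr_coe, Cfsg.Agent.Lib.CharInduction.conjBy_apply]
  apply congrArg
  ext
  simp [mul_assoc]

end Cfsg.Agent.S0964
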