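import Mathlib
-- Template for statement S0965 (row 965; see /opt/grader/pristine/manifest.json for weights).
-- Copy to Cfsg/Agent/S0965.lean and replace the sorry. The statement below is byte-identical to the frozen
-- statement Cfsg.CfsgFrozen.S0965 (Cfsg/Statements/S0965.lean; the theorem Cfsg.passman_covering_criterion);
-- the grader kernel-checks Cfsg.Agent.S0965.result against that frozen type. Keep the theorem IN THIS FILE
-- (a `result` declared elsewhere and merely imported here is not credited); helpers may live anywhere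
-- under Cfsg/Agent/.
import Cfsg.Statements.S0965
import Cfsg.Agent.Lib.BlkNormalSub

set_option autoImplicit false
open Cfsg

namespace Cfsg.Agent.S0965

open Cfsg.Agent.Lib.BlkNormalSub in

/-- Let N be a normal subgroup of the finite group G and let B, b be blocks of G and of N relative to a maximal ideal M of the algebraic integers containing the prime p. Then some χ ∈ B has a constituent in b on restriction to N if and only if, for all χ ∈ B, θ ∈ b and n ∈ N, the central character of χ at n is congruent modulo the local ideal at M to the sum of θ m / θ 1 over the elements m ∈ N conjugate in G to n. -/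
theorem result {G : Type*} [Group G] [Fintype G] (p : ℕ) [Fact p.Prime] (M : Ideal Cfsg.AlgInt) (hM : Cfsg.IsPModular p M) (N : Subgroup G) [N.Normal] [Fintype N] (B : Set (Cfsg.IrrCharacter G)) (hB : Cfsg.IsPBlock M B) (b : Set (Cfsg.IrrCharacter N)) (hb : Cfsg.IsPBlock M b) : (∃ χ ∈ B, ∃ θ ∈ b, Cfsg.classInner (fun n : N => (χ : G → ℂ) n) (θ : N → ℂ) ≠ 0) ↔ ∀ χ ∈ B, ∀ θ ∈ b, ∀ n : N, Cfsg.MemLocalIdeal M (Cfsg.centralChar (χ : G → ℂ) (n : G) - Cfsg.inducedCentralChar N (θ : N → ℂ) (n : G)) := by
  haveI := hM.2.1.isPrime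
  have hN : N.Normal := inferInstance
  constructor
  · rintro ⟨χ₀, hχ₀, θ₀, hθ₀, hc⟩ χ hχ θ hθ n
    obtain ⟨χ', rfl⟩ := id hB
    obtain ⟨θ', rfl⟩ := id hb
    refine memLocalIdeal_of_covers hN ?_ ?_ hc n
    · exact Cfsg.Agent.Lib.BlockIdem.sameBlock_trans (Cfsg.Agent.Lib.BlockIdem.sameBlock_symm hχ₀) hχ
    · exact Cfsg.Agent.Lib.BlockIdem.sameBlock_trans (Cfsg.Agent.Lib.BlockIdem.sameBlock_symm hθ₀) hθ
  · intro h
    obtain ⟨χ, rfl⟩ := id hB
    obtain ⟨θ, rfl⟩ := id hb
    have hχ := Cfsg.Agent.Lib.BlockIdem.mem_blockOf_self (M := M) χ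
    have hθ := Cfsg.Agent.Lib.BlockIdem.mem_blockOf_self (M := M) θ
    obtain ⟨ψ, hψ⟩ := exists_constituent (N := N) χ
    have h1 := mem_orbitSet_of_congr hN (blockClosed_of_isPBlock hb) hθ (h χ hχ θ hθ) hψ
    obtain ⟨g, hg⟩ := h1
    exact ⟨χ, hχ, _, hg, constituent_conjIrr hN χ ψ g hψ⟩

end Cfsg.Agent.S0965
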