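import Mathlib
-- Template for statement S0967 (row 967; see /opt/grader/pristine/manifest.json for weights).
-- Copy to Cfsg/Agent/S0967.lean and replace the sorry. The statement below is byte-identical to the frozen
-- statement Cfsg.CfsgFrozen.S0967 (Cfsg/Statements/S0967.lean; the theorem Cfsg.block_of_inflated_character_over_normal_p_prime_subgroup);
-- the grader kernel-checks Cfsg.Agent.S0967.result against that frozen type. Keep the theorem IN THIS FILE
-- (a `result` declared elsewhere and merely imported here is not credited); helpers may live anywhere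
-- under Cfsg/Agent/.
import Cfsg.Statements.S0967
import Cfsg.Agent.Lib.BlkQuot

set_option autoImplicit false
open Cfsg

namespace Cfsg.Agent.S0967

open Cfsg.Agent.Lib.BlkNormalSub Cfsg.Agent.Lib.BlkQuot in

/-- Let N be a normal subgroup of the finite group G of order prime to p and fix a maximal ideal M of the algebraic integers containing p. If χ is an irreducible character of G ⧸ N and ψ lies in the block of its inflation χ ∘ (quotient map), then ψ is itself inflated from an irreducible character ψ' of G ⧸ N lying in the block of χ. (Over a normal p'-subgroup, blocks of the quotient are whole blocks of G.) -/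
theorem result {G : Type*} [Group G] [Finite G] (p : ℕ) [Fact p.Prime] (M : Ideal Cfsg.AlgInt) (hM : Cfsg.IsPModular p M) (N : Subgroup G) [N.Normal] (hN : ¬ p ∣ Nat.card N) (χ : Cfsg.IrrCharacter (G ⧸ N)) (ψ : Cfsg.IrrCharacter G) (hψ : ψ ∈ Cfsg.blockOf M ((χ : G ⧸ N → ℂ) ∘ QuotientGroup.mk)) : ∃ ψ' : Cfsg.IrrCharacter (G ⧸ N), (ψ : G → ℂ) = (ψ' : G ⧸ N → ℂ) ∘ QuotientGroup.mk ∧ Cfsg.SameBlock M (χ : G ⧸ N → ℂ) (ψ' : G ⧸ N → ℂ) := by
  classical
  haveI := hM.2.1.isPrime
  letI : Fintype G := Fintype.ofFinite G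
  letI : Fintype N := Fintype.ofFinite N
  have hNn : N.Normal := inferInstance
  have h1 : Cfsg.classInner (fun n : N => (infl N χ : G → ℂ) n) (oneIrr N : _ → ℂ) ≠ 0 := by
    refine constituent_one_of_forall (infl N χ) fun n => ?_
    rw [infl_apply, infl_apply]
    apply congrArg
    exact (QuotientGroup.eq_one_iff _).mpr n.2
  have hsb : Cfsg.SameBlock M (infl N χ : G → ℂ) (ψ : G → ℂ) := hψ
  have h2 := constituent_of_sameBlock_of_coprime hM hNn hN hsb h1
  have h3 := eq_of_constituent_one hNn ψ h2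
  obtain ⟨ψ₀, hψ₀, hψe⟩ := Cfsg.Agent.Lib.CharKernel.exists_quotient_irr N ψ.2 (fun n hn => h3 ⟨n, hn⟩)
  have hψeq : (ψ : G → ℂ) = ((⟨ψ₀, hψ₀⟩ : Cfsg.IrrCharacter (G ⧸ N)) : G ⧸ N → ℂ) ∘ QuotientGroup.mk := by
    funext g
    exact (hψe g).symm
  refine ⟨⟨ψ₀, hψ₀⟩, hψeq, ?_⟩
  apply sameBlock_of_infl_coprime N hM hN
  have h4 : (infl N ⟨ψ₀, hψ₀⟩ : G → ℂ) = (ψ : G → ℂ) := hψeq.symm
  rw [h4]
  exact hsb

end Cfsg.Agent.S0967
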