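import Mathlib
-- Template for statement S0968 (row 968; see /opt/grader/pristine/manifest.json for weights).
-- Copy to Cfsg/Agent/S0968.lean and replace the sorry. The statement below is byte-identical to the frozen
-- statement Cfsg.CfsgFrozen.S0968 (Cfsg/Statements/S0968.lean; the theorem Cfsg.block_with_defect_group_p_when_p_central_mod_centralizer);
-- the grader kernel-checks Cfsg.Agent.S0968.result against that frozen type. Keep the theorem IN THIS FILE
-- (a `result` declared elsewhere and merely imported here is not credited); helpers may live anywhere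
-- under Cfsg/Agent/.
import Cfsg.Statements.S0968
import Cfsg.Agent.Lib.BlkCentralProd

set_option autoImplicit false
open Cfsg

namespace Cfsg.Agent.S0968

open Cfsg.Agent.Lib.BlkCentralProd Cfsg.Agent.Lib.BlkNormalSub Cfsg.Agent.Lib.BlockIdem Cfsg.Agent.Lib.BlockDefect


/-- Let P be a p-subgroup of the finite group G with P ⊔ C_G(P) = G, and let B be a block with defect group P relative to a maximal ideal M of the algebraic integers containing p. Then there is exactly one θ ∈ B with θ x = θ 1 for all x ∈ P; for this θ the exponent of p in θ(1) equals the exponent of p in the index of P; and the number of members of B equals the number of conjugacy classes of P. -/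
theorem result {G : Type*} [Group G] [Finite G] (p : ℕ) [Fact p.Prime] (M : Ideal Cfsg.AlgInt) (hM : Cfsg.IsPModular p M) (P : Subgroup G) (hP : IsPGroup p P) (hG : P ⊔ Subgroup.centralizer (P : Set G) = ⊤) (B : Set (Cfsg.IrrCharacter G)) (hB : Cfsg.IsPBlock M B) (hD : Cfsg.IsDefectGroup p M B P) : (∃! θ : Cfsg.IrrCharacter G, θ ∈ B ∧ ∀ x ∈ P, (θ : G → ℂ) x = (θ : G → ℂ) 1) ∧ (∀ θ ∈ B, (∀ x ∈ P, (θ : G → ℂ) x = (θ : G → ℂ) 1) → (Cfsg.charDegree (θ : G → ℂ)).factorization p = P.index.factorization p) ∧ Nat.card B = Nat.card (ConjClasses P) := by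
  classical
  letI : Fintype G := Fintype.ofFinite G
  letI : Fintype P := Fintype.ofFinite _
  letI : Fintype (Subgroup.centralizer (P : Set G)) := Fintype.ofFinite _
  have hPr := hM.2.1.isPrime
  have hpp : p.Prime := hM.1
  have hPC : ∀ a ∈ P, ∀ c ∈ Subgroup.centralizer (P : Set G), a * c = c * a :=
    fun a ha c hc => Subgroup.mem_centralizer_iff.mp hc a ha
  have hCP : ∀ a ∈ Subgroup.centralizer (P : Set G), ∀ c ∈ P, a * c = c * a :=
    fun a ha c hc => (hPC c hc a ha).symm
  have hG' : Subgroup.centralizer (P : Set G) ⊔ P = ⊤ := by rw [sup_comm]; exact hG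
  have hPn : P.Normal := normal_of_commute_sup hPC hG
  have hCn : (Subgroup.centralizer (P : Set G)).Normal := normal_of_commute_sup hCP hG'
  have heq : ∀ {χ₁ χ₂ : Cfsg.IrrCharacter G} (_ : χ₁ ∈ B) (_ : χ₂ ∈ B) {μ : Cfsg.IrrCharacter P},
      Cfsg.classInner (fun n : P => (χ₁ : G → ℂ) n) (μ : P → ℂ) ≠ 0 →
      Cfsg.classInner (fun n : P => (χ₂ : G → ℂ) n) (μ : P → ℂ) ≠ 0 → χ₁ = χ₂ :=
    fun h₁ h₂ _ hμ₁ hμ₂ => eq_of_constituent hM hP hPC hG hPn hCn hB hD h₁ h₂ hμ₁ hμ₂
  refine ⟨?_, ?_, ?_⟩
  · obtain ⟨θ, hθ, hc⟩ := exists_mem_constituent hM hP hB (oneIrr P)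
    refine ⟨θ, ⟨hθ, fun x hx => eq_of_constituent_one hPn θ hc ⟨x, hx⟩⟩, ?_⟩
    rintro θ' ⟨hθ', h⟩
    exact heq hθ' hθ (constituent_one_of_forall θ' (fun n => h n n.2)) hc
  · intro θ hθ h
    have hdvd : Cfsg.charDegree (θ : G → ℂ) ∣ P.index := by
      obtain ⟨χ', hχ', hval⟩ := Cfsg.Agent.Lib.CharKernel.exists_quotient_irr P θ.2 h
      have h1 := Cfsg.Agent.Lib.CharKernel.charDegree_dvd_card hχ'
      have h2 : Cfsg.charDegree χ' = Cfsg.charDegree (θ : G → ℂ) := by
        unfold Cfsg.charDegree
        have := hval 1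
        simp only [QuotientGroup.mk_one] at this
        rw [this]
      rw [h2] at h1
      exact h1
    have hidx : P.index ≠ 0 := Subgroup.index_ne_zero_of_finite
    have hdeg0 : Cfsg.charDegree (θ : G → ℂ) ≠ 0 := Cfsg.Agent.Lib.CharKernel.charDegree_pos θ.2 |>.ne'
    have hup : (Cfsg.charDegree (θ : G → ℂ)).factorization p ≤ P.index.factorization p :=
      (Nat.factorization_le_iff_dvd hdeg0 hidx).mpr hdvd p
    have hcard := card_isDefectGroup hM hB hD
    have hf : (Nat.card P).factorization p = Cfsg.blockDefect p B := by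
      rw [hcard, hpp.factorization_pow]
      simp
    have hmul : (Nat.card P * P.index).factorization p = (Nat.card G).factorization p := by
      rw [Subgroup.card_mul_index]
    rw [Nat.factorization_mul Nat.card_pos.ne' hidx, Finsupp.add_apply, hf] at hmul
    have hsInf : sInf ((fun χ : Cfsg.IrrCharacter G => (Cfsg.charDegree (χ : G → ℂ)).factorization p) '' B) ≤
        (Cfsg.charDegree (θ : G → ℂ)).factorization p := Nat.sInf_le ⟨θ, hθ, rfl⟩
    have hdef : Cfsg.blockDefect p B = (Nat.card G).factorization p -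
        sInf ((fun χ : Cfsg.IrrCharacter G => (Cfsg.charDegree (χ : G → ℂ)).factorization p) '' B) := rfl
    omega
  · let f : B → Cfsg.IrrCharacter P := fun χ => Classical.choose (exists_constituent (N := P) χ.1)
    have hf : ∀ χ : B, Cfsg.classInner (fun n : P => (χ.1 : G → ℂ) n) (f χ : P → ℂ) ≠ 0 :=
      fun χ => Classical.choose_spec (exists_constituent (N := P) χ.1)
    have hbij : Function.Bijective f := by
      constructor
      · intro χ₁ χ₂ h
        apply Subtype.ext
        have h1 := hf χ₁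
        have h2 := hf χ₂
        rw [← h] at h2
        exact heq χ₁.2 χ₂.2 h1 h2
      · intro μ
        obtain ⟨χ, hχ, hc⟩ := exists_mem_constituent hM hP hB μ
        refine ⟨⟨χ, hχ⟩, ?_⟩
        apply Subtype.ext
        exact constituent_unique hPC hG hPn χ.2 μ.2 (f ⟨χ, hχ⟩).2 hc (hf ⟨χ, hχ⟩)
    rw [Nat.card_congr (Equiv.ofBijective f hbij)]
    exact Cfsg.Agent.Lib.CharInd.card_irr_eq_card_conjClasses

end Cfsg.Agent.S0968
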