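import Mathlib
-- Template for statement S0970 (row 970; see /opt/grader/pristine/manifest.json for weights).
-- Copy to Cfsg/Agent/S0970.lean and replace the sorry. The statement below is byte-identical to the frozen
-- statement Cfsg.CfsgFrozen.S0970 (Cfsg/Statements/S0970.lean; the theorem Cfsg.fong_defect_group_of_block_covering_invariant_block);
-- the grader kernel-checks Cfsg.Agent.S0970.result against that frozen type. Keep the theorem IN THIS FILE
-- (a `result` declared elsewhere and merely imported here is not credited); helpers may live anywhere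
-- under Cfsg/Agent/.
import Cfsg.Statements.S0970
import Cfsg.Agent.Lib.BlkFong

set_option autoImplicit false
open Cfsg

namespace Cfsg.Agent.S0970

open Cfsg.Agent.Lib.BlkFong Cfsg.Agent.Lib.BlkNormalSub Cfsg.Agent.Lib.BlockIdem Cfsg.Agent.Lib.BlockDefect
open Cfsg.Agent.Lib.BlockLocal Cfsg.Agent.Lib.BrauerPair Cfsg.Agent.Lib.BlkSylow Cfsg.Agent.Lib.CharInduction


/-- Let N be a normal subgroup of the finite group G and fix a maximal ideal M of the algebraic integers containing the prime p. Let b be a block of N that is invariant under conjugation by G, and B a block of G covering b (some χ ∈ B has a constituent in b) whose defect is at least that of every block covering b. If P is a defect group of B, then p does not divide the index of P ⊔ N, the subgroup P ∩ N of N is a defect group of b, and the defect of B equals the defect of b plus the exponent of p in the index of N. -/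
theorem result {G : Type*} [Group G] [Fintype G] (p : ℕ) [Fact p.Prime] (M : Ideal Cfsg.AlgInt) (hM : Cfsg.IsPModular p M) (N : Subgroup G) [hN : N.Normal] [Fintype N] (b : Set (Cfsg.IrrCharacter N)) (hb : Cfsg.IsPBlock M b) (hinv : ∀ g : G, ∀ θ ∈ b, ∀ θ' : Cfsg.IrrCharacter N, (∀ n : N, (θ' : N → ℂ) n = (θ : N → ℂ) ⟨g * n * g⁻¹, hN.conj_mem n n.2 g⟩) → θ' ∈ b) (B : Set (Cfsg.IrrCharacter G)) (hB : Cfsg.IsPBlock M B) (hcov : ∃ χ ∈ B, ∃ θ ∈ b, Cfsg.classInner (fun n : N => (χ : G → ℂ) n) (θ : N → ℂ) ≠ 0) (hmax : ∀ B' : Set (Cfsg.IrrCharacter G), Cfsg.IsPBlock M B' → (∃ χ ∈ B', ∃ θ ∈ b, Cfsg.classInner (fun n : N => (χ : G → ℂ) n) (θ : N → ℂ) ≠ 0) → Cfsg.blockDefect p B' ≤ Cfsg.blockDefect p B) (P : Subgroup G) (hP : Cfsg.IsDefectGroup p M B P) : ¬ p ∣ (P ⊔ N).index ∧ Cfsg.IsDefectGroup p M b ((P ⊓ N).subgroupOf N) ∧ Cfsg.blockDefect p B = Cfsg.blockDefect p b + N.index.factorization p := by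
  classical
  haveI hPr : M.IsPrime := hM.2.1.isPrime
  have hpp : p.Prime := hM.1
  have hS : Stable N hN b := fun g ψ hψ => hinv g ψ hψ (conjIrr N hN g ψ) (fun n => rfl)
  obtain ⟨χ, hχB, θ, hθb, hcχ⟩ := hcov
  have hχcov : χ ∈ Cov (G := G) b := ⟨θ, hθb, hcχ⟩
  obtain ⟨g, hga, hgχ⟩ : ∃ g : N, ¬ Cfsg.MemLocalIdeal M (Cfsg.blockCoeff b g) ∧
      ¬ Cfsg.MemLocalIdeal M (Cfsg.centralChar (χ : G → ℂ) (g : G)) := by
    by_contra hcon
    push Not at hcon
    have hom := omega_ext0_eq_blkInd hS χ
    rw [Cfsg.Agent.Lib.BlkBasic.blkInd_of_mem hχcov] at hom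
    letI : Fintype (ConjClasses G) := Fintype.ofFinite _
    rw [omega_eq_sum_classes χ (ginv_blockCoeff hS).ext0] at hom
    apply not_memLocalIdeal_one (M := M)
    rw [← hom]
    refine memLocalIdeal_sum _ _ fun K _ => ?_
    by_cases hK : Quotient.out K ∈ N
    · rw [ext0_of_mem N _ hK]
      by_cases h1 : Cfsg.MemLocalIdeal M (Cfsg.blockCoeff b ⟨_, hK⟩)
      · exact memLocalIdeal_mul_right h1 (memLocalRing_of_isIntegral (isIntegral_centralChar χ _))
      · exact memLocalIdeal_mul_left (memLocalRing_blockCoeff hb _) (hcon ⟨_, hK⟩ h1)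
    · rw [ext0_of_not_mem N _ hK, zero_mul]
      exact memLocalIdeal_zero
  have hkey := key_of_centralChar hM hb hS hθb hcχ g hgχ
  -- a block in the covering set
  have hcoeff : ¬ Cfsg.MemLocalIdeal M (Cfsg.blockCoeff (Cov (G := G) b) (g : G)) := by
    rw [blockCoeff_cov hS, ext0_coe]
    exact hga
  obtain ⟨F, hFsub, hFc⟩ := exists_block_coeff (cov_closed hb hS) hcoeff
  have hFclass : Cfsg.IsDefectClass M F.1 (g : G) :=
    ⟨memLocalRing_blockCoeff F.2 _, hFc, fun χ' h => hkey.2.2 χ' (hFsub h)⟩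
  obtain ⟨S₀⟩ : Nonempty (Sylow p (Subgroup.centralizer ({(g : G)} : Set G))) := inferInstance
  have hFD : Cfsg.IsDefectGroup p M F.1 ((S₀ : Subgroup (Subgroup.centralizer ({(g : G)} : Set G))).map
      (Subgroup.centralizer ({(g : G)} : Set G)).subtype) := ⟨g, hFclass, S₀, rfl⟩
  have hle : Cfsg.blockDefect p F.1 ≤ Cfsg.blockDefect p B := by
    apply hmax F.1 F.2
    obtain ⟨χ₁, h₁⟩ := F.2
    have h₂ : χ₁ ∈ F.1 := by
      rw [h₁]
      exact mem_blockOf_self χ₁
    obtain ⟨θ₁, h₃, h₄⟩ := hFsub h₂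
    exact ⟨χ₁, h₂, θ₁, h₃, h₄⟩
  have hcardF := card_isDefectGroup hM F.2 hFD
  have hcardB := card_isDefectGroup hM hB hP
  have hPp : IsPGroup p P := isPGroup_of_card hcardB
  obtain ⟨t, ht⟩ := IsDefectGroup.exists_conj_le hM hB hP hχB hgχ (leDefect_of_sylow (g : G) S₀)
  have heq : P.map (MulAut.conj t).toMonoidHom = (S₀ : Subgroup (Subgroup.centralizer ({(g : G)} : Set G))).map
      (Subgroup.centralizer ({(g : G)} : Set G)).subtype := by
    apply Subgroup.eq_of_le_of_card_ge ht
    rw [Cfsg.Agent.Lib.BlkSylow.card_map_conj, hcardF, hcardB]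
    exact Nat.pow_le_pow_right hpp.pos hle
  -- the conjugate element
  obtain ⟨u, hu⟩ : ∃ u : G, u = t⁻¹ := ⟨_, rfl⟩
  let g' : N := conjAut N hN u g
  have hg'val : (g' : G) = u * g * u⁻¹ := rfl
  have hPeq : P = ((S₀ : Subgroup (Subgroup.centralizer ({(g : G)} : Set G))).map
      (Subgroup.centralizer ({(g : G)} : Set G)).subtype).map (MulAut.conj u).toMonoidHom := by
    rw [← heq, Cfsg.Agent.Lib.BlkSylow.map_conj_mul, hu, inv_mul_cancel, Cfsg.Agent.Lib.BlkSylow.map_conj_one]
  have hPC : P ≤ Subgroup.centralizer ({(g' : G)} : Set G) := by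
    rw [hg'val, ← Cfsg.Agent.Lib.BlkSylow.centralizer_map_conj, hPeq]
    apply Subgroup.map_mono
    exact Subgroup.map_subtype_le _
  have hCcard : Nat.card (Subgroup.centralizer ({(g' : G)} : Set G)) =
      Nat.card (Subgroup.centralizer ({(g : G)} : Set G)) := by
    rw [hg'val, ← Cfsg.Agent.Lib.BlkSylow.centralizer_map_conj, Cfsg.Agent.Lib.BlkSylow.card_map_conj]
  have hPcard : Nat.card P = p ^ (Nat.card (Subgroup.centralizer ({(g' : G)} : Set G))).factorization p := by
    rw [hCcard, hPeq, Cfsg.Agent.Lib.BlkSylow.card_map_conj,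
      Subgroup.card_map_of_injective Subtype.val_injective]
    exact Sylow.card_eq_multiplicity S₀
  have hga' : ¬ Cfsg.MemLocalIdeal M (Cfsg.blockCoeff b g') := by
    have h1 := ginv_blockCoeff hS u g
    have h2 : g' = ⟨u * g * u⁻¹, hN.conj_mem g g.2 u⟩ := rfl
    rw [h2, h1]
    exact hga
  have hgχ' : ¬ Cfsg.MemLocalIdeal M (Cfsg.centralChar (χ : G → ℂ) (g' : G)) := by
    rw [hg'val, centralChar_conj]
    exact hgχ
  have hkey' := key_of_centralChar hM hb hS hθb hcχ g' hgχ'
  obtain ⟨h1, h2⟩ := sup_inf_facts (K := N) hpp hPC hPcard hkey'.1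
  have hclass : Cfsg.IsDefectClass M b g' :=
    ⟨memLocalRing_blockCoeff hb _, hga', fun θ' h => hkey'.2.1 θ' h⟩
  -- the Sylow subgroup of the centralizer in `N`
  have hcent : Subgroup.centralizer ({g'} : Set N) =
      (Subgroup.centralizer ({(g' : G)} : Set G)).subgroupOf N := by
    ext y
    rw [Subgroup.mem_subgroupOf, Subgroup.mem_centralizer_singleton_iff,
      Subgroup.mem_centralizer_singleton_iff]
    constructor
    · intro h
      exact congrArg Subtype.val h
    · intro h
      exact Subtype.ext h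
  have hDle : (P ⊓ N).subgroupOf N ≤ Subgroup.centralizer ({g'} : Set N) := by
    rw [hcent]
    intro x hx
    exact Subgroup.mem_subgroupOf.mpr ((inf_le_left.trans hPC) (Subgroup.mem_subgroupOf.mp hx))
  have hDcard : Nat.card ((P ⊓ N).subgroupOf N) = Nat.card (P ⊓ N : Subgroup G) := by
    have h3 := Subgroup.subgroupOf_map_subtype (P ⊓ N) N
    calc Nat.card ((P ⊓ N).subgroupOf N) = Nat.card (((P ⊓ N).subgroupOf N).map N.subtype) :=
          (Subgroup.card_map_of_injective Subtype.val_injective).symm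
      _ = Nat.card (P ⊓ N ⊓ N : Subgroup G) := by rw [h3]
      _ = _ := by rw [inf_assoc, inf_idem]
  have hKcard : Nat.card (Subgroup.centralizer ({g'} : Set N)) =
      Nat.card (Subgroup.centralizer ({(g' : G)} : Set G) ⊓ N : Subgroup G) := by
    rw [hcent, ← Subgroup.subgroupOf_map_subtype, Subgroup.card_map_of_injective Subtype.val_injective]
  have hDp : IsPGroup p ((P ⊓ N).subgroupOf N) :=
    IsPGroup.comap_of_injective (hPp.to_le inf_le_left) N.subtype Subtype.val_injective
  have hnd : ¬ p ∣ ((P ⊓ N).subgroupOf N).relIndex (Subgroup.centralizer ({g'} : Set N)) := by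
    have h3 := relIndex_mul_card hDle
    have h0 : ((P ⊓ N).subgroupOf N).relIndex (Subgroup.centralizer ({g'} : Set N)) ≠ 0 := by
      intro h4
      rw [h4, zero_mul] at h3
      exact Nat.card_pos.ne' h3.symm
    have h4 : (((P ⊓ N).subgroupOf N).relIndex (Subgroup.centralizer ({g'} : Set N)) *
        Nat.card ((P ⊓ N).subgroupOf N)).factorization p =
        (Nat.card (Subgroup.centralizer ({g'} : Set N))).factorization p := by rw [h3]
    rw [Nat.factorization_mul h0 Nat.card_pos.ne', Finsupp.add_apply, hDcard, hKcard, h2] at h4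
    have h5 : (((P ⊓ N).subgroupOf N).relIndex (Subgroup.centralizer ({g'} : Set N))).factorization p = 0 := by
      omega
    intro h6
    have h7 := hpp.factorization_pos_of_dvd h0 h6
    omega
  obtain ⟨S', hS'⟩ := exists_sylow_of_isSylowIn (p := p) (P := (P ⊓ N).subgroupOf N)
    (K := Subgroup.centralizer ({g'} : Set N)) ⟨hDp, hDle, hnd⟩
  have hDdef : Cfsg.IsDefectGroup p M b ((P ⊓ N).subgroupOf N) := ⟨g', hclass, S', hS'.symm⟩
  refine ⟨h1, hDdef, ?_⟩
  have hcardD := card_isDefectGroup hM hb hDdef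
  rw [hDcard] at hcardD
  have hvD : (Nat.card (P ⊓ N : Subgroup G)).factorization p = Cfsg.blockDefect p b := by
    rw [hcardD, hpp.factorization_pow]
    simp
  have hvP : (Nat.card P).factorization p = Cfsg.blockDefect p B := by
    rw [hcardB, hpp.factorization_pow]
    simp
  have h3 : (Nat.card (P ⊔ N : Subgroup G) * Nat.card (P ⊓ N : Subgroup G)).factorization p =
      (Nat.card P * Nat.card N).factorization p := by rw [card_sup_mul_card_inf]
  rw [Nat.factorization_mul Nat.card_pos.ne' Nat.card_pos.ne', Nat.factorization_mul Nat.card_pos.ne' Nat.card_pos.ne',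
    Finsupp.add_apply, Finsupp.add_apply, hvD, hvP] at h3
  have h4 : (Nat.card (P ⊔ N : Subgroup G) * (P ⊔ N).index).factorization p = (Nat.card G).factorization p := by
    rw [Subgroup.card_mul_index]
  rw [Nat.factorization_mul Nat.card_pos.ne' Subgroup.index_ne_zero_of_finite, Finsupp.add_apply,
    Nat.factorization_eq_zero_of_not_dvd h1, add_zero] at h4
  have h5 : (Nat.card N * N.index).factorization p = (Nat.card G).factorization p := by
    rw [Subgroup.card_mul_index]
  rw [Nat.factorization_mul Nat.card_pos.ne' Subgroup.index_ne_zero_of_finite, Finsupp.add_apply] at h5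
  omega

end Cfsg.Agent.S0970
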