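import Mathlib
-- Template for statement S0971 (row 971; see /opt/grader/pristine/manifest.json for weights).
-- Copy to Cfsg/Agent/S0971.lean and replace the sorry. The statement below is byte-identical to the frozen
-- statement Cfsg.CfsgFrozen.S0971 (Cfsg/Statements/S0971.lean; the theorem Cfsg.induced_block_unique_cover_from_normal_p_subgroup_centralizer);
-- the grader kernel-checks Cfsg.Agent.S0971.result against that frozen type. Keep the theorem IN THIS FILE
-- (a `result` declared elsewhere and merely imported here is not credited); helpers may live anywhere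
-- under Cfsg/Agent/.
import Cfsg.Statements.S0971
import Cfsg.Agent.Lib.BlkNormalSub
import Cfsg.Agent.Lib.BlockNormal
import Cfsg.Agent.S0919

set_option autoImplicit false
open Cfsg

namespace Cfsg.Agent.S0971

open Cfsg.Agent.Lib.BlkNormalSub in

/-- Let Q be a normal p-subgroup of the finite group G, let N = Q ⊔ C_G(Q) (a normal subgroup) and let b be a block of N relative to a maximal ideal M of the algebraic integers containing p. Then b induces some block of G, and every block B of G containing a character whose restriction to N has a constituent in b is induced by b. -/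
theorem result {G : Type*} [Group G] [Fintype G] (p : ℕ) [Fact p.Prime] (M : Ideal Cfsg.AlgInt) (hM : Cfsg.IsPModular p M) (Q : Subgroup G) [Q.Normal] (hQ : IsPGroup p Q) [Fintype ↥(Q ⊔ Subgroup.centralizer (Q : Set G))] (b : Set (Cfsg.IrrCharacter ↥(Q ⊔ Subgroup.centralizer (Q : Set G)))) (hb : Cfsg.IsPBlock M b) : Cfsg.InducedBlockDefined M (Q ⊔ Subgroup.centralizer (Q : Set G)) b ∧ ∀ B : Set (Cfsg.IrrCharacter G), Cfsg.IsPBlock M B → (∃ χ ∈ B, ∃ θ ∈ b, Cfsg.classInner (fun n : ↥(Q ⊔ Subgroup.centralizer (Q : Set G)) => (χ : G → ℂ) n) (θ : ↥(Q ⊔ Subgroup.centralizer (Q : Set G)) → ℂ) ≠ 0) → Cfsg.IsInducedBlock M (Q ⊔ Subgroup.centralizer (Q : Set G)) b B := by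
  classical
  haveI := hM.2.1.isPrime
  have hQN : Q ≤ Q ⊔ Subgroup.centralizer (Q : Set G) := le_sup_left
  have hCN : Subgroup.centralizer (Q : Set G) ≤ Q ⊔ Subgroup.centralizer (Q : Set G) := le_sup_right
  have hNn : (Q ⊔ Subgroup.centralizer (Q : Set G)).Normal := by
    have hc : (Subgroup.centralizer (Q : Set G)).Normal := inferInstance
    exact Subgroup.sup_normal _ _
  refine ⟨?_, ?_⟩
  · have hHN : Q ⊔ Subgroup.centralizer (Q : Set G) ≤ Subgroup.normalizer (Q : Set G) := by
      have : Subgroup.normalizer (Q : Set G) = ⊤ := Subgroup.normalizer_eq_top_iff.mpr inferInstance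
      rw [this]
      exact le_top
    exact Cfsg.Agent.S0919.result p M hM Q _ hQ hQN hCN hHN b hb
  · rintro B hB ⟨χ, hχ, θ, hθ, hc⟩
    refine ⟨hb, hB, fun ξ hξ χ' hχ' g => ?_⟩
    obtain ⟨θ₀, rfl⟩ := id hb
    obtain ⟨χ₀, rfl⟩ := id hB
    have h1 : Cfsg.SameBlock M (χ : G → ℂ) (χ' : G → ℂ) :=
      Cfsg.Agent.Lib.BlockIdem.sameBlock_trans (Cfsg.Agent.Lib.BlockIdem.sameBlock_symm hχ) hχ'
    have h2 := Cfsg.Agent.Lib.BlockIdem.sameBlock_trans (Cfsg.Agent.Lib.BlockIdem.sameBlock_symm hθ) hξ
    by_cases hg : g ∈ Q ⊔ Subgroup.centralizer (Q : Set G)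
    · have := memLocalIdeal_of_covers hNn h1 h2 hc ⟨g, hg⟩
      have h3 := Cfsg.Agent.Lib.BlockLocal.memLocalIdeal_sub_comm this
      exact h3
    · have h3 : Cfsg.inducedCentralChar (Q ⊔ Subgroup.centralizer (Q : Set G)) (ξ : _ → ℂ) g = 0 := by
        rw [Cfsg.Agent.Lib.BlkBasic.inducedCentralChar_eq_sum]
        refine Finset.sum_eq_zero fun h _ => ?_
        rw [Cfsg.Agent.Lib.BlkBasic.classIndicator_of_not_conj]
        · simp
        · intro hcon
          obtain ⟨c, hc'⟩ := isConj_iff.mp hcon.symm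
          apply hg
          rw [← hc']
          exact hNn.conj_mem _ h.2 c
      rw [h3, zero_sub]
      refine Cfsg.Agent.Lib.BlockLocal.memLocalIdeal_neg ?_
      refine Cfsg.Agent.Lib.BlockNormal.memLocalIdeal_centralChar_of_not_mem Q hQ hM χ' g ?_
      exact fun h => hg (hCN h)

end Cfsg.Agent.S0971
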