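import Mathlib
-- Template for statement S0972 (row 972; see /opt/grader/pristine/manifest.json for weights).
-- Copy to Cfsg/Agent/S0972.lean and replace the sorry. The statement below is byte-identical to the frozen
-- statement Cfsg.CfsgFrozen.S0972 (Cfsg/Statements/S0972.lean; the theorem Cfsg.reynolds_normal_defect_group_abelian_iff_heights_zero);
-- the grader kernel-checks Cfsg.Agent.S0972.result against that frozen type. Keep the theorem IN THIS FILE
-- (a `result` declared elsewhere and merely imported here is not credited); helpers may live anywhere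
-- under Cfsg/Agent/.
import Cfsg.Statements.S0972
import Cfsg.Agent.Lib.BlkNormalDefect

set_option autoImplicit false
open Cfsg

namespace Cfsg.Agent.S0972

open Cfsg.Agent.Lib.BlkCentralProd Cfsg.Agent.Lib.BlkNormalDefect Cfsg.Agent.Lib.BlockDefect Cfsg.Agent.Lib.CharKernel Cfsg.Agent.Lib.BlockIdem


/-- Let B be a block of the finite group G (relative to a maximal ideal M of the algebraic integers containing the prime p) with a defect group P that is normal in G. Then P is commutative if and only if every member of B has height zero. -/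
theorem result {G : Type*} [Group G] [Finite G] (p : ℕ) [Fact p.Prime] (M : Ideal Cfsg.AlgInt) (hM : Cfsg.IsPModular p M) (B : Set (Cfsg.IrrCharacter G)) (hB : Cfsg.IsPBlock M B) (P : Subgroup G) [P.Normal] (hP : Cfsg.IsDefectGroup p M B P) : (∀ a ∈ P, ∀ c ∈ P, a * c = c * a) ↔ ∀ χ ∈ B, Cfsg.blockHeight p B (χ : G → ℂ) = 0 := by
  classical
  letI : Fintype G := Fintype.ofFinite G
  letI : Fintype P := Fintype.ofFinite _
  have hPr := hM.2.1.isPrime
  have hpp : p.Prime := hM.1
  have hcardP := card_isDefectGroup hM hB hP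
  have hPp : IsPGroup p P := isPGroup_of_card hcardP
  obtain ⟨χ₀, hχ₀⟩ : ∃ χ₀, χ₀ ∈ B := by
    obtain ⟨χ₀, rfl⟩ := hB
    exact ⟨χ₀, mem_blockOf_self χ₀⟩
  have hidx : P.index ≠ 0 := Subgroup.index_ne_zero_of_finite
  have hfP : (Nat.card P).factorization p = Cfsg.blockDefect p B := by
    rw [hcardP, hpp.factorization_pow]
    simp
  have hmul : (Nat.card P * P.index).factorization p = (Nat.card G).factorization p := by
    rw [Subgroup.card_mul_index]
  rw [Nat.factorization_mul Nat.card_pos.ne' hidx, Finsupp.add_apply, hfP] at hmul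
  have hdef : Cfsg.blockDefect p B = (Nat.card G).factorization p -
      sInf ((fun χ : Cfsg.IrrCharacter G => (Cfsg.charDegree (χ : G → ℂ)).factorization p) '' B) := rfl
  have hsχ : ∀ χ ∈ B, sInf ((fun χ : Cfsg.IrrCharacter G => (Cfsg.charDegree (χ : G → ℂ)).factorization p) '' B) ≤
      (Cfsg.charDegree (χ : G → ℂ)).factorization p := fun χ hχ => Nat.sInf_le ⟨χ, hχ, rfl⟩
  have hχ0le : (Cfsg.charDegree (χ₀ : G → ℂ)).factorization p ≤ (Nat.card G).factorization p :=
    (Nat.factorization_le_iff_dvd (charDegree_pos χ₀.2).ne' Nat.card_pos.ne').mpr (charDegree_dvd_card χ₀.2) p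
  have hs0 := hsχ χ₀ hχ₀
  have hh : ∀ χ : Cfsg.IrrCharacter G, Cfsg.blockHeight p B (χ : G → ℂ) =
      (Cfsg.charDegree (χ : G → ℂ)).factorization p -
      sInf ((fun χ : Cfsg.IrrCharacter G => (Cfsg.charDegree (χ : G → ℂ)).factorization p) '' B) := fun χ => rfl
  constructor
  · intro hcomm χ hχ
    have h1 : Cfsg.charDegree (χ : G → ℂ) ∣ P.index :=
      Cfsg.Agent.Lib.McKayTools.ito_dvd P (fun a b => Subtype.ext (hcomm a a.2 b b.2)) χ.2
    have h2 := (Nat.factorization_le_iff_dvd (charDegree_pos χ.2).ne' hidx).mpr h1 p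
    rw [hh]
    omega
  · intro hheight a ha c hc
    have h1 : ∀ μ : Cfsg.IrrCharacter P, Cfsg.charDegree (μ : P → ℂ) = 1 := by
      intro μ
      obtain ⟨χ, hχ, hcχ⟩ := exists_mem_constituent hM hPp hB μ
      have h2 := factorization_add_le hM (inferInstance : P.Normal) hP hχ μ hcχ
      have h3 := hheight χ hχ
      rw [hh] at h3
      have h4 : (Cfsg.charDegree (μ : P → ℂ)).factorization p = 0 := by omega
      have h5 := charDegree_dvd_card μ.2
      rw [hcardP] at h5
      obtain ⟨j, -, hj⟩ := (Nat.dvd_prime_pow hpp).mp h5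
      rw [hj, hpp.factorization_pow] at h4
      simp at h4
      rw [hj, h4, pow_zero]
    exact congrArg Subtype.val (comm_of_forall_degree hPp h1 ⟨a, ha⟩ ⟨c, hc⟩)

end Cfsg.Agent.S0972
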