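import Mathlib
-- Template for statement S0973 (row 973; see /opt/grader/pristine/manifest.json for weights).
-- Copy to Cfsg/Agent/S0973.lean and replace the sorry. The statement below is byte-identical to the frozen
-- statement Cfsg.CfsgFrozen.S0973 (Cfsg/Statements/S0973.lean; the theorem Cfsg.extended_first_main_theorem);
-- the grader kernel-checks Cfsg.Agent.S0973.result against that frozen type. Keep the theorem IN THIS FILE
-- (a `result` declared elsewhere and merely imported here is not credited); helpers may live anywhere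
-- under Cfsg/Agent/.
import Cfsg.Statements.S0973
import Cfsg.Agent.Lib.BlkExtFMT

set_option autoImplicit false
open Cfsg

namespace Cfsg.Agent.S0973

open Cfsg.Agent.Lib.BlkExtFMT in

/-- Let B be a block of the finite group G with defect group P (relative to a maximal ideal M of the algebraic integers containing p), and let L = P ⊔ C_G(P). Then (i) some block b of L with defect group P (viewed in L) induces B, and (ii) if b and b' are blocks of L both inducing B, there is n ∈ N_G(P) carrying b to b': for every θ ∈ b there is θ' ∈ b' with θ' x = θ (n x n⁻¹) for all x ∈ L. -/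
theorem result {G : Type*} [Group G] [Finite G] (p : ℕ) [Fact p.Prime] (M : Ideal Cfsg.AlgInt) (hM : Cfsg.IsPModular p M) (B : Set (Cfsg.IrrCharacter G)) (hB : Cfsg.IsPBlock M B) (P : Subgroup G) (hP : Cfsg.IsDefectGroup p M B P) : (∃ b : Set (Cfsg.IrrCharacter ↥(P ⊔ Subgroup.centralizer (P : Set G))), Cfsg.IsDefectGroup p M b (P.subgroupOf (P ⊔ Subgroup.centralizer (P : Set G))) ∧ Cfsg.IsInducedBlock M (P ⊔ Subgroup.centralizer (P : Set G)) b B) ∧ ∀ b b' : Set (Cfsg.IrrCharacter ↥(P ⊔ Subgroup.centralizer (P : Set G))), Cfsg.IsInducedBlock M (P ⊔ Subgroup.centralizer (P : Set G)) b B → Cfsg.IsInducedBlock M (P ⊔ Subgroup.centralizer (P : Set G)) b' B → ∃ n ∈ Subgroup.normalizer (P : Set G), ∀ θ ∈ b, ∃ θ' ∈ b', ∀ x : ↥(P ⊔ Subgroup.centralizer (P : Set G)), ∀ hx : n * (x : G) * n⁻¹ ∈ P ⊔ Subgroup.centralizer (P : Set G), (θ' : ↥(P ⊔ Subgroup.centralizer (P : Set G)) → ℂ) x = (θ : ↥(P ⊔ Subgroup.centralizer (P : Set G)) → ℂ) ⟨n * (x : G) * n⁻¹, hx⟩ := by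
  classical
  letI : Fintype G := Fintype.ofFinite G
  letI : Fintype (P ⊔ Subgroup.centralizer (P : Set G) : Subgroup G) := Fintype.ofFinite _
  have hPp : IsPGroup p P := by
    obtain ⟨g, -, S, rfl⟩ := hP
    exact (Cfsg.Agent.Lib.BlkSylow.isSylowIn_of_sylow S).1
  refine ⟨?_, fun b b' hb hb' => ?_⟩
  · obtain ⟨ξ, h1, h2⟩ := Cfsg.Agent.Lib.BlkFirst.exists_induced_of_isDefectGroup hM
      (H := P ⊔ Subgroup.centralizer (P : Set G)) le_sup_left le_sup_right le_normalizer_sup hB hP
    exact ⟨_, h2, h1⟩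
  · exact exists_conj_of_induced hM hPp hB hP le_normalizer_sup le_sup_right
      (fun n hn => mem_normalizer_sup hn) hb hb'

end Cfsg.Agent.S0973
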