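import Mathlib
import Cfsg.Statements.S0986
-- import your own Cfsg.Agent.* helpers here

set_option autoImplicit false
open Cfsg

namespace Cfsg.Agent.S0986

variable {G : Type*} [Group G] [Finite G] {p : ℕ} [Fact p.Prime]

theorem card_lt_of_lt' {H K : Subgroup G} (h : H < K) : Nat.card H < Nat.card K := by
  by_contra hcon
  have := Subgroup.eq_of_le_of_card_ge h.le (not_lt.1 hcon)
  exact h.ne this

/-- Normalizers grow in the Sylow subgroup `P`: some element of `P` outside `P ⊓ Q` normalizes `P ⊓ Q`. -/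
theorem exists_mem_normalizer_not_mem (P Q : Sylow p G) (hPQ : P ≠ Q) :
    ∃ x ∈ (P : Subgroup G), x ∈ Subgroup.normalizer (((P : Subgroup G) ⊓ (Q : Subgroup G) : Subgroup G) : Set G) ∧
      x ∉ (P : Subgroup G) ⊓ (Q : Subgroup G) := by
  set D := (P : Subgroup G) ⊓ (Q : Subgroup G) with hD
  have hnil : Group.IsNilpotent (P : Subgroup G) := P.isPGroup'.isNilpotent
  have hlt : D.subgroupOf (P : Subgroup G) < ⊤ := by
    rw [lt_top_iff_ne_top]
    intro htop
    have h1 : (P : Subgroup G) ≤ D := Subgroup.subgroupOf_eq_top.1 htop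
    have h2 : (P : Subgroup G) ≤ Q := h1.trans inf_le_right
    exact hPQ (Sylow.ext (P.is_maximal' Q.isPGroup' h2).symm)
  have hlt2 := Group.normalizerCondition_of_isNilpotent _ hlt
  obtain ⟨x, hx1, hx2⟩ := SetLike.exists_of_lt hlt2
  refine ⟨x.1, x.2, ?_, fun h => hx2 ((Subgroup.mem_subgroupOf).2 h)⟩
  rw [Subgroup.mem_normalizer_iff] at hx1 ⊢
  intro h
  constructor
  · intro hh
    have h1 : h ∈ (P : Subgroup G) := (inf_le_left : D ≤ _) hh
    have h2 := (hx1 ⟨h, h1⟩).1 ((Subgroup.mem_subgroupOf).2 hh)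
    exact (Subgroup.mem_subgroupOf).1 h2
  · intro hh
    have h1 : x.1 * h * x.1⁻¹ ∈ (P : Subgroup G) := (inf_le_left : D ≤ _) hh
    have h2 : h ∈ (P : Subgroup G) := by
      have h3 := (P : Subgroup G).mul_mem ((P : Subgroup G).mul_mem ((P : Subgroup G).inv_mem x.2) h1) x.2
      have h4 : x.1⁻¹ * (x.1 * h * x.1⁻¹) * x.1 = h := by group
      rwa [h4] at h3
    have h3 := (hx1 ⟨h, h2⟩).2 ((Subgroup.mem_subgroupOf).2 hh)
    exact (Subgroup.mem_subgroupOf).1 h3


/-- Let P and Q be distinct Sylow p-subgroups of a finite group G chosen so that the order of P ∩ Q is as large as possible among intersections of two distinct Sylow p-subgroups, and let N be the normalizer of P ∩ Q. Then N has more than one Sylow p-subgroup, any two distinct Sylow p-subgroups of N intersect exactly in P ∩ Q, and each Sylow p-subgroup of N lies in exactly one Sylow p-subgroup of G. -/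
theorem result {G : Type*} [Group G] [Finite G] (p : ℕ) [Fact p.Prime] (P Q : Sylow p G) (hPQ : P ≠ Q) (hmax : ∀ P' Q' : Sylow p G, P' ≠ Q' → Nat.card ↥((P' : Subgroup G) ⊓ (Q' : Subgroup G)) ≤ Nat.card ↥((P : Subgroup G) ⊓ (Q : Subgroup G))) : 1 < Nat.card (Sylow p ↥(Subgroup.normalizer (((P : Subgroup G) ⊓ (Q : Subgroup G) : Subgroup G) : Set G))) ∧ (∀ S T : Sylow p ↥(Subgroup.normalizer (((P : Subgroup G) ⊓ (Q : Subgroup G) : Subgroup G) : Set G)), S ≠ T → (S : Subgroup _) ⊓ (T : Subgroup _) = ((P : Subgroup G) ⊓ (Q : Subgroup G)).subgroupOf (Subgroup.normalizer (((P : Subgroup G) ⊓ (Q : Subgroup G) : Subgroup G) : Set G))) ∧ ∀ S : Sylow p ↥(Subgroup.normalizer (((P : Subgroup G) ⊓ (Q : Subgroup G) : Subgroup G) : Set G)), ∃! T : Sylow p G, (S : Subgroup _).map (Subgroup.normalizer (((P : Subgroup G) ⊓ (Q : Subgroup G) : Subgroup G) : Set G)).subtype ≤ (T : Subgroup G) := by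
  classical
  set D := (P : Subgroup G) ⊓ (Q : Subgroup G) with hD
  set N := Subgroup.normalizer ((D : Subgroup G) : Set G) with hN
  -- D is a p-group normal in N
  have hDp : IsPGroup p ↥(D.subgroupOf N) := by
    intro x
    obtain ⟨k, hk⟩ := P.isPGroup' ⟨x.1.1, (Subgroup.mem_inf.1 x.2).1⟩
    refine ⟨k, ?_⟩
    apply Subtype.ext
    apply Subtype.ext
    simpa using congrArg Subtype.val hk
  have hDn : (D.subgroupOf N).Normal := Subgroup.normal_in_normalizer
  have hDS : ∀ S : Sylow p ↥N, D.subgroupOf N ≤ (S : Subgroup ↥N) := fun S => by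
    haveI := hDn
    exact hDp.le_sylow_of_normal S
  -- images of Sylow subgroups of N
  let im : Sylow p ↥N → Subgroup G := fun S => (S : Subgroup ↥N).map N.subtype
  have himp : ∀ S : Sylow p ↥N, IsPGroup p ↥(im S) := fun S => S.isPGroup'.map N.subtype
  have hDim : ∀ S : Sylow p ↥N, D ≤ im S := by
    intro S x hx
    have hxN : x ∈ N := Subgroup.le_normalizer hx
    exact ⟨⟨x, hxN⟩, hDS S ((Subgroup.mem_subgroupOf).2 hx), rfl⟩
  have himc : ∀ S : Sylow p ↥N, Nat.card ↥(im S) = Nat.card (S : Subgroup ↥N) := fun S =>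
    Nat.card_congr (Subgroup.equivMapOfInjective _ _ N.subtype_injective).toEquiv.symm
  -- strictly larger than D
  have hbig : ∀ (R : Sylow p G), R ≠ Q ∧ R = P ∨ R = Q → True := fun _ _ => trivial
  have hPN : IsPGroup p ↥(((P : Subgroup G) ⊓ N).subgroupOf N) := by
    intro x
    obtain ⟨k, hk⟩ := P.isPGroup' ⟨x.1.1, (Subgroup.mem_inf.1 x.2).1⟩
    refine ⟨k, ?_⟩
    apply Subtype.ext
    apply Subtype.ext
    simpa using congrArg Subtype.val hk
  obtain ⟨x₀, hx₀P, hx₀N, hx₀D⟩ := exists_mem_normalizer_not_mem P Q hPQ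
  obtain ⟨S₀, hS₀⟩ := hPN.exists_le_sylow
  have hlt0 : Nat.card ↥D < Nat.card ↥(im S₀) := by
    refine card_lt_of_lt' (lt_of_le_of_ne (hDim S₀) ?_)
    intro heq
    apply hx₀D
    change x₀ ∈ D
    rw [heq]
    exact ⟨⟨x₀, hx₀N⟩, hS₀ ((Subgroup.mem_subgroupOf).2 ⟨hx₀P, hx₀N⟩), rfl⟩
  have hlt : ∀ S : Sylow p ↥N, Nat.card ↥D < Nat.card ↥(im S) := by
    intro S
    rw [himc S]
    have : Nat.card (S : Subgroup ↥N) = Nat.card (S₀ : Subgroup ↥N) := Nat.card_congr (Sylow.equiv S S₀).toEquiv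
    rw [this, ← himc S₀]
    exact hlt0
  -- two Sylow subgroups of G containing a large p-subgroup agree
  have huniq : ∀ (S : Sylow p ↥N) (T T' : Sylow p G), im S ≤ T → im S ≤ T' → T = T' := by
    intro S T T' h1 h2
    by_contra hne
    have h3 := hmax T T' hne
    have h4 : Nat.card ↥(im S) ≤ Nat.card ↥((T : Subgroup G) ⊓ (T' : Subgroup G)) :=
      Subgroup.card_le_of_le (le_inf h1 h2)
    have := hlt S
    omega
  refine ⟨?_, ?_, ?_⟩
  · -- more than one Sylow
    by_contra hcon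
    have hle : Nat.card (Sylow p ↥N) ≤ 1 := by omega
    have hone : Nat.card (Sylow p ↥N) = 1 := le_antisymm hle Nat.card_pos
    have hs : Subsingleton (Sylow p ↥N) := (Nat.card_eq_one_iff_unique.1 hone).1
    obtain ⟨T, hT⟩ := (himp S₀).exists_le_sylow
    -- P and Q both equal T
    have hQN : IsPGroup p ↥(((Q : Subgroup G) ⊓ N).subgroupOf N) := by
      intro x
      obtain ⟨k, hk⟩ := Q.isPGroup' ⟨x.1.1, (Subgroup.mem_inf.1 x.2).1⟩
      refine ⟨k, ?_⟩
      apply Subtype.ext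
      apply Subtype.ext
      simpa using congrArg Subtype.val hk
    have hPT : P = T := by
      by_contra hne
      have h3 := hmax P T hne
      have h4 : D ≤ (P : Subgroup G) ⊓ (T : Subgroup G) := le_inf inf_le_left ((hDim S₀).trans hT)
      have h5 : D ≠ (P : Subgroup G) ⊓ (T : Subgroup G) := by
        intro heq
        apply hx₀D
        change x₀ ∈ D
        rw [heq]
        refine ⟨hx₀P, hT ?_⟩
        exact ⟨⟨x₀, hx₀N⟩, hS₀ ((Subgroup.mem_subgroupOf).2 ⟨hx₀P, hx₀N⟩), rfl⟩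
      have h6 := card_lt_of_lt' (lt_of_le_of_ne h4 h5)
      omega
    have hQT : Q = T := by
      by_contra hne
      obtain ⟨y₀, hy₀Q, hy₀N, hy₀D⟩ := exists_mem_normalizer_not_mem Q P hPQ.symm
      have hcom : (Q : Subgroup G) ⊓ (P : Subgroup G) = D := inf_comm _ _
      rw [hcom] at hy₀N hy₀D
      obtain ⟨S₁, hS₁⟩ := hQN.exists_le_sylow
      have hS₁0 : S₁ = S₀ := Subsingleton.elim _ _
      subst hS₁0
      have h3 := hmax Q T hne
      have h4 : D ≤ (Q : Subgroup G) ⊓ (T : Subgroup G) := le_inf inf_le_right ((hDim S₁).trans hT)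
      have h5 : D ≠ (Q : Subgroup G) ⊓ (T : Subgroup G) := by
        intro heq
        apply hy₀D
        change y₀ ∈ D
        rw [heq]
        refine ⟨hy₀Q, hT ?_⟩
        exact ⟨⟨y₀, hy₀N⟩, hS₁ ((Subgroup.mem_subgroupOf).2 ⟨hy₀Q, hy₀N⟩), rfl⟩
      have h6 := card_lt_of_lt' (lt_of_le_of_ne h4 h5)
      omega
    exact hPQ (hPT.trans hQT.symm)
  · -- two distinct Sylow subgroups intersect exactly in D
    intro S S' hne
    apply le_antisymm
    swap
    · exact le_inf (hDS S) (hDS S')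
    obtain ⟨T, hT⟩ := (himp S).exists_le_sylow
    obtain ⟨T', hT'⟩ := (himp S').exists_le_sylow
    have hTne : T ≠ T' := by
      rintro rfl
      apply hne
      -- both S and S' lie in T ∩ N
      have hTN : IsPGroup p ↥((T : Subgroup G).subgroupOf N) := by
        intro x
        obtain ⟨k, hk⟩ := T.isPGroup' ⟨x.1.1, x.2⟩
        refine ⟨k, ?_⟩
        apply Subtype.ext
        apply Subtype.ext
        simpa using congrArg Subtype.val hk
      have hle1 : (S : Subgroup ↥N) ≤ (T : Subgroup G).subgroupOf N := by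
        intro x hx
        exact hT ⟨x, hx, rfl⟩
      have hle2 : (S' : Subgroup ↥N) ≤ (T : Subgroup G).subgroupOf N := by
        intro x hx
        exact hT' ⟨x, hx, rfl⟩
      have h1 := S.is_maximal' hTN hle1
      have h2 := S'.is_maximal' hTN hle2
      exact Sylow.ext (h1.symm.trans h2)
    have h3 := hmax T T' hTne
    have h4 : D ≤ (T : Subgroup G) ⊓ (T' : Subgroup G) := le_inf ((hDim S).trans hT) ((hDim S').trans hT')
    have h5 : D = (T : Subgroup G) ⊓ (T' : Subgroup G) := Subgroup.eq_of_le_of_card_ge h4 h3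
    rintro ⟨x, hxN⟩ ⟨hx1, hx2⟩
    rw [Subgroup.mem_subgroupOf, h5]
    exact ⟨hT ⟨_, hx1, rfl⟩, hT' ⟨_, hx2, rfl⟩⟩
  · intro S
    obtain ⟨T, hT⟩ := (himp S).exists_le_sylow
    exact ⟨T, hT, fun T' hT' => huniq S T' T hT' hT⟩

end Cfsg.Agent.S0986
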