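import Mathlib
import Cfsg.Statements.S0988
import Cfsg.Agent.Lib.SmallGroups2
import Cfsg.Agent.Lib.SmallGroups3
import Cfsg.Agent.Lib.SmallGroups4
import Cfsg.Agent.Lib.SmallGroups5
import Cfsg.Agent.Lib.BurnsidePQ
-- import your own Cfsg.Agent.* helpers here

set_option autoImplicit false
open Cfsg

namespace Cfsg.Agent.S0988

open Cfsg.Agent.Lib.SmallGroups2
open Cfsg.Agent.Lib.SmallGroups3
open Cfsg.Agent.Lib.SmallGroups4
open Cfsg.Agent.Lib.SmallGroups5
open Cfsg.Agent.Lib.BurnsidePQ
variable {G : Type*} [Group G] [Finite G] [IsSimpleGroup G]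

theorem not_minFac_cyclic (hG : ¬ IsMulCommutative G) {t : ℕ} [Fact t.Prime] (hd : t ∣ Nat.card G)
    (hmin : (Nat.card G).minFac = t) (Q : Sylow t G) (hQ : Nat.card (Q : Subgroup G) = t) : False := by
  have hc : IsCyclic (Q : Subgroup G) := isCyclic_of_prime_card hQ
  exact not_normalizer_le_centralizer hG hd Q (IsCyclic.normalizer_le_centralizer hmin hc)

theorem main_lt (hG : ¬ IsMulCommutative G) (p q r : ℕ) (hp : p.Prime) (hq : q.Prime) (hr : r.Prime)
    (hpq : p ≠ q) (hpr : p ≠ r) (hqr : q < r) (hcard : Nat.card G = p ^ 2 * q * r) : Nat.card G = 60 := by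
  classical
  haveI hfp : Fact p.Prime := ⟨hp⟩
  haveI hfq : Fact q.Prime := ⟨hq⟩
  haveI hfr : Fact r.Prime := ⟨hr⟩
  have hp2 := hp.two_le
  have hq2 := hq.two_le
  have hr2 := hr.two_le
  -- primes dividing the order
  have hprimes : ∀ f : ℕ, f.Prime → f ∣ Nat.card G → f = p ∨ f = q ∨ f = r := by
    intro f hf hd
    rw [hcard] at hd
    rcases (Nat.Prime.dvd_mul hf).1 hd with h1 | h1
    · rcases (Nat.Prime.dvd_mul hf).1 h1 with h2 | h2
      · left; exact (Nat.prime_dvd_prime_iff_eq hf hp).1 (hf.dvd_of_dvd_pow h2)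
      · right; left; exact (Nat.prime_dvd_prime_iff_eq hf hq).1 h2
    · right; right; exact (Nat.prime_dvd_prime_iff_eq hf hr).1 h1
  have hqdvd : q ∣ Nat.card G := by rw [hcard]; exact Dvd.dvd.mul_right (Dvd.intro_left _ rfl) r
  have hrdvd : r ∣ Nat.card G := by rw [hcard]; exact Dvd.intro_left _ rfl
  have hpdvd : p ∣ Nat.card G := by
    rw [hcard, mul_assoc]; exact Dvd.dvd.mul_right (dvd_pow_self p (by norm_num)) _
  have hG1 : Nat.card G ≠ 1 := by
    rw [hcard]
    intro h
    have : 2 ≤ p ^ 2 * q * r := by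
      have h1 : 1 ≤ p ^ 2 * q := Nat.mul_pos (pow_pos hp.pos 2) hq.pos
      nlinarith
    omega
  have hqco : ¬ q ∣ p ^ 2 * r := by
    intro h
    rcases (Nat.Prime.dvd_mul hq).1 h with h1 | h1
    · exact hpq ((Nat.prime_dvd_prime_iff_eq hq hp).1 (hq.dvd_of_dvd_pow h1)).symm
    · have := (Nat.prime_dvd_prime_iff_eq hq hr).1 h1
      omega
  have hrco : ¬ r ∣ p ^ 2 * q := by
    intro h
    rcases (Nat.Prime.dvd_mul hr).1 h with h1 | h1
    · exact hpr ((Nat.prime_dvd_prime_iff_eq hr hp).1 (hr.dvd_of_dvd_pow h1)).symm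
    · have := (Nat.prime_dvd_prime_iff_eq hr hq).1 h1
      omega
  have hpco : ¬ p ∣ q * r := by
    intro h
    rcases (Nat.Prime.dvd_mul hp).1 h with h1 | h1
    · exact hpq ((Nat.prime_dvd_prime_iff_eq hp hq).1 h1)
    · exact hpr ((Nat.prime_dvd_prime_iff_eq hp hr).1 h1)
  -- Step 1: p < q
  have hpltq : p < q := by
    by_contra hcon
    have hqltp : q < p := by omega
    obtain ⟨Q⟩ := (inferInstance : Nonempty (Sylow q G))
    have hQc : Nat.card (Q : Subgroup G) = q := by
      have h1 : Nat.card G = q ^ 1 * (p ^ 2 * r) := by rw [hcard]; ring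
      rw [sylow_card_of_card_eq h1 hqco Q, pow_one]
    refine not_minFac_cyclic hG hqdvd ?_ Q hQc
    have hfp' := Nat.minFac_prime hG1
    have hle := Nat.minFac_le_of_dvd hq2 hqdvd
    rcases hprimes _ hfp' (Nat.minFac_dvd _) with h | h | h
    · omega
    · exact h
    · omega
  have hqcard : ∀ S : Sylow q G, Nat.card (S : Subgroup G) = q := by
    intro S
    have h1 : Nat.card G = q ^ 1 * (p ^ 2 * r) := by rw [hcard]; ring
    rw [sylow_card_of_card_eq h1 hqco S, pow_one]
  -- Step 2: p = 2 and q = 3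
  obtain ⟨P⟩ := (inferInstance : Nonempty (Sylow p G))
  have hPc : Nat.card (P : Subgroup G) = p ^ 2 := by
    have h1 : Nat.card G = p ^ 2 * (q * r) := by rw [hcard]; ring
    exact sylow_card_of_card_eq h1 hpco P
  set N := Subgroup.normalizer ((P : Subgroup G) : Set G) with hN
  set C := Subgroup.centralizer ((P : Subgroup G) : Set G) with hC
  have hne : C.relIndex N ≠ 1 := by
    intro h1
    exact not_normalizer_le_centralizer hG hpdvd P (Subgroup.relIndex_eq_one.1 h1)
  obtain ⟨t, ht, htd⟩ := Nat.exists_prime_and_dvd hne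
  haveI hft : Fact t.Prime := ⟨ht⟩
  have hPcomm : IsMulCommutative (P : Subgroup G) := by
    letI := IsPGroup.commGroupOfCardEqPrimeSq hPc
    exact ⟨⟨mul_comm⟩⟩
  have hPC : (P : Subgroup G) ≤ C := by
    intro a ha
    rw [hC, Subgroup.mem_centralizer_iff]
    intro b hb
    have := hPcomm.is_comm.comm (⟨b, hb⟩ : (P : Subgroup G)) ⟨a, ha⟩
    exact congrArg Subtype.val this
  have hPN : (P : Subgroup G) ≤ N := Subgroup.le_normalizer
  have htp : t ≠ p := by
    rintro rfl
    have h1 : C.relIndex N ∣ (P : Subgroup G).relIndex N := Subgroup.relIndex_dvd_of_le_left N hPC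
    have h2 : (P : Subgroup G).relIndex N ∣ (P : Subgroup G).index := Subgroup.relIndex_dvd_index_of_le hPN
    exact P.not_dvd_index (htd.trans (h1.trans h2))
  have htN : t ∣ Nat.card N := htd.trans (Subgroup.relIndex_dvd_card _ _)
  have htG : t ∣ Nat.card G := htN.trans (Subgroup.card_subgroup_dvd_card N)
  have ht2 : ¬ t ^ 2 ∣ Nat.card G := by
    intro h
    rcases hprimes t ht htG with h1 | h1 | h1
    · exact htp h1
    · subst h1
      rw [hcard] at h
      have h3 : t ∣ p ^ 2 * r := by
        have h4 : t ^ 2 = t * t := by ring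
        have h5 : p ^ 2 * t * r = t * (p ^ 2 * r) := by ring
        rw [h4, h5] at h
        exact Nat.dvd_of_mul_dvd_mul_left ht.pos h
      exact hqco h3
    · subst h1
      rw [hcard] at h
      have h3 : t ∣ p ^ 2 * q := by
        have h4 : t ^ 2 = t * t := by ring
        have h5 : p ^ 2 * q * t = t * (p ^ 2 * q) := by ring
        rw [h4, h5] at h
        exact Nat.dvd_of_mul_dvd_mul_left ht.pos h
      exact hrco h3
  obtain ⟨x', hx'⟩ := exists_prime_orderOf_dvd_card' (G := ↥N) t htN
  have hx : orderOf (x' : G) = t := by rw [Subgroup.orderOf_coe]; exact hx'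
  have hxC : (x' : G) ∉ C := by
    intro hmem
    -- then t divides |C ⊓ N| and the index, so t ^ 2 divides |N|
    have h1 : t ∣ Nat.card ↥(C.subgroupOf N) := by
      have : x' ∈ C.subgroupOf N := Subgroup.mem_subgroupOf.2 hmem
      have h2 := Subgroup.orderOf_dvd_natCard (C.subgroupOf N) this
      rwa [hx'] at h2
    have h3 := Subgroup.card_mul_index (C.subgroupOf N)
    have h4 : t ^ 2 ∣ Nat.card N := by
      rw [← h3, pow_two]
      exact Nat.mul_dvd_mul h1 htd
    exact ht2 (h4.trans (Subgroup.card_subgroup_dvd_card N))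
  have htgt : p < t := by
    rcases hprimes t ht htG with h1 | h1 | h1
    · exact absurd h1 htp
    · rw [h1]; exact hpltq
    · rw [h1]; omega
  have hts : t = p + 1 := Cfsg.Agent.Lib.SmallGroups5.eq_succ_of_acts_on_sq hp (P : Subgroup G) hPc x'.2 hxC hx htgt
  have hp2eq : p = 2 := by
    rcases hp.eq_two_or_odd with h | h
    · exact h
    · exfalso
      have h1 : 2 ∣ t := by omega
      have h2 := (Nat.prime_dvd_prime_iff_eq Nat.prime_two ht).1 h1
      omega
  subst hp2eq
  have ht3 : t = 3 := by omega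
  have hq3 : q = 3 := by
    rcases hprimes t ht htG with h1 | h1 | h1
    · exact absurd h1 htp
    · omega
    · omega
  subst hq3
  -- Step 3
  have hr5 : 5 ≤ r := by
    by_contra hcon
    have : r ≤ 4 := by omega
    interval_cases r <;> first | omega | (exact absurd hr (by norm_num))
  have hG12 : Nat.card G = r * 12 := by rw [hcard]; ring
  have hr12 : ¬ r ∣ 12 := by
    intro h
    have := Nat.le_of_dvd (by norm_num) h
    have h12 : 12 = 2 ^ 2 * 3 := by norm_num
    rw [h12] at h
    exact hrco h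
  have hmem := card_sylow_mem_candidates hG hG12 hr12
  rw [sylowCandidates, Finset.mem_filter, Nat.mem_divisors] at hmem
  obtain ⟨⟨hd, -⟩, hmod, hne1, hgcd⟩ := hmem
  have hn12 : Nat.card (Sylow r G) ∈ Nat.divisors 12 := Nat.mem_divisors.2 ⟨hd, by norm_num⟩
  have hdiv12 : Nat.divisors 12 = {1, 2, 3, 4, 6, 12} := by decide
  rw [hdiv12] at hn12
  simp only [Finset.mem_insert, Finset.mem_singleton] at hn12
  have h1r : 1 % r = 1 := Nat.mod_eq_of_lt (by omega)
  rw [h1r] at hmod
  rcases hn12 with h | h | h | h | h | h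
  · exact absurd h hne1
  · rw [h, Nat.mod_eq_of_lt (by omega)] at hmod; omega
  · rw [h, Nat.mod_eq_of_lt (by omega)] at hmod; omega
  · rw [h, Nat.mod_eq_of_lt (by omega)] at hmod; omega
  · -- n = 6, r = 5
    rw [h] at hmod
    have h5 : r ∣ 5 := by
      have := (Nat.modEq_iff_dvd' (by norm_num : 1 ≤ 6)).1 (show 1 ≡ 6 [MOD r] by
        unfold Nat.ModEq; omega)
      simpa using this
    have hr5' : r = 5 := (Nat.prime_dvd_prime_iff_eq hr (by norm_num)).1 h5
    rw [hcard, hr5']
    norm_num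
  · -- n = 12, gcd
    rw [h] at hgcd hmod
    have h5 : r ∣ 11 := by
      have := (Nat.modEq_iff_dvd' (by norm_num : 1 ≤ 12)).1 (show 1 ≡ 12 [MOD r] by
        unfold Nat.ModEq; omega)
      simpa using this
    have hr5' : r = 11 := (Nat.prime_dvd_prime_iff_eq hr (by norm_num)).1 h5
    subst hr5'
    exact absurd (by norm_num) hgcd


/-- If a finite simple group has order p^2 * q * r with p, q and r prime, then its order is 60. -/
theorem result {G : Type*} [Group G] [Finite G] [IsSimpleGroup G] (p q r : ℕ) (hp : p.Prime) (hq : q.Prime) (hr : r.Prime) (hG : Nat.card G = p ^ 2 * q * r) : Nat.card G = 60 := by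
  classical
  have hnp : ¬ (Nat.card G).Prime := by
    rw [hG]
    have h1 : p ^ 2 * q * r = p * (p * q * r) := by ring
    rw [h1]
    exact Nat.not_prime_mul hp.one_lt.ne' (by
      have := hp.pos; have := hq.pos; have := hr.pos
      have h2 : 0 < p * q := by positivity
      have h3 : 2 ≤ p * q * r := by
        have := hr.two_le
        nlinarith
      omega)
  have hna : ¬ IsMulCommutative G := not_isMulCommutative_of_not_prime hnp
  have hsolv : ∀ a b : ℕ, a.Prime → b.Prime → (∃ x y, Nat.card G = a ^ x * b ^ y) → False := by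
    intro a b ha hb hab
    have h1 : Group.IsSolvable G := Cfsg.Agent.Lib.BurnsidePQ.isSolvable_of_card_eq a b ha hb _ G rfl hab
    apply hna
    exact ⟨⟨(IsSimpleGroup.comm_iff_isSolvable).2 h1⟩⟩
  by_cases hpq : p = q
  · subst hpq
    exact (hsolv p r hp hr ⟨3, 1, by rw [hG]; ring⟩).elim
  by_cases hpr : p = r
  · subst hpr
    exact (hsolv p q hp hq ⟨3, 1, by rw [hG]; ring⟩).elim
  rcases lt_trichotomy q r with hlt | heq | hgt
  · exact main_lt hna p q r hp hq hr hpq hpr hlt hG
  · subst heq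
    exact (hsolv p q hp hq ⟨2, 2, by rw [hG]; ring⟩).elim
  · exact main_lt hna p r q hp hr hq hpr hpq hgt (by rw [hG]; ring)

end Cfsg.Agent.S0988
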