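import Mathlib
import Cfsg.Statements.S0995
import Cfsg.Agent.Lib.SmallGroups2
import Cfsg.Agent.Lib.SmallGroups3
import Cfsg.Agent.Lib.SmallGroups4
-- import your own Cfsg.Agent.* helpers here

set_option autoImplicit false
open Cfsg

namespace Cfsg.Agent.S0995

open Cfsg.Agent.Lib.SmallGroups2
open Cfsg.Agent.Lib.SmallGroups3
open Cfsg.Agent.Lib.SmallGroups4
theorem card_classes_mul {G : Type*} [Group G] [Finite G] {p : ℕ}
    (hC : ∀ g : G, orderOf g = p → Nat.card (Subgroup.centralizer ({g} : Set G)) = p) :
    Nat.card {g : G // orderOf g = p} * p =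
      Nat.card {c : ConjClasses G // ∃ g : G, ConjClasses.mk g = c ∧ orderOf g = p} * Nat.card G := by
  classical
  let 𝒞 := {c : ConjClasses G // ∃ g : G, ConjClasses.mk g = c ∧ orderOf g = p}
  haveI : Fintype 𝒞 := Fintype.ofFinite _
  have hconj : ∀ {a b : G}, IsConj a b → orderOf a = orderOf b := by
    intro a b h
    obtain ⟨c, rfl⟩ := isConj_iff.1 h
    exact (orderOf_injective (MulAut.conj c).toMonoidHom (MulAut.conj c).injective a).symm
  have e : {g : G // orderOf g = p} ≃ Σ c : 𝒞, {x : G // ConjClasses.mk x = c.1} :=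
    { toFun := fun g => ⟨⟨ConjClasses.mk g.1, g.1, rfl, g.2⟩, ⟨g.1, rfl⟩⟩
      invFun := fun a => ⟨a.2.1, by
        obtain ⟨g, hg, ho⟩ := a.1.2
        have h1 : ConjClasses.mk a.2.1 = ConjClasses.mk g := by rw [a.2.2, hg]
        have h2 := ConjClasses.mk_eq_mk_iff_isConj.1 h1
        rw [hconj h2, ho]⟩
      left_inv := fun g => rfl
      right_inv := by
        rintro ⟨⟨c, hc⟩, ⟨x, hx⟩⟩
        dsimp only at hx
        subst hx
        rfl }
  rw [Nat.card_congr e, Nat.card_sigma, Finset.sum_mul]
  have : ∀ c : 𝒞, Nat.card {x : G // ConjClasses.mk x = c.1} * p = Nat.card G := by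
    rintro ⟨c, g, rfl, ho⟩
    have h1 := Cfsg.Agent.Lib.SmallGroups4.card_isConj_mul_card_centralizer g
    rw [hC g ho] at h1
    rw [← h1]
    congr 1
    refine Nat.card_congr (Equiv.subtypeEquivRight fun x => ?_)
    show ConjClasses.mk x = ConjClasses.mk g ↔ IsConj g x
    rw [ConjClasses.mk_eq_mk_iff_isConj]
    exact ⟨fun h => h.symm, fun h => h.symm⟩
  simp_rw [this]
  rw [Finset.sum_const, Finset.card_univ, smul_eq_mul]
  congr 1
  exact Nat.card_eq_fintype_card.symm


/-- Let G be a finite perfect group containing an element z of prime order p whose centralizer is the cyclic group it generates. Let t be the number of conjugacy classes of elements of order p. Then t divides p - 1, the number of Sylow p-subgroups has the form 1 + n * p, and |G| * t = (p - 1) * p * (1 + n * p). -/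
theorem result {G : Type*} [Group G] [Finite G] (hperf : commutator G = ⊤) (p : ℕ) [Fact p.Prime] (z : G) (hz : orderOf z = p) (hC : Subgroup.centralizer ({z} : Set G) = Subgroup.zpowers z) : ∃ n t : ℕ, t = Nat.card {c : ConjClasses G // ∃ g : G, ConjClasses.mk g = c ∧ orderOf g = p} ∧ t ∣ p - 1 ∧ Nat.card (Sylow p G) = 1 + n * p ∧ Nat.card G * t = (p - 1) * p * (1 + n * p) := by
  classical
  have hp : p.Prime := Fact.out
  have hz1 : z ≠ 1 := by
    rintro rfl
    rw [orderOf_one] at hz
    exact hp.one_lt.ne hz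
  set H := Subgroup.zpowers z with hH
  have hHc : Nat.card H = p := by rw [hH, Nat.card_zpowers, hz]
  obtain ⟨Q, hQ⟩ := exists_sylow_mem_of_orderOf hz
  have hCz : ∀ x : G, x * z = z * x → x ∈ H := by
    intro x hx
    rw [← hC]
    exact Subgroup.mem_centralizer_singleton_iff.2 hx
  have hQH : (Q : Subgroup G) = H := by
    haveI : Nontrivial (Q : Subgroup G) := ⟨⟨⟨z, hQ⟩, 1, fun h => hz1 (congrArg Subtype.val h)⟩⟩
    have hnt : Nontrivial (Subgroup.center (Q : Subgroup G)) := Q.isPGroup'.center_nontrivial
    obtain ⟨w, hw⟩ := exists_ne (1 : Subgroup.center (Q : Subgroup G))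
    have hw1 : ((w : (Q : Subgroup G)) : G) ≠ 1 := by
      intro h
      apply hw
      apply Subtype.ext
      apply Subtype.ext
      exact h
    have hwz : ((w : (Q : Subgroup G)) : G) ∈ H := by
      apply hCz
      have := (Subgroup.mem_center_iff.1 w.2 ⟨z, hQ⟩)
      exact (congrArg Subtype.val this).symm
    have hgen := zpowers_eq_of_mem_of_ne_one hp hHc hwz hw1
    apply le_antisymm
    · intro q hq
      apply hCz
      have hzw : z ∈ Subgroup.zpowers ((w : (Q : Subgroup G)) : G) := by
        rw [hgen]; exact Subgroup.mem_zpowers z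
      obtain ⟨k, hk⟩ := Subgroup.mem_zpowers_iff.1 hzw
      have hcw : Commute q ((w : (Q : Subgroup G)) : G) := by
        have := (Subgroup.mem_center_iff.1 w.2 ⟨q, hq⟩)
        exact congrArg Subtype.val this
      rw [← hk]
      exact (hcw.zpow_right k).eq
    · rw [hH, Subgroup.zpowers_le]
      exact hQ
  have hQc : Nat.card (Q : Subgroup G) = p := by rw [hQH, hHc]
  have hPall : ∀ R : Sylow p G, Nat.card (R : Subgroup G) = p := fun R =>
    (Nat.card_congr (Sylow.equiv R Q).toEquiv).trans hQc
  have hcen : ∀ g : G, orderOf g = p → Nat.card (Subgroup.centralizer ({g} : Set G)) = p := by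
    intro g hg
    obtain ⟨R, hR⟩ := exists_sylow_mem_of_orderOf hg
    obtain ⟨c, rfl⟩ := MulAction.exists_smul_eq G Q R
    have hy := mem_smul_sylow_iff.1 hR
    set y := c⁻¹ * g * c with hydef
    have hgy : g = c * y * c⁻¹ := by rw [hydef]; group
    have hg1 : g ≠ 1 := by
      rintro rfl
      rw [orderOf_one] at hg
      exact hp.one_lt.ne hg
    have hy1 : y ≠ 1 := by
      intro h
      apply hg1
      rw [hgy, h]; group
    rw [hgy, Cfsg.Agent.Lib.SmallGroups4.card_centralizer_conj]
    rw [hQH] at hy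
    have hgen := zpowers_eq_of_mem_of_ne_one hp hHc hy hy1
    have hCy : Subgroup.centralizer ({y} : Set G) = H := by
      apply le_antisymm
      · intro x hx
        apply hCz
        have h1 := Subgroup.mem_centralizer_singleton_iff.1 hx
        have hzy : z ∈ Subgroup.zpowers y := by
          rw [hgen]; exact Subgroup.mem_zpowers z
        obtain ⟨k, hk⟩ := Subgroup.mem_zpowers_iff.1 hzy
        have hcw : Commute x y := h1
        rw [← hk]
        exact (hcw.zpow_right k).eq
      · intro x hx
        rw [Subgroup.mem_centralizer_singleton_iff]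
        rw [hH] at hy hx
        obtain ⟨a, rfl⟩ := Subgroup.mem_zpowers_iff.1 hx
        obtain ⟨b, hb⟩ := Subgroup.mem_zpowers_iff.1 hy
        rw [← hb]
        exact ((Commute.refl z).zpow_zpow a b).eq
    rw [hCy, hHc]
  have hcount := card_orderOf_eq_prime hPall
  have hcl := card_classes_mul hcen
  rw [hcount] at hcl
  have hmod : Nat.card (Sylow p G) % p = 1 % p := card_sylow_mod
  have h1mod : 1 % p = 1 := Nat.mod_eq_of_lt hp.one_lt
  have hnp : Nat.card (Sylow p G) = 1 + (Nat.card (Sylow p G) / p) * p := by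
    have := Nat.div_add_mod (Nat.card (Sylow p G)) p
    rw [hmod, h1mod] at this
    nlinarith
  refine ⟨Nat.card (Sylow p G) / p, _, rfl, ?_, hnp, ?_⟩
  · -- t divides p - 1
    have hN := card_normalizer_mul_card_sylow Q
    have hPN : p ∣ Nat.card (Subgroup.normalizer ((Q : Subgroup G) : Set G)) := by
      have := Subgroup.card_dvd_of_le (Subgroup.le_normalizer (H := (Q : Subgroup G)))
      rwa [hQc] at this
    obtain ⟨s, hs⟩ := hPN
    set t := Nat.card {c : ConjClasses G // ∃ g : G, ConjClasses.mk g = c ∧ orderOf g = p} with ht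
    set n := Nat.card (Sylow p G) with hn
    have hn0 : 0 < n := Nat.card_pos
    have h2 : n * ((p - 1) * p) = n * (t * (p * s)) := by
      calc n * ((p - 1) * p) = n * (p - 1) * p := by ring
        _ = t * Nat.card G := hcl
        _ = t * (Nat.card (Subgroup.normalizer ((Q : Subgroup G) : Set G)) * n) := by rw [hN]
        _ = n * (t * (p * s)) := by rw [hs]; ring
    have h3 := Nat.eq_of_mul_eq_mul_left hn0 h2
    have h4 : (p - 1) * p = (t * s) * p := by rw [h3]; ring
    have h5 := Nat.eq_of_mul_eq_mul_right hp.pos h4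
    exact ⟨s, h5⟩
  · rw [← hnp]
    rw [mul_comm (Nat.card G)]
    rw [← hcl]
    ring

end Cfsg.Agent.S0995
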