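import Mathlib
import Cfsg.Statements.S1002
import Cfsg.Agent.Lib.DefectOne
-- import your own Cfsg.Agent.* helpers here

set_option autoImplicit false
open Cfsg

namespace Cfsg.Agent.S1002

open Cfsg.Agent.Lib.DefectOne

/-- No finite simple group has order 1004913 = 3^3 * 7 * 13 * 409. -/
theorem result {G : Type*} [Group G] [Finite G] [IsSimpleGroup G] : Nat.card G ≠ 1004913 := by
  haveI : Fact (Nat.Prime 409) := ⟨by norm_num⟩
  have := not_card_s3 (G := G) (p := 409) (m := 2457) (by norm_num) (by norm_num) (by norm_num) (by norm_num)
    (by decide +kernel) (by norm_num) (by decide +kernel)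
  simpa using this

end Cfsg.Agent.S1002
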