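import Mathlib
import Cfsg.Statements.S1009
import Cfsg.Agent.Lib.SmallGroups2
import Cfsg.Agent.Lib.SmallGroups3
import Cfsg.Agent.Lib.SmallGroups4
-- import your own Cfsg.Agent.* helpers here

set_option autoImplicit false
open Cfsg

namespace Cfsg.Agent.S1009

open Cfsg.Agent.Lib.SmallGroups2
open Cfsg.Agent.Lib.SmallGroups3
open Cfsg.Agent.Lib.SmallGroups4

/-- Brodkey's Theorem: if a finite group has abelian Sylow p-subgroups, then there are two Sylow p-subgroups whose intersection equals the intersection of all Sylow p-subgroups. -/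
theorem result {G : Type*} [Group G] [Finite G] (p : ℕ) [Fact p.Prime] (hab : ∀ P : Sylow p G, IsMulCommutative ↥(P : Subgroup G)) : ∃ P Q : Sylow p G, (P : Subgroup G) ⊓ (Q : Subgroup G) = ⨅ R : Sylow p G, (R : Subgroup G) := by
  classical
  obtain ⟨⟨P, Q⟩, hmin⟩ := Finite.exists_min (fun X : Sylow p G × Sylow p G => Nat.card ↥((X.1 : Subgroup G) ⊓ (X.2 : Subgroup G)))
  simp only [Prod.forall] at hmin
  refine ⟨P, Q, ?_⟩
  apply le_antisymm
  swap
  · exact le_inf (iInf_le _ P) (iInf_le _ Q)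
  refine le_iInf ?_
  intro S
  by_contra hS
  set D := (P : Subgroup G) ⊓ (Q : Subgroup G) with hD
  set M := Subgroup.normalizer ((D : Subgroup G) : Set G) with hM
  have hPM : (P : Subgroup G) ≤ M := le_normalizer_inf_of_comm (hab P)
  have hQM : (Q : Subgroup G) ≤ M := by
    have : D = (Q : Subgroup G) ⊓ (P : Subgroup G) := inf_comm _ _
    rw [hM, this]
    exact le_normalizer_inf_of_comm (hab Q)
  -- S ∩ M is a p-subgroup of M
  have hpg : IsPGroup p ↥((S : Subgroup G).subgroupOf M) := by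
    have h1 := S.isPGroup'
    intro x
    obtain ⟨k, hk⟩ := h1 ⟨x.1.1, x.2⟩
    refine ⟨k, ?_⟩
    apply Subtype.ext
    apply Subtype.ext
    simpa using congrArg Subtype.val hk
  obtain ⟨T', hT'⟩ := hpg.exists_le_sylow
  obtain ⟨m, hm⟩ := MulAction.exists_smul_eq ↥M (P.subtype hPM) T'
  -- the Sylow subgroups of G obtained by conjugating with m
  have hSM : ∀ x : G, x ∈ (S : Subgroup G) → x ∈ M → (m : G)⁻¹ * x * (m : G) ∈ (P : Subgroup G) := by
    intro x hxS hxM
    have h2 : (⟨x, hxM⟩ : ↥M) ∈ (T' : Subgroup ↥M) := hT' (by exact hxS)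
    rw [← hm] at h2
    have h3 := mem_smul_sylow_iff.1 h2
    rw [Sylow.coe_subtype, Subgroup.mem_subgroupOf] at h3
    simpa using h3
  -- the key inclusion
  have hkey : (S : Subgroup G) ⊓ (((m : G) • Q : Sylow p G) : Subgroup G) ≤ D := by
    rintro x ⟨hxS, hxT⟩
    have hx1 := mem_smul_sylow_iff.1 hxT
    have hxM : x ∈ M := by
      have h4 := hQM hx1
      have h5 := M.mul_mem (M.mul_mem m.2 h4) (M.inv_mem m.2)
      have h6 : (m : G) * ((m : G)⁻¹ * x * (m : G)) * (m : G)⁻¹ = x := by group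
      rwa [h6] at h5
    have hx2 := hSM x hxS hxM
    have hinD : (m : G)⁻¹ * x * (m : G) ∈ D := ⟨hx2, hx1⟩
    have h7 := (Subgroup.mem_normalizer_iff.1 (m.2)) _ |>.1 hinD
    have h8 : (m : G) * ((m : G)⁻¹ * x * (m : G)) * (m : G)⁻¹ = x := by group
    rwa [h8] at h7
  have hle2 : (S : Subgroup G) ⊓ (((m : G) • Q : Sylow p G) : Subgroup G) ≤ D ⊓ (S : Subgroup G) :=
    le_inf hkey inf_le_left
  have hmin2 := hmin S ((m : G) • Q)
  have hcard : Nat.card ↥D ≤ Nat.card ↥(D ⊓ (S : Subgroup G)) := hmin2.trans (Subgroup.card_le_of_le hle2)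
  have heq : D ⊓ (S : Subgroup G) = D := by
    apply Subgroup.eq_of_le_of_card_ge inf_le_left hcard
  exact hS (inf_eq_left.1 heq)

end Cfsg.Agent.S1009
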