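import Mathlib
import Cfsg.Statements.S1013
import Cfsg.Agent.Lib.SmallGroups2
import Cfsg.Agent.Lib.SmallGroups3
import Cfsg.Agent.Lib.SmallGroups4
-- import your own Cfsg.Agent.* helpers here

set_option autoImplicit false
open Cfsg

namespace Cfsg.Agent.S1013

open Cfsg.Agent.Lib.SmallGroups2
open Cfsg.Agent.Lib.SmallGroups3
open Cfsg.Agent.Lib.SmallGroups4
section abstract

variable {Γ α : Type*} [Group Γ] [Finite Γ] [Finite α] [MulAction Γ α]

theorem smul_mem_orbit_of_normal (K : Subgroup Γ) [hK : K.Normal] (g : Γ) {a y : α}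
    (hy : y ∈ MulAction.orbit ↥K a) : g • y ∈ MulAction.orbit ↥K (g • a) := by
  obtain ⟨k, rfl⟩ := hy
  refine ⟨⟨g * k.1 * g⁻¹, hK.conj_mem _ k.2 g⟩, ?_⟩
  change (g * k.1 * g⁻¹) • g • a = g • k.1 • a
  rw [smul_smul, smul_smul]
  congr 1
  group

theorem card_orbit_smul (K : Subgroup Γ) [K.Normal] (g : Γ) (a : α) :
    Nat.card (MulAction.orbit ↥K (g • a)) = Nat.card (MulAction.orbit ↥K a) := by
  refine Nat.card_congr ⟨fun x => ⟨g⁻¹ • x.1, ?_⟩, fun x => ⟨g • x.1, smul_mem_orbit_of_normal K g x.2⟩, ?_, ?_⟩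
  · have := smul_mem_orbit_of_normal K g⁻¹ x.2
    rwa [inv_smul_smul] at this
  · intro x; apply Subtype.ext; simp
  · intro x; apply Subtype.ext; simp

theorem card_orbit_dvd_card (K : Subgroup Γ) (a : α) :
    Nat.card (MulAction.orbit ↥K a) ∣ Nat.card K := by
  have h1 := Subgroup.card_mul_index (MulAction.stabilizer ↥K a)
  rw [MulAction.index_stabilizer] at h1
  exact ⟨_, by rw [← h1]; rw [mul_comm]; rfl⟩

theorem prime_dvd_card_of_normal [FaithfulSMul Γ α] [MulAction.IsPretransitive Γ α] {p : ℕ} (hp : p.Prime)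
    (hα : Nat.card α = p) (K : Subgroup Γ) [K.Normal] (hK : K ≠ ⊥) : p ∣ Nat.card K := by
  classical
  haveI : Nonempty α := by
    apply (Nat.card_pos_iff.1 (by rw [hα]; exact hp.pos)).1
  obtain ⟨a₀⟩ := (inferInstance : Nonempty α)
  set s := Nat.card (MulAction.orbit ↥K a₀) with hs
  have hall : ∀ a : α, Nat.card (MulAction.orbit ↥K a) = s := by
    intro a
    obtain ⟨g, rfl⟩ := MulAction.exists_smul_eq Γ a₀ a
    exact card_orbit_smul K g a₀
  haveI : Fintype (MulAction.orbitRel.Quotient ↥K α) := Fintype.ofFinite _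
  have e := MulAction.selfEquivSigmaOrbits ↥K α
  have h1 : Nat.card α = ∑ ω : MulAction.orbitRel.Quotient ↥K α, Nat.card (MulAction.orbit ↥K (Quotient.out ω)) := by
    rw [Nat.card_congr e, Nat.card_sigma]
  have h2 : s ∣ p := by
    rw [← hα, h1]
    apply Finset.dvd_sum
    intro ω _
    rw [hall]
  rcases (Nat.dvd_prime hp).1 h2 with h3 | h3
  · exfalso
    apply hK
    rw [eq_bot_iff]
    intro k hk
    rw [Subgroup.mem_bot]
    have hfix : ∀ a : α, k • a = a := by
      intro a
      have h4 : Nat.card (MulAction.orbit ↥K a) = 1 := by rw [hall, h3]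
      have h5 := (Nat.card_eq_one_iff_unique.1 h4).1
      have h6 : (⟨k • a, ⟨⟨k, hk⟩, rfl⟩⟩ : MulAction.orbit ↥K a) = ⟨a, MulAction.mem_orbit_self a⟩ := Subsingleton.elim _ _
      exact congrArg Subtype.val h6
    exact (FaithfulSMul.eq_of_smul_eq_smul (α := α) (m₁ := k) (m₂ := 1) (fun a => by rw [hfix a, one_smul]))
  · rw [← h3]
    exact card_orbit_dvd_card K a₀

theorem isSimple_of_prime_degree [FaithfulSMul Γ α] [MulAction.IsPretransitive Γ α] {p : ℕ} [Fact p.Prime]
    (hα : Nat.card α = p) (P : Sylow p Γ) (hn : 1 < Nat.card (Sylow p Γ))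
    (ht : (((P : Subgroup Γ).subgroupOf (Subgroup.normalizer ((P : Subgroup Γ) : Set Γ))).index).Prime) :
    IsSimpleGroup Γ := by
  classical
  have hp : p.Prime := Fact.out
  -- order of Γ
  have hpΓ : p ∣ Nat.card Γ := by
    haveI : Nonempty α := (Nat.card_pos_iff.1 (by rw [hα]; exact hp.pos)).1
    obtain ⟨a₀⟩ := (inferInstance : Nonempty α)
    have h1 := card_orbit_dvd_card (⊤ : Subgroup Γ) a₀
    have h2 : MulAction.orbit ↥(⊤ : Subgroup Γ) a₀ = Set.univ := by
      ext a
      simp only [Set.mem_univ, iff_true]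
      obtain ⟨g, rfl⟩ := MulAction.exists_smul_eq Γ a₀ a
      exact ⟨⟨g, trivial⟩, rfl⟩
    rw [h2, Nat.card_univ, hα, Subgroup.card_top] at h1
    exact h1
  have hinj : Function.Injective (MulAction.toPermHom Γ α) := by
    intro a b hab
    apply FaithfulSMul.eq_of_smul_eq_smul (α := α)
    intro x
    exact congrArg (fun e : Equiv.Perm α => e x) hab
  have hdvd : Nat.card Γ ∣ p.factorial := by
    have h1 := Subgroup.card_dvd_of_injective _ hinj
    haveI : Fintype α := Fintype.ofFinite α
    rwa [Nat.card_eq_fintype_card (α := Equiv.Perm α), Fintype.card_perm, ← Nat.card_eq_fintype_card, hα] at h1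
  obtain ⟨m, hm⟩ := hpΓ
  have hpm : ¬ p ∣ m := by
    intro hd
    obtain ⟨c, hc⟩ := hdvd
    have h2 : p * (p - 1).factorial = p * (m * c) := by
      rw [Nat.mul_factorial_pred hp.ne_zero, hc, hm]; ring
    have h3 := Nat.eq_of_mul_eq_mul_left hp.pos h2
    have h4 : p ∣ (p - 1).factorial := by rw [h3]; exact Dvd.dvd.mul_right hd c
    have := (hp.dvd_factorial).1 h4
    have := hp.two_le
    omega
  have hΓ : Nat.card Γ = p ^ 1 * m := by rw [hm, pow_one]
  have hPc : ∀ Q : Sylow p Γ, Nat.card (Q : Subgroup Γ) = p := by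
    intro Q
    rw [sylow_card_of_card_eq hΓ hpm Q, pow_one]
  haveI : Nontrivial Γ := by
    apply Finite.one_lt_card_iff_nontrivial.1
    rw [hm]
    have := hp.two_le
    have hm0 : 0 < m := by
      rcases Nat.eq_zero_or_pos m with rfl | h
      · exact absurd (dvd_zero p) hpm
      · exact h
    nlinarith
  refine ⟨fun K hKn => ?_⟩
  haveI := hKn
  by_cases hKb : K = ⊥
  · left; exact hKb
  right
  have hdK := prime_dvd_card_of_normal hp hα K hKb
  -- K contains a Sylow subgroup
  obtain ⟨x, hx⟩ := exists_prime_orderOf_dvd_card' (G := ↥K) p hdK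
  have hx' : orderOf (x : Γ) = p := by rw [Subgroup.orderOf_coe]; exact hx
  obtain ⟨Q, hQ⟩ := exists_sylow_mem_of_orderOf hx'
  have hx1 : (x : Γ) ≠ 1 := by
    intro h
    rw [h, orderOf_one] at hx'
    exact hp.one_lt.ne hx'
  have hQK : (Q : Subgroup Γ) ≤ K := by
    rw [← zpowers_eq_of_mem_of_ne_one hp (hPc Q) hQ hx1, Subgroup.zpowers_le]
    exact x.2
  have hPK : (P : Subgroup Γ) ≤ K := sylow_le_of_normal hQK
  set N := Subgroup.normalizer ((P : Subgroup Γ) : Set Γ) with hN
  have hsup : N ⊔ K = ⊤ := Sylow.normalizer_sup_eq_top' P hPK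
  have hrel : K.relIndex N = K.index := by
    rw [← Subgroup.relIndex_sup_right, hsup, Subgroup.relIndex_top_right]
  have hPN : (P : Subgroup Γ) ≤ N := Subgroup.le_normalizer
  have hmul := Subgroup.relIndex_mul_relIndex (P : Subgroup Γ) (K ⊓ N) N (le_inf hPK hPN) inf_le_right
  rw [Subgroup.inf_relIndex_right, hrel] at hmul
  have ht' : ((P : Subgroup Γ).relIndex N).Prime := ht
  rcases (Nat.Prime.eq_one_or_self_of_dvd ht' _ ⟨_, hmul.symm⟩) with h1 | h1
  · -- P has index 1 in K ⊓ N
    exfalso
    have hle : K ⊓ N ≤ (P : Subgroup Γ) := by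
      have := Subgroup.relIndex_eq_one.1 h1
      exact this
    -- Burnside in K
    let P' : Sylow p ↥K := P.subtype hPK
    have hcomm : ∀ a ∈ (P : Subgroup Γ), ∀ b ∈ (P : Subgroup Γ), a * b = b * a := by
      have hc : IsCyclic (P : Subgroup Γ) := isCyclic_of_prime_card (hPc P)
      intro a ha b hb
      have := hc.isMulCommutative.is_comm.comm (⟨a, ha⟩ : (P : Subgroup Γ)) ⟨b, hb⟩
      exact congrArg Subtype.val this
    have hmemP' : ∀ y : ↥K, y ∈ (P' : Subgroup ↥K) ↔ (y : Γ) ∈ (P : Subgroup Γ) := by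
      intro y
      rw [Sylow.coe_subtype]
      exact Subgroup.mem_subgroupOf
    have hNC : Subgroup.normalizer ((P' : Subgroup ↥K) : Set ↥K) ≤ Subgroup.centralizer ((P' : Subgroup ↥K) : Set ↥K) := by
      intro y hy
      rw [Subgroup.mem_centralizer_iff]
      intro h hh
      have hyN : (y : Γ) ∈ N := by
        rw [hN, Subgroup.mem_normalizer_iff]
        intro a
        constructor
        · intro ha
          have h2 := (Subgroup.mem_normalizer_iff.1 hy ⟨a, hPK ha⟩).1 ((hmemP' _).2 ha)
          exact (hmemP' _).1 h2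
        · intro ha
          have hya : (y : Γ) * a * (y : Γ)⁻¹ ∈ K := hPK ha
          have haK : a ∈ K := by
            have h3 := K.mul_mem (K.mul_mem (K.inv_mem y.2) hya) y.2
            have h4 : (y : Γ)⁻¹ * ((y : Γ) * a * (y : Γ)⁻¹) * (y : Γ) = a := by group
            rwa [h4] at h3
          have h2 := (Subgroup.mem_normalizer_iff.1 hy ⟨a, haK⟩).2 ((hmemP' _).2 ha)
          exact (hmemP' _).1 h2
      have hyP : (y : Γ) ∈ (P : Subgroup Γ) := hle ⟨y.2, hyN⟩
      apply Subtype.ext
      exact hcomm _ ((hmemP' _).1 hh) _ hyP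
    set f := MonoidHom.transferSylow P' hNC with hf
    have hnd := MonoidHom.not_dvd_card_ker_transferSylow P' hNC
    have hcompl := MonoidHom.ker_transferSylow_isComplement' P' hNC
    -- the image of the kernel in Γ is normal
    let L : Subgroup Γ := (f.ker).map K.subtype
    have hLc : Nat.card L = Nat.card f.ker :=
      Nat.card_congr (Subgroup.equivMapOfInjective _ _ K.subtype_injective).toEquiv.symm
    have hLmem : ∀ y : ↥K, (y : Γ) ∈ L ↔ y ∈ f.ker := by
      intro y
      constructor
      · rintro ⟨w, hw, hwe⟩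
        have : w = y := Subtype.ext hwe
        rwa [← this]
      · intro hy
        exact ⟨y, hy, rfl⟩
    have hfp : ∀ y : ↥K, (orderOf y).Coprime p → y ∈ f.ker := by
      intro y hy
      rw [MonoidHom.mem_ker]
      have h1' : orderOf (f y) ∣ orderOf y := orderOf_map_dvd f y
      have h2' : orderOf (f y) ∣ Nat.card (P' : Subgroup ↥K) := orderOf_dvd_natCard (f y)
      have hP'c : Nat.card (P' : Subgroup ↥K) = p := by
        obtain ⟨k', hk'⟩ := hdK
        have hk1 : Nat.card ↥K = p ^ 1 * k' := by rw [hk', pow_one]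
        have hpk' : ¬ p ∣ k' := by
          intro hd
          obtain ⟨e, he⟩ := Subgroup.card_subgroup_dvd_card K
          apply hpm
          have h6 : p * m = p * (k' * e) := by
            rw [← hm, he, hk']; ring
          have h7 := Nat.eq_of_mul_eq_mul_left hp.pos h6
          rw [h7]
          exact Dvd.dvd.mul_right hd e
        rw [sylow_card_of_card_eq hk1 hpk' P', pow_one]
      rw [hP'c] at h2'
      have h3' : orderOf (f y) = 1 := Nat.eq_one_of_dvd_coprimes hy h1' h2'
      exact orderOf_eq_one_iff.1 h3'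
    have hLn : L.Normal := by
      refine ⟨fun y hy g => ?_⟩
      obtain ⟨w, hw, rfl⟩ := hy
      have hgw : g * (w : Γ) * g⁻¹ ∈ K := (inferInstance : K.Normal).conj_mem _ w.2 g
      have : ((⟨g * (w : Γ) * g⁻¹, hgw⟩ : ↥K) : Γ) ∈ L := by
        rw [hLmem]
        apply hfp
        -- order is that of w
        have ho : orderOf (⟨g * (w : Γ) * g⁻¹, hgw⟩ : ↥K) = orderOf w := by
          rw [← Subgroup.orderOf_coe, ← Subgroup.orderOf_coe]
          exact orderOf_injective (MulAut.conj g).toMonoidHom (MulAut.conj g).injective (w : Γ)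
        rw [ho]
        apply Nat.Coprime.symm
        apply (Nat.Prime.coprime_iff_not_dvd hp).2
        intro hd
        exact hnd (hd.trans (Subgroup.orderOf_dvd_natCard _ hw))
      exact this
    haveI := hLn
    have hLb : L = ⊥ := by
      by_contra hne
      apply hnd
      rw [← hLc]
      exact prime_dvd_card_of_normal hp hα L hne
    have hker : f.ker = ⊥ := by
      rw [eq_bot_iff]
      intro y hy
      have : (y : Γ) ∈ L := (hLmem y).2 hy
      rw [hLb, Subgroup.mem_bot] at this
      rw [Subgroup.mem_bot]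
      exact Subtype.ext this
    rw [hker] at hcompl
    have hP'top : (P' : Subgroup ↥K) = ⊤ := Subgroup.isComplement'_bot_left.1 hcompl
    have hKP : K = (P : Subgroup Γ) := by
      apply le_antisymm _ hPK
      intro y hy
      have : (⟨y, hy⟩ : ↥K) ∈ (P' : Subgroup ↥K) := by rw [hP'top]; trivial
      exact (hmemP' _).1 this
    have hPn : (P : Subgroup Γ).Normal := by rw [← hKP]; exact hKn
    have hall : ∀ Q : Sylow p Γ, Q = P := by
      intro Q
      apply sylow_eq_of_le_normalizer
      rw [Subgroup.normalizer_eq_top_iff.2 hPn]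
      exact le_top
    have : Subsingleton (Sylow p Γ) := ⟨fun a b => by rw [hall a, hall b]⟩
    have := Nat.card_of_subsingleton P
    omega
  · -- K has index 1
    have hidx : K.index = 1 := by
      have h2 : (P : Subgroup Γ).relIndex (K ⊓ N) * K.index = (P : Subgroup Γ).relIndex N := hmul
      rw [h1] at h2
      have hpos : 0 < (P : Subgroup Γ).relIndex N := ht'.pos
      exact Nat.eq_of_mul_eq_mul_left hpos (by rw [mul_one]; exact h2)
    exact Subgroup.index_eq_one.1 hidx

end abstract


/-- Let G be a transitive permutation group of prime degree p having more than one Sylow p-subgroup, and suppose a Sylow p-subgroup P has prime index in its normalizer. Then G is simple. -/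
theorem result {α : Type*} [Fintype α] [DecidableEq α] {p : ℕ} [Fact p.Prime] (hα : Fintype.card α = p) (G : Subgroup (Equiv.Perm α)) [MulAction.IsPretransitive ↥G α] (P : Sylow p ↥G) (hn : 1 < Nat.card (Sylow p ↥G)) (ht : (((P : Subgroup ↥G).subgroupOf (Subgroup.normalizer ((P : Subgroup ↥G) : Set ↥G))).index).Prime) : IsSimpleGroup ↥G := by
  haveI : FaithfulSMul ↥G α := ⟨fun h => Subtype.ext (Equiv.ext h)⟩
  exact isSimple_of_prime_degree (α := α) (by rw [Nat.card_eq_fintype_card, hα]) P hn ht

end Cfsg.Agent.S1013
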