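import Mathlib
import Cfsg.Statements.S1014
import Cfsg.Agent.Lib.SmallGroups2
import Cfsg.Agent.Lib.SmallGroups3
-- import your own Cfsg.Agent.* helpers here

set_option autoImplicit false
open Cfsg

namespace Cfsg.Agent.S1014

open Cfsg.Agent.Lib.SmallGroups2
open Cfsg.Agent.Lib.SmallGroups3

/-- No finite simple group has order 1104 = 2^4 * 3 * 23. -/
theorem result {G : Type*} [Group G] [Finite G] [IsSimpleGroup G] : Nat.card G ≠ 1104 := by

  intro h

  have hG : ¬ IsMulCommutative G := not_isMulCommutative_of_not_prime (by rw [h]; norm_num)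
  haveI : Fact (Nat.Prime 23) := ⟨by norm_num⟩
  have h' : Nat.card G = 23 * 48 := by rw [h]
  have hmem := card_sylow_mem_candidates hG h' (by norm_num)
  have hc : sylowCandidates 23 48 = {24} := by decide +kernel
  rw [hc, Finset.mem_singleton] at hmem
  obtain ⟨P⟩ := (inferInstance : Nonempty (Sylow 23 G))
  have hP : Nat.card (P : Subgroup G) = 23 := by
    have := sylow_card_of_card_eq (a := 1) (m := 48) (by rw [h]; norm_num) (by norm_num) P
    simpa using this
  have hN : Nat.card (Subgroup.normalizer ((P : Subgroup G) : Set G)) = 2 * 23 := by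
    have := card_normalizer_mul_card_sylow P
    rw [hmem, h] at this
    omega
  obtain ⟨t, ht2, htN, htC⟩ := exists_involution_of_card_normalizer hG (by norm_num) P hP hN
  obtain ⟨f, h1, h2, h3⟩ := sign_test hG P hP ht2 htN htC
  rw [hmem] at h1 h3
  norm_num at h1
  unfold Nat.ModEq at h3
  omega

end Cfsg.Agent.S1014
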