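import Mathlib
import Cfsg.Statements.S1015
import Cfsg.Agent.Lib.SmallGroups2
import Cfsg.Agent.Lib.SmallGroups3
-- import your own Cfsg.Agent.* helpers here

set_option autoImplicit false
open Cfsg

namespace Cfsg.Agent.S1015

open Cfsg.Agent.Lib.SmallGroups2
open Cfsg.Agent.Lib.SmallGroups3

/-- No finite simple group has order 1200 = 2^4 * 3 * 5^2. -/
theorem result {G : Type*} [Group G] [Finite G] [IsSimpleGroup G] : Nat.card G ≠ 1200 := by
  intro h
  have hG : ¬ IsMulCommutative G := not_isMulCommutative_of_not_prime (by rw [h]; norm_num)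
  haveI : Fact (Nat.Prime 5) := ⟨by norm_num⟩
  have h' : Nat.card G = 5 ^ 2 * 48 := by rw [h]; norm_num
  have hmem := card_sylow_mem_filter h' (by norm_num) (by norm_num)
  have hc : (Nat.divisors 48).filter (fun n => n % 5 = 1 % 5) = {1, 6, 16} := by decide +kernel
  rw [hc] at hmem
  simp only [Finset.mem_insert, Finset.mem_singleton] at hmem
  have hpd : 5 ∣ Nat.card G := by rw [h]; norm_num
  have hemb := two_mul_card_dvd_factorial_card_sylow hG hpd
  rcases hmem with h1 | h6 | h16
  · exact card_sylow_ne_one hG hpd h1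
  · rw [h6, h] at hemb
    revert hemb; decide
  · obtain ⟨i, hi⟩ := sylow_square_test hG h' (by norm_num) (by rw [h16]; decide)
    rw [h] at hi
    have hempty : tameCandidates 1200 5 48 = ∅ := by decide +kernel
    rw [hempty] at hi
    simp at hi

end Cfsg.Agent.S1015
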