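import Mathlib
import Cfsg.Statements.S1016
import Cfsg.Agent.Lib.SmallGroups2
import Cfsg.Agent.Lib.Small168
import Cfsg.Agent.Lib.TwoLocal
import Cfsg.Agent.Lib.TwoLocal2
import Cfsg.Agent.Lib.TwoLocal3
-- import your own Cfsg.Agent.* helpers here

set_option autoImplicit false
open Cfsg

namespace Cfsg.Agent.S1016

open Cfsg.Agent.Lib.SmallGroups2
open Cfsg.Agent.Lib.Small168
open Cfsg.Agent.Lib.TwoLocal
open Cfsg.Agent.Lib.TwoLocal2
open Cfsg.Agent.Lib.TwoLocal3
theorem case16 {G : Type*} [Group G] [Finite G] [IsSimpleGroup G] (hG : ¬ IsMulCommutative G) (h : Nat.card G = 1440)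
    (hn : Nat.card (Sylow 5 G) = 16) : False := by
  have : Fact (Nat.Prime 5) := ⟨by norm_num⟩
  have : Fact (Nat.Prime 3) := ⟨by norm_num⟩
  have h5 : Nat.card G = 5 ^ 1 * 288 := by rw [h]; norm_num
  have hp2 : ¬ 5 ^ 2 ∣ Nat.card G := by rw [h]; norm_num
  obtain ⟨P⟩ : Nonempty (Sylow 5 G) := inferInstance
  have hP : Nat.card (P : Subgroup G) = 5 := by
    rw [sylow_card_of_card_eq h5 (by norm_num) P, pow_one]
  have hN : Nat.card (Subgroup.normalizer ((P : Subgroup G) : Set G)) = 90 := by
    have h1 := card_normalizer_mul_card_sylow P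
    rw [h, hn] at h1
    omega
  obtain ⟨S, hSN, hS⟩ := exists_subgroup_le_card (q := 3) (a := 2) (Subgroup.normalizer ((P : Subgroup G) : Set G))
    (by rw [hN]; norm_num)
  obtain ⟨c, hcS, hcP, ho⟩ := exists_commuting_in (p := 5) (q := 3) (a := 2) P hP S hSN hS (by
    intro j hj1 hj2
    have h1 : j ∈ Nat.divisors 4 := Nat.mem_divisors.2 ⟨hj1, by norm_num⟩
    have hd : ∀ j ∈ Nat.divisors 4, j ∣ 3 ^ 2 → j < 3 ^ 2 := by decide +kernel
    exact hd j h1 hj2)
  have hc1 : c ≠ 1 := by
    intro hc
    rw [hc, orderOf_one] at ho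
    omega
  obtain ⟨n', hn1, hn2, hn3, hn4, -, hn6⟩ := centralizer_data hG hp2 ⟨288, by rw [h]⟩ P hP hc1 hcP
  have hfix := hn6 (by rw [ho]; norm_num)
  have hmod := card_fixedBy_modEq_prime (X := Sylow 5 G) ho
  rw [← hfix, hn] at hmod
  have hmod3 : n' % 3 = 1 := by
    have := hmod
    unfold Nat.ModEq at this
    omega
  rw [hn] at hn2
  have hn1' : n' = 1 := by omega
  subst hn1'
  set u := Nat.card ↥(Subgroup.centralizer ({c} : Set G) ⊓ Subgroup.normalizer ((P : Subgroup G) : Set G)) with hu
  have hSC : S ≤ Subgroup.centralizer ({c} : Set G) := le_centralizer_of_sq S hS hcS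
  have hPC : (P : Subgroup G) ≤ Subgroup.centralizer ({c} : Set G) := by
    intro x hx
    rw [Subgroup.mem_centralizer_singleton_iff]
    exact (Subgroup.mem_centralizer_iff.1 hcP x hx)
  have hu1 : u ∣ 90 := by
    rw [← hN]
    exact Subgroup.card_dvd_of_le inf_le_right
  have hu2 : 9 ∣ u := by
    have : Nat.card S ∣ u := Subgroup.card_dvd_of_le (le_inf hSC hSN)
    rwa [hS] at this
  have hu3 : 5 ∣ u := by
    have : Nat.card (P : Subgroup G) ∣ u := Subgroup.card_dvd_of_le (le_inf hPC Subgroup.le_normalizer)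
    rwa [hP] at this
  have hidx := Subgroup.card_mul_index (Subgroup.centralizer ({c} : Set G))
  rw [hn3, h, one_mul] at hidx
  have hm : u ∈ Nat.divisors 90 := Nat.mem_divisors.2 ⟨hu1, by norm_num⟩
  have hd : ∀ u ∈ Nat.divisors 90, 9 ∣ u → 5 ∣ u → ∃ k ∈ Finset.range 7, 1440 = u * 2 ^ k := by decide +kernel
  obtain ⟨k, -, hk⟩ := hd u hm hu2 hu3
  have hi : (Subgroup.centralizer ({c} : Set G)).index = 2 ^ k := by
    have hu0 : 0 < u := Nat.pos_of_ne_zero (by
      intro h0
      rw [h0] at hidx
      omega)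
    apply Nat.eq_of_mul_eq_mul_left hu0
    rw [hidx, hk]
  exact index_ne_prime_pow hG hc1 Nat.prime_two hi

theorem case36 {G : Type*} [Group G] [Finite G] [IsSimpleGroup G] (hG : ¬ IsMulCommutative G) (h : Nat.card G = 1440)
    (hn : Nat.card (Sylow 5 G) = 36) : False := by
  have : Fact (Nat.Prime 5) := ⟨by norm_num⟩
  have : Fact (Nat.Prime 2) := ⟨by norm_num⟩
  have h5 : Nat.card G = 5 ^ 1 * 288 := by rw [h]; norm_num
  have hp2 : ¬ 5 ^ 2 ∣ Nat.card G := by rw [h]; norm_num
  have hpG : 5 ∣ Nat.card G := ⟨288, by rw [h]⟩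
  obtain ⟨P⟩ : Nonempty (Sylow 5 G) := inferInstance
  have hP : Nat.card (P : Subgroup G) = 5 := by
    rw [sylow_card_of_card_eq h5 (by norm_num) P, pow_one]
  have hN : Nat.card (Subgroup.normalizer ((P : Subgroup G) : Set G)) = 40 := by
    have h1 := card_normalizer_mul_card_sylow P
    rw [h, hn] at h1
    omega
  have he1 := relIndex_dvd_of_prime_card P hP
  have he2 := card_mul_relIndex (Subgroup.centralizer_le_normalizer ((P : Subgroup G) : Set G))
  set e := (Subgroup.centralizer ((P : Subgroup G) : Set G)).relIndex (Subgroup.normalizer ((P : Subgroup G) : Set G)) with he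
  rw [hN] at he2
  have hne1 : e ≠ 1 := by
    intro he1'
    rw [he1', mul_one] at he2
    apply not_normalizer_le_centralizer hG hpG P
    have := Subgroup.eq_of_le_of_card_ge (Subgroup.centralizer_le_normalizer ((P : Subgroup G) : Set G)) (by rw [hN, he2])
    rw [← this]
  have hem : e ∈ Nat.divisors 4 := Nat.mem_divisors.2 ⟨he1, by norm_num⟩
  have he3 : e = 2 ∨ e = 4 := by
    have hd : ∀ e ∈ Nat.divisors 4, e ≠ 1 → e = 2 ∨ e = 4 := by decide +kernel
    exact hd e hem hne1
  rcases he3 with he3 | he3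
  · obtain ⟨n, u, i, d, h1, h2, h3, h4, h5', h6, -, h8, -⟩ := two_local_index_e (p := 5) (q := 2) (m := 288) hG (by norm_num) (by rw [h])
      (by norm_num) P 3 (by rw [hN]; norm_num) (by rw [hN]; norm_num) (by rw [h]; norm_num)
      (by
        rw [← he, he3]
        intro j hj1 hj2
        have h1 : j ∈ Nat.divisors 2 := Nat.mem_divisors.2 ⟨hj1, by norm_num⟩
        have hd : ∀ j ∈ Nat.divisors 2, j ∣ 2 ^ 3 → j * j < 2 ^ 3 := by decide +kernel
        exact hd j h1 hj2)
    rw [hN] at h4
    rw [hn] at h3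
    rw [h] at h6 h8
    have hu : u = 40 := Nat.dvd_antisymm h4 (by simpa using h5')
    subst hu
    have hi : n * i = 36 := by nlinarith
    have hnd : n ∈ Nat.divisors 36 := Nat.mem_divisors.2 ⟨⟨i, hi.symm⟩, by norm_num⟩
    have hd : ∀ n ∈ Nat.divisors 36, n % 5 = 1 → n ≠ 1 → n < 36 → n = 6 := by decide +kernel
    obtain rfl := hd n hnd h1 h2 h3
    have hi6 : i = 6 := by omega
    subst hi6
    revert h8
    decide
  · have hC : Nat.card (Subgroup.centralizer ((P : Subgroup G) : Set G)) = 2 * 5 := by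
      rw [he3] at he2
      omega
    have hPC := le_centralizer_of_card_prime (p := 5) (by norm_num) hP
    -- the involution
    obtain ⟨t', ht'⟩ := exists_prime_orderOf_dvd_card' (G := Subgroup.centralizer ((P : Subgroup G) : Set G)) 2 (by rw [hC]; norm_num)
    obtain ⟨t, htC⟩ := t'
    have ho : orderOf t = 2 := by rw [← ht']; exact (Subgroup.orderOf_mk t htC).symm
    have ht2 : t ^ 2 = 1 := by rw [← ho]; exact pow_orderOf_eq_one t
    have ht1 : t ≠ 1 := by
      intro h0
      rw [h0, orderOf_one] at ho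
      omega
    -- `t` is central in `N(P)`
    have hNC : Subgroup.normalizer ((P : Subgroup G) : Set G) ≤ Subgroup.centralizer ({t} : Set G) := by
      intro x hx
      rw [Subgroup.mem_centralizer_singleton_iff]
      have h1 : x * t * x⁻¹ ∈ Subgroup.centralizer ((P : Subgroup G) : Set G) := by
        rw [Subgroup.mem_centralizer_iff]
        intro u hu
        have h2 := (Subgroup.mem_normalizer_iff.1 hx (x⁻¹ * u * x)).2 (by
          have : x * (x⁻¹ * u * x) * x⁻¹ = u := by group
          rw [this]; exact hu)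
        have h3 := Subgroup.mem_centralizer_iff.1 htC _ h2
        calc u * (x * t * x⁻¹) = x * ((x⁻¹ * u * x) * t) * x⁻¹ := by group
          _ = x * (t * (x⁻¹ * u * x)) * x⁻¹ := by rw [h3]
          _ = _ := by group
      have h2 : (x * t * x⁻¹) ^ 2 = 1 := by rw [conj_pow, ht2]; group
      have h3 : x * t * x⁻¹ ≠ 1 := by
        intro h0
        apply ht1
        have : t = x⁻¹ * (x * t * x⁻¹) * x := by group
        rw [this, h0]; group
      have h4 := eq_of_sq_eq_one_of_card_centralizer (p := 5) (by norm_num) (by norm_num) hP hPC hC htC ht2 ht1 h1 h2 h3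
      have : x * t = (x * t * x⁻¹) * x := by group
      rw [this, h4]
    obtain ⟨n', hn1, hn2, hn3, hn4, -, -⟩ := centralizer_data hG hp2 hpG P hP ht1 htC
    have hinf : Subgroup.centralizer ({t} : Set G) ⊓ Subgroup.normalizer ((P : Subgroup G) : Set G) =
        Subgroup.normalizer ((P : Subgroup G) : Set G) := inf_eq_right.2 hNC
    rw [hinf, hN] at hn3
    rw [hn] at hn2
    have hidx := Subgroup.card_mul_index (Subgroup.centralizer ({t} : Set G))
    rw [hn3, h] at hidx
    have hi : n' * (Subgroup.centralizer ({t} : Set G)).index = 36 := by nlinarith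
    have hnd : n' ∈ Nat.divisors 36 := Nat.mem_divisors.2 ⟨⟨_, hi.symm⟩, by norm_num⟩
    have hn' : n' = 1 ∨ n' = 6 := by
      have hd : ∀ n ∈ Nat.divisors 36, n % 5 = 1 → n < 36 → n = 1 ∨ n = 6 := by decide +kernel
      exact hd n' hnd hn1 hn2
    rcases hn' with rfl | rfl
    · have hCN : Subgroup.centralizer ({t} : Set G) = Subgroup.normalizer ((P : Subgroup G) : Set G) :=
        le_antisymm (hn4 rfl) hNC
      obtain ⟨f1, f2, f3, f4⟩ := fixedBy_facts hG hpG P htC ho
      rw [hn] at f2 f3 f4
      have f3' := f3 rfl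
      set f := Nat.card (MulAction.fixedBy (Sylow 5 G) t) with hf
      have hf16 : f = 16 := by omega
      have hform := card_fixedBy_mul_normalizer P t
      rw [← hf, hf16, hN, hn3, one_mul] at hform
      have hle := card_conj_normalizer_le (p := 5) (by norm_num) (by norm_num) hP ht2
      have h1 := card_sq_eq_one_centralizer_le (p := 5) (by norm_num) (by norm_num) hP hPC
      rw [hC] at h1 hle
      omega
    · have hi6 : (Subgroup.centralizer ({t} : Set G)).index = 6 := by omega
      have := index_embed hG ht1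
      rw [hi6, h] at this
      revert this
      decide

/-- No finite simple group has order 1440 = 2^5 * 3^2 * 5. -/
theorem result {G : Type*} [Group G] [Finite G] [IsSimpleGroup G] : Nat.card G ≠ 1440 := by
  intro h
  have : Fact (Nat.Prime 5) := ⟨by norm_num⟩
  have h7 : Nat.card G = 5 * 288 := by rw [h]
  have hm : ¬ 5 ∣ 288 := by norm_num
  have hG : ¬ IsMulCommutative G :=
    Cfsg.Agent.Lib.SmallGroups2.not_isMulCommutative_of_not_prime (by rw [h]; norm_num)
  have hmem := Cfsg.Agent.Lib.SmallGroups2.card_sylow_mem_candidates hG h7 hm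
  have hc : Cfsg.Agent.Lib.SmallGroups2.sylowCandidates 5 288 = {6, 16, 36} := by decide +kernel
  rw [hc] at hmem
  simp only [Finset.mem_insert, Finset.mem_singleton] at hmem
  rcases hmem with hn | hn | hn
  · have := two_mul_card_dvd_factorial_card_sylow hG (p := 5) (by rw [h]; norm_num)
    rw [hn, h] at this
    revert this
    decide
  · exact case16 hG h hn
  · exact case36 hG h hn

end Cfsg.Agent.S1016
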