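import Mathlib
import Cfsg.Statements.S1017
import Cfsg.Agent.Lib.SmallGroups2
import Cfsg.Agent.Lib.TwoLocal
-- import your own Cfsg.Agent.* helpers here

set_option autoImplicit false
open Cfsg

namespace Cfsg.Agent.S1017

open Cfsg.Agent.Lib.SmallGroups2
open Cfsg.Agent.Lib.TwoLocal

/-- No finite simple group has order 2016 = 2^5 * 3^2 * 7. -/
theorem result {G : Type*} [Group G] [Finite G] [IsSimpleGroup G] : Nat.card G ≠ 2016 := by
  intro h
  have : Fact (Nat.Prime 7) := ⟨by norm_num⟩
  have : Fact (Nat.Prime 2) := ⟨by norm_num⟩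
  have h7 : Nat.card G = 7 * 288 := by rw [h]
  have hm : ¬ 7 ∣ 288 := by norm_num
  have hG : ¬ IsMulCommutative G :=
    Cfsg.Agent.Lib.SmallGroups2.not_isMulCommutative_of_not_prime (by rw [h]; norm_num)
  have hmem := Cfsg.Agent.Lib.SmallGroups2.card_sylow_mem_candidates hG h7 hm
  have hc : Cfsg.Agent.Lib.SmallGroups2.sylowCandidates 7 288 = {8, 36} := by decide +kernel
  rw [hc] at hmem
  simp only [Finset.mem_insert, Finset.mem_singleton] at hmem
  rcases hmem with hn | hn
  · exact comm_exclude (p := 7) (q := 2) (k := 36) hG h7 hm hn (by norm_num) (by decide +kernel) (by decide +kernel)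
  · exact two_local_exclude (q := 2) (k := 8) hG (by norm_num) h7 hm hn (by norm_num) 3 36 (by norm_num) (by norm_num)
      (by norm_num) (by decide +kernel) (by norm_num) (by norm_num) (by decide +kernel)

end Cfsg.Agent.S1017
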