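import Mathlib
import Cfsg.Statements.S1018
import Cfsg.Agent.Lib.SmallGroups2
-- import your own Cfsg.Agent.* helpers here

set_option autoImplicit false
open Cfsg

namespace Cfsg.Agent.S1018

theorem smul_mk_eq_iff {G : Type*} [Group G] (H : Subgroup G) (y g : G) :
    y • (QuotientGroup.mk g : G ⧸ H) = QuotientGroup.mk g ↔ g⁻¹ * y * g ∈ H := by
  rw [MulAction.Quotient.smul_mk, QuotientGroup.eq]
  simp [mul_assoc]
  constructor
  · intro h
    have : (y * g)⁻¹ * g = g⁻¹ * y⁻¹ * g := by group
    have h' : g⁻¹ * y⁻¹ * g ∈ H := by simpa [mul_assoc] using h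
    have := H.inv_mem h'
    simpa [mul_assoc] using this
  · intro h
    have := H.inv_mem h
    simpa [mul_assoc] using this

theorem smul_eq_iff' {G : Type*} [Group G] {p : ℕ} {P : Sylow p G} {g : G} :
    g • P = P ↔ g ∈ Subgroup.normalizer ((P : Subgroup G) : Set G) :=
  Sylow.smul_eq_iff_mem_normalizer

/-- `g⁻¹ y g` normalizes `P` iff `y` normalizes `g • P`. -/
theorem conj_mem_normalizer_iff {G : Type*} [Group G] [Finite G] {p : ℕ} [Fact p.Prime] (P : Sylow p G) (y g : G) :
    g⁻¹ * y * g ∈ Subgroup.normalizer ((P : Subgroup G) : Set G) ↔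
      y ∈ Subgroup.normalizer (((g • P : Sylow p G) : Subgroup G) : Set G) := by
  rw [← smul_eq_iff', ← smul_eq_iff', smul_smul]
  constructor
  · intro h
    have := congrArg (fun Q : Sylow p G => g • Q) h
    simp only [smul_smul] at this
    have h2 : g * (g⁻¹ * y * g) = y * g := by group
    rwa [h2] at this
  · intro h
    have h2 : g⁻¹ * y * g = g⁻¹ * (y * g) := by group
    rw [h2, ← smul_smul, h, smul_smul, inv_mul_cancel, one_smul]

/-- A `p`-element normalizing a Sylow subgroup lies in it. -/
theorem mem_of_orderOf_of_mem_normalizer {G : Type*} [Group G] [Finite G] {p : ℕ} [Fact p.Prime] (R : Sylow p G) {y : G}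
    (hy : orderOf y = p) (hn : y ∈ Subgroup.normalizer ((R : Subgroup G) : Set G)) : y ∈ (R : Subgroup G) := by
  have hpg : IsPGroup p (Subgroup.zpowers y) := by
    rw [IsPGroup.iff_card, Nat.card_zpowers, hy]
    exact ⟨1, by simp⟩
  have h5 := hpg.inf_normalizer_sylow R
  have h6 : y ∈ Subgroup.zpowers y ⊓ (R : Subgroup G) := by
    rw [← h5]
    exact ⟨Subgroup.mem_zpowers y, hn⟩
  exact h6.2


/-- Let P be a Sylow p-subgroup of order p of a finite group G, and consider the action of G on the left cosets of the normalizer N of P. Then every element of order p fixes exactly one coset, and an element of N that does not centralize P fixes at most as many cosets as there are orbits of P. -/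
theorem result {G : Type*} [Group G] [Finite G] (p : ℕ) [Fact p.Prime] (P : Sylow p G) (hP : Nat.card ↥(P : Subgroup G) = p) : (∀ y : G, orderOf y = p → Nat.card (MulAction.fixedBy (G ⧸ Subgroup.normalizer ((P : Subgroup G) : Set G)) y) = 1) ∧ ∀ x : G, x ∈ Subgroup.normalizer ((P : Subgroup G) : Set G) → x ∉ Subgroup.centralizer ((P : Subgroup G) : Set G) → Nat.card (MulAction.fixedBy (G ⧸ Subgroup.normalizer ((P : Subgroup G) : Set G)) x) ≤ Nat.card (MulAction.orbitRel.Quotient ↥(P : Subgroup G) (G ⧸ Subgroup.normalizer ((P : Subgroup G) : Set G))) := by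
  classical
  have hp : p.Prime := Fact.out
  have hPall : ∀ Q : Sylow p G, Nat.card (Q : Subgroup G) = p := by
    intro Q
    exact (Nat.card_congr (Sylow.equiv Q P).toEquiv).trans hP
  set N := Subgroup.normalizer ((P : Subgroup G) : Set G) with hN
  constructor
  · intro y hy
    obtain ⟨Q, hQ⟩ := Cfsg.Agent.Lib.SmallGroups2.exists_sylow_mem_of_orderOf hy
    obtain ⟨g₀, rfl⟩ := MulAction.exists_smul_eq G P Q
    have hy1 : y ≠ 1 := by
      rintro rfl
      rw [orderOf_one] at hy
      exact hp.one_lt.ne hy
    rw [Nat.card_eq_one_iff_unique]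
    constructor
    · constructor
      rintro ⟨q₁, hq₁⟩ ⟨q₂, hq₂⟩
      apply Subtype.ext
      show q₁ = q₂
      have main : ∀ q : G ⧸ N, q ∈ MulAction.fixedBy (G ⧸ N) y → q = QuotientGroup.mk g₀ := by
        intro q hq
        induction q using QuotientGroup.induction_on with
        | H g =>
          rw [MulAction.mem_fixedBy, smul_mk_eq_iff, hN, conj_mem_normalizer_iff] at hq
          have h1 := mem_of_orderOf_of_mem_normalizer (g • P) hy hq
          have h2 : g • P = g₀ • P := Cfsg.Agent.Lib.SmallGroups2.sylow_eq_of_mem_of_ne_one (hPall _) (hPall _) h1 hQ hy1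
          rw [QuotientGroup.eq]
          have h3 : (g⁻¹ * g₀) • P = P := by
            rw [← smul_smul, ← h2, smul_smul, inv_mul_cancel, one_smul]
          rw [hN, ← smul_eq_iff']
          exact h3
      rw [main q₁ hq₁, main q₂ hq₂]
    · refine ⟨⟨QuotientGroup.mk g₀, ?_⟩⟩
      rw [MulAction.mem_fixedBy, smul_mk_eq_iff, hN, conj_mem_normalizer_iff]
      exact Subgroup.le_normalizer hQ
  · intro x hxN hxC
    -- injection of fixed points into P-orbits
    let f : MulAction.fixedBy (G ⧸ N) x → MulAction.orbitRel.Quotient ↥(P : Subgroup G) (G ⧸ N) :=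
      fun q => Quotient.mk'' q.1
    apply Nat.card_le_card_of_injective f
    rintro ⟨q₁, hq₁⟩ ⟨q₂, hq₂⟩ hff
    apply Subtype.ext
    show q₁ = q₂
    have hrel : q₁ ∈ MulAction.orbit ↥(P : Subgroup G) q₂ := by
      have : (MulAction.orbitRel ↥(P : Subgroup G) (G ⧸ N)) q₁ q₂ := Quotient.exact' hff
      exact MulAction.orbitRel_apply.1 this
    obtain ⟨u, hu⟩ := hrel
    -- q₁ = u • q₂
    induction q₂ using QuotientGroup.induction_on with
    | H g =>
      by_cases hu1 : (u : G) = 1
      · have h1 : u = 1 := Subtype.ext hu1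
        rw [← hu, h1]
        exact one_smul _ _
      · have hx2 : x ∈ Subgroup.normalizer (((g • P : Sylow p G) : Subgroup G) : Set G) := by
          rw [MulAction.mem_fixedBy, smul_mk_eq_iff, hN, conj_mem_normalizer_iff] at hq₂
          exact hq₂
        have hq₁' : q₁ = QuotientGroup.mk ((u : G) * g) := by
          rw [← hu]
          rfl
        have hx1 : x ∈ Subgroup.normalizer ((((u : G) * g) • P : Sylow p G) : Subgroup G) := by
          rw [hq₁', MulAction.mem_fixedBy, smul_mk_eq_iff, hN, conj_mem_normalizer_iff] at hq₁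
          exact hq₁
        by_cases hR : g • P = P
        · -- then q₂ is the trivial coset, fixed by P
          have hg : g ∈ N := by rw [hN, ← smul_eq_iff']; exact hR
          rw [hq₁']
          rw [QuotientGroup.eq]
          have : ((u : G) * g)⁻¹ * g = g⁻¹ * (u : G)⁻¹ * g := by group
          rw [this]
          have huN : (u : G) ∈ N := Subgroup.le_normalizer u.2
          exact N.mul_mem (N.mul_mem (N.inv_mem hg) (N.inv_mem huN)) hg
        · exfalso
          apply hxC
          -- x commutes with u
          have hcomm : (x⁻¹ * (u : G)⁻¹ * x) * (u : G) = 1 := by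
            have hinP : (x⁻¹ * (u : G)⁻¹ * x) * (u : G) ∈ (P : Subgroup G) := by
              refine Subgroup.mul_mem _ ?_ u.2
              have hxinv : x⁻¹ ∈ N := N.inv_mem hxN
              have := (Subgroup.mem_normalizer_iff.1 hxinv (u : G)⁻¹).1 (Subgroup.inv_mem _ u.2)
              simpa using this
            have hinN : (x⁻¹ * (u : G)⁻¹ * x) * (u : G) ∈ Subgroup.normalizer (((g • P : Sylow p G) : Subgroup G) : Set G) := by
              have h2 : x⁻¹ * ((u : G)⁻¹ * x * (u : G)) ∈ Subgroup.normalizer (((g • P : Sylow p G) : Subgroup G) : Set G) := by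
                refine Subgroup.mul_mem _ (Subgroup.inv_mem _ hx2) ?_
                have h3 : (((u : G) * g) • P : Sylow p G) = (u : G) • (g • P) := by rw [smul_smul]
                rw [h3] at hx1
                have h4 := (conj_mem_normalizer_iff (g • P) x (u : G)).2 hx1
                exact h4
              have h5 : (x⁻¹ * (u : G)⁻¹ * x) * (u : G) = x⁻¹ * ((u : G)⁻¹ * x * (u : G)) := by group
              rw [h5]; exact h2
            by_contra hne
            have horder : orderOf ((x⁻¹ * (u : G)⁻¹ * x) * (u : G)) = p :=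
              Cfsg.Agent.Lib.SmallGroups2.orderOf_eq_of_mem_of_ne_one hp hP hinP hne
            have h6 := mem_of_orderOf_of_mem_normalizer (g • P) horder hinN
            exact hR (Cfsg.Agent.Lib.SmallGroups2.sylow_eq_of_mem_of_ne_one (hPall _) hP h6 hinP hne)
          have hxu : x * (u : G) = (u : G) * x := by
            have h7 : x⁻¹ * (u : G)⁻¹ * x * (u : G) = 1 := hcomm
            have h8 : x * (u : G) = (u : G) * x * (x⁻¹ * (u : G)⁻¹ * x * (u : G)) := by group
            rw [h8, h7, mul_one]
          have hgen := Cfsg.Agent.Lib.SmallGroups2.zpowers_eq_of_mem_of_ne_one hp hP u.2 hu1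
          rw [Subgroup.mem_centralizer_iff]
          intro h hh
          rw [← hgen] at hh
          obtain ⟨k, rfl⟩ := Subgroup.mem_zpowers_iff.1 hh
          exact ((Commute.zpow_left (show Commute (u : G) x from hxu.symm) k)).eq

end Cfsg.Agent.S1018
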