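import Mathlib
import Cfsg.Statements.S1022
import Cfsg.Agent.Lib.SmallGroups2
import Cfsg.Agent.Lib.TwoLocal
-- import your own Cfsg.Agent.* helpers here

set_option autoImplicit false
open Cfsg

namespace Cfsg.Agent.S1022

open Cfsg.Agent.Lib.SmallGroups2
open Cfsg.Agent.Lib.TwoLocal

/-- No finite simple group has order 459648 = 2^7 * 3^3 * 7 * 19. -/
theorem result {G : Type*} [Group G] [Finite G] [IsSimpleGroup G] : Nat.card G ≠ 459648 := by
  intro h
  have : Fact (Nat.Prime 19) := ⟨by norm_num⟩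
  have : Fact (Nat.Prime 2) := ⟨by norm_num⟩
  have : Fact (Nat.Prime 7) := ⟨by norm_num⟩
  have h19 : Nat.card G = 19 * 24192 := by rw [h]
  have hm : ¬ 19 ∣ 24192 := by norm_num
  have hG : ¬ IsMulCommutative G :=
    Cfsg.Agent.Lib.SmallGroups2.not_isMulCommutative_of_not_prime (by rw [h]; norm_num)
  have hmem := Cfsg.Agent.Lib.SmallGroups2.card_sylow_mem_candidates hG h19 hm
  have hc : Cfsg.Agent.Lib.SmallGroups2.sylowCandidates 19 24192 = {96, 1008} := by decide +kernel
  rw [hc] at hmem
  simp only [Finset.mem_insert, Finset.mem_singleton] at hmem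
  rcases hmem with hn | hn
  · exact comm_test (p := 19) (q := 7) (k := 252) hG h19 hm hn (by norm_num)
      (by
        intro e he1 he2
        have h1 : e ∈ Nat.divisors 18 := Nat.mem_divisors.2 ⟨he1, by norm_num⟩
        have hd : ∀ e ∈ Nat.divisors 18, e ∣ 252 → 7 ∣ 252 / e := by decide +kernel
        exact hd e h1 he2)
      (by decide +kernel)
  · obtain ⟨P⟩ : Nonempty (Sylow 19 G) := inferInstance
    have hN : Nat.card (Subgroup.normalizer ((P : Subgroup G) : Set G)) = 456 := by
      have h1 := Cfsg.Agent.Lib.SmallGroups2.card_normalizer_mul_card_sylow P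
      rw [h, hn] at h1
      omega
    obtain ⟨n, h1, h2, h3, h4⟩ := two_local_test (q := 2) hG (by norm_num) h19 hm P 3 (by rw [hN]; norm_num)
      (by rw [hN]; norm_num) (by rw [h]; norm_num)
      (by
        intro j hj1 hj2
        have h1 : j ∈ Nat.divisors 18 := Nat.mem_divisors.2 ⟨hj1, by norm_num⟩
        have hd : ∀ j ∈ Nat.divisors 18, j ∣ 2 ^ 3 → j * j < 2 ^ 3 := by decide +kernel
        exact hd j h1 hj2)
    rw [hn] at h3
    rw [h] at h4
    have h5 : n ∣ 3024 := by
      have : n * 152 ∣ 3024 * 152 := by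
        norm_num at h4 ⊢
        exact h4
      exact Nat.dvd_of_mul_dvd_mul_right (by norm_num) this
    have h6 : n ∈ Nat.divisors 3024 := Nat.mem_divisors.2 ⟨h5, by norm_num⟩
    have hd : ∀ n ∈ Nat.divisors 3024, n % 19 = 1 → n ≠ 1 → n ≠ 1008 → False := by decide +kernel
    exact hd n h6 h1 h2 h3

end Cfsg.Agent.S1022
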