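import Mathlib
-- Template for statement S1024 (row 1024; see /opt/grader/pristine/manifest.json for weights).
-- Copy to Cfsg/Agent/S1024.lean and replace the sorry. The statement below is byte-identical to the frozen
-- statement Cfsg.CfsgFrozen.S1024 (Cfsg/Statements/S1024.lean; the theorem Cfsg.chevalley_root_elem_zero);
-- the grader kernel-checks Cfsg.Agent.S1024.result against that frozen type. Keep the theorem IN THIS FILE
-- (a `result` declared elsewhere and merely imported here is not credited); helpers may live anywhere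
-- under Cfsg/Agent/.
import Cfsg.Statements.S1024
import Cfsg.Agent.Lib.Chev.All

set_option autoImplicit false
open Cfsg

namespace Cfsg.Agent.S1024

/-- `x_r(0) = 1`, and `x_r(t) = 1` forces `t = 0`: the map `t ↦ x_r(t)` is injective. -/
theorem result {F : Type*} [Field F] (D : Cfsg.Lie.ChevalleyDatum) (hD : D ∈ [Cfsg.Lie.chevG2, Cfsg.Lie.chevB2, Cfsg.Lie.chevD4, Cfsg.Lie.chevF4, Cfsg.Lie.chevE6, Cfsg.Lie.chevE7, Cfsg.Lie.chevE8]) (r : ℕ) (hr : r < D.nroots) (t : F) :
    D.x F r t = 1 ↔ t = 0 := by
  obtain ⟨T, X, hC⟩ := Cfsg.Agent.Lib.Chev.exists_checks D hD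
  exact hC.x_eq_one_iff hr t

end Cfsg.Agent.S1024
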