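import Mathlib
-- Template for statement S1027 (row 1027; see /opt/grader/pristine/manifest.json for weights).
-- Copy to Cfsg/Agent/S1027.lean and replace the sorry. The statement below is byte-identical to the frozen
-- statement Cfsg.CfsgFrozen.S1027 (Cfsg/Statements/S1027.lean; the theorem Cfsg.chevalley_card_pos_unipotent);
-- the grader kernel-checks Cfsg.Agent.S1027.result against that frozen type. Keep the theorem IN THIS FILE
-- (a `result` declared elsewhere and merely imported here is not credited); helpers may live anywhere
-- under Cfsg/Agent/.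
import Cfsg.Statements.S1027
import Cfsg.Agent.Lib.Chev.Prod
import Cfsg.Agent.Lib.Chev.Core

set_option autoImplicit false
open Cfsg

namespace Cfsg.Agent.S1027

/-- For the subgroup `U` generated by the root elements `x_r(t)` of the positive roots `r`: `|U| = q^N` over a field with `q` elements, where `N` is the number of positive roots (half the number of roots). -/
theorem result {F : Type*} [Field F] [Fintype F] (D : Cfsg.Lie.ChevalleyDatum) (hD : D ∈ [Cfsg.Lie.chevG2, Cfsg.Lie.chevB2, Cfsg.Lie.chevD4, Cfsg.Lie.chevF4, Cfsg.Lie.chevE6, Cfsg.Lie.chevE7, Cfsg.Lie.chevE8]) :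
    Nat.card (D.posUnipotent F) = Fintype.card F ^ (D.nroots / 2) := by
  obtain ⟨T, X, R, hF⟩ := Cfsg.Agent.Lib.Chev.exists_full D hD
  rw [hF.card_U_fintype, hF.two]
  congr 1
  omega

end Cfsg.Agent.S1027
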