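import Mathlib
-- Template for statement S1028 (row 1028; see /opt/grader/pristine/manifest.json for weights).
-- Copy to Cfsg/Agent/S1028.lean and replace the sorry. The statement below is byte-identical to the frozen
-- statement Cfsg.CfsgFrozen.S1028 (Cfsg/Statements/S1028.lean; the theorem Cfsg.chevalley_unipotent_sub_one_nilpotent);
-- the grader kernel-checks Cfsg.Agent.S1028.result against that frozen type. Keep the theorem IN THIS FILE
-- (a `result` declared elsewhere and merely imported here is not credited); helpers may live anywhere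
-- under Cfsg/Agent/.
import Cfsg.Statements.S1028
import Cfsg.Agent.Lib.Chev.Unip
import Cfsg.Agent.Lib.Chev.Core

set_option autoImplicit false
open Cfsg

namespace Cfsg.Agent.S1028

/-- Elements of `U` (the subgroup generated by the root elements of the positive roots) are unipotent linear maps: `(u - 1)^n = 0` with `n = rank + nroots` the dimension of the module. -/
theorem result {F : Type*} [Field F] (D : Cfsg.Lie.ChevalleyDatum) (hD : D ∈ [Cfsg.Lie.chevG2, Cfsg.Lie.chevB2, Cfsg.Lie.chevD4, Cfsg.Lie.chevF4, Cfsg.Lie.chevE6, Cfsg.Lie.chevE7, Cfsg.Lie.chevE8]) (g : GL D.Idx F) (hg : g ∈ D.posUnipotent F) :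
    ((g : Matrix D.Idx D.Idx F) - 1) ^ (D.rank + D.nroots) = 0 := by
  obtain ⟨T, X, R, hF⟩ := Cfsg.Agent.Lib.Chev.exists_full D hD
  exact hF.pow_sub_one_eq_zero hg

end Cfsg.Agent.S1028
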