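import Mathlib
-- Template for statement S1029 (row 1029; see /opt/grader/pristine/manifest.json for weights).
-- Copy to Cfsg/Agent/S1029.lean and replace the sorry. The statement below is byte-identical to the frozen
-- statement Cfsg.CfsgFrozen.S1029 (Cfsg/Statements/S1029.lean; the theorem Cfsg.chevalley_pos_unipotent_is_nilpotent);
-- the grader kernel-checks Cfsg.Agent.S1029.result against that frozen type. Keep the theorem IN THIS FILE
-- (a `result` declared elsewhere and merely imported here is not credited); helpers may live anywhere
-- under Cfsg/Agent/.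
import Cfsg.Statements.S1029
import Cfsg.Agent.Lib.Chev.Unip
import Cfsg.Agent.Lib.Chev.Core

set_option autoImplicit false
open Cfsg

namespace Cfsg.Agent.S1029

/-- `U` is a nilpotent group (the subgroups generated by root subgroups of height at least `m` form a central series). -/
theorem result {F : Type*} [Field F] (D : Cfsg.Lie.ChevalleyDatum) (hD : D ∈ [Cfsg.Lie.chevG2, Cfsg.Lie.chevB2, Cfsg.Lie.chevD4, Cfsg.Lie.chevF4, Cfsg.Lie.chevE6, Cfsg.Lie.chevE7, Cfsg.Lie.chevE8]) : Group.IsNilpotent (D.posUnipotent F) := by
  obtain ⟨T, X, R, hF⟩ := Cfsg.Agent.Lib.Chev.exists_full D hD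
  exact hF.isNilpotent_posUnipotent

end Cfsg.Agent.S1029
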