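import Mathlib
-- Template for statement S1031 (row 1031; see /opt/grader/pristine/manifest.json for weights).
-- Copy to Cfsg/Agent/S1031.lean and replace the sorry. The statement below is byte-identical to the frozen
-- statement Cfsg.CfsgFrozen.S1031 (Cfsg/Statements/S1031.lean; the theorem Cfsg.chevalley_n_simple_conj_root_elem);
-- the grader kernel-checks Cfsg.Agent.S1031.result against that frozen type. Keep the theorem IN THIS FILE
-- (a `result` declared elsewhere and merely imported here is not credited); helpers may live anywhere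
-- under Cfsg/Agent/.
import Cfsg.Statements.S1031
import Cfsg.Agent.Lib.Chev.All

set_option autoImplicit false
open Cfsg

namespace Cfsg.Agent.S1031

/-- For a fundamental root `p = p_{i+1}` and any root `s`: `n_p x_s(t) n_p⁻¹ = x_{w_p(s)}(η t)` with a sign `η = ±1` independent of `t`, where `w_p(s)` is the reflected root (`reflectRoot`). Stated as `n_p x_s(t) = x_{w_p(s)}(η t) n_p`. -/
theorem result {F : Type*} [Field F] (D : Cfsg.Lie.ChevalleyDatum) (hD : D ∈ [Cfsg.Lie.chevG2, Cfsg.Lie.chevB2, Cfsg.Lie.chevD4, Cfsg.Lie.chevF4, Cfsg.Lie.chevE6, Cfsg.Lie.chevE7, Cfsg.Lie.chevE8]) (i s : ℕ) (hi : i < D.rank) (hs : s < D.nroots) :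
    ∃ η : ℤ, (η = 1 ∨ η = -1) ∧
      ∀ t : F, D.nMat F (D.simple i) 1 * D.x F s t = D.x F (D.reflectRoot i s) ((η : F) * t) * D.nMat F (D.simple i) 1 := by
  obtain ⟨T, X, hC⟩ := Cfsg.Agent.Lib.Chev.exists_checks D hD
  obtain ⟨_, _, h3, h4⟩ := hC.w_spec hi hs
  refine ⟨X.eta i s, mul_self_eq_one_iff.1 h3, fun t => ?_⟩
  rw [← h4]
  exact hC.nConj hi hs t

end Cfsg.Agent.S1031
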