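import Mathlib
-- Template for statement S1035 (row 1035; see /opt/grader/pristine/manifest.json for weights).
-- Copy to Cfsg/Agent/S1035.lean and replace the sorry. The statement below is byte-identical to the frozen
-- statement Cfsg.CfsgFrozen.S1035 (Cfsg/Statements/S1035.lean; the theorem Cfsg.chevalley_card_diagonal);
-- the grader kernel-checks Cfsg.Agent.S1035.result against that frozen type. Keep the theorem IN THIS FILE
-- (a `result` declared elsewhere and merely imported here is not credited); helpers may live anywhere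
-- under Cfsg/Agent/.
import Cfsg.Statements.S1035
import Cfsg.Agent.Lib.Chev.TorusCard
import Cfsg.Agent.Lib.Chev.Core

set_option autoImplicit false
open Cfsg

namespace Cfsg.Agent.S1035

/-- `d · |H| = (q - 1)^rank` over a field with `q` elements, with `d = 1` (G₂, F₄, E₈), `gcd(3, q-1)` (E₆), `gcd(2, q-1)` (E₇, B₂), `gcd(2, q-1)²` (D₄). -/
theorem result {F : Type*} [Field F] [Fintype F] {q : ℕ} (hq : Fintype.card F = q)
    (p : Cfsg.Lie.ChevalleyDatum × ℕ)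
    (hp : p ∈ [(Cfsg.Lie.chevG2, 1), (Cfsg.Lie.chevF4, 1), (Cfsg.Lie.chevE8, 1), (Cfsg.Lie.chevE6, Nat.gcd 3 (q - 1)),
      (Cfsg.Lie.chevE7, Nat.gcd 2 (q - 1)), (Cfsg.Lie.chevB2, Nat.gcd 2 (q - 1)), (Cfsg.Lie.chevD4, Nat.gcd 2 (q - 1) ^ 2)]) :
    p.2 * Nat.card (p.1.diagonalSubgroup F) = (q - 1) ^ p.1.rank := by
  subst hq
  simp only [List.mem_cons, List.not_mem_nil, or_false] at hp
  rcases hp with rfl | rfl | rfl | rfl | rfl | rfl | rfl
  · obtain ⟨T, X, R, hF⟩ := Cfsg.Agent.Lib.Chev.exists_full Cfsg.Lie.chevG2 (by simp)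
    exact Cfsg.Agent.Lib.Chev.Full.torus_card_G2 hF
  · obtain ⟨T, X, R, hF⟩ := Cfsg.Agent.Lib.Chev.exists_full Cfsg.Lie.chevF4 (by simp)
    exact Cfsg.Agent.Lib.Chev.Full.torus_card_F4 hF
  · obtain ⟨T, X, R, hF⟩ := Cfsg.Agent.Lib.Chev.exists_full Cfsg.Lie.chevE8 (by simp)
    exact Cfsg.Agent.Lib.Chev.Full.torus_card_E8 hF
  · obtain ⟨T, X, R, hF⟩ := Cfsg.Agent.Lib.Chev.exists_full Cfsg.Lie.chevE6 (by simp)
    exact Cfsg.Agent.Lib.Chev.Full.torus_card_E6 hF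
  · obtain ⟨T, X, R, hF⟩ := Cfsg.Agent.Lib.Chev.exists_full Cfsg.Lie.chevE7 (by simp)
    exact Cfsg.Agent.Lib.Chev.Full.torus_card_E7 hF
  · obtain ⟨T, X, R, hF⟩ := Cfsg.Agent.Lib.Chev.exists_full Cfsg.Lie.chevB2 (by simp)
    exact Cfsg.Agent.Lib.Chev.Full.torus_card_B2 hF
  · obtain ⟨T, X, R, hF⟩ := Cfsg.Agent.Lib.Chev.exists_full Cfsg.Lie.chevD4 (by simp)
    exact Cfsg.Agent.Lib.Chev.Full.torus_card_D4 hF

end Cfsg.Agent.S1035
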