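import Mathlib
-- Template for statement S1039 (row 1039; see /opt/grader/pristine/manifest.json for weights).
-- Copy to Cfsg/Agent/S1039.lean and replace the sorry. The statement below is byte-identical to the frozen
-- statement Cfsg.CfsgFrozen.S1039 (Cfsg/Statements/S1039.lean; the theorem Cfsg.chevalley_monomial_quot_diagonal_equiv_weyl);
-- the grader kernel-checks Cfsg.Agent.S1039.result against that frozen type. Keep the theorem IN THIS FILE
-- (a `result` declared elsewhere and merely imported here is not credited); helpers may live anywhere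
-- under Cfsg/Agent/.
import Cfsg.Statements.S1039
import Cfsg.Agent.Lib.Chev.CoxChev
import Cfsg.Agent.Lib.Chev.Core

set_option autoImplicit false
open Cfsg

namespace Cfsg.Agent.S1039

/-- `N/H ≅ W`: there is a surjective homomorphism from `N` onto the Coxeter group of the type (Mathlib's Coxeter matrix G₂, B₂, F₄, E₆, E₇, E₈, nodes numbered as the fundamental roots) with kernel `H`, mapping each `n_{p_i}` to the `i`-th simple reflection. -/
theorem result {F : Type*} [Field F]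
    (p : Cfsg.Lie.ChevalleyDatum × (Σ n : ℕ, CoxeterMatrix (Fin n)))
    (hp : p ∈ [(Cfsg.Lie.chevG2, ⟨2, CoxeterMatrix.G₂⟩), (Cfsg.Lie.chevB2, ⟨2, CoxeterMatrix.B 2⟩), (Cfsg.Lie.chevD4, ⟨4, Cfsg.Lie.coxeterD4⟩), (Cfsg.Lie.chevF4, ⟨4, CoxeterMatrix.F₄⟩),
      (Cfsg.Lie.chevE6, ⟨6, CoxeterMatrix.E₆⟩), (Cfsg.Lie.chevE7, ⟨7, CoxeterMatrix.E₇⟩), (Cfsg.Lie.chevE8, ⟨8, CoxeterMatrix.E₈⟩)]) :
    ∃ φ : ↥(p.1.monomialSubgroup F) →* p.2.2.Group, Function.Surjective φ ∧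
      φ.ker = (p.1.diagonalSubgroup F).subgroupOf (p.1.monomialSubgroup F) ∧
      ∀ (i : Fin p.2.1) (g : ↥(p.1.monomialSubgroup F)),
        ((g : GL p.1.Idx F) : Matrix p.1.Idx p.1.Idx F) = p.1.nMat F (p.1.simple i) 1 → φ g = p.2.2.simple i := by
  simp only [List.mem_cons, List.not_mem_nil, or_false] at hp
  rcases hp with rfl | rfl | rfl | rfl | rfl | rfl | rfl
  · have hF : Cfsg.Agent.Lib.Chev.Full _ _ _ Cfsg.Lie.chevG2 := ⟨Cfsg.Agent.Lib.Chev.RelG2.checks, Cfsg.Agent.Lib.Chev.RootG2.checks⟩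
    exact hF.coxeter_hom (CoxeterMatrix.G₂) (by decide +kernel)
  · have hF : Cfsg.Agent.Lib.Chev.Full _ _ _ Cfsg.Lie.chevB2 := ⟨Cfsg.Agent.Lib.Chev.RelB2.checks, Cfsg.Agent.Lib.Chev.RootB2.checks⟩
    exact hF.coxeter_hom (CoxeterMatrix.B 2) (by decide +kernel)
  · have hF : Cfsg.Agent.Lib.Chev.Full _ _ _ Cfsg.Lie.chevD4 := ⟨Cfsg.Agent.Lib.Chev.RelD4.checks, Cfsg.Agent.Lib.Chev.RootD4.checks⟩
    exact hF.coxeter_hom (Cfsg.Lie.coxeterD4) (by decide +kernel)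
  · have hF : Cfsg.Agent.Lib.Chev.Full _ _ _ Cfsg.Lie.chevF4 := ⟨Cfsg.Agent.Lib.Chev.RelF4.checks, Cfsg.Agent.Lib.Chev.RootF4.checks⟩
    exact hF.coxeter_hom (CoxeterMatrix.F₄) (by decide +kernel)
  · have hF : Cfsg.Agent.Lib.Chev.Full _ _ _ Cfsg.Lie.chevE6 := ⟨Cfsg.Agent.Lib.Chev.RelE6.checks, Cfsg.Agent.Lib.Chev.RootE6.checks⟩
    exact hF.coxeter_hom (CoxeterMatrix.E₆) (by decide +kernel)
  · have hF : Cfsg.Agent.Lib.Chev.Full _ _ _ Cfsg.Lie.chevE7 := ⟨Cfsg.Agent.Lib.Chev.RelE7.checks, Cfsg.Agent.Lib.Chev.RootE7.checks⟩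
    exact hF.coxeter_hom (CoxeterMatrix.E₇) (by decide +kernel)
  · have hF : Cfsg.Agent.Lib.Chev.Full _ _ _ Cfsg.Lie.chevE8 := ⟨Cfsg.Agent.Lib.Chev.RelE8.checks, Cfsg.Agent.Lib.Chev.RootE8.checks⟩
    exact hF.coxeter_hom (CoxeterMatrix.E₈) (by decide +kernel)

end Cfsg.Agent.S1039
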