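import Mathlib
-- Template for statement S1056 (row 1056; see /opt/grader/pristine/manifest.json for weights).
-- Copy to Cfsg/Agent/S1056.lean and replace the sorry. The statement below is byte-identical to the frozen
-- statement Cfsg.CfsgFrozen.S1056 (Cfsg/Statements/S1056.lean; the theorem Cfsg.chevalley_b2_is_simple_group);
-- the grader kernel-checks Cfsg.Agent.S1056.result against that frozen type. Keep the theorem IN THIS FILE
-- (a `result` declared elsewhere and merely imported here is not credited); helpers may live anywhere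
-- under Cfsg/Agent/.
import Cfsg.Statements.S1056
import Cfsg.Agent.Lib.Chev.Simple
import Cfsg.Agent.Lib.Chev.Core

set_option autoImplicit false
open Cfsg

namespace Cfsg.Agent.S1056

/-- B₂(F) is simple for every field `F` other than the field with two elements. -/
theorem result {F : Type*} [Field F] (hF : ∃ a : F, a ≠ 0 ∧ a ≠ 1) : IsSimpleGroup ↥(Cfsg.Lie.chevB2.group F) ∧ ¬ IsMulCommutative ↥(Cfsg.Lie.chevB2.group F) := by
  obtain ⟨a, h0, h1⟩ := hF
  obtain ⟨T, X, R, hF'⟩ := Cfsg.Agent.Lib.Chev.exists_full Cfsg.Lie.chevB2 (by simp)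
  exact hF'.isSimple_main Cfsg.Agent.Lib.Chev.connB2 (by decide +kernel) (hF'.perfect_B2 h0 h1)

end Cfsg.Agent.S1056
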