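import Cfsg.Statements.S1077
import Cfsg.Agent.Lib.ChevPresCenter

set_option autoImplicit false
open Cfsg

namespace Cfsg.Agent.S1077

open Cfsg.Agent.Lib.ChevPres Cfsg.Agent.Lib.Chev in
/-- Steinberg's Theorem: there is a homomorphism `x̄_r(t) ↦ x_r(t)` from the presented group onto the Chevalley group whose kernel is precisely the centre; hence `L(K) ≅ Ḡ/Z(Ḡ)`. -/
theorem result {K : Type*} [Field K] (D : Cfsg.Lie.ChevalleyDatum) (hD : D ∈ [Cfsg.Lie.chevG2, Cfsg.Lie.chevB2, Cfsg.Lie.chevD4, Cfsg.Lie.chevF4, Cfsg.Lie.chevE6, Cfsg.Lie.chevE7, Cfsg.Lie.chevE8]) :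
    ∃ θ : D.SteinbergGroup K →* ↥(D.group K), Function.Surjective θ ∧ θ.ker = Subgroup.center (D.SteinbergGroup K) ∧
      ∀ (r : ℕ) (t : K), r < D.nroots → ((θ (D.stGen K r t) : GL D.Idx K) : Matrix D.Idx D.Idx K) = D.x K r t := by
  obtain ⟨T, X, R, hF, hP⟩ := exists_presOK D hD
  refine ⟨thetaG hF, thetaG_surjective hF, ker_eq_center hF hP, ?_⟩
  intro r t hr
  rw [coe_thetaG, theta_y hF hr, hF.c.coe_xG]

end Cfsg.Agent.S1077
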