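import Cfsg.Statements.S1078
import Cfsg.Agent.Lib.ChevPresCenter

set_option autoImplicit false
open Cfsg

namespace Cfsg.Agent.S1078

open Cfsg.Agent.Lib.ChevPres Cfsg.Agent.Lib.Chev in
/-- For G₂, F₄, E₈ the presented group has trivial centre (the universal and adjoint groups coincide). -/
theorem result {K : Type*} [Field K] (D : Cfsg.Lie.ChevalleyDatum) (hD : D ∈ [Cfsg.Lie.chevG2, Cfsg.Lie.chevF4, Cfsg.Lie.chevE8]) :
    Subgroup.center (D.SteinbergGroup K) = ⊥ := by
  have hD' : D ∈ [Cfsg.Lie.chevG2, Cfsg.Lie.chevB2, Cfsg.Lie.chevD4, Cfsg.Lie.chevF4, Cfsg.Lie.chevE6, Cfsg.Lie.chevE7, Cfsg.Lie.chevE8] := by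
    simp only [List.mem_cons, List.not_mem_nil, or_false] at hD ⊢
    tauto
  obtain ⟨T, X, R, hF, hP⟩ := exists_presOK D hD'
  simp only [List.mem_cons, List.not_mem_nil, or_false] at hD
  rcases hD with rfl | rfl | rfl
  · exact center_eq_bot_of_unimodular hF hP smithG2 (by decide +kernel)
  · exact center_eq_bot_of_unimodular hF hP smithF4 (by decide +kernel)
  · exact center_eq_bot_of_unimodular hF hP smithE8 (by decide +kernel)

end Cfsg.Agent.S1078
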