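import Cfsg.Statements.S1079
import Cfsg.Agent.Lib.ChevCenterCard
import Cfsg.Agent.Lib.RepE6All
import Cfsg.Agent.Lib.RepE7All
import Cfsg.Agent.Lib.Chev.RelE6
import Cfsg.Agent.Lib.Chev.RootE6
import Cfsg.Agent.Lib.Chev.RelE7
import Cfsg.Agent.Lib.Chev.RootE7
import Cfsg.Agent.Lib.ChevPresTabE6
import Cfsg.Agent.Lib.ChevPresNegE6
import Cfsg.Agent.Lib.ChevPresTabE7
import Cfsg.Agent.Lib.ChevPresNegE7

set_option autoImplicit false
open Cfsg

namespace Cfsg.Agent.S1079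

open Cfsg.Lie Cfsg.Agent.Lib.Chev Cfsg.Agent.Lib.ChevRep Cfsg.Agent.Lib.ChevPres Cfsg.Agent.Lib.ChevCenterCard

theorem latE6_lt : ∀ k : Fin 6, Cfsg.Agent.Lib.RepE6.latC.getD k 0 < Cfsg.Agent.Lib.RepE6.T.dim := by decide +kernel
theorem latE7_lt : ∀ k : Fin 7, Cfsg.Agent.Lib.RepE7.latC.getD k 0 < Cfsg.Agent.Lib.RepE7.T.dim := by decide +kernel

theorem latE6_ok : ∀ i j : Fin 6, ∑ k : Fin 6, (Cfsg.Agent.Lib.RepE6.latW.getD i []).getD k 0 *
    hExp Cfsg.Agent.Lib.RepE6.T chevE6 (chevE6.simple j) (Cfsg.Agent.Lib.RepE6.latC.getD k 0) =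
      if i = j then 1 else 0 := by decide +kernel

theorem latE7_ok : ∀ i j : Fin 7, ∑ k : Fin 7, (Cfsg.Agent.Lib.RepE7.latW.getD i []).getD k 0 *
    hExp Cfsg.Agent.Lib.RepE7.T chevE7 (chevE7.simple j) (Cfsg.Agent.Lib.RepE7.latC.getD k 0) =
      if i = j then 1 else 0 := by decide +kernel

theorem cancel_pos {a b g m : ℕ} (h1 : a * b = m) (h2 : g * b = m) (hm : 0 < m) : a = g := by
  have hb : 0 < b := by
    rcases Nat.eq_zero_or_pos b with h | h
    · rw [h, mul_zero] at h1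
      omega
    · exact h
  exact Nat.eq_of_mul_eq_mul_right hb (h1.trans h2.symm)

theorem center_E6 {K : Type*} [Field K] [Fintype K] :
    Nat.card (Subgroup.center (chevE6.SteinbergGroup K)) = Nat.gcd 3 (Fintype.card K - 1) := by
  have hF : Full _ _ _ chevE6 := ⟨RelE6.checks, RootE6.checks⟩
  have hP : PresOK _ chevE6 := ⟨negOK_of_check hF Cfsg.Agent.Lib.ChevPresNegE6.neg_ok, Cfsg.Agent.Lib.ChevPresTabE6.w_ok⟩
  have h1 := card_center_eq (K := K) hF hP Cfsg.Agent.Lib.RepE6.rep_ok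
    (C := fun k => ⟨_, latE6_lt k⟩) (W := fun i k => (Cfsg.Agent.Lib.RepE6.latW.getD i []).getD k 0) latE6_ok
  rw [h1]
  have hq : 1 < Fintype.card K := Fintype.one_lt_card
  exact cancel_pos (card_ker_mul (K := K) hF) (Full.torus_card_E6 (F := K) hF) (pow_pos (by omega) _)

theorem center_E7 {K : Type*} [Field K] [Fintype K] :
    Nat.card (Subgroup.center (chevE7.SteinbergGroup K)) = Nat.gcd 2 (Fintype.card K - 1) := by
  have hF : Full _ _ _ chevE7 := ⟨RelE7.checks, RootE7.checks⟩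
  have hP : PresOK _ chevE7 := ⟨negOK_of_check hF Cfsg.Agent.Lib.ChevPresNegE7.neg_ok, Cfsg.Agent.Lib.ChevPresTabE7.w_ok⟩
  have h1 := card_center_eq (K := K) hF hP Cfsg.Agent.Lib.RepE7.rep_ok
    (C := fun k => ⟨_, latE7_lt k⟩) (W := fun i k => (Cfsg.Agent.Lib.RepE7.latW.getD i []).getD k 0) latE7_ok
  rw [h1]
  have hq : 1 < Fintype.card K := Fintype.one_lt_card
  exact cancel_pos (card_ker_mul (K := K) hF) (Full.torus_card_E7 (F := K) hF) (pow_pos (by omega) _)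

/-- `|Z(Ḡ)| = gcd(3, q-1)` for E₆ and `gcd(2, q-1)` for E₇ over a field with `q` elements (the centre is dual to the weight lattice modulo the root lattice). -/
theorem result {K : Type*} [Field K] [Fintype K] {q : ℕ} (hq : Fintype.card K = q)
    (p : Cfsg.Lie.ChevalleyDatum × ℕ) (hp : p ∈ [(Cfsg.Lie.chevE6, 3), (Cfsg.Lie.chevE7, 2)]) :
    Nat.card (Subgroup.center (p.1.SteinbergGroup K)) = Nat.gcd p.2 (q - 1) := by
  subst hq
  simp only [List.mem_cons, List.not_mem_nil, or_false] at hp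
  rcases hp with rfl | rfl
  · exact center_E6
  · exact center_E7

end Cfsg.Agent.S1079
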