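import Mathlib
import Cfsg.Statements.S1080

set_option autoImplicit false
open Cfsg

namespace Cfsg.Agent.S1080

open Matrix in
lemma xMat_map {F : Type*} [Field F] (D : Cfsg.Lie.ChevalleyDatum) (f : F ≃+* F)
    (r : Fin D.nroots) (t : F) :
    (D.xMat F r t).map f = D.xMat F r (f t) := by
  ext row col
  simp only [Matrix.map_apply, Cfsg.Lie.ChevalleyDatum.xMat, Matrix.of_apply]
  rcases col with i | s
  · rcases row with i' | u
    · simp only []
      split_ifs <;> simp
    · simp only []
      split_ifs <;> simp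
  · simp only []
    split_ifs
    · rcases row with i' | u
      · simp
      · simp only []
        split_ifs <;> simp
    · rcases row with i' | u
      · simp
      · simp only []
        split_ifs <;> simp
    · rcases row with i' | u
      · simp
      · simp only [map_add, map_list_sum, List.map_map]
        congr 1
        · split_ifs <;> simp
        · congr 1
          apply List.map_congr_left
          intro km _
          simp

/-- The entrywise automorphism of `GL`. -/
noncomputable def glMap {F : Type*} [Field F] (D : Cfsg.Lie.ChevalleyDatum) (f : F ≃+* F) :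
    GL D.Idx F ≃* GL D.Idx F :=
  Units.mapEquiv (RingEquiv.mapMatrix f).toMulEquiv

lemma glMap_val {F : Type*} [Field F] (D : Cfsg.Lie.ChevalleyDatum) (f : F ≃+* F) (g : GL D.Idx F) :
    ((glMap D f g : GL D.Idx F) : Matrix D.Idx D.Idx F) = (g : Matrix D.Idx D.Idx F).map f := rfl

lemma map_le {F : Type*} [Field F] (D : Cfsg.Lie.ChevalleyDatum) (f : F ≃+* F) :
    (D.group F).map (glMap D f).toMonoidHom ≤ D.group F := by
  unfold Cfsg.Lie.ChevalleyDatum.group
  rw [MonoidHom.map_closure]
  apply Subgroup.closure_mono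
  rintro _ ⟨g, ⟨r, t, hg⟩, rfl⟩
  refine ⟨r, f t, ?_⟩
  show ((glMap D f g : GL D.Idx F) : Matrix D.Idx D.Idx F) = _
  rw [glMap_val, hg, xMat_map]

lemma map_eq {F : Type*} [Field F] (D : Cfsg.Lie.ChevalleyDatum) (f : F ≃+* F) :
    (D.group F).map (glMap D f).toMonoidHom = D.group F := by
  apply le_antisymm (map_le D f)
  intro g hg
  refine ⟨glMap D f.symm g, map_le D f.symm ⟨g, hg, rfl⟩, ?_⟩
  apply Units.ext
  show ((g : Matrix D.Idx D.Idx F).map f.symm).map f = _
  ext i j
  simp

/-- Field automorphisms: for every field automorphism `f` there is a group automorphism sending each `x_r(t)` to `x_r(f t)`. -/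
theorem result {F : Type*} [Field F] (D : Cfsg.Lie.ChevalleyDatum) (hD : D ∈ [Cfsg.Lie.chevG2, Cfsg.Lie.chevB2, Cfsg.Lie.chevD4, Cfsg.Lie.chevF4, Cfsg.Lie.chevE6, Cfsg.Lie.chevE7, Cfsg.Lie.chevE8]) (f : F ≃+* F) :
    ∃ α : ↥(D.group F) ≃* ↥(D.group F), ∀ (g : ↥(D.group F)) (r : ℕ) (t : F), r < D.nroots →
      ((g : GL D.Idx F) : Matrix D.Idx D.Idx F) = D.x F r t → ((α g : GL D.Idx F) : Matrix D.Idx D.Idx F) = D.x F r (f t) := by
  refine ⟨((glMap D f).subgroupMap (D.group F)).trans (MulEquiv.subgroupCongr (map_eq D f)), ?_⟩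
  intro g r t hr hg
  show ((glMap D f (g : GL D.Idx F) : GL D.Idx F) : Matrix D.Idx D.Idx F) = _
  rw [glMap_val, hg]
  simp only [Cfsg.Lie.ChevalleyDatum.x, dif_pos hr]
  exact xMat_map D f ⟨r, hr⟩ t

end Cfsg.Agent.S1080
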