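import Mathlib
-- Template for statement S1088 (row 1088; see /opt/grader/pristine/manifest.json for weights).
-- Copy to Cfsg/Agent/S1088.lean and replace the sorry. The statement below is byte-identical to the frozen
-- statement Cfsg.CfsgFrozen.S1088 (Cfsg/Statements/S1088.lean; the theorem Cfsg.twisted_d4_card_unipotent);
-- the grader kernel-checks Cfsg.Agent.S1088.result against that frozen type. Keep the theorem IN THIS FILE
-- (a `result` declared elsewhere and merely imported here is not credited); helpers may live anywhere
-- under Cfsg/Agent/.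
import Cfsg.Statements.S1088
import Cfsg.Agent.Lib.Chev.TwD4

set_option autoImplicit false
open Cfsg

namespace Cfsg.Agent.S1088

/-- |U¹| = |G¹ ∩ U| = q ^ 12 for ³D₄(q). -/
theorem result {K : Type*} [Field K] [Fintype K] {q : ℕ} (hq : IsPrimePow q) (hK : Fintype.card K = q ^ 3) :
    Nat.card ↥(Cfsg.Lie.chevD4.posUnipotent K ⊓ Cfsg.Lie.twistedD4 K q) = q ^ 12 := by
  exact Cfsg.Agent.Lib.Chev.TwD4.card_U1 hq hK

end Cfsg.Agent.S1088
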