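import Cfsg.Statements.S1095
import Cfsg.Agent.Lib.ChevMonoN

set_option autoImplicit false
open Cfsg

namespace Cfsg.Agent.S1095

open Cfsg.Agent.Lib.Chev Cfsg.Agent.Lib.ChevMonoN

/-- `n_p` (p = p_{i+1} fundamental) is the signed monomial matrix `h_{p_j} ↦ h_{p_j} - A_{p_j,p} h_p`, `e_s ↦ η_s e_{w_p(s)}`, with `η_s = ±1`, `η_p = η_{-p} = -1`, `η_s η_{w_p(s)} = (-1)^{A_{p,s}}`, `η_s η_{-s} = 1`. -/
theorem result {F : Type*} [Field F] (D : Cfsg.Lie.ChevalleyDatum) (hD : D ∈ [Cfsg.Lie.chevG2, Cfsg.Lie.chevB2, Cfsg.Lie.chevD4, Cfsg.Lie.chevF4, Cfsg.Lie.chevE6, Cfsg.Lie.chevE7, Cfsg.Lie.chevE8]) (i : ℕ) (hi : i < D.rank) :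
    ∃ η : ℕ → ℤ, (∀ s < D.nroots, η s = 1 ∨ η s = -1) ∧ η (D.simple i) = -1 ∧ η (D.neg (D.simple i)) = -1 ∧
      (∀ s < D.nroots, η s * η (D.reflectRoot i s) = (-1) ^ (D.cartan i s).natAbs ∧ η s * η (D.neg s) = 1) ∧
      D.nMat F (D.simple i) 1 = Matrix.of (fun (row col : D.Idx) =>
        Sum.elim
          (fun j' : Fin D.rank => Sum.elim
            (fun j : Fin D.rank => (if j' = j then (1 : F) else 0) - (if (j' : ℕ) = i then ((D.cartan j (D.simple i) : ℤ) : F) else 0))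
            (fun _ => (0 : F)) col)
          (fun s' : Fin D.nroots => Sum.elim
            (fun _ => (0 : F))
            (fun s : Fin D.nroots => if (s' : ℕ) = D.reflectRoot i s then ((η s : ℤ) : F) else 0) col)
          row) := by
  obtain ⟨T, X, R, hF, hm⟩ := exists_full_mono D hD
  refine ⟨X.eta i, ?_, hF.eta_simple hi, ?_, ?_, ?_⟩
  · intro s hs
    have h3 := hF.eta_mul_self hi hs
    rcases Int.mul_eq_one_iff_eq_one_or_neg_one.1 h3 with h | h
    · exact Or.inl h.1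
    · exact Or.inr h.1
  · rw [hF.eta_neg hi (hF.simple_lt hi), hF.eta_simple hi]
  · intro s hs
    rw [← hF.wf_eq_reflect hi hs]
    refine ⟨eta_mul_wf hF hi hs, ?_⟩
    rw [hF.eta_neg hi hs]
    exact hF.eta_mul_self hi hs
  · ext row col
    rw [Matrix.of_apply]
    have hS := hF.c.sound F
    cases col with
    | inl j =>
      rw [nMat_h hS hF.c.rank_eq hm hi j row]
      cases row with
      | inl j' => rfl
      | inr s' => rfl
    | inr s =>
      rw [nMat_e hS hF.c.rank_eq hF.c.nroots_eq hm hi s row]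
      cases row with
      | inl j' => rfl
      | inr s' =>
        simp only [Sum.elim_inr]
        rw [hF.wf_eq_reflect hi s.2]

end Cfsg.Agent.S1095
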