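import Cfsg.Statements.S1096
import Cfsg.Agent.Lib.Chev.Core
import Cfsg.Agent.Lib.Chev.Mono

set_option autoImplicit false
open Cfsg

namespace Cfsg.Agent.S1096

open Cfsg.Agent.Lib.Chev

/-- `n_p h_{p_j}(t) n_p⁻¹ = h_{w_p(p_j)}(t)` for fundamental `p`, `p_j` and `t ≠ 0`, stated as `n_p h_{p_j}(t) = h_{w_p(p_j)}(t) n_p`. -/
theorem result {F : Type*} [Field F] (D : Cfsg.Lie.ChevalleyDatum) (hD : D ∈ [Cfsg.Lie.chevG2, Cfsg.Lie.chevB2, Cfsg.Lie.chevD4, Cfsg.Lie.chevF4, Cfsg.Lie.chevE6, Cfsg.Lie.chevE7, Cfsg.Lie.chevE8]) (i j : ℕ) (hi : i < D.rank) (hj : j < D.rank) (t : F) (ht : t ≠ 0) :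
    D.nMat F (D.simple i) 1 * D.hMat F (D.simple j) t = D.hMat F (D.reflectRoot i (D.simple j)) t * D.nMat F (D.simple i) 1 := by
  obtain ⟨T, X, R, hF⟩ := exists_full D hD
  have hs := hF.simple_lt hj
  have h := hF.nS_conj_hG hi hs ht
  rw [hF.wf_eq_reflect hi hs] at h
  have h2 : hF.nS i * hF.c.hG (D.simple j) t = hF.c.hG (D.reflectRoot i (D.simple j)) t * hF.nS i := by
    rw [← h]
    group
  have h3 := congrArg (fun g : GL D.Idx F => (g : Matrix D.Idx D.Idx F)) h2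
  simp only [Units.val_mul, hF.coe_nS, hF.c.coe_hG] at h3
  exact h3

end Cfsg.Agent.S1096
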