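import Cfsg.Statements.S1097
import Cfsg.Agent.Lib.ChevPresAll

set_option autoImplicit false
open Cfsg

namespace Cfsg.Agent.S1097

open Cfsg.Agent.Lib.ChevPres Cfsg.Agent.Lib.Chev in
/-- Any homomorphism from the presented group to the Chevalley group with `x̄_r(t) ↦ x_r(t)` has kernel contained in `H̄ = ⟨h̄_p(t) : p fundamental, t ≠ 0⟩`. -/
theorem result {K : Type*} [Field K] (D : Cfsg.Lie.ChevalleyDatum) (hD : D ∈ [Cfsg.Lie.chevG2, Cfsg.Lie.chevB2, Cfsg.Lie.chevD4, Cfsg.Lie.chevF4, Cfsg.Lie.chevE6, Cfsg.Lie.chevE7, Cfsg.Lie.chevE8]) (θ : D.SteinbergGroup K →* ↥(D.group K))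
    (hθ : ∀ (r : ℕ) (t : K), r < D.nroots → ((θ (D.stGen K r t) : GL D.Idx K) : Matrix D.Idx D.Idx K) = D.x K r t) :
    θ.ker ≤ Subgroup.closure {h | ∃ (i : ℕ) (t : K), i < D.rank ∧ t ≠ 0 ∧ h = PresentedGroup.mk (D.steinbergRels K) (D.stH (D.simple i) t)} := by
  obtain ⟨T, X, R, hF, hP⟩ := exists_presOK D hD
  have h1 : (D.group K).subtype.comp θ = theta hF :=
    theta_unique hF _ (fun r t hr => Units.ext (hθ r t hr))
  have h2 : Hb D K = Subgroup.closure {h | ∃ (i : ℕ) (t : K), i < D.rank ∧ t ≠ 0 ∧ h = PresentedGroup.mk (D.steinbergRels K) (D.stH (D.simple i) t)} := by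
    unfold Hb
    simp only [mk_stH]
  rw [← h2]
  intro g hg
  apply ker_theta_le hF hP
  rw [MonoidHom.mem_ker, ← h1, MonoidHom.comp_apply, (MonoidHom.mem_ker).1 hg, map_one]

end Cfsg.Agent.S1097
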