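import Mathlib
-- Template for statement S1098 (row 1098; see /opt/grader/pristine/manifest.json for weights).
-- Copy to Cfsg/Agent/S1098.lean and replace the sorry. The statement below is byte-identical to the frozen
-- statement Cfsg.CfsgFrozen.S1098 (Cfsg/Statements/S1098.lean; the theorem Cfsg.chevalley_graph_automorphism_char_two);
-- the grader kernel-checks Cfsg.Agent.S1098.result against that frozen type. Keep the theorem IN THIS FILE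
-- (a `result` declared elsewhere and merely imported here is not credited); helpers may live anywhere
-- under Cfsg/Agent/.
import Cfsg.Statements.S1098
import Cfsg.Agent.Lib.ChevAut.ExoTabs
-- import your own Cfsg.Agent.* helpers here

set_option autoImplicit false
open Cfsg

namespace Cfsg.Agent.S1098

/-- Graph automorphisms in characteristic 2 (K perfect): for B₂ (a short, b long) `x_a(t) ↦ x_b(t²)`, `x_b(t) ↦ x_a(t)`, and for F₄ (p₁, p₂ short, p₃, p₄ long) `x_{p₁}(t) ↦ x_{p₄}(t²)`, `x_{p₂}(t) ↦ x_{p₃}(t²)`, `x_{p₃}(t) ↦ x_{p₂}(t)`, `x_{p₄}(t) ↦ x_{p₁}(t)`, likewise on the negatives, extend to an automorphism of the group. -/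
theorem result {K : Type*} [Field K] [CharP K 2] (hperf : ∀ x : K, ∃ y : K, y ^ 2 = x)
    (p : Cfsg.Lie.ChevalleyDatum × List (ℕ × ℕ))
    (hp : p ∈ [(Cfsg.Lie.chevB2, [(1, 2), (0, 1)]), (Cfsg.Lie.chevF4, [(3, 2), (2, 2), (1, 1), (0, 1)])]) :
    ∃ α : ↥(p.1.group K) ≃* ↥(p.1.group K), ∀ (g : ↥(p.1.group K)) (i : ℕ) (t : K), i < p.1.rank →
      (((g : GL p.1.Idx K) : Matrix p.1.Idx p.1.Idx K) = p.1.x K (p.1.simple i) t →
        ((α g : GL p.1.Idx K) : Matrix p.1.Idx p.1.Idx K) = p.1.x K (p.1.simple (p.2.getD i (0, 1)).1) (t ^ (p.2.getD i (0, 1)).2)) ∧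
      (((g : GL p.1.Idx K) : Matrix p.1.Idx p.1.Idx K) = p.1.x K (p.1.neg (p.1.simple i)) t →
        ((α g : GL p.1.Idx K) : Matrix p.1.Idx p.1.Idx K) = p.1.x K (p.1.neg (p.1.simple (p.2.getD i (0, 1)).1)) (t ^ (p.2.getD i (0, 1)).2)) := by
  simp only [List.mem_cons, List.not_mem_nil, or_false] at hp
  rcases hp with rfl | rfl
  · haveI : CharP K Cfsg.Agent.Lib.ChevAut.Exotic.tabB2.p := ‹CharP K 2›
    obtain ⟨α, hα⟩ := Cfsg.Agent.Lib.ChevAut.Exotic.aut_of_tab (E := Cfsg.Agent.Lib.ChevAut.Exotic.tabB2)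
      (⟨Cfsg.Agent.Lib.Chev.RelB2.checks, Cfsg.Agent.Lib.Chev.RootB2.checks⟩ :
        Cfsg.Agent.Lib.Chev.Full _ _ _ Cfsg.Lie.chevB2) Cfsg.Agent.Lib.Chev.connB2 hperf
      Cfsg.Agent.Lib.ChevAut.Exotic.bijB2 Cfsg.Agent.Lib.ChevAut.Exotic.invB2
      Cfsg.Agent.Lib.ChevAut.Exotic.relB2 Cfsg.Agent.Lib.ChevAut.Exotic.shortB2
      Cfsg.Agent.Lib.ChevAut.Exotic.longB2 Cfsg.Agent.Lib.ChevAut.Exotic.rhltB2
      Cfsg.Agent.Lib.ChevAut.Exotic.rhsurjB2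
    refine ⟨α, fun g i t hi => ?_⟩
    have h0 : ∀ i < Cfsg.Lie.chevB2.rank, Cfsg.Agent.Lib.ChevAut.Exotic.tabB2.rh i = ([(1, 2), (0, 1)].getD i (0, 1)).1 ∧
        Cfsg.Agent.Lib.ChevAut.Exotic.tabB2.la i = ([(1, 2), (0, 1)].getD i (0, 1)).2 := by decide +kernel
    have h1 := hα g i t hi
    rw [(h0 i hi).1, (h0 i hi).2] at h1
    exact h1
  · haveI : CharP K Cfsg.Agent.Lib.ChevAut.Exotic.tabF4.p := ‹CharP K 2›
    obtain ⟨α, hα⟩ := Cfsg.Agent.Lib.ChevAut.Exotic.aut_of_tab (E := Cfsg.Agent.Lib.ChevAut.Exotic.tabF4)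
      (⟨Cfsg.Agent.Lib.Chev.RelF4.checks, Cfsg.Agent.Lib.Chev.RootF4.checks⟩ :
        Cfsg.Agent.Lib.Chev.Full _ _ _ Cfsg.Lie.chevF4) Cfsg.Agent.Lib.Chev.connF4 hperf
      Cfsg.Agent.Lib.ChevAut.Exotic.bijF4 Cfsg.Agent.Lib.ChevAut.Exotic.invF4
      Cfsg.Agent.Lib.ChevAut.Exotic.relF4 Cfsg.Agent.Lib.ChevAut.Exotic.shortF4
      Cfsg.Agent.Lib.ChevAut.Exotic.longF4 Cfsg.Agent.Lib.ChevAut.Exotic.rhltF4
      Cfsg.Agent.Lib.ChevAut.Exotic.rhsurjF4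
    refine ⟨α, fun g i t hi => ?_⟩
    have h0 : ∀ i < Cfsg.Lie.chevF4.rank, Cfsg.Agent.Lib.ChevAut.Exotic.tabF4.rh i = ([(3, 2), (2, 2), (1, 1), (0, 1)].getD i (0, 1)).1 ∧
        Cfsg.Agent.Lib.ChevAut.Exotic.tabF4.la i = ([(3, 2), (2, 2), (1, 1), (0, 1)].getD i (0, 1)).2 := by decide +kernel
    have h1 := hα g i t hi
    rw [(h0 i hi).1, (h0 i hi).2] at h1
    exact h1

end Cfsg.Agent.S1098
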