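import Mathlib
-- Template for statement S1099 (row 1099; see /opt/grader/pristine/manifest.json for weights).
-- Copy to Cfsg/Agent/S1099.lean and replace the sorry. The statement below is byte-identical to the frozen
-- statement Cfsg.CfsgFrozen.S1099 (Cfsg/Statements/S1099.lean; the theorem Cfsg.chevalley_graph_automorphism_g2_char_three);
-- the grader kernel-checks Cfsg.Agent.S1099.result against that frozen type. Keep the theorem IN THIS FILE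
-- (a `result` declared elsewhere and merely imported here is not credited); helpers may live anywhere
-- under Cfsg/Agent/.
import Cfsg.Statements.S1099
import Cfsg.Agent.Lib.ChevAut.ExoTabs
-- import your own Cfsg.Agent.* helpers here

set_option autoImplicit false
open Cfsg

namespace Cfsg.Agent.S1099

/-- Graph automorphism of G₂ in characteristic 3 (K perfect): `x_a(t) ↦ x_b(t³)`, `x_b(t) ↦ x_a(t)`, `x_{-a}(t) ↦ x_{-b}(t³)`, `x_{-b}(t) ↦ x_{-a}(t)` extend to an automorphism of the group. -/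
theorem result {K : Type*} [Field K] [CharP K 3] (hperf : ∀ x : K, ∃ y : K, y ^ 3 = x) :
    ∃ α : ↥(Cfsg.Lie.chevG2.group K) ≃* ↥(Cfsg.Lie.chevG2.group K), ∀ (g : ↥(Cfsg.Lie.chevG2.group K)) (t : K),
      (((g : GL Cfsg.Lie.chevG2.Idx K) : Matrix _ _ K) = Cfsg.Lie.chevG2.x K Cfsg.Lie.g2a t →
        ((α g : GL Cfsg.Lie.chevG2.Idx K) : Matrix _ _ K) = Cfsg.Lie.chevG2.x K Cfsg.Lie.g2b (t ^ 3)) ∧
      (((g : GL Cfsg.Lie.chevG2.Idx K) : Matrix _ _ K) = Cfsg.Lie.chevG2.x K Cfsg.Lie.g2b t →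
        ((α g : GL Cfsg.Lie.chevG2.Idx K) : Matrix _ _ K) = Cfsg.Lie.chevG2.x K Cfsg.Lie.g2a t) ∧
      (((g : GL Cfsg.Lie.chevG2.Idx K) : Matrix _ _ K) = Cfsg.Lie.chevG2.x K Cfsg.Lie.g2ma t →
        ((α g : GL Cfsg.Lie.chevG2.Idx K) : Matrix _ _ K) = Cfsg.Lie.chevG2.x K Cfsg.Lie.g2mb (t ^ 3)) ∧
      (((g : GL Cfsg.Lie.chevG2.Idx K) : Matrix _ _ K) = Cfsg.Lie.chevG2.x K Cfsg.Lie.g2mb t →
        ((α g : GL Cfsg.Lie.chevG2.Idx K) : Matrix _ _ K) = Cfsg.Lie.chevG2.x K Cfsg.Lie.g2ma t) := by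
  haveI : CharP K Cfsg.Agent.Lib.ChevAut.Exotic.tabG2.p := ‹CharP K 3›
  obtain ⟨α, hα⟩ := Cfsg.Agent.Lib.ChevAut.Exotic.aut_of_tab (E := Cfsg.Agent.Lib.ChevAut.Exotic.tabG2)
    (⟨Cfsg.Agent.Lib.Chev.RelG2.checks, Cfsg.Agent.Lib.Chev.RootG2.checks⟩ :
      Cfsg.Agent.Lib.Chev.Full _ _ _ Cfsg.Lie.chevG2) Cfsg.Agent.Lib.Chev.connG2 hperf
    Cfsg.Agent.Lib.ChevAut.Exotic.bijG2 Cfsg.Agent.Lib.ChevAut.Exotic.invG2
    Cfsg.Agent.Lib.ChevAut.Exotic.relG2 Cfsg.Agent.Lib.ChevAut.Exotic.shortG2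
    Cfsg.Agent.Lib.ChevAut.Exotic.longG2 Cfsg.Agent.Lib.ChevAut.Exotic.rhltG2
    Cfsg.Agent.Lib.ChevAut.Exotic.rhsurjG2
  refine ⟨α, fun g t => ?_⟩
  have h0 := hα g 0 t (by decide +kernel)
  have h1 := hα g 1 t (by decide +kernel)
  have hla : Cfsg.Agent.Lib.ChevAut.Exotic.tabG2.la 1 = 1 := by decide +kernel
  rw [hla, pow_one] at h1
  exact ⟨h0.1, h1.1, h0.2, h1.2⟩

end Cfsg.Agent.S1099
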