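import Cfsg.Statements.S1100
import Cfsg.Agent.Lib.ChevCanon
import Cfsg.Agent.Lib.Chev.Core

set_option autoImplicit false
open Cfsg

namespace Cfsg.Agent.S1100

open Cfsg.Lie Cfsg.Agent.Lib.Chev Cfsg.Agent.Lib.BNPair

theorem result_aux {F : Type*} [Field F] {T : Tabs} {X : Extra} {R : RootTab} {D : ChevalleyDatum}
    (hF : Full T X R D) :
    (∀ g ∈ D.group F, ∃ b ∈ D.borelSubgroup F, ∃ n ∈ D.monomialSubgroup F,
      ∃ u ∈ Subgroup.closure {x : GL D.Idx F | ∃ (r : ℕ) (t : F), D.IsPosRoot r ∧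
            (D.rootSubgroup F r).map (MulAut.conj n).toMonoidHom ≤ D.negUnipotent F ∧ (x : Matrix D.Idx D.Idx F) = D.x F r t},
        g = b * n * u) ∧
    (∀ (b b' n n' u u' : GL D.Idx F), b ∈ D.borelSubgroup F → b' ∈ D.borelSubgroup F →
      n ∈ D.monomialSubgroup F → n' ∈ D.monomialSubgroup F →
      u ∈ Subgroup.closure {x : GL D.Idx F | ∃ (r : ℕ) (t : F), D.IsPosRoot r ∧
            (D.rootSubgroup F r).map (MulAut.conj n).toMonoidHom ≤ D.negUnipotent F ∧ (x : Matrix D.Idx D.Idx F) = D.x F r t} →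
      u' ∈ Subgroup.closure {x : GL D.Idx F | ∃ (r : ℕ) (t : F), D.IsPosRoot r ∧
            (D.rootSubgroup F r).map (MulAut.conj n').toMonoidHom ≤ D.negUnipotent F ∧ (x : Matrix D.Idx D.Idx F) = D.x F r t} →
      b * n * u = b' * n' * u' → n⁻¹ * n' ∈ D.diagonalSubgroup F ∧ (n = n' → b = b' ∧ u = u')) := by
  set P := hF.bnPair F with hP
  have hB : ∀ x : ↥(D.group F), x ∈ P.B ↔ x.1 ∈ D.borelSubgroup F := fun x => Subgroup.mem_subgroupOf
  have hN : ∀ x : ↥(D.group F), x ∈ P.N ↔ x.1 ∈ D.monomialSubgroup F := fun x => Subgroup.mem_subgroupOf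
  -- the closure lies in `U`
  have hclU : ∀ n : GL D.Idx F, Subgroup.closure {x : GL D.Idx F | ∃ (r : ℕ) (t : F), D.IsPosRoot r ∧
      (D.rootSubgroup F r).map (MulAut.conj n).toMonoidHom ≤ D.negUnipotent F ∧
      (x : Matrix D.Idx D.Idx F) = D.x F r t} ≤ D.posUnipotent F := by
    intro n
    apply Subgroup.closure_mono
    rintro x ⟨r, t, hr, -, hx⟩
    exact ⟨r, t, hr, hx⟩
  refine ⟨?_, ?_⟩
  · intro g hg
    obtain ⟨n, hn, hgn⟩ := exists_mem_dc (P := P) (⟨g, hg⟩ : ↥(D.group F))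
    obtain ⟨b, hb, b', hb', he⟩ := mem_dc.1 hgn
    have hb1 := (hB b).1 hb
    have hb'1 := (hB b').1 hb'
    have hn1 := (hN n).1 hn
    have he' : g = b.1 * n.1 * b'.1 := congrArg Subtype.val he
    obtain ⟨v, hv, h, hh, hvh⟩ := (hF.mem_borel_iff).1 (Subgroup.inv_mem _ hb'1)
    have hb'2 : b'.1 = h⁻¹ * v⁻¹ := by
      rw [← mul_inv_rev, ← hvh, inv_inv]
    set n₁ := n.1 * h⁻¹ with hn₁
    have hn₁N : n₁ ∈ D.monomialSubgroup F :=
      Subgroup.mul_mem _ hn1 (hF.c.diagonal_le_monomial (Subgroup.inv_mem _ hh))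
    obtain ⟨σ, w, hact⟩ := hF.exists_rootAct hn₁N
    -- the two sets of roots
    let PP : ℕ → Prop := fun r => ∃ hr : r < D.nroots, R.N ≤ ((σ ⟨r, hr⟩ : Fin D.nroots) : ℕ)
    let QQ : ℕ → Prop := fun r => D.IsPosRoot r ∧
      (D.rootSubgroup F r).map (MulAut.conj n₁).toMonoidHom ≤ D.negUnipotent F
    have hPQ : ∀ r, D.IsPosRoot r → PP r ∨ QQ r := by
      intro r hr
      have hr' := (hF.isPos_iff).1 hr
      by_cases h1 : R.N ≤ ((σ ⟨r, hr'.1⟩ : Fin D.nroots) : ℕ)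
      · exact Or.inl ⟨hr'.1, h1⟩
      · refine Or.inr ⟨hr, ?_⟩
        rw [ChevalleyDatum.rootSubgroup, MonoidHom.map_closure, Subgroup.closure_le]
        rintro _ ⟨y, ⟨t, hy⟩, rfl⟩
        rw [hF.c.eq_xG hy]
        show n₁ * hF.c.xG r t * n₁⁻¹ ∈ _
        rw [show hF.c.xG r t = hF.c.xG ((⟨r, hr'.1⟩ : Fin D.nroots) : ℕ) t from rfl, hact.conj]
        exact hF.xG_mem_V (not_le.1 h1) _
    obtain ⟨a, ha, c, hc, hac⟩ := hF.exists_factor (F := F) PP QQ hPQ (Subgroup.inv_mem _ hv)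
    have haU : n₁ * a * n₁⁻¹ ∈ D.posUnipotent F := by
      have hle : Full.rootClosure D F PP ≤ (D.posUnipotent F).comap (MulAut.conj n₁).toMonoidHom := by
        rw [Full.rootClosure, Subgroup.closure_le]
        rintro y ⟨s, t, ⟨hs, hs2⟩, hy⟩
        rw [SetLike.mem_coe, Subgroup.mem_comap, hF.c.eq_xG hy]
        show n₁ * hF.c.xG s t * n₁⁻¹ ∈ _
        rw [show hF.c.xG s t = hF.c.xG ((⟨s, hs⟩ : Fin D.nroots) : ℕ) t from rfl, hact.conj]
        exact hF.xG_mem_U (σ _).2 hs2 _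
      exact hle ha
    refine ⟨b.1 * (n₁ * a * n₁⁻¹), Subgroup.mul_mem _ hb1 (hF.c.posUnipotent_le_borel haU),
      n₁, hn₁N, c, ?_, ?_⟩
    · refine Subgroup.closure_mono ?_ hc
      rintro x ⟨r, t, hr, hx⟩
      exact ⟨r, t, hr.1, hr.2, hx⟩
    · rw [he', hb'2, hac, hn₁]
      group
  · intro b b' n n' u u' hb hb' hn hn' hu hu' he
    have hu1 := hclU n hu
    have hu'1 := hclU n' hu'
    have hbG := hF.c.borel_le_group hb
    have hb'G := hF.c.borel_le_group hb'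
    have hnG := hF.c.monomial_le_group hn
    have hn'G := hF.c.monomial_le_group hn'
    have huG := hF.c.borel_le_group (hF.c.posUnipotent_le_borel hu1)
    have hu'G := hF.c.borel_le_group (hF.c.posUnipotent_le_borel hu'1)
    have h1 : (⟨b * n * u, (D.group F).mul_mem ((D.group F).mul_mem hbG hnG) huG⟩ : ↥(D.group F)) ∈
        dc P (⟨n, hnG⟩ : ↥(D.group F)) :=
      mem_dc.2 ⟨⟨b, hbG⟩, (hB _).2 hb, ⟨u, huG⟩, (hB _).2 (hF.c.posUnipotent_le_borel hu1), rfl⟩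
    have h2 : (⟨b * n * u, (D.group F).mul_mem ((D.group F).mul_mem hbG hnG) huG⟩ : ↥(D.group F)) ∈
        dc P (⟨n', hn'G⟩ : ↥(D.group F)) :=
      mem_dc.2 ⟨⟨b', hb'G⟩, (hB _).2 hb', ⟨u', hu'G⟩, (hB _).2 (hF.c.posUnipotent_le_borel hu'1),
        Subtype.ext he⟩
    have h3 := mem_dc_of_mem_of_mem h2 h1
    have h4 := (dc_eq_iff (P := P) ((hN _).2 hn) ((hN _).2 hn')).1 h3
    have h5 : n⁻¹ * n' ∈ D.borelSubgroup F := (hB _).1 h4
    refine ⟨?_, ?_⟩
    · rw [← hF.B_inf_N]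
      exact ⟨h5, Subgroup.mul_mem _ (Subgroup.inv_mem _ hn) hn'⟩
    · rintro rfl
      have h6 : b⁻¹ * b' = n * (u * u'⁻¹) * n⁻¹ := by
        have h7 : b' = b * n * u * u'⁻¹ * n⁻¹ := by
          rw [he]; group
        rw [h7]; group
      have h8 : Subgroup.closure {x : GL D.Idx F | ∃ (r : ℕ) (t : F), D.IsPosRoot r ∧
          (D.rootSubgroup F r).map (MulAut.conj n).toMonoidHom ≤ D.negUnipotent F ∧
          (x : Matrix D.Idx D.Idx F) = D.x F r t} ≤
          (D.negUnipotent F).comap (MulAut.conj n).toMonoidHom := by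
        rw [Subgroup.closure_le]
        rintro x ⟨r, t, hr, hmap, hx⟩
        rw [SetLike.mem_coe, Subgroup.mem_comap]
        apply hmap
        refine ⟨x, ?_, rfl⟩
        exact Subgroup.subset_closure ⟨t, hx⟩
      have h9 : n * (u * u'⁻¹) * n⁻¹ ∈ D.negUnipotent F :=
        h8 (Subgroup.mul_mem _ hu (Subgroup.inv_mem _ hu'))
      have h10 : b⁻¹ * b' ∈ D.borelSubgroup F ⊓ D.negUnipotent F :=
        ⟨Subgroup.mul_mem _ (Subgroup.inv_mem _ hb) hb', by rw [h6]; exact h9⟩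
      rw [hF.B_inf_V, Subgroup.mem_bot] at h10
      have h11 : b = b' := by
        rw [inv_mul_eq_one] at h10
        exact h10
      refine ⟨h11, ?_⟩
      subst h11
      have h12 : n * u = n * u' := by
        apply mul_left_cancel (a := b)
        rw [← mul_assoc, ← mul_assoc, he]
      exact mul_left_cancel h12

/-- Canonical form `g = b n_w u` (`b ∈ B`, `u ∈ U_w⁻ = ⟨X_r : r > 0, n_w X_r n_w⁻¹ ≤ V⟩`): such a decomposition exists for every element of the group; the coset `n_w H` is determined by `g`; and for a fixed representative `n_w` the factors `b`, `u` are unique. -/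
theorem result {F : Type*} [Field F] (D : Cfsg.Lie.ChevalleyDatum) (hD : D ∈ [Cfsg.Lie.chevG2, Cfsg.Lie.chevB2, Cfsg.Lie.chevD4, Cfsg.Lie.chevF4, Cfsg.Lie.chevE6, Cfsg.Lie.chevE7, Cfsg.Lie.chevE8]) :
    (∀ g ∈ D.group F, ∃ b ∈ D.borelSubgroup F, ∃ n ∈ D.monomialSubgroup F,
      ∃ u ∈ Subgroup.closure {x : GL D.Idx F | ∃ (r : ℕ) (t : F), D.IsPosRoot r ∧
            (D.rootSubgroup F r).map (MulAut.conj n).toMonoidHom ≤ D.negUnipotent F ∧ (x : Matrix D.Idx D.Idx F) = D.x F r t},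
        g = b * n * u) ∧
    (∀ (b b' n n' u u' : GL D.Idx F), b ∈ D.borelSubgroup F → b' ∈ D.borelSubgroup F →
      n ∈ D.monomialSubgroup F → n' ∈ D.monomialSubgroup F →
      u ∈ Subgroup.closure {x : GL D.Idx F | ∃ (r : ℕ) (t : F), D.IsPosRoot r ∧
            (D.rootSubgroup F r).map (MulAut.conj n).toMonoidHom ≤ D.negUnipotent F ∧ (x : Matrix D.Idx D.Idx F) = D.x F r t} →
      u' ∈ Subgroup.closure {x : GL D.Idx F | ∃ (r : ℕ) (t : F), D.IsPosRoot r ∧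
            (D.rootSubgroup F r).map (MulAut.conj n').toMonoidHom ≤ D.negUnipotent F ∧ (x : Matrix D.Idx D.Idx F) = D.x F r t} →
      b * n * u = b' * n' * u' → n⁻¹ * n' ∈ D.diagonalSubgroup F ∧ (n = n' → b = b' ∧ u = u')) := by
  obtain ⟨T, X, R, hF⟩ := exists_full D hD
  exact result_aux hF

end Cfsg.Agent.S1100
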