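import Mathlib
-- Template for statement S1101 (row 1101; see /opt/grader/pristine/manifest.json for weights).
-- Copy to Cfsg/Agent/S1101.lean and replace the sorry. The statement below is byte-identical to the frozen
-- statement Cfsg.CfsgFrozen.S1101 (Cfsg/Statements/S1101.lean; the theorem Cfsg.small_ree_unipotent_elements);
-- the grader kernel-checks Cfsg.Agent.S1101.result against that frozen type. Keep the theorem IN THIS FILE
-- (a `result` declared elsewhere and merely imported here is not credited); helpers may live anywhere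
-- under Cfsg/Agent/.
import Cfsg.Statements.S1101
import Cfsg.Agent.Lib.Chev.TwG2B

set_option autoImplicit false
open Cfsg

namespace Cfsg.Agent.S1101

/-- For ²G₂ over `K` with `|K| = 3^(2m+1)`, `θ = 3^m`: `U¹ = G¹ ∩ U` consists exactly of the elements `x_a(t^θ) x_b(t) x_{a+b}(t^{θ+1}+u^θ) x_{2a+b}(t^{2θ+1}+v^θ) x_{3a+b}(u) x_{3a+2b}(v)`, `t, u, v ∈ K`, and it has `|K|³` elements. -/
theorem result {K : Type*} [Field K] [Fintype K] {m : ℕ} (hK : Fintype.card K = 3 ^ (2 * m + 1)) :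
    (∀ g : GL Cfsg.Lie.chevG2.Idx K, g ∈ Cfsg.Lie.chevG2.posUnipotent K ⊓ Cfsg.Lie.twistedG2 K (3 ^ m) ↔
      ∃ t u v : K, (g : Matrix Cfsg.Lie.chevG2.Idx Cfsg.Lie.chevG2.Idx K) = Cfsg.Lie.chevG2.wordMat K (Cfsg.Lie.reeWordU (3 ^ m) t u v)) ∧
    Nat.card ↥(Cfsg.Lie.chevG2.posUnipotent K ⊓ Cfsg.Lie.twistedG2 K (3 ^ m)) = (3 ^ (2 * m + 1)) ^ 3 := by
  obtain ⟨d⟩ := Cfsg.Agent.Lib.Chev.TwG2.exists_dat hK
  refine ⟨fun g => ?_, ?_⟩
  · rw [d.mem_U1_iff]
    constructor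
    · rintro ⟨t, u, v, rfl⟩
      exact ⟨t, u, v, Cfsg.Agent.Lib.Chev.TwG2.hF.c.coe_wordG _⟩
    · rintro ⟨t, u, v, h⟩
      exact ⟨t, u, v, Cfsg.Agent.Lib.Chev.TwG2.hF.c.eq_wordG h⟩
  · rw [d.card_U1, hK]

end Cfsg.Agent.S1101
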