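import Mathlib
-- Template for statement S1102 (row 1102; see /opt/grader/pristine/manifest.json for weights).
-- Copy to Cfsg/Agent/S1102.lean and replace the sorry. The statement below is byte-identical to the frozen
-- statement Cfsg.CfsgFrozen.S1102 (Cfsg/Statements/S1102.lean; the theorem Cfsg.twisted_e6_card_diagonal);
-- the grader kernel-checks Cfsg.Agent.S1102.result against that frozen type. Keep the theorem IN THIS FILE
-- (a `result` declared elsewhere and merely imported here is not credited); helpers may live anywhere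
-- under Cfsg/Agent/.
import Cfsg.Statements.S1102
import Cfsg.Agent.Lib.Chev.TwE6

set_option autoImplicit false
open Cfsg

namespace Cfsg.Agent.S1102

/-- `|H¹| = |G¹ ∩ H|`: `Nat.gcd 3 (q + 1) * |H¹| = (q - 1) ^ 4 * (q + 1) ^ 2` for ²E₆(q). -/
theorem result {K : Type*} [Field K] [Fintype K] {q : ℕ} (hq : IsPrimePow q) (hK : Fintype.card K = q ^ 2) :
    Nat.gcd 3 (q + 1) * Nat.card ↥(Cfsg.Lie.chevE6.diagonalSubgroup K ⊓ Cfsg.Lie.twistedE6 K q) = (q - 1) ^ 4 * (q + 1) ^ 2 := by
  exact Cfsg.Agent.Lib.Chev.TwE6.card_H1 hq hK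

end Cfsg.Agent.S1102
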