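import Mathlib
-- Template for statement S1104 (row 1104; see /opt/grader/pristine/manifest.json for weights).
-- Copy to Cfsg/Agent/S1104.lean and replace the sorry. The statement below is byte-identical to the frozen
-- statement Cfsg.CfsgFrozen.S1104 (Cfsg/Statements/S1104.lean; the theorem Cfsg.twisted_e6_perfect);
-- the grader kernel-checks Cfsg.Agent.S1104.result against that frozen type. Keep the theorem IN THIS FILE
-- (a `result` declared elsewhere and merely imported here is not credited); helpers may live anywhere
-- under Cfsg/Agent/.
import Cfsg.Statements.S1104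
import Cfsg.Agent.Lib.Chev.TwE6P

set_option autoImplicit false
open Cfsg

namespace Cfsg.Agent.S1104

/-- ²E₆(q) equals its derived subgroup. -/
theorem result {K : Type*} [Field K] [Fintype K] {q : ℕ} (hq : IsPrimePow q) (hK : Fintype.card K = q ^ 2) : commutator ↥(Cfsg.Lie.twistedE6 K q) = ⊤ := by
  exact Cfsg.Agent.Lib.Chev.TwE6.perfect hq hK

end Cfsg.Agent.S1104
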