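import Cfsg.Statements.S1105
import Cfsg.Agent.Lib.TwCore
import Cfsg.Agent.Lib.Chev.RelE6
import Cfsg.Agent.Lib.Chev.RootE6

set_option autoImplicit false
set_option linter.unusedVariables false
set_option linter.unusedSectionVars false
open Cfsg

namespace Cfsg.Agent.S1105

open Cfsg.Lie Cfsg.Agent.Lib.Chev

theorem full : Full TabE6.T TabE6.X RootE6T.R chevE6 := ⟨RelE6.checks, RootE6.checks⟩

/-- The blocks of the longest element. -/
def bl : List (List ℕ) := [[0,5],[2,4],[0,5],[1],[3],[2,4],[0,5],[1],[3],[2,4],[0,5],[1],[3],[2,4],[0,5],[1],[3],[2,4],[0,5],[1],[3],[2,4],[1],[3]]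

theorem bl_cases : ∀ b ∈ bl, b = [0, 5] ∨ b = [2, 4] ∨ b = [1] ∨ b = [3] := by decide +kernel
theorem bl_lt : ∀ i ∈ bl.flatten, i < chevE6.rank := by decide +kernel
theorem bl_opp : ∀ r < chevE6.nroots, (RootE6T.R.N ≤ r ↔ wAct TabE6.X bl.flatten r < RootE6T.R.N) := by
  decide +kernel

def l05 : List (List (ℕ × ℤ)) := [[(56, 1), (36, 1)], [(15, -1), (35, -1)], [(56, 1), (36, 1)]]
def l24 : List (List (ℕ × ℤ)) := [[(42, 1), (37, 1)], [(29, -1), (34, -1)], [(42, 1), (37, 1)]]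
def l1 : List (List (ℕ × ℤ)) := [[(46, 1)], [(25, -1)], [(46, 1)]]
def l3 : List (List (ℕ × ℤ)) := [[(39, 1)], [(32, -1)], [(39, 1)]]

theorem chk05 : checkEq TabE6.T natOps ([0, 5].map Op.n) (opsOf l05.flatten) = true := by decide +kernel
theorem chk24 : checkEq TabE6.T natOps ([2, 4].map Op.n) (opsOf l24.flatten) = true := by decide +kernel
theorem chk1 : checkEq TabE6.T natOps ([1].map Op.n) (opsOf l1.flatten) = true := by decide +kernel
theorem chk3 : checkEq TabE6.T natOps ([3].map Op.n) (opsOf l3.flatten) = true := by decide +kernel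
theorem ent0 : coefV (applyWord TabE6.T natOps (opsOf [(56, 1), (36, 1)]) [⟨flat chevE6 (Sum.inl ⟨2, by decide⟩), natOps.one, Int.ofNat 1⟩]) (flat chevE6 (Sum.inr ⟨56, by decide⟩)) = 1 := by decide +kernel
theorem ent1 : coefV (applyWord TabE6.T natOps (opsOf [(46, 1)]) [⟨flat chevE6 (Sum.inl ⟨3, by decide⟩), natOps.one, Int.ofNat 1⟩]) (flat chevE6 (Sum.inr ⟨46, by decide⟩)) = 1 := by decide +kernel
theorem ent2 : coefV (applyWord TabE6.T natOps (opsOf [(42, 1), (37, 1)]) [⟨flat chevE6 (Sum.inl ⟨0, by decide⟩), natOps.one, Int.ofNat 1⟩]) (flat chevE6 (Sum.inr ⟨42, by decide⟩)) = 1 := by decide +kernel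
theorem ent3 : coefV (applyWord TabE6.T natOps (opsOf [(39, 1)]) [⟨flat chevE6 (Sum.inl ⟨1, by decide⟩), natOps.one, Int.ofNat 1⟩]) (flat chevE6 (Sum.inr ⟨39, by decide⟩)) = 1 := by decide +kernel
theorem ent4 : coefV (applyWord TabE6.T natOps (opsOf [(42, 1), (37, 1)]) [⟨flat chevE6 (Sum.inl ⟨3, by decide⟩), natOps.one, Int.ofNat 1⟩]) (flat chevE6 (Sum.inr ⟨37, by decide⟩)) = 1 := by decide +kernel
theorem ent5 : coefV (applyWord TabE6.T natOps (opsOf [(56, 1), (36, 1)]) [⟨flat chevE6 (Sum.inl ⟨4, by decide⟩), natOps.one, Int.ofNat 1⟩]) (flat chevE6 (Sum.inr ⟨36, by decide⟩)) = 1 := by decide +kernel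

variable {K : Type*} [Field K] [Fintype K] {q : ℕ}

theorem mem_neg (hK : Fintype.card K = q ^ 2) : (-1 : K) ^ q = -1 := neg_one_pow_of_card hK two_ne_zero

theorem w_pair (a b : ℕ) (h : (a, b) ∈ [(e6p1, e6p6), (e6m1, e6m6), (e6p3, e6p5), (e6m3, e6m5)]) (c : ℤ) (hc : ((c : ℤ) : K) ^ q = (c : K)) :
    castW K [(a, c), (b, c)] ∈ e6Words K q := by
  right
  refine ⟨(c : K), (a, b), h, ?_⟩
  simp [castW, hc]

theorem w_single (a : ℕ) (h : a ∈ [e6p2, e6m2, e6p4, e6m4]) (c : ℤ) (hc : ((c : ℤ) : K) ^ q = (c : K)) :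
    castW K [(a, c)] ∈ e6Words K q := by
  left
  exact ⟨(c : K), hc, a, h, by simp [castW]⟩

theorem cast_one_pow : (((1 : ℤ) : K)) ^ q = ((1 : ℤ) : K) := by simp

theorem cast_neg_pow (hK : Fintype.card K = q ^ 2) : (((-1 : ℤ) : K)) ^ q = ((-1 : ℤ) : K) := by
  simpa using mem_neg hK

theorem wordN_blocks (hK : Fintype.card K = q ^ 2) :
    full.wordN (F := K) bl.flatten ∈ twistedE6 K q := by
  have h1 := cast_one_pow (K := K) (q := q)
  have h2 := cast_neg_pow hK
  have hmem : ∀ w, w ∈ e6Words K q → full.c.wordG w ∈ twistedE6 K q :=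
    fun w hw => full.wordG_mem_genSubgroup hw
  apply full.wordN_flatten_mem
  intro b hb
  rcases bl_cases b hb with rfl | rfl | rfl | rfl
  · rw [full.wordN_eq_wordG _ (by decide +kernel) _ chk05]
    apply full.wordG_castW_flatten_mem
    intro l hl
    simp only [l05, List.mem_cons, List.not_mem_nil, or_false] at hl
    rcases hl with rfl | rfl | rfl
    · exact hmem _ (w_pair e6p1 e6p6 (by decide) 1 h1)
    · exact hmem _ (w_pair e6m1 e6m6 (by decide) (-1) h2)
    · exact hmem _ (w_pair e6p1 e6p6 (by decide) 1 h1)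
  · rw [full.wordN_eq_wordG _ (by decide +kernel) _ chk24]
    apply full.wordG_castW_flatten_mem
    intro l hl
    simp only [l24, List.mem_cons, List.not_mem_nil, or_false] at hl
    rcases hl with rfl | rfl | rfl
    · exact hmem _ (w_pair e6p3 e6p5 (by decide) 1 h1)
    · exact hmem _ (w_pair e6m3 e6m5 (by decide) (-1) h2)
    · exact hmem _ (w_pair e6p3 e6p5 (by decide) 1 h1)
  · rw [full.wordN_eq_wordG _ (by decide +kernel) _ chk1]
    apply full.wordG_castW_flatten_mem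
    intro l hl
    simp only [l1, List.mem_cons, List.not_mem_nil, or_false] at hl
    rcases hl with rfl | rfl | rfl
    · exact hmem _ (w_single e6p2 (by decide) 1 h1)
    · exact hmem _ (w_single e6m2 (by decide) (-1) h2)
    · exact hmem _ (w_single e6p2 (by decide) 1 h1)
  · rw [full.wordN_eq_wordG _ (by decide +kernel) _ chk3]
    apply full.wordG_castW_flatten_mem
    intro l hl
    simp only [l3, List.mem_cons, List.not_mem_nil, or_false] at hl
    rcases hl with rfl | rfl | rfl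
    · exact hmem _ (w_single e6p4 (by decide) 1 h1)
    · exact hmem _ (w_single e6m4 (by decide) (-1) h2)
    · exact hmem _ (w_single e6p4 (by decide) 1 h1)

theorem hl_pos : ∀ l ∈ [[(56, (1 : ℤ)), (36, 1)], [(42, 1), (37, 1)], [(46, 1)], [(39, 1)]], ∀ p ∈ l,
    RootE6T.R.N ≤ p.1 ∧ p.1 < chevE6.nroots := by decide +kernel

/-- The normal core of `B¹ = G¹ ∩ B` in ²E₆(q) is trivial. -/
theorem result {K : Type*} [Field K] [Fintype K] {q : ℕ} (hq : IsPrimePow q) (hK : Fintype.card K = q ^ 2) :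
    ((Cfsg.Lie.chevE6.borelSubgroup K ⊓ Cfsg.Lie.twistedE6 K q).subgroupOf (Cfsg.Lie.twistedE6 K q)).normalCore = ⊥ := by
  obtain ⟨n₀, hn₀, hn₀N, σ, u, hact, hopp⟩ := full.exists_opp_of_blocks (F := K) (twistedE6 K q) bl.flatten
    bl_lt (wordN_blocks hK) bl_opp
  apply full.normalCore_inf_eq_bot _ hn₀ hn₀N hact hopp
  have h1 := cast_one_pow (K := K) (q := q)
  have hp05 : full.c.wordG (castW K [(56, (1 : ℤ)), (36, 1)]) ∈ twistedE6 K q :=
    full.wordG_mem_genSubgroup (w_pair e6p1 e6p6 (by decide) 1 h1)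
  have hp24 : full.c.wordG (castW K [(42, (1 : ℤ)), (37, 1)]) ∈ twistedE6 K q :=
    full.wordG_mem_genSubgroup (w_pair e6p3 e6p5 (by decide) 1 h1)
  have hp1 : full.c.wordG (castW K [(46, (1 : ℤ))]) ∈ twistedE6 K q :=
    full.wordG_mem_genSubgroup (w_single e6p2 (by decide) 1 h1)
  have hp3 : full.c.wordG (castW K [(39, (1 : ℤ))]) ∈ twistedE6 K q :=
    full.wordG_mem_genSubgroup (w_single e6p4 (by decide) 1 h1)
  intro i hi
  have hi' : i < 6 := hi
  interval_cases i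
  · exact full.hgen_of _ _ (hl_pos _ (by simp)) hp05 ⟨2, by decide⟩ ⟨56, by decide⟩ rfl 1 (by simp) ent0
  · exact full.hgen_of _ _ (hl_pos _ (by simp)) hp1 ⟨3, by decide⟩ ⟨46, by decide⟩ rfl 1 (by simp) ent1
  · exact full.hgen_of _ _ (hl_pos _ (by simp)) hp24 ⟨0, by decide⟩ ⟨42, by decide⟩ rfl 1 (by simp) ent2
  · exact full.hgen_of _ _ (hl_pos _ (by simp)) hp3 ⟨1, by decide⟩ ⟨39, by decide⟩ rfl 1 (by simp) ent3
  · exact full.hgen_of _ _ (hl_pos _ (by simp)) hp24 ⟨3, by decide⟩ ⟨37, by decide⟩ rfl 1 (by simp) ent4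
  · exact full.hgen_of _ _ (hl_pos _ (by simp)) hp05 ⟨4, by decide⟩ ⟨36, by decide⟩ rfl 1 (by simp) ent5

end Cfsg.Agent.S1105
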