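import Mathlib
-- Template for statement S1106 (row 1106; see /opt/grader/pristine/manifest.json for weights).
-- Copy to Cfsg/Agent/S1106.lean and replace the sorry. The statement below is byte-identical to the frozen
-- statement Cfsg.CfsgFrozen.S1106 (Cfsg/Statements/S1106.lean; the theorem Cfsg.twisted_d4_card_diagonal);
-- the grader kernel-checks Cfsg.Agent.S1106.result against that frozen type. Keep the theorem IN THIS FILE
-- (a `result` declared elsewhere and merely imported here is not credited); helpers may live anywhere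
-- under Cfsg/Agent/.
import Cfsg.Statements.S1106
import Cfsg.Agent.Lib.Chev.TwD4

set_option autoImplicit false
open Cfsg

namespace Cfsg.Agent.S1106

/-- `|H¹| = |G¹ ∩ H|`: `|H¹| = (q - 1) ^ 2 * (q ^ 2 + q + 1)` for ³D₄(q). -/
theorem result {K : Type*} [Field K] [Fintype K] {q : ℕ} (hq : IsPrimePow q) (hK : Fintype.card K = q ^ 3) :
    Nat.card ↥(Cfsg.Lie.chevD4.diagonalSubgroup K ⊓ Cfsg.Lie.twistedD4 K q) = (q - 1) ^ 2 * (q ^ 2 + q + 1) := by
  exact Cfsg.Agent.Lib.Chev.TwD4.card_H1 hq hK

end Cfsg.Agent.S1106
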