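import Mathlib
-- Template for statement S1108 (row 1108; see /opt/grader/pristine/manifest.json for weights).
-- Copy to Cfsg/Agent/S1108.lean and replace the sorry. The statement below is byte-identical to the frozen
-- statement Cfsg.CfsgFrozen.S1108 (Cfsg/Statements/S1108.lean; the theorem Cfsg.twisted_d4_perfect);
-- the grader kernel-checks Cfsg.Agent.S1108.result against that frozen type. Keep the theorem IN THIS FILE
-- (a `result` declared elsewhere and merely imported here is not credited); helpers may live anywhere
-- under Cfsg/Agent/.
import Cfsg.Statements.S1108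
import Cfsg.Agent.Lib.Chev.TwD4P

set_option autoImplicit false
open Cfsg

namespace Cfsg.Agent.S1108

/-- ³D₄(q) equals its derived subgroup. -/
theorem result {K : Type*} [Field K] [Fintype K] {q : ℕ} (hq : IsPrimePow q) (hK : Fintype.card K = q ^ 3) : commutator ↥(Cfsg.Lie.twistedD4 K q) = ⊤ := by
  exact Cfsg.Agent.Lib.Chev.TwD4.perfect hq hK

end Cfsg.Agent.S1108
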