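import Cfsg.Statements.S1109
import Cfsg.Agent.Lib.TwCore
import Cfsg.Agent.Lib.Chev.RelD4
import Cfsg.Agent.Lib.Chev.RootD4

set_option autoImplicit false
set_option linter.unusedVariables false
set_option linter.unusedSectionVars false
open Cfsg

namespace Cfsg.Agent.S1109

open Cfsg.Lie Cfsg.Agent.Lib.Chev

theorem full : Full TabD4.T TabD4.X RootD4T.R chevD4 := ⟨RelD4.checks, RootD4.checks⟩

/-- The blocks of the longest element. -/
def bl : List (List ℕ) := [[0,2,3],[1],[0,2,3],[1],[0,2,3],[1]]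

theorem bl_cases : ∀ b ∈ bl, b = [0, 2, 3] ∨ b = [1] := by decide +kernel
theorem bl_lt : ∀ i ∈ bl.flatten, i < chevD4.rank := by decide +kernel
theorem bl_opp : ∀ r < chevD4.nroots, (RootD4T.R.N ≤ r ↔ wAct TabD4.X bl.flatten r < RootD4T.R.N) := by
  decide +kernel

def l023 : List (List (ℕ × ℤ)) := [[(18, 1), (13, 1), (12, 1)], [(5, -1), (10, -1), (11, -1)], [(18, 1), (13, 1), (12, 1)]]
def l1 : List (List (ℕ × ℤ)) := [[(14, 1)], [(9, -1)], [(14, 1)]]

theorem chk023 : checkEq TabD4.T natOps ([0, 2, 3].map Op.n) (opsOf l023.flatten) = true := by decide +kernel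
theorem chk1 : checkEq TabD4.T natOps ([1].map Op.n) (opsOf l1.flatten) = true := by decide +kernel
theorem ent0 : coefV (applyWord TabD4.T natOps (opsOf [(18, 1), (13, 1), (12, 1)]) [⟨flat chevD4 (Sum.inl ⟨1, by decide⟩), natOps.one, Int.ofNat 1⟩]) (flat chevD4 (Sum.inr ⟨18, by decide⟩)) = 1 := by decide +kernel
theorem ent1 : coefV (applyWord TabD4.T natOps (opsOf [(14, 1)]) [⟨flat chevD4 (Sum.inl ⟨0, by decide⟩), natOps.one, Int.ofNat 1⟩]) (flat chevD4 (Sum.inr ⟨14, by decide⟩)) = 1 := by decide +kernel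
theorem ent2 : coefV (applyWord TabD4.T natOps (opsOf [(18, 1), (13, 1), (12, 1)]) [⟨flat chevD4 (Sum.inl ⟨1, by decide⟩), natOps.one, Int.ofNat 1⟩]) (flat chevD4 (Sum.inr ⟨13, by decide⟩)) = 1 := by decide +kernel
theorem ent3 : coefV (applyWord TabD4.T natOps (opsOf [(18, 1), (13, 1), (12, 1)]) [⟨flat chevD4 (Sum.inl ⟨1, by decide⟩), natOps.one, Int.ofNat 1⟩]) (flat chevD4 (Sum.inr ⟨12, by decide⟩)) = 1 := by decide +kernel

variable {K : Type*} [Field K] [Fintype K] {q : ℕ}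

theorem mem_neg (hK : Fintype.card K = q ^ 3) : (-1 : K) ^ q = -1 := neg_one_pow_of_card hK three_ne_zero

theorem w_triple (a b c : ℕ) (h : (a, b, c) ∈ [(d4p1, d4p3, d4p4), (d4m1, d4m3, d4m4)]) (z : ℤ) (hc : ((z : ℤ) : K) ^ q = (z : K)) :
    castW K [(a, z), (b, z), (c, z)] ∈ d4Words K q := by
  right
  refine ⟨(z : K), (a, b, c), h, ?_⟩
  have h2 : ((z : ℤ) : K) ^ (q ^ 2) = (z : K) := by
    rw [pow_two, pow_mul, hc, hc]
  simp [castW, hc, h2]

theorem w_single (a : ℕ) (h : a ∈ [d4p2, d4m2]) (c : ℤ) (hc : ((c : ℤ) : K) ^ q = (c : K)) :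
    castW K [(a, c)] ∈ d4Words K q := by
  left
  exact ⟨(c : K), hc, a, h, by simp [castW]⟩

theorem cast_one_pow : (((1 : ℤ) : K)) ^ q = ((1 : ℤ) : K) := by simp

theorem cast_neg_pow (hK : Fintype.card K = q ^ 3) : (((-1 : ℤ) : K)) ^ q = ((-1 : ℤ) : K) := by
  simpa using mem_neg hK

theorem wordN_blocks (hK : Fintype.card K = q ^ 3) :
    full.wordN (F := K) bl.flatten ∈ twistedD4 K q := by
  have h1 := cast_one_pow (K := K) (q := q)
  have h2 := cast_neg_pow hK
  have hmem : ∀ w, w ∈ d4Words K q → full.c.wordG w ∈ twistedD4 K q :=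
    fun w hw => full.wordG_mem_genSubgroup hw
  apply full.wordN_flatten_mem
  intro b hb
  rcases bl_cases b hb with rfl | rfl
  · rw [full.wordN_eq_wordG _ (by decide +kernel) _ chk023]
    apply full.wordG_castW_flatten_mem
    intro l hl
    simp only [l023, List.mem_cons, List.not_mem_nil, or_false] at hl
    rcases hl with rfl | rfl | rfl
    · exact hmem _ (w_triple d4p1 d4p3 d4p4 (by decide) 1 h1)
    · exact hmem _ (w_triple d4m1 d4m3 d4m4 (by decide) (-1) h2)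
    · exact hmem _ (w_triple d4p1 d4p3 d4p4 (by decide) 1 h1)
  · rw [full.wordN_eq_wordG _ (by decide +kernel) _ chk1]
    apply full.wordG_castW_flatten_mem
    intro l hl
    simp only [l1, List.mem_cons, List.not_mem_nil, or_false] at hl
    rcases hl with rfl | rfl | rfl
    · exact hmem _ (w_single d4p2 (by decide) 1 h1)
    · exact hmem _ (w_single d4m2 (by decide) (-1) h2)
    · exact hmem _ (w_single d4p2 (by decide) 1 h1)

theorem hl_pos : ∀ l ∈ [[(18, (1 : ℤ)), (13, 1), (12, 1)], [(14, 1)]], ∀ p ∈ l,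
    RootD4T.R.N ≤ p.1 ∧ p.1 < chevD4.nroots := by decide +kernel

/-- The normal core of `B¹ = G¹ ∩ B` in ³D₄(q) is trivial. -/
theorem result {K : Type*} [Field K] [Fintype K] {q : ℕ} (hq : IsPrimePow q) (hK : Fintype.card K = q ^ 3) :
    ((Cfsg.Lie.chevD4.borelSubgroup K ⊓ Cfsg.Lie.twistedD4 K q).subgroupOf (Cfsg.Lie.twistedD4 K q)).normalCore = ⊥ := by
  obtain ⟨n₀, hn₀, hn₀N, σ, u, hact, hopp⟩ := full.exists_opp_of_blocks (F := K) (twistedD4 K q) bl.flatten
    bl_lt (wordN_blocks hK) bl_opp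
  apply full.normalCore_inf_eq_bot _ hn₀ hn₀N hact hopp
  have h1 := cast_one_pow (K := K) (q := q)
  have hp023 : full.c.wordG (castW K [(18, (1 : ℤ)), (13, 1), (12, 1)]) ∈ twistedD4 K q :=
    full.wordG_mem_genSubgroup (w_triple d4p1 d4p3 d4p4 (by decide) 1 h1)
  have hp1 : full.c.wordG (castW K [(14, (1 : ℤ))]) ∈ twistedD4 K q :=
    full.wordG_mem_genSubgroup (w_single d4p2 (by decide) 1 h1)
  intro i hi
  have hi' : i < 4 := hi
  interval_cases i
  · exact full.hgen_of _ _ (hl_pos _ (by simp)) hp023 ⟨1, by decide⟩ ⟨18, by decide⟩ rfl 1 (by simp) ent0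
  · exact full.hgen_of _ _ (hl_pos _ (by simp)) hp1 ⟨0, by decide⟩ ⟨14, by decide⟩ rfl 1 (by simp) ent1
  · exact full.hgen_of _ _ (hl_pos _ (by simp)) hp023 ⟨1, by decide⟩ ⟨13, by decide⟩ rfl 1 (by simp) ent2
  · exact full.hgen_of _ _ (hl_pos _ (by simp)) hp023 ⟨1, by decide⟩ ⟨12, by decide⟩ rfl 1 (by simp) ent3

end Cfsg.Agent.S1109
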