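import Mathlib
-- Template for statement S1110 (row 1110; see /opt/grader/pristine/manifest.json for weights).
-- Copy to Cfsg/Agent/S1110.lean and replace the sorry. The statement below is byte-identical to the frozen
-- statement Cfsg.CfsgFrozen.S1110 (Cfsg/Statements/S1110.lean; the theorem Cfsg.twisted_f4_card_diagonal);
-- the grader kernel-checks Cfsg.Agent.S1110.result against that frozen type. Keep the theorem IN THIS FILE
-- (a `result` declared elsewhere and merely imported here is not credited); helpers may live anywhere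
-- under Cfsg/Agent/.
import Cfsg.Statements.S1110
import Cfsg.Agent.Lib.Chev.TwF4B

set_option autoImplicit false
open Cfsg

namespace Cfsg.Agent.S1110

/-- `|H¹| = |G¹ ∩ H|`: `|H¹| = (2 ^ (2 * m + 1) - 1) ^ 2` for ²F₄(2^(2m+1)). -/
theorem result {K : Type*} [Field K] [Fintype K] {m : ℕ} (hK : Fintype.card K = 2 ^ (2 * m + 1)) :
    Nat.card ↥(Cfsg.Lie.chevF4.diagonalSubgroup K ⊓ Cfsg.Lie.twistedF4 K (2 ^ m)) = (2 ^ (2 * m + 1) - 1) ^ 2 := by
  obtain ⟨d⟩ := Cfsg.Agent.Lib.Chev.TwF4.exists_dat hK
  rw [d.card_H1, hK]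

end Cfsg.Agent.S1110
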