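import Mathlib
-- Template for statement S1111 (row 1111; see /opt/grader/pristine/manifest.json for weights).
-- Copy to Cfsg/Agent/S1111.lean and replace the sorry. The statement below is byte-identical to the frozen
-- statement Cfsg.CfsgFrozen.S1111 (Cfsg/Statements/S1111.lean; the theorem Cfsg.twisted_f4_weyl_group);
-- the grader kernel-checks Cfsg.Agent.S1111.result against that frozen type. Keep the theorem IN THIS FILE
-- (a `result` declared elsewhere and merely imported here is not credited); helpers may live anywhere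
-- under Cfsg/Agent/.
import Cfsg.Statements.S1111
import Cfsg.Agent.Lib.Chev.TwF4B

set_option autoImplicit false
open Cfsg

namespace Cfsg.Agent.S1111

/-- `N¹/H¹ ≅ W¹`: a surjective homomorphism from `N¹ = G¹ ∩ N` onto the dihedral group of order 16 with kernel `H¹`. -/
theorem result {K : Type*} [Field K] [Fintype K] {m : ℕ} (hK : Fintype.card K = 2 ^ (2 * m + 1)) :
    ∃ φ : ↥(Cfsg.Lie.chevF4.monomialSubgroup K ⊓ Cfsg.Lie.twistedF4 K (2 ^ m)) →* DihedralGroup 8, Function.Surjective φ ∧
      φ.ker = (Cfsg.Lie.chevF4.diagonalSubgroup K ⊓ Cfsg.Lie.twistedF4 K (2 ^ m)).subgroupOf (Cfsg.Lie.chevF4.monomialSubgroup K ⊓ Cfsg.Lie.twistedF4 K (2 ^ m)) := by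
  obtain ⟨d⟩ := Cfsg.Agent.Lib.Chev.TwF4.exists_dat hK
  exact d.exists_weyl

end Cfsg.Agent.S1111
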