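import Mathlib
-- Template for statement S1112 (row 1112; see /opt/grader/pristine/manifest.json for weights).
-- Copy to Cfsg/Agent/S1112.lean and replace the sorry. The statement below is byte-identical to the frozen
-- statement Cfsg.CfsgFrozen.S1112 (Cfsg/Statements/S1112.lean; the theorem Cfsg.twisted_f4_perfect);
-- the grader kernel-checks Cfsg.Agent.S1112.result against that frozen type. Keep the theorem IN THIS FILE
-- (a `result` declared elsewhere and merely imported here is not credited); helpers may live anywhere
-- under Cfsg/Agent/.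
import Cfsg.Statements.S1112
import Cfsg.Agent.Lib.Chev.TwF4P

set_option autoImplicit false
open Cfsg

namespace Cfsg.Agent.S1112

/-- ²F₄(2^(2m+1)) (m ≥ 1) equals its derived subgroup. -/
theorem result {K : Type*} [Field K] [Fintype K] {m : ℕ} (hK : Fintype.card K = 2 ^ (2 * m + 1)) (hm : 1 ≤ m) : commutator ↥(Cfsg.Lie.twistedF4 K (2 ^ m)) = ⊤ := by
  obtain ⟨d⟩ := Cfsg.Agent.Lib.Chev.TwF4.exists_dat hK
  exact d.perfect (Cfsg.Agent.Lib.Chev.TwF4.exists_y hm hK d)

end Cfsg.Agent.S1112
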