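import Cfsg.Statements.S1113
import Cfsg.Agent.Lib.TwCore
import Cfsg.Agent.Lib.Chev.RelF4
import Cfsg.Agent.Lib.Chev.RootF4

set_option autoImplicit false
set_option linter.unusedVariables false
set_option linter.unusedSectionVars false
open Cfsg

namespace Cfsg.Agent.S1113

open Cfsg.Lie Cfsg.Agent.Lib.Chev

theorem full : Full TabF4.T TabF4.X RootF4T.R chevF4 := ⟨RelF4.checks, RootF4.checks⟩

/-- The blocks of the longest element. -/
def bl : List (List ℕ) := [[0,3],[1,2,1,2],[0,3],[1,2,1,2],[0,3],[1,2,1,2],[0,3],[1,2,1,2]]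

theorem bl_cases : ∀ b ∈ bl, b = [0, 3] ∨ b = [1, 2, 1, 2] := by decide +kernel
theorem bl_lt : ∀ i ∈ bl.flatten, i < chevF4.rank := by decide +kernel
theorem bl_opp : ∀ r < chevF4.nroots, (RootF4T.R.N ≤ r ↔ wAct TabF4.X bl.flatten r < RootF4T.R.N) := by
  decide +kernel

def pairP : List (ℕ × ℤ) := [(33, 1), (24, 1)]
def pairM : List (ℕ × ℤ) := [(14, 1), (23, 1)]
def classU10 : List (ℕ × ℤ) := [(27, 1), (25, 1), (28, 1), (30, 0)]
def classV01 : List (ℕ × ℤ) := [(20, 0), (22, 0), (19, 1), (17, 1)]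
def classU11 : List (ℕ × ℤ) := [(27, 1), (25, 1), (28, 0), (30, 1)]

def l03 : List (List (ℕ × ℤ)) := [pairP, pairM, pairP]
def l12 : List (List (ℕ × ℤ)) := [classU10, classV01, classU11]

theorem chk03 : checkEqMod TabF4.T 2 ([0, 3].map Op.n) (opsOf l03.flatten) = true := by decide +kernel
theorem chk12 : checkEqMod TabF4.T 2 ([1, 2, 1, 2].map Op.n) (opsOf l12.flatten) = true := by decide +kernel
theorem ent0 : coefV (applyWord TabF4.T natOps (opsOf pairP) [⟨flat chevF4 (Sum.inl ⟨1, by decide⟩), natOps.one, Int.ofNat 1⟩]) (flat chevF4 (Sum.inr ⟨33, by decide⟩)) = 1 := by decide +kernel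
theorem ent1 : coefV (applyWord TabF4.T natOps (opsOf classU10) [⟨flat chevF4 (Sum.inl ⟨0, by decide⟩), natOps.one, Int.ofNat 1⟩]) (flat chevF4 (Sum.inr ⟨27, by decide⟩)) = 1 := by decide +kernel
theorem ent2 : coefV (applyWord TabF4.T natOps (opsOf classU10) [⟨flat chevF4 (Sum.inl ⟨3, by decide⟩), natOps.one, Int.ofNat 1⟩]) (flat chevF4 (Sum.inr ⟨25, by decide⟩)) = 1 := by decide +kernel
theorem ent3 : coefV (applyWord TabF4.T natOps (opsOf pairP) [⟨flat chevF4 (Sum.inl ⟨2, by decide⟩), natOps.one, Int.ofNat 1⟩]) (flat chevF4 (Sum.inr ⟨24, by decide⟩)) = 1 := by decide +kernel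

variable {K : Type*} [Field K] [Fintype K] {e : ℕ}

theorem char_two {m : ℕ} (hK : Fintype.card K = 2 ^ (2 * m + 1)) : ((2 : ℕ) : K) = 0 := by
  have h2 : ringChar K = 2 := by
    rw [FiniteField.even_card_iff_char_two, hK, pow_succ]
    omega
  have : CharP K 2 := ringChar.of_eq h2
  exact CharP.cast_eq_zero K 2

theorem two_eq (h2 : ((2 : ℕ) : K) = 0) : (1 : K) + 1 = 0 := by
  have : (1 : K) + 1 = ((2 : ℕ) : K) := by norm_num
  rw [this, h2]

theorem w_pairP (he : e ≠ 0) : castW K pairP ∈ f4Words K e := by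
  left
  refine ⟨1, Or.inl ?_⟩
  simp [castW, pairP, f4PairWord, f4p1, f4p4]

theorem w_pairM (he : e ≠ 0) : castW K pairM ∈ f4Words K e := by
  left
  refine ⟨1, Or.inr ?_⟩
  simp [castW, pairM, f4PairWord, f4m1, f4m4]

theorem w_U10 (he : e ≠ 0) : castW K classU10 ∈ f4Words K e := by
  right
  refine ⟨1, 0, Or.inl ?_⟩
  simp [castW, classU10, b2ClassWord, f4a, f4b, f4ab, f4aab, he]

theorem w_V01 (he : e ≠ 0) : castW K classV01 ∈ f4Words K e := by
  right
  refine ⟨0, 1, Or.inr ?_⟩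
  simp [castW, classV01, b2ClassWord, f4ma, f4mb, f4mab, f4maab, he]

theorem w_U11 (h2 : ((2 : ℕ) : K) = 0) (he : e ≠ 0) : castW K classU11 ∈ f4Words K e := by
  right
  refine ⟨1, 1, Or.inl ?_⟩
  simp [castW, classU11, b2ClassWord, f4a, f4b, f4ab, f4aab, two_eq h2]

theorem wordN_blocks (h2 : ((2 : ℕ) : K) = 0) (he : e ≠ 0) :
    full.wordN (F := K) bl.flatten ∈ twistedF4 K e := by
  have hmem : ∀ w, w ∈ f4Words K e → full.c.wordG w ∈ twistedF4 K e :=
    fun w hw => full.wordG_mem_genSubgroup hw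
  apply full.wordN_flatten_mem
  intro b hb
  rcases bl_cases b hb with rfl | rfl
  · rw [full.wordN_eq_wordG_mod h2 _ (by decide +kernel) _ chk03]
    apply full.wordG_castW_flatten_mem
    intro l hl
    simp only [l03, List.mem_cons, List.not_mem_nil, or_false] at hl
    rcases hl with rfl | rfl | rfl
    · exact hmem _ (w_pairP he)
    · exact hmem _ (w_pairM he)
    · exact hmem _ (w_pairP he)
  · rw [full.wordN_eq_wordG_mod h2 _ (by decide +kernel) _ chk12]
    apply full.wordG_castW_flatten_mem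
    intro l hl
    simp only [l12, List.mem_cons, List.not_mem_nil, or_false] at hl
    rcases hl with rfl | rfl | rfl
    · exact hmem _ (w_U10 he)
    · exact hmem _ (w_V01 he)
    · exact hmem _ (w_U11 h2 he)

theorem hl_pos : ∀ l ∈ [pairP, classU10], ∀ p ∈ l,
    RootF4T.R.N ≤ p.1 ∧ p.1 < chevF4.nroots := by decide +kernel

/-- The normal core of `B¹ = G¹ ∩ B` in ²F₄(2^(2m+1)) is trivial. -/
theorem result {K : Type*} [Field K] [Fintype K] {m : ℕ} (hK : Fintype.card K = 2 ^ (2 * m + 1)) :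
    ((Cfsg.Lie.chevF4.borelSubgroup K ⊓ Cfsg.Lie.twistedF4 K (2 ^ m)).subgroupOf (Cfsg.Lie.twistedF4 K (2 ^ m))).normalCore = ⊥ := by
  have h2 := char_two hK
  have he : 2 ^ m ≠ 0 := by positivity
  obtain ⟨n₀, hn₀, hn₀N, σ, u, hact, hopp⟩ := full.exists_opp_of_blocks (F := K) (twistedF4 K (2 ^ m)) bl.flatten
    bl_lt (wordN_blocks h2 he) bl_opp
  apply full.normalCore_inf_eq_bot _ hn₀ hn₀N hact hopp
  have hP : full.c.wordG (castW K pairP) ∈ twistedF4 K (2 ^ m) :=
    full.wordG_mem_genSubgroup (w_pairP he)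
  have hU : full.c.wordG (castW K classU10) ∈ twistedF4 K (2 ^ m) :=
    full.wordG_mem_genSubgroup (w_U10 he)
  intro i hi
  have hi' : i < 4 := hi
  interval_cases i
  · exact full.hgen_of _ _ (hl_pos _ (by simp)) hP ⟨1, by decide⟩ ⟨33, by decide⟩ rfl 1 (by simp) ent0
  · exact full.hgen_of _ _ (hl_pos _ (by simp)) hU ⟨0, by decide⟩ ⟨27, by decide⟩ rfl 1 (by simp) ent1
  · exact full.hgen_of _ _ (hl_pos _ (by simp)) hU ⟨3, by decide⟩ ⟨25, by decide⟩ rfl 1 (by simp) ent2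
  · exact full.hgen_of _ _ (hl_pos _ (by simp)) hP ⟨2, by decide⟩ ⟨24, by decide⟩ rfl 1 (by simp) ent3

end Cfsg.Agent.S1113
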