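import Mathlib
-- Template for statement S1116 (row 1116; see /opt/grader/pristine/manifest.json for weights).
-- Copy to Cfsg/Agent/S1116.lean and replace the sorry. The statement below is byte-identical to the frozen
-- statement Cfsg.CfsgFrozen.S1116 (Cfsg/Statements/S1116.lean; the theorem Cfsg.twisted_g2_perfect);
-- the grader kernel-checks Cfsg.Agent.S1116.result against that frozen type. Keep the theorem IN THIS FILE
-- (a `result` declared elsewhere and merely imported here is not credited); helpers may live anywhere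
-- under Cfsg/Agent/.
import Cfsg.Statements.S1116
import Cfsg.Agent.Lib.Chev.TwG2P

set_option autoImplicit false
open Cfsg

namespace Cfsg.Agent.S1116

/-- ²G₂(3^(2m+1)) (m ≥ 1) equals its derived subgroup. -/
theorem result {K : Type*} [Field K] [Fintype K] {m : ℕ} (hK : Fintype.card K = 3 ^ (2 * m + 1)) (hm : 1 ≤ m) : commutator ↥(Cfsg.Lie.twistedG2 K (3 ^ m)) = ⊤ := by
  obtain ⟨d⟩ := Cfsg.Agent.Lib.Chev.TwG2.exists_dat hK
  exact d.perfect (Cfsg.Agent.Lib.Chev.TwG2.hsq hK) (Cfsg.Agent.Lib.Chev.TwG2.exists_y hm hK d)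

end Cfsg.Agent.S1116
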