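import Cfsg.Statements.S1117
import Cfsg.Agent.Lib.TwCore
import Cfsg.Agent.Lib.Chev.RelG2
import Cfsg.Agent.Lib.Chev.RootG2

set_option autoImplicit false
set_option linter.unusedVariables false
set_option linter.unusedSectionVars false
open Cfsg

namespace Cfsg.Agent.S1117

open Cfsg.Lie Cfsg.Agent.Lib.Chev

theorem full : Full TabG2.T TabG2.X RootG2T.R chevG2 := ⟨RelG2.checks, RootG2.checks⟩

/-- The blocks of the longest element. -/
def L : List ℕ := [0, 1, 0, 1, 0, 1]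

theorem L_lt : ∀ i ∈ L, i < chevG2.rank := by decide +kernel
theorem L_opp : ∀ r < chevG2.nroots, (RootG2T.R.N ≤ r ↔ wAct TabG2.X L r < RootG2T.R.N) := by
  decide +kernel

def wU : List (ℕ × ℤ) := [(7, 0), (6, 0), (8, 1), (9, 0), (10, 1), (11, 0)]
def wV : List (ℕ × ℤ) := [(4, 0), (5, 0), (3, -1), (2, 0), (1, -1), (0, 0)]
def wA : List (ℕ × ℤ) := [(7, 1), (6, 1), (8, 1), (9, 1), (10, 0), (11, 0)]

def l0 : List (List (ℕ × ℤ)) := [wU, wV, wU]

theorem chk : checkEqMod TabG2.T 3 (L.map Op.n) (opsOf l0.flatten) = true := by decide +kernel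

theorem ent0 : coefV (applyWord TabG2.T natOps (opsOf wA) [⟨flat chevG2 (Sum.inl ⟨1, by decide⟩), natOps.one, Int.ofNat 1⟩]) (flat chevG2 (Sum.inr ⟨7, by decide⟩)) = 1 := by decide +kernel
theorem ent1 : coefV (applyWord TabG2.T natOps (opsOf wA) [⟨flat chevG2 (Sum.inl ⟨1, by decide⟩), natOps.one, Int.ofNat 1⟩]) (flat chevG2 (Sum.inr ⟨6, by decide⟩)) = -2 := by decide +kernel

variable {K : Type*} [Field K] [Fintype K] {e : ℕ}

theorem char_three {m : ℕ} (hK : Fintype.card K = 3 ^ (2 * m + 1)) : ((3 : ℕ) : K) = 0 := by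
  obtain ⟨p, hp⟩ := CharP.exists K
  haveI := hp
  obtain ⟨n, hpn, hpp⟩ := FiniteField.card K p
  have h1 : p ∣ 3 ^ (2 * m + 1) := by
    rw [← hK, hpp]
    exact dvd_pow_self _ n.ne_zero
  have h3 : p ∣ 3 := hpn.dvd_of_dvd_pow h1
  have h4 : p = 3 := (Nat.prime_dvd_prime_iff_eq hpn Nat.prime_three).1 h3
  subst h4
  exact CharP.cast_eq_zero K 3

theorem w_U (he : e ≠ 0) : castW K wU ∈ g2Words K e := by
  refine ⟨0, 1, 0, Or.inl ?_⟩
  simp [castW, wU, reeWordU, g2a, g2b, g2ab, g2aab, g2aaab, g2aaabb, he]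

theorem w_A (he : e ≠ 0) : castW K wA ∈ g2Words K e := by
  refine ⟨1, 0, 0, Or.inl ?_⟩
  simp [castW, wA, reeWordU, g2a, g2b, g2ab, g2aab, g2aaab, g2aaabb, he]

theorem w_V (he : e ≠ 0) : castW K wV ∈ g2Words K e := by
  refine ⟨0, 1, 0, Or.inr ?_⟩
  simp [castW, wV, reeWordV, reeWordU, ChevalleyDatum.negWord, g2a, g2b, g2ab, g2aab, g2aaab, g2aaabb, he]
  decide +kernel

theorem wordN_L (h3 : ((3 : ℕ) : K) = 0) (he : e ≠ 0) :
    full.wordN (F := K) L ∈ twistedG2 K e := by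
  have hmem : ∀ w, w ∈ g2Words K e → full.c.wordG w ∈ twistedG2 K e :=
    fun w hw => full.wordG_mem_genSubgroup hw
  rw [full.wordN_eq_wordG_mod h3 _ L_lt _ chk]
  apply full.wordG_castW_flatten_mem
  intro l hl
  simp only [l0, List.mem_cons, List.not_mem_nil, or_false] at hl
  rcases hl with rfl | rfl | rfl
  · exact hmem _ (w_U he)
  · exact hmem _ (w_V he)
  · exact hmem _ (w_U he)

theorem hl_pos : ∀ p ∈ wA, RootG2T.R.N ≤ p.1 ∧ p.1 < chevG2.nroots := by decide +kernel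

/-- The normal core of `B¹ = G¹ ∩ B` in ²G₂(3^(2m+1)) is trivial. -/
theorem result {K : Type*} [Field K] [Fintype K] {m : ℕ} (hK : Fintype.card K = 3 ^ (2 * m + 1)) :
    ((Cfsg.Lie.chevG2.borelSubgroup K ⊓ Cfsg.Lie.twistedG2 K (3 ^ m)).subgroupOf (Cfsg.Lie.twistedG2 K (3 ^ m))).normalCore = ⊥ := by
  have h3 := char_three hK
  have he : 3 ^ m ≠ 0 := by positivity
  obtain ⟨n₀, hn₀, hn₀N, σ, u, hact, hopp⟩ := full.exists_opp_of_blocks (F := K) (twistedG2 K (3 ^ m)) L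
    L_lt (wordN_L h3 he) L_opp
  apply full.normalCore_inf_eq_bot _ hn₀ hn₀N hact hopp
  have hA : full.c.wordG (castW K wA) ∈ twistedG2 K (3 ^ m) :=
    full.wordG_mem_genSubgroup (w_A he)
  have h2ne : ((-2 : ℤ) : K) ≠ 0 := by
    intro h
    have h4 : (1 : K) = 0 := by
      have h5 : ((3 : ℕ) : K) = 3 := by norm_num
      have h6 : ((-2 : ℤ) : K) = -2 := by norm_num
      rw [h5] at h3
      rw [h6] at h
      linear_combination h3 + h
    exact one_ne_zero h4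
  intro i hi
  have hi' : i < 2 := hi
  interval_cases i
  · exact full.hgen_of _ _ hl_pos hA ⟨1, by decide⟩ ⟨7, by decide⟩ rfl 1 (by simp) ent0
  · exact full.hgen_of _ _ hl_pos hA ⟨1, by decide⟩ ⟨6, by decide⟩ rfl (-2) h2ne ent1

end Cfsg.Agent.S1117
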