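import Mathlib
import Cfsg.Statements.S1120
import Cfsg.Agent.S1324
import Cfsg.Agent.Lib.PCore
import Cfsg.Agent.Lib.RankOne
-- import your own Cfsg.Agent.* helpers here

set_option autoImplicit false
open Cfsg

namespace Cfsg.Agent.S1120

/-- In the rank-one set-up (`G` finite and doubly transitive on `Ω`, `t` an involution moving `a`, `Q` normal in `G_a` with `G_a = Q D`, `Q ⊓ D = 1` for the two-point stabiliser `D = G_a ⊓ G_{t • a}`, `|Q|` even, `|D|` odd), if `G` has 2-rank at least 2 then `O_{2'}(G)` equals the normal core of `G_a`. -/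
theorem result {G Ω : Type*} [Group G] [Finite G] [MulAction G Ω] {a : Ω} {t : G} {Q : Subgroup G}
    (hS : Cfsg.IsRankOneSetup G Ω a t Q)
    (h2 : ∃ x y : G, x ≠ 1 ∧ y ≠ 1 ∧ x ≠ y ∧ x * x = 1 ∧ y * y = 1 ∧ x * y = y * x) :
    Cfsg.pPrimeCore 2 G = (MulAction.stabilizer G a).normalCore := by
  classical
  have hfp : Fact (Nat.Prime 2) := ⟨Nat.prime_two⟩
  obtain ⟨u, v, hu1, hv1, huv, huu, hvv, hc⟩ := h2
  have hcore : (Nat.card (MulAction.stabilizer G a).normalCore).Coprime 2 := by
    rw [Nat.coprime_two_right]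
    by_contra hne
    rw [Nat.not_odd_iff_even, even_iff_two_dvd] at hne
    obtain ⟨i, hi⟩ := exists_prime_orderOf_dvd_card' 2 hne
    have hi1 : (i : G) ≠ 1 := by
      intro h
      have : i = 1 := Subtype.ext h
      rw [this, orderOf_one] at hi
      omega
    have hi2 : (i : G) * i = 1 := by
      have := pow_orderOf_eq_one (i : (MulAction.stabilizer G a).normalCore)
      rw [hi, pow_two] at this
      exact congrArg Subtype.val this
    have hfix : ∀ c : Ω, (i : G) • c = c := by
      intro c
      obtain ⟨g, rfl⟩ := Cfsg.Agent.Lib.RankOne.surj_orbit hS c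
      have h1 : g⁻¹ * (i : G) * g ∈ MulAction.stabilizer G a := by
        apply Subgroup.normalCore_le
        have := (Subgroup.normalCore_normal (MulAction.stabilizer G a)).conj_mem _ i.2 g⁻¹
        simpa using this
      have h2 : (g⁻¹ * (i : G) * g) • a = a := h1
      calc (i : G) • g • a = g • (g⁻¹ * (i : G) * g) • a := by
            simp [mul_smul]
        _ = g • a := by rw [h2]
    have := Cfsg.Agent.Lib.RankOne.invol_fixed_unique hS hi1 hi2 (hfix a) (hfix (t • a))
    exact Cfsg.Agent.Lib.RankOne.a_ne_ta hS this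
  apply le_antisymm
  swap
  · exact Cfsg.Agent.Lib.PCore.le_pPrimeCore (Subgroup.normalCore_normal _) hcore
  -- a common fixed point
  obtain ⟨e, hue⟩ := Cfsg.Agent.Lib.RankOne.invol_exists_fixed hS huu
  have hve : v • e = e := by
    apply Cfsg.Agent.Lib.RankOne.invol_fixed_unique hS hu1 huu _ hue
    rw [smul_smul, hc, mul_smul, hue]
  -- the Klein four-group
  let A : Subgroup G := Subgroup.closure {u, v}
  have hAcomm : ∀ x ∈ A, ∀ y ∈ A, x * y = y * x := by
    have h1 : ∀ x ∈ ({u, v} : Set G), ∀ y ∈ ({u, v} : Set G), x * y = y * x := by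
      rintro x (rfl | rfl) y (rfl | rfl) <;> first | rfl | exact hc | exact hc.symm
    have hcm := Subgroup.isMulCommutative_closure (k := {u, v}) h1
    intro x hx y hy
    have := hcm.is_comm.comm ⟨x, hx⟩ ⟨y, hy⟩
    exact congrArg Subtype.val this
  have hAinv : ∀ x ∈ A, x * x = 1 := by
    intro x hx
    induction hx using Subgroup.closure_induction with
    | mem x hx =>
      rcases hx with rfl | rfl
      · exact huu
      · exact hvv
    | one => simp
    | mul x y hx hy ihx ihy =>
      calc x * y * (x * y) = x * (y * x) * y := by group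
        _ = x * (x * y) * y := by rw [hAcomm y hy x hx]
        _ = (x * x) * (y * y) := by group
        _ = 1 := by rw [ihx, ihy, one_mul]
    | inv x hx ihx =>
      have : x⁻¹ = x := inv_eq_of_mul_eq_one_left ihx
      rw [this, ihx]
  have huA : u ∈ A := Subgroup.subset_closure (by simp)
  have hvA : v ∈ A := Subgroup.subset_closure (by simp)
  have hAfix : ∀ x ∈ A, x • e = e := by
    have : A ≤ MulAction.stabilizer G e := by
      rw [Subgroup.closure_le]
      rintro x (rfl | rfl)
      · exact hue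
      · exact hve
    exact fun x hx => this hx
  have hAe : Cfsg.IsElementaryAbelian 2 A := by
    refine ⟨⟨⟨fun x y => Subtype.ext (hAcomm x x.2 y y.2)⟩⟩, ?_⟩
    intro x hx
    rw [pow_two]
    exact hAinv x hx
  have huo : orderOf u = 2 := orderOf_eq_prime (by rw [pow_two]; exact huu) hu1
  have hA4 : 2 ^ 2 ≤ Nat.card A := by
    have h1 : Subgroup.zpowers u ≤ A := Subgroup.zpowers_le.mpr huA
    have h2 : Nat.card (Subgroup.zpowers u) = 2 := by rw [Nat.card_zpowers, huo]
    have h3 : 2 ∣ Nat.card A := by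
      rw [← h2]
      exact Subgroup.card_dvd_of_le h1
    have hvz : v ∉ Subgroup.zpowers u := by
      rintro ⟨k, rfl⟩
      simp only at huv hv1 hvv hc
      rw [← zpow_mod_orderOf, huo] at hv1 huv
      have hcast : (((2 : ℕ) : ℤ)) = 2 := rfl
      rw [hcast] at hv1 huv
      rcases Int.emod_two_eq_zero_or_one k with h | h <;> rw [h] at hv1 huv <;> simp at hv1 huv
    have h4 : Nat.card (Subgroup.zpowers u) < Nat.card A := by
      by_contra hne
      push Not at hne
      have h5 := Subgroup.eq_of_le_of_card_ge h1 hne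
      exact hvz (h5 ▸ hvA)
    obtain ⟨k, hk⟩ := h3
    have : Nat.card A ≠ 3 := by omega
    omega
  set O := Cfsg.pPrimeCore 2 G with hO
  have hOn : O.Normal := Cfsg.Agent.Lib.PCore.pPrimeCore_normal 2
  have hX : ¬ 2 ∣ Nat.card O := Cfsg.Agent.Lib.PCore.not_dvd_card_pPrimeCore 2
  have hAX : A ≤ Subgroup.normalizer (O : Set G) := by
    rw [Subgroup.normalizer_eq_top]
    exact le_top
  have hgen := Cfsg.Agent.S1324.result 2 A O hAe hA4 hX hAX
  have hOe : O ≤ MulAction.stabilizer G e := by
    rw [hgen]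
    apply iSup_le
    rintro ⟨B, hBA, hBi⟩
    rintro x ⟨hxO, hxB⟩
    -- `B` is nontrivial
    have hB0 : B ≠ ⊥ := by
      rintro rfl
      rw [Subgroup.relIndex_bot_left] at hBi
      omega
    obtain ⟨⟨w, hwB⟩, hw1⟩ := Subgroup.ne_bot_iff_exists_ne_one.mp hB0
    have hw1' : w ≠ 1 := fun h => hw1 (Subtype.ext h)
    have hwA := hBA hwB
    have hwx : w * x = x * w := (Subgroup.mem_centralizer_iff.mp hxB w hwB)
    show x • e = e
    apply Cfsg.Agent.Lib.RankOne.invol_fixed_unique hS hw1' (hAinv w hwA) _ (hAfix w hwA)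
    rw [smul_smul, hwx, mul_smul, hAfix w hwA]
  rw [Subgroup.normal_le_normalCore]
  intro x hx
  obtain ⟨g, hg⟩ := Cfsg.Agent.Lib.RankOne.exists_smul_eq' hS e a
  have h1 : g⁻¹ * x * g ∈ O := by
    have := hOn.conj_mem x hx g⁻¹
    simpa using this
  have h2 : (g⁻¹ * x * g) • e = e := hOe h1
  show x • a = a
  calc x • a = x • g • e := by rw [hg]
    _ = g • (g⁻¹ * x * g) • e := by simp [mul_smul]
    _ = a := by rw [h2, hg]

end Cfsg.Agent.S1120
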