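import Mathlib
import Cfsg.Statements.S1124
import Cfsg.Agent.Lib.RankOne3
-- import your own Cfsg.Agent.* helpers here

set_option autoImplicit false
open scoped Pointwise
open Cfsg

namespace Cfsg.Agent.S1124

/-- Let `t` be an element of order 2 of a finite group normalising a subgroup `X` of odd order, `Y = C_X(t)` and `Z` the set of elements of `X` inverted by `t`. Then `(y, z) ↦ y z` is a bijection `Y × Z → X`, so `|X| = |Y| |Z|`, and the subgroup generated by `Z` is normal in `X`. -/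
theorem result {M : Type*} [Group M] [Finite M]
    (t : M) (ht : orderOf t = 2) (X : Subgroup M) (hodd : Odd (Nat.card X))
    (hnorm : ∀ x ∈ X, t * x * t⁻¹ ∈ X) :
    (∀ x ∈ X, ∃! p : M × M, p.1 ∈ X ⊓ Subgroup.centralizer {t} ∧ p.2 ∈ Cfsg.invertedBy X t ∧ x = p.1 * p.2) ∧
      Nat.card X = Nat.card ↥(X ⊓ Subgroup.centralizer {t}) * Nat.card (Cfsg.invertedBy X t) ∧
      ∀ x ∈ X, MulAut.conj x • Subgroup.closure (Cfsg.invertedBy X t) = Subgroup.closure (Cfsg.invertedBy X t) := by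
  open Cfsg.Agent.Lib.RankOne Cfsg.Agent.Lib.RankOne2 in
  have htt : t * t = 1 := by rw [← pow_two, ← ht]; exact pow_orderOf_eq_one t
  have hti : t⁻¹ = t := inv_eq_of_mul_eq_one_left htt
  rw [hti] at hnorm
  have hC : ∀ y, y ∈ Subgroup.centralizer {t} ↔ t * y = y * t := by
    intro y
    rw [Subgroup.mem_centralizer_singleton_iff]
    exact ⟨fun h => h.symm, fun h => h.symm⟩
  have hI : ∀ z, z ∈ Cfsg.invertedBy X t ↔ z ∈ X ∧ t * z * t = z⁻¹ := by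
    intro z
    show (z ∈ X ∧ t * z * t⁻¹ = z⁻¹) ↔ _
    rw [hti]
  have hex : ∀ x ∈ X, ∃ y ∈ X ⊓ Subgroup.centralizer {t}, ∃ z ∈ Cfsg.invertedBy X t, x = y * z := by
    intro x hx
    obtain ⟨y, hy, z, hz, h1, h2, e⟩ := decomp_exists t htt X hodd hnorm hx
    exact ⟨y, ⟨hy, (hC y).mpr h1⟩, z, (hI z).mpr ⟨hz, h2⟩, e⟩
  have huq : ∀ y₁ ∈ X ⊓ Subgroup.centralizer {t}, ∀ z₁ ∈ Cfsg.invertedBy X t,
      ∀ y₂ ∈ X ⊓ Subgroup.centralizer {t}, ∀ z₂ ∈ Cfsg.invertedBy X t,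
      y₁ * z₁ = y₂ * z₂ → y₁ = y₂ ∧ z₁ = z₂ := by
    intro y₁ hy₁ z₁ hz₁ y₂ hy₂ z₂ hz₂ e
    exact decomp_unique t htt X hodd hnorm hy₁.1 hy₂.1 ((hI _).mp hz₁).1 ((hI _).mp hz₂).1
      ((hC _).mp hy₁.2) ((hC _).mp hy₂.2) ((hI _).mp hz₁).2 ((hI _).mp hz₂).2 e
  refine ⟨?_, ?_, ?_⟩
  · intro x hx
    obtain ⟨y, hy, z, hz, e⟩ := hex x hx
    refine ⟨(y, z), ⟨hy, hz, e⟩, ?_⟩
    rintro ⟨y', z'⟩ ⟨hy', hz', e'⟩
    simp only at hy' hz' e'
    obtain ⟨h1, h2⟩ := huq y' hy' z' hz' y hy z hz (e'.symm.trans e)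
    rw [h1, h2]
  · rw [← Nat.card_prod]
    symm
    refine Nat.card_congr (Equiv.ofBijective (fun p : ↥(X ⊓ Subgroup.centralizer {t}) × (Cfsg.invertedBy X t) =>
      (⟨(p.1 : M) * (p.2 : M), X.mul_mem p.1.2.1 ((hI _).mp p.2.2).1⟩ : X)) ⟨?_, ?_⟩)
    · rintro ⟨⟨y₁, hy₁⟩, ⟨z₁, hz₁⟩⟩ ⟨⟨y₂, hy₂⟩, ⟨z₂, hz₂⟩⟩ h
      have e : y₁ * z₁ = y₂ * z₂ := congrArg Subtype.val h
      obtain ⟨h1, h2⟩ := huq y₁ hy₁ z₁ hz₁ y₂ hy₂ z₂ hz₂ e
      subst h1 h2
      rfl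
    · rintro ⟨x, hx⟩
      obtain ⟨y, hy, z, hz, e⟩ := hex x hx
      exact ⟨(⟨y, hy⟩, ⟨z, hz⟩), Subtype.ext e.symm⟩
  · intro x hx
    obtain ⟨y, hy, z, hz, rfl⟩ := hex x hx
    have hyN : y ∈ Subgroup.normalizer (Cfsg.invertedBy X t) := by
      rw [Subgroup.mem_set_normalizer_iff]
      intro h
      have hyt := (hC y).mp hy.2
      have hyit : t * y⁻¹ = y⁻¹ * t := by
        calc t * y⁻¹ = y⁻¹ * (y * t) * y⁻¹ := by group
          _ = y⁻¹ * (t * y) * y⁻¹ := by rw [hyt]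
          _ = y⁻¹ * t := by group
      have key : ∀ w, t * (y * w * y⁻¹) * t = y * (t * w * t) * y⁻¹ := by
        intro w
        calc t * (y * w * y⁻¹) * t = (t * y) * w * (y⁻¹ * t) := by group
          _ = (y * t) * w * (t * y⁻¹) := by rw [hyt, hyit]
          _ = _ := by group
      rw [hI, hI]
      constructor
      · rintro ⟨h1, h2⟩
        refine ⟨X.mul_mem (X.mul_mem hy.1 h1) (X.inv_mem hy.1), ?_⟩
        rw [key, h2]; group
      · rintro ⟨h1, h2⟩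
        have h3 : h = y⁻¹ * (y * h * y⁻¹) * y := by group
        refine ⟨by rw [h3]; exact X.mul_mem (X.mul_mem (X.inv_mem hy.1) h1) hy.1, ?_⟩
        rw [key] at h2
        have h4 : t * h * t = y⁻¹ * (y * (t * h * t) * y⁻¹) * y := by group
        rw [h4, h2]; group
    have hyN' := Subgroup.normalizer_le_normalizer_closure _ hyN
    have hzN : z ∈ Subgroup.normalizer (Subgroup.closure (Cfsg.invertedBy X t) : Set M) :=
      Subgroup.le_normalizer (Subgroup.subset_closure hz)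
    have hN := Subgroup.mul_mem _ hyN' hzN
    rw [Subgroup.mem_normalizer_iff_map_conj_eq] at hN
    rw [Subgroup.pointwise_smul_def]
    exact hN

end Cfsg.Agent.S1124
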