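import Mathlib
import Cfsg.Statements.S1125
import Cfsg.Agent.Lib.RankOne3
-- import your own Cfsg.Agent.* helpers here

set_option autoImplicit false
open Cfsg

namespace Cfsg.Agent.S1125

/-- In the rank-one set-up (`G` finite and doubly transitive on `Ω`, `t` an involution moving `a`, `Q` normal in `G_a` with `G_a = Q D`, `Q ⊓ D = 1` for the two-point stabiliser `D = G_a ⊓ G_{t • a}`, `|Q|` even, `|D|` odd), let `X ⊆ D` fix at least three points of `Ω`. Then `C_G(X)` is doubly transitive on the fixed-point set of `X`, `|C_Q(X)|` is even, and `C_{G_a}(X) = C_Q(X) C_D(X)`. -/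
theorem result {G Ω : Type*} [Group G] [Finite G] [MulAction G Ω] {a : Ω} {t : G} {Q : Subgroup G}
    (hS : Cfsg.IsRankOneSetup G Ω a t Q)
    (X : Set G) (hX : X ⊆ ((MulAction.stabilizer G a ⊓ MulAction.stabilizer G (t • a)) : Set G))
    (h3 : ∃ b c d : Ω, b ≠ c ∧ b ≠ d ∧ c ≠ d ∧ ∀ x ∈ X, x • b = b ∧ x • c = c ∧ x • d = d) :
    (∀ b₁ b₂ c₁ c₂ : Ω, (∀ x ∈ X, x • b₁ = b₁ ∧ x • b₂ = b₂ ∧ x • c₁ = c₁ ∧ x • c₂ = c₂) →
        b₁ ≠ b₂ → c₁ ≠ c₂ → ∃ g ∈ Subgroup.centralizer X, g • b₁ = c₁ ∧ g • b₂ = c₂) ∧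
      Even (Nat.card ↥(Subgroup.centralizer X ⊓ Q)) ∧
      (Subgroup.centralizer X ⊓ Q) ⊔ (Subgroup.centralizer X ⊓ (MulAction.stabilizer G a ⊓ MulAction.stabilizer G (t • a))) = Subgroup.centralizer X ⊓ MulAction.stabilizer G a := by
  open Cfsg.Agent.Lib.RankOne Cfsg.Agent.Lib.RankOne2 Cfsg.Agent.Lib.RankOne3 in
  have hX' : X ⊆ (DD G a t : Set G) := hX
  obtain ⟨u, hu2, hua, hcomm⟩ := exists_swap_of_three hS hX' h3
  have hub : u • (t • a) = a := by rw [← hua, smul_smul, hu2, one_smul]
  have hCu : u ∈ Subgroup.centralizer X := by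
    rw [Subgroup.mem_centralizer_iff]
    intro x hx
    exact (hcomm x hx).symm
  refine ⟨?_, ?_, ?_⟩
  · intro b₁ b₂ c₁ c₂ hfix hb hc
    exact two_trans_centralizer hS hX' hu2 hua hcomm (fun x hx => (hfix x hx).1)
      (fun x hx => (hfix x hx).2.1) (fun x hx => (hfix x hx).2.2.1) (fun x hx => (hfix x hx).2.2.2) hb hc
  · -- an involution in `C_Q(X)`
    obtain ⟨e, he⟩ := invol_exists_fixed hS hu2
    have hu1 : u ≠ 1 := by
      rintro rfl
      rw [one_smul] at hua
      exact a_ne_ta hS hua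
    have heX : ∀ x ∈ X, x • e = e := by
      intro x hx
      have h1 : u • (x • e) = x • e := by
        rw [smul_smul, hcomm x hx, mul_smul, he]
      exact invol_fixed_unique hS hu1 hu2 h1 he
    have hea : e ≠ a := by
      rintro rfl
      exact a_ne_ta hS (he.symm.trans hua)
    -- an element of `C(X)` moving `e` to `a`
    obtain ⟨y, hy, hye, hyX⟩ := exists_Q_comm hS hX' hea heX
    have hCy : y ∈ Subgroup.centralizer X := by
      rw [Subgroup.mem_centralizer_iff]
      intro x hx
      exact hyX x hx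
    set g := u * y with hg
    have hCg : g ∈ Subgroup.centralizer X := Subgroup.mul_mem _ hCu hCy
    have hge : g • e = a := by rw [hg, mul_smul, hye, hub]
    set s := g * u * g⁻¹ with hs
    have hsa : s • a = a := by
      rw [hs, mul_smul, mul_smul, ← hge, inv_smul_smul, he]
    have hs2 : s * s = 1 := by
      calc s * s = g * (u * u) * g⁻¹ := by rw [hs]; group
        _ = 1 := by rw [hu2]; group
    have hs1 : s ≠ 1 := by
      intro h0
      apply hu1
      have : u = g⁻¹ * s * g := by rw [hs]; group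
      rw [this, h0]; group
    have hsQ : s ∈ Q := invol_mem_Q hS (MulAction.mem_stabilizer_iff.mpr hsa) hs2
    have hsC : s ∈ Subgroup.centralizer X :=
      Subgroup.mul_mem _ (Subgroup.mul_mem _ hCg hCu) (Subgroup.inv_mem _ hCg)
    have hmem : s ∈ Subgroup.centralizer X ⊓ Q := ⟨hsC, hsQ⟩
    have hord : orderOf (⟨s, hmem⟩ : ↥(Subgroup.centralizer X ⊓ Q)) = 2 := by
      rw [Subgroup.orderOf_mk]
      exact orderOf_eq_prime (by rw [pow_two]; exact hs2) hs1
    have := orderOf_dvd_natCard (⟨s, hmem⟩ : ↥(Subgroup.centralizer X ⊓ Q))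
    rw [hord] at this
    exact even_iff_two_dvd.mpr this
  · apply le_antisymm
    · apply sup_le
      · exact inf_le_inf_left _ hS.le
      · exact inf_le_inf_left _ inf_le_left
    · rintro g ⟨hgC, hga⟩
      have hga' : g • a = a := MulAction.mem_stabilizer_iff.mp hga
      set c := g • (t • a) with hc
      have hca : c ≠ a := by
        intro h0
        rw [hc] at h0
        apply ta_ne hS
        have h1 : g • (t • a) = g • a := by rw [h0, hga']
        exact smul_left_cancel _ h1
      have hcX : ∀ x ∈ X, x • c = c := by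
        intro x hx
        have : x * g = g * x := Subgroup.mem_centralizer_iff.mp hgC x hx
        rw [hc, smul_smul, this, mul_smul, D_fix_b hS (hX' hx)]
      obtain ⟨y, hy, hyc, hyX⟩ := exists_Q_comm hS hX' hca hcX
      have hCy : y ∈ Subgroup.centralizer X := by
        rw [Subgroup.mem_centralizer_iff]
        intro x hx
        exact hyX x hx
      have hdD : y * g ∈ DD G a t := by
        refine D_mem hS ?_ ?_
        · rw [mul_smul, hga', Q_fix hS hy]
        · rw [mul_smul, ← hc, hyc]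
      have e : g = y⁻¹ * (y * g) := by group
      rw [e]
      exact Subgroup.mul_mem _
        (Subgroup.mem_sup_left ⟨Subgroup.inv_mem _ hCy, Q.inv_mem hy⟩)
        (Subgroup.mem_sup_right ⟨Subgroup.mul_mem _ hCy hgC, hdD⟩)

end Cfsg.Agent.S1125
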