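import Mathlib
import Cfsg.Statements.S1127
import Cfsg.Agent.Lib.RankOne3
-- import your own Cfsg.Agent.* helpers here

set_option autoImplicit false
open Cfsg

namespace Cfsg.Agent.S1127

/-- In the rank-one set-up (`G` finite and doubly transitive on `Ω`, `t` an involution moving `a`, `Q` normal in `G_a` with `G_a = Q D`, `Q ⊓ D = 1` for the two-point stabiliser `D = G_a ⊓ G_{t • a}`, `|Q|` even, `|D|` odd): if `s` is an involution of `G_a` and `r ∈ Q` satisfy `t s t = r⁻¹ t r`, then `C_D(t) = C_D(s)`; moreover `C_D(t) ⊓ C_D(K) = C_D(I ∩ G_a)`, where `K` is the set of elements of `D` inverted by `t` and `I ∩ G_a` the set of involutions of `G_a`. -/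
theorem result {G Ω : Type*} [Group G] [Finite G] [MulAction G Ω] {a : Ω} {t : G} {Q : Subgroup G}
    (hS : Cfsg.IsRankOneSetup G Ω a t Q) :
    (∀ s r : G, s ∈ Cfsg.involutionsIn (MulAction.stabilizer G a : Set G) → r ∈ Q → t * s * t = r⁻¹ * t * r →
        (MulAction.stabilizer G a ⊓ MulAction.stabilizer G (t • a)) ⊓ Subgroup.centralizer {t} = (MulAction.stabilizer G a ⊓ MulAction.stabilizer G (t • a)) ⊓ Subgroup.centralizer {s}) ∧
      (MulAction.stabilizer G a ⊓ MulAction.stabilizer G (t • a)) ⊓ Subgroup.centralizer {t} ⊓ Subgroup.centralizer (Cfsg.invertedBy (MulAction.stabilizer G a ⊓ MulAction.stabilizer G (t • a)) t) =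
        (MulAction.stabilizer G a ⊓ MulAction.stabilizer G (t • a)) ⊓ Subgroup.centralizer (Cfsg.involutionsIn (MulAction.stabilizer G a : Set G)) := by
  open Cfsg.Agent.Lib.RankOne Cfsg.Agent.Lib.RankOne2 Cfsg.Agent.Lib.RankOne3 in
  have hC : ∀ y z : G, y ∈ Subgroup.centralizer {z} ↔ z * y = y * z := by
    intro y z
    rw [Subgroup.mem_centralizer_singleton_iff]
    exact ⟨fun h => h.symm, fun h => h.symm⟩
  have part1 : ∀ s r : G, s ∈ Cfsg.involutionsIn (MulAction.stabilizer G a : Set G) → r ∈ Q → t * s * t = r⁻¹ * t * r →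
      (MulAction.stabilizer G a ⊓ MulAction.stabilizer G (t • a)) ⊓ Subgroup.centralizer {t} = (MulAction.stabilizer G a ⊓ MulAction.stabilizer G (t • a)) ⊓ Subgroup.centralizer {s} := by
    intro s r hs hr h
    ext d
    constructor
    · rintro ⟨hd, hdt⟩
      refine ⟨hd, (hC _ _).mpr ?_⟩
      exact (comm_s_of_comm_t hS hs hr h hd ((hC _ _).mp hdt)).symm
    · rintro ⟨hd, hds⟩
      refine ⟨hd, (hC _ _).mpr ?_⟩
      exact comm_t_of_comm_s hS hs hr h hd ((hC _ _).mp hds).symm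
  refine ⟨part1, ?_⟩
  obtain ⟨s, hs, r, hr, h⟩ := exists_pair hS
  ext d
  constructor
  · rintro ⟨⟨hd, hdt⟩, hdK⟩
    refine ⟨hd, ?_⟩
    show d ∈ Subgroup.centralizer _
    rw [Subgroup.mem_centralizer_iff]
    intro s' hs'
    obtain ⟨k, hk, rfl⟩ := inverted_trans hS hs hs'
    have h1 : k * d = d * k := Subgroup.mem_centralizer_iff.mp hdK k hk
    have h2 : d * s = s * d := comm_s_of_comm_t hS hs hr h hd ((hC _ _).mp hdt)
    have h3 : k⁻¹ * d = d * k⁻¹ := by
      calc k⁻¹ * d = k⁻¹ * (d * k) * k⁻¹ := by group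
        _ = k⁻¹ * (k * d) * k⁻¹ := by rw [h1]
        _ = d * k⁻¹ := by group
    calc k⁻¹ * s * k * d = k⁻¹ * s * (k * d) := by group
      _ = k⁻¹ * s * (d * k) := by rw [h1]
      _ = k⁻¹ * (s * d) * k := by group
      _ = k⁻¹ * (d * s) * k := by rw [h2]
      _ = (k⁻¹ * d) * s * k := by group
      _ = (d * k⁻¹) * s * k := by rw [h3]
      _ = d * (k⁻¹ * s * k) := by group
  · rintro ⟨hd, hdI⟩
    have hds : s * d = d * s := Subgroup.mem_centralizer_iff.mp hdI s hs
    have hdt : t * d = d * t := comm_t_of_comm_s hS hs hr h hd hds.symm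
    refine ⟨⟨hd, (hC _ _).mpr hdt⟩, ?_⟩
    show d ∈ Subgroup.centralizer _
    rw [Subgroup.mem_centralizer_iff]
    intro k hk
    -- `k' = d k d⁻¹ ∈ K` and `k'⁻¹ s k' = k⁻¹ s k`
    have hkD := inverted_mem hS hk
    have hkt := inverted_t_eq hS hk
    have hdi : t * d⁻¹ = d⁻¹ * t := by
      calc t * d⁻¹ = d⁻¹ * (d * t) * d⁻¹ := by group
        _ = d⁻¹ * (t * d) * d⁻¹ := by rw [hdt]
        _ = d⁻¹ * t := by group
    have hk' : d * k * d⁻¹ ∈ Cfsg.invertedBy (DD G a t) t := by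
      rw [inverted_iff hS]
      refine ⟨(DD G a t).mul_mem ((DD G a t).mul_mem hd hkD) ((DD G a t).inv_mem hd), ?_⟩
      calc t * (d * k * d⁻¹) * t = (t * d) * k * (d⁻¹ * t) := by group
        _ = (d * t) * k * (t * d⁻¹) := by rw [hdt, hdi]
        _ = d * (t * k * t) * d⁻¹ := by group
        _ = d * k⁻¹ * d⁻¹ := by rw [hkt]
        _ = _ := by group
    have hs' : k⁻¹ * s * k ∈ Cfsg.involutionsIn (MulAction.stabilizer G a : Set G) := by
      refine ⟨(MulAction.stabilizer G a).mul_mem ((MulAction.stabilizer G a).mul_mem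
        ((MulAction.stabilizer G a).inv_mem hkD.1) hs.1) hkD.1, ?_, ?_⟩
      · intro h0
        apply hs.2.1
        have : s = k * (k⁻¹ * s * k) * k⁻¹ := by group
        rw [this, h0]; group
      · calc k⁻¹ * s * k * (k⁻¹ * s * k) = k⁻¹ * (s * s) * k := by group
          _ = 1 := by rw [hs.2.2]; group
    have hcomm : (k⁻¹ * s * k) * d = d * (k⁻¹ * s * k) :=
      Subgroup.mem_centralizer_iff.mp hdI _ hs'
    have key : (d * k * d⁻¹)⁻¹ * s * (d * k * d⁻¹) = k⁻¹ * s * k := by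
      calc (d * k * d⁻¹)⁻¹ * s * (d * k * d⁻¹) = d * k⁻¹ * d⁻¹ * s * (d * k * d⁻¹) := by group
        _ = d * k⁻¹ * (d⁻¹ * (s * d)) * k * d⁻¹ := by group
        _ = d * k⁻¹ * (d⁻¹ * (d * s)) * k * d⁻¹ := by rw [hds]
        _ = d * (k⁻¹ * s * k) * d⁻¹ := by group
        _ = (k⁻¹ * s * k) * d * d⁻¹ := by rw [hcomm]
        _ = k⁻¹ * s * k := by group
    have h3 := inverted_inj hS hs hk' hk key
    calc k * d = (d * k * d⁻¹)⁻¹⁻¹ * d := by rw [h3]; group
      _ = d * k := by group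

end Cfsg.Agent.S1127
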