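import Mathlib
import Cfsg.Statements.S1134
import Cfsg.Agent.Lib.RankOne3
-- import your own Cfsg.Agent.* helpers here

set_option autoImplicit false
open Cfsg

namespace Cfsg.Agent.S1134

/-- In the rank-one set-up (`G` finite and doubly transitive on `Ω`, `t` an involution moving `a`, `Q` normal in `G_a` with `G_a = Q D`, `Q ⊓ D = 1` for the two-point stabiliser `D = G_a ⊓ G_{t • a}`, `|Q|` even, `|D|` odd), with the action faithful and `G` containing two distinct commuting involutions, with `V = C_D(t)`: subsets of `V` conjugate in `G` are conjugate in `V`. -/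
theorem result {G Ω : Type*} [Group G] [Finite G] [MulAction G Ω] [FaithfulSMul G Ω] {a : Ω} {t : G} {Q : Subgroup G}
    (hS : Cfsg.IsRankOneSetup G Ω a t Q)
    (h2 : ∃ x y : G, x ≠ 1 ∧ y ≠ 1 ∧ x ≠ y ∧ x * x = 1 ∧ y * y = 1 ∧ x * y = y * x)
    (X : Set G) (hX : X ⊆ (((MulAction.stabilizer G a ⊓ MulAction.stabilizer G (t • a)) ⊓ Subgroup.centralizer {t} : Subgroup G) : Set G)) (g : G)
    (hY : (fun x => g * x * g⁻¹) '' X ⊆ (((MulAction.stabilizer G a ⊓ MulAction.stabilizer G (t • a)) ⊓ Subgroup.centralizer {t} : Subgroup G) : Set G)) :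
    ∃ v ∈ (MulAction.stabilizer G a ⊓ MulAction.stabilizer G (t • a)) ⊓ Subgroup.centralizer {t}, (fun x => v * x * v⁻¹) '' X = (fun x => g * x * g⁻¹) '' X := by
  open Cfsg.Agent.Lib.RankOne Cfsg.Agent.Lib.RankOne2 Cfsg.Agent.Lib.RankOne3 in
  have hC : ∀ y z : G, y ∈ Subgroup.centralizer {z} ↔ z * y = y * z := by
    intro y z
    rw [Subgroup.mem_centralizer_singleton_iff]
    exact ⟨fun h => h.symm, fun h => h.symm⟩
  have hXD : X ⊆ (DD G a t : Set G) := fun x hx => (hX hx).1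
  have hXt : ∀ x ∈ X, t * x = x * t := fun x hx => (hC _ _).mp (hX hx).2
  -- `X` fixes `g⁻¹ a` and `g⁻¹ (t a)`
  have hYD : ∀ x ∈ X, g * x * g⁻¹ ∈ DD G a t := fun x hx => (hY ⟨x, hx, rfl⟩).1
  have h1 : ∀ x ∈ X, x • (g⁻¹ • a) = g⁻¹ • a := by
    intro x hx
    have h2 := D_fix_a hS (hYD x hx)
    rw [mul_smul, mul_smul] at h2
    have := congrArg (g⁻¹ • ·) h2
    simpa using this
  have h2 : ∀ x ∈ X, x • (g⁻¹ • (t • a)) = g⁻¹ • (t • a) := by
    intro x hx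
    have h2 := D_fix_b hS (hYD x hx)
    rw [mul_smul, mul_smul] at h2
    have := congrArg (g⁻¹ • ·) h2
    simpa using this
  have hne : g⁻¹ • a ≠ g⁻¹ • (t • a) := fun h => a_ne_ta hS (smul_left_cancel _ h)
  obtain ⟨h, hh, hh1, hh2⟩ := move_pair hS hXD hS.mul_self rfl hXt h1 h2 hne
  set d := g * h⁻¹ with hd
  have hdD : d ∈ DD G a t := by
    refine D_mem hS ?_ ?_
    · rw [hd, mul_smul, inv_smul_eq_iff.mpr hh1.symm, smul_inv_smul]
    · rw [hd, mul_smul, inv_smul_eq_iff.mpr hh2.symm, smul_inv_smul]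
  have hdx : ∀ x ∈ X, d * x * d⁻¹ = g * x * g⁻¹ := by
    intro x hx
    have h3 : x * h = h * x := Subgroup.mem_centralizer_iff.mp hh x hx
    have h4 : h⁻¹ * x * h = x := by
      calc h⁻¹ * x * h = h⁻¹ * (x * h) := by group
        _ = h⁻¹ * (h * x) := by rw [h3]
        _ = x := by group
    calc d * x * d⁻¹ = g * (h⁻¹ * x * h) * g⁻¹ := by rw [hd]; group
      _ = g * x * g⁻¹ := by rw [h4]
  obtain ⟨v, hv, k, hk, hvt, e⟩ := D_decomp hS hdD
  have hvit : t * v⁻¹ = v⁻¹ * t := by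
    calc t * v⁻¹ = v⁻¹ * (v * t) * v⁻¹ := by group
      _ = v⁻¹ * (t * v) * v⁻¹ := by rw [hvt]
      _ = v⁻¹ * t := by group
  have hkx : ∀ x ∈ X, k * x = x * k := by
    intro x hx
    apply inverted_comm hS hk (hXt x hx)
    have h3 : g * x * g⁻¹ = v * (k * x * k⁻¹) * v⁻¹ := by
      rw [← hdx x hx, e]; group
    have h4 : t * (g * x * g⁻¹) = (g * x * g⁻¹) * t := (hC _ _).mp (hY ⟨x, hx, rfl⟩).2
    rw [h3] at h4
    have h5 : k * x * k⁻¹ = v⁻¹ * (v * (k * x * k⁻¹) * v⁻¹) * v := by group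
    rw [h5]
    calc t * (v⁻¹ * (v * (k * x * k⁻¹) * v⁻¹) * v)
        = (t * v⁻¹) * (v * (k * x * k⁻¹) * v⁻¹) * v := by group
      _ = v⁻¹ * (t * (v * (k * x * k⁻¹) * v⁻¹)) * v := by rw [hvit]; group
      _ = v⁻¹ * ((v * (k * x * k⁻¹) * v⁻¹) * t) * v := by rw [h4]
      _ = v⁻¹ * (v * (k * x * k⁻¹) * v⁻¹) * (t * v) := by group
      _ = _ := by rw [hvt]; group
  have hconj : ∀ x ∈ X, v * x * v⁻¹ = g * x * g⁻¹ := by
    intro x hx
    rw [← hdx x hx, e]
    have h3 := hkx x hx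
    calc v * x * v⁻¹ = v * (x * k * k⁻¹) * v⁻¹ := by group
      _ = v * (k * x * k⁻¹) * v⁻¹ := by rw [h3]
      _ = v * k * x * (v * k)⁻¹ := by group
  refine ⟨v, ⟨hv, (hC _ _).mpr hvt⟩, ?_⟩
  apply Set.image_congr
  intro x hx
  exact hconj x hx

end Cfsg.Agent.S1134
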