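import Mathlib
import Cfsg.Statements.S1140
import Mathlib
-- import your own Cfsg.Agent.* helpers here

set_option autoImplicit false
open Cfsg

namespace Cfsg.Agent.S1140

/-- For a finite field `F` of characteristic 2, the automorphisms of `F`, viewed as additive maps `F → F`, are linearly independent over `F` (acting on values) every additive endomorphism of `F` is an `F`-linear combination of them, and every biadditive map `F → F → F` is an `F`-combination of the maps `(x, y) ↦ σ(x) τ(y)`. -/
theorem result {F : Type*} [Field F] [Fintype F] [CharP F 2] :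
    LinearIndependent F (fun σ : F ≃+* F => ((σ : F →+* F) : F → F)) ∧
      (∀ f : F →+ F, ∃ (s : Finset (F ≃+* F)) (c : (F ≃+* F) → F), ∀ x : F, f x = ∑ σ ∈ s, c σ * σ x) ∧
      ∀ B : F →+ F →+ F, ∃ (s : Finset ((F ≃+* F) × (F ≃+* F))) (c : (F ≃+* F) × (F ≃+* F) → F),
        ∀ x y : F, B x y = ∑ p ∈ s, c p * (p.1 x * p.2 y) := by
  classical
  let _ : Algebra (ZMod 2) F := ZMod.algebra F 2
  have : Finite (F ≃+* F) :=
    Finite.of_injective (fun σ : F ≃+* F => (σ : F → F)) DFunLike.coe_injective
  let _ : Fintype (F ≃+* F) := Fintype.ofFinite _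
  -- (a) linear independence
  have hli : LinearIndependent F (fun σ : F ≃+* F => ((σ : F →+* F) : F → F)) := by
    have h := linearIndependent_monoidHom F F
    have hinj : Function.Injective (fun σ : F ≃+* F => ((σ : F →+* F) : F →* F)) := by
      intro σ τ h
      ext x
      exact DFunLike.congr_fun h x
    exact h.comp _ hinj
  let emb : (F ≃+* F) → (F →ₗ[ZMod 2] F) := fun σ =>
    ((σ : F →+* F).toAddMonoidHom).toZModLinearMap 2
  have hli' : LinearIndependent F emb := by
    let coeL : (F →ₗ[ZMod 2] F) →ₗ[F] (F → F) :=
      { toFun := fun f => f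
        map_add' := fun _ _ => rfl
        map_smul' := fun _ _ => rfl }
    exact LinearIndependent.of_comp coeL hli
  have hV : Module.finrank F (F →ₗ[ZMod 2] F) = Module.finrank (ZMod 2) F :=
    Module.finrank_linearMap_self (ZMod 2) F F
  have hcard : Fintype.card (F ≃+* F) = Module.finrank F (F →ₗ[ZMod 2] F) := by
    apply le_antisymm hli'.fintype_card_le_finrank
    rw [hV, ← IsGalois.card_aut_eq_finrank (ZMod 2) F, ← Nat.card_eq_fintype_card]
    apply Nat.card_le_card_of_injective (fun σ : F ≃ₐ[ZMod 2] F => (σ : F ≃+* F))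
    intro σ τ h
    ext x
    exact DFunLike.congr_fun h x
  have : Nonempty (F ≃+* F) := ⟨RingEquiv.refl F⟩
  let b := basisOfLinearIndependentOfCardEqFinrank hli' hcard
  have hb : ∀ σ, b σ = emb σ := by
    intro σ
    simp [b, coe_basisOfLinearIndependentOfCardEqFinrank]
  have key : ∀ f : F →+ F, ∀ x : F,
      f x = ∑ σ : F ≃+* F, (b.repr (f.toZModLinearMap 2) σ) * σ x := by
    intro f x
    have h1 := b.sum_repr (f.toZModLinearMap 2)
    have h2 := congrArg (fun g : F →ₗ[ZMod 2] F => g x) h1
    simp only [LinearMap.sum_apply, LinearMap.smul_apply, hb] at h2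
    exact h2.symm
  refine ⟨hli, ?_, ?_⟩
  · intro f
    exact ⟨Finset.univ, fun σ => b.repr (f.toZModLinearMap 2) σ, key f⟩
  · intro B
    -- coordinates of `B x`
    let c : (F ≃+* F) → (F →+ F) := fun τ =>
      { toFun := fun x => b.repr ((B x).toZModLinearMap 2) τ
        map_zero' := by
          have : (B 0).toZModLinearMap 2 = 0 := by
            ext y; simp
          show b.repr ((B 0).toZModLinearMap 2) τ = 0
          rw [this, map_zero]; rfl
        map_add' := by
          intro x y
          have : (B (x + y)).toZModLinearMap 2 = (B x).toZModLinearMap 2 + (B y).toZModLinearMap 2 := by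
            ext z; simp
          show b.repr ((B (x + y)).toZModLinearMap 2) τ = _
          rw [this, map_add]; rfl }
    refine ⟨Finset.univ, fun p => b.repr ((c p.2).toZModLinearMap 2) p.1, ?_⟩
    intro x y
    have h1 : B x y = ∑ τ : F ≃+* F, c τ x * τ y := key (B x) y
    rw [h1, ← Finset.univ_product_univ, Finset.sum_product_right]
    apply Finset.sum_congr rfl
    intro τ _
    rw [key (c τ) x, Finset.sum_mul]
    apply Finset.sum_congr rfl
    intro σ _
    simp only [mul_assoc]

end Cfsg.Agent.S1140
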