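import Mathlib
import Cfsg.Statements.S1142
import Cfsg.Agent.Lib.FHMatrix
-- import your own Cfsg.Agent.* helpers here

set_option autoImplicit false
open Cfsg

namespace Cfsg.Agent.S1142

/-- Feit–Higman: if a finite group has a (B,N)-pair of rank 2, its Weyl group `N/(B ⊓ N)` has order 4, 6, 8, 12 or 16. -/
theorem result {G : Type*} [Group G] [Finite G] (P : Cfsg.BNPair G)
    (h2 : P.rank = 2) :
    ((P.B ⊓ P.N).subgroupOf P.N).index ∈ ({4, 6, 8, 12, 16} : Set ℕ) := by
  classical
  cases nonempty_fintype G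
  have h3 : Nat.card P.S = 2 := h2
  obtain ⟨x, y, hxy, huniv⟩ := Nat.card_eq_two_iff.1 h3
  refine Cfsg.Agent.Lib.FHMatrix.feit_higman_aux (s₁ := x) (s₂ := y) x.2 y.2 ?_ ?_
  · intro h
    exact hxy (Subtype.ext h)
  · intro s hs
    have h4 : (⟨s, hs⟩ : P.S) ∈ ({x, y} : Set P.S) := by
      rw [huniv]; trivial
    rcases h4 with h4 | h4
    · left
      exact congrArg Subtype.val h4
    · right
      exact congrArg Subtype.val h4

end Cfsg.Agent.S1142
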