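import Mathlib
-- Template for statement S1150 (row 1150; see /opt/grader/pristine/manifest.json for weights).
-- Copy to Cfsg/Agent/S1150.lean and replace the sorry. The statement below is byte-identical to the frozen
-- statement Cfsg.CfsgFrozen.S1150 (Cfsg/Statements/S1150.lean; the theorem Cfsg.small_ree_diagonal_cyclic);
-- the grader kernel-checks Cfsg.Agent.S1150.result against that frozen type. Keep the theorem IN THIS FILE
-- (a `result` declared elsewhere and merely imported here is not credited); helpers may live anywhere
-- under Cfsg/Agent/.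
import Cfsg.Statements.S1150
import Cfsg.Agent.Lib.Chev.TwG2R

set_option autoImplicit false
open Cfsg

namespace Cfsg.Agent.S1150

/-- In the small Ree group ²G₂(q), q = 3^(2m+1), realised as G¹ inside the Chevalley group G₂ over the field with q elements (θ the 3^m-th power map), with H¹ = G¹ ∩ H and U¹ = G¹ ∩ U the intersections with the ambient diagonal and positive unipotent subgroups: `H¹` is cyclic. -/
theorem result {K : Type*} [Field K] [Fintype K] {m : ℕ} (hK : Fintype.card K = 3 ^ (2 * m + 1)) :
    IsCyclic ↥(Cfsg.Lie.chevG2.diagonalSubgroup K ⊓ Cfsg.Lie.twistedG2 K (3 ^ m)) := by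
  obtain ⟨d⟩ := Cfsg.Agent.Lib.Chev.TwG2.exists_dat hK
  exact d.isCyclic_H1 (Cfsg.Agent.Lib.Chev.TwG2.hsq hK)

end Cfsg.Agent.S1150
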