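import Mathlib
-- Template for statement S1151 (row 1151; see /opt/grader/pristine/manifest.json for weights).
-- Copy to Cfsg/Agent/S1151.lean and replace the sorry. The statement below is byte-identical to the frozen
-- statement Cfsg.CfsgFrozen.S1151 (Cfsg/Statements/S1151.lean; the theorem Cfsg.small_ree_odd_diagonal_fixed_point_free);
-- the grader kernel-checks Cfsg.Agent.S1151.result against that frozen type. Keep the theorem IN THIS FILE
-- (a `result` declared elsewhere and merely imported here is not credited); helpers may live anywhere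
-- under Cfsg/Agent/.
import Cfsg.Statements.S1151
import Cfsg.Agent.Lib.Chev.TwG2R

set_option autoImplicit false
open Cfsg

namespace Cfsg.Agent.S1151

/-- In the small Ree group ²G₂(q), q = 3^(2m+1), realised as G¹ inside the Chevalley group G₂ over the field with q elements (θ the 3^m-th power map), with H¹ = G¹ ∩ H and U¹ = G¹ ∩ U the intersections with the ambient diagonal and positive unipotent subgroups: `H¹` has exactly `(q - 1)/2` elements of odd order, and each non-identity one centralises no non-identity element of `U¹`. -/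
theorem result {K : Type*} [Field K] [Fintype K] {m : ℕ} (hK : Fintype.card K = 3 ^ (2 * m + 1)) :
    2 * Nat.card {h : ↥(Cfsg.Lie.chevG2.diagonalSubgroup K ⊓ Cfsg.Lie.twistedG2 K (3 ^ m)) // Odd (orderOf h)} = 3 ^ (2 * m + 1) - 1 ∧
      ∀ h ∈ (Cfsg.Lie.chevG2.diagonalSubgroup K ⊓ Cfsg.Lie.twistedG2 K (3 ^ m)), h ≠ 1 → Odd (orderOf h) →
        (Cfsg.Lie.chevG2.posUnipotent K ⊓ Cfsg.Lie.twistedG2 K (3 ^ m)) ⊓ Subgroup.centralizer {h} = ⊥ := by
  obtain ⟨d⟩ := Cfsg.Agent.Lib.Chev.TwG2.exists_dat hK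
  have h4 := Cfsg.Agent.Lib.Chev.TwG2.card_mod' m
  refine ⟨?_, fun h hh h1 h2 => d.fpf_of_odd (Cfsg.Agent.Lib.Chev.TwG2.hsq hK) h hh h1 h2⟩
  have h5 : 3 ^ (2 * m + 1) - 1 = 2 * ((3 ^ (2 * m + 1) - 1) / 2) := by omega
  have hodd : Odd ((3 ^ (2 * m + 1) - 1) / 2) := by
    rw [Nat.odd_iff]
    omega
  rw [d.card_odd (Cfsg.Agent.Lib.Chev.TwG2.hsq hK) hodd (by rw [hK]; exact h5)]
  omega

end Cfsg.Agent.S1151
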