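import Mathlib
import Cfsg.Statements.S1165
import Cfsg.Agent.Lib.RankOne2
-- import your own Cfsg.Agent.* helpers here

set_option autoImplicit false
open Cfsg

namespace Cfsg.Agent.S1165

/-- In the rank-one set-up (`G` finite and doubly transitive on `Ω`, `t` an involution moving `a`, `Q` normal in `G_a` with `G_a = Q D`, `Q ⊓ D = 1` for the two-point stabiliser `D = G_a ⊓ G_{t • a}`, `|Q|` even, `|D|` odd): every `x ∈ Q`, `x ≠ 1`, determines unique `g, f ∈ Q`, `h ∈ D` with `t x t = g h t f` (a consequence of the canonical form). For these: (H1) the `f`-part of `x⁻¹` is `g⁻¹`; (H2) the `f`-part of `f` is `x`; (H3) for `a ∈ D` the `f`-part of `a⁻¹ x a` is `(t a t)⁻¹ f (t a t)`; (H4) the `h`-part of `a⁻¹ x a` is `(t a t)⁻¹ h a`, that of `x⁻¹` is `t h⁻¹ t`, and that of `f` is `h⁻¹`. -/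
theorem result {G Ω : Type*} [Group G] [Finite G] [MulAction G Ω] {a : Ω} {t : G} {Q : Subgroup G}
    (hS : Cfsg.IsRankOneSetup G Ω a t Q)
    (x g h f : G) (hx : x ∈ Q) (hx1 : x ≠ 1) (hg : g ∈ Q) (hh : h ∈ (MulAction.stabilizer G a ⊓ MulAction.stabilizer G (t • a))) (hf : f ∈ Q)
    (heq : t * x * t = g * h * t * f) :
    (∀ g₁ h₁ f₁ : G, g₁ ∈ Q → h₁ ∈ (MulAction.stabilizer G a ⊓ MulAction.stabilizer G (t • a)) → f₁ ∈ Q → t * x⁻¹ * t = g₁ * h₁ * t * f₁ →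
        f₁ = g⁻¹ ∧ h₁ = t * h⁻¹ * t) ∧
      (∀ g₂ h₂ f₂ : G, g₂ ∈ Q → h₂ ∈ (MulAction.stabilizer G a ⊓ MulAction.stabilizer G (t • a)) → f₂ ∈ Q → t * f * t = g₂ * h₂ * t * f₂ →
        f₂ = x ∧ h₂ = h⁻¹) ∧
      ∀ c ∈ (MulAction.stabilizer G a ⊓ MulAction.stabilizer G (t • a)), ∀ g₃ h₃ f₃ : G, g₃ ∈ Q → h₃ ∈ (MulAction.stabilizer G a ⊓ MulAction.stabilizer G (t • a)) → f₃ ∈ Q →
        t * (c⁻¹ * x * c) * t = g₃ * h₃ * t * f₃ →
          f₃ = (t * c * t)⁻¹ * f * (t * c * t) ∧ h₃ = (t * c * t)⁻¹ * h * c := by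
  open Cfsg.Agent.Lib.RankOne in
  have htt := hS.mul_self
  have hti := t_inv hS
  have hgi := Q.inv_mem hg
  have hfi := Q.inv_mem hf
  have hhD : h ∈ DD G a t := hh
  refine ⟨?_, ?_, ?_⟩
  · intro g₁ h₁ f₁ hg₁ hh₁ hf₁ e₁
    have e2 : t * x⁻¹ * t = f⁻¹ * (t * h⁻¹ * t) * t * g⁻¹ := by
      have h1 : (t * x * t)⁻¹ = t * x⁻¹ * t := by
        simp only [mul_inv_rev, hti]; group
      rw [← h1, heq]
      simp only [mul_inv_rev, hti, mul_assoc]
      congr 2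
      rw [← mul_assoc t t, htt, one_mul]
    rw [e2] at e₁
    obtain ⟨_, h2, h3⟩ := canonical_unique' hS (Q.inv_mem hf) hg₁
      (t_conj_D hS ((DD G a t).inv_mem hh)) hh₁ (Q.inv_mem hg) hf₁ e₁
    exact ⟨h3.symm, h2.symm⟩
  · intro g₂ h₂ f₂ hg₂ hh₂ hf₂ e₂
    have e2 : t * f * t = (h⁻¹ * g⁻¹ * h) * h⁻¹ * t * x := by
      have h1 : f = t * h⁻¹ * g⁻¹ * (t * x * t) := by
        rw [heq]
        have key : ∀ g : G, t * (t * g) = g := fun g => by rw [← mul_assoc, htt, one_mul]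
        simp only [mul_assoc, inv_mul_cancel_left, key]
      calc t * f * t = t * (t * h⁻¹ * g⁻¹ * (t * x * t)) * t := by rw [← h1]
        _ = (t * t) * h⁻¹ * g⁻¹ * t * x * (t * t) := by group
        _ = h⁻¹ * g⁻¹ * t * x := by rw [htt]; group
        _ = _ := by group
    rw [e2] at e₂
    have hhi := (DD G a t).inv_mem hh
    obtain ⟨_, h2, h3⟩ := canonical_unique' hS
      (by simpa using hS.conj_mem _ hhi.1 _ (Q.inv_mem hg)) hg₂ hhi hh₂ hx hf₂ e₂
    exact ⟨h3.symm, h2.symm⟩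
  · intro c hc g₃ h₃ f₃ hg₃ hh₃ hf₃ e₃
    set ch := t * c * t with hch
    have hchD : ch ∈ DD G a t := t_conj_D hS hc
    have e2 : t * (c⁻¹ * x * c) * t
        = (ch⁻¹ * g * ch) * (ch⁻¹ * h * c) * t * (ch⁻¹ * f * ch) := by
      have e4 : ch⁻¹ = t * c⁻¹ * t := by
        rw [hch]; simp only [mul_inv_rev, hti]; group
      have e5 : t * ch = c * t := by
        rw [hch]
        calc t * (t * c * t) = (t * t) * c * t := by group
          _ = c * t := by rw [htt]; group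
      calc t * (c⁻¹ * x * c) * t = (t * c⁻¹ * t) * (t * x * t) * (t * c * t) := by
            have key : ∀ g : G, t * (t * g) = g := fun g => by rw [← mul_assoc, htt, one_mul]
            simp only [mul_assoc, key]
        _ = ch⁻¹ * (g * h * t * f) * ch := by rw [e4, heq]
        _ = (ch⁻¹ * g * ch) * (ch⁻¹ * h) * (t * ch) * (ch⁻¹ * f * ch) := by group
        _ = _ := by rw [e5]; group
    rw [e2] at e₃
    obtain ⟨_, h2, h3⟩ := canonical_unique' hS
      (hS.conj_mem _ ((DD G a t).inv_mem hchD).1 _ hg |> fun h => by simpa using h) hg₃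
      ((DD G a t).mul_mem ((DD G a t).mul_mem ((DD G a t).inv_mem hchD) hh) hc) hh₃
      (hS.conj_mem _ ((DD G a t).inv_mem hchD).1 _ hf |> fun h => by simpa using h) hf₃ e₃
    exact ⟨h3.symm, h2.symm⟩

end Cfsg.Agent.S1165
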