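import Mathlib
import Cfsg.Statements.S1166
import Cfsg.Agent.Lib.RankOne2
-- import your own Cfsg.Agent.* helpers here

set_option autoImplicit false
open Cfsg

namespace Cfsg.Agent.S1166

/-- In the rank-one set-up (`G` finite and doubly transitive on `Ω`, `t` an involution moving `a`, `Q` normal in `G_a` with `G_a = Q D`, `Q ⊓ D = 1` for the two-point stabiliser `D = G_a ⊓ G_{t • a}`, `|Q|` even, `|D|` odd), with `t x t = g_x h_x t f_x` and `t y t = g_y h_y t f_y` (`g, f ∈ Q`, `h ∈ D`) for `x, y ∈ Q ∖ 1` with `x y ≠ 1`: then `z = f_x g_y ≠ 1`, and if `t z t = g_z h_z t f_z` and `t (x y) t = g' h' t f'` then `f' = (t h_y t)⁻¹ f_z (t h_y t) f_y` and `h' = h_x h_z h_y` (H6). -/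
theorem result {G Ω : Type*} [Group G] [Finite G] [MulAction G Ω] {a : Ω} {t : G} {Q : Subgroup G}
    (hS : Cfsg.IsRankOneSetup G Ω a t Q)
    (x y gx hx fx gy hy fy : G) (hxQ : x ∈ Q) (hx1 : x ≠ 1) (hyQ : y ∈ Q) (hy1 : y ≠ 1) (hxy : x * y ≠ 1)
    (hgx : gx ∈ Q) (hhx : hx ∈ (MulAction.stabilizer G a ⊓ MulAction.stabilizer G (t • a))) (hfx : fx ∈ Q) (ex : t * x * t = gx * hx * t * fx)
    (hgy : gy ∈ Q) (hhy : hy ∈ (MulAction.stabilizer G a ⊓ MulAction.stabilizer G (t • a))) (hfy : fy ∈ Q) (ey : t * y * t = gy * hy * t * fy) :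
    fx * gy ≠ 1 ∧
      ∀ gz hz fz g' h' f' : G, gz ∈ Q → hz ∈ (MulAction.stabilizer G a ⊓ MulAction.stabilizer G (t • a)) → fz ∈ Q → t * (fx * gy) * t = gz * hz * t * fz →
        g' ∈ Q → h' ∈ (MulAction.stabilizer G a ⊓ MulAction.stabilizer G (t • a)) → f' ∈ Q → t * (x * y) * t = g' * h' * t * f' →
          f' = (t * hy * t)⁻¹ * fz * (t * hy * t) * fy ∧ h' = hx * hz * hy := by
  open Cfsg.Agent.Lib.RankOne in
  have htt := hS.mul_self
  have hti := t_inv hS
  have key : ∀ g : G, t * (t * g) = g := fun g => by rw [← mul_assoc, htt, one_mul]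
  set z := fx * gy with hz
  have hzQ : z ∈ Q := Q.mul_mem hfx hgy
  have e0 : t * (x * y) * t = gx * hx * t * z * hy * t * fy := by
    calc t * (x * y) * t = (t * x * t) * (t * y * t) := by
          simp only [mul_assoc, key]
      _ = gx * hx * t * z * hy * t * fy := by rw [ex, ey, hz]; group
  have hxyQ : x * y ∈ Q := Q.mul_mem hxQ hyQ
  have hnot := t_conj_not_mem hS hxyQ hxy
  have hz1 : z ≠ 1 := by
    intro h0
    apply hnot
    rw [e0, h0]
    have e1 : gx * hx * t * 1 * hy * t * fy = gx * hx * (t * hy * t) * fy := by group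
    rw [e1]
    have h1 : t * hy * t ∈ DD G a t := t_conj_D hS hhy
    exact (MulAction.stabilizer G a).mul_mem ((MulAction.stabilizer G a).mul_mem
      ((MulAction.stabilizer G a).mul_mem (hS.le hgx) hhx.1) h1.1) (hS.le hfy)
  refine ⟨hz1, ?_⟩
  intro gz hz' fz g' h' f' hgz hhz hfz ez hg' hh' hf' e'
  set hh := t * hy * t with hhh
  have hhD : hh ∈ DD G a t := t_conj_D hS hhy
  have e5 : t * hh = hy * t := by
    rw [hhh]
    calc t * (t * hy * t) = (t * t) * hy * t := by group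
      _ = hy * t := by rw [htt]; group
  have e6 : t * z = gz * hz' * t * fz * t := by
    calc t * z = t * z * (t * t) := by rw [htt, mul_one]
      _ = (t * z * t) * t := by group
      _ = _ := by rw [ez]
  have e2 : t * (x * y) * t
      = (gx * (hx * gz * hx⁻¹)) * (hx * hz' * hy) * t * (hh⁻¹ * fz * hh * fy) := by
    calc t * (x * y) * t = gx * hx * (t * z) * hy * t * fy := by rw [e0]; group
      _ = gx * hx * (gz * hz' * t * fz * t) * hy * t * fy := by rw [e6]
      _ = gx * hx * gz * hz' * t * fz * (t * hy * t) * fy := by group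
      _ = gx * hx * gz * hz' * (t * hh) * (hh⁻¹ * fz * hh) * fy := by rw [← hhh]; group
      _ = gx * hx * gz * hz' * (hy * t) * (hh⁻¹ * fz * hh) * fy := by rw [e5]
      _ = _ := by group
  rw [e2] at e'
  have hhiS := ((DD G a t).inv_mem hhD).1
  obtain ⟨_, h2, h3⟩ := canonical_unique' hS
    (Q.mul_mem hgx (hS.conj_mem _ hhx.1 _ hgz)) hg'
    ((DD G a t).mul_mem ((DD G a t).mul_mem hhx hhz) hhy) hh'
    (Q.mul_mem (by simpa using hS.conj_mem _ hhiS _ hfz) hfy) hf' e'
  exact ⟨h3.symm, h2.symm⟩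

end Cfsg.Agent.S1166
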