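import Mathlib
import Cfsg.Statements.S1168
import Cfsg.Agent.S1140
-- import your own Cfsg.Agent.* helpers here

set_option autoImplicit false
open Cfsg

namespace Cfsg.Agent.S1168

/-- For a finite field `F` of characteristic 2: if `q : F → F` is quadratic over the prime field, i.e. `(x, y) ↦ q (x + y) + q x + q y` is additive in each variable, then `q x = Σ c_{σ,τ} σ(x) τ(x)` for some coefficients indexed by pairs of field automorphisms. -/
theorem result {F : Type*} [Field F] [Fintype F] [CharP F 2]
    (q : F → F)
    (hq : ∀ x y z : F, q (x + y + z) + q (x + y) + q (x + z) + q (y + z) + q x + q y + q z = 0) :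
    ∃ (s : Finset ((F ≃+* F) × (F ≃+* F))) (c : (F ≃+* F) × (F ≃+* F) → F),
      ∀ x : F, q x = ∑ p ∈ s, c p * (p.1 x * p.2 x) := by
  classical
  let _ : Algebra (ZMod 2) F := ZMod.algebra F 2
  have : Finite (F ≃+* F) :=
    Finite.of_injective (fun σ : F ≃+* F => (σ : F → F)) DFunLike.coe_injective
  let _ : Fintype (F ≃+* F) := Fintype.ofFinite _
  have h2 : ∀ x : F, x + x = 0 := CharTwo.add_self_eq_zero
  have q0 : q 0 = 0 := by
    have := hq 0 0 0
    simp only [add_zero] at this
    have e : q 0 + q 0 + q 0 + q 0 + q 0 + q 0 + q 0 = q 0 := by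
      calc q 0 + q 0 + q 0 + q 0 + q 0 + q 0 + q 0
          = (q 0 + q 0) + (q 0 + q 0) + (q 0 + q 0) + q 0 := by ring
        _ = q 0 := by rw [h2]; simp [h2]
    rw [e] at this
    exact this
  -- additive maps are combinations of automorphisms
  have addrep : ∀ f : F →+ F, ∃ c : (F ≃+* F) → F, ∀ x : F, f x = ∑ σ, c σ * σ x := by
    intro f
    obtain ⟨s, c, hc⟩ := (Cfsg.Agent.S1140.result (F := F)).2.1 f
    refine ⟨fun σ => if σ ∈ s then c σ else 0, fun x => ?_⟩
    rw [hc x, ← Finset.sum_filter_add_sum_filter_not Finset.univ (· ∈ s)]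
    have e1 : ∑ σ ∈ Finset.univ.filter (· ∈ s), (if σ ∈ s then c σ else 0) * σ x = ∑ σ ∈ s, c σ * σ x := by
      rw [Finset.filter_mem_eq_inter, Finset.univ_inter]
      apply Finset.sum_congr rfl
      intro σ hσ
      simp [hσ]
    have e2 : ∑ σ ∈ Finset.univ.filter (fun σ => ¬ σ ∈ s), (if σ ∈ s then c σ else 0) * σ x = 0 := by
      apply Finset.sum_eq_zero
      intro σ hσ
      simp only [Finset.mem_filter, Finset.mem_univ, true_and] at hσ
      simp [hσ]
    rw [e1, e2, add_zero]
  -- the representable functions
  let Rep : (F → F) → Prop := fun f =>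
    ∃ c : (F ≃+* F) × (F ≃+* F) → F, ∀ x, f x = ∑ p, c p * (p.1 x * p.2 x)
  have Rep_add : ∀ f g, Rep f → Rep g → Rep (fun x => f x + g x) := by
    rintro f g ⟨c, hc⟩ ⟨d, hd⟩
    refine ⟨fun p => c p + d p, fun x => ?_⟩
    simp only [hc, hd, add_mul, Finset.sum_add_distrib]
  have Rep_smul : ∀ (e : F) f, Rep f → Rep (fun x => f x * e) := by
    rintro e f ⟨c, hc⟩
    refine ⟨fun p => c p * e, fun x => ?_⟩
    simp only [hc, Finset.sum_mul]
    apply Finset.sum_congr rfl
    intro p _
    ring
  have Rep_prod : ∀ f g : F →+ F, Rep (fun x => f x * g x) := by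
    intro f g
    obtain ⟨c, hc⟩ := addrep f
    obtain ⟨d, hd⟩ := addrep g
    refine ⟨fun p => c p.1 * d p.2, fun x => ?_⟩
    simp only
    rw [hc x, hd x, Finset.sum_mul_sum, ← Finset.univ_product_univ, Finset.sum_product]
    apply Finset.sum_congr rfl
    intro σ _
    apply Finset.sum_congr rfl
    intro τ _
    ring
  -- the polarisation
  let B : F → F →+ F := fun e => AddMonoidHom.mk' (fun u => q (u + e) + q u + q e) (by
    intro u v
    have h3 := hq u v e
    have h4 : q (u + v + e) + q (u + v) + q e = (q (u + e) + q u + q e) + (q (v + e) + q v + q e) := by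
      have h5 : q (u + v + e) = q (u + v) + q (u + e) + q (v + e) + q u + q v + q e := by
        have h6 : ∀ a b : F, a + b = 0 → a = b := fun a b hab => by
          have := h2 b
          exact add_right_cancel (hab.trans this.symm)
        apply h6
        rw [← h3]; ring
      rw [h5]
      have e1 : q (u + v) + q (u + e) + q (v + e) + q u + q v + q e + q (u + v) + q e
          = (q (u + v) + q (u + v)) + (q e + q e) + (q (u + e) + q u) + (q (v + e) + q v) := by ring
      have e2 : q (u + e) + q u + q e + (q (v + e) + q v + q e)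
          = (q e + q e) + (q (u + e) + q u) + (q (v + e) + q v) := by ring
      rw [e1, e2, h2]
      ring
    exact h4)
  have hB : ∀ e u, B e u = q (u + e) + q u + q e := fun _ _ => rfl
  have hz : ∀ z : ZMod 2, z = 0 ∨ z = 1 := by decide
  have hqz : ∀ (z : ZMod 2) (v e : F),
      q (v + z • e) = q v + algebraMap (ZMod 2) F z * q e + algebraMap (ZMod 2) F z * B e v := by
    intro z v e
    rcases hz z with rfl | rfl
    · simp only [zero_smul, add_zero, map_zero, zero_mul]
    · simp only [one_smul, map_one, one_mul, hB]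
      have e1 : q v + q e + (q (v + e) + q v + q e) = q (v + e) + (q v + q v) + (q e + q e) := by ring
      rw [e1, h2, h2]
      ring
  let b := Module.finBasis (ZMod 2) F
  let coord : Fin (Module.finrank (ZMod 2) F) → (F →+ F) := fun i =>
    { toFun := fun x => algebraMap (ZMod 2) F (b.repr x i)
      map_zero' := by simp
      map_add' := by intro x y; simp }
  have hcoord : ∀ i x, coord i x = algebraMap (ZMod 2) F (b.repr x i) := fun _ _ => rfl
  have hcc : ∀ i x, coord i x * coord i x = coord i x := by
    intro i x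
    rw [hcoord]
    rcases hz (b.repr x i) with h | h <;> rw [h] <;> simp
  let Y : Finset (Fin (Module.finrank (ZMod 2) F)) → (F →+ F) := fun s =>
    AddMonoidHom.mk' (fun x => ∑ i ∈ s, (b.repr x i) • b i) (by
      intro x y
      simp only [map_add, Finsupp.add_apply, add_smul, Finset.sum_add_distrib])
  have hY : ∀ s x, Y s x = ∑ i ∈ s, (b.repr x i) • b i := fun _ _ => rfl
  have main : ∀ s, Rep (fun x => q (Y s x)) := by
    intro s
    induction s using Finset.induction_on with
    | empty =>
      refine ⟨fun _ => 0, fun x => ?_⟩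
      simp [hY, q0]
    | insert j s hj ih =>
      have e : (fun x => q (Y (insert j s) x)) = fun x =>
          q (Y s x) + (coord j x * coord j x) * q (b j) + coord j x * ((B (b j)).comp (Y s) x) := by
        funext x
        have e1 : Y (insert j s) x = Y s x + (b.repr x j) • b j := by
          rw [hY, hY, Finset.sum_insert hj, add_comm]
        rw [e1, hqz, hcc, hcoord]
        rfl
      rw [e]
      exact Rep_add _ _ (Rep_add _ _ ih (Rep_smul _ _ (Rep_prod _ _))) (Rep_prod _ _)
  obtain ⟨c, hc⟩ := main Finset.univ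
  refine ⟨Finset.univ, c, fun x => ?_⟩
  have e : Y Finset.univ x = x := b.sum_repr x
  have h3 : q (Y Finset.univ x) = _ := hc x
  rw [e] at h3
  exact h3

end Cfsg.Agent.S1168
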