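import Cfsg.Statements.S1176
import Cfsg.Agent.H28.Isolated

set_option autoImplicit false
open Cfsg

namespace Cfsg.Agent.S1176

/-- Let x₀ be an involution of the finite group G and D its conjugacy class. Assume (a) for each x ∈ D the subgroup W(x) generated by the members of D commuting with x is a 2-group of nilpotency class at most 2, and (b) the product of two distinct commuting members of D again lies in D. Then for all x, y ∈ D, if xy has even order greater than 2, its order is 4. -/
theorem result {G : Type*} [Group G] [Finite G] (x₀ : G) (hx₀ : orderOf x₀ = 2) (ha : ∀ x : G, IsConj x₀ x → IsPGroup 2 ↥(Subgroup.closure {y : G | IsConj x₀ y ∧ Commute y x}) ∧ ⁅⁅Subgroup.closure {y : G | IsConj x₀ y ∧ Commute y x}, Subgroup.closure {y : G | IsConj x₀ y ∧ Commute y x}⁆, Subgroup.closure {y : G | IsConj x₀ y ∧ Commute y x}⁆ = ⊥) (hb : ∀ x y : G, IsConj x₀ x → IsConj x₀ y → x ≠ y → Commute x y → IsConj x₀ (x * y)) (x y : G) (hx : IsConj x₀ x) (hy : IsConj x₀ y) (heven : Even (orderOf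 (x * y))) (hgt : 2 < orderOf (x * y)) : orderOf (x * y) = 4 := by
  have hconjord : ∀ w : G, IsConj x₀ w → orderOf w = 2 := by
    intro w hw
    obtain ⟨c, rfl⟩ := isConj_iff.mp hw
    have := orderOf_injective (MulAut.conj c).toMonoidHom (MulAut.conj c).injective x₀
    simpa [hx₀] using this
  have hx2 : orderOf x = 2 := hconjord x hx
  have hy2 : orderOf y = 2 := hconjord y hy
  have hxx : x * x = 1 := Cfsg.Agent.H28.mul_self_of_order_two hx2
  have hyy : y * y = 1 := Cfsg.Agent.H28.mul_self_of_order_two hy2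
  have hxi : x⁻¹ = x := inv_eq_of_mul_eq_one_right hxx
  have hyi : y⁻¹ = y := inv_eq_of_mul_eq_one_right hyy
  set r := x * y with hr
  have hxr : x * r * x = r⁻¹ := by
    rw [hr, mul_inv_rev, hxi, hyi]; simp only [← mul_assoc]; rw [hxx, one_mul]
  have hyr : y * r * y = r⁻¹ := by
    rw [hr, mul_inv_rev, hxi, hyi]; simp only [mul_assoc]; rw [hyy, mul_one]
  obtain ⟨m, hm⟩ := heven
  have hm' : orderOf r = 2 * m := by omega
  have hmpos : 0 < m := by omega
  set t := r ^ m with ht
  have ht1 : t ≠ 1 := by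
    intro h
    have := Nat.le_of_dvd hmpos (orderOf_dvd_of_pow_eq_one h)
    omega
  have htt : t * t = 1 := by
    rw [ht, ← pow_add, show m + m = 2 * m by ring, ← hm']; exact pow_orderOf_eq_one r
  have hti : t⁻¹ = t := inv_eq_of_mul_eq_one_right htt
  have hxt : x * t * x = t := by rw [ht, Cfsg.Agent.H28.conj_pow_of_inverts hxx hxr, ← ht, hti]
  have hyt : y * t * y = t := by rw [ht, Cfsg.Agent.H28.conj_pow_of_inverts hyy hyr, ← ht, hti]
  have hxtc : Commute x t := by
    show x * t = t * x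
    calc x * t = x * t * (x * x) := by rw [hxx, mul_one]
      _ = (x * t * x) * x := by group
      _ = t * x := by rw [hxt]
  have hytc : Commute y t := by
    show y * t = t * y
    calc y * t = y * t * (y * y) := by rw [hyy, mul_one]
      _ = (y * t * y) * y := by group
      _ = t * y := by rw [hyt]
  have hinv : ∀ i : ℕ, (r ^ i)⁻¹ * x = x * r ^ i := fun i =>
    Cfsg.Agent.H28.left_mul_of_inverts hxx (Cfsg.Agent.H28.conj_pow_of_inverts hxx hxr i)
  -- `x t` is a conjugate of `x₀`
  have hxtD : IsConj x₀ (x * t) := by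
    rcases Nat.even_or_odd m with ⟨i, hi⟩ | ⟨i, hi⟩
    · refine hx.trans ?_
      rw [isConj_iff]
      refine ⟨(r ^ i)⁻¹, ?_⟩
      rw [inv_inv, hinv, mul_assoc, ht, hi, pow_add]
    · refine hy.trans ?_
      rw [isConj_iff]
      refine ⟨(r ^ i)⁻¹, ?_⟩
      rw [inv_inv]
      have hxr' : y = x * r := by rw [hr, ← mul_assoc, hxx, one_mul]
      rw [hxr', ← mul_assoc, hinv, ht, hi]
      simp only [mul_assoc]
      congr 1
      rw [show 2 * i + 1 = i + (1 + i) by ring, pow_add, pow_add, pow_one]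
  have hne : x ≠ x * t := by
    intro h
    apply ht1
    calc t = x * (x * t) := by rw [← mul_assoc, hxx, one_mul]
      _ = x * x := by rw [← h]
      _ = 1 := hxx
  have hcomm' : Commute x (x * t) := (Commute.refl x).mul_right hxtc
  have htD : IsConj x₀ t := by
    have := hb x (x * t) hx hxtD hne hcomm'
    rwa [← mul_assoc, hxx, one_mul] at this
  obtain ⟨-, hW⟩ := ha t htD
  set W := Subgroup.closure {y : G | IsConj x₀ y ∧ Commute y t} with hWdef
  have hxW : x ∈ W := Subgroup.subset_closure ⟨hx, hxtc⟩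
  have hyW : y ∈ W := Subgroup.subset_closure ⟨hy, hytc⟩
  have h1 : x * y * x⁻¹ * y⁻¹ ∈ ⁅W, W⁆ := Subgroup.commutator_mem_commutator hxW hyW
  have h2 : (x * y * x⁻¹ * y⁻¹) * x * (x * y * x⁻¹ * y⁻¹)⁻¹ * x⁻¹ ∈ ⁅⁅W, W⁆, W⁆ :=
    Subgroup.commutator_mem_commutator h1 hxW
  rw [hW, Subgroup.mem_bot] at h2
  have h3 : x * y * x⁻¹ * y⁻¹ = r * r := by
    rw [hxi, hyi, hr]; simp only [mul_assoc]
  rw [h3] at h2
  have hr4 : r ^ 4 = 1 := by
    rw [hxi] at h2
    have e : x * (r * r)⁻¹ * x = r * r := by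
      have e1 : x * (r * r)⁻¹ * x = (x * (r * r) * x)⁻¹ := by
        rw [mul_inv_rev (x * (r * r)) x, mul_inv_rev x (r * r), hxi, mul_assoc]
      have e2 : x * (r * r) * x = (r * r)⁻¹ := by
        have := Cfsg.Agent.H28.conj_pow_of_inverts hxx hxr 2
        rwa [pow_two] at this
      rw [e1, e2, inv_inv]
    have e3 : r * r * (x * (r * r)⁻¹ * x) = 1 := by
      rw [← h2]; simp only [mul_assoc]
    rw [e] at e3
    rw [show (4 : ℕ) = 1 + 1 + 1 + 1 by norm_num, pow_add, pow_add, pow_add, pow_one]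
    rw [← e3]; simp only [mul_assoc]
  have hdvd : orderOf r ∣ 4 := orderOf_dvd_of_pow_eq_one hr4
  have hle : orderOf r ≤ 4 := Nat.le_of_dvd (by norm_num) hdvd
  have h34 : orderOf r ≠ 3 := by
    intro h; rw [h] at hdvd; norm_num at hdvd
  omega

end Cfsg.Agent.S1176
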