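import Cfsg.Statements.S1177
import Cfsg.Agent.H28.Isolated

set_option autoImplicit false
open Cfsg

namespace Cfsg.Agent.S1177

/-- Let A be a nontrivial elementary abelian 2-subgroup of a finite group G which is a T.I. set (each conjugate of A meets A trivially or equals A) and which does not commute elementwise with any conjugate of A other than A itself. Then for every a ∈ A, a ≠ 1, every conjugate of A contained in C_G(a) is equal to A (A is weakly closed in C_G(a)). -/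
theorem result {G : Type*} [Group G] [Finite G] (A : Subgroup G) (hA : Cfsg.IsElementaryAbelian 2 A) (hA1 : A ≠ ⊥) (hTI : ∀ g : G, A.map (MulAut.conj g).toMonoidHom ⊓ A = ⊥ ∨ A.map (MulAut.conj g).toMonoidHom = A) (hb : ∀ g : G, (∀ a ∈ A, ∀ b ∈ A.map (MulAut.conj g).toMonoidHom, a * b = b * a) → A.map (MulAut.conj g).toMonoidHom = A) (a : G) (ha : a ∈ A) (ha1 : a ≠ 1) (g : G) (hg : A.map (MulAut.conj g).toMonoidHom ≤ Subgroup.centralizer ({a} : Set G)) : A.map (MulAut.conj g).toMonoidHom = A := by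
  classical
  by_contra hne
  set B := A.map (MulAut.conj g).toMonoidHom with hB
  have hAB : B ⊓ A = ⊥ := (hTI g).resolve_right hne
  have hAcomm : ∀ x ∈ A, ∀ y ∈ A, x * y = y * x := by
    intro x hx y hy
    have h := hA.1
    have := h.is_comm.comm ⟨x, hx⟩ ⟨y, hy⟩
    exact congrArg Subtype.val this
  have hAsq : ∀ x ∈ A, x * x = 1 := by
    intro x hx
    rw [← pow_two]; exact hA.2 x hx
  have hBsq : ∀ b ∈ B, b * b = 1 := by
    rintro _ ⟨x, hx, rfl⟩
    show g * x * g⁻¹ * (g * x * g⁻¹) = 1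
    have : g * x * g⁻¹ * (g * x * g⁻¹) = g * (x * x) * g⁻¹ := by group
    rw [this, hAsq x hx]; group
  have hBmem : ∀ x ∈ A, g * x * g⁻¹ ∈ B := fun x hx => ⟨x, hx, rfl⟩
  -- Step 1: `B` normalizes `A`
  have hnorm : ∀ b ∈ B, ∀ c ∈ A, b * c * b⁻¹ ∈ A := by
    intro b hb c hc
    have hcomm : b * a * b⁻¹ = a := by
      have := hg hb
      rw [Subgroup.mem_centralizer_singleton_iff] at this
      rw [this]; group
    have hTIb := hTI b
    have hcase : A.map (MulAut.conj b).toMonoidHom = A := by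
      refine hTIb.resolve_left ?_
      intro hbot
      have : a ∈ A.map (MulAut.conj b).toMonoidHom ⊓ A :=
        ⟨⟨a, ha, hcomm⟩, ha⟩
      rw [hbot, Subgroup.mem_bot] at this
      exact ha1 this
    rw [← hcase]
    exact ⟨c, hc, rfl⟩
  -- Step 2
  have hstep2 : ∀ b ∈ B, b ≠ 1 → ∀ c ∈ A, Commute c b → ∀ b' ∈ B, Commute c b' := by
    rintro b ⟨a₀, ha₀, rfl⟩ hb1 c hc hcb b' hb'
    set a0 := g * a₀ * g⁻¹ with ha0
    have hb0 : (MulAut.conj g).toMonoidHom a₀ = a0 := rfl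
    rw [hb0] at hb1 hcb
    have ha₀1 : a₀ ≠ 1 := by
      rintro rfl
      apply hb1
      rw [ha0]; group
    set g' := g⁻¹ * c * g with hg'
    have hfix : g' * a₀ * g'⁻¹ = a₀ := by
      have hcb' : c * a0 * c⁻¹ = a0 := by rw [hcb.eq]; group
      calc g' * a₀ * g'⁻¹ = g⁻¹ * (c * (g * a₀ * g⁻¹) * c⁻¹) * g := by rw [hg']; group
        _ = g⁻¹ * (g * a₀ * g⁻¹) * g := by rw [← ha0, hcb']
        _ = a₀ := by group
    have hcase : A.map (MulAut.conj g').toMonoidHom = A := by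
      refine (hTI g').resolve_left ?_
      intro hbot
      have : a₀ ∈ A.map (MulAut.conj g').toMonoidHom ⊓ A :=
        ⟨⟨a₀, ha₀, hfix⟩, ha₀⟩
      rw [hbot, Subgroup.mem_bot] at this
      exact ha₀1 this
    obtain ⟨x, hx, rfl⟩ := hb'
    have hcx : c * (g * x * g⁻¹) * c⁻¹ ∈ B := by
      have h1 : g' * x * g'⁻¹ ∈ A := by
        rw [← hcase]; exact ⟨x, hx, rfl⟩
      have h2 : c * (g * x * g⁻¹) * c⁻¹ = g * (g' * x * g'⁻¹) * g⁻¹ := by
        rw [hg']; group
      rw [h2]; exact hBmem _ h1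
    have hb'B : g * x * g⁻¹ ∈ B := hBmem x hx
    have hmemB : c * (g * x * g⁻¹) * c⁻¹ * (g * x * g⁻¹)⁻¹ ∈ B :=
      B.mul_mem hcx (B.inv_mem hb'B)
    have hmemA : c * (g * x * g⁻¹) * c⁻¹ * (g * x * g⁻¹)⁻¹ ∈ A := by
      have h1 : (g * x * g⁻¹) * c⁻¹ * (g * x * g⁻¹)⁻¹ ∈ A :=
        hnorm _ hb'B _ (A.inv_mem hc)
      have h2 : c * (g * x * g⁻¹) * c⁻¹ * (g * x * g⁻¹)⁻¹ = c * ((g * x * g⁻¹) * c⁻¹ * (g * x * g⁻¹)⁻¹) := by
        group
      rw [h2]; exact A.mul_mem hc h1
    have hone : c * (g * x * g⁻¹) * c⁻¹ * (g * x * g⁻¹)⁻¹ = 1 := by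
      have : c * (g * x * g⁻¹) * c⁻¹ * (g * x * g⁻¹)⁻¹ ∈ B ⊓ A := ⟨hmemB, hmemA⟩
      rw [hAB, Subgroup.mem_bot] at this
      exact this
    show c * (MulAut.conj g).toMonoidHom x = (MulAut.conj g).toMonoidHom x * c
    show c * (g * x * g⁻¹) = (g * x * g⁻¹) * c
    have h5 := mul_inv_eq_one.mp hone
    exact mul_inv_eq_iff_eq_mul.mp h5
  -- Step 3: `A` and `B` commute elementwise
  have hcommAB : ∀ c ∈ A, ∀ b ∈ B, Commute c b := by
    intro c hc
    by_contra hcon
    -- the map `ψ : A → A`, `x ↦ [c, g x g⁻¹]`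
    let φ : G → G := fun b => c * b * c⁻¹ * b⁻¹
    have hφA : ∀ b ∈ B, φ b ∈ A := by
      intro b hb
      have h1 : b * c⁻¹ * b⁻¹ ∈ A := hnorm b hb _ (A.inv_mem hc)
      have h2 : φ b = c * (b * c⁻¹ * b⁻¹) := by
        simp only [φ]; group
      rw [h2]; exact A.mul_mem hc h1
    have hφinj : ∀ b ∈ B, ∀ b' ∈ B, φ b = φ b' → b = b' := by
      intro b hb b' hb' h
      by_contra hne'
      apply hcon
      have h1 : b'⁻¹ * b ≠ 1 := by
        intro h2
        exact hne' (inv_mul_eq_one.mp h2).symm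
      have hmem : b'⁻¹ * b ∈ B := B.mul_mem (B.inv_mem hb') hb
      refine hstep2 (b'⁻¹ * b) hmem h1 c hc ?_
      -- `φ b = φ b'` gives that `b'⁻¹ b` commutes with `c`
      have h2 : b * c⁻¹ * b⁻¹ = b' * c⁻¹ * b'⁻¹ := by
        have : c * (b * c⁻¹ * b⁻¹) = c * (b' * c⁻¹ * b'⁻¹) := by
          calc c * (b * c⁻¹ * b⁻¹) = φ b := by simp only [φ]; group
            _ = φ b' := h
            _ = c * (b' * c⁻¹ * b'⁻¹) := by simp only [φ]; group
        exact mul_left_cancel this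
      have h3 : (b'⁻¹ * b) * c⁻¹ * (b'⁻¹ * b)⁻¹ = c⁻¹ := by
        calc (b'⁻¹ * b) * c⁻¹ * (b'⁻¹ * b)⁻¹ = b'⁻¹ * (b * c⁻¹ * b⁻¹) * b' := by group
          _ = b'⁻¹ * (b' * c⁻¹ * b'⁻¹) * b' := by rw [h2]
          _ = c⁻¹ := by group
      have h4 : (b'⁻¹ * b) * c⁻¹ = c⁻¹ * (b'⁻¹ * b) := mul_inv_eq_iff_eq_mul.mp h3
      have h5 : Commute (b'⁻¹ * b) c⁻¹ := h4
      simpa using h5.inv_right.symm
    let ψ : A → A := fun x => ⟨φ (g * x * g⁻¹), hφA _ (hBmem x x.2)⟩
    have hψinj : Function.Injective ψ := by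
      intro x y hxy
      have h1 : φ (g * x * g⁻¹) = φ (g * y * g⁻¹) := congrArg Subtype.val hxy
      have h2 := hφinj _ (hBmem x x.2) _ (hBmem y y.2) h1
      apply Subtype.ext
      have h3 : g⁻¹ * (g * (x : G) * g⁻¹) * g = g⁻¹ * (g * (y : G) * g⁻¹) * g := by rw [h2]
      simpa using h3
    have hψsurj : Function.Surjective ψ := Finite.surjective_of_injective hψinj
    obtain ⟨x, hx⟩ := hψsurj ⟨c, hc⟩
    have hcφ : φ (g * x * g⁻¹) = c := congrArg Subtype.val hx
    set b := g * (x : G) * g⁻¹ with hbdef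
    have hbB : b ∈ B := hBmem x x.2
    -- `φ b` commutes with `b`
    have hc1 : c⁻¹ = c := inv_eq_of_mul_eq_one_right (hAsq c hc)
    have hb1 : b⁻¹ = b := inv_eq_of_mul_eq_one_right (hBsq b hbB)
    have hbc : b * c * b⁻¹ ∈ A := hnorm b hbB c hc
    have hcomm2 : Commute c b := by
      have h1 : φ b = c * (b * c * b⁻¹) := by
        simp only [φ]; rw [hc1]; group
      have h2 : b * φ b * b⁻¹ = φ b := by
        rw [h1, hb1]
        calc b * (c * (b * c * b)) * b = (b * c * b) * c * (b * b) := by group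
          _ = (b * c * b) * c := by rw [hBsq b hbB, mul_one]
          _ = c * (b * c * b) := by
            have := hAcomm (b * c * b⁻¹) hbc c hc
            rw [hb1] at this
            exact this
      have h3 : Commute (φ b) b := by
        show φ b * b = b * φ b
        have : b * φ b = φ b * b := by
          calc b * φ b = b * φ b * b⁻¹ * b := by group
            _ = φ b * b := by rw [h2]
        exact this.symm
      by_cases hb11 : b = 1
      · rw [hb11]; exact Commute.one_right c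
      · have h4 := hstep2 b hbB hb11 (φ b) (hφA b hbB) h3
        rw [hcφ] at h4
        exact h4 b hbB
    -- now `c = φ b` commutes with everything
    apply hcon
    by_cases hb11 : b = 1
    · have : c = 1 := by rw [← hcφ, hb11]; simp [φ]
      intro b' _
      rw [this]; exact Commute.one_left b'
    · exact hstep2 b hbB hb11 c hc hcomm2
  exact hne (hb g (fun x hx y hy => hcommAB x hx y hy))

end Cfsg.Agent.S1177
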