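import Cfsg.Statements.S1178
import Cfsg.Agent.H28.Isolated

set_option autoImplicit false
open Cfsg

namespace Cfsg.Agent.S1178

/-- Let A be a subgroup of a Sylow 2-subgroup S of the finite group G which is weakly closed in S. If a conjugate g A g⁻¹ commutes elementwise with A, then g A g⁻¹ = A. -/
theorem result {G : Type*} [Group G] [Finite G] (S : Sylow 2 G) (A : Subgroup G) (hW : Cfsg.IsWeaklyClosed A (S : Subgroup G)) (g : G) (hc : ∀ a ∈ A, ∀ b ∈ A.map (MulAut.conj g).toMonoidHom, a * b = b * a) : A.map (MulAut.conj g).toMonoidHom = A := by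
  set B := A.map (MulAut.conj g).toMonoidHom with hB
  have hAS : A ≤ (S : Subgroup G) := hW.1
  have hAp : IsPGroup 2 A := S.isPGroup'.to_le hAS
  have hBp : IsPGroup 2 B := hAp.map _
  have hBc : B ≤ Subgroup.centralizer (A : Set G) := by
    intro b hb
    rw [Subgroup.mem_centralizer_iff]
    intro a ha
    exact hc a ha b hb
  have hBnorm : B ≤ Subgroup.normalizer (A : Set G) := hBc.trans (Subgroup.centralizer_le_normalizer _)
  have hsup : IsPGroup 2 (B ⊔ A : Subgroup G) := hBp.to_sup_of_normal_right' hAp hBnorm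
  obtain ⟨Q, hQ⟩ := hsup.exists_le_sylow
  obtain ⟨h, hh⟩ := MulAction.exists_smul_eq G Q S
  -- conjugating by `h` moves `A` and `B` into `S`
  have hmove : ∀ X : Subgroup G, X ≤ (Q : Subgroup G) →
      X.map (MulAut.conj h).toMonoidHom ≤ (S : Subgroup G) := by
    intro X hX
    rw [← hh]
    rintro _ ⟨x, hx, rfl⟩
    rw [Sylow.coe_subgroup_smul]
    exact Subgroup.smul_mem_pointwise_smul x (MulAut.conj h) _ (hX hx)
  have h1 : A.map (MulAut.conj h).toMonoidHom = A :=
    hW.2 h (hmove A (le_trans le_sup_right hQ))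
  have h2 : B.map (MulAut.conj h).toMonoidHom = A.map (MulAut.conj (h * g)).toMonoidHom := by
    rw [hB, Subgroup.map_map]
    congr 1
    ext x
    simp [mul_assoc]
  have h3 : B.map (MulAut.conj h).toMonoidHom = A := by
    rw [h2]
    apply hW.2
    rw [← h2]
    exact hmove B (le_trans le_sup_left hQ)
  exact Subgroup.map_injective (MulAut.conj h).injective (h3.trans h1.symm)

end Cfsg.Agent.S1178
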