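import Cfsg.Statements.S1181
import Cfsg.Agent.H28.Isolated

set_option autoImplicit false
open Cfsg

namespace Cfsg.Agent.S1181

/-- Let z be an isolated involution of the finite group G and N a normal subgroup with z ∉ N. Then the centralizer of zN in G/N is the image of C_G(z), and zN is an isolated involution of G/N. -/
theorem result {G : Type*} [Group G] [Finite G] (z : G) (hz : Cfsg.IsIsolatedInvolution z) (N : Subgroup G) [N.Normal] (hzN : z ∉ N) : Subgroup.centralizer ({(QuotientGroup.mk z : G ⧸ N)} : Set (G ⧸ N)) = (Subgroup.centralizer ({z} : Set G)).map (QuotientGroup.mk' N) ∧ Cfsg.IsIsolatedInvolution (QuotientGroup.mk z : G ⧸ N) := by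
  have hzz : z * z = 1 := Cfsg.Agent.H28.mul_self_of_order_two hz.1
  have hmk1 : (QuotientGroup.mk z : G ⧸ N) ≠ 1 := by
    rwa [Ne, QuotientGroup.eq_one_iff]
  constructor
  · ext q
    obtain ⟨g, rfl⟩ := QuotientGroup.mk_surjective q
    rw [Subgroup.mem_centralizer_singleton_iff, Subgroup.mem_map]
    constructor
    · intro hg
      have hr : g * z * g⁻¹ * z ∈ N := by
        rw [← QuotientGroup.eq_one_iff]
        simp only [QuotientGroup.mk_mul, QuotientGroup.mk_inv]
        have hz1 : (QuotientGroup.mk z : G ⧸ N) * QuotientGroup.mk z = 1 := by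
          rw [← QuotientGroup.mk_mul, hzz]; rfl
        rw [hg]
        simp [mul_assoc, hz1]
      obtain ⟨n, -, -, hk, -⟩ := Cfsg.Agent.H28.exists_mid hz g
      set k := (g * z * g⁻¹ * z) ^ n with hkdef
      have hkN : k ∈ N := N.pow_mem hr n
      refine ⟨k⁻¹ * g, ?_, ?_⟩
      · rw [Subgroup.mem_centralizer_singleton_iff]
        have h1 : g * z = k * z * k⁻¹ * g := by rw [hk]; group
        calc k⁻¹ * g * z = k⁻¹ * (g * z) := by group
          _ = k⁻¹ * (k * z * k⁻¹ * g) := by rw [h1]
          _ = z * (k⁻¹ * g) := by group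
      · show (QuotientGroup.mk (k⁻¹ * g) : G ⧸ N) = QuotientGroup.mk g
        rw [QuotientGroup.mk_mul, QuotientGroup.mk_inv, (QuotientGroup.eq_one_iff k).mpr hkN]
        simp
    · rintro ⟨c, hc, hcg⟩
      rw [Subgroup.mem_centralizer_singleton_iff] at hc
      have : (QuotientGroup.mk c : G ⧸ N) = QuotientGroup.mk g := hcg
      rw [← this, ← QuotientGroup.mk_mul, ← QuotientGroup.mk_mul, hc]
  · refine ⟨?_, ?_⟩
    · apply orderOf_eq_prime _ hmk1
      rw [pow_two, ← QuotientGroup.mk_mul, hzz]; rfl
    · intro q hq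
      obtain ⟨g, rfl⟩ := QuotientGroup.mk_surjective q
      set w := g * z * g⁻¹ with hw
      have hww : w * w = 1 := by
        simp only [hw, mul_assoc, inv_mul_cancel_left]
        rw [← mul_assoc z z, hzz]; simp
      have hq' : (QuotientGroup.mk g : G ⧸ N) * QuotientGroup.mk z * (QuotientGroup.mk g)⁻¹ = QuotientGroup.mk w := by
        simp [hw]
      rw [hq'] at hq ⊢
      have hodd : Odd (orderOf (w * z)) := Cfsg.Agent.H28.isolated_odd hz g
      have h2 : (w * z) * (w * z) ∈ N := by
        rw [← QuotientGroup.eq_one_iff]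
        simp only [QuotientGroup.mk_mul]
        have hz1 : (QuotientGroup.mk z : G ⧸ N) * QuotientGroup.mk z = 1 := by
          rw [← QuotientGroup.mk_mul, hzz]; rfl
        have hw1 : (QuotientGroup.mk w : G ⧸ N) * QuotientGroup.mk w = 1 := by
          rw [← QuotientGroup.mk_mul, hww]; rfl
        have hq2 : (QuotientGroup.mk z : G ⧸ N) * QuotientGroup.mk w = QuotientGroup.mk w * QuotientGroup.mk z := hq
        calc (QuotientGroup.mk w : G ⧸ N) * QuotientGroup.mk z * (QuotientGroup.mk w * QuotientGroup.mk z)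
            = QuotientGroup.mk w * (QuotientGroup.mk z * QuotientGroup.mk w) * QuotientGroup.mk z := by group
          _ = QuotientGroup.mk w * (QuotientGroup.mk w * QuotientGroup.mk z) * QuotientGroup.mk z := by rw [hq2]
          _ = (QuotientGroup.mk w * QuotientGroup.mk w) * (QuotientGroup.mk z * QuotientGroup.mk z) := by group
          _ = 1 := by rw [hz1, hw1, one_mul]
      have h3 : w * z ∈ N := Cfsg.Agent.H28.mem_of_sq_mem hodd h2
      have h4 : (QuotientGroup.mk w : G ⧸ N) * QuotientGroup.mk z = 1 := by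
        rw [← QuotientGroup.mk_mul]; exact (QuotientGroup.eq_one_iff _).mpr h3
      have hz1 : (QuotientGroup.mk z : G ⧸ N) * QuotientGroup.mk z = 1 := by
        rw [← QuotientGroup.mk_mul, hzz]; rfl
      exact (mul_right_cancel (h4.trans hz1.symm))

end Cfsg.Agent.S1181
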