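import Cfsg.Statements.S1185
import Cfsg.Agent.H28.Isolated

set_option autoImplicit false
open Cfsg

namespace Cfsg.Agent.S1185

/-- Let z be an isolated involution of the finite group G with centralizer C. Then for every g ∈ G there is exactly one element k in the coset gC that has odd order and is inverted by z. -/
theorem result {G : Type*} [Group G] [Finite G] (z : G) (hz : Cfsg.IsIsolatedInvolution z) (g : G) : ∃! k : G, (Odd (orderOf k) ∧ z * k * z⁻¹ = k⁻¹) ∧ g⁻¹ * k ∈ Subgroup.centralizer ({z} : Set G) := by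
  have hzz : z * z = 1 := Cfsg.Agent.H28.mul_self_of_order_two hz.1
  have hzi : z⁻¹ = z := inv_eq_of_mul_eq_one_right hzz
  obtain ⟨n, hodd, hinv, hk, -⟩ := Cfsg.Agent.H28.exists_mid hz g
  set k := (g * z * g⁻¹ * z) ^ n with hkdef
  have hmem : ∀ a : G, a * z * a⁻¹ = g * z * g⁻¹ → g⁻¹ * a ∈ Subgroup.centralizer ({z} : Set G) := by
    intro a ha
    rw [Subgroup.mem_centralizer_singleton_iff]
    calc g⁻¹ * a * z = g⁻¹ * (a * z * a⁻¹) * a := by group
      _ = g⁻¹ * (g * z * g⁻¹) * a := by rw [ha]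
      _ = z * (g⁻¹ * a) := by group
  refine ⟨k, ⟨⟨hodd, by rw [hzi]; exact hinv⟩, hmem k hk⟩, ?_⟩
  rintro y ⟨⟨hy1, hy2⟩, hy3⟩
  rw [hzi] at hy2
  rw [Subgroup.mem_centralizer_singleton_iff] at hy3
  apply Cfsg.Agent.H28.mid_unique hzz hy1 hodd hy2 hinv
  rw [hk]
  calc y * z * y⁻¹ = g * (g⁻¹ * y * z) * y⁻¹ := by group
    _ = g * (z * (g⁻¹ * y)) * y⁻¹ := by rw [hy3]
    _ = g * z * g⁻¹ := by group

end Cfsg.Agent.S1185
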