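import Cfsg.Statements.S1183
import Cfsg.Agent.H28.Transfer1183
import Cfsg.Agent.S1185

set_option autoImplicit false
open Cfsg

namespace Cfsg.Agent.S1183

/-- Let z be an isolated involution of the finite group G and C = C_G(z). Then the subgroup of G generated by its elements of odd order is all of G if and only if the subgroup of C generated by its elements of odd order is all of C. -/
theorem result {G : Type*} [Group G] [Finite G] (z : G) (hz : Cfsg.IsIsolatedInvolution z) : Cfsg.pResidual 2 G = ⊤ ↔ Cfsg.pResidual 2 ↥(Subgroup.centralizer ({z} : Set G)) = ⊤ := by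
  classical
  have hzz : z * z = 1 := Cfsg.Agent.H28.mul_self_of_order_two hz.1
  have hzi : z⁻¹ = z := inv_eq_of_mul_eq_one_right hzz
  set C := Subgroup.centralizer ({z} : Set G) with hC
  -- the centraliser has odd index
  have hodd : Odd C.index := Cfsg.Agent.H28.index_centralizer_odd hz
  constructor
  · intro hG
    -- the residual `R` of `C`
    set R := Cfsg.pResidual 2 ↥C with hR
    have hRnormal : R.Normal := Cfsg.Agent.H28.pResidual_normal 2 ↥C
    have hrmem : ∀ c : ↥C, Nat.Coprime (orderOf c) 2 → c ∈ R := fun c hc => Subgroup.subset_closure hc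
    have h2pow : ∀ c : ↥C, ∃ a : ℕ, c ^ (2 ^ a) ∈ R := by
      intro c
      obtain ⟨a, m, hm, hc⟩ := Nat.exists_eq_two_pow_mul_odd (orderOf_pos c).ne'
      refine ⟨a, hrmem _ ?_⟩
      have : c ^ (2 ^ a) = c ^ (orderOf c / m) := by
        congr 1
        rw [hc]
        rw [Nat.mul_div_cancel _ hm.pos]
      rw [this, orderOf_pow_orderOf_div (orderOf_pos c).ne' ⟨2 ^ a, by rw [hc, mul_comm]⟩]
      exact Nat.coprime_two_right.mpr hm
    -- the abelian quotient
    let A := Abelianization ↥C ⧸ (R.map (Abelianization.of))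
    let χ : ↥C →* A := (QuotientGroup.mk' _).comp Abelianization.of
    have hχR : ∀ r ∈ R, χ r = 1 := by
      intro r hr
      show (QuotientGroup.mk (Abelianization.of r) : A) = 1
      rw [QuotientGroup.eq_one_iff]
      exact ⟨r, hr, rfl⟩
    have hχ2 : ∀ c : ↥C, ∃ a : ℕ, (χ c) ^ (2 ^ a) = 1 := by
      intro c
      obtain ⟨a, ha⟩ := h2pow c
      exact ⟨a, by rw [← map_pow]; exact hχR _ ha⟩
    have hχsurj : Function.Surjective χ :=
      (QuotientGroup.mk'_surjective _).comp (QuotientGroup.mk'_surjective _)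
    have hA2 : ∀ x : A, ∃ a : ℕ, x ^ (2 ^ a) = 1 := by
      intro x
      obtain ⟨c, rfl⟩ := hχsurj x
      exact hχ2 c
    let V : G →* A := MonoidHom.transfer χ
    have hVpow : ∀ c : ↥C, V c = χ c ^ C.index := Cfsg.Agent.H28.transfer_isolated hz hC χ
    have hVone : ∀ g : G, V g = 1 := by
      intro g
      have hg : g ∈ Cfsg.pResidual 2 G := by rw [hG]; exact Subgroup.mem_top g
      unfold Cfsg.pResidual at hg
      induction hg using Subgroup.closure_induction with
      | mem x hx =>
        obtain ⟨a, ha⟩ := hA2 (V x)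
        have h1 : (V x) ^ orderOf x = 1 := by
          rw [← map_pow, pow_orderOf_eq_one, map_one]
        have hcop : Nat.Coprime (orderOf x) (2 ^ a) := Nat.Coprime.pow_right a hx
        exact (pow_eq_one_iff_of_coprime hcop).mp ⟨h1, ha⟩
      | one => exact map_one V
      | mul x y _ _ hx hy => rw [map_mul, hx, hy, one_mul]
      | inv x _ hx => rw [map_inv, hx, inv_one]
    have hχ1 : ∀ c : ↥C, χ c = 1 := by
      intro c
      obtain ⟨a, ha⟩ := hχ2 c
      have h1 : χ c ^ C.index = 1 := by rw [← hVpow c, hVone]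
      have hcop : Nat.Coprime C.index (2 ^ a) :=
        Nat.Coprime.pow_right a (Nat.coprime_two_right.mpr hodd)
      exact (pow_eq_one_iff_of_coprime hcop).mp ⟨h1, ha⟩
    -- hence `R ⊔ [C,C] = C`
    have htop : R ⊔ commutator ↥C = ⊤ := by
      rw [eq_top_iff]
      intro c _
      have h1 : Abelianization.of c ∈ R.map Abelianization.of := (QuotientGroup.eq_one_iff _).mp (hχ1 c)
      obtain ⟨r, hr, hrc⟩ := h1
      have h2 : r⁻¹ * c ∈ commutator ↥C := by
        have : Abelianization.of (r⁻¹ * c) = 1 := by
          rw [map_mul, map_inv, hrc]; simp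
        exact (QuotientGroup.eq_one_iff _).mp this
      have h3 : c = r * (r⁻¹ * c) := by group
      rw [h3]
      exact Subgroup.mul_mem_sup hr h2
    exact Cfsg.Agent.H28.residual_eq_top_of_sup h2pow htop
  · intro hCtop
    set R := Cfsg.pResidual 2 G with hR
    rw [eq_top_iff]
    intro g _
    have hCle : ∀ c : ↥C, (c : G) ∈ R := by
      intro c
      have hc : c ∈ Cfsg.pResidual 2 ↥C := by rw [hCtop]; exact Subgroup.mem_top c
      unfold Cfsg.pResidual at hc
      induction hc using Subgroup.closure_induction with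
      | mem x hx =>
        apply Subgroup.subset_closure
        show Nat.Coprime (orderOf (x : G)) 2
        rwa [Subgroup.orderOf_coe]
      | one => exact R.one_mem
      | mul x y _ _ hx hy => exact R.mul_mem hx hy
      | inv x _ hx => exact R.inv_mem hx
    obtain ⟨k, ⟨⟨hko, -⟩, hk⟩, -⟩ := Cfsg.Agent.S1185.result z hz g
    have hkR : k ∈ R := Subgroup.subset_closure (Nat.coprime_two_right.mpr hko)
    have hcR : g⁻¹ * k ∈ R := hCle ⟨g⁻¹ * k, hk⟩
    have : g = k * (g⁻¹ * k)⁻¹ := by group
    rw [this]
    exact R.mul_mem hkR (R.inv_mem hcR)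

end Cfsg.Agent.S1183
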