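import Cfsg.Statements.S1186
import Cfsg.Agent.H28.OrderFormula

set_option autoImplicit false
open Cfsg

namespace Cfsg.Agent.S1186

/-- Let z be an isolated involution of the finite group G, C = C_G(z), K the set of elements of odd order inverted by z, and s an involution of C. Then |G| = |C| · |C_K(sz)| · |C_K(s)|. -/
theorem result {G : Type*} [Group G] [Finite G] (z : G) (hz : Cfsg.IsIsolatedInvolution z) (s : G) (hs : orderOf s = 2) (hsz : Commute s z) : Nat.card G = Nat.card (Subgroup.centralizer ({z} : Set G)) * Nat.card {k : G // Odd (orderOf k) ∧ z * k * z⁻¹ = k⁻¹ ∧ Commute k (s * z)} * Nat.card {k : G // Odd (orderOf k) ∧ z * k * z⁻¹ = k⁻¹ ∧ Commute k s} := by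
  classical
  have hzz : z * z = 1 := Cfsg.Agent.H28.mul_self_of_order_two hz.1
  have hzi : z⁻¹ = z := inv_eq_of_mul_eq_one_right hzz
  have hss : s * s = 1 := Cfsg.Agent.H28.mul_self_of_order_two hs
  set C := Subgroup.centralizer ({z} : Set G) with hC
  -- conjugate criterion for cosets
  have hcoset : ∀ a b : G, (QuotientGroup.mk a : G ⧸ C) = QuotientGroup.mk b ↔ a * z * a⁻¹ = b * z * b⁻¹ := by
    intro a b
    rw [QuotientGroup.eq, hC, Subgroup.mem_centralizer_singleton_iff]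
    constructor
    · intro h
      calc a * z * a⁻¹ = a * (z * (a⁻¹ * b)) * b⁻¹ := by group
        _ = a * (a⁻¹ * b * z) * b⁻¹ := by rw [h]
        _ = b * z * b⁻¹ := by group
    · intro h
      calc a⁻¹ * b * z = a⁻¹ * (b * z * b⁻¹) * b := by group
        _ = a⁻¹ * (a * z * a⁻¹) * b := by rw [h]
        _ = z * (a⁻¹ * b) := by group
  let Kt := {k : G // Odd (orderOf k) ∧ z * k * z⁻¹ = k⁻¹ ∧ Commute k (s * z)}
  let Ks := {k : G // Odd (orderOf k) ∧ z * k * z⁻¹ = k⁻¹ ∧ Commute k s}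
  let F : Ks × Kt → G ⧸ C := fun p => QuotientGroup.mk ((p.1 : G) * (p.2 : G))
  have hF : Function.Bijective F := by
    constructor
    · rintro ⟨⟨a, ha, hza, has⟩, ⟨b, hb, hzb, hbt⟩⟩ ⟨⟨a', ha', hza', has'⟩, ⟨b', hb', hzb', hbt'⟩⟩ h
      rw [hzi] at hza hzb hza' hzb'
      have h1 := (hcoset _ _).mp h
      obtain ⟨h2, h3⟩ := Cfsg.Agent.H28.factor_inj hzz hss hsz ha hb ha' hb' hza hzb hza' hzb' has hbt has' hbt' h1
      subst h2; subst h3; rfl
    · intro q
      obtain ⟨g, rfl⟩ := QuotientGroup.mk_surjective q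
      obtain ⟨a, b, ha, hb, hza, hzb, has, hbt, hab⟩ := Cfsg.Agent.H28.factor_surj hz hss hsz g
      exact ⟨⟨⟨a, ha, by rwa [hzi], has⟩, ⟨b, hb, by rwa [hzi], hbt⟩⟩, (hcoset _ _).mpr hab⟩
  have hcard : Nat.card (G ⧸ C) = Nat.card Ks * Nat.card Kt := by
    rw [← Nat.card_congr (Equiv.ofBijective F hF), Nat.card_prod]
  have h := Subgroup.card_eq_card_quotient_mul_card_subgroup C
  rw [h, hcard]
  ring

end Cfsg.Agent.S1186
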