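import Mathlib
import Cfsg.Statements.S1227
import Cfsg.Agent.Lib.CITElem

set_option autoImplicit false
open Cfsg

namespace Cfsg.Agent.S1227

open Cfsg.Agent.Lib.CITElem

/-- Let G be a finite group with a Sylow 2-subgroup T that is neither cyclic nor normal, such that the centralizer of every involution is an elementary abelian 2-group; put H = N_G(T), let u be an involution outside H and D = H ∩ uHu⁻¹. Then u inverts every element of D, |H| = |T|·(|T| − 1), and D is a complement to T in H. -/
theorem result {G : Type*} [Group G] [Finite G] (T : Sylow 2 G) (hnc : ¬ IsCyclic (T : Subgroup G)) (hnn : ¬ (T : Subgroup G).Normal) (hC : ∀ t : G, orderOf t = 2 → IsMulCommutative (Subgroup.centralizer ({t} : Set G)) ∧ ∀ c ∈ Subgroup.centralizer ({t} : Set G), c ^ 2 = 1) (u : G) (hu : orderOf u = 2) (huH : u ∉ Subgroup.normalizer ((T : Subgroup G) : Set G)) : (∀ d ∈ Subgroup.normalizer ((T : Subgroup G) : Set G) ⊓ (Subgroup.normalizer ((T : Subgroup G) : Set G)).map (MulAut.conj u).toMonoidHom, u * d * u⁻¹ = d⁻¹) ∧ Nat.card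 (Subgroup.normalizer ((T : Subgroup G) : Set G)) = Nat.card T * (Nat.card T - 1) ∧ Subgroup.IsComplement' ((Subgroup.normalizer ((T : Subgroup G) : Set G) ⊓ (Subgroup.normalizer ((T : Subgroup G) : Set G)).map (MulAut.conj u).toMonoidHom).subgroupOf (Subgroup.normalizer ((T : Subgroup G) : Set G))) ((T : Subgroup G).subgroupOf (Subgroup.normalizer ((T : Subgroup G) : Set G))) := by
  have h := CIT.of T hnc hnn hC
  obtain ⟨h1, h2, h3, h4⟩ := h.main T hu huH
  have hc1 : Nat.card T = Nat.card (T : Subgroup G) := rfl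
  refine ⟨h1, by rw [hc1]; exact h2, ?_⟩
  apply Subgroup.isComplement'_of_card_mul_and_disjoint
  · have e1 : Nat.card ((Dd T u).subgroupOf (Nm T)) = Nat.card (Dd T u) :=
      Nat.card_congr (Subgroup.subgroupOfEquivOfLe inf_le_left).toEquiv
    have e2 : Nat.card ((T : Subgroup G).subgroupOf (Nm T)) = Nat.card (T : Subgroup G) :=
      Nat.card_congr (Subgroup.subgroupOfEquivOfLe Subgroup.le_normalizer).toEquiv
    rw [e1, e2, h2, h3, mul_comm]
  · rw [Subgroup.disjoint_def]
    intro x hx hy
    apply Subtype.ext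
    exact h4 _ (Subgroup.mem_subgroupOf.mp hx) (Subgroup.mem_subgroupOf.mp hy)

end Cfsg.Agent.S1227
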