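import Mathlib
import Cfsg.Statements.S1228
import Cfsg.Agent.Lib.CITElem2

set_option autoImplicit false
open Cfsg

namespace Cfsg.Agent.S1228

open Cfsg.Agent.Lib.CITElem Cfsg.Agent.Lib.EmbInvol

/-- Let G be a finite group with a Sylow 2-subgroup T that is neither cyclic nor normal, such that the centralizer of every involution is an elementary abelian 2-group; put H = N_G(T), let u be an involution outside H and D = H ∩ uHu⁻¹. Then N_G(D) = D ⊔ ⟨u⟩, and a coset gH is fixed by every element of D exactly when gH = H or gH = uH. -/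
theorem result {G : Type*} [Group G] [Finite G] (T : Sylow 2 G) (hnc : ¬ IsCyclic (T : Subgroup G)) (hnn : ¬ (T : Subgroup G).Normal) (hC : ∀ t : G, orderOf t = 2 → IsMulCommutative (Subgroup.centralizer ({t} : Set G)) ∧ ∀ c ∈ Subgroup.centralizer ({t} : Set G), c ^ 2 = 1) (u : G) (hu : orderOf u = 2) (huH : u ∉ Subgroup.normalizer ((T : Subgroup G) : Set G)) : Subgroup.normalizer ((Subgroup.normalizer ((T : Subgroup G) : Set G) ⊓ (Subgroup.normalizer ((T : Subgroup G) : Set G)).map (MulAut.conj u).toMonoidHom : Subgroup G) : Set G) = (Subgroup.normalizer ((T : Subgroup G) : Set G) ⊓ (Subgroup.normalizer ((T : Subgroup G) : Set G)).map (MulAut.conj u).toMonoidHom) ⊔ Subgroup.zpowers u ∧ ∀ g : G, ((∀ d ∈ Subgroup.normalizer ((T : Subgroup G) : Set G) ⊓ (Subgroup.normalizer ((T : Subgroup G) : Set G)).map (MulAut.conj u).toMonoidHom, d • (QuotientGroup.mk g : G ⧸ Subgroup.normalizer ((T : Subgroup G) : Set G)) = QuotientGroup.mk g) ↔ (QuotientGroup.mk g : G ⧸ Subgroup.normalizer ((T : Subgroup G) : Set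 G)) = QuotientGroup.mk 1 ∨ (QuotientGroup.mk g : G ⧸ Subgroup.normalizer ((T : Subgroup G) : Set G)) = QuotientGroup.mk u) := by
  have h := CIT.of T hnc hnn hC
  have hne : T ≠ u • T := fun e => huH (mem_Nm_iff.mpr e.symm)
  have hD : Nm T ⊓ (Nm T).map (MulAut.conj u).toMonoidHom = Ds T (u • T) := Dd_eq_Ds u
  change Subgroup.normalizer ((Nm T ⊓ (Nm T).map (MulAut.conj u).toMonoidHom : Subgroup G) : Set G) =
      (Nm T ⊓ (Nm T).map (MulAut.conj u).toMonoidHom) ⊔ Subgroup.zpowers u ∧
      ∀ g : G, ((∀ d ∈ Nm T ⊓ (Nm T).map (MulAut.conj u).toMonoidHom,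
        d • (QuotientGroup.mk g : G ⧸ Nm T) = QuotientGroup.mk g) ↔
        (QuotientGroup.mk g : G ⧸ Nm T) = QuotientGroup.mk 1 ∨ (QuotientGroup.mk g : G ⧸ Nm T) = QuotientGroup.mk u)
  rw [hD]
  have huu := mul_self_of_order hu
  have hui := inv_of_order hu
  have hinv := h.inverts hne hu rfl
  have hunorm : ∀ a ∈ Ds T (u • T), u * a * u⁻¹ ∈ Ds T (u • T) := fun a ha => by
    rw [hinv a ha]; exact Subgroup.inv_mem _ ha
  constructor
  · apply le_antisymm
    · intro g hg
      have hn : ∀ a ∈ Ds T (u • T), g * a * g⁻¹ ∈ Ds T (u • T) := fun a ha =>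
        (Subgroup.mem_normalizer_iff.mp hg a).mp ha
      have hn' : ∀ a ∈ Ds T (u • T), g⁻¹ * a * g ∈ Ds T (u • T) := fun a ha => by
        have := (Subgroup.mem_normalizer_iff.mp (Subgroup.inv_mem _ hg) a).mp ha
        rwa [inv_inv] at this
      have hle : Ds T (u • T) ≤ Nm (g • T) := fun a ha => by
        rw [mem_Nm_smul]
        exact (hn' a ha).1
      rcases h.fix_Ds hne hle with e | e
      · have hgN : g ∈ Nm T := mem_Nm_iff.mpr e
        exact Subgroup.mem_sup_left (h.mem_of_normalizes hne hgN hn)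
      · have hgN : u⁻¹ * g ∈ Nm T := by
          rw [mem_Nm_iff, mul_smul, inv_smul_eq_iff]
          exact e
        have hgD : u⁻¹ * g ∈ Ds T (u • T) := by
          apply h.mem_of_normalizes hne hgN
          intro a ha
          have e2 : (u⁻¹ * g) * a * (u⁻¹ * g)⁻¹ = u * (g * a * g⁻¹) * u⁻¹ := by
            rw [hui]; simp only [mul_inv_rev, inv_inv, hui]; group
          rw [e2]
          exact hunorm _ (hn a ha)
        have e3 : g = (u⁻¹ * g) * ((u⁻¹ * g)⁻¹ * g) := by group
        have e4 : g = u * (u⁻¹ * g) := by group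
        rw [e4]
        rw [sup_comm]
        exact Subgroup.mul_mem_sup (Subgroup.mem_zpowers u) hgD
    · apply sup_le Subgroup.le_normalizer
      rw [Subgroup.zpowers_le]
      rw [Subgroup.mem_normalizer_iff]
      intro a
      constructor
      · exact hunorm a
      · intro ha
        have h1 := hunorm _ ha
        have e : u * (u * a * u⁻¹) * u⁻¹ = a := by
          rw [hui, mul_assoc, mul_assoc, mul_assoc, huu, mul_one, ← mul_assoc, huu, one_mul]
        rwa [e] at h1
  · intro g
    have key : (∀ d ∈ Ds T (u • T), d • (QuotientGroup.mk g : G ⧸ Nm T) = QuotientGroup.mk g) ↔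
        Ds T (u • T) ≤ Nm (g • T) := by
      constructor
      · intro h1 a ha
        have h2 := h1 a ha
        rw [smul_mk_eq_iff] at h2
        rw [mem_Nm_smul]
        exact h2
      · intro h1 a ha
        rw [smul_mk_eq_iff]
        exact mem_Nm_smul.mp (h1 ha)
    rw [key, mk_eq_mk_iff, mk_eq_mk_iff, one_smul]
    constructor
    · exact h.fix_Ds hne
    · rintro (e | e)
      · rw [e]; exact inf_le_left
      · rw [e]; exact inf_le_right

end Cfsg.Agent.S1228
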