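import Mathlib
import Cfsg.Statements.S1229
import Cfsg.Agent.Lib.CITElem2

set_option autoImplicit false
open Cfsg

namespace Cfsg.Agent.S1229

open Cfsg.Agent.Lib.CITElem Cfsg.Agent.Lib.EmbInvol

/-- Let G be a finite group with a Sylow 2-subgroup T that is neither cyclic nor normal, such that the centralizer of every involution is an elementary abelian 2-group; put H = N_G(T) and X = G/H. Then G is triply transitive on X, an element fixing three distinct points of X is the identity, and T acts regularly on X minus the point H. -/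
theorem result {G : Type*} [Group G] [Finite G] (T : Sylow 2 G) (hnc : ¬ IsCyclic (T : Subgroup G)) (hnn : ¬ (T : Subgroup G).Normal) (hC : ∀ t : G, orderOf t = 2 → IsMulCommutative (Subgroup.centralizer ({t} : Set G)) ∧ ∀ c ∈ Subgroup.centralizer ({t} : Set G), c ^ 2 = 1) : (∀ x₁ x₂ x₃ y₁ y₂ y₃ : G ⧸ Subgroup.normalizer ((T : Subgroup G) : Set G), x₁ ≠ x₂ → x₁ ≠ x₃ → x₂ ≠ x₃ → y₁ ≠ y₂ → y₁ ≠ y₃ → y₂ ≠ y₃ → ∃ g : G, g • x₁ = y₁ ∧ g • x₂ = y₂ ∧ g • x₃ = y₃) ∧ (∀ g : G, ∀ x₁ x₂ x₃ : G ⧸ Subgroup.normalizer ((T : Subgroup G) : Set G), x₁ ≠ x₂ → x₁ ≠ x₃ → x₂ ≠ x₃ → g • x₁ = x₁ → g • x₂ = x₂ → g • x₃ = x₃ → g = 1) ∧ (∀ x y : G ⧸ Subgroup.normalizer ((T : Subgroup G) : Set G), x ≠ QuotientGroup.mk 1 → y ≠ QuotientGroup.mk 1 → ∃! t : G, t ∈ T ∧ t • x = y) := by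
  have h := CIT.of T hnc hnn hC
  change (∀ x₁ x₂ x₃ y₁ y₂ y₃ : G ⧸ Nm T, x₁ ≠ x₂ → x₁ ≠ x₃ → x₂ ≠ x₃ → y₁ ≠ y₂ → y₁ ≠ y₃ → y₂ ≠ y₃ → ∃ g : G, g • x₁ = y₁ ∧ g • x₂ = y₂ ∧ g • x₃ = y₃) ∧ (∀ g : G, ∀ x₁ x₂ x₃ : G ⧸ Nm T, x₁ ≠ x₂ → x₁ ≠ x₃ → x₂ ≠ x₃ → g • x₁ = x₁ → g • x₂ = x₂ → g • x₃ = x₃ → g = 1) ∧ (∀ x y : G ⧸ Nm T, x ≠ QuotientGroup.mk 1 → y ≠ QuotientGroup.mk 1 → ∃! t : G, t ∈ T ∧ t • x = y)
  refine ⟨?_, ?_, ?_⟩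
  · intro x₁ x₂ x₃ y₁ y₂ y₃ h12 h13 h23 k12 k13 k23
    obtain ⟨a₁, rfl⟩ := QuotientGroup.mk_surjective x₁
    obtain ⟨a₂, rfl⟩ := QuotientGroup.mk_surjective x₂
    obtain ⟨a₃, rfl⟩ := QuotientGroup.mk_surjective x₃
    obtain ⟨b₁, rfl⟩ := QuotientGroup.mk_surjective y₁
    obtain ⟨b₂, rfl⟩ := QuotientGroup.mk_surjective y₂
    obtain ⟨b₃, rfl⟩ := QuotientGroup.mk_surjective y₃
    simp only [ne_eq, mk_eq_mk_iff] at h12 h13 h23 k12 k13 k23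
    obtain ⟨g, h1, h2, h3⟩ := h.three_trans h12 h13 h23 k12 k13 k23
    exact ⟨g, (smul_mk_iff _ _ _).mpr h1, (smul_mk_iff _ _ _).mpr h2, (smul_mk_iff _ _ _).mpr h3⟩
  · intro g x₁ x₂ x₃ h12 h13 h23 f1 f2 f3
    obtain ⟨a₁, rfl⟩ := QuotientGroup.mk_surjective x₁
    obtain ⟨a₂, rfl⟩ := QuotientGroup.mk_surjective x₂
    obtain ⟨a₃, rfl⟩ := QuotientGroup.mk_surjective x₃
    simp only [ne_eq, mk_eq_mk_iff] at h12 h13 h23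
    exact h.eq_one_of_fix h12 h13 h23 ((smul_mk_iff _ _ _).mp f1) ((smul_mk_iff _ _ _).mp f2)
      ((smul_mk_iff _ _ _).mp f3)
  · intro x y hx hy
    obtain ⟨a, rfl⟩ := QuotientGroup.mk_surjective x
    obtain ⟨b, rfl⟩ := QuotientGroup.mk_surjective y
    simp only [ne_eq, mk_eq_mk_iff, one_smul] at hx hy
    have hTa : T ≠ a • T := fun e => hx e.symm
    have hTb : T ≠ b • T := fun e => hy e.symm
    obtain ⟨τ, hτ, hτe⟩ := h.trans_P hTa hTb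
    refine ⟨τ, ⟨hτ, (smul_mk_iff _ _ _).mpr hτe⟩, ?_⟩
    rintro τ' ⟨hτ', hτ'e⟩
    have h1 := (smul_mk_iff _ _ _).mp hτ'e
    have h2 : (τ⁻¹ * τ') • (a • T) = a • T := by
      rw [mul_smul, h1, inv_smul_eq_iff, hτe]
    have h3 := h.semireg hTa (Subgroup.mul_mem _ (Subgroup.inv_mem _ hτ) hτ') h2
    have h4 : τ' = τ * (τ⁻¹ * τ') := by group
    rw [h4, h3, mul_one]

end Cfsg.Agent.S1229
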