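import Mathlib
import Cfsg.Statements.S1231
import Cfsg.Agent.Lib.CharTwoLocal

set_option autoImplicit false
open Cfsg

namespace Cfsg.Agent.S1231

lemma prank_of_injective {A B : Type*} [Group A] [Group B] [Finite B] {p k : ℕ} (f : A →* B)
    (hf : Function.Injective f) (h : PRankLE p k B) : PRankLE p k A := by
  intro S hS hS'
  have h1 := h (S.map f) (by
    constructor
    constructor
    rintro ⟨_, ⟨a, ha, rfl⟩⟩ ⟨_, ⟨b, hb, rfl⟩⟩
    apply Subtype.ext
    have := hS.is_comm.comm ⟨a, ha⟩ ⟨b, hb⟩
    have h2 : a * b = b * a := congrArg Subtype.val this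
    simp only [Subgroup.coe_mul]
    rw [← map_mul, ← map_mul, h2]) (by
    rintro _ ⟨a, ha, rfl⟩
    rw [← map_pow, hS' a ha, map_one])
  have h2 : Nat.card (S.map f) = Nat.card S :=
    Nat.card_congr (Subgroup.equivMapOfInjective S f hf).symm.toEquiv
  rwa [h2] at h1

lemma prank_mono {G : Type*} [Group G] [Finite G] {p k : ℕ} {X Y : Subgroup G} (hXY : X ≤ Y)
    (h : PRankLE p k Y) : PRankLE p k X :=
  prank_of_injective (Subgroup.inclusion hXY) (Subgroup.inclusion_injective hXY) h

lemma prank_conj {G : Type*} [Group G] [Finite G] {p k : ℕ} (X : Subgroup G) (g : G)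
    (h : PRankLE p k (X.map (MulAut.conj g).toMonoidHom)) : PRankLE p k X :=
  prank_of_injective (Subgroup.equivMapOfInjective X _ (MulAut.conj g).injective).toMonoidHom
    (Subgroup.equivMapOfInjective X _ (MulAut.conj g).injective).injective h

lemma prank_conj' {G : Type*} [Group G] [Finite G] {p k : ℕ} (X : Subgroup G) (g : G)
    (h : PRankLE p k X) : PRankLE p k (X.map (MulAut.conj g).toMonoidHom) :=
  prank_of_injective (Subgroup.equivMapOfInjective X _ (MulAut.conj g).injective).symm.toMonoidHom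
    (Subgroup.equivMapOfInjective X _ (MulAut.conj g).injective).symm.injective h

/-- A `p`-subgroup of `H` can be conjugated into the image of a Sylow `p`-subgroup of `H`, by an element of `H`. -/
lemma exists_conj_le {G : Type*} [Group G] [Finite G] {p : ℕ} [Fact p.Prime] (H : Subgroup G)
    (P : Sylow p ↥H) (T : Subgroup G) (hTH : T ≤ H) (hT : IsPGroup p T) :
    ∃ h ∈ H, T.map (MulAut.conj h).toMonoidHom ≤ (P : Subgroup ↥H).map H.subtype := by
  have hA : IsPGroup p (T.subgroupOf H) := hT.comap_of_injective H.subtype H.subtype_injective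
  obtain ⟨R, hR⟩ := hA.exists_le_sylow
  obtain ⟨c, hc⟩ := MulAction.exists_smul_eq H R P
  refine ⟨c, c.2, ?_⟩
  rintro _ ⟨t, ht, rfl⟩
  refine ⟨c * ⟨t, hTH ht⟩ * c⁻¹, ?_, rfl⟩
  rw [← hc, Sylow.smul_def, Sylow.pointwise_smul_def]
  exact ⟨⟨t, hTH ht⟩, hR (Subgroup.mem_subgroupOf.mpr ht), rfl⟩

lemma mem_map_conj_iff {G : Type*} [Group G] {Q : Subgroup G} {g x : G} :
    x ∈ Q.map (MulAut.conj g).toMonoidHom ↔ g⁻¹ * x * g ∈ Q := by
  constructor
  · rintro ⟨y, hy, rfl⟩
    simpa [mul_assoc] using hy
  · intro h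
    exact ⟨_, h, by simp [mul_assoc]⟩

lemma map_conj_map {G : Type*} [Group G] (Q : Subgroup G) (a b : G) :
    (Q.map (MulAut.conj a).toMonoidHom).map (MulAut.conj b).toMonoidHom = Q.map (MulAut.conj (b * a)).toMonoidHom := by
  ext x
  rw [mem_map_conj_iff, mem_map_conj_iff, mem_map_conj_iff]
  simp [mul_assoc]

/-- Let H be a subgroup of the finite group G, p a prime, k ≥ 1, and P a Sylow p-subgroup of H whose p-rank is at least k. Then N_G(X) ≤ H for every subgroup X of P of p-rank at least k if and only if H ∩ gHg⁻¹ has p-rank less than k for every g ∉ H. -/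
theorem result {G : Type*} [Group G] [Finite G] {p : ℕ} [Fact p.Prime] (k : ℕ) (hk : 1 ≤ k) (H : Subgroup G) (P : Sylow p ↥H) (hP : ¬ Cfsg.PRankLE p (k - 1) ↥(P : Subgroup ↥H)) : (∀ X : Subgroup G, X ≤ (P : Subgroup ↥H).map H.subtype → ¬ Cfsg.PRankLE p (k - 1) ↥X → Subgroup.normalizer (X : Set G) ≤ H) ↔ (∀ g : G, g ∉ H → Cfsg.PRankLE p (k - 1) ↥(H ⊓ H.map (MulAut.conj g).toMonoidHom)) := by
  classical
  have hp : p.Prime := Fact.out
  set P₀ : Subgroup G := (P : Subgroup ↥H).map H.subtype with hP₀
  have hP₀H : P₀ ≤ H := Subgroup.map_subtype_le _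
  have hP₀p : IsPGroup p P₀ := P.2.map _
  have hP₀big : ¬ PRankLE p (k - 1) P₀ := by
    intro h
    exact hP (prank_of_injective
      (Subgroup.equivMapOfInjective (P : Subgroup ↥H) H.subtype H.subtype_injective).toMonoidHom
      (Subgroup.equivMapOfInjective (P : Subgroup ↥H) H.subtype H.subtype_injective).injective h)
  constructor
  · intro hN
    -- the fusion statement
    have hF : ∀ X : Subgroup G, X ≤ P₀ → ¬ PRankLE p (k - 1) X → ∀ γ : G,
        X.map (MulAut.conj γ).toMonoidHom ≤ P₀ → γ ∈ H := by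
      intro X
      induction X using WellFoundedGT.induction with
      | ind X ih =>
        intro hXP hXbig γ hγ
        by_cases hXeq : X = P₀
        · subst hXeq
          apply hN P₀ le_rfl hP₀big
          -- γ normalizes P₀
          have h1 : P₀.map (MulAut.conj γ).toMonoidHom = P₀ := by
            apply Subgroup.eq_of_le_of_card_ge hγ
            rw [Nat.card_congr (Subgroup.equivMapOfInjective P₀ _ (MulAut.conj γ).injective).symm.toEquiv]
          rw [Subgroup.mem_normalizer_iff]
          intro x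
          constructor
          · intro hx
            rw [← h1]
            exact ⟨x, hx, rfl⟩
          · intro hx
            rw [← h1] at hx
            rw [mem_map_conj_iff] at hx
            have e : γ⁻¹ * (γ * x * γ⁻¹) * γ = x := by group
            rwa [e] at hx
        · have hlt : X < P₀ := lt_of_le_of_ne hXP hXeq
          -- the normalizer of X in P₀ grows
          obtain ⟨y, hyP, hyX, hyN⟩ := Cfsg.Agent.Lib.CharTwoLocal.exists_mem_normalizer_of_lt hP₀p hlt
          set X₁ : Subgroup G := P₀ ⊓ Subgroup.normalizer (X : Set G) with hX₁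
          have hXX₁ : X ≤ X₁ := le_inf hXP Subgroup.le_normalizer
          have hlt₁ : X < X₁ := by
            refine lt_of_le_of_ne hXX₁ ?_
            intro he
            apply hyX
            rw [he]
            exact Subgroup.mem_inf.mpr ⟨hyP, hyN⟩
          have hX₁big : ¬ PRankLE p (k - 1) X₁ := fun h => hXbig (prank_mono hXX₁ h)
          -- X' := γ X γ⁻¹
          set X' : Subgroup G := X.map (MulAut.conj γ).toMonoidHom with hX'
          have hX'big : ¬ PRankLE p (k - 1) X' := fun h => hXbig (prank_conj X γ h)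
          have hNX' : Subgroup.normalizer (X' : Set G) ≤ H := hN X' hγ hX'big
          -- γ X₁ γ⁻¹ normalizes X'
          have hγX₁ : X₁.map (MulAut.conj γ).toMonoidHom ≤ H := by
            refine le_trans ?_ hNX'
            rintro _ ⟨x, hx, rfl⟩
            have hxN : x ∈ Subgroup.normalizer (X : Set G) := (Subgroup.mem_inf.mp hx).2
            rw [Subgroup.mem_normalizer_iff]
            intro a
            show a ∈ X' ↔ (γ * x * γ⁻¹) * a * (γ * x * γ⁻¹)⁻¹ ∈ X'
            rw [hX', mem_map_conj_iff, mem_map_conj_iff]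
            have e : γ⁻¹ * ((γ * x * γ⁻¹) * a * (γ * x * γ⁻¹)⁻¹) * γ = x * (γ⁻¹ * a * γ) * x⁻¹ := by group
            rw [e]
            exact (Subgroup.mem_normalizer_iff.mp hxN) _
          have hpX₁ : IsPGroup p (X₁.map (MulAut.conj γ).toMonoidHom) :=
            (hP₀p.to_le inf_le_left).map _
          obtain ⟨h, hhH, hh⟩ := exists_conj_le H P _ hγX₁ hpX₁
          rw [map_conj_map] at hh
          have := ih X₁ hlt₁ inf_le_left hX₁big (h * γ) hh
          have h2 : γ = h⁻¹ * (h * γ) := by group
          rw [h2]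
          exact H.mul_mem (H.inv_mem hhH) this
    intro g hg
    by_contra hcon
    -- extract an elementary abelian subgroup
    have hA : ¬ PRankLE p (k - 1) (↥(H ⊓ H.map (MulAut.conj g).toMonoidHom)) := hcon
    set L : Subgroup G := H ⊓ H.map (MulAut.conj g).toMonoidHom with hL
    unfold PRankLE at hA
    push_neg at hA
    obtain ⟨A, hAc, hAe, hAcard⟩ := hA
    set A₀ : Subgroup G := A.map L.subtype with hA₀
    have hA₀big : ¬ PRankLE p (k - 1) A₀ := by
      intro h
      have h1 : A₀ = A.map L.subtype := rfl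
      -- A is a subgroup of L; the image has the same cardinality
      let A' : Subgroup A₀ := ⊤
      have h2 := h A' ⟨⟨by
          rintro ⟨⟨_, ⟨a, ha, rfl⟩⟩, _⟩ ⟨⟨_, ⟨b, hb, rfl⟩⟩, _⟩
          apply Subtype.ext
          apply Subtype.ext
          have := hAc.is_comm.comm ⟨a, ha⟩ ⟨b, hb⟩
          have h3 : a * b = b * a := congrArg Subtype.val this
          exact congrArg (L.subtype) h3⟩⟩ (by
          rintro ⟨_, ⟨a, ha, rfl⟩⟩ _
          apply Subtype.ext
          have := hAe a ha
          exact congrArg (L.subtype) this)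
      have h3 : Nat.card A' = Nat.card A := by
        have e1 : Nat.card A' = Nat.card A₀ := Subgroup.card_top
        rw [e1]
        exact Nat.card_congr (Subgroup.equivMapOfInjective A L.subtype L.subtype_injective).symm.toEquiv
      rw [h3] at h2
      omega
    have hA₀H : A₀ ≤ H := fun x hx => by
      obtain ⟨a, _, rfl⟩ := hx
      exact (Subgroup.mem_inf.mp a.2).1
    have hA₀H' : A₀.map (MulAut.conj g⁻¹).toMonoidHom ≤ H := by
      rintro _ ⟨_, ⟨a, _, rfl⟩, rfl⟩
      have h1 := (Subgroup.mem_inf.mp a.2).2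
      rw [mem_map_conj_iff] at h1
      simpa using h1
    have hA₀p : IsPGroup p A₀ := by
      rw [IsPGroup.iff_orderOf]
      rintro ⟨_, ⟨a, ha, rfl⟩⟩
      refine ⟨if (a : L) = 1 then 0 else 1, ?_⟩
      have h2 : ((a : L) : G) ^ p = 1 := by
        have := hAe a ha
        exact congrArg Subtype.val this
      have h3 : orderOf (⟨L.subtype a, ⟨a, ha, rfl⟩⟩ : A₀) = orderOf ((a : L) : G) := by
        exact Subgroup.orderOf_mk _ _
      rw [h3]
      by_cases h4 : (a : L) = 1
      · simp [h4]
      · simp only [h4, if_false, pow_one]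
        apply orderOf_eq_prime h2
        intro h5
        exact h4 (Subtype.ext h5)
    -- conjugate both into P₀
    obtain ⟨h₁, hh₁, hB⟩ := exists_conj_le H P A₀ hA₀H hA₀p
    obtain ⟨h₂, hh₂, hB₂⟩ := exists_conj_le H P _ hA₀H' (hA₀p.map _)
    set B : Subgroup G := A₀.map (MulAut.conj h₁).toMonoidHom with hBdef
    have hBbig : ¬ PRankLE p (k - 1) B := fun h => hA₀big (prank_conj A₀ h₁ h)
    have h5 : B.map (MulAut.conj (h₂ * g⁻¹ * h₁⁻¹)).toMonoidHom ≤ P₀ := by
      rw [hBdef, map_conj_map]
      rw [map_conj_map] at hB₂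
      have : h₂ * g⁻¹ * h₁⁻¹ * h₁ = h₂ * g⁻¹ := by group
      rw [this]
      exact hB₂
    have h6 := hF B hB hBbig _ h5
    apply hg
    have e : g = (h₁⁻¹ * (h₂⁻¹ * (h₂ * g⁻¹ * h₁⁻¹) * h₁))⁻¹ * h₁⁻¹ := by group
    have e2 : g = h₁⁻¹ * (h₂ * g⁻¹ * h₁⁻¹)⁻¹ * h₂ := by group
    rw [e2]
    exact H.mul_mem (H.mul_mem (H.inv_mem hh₁) (H.inv_mem h6)) hh₂
  · intro hR X hXP hXbig
    intro g hg
    by_contra hgH
    apply hXbig
    apply prank_mono _ (hR g hgH)
    apply le_inf (hXP.trans hP₀H)
    intro x hx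
    rw [mem_map_conj_iff]
    apply hP₀H
    apply hXP
    exact (Subgroup.mem_normalizer_iff.mp (Subgroup.inv_mem _ hg) x).1 hx |> fun h => by simpa using h

end Cfsg.Agent.S1231
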