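import Mathlib
import Cfsg.Agent.Lib.WrInvF
import Cfsg.Statements.S1234

set_option autoImplicit false
open Cfsg

namespace Cfsg.Agent.S1234

/-- Let S be a finite 2-group and Q ≤ S a subgroup of order 32 having an elementary abelian subgroup E of order 16 and an involution s ∉ E whose centralizer in E has order 4 (so Q ≅ (Z₂ × Z₂) ≀ Z₂). If C_S(Z(Q)) = Q, then every section of S has 2-rank at most 4. -/
theorem result {S : Type*} [Group S] [Finite S] (hS : IsPGroup 2 S) (Q E : Subgroup S) (hEQ : E ≤ Q) (hE : Cfsg.IsElementaryAbelian 2 E) (hE16 : Nat.card E = 16) (hQ32 : Nat.card Q = 32) (s : S) (hsQ : s ∈ Q) (hsE : s ∉ E) (hs : orderOf s = 2) (hfix : Nat.card ↥(E ⊓ Subgroup.centralizer ({s} : Set S)) = 4) (hC : Subgroup.centralizer (((Subgroup.center Q).map Q.subtype : Subgroup S) : Set S) = Q) : Cfsg.SectionalPRankLE 2 4 S := by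
  
  have q : Cfsg.Agent.Lib.WrInvE.QD Q E s :=
    { hEQ := hEQ
      ecomm := by
        intro a ha b hb
        have h1 := hE.1.is_comm.comm ⟨a, ha⟩ ⟨b, hb⟩
        exact congrArg Subtype.val h1
      esq := by
        intro a ha
        rw [← pow_two]
        exact hE.2 a ha
      cE := hE16
      cQ := hQ32
      sQ := hsQ
      sE := hsE
      ss := by
        rw [← pow_two, ← hs]
        exact pow_orderOf_eq_one s
      fix := hfix }
  apply Cfsg.Agent.Lib.SectRank.sectional_of_sqBound
  refine q.sqBound_all hS ?_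
  intro x
  rw [q.center_eq] at hC
  constructor
  · intro hx z hz
    rw [← hC] at hx
    exact (Subgroup.mem_centralizer_iff.1 hx z hz).symm
  · intro h
    rw [← hC]
    exact Subgroup.mem_centralizer_iff.2 (fun z hz => (h z hz).symm)


end Cfsg.Agent.S1234
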