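import Mathlib
import Cfsg.Agent.Lib.SectE16
import Cfsg.Statements.S1235
-- import your own Cfsg.Agent.* helpers here

set_option autoImplicit false
open Cfsg

namespace Cfsg.Agent.S1235


open Cfsg.Agent.Lib.SectRank Cfsg.Agent.Lib.SectE16

/-! ### Transfer from a Sylow 2-subgroup -/

theorem index_le_relIndex_sylow {X : Type*} [Group X] [Finite X] (N₀ : Subgroup X) (hn : N₀.Normal)
    (hsq : ∀ x : X, x ^ 2 ∈ N₀) (P₀ : Subgroup X) (hP : Odd P₀.index) :
    N₀.index ≤ N₀.relIndex P₀ := by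
  haveI : Fact (Nat.Prime 2) := ⟨Nat.prime_two⟩
  have hq : IsPGroup 2 (X ⧸ N₀) := by
    intro a
    induction a using QuotientGroup.induction_on with
    | H z =>
      refine ⟨1, ?_⟩
      rw [pow_one, ← QuotientGroup.mk_pow, QuotientGroup.eq_one_iff]
      exact hsq z
  obtain ⟨a, ha⟩ := IsPGroup.iff_card.1 hq
  have hidx : N₀.index = 2 ^ a := ha
  have h1 : (N₀ ⊓ P₀).relIndex P₀ * P₀.index = (N₀ ⊓ P₀).index :=
    Subgroup.relIndex_mul_index inf_le_right
  have h2 : (N₀ ⊓ P₀).relIndex N₀ * N₀.index = (N₀ ⊓ P₀).index :=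
    Subgroup.relIndex_mul_index inf_le_left
  have h3 : (N₀ ⊓ P₀).relIndex P₀ = N₀.relIndex P₀ := Subgroup.inf_relIndex_right _ _
  have hcop : Nat.Coprime N₀.index P₀.index := by
    rw [hidx]
    exact Nat.Coprime.pow_left _ (Nat.coprime_two_left.2 hP)
  have hd : N₀.index ∣ N₀.relIndex P₀ * P₀.index := by
    rw [← h3, h1, ← h2]
    exact dvd_mul_left _ _
  have hd2 := hcop.dvd_of_dvd_mul_right hd
  refine Nat.le_of_dvd (Nat.pos_of_ne_zero ?_) hd2
  intro h0
  rw [← h3] at h0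
  rw [h0, zero_mul] at h1
  have : (N₀ ⊓ P₀).index ≠ 0 := Subgroup.index_ne_zero_of_finite
  exact this h1.symm

theorem sectional_of_sylow {G : Type*} [Group G] [Finite G] {k : ℕ} (Q : Sylow 2 G)
    (hb : SqBound k Q) : Cfsg.SectionalPRankLE 2 k G := by
  haveI : Fact (Nat.Prime 2) := ⟨Nat.prime_two⟩
  apply sectional_of_sqBound
  intro H N hNH hsq
  obtain ⟨P₀⟩ : Nonempty (Sylow 2 H) := inferInstance
  let P : Subgroup G := (P₀ : Subgroup H).map H.subtype
  have hP : IsPGroup 2 P := P₀.isPGroup'.map H.subtype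
  obtain ⟨Q', hQ'⟩ := hP.exists_le_sylow
  have hb' : SqBound k Q' :=
    hb.of_injective (Sylow.equiv Q' Q).toMonoidHom (Sylow.equiv Q' Q).injective
  have hsub : N ⊓ P ≤ P := inf_le_right
  have h1 := hb' (P.subgroupOf Q') ((N ⊓ P).subgroupOf Q')
    (Subgroup.comap_mono hsub) (by
      intro h hh
      have hh' : (h : G) ∈ P := hh
      have hhH : (h : G) ∈ H := by
        obtain ⟨x, -, hx⟩ := hh'
        rw [← hx]
        exact x.2
      show ((h ^ 2 : Q') : G) ∈ N ⊓ P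
      rw [Subgroup.coe_pow]
      exact ⟨hsq _ hhH, P.pow_mem hh' 2⟩)
  have h2 : ((N ⊓ P).subgroupOf Q').relIndex (P.subgroupOf Q') = N.relIndex P := by
    rw [Subgroup.subgroupOf, Subgroup.relIndex_comap]
    have : (P.subgroupOf Q').map (Q' : Subgroup G).subtype = P := by
      rw [Subgroup.subgroupOf, Subgroup.map_comap_eq, Subgroup.range_subtype]
      exact inf_eq_right.2 hQ'
    rw [this]
    exact Subgroup.inf_relIndex_right _ _
  rw [h2] at h1
  have hn := normal_of_squares H N hsq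
  have h3 := index_le_relIndex_sylow (N.subgroupOf H) hn (by
    intro x
    rw [Subgroup.mem_subgroupOf]
    simpa using hsq _ x.2) (P₀ : Subgroup H) (by
    rw [← Nat.not_even_iff_odd, even_iff_two_dvd]
    exact P₀.not_dvd_index)
  have h4 : (N.subgroupOf H).relIndex (P₀ : Subgroup H) = N.relIndex P := by
    rw [Subgroup.subgroupOf, Subgroup.relIndex_comap]
  rw [h4] at h3
  exact le_trans h3 h1

/-! ### Sup of commuting subgroups -/

theorem mem_sup_comm {G : Type*} [Group G] {A B : Subgroup G} (hc : ∀ a ∈ A, ∀ b ∈ B, a * b = b * a)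
    {x : G} (hx : x ∈ A ⊔ B) : ∃ a ∈ A, ∃ b ∈ B, x = a * b := by
  have hle : B ≤ Subgroup.normalizer (A : Set G) := by
    rw [Subgroup.le_normalizer_iff]
    intro b hb a ha
    have : b * a * b⁻¹ = a := by
      rw [← hc a ha b hb]
      group
    rw [this]
    exact ha
  have h1 : x ∈ ((A ⊔ B : Subgroup G) : Set G) := hx
  rw [Subgroup.coe_mul_of_right_le_normalizer_left A B hle, Set.mem_mul] at h1
  obtain ⟨a, ha, b, hb, rfl⟩ := h1
  exact ⟨a, ha, b, hb, rfl⟩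

/-! ### `y` normalizing `T` with `y² ∈ T` -/

theorem exists_sq_mem_pow {G : Type*} [Group G] (T : Subgroup G) (y : G) (hy : y ∉ T) (k : ℕ)
    (h : y ^ (2 ^ k) ∈ T) : ∃ n : ℕ, y ^ n ∉ T ∧ (y ^ n) ^ 2 ∈ T := by
  induction k with
  | zero =>
    rw [pow_zero, pow_one] at h
    exact absurd h hy
  | succ k ih =>
    by_cases h2 : y ^ (2 ^ k) ∈ T
    · exact ih h2
    · refine ⟨2 ^ k, h2, ?_⟩
      rw [← pow_mul, ← pow_succ]
      exact h

theorem exists_y {G : Type*} [Group G] [Finite G] {T S : Subgroup G} (hTS : T ≤ S)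
    (hS : IsPGroup 2 S) (hne : T ≠ S) :
    ∃ y ∈ S, y ∉ T ∧ y ^ 2 ∈ T ∧ y ∈ Subgroup.normalizer (T : Set G) := by
  haveI : Fact (Nat.Prime 2) := ⟨Nat.prime_two⟩
  haveI := hS.isNilpotent
  have hT1 : T.subgroupOf S ≠ ⊤ := by
    intro h
    apply hne
    apply le_antisymm hTS
    intro x hx
    have : (⟨x, hx⟩ : S) ∈ T.subgroupOf S := by rw [h]; exact Subgroup.mem_top _
    exact this
  have hlt := normalizerCondition_of_isNilpotent (G := S) (T.subgroupOf S) (lt_top_iff_ne_top.2 hT1)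
  obtain ⟨g₁, hg₁, hg₁T⟩ := SetLike.exists_of_lt hlt
  have hgT : (g₁ : G) ∉ T := hg₁T
  have hgN : (g₁ : G) ∈ Subgroup.normalizer (T : Set G) := by
    rw [Subgroup.mem_normalizer_iff]
    intro t
    constructor
    · intro ht
      have h1 := (Subgroup.mem_normalizer_iff.1 hg₁ ⟨t, hTS ht⟩).1 ht
      exact h1
    · intro ht
      have hm : t ∈ S := by
        have h2 := S.mul_mem (S.mul_mem (S.inv_mem g₁.2) (hTS ht)) g₁.2
        have h3 : (g₁ : G)⁻¹ * ((g₁ : G) * t * (g₁ : G)⁻¹) * (g₁ : G) = t := by group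
        rwa [h3] at h2
      have h1 := (Subgroup.mem_normalizer_iff.1 hg₁ ⟨t, hm⟩).2 ht
      exact h1
  obtain ⟨k, hk⟩ := hS g₁
  have hk' : (g₁ : G) ^ (2 ^ k) = 1 := by
    have := congrArg Subtype.val hk
    simpa using this
  obtain ⟨n, hn1, hn2⟩ := exists_sq_mem_pow T (g₁ : G) hgT k (by rw [hk']; exact T.one_mem)
  exact ⟨_, S.pow_mem g₁.2 n, hn1, hn2, Subgroup.pow_mem _ hgN n⟩

/-! ### The core computation -/

section Core

variable {G : Type*} [Group G]

/-- `Ω₁ Z(T)`-membership. -/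
def IsE (T : Subgroup G) (z : G) : Prop := z ∈ T ∧ (∀ t ∈ T, z * t = t * z) ∧ z ^ 2 = 1

theorem IsE.mul {T : Subgroup G} {a b : G} (ha : IsE T a) (hb : IsE T b) : IsE T (a * b) := by
  refine ⟨T.mul_mem ha.1 hb.1, ?_, ?_⟩
  · intro t ht
    rw [mul_assoc, hb.2.1 t ht, ← mul_assoc, ha.2.1 t ht, mul_assoc]
  · have h := ha.2.1 b hb.1
    have h1 := ha.2.2
    have h2 := hb.2.2
    rw [pow_two] at h1 h2 ⊢
    calc a * b * (a * b) = a * (b * a) * b := by group
      _ = a * (a * b) * b := by rw [h]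
      _ = (a * a) * (b * b) := by group
      _ = 1 := by rw [h1, h2, one_mul]

theorem IsE.inv {T : Subgroup G} {a : G} (ha : IsE T a) : IsE T a⁻¹ := by
  have h1 : a⁻¹ = a := by
    have h2 := ha.2.2
    rw [pow_two] at h2
    exact inv_eq_of_mul_eq_one_left h2
  rw [h1]
  exact ha

theorem IsE.conj {T : Subgroup G} {a y : G} (ha : IsE T a)
    (hy : y ∈ Subgroup.normalizer (T : Set G)) : IsE T (y * a * y⁻¹) := by
  refine ⟨(Subgroup.mem_normalizer_iff.1 hy a).1 ha.1, ?_, ?_⟩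
  · intro t ht
    have h1 := (Subgroup.mem_normalizer_iff''.1 hy t).1 ht
    have h2 := ha.2.1 _ h1
    calc y * a * y⁻¹ * t = y * (a * (y⁻¹ * t * y)) * y⁻¹ := by group
      _ = y * ((y⁻¹ * t * y) * a) * y⁻¹ := by rw [h2]
      _ = t * (y * a * y⁻¹) := by group
  · have h2 := ha.2.2
    rw [pow_two] at h2 ⊢
    calc y * a * y⁻¹ * (y * a * y⁻¹) = y * (a * a) * y⁻¹ := by group
      _ = 1 := by rw [h2]; group

theorem core {D B T : Subgroup G} (hprod : Cfsg.IsInternalDirectProduct D B T) {c : G}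
    (hc : ∀ d ∈ D, (∀ x ∈ D, d * x = x * d) → d ^ 2 = 1 → d = 1 ∨ d = c)
    (hB2 : ∀ b ∈ B, b ^ 2 = 1) {b₁ b₂ : G} (hb₁ : b₁ ∈ B) (hb₂ : b₂ ∈ B) (hb₁1 : b₁ ≠ 1)
    (hb₂1 : b₂ ≠ 1) (hb₁₂ : b₁ ≠ b₂) {y : G} (hyN : y ∈ Subgroup.normalizer (T : Set G))
    (hy2 : y ^ 2 ∈ T) : ∃ b ∈ B, b ≠ 1 ∧ y * b = b * y := by
  obtain ⟨hDT, hBT, hcomm, -, hsup⟩ := hprod
  have hdec : ∀ t ∈ T, ∃ d ∈ D, ∃ b ∈ B, t = d * b := by
    intro t ht
    rw [← hsup] at ht
    exact mem_sup_comm hcomm ht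
  have hBab : ∀ a ∈ B, ∀ b ∈ B, a * b = b * a := by
    intro a ha b hb
    have hexp : ∀ x : B, x ^ 2 = 1 := by
      intro x
      apply Subtype.ext
      simpa using hB2 x x.2
    have := comm_of_exp_two hexp ⟨a, ha⟩ ⟨b, hb⟩
    exact congrArg Subtype.val this
  have hBE : ∀ b ∈ B, IsE T b := by
    intro b hb
    refine ⟨hBT hb, ?_, hB2 b hb⟩
    intro t ht
    obtain ⟨d, hd, b', hb', rfl⟩ := hdec t ht
    calc b * (d * b') = (b * d) * b' := by group
      _ = (d * b) * b' := by rw [hcomm d hd b hb]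
      _ = d * (b * b') := by group
      _ = d * (b' * b) := by rw [hBab b hb b' hb']
      _ = d * b' * b := by group
  -- structure of `E`
  have hE : ∀ z, IsE T z → z ∈ B ∨ ∃ b' ∈ B, z = c * b' ∧ IsE T c := by
    intro z hz
    obtain ⟨d, hd, b, hb, rfl⟩ := hdec z hz.1
    have hbE := hBE b hb
    have hdE : IsE T d := by
      have h1 := hz.mul hbE.inv
      have h2 : d * b * b⁻¹ = d := by group
      rwa [h2] at h1
    rcases hc d hd (fun x hx => hdE.2.1 x (hDT hx)) hdE.2.2 with h1 | h1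
    · left
      rw [h1, one_mul]
      exact hb
    · right
      subst h1
      exact ⟨b, hb, rfl, hdE⟩
  have heE : ∀ b ∈ B, IsE T (y * b * y⁻¹ * b⁻¹) := fun b hb =>
    ((hBE b hb).conj hyN).mul (hBE b hb).inv
  -- multiplicativity
  have hmul : y * (b₁ * b₂) * y⁻¹ * (b₁ * b₂)⁻¹
      = (y * b₁ * y⁻¹ * b₁⁻¹) * (y * b₂ * y⁻¹ * b₂⁻¹) := by
    have h1 := (heE b₂ hb₂).2.1 b₁⁻¹ (T.inv_mem (hBT hb₁))
    calc y * (b₁ * b₂) * y⁻¹ * (b₁ * b₂)⁻¹
        = (y * b₁ * y⁻¹) * ((y * b₂ * y⁻¹ * b₂⁻¹) * b₁⁻¹) := by group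
      _ = (y * b₁ * y⁻¹) * (b₁⁻¹ * (y * b₂ * y⁻¹ * b₂⁻¹)) := by rw [h1]
      _ = _ := by group
  -- find `b` with `e(b) ∈ B`
  have hex : ∃ b ∈ B, b ≠ 1 ∧ y * b * y⁻¹ * b⁻¹ ∈ B := by
    by_cases h1 : y * b₁ * y⁻¹ * b₁⁻¹ ∈ B
    · exact ⟨b₁, hb₁, hb₁1, h1⟩
    by_cases h2 : y * b₂ * y⁻¹ * b₂⁻¹ ∈ B
    · exact ⟨b₂, hb₂, hb₂1, h2⟩
    have hne : b₁ * b₂ ≠ 1 := by
      intro h
      apply hb₁₂
      have h3 := hB2 b₂ hb₂
      rw [pow_two] at h3
      calc b₁ = b₁ * (b₂ * b₂) := by rw [h3, mul_one]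
        _ = (b₁ * b₂) * b₂ := by group
        _ = b₂ := by rw [h, one_mul]
    refine ⟨b₁ * b₂, B.mul_mem hb₁ hb₂, hne, ?_⟩
    rw [hmul]
    obtain ⟨b', hb', h3, hcE⟩ := (hE _ (heE b₁ hb₁)).resolve_left h1
    obtain ⟨b'', hb'', h4, -⟩ := (hE _ (heE b₂ hb₂)).resolve_left h2
    rw [h3, h4]
    have h5 := hcE.2.1 b' (hBT hb')
    have h6 := hcE.2.2
    rw [pow_two] at h6
    have h7 : c * b' * (c * b'') = (c * c) * (b' * b'') := by
      calc c * b' * (c * b'') = c * (b' * c) * b'' := by group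
        _ = c * (c * b') * b'' := by rw [h5]
        _ = _ := by group
    rw [h7, h6, one_mul]
    exact B.mul_mem hb' hb''
  obtain ⟨b, hb, hb1, hebB⟩ := hex
  by_cases he1 : y * b * y⁻¹ * b⁻¹ = 1
  · refine ⟨b, hb, hb1, ?_⟩
    have h1 : y * b * y⁻¹ = b := by
      have := he1
      rwa [mul_inv_eq_one] at this
    calc y * b = (y * b * y⁻¹) * y := by group
      _ = b * y := by rw [h1]
  · refine ⟨_, hebB, he1, ?_⟩
    set e := y * b * y⁻¹ * b⁻¹ with he
    have he2 : e * e = 1 := by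
      have := hB2 e hebB
      rwa [pow_two] at this
    have hy2b : y * y * b = b * (y * y) := by
      have := (hBE b hb).2.1 (y ^ 2) hy2
      rw [pow_two] at this
      exact this.symm
    have h1 : y * e * y⁻¹ = e⁻¹ := by
      have h2 : y * e * y⁻¹ = (y * y * b) * y⁻¹ * y⁻¹ * (y * b⁻¹ * y⁻¹) := by
        rw [he]; group
      rw [h2, hy2b]
      have h3 : e⁻¹ = b * (y * b⁻¹ * y⁻¹) := by
        rw [he]; group
      rw [h3]
      group
    have h3 : e⁻¹ = e := inv_eq_of_mul_eq_one_left he2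
    rw [h3] at h1
    calc y * e = (y * e * y⁻¹) * y := by group
      _ = e * y := by rw [h1]

end Core

/-! ### The non-abelian case -/

section NonAb

variable {G : Type*} [Group G] [Finite G]

/-- `D = ⟨w⟩ ∪ v⟨w⟩`, non-commutative. -/
structure CycData (D : Subgroup G) (w v : G) : Prop where
  hw : w ∈ D
  hv : v ∈ D
  hcov : ∀ x ∈ D, x ∈ Subgroup.zpowers w ∨ v⁻¹ * x ∈ Subgroup.zpowers w
  hnc : ∃ a ∈ D, ∃ b ∈ D, a * b ≠ b * a

theorem exists_inv_zpowers (w : G) :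
    ∃ c : G, ∀ γ ∈ Subgroup.zpowers w, γ ^ 2 = 1 → γ = 1 ∨ γ = c := by
  classical
  by_cases h : ∃ γ ∈ Subgroup.zpowers w, γ ≠ 1 ∧ γ ^ 2 = 1
  · obtain ⟨c, hcw, hc1, hc2⟩ := h
    refine ⟨c, ?_⟩
    intro γ hγ hγ2
    by_contra hcon
    push_neg at hcon
    haveI : Fintype (Subgroup.zpowers w) := Fintype.ofFinite _
    have hle := IsCyclic.card_pow_eq_one_le (α := Subgroup.zpowers w) (n := 2) (by norm_num)
    have hsub : ({1, ⟨c, hcw⟩, ⟨γ, hγ⟩} : Finset (Subgroup.zpowers w))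
        ⊆ Finset.univ.filter (fun a : Subgroup.zpowers w => a ^ 2 = 1) := by
      intro a ha
      simp only [Finset.mem_insert, Finset.mem_singleton] at ha
      rw [Finset.mem_filter]
      refine ⟨Finset.mem_univ _, ?_⟩
      rcases ha with rfl | rfl | rfl
      · simp
      · exact Subtype.ext hc2
      · exact Subtype.ext hγ2
    have hcard : ({1, ⟨c, hcw⟩, ⟨γ, hγ⟩} : Finset (Subgroup.zpowers w)).card = 3 := by
      apply Finset.card_eq_three.2
      refine ⟨1, ⟨c, hcw⟩, ⟨γ, hγ⟩, ?_, ?_, ?_, rfl⟩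
      · intro h
        exact hc1 (congrArg Subtype.val h).symm
      · intro h
        exact hcon.1 (congrArg Subtype.val h).symm
      · intro h
        exact hcon.2 (congrArg Subtype.val h).symm
    have := Finset.card_le_card hsub
    omega
  · exact ⟨1, fun γ hγ hγ2 => Or.inl (by
      by_contra hne
      exact h ⟨γ, hγ, hne, hγ2⟩)⟩

theorem CycData.central_inv {D : Subgroup G} {w v : G} (cd : CycData D w v) :
    ∃ c : G, ∀ d ∈ D, (∀ x ∈ D, d * x = x * d) → d ^ 2 = 1 → d = 1 ∨ d = c := by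
  obtain ⟨c, hc⟩ := exists_inv_zpowers w
  refine ⟨c, ?_⟩
  intro d hd hdc hd2
  refine hc d ?_ hd2
  by_contra hdw
  have hzwD : Subgroup.zpowers w ≤ D := Subgroup.zpowers_le.2 cd.hw
  have hu := (cd.hcov d hd).resolve_left hdw
  have hzw : ∀ a ∈ Subgroup.zpowers w, ∀ b ∈ Subgroup.zpowers w, a * b = b * a := by
    rintro _ ⟨i, rfl⟩ _ ⟨j, rfl⟩
    exact (zpow_mul_comm w i j)
  have hvc : ∀ γ ∈ Subgroup.zpowers w, v * γ = γ * v := by
    intro γ hγ
    have h1 := hzw _ hu γ hγ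
    have h2 := hdc γ (hzwD hγ)
    have h3 : v = d * (v⁻¹ * d)⁻¹ := by group
    rw [h3]
    calc d * (v⁻¹ * d)⁻¹ * γ = d * ((v⁻¹ * d)⁻¹ * γ) := by group
      _ = d * (γ * (v⁻¹ * d)⁻¹) := by
        have : (v⁻¹ * d)⁻¹ * γ = γ * (v⁻¹ * d)⁻¹ := by
          have h4 := h1
          have h5 : (v⁻¹ * d)⁻¹ * (v⁻¹ * d * γ) * (v⁻¹ * d)⁻¹ = γ * (v⁻¹ * d)⁻¹ := by group
          rw [h4] at h5
          rw [← h5]
          group
        rw [this]
      _ = (d * γ) * (v⁻¹ * d)⁻¹ := by group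
      _ = (γ * d) * (v⁻¹ * d)⁻¹ := by rw [h2]
      _ = _ := by group
  have hform : ∀ a ∈ D, ∃ γ ∈ Subgroup.zpowers w, a = γ ∨ a = v * γ := by
    intro a ha
    rcases cd.hcov a ha with h | h
    · exact ⟨a, h, Or.inl rfl⟩
    · exact ⟨_, h, Or.inr (by group)⟩
  obtain ⟨a, ha, b, hb, hab⟩ := cd.hnc
  apply hab
  obtain ⟨γ, hγ, h1⟩ := hform a ha
  obtain ⟨δ, hδ, h2⟩ := hform b hb
  have hγδ := hzw γ hγ δ hδ
  have hvγ := hvc γ hγ
  have hvδ := hvc δ hδ
  rcases h1 with h1 | h1 <;> rcases h2 with h2 | h2 <;> rw [h1, h2]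
  · exact hγδ
  · calc γ * (v * δ) = (γ * v) * δ := by group
      _ = (v * γ) * δ := by rw [hvγ]
      _ = v * (γ * δ) := by group
      _ = v * (δ * γ) := by rw [hγδ]
      _ = _ := by group
  · calc v * γ * δ = v * (γ * δ) := by group
      _ = v * (δ * γ) := by rw [hγδ]
      _ = (v * δ) * γ := by group
      _ = (δ * v) * γ := by rw [hvδ]
      _ = _ := by group
  · calc v * γ * (v * δ) = v * (γ * v) * δ := by group
      _ = v * (v * γ) * δ := by rw [hvγ]
      _ = v * v * (γ * δ) := by group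
      _ = v * v * (δ * γ) := by rw [hγδ]
      _ = v * (v * δ) * γ := by group
      _ = v * (δ * v) * γ := by rw [hvδ]
      _ = _ := by group

/-- Abelian subgroup of index two with few involutions. -/
theorem bound_abelian (K B' : Subgroup G) (c : G) (hK : ∀ a ∈ K, ∀ b ∈ K, a * b = b * a)
    (hB' : Nat.card B' ≤ 4) (h2 : ∀ x ∈ K, x ^ 2 = 1 → x ∈ B' ∨ c⁻¹ * x ∈ B')
    {H N : Subgroup G} (hidx : K.relIndex H ≤ 2) (hNH : N ≤ H) (hsq : ∀ x ∈ H, x ^ 2 ∈ N) :
    N.relIndex H ≤ 16 := by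
  classical
  let H₀ : Subgroup G := K ⊓ H
  let A : Subgroup G :=
    { carrier := {x | x ∈ H₀ ∧ x ^ 2 = 1}
      mul_mem' := by
        rintro a b ⟨ha, ha2⟩ ⟨hb, hb2⟩
        refine ⟨H₀.mul_mem ha hb, ?_⟩
        rw [(show Commute a b from hK a ha.1 b hb.1).mul_pow, ha2, hb2, one_mul]
      one_mem' := ⟨H₀.one_mem, one_pow 2⟩
      inv_mem' := by
        rintro a ⟨ha, ha2⟩
        refine ⟨H₀.inv_mem ha, ?_⟩
        rw [inv_pow, ha2, inv_one] }
  have hAH : A ≤ H₀ := fun x hx => hx.1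
  have hA8 : Nat.card A ≤ 8 := by
    have h3 := relIndex_le_two_of A B' c (fun x hx => h2 x hx.1.1 hx.2)
    have h4 := card_eq_relIndex_mul_inf B' A
    have h5 : Nat.card ↥(B' ⊓ A) ≤ 4 := (Subgroup.card_le_of_le inf_le_left).trans hB'
    rw [h4]
    exact Nat.mul_le_mul h3 h5
  let N₀ : Subgroup G := N ⊓ H₀
  have h6 : A.relIndex H₀ ≤ Nat.card N₀ := by
    let C := A.subgroupOf H₀
    let f : (H₀ ⧸ C) → N₀ := fun q => ⟨(q.out : G) ^ 2, hsq _ q.out.2.2, H₀.pow_mem q.out.2 2⟩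
    have hf : Function.Injective f := by
      intro q₁ q₂ hq
      have h1 : (q₁.out : G) ^ 2 = (q₂.out : G) ^ 2 := congrArg Subtype.val hq
      rw [← q₁.out_eq', ← q₂.out_eq', QuotientGroup.eq, Subgroup.mem_subgroupOf]
      simp only [Subgroup.coe_mul, InvMemClass.coe_inv]
      have hm := H₀.mul_mem (H₀.inv_mem q₁.out.2) q₂.out.2
      refine ⟨hm, ?_⟩
      have hcm : Commute ((q₁.out : G)⁻¹) (q₂.out : G) :=
        hK _ (K.inv_mem q₁.out.2.1) _ q₂.out.2.1
      rw [hcm.mul_pow, inv_pow, h1]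
      group
    have := Nat.card_le_card_of_injective f hf
    simpa [Subgroup.relIndex, Subgroup.index] using this
  have h7 := card_eq_relIndex_mul (S := G) hAH
  have h8 : Nat.card N₀ ≤ Nat.card N := Subgroup.card_le_of_le inf_le_left
  have h9 := card_eq_relIndex_mul_inf K H
  have h10 := card_eq_relIndex_mul (S := G) hNH
  have hNpos : 0 < Nat.card N := Nat.card_pos
  have h11 : Nat.card H₀ ≤ Nat.card N * 8 := by
    rw [h7]
    exact Nat.mul_le_mul (h6.trans h8) hA8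
  have h12 : Nat.card H ≤ 2 * (Nat.card N * 8) := by
    rw [h9]
    exact Nat.mul_le_mul hidx h11
  rw [h10] at h12
  have h13 : N.relIndex H * Nat.card N ≤ 16 * Nat.card N := by
    calc _ ≤ 2 * (Nat.card N * 8) := h12
      _ = _ := by ring
  exact Nat.le_of_mul_le_mul_right h13 hNpos

theorem nonab {T D B : Subgroup G} (Q : Sylow 2 G) (hQ : T ≤ Q)
    (hprod : Cfsg.IsInternalDirectProduct D B T) (hB4 : Nat.card B = 4)
    (hB2 : ∀ b ∈ B, b ^ 2 = 1) (hcent : ∀ b ∈ B, b ≠ 1 → ∀ y ∈ (Q : Subgroup G), y * b = b * y → y ∈ T)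
    {b₁ b₂ : G} (hb₁ : b₁ ∈ B) (hb₂ : b₂ ∈ B) (hb₁1 : b₁ ≠ 1) (hb₂1 : b₂ ≠ 1) (hb₁₂ : b₁ ≠ b₂)
    {w v : G} (cd : CycData D w v) : SqBound 4 (Q : Subgroup G) := by
  obtain ⟨c, hc⟩ := cd.central_inv
  have hTQ : T = (Q : Subgroup G) := by
    by_contra hne
    obtain ⟨y, hyQ, hyT, hy2, hyN⟩ := exists_y hQ Q.isPGroup' hne
    obtain ⟨b, hb, hb1, hyb⟩ := core hprod hc hB2 hb₁ hb₂ hb₁1 hb₂1 hb₁₂ hyN hy2
    exact hyT (hcent b hb hb1 y hyQ hyb)
  obtain ⟨hDT, hBT, hcomm, hinf, hsup⟩ := hprod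
  have hzwD : Subgroup.zpowers w ≤ D := Subgroup.zpowers_le.2 cd.hw
  have hcomm' : ∀ a ∈ Subgroup.zpowers w, ∀ b ∈ B, a * b = b * a := fun a ha => hcomm a (hzwD ha)
  obtain ⟨c', hc'⟩ := exists_inv_zpowers w
  let K : Subgroup G := Subgroup.zpowers w ⊔ B
  have hBab : ∀ a ∈ B, ∀ b ∈ B, a * b = b * a := by
    intro a ha b hb
    have hexp : ∀ x : B, x ^ 2 = 1 := by
      intro x
      apply Subtype.ext
      simpa using hB2 x x.2
    have := comm_of_exp_two hexp ⟨a, ha⟩ ⟨b, hb⟩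
    exact congrArg Subtype.val this
  have hzw : ∀ a ∈ Subgroup.zpowers w, ∀ b ∈ Subgroup.zpowers w, a * b = b * a := by
    rintro _ ⟨i, rfl⟩ _ ⟨j, rfl⟩
    exact (zpow_mul_comm w i j)
  have hKab : ∀ a ∈ K, ∀ b ∈ K, a * b = b * a := by
    intro a ha b hb
    obtain ⟨γ, hγ, β, hβ, rfl⟩ := mem_sup_comm hcomm' ha
    obtain ⟨δ, hδ, ε, hε, rfl⟩ := mem_sup_comm hcomm' hb
    calc γ * β * (δ * ε) = γ * (β * δ) * ε := by group
      _ = γ * (δ * β) * ε := by rw [hcomm' δ hδ β hβ]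
      _ = (γ * δ) * (β * ε) := by group
      _ = (δ * γ) * (ε * β) := by rw [hzw γ hγ δ hδ, hBab β hβ ε hε]
      _ = δ * (γ * ε) * β := by group
      _ = δ * (ε * γ) * β := by rw [hcomm' γ hγ ε hε]
      _ = _ := by group
  have hKT2 : ∀ x ∈ K, x ^ 2 = 1 → x ∈ B ∨ c'⁻¹ * x ∈ B := by
    intro x hx hx2
    obtain ⟨γ, hγ, β, hβ, rfl⟩ := mem_sup_comm hcomm' hx
    have h1 : γ ^ 2 = 1 := by
      have hcm : Commute γ β := hcomm' γ hγ β hβ
      rw [hcm.mul_pow, hB2 β hβ, mul_one] at hx2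
      exact hx2
    rcases hc' γ hγ h1 with rfl | rfl
    · left
      rwa [one_mul]
    · right
      have : γ⁻¹ * (γ * β) = β := by group
      rwa [this]
  have hidx : ∀ H : Subgroup G, H ≤ T → K.relIndex H ≤ 2 := by
    intro H hH
    apply relIndex_le_two_of H K v
    intro x hx
    have hxT := hH hx
    rw [← hsup] at hxT
    obtain ⟨d, hd, β, hβ, rfl⟩ := mem_sup_comm hcomm hxT
    have hβK : β ∈ K := Subgroup.mem_sup_right hβ
    rcases cd.hcov d hd with h1 | h1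
    · left
      exact K.mul_mem (Subgroup.mem_sup_left h1) hβK
    · right
      have h2 : v⁻¹ * (d * β) = (v⁻¹ * d) * β := by group
      rw [h2]
      exact K.mul_mem (Subgroup.mem_sup_left h1) hβK
  intro H₁ N₁ hN₁ hsq
  let ι := (Q : Subgroup G).subtype
  have hinj : Function.Injective ι := (Q : Subgroup G).subtype_injective
  have h1 : (N₁.map ι).relIndex (H₁.map ι) = N₁.relIndex H₁ :=
    Subgroup.relIndex_map_map_of_injective _ _ hinj
  rw [← h1]
  refine (bound_abelian K B c' hKab (by rw [hB4]) hKT2 (hidx _ ?_) (Subgroup.map_mono hN₁) ?_).trans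
    (by norm_num)
  · rintro _ ⟨x, -, rfl⟩
    rw [hTQ]
    exact x.2
  · rintro _ ⟨x, hx, rfl⟩
    refine ⟨x ^ 2, hsq x hx, ?_⟩
    simp

/-- Rotations of a dihedral group. -/
theorem cyc_of_dihedral {D : Subgroup G} {m : ℕ} (hm : 3 ≤ m) (e : D ≃* DihedralGroup m) :
    ∃ w v, CycData D w v := by
  haveI : NeZero m := ⟨by omega⟩
  refine ⟨(e.symm (DihedralGroup.r 1) : G), (e.symm (DihedralGroup.sr 0) : G), ?_⟩
  refine ⟨(e.symm _).2, (e.symm _).2, ?_, ?_⟩
  · intro x hx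
    have hx0 : x = (e.symm (e ⟨x, hx⟩) : G) := by simp
    rcases h : e ⟨x, hx⟩ with i | i
    · left
      rw [h] at hx0
      rw [hx0]
      have h1 : (DihedralGroup.r i : DihedralGroup m) = DihedralGroup.r 1 ^ i.val := by
        rw [DihedralGroup.r_one_pow]
        simp
      rw [h1, map_pow, Subgroup.coe_pow]
      exact Subgroup.npow_mem_zpowers _ _
    · right
      rw [h] at hx0
      rw [hx0]
      have h2 : ((e.symm (DihedralGroup.sr 0) : G))⁻¹ * (e.symm (DihedralGroup.sr i) : G)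
          = (e.symm ((DihedralGroup.sr 0)⁻¹ * DihedralGroup.sr i) : G) := by
        rw [map_mul, map_inv]
        simp
      rw [h2]
      have h3 : ((DihedralGroup.sr 0 : DihedralGroup m)⁻¹ * DihedralGroup.sr i)
          = DihedralGroup.r 1 ^ i.val := by
        rw [DihedralGroup.r_one_pow, DihedralGroup.inv_sr, DihedralGroup.sr_mul_sr]
        simp
      rw [h3, map_pow, Subgroup.coe_pow]
      exact Subgroup.npow_mem_zpowers _ _
  · refine ⟨_, (e.symm (DihedralGroup.r 1)).2, _, (e.symm (DihedralGroup.sr 0)).2, ?_⟩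
    intro h
    have h1 : e.symm (DihedralGroup.r 1) * e.symm (DihedralGroup.sr 0)
        = e.symm (DihedralGroup.sr 0) * e.symm (DihedralGroup.r 1) := Subtype.ext h
    rw [← map_mul, ← map_mul] at h1
    have h2 := e.symm.injective h1
    simp only [DihedralGroup.r_mul_sr, DihedralGroup.sr_mul_r, DihedralGroup.sr.injEq] at h2
    have h3 : (2 : ZMod m) = 0 := by
      have h4 : (0 : ZMod m) - 1 = 0 + 1 := h2
      have h5 : (2 : ZMod m) = (0 + 1) - (0 - 1) := by ring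
      rw [h5, h4]
      ring
    have h6 : m ∣ 2 := by
      have := (ZMod.natCast_eq_zero_iff 2 m).1 (by exact_mod_cast h3)
      exact this
    have := Nat.le_of_dvd (by norm_num) h6
    omega

/-- The cyclic subgroup of index two of a quasi-dihedral group. -/
theorem cyc_of_qd {D : Subgroup G} (h : Cfsg.IsQuasiDihedral D) : ∃ w v, CycData D w v := by
  obtain ⟨n, hn, hcard, x, y, hx, hy, hyx⟩ := h
  have hnc : y * x ≠ x * y := by
    intro hc
    have h1 : y * x * y⁻¹ = x := by rw [hc]; group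
    rw [hyx] at h1
    -- `x ^ (2^(n-1)-1) = x ^ 1`
    have h2 : x ^ (2 ^ (n - 1) - 1) = x ^ 1 := by rw [h1, pow_one]
    have hlt : 2 ^ (n - 1) < 2 ^ n := Nat.pow_lt_pow_right (by norm_num) (by omega)
    have hpos : 4 ≤ 2 ^ (n - 1) := by
      have : 2 ^ 2 ≤ 2 ^ (n - 1) := Nat.pow_le_pow_right (by norm_num) (by omega)
      simpa using this
    have h3 := pow_injOn_Iio_orderOf (x := x) (show 2 ^ (n - 1) - 1 ∈ Set.Iio (orderOf x) by
        rw [Set.mem_Iio, hx]; omega) (show 1 ∈ Set.Iio (orderOf x) by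
        rw [Set.mem_Iio, hx]; omega) h2
    omega
  have hidx : (Subgroup.zpowers x).index = 2 := by
    have h1 := Subgroup.card_mul_index (Subgroup.zpowers x)
    rw [Nat.card_zpowers, hx, hcard, pow_succ] at h1
    exact Nat.eq_of_mul_eq_mul_left (by positivity) h1
  have hyz : y ∉ Subgroup.zpowers x := by
    intro hmem
    obtain ⟨i, hi⟩ := hmem
    apply hnc
    rw [← hi]
    have h1 := zpow_mul_comm x i 1
    rw [zpow_one] at h1
    exact h1
  refine ⟨(x : G), (y : G), x.2, y.2, ?_, ?_⟩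
  · intro a ha
    by_cases h1 : (⟨a, ha⟩ : D) ∈ Subgroup.zpowers x
    · left
      obtain ⟨i, hi⟩ := h1
      refine ⟨i, ?_⟩
      have := congrArg Subtype.val hi
      simpa using this
    · right
      have h2 : y⁻¹ * ⟨a, ha⟩ ∈ Subgroup.zpowers x := by
        rw [Subgroup.mul_mem_iff_of_index_two hidx]
        simp [h1, hyz]
      obtain ⟨i, hi⟩ := h2
      refine ⟨i, ?_⟩
      have := congrArg Subtype.val hi
      simpa using this
  · refine ⟨_, y.2, _, x.2, ?_⟩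
    intro h
    exact hnc (Subtype.ext h)

/-- The case `D ≅ E₄`. -/
theorem e16_case {T D B : Subgroup G} (Q : Sylow 2 G) (hQ : T ≤ Q)
    (hprod : Cfsg.IsInternalDirectProduct D B T) (hB4 : Nat.card B = 4)
    (hB2 : ∀ b ∈ B, b ^ 2 = 1) (hcent : ∀ b ∈ B, b ≠ 1 → ∀ y ∈ (Q : Subgroup G), y * b = b * y → y ∈ T)
    (hD4 : Nat.card D = 4) (hD2 : ∀ d ∈ D, d ^ 2 = 1) : SqBound 4 (Q : Subgroup G) := by
  haveI : Fact (Nat.Prime 2) := ⟨Nat.prime_two⟩
  obtain ⟨hDT, hBT, hcomm, hinf, hsup⟩ := hprod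
  have hdec : ∀ t ∈ T, ∃ d ∈ D, ∃ b ∈ B, t = d * b := by
    intro t ht
    rw [← hsup] at ht
    exact mem_sup_comm hcomm ht
  have hT2 : ∀ t ∈ T, t ^ 2 = 1 := by
    intro t ht
    obtain ⟨d, hd, b, hb, rfl⟩ := hdec t ht
    have hcm : Commute d b := hcomm d hd b hb
    rw [hcm.mul_pow, hD2 d hd, hB2 b hb, one_mul]
  have hTab : ∀ a ∈ T, ∀ b ∈ T, a * b = b * a := by
    intro a ha b hb
    have hexp : ∀ x : T, x ^ 2 = 1 := by
      intro x
      apply Subtype.ext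
      simpa using hT2 x x.2
    have := comm_of_exp_two hexp ⟨a, ha⟩ ⟨b, hb⟩
    exact congrArg Subtype.val this
  have hT16 : Nat.card T = 16 := by
    apply le_antisymm
    · let f : D × B → T := fun p => ⟨(p.1 : G) * (p.2 : G), T.mul_mem (hDT p.1.2) (hBT p.2.2)⟩
      have hf : Function.Surjective f := by
        rintro ⟨t, ht⟩
        obtain ⟨d, hd, b, hb, rfl⟩ := hdec t ht
        exact ⟨(⟨d, hd⟩, ⟨b, hb⟩), rfl⟩
      have := Nat.card_le_card_of_surjective f hf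
      rw [Nat.card_prod, hD4, hB4] at this
      exact this
    · have := card_mul_card_le D B T hDT hBT hinf
      rw [hD4, hB4] at this
      exact this
  have hcardT : Nat.card (T.subgroupOf (Q : Subgroup G)) = 16 := by
    rw [← hT16]
    exact Nat.card_congr (Subgroup.subgroupOfEquivOfLe hQ).toEquiv
  have hcardB : Nat.card (B.subgroupOf (Q : Subgroup G)) = 4 := by
    rw [← hB4]
    exact Nat.card_congr (Subgroup.subgroupOfEquivOfLe (hBT.trans hQ)).toEquiv
  refine E16Data.sqBound (T := T.subgroupOf (Q : Subgroup G)) (B := B.subgroupOf (Q : Subgroup G))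
    ⟨?_, ?_, hcardT, ?_, hcardB, ?_⟩ Q.isPGroup'
  · intro a ha b hb
    exact Subtype.ext (hTab _ ha _ hb)
  · intro a ha
    apply Subtype.ext
    simpa using hT2 _ ha
  · exact Subgroup.comap_mono hBT
  · intro b hb hb1 x hx
    refine hcent _ hb ?_ _ x.2 (congrArg Subtype.val hx)
    intro h
    exact hb1 (Subtype.ext h)

end NonAb


/-- Let G be a finite group, x an involution and T ≤ G a Sylow 2-subgroup of C_G(x) (T ≤ C_G(x) with |C_G(x) : T| odd) which is the internal direct product of a subgroup D that is dihedral (of order ≥ 4) or quasi-dihedral and a Klein four-subgroup B. Suppose that for every involution b ∈ B, T ≤ C_G(b) with |C_G(b) : T| odd. Then every section of G has 2-rank at most 4. -/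
theorem result {G : Type*} [Group G] [Finite G] (x : G) (hx : orderOf x = 2) (T D B : Subgroup G) (hT : IsPGroup 2 T) (hTx : T ≤ Subgroup.centralizer ({x} : Set G)) (hTxi : Odd (T.relIndex (Subgroup.centralizer ({x} : Set G)))) (hprod : Cfsg.IsInternalDirectProduct D B T) (hD : (∃ m : ℕ, 2 ≤ m ∧ Nonempty (D ≃* DihedralGroup m)) ∨ Cfsg.IsQuasiDihedral D) (hB : IsKleinFour B) (hTb : ∀ b ∈ B, orderOf b = 2 → T ≤ Subgroup.centralizer ({b} : Set G) ∧ Odd (T.relIndex (Subgroup.centralizer ({b} : Set G)))) : Cfsg.SectionalPRankLE 2 4 G := by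
  classical
  haveI : Fact (Nat.Prime 2) := ⟨Nat.prime_two⟩
  obtain ⟨Q, hQ⟩ := hT.exists_le_sylow
  apply sectional_of_sylow Q
  have hB4 : Nat.card B = 4 := IsKleinFour.card_four
  have hBexp : ∀ b : B, b ^ 2 = 1 := by
    intro b
    have h1 := Monoid.pow_exponent_eq_one b
    rwa [IsKleinFour.exponent_two] at h1
  have hB2 : ∀ b ∈ B, b ^ 2 = 1 := by
    intro b hb
    have := congrArg Subtype.val (hBexp ⟨b, hb⟩)
    simpa using this
  have hord : ∀ b ∈ B, b ≠ 1 → orderOf b = 2 := by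
    intro b hb hb1
    exact orderOf_eq_prime (hB2 b hb) hb1
  have hcent : ∀ b ∈ B, b ≠ 1 → ∀ y ∈ (Q : Subgroup G), y * b = b * y → y ∈ T := by
    intro b hb hb1 y hy hyb
    obtain ⟨hTC, hodd⟩ := hTb b hb (hord b hb hb1)
    let A : Subgroup G := Subgroup.centralizer ({b} : Set G) ⊓ (Q : Subgroup G)
    have hTA : T ≤ A := le_inf hTC hQ
    have hAC : A ≤ Subgroup.centralizer ({b} : Set G) := inf_le_left
    have h1 : T.relIndex A * A.relIndex (Subgroup.centralizer ({b} : Set G))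
        = T.relIndex (Subgroup.centralizer ({b} : Set G)) := Subgroup.relIndex_mul_relIndex _ _ _ hTA hAC
    have hAp : IsPGroup 2 A := Q.isPGroup'.to_le inf_le_right
    obtain ⟨k, hk⟩ := IsPGroup.iff_card.1 hAp
    have h2 : T.relIndex A ∣ 2 ^ k := by
      rw [← hk, card_eq_relIndex_mul (S := G) hTA]
      exact dvd_mul_right _ _
    obtain ⟨j, -, hj⟩ := (Nat.dvd_prime_pow Nat.prime_two).1 h2
    have h3 : T.relIndex A = 1 := by
      rw [hj] at h1 ⊢
      rcases j with _ | j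
      · simp
      · exfalso
        have h4 : Even (T.relIndex (Subgroup.centralizer ({b} : Set G))) := by
          rw [← h1, pow_succ]
          exact Even.mul_right (Even.mul_left (by decide) _) _
        exact (Nat.not_even_iff_odd.2 hodd) h4
    rw [Subgroup.relIndex_eq_one] at h3
    exact h3 ⟨Subgroup.mem_centralizer_singleton_iff.2 hyb, hy⟩
  -- two distinct non-identity elements of `B`
  obtain ⟨b₁, b₂, hb₁, hb₂, hb₁1, hb₂1, hb₁₂⟩ : ∃ b₁ b₂ : G, b₁ ∈ B ∧ b₂ ∈ B ∧ b₁ ≠ 1 ∧ b₂ ≠ 1 ∧ b₁ ≠ b₂ := by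
    haveI : Fintype B := Fintype.ofFinite _
    have h1 : 2 < Fintype.card B := by
      rw [← Nat.card_eq_fintype_card, hB4]
      norm_num
    obtain ⟨a, b, c, hab, hac, hbc⟩ := Fintype.two_lt_card_iff.1 h1
    refine ⟨(a⁻¹ * b : B), (a⁻¹ * c : B), (a⁻¹ * b).2, (a⁻¹ * c).2, ?_, ?_, ?_⟩
    · intro h
      have h2 : a⁻¹ * b = 1 := Subtype.ext h
      rw [inv_mul_eq_one] at h2
      exact hab h2
    · intro h
      have h2 : a⁻¹ * c = 1 := Subtype.ext h
      rw [inv_mul_eq_one] at h2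
      exact hac h2
    · intro h
      have h2 : a⁻¹ * b = a⁻¹ * c := Subtype.ext h
      exact hbc (mul_left_cancel h2)
  rcases hD with ⟨m, hm, ⟨e⟩⟩ | hq
  · by_cases hm2 : m = 2
    · subst hm2
      refine e16_case Q hQ hprod hB4 hB2 hcent ?_ ?_
      · rw [Nat.card_congr e.toEquiv, DihedralGroup.nat_card]
      · intro d hd
        have h1 : ∀ x : DihedralGroup 2, x ^ 2 = 1 := by decide
        have h2 : e (⟨d, hd⟩ ^ 2) = 1 := by
          rw [map_pow]
          exact h1 _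
        have h3 := (map_eq_one_iff e e.injective).1 h2
        simpa using congrArg Subtype.val h3
    · obtain ⟨w, v, cd⟩ := cyc_of_dihedral (by omega) e
      exact nonab Q hQ hprod hB4 hB2 hcent hb₁ hb₂ hb₁1 hb₂1 hb₁₂ cd
  · obtain ⟨w, v, cd⟩ := cyc_of_qd hq
    exact nonab Q hQ hprod hB4 hB2 hcent hb₁ hb₂ hb₁1 hb₂1 hb₁₂ cd

end Cfsg.Agent.S1235
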