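import Mathlib
import Cfsg.Statements.S1236
import Cfsg.Agent.H28.QD

set_option autoImplicit false
open Cfsg

namespace Cfsg.Agent.S1236

/-- every subgroup of order four and exponent two is self-centralizing -/
def SelfCent (Q : Type*) [Group Q] : Prop :=
  ∀ V : Subgroup Q, Nat.card V = 4 → (∀ v ∈ V, v * v = 1) → ∀ s : Q, (∀ v ∈ V, s * v = v * s) → s ∈ V

lemma selfCent_of_equiv {Q Q' : Type*} [Group Q] [Group Q'] (e : Q ≃* Q') (h : SelfCent Q') :
    SelfCent Q := by
  intro V hV hV2 s hs
  have := h (V.map e.toMonoidHom) ?_ ?_ (e s) ?_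
  · obtain ⟨v, hv, hv'⟩ := this
    have : v = s := e.injective hv'
    exact this ▸ hv
  · rw [← hV]; exact Nat.card_congr (Subgroup.equivMapOfInjective V _ e.injective).symm.toEquiv
  · rintro _ ⟨v, hv, rfl⟩
    show e v * e v = 1
    rw [← map_mul, hV2 v hv, map_one]
  · rintro _ ⟨v, hv, rfl⟩
    show e s * e v = e v * e s
    rw [← map_mul, hs v hv, map_mul]

lemma two_tors {m : ℕ} [NeZero m] (a b : ZMod m) (ha : 2 * a = 0) (hb : 2 * b = 0) (ha0 : a ≠ 0)
    (hb0 : b ≠ 0) : a = b := by
  have key : ∀ a : ZMod m, 2 * a = 0 → a ≠ 0 → 2 * a.val = m := by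
    intro a ha ha0
    have h1 : ((2 * a.val : ℕ) : ZMod m) = 0 := by
      push_cast
      rw [ZMod.natCast_zmod_val, ha]
    rw [ZMod.natCast_eq_zero_iff] at h1
    obtain ⟨q, hq⟩ := h1
    have hlt := ZMod.val_lt a
    have hm : 0 < m := Nat.pos_of_ne_zero (NeZero.ne m)
    have hval : a.val ≠ 0 := by
      intro h
      exact ha0 ((ZMod.val_eq_zero a).mp h)
    have hq2 : q < 2 := by
      by_contra hq2
      push Not at hq2
      have : m * 2 ≤ m * q := Nat.mul_le_mul_left _ hq2
      omega
    interval_cases q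
    · omega
    · omega
  have h1 := key a ha ha0
  have h2 := key b hb hb0
  apply ZMod.val_injective
  omega

lemma card_le_two_of_subset {Q : Type*} [Group Q] {T : Subgroup Q} {a b : Q}
    (hT : ∀ t ∈ T, t = a ∨ t = b) : Nat.card T ≤ 2 := by
  classical
  have hf : ((T : Set Q) ⊆ ({a, b} : Finset Q)) := by
    intro t ht
    simpa using hT t ht
  have := Set.ncard_le_ncard hf (Finset.finite_toSet _)
  rw [Set.ncard_coe_finset] at this
  have h2 : ({a, b} : Finset Q).card ≤ 2 := Finset.card_le_two
  have h3 : Nat.card T = (T : Set Q).ncard := rfl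
  omega

lemma dihedral_selfCent (m : ℕ) [NeZero m] : SelfCent (DihedralGroup m) := by
  intro V hV hV2 s hs
  open DihedralGroup in
  -- a reflection in `V`
  have hrefl : ∃ i : ZMod m, sr i ∈ V := by
    by_contra hno
    push Not at hno
    have hrot : ∀ v ∈ V, ∃ j : ZMod m, v = r j ∧ 2 * j = 0 := by
      intro v hv
      rcases v with j | j
      · refine ⟨j, rfl, ?_⟩
        have := hV2 _ hv
        rw [r_mul_r, show (r (j + j) : DihedralGroup m) = 1 ↔ r (j + j) = r 0 from Iff.rfl] at this
        have h := r.inj this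
        rw [two_mul]; exact h
      · exact absurd hv (hno j)
    by_cases hne : ∃ v ∈ V, v ≠ 1
    · obtain ⟨v, hv, hv1⟩ := hne
      obtain ⟨j, rfl, hj⟩ := hrot v hv
      have hj0 : j ≠ 0 := by
        rintro rfl
        exact hv1 rfl
      have : Nat.card V ≤ 2 := by
        apply card_le_two_of_subset (a := 1) (b := r j)
        intro t ht
        obtain ⟨k, rfl, hk⟩ := hrot t ht
        by_cases hk0 : k = 0
        · left; rw [hk0]; rfl
        · right; rw [two_tors k j hk hj hk0 hj0]
      omega
    · push Not at hne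
      have : Nat.card V ≤ 2 := by
        apply card_le_two_of_subset (a := 1) (b := 1)
        intro t ht
        left; exact hne t ht
      omega
  open DihedralGroup in
  obtain ⟨i, hi⟩ := hrefl
  open DihedralGroup in
  -- a further element
  have hnext : ∃ u ∈ V, u ≠ 1 ∧ u ≠ sr i := by
    by_contra hno
    push Not at hno
    have : Nat.card V ≤ 2 := by
      apply card_le_two_of_subset (a := 1) (b := sr i)
      intro t ht
      by_cases h1 : t = 1
      · left; exact h1
      · right; exact hno t ht h1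
    omega
  open DihedralGroup in
  obtain ⟨u, hu, hu1, hui⟩ := hnext
  open DihedralGroup in
  -- a non-trivial rotation in `V`
  have hrot : ∃ k : ZMod m, k ≠ 0 ∧ 2 * k = 0 ∧ r k ∈ V := by
    have hcomm : u * sr i = sr i * u := by
      have huv := hV2 _ (V.mul_mem hu hi)
      have hu2 := hV2 _ hu
      have hi2 := hV2 _ hi
      calc u * sr i = (u * sr i) * (sr i * sr i)⁻¹ * (u * u)⁻¹ * (u * u) := by simp [hi2, hu2]
        _ = sr i * u := by
          have : u * sr i * (u * sr i) = 1 := huv
          have e : u * sr i = (u * sr i)⁻¹ := (inv_eq_of_mul_eq_one_left this).symm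
          rw [e]
          simp only [mul_inv_rev]
          have ei : (sr i : DihedralGroup m)⁻¹ = sr i := inv_eq_of_mul_eq_one_left hi2
          have eu : u⁻¹ = u := inv_eq_of_mul_eq_one_left hu2
          simp [hi2, hu2, ei, eu]
    rcases u with k | j
    · refine ⟨k, ?_, ?_, hu⟩
      · rintro rfl
        exact hu1 rfl
      · have := hV2 _ hu
        rw [r_mul_r, show (r (k + k) : DihedralGroup m) = 1 ↔ r (k + k) = r 0 from Iff.rfl] at this
        have h := r.inj this
        rw [two_mul]; exact h
    · refine ⟨i - j, ?_, ?_, ?_⟩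
      · intro h
        apply hui
        have : i = j := sub_eq_zero.mp h
        rw [this]
      · rw [sr_mul_sr, sr_mul_sr] at hcomm
        have h := r.inj hcomm
        rw [two_mul]
        linear_combination h
      · have := V.mul_mem hu hi
        rwa [sr_mul_sr] at this
  open DihedralGroup in
  obtain ⟨k, hk0, hk2, hkV⟩ := hrot
  open DihedralGroup in
  have hcs := hs _ hi
  open DihedralGroup in
  rcases s with l | j
  · rw [r_mul_sr, sr_mul_r] at hcs
    have h := sr.inj hcs
    have hl : 2 * l = 0 := by linear_combination -h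
    by_cases hl0 : l = 0
    · rw [hl0]; exact V.one_mem
    · rw [two_tors l k hl hk2 hl0 hk0]; exact hkV
  · rw [sr_mul_sr, sr_mul_sr] at hcs
    have h := r.inj hcs
    have hl : 2 * (j - i) = 0 := by
      linear_combination -h
    by_cases hl0 : j - i = 0
    · have : j = i := sub_eq_zero.mp hl0
      rw [this]; exact hi
    · have h3 := two_tors (j - i) k hl hk2 hl0 hk0
      have h4 := V.mul_mem hi hkV
      rw [sr_mul_r] at h4
      rw [show j = i + k by rw [← h3]; ring]
      exact h4

lemma qd_selfCent {Q : Type*} [Group Q] [Finite Q] (hQ : IsQuasiDihedral Q) : SelfCent Q := by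
  intro V hV hV2 s hs
  obtain ⟨n, x, y, hn, hc, h⟩ := H28.QD.exists_pres hQ
  have hK : IsKleinFour V := by
    refine ⟨hV, ?_⟩
    haveI : Fact (Nat.Prime 2) := ⟨Nat.prime_two⟩
    haveI : Nontrivial V := by
      apply Finite.one_lt_card_iff_nontrivial.mp
      omega
    rw [Monoid.exponent_eq_prime_iff Nat.prime_two]
    rintro ⟨v, hv⟩ hv1
    apply orderOf_eq_prime
    · apply Subtype.ext
      simpa [pow_two] using hV2 v hv
    · exact hv1
  obtain ⟨b, hb⟩ := h.klein_form V hK
  exact (h.change_y b).klein_centralizer hb s hs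

/-- Let R be a finite group, t a central involution of R such that R ⧸ ⟨t⟩ is dihedral (of order ≥ 4) or quasi-dihedral, and A ≤ R an elementary abelian subgroup of order 8 containing t. Then C_R(A) = A. -/
theorem result {R : Type*} [Group R] [Finite R] (t : R) (ht : orderOf t = 2) (htz : t ∈ Subgroup.center R) [(Subgroup.zpowers t).Normal] (hq : (∃ m : ℕ, 2 ≤ m ∧ Nonempty (R ⧸ Subgroup.zpowers t ≃* DihedralGroup m)) ∨ Cfsg.IsQuasiDihedral (R ⧸ Subgroup.zpowers t)) (A : Subgroup R) (hA : Cfsg.IsElementaryAbelian 2 A) (hA8 : Nat.card A = 8) (htA : t ∈ A) : Subgroup.centralizer (A : Set R) = A := by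
  have hself : SelfCent (R ⧸ Subgroup.zpowers t) := by
    rcases hq with ⟨m, hm, ⟨e⟩⟩ | hq
    · haveI : NeZero m := ⟨by omega⟩
      exact selfCent_of_equiv e (dihedral_selfCent m)
    · exact qd_selfCent hq
  have hzle : Subgroup.zpowers t ≤ A := (Subgroup.zpowers_le).mpr htA
  let f : R →* R ⧸ Subgroup.zpowers t := QuotientGroup.mk' _
  have hfker : ∀ x : R, f x = 1 ↔ x ∈ Subgroup.zpowers t := fun x => QuotientGroup.eq_one_iff x
  have hcard : Nat.card (A.map f) = 4 := by
    let g : A →* R ⧸ Subgroup.zpowers t := f.comp A.subtype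
    have hr : g.range = A.map f := by
      ext y
      simp [g, MonoidHom.mem_range, Subgroup.mem_map]
    have hk : g.ker = Subgroup.zpowers (⟨t, htA⟩ : A) := by
      ext ⟨x, hx⟩
      rw [MonoidHom.mem_ker, Subgroup.mem_zpowers_iff]
      show f x = 1 ↔ _
      rw [hfker, Subgroup.mem_zpowers_iff]
      constructor
      · rintro ⟨k, rfl⟩
        exact ⟨k, rfl⟩
      · rintro ⟨k, hk⟩
        exact ⟨k, congrArg Subtype.val hk⟩
    have h1 := Subgroup.card_mul_index g.ker
    rw [Subgroup.index_ker, hk, Nat.card_zpowers, hA8, hr] at h1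
    have h2 : orderOf (⟨t, htA⟩ : A) = 2 := by
      rw [Subgroup.orderOf_mk, ht]
    rw [h2] at h1
    omega
  have h2 : ∀ v ∈ A.map f, v * v = 1 := by
    rintro _ ⟨a, ha, rfl⟩
    rw [← map_mul, ← pow_two, hA.2 a ha, map_one]
  apply le_antisymm
  · intro c hc
    have hcs : ∀ v ∈ A.map f, f c * v = v * f c := by
      rintro _ ⟨a, ha, rfl⟩
      rw [← map_mul, ← map_mul]
      congr 1
      exact (Subgroup.mem_centralizer_iff.mp hc a ha).symm
    obtain ⟨a, ha, hac⟩ := hself _ hcard h2 (f c) hcs
    have h3 : f (a⁻¹ * c) = 1 := by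
      rw [map_mul, map_inv, hac, inv_mul_cancel]
    have h4 := hzle ((hfker _).mp h3)
    have h5 := A.mul_mem ha h4
    simpa using h5
  · intro a ha
    rw [Subgroup.mem_centralizer_iff]
    intro b hb
    have := hA.1.is_comm.comm (⟨b, hb⟩ : A) ⟨a, ha⟩
    exact congrArg Subtype.val this

end Cfsg.Agent.S1236
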