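import Mathlib
import Cfsg.Statements.S1241
import Cfsg.Agent.Lib.TwoFusionTransfer

set_option autoImplicit false
open Cfsg

namespace Cfsg.Agent.S1241

open Cfsg.Agent.Lib.TwoFusionTransfer

/-- Let G be a finite group, p a prime, H a subgroup of index prime to p, K a subgroup of H normal in H with H/K commutative, and g ∈ H ∖ K an element of p-power order such that for all integers m and all a ∈ G with a g^m a⁻¹ ∈ H one has a g^m a⁻¹ ∈ g^m K. Then g ∉ G'. -/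
theorem result {G : Type*} [Group G] [Finite G] {p : ℕ} [Fact p.Prime] (H K : Subgroup G) (hHK : K ≤ H) (hKn : (K.subgroupOf H).Normal) (hab : ∀ x ∈ H, ∀ y ∈ H, x * y * x⁻¹ * y⁻¹ ∈ K) (hidx : Nat.Coprime p H.index) (g : G) (hgH : g ∈ H) (hgK : g ∉ K) (hgp : ∃ k : ℕ, orderOf g = p ^ k) (hctrl : ∀ (m : ℤ) (a : G), a * g ^ m * a⁻¹ ∈ H → (a * g ^ m * a⁻¹) * (g ^ m)⁻¹ ∈ K) : g ∉ commutator G := by
  classical
  have hfi : H.FiniteIndex := inferInstance
  set M : Subgroup H := K.subgroupOf H with hM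
  haveI : M.Normal := hKn
  have hab' : ∀ x y : H, x * y * x⁻¹ * y⁻¹ ∈ M := by
    intro x y
    rw [hM, Subgroup.mem_subgroupOf]
    simpa using hab x x.2 y y.2
  letI : CommGroup (H ⧸ M) := commGroupOfComm H M hab'
  let ϕ : H →* (H ⧸ M) := QuotientGroup.mk' M
  have hV : MonoidHom.transfer ϕ g = ϕ ⟨g, hgH⟩ ^ H.index := by
    apply transfer_eq_pow_of_key
    intro k g₀ h
    have h1 := hctrl (k : ℤ) g₀⁻¹ (by simpa using h)
    have e : (⟨g₀⁻¹ * g ^ k * g₀, h⟩ : H) * (⟨g, hgH⟩ ^ k)⁻¹ ∈ M := by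
      rw [hM, Subgroup.mem_subgroupOf]
      simpa using h1
    rw [← map_pow]
    have h2 := (QuotientGroup.eq_one_iff ((⟨g₀⁻¹ * g ^ k * g₀, h⟩ : H) * (⟨g, hgH⟩ ^ k)⁻¹)).2 e
    have h3 : ϕ ((⟨g₀⁻¹ * g ^ k * g₀, h⟩ : H) * (⟨g, hgH⟩ ^ k)⁻¹) = 1 := h2
    rw [map_mul, map_inv] at h3
    exact mul_inv_eq_one.mp h3
  intro hg
  -- V kills the commutator subgroup
  have hker : commutator G ≤ (MonoidHom.transfer ϕ).ker := by
    rw [commutator_eq_closure, Subgroup.closure_le]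
    rintro _ ⟨a, b, rfl⟩
    rw [SetLike.mem_coe, MonoidHom.mem_ker, commutatorElement_def]
    simp [mul_comm]
  have h1 : MonoidHom.transfer ϕ g = 1 := hker hg
  rw [hV] at h1
  obtain ⟨k, hk⟩ := hgp
  have h2 : (ϕ ⟨g, hgH⟩) ^ p ^ k = 1 := by
    rw [← map_pow, ← hk]
    have : (⟨g, hgH⟩ : H) ^ orderOf g = 1 := by
      ext; simp [pow_orderOf_eq_one]
    rw [this, map_one]
  have h3 := eq_one_of_pow_coprime (p := p) h2 hidx.symm h1
  apply hgK
  have h4 : (⟨g, hgH⟩ : H) ∈ M := (QuotientGroup.eq_one_iff _).1 h3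
  rw [hM, Subgroup.mem_subgroupOf] at h4
  exact h4

end Cfsg.Agent.S1241
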