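import Mathlib
import Cfsg.Statements.S1242
import Cfsg.Agent.Lib.TwoFusionTransfer
import Cfsg.Agent.Lib.PResid

set_option autoImplicit false
open Cfsg

namespace Cfsg.Agent.S1242

open Cfsg.Agent.Lib.TwoFusionTransfer
open Cfsg.Agent.Lib.PResid

/-- Let G be a finite group, p a prime and H a subgroup of index prime to p such that any two elements of H of p-power order that are conjugate in G are conjugate in H. Then (O^p(G)·G') ∩ H = O^p(H)·H', where O^p denotes the subgroup generated by the elements of order prime to p. -/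
theorem result {G : Type*} [Group G] [Finite G] {p : ℕ} [Fact p.Prime] (H : Subgroup G) (hidx : Nat.Coprime p H.index) (hfus : ∀ g ∈ H, (∃ k : ℕ, orderOf g = p ^ k) → ∀ a : G, a * g * a⁻¹ ∈ H → ∃ h ∈ H, h * g * h⁻¹ = a * g * a⁻¹) : (Cfsg.pResidual p G ⊔ commutator G) ⊓ H = (Cfsg.pResidual p ↥H ⊔ commutator ↥H).map H.subtype := by
  classical
  have hp : p.Prime := Fact.out
  set M : Subgroup H := Cfsg.pResidual p ↥H ⊔ commutator ↥H with hM
  haveI : M.Normal := by
    rw [hM]
    infer_instance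
  have hab' : ∀ x y : H, x * y * x⁻¹ * y⁻¹ ∈ M := by
    intro x y
    apply (le_sup_right : commutator ↥H ≤ M)
    rw [commutator_def]
    exact Subgroup.commutator_mem_commutator (Subgroup.mem_top x) (Subgroup.mem_top y)
  letI : CommGroup (H ⧸ M) := commGroupOfComm H M hab'
  let ϕ : H →* (H ⧸ M) := QuotientGroup.mk' M
  -- every element of A has p-power order
  have hAp : ∀ a : H ⧸ M, ∃ k : ℕ, a ^ p ^ k = 1 := by
    intro a
    obtain ⟨x, rfl⟩ := QuotientGroup.mk'_surjective M a
    obtain ⟨y, z, hxyz, -, -, ⟨k, hk⟩, hz⟩ := exists_decomp (x : H) p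
    refine ⟨k, ?_⟩
    have hz1 : QuotientGroup.mk' M z = 1 :=
      (QuotientGroup.eq_one_iff z).2 ((le_sup_left : Cfsg.pResidual p ↥H ≤ M) (mem_pResidual_of_coprime hz))
    rw [hxyz, map_mul, hz1, mul_one, ← map_pow, ← hk, pow_orderOf_eq_one, map_one]
  -- V := transfer kills elements of coprime order
  let V : G →* (H ⧸ M) := MonoidHom.transfer ϕ
  have hVc : ∀ g : G, Nat.Coprime (orderOf g) p → V g = 1 := by
    intro g hg
    obtain ⟨k, hk⟩ := hAp (V g)
    have h1 : (V g) ^ orderOf g = 1 := by rw [← map_pow, pow_orderOf_eq_one, map_one]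
    exact eq_one_of_pow_coprime (p := p) hk hg h1
  have hker : Cfsg.pResidual p G ⊔ commutator G ≤ V.ker := by
    apply sup_le
    · unfold Cfsg.pResidual
      rw [Subgroup.closure_le]
      intro g hg
      exact hVc g hg
    · rw [commutator_eq_closure, Subgroup.closure_le]
      rintro _ ⟨a, b, rfl⟩
      rw [SetLike.mem_coe, MonoidHom.mem_ker, commutatorElement_def]
      simp
  -- V on p-elements of H
  have hVp : ∀ g : G, ∀ hg : g ∈ H, (∃ k : ℕ, orderOf g = p ^ k) → V g = ϕ ⟨g, hg⟩ ^ H.index := by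
    intro g hg hgp
    apply transfer_eq_pow_of_key
    intro k g₀ h
    have hpk : ∃ j : ℕ, orderOf (g ^ k) = p ^ j := by
      obtain ⟨n, hn⟩ := hgp
      have h1 : orderOf (g ^ k) ∣ p ^ n := by
        rw [← hn]; exact orderOf_dvd_of_pow_eq_one (by rw [← pow_mul, mul_comm, pow_mul, pow_orderOf_eq_one, one_pow])
      obtain ⟨j, -, hj⟩ := (Nat.dvd_prime_pow hp).1 h1
      exact ⟨j, hj⟩
    obtain ⟨c, hc, hce⟩ := hfus (g ^ k) (H.pow_mem hg k) hpk g₀⁻¹ (by simpa using h)
    have e : (⟨g₀⁻¹ * g ^ k * g₀, h⟩ : H) = ⟨c, hc⟩ * ⟨g, hg⟩ ^ k * ⟨c, hc⟩⁻¹ := by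
      ext
      simp only [Subgroup.coe_mul, Subgroup.coe_pow, Subgroup.coe_inv]
      rw [hce]; simp
    rw [e]
    simp only [map_mul, map_inv, map_pow]
    rw [mul_comm, inv_mul_cancel_left]
  apply le_antisymm
  · rintro x ⟨hx1, hx2⟩
    have hVx : V x = 1 := hker hx1
    obtain ⟨y, z, hxyz, hy, hz, hyp, hzc⟩ := exists_decomp x p
    have hyH : y ∈ H := (Subgroup.zpowers_le.2 hx2) hy
    have hzH : z ∈ H := (Subgroup.zpowers_le.2 hx2) hz
    have hVz : V z = 1 := hVc z hzc
    have hVy : V y = 1 := by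
      rw [hxyz, map_mul, hVz, mul_one] at hVx
      exact hVx
    rw [hVp y hyH hyp] at hVy
    obtain ⟨k, hk⟩ := hyp
    have h1 : (ϕ ⟨y, hyH⟩) ^ p ^ k = 1 := by
      rw [← map_pow, ← hk]
      have : (⟨y, hyH⟩ : H) ^ orderOf y = 1 := by
        ext; simp [pow_orderOf_eq_one]
      rw [this, map_one]
    have h2 := eq_one_of_pow_coprime (p := p) h1 hidx.symm hVy
    have h3 : (⟨y, hyH⟩ : H) ∈ M := (QuotientGroup.eq_one_iff _).1 h2
    have h4 : (⟨z, hzH⟩ : H) ∈ M := by
      apply (le_sup_left : Cfsg.pResidual p ↥H ≤ M)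
      apply mem_pResidual_of_coprime
      rw [Subgroup.orderOf_mk]
      exact hzc
    refine ⟨⟨y, hyH⟩ * ⟨z, hzH⟩, M.mul_mem h3 h4, ?_⟩
    simp [hxyz]
  · rw [le_inf_iff]
    constructor
    · rw [Subgroup.map_le_iff_le_comap, hM]
      apply sup_le
      · unfold Cfsg.pResidual
        rw [Subgroup.closure_le]
        intro g hg
        rw [SetLike.mem_coe, Subgroup.mem_comap]
        apply (le_sup_left : Cfsg.pResidual p G ≤ _)
        apply mem_pResidual_of_coprime
        have : orderOf (H.subtype g) = orderOf g := by simp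
        rw [this]; exact hg
      · rw [commutator_eq_closure, Subgroup.closure_le]
        rintro _ ⟨a, b, rfl⟩
        rw [SetLike.mem_coe, Subgroup.mem_comap]
        apply (le_sup_right : commutator G ≤ _)
        rw [map_commutatorElement, commutator_def]
        exact Subgroup.commutator_mem_commutator (Subgroup.mem_top _) (Subgroup.mem_top _)
    · rintro _ ⟨x, -, rfl⟩
      exact x.2

end Cfsg.Agent.S1242
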