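import Mathlib
import Cfsg.Statements.S1243

set_option autoImplicit false
open Cfsg

namespace Cfsg.Agent.S1243

/-- Let T be a Sylow p-subgroup of the finite group G and W ≤ T a subgroup weakly closed in T. If d and g d g⁻¹ both centralize W, then g d g⁻¹ = h d h⁻¹ for some h ∈ N_G(W). -/
theorem result {G : Type*} [Group G] [Finite G] {p : ℕ} [Fact p.Prime] (T : Sylow p G) (W : Subgroup G) (hW : Cfsg.IsWeaklyClosed W (T : Subgroup G)) (d g : G) (hd : d ∈ Subgroup.centralizer (W : Set G)) (hgd : g * d * g⁻¹ ∈ Subgroup.centralizer (W : Set G)) : ∃ h ∈ Subgroup.normalizer (W : Set G), h * d * h⁻¹ = g * d * g⁻¹ := by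
  classical
  obtain ⟨hWT, hcl⟩ := hW
  have hWp : IsPGroup p W := T.2.to_le hWT
  let C : Subgroup G := Subgroup.centralizer ({d} : Set G)
  let W' : Subgroup G := W.map (MulAut.conj g⁻¹).toMonoidHom
  have memW' : ∀ y, y ∈ W' ↔ g * y * g⁻¹ ∈ W := by
    intro y
    constructor
    · rintro ⟨x, hx, rfl⟩
      have : g * (MulAut.conj g⁻¹).toMonoidHom x * g⁻¹ = x := by
        show g * (g⁻¹ * x * g⁻¹⁻¹) * g⁻¹ = x
        group
      rw [this]; exact hx
    · intro h
      refine ⟨_, h, ?_⟩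
      show g⁻¹ * (g * y * g⁻¹) * g⁻¹⁻¹ = y
      group
  have hW'p : IsPGroup p W' := hWp.map _
  have hWC : W ≤ C := by
    intro w hw
    rw [Subgroup.mem_centralizer_iff]
    intro x hx
    rw [Set.mem_singleton_iff] at hx
    subst hx
    exact ((Subgroup.mem_centralizer_iff.mp hd) w hw).symm
  have hW'C : W' ≤ C := by
    intro w hw
    rw [Subgroup.mem_centralizer_iff]
    intro x hx
    rw [Set.mem_singleton_iff] at hx
    subst hx
    have h1 := (memW' w).1 hw
    have h2 := (Subgroup.mem_centralizer_iff.mp hgd) _ h1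
    -- g w g⁻¹ * (g x g⁻¹) = (g x g⁻¹) * (g w g⁻¹)
    have h3 : g * (w * x) * g⁻¹ = g * (x * w) * g⁻¹ := by
      calc g * (w * x) * g⁻¹ = (g * w * g⁻¹) * (g * x * g⁻¹) := by group
        _ = (g * x * g⁻¹) * (g * w * g⁻¹) := h2
        _ = g * (x * w) * g⁻¹ := by group
    exact (mul_left_cancel (mul_right_cancel h3)).symm
  -- Sylows of C
  have hA : IsPGroup p (W.subgroupOf C) := hWp.comap_of_injective C.subtype C.subtype_injective
  have hB : IsPGroup p (W'.subgroupOf C) := hW'p.comap_of_injective C.subtype C.subtype_injective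
  obtain ⟨R, hR⟩ := hA.exists_le_sylow
  obtain ⟨R', hR'⟩ := hB.exists_le_sylow
  obtain ⟨c, hc⟩ := MulAction.exists_smul_eq C R' R
  -- the image of R in G lies in a Sylow
  have hRG : IsPGroup p ((R : Subgroup C).map C.subtype) := R.2.map _
  obtain ⟨Q, hQ⟩ := hRG.exists_le_sylow
  obtain ⟨y, hy⟩ := MulAction.exists_smul_eq G Q T
  have memT : ∀ x ∈ (Q : Subgroup G), y * x * y⁻¹ ∈ (T : Subgroup G) := by
    intro x hx
    rw [← hy, Sylow.coe_subgroup_smul]
    exact ⟨x, hx, rfl⟩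
  have mapW : W.map (MulAut.conj y).toMonoidHom ≤ (T : Subgroup G) := by
    rintro _ ⟨w, hw, rfl⟩
    apply memT
    apply hQ
    exact ⟨⟨w, hWC hw⟩, hR (Subgroup.mem_subgroupOf.mpr hw), rfl⟩
  have e1 : W.map (MulAut.conj y).toMonoidHom = W := hcl y mapW
  -- the conjugate of W' by c
  have memc : ∀ w ∈ W', y * ((c : G) * w * (c : G)⁻¹) * y⁻¹ ∈ (T : Subgroup G) := by
    intro w hw
    apply memT
    apply hQ
    refine ⟨c * ⟨w, hW'C hw⟩ * c⁻¹, ?_, rfl⟩
    rw [← hc, Sylow.smul_def, Sylow.pointwise_smul_def]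
    exact ⟨⟨w, hW'C hw⟩, hR' (Subgroup.mem_subgroupOf.mpr hw), rfl⟩
  -- new conjugator
  let a : G := y * (c : G) * g⁻¹
  have mapa : W.map (MulAut.conj a).toMonoidHom ≤ (T : Subgroup G) := by
    rintro _ ⟨w, hw, rfl⟩
    have hw' : g⁻¹ * w * g⁻¹⁻¹ ∈ W' := ⟨w, hw, rfl⟩
    have := memc _ hw'
    have e : y * ((c : G) * (g⁻¹ * w * g⁻¹⁻¹) * (c : G)⁻¹) * y⁻¹ = a * w * a⁻¹ := by
      simp only [a]; group
    rw [e] at this
    exact this
  have e2 : W.map (MulAut.conj a).toMonoidHom = W := hcl a mapa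
  -- h = y⁻¹ * a = c g⁻¹ normalizes W, take the inverse
  have norm_of : ∀ b : G, W.map (MulAut.conj b).toMonoidHom = W → b ∈ Subgroup.normalizer (W : Set G) := by
    intro b hb
    rw [Subgroup.mem_normalizer_iff]
    intro x
    constructor
    · intro hx
      have : b * x * b⁻¹ ∈ W.map (MulAut.conj b).toMonoidHom := ⟨x, hx, rfl⟩
      rwa [hb] at this
    · intro hx
      rw [← hb] at hx
      obtain ⟨w, hw, hw2⟩ := hx
      have : w = x := by
        have h3 : b * w * b⁻¹ = b * x * b⁻¹ := hw2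
        exact mul_left_cancel (mul_right_cancel h3)
      rwa [← this]
  have hy1 : y ∈ Subgroup.normalizer (W : Set G) := norm_of y e1
  have ha1 : a ∈ Subgroup.normalizer (W : Set G) := norm_of a e2
  have hn : (a⁻¹ * y) ∈ Subgroup.normalizer (W : Set G) :=
    Subgroup.mul_mem _ (Subgroup.inv_mem _ ha1) hy1
  refine ⟨a⁻¹ * y, hn, ?_⟩
  have hcd : (c : G) * d = d * (c : G) := by
    have := Subgroup.mem_centralizer_iff.mp c.2 d rfl
    exact this.symm
  have e3 : a⁻¹ * y = g * (c : G)⁻¹ := by simp only [a]; group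
  rw [e3]
  have hcd' : (c : G)⁻¹ * d * (c : G) = d := by
    rw [mul_assoc, ← hcd]; group
  calc g * (c : G)⁻¹ * d * (g * (c : G)⁻¹)⁻¹ = g * ((c : G)⁻¹ * d * (c : G)) * g⁻¹ := by group
    _ = g * d * g⁻¹ := by rw [hcd']

end Cfsg.Agent.S1243
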