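import Mathlib
import Cfsg.Statements.S1244
import Cfsg.Agent.S1243
import Cfsg.Agent.Lib.TwoFusionTransfer

set_option autoImplicit false
open Cfsg

namespace Cfsg.Agent.S1244

open Cfsg.Agent.Lib.TwoFusionTransfer

lemma exists_index_two_of_hom {G A : Type*} [Group G] [Group A] [Finite G] [Finite A]
    (hA : IsPGroup 2 A) (f : G →* A) (x : G) (hx : f x ≠ 1) : ∃ K : Subgroup G, K.index = 2 := by
  haveI : Fact (Nat.Prime 2) := ⟨Nat.prime_two⟩
  have hR : IsPGroup 2 f.range := hA.to_subgroup _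
  obtain ⟨k, hk⟩ := IsPGroup.iff_card.mp hR
  have hne : k ≠ 0 := by
    rintro rfl
    have h1 : Nat.card f.range = 1 := by simpa using hk
    have h2 : (⟨f x, x, rfl⟩ : f.range) = 1 := by
      have : Subsingleton f.range := (Nat.card_eq_one_iff_unique.mp h1).1
      exact Subsingleton.elim _ _
    exact hx (congrArg Subtype.val h2)
  obtain ⟨m, rfl⟩ := Nat.exists_eq_succ_of_ne_zero hne
  obtain ⟨K, hK⟩ := Sylow.exists_subgroup_card_pow_prime 2 (G := f.range) (n := m)
    (by rw [hk]; exact pow_dvd_pow _ (Nat.le_succ m))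
  refine ⟨K.comap f.rangeRestrict, ?_⟩
  rw [Subgroup.index_comap_of_surjective _ f.rangeRestrict_surjective]
  have := Subgroup.card_mul_index K
  rw [hK, hk, pow_succ] at this
  have h2 : 0 < 2 ^ m := by positivity
  exact Nat.eq_of_mul_eq_mul_left h2 this

/-- The transfer of an involution: the value stays in the coset of `τ`. -/
lemma transfer_ne_one {N A : Type*} [Group N] [Finite N] (H : Subgroup N) [CommGroup A]
    (e : H →* A) (t : N) (htH : t ∈ H) (ht2 : t ^ 2 = 1) (hodd : Odd H.index) (B : Subgroup A)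
    (hB : ∀ (g : N) (h : g⁻¹ * t * g ∈ H), e ⟨g⁻¹ * t * g, h⟩ * e ⟨t, htH⟩ ∈ B)
    (ht : e ⟨t, htH⟩ ∉ B) : MonoidHom.transfer e t ≠ 1 := by
  classical
  letI := H.fintypeQuotientOfFiniteIndex
  intro h1
  rw [MonoidHom.transfer_eq_prod_quotient_orbitRel_zpowers_quot] at h1
  set τ := e ⟨t, htH⟩ with hτ
  have hτ2 : τ ^ 2 = 1 := by
    rw [hτ, ← map_pow]
    have : (⟨t, htH⟩ : H) ^ 2 = 1 := Subtype.ext (by simpa using ht2)
    rw [this, map_one]
  have haux : ∀ (g : N) (m : ℕ) (hmem : g⁻¹ * t ^ m * g ∈ H), e ⟨g⁻¹ * t ^ m * g, hmem⟩ * τ ^ m ∈ B := by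
    intro g m hmem
    rcases Nat.even_or_odd' m with ⟨c, rfl | rfl⟩
    · have e1 : t ^ (2 * c) = 1 := by rw [pow_mul, ht2, one_pow]
      have e2 : τ ^ (2 * c) = 1 := by rw [pow_mul, hτ2, one_pow]
      have e3 : (⟨g⁻¹ * t ^ (2 * c) * g, hmem⟩ : H) = 1 := by
        apply Subtype.ext
        simp [e1]
      rw [e3, e2, map_one, one_mul]
      exact B.one_mem
    · have e1 : t ^ (2 * c + 1) = t := by rw [pow_succ, pow_mul, ht2, one_pow, one_mul]
      have e2 : τ ^ (2 * c + 1) = τ := by rw [pow_succ, pow_mul, hτ2, one_pow, one_mul]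
      have hmem' : g⁻¹ * t * g ∈ H := by rwa [e1] at hmem
      have e3 : (⟨g⁻¹ * t ^ (2 * c + 1) * g, hmem⟩ : H) = ⟨g⁻¹ * t * g, hmem'⟩ := by
        apply Subtype.ext
        simp [e1]
      rw [e3, e2]
      exact hB g hmem'
  have hterm : ∀ q : Quotient (MulAction.orbitRel (Subgroup.zpowers t) (N ⧸ H)),
      e ⟨q.out.out⁻¹ * t ^ Function.minimalPeriod (t • ·) q.out * q.out.out,
        QuotientGroup.out_conj_pow_minimalPeriod_mem H t q.out⟩ *
        τ ^ Function.minimalPeriod (t • ·) q.out ∈ B := fun q => haux _ _ _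
  have hprod := B.prod_mem (fun q _ => hterm q) (t := Finset.univ)
  rw [Finset.prod_mul_distrib, h1, one_mul, Finset.prod_pow_eq_pow_sum,
    ← Subgroup.index_eq_sum_minimalPeriod H t] at hprod
  obtain ⟨c, hc⟩ := hodd
  rw [hc, pow_succ, pow_mul, hτ2, one_pow, one_mul] at hprod
  exact ht hprod

/-- Let G be a finite group with no subgroup of index 2 whose Sylow 2-subgroup S is commutative, and let R ≤ S be a subgroup whose 2-rank is exactly one less than the 2-rank r of S. Then every involution of S is conjugate, by an element of N_G(S), to an element of R. -/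
theorem result {G : Type*} [Group G] [Finite G] (hG : ∀ H : Subgroup G, H.index ≠ 2) (S : Sylow 2 G) (hS : IsMulCommutative (S : Subgroup G)) (r : ℕ) (hr1 : 1 ≤ r) (hSr : Cfsg.PRankLE 2 r (S : Subgroup G) ∧ ¬ Cfsg.PRankLE 2 (r - 1) (S : Subgroup G)) (R : Subgroup G) (hRS : R ≤ S) (hRr : Cfsg.PRankLE 2 (r - 1) R ∧ (r = 1 ∨ ¬ Cfsg.PRankLE 2 (r - 2) R)) (t : G) (ht : orderOf t = 2) (htS : t ∈ S) : ∃ n ∈ Subgroup.normalizer ((S : Subgroup G) : Set G), n * t * n⁻¹ ∈ R := by
  classical
  haveI : Fact (Nat.Prime 2) := ⟨Nat.prime_two⟩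
  by_contra hno
  push Not at hno
  have htR : t ∉ R := by simpa using hno 1 (Subgroup.one_mem _)
  have ht2 : t ^ 2 = 1 := by rw [← ht]; exact pow_orderOf_eq_one t
  have hcomm : ∀ a ∈ (S : Subgroup G), ∀ b ∈ (S : Subgroup G), a * b = b * a := by
    intro a ha b hb
    have := hS.is_comm.comm (⟨a, ha⟩ : (S : Subgroup G)) ⟨b, hb⟩
    exact congrArg Subtype.val this
  -- the subgroup of involutions
  let Ω : Subgroup G :=
    { carrier := {s | s ∈ (S : Subgroup G) ∧ s ^ 2 = 1}
      one_mem' := ⟨Subgroup.one_mem _, one_pow _⟩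
      mul_mem' := by
        rintro a b ⟨ha, ha2⟩ ⟨hb, hb2⟩
        refine ⟨Subgroup.mul_mem _ ha hb, ?_⟩
        rw [(show Commute a b from hcomm a ha b hb).mul_pow, ha2, hb2, one_mul]
      inv_mem' := by
        rintro a ⟨ha, ha2⟩
        refine ⟨Subgroup.inv_mem _ ha, ?_⟩
        rw [inv_pow, ha2, inv_one] }
  have hΩ : ∀ x, x ∈ Ω ↔ x ∈ (S : Subgroup G) ∧ x ^ 2 = 1 := fun x => Iff.rfl
  have hΩS : Ω ≤ (S : Subgroup G) := fun x hx => hx.1
  have hcardΩ : Nat.card Ω ≤ 2 ^ r := by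
    have h1 := hSr.1 (Ω.subgroupOf S) ⟨⟨fun a b => Subtype.ext (Subtype.ext (hcomm _ a.1.2 _ b.1.2))⟩⟩
      (by
        intro a ha
        apply Subtype.ext
        exact ((Subgroup.mem_subgroupOf.mp ha)).2)
    have h2 : Nat.card (Ω.subgroupOf S) = Nat.card Ω :=
      Nat.card_congr (Subgroup.subgroupOfEquivOfLe hΩS).toEquiv
    omega
  let A₁ : Subgroup G := Ω ⊓ R
  have hA₁Ω : A₁ ≤ Ω := inf_le_left
  have hcardA₁ : 2 ^ (r - 1) ≤ Nat.card A₁ := by
    rcases hRr.2 with rfl | hR2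
    · have := (Nat.card_pos : 0 < Nat.card A₁)
      norm_num
      omega
    · by_cases hr : r = 1
      · subst hr
        have := (Nat.card_pos : 0 < Nat.card A₁)
        norm_num
        omega
      · have hR3 := hR2
        unfold PRankLE at hR3
        push Not at hR3
        obtain ⟨A, hAc, hAe, hAcard⟩ := hR3
        have hAp : IsPGroup 2 A := by
          intro a
          refine ⟨1, ?_⟩
          apply Subtype.ext
          simpa using hAe a a.2
        obtain ⟨n, hn⟩ := IsPGroup.iff_card.mp hAp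
        have hlt : r - 2 < n := by
          rw [hn] at hAcard
          exact (Nat.pow_lt_pow_iff_right (by norm_num)).mp hAcard
        have hle : 2 ^ (r - 1) ≤ Nat.card A := by
          rw [hn]
          exact Nat.pow_le_pow_right (by norm_num) (by omega)
        refine hle.trans ?_
        have h3 : Nat.card A = Nat.card (A.map R.subtype) :=
          Nat.card_congr (Subgroup.equivMapOfInjective A _ R.subtype_injective).toEquiv
        rw [h3]
        apply Subgroup.card_le_of_le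
        rintro _ ⟨a, ha, rfl⟩
        refine ⟨⟨hRS a.2, ?_⟩, a.2⟩
        exact congrArg Subtype.val (hAe a ha)
  have hindex : (A₁.subgroupOf Ω).index = 2 := by
    have h1 := Subgroup.card_mul_index (A₁.subgroupOf Ω)
    have h2 : Nat.card (A₁.subgroupOf Ω) = Nat.card A₁ :=
      Nat.card_congr (Subgroup.subgroupOfEquivOfLe hA₁Ω).toEquiv
    rw [h2] at h1
    have hpos : 0 < 2 ^ (r - 1) := by positivity
    have hpow : 2 ^ r = 2 * 2 ^ (r - 1) := by
      rw [← pow_succ']
      congr 1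
      omega
    have hle : (A₁.subgroupOf Ω).index ≤ 2 := by
      by_contra hgt
      push Not at hgt
      have : 2 ^ (r - 1) * 3 ≤ Nat.card A₁ * (A₁.subgroupOf Ω).index :=
        Nat.mul_le_mul hcardA₁ hgt
      omega
    have hne0 : (A₁.subgroupOf Ω).index ≠ 0 := Subgroup.index_ne_zero_of_finite
    have hne1 : (A₁.subgroupOf Ω).index ≠ 1 := by
      intro h
      rw [Subgroup.index_eq_one] at h
      have : (⟨t, ⟨htS, ht2⟩⟩ : Ω) ∈ A₁.subgroupOf Ω := by rw [h]; trivial
      exact htR (Subgroup.mem_subgroupOf.mp this).2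
    omega
  have hF1 : ∀ x ∈ Ω, ∀ y ∈ Ω, x ∉ R → y ∉ R → x * y ∈ R := by
    intro x hx y hy hxR hyR
    have h1 := (Subgroup.mul_mem_iff_of_index_two hindex (a := ⟨x, hx⟩) (b := ⟨y, hy⟩)).mpr
      ⟨fun h => absurd (Subgroup.mem_subgroupOf.mp h).2 hxR,
        fun h => absurd (Subgroup.mem_subgroupOf.mp h).2 hyR⟩
    exact (Subgroup.mem_subgroupOf.mp h1).2
  -- the two transfers
  let N : Subgroup G := Subgroup.normalizer ((S : Subgroup G) : Set G)
  have hSN : (S : Subgroup G) ≤ N := Subgroup.le_normalizer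
  letI : CommGroup (S : Subgroup G) :=
    { (inferInstance : Group (S : Subgroup G)) with
      mul_comm := fun a b => Subtype.ext (hcomm _ a.2 _ b.2) }
  let H : Subgroup N := (S : Subgroup G).subgroupOf N
  let e : H →* (S : Subgroup G) := (Subgroup.subgroupOfEquivOfLe hSN).toMonoidHom
  have he : ∀ x : H, ((e x : (S : Subgroup G)) : G) = ((x : N) : G) := fun x => rfl
  let θ : N →* (S : Subgroup G) := MonoidHom.transfer e
  have hS2 : Nat.Coprime 2 (S : Subgroup G).index := by
    have := S.not_dvd_index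
    exact (Nat.Prime.coprime_iff_not_dvd Nat.prime_two).mpr this
  have hHindex : Odd H.index := by
    have h1 : (S : Subgroup G).index = H.index * N.index := by
      have := Subgroup.relIndex_mul_index hSN
      rw [Subgroup.relIndex] at this
      exact this.symm
    have h2 : Odd (S : Subgroup G).index := by
      rw [← Nat.not_even_iff_odd, even_iff_two_dvd]
      exact S.not_dvd_index
    rw [h1] at h2
    exact (Nat.odd_mul.mp h2).1
  let t' : N := ⟨t, hSN htS⟩
  have ht'H : t' ∈ H := Subgroup.mem_subgroupOf.mpr htS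
  have hθ : θ t' ≠ 1 := by
    apply transfer_ne_one H e t' ht'H (Subtype.ext (by simpa [t'] using ht2)) hHindex
      (R.subgroupOf (S : Subgroup G))
    · intro g h
      rw [Subgroup.mem_subgroupOf]
      show (g⁻¹ * t' * g : N).1 * t ∈ R
      have hy : ((g⁻¹ * t' * g : N) : G) = (g : G)⁻¹ * t * g := rfl
      rw [hy]
      have h1 := hno (g : G)⁻¹ (N.inv_mem g.2)
      rw [inv_inv] at h1
      apply hF1 _ _ _ ⟨htS, ht2⟩ h1 htR
      refine ⟨Subgroup.mem_subgroupOf.mp h, ?_⟩
      have : ((g : G)⁻¹ * t * g) ^ 2 = (g : G)⁻¹ * t ^ 2 * g := by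
        simp only [pow_two, mul_assoc, mul_inv_cancel_left]
      rw [this, ht2]
      simp
    · intro h
      exact htR (Subgroup.mem_subgroupOf.mp h)
  have hθ2 : (θ t') ^ 2 = 1 := by
    rw [← map_pow]
    have : t' ^ 2 = 1 := Subtype.ext (by simpa [t'] using ht2)
    rw [this, map_one]
  let ϕ : (S : Subgroup G) →* (S : Subgroup G) := θ.comp (Subgroup.inclusion hSN)
  have hϕ : ϕ ⟨t, htS⟩ = θ t' := rfl
  have hW : Cfsg.IsWeaklyClosed (S : Subgroup G) (S : Subgroup G) := by
    refine ⟨le_rfl, fun g hg => ?_⟩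
    apply Subgroup.eq_of_le_of_card_ge hg
    exact (Nat.card_congr (Subgroup.equivMapOfInjective _ _ (MulAut.conj g).injective).toEquiv).le
  have hV : MonoidHom.transfer ϕ t = ϕ ⟨t, htS⟩ ^ (S : Subgroup G).index := by
    apply transfer_eq_pow_of_key
    intro k g₀ h
    have hd : t ^ k ∈ Subgroup.centralizer (((S : Sylow 2 G) : Subgroup G) : Set G) := by
      rw [Subgroup.mem_centralizer_iff]
      intro y hy
      exact hcomm _ hy _ (Subgroup.pow_mem _ htS _)
    have hgd : g₀⁻¹ * t ^ k * g₀⁻¹⁻¹ ∈ Subgroup.centralizer (((S : Sylow 2 G) : Subgroup G) : Set G) := by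
      rw [Subgroup.mem_centralizer_iff]
      intro y hy
      rw [inv_inv]
      exact hcomm _ hy _ h
    obtain ⟨w, hw, hwe⟩ := Cfsg.Agent.S1243.result S (S : Subgroup G) hW (t ^ k) g₀⁻¹ hd hgd
    rw [inv_inv] at hwe
    have hval : (⟨g₀⁻¹ * t ^ k * g₀, h⟩ : (S : Subgroup G)) =
        ⟨w * t ^ k * w⁻¹, by rw [hwe]; exact h⟩ := Subtype.ext hwe.symm
    rw [hval]
    have h2 : Subgroup.inclusion hSN ⟨w * t ^ k * w⁻¹, by rw [hwe]; exact h⟩ =
        (⟨w, hw⟩ : N) * (t' ^ k) * (⟨w, hw⟩ : N)⁻¹ := rfl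
    show θ (Subgroup.inclusion hSN _) = (θ t') ^ k
    rw [h2, map_mul, map_mul, map_inv, map_pow]
    rw [mul_comm (θ ⟨w, hw⟩), mul_assoc, mul_inv_cancel, mul_one]
  have hT : MonoidHom.transfer ϕ t ≠ 1 := by
    rw [hV, hϕ]
    have h2 : Odd (S : Subgroup G).index := by
      rw [← Nat.not_even_iff_odd, even_iff_two_dvd]
      exact S.not_dvd_index
    obtain ⟨c, hc⟩ := h2
    rw [hc, pow_succ, pow_mul, hθ2, one_pow, one_mul]
    exact hθ
  obtain ⟨K, hK⟩ := exists_index_two_of_hom S.2 (MonoidHom.transfer ϕ) t hT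
  exact hG K hK

end Cfsg.Agent.S1244
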