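import Mathlib
import Cfsg.Statements.S1246
import Cfsg.Agent.Lib.CharTwoLocal
import Cfsg.Agent.Lib.LocalCore

set_option autoImplicit false
open Cfsg

namespace Cfsg.Agent.S1246

open Cfsg.Agent.Lib.CharTwoLocal Cfsg.Agent.Lib.LocalCore

variable {G : Type*} [Group G]

/-- If `F*(X)` is a `p`-group then `F*(X) = O_p(X)` and `C_X(O_p(X)) ≤ O_p(X)`. -/
lemma centralizer_pCore_le_of_isPGroup {X : Type*} [Group X] [Finite X] {p : ℕ} [Fact p.Prime]
    (h : IsPGroup p (generalizedFittingSubgroup X)) :
    Subgroup.centralizer (pCore p X : Set X) ≤ pCore p X := by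
  -- no components
  have hcomp : ∀ K : Subgroup X, ¬ IsComponent K := by
    intro K hK
    have hKp : IsPGroup p K := h.to_le (comp_le_generalizedFitting hK)
    have hsolv : Group.IsSolvable K := by
      haveI : Group.IsNilpotent K := hKp.isNilpotent
      infer_instance
    exact comp_not_solvable hK hsolv
  have hlayer : layer X = ⊥ := by
    unfold layer
    rw [sSup_eq_bot]
    intro K hK
    exact absurd hK (hcomp K)
  have hF : generalizedFittingSubgroup X = fittingSubgroup X := by
    unfold generalizedFittingSubgroup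
    rw [hlayer, bot_sup_eq]
  have hFp : IsPGroup p (fittingSubgroup X) := hF ▸ h
  have h1 : fittingSubgroup X ≤ pCore p X :=
    Cfsg.Agent.Lib.PCore.le_pCore inferInstance hFp
  have h2 : pCore p X ≤ fittingSubgroup X := Cfsg.Agent.Lib.PCore.pCore_le_fittingSubgroup p
  have h3 : pCore p X = generalizedFittingSubgroup X := by
    rw [hF]; exact le_antisymm h2 h1
  rw [h3]
  exact centralizer_generalizedFitting_le

/-- If `C_X(O_p(X)) ≤ O_p(X)` for `X = C_G(V)`, the same holds for `N_G(V)`. -/
lemma CT_normalizer_of_centralizer [Finite G] {p : ℕ} [hp : Fact p.Prime] {V : Subgroup G}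
    (hV : IsPGroup p V) (h : CT p (Subgroup.centralizer (V : Set G))) :
    CT p (Subgroup.normalizer (V : Set G)) := by
  set N := Subgroup.normalizer (V : Set G) with hN
  set C := Subgroup.centralizer (V : Set G) with hC
  have hCN : C ≤ N := Subgroup.centralizer_le_normalizer _
  have hNC : N ≤ Subgroup.normalizer (C : Set G) := by
    intro n hn
    rw [Subgroup.mem_normalizer_iff]
    intro x
    have hn' := Subgroup.mem_normalizer_iff.mp hn
    constructor
    · intro hx
      rw [hC, Subgroup.mem_centralizer_iff] at hx ⊢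
      intro v hv
      have hv' : n⁻¹ * v * n ∈ V := by
        have := (hn' (n⁻¹ * v * n)).2 (by
          have e : n * (n⁻¹ * v * n) * n⁻¹ = v := by group
          rw [e]; exact hv)
        exact this
      have := hx _ hv'
      calc v * (n * x * n⁻¹) = n * ((n⁻¹ * v * n) * x) * n⁻¹ := by group
        _ = n * (x * (n⁻¹ * v * n)) * n⁻¹ := by rw [this]
        _ = n * x * n⁻¹ * v := by group
    · intro hx
      rw [hC, Subgroup.mem_centralizer_iff] at hx ⊢
      intro v hv
      have hv' : n * v * n⁻¹ ∈ V := (hn' v).1 hv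
      have := hx _ hv'
      have e : n * (v * x) * n⁻¹ = n * (x * v) * n⁻¹ := by
        calc n * (v * x) * n⁻¹ = (n * v * n⁻¹) * (n * x * n⁻¹) := by group
          _ = (n * x * n⁻¹) * (n * v * n⁻¹) := this
          _ = n * (x * v) * n⁻¹ := by group
      exact mul_left_cancel (mul_right_cancel e)
  have hOO : Oc p C ≤ Oc p N := Oc_le_Oc_of_normal hCN hNC
  have hVO : V ≤ Oc p N := by
    apply le_Oc Subgroup.le_normalizer hV
    intro n hn v hv
    exact (Subgroup.mem_normalizer_iff.mp hn v).1 hv
  let X : Subgroup G := N ⊓ Subgroup.centralizer (Oc p N : Set G)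
  have hXp : IsPGroup p X := by
    apply isPGroup_of_coprime_trivial
    intro y hy hcop
    have hyN : y ∈ N := hy.1
    have hyc : ∀ a ∈ Oc p N, a * y = y * a := fun a ha =>
      Subgroup.mem_centralizer_iff.mp hy.2 a ha
    have hyC : y ∈ C := by
      rw [hC, Subgroup.mem_centralizer_iff]
      intro v hv
      exact hyc v (hVO hv)
    have hyQ : y ∈ Oc p C := h y hyC (fun a ha => (hyc a (hOO ha)).symm)
    exact eq_one_of_pow_eq_one_of_coprime (isPGroup_Oc p C) hyQ hcop (pow_orderOf_eq_one y)
  have hXO : X ≤ Oc p N := by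
    apply le_Oc inf_le_left hXp
    intro n hn x hx
    refine Subgroup.mem_inf.mpr ⟨N.mul_mem (N.mul_mem hn hx.1) (N.inv_mem hn), ?_⟩
    rw [Subgroup.mem_centralizer_iff]
    intro a ha
    have ha' : n⁻¹ * a * n ∈ Oc p N := by
      have := conj_mem_Oc (h := n⁻¹) (N.inv_mem hn) ha
      simpa using this
    have := Subgroup.mem_centralizer_iff.mp hx.2 _ ha'
    calc a * (n * x * n⁻¹) = n * ((n⁻¹ * a * n) * x) * n⁻¹ := by group
      _ = n * (x * (n⁻¹ * a * n)) * n⁻¹ := by rw [this]
      _ = n * x * n⁻¹ * a := by group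
  intro x hx hc
  apply hXO
  refine Subgroup.mem_inf.mpr ⟨hx, ?_⟩
  rw [Subgroup.mem_centralizer_iff]
  intro a ha
  exact (hc a ha).symm

/-- Let V ≤ U be p-subgroups of the finite group G. If the generalized Fitting subgroup of C_G(V) is a p-group, then so is that of C_G(U). -/
theorem result {G : Type*} [Group G] [Finite G] {p : ℕ} [Fact p.Prime] (U V : Subgroup G) (hVU : V ≤ U) (hU : IsPGroup p U) (hV : IsPGroup p ↥(Cfsg.generalizedFittingSubgroup ↥(Subgroup.centralizer (V : Set G)))) : IsPGroup p ↥(Cfsg.generalizedFittingSubgroup ↥(Subgroup.centralizer (U : Set G))) := by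
  have hVp : IsPGroup p V := hU.to_le hVU
  have h1 := centralizer_pCore_le_of_isPGroup hV
  have hCV : CT p (Subgroup.centralizer (V : Set G)) := by
    intro x hx hc
    refine mem_Oc_iff.mpr ⟨hx, h1 ?_⟩
    rw [Subgroup.mem_centralizer_iff]
    intro y hy
    have := hc y ⟨y, hy, rfl⟩
    exact Subtype.ext this.symm
  have hNV := CT_normalizer_of_centralizer hVp hCV
  have hNU : CT p (Subgroup.normalizer (U : Set G)) := CT.normalizer_of_le hU hVU hNV
  have hCU : CT p (Subgroup.centralizer (U : Set G)) := by
    apply CT.of_normal hNU (Subgroup.centralizer_le_normalizer _)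
    intro n hn
    rw [Subgroup.mem_normalizer_iff]
    intro x
    have hn' := Subgroup.mem_normalizer_iff.mp hn
    constructor
    · intro hx
      rw [Subgroup.mem_centralizer_iff] at hx ⊢
      intro v hv
      have hv' : n⁻¹ * v * n ∈ U := by
        have := (hn' (n⁻¹ * v * n)).2 (by
          have e : n * (n⁻¹ * v * n) * n⁻¹ = v := by group
          rw [e]; exact hv)
        exact this
      have := hx _ hv'
      calc v * (n * x * n⁻¹) = n * ((n⁻¹ * v * n) * x) * n⁻¹ := by group
        _ = n * (x * (n⁻¹ * v * n)) * n⁻¹ := by rw [this]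
        _ = n * x * n⁻¹ * v := by group
    · intro hx
      rw [Subgroup.mem_centralizer_iff] at hx ⊢
      intro v hv
      have hv' : n * v * n⁻¹ ∈ U := (hn' v).1 hv
      have := hx _ hv'
      have e : n * (v * x) * n⁻¹ = n * (x * v) * n⁻¹ := by
        calc n * (v * x) * n⁻¹ = (n * v * n⁻¹) * (n * x * n⁻¹) := by group
          _ = (n * x * n⁻¹) * (n * v * n⁻¹) := this
          _ = n * (x * v) * n⁻¹ := by group
      exact mul_left_cancel (mul_right_cancel e)
  have h2 : Subgroup.centralizer (pCore p ↥(Subgroup.centralizer (U : Set G)) : Set ↥(Subgroup.centralizer (U : Set G))) ≤ pCore p ↥(Subgroup.centralizer (U : Set G)) := by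
    intro x hx
    have h1 : (x : G) ∈ Oc p (Subgroup.centralizer (U : Set G)) := by
      refine hCU x x.2 ?_
      rintro _ ⟨y, hy, rfl⟩
      have := Subgroup.mem_centralizer_iff.mp hx y hy
      exact (congrArg Subtype.val this).symm
    obtain ⟨_, h2⟩ := mem_Oc_iff.mp h1
    exact h2
  rw [generalizedFitting_eq_pCore h2]
  exact Cfsg.Agent.Lib.PCore.isPGroup_pCore p

end Cfsg.Agent.S1246
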