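import Mathlib
import Cfsg.Statements.S1247
import Cfsg.Agent.Lib.LocalCore
import Cfsg.Agent.Lib.PResid
import Cfsg.Agent.Lib.CompFitting
import Cfsg.Agent.Lib.SylowQDW
import Cfsg.Agent.Lib.PMinimalComp

set_option autoImplicit false
open Cfsg
open scoped commutatorElement

namespace Cfsg.Agent.S1247

open Cfsg.Agent.Lib.PCore Cfsg.Agent.Lib.LocalCore Cfsg.Agent.Lib.PResid

section XLevel

variable {X : Type*} [Group X] [Finite X]

lemma comm_p_pp (p : ℕ) [Fact p.Prime] : ⁅pCore p X, pPrimeCore p X⁆ = ⊥ := by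
  rw [← le_bot_iff]
  refine (Subgroup.commutator_le_inf _ _).trans ?_
  rw [le_bot_iff]
  apply Subgroup.inf_eq_bot_of_coprime
  obtain ⟨k, hk⟩ := IsPGroup.iff_card.mp (isPGroup_pCore (G := X) p)
  rw [hk]
  exact Nat.Coprime.pow_left k (card_pPrimeCore_coprime (G := X) p).symm

lemma commute_p_pp {p : ℕ} [Fact p.Prime] {u w : X} (hu : u ∈ pCore p X) (hw : w ∈ pPrimeCore p X) :
    u * w = w * u :=
  commutator_eq_bot_iff_elementwise.mp (comm_p_pp p) u hu w hw

lemma exists_pow_eq_one_core {p : ℕ} [Fact p.Prime] {u : X} (hu : u ∈ pCore p X) :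
    ∃ n, u ^ p ^ n = 1 := by
  obtain ⟨n, hn⟩ := isPGroup_pCore (G := X) p ⟨u, hu⟩
  exact ⟨n, by simpa using congrArg Subtype.val hn⟩

lemma order_coprime_pp {p : ℕ} [Fact p.Prime] {w : X} (hw : w ∈ pPrimeCore p X) :
    (orderOf w).Coprime p := by
  have h1 : orderOf w ∣ Nat.card (pPrimeCore p X) := by
    have := orderOf_dvd_natCard (⟨w, hw⟩ : pPrimeCore p X)
    rwa [Subgroup.orderOf_mk] at this
  exact Nat.Coprime.coprime_dvd_left h1 (card_pPrimeCore_coprime p)

lemma fit_decomp {p : ℕ} [Fact p.Prime] {f : X} (hf : f ∈ fittingSubgroup X) :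
    ∃ u ∈ pCore p X, ∃ w ∈ pPrimeCore p X, f = u * w :=
  mem_sup_of_commute (comm_p_pp p) (fittingSubgroup_le_sup p hf)

lemma p_elem_fit {p : ℕ} [Fact p.Prime] {a : X} (ha : a ∈ fittingSubgroup X) {n : ℕ}
    (hn : a ^ p ^ n = 1) : a ∈ pCore p X := by
  obtain ⟨u, hu, w, hw, rfl⟩ := fit_decomp (p := p) ha
  obtain ⟨k, hk⟩ := exists_pow_eq_one_core hu
  have hcomm : Commute u w := commute_p_pp hu hw
  have h1 : (u * w) ^ p ^ (n + k) = 1 := by
    rw [pow_add, pow_mul, hn, one_pow]
  rw [hcomm.mul_pow] at h1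
  have h2 : u ^ p ^ (n + k) = 1 := by
    rw [add_comm, pow_add, pow_mul, hk, one_pow]
  rw [h2, one_mul] at h1
  have h3 : w = 1 :=
    eq_one_of_pow_eq_one_of_coprime (p := p) h1 (pow_orderOf_eq_one w) (order_coprime_pp hw)
  rw [h3, mul_one]
  exact hu

lemma pp_elem_fit {p : ℕ} [Fact p.Prime] {b : X} (hb : b ∈ fittingSubgroup X)
    (hc : (orderOf b).Coprime p) : b ∈ pPrimeCore p X := by
  obtain ⟨u, hu, w, hw, rfl⟩ := fit_decomp (p := p) hb
  have hcomm : Commute u w := commute_p_pp hu hw
  obtain ⟨k, hk⟩ := exists_pow_eq_one_core hu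
  have h1 := pow_orderOf_eq_one (u * w)
  rw [hcomm.mul_pow] at h1
  have h2 : u ^ orderOf (u * w) ∈ pCore p X ⊓ pPrimeCore p X := by
    refine Subgroup.mem_inf.mpr ⟨Subgroup.pow_mem _ hu _, ?_⟩
    rw [eq_inv_of_mul_eq_one_left h1]
    exact Subgroup.inv_mem _ (Subgroup.pow_mem _ hw _)
  have h3 : pCore p X ⊓ pPrimeCore p X = ⊥ := by
    apply Subgroup.inf_eq_bot_of_coprime
    obtain ⟨k, hk⟩ := IsPGroup.iff_card.mp (isPGroup_pCore (G := X) p)
    rw [hk]
    exact Nat.Coprime.pow_left k (card_pPrimeCore_coprime (G := X) p).symm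
  rw [h3, Subgroup.mem_bot] at h2
  have h4 : u = 1 := eq_one_of_pow_eq_one_of_coprime (p := p) hk h2 hc
  rw [h4, one_mul]
  exact hw

lemma commute_p_core_of_fit {p : ℕ} [Fact p.Prime] {b c : X} (hb : b ∈ fittingSubgroup X)
    (hcb : (orderOf b).Coprime p) (hc : c ∈ pCore p X) : c * b = b * c :=
  commute_p_pp hc (pp_elem_fit hb hcb)

lemma commute_layer_fit {e f : X} (he : e ∈ layer X) (hf : f ∈ fittingSubgroup X) : e * f = f * e :=
  commutator_eq_bot_iff_elementwise.mp layer_commute_fitting e he f hf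

lemma fstar_decomp {x : X} (hx : x ∈ generalizedFittingSubgroup X) :
    ∃ e ∈ layer X, ∃ f ∈ fittingSubgroup X, x = e * f :=
  mem_sup_of_commute layer_commute_fitting hx

/-- The centre of `F*` lies in the Fitting subgroup. -/
lemma center_fstar_le_fit {w : X} (hw : w ∈ generalizedFittingSubgroup X)
    (hc : ∀ z ∈ generalizedFittingSubgroup X, w * z = z * w) : w ∈ fittingSubgroup X := by
  haveI hnF : (generalizedFittingSubgroup X).Normal :=
    Subgroup.normal_of_characteristic _
  let Z : Subgroup X := generalizedFittingSubgroup X ⊓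
    Subgroup.centralizer (generalizedFittingSubgroup X : Set X)
  have hZn : Z.Normal := by
    haveI : (Subgroup.centralizer (generalizedFittingSubgroup X : Set X)).Normal :=
      Subgroup.normal_centralizer
    exact Subgroup.normal_inf_normal _ _
  have hZc : ∀ a b : Z, a * b = b * a := by
    rintro ⟨a, ha1, ha2⟩ ⟨b, hb1, hb2⟩
    apply Subtype.ext
    exact Subgroup.mem_centralizer_iff.mp hb2 a ha1
  have hZnil : Group.IsNilpotent Z := by
    letI : CommGroup Z := { (inferInstance : Group Z) with mul_comm := hZc }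
    infer_instance
  refine le_fittingSubgroup hZn hZnil (Subgroup.mem_inf.mpr ⟨hw, ?_⟩)
  rw [Subgroup.mem_centralizer_iff]
  intro z hz
  exact (hc z hz).symm

lemma commute_layer_mem_fit {l : X} (hl : l ∈ generalizedFittingSubgroup X)
    (hc : ∀ k ∈ layer X, l * k = k * l) : l ∈ fittingSubgroup X := by
  obtain ⟨e, he, f, hf, rfl⟩ := fstar_decomp hl
  have hef : e ∈ fittingSubgroup X := by
    apply center_fstar_le_fit (layer_le_generalizedFitting he)
    intro z hz
    obtain ⟨e', he', f', hf', rfl⟩ := fstar_decomp hz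
    have h1 : e * e' = e' * e := by
      have := hc e' he'
      have h2 : f * e' = e' * f := (commute_layer_fit he' hf).symm
      have h3 : e * f * e' = e * e' * f := by rw [mul_assoc, h2, mul_assoc]
      have h4 : e' * (e * f) = e' * e * f := by rw [mul_assoc]
      rw [h3, h4] at this
      exact mul_right_cancel this
    calc e * (e' * f') = e' * e * f' := by rw [← mul_assoc, h1]
      _ = e' * (e * f') := by rw [mul_assoc]
      _ = e' * (f' * e) := by rw [commute_layer_fit he hf']
      _ = e' * f' * e := by rw [mul_assoc]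
  exact Subgroup.mul_mem _ hef hf

variable (S : Subgroup X)

/-- The layer lies in `S`. -/
lemma layer_le_S (hsn : S.IsSubnormal)
    (hC : generalizedFittingSubgroup X ⊓ Subgroup.centralizer (S : Set X) ≤ S) : layer X ≤ S := by
  refine sSup_le ?_
  intro K hK
  rcases comp_le_or_commute hK hsn with h | h
  · exact h
  · intro k hk
    apply hC
    refine Subgroup.mem_inf.mpr ⟨comp_le_generalizedFitting hK hk, ?_⟩
    rw [Subgroup.mem_centralizer_iff]
    intro s hs
    exact (commutator_eq_bot_iff_elementwise.mp h k hk s hs).symm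

lemma S_decomp (hsF : S ≤ generalizedFittingSubgroup X) (hsn : S.IsSubnormal)
    (hC : generalizedFittingSubgroup X ⊓ Subgroup.centralizer (S : Set X) ≤ S)
    {s : X} (hs : s ∈ S) : ∃ e ∈ layer X, ∃ f ∈ fittingSubgroup X, f ∈ S ∧ s = e * f := by
  obtain ⟨e, he, f, hf, rfl⟩ := fstar_decomp (hsF hs)
  refine ⟨e, he, f, hf, ?_, rfl⟩
  have := S.mul_mem (S.inv_mem (layer_le_S S hsn hC he)) hs
  simpa using this

/-- Key centralizer lemma: `C_{O_p}(S ∩ O_p) ≤ S`. -/
lemma mem_S_of_commute {p : ℕ} [Fact p.Prime] (hsF : S ≤ generalizedFittingSubgroup X)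
    (hsn : S.IsSubnormal)
    (hC : generalizedFittingSubgroup X ⊓ Subgroup.centralizer (S : Set X) ≤ S)
    {c : X} (hc : c ∈ pCore p X) (hct : ∀ t ∈ S ⊓ pCore p X, c * t = t * c) : c ∈ S := by
  apply hC
  have hcF : c ∈ fittingSubgroup X := pCore_le_fittingSubgroup p hc
  refine Subgroup.mem_inf.mpr ⟨fitting_le_generalizedFitting hcF, ?_⟩
  rw [Subgroup.mem_centralizer_iff]
  intro s hs
  obtain ⟨e, he, f, hf, hfS, rfl⟩ := S_decomp S hsF hsn hC hs
  obtain ⟨a, b, hab, hcomm, ⟨n, hn⟩, hb, haz, hbz⟩ := exists_decomp (p := p) f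
  have hzS : Subgroup.zpowers f ≤ S := (Subgroup.zpowers_le).mpr hfS
  have hzF : Subgroup.zpowers f ≤ fittingSubgroup X := (Subgroup.zpowers_le).mpr hf
  have ha1 : a ∈ pCore p X := p_elem_fit (hzF haz) hn
  have h1 : c * a = a * c := hct a ⟨hzS haz, ha1⟩
  have h2 : c * b = b * c := commute_p_core_of_fit (hzF hbz) hb hc
  have h3 : c * e = e * c := (commute_layer_fit he hcF).symm
  rw [hab]
  calc e * (a * b) * c = e * a * (b * c) := by group
    _ = e * a * (c * b) := by rw [h2]
    _ = e * (a * c) * b := by group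
    _ = e * (c * a) * b := by rw [h1]
    _ = (e * c) * a * b := by group
    _ = (c * e) * a * b := by rw [h3]
    _ = c * (e * (a * b)) := by group

/-- **Part (a)** at the level of `A`. -/
theorem part_a (hsF : S ≤ generalizedFittingSubgroup X) (hsn : S.IsSubnormal)
    (hC : generalizedFittingSubgroup X ⊓ Subgroup.centralizer (S : Set X) ≤ S)
    {q : ℕ} [Fact q.Prime] (hq : ¬ q ∣ Nat.card (fittingSubgroup X))
    (R : Subgroup X) (hR : IsPGroup q R) (hnorm : ∀ s ∈ S, ∀ r ∈ R, s * r * s⁻¹ ∈ R) : R = ⊥ := by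
  classical
  have hfitq : ∀ w ∈ fittingSubgroup X, (∃ n, w ^ q ^ n = 1) → w = 1 := by
    rintro w hw ⟨n, hn⟩
    have h1 : orderOf w ∣ Nat.card (fittingSubgroup X) := by
      have := orderOf_dvd_natCard (⟨w, hw⟩ : fittingSubgroup X)
      rwa [Subgroup.orderOf_mk] at this
    have hco : (Nat.card (fittingSubgroup X)).Coprime q :=
      ((Nat.Prime.coprime_iff_not_dvd Fact.out).mpr hq).symm
    exact eq_one_of_pow_eq_one_of_coprime (p := q) hn
      (orderOf_dvd_iff_pow_eq_one.mp h1) hco
  have hRq : ∀ r ∈ R, ∃ n, r ^ q ^ n = 1 := fun r hr =>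
    exists_pow_eq_one_of_isPGroup hR hr
  have hcopR : ∀ r ∈ R, ∀ {p : ℕ} [Fact p.Prime], p ≠ q → (orderOf r).Coprime p := by
    intro r hr p _ hpq
    obtain ⟨n, hn⟩ := hRq r hr
    have h1 : orderOf r ∣ q ^ n := orderOf_dvd_of_pow_eq_one hn
    exact Nat.Coprime.coprime_dvd_left h1
      (Nat.Coprime.pow_left n ((Nat.coprime_primes Fact.out Fact.out).mpr hpq.symm))
  rw [eq_bot_iff]
  intro r hr
  rw [Subgroup.mem_bot]
  -- `r` centralizes `O_p(X)` for all `p`
  have hOp : ∀ (p : ℕ) [Fact p.Prime], ∀ v ∈ pCore p X, r * v = v * r := by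
    intro p _ v hv
    by_cases hpq : p = q
    · subst hpq
      have : v = 1 := by
        apply hfitq v (pCore_le_fittingSubgroup p hv)
        exact exists_pow_eq_one_core hv
      simp [this]
    · -- first on `S ∩ O_p`
      have h1 : ∀ t ∈ S ⊓ pCore p X, r * t = t * r := by
        rintro t ⟨htS, htp⟩
        -- the commutator lies in `R ∩ O_p`
        have h2 : t * r * t⁻¹ * r⁻¹ ∈ R := R.mul_mem (hnorm t htS r hr) (R.inv_mem hr)
        have h3 : t * r * t⁻¹ * r⁻¹ ∈ pCore p X := by
          have : t * r * t⁻¹ * r⁻¹ = t * (r * t⁻¹ * r⁻¹) := by group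
          rw [this]
          exact Subgroup.mul_mem _ htp ((inferInstance : (pCore p X).Normal).conj_mem _
            (Subgroup.inv_mem _ htp) r)
        obtain ⟨n, hn⟩ := hRq _ h2
        obtain ⟨m, hm⟩ := exists_pow_eq_one_core h3
        have hc : (p ^ m).Coprime q := Nat.Coprime.pow_left m
          ((Nat.coprime_primes Fact.out Fact.out).mpr hpq)
        have h4 : t * r * t⁻¹ * r⁻¹ = 1 :=
          eq_one_of_pow_eq_one_of_coprime (p := q) hn hm hc
        have h5 : t * r = r * t := by
          calc t * r = (t * r * t⁻¹ * r⁻¹) * (r * t) := by group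
            _ = r * t := by rw [h4, one_mul]
        exact h5.symm
      refine Cfsg.Agent.Lib.CompFitting.ab_lemma (p := p) (pCore p X) (S ⊓ pCore p X) r
        (isPGroup_pCore p) ((isPGroup_pCore p).to_le inf_le_right) ?_ ?_ h1 (hcopR r hr hpq) ?_ v hv
      · intro w hw
        exact (inferInstance : (pCore p X).Normal).conj_mem _ hw r
      · intro t ht w hw
        exact (inferInstance : (pCore p X).Normal).conj_mem _ hw t
      · intro w hw hwt
        apply h1 w
        refine ⟨mem_S_of_commute S hsF hsn hC hw ?_, hw⟩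
        intro t ht
        exact (hwt t ht).symm ▸ rfl
  -- so `r` centralizes the Fitting subgroup
  have hFit : ∀ v ∈ fittingSubgroup X, r * v = v * r := by
    intro v hv
    rw [fittingSubgroup_eq_iSup_pCore] at hv
    have hle : (⨆ p : Nat.Primes, pCore (p : ℕ) X) ≤ Subgroup.centralizer ({r} : Set X) := by
      refine iSup_le fun p => ?_
      haveI : Fact (p : ℕ).Prime := ⟨p.2⟩
      intro w hw
      rw [Subgroup.mem_centralizer_singleton_iff]
      exact (hOp p w hw).symm
    have := hle hv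
    rw [Subgroup.mem_centralizer_singleton_iff] at this
    exact this.symm
  -- `r` centralizes the layer
  have hE : layer X ≤ S := layer_le_S S hsn hC
  have hW : R ⊓ layer X = ⊥ := by
    rw [eq_bot_iff]
    rintro w ⟨hwR, hwE⟩
    rw [Subgroup.mem_bot]
    apply hfitq w
    · apply commute_layer_mem_fit (layer_le_generalizedFitting hwE)
      intro k hk
      have hle : layer X ≤ Subgroup.centralizer (((R ⊓ layer X : Subgroup X)) : Set X) := by
        refine sSup_le ?_
        intro K hK
        have hcomm := comp_commute_of_solvable (H := R ⊓ layer X) hK ?_ ?_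
        · intro k hk
          rw [Subgroup.mem_centralizer_iff]
          intro h hh
          exact (commutator_eq_bot_iff_elementwise.mp hcomm k hk h hh).symm
        · haveI : Group.IsNilpotent (R ⊓ layer X : Subgroup X) :=
            IsPGroup.isNilpotent (hR.to_le inf_le_left)
          infer_instance
        · intro k hk
          have hkE : k ∈ layer X := comp_le_layer hK hk
          apply Cfsg.Agent.Lib.SylowQDW.mem_normalizer_of_conj
          rintro a ⟨haR, haE⟩
          exact ⟨hnorm k (hE hkE) a haR, layer_normal.conj_mem _ haE k⟩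
      exact Subgroup.mem_centralizer_iff.mp (hle hk) w ⟨hwR, hwE⟩
    · exact hRq w hwR
  have hEr : ∀ e ∈ layer X, r * e = e * r := by
    intro e he
    have h1 : e * r * e⁻¹ * r⁻¹ ∈ R := R.mul_mem (hnorm e (hE he) r hr) (R.inv_mem hr)
    have h2 : e * r * e⁻¹ * r⁻¹ ∈ layer X := by
      have : e * r * e⁻¹ * r⁻¹ = e * (r * e⁻¹ * r⁻¹) := by group
      rw [this]
      exact Subgroup.mul_mem _ he (layer_normal.conj_mem _ (Subgroup.inv_mem _ he) r)
    have h3 : e * r * e⁻¹ * r⁻¹ ∈ R ⊓ layer X := ⟨h1, h2⟩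
    rw [hW, Subgroup.mem_bot] at h3
    calc r * e = (e * r * e⁻¹ * r⁻¹)⁻¹ * (e * r) := by group
      _ = e * r := by rw [h3, inv_one, one_mul]
  have hcent : ∀ z ∈ generalizedFittingSubgroup X, r * z = z * r := by
    intro z hz
    obtain ⟨e, he, f, hf, rfl⟩ := fstar_decomp hz
    calc r * (e * f) = (r * e) * f := by group
      _ = e * (r * f) := by rw [hEr e he]; group
      _ = e * (f * r) := by rw [hFit f hf]
      _ = e * f * r := by group
  have hrF : r ∈ generalizedFittingSubgroup X := by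
    apply centralizer_generalizedFitting_le
    rw [Subgroup.mem_centralizer_iff]
    intro z hz
    exact (hcent z hz).symm
  exact hfitq r (center_fstar_le_fit hrF hcent) (hRq r hr)

end XLevel

section GLevel

variable {G : Type*} [Group G] [Finite G] [IsSimpleGroup G] {A : Subgroup G}

lemma mem_of_centralize (hA : IsCoatom A) (D : Subgroup A) [D.Normal] (hD : D ≠ ⊥) {g : G}
    (hg : ∀ d ∈ D, g * (d : G) = (d : G) * g) : g ∈ A := by
  let D' : Subgroup G := D.map A.subtype
  have hg' : g ∈ Subgroup.normalizer (D' : Set G) := by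
    apply Cfsg.Agent.Lib.SylowQDW.mem_normalizer_of_conj
    rintro _ ⟨d, hd, rfl⟩
    have : g * A.subtype d * g⁻¹ = A.subtype d := by
      show g * (d : G) * g⁻¹ = (d : G)
      rw [hg d hd]; group
    rw [this]
    exact ⟨d, hd, rfl⟩
  have hAN : A ≤ Subgroup.normalizer (D' : Set G) := by
    intro a ha
    apply Cfsg.Agent.Lib.SylowQDW.mem_normalizer_of_conj
    rintro _ ⟨d, hd, rfl⟩
    refine ⟨⟨a, ha⟩ * d * ⟨a, ha⟩⁻¹, (inferInstance : D.Normal).conj_mem _ hd _, rfl⟩
  by_cases hN : Subgroup.normalizer (D' : Set G) = ⊤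
  · exfalso
    have hDn : D'.Normal := Subgroup.normalizer_eq_top_iff.mp hN
    rcases hDn.eq_bot_or_eq_top with h | h
    · apply hD
      rw [eq_bot_iff]
      intro d hd
      have : (d : G) ∈ D' := ⟨d, hd, rfl⟩
      rw [h, Subgroup.mem_bot] at this
      rw [Subgroup.mem_bot]
      exact Subtype.ext this
    · apply hA.1
      rw [eq_top_iff, ← h]
      rintro _ ⟨d, _, rfl⟩
      exact d.2
  · have h1 : A = Subgroup.normalizer (D' : Set G) := by
      by_contra hne
      exact hN (hA.2 _ (lt_of_le_of_ne hAN hne))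
    rw [h1]
    exact hg'

variable (S : Subgroup A)

/-- `p'`-elements of `S` which centralize `O_p(A)` centralize every `p`-subgroup normalized by `S`.-/
theorem part_b_key (hA : IsCoatom A) (hsF : S ≤ generalizedFittingSubgroup A) (hsn : S.IsSubnormal)
    (hC : generalizedFittingSubgroup A ⊓ Subgroup.centralizer (S : Set A) ≤ S)
    {p : ℕ} [Fact p.Prime] (hU : pCore p A ≠ ⊥) (P : Subgroup G) (hP : IsPGroup p P)
    (hnorm : ∀ s ∈ S, ∀ g ∈ P, (s : G) * g * (s : G)⁻¹ ∈ P)
    (y : A) (hyS : y ∈ S) (hyc : (orderOf y).Coprime p)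
    (hyU : ∀ u ∈ pCore p A, y * u = u * y) : ∀ x ∈ P, (y : G) * x = x * (y : G) := by
  classical
  set U := pCore p A with hUdef
  let H : Subgroup G := (S ⊓ U).map A.subtype
  have hHp : IsPGroup p H := ((isPGroup_pCore p).to_le inf_le_right).map _
  have hHn : H ≤ Subgroup.normalizer (P : Set G) := by
    rintro _ ⟨t, ht, rfl⟩
    apply Cfsg.Agent.Lib.SylowQDW.mem_normalizer_of_conj
    intro g hg
    exact hnorm t ht.1 g hg
  let W : Subgroup G := H ⊔ P
  have hW : IsPGroup p W := hHp.to_sup_of_normal_right' hP hHn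
  -- elements of `S` centralizing `U` normalize `W`
  have hnormW : ∀ s ∈ S, (∀ u ∈ U, s * u = u * s) → ∀ v ∈ W, (s : G) * v * (s : G)⁻¹ ∈ W := by
    intro s hs hsU v hv
    have hle : W ≤ W.comap (MulAut.conj (s : G)).toMonoidHom := by
      refine sup_le ?_ ?_
      · rintro _ ⟨t, ht, rfl⟩
        show (s : G) * (t : G) * (s : G)⁻¹ ∈ W
        have h1 : (s : G) * (t : G) = (t : G) * (s : G) := congrArg Subtype.val (hsU t ht.2)
        rw [h1, mul_inv_cancel_right]
        exact (le_sup_left : H ≤ W) ⟨t, ht, rfl⟩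
      · intro g hg
        exact (le_sup_right : P ≤ W) (hnorm s hs g hg)
    exact hle hv
  -- `Z(U)`
  let B₀ : Subgroup A := U ⊓ Subgroup.centralizer (U : Set A)
  haveI hB₀n : B₀.Normal := by
    haveI : (Subgroup.centralizer (U : Set A)).Normal := Subgroup.normal_centralizer
    exact Subgroup.normal_inf_normal _ _
  have hB₀ne : B₀ ≠ ⊥ := by
    haveI : Nontrivial U := (Subgroup.nontrivial_iff_ne_bot _).mpr hU
    have hpU : IsPGroup p U := isPGroup_pCore p
    haveI := hpU.center_nontrivial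
    obtain ⟨z, hz⟩ := exists_ne (1 : Subgroup.center U)
    intro hbot
    have hmem : ((z : U) : A) ∈ B₀ := by
      refine Subgroup.mem_inf.mpr ⟨(z : U).2, ?_⟩
      rw [Subgroup.mem_centralizer_iff]
      intro u hu
      have := Subgroup.mem_center_iff.mp z.2 ⟨u, hu⟩
      exact congrArg Subtype.val this
    rw [hbot, Subgroup.mem_bot] at hmem
    apply hz
    apply Subtype.ext
    apply Subtype.ext
    exact hmem
  have hB₀S : B₀ ≤ S := by
    rintro c ⟨hcU, hcC⟩
    apply mem_S_of_commute S hsF hsn hC hcU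
    rintro t ⟨_, htU⟩
    exact (Subgroup.mem_centralizer_iff.mp hcC t htU).symm
  have hyW := hnormW y hyS hyU
  have hlayerU : ∀ e ∈ layer A, ∀ u ∈ U, e * u = u * e := fun e he u hu =>
    commute_layer_fit he (pCore_le_fittingSubgroup p hu)
  have hE : layer A ≤ S := layer_le_S S hsn hC
  -- `W ∩ F*` lies in `U`
  have hL : ∀ l : A, l ∈ generalizedFittingSubgroup A → (l : G) ∈ W → l ∈ U := by
    intro l hlF hlW
    let L : Subgroup A := W.comap A.subtype ⊓ generalizedFittingSubgroup A
    have hLp : IsPGroup p L := by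
      rintro ⟨g, hgW, hgF⟩
      obtain ⟨n, hn⟩ := exists_pow_eq_one_of_isPGroup hW hgW
      refine ⟨n, ?_⟩
      apply Subtype.ext
      apply Subtype.ext
      simpa using hn
    have hcomm : ∀ k ∈ layer A, l * k = k * l := by
      have hle : layer A ≤ Subgroup.centralizer (L : Set A) := by
        refine sSup_le ?_
        intro K hK
        have hc := comp_commute_of_solvable (H := L) hK ?_ ?_
        · intro k hk
          rw [Subgroup.mem_centralizer_iff]
          intro h hh
          exact (commutator_eq_bot_iff_elementwise.mp hc k hk h hh).symm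
        · haveI : Group.IsNilpotent L := IsPGroup.isNilpotent hLp
          infer_instance
        · intro k hk
          have hkE : k ∈ layer A := comp_le_layer hK hk
          apply Cfsg.Agent.Lib.SylowQDW.mem_normalizer_of_conj
          rintro a ⟨haW, haF⟩
          refine Subgroup.mem_inf.mpr ⟨?_, ?_⟩
          · exact hnormW k (hE hkE) (hlayerU k hkE) a haW
          · exact (Subgroup.normal_of_characteristic _ :
              (generalizedFittingSubgroup A).Normal).conj_mem _ haF k
      intro k hk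
      exact Subgroup.mem_centralizer_iff.mp (hle hk) l (Subgroup.mem_inf.mpr ⟨hlW, hlF⟩)
    have hlFit := commute_layer_mem_fit hlF hcomm
    obtain ⟨n, hn⟩ := exists_pow_eq_one_of_isPGroup hW hlW
    refine p_elem_fit hlFit (n := n) ?_
    apply Subtype.ext
    simpa using hn
  intro x hx
  refine Cfsg.Agent.Lib.CompFitting.ab_lemma (p := p) W (B₀.map A.subtype) (y : G) hW
    (((isPGroup_pCore p).to_le inf_le_left).map _) hyW ?_ ?_ ?_ ?_ x ((le_sup_right : P ≤ W) hx)
  · rintro _ ⟨c, hc, rfl⟩ v hv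
    have h1 : A.subtype c ∈ W :=
      (le_sup_left : H ≤ W) ⟨c, Subgroup.mem_inf.mpr ⟨hB₀S hc, (Subgroup.mem_inf.mp hc).1⟩, rfl⟩
    exact W.mul_mem (W.mul_mem h1 hv) (W.inv_mem h1)
  · rintro _ ⟨c, hc, rfl⟩
    exact congrArg Subtype.val (hyU c (Subgroup.mem_inf.mp hc).1)
  · rw [Subgroup.orderOf_coe]; exact hyc
  · intro v hv hvT
    have hvA : v ∈ A := by
      apply mem_of_centralize hA B₀ hB₀ne
      intro d hd
      exact (hvT _ ⟨d, hd, rfl⟩).symm
    let v' : A := ⟨v, hvA⟩
    have hvv : (v' : G) = v := rfl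
    let c : A := v' * y * v'⁻¹ * y⁻¹
    have hyF : y ∈ generalizedFittingSubgroup A := hsF hyS
    have hcF : c ∈ generalizedFittingSubgroup A :=
      Subgroup.mul_mem _ ((Subgroup.normal_of_characteristic _ :
        (generalizedFittingSubgroup A).Normal).conj_mem _ hyF v') (Subgroup.inv_mem _ hyF)
    have hcW : (c : G) ∈ W := by
      have h1 : (c : G) = v * ((y : G) * v⁻¹ * (y : G)⁻¹) := by
        show (v' : G) * (y : G) * (v' : G)⁻¹ * (y : G)⁻¹ = _
        rw [hvv]; group
      rw [h1]
      exact W.mul_mem hv (hyW _ (W.inv_mem hv))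
    have hcU : c ∈ U := hL c hcF hcW
    obtain ⟨n, hn⟩ := exists_pow_eq_one_core hcU
    have hcy : Commute c y := (hyU c hcU).symm
    have hconj : y * v'⁻¹ * y⁻¹ = v'⁻¹ * c := by
      show _ = v'⁻¹ * (v' * y * v'⁻¹ * y⁻¹)
      group
    have hc1 : c = 1 := eq_one_of_conj_eq_mul hyc ⟨n, hn⟩ hcy hconj
    have h2 : v' * y = y * v' := by
      calc v' * y = c * (y * v') := by
            show _ = v' * y * v'⁻¹ * y⁻¹ * (y * v')
            group
        _ = y * v' := by rw [hc1, one_mul]
    exact (congrArg Subtype.val h2).symm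

lemma center_core_ne_bot {X : Type*} [Group X] [Finite X] {p : ℕ} [Fact p.Prime]
    (hU : pCore p X ≠ ⊥) :
    pCore p X ⊓ Subgroup.centralizer (pCore p X : Set X) ≠ ⊥ := by
  set U := pCore p X with hUdef
  haveI : Nontrivial U := (Subgroup.nontrivial_iff_ne_bot _).mpr hU
  have hpU : IsPGroup p U := isPGroup_pCore p
  haveI := hpU.center_nontrivial
  obtain ⟨z, hz⟩ := exists_ne (1 : Subgroup.center U)
  intro hbot
  have hmem : ((z : U) : X) ∈ U ⊓ Subgroup.centralizer (U : Set X) := by
    refine Subgroup.mem_inf.mpr ⟨(z : U).2, ?_⟩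
    rw [Subgroup.mem_centralizer_iff]
    intro u hu
    have := Subgroup.mem_center_iff.mp z.2 ⟨u, hu⟩
    exact congrArg Subtype.val this
  rw [hbot, Subgroup.mem_bot] at hmem
  apply hz
  apply Subtype.ext
  apply Subtype.ext
  exact hmem

lemma comp_le_closure_coprime {X : Type*} [Group X] [Finite X] {K : Subgroup X} (hK : IsComponent K)
    (p : ℕ) [Fact p.Prime] : K ≤ Subgroup.closure {x : X | x ∈ K ∧ (orderOf x).Coprime p} := by
  rw [← map_pResidual_eq_closure]
  intro k hk
  refine ⟨⟨k, hk⟩, ?_, rfl⟩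
  have h1 : ⁅(⊤ : Subgroup K), (⊤ : Subgroup K)⁆ = ⊤ := qs_commutator (comp_qs hK)
  exact Cfsg.Agent.Lib.PMinimalComp.perfect_le_pResidual (p := p) ⊤ h1 (Subgroup.mem_top _)

/-- **Part (b)**. -/
theorem part_b (hA : IsCoatom A) (hsF : S ≤ generalizedFittingSubgroup A) (hsn : S.IsSubnormal)
    (hC : generalizedFittingSubgroup A ⊓ Subgroup.centralizer (S : Set A) ≤ S)
    {p : ℕ} [Fact p.Prime] (hp : p ∣ Nat.card (fittingSubgroup A)) (P : Subgroup G)
    (hP : IsPGroup p P) (hnorm : ∀ s ∈ S, ∀ g ∈ P, (s : G) * g * (s : G)⁻¹ ∈ P)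
    {x : G} (hx : x ∈ P) {y : A}
    (hy : y ∈ (pResidual p (generalizedFittingSubgroup A)).map
      (generalizedFittingSubgroup A).subtype) : x * (y : G) = (y : G) * x := by
  classical
  have hU : pCore p A ≠ ⊥ := by
    obtain ⟨a, ha⟩ := exists_prime_orderOf_dvd_card' (p := p) hp
    intro hbot
    have h1 : (a : A) ∈ pCore p A := by
      refine p_elem_fit a.2 (n := 1) ?_
      have := pow_orderOf_eq_one a
      rw [ha] at this
      have h2 := congrArg Subtype.val this
      simpa using h2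
    rw [hbot, Subgroup.mem_bot] at h1
    have h3 : a = 1 := Subtype.ext h1
    rw [h3, orderOf_one] at ha
    exact (Fact.out : p.Prime).one_lt.ne ha
  have key := fun t htS htc htU => part_b_key S hA hsF hsn hC hU P hP hnorm t htS htc htU x hx
  let Cx : Subgroup A := (Subgroup.centralizer ({x} : Set G)).comap A.subtype
  have hCx : ∀ t : A, t ∈ Cx ↔ x * (t : G) = (t : G) * x := by
    intro t
    rw [Subgroup.mem_comap, Subgroup.mem_centralizer_singleton_iff]
    exact eq_comm
  have hE : layer A ≤ S := layer_le_S S hsn hC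
  have hlayer : layer A ≤ Cx := by
    refine sSup_le ?_
    intro K hK
    refine (comp_le_closure_coprime hK p).trans ?_
    rw [Subgroup.closure_le]
    rintro t ⟨htK, htc⟩
    have htE : t ∈ layer A := comp_le_layer hK htK
    rw [SetLike.mem_coe, hCx]
    refine (key t (hE htE) htc ?_).symm
    intro u hu
    exact commute_layer_fit htE (pCore_le_fittingSubgroup p hu)
  -- other primes
  have hother : ∀ (r : ℕ) [Fact r.Prime], r ≠ p → pCore r A ≤ Cx := by
    intro r _ hrp
    by_cases hbot : pCore r A = ⊥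
    · rw [hbot]; exact bot_le
    have hrc : ∀ t ∈ pCore r A, (orderOf t).Coprime p := by
      intro t ht
      obtain ⟨n, hn⟩ := exists_pow_eq_one_core ht
      exact Nat.Coprime.coprime_dvd_left (orderOf_dvd_of_pow_eq_one hn)
        (Nat.Coprime.pow_left n ((Nat.coprime_primes Fact.out Fact.out).mpr hrp))
    have hrU : ∀ t ∈ pCore r A, ∀ u ∈ pCore p A, t * u = u * t := by
      intro t ht u hu
      exact (commute_p_core_of_fit (pCore_le_fittingSubgroup r ht) (hrc t ht) hu).symm
    have hkeyr : ∀ t ∈ S ⊓ pCore r A, x * (t : G) = (t : G) * x := by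
      rintro t ⟨htS, htr⟩
      exact (key t htS (hrc t htr) (hrU t htr)).symm
    let Z : Subgroup A := pCore r A ⊓ Subgroup.centralizer (pCore r A : Set A)
    haveI hZn : Z.Normal := by
      haveI : (Subgroup.centralizer (pCore r A : Set A)).Normal := Subgroup.normal_centralizer
      exact Subgroup.normal_inf_normal _ _
    have hZne : Z ≠ ⊥ := center_core_ne_bot hbot
    have hZS : Z ≤ S := by
      rintro c ⟨hcU, hcC⟩
      apply mem_S_of_commute S hsF hsn hC hcU
      rintro t ⟨_, htU⟩
      exact (Subgroup.mem_centralizer_iff.mp hcC t htU).symm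
    have hxA : x ∈ A := by
      apply mem_of_centralize hA Z hZne
      intro d hd
      exact hkeyr d ⟨hZS hd, (Subgroup.mem_inf.mp hd).1⟩
    let x' : A := ⟨x, hxA⟩
    obtain ⟨n, hn⟩ := exists_pow_eq_one_of_isPGroup hP hx
    have hx'c : (orderOf x').Coprime r := by
      have h1 : x' ^ p ^ n = 1 := by
        apply Subtype.ext
        simpa [x'] using hn
      exact Nat.Coprime.coprime_dvd_left (orderOf_dvd_of_pow_eq_one h1)
        (Nat.Coprime.pow_left n ((Nat.coprime_primes Fact.out Fact.out).mpr hrp.symm))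
    intro v hv
    rw [hCx]
    have hmain := Cfsg.Agent.Lib.CompFitting.ab_lemma (p := r) (pCore r A) (S ⊓ pCore r A) x'
      (isPGroup_pCore r) ((isPGroup_pCore r).to_le inf_le_right)
      (fun w hw => (inferInstance : (pCore r A).Normal).conj_mem _ hw x')
      (fun t _ w hw => (inferInstance : (pCore r A).Normal).conj_mem _ hw t)
      (fun t ht => Subtype.ext (hkeyr t ht)) hx'c
      (fun w hw hwt => Subtype.ext (hkeyr w ⟨mem_S_of_commute S hsF hsn hC hw (fun t ht => (hwt t ht).symm), hw⟩))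
      v hv
    exact congrArg Subtype.val hmain
  -- the join of the other cores
  let Y : Subgroup A := ⨆ r : {r : Nat.Primes // (r : ℕ) ≠ p}, pCore ((r : Nat.Primes) : ℕ) A
  have hYCx : Y ≤ Cx := by
    refine iSup_le fun r => ?_
    haveI : Fact ((r : Nat.Primes) : ℕ).Prime := ⟨(r : Nat.Primes).2⟩
    exact hother _ r.2
  have hYpp : Y ≤ pPrimeCore p A := by
    refine iSup_le fun r => ?_
    haveI : Fact ((r : Nat.Primes) : ℕ).Prime := ⟨(r : Nat.Primes).2⟩
    exact pCore_le_pPrimeCore r.2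
  have hYF : Y ≤ fittingSubgroup A := by
    refine iSup_le fun r => ?_
    haveI : Fact ((r : Nat.Primes) : ℕ).Prime := ⟨(r : Nat.Primes).2⟩
    exact pCore_le_fittingSubgroup _
  have hFitle : fittingSubgroup A ≤ pCore p A ⊔ Y := by
    rw [fittingSubgroup_eq_iSup_pCore]
    refine iSup_le fun r => ?_
    by_cases h : (r : ℕ) = p
    · rw [h]; exact le_sup_left
    · exact (le_iSup (fun r : {r : Nat.Primes // (r : ℕ) ≠ p} => pCore ((r : Nat.Primes) : ℕ) A)
        ⟨r, h⟩).trans le_sup_right
  have hcommY : ⁅pCore p A, Y⁆ = ⊥ := by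
    rw [← le_bot_iff, ← comm_p_pp p]
    exact Subgroup.commutator_mono le_rfl hYpp
  have hres : pResidual p (generalizedFittingSubgroup A) ≤
      Cx.subgroupOf (generalizedFittingSubgroup A) := by
    apply pResidual_le_of_pow_mem
    rintro ⟨z, hz⟩
    obtain ⟨e, he, f, hf, rfl⟩ := fstar_decomp hz
    obtain ⟨u, hu, w, hw, rfl⟩ := mem_sup_of_commute hcommY (hFitle hf)
    obtain ⟨n, hn⟩ := exists_pow_eq_one_core hu
    refine ⟨n, ?_⟩
    rw [Subgroup.mem_subgroupOf]
    have huw : Commute u w := commutator_eq_bot_iff_elementwise.mp hcommY u hu w hw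
    have heuw : Commute e (u * w) := commute_layer_fit he hf
    have h1 : (e * (u * w)) ^ p ^ n = e ^ p ^ n * w ^ p ^ n := by
      rw [heuw.mul_pow, huw.mul_pow, hn, one_mul]
    have h2 : ((⟨e * (u * w), hz⟩ : generalizedFittingSubgroup A) ^ p ^ n :
        generalizedFittingSubgroup A).1 = (e * (u * w)) ^ p ^ n := by
      simp
    rw [h2, h1]
    exact Cx.mul_mem (Cx.pow_mem (hlayer he) _) (Cx.pow_mem (hYCx hw) _)
  obtain ⟨z, hz, rfl⟩ := hy
  have := hres hz
  rw [Subgroup.mem_subgroupOf] at this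
  exact (hCx _).mp this

end GLevel

theorem core_conj {G : Type*} [Group G] [Finite G] (B : Subgroup G) (q : ℕ) {b g : G} (hb : b ∈ B)
    (hg : g ∈ (pCore q ↥B).map B.subtype) : b * g * b⁻¹ ∈ (pCore q ↥B).map B.subtype := by
  obtain ⟨c, hc, rfl⟩ := hg
  refine ⟨⟨b, hb⟩ * c * ⟨b, hb⟩⁻¹, (inferInstance : (pCore q ↥B).Normal).conj_mem _ hc _, ?_⟩
  simp

/-- Let G be a non-abelian finite simple group, A a maximal subgroup, F = F*(A) its generalized Fitting subgroup (viewed in G), and S ≤ F a subgroup subnormal in F with C_F(S) ≤ S. Let B be any subgroup of G containing S. Then (a) for every prime q not dividing |F(A)|, O_q(B) ∩ A = 1; and (b) for every prime p dividing |F(A)|, O_p(B) commutes elementwise with the subgroup of F generated by its elements of order prime to p. -/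
theorem result {G : Type*} [Group G] [Finite G] [IsSimpleGroup G] (hna : ¬ IsMulCommutative G) (A : Subgroup G) (hA : IsCoatom A) (S : Subgroup G) (hSF : S ≤ (Cfsg.generalizedFittingSubgroup ↥A).map A.subtype) (hSsn : (S.subgroupOf ((Cfsg.generalizedFittingSubgroup ↥A).map A.subtype)).IsSubnormal) (hSC : (Cfsg.generalizedFittingSubgroup ↥A).map A.subtype ⊓ Subgroup.centralizer (S : Set G) ≤ S) (B : Subgroup G) (hSB : S ≤ B) : (∀ q : ℕ, q.Prime → ¬ q ∣ Nat.card (Cfsg.fittingSubgroup ↥A) → (Cfsg.pCore q ↥B).map B.subtype ⊓ A = ⊥) ∧ (∀ p : ℕ, p.Prime → p ∣ Nat.card (Cfsg.fittingSubgroup ↥A) → ∀ x ∈ (Cfsg.pCore p ↥B).map B.subtype, ∀ y ∈ (Cfsg.pResidual p ↥(Cfsg.generalizedFittingSubgroup ↥A)).map ((Cfsg.generalizedFittingSubgroup ↥A).subtype) , x * (A.subtype y) = (A.subtype y) * x) := by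
  let S' : Subgroup A := S.subgroupOf A
  have hSA : S ≤ A := by
    intro s hs
    obtain ⟨f, _, rfl⟩ := hSF hs
    exact f.2
  have hsF : S' ≤ generalizedFittingSubgroup A := by
    intro s hs
    obtain ⟨f, hf, hfs⟩ := hSF (Subgroup.mem_subgroupOf.mp hs)
    have : f = s := Subtype.ext hfs
    rwa [← this]
  haveI hFn : (generalizedFittingSubgroup A).Normal := Subgroup.normal_of_characteristic _
  have hsn : S'.IsSubnormal := by
    refine Subgroup.IsSubnormal.trans hsF ?_ hFn.isSubnormal
    have h1 := hSsn.comap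
      ((generalizedFittingSubgroup A).equivMapOfInjective A.subtype A.subtype_injective).toMonoidHom
    convert h1 using 1
    ext z
    simp only [Subgroup.mem_subgroupOf, Subgroup.mem_comap, S']
    rfl
  have hC : generalizedFittingSubgroup A ⊓ Subgroup.centralizer (S' : Set A) ≤ S' := by
    rintro c ⟨hcF, hcC⟩
    rw [Subgroup.mem_subgroupOf]
    apply hSC
    refine Subgroup.mem_inf.mpr ⟨⟨c, hcF, rfl⟩, ?_⟩
    rw [Subgroup.mem_centralizer_iff]
    intro s hs
    have h1 : (⟨s, hSA hs⟩ : A) ∈ S' := Subgroup.mem_subgroupOf.mpr hs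
    exact congrArg Subtype.val (Subgroup.mem_centralizer_iff.mp hcC _ h1)
  refine ⟨?_, ?_⟩
  · intro q hq hqd
    haveI : Fact q.Prime := ⟨hq⟩
    have hQp : IsPGroup q ((pCore q ↥B).map B.subtype) := (isPGroup_pCore q).map _
    let R : Subgroup A := ((pCore q ↥B).map B.subtype).subgroupOf A
    have hRp : IsPGroup q R := by
      rintro ⟨g, hg⟩
      obtain ⟨n, hn⟩ := exists_pow_eq_one_of_isPGroup hQp (Subgroup.mem_subgroupOf.mp hg)
      refine ⟨n, ?_⟩
      apply Subtype.ext
      apply Subtype.ext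
      simpa using hn
    have hR : R = ⊥ := by
      refine part_a S' hsF hsn hC hqd R hRp ?_
      intro s hs r hr
      rw [Subgroup.mem_subgroupOf]
      exact core_conj B q (hSB (Subgroup.mem_subgroupOf.mp hs)) (Subgroup.mem_subgroupOf.mp hr)
    rw [eq_bot_iff]
    rintro g ⟨hg1, hg2⟩
    have : (⟨g, hg2⟩ : A) ∈ R := Subgroup.mem_subgroupOf.mpr hg1
    rw [hR, Subgroup.mem_bot] at this
    rw [Subgroup.mem_bot]
    exact congrArg Subtype.val this
  · intro p hp hpd x hx y hy
    haveI : Fact p.Prime := ⟨hp⟩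
    refine part_b S' hA hsF hsn hC hpd _ ((isPGroup_pCore p).map _) ?_ hx hy
    intro s hs g hg
    exact core_conj B p (hSB (Subgroup.mem_subgroupOf.mp hs)) hg

end Cfsg.Agent.S1247
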