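import Mathlib
import Cfsg.Statements.S1253
import Cfsg.Agent.Lib.IsolatedInvol

set_option autoImplicit false
open Cfsg

namespace Cfsg.Agent.S1253

open Cfsg.Agent.Lib.IsolatedInvol Cfsg.Agent.Lib.EmbInvol

lemma odd_of_sylow {G : Type*} [Group G] [Finite G] {p : ℕ} [Fact p.Prime] (hp : p ≠ 2) (P : Sylow p G) :
    ∀ x ∈ (P : Subgroup G), Odd (orderOf x) := by
  intro x hx
  obtain ⟨k, hk⟩ := (IsPGroup.iff_orderOf.mp P.2) ⟨x, hx⟩
  have hoddp : Odd p := (Fact.out : p.Prime).odd_of_ne_two hp
  have : orderOf x = p ^ k := by simpa using hk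
  rw [this]
  exact hoddp.pow

/-- Let z be an isolated involution of the finite group G with centralizer C, p an odd prime and P a Sylow p-subgroup of G normalized by z. Then P ∩ C has p-power-free index in C (it is a Sylow p-subgroup of C), and |P : C_P(z)| equals the number of elements x ∈ P with z x z⁻¹ = x⁻¹. -/
theorem result {G : Type*} [Group G] [Finite G] (z : G) (hz : Cfsg.IsIsolatedInvolution z) {p : ℕ} [Fact p.Prime] (hp : p ≠ 2) (P : Sylow p G) (hzP : z ∈ Subgroup.normalizer ((P : Subgroup G) : Set G)) : ¬ p ∣ ((P : Subgroup G) ⊓ Subgroup.centralizer ({z} : Set G)).relIndex (Subgroup.centralizer ({z} : Set G)) ∧ ((P : Subgroup G) ⊓ Subgroup.centralizer ({z} : Set G)).relIndex (P : Subgroup G) = Nat.card {x : G // x ∈ P ∧ z * x * z⁻¹ = x⁻¹} := by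
  classical
  have hzz := mul_self_of_order hz.1
  have hzn : ∀ x ∈ (P : Subgroup G), z * x * z⁻¹ ∈ (P : Subgroup G) := fun x hx =>
    (Subgroup.mem_normalizer_iff.mp hzP x).1 hx
  refine ⟨?_, relIndex_eq_card_inverted (odd_of_sylow hp P) hzz hzn⟩
  set C := Subgroup.centralizer ({z} : Set G) with hC
  set Q := (P : Subgroup G) ⊓ C with hQ
  have hQC : Q ≤ C := inf_le_right
  have hQp : IsPGroup p Q := P.2.to_le inf_le_left
  have hA : IsPGroup p (Q.subgroupOf C) := hQp.comap_of_injective C.subtype C.subtype_injective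
  obtain ⟨R, hR⟩ := hA.exists_le_sylow
  set R' : Subgroup G := (R : Subgroup C).map C.subtype with hR'
  have hR'p : IsPGroup p R' := R.2.map _
  have hQR' : Q ≤ R' := by
    intro x hx
    exact ⟨⟨x, hQC hx⟩, hR (Subgroup.mem_subgroupOf.mpr hx), rfl⟩
  have hR'C : R' ≤ C := Subgroup.map_subtype_le _
  obtain ⟨P', hP'⟩ := hR'p.exists_le_sylow
  obtain ⟨g, hg⟩ := MulAction.exists_smul_eq G P P'
  have hmem : ∀ x : G, x ∈ (P' : Subgroup G) ↔ g⁻¹ * x * g ∈ (P : Subgroup G) := by
    intro x
    rw [← hg, Sylow.coe_subgroup_smul, Subgroup.mem_pointwise_smul_iff_inv_smul_mem]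
    simp [MulAut.smul_def, mul_assoc]
  set z' := g * z * g⁻¹ with hz'
  have hz'iso : IsIsolatedInvolution z' := isIsolated_conj hz g
  have hz'z' := mul_self_of_order hz'iso.1
  have hz'n : ∀ x ∈ (P' : Subgroup G), z' * x * z'⁻¹ ∈ (P' : Subgroup G) := by
    intro x hx
    rw [hmem] at hx ⊢
    have e : g⁻¹ * (z' * x * z'⁻¹) * g = z * (g⁻¹ * x * g) * z⁻¹ := by
      rw [hz']; group
    rw [e]
    exact hzn _ hx
  have hbound := card_mul_card_inverted_le (P := (P' : Subgroup G)) (T := R') (w := g⁻¹)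
    (odd_of_sylow hp P') hz'iso hP' (by
      intro t ht
      have e : g⁻¹ * z' * g⁻¹⁻¹ = z := by rw [hz']; group
      rw [e]
      have := Subgroup.mem_centralizer_iff.mp (hR'C ht) z rfl
      exact this.symm)
  have hidx := relIndex_eq_card_inverted (odd_of_sylow hp P') hz'z' hz'n
  rw [← hidx] at hbound
  -- the centralizer part of P' has the same order as Q
  set Q' := (P' : Subgroup G) ⊓ Subgroup.centralizer ({z'} : Set G) with hQ'
  have hQ'eq : Q' = Q.map (MulAut.conj g).toMonoidHom := by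
    ext x
    rw [mem_map_conj_iff, hQ', hQ, Subgroup.mem_inf, Subgroup.mem_inf, hmem]
    apply and_congr_right
    intro _
    rw [hC, Subgroup.mem_centralizer_iff, Subgroup.mem_centralizer_iff]
    constructor
    · intro h
      intro s hs
      rw [Set.mem_singleton_iff] at hs
      rw [hs]
      have := h z' rfl
      have e : g * (z * (g⁻¹ * x * g)) * g⁻¹ = g * ((g⁻¹ * x * g) * z) * g⁻¹ := by
        calc g * (z * (g⁻¹ * x * g)) * g⁻¹ = z' * x := by rw [hz']; group
          _ = x * z' := this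
          _ = g * ((g⁻¹ * x * g) * z) * g⁻¹ := by rw [hz']; group
      exact mul_left_cancel (mul_right_cancel e)
    · intro h
      intro s hs
      rw [Set.mem_singleton_iff] at hs
      rw [hs]
      have := h z rfl
      calc z' * x = g * (z * (g⁻¹ * x * g)) * g⁻¹ := by rw [hz']; group
        _ = g * ((g⁻¹ * x * g) * z) * g⁻¹ := by rw [this]
        _ = x * z' := by rw [hz']; group
  have hcardQ' : Nat.card Q' = Nat.card Q := by
    rw [hQ'eq]
    exact Nat.card_congr (Subgroup.equivMapOfInjective Q _ (MulAut.conj g).injective).symm.toEquiv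
  have hQ'le : Q' ≤ (P' : Subgroup G) := inf_le_left
  have hcP' : Nat.card (P' : Subgroup G) = Nat.card Q' * Q'.relIndex (P' : Subgroup G) := by
    have h1 := Subgroup.card_mul_index (Q'.subgroupOf (P' : Subgroup G))
    rw [← Subgroup.relIndex] at h1
    have h2 : Nat.card (Q'.subgroupOf (P' : Subgroup G)) = Nat.card Q' :=
      Nat.card_congr (Subgroup.subgroupOfEquivOfLe hQ'le).toEquiv
    rw [h2] at h1
    exact h1.symm
  have hrel : 0 < Q'.relIndex (P' : Subgroup G) := by
    apply Nat.pos_of_ne_zero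
    intro h0
    rw [h0, mul_zero] at hcP'
    exact (Nat.card_pos (α := (P' : Subgroup G))).ne' hcP'
  have hle : Nat.card R' ≤ Nat.card Q' := by
    rw [hcP'] at hbound
    exact Nat.le_of_mul_le_mul_right hbound hrel
  have heq : Q = R' := by
    apply Subgroup.eq_of_le_of_card_ge hQR'
    rw [← hcardQ']
    exact hle
  have hRQ : (R : Subgroup C) = Q.subgroupOf C := by
    rw [heq, hR', Subgroup.subgroupOf]
    rw [Subgroup.comap_map_eq_self_of_injective C.subtype_injective]
  show ¬ p ∣ (Q.subgroupOf C).index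
  rw [← hRQ]
  exact R.not_dvd_index

end Cfsg.Agent.S1253
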