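import Mathlib
import Cfsg.Statements.S1254
import Cfsg.Agent.Lib.DihSylow
import Cfsg.Agent.Lib.SylowConjLemmas
import Cfsg.Agent.Lib.ThompsonTransfer

set_option autoImplicit false
open Cfsg

namespace Cfsg.Agent.S1254

open Cfsg.Agent.Lib.DihSylow Cfsg.Agent.Lib.KleinTools Cfsg.Agent.Lib.ThompsonTransfer

lemma mem_normalizer_of_conj_mem {X : Type*} [Group X] [Finite X] {U : Subgroup X} {x : X}
    (h : ∀ u ∈ U, x * u * x⁻¹ ∈ U) : x ∈ Subgroup.normalizer (U : Set X) := by
  rw [Subgroup.mem_normalizer_iff]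
  intro y
  refine ⟨h y, fun hy => ?_⟩
  let f : U → U := fun u => ⟨x * u * x⁻¹, h u u.2⟩
  have hf : Function.Injective f := by
    intro a b hab
    have h1 : x * (a : X) * x⁻¹ = x * b * x⁻¹ := congrArg Subtype.val hab
    apply Subtype.ext
    exact mul_left_cancel (mul_right_cancel h1)
  obtain ⟨u, hu⟩ := (Finite.injective_iff_surjective.mp hf) ⟨x * y * x⁻¹, hy⟩
  have h1 : x * (u : X) * x⁻¹ = x * y * x⁻¹ := congrArg Subtype.val hu
  have h2 : (u : X) = y := mul_left_cancel (mul_right_cancel h1)
  rw [← h2]; exact u.2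

lemma centralizer_le_normalizer {X : Type*} [Group X] (U : Subgroup X) :
    Subgroup.centralizer (U : Set X) ≤ Subgroup.normalizer (U : Set X) := by
  intro x hx
  rw [Subgroup.mem_normalizer_iff]
  intro y
  constructor
  · intro hy
    have h1 := Subgroup.mem_centralizer_iff.mp hx y hy
    rw [← h1]; simpa using hy
  · intro hy
    have h1 := Subgroup.mem_centralizer_iff.mp hx _ hy
    have h2 : x * y * x⁻¹ * x = x * y := by group
    rw [h2] at h1
    have h4 : x * y * x⁻¹ = y := (mul_left_cancel h1).symm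
    rwa [h4] at hy

/-- The backward direction. -/
lemma backward {X : Type*} [Group X] [Finite X] (S : Sylow 2 X) (m : ℕ) (hm : 2 ≤ m) (eS : (S : Subgroup X) ≃* DihedralGroup m)
    (hH : ∀ U : Subgroup X, U ≤ S → IsKleinFour U → Subgroup.normalizer (U : Set X) = Subgroup.centralizer (U : Set X) ⊔ ((S : Subgroup X) ⊓ Subgroup.normalizer (U : Set X))) :
    Cfsg.HasNormalPComplement 2 X := by
  classical
  haveI : Fact (Nat.Prime 2) := ⟨Nat.prime_two⟩
  haveI : NeZero m := ⟨by omega⟩
  have hcardS : Nat.card (S : Subgroup X) = 2 * m := card_eq eS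
  obtain ⟨k, hk⟩ : ∃ k, m = 2 ^ k := by
    obtain ⟨n, hn⟩ := IsPGroup.iff_card.mp S.2
    have h1 : m ∣ 2 ^ n := by
      rw [hcardS] at hn
      exact ⟨2, by rw [← hn]; ring⟩
    obtain ⟨k, -, hk⟩ := (Nat.dvd_prime_pow Nat.prime_two).mp h1
    exact ⟨k, hk⟩
  have hm2 : Even m := by
    rcases k with _ | k
    · rw [hk] at hm; simp at hm
    · rw [hk, pow_succ]; exact Even.mul_left even_two _
  by_cases hm4 : m = 2
  · subst hm4
    have hsq : ∀ s ∈ (S : Subgroup X), s * s = 1 := by
      intro s hs
      rcases mem_cases eS hs with ⟨j, rfl⟩ | ⟨i, rfl⟩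
      · rw [rot_mul_rot, show j + j = 0 from CharTwo.add_self_eq_zero j, rot_zero]
      · exact rfl_mul_self eS i
    have hcomm : ∀ a ∈ (S : Subgroup X), ∀ b ∈ (S : Subgroup X), a * b = b * a := by
      intro a ha b hb
      have h1 := hsq _ (Subgroup.mul_mem _ ha hb)
      have h2 := inv_eq_of_mul_eq_one_left h1
      rw [mul_inv_rev, inv_eq_of_mul_eq_one_left (hsq a ha), inv_eq_of_mul_eq_one_left (hsq b hb)] at h2
      exact h2.symm
    have hKlein : IsKleinFour (S : Subgroup X) := by
      refine ⟨by rw [hcardS], ?_⟩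
      haveI : Nontrivial (S : Subgroup X) := by
        apply Finite.one_lt_card_iff_nontrivial.mp
        omega
      rw [Monoid.exponent_eq_prime_iff Nat.prime_two]
      rintro ⟨v, hv⟩ hv1
      apply orderOf_eq_prime
      · apply Subtype.ext
        simpa [pow_two] using hsq v hv
      · exact hv1
    have h := hH S le_rfl hKlein
    have hNC : Subgroup.normalizer ((S : Subgroup X) : Set X) ≤ Subgroup.centralizer ((S : Subgroup X) : Set X) := by
      rw [h]
      refine sup_le le_rfl (inf_le_left.trans ?_)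
      intro a ha
      rw [Subgroup.mem_centralizer_iff]
      intro b hb
      exact hcomm b hb a ha
    exact ⟨S, _, inferInstance, MonoidHom.ker_transferSylow_isComplement' S hNC⟩
  · -- the main case
    have h4m : 4 ∣ m := by
      rcases k with _ | _ | k
      · rw [hk] at hm; simp at hm
      · rw [hk] at hm4; simp at hm4
      · rw [hk, pow_succ, pow_succ]
        exact ⟨2 ^ k, by ring⟩
    set z : X := zz eS with hz
    have hzz : z * z = 1 := zz_mul_self eS hm2
    have hz1 : z ≠ 1 := zz_ne_one eS hm2 hm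
    let q : ZMod m := ((m / 4 : ℕ) : ZMod m)
    have hq : 2 * q = half m := by
      show 2 * ((m / 4 : ℕ) : ZMod m) = ((m / 2 : ℕ) : ZMod m)
      have h1 : m / 2 = 2 * (m / 4) := by omega
      rw [h1]
      push_cast
      rfl
    -- a reflection is not conjugate to `z`
    have NC : ∀ (i : ZMod m) (g : X), g * z * g⁻¹ ≠ rfl' eS i := by
      intro i g hg
      set a : X := rfl' eS i with ha
      have haa : a * a = 1 := rfl_mul_self eS i
      have ha1 : a ≠ 1 := rfl_ne_one eS i
      have hza : z * a = a * z := zz_comm_rfl eS hm2 i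
      have hz2 : z ^ 2 = 1 := by rw [pow_two]; exact hzz
      have ha2 : a ^ 2 = 1 := by rw [pow_two]; exact haa
      have hzne : z ≠ a := fun h => rfl_ne_zz eS i h.symm
      let U : Subgroup X := kleinOf z a hz2 ha2 hza
      have hU : IsKleinFour U := isKleinFour_kleinOf hz2 ha2 hza hz1 ha1 hzne
      have hUS : U ≤ (S : Subgroup X) := by
        intro y hy
        rcases mem_kleinOf.mp hy with rfl | rfl | rfl | rfl
        · exact Subgroup.one_mem _
        · exact zz_mem eS
        · exact rfl'_mem eS i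
        · exact Subgroup.mul_mem _ (zz_mem eS) (rfl'_mem eS i)
      have hzU : z ∈ U := mem_kleinOf.mpr (Or.inr (Or.inl rfl))
      have haU : a ∈ U := mem_kleinOf.mpr (Or.inr (Or.inr (Or.inl rfl)))
      have hNz : Subgroup.normalizer (U : Set X) ≤ Subgroup.centralizer ({z} : Set X) := by
        rw [hH U hUS hU]
        apply sup_le
        · intro x hx
          rw [Subgroup.mem_centralizer_iff]
          intro y hy
          rw [Set.mem_singleton_iff] at hy
          subst hy
          exact Subgroup.mem_centralizer_iff.mp hx _ hzU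
        · intro x hx
          rw [Subgroup.mem_centralizer_iff]
          intro y hy
          rw [Set.mem_singleton_iff] at hy
          subst hy
          exact (zz_comm eS hm2 hx.1).symm
      -- the conjugate Sylow subgroup
      let P : Sylow 2 X := g • S
      have memP : ∀ p, p ∈ (P : Subgroup X) ↔ g⁻¹ * p * g ∈ (S : Subgroup X) := by
        intro p
        show p ∈ ((g • S : Sylow 2 X) : Subgroup X) ↔ _
        rw [Sylow.coe_subgroup_smul, Subgroup.mem_pointwise_smul_iff_inv_smul_mem, MulAut.smul_def,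
          MulAut.conj_inv_apply]
      have hPa : (P : Subgroup X) ≤ Subgroup.centralizer ({a} : Set X) := by
        intro p hp
        rw [Subgroup.mem_centralizer_iff]
        intro y hy
        rw [Set.mem_singleton_iff] at hy
        subst hy
        have h1 := zz_comm eS hm2 ((memP p).mp hp)
        have h2 : (g⁻¹ * p * g) * z = z * (g⁻¹ * p * g) := h1
        rw [← hg]
        calc g * z * g⁻¹ * p = g * (z * (g⁻¹ * p * g)) * g⁻¹ := by group
          _ = g * ((g⁻¹ * p * g) * z) * g⁻¹ := by rw [h2]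
          _ = p * (g * z * g⁻¹) := by group
      have hUa : U ≤ Subgroup.centralizer ({a} : Set X) := by
        intro y hy
        rw [Subgroup.mem_centralizer_iff]
        intro y' hy'
        rw [Set.mem_singleton_iff] at hy'
        subst hy'
        exact comm_of_mem_klein hU haU hy
      have hUp : IsPGroup 2 U := by
        apply IsPGroup.of_card (n := 2)
        rw [hU.card_four]; norm_num
      obtain ⟨k₀, hk₀, hk₀U⟩ := Cfsg.Agent.Lib.SylowConjLemmas.exists_conj_mem_of_le P _ hPa U hUp hUa
      let f : X := g⁻¹ * k₀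
      have hk₀a : k₀ * a * k₀⁻¹ = a := by
        have h1 := Subgroup.mem_centralizer_iff.mp hk₀ a rfl
        rw [mul_inv_eq_iff_eq_mul]
        exact h1.symm
      have hfa : f * a * f⁻¹ = z := by
        have h1 : f * a * f⁻¹ = g⁻¹ * (k₀ * a * k₀⁻¹) * g := by
          show g⁻¹ * k₀ * a * (g⁻¹ * k₀)⁻¹ = _
          group
        rw [h1, hk₀a, ← hg]
        group
      have hfU : ∀ t ∈ U, f * t * f⁻¹ ∈ (S : Subgroup X) := by
        intro t ht
        have h1 := (memP _).mp (hk₀U t ht)
        have h2 : f * t * f⁻¹ = g⁻¹ * (k₀ * t * k₀⁻¹) * g := by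
          show g⁻¹ * k₀ * t * (g⁻¹ * k₀)⁻¹ = _
          group
        rw [h2]; exact h1
      set c : X := f * z * f⁻¹ with hc
      have hcS : c ∈ (S : Subgroup X) := hfU z hzU
      have hcc : c * c = 1 := by
        have : f * z * f⁻¹ * (f * z * f⁻¹) = f * (z * z) * f⁻¹ := by group
        rw [hc, this, hzz]; simp
      have hc1 : c ≠ 1 := by
        intro h
        apply hz1
        have h3 : z = f⁻¹ * (f * z * f⁻¹) * f := by group
        rw [h3, ← hc, h]; simp
      have hcz : c ≠ z := by
        intro h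
        apply hzne
        have h1 : f * z * f⁻¹ = f * a * f⁻¹ := by rw [← hc, h, hfa]
        exact mul_left_cancel (mul_right_cancel h1)
      obtain ⟨i', hi'⟩ := (invol_cases eS hm2 hm hcS hcc hc1).resolve_left hcz
      set ρ : X := rot eS q with hρ
      have hρc : ρ * c * ρ⁻¹ = z * c := by
        rw [hi', hρ, rot_conj_rfl, hz, zz, rot_mul_rfl, hq]
      have hρz : ρ * z * ρ⁻¹ = z := by
        have := zz_comm_rot eS q
        rw [mul_inv_eq_iff_eq_mul]
        exact this.symm
      set w : X := f⁻¹ * ρ * f with hw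
      have hwz : w * z * w⁻¹ = a * z := by
        have e1 : w * z * w⁻¹ = f⁻¹ * (ρ * c * ρ⁻¹) * f := by
          rw [hw, hc]; group
        rw [e1, hρc]
        have e2 : f⁻¹ * (z * c) * f = (f⁻¹ * z * f) * (f⁻¹ * c * f) := by group
        have e3 : f⁻¹ * z * f = a := by rw [← hfa]; group
        have e4 : f⁻¹ * c * f = z := by rw [hc]; group
        rw [e2, e3, e4]
      have hwa : w * a * w⁻¹ = a := by
        have e1 : w * a * w⁻¹ = f⁻¹ * (ρ * (f * a * f⁻¹) * ρ⁻¹) * f := by
          rw [hw]; group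
        rw [e1, hfa, hρz, ← hfa]
        group
      have hwN : w ∈ Subgroup.normalizer (U : Set X) := by
        apply mem_normalizer_of_conj_mem
        intro u hu
        rcases mem_kleinOf.mp hu with rfl | rfl | rfl | rfl
        · simp
        · rw [hwz, ← hza]
          exact mem_kleinOf.mpr (Or.inr (Or.inr (Or.inr rfl)))
        · rw [hwa]; exact haU
        · have e1 : w * (z * a) * w⁻¹ = (w * z * w⁻¹) * (w * a * w⁻¹) := by group
          rw [e1, hwz, hwa, mul_assoc, hza, ← mul_assoc, haa, one_mul]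
          exact hzU
      have h1 := Subgroup.mem_centralizer_iff.mp (hNz hwN) z rfl
      have h2 : w * z * w⁻¹ = z := by
        rw [mul_inv_eq_iff_eq_mul]
        exact h1.symm
      rw [hwz] at h2
      exact ha1 (mul_eq_right.mp h2)
    -- index two subgroups
    have hM : ∀ i : ZMod m, ∃ M : Subgroup X, M.index = 2 ∧ rfl' eS i ∉ M := by
      intro i
      rcases Cfsg.Agent.S0111.result S (Subgroup.zpowers (rot eS 1)) (Q_le eS) (Q_relIndex eS (by omega))
        (rfl' eS i) (orderOf_rfl eS i) (rfl'_mem eS i) (rfl_not_mem_Q eS i) with ⟨M, -, hM, hM2⟩ | ⟨g, hg⟩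
      · exact ⟨M, hM, hM2⟩
      · exfalso
        obtain ⟨j, hj⟩ := mem_Q_iff eS hg
        have h1 : rot eS j = zz eS := by
          apply eq_zz_of_rot eS hm2 hm
          · rw [← hj]
            have : (g * rfl' eS i * g⁻¹) * (g * rfl' eS i * g⁻¹) = g * (rfl' eS i * rfl' eS i) * g⁻¹ := by group
            rw [this, rfl_mul_self]; simp
          · rw [← hj]
            intro h
            apply rfl_ne_one eS i
            have h3 : rfl' eS i = g⁻¹ * (g * rfl' eS i * g⁻¹) * g := by group
            rw [h3, h]; simp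
        rw [h1] at hj
        apply NC i g⁻¹
        rw [inv_inv, ← hz] at *
        rw [← hj]
        group
    -- a character with value `-1` on both reflections
    obtain ⟨M₀, hM₀, hM₀a⟩ := hM 0
    obtain ⟨M₁, hM₁, hM₁a⟩ := hM 1
    obtain ⟨χ, hχ0, hχ1⟩ : ∃ χ : X →* ℤˣ, χ (rfl' eS 0) = -1 ∧ χ (rfl' eS 1) = -1 := by
      have f0 := signHom_of_not_mem M₀ hM₀ hM₀a
      have f1 := signHom_of_not_mem M₁ hM₁ hM₁a
      rcases Int.units_eq_one_or (signHom M₀ hM₀ (rfl' eS 1)) with h0 | h0
      · rcases Int.units_eq_one_or (signHom M₁ hM₁ (rfl' eS 0)) with h1 | h1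
        · refine ⟨signHom M₀ hM₀ * signHom M₁ hM₁, ?_, ?_⟩
          · rw [MonoidHom.mul_apply, f0, h1]; rfl
          · rw [MonoidHom.mul_apply, f1, h0]; rfl
        · exact ⟨signHom M₁ hM₁, h1, f1⟩
      · exact ⟨signHom M₀ hM₀, f0, h0⟩
    let X₁ : Subgroup X := χ.ker
    have ha₀ : rfl' eS 0 ∉ X₁ := by
      intro h
      have h1 : χ (rfl' eS 0) = 1 := h
      rw [hχ0] at h1
      exact absurd h1 (by decide)
    have hX₁index : X₁.index = 2 := by
      have h1 : X₁.index = Nat.card χ.range := Subgroup.index_ker χ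
      have h2 : Nat.card χ.range ≤ 2 := by
        calc Nat.card χ.range ≤ Nat.card ℤˣ := Nat.card_le_card_of_injective (fun a => (a : ℤˣ)) Subtype.val_injective
          _ = 2 := by simp [Nat.card_eq_fintype_card]
      have h3 : Nat.card χ.range ≠ 0 := Nat.card_pos.ne'
      have h4 : Nat.card χ.range ≠ 1 := by
        intro h5
        have h6 : Subsingleton χ.range := (Nat.card_eq_one_iff_unique.mp h5).1
        have h7 : (⟨χ (rfl' eS 0), ⟨_, rfl⟩⟩ : χ.range) = ⟨1, ⟨1, map_one χ⟩⟩ := Subsingleton.elim _ _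
        have h8 : χ (rfl' eS 0) = 1 := congrArg Subtype.val h7
        rw [hχ0] at h8
        exact absurd h8 (by decide)
      omega
    let Q : Subgroup X := Subgroup.zpowers (rot eS 1)
    have hQX₁ : Q ≤ X₁ := by
      rw [Subgroup.zpowers_le]
      have h1 : rot eS 1 = rfl' eS 0 * rfl' eS 1 := by rw [rfl_mul_rfl, sub_zero]
      show χ (rot eS 1) = 1
      rw [h1, map_mul, hχ0, hχ1]
      rfl
    have hcardQ : Nat.card Q = m := by
      show Nat.card (Subgroup.zpowers (rot eS 1)) = m
      rw [Nat.card_zpowers, orderOf_rot_one]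
    have hcardX₁ : Nat.card X₁ * 2 = Nat.card X := by
      have := Subgroup.card_mul_index X₁
      rwa [hX₁index] at this
    have hcardX : Nat.card (S : Subgroup X) * (S : Subgroup X).index = Nat.card X := Subgroup.card_mul_index _
    let Q₁ : Subgroup X₁ := Q.subgroupOf X₁
    have hcardQ₁ : Nat.card Q₁ = m := by
      rw [← hcardQ]
      exact Nat.card_congr (Subgroup.subgroupOfEquivOfLe hQX₁).toEquiv
    have hQ₁index : Q₁.index = (S : Subgroup X).index := by
      have h1 := Subgroup.card_mul_index Q₁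
      rw [hcardQ₁] at h1
      have h2 : m * (S : Subgroup X).index = Nat.card X₁ := by
        have : 2 * (m * (S : Subgroup X).index) = 2 * Nat.card X₁ := by
          rw [mul_comm 2 (Nat.card X₁), hcardX₁, ← hcardX, hcardS]
          ring
        exact Nat.eq_of_mul_eq_mul_left (by norm_num) this
      have hmpos : 0 < m := by omega
      exact Nat.eq_of_mul_eq_mul_left hmpos (h1.trans h2.symm)
    have hQ₁p : IsPGroup 2 Q₁ := by
      apply IsPGroup.of_card (n := k)
      rw [hcardQ₁, hk]
    have hQ₁i : ¬ 2 ∣ Q₁.index := by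
      rw [hQ₁index]
      exact S.not_dvd_index
    let P₁ : Sylow 2 X₁ := hQ₁p.toSylow hQ₁i
    have hP₁cyc : IsCyclic (P₁ : Subgroup X₁) := by
      have e : (P₁ : Subgroup X₁) ≃* Subgroup.zpowers (rot eS 1) := Subgroup.subgroupOfEquivOfLe hQX₁
      exact isCyclic_of_surjective e.symm e.symm.surjective
    have h2X₁ : 2 ∣ Nat.card X₁ := by
      have h1 : Nat.card Q₁ ∣ Nat.card X₁ := Subgroup.card_subgroup_dvd_card _
      rw [hcardQ₁] at h1
      exact (even_iff_two_dvd.mp hm2).trans h1
    have hfac : (Nat.card X₁).minFac = 2 := (Nat.minFac_eq_two_iff _).mpr h2X₁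
    have hNC₁ := hP₁cyc.normalizer_le_centralizer hfac
    have hcompl := hP₁cyc.isComplement' hfac
    set τ := MonoidHom.transferSylow P₁ (hP₁cyc.normalizer_le_centralizer hfac) with hτ
    have hker : ∀ x : X₁, Odd (orderOf x) → x ∈ τ.ker := by
      intro x hx
      rw [MonoidHom.mem_ker]
      have h1 : (τ x) ^ orderOf x = 1 := by
        rw [← map_pow, pow_orderOf_eq_one, map_one]
      obtain ⟨n, hn⟩ := IsPGroup.iff_orderOf.mp P₁.2 (τ x)
      have h2 : orderOf (τ x) ∣ orderOf x := orderOf_dvd_of_pow_eq_one h1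
      have h3 : Nat.Coprime (orderOf (τ x)) (orderOf x) := by
        rw [hn]
        apply Nat.Coprime.pow_left
        exact (Nat.Prime.coprime_iff_not_dvd Nat.prime_two).mpr (fun h => (Nat.not_even_iff_odd.mpr hx) (even_iff_two_dvd.mpr h))
      have h4 := Nat.Coprime.eq_one_of_dvd h3 h2
      exact orderOf_eq_one_iff.mp h4
    have hcardW₁ : Nat.card τ.ker = P₁.index := hcompl.index_eq_card.symm
    have hoddW₁ : Odd (Nat.card τ.ker) := by
      rw [hcardW₁, ← Nat.not_even_iff_odd, even_iff_two_dvd]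
      exact P₁.not_dvd_index
    have hodd : ∀ x ∈ τ.ker, Odd (orderOf x) := by
      intro x hx
      have h1 : orderOf (⟨x, hx⟩ : τ.ker) ∣ Nat.card τ.ker := orderOf_dvd_natCard _
      rw [Subgroup.orderOf_mk] at h1
      exact Odd.of_dvd_nat hoddW₁ h1
    let W : Subgroup X := τ.ker.map X₁.subtype
    have hX₁n : X₁.Normal := MonoidHom.normal_ker χ
    have hWn : W.Normal := by
      constructor
      rintro _ ⟨x, hx, rfl⟩ g
      have hmem : g * (x : X) * g⁻¹ ∈ X₁ := hX₁n.conj_mem _ x.2 g
      refine ⟨⟨g * x * g⁻¹, hmem⟩, ?_, rfl⟩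
      apply hker
      rw [Subgroup.orderOf_mk]
      have h1 : g * (x : X) * g⁻¹ = MulAut.conj g (x : X) := rfl
      rw [h1, MulEquiv.orderOf_eq, Subgroup.orderOf_coe]
      exact hodd x hx
    have hcardW : Nat.card W = Nat.card τ.ker :=
      (Nat.card_congr (Subgroup.equivMapOfInjective _ _ X₁.subtype_injective).toEquiv).symm
    refine ⟨S, W, hWn, ?_⟩
    apply Subgroup.isComplement'_of_coprime
    · rw [hcardW, ← hcardX₁, hcardS]
      have h1 := hcompl.card_mul_card
      have h2 : Nat.card (P₁ : Subgroup X₁) = m := hcardQ₁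
      rw [h2] at h1
      rw [← h1]
      ring
    · rw [hcardW]
      obtain ⟨n, hn⟩ := IsPGroup.iff_card.mp S.2
      rw [hn]
      apply Nat.Coprime.pow_right
      exact ((Nat.Prime.coprime_iff_not_dvd Nat.prime_two).mpr
        (fun h => (Nat.not_even_iff_odd.mpr hoddW₁) (even_iff_two_dvd.mpr h))).symm

/-- The forward direction. -/
lemma forward {X : Type*} [Group X] [Finite X] (S : Sylow 2 X) (hK : Cfsg.HasNormalPComplement 2 X)
    (U : Subgroup X) (hUS : U ≤ S) (_hU : IsKleinFour U) :
    Subgroup.normalizer (U : Set X) = Subgroup.centralizer (U : Set X) ⊔ ((S : Subgroup X) ⊓ Subgroup.normalizer (U : Set X)) := by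
  classical
  haveI : Fact (Nat.Prime 2) := ⟨Nat.prime_two⟩
  obtain ⟨P, K, hKn, hc⟩ := hK
  have hcard : Nat.card P = Nat.card S := Nat.card_congr (P.equiv S).toEquiv
  have hS : K.IsComplement' (S : Subgroup X) := by
    apply Subgroup.isComplement'_of_coprime
    · rw [← show Nat.card P = Nat.card (S : Subgroup X) from hcard]
      exact hc.card_mul_card
    · obtain ⟨n, hn⟩ := IsPGroup.iff_card.mp S.2
      rw [hn]
      apply Nat.Coprime.pow_right
      have h2 : ¬ 2 ∣ Nat.card K := by
        rw [← hc.index_eq_card]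
        exact P.not_dvd_index
      exact ((Nat.Prime.coprime_iff_not_dvd Nat.prime_two).mpr h2).symm
  apply le_antisymm
  · intro g hg
    obtain ⟨⟨k, s⟩, hks, -⟩ := hS.existsUnique g
    have hg' : g = (k : X) * (s : X) := hks.symm
    have hgU : ∀ u ∈ U, g * u * g⁻¹ ∈ U := fun u hu => (Subgroup.mem_normalizer_iff.mp hg u).mp hu
    have key : ∀ u ∈ U, g * u * g⁻¹ = (s : X) * u * (s : X)⁻¹ := by
      intro u hu
      have h1 : (g * u * g⁻¹) * ((s : X) * u * (s : X)⁻¹)⁻¹ ∈ K := by
        have h2 : (g * u * g⁻¹) * ((s : X) * u * (s : X)⁻¹)⁻¹ =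
            (k : X) * (((s : X) * u * (s : X)⁻¹) * (k : X)⁻¹ * ((s : X) * u * (s : X)⁻¹)⁻¹) := by
          rw [hg']; group
        rw [h2]
        exact K.mul_mem k.2 (hKn.conj_mem _ (K.inv_mem k.2) _)
      have h3 : (g * u * g⁻¹) * ((s : X) * u * (s : X)⁻¹)⁻¹ ∈ (S : Subgroup X) :=
        Subgroup.mul_mem _ (hUS (hgU u hu)) (Subgroup.inv_mem _
          (Subgroup.mul_mem _ (Subgroup.mul_mem _ s.2 (hUS hu)) (Subgroup.inv_mem _ s.2)))
      have h4 := hS.disjoint
      rw [Subgroup.disjoint_def] at h4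
      have h5 := h4 h1 h3
      exact mul_inv_eq_one.mp h5
    have hsN : (s : X) ∈ Subgroup.normalizer (U : Set X) := by
      apply mem_normalizer_of_conj_mem
      intro u hu
      rw [← key u hu]
      exact hgU u hu
    have hkC : (k : X) ∈ Subgroup.centralizer (U : Set X) := by
      rw [Subgroup.mem_centralizer_iff]
      intro w hw
      -- `w = g u g⁻¹`
      have h1 := (Subgroup.mem_normalizer_iff.mp (Subgroup.inv_mem _ hg) w).mp hw
      rw [inv_inv] at h1
      obtain ⟨u, hu, huw⟩ : ∃ u ∈ U, g * u * g⁻¹ = w := ⟨_, h1, by group⟩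
      have h2 : (s : X) * u * (s : X)⁻¹ = w := (key u hu).symm.trans huw
      have h4 : (k : X) * w * (k : X)⁻¹ = w := by
        calc (k : X) * w * (k : X)⁻¹ = (k : X) * ((s : X) * u * (s : X)⁻¹) * (k : X)⁻¹ := by rw [h2]
          _ = ((k : X) * s) * u * ((k : X) * s)⁻¹ := by group
          _ = g * u * g⁻¹ := by rw [hg']
          _ = w := huw
      rw [mul_inv_eq_iff_eq_mul] at h4
      exact h4.symm
    rw [hg']
    exact Subgroup.mul_mem_sup hkC ⟨s.2, hsN⟩
  · exact sup_le (centralizer_le_normalizer U) inf_le_right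

/-- Let X be a finite group whose Sylow 2-subgroup S is dihedral (of order at least 4). Then X has a normal 2-complement if and only if, for every Klein four-subgroup U ≤ S, the normalizer N_X(U) is generated by C_X(U) and N_S(U). -/
theorem result {X : Type*} [Group X] [Finite X] (S : Sylow 2 X) (m : ℕ) (hm : 2 ≤ m) (eS : (S : Subgroup X) ≃* DihedralGroup m) : Cfsg.HasNormalPComplement 2 X ↔ ∀ U : Subgroup X, U ≤ S → IsKleinFour U → Subgroup.normalizer (U : Set X) = Subgroup.centralizer (U : Set X) ⊔ ((S : Subgroup X) ⊓ Subgroup.normalizer (U : Set X)) := by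
  classical
  constructor
  · exact forward S
  · exact backward S m hm eS

end Cfsg.Agent.S1254
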