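import Mathlib
import Cfsg.Statements.S1255
import Cfsg.Agent.Lib.DihSylow
import Cfsg.Agent.Lib.SylowConjLemmas

set_option autoImplicit false
open Cfsg

namespace Cfsg.Agent.S1255

open Cfsg.Agent.Lib.DihSylow Cfsg.Agent.Lib.KleinTools

/-- Let X be a finite group whose Sylow 2-subgroup S is dihedral of order 2m ≥ 4. Then X has no subgroup of index 2 and no isolated involution if and only if either all involutions of X are conjugate, or for every Klein four-subgroup U ≤ S the index |N_X(U) : C_X(U)| equals 3 when |S| = 4 and equals 6 when |S| > 4. -/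
theorem result {X : Type*} [Group X] [Finite X] (S : Sylow 2 X) (m : ℕ) (hm : 2 ≤ m) (eS : (S : Subgroup X) ≃* DihedralGroup m) : ((∀ H : Subgroup X, H.index ≠ 2) ∧ (∀ z : X, ¬ Cfsg.IsIsolatedInvolution z)) ↔ ((∀ a b : X, orderOf a = 2 → orderOf b = 2 → IsConj a b) ∨ (∀ U : Subgroup X, U ≤ S → IsKleinFour U → (Subgroup.centralizer (U : Set X)).relIndex (Subgroup.normalizer (U : Set X)) = (if Nat.card S = 4 then 3 else 6))) := by
  classical
  haveI : NeZero m := ⟨by omega⟩
  have hm2 : Even m := by
    obtain ⟨n, hn⟩ := IsPGroup.iff_card.mp S.2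
    have h1 : m ∣ 2 ^ n := by
      have h2 : Nat.card (S : Subgroup X) = 2 * m := card_eq eS
      rw [hn] at h2
      exact ⟨2, by rw [h2]; ring⟩
    obtain ⟨k, -, rfl⟩ := (Nat.dvd_prime_pow Nat.prime_two).mp h1
    rcases k with _ | k
    · simp at hm
    · rw [pow_succ]; exact Even.mul_left even_two _
  set z : X := zz eS with hz
  have hzz : z * z = 1 := zz_mul_self eS hm2
  have hz1 : z ≠ 1 := zz_ne_one eS hm2 hm
  have hzo : orderOf z = 2 := orderOf_eq_prime (by rw [pow_two]; exact hzz) hz1
  have hconj_into : ∀ t : X, orderOf t = 2 → ∃ y, y * t * y⁻¹ ∈ (S : Subgroup X) := by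
    intro t ht
    have hT : IsPGroup 2 (Subgroup.zpowers t) := by
      apply IsPGroup.of_card (n := 1)
      rw [Nat.card_zpowers, ht, pow_one]
    obtain ⟨g, hg⟩ := Cfsg.Agent.Lib.SylowConjLemmas.exists_conj_mem S _ hT
    exact ⟨g, hg t (Subgroup.mem_zpowers t)⟩
  have hall : (∀ i, ∃ g, g * rfl' eS i * g⁻¹ = z) → ∀ a b : X, orderOf a = 2 → orderOf b = 2 → IsConj a b := by
    intro H
    have key : ∀ a : X, orderOf a = 2 → ∃ g, g * a * g⁻¹ = z := by
      intro a ha
      obtain ⟨y, hy⟩ := hconj_into a ha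
      have ha2 : a * a = 1 := by rw [← pow_two, ← ha]; exact pow_orderOf_eq_one a
      have h2 : (y * a * y⁻¹) * (y * a * y⁻¹) = 1 := by
        have : (y * a * y⁻¹) * (y * a * y⁻¹) = y * (a * a) * y⁻¹ := by group
        rw [this, ha2]; simp
      have h1 : y * a * y⁻¹ ≠ 1 := by
        intro h
        have : a = 1 := by
          have h3 : a = y⁻¹ * (y * a * y⁻¹) * y := by group
          rw [h3, h]; simp
        rw [this] at ha
        simp at ha
      rcases invol_cases eS hm2 hm hy h2 h1 with h3 | ⟨i, h3⟩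
      · exact ⟨y, h3⟩
      · obtain ⟨g, hg⟩ := H i
        refine ⟨g * y, ?_⟩
        rw [← hg, ← h3]
        group
    intro a b ha hb
    obtain ⟨g, hg⟩ := key a ha
    obtain ⟨g', hg'⟩ := key b hb
    rw [isConj_iff]
    refine ⟨g'⁻¹ * g, ?_⟩
    have : (g'⁻¹ * g) * a * (g'⁻¹ * g)⁻¹ = g'⁻¹ * (g * a * g⁻¹) * g' := by group
    rw [this, hg, ← hg']
    group
  have hA : (∀ a b : X, orderOf a = 2 → orderOf b = 2 → IsConj a b) →
      ((∀ H : Subgroup X, H.index ≠ 2) ∧ (∀ z : X, ¬ Cfsg.IsIsolatedInvolution z)) := by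
    intro hA
    constructor
    · intro H hH
      haveI hN : H.Normal := Subgroup.normal_of_index_eq_two hH
      have hcard : Nat.card H * 2 = Nat.card X := by
        have := Subgroup.card_mul_index H
        rwa [hH] at this
      have h4 : 4 ∣ Nat.card X := by
        have h5 : Nat.card (S : Subgroup X) ∣ Nat.card X := Subgroup.card_subgroup_dvd_card _
        have h6 : Nat.card (S : Subgroup X) = 2 * m := card_eq eS
        rw [h6] at h5
        obtain ⟨c, hc⟩ := hm2
        refine dvd_trans ⟨c, ?_⟩ h5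
        rw [hc]; ring
      have h2 : 2 ∣ Nat.card H := by omega
      haveI : Fact (Nat.Prime 2) := ⟨Nat.prime_two⟩
      obtain ⟨t, ht⟩ := exists_prime_orderOf_dvd_card' 2 h2
      have ht' : orderOf (t : X) = 2 := by rw [← ht]; exact Subgroup.orderOf_coe _
      have hrefl : ∀ i, rfl' eS i ∈ H := by
        intro i
        obtain ⟨c, hc⟩ := isConj_iff.mp (hA (t : X) (rfl' eS i) ht' (orderOf_rfl eS i))
        rw [← hc]
        exact hN.conj_mem _ t.2 _
      have hle := le_of_rfl_mem eS hrefl
      have hdvd := Subgroup.index_dvd_of_le hle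
      rw [hH] at hdvd
      exact S.not_dvd_index hdvd
    · rintro z₀ ⟨hz0, hiso⟩
      obtain ⟨g, hg⟩ := isConj_iff.mp (hA z z₀ hzo hz0)
      set a : X := rfl' eS 0 with ha
      have hza : z * a = a * z := zz_comm_rfl eS hm2 0
      set t : X := g * a * g⁻¹ with ht
      have hto : orderOf t = 2 := by
        rw [ht]
        have : g * a * g⁻¹ = MulAut.conj g a := rfl
        rw [this, MulEquiv.orderOf_eq]
        exact orderOf_rfl eS 0
      obtain ⟨h, hh⟩ := isConj_iff.mp (hA z₀ t hz0 hto)
      have hcomm : Commute z₀ (h * z₀ * h⁻¹) := by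
        rw [hh, ← hg, ht]
        show g * z * g⁻¹ * (g * a * g⁻¹) = g * a * g⁻¹ * (g * z * g⁻¹)
        calc g * z * g⁻¹ * (g * a * g⁻¹) = g * (z * a) * g⁻¹ := by group
          _ = g * (a * z) * g⁻¹ := by rw [hza]
          _ = g * a * g⁻¹ * (g * z * g⁻¹) := by group
      have h3 := hiso h hcomm
      rw [hh, ← hg, ht] at h3
      have h4 : a = z := by
        have h5 : g⁻¹ * (g * a * g⁻¹) * g = g⁻¹ * (g * z * g⁻¹) * g := by rw [h3]
        simpa [mul_assoc] using h5
      exact rfl_ne_zz eS 0 h4
  constructor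
  · rintro ⟨hG, -⟩
    left
    apply hall
    intro i
    rcases Cfsg.Agent.S0111.result S (Subgroup.zpowers (rot eS 1)) (Q_le eS) (Q_relIndex eS (by omega))
      (rfl' eS i) (orderOf_rfl eS i) (rfl'_mem eS i) (rfl_not_mem_Q eS i) with ⟨M, -, hM, -⟩ | ⟨g, hg⟩
    · exact absurd hM (hG M)
    · refine ⟨g, ?_⟩
      obtain ⟨j, hj⟩ := mem_Q_iff eS hg
      rw [hj]
      apply eq_zz_of_rot eS hm2 hm
      · rw [← hj]
        have : (g * rfl' eS i * g⁻¹) * (g * rfl' eS i * g⁻¹) = g * (rfl' eS i * rfl' eS i) * g⁻¹ := by group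
        rw [this, rfl_mul_self]; simp
      · rw [← hj]
        intro h
        apply rfl_ne_one eS i
        have h3 : rfl' eS i = g⁻¹ * (g * rfl' eS i * g⁻¹) * g := by group
        rw [h3, h]; simp
  · rintro (hA' | hB)
    · exact hA hA'
    · apply hA
      apply hall
      intro i
      by_contra hno
      push Not at hno
      set a : X := rfl' eS i with ha
      have haa : a * a = 1 := rfl_mul_self eS i
      have ha1 : a ≠ 1 := rfl_ne_one eS i
      have hza : z * a = a * z := zz_comm_rfl eS hm2 i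
      have hz2 : z ^ 2 = 1 := by rw [pow_two]; exact hzz
      have ha2 : a ^ 2 = 1 := by rw [pow_two]; exact haa
      have hzne : z ≠ a := fun h => rfl_ne_zz eS i h.symm
      let U : Subgroup X := kleinOf z a hz2 ha2 hza
      have hU : IsKleinFour U := isKleinFour_kleinOf hz2 ha2 hza hz1 ha1 hzne
      have hUS : U ≤ (S : Subgroup X) := by
        intro y hy
        rcases mem_kleinOf.mp hy with rfl | rfl | rfl | rfl
        · exact Subgroup.one_mem _
        · exact zz_mem eS
        · exact rfl'_mem eS i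
        · exact Subgroup.mul_mem _ (zz_mem eS) (rfl'_mem eS i)
      have hidx := hB U hUS hU
      have hgt : 2 < (Subgroup.centralizer (U : Set X)).relIndex (Subgroup.normalizer (U : Set X)) := by
        rw [hidx]
        split_ifs <;> norm_num
      have hzU : z ∈ U := mem_kleinOf.mpr (Or.inr (Or.inl rfl))
      have haU : a ∈ U := mem_kleinOf.mpr (Or.inr (Or.inr (Or.inl rfl)))
      have hnz : ∀ x ∈ Subgroup.normalizer (U : Set X), x * z * x⁻¹ = z ∨ x * z * x⁻¹ = z * a := by
        intro x hx
        have h1 := (Subgroup.mem_normalizer_iff.mp hx z).mp hzU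
        rcases mem_kleinOf.mp h1 with h | h | h | h
        · exfalso
          apply hz1
          have h3 : z = x⁻¹ * (x * z * x⁻¹) * x := by group
          rw [h3, h]; simp
        · exact Or.inl h
        · exfalso
          apply hno x⁻¹
          have h3 : x⁻¹ * a * x⁻¹⁻¹ = x⁻¹ * (x * z * x⁻¹) * x := by rw [h, inv_inv]
          rw [h3]; group
        · exact Or.inr h
      have hna : ∀ x ∈ Subgroup.normalizer (U : Set X), x * a * x⁻¹ = a ∨ x * a * x⁻¹ = z * a := by
        intro x hx
        have h1 := (Subgroup.mem_normalizer_iff.mp hx a).mp haU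
        rcases mem_kleinOf.mp h1 with h | h | h | h
        · exfalso
          apply ha1
          have h3 : a = x⁻¹ * (x * a * x⁻¹) * x := by group
          rw [h3, h]; simp
        · exact absurd h (hno x)
        · exact Or.inl h
        · exact Or.inr h
      have hcent : ∀ x : X, x * z * x⁻¹ = z → x * a * x⁻¹ = a → x ∈ Subgroup.centralizer (U : Set X) := by
        intro x h1 h2
        rw [Subgroup.mem_centralizer_iff]
        have h1' : x * z = z * x := by rwa [mul_inv_eq_iff_eq_mul] at h1
        have h2' : x * a = a * x := by rwa [mul_inv_eq_iff_eq_mul] at h2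
        intro y hy
        rcases mem_kleinOf.mp hy with rfl | rfl | rfl | rfl
        · simp
        · exact h1'.symm
        · exact h2'.symm
        · rw [mul_assoc, ← h2', ← mul_assoc, ← h1', mul_assoc]
      by_cases hcase : ∀ x ∈ Subgroup.normalizer (U : Set X), x * z * x⁻¹ = z
      · have := relIndex_le_two (Subgroup.normalizer (U : Set X)) (Subgroup.centralizer (U : Set X))
          z a (z * a) hcase hna (fun x _ h1 h2 => hcent x h1 h2)
        omega
      · push Not at hcase
        obtain ⟨x₁, hx₁, hx₁z⟩ := hcase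
        have hx₁' : x₁ * z * x₁⁻¹ = z * a := (hnz x₁ hx₁).resolve_left hx₁z
        have hca : ∀ x ∈ Subgroup.normalizer (U : Set X), x * a * x⁻¹ = a := by
          intro x hx
          refine (hna x hx).resolve_right ?_
          intro h
          apply hno (x⁻¹ * x₁)⁻¹
          have h1 : x₁ * z * x₁⁻¹ = x * a * x⁻¹ := by rw [hx₁', h]
          calc (x⁻¹ * x₁)⁻¹ * a * (x⁻¹ * x₁)⁻¹⁻¹ = x₁⁻¹ * (x * a * x⁻¹) * x₁ := by group
            _ = x₁⁻¹ * (x₁ * z * x₁⁻¹) * x₁ := by rw [h1]
            _ = z := by group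
        have := relIndex_le_two (Subgroup.normalizer (U : Set X)) (Subgroup.centralizer (U : Set X))
          a z (z * a) hca hnz (fun x _ h1 h2 => hcent x h2 h1)
        omega

end Cfsg.Agent.S1255
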