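import Mathlib
import Cfsg.Statements.S1256
import Cfsg.Agent.Lib.DihSylow
import Cfsg.Agent.Lib.SylowConjLemmas
import Cfsg.Agent.Lib.CycChar

set_option autoImplicit false
open Cfsg

namespace Cfsg.Agent.S1256

open Cfsg.Agent.Lib.DihSylow Cfsg.Agent.Lib.KleinTools Cfsg.Agent.Lib.CycChar Cfsg.Agent.Lib.SylowConjLemmas

lemma mem_map_conj_iff {G : Type*} [Group G] {Q : Subgroup G} {g x : G} :
    x ∈ Q.map (MulAut.conj g).toMonoidHom ↔ g⁻¹ * x * g ∈ Q := by
  constructor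
  · rintro ⟨y, hy, rfl⟩
    simpa [mul_assoc] using hy
  · intro h
    exact ⟨_, h, by simp [mul_assoc]⟩

lemma map_conj_map {G : Type*} [Group G] (Q : Subgroup G) (a b : G) :
    (Q.map (MulAut.conj a).toMonoidHom).map (MulAut.conj b).toMonoidHom = Q.map (MulAut.conj (b * a)).toMonoidHom := by
  ext x
  rw [mem_map_conj_iff, mem_map_conj_iff, mem_map_conj_iff]
  simp [mul_assoc]

/-- A `p`-subgroup of `H` can be conjugated into the image of a Sylow `p`-subgroup of `H`, by an element of `H`. -/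
lemma exists_conj_le {G : Type*} [Group G] [Finite G] {p : ℕ} [Fact p.Prime] (H : Subgroup G)
    (P : Sylow p ↥H) (T : Subgroup G) (hTH : T ≤ H) (hT : IsPGroup p T) :
    ∃ h ∈ H, T.map (MulAut.conj h).toMonoidHom ≤ (P : Subgroup ↥H).map H.subtype := by
  have hA : IsPGroup p (T.subgroupOf H) := hT.comap_of_injective H.subtype H.subtype_injective
  obtain ⟨R, hR⟩ := hA.exists_le_sylow
  obtain ⟨c, hc⟩ := MulAction.exists_smul_eq H R P
  refine ⟨c, c.2, ?_⟩
  rintro _ ⟨t, ht, rfl⟩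
  refine ⟨c * ⟨t, hTH ht⟩ * c⁻¹, ?_, rfl⟩
  rw [← hc, Sylow.smul_def, Sylow.pointwise_smul_def]
  exact ⟨⟨t, hTH ht⟩, hR (Subgroup.mem_subgroupOf.mpr ht), rfl⟩

lemma mem_normalizer_of_conj_mem {X : Type*} [Group X] [Finite X] {U : Subgroup X} {x : X}
    (h : ∀ u ∈ U, x * u * x⁻¹ ∈ U) : x ∈ Subgroup.normalizer (U : Set X) := by
  rw [Subgroup.mem_normalizer_iff]
  intro y
  refine ⟨h y, fun hy => ?_⟩
  let f : U → U := fun u => ⟨x * u * x⁻¹, h u u.2⟩
  have hf : Function.Injective f := by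
    intro a b hab
    have h1 : x * (a : X) * x⁻¹ = x * b * x⁻¹ := congrArg Subtype.val hab
    apply Subtype.ext
    exact mul_left_cancel (mul_right_cancel h1)
  obtain ⟨u, hu⟩ := (Finite.injective_iff_surjective.mp hf) ⟨x * y * x⁻¹, hy⟩
  have h1 : x * (u : X) * x⁻¹ = x * y * x⁻¹ := congrArg Subtype.val hu
  have h2 : (u : X) = y := mul_left_cancel (mul_right_cancel h1)
  rw [← h2]; exact u.2

section Rot

variable {X : Type*} [Group X] [Finite X] (S : Sylow 2 X) {m : ℕ} [NeZero m]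
  (eS : (S : Subgroup X) ≃* DihedralGroup m)

/-- A quarter turn. -/
noncomputable def qq (m : ℕ) : ZMod m := ((m / 4 : ℕ) : ZMod m)

lemma two_qq (h4 : 4 ∣ m) : 2 * qq m = half m := by
  show 2 * ((m / 4 : ℕ) : ZMod m) = ((m / 2 : ℕ) : ZMod m)
  have h1 : m / 2 = 2 * (m / 4) := by omega
  rw [h1]
  push_cast
  rfl

lemma even_of_four (h4 : 4 ∣ m) : Even m := by
  obtain ⟨c, rfl⟩ := h4
  exact ⟨2 * c, by ring⟩

lemma two_le_of_four (h4 : 4 ∣ m) : 2 ≤ m := by
  have := Nat.le_of_dvd (Nat.pos_of_ne_zero (NeZero.ne m)) h4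
  omega

lemma four_qq (h4 : 4 ∣ m) : 4 * qq m = 0 := by
  have h1 := two_half (m := m) (even_of_four h4)
  rw [← two_qq h4] at h1
  linear_combination h1

lemma two_qq_ne (h4 : 4 ∣ m) : 2 * qq m ≠ 0 := by
  rw [two_qq h4]
  exact half_ne_zero (even_of_four h4) (two_le_of_four h4)

include eS in
/-- Elements of order four of `S`. -/
lemma order4 (h4 : 4 ∣ m) {x : X} (hxS : x ∈ (S : Subgroup X)) (h1 : x * x ≠ 1) (h2 : (x * x) * (x * x) = 1) :
    x = rot eS (qq m) ∨ x = rot eS (-qq m) := by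
  have hm2 := even_of_four h4
  have hm := two_le_of_four h4
  rcases mem_cases eS hxS with ⟨j, rfl⟩ | ⟨i, rfl⟩
  · rw [rot_mul_rot] at h1 h2
    have h3 := eq_zz_of_rot eS hm2 hm h2 h1
    have h4' : j + j = half m := rot_inj eS h3
    have h5 : 2 * (j - qq m) = 0 := by
      have := two_qq (m := m) h4
      linear_combination h4' - this
    by_cases h6 : j - qq m = 0
    · left
      rw [sub_eq_zero.mp h6]
    · right
      have h7 := two_tors (j - qq m) (half m) h5 (two_half hm2) h6 (half_ne_zero hm2 hm)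
      have h8 : j = -qq m := by
        have h9 := two_qq (m := m) h4
        have h10 := four_qq (m := m) h4
        linear_combination h7 - h9 + h10
      rw [h8]
  · exact absurd (rfl_mul_self eS i) h1

lemma rfl_not_comm (i : ZMod m) {j : ZMod m} (h : 2 * j ≠ 0) :
    rfl' eS i * rot eS j ≠ rot eS j * rfl' eS i := by
  intro h1
  rw [rfl_mul_rot, rot_mul_rfl] at h1
  apply h
  have := rfl_inj eS h1
  linear_combination this

lemma par_cases (j : ZMod m) : (∃ c, j = 2 * c) ∨ ∃ c, j = 2 * c + 1 := by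
  have h1 : j = ((j.val : ℕ) : ZMod m) := (ZMod.natCast_zmod_val j).symm
  rcases Nat.even_or_odd' j.val with ⟨c, hc | hc⟩
  · left
    refine ⟨(c : ZMod m), ?_⟩
    rw [h1, hc]
    push_cast
    ring
  · right
    refine ⟨(c : ZMod m), ?_⟩
    rw [h1, hc]
    push_cast
    ring

lemma one_ne_two_mul (h4 : 4 ∣ m) (t : ZMod m) : (1 : ZMod m) ≠ 2 * t := by
  intro h
  have h1 := two_half (m := m) (even_of_four h4)
  apply half_ne_zero (m := m) (even_of_four h4) (two_le_of_four h4)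
  calc half m = half m * 1 := by ring
    _ = half m * (2 * t) := by rw [← h]
    _ = (2 * half m) * t := by ring
    _ = 0 := by rw [h1]; ring

/-- The centralizer of the quarter turn. -/
abbrev CC : Subgroup X := Subgroup.centralizer ({rot eS (qq m)} : Set X)

lemma rot_mem_CC (j : ZMod m) : rot eS j ∈ CC S eS := by
  rw [Subgroup.mem_centralizer_iff]
  intro y hy
  rw [Set.mem_singleton_iff] at hy
  subst hy
  rw [rot_mul_rot, rot_mul_rot, add_comm]

lemma rot_qq_zpow : rot eS (qq m) = (rot eS 1) ^ (((m / 4 : ℕ) : ℤ)) := by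
  rw [rot_zpow, Int.cast_natCast]
  rfl

/-- The rotations form a Sylow 2-subgroup of the centralizer. -/
lemma not_two_dvd_index (h4 : 4 ∣ m) (k : ℕ) (hk : m = 2 ^ k) :
    ¬ 2 ∣ (Subgroup.zpowers (⟨rot eS 1, rot_mem_CC S eS 1⟩ : CC S eS)).index := by
  haveI : Fact (Nat.Prime 2) := ⟨Nat.prime_two⟩
  set x : CC S eS := ⟨rot eS 1, rot_mem_CC S eS 1⟩ with hx
  have hxo : orderOf x = m := by
    rw [hx, Subgroup.orderOf_mk, orderOf_rot_one]
  have hxp : IsPGroup 2 (Subgroup.zpowers x) := by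
    apply IsPGroup.of_card (n := k)
    rw [Nat.card_zpowers, hxo, hk]
  obtain ⟨P, hP⟩ := hxp.exists_le_sylow
  have hPX : IsPGroup 2 ((P : Subgroup (CC S eS)).map (CC S eS).subtype) := P.2.map _
  obtain ⟨y, hy⟩ := exists_conj_mem S _ hPX
  have hρP : (⟨rot eS (qq m), rot_mem_CC S eS _⟩ : CC S eS) ∈ (P : Subgroup (CC S eS)) := by
    apply hP
    refine ⟨((m / 4 : ℕ) : ℤ), ?_⟩
    apply Subtype.ext
    show ((x ^ (((m / 4 : ℕ) : ℤ)) : CC S eS) : X) = rot eS (qq m)
    rw [rot_qq_zpow S eS]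
    simp [hx]
  have h1 := hy _ ⟨_, hρP, rfl⟩
  have hsub : (CC S eS).subtype ⟨rot eS (qq m), rot_mem_CC S eS _⟩ = rot eS (qq m) := rfl
  rw [hsub] at h1
  set ρ : X := rot eS (qq m) with hρ
  have hρρ : ρ * ρ = zz eS := by
    rw [hρ, rot_mul_rot, zz, ← two_qq h4, two_mul]
  have hzz := zz_mul_self eS (even_of_four h4)
  have hz1 := zz_ne_one eS (even_of_four h4) (two_le_of_four h4)
  have h2 : (y * ρ * y⁻¹) * (y * ρ * y⁻¹) = y * zz eS * y⁻¹ := by
    rw [← hρρ]; group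
  have h3 : y * ρ * y⁻¹ = rot eS (qq m) ∨ y * ρ * y⁻¹ = rot eS (-qq m) := by
    apply order4 S eS h4 h1
    · rw [h2]
      intro h
      apply hz1
      have h3 : zz eS = y⁻¹ * (y * zz eS * y⁻¹) * y := by group
      rw [h3, h]; simp
    · rw [h2]
      have : (y * zz eS * y⁻¹) * (y * zz eS * y⁻¹) = y * (zz eS * zz eS) * y⁻¹ := by group
      rw [this, hzz]; simp
  -- every element of `P` goes to a rotation
  have hrot : ∀ t : CC S eS, t ∈ (P : Subgroup (CC S eS)) → y * (t : X) * y⁻¹ ∈ Subgroup.zpowers (rot eS 1) := by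
    intro t ht
    have h4' := hy _ ⟨t, ht, rfl⟩
    have hsub2 : (CC S eS).subtype t = (t : X) := rfl
    rw [hsub2] at h4'
    have hcomm : (y * (t : X) * y⁻¹) * (y * ρ * y⁻¹) = (y * ρ * y⁻¹) * (y * (t : X) * y⁻¹) := by
      have h5 : ρ * (t : X) = t * ρ := Subgroup.mem_centralizer_iff.mp t.2 ρ rfl
      calc (y * (t : X) * y⁻¹) * (y * ρ * y⁻¹) = y * ((t : X) * ρ) * y⁻¹ := by group
        _ = y * (ρ * t) * y⁻¹ := by rw [h5]
        _ = (y * ρ * y⁻¹) * (y * (t : X) * y⁻¹) := by group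
    rcases mem_cases eS h4' with ⟨j, hj⟩ | ⟨i, hi⟩
    · rw [hj]
      have hj' : rot eS j = (rot eS 1) ^ ((j.val : ℕ) : ℤ) := by
        rw [rot_zpow]
        congr 1
        push_cast
        exact (ZMod.natCast_zmod_val j).symm
      rw [hj']
      exact Subgroup.zpow_mem_zpowers _ _
    · exfalso
      rw [hi] at hcomm
      rcases h3 with h3 | h3
      · rw [h3] at hcomm
        exact rfl_not_comm S eS i (two_qq_ne h4) hcomm
      · rw [h3] at hcomm
        refine rfl_not_comm S eS i ?_ hcomm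
        intro h
        apply two_qq_ne (m := m) h4
        linear_combination -h
  have hcardP : Nat.card (P : Subgroup (CC S eS)) ≤ m := by
    have hQ : Nat.card (Subgroup.zpowers (rot eS 1)) = m := by
      rw [Nat.card_zpowers, orderOf_rot_one]
    let f : ↥(P : Subgroup (CC S eS)) → Subgroup.zpowers (rot eS 1) := fun t =>
      ⟨y * ((t : CC S eS) : X) * y⁻¹, hrot t t.2⟩
    have hle := Nat.card_le_card_of_injective f (by
      intro a b hab
      have h5 : y * ((a : CC S eS) : X) * y⁻¹ = y * ((b : CC S eS) : X) * y⁻¹ := congrArg Subtype.val hab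
      apply Subtype.ext
      apply Subtype.ext
      exact mul_left_cancel (mul_right_cancel h5))
    exact hle.trans hQ.le
  have heq : Subgroup.zpowers x = (P : Subgroup (CC S eS)) := by
    apply Subgroup.eq_of_le_of_card_ge hP
    rw [Nat.card_zpowers, hxo]
    exact hcardP
  rw [heq]
  exact P.not_dvd_index

/-- Conjugation by an element taking the quarter turn into `S` preserves the parity of reflections. -/
lemma parity (h4 : 4 ∣ m) (k : ℕ) (hk : m = 2 ^ (k + 1)) {y : X} (hy : y * rot eS (qq m) * y⁻¹ ∈ (S : Subgroup X))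
    {i i' : ZMod m} (hii : y * rfl' eS i * y⁻¹ = rfl' eS i') : ∃ c, i' - i = 2 * c := by
  set ρ : X := rot eS (qq m) with hρ
  set a : X := rfl' eS i with ha
  have hρρ : ρ * ρ = zz eS := by
    rw [hρ, rot_mul_rot, zz, ← two_qq h4, two_mul]
  have hzz := zz_mul_self eS (even_of_four h4)
  have hz1 := zz_ne_one eS (even_of_four h4) (two_le_of_four h4)
  have hρinv : ρ⁻¹ = rot eS (-qq m) := rot_inv eS _
  have h2 : (y * ρ * y⁻¹) * (y * ρ * y⁻¹) = y * zz eS * y⁻¹ := by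
    rw [← hρρ]; group
  have h3 : y * ρ * y⁻¹ = ρ ∨ y * ρ * y⁻¹ = ρ⁻¹ := by
    rw [hρinv]
    apply order4 S eS h4 hy
    · rw [h2]
      intro h
      apply hz1
      have h3 : zz eS = y⁻¹ * (y * zz eS * y⁻¹) * y := by group
      rw [h3, h]; simp
    · rw [h2]
      have : (y * zz eS * y⁻¹) * (y * zz eS * y⁻¹) = y * (zz eS * zz eS) * y⁻¹ := by group
      rw [this, hzz]; simp
  have haa : a * a = 1 := rfl_mul_self eS i
  have hai : a⁻¹ = a := rfl_inv eS i
  have haρ : a * ρ * a⁻¹ = ρ⁻¹ := by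
    rw [ha, hρ, rfl_conj_rot, rot_inv]
  -- an element of the centralizer with the same effect
  obtain ⟨y₁, hy₁C, hy₁⟩ : ∃ y₁ ∈ CC S eS, y₁ * a * y₁⁻¹ = rfl' eS i' := by
    rcases h3 with h3 | h3
    · refine ⟨y, ?_, hii⟩
      rw [Subgroup.mem_centralizer_iff]
      intro z hz
      rw [Set.mem_singleton_iff] at hz
      subst hz
      rw [mul_inv_eq_iff_eq_mul] at h3
      exact h3.symm
    · refine ⟨y * a, ?_, ?_⟩
      · rw [Subgroup.mem_centralizer_iff]
        intro z hz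
        rw [Set.mem_singleton_iff] at hz
        subst hz
        have h5 : (y * a) * ρ * (y * a)⁻¹ = ρ := by
          have e1 : (y * a) * ρ * (y * a)⁻¹ = y * (a * ρ * a⁻¹) * y⁻¹ := by group
          rw [e1, haρ]
          have e2 : y * ρ⁻¹ * y⁻¹ = (y * ρ * y⁻¹)⁻¹ := by group
          rw [e2, h3, inv_inv]
        rw [mul_inv_eq_iff_eq_mul] at h5
        exact h5.symm
      · rw [← hii]
        have e1 : (y * a) * a * (y * a)⁻¹ = y * a * (a * a⁻¹) * y⁻¹ := by group
        rw [e1, mul_inv_cancel, mul_one]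
  -- the character
  have hnd := not_two_dvd_index S eS h4 (k + 1) hk
  set x : CC S eS := ⟨rot eS 1, rot_mem_CC S eS 1⟩ with hx
  have hxo : orderOf x = 2 ^ (k + 1) := by
    rw [hx, Subgroup.orderOf_mk, orderOf_rot_one, hk]
  obtain ⟨l, hl⟩ := exists_char x k hxo hnd
  -- conjugation by `a`
  have hconjC : ∀ t ∈ CC S eS, a * t * a⁻¹ ∈ CC S eS := by
    intro t ht
    rw [Subgroup.mem_centralizer_iff]
    intro z hz
    rw [Set.mem_singleton_iff] at hz
    subst hz
    have h5 : ρ * t = t * ρ := Subgroup.mem_centralizer_iff.mp ht ρ rfl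
    have h6 : ρ⁻¹ * t = t * ρ⁻¹ := by
      have := (Commute.inv_left (show Commute ρ t from h5))
      exact this
    have h7 : ρ = a * ρ⁻¹ * a⁻¹ := by
      have e7 : a * ρ⁻¹ * a⁻¹ = (a * ρ * a⁻¹)⁻¹ := by group
      rw [e7, haρ, inv_inv]
    calc ρ * (a * t * a⁻¹) = (a * ρ⁻¹ * a⁻¹) * (a * t * a⁻¹) := by rw [← h7]
      _ = a * (ρ⁻¹ * t) * a⁻¹ := by group
      _ = a * (t * ρ⁻¹) * a⁻¹ := by rw [h6]
      _ = (a * t * a⁻¹) * (a * ρ⁻¹ * a⁻¹) := by group
      _ = (a * t * a⁻¹) * ρ := by rw [← h7]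
  let σ : CC S eS →* CC S eS := MonoidHom.mk' (fun t => ⟨a * t * a⁻¹, hconjC t t.2⟩) (by
    intro s t
    apply Subtype.ext
    show a * ((s : X) * t) * a⁻¹ = (a * s * a⁻¹) * (a * t * a⁻¹)
    group)
  have hσ : σ x = x⁻¹ := by
    apply Subtype.ext
    show a * rot eS 1 * a⁻¹ = (rot eS 1)⁻¹
    rw [ha, rfl_conj_rot, rot_inv]
  have hinv := char_invariant x hnd l σ hσ
  -- the computation
  have hval : rot eS (i' - i) = a * rfl' eS i' := by
    rw [ha, rfl_mul_rfl]
  have hval2 : rot eS (i' - i) = (a * y₁ * a⁻¹) * y₁⁻¹ := by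
    rw [hval, ← hy₁, hai]
    group
  have hl1 : l ⟨rot eS (i' - i), rot_mem_CC S eS _⟩ = 1 := by
    have e1 : (⟨rot eS (i' - i), rot_mem_CC S eS _⟩ : CC S eS) = σ ⟨y₁, hy₁C⟩ * (⟨y₁, hy₁C⟩ : CC S eS)⁻¹ := by
      apply Subtype.ext
      exact hval2
    rw [e1, map_mul, map_inv, hinv, mul_inv_cancel]
  rcases par_cases (i' - i) with hc | ⟨c, hc⟩
  · exact hc
  · exfalso
    have e1 : (⟨rot eS (i' - i), rot_mem_CC S eS _⟩ : CC S eS) =
        (⟨rot eS c, rot_mem_CC S eS _⟩ : CC S eS) * ⟨rot eS c, rot_mem_CC S eS _⟩ * x := by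
      apply Subtype.ext
      show rot eS (i' - i) = rot eS c * rot eS c * rot eS 1
      rw [rot_mul_rot, rot_mul_rot, hc]
      congr 1
      ring
    rw [e1, map_mul, map_mul, Int.units_mul_self, one_mul, hl] at hl1
    exact absurd hl1 (by decide)

end Rot

section Rot2

variable {X : Type*} [Group X] [Finite X] {S : Sylow 2 X} {m : ℕ} [NeZero m]
  (eS : (S : Subgroup X) ≃* DihedralGroup m)

lemma zz_mul_rfl (i : ZMod m) : zz eS * rfl' eS i = rfl' eS (i - half m) := by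
  unfold zz
  rw [rot_mul_rfl]

lemma rot_qq_conj (h4 : 4 ∣ m) (i : ZMod m) :
    rot eS (qq m) * rfl' eS i * (rot eS (qq m))⁻¹ = zz eS * rfl' eS i := by
  rw [rot_conj_rfl, zz_mul_rfl eS, two_qq h4]

/-- Conjugation taking the quarter turn into `S` fixes the central involution. -/
lemma conj_zz (h4 : 4 ∣ m) {y : X} (hy : y * rot eS (qq m) * y⁻¹ ∈ (S : Subgroup X)) :
    y * zz eS * y⁻¹ = zz eS := by
  set ρ : X := rot eS (qq m) with hρ
  have hρρ : ρ * ρ = zz eS := by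
    rw [hρ, rot_mul_rot, zz, ← two_qq h4, two_mul]
  have hzz := zz_mul_self eS (even_of_four h4)
  have hz1 := zz_ne_one eS (even_of_four h4) (two_le_of_four h4)
  have h2 : (y * ρ * y⁻¹) * (y * ρ * y⁻¹) = y * zz eS * y⁻¹ := by
    rw [← hρρ]; group
  have h3 := order4 S eS h4 hy (by
      rw [h2]
      intro h
      apply hz1
      have h3 : zz eS = y⁻¹ * (y * zz eS * y⁻¹) * y := by group
      rw [h3, h]; simp) (by
      rw [h2]
      have : (y * zz eS * y⁻¹) * (y * zz eS * y⁻¹) = y * (zz eS * zz eS) * y⁻¹ := by group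
      rw [this, hzz]; simp)
  rw [← h2]
  rcases h3 with h3 | h3
  · rw [h3, ← hρ, hρρ]
  · rw [h3, rot_mul_rot]
    unfold zz
    congr 1
    have h5 := two_half (m := m) (even_of_four h4)
    have h6 := two_qq (m := m) h4
    linear_combination -h6 - h5

/-- The Klein four-groups of `S`. -/
noncomputable def KK (hm2 : Even m) (i : ZMod m) : Subgroup X :=
  kleinOf (zz eS) (rfl' eS i) (by rw [pow_two]; exact zz_mul_self eS hm2)
    (by rw [pow_two]; exact rfl_mul_self eS i) (zz_comm_rfl eS hm2 i)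

lemma mem_KK {hm2 : Even m} {i : ZMod m} {x : X} :
    x ∈ KK eS hm2 i ↔ x = 1 ∨ x = zz eS ∨ x = rfl' eS i ∨ x = zz eS * rfl' eS i := mem_kleinOf

lemma isKlein_KK (hm2 : Even m) (hm : 2 ≤ m) (i : ZMod m) : IsKleinFour (KK eS hm2 i) :=
  isKleinFour_kleinOf _ _ _ (zz_ne_one eS hm2 hm) (rfl_ne_one eS i) (rfl_ne_zz eS i).symm

lemma KK_le (hm2 : Even m) (i : ZMod m) : KK eS hm2 i ≤ (S : Subgroup X) := by
  intro y hy
  rcases (mem_KK eS).mp hy with rfl | rfl | rfl | rfl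
  · exact Subgroup.one_mem _
  · exact zz_mem eS
  · exact rfl'_mem eS i
  · exact Subgroup.mul_mem _ (zz_mem eS) (rfl'_mem eS i)

lemma card_le_two_of_subset {Q : Type*} [Group Q] {T : Subgroup Q} {a b : Q}
    (hT : ∀ t ∈ T, t = a ∨ t = b) : Nat.card T ≤ 2 := by
  classical
  have hf : ((T : Set Q) ⊆ ({a, b} : Finset Q)) := by
    intro t ht
    simpa using hT t ht
  have := Set.ncard_le_ncard hf (Finset.finite_toSet _)
  rw [Set.ncard_coe_finset] at this
  have h2 : ({a, b} : Finset Q).card ≤ 2 := Finset.card_le_two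
  have h3 : Nat.card T = (T : Set Q).ncard := rfl
  omega

/-- The four-subgroups of `S`. -/
lemma eq_KK (hm2 : Even m) (hm : 2 ≤ m) {V : Subgroup X} (hVS : V ≤ (S : Subgroup X)) (hV : Nat.card V = 4)
    (hV2 : ∀ v ∈ V, v * v = 1) : ∃ i, V = KK eS hm2 i := by
  -- a reflection
  have hrefl : ∃ i, rfl' eS i ∈ V := by
    by_contra hno
    push Not at hno
    have : Nat.card V ≤ 2 := by
      apply card_le_two_of_subset (a := 1) (b := zz eS)
      intro t ht
      by_cases h1 : t = 1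
      · exact Or.inl h1
      · right
        rcases invol_cases eS hm2 hm (hVS ht) (hV2 t ht) h1 with h | ⟨i, rfl⟩
        · exact h
        · exact absurd ht (hno i)
    omega
  obtain ⟨i, hi⟩ := hrefl
  refine ⟨i, ?_⟩
  -- the central involution
  have hnext : ∃ u ∈ V, u ≠ 1 ∧ u ≠ rfl' eS i := by
    by_contra hno
    push Not at hno
    have : Nat.card V ≤ 2 := by
      apply card_le_two_of_subset (a := 1) (b := rfl' eS i)
      intro t ht
      by_cases h1 : t = 1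
      · exact Or.inl h1
      · exact Or.inr (hno t ht h1)
    omega
  obtain ⟨u, hu, hu1, hui⟩ := hnext
  have hzV : zz eS ∈ V := by
    rcases invol_cases eS hm2 hm (hVS hu) (hV2 u hu) hu1 with h | ⟨k, rfl⟩
    · rw [← h]; exact hu
    · have h1 := V.mul_mem hi hu
      rw [rfl_mul_rfl] at h1
      have h2 := hV2 _ h1
      have h3 : rot eS (k - i) ≠ 1 := by
        intro h4
        rw [← rot_zero eS] at h4
        have h5 := rot_inj eS h4
        apply hui
        rw [sub_eq_zero.mp h5]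
      rw [← eq_zz_of_rot eS hm2 hm h2 h3]
      exact h1
  have hle : KK eS hm2 i ≤ V := by
    intro y hy
    rcases (mem_KK eS).mp hy with rfl | rfl | rfl | rfl
    · exact V.one_mem
    · exact hzV
    · exact hi
    · exact V.mul_mem hzV hi
  symm
  apply Subgroup.eq_of_le_of_card_ge hle
  rw [hV, (isKlein_KK eS hm2 hm i).card_four]

lemma KK_conj (hm2 : Even m) (hm : 2 ≤ m) (i j : ZMod m) :
    (KK eS hm2 i).map (MulAut.conj (rot eS j)).toMonoidHom = KK eS hm2 (i - 2 * j) := by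
  apply Subgroup.eq_of_le_of_card_ge
  · rintro _ ⟨t, ht, rfl⟩
    show rot eS j * t * (rot eS j)⁻¹ ∈ KK eS hm2 (i - 2 * j)
    have hzc : rot eS j * zz eS * (rot eS j)⁻¹ = zz eS := by
      rw [mul_inv_eq_iff_eq_mul]
      exact (zz_comm_rot eS j).symm
    rcases (mem_KK eS).mp ht with rfl | rfl | rfl | rfl
    · simp
    · rw [hzc]
      exact (mem_KK eS).mpr (Or.inr (Or.inl rfl))
    · rw [rot_conj_rfl]
      exact (mem_KK eS).mpr (Or.inr (Or.inr (Or.inl rfl)))
    · have e1 : rot eS j * (zz eS * rfl' eS i) * (rot eS j)⁻¹ =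
          (rot eS j * zz eS * (rot eS j)⁻¹) * (rot eS j * rfl' eS i * (rot eS j)⁻¹) := by group
      rw [e1, hzc, rot_conj_rfl]
      exact (mem_KK eS).mpr (Or.inr (Or.inr (Or.inr rfl)))
  · rw [(isKlein_KK eS hm2 hm _).card_four]
    rw [← Nat.card_congr (Subgroup.equivMapOfInjective (KK eS hm2 i) _ (MulAut.conj (rot eS j)).injective).toEquiv,
      (isKlein_KK eS hm2 hm _).card_four]

lemma KK_normal (hm2 : Even m) (h4 : 4 ∣ m) (i : ZMod m) :
    rot eS (qq m) ∈ Subgroup.normalizer ((KK eS hm2 i : Subgroup X) : Set X) := by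
  have hnorm : ∀ u ∈ KK eS hm2 i, rot eS (qq m) * u * (rot eS (qq m))⁻¹ ∈ KK eS hm2 i := by
    intro t ht
    have hzc : rot eS (qq m) * zz eS * (rot eS (qq m))⁻¹ = zz eS := by
      rw [mul_inv_eq_iff_eq_mul]
      exact (zz_comm_rot eS _).symm
    rcases (mem_KK eS).mp ht with rfl | rfl | rfl | rfl
    · simp
    · rw [hzc]
      exact (mem_KK eS).mpr (Or.inr (Or.inl rfl))
    · rw [rot_qq_conj eS h4]
      exact (mem_KK eS).mpr (Or.inr (Or.inr (Or.inr rfl)))
    · have e1 : rot eS (qq m) * (zz eS * rfl' eS i) * (rot eS (qq m))⁻¹ =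
          (rot eS (qq m) * zz eS * (rot eS (qq m))⁻¹) * (rot eS (qq m) * rfl' eS i * (rot eS (qq m))⁻¹) := by group
      rw [e1, hzc, rot_qq_conj eS h4, ← mul_assoc, zz_mul_self eS hm2, one_mul]
      exact (mem_KK eS).mpr (Or.inr (Or.inr (Or.inl rfl)))
  exact mem_normalizer_of_conj_mem hnorm

/-- The two types of four-groups are not conjugate. -/
lemma not_conj (h4 : 4 ∣ m) (k : ℕ) (hk : m = 2 ^ (k + 1)) (hm2 : Even m) (x : X)
    (hx : (KK eS hm2 0).map (MulAut.conj x).toMonoidHom = KK eS hm2 1) : False := by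
  haveI : Fact (Nat.Prime 2) := ⟨Nat.prime_two⟩
  have hm := two_le_of_four h4
  set U₁ := KK eS hm2 0 with hU₁
  set U₂ := KK eS hm2 1 with hU₂
  set ρ : X := rot eS (qq m) with hρ
  have hKl₁ : IsKleinFour U₁ := isKlein_KK eS hm2 hm 0
  have hKl₂ : IsKleinFour U₂ := isKlein_KK eS hm2 hm 1
  let N₁ : Subgroup X := Subgroup.normalizer (U₁ : Set X)
  let N₂ : Subgroup X := Subgroup.normalizer (U₂ : Set X)
  let D₁ : Subgroup X := (S : Subgroup X) ⊓ N₁
  let D₂ : Subgroup X := (S : Subgroup X) ⊓ N₂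
  have hρS : ρ ∈ (S : Subgroup X) := rot_mem eS _
  have hρD₁ : ρ ∈ D₁ := ⟨hρS, KK_normal eS hm2 h4 0⟩
  have hρD₂ : ρ ∈ D₂ := ⟨hρS, KK_normal eS hm2 h4 1⟩
  have hU₂D₂ : U₂ ≤ D₂ := by
    intro u hu
    refine ⟨KK_le eS hm2 1 hu, mem_normalizer_of_conj_mem ?_⟩
    intro v hv
    have h1 := comm_of_mem_klein hKl₂ hu hv
    rw [h1]
    simpa using hv
  have hD₁p : IsPGroup 2 D₁ := S.2.to_le inf_le_left
  have hD₂p : IsPGroup 2 D₂ := S.2.to_le inf_le_left
  have hD₂' : IsPGroup 2 (D₂.subgroupOf N₂) := hD₂p.comap_of_injective N₂.subtype N₂.subtype_injective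
  obtain ⟨P₂, hP₂⟩ := hD₂'.exists_le_sylow
  let R : Subgroup X := D₁.map (MulAut.conj x).toMonoidHom
  have hRp : IsPGroup 2 R := hD₁p.map _
  have hmemU₂ : ∀ u, u ∈ U₂ ↔ x⁻¹ * u * x ∈ U₁ := by
    intro u
    rw [← hx, mem_map_conj_iff]
  have hRN : R ≤ N₂ := by
    rintro _ ⟨t, ht, rfl⟩
    apply mem_normalizer_of_conj_mem
    intro u hu
    show x * t * x⁻¹ * u * (x * t * x⁻¹)⁻¹ ∈ U₂
    rw [hmemU₂]
    have h1 := (hmemU₂ u).mp hu
    have h2 := (Subgroup.mem_normalizer_iff.mp ht.2 _).mp h1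
    have e : x⁻¹ * (x * t * x⁻¹ * u * (x * t * x⁻¹)⁻¹) * x = t * (x⁻¹ * u * x) * t⁻¹ := by group
    rw [e]; exact h2
  obtain ⟨n, hnN, hn⟩ := exists_conj_le N₂ P₂ R hRN hRp
  have hP₂X : IsPGroup 2 ((P₂ : Subgroup N₂).map N₂.subtype) := P₂.2.map _
  obtain ⟨y, hy⟩ := exists_conj_mem S _ hP₂X
  have hD₂P : ∀ t ∈ D₂, y * t * y⁻¹ ∈ (S : Subgroup X) := by
    intro t ht
    apply hy
    exact ⟨⟨t, ht.2⟩, hP₂ (Subgroup.mem_subgroupOf.mpr ht), rfl⟩
  -- the two conjugating elements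
  have hyρ : y * ρ * y⁻¹ ∈ (S : Subgroup X) := hD₂P ρ hρD₂
  set g₀ : X := y * n * x with hg₀
  have hg₀eq : ∀ t, g₀ * t * g₀⁻¹ = y * (n * (x * t * x⁻¹) * n⁻¹) * y⁻¹ := by
    intro t; rw [hg₀]; group
  have hg₀ρ : g₀ * ρ * g₀⁻¹ ∈ (S : Subgroup X) := by
    rw [hg₀eq]
    apply hy
    apply hn
    exact ⟨x * ρ * x⁻¹, ⟨ρ, hρD₁, rfl⟩, rfl⟩
  have hyz := conj_zz eS h4 hyρ
  have hg₀z := conj_zz eS h4 hg₀ρ
  -- the image of the odd reflection
  set b : X := rfl' eS 1 with hb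
  have hbU : b ∈ U₂ := (mem_KK eS).mpr (Or.inr (Or.inr (Or.inl rfl)))
  have hb1 : y * b * y⁻¹ ∈ (S : Subgroup X) := hD₂P b (hU₂D₂ hbU)
  have hinvol : ∀ (c t : X), t * t = 1 → t ≠ 1 → (c * t * c⁻¹) * (c * t * c⁻¹) = 1 ∧ c * t * c⁻¹ ≠ 1 := by
    intro c t h1 h2
    constructor
    · have : (c * t * c⁻¹) * (c * t * c⁻¹) = c * (t * t) * c⁻¹ := by group
      rw [this, h1]; simp
    · intro h3
      apply h2
      have h4' : t = c⁻¹ * (c * t * c⁻¹) * c := by group
      rw [h4', h3]; simp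
  obtain ⟨hb2, hb3⟩ := hinvol y b (rfl_mul_self eS 1) (rfl_ne_one eS 1)
  have hbz : y * b * y⁻¹ ≠ zz eS := by
    intro h
    rw [← hyz] at h
    exact rfl_ne_zz eS 1 (mul_left_cancel (mul_right_cancel h))
  obtain ⟨i', hi'⟩ := (invol_cases eS hm2 hm hb1 hb2 hb3).resolve_left hbz
  obtain ⟨c, hc⟩ := parity S eS h4 k hk hyρ hi'
  -- the image of the even reflection
  set a : X := rfl' eS 0 with ha
  have haU : a ∈ U₁ := (mem_KK eS).mpr (Or.inr (Or.inr (Or.inl rfl)))
  have hau : x * a * x⁻¹ ∈ U₂ := by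
    rw [hmemU₂]
    have e : x⁻¹ * (x * a * x⁻¹) * x = a := by group
    rw [e]; exact haU
  have hau' : n * (x * a * x⁻¹) * n⁻¹ ∈ U₂ := (Subgroup.mem_normalizer_iff.mp hnN _).mp hau
  have ha1 : g₀ * a * g₀⁻¹ ∈ (S : Subgroup X) := by
    rw [hg₀eq]
    exact hD₂P _ (hU₂D₂ hau')
  obtain ⟨ha2, ha3⟩ := hinvol g₀ a (rfl_mul_self eS 0) (rfl_ne_one eS 0)
  have haz : g₀ * a * g₀⁻¹ ≠ zz eS := by
    intro h
    rw [← hg₀z] at h
    exact rfl_ne_zz eS 0 (mul_left_cancel (mul_right_cancel h))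
  obtain ⟨i'', hi''⟩ := (invol_cases eS hm2 hm ha1 ha2 ha3).resolve_left haz
  obtain ⟨c', hc'⟩ := parity S eS h4 k hk hg₀ρ hi''
  -- comparison
  rw [hg₀eq] at hi''
  rw [sub_zero] at hc'
  have hi1 : i' = 2 * c + 1 := by
    linear_combination hc
  rcases (mem_KK eS).mp hau' with h | h | h | h
  · rw [h] at hi''
    simp only [mul_one, mul_inv_cancel] at hi''
    exact rfl_ne_one eS _ hi''.symm
  · rw [h, hyz] at hi''
    exact rfl_ne_zz eS _ hi''.symm
  · rw [h, hi'] at hi''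
    have h5 := rfl_inj eS hi''
    apply one_ne_two_mul (m := m) h4 (c' - c)
    rw [hc', hi1] at h5
    linear_combination h5
  · have e1 : y * (zz eS * rfl' eS 1) * y⁻¹ = (y * zz eS * y⁻¹) * (y * rfl' eS 1 * y⁻¹) := by group
    rw [h, e1, hyz, hi', zz_mul_rfl] at hi''
    have h5 := rfl_inj eS hi''
    apply one_ne_two_mul (m := m) h4 (c' - c + qq m)
    rw [hc', hi1, ← two_qq h4] at h5
    linear_combination h5

end Rot2

/-- Let X be a finite group whose Sylow 2-subgroup S is dihedral of order 2m ≥ 4. If |S| = 4, any two Klein four-subgroups of X are conjugate; if |S| > 4, there are Klein four-subgroups U₁, U₂ of X that are not conjugate, and every Klein four-subgroup of X is conjugate to U₁ or to U₂. -/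
theorem result {X : Type*} [Group X] [Finite X] (S : Sylow 2 X) (m : ℕ) (hm : 2 ≤ m) (eS : (S : Subgroup X) ≃* DihedralGroup m) : (Nat.card S = 4 → ∀ U V : Subgroup X, IsKleinFour U → IsKleinFour V → (∃ x : X, U.map (MulAut.conj x).toMonoidHom = V)) ∧ (4 < Nat.card S → ∃ U₁ U₂ : Subgroup X, IsKleinFour U₁ ∧ IsKleinFour U₂ ∧ ¬ (∃ x : X, U₁.map (MulAut.conj x).toMonoidHom = U₂) ∧ ∀ V : Subgroup X, IsKleinFour V → (∃ x : X, V.map (MulAut.conj x).toMonoidHom = U₁) ∨ (∃ x : X, V.map (MulAut.conj x).toMonoidHom = U₂)) := by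
  classical
  haveI : Fact (Nat.Prime 2) := ⟨Nat.prime_two⟩
  haveI : NeZero m := ⟨by omega⟩
  have hcardS : Nat.card (S : Subgroup X) = 2 * m := card_eq eS
  have hconj : ∀ V : Subgroup X, IsKleinFour V → ∃ g : X, V.map (MulAut.conj g).toMonoidHom ≤ (S : Subgroup X) := by
    intro V hV
    have hVp : IsPGroup 2 V := by
      apply IsPGroup.of_card (n := 2)
      rw [hV.card_four]; norm_num
    obtain ⟨g, hg⟩ := exists_conj_mem S V hVp
    refine ⟨g, ?_⟩
    rintro _ ⟨t, ht, rfl⟩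
    exact hg t ht
  constructor
  · intro h4 U V hU hV
    have hS : ∀ W : Subgroup X, IsKleinFour W → ∃ g : X, W.map (MulAut.conj g).toMonoidHom = (S : Subgroup X) := by
      intro W hW
      obtain ⟨g, hg⟩ := hconj W hW
      refine ⟨g, Subgroup.eq_of_le_of_card_ge hg ?_⟩
      rw [← Nat.card_congr (Subgroup.equivMapOfInjective W _ (MulAut.conj g).injective).toEquiv, hW.card_four]
      exact h4.le
    obtain ⟨g, hg⟩ := hS U hU
    obtain ⟨g', hg'⟩ := hS V hV
    refine ⟨g'⁻¹ * g, ?_⟩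
    rw [← map_conj_map, hg, ← hg', map_conj_map, inv_mul_cancel]
    ext t
    rw [mem_map_conj_iff]
    simp
  · intro h4
    have hm3 : 2 < m := by
      have : Nat.card (S : Subgroup X) = Nat.card S := rfl
      omega
    obtain ⟨n, hn⟩ := IsPGroup.iff_card.mp S.2
    have h1 : m ∣ 2 ^ n := by
      rw [hcardS] at hn
      exact ⟨2, by rw [← hn]; ring⟩
    obtain ⟨k, -, hk⟩ := (Nat.dvd_prime_pow Nat.prime_two).mp h1
    rcases k with _ | _ | k
    · rw [hk] at hm; simp at hm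
    · rw [hk] at hm3; simp at hm3
    have h4m : 4 ∣ m := by
      rw [hk, pow_succ, pow_succ]
      exact ⟨2 ^ k, by ring⟩
    have hm2 : Even m := even_of_four h4m
    refine ⟨KK eS hm2 0, KK eS hm2 1, isKlein_KK eS hm2 hm 0, isKlein_KK eS hm2 hm 1, ?_, ?_⟩
    · rintro ⟨x, hx⟩
      exact not_conj eS h4m (k + 1) hk hm2 x hx
    · intro V hV
      obtain ⟨g, hg⟩ := hconj V hV
      have hcard : Nat.card (V.map (MulAut.conj g).toMonoidHom) = 4 := by
        rw [← Nat.card_congr (Subgroup.equivMapOfInjective V _ (MulAut.conj g).injective).toEquiv, hV.card_four]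
      have hsq : ∀ v ∈ V.map (MulAut.conj g).toMonoidHom, v * v = 1 := by
        rintro _ ⟨t, ht, rfl⟩
        have h2 := pow_two_of_mem_klein hV ht
        rw [pow_two] at h2
        rw [← map_mul, h2, map_one]
      obtain ⟨i, hi⟩ := eq_KK eS hm2 hm hg hcard hsq
      rcases par_cases i with ⟨c, hc⟩ | ⟨c, hc⟩
      · left
        refine ⟨rot eS c * g, ?_⟩
        rw [← map_conj_map, hi, KK_conj eS hm2 hm, hc, sub_self]
      · right
        refine ⟨rot eS c * g, ?_⟩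
        rw [← map_conj_map, hi, KK_conj eS hm2 hm, hc]
        congr 1
        ring

end Cfsg.Agent.S1256
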