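import Mathlib
import Cfsg.Statements.S1258
import Cfsg.Agent.Lib.LocalCore

set_option autoImplicit false
open Cfsg
open scoped commutatorElement

namespace Cfsg.Agent.S1258

/-- If the central quotient of a finite group X is non-abelian simple, then X = X' Z(X) and the commutator subgroup X' is quasisimple. -/
theorem result {X : Type*} [Group X] [Finite X] (hs : IsSimpleGroup (X ⧸ Subgroup.center X)) (hna : ¬ IsMulCommutative (X ⧸ Subgroup.center X)) : commutator X ⊔ Subgroup.center X = ⊤ ∧ Cfsg.IsQuasisimple ↥(commutator X) := by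
  classical
  set D := commutator X with hD
  let π := QuotientGroup.mk' (Subgroup.center X)
  have hsurj : Function.Surjective π := QuotientGroup.mk'_surjective _
  have hDn : D.Normal := inferInstance
  -- `D` is not central
  have hne : D.map π ≠ ⊥ := by
    intro hb
    apply hna
    refine ⟨⟨fun a b => ?_⟩⟩
    obtain ⟨x, rfl⟩ := hsurj a
    obtain ⟨y, rfl⟩ := hsurj b
    have hc : ⁅x, y⁆ ∈ D := Subgroup.commutator_mem_commutator (Subgroup.mem_top x) (Subgroup.mem_top y)
    have h1 : π ⁅x, y⁆ = 1 := by
      have : π ⁅x, y⁆ ∈ D.map π := Subgroup.mem_map_of_mem _ hc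
      rw [hb] at this
      exact this
    rw [map_commutatorElement, commutatorElement_eq_one_iff_mul_comm] at h1
    exact h1
  have htop : D.map π = ⊤ := by
    have := (Subgroup.Normal.map hDn π hsurj).eq_bot_or_eq_top
    exact this.resolve_left hne
  have hdec : ∀ x : X, ∃ d ∈ D, ∃ z ∈ Subgroup.center X, x = d * z := by
    intro x
    have h1 : π x ∈ D.map π := by rw [htop]; trivial
    obtain ⟨d, hd, hdx⟩ := h1
    refine ⟨d, hd, d⁻¹ * x, ?_, by group⟩
    have : (d⁻¹ * x) ∈ π.ker := by
      rw [MonoidHom.mem_ker, map_mul, map_inv, hdx, inv_mul_cancel]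
    simpa [π] using this
  have hsup : D ⊔ Subgroup.center X = ⊤ := by
    rw [eq_top_iff]
    intro x _
    obtain ⟨d, hd, z, hz, rfl⟩ := hdec x
    exact Subgroup.mul_mem _ (Subgroup.mem_sup_left hd) (Subgroup.mem_sup_right hz)
  refine ⟨hsup, ?_, ?_⟩
  · -- perfect
    rw [Subgroup.isPerfect_iff]
    apply le_antisymm (Cfsg.Agent.Lib.LocalCore.commutator_self_le D)
    conv_lhs => rw [hD, commutator_def]
    rw [Subgroup.commutator_le]
    intro x _ y _
    obtain ⟨n, hn, z, hz, rfl⟩ := hdec x
    obtain ⟨m, hm, w, hw, rfl⟩ := hdec y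
    have hzc : ∀ a : X, a * z = z * a := fun a => (Subgroup.mem_center_iff.mp hz a)
    have hwc : ∀ a : X, a * w = w * a := fun a => (Subgroup.mem_center_iff.mp hw a)
    have e1 : z * m * z⁻¹ = m := by rw [← hzc m, mul_assoc, mul_inv_cancel, mul_one]
    have e1' : z * w * z⁻¹ = w := by rw [← hzc w, mul_assoc, mul_inv_cancel, mul_one]
    have e2 : w * n⁻¹ * w⁻¹ = n⁻¹ := by rw [← hwc n⁻¹, mul_inv_cancel_right]
    have : ⁅n * z, m * w⁆ = ⁅n, m⁆ := by
      simp only [commutatorElement_def]
      calc n * z * (m * w) * (n * z)⁻¹ * (m * w)⁻¹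
          = n * (z * m * z⁻¹) * (z * w * z⁻¹) * n⁻¹ * w⁻¹ * m⁻¹ := by group
        _ = n * m * (w * n⁻¹ * w⁻¹) * m⁻¹ := by rw [e1, e1']; group
        _ = n * m * n⁻¹ * m⁻¹ := by rw [e2]
    rw [this]
    exact Subgroup.commutator_mem_commutator hn hm
  · -- simple quotient
    let f : ↥D →* (X ⧸ Subgroup.center X) := π.comp D.subtype
    have hfs : Function.Surjective f := by
      intro a
      obtain ⟨x, rfl⟩ := hsurj a
      obtain ⟨d, hd, z, hz, rfl⟩ := hdec x
      refine ⟨⟨d, hd⟩, ?_⟩
      simp only [f, MonoidHom.comp_apply, Subgroup.subtype_apply, map_mul]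
      have : π z = 1 := by
        have : z ∈ π.ker := by simpa [π] using hz
        exact this
      rw [this, mul_one]
    have hker : f.ker = Subgroup.center ↥D := by
      ext ⟨d, hd⟩
      constructor
      · intro h
        have h1 : π d = 1 := h
        have h2 : d ∈ π.ker := h1
        have h3 : d ∈ Subgroup.center X := by simpa [π] using h2
        rw [Subgroup.mem_center_iff]
        rintro ⟨g, hg⟩
        exact Subtype.ext (Subgroup.mem_center_iff.mp h3 g)
      · intro h
        have h3 : d ∈ Subgroup.center X := by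
          rw [Subgroup.mem_center_iff]
          intro g
          obtain ⟨e, he, z, hz, rfl⟩ := hdec g
          have h4 := Subgroup.mem_center_iff.mp h ⟨e, he⟩
          have h5 : e * d = d * e := congrArg Subtype.val h4
          have h6 := Subgroup.mem_center_iff.mp hz d
          calc e * z * d = e * (z * d) := by group
            _ = e * (d * z) := by rw [h6]
            _ = (e * d) * z := by group
            _ = (d * e) * z := by rw [h5]
            _ = d * (e * z) := by group
        have h2 : d ∈ π.ker := by simpa [π] using h3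
        exact h2
    have e : (↥D ⧸ Subgroup.center ↥D) ≃* (X ⧸ Subgroup.center X) :=
      (QuotientGroup.quotientMulEquivOfEq hker.symm).trans
        (QuotientGroup.quotientKerEquivOfSurjective f hfs)
    exact e.isSimpleGroup

end Cfsg.Agent.S1258
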