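import Mathlib
import Cfsg.Statements.S1286

set_option autoImplicit false
set_option maxRecDepth 100000
open Cfsg

namespace Cfsg.Agent.S1286

/-- the symmetric group on five points -/
abbrev S5 : Type := Equiv.Perm (Fin 5)

def s : S5 := Equiv.swap 0 1
def t : S5 := Equiv.swap 3 4
def c₁ : S5 := Equiv.swap 2 3 * Equiv.swap 3 4
def c₂ : S5 := Equiv.swap 0 1 * Equiv.swap 1 2

/-- the four-group -/
def A4 : Subgroup S5 where
  carrier := {x | x = 1 ∨ x = s ∨ x = t ∨ x = s * t}
  one_mem' := Or.inl rfl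
  mul_mem' := by
    have key : ∀ a ∈ [1, s, t, s * t], ∀ b ∈ [1, s, t, s * t], a * b ∈ [1, s, t, s * t] := by decide
    intro a b ha hb
    simpa using key a (by simpa using ha) b (by simpa using hb)
  inv_mem' := by
    have key : ∀ a ∈ [1, s, t, s * t], a⁻¹ ∈ [1, s, t, s * t] := by decide
    intro a ha
    simpa using key a (by simpa using ha)

theorem mem_A4 {x : S5} : x ∈ A4 ↔ x ∈ [1, s, t, s * t] := by
  show (x = 1 ∨ x = s ∨ x = t ∨ x = s * t) ↔ _
  simp

/-- the cyclic group of order three generated by `c` -/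
def T (c : S5) (h2 : c * c * c = 1) : Subgroup S5 where
  carrier := {x | x = 1 ∨ x = c ∨ x = c⁻¹}
  one_mem' := Or.inl rfl
  mul_mem' := by
    have h3 : c * c = c⁻¹ := by
      rw [eq_inv_iff_mul_eq_one]; exact h2
    have h4 : c⁻¹ * c⁻¹ = c := by
      rw [← h3]
      calc c * c * (c * c) = (c * c * c) * c := by group
        _ = c := by rw [h2, one_mul]
    rintro a b (rfl | rfl | rfl) (rfl | rfl | rfl)
    all_goals simp [h3, h4]
  inv_mem' := by
    rintro a (rfl | rfl | rfl) <;> simp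

theorem mem_T {c : S5} {h : c * c * c = 1} {x : S5} : x ∈ T c h ↔ x ∈ [1, c, c⁻¹] := by
  show (x = 1 ∨ x = c ∨ x = c⁻¹) ↔ _
  simp

theorem hc₁ : c₁ * c₁ * c₁ = 1 := by decide
theorem hc₂ : c₂ * c₂ * c₂ = 1 := by decide

/-- the functor -/
def θ (a : S5) : Subgroup S5 :=
  if a = s then T c₁ hc₁ else if a = t then T c₂ hc₂ else ⊥

theorem θ_s : θ s = T c₁ hc₁ := by
  unfold θ; rw [if_pos rfl]

theorem θ_t : θ t = T c₂ hc₂ := by
  unfold θ; rw [if_neg (by decide), if_pos rfl]

theorem θ_st : θ (s * t) = ⊥ := by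
  unfold θ; rw [if_neg (by decide), if_neg (by decide)]

/-- the elements of `θ a`, as a list -/
def θL (a : S5) : List S5 :=
  if a = s then [1, c₁, c₁⁻¹] else if a = t then [1, c₂, c₂⁻¹] else [1]

theorem mem_θ {a : S5} (ha : a ∈ [s, t, s * t]) {x : S5} : x ∈ θ a ↔ x ∈ θL a := by
  simp only [List.mem_cons, List.not_mem_nil, or_false] at ha
  rcases ha with rfl | rfl | rfl
  · rw [θ_s, mem_T]; unfold θL; rw [if_pos rfl]
  · rw [θ_t, mem_T]; unfold θL; rw [if_neg (by decide), if_pos rfl]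
  · rw [θ_st, Subgroup.mem_bot]; unfold θL; rw [if_neg (by decide), if_neg (by decide)]; simp

theorem mem_A4' {a : S5} (ha : a ∈ A4) (ha1 : a ≠ 1) : a ∈ [s, t, s * t] := by
  rw [mem_A4] at ha
  simp only [List.mem_cons, List.not_mem_nil, or_false] at ha ⊢
  tauto

theorem card_T {c : S5} {h : c * c * c = 1} (hf : ({1, c, c⁻¹} : Finset S5).card = 3) :
    Nat.card (T c h) = 3 := by
  have : ((T c h : Subgroup S5) : Set S5) = (({1, c, c⁻¹} : Finset S5) : Set S5) := by
    ext x
    simp only [Finset.coe_insert, Finset.coe_singleton, Set.mem_insert_iff, Set.mem_singleton_iff]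
    rfl
  have h2 : Nat.card (T c h) = Nat.card ((T c h : Subgroup S5) : Set S5) := rfl
  rw [h2, this, Nat.card_coe_set_eq, Set.ncard_coe_finset, hf]

theorem card_A4 : Nat.card A4 = 4 := by
  have : ((A4 : Subgroup S5) : Set S5) = (({1, s, t, s * t} : Finset S5) : Set S5) := by
    ext x
    simp only [Finset.coe_insert, Finset.coe_singleton, Set.mem_insert_iff, Set.mem_singleton_iff]
    rfl
  have h2 : Nat.card A4 = Nat.card ((A4 : Subgroup S5) : Set S5) := rfl
  rw [h2, this, Nat.card_coe_set_eq, Set.ncard_coe_finset]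
  decide

theorem solvable_T (c : S5) (h : c * c * c = 1) : Group.IsSolvable (T c h) := by
  apply Group.isSolvable_of_comm
  rintro ⟨a, ha⟩ ⟨b, hb⟩
  apply Subtype.ext
  change a * b = b * a
  rcases ha with rfl | rfl | rfl <;> rcases hb with rfl | rfl | rfl <;> simp

theorem functor : IsSolvableSignalizerFunctor 2 A4 θ := by
  refine ⟨⟨?_, ?_, ?_, ?_⟩, ?_⟩
  · intro a ha ha1 x hx
    have key : ∀ a ∈ [s, t, s * t], ∀ x ∈ θL a, a * x = x * a := by decide
    have h := mem_A4' ha ha1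
    rw [Subgroup.mem_centralizer_iff]
    rintro z rfl
    exact key z h x ((mem_θ h).mp hx)
  · intro a ha ha1
    have h := mem_A4' ha ha1
    simp only [List.mem_cons, List.not_mem_nil, or_false] at h
    rcases h with rfl | rfl | rfl
    · rw [θ_s, card_T (by decide)]; decide
    · rw [θ_t, card_T (by decide)]; decide
    · rw [θ_st]; simp
  · intro a ha ha1 b hb x hx
    have key : ∀ a ∈ [s, t, s * t], ∀ b ∈ [1, s, t, s * t], ∀ x ∈ θL a, b * x * b⁻¹ ∈ θL a := by
      decide
    have h := mem_A4' ha ha1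
    rw [mem_θ h]
    exact key a h b (mem_A4.mp hb) x ((mem_θ h).mp hx)
  · intro a ha ha1 b hb hb1 x hx
    have key : ∀ a ∈ [s, t, s * t], ∀ b ∈ [s, t, s * t], ∀ x ∈ θL a, b * x = x * b → x ∈ θL b := by
      decide
    have h := mem_A4' ha ha1
    have h' := mem_A4' hb hb1
    rw [mem_θ h']
    exact key a h b h' x ((mem_θ h).mp hx.1) (Subgroup.mem_centralizer_iff.mp hx.2 b rfl)
  · intro a ha ha1
    have h := mem_A4' ha ha1
    simp only [List.mem_cons, List.not_mem_nil, or_false] at h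
    rcases h with rfl | rfl | rfl
    · rw [θ_s]; exact solvable_T _ _
    · rw [θ_t]; exact solvable_T _ _
    · rw [θ_st]; infer_instance

theorem not_complete : ¬ IsCompleteSignalizerFunctor 2 A4 θ := by
  rintro ⟨-, X, -, hodd, hX⟩
  have h1 : c₁ ∈ X := by
    have h := hX s (mem_A4.mpr (by decide)) (by decide)
    have h2 : c₁ ∈ θ s := by rw [θ_s, mem_T]; decide
    rw [← h] at h2
    exact h2.1
  have h2 : c₂ ∈ X := by
    have h := hX t (mem_A4.mpr (by decide)) (by decide)
    have h2 : c₂ ∈ θ t := by rw [θ_t, mem_T]; decide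
    rw [← h] at h2
    exact h2.1
  have h3 : c₁ * c₂ * c₁ * c₂⁻¹ ∈ X :=
    X.mul_mem (X.mul_mem (X.mul_mem h1 h2) h1) (X.inv_mem h2)
  have h4 : orderOf (c₁ * c₂ * c₁ * c₂⁻¹) = 2 := by
    have : Fact (Nat.Prime 2) := ⟨Nat.prime_two⟩
    exact orderOf_eq_prime (by decide) (by decide)
  apply hodd
  rw [← h4]
  exact Subgroup.orderOf_dvd_natCard X h3

/-- There exist a finite group X, an elementary abelian subgroup A of order 4 and a solvable A-signalizer functor θ on X for the prime 2 which is not complete. -/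
theorem result : ∃ (X : Type) (_ : Group X) (_ : Finite X) (A : Subgroup X) (θ : X → Subgroup X), Cfsg.IsElementaryAbelian 2 A ∧ Nat.card ↥A = 4 ∧ Cfsg.IsSolvableSignalizerFunctor 2 A θ ∧ ¬ Cfsg.IsCompleteSignalizerFunctor 2 A θ := by
  refine ⟨S5, inferInstance, inferInstance, A4, θ, ⟨?_, ?_⟩, card_A4, functor, not_complete⟩
  · refine ⟨⟨?_⟩⟩
    rintro ⟨a, ha⟩ ⟨b, hb⟩
    apply Subtype.ext
    have key : ∀ a ∈ [1, s, t, s * t], ∀ b ∈ [1, s, t, s * t], a * b = b * a := by decide
    exact key a (mem_A4.mp ha) b (mem_A4.mp hb)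
  · intro a ha
    have key : ∀ a ∈ [1, s, t, s * t], a ^ 2 = 1 := by decide
    exact key a (mem_A4.mp ha)

end Cfsg.Agent.S1286
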