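import Mathlib
import Cfsg.Statements.S1299
import Cfsg.Agent.Lib.FunctorCompleteD
import Cfsg.Agent.Lib.PCore

set_option autoImplicit false
set_option linter.unusedSectionVars false
set_option linter.unusedVariables false
set_option linter.style.haveILetI false
set_option linter.unusedSimpArgs false
open Cfsg

namespace Cfsg.Agent.S1299

open Cfsg.Agent.Lib.FunctorComplete Cfsg.Agent.Lib.PCore

section aux

variable {G : Type*} [Group G] [Finite G] {p : ℕ} [hp : Fact p.Prime]

theorem mem_V {a x : G} : x ∈ centralizerPPrimeCore p a ↔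
    ∃ h : x ∈ Subgroup.centralizer ({a} : Set G),
      (⟨x, h⟩ : Subgroup.centralizer ({a} : Set G)) ∈ pPrimeCore p (Subgroup.centralizer ({a} : Set G)) := by
  constructor
  · rintro ⟨y, hy, rfl⟩
    exact ⟨y.2, hy⟩
  · rintro ⟨h, h1⟩
    exact ⟨⟨x, h⟩, h1, rfl⟩

theorem V_le (a : G) : centralizerPPrimeCore p a ≤ Subgroup.centralizer ({a} : Set G) := by
  rintro _ ⟨x, -, rfl⟩
  exact x.2

theorem V_card (a : G) : ¬ p ∣ Nat.card (centralizerPPrimeCore p a) := by
  unfold centralizerPPrimeCore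
  rw [Subgroup.card_map_of_injective (Subgroup.subtype_injective _)]
  exact not_dvd_card_pPrimeCore p

theorem V_norm {a g x : G} (hg : g ∈ Subgroup.centralizer ({a} : Set G))
    (hx : x ∈ centralizerPPrimeCore p a) : g * x * g⁻¹ ∈ centralizerPPrimeCore p a := by
  obtain ⟨h, h1⟩ := mem_V.mp hx
  have h2 := (pPrimeCore_normal p (G := Subgroup.centralizer ({a} : Set G))).conj_mem _ h1 ⟨g, hg⟩
  exact ⟨_, h2, rfl⟩

/-- The subgroups `X E`. -/
def X (p k : ℕ) (A E : Subgroup G) : Subgroup G :=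
  ⨆ D : {D : Subgroup G // D ≤ A ∧ Nat.card ↥D = p ^ k},
    signalizerDelta p (D : Subgroup G) ⊓ Subgroup.centralizer (E : Set G)

theorem mem_delta {D : Subgroup G} {x : G} : x ∈ signalizerDelta p D ↔
    ∀ d ∈ D, d ≠ 1 → x ∈ centralizerPPrimeCore p d := by
  unfold signalizerDelta
  rw [Subgroup.mem_iInf]
  constructor
  · intro h d hd hd1
    exact h ⟨d, hd, hd1⟩
  · rintro h ⟨d, hd, hd1⟩
    exact h d hd hd1

theorem centralizer_singleton_eq_zpowers (a : G) :
    Subgroup.centralizer ({a} : Set G)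
      = Subgroup.centralizer ((Subgroup.zpowers a : Subgroup G) : Set G) := by
  ext x
  rw [Subgroup.mem_centralizer_singleton_iff, Subgroup.mem_centralizer_iff]
  constructor
  · rintro h _ ⟨n, rfl⟩
    exact ((show Commute x a from h).zpow_right n).symm.eq
  · intro h
    exact (h a (Subgroup.mem_zpowers a)).symm

theorem comm_of_elem {A : Subgroup G} (hA : IsElementaryAbelian p A) {a b : G} (ha : a ∈ A)
    (hb : b ∈ A) : a * b = b * a :=
  congrArg Subtype.val (hA.1.is_comm.comm ⟨a, ha⟩ ⟨b, hb⟩)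

theorem elem_of_le {A D : Subgroup G} (hA : IsElementaryAbelian p A) (hD : D ≤ A) :
    IsElementaryAbelian p D := by
  refine ⟨⟨⟨fun a b => Subtype.ext (comm_of_elem hA (hD a.2) (hD b.2))⟩⟩, fun a ha => hA.2 a (hD ha)⟩

theorem order_eq {A : Subgroup G} (hA : IsElementaryAbelian p A) {a : G} (ha : a ∈ A) (ha1 : a ≠ 1) :
    orderOf a = p :=
  orderOf_eq_prime (hA.2 a ha) ha1

variable {k : ℕ} {A : Subgroup G}

theorem mem_centralizer_sup {K L : Subgroup G} {u : G}
    (h1 : u ∈ Subgroup.centralizer (K : Set G)) (h2 : u ∈ Subgroup.centralizer (L : Set G)) :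
    u ∈ Subgroup.centralizer ((K ⊔ L : Subgroup G) : Set G) := by
  have hK : K ≤ Subgroup.centralizer {u} := fun k hk => by
    rw [Subgroup.mem_centralizer_singleton_iff]
    exact Subgroup.mem_centralizer_iff.mp h1 k hk
  have hL : L ≤ Subgroup.centralizer {u} := fun k hk => by
    rw [Subgroup.mem_centralizer_singleton_iff]
    exact Subgroup.mem_centralizer_iff.mp h2 k hk
  rw [Subgroup.mem_centralizer_iff]
  intro k hk
  exact Subgroup.mem_centralizer_singleton_iff.mp (sup_le hK hL hk)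

theorem piece_inv (hA : IsElementaryAbelian p A) {E D : Subgroup G} (hE : E ≤ A) (hDA : D ≤ A) {b : G}
    (hb : b ∈ A) : ∀ x ∈ signalizerDelta p D ⊓ Subgroup.centralizer (E : Set G),
      b * x * b⁻¹ ∈ signalizerDelta p D ⊓ Subgroup.centralizer (E : Set G) := by
  rintro x ⟨hx1, hx2⟩
  refine ⟨?_, ?_⟩
  · show b * x * b⁻¹ ∈ signalizerDelta p D
    rw [mem_delta]
    intro d hd hd1
    refine V_norm ?_ ((mem_delta.mp hx1) d hd hd1)
    rw [Subgroup.mem_centralizer_singleton_iff]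
    exact comm_of_elem hA hb (hDA hd)
  · show b * x * b⁻¹ ∈ Subgroup.centralizer (E : Set G)
    rw [Subgroup.mem_centralizer_iff]
    intro e he
    have h1 := Subgroup.mem_centralizer_iff.mp hx2 e he
    have h2 := comm_of_elem hA (hE he) hb
    have hbinv : b⁻¹ * e = e * b⁻¹ := by
      rw [inv_mul_eq_iff_eq_mul, ← mul_assoc, ← h2]
      group
    calc e * (b * x * b⁻¹) = (e * b) * x * b⁻¹ := by group
      _ = b * (e * x) * b⁻¹ := by rw [h2]; group
      _ = b * (x * e) * b⁻¹ := by rw [h1]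
      _ = b * x * (e * b⁻¹) := by group
      _ = b * x * (b⁻¹ * e) := by rw [hbinv]
      _ = b * x * b⁻¹ * e := by group

theorem X_le_centralizer (E : Subgroup G) : X p k A E ≤ Subgroup.centralizer (E : Set G) :=
  iSup_le fun _ => inf_le_right

theorem X_anti {E F : Subgroup G} (h : E ≤ F) : X p k A F ≤ X p k A E :=
  iSup_mono fun _ => inf_le_inf_left _ (Subgroup.centralizer_le h)

theorem X_le_V (hbal : IsKBalanced p k G) (hA : IsElementaryAbelian p A) {E : Subgroup G}
    (hE : E ≤ A) {a : G} (ha : a ∈ E) (ha1 : a ≠ 1) : X p k A E ≤ centralizerPPrimeCore p a := by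
  refine iSup_le ?_
  rintro ⟨D, hDA, hDk⟩ x ⟨hx1, hx2⟩
  refine hbal D (elem_of_le hA hDA) hDk a (order_eq hA (hE ha) ha1)
    (fun d hd => comm_of_elem hA (hDA hd) (hE ha)) ⟨hx1, ?_⟩
  show x ∈ Subgroup.centralizer {a}
  rw [Subgroup.mem_centralizer_singleton_iff]
  exact (Subgroup.mem_centralizer_iff.mp hx2 a ha).symm

theorem X_inv (hA : IsElementaryAbelian p A) {E : Subgroup G} (hE : E ≤ A) {b : G} (hb : b ∈ A) :
    ∀ x ∈ X p k A E, b * x * b⁻¹ ∈ X p k A E := by
  have hle : X p k A E ≤ (X p k A E).comap (MulAut.conj b).toMonoidHom := by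
    refine iSup_le ?_
    rintro ⟨D, hDA, hDk⟩ x hx
    exact (le_iSup (fun D : {D : Subgroup G // D ≤ A ∧ Nat.card ↥D = p ^ k} =>
      signalizerDelta p (D : Subgroup G) ⊓ Subgroup.centralizer (E : Set G)) ⟨D, hDA, hDk⟩)
      (piece_inv hA hE hDA hb x hx)
  exact fun x hx => hle hx

/-- Base case: `E` of order at least `p ^ k`. -/
theorem base (hbal : IsKBalanced p k G) (hA : IsElementaryAbelian p A) {E F : Subgroup G}
    (hEA : E ≤ A) (hEk : p ^ k ≤ Nat.card E) (hEF : E ≤ F) :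
    X p k A E ⊓ Subgroup.centralizer (F : Set G) ≤ X p k A F := by
  -- a subgroup of `E` of order `p ^ k`
  have hEp : IsPGroup p ↥E := fun e => ⟨1, Subtype.ext (by simpa using hA.2 e (hEA e.2))⟩
  obtain ⟨n, hn⟩ := IsPGroup.iff_card.mp hEp
  have hkn : k ≤ n := by
    rw [hn] at hEk
    exact (Nat.pow_le_pow_iff_right hp.out.one_lt).mp hEk
  have hd : p ^ k ∣ Nat.card E := by
    rw [hn]
    exact pow_dvd_pow p hkn
  obtain ⟨K, hK⟩ := Sylow.exists_subgroup_card_pow_prime p hd
  let D₀ : Subgroup G := K.map E.subtype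
  have hD₀E : D₀ ≤ E := by
    rintro _ ⟨x, -, rfl⟩
    exact x.2
  have hD₀ : Nat.card D₀ = p ^ k := by
    rw [Subgroup.card_map_of_injective E.subtype_injective, hK]
  rintro y ⟨hy1, hy2⟩
  refine (le_iSup (fun D : {D : Subgroup G // D ≤ A ∧ Nat.card ↥D = p ^ k} =>
      signalizerDelta p (D : Subgroup G) ⊓ Subgroup.centralizer (F : Set G))
      ⟨D₀, hD₀E.trans hEA, hD₀⟩) ⟨?_, hy2⟩
  show y ∈ signalizerDelta p D₀
  rw [mem_delta]
  intro d hd hd1
  exact X_le_V hbal hA hEA (hD₀E hd) hd1 hy1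

/-- Elementary abelian groups: adding an element. -/
theorem card_sup_zpowers (hA : IsElementaryAbelian p A) {K : Subgroup G} (hK : K ≤ A) {z : G}
    (hz : z ∈ A) (hzK : z ∉ K) :
    Nat.card (K ⊔ Subgroup.zpowers z : Subgroup G) = Nat.card K * p := by
  have hz1 : z ≠ 1 := fun h => hzK (h ▸ K.one_mem)
  have hord : orderOf z = p := order_eq hA hz hz1
  have hnorm : Subgroup.zpowers z ≤ Subgroup.normalizer (K : Set G) := by
    rw [Subgroup.zpowers_le, Subgroup.mem_normalizer_iff]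
    intro n
    by_cases hn : n ∈ A
    · have : z * n * z⁻¹ = n := by rw [comm_of_elem hA hz hn]; group
      rw [this]
    · have hnK : n ∉ K := fun h => hn (hK h)
      have hzn : z * n * z⁻¹ ∉ K := by
        intro h
        apply hn
        have h1 := hK h
        have : n = z⁻¹ * (z * n * z⁻¹) * z := by group
        rw [this]
        exact A.mul_mem (A.mul_mem (A.inv_mem hz) h1) hz
      simp [hnK, hzn]
  have h1 := Cfsg.Agent.Lib.CoprimeInv.card_sup_mul_card_inf hnorm
  have hinf : (Subgroup.zpowers z ⊓ K : Subgroup G) = ⊥ := by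
    rw [eq_bot_iff]
    rintro x ⟨hx1, hx2⟩
    by_contra hx
    have hx3 : x ≠ 1 := hx
    apply hzK
    -- `x` generates `zpowers z`
    have h2 : Nat.card (Subgroup.zpowers x) = p := by
      rw [Nat.card_zpowers]
      exact order_eq hA (hK hx2) hx3
    have h3 : Subgroup.zpowers x = Subgroup.zpowers z := by
      apply Subgroup.eq_of_le_of_card_ge
      · rwa [Subgroup.zpowers_le]
      · rw [h2, Nat.card_zpowers, hord]
    have h4 : z ∈ Subgroup.zpowers x := by
      rw [h3]; exact Subgroup.mem_zpowers z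
    have h5 : Subgroup.zpowers x ≤ K := by rwa [Subgroup.zpowers_le]
    exact h5 h4
  rw [hinf, Subgroup.card_bot, mul_one, Nat.card_zpowers, hord, sup_comm] at h1
  rw [h1, mul_comm]

theorem exists_not_mem {K : Subgroup G} (hK : Nat.card K < Nat.card A) : ∃ z ∈ A, z ∉ K := by
  by_contra hno
  push Not at hno
  have : A ≤ K := hno
  exact absurd (Subgroup.card_le_of_le this) (by omega)

/-- Complement of rank three containing a given element. -/
theorem exists_B (hA : IsElementaryAbelian p A) {E : Subgroup G} (hE : E ≤ A) {b : G} (hb : b ∈ A)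
    (hbE : b ∉ E) (hcard : Nat.card E * p ^ 3 ≤ Nat.card A) :
    ∃ B : Subgroup G, B ≤ A ∧ b ∈ B ∧ Nat.card B = p ^ 3 ∧ E ⊓ B = ⊥ := by
  have hp1 := hp.out.one_lt
  have hEpos : 0 < Nat.card E := Nat.card_pos
  set E₁ : Subgroup G := E ⊔ Subgroup.zpowers b with hE₁
  have hzA : ∀ z ∈ A, Subgroup.zpowers z ≤ A := fun z hz => by rwa [Subgroup.zpowers_le]
  have hE₁A : E₁ ≤ A := sup_le hE (hzA b hb)
  have hE₁c : Nat.card E₁ = Nat.card E * p := card_sup_zpowers hA hE hb hbE
  have hlt1 : Nat.card E₁ < Nat.card A := by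
    rw [hE₁c]
    refine lt_of_lt_of_le ?_ hcard
    exact Nat.mul_lt_mul_of_pos_left (by
      calc p = p ^ 1 := (pow_one p).symm
        _ < p ^ 3 := Nat.pow_lt_pow_right hp1 (by norm_num)) hEpos
  obtain ⟨x, hx, hxE⟩ := exists_not_mem hlt1
  set E₂ : Subgroup G := E₁ ⊔ Subgroup.zpowers x with hE₂
  have hE₂A : E₂ ≤ A := sup_le hE₁A (hzA x hx)
  have hE₂c : Nat.card E₂ = Nat.card E * p ^ 2 := by
    rw [hE₂, card_sup_zpowers hA hE₁A hx hxE, hE₁c]; ring
  have hlt2 : Nat.card E₂ < Nat.card A := by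
    rw [hE₂c]
    refine lt_of_lt_of_le ?_ hcard
    exact Nat.mul_lt_mul_of_pos_left (Nat.pow_lt_pow_right hp1 (by norm_num)) hEpos
  obtain ⟨y, hy, hyE⟩ := exists_not_mem hlt2
  set E₃ : Subgroup G := E₂ ⊔ Subgroup.zpowers y with hE₃
  have hE₃c : Nat.card E₃ = Nat.card E * p ^ 3 := by
    rw [hE₃, card_sup_zpowers hA hE₂A hy hyE, hE₂c]; ring
  set B : Subgroup G := (Subgroup.zpowers b ⊔ Subgroup.zpowers x) ⊔ Subgroup.zpowers y with hB
  have hBA : B ≤ A := sup_le (sup_le (hzA b hb) (hzA x hx)) (hzA y hy)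
  have hbB : b ∈ B := (le_sup_left.trans le_sup_left : Subgroup.zpowers b ≤ B) (Subgroup.mem_zpowers b)
  have hsupE : E ⊔ B = E₃ := by
    rw [hB, hE₃, hE₂, hE₁]
    simp only [sup_assoc]
  -- normalizing everything inside `A`
  have hnormal : ∀ K L : Subgroup G, K ≤ A → L ≤ A → K ≤ Subgroup.normalizer (L : Set G) := by
    intro K L hK hL g hg
    rw [Subgroup.mem_normalizer_iff]
    intro n
    by_cases hn : n ∈ A
    · have : g * n * g⁻¹ = n := by rw [comm_of_elem hA (hK hg) hn]; group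
      rw [this]
    · have hnK : n ∉ L := fun h => hn (hL h)
      have hzn : g * n * g⁻¹ ∉ L := by
        intro h
        apply hn
        have h1 := hL h
        have : n = g⁻¹ * (g * n * g⁻¹) * g := by group
        rw [this]
        exact A.mul_mem (A.mul_mem (A.inv_mem (hK hg)) h1) (hK hg)
      simp [hnK, hzn]
  have hcardle : ∀ K L : Subgroup G, K ≤ A → L ≤ A →
      Nat.card (K ⊔ L : Subgroup G) ≤ Nat.card K * Nat.card L := by
    intro K L hK hL
    have h1 := Cfsg.Agent.Lib.CoprimeInv.card_sup_mul_card_inf (hnormal K L hK hL)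
    rw [← h1]
    exact Nat.le_mul_of_pos_right _ Nat.card_pos
  have hzc : ∀ z ∈ A, z ≠ 1 → Nat.card (Subgroup.zpowers z) = p := fun z hz hz1 => by
    rw [Nat.card_zpowers]; exact order_eq hA hz hz1
  have hb1 : b ≠ 1 := fun h => hbE (h ▸ E.one_mem)
  have hx1 : x ≠ 1 := fun h => hxE (h ▸ E₁.one_mem)
  have hy1 : y ≠ 1 := fun h => hyE (h ▸ E₂.one_mem)
  have hBle : Nat.card B ≤ p ^ 3 := by
    have h1 := hcardle (Subgroup.zpowers b ⊔ Subgroup.zpowers x) (Subgroup.zpowers y)
      (sup_le (hzA b hb) (hzA x hx)) (hzA y hy)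
    have h2 := hcardle (Subgroup.zpowers b) (Subgroup.zpowers x) (hzA b hb) (hzA x hx)
    rw [hzc b hb hb1, hzc x hx hx1] at h2
    rw [hzc y hy hy1] at h1
    calc Nat.card B ≤ _ := h1
      _ ≤ p * p * p := Nat.mul_le_mul_right _ h2
      _ = p ^ 3 := by ring
  have h5 := Cfsg.Agent.Lib.CoprimeInv.card_sup_mul_card_inf (hnormal E B hE hBA)
  rw [hsupE, hE₃c] at h5
  -- `|E| p^3 |E ∩ B| = |E| |B|`
  have h6 : p ^ 3 * Nat.card (E ⊓ B : Subgroup G) = Nat.card B := by
    have h7 : Nat.card E * (p ^ 3 * Nat.card (E ⊓ B : Subgroup G)) = Nat.card E * Nat.card B := by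
      rw [← h5]; ring
    exact Nat.eq_of_mul_eq_mul_left hEpos h7
  have hipos : 0 < Nat.card (E ⊓ B : Subgroup G) := Nat.card_pos
  have hp3 : 0 < p ^ 3 := by positivity
  have hi1 : Nat.card (E ⊓ B : Subgroup G) = 1 := by
    have : p ^ 3 * Nat.card (E ⊓ B : Subgroup G) ≤ p ^ 3 * 1 := by
      rw [h6, mul_one]; exact hBle
    have h8 := Nat.le_of_mul_le_mul_left this hp3
    omega
  refine ⟨B, hBA, hbB, ?_, ?_⟩
  · rw [← h6, hi1, mul_one]
  · exact Subgroup.eq_bot_of_card_eq _ hi1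

/-- The inductive claim. -/
theorem key (hbal : IsKBalanced p k G) (hA : IsElementaryAbelian p A)
    (hAk : p ^ (k + 2) ≤ Nat.card ↥A)
    (hsolv : ∀ a ∈ A, a ≠ 1 → Group.IsSolvable ↥(centralizerPPrimeCore p a)) (E : Subgroup G) :
    E ≤ A → E ≠ ⊥ → ∀ F : Subgroup G, E ≤ F → F ≤ A →
      X p k A E ⊓ Subgroup.centralizer (F : Set G) ≤ X p k A F := by
  induction E using WellFoundedGT.induction with
  | ind E IH =>
  intro hEA hE1 F hEF hFA
  by_cases hEk : p ^ k ≤ Nat.card E
  · exact base hbal hA hEA hEk hEF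
  push Not at hEk
  by_cases hFE : F ≤ E
  · have : F = E := le_antisymm hFE hEF
    rw [this]
    exact inf_le_left
  obtain ⟨b, hbF, hbE⟩ := SetLike.not_le_iff_exists.mp hFE
  have hbA := hFA hbF
  -- numerics
  have hEp : IsPGroup p ↥E := fun e => ⟨1, Subtype.ext (by simpa using hA.2 e (hEA e.2))⟩
  obtain ⟨n, hn⟩ := IsPGroup.iff_card.mp hEp
  have hnk : n + 1 ≤ k := by
    rw [hn] at hEk
    exact (Nat.pow_lt_pow_iff_right hp.out.one_lt).mp hEk
  have hcardE : Nat.card E * p ^ 3 ≤ Nat.card A := by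
    rw [hn, ← pow_add]
    refine le_trans (Nat.pow_le_pow_right hp.out.pos ?_) hAk
    omega
  obtain ⟨B, hBA, hbB, hBc, hEB⟩ := exists_B hA hEA hbA hbE hcardE
  obtain ⟨a₀, ha₀, ha₀1⟩ := (Subgroup.bot_or_exists_ne_one E).resolve_left hE1
  have hle := X_le_V (k := k) hbal hA hEA ha₀ ha₀1
  -- the system
  let ι : ↥B →* G := B.subtype
  let θ : ↥B → Subgroup G := fun x => X p k A (E ⊔ Subgroup.zpowers (x : G))
  have hcomm : ∀ a b : ↥B, a * b = b * a := fun a b =>
    Subtype.ext (comm_of_elem hA (hBA a.2) (hBA b.2))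
  have hexp : ∀ b : ↥B, b ^ p = 1 := fun b => Subtype.ext (by simpa using hA.2 b (hBA b.2))
  have hzA : ∀ z ∈ A, E ⊔ Subgroup.zpowers z ≤ A := fun z hz =>
    sup_le hEA (by rwa [Subgroup.zpowers_le])
  have hXinv : ∀ K : Subgroup G, K ≤ A → Inv ι (X p k A K) := fun K hK b x hx =>
    X_inv hA hK (hBA b.2) x hx
  have hnotE : ∀ x : ↥B, x ≠ 1 → (x : G) ∉ E := by
    intro x hx hxE
    have : (x : G) ∈ E ⊓ B := ⟨hxE, x.2⟩
    rw [hEB, Subgroup.mem_bot] at this
    exact hx (Subtype.ext this)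
  have hlt : ∀ x : ↥B, x ≠ 1 → E < E ⊔ Subgroup.zpowers (x : G) := by
    intro x hx
    refine lt_of_le_of_ne le_sup_left ?_
    intro he
    apply hnotE x hx
    rw [he]
    exact (le_sup_right : Subgroup.zpowers (x : G) ≤ E ⊔ Subgroup.zpowers (x : G))
      (Subgroup.mem_zpowers _)
  have hp2 : p ^ 2 ≤ Nat.card ↥B := by
    rw [hBc]
    exact Nat.pow_le_pow_right hp.out.pos (by norm_num)
  have hSys : Sys p ι (X p k A E) θ := by
    refine ⟨solvable_of_le (hsolv a₀ (hEA ha₀) ha₀1) hle, not_dvd_of_le (V_card a₀) hle,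
      hXinv E hEA, ?_, ?_, ?_, ?_, ?_⟩
    · intro x hx
      exact hXinv _ (hzA _ (hBA x.2))
    · intro x hx
      exact X_anti le_sup_left
    · intro x hx
      refine (X_le_centralizer _).trans ?_
      rw [centralizer_singleton_eq_zpowers]
      exact Subgroup.centralizer_le (show ((Subgroup.zpowers (ι x) : Subgroup G) : Set G) ⊆
        ((E ⊔ Subgroup.zpowers (x : G) : Subgroup G) : Set G) from
        (le_sup_right : Subgroup.zpowers (x : G) ≤ E ⊔ Subgroup.zpowers (x : G)))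
    · intro x hx y hy u hu
      have hu1 : u ∈ X p k A (E ⊔ Subgroup.zpowers (x : G)) := hu.1
      have hu2 : u ∈ Subgroup.centralizer ({(y : G)} : Set G) := hu.2
      rw [centralizer_singleton_eq_zpowers] at hu2
      set F' : Subgroup G := (E ⊔ Subgroup.zpowers (x : G)) ⊔ Subgroup.zpowers (y : G) with hF'
      have hF'A : F' ≤ A := sup_le (hzA _ (hBA x.2)) (by
        rw [Subgroup.zpowers_le]; exact hBA y.2)
      have hu3 : u ∈ Subgroup.centralizer (F' : Set G) :=
        mem_centralizer_sup (X_le_centralizer _ hu1) hu2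
      have h2 := IH (E ⊔ Subgroup.zpowers (x : G)) (hlt x hx) (hzA _ (hBA x.2)) (by
        intro hb
        apply hE1
        rw [eq_bot_iff, ← hb]
        exact le_sup_left) F' le_sup_left hF'A ⟨hu1, hu3⟩
      refine X_anti ?_ h2
      exact sup_le (le_sup_left.trans le_sup_left) le_sup_right
    · refine iSup_le ?_
      rintro ⟨D, hDA, hDk⟩
      have hU : Inv ι (signalizerDelta p D ⊓ Subgroup.centralizer (E : Set G)) := fun b x hx =>
        piece_inv hA hEA hDA (hBA b.2) x hx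
      have hUle : signalizerDelta p D ⊓ Subgroup.centralizer (E : Set G) ≤ X p k A E :=
        le_iSup (fun D : {D : Subgroup G // D ≤ A ∧ Nat.card ↥D = p ^ k} =>
          signalizerDelta p (D : Subgroup G) ⊓ Subgroup.centralizer (E : Set G)) ⟨D, hDA, hDk⟩
      have hUc : ¬ p ∣ Nat.card (signalizerDelta p D ⊓ Subgroup.centralizer (E : Set G) : Subgroup G) :=
        not_dvd_of_le (V_card a₀) (hUle.trans hle)
      have hgen := gen_rank2 hcomm hexp ι ⊤ (by rwa [Subgroup.card_top]) _ hUc hU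
      refine le_trans hgen (iSup_le ?_)
      rintro ⟨h, _hhT, hh1⟩ u ⟨⟨hu1, hu2⟩, hu3⟩
      refine (le_iSup (fun x : {x : ↥B // x ≠ 1} => θ x) ⟨h, hh1⟩) ?_
      have hu3' : u ∈ Subgroup.centralizer ({(h : G)} : Set G) := hu3
      rw [centralizer_singleton_eq_zpowers] at hu3'
      exact (le_iSup (fun D : {D : Subgroup G // D ≤ A ∧ Nat.card ↥D = p ^ k} =>
          signalizerDelta p (D : Subgroup G) ⊓
            Subgroup.centralizer ((E ⊔ Subgroup.zpowers (h : G) : Subgroup G) : Set G)) ⟨D, hDA, hDk⟩)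
        ⟨hu1, mem_centralizer_sup hu2 hu3'⟩
  have hcompl := complete hcomm hexp hBc hSys ⟨b, hbB⟩ (by
    intro h
    apply hbE
    have : b = 1 := congrArg Subtype.val h
    rw [this]
    exact E.one_mem)
  rintro y ⟨hy1, hy2⟩
  have hybC : y ∈ Subgroup.centralizer {ι ⟨b, hbB⟩} := by
    show y ∈ Subgroup.centralizer {b}
    rw [Subgroup.mem_centralizer_singleton_iff]
    exact (Subgroup.mem_centralizer_iff.mp hy2 b hbF).symm
  have hy3 : y ∈ X p k A (E ⊔ Subgroup.zpowers b) := hcompl ⟨hy1, hybC⟩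
  refine IH (E ⊔ Subgroup.zpowers b) (hlt ⟨b, hbB⟩ ?_) (hzA b hbA) ?_ F ?_ hFA ⟨hy3, hy2⟩
  · intro h
    apply hbE
    have : b = 1 := congrArg Subtype.val h
    rw [this]
    exact E.one_mem
  · intro hb'
    apply hE1
    rw [eq_bot_iff, ← hb']
    exact le_sup_left
  · exact sup_le hEF (by rwa [Subgroup.zpowers_le])

end aux

/-- Let G be finite and k-balanced for the prime p (k ≥ 1), A an elementary abelian p-subgroup of order at least p^(k+2) such that O_{p'}(C_G(a)) is solvable for every non-identity a ∈ A. For a ∈ A put θ a = the subgroup generated by the Δ_G(D) ∩ C_G(a) over the subgroups D ≤ A of order p^k. Then θ is an A-signalizer functor. -/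
theorem result {G : Type*} [Group G] [Finite G] (p k : ℕ) [Fact p.Prime] (hk : 1 ≤ k) (hbal : Cfsg.IsKBalanced p k G) (A : Subgroup G) (hA : Cfsg.IsElementaryAbelian p A) (hAk : p ^ (k + 2) ≤ Nat.card ↥A) (hsolv : ∀ a ∈ A, a ≠ 1 → Group.IsSolvable ↥(Cfsg.centralizerPPrimeCore p a)) : Cfsg.IsSignalizerFunctor p A (fun a => ⨆ D : {D : Subgroup G // D ≤ A ∧ Nat.card ↥D = p ^ k}, Cfsg.signalizerDelta p (D : Subgroup G) ⊓ Subgroup.centralizer {a}) := by
  have hθ : ∀ a : G, (⨆ D : {D : Subgroup G // D ≤ A ∧ Nat.card ↥D = p ^ k},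
      Cfsg.signalizerDelta p (D : Subgroup G) ⊓ Subgroup.centralizer {a})
      = X p k A (Subgroup.zpowers a) := by
    intro a
    unfold X
    rw [centralizer_singleton_eq_zpowers]
  have hzle : ∀ a ∈ A, Subgroup.zpowers a ≤ A := fun a ha => by rwa [Subgroup.zpowers_le]
  refine ⟨?_, ?_, ?_, ?_⟩
  · intro a _ _
    exact iSup_le fun _ => inf_le_right
  · intro a ha ha1
    beta_reduce
    rw [hθ a]
    exact not_dvd_of_le (V_card a) (X_le_V hbal hA (hzle a ha) (Subgroup.mem_zpowers a) ha1)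
  · intro a ha _ b hb x hx
    beta_reduce at hx ⊢
    rw [hθ a] at hx ⊢
    exact X_inv hA (hzle a ha) hb x hx
  · intro a ha ha1 b hb hb1
    beta_reduce
    rw [hθ a, hθ b]
    rintro y ⟨hy1, hy2⟩
    have hz1 : Subgroup.zpowers a ≠ ⊥ := by
      intro h
      apply ha1
      have := Subgroup.mem_zpowers a
      rwa [h, Subgroup.mem_bot] at this
    have hy2' : y ∈ Subgroup.centralizer ({b} : Set G) := hy2
    rw [centralizer_singleton_eq_zpowers] at hy2'
    have h1 := key hbal hA hAk hsolv (Subgroup.zpowers a) (hzle a ha) hz1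
      (Subgroup.zpowers a ⊔ Subgroup.zpowers b) le_sup_left (sup_le (hzle a ha) (hzle b hb))
      ⟨hy1, mem_centralizer_sup (X_le_centralizer _ hy1) hy2'⟩
    exact X_anti le_sup_right h1

end Cfsg.Agent.S1299
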