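import Mathlib
import Cfsg.Statements.S1300
import Cfsg.Agent.Lib.LocalCore

set_option autoImplicit false
open Cfsg
open scoped commutatorElement

namespace Cfsg.Agent.S1300

/-- For a finite group G, balance in the sense of commuting involutions is the same as 1-balance for the prime 2. -/
theorem result {G : Type*} [Group G] [Finite G] : Cfsg.IsBalanced G ↔ Cfsg.IsKBalanced 2 1 G := by
  constructor
  · intro h A hA hcard b hb hAb
    -- `A` has order two
    rw [pow_one] at hcard
    have hcard' : Nat.card A = 2 := hcard
    obtain ⟨⟨x, hxA⟩, hx1⟩ : ∃ x : A, x ≠ 1 := by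
      have : Nontrivial A := by
        rw [← Finite.one_lt_card_iff_nontrivial]
        omega
      exact exists_ne 1
    have hx1' : x ≠ 1 := fun h => hx1 (Subtype.ext h)
    have hxo : orderOf x = 2 := by
      have h2 : x ^ 2 = 1 := hA.2 x hxA
      exact orderOf_eq_prime h2 hx1'
    have hAeq : ∀ a ∈ A, a = 1 ∨ a = x := by
      intro a ha
      by_cases ha1 : a = 1
      · exact Or.inl ha1
      · right
        by_contra hax
        have hinj : Function.Injective (![1, ⟨x, hxA⟩, ⟨a, ha⟩] : Fin 3 → A) := by
          intro i j hij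
          fin_cases i <;> fin_cases j <;> simp_all [Subtype.ext_iff]
          all_goals first | exact absurd hij.symm hx1' | exact absurd hij hx1' | exact absurd hij.symm ha1 | exact absurd hij ha1 | exact absurd hij.symm hax | exact absurd hij hax
        have := Nat.card_le_card_of_injective _ hinj
        simp at this
        omega
    intro y hy
    obtain ⟨hyD, hyb⟩ := hy
    have hyx : y ∈ centralizerPPrimeCore 2 x := by
      have := (Subgroup.mem_iInf.mp hyD) ⟨x, hxA, hx1'⟩
      exact this
    have hxb : x * b = b * x := hAb x hxA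
    have := h x b hxo hb hxb
    have h2 : y ∈ centralizerPPrimeCore 2 x ⊓ Subgroup.centralizer {b} := ⟨hyx, hyb⟩
    rw [this] at h2
    exact h2.1
  · intro h x y hx hy hxy
    have key : ∀ x y : G, orderOf x = 2 → orderOf y = 2 → x * y = y * x →
        centralizerPPrimeCore 2 x ⊓ Subgroup.centralizer {y} ≤
          centralizerPPrimeCore 2 y ⊓ Subgroup.centralizer {x} := by
      intro x y hx hy hxy z hz
      have hx1 : x ≠ 1 := by
        rintro rfl
        simp at hx
      -- the subgroup `⟨x⟩`
      have hEA : IsElementaryAbelian 2 (Subgroup.zpowers x) := by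
        refine ⟨⟨⟨fun a b => ?_⟩⟩, ?_⟩
        · obtain ⟨a, ha⟩ := a
          obtain ⟨b, hb⟩ := b
          obtain ⟨i, rfl⟩ := Subgroup.mem_zpowers_iff.mp ha
          obtain ⟨j, rfl⟩ := Subgroup.mem_zpowers_iff.mp hb
          apply Subtype.ext
          show x ^ i * x ^ j = x ^ j * x ^ i
          rw [← zpow_add, ← zpow_add, add_comm]
        · intro a ha
          obtain ⟨i, rfl⟩ := Subgroup.mem_zpowers_iff.mp ha
          rw [← zpow_natCast, ← zpow_mul, mul_comm, zpow_mul, zpow_natCast, ← hx, pow_orderOf_eq_one, one_zpow]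
      have hcard : Nat.card (Subgroup.zpowers x) = 2 ^ 1 := by
        rw [Nat.card_zpowers, hx, pow_one]
      have hAb : ∀ a ∈ Subgroup.zpowers x, a * y = y * a := by
        intro a ha
        obtain ⟨i, rfl⟩ := Subgroup.mem_zpowers_iff.mp ha
        exact ((Commute.zpow_left hxy i : Commute (x ^ i) y)).eq
      have hzD : z ∈ signalizerDelta 2 (Subgroup.zpowers x) := by
        unfold signalizerDelta
        rw [Subgroup.mem_iInf]
        rintro ⟨a, ha, ha1⟩
        have hax : a = x := by
          obtain ⟨i, rfl⟩ := Subgroup.mem_zpowers_iff.mp ha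
          rcases Int.even_or_odd' i with ⟨k, rfl | rfl⟩
          · exfalso
            apply ha1
            rw [zpow_mul, zpow_ofNat, ← hx, pow_orderOf_eq_one, one_zpow]
          · rw [zpow_add, zpow_mul, zpow_ofNat, ← hx, pow_orderOf_eq_one, one_zpow, one_mul, zpow_one]
        show z ∈ centralizerPPrimeCore 2 a
        rw [hax]
        exact hz.1
      have := h _ hEA hcard y hy hAb ⟨hzD, hz.2⟩
      refine ⟨this, ?_⟩
      -- `z ∈ C(x)`
      obtain ⟨⟨w, hw⟩, _, hwe⟩ := hz.1
      simp only [Subgroup.subtype_apply] at hwe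
      subst hwe
      exact hw
    exact le_antisymm (key x y hx hy hxy) (key y x hy hx hxy.symm)

end Cfsg.Agent.S1300
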