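import Mathlib
import Cfsg.Statements.S1303
import Cfsg.Agent.Lib.PCore

set_option autoImplicit false
set_option maxRecDepth 100000
open Cfsg

namespace Cfsg.Agent.S1303

/-- The group X = SL(2, 3): it is 2-constrained, O_{2'}(X) = 1, its centre A = Z(X) contains every involution of X = C_X(A), and X has a subgroup of order 3 (normalized by A) not contained in O_{2'}(X). -/
theorem result : Cfsg.IsPConstrained 2 (Matrix.SpecialLinearGroup (Fin 2) (ZMod 3)) ∧ Cfsg.pPrimeCore 2 (Matrix.SpecialLinearGroup (Fin 2) (ZMod 3)) = ⊥ ∧ (∀ t : Matrix.SpecialLinearGroup (Fin 2) (ZMod 3), orderOf t = 2 → t ∈ Subgroup.center (Matrix.SpecialLinearGroup (Fin 2) (ZMod 3))) ∧ ∃ Q : Subgroup (Matrix.SpecialLinearGroup (Fin 2) (ZMod 3)), Nat.card ↥Q = 3 ∧ ¬ (Q ≤ Cfsg.pPrimeCore 2 (Matrix.SpecialLinearGroup (Fin 2) (ZMod 3))) := by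
  -- notation
  have hcube : ∀ N : Subgroup (Matrix.SpecialLinearGroup (Fin 2) (ZMod 3)),
      (Nat.card N).Coprime 2 → ∀ x ∈ N, x ^ 3 = 1 := by
    intro N hN x hx
    have hfin : Nat.card (Matrix.SpecialLinearGroup (Fin 2) (ZMod 3)) = 24 := by
      rw [Nat.card_eq_fintype_card]; decide
    have h1 : Nat.card N ∣ 24 := by
      rw [← hfin]; exact Subgroup.card_subgroup_dvd_card N
    have h2 : Nat.card N ∣ 3 := by
      have h3 : (24 : ℕ) = 2 ^ 3 * 3 := by norm_num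
      rw [h3] at h1
      exact (Nat.Coprime.pow_right 3 hN).dvd_of_dvd_mul_left h1
    have h4 : x ^ Nat.card N = 1 := by
      have := pow_card_eq_one' (G := N) (x := ⟨x, hx⟩)
      exact congrArg Subtype.val this
    obtain ⟨c, hc⟩ := h2
    have h5 : x ^ (Nat.card N * c) = 1 := by rw [pow_mul, h4, one_pow]
    rwa [← hc] at h5
  have hcore : Cfsg.pPrimeCore 2 (Matrix.SpecialLinearGroup (Fin 2) (ZMod 3)) = ⊥ := by
    rw [eq_bot_iff]
    intro g hg
    rw [Subgroup.mem_bot]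
    have hN := Cfsg.Agent.Lib.PCore.pPrimeCore_normal 2 (G := Matrix.SpecialLinearGroup (Fin 2) (ZMod 3))
    have hc := hcube _ (Cfsg.Agent.Lib.PCore.card_pPrimeCore_coprime 2)
    have key2 : ∀ g : Matrix.SpecialLinearGroup (Fin 2) (ZMod 3), g ^ 3 = 1 → g ≠ 1 →
        ∃ h : Matrix.SpecialLinearGroup (Fin 2) (ZMod 3), (g⁻¹ * (h * g * h⁻¹)) ^ 3 ≠ 1 := by
      decide
    by_contra hne
    obtain ⟨h, hh⟩ := key2 g (hc g hg) hne
    exact hh (hc _ (Subgroup.mul_mem _ (Subgroup.inv_mem _ hg) (hN.conj_mem g hg h)))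
  -- the quaternion subgroup
  let Q8 : Subgroup (Matrix.SpecialLinearGroup (Fin 2) (ZMod 3)) :=
    { carrier := {x | x ^ 4 = 1}
      one_mem' := by simp
      inv_mem' := by intro x hx; simpa using hx
      mul_mem' := by
        intro a b ha hb
        have key : ∀ a b : Matrix.SpecialLinearGroup (Fin 2) (ZMod 3), a ^ 4 = 1 → b ^ 4 = 1 →
            (a * b) ^ 4 = 1 := by decide
        exact key a b ha hb }
  have hQ8n : Q8.Normal := ⟨by
    intro n hn g
    have key : ∀ n g : Matrix.SpecialLinearGroup (Fin 2) (ZMod 3), n ^ 4 = 1 →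
        (g * n * g⁻¹) ^ 4 = 1 := by decide
    exact key n g hn⟩
  have hQ8p : IsPGroup 2 Q8 := by
    rintro ⟨x, hx⟩
    exact ⟨2, Subtype.ext hx⟩
  have hQ8R : Q8 ≤ Cfsg.pPrimePCore 2 (Matrix.SpecialLinearGroup (Fin 2) (ZMod 3)) := by
    have h1 : Q8.map (QuotientGroup.mk' (Cfsg.pPrimeCore 2 (Matrix.SpecialLinearGroup (Fin 2) (ZMod 3)))) ≤
        Cfsg.pCore 2 _ :=
      Cfsg.Agent.Lib.PCore.le_pCore (hQ8n.map _ (QuotientGroup.mk'_surjective _)) (hQ8p.map _)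
    intro x hx
    exact h1 (Subgroup.mem_map_of_mem _ hx)
  refine ⟨?_, hcore, ?_, ?_⟩
  · intro P x hx
    have : Fact (Nat.Prime 2) := ⟨Nat.prime_two⟩
    have hQ8P : Q8 ≤ (P : Subgroup ↥(Cfsg.pPrimePCore 2 (Matrix.SpecialLinearGroup (Fin 2) (ZMod 3)))).map
        (Cfsg.pPrimePCore 2 (Matrix.SpecialLinearGroup (Fin 2) (ZMod 3))).subtype := by
      intro y hy
      have h1 : (Q8.subgroupOf (Cfsg.pPrimePCore 2 (Matrix.SpecialLinearGroup (Fin 2) (ZMod 3)))).Normal :=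
        Subgroup.Normal.subgroupOf hQ8n _
      have h2 : IsPGroup 2 (Q8.subgroupOf (Cfsg.pPrimePCore 2 (Matrix.SpecialLinearGroup (Fin 2) (ZMod 3)))) :=
        hQ8p.of_injective (Subgroup.subgroupOfEquivOfLe hQ8R).toMonoidHom
          (Subgroup.subgroupOfEquivOfLe hQ8R).injective
      have h3 := Cfsg.Agent.Lib.PCore.le_pCore h1 h2
      have h4 := Cfsg.Agent.Lib.PCore.pCore_le_sylow 2 P
      have hyR : y ∈ Cfsg.pPrimePCore 2 (Matrix.SpecialLinearGroup (Fin 2) (ZMod 3)) := hQ8R hy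
      exact ⟨⟨y, hyR⟩, h4 (h3 (show (⟨y, hyR⟩ : ↥(Cfsg.pPrimePCore 2 (Matrix.SpecialLinearGroup (Fin 2) (ZMod 3)))) ∈ Q8.subgroupOf _ from hy)), rfl⟩
    have key : ∀ x : Matrix.SpecialLinearGroup (Fin 2) (ZMod 3),
        (∀ y : Matrix.SpecialLinearGroup (Fin 2) (ZMod 3), y ^ 4 = 1 → y * x = x * y) → x ^ 4 = 1 := by
      decide
    apply hQ8R
    apply key
    intro y hy
    exact Subgroup.mem_centralizer_iff.mp hx y (hQ8P hy)
  · intro t ht
    have h1 : t * t = 1 := by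
      have := pow_orderOf_eq_one t
      rw [ht, pow_two] at this
      exact this
    have key : ∀ t : Matrix.SpecialLinearGroup (Fin 2) (ZMod 3), t * t = 1 →
        ∀ g : Matrix.SpecialLinearGroup (Fin 2) (ZMod 3), g * t = t * g := by decide
    exact Subgroup.mem_center_iff.mpr (key t h1)
  · obtain ⟨g, hg3, hg1⟩ : ∃ g : Matrix.SpecialLinearGroup (Fin 2) (ZMod 3), g ^ 3 = 1 ∧ g ≠ 1 := by decide
    have : Fact (Nat.Prime 3) := ⟨Nat.prime_three⟩
    have hord : orderOf g = 3 := orderOf_eq_prime hg3 hg1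
    refine ⟨Subgroup.zpowers g, by rw [Nat.card_zpowers, hord], ?_⟩
    rw [hcore]
    intro h
    have h2 : g ∈ (⊥ : Subgroup (Matrix.SpecialLinearGroup (Fin 2) (ZMod 3))) := h (Subgroup.mem_zpowers g)
    exact hg1 (Subgroup.mem_bot.mp h2)

end Cfsg.Agent.S1303
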