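import Mathlib
import Cfsg.Statements.S1304

set_option autoImplicit false
open Cfsg

namespace Cfsg.Agent.S1304

/-- Let X be a perfect group and α an automorphism of X with α(x) x⁻¹ central for every x. Then α is the identity. -/
theorem result {X : Type*} [Group X] (hperf : commutator X = ⊤) (α : X ≃* X) (h : ∀ x : X, α x * x⁻¹ ∈ Subgroup.center X) : ∀ x : X, α x = x := by
  -- the fixed points of α form a subgroup containing all commutators
  let F : Subgroup X :=
    { carrier := {x | α x = x}
      mul_mem' := by
        intro a b ha hb
        simp only [Set.mem_ofPred_eq] at *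
        simp [ha, hb]
      one_mem' := by simp
      inv_mem' := by
        intro a ha
        simp only [Set.mem_ofPred_eq] at *
        simp [ha] }
  have hF : commutator X ≤ F := by
    rw [commutator_def, Subgroup.commutator_le]
    intro a _ b _
    show α (a * b * a⁻¹ * b⁻¹) = a * b * a⁻¹ * b⁻¹
    have ha := h a
    have hb := h b
    rw [Subgroup.mem_center_iff] at ha hb
    -- α a = z a, α b = w b with z w central
    set z := α a * a⁻¹ with hz
    set w := α b * b⁻¹ with hw
    have h1 : α a = z * a := by simp [hz]
    have h2 : α b = w * b := by simp [hw]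
    have hz' : ∀ g, z * g = g * z := fun g => (ha g).symm
    have hw' : ∀ g, w * g = g * w := fun g => (hb g).symm
    rw [map_mul, map_mul, map_mul, map_inv, map_inv, h1, h2]
    have c1 : ∀ g, z * a * g * (z * a)⁻¹ = a * g * a⁻¹ := by
      intro g
      have : z * a * g * (z * a)⁻¹ = z * (a * g * a⁻¹) * z⁻¹ := by group
      rw [this, hz', mul_inv_cancel_right]
    rw [c1]
    have c2 : ∀ g, w * g * w⁻¹ = g := by
      intro g
      rw [hw', mul_inv_cancel_right]
    have e : a * (w * b) * a⁻¹ * (w * b)⁻¹ = (a * w) * (b * a⁻¹ * b⁻¹) * w⁻¹ := by group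
    rw [e, ← hw' a, mul_assoc w a, c2]
    group
  intro x
  have hx : x ∈ commutator X := by rw [hperf]; trivial
  exact hF hx

end Cfsg.Agent.S1304
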