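import Mathlib
import Cfsg.Statements.S1306
import Cfsg.Agent.Lib.LocalCore

set_option autoImplicit false
open Cfsg
open Cfsg.Agent.Lib.LocalCore
open Cfsg.Agent.Lib.PCore

namespace Cfsg.Agent.S1306

variable {G : Type*} [Group G]

abbrev cj (g : G) (A : Subgroup G) : Subgroup G := A.map (MulAut.conj g).toMonoidHom

theorem mem_cj {g x : G} {A : Subgroup G} : x ∈ cj g A ↔ g⁻¹ * x * g ∈ A := by
  constructor
  · rintro ⟨a, ha, rfl⟩
    simpa [mul_assoc] using ha
  · intro h
    exact ⟨_, h, by simp [mul_assoc]⟩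

theorem centralizer_cj (g : G) (A : Subgroup G) :
    Subgroup.centralizer (cj g A : Set G) = cj g (Subgroup.centralizer (A : Set G)) := by
  ext x
  rw [mem_cj, Subgroup.mem_centralizer_iff, Subgroup.mem_centralizer_iff]
  constructor
  · intro h a ha
    have h1 := h (g * a * g⁻¹) (mem_cj.2 (by simpa [mul_assoc] using ha))
    calc a * (g⁻¹ * x * g) = g⁻¹ * ((g * a * g⁻¹) * x) * g := by group
      _ = g⁻¹ * (x * (g * a * g⁻¹)) * g := by rw [h1]
      _ = (g⁻¹ * x * g) * a := by group
  · intro h a ha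
    have h1 := h (g⁻¹ * a * g) (mem_cj.1 ha)
    calc a * x = g * ((g⁻¹ * a * g) * (g⁻¹ * x * g)) * g⁻¹ := by group
      _ = g * ((g⁻¹ * x * g) * (g⁻¹ * a * g)) * g⁻¹ := by rw [h1]
      _ = x * a := by group

/-- Conjugation transports a component of `C(y)` to a component of `C(g y g⁻¹)`. -/
theorem comp_transport {L : Subgroup G} {y : G} (g : G)
    (hL : IsComponent (L.subgroupOf (Subgroup.centralizer ({y} : Set G)))) :
    IsComponent ((cj g L).subgroupOf (Subgroup.centralizer ({g * y * g⁻¹} : Set G))) := by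
  have hmem : ∀ z : G, z ∈ Subgroup.centralizer ({y} : Set G) →
      g * z * g⁻¹ ∈ Subgroup.centralizer ({g * y * g⁻¹} : Set G) := by
    intro z hz
    rw [Subgroup.mem_centralizer_singleton_iff] at hz ⊢
    calc g * z * g⁻¹ * (g * y * g⁻¹) = g * (z * y) * g⁻¹ := by group
      _ = g * (y * z) * g⁻¹ := by rw [hz]
      _ = g * y * g⁻¹ * (g * z * g⁻¹) := by group
  have hmem' : ∀ z : G, z ∈ Subgroup.centralizer ({g * y * g⁻¹} : Set G) →
      g⁻¹ * z * g ∈ Subgroup.centralizer ({y} : Set G) := by
    intro z hz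
    rw [Subgroup.mem_centralizer_singleton_iff] at hz ⊢
    calc g⁻¹ * z * g * y = g⁻¹ * (z * (g * y * g⁻¹)) * g := by group
      _ = g⁻¹ * ((g * y * g⁻¹) * z) * g := by rw [hz]
      _ = y * (g⁻¹ * z * g) := by group
  let e : ↥(Subgroup.centralizer ({y} : Set G)) ≃* ↥(Subgroup.centralizer ({g * y * g⁻¹} : Set G)) :=
    { toFun := fun z => ⟨g * z * g⁻¹, hmem z z.2⟩
      invFun := fun z => ⟨g⁻¹ * z * g, hmem' z z.2⟩
      left_inv := by
        intro z
        apply Subtype.ext
        simp [mul_assoc]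
      right_inv := by
        intro z
        apply Subtype.ext
        simp [mul_assoc]
      map_mul' := by
        intro a b
        apply Subtype.ext
        show g * (a * b) * g⁻¹ = g * a * g⁻¹ * (g * b * g⁻¹)
        group }
  have h := comp_map_equiv e hL
  have heq : (L.subgroupOf (Subgroup.centralizer ({y} : Set G))).map e.toMonoidHom =
      (cj g L).subgroupOf (Subgroup.centralizer ({g * y * g⁻¹} : Set G)) := by
    ext z
    constructor
    · rintro ⟨w, hw, rfl⟩
      rw [Subgroup.mem_subgroupOf]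
      exact ⟨w, hw, rfl⟩
    · intro hz
      rw [Subgroup.mem_subgroupOf] at hz
      refine ⟨⟨g⁻¹ * z * g, hmem' z z.2⟩, ?_, ?_⟩
      · rw [SetLike.mem_coe, Subgroup.mem_subgroupOf]
        exact mem_cj.1 hz
      · apply Subtype.ext
        show g * (g⁻¹ * z * g) * g⁻¹ = z
        group
  rwa [heq] at h

/-- Let G be finite, x an involution and L ≤ C_G(x) a component of C_G(x). Suppose L is a component of C_G(y) for every involution y ∈ C_G(L), and ⁅L, g L g⁻¹⁆ ≠ 1 whenever g L g⁻¹ ≠ L. Then L is a standard subgroup of G. -/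
theorem result {G : Type*} [Group G] [Finite G] (x : G) (hx : orderOf x = 2) (L : Subgroup G) (hLx : L ≤ Subgroup.centralizer ({x} : Set G)) (hL : Cfsg.IsComponent (L.subgroupOf (Subgroup.centralizer ({x} : Set G)))) (hne : ∀ y : G, orderOf y = 2 → y ∈ Subgroup.centralizer (L : Set G) → L ≤ Subgroup.centralizer ({y} : Set G) ∧ Cfsg.IsComponent (L.subgroupOf (Subgroup.centralizer ({y} : Set G)))) (hnc : ∀ g : G, L.map (MulAut.conj g).toMonoidHom ≠ L → ⁅L, L.map (MulAut.conj g).toMonoidHom⁆ ≠ ⊥) : Cfsg.IsStandardSubgroup L := by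
  have hxC : x ∈ Subgroup.centralizer (L : Set G) := by
    rw [Subgroup.mem_centralizer_iff]
    intro l hl
    have := hLx hl
    rw [Subgroup.mem_centralizer_singleton_iff] at this
    exact this
  -- key lemma
  have key : ∀ (g y : G), orderOf y = 2 → y ∈ Subgroup.centralizer (L : Set G) →
      y ∈ Subgroup.centralizer ((cj g L : Subgroup G) : Set G) → cj g L = L := by
    intro g y hy hyL hyLg
    by_contra hneq
    have hy' : orderOf (g⁻¹ * y * g) = 2 := by
      rw [← hy]
      have := orderOf_injective (MulAut.conj g⁻¹).toMonoidHom (MulAut.conj g⁻¹).injective y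
      simpa using this
    have hy'L : g⁻¹ * y * g ∈ Subgroup.centralizer (L : Set G) := by
      rw [centralizer_cj] at hyLg
      exact mem_cj.1 hyLg
    obtain ⟨h1, h2⟩ := hne _ hy' hy'L
    have h3 := comp_transport g h2
    have e1 : g * (g⁻¹ * y * g) * g⁻¹ = y := by group
    rw [e1] at h3
    obtain ⟨h4, h5⟩ := hne y hy hyL
    have hleLg : cj g L ≤ Subgroup.centralizer ({y} : Set G) := by
      intro z hz
      rw [Subgroup.mem_centralizer_singleton_iff]
      exact (Subgroup.mem_centralizer_iff.1 hyLg z hz)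
    have hne' : L.subgroupOf (Subgroup.centralizer ({y} : Set G)) ≠
        (cj g L).subgroupOf (Subgroup.centralizer ({y} : Set G)) := by
      intro h6
      apply hneq
      have := congrArg (Subgroup.map (Subgroup.centralizer ({y} : Set G)).subtype) h6
      rw [Subgroup.subgroupOf_map_subtype, Subgroup.subgroupOf_map_subtype, inf_of_le_left h4,
        inf_of_le_left hleLg] at this
      exact this.symm
    have hcomm := comp_commute_of_ne h5 h3 hne'
    apply hnc g hneq
    rw [commutator_eq_bot_iff_elementwise]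
    intro a ha b hb
    have := commutator_eq_bot_iff_elementwise.1 hcomm ⟨a, h4 ha⟩
      (by rw [Subgroup.mem_subgroupOf]; exact ha) ⟨b, hleLg hb⟩
      (by rw [Subgroup.mem_subgroupOf]; exact hb)
    exact congrArg Subtype.val this
  have hqs : IsQuasisimple L :=
    qs_of_mulEquiv (Subgroup.subgroupOfEquivOfLe hLx) hL.2
  have hnorm1 : ∀ g, g ∈ Subgroup.normalizer (L : Set G) →
      g ∈ Subgroup.normalizer ((Subgroup.centralizer (L : Set G) : Subgroup G) : Set G) := by
    intro g hg
    have h1 := map_conj_of_mem_normalizer hg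
    rw [Subgroup.mem_normalizer_iff]
    intro n
    have h2 : ∀ (g n : G), cj g L = L → n ∈ Subgroup.centralizer (L : Set G) →
        g * n * g⁻¹ ∈ Subgroup.centralizer (L : Set G) := by
      intro g n hgL hn
      have h3 : g * n * g⁻¹ ∈ cj g (Subgroup.centralizer (L : Set G)) :=
        ⟨n, hn, rfl⟩
      rwa [← centralizer_cj, hgL] at h3
    refine ⟨h2 g n h1, fun hn => ?_⟩
    have h3 : cj g⁻¹ L = L := by
      ext z
      have h4 : ∀ w, w ∈ L ↔ g⁻¹ * w * g ∈ L := by
        intro w
        have : w ∈ cj g L ↔ w ∈ L := by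
          show w ∈ L.map (MulAut.conj g).toMonoidHom ↔ w ∈ L
          rw [h1]
        rw [← this, mem_cj]
      rw [mem_cj, h4 (g⁻¹⁻¹ * z * g⁻¹)]
      simp [mul_assoc]
    have := h2 g⁻¹ _ h3 hn
    simpa [mul_assoc] using this
  have hnorm2 : ∀ g, cj g L = L → g ∈ Subgroup.normalizer (L : Set G) := by
    intro g hg
    rw [Subgroup.mem_normalizer_iff]
    intro n
    constructor
    · intro hn
      rw [← hg]
      exact ⟨n, hn, rfl⟩
    · intro hn
      rw [← hg] at hn
      have := mem_cj.1 hn
      simpa [mul_assoc] using this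
  refine ⟨hqs, ⟨?_, ?_⟩, hnc, ?_⟩
  · rw [even_iff_two_dvd]
    have : orderOf (⟨x, hxC⟩ : ↥(Subgroup.centralizer (L : Set G))) = 2 := by
      rw [Subgroup.orderOf_mk, hx]
    rw [← this]
    exact orderOf_dvd_natCard _
  · intro g hg
    rw [← Nat.not_even_iff_odd, even_iff_two_dvd]
    intro hd
    obtain ⟨y, hy⟩ := exists_prime_orderOf_dvd_card' 2 hd
    have hy' : orderOf (y : G) = 2 := by
      rw [Subgroup.orderOf_coe, hy]
    have hy1 : (y : G) ∈ Subgroup.centralizer (L : Set G) := y.2.1
    have hy2 : (y : G) ∈ Subgroup.centralizer ((cj g L : Subgroup G) : Set G) := by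
      rw [centralizer_cj]
      exact y.2.2
    exact hg (hnorm1 g (hnorm2 g (key g y hy' hy1 hy2)))
  · apply le_antisymm
    · exact fun g hg => hnorm1 g hg
    · intro g hg
      apply hnorm2
      have h1 : g * x * g⁻¹ ∈ Subgroup.centralizer (L : Set G) :=
        (Subgroup.mem_normalizer_iff.1 hg x).1 hxC
      have h2 : g * x * g⁻¹ ∈ Subgroup.centralizer ((cj g L : Subgroup G) : Set G) := by
        rw [centralizer_cj]
        exact ⟨x, hxC, rfl⟩
      refine key g _ ?_ h1 h2
      rw [← hx]
      exact orderOf_injective (MulAut.conj g).toMonoidHom (MulAut.conj g).injective x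

end Cfsg.Agent.S1306
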