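import Mathlib
import Cfsg.Statements.S1314
import Cfsg.Agent.Lib.LocalCore

set_option autoImplicit false
open Cfsg
open Cfsg.Agent.Lib.LocalCore
open Cfsg.Agent.Lib.PCore
open scoped commutatorElement

namespace Cfsg.Agent.S1314

/-- Let x be an involution of a group G and L a perfect subgroup with ⁅L, x L x⁻¹⁆ = 1. Then l ↦ l (x l x⁻¹) is a group homomorphism π from L to G whose kernel is central in L and whose image lies in C_G(x); and the commutator subgroup of C_{L ⊔ xLx⁻¹}(x) equals the image of π. -/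
theorem result {G : Type*} [Group G] [Finite G] (x : G) (hx : orderOf x = 2) (L : Subgroup G) (hperf : ⁅L, L⁆ = L) (hcomm : ⁅L, L.map (MulAut.conj x).toMonoidHom⁆ = ⊥) : ∃ π : ↥L →* G, (∀ l : ↥L, π l = (l : G) * (x * (l : G) * x⁻¹)) ∧ π.ker ≤ Subgroup.center ↥L ∧ π.range ≤ Subgroup.centralizer ({x} : Set G) ∧ ⁅(L ⊔ L.map (MulAut.conj x).toMonoidHom) ⊓ Subgroup.centralizer ({x} : Set G), (L ⊔ L.map (MulAut.conj x).toMonoidHom) ⊓ Subgroup.centralizer ({x} : Set G)⁆ = π.range := by
  have hx2 : x * x = 1 := by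
    have := pow_orderOf_eq_one x
    rw [hx, pow_two] at this
    exact this
  have hxinv : x⁻¹ = x := by
    rw [inv_eq_iff_mul_eq_one, hx2]
  set Lx : Subgroup G := L.map (MulAut.conj x).toMonoidHom with hLx
  have hmemx : ∀ l ∈ L, x * l * x⁻¹ ∈ Lx := fun l hl => ⟨l, hl, rfl⟩
  have hmemx' : ∀ y ∈ Lx, x * y * x⁻¹ ∈ L := by
    rintro _ ⟨l, hl, rfl⟩
    have : x * ((MulAut.conj x).toMonoidHom l) * x⁻¹ = l := by
      show x * (x * l * x⁻¹) * x⁻¹ = l
      rw [hxinv]
      calc x * (x * l * x) * x = (x * x) * l * (x * x) := by group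
        _ = l := by rw [hx2]; group
    rw [this]
    exact hl
  have hc : ∀ a ∈ L, ∀ b ∈ Lx, a * b = b * a :=
    commutator_eq_bot_iff_elementwise.1 hcomm
  let π : ↥L →* G :=
    { toFun := fun l => (l : G) * (x * (l : G) * x⁻¹)
      map_one' := by simp
      map_mul' := by
        intro a b
        have h1 := hc b b.2 _ (hmemx a a.2)
        show (a : G) * b * (x * ((a : G) * b) * x⁻¹) = (a : G) * (x * a * x⁻¹) * (b * (x * b * x⁻¹))
        calc (a : G) * b * (x * ((a : G) * b) * x⁻¹)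
            = (a : G) * (b * (x * a * x⁻¹)) * (x * b * x⁻¹) := by group
          _ = (a : G) * ((x * a * x⁻¹) * b) * (x * b * x⁻¹) := by rw [h1]
          _ = (a : G) * (x * a * x⁻¹) * (b * (x * b * x⁻¹)) := by group }
  have hπ : ∀ l : ↥L, π l = (l : G) * (x * (l : G) * x⁻¹) := fun l => rfl
  have hker : π.ker ≤ Subgroup.center ↥L := by
    intro l hl
    have h1 : (l : G) * (x * (l : G) * x⁻¹) = 1 := hl
    rw [Subgroup.mem_center_iff]
    rintro ⟨m, hm⟩
    apply Subtype.ext
    show m * (l : G) = l * m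
    -- l⁻¹ = x l x⁻¹ lies in Lx and so commutes with m
    have h2 : (l : G)⁻¹ = x * l * x⁻¹ := by
      rw [inv_eq_iff_mul_eq_one]; exact h1
    have h3 : (l : G)⁻¹ ∈ Lx := h2 ▸ hmemx l l.2
    have h4 := hc m hm _ h3
    exact (Commute.inv_right_iff.1 h4)
  have hrange : π.range ≤ Subgroup.centralizer ({x} : Set G) := by
    rintro _ ⟨l, rfl⟩
    rw [Subgroup.mem_centralizer_singleton_iff, hπ]
    have h1 := hc l l.2 _ (hmemx l l.2)
    calc (l : G) * (x * (l : G) * x⁻¹) * x = (l : G) * x * l := by group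
      _ = x * (x * (l : G) * x⁻¹) * l := by
        rw [hxinv]
        congr 1
        calc (l : G) * x = (x * x) * l * x := by rw [hx2]; group
          _ = x * (x * l * x) := by group
      _ = x * ((x * (l : G) * x⁻¹) * l) := by group
      _ = x * (l * (x * (l : G) * x⁻¹)) := by rw [h1]
  refine ⟨π, hπ, hker, hrange, ?_⟩
  set C : Subgroup G := (L ⊔ Lx) ⊓ Subgroup.centralizer ({x} : Set G) with hC
  have hπC : π.range ≤ C := by
    refine le_inf ?_ hrange
    rintro _ ⟨l, rfl⟩
    rw [hπ]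
    exact Subgroup.mul_mem _ (le_sup_left (a := L) l.2) (le_sup_right (b := Lx) (hmemx l l.2))
  apply le_antisymm
  · -- decomposition of elements of `C`
    have hdec : ∀ z ∈ C, ∃ (k : ↥L) (w : G), z = π k * w ∧ w ∈ L ∧ w ∈ Lx := by
      intro z hz
      obtain ⟨l, hl, m, hm, rfl⟩ := mem_sup_of_commute hcomm hz.1
      have hz2 : l * m * x = x * (l * m) := Subgroup.mem_centralizer_singleton_iff.1 hz.2
      let k : G := x * m * x⁻¹
      have hk : k ∈ L := hmemx' m hm
      let l' : G := x * l * x⁻¹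
      have hl' : l' ∈ Lx := hmemx l hl
      have hxk : x * k * x⁻¹ = m := by
        show x * (x * m * x⁻¹) * x⁻¹ = m
        rw [hxinv]
        calc x * (x * m * x) * x = (x * x) * m * (x * x) := by group
          _ = m := by rw [hx2]; group
      -- `l * m = l' * k`
      have h1 : l * m = l' * k := by
        have : l * m = x * (l * m) * x⁻¹ := by
          rw [← hz2]; group
        rw [this]
        show x * (l * m) * x⁻¹ = (x * l * x⁻¹) * (x * m * x⁻¹)
        group
      have h2 : l' * k = k * l' := (hc k hk l' hl').symm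
      refine ⟨⟨k, hk⟩, k⁻¹ * l, ?_, L.mul_mem (L.inv_mem hk) hl, ?_⟩
      · rw [hπ]
        show l * m = k * (x * k * x⁻¹) * (k⁻¹ * l)
        rw [hxk]
        have h3 : m * (k⁻¹ * l) = (k⁻¹ * l) * m := (hc _ (L.mul_mem (L.inv_mem hk) hl) m hm).symm
        calc l * m = k * ((k⁻¹ * l) * m) := by group
          _ = k * (m * (k⁻¹ * l)) := by rw [h3]
          _ = k * m * (k⁻¹ * l) := by group
      · -- k⁻¹ * l = l'  * m⁻¹ lies in Lx
        have h4 : k⁻¹ * l = l' * m⁻¹ := by
          have : k * (l' * m⁻¹) = l := by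
            calc k * (l' * m⁻¹) = (k * l') * m⁻¹ := by group
              _ = (l' * k) * m⁻¹ := by rw [h2]
              _ = (l * m) * m⁻¹ := by rw [h1]
              _ = l := by group
          rw [← this]
          group
        rw [h4]
        exact Lx.mul_mem hl' (Lx.inv_mem hm)
    rw [Subgroup.commutator_le]
    intro a ha b hb
    obtain ⟨k, w, rfl, hw1, hw2⟩ := hdec a ha
    obtain ⟨k', w', rfl, hw1', hw2'⟩ := hdec b hb
    -- `w`, `w'` are central in the relevant subgroup
    have hcen : ∀ w ∈ L, w ∈ Lx → ∀ y ∈ L ⊔ Lx, w * y = y * w := by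
      intro w hw1 hw2 y hy
      obtain ⟨l, hl, m, hm, rfl⟩ := mem_sup_of_commute hcomm hy
      have h1 : w * l = l * w := (hc l hl w hw2).symm
      have h2 : w * m = m * w := hc w hw1 m hm
      calc w * (l * m) = (w * l) * m := by group
        _ = (l * w) * m := by rw [h1]
        _ = l * (w * m) := by group
        _ = l * (m * w) := by rw [h2]
        _ = l * m * w := by group
    have hπmem : ∀ k : ↥L, π k ∈ L ⊔ Lx := fun k => (hπC ⟨k, rfl⟩).1
    have hwmem : ∀ w, w ∈ L → w ∈ L ⊔ Lx := fun w hw => le_sup_left (a := L) hw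
    have e1 : ⁅π k * w, π k' * w'⁆ = ⁅π k, π k'⁆ := by
      have c1 := hcen w hw1 hw2 _ (hπmem k')
      have c2 := hcen w hw1 hw2 _ (hwmem w' hw1')
      have c3 := hcen w' hw1' hw2' _ (hπmem k)
      have c4 := hcen w hw1 hw2 _ (hπmem k)
      rw [commutatorElement_def, commutatorElement_def]
      have c3' : w' * (π k)⁻¹ = (π k)⁻¹ * w' := (Commute.inv_right (show Commute w' (π k) from c3))
      have c2' : w * w' * w⁻¹ = w' := by rw [c2]; group
      calc π k * w * (π k' * w') * (π k * w)⁻¹ * (π k' * w')⁻¹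
          = π k * (w * π k') * w' * w⁻¹ * (π k)⁻¹ * w'⁻¹ * (π k')⁻¹ := by group
        _ = π k * (π k' * w) * w' * w⁻¹ * (π k)⁻¹ * w'⁻¹ * (π k')⁻¹ := by rw [c1]
        _ = π k * π k' * (w * w' * w⁻¹) * (π k)⁻¹ * w'⁻¹ * (π k')⁻¹ := by group
        _ = π k * π k' * (w' * (π k)⁻¹) * w'⁻¹ * (π k')⁻¹ := by rw [c2']; group
        _ = π k * π k' * ((π k)⁻¹ * w') * w'⁻¹ * (π k')⁻¹ := by rw [c3']
        _ = π k * π k' * (π k)⁻¹ * (π k')⁻¹ := by group
    rw [e1]
    exact ⟨⁅k, k'⁆, map_commutatorElement π k k'⟩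
  · have hp : commutator ↥L = ⊤ := (Subgroup.isPerfect_iff.mpr hperf).commutator_eq_top
    have h1 : π.range = ⁅π.range, π.range⁆ := by
      have h2 : (⊤ : Subgroup ↥L).map π = π.range := (MonoidHom.range_eq_map π).symm
      rw [← h2, ← Subgroup.map_commutator]
      congr 1
      exact hp.symm
    rw [h1]
    exact Subgroup.commutator_mono hπC hπC

end Cfsg.Agent.S1314
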