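import Mathlib
import Cfsg.Statements.S1316
import Cfsg.Agent.Lib.LocalCore

set_option autoImplicit false
open Cfsg
open Cfsg.Agent.Lib.LocalCore
open Cfsg.Agent.Lib.PCore

namespace Cfsg.Agent.S1316

variable {X : Type*} [Group X]

/-- The layer is perfect. -/
theorem layer_perfect : ⁅Cfsg.layer X, Cfsg.layer X⁆ = Cfsg.layer X := by
  refine le_antisymm (commutator_self_le _) ?_
  refine sSup_le fun L hL => ?_
  rw [← comp_perfect hL]
  exact Subgroup.commutator_mono (comp_le_layer hL) (comp_le_layer hL)

theorem result [Finite X] : (⨅ n : ℕ, (derivedSeries ↥(Cfsg.generalizedFittingSubgroup X) n).map (Cfsg.generalizedFittingSubgroup X).subtype) = Cfsg.layer X := by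
  set S := Cfsg.generalizedFittingSubgroup X with hS
  have hES : Cfsg.layer X ≤ S := layer_le_generalizedFitting
  have hFS : Cfsg.fittingSubgroup X ≤ S := fitting_le_generalizedFitting
  apply le_antisymm
  · -- the quotient `S / E` is solvable
    let E' : Subgroup ↥S := (Cfsg.layer X).subgroupOf S
    have hE'n : E'.Normal := by infer_instance
    let f : ↥(Cfsg.fittingSubgroup X) →* ↥S ⧸ E' :=
      (QuotientGroup.mk' E').comp (Subgroup.inclusion hFS)
    have hf : Function.Surjective f := by
      intro y
      obtain ⟨s, rfl⟩ := QuotientGroup.mk'_surjective E' y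
      obtain ⟨s, hs⟩ := s
      have hs' : s ∈ ((Cfsg.layer X ⊔ Cfsg.fittingSubgroup X : Subgroup X) : Set X) := hs
      rw [Subgroup.mul_normal, Set.mem_mul] at hs'
      obtain ⟨e, he, u, hu, rfl⟩ := hs'
      refine ⟨⟨u, hu⟩, ?_⟩
      show QuotientGroup.mk' E' _ = QuotientGroup.mk' E' _
      rw [QuotientGroup.mk'_apply, QuotientGroup.mk'_apply, QuotientGroup.eq]
      rw [Subgroup.mem_subgroupOf]
      show u⁻¹ * (e * u) ∈ Cfsg.layer X
      have := (layer_normal (G := X)).conj_mem e he u⁻¹
      simpa [mul_assoc] using this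
    have hnil : Group.IsNilpotent (Cfsg.fittingSubgroup X) := isNilpotent_fittingSubgroup
    have hsolvF : Group.IsSolvable (Cfsg.fittingSubgroup X) := inferInstance
    have hsolv : Group.IsSolvable (↥S ⧸ E') := Group.isSolvable_of_surjective hf
    obtain ⟨n, hn⟩ := (Group.isSolvable_def _).1 hsolv
    have h1 : derivedSeries ↥S n ≤ E' := by
      have h2 := map_derivedSeries_eq (QuotientGroup.mk'_surjective E') n
      rw [hn, Subgroup.map_eq_bot_iff, QuotientGroup.ker_mk'] at h2
      exact h2
    refine (iInf_le _ n).trans ?_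
    rintro _ ⟨y, hy, rfl⟩
    exact h1 hy
  · refine le_iInf fun n => ?_
    have h1 : ∀ n : ℕ, (Cfsg.layer X).subgroupOf S ≤ derivedSeries ↥S n := by
      intro n
      induction n with
      | zero => simp
      | succ n ih =>
        rw [derivedSeries_succ]
        have h2 : (Cfsg.layer X).subgroupOf S ≤ ⁅(Cfsg.layer X).subgroupOf S, (Cfsg.layer X).subgroupOf S⁆ := by
          apply Subgroup.map_subtype_le_map_subtype.1
          rw [Subgroup.map_commutator, Subgroup.subgroupOf_map_subtype, inf_of_le_left hES, layer_perfect]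
        exact h2.trans (Subgroup.commutator_mono ih ih)
    intro y hy
    exact ⟨⟨y, hES hy⟩, h1 n hy, rfl⟩

end Cfsg.Agent.S1316
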