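import Mathlib
import Cfsg.Statements.S1317
import Cfsg.Agent.Lib.LocalCore

set_option autoImplicit false
open Cfsg
open Cfsg.Agent.Lib.LocalCore
open Cfsg.Agent.Lib.PCore

namespace Cfsg.Agent.S1317

/-- For a finite group X, the centre of the layer E(X) is F(X) ∩ E(X). -/
theorem result {X : Type*} [Group X] [Finite X] : (Subgroup.center ↥(Cfsg.layer X)).map (Cfsg.layer X).subtype = Cfsg.fittingSubgroup X ⊓ Cfsg.layer X := by
  apply le_antisymm
  · refine le_inf ?_ (Subgroup.map_subtype_le _)
    -- the centre of the layer is an abelian normal subgroup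
    have hnormal : ((Subgroup.center ↥(Cfsg.layer X)).map (Cfsg.layer X).subtype).Normal := by
      refine ⟨fun z hz g => ?_⟩
      obtain ⟨⟨z', hz'⟩, hzc, rfl⟩ := hz
      refine ⟨⟨g * z' * g⁻¹, layer_normal.conj_mem _ hz' g⟩, Subgroup.mem_center_iff.mpr ?_, rfl⟩
      rintro ⟨y, hy⟩
      apply Subtype.ext
      show y * (g * z' * g⁻¹) = (g * z' * g⁻¹) * y
      have hy' : g⁻¹ * y * g ∈ Cfsg.layer X := by
        have := layer_normal.conj_mem y hy g⁻¹
        simpa using this
      have h1 := Subgroup.mem_center_iff.mp hzc ⟨_, hy'⟩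
      have h2 : (g⁻¹ * y * g) * z' = z' * (g⁻¹ * y * g) := congrArg Subtype.val h1
      calc y * (g * z' * g⁻¹) = g * ((g⁻¹ * y * g) * z') * g⁻¹ := by group
        _ = g * (z' * (g⁻¹ * y * g)) * g⁻¹ := by rw [h2]
        _ = (g * z' * g⁻¹) * y := by group
    have hnil : Group.IsNilpotent ↥((Subgroup.center ↥(Cfsg.layer X)).map (Cfsg.layer X).subtype) :=
      (Group.isNilpotent_congr
        ((Subgroup.center ↥(Cfsg.layer X)).equivMapOfInjective _ (Subgroup.subtype_injective _))).mp (by
          let _ : CommGroup ↥(Subgroup.center ↥(Cfsg.layer X)) :=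
            { (inferInstance : Group ↥(Subgroup.center ↥(Cfsg.layer X))) with
              mul_comm := fun a b => (Subgroup.center.isMulCommutative (G := ↥(Cfsg.layer X))).is_comm.comm a b }
          exact CommGroup.isNilpotent)
    exact le_fittingSubgroup hnormal hnil
  · rintro z ⟨hzF, hzE⟩
    refine ⟨⟨z, hzE⟩, Subgroup.mem_center_iff.mpr ?_, rfl⟩
    rintro ⟨y, hy⟩
    apply Subtype.ext
    exact commutator_eq_bot_iff_elementwise.mp layer_commute_fitting y hy z hzF

end Cfsg.Agent.S1317
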