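import Mathlib
import Cfsg.Statements.S1318
import Cfsg.Agent.Lib.LocalCore
import Cfsg.Agent.S1317

set_option autoImplicit false
open Cfsg
open Cfsg.Agent.Lib.LocalCore
open Cfsg.Agent.Lib.PCore

namespace Cfsg.Agent.S1318

variable {X : Type*} [Group X]

/-- `F(S) = F(X) ∩ S` for `S` subnormal in `X`. -/
theorem fitting_map_subtype [Finite X] {S : Subgroup X} (hS : S.IsSubnormal) :
    (Cfsg.fittingSubgroup ↥S).map S.subtype = Cfsg.fittingSubgroup X ⊓ S := by
  apply le_antisymm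
  · refine le_inf ?_ (Subgroup.map_subtype_le _)
    have hs : ((Cfsg.fittingSubgroup ↥S).map S.subtype).IsSubnormal :=
      (Subgroup.Normal.isSubnormal (inferInstance : (Cfsg.fittingSubgroup ↥S).Normal)).trans' hS
    refine subnormal_nilpotent_le_fitting hs ?_
    exact (Group.isNilpotent_congr
      ((Cfsg.fittingSubgroup ↥S).equivMapOfInjective _ S.subtype_injective)).mp
      isNilpotent_fittingSubgroup
  · -- `F(X) ∩ S` is normal and nilpotent in `S`
    rintro x ⟨hxF, hxS⟩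
    have hle : (Cfsg.fittingSubgroup X).subgroupOf S ≤ Cfsg.fittingSubgroup ↥S := by
      apply le_fittingSubgroup inferInstance
      have h1 : Group.IsNilpotent ↥(Cfsg.fittingSubgroup X) := isNilpotent_fittingSubgroup
      let f : ↥((Cfsg.fittingSubgroup X).subgroupOf S) →* ↥(Cfsg.fittingSubgroup X) :=
        { toFun := fun z => ⟨z.1.1, z.2⟩
          map_one' := rfl
          map_mul' := fun _ _ => rfl }
      refine Subgroup.isNilpotent_of_ker_le_center f ?_
      intro z hz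
      have h2 : f z = 1 := hz
      have h3 : (z.1.1 : X) = 1 := congrArg Subtype.val h2
      have h4 : z = 1 := Subtype.ext (Subtype.ext h3)
      rw [h4]
      exact Subgroup.one_mem _
    exact ⟨⟨x, hxS⟩, hle hxF, rfl⟩

/-- The layer of a subnormal subgroup. -/
theorem layer_map_subtype {S : Subgroup X} (hS : S.IsSubnormal) :
    (Cfsg.layer ↥S).map S.subtype = sSup {L : Subgroup X | Cfsg.IsComponent L ∧ L ≤ S} := by
  apply le_antisymm
  · rw [Subgroup.map_le_iff_le_comap]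
    refine sSup_le fun K hK => ?_
    rw [← Subgroup.map_le_iff_le_comap]
    exact le_sSup ⟨comp_map_subtype hS hK, Subgroup.map_subtype_le _⟩
  · refine sSup_le ?_
    rintro L ⟨hL, hLS⟩
    intro x hx
    refine ⟨⟨x, hLS hx⟩, ?_, rfl⟩
    exact comp_le_layer (comp_subgroupOf hL hLS) (by simpa [Subgroup.mem_subgroupOf] using hx)

/-- The factorization `S = F(S) E(S)` of a subnormal subgroup of `F*(X)`. -/
theorem fitting_sup_layer_eq_top [Finite X] {S : Subgroup X} (hle : S ≤ Cfsg.generalizedFittingSubgroup X)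
    (hS : S.IsSubnormal) : Cfsg.fittingSubgroup ↥S ⊔ Cfsg.layer ↥S = ⊤ := by
  set D₁ : Subgroup X := sSup {L : Subgroup X | Cfsg.IsComponent L ∧ L ≤ S} with hD₁
  set D₂ : Subgroup X := sSup {L : Subgroup X | Cfsg.IsComponent L ∧ ⁅L, S⁆ = ⊥} with hD₂
  have hD₁S : D₁ ≤ S := sSup_le fun L hL => hL.2
  have hD₂S : D₂ ≤ Subgroup.centralizer (S : Set X) :=
    sSup_le fun L hL => Subgroup.commutator_eq_bot_iff_le_centralizer.mp hL.2
  have hE : Cfsg.layer X ≤ D₁ ⊔ D₂ := by
    refine sSup_le fun L hL => ?_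
    rcases comp_le_or_commute hL hS with h | h
    · exact (le_sSup (show L ∈ {L : Subgroup X | Cfsg.IsComponent L ∧ L ≤ S} from ⟨hL, h⟩)).trans le_sup_left
    · exact (le_sSup (show L ∈ {L : Subgroup X | Cfsg.IsComponent L ∧ ⁅L, S⁆ = ⊥} from ⟨hL, h⟩)).trans le_sup_right
  have hD₁E : D₁ ≤ Cfsg.layer X := sSup_le fun L hL => comp_le_layer hL.1
  have hD₂E : D₂ ≤ Cfsg.layer X := sSup_le fun L hL => comp_le_layer hL.1
  have h12 : ⁅D₁, D₂⁆ = ⊥ := by
    rw [Subgroup.commutator_eq_bot_iff_le_centralizer]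
    refine sSup_le ?_
    rintro L₁ ⟨hL₁, hL₁S⟩
    rw [Subgroup.le_centralizer_iff]
    refine sSup_le ?_
    rintro L₂ ⟨hL₂, hL₂S⟩
    rw [Subgroup.le_centralizer_iff]
    refine Subgroup.commutator_eq_bot_iff_le_centralizer.mp ?_
    apply comp_commute_of_ne hL₁ hL₂
    rintro rfl
    -- then `L₁` commutes with itself
    apply comp_not_comm hL₁
    refine ⟨⟨?_⟩⟩
    rintro ⟨a, ha⟩ ⟨b, hb⟩
    have := commutator_eq_bot_iff_elementwise.1 hL₂S a ha b (hL₁S hb)
    exact Subtype.ext this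
  have hFS := fitting_map_subtype hS
  have hES := layer_map_subtype hS
  -- the main step
  have hmain : ∀ s ∈ S, ∃ e₁ ∈ D₁, ∃ t ∈ Cfsg.fittingSubgroup X ⊓ S, s = e₁ * t := by
    intro s hs
    obtain ⟨e, he, f, hf, rfl⟩ := mem_sup_of_commute layer_commute_fitting (hle hs)
    obtain ⟨e₁, he₁, e₂, he₂, rfl⟩ := mem_sup_of_commute h12 (hE he)
    have hts : e₂ * f ∈ S := by
      have := S.mul_mem (S.inv_mem (hD₁S he₁)) hs
      have e' : e₁⁻¹ * (e₁ * e₂ * f) = e₂ * f := by group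
      rwa [e'] at this
    have hl : ∀ l ∈ D₂, l * e₂ = e₂ * l := by
      intro l hl
      have h1 := Subgroup.mem_centralizer_iff.1 (hD₂S hl) _ hts
      have h2 := commutator_eq_bot_iff_elementwise.1 layer_commute_fitting l (hD₂E hl) f hf
      -- h1 : e₂ * f * l = l * (e₂ * f)
      have h3 : e₂ * l * f = l * e₂ * f := by
        calc e₂ * l * f = e₂ * (l * f) := by group
          _ = e₂ * (f * l) := by rw [h2]
          _ = e₂ * f * l := by group
          _ = l * (e₂ * f) := h1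
          _ = l * e₂ * f := by group
      exact (mul_right_cancel h3).symm
    have hcen : e₂ ∈ (Subgroup.center ↥(Cfsg.layer X)).map (Cfsg.layer X).subtype := by
      refine ⟨⟨e₂, hD₂E he₂⟩, Subgroup.mem_center_iff.2 ?_, rfl⟩
      rintro ⟨y, hy⟩
      apply Subtype.ext
      show y * e₂ = e₂ * y
      obtain ⟨y₁, hy₁, y₂, hy₂, rfl⟩ := mem_sup_of_commute h12 (hE hy)
      have h4 := commutator_eq_bot_iff_elementwise.1 h12 y₁ hy₁ e₂ he₂
      have h5 := hl y₂ hy₂
      calc y₁ * y₂ * e₂ = y₁ * (y₂ * e₂) := by group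
        _ = y₁ * (e₂ * y₂) := by rw [h5]
        _ = (y₁ * e₂) * y₂ := by group
        _ = (e₂ * y₁) * y₂ := by rw [h4]
        _ = e₂ * (y₁ * y₂) := by group
    rw [Cfsg.Agent.S1317.result] at hcen
    exact ⟨e₁, he₁, e₂ * f, ⟨(Cfsg.fittingSubgroup X).mul_mem hcen.1 hf, hts⟩, by group⟩
  rw [eq_top_iff]
  rintro ⟨s, hs⟩ -
  obtain ⟨e₁, he₁, t, ht, rfl⟩ := hmain s hs
  have h1 : e₁ ∈ (Cfsg.layer ↥S).map S.subtype := by
    rw [hES]; exact he₁
  have h2 : t ∈ (Cfsg.fittingSubgroup ↥S).map S.subtype := by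
    rw [hFS]; exact ht
  obtain ⟨e₁', he₁', rfl⟩ := h1
  obtain ⟨t', ht', rfl⟩ := h2
  have h3 : (⟨S.subtype e₁' * S.subtype t', hs⟩ : ↥S) = e₁' * t' := rfl
  have h4 : e₁' * t' = t' * (t'⁻¹ * e₁' * t') := by group
  rw [h3, h4]
  refine Subgroup.mul_mem_sup ht' ?_
  exact (inferInstance : (Cfsg.layer ↥S).Normal).conj_mem' _ he₁' _

/-- Let X be finite and S ≤ F*(X) a subgroup subnormal in F*(X). Then F(S) = F(X) ∩ S (inside X) and S = F(S)E(S). -/
theorem result {X : Type*} [Group X] [Finite X] (S : Subgroup X) (hS : S ≤ Cfsg.generalizedFittingSubgroup X) (hsn : (S.subgroupOf (Cfsg.generalizedFittingSubgroup X)).IsSubnormal) : (Cfsg.fittingSubgroup ↥S).map S.subtype = Cfsg.fittingSubgroup X ⊓ S ∧ Cfsg.fittingSubgroup ↥S ⊔ Cfsg.layer ↥S = ⊤ := by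
  have hsn' : S.IsSubnormal := by
    have h1 := hsn.trans' (Subgroup.Normal.isSubnormal (inferInstance : (Cfsg.generalizedFittingSubgroup X).Normal))
    rwa [Subgroup.subgroupOf_map_subtype, inf_of_le_left hS] at h1
  exact ⟨fitting_map_subtype hsn', fitting_sup_layer_eq_top hS hsn'⟩

end Cfsg.Agent.S1318
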