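import Mathlib
import Cfsg.Statements.S1319
import Cfsg.Agent.Lib.LocalCore

set_option autoImplicit false
open Cfsg
open Cfsg.Agent.Lib.LocalCore
open Cfsg.Agent.Lib.PCore

namespace Cfsg.Agent.S1319

/-- Let A be a subnormal subgroup of the finite group X with E(A) = A. Then A ≤ E(X) and A is normal in E(X). -/
theorem result {X : Type*} [Group X] [Finite X] (A : Subgroup X) (hsn : A.IsSubnormal) (hA : Cfsg.layer ↥A = ⊤) : A ≤ Cfsg.layer X ∧ (A.subgroupOf (Cfsg.layer X)).Normal := by
  constructor
  · have h1 : Cfsg.layer ↥A ≤ (Cfsg.layer X).comap A.subtype := by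
      refine sSup_le fun K hK => ?_
      rw [← Subgroup.map_le_iff_le_comap]
      exact comp_le_layer (comp_map_subtype hsn hK)
    rw [hA] at h1
    intro a ha
    exact h1 (Subgroup.mem_top (⟨a, ha⟩ : ↥A))
  · apply Subgroup.normal_subgroupOf_of_le_normalizer
    refine sSup_le fun L hL => ?_
    rcases comp_le_or_commute hL hsn with h | h
    · exact h.trans Subgroup.le_normalizer
    · exact (Subgroup.commutator_eq_bot_iff_le_centralizer.mp h).trans (Subgroup.centralizer_le_normalizer _)

end Cfsg.Agent.S1319
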