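import Mathlib
import Cfsg.Statements.S1320
import Cfsg.Agent.Lib.LocalCore
import Cfsg.Agent.S1318

set_option autoImplicit false
open Cfsg
open Cfsg.Agent.Lib.LocalCore
open Cfsg.Agent.Lib.PCore
open Cfsg.Agent.S1318

namespace Cfsg.Agent.S1320

/-- Let B be a normal subgroup of the finite group A. Then F*(A) ∩ B = F*(B). -/
theorem result {A : Type*} [Group A] [Finite A] (B : Subgroup A) [B.Normal] : Cfsg.generalizedFittingSubgroup A ⊓ B = (Cfsg.generalizedFittingSubgroup ↥B).map B.subtype := by
  have hBs : B.IsSubnormal := Subgroup.Normal.isSubnormal inferInstance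
  have hmap : (Cfsg.generalizedFittingSubgroup ↥B).map B.subtype =
      (Cfsg.layer ↥B).map B.subtype ⊔ (Cfsg.fittingSubgroup ↥B).map B.subtype := by
    unfold Cfsg.generalizedFittingSubgroup
    rw [Subgroup.map_sup]
  apply le_antisymm
  · set S : Subgroup A := Cfsg.generalizedFittingSubgroup A ⊓ B with hS
    have hSn : S.Normal := Subgroup.normal_inf_normal _ _
    have hSs : S.IsSubnormal := Subgroup.Normal.isSubnormal hSn
    have htop := fitting_sup_layer_eq_top (S := S) inf_le_left hSs
    have h1 : S = (Cfsg.fittingSubgroup ↥S).map S.subtype ⊔ (Cfsg.layer ↥S).map S.subtype := by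
      rw [← Subgroup.map_sup, htop, map_subtype_top]
    rw [h1, hmap, sup_comm]
    refine sup_le_sup ?_ ?_
    · rw [layer_map_subtype hSs, layer_map_subtype hBs]
      refine sSup_le_sSup ?_
      rintro L ⟨hL, hLS⟩
      exact ⟨hL, hLS.trans inf_le_right⟩
    · rw [fitting_map_subtype hSs, fitting_map_subtype hBs]
      exact inf_le_inf_left _ inf_le_right
  · rw [hmap]
    refine le_inf (sup_le ?_ ?_) (sup_le (Subgroup.map_subtype_le _) (Subgroup.map_subtype_le _))
    · rw [layer_map_subtype hBs]
      refine sSup_le ?_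
      rintro L ⟨hL, -⟩
      exact comp_le_generalizedFitting hL
    · rw [fitting_map_subtype hBs]
      exact inf_le_left.trans fitting_le_generalizedFitting

end Cfsg.Agent.S1320
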