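import Mathlib
import Cfsg.Statements.S1321
import Cfsg.Agent.Lib.LocalCore

set_option autoImplicit false
open Cfsg
open Cfsg.Agent.Lib.LocalCore
open Cfsg.Agent.Lib.PCore

namespace Cfsg.Agent.S1321

/-- Let X be finite and U ≤ X. Then E(X) is generated by C_{E(X)}(U) together with ⁅E(X), U⁆ (indeed it is their product, ⁅E(X), U⁆ being normal in E(X)). -/
theorem result {X : Type*} [Group X] [Finite X] (U : Subgroup X) : Cfsg.layer X = (Cfsg.layer X ⊓ Subgroup.centralizer (U : Set X)) ⊔ ⁅Cfsg.layer X, U⁆ ∧ ⁅Cfsg.layer X, U⁆ ≤ Cfsg.layer X := by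
  have hle : ⁅Cfsg.layer X, U⁆ ≤ Cfsg.layer X := Subgroup.commutator_le_left _ _
  refine ⟨le_antisymm ?_ (sup_le inf_le_left hle), hle⟩
  have hWs : (⁅Cfsg.layer X, U⁆ : Subgroup X).IsSubnormal :=
    subnormal_of_normalized hle (Subgroup.normalizer_commutator_ge_left _ _)
      (Subgroup.Normal.isSubnormal inferInstance)
  refine sSup_le fun L hL => ?_
  rcases comp_le_or_commute hL hWs with h | h
  · exact h.trans le_sup_right
  · refine le_trans (le_inf (comp_le_layer hL) ?_) le_sup_left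
    -- `L` centralizes `⁅L, U⁆`, hence `U`
    have h1 : ⁅⁅L, U⁆, L⁆ = ⊥ := by
      rw [Subgroup.commutator_comm, ← le_bot_iff, ← h]
      exact Subgroup.commutator_mono le_rfl (Subgroup.commutator_mono (comp_le_layer hL) le_rfl)
    have h2 : ⁅⁅U, L⁆, L⁆ = ⊥ := by
      rw [Subgroup.commutator_comm U L]
      exact h1
    have h3 : ⁅⁅L, L⁆, U⁆ = ⊥ := Subgroup.commutator_commutator_eq_bot_of_rotate h1 h2
    rw [comp_perfect hL] at h3
    exact Subgroup.commutator_eq_bot_iff_le_centralizer.mp h3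

end Cfsg.Agent.S1321
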