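import Mathlib
import Cfsg.Statements.S1326
import Cfsg.Agent.Lib.LocalCore

set_option autoImplicit false
open Cfsg
open Cfsg.Agent.Lib.LocalCore
open Cfsg.Agent.Lib.PCore

namespace Cfsg.Agent.S1326

/-- For a finite group X: the Fitting subgroup contains its centralizer if and only if the layer of X is trivial. -/
theorem result {X : Type*} [Group X] [Finite X] : Subgroup.centralizer (Cfsg.fittingSubgroup X : Set X) ≤ Cfsg.fittingSubgroup X ↔ Cfsg.layer X = ⊥ := by
  constructor
  · intro h
    rw [eq_bot_iff]
    refine sSup_le fun L hL => ?_
    exfalso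
    have hle : L ≤ Cfsg.fittingSubgroup X :=
      (Subgroup.commutator_eq_bot_iff_le_centralizer.mp (comp_commute_fitting hL)).trans h
    have hnil : Group.IsNilpotent (Cfsg.fittingSubgroup X) := isNilpotent_fittingSubgroup
    have hsolv : Group.IsSolvable (Cfsg.fittingSubgroup X) := inferInstance
    exact comp_not_solvable hL
      (Group.isSolvable_of_isSolvable_injective (Subgroup.inclusion_injective hle))
  · intro h
    have h1 : Cfsg.generalizedFittingSubgroup X = Cfsg.fittingSubgroup X := by
      unfold Cfsg.generalizedFittingSubgroup
      rw [h, bot_sup_eq]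
    have h2 := centralizer_generalizedFitting_le (G := X)
    rwa [h1] at h2

end Cfsg.Agent.S1326
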