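import Mathlib
import Cfsg.Statements.S1327
import Cfsg.Agent.S1326
import Cfsg.Agent.Lib.LocalCore
import Cfsg.Agent.Lib.LocalCore2
import Cfsg.Agent.Lib.PCore
import Cfsg.Agent.Lib.PConstr63

set_option autoImplicit false
open Cfsg
open Cfsg.Agent.Lib.LocalCore Cfsg.Agent.Lib.LocalCore2 Cfsg.Agent.Lib.PCore Cfsg.Agent.Lib.PConstr63

namespace Cfsg.Agent.S1327

/-- A finite group X is p-constrained if and only if its p-layer L_{p'}(X) is trivial (equivalently X / O_{p'}(X) has trivial layer). -/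
theorem result {X : Type*} [Group X] [Finite X] (p : ℕ) [Fact p.Prime] : Cfsg.IsPConstrained p X ↔ Cfsg.pLayer p X = ⊥ := by
  have hb := pPrimeCore_quotient_pPrimeCore (G := X) p
  have hF := fittingSubgroup_eq_pCore_of_pPrimeCore_eq_bot (G := X ⧸ pPrimeCore p X) p hb
  rw [isPConstrained_iff]
  unfold CharC
  rw [← hF, Cfsg.Agent.S1326.result]
  constructor
  · intro h
    rw [eq_bot_iff]
    refine sSup_le fun K hK => ?_
    have h1 : K.map (QuotientGroup.mk' (pPrimeCore p X)) ≤ Cfsg.layer (X ⧸ pPrimeCore p X) :=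
      comp_le_layer hK.2.1
    rw [h, le_bot_iff] at h1
    exact absurd (by rw [h1]; exact inferInstance) (comp_not_solvable hK.2.1)
  · intro h
    rw [← map_pLayer, h, Subgroup.map_bot]

end Cfsg.Agent.S1327
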