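import Mathlib
import Cfsg.Statements.S1328
import Cfsg.Agent.Lib.LocalCore
import Cfsg.Agent.Lib.LocalCore2
import Cfsg.Agent.Lib.PCore
import Cfsg.Agent.Lib.CharTwoLocal
import Cfsg.Agent.Lib.PComp
import Cfsg.Agent.Lib.SylowConjLemmas
import Cfsg.Agent.Lib.Replacement

set_option autoImplicit false
set_option linter.style.haveILetI false
set_option linter.unusedSectionVars false
open Cfsg
open Cfsg.Agent.Lib.LocalCore Cfsg.Agent.Lib.LocalCore2 Cfsg.Agent.Lib.PCore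
open scoped commutatorElement

namespace Cfsg.Agent.S1328

variable {G : Type*} [Group G] [Finite G]

/-- Conjugation as an automorphism of `H`. -/
def conjH (H : Subgroup G) (g : G) (hg : g ∈ Subgroup.normalizer (H : Set G)) : ↥H ≃* ↥H where
  toFun x := ⟨g * x * g⁻¹, (Subgroup.mem_normalizer_iff.1 hg x).1 x.2⟩
  invFun x := ⟨g⁻¹ * x * g, by
    have := (Subgroup.mem_normalizer_iff.1 (Subgroup.inv_mem _ hg) x).1 x.2
    simpa using this⟩
  left_inv x := by
    apply Subtype.ext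
    simp [mul_assoc]
  right_inv x := by
    apply Subtype.ext
    simp [mul_assoc]
  map_mul' x y := by
    apply Subtype.ext
    simp only [Subgroup.coe_mul]
    group

/-- A component of `H`, viewed in `G`. -/
def CompK (H K : Subgroup G) : Prop := ∃ E : Subgroup ↥H, IsComponent E ∧ E.map H.subtype = K

theorem CompK.le {H K : Subgroup G} (h : CompK H K) : K ≤ H := by
  obtain ⟨E, _, rfl⟩ := h
  exact Subgroup.map_subtype_le _

theorem CompK.conj {H K : Subgroup G} (h : CompK H K) {g : G}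
    (hg : g ∈ Subgroup.normalizer (H : Set G)) : CompK H (K.map (MulAut.conj g).toMonoidHom) := by
  obtain ⟨E, hE, rfl⟩ := h
  refine ⟨E.map (conjH H g hg).toMonoidHom, comp_map_equiv _ hE, ?_⟩
  ext x
  constructor
  · rintro ⟨_, ⟨e, he, rfl⟩, rfl⟩
    exact ⟨_, ⟨e, he, rfl⟩, rfl⟩
  · rintro ⟨_, ⟨e, he, rfl⟩, rfl⟩
    exact ⟨_, ⟨e, he, rfl⟩, rfl⟩

theorem CompK.commute {H K K' : Subgroup G} (h : CompK H K) (h' : CompK H K') (hne : K ≠ K') :
    ∀ a ∈ K, ∀ b ∈ K', a * b = b * a := by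
  obtain ⟨E, hE, rfl⟩ := h
  obtain ⟨E', hE', rfl⟩ := h'
  have hne' : E ≠ E' := fun he => hne (by rw [he])
  have hc := commutator_eq_bot_iff_elementwise.1 (comp_commute_of_ne hE hE' hne')
  rintro _ ⟨a, ha, rfl⟩ _ ⟨b, hb, rfl⟩
  exact congrArg Subtype.val (hc a ha b hb)

theorem CompK.perfect {H K : Subgroup G} (h : CompK H K) : ⁅K, K⁆ = K := by
  obtain ⟨E, hE, rfl⟩ := h
  rw [← Subgroup.map_commutator, comp_perfect hE]

theorem CompK.qs {H K : Subgroup G} (h : CompK H K) : IsQuasisimple ↥K := by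
  obtain ⟨E, hE, rfl⟩ := h
  exact qs_of_mulEquiv (Subgroup.equivMapOfInjective E H.subtype H.subtype_injective) hE.2

/-- The noncentral `2`-element. -/
theorem CompK.exists_two_element {H K : Subgroup G} (h : CompK H K) (hO : oddCore ↥H = ⊥) :
    ∃ k ∈ K, (∃ n : ℕ, k ^ (2 ^ n) = 1) ∧ ∃ y ∈ K, k * y ≠ y * k := by
  obtain ⟨E, hE, rfl⟩ := h
  obtain ⟨x, ⟨n, hn⟩, hx⟩ := comp_exists_p_element_not_central (p := 2) hO hE
  refine ⟨((x : ↥H) : G), ⟨x, x.2, rfl⟩, ⟨n, ?_⟩, ?_⟩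
  · have := congrArg (fun z : ↥E => ((z : ↥H) : G)) hn
    simpa using this
  · by_contra hcon
    push Not at hcon
    apply hx
    rw [Subgroup.mem_center_iff]
    intro g
    apply Subtype.ext
    apply Subtype.ext
    exact (hcon _ ⟨g, g.2, rfl⟩).symm

/-- The layer normalizes each component. -/
theorem layer_le_normalizer {X : Type*} [Group X] {E : Subgroup X} (hE : IsComponent E) :
    layer X ≤ Subgroup.normalizer (E : Set X) := by
  refine sSup_le fun M hM => ?_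
  by_cases he : M = E
  · rw [he]; exact Subgroup.le_normalizer
  · intro z hz
    rw [Subgroup.mem_normalizer_iff]
    have hc := commutator_eq_bot_iff_elementwise.1 (comp_commute_of_ne hM hE he)
    intro w
    constructor
    · intro hw
      rw [hc z hz w hw, mul_inv_cancel_right]
      exact hw
    · intro hw
      have e2 : w = z⁻¹ * (z * w * z⁻¹) * z := by group
      have hz' := hc z⁻¹ (Subgroup.inv_mem _ hz) (z * w * z⁻¹) hw
      rw [e2, hz', inv_mul_cancel_right]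
      exact hw

omit [Finite G] in
theorem le_normalizer_map_subtype {M : Subgroup G} (A : Subgroup ↥M) (hA : A.Normal) :
    M ≤ Subgroup.normalizer ((A.map M.subtype : Subgroup G) : Set G) := by
  intro g hg
  rw [Subgroup.mem_normalizer_iff]
  intro x
  constructor
  · rintro ⟨y, hy, rfl⟩
    exact ⟨⟨g, hg⟩ * y * (⟨g, hg⟩ : ↥M)⁻¹, hA.conj_mem y hy _, rfl⟩
  · rintro ⟨y, hy, hyx⟩
    refine ⟨(⟨g, hg⟩ : ↥M)⁻¹ * y * ⟨g, hg⟩, ?_, ?_⟩
    · have := hA.conj_mem y hy (⟨g, hg⟩ : ↥M)⁻¹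
      simpa using this
    · simp only [Subgroup.subtype_apply, Subgroup.coe_mul, InvMemClass.coe_inv] at hyx ⊢
      rw [hyx]
      group

omit [Finite G] in
theorem mem_normalizer_of_map_conj {K : Subgroup G} {y : G}
    (h : K.map (MulAut.conj y).toMonoidHom = K) : y ∈ Subgroup.normalizer (K : Set G) := by
  rw [Subgroup.mem_normalizer_iff]
  intro x
  constructor
  · intro hx
    rw [← h]
    exact ⟨x, hx, rfl⟩
  · intro hx
    rw [← h] at hx
    obtain ⟨k, hk, hkx⟩ := hx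
    have : k = x := by
      have h2 : y * k * y⁻¹ = y * x * y⁻¹ := hkx
      simpa using h2
    rwa [← this]

/-- If `d` acts trivially modulo the centre on a perfect group then it centralizes it. -/
theorem centralize_of_central {K : Subgroup G} (hK : ⁅K, K⁆ = K) {d : G}
    (h : ∀ x ∈ K, x⁻¹ * (d * x * d⁻¹) ∈ K ∧ ∀ y ∈ K, x⁻¹ * (d * x * d⁻¹) * y = y * (x⁻¹ * (d * x * d⁻¹))) :
    ∀ x ∈ K, d * x * d⁻¹ = x := by
  have hle : ⁅K, K⁆ ≤ K ⊓ Subgroup.centralizer ({d} : Set G) := by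
    rw [Subgroup.commutator_le]
    intro a ha b hb
    refine ⟨by
      have := Subgroup.commutator_mem_commutator ha hb
      rwa [hK] at this, ?_⟩
    change _ ∈ Subgroup.centralizer ({d} : Set G)
    rw [Subgroup.mem_centralizer_singleton_iff]
    obtain ⟨hu, hu'⟩ := h a ha
    obtain ⟨hv, hv'⟩ := h b hb
    set u := a⁻¹ * (d * a * d⁻¹) with hudef
    set v := b⁻¹ * (d * b * d⁻¹) with hvdef
    have e1 : d * a * d⁻¹ = a * u := by rw [hudef]; group
    have e2 : d * b * d⁻¹ = b * v := by rw [hvdef]; group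
    have hub : u * b = b * u := hu' b hb
    have huv : u * v = v * u := hu' v hv
    have hua : v * a⁻¹ = a⁻¹ * v := by
      have := hv' a⁻¹ (K.inv_mem ha)
      exact this
    have h1 : d * ⁅a, b⁆ * d⁻¹ = ⁅a, b⁆ := by
      rw [commutatorElement_def]
      calc d * (a * b * a⁻¹ * b⁻¹) * d⁻¹
          = (d * a * d⁻¹) * (d * b * d⁻¹) * (d * a * d⁻¹)⁻¹ * (d * b * d⁻¹)⁻¹ := by group
        _ = (a * u) * (b * v) * (a * u)⁻¹ * (b * v)⁻¹ := by rw [e1, e2]
        _ = a * (u * b) * v * u⁻¹ * a⁻¹ * v⁻¹ * b⁻¹ := by group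
        _ = a * (b * u) * v * u⁻¹ * a⁻¹ * v⁻¹ * b⁻¹ := by rw [hub]
        _ = a * b * (u * v) * u⁻¹ * a⁻¹ * v⁻¹ * b⁻¹ := by group
        _ = a * b * (v * u) * u⁻¹ * a⁻¹ * v⁻¹ * b⁻¹ := by rw [huv]
        _ = a * b * (v * a⁻¹) * v⁻¹ * b⁻¹ := by group
        _ = a * b * (a⁻¹ * v) * v⁻¹ * b⁻¹ := by rw [hua]
        _ = a * b * a⁻¹ * b⁻¹ := by group
    rw [mul_inv_eq_iff_eq_mul] at h1
    exact h1.symm
  intro x hx
  rw [← hK] at hx
  have h2 : x ∈ Subgroup.centralizer ({d} : Set G) := (hle hx).2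
  rw [Subgroup.mem_centralizer_singleton_iff] at h2
  rw [← h2]
  group

/-- `d` normalizes if `d²` does, for `d` of odd order. -/
theorem mem_of_sq_mem {S : Subgroup G} {d : G} (hodd : Odd (orderOf d)) (h : d * d ∈ S) : d ∈ S := by
  obtain ⟨m, hm⟩ := hodd
  have h1 : d = (d * d) ^ (m + 1) := by
    rw [← pow_two, ← pow_mul]
    have h2 : 2 * (m + 1) = orderOf d + 1 := by omega
    rw [h2, pow_succ, pow_orderOf_eq_one, one_mul]
  rw [h1]
  exact S.pow_mem h _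

/-- Lower central argument. -/
theorem exists_mem_of_nilpotent {F N B : Subgroup G} [Group.IsNilpotent ↥F] (hNF : N ≤ F)
    (hn : ∀ f ∈ F, ∀ a ∈ N, f * a * f⁻¹ ∈ N) {x : G} (hx : x ∈ N) (hxB : x ∉ B) :
    ∃ z ∈ N, z ∉ B ∧ ∀ f ∈ F, z * f * z⁻¹ * f⁻¹ ∈ B := by
  classical
  let Q : ℕ → Prop := fun k => ∀ z ∈ N, z ∈ F.lowerCentralSeries k → z ∈ B
  have hex : ∃ k, Q k := by
    obtain ⟨n, hn'⟩ := (Subgroup.isNilpotent_iff_lowerCentralSeries (S := F)).1 inferInstance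
    refine ⟨n, ?_⟩
    intro z _ hz
    rw [hn', Subgroup.mem_bot] at hz
    rw [hz]
    exact B.one_mem
  have h0 : Nat.find hex ≠ 0 := by
    intro h
    have h1 := Nat.find_spec hex
    rw [h] at h1
    exact hxB (h1 x hx (hNF hx))
  obtain ⟨k, hk⟩ := Nat.exists_eq_succ_of_ne_zero h0
  have h1 : Q (k + 1) := by
    have := Nat.find_spec hex
    rwa [hk] at this
  have h2 : ¬ Q k := Nat.find_min hex (by omega)
  simp only [Q, not_forall] at h2
  obtain ⟨z, hzN, hzk, hzB⟩ := h2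
  refine ⟨z, hzN, hzB, ?_⟩
  intro f hf
  apply h1
  · have := hn f hf z⁻¹ (N.inv_mem hzN)
    have e : z * f * z⁻¹ * f⁻¹ = z * (f * z⁻¹ * f⁻¹) := by group
    rw [e]
    exact N.mul_mem hzN this
  · rw [Subgroup.lowerCentralSeries_succ]
    exact Subgroup.commutator_mem_commutator hzk hf

section setup

variable (H : Subgroup G) (t : G)

/-- `C_H(t)`. -/
abbrev C0 : Subgroup G := H ⊓ Subgroup.centralizer ({t} : Set G)

/-- `O(C_H(t))`. -/
abbrev DD : Subgroup G := (oddCore ↥(C0 H t)).map (C0 H t).subtype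

variable {H t}

theorem DD_le : DD H t ≤ C0 H t := Subgroup.map_subtype_le _

theorem DD_normal {c d : G} (hc : c ∈ C0 H t) (hd : d ∈ DD H t) : c * d * c⁻¹ ∈ DD H t := by
  obtain ⟨d', hd', rfl⟩ := hd
  exact ⟨⟨c, hc⟩ * d' * (⟨c, hc⟩ : ↥(C0 H t))⁻¹,
    (inferInstance : (oddCore ↥(C0 H t)).Normal).conj_mem d' hd' _, rfl⟩

theorem DD_odd {d : G} (hd : d ∈ DD H t) : Odd (orderOf d) := by
  obtain ⟨d', hd', rfl⟩ := hd
  have h1 := card_pPrimeCore_coprime (G := ↥(C0 H t)) 2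
  have h2 : orderOf (⟨d', hd'⟩ : ↥(oddCore ↥(C0 H t))) ∣ Nat.card (oddCore ↥(C0 H t)) :=
    orderOf_dvd_natCard _
  rw [Subgroup.orderOf_mk] at h2
  have h3 : orderOf ((C0 H t).subtype d') = orderOf d' :=
    orderOf_injective _ (Subgroup.subtype_injective _) d'
  rw [h3]
  exact Nat.coprime_two_right.1 (Nat.Coprime.coprime_dvd_left h2 h1)

theorem DD_eq_one {w : G} (hw : w ∈ DD H t) {n : ℕ} (h : w ^ (2 ^ n) = 1) : w = 1 := by
  have h1 : orderOf w ∣ 2 ^ n := orderOf_dvd_of_pow_eq_one h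
  have h2 := DD_odd hw
  have h3 : Nat.Coprime (orderOf w) (2 ^ n) :=
    Nat.Coprime.pow_right n (Nat.coprime_two_right.2 h2)
  exact orderOf_eq_one_iff.1 (Nat.Coprime.eq_one_of_dvd h3 h1)

/-- Step (a): `O(C_H(t))` centralizes `O_2(H)`. -/
theorem DD_centralizes_core (htH : t ∈ Subgroup.normalizer (H : Set G)) (ht : t * t = 1)
    {d : G} (hd : d ∈ DD H t) :
    ∀ x ∈ (pCore 2 ↥H).map H.subtype, d * x = x * d := by
  classical
  set Q : Subgroup G := (pCore 2 ↥H).map H.subtype with hQ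
  have hdC := DD_le hd
  have hdH : d ∈ H := hdC.1
  have hdt : d * t = t * d := Subgroup.mem_centralizer_singleton_iff.1 hdC.2
  have hQ2 : IsPGroup 2 ↥Q := (isPGroup_pCore 2).map H.subtype
  have hQH : H ≤ Subgroup.normalizer (Q : Set G) := le_normalizer_map_subtype _ inferInstance
  have htQ : t ∈ Subgroup.normalizer (Q : Set G) := by
    apply Cfsg.Agent.Lib.Replacement.mem_normalizer_of_forall
    rintro _ ⟨x, hx, rfl⟩
    have h1 : conjH H t htH x ∈ pCore 2 ↥H := by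
      have hc : (pCore 2 ↥H).map (conjH H t htH).toMonoidHom ≤ pCore 2 ↥H := by
        apply le_pCore
        · exact Subgroup.Normal.map inferInstance _ (conjH H t htH).surjective
        · exact (isPGroup_pCore 2).map _
      exact hc ⟨x, hx, rfl⟩
    exact ⟨_, h1, rfl⟩
  have hR : IsPGroup 2 ↥(Subgroup.zpowers t) := by
    rw [IsPGroup.iff_card]
    have h1 : t ^ 2 ^ 1 = 1 := by rw [pow_one, pow_two]; exact ht
    obtain ⟨k, -, hk⟩ := (Nat.dvd_prime_pow Nat.prime_two).1 (orderOf_dvd_of_pow_eq_one h1)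
    exact ⟨k, by rw [Nat.card_zpowers, hk]⟩
  refine Cfsg.Agent.Lib.CharTwoLocal.thompson_AB_elem (p := 2) hQ2 hR ?_ (hQH hdH) ?_ ?_ ?_
  · rw [Subgroup.zpowers_le]
    exact htQ
  · rintro _ ⟨k, rfl⟩
    exact ((show Commute d t from hdt).zpow_right k)
  · rw [Nat.coprime_two_right]
    exact DD_odd hd
  · intro c hc hcr
    have hct : c * t = t * c := hcr t (Subgroup.mem_zpowers t)
    have hcH : c ∈ H := by
      obtain ⟨c', _, rfl⟩ := hc
      exact c'.2
    have hcC : c ∈ C0 H t := ⟨hcH, Subgroup.mem_centralizer_singleton_iff.2 hct⟩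
    set w := c⁻¹ * d * c * d⁻¹ with hw
    have hwD : w ∈ DD H t := by
      have h1 := DD_normal ((C0 H t).inv_mem hcC) hd
      have e : w = c⁻¹ * d * c⁻¹⁻¹ * d⁻¹ := by rw [hw]; group
      rw [e]
      exact (DD H t).mul_mem h1 ((DD H t).inv_mem hd)
    have hwQ : w ∈ Q := by
      have h1 := (Subgroup.mem_normalizer_iff.1 (hQH hdH) c).1 hc
      have e : w = c⁻¹ * (d * c * d⁻¹) := by rw [hw]; group
      rw [e]
      exact Q.mul_mem (Q.inv_mem hc) h1
    obtain ⟨n, hn⟩ := hQ2 ⟨w, hwQ⟩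
    have hn' : w ^ (2 ^ n) = 1 := congrArg Subtype.val hn
    have hw1 := DD_eq_one hwD hn'
    have e2 : c⁻¹ * (d * c) = d := by
      have : c⁻¹ * d * c * d⁻¹ = 1 := hw1
      rw [mul_inv_eq_one] at this
      rw [← mul_assoc]
      exact this
    calc d * c = c * (c⁻¹ * (d * c)) := by group
      _ = c * d := by rw [e2]

end setup

/-- The layer of `H`, viewed in `G`. -/
abbrev Lay (H : Subgroup G) : Subgroup G := (layer ↥H).map H.subtype

theorem CompK.le_lay {H K : Subgroup G} (h : CompK H K) : K ≤ Lay H := by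
  obtain ⟨E, hE, rfl⟩ := h
  exact Subgroup.map_mono (comp_le_layer hE)

theorem CompK.lay_conj {H K : Subgroup G} (h : CompK H K) {l x : G} (hl : l ∈ Lay H) (hx : x ∈ K) :
    l * x * l⁻¹ ∈ K := by
  obtain ⟨E, hE, rfl⟩ := h
  obtain ⟨l', hl', rfl⟩ := hl
  obtain ⟨x', hx', rfl⟩ := hx
  have := (Subgroup.mem_normalizer_iff.1 (layer_le_normalizer hE hl') x').1 hx'
  exact ⟨_, this, rfl⟩

section main

variable {H : Subgroup G} {t : G}

/-- A quasisimple subgroup of `C_H(t)` inside the layer of `H`, normalized by `C_{E(H)}(t)`,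
and containing a nontrivial `2`-element is centralized by `O(C_H(t))`. -/
theorem DD_commute_of_comp {A : Subgroup G} (hA : IsQuasisimple ↥A) (hAC : A ≤ C0 H t)
    (hAL : A ≤ Lay H) (hnorm : ∀ l ∈ Lay H ⊓ C0 H t, ∀ a ∈ A, l * a * l⁻¹ ∈ A)
    {a : G} (ha : a ∈ A) (n : ℕ) (ha2 : a ^ (2 ^ n) = 1) (ha1 : a ≠ 1) :
    ∀ d ∈ DD H t, ∀ x ∈ A, d * x = x * d := by
  set A' : Subgroup ↥(C0 H t) := A.subgroupOf (C0 H t) with hA'
  set L' : Subgroup ↥(C0 H t) := (Lay H).subgroupOf (C0 H t) with hL'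
  have hLN : ∀ c ∈ H, ∀ l ∈ Lay H, c * l * c⁻¹ ∈ Lay H := by
    intro c hc l hl
    have := le_normalizer_map_subtype (layer ↥H) inferInstance hc
    exact (Subgroup.mem_normalizer_iff.1 this l).1 hl
  have hL'N : L'.Normal := by
    constructor
    intro l hl c
    rw [hL', Subgroup.mem_subgroupOf] at hl ⊢
    exact hLN c c.2.1 l hl
  have hA'L' : A' ≤ L' := fun x hx => Subgroup.mem_subgroupOf.2 (hAL (Subgroup.mem_subgroupOf.1 hx))
  have hN : L' ≤ Subgroup.normalizer (A' : Set ↥(C0 H t)) := by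
    intro l hl
    rw [hL', Subgroup.mem_subgroupOf] at hl
    apply Cfsg.Agent.Lib.Replacement.mem_normalizer_of_forall
    intro x hx
    rw [hA', Subgroup.mem_subgroupOf] at hx ⊢
    exact hnorm l ⟨hl, l.2⟩ x hx
  have hcomp : IsComponent A' :=
    ⟨subnormal_of_normalized hA'L' hN hL'N.isSubnormal,
      qs_of_mulEquiv (Subgroup.subgroupOfEquivOfLe hAC).symm hA⟩
  rcases comp_le_or_commute hcomp (H := oddCore ↥(C0 H t))
      (inferInstance : (oddCore ↥(C0 H t)).Normal).isSubnormal with h | h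
  · exfalso
    have h1 : (⟨a, hAC ha⟩ : ↥(C0 H t)) ∈ A' := Subgroup.mem_subgroupOf.2 ha
    have h2 : a ∈ DD H t := ⟨_, h h1, rfl⟩
    exact ha1 (DD_eq_one h2 ha2)
  · intro d hd x hx
    obtain ⟨d', hd', rfl⟩ := hd
    have h1 : (⟨x, hAC hx⟩ : ↥(C0 H t)) ∈ A' := Subgroup.mem_subgroupOf.2 hx
    have := commutator_eq_bot_iff_elementwise.1 h _ h1 d' hd'
    exact (congrArg Subtype.val this).symm

/-- Step (c1). -/
theorem DD_commute_of_swapped (hO : oddCore ↥H = ⊥) (htH : t ∈ Subgroup.normalizer (H : Set G))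
    (ht : t * t = 1) {K : Subgroup G} (hK : CompK H K)
    (hne : K.map (MulAut.conj t).toMonoidHom ≠ K) :
    ∀ d ∈ DD H t, ∀ x ∈ K, d * x * d⁻¹ = x := by
  classical
  have htinv : t⁻¹ = t := inv_eq_of_mul_eq_one_left ht
  set τK : Subgroup G := K.map (MulAut.conj t).toMonoidHom with hτK
  have hτ : ∀ x ∈ K, t * x * t⁻¹ ∈ τK := fun x hx => ⟨x, hx, rfl⟩
  have hKτ : CompK H τK := hK.conj htH
  have hc : ∀ a ∈ K, ∀ b ∈ τK, a * b = b * a := hK.commute hKτ (Ne.symm hne)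
  have hττ : ∀ x, t * (t * x * t⁻¹) * t⁻¹ = x := by
    intro x
    rw [htinv]
    calc t * (t * x * t) * t = (t * t) * x * (t * t) := by group
      _ = x := by rw [ht]; group
  have hτK2 : ∀ x ∈ τK, t * x * t⁻¹ ∈ K := by
    rintro _ ⟨x, hx, rfl⟩
    have e : t * ((MulAut.conj t).toMonoidHom x) * t⁻¹ = x := hττ x
    rw [e]; exact hx
  have hKH : ∀ x ∈ K, x ∈ H := fun x hx => hK.le hx
  have hτKH : ∀ x ∈ τK, x ∈ H := fun x hx => hKτ.le hx
  let φ : ↥K →* G :=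
    { toFun := fun x => (x : G) * (t * x * t⁻¹)
      map_one' := by simp
      map_mul' := by
        intro x y
        have h1 := hc y y.2 (t * x * t⁻¹) (hτ x x.2)
        simp only [Subgroup.coe_mul]
        calc (x : G) * y * (t * (x * y) * t⁻¹)
            = x * (y * (t * x * t⁻¹)) * (t * y * t⁻¹) := by group
          _ = x * ((t * x * t⁻¹) * y) * (t * y * t⁻¹) := by rw [h1]
          _ = _ := by group }
  have hφ : ∀ x : ↥K, φ x = (x : G) * (t * x * t⁻¹) := fun _ => rfl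
  obtain ⟨k, hkK, ⟨n, hn⟩, y, hy, hky⟩ := hK.exists_two_element hO
  have hφk : φ ⟨k, hkK⟩ ≠ 1 := by
    intro h
    rw [hφ] at h
    have h1 : k = (t * k * t⁻¹)⁻¹ := eq_inv_of_mul_eq_one_left h
    have h2 : k ∈ τK := by
      rw [h1]
      exact τK.inv_mem (hτ k hkK)
    exact hky (hc y hy k h2).symm
  have hφn : (φ ⟨k, hkK⟩) ^ (2 ^ n) = 1 := by
    rw [← map_pow]
    have : (⟨k, hkK⟩ : ↥K) ^ (2 ^ n) = 1 := Subtype.ext (by simpa using hn)
    rw [this, map_one]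
  have hA : IsQuasisimple ↥φ.range := by
    have hnt : Nontrivial ↥φ.range :=
      ⟨⟨⟨_, ⟨⟨k, hkK⟩, rfl⟩⟩, 1, fun h => hφk (congrArg Subtype.val h)⟩⟩
    exact Cfsg.Agent.Lib.PComp.qs_of_surjective hK.qs φ.rangeRestrict φ.rangeRestrict_surjective
  have hAC : φ.range ≤ C0 H t := by
    rintro _ ⟨x, rfl⟩
    refine ⟨H.mul_mem (hKH x x.2) (hτKH _ (hτ x x.2)), ?_⟩
    change _ ∈ Subgroup.centralizer ({t} : Set G)
    rw [Subgroup.mem_centralizer_singleton_iff, hφ]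
    have h1 := hc x x.2 (t * x * t⁻¹) (hτ x x.2)
    calc (x : G) * (t * x * t⁻¹) * t = ((t * x * t⁻¹) * x) * t := by rw [h1]
      _ = t * (x * (t⁻¹ * x * t)) := by group
      _ = t * (x * (t * x * t⁻¹)) := by rw [htinv]
  have hAL : φ.range ≤ Lay H := by
    rintro _ ⟨x, rfl⟩
    exact (Lay H).mul_mem (hK.le_lay x.2) (hKτ.le_lay (hτ x x.2))
  have hnorm : ∀ l ∈ Lay H ⊓ C0 H t, ∀ a ∈ φ.range, l * a * l⁻¹ ∈ φ.range := by
    rintro l ⟨hl, hlC⟩ _ ⟨x, rfl⟩
    have hlt : l * t = t * l := Subgroup.mem_centralizer_singleton_iff.1 hlC.2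
    refine ⟨⟨l * x * l⁻¹, hK.lay_conj hl x.2⟩, ?_⟩
    rw [hφ, hφ]
    have hlt' : l⁻¹ * t = t * l⁻¹ := by
      rw [inv_mul_eq_iff_eq_mul, ← mul_assoc, hlt, mul_assoc, mul_inv_cancel, mul_one]
    calc (l * x * l⁻¹) * (t * (l * x * l⁻¹) * t⁻¹)
        = l * x * (l⁻¹ * t) * l * x * l⁻¹ * t⁻¹ := by group
      _ = l * x * (t * l⁻¹) * l * x * l⁻¹ * t⁻¹ := by rw [hlt']
      _ = l * (x * (t * x * t⁻¹)) * (t * l⁻¹ * t⁻¹) := by group
      _ = l * (x * (t * x * t⁻¹)) * ((l⁻¹ * t) * t⁻¹) := by rw [hlt']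
      _ = _ := by group
  have hDA := DD_commute_of_comp hA hAC hAL hnorm ⟨⟨k, hkK⟩, rfl⟩ n hφn hφk
  intro d hd
  have hdC := DD_le hd
  have hdt : d * t = t * d := Subgroup.mem_centralizer_singleton_iff.1 hdC.2
  have hdt' : d⁻¹ * t = t * d⁻¹ := by
    rw [inv_mul_eq_iff_eq_mul, ← mul_assoc, hdt, mul_assoc, mul_inv_cancel, mul_one]
  have hdτ : ∀ x : G, d * (t * x * t⁻¹) * d⁻¹ = t * (d * x * d⁻¹) * t⁻¹ := by
    intro x
    calc d * (t * x * t⁻¹) * d⁻¹ = (d * t) * x * (d * t)⁻¹ := by group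
      _ = (t * d) * x * (t * d)⁻¹ := by rw [hdt]
      _ = _ := by group
  have hdH : d ∈ Subgroup.normalizer (H : Set G) := Subgroup.le_normalizer hdC.1
  have hφd : ∀ x ∈ K, (d * x * d⁻¹) * (t * (d * x * d⁻¹) * t⁻¹) = x * (t * x * t⁻¹) := by
    intro x hx
    have h1 := hDA d hd (φ ⟨x, hx⟩) ⟨⟨x, hx⟩, rfl⟩
    rw [hφ] at h1
    simp only at h1
    rw [← hdτ]
    calc (d * x * d⁻¹) * (d * (t * x * t⁻¹) * d⁻¹) = d * (x * (t * x * t⁻¹)) * d⁻¹ := by group
      _ = _ := by rw [h1]; group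
  set K₂ : Subgroup G := K.map (MulAut.conj d).toMonoidHom with hK₂
  have hdK : ∀ x ∈ K, d * x * d⁻¹ ∈ K₂ := fun x hx => ⟨x, hx, rfl⟩
  have hK₂c : CompK H K₂ := hK.conj hdH
  have hK₂eq : K₂ = K := by
    by_contra hne2
    by_cases hne3 : K₂ = τK
    · -- `d²` normalizes `K`
      have hsq : d * d ∈ Subgroup.normalizer (K : Set G) := by
        apply Cfsg.Agent.Lib.Replacement.mem_normalizer_of_forall
        intro x hx
        have h1 : d * x * d⁻¹ ∈ τK := hne3 ▸ hdK x hx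
        have h2 : t * (d * x * d⁻¹) * t⁻¹ ∈ K := hτK2 _ h1
        have h3 : d * (t * (d * x * d⁻¹) * t⁻¹) * d⁻¹ ∈ τK := hne3 ▸ hdK _ h2
        have h4 := hτK2 _ h3
        rw [hdτ, hττ] at h4
        have e : d * d * x * (d * d)⁻¹ = d * (d * x * d⁻¹) * d⁻¹ := by group
        rw [e]
        exact h4
      have hd1 : d ∈ Subgroup.normalizer (K : Set G) := mem_of_sq_mem (DD_odd hd) hsq
      apply hne2
      exact map_conj_of_mem_normalizer hd1
    · -- `K₂` and `τK₂` both differ from `K`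
      apply hky
      have hτK₂ : CompK H (K₂.map (MulAut.conj t).toMonoidHom) := hK₂c.conj htH
      have hne4 : K ≠ K₂.map (MulAut.conj t).toMonoidHom := by
        intro h
        apply hne3
        ext x
        constructor
        · intro hx
          have h1 : t * x * t⁻¹ ∈ K := h.ge ⟨x, hx, rfl⟩
          exact ⟨t * x * t⁻¹, h1, hττ x⟩
        · rintro ⟨u, hu, rfl⟩
          obtain ⟨v, hv, rfl⟩ := h.le hu
          have e : (MulAut.conj t).toMonoidHom ((MulAut.conj t).toMonoidHom v) = v := hττ v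
          rw [e]
          exact hv
      have hy1 := hK.commute hK₂c (Ne.symm hne2) y hy (d * k * d⁻¹) (hdK k hkK)
      have hy2 := hK.commute hτK₂ hne4 y hy (t * (d * k * d⁻¹) * t⁻¹) ⟨_, hdK k hkK, rfl⟩
      have hy3 := hc y hy (t * k * t⁻¹) (hτ k hkK)
      have e := hφd k hkK
      have hcomm : y * (k * (t * k * t⁻¹)) = (k * (t * k * t⁻¹)) * y := by
        rw [← e, ← mul_assoc, hy1, mul_assoc, hy2, ← mul_assoc]
      have h5 : y * k * (t * k * t⁻¹) = k * y * (t * k * t⁻¹) := by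
        calc y * k * (t * k * t⁻¹) = y * (k * (t * k * t⁻¹)) := by group
          _ = (k * (t * k * t⁻¹)) * y := hcomm
          _ = k * ((t * k * t⁻¹) * y) := by group
          _ = k * (y * (t * k * t⁻¹)) := by rw [hy3]
          _ = _ := by group
      exact (mul_right_cancel h5).symm
  have hdKK : ∀ x ∈ K, d * x * d⁻¹ ∈ K := fun x hx => hK₂eq ▸ hdK x hx
  apply centralize_of_central hK.perfect
  intro x hx
  have hu : x⁻¹ * (d * x * d⁻¹) ∈ K := K.mul_mem (K.inv_mem hx) (hdKK x hx)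
  refine ⟨hu, ?_⟩
  set u := x⁻¹ * (d * x * d⁻¹) with hudef
  have hx1 : d * x * d⁻¹ = x * u := by rw [hudef]; group
  have h1 := hφd x hx
  rw [hx1] at h1
  have h2 : t * (x * u) * t⁻¹ = (t * x * t⁻¹) * (t * u * t⁻¹) := by group
  rw [h2] at h1
  have h3 := hc u hu (t * x * t⁻¹) (hτ x hx)
  have h4 : u * (t * u * t⁻¹) = 1 := by
    have h5 : x * (t * x * t⁻¹) * (u * (t * u * t⁻¹)) = x * (t * x * t⁻¹) := by
      calc x * (t * x * t⁻¹) * (u * (t * u * t⁻¹))
          = x * ((t * x * t⁻¹) * u) * (t * u * t⁻¹) := by group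
        _ = x * (u * (t * x * t⁻¹)) * (t * u * t⁻¹) := by rw [h3]
        _ = x * u * ((t * x * t⁻¹) * (t * u * t⁻¹)) := by group
        _ = _ := h1
    exact mul_left_cancel (h5.trans (mul_one _).symm)
  have h6 : u ∈ τK := by
    have : u = (t * u * t⁻¹)⁻¹ := eq_inv_of_mul_eq_one_left h4
    rw [this]
    exact τK.inv_mem (hτ u hu)
  intro v hv
  exact (hc v hv u h6).symm

/-- Step (c2). -/
theorem DD_commute_of_central (hO : oddCore ↥H = ⊥) {K : Subgroup G} (hK : CompK H K)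
    (htK : ∀ x ∈ K, x * t = t * x) :
    ∀ d ∈ DD H t, ∀ x ∈ K, d * x * d⁻¹ = x := by
  obtain ⟨k, hkK, ⟨n, hn⟩, y, hy, hky⟩ := hK.exists_two_element hO
  have hk1 : k ≠ 1 := by
    rintro rfl
    exact hky (by simp)
  have hAC : K ≤ C0 H t := fun x hx =>
    ⟨hK.le hx, Subgroup.mem_centralizer_singleton_iff.2 (htK x hx)⟩
  have h := DD_commute_of_comp hK.qs hAC hK.le_lay (fun l hl a ha => hK.lay_conj hl.1 ha) hkK n hn hk1
  intro d hd x hx
  rw [h d hd x hx]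
  group

/-- Choice of a `2`-element: `t` acts on `K` and some noncentral `2`-element `x` of `K` is centralized
by `t` modulo `Z(K)`. -/
theorem exists_two_element_mod_center (hO : oddCore ↥H = ⊥) (ht : t * t = 1) {K : Subgroup G}
    (hK : CompK H K) (htK : t ∈ Subgroup.normalizer (K : Set G)) :
    ∃ x ∈ K, (∃ n : ℕ, x ^ (2 ^ n) = 1) ∧ (∃ y ∈ K, x * y ≠ y * x) ∧
      x⁻¹ * (t * x * t⁻¹) ∈ K ∧ ∀ y ∈ K, x⁻¹ * (t * x * t⁻¹) * y = y * (x⁻¹ * (t * x * t⁻¹)) := by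
  classical
  set N : Subgroup G := Subgroup.normalizer (K : Set G) with hN
  have hT : IsPGroup 2 ↥(Subgroup.zpowers (⟨t, htK⟩ : ↥N)) := by
    apply IsPGroup.of_card (n := (Nat.log 2 (orderOf (⟨t, htK⟩ : ↥N))))
    rw [Nat.card_zpowers]
    have h1 : (⟨t, htK⟩ : ↥N) ^ 2 ^ 1 = 1 := Subtype.ext (by
      simp [pow_two, ht])
    obtain ⟨k, -, hk⟩ := (Nat.dvd_prime_pow Nat.prime_two).1 (orderOf_dvd_of_pow_eq_one h1)
    rw [hk, Nat.log_pow (by norm_num)]
  obtain ⟨Q, hQ⟩ := hT.exists_le_sylow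
  obtain ⟨k, hkK, ⟨n, hn⟩, y, hy, hky⟩ := hK.exists_two_element hO
  have hkN : k ∈ N := Subgroup.le_normalizer hkK
  have hT2 : IsPGroup 2 ↥(Subgroup.zpowers (⟨k, hkN⟩ : ↥N)) := by
    apply IsPGroup.of_card (n := (Nat.log 2 (orderOf (⟨k, hkN⟩ : ↥N))))
    rw [Nat.card_zpowers]
    have h1 : (⟨k, hkN⟩ : ↥N) ^ 2 ^ n = 1 := Subtype.ext (by simpa using hn)
    obtain ⟨m, -, hm⟩ := (Nat.dvd_prime_pow Nat.prime_two).1 (orderOf_dvd_of_pow_eq_one h1)
    rw [hm, Nat.log_pow (by norm_num)]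
  obtain ⟨Q₁, hQ₁⟩ := hT2.exists_le_sylow
  obtain ⟨u, hu⟩ := MulAction.exists_smul_eq ↥N Q₁ Q
  have hku : u * ⟨k, hkN⟩ * u⁻¹ ∈ (Q : Subgroup ↥N) := by
    have h2 : u * ⟨k, hkN⟩ * u⁻¹ ∈ ((u • Q₁ : Sylow 2 ↥N) : Subgroup ↥N) := by
      rw [Sylow.smul_def, Sylow.pointwise_smul_def]
      exact ⟨_, hQ₁ (Subgroup.mem_zpowers _), rfl⟩
    rwa [hu] at h2
  set S : Subgroup G := (Q : Subgroup ↥N).map N.subtype with hS
  have hS2 : IsPGroup 2 ↥S := Q.isPGroup'.map N.subtype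
  have hSN : S ≤ N := Subgroup.map_subtype_le _
  have hSnil : Group.IsNilpotent ↥S := hS2.isNilpotent
  set k₁ : G := u * k * (u : G)⁻¹ with hk₁
  have hk₁S : k₁ ∈ S := ⟨_, hku, by simp [hk₁]⟩
  have hk₁K : k₁ ∈ K := (Subgroup.mem_normalizer_iff.1 u.2 k).1 hkK
  have hk₁nc : k₁ ∉ (S ⊓ K) ⊓ Subgroup.centralizer (K : Set G) := by
    rintro ⟨-, hc⟩
    apply hky
    have hy' : (u : G) * y * (u : G)⁻¹ ∈ K := (Subgroup.mem_normalizer_iff.1 u.2 y).1 hy
    have h3 := Subgroup.mem_centralizer_iff.1 hc _ hy'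
    have h4 : (u : G) * (y * k) * (u : G)⁻¹ = (u : G) * (k * y) * (u : G)⁻¹ := by
      calc (u : G) * (y * k) * (u : G)⁻¹ = (u * y * (u : G)⁻¹) * k₁ := by rw [hk₁]; group
        _ = k₁ * (u * y * (u : G)⁻¹) := h3
        _ = _ := by rw [hk₁]; group
    have h5 : y * k = k * y := by simpa using h4
    exact h5.symm
  have hnormS : ∀ f ∈ S, ∀ a ∈ S ⊓ K, f * a * f⁻¹ ∈ S ⊓ K := by
    intro f hf a ha
    refine ⟨S.mul_mem (S.mul_mem hf ha.1) (S.inv_mem hf), ?_⟩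
    exact (Subgroup.mem_normalizer_iff.1 (hSN hf) a).1 ha.2
  obtain ⟨z, hzN, hzB, hz⟩ := exists_mem_of_nilpotent (F := S) (N := S ⊓ K)
    (B := (S ⊓ K) ⊓ Subgroup.centralizer (K : Set G)) inf_le_left hnormS ⟨hk₁S, hk₁K⟩ hk₁nc
  have htS : t ∈ S := ⟨⟨t, htK⟩, hQ (Subgroup.mem_zpowers _), rfl⟩
  have h6 := hz t htS
  have hzK : z ∈ K := hzN.2
  refine ⟨z⁻¹, K.inv_mem hzK, ?_, ?_, ?_, ?_⟩
  · obtain ⟨m, hm⟩ := hS2 ⟨z, hzN.1⟩
    refine ⟨m, ?_⟩
    have : z ^ 2 ^ m = 1 := congrArg Subtype.val hm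
    rw [inv_pow, this, inv_one]
  · by_contra hcon
    push Not at hcon
    apply hzB
    refine ⟨hzN, ?_⟩
    change z ∈ Subgroup.centralizer (K : Set G)
    rw [Subgroup.mem_centralizer_iff]
    intro y hy
    have h7 := hcon y hy
    have h8 : y * z = z * y := by
      have h9 : z⁻¹ * y * z = y := by
        rw [h7]; group
      calc y * z = z * (z⁻¹ * y * z) * (z⁻¹ * z) := by group
        _ = z * y := by rw [h9]; group
    exact h8
  · have e : z⁻¹⁻¹ * (t * z⁻¹ * t⁻¹) = z * t * z⁻¹ * t⁻¹ := by group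
    rw [e]
    exact h6.1.2
  · intro y hy
    have e : z⁻¹⁻¹ * (t * z⁻¹ * t⁻¹) = z * t * z⁻¹ * t⁻¹ := by group
    rw [e]
    exact (Subgroup.mem_centralizer_iff.1 h6.2 y hy).symm

/-- A central element of a component of `H` lies in `O_2(H)` when `O(H)=1`. -/
theorem central_mem_core (hO : oddCore ↥H = ⊥) {K : Subgroup G} (hK : CompK H K) {z : G}
    (hz : z ∈ K) (hzc : ∀ y ∈ K, z * y = y * z) : z ∈ (pCore 2 ↥H).map H.subtype := by
  obtain ⟨E, hE, rfl⟩ := hK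
  obtain ⟨z', hz', rfl⟩ := hz
  have hA : Subgroup.zpowers z' ≤ E := (Subgroup.zpowers_le).2 hz'
  have hn : E ≤ Subgroup.normalizer ((Subgroup.zpowers z' : Subgroup ↥H) : Set ↥H) := by
    intro e he
    apply Cfsg.Agent.Lib.Replacement.mem_normalizer_of_forall
    rintro _ ⟨j, rfl⟩
    have h1 : e * z' = z' * e := by
      have := hzc e.1 ⟨e, he, rfl⟩
      exact Subtype.ext this.symm
    have h2 : e * z' * e⁻¹ = z' := by rw [h1]; group
    have h3 : e * z' ^ j * e⁻¹ = (e * z' * e⁻¹) ^ j := by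
      rw [conj_zpow]
    change e * z' ^ j * e⁻¹ ∈ _
    rw [h3, h2]
    exact ⟨j, rfl⟩
  have hs : (Subgroup.zpowers z').IsSubnormal := subnormal_of_normalized hA hn hE.1
  have hnil : Group.IsNilpotent ↥(Subgroup.zpowers z') :=
    @CommGroup.isNilpotent _ (IsCyclic.commGroup)
  have h1 := subnormal_nilpotent_le_fitting hs hnil
  rw [fittingSubgroup_eq_pCore_of_pPrimeCore_eq_bot (p := 2) hO] at h1
  exact ⟨z', h1 (Subgroup.mem_zpowers z'), rfl⟩

/-- Step (c3). -/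
theorem DD_normalizes_of_stable (hO : oddCore ↥H = ⊥) (htH : t ∈ Subgroup.normalizer (H : Set G))
    (ht : t * t = 1) {K : Subgroup G} (hK : CompK H K)
    (htK : t ∈ Subgroup.normalizer (K : Set G)) {d : G} (hd : d ∈ DD H t) :
    d ∈ Subgroup.normalizer (K : Set G) := by
  classical
  by_contra hdK
  have hdC := DD_le hd
  have hdt : d * t = t * d := Subgroup.mem_centralizer_singleton_iff.1 hdC.2
  have hdH : d ∈ Subgroup.normalizer (H : Set G) := Subgroup.le_normalizer hdC.1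
  set K₁ : Subgroup G := K.map (MulAut.conj d).toMonoidHom with hK₁
  set K₂ : Subgroup G := K₁.map (MulAut.conj d).toMonoidHom with hK₂
  have hK₁c : CompK H K₁ := hK.conj hdH
  have hK₂c : CompK H K₂ := hK₁c.conj hdH
  have hd1 : ∀ x ∈ K, d * x * d⁻¹ ∈ K₁ := fun x hx => ⟨x, hx, rfl⟩
  have hd2 : ∀ x ∈ K₁, d * x * d⁻¹ ∈ K₂ := fun x hx => ⟨x, hx, rfl⟩
  have hne1 : K₁ ≠ K := fun h => hdK (mem_normalizer_of_map_conj h)
  have hne2 : K₂ ≠ K₁ := by
    intro h
    apply hne1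
    exact Subgroup.map_injective (MulAut.conj d).injective h
  have hne3 : K₂ ≠ K := by
    intro h
    apply hdK
    apply mem_of_sq_mem (DD_odd hd)
    apply Cfsg.Agent.Lib.Replacement.mem_normalizer_of_forall
    intro x hx
    have h1 : d * (d * x * d⁻¹) * d⁻¹ ∈ K₂ := hd2 _ (hd1 x hx)
    have h2 : d * (d * x * d⁻¹) * d⁻¹ ∈ K := h.le h1
    have e : d * d * x * (d * d)⁻¹ = d * (d * x * d⁻¹) * d⁻¹ := by group
    rw [e]
    exact h2
  obtain ⟨x, hxK, ⟨n, hn⟩, ⟨y, hy, hxy⟩, hzK, hzc⟩ := exists_two_element_mod_center hO ht hK htK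
  set z := x⁻¹ * (t * x * t⁻¹) with hzdef
  have hzQ := central_mem_core hO hK hzK hzc
  have hdz : d * z = z * d := DD_centralizes_core htH ht hd z hzQ
  have hτx : t * x * t⁻¹ = x * z := by rw [hzdef]; group
  set x₁ := d * x * d⁻¹ with hx₁
  set x₂ := d * x₁ * d⁻¹ with hx₂
  have hx₁K : x₁ ∈ K₁ := hd1 x hxK
  have hx₂K : x₂ ∈ K₂ := hd2 x₁ hx₁K
  have h01 := hK.commute hK₁c hne1.symm
  have h02 := hK.commute hK₂c hne3.symm
  have h12 := hK₁c.commute hK₂c hne2.symm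
  have hτx₁ : t * x₁ * t⁻¹ = x₁ * z := by
    have e : t * (d * x * d⁻¹) * t⁻¹ = d * (t * x * t⁻¹) * d⁻¹ := by
      calc t * (d * x * d⁻¹) * t⁻¹ = (t * d) * x * (t * d)⁻¹ := by group
        _ = (d * t) * x * (d * t)⁻¹ := by rw [hdt]
        _ = _ := by group
    rw [hx₁, e, hτx]
    have hdz' : d * z * d⁻¹ = z := by rw [hdz]; group
    calc d * (x * z) * d⁻¹ = (d * x * d⁻¹) * (d * z * d⁻¹) := by group
      _ = _ := by rw [hdz']
  set c := x * x₁⁻¹ with hc
  have hcH : c ∈ H := H.mul_mem (hK.le hxK) (H.inv_mem (hK₁c.le hx₁K))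
  have hct : c * t = t * c := by
    have e : t * c * t⁻¹ = c := by
      calc t * c * t⁻¹ = (t * x * t⁻¹) * (t * x₁ * t⁻¹)⁻¹ := by rw [hc]; group
        _ = (x * z) * (x₁ * z)⁻¹ := by rw [hτx, hτx₁]
        _ = c := by rw [hc]; group
    rw [mul_inv_eq_iff_eq_mul] at e
    exact e.symm
  have hcC : c ∈ C0 H t := ⟨hcH, Subgroup.mem_centralizer_singleton_iff.2 hct⟩
  set w := c⁻¹ * d * c * d⁻¹ with hw
  have hwD : w ∈ DD H t := by
    have h1 := DD_normal ((C0 H t).inv_mem hcC) hd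
    have e : w = c⁻¹ * d * c⁻¹⁻¹ * d⁻¹ := by rw [hw]; group
    rw [e]
    exact (DD H t).mul_mem h1 ((DD H t).inv_mem hd)
  have hw2 : w = x₁ * x₁ * x⁻¹ * x₂⁻¹ := by
    have c1 : x * x₁ = x₁ * x := h01 x hxK x₁ hx₁K
    have c2 : x⁻¹ * x₁ = x₁ * x⁻¹ := by
      rw [inv_mul_eq_iff_eq_mul, ← mul_assoc, c1, mul_assoc, mul_inv_cancel, mul_one]
    have e1 : d * c * d⁻¹ = x₁ * x₂⁻¹ := by
      rw [hc, hx₂]
      have : d * (x * x₁⁻¹) * d⁻¹ = (d * x * d⁻¹) * (d * x₁ * d⁻¹)⁻¹ := by group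
      rw [this]
    calc w = c⁻¹ * (d * c * d⁻¹) := by rw [hw]; group
      _ = (x * x₁⁻¹)⁻¹ * (x₁ * x₂⁻¹) := by rw [e1]
      _ = x₁ * (x⁻¹ * x₁) * x₂⁻¹ := by group
      _ = x₁ * (x₁ * x⁻¹) * x₂⁻¹ := by rw [c2]
      _ = _ := by group
  -- `w` is a `2`-element
  have hx₁n : x₁ ^ (2 ^ n) = 1 := by
    rw [hx₁, conj_pow, hn]; group
  have hx₂n : x₂ ^ (2 ^ n) = 1 := by
    rw [hx₂, conj_pow, hx₁n]; group
  have c01 : Commute x x₁ := h01 x hxK x₁ hx₁K
  have c02 : Commute x x₂ := h02 x hxK x₂ hx₂K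
  have c12 : Commute x₁ x₂ := h12 x₁ hx₁K x₂ hx₂K
  have c_a : Commute (x₁ * x₁) x⁻¹ := (c01.symm.mul_left c01.symm).inv_right
  have c_b : Commute (x₁ * x₁ * x⁻¹) x₂⁻¹ := ((c12.mul_left c12).mul_left c02.inv_left).inv_right
  have hwn : w ^ (2 ^ n) = 1 := by
    rw [hw2, c_b.mul_pow, c_a.mul_pow, (Commute.refl x₁).mul_pow, inv_pow, inv_pow, hn, hx₁n, hx₂n]
    simp
  have hw1 : w = 1 := DD_eq_one hwD hwn
  rw [hw2] at hw1
  have e2 : x = x₂⁻¹ * (x₁ * x₁) := by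
    have h3 : x₁ * x₁ * x⁻¹ = x₂ := mul_inv_eq_one.1 hw1
    have h4 : x₁ * x₁ = x₂ * x := by rw [← h3]; group
    rw [h4]; group
  apply hxy
  have c1 : Commute y x₁ := h01 y hy x₁ hx₁K
  have c2 : Commute y x₂ := h02 y hy x₂ hx₂K
  rw [e2]
  exact ((c2.inv_right.mul_right (c1.mul_right c1)).symm).eq

/-- Main theorem at the level of `G`. -/
theorem main_thm (hO : oddCore ↥H = ⊥) (ht : t * t = 1)
    (htH : t ∈ Subgroup.normalizer (H : Set G)) (Y : Subgroup G) (hY1 : Y ≠ ⊥)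
    (hY : Y ≤ DD H t) : ∃ E : Subgroup ↥H, IsComponent E ∧
      (E.map H.subtype).map (MulAut.conj t).toMonoidHom = E.map H.subtype ∧
      Y ≤ Subgroup.normalizer ((E.map H.subtype : Subgroup G) : Set G) ∧
      ¬ (t ∈ Subgroup.centralizer ((E.map H.subtype : Subgroup G) : Set G)) ∧
      ¬ (Y ≤ Subgroup.centralizer ((E.map H.subtype : Subgroup G) : Set G)) := by
  classical
  obtain ⟨⟨y, hyY⟩, hy1⟩ := Subgroup.ne_bot_iff_exists_ne_one.1 hY1
  have hy1' : y ≠ 1 := fun h => hy1 (Subtype.ext h)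
  have hyD := hY hyY
  have hyH : y ∈ H := (DD_le hyD).1
  set y' : ↥H := ⟨y, hyH⟩ with hy'
  have hex : ∃ E : Subgroup ↥H, IsComponent E ∧ ¬ ∀ x ∈ E, y' * x = x * y' := by
    by_contra hcon
    push Not at hcon
    have hle : generalizedFittingSubgroup ↥H ≤ Subgroup.centralizer ({y'} : Set ↥H) := by
      apply sup_le
      · apply sSup_le
        intro E hE x hx
        rw [Subgroup.mem_centralizer_singleton_iff]
        exact (hcon E hE x hx).symm
      · rw [fittingSubgroup_eq_pCore_of_pPrimeCore_eq_bot (p := 2) hO]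
        intro x hx
        rw [Subgroup.mem_centralizer_singleton_iff]
        have h1 := DD_centralizes_core htH ht hyD x ⟨x, hx, rfl⟩
        exact (Subtype.ext h1 : y' * x = x * y').symm
    set W : Subgroup ↥H := Subgroup.centralizer (generalizedFittingSubgroup ↥H : Set ↥H) with hW
    have hyW : y' ∈ W := by
      rw [hW, Subgroup.mem_centralizer_iff]
      intro g hg
      exact (Subgroup.mem_centralizer_singleton_iff.1 (hle hg))
    have hWF : W ≤ generalizedFittingSubgroup ↥H := centralizer_generalizedFitting_le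
    have hFn : (generalizedFittingSubgroup ↥H).Normal := by
      unfold generalizedFittingSubgroup
      exact Subgroup.sup_normal _ _
    have hWn : W.Normal := Subgroup.normal_centralizer
    have hcomm : ∀ a b : ↥W, a * b = b * a := by
      intro a b
      apply Subtype.ext
      exact (Subgroup.mem_centralizer_iff.1 b.2 a (hWF a.2))
    have hWnil : Group.IsNilpotent ↥W := by
      letI : CommGroup ↥W := { (inferInstance : Group ↥W) with mul_comm := hcomm }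
      exact CommGroup.isNilpotent
    have hWF2 := le_fittingSubgroup hWn hWnil
    rw [fittingSubgroup_eq_pCore_of_pPrimeCore_eq_bot (p := 2) hO] at hWF2
    obtain ⟨n, hn⟩ := isPGroup_pCore (G := ↥H) 2 ⟨y', hWF2 hyW⟩
    have hn' : y ^ (2 ^ n) = 1 := congrArg (fun z : ↥(pCore 2 ↥H) => ((z : ↥H) : G)) hn
    exact hy1' (DD_eq_one hyD hn')
  obtain ⟨E, hE, hyE⟩ := hex
  have hKc : CompK H (E.map H.subtype) := ⟨E, hE, rfl⟩
  have hyK : ¬ ∀ x ∈ E.map H.subtype, y * x * y⁻¹ = x := by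
    intro h
    apply hyE
    intro x hx
    apply Subtype.ext
    have h1 := h x ⟨x, hx, rfl⟩
    rw [mul_inv_eq_iff_eq_mul] at h1
    exact h1
  have hτ : (E.map H.subtype).map (MulAut.conj t).toMonoidHom = E.map H.subtype := by
    by_contra hne
    exact hyK (DD_commute_of_swapped hO htH ht hKc hne y hyD)
  refine ⟨E, hE, hτ, ?_, ?_, ?_⟩
  · intro d hd
    exact DD_normalizes_of_stable hO htH ht hKc (mem_normalizer_of_map_conj hτ) (hY hd)
  · intro htc
    apply hyK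
    apply DD_commute_of_central hO hKc _ y hyD
    intro x hx
    exact (Subgroup.mem_centralizer_iff.1 htc x hx)
  · intro hYc
    apply hyK
    intro x hx
    have := Subgroup.mem_centralizer_iff.1 (hYc hyY) x hx
    rw [← this]
    group

end main

end Cfsg.Agent.S1328

namespace Cfsg.Agent.S1328

theorem result {G : Type*} [Group G] [Finite G] (H : Subgroup G) (hO : Cfsg.oddCore ↥H = ⊥) (t : G) (ht : orderOf t = 2) (htH : t ∈ Subgroup.normalizer (H : Set G)) (Y : Subgroup G) (hY1 : Y ≠ ⊥) (hY : Y ≤ (Cfsg.oddCore ↥(H ⊓ Subgroup.centralizer ({t} : Set G))).map (H ⊓ Subgroup.centralizer ({t} : Set G)).subtype) : ∃ E : Subgroup ↥H, Cfsg.IsComponent E ∧ (E.map H.subtype).map (MulAut.conj t).toMonoidHom = E.map H.subtype ∧ Y ≤ Subgroup.normalizer ((E.map H.subtype : Subgroup G) : Set G) ∧ ¬ (t ∈ Subgroup.centralizer ((E.map H.subtype : Subgroup G) : Set G)) ∧ ¬ (Y ≤ Subgroup.centralizer ((E.map H.subtype : Subgroup G)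 : Set G)) := by
  have ht2 : t * t = 1 := by
    rw [← pow_two, ← ht]
    exact pow_orderOf_eq_one t
  exact main_thm hO ht2 htH Y hY1 hY

end Cfsg.Agent.S1328
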