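import Mathlib
import Cfsg.Statements.S1331
import Cfsg.Agent.Lib.CoprimeHyper

set_option autoImplicit false
open Cfsg

namespace Cfsg.Agent.S1331

theorem result {G : Type*} [Group G] [Finite G] (p : ℕ) [Fact p.Prime] (A : Subgroup G) (hA : Cfsg.IsElementaryAbelian p A) (hA3 : p ^ 3 ≤ Nat.card ↥A) (θ : G → Subgroup G) (hθ : Cfsg.IsSolvableSignalizerFunctor p A θ) (X : Subgroup G) (hX : X ∈ Cfsg.signalizerFamily p A θ) (B : Subgroup G) (hB : B ≤ A) (hB2 : p ^ 2 ≤ Nat.card ↥B) : X = ⨆ D : {D : Subgroup G // D ≤ B ∧ D.relIndex B = p}, X ⊓ Cfsg.signalizerInf (D : Subgroup G) θ := by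
  obtain ⟨-, hXp, hXA, hXθ⟩ := hX
  have hp := (Fact.out : p.Prime)
  have hBc : IsMulCommutative ↥B := by
    constructor
    constructor
    rintro ⟨a, ha⟩ ⟨b, hb⟩
    have := hA.1.is_comm.comm ⟨a, hB ha⟩ ⟨b, hB hb⟩
    have h2 : a * b = b * a := congrArg Subtype.val this
    exact Subtype.ext h2
  have hBp : ∀ b ∈ B, b ^ p = 1 := fun b hb => hA.2 b (hB hb)
  have hBX : B ≤ Subgroup.normalizer (X : Set G) := by
    intro b hb
    rw [Subgroup.mem_normalizer_iff]
    intro x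
    refine ⟨fun hx => hXA b (hB hb) x hx, fun hx => ?_⟩
    have := hXA b⁻¹ (A.inv_mem (hB hb)) _ hx
    simpa [mul_assoc] using this
  have hgen := Cfsg.Agent.Lib.CoprimeHyper.eq_iSup_inf_centralizer B X hBc hBp hXp hBX
  have hpg : IsPGroup p ↥B := by
    rintro ⟨b, hb⟩
    exact ⟨1, Subtype.ext (by simpa using hBp b hb)⟩
  -- hyperplane exists
  obtain ⟨n, hn⟩ := IsPGroup.iff_card.1 hpg
  have hn2 : 2 ≤ n := by
    rw [hn] at hB2
    exact (Nat.pow_le_pow_iff_right hp.one_lt).1 hB2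
  obtain ⟨D₀, hD₀⟩ := Sylow.exists_subgroup_card_pow_prime (G := ↥B) p (n := n - 1) (by
    rw [hn]; exact pow_dvd_pow p (Nat.sub_le n 1))
  let D₁ : Subgroup G := D₀.map B.subtype
  have hD₁B : D₁ ≤ B := by
    rintro _ ⟨d, _, rfl⟩
    exact d.2
  have hD₁i : D₁.relIndex B = p := by
    have h1 : D₁.subgroupOf B = D₀ := Subgroup.comap_map_eq_self_of_injective B.subtype_injective D₀
    unfold Subgroup.relIndex
    rw [h1]
    have h2 := D₀.card_mul_index
    have h3 : p ^ n = p ^ (n - 1) * p := by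
      rw [← pow_succ, Nat.sub_add_cancel (by omega)]
    rw [hD₀, hn, h3] at h2
    exact Nat.eq_of_mul_eq_mul_left (pow_pos hp.pos _) h2
  set T : Subgroup G := ⨆ D : {D : Subgroup G // D ≤ B ∧ D.relIndex B = p}, X ⊓ Cfsg.signalizerInf (D : Subgroup G) θ with hT
  have hterm : ∀ D : Subgroup G, D ≤ B → D.relIndex B = p →
      X ⊓ Subgroup.centralizer (D : Set G) ≤ T := by
    intro D hD hDi
    refine le_trans ?_ (le_iSup (fun D : {D : Subgroup G // D ≤ B ∧ D.relIndex B = p} =>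
      X ⊓ Cfsg.signalizerInf (D : Subgroup G) θ) ⟨D, hD, hDi⟩)
    intro x hx
    refine ⟨hx.1, ?_⟩
    show x ∈ Cfsg.signalizerInf D θ
    unfold Cfsg.signalizerInf
    rw [Subgroup.mem_iInf]
    rintro ⟨d, hdD, hd1⟩
    apply hXθ d (hB (hD hdD)) hd1
    refine ⟨hx.1, ?_⟩
    refine Subgroup.mem_centralizer_iff.2 ?_
    intro y hy
    rw [Set.mem_singleton_iff] at hy
    subst hy
    exact Subgroup.mem_centralizer_iff.1 hx.2 y hdD
  refine le_antisymm ?_ (iSup_le fun D => inf_le_left)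
  rw [hgen]
  refine iSup_le fun D => ?_
  obtain ⟨D, hDB, hDi⟩ := D
  by_cases hDp : D.relIndex B = p
  · exact hterm D hDB hDp
  · -- then the index is one, so D = B
    have hdvd : D.relIndex B ∣ Nat.card ↥B := Subgroup.relIndex_dvd_card _ _
    rw [hn] at hdvd
    obtain ⟨k, hk, hkeq⟩ := (Nat.dvd_prime_pow hp).1 hdvd
    have hk0 : k = 0 := by
      by_contra hk0
      have hk1 : 1 ≤ k := Nat.one_le_iff_ne_zero.2 hk0
      have : p ^ 1 ≤ p ^ k := Nat.pow_le_pow_right hp.pos hk1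
      rw [pow_one, ← hkeq] at this
      exact hDp (le_antisymm hDi this)
    rw [hk0, pow_zero] at hkeq
    have hBD : B ≤ D := Subgroup.relIndex_eq_one.1 hkeq
    have hle : X ⊓ Subgroup.centralizer ((D : Subgroup G) : Set G) ≤ X ⊓ Subgroup.centralizer (D₁ : Set G) := by
      refine inf_le_inf_left _ ?_
      exact Subgroup.centralizer_le (fun d hd => hBD (hD₁B hd))
    exact hle.trans (hterm D₁ hD₁B hD₁i)

end Cfsg.Agent.S1331
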