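import Mathlib
import Cfsg.Statements.S1336

set_option autoImplicit false
open Cfsg
open scoped Pointwise

namespace Cfsg.Agent.S1336

universe u
variable {G : Type u} [Group G]

/-- conjugate of a subgroup -/
abbrev cj (g : G) (A : Subgroup G) : Subgroup G := A.map (MulAut.conj g).toMonoidHom

theorem mem_cj {g x : G} {A : Subgroup G} : x ∈ cj g A ↔ g⁻¹ * x * g ∈ A := by
  constructor
  · rintro ⟨a, ha, rfl⟩
    simpa [mul_assoc] using ha
  · intro h
    exact ⟨_, h, by simp [mul_assoc]⟩

theorem cj_one (A : Subgroup G) : cj 1 A = A := by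
  ext x; rw [mem_cj]; simp

theorem cj_mul (g h : G) (A : Subgroup G) : cj (g * h) A = cj g (cj h A) := by
  ext x; simp only [mem_cj]; simp [mul_assoc]

theorem cj_inv_cj (g : G) (A : Subgroup G) : cj g (cj g⁻¹ A) = A := by
  rw [← cj_mul]; simp [cj_one]

theorem cj_cj_inv (g : G) (A : Subgroup G) : cj g⁻¹ (cj g A) = A := by
  rw [← cj_mul]; simp [cj_one]

theorem card_cj (g : G) (A : Subgroup G) : Nat.card ↥(cj g A) = Nat.card ↥A :=
  Subgroup.card_map_of_injective (MulAut.conj g).injective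

/-- the edge relation -/
abbrev Edge (p : ℕ) (G : Type u) [Group G] (A B : Subgroup G) : Prop :=
  Cfsg.IsElementaryAbelian p A ∧ p ^ 1 ≤ Nat.card ↥A ∧ Cfsg.IsElementaryAbelian p B ∧
        p ^ 1 ≤ Nat.card ↥B ∧ ∀ a ∈ A, ∀ b ∈ B, a * b = b * a

theorem isEl_cj {p : ℕ} {A : Subgroup G} (g : G) (h : Cfsg.IsElementaryAbelian p A) :
    Cfsg.IsElementaryAbelian p (cj g A) := by
  obtain ⟨hc, hp⟩ := h
  refine ⟨⟨⟨?_⟩⟩, ?_⟩
  · rintro ⟨_, a, ha, rfl⟩ ⟨_, b, hb, rfl⟩
    apply Subtype.ext
    have := hc.is_comm.comm ⟨a, ha⟩ ⟨b, hb⟩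
    have := congrArg Subtype.val this
    simp only [Subgroup.coe_mul] at *
    rw [← map_mul, ← map_mul, this]
  · rintro _ ⟨a, ha, rfl⟩
    rw [← map_pow, hp a ha, map_one]

theorem edge_symm {p : ℕ} {A B : Subgroup G} (h : Edge p G A B) : Edge p G B A := by
  obtain ⟨h1, h2, h3, h4, h5⟩ := h
  exact ⟨h3, h4, h1, h2, fun b hb a ha => (h5 a ha b hb).symm⟩

theorem edge_cj {p : ℕ} {A B : Subgroup G} (g : G) (h : Edge p G A B) :
    Edge p G (cj g A) (cj g B) := by
  obtain ⟨h1, h2, h3, h4, h5⟩ := h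
  refine ⟨isEl_cj g h1, ?_, isEl_cj g h3, ?_, ?_⟩
  · rwa [card_cj]
  · rwa [card_cj]
  · rintro _ ⟨a, ha, rfl⟩ _ ⟨b, hb, rfl⟩
    rw [← map_mul, ← map_mul, h5 a ha b hb]

abbrev Conn (p : ℕ) (G : Type u) [Group G] := Relation.ReflTransGen (Edge p G)

theorem conn_symm {p : ℕ} {A B : Subgroup G} (h : Conn p G A B) : Conn p G B A := by
  induction h with
  | refl => exact .refl
  | tail _ h ih => exact Relation.ReflTransGen.head (edge_symm h) ih

theorem conn_cj {p : ℕ} {A B : Subgroup G} (g : G) (h : Conn p G A B) :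
    Conn p G (cj g A) (cj g B) := by
  induction h with
  | refl => exact .refl
  | tail _ h ih => exact ih.tail (edge_cj g h)

theorem cj_zpowers (g x : G) : cj g (Subgroup.zpowers x) = Subgroup.zpowers (g * x * g⁻¹) := by
  show Subgroup.map _ _ = _
  rw [MonoidHom.map_zpowers]
  rfl

theorem orderOf_cj (g x : G) : orderOf (g * x * g⁻¹) = orderOf x :=
  orderOf_injective (MulAut.conj g).toMonoidHom (MulAut.conj g).injective x

section
set_option linter.unusedSectionVars false
variable [Finite G] {p : ℕ} [hp : Fact p.Prime]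

theorem isEl_zpowers {y : G} (hy : orderOf y = p) : Cfsg.IsElementaryAbelian p (Subgroup.zpowers y) := by
  refine ⟨⟨⟨?_⟩⟩, ?_⟩
  · rintro ⟨_, i, rfl⟩ ⟨_, j, rfl⟩
    apply Subtype.ext
    show y ^ i * y ^ j = y ^ j * y ^ i
    rw [← zpow_add, ← zpow_add, add_comm]
  · rintro _ ⟨i, rfl⟩
    show (y ^ i) ^ p = 1
    rw [← zpow_natCast, ← zpow_mul, mul_comm, zpow_mul, zpow_natCast, ← hy, pow_orderOf_eq_one, one_zpow]

theorem card_zpowers_of_order {y : G} (hy : orderOf y = p) : p ^ 1 ≤ Nat.card ↥(Subgroup.zpowers y) := by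
  rw [Nat.card_zpowers, hy, pow_one]

theorem exists_order_p_of_vertex {A : Subgroup G} (h1 : Cfsg.IsElementaryAbelian p A)
    (h2 : p ^ 1 ≤ Nat.card ↥A) : ∃ x ∈ A, orderOf x = p := by
  have hne : A ≠ ⊥ := by
    rintro rfl
    have := hp.out.one_lt
    simp at h2
    omega
  obtain ⟨a, ha, ha1⟩ := (Subgroup.ne_bot_iff_exists_ne_one).1 hne |>.imp (fun a h => h) |> fun ⟨a, h⟩ => (⟨a, a.2, by simpa using h⟩ : ∃ a ∈ A, a ≠ 1)
  exact ⟨a, ha, orderOf_eq_prime (h1.2 a ha) ha1⟩

theorem dvd_card_of_vertex {A : Subgroup G} (h1 : Cfsg.IsElementaryAbelian p A)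
    (h2 : p ^ 1 ≤ Nat.card ↥A) : p ∣ Nat.card ↥A := by
  obtain ⟨x, hx, hxp⟩ := exists_order_p_of_vertex h1 h2
  have : orderOf (⟨x, hx⟩ : ↥A) = p := by
    rw [Subgroup.orderOf_mk, hxp]
  rw [← this]
  exact orderOf_dvd_natCard _

theorem edge_of_commute {A : Subgroup G} {y : G} (h1 : Cfsg.IsElementaryAbelian p A)
    (h2 : p ^ 1 ≤ Nat.card ↥A) (hy : orderOf y = p) (hc : ∀ a ∈ A, a * y = y * a) :
    Edge p G A (Subgroup.zpowers y) := by
  refine ⟨h1, h2, isEl_zpowers hy, card_zpowers_of_order hy, ?_⟩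
  rintro a ha _ ⟨i, rfl⟩
  have : Commute a y := hc a ha
  exact (this.zpow_right i)

theorem edge_zpowers_zpowers {x y : G} (hx : orderOf x = p) (hy : orderOf y = p) (h : x * y = y * x) :
    Edge p G (Subgroup.zpowers x) (Subgroup.zpowers y) := by
  refine edge_of_commute (isEl_zpowers hx) (card_zpowers_of_order hx) hy ?_
  rintro _ ⟨i, rfl⟩
  have : Commute x y := h
  exact this.zpow_left i

theorem exists_central_order {P : Subgroup G} (hP : IsPGroup p P) (hne : P ≠ ⊥) :
    ∃ z ∈ P, orderOf z = p ∧ ∀ u ∈ P, u * z = z * u := by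
  have hnt : Nontrivial ↥P := (Subgroup.nontrivial_iff_ne_bot P).2 hne
  have hcn : Nontrivial ↥(Subgroup.center ↥P) := hP.center_nontrivial
  have hcp : IsPGroup p ↥(Subgroup.center ↥P) := hP.to_subgroup _
  obtain ⟨k, hk⟩ := hcp.exists_card_eq
  have hk0 : k ≠ 0 := by
    rintro rfl
    have : Nat.card ↥(Subgroup.center ↥P) = 1 := by simpa using hk
    have := (Nat.card_eq_one_iff_unique.1 this).1
    exact not_subsingleton _ this
  have hd : p ∣ Nat.card ↥(Subgroup.center ↥P) := by
    rw [hk]; exact dvd_pow_self p hk0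
  obtain ⟨z, hz⟩ := exists_prime_orderOf_dvd_card' p hd
  refine ⟨((z : ↥P) : G), (z : ↥P).2, ?_, ?_⟩
  · rw [Subgroup.orderOf_coe, Subgroup.orderOf_coe, hz]
  · intro u hu
    have := (Subgroup.mem_center_iff.1 z.2) ⟨u, hu⟩
    exact congrArg Subtype.val this

end

theorem result {G : Type*} [Group G] [Finite G] (p : ℕ) [Fact p.Prime] : (∃ H : Subgroup G, H ≠ ⊤ ∧ p ∣ Nat.card ↥H ∧ ∀ g : G, g ∉ H → ¬ p ∣ Nat.card ↥(H ⊓ H.map (MulAut.conj g).toMonoidHom)) ↔ ¬ Cfsg.IsKConnected p 1 G := by
  constructor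
  · rintro ⟨H, hne, hdvd, hse⟩ hconn
    obtain ⟨x', hx'⟩ := exists_prime_orderOf_dvd_card' p hdvd
    set x : G := (x' : G) with hxdef
    have hxH : x ∈ H := x'.2
    have hx : orderOf x = p := by rw [hxdef, Subgroup.orderOf_coe, hx']
    obtain ⟨g, hg⟩ : ∃ g, g ∉ H := by
      by_contra hcon
      push Not at hcon
      exact hne (eq_top_iff.2 fun y _ => hcon y)
    have hy : orderOf (g * x * g⁻¹) = p := by
      rw [← hx]
      exact orderOf_cj g x
    have hchain : Conn p G (Subgroup.zpowers x) (Subgroup.zpowers (g * x * g⁻¹)) :=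
      hconn _ _ (isEl_zpowers hx) (card_zpowers_of_order hx) (isEl_zpowers hy) (card_zpowers_of_order hy)
    have hstep : ∀ A B : Subgroup G, A ≤ H → Edge p G A B → B ≤ H := by
      intro A B hA hE b hb
      by_contra hbH
      apply hse b hbH
      have hle : A ≤ H ⊓ H.map (MulAut.conj b).toMonoidHom := by
        intro a ha
        refine ⟨hA ha, ?_⟩
        refine mem_cj.2 ?_
        have := hE.2.2.2.2 a ha b hb
        have e : b⁻¹ * a * b = a := by
          rw [mul_assoc, this]; simp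
        rw [e]
        exact hA ha
      exact (dvd_card_of_vertex hE.1 hE.2.1).trans (Subgroup.card_dvd_of_le hle)
    have hallH : ∀ B, Conn p G (Subgroup.zpowers x) B → B ≤ H := by
      intro B hB
      induction hB with
      | refl =>
        rw [Subgroup.zpowers_le]
        exact hxH
      | tail _ h ih => exact hstep _ _ ih h
    have h1 : Subgroup.zpowers (g * x * g⁻¹) ≤ H := hallH _ hchain
    apply hse g hg
    have h2 : Subgroup.zpowers (g * x * g⁻¹) ≤ H ⊓ H.map (MulAut.conj g).toMonoidHom := by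
      rw [Subgroup.zpowers_le]
      refine ⟨h1 (Subgroup.mem_zpowers _), ?_⟩
      exact ⟨x, hxH, rfl⟩
    exact (dvd_card_of_vertex (isEl_zpowers hy) (card_zpowers_of_order hy)).trans (Subgroup.card_dvd_of_le h2)
  · intro hnot
    unfold Cfsg.IsKConnected at hnot
    push Not at hnot
    obtain ⟨E, E', hE1, hE2, hE'1, hE'2, hnc⟩ := hnot
    have hnc' : ¬ Conn p G E E' := hnc
    -- the stabilizer of the component of E
    let H : Subgroup G :=
      { carrier := {g | ∀ A, Conn p G E A ↔ Conn p G E (cj g A)}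
        one_mem' := by
          intro A
          rw [cj_one]
        mul_mem' := by
          intro g h hg hh A
          rw [cj_mul, hh A, hg]
        inv_mem' := by
          intro g hg A
          have := hg (cj g⁻¹ A)
          rw [cj_inv_cj] at this
          exact this.symm }
    have hH : ∀ g, g ∈ H ↔ ∀ A, Conn p G E A ↔ Conn p G E (cj g A) := fun g => Iff.rfl
    -- Fact 2
    have hfact2 : ∀ (g : G) (A : Subgroup G), Conn p G E A → Conn p G E (cj g A) → g ∈ H := by
      intro g A hA hgA B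
      constructor
      · intro hB
        have h1 : Conn p G A B := (conn_symm hA).trans hB
        exact hgA.trans (conn_cj g h1)
      · intro hB
        have h1 : Conn p G (cj g A) (cj g B) := (conn_symm hgA).trans hB
        have h2 := conn_cj g⁻¹ h1
        rw [cj_cj_inv, cj_cj_inv] at h2
        exact hA.trans h2
    -- basic elements
    obtain ⟨x, hxE, hx⟩ := exists_order_p_of_vertex hE1 hE2
    have hEx : Conn p G E (Subgroup.zpowers x) := by
      refine Relation.ReflTransGen.single (edge_of_commute hE1 hE2 hx ?_)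
      intro a ha
      have := hE1.1.is_comm.comm ⟨a, ha⟩ ⟨x, hxE⟩
      exact congrArg Subtype.val this
    obtain ⟨P, hP⟩ := IsPGroup.exists_le_sylow (p := p) (P := Subgroup.zpowers x) (by
      have : IsPGroup p ↥(Subgroup.zpowers x) := by
        apply IsPGroup.of_card (n := 1)
        rw [Nat.card_zpowers, hx, pow_one]
      exact this)
    have hxP : x ∈ (P : Subgroup G) := hP (Subgroup.mem_zpowers x)
    have hPne : (P : Subgroup G) ≠ ⊥ := by
      intro hbot
      rw [hbot, Subgroup.mem_bot] at hxP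
      rw [hxP, orderOf_one] at hx
      exact (Fact.out : p.Prime).one_lt.ne hx
    obtain ⟨z, hzP, hz, hzc⟩ := exists_central_order P.isPGroup' hPne
    have hEz : Conn p G E (Subgroup.zpowers z) :=
      hEx.tail (edge_zpowers_zpowers hx hz (hzc x hxP))
    have hinP : ∀ y ∈ (P : Subgroup G), orderOf y = p → Conn p G E (Subgroup.zpowers y) := by
      intro y hy hyp
      exact hEz.tail (edge_zpowers_zpowers hz hyp (hzc y hy).symm)
    have hPH : (P : Subgroup G) ≤ H := by
      intro u hu
      refine hfact2 u (Subgroup.zpowers z) hEz ?_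
      have : cj u (Subgroup.zpowers z) = Subgroup.zpowers z := by
        rw [cj_zpowers]
        congr 1
        rw [hzc u hu]; simp
      rw [this]
      exact hEz
    have hclaim : ∀ y ∈ H, orderOf y = p → Conn p G E (Subgroup.zpowers y) := by
      intro y hyH hyp
      let Ph : Sylow p ↥H := P.subtype hPH
      have hyp' : orderOf (⟨y, hyH⟩ : ↥H) = p := by
        rw [Subgroup.orderOf_mk, hyp]
      have hpg : IsPGroup p ↥(Subgroup.zpowers (⟨y, hyH⟩ : ↥H)) := by
        apply IsPGroup.of_card (n := 1)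
        rw [Nat.card_zpowers, hyp', pow_one]
      obtain ⟨S, hS⟩ := hpg.exists_le_sylow
      obtain ⟨h, hh⟩ := MulAction.exists_smul_eq ↥H Ph S
      have hyS : (⟨y, hyH⟩ : ↥H) ∈ (S : Subgroup ↥H) := hS (Subgroup.mem_zpowers _)
      rw [← hh] at hyS
      have hmem : (h : G)⁻¹ * y * h ∈ (P : Subgroup G) := by
        have h2 : (⟨y, hyH⟩ : ↥H) ∈ MulAut.conj h • (Ph : Subgroup ↥H) := by
          rw [← Sylow.coe_subgroup_smul]
          exact hyS
        rw [Subgroup.mem_pointwise_smul_iff_inv_smul_mem] at h2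
        have h3 : (MulAut.conj h)⁻¹ • (⟨y, hyH⟩ : ↥H) ∈ (P : Subgroup G).subgroupOf H := h2
        rw [Subgroup.mem_subgroupOf] at h3
        simpa [MulAut.smul_def, MulAut.conj_inv_apply] using h3
      have hord : orderOf ((h : G)⁻¹ * y * h) = p := by
        have := orderOf_cj ((h : G)⁻¹) y
        simpa [mul_assoc] using this.trans hyp
      have h3 := hinP _ hmem hord
      have h4 : cj (h : G) (Subgroup.zpowers ((h : G)⁻¹ * y * h)) = Subgroup.zpowers y := by
        rw [cj_zpowers]
        congr 1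
        group
      have h5 := (hH h).1 h.2 _ |>.1 h3
      rwa [h4] at h5
    refine ⟨H, ?_, ?_, ?_⟩
    · intro htop
      obtain ⟨x', hx'E, hx'⟩ := exists_order_p_of_vertex hE'1 hE'2
      have h1 := hclaim x' (by rw [htop]; trivial) hx'
      have h2 : Conn p G (Subgroup.zpowers x') E' := by
        refine conn_symm (Relation.ReflTransGen.single (edge_of_commute hE'1 hE'2 hx' ?_))
        intro a ha
        have := hE'1.1.is_comm.comm ⟨a, ha⟩ ⟨x', hx'E⟩
        exact congrArg Subtype.val this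
      exact hnc' (h1.trans h2)
    · have : orderOf (⟨x, hPH hxP⟩ : ↥H) = p := by
        rw [Subgroup.orderOf_mk, hx]
      rw [← this]
      exact orderOf_dvd_natCard _
    · intro g hg hd
      obtain ⟨y', hy'⟩ := exists_prime_orderOf_dvd_card' p hd
      set y : G := (y' : G) with hydef
      have hy : orderOf y = p := by rw [hydef, Subgroup.orderOf_coe, hy']
      have hyH : y ∈ H := y'.2.1
      have hyHg : y ∈ H.map (MulAut.conj g).toMonoidHom := y'.2.2
      have hyHg' : g⁻¹ * y * g ∈ H := mem_cj.1 hyHg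
      have hord : orderOf (g⁻¹ * y * g) = p := by
        have := orderOf_cj (g⁻¹) y
        simpa [mul_assoc] using this.trans hy
      have h1 := hclaim _ hyHg' hord
      have h2 := hclaim _ hyH hy
      apply hg
      refine hfact2 g _ h1 ?_
      have h4 : cj g (Subgroup.zpowers (g⁻¹ * y * g)) = Subgroup.zpowers y := by
        rw [cj_zpowers]
        congr 1
        group
      rw [h4]
      exact h2

end Cfsg.Agent.S1336
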