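import Mathlib
import Cfsg.Statements.S1337
import Cfsg.Agent.Lib.NormalKlein
import Cfsg.Agent.Lib.OddPGroup

set_option autoImplicit false
open Cfsg

namespace Cfsg.Agent.S1337

universe u

section basics

variable {P : Type u} [Group P]

theorem ea_of_comm {p : ℕ} {A : Subgroup P} (h1 : ∀ a ∈ A, ∀ b ∈ A, a * b = b * a)
    (h2 : ∀ a ∈ A, a ^ p = 1) : Cfsg.IsElementaryAbelian p A :=
  ⟨⟨⟨fun a b => Subtype.ext (h1 a a.2 b b.2)⟩⟩, h2⟩

theorem ea_comm {p : ℕ} {A : Subgroup P} (h : Cfsg.IsElementaryAbelian p A) :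
    ∀ a ∈ A, ∀ b ∈ A, a * b = b * a := fun a ha b hb =>
  congrArg Subtype.val (h.1.is_comm.comm (⟨a, ha⟩ : ↥A) ⟨b, hb⟩)

/-- A subgroup with all `p`-th powers trivial in a cyclic group has order dividing `p`. -/
theorem card_dvd_of_cyclic_exp {C : Type*} [Group C] [Finite C] [IsCyclic C] {p : ℕ} (S : Subgroup C)
    (h : ∀ x ∈ S, x ^ p = 1) : Nat.card S ∣ p := by
  have h1 : Monoid.exponent ↥S = Nat.card S := IsCyclic.exponent_eq_card
  rw [← h1]
  apply Monoid.exponent_dvd_of_forall_pow_eq_one
  intro x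
  apply Subtype.ext
  simpa using h x x.2

/-- The join of two commuting elementary abelian subgroups. -/
theorem sup_ea {p : ℕ} {X Y : Subgroup P} (hX : Cfsg.IsElementaryAbelian p X)
    (hY : Cfsg.IsElementaryAbelian p Y) (hXY : ∀ a ∈ X, ∀ b ∈ Y, a * b = b * a) :
    Cfsg.IsElementaryAbelian p (X ⊔ Y) := by
  have hc := ea_comm hX
  have hd := ea_comm hY
  have h1 : X ⊔ Y ≤ Subgroup.centralizer (X : Set P) := by
    refine sup_le ?_ ?_
    · intro a ha
      rw [Subgroup.mem_centralizer_iff]
      intro b hb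
      exact hc b hb a ha
    · intro a ha
      rw [Subgroup.mem_centralizer_iff]
      intro b hb
      exact hXY b hb a ha
  have h2 : X ⊔ Y ≤ Subgroup.centralizer (Y : Set P) := by
    refine sup_le ?_ ?_
    · intro a ha
      rw [Subgroup.mem_centralizer_iff]
      intro b hb
      exact (hXY a ha b hb).symm
    · intro a ha
      rw [Subgroup.mem_centralizer_iff]
      intro b hb
      exact hd b hb a ha
  have h3 : X ⊔ Y ≤ Subgroup.centralizer ((X ⊔ Y : Subgroup P) : Set P) := by
    refine sup_le ?_ ?_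
    · exact Subgroup.le_centralizer_iff.1 h1
    · exact Subgroup.le_centralizer_iff.1 h2
  have hcomm : ∀ a ∈ X ⊔ Y, ∀ b ∈ X ⊔ Y, a * b = b * a := fun a ha b hb =>
    (Subgroup.mem_centralizer_iff.1 (h3 hb) a ha)
  refine ea_of_comm hcomm ?_
  let T : Subgroup P :=
    { carrier := {g | g ∈ X ⊔ Y ∧ g ^ p = 1}
      one_mem' := ⟨Subgroup.one_mem _, one_pow p⟩
      mul_mem' := by
        rintro g h ⟨hg, hg1⟩ ⟨hh, hh1⟩
        refine ⟨Subgroup.mul_mem _ hg hh, ?_⟩
        rw [(show Commute g h from hcomm g hg h hh).mul_pow, hg1, hh1, one_mul]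
      inv_mem' := by
        rintro g ⟨hg, hg1⟩
        exact ⟨Subgroup.inv_mem _ hg, by rw [inv_pow, hg1, inv_one]⟩ }
  have hT : X ⊔ Y ≤ T := by
    refine sup_le ?_ ?_
    · intro a ha
      exact ⟨Subgroup.mem_sup_left ha, hX.2 a ha⟩
    · intro a ha
      exact ⟨Subgroup.mem_sup_right ha, hY.2 a ha⟩
  exact fun a ha => (hT ha).2

/-- A witness for `¬ PRankLE`. -/
theorem not_rank_of_le {p : ℕ} {X D : Subgroup P} (hD : Cfsg.IsElementaryAbelian p D)
    (hcard : p ^ 2 < Nat.card D) (hDX : ∀ d ∈ D, ∀ x ∈ X, d * x = x * d) :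
    ¬ Cfsg.PRankLE p 2 ↥(Subgroup.centralizer (X : Set P)) := by
  intro h
  have hle : D ≤ Subgroup.centralizer (X : Set P) := by
    intro d hd
    rw [Subgroup.mem_centralizer_iff]
    intro x hx
    exact (hDX d hd x hx).symm
  have h1 := h (D.subgroupOf (Subgroup.centralizer (X : Set P)))
    ⟨⟨fun a b => by
      apply Subtype.ext
      apply Subtype.ext
      exact ea_comm hD _ a.2 _ b.2⟩⟩ (by
      intro a ha
      apply Subtype.ext
      simpa using hD.2 _ ha)
  have h2 : Nat.card ↥(D.subgroupOf (Subgroup.centralizer (X : Set P))) = Nat.card D :=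
    Nat.card_congr (Subgroup.subgroupOfEquivOfLe hle).toEquiv
  omega

end basics

section main

variable {P : Type u} [Group P] [Finite P]

/-- Existence of a normal `E_{p²}`. -/
theorem exists_U (p : ℕ) [hp : Fact p.Prime] (hP : IsPGroup p P) {E : Subgroup P}
    (hEp : ∀ a ∈ E, a ^ p = 1)
    (hEcard : p ^ 2 < Nat.card E) :
    ∃ U : Subgroup P, U.Normal ∧ (∀ a ∈ U, ∀ b ∈ U, a * b = b * a) ∧ (∀ a ∈ U, a ^ p = 1) ∧
      Nat.card U = p ^ 2 := by
  classical
  by_cases hp2 : p = 2
  · subst hp2
    obtain ⟨m, hm⟩ := IsPGroup.iff_card.1 (hP.to_subgroup E)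
    have hm3 : 3 ≤ m := by
      by_contra hlt
      have : m ≤ 2 := by omega
      have h2 : 2 ^ m ≤ 2 ^ 2 := Nat.pow_le_pow_right (by norm_num) this
      rw [hm] at hEcard
      omega
    have hdvd : 2 ^ 3 ∣ Nat.card E := by
      rw [hm]
      exact pow_dvd_pow 2 hm3
    obtain ⟨K, hK⟩ := Sylow.exists_subgroup_card_pow_prime 2 hdvd
    obtain ⟨A, hAn, hA4, hA2⟩ := Cfsg.Agent.Lib.NormalKlein.exists_normal_klein hP (K.map E.subtype)
      (by
        rw [Subgroup.card_map_of_injective E.subtype_injective, hK]; norm_num)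
      (by
        rintro _ ⟨k, _, rfl⟩
        exact hEp _ k.2)
    refine ⟨A, hAn, ?_, hA2, by simpa using hA4⟩
    intro a ha b hb
    have h1 := hA2 (a * b) (A.mul_mem ha hb)
    have h2 := hA2 a ha
    have h3 := hA2 b hb
    rw [pow_two] at h1 h2 h3
    have ha' : a⁻¹ = a := inv_eq_of_mul_eq_one_left h2
    have hb' : b⁻¹ = b := inv_eq_of_mul_eq_one_left h3
    have h4 : (a * b)⁻¹ = a * b := inv_eq_of_mul_eq_one_left h1
    rw [mul_inv_rev, ha', hb'] at h4
    exact h4.symm
  · obtain ⟨N, hNn, hNab, hNself⟩ := Cfsg.Agent.Lib.NormalKlein.exists_self_centralizing hP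
    by_cases hcyc : IsCyclic ↥N
    · exfalso
      obtain ⟨n, hn⟩ := IsPGroup.iff_card.1 (hP.to_subgroup N)
      have hcU : IsCyclic (ZMod (p ^ n))ˣ := ZMod.isCyclic_units_of_prime_pow p hp.out hp2 n
      have hcA : IsCyclic (MulAut ↥N) := by
        have e := IsCyclic.mulAutMulEquiv ↥N
        rw [hn] at e
        exact isCyclic_of_surjective e.symm.toMonoidHom e.symm.surjective
      have := hNn
      let ψ : ↥E →* MulAut ↥N := (MulAut.conjNormal : P →* MulAut ↥N).comp E.subtype
      have h1 : Nat.card ψ.range ∣ p := by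
        apply card_dvd_of_cyclic_exp
        rintro _ ⟨e, rfl⟩
        rw [← map_pow]
        have : e ^ p = 1 := Subtype.ext (by simpa using hEp e e.2)
        rw [this, map_one]
      have h2 : Nat.card ψ.ker ≤ p := by
        have hle : ∀ e : ψ.ker, ((e : ↥E) : P) ∈ N := by
          intro e
          apply hNself
          intro a ha
          have h3 : ψ (e : ↥E) = 1 := e.2
          have h4 := congrArg (fun f : MulAut ↥N => ((f ⟨a, ha⟩ : ↥N) : P)) h3
          simp only [ψ, MonoidHom.comp_apply, Subgroup.subtype_apply, MulAut.conjNormal_apply,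
            MulAut.one_apply] at h4
          rw [mul_inv_eq_iff_eq_mul] at h4
          exact h4
        let S : Subgroup ↥N := (E.subgroupOf N)
        have h5 : Nat.card S ∣ p := by
          apply card_dvd_of_cyclic_exp
          intro x hx
          apply Subtype.ext
          simpa using hEp _ hx
        have h6 : Nat.card ψ.ker ≤ Nat.card S := by
          let f : ψ.ker → S := fun e => ⟨⟨((e : ↥E) : P), hle e⟩, by
            rw [Subgroup.mem_subgroupOf]
            exact (e : ↥E).2⟩
          refine Nat.card_le_card_of_injective f ?_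
          intro e e' h
          have := congrArg (fun z : S => ((z : ↥N) : P)) h
          exact Subtype.ext (Subtype.ext this)
        exact h6.trans (Nat.le_of_dvd hp.out.pos h5)
      have h3 : Nat.card ψ.ker * Nat.card ψ.range = Nat.card E := by
        have := Subgroup.card_mul_index ψ.ker
        rwa [Subgroup.index_ker] at this
      have h4 := Nat.le_of_dvd hp.out.pos h1
      have h5 : Nat.card E ≤ p * p := by
        rw [← h3]
        exact Nat.mul_le_mul h2 h4
      rw [pow_two] at hEcard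
      omega
    · obtain ⟨A, _, hAn, hAc, hAp, hAcard⟩ :=
        Cfsg.Agent.Lib.OddPGroup.exists_normal_p2_of_abelian hp2 hP N hNn hNab hcyc
      exact ⟨A, hAn, hAc, hAp, hAcard⟩

/-- The index of the centralizer of a normal `E_{p²}`. -/
theorem index_centralizer_dvd (p : ℕ) [hp : Fact p.Prime] (hP : IsPGroup p P) {U : Subgroup P}
    (hUn : U.Normal) (hUc : ∀ a ∈ U, ∀ b ∈ U, a * b = b * a) (hUp : ∀ a ∈ U, a ^ p = 1)
    (hUcard : Nat.card U = p ^ 2) :
    (Subgroup.centralizer (U : Set P)).index ∣ p := by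
  classical
  have hpp := hp.out
  by_cases hall : U ≤ Subgroup.center P
  · have : Subgroup.centralizer (U : Set P) = ⊤ := by
      rw [eq_top_iff]
      intro g _
      rw [Subgroup.mem_centralizer_iff]
      intro u hu
      exact (Subgroup.mem_center_iff.1 (hall hu) g).symm
    rw [this, Subgroup.index_top]
    exact one_dvd p
  · have hUbot : U ≠ ⊥ := by
      rintro rfl
      exact hall bot_le
    obtain ⟨u₀, hu₀, hu₀1, hu₀c⟩ := Cfsg.Agent.Lib.NormalKlein.exists_central_of_normal hP U hUn hUbot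
    obtain ⟨u₁, hu₁, hu₁c⟩ := SetLike.not_le_iff_exists.1 hall
    -- `U = ⟨u₀, u₁⟩`
    have hsup : U ≤ Subgroup.zpowers u₀ ⊔ Subgroup.zpowers u₁ := by
      set V := Subgroup.zpowers u₀ ⊔ Subgroup.zpowers u₁ with hV
      have hVU : V ≤ U := sup_le ((Subgroup.zpowers_le).2 hu₀) ((Subgroup.zpowers_le).2 hu₁)
      have h1 : Nat.card (Subgroup.zpowers u₀) = p := by
        rw [Nat.card_zpowers]
        exact orderOf_eq_prime (hUp u₀ hu₀) hu₀1
      have h2 : Subgroup.zpowers u₀ < V := by
        refine lt_of_le_of_ne le_sup_left ?_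
        intro h
        have hu₁V : u₁ ∈ V := Subgroup.mem_sup_right (Subgroup.mem_zpowers u₁)
        rw [← h] at hu₁V
        obtain ⟨k, rfl⟩ := hu₁V
        exact hu₁c (Subgroup.zpow_mem _ hu₀c k)
      have h3 : Nat.card V ∣ p ^ 2 := hUcard ▸ Subgroup.card_dvd_of_le hVU
      obtain ⟨k, hk, hk'⟩ := (Nat.dvd_prime_pow hpp).1 h3
      have h4 : p < Nat.card V := by
        rw [← h1]
        by_contra hcon
        exact h2.ne (Subgroup.eq_of_le_of_card_ge h2.le (not_lt.1 hcon))
      have hk2 : k = 2 := by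
        interval_cases k
        · rw [hk', pow_zero] at h4
          have := hpp.pos
          omega
        · rw [hk', pow_one] at h4
          omega
        · rfl
      have h5 : V = U := by
        apply Subgroup.eq_of_le_of_card_ge hVU
        rw [hk', hk2, hUcard]
      exact h5.ge
    have hle : Subgroup.centralizer ({u₁} : Set P) ≤ Subgroup.centralizer (U : Set P) := by
      intro g hg
      have h1 : U ≤ Subgroup.centralizer ({g} : Set P) := by
        refine hsup.trans (sup_le ?_ ?_)
        · rw [Subgroup.zpowers_le, Subgroup.mem_centralizer_singleton_iff]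
          exact (Subgroup.mem_center_iff.1 hu₀c g).symm
        · rw [Subgroup.zpowers_le, Subgroup.mem_centralizer_singleton_iff]
          exact (Subgroup.mem_centralizer_singleton_iff.1 hg).symm
      rw [Subgroup.mem_centralizer_iff]
      intro u hu
      exact (Subgroup.mem_centralizer_singleton_iff.1 (h1 hu))
    refine (Subgroup.index_dvd_of_le hle).trans ?_
    -- the orbit of `u₁`
    obtain ⟨k, hk⟩ := IsPGroup.index hP (Subgroup.centralizer ({u₁} : Set P))
    have hbound : (Subgroup.centralizer ({u₁} : Set P)).index < p ^ 2 := by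
      let f : P ⧸ Subgroup.centralizer ({u₁} : Set P) → {u : ↥U // u ≠ 1} :=
        Quotient.lift (fun g : P => (⟨⟨g * u₁ * g⁻¹, hUn.conj_mem u₁ hu₁ g⟩, by
            intro h
            have h2 := congrArg Subtype.val h
            have h3 : g * u₁ * g⁻¹ = 1 := h2
            have h4 : u₁ = 1 := by simpa using h3
            rw [h4] at hu₁c
            exact hu₁c (Subgroup.one_mem _)⟩ : {u : ↥U // u ≠ 1}))
          (by
            intro a b hab
            have hab' : a⁻¹ * b ∈ Subgroup.centralizer ({u₁} : Set P) :=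
              QuotientGroup.leftRel_apply.1 hab
            have h1 := Subgroup.mem_centralizer_singleton_iff.1 hab'
            apply Subtype.ext
            apply Subtype.ext
            change a * u₁ * a⁻¹ = b * u₁ * b⁻¹
            have h2 : b * u₁ = a * (a⁻¹ * b * u₁) := by group
            rw [h2, h1]
            group)
      have hf : Function.Injective f := by
        intro a b
        refine Quotient.inductionOn₂ a b ?_
        intro a b hab
        have h1 : a * u₁ * a⁻¹ = b * u₁ * b⁻¹ := congrArg (fun z : {u : ↥U // u ≠ 1} => ((z : ↥U) : P)) hab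
        apply Quotient.sound
        apply QuotientGroup.leftRel_apply.2
        rw [Subgroup.mem_centralizer_singleton_iff]
        calc a⁻¹ * b * u₁ = a⁻¹ * (b * u₁ * b⁻¹) * b := by group
          _ = a⁻¹ * (a * u₁ * a⁻¹) * b := by rw [h1]
          _ = u₁ * (a⁻¹ * b) := by group
      have h1 := Nat.card_le_card_of_injective f hf
      have h2 : Nat.card {u : ↥U // u ≠ 1} < Nat.card U := by
        have := Fintype.ofFinite ↥U
        rw [Nat.card_eq_fintype_card, Nat.card_eq_fintype_card]
        exact Fintype.card_subtype_lt (x := (1 : ↥U)) (by simp)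
      rw [Subgroup.index, hUcard.symm]
      exact lt_of_le_of_lt h1 h2
    rw [hk] at hbound ⊢
    have hk2 : k < 2 := (Nat.pow_lt_pow_iff_right hpp.one_lt).1 hbound
    simpa using pow_dvd_pow p (show k ≤ 1 by omega)

/-- The subgroup of `F` centralizing `U` is large. -/
theorem card_inf_centralizer (p : ℕ) [hp : Fact p.Prime] (hP : IsPGroup p P) {U F : Subgroup P}
    (hUn : U.Normal) (hUc : ∀ a ∈ U, ∀ b ∈ U, a * b = b * a) (hUp : ∀ a ∈ U, a ^ p = 1)
    (hUcard : Nat.card U = p ^ 2) (hF : p ^ 2 < Nat.card F) :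
    p ^ 2 ≤ Nat.card ↥(F ⊓ Subgroup.centralizer (U : Set P)) := by
  classical
  have hpp := hp.out
  set C := Subgroup.centralizer (U : Set P) with hC
  have : C.Normal := Subgroup.normal_centralizer
  have h1 : C.relIndex F ∣ p := (Subgroup.relIndex_dvd_index_of_normal C F).trans
    (index_centralizer_dvd p hP hUn hUc hUp hUcard)
  have h2 : Nat.card ↥(C.subgroupOf F) * C.relIndex F = Nat.card F := Subgroup.card_mul_index _
  have h3 : Nat.card ↥(C.subgroupOf F) = Nat.card ↥(F ⊓ C) := by
    have h4 : C.subgroupOf F = (F ⊓ C).subgroupOf F := by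
      ext x
      simp [Subgroup.mem_subgroupOf]
    rw [h4]
    exact Nat.card_congr (Subgroup.subgroupOfEquivOfLe inf_le_left).toEquiv
  obtain ⟨m, hm⟩ := IsPGroup.iff_card.1 (hP.to_subgroup F)
  have hm3 : 3 ≤ m := by
    by_contra hlt
    have h4 : m ≤ 2 := by omega
    have h5 : p ^ m ≤ p ^ 2 := Nat.pow_le_pow_right hpp.pos h4
    rw [hm] at hF
    omega
  have h5 : p ^ 3 ≤ Nat.card F := by
    rw [hm]
    exact Nat.pow_le_pow_right hpp.pos hm3
  have h6 : C.relIndex F ≤ p := Nat.le_of_dvd hpp.pos h1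
  rw [h3] at h2
  have h7 : p ^ 3 ≤ Nat.card ↥(F ⊓ C) * p := by
    calc p ^ 3 ≤ Nat.card F := h5
      _ = Nat.card ↥(F ⊓ C) * C.relIndex F := h2.symm
      _ ≤ _ := Nat.mul_le_mul_left _ h6
  have h8 : p ^ 2 * p ≤ Nat.card ↥(F ⊓ C) * p := by
    rw [← pow_succ]
    exact h7
  exact Nat.le_of_mul_le_mul_right h8 hpp.pos

end main

/-- Let P be a finite p-group of p-rank greater than 2. Then P has a normal elementary abelian subgroup U of order p², and for every elementary abelian X ≤ P with |X| ≥ p²: X is joined to U by a chain of pairwise commuting elementary abelian subgroups of order ≥ p² if and only if C_P(X) has p-rank greater than 2. -/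
theorem result {P : Type*} [Group P] [Finite P] (p : ℕ) [Fact p.Prime] (hP : IsPGroup p P) (hrk : ¬ Cfsg.PRankLE p 2 P) : ∃ U : Subgroup P, U.Normal ∧ Cfsg.IsElementaryAbelian p U ∧ Nat.card ↥U = p ^ 2 ∧ ∀ X : Subgroup P, Cfsg.IsElementaryAbelian p X → p ^ 2 ≤ Nat.card ↥X → (Relation.ReflTransGen (fun A B : Subgroup P => Cfsg.IsElementaryAbelian p A ∧ p ^ 2 ≤ Nat.card ↥A ∧ Cfsg.IsElementaryAbelian p B ∧ p ^ 2 ≤ Nat.card ↥B ∧ ∀ a ∈ A, ∀ b ∈ B, a * b = b * a) X U ↔ ¬ Cfsg.PRankLE p 2 ↥(Subgroup.centralizer (X : Set P))) := by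
  classical
  have hpp : p.Prime := Fact.out
  -- the big elementary abelian subgroup
  have hE : ∃ E : Subgroup P, IsMulCommutative E ∧ (∀ a ∈ E, a ^ p = 1) ∧ p ^ 2 < Nat.card E := by
    by_contra hcon
    push Not at hcon
    exact hrk hcon
  obtain ⟨E, hEc, hEp, hEcard⟩ := hE
  have hEea : Cfsg.IsElementaryAbelian p E := ⟨hEc, hEp⟩
  obtain ⟨U, hUn, hUc, hUp, hUcard⟩ := exists_U p hP hEp hEcard
  have hUea : Cfsg.IsElementaryAbelian p U := ea_of_comm hUc hUp
  -- the vertex property of `U`
  have hVU : ¬ Cfsg.PRankLE p 2 ↥(Subgroup.centralizer (U : Set P)) := by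
    set E₁ : Subgroup P := E ⊓ Subgroup.centralizer (U : Set P) with hE₁
    have hE₁card : p ^ 2 ≤ Nat.card E₁ := card_inf_centralizer p hP hUn hUc hUp hUcard hEcard
    have hE₁ea : Cfsg.IsElementaryAbelian p E₁ :=
      ea_of_comm (fun a ha b hb => ea_comm hEea a ha.1 b hb.1) (fun a ha => hEp a ha.1)
    have hE₁U : ∀ a ∈ E₁, ∀ b ∈ U, a * b = b * a := fun a ha b hb =>
      (Subgroup.mem_centralizer_iff.1 ha.2 b hb).symm
    by_cases hcase : E₁ ≤ U
    · have h1 : E₁ = U := Subgroup.eq_of_le_of_card_ge hcase (by rw [hUcard]; exact hE₁card)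
      refine not_rank_of_le hEea hEcard ?_
      intro d hd x hx
      rw [← h1] at hx
      exact ea_comm hEea d hd x hx.1
    · have h1 := sup_ea hE₁ea hUea hE₁U
      refine not_rank_of_le h1 ?_ ?_
      · by_contra hle
        have h2 : U = E₁ ⊔ U := Subgroup.eq_of_le_of_card_ge le_sup_right (by
          rw [hUcard]
          omega)
        exact hcase (h2 ▸ le_sup_left)
      · intro d hd x hx
        exact ea_comm h1 d hd x (Subgroup.mem_sup_right hx)
  refine ⟨U, hUn, hUea, hUcard, ?_⟩
  intro X hXea hXcard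
  constructor
  · intro hchain
    induction hchain using Relation.ReflTransGen.head_induction_on with
    | refl => exact hVU
    | @head A B hab _ ih =>
      obtain ⟨hA, hAc, hB, hBc, hAB⟩ := hab
      by_cases heq : A = B
      · rw [heq]; exact ih hB hBc
      · have h1 := sup_ea hA hB hAB
        refine not_rank_of_le h1 ?_ ?_
        · by_contra hle
          have h2 : A = A ⊔ B := Subgroup.eq_of_le_of_card_ge le_sup_left (by omega)
          have h3 : B = A ⊔ B := Subgroup.eq_of_le_of_card_ge le_sup_right (by omega)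
          exact heq (h2.trans h3.symm)
        · intro d hd x hx
          exact ea_comm h1 d hd x (Subgroup.mem_sup_left hx)
  · intro hV
    have hF : ∃ F' : Subgroup ↥(Subgroup.centralizer (X : Set P)), IsMulCommutative F' ∧
        (∀ a ∈ F', a ^ p = 1) ∧ p ^ 2 < Nat.card F' := by
      by_contra hcon
      push Not at hcon
      exact hV hcon
    obtain ⟨F', hF'c, hF'p, hF'card⟩ := hF
    set F : Subgroup P := F'.map (Subgroup.centralizer (X : Set P)).subtype with hFdef
    have hFcard : p ^ 2 < Nat.card F := by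
      rw [hFdef, Subgroup.card_map_of_injective (Subgroup.subtype_injective _)]
      exact hF'card
    have hFea : Cfsg.IsElementaryAbelian p F := by
      refine ea_of_comm ?_ ?_
      · rintro _ ⟨a, ha, rfl⟩ _ ⟨b, hb, rfl⟩
        exact congrArg Subtype.val (congrArg Subtype.val (hF'c.is_comm.comm (⟨a, ha⟩ : ↥F') ⟨b, hb⟩))
      · rintro _ ⟨a, ha, rfl⟩
        have := hF'p a ha
        simpa using congrArg Subtype.val this
    have hFX : ∀ a ∈ X, ∀ b ∈ F, a * b = b * a := by
      rintro a ha _ ⟨b, _, rfl⟩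
      exact (Subgroup.mem_centralizer_iff.1 b.2 a ha)
    set F₁ : Subgroup P := F ⊓ Subgroup.centralizer (U : Set P) with hF₁
    have hF₁card : p ^ 2 ≤ Nat.card F₁ := card_inf_centralizer p hP hUn hUc hUp hUcard hFcard
    have hF₁ea : Cfsg.IsElementaryAbelian p F₁ :=
      ea_of_comm (fun a ha b hb => ea_comm hFea a ha.1 b hb.1) (fun a ha => hFea.2 a ha.1)
    refine Relation.ReflTransGen.head ⟨hXea, hXcard, hFea, hFcard.le, hFX⟩
      (Relation.ReflTransGen.head ⟨hFea, hFcard.le, hF₁ea, hF₁card, fun a ha b hb =>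
        ea_comm hFea a ha b hb.1⟩
      (Relation.ReflTransGen.single ⟨hF₁ea, hF₁card, hUea, hUcard.ge, fun a ha b hb =>
        (Subgroup.mem_centralizer_iff.1 ha.2 b hb).symm⟩))

end Cfsg.Agent.S1337
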