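import Mathlib
import Cfsg.Statements.S1338
import Cfsg.Agent.S1337
import Cfsg.Agent.Lib.NormalKlein

set_option autoImplicit false
set_option linter.unusedSectionVars false
set_option linter.style.haveILetI false
open Cfsg

namespace Cfsg.Agent.S1338

open Cfsg.Agent.S1337

universe u

/-- Fixed points of a function of order dividing three. -/
theorem card_modEq_of_pow3 {α : Type*} [Finite α] (f : α → α) (hf : ∀ a, f (f (f a)) = a) :
    Nat.card α ≡ Nat.card {a // f a = a} [MOD 3] := by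
  classical
  have := Fintype.ofFinite α
  have h3 : Fact (Nat.Prime 3) := ⟨Nat.prime_three⟩
  let F : Function.End α := f
  have h1 : F ^ 3 ^ 1 = 1 := by
    have e : F ^ 3 ^ 1 = F * F * F := by
      rw [pow_one, pow_succ, pow_succ, pow_succ, pow_zero, one_mul]
    rw [e]
    funext a
    exact hf a
  have h2 := Equiv.Perm.card_fixedPoints_modEq (p := 3) (n := 1) (f := F) h1
  have h4 : Nat.card {a // f a = a} = Fintype.card ↑(Function.fixedPoints f) := by
    rw [Nat.card_eq_fintype_card]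
    rfl
  rw [Nat.card_eq_fintype_card, h4]
  exact h2

variable {P : Type u} [Group P] [Finite P]

/-- If `x`, `e` have order dividing `3` and their commutator has order dividing `3` and commutes
with both, then `x * e` has order dividing three. -/
theorem cube_mul {x e n : P} (hx : x ^ 3 = 1) (he : e ^ 3 = 1) (hn : n ^ 3 = 1)
    (hnx : x * n = n * x) (hne : e * n = n * e) (h : e * x = n * x * e) : (x * e) ^ 3 = 1 := by
  have hn' : n * x = x * n := hnx.symm
  have hen : e * n = n * e := hne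
  calc (x * e) ^ 3 = x * (e * x) * (e * x) * e := by simp only [pow_succ, pow_zero, one_mul, mul_assoc]
    _ = x * (n * x * e) * (n * x * e) * e := by rw [h]
    _ = n * x * x * (e * n) * x * e * e := by
        rw [show x * (n * x * e) = n * x * x * e by rw [← mul_assoc x, ← mul_assoc x, hnx]]
        simp only [mul_assoc]
    _ = n * n * (x * x * (e * x)) * e * e := by
        rw [hen]
        simp only [mul_assoc]
        rw [show x * (x * (n * (e * (x * (e * e))))) = n * (x * (x * (e * (x * (e * e))))) by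
          rw [← mul_assoc x n, hnx, ← mul_assoc x (n * _)]
          rw [← mul_assoc x n, hnx]
          simp only [mul_assoc]]
    _ = n * n * (x * x * (n * x * e)) * e * e := by rw [h]
    _ = n * n * n * (x * x * x) * (e * e * e) := by
        rw [show x * x * (n * x * e) = n * (x * x * x * e) by
          rw [← mul_assoc (x * x) (n * x) e, ← mul_assoc (x * x) n x]
          rw [mul_assoc x x n, hnx, ← mul_assoc x n x, hnx]
          simp only [mul_assoc]]
        simp only [mul_assoc]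
    _ = 1 := by
        have h1 : n * n * n = 1 := by rw [← hn]; simp only [pow_succ, pow_zero, one_mul]
        have h2 : x * x * x = 1 := by rw [← hx]; simp only [pow_succ, pow_zero, one_mul]
        have h3 : e * e * e = 1 := by rw [← he]; simp only [pow_succ, pow_zero, one_mul]
        rw [h1, h2, h3, one_mul, one_mul]

/-- Lemma A: central lift. -/
theorem exists_central_lift (hP : IsPGroup 3 P) (N : Subgroup P) [hN : N.Normal]
    (hNp : ∀ a ∈ N, a ^ 3 = 1)
    {e : P} (heC : ∀ a ∈ N, e * a = a * e) (he3 : e ^ 3 = 1) (heN : e ∉ N) :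
    ∃ x : P, (∀ a ∈ N, x * a = a * x) ∧ x ^ 3 = 1 ∧ x ∉ N ∧ ∀ g : P, g * x * g⁻¹ * x⁻¹ ∈ N := by
  classical
  have h3 : Fact (Nat.Prime 3) := ⟨Nat.prime_three⟩
  -- the quotient
  let Q := P ⧸ N
  have hQ : IsPGroup 3 Q := hP.to_quotient N
  let S : Set Q := {q | ∃ x : P, (∀ a ∈ N, x * a = a * x) ∧ x ^ 3 = 1 ∧ (x : Q) = q}
  have hS1 : (1 : Q) ∈ S := ⟨1, by simp, one_pow 3, rfl⟩
  have hconj : ∀ (g : Q) (q : Q), q ∈ S → g * q * g⁻¹ ∈ S := by
    rintro g _ ⟨x, hxa, hx3, rfl⟩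
    obtain ⟨g', rfl⟩ := QuotientGroup.mk_surjective g
    refine ⟨g' * x * g'⁻¹, ?_, ?_, rfl⟩
    · intro a ha
      have h1 : g'⁻¹ * a * g' ∈ N := by
        have := hN.conj_mem a ha g'⁻¹
        simpa using this
      have h2 := hxa _ h1
      calc g' * x * g'⁻¹ * a = g' * (x * (g'⁻¹ * a * g')) * g'⁻¹ := by group
        _ = g' * ((g'⁻¹ * a * g') * x) * g'⁻¹ := by rw [h2]
        _ = _ := by group
    · rw [conj_pow, hx3]; group
  let ebar : Q := (e : Q)
  have heS : ebar ∈ S := ⟨e, heC, he3, rfl⟩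
  have he1 : ebar ≠ 1 := fun h => heN ((QuotientGroup.eq_one_iff e).1 h)
  have he3' : ebar ^ 3 = 1 := by
    change ((e ^ 3 : P) : Q) = 1
    rw [he3]
    rfl
  have he3'' : ebar * ebar * ebar = 1 := by
    rw [← he3']
    simp only [pow_succ, pow_zero, one_mul]
  -- the conjugation map on `S`
  let σ : S → S := fun q => ⟨ebar * q * ebar⁻¹, hconj _ _ q.2⟩
  have hσ : ∀ q, σ (σ (σ q)) = q := by
    intro q
    apply Subtype.ext
    change ebar * (ebar * (ebar * (q : Q) * ebar⁻¹) * ebar⁻¹) * ebar⁻¹ = q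
    have : ebar * (ebar * (ebar * (q : Q) * ebar⁻¹) * ebar⁻¹) * ebar⁻¹ =
        (ebar * ebar * ebar) * (q : Q) * (ebar * ebar * ebar)⁻¹ := by group
    rw [this, he3'']
    group
  have h1 := card_modEq_of_pow3 σ hσ
  -- translation on the fixed points
  have hfix : ∀ q : S, σ q = q → (q : Q) * ebar ∈ S := by
    rintro ⟨_, x, hxa, hx3, rfl⟩ hq
    have h2 : ebar * (x : Q) * ebar⁻¹ = (x : Q) := congrArg Subtype.val hq
    have h3' : ((e * x * e⁻¹ * x⁻¹ : P) : Q) = 1 := by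
      change ebar * (x : Q) * ebar⁻¹ * (x : Q)⁻¹ = 1
      rw [h2]; group
    have hnN : e * x * e⁻¹ * x⁻¹ ∈ N := (QuotientGroup.eq_one_iff _).1 h3'
    refine ⟨x * e, ?_, ?_, rfl⟩
    · intro a ha
      rw [mul_assoc, heC a ha, ← mul_assoc, hxa a ha, mul_assoc]
    · refine cube_mul hx3 he3 (hNp _ hnN) ?_ ?_ ?_
      · exact hxa _ hnN
      · exact heC _ hnN
      · group
  let T := {q : S // σ q = q}
  let τ : T → T := fun q => ⟨⟨(q.1 : Q) * ebar, hfix q.1 q.2⟩, by
    apply Subtype.ext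
    change ebar * ((q.1 : Q) * ebar) * ebar⁻¹ = (q.1 : Q) * ebar
    have h2 : ebar * (q.1 : Q) * ebar⁻¹ = (q.1 : Q) := congrArg Subtype.val q.2
    calc ebar * ((q.1 : Q) * ebar) * ebar⁻¹ = (ebar * (q.1 : Q) * ebar⁻¹) * ebar := by group
      _ = _ := by rw [h2]⟩
  have hτ : ∀ q, τ (τ (τ q)) = q := by
    intro q
    apply Subtype.ext
    apply Subtype.ext
    change (q.1 : Q) * ebar * ebar * ebar = (q.1 : Q)
    have : (q.1 : Q) * ebar * ebar * ebar = (q.1 : Q) * (ebar * ebar * ebar) := by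
      simp only [mul_assoc]
    rw [this, he3'', mul_one]
  have h2 := card_modEq_of_pow3 τ hτ
  have hempty : IsEmpty {a // τ a = a} := by
    constructor
    rintro ⟨q, hq⟩
    have h4 : (q.1 : Q) * ebar = (q.1 : Q) := congrArg (fun z : T => ((z.1 : S) : Q)) hq
    exact he1 (by simpa using h4)
  have h5 : Nat.card {a // τ a = a} = 0 := Nat.card_of_isEmpty
  rw [h5] at h2
  -- so `3` divides the order of `S`
  have h6 : Nat.card S ≡ 0 [MOD 3] := h1.trans h2
  -- the conjugation action of `Q` on `S`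
  letI act : MulAction Q S :=
    { smul := fun g q => ⟨g * q * g⁻¹, hconj _ _ q.2⟩
      one_smul := fun q => Subtype.ext (by
        change (1 : Q) * (q : Q) * (1 : Q)⁻¹ = q
        group)
      mul_smul := fun g h q => Subtype.ext (by
        change (g * h) * (q : Q) * (g * h)⁻¹ = g * (h * (q : Q) * h⁻¹) * g⁻¹
        group) }
  have h7 := hQ.card_modEq_card_fixedPoints S
  have h8 : Nat.card (MulAction.fixedPoints Q S) ≡ 0 [MOD 3] := h7.symm.trans h6
  let one' : MulAction.fixedPoints Q S := ⟨⟨1, hS1⟩, by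
    intro g
    apply Subtype.ext
    change g * (1 : Q) * g⁻¹ = 1
    group⟩
  have h9 : 1 < Nat.card (MulAction.fixedPoints Q S) := by
    have hpos : 0 < Nat.card (MulAction.fixedPoints Q S) :=
      Nat.card_pos_iff.2 ⟨⟨one'⟩, inferInstance⟩
    have := (Nat.modEq_zero_iff_dvd.1 h8)
    have h10 := Nat.le_of_dvd hpos this
    omega
  have hnt : Nontrivial (MulAction.fixedPoints Q S) := Finite.one_lt_card_iff_nontrivial.1 h9
  obtain ⟨q, hq⟩ := exists_ne one'
  obtain ⟨⟨_, x, hxa, hx3, rfl⟩, hqfix⟩ := q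
  refine ⟨x, hxa, hx3, ?_, ?_⟩
  · intro hxN
    apply hq
    apply Subtype.ext
    apply Subtype.ext
    exact (QuotientGroup.eq_one_iff x).2 hxN
  · intro g
    have h11 := hqfix (g : Q)
    have h12 : (g : Q) * (x : Q) * (g : Q)⁻¹ = (x : Q) := congrArg Subtype.val h11
    apply (QuotientGroup.eq_one_iff _).1
    change (g : Q) * (x : Q) * (g : Q)⁻¹ * (x : Q)⁻¹ = 1
    rw [h12]
    group

/-- The commutator homomorphism. -/
def commHom (E R : Subgroup P) (e : P) (hR : ∀ a ∈ R, ∀ b ∈ R, a * b = b * a)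
    (h1 : ∀ x ∈ E, x * e * x⁻¹ * e⁻¹ ∈ R) (h2 : ∀ x ∈ E, ∀ r ∈ R, x * r = r * x) : ↥E →* ↥R where
  toFun x := ⟨(x : P) * e * (x : P)⁻¹ * e⁻¹, h1 x x.2⟩
  map_one' := by
    apply Subtype.ext
    simp
  map_mul' x y := by
    apply Subtype.ext
    change ((x * y : ↥E) : P) * e * ((x * y : ↥E) : P)⁻¹ * e⁻¹ =
      ((x : P) * e * (x : P)⁻¹ * e⁻¹) * ((y : P) * e * (y : P)⁻¹ * e⁻¹)
    have hr1 := h1 x x.2
    have hr2 := h1 y y.2
    have h3 := hR _ hr1 _ hr2
    rw [h3]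
    have h4 := h2 x x.2 _ hr2
    simp only [Subgroup.coe_mul]
    calc (x : P) * y * e * ((x : P) * y)⁻¹ * e⁻¹
        = (x : P) * ((y : P) * e * (y : P)⁻¹ * e⁻¹) * (x : P)⁻¹ * ((x : P) * e * (x : P)⁻¹ * e⁻¹) := by group
      _ = ((y : P) * e * (y : P)⁻¹ * e⁻¹) * (x : P) * (x : P)⁻¹ * ((x : P) * e * (x : P)⁻¹ * e⁻¹) := by rw [h4]
      _ = _ := by group

theorem card_ker_commHom {E R : Subgroup P} {e : P} (hR : ∀ a ∈ R, ∀ b ∈ R, a * b = b * a)
    (h1 : ∀ x ∈ E, x * e * x⁻¹ * e⁻¹ ∈ R) (h2 : ∀ x ∈ E, ∀ r ∈ R, x * r = r * x) :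
    Nat.card (commHom E R e hR h1 h2).ker = Nat.card ↥(E ⊓ Subgroup.centralizer ({e} : Set P)) := by
  have h3 : (commHom E R e hR h1 h2).ker = (E ⊓ Subgroup.centralizer ({e} : Set P)).subgroupOf E := by
    ext x
    rw [MonoidHom.mem_ker, Subgroup.mem_subgroupOf]
    constructor
    · intro h
      have h4 : (x : P) * e * (x : P)⁻¹ * e⁻¹ = 1 := congrArg Subtype.val h
      refine ⟨x.2, ?_⟩
      change (x : P) ∈ Subgroup.centralizer ({e} : Set P)
      rw [Subgroup.mem_centralizer_singleton_iff]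
      rw [mul_inv_eq_one, mul_inv_eq_iff_eq_mul] at h4
      exact h4
    · rintro ⟨-, h⟩
      have h' : (x : P) ∈ Subgroup.centralizer ({e} : Set P) := h
      rw [Subgroup.mem_centralizer_singleton_iff] at h'
      apply Subtype.ext
      change (x : P) * e * (x : P)⁻¹ * e⁻¹ = 1
      rw [h']
      group
  rw [h3]
  exact Nat.card_congr (Subgroup.subgroupOfEquivOfLe inf_le_left).toEquiv

theorem card_eq_commHom {E R : Subgroup P} {e : P} (hR : ∀ a ∈ R, ∀ b ∈ R, a * b = b * a)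
    (h1 : ∀ x ∈ E, x * e * x⁻¹ * e⁻¹ ∈ R) (h2 : ∀ x ∈ E, ∀ r ∈ R, x * r = r * x) :
    Nat.card E = Nat.card ↥(E ⊓ Subgroup.centralizer ({e} : Set P)) *
      Nat.card (commHom E R e hR h1 h2).range := by
  have h3 := Subgroup.card_mul_index (commHom E R e hR h1 h2).ker
  rw [Subgroup.index_ker, card_ker_commHom] at h3
  exact h3.symm

/-- The cardinality bound. -/
theorem card_le_mul {E R : Subgroup P} {e : P} (hR : ∀ a ∈ R, ∀ b ∈ R, a * b = b * a)
    (h1 : ∀ x ∈ E, x * e * x⁻¹ * e⁻¹ ∈ R) (h2 : ∀ x ∈ E, ∀ r ∈ R, x * r = r * x) :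
    Nat.card E ≤ Nat.card ↥(E ⊓ Subgroup.centralizer ({e} : Set P)) * Nat.card R := by
  rw [card_eq_commHom hR h1 h2]
  apply Nat.mul_le_mul_left
  exact Subgroup.card_le_card_group _

/-- Surjectivity when the cardinalities are extremal. -/
theorem comm_surj {E R : Subgroup P} {e : P} (hR : ∀ a ∈ R, ∀ b ∈ R, a * b = b * a)
    (h1 : ∀ x ∈ E, x * e * x⁻¹ * e⁻¹ ∈ R) (h2 : ∀ x ∈ E, ∀ r ∈ R, x * r = r * x)
    (hcard : Nat.card ↥(E ⊓ Subgroup.centralizer ({e} : Set P)) * Nat.card R ≤ Nat.card E) :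
    ∀ r ∈ R, ∃ x ∈ E, x * e * x⁻¹ * e⁻¹ = r := by
  have h3 := card_eq_commHom hR h1 h2
  have hpos : 0 < Nat.card ↥(E ⊓ Subgroup.centralizer ({e} : Set P)) := Nat.card_pos
  rw [h3] at hcard
  have h4 := Nat.le_of_mul_le_mul_left hcard hpos
  have h5 : (commHom E R e hR h1 h2).range = ⊤ := Subgroup.eq_top_of_le_card _ h4
  intro r hr
  obtain ⟨x, hx⟩ : (⟨r, hr⟩ : ↥R) ∈ (commHom E R e hR h1 h2).range := by
    rw [h5]; exact Subgroup.mem_top _
  exact ⟨x, x.2, congrArg Subtype.val hx⟩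

/-- Commuting with generators. -/
theorem comm_sup {A : Subgroup P} {x e b : P} (hA : ∀ a ∈ A, x * a = a * x) (he : x * e = e * x)
    (h : b ∈ A ⊔ Subgroup.zpowers e) : x * b = b * x := by
  have h1 : A ⊔ Subgroup.zpowers e ≤ Subgroup.centralizer ({x} : Set P) := by
    refine sup_le ?_ ?_
    · intro a ha
      rw [Subgroup.mem_centralizer_singleton_iff]
      exact (hA a ha).symm
    · rw [Subgroup.zpowers_le, Subgroup.mem_centralizer_singleton_iff]
      exact he.symm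
  exact (Subgroup.mem_centralizer_singleton_iff.1 (h1 h)).symm

/-- A subgroup strictly between of a `3`-power order. -/
theorem eq_of_card_three_mul {A B C : Subgroup P} (hP : IsPGroup 3 P) (hAB : A ≤ B) (hAB' : A ≠ B)
    (hBC : B ≤ C) {k : ℕ} (hA : Nat.card A = 3 ^ k) (hC : Nat.card C = 3 ^ (k + 1)) : B = C := by
  have h1 : Nat.card B ∣ 3 ^ (k + 1) := hC ▸ Subgroup.card_dvd_of_le hBC
  obtain ⟨m, hm, hm'⟩ := (Nat.dvd_prime_pow Nat.prime_three).1 h1
  have h2 : 3 ^ k ∣ 3 ^ m := by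
    rw [← hA, ← hm']
    exact Subgroup.card_dvd_of_le hAB
  have h3 : k ≤ m := (Nat.pow_dvd_pow_iff_le_right (by norm_num)).1 h2
  have h4 : m ≠ k := by
    rintro rfl
    apply hAB'
    apply Subgroup.eq_of_le_of_card_ge hAB
    rw [hA, hm']
  have h5 : m = k + 1 := by omega
  apply Subgroup.eq_of_le_of_card_ge hBC
  rw [hC, hm', h5]

omit [Finite P] in
theorem mem_normalizer_of_map_conj' {K : Subgroup P} {y : P}
    (h : K.map (MulAut.conj y).toMonoidHom = K) : y ∈ Subgroup.normalizer (K : Set P) := by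
  rw [Subgroup.mem_normalizer_iff]
  intro x
  constructor
  · intro hx
    rw [← h]
    exact ⟨x, hx, rfl⟩
  · intro hx
    rw [← h] at hx
    obtain ⟨k, hk, hkx⟩ := hx
    have : k = x := by
      have h2 : y * k * y⁻¹ = y * x * y⁻¹ := hkx
      simpa using h2
    rwa [← this]

/-- The data of a flag in a maximal normal `E_{27}`. -/
structure Flag (N N₁ N₂ : Subgroup P) (e₂ e₃ : P) : Prop where
  ea : IsElementaryAbelian 3 N
  card_N : Nat.card N = 27
  hΩ : ∀ x : P, (∀ a ∈ N, x * a = a * x) → x ^ 3 = 1 → x ∈ N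
  hNn : N.Normal
  hN2n : N₂.Normal
  h1 : N₁ ≤ N₂
  h2 : N₂ ≤ N
  card1 : Nat.card N₁ = 3
  card2 : Nat.card N₂ = 9
  cen1 : ∀ g : P, ∀ n ∈ N₁, g * n = n * g
  he2 : e₂ ∈ N₂
  he2' : e₂ ∉ N₁
  com2 : ∀ g : P, g * e₂ * g⁻¹ * e₂⁻¹ ∈ N₁
  he3 : e₃ ∈ N
  he3' : e₃ ∉ N₂
  com3 : ∀ g : P, g * e₃ * g⁻¹ * e₃⁻¹ ∈ N₂

section flag

variable {N N₁ N₂ : Subgroup P} {e₂ e₃ : P} (F : Flag N N₁ N₂ e₂ e₃) (hP : IsPGroup 3 P)
include F

theorem Flag.Ncomm : ∀ a ∈ N, ∀ b ∈ N, a * b = b * a := ea_comm F.ea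

theorem Flag.N2comm : ∀ a ∈ N₂, ∀ b ∈ N₂, a * b = b * a := fun a ha b hb =>
  F.Ncomm a (F.h2 ha) b (F.h2 hb)

theorem Flag.N1comm : ∀ a ∈ N₁, ∀ b ∈ N₁, a * b = b * a := fun a ha b hb =>
  F.N2comm a (F.h1 ha) b (F.h1 hb)

include hP

theorem Flag.sup2 : N₁ ⊔ Subgroup.zpowers e₂ = N₂ := by
  apply eq_of_card_three_mul (A := N₁) (k := 1) hP le_sup_left ?_ ?_ (by rw [F.card1]; norm_num)
    (by rw [F.card2]; norm_num)
  · intro h
    exact F.he2' (h ▸ Subgroup.mem_sup_right (Subgroup.mem_zpowers e₂))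
  · exact sup_le F.h1 ((Subgroup.zpowers_le).2 F.he2)

theorem Flag.sup3 : N₂ ⊔ Subgroup.zpowers e₃ = N := by
  apply eq_of_card_three_mul (A := N₂) (k := 2) hP le_sup_left ?_ ?_ (by rw [F.card2]; norm_num)
    (by rw [F.card_N]; norm_num)
  · intro h
    exact F.he3' (h ▸ Subgroup.mem_sup_right (Subgroup.mem_zpowers e₃))
  · exact sup_le F.h2 ((Subgroup.zpowers_le).2 F.he3)

/-- The main cardinality estimate. -/
theorem Flag.card_bound {E : Subgroup P} (hE : IsElementaryAbelian 3 E) :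
    Nat.card E ≤ 9 * Nat.card ↥(E ⊓ N) := by
  have hEc := ea_comm hE
  by_cases hall : ∀ x ∈ E, x * e₂ = e₂ * x
  · -- `E` centralizes `N₂`
    have hc : ∀ x ∈ E, ∀ n ∈ N₂, x * n = n * x := by
      intro x hx n hn
      rw [← F.sup2 hP] at hn
      exact comm_sup (fun a ha => F.cen1 x a ha) (hall x hx) hn
    have h1 := card_le_mul (E := E) (R := N₂) (e := e₃) F.N2comm (fun x _ => F.com3 x) hc
    have hle : E ⊓ Subgroup.centralizer ({e₃} : Set P) ≤ E ⊓ N := by
      rintro x ⟨hx, hx'⟩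
      refine ⟨hx, ?_⟩
      have hx'' := Subgroup.mem_centralizer_singleton_iff.1 (show x ∈ Subgroup.centralizer ({e₃} : Set P) from hx')
      apply F.hΩ x _ (hE.2 x hx)
      intro a ha
      rw [← F.sup3 hP] at ha
      exact comm_sup (hc x hx) hx'' ha
    have h2 := Nat.card_le_card_of_injective _ (Subgroup.inclusion_injective hle)
    rw [F.card2] at h1
    nlinarith
  · push Not at hall
    obtain ⟨x₀, hx₀, hx₀e⟩ := hall
    have h1 := card_le_mul (E := E) (R := N₁) (e := e₂) F.N1comm (fun x _ => F.com2 x)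
      (fun x _ r hr => F.cen1 x r hr)
    set E₂ := E ⊓ Subgroup.centralizer ({e₂} : Set P) with hE₂
    -- the image of `E₂` lies in `N₁`
    have hd : x₀ * e₂ * x₀⁻¹ * e₂⁻¹ ≠ 1 := by
      intro h
      rw [mul_inv_eq_one, mul_inv_eq_iff_eq_mul] at h
      exact hx₀e h
    have hd3 : (x₀ * e₂ * x₀⁻¹ * e₂⁻¹) ^ 3 = 1 := F.ea.2 _ (F.h2 (F.h1 (F.com2 x₀)))
    have hord : orderOf (x₀ * e₂ * x₀⁻¹ * e₂⁻¹) = 3 := orderOf_eq_prime hd3 hd
    have hτ : ∀ τ ∈ E₂, τ * e₃ * τ⁻¹ * e₃⁻¹ ∈ N₁ := by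
      rintro τ ⟨hτE, hτc⟩
      have hτe : τ * e₂ = e₂ * τ :=
        (Subgroup.mem_centralizer_singleton_iff.1 (show τ ∈ Subgroup.centralizer ({e₂} : Set P) from hτc)).symm ▸ rfl
      have hτ2 : ∀ n ∈ N₂, τ * n = n * τ := by
        intro n hn
        rw [← F.sup2 hP] at hn
        exact comm_sup (fun a ha => F.cen1 τ a ha) hτe hn
      set c := τ * e₃ * τ⁻¹ * e₃⁻¹ with hc
      have hcN2 : c ∈ N₂ := F.com3 τ
      have hcomm : x₀ * τ = τ * x₀ := hEc x₀ hx₀ τ hτE
      -- `x₀` centralizes `c`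
      have hfix : x₀ * c = c * x₀ := by
        set n := x₀ * e₃ * x₀⁻¹ * e₃⁻¹ with hn
        have hnN2 : n ∈ N₂ := F.com3 x₀
        have e1 : x₀ * e₃ * x₀⁻¹ = n * e₃ := by rw [hn]; group
        have e2 : τ * n * τ⁻¹ = n := by rw [hτ2 n hnN2]; group
        have hcomm' : x₀ * τ * x₀⁻¹ = τ := by rw [hcomm]; group
        have e3 : x₀ * c * x₀⁻¹ = c := by
          calc x₀ * c * x₀⁻¹ = (x₀ * τ * x₀⁻¹) * (x₀ * e₃ * x₀⁻¹) * (x₀ * τ * x₀⁻¹)⁻¹ * (x₀ * e₃ * x₀⁻¹)⁻¹ := by
                rw [hc]; group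
            _ = τ * (n * e₃) * τ⁻¹ * (n * e₃)⁻¹ := by rw [hcomm', e1]
            _ = (τ * n * τ⁻¹) * (τ * e₃ * τ⁻¹) * e₃⁻¹ * n⁻¹ := by group
            _ = n * (τ * e₃ * τ⁻¹) * e₃⁻¹ * n⁻¹ := by rw [e2]
            _ = n * c * n⁻¹ := by rw [hc]; group
            _ = c := by rw [F.N2comm n hnN2 c hcN2]; group
        rw [mul_inv_eq_iff_eq_mul] at e3
        exact e3
      -- write `c = n₁ e₂ ^ b`
      have hN1n : N₁.Normal := ⟨fun n hn g => by
        rw [F.cen1 g n hn]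
        simpa using hn⟩
      have hcmem : c ∈ ((N₁ ⊔ Subgroup.zpowers e₂ : Subgroup P) : Set P) := by
        rw [F.sup2 hP]
        exact hcN2
      rw [Subgroup.normal_mul, Set.mem_mul] at hcmem
      obtain ⟨n₁, hn₁, _, ⟨b, rfl⟩, hcb⟩ := hcmem
      set d := x₀ * e₂ * x₀⁻¹ * e₂⁻¹ with hddef
      have hdN1 : d ∈ N₁ := F.com2 x₀
      have he : x₀ * e₂ * x₀⁻¹ = d * e₂ := by rw [hddef]; group
      have hcd : Commute d e₂ := F.cen1 e₂ d hdN1 |>.symm
      have h3 : x₀ * c * x₀⁻¹ = c := by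
        rw [hfix]; group
      have h4 : x₀ * c * x₀⁻¹ = n₁ * (d ^ b * e₂ ^ b) := by
        rw [← hcb]
        change x₀ * (n₁ * e₂ ^ b) * x₀⁻¹ = _
        have h5 : x₀ * (n₁ * e₂ ^ b) * x₀⁻¹ = (x₀ * n₁ * x₀⁻¹) * (x₀ * e₂ * x₀⁻¹) ^ b := by
          rw [conj_zpow]
          group
        rw [h5, he, hcd.mul_zpow, F.cen1 x₀ n₁ hn₁]
        group
      have h5 : d ^ b = 1 := by
        have h6 : n₁ * (d ^ b * e₂ ^ b) = n₁ * e₂ ^ b := by
          rw [← h4, h3, ← hcb]
        have h7 := mul_left_cancel h6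
        simpa using h7
      have h6 : (3 : ℤ) ∣ b := by
        have := orderOf_dvd_iff_zpow_eq_one.2 h5
        rw [hord] at this
        exact_mod_cast this
      obtain ⟨b', rfl⟩ := h6
      have he23 : e₂ ^ 3 = 1 := F.ea.2 _ (F.h2 F.he2)
      have h7 : e₂ ^ ((3 : ℤ) * b') = 1 := by
        rw [zpow_mul]
        have : e₂ ^ (3 : ℤ) = 1 := by exact_mod_cast he23
        rw [this, one_zpow]
      have h8 : c = n₁ := by
        rw [← hcb]
        change n₁ * e₂ ^ ((3 : ℤ) * b') = n₁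
        rw [h7, mul_one]
      rw [h8]
      exact hn₁
    have h2 := card_le_mul (E := E₂) (R := N₁) (e := e₃) F.N1comm hτ (fun x _ r hr => F.cen1 x r hr)
    have hle : E₂ ⊓ Subgroup.centralizer ({e₃} : Set P) ≤ E ⊓ N := by
      rintro x ⟨⟨hx, hx2⟩, hx'⟩
      refine ⟨hx, ?_⟩
      have hx'' : x * e₃ = e₃ * x :=
        (Subgroup.mem_centralizer_singleton_iff.1 (show x ∈ Subgroup.centralizer ({e₃} : Set P) from hx')).symm ▸ rfl
      have hxe2 : x * e₂ = e₂ * x :=
        (Subgroup.mem_centralizer_singleton_iff.1 (show x ∈ Subgroup.centralizer ({e₂} : Set P) from hx2)).symm ▸ rfl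
      apply F.hΩ x _ (hE.2 x hx)
      intro a ha
      rw [← F.sup3 hP] at ha
      refine comm_sup ?_ hx'' ha
      intro n hn
      rw [← F.sup2 hP] at hn
      exact comm_sup (fun a ha => F.cen1 x a ha) hxe2 hn
    have h3 := Nat.card_le_card_of_injective _ (Subgroup.inclusion_injective hle)
    rw [F.card1] at h1 h2
    nlinarith


/-- Elementary abelian subgroups have order at most `81`. -/
theorem Flag.card_le {E : Subgroup P} (hE : IsElementaryAbelian 3 E) (h27 : 27 < Nat.card E) :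
    Nat.card ↥(E ⊓ N) ≤ 9 ∧ Nat.card E ≤ 81 := by
  have hEc := ea_comm hE
  have h1 : E ⊓ N ≠ N := by
    intro h
    have hNE : N ≤ E := h ▸ inf_le_left
    have hEN : E ≤ N := by
      intro x hx
      exact F.hΩ x (fun a ha => hEc x hx a (hNE ha)) (hE.2 x hx)
    have h' : N = E := le_antisymm hNE hEN
    have : Nat.card E = 27 := h' ▸ F.card_N
    omega
  have h2 : Nat.card ↥(E ⊓ N) ∣ 3 ^ 3 := by
    have := Subgroup.card_dvd_of_le (inf_le_right : E ⊓ N ≤ N)
    rwa [F.card_N] at this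
  obtain ⟨k, hk, hk'⟩ := (Nat.dvd_prime_pow Nat.prime_three).1 h2
  have hk3 : k ≠ 3 := by
    rintro rfl
    apply h1
    apply Subgroup.eq_of_le_of_card_ge inf_le_right
    rw [F.card_N, hk']
    norm_num
  have hk2 : k ≤ 2 := by omega
  have h3 : Nat.card ↥(E ⊓ N) ≤ 9 := by
    rw [hk']
    calc 3 ^ k ≤ 3 ^ 2 := Nat.pow_le_pow_right (by norm_num) hk2
      _ = 9 := by norm_num
  have h4 := F.card_bound hP hE
  exact ⟨h3, by omega⟩

/-- The structure of elementary abelian subgroups of order at least `81`. -/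
theorem Flag.main {E : Subgroup P} (hE : IsElementaryAbelian 3 E) (h81 : 81 ≤ Nat.card E) :
    Nat.card E = 81 ∧ N₂ ≤ E ∧ (∀ x ∈ E, x * e₃ = e₃ * x → x ∈ N₂) ∧
      ∀ c ∈ N₂, ∃ x ∈ E, x * e₃ * x⁻¹ * e₃⁻¹ = c := by
  have hEc := ea_comm hE
  obtain ⟨hPi, hE81⟩ := F.card_le hP hE (by omega)
  have hEeq : Nat.card E = 81 := le_antisymm hE81 h81
  have hPi9 : Nat.card ↥(E ⊓ N) = 9 := by
    have h4 := F.card_bound hP hE
    omega
  -- `E` centralizes `e₂`
  have hall : ∀ x ∈ E, x * e₂ = e₂ * x := by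
    by_contra hcon
    push Not at hcon
    obtain ⟨x₀, hx₀, hx₀e⟩ := hcon
    have he2Pi : e₂ ∉ E ⊓ N := fun h => hx₀e (hEc x₀ hx₀ e₂ h.1)
    have hsup : (E ⊓ N) ⊔ Subgroup.zpowers e₂ = N := by
      apply eq_of_card_three_mul (A := E ⊓ N) (k := 2) hP le_sup_left ?_ ?_
        (by rw [hPi9]; norm_num) (by rw [F.card_N]; norm_num)
      · intro h
        exact he2Pi (h ▸ Subgroup.mem_sup_right (Subgroup.mem_zpowers e₂))
      · exact sup_le inf_le_right ((Subgroup.zpowers_le).2 (F.h2 F.he2))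
    have h1 := card_le_mul (E := E) (R := N₁) (e := e₂) F.N1comm (fun x _ => F.com2 x)
      (fun x _ r hr => F.cen1 x r hr)
    have hle : E ⊓ Subgroup.centralizer ({e₂} : Set P) ≤ E ⊓ N := by
      rintro x ⟨hx, hx'⟩
      refine ⟨hx, ?_⟩
      have hx'' : x * e₂ = e₂ * x :=
        (Subgroup.mem_centralizer_singleton_iff.1 (show x ∈ Subgroup.centralizer ({e₂} : Set P) from hx')).symm ▸ rfl
      apply F.hΩ x _ (hE.2 x hx)
      intro a ha
      rw [← hsup] at ha
      exact comm_sup (A := E ⊓ N) (fun b hb => hEc x hx b hb.1) hx'' ha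
    have h2 := Nat.card_le_card_of_injective _ (Subgroup.inclusion_injective hle)
    rw [F.card1, hEeq] at h1
    nlinarith
  -- `E` centralizes `N₂`
  have hc : ∀ x ∈ E, ∀ n ∈ N₂, x * n = n * x := by
    intro x hx n hn
    rw [← F.sup2 hP] at hn
    exact comm_sup (fun a ha => F.cen1 x a ha) (hall x hx) hn
  have hN2ea : IsElementaryAbelian 3 N₂ :=
    ea_of_comm F.N2comm (fun a ha => F.ea.2 a (F.h2 ha))
  have hsupea := sup_ea hE hN2ea hc
  have hN2E : N₂ ≤ E := by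
    have h1 : Nat.card ↥(E ⊔ N₂) ≥ 81 := by
      have := Nat.card_le_card_of_injective _ (Subgroup.inclusion_injective (le_sup_left : E ≤ E ⊔ N₂))
      omega
    have h2 := (F.card_le hP hsupea (by omega)).2
    have h3 : E = E ⊔ N₂ := Subgroup.eq_of_le_of_card_ge le_sup_left (by omega)
    rw [h3]
    exact le_sup_right
  -- `E ∩ N = N₂`
  have hPieq : N₂ = E ⊓ N := Subgroup.eq_of_le_of_card_ge (le_inf hN2E F.h2) (by rw [hPi9, F.card2])
  have hker : ∀ x ∈ E, x * e₃ = e₃ * x → x ∈ N₂ := by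
    intro x hx hxe
    rw [hPieq]
    refine ⟨hx, F.hΩ x ?_ (hE.2 x hx)⟩
    intro a ha
    rw [← F.sup3 hP] at ha
    exact comm_sup (hc x hx) hxe ha
  refine ⟨hEeq, hN2E, hker, ?_⟩
  apply comm_surj F.N2comm (fun x _ => F.com3 x) hc
  have hle : E ⊓ Subgroup.centralizer ({e₃} : Set P) ≤ N₂ := by
    rintro x ⟨hx, hx'⟩
    exact hker x hx (Subgroup.mem_centralizer_singleton_iff.1 (show x ∈ Subgroup.centralizer ({e₃} : Set P) from hx'))
  have h2 := Nat.card_le_card_of_injective _ (Subgroup.inclusion_injective hle)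
  rw [F.card2] at h2 ⊢
  rw [hEeq]
  omega

/-- Two normalizing subgroups of order `81` coincide. -/
theorem Flag.le_of_normalize {E E' : Subgroup P} (hE : IsElementaryAbelian 3 E)
    (hE' : IsElementaryAbelian 3 E') (h81 : 81 ≤ Nat.card E) (h81' : 81 ≤ Nat.card E')
    (hcomm : ∀ x ∈ E, ∀ y ∈ E', x * y * x⁻¹ * y⁻¹ ∈ E ⊓ E') : E' ≤ E := by
  obtain ⟨hEeq, hN2E, hker, hsurj⟩ := F.main hP hE h81
  obtain ⟨hE'eq, hN2E', hker', hsurj'⟩ := F.main hP hE' h81'
  have hEc := ea_comm hE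
  have hE'c := ea_comm hE'
  have he33 : e₃ ^ 3 = 1 := F.ea.2 _ F.he3
  have hN2sup : ((N₂ ⊔ Subgroup.zpowers e₃ : Subgroup P) : Set P) = (N : Set P) := by
    rw [F.sup3 hP]
  -- decomposition of `y` against `E`
  have hdec : ∀ y ∈ E', ∃ x₁ ∈ E, ∃ l : ℤ, y = x₁ * e₃ ^ l ∧
      x₁ * e₃ * x₁⁻¹ * e₃⁻¹ = y * e₃ * y⁻¹ * e₃⁻¹ := by
    intro y hy
    obtain ⟨x, hx, hxc⟩ := hsurj _ (F.com3 y)
    set n := x⁻¹ * y with hn
    have hcubic : n ^ 3 = 1 := by
      have hainv := E.inv_mem hx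
      have ht := hcomm x⁻¹ hainv y hy
      set t := x⁻¹ * y * x⁻¹⁻¹ * y⁻¹ with htdef
      refine cube_mul (hE.2 _ hainv) (hE'.2 y hy) (n := t⁻¹) ?_ ?_ ?_ ?_
      · rw [inv_pow, hE.2 t ht.1, inv_one]
      · exact hEc _ hainv _ (E.inv_mem ht.1)
      · exact hE'c _ hy _ (E'.inv_mem ht.2)
      · rw [htdef]; group
    have hnN : n ∈ N := by
      apply F.hΩ n _ hcubic
      intro a ha
      rw [← F.sup3 hP] at ha
      refine comm_sup (A := N₂) ?_ ?_ ha
      · intro b hb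
        rw [hn]
        calc x⁻¹ * y * b = x⁻¹ * (b * y) := by rw [mul_assoc, hE'c y hy b (hN2E' hb)]
          _ = (x⁻¹ * b) * y := by group
          _ = (b * x⁻¹) * y := by rw [hEc _ (E.inv_mem hx) b (hN2E hb)]
          _ = _ := by group
      · have h1 : x * e₃ * x⁻¹ = y * e₃ * y⁻¹ := mul_right_cancel hxc
        rw [hn]
        calc x⁻¹ * y * e₃ = x⁻¹ * (y * e₃ * y⁻¹) * y := by group
          _ = x⁻¹ * (x * e₃ * x⁻¹) * y := by rw [h1]
          _ = _ := by group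
    have hnmem : n ∈ ((N₂ ⊔ Subgroup.zpowers e₃ : Subgroup P) : Set P) := by
      rw [F.sup3 hP]
      exact hnN
    have := F.hN2n
    rw [Subgroup.normal_mul, Set.mem_mul] at hnmem
    obtain ⟨π, hπ, _, ⟨l, rfl⟩, hπl⟩ := hnmem
    refine ⟨x * π, E.mul_mem hx (hN2E hπ), l, ?_, ?_⟩
    · have hy' : y = x * n := by rw [hn]; group
      rw [hy', ← hπl]
      simp only [mul_assoc]
    · rw [← hxc]
      have hπe : π * e₃ = e₃ * π := F.Ncomm π (F.h2 hπ) e₃ F.he3
      calc x * π * e₃ * (x * π)⁻¹ * e₃⁻¹ = x * (π * e₃) * π⁻¹ * x⁻¹ * e₃⁻¹ := by group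
        _ = x * (e₃ * π) * π⁻¹ * x⁻¹ * e₃⁻¹ := by rw [hπe]
        _ = _ := by group
  -- conjugating powers of `e₃` by an element of `E`
  have hconjpow : ∀ w ∈ E, ∀ l : ℤ, w⁻¹ * e₃ ^ l * w = (w * e₃ * w⁻¹ * e₃⁻¹) ^ (-l) * e₃ ^ l := by
    intro w hw l
    set c := w * e₃ * w⁻¹ * e₃⁻¹ with hc
    have hcN2 : c ∈ N₂ := F.com3 w
    have hcw : c * w = w * c := hEc c (hN2E hcN2) w hw
    have hce : Commute c e₃ := F.Ncomm c (F.h2 hcN2) e₃ F.he3
    have h1 : w⁻¹ * e₃ * w = c⁻¹ * e₃ := by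
      have h2 : w * e₃ * w⁻¹ = c * e₃ := by rw [hc]; group
      have h3 : e₃ = w⁻¹ * (c * e₃) * w := by rw [← h2]; group
      have h4 : w⁻¹ * c * w = c := by
        rw [mul_assoc, hcw]; group
      have h5 : w⁻¹ * (c * e₃) * w = c * (w⁻¹ * e₃ * w) := by
        calc w⁻¹ * (c * e₃) * w = (w⁻¹ * c * w) * (w⁻¹ * e₃ * w) := by group
          _ = _ := by rw [h4]
      rw [h5] at h3
      calc w⁻¹ * e₃ * w = c⁻¹ * (c * (w⁻¹ * e₃ * w)) := by group
        _ = c⁻¹ * e₃ := by rw [← h3]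
    have h2 : w⁻¹ * e₃ ^ l * w = (w⁻¹ * e₃ * w) ^ l := by
      have := conj_zpow (a := w⁻¹) (b := e₃) (i := l)
      simpa using this.symm
    rw [h2, h1, hce.inv_left.mul_zpow, inv_zpow, zpow_neg]
  intro y hy
  obtain ⟨x₁, hx₁, l, hyl, hc₁⟩ := hdec y hy
  set c' := y * e₃ * y⁻¹ * e₃⁻¹ with hc'
  have hc'N2 : c' ∈ N₂ := F.com3 y
  have hc'3 : c' ^ 3 = 1 := F.ea.2 _ (F.h2 hc'N2)
  by_cases hc'1 : c' = 1
  · apply hN2E
    apply hker' y hy
    rw [hc', mul_inv_eq_one, mul_inv_eq_iff_eq_mul] at hc'1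
    exact hc'1
  -- another direction
  have hzc : Nat.card (Subgroup.zpowers c') = 3 := by
    rw [Nat.card_zpowers]
    exact orderOf_eq_prime hc'3 hc'1
  obtain ⟨c'', hc''N2, hc''⟩ : ∃ c'' ∈ N₂, c'' ∉ Subgroup.zpowers c' := by
    by_contra hcon
    push Not at hcon
    have := Nat.card_le_card_of_injective _ (Subgroup.inclusion_injective (show N₂ ≤ Subgroup.zpowers c' from hcon))
    rw [F.card2, hzc] at this
    omega
  obtain ⟨z, hz, hzc''⟩ := hsurj' c'' hc''N2
  obtain ⟨w₁, hw₁, m, hzm, hc₂⟩ := hdec z hz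
  have hyz : y * z = z * y := hE'c y hy z hz
  have hxw : x₁ * w₁ = w₁ * x₁ := hEc x₁ hx₁ w₁ hw₁
  have huv : e₃ ^ l * e₃ ^ m = e₃ ^ m * e₃ ^ l := (Commute.refl e₃).zpow_zpow l m
  rw [hzc''] at hc₂
  have h1 := hconjpow w₁ hw₁ l
  have h2 := hconjpow x₁ hx₁ m
  rw [hc₂] at h1
  rw [hc₁] at h2
  -- the key relation
  have hkey : c'' ^ (-l) = c' ^ (-m) := by
    have e1 : x₁ * e₃ ^ l * (w₁ * e₃ ^ m) = x₁ * w₁ * (c'' ^ (-l) * (e₃ ^ l * e₃ ^ m)) := by
      calc x₁ * e₃ ^ l * (w₁ * e₃ ^ m) = x₁ * w₁ * (w₁⁻¹ * e₃ ^ l * w₁) * e₃ ^ m := by group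
        _ = x₁ * w₁ * (c'' ^ (-l) * e₃ ^ l) * e₃ ^ m := by rw [h1]
        _ = _ := by simp only [mul_assoc]
    have e2 : w₁ * e₃ ^ m * (x₁ * e₃ ^ l) = w₁ * x₁ * (c' ^ (-m) * (e₃ ^ m * e₃ ^ l)) := by
      calc w₁ * e₃ ^ m * (x₁ * e₃ ^ l) = w₁ * x₁ * (x₁⁻¹ * e₃ ^ m * x₁) * e₃ ^ l := by group
        _ = w₁ * x₁ * (c' ^ (-m) * e₃ ^ m) * e₃ ^ l := by rw [h2]
        _ = _ := by simp only [mul_assoc]
    have e3 : x₁ * e₃ ^ l * (w₁ * e₃ ^ m) = w₁ * e₃ ^ m * (x₁ * e₃ ^ l) := by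
      rw [← hyl, ← hzm]
      exact hyz
    rw [e1, e2, hxw, huv] at e3
    exact mul_right_cancel (mul_left_cancel e3)
  by_cases hl : (3 : ℤ) ∣ l
  · -- `y = x₁`
    obtain ⟨l', rfl⟩ := hl
    have h3 : e₃ ^ ((3 : ℤ) * l') = 1 := by
      rw [zpow_mul]
      have : e₃ ^ (3 : ℤ) = 1 := by exact_mod_cast he33
      rw [this, one_zpow]
    rw [hyl, h3, mul_one]
    exact hx₁
  · exfalso
    apply hc''
    have hcop : IsCoprime (3 : ℤ) l := (Int.prime_three.coprime_iff_not_dvd).2 hl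
    obtain ⟨u, v, huv'⟩ := hcop
    have hc''3 : c'' ^ (3 : ℤ) = 1 := by
      have := F.ea.2 _ (F.h2 hc''N2)
      exact_mod_cast this
    have h3 : c'' = (c'' ^ l) ^ v := by
      rw [← zpow_mul]
      have e4 : l * v = 1 - u * 3 := by linarith
      rw [e4, zpow_sub, zpow_one, mul_comm u 3, zpow_mul, hc''3, one_zpow, inv_one, mul_one]
    have h4 : c'' ^ l = c' ^ m := by
      have h5 := congrArg (fun a => a⁻¹) hkey
      simpa [zpow_neg] using h5
    rw [h3, h4, ← zpow_mul]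
    exact ⟨_, rfl⟩

/-- Subgroups of order `81` are normal. -/
theorem Flag.normal {E : Subgroup P} (hE : IsElementaryAbelian 3 E) (h81 : 81 ≤ Nat.card E) :
    E.Normal := by
  classical
  by_contra hn
  set Q := Subgroup.normalizer (E : Set P) with hQ
  have hQne : Q ≠ ⊤ := by
    intro h
    exact hn (Subgroup.normalizer_eq_top_iff.1 h)
  have hnil : Group.IsNilpotent P := hP.isNilpotent
  have hcond := Group.normalizerCondition_of_isNilpotent (G := P) Q (lt_top_iff_ne_top.2 hQne)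
  obtain ⟨g, hg, hgQ⟩ := SetLike.exists_of_lt hcond
  set E' := E.map (MulAut.conj g).toMonoidHom with hE'
  have hE'ea : IsElementaryAbelian 3 E' := by
    refine ea_of_comm ?_ ?_
    · rintro _ ⟨a, ha, rfl⟩ _ ⟨b, hb, rfl⟩
      have h1 := ea_comm hE a ha b hb
      simp only [MulEquiv.coe_toMonoidHom, MulAut.conj_apply]
      calc g * a * g⁻¹ * (g * b * g⁻¹) = g * (a * b) * g⁻¹ := by group
        _ = g * (b * a) * g⁻¹ := by rw [h1]
        _ = _ := by group
    · rintro _ ⟨a, ha, rfl⟩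
      simp only [MulEquiv.coe_toMonoidHom, MulAut.conj_apply]
      rw [conj_pow, hE.2 a ha]
      group
  have hE'card : Nat.card E' = Nat.card E :=
    Subgroup.card_map_of_injective (MulAut.conj g).injective
  have hEQ : E ≤ Q := Subgroup.le_normalizer
  have hgQ' : ∀ q, q ∈ Q ↔ g * q * g⁻¹ ∈ Q := Subgroup.mem_normalizer_iff.1 hg
  have hE'Q : E' ≤ Q := by
    rintro _ ⟨a, ha, rfl⟩
    exact (hgQ' a).1 (hEQ ha)
  have hcomm : ∀ x ∈ E, ∀ y ∈ E', x * y * x⁻¹ * y⁻¹ ∈ E ⊓ E' := by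
    intro x hx y hy
    constructor
    · have h1 := (Subgroup.mem_normalizer_iff.1 (hE'Q hy) x⁻¹).1 (E.inv_mem hx)
      have e : x * y * x⁻¹ * y⁻¹ = x * (y * x⁻¹ * y⁻¹) := by group
      rw [e]
      exact E.mul_mem hx h1
    · -- `x` normalizes `E'`
      obtain ⟨b, hb, rfl⟩ := hy
      have hx' : g⁻¹ * x * g ∈ Q := by
        apply (hgQ' _).2
        have e : g * (g⁻¹ * x * g) * g⁻¹ = x := by group
        rw [e]
        exact hEQ hx
      have h1 := (Subgroup.mem_normalizer_iff.1 hx' b).1 hb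
      have h2 : x * (g * b * g⁻¹) * x⁻¹ = g * ((g⁻¹ * x * g) * b * (g⁻¹ * x * g)⁻¹) * g⁻¹ := by group
      simp only [MulEquiv.coe_toMonoidHom, MulAut.conj_apply]
      rw [h2]
      refine E'.mul_mem ⟨_, h1, rfl⟩ ?_
      exact E'.inv_mem ⟨b, hb, rfl⟩
  have hle := F.le_of_normalize hP hE hE'ea h81 (by rw [hE'card]; exact h81) hcomm
  have heq : E' = E := Subgroup.eq_of_le_of_card_ge hle (by rw [hE'card])
  apply hgQ
  exact mem_normalizer_of_map_conj' heq

end flag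

/-- Extension of a normal elementary abelian subgroup by a central-mod-`N` element. -/
theorem normal_sup {N : Subgroup P} (hNn : N.Normal) (hea : IsElementaryAbelian 3 N) {x : P}
    (hxN : ∀ a ∈ N, x * a = a * x) (hx3 : x ^ 3 = 1) (hx : x ∉ N)
    (hg : ∀ g : P, g * x * g⁻¹ * x⁻¹ ∈ N) :
    (N ⊔ Subgroup.zpowers x).Normal ∧ IsElementaryAbelian 3 (N ⊔ Subgroup.zpowers x) ∧
      Nat.card N < Nat.card ↥(N ⊔ Subgroup.zpowers x) := by
  have hZ : IsElementaryAbelian 3 (Subgroup.zpowers x) := by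
    refine ea_of_comm ?_ ?_
    · rintro _ ⟨i, rfl⟩ _ ⟨j, rfl⟩
      exact (Commute.refl x).zpow_zpow i j
    · rintro _ ⟨i, rfl⟩
      change (x ^ i) ^ 3 = 1
      rw [← zpow_natCast, ← zpow_mul, mul_comm, zpow_mul, zpow_natCast, hx3, one_zpow]
  refine ⟨⟨?_⟩, sup_ea hea hZ ?_, ?_⟩
  · intro y hy g
    have hy' : y ∈ ((N ⊔ Subgroup.zpowers x : Subgroup P) : Set P) := hy
    rw [Subgroup.normal_mul, Set.mem_mul] at hy'
    obtain ⟨n, hn, _, ⟨k, rfl⟩, rfl⟩ := hy'
    have h1 : g * n * g⁻¹ ∈ N := hNn.conj_mem n hn g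
    have h2 : g * x * g⁻¹ ∈ N ⊔ Subgroup.zpowers x := by
      have e : g * x * g⁻¹ = (g * x * g⁻¹ * x⁻¹) * x := by group
      rw [e]
      exact Subgroup.mul_mem _ (Subgroup.mem_sup_left (hg g))
        (Subgroup.mem_sup_right (Subgroup.mem_zpowers x))
    have e : g * (n * (fun a => x ^ a) k) * g⁻¹ = (g * n * g⁻¹) * (g * x * g⁻¹) ^ k := by
      rw [conj_zpow]
      group
    rw [e]
    exact Subgroup.mul_mem _ (Subgroup.mem_sup_left h1) (Subgroup.zpow_mem _ h2 k)
  · rintro a ha _ ⟨i, rfl⟩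
    exact ((show Commute x a from hxN a ha).zpow_left i).symm
  · by_contra hlt
    have h1 : N = N ⊔ Subgroup.zpowers x :=
      Subgroup.eq_of_le_of_card_ge le_sup_left (not_lt.1 hlt)
    exact hx (h1 ▸ Subgroup.mem_sup_right (Subgroup.mem_zpowers x))

/-- A surjection bounds the order of the join with a normal subgroup. -/
theorem card_sup_le (N H : Subgroup P) (hN : N.Normal) :
    Nat.card ↥(N ⊔ H) ≤ Nat.card N * Nat.card H := by
  let f : ↥N × ↥H → ↥(N ⊔ H) := fun q => ⟨(q.1 : P) * (q.2 : P),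
    Subgroup.mul_mem _ (Subgroup.mem_sup_left q.1.2) (Subgroup.mem_sup_right q.2.2)⟩
  have hf : Function.Surjective f := by
    rintro ⟨y, hy⟩
    have hy' : y ∈ ((N ⊔ H : Subgroup P) : Set P) := hy
    rw [Subgroup.normal_mul, Set.mem_mul] at hy'
    obtain ⟨n, hn, h, hh, rfl⟩ := hy'
    exact ⟨(⟨n, hn⟩, ⟨h, hh⟩), rfl⟩
  have := Nat.card_le_card_of_surjective f hf
  rwa [Nat.card_prod] at this

/-- A central-mod-`A` element of `B`. -/
theorem exists_central_mod (hP : IsPGroup 3 P) {A B : Subgroup P} (hA : A.Normal) (hB : B.Normal)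
    (hlt : ¬ B ≤ A) : ∃ b ∈ B, b ∉ A ∧ ∀ g : P, g * b * g⁻¹ * b⁻¹ ∈ A := by
  have h3 : Fact (Nat.Prime 3) := ⟨Nat.prime_three⟩
  have hQ : IsPGroup 3 (P ⧸ A) := hP.to_quotient A
  have hBn : (B.map (QuotientGroup.mk' A)).Normal :=
    hB.map _ (QuotientGroup.mk'_surjective A)
  have hne : B.map (QuotientGroup.mk' A) ≠ ⊥ := by
    intro h
    apply hlt
    intro b hb
    have h1 : (QuotientGroup.mk' A) b ∈ B.map (QuotientGroup.mk' A) := ⟨b, hb, rfl⟩
    rw [h, Subgroup.mem_bot] at h1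
    exact (QuotientGroup.eq_one_iff b).1 h1
  obtain ⟨z, ⟨b, hb, rfl⟩, hz1, hzc⟩ :=
    Cfsg.Agent.Lib.NormalKlein.exists_central_of_normal hQ _ hBn hne
  refine ⟨b, hb, fun hbA => hz1 ((QuotientGroup.eq_one_iff b).2 hbA), fun g => ?_⟩
  apply (QuotientGroup.eq_one_iff _).1
  have hc := (Subgroup.mem_center_iff.1 hzc) (g : P ⧸ A)
  change (g : P ⧸ A) * QuotientGroup.mk' A b = QuotientGroup.mk' A b * (g : P ⧸ A) at hc
  change (g : P ⧸ A) * QuotientGroup.mk' A b * (g : P ⧸ A)⁻¹ * (QuotientGroup.mk' A b)⁻¹ = 1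
  rw [hc]
  group

theorem pow_three_eq_nine {k : ℕ} (h1 : 3 ^ k ≤ 3 * 3) (h2 : 3 < 3 ^ k) : 3 ^ k = 9 := by
  have h3 : k ≤ 2 := by
    by_contra h
    have h4 : 3 ≤ k := by omega
    have h5 : 3 ^ 3 ≤ 3 ^ k := Nat.pow_le_pow_right (by norm_num) h4
    omega
  have h4 : 2 ≤ k := by
    by_contra h
    have h4 : k ≤ 1 := by omega
    have h5 : 3 ^ k ≤ 3 ^ 1 := Nat.pow_le_pow_right (by norm_num) h4
    omega
  have h5 : k = 2 := by omega
  rw [h5]
  norm_num

/-- Elementary abelian subgroups of order at least `81` yield a normal one. -/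
theorem exists_normal_81 (hP : IsPGroup 3 P) {E₀ : Subgroup P} (hE₀ : IsElementaryAbelian 3 E₀)
    (h27 : 27 < Nat.card E₀) :
    ∃ F : Subgroup P, F.Normal ∧ IsElementaryAbelian 3 F ∧ 81 ≤ Nat.card F := by
  classical
  have h3 : Fact (Nat.Prime 3) := ⟨Nat.prime_three⟩
  have hE081 : 81 ≤ Nat.card E₀ := by
    obtain ⟨m, hm⟩ := IsPGroup.iff_card.1 (hP.to_subgroup E₀)
    have hm4 : 4 ≤ m := by
      by_contra hlt
      have h4 : m ≤ 3 := by omega
      have h5 : 3 ^ m ≤ 3 ^ 3 := Nat.pow_le_pow_right (by norm_num) h4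
      rw [hm] at h27
      omega
    rw [hm]
    calc 81 = 3 ^ 4 := by norm_num
      _ ≤ 3 ^ m := Nat.pow_le_pow_right (by norm_num) hm4
  -- a normal elementary abelian subgroup of maximal order
  let 𝒮 : Set (Subgroup P) := {N | N.Normal ∧ IsElementaryAbelian 3 N}
  have hfin : 𝒮.Finite := Set.toFinite _
  have hne : 𝒮.Nonempty := ⟨⊥, Subgroup.normal_bot, by
    refine ea_of_comm ?_ ?_
    · intro a ha b hb
      rw [Subgroup.mem_bot] at ha hb
      rw [ha, hb]
    · intro a ha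
      rw [Subgroup.mem_bot] at ha
      rw [ha, one_pow]⟩
  obtain ⟨N, ⟨hNn, hNea⟩, hNmax⟩ := Set.exists_max_image 𝒮 (fun N => Nat.card N) hfin hne
  have hNc := ea_comm hNea
  by_cases hN81 : 81 ≤ Nat.card N
  · exact ⟨N, hNn, hNea, hN81⟩
  exfalso
  have hNp := hNea.2
  -- `N` contains every element of order three centralizing it
  have hΩ : ∀ x : P, (∀ a ∈ N, x * a = a * x) → x ^ 3 = 1 → x ∈ N := by
    intro x hxa hx3
    by_contra hxN
    have := hNn
    obtain ⟨w, hwa, hw3, hwN, hwc⟩ := exists_central_lift hP N hNp hxa hx3 hxN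
    obtain ⟨h1, h2, h4⟩ := normal_sup hNn hNea hwa hw3 hwN hwc
    have h5 := hNmax _ ⟨h1, h2⟩
    omega
  -- order at least 9
  obtain ⟨U, hUn, hUc, hUp, hUcard⟩ := exists_U 3 hP hE₀.2 (by omega)
  have hN9 : 9 ≤ Nat.card N := by
    have := hNmax U ⟨hUn, ea_of_comm hUc hUp⟩
    rw [hUcard] at this
    simpa using this
  obtain ⟨m, hm⟩ := IsPGroup.iff_card.1 (hP.to_subgroup N)
  have hm2 : 2 ≤ m := by
    by_contra hlt
    have h4 : m ≤ 1 := by omega
    have h5 : 3 ^ m ≤ 3 ^ 1 := Nat.pow_le_pow_right (by norm_num) h4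
    rw [hm] at hN9
    omega
  have hm3 : m ≤ 3 := by
    by_contra hlt
    have h4 : 4 ≤ m := by omega
    have h5 : 3 ^ 4 ≤ 3 ^ m := Nat.pow_le_pow_right (by norm_num) h4
    rw [hm] at hN81
    omega
  have hcases : m = 2 ∨ m = 3 := by omega
  rcases hcases with rfl | rfl
  · -- order 9 : the centralizer has index at most 3
    have hidx := index_centralizer_dvd 3 hP hNn hNc hNp hm
    set C := Subgroup.centralizer (N : Set P) with hC
    have : C.Normal := Subgroup.normal_centralizer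
    have h1 : C.relIndex E₀ ∣ 3 := (Subgroup.relIndex_dvd_index_of_normal C E₀).trans hidx
    have h2 : Nat.card ↥(C.subgroupOf E₀) * C.relIndex E₀ = Nat.card E₀ := Subgroup.card_mul_index _
    have h4 : Nat.card ↥(C.subgroupOf E₀) = Nat.card ↥(E₀ ⊓ C) := by
      have h5 : C.subgroupOf E₀ = (E₀ ⊓ C).subgroupOf E₀ := by
        ext x
        simp [Subgroup.mem_subgroupOf]
      rw [h5]
      exact Nat.card_congr (Subgroup.subgroupOfEquivOfLe inf_le_left).toEquiv
    have hle : E₀ ⊓ C ≤ N := by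
      rintro x ⟨hx, hxC⟩
      apply hΩ x _ (hE₀.2 x hx)
      intro a ha
      exact (Subgroup.mem_centralizer_iff.1 hxC a ha).symm
    have h5 := Nat.card_le_card_of_injective _ (Subgroup.inclusion_injective hle)
    have h6 : C.relIndex E₀ ≤ 3 := Nat.le_of_dvd (by norm_num) h1
    rw [h4] at h2
    rw [hm] at h5
    nlinarith
  · -- order 27 : build a flag
    have hbot : (⊥ : Subgroup P).Normal := Subgroup.normal_bot
    have hNne : ¬ N ≤ ⊥ := by
      intro h
      have := le_bot_iff.1 h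
      rw [this] at hm
      simp at hm
    obtain ⟨e₁, he₁N, he₁, hc₁⟩ := exists_central_mod hP hbot hNn hNne
    have he₁1 : e₁ ≠ 1 := fun h => he₁ (by rw [h]; exact Subgroup.one_mem _)
    have he₁3 : e₁ ^ 3 = 1 := hNp _ he₁N
    have hcen₁ : ∀ g : P, g * e₁ = e₁ * g := by
      intro g
      have h1 := hc₁ g
      rw [Subgroup.mem_bot, mul_inv_eq_one, mul_inv_eq_iff_eq_mul] at h1
      exact h1
    set N₁ := Subgroup.zpowers e₁ with hN₁
    have hcard₁ : Nat.card N₁ = 3 := by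
      rw [Nat.card_zpowers]
      exact orderOf_eq_prime he₁3 he₁1
    have hcen₁' : ∀ g : P, ∀ n ∈ N₁, g * n = n * g := by
      rintro g _ ⟨i, rfl⟩
      exact ((show Commute g e₁ from hcen₁ g).zpow_right i)
    have hN₁n : N₁.Normal := ⟨fun n hn g => by
      rw [hcen₁' g n hn]
      simpa using hn⟩
    have hN₁N : N₁ ≤ N := (Subgroup.zpowers_le).2 he₁N
    have hN₁ea : IsElementaryAbelian 3 N₁ :=
      ea_of_comm (fun a ha b hb => hNc a (hN₁N ha) b (hN₁N hb)) (fun a ha => hNp a (hN₁N ha))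
    have hN₁ne : ¬ N ≤ N₁ := by
      intro h
      have := Nat.card_le_card_of_injective _ (Subgroup.inclusion_injective h)
      rw [hm, hcard₁] at this
      omega
    obtain ⟨e₂, he₂N, he₂, hc₂⟩ := exists_central_mod hP hN₁n hNn hN₁ne
    have he₂1 : e₂ ≠ 1 := fun h => he₂ (by rw [h]; exact Subgroup.one_mem _)
    have he₂3 : e₂ ^ 3 = 1 := hNp _ he₂N
    obtain ⟨hN₂n, hN₂ea, hN₂lt⟩ :=
      normal_sup hN₁n hN₁ea (fun a ha => hNc e₂ he₂N a (hN₁N ha)) he₂3 he₂ hc₂
    set N₂ := N₁ ⊔ Subgroup.zpowers e₂ with hN₂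
    have hN₂N : N₂ ≤ N := sup_le hN₁N ((Subgroup.zpowers_le).2 he₂N)
    have hcard₂ : Nat.card N₂ = 9 := by
      have h1 := card_sup_le N₁ (Subgroup.zpowers e₂) hN₁n
      have h2 : Nat.card (Subgroup.zpowers e₂) = 3 := by
        rw [Nat.card_zpowers]
        exact orderOf_eq_prime he₂3 he₂1
      rw [hcard₁, h2] at h1
      rw [hcard₁] at hN₂lt
      have h4 : Nat.card N₂ ∣ 3 ^ 3 := hm ▸ Subgroup.card_dvd_of_le hN₂N
      obtain ⟨k, hk, hk'⟩ := (Nat.dvd_prime_pow Nat.prime_three).1 h4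
      rw [hk'] at h1 hN₂lt ⊢
      exact pow_three_eq_nine h1 hN₂lt
    have hN₂ne : ¬ N ≤ N₂ := by
      intro h
      have := Nat.card_le_card_of_injective _ (Subgroup.inclusion_injective h)
      rw [hm, hcard₂] at this
      omega
    obtain ⟨e₃, he₃N, he₃, hc₃⟩ := exists_central_mod hP hN₂n hNn hN₂ne
    have F : Flag N N₁ N₂ e₂ e₃ :=
      { ea := hNea
        card_N := by rw [hm]; norm_num
        hΩ := hΩ
        hNn := hNn
        hN2n := hN₂n
        h1 := le_sup_left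
        h2 := hN₂N
        card1 := hcard₁
        card2 := hcard₂
        cen1 := hcen₁'
        he2 := Subgroup.mem_sup_right (Subgroup.mem_zpowers e₂)
        he2' := he₂
        com2 := hc₂
        he3 := he₃N
        he3' := he₃
        com3 := hc₃ }
    have hE₀n := F.normal hP hE₀ hE081
    have := hNmax E₀ ⟨hE₀n, hE₀⟩
    rw [hm] at this
    omega

/-- A general bound for a homomorphism. -/
theorem card_le_ker_mul_map {A : Type*} [Group A] [Finite A] (φ : A →* A) (S : Subgroup A) :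
    Nat.card S ≤ Nat.card φ.ker * Nat.card ↥(S.map φ) := by
  let ψ : ↥S →* A := φ.comp S.subtype
  have h1 := Subgroup.card_mul_index ψ.ker
  rw [Subgroup.index_ker] at h1
  have h2 : ψ.range = S.map φ := by
    rw [MonoidHom.range_comp, Subgroup.range_subtype]
  rw [h2] at h1
  rw [← h1]
  apply Nat.mul_le_mul_right
  let f : ↥ψ.ker → ↥φ.ker := fun x => ⟨((x : ↥S) : A), by
    have := x.2
    rw [MonoidHom.mem_ker] at this ⊢
    exact this⟩
  apply Nat.card_le_card_of_injective f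
  intro a b hab
  have h3 : ((a : ↥S) : A) = ((b : ↥S) : A) := congrArg (fun z : ↥φ.ker => (z : A)) hab
  exact Subtype.ext (Subtype.ext h3)

/-- The bound for an automorphism of order dividing three on an abelian group of exponent three. -/
theorem card_le_cube_of_hom {A : Type*} [CommGroup A] [Finite A] (c : A →* A)
    (h3 : ∀ x, c (c (c x)) = x) (hp : ∀ x : A, x * x * x = 1) :
    Nat.card A ≤ Nat.card {x : A // c x = x} ^ 3 := by
  let φ : A →* A :=
    { toFun := fun x => c x * x⁻¹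
      map_one' := by simp
      map_mul' := fun a b => by
        simp only [map_mul, mul_inv]
        ac_rfl }
  have hφ : ∀ x, φ x = c x * x⁻¹ := fun _ => rfl
  have hφ3 : ∀ x, φ (φ (φ x)) = 1 := by
    intro x
    simp only [hφ]
    set b := c x with hb
    set d := c b with hd
    have hcd : c d = x := h3 x
    have e : c (c (b * x⁻¹) * (b * x⁻¹)⁻¹) * (c (b * x⁻¹) * (b * x⁻¹)⁻¹)⁻¹ =
        (x * x⁻¹) * ((d * d * d)⁻¹ * (b * b * b)) := by
      simp only [map_mul, map_inv, mul_inv, inv_inv, ← hb, ← hd, hcd]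
      simp only [mul_comm, mul_left_comm, mul_assoc]
    rw [e, hp, hp, mul_inv_cancel, inv_one, one_mul, one_mul]
  have hker : Nat.card φ.ker = Nat.card {x : A // c x = x} := by
    apply Nat.card_congr
    exact
      { toFun := fun x => ⟨x.1, by
          have := x.2
          rw [MonoidHom.mem_ker, hφ, mul_inv_eq_one] at this
          exact this⟩
        invFun := fun x => ⟨x.1, by
          rw [MonoidHom.mem_ker, hφ, mul_inv_eq_one]
          exact x.2⟩
        left_inv := fun _ => rfl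
        right_inv := fun _ => rfl }
  have h1 := card_le_ker_mul_map φ ⊤
  have h2 := card_le_ker_mul_map φ ((⊤ : Subgroup A).map φ)
  have h4 := card_le_ker_mul_map φ (((⊤ : Subgroup A).map φ).map φ)
  have h5 : (((⊤ : Subgroup A).map φ).map φ).map φ = ⊥ := by
    rw [Subgroup.eq_bot_iff_forall]
    rintro _ ⟨_, ⟨_, ⟨x, _, rfl⟩, rfl⟩, rfl⟩
    exact hφ3 x
  rw [h5, Subgroup.card_bot, mul_one] at h4
  rw [Subgroup.card_top] at h1
  rw [hker] at h1 h2 h4
  set k := Nat.card {x : A // c x = x}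
  calc Nat.card A ≤ k * Nat.card ↥((⊤ : Subgroup A).map φ) := h1
    _ ≤ k * (k * Nat.card ↥(((⊤ : Subgroup A).map φ).map φ)) := Nat.mul_le_mul_left _ h2
    _ ≤ k * (k * k) := Nat.mul_le_mul_left _ (Nat.mul_le_mul_left _ h4)
    _ = k ^ 3 := by ring

/-- The commutator map on an abelian normal subgroup of exponent three. -/
theorem card_le_cube {F : Subgroup P} (hF : F.Normal) (hea : IsElementaryAbelian 3 F) {y : P}
    (hy : y ^ 3 = 1) :
    Nat.card F ≤ Nat.card ↥(F ⊓ Subgroup.centralizer ({y} : Set P)) ^ 3 := by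
  classical
  have hc := ea_comm hea
  have hp := hea.2
  letI : CommGroup ↥F :=
    { (inferInstance : Group ↥F) with
      mul_comm := fun a b => Subtype.ext (hc a a.2 b b.2) }
  let c : ↥F →* ↥F :=
    { toFun := fun x => ⟨y * x * y⁻¹, hF.conj_mem _ x.2 y⟩
      map_one' := by
        apply Subtype.ext
        change y * 1 * y⁻¹ = 1
        group
      map_mul' := fun a b => by
        apply Subtype.ext
        change y * ((a : P) * b) * y⁻¹ = (y * a * y⁻¹) * (y * b * y⁻¹)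
        group }
  have h3 : ∀ x, c (c (c x)) = x := by
    intro x
    apply Subtype.ext
    change y * (y * (y * (x : P) * y⁻¹) * y⁻¹) * y⁻¹ = x
    have h1 : y * (y * (y * (x : P) * y⁻¹) * y⁻¹) * y⁻¹ = (y * y * y) * (x : P) * (y * y * y)⁻¹ := by
      group
    have h2 : y * y * y = 1 := by rw [← hy]; simp only [pow_succ, pow_zero, one_mul]
    rw [h1, h2]
    group
  have hp' : ∀ x : ↥F, x * x * x = 1 := by
    intro x
    apply Subtype.ext
    change (x : P) * x * x = 1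
    rw [← hp x x.2]
    simp only [pow_succ, pow_zero, one_mul]
  have h1 := card_le_cube_of_hom c h3 hp'
  refine h1.trans (Nat.pow_le_pow_left ?_ 3)
  let f : {x : ↥F // c x = x} → ↥(F ⊓ Subgroup.centralizer ({y} : Set P)) := fun x =>
    ⟨x.1.1, x.1.2, by
      change (x.1 : P) ∈ Subgroup.centralizer ({y} : Set P)
      rw [Subgroup.mem_centralizer_singleton_iff]
      have h2 : y * (x.1 : P) * y⁻¹ = x.1 := congrArg Subtype.val x.2
      rw [mul_inv_eq_iff_eq_mul] at h2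
      exact h2.symm⟩
  apply Nat.card_le_card_of_injective f
  intro a b hab
  have h3 : ((a.1 : ↥F) : P) = ((b.1 : ↥F) : P) :=
    congrArg (fun z : ↥(F ⊓ Subgroup.centralizer ({y} : Set P)) => (z : P)) hab
  exact Subtype.ext (Subtype.ext h3)

/-- Centralizers of subgroups of order at least `9` have rank at least three. -/
theorem not_rank_centralizer (hP : IsPGroup 3 P) {F : Subgroup P} (hF : F.Normal)
    (hFea : IsElementaryAbelian 3 F) (hF81 : 81 ≤ Nat.card F) {X : Subgroup P}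
    (hX : IsElementaryAbelian 3 X) (hXc : 3 ^ 2 ≤ Nat.card X) :
    ¬ PRankLE 3 2 ↥(Subgroup.centralizer (X : Set P)) := by
  classical
  have h3 : Fact (Nat.Prime 3) := ⟨Nat.prime_three⟩
  have hXcomm := ea_comm hX
  by_cases hX9 : 3 ^ 2 < Nat.card X
  · exact not_rank_of_le hX hX9 (fun d hd x hx => hXcomm d hd x hx)
  have hX9' : Nat.card X = 9 := by
    have : Nat.card X ≤ 3 ^ 2 := not_lt.1 hX9
    norm_num at this hXc
    omega
  have hFne : F ≠ ⊥ := by
    intro h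
    rw [h, Subgroup.card_bot] at hF81
    omega
  obtain ⟨z, hzF, hz1, hzc⟩ := Cfsg.Agent.Lib.NormalKlein.exists_central_of_normal hP F hF hFne
  have hzcen : ∀ g : P, g * z = z * g := fun g => (Subgroup.mem_center_iff.1 hzc g)
  have hz3 : z ^ 3 = 1 := hFea.2 z hzF
  have hZea : IsElementaryAbelian 3 (Subgroup.zpowers z) := by
    refine ea_of_comm ?_ ?_
    · rintro _ ⟨i, rfl⟩ _ ⟨j, rfl⟩
      exact (Commute.refl z).zpow_zpow i j
    · rintro _ ⟨i, rfl⟩
      change (z ^ i) ^ 3 = 1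
      rw [← zpow_natCast, ← zpow_mul, mul_comm, zpow_mul, zpow_natCast, hz3, one_zpow]
  have hzcen' : ∀ g : P, ∀ a ∈ Subgroup.zpowers z, g * a = a * g := by
    rintro g _ ⟨i, rfl⟩
    exact (show Commute g z from hzcen g).zpow_right i
  by_cases hzX : z ∈ X
  swap
  · -- add `z`
    have hD := sup_ea hX hZea (fun a _ b hb => hzcen' a b hb)
    refine not_rank_of_le hD ?_ ?_
    · norm_num
      rw [show (9 : ℕ) = Nat.card X from hX9'.symm]
      by_contra hlt
      have h1 : X = X ⊔ Subgroup.zpowers z :=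
        Subgroup.eq_of_le_of_card_ge le_sup_left (not_lt.1 hlt)
      exact hzX (h1 ▸ Subgroup.mem_sup_right (Subgroup.mem_zpowers z))
    · intro d hd x hx
      exact (comm_sup (A := X) (x := x) (e := z) (fun a ha => hXcomm x hx a ha) (hzcen x) hd).symm
  -- write `X = ⟨z, y⟩`
  have hzcard : Nat.card (Subgroup.zpowers z) = 3 := by
    rw [Nat.card_zpowers]
    exact orderOf_eq_prime hz3 hz1
  obtain ⟨y, hyX, hy⟩ : ∃ y ∈ X, y ∉ Subgroup.zpowers z := by
    by_contra hcon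
    push Not at hcon
    have := Nat.card_le_card_of_injective _
      (Subgroup.inclusion_injective (show X ≤ Subgroup.zpowers z from hcon))
    rw [hX9', hzcard] at this
    omega
  have hXsup : Subgroup.zpowers z ⊔ Subgroup.zpowers y = X := by
    apply eq_of_card_three_mul (A := Subgroup.zpowers z) (k := 1) hP le_sup_left ?_ ?_
      (by rw [hzcard]; norm_num) (by rw [hX9']; norm_num)
    · intro h
      exact hy (h ▸ Subgroup.mem_sup_right (Subgroup.mem_zpowers y))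
    · exact sup_le ((Subgroup.zpowers_le).2 hzX) ((Subgroup.zpowers_le).2 hyX)
  have hcomX : ∀ d : P, d * y = y * d → ∀ x ∈ X, d * x = x * d := by
    intro d hd x hx
    rw [← hXsup] at hx
    exact comm_sup (A := Subgroup.zpowers z) (x := d) (e := y) (hzcen' d) hd hx
  have hy3 : y ^ 3 = 1 := hX.2 y hyX
  by_cases hyF : y ∈ F
  · refine not_rank_of_le hFea (by norm_num; omega) ?_
    intro d hd x hx
    exact hcomX d (ea_comm hFea d hd y hyF) x hx
  · -- the centralizer of `y` in `F`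
    have h1 := card_le_cube hF hFea hy3
    set Fy := F ⊓ Subgroup.centralizer ({y} : Set P) with hFy
    have hFyF : Fy ≤ F := inf_le_left
    have hFyea : IsElementaryAbelian 3 Fy :=
      ea_of_comm (fun a ha b hb => ea_comm hFea a (hFyF ha) b (hFyF hb)) (fun a ha => hFea.2 a (hFyF ha))
    have hFyc : ∀ a ∈ Fy, a * y = y * a := by
      rintro a ⟨_, ha⟩
      have ha' : a ∈ Subgroup.centralizer ({y} : Set P) := ha
      exact Subgroup.mem_centralizer_singleton_iff.1 ha'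
    have hYea : IsElementaryAbelian 3 (Subgroup.zpowers y) := by
      refine ea_of_comm ?_ ?_
      · rintro _ ⟨i, rfl⟩ _ ⟨j, rfl⟩
        exact (Commute.refl y).zpow_zpow i j
      · rintro _ ⟨i, rfl⟩
        change (y ^ i) ^ 3 = 1
        rw [← zpow_natCast, ← zpow_mul, mul_comm, zpow_mul, zpow_natCast, hy3, one_zpow]
    have hD := sup_ea hFyea hYea (fun a ha _ hb => by
      obtain ⟨i, rfl⟩ := hb
      exact (show Commute a y from hFyc a ha).zpow_right i)
    obtain ⟨m, hm⟩ := IsPGroup.iff_card.1 (hP.to_subgroup Fy)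
    have hm2 : 2 ≤ m := by
      by_contra hlt
      have h4 : m ≤ 1 := by omega
      have h5 : 3 ^ m ≤ 3 ^ 1 := Nat.pow_le_pow_right (by norm_num) h4
      rw [hm] at h1
      have h6 : (3 ^ m) ^ 3 ≤ (3 ^ 1) ^ 3 := Nat.pow_le_pow_left h5 3
      omega
    have hFy9 : 9 ≤ Nat.card Fy := by
      rw [hm]
      calc 9 = 3 ^ 2 := by norm_num
        _ ≤ 3 ^ m := Nat.pow_le_pow_right (by norm_num) hm2
    refine not_rank_of_le hD ?_ ?_
    · norm_num
      by_contra hlt
      have h4 : Fy = Fy ⊔ Subgroup.zpowers y :=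
        Subgroup.eq_of_le_of_card_ge le_sup_left (by omega)
      have h5 : y ∈ Fy := h4 ▸ Subgroup.mem_sup_right (Subgroup.mem_zpowers y)
      exact hyF h5.1
    · intro d hd x hx
      apply hcomX d _ x hx
      refine (comm_sup (A := Fy) (x := y) (e := y) (fun a ha => (hFyc a ha).symm) rfl hd).symm

theorem rtg_symm {α : Type*} {r : α → α → Prop} (h : ∀ a b, r a b → r b a) {a b : α}
    (hab : Relation.ReflTransGen r a b) : Relation.ReflTransGen r b a := by
  induction hab with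
  | refl => exact .refl
  | tail _ hbc ih => exact Relation.ReflTransGen.head (h _ _ hbc) ih

/-- A finite 3-group of 3-rank at least 4 is 2-connected for the prime 3: its commuting graph on elementary abelian subgroups of order ≥ 9 is connected. -/
theorem result {P : Type*} [Group P] [Finite P] (hP : IsPGroup 3 P) (hrk : ¬ Cfsg.PRankLE 3 3 P) : Cfsg.IsKConnected 3 2 P := by
  have hfact : Fact (Nat.Prime 3) := ⟨Nat.prime_three⟩
  obtain ⟨E₀, hc, he, hcard⟩ : ∃ A : Subgroup P, IsMulCommutative A ∧ (∀ a ∈ A, a ^ 3 = 1) ∧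
      3 ^ 3 < Nat.card A := by
    by_contra h
    push Not at h
    exact hrk (fun A hA hA' => h A hA hA')
  have hE₀ : IsElementaryAbelian 3 E₀ := ⟨hc, he⟩
  obtain ⟨F, hFn, hFea, hF81⟩ := exists_normal_81 hP hE₀ (by simpa using hcard)
  have hr2 : ¬ PRankLE 3 2 P := fun h => by
    have h1 := h E₀ hc he
    have h2 : 3 ^ 2 < 3 ^ 3 := by norm_num
    omega
  obtain ⟨U, _, _, _, hU⟩ := Cfsg.Agent.S1337.result 3 hP hr2
  intro E E' hE hEc hE' hE'c
  have h1 := (hU E hE hEc).2 (not_rank_centralizer hP hFn hFea hF81 hE hEc)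
  have h2 := (hU E' hE' hE'c).2 (not_rank_centralizer hP hFn hFea hF81 hE' hE'c)
  refine h1.trans ?_
  refine rtg_symm ?_ h2
  rintro A B ⟨h3, h4, h5, h6, h7⟩
  exact ⟨h5, h6, h3, h4, fun b hb a ha => (h7 a ha b hb).symm⟩

end Cfsg.Agent.S1338
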