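import Mathlib
import Cfsg.Statements.S1348
import Cfsg.Agent.Lib.SLBlock
import Cfsg.Agent.Lib.LocalCore
import Cfsg.Agent.Lib.Replacement

set_option autoImplicit false
set_option linter.unusedSectionVars false
open Cfsg Matrix
open Cfsg.Agent.Lib.LocalCore Cfsg.Agent.Lib.SLBlock

namespace Cfsg.Agent.S1348

variable {α F : Type*} [DecidableEq α] [Fintype α] [Field F]

section setup

variable {i₀ : α} {d : α → F} {t : SpecialLinearGroup α F}

theorem isBD_of_mem (hd : ∀ j, j ≠ i₀ → d j ≠ d i₀) (ht : t.1 = diagonal d)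
    {c : SpecialLinearGroup α F} (hc : c ∈ Subgroup.centralizer ({t} : Set (SpecialLinearGroup α F))) :
    IsBD i₀ c.1 := by
  apply isBD_of_commute hd
  have h1 : c * t = t * c := (Subgroup.mem_centralizer_singleton_iff.1 hc)
  have h2 : c.1 * t.1 = t.1 * c.1 := congrArg Subtype.val h1
  rwa [ht] at h2

theorem blockSub_le (hd2 : ∀ i j, i ≠ i₀ → j ≠ i₀ → d i = d j) (ht : t.1 = diagonal d) :
    blockSub F i₀ ≤ Subgroup.centralizer ({t} : Set (SpecialLinearGroup α F)) := by
  intro g hg
  rw [Subgroup.mem_centralizer_singleton_iff]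
  apply Subtype.ext
  change g.1 * t.1 = t.1 * g.1
  rw [ht]
  ext i j
  rw [mul_diagonal, diagonal_mul]
  by_cases hi : i = i₀
  · subst hi
    rw [hg.1 j]
    by_cases hj : j = i
    · subst hj; simp
    · simp [hj]
  · by_cases hj : j = i₀
    · subst hj
      rw [hg.2 i]
      simp [hi]
    · rw [hd2 i j hi hj, mul_comm]

theorem conj_mem_blockSub (hd : ∀ j, j ≠ i₀ → d j ≠ d i₀) (ht : t.1 = diagonal d)
    {c x : SpecialLinearGroup α F} (hc : c ∈ Subgroup.centralizer ({t} : Set (SpecialLinearGroup α F)))
    (hx : x ∈ blockSub F i₀) : c * x * c⁻¹ ∈ blockSub F i₀ := by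
  have hc' : c⁻¹ ∈ Subgroup.centralizer ({t} : Set (SpecialLinearGroup α F)) := Subgroup.inv_mem _ hc
  have h1 : c.1 * (c⁻¹).1 = 1 := congrArg Subtype.val (mul_inv_cancel c)
  exact isB1_conj (isBD_of_mem hd ht hc) (isBD_of_mem hd ht hc') h1 hx

/-- The `(i₀, i₀)` entry as a homomorphism on the centralizer. -/
def rho (hd : ∀ j, j ≠ i₀ → d j ≠ d i₀) (ht : t.1 = diagonal d) :
    ↥(Subgroup.centralizer ({t} : Set (SpecialLinearGroup α F))) →* F where
  toFun c := c.1.1 i₀ i₀
  map_one' := by
    change (1 : Matrix α α F) i₀ i₀ = 1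
    simp
  map_mul' a b := by
    change (a.1.1 * b.1.1) i₀ i₀ = _
    rw [(isBD_of_mem hd ht a.2).row_mul]

theorem layer_eq (hd : ∀ j, j ≠ i₀ → d j ≠ d i₀) (hd2 : ∀ i j, i ≠ i₀ → j ≠ i₀ → d i = d j)
    (ht : t.1 = diagonal d) (hq : IsQuasisimple ↥(blockSub F i₀)) :
    (layer ↥(Subgroup.centralizer ({t} : Set (SpecialLinearGroup α F)))).map
      (Subgroup.centralizer ({t} : Set (SpecialLinearGroup α F))).subtype = blockSub F i₀ := by
  set C := Subgroup.centralizer ({t} : Set (SpecialLinearGroup α F)) with hC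
  have hle : blockSub F i₀ ≤ C := blockSub_le hd2 ht
  set S' : Subgroup ↥C := (blockSub F i₀).subgroupOf C with hS'
  have hS'n : S'.Normal := by
    constructor
    intro x hx c
    rw [hS', Subgroup.mem_subgroupOf] at hx ⊢
    exact conj_mem_blockSub hd ht c.2 hx
  have hcomp : IsComponent S' :=
    ⟨hS'n.isSubnormal, qs_of_mulEquiv (Subgroup.subgroupOfEquivOfLe hle).symm hq⟩
  have hlayer : layer ↥C = S' := by
    apply le_antisymm
    · apply sSup_le
      intro E hE
      -- `E` is perfect, so lies in the kernel of the homomorphism to `Fˣ`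
      let ρ' : ↥C →* Fˣ := (rho hd ht).toHomUnits
      have hker : E ≤ ρ'.ker := by
        rw [← comp_perfect hE, Subgroup.commutator_le]
        intro a _ b _
        rw [MonoidHom.mem_ker, map_commutatorElement, commutatorElement_eq_one_iff_commute]
        exact Commute.all _ _
      intro x hx
      have h1 : ρ' x = 1 := hker hx
      have h2 : (ρ' x : F) = 1 := by rw [h1]; rfl
      have h3 : x.1.1 i₀ i₀ = 1 := h2
      have hBD := isBD_of_mem hd ht x.2
      rw [hS', Subgroup.mem_subgroupOf]
      constructor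
      · intro k
        by_cases hk : k = i₀
        · subst hk; simpa using h3
        · simpa [hk] using (hBD k hk).1
      · intro k
        by_cases hk : k = i₀
        · subst hk; simpa using h3
        · simpa [hk] using (hBD k hk).2
    · exact comp_le_layer hcomp
  rw [hlayer, hS']
  exact Subgroup.map_subgroupOf_eq_of_le hle

/-- Elements centralizing the block are diagonal and scalar on the block. -/
theorem diag_of_centralizer (hcard : ∀ i, i ≠ i₀ → ∃ j, j ≠ i₀ ∧ j ≠ i)
    {g : SpecialLinearGroup α F} (hg : g ∈ Subgroup.centralizer (blockSub F i₀ : Set (SpecialLinearGroup α F))) :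
    (∀ a b, a ≠ b → g.1 a b = 0) ∧ ∀ i j, i ≠ i₀ → j ≠ i₀ → g.1 i i = g.1 j j := by
  have key : ∀ i j (hij : i ≠ j), i ≠ i₀ → j ≠ i₀ →
      g.1 * single i j 1 = single i j 1 * g.1 := by
    intro i j hij hi hj
    have hT : SpecialLinearGroup.transvection hij (1 : F) ∈ blockSub F i₀ := by
      constructor
      · intro k
        have h0 : (single i j (1 : F)) i₀ k = 0 := by
          rw [Matrix.single_apply]
          simp [hi]
        rw [SpecialLinearGroup.transvection_coe, Matrix.add_apply, h0, add_zero, one_apply]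
        by_cases hk : k = i₀
        · simp [hk]
        · simp [hk, Ne.symm hk]
      · intro k
        have h0 : (single i j (1 : F)) k i₀ = 0 := by
          rw [Matrix.single_apply]
          simp [hj]
        rw [SpecialLinearGroup.transvection_coe, Matrix.add_apply, h0, add_zero, one_apply]
    have h1 := Subgroup.mem_centralizer_iff.1 hg _ hT
    have h2 : (SpecialLinearGroup.transvection hij (1 : F)).1 * g.1 =
        g.1 * (SpecialLinearGroup.transvection hij (1 : F)).1 := congrArg Subtype.val h1
    rw [SpecialLinearGroup.transvection_coe, add_mul, mul_add, one_mul, mul_one] at h2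
    exact (add_left_cancel h2).symm
  have col0 : ∀ i j, i ≠ j → i ≠ i₀ → j ≠ i₀ → ∀ k, k ≠ i → g.1 k i = 0 := by
    intro i j hij hi hj k hk
    have h := congrFun (congrFun (key i j hij hi hj) k) j
    rw [mul_single_apply_same, single_mul_apply_of_ne _ _ _ _ _ hk, mul_one] at h
    exact h
  have row0 : ∀ i j, i ≠ j → i ≠ i₀ → j ≠ i₀ → ∀ l, l ≠ j → g.1 j l = 0 := by
    intro i j hij hi hj l hl
    have h := congrFun (congrFun (key i j hij hi hj) i) l
    rw [mul_single_apply_of_ne _ _ _ _ _ hl, single_mul_apply_same, one_mul] at h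
    exact h.symm
  constructor
  · intro a b hab
    by_cases hb : b = i₀
    · subst hb
      obtain ⟨j, hj, hja⟩ := hcard a hab
      exact row0 j a hja hj hab b (Ne.symm hab)
    · obtain ⟨j, hj, hjb⟩ := hcard b hb
      exact col0 b j (Ne.symm hjb) hb hj a hab
  · intro i j hi hj
    by_cases hij : i = j
    · rw [hij]
    · have h := congrFun (congrFun (key i j hij hi hj) i) j
      rw [mul_single_apply_same, single_mul_apply_same, mul_one, one_mul] at h
      exact h

/-- The core of the argument. -/
theorem standard_core [Fintype F] [DecidableEq F] (h2 : (-1 : F) ≠ 1) {i₀ : α} {d : α → F} {t : SpecialLinearGroup α F}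
    (hd0 : d i₀ = 1) (hd1 : ∀ j, j ≠ i₀ → d j = -1) (ht : t.1 = diagonal d)
    (hcard : ∀ i, i ≠ i₀ → ∃ j, j ≠ i₀ ∧ j ≠ i) (hev : Even (Fintype.card α - 1))
    (hpos : ∃ j : α, j ≠ i₀)
    (hq : IsQuasisimple ↥(blockSub F i₀)) :
    IsStandardSubgroup (blockSub F i₀) := by
  classical
  set L := blockSub F i₀ with hL
  set K := Subgroup.centralizer (L : Set (SpecialLinearGroup α F)) with hK
  have hd : ∀ j, j ≠ i₀ → d j ≠ d i₀ := by
    intro j hj
    rw [hd0, hd1 j hj]
    exact h2
  have hd2 : ∀ i j, i ≠ i₀ → j ≠ i₀ → d i = d j := by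
    intro i j hi hj
    rw [hd1 i hi, hd1 j hj]
  have hLC : L ≤ Subgroup.centralizer ({t} : Set (SpecialLinearGroup α F)) := blockSub_le hd2 ht
  have htK : t ∈ K := by
    rw [hK, Subgroup.mem_centralizer_iff]
    intro l hl
    exact (Subgroup.mem_centralizer_singleton_iff.1 (hLC hl))
  have ht2 : t * t = 1 := by
    apply Subtype.ext
    change t.1 * t.1 = 1
    rw [ht, diagonal_mul_diagonal]
    rw [← diagonal_one]
    congr 1
    ext i
    by_cases hi : i = i₀
    · subst hi; simp [hd0]
    · simp [hd1 i hi]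
  have ht1 : t ≠ 1 := by
    intro h
    obtain ⟨j, hj⟩ := hpos
    have h3 := congrFun (congrFun (congrArg Subtype.val h) j) j
    have h4 : t.1 j j = (1 : Matrix α α F) j j := h3
    rw [ht, diagonal_apply_eq, one_apply_eq, hd1 j hj] at h4
    exact h2 h4
  have hord : orderOf t = 2 := by
    apply orderOf_eq_prime
    · rw [pow_two]; exact ht2
    · exact ht1
  have hdiag : ∀ g ∈ K, (∀ a b, a ≠ b → g.1 a b = 0) ∧ ∀ i j, i ≠ i₀ → j ≠ i₀ → g.1 i i = g.1 j j :=
    fun g hg => diag_of_centralizer hcard hg
  have hform : ∀ g ∈ K, g.1 = diagonal (fun i => g.1 i i) := by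
    intro g hg
    ext a b
    by_cases hab : a = b
    · subst hab; simp
    · rw [(hdiag g hg).1 a b hab, diagonal_apply_ne _ hab]
  have hKcomm : ∀ a ∈ K, ∀ b ∈ K, a * b = b * a := by
    intro a ha b hb
    apply Subtype.ext
    change a.1 * b.1 = b.1 * a.1
    rw [hform a ha, hform b hb, diagonal_mul_diagonal, diagonal_mul_diagonal]
    congr 1
    ext i
    exact mul_comm _ _
  -- the unique involution
  have huniq : ∀ y ∈ K, y * y = 1 → y ≠ 1 → y = t := by
    intro y hy hy2 hy1
    obtain ⟨j₀, hj₀⟩ := hpos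
    set a := y.1 j₀ j₀ with ha
    set b := y.1 i₀ i₀ with hb
    have hfun : (fun i => y.1 i i) = fun i => if i = i₀ then b else a := by
      ext i
      by_cases hi : i = i₀
      · subst hi; simp [hb]
      · simp only [hi, if_false]
        exact (hdiag y hy).2 i j₀ hi hj₀
    have hy' : y.1 = diagonal (fun i => if i = i₀ then b else a) := by
      rw [← hfun]; exact hform y hy
    have hsq : y.1 * y.1 = 1 := congrArg Subtype.val hy2
    have ha2 : a * a = 1 := by
      have := congrFun (congrFun hsq j₀) j₀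
      rw [hy', diagonal_mul_diagonal, one_apply_eq, diagonal_apply_eq] at this
      simpa [hj₀] using this
    have hb2 : b * b = 1 := by
      have := congrFun (congrFun hsq i₀) i₀
      rw [hy', diagonal_mul_diagonal, one_apply_eq, diagonal_apply_eq] at this
      simpa using this
    have hdet : a ^ (Fintype.card α - 1) * b = 1 := by
      have h1 : y.1.det = 1 := y.2
      rw [hy', det_diagonal, Finset.prod_ite] at h1
      have h3 : Finset.univ.filter (fun i : α => i = i₀) = {i₀} := by
        ext i; simp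
      have h4 : (Finset.univ.filter (fun i : α => ¬ i = i₀)).card = Fintype.card α - 1 := by
        have : Finset.univ.filter (fun i : α => ¬ i = i₀) = Finset.univ.erase i₀ := by
          ext i; simp
        rw [this, Finset.card_erase_of_mem (Finset.mem_univ _), Finset.card_univ]
      rw [h3, Finset.prod_singleton, Finset.prod_const, h4] at h1
      rw [mul_comm]
      exact h1
    have ham : a ^ (Fintype.card α - 1) = 1 := by
      obtain ⟨r, hr⟩ := hev
      rw [hr, ← two_mul, pow_mul, pow_two, ha2, one_pow]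
    rw [ham, one_mul] at hdet
    rcases mul_self_eq_one_iff.1 ha2 with ha1 | ha1
    · exfalso
      apply hy1
      apply Subtype.ext
      change y.1 = 1
      rw [hy', ha1, hdet, ← diagonal_one]
      congr 1
      ext i
      simp
    · apply Subtype.ext
      rw [ht, hy', ha1, hdet]
      congr 1
      ext i
      by_cases hi : i = i₀
      · subst hi; simp [hd0]
      · simp [hi, hd1 i hi]
  have hLN : ∀ g ∈ Subgroup.centralizer ({t} : Set (SpecialLinearGroup α F)),
      g ∈ Subgroup.normalizer (L : Set (SpecialLinearGroup α F)) := by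
    intro g hg
    apply Cfsg.Agent.Lib.Replacement.mem_normalizer_of_forall
    intro x hx
    exact conj_mem_blockSub hd ht hg hx
  have hNLK : ∀ g ∈ Subgroup.normalizer (L : Set (SpecialLinearGroup α F)),
      g ∈ Subgroup.normalizer (K : Set (SpecialLinearGroup α F)) := by
    intro g hg
    apply Cfsg.Agent.Lib.Replacement.mem_normalizer_of_forall
    intro x hx
    rw [hK, Subgroup.mem_centralizer_iff] at hx ⊢
    intro l hl
    have h1 : g⁻¹ * l * g ∈ L := by
      have := (Subgroup.mem_normalizer_iff.1 hg (g⁻¹ * l * g)).2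
      apply this
      have e : g * (g⁻¹ * l * g) * g⁻¹ = l := by group
      rw [e]; exact hl
    have h2 := hx _ h1
    calc l * (g * x * g⁻¹) = g * ((g⁻¹ * l * g) * x) * g⁻¹ := by group
      _ = g * (x * (g⁻¹ * l * g)) * g⁻¹ := by rw [h2]
      _ = _ := by group
  refine ⟨hq, ⟨?_, ?_⟩, ?_, ?_⟩
  · -- even order
    have := orderOf_dvd_natCard (⟨t, htK⟩ : ↥K)
    rw [Subgroup.orderOf_mk, hord] at this
    exact even_iff_two_dvd.2 this
  · intro g hg
    by_contra hodd
    rw [Nat.not_odd_iff_even] at hodd
    have : Fact (Nat.Prime 2) := ⟨Nat.prime_two⟩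
    obtain ⟨y, hy⟩ := exists_prime_orderOf_dvd_card' 2 (even_iff_two_dvd.1 hodd)
    have hy2 : (y : SpecialLinearGroup α F) * y = 1 := by
      have := pow_orderOf_eq_one y
      rw [hy, pow_two] at this
      exact congrArg Subtype.val this
    have hy1 : (y : SpecialLinearGroup α F) ≠ 1 := by
      intro h
      have : y = 1 := Subtype.ext h
      rw [this, orderOf_one] at hy
      omega
    have e1 := huniq y.1 y.2.1 hy2 hy1
    obtain ⟨k, hk, hkg⟩ := y.2.2
    have hkg' : g * k * g⁻¹ = y.1 := hkg
    have hk2 : k * k = 1 := by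
      have : g * (k * k) * g⁻¹ = 1 := by
        calc g * (k * k) * g⁻¹ = (g * k * g⁻¹) * (g * k * g⁻¹) := by group
          _ = 1 := by rw [hkg']; exact hy2
      have h3 : k * k = g⁻¹ * (g * (k * k) * g⁻¹) * g := by group
      rw [h3, this]; group
    have hk1 : k ≠ 1 := by
      rintro rfl
      apply hy1
      rw [← hkg']; group
    have e2 := huniq k hk hk2 hk1
    apply hg
    apply hNLK
    apply hLN
    rw [Subgroup.mem_centralizer_singleton_iff]
    rw [e1, e2] at hkg'
    have := hkg'
    rw [mul_inv_eq_iff_eq_mul] at this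
    exact this
  · intro g hne hbot
    have hc := commutator_eq_bot_iff_elementwise.1 hbot
    have hsub : ∀ a ∈ L, g * a * g⁻¹ ∈ K := by
      intro a ha
      rw [hK, Subgroup.mem_centralizer_iff]
      intro l hl
      exact (hc l hl _ ⟨a, ha, rfl⟩)
    apply qs_not_comm hq
    constructor
    constructor
    intro a b
    apply Subtype.ext
    have h1 := hKcomm _ (hsub a a.2) _ (hsub b b.2)
    have h3 : g * (a.1 * b.1) * g⁻¹ = g * (b.1 * a.1) * g⁻¹ := by
      calc g * (a.1 * b.1) * g⁻¹ = (g * a.1 * g⁻¹) * (g * b.1 * g⁻¹) := by group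
        _ = (g * b.1 * g⁻¹) * (g * a.1 * g⁻¹) := h1
        _ = _ := by group
    have h4 : (a.1 * b.1) = (b.1 * a.1) := mul_left_cancel (mul_right_cancel h3)
    exact h4
  · apply le_antisymm
    · exact hNLK
    · intro g hg
      apply hLN
      rw [Subgroup.mem_centralizer_singleton_iff]
      have h1 : g * t * g⁻¹ ∈ K := (Subgroup.mem_normalizer_iff.1 hg t).1 htK
      have h3 : (g * t * g⁻¹) * (g * t * g⁻¹) = 1 := by
        calc (g * t * g⁻¹) * (g * t * g⁻¹) = g * (t * t) * g⁻¹ := by group
          _ = 1 := by rw [ht2]; group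
      have h4 : g * t * g⁻¹ ≠ 1 := by
        intro h
        apply ht1
        have h5 : t = g⁻¹ * (g * t * g⁻¹) * g := by group
        rw [h5, h]; group
      have h5 := huniq _ h1 h3 h4
      rw [mul_inv_eq_iff_eq_mul] at h5
      exact h5

end setup

/-- Let F be a finite field of odd order, n ≥ 7 odd, and t ∈ SL(n, F) the diagonal matrix with entries −1, …, −1, 1. Then E(C(t)) is a standard subgroup of SL(n, F). -/
theorem result {F : Type*} [Field F] [Fintype F] [DecidableEq F] (hF : Odd (Fintype.card F)) (n : ℕ) (hn : 7 ≤ n) (hodd : Odd n) (t : Matrix.SpecialLinearGroup (Fin n) F) (ht : (t : Matrix (Fin n) (Fin n) F) = Matrix.diagonal (fun i : Fin n => if (i : ℕ) + 1 = n then (1 : F) else -1)) : Cfsg.IsStandardSubgroup ((Cfsg.layer ↥(Subgroup.centralizer ({t} : Set (Matrix.SpecialLinearGroup (Fin n) F)))).map (Subgroup.centralizer ({t} : Set (Matrix.SpecialLinearGroup (Fin n) F))).subtype) := by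
  have h2 : (-1 : F) ≠ 1 := by
    intro h
    have hc : ringChar F = 2 := by
      have h3 : (2 : F) = 0 := by
        have : (1 : F) + 1 = 0 := by
          nth_rewrite 1 [← h]
          ring
        rw [← this]
        norm_num
      have := CharTwo.of_one_ne_zero_of_two_eq_zero (R := F) one_ne_zero h3
      exact ringChar.eq F 2
    have h4 := FiniteField.even_card_of_char_two hc
    exact (Nat.not_even_iff_odd.2 hF) (Nat.even_iff.2 h4)
  set i₀ : Fin n := ⟨n - 1, by omega⟩ with hi₀
  set d : Fin n → F := fun i => if (i : ℕ) + 1 = n then (1 : F) else -1 with hd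
  have hd0 : d i₀ = 1 := by
    change (if ((i₀ : Fin n) : ℕ) + 1 = n then (1 : F) else -1) = 1
    rw [if_pos]
    simp only [hi₀]
    omega
  have hd1 : ∀ j, j ≠ i₀ → d j = -1 := by
    intro j hj
    change (if (j : ℕ) + 1 = n then (1 : F) else -1) = -1
    rw [if_neg]
    intro h
    apply hj
    apply Fin.ext
    simp only [hi₀]
    omega
  have hd' : ∀ j, j ≠ i₀ → d j ≠ d i₀ := by
    intro j hj
    rw [hd0, hd1 j hj]
    exact h2
  have hd2 : ∀ i j, i ≠ i₀ → j ≠ i₀ → d i = d j := by
    intro i j hi hj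
    rw [hd1 i hi, hd1 j hj]
  have hcardι : Fintype.card {i : Fin n // i ≠ i₀} = n - 1 := by
    simp [Fintype.card_subtype_compl]
  have hq : IsQuasisimple ↥(blockSub F i₀) := qs_blockSub (Or.inl (by rw [hcardι]; omega))
  rw [layer_eq hd' hd2 ht hq]
  refine standard_core h2 hd0 hd1 ht ?_ ?_ ?_ hq
  · intro i hi
    have hex : ∃ k : Fin n, k ≠ i₀ ∧ k ≠ i := by
      by_contra hcon
      push Not at hcon
      have h3 : (Finset.univ : Finset (Fin n)) ⊆ {i₀, i} := by
        intro x _
        by_cases hx : x = i₀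
        · simp [hx]
        · simp [hcon x hx]
      have h4 := Finset.card_le_card h3
      have h5 : ({i₀, i} : Finset (Fin n)).card ≤ 2 := Finset.card_le_two
      rw [Finset.card_univ, Fintype.card_fin] at h4
      omega
    exact hex
  · rw [Fintype.card_fin]
    obtain ⟨r, hr⟩ := hodd
    exact ⟨r, by omega⟩
  · refine ⟨⟨0, by omega⟩, ?_⟩
    intro h
    have := congrArg Fin.val h
    simp only [hi₀] at this
    omega

end Cfsg.Agent.S1348
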