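import Mathlib
import Cfsg.Statements.S1386
import Cfsg.Agent.Lib.OddOrderCore

set_option autoImplicit false
open Cfsg

namespace Cfsg.Agent.S1386

open Cfsg.Agent.Lib.OddOrderCore

/-- Let G be a finite group, W₁, W₂ subgroups forming a self-normalizing cyclic pair, S a subgroup with W₂ ≤ S and W₁ a complement to S' in S, and (W₁, U, W₂') type-P data for S. Then W₂' = W₂ (that is, C_{S'}(W₁) = W₂). -/
theorem result {G : Type*} [Group G] [Finite G] (W₁ W₂ S U W₂' : Subgroup G) (hW : Cfsg.IsSelfNormalizingCyclic W₁ W₂)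
    (hSW : Cfsg.IsComplIn ⁅S, S⁆ W₁ S) (hW₂S : W₂ ≤ S) (hP : Cfsg.IsTypePWith S W₁ U W₂') :
    W₂' = W₂ := by
  obtain ⟨hW1ne, hW2ne, hW12, hWcomm, hWcyc, hWnorm⟩ := hW
  obtain ⟨hP1ne, hP2ne, hP12, hPcomm, hPcyc, hPnorm⟩ := hP.selfNormalizing
  obtain ⟨w, hw, hw1⟩ := (Subgroup.ne_bot_iff_exists_ne_one.mp hW1ne : ∃ a : W₁, a ≠ 1) |> fun ⟨a, ha⟩ =>
    (⟨(a : G), a.2, fun h => ha (Subtype.ext h)⟩ : ∃ w : G, w ∈ W₁ ∧ w ≠ 1)
  obtain ⟨b₀, hb₀, hb₀1⟩ := (Subgroup.ne_bot_iff_exists_ne_one.mp hW2ne : ∃ a : W₂, a ≠ 1) |> fun ⟨a, ha⟩ =>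
    (⟨(a : G), a.2, fun h => ha (Subtype.ext h)⟩ : ∃ w : G, w ∈ W₂ ∧ w ≠ 1)
  have hW1comm : ∀ a ∈ W₁, ∀ b ∈ W₁, a * b = b * a := fun a ha b hb =>
    mul_comm_of_isCyclic hP.W₁_cyclic ha hb
  have hW2' : W₂' = ⁅S, S⁆ ⊓ Subgroup.centralizer ({w} : Set G) := (hP.W₂_centralizer w hw hw1).symm
  -- `W₂ ≤ W₂'`
  have hle : W₂ ≤ W₂' := by
    intro b hb
    obtain ⟨a, ha, c, hc, hbe⟩ := hSW.2.2.2 b (hW₂S hb)
    have hbw : b * w = w * b := (hWcomm w hw b hb).symm
    have hcw : c * w = w * c := hW1comm c hc w hw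
    have haC : a * w = w * a := by
      have hab : a = b * c⁻¹ := by rw [hbe]; group
      rw [hab]
      calc b * c⁻¹ * w = b * (c⁻¹ * w) := by group
        _ = b * (w * c⁻¹) := by
            have := hW1comm c⁻¹ (W₁.inv_mem hc) w hw
            rw [this]
        _ = b * w * c⁻¹ := by group
        _ = w * b * c⁻¹ := by rw [hbw]
        _ = w * (b * c⁻¹) := by group
    have haW2' : a ∈ W₂' := by
      rw [hW2']
      refine Subgroup.mem_inf.mpr ⟨ha, ?_⟩
      rw [Subgroup.mem_centralizer_singleton_iff]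
      exact haC
    have hac : a * c = c * a := (hPcomm c hc a haW2').symm
    -- `c ^ n₂ = 1`
    have hn2 : b ^ Nat.card W₂ = 1 := pow_card_subgroup hb
    have hcn : c ^ Nat.card W₂ = 1 := by
      have h1 : a ^ Nat.card W₂ * c ^ Nat.card W₂ = 1 := by
        rw [← (show Commute a c from hac).mul_pow, ← hbe, hn2]
      have h2 : c ^ Nat.card W₂ = (a ^ Nat.card W₂)⁻¹ := (inv_eq_of_mul_eq_one_right h1).symm
      have h3 : c ^ Nat.card W₂ ∈ W₁ ⊓ W₂' :=
        ⟨W₁.pow_mem hc _, by rw [h2]; exact W₂'.inv_mem (W₂'.pow_mem haW2' _)⟩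
      rw [hP12] at h3
      exact (Subgroup.mem_bot.mp h3)
    -- in a cyclic group, elements killed by `n₂` lie in `W₂`.
    have hcW2 : c ∈ W₂ := by
      classical
      letI := Fintype.ofFinite (↥(W₁ ⊔ W₂))
      have := hWcyc
      let Z := ↥(W₁ ⊔ W₂)
      have hcZ : c ∈ W₁ ⊔ W₂ := (le_sup_left : W₁ ≤ W₁ ⊔ W₂) hc
      have hcard : (Finset.univ.filter (fun z : Z => z ^ Nat.card W₂ = 1)).card ≤ Nat.card W₂ :=
        IsCyclic.card_pow_eq_one_le (Nat.card_pos)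
      let W₂Z : Finset Z := (Finset.univ.filter (fun z : Z => (z : G) ∈ W₂))
      have hsub : W₂Z ⊆ Finset.univ.filter (fun z : Z => z ^ Nat.card W₂ = 1) := by
        intro z hz
        simp only [W₂Z, Finset.mem_filter, Finset.mem_univ, true_and] at hz ⊢
        apply Subtype.ext
        rw [Subgroup.coe_pow, Subgroup.coe_one]
        exact pow_card_subgroup hz
      have hW2card : W₂Z.card = Nat.card W₂ := by
        have hle2 : W₂ ≤ W₁ ⊔ W₂ := le_sup_right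
        have : W₂Z.card = Nat.card {z : Z // (z : G) ∈ W₂} := by
          simp [W₂Z, Nat.card_eq_fintype_card, Fintype.card_subtype]
        rw [this]
        exact Nat.card_congr
          { toFun := fun z => ⟨(z.1 : G), z.2⟩
            invFun := fun z => ⟨⟨(z : G), hle2 z.2⟩, z.2⟩
            left_inv := fun z => by ext; rfl
            right_inv := fun z => by ext; rfl }
      have heq : W₂Z = Finset.univ.filter (fun z : Z => z ^ Nat.card W₂ = 1) :=
        Finset.eq_of_subset_of_card_le hsub (by rw [hW2card]; exact hcard)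
      have hcmem : (⟨c, hcZ⟩ : Z) ∈ Finset.univ.filter (fun z : Z => z ^ Nat.card W₂ = 1) := by
        simp only [Finset.mem_filter, Finset.mem_univ, true_and]
        apply Subtype.ext
        rw [Subgroup.coe_pow, Subgroup.coe_one]
        exact hcn
      rw [← heq] at hcmem
      simpa [W₂Z] using hcmem
    have hc1 : c = 1 := by
      have : c ∈ W₁ ⊓ W₂ := ⟨hc, hcW2⟩
      rw [hW12] at this
      exact Subgroup.mem_bot.mp this
    rw [hbe, hc1, mul_one]
    exact haW2'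
  -- the two normalizers agree
  have hwb1 : w * b₀ ∉ W₁ := fun h => by
    have : b₀ ∈ W₁ := by
      have h2 := W₁.mul_mem (W₁.inv_mem hw) h
      simpa using h2
    have h3 : b₀ ∈ W₁ ⊓ W₂ := ⟨this, hb₀⟩
    rw [hW12] at h3
    exact hb₀1 (Subgroup.mem_bot.mp h3)
  have hwb2 : w * b₀ ∉ W₂ := fun h => by
    have : w ∈ W₂ := by
      have h2 := W₂.mul_mem h (W₂.inv_mem hb₀)
      simpa using h2
    have h3 : w ∈ W₁ ⊓ W₂ := ⟨hw, this⟩
    rw [hW12] at h3
    exact hw1 (Subgroup.mem_bot.mp h3)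
  have hwb2' : w * b₀ ∉ W₂' := fun h => by
    have : w ∈ W₂' := by
      have h2 := W₂'.mul_mem h (W₂'.inv_mem (hle hb₀))
      simpa using h2
    have h3 : w ∈ W₁ ⊓ W₂' := ⟨hw, this⟩
    rw [hP12] at h3
    exact hw1 (Subgroup.mem_bot.mp h3)
  have hN1 := hWnorm {w * b₀} (by
    intro x hx
    rw [Set.mem_singleton_iff] at hx
    subst hx
    refine ⟨Subgroup.mul_mem_sup hw hb₀, ?_⟩
    rintro (h | h)
    · exact hwb1 h
    · exact hwb2 h) (Set.singleton_nonempty _)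
  have hN2 := hPnorm {w * b₀} (by
    intro x hx
    rw [Set.mem_singleton_iff] at hx
    subst hx
    refine ⟨Subgroup.mul_mem_sup hw (hle hb₀), ?_⟩
    rintro (h | h)
    · exact hwb1 h
    · exact hwb2' h) (Set.singleton_nonempty _)
  have hsup : W₁ ⊔ W₂' = W₁ ⊔ W₂ := hN2.symm.trans hN1
  apply le_antisymm _ hle
  intro a ha
  have haS : a ∈ W₁ ⊔ W₂ := hsup ▸ ((le_sup_right : W₂' ≤ W₁ ⊔ W₂') ha)
  obtain ⟨c, hc, b, hb, hab⟩ := mem_sup_of_commute hWcomm haS
  have hc' : c ∈ W₂' := by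
    have : c = a * b⁻¹ := by rw [hab]; group
    rw [this]
    exact W₂'.mul_mem ha (W₂'.inv_mem (hle hb))
  have h3 : c ∈ W₁ ⊓ W₂' := ⟨hc, hc'⟩
  rw [hP12] at h3
  have hc1 : c = 1 := Subgroup.mem_bot.mp h3
  rw [hab, hc1, one_mul]
  exact hb

end Cfsg.Agent.S1386
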