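import Mathlib
import Cfsg.Statements.S1387
import Cfsg.Agent.Lib.OddOrderCore

set_option autoImplicit false
open Cfsg

namespace Cfsg.Agent.S1387

open Cfsg.Agent.Lib.OddOrderCore

/-- Let M be a subgroup of a finite group G with type-P data (W₁, U, W₂) and H = M_F. Then the Fitting subgroup F(M) is generated by H and the centralizer of H in U. -/
theorem result {G : Type*} [Group G] [Finite G] (M W₁ U W₂ : Subgroup G) (hP : Cfsg.IsTypePWith M W₁ U W₂) :
    Cfsg.fittingOf M = Cfsg.fittingHallOf M ⊔ (U ⊓ Subgroup.centralizer (Cfsg.fittingHallOf M : Set G)) := by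
  apply le_antisymm
  · intro f hf
    obtain ⟨h, hh, u, hu, rfl⟩ := hP.U_compl.2.2.2 f (hP.fitting_le hf)
    have huF : u ∈ fittingOf M := by
      have h1 : u = h⁻¹ * (h * u) := by group
      rw [h1]
      exact (fittingOf M).mul_mem ((fittingOf M).inv_mem (IsTypeP.fittingHallOf_le_fittingOf hP hh)) hf
    exact Subgroup.mul_mem_sup hh (Subgroup.mem_inf.mpr ⟨hu, IsTypeP.mem_centralizer hP hu huF⟩)
  · refine sup_le (IsTypeP.fittingHallOf_le_fittingOf hP) ?_
    rw [← hP.fitting_eq]
    exact (inf_le_inf_right _ (IsTypeP.U_le hP)).trans le_sup_right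

end Cfsg.Agent.S1387
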