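import Mathlib
import Cfsg.Statements.S1388
import Cfsg.Agent.Lib.OddOrderCore

set_option autoImplicit false
open Cfsg

namespace Cfsg.Agent.S1388

open Cfsg.Agent.Lib.OddOrderCore
open Cfsg.Agent.Lib.PCore

/-- Let M be a subgroup of a finite group G with type-P data (W₁, U, W₂) and H = M_F. Then the derived subgroup of U centralizes H, and if U ≠ 1 then U does not centralize H. -/
theorem result {G : Type*} [Group G] [Finite G] (M W₁ U W₂ : Subgroup G) (hP : Cfsg.IsTypePWith M W₁ U W₂) :
    ⁅U, U⁆ ≤ Subgroup.centralizer (Cfsg.fittingHallOf M : Set G) ∧ (U ≠ ⊥ → ¬ U ≤ Subgroup.centralizer (Cfsg.fittingHallOf M : Set G)) := by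
  have hUM' : U ≤ ⁅M, M⁆ := hP.U_compl.2.1
  constructor
  · intro x hx
    have hxU : x ∈ U := (commutator_self_le U) hx
    have hxF : x ∈ fittingOf M := by
      rw [← hP.fitting_eq]
      exact hP.derived_two_le (Subgroup.commutator_mono hUM' hUM' hx)
    exact IsTypeP.mem_centralizer hP hxU hxF
  · intro hU hUC
    apply hU
    -- `M' ≤ F(M)`, hence `M'` is nilpotent
    have hle : ⁅M, M⁆ ≤ fittingOf M := by
      intro x hx
      obtain ⟨h, hh, u, hu, rfl⟩ := hP.U_compl.2.2.2 x hx
      rw [← hP.fitting_eq]
      exact Subgroup.mul_mem_sup hh (Subgroup.mem_inf.mpr ⟨IsTypeP.U_le hP hu, hUC hu⟩)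
    have hFeq : fittingOf M = ⁅M, M⁆ := le_antisymm hP.fitting_le hle
    have hNeq : fittingSubgroup ↥M = commutator ↥M := by
      apply Subgroup.map_injective M.subtype_injective
      rw [Subgroup.map_subtype_commutator]
      exact hFeq
    have hnil : Group.IsNilpotent (commutator ↥M) := by
      rw [← hNeq]; exact isNilpotent_fittingSubgroup
    -- orders: `|M'| * |W₁| = |M|`
    have hcardN : Nat.card (commutator ↥M) = Nat.card ↥(⁅M, M⁆ : Subgroup G) := by
      rw [← Subgroup.map_subtype_commutator]
      exact (card_map_subtype M _).symm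
    have hc1 := card_mul_card_of_isComplIn hP.W₁_compl
    have hpos : 0 < Nat.card ↥(⁅M, M⁆ : Subgroup G) := Nat.card_pos
    have hpos1 : 0 < Nat.card W₁ := Nat.card_pos
    have hidx : (commutator ↥M).index = Nat.card W₁ := by
      have h1 := Subgroup.card_mul_index (commutator ↥M)
      rw [hcardN, ← hc1] at h1
      exact Nat.eq_of_mul_eq_mul_left hpos h1
    have hrel : W₁.relIndex M = Nat.card ↥(⁅M, M⁆ : Subgroup G) := by
      have h1 : W₁.relIndex M * Nat.card W₁ = Nat.card M := by
        have h2 := Subgroup.index_mul_card (W₁.subgroupOf M)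
        have h3 : Nat.card (W₁.subgroupOf M) = Nat.card W₁ :=
          Nat.card_congr (Subgroup.subgroupOfEquivOfLe hP.W₁_compl.2.1).toEquiv
        rw [h3] at h2
        exact h2
      rw [← hc1] at h1
      exact Nat.eq_of_mul_eq_mul_right hpos1 h1
    have hcop : (Nat.card (commutator ↥M)).Coprime (commutator ↥M).index := by
      rw [hcardN, hidx]
      have := hP.W₁_hall
      rw [hrel] at this
      exact this.symm
    have hN : commutator ↥M ≤ fittingHall ↥M :=
      le_fittingHall (Subgroup.commutator_normal _ _) hnil hcop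
    have hM' : ⁅M, M⁆ ≤ fittingHallOf M := by
      rw [← Subgroup.map_subtype_commutator]
      exact Subgroup.map_mono hN
    have : U ≤ fittingHallOf M ⊓ U := le_inf (hUM'.trans hM') le_rfl
    rw [hP.U_compl.2.2.1] at this
    exact le_bot_iff.mp this

end Cfsg.Agent.S1388
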