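import Cfsg.Statements.S1397
import Cfsg.Agent.Lib.BGFit5

set_option autoImplicit false
open Cfsg

namespace Cfsg.Agent.S1397

/-- Let G be a minimal simple group of odd order, M a maximal subgroup, p a prime and A₀ an elementary abelian p-subgroup of F(M) of order at least p ^ 3 that is maximal among elementary abelian p-subgroups of F(M). (a) If F(M) is not a p-group, then F(M) ∩ C_G(A₀) lies in exactly one maximal subgroup of G. (b) If F(M) is a p-group and P is a Sylow p-subgroup of M, then p does not divide the index of P in G, and every normal self-centralizing subgroup A of P containing an elementary abelian subgroup of order p ^ 3 is contained in F(M) and lies in exactly one maximal subgroup of G. -/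
theorem result {G : Type*} [Group G] [Finite G] (hG : Cfsg.IsMinSimpleOddOrder G)
    (M : Subgroup G) (hM : IsCoatom M) (p : ℕ) [Fact p.Prime] (A₀ : Subgroup G)
    (hA₀ : A₀ ≤ Cfsg.fittingOf M) (hA₀e : Cfsg.IsElementaryAbelian p A₀) (hA₀3 : p ^ 3 ≤ Nat.card A₀)
    (hA₀max : ∀ B : Subgroup G, B ≤ Cfsg.fittingOf M → Cfsg.IsElementaryAbelian p B → A₀ ≤ B → B = A₀) :
    (¬ IsPGroup p ↥(Cfsg.fittingOf M) → Cfsg.InUniqueMaximal (Cfsg.fittingOf M ⊓ Subgroup.centralizer (A₀ : Set G))) ∧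
      (IsPGroup p ↥(Cfsg.fittingOf M) → ∀ P : Sylow p M,
        ¬ p ∣ ((P : Subgroup M).map M.subtype).index ∧
        ∀ A : Subgroup G, Cfsg.IsSCN ((P : Subgroup M).map M.subtype) A → ¬ Cfsg.PRankLE p 2 ↥A →
          A ≤ Cfsg.fittingOf M ∧ Cfsg.InUniqueMaximal A) := by
  have hA₀c := hA₀e.1
  have hA₀x := hA₀e.2
  have hpp : p.Prime := Fact.out
  have hpk : p ^ 2 < Nat.card A₀ :=
    lt_of_lt_of_le (Nat.pow_lt_pow_right hpp.one_lt (by norm_num)) hA₀3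
  have hA₀p : IsPGroup p A₀ := fun a => ⟨1, Subtype.ext (by simpa using hA₀x a a.2)⟩
  have hA₀3' : ¬ Cfsg.PRankLE p 2 ↥A₀ := by
    intro h
    rw [Cfsg.Agent.Lib.BGSigma.prankLE_iff] at h
    have := h A₀ le_rfl hA₀c hA₀x
    omega
  have hF3 : ¬ Cfsg.PRankLE p 2 ↥(Cfsg.fittingOf M) := fun h =>
    hA₀3' (Cfsg.Agent.Lib.BGUniq3.prankLE_of_le hA₀ h)
  have hA₀V : A₀ ≤ Cfsg.pCoreOf p M := Cfsg.Agent.Lib.BGFit5.le_pCoreOf_of_le_fittingOf hA₀ hA₀p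
  have hV1 : Cfsg.pCoreOf p M ≠ ⊥ := by
    intro h
    apply Cfsg.Agent.Lib.BGUniq3.ne_bot_of_not_prankLE hA₀3'
    rw [eq_bot_iff, ← h]
    exact hA₀V
  constructor
  · intro _
    obtain ⟨A', hA'p, hA'c, hA'3, hU⟩ := Cfsg.Agent.Lib.BGFit5.fitting_main hG hM hF3
    have hA₀U : Cfsg.InUniqueMaximal A₀ :=
      Cfsg.Agent.Lib.BGFit5.unique_of_rank3 hG hA'p hA'c hA'3 hU hA₀p hA₀c hA₀3'
    obtain ⟨M₁, ⟨hM₁, hA₀M₁⟩, huniq⟩ := hA₀U
    have hMM₁ : M = M₁ := huniq M ⟨hM, hA₀.trans (Cfsg.Agent.Lib.BGFit2.fittingOf_le_self M)⟩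
    subst hMM₁
    refine ⟨M, ⟨hM, inf_le_left.trans (Cfsg.Agent.Lib.BGFit2.fittingOf_le_self M)⟩, ?_⟩
    rintro H ⟨hH, hLH⟩
    apply huniq H ⟨hH, ?_⟩
    exact (le_inf hA₀ (Cfsg.Agent.Lib.BGUniq3.le_centralizer_of_comm le_rfl hA₀c)).trans hLH
  · intro hFp P
    have hX : Cfsg.Agent.Lib.BGFit2.xOf p M = ⊥ :=
      Cfsg.Agent.Lib.BGUniq2.eq_bot_of_pgroup_of_coprime
        (hFp.to_le Cfsg.Agent.Lib.BGFit2.xOf_le_fittingOf) Cfsg.Agent.Lib.BGFit2.coprime_xOf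
    have hP₀ := Cfsg.Agent.Lib.CoprimeInv.isSylowIn_map P
    obtain ⟨hPt, hA⟩ := Cfsg.Agent.Lib.BGFit5.b_main hG hM hX hV1 hP₀
    constructor
    · exact (Cfsg.Agent.Lib.BGUniq2.sylowOfTop hPt).not_dvd_index
    · intro A hA1 hA3
      obtain ⟨h1, h2⟩ := hA A hA1 hA3
      exact ⟨h1.trans (Cfsg.Agent.Lib.BGFit2.pCoreOf_le_fittingOf p M), h2⟩

end Cfsg.Agent.S1397
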