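import Mathlib
import Cfsg.Agent.S1410
import Cfsg.Agent.Lib.BGFus

set_option autoImplicit false
open Cfsg

namespace Cfsg.Agent.S1413

/-- Let G be a minimal simple group of odd order, p a prime and P a Sylow p-subgroup. (c) If Q ≤ P and xQx⁻¹ ≤ P then xQx⁻¹ = yQy⁻¹ for some y ∈ N_G(P). (d) For every Q ≤ P, p does not divide the index of N_P(Q) in N_G(Q). (e) If R is a p-subgroup and Q ≤ P ∩ R is normal in N_G(P), then Q is normal in N_G(R). -/
theorem result {G : Type*} [Group G] [Finite G] (hG : Cfsg.IsMinSimpleOddOrder G) (p : ℕ) [Fact p.Prime] (P : Sylow p G) :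
    (∀ (Q : Subgroup G) (x : G), Q ≤ (P : Subgroup G) → Q.map (MulAut.conj x).toMonoidHom ≤ (P : Subgroup G) →
        ∃ y ∈ Subgroup.normalizer ((P : Subgroup G) : Set G), Q.map (MulAut.conj x).toMonoidHom = Q.map (MulAut.conj y).toMonoidHom) ∧
      (∀ Q : Subgroup G, Q ≤ (P : Subgroup G) →
        ¬ p ∣ ((P : Subgroup G) ⊓ Subgroup.normalizer (Q : Set G)).relIndex (Subgroup.normalizer (Q : Set G))) ∧
      (∀ (R Q : Subgroup G), IsPGroup p R → Q ≤ (P : Subgroup G) ⊓ R →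
        Subgroup.normalizer ((P : Subgroup G) : Set G) ≤ Subgroup.normalizer (Q : Set G) →
        Subgroup.normalizer (R : Set G) ≤ Subgroup.normalizer (Q : Set G)) := by
  have hL : ∀ H : Subgroup G, H ≠ ⊤ → Cfsg.PLengthLE p 1 H := fun H hH => Cfsg.Agent.S1410.result hG p H hH
  have hPS : Cfsg.Agent.Lib.CoprimeInv.IsSylowIn p (P : Subgroup G) ⊤ := ⟨le_top, P.2, fun R _ hR hle => P.3 hR hle⟩
  refine ⟨?_, ?_, ?_⟩
  · intro Q x hQ hx
    exact Cfsg.Agent.Lib.BGFus.part_c hG hL hPS hQ x hx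
  · intro Q hQ
    exact Cfsg.Agent.Lib.BGFus.not_dvd_relIndex (Cfsg.Agent.Lib.BGFus.part_d hG hL hPS hQ)
  · intro R Q hR hQ hN
    exact Cfsg.Agent.Lib.BGFus.part_e hG hL hPS hR hQ hN

end Cfsg.Agent.S1413
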