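import Mathlib
import Cfsg.Statements.S1441

set_option autoImplicit false
open Cfsg

namespace Cfsg.Agent.S1441

/-- Let G be a finite group, H a solvable subgroup and A a subgroup normalizing H. Suppose there is a chain H = H₀ ≥ H₁ ≥ ⋯ ≥ H_n = 1 of subgroups normal in H and normalized by A such that A acts trivially on each factor H_{i-1}/H_i (that is, [H_{i-1}, A] ≤ H_i). Then every prime dividing the index of C_A(H) in A divides the order of H. -/
theorem result {G : Type*} [Group G] [Finite G] (H A : Subgroup G) (hH : Group.IsSolvable H) (hA : (A ≤ Subgroup.normalizer (H : Set G)))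
    (n : ℕ) (c : Fin (n + 1) → Subgroup G) (hc0 : c 0 = H) (hcn : c (Fin.last n) = ⊥) (hanti : Antitone c)
    (hcN : ∀ i, H ≤ Subgroup.normalizer ((c i : Subgroup G) : Set G)) (hcA : ∀ i, A ≤ Subgroup.normalizer ((c i : Subgroup G) : Set G))
    (htriv : ∀ i : Fin n, ⁅c i.castSucc, A⁆ ≤ c i.succ) :
    ∀ p : ℕ, p.Prime → p ∣ (A ⊓ Subgroup.centralizer (H : Set G)).relIndex A → p ∣ Nat.card H := by
  intro p hp hdvd
  by_contra hpH
  have := Fact.mk hp
  obtain ⟨P⟩ : Nonempty (Sylow p A) := inferInstance
  have hnot : ¬ (P : Subgroup A) ≤ (A ⊓ Subgroup.centralizer (H : Set G)).subgroupOf A := by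
    intro hle
    have h1 := Subgroup.index_dvd_of_le hle
    exact P.not_dvd_index (hdvd.trans h1)
  obtain ⟨a, haP, haC⟩ := SetLike.not_le_iff_exists.mp hnot
  obtain ⟨k, hk⟩ := (IsPGroup.iff_orderOf.mp P.isPGroup') ⟨a, haP⟩
  have hak : ((a : A) : G) ^ (p ^ k) = 1 := by
    have h1 : (⟨a, haP⟩ : (P : Subgroup A)) ^ (p ^ k) = 1 := by
      rw [← hk]; exact pow_orderOf_eq_one _
    have h2 := congrArg (fun x : (P : Subgroup A) => (((x : A)) : G)) h1
    simpa using h2
  have key : ∀ i : Fin (n + 1), ∀ h ∈ c i, ((a : A) : G) * h = h * (a : A) := by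
    intro i
    induction i using Fin.reverseInduction with
    | last =>
      intro h hh
      rw [hcn] at hh
      rw [Subgroup.mem_bot.mp hh]; simp
    | cast i ih =>
      intro h hh
      set x : G := ((a : A) : G) with hx
      set z : G := h⁻¹ * x * h * x⁻¹ with hz
      have hzmem : z ∈ c i.succ := by
        apply htriv i
        have := Subgroup.commutator_mem_commutator ((c i.castSucc).inv_mem hh) a.2
        simpa [commutatorElement_def, hz] using this
      have hxz : x * z = z * x := ih z hzmem
      have hxh : x * h = h * z * x := by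
        simp [hz]; group
      have hpow : ∀ m : ℕ, x ^ m * h = h * z ^ m * x ^ m := by
        intro m
        induction m with
        | zero => simp
        | succ m ihm =>
          have hcomm : x * z ^ m = z ^ m * x := ((Commute.pow_right (show Commute x z from hxz) m)).eq
          calc x ^ (m + 1) * h = x * (x ^ m * h) := by rw [pow_succ']; group
            _ = x * (h * z ^ m * x ^ m) := by rw [ihm]
            _ = (x * h) * z ^ m * x ^ m := by group
            _ = (h * z * x) * z ^ m * x ^ m := by rw [hxh]
            _ = h * z * (x * z ^ m) * x ^ m := by group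
            _ = h * z * (z ^ m * x) * x ^ m := by rw [hcomm]
            _ = h * z ^ (m + 1) * x ^ (m + 1) := by
                rw [pow_succ' z m, pow_succ' x m]; group
      have hzp : z ^ (p ^ k) = 1 := by
        have h1 := hpow (p ^ k)
        rw [hak] at h1
        simpa using h1
      have hzH : z ∈ H := by
        rw [← hc0]
        exact hanti (Fin.zero_le _) hzmem
      have hz1 : z = 1 := by
        have h1 : orderOf z ∣ p ^ k := orderOf_dvd_of_pow_eq_one hzp
        have h2 : orderOf z ∣ Nat.card H := by
          have := Subgroup.orderOf_dvd_natCard H hzH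
          exact this
        have hcop : Nat.Coprime (p ^ k) (Nat.card H) :=
          Nat.Coprime.pow_left k ((Nat.Prime.coprime_iff_not_dvd hp).mpr hpH)
        have h3 : orderOf z = 1 := Nat.eq_one_of_dvd_coprimes hcop h1 h2
        exact orderOf_eq_one_iff.mp h3
      rw [hxh, hz1]; simp
  apply haC
  rw [Subgroup.mem_subgroupOf]
  refine ⟨a.2, ?_⟩
  show (a : G) ∈ Subgroup.centralizer (H : Set G)
  rw [Subgroup.mem_centralizer_iff]
  intro h hh
  have hh' : h ∈ c 0 := by rw [hc0]; exact hh
  exact (key 0 h hh').symm

end Cfsg.Agent.S1441
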