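import Mathlib
import Cfsg.Statements.S1454
import Cfsg.Agent.S1448
import Cfsg.Agent.Lib.NarrowAct
import Cfsg.Agent.Lib.RankTwoRep
import Cfsg.Agent.Lib.PCore

set_option autoImplicit false
open Cfsg

namespace Cfsg.Agent.S1454

open Subgroup Cfsg.Agent.Lib.PCore
open scoped commutatorElement

theorem index_pCore_coprime {A : Type*} [Group A] [Finite A] {p : ℕ} [hp : Fact p.Prime]
    (hle : commutator A ≤ pCore p A) : ((pCore p A).index).Coprime p := by
  have hpr := hp.out
  have hcore : pCore p (A ⧸ pCore p A) = ⊥ := pCore_quotient_pCore p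
  rw [Nat.coprime_comm, Nat.Prime.coprime_iff_not_dvd hpr]
  intro hd
  obtain ⟨x, hx⟩ := exists_prime_orderOf_dvd_card' p hd
  have hT : ∀ a b : A ⧸ pCore p A, a * b = b * a := by
    intro a b
    obtain ⟨a, rfl⟩ := QuotientGroup.mk'_surjective _ a
    obtain ⟨b, rfl⟩ := QuotientGroup.mk'_surjective _ b
    rw [← map_mul, ← map_mul]
    apply QuotientGroup.eq.mpr
    have h2 : ⁅b⁻¹, a⁻¹⁆ ∈ commutator A :=
      Subgroup.commutator_mem_commutator (mem_top _) (mem_top _)
    have h3 := hle h2
    have e2 : (a * b)⁻¹ * (b * a) = ⁅b⁻¹, a⁻¹⁆ := by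
      rw [commutatorElement_def]
      group
    rw [e2]
    exact h3
  have hzn : (Subgroup.zpowers x).Normal := by
    refine ⟨fun n hn g => ?_⟩
    have : g * n * g⁻¹ = n := by rw [hT g n]; group
    rw [this]
    exact hn
  have hzp : IsPGroup p (Subgroup.zpowers x) := by
    apply IsPGroup.of_card (n := 1)
    rw [Nat.card_zpowers, hx, pow_one]
  have h4 := le_pCore hzn hzp
  rw [hcore] at h4
  have h5 : x = 1 := by
    have := h4 (Subgroup.mem_zpowers x)
    exact Subgroup.mem_bot.mp this
  rw [h5, orderOf_one] at hx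
  exact hpr.one_lt.ne hx

/-- An automorphism of prime order `r` of a cyclic `p`-group, `r ∤ p (p - 1)`, is trivial. -/
theorem cyclic_aut_trivial {Q : Type*} [Group Q] [Finite Q] [hc : IsCyclic Q] {p : ℕ} [hp : Fact p.Prime]
    (hQ : IsPGroup p Q) {r : ℕ} (hr : r.Prime) (hrp : ¬ r ∣ p * (p - 1)) (σ : Q →* Q)
    (hσ : ∀ x, (σ^[r]) x = x) (x : Q) : σ x = x := by
  classical
  have hpp := hp.out
  haveI : NeZero p := ⟨hpp.ne_zero⟩
  obtain ⟨g, hg⟩ := hc.exists_generator
  obtain ⟨k, hk⟩ := Cfsg.Agent.Lib.Class2Det.exists_nat_of_mem_zpowers (hg (σ g))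
  have hpow : ∀ y : Q, σ y = y ^ k := by
    intro y
    obtain ⟨i, rfl⟩ := Cfsg.Agent.Lib.Class2Det.exists_nat_of_mem_zpowers (hg y)
    rw [map_pow, ← hk, ← pow_mul, ← pow_mul, mul_comm]
  have hit : ∀ n : ℕ, ∀ y : Q, (σ^[n]) y = y ^ (k ^ n) := by
    intro n
    induction n with
    | zero => intro y; simp
    | succ n ih =>
      intro y
      rw [Function.iterate_succ_apply', ih, hpow, ← pow_mul, pow_succ]
  by_cases hcard : Nat.card Q = 1
  · have : Subsingleton Q := (Nat.card_eq_one_iff_unique.mp hcard).1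
    exact Subsingleton.elim _ _
  obtain ⟨N, hN⟩ := IsPGroup.iff_card.mp hQ
  have hN0 : N ≠ 0 := by
    rintro rfl
    rw [pow_zero] at hN
    exact hcard hN
  have hd : p ∣ Nat.card Q := by
    rw [hN]
    exact dvd_pow_self p hN0
  obtain ⟨z, hz⟩ := exists_prime_orderOf_dvd_card' p hd
  have hz1 : z ≠ 1 := by
    intro h
    rw [h, orderOf_one] at hz
    exact hpp.one_lt.ne hz
  have hzp : z ^ p = 1 := by
    rw [← hz]
    exact pow_orderOf_eq_one z
  have hkr : (k : ZMod p) ^ r = 1 := by
    have h1 := hσ z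
    rw [hit] at h1
    have h2 : z ^ (k ^ r) = z ^ 1 := by rw [pow_one]; exact h1
    have h3 := Cfsg.Agent.Lib.RankTwoA2.cast_of_pow_eq_pow' hzp hz1 h2
    push_cast at h3
    exact h3
  have hk0 : (k : ZMod p) ≠ 0 := by
    intro h0
    rw [h0, zero_pow hr.ne_zero] at hkr
    exact zero_ne_one hkr
  have hk1 : (k : ZMod p) = 1 := by
    have h1 : orderOf (k : ZMod p) ∣ r := orderOf_dvd_of_pow_eq_one hkr
    have h2 : orderOf (k : ZMod p) ∣ p - 1 := orderOf_dvd_of_pow_eq_one (ZMod.pow_card_sub_one_eq_one hk0)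
    rcases (Nat.dvd_prime hr).mp h1 with h3 | h3
    · exact orderOf_eq_one_iff.mp h3
    · rw [h3] at h2
      exact absurd (Dvd.dvd.mul_left h2 p) hrp
  have hper : ∀ y : Q, y ^ (k ^ (p ^ N)) = y := by
    intro y
    have h1 : ((p : ℤ)) ∣ (k : ℤ) - ((1 : ℕ) : ℤ) := by
      rw [← ZMod.intCast_zmod_eq_zero_iff_dvd]
      push_cast
      rw [hk1, sub_self]
    have h3 := dvd_sub_pow_of_dvd_sub h1 N
    have h5 : (1 : ℕ) ≡ k ^ (p ^ N) [MOD p ^ (N + 1)] := by
      apply (Nat.modEq_iff_dvd).mpr
      push_cast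
      push_cast at h3
      simpa using h3
    have h6 : orderOf y ∣ p ^ (N + 1) := by
      refine Dvd.dvd.trans (orderOf_dvd_natCard y) ?_
      rw [hN]
      exact pow_dvd_pow p (Nat.le_succ N)
    have h8 := pow_eq_pow_iff_modEq.mpr (h5.of_dvd h6)
    rw [pow_one] at h8
    exact h8.symm
  have h1 : Function.IsPeriodicPt σ r x := hσ x
  have h2 : Function.IsPeriodicPt σ (p ^ N) x := by
    show (σ^[p ^ N]) x = x
    rw [hit]
    exact hper x
  have h3 := h1.gcd h2
  have hrne : r ≠ p := by
    rintro rfl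
    exact hrp (Dvd.intro _ rfl)
  have h4 : r.gcd (p ^ N) = 1 := Nat.Coprime.pow_right N ((Nat.coprime_primes hr hpp).mpr hrne)
  rw [h4] at h3
  exact h3

/-- Let G be a finite group, p an odd prime, R a narrow p-subgroup and A a solvable subgroup of odd order normalizing R with A ∩ C_G(R) = 1. Then [A, A] ≤ O_p(A) and the index of O_p(A) in A is coprime to p; if R has an elementary abelian subgroup of order p ^ 3 then the order of every element of A of order coprime to p divides p − 1; and if the order of A is a prime not dividing p(p − 1), then 2·#A divides p + 1, and if in addition [R, A] = R and R is non-abelian then #R = p ^ 3. -/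
theorem result {G : Type*} [Group G] [Finite G] (p : ℕ) [Fact p.Prime] (hp : p ≠ 2) (R A : Subgroup G) (hR : IsPGroup p R) (hRn : Cfsg.IsNarrow p R)
    (hA : (A ≤ Subgroup.normalizer (R : Set G))) (hAs : Group.IsSolvable A) (hAodd : Odd (Nat.card A)) (hfaith : A ⊓ Subgroup.centralizer (R : Set G) = ⊥) :
    (commutator ↥A ≤ Cfsg.pCore p ↥A ∧ ((Cfsg.pCore p ↥A).index).Coprime p) ∧
      (¬ Cfsg.PRankLE p 2 R → ∀ a ∈ A, (orderOf a).Coprime p → orderOf a ∣ p - 1) ∧
      ((Nat.card A).Prime → ¬ Nat.card A ∣ p * (p - 1) →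
        2 * Nat.card A ∣ p + 1 ∧ (⁅R, A⁆ = R → ¬ IsMulCommutative R → Nat.card R = p ^ 3)) := by
  classical
  have hpp : p.Prime := Fact.out
  let φ : A →* MulAut R := Cfsg.Agent.S1447.actHom R A hA
  have hφ1 : ∀ a : A, φ a = 1 → a = 1 := by
    intro a ha
    have h1 : ∀ x ∈ R, (a : G) * x * (a : G)⁻¹ = x := by
      intro x hx
      have h2 : φ a ⟨x, hx⟩ = ⟨x, hx⟩ := by rw [ha]; rfl
      exact congrArg Subtype.val h2
    have h3 : (a : G) ∈ A ⊓ centralizer (R : Set G) := by
      refine mem_inf.mpr ⟨a.2, ?_⟩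
      rw [mem_centralizer_iff]
      intro x hx
      have h4 := h1 x hx
      rw [mul_inv_eq_iff_eq_mul] at h4
      exact h4.symm
    rw [hfaith, mem_bot] at h3
    exact Subtype.ext h3
  have hφ : ∀ a : A, φ a = 1 → (orderOf a).Coprime p → a = 1 := fun a ha _ => hφ1 a ha
  refine ⟨?_, ?_, ?_⟩
  · have hcp := Cfsg.Agent.Lib.NarrowAct.isPGroup_commutator_of_aut hp hR hRn hAodd φ hφ
    have hle : commutator A ≤ pCore p A := le_pCore (commutator_normal _ _) hcp
    exact ⟨hle, index_pCore_coprime hle⟩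
  · intro hnr a ha hco
    have h1 := Cfsg.Agent.Lib.NarrowAct.orderOf_dvd_of_aut hp hR hRn hnr φ hφ ⟨a, ha⟩
      (by rwa [Subgroup.orderOf_mk])
    rwa [Subgroup.orderOf_mk] at h1
  · intro hprime hnd
    haveI hfact : Fact (Nat.card A).Prime := ⟨hprime⟩
    have hrne : Nat.card A ≠ p := by
      intro h
      apply hnd
      rw [h]
      exact Dvd.intro _ rfl
    have hrp1 : ¬ Nat.card A ∣ p - 1 := fun h => hnd (Dvd.dvd.mul_left h p)
    have hcop : (Nat.card A).Coprime p := (Nat.coprime_primes hprime hpp).mpr hrne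
    have hrank : Cfsg.PRankLE p 2 R := by
      by_contra hnr
      obtain ⟨a, ha⟩ := exists_prime_orderOf_dvd_card' (Nat.card A) (dvd_refl _)
      have h1 := Cfsg.Agent.Lib.NarrowAct.orderOf_dvd_of_aut hp hR hRn hnr φ hφ a (by rw [ha]; exact hcop)
      rw [ha] at h1
      exact hrp1 h1
    constructor
    · obtain ⟨ψ, hψ⟩ := Cfsg.Agent.Lib.RankTwoRep.exists_rep hp hR hrank
      let f : A →* (Matrix (Fin 2) (Fin 2) (ZMod p))ˣ := (ψ.comp φ).toHomUnits
      have finj : Function.Injective f := by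
        rw [injective_iff_map_eq_one]
        intro a ha
        have h1 : ψ (φ a) = 1 := by
          have h2 := congrArg Units.val ha
          simpa [f] using h2
        have h3 : (orderOf (φ a)).Coprime p := by
          refine Nat.Coprime.coprime_dvd_left (orderOf_map_dvd φ a) ?_
          exact Nat.Coprime.coprime_dvd_left (orderOf_dvd_natCard a) hcop
        exact hφ1 a (hψ _ h1 h3)
      have hdvd : Nat.card A ∣ Nat.card (Matrix.GeneralLinearGroup (Fin 2) (ZMod p)) :=
        Subgroup.card_dvd_of_injective f finj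
      rw [Matrix.card_GL_field, Fin.prod_univ_two, ZMod.card] at hdvd
      simp only [Fin.val_zero, Fin.val_one, pow_zero, pow_one] at hdvd
      have hp1 : 1 ≤ p := hpp.one_lt.le
      have e1 : p ^ 2 - 1 = (p - 1) * (p + 1) := by
        obtain ⟨q, rfl⟩ : ∃ q, p = q + 1 := ⟨p - 1, by omega⟩
        simp only [Nat.add_sub_cancel]
        have : (q + 1) ^ 2 = q * (q + 1 + 1) + 1 := by ring
        rw [this, Nat.add_sub_cancel]
      have e2 : p ^ 2 - p = p * (p - 1) := by
        rw [Nat.mul_sub, mul_one, pow_two]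
      rw [e1, e2] at hdvd
      have hr1 : Nat.card A ∣ p + 1 := by
        rcases (Nat.Prime.dvd_mul hprime).mp hdvd with h | h
        · rcases (Nat.Prime.dvd_mul hprime).mp h with h | h
          · exact absurd h hrp1
          · exact h
        · exact absurd h hnd
      have h2 : 2 ∣ p + 1 := by
        have hodd : Odd p := hpp.odd_of_ne_two hp
        exact even_iff_two_dvd.mp hodd.add_one
      have hc2 : Nat.Coprime 2 (Nat.card A) := by
        rw [Nat.coprime_two_left]
        exact hAodd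
      exact Nat.Coprime.mul_dvd_of_dvd_of_dvd hc2 h2 hr1
    · intro hRA hnab
      have hR1 : R ≠ ⊥ := by
        rintro rfl
        apply hnab
        exact ⟨⟨fun a b => Subsingleton.elim _ _⟩⟩
      obtain ⟨-, hs⟩ := Cfsg.Agent.S1448.result p hp R A hR hR1 hrank hA hcop hAodd hRA
      rcases hs with hab | ⟨R₁, R₂, hsup, hcomm, -, hcard₁, hexp₁, hcyc₂, hcl⟩
      · exact absurd hab hnab
      have hR₁R : R₁ ≤ R := by
        rw [← hsup]
        exact le_sup_left
      have hR₂R : R₂ ≤ R := by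
        rw [← hsup]
        exact le_sup_right
      have hdec : ∀ x ∈ R, ∃ a ∈ R₁, ∃ b ∈ R₂, x = a * b := by
        let T : Subgroup G :=
          { carrier := {x | ∃ a ∈ R₁, ∃ b ∈ R₂, x = a * b}
            one_mem' := ⟨1, one_mem _, 1, one_mem _, by simp⟩
            mul_mem' := by
              rintro _ _ ⟨a, ha, b, hb, rfl⟩ ⟨a', ha', b', hb', rfl⟩
              refine ⟨a * a', mul_mem ha ha', b * b', mul_mem hb hb', ?_⟩
              have c : b * a' = a' * b := (hcomm a' ha' b hb).symm
              calc a * b * (a' * b') = a * (b * a') * b' := by group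
                _ = a * (a' * b) * b' := by rw [c]
                _ = a * a' * (b * b') := by group
            inv_mem' := by
              rintro _ ⟨a, ha, b, hb, rfl⟩
              refine ⟨a⁻¹, inv_mem ha, b⁻¹, inv_mem hb, ?_⟩
              have c : a * b = b * a := hcomm a ha b hb
              rw [c]
              group }
        have hle : R₁ ⊔ R₂ ≤ T := sup_le (fun a ha => ⟨a, ha, 1, one_mem _, by simp⟩)
          (fun b hb => ⟨1, one_mem _, b, hb, by simp⟩)
        intro x hx
        rw [← hsup] at hx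
        exact hle hx
      have hexp : ∀ x ∈ R₁, x ^ p = 1 := by
        intro x hx
        have h1 : (⟨x, hx⟩ : R₁) ^ p = 1 := by
          rw [← hexp₁]
          exact Monoid.pow_exponent_eq_one _
        exact congrArg Subtype.val h1
      have hΩ : ∀ x ∈ R, x ^ p = 1 → x ∈ R₁ := by
        intro x hx hxp
        obtain ⟨a, ha, b, hb, rfl⟩ := hdec x hx
        have c : Commute a b := hcomm a ha b hb
        rw [c.mul_pow, hexp a ha, one_mul] at hxp
        have h1 : b ∈ closure {x : G | x ∈ R₂ ∧ x ^ p = 1} := subset_closure ⟨hb, hxp⟩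
        rw [hcl] at h1
        have h2 : (⁅R₁, R₁⁆ : Subgroup G) ≤ R₁ := by
          rw [Subgroup.commutator_le]
          intro u hu v hv
          rw [commutatorElement_def]
          exact mul_mem (mul_mem (mul_mem hu hv) (inv_mem hu)) (inv_mem hv)
        exact mul_mem ha (h2 h1)
      have hnormal : ∀ g : G, (∀ r ∈ R, g * r * g⁻¹ ∈ R) → ∀ x ∈ R₁, g * x * g⁻¹ ∈ R₁ := by
        intro g hg x hx
        apply hΩ _ (hg x (hR₁R hx))
        rw [← Cfsg.Agent.Lib.RankTwoA2.conj_pow', hexp x hx]
        simp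
      let R₁' : Subgroup R := R₁.subgroupOf R
      haveI hR₁n : R₁'.Normal := ⟨fun n hn g => by
        rw [mem_subgroupOf] at hn ⊢
        exact hnormal g (fun r hr => mul_mem (mul_mem g.2 hr) (inv_mem g.2)) n hn⟩
      let π : R →* (R ⧸ R₁') := QuotientGroup.mk' R₁'
      have hπ : Function.Surjective π := QuotientGroup.mk'_surjective R₁'
      haveI hQc : IsCyclic (R ⧸ R₁') := by
        let f : R₂ →* (R ⧸ R₁') := π.comp (Subgroup.inclusion hR₂R)
        refine isCyclic_of_surjective f ?_
        intro q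
        obtain ⟨⟨x, hx⟩, rfl⟩ := hπ q
        obtain ⟨a, ha, b, hb, rfl⟩ := hdec x hx
        refine ⟨⟨b, hb⟩, ?_⟩
        apply QuotientGroup.eq.mpr
        rw [mem_subgroupOf]
        show b⁻¹ * (a * b) ∈ R₁
        have c : a * b = b * a := hcomm a ha b hb
        rw [c, inv_mul_cancel_left]
        exact ha
      have hQp : IsPGroup p (R ⧸ R₁') := hR.to_quotient _
      have hle : ⁅R, A⁆ ≤ R₁ := by
        rw [Subgroup.commutator_le]
        intro x hx a ha
        have haR : ∀ r ∈ R, a * r * a⁻¹ ∈ R := fun r hr =>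
          (mem_normalizer_iff.mp (hA ha) r).mp hr
        let σ : (R ⧸ R₁') →* (R ⧸ R₁') :=
          QuotientGroup.map R₁' R₁' (φ ⟨a, ha⟩).toMonoidHom (fun n hn => by
            rw [mem_comap, mem_subgroupOf]
            exact hnormal a haR n hn)
        have hσk : ∀ n : ℕ, ∀ y : R, (σ^[n]) (π y) = π (((φ ⟨a, ha⟩) ^ n) y) := by
          intro n
          induction n with
          | zero => intro y; rfl
          | succ n ih =>
            intro y
            rw [Function.iterate_succ_apply', ih, pow_succ']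
            rfl
        have hσ : ∀ q, (σ^[Nat.card A]) q = q := by
          intro q
          obtain ⟨y, rfl⟩ := hπ q
          rw [hσk, ← map_pow]
          have h1 : (⟨a, ha⟩ : A) ^ Nat.card A = 1 := pow_card_eq_one'
          rw [h1, map_one]
          rfl
        have hfix := cyclic_aut_trivial hQp hprime hnd σ hσ (π ⟨x⁻¹, inv_mem hx⟩)
        have h2 : π (φ ⟨a, ha⟩ ⟨x⁻¹, inv_mem hx⟩) = π ⟨x⁻¹, inv_mem hx⟩ := hfix
        have h3 := QuotientGroup.eq.mp h2
        rw [mem_subgroupOf] at h3
        have h4 : ((a * x⁻¹ * a⁻¹)⁻¹ * x⁻¹ : G) ∈ R₁ := h3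
        have h5 := inv_mem h4
        have e : ⁅x, a⁆ = ((a * x⁻¹ * a⁻¹)⁻¹ * x⁻¹)⁻¹ := by
          simp only [commutatorElement_def]
          group
        rw [e]
        exact h5
      rw [hRA] at hle
      have hEq : R = R₁ := le_antisymm hle hR₁R
      rw [hEq]
      exact hcard₁

end Cfsg.Agent.S1454
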