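import Mathlib
import Cfsg.Statements.S1459
import Cfsg.Agent.Lib.OddLocalB
import Cfsg.Agent.Lib.PCore
import Cfsg.Agent.Lib.Frat

set_option autoImplicit false
open Cfsg

namespace Cfsg.Agent.S1459

open Cfsg.Agent.Lib.OddLocalB

/-- The quotient of a finite nilpotent group by its `q'`-core is a `q`-group. -/
theorem isPGroup_quotient_pPrimeCore {N : Type*} [Group N] [Finite N] (q : ℕ) [hq : Fact q.Prime]
    (hN : Group.IsNilpotent N) : IsPGroup q (N ⧸ pPrimeCore q N) := by
  rw [IsPGroup.iff_card]
  have hne : Nat.card (N ⧸ pPrimeCore q N) ≠ 0 := Nat.card_pos.ne'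
  refine ⟨_, Nat.eq_prime_pow_of_unique_prime_dvd hne ?_⟩
  intro r hr hrd
  by_contra hrq
  have : Fact r.Prime := ⟨hr⟩
  let P : Sylow r N := default
  have hPn : (P : Subgroup N).Normal :=
    ((Group.isNilpotent_of_finite_tfae (G := N)).out 0 3 rfl rfl).mp hN r ⟨hr⟩ P
  have hPc : (Nat.card (P : Subgroup N)).Coprime q := by
    obtain ⟨k, hk⟩ := IsPGroup.iff_card.mp P.isPGroup'
    rw [hk]
    exact Nat.Coprime.pow_left k ((Nat.coprime_primes hr hq.out).mpr hrq)
  have hle : (P : Subgroup N) ≤ pPrimeCore q N := Cfsg.Agent.Lib.PCore.le_pPrimeCore hPn hPc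
  have h1 : (pPrimeCore q N).index ∣ (P : Subgroup N).index := Subgroup.index_dvd_of_le hle
  have h2 : r ∣ (pPrimeCore q N).index := hrd
  exact P.not_dvd_index (h2.trans h1)

/-- Let G be a finite solvable group. (a) If H is a normal subgroup of order coprime to its index, K is a complement to H, and H ≤ G', then H = [H, K] and H ∩ C_G(K) ≤ [H, H]. (b) If G' is nilpotent and has prime index in G, then the order of G' is coprime to its index and G' = [G, K] (the subgroup generated by commutators of elements of G with elements of K) for every complement K of G'. -/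
theorem result {G : Type*} [Group G] [Finite G] [Group.IsSolvable G] :
    (∀ (H K : Subgroup G), H.Normal → (Nat.card H).Coprime H.index → Subgroup.IsComplement' H K → H ≤ commutator G →
        H = ⁅H, K⁆ ∧ H ⊓ Subgroup.centralizer (K : Set G) ≤ ⁅H, H⁆) ∧
      (Group.IsNilpotent ↥(commutator G) → (commutator G).index.Prime →
        (Nat.card ↥(commutator G)).Coprime (commutator G).index ∧
        ∀ K : Subgroup G, Subgroup.IsComplement' (commutator G) K → commutator G = ⁅(⊤ : Subgroup G), K⁆) := by
  classical
  constructor
  · intro H K hHn hcop hcomp hHle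
    have hsup : H ⊔ K = ⊤ := hcomp.sup_eq_top
    have hdisj : Disjoint H K := hcomp.disjoint
    have hTn : (⁅H, K⁆ : Subgroup G).Normal := commutator_normal_of_sup_eq_top H K hsup
    have hTH : ⁅H, K⁆ ≤ H := Subgroup.commutator_le_left H K
    set W : Subgroup G := ⁅H, K⁆ ⊔ ⁅H, H⁆ with hW
    have hHH : (⁅H, H⁆ : Subgroup G).Normal := inferInstance
    have hWn : W.Normal := inferInstance
    have hWH : W ≤ H := sup_le hTH (Subgroup.commutator_le_left H H)
    have hMn : (W ⊔ K).Normal := by
      refine normal_of_sup_eq_top hsup ?_ ?_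
      · intro a ha x hx
        obtain ⟨w, hw, k, hk, rfl⟩ := Subgroup.mem_sup_of_normal_left.mp hx
        have e : a * (w * k) * a⁻¹ = (a * w * a⁻¹ * (a * k * a⁻¹ * k⁻¹)) * k := by group
        rw [e]
        refine Subgroup.mem_sup_of_normal_left.mpr ⟨_, W.mul_mem (hWn.conj_mem w hw a) ?_, k, hk, rfl⟩
        exact Subgroup.mem_sup_left (Subgroup.commutator_mem_commutator ha hk)
      · intro b hb x hx
        obtain ⟨w, hw, k, hk, rfl⟩ := Subgroup.mem_sup_of_normal_left.mp hx
        have e : b * (w * k) * b⁻¹ = (b * w * b⁻¹) * (b * k * b⁻¹) := by group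
        rw [e]
        exact Subgroup.mem_sup_of_normal_left.mpr ⟨_, hWn.conj_mem w hw b, _,
          K.mul_mem (K.mul_mem hb hk) (K.inv_mem hb), rfl⟩
    have hGM : commutator G ≤ W ⊔ K := by
      refine commutator_le_of_sup_eq_top (A := H) (B := K) hsup ?_ ?_ ?_
      · exact (le_sup_right.trans le_sup_left : ⁅H, H⁆ ≤ W ⊔ K)
      · exact (le_sup_left.trans le_sup_left : ⁅H, K⁆ ≤ W ⊔ K)
      · refine le_trans ?_ (le_sup_right : K ≤ W ⊔ K)
        rw [Subgroup.commutator_le]
        intro a ha b hb
        simp only [commutatorElement_def]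
        exact K.mul_mem (K.mul_mem (K.mul_mem ha hb) (K.inv_mem ha)) (K.inv_mem hb)
    have hHW : H ≤ W := by
      intro h hh
      obtain ⟨w, hw, k, hk, rfl⟩ := Subgroup.mem_sup_of_normal_left.mp (hGM (hHle hh))
      have hkH : k ∈ H := by
        have e : k = w⁻¹ * (w * k) := by group
        rw [e]; exact H.mul_mem (H.inv_mem (hWH hw)) hh
      have hk1 : k = 1 := by
        have := Subgroup.disjoint_def.mp hdisj hkH hk
        exact this
      subst hk1
      simpa using hw
    have hHT : H ≤ ⁅H, K⁆ := le_of_le_sup_commutator hHW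
    refine ⟨le_antisymm hHT hTH, ?_⟩
    have hcop' : (Nat.card K).Coprime (Nat.card H) := by
      rw [← hcomp.symm.index_eq_card]
      exact hcop.symm
    exact inf_centralizer_le_commutator H K hcop' hHT
  · intro hnil hprime
    set N : Subgroup G := commutator G with hN
    have hNn : N.Normal := inferInstance
    set q := N.index with hq
    have hqF : Fact q.Prime := ⟨hprime⟩
    refine ⟨?_, ?_⟩
    · -- coprimality
      set R : Subgroup G := (pPrimeCore q N).map N.subtype with hR
      have hRn : R.Normal := ConjAct.normal_of_characteristic_of_normal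
      have hRN : R ≤ N := Subgroup.map_subtype_le _
      let π := QuotientGroup.mk' R
      have hX : IsPGroup q (G ⧸ R) := by
        rw [IsPGroup.iff_card]
        have h1 : R.relIndex N * N.index = R.index := Subgroup.relIndex_mul_index hRN
        have h2 : R.relIndex N = (pPrimeCore q N).index := by
          rw [Subgroup.relIndex, hR, Subgroup.subgroupOf,
            Subgroup.comap_map_eq_self_of_injective N.subtype_injective]
        obtain ⟨k, hk⟩ := IsPGroup.iff_card.mp (isPGroup_quotient_pPrimeCore q hnil)
        refine ⟨k + 1, ?_⟩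
        have h3 : Nat.card (G ⧸ R) = R.index := rfl
        rw [h3, ← h1, h2]
        have h4 : (pPrimeCore q N).index = q ^ k := hk
        rw [h4, pow_succ]
      -- the image of N is the commutator subgroup of the quotient
      have hmapN : N.map π = commutator (G ⧸ R) := by
        rw [hN, commutator_def, Subgroup.map_commutator, Subgroup.map_top_of_surjective π
          (QuotientGroup.mk'_surjective R), commutator_def]
      -- choose an element outside N
      obtain ⟨t, ht⟩ : ∃ t : G, t ∉ N := by
        by_contra hall
        push Not at hall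
        have : N = ⊤ := eq_top_iff.mpr (fun x _ => hall x)
        rw [hq, this, Subgroup.index_top] at hprime
        exact Nat.not_prime_one hprime
      have hNt : N ⊔ Subgroup.zpowers t = ⊤ := by
        have h1 : (N ⊔ Subgroup.zpowers t).index ∣ N.index :=
          Subgroup.index_dvd_of_le le_sup_left
        rcases (Nat.dvd_prime hprime).mp h1 with h2 | h2
        · exact Subgroup.index_eq_one.mp h2
        · exfalso
          have h3 : (N ⊔ Subgroup.zpowers t) ≤ N := by
            have h4 := Subgroup.relIndex_mul_index (le_sup_left : N ≤ N ⊔ Subgroup.zpowers t)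
            rw [h2] at h4
            have h5 : N.relIndex (N ⊔ Subgroup.zpowers t) = 1 := by
              have hpos : 0 < N.index := Nat.pos_of_ne_zero (Subgroup.index_ne_zero_of_finite)
              exact Nat.eq_of_mul_eq_mul_right hpos (by rw [h4, one_mul])
            exact Subgroup.relIndex_eq_one.mp h5
          exact ht (h3 (Subgroup.mem_sup_right (Subgroup.mem_zpowers t)))
      have hfr : Subgroup.zpowers (π t) ⊔ frattini (G ⧸ R) = ⊤ := by
        have h1 : (N ⊔ Subgroup.zpowers t).map π = ⊤ := by
          rw [hNt, Subgroup.map_top_of_surjective π (QuotientGroup.mk'_surjective R)]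
        rw [Subgroup.map_sup, hmapN, MonoidHom.map_zpowers] at h1
        rw [eq_top_iff, ← h1]
        refine sup_le ?_ ?_
        · exact (Cfsg.Agent.Lib.Frat.commutator_le_frattini hX).trans le_sup_right
        · exact le_sup_left
      have hcyc : Subgroup.zpowers (π t) = ⊤ := frattini_nongenerating hfr
      have hcom : ∀ a b : G ⧸ R, a * b = b * a := by
        intro a b
        have ha : a ∈ Subgroup.zpowers (π t) := by rw [hcyc]; trivial
        have hb : b ∈ Subgroup.zpowers (π t) := by rw [hcyc]; trivial
        obtain ⟨i, rfl⟩ := Subgroup.mem_zpowers_iff.mp ha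
        obtain ⟨j, rfl⟩ := Subgroup.mem_zpowers_iff.mp hb
        rw [← zpow_add, ← zpow_add, add_comm]
      have hcomm1 : commutator (G ⧸ R) = ⊥ := by
        rw [eq_bot_iff, commutator_def, Subgroup.commutator_le]
        intro a _ b _
        rw [Subgroup.mem_bot, commutatorElement_eq_one_iff_mul_comm]
        exact hcom a b
      have hNR : N ≤ R := by
        rw [hcomm1, Subgroup.map_eq_bot_iff] at hmapN
        rwa [QuotientGroup.ker_mk'] at hmapN
      have hcardeq : Nat.card N = Nat.card (pPrimeCore q N) := by
        have h1 : N = R := le_antisymm hNR hRN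
        have h2 : Nat.card R = Nat.card (pPrimeCore q N) :=
          Nat.card_congr (Subgroup.equivMapOfInjective _ _ N.subtype_injective).symm.toEquiv
        rw [← h2, ← h1]
      rw [hcardeq]
      exact Cfsg.Agent.Lib.PCore.card_pPrimeCore_coprime q
    · intro K hK
      have hsup : N ⊔ K = ⊤ := hK.sup_eq_top
      have htop : (⊤ : Subgroup G) ⊔ K = ⊤ := top_sup_eq K
      have hTn : (⁅(⊤ : Subgroup G), K⁆ : Subgroup G).Normal :=
        commutator_normal_of_sup_eq_top ⊤ K htop
      have hTN : ⁅(⊤ : Subgroup G), K⁆ ≤ N :=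
        Subgroup.commutator_mono le_rfl le_top
      have hMn : (⁅(⊤ : Subgroup G), K⁆ ⊔ ⁅N, N⁆ : Subgroup G).Normal := inferInstance
      have hNle : N ≤ ⁅(⊤ : Subgroup G), K⁆ ⊔ ⁅N, N⁆ := by
        refine commutator_le_of_sup_eq_top (A := N) (B := K) hsup le_sup_right ?_ ?_
        · exact (Subgroup.commutator_mono le_top le_rfl).trans le_sup_left
        · exact (Subgroup.commutator_mono le_top le_rfl).trans le_sup_left
      exact le_antisymm (le_of_le_sup_commutator hNle) hTN

end Cfsg.Agent.S1459
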