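import Mathlib
import Cfsg.Statements.S1460
import Cfsg.Agent.Lib.CoprimeInv

set_option autoImplicit false
open Cfsg

namespace Cfsg.Agent.S1460

open Cfsg.Agent.Lib.CoprimeInv

theorem pow_card_eq_one_of_mem {G : Type*} [Group G] {A : Subgroup G} {a : G} (ha : a ∈ A) :
    a ^ Nat.card A = 1 := by
  have h := pow_card_eq_one' (x := (⟨a, ha⟩ : A))
  have h2 : ((⟨a, ha⟩ : A) ^ Nat.card A : A).1 = (1 : A).1 := congrArg Subtype.val h
  exact h2

/-- Let G be a finite solvable group, K a normal subgroup and U a subgroup with G = KU, and H ≤ U a subgroup whose order is coprime to that of K. Then H ∩ G' = H ∩ U'; N_G(H) is generated by K ∩ C_G(H) and U ∩ N_G(H); and if gHg⁻¹ ≤ U for some g ∈ G then g = u c with u ∈ U and c ∈ K ∩ C_G(H). -/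
theorem result {G : Type*} [Group G] [Finite G] [Group.IsSolvable G] (K U H : Subgroup G) [K.Normal] (hKU : K ⊔ U = ⊤) (hH : H ≤ U) (hcop : (Nat.card H).Coprime (Nat.card K)) :
    H ⊓ commutator G = H ⊓ ⁅U, U⁆ ∧
      Subgroup.normalizer (H : Set G) = (K ⊓ Subgroup.centralizer (H : Set G)) ⊔ (U ⊓ Subgroup.normalizer (H : Set G)) ∧
      ∀ g : G, H.map (MulAut.conj g).toMonoidHom ≤ U → ∃ u ∈ U, ∃ c ∈ K ⊓ Subgroup.centralizer (H : Set G), g = u * c := by
  classical
  have hKn : K.Normal := inferInstance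
  have hdisjHK : ∀ x, x ∈ H → x ∈ K → x = 1 := by
    intro x hxH hxK
    have hd : Disjoint H K := Subgroup.disjoint_of_coprime_natCard hcop
    exact Subgroup.disjoint_def.mp hd hxH hxK
  -- the third assertion
  have hthird : ∀ g : G, H.map (MulAut.conj g).toMonoidHom ≤ U →
      ∃ u ∈ U, ∃ c ∈ K ⊓ Subgroup.centralizer (H : Set G), g = u * c := by
    intro g hg
    have hgsup : g ∈ U ⊔ K := by rw [sup_comm, hKU]; exact Subgroup.mem_top g
    obtain ⟨u, hu, k, hk, rfl⟩ := Subgroup.mem_sup_of_normal_right.mp hgsup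
    -- k H k⁻¹ ≤ U
    have hkH : ∀ h ∈ H, k * h * k⁻¹ ∈ U := by
      intro h hh
      have h1 : (u * k) * h * (u * k)⁻¹ ∈ U := hg ⟨h, hh, by simp; group⟩
      have e : k * h * k⁻¹ = u⁻¹ * ((u * k) * h * (u * k)⁻¹) * u := by group
      rw [e]
      exact U.mul_mem (U.mul_mem (U.inv_mem hu) h1) hu
    set D : Subgroup G := K ⊓ U with hD
    set H₁ : Subgroup G := cj H k with hH₁
    have hH₁U : H₁ ≤ U := by
      rintro _ ⟨h, hh, rfl⟩
      simpa using hkH h hh
    have hUnorm : U ≤ Subgroup.normalizer (D : Set G) := by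
      intro v hv
      apply Subgroup.mem_normalizer_fintype
      intro d hd
      exact ⟨hKn.conj_mem d hd.1 v, U.mul_mem (U.mul_mem hv hd.2) (U.inv_mem hv)⟩
    have hcD : (Nat.card D).Coprime (Nat.card H) := by
      have h1 : Nat.card D ∣ Nat.card K := Subgroup.card_dvd_of_le inf_le_left
      exact Nat.Coprime.coprime_dvd_left h1 hcop.symm
    have hd1 : D ⊓ H = ⊥ := by
      rw [eq_bot_iff]
      rintro x ⟨hxD, hxH⟩
      exact hdisjHK x hxH hxD.1
    have hH₁card : Nat.card H₁ = Nat.card H := card_cj H k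
    have hd2 : D ⊓ H₁ = ⊥ := by
      have hd : Disjoint D H₁ := Subgroup.disjoint_of_coprime_natCard (by rw [hH₁card]; exact hcD)
      exact hd.eq_bot
    have hsup : D ⊔ H = D ⊔ H₁ := by
      apply le_antisymm
      · refine sup_le le_sup_left ?_
        intro h hh
        have hh₁ : k * h * k⁻¹ ∈ H₁ := conj_mem_cj hh
        have e : h = (h * (k * h * k⁻¹)⁻¹) * (k * h * k⁻¹) := by group
        rw [e]
        refine Subgroup.mul_mem _ (Subgroup.mem_sup_left ?_) (Subgroup.mem_sup_right hh₁)
        refine ⟨?_, U.mul_mem (hH hh) (U.inv_mem (hH₁U hh₁))⟩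
        have e2 : h * (k * h * k⁻¹)⁻¹ = (h * k * h⁻¹) * k⁻¹ := by group
        rw [e2]
        exact K.mul_mem (hKn.conj_mem k hk h) (K.inv_mem hk)
      · refine sup_le le_sup_left ?_
        rintro _ ⟨h, hh, rfl⟩
        have e : (MulAut.conj k).toMonoidHom h = ((k * h * k⁻¹) * h⁻¹) * h := by
          simp
        rw [e]
        refine Subgroup.mul_mem _ (Subgroup.mem_sup_left ?_) (Subgroup.mem_sup_right hh)
        refine ⟨?_, U.mul_mem (hkH h hh) (U.inv_mem (hH hh))⟩
        have e2 : (k * h * k⁻¹) * h⁻¹ = k * (h * k⁻¹ * h⁻¹) := by group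
        rw [e2]
        exact K.mul_mem hk (hKn.conj_mem k⁻¹ (K.inv_mem hk) h)
    have hsolvD : Group.IsSolvable D := inferInstance
    obtain ⟨d, hdD, hH₁eq⟩ := exists_conj_rel hsolvD (hH.trans hUnorm) (hH₁U.trans hUnorm) hd1 hd2 hsup hcD
    -- c = d⁻¹ k normalizes H and lies in K, so it centralizes H
    have hc : d⁻¹ * k ∈ Subgroup.normalizer (H : Set G) := by
      rw [mem_normalizer_iff_cj, ← cj_cj, ← hH₁, hH₁eq, cj_cj]
      simp [cj_one]
    have hcK : d⁻¹ * k ∈ K := K.mul_mem (K.inv_mem hdD.1) hk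
    have hcC : d⁻¹ * k ∈ Subgroup.centralizer (H : Set G) := by
      rw [Subgroup.mem_centralizer_iff]
      intro h hh
      set c := d⁻¹ * k with hcdef
      have h1 : c * h * c⁻¹ ∈ H := (Subgroup.mem_normalizer_iff.mp hc h).mp hh
      have h2 : h * c * h⁻¹ * c⁻¹ ∈ K := K.mul_mem (hKn.conj_mem c hcK h) (K.inv_mem hcK)
      have h3 : h * c * h⁻¹ * c⁻¹ ∈ H := by
        have e : h * c * h⁻¹ * c⁻¹ = h * (c * h⁻¹ * c⁻¹) := by group
        rw [e]
        refine H.mul_mem hh ?_
        have e2 : c * h⁻¹ * c⁻¹ = (c * h * c⁻¹)⁻¹ := by group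
        rw [e2]
        exact H.inv_mem h1
      have h4 := hdisjHK _ h3 h2
      have h5 : h * c * h⁻¹ = c := by
        calc h * c * h⁻¹ = (h * c * h⁻¹ * c⁻¹) * c := by group
          _ = c := by rw [h4, one_mul]
      calc h * c = (h * c * h⁻¹) * h := by group
        _ = c * h := by rw [h5]
    refine ⟨u * d, U.mul_mem hu hdD.2, d⁻¹ * k, ⟨hcK, hcC⟩, by group⟩
  refine ⟨?_, ?_, hthird⟩
  · -- H ∩ G' = H ∩ U'
    apply le_antisymm
    · rintro x ⟨hxH, hxG⟩
      refine ⟨hxH, ?_⟩
      let π := QuotientGroup.mk' K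
      have hπ : Function.Surjective π := QuotientGroup.mk'_surjective K
      have hmap : (commutator G).map π ≤ (⁅U, U⁆ : Subgroup G).map π := by
        have hsupmap : U.map π = ⊤ := by
          have : (K ⊔ U).map π = ⊤ := by rw [hKU]; exact Subgroup.map_top_of_surjective π hπ
          rw [Subgroup.map_sup] at this
          have hK0 : K.map π = ⊥ := by
            rw [Subgroup.map_eq_bot_iff, QuotientGroup.ker_mk']
          rwa [hK0, bot_sup_eq] at this
        rw [commutator_def, Subgroup.map_commutator, Subgroup.map_commutator,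
          Subgroup.map_top_of_surjective π hπ, hsupmap]
      obtain ⟨v, hv, hvx⟩ := hmap ⟨x, hxG, rfl⟩
      have hk : v⁻¹ * x ∈ K := by
        rw [← QuotientGroup.ker_mk' K, MonoidHom.mem_ker]
        have hvx' : π v = π x := hvx
        show π (v⁻¹ * x) = 1
        rw [map_mul, map_inv, hvx', inv_mul_cancel]
      have hvU : v ∈ U := (Subgroup.commutator_le.mpr (fun a ha b hb => by
        simp only [commutatorElement_def]
        exact U.mul_mem (U.mul_mem (U.mul_mem ha hb) (U.inv_mem ha)) (U.inv_mem hb))) hv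
      have hxU : x ∈ U := hH hxH
      have hdU : v⁻¹ * x ∈ U := U.mul_mem (U.inv_mem hvU) hxU
      rw [← Subgroup.map_subtype_commutator] at hv ⊢
      obtain ⟨v', hv', rfl⟩ := hv
      -- work in the abelianization of U
      let X : U := ⟨x, hxU⟩
      let Y : U := ⟨_, hdU⟩
      have hXY : X = v' * Y := by
        apply Subtype.ext
        show x = (v' : G) * ((v' : G)⁻¹ * x)
        group
      have hv1 : Abelianization.of v' = 1 := by
        rw [← MonoidHom.mem_ker, Abelianization.ker_of]; exact hv'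
      have hofXY : Abelianization.of X = Abelianization.of Y := by
        rw [hXY, map_mul, hv1, one_mul]
      have h1 : (Abelianization.of X) ^ Nat.card H = 1 := by
        rw [← map_pow]
        have : X ^ Nat.card H = 1 := by
          apply Subtype.ext
          simpa [X] using pow_card_eq_one_of_mem hxH
        rw [this, map_one]
      have h2 : (Abelianization.of X) ^ Nat.card K = 1 := by
        rw [hofXY, ← map_pow]
        have : Y ^ Nat.card K = 1 := by
          apply Subtype.ext
          simpa [Y] using pow_card_eq_one_of_mem hk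
        rw [this, map_one]
      have h3 : Abelianization.of X = 1 := by
        have h4 := (pow_gcd_eq_one (a := Abelianization.of X)).mpr ⟨h1, h2⟩
        rwa [hcop.gcd_eq_one, pow_one] at h4
      have h5 : X ∈ commutator U := by
        rw [← Abelianization.ker_of, MonoidHom.mem_ker]; exact h3
      exact ⟨X, h5, rfl⟩
    · rintro x ⟨hxH, hxU⟩
      refine ⟨hxH, ?_⟩
      have : ⁅U, U⁆ ≤ commutator G := Subgroup.commutator_mono le_top le_top
      exact this hxU
  · -- the normalizer
    apply le_antisymm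
    · intro g hg
      have hgH : H.map (MulAut.conj g).toMonoidHom ≤ U := by
        have e : H.map (MulAut.conj g).toMonoidHom = H := cj_eq_of_mem_normalizer hg
        rw [e]; exact hH
      obtain ⟨u, hu, c, hc, rfl⟩ := hthird g hgH
      have hcN : c ∈ Subgroup.normalizer (H : Set G) :=
        Subgroup.centralizer_le_normalizer _ hc.2
      have huN : u ∈ Subgroup.normalizer (H : Set G) := by
        have e : u = (u * c) * c⁻¹ := by group
        rw [e]
        exact Subgroup.mul_mem _ hg (Subgroup.inv_mem _ hcN)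
      exact Subgroup.mul_mem _ (Subgroup.mem_sup_right ⟨hu, huN⟩) (Subgroup.mem_sup_left hc)
    · refine sup_le ?_ inf_le_right
      exact inf_le_right.trans (Subgroup.centralizer_le_normalizer _)

end Cfsg.Agent.S1460
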