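import Mathlib
import Cfsg.Statements.S1461
import Cfsg.Agent.S1460
import Cfsg.Agent.Lib.PLengthOne
import Cfsg.Agent.Lib.CoprimeInv

set_option autoImplicit false
open Cfsg

namespace Cfsg.Agent.S1461

open Cfsg.Agent.Lib.CoprimeInv Cfsg.Agent.Lib.PLengthOne Cfsg.Agent.Lib.PCore

/-- Let G be a finite solvable group, p a prime with G = O_{p',p,p'}(G), and S a Sylow p-subgroup. Then: if S ≤ G' then S ≤ [N_G(S), N_G(S)]; if Y ⊆ S and xYx⁻¹ ⊆ S then x = g c for some g ∈ N_G(S) and c centralizing Y; and for every p-subgroup Q there is x ∈ C_G(Q ∩ S) with xQx⁻¹ ≤ S. -/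
theorem result {G : Type*} [Group G] [Finite G] [Group.IsSolvable G] (p : ℕ) [Fact p.Prime] (hpl : Cfsg.PLengthLE p 1 G) (S : Sylow p G) :
    ((S : Subgroup G) ≤ commutator G → (S : Subgroup G) ≤ ⁅Subgroup.normalizer ((S : Subgroup G) : Set G), Subgroup.normalizer ((S : Subgroup G) : Set G)⁆) ∧
      (∀ (Y : Set G) (x : G), Y ⊆ (S : Subgroup G) → (fun y => x * y * x⁻¹) '' Y ⊆ (S : Subgroup G) →
        ∃ g ∈ Subgroup.normalizer ((S : Subgroup G) : Set G), ∃ c ∈ Subgroup.centralizer Y, g * c = x) ∧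
      ∀ Q : Subgroup G, IsPGroup p Q → ∃ x ∈ Subgroup.centralizer ((Q ⊓ (S : Subgroup G) : Subgroup G) : Set G), Q.map (MulAut.conj x).toMonoidHom ≤ (S : Subgroup G) := by
  classical
  set K := pPrimeCore p G with hKdef
  have hKn : K.Normal := inferInstance
  have hKcop : (Nat.card K).Coprime p := card_pPrimeCore_coprime p
  set N := Subgroup.normalizer ((S : Subgroup G) : Set G) with hN
  have hsup : K ⊔ N = ⊤ := sup_normalizer_eq_top hpl S
  have hSN : (S : Subgroup G) ≤ N := Subgroup.le_normalizer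
  have hcopP : ∀ H : Subgroup G, IsPGroup p H → (Nat.card H).Coprime (Nat.card K) := by
    intro H hH
    obtain ⟨n, hn⟩ := IsPGroup.iff_card.mp hH
    rw [hn]
    exact (Nat.Coprime.pow_right n hKcop).symm
  have hdisjQK : ∀ H : Subgroup G, IsPGroup p H → ∀ x, x ∈ H → x ∈ K → x = 1 := by
    intro H hH x hxH hxK
    have hd : Disjoint H K := Subgroup.disjoint_of_coprime_natCard (hcopP H hH)
    exact Subgroup.disjoint_def.mp hd hxH hxK
  refine ⟨?_, ?_, ?_⟩
  · intro hSc x hx
    have h := (Cfsg.Agent.S1460.result K N (S : Subgroup G) hsup hSN (hcopP _ S.isPGroup')).1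
    have hx' : x ∈ (S : Subgroup G) ⊓ commutator G := ⟨hx, hSc hx⟩
    rw [h] at hx'
    exact hx'.2
  · intro Y x hY hxY
    set H : Subgroup G := Subgroup.closure Y with hH
    have hHS : H ≤ (S : Subgroup G) := (Subgroup.closure_le _).mpr hY
    have hHp : IsPGroup p H := S.isPGroup'.to_le hHS
    have h := (Cfsg.Agent.S1460.result K N H hsup (hHS.trans hSN) (hcopP _ hHp)).2.2 x ?_
    · obtain ⟨u, hu, c, hc, hxe⟩ := h
      refine ⟨u, hu, c, ?_, hxe.symm⟩
      exact Subgroup.centralizer_le Subgroup.subset_closure hc.2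
    · rw [Subgroup.map_le_iff_le_comap]
      rw [hH, Subgroup.closure_le]
      intro y hy
      exact hSN (hxY ⟨y, hy, rfl⟩)
  · intro Q hQ
    set S₀ : Subgroup G := (S : Subgroup G) ⊓ (K ⊔ Q) with hS₀
    have hS₀p : IsPGroup p S₀ := S.isPGroup'.to_le inf_le_left
    have h1 : K ⊓ Q = ⊥ := by
      rw [eq_bot_iff]
      rintro x ⟨hxK, hxQ⟩
      exact hdisjQK Q hQ x hxQ hxK
    have h2 : K ⊓ S₀ = ⊥ := by
      rw [eq_bot_iff]
      rintro x ⟨hxK, hxS⟩
      exact hdisjQK S₀ hS₀p x hxS hxK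
    have h3 : K ⊔ Q = K ⊔ S₀ := by
      apply le_antisymm
      · refine sup_le le_sup_left ?_
        intro q hq
        have hq' := isPGroup_le_sup hpl S hQ hq
        rw [sup_comm] at hq'
        obtain ⟨s, hs, k, hk, rfl⟩ := Subgroup.mem_sup_of_normal_right.mp hq'
        have hs' : s ∈ K ⊔ Q := by
          have e : s = (s * k) * k⁻¹ := by group
          rw [e]
          exact Subgroup.mul_mem _ (Subgroup.mem_sup_right hq)
            (Subgroup.mem_sup_left (K.inv_mem hk))
        have e : s * k = (s * k * s⁻¹) * s := by group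
        rw [e]
        exact Subgroup.mul_mem _ (Subgroup.mem_sup_left (hKn.conj_mem k hk s))
          (Subgroup.mem_sup_right ⟨hs, hs'⟩)
      · exact sup_le le_sup_left (inf_le_right)
    have hnorm : ∀ H : Subgroup G, H ≤ Subgroup.normalizer (K : Set G) := by
      intro H x _
      rw [Subgroup.normalizer_eq_top_iff.mpr hKn]
      trivial
    obtain ⟨k, hk, hS₀eq⟩ := exists_conj_rel (inferInstance : Group.IsSolvable K) (hnorm Q) (hnorm S₀)
      h1 h2 h3 (hcopP Q hQ).symm
    refine ⟨k, ?_, ?_⟩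
    · rw [Subgroup.mem_centralizer_iff]
      rintro y ⟨hyQ, hyS⟩
      -- `y` lies in `S₀ = k Q k⁻¹`
      have hyS₀ : y ∈ S₀ := ⟨hyS, Subgroup.mem_sup_right hyQ⟩
      rw [hS₀eq] at hyS₀
      obtain ⟨z, hz, hzy⟩ := hyS₀
      have hzy' : k * z * k⁻¹ = y := hzy
      have hcomm : z * y⁻¹ = 1 := by
        apply hdisjQK Q hQ _ (Q.mul_mem hz (Q.inv_mem hyQ))
        have e2 : z * y⁻¹ = (z * k * z⁻¹) * k⁻¹ := by
          rw [← hzy']; group
        rw [e2]
        exact K.mul_mem (hKn.conj_mem _ hk z) (K.inv_mem hk)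
      have hzy2 : z = y := by
        calc z = z * y⁻¹ * y := by group
          _ = y := by rw [hcomm, one_mul]
      rw [hzy2] at hzy'
      calc y * k = (k * y * k⁻¹) * k := by rw [hzy']
        _ = k * y := by group
    · have : Q.map (MulAut.conj k).toMonoidHom = S₀ := hS₀eq.symm
      rw [this]
      exact inf_le_left

end Cfsg.Agent.S1461
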