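import Mathlib
import Cfsg.Statements.S1463
import Cfsg.Agent.Lib.GL2OddGroup

set_option autoImplicit false
open Cfsg

open scoped MatrixGroups

namespace Cfsg.Agent.S1463

/-- Let F be a field of odd characteristic p and H a finite subgroup of odd order of GL(2, F) that leaves no 1-dimensional subspace of F² invariant. Then p does not divide the order of H. -/
theorem result {F : Type*} [Field F] (p : ℕ) [Fact p.Prime] [CharP F p] (hp : p ≠ 2)
    (H : Subgroup (GL (Fin 2) F)) [Finite H] (hodd : Odd (Nat.card H))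
    (hirr : ∀ v : Fin 2 → F, v ≠ 0 → ∃ g ∈ H, (g : Matrix (Fin 2) (Fin 2) F).mulVec v ∉ Submodule.span F {v}) :
    ¬ p ∣ Nat.card H := by
  intro hdvd
  let ρ : H →* Matrix (Fin 2) (Fin 2) F := (Units.coeHom _).comp H.subtype
  have hinj : Function.Injective ρ := by
    intro a b hab
    apply Subtype.ext
    apply Units.ext
    exact hab
  obtain ⟨v, hv, hinv⟩ := Cfsg.Agent.Lib.GL2OddGroup.exists_invariant_line hp hinj hodd hdvd
  obtain ⟨g, hg, hgv⟩ := hirr v hv
  apply hgv
  obtain ⟨c, hc⟩ := hinv ⟨g, hg⟩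
  rw [Submodule.mem_span_singleton]
  exact ⟨c, hc.symm⟩

end Cfsg.Agent.S1463
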