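import Mathlib
import Cfsg.Statements.S1466
import Cfsg.Agent.Lib.PuigBasic

set_option autoImplicit false
open Cfsg

namespace Cfsg.Agent.S1466

open Cfsg.Agent.Lib.PuigBasic

theorem center_le_centralizer {R : Type*} [Group R] (T : Subgroup R) :
    Subgroup.center R ≤ Subgroup.centralizer (T : Set R) := by
  intro z hz
  rw [Subgroup.mem_centralizer_iff]
  intro t _
  exact (Subgroup.mem_center_iff.mp hz t)

/-- Let p be a prime and R a nontrivial finite p-group. Then for every i > 0, Z(R) ≤ C_R(L_i(R)) ≤ L_i(R); likewise Z(R) ≤ C_R(L_*(R)) ≤ L_*(R) and Z(R) ≤ C_R(L(R)) ≤ L(R); and L(R) ≠ 1, L_*(R) ≠ 1. -/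
theorem result {R : Type*} [Group R] [Finite R] (p : ℕ) [Fact p.Prime] (hR : IsPGroup p R) [Nontrivial R] :
    (∀ i : ℕ, 0 < i → Subgroup.center R ≤ Subgroup.centralizer ((Cfsg.puigSeq R i : Subgroup R) : Set R) ∧
        Subgroup.centralizer ((Cfsg.puigSeq R i : Subgroup R) : Set R) ≤ Cfsg.puigSeq R i) ∧
      (Subgroup.center R ≤ Subgroup.centralizer ((Cfsg.puigLower R : Subgroup R) : Set R) ∧ Subgroup.centralizer ((Cfsg.puigLower R : Subgroup R) : Set R) ≤ Cfsg.puigLower R) ∧
      (Subgroup.center R ≤ Subgroup.centralizer ((Cfsg.puigSubgroup R : Subgroup R) : Set R) ∧ Subgroup.centralizer ((Cfsg.puigSubgroup R : Subgroup R) : Set R) ≤ Cfsg.puigSubgroup R) ∧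
      Cfsg.puigSubgroup R ≠ ⊥ ∧ Cfsg.puigLower R ≠ ⊥ := by
  have hab : ∀ i : ℕ, 0 < i → ∀ A : Subgroup R, A.Normal → IsMulCommutative A → A ≤ puigSeq R i := by
    intro i hi A hA hc
    obtain ⟨j, rfl⟩ : ∃ j, i = j + 1 := ⟨i - 1, by omega⟩
    rw [puigSeq_succ]
    exact abelian_normal_le_puigStep _ A hc
  have hmain : ∀ i : ℕ, 0 < i →
      Subgroup.centralizer ((puigSeq R i : Subgroup R) : Set R) ≤ puigSeq R i := by
    intro i hi
    exact centralizer_le_of_abelian_normal_le hR _ (hab i hi)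
  obtain ⟨k, hk1, hk⟩ := exists_stable (G := R)
  have hlow : puigSeq R (2 * k) = puigLower R := (hk k le_rfl).1
  have hup : puigSeq R (2 * k + 1) = puigSubgroup R := (hk k le_rfl).2
  have hcenter_ne : Subgroup.center R ≠ ⊥ := (hR.bot_lt_center).ne'
  have hcenterle : ∀ i : ℕ, 0 < i → Subgroup.center R ≤ puigSeq R i := fun i hi =>
    hab i hi _ inferInstance inferInstance
  refine ⟨fun i hi => ⟨center_le_centralizer _, hmain i hi⟩, ⟨center_le_centralizer _, ?_⟩,
    ⟨center_le_centralizer _, ?_⟩, ?_, ?_⟩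
  · rw [← hlow]; exact hmain _ (by omega)
  · rw [← hup]; exact hmain _ (by omega)
  · intro hbot
    rw [← hup] at hbot
    have := hcenterle (2 * k + 1) (by omega)
    rw [hbot] at this
    exact hcenter_ne (le_bot_iff.mp this)
  · intro hbot
    rw [← hlow] at hbot
    have := hcenterle (2 * k) (by omega)
    rw [hbot] at this
    exact hcenter_ne (le_bot_iff.mp this)

end Cfsg.Agent.S1466
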