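import Mathlib
import Cfsg.Statements.S1470
import Cfsg.Agent.Lib.NormPoly

set_option autoImplicit false
open Cfsg

namespace Cfsg.Agent.S1470

/-- Let p and q be odd primes with (p^q − 1)/(p − 1) coprime to p − 1, and let E be the set of elements a of the field with p ^ q elements whose norm to the prime field is 1 and for which 2 − a also has norm 1. If a⁻¹ ∈ E for every a ∈ E and E has at least two elements, then p ≤ q. -/
theorem result (p q : ℕ) [Fact p.Prime] [Fact q.Prime] (hp : p ≠ 2) (hq : q ≠ 2) (hA : Nat.Coprime ((p ^ q - 1) / (p - 1)) (p - 1))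
    (hinv : ∀ a ∈ {a : GaloisField p q | Algebra.norm (ZMod p) a = 1 ∧ Algebra.norm (ZMod p) (2 - a) = 1}, a⁻¹ ∈ {a : GaloisField p q | Algebra.norm (ZMod p) a = 1 ∧ Algebra.norm (ZMod p) (2 - a) = 1})
    (h2 : 2 ≤ Set.ncard {a : GaloisField p q | Algebra.norm (ZMod p) a = 1 ∧ Algebra.norm (ZMod p) (2 - a) = 1}) :
    p ≤ q := by
  classical
  set E : Set (GaloisField p q) := {a : GaloisField p q | Algebra.norm (ZMod p) a = 1 ∧ Algebra.norm (ZMod p) (2 - a) = 1} with hE
  obtain ⟨a, haE, ha1⟩ := Set.exists_ne_of_one_lt_ncard (s := E) (by omega) (1 : GaloisField p q)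
  have hN0 : ∀ x : GaloisField p q, Algebra.norm (ZMod p) x = 1 → x ≠ 0 := by
    rintro x hx rfl
    rw [Algebra.norm_zero] at hx
    exact zero_ne_one hx
  have ha1' : a - 1 ≠ 0 := sub_ne_zero.mpr ha1
  set z : GaloisField p q := (a - 1)⁻¹ with hz
  have hz0 : z ≠ 0 := inv_ne_zero ha1'
  -- the orbit stays in `E`
  have horbit : ∀ k : ℕ, z - k ≠ 0 ∧ 1 + (z - k)⁻¹ ∈ E := by
    intro k
    induction k with
    | zero =>
      refine ⟨by simpa using hz0, ?_⟩
      have : 1 + (z - ((0 : ℕ) : GaloisField p q))⁻¹ = a := by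
        simp [hz]
      rw [this]
      exact haE
    | succ k ih =>
      obtain ⟨hw, hb⟩ := ih
      set w : GaloisField p q := z - k with hwdef
      set b : GaloisField p q := 1 + w⁻¹ with hbdef
      have h1 : 2 - b ∈ E := by
        refine ⟨hb.2, ?_⟩
        have : (2 : GaloisField p q) - (2 - b) = b := by ring
        show Algebra.norm (ZMod p) ((2 : GaloisField p q) - (2 - b)) = 1
        rw [this]
        exact hb.1
      have h2' := hinv _ h1
      have hne : 2 - b ≠ 0 := hN0 _ h1.1
      have hw1 : w - 1 ≠ 0 := by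
        intro h0
        apply hne
        have : w = 1 := sub_eq_zero.mp h0
        rw [hbdef, this]
        norm_num
      have e1 : z - ((k + 1 : ℕ) : GaloisField p q) = w - 1 := by
        rw [hwdef]; push_cast; ring
      rw [e1]
      refine ⟨hw1, ?_⟩
      have e2 : (2 - b)⁻¹ = 1 + (w - 1)⁻¹ := by
        have e3 : 2 - b = (w - 1) / w := by
          rw [hbdef]; field_simp; ring
        rw [e3, inv_div]
        field_simp
        ring
      rw [← e2]
      exact h2'
  -- all norms agree
  have hnorm : ∀ k : ℕ, Algebra.norm (ZMod p) (z - k) = Algebra.norm (ZMod p) z := by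
    intro k
    induction k with
    | zero => simp
    | succ k ih =>
      obtain ⟨hw, hb⟩ := horbit (k + 1)
      have e1 : z - (k : GaloisField p q) = (z - ((k + 1 : ℕ) : GaloisField p q)) * (1 + (z - ((k + 1 : ℕ) : GaloisField p q))⁻¹) := by
        rw [mul_add, mul_one, mul_inv_cancel₀ hw]
        push_cast
        ring
      rw [← ih, e1, map_mul, hb.1, mul_one]
  apply Cfsg.Agent.Lib.NormPoly.le_of_norm_const p q z (Algebra.norm (ZMod p) z)
  intro t
  have := hnorm (-t).val
  have e : z - (((-t).val : ℕ) : GaloisField p q) = algebraMap (ZMod p) (GaloisField p q) t + z := by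
    have e2 : (((-t).val : ℕ) : GaloisField p q) = algebraMap (ZMod p) (GaloisField p q) (-t) := by
      rw [← map_natCast (algebraMap (ZMod p) (GaloisField p q)), ZMod.natCast_zmod_val]
    rw [e2, map_neg]
    ring
  rw [← e]
  exact this

end Cfsg.Agent.S1470
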