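import Mathlib
import Cfsg.Statements.S1481
import Cfsg.Agent.Lib.FitPair
import Cfsg.Agent.Lib.Glauberman
import Cfsg.Agent.Lib.BGTrans2

set_option autoImplicit false
set_option linter.style.haveILetI false

open Cfsg Subgroup
open scoped Pointwise

namespace Cfsg.Agent.S1481

open Cfsg.Agent.Lib.FitPair Cfsg.Agent.Lib.BGTrans Cfsg.Agent.Lib.CoprimeInv Cfsg.Agent.Lib.PCore

variable {G : Type*} [Group G] [Finite G]

theorem card_mul_relIndex_of_le {A B : Subgroup G} (h : A ≤ B) :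
    Nat.card A * A.relIndex B = Nat.card B := by
  have h1 := Subgroup.card_mul_index (A.subgroupOf B)
  rwa [card_subgroupOf_of_le h] at h1

theorem IsSylowIn.not_dvd_relIndex {q : ℕ} [Fact q.Prime] {S L : Subgroup G}
    (h : IsSylowIn q S L) : ¬ q ∣ S.relIndex L :=
  (h.toSylow).not_dvd_index

theorem solvable_sup {A B : Subgroup G} (hAB : B ≤ normalizer (A : Set G))
    (hA : Group.IsSolvable A) (hB : Group.IsSolvable B) : Group.IsSolvable (B ⊔ A : Subgroup G) := by
  haveI hn := Subgroup.normal_subgroupOf_sup_of_le_normalizer hAB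
  haveI hn' := Subgroup.normal_subgroupOf_of_le_normalizer hAB
  have h1 : Group.IsSolvable (A.subgroupOf (B ⊔ A)) :=
    Group.isSolvable_of_isSolvable_injective
      (f := (Subgroup.subgroupOfEquivOfLe (le_sup_right : A ≤ B ⊔ A)).toMonoidHom)
      (MulEquiv.injective _)
  have h2 : Group.IsSolvable ((B ⊔ A : Subgroup G) ⧸ A.subgroupOf (B ⊔ A)) :=
    Group.isSolvable_of_surjective
      (f := (QuotientGroup.quotientInfEquivProdNormalizerQuotient B A hAB).toMonoidHom)
      (MulEquiv.surjective _)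
  exact (Group.isSolvable_iff_subgroup_quotient (A.subgroupOf (B ⊔ A))).mpr ⟨h1, h2⟩

theorem le_normalizer_sup {g : G} {A B : Subgroup G} (hA : g ∈ normalizer (A : Set G))
    (hB : g ∈ normalizer (B : Set G)) : g ∈ normalizer ((A ⊔ B : Subgroup G) : Set G) := by
  rw [mem_normalizer_iff_cj] at hA hB ⊢
  unfold cj at hA hB ⊢
  rw [Subgroup.map_sup, hA, hB]

/-- (a): `X ∩ R ≤ F`. -/
theorem inf_le_fitting {H R : Subgroup G} (hR : Group.IsSolvable R)
    (hXR : H ⊓ centralizer (fittingOf H : Set G) ≤ normalizer (R : Set G)) :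
    (H ⊓ centralizer (fittingOf H : Set G)) ⊓ R ≤ fittingOf H := by
  set X := H ⊓ centralizer (fittingOf H : Set G) with hXdef
  have hXE : X ≤ normalizer ((X ⊓ R : Subgroup G) : Set G) := le_normalizer_inf le_normalizer hXR
  have hE : Group.IsSolvable (X ⊓ R : Subgroup G) := Cfsg.Agent.Lib.BGTrans2.isSolvable_of_le inf_le_right hR
  have hFE : fittingOf (X ⊓ R) ≤ fittingOf X :=
    le_fittingOf ((fittingOf_le _).trans inf_le_left) (hXE.trans (normalizer_le_fittingOf _))
      (isNilpotent_fittingOf _)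
  have hHX : H ≤ normalizer (X : Set G) :=
    le_normalizer_inf le_normalizer
      ((le_normalizer_fittingOf H).trans (normalizer_le_normalizer_centralizer _))
  have hFX : fittingOf X ≤ fittingOf H :=
    le_fittingOf ((fittingOf_le _).trans inf_le_left) (hHX.trans (normalizer_le_fittingOf _))
      (isNilpotent_fittingOf _)
  intro e he
  apply hFX
  apply hFE
  apply mem_fittingOf_of_commute hE he
  intro u hu
  have h1 : u ∈ fittingOf H := hFX (hFE hu)
  have h2 := (mem_inf.mp (mem_inf.mp he).1).2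
  exact ((mem_centralizer_iff.mp h2) u h1).symm

/-- (b): invariant `π`-subgroups in `H ∩ R` are trivial. -/
theorem inv_trivial {H M R W : Subgroup G} (hM : M ≤ fittingOf H)
    (hCM : fittingOf H ⊓ centralizer (M : Set G) ≤ M) (hR : Group.IsSolvable R)
    (hXR : H ⊓ centralizer (fittingOf H : Set G) ≤ normalizer (R : Set G))
    (hWH : W ≤ H) (hWR : W ≤ R) (hMW : M ≤ normalizer (W : Set G))
    (hcop : (Nat.card W).Coprime (Nat.card (fittingOf H))) : W = ⊥ := by
  set F := fittingOf H with hFdef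
  have hinf : W ⊓ F = ⊥ := inf_eq_bot_of_coprime' hcop
  have b1 : ∀ a ∈ W, ∀ m ∈ M, a * m = m * a := by
    intro a ha m hm
    have h1 : a * m * a⁻¹ * m⁻¹ ∈ W := by
      have : a * (m * a⁻¹ * m⁻¹) ∈ W :=
        W.mul_mem ha (conj_mem_of_normalizer (hMW hm) (W.inv_mem ha))
      simpa [mul_assoc] using this
    have h2 : a * m * a⁻¹ * m⁻¹ ∈ F :=
      F.mul_mem (conj_mem_of_normalizer (le_normalizer_fittingOf H (hWH ha)) (hM hm))
        (F.inv_mem (hM hm))
    have h3 : a * m * a⁻¹ * m⁻¹ ∈ W ⊓ F := mem_inf.mpr ⟨h1, h2⟩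
    rw [hinf, mem_bot, mul_inv_eq_one, mul_inv_eq_iff_eq_mul] at h3
    exact h3
  have b2 : ∀ a ∈ W, ∀ r : ℕ, r.Prime → ∀ u ∈ Op r H, a * u = u * a := by
    intro a ha r hr u hu
    haveI : Fact r.Prime := ⟨hr⟩
    by_cases hrd : r ∣ Nat.card F
    · have hao : (orderOf a).Coprime r :=
        Nat.Coprime.coprime_dvd_left (Subgroup.orderOf_dvd_natCard W ha)
          (Nat.Coprime.coprime_dvd_right hrd hcop)
      refine Cfsg.Agent.Lib.CompFitting.ab_lemma (Op r H) (M ⊓ Op r H) a (isPGroup_Op r H)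
        ((isPGroup_Op r H).to_le inf_le_right)
        (fun v hv => conj_mem_of_normalizer (le_normalizer_Op r H (hWH ha)) hv)
        (fun t ht v hv => conj_mem_of_normalizer
          (le_normalizer_Op r H (fittingOf_le H (hM (mem_inf.mp ht).1))) hv)
        (fun t ht => b1 a ha t (mem_inf.mp ht).1) hao ?_ u hu
      intro v hv hvT
      have hvF : v ∈ F := Op_le_fittingOf r H hv
      have hvC : v ∈ centralizer (M : Set G) := by
        rw [mem_centralizer_iff]
        intro m hm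
        obtain ⟨y, hy, z, hz, hmyz, hyr, hzr⟩ := exists_parts r m
        have hyM : y ∈ M := (zpowers_le.mpr hm) hy
        have hzM : z ∈ M := (zpowers_le.mpr hm) hz
        have hyO : y ∈ Op r H := mem_Op_of_pelt (hM hyM) hyr
        have hzO : z ∈ Opp r H := mem_Opp_of_coprime (hM hzM) hzr
        have h1 := hvT y (mem_inf.mpr ⟨hyM, hyO⟩)
        have h2 := Op_comm_Opp r H v hv z hzO
        rw [hmyz, mul_assoc, ← h2, ← mul_assoc, h1, mul_assoc]
      have hvM : v ∈ M := hCM (mem_inf.mpr ⟨hvF, hvC⟩)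
      exact b1 a ha v hvM
    · rw [Op_eq_bot_of_not_dvd hr hrd, mem_bot] at hu
      rw [hu]; simp
  rw [eq_bot_iff]
  intro a ha
  have h1 : a ∈ H ⊓ centralizer (F : Set G) := by
    refine mem_inf.mpr ⟨hWH ha, ?_⟩
    rw [mem_centralizer_iff]
    intro u hu
    exact (commute_fittingOf (b2 a ha) u hu).symm
  have h2 : a ∈ F := inf_le_fitting hR hXR (mem_inf.mpr ⟨h1, hWR ha⟩)
  have h3 : a ∈ W ⊓ F := mem_inf.mpr ⟨ha, h2⟩
  rw [hinf] at h3
  exact h3

/-! ### Quotient lemmas -/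

section Quot

variable {A : Type*} [Group A] [Finite A]

theorem card_comap_mk (K : Subgroup A) [K.Normal] (S : Subgroup (A ⧸ K)) :
    Nat.card (S.comap (QuotientGroup.mk' K)) = Nat.card K * Nat.card S := by
  have h1 := Subgroup.card_mul_index (S.comap (QuotientGroup.mk' K))
  have h2 : (S.comap (QuotientGroup.mk' K)).index = S.index :=
    index_comap_of_surjective _ (QuotientGroup.mk'_surjective K)
  have h3 := Subgroup.card_mul_index S
  have h4 := Subgroup.card_eq_card_quotient_mul_card_subgroup K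
  have hi : S.index ≠ 0 := Subgroup.index_ne_zero_of_finite
  apply Nat.eq_of_mul_eq_mul_right (Nat.pos_of_ne_zero hi)
  have e : Nat.card (S.comap (QuotientGroup.mk' K)) * S.index = Nat.card A := by
    rw [← h2]; exact h1
  rw [e, mul_assoc, h3, mul_comm]
  exact h4

theorem pCore_quot_eq_bot (π : Set ℕ) {t : ℕ} [Fact t.Prime] (ht : t ∈ π) :
    pCore t (A ⧸ piCore π A) = ⊥ := by
  set K := piCore π A
  set S := pCore t (A ⧸ K)
  have hnorm : (S.comap (QuotientGroup.mk' K)).Normal := inferInstance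
  have hle : S.comap (QuotientGroup.mk' K) ≤ K := by
    apply le_piCore hnorm
    intro r hr hd
    rw [card_comap_mk] at hd
    rcases (Nat.Prime.dvd_mul hr).mp hd with h | h
    · exact piCore_primes π r hr h
    · obtain ⟨k, hk⟩ := IsPGroup.iff_card.mp (isPGroup_pCore (G := A ⧸ K) t)
      have hS : Nat.card S = t ^ k := hk
      rw [hS] at h
      have : r = t := (Nat.prime_dvd_prime_iff_eq hr Fact.out).mp (hr.dvd_of_dvd_pow h)
      rw [this]; exact ht
  rw [eq_bot_iff]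
  intro x hx
  obtain ⟨y, rfl⟩ := QuotientGroup.mk'_surjective K x
  have : y ∈ S.comap (QuotientGroup.mk' K) := hx
  rw [mem_bot]
  exact (QuotientGroup.eq_one_iff y).mpr (hle this)

/-- If `pCore q G = ⊥`, a `q`-element of `F(G)` is trivial. -/
theorem eq_one_of_mem_fitting {B : Type*} [Group B] [Finite B] {q : ℕ} [Fact q.Prime] {x : B}
    (hx : x ∈ fittingSubgroup B) (hq : pCore q B = ⊥) (hpx : PElt q x) : x = 1 := by
  have h1 := fittingSubgroup_le_sup (G := B) q hx
  rw [hq, bot_sup_eq] at h1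
  exact eq_one_of_pelt_of_coprime hpx
    (Nat.Coprime.coprime_dvd_left (Subgroup.orderOf_dvd_natCard _ h1) (card_pPrimeCore_coprime q))

end Quot

/-- Characteristic subgroups of quotients are normalized. -/
theorem normalizer_le_comap {R : Subgroup G} (K : Subgroup R) [K.Normal]
    (hK : normalizer (R : Set G) ≤ normalizer ((K.map R.subtype : Subgroup G) : Set G))
    (S : Subgroup (R ⧸ K)) [S.Characteristic] :
    normalizer (R : Set G) ≤
      normalizer (((S.comap (QuotientGroup.mk' K)).map R.subtype : Subgroup G) : Set G) := by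
  have hfwd : ∀ g ∈ normalizer (R : Set G), ∀ n ∈ (S.comap (QuotientGroup.mk' K)).map R.subtype,
      g * n * g⁻¹ ∈ (S.comap (QuotientGroup.mk' K)).map R.subtype := by
    intro g hg n hn
    have hXg : ∀ x ∈ R, g * x * g⁻¹ ∈ R := fun x hx => (mem_normalizer_iff.mp hg x).mp hx
    have hXg' : ∀ x ∈ R, g⁻¹ * x * g ∈ R := fun x hx => inv_conj_mem_of_normalizer hg hx
    let φ : R ≃* R :=
      { toFun := fun x => ⟨g * x * g⁻¹, hXg x x.2⟩
        invFun := fun x => ⟨g⁻¹ * x * g, hXg' x x.2⟩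
        left_inv := fun x => by ext; simp [mul_assoc]
        right_inv := fun x => by ext; simp [mul_assoc]
        map_mul' := fun x y => by ext; simp [mul_assoc] }
    have hfix : ∀ x : R, x ∈ K ↔ φ x ∈ K := by
      intro x
      have hm : ∀ y : R, y ∈ K ↔ (y : G) ∈ K.map R.subtype := by
        intro y
        constructor
        · intro hy; exact ⟨y, hy, rfl⟩
        · rintro ⟨z, hz, hzy⟩
          have : z = y := Subtype.ext hzy
          rwa [← this]
      rw [hm, hm]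
      exact mem_normalizer_iff.mp (hK hg) _
    have hφK : K.map φ.toMonoidHom = K := by
      ext x
      constructor
      · rintro ⟨y, hy, rfl⟩
        exact (hfix y).mp hy
      · intro hx
        refine ⟨φ.symm x, (hfix _).mpr (by simpa using hx), by simp⟩
    let ψ : (R ⧸ K) ≃* (R ⧸ K) := QuotientGroup.congr K K φ hφK
    obtain ⟨x, hx, rfl⟩ := hn
    have hxS : QuotientGroup.mk' K x ∈ S := hx
    have h1 : ψ (QuotientGroup.mk' K x) ∈ S := by
      have h2 := (inferInstance : S.Characteristic).fixed ψ.symm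
      have h3 : ψ.symm.toMonoidHom (ψ (QuotientGroup.mk' K x)) ∈ S := by simpa using hxS
      have h4 : ψ (QuotientGroup.mk' K x) ∈ S.comap ψ.symm.toMonoidHom := h3
      rwa [h2] at h4
    have h5 : ψ (QuotientGroup.mk' K x) = QuotientGroup.mk' K (φ x) := rfl
    rw [h5] at h1
    exact ⟨φ x, h1, rfl⟩
  intro g hg
  rw [mem_normalizer_iff]
  intro n
  constructor
  · exact hfwd g hg n
  · intro h
    have := hfwd g⁻¹ (inv_mem hg) _ h
    simpa [mul_assoc] using this

/-! ### The action on `N / L` -/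

theorem core_action {p t : ℕ} [hp : Fact p.Prime] [ht : Fact t.Prime] (hpt : p ≠ t)
    {R L N Tt Tp : Subgroup G} (hLN : L ≤ N) (hNR : N ≤ R) (hRL : R ≤ normalizer (L : Set G))
    (hTtN : Tt ≤ normalizer (N : Set G)) (hTtL : Tt ≤ normalizer (L : Set G))
    (hTpN : Tp ≤ normalizer (N : Set G)) (hTpL : Tp ≤ normalizer (L : Set G))
    (hcomm : ∀ a ∈ Tp, ∀ b ∈ Tt, a * b = b * a) (hTt : IsPGroup t Tt) (hTp : IsPGroup p Tp)
    {j : ℕ} (hcard : Nat.card N = Nat.card L * t ^ j) (hpL : ¬ p ∣ Nat.card L)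
    (hNs : Group.IsSolvable N)
    (hS : ∀ S : Subgroup G, IsPGroup t S → Tt ≤ S → Tp ≤ normalizer (S : Set G) →
      ∀ a ∈ Tp, ∀ s ∈ S, a * s = s * a) :
    ∀ a ∈ Tp, ∀ n ∈ N, a * n * a⁻¹ * n⁻¹ ∈ L := by
  obtain ⟨k, hk⟩ := IsPGroup.iff_card.mp hTt
  let N₁ : Subgroup G := Tt ⊔ N
  have hN₁card : Nat.card N₁ ∣ Nat.card L * t ^ (j + k) := by
    have h1 := card_sup_mul_card_inf hTtN
    have h2 : Nat.card L * t ^ (j + k) = Nat.card Tt * Nat.card N := by
      rw [hk, hcard, pow_add]; ring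
    rw [h2, ← h1]
    exact Dvd.intro _ rfl
  have hpt' : ¬ p ∣ t := by
    intro h
    exact hpt ((Nat.prime_dvd_prime_iff_eq hp.out ht.out).mp h)
  have hpN₁ : ¬ p ∣ Nat.card N₁ := by
    intro h
    have h2 := h.trans hN₁card
    rcases (Nat.Prime.dvd_mul hp.out).mp h2 with h3 | h3
    · exact hpL h3
    · exact hpt' (hp.out.dvd_of_dvd_pow h3)
  have hc : (Nat.card N₁).Coprime (Nat.card Tp) := by
    obtain ⟨a, ha⟩ := IsPGroup.iff_card.mp hTp
    rw [ha]
    exact Nat.Coprime.pow_right a ((Nat.Prime.coprime_iff_not_dvd hp.out).mpr hpN₁).symm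
  have hs : Group.IsSolvable N₁ :=
    solvable_sup hTtN hNs
      (haveI := hTt.isNilpotent; inferInstance)
  have hRA : Tp ≤ normalizer (Tt : Set G) := fun a ha =>
    Cfsg.Agent.Lib.BGTrans.centralizer_le_normalizer Tt
      (mem_centralizer_iff.mpr fun b hb => (hcomm a ha b hb).symm)
  have hTpN₁ : Tp ≤ normalizer (N₁ : Set G) := fun a ha =>
    le_normalizer_sup (hRA ha) (hTpN ha)
  have hTtN₁ : Tt ≤ N₁ := le_sup_left
  obtain ⟨S, hS1, hS2, hS3⟩ := exists_invariant_isSylowIn_ge t hs hTpN₁ hc hTtN₁ hTt hRA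
  have hScomm := hS S hS1.2.1 hS3 hS2
  have hN₁L : N₁ ≤ normalizer (L : Set G) := sup_le hTtL (hNR.trans hRL)
  have hSL : S ≤ normalizer (L : Set G) := hS1.1.trans hN₁L
  have hLN₁ : L ≤ N₁ := hLN.trans le_sup_right
  let K : Subgroup G := S ⊔ L
  have hKN₁ : K ≤ N₁ := sup_le hS1.1 hLN₁
  have hd1 : K.relIndex N₁ ∣ S.relIndex N₁ := by
    rw [← relIndex_mul_relIndex S K N₁ le_sup_left hKN₁]
    exact Dvd.intro_left _ rfl
  have hd2 : K.relIndex N₁ ∣ L.relIndex N₁ := by
    rw [← relIndex_mul_relIndex L K N₁ le_sup_right hKN₁]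
    exact Dvd.intro_left _ rfl
  have hd3 : L.relIndex N₁ ∣ t ^ (j + k) := by
    have h1 := card_mul_relIndex_of_le hLN₁
    rw [← h1] at hN₁card
    exact Nat.dvd_of_mul_dvd_mul_left Nat.card_pos hN₁card
  have hKone : K.relIndex N₁ = 1 := by
    obtain ⟨e, _, he⟩ := (Nat.dvd_prime_pow ht.out).mp (hd2.trans hd3)
    rcases e with _ | e
    · simpa using he
    · exfalso
      apply IsSylowIn.not_dvd_relIndex hS1
      apply Dvd.dvd.trans _ hd1
      rw [he]
      exact dvd_pow_self t (Nat.succ_ne_zero e)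
  have hN₁K : N₁ ≤ K := relIndex_eq_one.mp hKone
  have hcoe : (K : Set G) = (S : Set G) * (L : Set G) :=
    coe_mul_of_left_le_normalizer_right S L hSL
  intro a ha n hn
  have hnK : n ∈ (K : Set G) := hN₁K (le_sup_right (a := Tt) hn)
  rw [hcoe] at hnK
  obtain ⟨s, hs', l, hl, rfl⟩ := hnK
  have h1 := hScomm a ha s hs'
  have h2 : a * l * a⁻¹ ∈ L := conj_mem_of_normalizer (hTpL ha) hl
  have h3 : a * (s * l) * a⁻¹ * (s * l)⁻¹ = s * (a * l * a⁻¹ * l⁻¹) * s⁻¹ := by
    calc a * (s * l) * a⁻¹ * (s * l)⁻¹ = (a * s) * l * a⁻¹ * l⁻¹ * s⁻¹ := by group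
      _ = (s * a) * l * a⁻¹ * l⁻¹ * s⁻¹ := by rw [h1]
      _ = s * (a * l * a⁻¹ * l⁻¹) * s⁻¹ := by group
  rw [h3]
  exact conj_mem_of_normalizer (hSL hs') (L.mul_mem h2 (L.inv_mem hl))

/-- Elementary three subgroups argument. -/
theorem comm_mod_of_coprime {R L N Y Tp : Subgroup G}
    (hYR : Y ≤ R) (hRL : R ≤ normalizer (L : Set G)) (hRN : R ≤ normalizer (N : Set G))
    (hTpL : Tp ≤ normalizer (L : Set G)) (hTpY : Tp ≤ normalizer (Y : Set G))
    (hc : (Nat.card Tp).Coprime (Nat.card Y))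
    (hYs : Group.IsSolvable Y) (hfix : Y ⊓ centralizer (Tp : Set G) = ⊥)
    (haN : ∀ a ∈ Tp, ∀ n ∈ N, a * n * a⁻¹ * n⁻¹ ∈ L) :
    ∀ y ∈ Y, ∀ n ∈ N, y * n * y⁻¹ * n⁻¹ ∈ L := by
  let C : Subgroup G :=
    { carrier := {r | r ∈ R ∧ ∀ n ∈ N, r * n * r⁻¹ * n⁻¹ ∈ L}
      one_mem' := ⟨one_mem _, fun n _ => by simp⟩
      mul_mem' := by
        rintro r₁ r₂ ⟨h1, h2⟩ ⟨h3, h4⟩
        refine ⟨R.mul_mem h1 h3, fun n hn => ?_⟩
        have h5 := h4 n hn
        have h6 := h2 n hn
        have h7 : r₁ * r₂ * n * (r₁ * r₂)⁻¹ * n⁻¹ =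
            (r₁ * (r₂ * n * r₂⁻¹ * n⁻¹) * r₁⁻¹) * (r₁ * n * r₁⁻¹ * n⁻¹) := by group
        rw [h7]
        exact L.mul_mem (conj_mem_of_normalizer (hRL h1) h5) h6
      inv_mem' := by
        rintro r ⟨h1, h2⟩
        refine ⟨R.inv_mem h1, fun n hn => ?_⟩
        have hn' : r⁻¹ * n * r ∈ N := inv_conj_mem_of_normalizer (hRN h1) hn
        have h3 := h2 _ hn'
        have h4 : r⁻¹ * n * r⁻¹⁻¹ * n⁻¹ = (r * (r⁻¹ * n * r) * r⁻¹ * (r⁻¹ * n * r)⁻¹)⁻¹ := by group
        rw [h4]
        exact L.inv_mem h3 }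
  have h1 : ⁅Y, Tp⁆ ≤ C := by
    rw [Subgroup.commutator_le]
    intro y hy a ha
    refine ⟨?_, ?_⟩
    · show y * a * y⁻¹ * a⁻¹ ∈ R
      have : y * (a * y⁻¹ * a⁻¹) ∈ Y :=
        Y.mul_mem hy (conj_mem_of_normalizer (hTpY ha) (Y.inv_mem hy))
      exact hYR (by simpa [mul_assoc] using this)
    · intro n hn
      show (y * a * y⁻¹ * a⁻¹) * n * (y * a * y⁻¹ * a⁻¹)⁻¹ * n⁻¹ ∈ L
      have hyR := hYR hy
      have hb : a⁻¹ * n * a⁻¹⁻¹ * n⁻¹ ∈ L := haN a⁻¹ (Tp.inv_mem ha) n hn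
      have hn2 : y⁻¹ * n * y ∈ N := inv_conj_mem_of_normalizer (hRN hyR) hn
      have hc' : a * (y⁻¹ * n * y) * a⁻¹ * (y⁻¹ * n * y)⁻¹ ∈ L := haN a ha _ hn2
      have h2 : a * (y⁻¹ * (a⁻¹ * n * a⁻¹⁻¹ * n⁻¹) * y) * a⁻¹ ∈ L :=
        conj_mem_of_normalizer (hTpL ha) (inv_conj_mem_of_normalizer (hRL hyR) hb)
      have h3 : (y * a * y⁻¹ * a⁻¹) * n * (y * a * y⁻¹ * a⁻¹)⁻¹ * n⁻¹ =
          y * ((a * (y⁻¹ * (a⁻¹ * n * a⁻¹⁻¹ * n⁻¹) * y) * a⁻¹) *
            (a * (y⁻¹ * n * y) * a⁻¹ * (y⁻¹ * n * y)⁻¹)) * y⁻¹ := by group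
      rw [h3]
      exact conj_mem_of_normalizer (hRL hyR) (L.mul_mem h2 hc')
  have h2 := Cfsg.Agent.Lib.Glauberman.commutator_sup_inf_centralizer (K := Y) hTpY hc (Or.inr hYs)
  rw [hfix, sup_bot_eq] at h2
  intro y hy n hn
  have h3 : y ∈ C := h1 (by rw [h2]; exact hy)
  exact h3.2 n hn

/-- Step 1: invariant `q`-subgroups of `R` lie in `O_π(R)`. -/
theorem step1 {H M R Y : Subgroup G} (hHml : HMaxLocal H)
    (hF2 : 2 ≤ (Nat.card (fittingOf H)).primeFactors.card)
    (hM : M ≤ fittingOf H) (hCM : fittingOf H ⊓ centralizer (M : Set G) ≤ M)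
    (hR : Group.IsSolvable R) (hMR : M ≤ normalizer (R : Set G))
    (hXR : H ⊓ centralizer (fittingOf H : Set G) ≤ normalizer (R : Set G))
    {q : ℕ} [hq' : Fact q.Prime] (hq : ¬ q ∣ Nat.card (fittingOf H))
    (hYR : Y ≤ R) (hY : IsPGroup q Y) (hMY : M ≤ normalizer (Y : Set G)) :
    Y ≤ piCoreOf (primesNotDvd (Nat.card (fittingOf H))) R := by
  set F := fittingOf H with hFdef
  set π := primesNotDvd (Nat.card F) with hπdef
  have hZM : F ⊓ centralizer (F : Set G) ≤ M := by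
    intro x hx
    obtain ⟨h1, h2⟩ := mem_inf.mp hx
    apply hCM
    refine mem_inf.mpr ⟨h1, ?_⟩
    exact (centralizer_le hM) h2
  haveI : Group.IsSolvable R := hR
  set K := piCore π R with hKdef
  set L := piCoreOf π R with hLdef
  have hLmem : ∀ x : R, (x : G) ∈ L ↔ x ∈ K := by
    intro x
    constructor
    · rintro ⟨z, hz, hzx⟩
      have : z = x := Subtype.ext hzx
      rwa [← this]
    · intro hx; exact ⟨x, hx, rfl⟩
  have hNRL : normalizer (R : Set G) ≤ normalizer (L : Set G) :=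
    Cfsg.Agent.Lib.BGTrans2.normalizer_le_normalizer_piCoreOf π R
  have hRL : R ≤ normalizer (L : Set G) := le_normalizer.trans hNRL
  -- each `O_t` of the quotient is centralized
  have hkey : ∀ t : ℕ, t.Prime → ∀ y ∈ Y, ∀ x : R, (QuotientGroup.mk' K x) ∈ pCore t (R ⧸ K) →
      y * x * y⁻¹ * (x : G)⁻¹ ∈ L := by
    intro t ht y hy x hx
    haveI : Fact t.Prime := ⟨ht⟩
    by_cases htπ : t ∈ π
    · have h1 := pCore_quot_eq_bot (A := R) π htπ
      have h1' : pCore t (R ⧸ K) = ⊥ := h1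
      rw [h1', mem_bot] at hx
      have h2 : x ∈ K := (QuotientGroup.eq_one_iff x).mp hx
      have h3 : (x : G) ∈ L := (hLmem x).mpr h2
      exact L.mul_mem (conj_mem_of_normalizer (hRL (hYR hy)) h3) (L.inv_mem h3)
    · have htd : t ∣ Nat.card F := by
        by_contra h
        exact htπ ⟨ht, h⟩
      -- a second prime
      obtain ⟨p, hpd, hpt⟩ : ∃ p, p ∈ (Nat.card F).primeFactors ∧ p ≠ t := by
        obtain ⟨p, hp, r, hr, hne⟩ := Finset.one_lt_card.mp hF2
        by_cases h : p = t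
        · exact ⟨r, hr, fun h2 => hne (h.trans h2.symm)⟩
        · exact ⟨p, hp, h⟩
      have hp := Nat.prime_of_mem_primeFactors hpd
      have hpd := Nat.dvd_of_mem_primeFactors hpd
      haveI : Fact p.Prime := ⟨hp⟩
      let Nb : Subgroup R := (pCore t (R ⧸ K)).comap (QuotientGroup.mk' K)
      let N : Subgroup G := Nb.map R.subtype
      have hLN : L ≤ N := by
        rintro _ ⟨z, hz, rfl⟩
        refine ⟨z, ?_, rfl⟩
        show QuotientGroup.mk' K z ∈ pCore t (R ⧸ K)
        have : QuotientGroup.mk' K z = 1 := (QuotientGroup.eq_one_iff z).mpr hz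
        rw [this]; exact one_mem _
      have hNR : N ≤ R := map_subtype_le _
      have hNRN : normalizer (R : Set G) ≤ normalizer (N : Set G) := by
        haveI : (pCore t (R ⧸ K)).Characteristic := pCore_characteristic t
        exact normalizer_le_comap K hNRL _
      have hcardN : ∃ j, Nat.card N = Nat.card L * t ^ j := by
        obtain ⟨j, hj⟩ := IsPGroup.iff_card.mp (isPGroup_pCore (G := R ⧸ K) t)
        refine ⟨j, ?_⟩
        have h1 : Nat.card N = Nat.card Nb := Subgroup.card_map_of_injective R.subtype_injective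
        have h2 : Nat.card L = Nat.card K := Subgroup.card_map_of_injective R.subtype_injective
        rw [h1, h2, ← hj]
        exact card_comap_mk K _
      obtain ⟨j, hj⟩ := hcardN
      have hpL : ¬ p ∣ Nat.card L := by
        intro h
        exact (piCoreOf_primes π R p hp h).2 hpd
      have hNs : Group.IsSolvable N := Cfsg.Agent.Lib.BGTrans2.isSolvable_of_le hNR hR
      let Tt : Subgroup G := M ⊓ Op t H
      let Tp : Subgroup G := M ⊓ Op p H
      have hTtM : Tt ≤ M := inf_le_left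
      have hTpM : Tp ≤ M := inf_le_left
      have hMOp : ∀ r : ℕ, M ≤ normalizer (Op r H : Set G) := fun r =>
        (hM.trans (fittingOf_le H)).trans (le_normalizer_Op r H)
      have haN := core_action hpt (R := R) (L := L) (N := N) (Tt := Tt) (Tp := Tp) hLN hNR hRL
        (hTtM.trans (hMR.trans hNRN)) (hTtM.trans (hMR.trans hNRL))
        (hTpM.trans (hMR.trans hNRN)) (hTpM.trans (hMR.trans hNRL))
        (fun a ha b hb => Op_comm_Op hpt H a (mem_inf.mp ha).2 b (mem_inf.mp hb).2)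
        ((isPGroup_Op t H).to_le inf_le_right) ((isPGroup_Op p H).to_le inf_le_right)
        hj hpL hNs
        (fun S hS hTtS hTpS a ha s hs =>
          lemmaB_inst hpt.symm hHml hZM htd hS (hTtS.trans le_normalizer) (mem_inf.mp ha).2
            (hTpS ha) s hs)
      -- coprimality and fixed points
      have hpq : p ≠ q := by
        rintro rfl
        exact hq hpd
      have hc : (Nat.card Tp).Coprime (Nat.card Y) := by
        obtain ⟨a, ha⟩ := IsPGroup.iff_card.mp ((isPGroup_Op p H).to_le (inf_le_right : Tp ≤ _))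
        obtain ⟨b, hb⟩ := IsPGroup.iff_card.mp hY
        rw [ha, hb]
        exact Nat.Coprime.pow a b ((Nat.coprime_primes hp hq'.out).mpr hpq)
      have hYs : Group.IsSolvable Y := by
        haveI := hY.isNilpotent
        infer_instance
      have hfix : Y ⊓ centralizer (Tp : Set G) = ⊥ := by
        apply inv_trivial hM hCM hR hXR (W := Y ⊓ centralizer (Tp : Set G))
        · exact inf_le_right.trans (centralizer_Tp_le hHml hZM hpd)
        · exact inf_le_left.trans hYR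
        · refine le_normalizer_inf hMY ?_
          have hMTp : M ≤ normalizer (Tp : Set G) := le_normalizer_inf le_normalizer (hMOp p)
          exact hMTp.trans (normalizer_le_normalizer_centralizer _)
        · have h1 : IsPGroup q (Y ⊓ centralizer (Tp : Set G) : Subgroup G) := hY.to_le inf_le_left
          obtain ⟨b, hb⟩ := IsPGroup.iff_card.mp h1
          rw [hb]
          exact Nat.Coprime.pow_left b ((Nat.Prime.coprime_iff_not_dvd hq'.out).mpr hq)
      have := comm_mod_of_coprime hYR hRL (le_normalizer.trans hNRN)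
        (hTpM.trans (hMR.trans hNRL)) (hTpM.trans hMY) hc hYs hfix haN y hy x ⟨x, hx, rfl⟩
      exact this
  -- conclusion
  intro y hy
  have hyR := hYR hy
  have hcent : QuotientGroup.mk' K (⟨y, hyR⟩ : R) ∈ fittingSubgroup (R ⧸ K) := by
    apply centralizer_fittingSubgroup_le
    rw [fittingSubgroup_eq_iSup_pCore]
    have hle : (⨆ p : Nat.Primes, pCore (p : ℕ) (R ⧸ K)) ≤
        centralizer ({QuotientGroup.mk' K (⟨y, hyR⟩ : R)} : Set (R ⧸ K)) := by
      refine iSup_le fun t => ?_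
      intro u hu
      obtain ⟨x, rfl⟩ := QuotientGroup.mk'_surjective K u
      rw [mem_centralizer_singleton_iff]
      have h1 := hkey t t.2 y hy x hu
      have h2 : (⟨y, hyR⟩ : R) * x * (⟨y, hyR⟩ : R)⁻¹ * x⁻¹ ∈ K := (hLmem _).mp h1
      have h3 := (QuotientGroup.eq_one_iff _).mpr h2
      rw [QuotientGroup.mk_mul, QuotientGroup.mk_mul, QuotientGroup.mk_mul, QuotientGroup.mk_inv,
        QuotientGroup.mk_inv, mul_inv_eq_one, mul_inv_eq_iff_eq_mul] at h3
      exact h3.symm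
    rw [mem_centralizer_iff]
    intro u hu
    have h1 := hle hu
    rw [mem_centralizer_singleton_iff] at h1
    exact h1
  have hqπ : q ∈ π := ⟨hq'.out, hq⟩
  have hbot : pCore q (R ⧸ K) = ⊥ := pCore_quot_eq_bot (A := R) π hqπ
  have hpelt : PElt q (QuotientGroup.mk' K (⟨y, hyR⟩ : R)) := by
    obtain ⟨k, hk⟩ := hY ⟨y, hy⟩
    refine ⟨k, ?_⟩
    have h1 : y ^ q ^ k = 1 := congrArg Subtype.val hk
    have h2 : (⟨y, hyR⟩ : R) ^ q ^ k = 1 := Subtype.ext h1
    rw [← map_pow, h2, map_one]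
  have h1 := eq_one_of_mem_fitting hcent hbot hpelt
  exact (hLmem ⟨y, hyR⟩).mpr ((QuotientGroup.eq_one_iff _).mp h1)

/-- The main theorem. -/
theorem main {H : Subgroup G} (hH : IsLocalSubgroup H)
    (hHmax : ∀ L : Subgroup G, IsLocalSubgroup L → H ≤ L → L = H)
    (hF2 : 2 ≤ (Nat.card (fittingOf H)).primeFactors.card)
    (M : Subgroup G) (hM : M ≤ fittingOf H)
    (hCM : fittingOf H ⊓ centralizer (M : Set G) ≤ M)
    (R : Subgroup G) (hR : Group.IsSolvable R) (hMR : M ≤ normalizer (R : Set G))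
    (hXR : H ⊓ centralizer (fittingOf H : Set G) ≤ normalizer (R : Set G))
    (q : ℕ) [hq' : Fact q.Prime] (hq : ¬ q ∣ Nat.card (fittingOf H)) :
    ∃! Q : Subgroup G, Q ∈ maxInvSubgroups R M {q} ∧
      (∀ Q' : Subgroup G, Q' ∈ maxInvSubgroups R M {q} →
        Q' ≤ piCoreOf (primesNotDvd (Nat.card (fittingOf H))) R ∧
        ¬ q ∣ Q'.relIndex (piCoreOf (primesNotDvd (Nat.card (fittingOf H))) R)) := by
  have hHml : HMaxLocal H := by
    intro p T hp hT hne hHT
    exact hHmax _ ⟨p, T, hp, hT, hne, rfl⟩ hHT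
  have hZM : fittingOf H ⊓ centralizer (fittingOf H : Set G) ≤ M := by
    intro x hx
    obtain ⟨h1, h2⟩ := mem_inf.mp hx
    exact hCM (mem_inf.mpr ⟨h1, (centralizer_le hM) h2⟩)
  set F := fittingOf H with hFdef
  set π := primesNotDvd (Nat.card F) with hπdef
  set L := piCoreOf π R with hLdef
  have hLs : Group.IsSolvable L := Cfsg.Agent.Lib.BGTrans2.isSolvable_of_le (piCoreOf_le π R) hR
  have hML : M ≤ normalizer (L : Set G) :=
    hMR.trans (Cfsg.Agent.Lib.BGTrans2.normalizer_le_normalizer_piCoreOf π R)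
  have hLcop : Nat.Coprime (Nat.card L) (Nat.card F) :=
    coprime_of_primes_primesNotDvd (piCoreOf_primes π R)
  have hLM : Nat.Coprime (Nat.card L) (Nat.card M) :=
    Nat.Coprime.coprime_dvd_right (Subgroup.card_dvd_of_le hM) hLcop
  -- every member of `И*` is a Sylow subgroup of `L`
  have hsyl : ∀ Q ∈ maxInvSubgroups R M {q}, Q ≤ L ∧ IsSylowIn q Q L := by
    intro Q hQ
    obtain ⟨hQ1, hQmax⟩ := hQ
    obtain ⟨hQR, hQq, hQM⟩ := mem_invSubgroups_singleton.mp hQ1
    have hQL : Q ≤ L := step1 hHml hF2 hM hCM hR hMR hXR hq hQR hQq hQM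
    obtain ⟨S, hS1, hS2, hS3⟩ := exists_invariant_isSylowIn_ge q hLs hML hLM hQL hQq hQM
    have hSinv : S ∈ invSubgroups R M {q} :=
      mem_invSubgroups_singleton.mpr ⟨hS1.1.trans (piCoreOf_le π R), hS1.2.1, hS2⟩
    have hSQ : S = Q := hQmax S hSinv hS3
    exact ⟨hQL, hSQ ▸ hS1⟩
  -- a prime dividing `|F|`
  obtain ⟨p, hpd⟩ : ∃ p, p ∈ (Nat.card F).primeFactors := by
    obtain ⟨p, hp, _, _, _⟩ := Finset.one_lt_card.mp hF2
    exact ⟨p, hp⟩
  have hp := Nat.prime_of_mem_primeFactors hpd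
  have hpd := Nat.dvd_of_mem_primeFactors hpd
  haveI : Fact p.Prime := ⟨hp⟩
  -- `C_L(M) = 1`
  have hCLM : L ⊓ centralizer (M : Set G) = ⊥ := by
    apply inv_trivial hM hCM hR hXR
    · refine inf_le_right.trans ?_
      exact (centralizer_le inf_le_left).trans (centralizer_Tp_le hHml hZM hpd)
    · exact inf_le_left.trans (piCoreOf_le π R)
    · exact le_normalizer_inf hML (le_normalizer_centralizer M)
    · exact Nat.Coprime.coprime_dvd_left (Subgroup.card_dvd_of_le inf_le_left) hLcop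
  have huniq : ∀ Q₁ ∈ maxInvSubgroups R M {q}, ∀ Q₂ ∈ maxInvSubgroups R M {q}, Q₂ = Q₁ := by
    intro Q₁ h₁ Q₂ h₂
    obtain ⟨c, hc, he⟩ := IsSylowIn.exists_conj_centralizer hLs hML hLM (hsyl Q₁ h₁).2 (hsyl Q₂ h₂).2
      (mem_invSubgroups_singleton.mp h₁.1).2.2 (mem_invSubgroups_singleton.mp h₂.1).2.2
    rw [hCLM, mem_bot] at hc
    rw [he, hc, cj_one]
  have hbot : (⊥ : Subgroup G) ∈ invSubgroups R M {q} := by
    refine mem_invSubgroups_singleton.mpr ⟨bot_le, IsPGroup.of_bot, ?_⟩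
    intro m _
    rw [mem_normalizer_iff]
    intro x
    simp
  obtain ⟨Q, hQ, _⟩ := exists_maxInv_ge hbot
  refine ⟨Q, ⟨hQ, fun Q' hQ' => ⟨(hsyl Q' hQ').1, IsSylowIn.not_dvd_relIndex (hsyl Q' hQ').2⟩⟩, ?_⟩
  rintro Q'' ⟨hQ'', _⟩
  exact huniq Q hQ Q'' hQ''

end Cfsg.Agent.S1481

namespace Cfsg.Agent.S1481

/-- Let G be a finite group and H a local subgroup (the normalizer of a nontrivial subgroup of prime-power order) not properly contained in any local subgroup; let F = F(H), suppose at least two primes divide #F, put X = H ∩ C_G(F), let M ≤ F with F ∩ C_G(M) ≤ M, and let R be a solvable subgroup normalized by M and by X. Then for every prime q not dividing #F there is exactly one maximal M-invariant q-subgroup of R, and it is a Sylow q-subgroup of the largest normal subgroup of R of order coprime to #F. -/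
theorem result {G : Type*} [Group G] [Finite G] (H : Subgroup G) (hH : Cfsg.IsLocalSubgroup H) (hHmax : ∀ L : Subgroup G, Cfsg.IsLocalSubgroup L → H ≤ L → L = H)
    (hF2 : 2 ≤ (Nat.card (Cfsg.fittingOf H)).primeFactors.card)
    (M : Subgroup G) (hM : M ≤ Cfsg.fittingOf H) (hCM : Cfsg.fittingOf H ⊓ Subgroup.centralizer (M : Set G) ≤ M)
    (R : Subgroup G) (hR : Group.IsSolvable R) (hMR : M ≤ Subgroup.normalizer (R : Set G))
    (hXR : H ⊓ Subgroup.centralizer (Cfsg.fittingOf H : Set G) ≤ Subgroup.normalizer (R : Set G))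
    (q : ℕ) [Fact q.Prime] (hq : ¬ q ∣ Nat.card (Cfsg.fittingOf H)) :
    ∃! Q : Subgroup G, Q ∈ Cfsg.maxInvSubgroups R M {q} ∧
      (∀ Q' : Subgroup G, Q' ∈ Cfsg.maxInvSubgroups R M {q} →
        Q' ≤ Cfsg.piCoreOf (Cfsg.primesNotDvd (Nat.card (Cfsg.fittingOf H))) R ∧
        ¬ q ∣ Q'.relIndex (Cfsg.piCoreOf (Cfsg.primesNotDvd (Nat.card (Cfsg.fittingOf H))) R)) :=
  main hH hHmax hF2 M hM hCM R hR hMR hXR q hq

end Cfsg.Agent.S1481
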