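import Mathlib
import Cfsg.Statements.S1482
import Cfsg.Agent.Lib.FitPair

set_option autoImplicit false
set_option linter.style.haveILetI false

open Cfsg Subgroup

namespace Cfsg.Agent.S1482

open Cfsg.Agent.Lib.FitPair Cfsg.Agent.Lib.BGTrans

variable {G : Type*} [Group G] [Finite G]

theorem normalizer_eq_of_coatom (hG : IsMinSimpleOddOrder G) {H K : Subgroup G} (hH : IsCoatom H)
    (hK : K ≠ ⊥) (hK' : K ≠ ⊤) (hHK : H ≤ normalizer (K : Set G)) : normalizer (K : Set G) = H := by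
  rcases hHK.eq_or_lt with h | h
  · exact h.symm
  · exact absurd (hH.2 _ h) (IsMin.normalizer_ne_top hG hK hK')

theorem hMaxLocal_of_coatom (hG : IsMinSimpleOddOrder G) {H : Subgroup G} (hH : IsCoatom H) :
    HMaxLocal H := by
  intro p T hp hT hne hHT
  haveI : Fact p.Prime := ⟨hp⟩
  exact normalizer_eq_of_coatom hG hH hne (IsMin.isPGroup_ne_top hG hT) hHT

/-- The main theorem. -/
theorem main (hG : IsMinSimpleOddOrder G) (H : Subgroup G) (hH : IsCoatom H)
    (hF2 : 2 ≤ (Nat.card (fittingOf H)).primeFactors.card)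
    (M : Subgroup G) (hZM : fittingOf H ⊓ centralizer (fittingOf H : Set G) ≤ M)
    (hinv : ∀ Y ∈ invSubgroups ⊤ M (primesNotDvd (Nat.card (fittingOf H))), Y = ⊥)
    (L : Subgroup G) (hL : IsCoatom L) (hML : M ≤ L) : L = H := by
  have hHml := hMaxLocal_of_coatom hG hH
  have hLml := hMaxLocal_of_coatom hG hL
  have hHs : Group.IsSolvable H := IsMin.solvable hG hH.1
  have hLs : Group.IsSolvable L := IsMin.solvable hG hL.1
  set F := fittingOf H with hFdef
  -- two primes
  have hone : ∀ p : ℕ, p.Prime → ∃ t : ℕ, t.Prime ∧ t ≠ p ∧ t ∣ Nat.card F := by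
    intro p hp
    by_contra hcon
    push Not at hcon
    have hsub : (Nat.card F).primeFactors ⊆ {p} := by
      intro t ht
      rw [Finset.mem_singleton]
      by_contra hne
      exact hcon t (Nat.prime_of_mem_primeFactors ht) hne (Nat.dvd_of_mem_primeFactors ht)
    have := Finset.card_le_card hsub
    rw [Finset.card_singleton] at this
    omega
  -- Step 2: the primes of `F(L)` divide `|F|`
  have h2 : ∀ p : ℕ, p.Prime → ¬ p ∣ Nat.card F → Op p L = ⊥ := by
    intro p hp hnd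
    haveI : Fact p.Prime := ⟨hp⟩
    apply hinv
    refine ⟨le_top, primes_of_isPGroup (isPGroup_Op p L) hnd, ?_⟩
    exact hML.trans (le_normalizer_Op p L)
  -- Step 3
  have h3 : ∀ p t : ℕ, p.Prime → t.Prime → p ≠ t → p ∣ Nat.card F →
      ∀ a ∈ M ⊓ Op t H, ∀ v ∈ Op p L, a * v = v * a := by
    intro p t hp ht hpt hd a ha v hv
    haveI : Fact p.Prime := ⟨hp⟩
    haveI : Fact t.Prime := ⟨ht⟩
    exact lemmaB_inst hpt hHml hZM hd (isPGroup_Op p L)
      ((inf_le_left.trans hML).trans (le_normalizer_Op p L)) (mem_inf.mp ha).2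
      (le_normalizer_Op p L (hML (mem_inf.mp ha).1)) v hv
  -- Step 4
  have h4 : ∀ p : ℕ, p.Prime → Op p L ≤ H := by
    intro p hp v hv
    haveI : Fact p.Prime := ⟨hp⟩
    by_cases hd : p ∣ Nat.card F
    · obtain ⟨t, ht, htp, htd⟩ := hone p hp
      haveI : Fact t.Prime := ⟨ht⟩
      apply centralizer_Zp_le hHml htd
      rw [mem_centralizer_iff]
      intro z hz
      exact h3 p t hp ht htp.symm hd z (Zp_le_Tp hZM hz) v hv
    · rw [h2 p hp hd, mem_bot] at hv
      rw [hv]; exact one_mem _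
  -- Step 5
  have h5 : ∀ t : ℕ, t.Prime → t ∣ Nat.card F → Op t L ≠ ⊥ := by
    intro t ht htd hb
    haveI : Fact t.Prime := ⟨ht⟩
    have hZ := Zp_ne_bot (H := H) htd
    obtain ⟨z, hz, hz1⟩ : ∃ z, z ∈ Zp t H ∧ z ≠ 1 := by
      obtain ⟨x, hx⟩ := Subgroup.ne_bot_iff_exists_ne_one.mp hZ
      exact ⟨x.1, x.2, fun h => hx (Subtype.ext h)⟩
    have hzT := Zp_le_Tp hZM hz
    have hzL : z ∈ L := hML (mem_inf.mp hzT).1
    have hzF : z ∈ fittingOf L := by
      apply mem_fittingOf_of_commute_Op hLs hzL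
      intro r hr u hu
      by_cases hrt : r = t
      · subst hrt
        rw [hb, mem_bot] at hu
        rw [hu]; simp
      · by_cases hrd : r ∣ Nat.card F
        · exact h3 r t hr ht hrt hrd z hzT u hu
        · rw [h2 r hr hrd, mem_bot] at hu
          rw [hu]; simp
    have hz2 := mem_Op_of_pelt hzF (pelt_of_mem_pgroup (isPGroup_Zp t H) hz)
    rw [hb, mem_bot] at hz2
    exact hz1 hz2
  -- Step 6
  have h6 : ∀ p r : ℕ, p.Prime → r.Prime → p ≠ r → p ∣ Nat.card F → r ∣ Nat.card F →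
      Op r H ≤ L ∧ ∀ b ∈ Op p L, ∀ e ∈ Op r H, b * e = e * b := by
    intro p r hp hr hpr hpd hrd
    haveI : Fact p.Prime := ⟨hp⟩
    haveI : Fact r.Prime := ⟨hr⟩
    exact comm_of_pair hpr (isPGroup_Op p L) (isPGroup_Op r L) (isPGroup_Op r H)
      ((h4 p hp).trans (le_normalizer_Op r H)) ((h4 r hr).trans (le_normalizer_Op r H))
      (Op_comm_Op hpr L) (le_normalizer_Op p L)
      (hLml p _ hp (isPGroup_Op p L) (h5 p hp hpd) (le_normalizer_Op p L)).le
      (hLml r _ hr (isPGroup_Op r L) (h5 r hr hrd) (le_normalizer_Op r L)).le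
  -- Step 7
  have h7 : ∀ p : ℕ, p.Prime → p ∣ Nat.card F →
      (∀ a ∈ Op p L, ∀ d ∈ Opp p H, a * d = d * a) ∧ Opp p H ≤ L := by
    intro p hp hpd
    haveI : Fact p.Prime := ⟨hp⟩
    have hc : ∀ a ∈ Op p L, ∀ d ∈ Opp p H, a * d = d * a := by
      intro a ha
      apply comm_Opp_of_pelt hHs (h4 p hp ha) (pelt_of_mem_Op ha)
      intro r hr hrp u hu
      by_cases hrd : r ∣ Nat.card F
      · exact (h6 p r hp hr hrp.symm hpd hrd).2 a ha u hu
      · rw [Op_eq_bot_of_not_dvd hr hrd, mem_bot] at hu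
        rw [hu]; simp
    refine ⟨hc, ?_⟩
    intro d hd
    have hN := hLml p _ hp (isPGroup_Op p L) (h5 p hp hpd) (le_normalizer_Op p L)
    rw [← hN]
    apply Cfsg.Agent.Lib.BGTrans.centralizer_le_normalizer
    rw [mem_centralizer_iff]
    intro a ha
    exact hc a ha d hd
  -- fix the primes
  obtain ⟨p, hpd, r, hrd, hpr⟩ : ∃ p, p ∈ (Nat.card F).primeFactors ∧ ∃ r,
      r ∈ (Nat.card F).primeFactors ∧ p ≠ r := by
    obtain ⟨p, hp, r, hr, hne⟩ := Finset.one_lt_card.mp hF2
    exact ⟨p, hp, r, hr, hne⟩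
  have hp := Nat.prime_of_mem_primeFactors hpd
  have hr := Nat.prime_of_mem_primeFactors hrd
  have hpd := Nat.dvd_of_mem_primeFactors hpd
  have hrd := Nat.dvd_of_mem_primeFactors hrd
  haveI : Fact p.Prime := ⟨hp⟩
  haveI : Fact r.Prime := ⟨hr⟩
  -- Step 8
  have hOpL : Op p H ≤ L := (Op_le_Opp hpr H).trans (h7 r hr hrd).2
  have h8 : ∀ a ∈ Op p H, ∀ d ∈ Opp p L, a * d = d * a := by
    intro a ha
    apply comm_Opp_of_pelt hLs (hOpL ha) (pelt_of_mem_Op ha)
    intro s hs hsp u hu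
    by_cases hsd : s ∣ Nat.card F
    · haveI : Fact s.Prime := ⟨hs⟩
      exact ((h7 s hs hsd).1 u hu a (Op_le_Opp hsp.symm H ha)).symm
    · rw [h2 s hs hsd, mem_bot] at hu
      rw [hu]; simp
  have hNOp := hHml p _ hp (isPGroup_Op p H) (Op_ne_bot_of_dvd hpd) (le_normalizer_Op p H)
  have hQH : Opp p L ≤ H := by
    intro d hd
    rw [← hNOp]
    apply Cfsg.Agent.Lib.BGTrans.centralizer_le_normalizer
    rw [mem_centralizer_iff]
    intro a ha
    exact h8 a ha d hd
  -- Step 9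
  have hD0 : Opp p H ≠ ⊥ := by
    intro h
    apply Op_ne_bot_of_dvd (H := H) hrd
    rw [eq_bot_iff, ← h]
    exact Op_le_Opp hpr.symm H
  have hQ0 : Opp p L ≠ ⊥ := by
    intro h
    apply h5 r hr hrd
    rw [eq_bot_iff, ← h]
    exact Op_le_Opp hpr.symm L
  have hDtop : Opp p H ≠ ⊤ := fun h => hH.1 (top_le_iff.mp (h ▸ Opp_le p H))
  have hQtop : Opp p L ≠ ⊤ := fun h => hL.1 (top_le_iff.mp (h ▸ Opp_le p L))
  have hND := normalizer_eq_of_coatom hG hH hD0 hDtop (le_normalizer_Opp p H)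
  have hNQ := normalizer_eq_of_coatom hG hL hQ0 hQtop (le_normalizer_Opp p L)
  have hCD : centralizer (Opp p H : Set G) ≤ H :=
    (Cfsg.Agent.Lib.BGTrans.centralizer_le_normalizer (Opp p H)).trans hND.le
  have hCQ : centralizer (Opp p L : Set G) ≤ L :=
    (Cfsg.Agent.Lib.BGTrans.centralizer_le_normalizer (Opp p L)).trans hNQ.le
  -- Step 10
  have h10 : ∀ x, (PElt p x ∧ x ∈ centralizer (Opp p H : Set G)) ↔
      (PElt p x ∧ x ∈ centralizer (Opp p L : Set G)) := by
    intro x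
    constructor
    · rintro ⟨hx, hxc⟩
      refine ⟨hx, ?_⟩
      rw [mem_centralizer_iff]
      intro d hd
      exact (comm_bender hHs (hCD hxc) hx (fun u hu => ((mem_centralizer_iff.mp hxc) u hu).symm)
        (hQH hd) (orderOf_coprime_of_mem_Opp hd) (fun u hu => (h8 u hu d hd).symm)).symm
    · rintro ⟨hx, hxc⟩
      refine ⟨hx, ?_⟩
      rw [mem_centralizer_iff]
      intro d hd
      exact (comm_bender hLs (hCQ hxc) hx (fun u hu => ((mem_centralizer_iff.mp hxc) u hu).symm)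
        ((h7 p hp hpd).2 hd) (orderOf_coprime_of_mem_Opp hd)
        (fun u hu => ((h7 p hp hpd).1 u hu d hd).symm)).symm
  -- Step 11
  let W : Subgroup G := Subgroup.closure {x | PElt p x ∧ x ∈ centralizer (Opp p H : Set G)}
  have hW' : W = Subgroup.closure {x | PElt p x ∧ x ∈ centralizer (Opp p L : Set G)} := by
    show Subgroup.closure _ = Subgroup.closure _
    congr 1
    ext x
    exact h10 x
  have hWH : H ≤ normalizer (W : Set G) :=
    (le_normalizer_Opp p H).trans (normalizer_le_closure_pelt p (Opp p H))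
  have hWL : L ≤ normalizer (W : Set G) := by
    rw [hW']
    exact (le_normalizer_Opp p L).trans (normalizer_le_closure_pelt p (Opp p L))
  have hWne : W ≠ ⊥ := by
    intro h
    apply Op_ne_bot_of_dvd (H := H) hpd
    rw [eq_bot_iff, ← h]
    intro a ha
    apply Subgroup.subset_closure
    refine ⟨pelt_of_mem_Op ha, ?_⟩
    rw [mem_centralizer_iff]
    intro d hd
    exact (Op_comm_Opp p H a ha d hd).symm
  have hWtop : W ≠ ⊤ := by
    intro h
    have hle : W ≤ centralizer (Opp p H : Set G) := by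
      rw [Subgroup.closure_le]
      intro x hx
      exact hx.2
    rw [h, top_le_iff] at hle
    apply hD0
    have hc : Opp p H ≤ center G := by
      intro d hd
      rw [mem_center_iff]
      intro g
      have : g ∈ centralizer (Opp p H : Set G) := by rw [hle]; trivial
      exact ((mem_centralizer_iff.mp this) d hd).symm
    rw [IsMin.center_eq_bot hG, le_bot_iff] at hc
    exact hc
  have e1 := normalizer_eq_of_coatom hG hH hWne hWtop hWH
  have e2 := normalizer_eq_of_coatom hG hL hWne hWtop hWL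
  rw [← e1, e2]

end Cfsg.Agent.S1482

namespace Cfsg.Agent.S1482

theorem result {G : Type*} [Group G] [Finite G] (hG : Cfsg.IsMinSimpleOddOrder G) (H : Subgroup G) (hH : IsCoatom H) (hF2 : 2 ≤ (Nat.card (Cfsg.fittingOf H)).primeFactors.card)
    (M : Subgroup G) (hM : M ≤ Cfsg.fittingOf H) (hZM : Cfsg.fittingOf H ⊓ Subgroup.centralizer (Cfsg.fittingOf H : Set G) ≤ M)
    (hinv : ∀ Y ∈ Cfsg.invSubgroups ⊤ M (Cfsg.primesNotDvd (Nat.card (Cfsg.fittingOf H))), Y = ⊥) :
    ∀ L : Subgroup G, IsCoatom L → M ≤ L → L = H :=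
  fun L hL hML => main hG H hH hF2 M hZM hinv L hL hML

end Cfsg.Agent.S1482
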