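import Mathlib
import Cfsg.Statements.S1485
import Cfsg.Agent.Lib.CharInduction

set_option autoImplicit false
open Cfsg

namespace Cfsg.Agent.S1485

open Cfsg.Agent.Lib.CharInduction

/-- Let H be a normal subgroup of the finite group G and θ an irreducible character of H. On H, the function induced from θ equals r times the sum of the distinct G-conjugates of θ, where r is the number of elements of G fixing θ under conjugation divided by the order of H (the index of H in the inertia group). -/
theorem result {G : Type*} [Group G] [Fintype G] (H : Subgroup G) [hN : H.Normal] (θ : H → ℂ) (hθ : Cfsg.IsIrrCharacter H θ) : (fun h : H => Cfsg.indFun H θ h) = ((Nat.card {g : G // ∀ h : H, θ ⟨g * h * g⁻¹, hN.conj_mem h h.2 g⟩ = θ h} : ℂ) / (Nat.card H : ℂ)) • ∑ᶠ ψ ∈ {ψ : H → ℂ | ∃ g : G, ψ = fun h : H => θ ⟨g * h * g⁻¹, hN.conj_mem h h.2 g⟩}, ψ := by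
  classical
  rw [indFun_restrict_normal H hN θ]
  -- the orbit as a finset
  set O : Finset (H → ℂ) := Finset.univ.image (fun g : G => conjBy H hN g θ) with hO
  have hset : {ψ : H → ℂ | ∃ g : G, ψ = fun h : H => θ ⟨g * h * g⁻¹, hN.conj_mem h h.2 g⟩} = ↑O := by
    ext ψ
    simp only [Set.mem_setOf_eq, hO, Finset.coe_image, Finset.coe_univ, Set.image_univ, Set.mem_range]
    constructor
    · rintro ⟨g, rfl⟩
      exact ⟨g, rfl⟩
    · rintro ⟨g, rfl⟩
      exact ⟨g, rfl⟩
  rw [hset, finsum_mem_coe_finset]
  have hcardeq : Nat.card {g : G // ∀ h : H, θ ⟨g * h * g⁻¹, hN.conj_mem h h.2 g⟩ = θ h} =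
      Nat.card {g : G // conjBy H hN g θ = θ} := by
    apply Nat.card_congr
    apply Equiv.subtypeEquivRight
    intro g
    constructor
    · intro h
      funext n
      exact h n
    · intro h n
      have := congrFun h n
      exact this
  rw [hcardeq]
  have hsum : ∑ x : G, conjBy H hN x θ =
      (Nat.card {g : G // conjBy H hN g θ = θ} : ℂ) • ∑ ψ ∈ O, ψ := by
    rw [← Finset.sum_fiberwise_of_maps_to (s := Finset.univ) (t := O)
      (g := fun g : G => conjBy H hN g θ) (fun g _ => Finset.mem_image_of_mem _ (Finset.mem_univ g)),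
      Finset.smul_sum]
    refine Finset.sum_congr rfl fun ψ hψ => ?_
    obtain ⟨x, -, rfl⟩ := Finset.mem_image.mp hψ
    have h1 : ∀ g ∈ Finset.univ.filter (fun g : G => conjBy H hN g θ = conjBy H hN x θ),
        conjBy H hN g θ = conjBy H hN x θ := fun g hg => (Finset.mem_filter.mp hg).2
    rw [Finset.sum_congr rfl h1, Finset.sum_const]
    have h2 := card_filter_conjBy_eq H hN θ x
    have h3 : (Finset.univ.filter (fun g : G => conjBy H hN g θ = conjBy H hN x θ)).card =
        (Finset.univ.filter (fun y : G => conjBy H hN x θ = conjBy H hN y θ)).card := by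
      congr 1
      ext y
      simp [eq_comm]
    rw [h3, h2, Nat.cast_smul_eq_nsmul]
  rw [hsum, smul_smul]
  congr 1
  ring

end Cfsg.Agent.S1485
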