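import Mathlib
import Cfsg.Statements.S1486
import Cfsg.Agent.Lib.CharInduction

set_option autoImplicit false
open Cfsg

namespace Cfsg.Agent.S1486

open Cfsg.Agent.Lib.CharInduction Cfsg.Agent.Lib.CharBasic

/-- Let H be a normal subgroup of the finite group G and θ, φ irreducible characters of H. If φ is a G-conjugate of θ then the functions induced from θ and φ coincide; if φ is not a G-conjugate of θ then the induced functions are orthogonal. -/
theorem result {G : Type*} [Group G] [Fintype G] (H : Subgroup G) [hN : H.Normal] (θ φ : H → ℂ) (hθ : Cfsg.IsIrrCharacter H θ) (hφ : Cfsg.IsIrrCharacter H φ) : ((∃ g : G, φ = fun h : H => θ ⟨g * h * g⁻¹, hN.conj_mem h h.2 g⟩) → Cfsg.indFun H φ = Cfsg.indFun H θ) ∧ ((¬ ∃ g : G, φ = fun h : H => θ ⟨g * h * g⁻¹, hN.conj_mem h h.2 g⟩) → Cfsg.classInner (Cfsg.indFun H φ) (Cfsg.indFun H θ) = 0) := by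
  classical
  constructor
  · rintro ⟨g, rfl⟩
    funext a
    by_cases ha : a ∈ H
    · have h1 := indFun_of_mem_normal H hN θ ⟨a, ha⟩
      have h2 := indFun_of_mem_normal H hN (conjBy H hN g θ) ⟨a, ha⟩
      simp only at h1 h2
      show indFun H (conjBy H hN g θ) a = _
      rw [h1, h2]
      congr 1
      have h3 : ∀ x : G, conjBy H hN x (conjBy H hN g θ) ⟨a, ha⟩ = conjBy H hN (g * x) θ ⟨a, ha⟩ := by
        intro x
        rw [conjBy_conjBy]
      simp_rw [h3]
      exact Equiv.sum_comp (Equiv.mulLeft g) (fun x => conjBy H hN x θ ⟨a, ha⟩)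
    · show indFun H (conjBy H hN g θ) a = _
      rw [indFun_of_not_mem_normal H hN _ ha, indFun_of_not_mem_normal H hN _ ha]
  · intro hnot
    have := Fintype.ofFinite H
    rw [classInner_indFun_indFun H hN]
    have h0 : ∀ x y : G, classInner (conjBy H hN x φ) (conjBy H hN y θ) = 0 := by
      intro x y
      apply classInner_irr_ne (isIrrCharacter_conjBy H hN x hφ) (isIrrCharacter_conjBy H hN y hθ)
      intro he
      apply hnot
      refine ⟨y * x⁻¹, ?_⟩
      have h1 : conjBy H hN x⁻¹ (conjBy H hN x φ) = φ := by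
        rw [conjBy_conjBy, mul_inv_cancel, conjBy_one]
      have h2 : conjBy H hN x⁻¹ (conjBy H hN y θ) = conjBy H hN (y * x⁻¹) θ := by
        rw [conjBy_conjBy]
      rw [← h1, he, h2]
      rfl
    simp [h0]

end Cfsg.Agent.S1486
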