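import Mathlib
import Cfsg.Statements.S1487
import Cfsg.Agent.Lib.CharInduction
import Cfsg.Agent.Lib.GenChar

set_option autoImplicit false
open Cfsg

namespace Cfsg.Agent.S1487

open Cfsg.Agent.Lib.CharInduction Cfsg.Agent.Lib.CharBasic Cfsg.Agent.Lib.GenChar

/-- Let A ≤ H be normal subgroups of the finite group G and θ an irreducible character of H. Then θ takes the value θ 1 on all of A if and only if the function induced from θ to G takes its value at 1 on all of A. -/
theorem result {G : Type*} [Group G] [Fintype G] (A H : Subgroup G) [hA : A.Normal] [hN : H.Normal] (hAH : A ≤ H) (θ : H → ℂ) (hθ : Cfsg.IsIrrCharacter H θ) : (∀ a : H, (a : G) ∈ A → θ a = θ 1) ↔ (∀ a : G, a ∈ A → Cfsg.indFun H θ a = Cfsg.indFun H θ 1) := by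
  classical
  have hone : ∀ x : G, conjBy H hN x θ (1 : H) = θ 1 := by
    intro x
    rw [conjBy_apply]
    congr 1
    apply Subtype.ext
    simp
  have hi1 : Cfsg.indFun H θ 1 = (Nat.card H : ℂ)⁻¹ * ((Nat.card G : ℂ) * θ 1) := by
    have h1 := indFun_of_mem_normal H hN θ (1 : H)
    simp only [OneMemClass.coe_one] at h1
    rw [h1]
    simp_rw [hone]
    simp [Finset.card_univ]
  have hHne : (Nat.card H : ℂ) ≠ 0 := Nat.cast_ne_zero.mpr Nat.card_pos.ne'
  constructor
  · intro h a ha
    have h1 := indFun_of_mem_normal H hN θ ⟨a, hAH ha⟩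
    simp only at h1
    rw [h1, hi1]
    congr 1
    have h2 : ∀ x : G, conjBy H hN x θ ⟨a, hAH ha⟩ = θ 1 := by
      intro x
      rw [conjBy_apply]
      apply h ⟨x * a * x⁻¹, _⟩
      exact hA.conj_mem a ha x
    simp_rw [h2]
    simp [Finset.card_univ]
  · intro h a ha
    have h1 := indFun_of_mem_normal H hN θ a
    have h2 := h a ha
    rw [h1, hi1] at h2
    have h3 : ∑ x : G, conjBy H hN x θ a = (Nat.card G : ℂ) * θ 1 := mul_left_cancel₀ (inv_ne_zero hHne) h2
    have h4 : ∑ x ∈ (Finset.univ : Finset G), θ ⟨x * a * x⁻¹, hN.conj_mem a a.2 x⟩ =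
        ((Finset.univ : Finset G).card : ℂ) * θ 1 := by
      rw [Finset.card_univ, ← Nat.card_eq_fintype_card]
      exact h3
    have h5 := char_eq_one_of_sum (G := H) Finset.univ (fun x : G => (⟨x * a * x⁻¹, hN.conj_mem a a.2 x⟩ : H))
      (IsIrrCharacter.isCharacter hθ) h4 1 (Finset.mem_univ _)
    have e : (⟨1 * (a : G) * 1⁻¹, hN.conj_mem a a.2 1⟩ : H) = a := by
      apply Subtype.ext
      simp
    rw [e] at h5
    exact h5

end Cfsg.Agent.S1487
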