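import Mathlib
import Cfsg.Statements.S1488
import Cfsg.Agent.Lib.CharInd

set_option autoImplicit false
open Cfsg

namespace Cfsg.Agent.S1488

open Cfsg.Agent.Lib.CharInd

private lemma sum_mk {G : Type*} [Group G] [Fintype G] (A : Subgroup G) [A.Normal]
    [Fintype (G ⧸ A)] (f : G ⧸ A → ℂ) :
    ∑ x : G, f (QuotientGroup.mk' A x) = (Nat.card A : ℂ) * ∑ q : G ⧸ A, f q := by
  classical
  rw [← Finset.sum_fiberwise (s := Finset.univ) (g := fun x : G => QuotientGroup.mk' A x),
    Finset.mul_sum]
  refine Finset.sum_congr rfl fun q _ => ?_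
  have h1 : ∀ x ∈ Finset.univ.filter (fun x : G => QuotientGroup.mk' A x = q),
      f (QuotientGroup.mk' A x) = f q := by
    intro x hx
    rw [(Finset.mem_filter.mp hx).2]
  rw [Finset.sum_congr rfl h1, Finset.sum_const, nsmul_eq_mul]
  congr 1
  -- the fibre has |A| elements
  obtain ⟨x₀, rfl⟩ := QuotientGroup.mk'_surjective A q
  have : (Finset.univ.filter (fun x : G => QuotientGroup.mk' A x = QuotientGroup.mk' A x₀)).card
      = Nat.card A := by
    rw [Nat.card_eq_fintype_card, ← Finset.card_univ]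
    symm
    apply Finset.card_bij (fun (a : A) _ => x₀ * a)
    · intro a _
      simp only [Finset.mem_filter, Finset.mem_univ, true_and]
      simp
    · intro a _ b _ h
      exact Subtype.ext (mul_left_cancel h)
    · intro x hx
      simp only [Finset.mem_filter, Finset.mem_univ, true_and] at hx
      have h2 : x₀⁻¹ * x ∈ A := by
        have := QuotientGroup.eq.mp hx.symm
        exact this
      exact ⟨⟨_, h2⟩, Finset.mem_univ _, by simp⟩
  rw [this]

/-- Let A be a normal subgroup of the finite group G contained in the subgroup H, let θ be a function on H and θ₁ a function on the image of H in G ⧸ A whose composite with the projection is θ. Then the function induced from θ₁ to G ⧸ A, composed with the projection G → G ⧸ A, equals the function induced from θ to G. -/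
theorem result {G : Type*} [Group G] [Fintype G] (A H : Subgroup G) [A.Normal] (hAH : A ≤ H) [Fintype (G ⧸ A)] [Fintype ↥(H.map (QuotientGroup.mk' A))] (θ : H → ℂ) (θ₁ : ↥(H.map (QuotientGroup.mk' A)) → ℂ) (hθ : ∀ x : H, θ₁ ⟨QuotientGroup.mk' A x, Subgroup.mem_map_of_mem _ x.2⟩ = θ x) (g : G) : Cfsg.indFun (H.map (QuotientGroup.mk' A)) θ₁ (QuotientGroup.mk' A g) = Cfsg.indFun H θ g := by
  classical
  have hmem : ∀ y : G, (QuotientGroup.mk' A) y ∈ H.map (QuotientGroup.mk' A) ↔ y ∈ H := by
    intro y
    constructor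
    · rintro ⟨h, hh, he⟩
      have h2 : h⁻¹ * y ∈ A := QuotientGroup.eq.mp he
      have h3 : h * (h⁻¹ * y) ∈ H := H.mul_mem hh (hAH h2)
      simpa using h3
    · exact Subgroup.mem_map_of_mem _
  have hext : ∀ y : G, extendByZero (H.map (QuotientGroup.mk' A)) θ₁ ((QuotientGroup.mk' A) y) = extendByZero H θ y := by
    intro y
    by_cases hy : y ∈ H
    · rw [extendByZero_of_mem _ _ ((hmem y).mpr hy), extendByZero_of_mem _ _ hy]
      exact hθ ⟨y, hy⟩
    · rw [extendByZero_of_not_mem _ _ (fun h => hy ((hmem y).mp h)), extendByZero_of_not_mem _ _ hy]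
  have hcard : (Nat.card H : ℂ) = (Nat.card A : ℂ) * (Nat.card (H.map (QuotientGroup.mk' A)) : ℂ) := by
    have h1 := sum_mk A (fun q => if q ∈ H.map (QuotientGroup.mk' A) then (1 : ℂ) else 0)
    have h2 : ∀ x : G, (if QuotientGroup.mk' A x ∈ H.map (QuotientGroup.mk' A) then (1 : ℂ) else 0) =
        if x ∈ H then 1 else 0 := by
      intro x
      simp only [hmem]
    simp_rw [h2] at h1
    rw [Finset.sum_boole, Finset.sum_boole] at h1
    have e1 : ((Finset.univ.filter (fun x : G => x ∈ H)).card : ℂ) = Nat.card H := by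
      rw [Nat.card_eq_fintype_card, Fintype.card_subtype]
    have e2 : ((Finset.univ.filter (fun q : G ⧸ A => q ∈ H.map (QuotientGroup.mk' A))).card : ℂ) =
        Nat.card (H.map (QuotientGroup.mk' A)) := by
      rw [Nat.card_eq_fintype_card, Fintype.card_subtype]
    rw [e1, e2] at h1
    exact h1
  have hA0 : (Nat.card A : ℂ) ≠ 0 := Nat.cast_ne_zero.mpr Nat.card_pos.ne'
  have hm0 : (Nat.card (H.map (QuotientGroup.mk' A)) : ℂ) ≠ 0 := Nat.cast_ne_zero.mpr Nat.card_pos.ne'
  unfold indFun
  rw [hcard]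
  have hsum := sum_mk A (fun q => extendByZero (H.map (QuotientGroup.mk' A)) θ₁ (q⁻¹ * (QuotientGroup.mk' A) g * q))
  have h3 : ∀ x : G, extendByZero (H.map (QuotientGroup.mk' A)) θ₁ (((QuotientGroup.mk' A) x)⁻¹ * (QuotientGroup.mk' A) g * (QuotientGroup.mk' A) x) = extendByZero H θ (x⁻¹ * g * x) := by
    intro x
    rw [← hext]
    simp
  simp_rw [h3] at hsum
  rw [hsum]
  field_simp

end Cfsg.Agent.S1488
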