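import Mathlib
import Cfsg.Statements.S1489
import Cfsg.Agent.Lib.Clifford
import Cfsg.Agent.Lib.CharDecomp

set_option autoImplicit false
open Cfsg

namespace Cfsg.Agent.S1489

open Cfsg.Agent.Lib.CharBasic Cfsg.Agent.Lib.CharInd Cfsg.Agent.Lib.Clifford Cfsg.Agent.Lib.CharDecomp
open scoped ComplexConjugate

/-- Let H be a normal subgroup of the finite group G, θ an irreducible character of H, and T the inertia group of θ (the elements g with θ(g h g⁻¹) = θ(h) for all h ∈ H). If ψ and ψ' are irreducible characters of T having nonzero inner product with the function induced from θ to T, then the function induced from ψ to G is an irreducible character of G, and it equals the one induced from ψ' only if ψ = ψ'. -/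
theorem result {G : Type*} [Group G] [Fintype G] (H T : Subgroup G) [hN : H.Normal] [Fintype T] (θ : H → ℂ) (hθ : Cfsg.IsIrrCharacter H θ) (hT : ∀ g : G, g ∈ T ↔ ∀ h : H, θ ⟨g * h * g⁻¹, hN.conj_mem h h.2 g⟩ = θ h) (hHT : H ≤ T) (ψ ψ' : T → ℂ) (hψ : Cfsg.IsIrrCharacter T ψ) (hψ' : Cfsg.IsIrrCharacter T ψ') (hc : Cfsg.classInner (Cfsg.indFun (H.subgroupOf T) (fun x => θ ⟨(x : T), Subgroup.mem_subgroupOf.mp x.2⟩)) ψ ≠ 0) (hc' : Cfsg.classInner (Cfsg.indFun (H.subgroupOf T) (fun x => θ ⟨(x : T), Subgroup.mem_subgroupOf.mp x.2⟩)) ψ' ≠ 0) : Cfsg.IsIrrCharacter G (Cfsg.indFun T ψ) ∧ (Cfsg.indFun T ψ = Cfsg.indFun T ψ' → ψ = ψ') := by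
  classical
  have := Fintype.ofFinite H
  have := Fintype.ofFinite (H.subgroupOf T)
  -- translate the hypothesis to `H`
  have hover : ∀ ξ : T → ℂ, IsIrrCharacter T ξ →
      classInner (indFun (H.subgroupOf T) (fun x => θ ⟨(x : T), Subgroup.mem_subgroupOf.mp x.2⟩)) ξ ≠ 0 →
      classInner (fun n : H => ξ ⟨(n : G), hHT n.2⟩) θ ≠ 0 := by
    intro ξ hξ hne
    rw [Cfsg.Agent.Lib.CharInd.frobenius _ _ (isClassFunction_of_isCharacter (IsIrrCharacter.isCharacter hξ))] at hne
    have e := classInner_comp_mulEquiv (Subgroup.subgroupOfEquivOfLe hHT)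
      θ (fun n : H => ξ ⟨(n : G), hHT n.2⟩)
    have e2 : classInner (fun x : H.subgroupOf T => θ ⟨(x : T), Subgroup.mem_subgroupOf.mp x.2⟩)
        (fun h : H.subgroupOf T => ξ (h : T)) = classInner θ (fun n : H => ξ ⟨(n : G), hHT n.2⟩) := by
      rw [← e]
      rfl
    rw [e2] at hne
    intro h0
    apply hne
    rw [← classInner_conj_symm, h0, map_zero]
  have hov := hover ψ hψ hc
  have hov' := hover ψ' hψ' hc'
  obtain ⟨hirr, hmult⟩ := indFun_irr_of_over H T hθ hT hHT hψ hov
  obtain ⟨hirr', hmult'⟩ := indFun_irr_of_over H T hθ hT hHT hψ' hov'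
  refine ⟨hirr, ?_⟩
  intro heq
  by_contra hne
  set χ := indFun T ψ with hχ
  set X : T → ℂ := fun t => χ t with hX
  have hXchar : IsCharacter T X := isCharacter_restrict T (IsIrrCharacter.isCharacter hirr)
  have hclass : IsClassFunction G χ := isClassFunction_of_isCharacter (IsIrrCharacter.isCharacter hirr)
  have h1 : classInner X ψ = 1 := by
    have h2 : classInner χ χ = 1 := classInner_irr_self hirr
    rw [hχ] at h2
    nth_rewrite 1 [Cfsg.Agent.Lib.CharInd.frobenius T ψ hclass] at h2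
    rw [← classInner_conj_symm]
    have h3 : classInner ψ X = 1 := h2
    rw [h3, map_one]
  have h1' : classInner X ψ' = 1 := by
    have h2 : classInner χ χ = 1 := classInner_irr_self hirr
    have h4 : classInner (indFun T ψ') χ = 1 := by rw [← heq]; exact h2
    rw [Cfsg.Agent.Lib.CharInd.frobenius T ψ' hclass] at h4
    rw [← classInner_conj_symm, h4, map_one]
  -- X = ψ + ψ' + Z
  obtain ⟨Y, hY, hXY⟩ := exists_char_add hXchar hψ (by rw [h1]; exact one_ne_zero)
  have hY1 : classInner Y ψ' = 1 := by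
    have h2 : classInner X ψ' = classInner ψ ψ' + classInner Y ψ' := by
      rw [hXY, classInner_add_left]
    rw [h1', classInner_irr_ne hψ hψ' hne, zero_add] at h2
    exact h2.symm
  obtain ⟨Z, hZ, hYZ⟩ := exists_char_add hY hψ' (by rw [hY1]; exact one_ne_zero)
  -- restrict to H
  have hres : ∀ ξ : T → ℂ, IsCharacter T ξ → ∃ n : ℕ, classInner (fun n : H => ξ ⟨(n : G), hHT n.2⟩) θ = n := by
    intro ξ hξ
    have hξ' : IsCharacter H (fun n : H => ξ ⟨(n : G), hHT n.2⟩) :=
      isCharacter_comp (Subgroup.inclusion hHT) hξ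
    exact classInner_char_irr hξ' hθ
  have htot : classInner (fun n : H => χ n) θ =
      classInner (fun n : H => ψ ⟨(n : G), hHT n.2⟩) θ +
      classInner (fun n : H => ψ' ⟨(n : G), hHT n.2⟩) θ +
      classInner (fun n : H => Z ⟨(n : G), hHT n.2⟩) θ := by
    have e0 : (fun n : H => χ n) = (fun n : H => ψ ⟨(n : G), hHT n.2⟩) +
        (fun n : H => ψ' ⟨(n : G), hHT n.2⟩) + (fun n : H => Z ⟨(n : G), hHT n.2⟩) := by
      funext n
      have e1 : X ⟨(n : G), hHT n.2⟩ = χ n := rfl
      rw [← e1, hXY, hYZ]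
      simp [add_assoc]
    rw [e0, classInner_add_left, classInner_add_left]
  rw [hmult] at htot
  obtain ⟨a, ha⟩ := hres ψ' (IsIrrCharacter.isCharacter hψ')
  obtain ⟨b, hb⟩ := hres Z hZ
  have h5 : classInner (fun n : H => ψ' ⟨(n : G), hHT n.2⟩) θ + classInner (fun n : H => Z ⟨(n : G), hHT n.2⟩) θ = 0 := by
    linear_combination -htot
  rw [ha, hb] at h5
  have h6 : a + b = 0 := by exact_mod_cast h5
  have h7 : a = 0 := by omega
  rw [h7] at ha
  exact hov' (by simpa using ha)

end Cfsg.Agent.S1489
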