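import Mathlib
import Cfsg.Statements.S1490
import Cfsg.Agent.S1489
import Cfsg.Agent.Lib.Clifford
import Cfsg.Agent.Lib.CharTwist
import Cfsg.Agent.Lib.IndFunBasic

set_option autoImplicit false
set_option linter.style.haveILetI false
open Cfsg

namespace Cfsg.Agent.S1490

open Cfsg.Agent.Lib.CharBasic Cfsg.Agent.Lib.CharInd Cfsg.Agent.Lib.Clifford Cfsg.Agent.Lib.CharInduction
open scoped ComplexConjugate

universe u

section Level

variable {T : Type u} [Group T] [Fintype T] (N : Subgroup T) [hN : N.Normal] [Fintype N]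

/-- The character induced from `1`. -/
theorem indFun_one_eq (Q : Type u) [CommGroup Q] [Finite Q] (π : T →* Q) (hπ : Function.Surjective π)
    (hker : ∀ g, π g = 1 ↔ g ∈ N) [Fintype (Q →* ℂˣ)] :
    indFun N (fun _ => 1) = fun g => ∑ l : Q →* ℂˣ, ((l (π g) : ℂˣ) : ℂ) := by
  classical
  have hcard : Nat.card T = Nat.card N * Nat.card Q := by
    have h5 : Nat.card N = Nat.card π.ker := by
      congr 2
      ext g
      rw [MonoidHom.mem_ker, hker]
    rw [h5]
    have h6 := Subgroup.card_mul_index π.ker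
    rw [Subgroup.index_ker, MonoidHom.range_eq_top.mpr hπ, Subgroup.card_top] at h6
    exact h6.symm
  funext g
  rw [Cfsg.Agent.Lib.CharTwist.sum_hom]
  by_cases hg : g ∈ N
  · rw [if_pos ((hker g).2 hg)]
    have h1 := indFun_of_mem_normal N hN (fun _ => 1) ⟨g, hg⟩
    simp only [conjBy_apply] at h1
    rw [h1]
    simp only [Finset.sum_const, Finset.card_univ, nsmul_eq_mul, mul_one]
    rw [← Nat.card_eq_fintype_card, hcard]
    have hN0 : (Nat.card N : ℂ) ≠ 0 := by exact_mod_cast Nat.card_pos.ne'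
    push_cast
    field_simp
  · rw [if_neg (fun h => hg ((hker g).1 h))]
    exact indFun_of_not_mem_normal N hN _ hg

/-- The case of an invariant character, with the inertia group as ambient group. -/
theorem invariant_case {θ : N → ℂ} (hθ : IsIrrCharacter N θ)
    (hinv : ∀ (g : T) (n : N), θ ⟨g * n * g⁻¹, hN.conj_mem (n : T) n.2 g⟩ = θ n)
    (hab : ∀ x y : T, x * y * x⁻¹ * y⁻¹ ∈ N) :
    ∃ (e : ℕ) (C : Finset (IrrCharacter T)), 0 < e ∧
      indFun N θ = (e : ℂ) • ∑ ψ ∈ C, (ψ : T → ℂ) ∧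
      (∀ ψ ∈ C, (fun n : N => (ψ : T → ℂ) n) = (e : ℂ) • θ) ∧
      e ^ 2 * C.card * Nat.card N = Nat.card T := by
  classical
  have hθc := IsIrrCharacter.isCharacter hθ
  set Φ := indFun N θ with hΦ
  have hΦc : IsCharacter T Φ := indFun_isCharacter N hθc
  have hθ1 : θ 1 ≠ 0 := irr_degree_ne_zero hθ
  -- the abelian quotient
  letI : CommGroup (T ⧸ N) :=
    { (inferInstance : Group (T ⧸ N)) with
      mul_comm := by
        intro a b
        induction a using QuotientGroup.induction_on with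
        | H x =>
        induction b using QuotientGroup.induction_on with
        | H y =>
        have h1 := hab x y
        have h2 : (x : T ⧸ N) * (y : T ⧸ N) * ((x : T ⧸ N))⁻¹ * ((y : T ⧸ N))⁻¹ = 1 := by
          rw [← QuotientGroup.mk_inv, ← QuotientGroup.mk_inv, ← QuotientGroup.mk_mul, ← QuotientGroup.mk_mul,
            ← QuotientGroup.mk_mul]
          exact (QuotientGroup.eq_one_iff _).2 h1
        rwa [mul_inv_eq_one, mul_inv_eq_iff_eq_mul] at h2 }
  let π : T →* (T ⧸ N) := QuotientGroup.mk' N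
  have hπ : Function.Surjective π := QuotientGroup.mk'_surjective N
  have hker : ∀ g, π g = 1 ↔ g ∈ N := fun g => QuotientGroup.eq_one_iff g
  letI : Fintype ((T ⧸ N) →* ℂˣ) := Fintype.ofFinite _
  -- decomposition
  obtain ⟨m, hm⟩ := exists_nat_decomp hΦc
  have hmi : ∀ ψ : IrrCharacter T, classInner Φ (ψ : T → ℂ) = m ψ := by
    intro ψ
    rw [hm, classInner_nat_decomp m ψ ψ.2]
  have hfrob : ∀ ψ : IrrCharacter T, classInner θ (fun n : N => (ψ : T → ℂ) n) = m ψ := by
    intro ψ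
    rw [← hmi, hΦ, frobenius N θ (isClassFunction_of_isCharacter (IsIrrCharacter.isCharacter ψ.2))]
  have hfrob' : ∀ ψ : IrrCharacter T, classInner (fun n : N => (ψ : T → ℂ) n) θ = m ψ := by
    intro ψ
    rw [← classInner_conj_symm, hfrob, map_natCast]
  -- a first constituent
  obtain ⟨ψ₀, hψ₀⟩ : ∃ ψ : IrrCharacter T, m ψ ≠ 0 := by
    by_contra hall
    push Not at hall
    have h1 : Φ 1 = 0 := by
      rw [hm]
      simp [hall]
    rw [hΦ, indFun_one] at h1
    have h2 : (N.index : ℂ) ≠ 0 := by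
      exact_mod_cast Subgroup.index_ne_zero_of_finite
    exact (mul_ne_zero h2 hθ1) h1
  obtain ⟨e, he0, hres, he⟩ := restrict_eq_smul_of_invariant N hθ hinv ψ₀.2
    (by rw [hfrob']; exact_mod_cast hψ₀)
  -- the decomposition of `e Φ`
  have hdec : (e : ℂ) • Φ = ∑ l : (T ⧸ N) →* ℂˣ, Cfsg.Agent.Lib.CharTwist.twist π (ψ₀ : T → ℂ) l := by
    have h1 := indFun_mul_restrict N (fun _ => (1 : ℂ)) (ψ := (ψ₀ : T → ℂ))
      (isClassFunction_of_isCharacter (IsIrrCharacter.isCharacter ψ₀.2))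
    have h2 : ((fun _ => (1 : ℂ)) * fun h : N => (ψ₀ : T → ℂ) h) = (e : ℂ) • θ := by
      rw [← hres]
      funext n
      simp
    rw [h2, indFun_smul] at h1
    rw [hΦ, h1, indFun_one_eq N (T ⧸ N) π hπ hker]
    funext g
    simp only [Pi.mul_apply, Finset.sum_apply, Cfsg.Agent.Lib.CharTwist.twist_apply, Finset.sum_mul,
      Finset.mul_sum]
    refine Finset.sum_congr rfl fun l _ => ?_
    ring
  have hclaim : ∀ ψ : IrrCharacter T, m ψ ≠ 0 →
      (fun n : N => (ψ : T → ℂ) n) = (e : ℂ) • θ ∧ m ψ = e := by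
    intro ψ hψ
    have h1 : classInner ((e : ℂ) • Φ) (ψ : T → ℂ) ≠ 0 := by
      rw [classInner_smul_left, hmi]
      exact mul_ne_zero (by exact_mod_cast he0) (by exact_mod_cast hψ)
    rw [hdec, classInner_sum_left] at h1
    obtain ⟨l, -, hl⟩ := Finset.exists_ne_zero_of_sum_ne_zero h1
    have h2 := classInner_irr (Cfsg.Agent.Lib.CharTwist.isIrrCharacter_twist π ψ₀.2 l) ψ.2
    rw [h2] at hl
    have h3 : Cfsg.Agent.Lib.CharTwist.twist π (ψ₀ : T → ℂ) l = (ψ : T → ℂ) := by
      by_contra hne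
      rw [if_neg hne] at hl
      exact hl rfl
    have h4 : (fun n : N => (ψ : T → ℂ) n) = (e : ℂ) • θ := by
      rw [← hres, ← h3]
      funext n
      simp [Cfsg.Agent.Lib.CharTwist.twist_apply, (hker n).2 n.2]
    refine ⟨h4, ?_⟩
    have h5 := hfrob' ψ
    rw [h4, classInner_smul_left, classInner_irr_self hθ, mul_one] at h5
    exact_mod_cast h5.symm
  refine ⟨e, Finset.univ.filter fun ψ : IrrCharacter T => m ψ ≠ 0, Nat.pos_of_ne_zero he0, ?_, ?_, ?_⟩
  · rw [hm, Finset.smul_sum]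
    have h1 : ∑ ψ : IrrCharacter T, m ψ • (ψ : T → ℂ) =
        ∑ ψ ∈ Finset.univ.filter fun ψ : IrrCharacter T => m ψ ≠ 0, m ψ • (ψ : T → ℂ) := by
      rw [Finset.sum_filter]
      refine Finset.sum_congr rfl fun ψ _ => ?_
      by_cases h : m ψ = 0
      · simp [h]
      · simp [h]
    rw [h1]
    refine Finset.sum_congr rfl fun ψ hψ => ?_
    rw [(hclaim ψ (Finset.mem_filter.1 hψ).2).2, Nat.cast_smul_eq_nsmul]
  · intro ψ hψ
    exact (hclaim ψ (Finset.mem_filter.1 hψ).2).1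
  · -- numerics
    set C := Finset.univ.filter fun ψ : IrrCharacter T => m ψ ≠ 0 with hC
    have h1 : Φ 1 = (e : ℂ) * ∑ ψ ∈ C, (ψ : T → ℂ) 1 := by
      have h2 : Φ = (e : ℂ) • ∑ ψ ∈ C, (ψ : T → ℂ) := by
        rw [hm, Finset.smul_sum, hC, Finset.sum_filter]
        refine Finset.sum_congr rfl fun ψ _ => ?_
        by_cases h : m ψ = 0
        · simp [h]
        · simp only [h, ne_eq, not_false_eq_true, if_true]
          rw [(hclaim ψ h).2, Nat.cast_smul_eq_nsmul]
      rw [h2]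
      simp [Finset.sum_apply]
    have h3 : ∀ ψ ∈ C, (ψ : T → ℂ) 1 = (e : ℂ) * θ 1 := by
      intro ψ hψ
      have h4 := congrFun (hclaim ψ (Finset.mem_filter.1 hψ).2).1 1
      simpa using h4
    rw [Finset.sum_congr rfl h3, Finset.sum_const, nsmul_eq_mul, hΦ, indFun_one] at h1
    have h5 : (N.index : ℂ) = ((e ^ 2 * C.card : ℕ) : ℂ) := by
      apply mul_right_cancel₀ hθ1
      rw [h1]
      push_cast
      ring
    have h6 : N.index = e ^ 2 * C.card := by exact_mod_cast h5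
    rw [← h6, mul_comm]
    exact Subgroup.card_mul_index N

end Level

/-- Let H be a normal subgroup of the finite group G, θ an irreducible character of H with inertia group T, and suppose the commutator of any two elements of T lies in H (T/H abelian). Then there are a positive integer e and a finite set C of irreducible characters of G with e ^ 2 * |C| * |H| = |T|, such that the function induced from θ is e times the sum of the members of C and every member of C has degree [G:T] * e * θ(1). -/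
theorem result {G : Type*} [Group G] [Fintype G] (H T : Subgroup G) [hN : H.Normal] (θ : H → ℂ) (hθ : Cfsg.IsIrrCharacter H θ) (hT : ∀ g : G, g ∈ T ↔ ∀ h : H, θ ⟨g * h * g⁻¹, hN.conj_mem h h.2 g⟩ = θ h) (hab : ∀ x ∈ T, ∀ y ∈ T, x * y * x⁻¹ * y⁻¹ ∈ H) : ∃ (e : ℕ) (C : Finset (G → ℂ)), 0 < e ∧ (∀ χ ∈ C, Cfsg.IsIrrCharacter G χ) ∧ e ^ 2 * C.card * Nat.card H = Nat.card T ∧ Cfsg.indFun H θ = (e : ℂ) • ∑ χ ∈ C, χ ∧ ∀ χ ∈ C, χ 1 = (T.index : ℂ) * e * θ 1 := by
  classical
  letI : Fintype H := Fintype.ofFinite _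
  letI : Fintype T := Fintype.ofFinite _
  have hHT : H ≤ T := by
    intro h hh
    rw [hT]
    intro n
    have h1 := isClassFunction_of_isCharacter (IsIrrCharacter.isCharacter hθ) n ⟨h, hh⟩
    exact h1
  let H' : Subgroup T := H.subgroupOf T
  haveI : H'.Normal := Subgroup.normal_subgroupOf
  letI : Fintype H' := Fintype.ofFinite _
  let ε : H' ≃* H := Subgroup.subgroupOfEquivOfLe hHT
  let θ' : H' → ℂ := fun x => θ ⟨(x : T), Subgroup.mem_subgroupOf.mp x.2⟩
  have hθ' : IsIrrCharacter H' θ' :=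
    isIrrCharacter_comp_of_surjective ε.toMonoidHom ε.surjective hθ
  have hinv' : ∀ (g : T) (n : H'), θ' ⟨g * n * g⁻¹, Subgroup.Normal.conj_mem inferInstance _ n.2 g⟩ = θ' n := by
    intro g n
    exact (hT g).mp g.2 (ε n)
  have hab' : ∀ x y : T, x * y * x⁻¹ * y⁻¹ ∈ H' := by
    intro x y
    exact hab x x.2 y y.2
  obtain ⟨e, C', he, hind, hres, hnum⟩ := invariant_case H' hθ' hinv' hab'
  have hcardH : Nat.card H' = Nat.card H := Nat.card_congr ε.toEquiv
  rw [hcardH] at hnum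
  -- over `θ`
  have hover : ∀ ψ ∈ C', classInner
      (indFun (H.subgroupOf T) (fun x => θ ⟨(x : T), Subgroup.mem_subgroupOf.mp x.2⟩)) (ψ : T → ℂ) ≠ 0 := by
    intro ψ hψ
    rw [Cfsg.Agent.Lib.CharInd.frobenius _ _ (isClassFunction_of_isCharacter (IsIrrCharacter.isCharacter ψ.2))]
    have h1 : (fun h : H.subgroupOf T => (ψ : T → ℂ) h) = (e : ℂ) • θ' := hres ψ hψ
    rw [h1, classInner_smul_right]
    have h2 : classInner (fun x : H.subgroupOf T => θ ⟨(x : T), Subgroup.mem_subgroupOf.mp x.2⟩) θ' = 1 :=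
      classInner_irr_self hθ'
    rw [h2, mul_one]
    simpa using he.ne'
  have hmain := fun (ψ ψ' : IrrCharacter T) hψ hψ' =>
    Cfsg.Agent.S1489.result H T θ hθ hT hHT (ψ : T → ℂ) ψ' ψ.2 ψ'.2 (hover ψ hψ) (hover ψ' hψ')
  have hinj : Set.InjOn (fun ψ : IrrCharacter T => indFun T (ψ : T → ℂ)) (C' : Set (IrrCharacter T)) := by
    intro ψ hψ ψ' hψ' h
    exact Subtype.ext ((hmain ψ ψ' hψ hψ').2 h)
  refine ⟨e, C'.image fun ψ : IrrCharacter T => indFun T (ψ : T → ℂ), he, ?_, ?_, ?_, ?_⟩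
  · intro χ hχ
    obtain ⟨ψ, hψ, rfl⟩ := Finset.mem_image.1 hχ
    exact (hmain ψ ψ hψ hψ).1
  · rw [Finset.card_image_of_injOn hinj, hnum]
  · rw [Finset.sum_image hinj, ← Cfsg.Agent.Lib.IndFunBasic.indFun_indFun H T hHT θ]
    have h1 : indFun (H.subgroupOf T) (fun x => θ ⟨(x : T), Subgroup.mem_subgroupOf.mp x.2⟩) =
        (e : ℂ) • ∑ ψ ∈ C', (ψ : T → ℂ) := hind
    rw [h1, indFun_smul, indFun_sum]
  · intro χ hχ
    obtain ⟨ψ, hψ, rfl⟩ := Finset.mem_image.1 hχ
    have h1 := congrFun (hres ψ hψ) 1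
    simp only [OneMemClass.coe_one, Pi.smul_apply, smul_eq_mul] at h1
    have h2 : θ' 1 = θ 1 := rfl
    rw [h2] at h1
    show indFun T (ψ : T → ℂ) 1 = _
    rw [indFun_one, h1]
    ring

end Cfsg.Agent.S1490
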