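import Mathlib
import Cfsg.Statements.S1491
import Cfsg.Agent.Lib.CoprimeDeg
import Cfsg.Agent.Lib.Clifford
import Cfsg.Agent.Lib.CharInduction
import Cfsg.Agent.Lib.CharCodegP

set_option autoImplicit false
set_option linter.style.haveILetI false
set_option linter.unusedVariables false

open Cfsg Cfsg.Agent.Lib.CoprimeDeg Cfsg.Agent.Lib.CharKernel Cfsg.Agent.Lib.CharBasic
open Cfsg.Agent.Lib.CharInd Cfsg.Agent.Lib.CharInduction
open scoped ComplexConjugate

namespace Cfsg.Agent.S1491

/-- Let H be a normal subgroup of the finite group G and θ an irreducible character of H with inertia group T, where T/H is abelian (commutators of T lie in H) and the index of H in T is coprime to the order of H. Then the function induced from θ is the sum of a set of exactly [T:H] irreducible characters of G, each of degree [G:T] * θ(1). -/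
theorem result {G : Type*} [Group G] [Fintype G] (H T : Subgroup G) [hN : H.Normal] (θ : H → ℂ) (hθ : Cfsg.IsIrrCharacter H θ) (hT : ∀ g : G, g ∈ T ↔ ∀ h : H, θ ⟨g * h * g⁻¹, hN.conj_mem h h.2 g⟩ = θ h) (hab : ∀ x ∈ T, ∀ y ∈ T, x * y * x⁻¹ * y⁻¹ ∈ H) (hcop : Nat.Coprime (Nat.card H) (H.relIndex T)) : ∃ C : Finset (G → ℂ), (∀ χ ∈ C, Cfsg.IsIrrCharacter G χ) ∧ C.card = H.relIndex T ∧ Cfsg.indFun H θ = ∑ χ ∈ C, χ ∧ ∀ χ ∈ C, χ 1 = (T.index : ℂ) * θ 1 := by

  classical
  letI : Fintype H := Fintype.ofFinite _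
  letI : Fintype T := Fintype.ofFinite _
  have hθc := IsIrrCharacter.isCharacter hθ
  have hHT : H ≤ T := by
    intro h hh
    rw [hT]
    intro n
    have := isClassFunction_of_isCharacter hθc n (⟨h, hh⟩ : H)
    exact this
  -- model inside `T`
  let K : Subgroup T := H.subgroupOf T
  haveI hKn : K.Normal := Subgroup.normal_subgroupOf
  letI : Fintype K := Fintype.ofFinite _
  let ε : K ≃* H := Subgroup.subgroupOfEquivOfLe hHT
  let θ' : K → ℂ := θ ∘ ε
  have hθ' : IsIrrCharacter K θ' :=
    isIrrCharacter_comp_of_surjective ε.toMonoidHom ε.surjective hθ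
  have hcardK : Nat.card K = Nat.card H := Nat.card_congr ε.toEquiv
  have hindK : K.index = H.relIndex T := rfl
  have hcop' : Nat.Coprime (Nat.card K) K.index := by
    rw [hcardK, hindK]
    exact hcop
  obtain ⟨U, hU⟩ := Subgroup.exists_right_complement'_of_coprime hcop'
  letI : Fintype U := Fintype.ofFinite _
  have hs : CS K U := by
    refine ⟨hU.sup_eq_top, ?_⟩
    have := hU.symm.index_eq_card
    rw [← this]
    exact hcop'
  have hinvθ' : Cfsg.Agent.Lib.GlaubCyc.InvS K U θ' := by
    intro s _ g g' hg'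
    have h1 := (hT (s : G)).1 s.2 (ε g)
    have h2 : ε g' = ⟨(s : G) * (ε g : H) * (s : G)⁻¹, hN.conj_mem _ (ε g).2 _⟩ := by
      apply Subtype.ext
      show ((g' : T) : G) = (s : G) * (((g : T) : G)) * (s : G)⁻¹
      rw [hg']
      rfl
    show θ (ε g') = θ (ε g)
    rw [h2]
    exact h1
  let θx : Cfsg.Agent.Lib.GlaubCyc.XS K U := ⟨⟨θ', hθ'⟩, hinvθ'⟩
  let ψ : IrrCharacter T := EE hs θx
  have hψK : ∀ n : K, (ψ : T → ℂ) n = θ (ε n) := EE_apply hs θx
  -- the quotient is abelian, all its irreducible characters linear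
  let Q := T ⧸ K
  have hQc : ∀ a b : Q, a * b = b * a := by
    intro a b
    obtain ⟨a, rfl⟩ := QuotientGroup.mk_surjective a
    obtain ⟨b, rfl⟩ := QuotientGroup.mk_surjective b
    rw [← QuotientGroup.mk_mul, ← QuotientGroup.mk_mul, QuotientGroup.eq]
    have h1 := hab b b.2 a a.2
    have h2 : ((a * b : T)⁻¹ * (b * a) : T) ∈ K := by
      rw [Subgroup.mem_subgroupOf]
      have h3 := hN.conj_mem _ (H.inv_mem (hab a a.2 b b.2)) ((b : G)⁻¹ * (a : G)⁻¹)
      have e : (b : G)⁻¹ * (a : G)⁻¹ * ((a : G) * b * (a : G)⁻¹ * (b : G)⁻¹)⁻¹ * ((b : G)⁻¹ * (a : G)⁻¹)⁻¹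
          = ((a * b : T)⁻¹ * (b * a) : T) := by
        push_cast
        group
      rw [← e]
      exact h3
    exact h2
  have hdeg1 : ∀ β : IrrCharacter Q, charDegree (β : Q → ℂ) = 1 := by
    intro β
    have h1 := Cfsg.Agent.Lib.CharCodegP.irr_one_of_comm hQc β.2
    have h2 := one_eq_charDegree (IsIrrCharacter.isCharacter β.2)
    rw [h1] at h2
    exact_mod_cast h2.symm
  let ζ : IrrCharacter Q → T → ℂ := fun β => infl K (β : Q → ℂ) * (ψ : T → ℂ)
  have hζirr : ∀ β, IsIrrCharacter T (ζ β) := fun β => mul_irr hs θx ⟨β, hdeg1 β⟩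
  have hζH : ∀ β (n : H), ζ β ⟨(n : G), hHT n.2⟩ = θ n := by
    intro β n
    have hmem : (⟨(n : G), hHT n.2⟩ : T) ∈ K := by
      rw [Subgroup.mem_subgroupOf]
      exact n.2
    have h1 := infl_mem (K := K) ⟨β, hdeg1 β⟩ ⟨_, hmem⟩
    have h2 := hψK ⟨_, hmem⟩
    show infl K (β : Q → ℂ) _ * (ψ : T → ℂ) _ = θ n
    have e : ε ⟨_, hmem⟩ = n := by
      apply Subtype.ext
      rfl
    rw [e] at h2
    rw [h2]
    have h3 : infl K (β : Q → ℂ) (⟨(n : G), hHT n.2⟩ : T) = 1 := h1
    rw [h3, one_mul]
  have hζ1 : ∀ β, ζ β 1 = θ 1 := by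
    intro β
    exact hζH β 1
  let χ : IrrCharacter Q → G → ℂ := fun β => indFun T (ζ β)
  have hχirr : ∀ β, IsIrrCharacter G (χ β) := by
    intro β
    refine (Cfsg.Agent.Lib.Clifford.indFun_irr_of_over H T hθ hT hHT (hζirr β) ?_).1
    have e : (fun n : H => ζ β ⟨(n : G), hHT n.2⟩) = θ := funext (hζH β)
    rw [e, classInner_irr_self hθ]
    exact one_ne_zero
  have hχ1 : ∀ β, χ β 1 = (T.index : ℂ) * θ 1 := by
    intro β
    show indFun T (ζ β) 1 = _
    rw [indFun_one, hζ1]
  -- number of linear characters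
  have hcardQ : Nat.card Q = H.relIndex T := rfl
  have hcount : (Fintype.card (IrrCharacter Q) : ℂ) = (H.relIndex T : ℂ) := by
    have h1 := sum_irr_mul_conj (G := Q) 1 1
    have h2 : ∀ β : IrrCharacter Q, (β : Q → ℂ) 1 * conj ((β : Q → ℂ) 1) = 1 := by
      intro β
      rw [Cfsg.Agent.Lib.CharCodegP.irr_one_of_comm hQc β.2]
      simp
    simp_rw [h2] at h1
    rw [if_pos (IsConj.refl _)] at h1
    have h3 : Subgroup.centralizer ({1} : Set Q) = ⊤ := by
      ext x
      simp [Subgroup.mem_centralizer_iff]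
    rw [h3] at h1
    simp only [Subgroup.card_top, Finset.sum_const, Finset.card_univ, nsmul_eq_mul, mul_one] at h1
    rw [h1, hcardQ]
  -- sum of the `χ β` is the induced character
  have hsumζ : ∀ y : G, ∑ β, extendByZero T (ζ β) y = (H.relIndex T : ℂ) * extendByZero H θ y := by
    intro y
    by_cases hyT : y ∈ T
    · by_cases hyH : y ∈ H
      · have h1 : ∀ β, extendByZero T (ζ β) y = θ ⟨y, hyH⟩ := by
          intro β
          rw [extendByZero_of_mem T _ hyT]
          exact hζH β ⟨y, hyH⟩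
        simp_rw [h1]
        rw [extendByZero_of_mem H θ hyH]
        simp only [Finset.sum_const, Finset.card_univ, nsmul_eq_mul]
        rw [hcount]
      · rw [extendByZero_of_not_mem H θ hyH, mul_zero]
        have h1 : ∀ β, extendByZero T (ζ β) y =
            (β : Q → ℂ) (QuotientGroup.mk (⟨y, hyT⟩ : T)) * (ψ : T → ℂ) ⟨y, hyT⟩ := by
          intro β
          rw [extendByZero_of_mem T _ hyT]
          rfl
        simp_rw [h1]
        rw [← Finset.sum_mul]
        have h2 := sum_irr_mul_conj (G := Q) (QuotientGroup.mk (⟨y, hyT⟩ : T)) 1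
        have h3 : ∀ β : IrrCharacter Q, (β : Q → ℂ) (QuotientGroup.mk (⟨y, hyT⟩ : T)) * conj ((β : Q → ℂ) 1)
            = (β : Q → ℂ) (QuotientGroup.mk (⟨y, hyT⟩ : T)) := by
          intro β
          rw [Cfsg.Agent.Lib.CharCodegP.irr_one_of_comm hQc β.2]
          simp
        simp_rw [h3] at h2
        rw [h2, if_neg, zero_mul]
        intro hc
        replace hc := isConj_one_right.1 hc.symm
        rw [QuotientGroup.eq_one_iff, Subgroup.mem_subgroupOf] at hc
        exact hyH hc
    · rw [extendByZero_of_not_mem H θ (fun h => hyT (hHT h)), mul_zero]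
      exact Finset.sum_eq_zero (fun β _ => extendByZero_of_not_mem T _ hyT)
  have hcardT : (Nat.card T : ℂ) = (H.relIndex T : ℂ) * (Nat.card H : ℂ) := by
    have h1 := Subgroup.index_mul_card K
    rw [hcardK, hindK] at h1
    rw [← h1]
    push_cast
    rfl
  have hsum : indFun H θ = ∑ β, χ β := by
    funext g
    rw [Finset.sum_apply]
    simp only [χ]
    simp_rw [indFun_apply]
    rw [← Finset.mul_sum]
    rw [Finset.sum_comm]
    simp_rw [hsumζ]
    rw [← Finset.mul_sum, ← mul_assoc, hcardT, mul_inv, mul_comm ((H.relIndex T : ℂ)⁻¹), mul_assoc]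
    have hrel : (H.relIndex T : ℂ) ≠ 0 := by
      have : H.relIndex T ≠ 0 := Nat.ne_of_gt (Nat.pos_of_ne_zero (by
        intro h0
        have := Subgroup.index_mul_card K
        rw [hindK, h0, zero_mul] at this
        exact Nat.card_pos.ne this))
      exact_mod_cast this
    field_simp
  -- norm of the induced character
  have hnorm : classInner (indFun H θ) (indFun H θ) = (H.relIndex T : ℂ) := by
    have h1 := natCard_mul_classInner_indFun_self H hN θ hθ
    have h2 : Nat.card {g : G // conjBy H hN g θ = θ} = Nat.card T := by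
      apply Nat.card_congr
      refine Equiv.subtypeEquivRight ?_
      intro g
      rw [hT]
      constructor
      · intro h n
        exact congrFun h n
      · intro h
        exact funext h
    rw [h2, hcardT] at h1
    have hne : (Nat.card H : ℂ) ≠ 0 := natCard_subgroup_ne_zero H
    apply mul_left_cancel₀ hne
    rw [h1]
    ring
  -- injectivity
  have hinj : Function.Injective χ := by
    have h1 : classInner (indFun H θ) (indFun H θ) =
        ∑ a, ∑ b, (if χ a = χ b then (1 : ℂ) else 0) := by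
      rw [hsum, classInner_sum_left]
      refine Finset.sum_congr rfl fun a _ => ?_
      rw [classInner_sum_right]
      refine Finset.sum_congr rfl fun b _ => ?_
      exact classInner_irr (hχirr a) (hχirr b)
    rw [hnorm] at h1
    have h2 : ∑ a, ∑ b, (if χ a = χ b then (1 : ℕ) else 0) = ∑ a : IrrCharacter Q, 1 := by
      have : ((∑ a, ∑ b, (if χ a = χ b then (1 : ℕ) else 0) : ℕ) : ℂ) = ((∑ a : IrrCharacter Q, 1 : ℕ) : ℂ) := by
        push_cast
        rw [← h1]
        simp only [Finset.sum_const, Finset.card_univ, nsmul_eq_mul, mul_one]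
        rw [hcount]
      exact_mod_cast this
    have h3 : ∀ a : IrrCharacter Q, 1 ≤ ∑ b, (if χ a = χ b then (1 : ℕ) else 0) := by
      intro a
      calc 1 = if χ a = χ a then (1 : ℕ) else 0 := by simp
        _ ≤ _ := Finset.single_le_sum (f := fun b => if χ a = χ b then (1 : ℕ) else 0)
            (fun _ _ => Nat.zero_le _) (Finset.mem_univ a)
    have h4 := (Finset.sum_eq_sum_iff_of_le (s := Finset.univ) (fun a _ => h3 a)).1 h2.symm
    intro a b hab'
    by_contra hne
    have h5 := h4 a (Finset.mem_univ a)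
    have h6 : ∑ c ∈ ({a, b} : Finset (IrrCharacter Q)), (if χ a = χ c then (1 : ℕ) else 0) ≤
        ∑ c, (if χ a = χ c then (1 : ℕ) else 0) :=
      Finset.sum_le_sum_of_subset (Finset.subset_univ _)
    rw [Finset.sum_pair hne, if_pos rfl, if_pos hab', ← h5] at h6
    omega
  refine ⟨Finset.univ.image χ, ?_, ?_, ?_, ?_⟩
  · intro x hx
    obtain ⟨β, _, rfl⟩ := Finset.mem_image.1 hx
    exact hχirr β
  · rw [Finset.card_image_of_injective _ hinj]
    have : ((Finset.univ : Finset (IrrCharacter Q)).card : ℂ) = (H.relIndex T : ℂ) := by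
      rw [Finset.card_univ, hcount]
    exact_mod_cast this
  · rw [Finset.sum_image (fun a _ b _ h => hinj h)]
    exact hsum
  · intro x hx
    obtain ⟨β, _, rfl⟩ := Finset.mem_image.1 hx
    exact hχ1 β


end Cfsg.Agent.S1491
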