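import Mathlib
import Cfsg.Statements.S1492
import Cfsg.Agent.Lib.InducedIrr

set_option autoImplicit false

open Cfsg Cfsg.Agent.Lib.InducedIrr Cfsg.Agent.Lib.CharKernel Cfsg.Agent.Lib.CharBasic

namespace Cfsg.Agent.S1492

/-- Let ψ be an irreducible character of the finite group G and B ≤ D ≤ C subgroups with B normal in C, every commutator of an element of D with an element of C lying in B (so D/B is central in C/B), and ψ constant equal to ψ 1 on B. Then ψ(1) ^ 2 * |C| * |D| ≤ |G| ^ 2. -/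
theorem result {G : Type*} [Group G] [Finite G] (ψ : G → ℂ) (hψ : Cfsg.IsIrrCharacter G ψ) (B C D : Subgroup G) (hBD : B ≤ D) (hDC : D ≤ C) (hBn : ∀ c ∈ C, ∀ b ∈ B, c * b * c⁻¹ ∈ B) (hcent : ∀ d ∈ D, ∀ c ∈ C, d * c * d⁻¹ * c⁻¹ ∈ B) (hker : ∀ b ∈ B, ψ b = ψ 1) : ‖ψ 1‖ ^ 2 * (Nat.card C : ℝ) * (Nat.card D : ℝ) ≤ (Nat.card G : ℝ) ^ 2 := by

  classical
  have hdeg := deg_sq_le_of_section hψ C D hDC
    (fun x hx y hy => hker _ (hcent x hx y hy))
  have hc := IsIrrCharacter.isCharacter hψ
  have h1 : ψ 1 = (charDegree ψ : ℂ) := one_eq_charDegree hc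
  have hnorm : ‖ψ 1‖ = (charDegree ψ : ℝ) := by rw [h1]; simp
  rw [hnorm]
  have hC : C.index * Nat.card C = Nat.card G := Subgroup.index_mul_card C
  have hD : D.relIndex C * Nat.card D = Nat.card C := by
    have h := Subgroup.index_mul_card (D.subgroupOf C)
    have h2 : Nat.card (D.subgroupOf C) = Nat.card D := by
      apply Nat.card_congr
      exact (Subgroup.subgroupOfEquivOfLe hDC).toEquiv
    rw [h2] at h
    exact h
  have key : charDegree ψ ^ 2 * Nat.card C * Nat.card D ≤ Nat.card G ^ 2 := by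
    calc charDegree ψ ^ 2 * Nat.card C * Nat.card D
        ≤ (C.index ^ 2 * D.relIndex C) * Nat.card C * Nat.card D := by gcongr
      _ = (C.index * Nat.card C) ^ 2 := by
          calc (C.index ^ 2 * D.relIndex C) * Nat.card C * Nat.card D
              = C.index ^ 2 * Nat.card C * (D.relIndex C * Nat.card D) := by ring
            _ = (C.index * Nat.card C) ^ 2 := by rw [hD]; ring
      _ = Nat.card G ^ 2 := by rw [hC]
  exact_mod_cast key


end Cfsg.Agent.S1492
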