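import Mathlib
import Cfsg.Statements.S1493
import Cfsg.Agent.Lib.CharPow

set_option autoImplicit false
set_option linter.style.haveILetI false
open Cfsg

namespace Cfsg.Agent.S1493

open Cfsg.Agent.Lib.CharBasic Cfsg.Agent.Lib.CharPow

/-- Let G be a finite group of order a * b with a and b coprime, let k be coprime to a, and let χ be a character of G. Then there is a character χ' of G such that χ'(g) = χ(g ^ k) whenever the order of g divides a and χ'(g) = χ(g) whenever the order of g is coprime to a; moreover χ' is irreducible if χ is. -/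
theorem result {G : Type*} [Group G] [Finite G] (a b k : ℕ) (hab : Nat.card G = a * b) (hcop : Nat.Coprime a b) (hk : Nat.Coprime k a) (χ : G → ℂ) (hχ : Cfsg.IsCharacter G χ) : ∃ χ' : G → ℂ, Cfsg.IsCharacter G χ' ∧ (Cfsg.IsIrrCharacter G χ → Cfsg.IsIrrCharacter G χ') ∧ (∀ g : G, orderOf g ∣ a → χ' g = χ (g ^ k)) ∧ (∀ g : G, Nat.Coprime (orderOf g) a → χ' g = χ g) := by
  classical
  letI := Fintype.ofFinite G
  let K : ℕ := Nat.chineseRemainder hcop k 1
  have hK1 : K ≡ k [MOD a] := (Nat.chineseRemainder hcop k 1).2.1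
  have hK2 : K ≡ 1 [MOD b] := (Nat.chineseRemainder hcop k 1).2.2
  have hKa : Nat.Coprime K a := by
    have := hK1.gcd_eq
    rw [Nat.Coprime, this]
    exact hk
  have hKb : Nat.Coprime K b := by
    have := hK2.gcd_eq
    rw [Nat.Coprime, this]
    simp
  have hKG : (Nat.card G).Coprime K := by
    rw [hab]
    exact (Nat.Coprime.mul_left hKa.symm hKb.symm)
  refine ⟨fun g => χ (g ^ K), ?_, fun h => isIrr_pow h hKG, ?_, ?_⟩
  · obtain ⟨m, hm⟩ := exists_nat_decomp hχ
    have h1 : (fun g => χ (g ^ K)) = ∑ i : IrrCharacter G, m i • (fun g => (i : G → ℂ) (g ^ K)) := by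
      funext g
      rw [hm]
      simp [Finset.sum_apply]
    rw [h1]
    apply isCharacter_sum
    intro i _
    exact isCharacter_nsmul (IsIrrCharacter.isCharacter (isIrr_pow i.2 hKG)) _
  · intro g hg
    have : g ^ K = g ^ k := by
      rw [pow_eq_pow_iff_modEq]
      exact hK1.of_dvd hg
    show χ (g ^ K) = χ (g ^ k)
    rw [this]
  · intro g hg
    have h1 : orderOf g ∣ a * b := by
      rw [← hab]
      exact orderOf_dvd_natCard g
    have h2 : orderOf g ∣ b := hg.dvd_of_dvd_mul_left h1
    have : g ^ K = g ^ 1 := by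
      rw [pow_eq_pow_iff_modEq]
      exact hK2.of_dvd h2
    show χ (g ^ K) = χ g
    rw [this, pow_one]

end Cfsg.Agent.S1493
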