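import Mathlib
import Cfsg.Statements.S1494
import Cfsg.Agent.Lib.CharInd

set_option autoImplicit false
set_option linter.style.haveILetI false
open Cfsg

namespace Cfsg.Agent.S1494

open Cfsg.Agent.Lib.CharBasic
open Cfsg.Agent.Lib.CharInd

/-- Elements of the form `(1 - ε) ω`. -/
def Good (p : ℕ) (c : ℂ) : Prop :=
  ∃ ω : ℂ, IsIntegral ℤ ω ∧ c = (1 - Complex.exp (2 * Real.pi * Complex.I / p)) * ω

theorem Good.add {p : ℕ} {a b : ℂ} (ha : Good p a) (hb : Good p b) : Good p (a + b) := by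
  obtain ⟨u, hu, rfl⟩ := ha
  obtain ⟨v, hv, rfl⟩ := hb
  exact ⟨u + v, hu.add hv, by ring⟩

theorem Good.zero (p : ℕ) : Good p 0 := ⟨0, isIntegral_zero, by simp⟩

theorem Good.nsmul {p : ℕ} {a : ℂ} (ha : Good p a) (n : ℕ) : Good p (n • a) := by
  induction n with
  | zero => simpa using Good.zero p
  | succ n ih =>
    rw [succ_nsmul]
    exact ih.add ha

theorem Good.sub {p : ℕ} {a b : ℂ} (ha : Good p a) (hb : Good p b) : Good p (a - b) := by
  obtain ⟨u, hu, rfl⟩ := ha
  obtain ⟨v, hv, rfl⟩ := hb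
  exact ⟨u - v, hu.sub hv, by ring⟩

theorem Good.sum {p : ℕ} {ι : Type*} (s : Finset ι) (f : ι → ℂ) (h : ∀ i ∈ s, Good p (f i)) :
    Good p (∑ i ∈ s, f i) := by
  classical
  induction s using Finset.induction_on with
  | empty => simpa using Good.zero p
  | insert a s ha ih =>
    rw [Finset.sum_insert ha]
    exact (h a (Finset.mem_insert_self _ _)).add
      (ih fun i hi => h i (Finset.mem_insert_of_mem hi))

/-- The basic computation: `(ζ - 1) η` for a `p`-th root of unity `ζ` and integral `η`. -/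
theorem good_of_root {p : ℕ} (hp : p.Prime) {ζ η : ℂ} (hζ : ζ ^ p = 1) (hη : IsIntegral ℤ η) :
    Good p (ζ * η - η) := by
  haveI : NeZero p := ⟨hp.ne_zero⟩
  have hprim := Complex.isPrimitiveRoot_exp p hp.ne_zero
  obtain ⟨k, -, rfl⟩ := hprim.eq_pow_of_pow_eq_one hζ
  set ε := Complex.exp (2 * Real.pi * Complex.I / p) with hε
  have hεint : IsIntegral ℤ ε := by
    refine ⟨Polynomial.X ^ p - 1, Polynomial.monic_X_pow_sub_C 1 hp.ne_zero, ?_⟩
    simp [hprim.pow_eq_one]
  refine ⟨-((∑ j ∈ Finset.range k, ε ^ j) * η), ?_, ?_⟩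
  · exact (IsIntegral.sum _ fun j _ => hεint.pow j).mul hη |>.neg
  · have h := mul_neg_geom_sum ε k
    linear_combination η * h

section

variable {A : Type*} [Group A]

/-- On a commutative group all irreducible characters are linear. -/
theorem irr_linear (hcomm : ∀ a b : A, a * b = b * a) {χ : A → ℂ} (hχ : IsIrrCharacter A χ) :
    ∃ f : A →* ℂˣ, ∀ g, χ g = f g := by
  refine exists_hom_of_degree_one (IsIrrCharacter.isCharacter hχ) ?_
  obtain ⟨n, ρ, hρ, rfl⟩ := hχ
  haveI := hρ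
  haveI : IsMulCommutative A := ⟨⟨hcomm⟩⟩
  have := Representation.IsIrreducible.finrank_eq_one_of_isMulCommutative ρ
  rw [char_one_eq_rep ρ]
  have h2 : n = 1 := by simpa using this
  simp [h2]

end

theorem isIntegral_of_pow {z : ℂ} {n : ℕ} (hn : n ≠ 0) (hz : z ^ n = 1) : IsIntegral ℤ z := by
  refine ⟨Polynomial.X ^ n - 1, Polynomial.monic_X_pow_sub_C 1 hn, ?_⟩
  simp [hz]

theorem good_char {G : Type*} [Group G] [Finite G] {χ : G → ℂ} (hχ : IsCharacter G χ) {p : ℕ}
    (hp : p.Prime) {x y : G} (hx : orderOf x = p) (hxy : x * y = y * x) :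
    Good p (χ (x * y) - χ y) := by
  classical
  letI := Fintype.ofFinite G
  let A : Subgroup G := Subgroup.closure {x, y}
  have hcomm : ∀ a b : A, a * b = b * a := by
    have h := Subgroup.isMulCommutative_closure (k := {x, y}) (by
      intro u hu v hv
      rcases hu with rfl | hu <;> rcases hv with rfl | hv
      · rfl
      · rw [Set.mem_singleton_iff] at hv
        rw [hv, hxy]
      · rw [Set.mem_singleton_iff] at hu
        rw [hu, hxy]
      · rw [Set.mem_singleton_iff] at hu hv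
        rw [hu, hv])
    exact isMulCommutative_iff.mp h
  have hxA : x ∈ A := Subgroup.subset_closure (by simp)
  have hyA : y ∈ A := Subgroup.subset_closure (by simp)
  haveI : Fintype A := Fintype.ofFinite _
  obtain ⟨m, hm⟩ := exists_nat_decomp (isCharacter_restrict A hχ)
  have h1 : ∀ a : A, χ a = ∑ i, m i • (i : A → ℂ) a := by
    intro a
    have := congrFun hm a
    simpa [Finset.sum_apply] using this
  have hxyA : x * y ∈ A := A.mul_mem hxA hyA
  have h2 : χ (x * y) - χ y =
      ∑ i, m i • ((i : A → ℂ) ⟨x * y, hxyA⟩ - (i : A → ℂ) ⟨y, hyA⟩) := by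
    have e1 := h1 ⟨x * y, hxyA⟩
    have e2 := h1 ⟨y, hyA⟩
    simp only at e1 e2
    rw [e1, e2, ← Finset.sum_sub_distrib]
    refine Finset.sum_congr rfl fun i _ => ?_
    rw [smul_sub]
  rw [h2]
  refine Good.sum _ _ fun i _ => Good.nsmul ?_ _
  obtain ⟨f, hf⟩ := irr_linear hcomm i.2
  have hmul : (⟨x * y, hxyA⟩ : A) = ⟨x, hxA⟩ * ⟨y, hyA⟩ := rfl
  rw [hf, hf, hmul, map_mul, Units.val_mul]
  refine good_of_root hp ?_ ?_
  · rw [← Units.val_pow_eq_pow_val, ← map_pow]
    have : (⟨x, hxA⟩ : A) ^ p = 1 := by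
      apply Subtype.ext
      simp only [SubmonoidClass.mk_pow, OneMemClass.coe_one]
      rw [← hx]
      exact pow_orderOf_eq_one x
    rw [this]
    simp
  · refine isIntegral_of_pow (orderOf_pos (⟨y, hyA⟩ : A)).ne' ?_
    rw [← Units.val_pow_eq_pow_val, ← map_pow, pow_orderOf_eq_one]
    simp

/-- Let χ be a generalized character of the finite group G, p a prime, x an element of order p and y an element commuting with x. Then χ(x * y) − χ(y) = (1 − ε) * ω for some algebraic integer ω, where ε = exp(2πi/p). -/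
theorem result {G : Type*} [Group G] [Finite G] (χ : G → ℂ) (hχ : Cfsg.IsGeneralizedCharacter G χ) (p : ℕ) (hp : p.Prime) (x y : G) (hx : orderOf x = p) (hxy : x * y = y * x) : ∃ ω : ℂ, IsIntegral ℤ ω ∧ χ (x * y) - χ y = (1 - Complex.exp (2 * Real.pi * Complex.I / p)) * ω := by
  obtain ⟨χ₁, χ₂, h₁, h₂, rfl⟩ := hχ
  have := (good_char h₁ hp hx hxy).sub (good_char h₂ hp hx hxy)
  obtain ⟨ω, hω, h⟩ := this
  refine ⟨ω, hω, ?_⟩
  rw [← h]
  simp only [Pi.sub_apply]
  ring

end Cfsg.Agent.S1494
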