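import Mathlib
import Cfsg.Statements.S1495

set_option autoImplicit false
open Cfsg

namespace Cfsg.Agent.S1495

private lemma isIntegral_root {ε : ℂ} {p : ℕ} (hp : 0 < p) (hε : ε ^ p = 1) : IsIntegral ℤ ε := by
  refine ⟨Polynomial.X ^ p - 1, Polynomial.monic_X_pow_sub_C 1 hp.ne', ?_⟩
  simp [hε]

/-- For ε a primitive p-th root of unity, `1 - ε = (1 - ε^j) * u` with `u` integral, when `p ∤ j`. -/
private lemma exists_factor {p : ℕ} (hp : p.Prime) {ε : ℂ} (hε : IsPrimitiveRoot ε p) (j : ℕ)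
    (hj : ¬ p ∣ j) : ∃ u : ℂ, IsIntegral ℤ u ∧ 1 - ε = (1 - ε ^ j) * u := by
  -- find j' with j * j' ≡ 1 mod p
  have hcop : Nat.Coprime j p := ((Nat.Prime.coprime_iff_not_dvd hp).mpr hj).symm
  obtain ⟨m, -, hm⟩ := Nat.exists_mul_mod_eq_one_of_coprime hcop hp.one_lt
  have hpow : (ε ^ j) ^ m = ε := by
    rw [← pow_mul]
    conv_lhs => rw [← Nat.div_add_mod (j * m) p, pow_add, pow_mul, hε.pow_eq_one, one_pow, one_mul, hm, pow_one]
  refine ⟨∑ i ∈ Finset.range m, (ε ^ j) ^ i, ?_, ?_⟩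
  · refine IsIntegral.sum _ fun i _ => IsIntegral.pow (IsIntegral.pow (isIntegral_root hp.pos hε.pow_eq_one) _) _
  · have h := mul_neg_geom_sum (ε ^ j) m
    rw [hpow] at h
    exact h.symm

/-- Let p be a prime, ε = exp(2πi/p), and n an integer such that n = (1 − ε) * ω for some algebraic integer ω. Then p divides n. -/
theorem result (p : ℕ) (hp : p.Prime) (n : ℤ) (ω : ℂ) (hω : IsIntegral ℤ ω) (h : (n : ℂ) = (1 - Complex.exp (2 * Real.pi * Complex.I / p)) * ω) : (p : ℤ) ∣ n := by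
  set ε := Complex.exp (2 * Real.pi * Complex.I / p) with hεdef
  have hε : IsPrimitiveRoot ε p := Complex.isPrimitiveRoot_exp p hp.ne_zero
  obtain ⟨q, hq⟩ : ∃ q, p = q + 1 := ⟨p - 1, (Nat.sub_add_cancel hp.one_lt.le).symm⟩
  have hprod := (by subst hq; push_cast; exact hε.prod_one_sub_pow_eq_order :
    ∏ k ∈ Finset.range q, (1 - ε ^ (k + 1)) = (q + 1 : ℕ))
  have hex : ∀ k ∈ Finset.range q, ∃ u : ℂ, IsIntegral ℤ u ∧ 1 - ε = (1 - ε ^ (k + 1)) * u := by
    intro k hk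
    apply exists_factor hp hε
    intro hd
    have := Nat.le_of_dvd (Nat.succ_pos k) hd
    have := Finset.mem_range.mp hk
    omega
  choose! u hu1 hu2 using hex
  -- (1-ε)^q = p * v
  have hpowq : (1 - ε) ^ q = (p : ℂ) * ∏ k ∈ Finset.range q, u k := by
    calc (1 - ε) ^ q = ∏ _k ∈ Finset.range q, (1 - ε) := by simp
      _ = ∏ k ∈ Finset.range q, ((1 - ε ^ (k + 1)) * u k) :=
        Finset.prod_congr rfl hu2
      _ = _ := by rw [Finset.prod_mul_distrib, hprod, hq]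
  have hint : IsIntegral ℤ ((∏ k ∈ Finset.range q, u k) * ω ^ q) :=
    (IsIntegral.prod _ hu1).mul (hω.pow _)
  have hnpow : ((n ^ q : ℤ) : ℂ) = (p : ℂ) * ((∏ k ∈ Finset.range q, u k) * ω ^ q) := by
    push_cast
    rw [h, mul_pow, hpowq, mul_assoc]
  have hpne : (p : ℂ) ≠ 0 := Nat.cast_ne_zero.mpr hp.ne_zero
  -- rational number n^q / p is integral
  set r : ℚ := (n ^ q : ℤ) / (p : ℚ) with hr
  have hrC : ((r : ℚ) : ℂ) = (∏ k ∈ Finset.range q, u k) * ω ^ q := by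
    rw [hr]
    push_cast
    push_cast at hnpow
    rw [hnpow]
    field_simp
  have hrint : IsIntegral ℤ r := by
    have : IsIntegral ℤ (algebraMap ℚ ℂ r) := by
      have h2 : algebraMap ℚ ℂ r = ((r : ℚ) : ℂ) := rfl
      rw [h2, hrC]
      exact hint
    exact (isIntegral_algebraMap_iff (algebraMap ℚ ℂ).injective).mp this
  obtain ⟨m, hm⟩ := IsIntegrallyClosed.isIntegral_iff.mp hrint
  have hmq : ((n ^ q : ℤ) : ℚ) = (p : ℚ) * m := by
    have hpQ : (p : ℚ) ≠ 0 := Nat.cast_ne_zero.mpr hp.ne_zero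
    have : (m : ℚ) = r := by simpa using hm
    rw [this, hr]
    field_simp
  have hz : n ^ q = (p : ℤ) * m := by exact_mod_cast hmq
  have hdvd : (p : ℤ) ∣ n ^ q := ⟨m, hz⟩
  exact Int.Prime.dvd_pow' hp hdvd

end Cfsg.Agent.S1495
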