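import Mathlib
import Cfsg.Statements.S1497

set_option autoImplicit false
open Cfsg

namespace Cfsg.Agent.S1497

/-- Let A be a nonempty subset of the finite group G not containing 1 and L a subgroup. Then A is a TI-subset whose normaliser is L if and only if the Dade hypothesis holds for A, L and the constant choice H(a) = ⊥. -/
theorem result {G : Type*} [Group G] [Finite G] (A : Set G) (hA : A.Nonempty) (h1 : (1 : G) ∉ A) (L : Subgroup G) : (Cfsg.IsTISubset A ∧ Subgroup.normalizer A = L) ↔ Cfsg.DadeHypothesis A L (fun _ => ⊥) := by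
  constructor
  · rintro ⟨hTI, rfl⟩
    have hnorm : ∀ g : G, ∀ a ∈ A, g * a * g⁻¹ ∈ A → g ∈ Subgroup.normalizer A := by
      intro g a ha hg
      by_contra hcontra
      have := hTI g hcontra a ha hg
      exact h1 (this ▸ ha)
    refine ⟨h1, ?_, ?_, ?_, ?_, ?_, ?_, ?_, ?_⟩
    · intro a ha
      exact hnorm a a ha (by simpa using ha)
    · intro x hx a ha
      exact (Subgroup.mem_set_normalizer_iff.mp hx a).mp ha
    · intro a ha g hg
      exact ⟨g, hnorm g a ha hg, rfl⟩
    · intro a _
      simp
    · intro a _ c _ u hu
      simp only [Subgroup.mem_bot] at hu ⊢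
      simp [hu]
    · intro a _
      simp
    · intro a ha
      rw [bot_sup_eq]
      apply inf_eq_right.mpr
      intro c hc
      apply hnorm c a ha
      have : c * a * c⁻¹ = a := by
        have := Subgroup.mem_centralizer_singleton_iff.mp hc
        rw [this]; group
      rw [this]; exact ha
    · intro a _ b _
      simp
  · intro hD
    have hL : ∀ g : G, ∀ a ∈ A, g * a * g⁻¹ ∈ A → g ∈ L := by
      intro g a ha hg
      obtain ⟨x, hx, hxg⟩ := hD.fusion a ha g hg
      have hc : x⁻¹ * g ∈ Subgroup.centralizer ({a} : Set G) := by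
        rw [Subgroup.mem_centralizer_singleton_iff]
        have h2 : g * a = x * a * x⁻¹ * g := by
          rw [hxg]; group
        calc x⁻¹ * g * a = x⁻¹ * (g * a) := by group
          _ = x⁻¹ * (x * a * x⁻¹ * g) := by rw [h2]
          _ = a * (x⁻¹ * g) := by group
      have hs := hD.sup_eq a ha
      rw [bot_sup_eq] at hs
      rw [← hs] at hc
      have h3 : x * (x⁻¹ * g) ∈ L := L.mul_mem hx hc.1
      simpa using h3
    have hLN : L ≤ Subgroup.normalizer A := by
      intro x hx
      rw [Subgroup.mem_set_normalizer_iff]
      intro h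
      constructor
      · intro hh
        exact hD.conj_mem x hx h hh
      · intro hh
        have := hD.conj_mem x⁻¹ (L.inv_mem hx) _ hh
        simpa [mul_assoc] using this
    refine ⟨?_, le_antisymm ?_ hLN⟩
    · intro g hg x hx hgx
      exact absurd (hLN (hL g x hx hgx)) hg
    · intro g hg
      obtain ⟨a, ha⟩ := hA
      exact hL g a ha ((Subgroup.mem_set_normalizer_iff.mp hg a).mp ha)

end Cfsg.Agent.S1497
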