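import Mathlib
import Cfsg.Statements.S1505
import Cfsg.Agent.Lib.CyclicTI

set_option autoImplicit false
open Cfsg

namespace Cfsg.Agent.S1505

open Cfsg.Agent.Lib.CyclicTI Cfsg.Agent.Lib.CharBasic Cfsg.Agent.Lib.CharInd

open Classical in
/-- Let W₁, W₂ ≤ G form a self-normalising cyclic subgroup W = W₁ ⊔ W₂. For nontrivial linear characters φ, φ' of W trivial on W₂ and ψ, ψ' trivial on W₁, put α = (1 − φ)(1 − ψ) and α' = (1 − φ')(1 − ψ'). Then the function induced from α to G has inner product 1 with the principal character, and the inner product of the functions induced from α and α' is 1 + a + b + ab where a = 1 if φ = φ' (else 0) and b = 1 if ψ = ψ' (else 0). -/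
theorem result {G : Type*} [Group G] [Fintype G] (W₁ W₂ : Subgroup G) (hW : Cfsg.IsSelfNormalizingCyclic W₁ W₂) (φ φ' ψ ψ' : ↥(W₁ ⊔ W₂) →* ℂˣ) (hφ : φ ≠ 1) (hφ' : φ' ≠ 1) (hψ : ψ ≠ 1) (hψ' : ψ' ≠ 1) (hφ₂ : ∀ w : ↥(W₁ ⊔ W₂), (w : G) ∈ W₂ → φ w = 1 ∧ φ' w = 1) (hψ₁ : ∀ w : ↥(W₁ ⊔ W₂), (w : G) ∈ W₁ → ψ w = 1 ∧ ψ' w = 1) : Cfsg.classInner (Cfsg.indFun (W₁ ⊔ W₂) (fun w => 1 - (φ w : ℂ) - (ψ w : ℂ) + (φ w : ℂ) * (ψ w : ℂ))) (fun _ => 1) = 1 ∧ Cfsg.classInner (Cfsg.indFun (W₁ ⊔ W₂) (fun w => 1 - (φ w : ℂ) - (ψ w : ℂ) + (φ w : ℂ) * (ψ w : ℂ))) (Cfsg.indFun (W₁ ⊔ W₂) (fun w => 1 - (φ' w : ℂ) - (ψ' w : ℂ) + (φ' w : ℂ) * (ψ' w : ℂ))) = 1 + (if φ = φ' then 1 else 0) + (if ψ = ψ' then 1 else 0) + (if φ = φ' then 1 else 0) * (if ψ = ψ' then 1 else 0) := by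
  classical
  obtain ⟨h1, h2, hinf, hcomm, hcyc, hN⟩ := id hW
  haveI : Fintype ↥(W₁ ⊔ W₂) := Fintype.ofFinite _
  let e : (↥(W₁ ⊔ W₂) →* ℂˣ) → (↥(W₁ ⊔ W₂) → ℂ) := fun f w => ((f w : ℂˣ) : ℂ)
  have hT₂ : ∀ w : ↥(W₁ ⊔ W₂), (w : G) ∈ W₂ → (1 : ↥(W₁ ⊔ W₂) →* ℂˣ) w = 1 := fun _ _ => rfl
  have hinner : ∀ p p' q q' : ↥(W₁ ⊔ W₂) →* ℂˣ,
      (∀ w : ↥(W₁ ⊔ W₂), (w : G) ∈ W₂ → p w = 1) → (∀ w : ↥(W₁ ⊔ W₂), (w : G) ∈ W₂ → p' w = 1) →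
      (∀ w : ↥(W₁ ⊔ W₂), (w : G) ∈ W₁ → q w = 1) → (∀ w : ↥(W₁ ⊔ W₂), (w : G) ∈ W₁ → q' w = 1) →
      classInner (e (p * q)) (e (p' * q')) = (if p = p' then 1 else 0) * (if q = q' then 1 else 0) := by
    intro p p' q q' hp hp' hq hq'
    have := inner_hom (p * q) (p' * q')
    change classInner (e (p * q)) (e (p' * q')) = _ at this
    rw [this]
    by_cases h3 : p = p'
    · by_cases h4 : q = q'
      · subst h3 h4; simp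
      · rw [if_neg (fun h => h4 (hom_unique hp hp' hq hq' h).2), if_neg h4]; simp
    · rw [if_neg (fun h => h3 (hom_unique hp hp' hq hq' h).1), if_neg h3]; simp
  have hα : ∀ a b : ↥(W₁ ⊔ W₂) →* ℂˣ, (fun w => 1 - (a w : ℂ) - (b w : ℂ) + (a w : ℂ) * (b w : ℂ)) =
      e (1 * 1) - e (a * 1) - e (1 * b) + e (a * b) := by
    intro a b
    funext w
    simp [e]
  have hvan : ∀ a b : ↥(W₁ ⊔ W₂) →* ℂˣ, (∀ w : ↥(W₁ ⊔ W₂), (w : G) ∈ W₂ → a w = 1) →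
      (∀ w : ↥(W₁ ⊔ W₂), (w : G) ∈ W₁ → b w = 1) → ∀ w : ↥(W₁ ⊔ W₂), (w : G) ∈ W₁ ∨ (w : G) ∈ W₂ →
      1 - (a w : ℂ) - (b w : ℂ) + (a w : ℂ) * (b w : ℂ) = 0 := by
    intro a b ha hb w hw
    rcases hw with hw | hw
    · simp [hb w hw]
    · simp [ha w hw]
  have hφa := fun w hw => (hφ₂ w hw).1
  have hφb := fun w hw => (hφ₂ w hw).2
  have hψa := fun w hw => (hψ₁ w hw).1
  have hψb := fun w hw => (hψ₁ w hw).2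
  have hone₂ : ∀ w : ↥(W₁ ⊔ W₂), (w : G) ∈ W₂ → (1 : ↥(W₁ ⊔ W₂) →* ℂˣ) w = 1 := fun _ _ => rfl
  have hone₁ : ∀ w : ↥(W₁ ⊔ W₂), (w : G) ∈ W₁ → (1 : ↥(W₁ ⊔ W₂) →* ℂˣ) w = 1 := fun _ _ => rfl
  constructor
  · rw [Cfsg.Agent.Lib.CharInd.frobenius _ _ (fun _ _ => rfl)]
    have he1 : (fun h : ↥(W₁ ⊔ W₂) => (fun _ : G => (1 : ℂ)) (h : G)) = e (1 * 1) := by
      funext w
      simp [e]
    rw [he1, hα, classInner_add_left, classInner_sub_left, classInner_sub_left,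
      hinner 1 1 1 1 hone₂ hone₂ hone₁ hone₁, hinner φ 1 1 1 hφa hone₂ hone₁ hone₁,
      hinner 1 1 ψ 1 hone₂ hone₂ hψa hone₁, hinner φ 1 ψ 1 hφa hone₂ hψa hone₁]
    simp [hφ, hψ]
  · rw [inner_ind_ind hW _ _ (hvan φ ψ hφa hψa) (hvan φ' ψ' hφb hψb), hα, hα]
    simp only [classInner_add_left, classInner_sub_left, classInner_add_right, classInner_sub_right]
    rw [hinner 1 1 1 1 hone₂ hone₂ hone₁ hone₁, hinner 1 φ' 1 1 hone₂ hφb hone₁ hone₁,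
      hinner 1 1 1 ψ' hone₂ hone₂ hone₁ hψb, hinner 1 φ' 1 ψ' hone₂ hφb hone₁ hψb,
      hinner φ 1 1 1 hφa hone₂ hone₁ hone₁, hinner φ φ' 1 1 hφa hφb hone₁ hone₁,
      hinner φ 1 1 ψ' hφa hone₂ hone₁ hψb, hinner φ φ' 1 ψ' hφa hφb hone₁ hψb,
      hinner 1 1 ψ 1 hone₂ hone₂ hψa hone₁, hinner 1 φ' ψ 1 hone₂ hφb hψa hone₁,
      hinner 1 1 ψ ψ' hone₂ hone₂ hψa hψb, hinner 1 φ' ψ ψ' hone₂ hφb hψa hψb,
      hinner φ 1 ψ 1 hφa hone₂ hψa hone₁, hinner φ φ' ψ 1 hφa hφb hψa hone₁,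
      hinner φ 1 ψ ψ' hφa hone₂ hψa hψb, hinner φ φ' ψ ψ' hφa hφb hψa hψb]
    have a1 : (1 : ↥(W₁ ⊔ W₂) →* ℂˣ) ≠ φ' := fun h => hφ' h.symm
    have a2 : (1 : ↥(W₁ ⊔ W₂) →* ℂˣ) ≠ ψ' := fun h => hψ' h.symm
    have a3 : (1 : ↥(W₁ ⊔ W₂) →* ℂˣ) ≠ φ := fun h => hφ h.symm
    have a4 : (1 : ↥(W₁ ⊔ W₂) →* ℂˣ) ≠ ψ := fun h => hψ h.symm
    simp [hφ, hψ, a1, a2]
    ring_nf

end Cfsg.Agent.S1505
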