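import Mathlib
import Cfsg.Statements.S1502
import Cfsg.Agent.S1505
import Cfsg.Agent.Lib.CyclicTI
import Cfsg.Agent.Lib.GenChar
import Cfsg.Agent.Lib.CycArray
import Cfsg.Agent.Lib.CharInduction
import Cfsg.Agent.Lib.CoprimeParts

set_option autoImplicit false
set_option linter.unusedVariables false
set_option linter.style.haveILetI false

open Cfsg

namespace Cfsg.Agent.S1502

open Cfsg.Agent.Lib.CyclicTI Cfsg.Agent.Lib.CharBasic Cfsg.Agent.Lib.CharInd Cfsg.Agent.Lib.GenChar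
open scoped ComplexConjugate

variable {G : Type*} [Group G] [Fintype G] {W₁ W₂ : Subgroup G}

/-- The values of induced functions at elements of the TI set. -/
private theorem ind_value (hW : IsSelfNormalizingCyclic W₁ W₂) [Fintype ↥(W₁ ⊔ W₂)] (α : ↥(W₁ ⊔ W₂) → ℂ)
    (hα : ∀ v : ↥(W₁ ⊔ W₂), (v : G) ∈ W₁ ∨ (v : G) ∈ W₂ → α v = 0) (w : ↥(W₁ ⊔ W₂)) (hw1 : (w : G) ∉ W₁)
    (hw2 : (w : G) ∉ W₂) : indFun (W₁ ⊔ W₂) α w = α w := by
  classical
  have hWc := comm_of_cyclic hW.2.2.2.2.1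
  have ht : (w : G) ∈ Tset W₁ W₂ := mem_Tset.mpr ⟨w.2, hw1, hw2⟩
  rw [indFun_apply]
  rw [Cfsg.Agent.Lib.CharInduction.sum_of_vanish_off (W₁ ⊔ W₂) _ ?_]
  · have h1 : ∀ n : ↥(W₁ ⊔ W₂), extendByZero (W₁ ⊔ W₂) α ((n : G)⁻¹ * (w : G) * n) = α w := by
      intro n
      have h2 : (n : G)⁻¹ * (w : G) * n = w := by
        have h3 : (n : G) * w = w * n := congrArg Subtype.val (hWc n w)
        calc (n : G)⁻¹ * (w : G) * n = (n : G)⁻¹ * ((w : G) * n) := by group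
          _ = (n : G)⁻¹ * ((n : G) * w) := by rw [h3]
          _ = w := by group
      rw [h2, extendByZero_coe]
    simp_rw [h1]
    simp only [Finset.sum_const, Finset.card_univ, nsmul_eq_mul]
    rw [← Nat.card_eq_fintype_card]
    field_simp [natCard_subgroup_ne_zero (W₁ ⊔ W₂)]
  · intro x hx
    by_cases hmem : x⁻¹ * (w : G) * x ∈ W₁ ⊔ W₂
    · by_cases hT : x⁻¹ * (w : G) * x ∈ Tset W₁ W₂
      · exfalso
        have h2 : x⁻¹ ∈ W₁ ⊔ W₂ := mem_sup_of_conj_mem_Tset hW ht (by simpa using hT)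
        exact hx (by simpa using Subgroup.inv_mem _ h2)
      · have h3 := extendByZero_coe (W₁ ⊔ W₂) α ⟨_, hmem⟩
        simp only at h3
        rw [h3]
        apply hα
        by_contra hcon
        push Not at hcon
        exact hT (mem_Tset.mpr ⟨hmem, hcon.1, hcon.2⟩)
    · exact extendByZero_of_not_mem _ _ hmem

/-- A twisting argument: a function invariant by a twist whose value at `w` is not one has a vanishing
Fourier coefficient at `w`. -/
private theorem sum_twist {K : Type*} [Group K] [Finite K] [Fintype (K →* ℂˣ)] (w : K) (f : (K →* ℂˣ) → ℂ)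
    (lam : K →* ℂˣ) (hlam : lam w ≠ 1) (hf : ∀ ω, f (ω * lam) = f ω) :
    ∑ ω, conj ((ω w : ℂˣ) : ℂ) * f ω = 0 := by
  have hlamne : conj ((lam w : ℂˣ) : ℂ) ≠ 1 := by
    intro h
    apply hlam
    apply Units.ext
    have := congrArg conj h
    simpa using this
  have h0 : ∑ ω, conj (((ω * lam) w : ℂˣ) : ℂ) * f (ω * lam) = ∑ ω, conj ((ω w : ℂˣ) : ℂ) * f ω :=
    Fintype.sum_equiv (Equiv.mulRight lam) _ _ (fun _ => rfl)
  have h0' : ∑ ω, conj (((ω * lam) w : ℂˣ) : ℂ) * f (ω * lam) =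
      conj ((lam w : ℂˣ) : ℂ) * ∑ ω, conj ((ω w : ℂˣ) : ℂ) * f ω := by
    rw [Finset.mul_sum]
    refine Finset.sum_congr rfl fun ω _ => ?_
    simp only [MonoidHom.mul_apply, Units.val_mul, map_mul]
    rw [hf ω]
    ring
  have h2 : (1 - conj ((lam w : ℂˣ) : ℂ)) * ∑ ω, conj ((ω w : ℂˣ) : ℂ) * f ω = 0 := by
    rw [sub_mul, one_mul, ← h0', h0, sub_self]
  exact (mul_eq_zero.1 h2).resolve_left (sub_ne_zero.2 hlamne.symm)

open Classical in
/-- The value part of the cyclic TI theorem. -/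
private theorem eq_on_aux (hW : IsSelfNormalizingCyclic W₁ W₂) (χ : (↥(W₁ ⊔ W₂) →* ℂˣ) → (G → ℂ))
    (hirr : ∀ ω, IsIrrCharacter G (χ ω) ∨ IsIrrCharacter G (-χ ω))
    (horth : ∀ ω ω', classInner (χ ω) (χ ω') = if ω = ω' then 1 else 0)
    (hone : χ 1 = fun _ => 1)
    (hind : ∀ φ ψ : ↥(W₁ ⊔ W₂) →* ℂˣ, φ ≠ 1 → ψ ≠ 1 →
      (∀ w : ↥(W₁ ⊔ W₂), (w : G) ∈ W₂ → φ w = 1) → (∀ w : ↥(W₁ ⊔ W₂), (w : G) ∈ W₁ → ψ w = 1) →
      indFun (W₁ ⊔ W₂) (fun w => 1 - (φ w : ℂ) - (ψ w : ℂ) + (φ w : ℂ) * (ψ w : ℂ)) =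
        fun g => 1 - χ φ g - χ ψ g + χ (φ * ψ) g)
    (ω₀ : ↥(W₁ ⊔ W₂) →* ℂˣ) (w : ↥(W₁ ⊔ W₂)) (hw1 : (w : G) ∉ W₁) (hw2 : (w : G) ∉ W₂) :
    χ ω₀ w = (ω₀ w : ℂ) := by
  classical
  obtain ⟨h1, h2, hinf, hcomm, hcyc, hN⟩ := id hW
  letI : Fintype ↥(W₁ ⊔ W₂) := Fintype.ofFinite _
  have hWc : ∀ a b : ↥(W₁ ⊔ W₂), a * b = b * a := comm_of_cyclic hcyc
  haveI := finite_hom ↥(W₁ ⊔ W₂) hWc
  letI : Fintype (↥(W₁ ⊔ W₂) →* ℂˣ) := Fintype.ofFinite _
  have ht : (w : G) ∈ Tset W₁ W₂ := mem_Tset.mpr ⟨w.2, hw1, hw2⟩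
  choose p q hp hq hpq using exists_decomp hinf hcomm
  let g : (↥(W₁ ⊔ W₂) →* ℂˣ) → ℂ := fun ω => χ ω w - ((ω w : ℂˣ) : ℂ)
  have hg1 : g 1 = 0 := by
    simp [g, hone]
  have hval : ∀ ω, g ω = g (p ω) + g (q ω) := by
    intro ω
    have e := hpq ω
    have e' : (ω w : ℂ) = (p ω w : ℂ) * (q ω w : ℂ) := by
      conv_lhs => rw [e]
      simp
    by_cases hp1 : p ω = 1
    · have : ω = q ω := e.trans (by rw [hp1]; ext v; simp)
      rw [hp1, hg1, zero_add, ← this]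
    by_cases hq1 : q ω = 1
    · have : ω = p ω := e.trans (by rw [hq1]; ext v; simp)
      rw [hq1, hg1, add_zero, ← this]
    have h3 := hind (p ω) (q ω) hp1 hq1 (hp ω) (hq ω)
    have h4 := congrFun h3 (w : G)
    rw [ind_value hW _ ?_ w hw1 hw2, ← e] at h4
    · simp only [g]
      rw [e']
      linear_combination -h4
    · intro v hv
      rcases hv with hv | hv
      · simp [hq ω v hv]
      · simp [hp ω v hv]
  -- the Fourier coefficient vanishes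
  obtain ⟨lam₁, hlam₁, hlam₁w⟩ : ∃ lam : ↥(W₁ ⊔ W₂) →* ℂˣ,
      (∀ m : ↥(W₁ ⊔ W₂), (m : G) ∈ W₁ → lam m = 1) ∧ lam w ≠ 1 := by
    obtain ⟨f, h1, h2⟩ := exists_sep hWc (W₁.subgroupOf (W₁ ⊔ W₂)) (x := w) (by
      rw [Subgroup.mem_subgroupOf]
      exact hw1)
    exact ⟨f, fun m hm => h1 m (by rw [Subgroup.mem_subgroupOf]; exact hm), h2⟩
  obtain ⟨lam₂, hlam₂, hlam₂w⟩ : ∃ lam : ↥(W₁ ⊔ W₂) →* ℂˣ,
      (∀ m : ↥(W₁ ⊔ W₂), (m : G) ∈ W₂ → lam m = 1) ∧ lam w ≠ 1 := by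
    obtain ⟨f, h1, h2⟩ := exists_sep hWc (W₂.subgroupOf (W₁ ⊔ W₂)) (x := w) (by
      rw [Subgroup.mem_subgroupOf]
      exact hw2)
    exact ⟨f, fun m hm => h1 m (by rw [Subgroup.mem_subgroupOf]; exact hm), h2⟩
  have hS₁ : ∑ ω, conj ((ω w : ℂˣ) : ℂ) * g (p ω) = 0 := by
    refine sum_twist w (fun ω => g (p ω)) lam₁ hlam₁w ?_
    intro ω
    have : p (ω * lam₁) = p ω := by
      refine (hom_unique (ψ' := q ω * lam₁) (hp _) (hp ω) (hq _) (fun m hm => ?_) ((hpq _).symm.trans ?_)).1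
      · simp [hq ω m hm, hlam₁ m hm]
      · ext v
        have := congrArg (fun f : ↥(W₁ ⊔ W₂) →* ℂˣ => ((f v : ℂˣ) : ℂ)) (hpq ω)
        simp only [MonoidHom.mul_apply, Units.val_mul] at this ⊢
        rw [this]
        ring
    simp only [this]
  have hS₂ : ∑ ω, conj ((ω w : ℂˣ) : ℂ) * g (q ω) = 0 := by
    refine sum_twist w (fun ω => g (q ω)) lam₂ hlam₂w ?_
    intro ω
    have : q (ω * lam₂) = q ω := by
      refine (hom_unique (φ' := p ω * lam₂) (hp _) (fun m hm => ?_) (hq _) (hq ω) ((hpq _).symm.trans ?_)).2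
      · simp [hp ω m hm, hlam₂ m hm]
      · ext v
        have := congrArg (fun f : ↥(W₁ ⊔ W₂) →* ℂˣ => ((f v : ℂˣ) : ℂ)) (hpq ω)
        simp only [MonoidHom.mul_apply, Units.val_mul] at this ⊢
        rw [this]
        ring
    simp only [this]
  have hS : ∑ ω, conj ((ω w : ℂˣ) : ℂ) * g ω = 0 := by
    calc ∑ ω, conj ((ω w : ℂˣ) : ℂ) * g ω
        = ∑ ω, (conj ((ω w : ℂˣ) : ℂ) * g (p ω) + conj ((ω w : ℂˣ) : ℂ) * g (q ω)) :=
          Finset.sum_congr rfl (fun ω _ => by rw [hval ω]; ring)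
      _ = 0 := by rw [Finset.sum_add_distrib, hS₁, hS₂, add_zero]
  have hom1 : ∀ ω : ↥(W₁ ⊔ W₂) →* ℂˣ, ((ω w : ℂˣ) : ℂ) * conj ((ω w : ℂˣ) : ℂ) = 1 := by
    intro ω
    rw [Complex.mul_conj, Complex.normSq_eq_norm_sq, norm_hom]
    simp
  have hsum1 : ∑ ω, χ ω w * conj (χ ω w) = (Nat.card ↥(W₁ ⊔ W₂) : ℂ) + ∑ ω, g ω * conj (g ω) := by
    have h1 : ∀ ω, χ ω w * conj (χ ω w) =
        1 + (conj ((ω w : ℂˣ) : ℂ) * g ω) + conj (conj ((ω w : ℂˣ) : ℂ) * g ω) + g ω * conj (g ω) := by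
      intro ω
      have h2 : χ ω w = ((ω w : ℂˣ) : ℂ) + g ω := by
        simp [g]
      rw [h2, map_add, map_mul, Complex.conj_conj]
      linear_combination hom1 ω
    simp_rw [h1]
    rw [Finset.sum_add_distrib, Finset.sum_add_distrib, Finset.sum_add_distrib, hS, ← map_sum, hS]
    simp only [Finset.sum_const, Finset.card_univ, nsmul_eq_mul, mul_one, map_zero, add_zero]
    have h5 := card_hom ↥(W₁ ⊔ W₂) hWc
    rw [← h5, Nat.card_eq_fintype_card]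
  have hcent : Subgroup.centralizer ({(w : G)} : Set G) = W₁ ⊔ W₂ := by
    ext c
    rw [Subgroup.mem_centralizer_singleton_iff, ← centralizer_of_mem_Tset hW ht]
    constructor
    · intro h
      rw [h, mul_inv_cancel_right]
    · intro h
      calc c * (w : G) = c * (w : G) * c⁻¹ * c := by group
        _ = (w : G) * c := by rw [h]
  have hsum2 : ∑ θ : IrrCharacter G, (θ : G → ℂ) w * conj ((θ : G → ℂ) w) = (Nat.card ↥(W₁ ⊔ W₂) : ℂ) := by
    rw [sum_irr_mul_conj, if_pos (IsConj.refl _), hcent]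
  -- the irreducible characters attached
  have hθ : ∀ ω, ∃ θ : IrrCharacter G, χ ω = (θ : G → ℂ) ∨ χ ω = -(θ : G → ℂ) := by
    intro ω
    rcases hirr ω with h | h
    · exact ⟨⟨_, h⟩, Or.inl rfl⟩
    · exact ⟨⟨_, h⟩, Or.inr (by simp)⟩
  choose m hm using hθ
  have hneg : ∀ a b : G → ℂ, classInner (-a) b = - classInner a b ∧ classInner a (-b) = - classInner a b := by
    intro a b
    have e1 : -a = ((-1 : ℂ)) • a := by simp
    have e2 : -b = ((-1 : ℂ)) • b := by simp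
    rw [e1, e2, classInner_smul_left, classInner_smul_right]
    simp
  have hinj : Function.Injective m := by
    intro a b hab
    by_contra hne
    have h1 := horth a b
    rw [if_neg hne] at h1
    have h3 := classInner_irr_self (m a).2
    rcases hm a with ha | ha <;> rcases hm b with hb | hb <;> rw [ha, hb, ← hab] at h1
    · rw [h3] at h1
      norm_num at h1
    · rw [(hneg _ _).2, h3] at h1
      norm_num at h1
    · rw [(hneg _ _).1, h3] at h1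
      norm_num at h1
    · rw [(hneg _ _).1, (hneg _ _).2, h3] at h1
      norm_num at h1
  have hterm : ∀ ω, χ ω w * conj (χ ω w) = (m ω : G → ℂ) w * conj ((m ω : G → ℂ) w) := by
    intro ω
    rcases hm ω with h | h <;> rw [h] <;> simp
  have hsum3 : ∑ θ : IrrCharacter G, (θ : G → ℂ) w * conj ((θ : G → ℂ) w) =
      ∑ ω, χ ω w * conj (χ ω w) +
        ∑ θ ∈ (Finset.univ.image m)ᶜ, (θ : G → ℂ) w * conj ((θ : G → ℂ) w) := by
    rw [← Finset.sum_add_sum_compl (Finset.univ.image m), Finset.sum_image (fun a _ b _ h => hinj h)]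
    simp_rw [hterm]
  rw [hsum2, hsum1] at hsum3
  have hzero : ∑ ω, g ω * conj (g ω) +
      ∑ θ ∈ (Finset.univ.image m)ᶜ, (θ : G → ℂ) w * conj ((θ : G → ℂ) w) = 0 := by
    linear_combination -hsum3
  have hreal : ∑ ω, Complex.normSq (g ω) +
      ∑ θ ∈ (Finset.univ.image m)ᶜ, Complex.normSq ((θ : G → ℂ) w) = 0 := by
    have h1 : ((∑ ω, Complex.normSq (g ω) +
      ∑ θ ∈ (Finset.univ.image m)ᶜ, Complex.normSq ((θ : G → ℂ) w) : ℝ) : ℂ) = 0 := by
      push_cast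
      rw [← hzero]
      simp_rw [Complex.mul_conj]
    exact_mod_cast h1
  have hnn1 : 0 ≤ ∑ ω, Complex.normSq (g ω) := Finset.sum_nonneg fun _ _ => Complex.normSq_nonneg _
  have hnn2 : 0 ≤ ∑ θ ∈ (Finset.univ.image m)ᶜ, Complex.normSq ((θ : G → ℂ) w) :=
    Finset.sum_nonneg fun _ _ => Complex.normSq_nonneg _
  have h01 : ∑ ω, Complex.normSq (g ω) = 0 := by linarith
  have h3 := (Finset.sum_eq_zero_iff_of_nonneg (fun _ _ => Complex.normSq_nonneg _)).1 h01 ω₀ (Finset.mem_univ _)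
  have h4 : g ω₀ = 0 := Complex.normSq_eq_zero.1 h3
  exact sub_eq_zero.1 h4


open Cfsg.Agent.Lib.CycArray Matrix

private theorem card_ne_one {K : Type*} [Fintype K] [One K] (P : K → Prop) (h1 : P 1) [Fintype {x : K // x ≠ 1 ∧ P x}] :
    Fintype.card {x : K // x ≠ 1 ∧ P x} + 1 = Nat.card {x : K // P x} := by
  classical
  rw [Nat.card_eq_fintype_card, Fintype.card_subtype (fun x : K => x ≠ 1 ∧ P x), Fintype.card_subtype P]
  have : (Finset.univ.filter (fun x : K => x ≠ 1 ∧ P x)) = (Finset.univ.filter P).erase 1 := by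
    ext x
    simp
  rw [this, Finset.card_erase_of_mem (by simpa using h1)]
  have : 0 < (Finset.univ.filter P).card := Finset.card_pos.mpr ⟨1, by simpa using h1⟩
  rw [Nat.sub_add_cancel this]

open Classical in
/-- The construction of the family. -/
private theorem family_aux (hW : IsSelfNormalizingCyclic W₁ W₂) (hodd : Odd (Nat.card ↥(W₁ ⊔ W₂))) :
    ∃ χ : (↥(W₁ ⊔ W₂) →* ℂˣ) → (G → ℂ), (∀ ω, IsIrrCharacter G (χ ω) ∨ IsIrrCharacter G (-χ ω)) ∧
      (∀ ω ω', classInner (χ ω) (χ ω') = if ω = ω' then 1 else 0) ∧ (χ 1 = fun _ => 1) ∧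
      (∀ φ ψ : ↥(W₁ ⊔ W₂) →* ℂˣ, φ ≠ 1 → ψ ≠ 1 →
      (∀ w : ↥(W₁ ⊔ W₂), (w : G) ∈ W₂ → φ w = 1) → (∀ w : ↥(W₁ ⊔ W₂), (w : G) ∈ W₁ → ψ w = 1) →
      indFun (W₁ ⊔ W₂) (fun w => 1 - (φ w : ℂ) - (ψ w : ℂ) + (φ w : ℂ) * (ψ w : ℂ)) =
        fun g => 1 - χ φ g - χ ψ g + χ (φ * ψ) g) := by
  obtain ⟨h1, h2, hinf, hcomm, hcyc, hN⟩ := id hW
  letI : Fintype ↥(W₁ ⊔ W₂) := Fintype.ofFinite _
  have hWc : ∀ a b : ↥(W₁ ⊔ W₂), a * b = b * a := comm_of_cyclic hcyc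
  haveI := finite_hom ↥(W₁ ⊔ W₂) hWc
  letI : Fintype (↥(W₁ ⊔ W₂) →* ℂˣ) := Fintype.ofFinite _
  -- the lattice
  let F : (IrrCharacter G → ℤ) → (G → ℂ) := fun v => ∑ i, v i • (i : G → ℂ)
  have hFinner : ∀ u v, classInner (F u) (F v) = ((u ⬝ᵥ v : ℤ) : ℂ) := by
    intro u v
    show classInner (F u) (∑ i, v i • (i : G → ℂ)) = _
    rw [classInner_sum_right]
    simp only [dotProduct]
    push_cast
    refine Finset.sum_congr rfl fun i _ => ?_
    rw [classInner_zsmul_right]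
    have := classInner_int_decomp u i i.2
    simp only [Subtype.coe_eta] at this
    rw [this]
    push_cast
    ring
  have hFadd : ∀ u v, F (u + v) = F u + F v := by
    intro u v
    simp only [F, Pi.add_apply, add_zsmul, Finset.sum_add_distrib]
  have hFneg : ∀ u, F (-u) = - F u := by
    intro u
    simp only [F, Pi.neg_apply, neg_zsmul, Finset.sum_neg_distrib]
  have hFgen : ∀ u, IsGeneralizedCharacter G (F u) := fun u =>
    isGen_sum _ _ (fun i _ => isGen_zsmul (isGen_of_isIrr i.2) _)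
  let one : IrrCharacter G := ⟨fun _ => 1, isIrrCharacter_one⟩
  let e₀ : IrrCharacter G → ℤ := Pi.single one 1
  have hFe₀ : F e₀ = fun _ => 1 := by
    show ∑ i, e₀ i • (i : G → ℂ) = _
    rw [Finset.sum_eq_single one]
    · simp [e₀, one]
    · intro b _ hb
      simp [e₀, hb]
    · intro h
      exact absurd (Finset.mem_univ _) h
  have he₀ : IsU e₀ := by
    unfold IsU
    simp [e₀]
  -- the index sets
  let Q₂ : (↥(W₁ ⊔ W₂) →* ℂˣ) → Prop := fun φ => ∀ w : ↥(W₁ ⊔ W₂), (w : G) ∈ W₂ → φ w = 1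
  let Q₁ : (↥(W₁ ⊔ W₂) →* ℂˣ) → Prop := fun φ => ∀ w : ↥(W₁ ⊔ W₂), (w : G) ∈ W₁ → φ w = 1
  let I := {φ : ↥(W₁ ⊔ W₂) →* ℂˣ // φ ≠ 1 ∧ Q₂ φ}
  let J := {ψ : ↥(W₁ ⊔ W₂) →* ℂˣ // ψ ≠ 1 ∧ Q₁ ψ}
  letI : Fintype I := Fintype.ofFinite _
  letI : Fintype J := Fintype.ofFinite _
  let α : (↥(W₁ ⊔ W₂) →* ℂˣ) → (↥(W₁ ⊔ W₂) →* ℂˣ) → (↥(W₁ ⊔ W₂) → ℂ) :=
    fun φ ψ w => 1 - (φ w : ℂ) - (ψ w : ℂ) + (φ w : ℂ) * (ψ w : ℂ)
  let e : (↥(W₁ ⊔ W₂) →* ℂˣ) → (↥(W₁ ⊔ W₂) → ℂ) := fun f w => ((f w : ℂˣ) : ℂ)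
  have hαe : ∀ φ ψ, α φ ψ = e 1 - e φ - e ψ + e (φ * ψ) := by
    intro φ ψ
    funext w
    simp [α, e]
  have hIndGen : ∀ f : ↥(W₁ ⊔ W₂) →* ℂˣ, IsGeneralizedCharacter G (indFun (W₁ ⊔ W₂) (e f)) := fun f =>
    isGen_of_isChar (indFun_isCharacter _ (IsIrrCharacter.isCharacter (isIrrCharacter_of_hom f)))
  have hαgen : ∀ φ ψ, IsGeneralizedCharacter G (indFun (W₁ ⊔ W₂) (α φ ψ)) := by
    intro φ ψ
    rw [hαe, indFun_add, indFun_sub, indFun_sub]
    exact isGen_add (isGen_sub (isGen_sub (hIndGen _) (hIndGen _)) (hIndGen _)) (hIndGen _)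
  have hΘgen : ∀ φ ψ, IsGeneralizedCharacter G (indFun (W₁ ⊔ W₂) (α φ ψ) - fun _ => 1) := fun φ ψ =>
    isGen_sub (hαgen φ ψ) (isGen_of_isIrr isIrrCharacter_one)
  have hdec : ∀ (i : I) (j : J), ∃ v : IrrCharacter G → ℤ,
      indFun (W₁ ⊔ W₂) (α i.1 j.1) - (fun _ => 1) = F v := fun i j => exists_int_decomp (hΘgen _ _)
  choose γ hγ using hdec
  have hGram : ∀ i i' j j', γ i j ⬝ᵥ γ i' j' = (if i = i' then 1 else 0) + (if j = j' then 1 else 0) +
      (if i = i' ∧ j = j' then 1 else 0) := by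
    intro i i' j j'
    obtain ⟨h3, h4⟩ := Cfsg.Agent.S1505.result W₁ W₂ hW i.1 i'.1 j.1 j'.1 i.2.1 i'.2.1 j.2.1 j'.2.1
      (fun w hw => ⟨i.2.2 w hw, i'.2.2 w hw⟩) (fun w hw => ⟨j.2.2 w hw, j'.2.2 w hw⟩)
    obtain ⟨h5, -⟩ := Cfsg.Agent.S1505.result W₁ W₂ hW i'.1 i'.1 j'.1 j'.1 i'.2.1 i'.2.1 j'.2.1 j'.2.1
      (fun w hw => ⟨i'.2.2 w hw, i'.2.2 w hw⟩) (fun w hw => ⟨j'.2.2 w hw, j'.2.2 w hw⟩)
    have h3' : classInner (indFun (W₁ ⊔ W₂) (α i.1 j.1)) (fun _ => 1) = 1 := h3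
    have h5' : classInner (indFun (W₁ ⊔ W₂) (α i'.1 j'.1)) (fun _ => 1) = 1 := h5
    have h4' : classInner (indFun (W₁ ⊔ W₂) (α i.1 j.1)) (indFun (W₁ ⊔ W₂) (α i'.1 j'.1)) = _ := h4
    have h6 : classInner (fun _ => 1) (indFun (W₁ ⊔ W₂) (α i'.1 j'.1)) = 1 := by
      rw [← classInner_conj_symm, h5']
      simp
    have h7 : classInner (fun _ : G => (1 : ℂ)) (fun _ => 1) = 1 := classInner_irr_self isIrrCharacter_one
    have h8 : ((γ i j ⬝ᵥ γ i' j' : ℤ) : ℂ) = classInner (indFun (W₁ ⊔ W₂) (α i.1 j.1) - fun _ => 1)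
        (indFun (W₁ ⊔ W₂) (α i'.1 j'.1) - fun _ => 1) := by
      rw [← hFinner, ← hγ, ← hγ]
    rw [classInner_sub_left, classInner_sub_right, classInner_sub_right, h4', h3', h6, h7] at h8
    apply Int.cast_injective (α := ℂ)
    rw [h8]
    by_cases hi : i = i'
    · subst hi
      by_cases hj : j = j'
      · subst hj
        simp
        norm_num
      · have hj' : j.1 ≠ j'.1 := fun h => hj (Subtype.ext h)
        simp [hj, hj']
    · have hi' : i.1 ≠ i'.1 := fun h => hi (Subtype.ext h)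
      by_cases hj : j = j'
      · subst hj
        simp [hi, hi']
      · have hj' : j.1 ≠ j'.1 := fun h => hj (Subtype.ext h)
        simp [hi, hi', hj, hj']
  have hΘ1 : ∀ i j, γ i j ⬝ᵥ e₀ = 0 := by
    intro i j
    obtain ⟨h3, -⟩ := Cfsg.Agent.S1505.result W₁ W₂ hW i.1 i.1 j.1 j.1 i.2.1 i.2.1 j.2.1 j.2.1
      (fun w hw => ⟨i.2.2 w hw, i.2.2 w hw⟩) (fun w hw => ⟨j.2.2 w hw, j.2.2 w hw⟩)
    have h3' : classInner (indFun (W₁ ⊔ W₂) (α i.1 j.1)) (fun _ => 1) = 1 := h3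
    have h7 : classInner (fun _ : G => (1 : ℂ)) (fun _ => 1) = 1 := classInner_irr_self isIrrCharacter_one
    apply Int.cast_injective (α := ℂ)
    rw [← hFinner, ← hγ, hFe₀, classInner_sub_left, h3', h7]
    simp
  -- the cardinalities
  have hcomm₁ : ∀ a b : W₁, a * b = b * a := fun a b => Subtype.ext
    (by simpa using congrArg Subtype.val (hWc ⟨a, Subgroup.mem_sup_left a.2⟩ ⟨b, Subgroup.mem_sup_left b.2⟩))
  have hcomm₂ : ∀ a b : W₂, a * b = b * a := fun a b => Subtype.ext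
    (by simpa using congrArg Subtype.val (hWc ⟨a, Subgroup.mem_sup_right a.2⟩ ⟨b, Subgroup.mem_sup_right b.2⟩))
  have hc₁ : Fintype.card I + 1 = Nat.card W₁ :=
    (card_ne_one Q₂ (fun _ _ => rfl)).trans (card_triv₂ hinf hcomm hcomm₁)
  have hc₂ : Fintype.card J + 1 = Nat.card W₂ :=
    (card_ne_one Q₁ (fun _ _ => rfl)).trans (card_triv₁ hinf hcomm hcomm₂)
  have ho₁ : Odd (Nat.card W₁) := Odd.of_dvd_nat hodd (Subgroup.card_dvd_of_le le_sup_left)
  have ho₂ : Odd (Nat.card W₂) := Odd.of_dvd_nat hodd (Subgroup.card_dvd_of_le le_sup_right)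
  have hl₁ : 1 < Nat.card W₁ := Subgroup.one_lt_card_iff_ne_bot W₁ |>.2 h1
  have hl₂ : 1 < Nat.card W₂ := Subgroup.one_lt_card_iff_ne_bot W₂ |>.2 h2
  obtain ⟨a₁, ha₁⟩ := ho₁
  obtain ⟨a₂, ha₂⟩ := ho₂
  have hI2 : 2 ≤ Fintype.card I := by omega
  have hJ2 : 2 ≤ Fintype.card J := by omega
  have hI3 : Fintype.card I ≠ 3 := by omega
  have hJ3 : Fintype.card J ≠ 3 := by omega
  have h4 : 4 ≤ Fintype.card I ∨ 4 ≤ Fintype.card J := by
    by_contra hcon
    push Not at hcon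
    have e1 : Nat.card W₁ = 3 := by omega
    have e2 : Nat.card W₂ = 3 := by omega
    obtain ⟨a, ha, ha1⟩ : ∃ a ∈ W₁, a ≠ 1 := by
      by_contra h
      push Not at h
      apply h1
      rw [eq_bot_iff]
      intro x hx
      exact h x hx
    have h5 : a ∈ W₂ := mem_of_pow_card hcyc le_sup_right (Subgroup.mem_sup_left ha) (by
      rw [e2, ← e1]
      exact Cfsg.Agent.Lib.CoprimeParts.pow_card_subgroup_eq_one ha)
    have h6 : a ∈ W₁ ⊓ W₂ := ⟨ha, h5⟩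
    rw [hinf] at h6
    exact ha1 h6
  obtain ⟨x, y, z, he, hxx, hyy, hzz, hxy, hxz, hyz⟩ := array_sym γ hGram hI2 hJ2 hI3 hJ3 h4
  have hUx : ∀ i, IsU (x i) := fun i => by
    have := hxx i i
    simpa [IsU] using this
  have hUy : ∀ i, IsU (y i) := fun i => by
    have := hyy i i
    simpa [IsU] using this
  have hUz : ∀ i j, IsU (z i j) := fun i j => by
    have := hzz i j i j
    simpa [IsU] using this
  have horth := fun i j => orth_of_sum3 (hUx i) (hUy j) (hUz i j) he₀ (hxy i j) (hxz i i j) (hyz j i j) (z := e₀)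
    (by rw [← he, dotProduct_comm]; exact hΘ1 i j)
  obtain ⟨i₀⟩ : Nonempty I := Fintype.card_pos_iff.1 (by omega)
  obtain ⟨j₀⟩ : Nonempty J := Fintype.card_pos_iff.1 (by omega)
  have hex : ∀ i, e₀ ⬝ᵥ x i = 0 := fun i => (horth i j₀).1
  have hey : ∀ j, e₀ ⬝ᵥ y j = 0 := fun j => (horth i₀ j).2.1
  have hez : ∀ i j, e₀ ⬝ᵥ z i j = 0 := fun i j => (horth i j).2.2
  have hO := optVec_orth he₀ hex hey hez hxx hyy hzz hxy hxz hyz
  -- the decomposition of the linear characters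
  choose p q hp hq hpq using exists_decomp hinf hcomm
  let pa : (↥(W₁ ⊔ W₂) →* ℂˣ) → Option I := fun ω => if h : p ω = 1 then none else some ⟨p ω, h, hp ω⟩
  let qa : (↥(W₁ ⊔ W₂) →* ℂˣ) → Option J := fun ω => if h : q ω = 1 then none else some ⟨q ω, h, hq ω⟩
  have hdecomp : ∀ a b : ↥(W₁ ⊔ W₂) →* ℂˣ, Q₂ a → Q₁ b → p (a * b) = a ∧ q (a * b) = b := fun a b ha hb =>
    hom_unique (hp _) ha (hq _) hb (hpq _).symm
  have hpa : ∀ (i : I) (b), Q₁ b → pa (i.1 * b) = some i := by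
    intro i b hb
    have h3 := (hdecomp i.1 b i.2.2 hb).1
    have h5 : ¬ p (i.1 * b) = 1 := by rw [h3]; exact i.2.1
    simp only [pa, dif_neg h5]
    congr 1
    exact Subtype.ext h3
  have hqa : ∀ (j : J) (a), Q₂ a → qa (a * j.1) = some j := by
    intro j a ha
    have h3 := (hdecomp a j.1 ha j.2.2).2
    have h5 : ¬ q (a * j.1) = 1 := by rw [h3]; exact j.2.1
    simp only [qa, dif_neg h5]
    congr 1
    exact Subtype.ext h3
  have hpa0 : ∀ b, Q₁ b → pa (1 * b) = none := by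
    intro b hb
    have h3 := (hdecomp 1 b (fun _ _ => rfl) hb).1
    simp only [pa, dif_pos h3]
  have hqa0 : ∀ a, Q₂ a → qa (a * 1) = none := by
    intro a ha
    have h3 := (hdecomp a 1 ha (fun _ _ => rfl)).2
    simp only [qa, dif_pos h3]
  have hpelim : ∀ ω, (pa ω).elim 1 Subtype.val = p ω := by
    intro ω
    by_cases h : p ω = 1
    · simp [pa, h]
    · simp [pa, h]
  have hqelim : ∀ ω, (qa ω).elim 1 Subtype.val = q ω := by
    intro ω
    by_cases h : q ω = 1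
    · simp [qa, h]
    · simp [qa, h]
  have hmul1 : ∀ a : ↥(W₁ ⊔ W₂) →* ℂˣ, a * 1 = a := fun a => by ext v; simp
  have h1mul : ∀ a : ↥(W₁ ⊔ W₂) →* ℂˣ, 1 * a = a := fun a => by ext v; simp
  let vec : (↥(W₁ ⊔ W₂) →* ℂˣ) → IrrCharacter G → ℤ := fun ω => optVec e₀ x y z (pa ω) (qa ω)
  have hvec : ∀ ω ω', vec ω ⬝ᵥ vec ω' = if ω = ω' then 1 else 0 := by
    intro ω ω'
    rw [hO]
    by_cases h : ω = ω'
    · subst h
      simp
    · rw [if_neg h, if_neg]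
      rintro ⟨h3, h5⟩
      apply h
      rw [hpq ω, hpq ω', ← hpelim, ← hpelim, ← hqelim, ← hqelim, h3, h5]
  refine ⟨fun ω => F (vec ω), ?_, ?_, ?_, ?_⟩
  · intro ω
    apply gen_norm_one (hFgen _)
    rw [hFinner, hvec, if_pos rfl]
    simp
  · intro ω ω'
    beta_reduce
    rw [hFinner, hvec]
    split_ifs <;> simp
  · have e1 : vec 1 = e₀ := by
      have h3 : (1 : ↥(W₁ ⊔ W₂) →* ℂˣ) = 1 * 1 := (h1mul 1).symm
      have h5 : pa 1 = none := by
        rw [h3]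
        exact hpa0 1 (fun _ _ => rfl)
      have h6 : qa 1 = none := by
        rw [h3]
        exact hqa0 1 (fun _ _ => rfl)
      simp only [vec, h5, h6, optVec]
    beta_reduce
    rw [e1, hFe₀]
  · intro φ ψ hφ hψ hφ₂ hψ₁
    let i : I := ⟨φ, hφ, hφ₂⟩
    let j : J := ⟨ψ, hψ, hψ₁⟩
    have e1 : vec φ = - x i := by
      have h5 : pa φ = some i := by
        have := hpa i 1 (fun _ _ => rfl)
        rwa [hmul1] at this
      have h6 : qa φ = none := by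
        have := hqa0 φ hφ₂
        rwa [hmul1] at this
      simp only [vec, h5, h6, optVec]
    have e2 : vec ψ = - y j := by
      have h5 : pa ψ = none := by
        have := hpa0 ψ hψ₁
        rwa [h1mul] at this
      have h6 : qa ψ = some j := by
        have := hqa j 1 (fun _ _ => rfl)
        rwa [h1mul] at this
      simp only [vec, h5, h6, optVec]
    have e3 : vec (φ * ψ) = z i j := by
      have h5 : pa (φ * ψ) = some i := hpa i ψ hψ₁
      have h6 : qa (φ * ψ) = some j := hqa j φ hφ₂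
      simp only [vec, h5, h6, optVec]
    have e4 := hγ i j
    rw [he, hFadd, hFadd] at e4
    have e5 : indFun (W₁ ⊔ W₂) (α φ ψ) = fun g => 1 + F (x i) g + F (y j) g + F (z i j) g := by
      funext g
      have := congrFun e4 g
      simp only [Pi.sub_apply, Pi.add_apply] at this
      linear_combination this
    show indFun (W₁ ⊔ W₂) (α φ ψ) = _
    rw [e5]
    funext g
    beta_reduce
    rw [e1, e2, e3, hFneg, hFneg]
    simp only [Pi.neg_apply]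
    ring

/-- Let W₁, W₂ be nontrivial subgroups of the finite group G generating a cyclic subgroup W = W₁ ⊔ W₂ of odd order that is the normaliser of every nonempty set of its elements outside W₁ ∪ W₂. Then there is a family attaching to each linear character ω of W an irreducible character of G up to sign, orthonormal, sending the trivial character to the principal character, with χ ω = ω on W outside W₁ ∪ W₂, and such that inducing (1 − φ)(1 − ψ) to G gives 1 − χ φ − χ ψ + χ (φψ) whenever φ ≠ 1 is trivial on W₂ and ψ ≠ 1 is trivial on W₁. -/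
theorem result {G : Type*} [Group G] [Fintype G] (W₁ W₂ : Subgroup G) (hW : Cfsg.IsSelfNormalizingCyclic W₁ W₂) (hodd : Odd (Nat.card ↥(W₁ ⊔ W₂))) : ∃ χ : (↥(W₁ ⊔ W₂) →* ℂˣ) → (G → ℂ), Cfsg.IsCyclicTIFamily W₁ W₂ χ := by
  classical
  obtain ⟨χ, h1, h2, h3, h4⟩ := family_aux hW hodd
  refine ⟨χ, ⟨h1, fun ω ω' => (h2 ω ω').trans (by congr!), h3, fun ω w hw1 hw2 => eq_on_aux hW χ h1 ?_ h3 h4 ω w hw1 hw2, h4⟩⟩
  exact fun ω ω' => (h2 ω ω').trans (by congr!)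

end Cfsg.Agent.S1502
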