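import Mathlib
import Cfsg.Statements.S1503
import Cfsg.Agent.Lib.CyclicTI

set_option autoImplicit false
open Cfsg

namespace Cfsg.Agent.S1503

open Cfsg.Agent.Lib.CyclicTI Cfsg.Agent.Lib.CharBasic Cfsg.Agent.Lib.CharInd
open scoped ComplexConjugate

/-- Let W₁, W₂ ≤ G with W = W₁ ⊔ W₂ and let χ an orthonormal family of irreducible characters of G up to sign, indexed by the linear characters ω of W, with χ_1 = 1, χ_ω = ω on W outside W₁ ∪ W₂, and the induction identity for (1 − φ)(1 − ψ). If θ is an irreducible character of G orthogonal to χ ω for every linear character ω of W, then θ vanishes at every element of W lying outside W₁ ∪ W₂. -/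
theorem result {G : Type*} [Group G] [Fintype G] (W₁ W₂ : Subgroup G) (hW : Cfsg.IsSelfNormalizingCyclic W₁ W₂) (χ : (↥(W₁ ⊔ W₂) →* ℂˣ) → (G → ℂ)) (hχ : Cfsg.IsCyclicTIFamily W₁ W₂ χ) (θ : G → ℂ) (hθ : Cfsg.IsIrrCharacter G θ) (horth : ∀ ω, Cfsg.classInner θ (χ ω) = 0) (w : ↥(W₁ ⊔ W₂)) (hw₁ : (w : G) ∉ W₁) (hw₂ : (w : G) ∉ W₂) : θ w = 0 := by
  classical
  obtain ⟨h1, h2, hinf, hcomm, hcyc, hN⟩ := id hW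
  haveI : Fintype ↥(W₁ ⊔ W₂) := Fintype.ofFinite _
  have hK := comm_of_cyclic hcyc
  haveI : Finite (↥(W₁ ⊔ W₂) →* ℂˣ) := finite_hom _ hK
  haveI : Fintype (↥(W₁ ⊔ W₂) →* ℂˣ) := Fintype.ofFinite _
  have hθcl : IsClassFunction G θ := isClassFunction_of_isCharacter (IsIrrCharacter.isCharacter hθ)
  -- the subgroups of `W`
  let M₁ : Subgroup ↥(W₁ ⊔ W₂) := W₁.subgroupOf (W₁ ⊔ W₂)
  let M₂ : Subgroup ↥(W₁ ⊔ W₂) := W₂.subgroupOf (W₁ ⊔ W₂)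
  have hmem₁ : ∀ w : ↥(W₁ ⊔ W₂), w ∈ M₁ ↔ (w : G) ∈ W₁ := fun w => Subgroup.mem_subgroupOf
  have hmem₂ : ∀ w : ↥(W₁ ⊔ W₂), w ∈ M₂ ↔ (w : G) ∈ W₂ := fun w => Subgroup.mem_subgroupOf
  let Φ : Finset (↥(W₁ ⊔ W₂) →* ℂˣ) := Finset.univ.filter (fun f => ∀ m ∈ M₂, f m = 1)
  let Ψ : Finset (↥(W₁ ⊔ W₂) →* ℂˣ) := Finset.univ.filter (fun f => ∀ m ∈ M₁, f m = 1)
  have hΦ : ∀ φ ∈ Φ, ∀ v : ↥(W₁ ⊔ W₂), (v : G) ∈ W₂ → φ v = 1 := fun φ hφ v hv =>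
    (Finset.mem_filter.mp hφ).2 v ((hmem₂ v).mpr hv)
  have hΨ : ∀ ψ ∈ Ψ, ∀ v : ↥(W₁ ⊔ W₂), (v : G) ∈ W₁ → ψ v = 1 := fun ψ hψ v hv =>
    (Finset.mem_filter.mp hψ).2 v ((hmem₁ v).mpr hv)
  -- vanishing against every `(1-φ)(1-ψ)`
  have hvan : ∀ φ ∈ Φ, ∀ ψ ∈ Ψ, ∑ v : ↥(W₁ ⊔ W₂), θ v *
      conj (1 - ((φ v : ℂˣ) : ℂ) - ((ψ v : ℂˣ) : ℂ) + ((φ v : ℂˣ) : ℂ) * ((ψ v : ℂˣ) : ℂ)) = 0 := by
    intro φ hφ ψ hψ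
    by_cases hφ1 : φ = 1
    · subst hφ1
      refine Finset.sum_eq_zero fun v _ => ?_
      simp
    by_cases hψ1 : ψ = 1
    · subst hψ1
      refine Finset.sum_eq_zero fun v _ => ?_
      simp
    have hind := hχ.induced_eq φ ψ hφ1 hψ1 (hΦ φ hφ) (hΨ ψ hψ)
    have hfrob := Cfsg.Agent.Lib.CharInd.frobenius (W₁ ⊔ W₂)
      (fun v => 1 - ((φ v : ℂˣ) : ℂ) - ((ψ v : ℂˣ) : ℂ) + ((φ v : ℂˣ) : ℂ) * ((ψ v : ℂˣ) : ℂ)) hθcl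
    rw [hind] at hfrob
    have hφψ : (fun g => 1 - χ φ g - χ ψ g + χ (φ * ψ) g) = χ 1 - χ φ - χ ψ + χ (φ * ψ) := by
      rw [hχ.map_one]; rfl
    rw [hφψ, classInner_add_left, classInner_sub_left, classInner_sub_left] at hfrob
    have horth' : ∀ ω, classInner (χ ω) θ = 0 := fun ω => by
      rw [← classInner_conj_symm, horth, map_zero]
    rw [horth', horth', horth', horth'] at hfrob
    have h5 := congrArg (starRingEnd ℂ) hfrob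
    rw [classInner_conj_symm] at h5
    have h6 : classInner (fun h : ↥(W₁ ⊔ W₂) => θ h)
        (fun v => 1 - ((φ v : ℂˣ) : ℂ) - ((ψ v : ℂˣ) : ℂ) + ((φ v : ℂˣ) : ℂ) * ((ψ v : ℂˣ) : ℂ)) = 0 := by
      rw [← h5]; simp
    unfold classInner at h6
    have hne : (Nat.card ↥(W₁ ⊔ W₂) : ℂ)⁻¹ ≠ 0 :=
      inv_ne_zero (by exact_mod_cast Nat.card_pos.ne')
    exact (mul_eq_zero.mp h6).resolve_left hne
  -- bracket sums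
  have hw₂ : w ∉ M₂ := fun h => hw₂ ((hmem₂ w).mp h)
  have hw₁ : w ∉ M₁ := fun h => hw₁ ((hmem₁ w).mp h)
  have hbr : ∀ (M : Subgroup ↥(W₁ ⊔ W₂)), w ∉ M → ∀ v : ↥(W₁ ⊔ W₂),
      ∑ f ∈ Finset.univ.filter (fun f : ↥(W₁ ⊔ W₂) →* ℂˣ => ∀ m ∈ M, f m = 1),
        ((f w : ℂˣ) : ℂ) * (1 - ((f v⁻¹ : ℂˣ) : ℂ)) =
      - ((Finset.univ.filter (fun f : ↥(W₁ ⊔ W₂) →* ℂˣ => ∀ m ∈ M, f m = 1)).card : ℂ) *
        if w * v⁻¹ ∈ M then 1 else 0 := by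
    intro M hM v
    have h1 : ∀ f : ↥(W₁ ⊔ W₂) →* ℂˣ, ((f w : ℂˣ) : ℂ) * (1 - ((f v⁻¹ : ℂˣ) : ℂ)) =
        ((f w : ℂˣ) : ℂ) - ((f (w * v⁻¹) : ℂˣ) : ℂ) := by
      intro f
      rw [map_mul, Units.val_mul]
      ring
    simp_rw [h1]
    rw [Finset.sum_sub_distrib, sum_dual hK M w, sum_dual hK M (w * v⁻¹), if_neg hM]
    split_ifs <;> simp
  -- the double sum
  have hdouble : ∑ φ ∈ Φ, ∑ ψ ∈ Ψ, ((φ w : ℂˣ) : ℂ) * ((ψ w : ℂˣ) : ℂ) *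
      ∑ v : ↥(W₁ ⊔ W₂), θ v *
      conj (1 - ((φ v : ℂˣ) : ℂ) - ((ψ v : ℂˣ) : ℂ) + ((φ v : ℂˣ) : ℂ) * ((ψ v : ℂˣ) : ℂ)) = 0 := by
    refine Finset.sum_eq_zero fun φ hφ => Finset.sum_eq_zero fun ψ hψ => ?_
    rw [hvan φ hφ ψ hψ, mul_zero]
  have hexpand : ∑ φ ∈ Φ, ∑ ψ ∈ Ψ, ((φ w : ℂˣ) : ℂ) * ((ψ w : ℂˣ) : ℂ) *
      ∑ v : ↥(W₁ ⊔ W₂), θ v *
      conj (1 - ((φ v : ℂˣ) : ℂ) - ((ψ v : ℂˣ) : ℂ) + ((φ v : ℂˣ) : ℂ) * ((ψ v : ℂˣ) : ℂ)) =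
      ∑ v : ↥(W₁ ⊔ W₂), θ v * ((∑ φ ∈ Φ, ((φ w : ℂˣ) : ℂ) * (1 - ((φ v⁻¹ : ℂˣ) : ℂ))) *
        (∑ ψ ∈ Ψ, ((ψ w : ℂˣ) : ℂ) * (1 - ((ψ v⁻¹ : ℂˣ) : ℂ)))) := by
    have hterm : ∀ (φ ψ : ↥(W₁ ⊔ W₂) →* ℂˣ) (v : ↥(W₁ ⊔ W₂)),
        conj (1 - ((φ v : ℂˣ) : ℂ) - ((ψ v : ℂˣ) : ℂ) + ((φ v : ℂˣ) : ℂ) * ((ψ v : ℂˣ) : ℂ)) =
        (1 - ((φ v⁻¹ : ℂˣ) : ℂ)) * (1 - ((ψ v⁻¹ : ℂˣ) : ℂ)) := by
      intro φ ψ v
      simp only [map_add, map_sub, map_mul, map_one, conj_hom]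
      ring
    simp_rw [hterm, Finset.sum_mul_sum, Finset.mul_sum]
    symm
    rw [Finset.sum_comm]
    refine Finset.sum_congr rfl fun φ _ => ?_
    rw [Finset.sum_comm]
    refine Finset.sum_congr rfl fun ψ _ => Finset.sum_congr rfl fun v _ => ?_
    ring
  rw [hexpand] at hdouble
  have hsimp : ∀ v : ↥(W₁ ⊔ W₂), θ v * ((∑ φ ∈ Φ, ((φ w : ℂˣ) : ℂ) * (1 - ((φ v⁻¹ : ℂˣ) : ℂ))) *
        (∑ ψ ∈ Ψ, ((ψ w : ℂˣ) : ℂ) * (1 - ((ψ v⁻¹ : ℂˣ) : ℂ)))) =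
      if v = w then θ w * ((Φ.card : ℂ) * (Ψ.card : ℂ)) else 0 := by
    intro v
    rw [hbr M₂ hw₂ v, hbr M₁ hw₁ v]
    by_cases hvw : v = w
    · rw [hvw, mul_inv_cancel, if_pos M₂.one_mem, if_pos M₁.one_mem, if_pos rfl]
      ring
    · rw [if_neg hvw]
      have hnot : ¬(w * v⁻¹ ∈ M₂ ∧ w * v⁻¹ ∈ M₁) := by
        rintro ⟨h3, h4⟩
        have h5 : ((w * v⁻¹ : ↥(W₁ ⊔ W₂)) : G) ∈ W₁ ⊓ W₂ := ⟨(hmem₁ _).mp h4, (hmem₂ _).mp h3⟩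
        rw [hinf] at h5
        apply hvw
        have h6 : w * v⁻¹ = 1 := Subtype.ext h5
        exact (mul_inv_eq_one.mp h6).symm
      by_cases h3 : w * v⁻¹ ∈ M₂
      · have h4 : w * v⁻¹ ∉ M₁ := fun h => hnot ⟨h3, h⟩
        simp [h4]
      · simp [h3]
  simp_rw [hsimp] at hdouble
  rw [Finset.sum_ite_eq' Finset.univ w, if_pos (Finset.mem_univ w)] at hdouble
  have hΦne : (Φ.card : ℂ) ≠ 0 := by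
    have : 0 < Φ.card := Finset.card_pos.mpr ⟨1, Finset.mem_filter.mpr ⟨Finset.mem_univ _, fun _ _ => rfl⟩⟩
    exact_mod_cast this.ne'
  have hΨne : (Ψ.card : ℂ) ≠ 0 := by
    have : 0 < Ψ.card := Finset.card_pos.mpr ⟨1, Finset.mem_filter.mpr ⟨Finset.mem_univ _, fun _ _ => rfl⟩⟩
    exact_mod_cast this.ne'
  exact (mul_eq_zero.mp hdouble).resolve_right (mul_ne_zero hΦne hΨne)

end Cfsg.Agent.S1503
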