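import Mathlib
import Cfsg.Statements.S1504

set_option autoImplicit false
open Cfsg

namespace Cfsg.Agent.S1504

private lemma hom_eq_one_of_trivial {G : Type*} [Group G] (W₁ W₂ : Subgroup G)
    (χ : ↥(W₁ ⊔ W₂) →* ℂˣ) (h2 : ∀ w : ↥(W₁ ⊔ W₂), (w : G) ∈ W₂ → χ w = 1)
    (h1 : ∀ w : ↥(W₁ ⊔ W₂), (w : G) ∈ W₁ → χ w = 1) : χ = 1 := by
  have hle : W₁ ⊔ W₂ ≤ (χ.ker).map (W₁ ⊔ W₂).subtype := by
    apply sup_le
    · intro a ha
      refine ⟨⟨a, Subgroup.mem_sup_left ha⟩, ?_, rfl⟩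
      exact h1 _ ha
    · intro a ha
      refine ⟨⟨a, Subgroup.mem_sup_right ha⟩, ?_, rfl⟩
      exact h2 _ ha
  ext w
  obtain ⟨w', hw', hw''⟩ := hle w.2
  have : w' = w := Subtype.ext hw''
  subst this
  have h3 : χ w' = 1 := hw'
  simp [h3]

private lemma li_base {W : Type*} [Group W] :
    LinearIndependent ℂ (fun (ω : W →* ℂˣ) (w : W) => ((ω w : ℂˣ) : ℂ)) := by
  have h := linearIndependent_monoidHom W ℂ
  let e : (W →* ℂˣ) → (W →* ℂ) := fun ω => (Units.coeHom ℂ).comp ω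
  have hinj : Function.Injective e := by
    intro a b hab
    ext w
    have := DFunLike.congr_fun hab w
    simpa [e] using this
  have h2 := h.comp e hinj
  have h3 : (fun (ω : W →* ℂˣ) (w : W) => ((ω w : ℂˣ) : ℂ)) = (fun (f : W →* ℂ) => (f : W → ℂ)) ∘ e := by
    funext ω w
    simp [e]
  rw [h3]
  exact h2

/-- Let W₁, W₂ be subgroups of a finite group with W₁ ⊓ W₂ = ⊥ whose elements commute, and W = W₁ ⊔ W₂. For linear characters φ, ψ of W with φ trivial on W₂ and ψ trivial on W₁, the function (1 − φ)(1 − ψ) vanishes on W₁ ∪ W₂; and the family of these functions, indexed by pairs (φ, ψ) with φ ≠ 1 ≠ ψ, is linearly independent over ℂ. -/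
theorem result {G : Type*} [Group G] [Finite G] (W₁ W₂ : Subgroup G) (hdisj : W₁ ⊓ W₂ = ⊥) (hcomm : ∀ a ∈ W₁, ∀ b ∈ W₂, a * b = b * a) : (∀ φ ψ : ↥(W₁ ⊔ W₂) →* ℂˣ, (∀ w : ↥(W₁ ⊔ W₂), (w : G) ∈ W₂ → φ w = 1) → (∀ w : ↥(W₁ ⊔ W₂), (w : G) ∈ W₁ → ψ w = 1) → ∀ w : ↥(W₁ ⊔ W₂), ((w : G) ∈ W₁ ∨ (w : G) ∈ W₂) → (1 - (φ w : ℂ) - (ψ w : ℂ) + (φ w : ℂ) * (ψ w : ℂ)) = 0) ∧ LinearIndependent ℂ (fun p : {p : (↥(W₁ ⊔ W₂) →* ℂˣ) × (↥(W₁ ⊔ W₂) →* ℂˣ) // p.1 ≠ 1 ∧ p.2 ≠ 1 ∧ (∀ w : ↥(W₁ ⊔ W₂), (w : G) ∈ W₂ → p.1 w = 1) ∧ (∀ w : ↥(W₁ ⊔ W₂), (w : G) ∈ W₁ → p.2 w = 1)} => fun w : ↥(W₁ ⊔ W₂) => 1 - (p.1.1 w : ℂ) - (p.1.2 w : ℂ) + (p.1.1 w : ℂ) * (p.1.2 w : ℂ)) := by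
  classical
  constructor
  · intro φ ψ h2 h1 w hw
    rcases hw with hw | hw
    · rw [h1 w hw]; simp
    · rw [h2 w hw]; simp
  · set W := W₁ ⊔ W₂ with hW
    have hb := li_base (W := ↥W)
    rw [linearIndependent_iff'] at hb ⊢
    intro s g hsum p₀ hp₀
    obtain ⟨⟨φ₀, ψ₀⟩, hφ₀, hψ₀, h₂₀, h₁₀⟩ := p₀
    simp only at hφ₀ hψ₀ h₂₀ h₁₀
    -- coefficient extraction through `Finsupp`
    let x : {p : (↥W →* ℂˣ) × (↥W →* ℂˣ) // p.1 ≠ 1 ∧ p.2 ≠ 1 ∧ (∀ w : ↥W, (w : G) ∈ W₂ → p.1 w = 1) ∧ (∀ w : ↥W, (w : G) ∈ W₁ → p.2 w = 1)} → (↥W →* ℂˣ) → ℂ :=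
      fun p ω => (if ω = 1 then 1 else 0) - (if ω = p.1.1 then 1 else 0) - (if ω = p.1.2 then 1 else 0) + (if ω = p.1.1 * p.1.2 then 1 else 0)
    -- the finset of homs involved
    let T : Finset (↥W →* ℂˣ) := insert 1 (s.biUnion fun p => {p.1.1, p.1.2, p.1.1 * p.1.2})
    let a : (↥W →* ℂˣ) → ℂ := fun ω => ∑ p ∈ s, g p * x p ω
    have hexp : ∑ ω ∈ T, a ω • (fun (w : ↥W) => ((ω w : ℂˣ) : ℂ)) = 0 := by
      rw [← hsum]
      simp only [a]
      simp_rw [Finset.sum_smul]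
      rw [Finset.sum_comm]
      refine Finset.sum_congr rfl fun p hp => ?_
      simp_rw [mul_smul]
      rw [← Finset.smul_sum]
      congr 1
      have hmem1 : (1 : ↥W →* ℂˣ) ∈ T := Finset.mem_insert_self _ _
      have hmem2 : p.1.1 ∈ T := Finset.mem_insert_of_mem (Finset.mem_biUnion.mpr ⟨p, hp, by simp⟩)
      have hmem3 : p.1.2 ∈ T := Finset.mem_insert_of_mem (Finset.mem_biUnion.mpr ⟨p, hp, by simp⟩)
      have hmem4 : p.1.1 * p.1.2 ∈ T := Finset.mem_insert_of_mem (Finset.mem_biUnion.mpr ⟨p, hp, by simp⟩)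
      simp only [x]
      simp_rw [add_smul, sub_smul]
      rw [Finset.sum_add_distrib, Finset.sum_sub_distrib, Finset.sum_sub_distrib]
      simp only [ite_smul, one_smul, zero_smul]
      rw [Finset.sum_ite_eq' T 1, Finset.sum_ite_eq' T p.1.1, Finset.sum_ite_eq' T p.1.2, Finset.sum_ite_eq' T (p.1.1 * p.1.2)]
      simp only [if_pos hmem1, if_pos hmem2, if_pos hmem3, if_pos hmem4]
      funext w
      simp
    have hall := hb T a hexp (φ₀ * ψ₀) (Finset.mem_insert_of_mem (Finset.mem_biUnion.mpr ⟨_, hp₀, by simp⟩))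
    -- compute the coefficient at φ₀ ψ₀
    have hcoef : ∀ p ∈ s, g p * x p (φ₀ * ψ₀) = if p = ⟨(φ₀, ψ₀), hφ₀, hψ₀, h₂₀, h₁₀⟩ then g p else 0 := by
      intro p _
      obtain ⟨⟨φ, ψ⟩, hφ, hψ, h₂, h₁⟩ := p
      simp only at hφ hψ h₂ h₁
      have e1 : φ₀ * ψ₀ ≠ 1 := by
        intro h
        apply hφ₀
        apply hom_eq_one_of_trivial W₁ W₂ φ₀ h₂₀
        intro w hw
        have : φ₀ w * ψ₀ w = 1 := by
          have := DFunLike.congr_fun h w
          simpa using this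
        rw [h₁₀ w hw, mul_one] at this
        exact this
      have e2 : φ₀ * ψ₀ ≠ φ := by
        intro h
        apply hψ₀
        apply hom_eq_one_of_trivial W₁ W₂ ψ₀ _ h₁₀
        intro w hw
        have : φ₀ w * ψ₀ w = φ w := by
          have := DFunLike.congr_fun h w
          simpa using this
        rw [h₂₀ w hw, h₂ w hw, one_mul] at this
        exact this
      have e3 : φ₀ * ψ₀ ≠ ψ := by
        intro h
        apply hφ₀
        apply hom_eq_one_of_trivial W₁ W₂ φ₀ h₂₀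
        intro w hw
        have : φ₀ w * ψ₀ w = ψ w := by
          have := DFunLike.congr_fun h w
          simpa using this
        rw [h₁₀ w hw, h₁ w hw, mul_one] at this
        exact this
      have e4 : φ₀ * ψ₀ = φ * ψ ↔ (φ = φ₀ ∧ ψ = ψ₀) := by
        constructor
        · intro h
          have hval : ∀ w, φ₀ w * ψ₀ w = φ w * ψ w := by
            intro w
            have := DFunLike.congr_fun h w
            simpa using this
          have h1 : φ = φ₀ := by
            have : φ₀⁻¹ * φ = 1 := by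
              apply hom_eq_one_of_trivial W₁ W₂
              · intro w hw
                simp [h₂ w hw, h₂₀ w hw]
              · intro w hw
                have := hval w
                rw [h₁₀ w hw, h₁ w hw, mul_one, mul_one] at this
                simp [this]
            ext w
            have h5 := DFunLike.congr_fun this w
            have h6 : (φ₀ w)⁻¹ * φ w = 1 := by simpa using h5
            rw [inv_mul_eq_one] at h6
            rw [h6]
          have h2 : ψ = ψ₀ := by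
            have : ψ₀⁻¹ * ψ = 1 := by
              apply hom_eq_one_of_trivial W₁ W₂
              · intro w hw
                have := hval w
                rw [h₂₀ w hw, h₂ w hw, one_mul, one_mul] at this
                simp [this]
              · intro w hw
                simp [h₁ w hw, h₁₀ w hw]
            ext w
            have h5 := DFunLike.congr_fun this w
            have h6 : (ψ₀ w)⁻¹ * ψ w = 1 := by simpa using h5
            rw [inv_mul_eq_one] at h6
            rw [h6]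
          exact ⟨h1, h2⟩
        · rintro ⟨rfl, rfl⟩
          rfl
      simp only [x, if_neg e1, if_neg e2, if_neg e3]
      by_cases hc : φ = φ₀ ∧ ψ = ψ₀
      · have h' : φ₀ * ψ₀ = φ * ψ := e4.mpr hc
        rw [if_pos h', if_pos]
        · ring
        · obtain ⟨rfl, rfl⟩ := hc
          rfl
      · have h' : ¬ φ₀ * ψ₀ = φ * ψ := fun h => hc (e4.mp h)
        rw [if_neg h', if_neg]
        · ring
        · intro h
          apply hc
          have := congrArg (fun q => q.1) h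
          simp only [Prod.mk.injEq] at this
          exact this
    simp only [a] at hall
    rw [Finset.sum_congr rfl hcoef, Finset.sum_ite_eq' s, if_pos hp₀] at hall
    exact hall

end Cfsg.Agent.S1504
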