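import Mathlib
import Cfsg.Statements.S1507
import Cfsg.Agent.Lib.CyclicTI
import Cfsg.Agent.S1506

set_option autoImplicit false
open Cfsg

namespace Cfsg.Agent.S1507

open Cfsg.Agent.Lib.CyclicTI Cfsg.Agent.Lib.CharBasic Cfsg.Agent.Lib.CharInd

/-- A sum function on a grid with few non-zero entries. -/
private theorem grid {P Q : Type*} [Finite P] [Finite Q] [Nonempty P] (r : P → ℂ) (s : Q → ℂ)
    (hm : Nat.card P + 2 ≤ Nat.card Q)
    (hfew : Nat.card {x : P × Q // r x.1 + s x.2 ≠ 0} < 2 * Nat.card P) :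
    (∀ p q, r p + s q = 0) ∨ (∃ (q₀ : Q) (A : ℂ), ∀ p q, (q = q₀ → r p + s q = A) ∧
      (q ≠ q₀ → r p + s q = 0)) ∨ (∃ (p₀ : P) (A : ℂ), ∀ p q, (p = p₀ → r p + s q = A) ∧
      (p ≠ p₀ → r p + s q = 0)) := by
  classical
  haveI : Fintype P := Fintype.ofFinite P
  haveI : Fintype Q := Fintype.ofFinite Q
  by_cases hr : ∀ p p', r p = r p'
  · -- rows are constant
    obtain ⟨p₀⟩ := ‹Nonempty P›
    have hrow : ∀ q₁ q₂, q₁ ≠ q₂ → r p₀ + s q₁ ≠ 0 → r p₀ + s q₂ ≠ 0 → False := by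
      intro q₁ q₂ hne h1 h2
      have hinj : Function.Injective (fun x : P × Bool =>
          (⟨(x.1, if x.2 then q₁ else q₂), by
            rcases x with ⟨p, b⟩
            cases b
            · simpa [hr p p₀] using h2
            · simpa [hr p p₀] using h1⟩ : {x : P × Q // r x.1 + s x.2 ≠ 0})) := by
        rintro ⟨p, b⟩ ⟨p', b'⟩ h
        have h3 := congrArg Subtype.val h
        simp only [Prod.mk.injEq] at h3
        obtain ⟨rfl, h4⟩ := h3
        cases b <;> cases b' <;> simp_all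
      have := Nat.card_le_card_of_injective _ hinj
      rw [Nat.card_prod, Nat.card_eq_fintype_card (α := Bool), Fintype.card_bool] at this
      omega
    by_cases hN : ∃ q₀, r p₀ + s q₀ ≠ 0
    · obtain ⟨q₀, hq₀⟩ := hN
      refine Or.inr (Or.inl ⟨q₀, r p₀ + s q₀, fun p q => ⟨?_, ?_⟩⟩)
      · rintro rfl
        rw [hr p p₀]
      · intro hne
        rw [hr p p₀]
        by_contra hcon
        exact hrow q q₀ hne hcon hq₀
    · push Not at hN
      exact Or.inl fun p q => by rw [hr p p₀]; exact hN q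
  by_cases hs : ∀ q q', s q = s q'
  · -- columns are constant
    obtain ⟨q₀⟩ : Nonempty Q := by
      by_contra hemp
      rw [not_nonempty_iff] at hemp
      have : Nat.card Q = 0 := Nat.card_of_isEmpty
      omega
    have hcol : ∀ p₁ p₂, p₁ ≠ p₂ → r p₁ + s q₀ ≠ 0 → r p₂ + s q₀ ≠ 0 → False := by
      intro p₁ p₂ hne h1 h2
      have hinj : Function.Injective (fun x : Q × Bool =>
          (⟨(if x.2 then p₁ else p₂, x.1), by
            rcases x with ⟨q, b⟩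
            cases b
            · simpa [hs q q₀] using h2
            · simpa [hs q q₀] using h1⟩ : {x : P × Q // r x.1 + s x.2 ≠ 0})) := by
        rintro ⟨q, b⟩ ⟨q', b'⟩ h
        have h3 := congrArg Subtype.val h
        simp only [Prod.mk.injEq] at h3
        obtain ⟨h4, rfl⟩ := h3
        cases b <;> cases b' <;> simp_all
      have := Nat.card_le_card_of_injective _ hinj
      rw [Nat.card_prod, Nat.card_eq_fintype_card (α := Bool), Fintype.card_bool] at this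
      omega
    by_cases hN : ∃ p₀, r p₀ + s q₀ ≠ 0
    · obtain ⟨p₀, hp₀⟩ := hN
      refine Or.inr (Or.inr ⟨p₀, r p₀ + s q₀, fun p q => ⟨?_, ?_⟩⟩)
      · rintro rfl
        rw [hs q q₀]
      · intro hne
        rw [hs q q₀]
        by_contra hcon
        exact hcol p p₀ hne hcon hp₀
    · push Not at hN
      exact Or.inl fun p q => by rw [hs q q₀]; exact hN p
  -- both non-constant: too many non-zero entries
  exfalso
  push Not at hr hs
  obtain ⟨p₁, p₂, hp⟩ := hr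
  obtain ⟨q₁, q₂, hq⟩ := hs
  let c : Q → P := fun q => if r p₁ + s q ≠ 0 then p₁ else p₂
  let d : P → Q := fun p => if r p + s q₁ ≠ 0 then q₁ else q₂
  have hc : ∀ q, r (c q) + s q ≠ 0 := by
    intro q
    by_cases h : r p₁ + s q ≠ 0
    · simpa [c, h] using h
    · have h' : r p₁ + s q = 0 := not_not.mp h
      simp only [c, h, if_false]
      intro h2
      exact hp (by linear_combination h' - h2)
  have hd : ∀ p, r p + s (d p) ≠ 0 := by
    intro p
    by_cases h : r p + s q₁ ≠ 0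
    · simpa [d, h] using h
    · have h' : r p + s q₁ = 0 := not_not.mp h
      simp only [d, h, if_false]
      intro h2
      exact hq (by linear_combination h' - h2)
  have hc' : ∀ q, c q = p₁ ∨ c q = p₂ := by
    intro q
    by_cases h : r p₁ + s q ≠ 0
    · left; simp [c, h]
    · right; simp only [c, h, if_false]
  let f : Q ⊕ {p : P // p ≠ p₁ ∧ p ≠ p₂} → {x : P × Q // r x.1 + s x.2 ≠ 0} := fun z =>
    match z with
    | Sum.inl q => ⟨(c q, q), hc q⟩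
    | Sum.inr p => ⟨(p.1, d p.1), hd p.1⟩
  have hf : Function.Injective f := by
    rintro (q | p) (q' | p') h
    · have h3 := congrArg (fun x => x.1.2) h
      simp only [f] at h3
      rw [h3]
    · exfalso
      have h3 := congrArg (fun x => x.1.1) h
      simp only [f] at h3
      rcases hc' q with h4 | h4
      · exact p'.2.1 (by rw [← h3, h4])
      · exact p'.2.2 (by rw [← h3, h4])
    · exfalso
      have h3 := congrArg (fun x => x.1.1) h
      simp only [f] at h3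
      rcases hc' q' with h4 | h4
      · exact p.2.1 (by rw [h3, h4])
      · exact p.2.2 (by rw [h3, h4])
    · have h3 := congrArg (fun x => x.1.1) h
      simp only [f] at h3
      rw [Subtype.ext h3]
  have hle := Nat.card_le_card_of_injective _ hf
  rw [Nat.card_sum] at hle
  have hpne : p₁ ≠ p₂ := fun h => hp (by rw [h])
  have hcardP : Nat.card P ≤ Nat.card {p : P // p ≠ p₁ ∧ p ≠ p₂} + 2 := by
    rw [Nat.card_eq_fintype_card, Nat.card_eq_fintype_card, Fintype.card_subtype]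
    have h1 : (Finset.univ : Finset P) ⊆
        (Finset.univ.filter (fun p : P => p ≠ p₁ ∧ p ≠ p₂)) ∪ {p₁, p₂} := by
      intro p _
      by_cases h1 : p = p₁
      · simp [h1]
      by_cases h2 : p = p₂
      · simp [h2]
      simp [h1, h2]
    have h2 := Finset.card_le_card h1
    have h3 := Finset.card_union_le (Finset.univ.filter (fun p : P => p ≠ p₁ ∧ p ≠ p₂))
      ({p₁, p₂} : Finset P)
    have h4 : ({p₁, p₂} : Finset P).card ≤ 2 := Finset.card_le_two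
    rw [Finset.card_univ] at h2
    omega
  omega

open Classical in
/-- Let W₁, W₂ ≤ G form a self-normalising cyclic subgroup W = W₁ ⊔ W₂ of odd order with Nat.card W₁ < Nat.card W₂, and χ an orthonormal family of irreducible characters of G up to sign, indexed by the linear characters ω of W, with χ_1 = 1, χ_ω = ω on W outside W₁ ∪ W₂, and the induction identity for (1 − φ)(1 − ψ). Let θ be a class function of G vanishing on W outside W₁ ∪ W₂, and suppose fewer than 2 · Nat.card W₁ linear characters ω of W have ⟨θ, χ ω⟩ ≠ 0. Then one of: all ⟨θ, χ ω⟩ vanish; or there are ψ₀ and a with ⟨θ, χ ω⟩ = a when ω ψ₀⁻¹ is trivial on W₂ and 0 otherwise; or there are φ₀ and a with ⟨θ, χ ω⟩ = a when ω φ₀⁻¹ is trivial on W₁ and 0 otherwise. -/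
theorem result {G : Type*} [Group G] [Fintype G] (W₁ W₂ : Subgroup G) (hW : Cfsg.IsSelfNormalizingCyclic W₁ W₂) (hodd : Odd (Nat.card ↥(W₁ ⊔ W₂))) (χ : (↥(W₁ ⊔ W₂) →* ℂˣ) → (G → ℂ)) (hχ : Cfsg.IsCyclicTIFamily W₁ W₂ χ) (hlt : Nat.card W₁ < Nat.card W₂) (θ : G → ℂ) (hθ : Cfsg.IsClassFunction G θ) (hθV : ∀ w : ↥(W₁ ⊔ W₂), (w : G) ∉ W₁ → (w : G) ∉ W₂ → θ w = 0) (hfew : Nat.card {ω : ↥(W₁ ⊔ W₂) →* ℂˣ // Cfsg.classInner θ (χ ω) ≠ 0} < 2 * Nat.card W₁) : (∀ ω, Cfsg.classInner θ (χ ω) = 0) ∨ (∃ (ψ₀ : ↥(W₁ ⊔ W₂) →* ℂˣ) (a : ℂ), ∀ ω, Cfsg.classInner θ (χ ω) = if (∀ w : ↥(W₁ ⊔ W₂), (w : G) ∈ W₂ → (ω * ψ₀⁻¹) w = 1) then a else 0) ∨ (∃ (φ₀ : ↥(W₁ ⊔ W₂) →* ℂˣ) (a : ℂ), ∀ ω, Cfsg.classInner θ (χ ω) = if (∀ w : ↥(W₁ ⊔ W₂), (w : G) ∈ W₁ → (ω * φ₀⁻¹) w = 1) then a else 0) := by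
  classical
  obtain ⟨h1, h2, hinf, hcomm, hcyc, hN⟩ := id hW
  have hK := comm_of_cyclic hcyc
  -- sizes
  have hW₁c : ∀ a b : W₁, a * b = b * a := by
    intro a b
    have := hK ⟨a, Subgroup.mem_sup_left a.2⟩ ⟨b, Subgroup.mem_sup_left b.2⟩
    have h3 := congrArg Subtype.val this
    exact Subtype.ext h3
  have hW₂c : ∀ a b : W₂, a * b = b * a := by
    intro a b
    have := hK ⟨a, Subgroup.mem_sup_right a.2⟩ ⟨b, Subgroup.mem_sup_right b.2⟩
    have h3 := congrArg Subtype.val this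
    exact Subtype.ext h3
  have hcP := card_triv₂ hinf hcomm hW₁c
  have hcQ := card_triv₁ hinf hcomm hW₂c
  have hoddm : Odd (Nat.card W₁) :=
    Odd.of_dvd_nat hodd (Subgroup.card_dvd_of_le le_sup_left)
  have hoddn : Odd (Nat.card W₂) :=
    Odd.of_dvd_nat hodd (Subgroup.card_dvd_of_le le_sup_right)
  have hm2 : Nat.card W₁ + 2 ≤ Nat.card W₂ := by
    obtain ⟨a, ha⟩ := hoddm
    obtain ⟨b, hb⟩ := hoddn
    omega
  set a : (↥(W₁ ⊔ W₂) →* ℂˣ) → ℂ := fun ω => classInner θ (χ ω) with ha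
  have hone₂ : ∀ w : ↥(W₁ ⊔ W₂), (w : G) ∈ W₂ → (1 : ↥(W₁ ⊔ W₂) →* ℂˣ) w = 1 := fun _ _ => rfl
  have hone₁ : ∀ w : ↥(W₁ ⊔ W₂), (w : G) ∈ W₁ → (1 : ↥(W₁ ⊔ W₂) →* ℂˣ) w = 1 := fun _ _ => rfl
  let P := {φ : ↥(W₁ ⊔ W₂) →* ℂˣ // ∀ w : ↥(W₁ ⊔ W₂), (w : G) ∈ W₂ → φ w = 1}
  let Q := {ψ : ↥(W₁ ⊔ W₂) →* ℂˣ // ∀ w : ↥(W₁ ⊔ W₂), (w : G) ∈ W₁ → ψ w = 1}
  haveI : Finite (↥(W₁ ⊔ W₂) →* ℂˣ) := finite_hom _ hK
  haveI : Nonempty P := ⟨⟨1, hone₂⟩⟩
  let r : P → ℂ := fun p => a p.1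
  let s : Q → ℂ := fun q => a q.1 - a 1
  have hrect : ∀ (p : P) (q : Q), a (p.1 * q.1) = r p + s q := by
    intro p q
    have := Cfsg.Agent.S1506.result W₁ W₂ hW χ hχ θ hθ hθV p.1 1 q.1 1
      (fun w hw => ⟨p.2 w hw, rfl⟩) (fun w hw => ⟨q.2 w hw, rfl⟩)
    rw [show p.1 * (1 : ↥(W₁ ⊔ W₂) →* ℂˣ) = p.1 from by ext w; simp,
      show (1 : ↥(W₁ ⊔ W₂) →* ℂˣ) * q.1 = q.1 from by ext w; simp,
      show (1 : ↥(W₁ ⊔ W₂) →* ℂˣ) * (1 : ↥(W₁ ⊔ W₂) →* ℂˣ) = 1 from by ext w; simp] at this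
    simp only [r, s, ha]
    linear_combination this
  -- the bijection
  have hbij : Function.Bijective (fun x : P × Q => x.1.1 * x.2.1) := by
    constructor
    · rintro ⟨p, q⟩ ⟨p', q'⟩ h
      obtain ⟨e1, e2⟩ := hom_unique p.2 p'.2 q.2 q'.2 h
      exact Prod.ext (Subtype.ext e1) (Subtype.ext e2)
    · intro ω
      obtain ⟨φ, ψ, hφ, hψ, rfl⟩ := exists_decomp hinf hcomm ω
      exact ⟨(⟨φ, hφ⟩, ⟨ψ, hψ⟩), rfl⟩
  have hcount : Nat.card {x : P × Q // r x.1 + s x.2 ≠ 0} =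
      Nat.card {ω : ↥(W₁ ⊔ W₂) →* ℂˣ // classInner θ (χ ω) ≠ 0} := by
    refine Nat.card_congr (Equiv.subtypeEquiv (Equiv.ofBijective _ hbij) ?_)
    rintro ⟨p, q⟩
    simp only [Equiv.ofBijective_apply]
    rw [← hrect]
  have hgrid := grid r s (by
      show Nat.card {φ : ↥(W₁ ⊔ W₂) →* ℂˣ // ∀ w : ↥(W₁ ⊔ W₂), (w : G) ∈ W₂ → φ w = 1} + 2 ≤
        Nat.card {ψ : ↥(W₁ ⊔ W₂) →* ℂˣ // ∀ w : ↥(W₁ ⊔ W₂), (w : G) ∈ W₁ → ψ w = 1}
      rw [hcP, hcQ]
      exact hm2)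
    (by
      rw [hcount]
      show _ < 2 * Nat.card {φ : ↥(W₁ ⊔ W₂) →* ℂˣ // ∀ w : ↥(W₁ ⊔ W₂), (w : G) ∈ W₂ → φ w = 1}
      rw [hcP]
      exact hfew)
  rcases hgrid with hg | ⟨q₀, A, hg⟩ | ⟨p₀, A, hg⟩
  · left
    intro ω
    obtain ⟨φ, ψ, hφ, hψ, rfl⟩ := exists_decomp hinf hcomm ω
    have := hrect ⟨φ, hφ⟩ ⟨ψ, hψ⟩
    rw [hg] at this
    exact this
  · right; left
    refine ⟨q₀.1, A, fun ω => ?_⟩
    obtain ⟨φ, ψ, hφ, hψ, rfl⟩ := exists_decomp hinf hcomm ω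
    have h3 := hrect ⟨φ, hφ⟩ ⟨ψ, hψ⟩
    have hiff : (∀ w : ↥(W₁ ⊔ W₂), (w : G) ∈ W₂ → (φ * ψ * q₀.1⁻¹) w = 1) ↔ ψ = q₀.1 := by
      constructor
      · intro hc
        have h4 : ψ * q₀.1⁻¹ = 1 := by
          apply hom_eq_one_of_trivial
          · intro w hw
            have := hc w hw
            simpa [hφ w hw] using this
          · intro w hw
            simp [hψ w hw, q₀.2 w hw]
        ext w
        have := DFunLike.congr_fun h4 w
        simp only [MonoidHom.mul_apply, MonoidHom.inv_apply, MonoidHom.one_apply] at this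
        rw [mul_inv_eq_one.mp this]
      · rintro rfl w hw
        simp [hφ w hw]
    by_cases hψq : ψ = q₀.1
    · rw [if_pos (hiff.mpr hψq)]
      have := ((hg ⟨φ, hφ⟩ ⟨ψ, hψ⟩).1 (Subtype.ext hψq))
      rw [← h3] at this
      exact this
    · rw [if_neg (fun h => hψq (hiff.mp h))]
      have := ((hg ⟨φ, hφ⟩ ⟨ψ, hψ⟩).2 (fun h => hψq (congrArg Subtype.val h)))
      rw [← h3] at this
      exact this
  · right; right
    refine ⟨p₀.1, A, fun ω => ?_⟩
    obtain ⟨φ, ψ, hφ, hψ, rfl⟩ := exists_decomp hinf hcomm ω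
    have h3 := hrect ⟨φ, hφ⟩ ⟨ψ, hψ⟩
    have hiff : (∀ w : ↥(W₁ ⊔ W₂), (w : G) ∈ W₁ → (φ * ψ * p₀.1⁻¹) w = 1) ↔ φ = p₀.1 := by
      constructor
      · intro hc
        have h4 : φ * p₀.1⁻¹ = 1 := by
          apply hom_eq_one_of_trivial
          · intro w hw
            simp [hφ w hw, p₀.2 w hw]
          · intro w hw
            have := hc w hw
            simpa [hψ w hw] using this
        ext w
        have := DFunLike.congr_fun h4 w
        simp only [MonoidHom.mul_apply, MonoidHom.inv_apply, MonoidHom.one_apply] at this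
        rw [mul_inv_eq_one.mp this]
      · rintro rfl w hw
        simp [hψ w hw]
    by_cases hφp : φ = p₀.1
    · rw [if_pos (hiff.mpr hφp)]
      have := ((hg ⟨φ, hφ⟩ ⟨ψ, hψ⟩).1 (Subtype.ext hφp))
      rw [← h3] at this
      exact this
    · rw [if_neg (fun h => hφp (hiff.mp h))]
      have := ((hg ⟨φ, hφ⟩ ⟨ψ, hψ⟩).2 (fun h => hφp (congrArg Subtype.val h)))
      rw [← h3] at this
      exact this

end Cfsg.Agent.S1507
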