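import Mathlib
import Cfsg.Statements.S1508
import Cfsg.Agent.Lib.CyclicTI
import Cfsg.Agent.Lib.CharPow
import Cfsg.Agent.Lib.BlockGal
import Cfsg.Agent.Lib.CoherenceSys

set_option autoImplicit false
set_option linter.style.haveILetI false
set_option linter.unusedVariables false

open Cfsg Cfsg.Agent.Lib.CyclicTI Cfsg.Agent.Lib.CharBasic
open Cfsg.Agent.Lib.CharInd Cfsg.Agent.Lib.GenChar
open scoped ComplexConjugate

namespace Cfsg.Agent.S1508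

/-- A vector of norm one in the generalized character lattice which overlaps as below equals `a`. -/
private theorem unit_eq_of_two {G : Type*} [Group G] [Fintype G] {A a b c b' c' : G → ℂ}
    (hA : IsGeneralizedCharacter G A) (ha : IsGeneralizedCharacter G a) (hb : IsGeneralizedCharacter G b)
    (hc : IsGeneralizedCharacter G c) (hb' : IsGeneralizedCharacter G b') (hc' : IsGeneralizedCharacter G c')
    (hAA : classInner A A = 1)
    (hab : classInner a b = 0) (hac : classInner a c = 0) (hab' : classInner a b' = 0)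
    (hac' : classInner a c' = 0) (hbc : classInner b c = 0) (hbb' : classInner b b' = 0)
    (hbc' : classInner b c' = 0) (hcb' : classInner c b' = 0) (hcc' : classInner c c' = 0)
    (hb'c' : classInner b' c' = 0)
    (haa : classInner a a = 1) (hbb : classInner b b = 1) (hcc : classInner c c = 1)
    (hbb2 : classInner b' b' = 1) (hcc2 : classInner c' c' = 1)
    (h1 : classInner A a + classInner A b - classInner A c = 1)
    (h2 : classInner A a + classInner A b' - classInner A c' = 1) : A = a := by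
  classical
  obtain ⟨n₁, hn₁⟩ := classInner_gen_gen hA ha
  obtain ⟨n₂, hn₂⟩ := classInner_gen_gen hA hb
  obtain ⟨n₃, hn₃⟩ := classInner_gen_gen hA hc
  obtain ⟨n₄, hn₄⟩ := classInner_gen_gen hA hb'
  obtain ⟨n₅, hn₅⟩ := classInner_gen_gen hA hc'
  have hsym : ∀ u v : G → ℂ, classInner u v = 0 → classInner v u = 0 := by
    intro u v h
    rw [← classInner_conj_symm, h, map_zero]
  have horth : ∀ i j : Fin 5, i ≠ j → classInner (![a, b, c, b', c'] i) (![a, b, c, b', c'] j) = 0 := by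
    intro i j hij
    fin_cases i <;> fin_cases j <;> first
      | exact absurd rfl hij
      | assumption
      | exact hsym _ _ (by assumption)
  have hnorm : ∀ i : Fin 5, classInner (![a, b, c, b', c'] i) (![a, b, c, b', c'] i) = 1 := by
    intro i
    fin_cases i <;> assumption
  have hB := Cfsg.Agent.Lib.CoherenceSys.bessel Finset.univ ![a, b, c, b', c'] (fun _ => (1 : ℝ))
    (fun _ _ => one_pos) (fun i _ j _ hij => horth i j hij) (fun i _ => by rw [hnorm i]; simp) A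
  rw [Fin.sum_univ_five] at hB
  simp only [Matrix.cons_val_zero, Matrix.cons_val_one, Matrix.cons_val, div_one, hAA, Complex.one_re] at hB
  rw [hn₁, hn₂, hn₃, hn₄, hn₅] at hB
  simp only [Complex.norm_intCast] at hB
  have hB' : (n₁ : ℝ) ^ 2 + (n₂ : ℝ) ^ 2 + (n₃ : ℝ) ^ 2 + (n₄ : ℝ) ^ 2 + (n₅ : ℝ) ^ 2 ≤ 1 := by
    simpa [sq_abs] using hB
  have hB'' : n₁ ^ 2 + n₂ ^ 2 + n₃ ^ 2 + n₄ ^ 2 + n₅ ^ 2 ≤ 1 := by exact_mod_cast hB'
  rw [hn₁, hn₂, hn₃] at h1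
  rw [hn₁, hn₄, hn₅] at h2
  have h1' : n₁ + n₂ - n₃ = 1 := by exact_mod_cast h1
  have h2' : n₁ + n₄ - n₅ = 1 := by exact_mod_cast h2
  have hn1 : n₁ = 1 := by
    by_contra hne
    have h3 : 1 ≤ n₂ ^ 2 + n₃ ^ 2 := by
      have : n₂ ≠ 0 ∨ n₃ ≠ 0 := by omega
      rcases this with h | h
      · have : 0 < n₂ ^ 2 := by positivity
        nlinarith [sq_nonneg n₃]
      · have : 0 < n₃ ^ 2 := by positivity
        nlinarith [sq_nonneg n₂]
    have h4 : 1 ≤ n₄ ^ 2 + n₅ ^ 2 := by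
      have : n₄ ≠ 0 ∨ n₅ ≠ 0 := by omega
      rcases this with h | h
      · have : 0 < n₄ ^ 2 := by positivity
        nlinarith [sq_nonneg n₅]
      · have : 0 < n₅ ^ 2 := by positivity
        nlinarith [sq_nonneg n₄]
    nlinarith [sq_nonneg n₁]
  have haA : classInner a A = 1 := by
    have := classInner_conj_symm A a
    rw [hn₁, hn1] at this
    rw [← this]
    simp
  have hzero : classInner (A - a) (A - a) = 0 := by
    rw [classInner_sub_left, classInner_sub_right, classInner_sub_right, hAA, hn₁, hn1, haA, haa]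
    simp
  exact sub_eq_zero.1 (classInner_self_eq_zero hzero)


/-- The Galois action on a cyclic TI family. -/
theorem family_pow {G : Type*} [Group G] [Fintype G] (W₁ W₂ : Subgroup G)
    (hW : Cfsg.IsSelfNormalizingCyclic W₁ W₂) (hodd : Odd (Nat.card ↥(W₁ ⊔ W₂)))
    (χ : (↥(W₁ ⊔ W₂) →* ℂˣ) → (G → ℂ)) (hχ : Cfsg.IsCyclicTIFamily W₁ W₂ χ)
    {k : ℕ} (hk : (Nat.card G).Coprime k) (ω : ↥(W₁ ⊔ W₂) →* ℂˣ) (x : G) :
    χ ω (x ^ k) = χ (ω ^ k) x := by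
  classical
  obtain ⟨h1, h2, hinf, hcomm, hcyc, hN⟩ := id hW
  letI : Fintype ↥(W₁ ⊔ W₂) := Fintype.ofFinite _
  have hWc := comm_of_cyclic hcyc
  haveI := finite_hom ↥(W₁ ⊔ W₂) hWc
  letI : Fintype (↥(W₁ ⊔ W₂) →* ℂˣ) := Fintype.ofFinite _
  let T : (↥(W₁ ⊔ W₂) →* ℂˣ) → (G → ℂ) := fun a g => χ a (g ^ k)
  -- generalized characters
  have hχgen : ∀ a, IsGeneralizedCharacter G (χ a) := by
    intro a
    rcases hχ.irr_or_neg a with h | h
    · exact isGen_of_isIrr h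
    · have := isGen_neg (isGen_of_isIrr h)
      simpa using this
  have hTgen : ∀ a, IsGeneralizedCharacter G (T a) := by
    intro a
    rcases hχ.irr_or_neg a with h | h
    · exact isGen_of_isIrr (Cfsg.Agent.Lib.CharPow.isIrr_pow h hk)
    · have := isGen_neg (isGen_of_isIrr (Cfsg.Agent.Lib.CharPow.isIrr_pow h hk))
      have e : (-fun g => (-χ a) (g ^ k)) = T a := by
        funext g
        simp [T]
      rwa [e] at this
  -- inner products of `T`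
  have hTin : ∀ a b, classInner (T a) (T b) = if a = b then 1 else 0 := by
    intro a b
    have h := hχ.orthonormal a b
    have h' : classInner (T a) (T b) = classInner (χ a) (χ b) := by
      unfold classInner
      congr 1
      exact Fintype.sum_equiv (powCoprime hk) _ _ (fun g => rfl)
    rw [h', h]
    congr
  -- induction of powers
  have hind : ∀ φ ψ : ↥(W₁ ⊔ W₂) →* ℂˣ,
      (fun g => indFun (W₁ ⊔ W₂) (fun w => 1 - (φ w : ℂ) - (ψ w : ℂ) + (φ w : ℂ) * (ψ w : ℂ)) (g ^ k)) =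
      indFun (W₁ ⊔ W₂) (fun w => 1 - ((φ ^ k) w : ℂ) - ((ψ ^ k) w : ℂ) + ((φ ^ k) w : ℂ) * ((ψ ^ k) w : ℂ)) := by
    intro φ ψ
    let e : (↥(W₁ ⊔ W₂) →* ℂˣ) → (↥(W₁ ⊔ W₂) → ℂ) := fun f w => ((f w : ℂˣ) : ℂ)
    have hα : ∀ a b : ↥(W₁ ⊔ W₂) →* ℂˣ, (fun w => 1 - (a w : ℂ) - (b w : ℂ) + (a w : ℂ) * (b w : ℂ)) =
        e 1 - e a - e b + e (a * b) := by
      intro a b
      funext w
      simp [e]
    rw [hα, hα]
    rw [indFun_add, indFun_sub, indFun_sub, indFun_add, indFun_sub, indFun_sub]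
    have hp := fun f : ↥(W₁ ⊔ W₂) →* ℂˣ => Cfsg.Agent.Lib.CharPow.indFun_pow (W₁ ⊔ W₂) f hk
    funext g
    have h3 := congrFun (hp 1) g
    have h4 := congrFun (hp φ) g
    have h5 := congrFun (hp ψ) g
    have h6 := congrFun (hp (φ * ψ)) g
    simp only [Pi.add_apply, Pi.sub_apply]
    have e1 : (1 : ↥(W₁ ⊔ W₂) →* ℂˣ) ^ k = 1 := by
      ext w
      simp
    have e2 : (φ * ψ) ^ k = φ ^ k * ψ ^ k := by
      ext w
      simp [mul_pow]
    rw [e1] at h3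
    rw [e2] at h6
    show indFun _ (e 1) (g ^ k) - indFun _ (e φ) (g ^ k) - indFun _ (e ψ) (g ^ k) + indFun _ (e (φ * ψ)) (g ^ k) = _
    exact (by rw [show indFun (W₁ ⊔ W₂) (e 1) (g ^ k) = _ from h3, show indFun (W₁ ⊔ W₂) (e φ) (g ^ k) = _ from h4,
      show indFun (W₁ ⊔ W₂) (e ψ) (g ^ k) = _ from h5, show indFun (W₁ ⊔ W₂) (e (φ * ψ)) (g ^ k) = _ from h6])
  -- orthogonality
  have hχ0 : ∀ a b, a ≠ b → classInner (χ a) (χ b) = 0 := by
    intro a b hab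
    have h := hχ.orthonormal a b
    rwa [if_neg hab] at h
  have hχ1 : ∀ a, classInner (χ a) (χ a) = 1 := by
    intro a
    have h := hχ.orthonormal a a
    rwa [if_pos rfl] at h
  have hT0 : ∀ a b, a ≠ b → classInner (T a) (T b) = 0 := by
    intro a b hab
    rw [hTin, if_neg hab]
  have hT1 : ∀ a, classInner (T a) (T a) = 1 := by
    intro a
    rw [hTin, if_pos rfl]
  have hml : ∀ a b : ↥(W₁ ⊔ W₂) →* ℂˣ, a * b = a → b = 1 := by
    intro a b h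
    ext w
    have := DFunLike.congr_fun h w
    simpa using this
  have hmr : ∀ a b : ↥(W₁ ⊔ W₂) →* ℂˣ, a * b = b → a = 1 := by
    intro a b h
    ext w
    have := DFunLike.congr_fun h w
    simpa using this
  -- powers
  have hcomm' : ∀ a b : ↥(W₁ ⊔ W₂) →* ℂˣ, a * b = b * a := by
    intro a b
    ext w
    simp [mul_comm]
  have hkW : (Nat.card (↥(W₁ ⊔ W₂) →* ℂˣ)).Coprime k := by
    rw [card_hom _ hWc]
    exact Nat.Coprime.coprime_dvd_left (Subgroup.card_subgroup_dvd_card _) hk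
  have hpne : ∀ a : ↥(W₁ ⊔ W₂) →* ℂˣ, a ≠ 1 → a ^ k ≠ 1 := by
    intro a ha h
    apply ha
    have h1 : orderOf a ∣ k := orderOf_dvd_of_pow_eq_one h
    have h2 : orderOf a ∣ Nat.card (↥(W₁ ⊔ W₂) →* ℂˣ) := orderOf_dvd_natCard a
    have h3 : orderOf a = 1 := Nat.eq_one_of_dvd_coprimes hkW h2 h1
    exact orderOf_eq_one_iff.1 h3
  have hpinj : ∀ a b : ↥(W₁ ⊔ W₂) →* ℂˣ, a ^ k = b ^ k → a = b := by
    intro a b h
    have h1 : (a * b⁻¹) ^ k = 1 := by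
      ext w
      have h3 := DFunLike.congr_fun h w
      simp only [MonoidHom.pow_apply] at h3
      simp [mul_pow, h3]
    by_contra hne
    exact hpne (a * b⁻¹) (fun h2 => hne (mul_inv_eq_one.1 h2)) h1
  have hP : ∀ a : ↥(W₁ ⊔ W₂) →* ℂˣ, (∀ w : ↥(W₁ ⊔ W₂), (w : G) ∈ W₂ → a w = 1) →
      ∀ w : ↥(W₁ ⊔ W₂), (w : G) ∈ W₂ → (a ^ k) w = 1 := by
    intro a h w hw
    simp [h w hw]
  have hQ : ∀ a : ↥(W₁ ⊔ W₂) →* ℂˣ, (∀ w : ↥(W₁ ⊔ W₂), (w : G) ∈ W₁ → a w = 1) →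
      ∀ w : ↥(W₁ ⊔ W₂), (w : G) ∈ W₁ → (a ^ k) w = 1 := by
    intro a h w hw
    simp [h w hw]
  have hone₂ : ∀ w : ↥(W₁ ⊔ W₂), (w : G) ∈ W₂ → (1 : ↥(W₁ ⊔ W₂) →* ℂˣ) w = 1 := fun _ _ => rfl
  have hone₁ : ∀ w : ↥(W₁ ⊔ W₂), (w : G) ∈ W₁ → (1 : ↥(W₁ ⊔ W₂) →* ℂˣ) w = 1 := fun _ _ => rfl
  -- the identity
  have hid : ∀ φ ψ : ↥(W₁ ⊔ W₂) →* ℂˣ, φ ≠ 1 → ψ ≠ 1 → (∀ w : ↥(W₁ ⊔ W₂), (w : G) ∈ W₂ → φ w = 1) →
      (∀ w : ↥(W₁ ⊔ W₂), (w : G) ∈ W₁ → ψ w = 1) →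
      T φ + T ψ - T (φ * ψ) = χ (φ ^ k * 1) + χ (1 * ψ ^ k) - χ (φ ^ k * ψ ^ k) := by
    intro φ ψ hφ hψ hP2 hQ1
    have h3 := hχ.induced_eq φ ψ hφ hψ hP2 hQ1
    have h4 := hχ.induced_eq (φ ^ k) (ψ ^ k) (hpne φ hφ) (hpne ψ hψ) (hP φ hP2) (hQ ψ hQ1)
    have h5 := hind φ ψ
    rw [h4] at h5
    rw [h3] at h5
    have e1 : φ ^ k * 1 = φ ^ k := by
      ext w
      simp
    have e2 : 1 * ψ ^ k = ψ ^ k := by
      ext w
      simp
    rw [e1, e2]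
    funext g
    have h6 := congrFun h5 g
    simp only [Pi.add_apply, Pi.sub_apply]
    show χ φ (g ^ k) + χ ψ (g ^ k) - χ (φ * ψ) (g ^ k) = _
    linear_combination -h6
  have hne : ∀ p q p' q' : ↥(W₁ ⊔ W₂) →* ℂˣ, (∀ w : ↥(W₁ ⊔ W₂), (w : G) ∈ W₂ → p w = 1) →
      (∀ w : ↥(W₁ ⊔ W₂), (w : G) ∈ W₂ → p' w = 1) → (∀ w : ↥(W₁ ⊔ W₂), (w : G) ∈ W₁ → q w = 1) →
      (∀ w : ↥(W₁ ⊔ W₂), (w : G) ∈ W₁ → q' w = 1) → (p ≠ p' ∨ q ≠ q') →
      classInner (χ (p * q)) (χ (p' * q')) = 0 := by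
    intro p q p' q' a b c d h
    apply hχ0
    intro h2
    obtain ⟨h3, h4⟩ := hom_unique a b c d h2
    rcases h with h | h
    · exact h h3
    · exact h h4
  -- oddness: at least two nontrivial characters
  have hW₁3 : 3 ≤ Nat.card W₁ := by
    have h3 : Odd (Nat.card W₁) := Odd.of_dvd_nat hodd (Subgroup.card_dvd_of_le le_sup_left)
    have h4 : Nat.card W₁ ≠ 1 := by
      intro h
      exact h1 (Subgroup.card_eq_one.mp h)
    have h5 : 0 < Nat.card W₁ := Nat.card_pos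
    rcases h3 with ⟨m, hm⟩
    omega
  have hW₂3 : 3 ≤ Nat.card W₂ := by
    have h3 : Odd (Nat.card W₂) := Odd.of_dvd_nat hodd (Subgroup.card_dvd_of_le le_sup_right)
    have h4 : Nat.card W₂ ≠ 1 := by
      intro h
      exact h2 (Subgroup.card_eq_one.mp h)
    have h5 : 0 < Nat.card W₂ := Nat.card_pos
    rcases h3 with ⟨m, hm⟩
    omega
  have hW₁c' : ∀ a b : W₁, a * b = b * a := by
    intro a b
    have := hWc ⟨a, Subgroup.mem_sup_left a.2⟩ ⟨b, Subgroup.mem_sup_left b.2⟩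
    exact Subtype.ext (congrArg (fun z : ↥(W₁ ⊔ W₂) => (z : G)) this)
  have hW₂c' : ∀ a b : W₂, a * b = b * a := by
    intro a b
    have := hWc ⟨a, Subgroup.mem_sup_right a.2⟩ ⟨b, Subgroup.mem_sup_right b.2⟩
    exact Subtype.ext (congrArg (fun z : ↥(W₁ ⊔ W₂) => (z : G)) this)
  have hex₁ : ∀ ψ : ↥(W₁ ⊔ W₂) →* ℂˣ, ∃ ψ' : ↥(W₁ ⊔ W₂) →* ℂˣ, (∀ w : ↥(W₁ ⊔ W₂), (w : G) ∈ W₁ → ψ' w = 1) ∧
      ψ' ≠ 1 ∧ ψ' ≠ ψ := by
    intro ψ
    have hc := card_triv₁ hinf hcomm hW₂c'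
    by_contra hcon
    push Not at hcon
    have hsub : ∀ x : {ψ : ↥(W₁ ⊔ W₂) →* ℂˣ // ∀ w : ↥(W₁ ⊔ W₂), (w : G) ∈ W₁ → ψ w = 1}, (x : ↥(W₁ ⊔ W₂) →* ℂˣ) ∈ ({1, ψ} : Finset (↥(W₁ ⊔ W₂) →* ℂˣ)) := by
      intro x
      by_cases h : (x : ↥(W₁ ⊔ W₂) →* ℂˣ) = 1
      · simp [h]
      · simp [hcon _ x.2 h]
    have h3 : Nat.card {ψ : ↥(W₁ ⊔ W₂) →* ℂˣ // ∀ w : ↥(W₁ ⊔ W₂), (w : G) ∈ W₁ → ψ w = 1} ≤ ({1, ψ} : Finset (↥(W₁ ⊔ W₂) →* ℂˣ)).card := by
      rw [Nat.card_eq_fintype_card, ← Finset.card_univ]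
      exact Finset.card_le_card_of_injOn (fun x => x.1) (fun x _ => hsub x) (fun a _ b _ h => Subtype.ext h)
    have h4 := Finset.card_insert_le (1 : ↥(W₁ ⊔ W₂) →* ℂˣ) ({ψ} : Finset (↥(W₁ ⊔ W₂) →* ℂˣ))
    rw [Finset.card_singleton] at h4
    omega
  have hex₂ : ∀ φ : ↥(W₁ ⊔ W₂) →* ℂˣ, ∃ φ' : ↥(W₁ ⊔ W₂) →* ℂˣ, (∀ w : ↥(W₁ ⊔ W₂), (w : G) ∈ W₂ → φ' w = 1) ∧
      φ' ≠ 1 ∧ φ' ≠ φ := by
    intro ψ
    have hc := card_triv₂ hinf hcomm hW₁c'
    by_contra hcon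
    push Not at hcon
    have hsub : ∀ x : {ψ : ↥(W₁ ⊔ W₂) →* ℂˣ // ∀ w : ↥(W₁ ⊔ W₂), (w : G) ∈ W₂ → ψ w = 1}, (x : ↥(W₁ ⊔ W₂) →* ℂˣ) ∈ ({1, ψ} : Finset (↥(W₁ ⊔ W₂) →* ℂˣ)) := by
      intro x
      by_cases h : (x : ↥(W₁ ⊔ W₂) →* ℂˣ) = 1
      · simp [h]
      · simp [hcon _ x.2 h]
    have h3 : Nat.card {ψ : ↥(W₁ ⊔ W₂) →* ℂˣ // ∀ w : ↥(W₁ ⊔ W₂), (w : G) ∈ W₂ → ψ w = 1} ≤ ({1, ψ} : Finset (↥(W₁ ⊔ W₂) →* ℂˣ)).card := by
      rw [Nat.card_eq_fintype_card, ← Finset.card_univ]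
      exact Finset.card_le_card_of_injOn (fun x => x.1) (fun x _ => hsub x) (fun a _ b _ h => Subtype.ext h)
    have h4 := Finset.card_insert_le (1 : ↥(W₁ ⊔ W₂) →* ℂˣ) ({ψ} : Finset (↥(W₁ ⊔ W₂) →* ℂˣ))
    rw [Finset.card_singleton] at h4
    omega
  -- the main step for the factor characters
  have hφstep : ∀ φ : ↥(W₁ ⊔ W₂) →* ℂˣ, φ ≠ 1 → (∀ w : ↥(W₁ ⊔ W₂), (w : G) ∈ W₂ → φ w = 1) → T φ = χ (φ ^ k * 1) := by
    intro φ hφ hP2
    obtain ⟨ψ, hQ1, hψ1, -⟩ := hex₁ 1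
    obtain ⟨ψ', hQ1', hψ1', hψψ'⟩ := hex₁ ψ
    have hphi : φ ^ k ≠ 1 := hpne φ hφ
    have hps : ψ ^ k ≠ 1 := hpne ψ hψ1
    have hps' : ψ' ^ k ≠ 1 := hpne ψ' hψ1'
    have hpp : ψ ^ k ≠ ψ' ^ k := fun h => hψψ' (hpinj _ _ h).symm
    have Pp := hP φ hP2
    have Qq := hQ ψ hQ1
    have Qq' := hQ ψ' hQ1'
    have hnn : ∀ a b : ↥(W₁ ⊔ W₂) →* ℂˣ, a ≠ b → φ * a ≠ φ * b := by
      intro a b hab h
      exact hab (mul_left_cancel h)
    have id1 := hid φ ψ hφ hψ1 hP2 hQ1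
    have id2 := hid φ ψ' hφ hψ1' hP2 hQ1'
    have hne1 : φ ≠ ψ := by
      intro h
      subst h
      exact hφ (hom_eq_one_of_trivial _ hP2 hQ1)
    have hne2 : φ ≠ ψ' := by
      intro h
      subst h
      exact hφ (hom_eq_one_of_trivial _ hP2 hQ1')
    have hne3 : φ ≠ φ * ψ := by
      intro h
      apply hψ1
      exact hml _ _ h.symm
    have hne4 : φ ≠ φ * ψ' := by
      intro h
      apply hψ1'
      exact hml _ _ h.symm
    have hA := hT1 φ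
    have h1' : classInner (T φ) (χ (φ ^ k * 1)) + classInner (T φ) (χ (1 * ψ ^ k)) -
        classInner (T φ) (χ (φ ^ k * ψ ^ k)) = 1 := by
      have := congrArg (classInner (T φ)) id1
      rw [classInner_sub_right, classInner_add_right, classInner_sub_right, classInner_add_right,
        hA, hT0 _ _ hne1, hT0 _ _ hne3] at this
      simpa using this.symm
    have h2' : classInner (T φ) (χ (φ ^ k * 1)) + classInner (T φ) (χ (1 * ψ' ^ k)) -
        classInner (T φ) (χ (φ ^ k * ψ' ^ k)) = 1 := by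
      have := congrArg (classInner (T φ)) id2
      rw [classInner_sub_right, classInner_add_right, classInner_sub_right, classInner_add_right,
        hA, hT0 _ _ hne2, hT0 _ _ hne4] at this
      simpa using this.symm
    refine unit_eq_of_two (hTgen φ) (hχgen _) (hχgen _) (hχgen _) (hχgen _) (hχgen _) hA ?_ ?_ ?_ ?_ ?_ ?_ ?_ ?_ ?_ ?_
      (hχ1 _) (hχ1 _) (hχ1 _) (hχ1 _) (hχ1 _) h1' h2'
    · exact hne _ _ _ _ Pp hone₂ hone₁ Qq (Or.inl hphi)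
    · exact hne _ _ _ _ Pp Pp hone₁ Qq (Or.inr hps.symm)
    · exact hne _ _ _ _ Pp hone₂ hone₁ Qq' (Or.inl hphi)
    · exact hne _ _ _ _ Pp Pp hone₁ Qq' (Or.inr hps'.symm)
    · exact hne _ _ _ _ hone₂ Pp Qq Qq (Or.inl hphi.symm)
    · exact hne _ _ _ _ hone₂ hone₂ Qq Qq' (Or.inr hpp)
    · exact hne _ _ _ _ hone₂ Pp Qq Qq' (Or.inl hphi.symm)
    · exact hne _ _ _ _ Pp hone₂ Qq Qq' (Or.inl hphi)
    · exact hne _ _ _ _ Pp Pp Qq Qq' (Or.inr hpp)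
    · exact hne _ _ _ _ hone₂ Pp Qq' Qq' (Or.inl hphi.symm)
  have hψstep : ∀ ψ : ↥(W₁ ⊔ W₂) →* ℂˣ, ψ ≠ 1 → (∀ w : ↥(W₁ ⊔ W₂), (w : G) ∈ W₁ → ψ w = 1) → T ψ = χ (1 * ψ ^ k) := by
    intro ψ hψ hQ1
    obtain ⟨φ, hP1, hφ1, -⟩ := hex₂ 1
    obtain ⟨φ', hP1', hφ1', hφφ'⟩ := hex₂ φ
    have hphi : ψ ^ k ≠ 1 := hpne ψ hψ
    have hps : φ ^ k ≠ 1 := hpne φ hφ1
    have hps' : φ' ^ k ≠ 1 := hpne φ' hφ1'
    have hpp : φ ^ k ≠ φ' ^ k := fun h => hφφ' (hpinj _ _ h).symm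
    have Qq := hQ ψ hQ1
    have Pp := hP φ hP1
    have Pp' := hP φ' hP1'
    have id1 := hid φ ψ hφ1 hψ hP1 hQ1
    have id2 := hid φ' ψ hφ1' hψ hP1' hQ1
    have hne1 : ψ ≠ φ := by
      intro h
      subst h
      exact hψ (hom_eq_one_of_trivial _ hP1 hQ1)
    have hne2 : ψ ≠ φ' := by
      intro h
      subst h
      exact hψ (hom_eq_one_of_trivial _ hP1' hQ1)
    have hne3 : ψ ≠ φ * ψ := by
      intro h
      apply hφ1
      exact hmr _ _ h.symm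
    have hne4 : ψ ≠ φ' * ψ := by
      intro h
      apply hφ1'
      exact hmr _ _ h.symm
    have hA := hT1 ψ
    have h1' : classInner (T ψ) (χ (1 * ψ ^ k)) + classInner (T ψ) (χ (φ ^ k * 1)) -
        classInner (T ψ) (χ (φ ^ k * ψ ^ k)) = 1 := by
      have := congrArg (classInner (T ψ)) id1
      rw [classInner_sub_right, classInner_add_right, classInner_sub_right, classInner_add_right,
        hA, hT0 _ _ hne1, hT0 _ _ hne3] at this
      simp only [zero_add, sub_zero] at this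
      rw [add_comm]
      exact this.symm
    have h2' : classInner (T ψ) (χ (1 * ψ ^ k)) + classInner (T ψ) (χ (φ' ^ k * 1)) -
        classInner (T ψ) (χ (φ' ^ k * ψ ^ k)) = 1 := by
      have := congrArg (classInner (T ψ)) id2
      rw [classInner_sub_right, classInner_add_right, classInner_sub_right, classInner_add_right,
        hA, hT0 _ _ hne2, hT0 _ _ hne4] at this
      simp only [zero_add, sub_zero] at this
      rw [add_comm]
      exact this.symm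
    refine unit_eq_of_two (hTgen ψ) (hχgen _) (hχgen _) (hχgen _) (hχgen _) (hχgen _) hA ?_ ?_ ?_ ?_ ?_ ?_ ?_ ?_ ?_ ?_
      (hχ1 _) (hχ1 _) (hχ1 _) (hχ1 _) (hχ1 _) h1' h2'
    · exact hne _ _ _ _ hone₂ Pp Qq hone₁ (Or.inl hps.symm)
    · exact hne _ _ _ _ hone₂ Pp Qq Qq (Or.inl hps.symm)
    · exact hne _ _ _ _ hone₂ Pp' Qq hone₁ (Or.inl hps'.symm)
    · exact hne _ _ _ _ hone₂ Pp' Qq Qq (Or.inl hps'.symm)
    · exact hne _ _ _ _ Pp Pp hone₁ Qq (Or.inr hphi.symm)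
    · exact hne _ _ _ _ Pp Pp' hone₁ hone₁ (Or.inl hpp)
    · exact hne _ _ _ _ Pp Pp' hone₁ Qq (Or.inl hpp)
    · exact hne _ _ _ _ Pp Pp' Qq hone₁ (Or.inl hpp)
    · exact hne _ _ _ _ Pp Pp' Qq Qq (Or.inl hpp)
    · exact hne _ _ _ _ Pp' Pp' hone₁ Qq (Or.inr hphi.symm)
  -- conclusion
  obtain ⟨φ, ψ, hP2, hQ1, rfl⟩ := exists_decomp hinf hcomm ω
  have hpw : (φ * ψ) ^ k = φ ^ k * ψ ^ k := by
    ext w
    simp [mul_pow]
  show T (φ * ψ) x = _
  rw [hpw]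
  by_cases hφ : φ = 1
  · subst hφ
    have e1 : (1 : ↥(W₁ ⊔ W₂) →* ℂˣ) * ψ = ψ := by
      ext w
      simp
    have e2 : (1 : ↥(W₁ ⊔ W₂) →* ℂˣ) ^ k = 1 := by
      ext w
      simp
    rw [e1, e2]
    by_cases hψ : ψ = 1
    · subst hψ
      have e3 : (1 * (1 : ↥(W₁ ⊔ W₂) →* ℂˣ) ^ k) = 1 := by
        ext w
        simp
      rw [e3]
      show χ 1 (x ^ k) = χ 1 x
      rw [hχ.map_one]
    · rw [hψstep ψ hψ hQ1]
  · by_cases hψ : ψ = 1
    · subst hψ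
      have e1 : φ * (1 : ↥(W₁ ⊔ W₂) →* ℂˣ) = φ := by
        ext w
        simp
      have e2 : (1 : ↥(W₁ ⊔ W₂) →* ℂˣ) ^ k = 1 := by
        ext w
        simp
      rw [e1, e2, hφstep φ hφ hP2]
    · have h5 := hid φ ψ hφ hψ hP2 hQ1
      rw [hφstep φ hφ hP2, hψstep ψ hψ hQ1] at h5
      have h6 := congrFun h5 x
      simp only [Pi.add_apply, Pi.sub_apply] at h6
      linear_combination -h6

/-- Let W₁, W₂ ≤ G form a self-normalising cyclic subgroup W = W₁ ⊔ W₂ of odd order and χ an orthonormal family of irreducible characters of G up to sign, indexed by the linear characters ω of W, with χ_1 = 1, χ_ω = ω on W outside W₁ ∪ W₂, and the induction identity for (1 − φ)(1 − ψ). Let ω be a linear character of W and g an element of G whose order is coprime to the order of ω. Then χ ω g is an integer. -/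
theorem result {G : Type*} [Group G] [Fintype G] (W₁ W₂ : Subgroup G) (hW : Cfsg.IsSelfNormalizingCyclic W₁ W₂) (hodd : Odd (Nat.card ↥(W₁ ⊔ W₂))) (χ : (↥(W₁ ⊔ W₂) →* ℂˣ) → (G → ℂ)) (hχ : Cfsg.IsCyclicTIFamily W₁ W₂ χ) (ω : ↥(W₁ ⊔ W₂) →* ℂˣ) (g : G) (hg : Nat.Coprime (orderOf g) (orderOf ω)) : ∃ n : ℤ, χ ω g = n := by

  classical
  obtain ⟨h1, h2, hinf, hcomm, hcyc, hN⟩ := id hW
  letI : Fintype ↥(W₁ ⊔ W₂) := Fintype.ofFinite _
  have hWc := comm_of_cyclic hcyc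
  haveI := finite_hom ↥(W₁ ⊔ W₂) hWc
  set a := orderOf g with ha
  set b := orderOf ω with hb
  set N := Nat.card G with hNdef
  have hN0 : N ≠ 0 := Nat.card_pos.ne'
  have haN : a ∣ N := orderOf_dvd_natCard g
  have hbN : b ∣ N := by
    have h3 : b ∣ Nat.card (↥(W₁ ⊔ W₂) →* ℂˣ) := orderOf_dvd_natCard ω
    rw [card_hom _ hWc] at h3
    exact h3.trans (Subgroup.card_subgroup_dvd_card _)
  have hab : a * b ∣ N := Nat.Coprime.mul_dvd_of_dvd_of_dvd hg haN hbN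
  have ha0 : a ≠ 0 := (orderOf_pos g).ne'
  have hb0 : b ≠ 0 := (orderOf_pos ω).ne'
  -- adjust the exponent
  have hadj : ∀ k : ℕ, N.Coprime k → ∃ k' : ℕ, N.Coprime k' ∧ k' ≡ k [MOD a] ∧ k' ≡ 1 [MOD b] := by
    intro k hk
    set t := (Nat.chineseRemainder hg k 1 : ℕ) with ht
    have ht1 : t ≡ k [MOD a] := (Nat.chineseRemainder hg k 1).2.1
    have ht2 : t ≡ 1 [MOD b] := (Nat.chineseRemainder hg k 1).2.2
    have htab : (a * b).Coprime t := by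
      apply Nat.Coprime.mul_left
      · have : a.Coprime k := Nat.Coprime.coprime_dvd_left haN hk
        rw [Nat.Coprime, Nat.gcd_comm, Nat.ModEq.gcd_eq ht1, Nat.gcd_comm]
        exact this
      · have : Nat.gcd t b = Nat.gcd 1 b := Nat.ModEq.gcd_eq ht2
        rw [Nat.Coprime, Nat.gcd_comm, this]
        simp
    haveI : NeZero N := ⟨hN0⟩
    haveI : NeZero (a * b) := ⟨Nat.mul_ne_zero ha0 hb0⟩
    obtain ⟨v, hv⟩ := ZMod.unitsMap_surjective hab (ZMod.unitOfCoprime t htab.symm)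
    refine ⟨(v : ZMod N).val, ?_, ?_, ?_⟩
    · have := ZMod.val_coe_unit_coprime v
      exact this.symm
    · have h3 : ((v : ZMod N).val : ZMod (a * b)) = (t : ZMod (a * b)) := by
        have h4 := congrArg (fun u : (ZMod (a * b))ˣ => ((u : ZMod (a * b)))) hv
        simp only [ZMod.unitsMap_val, ZMod.coe_unitOfCoprime] at h4
        rw [← h4]
        simp
      have h5 : (v : ZMod N).val ≡ t [MOD a * b] := (ZMod.natCast_eq_natCast_iff _ _ _).1 h3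
      exact (h5.of_mul_right b).trans ht1
    · have h3 : ((v : ZMod N).val : ZMod (a * b)) = (t : ZMod (a * b)) := by
        have h4 := congrArg (fun u : (ZMod (a * b))ˣ => ((u : ZMod (a * b)))) hv
        simp only [ZMod.unitsMap_val, ZMod.coe_unitOfCoprime] at h4
        rw [← h4]
        simp
      have h5 : (v : ZMod N).val ≡ t [MOD a * b] := (ZMod.natCast_eq_natCast_iff _ _ _).1 h3
      exact (h5.of_mul_left a).trans ht2
  have hfix : ∀ k : ℕ, N.Coprime k → χ ω (g ^ k) = χ ω g := by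
    intro k hk
    obtain ⟨k', hk', h1', h2'⟩ := hadj k hk
    have e1 : g ^ k = g ^ k' := (pow_eq_pow_iff_modEq.2 h1'.symm)
    have e2 : ω ^ k' = ω := by
      have := (pow_eq_pow_iff_modEq (x := ω)).2 h2'
      rwa [pow_one] at this
    rw [e1, family_pow W₁ W₂ hW hodd χ hχ hk', e2]
  rcases hχ.irr_or_neg ω with h | h
  · exact Cfsg.Agent.Lib.BlockGal.exists_int_of_pow_eq (IsIrrCharacter.isCharacter h) g hfix
  · obtain ⟨z, hz⟩ := Cfsg.Agent.Lib.BlockGal.exists_int_of_pow_eq (IsIrrCharacter.isCharacter h) g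
      (fun k hk => by simp [hfix k hk])
    refine ⟨-z, ?_⟩
    have : χ ω g = -(-χ ω) g := by simp
    rw [this, hz]
    simp


end Cfsg.Agent.S1508
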