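import Mathlib
import Cfsg.Statements.S1509
import Cfsg.Agent.Lib.GenChar

set_option autoImplicit false
open Cfsg

namespace Cfsg.Agent.S1509

open Cfsg.Agent.Lib.CharBasic Cfsg.Agent.Lib.GenChar
open scoped ComplexConjugate

private lemma pm_decomp {X : Type*} [Group X] {α : X → ℂ}
    (h : IsIrrCharacter X α ∨ IsIrrCharacter X (-α)) :
    ∃ (a : X → ℂ) (A : ℝ), IsIrrCharacter X a ∧ (A = 1 ∨ A = -1) ∧ α = (A : ℂ) • a := by
  rcases h with h | h
  · exact ⟨α, 1, h, Or.inl rfl, by simp⟩
  · exact ⟨-α, -1, h, Or.inr rfl, by simp⟩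

/-- Let α, β, γ, δ be functions on a finite group X each of which is an irreducible character or the negative of one, and u, v nonzero real numbers. Suppose ⟨α, β⟩ = ⟨γ, δ⟩ = 0, ⟨α − β, uγ − vδ⟩ = 0, α 1 = β 1 and u γ 1 = v δ 1. Then also ⟨α, γ⟩ = ⟨α, δ⟩ = ⟨β, γ⟩ = ⟨β, δ⟩ = 0. -/
theorem result {X : Type*} [Group X] [Fintype X] (α β γ δ : X → ℂ) (hα : Cfsg.IsIrrCharacter X α ∨ Cfsg.IsIrrCharacter X (-α)) (hβ : Cfsg.IsIrrCharacter X β ∨ Cfsg.IsIrrCharacter X (-β)) (hγ : Cfsg.IsIrrCharacter X γ ∨ Cfsg.IsIrrCharacter X (-γ)) (hδ : Cfsg.IsIrrCharacter X δ ∨ Cfsg.IsIrrCharacter X (-δ)) (u v : ℝ) (hu : u ≠ 0) (hv : v ≠ 0) (hab : Cfsg.classInner α β = 0) (hcd : Cfsg.classInner γ δ = 0) (hmix : Cfsg.classInner (α - β) ((u : ℂ) • γ - (v : ℂ) • δ) = 0) (h1 : α 1 = β 1) (h2 : (u : ℂ) * γ 1 = (v : ℂ) * δ 1) : Cfsg.classInner α γ = 0 ∧ Cfsg.classInner α δ = 0 ∧ Cfsg.classInner β γ = 0 ∧ Cfsg.classInner β δ = 0 := by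
  classical
  obtain ⟨a, A, ha, hA, rfl⟩ := pm_decomp hα
  obtain ⟨b, B, hb, hB, rfl⟩ := pm_decomp hβ
  obtain ⟨c, C, hc, hC, rfl⟩ := pm_decomp hγ
  obtain ⟨d, D, hd, hD, rfl⟩ := pm_decomp hδ
  have hA0 : (A : ℂ) ≠ 0 := by rcases hA with rfl | rfl <;> norm_num
  have hB0 : (B : ℂ) ≠ 0 := by rcases hB with rfl | rfl <;> norm_num
  have hC0 : (C : ℂ) ≠ 0 := by rcases hC with rfl | rfl <;> norm_num
  have hD0 : (D : ℂ) ≠ 0 := by rcases hD with rfl | rfl <;> norm_num
  have hu0 : (u : ℂ) ≠ 0 := by exact_mod_cast hu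
  have hv0 : (v : ℂ) ≠ 0 := by exact_mod_cast hv
  have conjr : ∀ r : ℝ, conj (r : ℂ) = r := Complex.conj_ofReal
  -- a ≠ b and c ≠ d
  have hneab : a ≠ b := by
    rintro rfl
    rw [classInner_smul_left, classInner_smul_right, classInner_irr_self ha, conjr] at hab
    simp [hA0, hB0] at hab
  have hnecd : c ≠ d := by
    rintro rfl
    rw [classInner_smul_left, classInner_smul_right, classInner_irr_self hc, conjr] at hcd
    simp [hC0, hD0] at hcd
  -- degrees
  obtain ⟨da, hda, hda1⟩ := isIrr_one_pos ha
  obtain ⟨db, hdb, hdb1⟩ := isIrr_one_pos hb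
  obtain ⟨dc, hdc, hdc1⟩ := isIrr_one_pos hc
  obtain ⟨dd, hdd, hdd1⟩ := isIrr_one_pos hd
  simp only [Pi.smul_apply, smul_eq_mul, hda1, hdb1, hdc1, hdd1] at h1 h2
  have h1R : A * da = B * db := by exact_mod_cast h1
  have h2R : u * (C * dc) = v * (D * dd) := by exact_mod_cast h2
  have hda' : (0 : ℝ) < da := by exact_mod_cast hda
  have hdb' : (0 : ℝ) < db := by exact_mod_cast hdb
  have hdc' : (0 : ℝ) < dc := by exact_mod_cast hdc
  have hdd' : (0 : ℝ) < dd := by exact_mod_cast hdd
  have hAB : A = B := by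
    rcases hA with rfl | rfl <;> rcases hB with rfl | rfl <;> first | rfl | (exfalso; nlinarith)
  subst hAB
  have hdab : (da : ℝ) = db := by
    rcases hA with rfl | rfl <;> linarith
  -- the mixed equation
  have hmix' : (A : ℂ) * ((u : ℂ) * C * classInner a c - (v : ℂ) * D * classInner a d
      - (u : ℂ) * C * classInner b c + (v : ℂ) * D * classInner b d) = 0 := by
    rw [classInner_sub_left, classInner_sub_right, classInner_sub_right] at hmix
    simp only [classInner_smul_left, classInner_smul_right, map_mul, conjr] at hmix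
    linear_combination hmix
  have hmix2 : (u : ℂ) * C * classInner a c - (v : ℂ) * D * classInner a d
      - (u : ℂ) * C * classInner b c + (v : ℂ) * D * classInner b d = 0 := by
    rcases mul_eq_zero.mp hmix' with h | h
    · exact absurd h hA0
    · exact h
  have hUV : (u : ℂ) * C ≠ 0 := mul_ne_zero hu0 hC0
  have hVV : (v : ℂ) * D ≠ 0 := mul_ne_zero hv0 hD0
  have hUVR : u * C ≠ 0 := by
    intro h
    apply hUV
    exact_mod_cast h
  -- now the case analysis
  have hcontra : ∀ (hEq : (u : ℂ) * C = -((v : ℂ) * D)) (hdeg : (dc : ℝ) = dd), False := by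
    intro hEq hdeg
    have hEqR : u * C = -(v * D) := by exact_mod_cast hEq
    have : u * C * dc = v * D * dd := by linarith
    rw [hdeg, hEqR] at this
    have h3 : v * D * dd = 0 := by linarith
    have h4 : v * D = 0 := by
      rcases mul_eq_zero.mp h3 with h | h
      · exact h
      · exact absurd h hdd'.ne'
    apply hUVR
    rw [hEqR, h4, neg_zero]
  have hne1 : a ≠ c := by
    rintro rfl
    have e1 : classInner a d = 0 := classInner_irr_ne ha hd hnecd
    have e2 : classInner b a = 0 := classInner_irr_ne hb ha hneab.symm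
    rw [classInner_irr_self ha, e1, e2] at hmix2
    by_cases hbd : b = d
    · subst hbd
      rw [classInner_irr_self hb] at hmix2
      apply hcontra (by linear_combination hmix2)
      rw [show dc = da from by
        have := hdc1.symm.trans hda1
        exact_mod_cast this, show dd = db from by
        have := hdd1.symm.trans hdb1
        exact_mod_cast this]
      exact hdab
    · rw [classInner_irr_ne hb hd hbd] at hmix2
      apply hUV
      linear_combination hmix2
  have hne3 : b ≠ c := by
    rintro rfl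
    have e1 : classInner a b = 0 := classInner_irr_ne ha hb hneab
    have e2 : classInner b d = 0 := classInner_irr_ne hb hd hnecd
    rw [e1, e2, classInner_irr_self hb] at hmix2
    by_cases had : a = d
    · subst had
      rw [classInner_irr_self ha] at hmix2
      apply hcontra (by linear_combination -hmix2)
      rw [show dc = db from by
        have := hdc1.symm.trans hdb1
        exact_mod_cast this, show dd = da from by
        have := hdd1.symm.trans hda1
        exact_mod_cast this]
      exact hdab.symm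
    · rw [classInner_irr_ne ha hd had] at hmix2
      apply hUV
      linear_combination -hmix2
  have e1 : classInner a c = 0 := classInner_irr_ne ha hc hne1
  have e3 : classInner b c = 0 := classInner_irr_ne hb hc hne3
  rw [e1, e3] at hmix2
  have hE : classInner b d = classInner a d := by
    have : (v : ℂ) * D * (classInner b d - classInner a d) = 0 := by linear_combination hmix2
    rcases mul_eq_zero.mp this with h | h
    · exact absurd h hVV
    · exact sub_eq_zero.mp h
  have hne2 : a ≠ d := by
    rintro rfl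
    rw [classInner_irr_self ha, classInner_irr_ne hb ha hneab.symm] at hE
    exact zero_ne_one hE
  have e2 : classInner a d = 0 := classInner_irr_ne ha hd hne2
  have e4 : classInner b d = 0 := by rw [hE, e2]
  simp only [classInner_smul_left, classInner_smul_right, e1, e2, e3, e4, mul_zero, and_self]

end Cfsg.Agent.S1509
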