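import Mathlib
import Cfsg.Statements.S1510
import Cfsg.Agent.Lib.CoprimeParts

set_option autoImplicit false
open Cfsg

namespace Cfsg.Agent.S1510

open Cfsg.Agent.Lib.CoprimeParts
open scoped Pointwise

/-- Let L be a finite group with a normal subgroup K and a nontrivial cyclic subgroup W₁ of order coprime to its index, K ⊓ W₁ = ⊥ and K ⊔ W₁ = ⊤; let W₂ ≠ ⊥ be a cyclic subgroup of K with K ⊓ C_L(x) = W₂ for every non-identity x ∈ W₁, and suppose W₁ ⊔ W₂ has odd order. Then (W₁, W₂) is a self-normalising cyclic pair in L. -/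
theorem result {L : Type*} [Group L] [Fintype L] (K W₁ W₂ : Subgroup L) [hK : K.Normal] (hKW₁ : K ⊓ W₁ = ⊥) (hKW₁' : K ⊔ W₁ = ⊤) (hW₁ : W₁ ≠ ⊥) (hW₁c : IsCyclic W₁) (hHall : Nat.Coprime (Nat.card W₁) W₁.index) (hW₂ : W₂ ≠ ⊥) (hW₂c : IsCyclic W₂) (hW₂K : W₂ ≤ K) (hC : ∀ x ∈ W₁, x ≠ 1 → K ⊓ Subgroup.centralizer ({x} : Set L) = W₂) (hodd : Odd (Nat.card ↥(W₁ ⊔ W₂))) : Cfsg.IsSelfNormalizingCyclic W₁ W₂ := by
  classical
  have hinf : W₁ ⊓ W₂ = ⊥ := by
    rw [eq_bot_iff, ← hKW₁]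
    intro x hx
    exact ⟨hW₂K hx.2, hx.1⟩
  -- elements of W₁, W₂ commute
  have hcomm : ∀ a ∈ W₁, ∀ b ∈ W₂, a * b = b * a := by
    intro a ha b hb
    by_cases h1 : a = 1
    · simp [h1]
    · have := hC a ha h1
      rw [← this] at hb
      exact (Subgroup.mem_centralizer_singleton_iff.mp hb.2).symm
  -- every element of L is k * w
  have hfac : ∀ g : L, ∃ k ∈ K, ∃ w ∈ W₁, g = k * w := by
    intro g
    have h1 := Subgroup.normal_mul K W₁
    rw [hKW₁'] at h1
    have : g ∈ (K : Set L) * (W₁ : Set L) := by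
      rw [← h1]; trivial
    obtain ⟨k, hk, w, hw, rfl⟩ := Set.mem_mul.mp this
    exact ⟨k, hk, w, hw, rfl⟩
  -- orders
  have hcompl : Subgroup.IsComplement' K W₁ := by
    apply Subgroup.isComplement'_of_disjoint_and_mul_eq_univ
    · exact disjoint_iff.mpr hKW₁
    · have h1 := Subgroup.normal_mul K W₁
      rw [hKW₁'] at h1
      rw [← h1]; rfl
  have hcardK : Nat.card K = W₁.index := by
    have h1 := hcompl.card_mul_card
    have h2 := Subgroup.index_mul_card W₁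
    have hpos : 0 < Nat.card W₁ := Nat.card_pos
    exact Nat.eq_of_mul_eq_mul_right hpos (h1.trans h2.symm)
  have hW₂dvd : Nat.card W₂ ∣ Nat.card K := Subgroup.card_dvd_of_le hW₂K
  have hcop : Nat.Coprime (Nat.card W₁) (Nat.card W₂) := by
    rw [← hcardK] at hHall
    exact Nat.Coprime.coprime_dvd_right hW₂dvd hHall
  have hcyc : IsCyclic ↥(W₁ ⊔ W₂) := isCyclic_sup_of_coprime hW₁c hW₂c hcomm hcop
  -- W₁ abelian
  have hW₁ab : ∀ a ∈ W₁, ∀ b ∈ W₁, a * b = b * a := by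
    intro a ha b hb
    have := hW₁c.commGroup.mul_comm ⟨a, ha⟩ ⟨b, hb⟩
    exact congrArg Subtype.val this
  -- W abelian
  have hWab : ∀ a ∈ W₁ ⊔ W₂, ∀ b ∈ W₁ ⊔ W₂, a * b = b * a := by
    intro a ha b hb
    have := hcyc.commGroup.mul_comm ⟨a, ha⟩ ⟨b, hb⟩
    exact congrArg Subtype.val this
  refine ⟨hW₁, hW₂, hinf, hcomm, hcyc, ?_⟩
  intro X hX hne
  apply le_antisymm
  · intro g hg
    rw [Subgroup.mem_set_normalizer_iff] at hg
    obtain ⟨y, hy⟩ := hne
    have hy' := hX hy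
    have hyW : y ∈ W₁ ⊔ W₂ := hy'.1
    have hyW₁ : y ∉ W₁ := fun h => hy'.2 (Or.inl h)
    have hyW₂ : y ∉ W₂ := fun h => hy'.2 (Or.inr h)
    -- decomposition
    have hdecomp : ∀ z ∈ W₁ ⊔ W₂, ∃ a ∈ W₁, ∃ b ∈ W₂, z = a * b := by
      intro z hz
      have hle : W₁ ≤ Subgroup.normalizer (W₂ : Set L) := by
        rw [Subgroup.le_normalizer_iff]
        intro a ha b hb
        rw [hcomm a ha b hb]
        simpa using hb
      have h1 := Subgroup.coe_mul_of_left_le_normalizer_right W₁ W₂ hle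
      have hz' : z ∈ (W₁ : Set L) * (W₂ : Set L) := by
        rw [← h1]; exact hz
      obtain ⟨a, ha, b, hb, rfl⟩ := Set.mem_mul.mp hz'
      exact ⟨a, ha, b, hb, rfl⟩
    obtain ⟨x, hx, b, hb, rfl⟩ := hdecomp y hyW
    have hx1 : x ≠ 1 := by
      rintro rfl
      apply hyW₂
      simpa using hb
    have hgy : g * (x * b) * g⁻¹ ∈ X := (hg _).mp hy
    have hgyW : g * (x * b) * g⁻¹ ∈ W₁ ⊔ W₂ := (hX hgy).1
    obtain ⟨x', hx', b', hb', he⟩ := hdecomp _ hgyW
    obtain ⟨k, hk, w, hw, rfl⟩ := hfac g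
    -- x' = x
    have hxx' : x' = x := by
      have hm : x⁻¹ * x' ∈ K := by
        have e : x⁻¹ * x' = (x⁻¹ * (k * x * k⁻¹)) * ((k * w) * b * (k * w)⁻¹) * b'⁻¹ := by
          have h1 : x' = (k * w) * (x * b) * (k * w)⁻¹ * b'⁻¹ := by
            rw [he]; group
          rw [h1]
          have h2 : w * x = x * w := hW₁ab w hw x hx
          have h3 : (k * w) * (x * b) * (k * w)⁻¹ = (k * x * k⁻¹) * ((k * w) * b * (k * w)⁻¹) := by
            calc (k * w) * (x * b) * (k * w)⁻¹ = k * (w * x) * b * (w⁻¹ * k⁻¹) := by group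
              _ = k * (x * w) * b * (w⁻¹ * k⁻¹) := by rw [h2]
              _ = _ := by group
          rw [h3]
          group
        rw [e]
        refine K.mul_mem (K.mul_mem ?_ ?_) (K.inv_mem (hW₂K hb'))
        · have : x⁻¹ * (k * x * k⁻¹) = (x⁻¹ * k * x) * k⁻¹ := by group
          rw [this]
          refine K.mul_mem ?_ (K.inv_mem hk)
          have := hK.conj_mem k hk x⁻¹
          simpa using this
        · exact hK.conj_mem b (hW₂K hb) _
      have hm' : x⁻¹ * x' ∈ K ⊓ W₁ := ⟨hm, W₁.mul_mem (W₁.inv_mem hx) hx'⟩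
      rw [hKW₁] at hm'
      have : x⁻¹ * x' = 1 := hm'
      exact (inv_mul_eq_one.mp this).symm
    subst hxx'
    -- commuting parts: x is a power
    have hxa : x' ^ Nat.card W₁ = 1 := pow_card_subgroup_eq_one hx
    have hbb : b ^ Nat.card W₂ = 1 := pow_card_subgroup_eq_one hb
    have hbb' : b' ^ Nat.card W₂ = 1 := pow_card_subgroup_eq_one hb'
    obtain ⟨s, hs1, hs2⟩ := exists_exponent hcop.symm (Nat.card_pos.ne' : Nat.card W₁ ≠ 0)
    have e1 : (x' * b) ^ s = x' := mul_pow_eq_left (hcomm x' hx b hb) hs1 hs2 hxa hbb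
    have e2 : (x' * b') ^ s = x' := mul_pow_eq_left (hcomm x' hx b' hb') hs1 hs2 hxa hbb'
    have e3 : (k * w) * x' * (k * w)⁻¹ = x' := by
      have : ((k * w) * (x' * b) * (k * w)⁻¹) ^ s = (k * w) * ((x' * b) ^ s) * (k * w)⁻¹ := by
        rw [conj_pow]
      rw [he, e1, e2] at this
      exact this.symm
    -- so k commutes with x'
    have e4 : k * x' * k⁻¹ = x' := by
      have h2 : w * x' = x' * w := hW₁ab w hw x' hx
      calc k * x' * k⁻¹ = k * (x' * w) * w⁻¹ * k⁻¹ := by group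
        _ = k * (w * x') * w⁻¹ * k⁻¹ := by rw [h2]
        _ = (k * w) * x' * (k * w)⁻¹ := by group
        _ = x' := e3
    have hkW₂ : k ∈ W₂ := by
      rw [← hC x' hx hx1]
      refine Subgroup.mem_inf.mpr ⟨hk, ?_⟩
      rw [Subgroup.mem_centralizer_singleton_iff]
      calc k * x' = k * x' * k⁻¹ * k := by group
        _ = x' * k := by rw [e4]
    exact Subgroup.mul_mem _ (Subgroup.mem_sup_right hkW₂) (Subgroup.mem_sup_left hw)
  · intro w hw
    rw [Subgroup.mem_set_normalizer_iff]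
    intro y
    have key : ∀ y ∈ W₁ ⊔ W₂, w * y * w⁻¹ = y := by
      intro y hy
      rw [hWab w hw y hy]; group
    constructor
    · intro hy
      rw [key y (hX hy).1]; exact hy
    · intro hy
      have hyW : y ∈ W₁ ⊔ W₂ := by
        have := (hX hy).1
        have h2 := Subgroup.mul_mem _ (Subgroup.mul_mem _ (Subgroup.inv_mem _ hw) this) hw
        simpa [mul_assoc] using h2
      rw [key y hyW] at hy
      exact hy

end Cfsg.Agent.S1510
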