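import Mathlib
import Cfsg.Statements.S1511
import Cfsg.Agent.S1510
import Cfsg.Agent.Lib.CyclicTI
import Cfsg.Agent.Lib.CharLattice
import Cfsg.Agent.Lib.IndFunBasic
import Cfsg.Agent.Lib.CharInduction
import Cfsg.Agent.Lib.GenChar

set_option autoImplicit false
set_option linter.style.haveILetI false
set_option linter.unusedVariables false

open Cfsg Cfsg.Agent.Lib.CoprimeParts Cfsg.Agent.Lib.CyclicTI Cfsg.Agent.Lib.CharBasic
open Cfsg.Agent.Lib.CharInd Cfsg.Agent.Lib.GenChar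
open scoped ComplexConjugate Pointwise

namespace Cfsg.Agent.S1511

private theorem ti_aux {L : Type*} [Group L] [Fintype L] (K W₁ W₂ : Subgroup L) [hK : K.Normal]
    (hKW₁ : K ⊓ W₁ = ⊥) (hKW₁' : K ⊔ W₁ = ⊤) (hW₁c : IsCyclic W₁)
    (hHall : Nat.Coprime (Nat.card W₁) W₁.index) (hW₂K : W₂ ≤ K)
    (hC : ∀ x ∈ W₁, x ≠ 1 → K ⊓ Subgroup.centralizer ({x} : Set L) = W₂)
    (hcomm : ∀ a ∈ W₁, ∀ b ∈ W₂, a * b = b * a)
    {g y : L} (hyW : y ∈ W₁ ⊔ W₂) (hyW₂ : y ∉ W₂) (hgyW : g * y * g⁻¹ ∈ W₁ ⊔ W₂) : g ∈ W₁ ⊔ W₂ := by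
  classical
  have hfac : ∀ g : L, ∃ k ∈ K, ∃ w ∈ W₁, g = k * w := by
    intro g
    have h1 := Subgroup.normal_mul K W₁
    rw [hKW₁'] at h1
    have : g ∈ (K : Set L) * (W₁ : Set L) := by
      rw [← h1]; trivial
    obtain ⟨k, hk, w, hw, rfl⟩ := Set.mem_mul.mp this
    exact ⟨k, hk, w, hw, rfl⟩
  have hcompl : Subgroup.IsComplement' K W₁ := by
    apply Subgroup.isComplement'_of_disjoint_and_mul_eq_univ
    · exact disjoint_iff.mpr hKW₁
    · have h1 := Subgroup.normal_mul K W₁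
      rw [hKW₁'] at h1
      rw [← h1]; rfl
  have hcardK : Nat.card K = W₁.index := by
    have h1 := hcompl.card_mul_card
    have h2 := Subgroup.index_mul_card W₁
    have hpos : 0 < Nat.card W₁ := Nat.card_pos
    exact Nat.eq_of_mul_eq_mul_right hpos (h1.trans h2.symm)
  have hW₂dvd : Nat.card W₂ ∣ Nat.card K := Subgroup.card_dvd_of_le hW₂K
  have hcop : Nat.Coprime (Nat.card W₁) (Nat.card W₂) := by
    rw [← hcardK] at hHall
    exact Nat.Coprime.coprime_dvd_right hW₂dvd hHall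
  have hW₁ab : ∀ a ∈ W₁, ∀ b ∈ W₁, a * b = b * a := by
    intro a ha b hb
    have := hW₁c.commGroup.mul_comm ⟨a, ha⟩ ⟨b, hb⟩
    exact congrArg Subtype.val this
  have hdecomp : ∀ z ∈ W₁ ⊔ W₂, ∃ a ∈ W₁, ∃ b ∈ W₂, z = a * b := by
    intro z hz
    have hle : W₁ ≤ Subgroup.normalizer (W₂ : Set L) := by
      rw [Subgroup.le_normalizer_iff]
      intro a ha b hb
      rw [hcomm a ha b hb]
      simpa using hb
    have h1 := Subgroup.coe_mul_of_left_le_normalizer_right W₁ W₂ hle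
    have hz' : z ∈ (W₁ : Set L) * (W₂ : Set L) := by
      rw [← h1]; exact hz
    obtain ⟨a, ha, b, hb, rfl⟩ := Set.mem_mul.mp hz'
    exact ⟨a, ha, b, hb, rfl⟩
  obtain ⟨x, hx, b, hb, rfl⟩ := hdecomp y hyW
  have hx1 : x ≠ 1 := by
    rintro rfl
    apply hyW₂
    simpa using hb
  obtain ⟨x', hx', b', hb', he⟩ := hdecomp _ hgyW
  obtain ⟨k, hk, w, hw, rfl⟩ := hfac g
  have hxx' : x' = x := by
    have hm : x⁻¹ * x' ∈ K := by
      have e : x⁻¹ * x' = (x⁻¹ * (k * x * k⁻¹)) * ((k * w) * b * (k * w)⁻¹) * b'⁻¹ := by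
        have h1 : x' = (k * w) * (x * b) * (k * w)⁻¹ * b'⁻¹ := by
          rw [he]; group
        rw [h1]
        have h2 : w * x = x * w := hW₁ab w hw x hx
        have h3 : (k * w) * (x * b) * (k * w)⁻¹ = (k * x * k⁻¹) * ((k * w) * b * (k * w)⁻¹) := by
          calc (k * w) * (x * b) * (k * w)⁻¹ = k * (w * x) * b * (w⁻¹ * k⁻¹) := by group
            _ = k * (x * w) * b * (w⁻¹ * k⁻¹) := by rw [h2]
            _ = _ := by group
        rw [h3]
        group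
      rw [e]
      refine K.mul_mem (K.mul_mem ?_ ?_) (K.inv_mem (hW₂K hb'))
      · have : x⁻¹ * (k * x * k⁻¹) = (x⁻¹ * k * x) * k⁻¹ := by group
        rw [this]
        refine K.mul_mem ?_ (K.inv_mem hk)
        have := hK.conj_mem k hk x⁻¹
        simpa using this
      · exact hK.conj_mem b (hW₂K hb) _
    have hm' : x⁻¹ * x' ∈ K ⊓ W₁ := ⟨hm, W₁.mul_mem (W₁.inv_mem hx) hx'⟩
    rw [hKW₁] at hm'
    have : x⁻¹ * x' = 1 := hm'
    exact (inv_mul_eq_one.mp this).symm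
  subst hxx'
  have hxa : x' ^ Nat.card W₁ = 1 := pow_card_subgroup_eq_one hx
  have hbb : b ^ Nat.card W₂ = 1 := pow_card_subgroup_eq_one hb
  have hbb' : b' ^ Nat.card W₂ = 1 := pow_card_subgroup_eq_one hb'
  obtain ⟨s, hs1, hs2⟩ := exists_exponent hcop.symm (Nat.card_pos.ne' : Nat.card W₁ ≠ 0)
  have e1 : (x' * b) ^ s = x' := mul_pow_eq_left (hcomm x' hx b hb) hs1 hs2 hxa hbb
  have e2 : (x' * b') ^ s = x' := mul_pow_eq_left (hcomm x' hx b' hb') hs1 hs2 hxa hbb'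
  have e3 : (k * w) * x' * (k * w)⁻¹ = x' := by
    have : ((k * w) * (x' * b) * (k * w)⁻¹) ^ s = (k * w) * ((x' * b) ^ s) * (k * w)⁻¹ := by
      rw [conj_pow]
    rw [he, e1, e2] at this
    exact this.symm
  have e4 : k * x' * k⁻¹ = x' := by
    have h2 : w * x' = x' * w := hW₁ab w hw x' hx
    calc k * x' * k⁻¹ = k * (x' * w) * w⁻¹ * k⁻¹ := by group
      _ = k * (w * x') * w⁻¹ * k⁻¹ := by rw [h2]
      _ = (k * w) * x' * (k * w)⁻¹ := by group
      _ = x' := e3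
  have hkW₂ : k ∈ W₂ := by
    rw [← hC x' hx hx1]
    refine Subgroup.mem_inf.mpr ⟨hk, ?_⟩
    rw [Subgroup.mem_centralizer_singleton_iff]
    calc k * x' = k * x' * k⁻¹ * k := by group
      _ = x' * k := by rw [e4]
  exact Subgroup.mul_mem _ (Subgroup.mem_sup_right hkW₂) (Subgroup.mem_sup_left hw)

private theorem inner_ind_aux {G : Type*} [Group G] [Fintype G] (T : Set G) (K : Subgroup G)
    (hK : Subgroup.normalizer T = K)
    (hTI : ∀ g : G, ∀ t ∈ T, g * t * g⁻¹ ∈ T → g ∈ K) [Fintype K] (ψ θ : K → ℂ)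
    (hθ : IsClassFunction K θ) (hψT : ∀ x : K, (x : G) ∉ T → ψ x = 0)
    (hθT : ∀ x : K, (x : G) ∉ T → θ x = 0) (hψ1 : ψ 1 = 0) :
    classInner (indFun K ψ) (indFun K θ) = classInner ψ θ := by
  subst hK
  refine Cfsg.Agent.Lib.IndFunBasic.classInner_indFun_normalizer T ?_ ψ θ hθ hψT hθT hψ1
  intro g hg t ht hgt
  exact absurd (hTI g t ht hgt) hg

/-- Two differences of irreducible characters with inner product one share a term. -/
private theorem share_of_inner {G : Type*} [Group G] [Fintype G] {a b p q : G → ℂ}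
    (ha : IsIrrCharacter G a) (hb : IsIrrCharacter G b) (hp : IsIrrCharacter G p)
    (hq : IsIrrCharacter G q) (hab : a ≠ b) (hpq : p ≠ q)
    (h : classInner (a - b) (p - q) = 1) : (p = a ∧ q ≠ b) ∨ (q = b ∧ p ≠ a) := by
  classical
  rw [classInner_sub_left, classInner_sub_right, classInner_sub_right,
    classInner_irr ha hp, classInner_irr ha hq, classInner_irr hb hp, classInner_irr hb hq] at h
  by_cases h1 : a = p
  · subst h1
    by_cases h2 : b = q
    · subst h2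
      rw [if_pos rfl, if_neg hab, if_neg hab.symm, if_pos rfl] at h
      norm_num at h
    · exact Or.inl ⟨rfl, fun h3 => h2 h3.symm⟩
  · by_cases h2 : b = q
    · subst h2
      exact Or.inr ⟨rfl, fun h3 => h1 h3.symm⟩
    · exfalso
      rw [if_neg h1, if_neg h2] at h
      by_cases h3 : a = q <;> by_cases h4 : b = p
      · rw [if_pos h3, if_pos h4] at h
        norm_num at h
      · rw [if_pos h3, if_neg h4] at h
        norm_num at h
      · rw [if_neg h3, if_pos h4] at h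
        norm_num at h
      · rw [if_neg h3, if_neg h4] at h
        norm_num at h

/-- Let L be a finite group with K normal with complement W₁ ≠ 1 a cyclic Hall subgroup, and W₂ ≠ 1 a cyclic subgroup of K equal to C_K(x) for every non-identity x ∈ W₁, with W₁W₂ of odd order. Then there are a map μ from the linear characters of W = W₁ ⊔ W₂ to irreducible characters of L, injective, and a sign δ(ω) ∈ {1, −1} depending only on the values of ω on W₂, such that: for ω, ω' agreeing on W₂, the function induced to L from ω − ω' equals δ(ω) • (μ ω − μ ω'); μ ω x = δ(ω) ω x for x ∈ W outside W₂; every irreducible character of L not of the form μ ω vanishes on W outside W₂; and μ ω 1 − δ(ω) is an integer multiple of Nat.card W₁. -/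
theorem result {L : Type*} [Group L] [Fintype L] (K W₁ W₂ : Subgroup L) [hK : K.Normal] (hKW₁ : K ⊓ W₁ = ⊥) (hKW₁' : K ⊔ W₁ = ⊤) (hW₁ : W₁ ≠ ⊥) (hW₁c : IsCyclic W₁) (hHall : Nat.Coprime (Nat.card W₁) W₁.index) (hW₂ : W₂ ≠ ⊥) (hW₂c : IsCyclic W₂) (hW₂K : W₂ ≤ K) (hC : ∀ x ∈ W₁, x ≠ 1 → K ⊓ Subgroup.centralizer ({x} : Set L) = W₂) (hodd : Odd (Nat.card ↥(W₁ ⊔ W₂))) : ∃ (μ : (↥(W₁ ⊔ W₂) →* ℂˣ) → (L → ℂ)) (δ : (↥(W₁ ⊔ W₂) →* ℂˣ) → ℂ), Function.Injective μ ∧ (∀ ω, Cfsg.IsIrrCharacter L (μ ω)) ∧ (∀ ω, δ ω = 1 ∨ δ ω = -1) ∧ (∀ ω ω' : ↥(W₁ ⊔ W₂) →* ℂˣ, (∀ w : ↥(W₁ ⊔ W₂), (w : L) ∈ W₂ → ω w = ω' w) → δ ω = δ ω' ∧ Cfsg.indFun (W₁ ⊔ W₂) (fun w => (ω w : ℂ) - (ω' w : ℂ)) = δ ω • (μ ω - μ ω')) ∧ (∀ ω, ∀ w : ↥(W₁ ⊔ W₂), (w : L) ∉ W₂ → μ ω w = δ ω * (ω w : ℂ)) ∧ (∀ θ : L → ℂ, Cfsg.IsIrrCharacter L θ → (∀ ω, θ ≠ μ ω) → ∀ w : ↥(W₁ ⊔ W₂), (w : L) ∉ W₂ → θ w = 0) ∧ (∀ ω, ∃ n : ℤ, μ ω 1 - δ ω = n * (Nat.card W₁ : ℂ)) := by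

  classical
  have hSN := Cfsg.Agent.S1510.result K W₁ W₂ hKW₁ hKW₁' hW₁ hW₁c hHall hW₂ hW₂c hW₂K hC hodd
  obtain ⟨_, _, hinf, hcomm, hcyc, _⟩ := hSN
  letI : Fintype ↥(W₁ ⊔ W₂) := Fintype.ofFinite _
  have hWc : ∀ a b : ↥(W₁ ⊔ W₂), a * b = b * a := comm_of_cyclic hcyc
  haveI := finite_hom ↥(W₁ ⊔ W₂) hWc
  letI : Fintype (↥(W₁ ⊔ W₂) →* ℂˣ) := Fintype.ofFinite _
  let e : (↥(W₁ ⊔ W₂) →* ℂˣ) → (↥(W₁ ⊔ W₂) → ℂ) := fun f w => ((f w : ℂˣ) : ℂ)
  have hTI : ∀ g y : L, y ∈ W₁ ⊔ W₂ → y ∉ W₂ → g * y * g⁻¹ ∈ W₁ ⊔ W₂ → g ∈ W₁ ⊔ W₂ :=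
    fun g y h1 h2 h3 => ti_aux K W₁ W₂ hKW₁ hKW₁' hW₁c hHall hW₂K hC hcomm h1 h2 h3
  -- a nontrivial element of `W₁`
  obtain ⟨x₀, hx₀, hx₀1⟩ : ∃ x ∈ W₁, x ≠ 1 := by
    by_contra h
    push Not at h
    apply hW₁
    rw [eq_bot_iff]
    intro x hx
    exact h x hx
  have hx₀2 : x₀ ∉ W₂ := by
    intro h
    have : x₀ ∈ W₁ ⊓ W₂ := ⟨hx₀, h⟩
    rw [hinf] at this
    exact hx₀1 this
  let A : Set L := (↑(W₁ ⊔ W₂) : Set L) \ ↑W₂
  have hNA : Subgroup.normalizer A = W₁ ⊔ W₂ := by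
    apply le_antisymm
    · intro g hg
      rw [Subgroup.mem_set_normalizer_iff] at hg
      have h1 : x₀ ∈ A := ⟨Subgroup.mem_sup_left hx₀, hx₀2⟩
      exact hTI g x₀ h1.1 h1.2 ((hg x₀).1 h1).1
    · intro w hw
      rw [Subgroup.mem_set_normalizer_iff]
      intro y
      have key : ∀ y ∈ W₁ ⊔ W₂, w * y * w⁻¹ = y := by
        intro y hy
        have := hWc ⟨w, hw⟩ ⟨y, hy⟩
        have h2 : w * y = y * w := congrArg Subtype.val this
        rw [h2]
        group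
      constructor
      · intro hy
        rw [key y hy.1]
        exact hy
      · intro hy
        have hyW : y ∈ W₁ ⊔ W₂ := by
          have h2 := Subgroup.mul_mem _ (Subgroup.mul_mem _ (Subgroup.inv_mem _ hw) hy.1) hw
          simpa [mul_assoc] using h2
        rw [key y hyW] at hy
        exact hy
  have hclassW : ∀ θ : ↥(W₁ ⊔ W₂) → ℂ, IsClassFunction ↥(W₁ ⊔ W₂) θ := by
    intro θ g h
    rw [hWc h g, mul_assoc, mul_inv_cancel, mul_one]
  -- isometry
  have hiso : ∀ α β : ↥(W₁ ⊔ W₂) → ℂ, (∀ w : ↥(W₁ ⊔ W₂), (w : L) ∈ W₂ → α w = 0) →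
      (∀ w : ↥(W₁ ⊔ W₂), (w : L) ∈ W₂ → β w = 0) →
      classInner (indFun (W₁ ⊔ W₂) α) (indFun (W₁ ⊔ W₂) β) = classInner α β := by
    intro α β hα hβ
    refine inner_ind_aux A (W₁ ⊔ W₂) hNA ?_ α β (hclassW β) ?_ ?_ (hα 1 W₂.one_mem)
    · intro g t ht h
      exact hTI g t ht.1 ht.2 h.1
    · intro x hx
      apply hα
      by_contra hcon
      exact hx ⟨x.2, hcon⟩
    · intro x hx
      apply hβ
      by_contra hcon
      exact hx ⟨x.2, hcon⟩
  -- values of induced functions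
  have hval : ∀ (α : ↥(W₁ ⊔ W₂) → ℂ) (w : ↥(W₁ ⊔ W₂)), (w : L) ∉ W₂ → indFun (W₁ ⊔ W₂) α w = α w := by
    intro α w hw
    rw [indFun_apply]
    rw [Cfsg.Agent.Lib.CharInduction.sum_of_vanish_off (W₁ ⊔ W₂) _ ?_]
    · have h1 : ∀ n : ↥(W₁ ⊔ W₂), extendByZero (W₁ ⊔ W₂) α ((n : L)⁻¹ * (w : L) * n) = α w := by
        intro n
        have h2 : (n : L)⁻¹ * (w : L) * n = w := by
          have h3 : (n : L) * w = w * n := congrArg Subtype.val (hWc n w)
          calc (n : L)⁻¹ * (w : L) * n = (n : L)⁻¹ * ((w : L) * n) := by group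
            _ = (n : L)⁻¹ * ((n : L) * w) := by rw [h3]
            _ = w := by group
        rw [h2, extendByZero_coe]
      simp_rw [h1]
      simp only [Finset.sum_const, Finset.card_univ, nsmul_eq_mul]
      rw [← Nat.card_eq_fintype_card]
      field_simp [natCard_subgroup_ne_zero (W₁ ⊔ W₂)]
    · intro x hx
      apply extendByZero_of_not_mem
      intro h
      have h2 : x⁻¹ ∈ W₁ ⊔ W₂ := hTI x⁻¹ w w.2 hw (by simpa using h)
      exact hx (by simpa using Subgroup.inv_mem _ h2)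
  -- the relation and the differences
  let Rel : (↥(W₁ ⊔ W₂) →* ℂˣ) → (↥(W₁ ⊔ W₂) →* ℂˣ) → Prop :=
    fun a b => ∀ w : ↥(W₁ ⊔ W₂), (w : L) ∈ W₂ → a w = b w
  let D : (↥(W₁ ⊔ W₂) →* ℂˣ) → (↥(W₁ ⊔ W₂) →* ℂˣ) → (L → ℂ) :=
    fun a b => indFun (W₁ ⊔ W₂) (fun w => ((a w : ℂˣ) : ℂ) - ((b w : ℂˣ) : ℂ))
  have hDsub : ∀ a b, D a b = indFun (W₁ ⊔ W₂) (e a) - indFun (W₁ ⊔ W₂) (e b) := by
    intro a b
    exact indFun_sub _ (e a) (e b)
  have hDadd : ∀ a b c, D a b + D b c = D a c := by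
    intro a b c
    rw [hDsub, hDsub, hDsub]
    abel
  have hDgen : ∀ a b, IsGeneralizedCharacter L (D a b) := by
    intro a b
    rw [hDsub]
    exact isGen_sub (isGen_of_isChar (indFun_isCharacter _ (IsIrrCharacter.isCharacter (isIrrCharacter_of_hom a))))
      (isGen_of_isChar (indFun_isCharacter _ (IsIrrCharacter.isCharacter (isIrrCharacter_of_hom b))))
  have hD1 : ∀ a b, D a b 1 = 0 := by
    intro a b
    show indFun (W₁ ⊔ W₂) _ 1 = 0
    rw [indFun_one]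
    simp
  have hDself : ∀ a, D a a = 0 := by
    intro a
    rw [hDsub, sub_self]
  have hvan : ∀ a b, Rel a b → ∀ w : ↥(W₁ ⊔ W₂), (w : L) ∈ W₂ → ((a w : ℂˣ) : ℂ) - ((b w : ℂˣ) : ℂ) = 0 := by
    intro a b hab w hw
    rw [hab w hw, sub_self]
  have hinner : ∀ a b c d, Rel a b → Rel c d → classInner (D a b) (D c d) =
      (if a = c then 1 else 0) - (if a = d then 1 else 0) - (if b = c then 1 else 0) +
        (if b = d then 1 else 0) := by
    intro a b c d hab hcd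
    have h1 : classInner (D a b) (D c d) = classInner (e a - e b) (e c - e d) :=
      hiso _ _ (hvan a b hab) (hvan c d hcd)
    rw [h1, classInner_sub_left, classInner_sub_right, classInner_sub_right]
    rw [inner_hom a c, inner_hom a d, inner_hom b c, inner_hom b d]
    ring
  have hdiff : ∀ a b, Rel a b → a ≠ b → ∃ α β : L → ℂ, IsIrrCharacter L α ∧ IsIrrCharacter L β ∧ α ≠ β ∧
      D a b = α - β := by
    intro a b hab hne
    refine Cfsg.Agent.Lib.CharLattice.exists_sub_of_norm_two (hDgen a b) ?_ (hD1 a b)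
    rw [hinner a b a b hab hab, if_pos rfl, if_neg hne, if_neg hne.symm, if_pos rfl]
    norm_num
  have hsep : ∀ w : ↥(W₁ ⊔ W₂), (w : L) ∉ W₂ →
      ∃ lam : ↥(W₁ ⊔ W₂) →* ℂˣ, (∀ m : ↥(W₁ ⊔ W₂), (m : L) ∈ W₂ → lam m = 1) ∧ lam w ≠ 1 := by
    intro w hw
    obtain ⟨f, h1, h2⟩ := exists_sep hWc (W₂.subgroupOf (W₁ ⊔ W₂)) (x := w) (by
      rw [Subgroup.mem_subgroupOf]
      exact hw)
    exact ⟨f, fun m hm => h1 m (by rw [Subgroup.mem_subgroupOf]; exact hm), h2⟩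
  have hRrefl : ∀ a, Rel a a := fun a w _ => rfl
  have hRsymm : ∀ a b, Rel a b → Rel b a := fun a b h w hw => (h w hw).symm
  have hRtrans : ∀ a b c, Rel a b → Rel b c → Rel a c := fun a b c h h' w hw => (h w hw).trans (h' w hw)
  have htw : ∀ a lam : ↥(W₁ ⊔ W₂) →* ℂˣ, (∀ m : ↥(W₁ ⊔ W₂), (m : L) ∈ W₂ → lam m = 1) → Rel a (a * lam) := by
    intro a lam h w hw
    simp [h w hw]
  let x₀W : ↥(W₁ ⊔ W₂) := ⟨x₀, Subgroup.mem_sup_left hx₀⟩
  obtain ⟨lam₀, hlam₀, hlam₀x⟩ := hsep x₀W hx₀2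
  have hne0 : ∀ a : ↥(W₁ ⊔ W₂) →* ℂˣ, a ≠ a * lam₀ := by
    intro a h
    apply hlam₀x
    have h1 := congrArg (fun f : ↥(W₁ ⊔ W₂) →* ℂˣ => f x₀W) h
    simpa using h1.symm
  -- the sign and the bijection on a class
  have hclass : ∀ ω₀ : ↥(W₁ ⊔ W₂) →* ℂˣ, ∃ (d : ℂ) (μ : (↥(W₁ ⊔ W₂) →* ℂˣ) → (L → ℂ)), (d = 1 ∨ d = -1) ∧
      (∀ ω, Rel ω₀ ω → IsIrrCharacter L (μ ω)) ∧
      (∀ ω ω', Rel ω₀ ω → Rel ω₀ ω' → D ω ω' = d • (μ ω - μ ω')) := by
    intro ω₀
    set ω₁ := ω₀ * lam₀ with hω₁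
    have hR1 : Rel ω₀ ω₁ := htw ω₀ lam₀ hlam₀
    obtain ⟨a, b, ha, hb, hab, hD01⟩ := hdiff ω₀ ω₁ hR1 (hne0 ω₀)
    have hcase : ∀ ω, Rel ω₀ ω → ω ≠ ω₀ → ω ≠ ω₁ → ∃ p q : L → ℂ, IsIrrCharacter L p ∧ IsIrrCharacter L q ∧
        p ≠ q ∧ D ω₀ ω = p - q ∧ ((p = a ∧ q ≠ b) ∨ (q = b ∧ p ≠ a)) := by
      intro ω hω h0 h1
      obtain ⟨p, q, hp, hq, hpq, hD⟩ := hdiff ω₀ ω hω h0.symm
      refine ⟨p, q, hp, hq, hpq, hD, ?_⟩
      have h2 := hinner ω₀ ω₁ ω₀ ω hR1 hω
      rw [if_pos rfl, if_neg h0.symm, if_neg (hne0 ω₀).symm, if_neg h1.symm, hD01, hD] at h2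
      exact share_of_inner ha hb hp hq hab hpq (by rw [h2]; norm_num)
    by_cases hplus : ∀ ω, Rel ω₀ ω → IsIrrCharacter L (a - D ω₀ ω)
    · refine ⟨1, fun ω => a - D ω₀ ω, Or.inl rfl, hplus, ?_⟩
      intro ω ω' _ _
      beta_reduce
      rw [one_smul, ← hDadd ω₀ ω ω']
      abel
    · push Not at hplus
      obtain ⟨ω₂, hω₂, hnot⟩ := hplus
      have h20 : ω₂ ≠ ω₀ := by
        rintro rfl
        apply hnot
        rw [hDself, sub_zero]
        exact ha
      have h21 : ω₂ ≠ ω₁ := by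
        intro h
        apply hnot
        rw [h, hD01, sub_sub_cancel]
        exact hb
      obtain ⟨p, q, hp, hq, hpq, hD, hor⟩ := hcase ω₂ hω₂ h20 h21
      have hqb : q = b ∧ p ≠ a := by
        rcases hor with ⟨rfl, _⟩ | h
        · exfalso
          apply hnot
          rw [hD, sub_sub_cancel]
          exact hq
        · exact h
      obtain ⟨rfl, hpa⟩ := hqb
      refine ⟨-1, fun ω => q + D ω₀ ω, Or.inr rfl, ?_, ?_⟩
      · intro ω hω
        beta_reduce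
        by_cases h0 : ω = ω₀
        · subst h0
          simp only [hDself, add_zero]
          exact hb
        by_cases h1 : ω = ω₁
        · rw [h1, hD01, add_sub_cancel]
          exact ha
        by_cases h2 : ω = ω₂
        · rw [h2, hD, add_sub_cancel]
          exact hp
        obtain ⟨p', q', hp', hq', hpq', hD', hor'⟩ := hcase ω hω h0 h1
        rcases hor' with ⟨rfl, hq'b⟩ | ⟨rfl, hp'a⟩
        · exfalso
          have h3 := hinner ω₀ ω ω₀ ω₂ hω hω₂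
          rw [if_pos rfl, if_neg h20.symm, if_neg h0, if_neg h2, hD', hD, classInner_sub_left,
            classInner_sub_right, classInner_sub_right, classInner_irr hp' hp, classInner_irr hp' hq,
            classInner_irr hq' hp, classInner_irr hq' hq, if_neg hpa.symm, if_neg hab,
            if_neg hq'b] at h3
          by_cases h4 : q' = p
          · rw [if_pos h4] at h3
            norm_num at h3
          · rw [if_neg h4] at h3
            norm_num at h3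
        · rw [hD', add_sub_cancel]
          exact hp'
      · intro ω ω' _ _
        beta_reduce
        rw [← hDadd ω₀ ω ω']
        funext g
        simp
  -- global choice of representatives
  let st : Setoid (↥(W₁ ⊔ W₂) →* ℂˣ) := ⟨Rel, ⟨hRrefl, fun {a b} h => hRsymm a b h, fun {a b c} h h' => hRtrans a b c h h'⟩⟩
  let r : (↥(W₁ ⊔ W₂) →* ℂˣ) → (↥(W₁ ⊔ W₂) →* ℂˣ) := fun ω => (Quotient.mk st ω).out
  have hr : ∀ ω, Rel (r ω) ω := fun ω => Quotient.mk_out (s := st) ω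
  have hrr : ∀ a b, Rel a b → r a = r b := by
    intro a b h
    show (Quotient.mk st a).out = (Quotient.mk st b).out
    rw [Quotient.sound (s := st) h]
  choose d' μ' hd' hμ' hD' using hclass
  let μ : (↥(W₁ ⊔ W₂) →* ℂˣ) → (L → ℂ) := fun ω => μ' (r ω) ω
  let δ : (↥(W₁ ⊔ W₂) →* ℂˣ) → ℂ := fun ω => d' (r ω)
  have hμirr : ∀ ω, IsIrrCharacter L (μ ω) := fun ω => hμ' (r ω) ω (hr ω)
  have hδ : ∀ ω, δ ω = 1 ∨ δ ω = -1 := fun ω => hd' (r ω)
  have hDrel : ∀ a b, Rel a b → δ a = δ b ∧ D a b = δ a • (μ a - μ b) := by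
    intro a b h
    have e := hrr a b h
    refine ⟨by show d' (r a) = d' (r b); rw [e], ?_⟩
    have h1 := hD' (r a) a b (hr a) (hRtrans _ _ _ (hr a) h)
    have h2 : μ b = μ' (r a) b := by
      show μ' (r b) b = _
      rw [e]
    rw [h2]
    exact h1
  have hδne : ∀ ω, δ ω ≠ 0 := by
    intro ω
    rcases hδ ω with h | h <;> rw [h] <;> norm_num
  have hδsq : ∀ ω, δ ω * δ ω = 1 := by
    intro ω
    rcases hδ ω with h | h <;> rw [h] <;> norm_num
  have hinjrel : ∀ a b, Rel a b → μ a = μ b → a = b := by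
    intro a b h he
    by_contra hne
    have h1 := hinner a b a b h h
    rw [if_pos rfl, if_neg hne, if_neg (Ne.symm hne), if_pos rfl, (hDrel a b h).2, he, sub_self, smul_zero,
      classInner_zero_left] at h1
    norm_num at h1
  have hinj : Function.Injective μ := by
    intro a b he
    by_contra hne
    by_cases hrel : Rel a b
    · exact hne (hinjrel a b hrel he)
    set a' := a * lam₀ with ha'
    set b' := b * lam₀ with hb'
    have hRa : Rel a a' := htw a lam₀ hlam₀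
    have hRb : Rel b b' := htw b lam₀ hlam₀
    have h1 := hinner a a' b b' hRa hRb
    have hab' : a ≠ b' := by
      intro h
      exact hrel (hRtrans _ _ _ (by rw [h]; exact hRrefl _) (hRsymm _ _ hRb))
    have hab'' : a' ≠ b := by
      intro h
      exact hrel (hRtrans _ _ _ hRa (by rw [h]; exact hRrefl _))
    have hab3 : a' ≠ b' := by
      intro h
      exact hne (mul_right_cancel h)
    rw [if_neg hne, if_neg hab', if_neg hab'', if_neg hab3, (hDrel a a' hRa).2, (hDrel b b' hRb).2] at h1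
    rw [classInner_smul_left, classInner_smul_right] at h1
    have hne1 : μ a ≠ μ a' := fun h => hne0 a (hinjrel a a' hRa h)
    have hne2 : μ b ≠ μ b' := fun h => hne0 b (hinjrel b b' hRb h)
    rw [classInner_sub_left, classInner_sub_right, classInner_sub_right, classInner_irr (hμirr a) (hμirr b),
      classInner_irr (hμirr a) (hμirr b'), classInner_irr (hμirr a') (hμirr b),
      classInner_irr (hμirr a') (hμirr b'), if_pos he, he, if_neg hne2, ← he, if_neg hne1.symm] at h1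
    have hz : δ a * (conj (δ b) * (1 - 0 - 0 + if μ a' = μ b' then 1 else 0)) = 0 := by
      simpa using h1
    have hc : conj (δ b) ≠ 0 := by
      simpa using hδne b
    have h3 := (mul_eq_zero.1 ((mul_eq_zero.1 hz).resolve_left (hδne a))).resolve_left hc
    by_cases h4 : μ a' = μ b'
    · rw [if_pos h4] at h3
      norm_num at h3
    · rw [if_neg h4] at h3
      norm_num at h3
  refine ⟨μ, δ, hinj, hμirr, hδ, ?_, ?_⟩
  · intro ω ω' h
    exact hDrel ω ω' h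
  -- the values outside `W₂`
  have hcent : ∀ w : ↥(W₁ ⊔ W₂), (w : L) ∉ W₂ → Subgroup.centralizer ({(w : L)} : Set L) = W₁ ⊔ W₂ := by
    intro w hw
    apply le_antisymm
    · intro c hc
      have h1 : c * (w : L) = w * c := (Subgroup.mem_centralizer_iff.1 hc w (Set.mem_singleton _)).symm
      refine hTI c w w.2 hw ?_
      rw [h1, mul_inv_cancel_right]
      exact w.2
    · intro c hc
      rw [Subgroup.mem_centralizer_iff]
      intro y hy
      rw [Set.mem_singleton_iff] at hy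
      subst hy
      exact congrArg Subtype.val (hWc w ⟨c, hc⟩)
  have hkey : ∀ w : ↥(W₁ ⊔ W₂), (w : L) ∉ W₂ → (∀ ω, δ ω * μ ω w = ((ω w : ℂˣ) : ℂ)) ∧
      (∀ θ : L → ℂ, IsIrrCharacter L θ → (∀ ω, θ ≠ μ ω) → θ w = 0) := by
    intro w hw
    let g : (↥(W₁ ⊔ W₂) →* ℂˣ) → ℂ := fun ω => δ ω * μ ω w - ((ω w : ℂˣ) : ℂ)
    have hgrel : ∀ a b, Rel a b → g a = g b := by
      intro a b h
      obtain ⟨h1, h2⟩ := hDrel a b h
      have h3 : D a b w = ((a w : ℂˣ) : ℂ) - ((b w : ℂˣ) : ℂ) := hval _ w hw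
      rw [h2] at h3
      simp only [Pi.smul_apply, Pi.sub_apply, smul_eq_mul] at h3
      show δ a * μ a w - _ = δ b * μ b w - _
      rw [← h1]
      linear_combination h3
    obtain ⟨lam, hlam, hlamw⟩ := hsep w hw
    have hlamne : conj ((lam w : ℂˣ) : ℂ) ≠ 1 := by
      intro h
      apply hlamw
      apply Units.ext
      have := congrArg conj h
      simpa using this
    have hS : ∑ ω, conj ((ω w : ℂˣ) : ℂ) * g ω = 0 := by
      have h1 : ∑ ω, conj ((ω w : ℂˣ) : ℂ) * g ω =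
          conj ((lam w : ℂˣ) : ℂ) * ∑ ω, conj ((ω w : ℂˣ) : ℂ) * g ω := by
        have h0 : ∑ ω, conj (((ω * lam) w : ℂˣ) : ℂ) * g (ω * lam) = ∑ ω, conj ((ω w : ℂˣ) : ℂ) * g ω :=
          Fintype.sum_equiv (Equiv.mulRight lam) _ _ (fun _ => rfl)
        have h0' : ∑ ω, conj (((ω * lam) w : ℂˣ) : ℂ) * g (ω * lam) =
            conj ((lam w : ℂˣ) : ℂ) * ∑ ω, conj ((ω w : ℂˣ) : ℂ) * g ω := by
          rw [Finset.mul_sum]
          refine Finset.sum_congr rfl fun ω _ => ?_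
          simp only [MonoidHom.mul_apply, Units.val_mul, map_mul]
          rw [← hgrel ω (ω * lam) (htw ω lam hlam)]
          ring
        exact h0.symm.trans h0'
      have h2 : (1 - conj ((lam w : ℂˣ) : ℂ)) * ∑ ω, conj ((ω w : ℂˣ) : ℂ) * g ω = 0 := by
        rw [sub_mul, one_mul, ← h1, sub_self]
      exact (mul_eq_zero.1 h2).resolve_left (sub_ne_zero.2 hlamne.symm)
    have hom1 : ∀ ω : ↥(W₁ ⊔ W₂) →* ℂˣ, ((ω w : ℂˣ) : ℂ) * conj ((ω w : ℂˣ) : ℂ) = 1 := by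
      intro ω
      rw [Complex.mul_conj, Complex.normSq_eq_norm_sq, norm_hom]
      simp
    have hdconj : ∀ ω, δ ω * conj (δ ω) = 1 := by
      intro ω
      rcases hδ ω with h | h <;> rw [h] <;> simp
    have hsum1 : ∑ ω, μ ω w * conj (μ ω w) = (Nat.card ↥(W₁ ⊔ W₂) : ℂ) + ∑ ω, g ω * conj (g ω) := by
      have h1 : ∀ ω, μ ω w * conj (μ ω w) =
          1 + (conj ((ω w : ℂˣ) : ℂ) * g ω) + conj (conj ((ω w : ℂˣ) : ℂ) * g ω) + g ω * conj (g ω) := by
        intro ω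
        have h2 : δ ω * μ ω w = ((ω w : ℂˣ) : ℂ) + g ω := by
          show _ = ((ω w : ℂˣ) : ℂ) + (δ ω * μ ω w - ((ω w : ℂˣ) : ℂ))
          ring
        have h3 : μ ω w * conj (μ ω w) = (δ ω * μ ω w) * conj (δ ω * μ ω w) := by
          rw [map_mul]
          linear_combination (-(μ ω w) * conj (μ ω w)) * hdconj ω
        rw [h3, h2, map_add]
        rw [map_mul, Complex.conj_conj]
        linear_combination hom1 ω
      simp_rw [h1]
      rw [Finset.sum_add_distrib, Finset.sum_add_distrib, Finset.sum_add_distrib, hS, ← map_sum, hS]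
      simp only [Finset.sum_const, Finset.card_univ, nsmul_eq_mul, mul_one, map_zero, add_zero]
      have h5 := card_hom ↥(W₁ ⊔ W₂) hWc
      rw [← h5, Nat.card_eq_fintype_card]
    have hsum2 : ∑ θ : IrrCharacter L, (θ : L → ℂ) w * conj ((θ : L → ℂ) w) = (Nat.card ↥(W₁ ⊔ W₂) : ℂ) := by
      rw [sum_irr_mul_conj, if_pos (IsConj.refl _), hcent w hw]
    let m : (↥(W₁ ⊔ W₂) →* ℂˣ) → IrrCharacter L := fun ω => ⟨μ ω, hμirr ω⟩
    have hm : Function.Injective m := fun a b h => hinj (congrArg Subtype.val h)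
    have hsum3 : ∑ θ : IrrCharacter L, (θ : L → ℂ) w * conj ((θ : L → ℂ) w) =
        ∑ ω, μ ω w * conj (μ ω w) +
          ∑ θ ∈ (Finset.univ.image m)ᶜ, (θ : L → ℂ) w * conj ((θ : L → ℂ) w) := by
      rw [← Finset.sum_add_sum_compl (Finset.univ.image m), Finset.sum_image (fun a _ b _ h => hm h)]
    rw [hsum2, hsum1] at hsum3
    have hzero : ∑ ω, g ω * conj (g ω) +
        ∑ θ ∈ (Finset.univ.image m)ᶜ, (θ : L → ℂ) w * conj ((θ : L → ℂ) w) = 0 := by
      linear_combination -hsum3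
    have hreal : ∑ ω, Complex.normSq (g ω) +
        ∑ θ ∈ (Finset.univ.image m)ᶜ, Complex.normSq ((θ : L → ℂ) w) = 0 := by
      have h1 : ((∑ ω, Complex.normSq (g ω) +
        ∑ θ ∈ (Finset.univ.image m)ᶜ, Complex.normSq ((θ : L → ℂ) w) : ℝ) : ℂ) = 0 := by
        push_cast
        rw [← hzero]
        simp_rw [Complex.mul_conj]
      exact_mod_cast h1
    have hnn1 : 0 ≤ ∑ ω, Complex.normSq (g ω) := Finset.sum_nonneg fun _ _ => Complex.normSq_nonneg _
    have hnn2 : 0 ≤ ∑ θ ∈ (Finset.univ.image m)ᶜ, Complex.normSq ((θ : L → ℂ) w) :=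
      Finset.sum_nonneg fun _ _ => Complex.normSq_nonneg _
    have h01 : ∑ ω, Complex.normSq (g ω) = 0 := by linarith
    have h02 : ∑ θ ∈ (Finset.univ.image m)ᶜ, Complex.normSq ((θ : L → ℂ) w) = 0 := by linarith
    constructor
    · intro ω
      have h3 := (Finset.sum_eq_zero_iff_of_nonneg (fun _ _ => Complex.normSq_nonneg _)).1 h01 ω (Finset.mem_univ _)
      have h4 : g ω = 0 := Complex.normSq_eq_zero.1 h3
      exact sub_eq_zero.1 h4
    · intro θ hθ hne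
      have hmem : (⟨θ, hθ⟩ : IrrCharacter L) ∈ (Finset.univ.image m)ᶜ := by
        rw [Finset.mem_compl]
        intro h
        obtain ⟨ω, _, hω⟩ := Finset.mem_image.1 h
        exact hne ω (congrArg Subtype.val hω).symm
      have h3 := (Finset.sum_eq_zero_iff_of_nonneg (fun _ _ => Complex.normSq_nonneg _)).1 h02 _ hmem
      exact Complex.normSq_eq_zero.1 h3
  refine ⟨?_, ?_, ?_⟩
  · intro ω w hw
    have h1 := (hkey w hw).1 ω
    rw [← h1, ← mul_assoc, hδsq, one_mul]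
  · intro θ hθ hne w hw
    exact (hkey w hw).2 θ hθ hne
  · intro ω
    letI : Fintype W₁ := Fintype.ofFinite _
    let ι : W₁ →* ↥(W₁ ⊔ W₂) := Subgroup.inclusion le_sup_left
    let ω₁ : W₁ →* ℂˣ := ω.comp ι
    obtain ⟨n, hn⟩ := classInner_char_irr (isCharacter_restrict W₁ (IsIrrCharacter.isCharacter (hμirr ω)))
      (isIrrCharacter_of_hom ω₁)
    unfold classInner at hn
    set c : ℂ := μ ω 1 - δ ω with hc
    have hterm : ∀ u : W₁, μ ω u * conj ((ω₁ u : ℂˣ) : ℂ) = (if u = 1 then c else 0) + δ ω := by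
      intro u
      by_cases hu : u = 1
      · subst hu
        simp [hc, ω₁]
      · rw [if_neg hu, zero_add]
        have hu2 : ((ι u : ↥(W₁ ⊔ W₂)) : L) ∉ W₂ := by
          intro h
          have : (u : L) ∈ W₁ ⊓ W₂ := ⟨u.2, h⟩
          rw [hinf] at this
          exact hu (Subtype.ext this)
        have h1 := (hkey (ι u) hu2).1 ω
        have h2 : μ ω u = δ ω * ((ω₁ u : ℂˣ) : ℂ) := by
          show μ ω u = δ ω * ((ω (ι u) : ℂˣ) : ℂ)
          rw [← h1, ← mul_assoc, hδsq, one_mul]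
          rfl
        rw [h2, mul_assoc, Complex.mul_conj, Complex.normSq_eq_norm_sq, norm_hom]
        simp
    simp_rw [hterm] at hn
    rw [Finset.sum_add_distrib, Finset.sum_ite_eq' Finset.univ (1 : W₁)] at hn
    simp only [Finset.mem_univ, if_true, Finset.sum_const, Finset.card_univ, nsmul_eq_mul] at hn
    rw [← Nat.card_eq_fintype_card] at hn
    have hW₁0 : (Nat.card W₁ : ℂ) ≠ 0 := natCard_subgroup_ne_zero W₁
    have h3 : c = ((n : ℂ) - δ ω) * (Nat.card W₁ : ℂ) := by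
      field_simp at hn
      linear_combination hn
    rcases hδ ω with h | h
    · refine ⟨(n : ℤ) - 1, ?_⟩
      rw [h3, h]
      push_cast
      ring
    · refine ⟨(n : ℤ) + 1, ?_⟩
      rw [h3, h]
      push_cast
      ring


end Cfsg.Agent.S1511
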