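import Mathlib
import Cfsg.Statements.S1512
import Cfsg.Agent.Lib.CosetConjCyc

set_option autoImplicit false
open Cfsg

namespace Cfsg.Agent.S1512

open Cfsg.Agent.Lib.CosetConjCyc

/-- Let K be a normal subgroup of the finite group L and x a non-identity element whose order is coprime to the order of K, such that K ⊓ C_L(y) = W₂ for every non-identity element y of the cyclic group generated by x. Then the number of conjugacy classes of K mapped to themselves by conjugation by x is at most Nat.card W₂. -/
theorem result {L : Type*} [Group L] [Finite L] (K W₂ : Subgroup L) [hK : K.Normal] (x : L) (hx1 : x ≠ 1) (hx : Nat.Coprime (orderOf x) (Nat.card K)) (hC : ∀ y ∈ Subgroup.zpowers x, y ≠ 1 → K ⊓ Subgroup.centralizer ({y} : Set L) = W₂) : Nat.card {C : ConjClasses K // ConjClasses.map (MulEquiv.toMonoidHom ((MulAut.conjNormal x : MulAut K))) C = C} ≤ Nat.card W₂ := by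
  classical
  have hW : K ⊓ Subgroup.centralizer ({x} : Set L) = W₂ := hC x (Subgroup.mem_zpowers x) hx1
  have hnorm : x ∈ Subgroup.normalizer (K : Set L) := by
    rw [Subgroup.normalizer_eq_top]; trivial
  -- each fixed class contains an element of W₂
  have key : ∀ C : {C : ConjClasses K // ConjClasses.map (MulEquiv.toMonoidHom ((MulAut.conjNormal x : MulAut K))) C = C},
      ∃ w : W₂, ∃ h : (w : L) ∈ K, ConjClasses.mk (⟨w, h⟩ : K) = C.1 := by
    rintro ⟨C, hC'⟩
    obtain ⟨n, rfl⟩ := ConjClasses.mk_surjective C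
    have h1 : ConjClasses.mk (MulAut.conjNormal x n) = ConjClasses.mk n := by
      exact hC'
    have h2 := ConjClasses.mk_eq_mk_iff_isConj.mp h1
    obtain ⟨k, hk⟩ := isConj_comm.mp h2 |> isConj_iff.mp
    have h3 : x * (n : L) * x⁻¹ = (k : L) * n * (k : L)⁻¹ := by
      have := congrArg Subtype.val hk
      simpa [MulAut.conjNormal_apply] using this.symm
    obtain ⟨t, ht, hcomm⟩ := exists_conj_commute hnorm hx k.2 h3
    have hmem : (t * (n : L) * t⁻¹) ∈ K := K.mul_mem (K.mul_mem ht n.2) (K.inv_mem ht)
    have hW₂ : (t * (n : L) * t⁻¹) ∈ W₂ := by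
      rw [← hW]
      refine Subgroup.mem_inf.mpr ⟨hmem, ?_⟩
      rw [Subgroup.mem_centralizer_singleton_iff]
      exact hcomm.symm
    refine ⟨⟨_, hW₂⟩, hmem, ?_⟩
    apply ConjClasses.mk_eq_mk_iff_isConj.mpr
    apply isConj_comm.mp
    apply isConj_iff.mpr
    refine ⟨⟨t, ht⟩, ?_⟩
    apply Subtype.ext
    simp
  choose f hf hf' using key
  have hinj : Function.Injective f := by
    intro C D hCD
    apply Subtype.ext
    rw [← hf' C, ← hf' D]
    congr 2
    all_goals (first | rw [hCD] | skip)
  exact Nat.card_le_card_of_injective f hinj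

end Cfsg.Agent.S1512
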