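import Mathlib
import Cfsg.Statements.S1513
import Cfsg.Agent.S1491

set_option autoImplicit false
set_option linter.style.haveILetI false
set_option linter.unusedVariables false

open Cfsg Cfsg.Agent.Lib.CoprimeDeg Cfsg.Agent.Lib.CharKernel Cfsg.Agent.Lib.CharBasic
open Cfsg.Agent.Lib.CharInd Cfsg.Agent.Lib.CharInduction
open Cfsg.Agent.Lib.GlaubCyc Cfsg.Agent.Lib.GlaubCorr Cfsg.Agent.Lib.GlaubCycVal Cfsg.Agent.Lib.GlaubBase
open scoped ComplexConjugate

namespace Cfsg.Agent.S1513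

/-- The number of `H`-invariant irreducible characters of a normal subgroup `K` coprime to `H`. -/
private theorem card_fixed_eq {G : Type*} [Group G] [Fintype G] (K H : Subgroup G) [hK : K.Normal]
    [Fintype K] (hcop : (Nat.card K).Coprime (Nat.card H)) (hsolv : Group.IsSolvable H) :
    Nat.card (Cfsg.Agent.Lib.GlaubCyc.XS K H) = Nat.card (IrrCharacter ((K ⊓ Subgroup.centralizer (H : Set G) : Subgroup G))) := by
  classical
  haveI : Fintype H := Fintype.ofFinite _
  have hnorm : ∀ s ∈ H, ∀ g ∈ K, s * g * s⁻¹ ∈ K := fun s _ g hg => hK.conj_mem g hg s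
  have h1 : Nat.card (Cfsg.Agent.Lib.GlaubCyc.XS K H) = Nat.card (XA (conjHom K H hnorm).range) := by
    apply Nat.card_congr
    exact Equiv.subtypeEquivRight fun χ => (invA_conjHom_iff K H hnorm χ).symm
  rw [h1]
  have hsolv' : Group.IsSolvable (conjHom K H hnorm).range :=
    Group.isSolvable_of_surjective (conjHom K H hnorm).rangeRestrict_surjective
  haveI : Fintype (↥(K ⊓ Subgroup.centralizer (H : Set G) : Subgroup G)) := Fintype.ofFinite _
  exact card_XA_eq_card_irr _ K _ (↥(K ⊓ Subgroup.centralizer (H : Set G) : Subgroup G)) _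
    (fixModel_inclusion K H (K ⊓ Subgroup.centralizer (H : Set G)) hnorm rfl inf_le_left) rfl hsolv'
    (Nat.Coprime.coprime_dvd_right (card_range_conjHom_dvd K H hnorm) hcop)

private theorem card_irr_of_comm {A : Type*} [Group A] [Finite A] (hc : ∀ a b : A, a * b = b * a) :
    Nat.card (IrrCharacter A) = Nat.card A := by
  classical
  letI := Fintype.ofFinite A
  have h1 := sum_irr_mul_conj (G := A) 1 1
  have h2 : ∀ β : IrrCharacter A, (β : A → ℂ) 1 * conj ((β : A → ℂ) 1) = 1 := by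
    intro β
    rw [Cfsg.Agent.Lib.CharCodegP.irr_one_of_comm hc β.2]
    simp
  simp_rw [h2] at h1
  rw [if_pos (IsConj.refl _)] at h1
  have h3 : Subgroup.centralizer ({1} : Set A) = ⊤ := by
    ext x
    simp [Subgroup.mem_centralizer_iff]
  rw [h3] at h1
  simp only [Subgroup.card_top, Finset.sum_const, Finset.card_univ, nsmul_eq_mul, mul_one] at h1
  rw [Nat.card_eq_fintype_card (α := IrrCharacter A)]
  exact_mod_cast h1

/-- Let L be a finite group with K normal with complement W₁ ≠ 1 a cyclic Hall subgroup, and W₂ ≠ 1 a cyclic subgroup of K equal to C_K(x) for every non-identity x ∈ W₁, with W₁W₂ of odd order. For an irreducible character θ of K: if θ is not fixed under conjugation by some element of W₁, then the function induced from θ to L is an irreducible character of L; and the irreducible characters of K fixed by all of W₁ are exactly Nat.card W₂ in number, each inducing to the sum of Nat.card W₁ pairwise distinct irreducible characters of L. -/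
theorem result {L : Type*} [Group L] [Fintype L] (K W₁ W₂ : Subgroup L) [hK : K.Normal] (hKW₁ : K ⊓ W₁ = ⊥) (hKW₁' : K ⊔ W₁ = ⊤) (hW₁ : W₁ ≠ ⊥) (hW₁c : IsCyclic W₁) (hHall : Nat.Coprime (Nat.card W₁) W₁.index) (hW₂ : W₂ ≠ ⊥) (hW₂c : IsCyclic W₂) (hW₂K : W₂ ≤ K) (hC : ∀ x ∈ W₁, x ≠ 1 → K ⊓ Subgroup.centralizer ({x} : Set L) = W₂) (hodd : Odd (Nat.card ↥(W₁ ⊔ W₂))) : (∀ θ : K → ℂ, Cfsg.IsIrrCharacter K θ → (∃ x ∈ W₁, (fun k : K => θ ⟨x * k * x⁻¹, hK.conj_mem (k : L) k.2 x⟩) ≠ θ) → Cfsg.IsIrrCharacter L (Cfsg.indFun K θ)) ∧ Nat.card {θ : Cfsg.IrrCharacter K // ∀ x ∈ W₁, (fun k : K => (θ : K → ℂ) ⟨x * k * x⁻¹, hK.conj_mem (k : L) k.2 x⟩) = θ} = Nat.card W₂ ∧ (∀ θ : K → ℂ, Cfsg.IsIrrCharacter K θ → (∀ x ∈ W₁, (fun k : K => θ ⟨x * k * x⁻¹, hK.conj_mem (k : L) k.2 x⟩) = θ) → ∃ C : Finset (L → ℂ), C.card = Nat.card W₁ ∧ (∀ μ ∈ C, Cfsg.IsIrrCharacter L μ) ∧ Cfsg.indFun K θ = ∑ μ ∈ C, μ) := by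

  classical
  letI : Fintype K := Fintype.ofFinite _
  letI : Fintype W₁ := Fintype.ofFinite _
  letI : Fintype W₂ := Fintype.ofFinite _
  have hcompl : K.IsComplement' W₁ := by
    refine Subgroup.isComplement'_of_disjoint_and_mul_eq_univ ?_ ?_
    · rw [disjoint_iff]
      exact hKW₁
    · have h := Subgroup.normal_mul K W₁
      rw [← h, hKW₁']
      rfl
  have hcard1 : W₁.index = Nat.card K := hcompl.index_eq_card
  have hcard2 : K.index = Nat.card W₁ := hcompl.symm.index_eq_card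
  have hcop : (Nat.card K).Coprime (Nat.card W₁) := by
    rw [← hcard1]
    exact hHall.symm
  have hdec : ∀ x : L, ∃ k ∈ K, ∃ t ∈ W₁, x = k * t := by
    intro x
    have h1 : x ∈ ((K ⊔ W₁ : Subgroup L) : Set L) := by
      rw [hKW₁']
      trivial
    rw [Subgroup.normal_mul] at h1
    obtain ⟨k, hk, t, ht, rfl⟩ := Set.mem_mul.1 h1
    exact ⟨k, hk, t, ht, rfl⟩
  have hW₂comm : ∀ a b : W₂, a * b = b * a := by
    letI : CommGroup W₂ := IsCyclic.commGroup
    intro a b
    exact mul_comm a b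
  -- cyclic subgroups generated by a non-identity element
  have hcentY : ∀ y ∈ W₁, y ≠ 1 →
      K ⊓ Subgroup.centralizer ((Subgroup.zpowers y : Subgroup L) : Set L) = W₂ := by
    intro y hy hy1
    rw [← hC y hy hy1]
    congr 1
    ext u
    simp only [Subgroup.mem_centralizer_iff]
    constructor
    · intro h a ha
      rw [Set.mem_singleton_iff] at ha
      rw [ha]
      exact h y (Subgroup.mem_zpowers y)
    · intro h a ha
      obtain ⟨n, rfl⟩ := ha
      have h1 : y * u = u * y := h y (Set.mem_singleton y)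
      have h2 : Commute y u := h1
      exact (h2.zpow_left n)
  obtain ⟨g, hg⟩ := hW₁c
  have hg1 : (g : L) ≠ 1 := by
    intro h
    apply hW₁
    rw [eq_bot_iff]
    intro x hx
    obtain ⟨n, hn⟩ := hg ⟨x, hx⟩
    have h2 : (x : L) = ((g ^ n : W₁) : L) := by rw [show g ^ n = ⟨x, hx⟩ from hn]
    rw [Subgroup.mem_bot, h2]
    push_cast
    rw [h, one_zpow]
  have hcentW : K ⊓ Subgroup.centralizer (W₁ : Set L) = W₂ := by
    have h1 := hC (g : L) g.2 hg1
    rw [← h1]
    congr 1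
    ext u
    simp only [Subgroup.mem_centralizer_iff]
    constructor
    · intro h a ha
      rw [Set.mem_singleton_iff] at ha
      rw [ha]
      exact h _ g.2
    · intro h a ha
      obtain ⟨n, hn⟩ := hg ⟨a, ha⟩
      have h2 : a = ((g ^ n : W₁) : L) := by rw [show g ^ n = ⟨a, ha⟩ from hn]
      rw [h2]
      push_cast
      have h3 : (g : L) * u = u * g := h _ (Set.mem_singleton _)
      have h4 : Commute (g : L) u := h3
      exact (h4.zpow_left n)
  have hsolvH : ∀ H : Subgroup L, H ≤ W₁ → Group.IsSolvable H := by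
    intro H hH
    haveI := (⟨g, hg⟩ : IsCyclic W₁)
    letI : CommGroup W₁ := IsCyclic.commGroup
    have hc : ∀ a b : H, a * b = b * a := by
      intro a b
      apply Subtype.ext
      have h1 : (⟨a, hH a.2⟩ : W₁) * ⟨b, hH b.2⟩ = ⟨b, hH b.2⟩ * ⟨a, hH a.2⟩ := mul_comm _ _
      exact congrArg (fun z : W₁ => (z : L)) h1
    exact Group.isSolvable_of_comm hc
  have hcount : Nat.card (Cfsg.Agent.Lib.GlaubCyc.XS K W₁) = Nat.card W₂ := by
    rw [card_fixed_eq K W₁ hcop (hsolvH W₁ le_rfl)]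
    rw [hcentW]
    exact card_irr_of_comm hW₂comm
  have hcountY : ∀ y ∈ W₁, y ≠ 1 →
      Nat.card (Cfsg.Agent.Lib.GlaubCyc.XS K (Subgroup.zpowers y)) = Nat.card W₂ := by
    intro y hy hy1
    have hle : Subgroup.zpowers y ≤ W₁ := (Subgroup.zpowers_le).2 hy
    have hcop' : (Nat.card K).Coprime (Nat.card (Subgroup.zpowers y)) :=
      Nat.Coprime.coprime_dvd_right (Subgroup.card_dvd_of_le hle) hcop
    rw [card_fixed_eq K _ hcop' (hsolvH _ hle)]
    rw [hcentY y hy hy1]
    exact card_irr_of_comm hW₂comm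
  -- fixed by one nonidentity element means fixed by all of `W₁`
  have hfix : ∀ (θ : IrrCharacter K) (y : L), y ∈ W₁ → y ≠ 1 →
      (fun k : K => (θ : K → ℂ) ⟨y * k * y⁻¹, hK.conj_mem (k : L) k.2 y⟩) = θ →
      ∀ x ∈ W₁, (fun k : K => (θ : K → ℂ) ⟨x * k * x⁻¹, hK.conj_mem (k : L) k.2 x⟩) = θ := by
    intro θ y hy hy1 hθ
    have hinv : Cfsg.Agent.Lib.GlaubCyc.InvS K (Subgroup.zpowers y) (θ : K → ℂ) := by
      -- powers of `y` preserve `θ`: natural powers suffice since the group is finite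
      have hpow : ∀ m : ℕ, ∀ g : K, (θ : K → ℂ) ⟨y ^ m * g * (y ^ m)⁻¹, hK.conj_mem (g : L) g.2 _⟩ = (θ : K → ℂ) g := by
        intro m
        induction m with
        | zero =>
          intro g
          simp
        | succ m ih =>
          intro g
          have h1 := ih ⟨y * g * y⁻¹, hK.conj_mem (g : L) g.2 y⟩
          have h2 := congrFun hθ g
          rw [← h2, ← h1]
          exact congrArg (θ : K → ℂ) (Subtype.ext (by simp [pow_succ, mul_assoc]))
      intro s hs g g' hg'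
      obtain ⟨m, rfl⟩ : s ∈ Submonoid.powers y := mem_powers_iff_mem_zpowers.2 hs
      have h1 := hpow m g
      rw [← h1]
      exact congrArg (θ : K → ℂ) (Subtype.ext hg')
    let f : Cfsg.Agent.Lib.GlaubCyc.XS K W₁ → Cfsg.Agent.Lib.GlaubCyc.XS K (Subgroup.zpowers y) :=
      fun χ => ⟨χ.1, fun s hs => χ.2 s ((Subgroup.zpowers_le).2 hy hs)⟩
    have hf : Function.Injective f := by
      intro a b h
      have h' : a.1 = b.1 := congrArg (fun z : Cfsg.Agent.Lib.GlaubCyc.XS K (Subgroup.zpowers y) => z.1) h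
      exact Subtype.ext h'
    have hbij : Function.Bijective f := by
      refine (Nat.bijective_iff_injective_and_card f).2 ⟨hf, ?_⟩
      rw [hcount, hcountY y hy hy1]
    obtain ⟨χ, hχ⟩ := hbij.2 ⟨θ, hinv⟩
    have hχθ : χ.1 = θ := congrArg Subtype.val hχ
    intro x hx
    funext k
    have := χ.2 x hx k ⟨x * k * x⁻¹, hK.conj_mem (k : L) k.2 x⟩ rfl
    rw [hχθ] at this
    exact this
  -- all conjugation by L factors through W₁
  have hconj : ∀ (θ : IrrCharacter K) (x : L) (k t : L) (hk : k ∈ K), x = k * t →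
      (fun n : K => (θ : K → ℂ) ⟨x * n * x⁻¹, hK.conj_mem (n : L) n.2 x⟩) =
      (fun n : K => (θ : K → ℂ) ⟨t * n * t⁻¹, hK.conj_mem (n : L) n.2 t⟩) := by
    intro θ x k t hk hx
    funext n
    have h := isClassFunction_of_isCharacter (IsIrrCharacter.isCharacter θ.2)
      (⟨t * n * t⁻¹, hK.conj_mem (n : L) n.2 t⟩ : K) ⟨k, hk⟩
    show (θ : K → ℂ) ⟨x * n * x⁻¹, _⟩ = (θ : K → ℂ) ⟨t * n * t⁻¹, _⟩
    rw [← h]
    refine congrArg (θ : K → ℂ) (Subtype.ext ?_)
    subst hx
    simp [mul_assoc]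
  refine ⟨?_, ?_, ?_⟩
  · -- first claim
    rintro θ hθ ⟨x, hx, hne⟩
    have hc := IsIrrCharacter.isCharacter hθ
    refine isIrrCharacter_of_norm_one (indFun_isCharacter K hc) ?_
    have h1 := natCard_mul_classInner_indFun_self K hK θ hθ
    have h2 : Nat.card {g : L // conjBy K hK g θ = θ} = Nat.card K := by
      apply Nat.card_congr
      refine Equiv.subtypeEquivRight ?_
      intro g
      obtain ⟨k, hk, t, ht, hgd⟩ := hdec g
      have h3 := hconj ⟨θ, hθ⟩ g k t hk hgd
      constructor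
      · intro h4
        have h5 : (fun n : K => θ ⟨g * n * g⁻¹, hK.conj_mem (n : L) n.2 g⟩) = θ := h4
        have h6 : (fun n : K => θ ⟨t * n * t⁻¹, hK.conj_mem (n : L) n.2 t⟩) = θ := h3.symm.trans h5
        by_cases ht1 : t = 1
        · subst ht1
          rw [hgd, mul_one]
          exact hk
        · exact absurd (hfix ⟨θ, hθ⟩ t ht ht1 h6 x hx) hne
      · intro h4
        have h5 : g = 1 * g * 1 := by simp
        have : (fun n : K => θ ⟨g * n * g⁻¹, hK.conj_mem (n : L) n.2 g⟩) = θ := by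
          funext n
          have h6 := isClassFunction_of_isCharacter hc n ⟨g, h4⟩
          exact h6
        exact this
    rw [h2] at h1
    have hne0 : (Nat.card K : ℂ) ≠ 0 := natCard_subgroup_ne_zero K
    exact mul_left_cancel₀ hne0 (by rw [h1, mul_one])
  · -- second claim
    rw [← hcount]
    apply Nat.card_congr
    refine Equiv.subtypeEquivRight ?_
    intro χ
    constructor
    · intro h s hs g g' hg'
      have := congrFun (h s hs) g
      rw [← this]
      exact congrArg (χ.1 : K → ℂ) (Subtype.ext hg')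
    · intro h x hx
      funext k
      exact h x hx k _ rfl
  · -- third claim
    intro θ hθ hfixθ
    have hab : ∀ x ∈ (⊤ : Subgroup L), ∀ y ∈ (⊤ : Subgroup L), x * y * x⁻¹ * y⁻¹ ∈ K := by
      intro x _ y _
      obtain ⟨k₁, hk₁, t₁, ht₁, rfl⟩ := hdec x
      obtain ⟨k₂, hk₂, t₂, ht₂, rfl⟩ := hdec y
      haveI : IsCyclic W₁ := ⟨g, hg⟩
      letI : CommGroup W₁ := IsCyclic.commGroup
      have hcomm : t₁ * t₂ = t₂ * t₁ := by
        have h1 : (⟨t₁, ht₁⟩ : W₁) * ⟨t₂, ht₂⟩ = ⟨t₂, ht₂⟩ * ⟨t₁, ht₁⟩ := mul_comm _ _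
        exact congrArg (fun z : W₁ => (z : L)) h1
      have hq : (QuotientGroup.mk' K) (k₁ * t₁ * (k₂ * t₂) * (k₁ * t₁)⁻¹ * (k₂ * t₂)⁻¹) = 1 := by
        have e1 : (QuotientGroup.mk' K) k₁ = 1 := (QuotientGroup.eq_one_iff _).2 hk₁
        have e2 : (QuotientGroup.mk' K) k₂ = 1 := (QuotientGroup.eq_one_iff _).2 hk₂
        simp only [map_mul, map_inv, e1, e2, one_mul, mul_inv_rev, inv_one, mul_one]
        have e3 : (QuotientGroup.mk' K) t₁ * (QuotientGroup.mk' K) t₂ = (QuotientGroup.mk' K) t₂ * (QuotientGroup.mk' K) t₁ := by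
          rw [← map_mul, ← map_mul, hcomm]
        rw [e3]
        group
      exact (QuotientGroup.eq_one_iff _).1 hq
    have hT : ∀ g : L, g ∈ (⊤ : Subgroup L) ↔
        ∀ h : K, θ ⟨g * ↑h * g⁻¹, hK.conj_mem h h.2 g⟩ = θ h := by
      intro x
      simp only [Subgroup.mem_top, true_iff]
      intro n
      obtain ⟨k, hk, t, ht, hx⟩ := hdec x
      have h1 := congrFun (hconj ⟨θ, hθ⟩ x k t hk hx) n
      have h2 := congrFun (hfixθ t ht) n
      exact h1.trans h2
    have hrel : K.relIndex ⊤ = K.index := Subgroup.relIndex_top_right K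
    have hcop2 : Nat.Coprime (Nat.card K) (K.relIndex ⊤) := by
      rw [hrel, hcard2]
      exact hcop
    obtain ⟨C, h1, h2, h3, h4⟩ := Cfsg.Agent.S1491.result K ⊤ θ hθ hT hab hcop2
    refine ⟨C, ?_, h1, h3⟩
    rw [h2, hrel, hcard2]


end Cfsg.Agent.S1513
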