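import Mathlib
import Cfsg.Statements.S1514
import Cfsg.Agent.Lib.CoherenceBasic
import Cfsg.Agent.Lib.CharLattice
import Cfsg.Agent.S1509

set_option autoImplicit false
open Cfsg

namespace Cfsg.Agent.S1514

open Cfsg.Agent.Lib.CharBasic Cfsg.Agent.Lib.GenChar Cfsg.Agent.Lib.CoherenceBasic
open scoped ComplexConjugate

private theorem conjFun_conjFun {X : Type*} (a : X → ℂ) : conjFun (conjFun a) = a := by
  funext x; simp [conjFun]

/-- Let S be a nonempty set of irreducible characters of the finite group L, closed under complex conjugation and containing no real-valued member, and τ a linear isometry on the integer combinations of S vanishing at 1, with values virtual characters of G vanishing at 1. Then there is a choice R making (S, τ, R) a coherence system. -/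
theorem result {L : Type*} [Group L] [Fintype L] {G : Type*} [Group G] [Fintype G] (S : Set (L → ℂ)) (hS : S.Nonempty) (hirr : ∀ χ ∈ S, Cfsg.IsIrrCharacter L χ) (hconj : ∀ χ ∈ S, Cfsg.conjFun χ ∈ S ∧ Cfsg.conjFun χ ≠ χ) (τ : (L → ℂ) → (G → ℂ)) (hτ : Cfsg.IsLinearIsometryOn (Cfsg.zspanOn S {1}ᶜ) τ) (hτ1 : ∀ α ∈ Cfsg.zspanOn S {1}ᶜ, τ α 1 = 0) : ∃ R : (L → ℂ) → Finset (G → ℂ), Cfsg.IsCoherenceSystem S τ R := by
  classical
  -- the basic elements
  have hmem : ∀ χ ∈ S, χ - conjFun χ ∈ zspanOn S {1}ᶜ := by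
    intro χ hχ
    rw [mem_zspanOn_compl_one]
    refine ⟨zspan_sub (mem_zspan hχ) (mem_zspan (hconj χ hχ).1), ?_⟩
    obtain ⟨d, -, hd⟩ := isIrr_one_pos (hirr χ hχ)
    simp [conjFun, hd]
  have hconjirr : ∀ χ ∈ S, IsIrrCharacter L (conjFun χ) := fun χ hχ => hirr _ (hconj χ hχ).1
  have hnorm : ∀ χ ∈ S, classInner (χ - conjFun χ) (χ - conjFun χ) = 2 := by
    intro χ hχ
    rw [classInner_sub_left, classInner_sub_right, classInner_sub_right,
      classInner_irr_self (hirr χ hχ), classInner_irr_self (hconjirr χ hχ),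
      classInner_irr_ne (hirr χ hχ) (hconjirr χ hχ) (hconj χ hχ).2.symm,
      classInner_irr_ne (hconjirr χ hχ) (hirr χ hχ) (hconj χ hχ).2]
    norm_num
  have hex : ∀ χ ∈ S, ∃ μ ν : G → ℂ, IsIrrCharacter G μ ∧ IsIrrCharacter G ν ∧ μ ≠ ν ∧
      τ (χ - conjFun χ) = μ - ν := by
    intro χ hχ
    refine Cfsg.Agent.Lib.CharLattice.exists_sub_of_norm_two (iso_gen hτ (hmem χ hχ)) ?_
      (hτ1 _ (hmem χ hχ))
    rw [iso_inner hτ (hmem χ hχ) (hmem χ hχ), hnorm χ hχ]
  choose! μ ν hμ hν hne hτeq using hex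
  have hone : ∀ χ ∈ S, μ χ 1 = ν χ 1 := by
    intro χ hχ
    have h := hτ1 _ (hmem χ hχ)
    rw [hτeq χ hχ] at h
    have h' : μ χ 1 - ν χ 1 = 0 := h
    linear_combination h'
  have hμν : ∀ χ ∈ S, μ χ ≠ -ν χ := by
    intro χ hχ h
    obtain ⟨a, ha0, ha⟩ := isIrr_one_pos (hμ χ hχ)
    obtain ⟨b, hb0, hb⟩ := isIrr_one_pos (hν χ hχ)
    have h1 := congrFun h 1
    have h2 : (-ν χ) 1 = - (ν χ 1) := rfl
    rw [h2, ha, hb] at h1
    have h3 : ((a + b : ℕ) : ℂ) = 0 := by
      push_cast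
      linear_combination h1
    have h4 : a + b = 0 := by exact_mod_cast h3
    omega
  refine ⟨fun χ => if χ ∈ S then {μ χ, -ν χ} else ∅, ?_⟩
  have hRmem : ∀ χ ∈ S, ∀ α, α ∈ (if χ ∈ S then ({μ χ, -ν χ} : Finset (G → ℂ)) else ∅) ↔
      α = μ χ ∨ α = -ν χ := by
    intro χ hχ α
    simp [hχ]
  refine ⟨hS, fun χ hχ => IsIrrCharacter.isCharacter (hirr χ hχ), fun χ hχ => (hconj χ hχ).1,
    fun χ hχ => (hconj χ hχ).2, hτ, hτ1, fun χ hχ φ hφ hne' =>
      classInner_irr_ne (hirr χ hχ) (hirr φ hφ) hne', ?_, ?_, ?_, ?_⟩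
  · -- orthonormal
    intro χ hχ α hα β hβ
    rw [hRmem χ hχ] at hα hβ
    have hm := hμ χ hχ
    have hn := hν χ hχ
    have hne1 := hne χ hχ
    have hne2 := hμν χ hχ
    rcases hα with rfl | rfl <;> rcases hβ with rfl | rfl
    · simp [classInner_irr_self hm]
    · rw [if_neg hne2, classInner_neg_right, classInner_irr_ne hm hn hne1, neg_zero]
    · rw [if_neg (Ne.symm hne2), classInner_neg_left, classInner_irr_ne hn hm hne1.symm, neg_zero]
    · simp [classInner_neg_left, classInner_neg_right, classInner_irr_self hn]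
  · -- virtual
    intro χ hχ α hα
    rw [hRmem χ hχ] at hα
    rcases hα with rfl | rfl
    · exact isGen_of_isIrr (hμ χ hχ)
    · exact isGen_neg (isGen_of_isIrr (hν χ hχ))
  · -- sum
    intro χ hχ
    simp only [hχ, if_true]
    rw [hτeq χ hχ, Finset.sum_pair (hμν χ hχ), sub_eq_add_neg]
  · -- disjoint
    intro χ hχ φ hφ h1 h2 α hα β hβ
    rw [hRmem φ hφ] at hα
    rw [hRmem χ hχ] at hβ
    have h3 : classInner (conjFun φ) χ = 0 := by
      have := classInner_conjFun_conjFun φ (conjFun χ)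
      rw [conjFun_conjFun, h2, map_zero] at this
      exact this
    have h4 : classInner (conjFun φ) (conjFun χ) = 0 := by
      have := classInner_conjFun_conjFun φ χ
      rw [h1, map_zero] at this
      exact this
    have hi : classInner (τ (φ - conjFun φ)) (τ (χ - conjFun χ)) = 0 := by
      rw [iso_inner hτ (hmem φ hφ) (hmem χ hχ), classInner_sub_left, classInner_sub_right,
        classInner_sub_right, h1, h2, h3, h4]
      ring
    rw [hτeq φ hφ, hτeq χ hχ] at hi
    have hmix : classInner (μ φ - ν φ) (((1 : ℝ) : ℂ) • μ χ - ((1 : ℝ) : ℂ) • ν χ) = 0 := by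
      simpa using hi
    obtain ⟨a1, a2, a3, a4⟩ := Cfsg.Agent.S1509.result (μ φ) (ν φ) (μ χ) (ν χ)
      (Or.inl (hμ φ hφ)) (Or.inl (hν φ hφ)) (Or.inl (hμ χ hχ)) (Or.inl (hν χ hχ)) 1 1
      one_ne_zero one_ne_zero (classInner_irr_ne (hμ φ hφ) (hν φ hφ) (hne φ hφ))
      (classInner_irr_ne (hμ χ hχ) (hν χ hχ) (hne χ hχ)) hmix (hone φ hφ) (by simp [hone χ hχ])
    rcases hα with rfl | rfl <;> rcases hβ with rfl | rfl
    · exact a1
    · rw [classInner_neg_right, a2, neg_zero]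
    · rw [classInner_neg_left, a3, neg_zero]
    · rw [classInner_neg_left, classInner_neg_right, a4]; simp

end Cfsg.Agent.S1514
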