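import Mathlib
import Cfsg.Statements.S1515
import Cfsg.Agent.Lib.GenChar
import Cfsg.Agent.Lib.CharBasic

set_option autoImplicit false
open Cfsg

namespace Cfsg.Agent.S1515

open Cfsg.Agent.Lib.CharBasic Cfsg.Agent.Lib.GenChar
open scoped ComplexConjugate

/-- Let (S, τ, R) be a coherence system from L to G, χ ∈ S, and ψ an integer combination of S with ⟨χ, ψ⟩ = ⟨conj χ, ψ⟩ = 0. Let τ₁ be a linear isometry on the integer combinations of χ − ψ and χ − conj χ, with virtual-character values, agreeing with τ on integer multiples of χ − conj χ. Then the sum over α ∈ R χ of the squared absolute values of ⟨τ₁(χ − ψ), α⟩ is at least ⟨χ, χ⟩; and if ⟨τ₁(χ − ψ), τ₁(χ − ψ)⟩ minus that sum is at least ⟨ψ, ψ⟩, then the sum equals ⟨χ, χ⟩ and every ⟨τ₁(χ − ψ), α⟩ with α ∈ R χ is 0 or 1. -/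
theorem result {L : Type*} [Group L] [Fintype L] {G : Type*} [Group G] [Fintype G] (S : Set (L → ℂ)) (τ : (L → ℂ) → (G → ℂ)) (R : (L → ℂ) → Finset (G → ℂ)) (hS : Cfsg.IsCoherenceSystem S τ R) (χ : L → ℂ) (hχ : χ ∈ S) (ψ : L → ℂ) (hψ : ψ ∈ Cfsg.zspan S) (h1 : Cfsg.classInner χ ψ = 0) (h2 : Cfsg.classInner (Cfsg.conjFun χ) ψ = 0) (τ₁ : (L → ℂ) → (G → ℂ)) (hτ₁ : Cfsg.IsLinearIsometryOn (Cfsg.zspan {χ - ψ, χ - Cfsg.conjFun χ}) τ₁) (hagree : ∀ n : ℤ, τ₁ (n • (χ - Cfsg.conjFun χ)) = τ (n • (χ - Cfsg.conjFun χ))) : (Cfsg.classInner χ χ).re ≤ ∑ α ∈ R χ, ‖Cfsg.classInner (τ₁ (χ - ψ)) α‖ ^ 2 ∧ ((Cfsg.classInner ψ ψ).re ≤ (Cfsg.classInner (τ₁ (χ - ψ)) (τ₁ (χ - ψ))).re - ∑ α ∈ R χ, ‖Cfsg.classInner (τ₁ (χ - ψ)) α‖ ^ 2 → (∑ α ∈ R χ, ‖Cfsg.classInner (τ₁ (χ - ψ)) α‖ ^ 2 = (Cfsg.classInner χ χ).re ∧ ∀ α ∈ R χ, Cfsg.classInner (τ₁ (χ - ψ)) α = 0 ∨ Cfsg.classInner (τ₁ (χ - ψ))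 α = 1)) := by
  classical
  have hm1 : χ - ψ ∈ Cfsg.zspan {χ - ψ, χ - Cfsg.conjFun χ} :=
    Submodule.subset_span (by simp)
  have hm2 : χ - Cfsg.conjFun χ ∈ Cfsg.zspan {χ - ψ, χ - Cfsg.conjFun χ} :=
    Submodule.subset_span (by simp)
  obtain ⟨_, _, hiso, hgen⟩ := hτ₁
  have horth : Cfsg.classInner χ (Cfsg.conjFun χ) = 0 :=
    hS.orthogonal χ hχ _ (hS.conj_mem χ hχ) (hS.conj_ne χ hχ).symm
  have h1' : Cfsg.classInner ψ χ = 0 := by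
    rw [← classInner_conj_symm, h1, map_zero]
  have h2' : Cfsg.classInner ψ (Cfsg.conjFun χ) = 0 := by
    rw [← classInner_conj_symm, h2, map_zero]
  -- integrality
  have hint : ∀ α ∈ R χ, ∃ n : ℤ, Cfsg.classInner (τ₁ (χ - ψ)) α = n := fun α hα =>
    classInner_gen_gen (hgen _ hm1) (hS.virtual χ hχ α hα)
  choose! a ha using hint
  have hsum : ∑ α ∈ R χ, Cfsg.classInner (τ₁ (χ - ψ)) α = Cfsg.classInner χ χ := by
    rw [← classInner_sum_right, ← hS.sum_eq χ hχ]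
    have h := hagree 1
    simp only [one_smul] at h
    rw [← h, hiso _ hm1 _ hm2, classInner_sub_left, classInner_sub_right, classInner_sub_right,
      horth, h1', h2']
    ring
  have hsumr : ((∑ α ∈ R χ, a α : ℤ) : ℝ) = (Cfsg.classInner χ χ).re := by
    rw [← hsum, Finset.sum_congr rfl (fun α hα => ha α hα)]
    simp
  have hnorm : ∀ α ∈ R χ, ‖Cfsg.classInner (τ₁ (χ - ψ)) α‖ ^ 2 = ((a α) ^ 2 : ℝ) := by
    intro α hα
    rw [ha α hα]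
    simp
  have hsq : ∑ α ∈ R χ, ‖Cfsg.classInner (τ₁ (χ - ψ)) α‖ ^ 2 = ((∑ α ∈ R χ, (a α) ^ 2 : ℤ) : ℝ) := by
    rw [Finset.sum_congr rfl hnorm]
    push_cast
    rfl
  have hle : ∀ n : ℤ, n ≤ n ^ 2 := fun n => by
    rcases le_or_gt n 0 with h | h <;> nlinarith
  have hfirst : (Cfsg.classInner χ χ).re ≤ ∑ α ∈ R χ, ‖Cfsg.classInner (τ₁ (χ - ψ)) α‖ ^ 2 := by
    rw [hsq, ← hsumr]
    exact_mod_cast Finset.sum_le_sum (fun α _ => hle (a α))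
  refine ⟨hfirst, fun hb => ?_⟩
  have hnormsum : Cfsg.classInner (τ₁ (χ - ψ)) (τ₁ (χ - ψ)) = Cfsg.classInner χ χ + Cfsg.classInner ψ ψ := by
    rw [hiso _ hm1 _ hm1, classInner_sub_left, classInner_sub_right, classInner_sub_right, h1, h1']
    ring
  rw [hnormsum, Complex.add_re] at hb
  have heq : ∑ α ∈ R χ, ‖Cfsg.classInner (τ₁ (χ - ψ)) α‖ ^ 2 = (Cfsg.classInner χ χ).re :=
    le_antisymm (by linarith) hfirst
  refine ⟨heq, fun α hα => ?_⟩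
  have hi : (∑ α ∈ R χ, (a α) ^ 2 : ℤ) = ∑ α ∈ R χ, a α := by
    have : ((∑ α ∈ R χ, (a α) ^ 2 : ℤ) : ℝ) = ((∑ α ∈ R χ, a α : ℤ) : ℝ) := by
      rw [← hsq, heq, hsumr]
    exact_mod_cast this
  have hall := (Finset.sum_eq_sum_iff_of_le (fun α _ => hle (a α))).1 hi.symm α hα
  have h01 : a α = 0 ∨ a α = 1 := by
    have : a α * (a α - 1) = 0 := by nlinarith
    rcases mul_eq_zero.1 this with h | h
    · exact Or.inl h
    · exact Or.inr (by omega)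
  rw [ha α hα]
  rcases h01 with h | h <;> simp [h]

end Cfsg.Agent.S1515
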