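import Mathlib
import Cfsg.Statements.S1517
import Cfsg.Agent.Lib.CoherenceSys
import Cfsg.Agent.Lib.CharDecomp

set_option autoImplicit false
open Cfsg

namespace Cfsg.Agent.S1517

open Cfsg.Agent.Lib.CharBasic Cfsg.Agent.Lib.GenChar Cfsg.Agent.Lib.CoherenceBasic
open Cfsg.Agent.Lib.CoherenceExt Cfsg.Agent.Lib.CoherenceSys Cfsg.Agent.Lib.CharDecomp
open scoped ComplexConjugate

/-- Let (S, τ, R) be a coherence system from L to G such that φ 1 = ψ 1 for all φ, ψ ∈ S. Then (S, L minus 1, τ) is coherent. -/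
theorem result {L : Type*} [Group L] [Fintype L] {G : Type*} [Group G] [Fintype G] (S : Set (L → ℂ)) (τ : (L → ℂ) → (G → ℂ)) (R : (L → ℂ) → Finset (G → ℂ)) (hS : Cfsg.IsCoherenceSystem S τ R) (hdeg : ∀ φ ∈ S, ∀ ψ ∈ S, φ 1 = ψ 1) : Cfsg.IsCoherent S {1}ᶜ τ := by

  classical
  obtain ⟨χ₀, hχ₀⟩ := hS.nonempty
  obtain ⟨n, hn0, hn⟩ := sys_norm hS hχ₀
  have hχ₀' := hS.conj_mem χ₀ hχ₀
  have hdiff : ∀ φ ∈ S, ∀ ψ ∈ S, φ - ψ ∈ zspanOn S {1}ᶜ := by
    intro φ hφ ψ hψ
    rw [mem_zspanOn_compl_one]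
    exact ⟨zspan_sub (mem_zspan hφ) (mem_zspan hψ), by simp [hdeg φ hφ ψ hψ]⟩
  have hτ := hS.isometry
  -- the half of `R χ₀`
  have hK : ∃ A : Finset (G → ℂ), A ⊆ R χ₀ ∧ A.card = n ∧ ∀ ψ ∈ S, ψ ≠ χ₀ → ψ ≠ conjFun χ₀ →
      ∀ α ∈ R χ₀, classInner (τ (χ₀ - ψ)) α = if α ∈ A then 1 else 0 := by
    by_cases hex : ∃ φ ∈ S, φ ≠ χ₀ ∧ φ ≠ conjFun χ₀
    · obtain ⟨φ, hφ, h1, h2⟩ := hex
      have hempty : OrthN (∅ : Finset (G → ℂ)) := ⟨by simp, by simp⟩
      obtain ⟨t1, t2, -⟩ := pair_tight hS hχ₀ hφ (hdeg _ hχ₀ _ hφ) h1 h2 hn hempty (by simp) (by simp)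
      set A := (R χ₀).filter (fun α => classInner (τ (χ₀ - φ)) α = 1) with hA
      have hval : ∀ α ∈ R χ₀, classInner (τ (χ₀ - φ)) α = if α ∈ A then 1 else 0 := by
        intro α hα
        by_cases h : classInner (τ (χ₀ - φ)) α = 1
        · have hm : α ∈ A := Finset.mem_filter.mpr ⟨hα, h⟩
          rw [if_pos hm, h]
        · have hm : α ∉ A := fun h' => h (Finset.mem_filter.mp h').2
          rw [if_neg hm]
          exact (t1 α hα).resolve_right h
      refine ⟨A, Finset.filter_subset _ _, ?_, ?_⟩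
      · have h3 : ∑ α ∈ R χ₀, classInner (τ (χ₀ - φ)) α = (A.card : ℂ) := by
          rw [Finset.sum_congr rfl hval, hA, Finset.sum_ite_mem]
          simp [Finset.inter_eq_right.mpr (Finset.filter_subset _ _)]
        rw [t2] at h3
        exact_mod_cast h3.symm
      · intro ψ hψ h3 h4 α hα
        rw [← hval α hα]
        -- the difference `τ (φ - ψ)` is orthogonal to `α`
        have hsplit : τ (χ₀ - ψ) = τ (χ₀ - φ) + τ (φ - ψ) := by
          rw [← iso_add hτ (hdiff _ hχ₀ _ hφ) (hdiff _ hφ _ hψ)]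
          congr 1
          abel
        rw [hsplit, classInner_add_left]
        have hzero : classInner (τ (φ - ψ)) α = 0 := by
          by_cases h5 : ψ = φ
          · rw [h5, sub_self, iso_zero hτ (zspanOn_zero S _), classInner_zero_left]
          by_cases h6 : ψ = conjFun φ
          · rw [h6, hS.sum_eq φ hφ, classInner_sum_left]
            refine Finset.sum_eq_zero (fun x hx => ?_)
            exact sys_R_orth hS hχ₀ hφ h1 h2 x hx α hα
          · have hsing : OrthN ({α} : Finset (G → ℂ)) := by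
              constructor
              · intro x hx y hy hxy
                rw [Finset.mem_singleton] at hx hy
                exact absurd (hx.trans hy.symm) hxy
              · intro x hx
                rw [Finset.mem_singleton] at hx
                rw [hx]
                exact (sys_orthN hS hχ₀).2 α hα
            obtain ⟨m, _, hm⟩ := sys_norm hS hφ
            obtain ⟨-, -, t3⟩ := pair_tight hS hφ hψ (hdeg _ hφ _ hψ) h5 h6 hm hsing
              (fun x hx y hy => by
                rw [Finset.mem_singleton] at hy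
                rw [hy]
                exact sys_R_orth hS hχ₀ hφ h1 h2 x hx α hα)
              (fun x hx y hy => by
                rw [Finset.mem_singleton] at hy
                rw [hy]
                exact sys_R_orth hS hχ₀ hψ h3 h4 x hx α hα)
            exact t3 α (Finset.mem_singleton_self α)
        rw [hzero, add_zero]
    · push Not at hex
      have hc := sys_card_R hS hχ₀ hn
      obtain ⟨A, hA, hAc⟩ := Finset.exists_subset_card_eq (s := R χ₀) (n := n) (by omega)
      refine ⟨A, hA, hAc, ?_⟩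
      intro ψ hψ h1 h2
      exact absurd (hex ψ hψ h1) h2
  obtain ⟨A, hAR, hAc, hAval⟩ := hK
  set a : G → ℂ := ∑ α ∈ A, α with ha
  have horthA : OrthN A :=
    ⟨fun x hx y hy => (sys_orthN hS hχ₀).1 x (hAR hx) y (hAR hy),
      fun x hx => (sys_orthN hS hχ₀).2 x (hAR hx)⟩
  have hag : IsGeneralizedCharacter G a :=
    isGen_sum _ _ (fun x hx => hS.virtual χ₀ hχ₀ x (hAR hx))
  have haa : classInner a a = n := by
    rw [ha, classInner_sum_left]
    have h1 : ∀ x ∈ A, classInner x (∑ α ∈ A, α) = 1 := by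
      intro x hx
      rw [classInner_sum_right, Finset.sum_eq_single x]
      · exact horthA.2 x hx
      · intro y hy hyx
        exact horthA.1 x hx y hy hyx.symm
      · intro h; exact absurd hx h
    rw [Finset.sum_congr rfl h1]
    simp [hAc]
  -- the inner product of `a` with the images
  have hBa : ∀ ψ ∈ S, ψ ≠ χ₀ → classInner (τ (χ₀ - ψ)) a = n := by
    intro ψ hψ h1
    by_cases h2 : ψ = conjFun χ₀
    · rw [h2, hS.sum_eq χ₀ hχ₀, ha, classInner_sum_right]
      have h3 : ∀ y ∈ A, classInner (∑ α ∈ R χ₀, α) y = 1 := by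
        intro y hy
        rw [classInner_sum_left, Finset.sum_eq_single y]
        · exact (sys_orthN hS hχ₀).2 y (hAR hy)
        · intro x hx hxy
          exact (sys_orthN hS hχ₀).1 x hx y (hAR hy) hxy
        · intro h; exact absurd (hAR hy) h
      rw [Finset.sum_congr rfl h3]
      simp [hAc]
    · rw [ha, classInner_sum_right]
      have h3 : ∀ y ∈ A, classInner (τ (χ₀ - ψ)) y = 1 := by
        intro y hy
        rw [hAval ψ hψ h1 h2 y (hAR hy), if_pos hy]
      rw [Finset.sum_congr rfl h3]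
      simp [hAc]
  have haB : ∀ ψ ∈ S, ψ ≠ χ₀ → classInner a (τ (χ₀ - ψ)) = n := by
    intro ψ hψ h1
    rw [← classInner_conj_symm, hBa ψ hψ h1]
    simp
  -- the values
  set f : (L → ℂ) → (G → ℂ) := fun ψ => a - τ (χ₀ - ψ) with hf
  have hf0 : f χ₀ = a := by
    simp only [hf, sub_self]
    rw [iso_zero hτ (zspanOn_zero S _), sub_zero]
  have horthS : ∀ x ∈ S, ∀ y ∈ S, x ≠ y → classInner x y = 0 := hS.orthogonal
  have hfi : ∀ x ∈ S, ∀ y ∈ S, classInner (f x) (f y) = classInner x y := by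
    intro x hx y hy
    have hexp : classInner (f x) (f y) = classInner a a - classInner a (τ (χ₀ - y))
        - (classInner (τ (χ₀ - x)) a - classInner (τ (χ₀ - x)) (τ (χ₀ - y))) := by
      simp only [hf, classInner_sub_left, classInner_sub_right]
      ring
    rw [hexp, iso_inner hτ (hdiff _ hχ₀ _ hx) (hdiff _ hχ₀ _ hy), haa]
    by_cases hx0 : x = χ₀
    · by_cases hy0 : y = χ₀
      · subst hx0
        subst hy0
        simp only [sub_self, iso_zero hτ (zspanOn_zero S _), classInner_zero_left,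
          classInner_zero_right]
        rw [hn]
        ring
      · subst hx0
        rw [haB y hy hy0]
        simp only [sub_self, iso_zero hτ (zspanOn_zero S _), classInner_zero_left]
        rw [horthS _ hx _ hy (fun h => hy0 h.symm)]
    · by_cases hy0 : y = χ₀
      · subst hy0
        rw [hBa x hx hx0]
        simp only [sub_self, iso_zero hτ (zspanOn_zero S _), classInner_zero_right,
          classInner_zero_left]
        rw [horthS _ hx _ hy hx0]
      · rw [hBa x hx hx0, haB y hy hy0]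
        simp only [classInner_sub_left, classInner_sub_right]
        rw [horthS _ hχ₀ _ hy (fun h => hy0 h.symm), horthS _ hx _ hχ₀ hx0, hn]
        ring
  have hfg : ∀ x ∈ S, IsGeneralizedCharacter G (f x) := fun x hx =>
    isGen_sub hag (iso_gen hτ (hdiff _ hχ₀ _ hx))
  obtain ⟨τ₁, hτ₁, hτ₁v⟩ := exists_iso_of_values
    (fun x hx => by
      obtain ⟨m, hm0, hm⟩ := sys_norm hS hx
      rw [hm]
      exact_mod_cast hm0.ne') horthS f hfi hfg
  have hd0 : χ₀ 1 ≠ 0 := char_one_ne_zero (hS.isCharacter χ₀ hχ₀) (sys_ne_zero hS hχ₀)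
  have hdecomp : ∀ θ ∈ zspan S, ∃ c : ℤ, θ - c • χ₀ ∈ zspanOn S {1}ᶜ ∧
      τ₁ θ - c • τ₁ χ₀ = τ (θ - c • χ₀) := by
    intro θ hθ
    have hθ' := hθ
    unfold zspan at hθ'
    induction hθ' using Submodule.span_induction with
    | mem ψ hψ =>
      refine ⟨1, by simpa using hdiff ψ hψ χ₀ hχ₀, ?_⟩
      rw [one_smul, one_smul, hτ₁v ψ hψ, hτ₁v χ₀ hχ₀, hf0]
      simp only [hf]
      have e : ψ - χ₀ = -(χ₀ - ψ) := by abel
      rw [e, iso_neg hτ (hdiff _ hχ₀ _ hψ)]
      abel
    | zero =>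
      refine ⟨0, by simpa using zspanOn_zero S _, ?_⟩
      rw [zero_smul, zero_smul, sub_zero, sub_zero, iso_zero hτ₁ (zspan_zero S),
        iso_zero hτ (zspanOn_zero S _)]
    | add x y hx hy ihx ihy =>
      obtain ⟨c₁, h1, h2⟩ := ihx hx
      obtain ⟨c₂, h3, h4⟩ := ihy hy
      refine ⟨c₁ + c₂, ?_, ?_⟩
      · have e : x + y - (c₁ + c₂) • χ₀ = (x - c₁ • χ₀) + (y - c₂ • χ₀) := by
          rw [add_smul]; abel
        rw [e]
        exact zspanOn_add h1 h3
      · have e : x + y - (c₁ + c₂) • χ₀ = (x - c₁ • χ₀) + (y - c₂ • χ₀) := by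
          rw [add_smul]; abel
        rw [e, iso_add hτ h1 h3, ← h2, ← h4, iso_add hτ₁ hx hy, add_smul]
        abel
    | smul k x hx ihx =>
      obtain ⟨c, h1, h2⟩ := ihx hx
      refine ⟨k * c, ?_, ?_⟩
      · have e : k • x - (k * c) • χ₀ = k • (x - c • χ₀) := by
          rw [smul_sub, mul_smul]
        rw [e]
        exact zspanOn_zsmul h1 k
      · have e : k • x - (k * c) • χ₀ = k • (x - c • χ₀) := by
          rw [smul_sub, mul_smul]
        rw [e, iso_zsmul hτ h1, ← h2, iso_zsmul hτ₁ hx, smul_sub, mul_smul]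
  refine ⟨⟨χ₀ - conjFun χ₀, sys_diff_mem hS hχ₀, ?_⟩, τ₁, hτ₁, ?_⟩
  · intro h
    exact hS.conj_ne χ₀ hχ₀ (sub_eq_zero.mp h).symm
  · intro θ hθ
    obtain ⟨c, h1, h2⟩ := hdecomp θ hθ.1
    have h3 := (mem_zspanOn_compl_one.mp h1).2
    have h4 := (mem_zspanOn_compl_one.mp hθ).2
    simp only [Pi.sub_apply, zsmul_apply, h4, zero_sub, neg_eq_zero] at h3
    have hc : c = 0 := by
      have := (mul_eq_zero.mp h3).resolve_right hd0
      exact_mod_cast this
    subst hc
    simpa using h2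

end Cfsg.Agent.S1517
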