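import Mathlib
import Cfsg.Statements.S1518
import Cfsg.Agent.Lib.DadeExpand
import Cfsg.Agent.Lib.CharLattice

set_option autoImplicit false
open Cfsg

namespace Cfsg.Agent.S1518

open Cfsg.Agent.Lib.DadeExpand Cfsg.Agent.Lib.DadeCount Cfsg.Agent.Lib.CharBasic
  Cfsg.Agent.Lib.GenChar
open scoped ComplexConjugate

private theorem dade_conj {G : Type*} [Group G] [Fintype G] (A : Set G) (L : Subgroup G) [Fintype L]
    (H : G → Subgroup G) (α : L → ℂ) :
    dadeIsometry A L H (conjFun α) = conjFun (dadeIsometry A L H α) := by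
  classical
  funext g
  by_cases h : ∃ a : L, (a : G) ∈ A ∧ ∃ x : G, ∃ u ∈ H (a : G), x * g * x⁻¹ = (a : G) * u
  · simp only [dadeIsometry, conjFun, dif_pos h]
  · simp only [dadeIsometry, conjFun, dif_neg h, map_zero]

private theorem dade_neg {G : Type*} [Group G] [Fintype G] (A : Set G) (L : Subgroup G) [Fintype L]
    (H : G → Subgroup G) (α : L → ℂ) :
    dadeIsometry A L H (-α) = -dadeIsometry A L H α := by
  classical
  funext g
  unfold dadeIsometry
  simp only [Pi.neg_apply]
  split_ifs <;> simp

private theorem dade_zero {G : Type*} [Group G] [Fintype G] (A : Set G) (L : Subgroup G) [Fintype L]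
    (H : G → Subgroup G) : dadeIsometry A L H 0 = 0 := by
  classical
  funext g
  unfold dadeIsometry
  simp only [Pi.zero_apply]
  split_ifs <;> simp

/-- Under the Dade hypothesis for (A, L, H): if χ is an irreducible character of L vanishing at every non-identity element of L outside A, then the Dade image of χ − conj χ equals μ − conj μ for some irreducible character μ of G. -/
theorem result {G : Type*} [Group G] [Fintype G] (A : Set G) (L : Subgroup G) [Fintype L] (H : G → Subgroup G) (hD : Cfsg.DadeHypothesis A L H) (χ : L → ℂ) (hχ : Cfsg.IsIrrCharacter L χ) (hsupp : ∀ x : L, x ≠ 1 → (x : G) ∉ A → χ x = 0) : ∃ μ : G → ℂ, Cfsg.IsIrrCharacter G μ ∧ Cfsg.dadeIsometry A L H (χ - Cfsg.conjFun χ) = μ - Cfsg.conjFun μ := by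
  classical
  by_cases hreal : conjFun χ = χ
  · refine ⟨fun _ => 1, isIrrCharacter_one, ?_⟩
    rw [hreal, sub_self, dade_zero]
    funext g
    simp [conjFun]
  have hχ' : IsIrrCharacter L (conjFun χ) := isIrrCharacter_conjFun hχ
  set α := χ - conjFun χ with hαdef
  have hαgen : IsGeneralizedCharacter L α := isGen_sub (isGen_of_isIrr hχ) (isGen_of_isIrr hχ')
  have hαA : ∀ x : L, (x : G) ∉ A → α x = 0 := by
    intro x hx
    by_cases hx1 : x = 1
    · subst hx1
      obtain ⟨d, -, hd⟩ := isIrr_one_pos hχ
      simp [hαdef, conjFun, hd]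
    · simp [hαdef, conjFun, hsupp x hx1 hx]
  have hαcl : IsClassFunction L α := isGen_isClassFunction hαgen
  have hgen : IsGeneralizedCharacter G (dadeIsometry A L H α) := dade_isGen hD hαgen hαA
  have hnorm : classInner (dadeIsometry A L H α) (dadeIsometry A L H α) = 2 := by
    rw [classInner_dade_dade hD hαcl hαA hαcl, hαdef, classInner_sub_left, classInner_sub_right,
      classInner_sub_right, classInner_irr_self hχ, classInner_irr_self hχ',
      classInner_irr_ne hχ hχ' (Ne.symm hreal), classInner_irr_ne hχ' hχ hreal]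
    norm_num
  have hone : dadeIsometry A L H α 1 = 0 := by
    apply dade_eq_zero
    rintro ⟨a, ha, x, u, hu, hx⟩
    have h1 : (a : G) * u = 1 := by
      rw [← hx]; group
    have h2 : (a : G) = u⁻¹ := eq_inv_of_mul_eq_one_left h1
    have h3 : (a : G) = 1 := inf_L_eq_one hD ha (by have h4 := (H a).inv_mem hu; rwa [← h2] at h4) a.2
    exact hD.one_not_mem (h3 ▸ ha)
  obtain ⟨μ, ν, hμ, hν, hne, heq⟩ :=
    Cfsg.Agent.Lib.CharLattice.exists_sub_of_norm_two hgen hnorm hone
  refine ⟨μ, hμ, ?_⟩
  rw [heq]
  -- anti-reality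
  have hcα : conjFun α = -α := by
    funext x
    simp [hαdef, conjFun]
  have hanti : conjFun (dadeIsometry A L H α) = -dadeIsometry A L H α := by
    rw [← dade_conj, hcα, dade_neg]
  rw [heq] at hanti
  have hsum : μ + conjFun μ = ν + conjFun ν := by
    funext g
    have := congrFun hanti g
    simp only [conjFun, Pi.sub_apply, Pi.neg_apply, map_sub, Pi.add_apply] at this ⊢
    linear_combination this
  have hνeq : conjFun μ = ν := by
    by_contra hcon
    have h1 := congrArg (fun f => classInner f ν) hsum
    simp only [classInner_add_left] at h1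
    rw [classInner_irr_ne hμ hν hne, classInner_irr_ne (isIrrCharacter_conjFun hμ) hν hcon,
      classInner_irr_self hν] at h1
    by_cases hν2 : conjFun ν = ν
    · rw [hν2, classInner_irr_self hν] at h1
      norm_num at h1
    · rw [classInner_irr_ne (isIrrCharacter_conjFun hν) hν hν2] at h1
      norm_num at h1
  rw [hνeq]

end Cfsg.Agent.S1518
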