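import Mathlib
import Cfsg.Statements.S1519
import Cfsg.Agent.Lib.CoherenceLoop

set_option autoImplicit false
open Cfsg

namespace Cfsg.Agent.S1519

open Cfsg.Agent.Lib.CharBasic Cfsg.Agent.Lib.GenChar Cfsg.Agent.Lib.CoherenceBasic
open Cfsg.Agent.Lib.CoherenceExt Cfsg.Agent.Lib.CoherenceSys Cfsg.Agent.Lib.CharDecomp
open Cfsg.Agent.Lib.InducedIrr Cfsg.Agent.Lib.CoherenceLoop Cfsg.Agent.Lib.CharKernel
open scoped ComplexConjugate

/-- Let K be a solvable normal subgroup of the finite group L and (S, τ, R) a coherence system from L to G where S is the set of functions induced from non-principal irreducible characters of K; write S(A) for those induced from characters whose kernel contains A. Let A, B, C, D be normal subgroups of L with A < K, B < K, B ≤ D ≤ C ≤ K and every commutator of D with C in B. If S(A) is coherent and 4 * [L:C]^2 * [C:D] < ([K:A] − 1)^2, then S(B) is coherent. -/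
theorem result {L : Type*} [Group L] [Fintype L] {G : Type*} [Group G] [Fintype G] (K : Subgroup L) [hK : K.Normal] (hsolv : Group.IsSolvable K) (τ : (L → ℂ) → (G → ℂ)) (R : (L → ℂ) → Finset (G → ℂ)) (hS : Cfsg.IsCoherenceSystem (Cfsg.inducedIrrAbove K ⊥) τ R) (A B C D : Subgroup L) [A.Normal] [B.Normal] [C.Normal] [D.Normal] (hAK : A < K) (hBK : B < K) (hBD : B ≤ D) (hDC : D ≤ C) (hCK : C ≤ K) (hcent : ∀ x ∈ D, ∀ y ∈ C, x * y * x⁻¹ * y⁻¹ ∈ B) (hA : Cfsg.IsCoherent (Cfsg.inducedIrrAbove K A) {1}ᶜ τ) (hlt : 4 * C.index ^ 2 * D.relIndex C < (A.relIndex K - 1) ^ 2) : Cfsg.IsCoherent (Cfsg.inducedIrrAbove K B) {1}ᶜ τ := by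

  classical
  haveI : Fintype K := Fintype.ofFinite K
  have hd' : ∀ φ ∈ inducedIrrAbove K ⊥, ∃ k : ℕ, φ 1 = (k : ℂ) := fun φ hφ =>
    isCharacter_one_eq (hS.isCharacter φ hφ)
  choose! d hd using hd'
  have hn' : ∀ φ ∈ inducedIrrAbove K ⊥, ∃ k : ℕ, classInner φ φ = (k : ℂ) := fun φ hφ =>
    classInner_self_eq_nat (isGen_of_isChar (hS.isCharacter φ hφ))
  choose! n hn using hn'
  have hAK' : A ≤ K := hAK.le
  have hBK' : B ≤ K := hBK.le
  set S₀ : Finset (L → ℂ) := (inducedIrrAbove_finite K A).toFinset with hS₀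
  set X : Finset (L → ℂ) := (inducedIrrAbove_finite K B).toFinset with hX
  have hS₀mem : ∀ φ, φ ∈ S₀ ↔ φ ∈ inducedIrrAbove K A := fun φ => by simp [hS₀]
  have hXmem : ∀ φ, φ ∈ X ↔ φ ∈ inducedIrrAbove K B := fun φ => by simp [hX]
  have hcoeS₀ : (↑S₀ : Set (L → ℂ)) = inducedIrrAbove K A := by simp [hS₀]
  have hcoeX : (↑X : Set (L → ℂ)) = inducedIrrAbove K B := by simp [hX]
  -- a linear character above `A`
  have hNA : A.subgroupOf K ≠ ⊤ := by
    intro h
    have h1 : K ≤ A := Subgroup.subgroupOf_eq_top.mp h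
    exact absurd (le_antisymm hAK' h1) hAK.ne
  have hNB : B.subgroupOf K ≠ ⊤ := by
    intro h
    have h1 : K ≤ B := Subgroup.subgroupOf_eq_top.mp h
    exact absurd (le_antisymm hBK' h1) hBK.ne
  haveI : (A.subgroupOf K).Normal := inferInstance
  haveI : (B.subgroupOf K).Normal := inferInstance
  obtain ⟨ℓ, hℓ, hℓne, hℓA, hℓ1⟩ := exists_linear_above hsolv (A.subgroupOf K) hNA
  set ξ : L → ℂ := indFun K ℓ with hξ
  have hξA : ξ ∈ inducedIrrAbove K A :=
    ⟨ℓ, hℓ, hℓne, fun a ha => hℓA a (Subgroup.mem_subgroupOf.mpr ha), rfl⟩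
  have hsub := inducedIrrAbove_subset_bot K A
  have hsubB := inducedIrrAbove_subset_bot K B
  have hdξ : d ξ = K.index := by
    have h1 := hd ξ (hsub hξA)
    rw [hξ, Cfsg.Agent.Lib.CharInd.indFun_one, hℓ1, mul_one] at h1
    exact_mod_cast h1.symm
  have hDsum := sum_deg_sq_div_norm K hS A hAK' d n hd hn S₀ hS₀mem
  have he0 : 0 < K.index := Nat.pos_of_ne_zero K.index_ne_zero_of_finite
  have hbound : ∀ χ ∈ X, ∃ ξ' ∈ S₀, d ξ' ∣ d χ ∧
      (2 * d χ * d ξ' : ℝ) < ∑ φ ∈ S₀, ((d φ : ℝ) ^ 2 / (n φ : ℝ)) := by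
    intro χ hχ
    obtain ⟨θ, hθ, hθne, hθB, hχθ⟩ := (hXmem χ).mp hχ
    have hdχ : d χ = K.index * charDegree θ := by
      have h1 := hd χ (hsubB ((hXmem χ).mp hχ))
      rw [hχθ, Cfsg.Agent.Lib.CharInd.indFun_one,
        one_eq_charDegree (IsIrrCharacter.isCharacter hθ)] at h1
      rw [hχθ]
      exact_mod_cast h1.symm
    refine ⟨ξ, (hS₀mem ξ).mpr hξA, ?_, ?_⟩
    · rw [hdξ, hdχ]
      exact Dvd.intro _ rfl
    · rw [hDsum, hdξ, hdχ]
      -- the degree bound
      have hsec := deg_sq_le_of_section hθ (C.subgroupOf K) (D.subgroupOf K)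
        (fun x hx => Subgroup.mem_subgroupOf.mpr (hDC (Subgroup.mem_subgroupOf.mp hx)))
        (fun x hx y hy => hθB _ (by
          have := hcent x (Subgroup.mem_subgroupOf.mp hx) y (Subgroup.mem_subgroupOf.mp hy)
          simpa using this))
      rw [Subgroup.relIndex_subgroupOf hCK] at hsec
      have hCidx : C.relIndex K * K.index = C.index := Subgroup.relIndex_mul_index hCK
      have hsec' : charDegree θ ^ 2 ≤ C.relIndex K ^ 2 * D.relIndex C := hsec
      have h4 : (2 * K.index * charDegree θ) ^ 2 < (A.relIndex K - 1) ^ 2 := by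
        calc (2 * K.index * charDegree θ) ^ 2 = 4 * K.index ^ 2 * charDegree θ ^ 2 := by ring
          _ ≤ 4 * K.index ^ 2 * (C.relIndex K ^ 2 * D.relIndex C) :=
            Nat.mul_le_mul_left _ hsec'
          _ = 4 * (C.relIndex K * K.index) ^ 2 * D.relIndex C := by ring
          _ = 4 * C.index ^ 2 * D.relIndex C := by rw [hCidx]
          _ < _ := hlt
      have h5 : 2 * K.index * charDegree θ < A.relIndex K - 1 := lt_of_pow_lt_pow_left₀ 2 (Nat.zero_le _) h4
      have ha1 : 1 ≤ A.relIndex K := by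
        have : A.relIndex K ≠ 0 := (A.subgroupOf K).index_ne_zero_of_finite
        omega
      have h6 : (2 * (K.index : ℝ) * (charDegree θ : ℝ)) < (A.relIndex K : ℝ) - 1 := by
        have h7 : ((A.relIndex K - 1 : ℕ) : ℝ) = (A.relIndex K : ℝ) - 1 := by
          rw [Nat.cast_sub ha1]
          simp
        rw [← h7]
        exact_mod_cast h5
      have he0' : (0 : ℝ) < K.index := by exact_mod_cast he0
      push_cast
      have h8 : 2 * ((K.index : ℝ) * (charDegree θ : ℝ)) * (K.index : ℝ) =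
          (K.index : ℝ) * (2 * (K.index : ℝ) * (charDegree θ : ℝ)) := by ring
      rw [h8]
      exact mul_lt_mul_of_pos_left h6 he0'
  have hsS₀ : (↑S₀ : Set (L → ℂ)) ⊆ inducedIrrAbove K ⊥ := by rw [hcoeS₀]; exact hsub
  have hsX : (↑X : Set (L → ℂ)) ⊆ inducedIrrAbove K ⊥ := by rw [hcoeX]; exact hsubB
  have hS₀c : ∀ φ ∈ S₀, conjFun φ ∈ S₀ := fun φ hφ =>
    (hS₀mem _).mpr (inducedIrrAbove_conj K A ((hS₀mem φ).mp hφ))
  obtain ⟨S₂, h1, h2, h3, h4, h5⟩ := coherent_extend_many hS d n hd hn S₀ hsS₀ hS₀c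
    (by rw [hcoeS₀]; exact hA) X hsX hbound
  -- a member of `S(B)`
  obtain ⟨ℓ', hℓ', hℓ'ne, hℓ'B, -⟩ := exists_linear_above hsolv (B.subgroupOf K) hNB
  have hmemB : indFun K ℓ' ∈ inducedIrrAbove K B :=
    ⟨ℓ', hℓ', hℓ'ne, fun a ha => hℓ'B a (Subgroup.mem_subgroupOf.mpr ha), rfl⟩
  refine coherent_restrict h5 ?_ (exists_ne_of_mem hS hsubB
    (fun φ hφ => inducedIrrAbove_conj K B hφ) hmemB)
  intro φ hφ
  exact Finset.mem_coe.mpr (h2 ((hXmem φ).mpr hφ))

end Cfsg.Agent.S1519
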