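import Mathlib
import Cfsg.Statements.S1520
import Cfsg.Agent.S1519

set_option autoImplicit false
open Cfsg

namespace Cfsg.Agent.S1520

open Cfsg.Agent.Lib.CharBasic Cfsg.Agent.Lib.GenChar Cfsg.Agent.Lib.CoherenceBasic
open scoped commutatorElement

/-- Let K be a solvable normal subgroup of the finite group L and (S, τ, R) a coherence system from L to G with S the functions induced from non-principal irreducible characters of K; S(A) the members of S induced from characters whose kernel contains A. Let M ≤ H₁ ≤ H ≤ K be normal subgroups of L such that every term of the lower central series of H eventually lies in M (H/M nilpotent), S(H₁) is coherent and [H:H₁] > 4 * [L:K]^2 + 1. Then S(M) is coherent. -/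
theorem result {L : Type*} [Group L] [Fintype L] {G : Type*} [Group G] [Fintype G] (K : Subgroup L) [hK : K.Normal] (hsolv : Group.IsSolvable K) (τ : (L → ℂ) → (G → ℂ)) (R : (L → ℂ) → Finset (G → ℂ)) (hS : Cfsg.IsCoherenceSystem (Cfsg.inducedIrrAbove K ⊥) τ R) (M H₁ H : Subgroup L) [M.Normal] [H₁.Normal] [H.Normal] (hMH₁ : M ≤ H₁) (hH₁H : H₁ ≤ H) (hHK : H ≤ K) [(M.subgroupOf H).Normal] (hnil : Group.IsNilpotent (↥H ⧸ M.subgroupOf H)) (hcoh : Cfsg.IsCoherent (Cfsg.inducedIrrAbove K H₁) {1}ᶜ τ) (hbig : 4 * K.index ^ 2 + 1 < H₁.relIndex H) : Cfsg.IsCoherent (Cfsg.inducedIrrAbove K M) {1}ᶜ τ := by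

  classical
  have hH₁lt : H₁ < H := by
    refine lt_of_le_of_ne hH₁H ?_
    intro h
    rw [h, Subgroup.relIndex_self] at hbig
    omega
  have hstep : ∀ i : ℕ, ∃ B : Subgroup L, B.Normal ∧ M ≤ B ∧ B ≤ H₁ ∧
      IsCoherent (inducedIrrAbove K B) {1}ᶜ τ ∧
      ∀ x : H, (x : L) ∈ B → (QuotientGroup.mk x : ↥H ⧸ M.subgroupOf H) ∈
        Subgroup.lowerCentralSeries (⊤ : Subgroup (↥H ⧸ M.subgroupOf H)) i := by
    intro i
    induction i with
    | zero =>
      refine ⟨H₁, inferInstance, hMH₁, le_rfl, hcoh, ?_⟩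
      intro x _
      simp [Subgroup.lowerCentralSeries_zero]
    | succ i ih =>
      obtain ⟨B, hBn, hMB, hBH₁, hBcoh, hBlcs⟩ := ih
      haveI := hBn
      have hBH : B ≤ H := hBH₁.trans hH₁H
      have hBK : B ≤ K := hBH.trans hHK
      set B' : Subgroup L := ⁅B, H⁆ ⊔ M with hB'
      haveI : B'.Normal := Subgroup.sup_normal _ _
      have hB'B : B' ≤ B := sup_le (Subgroup.commutator_le_left B H) hMB
      have hAK : B < K := lt_of_le_of_lt hBH₁ (lt_of_lt_of_le hH₁lt hHK)
      have hBK' : B' < K := lt_of_le_of_lt hB'B hAK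
      have hB'coh : IsCoherent (inducedIrrAbove K B') {1}ᶜ τ := by
        refine Cfsg.Agent.S1519.result K hsolv τ R hS B B' H B hAK hBK' hB'B hBH hHK ?_ hBcoh ?_
        · intro x hx y hy
          have h1 : ⁅x, y⁆ ∈ ⁅B, H⁆ := Subgroup.commutator_mem_commutator hx hy
          rw [commutatorElement_def] at h1
          exact (le_sup_left : ⁅B, H⁆ ≤ B') h1
        · -- the numerical inequality
          have hidx : H.relIndex K * K.index = H.index := Subgroup.relIndex_mul_index hHK
          have hrel : B.relIndex H * H.relIndex K = B.relIndex K :=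
            Subgroup.relIndex_mul_relIndex _ _ _ hBH hHK
          have hrel2 : B.relIndex H₁ * H₁.relIndex H = B.relIndex H :=
            Subgroup.relIndex_mul_relIndex _ _ _ hBH₁ hH₁H
          have hb0 : 0 < B.relIndex H₁ :=
            Nat.pos_of_ne_zero (B.subgroupOf H₁).index_ne_zero_of_finite
          have hu0 : 0 < H.relIndex K :=
            Nat.pos_of_ne_zero (H.subgroupOf K).index_ne_zero_of_finite
          have hx : 4 * K.index ^ 2 + 1 < B.relIndex H := by
            calc 4 * K.index ^ 2 + 1 < H₁.relIndex H := hbig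
              _ ≤ B.relIndex H₁ * H₁.relIndex H := Nat.le_mul_of_pos_left _ hb0
              _ = _ := hrel2
          rw [← hidx, ← hrel]
          generalize B.relIndex H = x at *
          generalize H.relIndex K = u at *
          generalize K.index = e at *
          obtain ⟨y, rfl⟩ : ∃ y, x = y + 1 := ⟨x - 1, by omega⟩
          have hy : 4 * e ^ 2 + 1 ≤ y := by omega
          have h1 : y * u ≤ (y + 1) * u - 1 := by
            have : (y + 1) * u = y * u + u := by ring
            omega
          have h2 : (y * u) ^ 2 ≤ ((y + 1) * u - 1) ^ 2 := Nat.pow_le_pow_left h1 2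
          refine lt_of_lt_of_le ?_ h2
          have hu2 : 0 < u ^ 2 := by positivity
          have h3 : 4 * e ^ 2 * (y + 1) < y ^ 2 := by
            have h4 : 4 * e ^ 2 * (y + 1) = 4 * e ^ 2 * y + 4 * e ^ 2 := by ring
            have h5 : (4 * e ^ 2 + 1) * y ≤ y * y := Nat.mul_le_mul_right _ hy
            have h6 : (4 * e ^ 2 + 1) * y = 4 * e ^ 2 * y + y := by ring
            rw [sq y, h4]
            omega
          calc 4 * (u * e) ^ 2 * (y + 1) = u ^ 2 * (4 * e ^ 2 * (y + 1)) := by ring
            _ < u ^ 2 * y ^ 2 := Nat.mul_lt_mul_of_pos_left h3 hu2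
            _ = (y * u) ^ 2 := by ring
      refine ⟨B', inferInstance, le_sup_right, hB'B.trans hBH₁, hB'coh, ?_⟩
      -- the lower central series
      let T : Subgroup L := ((Subgroup.lowerCentralSeries (⊤ : Subgroup (↥H ⧸ M.subgroupOf H)) (i + 1)).comap
        (QuotientGroup.mk' (M.subgroupOf H))).map H.subtype
      have hT : B' ≤ T := by
        refine sup_le ?_ ?_
        · rw [Subgroup.commutator_le]
          intro b hb h hh
          have hbH : b ∈ H := hBH hb
          have hcm : ⁅b, h⁆ ∈ H := by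
            rw [commutatorElement_def]
            exact H.mul_mem (H.mul_mem (H.mul_mem hbH hh) (H.inv_mem hbH)) (H.inv_mem hh)
          refine ⟨⟨⁅b, h⁆, hcm⟩, ?_, rfl⟩
          have e1 : (⟨⁅b, h⁆, hcm⟩ : H) = ⁅(⟨b, hbH⟩ : H), (⟨h, hh⟩ : H)⁆ := by
            ext
            simp [commutatorElement_def]
          simp only [SetLike.mem_coe, Subgroup.mem_comap, QuotientGroup.mk'_apply]
          have e2 : (QuotientGroup.mk ⁅(⟨b, hbH⟩ : H), (⟨h, hh⟩ : H)⁆ : ↥H ⧸ M.subgroupOf H) =
              ⁅(QuotientGroup.mk (⟨b, hbH⟩ : H) : ↥H ⧸ M.subgroupOf H),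
                (QuotientGroup.mk (⟨h, hh⟩ : H) : ↥H ⧸ M.subgroupOf H)⁆ :=
            map_commutatorElement (QuotientGroup.mk' (M.subgroupOf H)) _ _
          rw [e1, e2, Subgroup.lowerCentralSeries_succ]
          exact Subgroup.commutator_mem_commutator (hBlcs ⟨b, hbH⟩ hb) (Subgroup.mem_top _)
        · intro m hm
          have hmH : m ∈ H := hBH (hMB hm)
          refine ⟨⟨m, hmH⟩, ?_, rfl⟩
          simp only [SetLike.mem_coe, Subgroup.mem_comap, QuotientGroup.mk'_apply]
          have : (QuotientGroup.mk (⟨m, hmH⟩ : H) : ↥H ⧸ M.subgroupOf H) = 1 :=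
            (QuotientGroup.eq_one_iff _).mpr (Subgroup.mem_subgroupOf.mpr hm)
          rw [this]
          exact Subgroup.one_mem _
      intro x hx
      obtain ⟨y, hy, hyx⟩ := hT hx
      have : y = x := Subtype.ext hyx
      subst this
      exact hy
  obtain ⟨c, hc⟩ := Subgroup.nilpotent_iff_lowerCentralSeries.mp hnil
  obtain ⟨B, _, hMB, hBH₁, hBcoh, hBlcs⟩ := hstep c
  have hBM : B ≤ M := by
    intro x hx
    have hxH : x ∈ H := hH₁H (hBH₁ hx)
    have h1 := hBlcs ⟨x, hxH⟩ hx
    rw [hc, Subgroup.mem_bot, QuotientGroup.eq_one_iff, Subgroup.mem_subgroupOf] at h1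
    exact h1
  rwa [le_antisymm hBM hMB] at hBcoh

end Cfsg.Agent.S1520
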