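import Mathlib
import Cfsg.Statements.S1521
import Cfsg.Agent.S1520
import Cfsg.Agent.S1517
import Cfsg.Agent.Lib.NilpAbel

set_option autoImplicit false
open Cfsg

namespace Cfsg.Agent.S1521

open Cfsg.Agent.Lib.CharBasic Cfsg.Agent.Lib.GenChar Cfsg.Agent.Lib.CoherenceBasic
open Cfsg.Agent.Lib.CoherenceExt Cfsg.Agent.Lib.CoherenceSys Cfsg.Agent.Lib.CharDecomp
open Cfsg.Agent.Lib.InducedIrr Cfsg.Agent.Lib.CoherenceLoop Cfsg.Agent.Lib.CharKernel
open scoped ComplexConjugate commutatorElement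

/-- The arithmetic of the Frobenius action. -/
private theorem arith_two {a b e : ℕ} (he : Odd e) (ha : Odd a) (hb : Odd b) (ha1 : 1 < a) (hb1 : 1 < b)
    (h1 : e ∣ a - 1) (h2 : e ∣ a * b - 1) : 4 * e ^ 2 + 1 < a * b := by
  have h3 : a * b - 1 = (a - 1) * b + (b - 1) := by
    obtain ⟨a', rfl⟩ : ∃ a', a = a' + 1 := ⟨a - 1, by omega⟩
    obtain ⟨b', rfl⟩ : ∃ b', b = b' + 1 := ⟨b - 1, by omega⟩
    simp only [Nat.add_sub_cancel]
    have : (a' + 1) * (b' + 1) = a' * (b' + 1) + b' + 1 := by ring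
    omega
  have h4 : e ∣ b - 1 := by
    rw [h3] at h2
    exact (Nat.dvd_add_right (Dvd.dvd.mul_right h1 b)).mp h2
  have hbig : ∀ c : ℕ, Odd c → 1 < c → e ∣ c - 1 → 2 * e + 1 ≤ c := by
    intro c hc hc1 hd
    have h5 : 2 ∣ c - 1 := by
      obtain ⟨k, rfl⟩ := hc
      simp
    have hcop : Nat.Coprime 2 e := (Nat.coprime_two_left).mpr he
    have h6 : 2 * e ∣ c - 1 := hcop.mul_dvd_of_dvd_of_dvd h5 hd
    have h7 := Nat.le_of_dvd (by omega) h6
    omega
  have ha2 := hbig a ha ha1 h1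
  have hb2 := hbig b hb hb1 h4
  have he0 : 0 < e := he.pos
  calc 4 * e ^ 2 + 1 < (2 * e + 1) * (2 * e + 1) := by nlinarith
    _ ≤ a * b := Nat.mul_le_mul ha2 hb2

/-- Let K be a solvable normal subgroup of the finite group L of odd order and (S, τ, R) a coherence system from L to G with S the functions induced from non-principal irreducible characters of K; S(A) as before. Let M ≤ K be normal in L with K/M nilpotent, H₁ = [K, K] ⊔ M, H₁ < K < L, and suppose every element of K outside H₁ is centralised modulo H₁ only from inside K (L/H₁ is a Frobenius group with kernel K/H₁). Suppose one of the following: some normal subgroup of L lies strictly between H₁ and K; or [K:H₁] > 4[L:K]^2 + 1; or [K:M] is not a prime power; or [K,K] ≤ M; or [K:M] is a power of a prime p with [L:K] dividing p − 1. Then S(M) is coherent. -/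
theorem result {L : Type*} [Group L] [Fintype L] {G : Type*} [Group G] [Fintype G] (K : Subgroup L) [hK : K.Normal] (hsolv : Group.IsSolvable K) (τ : (L → ℂ) → (G → ℂ)) (R : (L → ℂ) → Finset (G → ℂ)) (hS : Cfsg.IsCoherenceSystem (Cfsg.inducedIrrAbove K ⊥) τ R) (hodd : Odd (Nat.card L)) (M : Subgroup L) [M.Normal] (hMK : M ≤ K) [(M.subgroupOf K).Normal] (hnil : Group.IsNilpotent (↥K ⧸ M.subgroupOf K)) (H₁ : Subgroup L) (hH₁ : H₁ = ⁅K, K⁆ ⊔ M) (hH₁K : H₁ < K) (hKL : K < ⊤) (hfrob : ∀ k ∈ K, k ∉ H₁ → ∀ x : L, x * k * x⁻¹ * k⁻¹ ∈ H₁ → x ∈ K) (hgood : (∃ N : Subgroup L, N.Normal ∧ H₁ < N ∧ N < K) ∨ 4 * K.index ^ 2 + 1 < H₁.relIndex K ∨ (¬ ∃ p m : ℕ, p.Prime ∧ M.relIndex K = p ^ m) ∨ ⁅K, K⁆ ≤ M ∨ (∃ p m : ℕ, p.Prime ∧ M.relIndex K = p ^ m ∧ K.index ∣ p - 1)) : Cfsg.IsCoherent (Cfsg.inducedIrrAbove K M) {1}ᶜ τ := by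

  classical
  subst hH₁
  haveI : (⁅K, K⁆ ⊔ M).Normal := Subgroup.sup_normal _ _
  set H₁ : Subgroup L := ⁅K, K⁆ ⊔ M with hH₁def
  have hMH₁ : M ≤ H₁ := le_sup_right
  have hcK : ⁅K, K⁆ ≤ H₁ := le_sup_left
  have hH₁K' : H₁ ≤ K := hH₁K.le
  -- Step A: `S(H₁)` is coherent
  have hsubH₁ := inducedIrrAbove_subset_bot K H₁
  have hNA : H₁.subgroupOf K ≠ ⊤ := by
    intro h
    have h1 : K ≤ H₁ := Subgroup.subgroupOf_eq_top.mp h
    exact absurd (le_antisymm hH₁K' h1) hH₁K.ne
  obtain ⟨ℓ, hℓ, hℓne, hℓA, hℓ1⟩ := exists_linear_above hsolv (H₁.subgroupOf K) hNA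
  have hne₁ : (inducedIrrAbove K H₁).Nonempty :=
    ⟨indFun K ℓ, ℓ, hℓ, hℓne, fun a ha => hℓA a (Subgroup.mem_subgroupOf.mpr ha), rfl⟩
  have hS₁ := Cfsg.Agent.Lib.CoherenceSys.IsCoherenceSystem.sub hS hsubH₁ hne₁ (fun φ hφ => inducedIrrAbove_conj K H₁ hφ)
  have hdeg₁ : ∀ φ ∈ inducedIrrAbove K H₁, φ 1 = (K.index : ℂ) := by
    rintro φ ⟨θ, hθ, -, hθH, rfl⟩
    rw [Cfsg.Agent.Lib.CharInd.indFun_one]
    have hcomm : ∀ n ∈ commutator K, θ n = θ 1 := by
      intro n hn
      apply hθH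
      apply hcK
      rw [← Subgroup.map_subtype_commutator]
      exact Subgroup.mem_map_of_mem _ hn
    obtain ⟨χ', h1, h2⟩ := exists_quotient_irr (commutator K) hθ hcomm
    have h3 := Cfsg.Agent.Lib.CharCodegP.irr_one_of_comm
      (A := K ⧸ commutator K) (fun a b => mul_comm (G := Abelianization K) a b) h1
    have h4 := h2 1
    have h5 : θ 1 = 1 := by
      rw [← h4]
      exact h3
    rw [h5, mul_one]
  have hcohH₁ : IsCoherent (inducedIrrAbove K H₁) {1}ᶜ τ :=
    Cfsg.Agent.S1517.result _ τ R hS₁ (fun φ hφ ψ hψ => by rw [hdeg₁ φ hφ, hdeg₁ ψ hψ])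
  -- (ii)
  have hbigcase : 4 * K.index ^ 2 + 1 < H₁.relIndex K → IsCoherent (inducedIrrAbove K M) {1}ᶜ τ :=
    fun h => Cfsg.Agent.S1520.result K hsolv τ R hS M H₁ K hMH₁ hH₁K' le_rfl hnil hcohH₁ h
  -- (iv)
  have hcommcase : ⁅K, K⁆ ≤ M → IsCoherent (inducedIrrAbove K M) {1}ᶜ τ := by
    intro h
    have : H₁ = M := le_antisymm (sup_le h le_rfl) hMH₁
    rwa [this] at hcohH₁
  -- the action
  have hidx : ∀ N' : Subgroup L, N'.Normal → H₁ ≤ N' → N' ≤ K → K.index ∣ H₁.relIndex N' - 1 := by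
    intro N' hN' hH₁N' hN'K
    let π : L →* L ⧸ H₁ := QuotientGroup.mk' H₁
    have hπs : Function.Surjective π := QuotientGroup.mk'_surjective H₁
    have hπk : π.ker = H₁ := QuotientGroup.ker_mk' H₁
    let A : Subgroup (L ⧸ H₁) := N'.map π
    let B : Subgroup (L ⧸ H₁) := K.map π
    haveI : A.Normal := hN'.map π hπs
    have h1 : ∀ v ∈ A, v ≠ 1 → ∀ g : L ⧸ H₁, g * v = v * g ↔ g ∈ B := by
      rintro v ⟨x, hx, rfl⟩ hv g
      have hxH : x ∉ H₁ := fun h => hv ((QuotientGroup.eq_one_iff x).mpr h)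
      obtain ⟨y, rfl⟩ := QuotientGroup.mk_surjective g
      constructor
      · intro h
        have h2 : π (y * x * y⁻¹ * x⁻¹) = 1 := by
          simp only [map_mul, map_inv]
          have h3 : π y * π x = π x * π y := h
          rw [h3]
          group
        have h3 : y * x * y⁻¹ * x⁻¹ ∈ H₁ := (QuotientGroup.eq_one_iff _).mp h2
        exact ⟨y, hfrob x (hN'K hx) hxH y h3, rfl⟩
      · rintro ⟨y', hy', hyy'⟩
        have h2 : π y' = (y : L ⧸ H₁) := hyy'
        have h3 : ⁅y', x⁆ ∈ H₁ := hcK (Subgroup.commutator_mem_commutator hy' (hN'K hx))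
        have h4 : π ⁅y', x⁆ = 1 := (QuotientGroup.eq_one_iff _).mpr h3
        rw [map_commutatorElement, commutatorElement_eq_one_iff_commute] at h4
        rw [← h2]
        exact h4.eq
    have h2 := Cfsg.Agent.Lib.NilpAbel.index_dvd_card_sub_one A B h1
    have h3 : B.index = K.index := Subgroup.index_map_eq _ hπs (by rw [hπk]; exact hH₁K')
    have h4 : A.index = N'.index := Subgroup.index_map_eq _ hπs (by rw [hπk]; exact hH₁N')
    have h5 : Nat.card A * N'.index = H₁.relIndex N' * N'.index := by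
      calc Nat.card A * N'.index = Nat.card A * A.index := by rw [h4]
        _ = Nat.card (L ⧸ H₁) := Subgroup.card_mul_index A
        _ = H₁.index := rfl
        _ = _ := (Subgroup.relIndex_mul_index hH₁N').symm
    have h6 : Nat.card A = H₁.relIndex N' :=
      Nat.eq_of_mul_eq_mul_right (Nat.pos_of_ne_zero N'.index_ne_zero_of_finite) h5
    rwa [h3, h6] at h2
  have hoddrel : ∀ N' : Subgroup L, Odd (H₁.relIndex N') := by
    intro N'
    have h1 : H₁.relIndex N' ∣ Nat.card N' := by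
      have := Subgroup.card_mul_index (H₁.subgroupOf N')
      exact Dvd.intro_left _ this
    exact Odd.of_dvd_nat hodd (h1.trans (Subgroup.card_subgroup_dvd_card N'))
  have hoddrel' : ∀ N' : Subgroup L, H₁ ≤ N' → Odd (N'.relIndex K) := by
    intro N' _
    have h1 : N'.relIndex K ∣ Nat.card K := by
      have := Subgroup.card_mul_index (N'.subgroupOf K)
      exact Dvd.intro_left _ this
    exact Odd.of_dvd_nat hodd (h1.trans (Subgroup.card_subgroup_dvd_card K))
  have hodde : Odd K.index := Odd.of_dvd_nat hodd (Subgroup.index_dvd_card K)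
  -- (i)
  have hinter : (∃ N : Subgroup L, N.Normal ∧ H₁ < N ∧ N < K) → 4 * K.index ^ 2 + 1 < H₁.relIndex K := by
    rintro ⟨N, hN, h1, h2⟩
    have h3 : H₁.relIndex N * N.relIndex K = H₁.relIndex K :=
      Subgroup.relIndex_mul_relIndex _ _ _ h1.le h2.le
    have ha1 : 1 < H₁.relIndex N := by
      have h0 : H₁.relIndex N ≠ 0 := (H₁.subgroupOf N).index_ne_zero_of_finite
      have h5 : H₁.relIndex N ≠ 1 := fun h => by
        rw [Subgroup.relIndex_eq_one] at h
        exact absurd (le_antisymm h1.le h) h1.ne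
      omega
    have hb1 : 1 < N.relIndex K := by
      have h0 : N.relIndex K ≠ 0 := (N.subgroupOf K).index_ne_zero_of_finite
      have h5 : N.relIndex K ≠ 1 := fun h => by
        rw [Subgroup.relIndex_eq_one] at h
        exact absurd (le_antisymm h2.le h) h2.ne
      omega
    rw [← h3]
    refine arith_two hodde (hoddrel N) (hoddrel' N h1.le) ha1 hb1 (hidx N hN h1.le h2.le) ?_
    rw [h3]
    exact hidx K hK hH₁K' le_rfl
  -- quotient by `M`
  have hn1 : 1 < H₁.relIndex K := by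
    have h0 : H₁.relIndex K ≠ 0 := (H₁.subgroupOf K).index_ne_zero_of_finite
    have h5 : H₁.relIndex K ≠ 1 := fun h => by
      rw [Subgroup.relIndex_eq_one] at h
      exact absurd (le_antisymm hH₁K' h) hH₁K.ne
    omega
  have hmkcomm : ∀ x : K, (commutator K : Subgroup K) ≤ (commutator (↥K ⧸ M.subgroupOf K)).comap
      (QuotientGroup.mk' (M.subgroupOf K)) := by
    intro _
    rw [commutator_def, Subgroup.commutator_le]
    intro a _ b _
    rw [Subgroup.mem_comap, map_commutatorElement]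
    exact Subgroup.commutator_mem_commutator (Subgroup.mem_top _) (Subgroup.mem_top _)
  have hmk : ∀ x : K, (x : L) ∈ H₁ → (QuotientGroup.mk x : ↥K ⧸ M.subgroupOf K) ∈
      commutator (↥K ⧸ M.subgroupOf K) := by
    intro x hx
    obtain ⟨c, hc, m, hm, hcm⟩ := Subgroup.mem_sup_of_normal_right.mp hx
    have hcK' : c ∈ K := Subgroup.commutator_le_left K K hc
    have hmK' : m ∈ K := hMK hm
    have hxe : x = ⟨c, hcK'⟩ * ⟨m, hmK'⟩ := by
      ext
      simp [← hcm]
    have hc' : (⟨c, hcK'⟩ : K) ∈ commutator K := by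
      rw [← Subgroup.map_subtype_commutator] at hc
      obtain ⟨c', hc', hcc'⟩ := hc
      have : (⟨c, hcK'⟩ : K) = c' := by
        ext
        exact hcc'.symm
      rw [this]
      exact hc'
    have hm' : (QuotientGroup.mk (⟨m, hmK'⟩ : K) : ↥K ⧸ M.subgroupOf K) = 1 :=
      (QuotientGroup.eq_one_iff _).mpr (Subgroup.mem_subgroupOf.mpr hm)
    rw [hxe, QuotientGroup.mk_mul, hm', mul_one]
    exact hmkcomm x hc'
  have hpow : ∀ n : ℕ, H₁.relIndex K = n → ∀ g : ↥K ⧸ M.subgroupOf K, g ^ n ∈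
      commutator (↥K ⧸ M.subgroupOf K) := by
    intro n hn g
    obtain ⟨x, rfl⟩ := QuotientGroup.mk_surjective g
    haveI : (H₁.subgroupOf K).Normal := inferInstance
    have h1 : x ^ n ∈ H₁.subgroupOf K := by
      rw [← hn]
      exact Subgroup.pow_index_mem _ x
    have h2 := hmk _ (Subgroup.mem_subgroupOf.mp h1)
    rwa [QuotientGroup.mk_pow] at h2
  -- a prime power index of `H₁` forces a prime power index of `M`
  have hpp : ∀ p a : ℕ, p.Prime → H₁.relIndex K = p ^ a → ∃ m : ℕ, M.relIndex K = p ^ m := by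
    intro p a hp ha
    haveI : Fact p.Prime := ⟨hp⟩
    haveI := hnil
    obtain ⟨c, hc⟩ := Cfsg.Agent.Lib.NilpAbel.exists_pow_eq_one (p ^ a) (hpow _ ha)
    have hP : IsPGroup p (↥K ⧸ M.subgroupOf K) := by
      intro g
      refine ⟨a * c, ?_⟩
      have := hc g
      rwa [← pow_mul] at this
    obtain ⟨m, hm⟩ := IsPGroup.iff_card.mp hP
    exact ⟨m, hm⟩
  -- a prime index of `H₁`: the commutator case
  have hprimeidx : ∀ p : ℕ, p.Prime → H₁.relIndex K = p → ⁅K, K⁆ ≤ M := by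
    intro p hp hn
    haveI : Fact p.Prime := ⟨hp⟩
    haveI := hnil
    haveI : (H₁.subgroupOf K).Normal := inferInstance
    haveI : IsCyclic (↥K ⧸ H₁.subgroupOf K) := by
      apply isCyclic_of_prime_card (p := p)
      exact hn
    let Q := ↥K ⧸ M.subgroupOf K
    let f : ↥K ⧸ H₁.subgroupOf K →* Q ⧸ commutator Q :=
      QuotientGroup.lift _ ((QuotientGroup.mk' (commutator Q)).comp (QuotientGroup.mk' (M.subgroupOf K)))
        (fun x hx => (QuotientGroup.eq_one_iff _).mpr (hmk x (Subgroup.mem_subgroupOf.mp hx)))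
    have hfs : Function.Surjective f := by
      intro y
      obtain ⟨y, rfl⟩ := QuotientGroup.mk_surjective y
      obtain ⟨y, rfl⟩ := QuotientGroup.mk_surjective y
      exact ⟨(y : ↥K ⧸ H₁.subgroupOf K), rfl⟩
    have hcyc : IsCyclic (Q ⧸ commutator Q) := isCyclic_of_surjective f hfs
    have hbot := Cfsg.Agent.Lib.NilpAbel.comm_of_isCyclic_abelianization hcyc
    rw [← Subgroup.map_subtype_commutator]
    rintro _ ⟨c, hc, rfl⟩
    have h1 := hmkcomm c hc
    have h2 : (QuotientGroup.mk c : Q) ∈ commutator Q := h1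
    rw [hbot, Subgroup.mem_bot] at h2
    exact Subgroup.mem_subgroupOf.mp ((QuotientGroup.eq_one_iff _).mp h2)
  -- the case analysis
  rcases hgood with h | h | h | h | h
  · exact hbigcase (hinter h)
  · exact hbigcase h
  · -- not a prime power
    apply hbigcase
    apply hinter
    set n := H₁.relIndex K with hn
    have hn0 : n ≠ 0 := by omega
    set r := n.minFac with hr
    have hrp : r.Prime := Nat.minFac_prime (by omega)
    have hrd : r ∣ n := Nat.minFac_dvd n
    obtain ⟨s, hsp, hsd, hsr⟩ : ∃ s : ℕ, s.Prime ∧ s ∣ n ∧ s ≠ r := by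
      by_contra hcon
      push Not at hcon
      have h1 := Nat.eq_prime_pow_of_unique_prime_dvd hn0 (fun {d} hd hdn => hcon d hd hdn)
      obtain ⟨m, hm⟩ := hpp r _ hrp h1
      exact h ⟨r, m, hrp, hm⟩
    haveI : (H₁.subgroupOf K).Normal := inferInstance
    haveI : Fact r.Prime := ⟨hrp⟩
    haveI : Fact s.Prime := ⟨hsp⟩
    -- elements of order `r` and `s` modulo `H₁`
    have hcardV : Nat.card (↥K ⧸ H₁.subgroupOf K) = n := rfl
    obtain ⟨xb, hxb⟩ := exists_prime_orderOf_dvd_card' r (by rw [hcardV]; exact hrd)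
    obtain ⟨yb, hyb⟩ := exists_prime_orderOf_dvd_card' s (by rw [hcardV]; exact hsd)
    obtain ⟨x, rfl⟩ := QuotientGroup.mk_surjective xb
    obtain ⟨y, rfl⟩ := QuotientGroup.mk_surjective yb
    have hxr : (x : L) ^ r ∈ H₁ := by
      have h1 : ((x ^ r : K) : ↥K ⧸ H₁.subgroupOf K) = 1 := by
        rw [QuotientGroup.mk_pow, ← hxb, pow_orderOf_eq_one]
      exact Subgroup.mem_subgroupOf.mp ((QuotientGroup.eq_one_iff _).mp h1)
    have hxn : (x : L) ∉ H₁ := by
      intro h1
      have h2 : (x : ↥K ⧸ H₁.subgroupOf K) = 1 :=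
        (QuotientGroup.eq_one_iff _).mpr (Subgroup.mem_subgroupOf.mpr h1)
      rw [h2, orderOf_one] at hxb
      exact hrp.one_lt.ne hxb
    have hys : (y : L) ^ s ∈ H₁ := by
      have h1 : ((y ^ s : K) : ↥K ⧸ H₁.subgroupOf K) = 1 := by
        rw [QuotientGroup.mk_pow, ← hyb, pow_orderOf_eq_one]
      exact Subgroup.mem_subgroupOf.mp ((QuotientGroup.eq_one_iff _).mp h1)
    have hyn : (y : L) ∉ H₁ := by
      intro h1
      have h2 : (y : ↥K ⧸ H₁.subgroupOf K) = 1 :=
        (QuotientGroup.eq_one_iff _).mpr (Subgroup.mem_subgroupOf.mpr h1)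
      rw [h2, orderOf_one] at hyb
      exact hsp.one_lt.ne hyb
    -- the subgroup of elements with `r`-th power in `H₁`
    let π : L →* L ⧸ H₁ := QuotientGroup.mk' H₁
    have hπ : ∀ z, π z = 1 ↔ z ∈ H₁ := fun z => QuotientGroup.eq_one_iff z
    have hcommK : ∀ a ∈ K, ∀ b ∈ K, Commute (π a) (π b) := by
      intro a ha b hb
      have h3 : ⁅a, b⁆ ∈ H₁ := hcK (Subgroup.commutator_mem_commutator ha hb)
      have h4 : π ⁅a, b⁆ = 1 := (hπ _).mpr h3
      rwa [map_commutatorElement, commutatorElement_eq_one_iff_commute] at h4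
    let N : Subgroup L :=
      { carrier := {z | z ∈ K ∧ z ^ r ∈ H₁}
        mul_mem' := by
          rintro a b ⟨ha1, ha2⟩ ⟨hb1, hb2⟩
          refine ⟨K.mul_mem ha1 hb1, (hπ _).mp ?_⟩
          rw [map_pow, map_mul, (hcommK a ha1 b hb1).mul_pow, ← map_pow, ← map_pow,
            (hπ _).mpr ha2, (hπ _).mpr hb2, one_mul]
        one_mem' := ⟨K.one_mem, by simp⟩
        inv_mem' := by
          rintro a ⟨ha1, ha2⟩
          refine ⟨K.inv_mem ha1, ?_⟩
          rw [inv_pow]
          exact H₁.inv_mem ha2 }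
    have hNn : N.Normal := by
      constructor
      rintro z ⟨hz1, hz2⟩ g
      refine ⟨hK.conj_mem z hz1 g, ?_⟩
      rw [conj_pow]
      exact (inferInstance : H₁.Normal).conj_mem _ hz2 g
    refine ⟨N, hNn, ?_, ?_⟩
    · refine lt_of_le_of_ne (fun z hz => ⟨hH₁K' hz, H₁.pow_mem hz r⟩) ?_
      intro h1
      apply hxn
      rw [h1]
      exact ⟨x.2, hxr⟩
    · refine lt_of_le_of_ne (fun z hz => hz.1) ?_
      intro h1
      apply hyn
      have h2 : (y : L) ∈ N := by
        rw [h1]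
        exact y.2
      have h3 : (y : L) ^ r ∈ H₁ := h2.2
      have hcop : Nat.Coprime s r := (Nat.coprime_primes hsp hrp).mpr hsr
      have h5 : π (y : L) ^ s = 1 := by rw [← map_pow]; exact (hπ _).mpr hys
      have h6 : π (y : L) ^ r = 1 := by rw [← map_pow]; exact (hπ _).mpr h3
      have h7 : orderOf (π (y : L)) ∣ Nat.gcd s r :=
        Nat.dvd_gcd (orderOf_dvd_of_pow_eq_one h5) (orderOf_dvd_of_pow_eq_one h6)
      rw [hcop.gcd_eq_one, Nat.dvd_one, orderOf_eq_one_iff] at h7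
      exact (hπ _).mp h7
  · exact hcommcase h
  · obtain ⟨p, m, hp, hm, hdvd⟩ := h
    have h1 : M.relIndex H₁ * H₁.relIndex K = M.relIndex K :=
      Subgroup.relIndex_mul_relIndex _ _ _ hMH₁ hH₁K'
    have h2 : H₁.relIndex K ∣ p ^ m := by
      rw [← hm, ← h1]
      exact Dvd.intro_left _ rfl
    obtain ⟨k, -, hk⟩ := (Nat.dvd_prime_pow hp).mp h2
    have hk0 : k ≠ 0 := by
      rintro rfl
      rw [pow_zero] at hk
      omega
    by_cases hk1 : k = 1
    · subst hk1
      rw [pow_one] at hk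
      exact hcommcase (hprimeidx p hp hk)
    · apply hbigcase
      have hk2 : 2 ≤ k := by omega
      have hpodd : Odd p := by
        have h3 : Odd (p ^ k) := by
          rw [← hk]
          exact hoddrel K
        exact (Nat.odd_pow_iff hk0).mp h3
      have h5 : 2 ∣ p - 1 := by
        obtain ⟨j, rfl⟩ := hpodd
        simp
      have hcop : Nat.Coprime 2 K.index := (Nat.coprime_two_left).mpr hodde
      have h6 : 2 * K.index ∣ p - 1 := hcop.mul_dvd_of_dvd_of_dvd h5 hdvd
      have h7 := Nat.le_of_dvd (by have := hp.one_lt; omega) h6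
      have he0 : 0 < K.index := hodde.pos
      have hp2 : 2 * K.index + 1 ≤ p := by
        have := hp.one_lt
        omega
      have h8 : p ^ 2 ≤ p ^ k := Nat.pow_le_pow_right hp.pos hk2
      rw [hk]
      calc 4 * K.index ^ 2 + 1 < (2 * K.index + 1) ^ 2 := by nlinarith
        _ ≤ p ^ 2 := Nat.pow_le_pow_left hp2 2
        _ ≤ p ^ k := h8

end Cfsg.Agent.S1521
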