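import Mathlib
import Cfsg.Statements.S1525
import Cfsg.Agent.Lib.DadeCount

set_option autoImplicit false
open Cfsg

namespace Cfsg.Agent.S1525

open Cfsg.Agent.Lib.DadeCount

private theorem finsum_set {X : Type*} [Fintype X] (S : Set X) (f : X → ℝ) [DecidablePred (· ∈ S)] :
    ∑ᶠ x ∈ S, f x = ∑ x : X, if x ∈ S then f x else 0 := by
  classical
  rw [finsum_mem_eq_toFinset_sum f S, ← Finset.sum_filter]
  refine Finset.sum_congr ?_ fun _ _ => rfl
  ext w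
  simp

private theorem avg_le {G : Type*} [Fintype G] (K : Set G) [DecidablePred (· ∈ K)] (z : G → ℂ)
    (n : ℕ) (hn : n = (Finset.univ.filter (· ∈ K)).card) (hn0 : n ≠ 0) :
    ‖(n : ℂ)⁻¹ * ∑ w : G, (if w ∈ K then z w else 0)‖ ^ 2 ≤
      (n : ℝ)⁻¹ * ∑ w : G, (if w ∈ K then ‖z w‖ ^ 2 else 0) := by
  have hn' : (0 : ℝ) < n := by exact_mod_cast Nat.pos_of_ne_zero hn0
  rw [← Finset.sum_filter, ← Finset.sum_filter]
  have h1 : ‖∑ w ∈ Finset.univ.filter (· ∈ K), z w‖ ≤ ∑ w ∈ Finset.univ.filter (· ∈ K), ‖z w‖ :=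
    norm_sum_le _ _
  have h2 : (∑ w ∈ Finset.univ.filter (· ∈ K), ‖z w‖) ^ 2 ≤
      (n : ℝ) * ∑ w ∈ Finset.univ.filter (· ∈ K), ‖z w‖ ^ 2 := by
    have := sq_sum_le_card_mul_sum_sq (s := Finset.univ.filter (· ∈ K)) (f := fun w => ‖z w‖)
    rw [← hn] at this
    exact this
  rw [norm_mul, norm_inv, Complex.norm_natCast, mul_pow, inv_pow]
  have h3 : ‖∑ w ∈ Finset.univ.filter (· ∈ K), z w‖ ^ 2 ≤
      (n : ℝ) * ∑ w ∈ Finset.univ.filter (· ∈ K), ‖z w‖ ^ 2 := by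
    refine le_trans ?_ h2
    exact pow_le_pow_left₀ (norm_nonneg _) h1 2
  calc ((n : ℝ) ^ 2)⁻¹ * ‖∑ w ∈ Finset.univ.filter (· ∈ K), z w‖ ^ 2
      ≤ ((n : ℝ) ^ 2)⁻¹ * ((n : ℝ) * ∑ w ∈ Finset.univ.filter (· ∈ K), ‖z w‖ ^ 2) := by
        gcongr
    _ = (n : ℝ)⁻¹ * ∑ w ∈ Finset.univ.filter (· ∈ K), ‖z w‖ ^ 2 := by
        field_simp

/-- Under the Dade hypothesis for (A, L, H), let χ be a class function of G and let ψ be a function on L whose value at each a ∈ A is the average of χ over the coset a·H(a). Then (1/|G|) Σ |χ g|² over the elements g of G conjugate into some coset a·H(a) with a ∈ A is at least (1/|L|) Σ_{a ∈ A ∩ L} |ψ a|². -/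
theorem result {G : Type*} [Group G] [Fintype G] (A : Set G) (L : Subgroup G) [Fintype L] (H : G → Subgroup G) (hD : Cfsg.DadeHypothesis A L H) (χ : G → ℂ) (hχ : Cfsg.IsClassFunction G χ) (ψ : L → ℂ) (hψ : ∀ a : L, (a : G) ∈ A → ψ a = (Nat.card (H a) : ℂ)⁻¹ * ∑ᶠ u ∈ (H a : Set G), χ (a * u)) : (Nat.card L : ℝ)⁻¹ * ∑ᶠ a ∈ {a : L | (a : G) ∈ A}, ‖ψ a‖ ^ 2 ≤ (Nat.card G : ℝ)⁻¹ * ∑ᶠ g ∈ {g : G | ∃ a ∈ A, ∃ u ∈ H a, ∃ x : G, x * g * x⁻¹ = a * u}, ‖χ g‖ ^ 2 := by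
  classical
  set Ω : Set G := {g : G | ∃ a ∈ A, ∃ u ∈ H a, ∃ x : G, x * g * x⁻¹ = a * u} with hΩ
  let γ : L → ℂ := fun a => if (a : G) ∈ A then 1 else 0
  have hγ : IsClassFunction L γ := by
    intro g h
    have hiff : ((h * g * h⁻¹ : L) : G) ∈ A ↔ (g : G) ∈ A := by
      constructor
      · intro hm
        have := hD.conj_mem (h⁻¹ : L) (h⁻¹ : L).2 _ hm
        simpa [mul_assoc] using this
      · intro hm
        have := hD.conj_mem h h.2 _ hm
        simpa using this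
    show (if ((h * g * h⁻¹ : L) : G) ∈ A then (1 : ℂ) else 0) = if (g : G) ∈ A then 1 else 0
    simp only [hiff]
  have hdade : ∀ g : G, dadeIsometry A L H γ g = if g ∈ Ω then 1 else 0 := by
    intro g
    by_cases hg : g ∈ Ω
    · rw [if_pos hg]
      obtain ⟨a, ha, u, hu, x, hx⟩ := hg
      have := dade_eq hD hγ (a := ⟨a, hD.subset ha⟩) ha hu hx
      rw [this]
      simp [γ, ha]
    · rw [if_neg hg, dade_eq_zero]
      rintro ⟨a, ha, x, u, hu, hx⟩
      exact hg ⟨a, ha, u, hu, x, hx⟩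
  let F : G → ℂ := fun g => ((‖χ g‖ ^ 2 : ℝ) : ℂ)
  have hF : IsClassFunction G F := fun g h => by
    simp only [F, hχ g h]
  have key := dade_sum hD hγ F hF
  set SG : ℝ := ∑ g : G, if g ∈ Ω then ‖χ g‖ ^ 2 else 0 with hSG
  set SL : ℝ := ∑ a : L, if (a : G) ∈ A then (Nat.card (H a) : ℝ)⁻¹ *
    ∑ w : G, (if w ∈ H a then ‖χ (a * w)‖ ^ 2 else 0) else 0 with hSL
  have hreal : (Nat.card L : ℝ) * SG = (Nat.card G : ℝ) * SL := by
    have h1 : (∑ g, dadeIsometry A L H γ g * F g) = ((SG : ℝ) : ℂ) := by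
      rw [hSG]
      push_cast
      refine Finset.sum_congr rfl fun g _ => ?_
      rw [hdade g]
      by_cases hg : g ∈ Ω <;> simp [hg, F]
    have h2 : (∑ a : L, if (a : G) ∈ A then
        γ a / (Nat.card (H a) : ℂ) * ∑ w : G, (if w ∈ H a then F (a * w) else 0) else 0) =
        ((SL : ℝ) : ℂ) := by
      rw [hSL]
      push_cast
      refine Finset.sum_congr rfl fun a _ => ?_
      by_cases ha : (a : G) ∈ A
      · simp only [ha, if_true, γ, F]
        rw [one_div]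
        push_cast
        congr 1
        apply Finset.sum_congr rfl
        intro w _
        split_ifs <;> simp
      · simp [ha]
    rw [h1, h2] at key
    exact_mod_cast key
  have hle : (∑ a : L, (if (a : G) ∈ A then ‖ψ a‖ ^ 2 else (0 : ℝ))) ≤ SL := by
    refine Finset.sum_le_sum fun a _ => ?_
    by_cases ha : (a : G) ∈ A
    · simp only [ha, if_true]
      rw [hψ a ha, Cfsg.Agent.Lib.DadeCount.finsum_coset (H a) (fun u => χ (a * u))]
      have hn : Nat.card (H a) = (Finset.univ.filter (· ∈ (H a : Set G))).card := by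
        rw [Nat.card_eq_fintype_card]
        rw [Fintype.card_subtype]
        rfl
      exact avg_le (H a : Set G) (fun w => χ (a * w)) (Nat.card (H a)) hn Nat.card_pos.ne'
    · simp [ha]
  rw [finsum_set, finsum_set]
  have hG : (0 : ℝ) < Nat.card G := by exact_mod_cast Nat.card_pos
  have hL : (0 : ℝ) < Nat.card L := by exact_mod_cast Nat.card_pos
  have h5 : SL = (Nat.card G : ℝ)⁻¹ * (Nat.card L : ℝ) * SG := by
    field_simp
    linear_combination -hreal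
  change (Nat.card L : ℝ)⁻¹ * (∑ a : L, if (a : G) ∈ A then ‖ψ a‖ ^ 2 else (0 : ℝ)) ≤
    (Nat.card G : ℝ)⁻¹ * SG
  calc (Nat.card L : ℝ)⁻¹ * (∑ a : L, if (a : G) ∈ A then ‖ψ a‖ ^ 2 else (0 : ℝ))
      ≤ (Nat.card L : ℝ)⁻¹ * SL := by gcongr
    _ = (Nat.card G : ℝ)⁻¹ * SG := by
        rw [h5]
        field_simp

end Cfsg.Agent.S1525
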