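import Mathlib
import Cfsg.Statements.S1527

set_option autoImplicit false
open Cfsg

namespace Cfsg.Agent.S1527

open Classical in
private lemma card_conj_part {G : Type*} [Group G] [Fintype G] (H : Subgroup G)
    (hTI : Cfsg.IsTISubset (H : Set G)) :
    (Finset.univ.filter (fun g : G => g ≠ 1 ∧ ∃ x : G, x * g * x⁻¹ ∈ H)).card =
      (Subgroup.normalizer (H : Set G)).index * (Nat.card H - 1) := by
  set N := Subgroup.normalizer (H : Set G) with hN
  set X := Finset.univ.filter (fun g : G => g ≠ 1 ∧ ∃ x : G, x * g * x⁻¹ ∈ H) with hX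
  set H' := Finset.univ.filter (fun h : G => h ∈ H ∧ h ≠ 1) with hH'
  have hH'card : H'.card = Nat.card H - 1 := by
    have h1 : (Finset.univ.filter (fun h : G => h ∈ H)).card = Nat.card H := by
      rw [Nat.card_eq_fintype_card, Fintype.card_subtype]
    have h2 : H' = (Finset.univ.filter (fun h : G => h ∈ H)).erase 1 := by
      ext g
      simp [hH', and_comm]
    rw [h2, Finset.card_erase_of_mem (by simp [H.one_mem]), h1]
  set T := (Finset.univ : Finset G) ×ˢ H' with hT
  let f : G × G → G := fun p => p.1⁻¹ * p.2 * p.1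
  have hfmaps : ∀ p ∈ T, f p ∈ X := by
    intro p hp
    simp only [hT, hH', Finset.mem_product, Finset.mem_univ, true_and, Finset.mem_filter] at hp
    simp only [hX, Finset.mem_filter, Finset.mem_univ, true_and]
    refine ⟨?_, p.1, ?_⟩
    · intro h
      apply hp.2
      have : p.1⁻¹ * p.2 * p.1 = 1 := h
      have h3 : p.2 = p.1 * 1 * p.1⁻¹ := by
        rw [← this]; group
      simpa using h3
    · have : p.1 * (f p) * p.1⁻¹ = p.2 := by simp only [f]; group
      rw [this]; exact hp.1
  have hfib : ∀ g ∈ X, (T.filter (fun p => f p = g)).card = Nat.card N := by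
    intro g hg
    simp only [hX, Finset.mem_filter, Finset.mem_univ, true_and] at hg
    obtain ⟨hg1, x₀, hx₀⟩ := hg
    set h₀ := x₀ * g * x₀⁻¹ with hh₀
    have hh₀1 : h₀ ≠ 1 := by
      intro h
      apply hg1
      have : g = x₀⁻¹ * h₀ * x₀ := by rw [hh₀]; group
      rw [this, h]; group
    rw [Nat.card_eq_fintype_card, ← Finset.card_univ]
    symm
    apply Finset.card_bij (fun (y : N) _ => ((y : G) * x₀, (y : G) * h₀ * (y : G)⁻¹))
    · intro y _
      simp only [Finset.mem_filter, hT, hH', Finset.mem_product, Finset.mem_univ, true_and]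
      refine ⟨⟨?_, ?_⟩, ?_⟩
      · exact (Subgroup.mem_normalizer_iff.mp y.2 h₀).mp hx₀
      · intro h
        apply hh₀1
        have : h₀ = (y : G)⁻¹ * ((y : G) * h₀ * (y : G)⁻¹) * y := by group
        rw [this, h]; group
      · simp only [f, hh₀]; group
    · intro y _ z _ h
      have h1 := congrArg Prod.fst h
      simp only at h1
      exact Subtype.ext (mul_right_cancel h1)
    · intro p hp
      simp only [Finset.mem_filter, hT, hH', Finset.mem_product, Finset.mem_univ, true_and] at hp
      obtain ⟨⟨hp1, hp2⟩, hp3⟩ := hp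
      have hy : p.1 * x₀⁻¹ ∈ N := by
        by_contra hcontra
        apply hh₀1
        apply hTI _ hcontra h₀ hx₀
        have : p.1 * x₀⁻¹ * h₀ * (p.1 * x₀⁻¹)⁻¹ = p.2 := by
          have hp3' : p.1⁻¹ * p.2 * p.1 = g := hp3
          rw [hh₀, ← hp3']; group
        rw [SetLike.mem_coe, this]; exact hp1
      refine ⟨⟨_, hy⟩, Finset.mem_univ _, ?_⟩
      ext
      · simp
      · simp only
        have hp3' : p.1⁻¹ * p.2 * p.1 = g := hp3
        rw [hh₀, ← hp3']; group
  have hTcard : T.card = Nat.card G * (Nat.card H - 1) := by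
    rw [hT, Finset.card_product, hH'card, Finset.card_univ, ← Nat.card_eq_fintype_card]
  have hsum : T.card = X.card * Nat.card N := by
    rw [Finset.card_eq_sum_card_fiberwise hfmaps]
    rw [Finset.sum_congr rfl hfib, Finset.sum_const, smul_eq_mul]
  have hNpos : 0 < Nat.card N := Nat.card_pos
  have hidx : N.index * Nat.card N = Nat.card G := Subgroup.index_mul_card N
  apply Nat.eq_of_mul_eq_mul_right hNpos
  rw [← hsum, hTcard, ← hidx]
  ring

/-- Let G be a finite group and H i (i in a finite index type) subgroups of pairwise coprime orders, each of whose underlying sets is a TI-subset of G, such that every non-identity element of G is conjugate to an element of some H i. Then Nat.card G − 1 = Σ_i [G : N_G(H i)] · (Nat.card (H i) − 1). -/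
theorem result {G : Type*} [Group G] [Finite G] {ι : Type*} [Fintype ι] (H : ι → Subgroup G) (hcop : ∀ i j, i ≠ j → Nat.Coprime (Nat.card (H i)) (Nat.card (H j))) (hTI : ∀ i, Cfsg.IsTISubset (H i : Set G)) (hcover : ∀ g : G, g ≠ 1 → ∃ i, ∃ x : G, x * g * x⁻¹ ∈ H i) : Nat.card G - 1 = ∑ i, (Subgroup.normalizer (H i : Set G)).index * (Nat.card (H i) - 1) := by
  classical
  have := Fintype.ofFinite G
  let X : ι → Finset G := fun i => Finset.univ.filter (fun g : G => g ≠ 1 ∧ ∃ x : G, x * g * x⁻¹ ∈ H i)
  have hcard : ∀ i, (X i).card = (Subgroup.normalizer (H i : Set G)).index * (Nat.card (H i) - 1) :=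
    fun i => by
      simp only [X]
      convert card_conj_part (H i) (hTI i)
  have hdisj : (↑(Finset.univ : Finset ι) : Set ι).PairwiseDisjoint X := by
    intro i _ j _ hij
    rw [Function.onFun, Finset.disjoint_left]
    intro g hgi hgj
    simp only [X, Finset.mem_filter, Finset.mem_univ, true_and] at hgi hgj
    obtain ⟨hg1, x, hx⟩ := hgi
    obtain ⟨_, y, hy⟩ := hgj
    have h1 : orderOf g ∣ Nat.card (H i) := by
      have := Subgroup.orderOf_dvd_natCard (H i) hx
      have h2 : orderOf (x * g * x⁻¹) = orderOf g := by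
        exact (SemiconjBy.orderOf_eq x (x := g) (y := x * g * x⁻¹) (by simp [SemiconjBy])).symm
      rwa [h2] at this
    have h2 : orderOf g ∣ Nat.card (H j) := by
      have := Subgroup.orderOf_dvd_natCard (H j) hy
      have h2 : orderOf (y * g * y⁻¹) = orderOf g := by
        exact (SemiconjBy.orderOf_eq y (x := g) (y := y * g * y⁻¹) (by simp [SemiconjBy])).symm
      rwa [h2] at this
    have h3 := Nat.eq_one_of_dvd_coprimes (hcop i j hij) h1 h2
    exact hg1 (orderOf_eq_one_iff.mp h3)
  have hunion : (Finset.univ.filter (fun g : G => g ≠ 1)) = Finset.univ.biUnion X := by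
    ext g
    simp only [Finset.mem_filter, Finset.mem_univ, true_and, Finset.mem_biUnion, X]
    constructor
    · intro h
      obtain ⟨i, x, hx⟩ := hcover g h
      exact ⟨i, h, x, hx⟩
    · rintro ⟨i, h, _⟩
      exact h
  have h1 : (Finset.univ.filter (fun g : G => g ≠ 1)).card = Nat.card G - 1 := by
    have : (Finset.univ.filter (fun g : G => g ≠ 1)) = Finset.univ.erase 1 := by
      ext g; simp
    rw [this, Finset.card_erase_of_mem (Finset.mem_univ _), Finset.card_univ, Nat.card_eq_fintype_card]
  rw [← h1, hunion, Finset.card_biUnion (fun i hi j hj hij => hdisj hi hj hij)]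
  exact Finset.sum_congr rfl fun i _ => hcard i

end Cfsg.Agent.S1527
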