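import Mathlib
import Cfsg.Statements.S1530
import Cfsg.Agent.Lib.CoherenceExt

set_option autoImplicit false
open Cfsg

namespace Cfsg.Agent.S1530

open Cfsg.Agent.Lib.CharBasic Cfsg.Agent.Lib.GenChar Cfsg.Agent.Lib.CoherenceBasic
  Cfsg.Agent.Lib.CoherenceExt
open scoped ComplexConjugate

/-- Let N be a subgroup of the finite group G and S₀ a finite set of irreducible characters of N, χ an irreducible character of N not in S₀, with degrees ξ 1 = d ξ. Let τ be a linear isometry on the integer combinations of S₀ ∪ {χ} vanishing at 1, with values virtual characters of G vanishing at 1, such that (S₀, N minus 1, τ) is coherent. If some ψ ∈ S₀ has d ψ dividing d χ and 2 · d ψ · d χ < Σ_{ξ ∈ S₀} (d ξ)², then (S₀ ∪ {χ}, N minus 1, τ) is coherent. -/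
theorem result {G : Type*} [Group G] [Fintype G] (N : Subgroup G) [Fintype N] (S₀ : Finset (N → ℂ)) (χ : N → ℂ) (hirr : ∀ ξ ∈ S₀, Cfsg.IsIrrCharacter N ξ) (hχ : Cfsg.IsIrrCharacter N χ) (hχS : χ ∉ S₀) (d : (N → ℂ) → ℕ) (hd : ∀ ξ ∈ insert χ S₀, ξ 1 = (d ξ : ℂ)) (τ : (N → ℂ) → (G → ℂ)) (hτ : Cfsg.IsLinearIsometryOn (Cfsg.zspanOn (↑(insert χ S₀) : Set (N → ℂ)) {1}ᶜ) τ) (hτ1 : ∀ α ∈ Cfsg.zspanOn (↑(insert χ S₀) : Set (N → ℂ)) {1}ᶜ, τ α 1 = 0) (hcoh : Cfsg.IsCoherent (↑S₀ : Set (N → ℂ)) {1}ᶜ τ) (ψ : N → ℂ) (hψ : ψ ∈ S₀) (hdvd : d ψ ∣ d χ) (hlt : 2 * d ψ * d χ < ∑ ξ ∈ S₀, d ξ ^ 2) : Cfsg.IsCoherent (↑(insert χ S₀) : Set (N → ℂ)) {1}ᶜ τ := by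
  classical
  obtain ⟨⟨θ₀, hθ₀, hne₀⟩, τ₀, hτ₀, hagree⟩ := hcoh
  have hcoe : (↑(insert χ S₀) : Set (N → ℂ)) = insert χ (↑S₀ : Set (N → ℂ)) := Finset.coe_insert _ _
  rw [hcoe] at hτ hτ1 ⊢
  set S : Set (N → ℂ) := (↑S₀ : Set (N → ℂ)) with hSdef
  have hmemS : ∀ ξ, ξ ∈ S₀ → ξ ∈ S := fun ξ h => h
  have hS : ∀ ξ ∈ S, IsIrrCharacter N ξ := fun ξ h => hirr ξ h
  have hχS' : χ ∉ S := hχS
  have hdeg : ∀ ξ ∈ S₀, ξ 1 = (d ξ : ℂ) := fun ξ h => hd ξ (Finset.mem_insert_of_mem h)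
  have hdχ : χ 1 = (d χ : ℂ) := hd χ (Finset.mem_insert_self _ _)
  have hdpos : ∀ ξ, IsIrrCharacter N ξ → ξ 1 = (d ξ : ℂ) → 0 < d ξ := by
    intro ξ hξ h
    obtain ⟨k, hk, h2⟩ := isIrr_one_pos hξ
    rw [h] at h2
    have : d ξ = k := by exact_mod_cast h2
    omega
  obtain ⟨a, ha⟩ := hdvd
  have hepos : 0 < d ψ := hdpos ψ (hirr ψ hψ) (hdeg ψ hψ)
  have hχpos : 0 < d χ := hdpos χ hχ hdχ
  have hapos : 0 < a := by
    rcases Nat.eq_zero_or_pos a with h | h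
    · rw [h, mul_zero] at ha; omega
    · exact h
  have hmono : zspanOn S ({1}ᶜ : Set N) ⊆ zspanOn (insert χ S) ({1}ᶜ : Set N) :=
    zspanOn_mono (Set.subset_insert _ _)
  -- the element α
  set α : N → ℂ := χ - (a : ℤ) • ψ with hαdef
  have hψS : ψ ∈ S := hψ
  have hχins : χ ∈ zspan (insert χ S) := mem_zspan (Set.mem_insert _ _)
  have hψins : ψ ∈ zspan (insert χ S) := mem_zspan (Set.mem_insert_of_mem _ hψS)
  have hαmem : α ∈ zspanOn (insert χ S) ({1}ᶜ : Set N) := by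
    rw [mem_zspanOn_compl_one]
    refine ⟨zspan_sub hχins (zspan_zsmul hψins _), ?_⟩
    have : α 1 = χ 1 - (a : ℂ) * ψ 1 := by simp [hαdef]
    rw [this, hdχ, hdeg ψ hψ, ha]
    push_cast
    ring
  set v : G → ℂ := τ α with hvdef
  have hvgen : IsGeneralizedCharacter G v := iso_gen hτ hαmem
  have hv1 : v 1 = 0 := hτ1 α hαmem
  have hχψ : classInner χ ψ = 0 := classInner_irr_ne hχ (hirr ψ hψ) (fun h => hχS (h ▸ hψ))
  have hψχ : classInner ψ χ = 0 := classInner_irr_ne (hirr ψ hψ) hχ (fun h => hχS (h ▸ hψ))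
  have hψψ := classInner_irr_self (hirr ψ hψ)
  have hχχ := classInner_irr_self hχ
  have hvv : classInner v v = 1 + (a : ℂ) ^ 2 := by
    rw [hvdef, iso_inner hτ hαmem hαmem, hαdef]
    simp only [classInner_sub_left, classInner_sub_right, classInner_zsmul_left,
      classInner_zsmul_right]
    rw [hχχ, hχψ, hψχ, hψψ]
    push_cast
    ring
  -- the elements β
  set e : ℤ := (d ψ : ℤ) with hedef
  have hepos' : 0 < e := by rw [hedef]; exact_mod_cast hepos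
  let β : (N → ℂ) → (N → ℂ) := fun ξ => e • ξ - (d ξ : ℤ) • ψ
  have hβmem : ∀ ξ ∈ S₀, β ξ ∈ zspanOn S ({1}ᶜ : Set N) := by
    intro ξ hξ
    rw [mem_zspanOn_compl_one]
    refine ⟨zspan_sub (zspan_zsmul (mem_zspan hξ) _) (zspan_zsmul (mem_zspan hψ) _), ?_⟩
    simp only [β, Pi.sub_apply, zsmul_apply, hdeg ξ hξ, hdeg ψ hψ, hedef]
    push_cast
    ring
  have hτβ : ∀ ξ ∈ S₀, τ (β ξ) = e • τ₀ ξ - (d ξ : ℤ) • τ₀ ψ := by
    intro ξ hξ
    rw [← hagree _ (hβmem ξ hξ)]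
    simp only [β]
    rw [iso_sub_zspan hτ₀ (zspan_zsmul (mem_zspan hξ) _) (zspan_zsmul (mem_zspan hψ) _),
      iso_zsmul hτ₀ (mem_zspan hξ), iso_zsmul hτ₀ (mem_zspan hψ)]
  have hgen₀ : ∀ ξ ∈ S₀, IsGeneralizedCharacter G (τ₀ ξ) := fun ξ hξ => iso_gen hτ₀ (mem_zspan hξ)
  have hint : ∀ ξ ∈ S₀, ∃ n : ℤ, classInner v (τ₀ ξ) = n := fun ξ hξ =>
    classInner_gen_gen hvgen (hgen₀ ξ hξ)
  choose! b hb using hint
  have horth₀ : ∀ ξ ∈ S₀, ∀ ξ' ∈ S₀, classInner (τ₀ ξ) (τ₀ ξ') = if ξ = ξ' then 1 else 0 := by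
    intro ξ hξ ξ' hξ'
    rw [iso_inner hτ₀ (mem_zspan hξ) (mem_zspan hξ')]
    by_cases h : ξ = ξ'
    · subst h
      rw [if_pos rfl, classInner_irr_self (hirr ξ hξ)]
    · rw [if_neg h, classInner_irr_ne (hirr ξ hξ) (hirr ξ' hξ') h]
  set x : ℤ := b ψ + a with hxdef
  have hrel : ∀ ξ ∈ S₀, ξ ≠ ψ → e * b ξ = x * (d ξ : ℤ) := by
    intro ξ hξ hne
    have h1 := iso_inner hτ hαmem (hmono (hβmem ξ hξ))
    rw [hτβ ξ hξ, ← hvdef, classInner_sub_right, classInner_zsmul_right, classInner_zsmul_right,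
      hb ξ hξ, hb ψ hψ] at h1
    have h2 : classInner α (β ξ) = (a : ℂ) * (d ξ : ℂ) := by
      simp only [β, hαdef, classInner_sub_left, classInner_sub_right, classInner_zsmul_left,
        classInner_zsmul_right]
      rw [classInner_irr_ne hχ (hirr ξ hξ) (fun h => hχS (h ▸ hξ)), hχψ,
        classInner_irr_ne (hirr ψ hψ) (hirr ξ hξ) (Ne.symm hne), hψψ]
      push_cast
      ring
    rw [h2] at h1
    have h3 : ((e * b ξ - (d ξ : ℤ) * b ψ : ℤ) : ℂ) = ((a * d ξ : ℤ) : ℂ) := by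
      push_cast
      push_cast at h1
      exact h1
    have h4 : e * b ξ - (d ξ : ℤ) * b ψ = a * d ξ := by exact_mod_cast h3
    rw [hxdef]
    linear_combination h4
  -- Parseval
  set W : G → ℂ := ∑ ξ ∈ S₀, b ξ • τ₀ ξ with hWdef
  set Δ : G → ℂ := v - W with hΔdef
  have hWgen : IsGeneralizedCharacter G W := isGen_sum _ _ fun ξ hξ => isGen_zsmul (hgen₀ ξ hξ) _
  have hΔgen : IsGeneralizedCharacter G Δ := isGen_sub hvgen hWgen
  have hWe : ∀ ξ ∈ S₀, classInner W (τ₀ ξ) = b ξ := by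
    intro ξ hξ
    rw [hWdef, classInner_sum_left, Finset.sum_eq_single ξ]
    · rw [classInner_zsmul_left, horth₀ ξ hξ ξ hξ]
      simp
    · intro ξ' hξ' hne
      rw [classInner_zsmul_left, horth₀ ξ' hξ' ξ hξ, if_neg hne, mul_zero]
    · intro h
      exact absurd hξ h
  have hΔe : ∀ ξ ∈ S₀, classInner Δ (τ₀ ξ) = 0 := by
    intro ξ hξ
    rw [hΔdef, classInner_sub_left, hb ξ hξ, hWe ξ hξ, sub_self]
  have hΔW : classInner Δ W = 0 := by
    rw [hWdef, classInner_sum_right]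
    refine Finset.sum_eq_zero fun ξ hξ => ?_
    rw [classInner_zsmul_right, hΔe ξ hξ, mul_zero]
  have hWΔ : classInner W Δ = 0 := by
    rw [← classInner_conj_symm, hΔW, map_zero]
  have hWW : classInner W W = ((∑ ξ ∈ S₀, b ξ ^ 2 : ℤ) : ℂ) := by
    have h0 : classInner W W = classInner (∑ ξ ∈ S₀, b ξ • τ₀ ξ) W := by rw [← hWdef]
    rw [h0, classInner_sum_left]
    push_cast
    refine Finset.sum_congr rfl fun ξ hξ => ?_
    rw [classInner_zsmul_left, ← classInner_conj_symm W (τ₀ ξ), hWe ξ hξ]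
    simp only [map_intCast]
    ring
  have hvsplit : v = Δ + W := by rw [hΔdef]; abel
  obtain ⟨n, hn⟩ := classInner_self_eq_nat hΔgen
  have hpars : (1 + (a : ℤ) ^ 2 : ℤ) = n + ∑ ξ ∈ S₀, b ξ ^ 2 := by
    have h1 : classInner v v = (n : ℂ) + ((∑ ξ ∈ S₀, b ξ ^ 2 : ℤ) : ℂ) := by
      conv_lhs => rw [hvsplit]
      rw [classInner_add_left, classInner_add_right, classInner_add_right, hn, hΔW, hWΔ, hWW]
      ring
    rw [hvv] at h1
    exact_mod_cast h1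
  -- the sum of squares of degrees
  set D : ℤ := ∑ ξ ∈ S₀, (d ξ : ℤ) ^ 2 with hDdef
  have hDlt : 2 * e ^ 2 * a < D := by
    have h1 : ((2 * d ψ * d χ : ℕ) : ℤ) < ((∑ ξ ∈ S₀, d ξ ^ 2 : ℕ) : ℤ) := by exact_mod_cast hlt
    push_cast at h1
    rw [hDdef, hedef]
    have h2 : (d χ : ℤ) = d ψ * a := by exact_mod_cast ha
    rw [h2] at h1
    linarith
  have hapos' : (0 : ℤ) < a := by exact_mod_cast hapos
  have hsumsq : e ^ 2 * ∑ ξ ∈ S₀, b ξ ^ 2 = x ^ 2 * D + e ^ 2 * b ψ ^ 2 - x ^ 2 * e ^ 2 := by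
    have h1 : ∑ ξ ∈ S₀, (e * b ξ) ^ 2 = ∑ ξ ∈ S₀, (x * (d ξ : ℤ)) ^ 2 + ((e * b ψ) ^ 2 - (x * e) ^ 2) := by
      rw [← Finset.add_sum_erase S₀ _ hψ, ← Finset.add_sum_erase S₀ (fun ξ => (x * (d ξ : ℤ)) ^ 2) hψ]
      have h2 : ∑ ξ ∈ S₀.erase ψ, (e * b ξ) ^ 2 = ∑ ξ ∈ S₀.erase ψ, (x * (d ξ : ℤ)) ^ 2 :=
        Finset.sum_congr rfl fun ξ hξ => by
          rw [hrel ξ (Finset.mem_of_mem_erase hξ) (Finset.ne_of_mem_erase hξ)]
      rw [h2]
      show _ = (x * e) ^ 2 + _ + _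
      ring
    have h3 : ∑ ξ ∈ S₀, (e * b ξ) ^ 2 = e ^ 2 * ∑ ξ ∈ S₀, b ξ ^ 2 := by
      rw [Finset.mul_sum]
      exact Finset.sum_congr rfl fun ξ _ => by ring
    have h4 : ∑ ξ ∈ S₀, (x * (d ξ : ℤ)) ^ 2 = x ^ 2 * D := by
      rw [hDdef, Finset.mul_sum]
      exact Finset.sum_congr rfl fun ξ _ => by ring
    rw [← h3, h1, h4]
    ring
  have hbψ : b ψ = x - a := by rw [hxdef]; ring
  have hE1 : e ^ 2 = e ^ 2 * n + x ^ 2 * D - 2 * e ^ 2 * x * a := by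
    have h1 : e ^ 2 * (1 + (a : ℤ) ^ 2) = e ^ 2 * n + e ^ 2 * ∑ ξ ∈ S₀, b ξ ^ 2 := by
      rw [hpars]; ring
    rw [hsumsq, hbψ] at h1
    linear_combination h1
  have hesq : 0 < e ^ 2 := by positivity
  -- degree relation
  have hT : ∀ ξ ∈ S₀, (e : ℂ) * τ₀ ξ 1 = (d ξ : ℂ) * τ₀ ψ 1 := by
    intro ξ hξ
    have h1 := hτ1 _ (hmono (hβmem ξ hξ))
    rw [hτβ ξ hξ] at h1
    simp only [Pi.sub_apply, zsmul_apply] at h1
    push_cast at h1
    linear_combination h1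
  have hTne : τ₀ ψ 1 ≠ 0 := by
    have h1 := iso_irr hτ₀ (mem_zspan hψ) hψψ
    rcases h1 with h1 | h1
    · exact isIrr_one_ne_zero h1
    · have := isIrr_one_ne_zero h1
      intro h2
      apply this
      show -(τ₀ ψ 1) = 0
      rw [h2, neg_zero]
  have hx0 : x = 0 := by
    by_contra hx
    have hx2 : 1 ≤ x ^ 2 := by
      have : x ^ 2 ≠ 0 := pow_ne_zero 2 hx
      have h3 : 0 ≤ x ^ 2 := sq_nonneg x
      omega
    have hxx : x ≤ x ^ 2 := by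
      rcases le_or_gt x 0 with h | h <;> nlinarith
    have hpos : 0 < x ^ 2 * D - 2 * e ^ 2 * x * a := by
      have h1 : 0 < x ^ 2 * (D - 2 * e ^ 2 * a) := by
        apply mul_pos (by omega)
        linarith
      have h2 : 0 ≤ (2 * e ^ 2 * a) * (x ^ 2 - x) := by
        apply mul_nonneg
        · positivity
        · linarith
      nlinarith
    have hn0 : (n : ℤ) = 0 := by
      have h1 : e ^ 2 * n < e ^ 2 := by linarith
      have h2 : (n : ℤ) < 1 := by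
        by_contra hcon
        push Not at hcon
        nlinarith
      omega
    have hn0' : n = 0 := by exact_mod_cast hn0
    have hΔ0 : Δ = 0 := by
      apply classInner_self_eq_zero
      rw [hn, hn0']
      simp
    have hvW : v = W := by rw [hvsplit, hΔ0, zero_add]
    -- value at 1
    have hW1 : W 1 = 0 := by rw [← hvW, hv1]
    have hsum0 : ∑ ξ ∈ S₀, b ξ * (d ξ : ℤ) = 0 := by
      have h1 : (e : ℂ) * W 1 = ((∑ ξ ∈ S₀, b ξ * (d ξ : ℤ) : ℤ) : ℂ) * τ₀ ψ 1 := by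
        rw [hWdef, Finset.sum_apply, Finset.mul_sum]
        push_cast
        rw [Finset.sum_mul]
        refine Finset.sum_congr rfl fun ξ hξ => ?_
        simp only [zsmul_apply]
        linear_combination (b ξ : ℂ) * hT ξ hξ
      rw [hW1, mul_zero] at h1
      have h2 := (mul_eq_zero.mp h1.symm).resolve_right hTne
      exact_mod_cast h2
    have hE3 : x * D = e ^ 2 * a := by
      have h1 : ∑ ξ ∈ S₀, (e * b ξ) * (d ξ : ℤ) =
          ∑ ξ ∈ S₀, (x * (d ξ : ℤ)) * (d ξ : ℤ) + (e * b ψ - x * e) * e := by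
        rw [← Finset.add_sum_erase S₀ _ hψ,
          ← Finset.add_sum_erase S₀ (fun ξ => (x * (d ξ : ℤ)) * (d ξ : ℤ)) hψ]
        have h2 : ∑ ξ ∈ S₀.erase ψ, (e * b ξ) * (d ξ : ℤ) =
            ∑ ξ ∈ S₀.erase ψ, (x * (d ξ : ℤ)) * (d ξ : ℤ) :=
          Finset.sum_congr rfl fun ξ hξ => by
            rw [hrel ξ (Finset.mem_of_mem_erase hξ) (Finset.ne_of_mem_erase hξ)]
        rw [h2]
        show _ = (x * e) * e + _ + _
        ring
      have h3 : ∑ ξ ∈ S₀, (e * b ξ) * (d ξ : ℤ) = e * ∑ ξ ∈ S₀, b ξ * (d ξ : ℤ) := by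
        rw [Finset.mul_sum]
        exact Finset.sum_congr rfl fun ξ _ => by ring
      have h4 : ∑ ξ ∈ S₀, (x * (d ξ : ℤ)) * (d ξ : ℤ) = x * D := by
        rw [hDdef, Finset.mul_sum]
        exact Finset.sum_congr rfl fun ξ _ => by ring
      rw [h3, hsum0, h4, hbψ] at h1
      linear_combination -h1
    have hDpos : 0 < D := by
      have : 0 ≤ 2 * e ^ 2 * (a : ℤ) := by positivity
      linarith
    have hxpos : 0 < x := by
      have h1 : 0 < x * D := by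
        rw [hE3]
        positivity
      exact (mul_pos_iff_of_pos_right hDpos).mp h1
    rw [hn0] at hE1
    have h2 : e ^ 2 = x * (x * D) - 2 * e ^ 2 * x * a := by linear_combination hE1
    rw [hE3] at h2
    have h3 : 0 < x * (e ^ 2 * a) := by positivity
    nlinarith
  -- now `x = 0`
  have hbψ' : b ψ = -(a : ℤ) := by rw [hbψ, hx0]; ring
  have hbξ : ∀ ξ ∈ S₀, ξ ≠ ψ → b ξ = 0 := by
    intro ξ hξ hne
    have := hrel ξ hξ hne
    rw [hx0, zero_mul] at this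
    exact (mul_eq_zero.mp this).resolve_left hepos'.ne'
  have hn1 : n = 1 := by
    rw [hx0] at hE1
    have h1 : e ^ 2 * ((n : ℤ) - 1) = 0 := by linear_combination -hE1
    have h2 := (mul_eq_zero.mp h1).resolve_left hesq.ne'
    have h3 : (n : ℤ) = 1 := by linarith
    exact_mod_cast h3
  have hWval : W = (-(a : ℤ)) • τ₀ ψ := by
    rw [hWdef, Finset.sum_eq_single ψ, hbψ']
    · intro ξ hξ hne
      rw [hbξ ξ hξ hne, zero_smul]
    · intro h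
      exact absurd hψ h
  have hnorm : classInner Δ Δ = 1 := by rw [hn, hn1]; simp
  obtain ⟨τ₁, hτ₁, hτ₁val⟩ := extend_one (S := S) hS hχ hχS' hτ₀ hΔgen hnorm (fun ξ hξ => hΔe ξ hξ)
  refine ⟨⟨θ₀, hmono hθ₀, hne₀⟩, τ₁, hτ₁, ?_⟩
  intro f hf
  obtain ⟨f₀, hf₀, k, rfl⟩ := exists_insert_decomp hf.1
  have hf1 : (f₀ + k • χ) 1 = 0 := (mem_zspanOn_compl_one.mp hf).2
  -- `β₀`
  set β₀ : N → ℂ := f₀ + (k * a) • ψ with hβ₀def
  have hβ₀mem : β₀ ∈ zspanOn S ({1}ᶜ : Set N) := by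
    rw [mem_zspanOn_compl_one]
    refine ⟨zspan_add hf₀ (zspan_zsmul (mem_zspan hψ) _), ?_⟩
    have e1 : β₀ 1 = f₀ 1 + (k : ℂ) * (a : ℂ) * ψ 1 := by simp [hβ₀def]
    have e2 : (f₀ + k • χ) 1 = f₀ 1 + (k : ℂ) * χ 1 := by simp
    rw [e2, hdχ, ha] at hf1
    rw [e1, hdeg ψ hψ]
    push_cast at hf1
    linear_combination hf1
  have hsplit : f₀ + k • χ = β₀ + k • α := by
    rw [hβ₀def, hαdef, smul_sub, mul_smul]
    abel
  have hkα : k • α ∈ zspanOn (insert χ S) ({1}ᶜ : Set N) := zspanOn_zsmul hαmem k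
  rw [hτ₁val f₀ hf₀ k, hsplit, iso_add hτ (hmono hβ₀mem) hkα, iso_zsmul hτ hαmem, ← hvdef,
    ← hagree β₀ hβ₀mem, hβ₀def, iso_add hτ₀ hf₀ (zspan_zsmul (mem_zspan hψ) _),
    iso_zsmul hτ₀ (mem_zspan hψ)]
  have hvval : v = Δ + (-(a : ℤ)) • τ₀ ψ := by rw [hvsplit, hWval]
  rw [hvval, smul_add, mul_smul, neg_smul, smul_neg]
  abel

end Cfsg.Agent.S1530
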