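import Mathlib
import Cfsg.Statements.S1531
import Cfsg.Agent.Lib.CoherenceExt
import Cfsg.Agent.S1529

set_option autoImplicit false
open Cfsg

namespace Cfsg.Agent.S1531

open Cfsg.Agent.Lib.CharBasic Cfsg.Agent.Lib.GenChar Cfsg.Agent.Lib.CoherenceBasic
  Cfsg.Agent.Lib.CoherenceExt
open scoped ComplexConjugate

/-- Let N be a subgroup of the finite group G, S a set of irreducible characters of N, and α a linear isometry on the integer combinations of S vanishing at 1 with values virtual characters of G vanishing at 1. Let X, Y ⊆ S be disjoint, each with at least two members, and σ, τ linear isometries on ℤ[X], ℤ[Y] into virtual characters agreeing with α on the members vanishing at 1. Then ⟨σ χ, τ η⟩ = 0 for χ ∈ X, η ∈ Y; and if for some χ₀ ∈ X, η₀ ∈ Y with degrees c = χ₀ 1, e = η₀ 1 one has α (c • η₀ − e • χ₀) = c • τ η₀ − e • σ χ₀, then (X ∪ Y, N minus 1, α) is coherent. -/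
theorem result {G : Type*} [Group G] [Fintype G] (N : Subgroup G) [Fintype N] (S X Y : Set (N → ℂ)) (hirr : ∀ ξ ∈ S, Cfsg.IsIrrCharacter N ξ) (hXS : X ⊆ S) (hYS : Y ⊆ S) (hXY : Disjoint X Y) (hX2 : ∃ a ∈ X, ∃ b ∈ X, a ≠ b) (hY2 : ∃ a ∈ Y, ∃ b ∈ Y, a ≠ b) (α : (N → ℂ) → (G → ℂ)) (hα : Cfsg.IsLinearIsometryOn (Cfsg.zspanOn S {1}ᶜ) α) (hα1 : ∀ θ ∈ Cfsg.zspanOn S {1}ᶜ, α θ 1 = 0) (σ τ : (N → ℂ) → (G → ℂ)) (hσ : Cfsg.IsLinearIsometryOn (Cfsg.zspan X) σ) (hσα : ∀ θ ∈ Cfsg.zspanOn X {1}ᶜ, σ θ = α θ) (hτ : Cfsg.IsLinearIsometryOn (Cfsg.zspan Y) τ) (hτα : ∀ θ ∈ Cfsg.zspanOn Y {1}ᶜ, τ θ = α θ) : (∀ χ ∈ X, ∀ η ∈ Y, Cfsg.classInner (σ χ) (τ η) = 0) ∧ ((∃ χ₀ ∈ X, ∃ η₀ ∈ Y, α (χ₀ 1 • η₀ - η₀ 1 • χ₀) = χ₀ 1 • τ η₀ - η₀ 1 • σ χ₀) → Cfsg.IsCoherent (X ∪ Y) {1}ᶜ α) := by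
  classical
  have hXirr : ∀ ξ ∈ X, IsIrrCharacter N ξ := fun ξ h => hirr ξ (hXS h)
  have hYirr : ∀ ξ ∈ Y, IsIrrCharacter N ξ := fun ξ h => hirr ξ (hYS h)
  have hne : ∀ x ∈ X, ∀ y ∈ Y, x ≠ y := fun x hx y hy h =>
    Set.disjoint_left.mp hXY hx (h ▸ hy)
  have hXYorth : ∀ x ∈ X, ∀ y ∈ Y, classInner x y = 0 := fun x hx y hy =>
    classInner_irr_ne (hXirr x hx) (hYirr y hy) (hne x hx y hy)
  have hmonoX : zspanOn X ({1}ᶜ : Set N) ⊆ zspanOn S ({1}ᶜ : Set N) := zspanOn_mono hXS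
  have hmonoY : zspanOn Y ({1}ᶜ : Set N) ⊆ zspanOn S ({1}ᶜ : Set N) := zspanOn_mono hYS
  have h0σ : ∀ θ ∈ zspan X, θ 1 = 0 → σ θ 1 = 0 := by
    intro θ hθ h
    have hm : θ ∈ zspanOn X ({1}ᶜ : Set N) := mem_zspanOn_compl_one.mpr ⟨hθ, h⟩
    rw [hσα θ hm]
    exact hα1 θ (hmonoX hm)
  have h0τ : ∀ θ ∈ zspan Y, θ 1 = 0 → τ θ 1 = 0 := by
    intro θ hθ h
    have hm : θ ∈ zspanOn Y ({1}ᶜ : Set N) := mem_zspanOn_compl_one.mpr ⟨hθ, h⟩
    rw [hτα θ hm]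
    exact hα1 θ (hmonoY hm)
  obtain ⟨ε₁, hε₁, hσirr, hσinj⟩ := Cfsg.Agent.S1529.result N X hXirr hX2 σ hσ h0σ
  obtain ⟨ε₂, hε₂, hτirr, hτinj⟩ := Cfsg.Agent.S1529.result N Y hYirr hY2 τ hτ h0τ
  have hdeg : ∀ ξ, IsIrrCharacter N ξ → ∃ k : ℕ, 0 < k ∧ ξ 1 = k := fun ξ h => isIrr_one_pos h
  -- the two elements vanishing at 1
  have hthetaX : ∀ x ∈ X, ∀ x' ∈ X, ∀ u u' : ℕ, x 1 = u → x' 1 = u' →
      (u' : ℤ) • x - (u : ℤ) • x' ∈ zspanOn X ({1}ᶜ : Set N) := by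
    intro x hx x' hx' u u' hu hu'
    rw [mem_zspanOn_compl_one]
    refine ⟨zspan_sub (zspan_zsmul (mem_zspan hx) _) (zspan_zsmul (mem_zspan hx') _), ?_⟩
    simp only [Pi.sub_apply, zsmul_apply, hu, hu']
    push_cast
    ring
  have hthetaY : ∀ x ∈ Y, ∀ x' ∈ Y, ∀ u u' : ℕ, x 1 = u → x' 1 = u' →
      (u' : ℤ) • x - (u : ℤ) • x' ∈ zspanOn Y ({1}ᶜ : Set N) := by
    intro x hx x' hx' u u' hu hu'
    rw [mem_zspanOn_compl_one]
    refine ⟨zspan_sub (zspan_zsmul (mem_zspan hx) _) (zspan_zsmul (mem_zspan hx') _), ?_⟩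
    simp only [Pi.sub_apply, zsmul_apply, hu, hu']
    push_cast
    ring
  have hpart1 : ∀ χ ∈ X, ∀ η ∈ Y, classInner (σ χ) (τ η) = 0 := by
    intro χ hχ η hη
    -- another member on each side
    obtain ⟨χ', hχ', hχne⟩ : ∃ χ' ∈ X, χ' ≠ χ := by
      obtain ⟨a, ha, b, hb, hab⟩ := hX2
      by_cases h : a = χ
      · exact ⟨b, hb, fun hb' => hab (h.trans hb'.symm)⟩
      · exact ⟨a, ha, h⟩
    obtain ⟨η', hη', hηne⟩ : ∃ η' ∈ Y, η' ≠ η := by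
      obtain ⟨a, ha, b, hb, hab⟩ := hY2
      by_cases h : a = η
      · exact ⟨b, hb, fun hb' => hab (h.trans hb'.symm)⟩
      · exact ⟨a, ha, h⟩
    obtain ⟨u, hu0, hu⟩ := hdeg χ (hXirr χ hχ)
    obtain ⟨u', hu0', hu'⟩ := hdeg χ' (hXirr χ' hχ')
    obtain ⟨v, hv0, hv⟩ := hdeg η (hYirr η hη)
    obtain ⟨v', hv0', hv'⟩ := hdeg η' (hYirr η' hη')
    have hθ₁ := hthetaX χ hχ χ' hχ' u u' hu hu'
    have hθ₂ := hthetaY η hη η' hη' v v' hv hv'
    have hin := iso_inner hα (hmonoX hθ₁) (hmonoY hθ₂)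
    rw [inner_zspan_zspan hXYorth hθ₁.1 hθ₂.1, ← hσα _ hθ₁, ← hτα _ hθ₂,
      iso_sub_zspan hσ (zspan_zsmul (mem_zspan hχ) _) (zspan_zsmul (mem_zspan hχ') _),
      iso_sub_zspan hτ (zspan_zsmul (mem_zspan hη) _) (zspan_zsmul (mem_zspan hη') _),
      iso_zsmul hσ (mem_zspan hχ), iso_zsmul hσ (mem_zspan hχ'), iso_zsmul hτ (mem_zspan hη),
      iso_zsmul hτ (mem_zspan hη')] at hin
    simp only [classInner_sub_left, classInner_sub_right, classInner_zsmul_left,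
      classInner_zsmul_right] at hin
    -- signs
    have hunit : ∀ ε : ℂ, (ε = 1 ∨ ε = -1) → ε * conj ε = 1 := by
      rintro ε (rfl | rfl) <;> simp
    set A := ε₁ • σ χ with hA
    set B := ε₁ • σ χ' with hB
    set C := ε₂ • τ η with hC
    set D := ε₂ • τ η' with hD
    have hAirr : IsIrrCharacter G A := hσirr χ hχ
    have hBirr : IsIrrCharacter G B := hσirr χ' hχ'
    have hCirr : IsIrrCharacter G C := hτirr η hη
    have hDirr : IsIrrCharacter G D := hτirr η' hη'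
    have hε₁0 : ε₁ ≠ 0 := by rcases hε₁ with rfl | rfl <;> norm_num
    have hε₂0 : ε₂ ≠ 0 := by rcases hε₂ with rfl | rfl <;> norm_num
    have hinner : ∀ a b : G → ℂ, classInner (ε₁ • a) (ε₂ • b) = ε₁ * conj ε₂ * classInner a b := by
      intro a b
      rw [classInner_smul_left, classInner_smul_right]
      ring
    have hABne : A ≠ B := by
      intro h
      have : σ χ = σ χ' := smul_right_injective _ hε₁0 h
      exact hχne (hσinj χ hχ χ' hχ' this).symm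
    have hCDne : C ≠ D := by
      intro h
      have : τ η = τ η' := smul_right_injective _ hε₂0 h
      exact hηne (hτinj η hη η' hη' this).symm
    by_contra hcon
    have hAC : A = C := by
      by_contra h
      apply hcon
      have h1 : classInner A C = 0 := classInner_irr_ne hAirr hCirr h
      rw [hA, hC, hinner] at h1
      have h2 : ε₁ * conj ε₂ ≠ 0 := mul_ne_zero hε₁0 (by simpa using hε₂0)
      exact (mul_eq_zero.mp h1).resolve_left h2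
    have hi1 : classInner A C = 1 := by rw [hAC]; exact classInner_irr_self hCirr
    have hi2 : classInner A D = 0 := classInner_irr_ne hAirr hDirr (fun h => hCDne (hAC.symm.trans h))
    have hi3 : classInner B C = 0 :=
      classInner_irr_ne hBirr hCirr (fun h => hABne (hAC.trans h.symm))
    have hi4 : classInner B D = 0 ∨ classInner B D = 1 := by
      by_cases h : B = D
      · right; rw [h]; exact classInner_irr_self hDirr
      · left; exact classInner_irr_ne hBirr hDirr h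
    rw [hA, hC, hinner] at hi1
    rw [hA, hD, hinner] at hi2
    rw [hB, hC, hinner] at hi3
    rw [hB, hD, hinner] at hi4
    set κ := ε₁ * conj ε₂ with hκ
    have hpu' : ((u' : ℤ) : ℂ) = (u' : ℂ) := by push_cast; rfl
    have hpu : ((u : ℤ) : ℂ) = (u : ℂ) := by push_cast; rfl
    have hpv' : ((v' : ℤ) : ℂ) = (v' : ℂ) := by push_cast; rfl
    have hpv : ((v : ℤ) : ℂ) = (v : ℂ) := by push_cast; rfl
    simp only [hpu', hpu, hpv', hpv, Complex.conj_natCast, map_natCast, Int.cast_natCast] at hin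
    have key : (0 : ℂ) = (v' : ℂ) * u' * (κ * classInner (σ χ) (τ η))
        - (v' : ℂ) * u * (κ * classInner (σ χ') (τ η))
        - (v : ℂ) * u' * (κ * classInner (σ χ) (τ η'))
        + (v : ℂ) * u * (κ * classInner (σ χ') (τ η')) := by
      linear_combination (-κ) * hin
    rw [hi1, hi2, hi3] at key
    have hpos : 0 < v' * u' := Nat.mul_pos hv0' hu0'
    rcases hi4 with h4 | h4
    · rw [h4] at key
      have : ((v' * u' : ℕ) : ℂ) = 0 := by push_cast; linear_combination -key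
      have h0 : v' * u' = 0 := by exact_mod_cast this
      omega
    · rw [h4] at key
      have : ((v' * u' + v * u : ℕ) : ℂ) = 0 := by push_cast; linear_combination -key
      have h0 : v' * u' + v * u = 0 := by exact_mod_cast this
      omega
  refine ⟨hpart1, ?_⟩
  rintro ⟨χ₀, hχ₀, η₀, hη₀, hhyp⟩
  obtain ⟨τ₁, hτ₁, hτ₁val⟩ := glue hXYorth hσ hτ hpart1
  obtain ⟨c, hc0, hc⟩ := hdeg χ₀ (hXirr χ₀ hχ₀)
  obtain ⟨e, he0, he⟩ := hdeg η₀ (hYirr η₀ hη₀)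
  have hc0' : (c : ℂ) ≠ 0 := by exact_mod_cast hc0.ne'
  have he0' : (e : ℂ) ≠ 0 := by exact_mod_cast he0.ne'
  set Γ : N → ℂ := (c : ℤ) • η₀ - (e : ℤ) • χ₀ with hΓdef
  have hΓ' : χ₀ 1 • η₀ - η₀ 1 • χ₀ = Γ := by
    rw [hc, he, hΓdef]
    have e1 : (c : ℂ) • η₀ = (c : ℤ) • η₀ := by
      rw [← Int.cast_smul_eq_zsmul ℂ (c : ℤ) η₀]; simp
    have e2 : (e : ℂ) • χ₀ = (e : ℤ) • χ₀ := by
      rw [← Int.cast_smul_eq_zsmul ℂ (e : ℤ) χ₀]; simp
    rw [e1, e2]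
  have hΓval : α Γ = (c : ℤ) • τ η₀ - (e : ℤ) • σ χ₀ := by
    rw [← hΓ', hhyp, hc, he]
    have e1 : (c : ℂ) • τ η₀ = (c : ℤ) • τ η₀ := by
      rw [← Int.cast_smul_eq_zsmul ℂ (c : ℤ) (τ η₀)]; simp
    have e2 : (e : ℂ) • σ χ₀ = (e : ℤ) • σ χ₀ := by
      rw [← Int.cast_smul_eq_zsmul ℂ (e : ℤ) (σ χ₀)]; simp
    rw [e1, e2]
  have hχ₀S : χ₀ ∈ zspan S := mem_zspan (hXS hχ₀)
  have hη₀S : η₀ ∈ zspan S := mem_zspan (hYS hη₀)
  have hΓmem : Γ ∈ zspanOn S ({1}ᶜ : Set N) := by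
    rw [mem_zspanOn_compl_one]
    refine ⟨zspan_sub (zspan_zsmul hη₀S _) (zspan_zsmul hχ₀S _), ?_⟩
    simp only [hΓdef, Pi.sub_apply, zsmul_apply, hc, he]
    push_cast
    ring
  have hΓmem' : Γ ∈ zspanOn (X ∪ Y) ({1}ᶜ : Set N) := by
    rw [mem_zspanOn_compl_one]
    refine ⟨zspan_sub (zspan_zsmul (mem_zspan (Or.inr hη₀)) _)
      (zspan_zsmul (mem_zspan (Or.inl hχ₀)) _), (mem_zspanOn_compl_one.mp hΓmem).2⟩
  have hΓne : Γ ≠ 0 := by
    intro h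
    have h1 : classInner Γ η₀ = (c : ℂ) := by
      rw [hΓdef, classInner_sub_left, classInner_zsmul_left, classInner_zsmul_left,
        classInner_irr_self (hYirr η₀ hη₀), hXYorth χ₀ hχ₀ η₀ hη₀]
      simp
    rw [h, classInner_zero_left] at h1
    exact hc0' h1.symm
  refine ⟨⟨Γ, hΓmem', hΓne⟩, τ₁, hτ₁, ?_⟩
  intro f hf
  obtain ⟨a, ha, b, hb, rfl⟩ := exists_union_decomp hf.1
  have hf1 : (a + b) 1 = 0 := (mem_zspanOn_compl_one.mp hf).2
  obtain ⟨r, hr⟩ := zspan_one_int (fun x hx => IsIrrCharacter.isCharacter (hXirr x hx)) ha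
  have hb1 : b 1 = -(r : ℂ) := by
    have : a 1 + b 1 = 0 := hf1
    rw [hr] at this
    linear_combination this
  set A₁ : N → ℂ := (c : ℤ) • a - r • χ₀ with hA₁
  set B₁ : N → ℂ := (e : ℤ) • b + r • η₀ with hB₁
  have hA₁X : A₁ ∈ zspanOn X ({1}ᶜ : Set N) := by
    rw [mem_zspanOn_compl_one]
    refine ⟨zspan_sub (zspan_zsmul ha _) (zspan_zsmul (mem_zspan hχ₀) _), ?_⟩
    simp only [hA₁, Pi.sub_apply, zsmul_apply, hr, hc]
    push_cast
    ring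
  have hB₁Y : B₁ ∈ zspanOn Y ({1}ᶜ : Set N) := by
    rw [mem_zspanOn_compl_one]
    refine ⟨zspan_add (zspan_zsmul hb _) (zspan_zsmul (mem_zspan hη₀) _), ?_⟩
    simp only [hB₁, Pi.add_apply, zsmul_apply, hb1, he]
    push_cast
    ring
  have hfS : a + b ∈ zspanOn S ({1}ᶜ : Set N) := by
    rw [mem_zspanOn_compl_one]
    exact ⟨zspan_add (zspan_mono hXS ha) (zspan_mono hYS hb), hf1⟩
  have hid : ((c : ℤ) * (e : ℤ)) • (a + b) = (e : ℤ) • A₁ + (c : ℤ) • B₁ - r • Γ := by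
    rw [hA₁, hB₁, hΓdef]
    simp only [smul_sub, smul_add, smul_smul]
    have e1 : (c : ℤ) * (e : ℤ) = (e : ℤ) * (c : ℤ) := mul_comm _ _
    have e2 : r * (c : ℤ) = (c : ℤ) * r := mul_comm _ _
    have e3 : r * (e : ℤ) = (e : ℤ) * r := mul_comm _ _
    rw [e2, e3, e1]
    abel
  have hval : ((c : ℤ) * (e : ℤ)) • α (a + b) = ((c : ℤ) * (e : ℤ)) • (σ a + τ b) := by
    rw [← iso_zsmul hα hfS, hid]
    have hm1 := zspanOn_zsmul (hmonoX hA₁X) (e : ℤ)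
    have hm2 := zspanOn_zsmul (hmonoY hB₁Y) (c : ℤ)
    have hm3 := zspanOn_zsmul hΓmem r
    rw [iso_sub_zspanOn hα (zspanOn_add hm1 hm2) hm3, iso_add hα hm1 hm2,
      iso_zsmul hα (hmonoX hA₁X), iso_zsmul hα (hmonoY hB₁Y), iso_zsmul hα hΓmem, hΓval,
      ← hσα _ hA₁X, ← hτα _ hB₁Y, hA₁, hB₁,
      iso_sub_zspan hσ (zspan_zsmul ha _) (zspan_zsmul (mem_zspan hχ₀) _),
      iso_add hτ (zspan_zsmul hb _) (zspan_zsmul (mem_zspan hη₀) _),
      iso_zsmul hσ ha, iso_zsmul hσ (mem_zspan hχ₀), iso_zsmul hτ hb, iso_zsmul hτ (mem_zspan hη₀)]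
    simp only [smul_sub, smul_add, smul_smul]
    have e1 : (c : ℤ) * (e : ℤ) = (e : ℤ) * (c : ℤ) := mul_comm _ _
    have e2 : r * (c : ℤ) = (c : ℤ) * r := mul_comm _ _
    have e3 : r * (e : ℤ) = (e : ℤ) * r := mul_comm _ _
    rw [e2, e3, e1]
    abel
  rw [hτ₁val a ha b hb]
  funext g
  have h1 := congrFun hval g
  simp only [zsmul_apply] at h1
  have h2 : (((c : ℤ) * (e : ℤ) : ℤ) : ℂ) ≠ 0 := by
    push_cast
    exact mul_ne_zero hc0' he0'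
  exact (mul_left_cancel₀ h2 h1).symm

end Cfsg.Agent.S1531
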