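import Mathlib
import Cfsg.Statements.S1536
import Cfsg.Agent.Lib.FixedIrr
import Cfsg.Agent.Lib.CosetConjCyc

set_option autoImplicit false
open Cfsg

namespace Cfsg.Agent.S1536

open Cfsg.Agent.Lib.FixedIrr Cfsg.Agent.Lib.CharInduction Cfsg.Agent.Lib.CosetConjCyc
  Cfsg.Agent.Lib.CoprimeParts

/-- Let H be a normal subgroup of the finite group M whose order is coprime to its index. For x ∈ M: some non-principal irreducible character of H is unchanged under h ↦ θ(x h x⁻¹) if and only if some non-identity element of H commutes with x. -/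
theorem result {M : Type*} [Group M] [Finite M] (H : Subgroup M) [hN : H.Normal] (hHall : Nat.Coprime (Nat.card H) H.index) (x : M) : (∃ θ : H → ℂ, Cfsg.IsIrrCharacter H θ ∧ θ ≠ (fun _ => 1) ∧ (fun h : H => θ ⟨x * h * x⁻¹, hN.conj_mem h h.2 x⟩) = θ) ↔ ∃ h ∈ H, h ≠ 1 ∧ x * h = h * x := by
  classical
  have hiff := exists_fixed_irr_iff H hN x
  constructor
  · intro hθ
    obtain ⟨n, hn, k, hk, he⟩ := hiff.mp hθ
    -- decomposition of x
    set m := Nat.card H with hm
    set i := H.index with hi
    have hipos : i ≠ 0 := Subgroup.index_ne_zero_of_finite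
    obtain ⟨s, hs1, hs2⟩ := exists_exponent hHall hipos
    have hcard : m * i = Nat.card M := Subgroup.card_mul_index H
    set x₁ := x ^ s with hx₁
    have hx₁i : x₁ ^ i = 1 := by
      obtain ⟨t, rfl⟩ := hs1
      rw [hx₁, ← pow_mul, show m * t * i = (m * i) * t by ring, pow_mul, hcard, pow_card_eq_one', one_pow]
    have hx₁o : Nat.Coprime (orderOf x₁) m :=
      Nat.Coprime.coprime_dvd_left (orderOf_dvd_of_pow_eq_one hx₁i) hHall.symm
    have hx₂ : x₁⁻¹ * x ∈ H := by
      have h1 : (QuotientGroup.mk x : M ⧸ H) ^ i = 1 := by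
        have : Nat.card (M ⧸ H) = i := rfl
        rw [← this]
        exact pow_card_eq_one'
      have h2 : (QuotientGroup.mk x : M ⧸ H) ^ s = QuotientGroup.mk x := pow_eq_self_of_mod hs2 h1
      have h3 : (QuotientGroup.mk x₁ : M ⧸ H) = QuotientGroup.mk x := by
        rw [hx₁, QuotientGroup.mk_pow, h2]
      exact QuotientGroup.eq.mp h3
    by_cases hc : x₁⁻¹ * x = 1
    · -- x has order coprime to |H|
      have hxx₁ : x = x₁ := by
        have := mul_eq_one_iff_eq_inv.mp hc
        simpa using this.symm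
      have hnorm : x ∈ Subgroup.normalizer (H : Set M) := by
        rw [Subgroup.normalizer_eq_top]; trivial
      have hcop : Nat.Coprime (orderOf x) (Nat.card H) := by
        rw [hxx₁]; exact hx₁o
      obtain ⟨t, ht, hcomm⟩ := exists_conj_commute hnorm hcop hk he
      refine ⟨t * n * t⁻¹, H.mul_mem (H.mul_mem ht n.2) (H.inv_mem ht), ?_, hcomm⟩
      intro h1
      apply hn
      apply Subtype.ext
      have : (n : M) = t⁻¹ * (t * n * t⁻¹) * t := by group
      rw [this, h1]
      simp
    · refine ⟨x₁⁻¹ * x, hx₂, hc, ?_⟩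
      have hcomm : Commute x x₁ := (Commute.refl x).pow_right s
      calc x * (x₁⁻¹ * x) = (x * x₁⁻¹) * x := by group
        _ = (x₁⁻¹ * x) * x := by rw [(hcomm.inv_right).eq]
  · rintro ⟨h, hh, hne, hcomm⟩
    apply hiff.mpr
    refine ⟨⟨h, hh⟩, ?_, 1, H.one_mem, ?_⟩
    · intro h1
      apply hne
      exact congrArg Subtype.val h1
    · simp only [one_mul, inv_one, mul_one]
      rw [hcomm]
      group

end Cfsg.Agent.S1536
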