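import Mathlib
import Cfsg.Statements.S1546

set_option autoImplicit false
open Cfsg

namespace Cfsg.Agent.S1546

private lemma div_eq_geom (p q : ℕ) (hp : 1 < p) :
    (p ^ q - 1) / (p - 1) = ∑ i ∈ Finset.range q, p ^ i := by
  have h := Nat.geomSum_eq (m := p) hp q
  exact h.symm

/-- Let p and q be odd primes and N = (p ^ q − 1) / (p − 1) = 1 + p + ⋯ + p^(q−1). Then N is odd; if p ≡ 1 (mod q) then q ∣ N; and if p is not ≡ 1 (mod q) then N is coprime to p − 1 and every divisor of N is ≡ 1 (mod q). -/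
theorem result (p q : ℕ) (hp : p.Prime) (hq : q.Prime) (hp2 : p ≠ 2) (hq2 : q ≠ 2) : Odd ((p ^ q - 1) / (p - 1)) ∧ (p % q = 1 → q ∣ (p ^ q - 1) / (p - 1)) ∧ (p % q ≠ 1 → Nat.Coprime ((p ^ q - 1) / (p - 1)) (p - 1) ∧ ∀ x : ℕ, x ∣ (p ^ q - 1) / (p - 1) → x % q = 1) := by
  have hp1 : 1 < p := hp.one_lt
  have hpodd : Odd p := hp.odd_of_ne_two hp2
  have hqodd : Odd q := hq.odd_of_ne_two hq2
  rw [div_eq_geom p q hp1]
  set N := ∑ i ∈ Finset.range q, p ^ i with hN
  have hmodp1 : (N : ZMod 2) = (q : ZMod 2) := by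
    have : ∀ i, ((p : ZMod 2)) ^ i = 1 := by
      intro i
      have : (p : ZMod 2) = 1 := by
        have := ZMod.natCast_eq_one_iff_odd (n := p)
        exact this.mpr hpodd
      simp [this]
    simp [hN, this]
  have hNodd : Odd N := by
    have h1 : (q : ZMod 2) = 1 := (ZMod.natCast_eq_one_iff_odd).mpr hqodd
    rw [h1] at hmodp1
    exact (ZMod.natCast_eq_one_iff_odd).mp hmodp1
  -- N ≡ q mod any divisor of p - 1
  have hNmod : ∀ d : ℕ, d ∣ p - 1 → (N : ZMod d) = (q : ZMod d) := by
    intro d hd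
    have hpd : (p : ZMod d) = 1 := by
      have h : ((p - 1 : ℕ) : ZMod d) = 0 := (ZMod.natCast_eq_zero_iff _ _).mpr hd
      rw [Nat.cast_sub hp1.le] at h
      simp only [Nat.cast_one] at h
      exact sub_eq_zero.mp h
    simp [hN, hpd]
  refine ⟨hNodd, ?_, ?_⟩
  · intro h
    have hd : q ∣ p - 1 := (Nat.modEq_iff_dvd' hp1.le).mp (by
      show 1 % q = p % q
      rw [h, Nat.mod_eq_of_lt hq.one_lt])
    have := hNmod q hd
    rw [ZMod.natCast_self] at this
    exact (ZMod.natCast_eq_zero_iff _ _).mp this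
  · intro h
    have hnd : ¬ q ∣ p - 1 := by
      intro hd
      apply h
      have : 1 % q = p % q := (Nat.modEq_iff_dvd' hp1.le).mpr hd
      rw [← this, Nat.mod_eq_of_lt hq.one_lt]
    have hcop : Nat.Coprime N (p - 1) := by
      -- gcd divides q, so is 1 or q
      set g := Nat.gcd N (p - 1) with hg
      have hgN : g ∣ N := Nat.gcd_dvd_left _ _
      have hgp : g ∣ p - 1 := Nat.gcd_dvd_right _ _
      have h1 := hNmod g hgp
      have h2 : (N : ZMod g) = 0 := (ZMod.natCast_eq_zero_iff _ _).mpr hgN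
      rw [h2] at h1
      have hgq : g ∣ q := (ZMod.natCast_eq_zero_iff _ _).mp h1.symm
      rcases (Nat.dvd_prime hq).mp hgq with h3 | h3
      · exact h3
      · exact absurd (h3 ▸ hgp) hnd
    refine ⟨hcop, ?_⟩
    -- every prime divisor of N is 1 mod q
    have hprime : ∀ r : ℕ, r.Prime → r ∣ N → r % q = 1 := by
      intro r hr hrN
      have : Fact r.Prime := ⟨hr⟩
      have : Fact q.Prime := ⟨hq⟩
      have hgeom : N * (p - 1) = p ^ q - 1 := by
        have hdvd : (p - 1) ∣ p ^ q - 1 := by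
          have := Nat.sub_dvd_pow_sub_pow p 1 q
          simpa using this
        rw [hN, Nat.geomSum_eq hp1 q, Nat.div_mul_cancel hdvd]
      have hpow : (p : ZMod r) ^ q = 1 := by
        have h3 : r ∣ p ^ q - 1 := by
          rw [← hgeom]
          exact Dvd.dvd.mul_right hrN _
        have h4 : ((p ^ q - 1 : ℕ) : ZMod r) = 0 := (ZMod.natCast_eq_zero_iff _ _).mpr h3
        rw [Nat.cast_sub (Nat.one_le_pow _ _ hp.pos)] at h4
        simp only [Nat.cast_pow, Nat.cast_one] at h4
        exact sub_eq_zero.mp h4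
      have hp_ne : (p : ZMod r) ≠ 0 := by
        intro h0
        rw [h0, zero_pow hq.ne_zero] at hpow
        exact zero_ne_one hpow
      have hne1 : (p : ZMod r) ≠ 1 := by
        intro h1
        have hd : r ∣ p - 1 := by
          rw [← ZMod.natCast_eq_zero_iff, Nat.cast_sub hp1.le, h1]
          simp
        have : r ∣ Nat.gcd N (p - 1) := Nat.dvd_gcd hrN hd
        rw [hcop] at this
        exact hr.one_lt.ne' (Nat.dvd_one.mp this)
      have hord : orderOf (p : ZMod r) = q :=
        orderOf_eq_prime hpow hne1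
      have hdvd : q ∣ r - 1 := by
        have := ZMod.orderOf_dvd_card_sub_one hp_ne
        rwa [hord] at this
      have hr1 : 1 ≤ r := hr.one_lt.le
      have : 1 % q = r % q := (Nat.modEq_iff_dvd' hr1).mpr hdvd
      rw [← this, Nat.mod_eq_of_lt hq.one_lt]
    intro x hx
    have hx0 : x ≠ 0 := by
      rintro rfl
      rw [zero_dvd_iff] at hx
      rw [hx] at hNodd
      simp at hNodd
    induction x using induction_on_primes with
    | zero => exact absurd rfl hx0
    | one => exact Nat.mod_eq_of_lt hq.one_lt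
    | prime_mul r a hr ih =>
      have hra : r * a ∣ N := hx
      have h1 := hprime r hr (dvd_trans (Dvd.intro _ rfl) hra)
      have h2 := ih (dvd_trans (Dvd.intro_left _ rfl) hra) (by
        rintro rfl
        simp at hx0)
      rw [Nat.mul_mod, h1, h2]
      simp [Nat.mod_eq_of_lt hq.one_lt]

end Cfsg.Agent.S1546
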