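import Mathlib
import Cfsg.Statements.S1552
import Cfsg.Agent.Lib.OrbSex

set_option autoImplicit false
open scoped Pointwise
open Cfsg

namespace Cfsg.Agent.S1552

open Cfsg.Agent.Lib.OrbitTree Cfsg.Agent.Lib.OrbSex

/-- A sextet stabiliser has four orbits on the 1771 sextets, of sizes 1, 90, 240, 1440; and the stabiliser is a maximal proper subgroup. -/
theorem result (S : Finset (Finset Cfsg.GolayPt)) (hS : S ∈ Cfsg.sextets) : ∃ X₁ ∈ Cfsg.sextets, ∃ X₂ ∈ Cfsg.sextets, ∃ X₃ ∈ Cfsg.sextets, (MulAction.orbit ↥(MulAction.stabilizer Cfsg.M24 S) X₁).ncard = 90 ∧ (MulAction.orbit ↥(MulAction.stabilizer Cfsg.M24 S) X₂).ncard = 240 ∧ (MulAction.orbit ↥(MulAction.stabilizer Cfsg.M24 S) X₃).ncard = 1440 ∧ Cfsg.sextets = {S} ∪ MulAction.orbit ↥(MulAction.stabilizer Cfsg.M24 S) X₁ ∪ MulAction.orbit ↥(MulAction.stabilizer Cfsg.M24 S) X₂ ∪ MulAction.orbit ↥(MulAction.stabilizer Cfsg.M24 S) X₃ ∧ IsCoatom (MulAction.stabilizer Cfsg.M24 S) := by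
  obtain ⟨y, hy⟩ := transport hS
  refine ⟨y 0, hy.y_mem 0, y 1, hy.y_mem 1, y 2, hy.y_mem 2, hy.card 0, hy.card 1, hy.card 2, ?_, isCoatom_stab hS⟩
  apply Set.Subset.antisymm
  · intro z hz
    rcases hy.cover z hz with h | ⟨i, hi⟩
    · left; left; left; exact h
    · fin_cases i
      · left; left; right; exact hi
      · left; right; exact hi
      · right; exact hi
  · have hsub : ∀ i, MulAction.orbit ↥(MulAction.stabilizer Cfsg.M24 S) (y i) ⊆ Cfsg.sextets := by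
      intro i z hz
      obtain ⟨g, rfl⟩ := hz
      exact Cfsg.Agent.Lib.M24Fam.smul_mem_sextets (g : Cfsg.M24).2 (hy.y_mem i)
    rintro z (((h | h) | h) | h)
    · rw [Set.mem_singleton_iff] at h; rw [h]; exact hS
    · exact hsub 0 h
    · exact hsub 1 h
    · exact hsub 2 h

end Cfsg.Agent.S1552
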