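import Mathlib
import Cfsg.Statements.S1555
import Cfsg.Agent.Lib.Golay
import Cfsg.Agent.Lib.SteinerDesign

set_option autoImplicit false
open scoped Pointwise
open Cfsg

namespace Cfsg.Agent.S1555

open Cfsg.Agent.Lib.SteinerDesign

theorem count_eq {α : Type*} [Fintype α] [DecidableEq α] {B : Set (Finset α)} (lam : ℕ → ℤ)
    {b : Finset α} (hlam : ∀ I, I ⊆ b → (blockCount B I ∅ : ℤ) = lam I.card) (s : Finset α)
    (hs : s ⊆ b) :
    ({c : Finset α | c ∈ B ∧ b ∩ c = s}.ncard : ℤ) = tri lam s.card (b.card - s.card) := by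
  have hd : Disjoint s (b \ s) := Finset.disjoint_sdiff
  have hcard : (b \ s).card = b.card - s.card := Finset.card_sdiff_of_subset hs
  have h := blockCount_eq_tri lam hlam _ (b \ s) s hcard hs Finset.sdiff_subset hd
  rw [← h]
  unfold blockCount
  congr 2
  ext c
  simp only [Set.mem_ofPred_eq]
  constructor
  · rintro ⟨hc, rfl⟩
    refine ⟨hc, Finset.inter_subset_right, ?_⟩
    rw [Finset.disjoint_left]
    intro a hac hab
    simp only [Finset.mem_sdiff, Finset.mem_inter] at hab
    exact hab.2 ⟨hab.1, hac⟩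
  · rintro ⟨hc, hsc, hdis⟩
    refine ⟨hc, ?_⟩
    ext a
    simp only [Finset.mem_inter]
    constructor
    · rintro ⟨hab, hac⟩
      by_contra has
      exact (Finset.disjoint_left.1 hdis hac) (Finset.mem_sdiff.2 ⟨hab, has⟩)
    · intro has
      exact ⟨hs has, hsc has⟩

/-- Bottom row of the Leech triangle: an octad is met in a prescribed pair of its points by exactly 16 octads and in a prescribed 4-subset by exactly 4 octads. -/
theorem result (o : Finset Cfsg.GolayPt) (ho : o ∈ Cfsg.octads) (s : Finset Cfsg.GolayPt) (hs : s ⊆ o) : (s.card = 2 → {o' : Finset Cfsg.GolayPt | o' ∈ Cfsg.octads ∧ o ∩ o' = s}.ncard = 16) ∧ (s.card = 4 → {o' : Finset Cfsg.GolayPt | o' ∈ Cfsg.octads ∧ o ∩ o' = s}.ncard = 4) := by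
  have hlam := hlam5824 Cfsg.Agent.Lib.Golay.card_pt Cfsg.Agent.Lib.Golay.octads_steiner ho
  have hbc : o.card = 8 := ho.2
  have h := count_eq lam5824 hlam s hs
  rw [hbc] at h
  constructor
  · intro hc
    rw [hc] at h
    norm_num [tri, lam5824] at h
    exact_mod_cast h
  · intro hc
    rw [hc] at h
    norm_num [tri, lam5824] at h
    exact_mod_cast h

end Cfsg.Agent.S1555
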