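import Mathlib
import Cfsg.Statements.S1556
import Cfsg.Agent.Lib.OrbOct

set_option autoImplicit false
open scoped Pointwise
open Cfsg

namespace Cfsg.Agent.S1556

open Cfsg.Agent.Lib.Golay Cfsg.Agent.Lib.OrbitTree Cfsg.Agent.Lib.OrbitCheck Cfsg.Agent.Lib.OrbOct

/-- Two octads meeting a fixed octad in equally many points are in the same orbit of its stabiliser. -/
theorem result (o o' o'' : Finset Cfsg.GolayPt) (ho : o ∈ Cfsg.octads) (ho' : o' ∈ Cfsg.octads) (ho'' : o'' ∈ Cfsg.octads) (h : (o ∩ o').card = (o ∩ o'').card) : ∃ g : Equiv.Perm Cfsg.GolayPt, g ∈ Cfsg.M24 ∧ g • o = o ∧ g • o' = o'' := by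
  obtain ⟨k, hk⟩ := (by rw [data.orbit_all]; exact ho : o ∈ MulAction.orbit M24 (ofMask O0M))
  obtain ⟨k, hkM⟩ := k
  have hk' : k • ofMask O0M = o := hk
  subst hk'
  have h1 : k⁻¹ • o' ∈ octads := smul_mem_octads (M24.inv_mem hkM) ho'
  have h2 : k⁻¹ • o'' ∈ octads := smul_mem_octads (M24.inv_mem hkM) ho''
  have h3 : (ofMask O0M ∩ k⁻¹ • o').card = (ofMask O0M ∩ k⁻¹ • o'').card := by
    rw [← card_inter_smul k, ← card_inter_smul k (ofMask O0M) (k⁻¹ • o''), smul_inv_smul, smul_inv_smul]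
    exact h
  obtain ⟨g, hg, hgx⟩ := data.same_class h1 h2 h3
  obtain ⟨hg1, hg2⟩ := mem_stabP.1 hg
  refine ⟨k * g * k⁻¹, M24.mul_mem (M24.mul_mem hkM hg1) (M24.inv_mem hkM), ?_, ?_⟩
  · rw [mul_smul, mul_smul, inv_smul_smul, hg2]
  · rw [mul_smul, mul_smul, hgx, smul_inv_smul]

end Cfsg.Agent.S1556
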