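import Mathlib
import Cfsg.Statements.S1557
import Cfsg.Agent.Lib.GolayFamilies
import Cfsg.Agent.Lib.Leech

set_option autoImplicit false
open scoped Pointwise
open Cfsg

namespace Cfsg.Agent.S1557

open Cfsg.Agent.Lib

/-- The complement of the union of two disjoint octads is an octad, and the code has exactly 3795 trios of pairwise disjoint octads. -/
theorem result : (∀ o o' : Finset Cfsg.GolayPt, o ∈ Cfsg.octads → o' ∈ Cfsg.octads → Disjoint o o' → (o ∪ o')ᶜ ∈ Cfsg.octads) ∧ Cfsg.trios.ncard = 3795 := by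
  refine ⟨?_, Golay.ncard_trios⟩
  intro o o' ho ho' hd
  have h1 : symmDiff o o' = o ∪ o' := by
    rw [hd.symmDiff_eq_sup]
    rfl
  have h2 : (o ∪ o') ∈ Leech.codeSets := by
    rw [← h1]
    exact Leech.symmDiff_mem_codeSets ho.1 ho'.1
  refine ⟨Leech.compl_mem_codeSets h2, ?_⟩
  rw [Finset.card_compl, Finset.card_union_of_disjoint hd, ho.2, ho'.2, Golay.card_pt]

end Cfsg.Agent.S1557
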