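import Mathlib
import Cfsg.Statements.S1559
import Cfsg.Agent.Lib.OrbTri

set_option autoImplicit false
open scoped Pointwise
open Cfsg

namespace Cfsg.Agent.S1559

open Cfsg.Agent.Lib.OrbitTree Cfsg.Agent.Lib.OrbTri

/-- A trio stabiliser has five orbits on the 3795 trios, of sizes 1, 42, 56, 1008, 2688; and the stabiliser is a maximal proper subgroup. -/
theorem result (T : Finset (Finset Cfsg.GolayPt)) (hT : T ∈ Cfsg.trios) : ∃ X₁ ∈ Cfsg.trios, ∃ X₂ ∈ Cfsg.trios, ∃ X₃ ∈ Cfsg.trios, ∃ X₄ ∈ Cfsg.trios, (MulAction.orbit ↥(MulAction.stabilizer Cfsg.M24 T) X₁).ncard = 42 ∧ (MulAction.orbit ↥(MulAction.stabilizer Cfsg.M24 T) X₂).ncard = 56 ∧ (MulAction.orbit ↥(MulAction.stabilizer Cfsg.M24 T) X₃).ncard = 1008 ∧ (MulAction.orbit ↥(MulAction.stabilizer Cfsg.M24 T) X₄).ncard = 2688 ∧ Cfsg.trios = {T} ∪ MulAction.orbit ↥(MulAction.stabilizer Cfsg.M24 T) X₁ ∪ MulAction.orbit ↥(MulAction.stabilizer Cfsg.M24 T) X₂ ∪ MulAction.orbit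 ↥(MulAction.stabilizer Cfsg.M24 T) X₃ ∪ MulAction.orbit ↥(MulAction.stabilizer Cfsg.M24 T) X₄ ∧ IsCoatom (MulAction.stabilizer Cfsg.M24 T) := by
  obtain ⟨y, hy⟩ := transport hT
  refine ⟨y 0, hy.y_mem 0, y 1, hy.y_mem 1, y 2, hy.y_mem 2, y 3, hy.y_mem 3, hy.card 0, hy.card 1, hy.card 2, hy.card 3, ?_, isCoatom_stab hT⟩
  apply Set.Subset.antisymm
  · intro z hz
    rcases hy.cover z hz with h | ⟨i, hi⟩
    · left; left; left; left; exact h
    · fin_cases i
      · left; left; left; right; exact hi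
      · left; left; right; exact hi
      · left; right; exact hi
      · right; exact hi
  · have hsub : ∀ i, MulAction.orbit ↥(MulAction.stabilizer Cfsg.M24 T) (y i) ⊆ Cfsg.trios := by
      intro i z hz
      obtain ⟨g, rfl⟩ := hz
      exact Cfsg.Agent.Lib.M24Fam.smul_mem_trios (g : Cfsg.M24).2 (hy.y_mem i)
    rintro z ((((h | h) | h) | h) | h)
    · rw [Set.mem_singleton_iff] at h; rw [h]; exact hT
    · exact hsub 0 h
    · exact hsub 1 h
    · exact hsub 2 h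
    · exact hsub 3 h

end Cfsg.Agent.S1559
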