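import Mathlib
import Cfsg.Statements.S1560
import Cfsg.Agent.Lib.DodecadFacts
import Cfsg.Agent.Lib.GolayFamilies

set_option autoImplicit false
open scoped Pointwise
open Cfsg

namespace Cfsg.Agent.S1560

open Cfsg.Agent.Lib.Golay Cfsg.Agent.Lib.DodecadFacts

theorem inter_vals : dodL.all (fun m => Nat.beq m d0Mask ||
    (let k := pop (Nat.land d0Mask m); Nat.beq k 0 || Nat.beq k 4 || Nat.beq k 6 || Nat.beq k 8)) = true := by
  decide +kernel

theorem count4 : (dodL.filter fun m => Nat.beq (pop (Nat.land d0Mask m)) 4).length = 495 := by decide +kernel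
theorem count6 : (dodL.filter fun m => Nat.beq (pop (Nat.land d0Mask m)) 6).length = 1584 := by decide +kernel
theorem count8 : (dodL.filter fun m => Nat.beq (pop (Nat.land d0Mask m)) 8).length = 495 := by decide +kernel

theorem card_inter_smul (g : Equiv.Perm GolayPt) (a b : Finset GolayPt) :
    (g • a ∩ g • b).card = (a ∩ b).card := by
  rw [← Finset.smul_finset_inter, Finset.card_smul_finset]

theorem ncard_dod_transport {g : Equiv.Perm GolayPt} (hg : g ∈ M24) (d : Finset GolayPt) (k : ℕ) :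
    {o : Finset GolayPt | o ∈ dodecads ∧ (g • d ∩ o).card = k}.ncard
      = {o : Finset GolayPt | o ∈ dodecads ∧ (d ∩ o).card = k}.ncard := by
  have : {o : Finset GolayPt | o ∈ dodecads ∧ (g • d ∩ o).card = k}
      = (fun o => g • o) '' {o : Finset GolayPt | o ∈ dodecads ∧ (d ∩ o).card = k} := by
    ext o
    simp only [Set.mem_ofPred_eq, Set.mem_image]
    constructor
    · rintro ⟨ho, hk⟩
      refine ⟨g⁻¹ • o, ⟨smul_mem_dodecads (M24.inv_mem hg) ho, ?_⟩, smul_inv_smul g o⟩
      rw [← card_inter_smul g, smul_inv_smul]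
      exact hk
    · rintro ⟨o', ⟨ho', hk⟩, rfl⟩
      exact ⟨smul_mem_dodecads hg ho', by rw [card_inter_smul]; exact hk⟩
  rw [this, Set.ncard_image_of_injective _ (MulAction.injective g)]

theorem ncard_base (k : ℕ) : {o : Finset GolayPt | o ∈ dodecads ∧ (dod0 ∩ o).card = k}.ncard =
    (dodL.filter fun m => Nat.beq (pop (Nat.land d0Mask m)) k).length := by
  apply ncard_dodecads_filter
  intro m hm
  rw [dod0, ← ofMask_land, card_ofMask, Nat.beq_eq]

/-- Intersection numbers of dodecads: a dodecad meets every other dodecad in 0, 4, 6 or 8 points, meeting 495 of them in 4 points, 1584 in 6 points and 495 in 8 points. -/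
theorem result (d : Finset Cfsg.GolayPt) (hd : d ∈ Cfsg.dodecads) : (∀ d' ∈ Cfsg.dodecads, d' ≠ d → (d ∩ d').card = 0 ∨ (d ∩ d').card = 4 ∨ (d ∩ d').card = 6 ∨ (d ∩ d').card = 8) ∧ {d' : Finset Cfsg.GolayPt | d' ∈ Cfsg.dodecads ∧ (d ∩ d').card = 4}.ncard = 495 ∧ {d' : Finset Cfsg.GolayPt | d' ∈ Cfsg.dodecads ∧ (d ∩ d').card = 6}.ncard = 1584 ∧ {d' : Finset Cfsg.GolayPt | d' ∈ Cfsg.dodecads ∧ (d ∩ d').card = 8}.ncard = 495 := by
  obtain ⟨g, hg, rfl⟩ := exists_smul_dod0 hd
  refine ⟨?_, ?_, ?_, ?_⟩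
  · intro d' hd' hne
    have h1 : g⁻¹ • d' ∈ dodecads := smul_mem_dodecads (M24.inv_mem hg) hd'
    have h2 : (g • dod0 ∩ d').card = (dod0 ∩ g⁻¹ • d').card := by
      rw [← card_inter_smul g dod0, smul_inv_smul]
    rw [h2]
    have hm : toMask (g⁻¹ • d') ∈ dodL := (mem_dodecads_iff_list _).1 h1
    have hall := List.all_eq_true.1 inter_vals _ hm
    have hne' : toMask (g⁻¹ • d') ≠ d0Mask := by
      intro h
      apply hne
      have : g⁻¹ • d' = dod0 := by
        rw [dod0, ← h, ofMask_toMask]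
      rw [← this, smul_inv_smul]
    have hcard : (dod0 ∩ g⁻¹ • d').card = pop (Nat.land d0Mask (toMask (g⁻¹ • d'))) := by
      conv_lhs => rw [← ofMask_toMask (g⁻¹ • d')]
      rw [dod0, ← ofMask_land, card_ofMask]
    rw [hcard]
    simp only [Bool.or_eq_true, Nat.beq_eq] at hall
    rcases hall with h | ((h | h) | h) | h
    · exact absurd h hne'
    · exact Or.inl h
    · exact Or.inr (Or.inl h)
    · exact Or.inr (Or.inr (Or.inl h))
    · exact Or.inr (Or.inr (Or.inr h))
  · rw [ncard_dod_transport hg, ncard_base, count4]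
  · rw [ncard_dod_transport hg, ncard_base, count6]
  · rw [ncard_dod_transport hg, ncard_base, count8]

end Cfsg.Agent.S1560
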