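import Mathlib
import Cfsg.Statements.S1561
import Cfsg.Agent.Lib.OrbDod

set_option autoImplicit false
open scoped Pointwise
open Cfsg

namespace Cfsg.Agent.S1561

open Cfsg.Agent.Lib.Golay Cfsg.Agent.Lib.OrbitTree Cfsg.Agent.Lib.OrbitCheck Cfsg.Agent.Lib.OrbDod
open Cfsg.Agent.Lib.DodecadFacts

/-- Two dodecads meeting a fixed dodecad in equally many points lie in one orbit of its stabiliser. -/
theorem result (d d' d'' : Finset Cfsg.GolayPt) (hd : d ∈ Cfsg.dodecads) (hd' : d' ∈ Cfsg.dodecads) (hd'' : d'' ∈ Cfsg.dodecads) (h : (d ∩ d').card = (d ∩ d'').card) : ∃ g : Equiv.Perm Cfsg.GolayPt, g ∈ Cfsg.M24 ∧ g • d = d ∧ g • d' = d'' := by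
  obtain ⟨k, hk⟩ := (by rw [data.orbit_all]; exact hd : d ∈ MulAction.orbit M24 (ofMask d0Mask))
  obtain ⟨k, hkM⟩ := k
  have hk' : k • ofMask d0Mask = d := hk
  subst hk'
  have h1 : k⁻¹ • d' ∈ dodecads := smul_mem_dodecads (M24.inv_mem hkM) hd'
  have h2 : k⁻¹ • d'' ∈ dodecads := smul_mem_dodecads (M24.inv_mem hkM) hd''
  have h3 : (ofMask d0Mask ∩ k⁻¹ • d').card = (ofMask d0Mask ∩ k⁻¹ • d'').card := by
    rw [← card_inter_smul k, ← card_inter_smul k (ofMask d0Mask) (k⁻¹ • d''), smul_inv_smul, smul_inv_smul]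
    exact h
  obtain ⟨g, hg, hgx⟩ := data.same_class h1 h2 h3
  obtain ⟨hg1, hg2⟩ := mem_stabP.1 hg
  refine ⟨k * g * k⁻¹, M24.mul_mem (M24.mul_mem hkM hg1) (M24.inv_mem hkM), ?_, ?_⟩
  · rw [mul_smul, mul_smul, inv_smul_smul, hg2]
  · rw [mul_smul, mul_smul, hgx, smul_inv_smul]

end Cfsg.Agent.S1561
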