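import Mathlib
import Cfsg.Statements.S1562
import Cfsg.Agent.Lib.OrbKset

set_option autoImplicit false
open scoped Pointwise
open Cfsg

namespace Cfsg.Agent.S1562

open Cfsg.Agent.Lib.Golay Cfsg.Agent.Lib.OrbitTree Cfsg.Agent.Lib.OrbitCheck Cfsg.Agent.Lib.OrbKset

theorem disjoint_smul (k : Equiv.Perm GolayPt) (A U : Finset GolayPt) :
    Disjoint (k • A) (k • U) ↔ Disjoint A U := by
  rw [Finset.disjoint_iff_inter_eq_empty, Finset.disjoint_iff_inter_eq_empty, ← Finset.card_eq_zero,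
    ← Finset.card_eq_zero, card_inter_smul]

theorem ncard_transport (k : Equiv.Perm GolayPt) (Q : Finset GolayPt → Finset GolayPt → Prop)
    (hQ : ∀ A U, Q (k • A) (k • U) ↔ Q A U) (A : Finset GolayPt) :
    {U | Q (k • A) U}.ncard = {U | Q A U}.ncard := by
  have : {U | Q (k • A) U} = (fun z => k • z) '' {U | Q A U} := by
    ext U
    simp only [Set.mem_ofPred_eq, Set.mem_image]
    constructor
    · intro h
      refine ⟨k⁻¹ • U, ?_, smul_inv_smul k U⟩
      rw [← hQ, smul_inv_smul]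
      exact h
    · rintro ⟨V, hV, rfl⟩
      exact (hQ A V).2 hV
  rw [this, Set.ncard_image_of_injective _ (MulAction.injective k)]

theorem triF_of_disjoint {U : Finset GolayPt} (hd : Disjoint (ofMask 7) U) :
    (triF U = 1 ↔ ∃ o ∈ octads, ofMask 7 ∪ U ⊆ o) ∧ (triF U = 0 ↔ ¬ ∃ o ∈ octads, ofMask 7 ∪ U ⊆ o) := by
  classical
  have h0 : (ofMask 7 ∩ U).card = 0 := by
    rw [Finset.card_eq_zero]
    exact Finset.disjoint_iff_inter_eq_empty.1 hd
  unfold triF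
  rw [h0]
  by_cases h : ∃ o ∈ octads, ofMask 7 ∪ U ⊆ o
  · simp [h]
  · simp [h]

theorem disjoint_of_triF {U : Finset GolayPt} (h : triF U ≤ 1) : Disjoint (ofMask 7) U := by
  classical
  unfold triF at h
  rw [Finset.disjoint_iff_inter_eq_empty, ← Finset.card_eq_zero]
  omega

theorem set_one : {U : Finset GolayPt | U.card = 3 ∧ Disjoint (ofMask 7) U ∧ ∃ o ∈ octads, ofMask 7 ∪ U ⊆ o} =
    {z | z ∈ {U : Finset GolayPt | U.card = 3} ∧ triF z = tv 1} := by
  ext U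
  have h1 : tv 1 = 1 := rfl
  simp only [Set.mem_ofPred_eq, h1]
  constructor
  · rintro ⟨h, hd, hE⟩
    exact ⟨h, (triF_of_disjoint hd).1.2 hE⟩
  · rintro ⟨h, hE⟩
    have hd := disjoint_of_triF (le_of_eq hE)
    exact ⟨h, hd, (triF_of_disjoint hd).1.1 hE⟩

theorem set_zero : {U : Finset GolayPt | U.card = 3 ∧ Disjoint (ofMask 7) U ∧ ¬ ∃ o ∈ octads, ofMask 7 ∪ U ⊆ o} =
    {z | z ∈ {U : Finset GolayPt | U.card = 3} ∧ triF z = tv 3} := by
  ext U
  have h1 : tv 3 = 0 := rfl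
  simp only [Set.mem_ofPred_eq, h1]
  constructor
  · rintro ⟨h, hd, hE⟩
    exact ⟨h, (triF_of_disjoint hd).2.2 hE⟩
  · rintro ⟨h, hE⟩
    have hd := disjoint_of_triF (U := U) (by omega)
    exact ⟨h, hd, (triF_of_disjoint hd).2.1 hE⟩

/-- Orbits of a triad stabiliser on the triads disjoint from it: the 210 triads inside a common octad with it form one orbit and the remaining 1120 another. -/
theorem result (T : Finset Cfsg.GolayPt) (hT : T.card = 3) : {U : Finset Cfsg.GolayPt | U.card = 3 ∧ Disjoint T U ∧ (∃ o ∈ Cfsg.octads, T ∪ U ⊆ o)}.ncard = 210 ∧ {U : Finset Cfsg.GolayPt | U.card = 3 ∧ Disjoint T U ∧ ¬ (∃ o ∈ Cfsg.octads, T ∪ U ⊆ o)}.ncard = 1120 ∧ ∀ U U' : Finset Cfsg.GolayPt, U.card = 3 → U'.card = 3 → Disjoint T U → Disjoint T U' → ((∃ o ∈ Cfsg.octads, T ∪ U ⊆ o) ↔ (∃ o ∈ Cfsg.octads, T ∪ U' ⊆ o)) → ∃ g : Equiv.Perm Cfsg.GolayPt, g ∈ Cfsg.M24 ∧ g • T = T ∧ g • U = U' := by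
  have hT' : T ∈ MulAction.orbit M24 (ofMask 7) := by rw [triad_data.orbit_all]; exact hT
  obtain ⟨⟨k, hkM⟩, hk⟩ := hT'
  have hk' : k • ofMask 7 = T := hk
  subst hk'
  refine ⟨?_, ?_, ?_⟩
  · rw [ncard_transport k (fun A U => U.card = 3 ∧ Disjoint A U ∧ ∃ o ∈ octads, A ∪ U ⊆ o)
      (fun A U => by
        rw [Finset.card_smul_finset, disjoint_smul, exists_octad_smul hkM]), set_one]
    exact triad_data.ncard_class 1
  · rw [ncard_transport k (fun A U => U.card = 3 ∧ Disjoint A U ∧ ¬ ∃ o ∈ octads, A ∪ U ⊆ o)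
      (fun A U => by
        rw [Finset.card_smul_finset, disjoint_smul, exists_octad_smul hkM]), set_zero]
    exact triad_data.ncard_class 3
  · intro U U' hU hU' hd hd' hiff
    have e1 : U = k • (k⁻¹ • U) := (smul_inv_smul k U).symm
    have e2 : U' = k • (k⁻¹ • U') := (smul_inv_smul k U').symm
    rw [e1, disjoint_smul] at hd
    rw [e2, disjoint_smul] at hd'
    have hiff' : (∃ o ∈ octads, ofMask 7 ∪ k⁻¹ • U ⊆ o) ↔ ∃ o ∈ octads, ofMask 7 ∪ k⁻¹ • U' ⊆ o := by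
      rw [← exists_octad_smul hkM, ← exists_octad_smul hkM (ofMask 7) (k⁻¹ • U'), smul_inv_smul, smul_inv_smul]
      exact hiff
    have hcard1 : (k⁻¹ • U) ∈ {U : Finset GolayPt | U.card = 3} := by
      show (k⁻¹ • U).card = 3
      rw [Finset.card_smul_finset]; exact hU
    have hcard2 : (k⁻¹ • U') ∈ {U : Finset GolayPt | U.card = 3} := by
      show (k⁻¹ • U').card = 3
      rw [Finset.card_smul_finset]; exact hU'
    have hf : triF (k⁻¹ • U) = triF (k⁻¹ • U') := by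
      by_cases h : ∃ o ∈ octads, ofMask 7 ∪ k⁻¹ • U ⊆ o
      · rw [(triF_of_disjoint hd).1.2 h, (triF_of_disjoint hd').1.2 (hiff'.1 h)]
      · rw [(triF_of_disjoint hd).2.2 h, (triF_of_disjoint hd').2.2 (fun h' => h (hiff'.2 h'))]
    obtain ⟨g, hg, hgx⟩ := triad_data.same_class hcard1 hcard2 hf
    obtain ⟨hg1, hg2⟩ := mem_stabP.1 hg
    refine ⟨k * g * k⁻¹, M24.mul_mem (M24.mul_mem hkM hg1) (M24.inv_mem hkM), ?_, ?_⟩
    · rw [mul_smul, mul_smul, inv_smul_smul, hg2]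
    · rw [mul_smul, mul_smul, hgx, smul_inv_smul]

end Cfsg.Agent.S1562
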