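import Mathlib
import Cfsg.Statements.S1563
import Cfsg.Agent.Lib.OrbKset

set_option autoImplicit false
open scoped Pointwise
open Cfsg

namespace Cfsg.Agent.S1563

/-- The stabiliser of a pair of points (setwise) is a maximal proper subgroup of the group of the length-24 code. -/
theorem result (s : Finset Cfsg.GolayPt) (hs : s.card = 2) : IsCoatom (MulAction.stabilizer Cfsg.M24 s) :=
  Cfsg.Agent.Lib.OrbKset.isCoatom_duad hs

end Cfsg.Agent.S1563
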