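import Mathlib
import Cfsg.Statements.S1565
import Cfsg.Agent.Lib.OrbOct

set_option autoImplicit false
open scoped Pointwise
open Cfsg

namespace Cfsg.Agent.S1565

/-- The stabiliser of an octad is a maximal proper subgroup of the group of the length-24 code. -/
theorem result (o : Finset Cfsg.GolayPt) (ho : o ∈ Cfsg.octads) : IsCoatom (MulAction.stabilizer Cfsg.M24 o) :=
  Cfsg.Agent.Lib.OrbOct.isCoatom_octad ho

end Cfsg.Agent.S1565
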