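import Mathlib
import Cfsg.Statements.S1568
import Cfsg.Agent.Lib.LeechTheta

set_option autoImplicit false
open Cfsg

namespace Cfsg.Agent.S1568

open Cfsg.Agent.Lib.LeechTheta Cfsg.Agent.Lib.Leech

theorem shell_finite (N : ℕ) (hN : N ≤ 64) :
    {x : GolayPt → ℤ | x ∈ leechLattice ∧ sqNorm x = N}.Finite := by
  apply Set.Finite.subset (Fintype.piFinset fun _ : GolayPt => Finset.Icc (-8 : ℤ) 8).finite_toSet
  intro x hx
  have h : sqNorm x = (N : ℤ) := hx.2
  rw [Finset.mem_coe, Fintype.mem_piFinset]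
  intro i
  exact coord_bound h hN i

/-- Counting the vectors with a coordinate in `Z` by complement. -/
theorem count_exists (Z : Finset ℤ) (N : ℕ) (hN : N ≤ 64) (K : ℤ) (hK : (N : ℤ) = K) :
    {x : GolayPt → ℤ | x ∈ leechLattice ∧ sqNorm x = K ∧ ∃ i, x i ∈ Z}.ncard +
      totalV (Finset.Icc (-8) 8 \ Z) N = totalV (Finset.Icc (-8) 8) N := by
  subst hK
  have hcard : (Finset.Icc (-8 : ℤ) 8 \ Z).card ≤ 17 :=
    le_trans (Finset.card_le_card Finset.sdiff_subset) card_Icc8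
  rw [← ncard_eq_total _ hcard N, ← ncard_shell N hN]
  have hf := shell_finite N hN
  have hd : Disjoint {x : GolayPt → ℤ | x ∈ leechLattice ∧ sqNorm x = N ∧ ∃ i, x i ∈ Z}
      {x : GolayPt → ℤ | x ∈ leechLattice ∧ sqNorm x = N ∧ ∀ i, x i ∈ Finset.Icc (-8) 8 \ Z} := by
    rw [Set.disjoint_left]
    rintro x ⟨_, _, i, hi⟩ ⟨_, _, h⟩
    exact (Finset.mem_sdiff.1 (h i)).2 hi
  rw [← Set.ncard_union_eq hd (hf.subset fun x hx => ⟨hx.1, hx.2.1⟩)
    (hf.subset fun x hx => ⟨hx.1, hx.2.1⟩)]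
  congr 1
  ext x
  simp only [Set.mem_union, Set.mem_ofPred_eq, Finset.mem_sdiff]
  constructor
  · rintro (⟨h1, h2, _⟩ | ⟨h1, h2, _⟩) <;> exact ⟨h1, h2⟩
  · rintro ⟨h1, h2⟩
    by_cases h : ∃ i, x i ∈ Z
    · exact Or.inl ⟨h1, h2, h⟩
    · push Not at h
      exact Or.inr ⟨h1, h2, fun i => ⟨coord_bound h2 hN i, h i⟩⟩

theorem ncard_total' (W : Finset ℤ) (hW : W.card ≤ 17) (N : ℕ) (K : ℤ) (hK : (N : ℤ) = K) :
    {x : GolayPt → ℤ | x ∈ leechLattice ∧ sqNorm x = K ∧ ∀ i, x i ∈ W}.ncard = totalV W N := by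
  subst hK
  exact ncard_eq_total W hW N

theorem total_A : totalV {0, 2, -2} 48 = 5275648 := by decide +kernel

theorem total_B : totalV {1, -1, 3, -3} 48 = 8290304 := by decide +kernel

theorem total_C : totalV (Finset.Icc (-8) 8 \ {4, -4}) 48 = 13664256 := by decide +kernel

theorem total_D : totalV (Finset.Icc (-8) 8 \ {5, -5}) 48 = 16674816 := by decide +kernel

/-- All coordinates of a lattice vector have the same parity. -/
theorem same_parity {x : GolayPt → ℤ} (hx : x ∈ leechLattice) (i j : GolayPt) :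
    x i % 2 = x j % 2 := by
  obtain ⟨m, α, h⟩ := mem_leechLattice_iff.1 hx
  have h1 := h.2.1 i
  have h2 := h.2.1 j
  simp only [Int.ModEq] at h1 h2
  rcases br_cases α i with ⟨_, hi⟩ | ⟨_, hi⟩ <;> rcases br_cases α j with ⟨_, hj⟩ | ⟨_, hj⟩ <;>
    rw [hi] at h1 <;> rw [hj] at h2 <;> omega

theorem abs_eq_iff_mem (a b : ℤ) (hb : 0 ≤ b) : |a| = b ↔ a = b ∨ a = -b := by
  exact abs_eq hb

/-- The `(±3^3, ±1^21)` family in coordinates. -/
theorem family_B :
    {x : GolayPt → ℤ | x ∈ leechLattice ∧ sqNorm x = 48 ∧ ∃ i j k, i ≠ j ∧ j ≠ k ∧ i ≠ k ∧ |x i| = 3 ∧ |x j| = 3 ∧ |x k| = 3} =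
    {x : GolayPt → ℤ | x ∈ leechLattice ∧ sqNorm x = 48 ∧ ∀ i, x i ∈ ({1, -1, 3, -3} : Finset ℤ)} := by
  ext x
  simp only [Set.mem_ofPred_eq]
  constructor
  · rintro ⟨hL, hN, i, j, k, hij, hjk, hik, hi, hj, hk⟩
    refine ⟨hL, hN, fun l => ?_⟩
    have hodd : x l % 2 = 1 := by
      rw [same_parity hL l i]
      rcases (abs_eq (by norm_num : (0 : ℤ) ≤ 3)).1 hi with h | h <;> omega
    by_cases hl : l = i ∨ l = j ∨ l = k
    · have : |x l| = 3 := by
        rcases hl with rfl | rfl | rfl <;> assumption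
      rcases (abs_eq (by norm_num : (0 : ℤ) ≤ 3)).1 this with h | h <;> simp [h]
    · push Not at hl
      -- the other coordinate is small
      have hs : x i ^ 2 + x j ^ 2 + x k ^ 2 + x l ^ 2 ≤ sqNorm x := by
        have hsub : ({i, j, k, l} : Finset GolayPt) ⊆ Finset.univ := Finset.subset_univ _
        have := Finset.sum_le_sum_of_subset_of_nonneg (f := fun a => x a ^ 2) hsub
          (fun a _ _ => sq_nonneg _)
        rw [Finset.sum_insert (by simp [hij, hik, hl.1.symm]),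
          Finset.sum_insert (by simp [hjk, hl.2.1.symm]),
          Finset.sum_insert (by simp [hl.2.2.symm]), Finset.sum_singleton] at this
        simp only [sqNorm]
        linarith
      have h3 : ∀ a : ℤ, |a| = 3 → a ^ 2 = 9 := by
        intro a ha
        rw [← sq_abs, ha]
        norm_num
      rw [h3 _ hi, h3 _ hj, h3 _ hk, hN] at hs
      have hl2 : x l ^ 2 ≤ 21 := by linarith
      have hb1 : x l ≤ 4 := by nlinarith
      have hb2 : -4 ≤ x l := by nlinarith
      have : x l = 1 ∨ x l = -1 ∨ x l = 3 ∨ x l = -3 := by omega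
      rcases this with h | h | h | h <;> simp [h]
  · rintro ⟨hL, hN, h⟩
    have hN' : sqNorm x = 48 := hN
    refine ⟨hL, hN', ?_⟩
    set A := Finset.univ.filter fun i => |x i| = 3 with hA
    have hval : ∀ i, x i ^ 2 = 1 + 8 * (if i ∈ A then 1 else 0) := by
      intro i
      have := h i
      simp only [Finset.mem_insert, Finset.mem_singleton] at this
      rcases this with h1 | h1 | h1 | h1 <;> simp [hA, h1]
    have hsum : sqNorm x = 24 + 8 * A.card := by
      simp only [sqNorm]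
      simp only [hval, Finset.sum_add_distrib, ← Finset.mul_sum, Finset.sum_boole]
      simp
    have hcard : A.card = 3 := by
      rw [hN'] at hsum
      omega
    obtain ⟨i, j, k, hij, hik, hjk, hA3⟩ := Finset.card_eq_three.1 hcard
    have hmem : ∀ a ∈ A, |x a| = 3 := fun a ha => (Finset.mem_filter.1 ha).2
    refine ⟨i, j, k, hij, hjk, hik, hmem i (by simp [hA3]), hmem j (by simp [hA3]), hmem k (by simp [hA3])⟩

/-- Shape census of the lattice vectors of sum of squares 48 (customary norm 6): the four families (2^12, 0^12), (±3^3, ±1^21), (±4, ±2^8, 0^15) and (±5, ±1^23) have 5275648, 8290304, 3108864 and 98304 members. -/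
theorem result : {x : Cfsg.GolayPt → ℤ | x ∈ Cfsg.leechLattice ∧ Cfsg.sqNorm x = 48 ∧ ∀ i, x i = 0 ∨ x i = 2 ∨ x i = -2}.ncard = 5275648 ∧ {x : Cfsg.GolayPt → ℤ | x ∈ Cfsg.leechLattice ∧ Cfsg.sqNorm x = 48 ∧ ∃ i j k, i ≠ j ∧ j ≠ k ∧ i ≠ k ∧ |x i| = 3 ∧ |x j| = 3 ∧ |x k| = 3}.ncard = 8290304 ∧ {x : Cfsg.GolayPt → ℤ | x ∈ Cfsg.leechLattice ∧ Cfsg.sqNorm x = 48 ∧ ∃ i, |x i| = 4}.ncard = 3108864 ∧ {x : Cfsg.GolayPt → ℤ | x ∈ Cfsg.leechLattice ∧ Cfsg.sqNorm x = 48 ∧ ∃ i, |x i| = 5}.ncard = 98304 := by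
  refine ⟨?_, ?_, ?_, ?_⟩
  · have := ncard_total' {0, 2, -2} (le_trans Finset.card_le_three (by norm_num)) 48 48 (by norm_num)
    rw [total_A] at this
    rw [← this]
    congr 1
    ext x
    simp only [Set.mem_ofPred_eq, Finset.mem_insert, Finset.mem_singleton]
  · rw [family_B, ncard_total' _ (le_trans Finset.card_le_four (by norm_num)) 48 48 (by norm_num), total_B]
  · have := count_exists {4, -4} 48 (by norm_num) 48 (by norm_num)
    rw [total_C, total48] at this
    have e : {x : GolayPt → ℤ | x ∈ leechLattice ∧ sqNorm x = 48 ∧ ∃ i, |x i| = 4} =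
        {x : GolayPt → ℤ | x ∈ leechLattice ∧ sqNorm x = 48 ∧ ∃ i, x i ∈ ({4, -4} : Finset ℤ)} := by
      ext x
      simp only [Set.mem_ofPred_eq, Finset.mem_insert, Finset.mem_singleton,
        abs_eq (by norm_num : (0 : ℤ) ≤ 4)]
    rw [e]
    exact Nat.add_right_cancel (this.trans (by norm_num : 16773120 = 3108864 + 13664256))
  · have := count_exists {5, -5} 48 (by norm_num) 48 (by norm_num)
    rw [total_D, total48] at this
    have e : {x : GolayPt → ℤ | x ∈ leechLattice ∧ sqNorm x = 48 ∧ ∃ i, |x i| = 5} =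
        {x : GolayPt → ℤ | x ∈ leechLattice ∧ sqNorm x = 48 ∧ ∃ i, x i ∈ ({5, -5} : Finset ℤ)} := by
      ext x
      simp only [Set.mem_ofPred_eq, Finset.mem_insert, Finset.mem_singleton,
        abs_eq (by norm_num : (0 : ℤ) ≤ 5)]
    rw [e]
    exact Nat.add_right_cancel (this.trans (by norm_num : 16773120 = 98304 + 16674816))

end Cfsg.Agent.S1568
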