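import Mathlib
import Cfsg.Statements.S1569
import Cfsg.Agent.Lib.LeechClasses

set_option autoImplicit false
open scoped Pointwise
open Cfsg

namespace Cfsg.Agent.S1569

/-- The cross through a lattice vector of customary norm 8 has exactly 48 members. -/
theorem result (x : Cfsg.GolayPt → ℤ) (hx : x ∈ Cfsg.leechLattice) (hxn : Cfsg.sqNorm x = 64) : (Cfsg.cross x).ncard = 48 := by
  have := Cfsg.Agent.Lib.LeechClasses.main_lattice.1 x hx hxn
  rw [← this]
  congr 1
  ext y
  simp only [Cfsg.cross, Set.mem_ofPred_eq, hxn]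

end Cfsg.Agent.S1569
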