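import Cfsg.Statements.S1581
import Cfsg.Agent.Lib.CoU43

set_option autoImplicit false
open Cfsg
open Cfsg.Agent.Lib.CoConf

namespace Cfsg.Agent.S1581

/-- The McLaughlin group acts with rank 3 and subdegrees 1, 112, 162 on its 275 points: the point stabiliser has two orbits on the remaining points, distinguished by customary inner product 1 or 2 with the fixed point. -/
theorem result (u v x : ↥Cfsg.leechLattice) (hu : Cfsg.sqNorm (u : Cfsg.GolayPt → ℤ) = 48) (hv : Cfsg.sqNorm (v : Cfsg.GolayPt → ℤ) = 32 ∧ Cfsg.sqNorm ((u - v) : Cfsg.GolayPt → ℤ) = 32) (hx : x ∈ {x : ↥Cfsg.leechLattice | Cfsg.sqNorm (x : Cfsg.GolayPt → ℤ) = 32 ∧ Cfsg.sqNorm ((u - x) : Cfsg.GolayPt → ℤ) = 32 ∧ Cfsg.dotInt (v : Cfsg.GolayPt → ℤ) (x : Cfsg.GolayPt → ℤ) = 16}) : {y : ↥Cfsg.leechLattice | y ∈ {x : ↥Cfsg.leechLattice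 | Cfsg.sqNorm (x : Cfsg.GolayPt → ℤ) = 32 ∧ Cfsg.sqNorm ((u - x) : Cfsg.GolayPt → ℤ) = 32 ∧ Cfsg.dotInt (v : Cfsg.GolayPt → ℤ) (x : Cfsg.GolayPt → ℤ) = 16} ∧ Cfsg.dotInt (x : Cfsg.GolayPt → ℤ) (y : Cfsg.GolayPt → ℤ) = 8}.ncard = 112 ∧ {y : ↥Cfsg.leechLattice | y ∈ {x : ↥Cfsg.leechLattice | Cfsg.sqNorm (x : Cfsg.GolayPt → ℤ) = 32 ∧ Cfsg.sqNorm ((u - x) : Cfsg.GolayPt → ℤ) = 32 ∧ Cfsg.dotInt (v : Cfsg.GolayPt → ℤ) (x : Cfsg.GolayPt → ℤ) = 16} ∧ y ≠ x ∧ Cfsg.dotInt (x : Cfsg.GolayPt → ℤ) (y : Cfsg.GolayPt → ℤ) = 16}.ncard = 162 ∧ ∀ y ∈ {x : ↥Cfsg.leechLattice | Cfsg.sqNorm (x : Cfsg.GolayPt → ℤ) = 32 ∧ Cfsg.sqNorm ((u - x) : Cfsg.GolayPt → ℤ) = 32 ∧ Cfsg.dotInt (v : Cfsg.GolayPt → ℤ) (x : Cfsg.GolayPt → ℤ) = 16}, ∀ y' ∈ {x : ↥Cfsg.leechLattice | Cfsg.sqNorm (x : Cfsg.GolayPt → ℤ) = 32 ∧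 Cfsg.sqNorm ((u - x) : Cfsg.GolayPt → ℤ) = 32 ∧ Cfsg.dotInt (v : Cfsg.GolayPt → ℤ) (x : Cfsg.GolayPt → ℤ) = 16}, y ≠ x → y' ≠ x → Cfsg.dotInt (x : Cfsg.GolayPt → ℤ) (y : Cfsg.GolayPt → ℤ) = Cfsg.dotInt (x : Cfsg.GolayPt → ℤ) (y' : Cfsg.GolayPt → ℤ) → ∃ g : ↥Cfsg.Co0, g • u = u ∧ g • v = v ∧ g • x = x ∧ g • y = y' := by
  have hd : Cfsg.dotInt (u : Cfsg.GolayPt → ℤ) (v : Cfsg.GolayPt → ℤ) = 24 :=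
    (dot_of_norm_sub hu hv.1).1 hv.2
  rw [set275_eq u v hu] at hx ⊢
  obtain ⟨h1, h2, h3⟩ := u43_main u v x hu hv.1 hd hx
  have hxn : Cfsg.sqNorm (x : Cfsg.GolayPt → ℤ) = 32 := hx.1
  have e8 : {y : ↥Cfsg.leechLattice | y ∈ DS [(v, 16), (u, 24)] ∧ Cfsg.dotInt (x : Cfsg.GolayPt → ℤ) (y : Cfsg.GolayPt → ℤ) = 8} = DS [(x, 8), (v, 16), (u, 24)] := by
    ext y
    exact mem_DS_cons.symm
  have e16 : {y : ↥Cfsg.leechLattice | y ∈ DS [(v, 16), (u, 24)] ∧ y ≠ x ∧ Cfsg.dotInt (x : Cfsg.GolayPt → ℤ) (y : Cfsg.GolayPt → ℤ) = 16} = DS [(x, 16), (v, 16), (u, 24)] := by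
    ext y
    refine Iff.trans ?_ mem_DS_cons.symm
    constructor
    · rintro ⟨a, b, c⟩
      exact ⟨a, c⟩
    · rintro ⟨a, c⟩
      refine ⟨a, ?_, c⟩
      rintro rfl
      rw [dot_self, hxn] at c
      norm_num at c
  rw [e8, e16]
  refine ⟨h1, h2, ?_⟩
  intro y hy y' hy' hyx hyx' hdot
  rcases h3 y hy hyx with h | h
  · obtain ⟨k, hk, e⟩ := u43_trans8 u v x hu hv.1 hd hx y (mem_DS_cons.2 ⟨hy, h⟩) y' (mem_DS_cons.2 ⟨hy', hdot ▸ h⟩)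
    exact ⟨k, hk (u, 24) (by simp), hk (v, 16) (by simp), hk (x, 8) (by simp), e⟩
  · obtain ⟨k, hk, e⟩ := u43_trans16 u v x hu hv.1 hd hx y (mem_DS_cons.2 ⟨hy, h⟩) y' (mem_DS_cons.2 ⟨hy', hdot ▸ h⟩)
    exact ⟨k, hk (u, 24) (by simp), hk (v, 16) (by simp), hk (x, 16) (by simp), e⟩

end Cfsg.Agent.S1581
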