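import Cfsg.Statements.S1584
import Cfsg.Agent.Lib.CoHS

set_option autoImplicit false
open Cfsg
open Cfsg.Agent.Lib.CoConf

namespace Cfsg.Agent.S1584

/-- The Higman–Sims group acts with rank 3 and subdegrees 1, 22, 77 on its 100 points, the orbits of a point stabiliser being distinguished by customary inner product 1 with the fixed point. -/
theorem result (v w x : ↥Cfsg.leechLattice) (hv : Cfsg.sqNorm (v : Cfsg.GolayPt → ℤ) = 48) (hw : Cfsg.sqNorm (w : Cfsg.GolayPt → ℤ) = 48) (hvw : Cfsg.dotInt (v : Cfsg.GolayPt → ℤ) (w : Cfsg.GolayPt → ℤ) = -32) (hx : x ∈ {x : ↥Cfsg.leechLattice | Cfsg.sqNorm (x : Cfsg.GolayPt → ℤ) = 32 ∧ Cfsg.dotInt (v : Cfsg.GolayPt → ℤ) (x : Cfsg.GolayPt → ℤ) = 24 ∧ Cfsg.dotInt (w : Cfsg.GolayPt → ℤ) (x : Cfsg.GolayPt → ℤ) = -24}) : {y : ↥Cfsg.leechLattice | y ∈ {x : ↥Cfsg.leechLattice | Cfsg.sqNorm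 (x : Cfsg.GolayPt → ℤ) = 32 ∧ Cfsg.dotInt (v : Cfsg.GolayPt → ℤ) (x : Cfsg.GolayPt → ℤ) = 24 ∧ Cfsg.dotInt (w : Cfsg.GolayPt → ℤ) (x : Cfsg.GolayPt → ℤ) = -24} ∧ Cfsg.dotInt (x : Cfsg.GolayPt → ℤ) (y : Cfsg.GolayPt → ℤ) = 8}.ncard = 22 ∧ {y : ↥Cfsg.leechLattice | y ∈ {x : ↥Cfsg.leechLattice | Cfsg.sqNorm (x : Cfsg.GolayPt → ℤ) = 32 ∧ Cfsg.dotInt (v : Cfsg.GolayPt → ℤ) (x : Cfsg.GolayPt → ℤ) = 24 ∧ Cfsg.dotInt (w : Cfsg.GolayPt → ℤ) (x : Cfsg.GolayPt → ℤ) = -24} ∧ y ≠ x ∧ Cfsg.dotInt (x : Cfsg.GolayPt → ℤ) (y : Cfsg.GolayPt → ℤ) ≠ 8}.ncard = 77 ∧ ∀ y ∈ {x : ↥Cfsg.leechLattice | Cfsg.sqNorm (x : Cfsg.GolayPt → ℤ) = 32 ∧ Cfsg.dotInt (v : Cfsg.GolayPt → ℤ) (x : Cfsg.GolayPt → ℤ) = 24 ∧ Cfsg.dotInt (w : Cfsg.GolayPt → ℤ) (x : Cfsg.GolayPt → ℤ) = -24}, ∀ y' ∈ {x : ↥Cfsg.leechLattice | Cfsg.sqNorm (x : Cfsg.GolayPt → ℤ) = 32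 ∧ Cfsg.dotInt (v : Cfsg.GolayPt → ℤ) (x : Cfsg.GolayPt → ℤ) = 24 ∧ Cfsg.dotInt (w : Cfsg.GolayPt → ℤ) (x : Cfsg.GolayPt → ℤ) = -24}, y ≠ x → y' ≠ x → (Cfsg.dotInt (x : Cfsg.GolayPt → ℤ) (y : Cfsg.GolayPt → ℤ) = 8 ↔ Cfsg.dotInt (x : Cfsg.GolayPt → ℤ) (y' : Cfsg.GolayPt → ℤ) = 8) → ∃ g : ↥Cfsg.Co0, g • v = v ∧ g • w = w ∧ g • x = x ∧ g • y = y' := by
  rw [set100_eq v w] at hx ⊢
  have hR := rank_hs v w x hv hw hvw hx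
  have e8 : {y : ↥Cfsg.leechLattice | y ∈ DS [(w, -24), (v, 24)] ∧ Cfsg.dotInt (x : Cfsg.GolayPt → ℤ) (y : Cfsg.GolayPt → ℤ) = 8} = DS [(x, 8), (w, -24), (v, 24)] := by
    ext y
    exact mem_DS_cons.symm
  have hdots : ∀ y ∈ DS [(w, -24), (v, 24)], y ≠ x → Cfsg.dotInt (x : Cfsg.GolayPt → ℤ) (y : Cfsg.GolayPt → ℤ) = 8 ∨ Cfsg.dotInt (x : Cfsg.GolayPt → ℤ) (y : Cfsg.GolayPt → ℤ) = 16 := by
    intro y hy hyx
    obtain ⟨h1, h2⟩ := hR.dot_ne hx (by decide) (by simp) hy hyx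
    simp only [Finset.mem_insert, Finset.mem_singleton] at h1
    tauto
  have e16 : {y : ↥Cfsg.leechLattice | y ∈ DS [(w, -24), (v, 24)] ∧ y ≠ x ∧ Cfsg.dotInt (x : Cfsg.GolayPt → ℤ) (y : Cfsg.GolayPt → ℤ) ≠ 8} = DS [(x, 16), (w, -24), (v, 24)] := by
    ext y
    refine Iff.trans ?_ mem_DS_cons.symm
    constructor
    · rintro ⟨a, b, c⟩
      rcases hdots y a b with h | h
      · exact absurd h c
      · exact ⟨a, h⟩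
    · rintro ⟨a, c⟩
      refine ⟨a, ?_, by rw [c]; norm_num⟩
      rintro rfl
      rw [dot_self, hx.1] at c
      norm_num at c
  rw [e8, e16]
  refine ⟨?_, ?_, ?_⟩
  · have := hR.1 8 (by decide)
    simpa using this
  · have := hR.1 16 (by decide)
    simpa using this
  · intro y hy y' hy' hyx hyx' hiff
    rcases hdots y hy hyx with h | h
    · have h' := hiff.1 h
      obtain ⟨k, hk, e⟩ := hR.2.1 8 (by decide) (by norm_num) y (mem_DS_cons.2 ⟨hy, h⟩) y' (mem_DS_cons.2 ⟨hy', h'⟩)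
      exact ⟨k, hk (v, 24) (by simp), hk (w, -24) (by simp), hk (x, 8) (by simp), e⟩
    · have h' : Cfsg.dotInt (x : Cfsg.GolayPt → ℤ) (y' : Cfsg.GolayPt → ℤ) = 16 := by
        rcases hdots y' hy' hyx' with h2 | h2
        · have := hiff.2 h2
          rw [h] at this
          norm_num at this
        · exact h2
      obtain ⟨k, hk, e⟩ := hR.2.1 16 (by decide) (by norm_num) y (mem_DS_cons.2 ⟨hy, h⟩) y' (mem_DS_cons.2 ⟨hy', h'⟩)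
      exact ⟨k, hk (v, 24) (by simp), hk (w, -24) (by simp), hk (x, 16) (by simp), e⟩

end Cfsg.Agent.S1584
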