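import Cfsg.Statements.S1585
import Cfsg.Agent.Lib.Co0Pair2

set_option autoImplicit false
open Cfsg

namespace Cfsg.Agent.S1585

/-- Two vectors of customary norm 6 with inner product −4 are exchanged by some automorphism of the lattice. -/
theorem result (v w : ↥Cfsg.leechLattice) (hv : Cfsg.sqNorm (v : Cfsg.GolayPt → ℤ) = 48) (hw : Cfsg.sqNorm (w : Cfsg.GolayPt → ℤ) = 48) (hvw : Cfsg.dotInt (v : Cfsg.GolayPt → ℤ) (w : Cfsg.GolayPt → ℤ) = -32) : ∃ g : ↥Cfsg.Co0, g • v = w ∧ g • w = v := by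
  have hsum : ∀ a b : ↥Cfsg.leechLattice, ((a + b : ↥Cfsg.leechLattice) : Cfsg.GolayPt → ℤ) = (a : Cfsg.GolayPt → ℤ) + (b : Cfsg.GolayPt → ℤ) := fun _ _ => rfl
  have h1 := Cfsg.Agent.Lib.Co0Mod.sqNorm_add' (v : Cfsg.GolayPt → ℤ) (w : Cfsg.GolayPt → ℤ)
  rw [hv, hw, hvw, ← hsum] at h1
  have hx : Cfsg.sqNorm ((v + w : ↥Cfsg.leechLattice) : Cfsg.GolayPt → ℤ) = 32 := by
    rw [h1]
    norm_num
  have hself : ∀ a : ↥Cfsg.leechLattice, Cfsg.dotInt (a : Cfsg.GolayPt → ℤ) (a : Cfsg.GolayPt → ℤ) = Cfsg.sqNorm (a : Cfsg.GolayPt → ℤ) :=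
    fun a => Cfsg.Agent.Lib.LeechClasses.dotInt_self _
  have hd1 : Cfsg.dotInt ((v + w : ↥Cfsg.leechLattice) : Cfsg.GolayPt → ℤ) (v : Cfsg.GolayPt → ℤ) = 16 := by
    rw [hsum, Cfsg.dotInt_add_left, hself, hv, Cfsg.Agent.Lib.LeechClasses.dotInt_comm, hvw]
    norm_num
  have hd2 : Cfsg.dotInt ((v + w : ↥Cfsg.leechLattice) : Cfsg.GolayPt → ℤ) (w : Cfsg.GolayPt → ℤ) = 16 := by
    rw [hsum, Cfsg.dotInt_add_left, hself, hw, hvw]
    norm_num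
  obtain ⟨g, h2, h3⟩ := Cfsg.Agent.Lib.Co0Pair2.pairP16 hx hx hv hw hd1 hd2
  refine ⟨g, h3, ?_⟩
  have h4 : g • (v + w) = g • v + g • w := g.2.1 v w
  rw [h2, h3] at h4
  exact (add_left_cancel (a := w) (by rw [← h4, add_comm])).symm

end Cfsg.Agent.S1585
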