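import Cfsg.Statements.S1586
import Mathlib
import Cfsg.Agent.Lib.SRG100Aut

set_option autoImplicit false
open Cfsg

namespace Cfsg.Agent.S1586

open Cfsg.Agent.Lib.SRG100 Cfsg.Agent.Lib.SRG100Model Cfsg.Agent.Lib.SRG100Aut

/-- Graph automorphisms as the permutation subgroup. -/
def autEquiv {V : Type*} [Fintype V] [DecidableEq V] (G : SimpleGraph V) [DecidableRel G.Adj] :
    (G ≃g G) ≃ AP G where
  toFun φ := ⟨φ.toEquiv, iso_mem_AP φ⟩
  invFun σ := ⟨σ.1, fun {x y} => σ.2 x y⟩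
  left_inv φ := by ext x; rfl
  right_inv σ := by ext x; rfl

/-- Isomorphic graphs have equinumerous automorphism groups. -/
def conjEquiv {V W : Type*} {G : SimpleGraph V} {H : SimpleGraph W} (Φ : G ≃g H) :
    (G ≃g G) ≃ (H ≃g H) where
  toFun φ := (Φ.symm.trans φ).trans Φ
  invFun ψ := (Φ.trans ψ).trans Φ.symm
  left_inv φ := by ext x; simp
  right_inv ψ := by ext x; simp

/-- The Higman–Sims graph built from an S(3, 6, 22) has exactly 88704000 automorphisms. -/
theorem result {α : Type*} [Fintype α] [DecidableEq α] (hα : Fintype.card α = 22) {B : Set (Finset α)} (hB : Cfsg.IsSteinerSystem 3 6 B) : Nat.card (Cfsg.pointBlockGraph B ≃g Cfsg.pointBlockGraph B) = 88704000 := by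
  classical
  have hF0 := facts0
  obtain ⟨φ₁, -⟩ := iso_pointBlock hF0 (0 : Fin 100)
  have e₁ : SetSystemIso B (sys G0 0) :=
    Cfsg.Agent.Lib.SteinerSearch.iso_of_good Cfsg.Agent.Lib.Steiner3622.good hα
      (card_points hF0 0) hB (steiner hF0 0)
  obtain ⟨ψ, -⟩ := pointBlock_congr e₁
  let Φ : Cfsg.pointBlockGraph B ≃g G0 := ψ.trans φ₁.symm
  rw [Nat.card_congr (conjEquiv Φ), Nat.card_congr (autEquiv G0)]
  exact card_AP hF0 0

end Cfsg.Agent.S1586
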