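import Mathlib
import Cfsg.Statements.S1587

set_option autoImplicit false
open Matrix
open Cfsg

namespace Cfsg.Agent.S1587

/-- Symmetry of the bilinear form of a symmetric matrix. -/
theorem form_symm (B : Matrix (Fin 24) (Fin 24) ℤ) (hsymm : B.IsSymm) (a b : Fin 24 → ℤ) :
    a ⬝ᵥ (B *ᵥ b) = b ⬝ᵥ (B *ᵥ a) := by
  rw [Matrix.dotProduct_mulVec, ← Matrix.mulVec_transpose, hsymm.eq, dotProduct_comm]

/-- First step of the characterisation of the rank-24 lattice: in an even lattice without roots, norm-8 vectors congruent modulo 2 are equal, opposite or orthogonal. -/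
theorem result (B : Matrix (Fin 24) (Fin 24) ℤ) (hsymm : B.IsSymm) (hpos : ∀ x : Fin 24 → ℤ, x ≠ 0 → 0 < x ⬝ᵥ (B *ᵥ x)) (heven : ∀ x : Fin 24 → ℤ, (2 : ℤ) ∣ x ⬝ᵥ (B *ᵥ x)) (h2 : ∀ x : Fin 24 → ℤ, x ⬝ᵥ (B *ᵥ x) ≠ 2) (x y : Fin 24 → ℤ) (hx : x ⬝ᵥ (B *ᵥ x) = 8) (hy : y ⬝ᵥ (B *ᵥ y) = 8) (hc : ∀ i, (2 : ℤ) ∣ (x - y) i) : y = x ∨ y = -x ∨ x ⬝ᵥ (B *ᵥ y) = 0 := by
  choose a ha using hc
  obtain ⟨b, hb⟩ : ∃ b : Fin 24 → ℤ, b = y + a := ⟨_, rfl⟩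
  have hxab : x = a + b := by
    funext i
    have := ha i
    simp only [Pi.sub_apply] at this
    simp only [hb, Pi.add_apply]
    linarith
  have hyab : y = b - a := by
    funext i
    simp only [hb, Pi.sub_apply, Pi.add_apply]
    ring
  clear hb ha
  subst hxab hyab
  have hs := form_symm B hsymm a b
  have hx' : a ⬝ᵥ (B *ᵥ a) + 2 * (a ⬝ᵥ (B *ᵥ b)) + b ⬝ᵥ (B *ᵥ b) = 8 := by
    rw [Matrix.mulVec_add, dotProduct_add, add_dotProduct, add_dotProduct, ← hs] at hx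
    linarith
  have hy' : a ⬝ᵥ (B *ᵥ a) - 2 * (a ⬝ᵥ (B *ᵥ b)) + b ⬝ᵥ (B *ᵥ b) = 8 := by
    rw [Matrix.mulVec_sub, dotProduct_sub, sub_dotProduct, sub_dotProduct, ← hs] at hy
    linarith
  have hxy : (a + b) ⬝ᵥ (B *ᵥ (b - a)) = b ⬝ᵥ (B *ᵥ b) - a ⬝ᵥ (B *ᵥ a) := by
    rw [Matrix.mulVec_sub, dotProduct_sub, add_dotProduct, add_dotProduct, hs]
    ring
  by_cases ha0 : a = 0
  · left
    rw [ha0]
    simp
  by_cases hb0 : b = 0
  · right; left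
    rw [hb0]
    simp
  right; right
  have hapos := hpos a ha0
  have hbpos := hpos b hb0
  obtain ⟨u, hu⟩ := heven a
  obtain ⟨v, hv⟩ := heven b
  have h2a := h2 a
  have h2b := h2 b
  rw [hxy]
  omega

end Cfsg.Agent.S1587
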