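import Cfsg.Statements.S1589
import Cfsg.Agent.Lib.M24IndexD

set_option autoImplicit false
open scoped Pointwise
open Cfsg

namespace Cfsg.Agent.S1589

open Cfsg.Agent.Lib.M24Index Cfsg.Agent.Lib.Golay Cfsg.Agent.Lib.M24Facts

theorem map_le (H : Subgroup ↥M24) : H.map M24.subtype ≤ M24 := by
  rintro _ ⟨x, -, rfl⟩
  exact x.2

theorem card_map (H : Subgroup ↥M24) : Nat.card (H.map M24.subtype) = Nat.card H :=
  Subgroup.card_map_of_injective M24.subtype_injective

theorem card_of_index (H : Subgroup ↥M24) {n m : ℕ} (h : H.index = n) (hm : m * n = 244823040) (hn : 0 < n) :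
    Nat.card H = m := by
  have h1 := Subgroup.card_mul_index H
  rw [h, card_M24, ← hm] at h1
  exact Nat.eq_of_mul_eq_mul_right hn h1

theorem conj_le (H : Subgroup ↥M24) (g : ↥M24) : conjSub g.1 (H.map M24.subtype) ≤ M24 := by
  intro x hx
  have h1 := map_le H (mem_conjSub.1 hx)
  have h2 : x = g.1 * (g.1⁻¹ * x * g.1) * g.1⁻¹ := by group
  rw [h2]
  exact M24.mul_mem (M24.mul_mem g.2 h1) (M24.inv_mem g.2)

theorem conj_over (H : Subgroup ↥M24) (g : ↥M24)
    (h : ∀ c ∈ pcGens, ∃ x ∈ H, (x : Equiv.Perm GolayPt) = g.1⁻¹ * decode c * g.1) :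
    ∀ c ∈ pcGens, decode c ∈ conjSub g.1 (H.map M24.subtype) := by
  intro c hc
  obtain ⟨x, hx, e⟩ := h c hc
  rw [mem_conjSub]
  exact ⟨x, hx, e⟩

theorem card_conj (H : Subgroup ↥M24) (g : ↥M24) : Nat.card (conjSub g.1 (H.map M24.subtype)) = Nat.card H := by
  rw [card_conjSub, card_map]

theorem stab_of_conj {X : Type*} [MulAction (Equiv.Perm GolayPt) X] {H : Subgroup ↥M24} {g : ↥M24} {x : X}
    (h : ∀ z ∈ conjSub g.1 (H.map M24.subtype), z • x = x) :
    H ≤ MulAction.stabilizer M24 (g.1⁻¹ • x) := by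
  intro y hy
  have hz : g.1 * y.1 * g.1⁻¹ ∈ conjSub g.1 (H.map M24.subtype) := by
    rw [mem_conjSub]
    refine ⟨y, hy, ?_⟩
    simp [mul_assoc]
  have h1 := h _ hz
  rw [MulAction.mem_stabilizer_iff]
  show y.1 • (g.1⁻¹ • x) = g.1⁻¹ • x
  rw [smul_smul]
  have h2 : y.1 * g.1⁻¹ = g.1⁻¹ * (g.1 * y.1 * g.1⁻¹) := by group
  rw [h2, mul_smul, h1]

theorem card_stab_octad {o : Finset GolayPt} (ho : o ∈ octads) :
    Nat.card ↥(MulAction.stabilizer M24 o) = 322560 := by
  rw [← Cfsg.Agent.Lib.OctadAction.card_stabP_octad ho]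
  apply Nat.card_congr
  exact {
    toFun := fun g => ⟨g.1.1, g.1.2, g.2⟩
    invFun := fun g => ⟨⟨g.1, g.2.1⟩, g.2.2⟩
    left_inv := fun g => rfl
    right_inv := fun g => rfl }

theorem card_stab_pair {s : Finset GolayPt} (hs : s.card = 2) :
    Nat.card ↥(MulAction.stabilizer M24 s) ≤ 887040 := by
  obtain ⟨a, b, hab, rfl⟩ := Finset.card_eq_two.1 hs
  set T := MulAction.stabilizer M24 ({a, b} : Finset GolayPt) with hT
  have h1 := card_eq_orbit_mul_inf T a
  have hmem : ∀ g ∈ T, ∀ x ∈ ({a, b} : Finset GolayPt), (g : Equiv.Perm GolayPt) x ∈ ({a, b} : Finset GolayPt) := by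
    intro g hg x hx
    have h2 : g • ({a, b} : Finset GolayPt) = {a, b} := hg
    rw [← h2]
    exact Finset.smul_mem_smul_finset hx
  have h2 : (MulAction.orbit T a).ncard ≤ 2 := by
    have hsub : MulAction.orbit T a ⊆ (({a, b} : Finset GolayPt) : Set GolayPt) := by
      rintro _ ⟨⟨g, hg⟩, rfl⟩
      exact Finset.mem_coe.2 (hmem g hg a (by simp))
    have := Set.ncard_le_ncard hsub (Finset.finite_toSet _)
    rwa [Set.ncard_coe_finset, hs] at this
  have h3 : T ⊓ MulAction.stabilizer ↥M24 a ≤ MulAction.stabilizer M24 a ⊓ MulAction.stabilizer M24 b := by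
    intro g hg
    refine Subgroup.mem_inf.2 ⟨hg.2, ?_⟩
    rw [MulAction.mem_stabilizer_iff]
    have hga : (g : Equiv.Perm GolayPt) a = a := hg.2
    have hgb := hmem g hg.1 b (by simp)
    simp only [Finset.mem_insert, Finset.mem_singleton] at hgb
    rcases hgb with e | e
    · exfalso
      have : (g : Equiv.Perm GolayPt) b = (g : Equiv.Perm GolayPt) a := by rw [e, hga]
      exact hab ((g : Equiv.Perm GolayPt).injective this).symm
    · exact e
  have h4 := Subgroup.card_le_of_le h3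
  rw [card_stabilizer_two hab] at h4
  rw [h1]
  calc _ ≤ 2 * 443520 := Nat.mul_le_mul h2 h4
    _ = 887040 := by norm_num

/-- Subgroups of the group of the length-24 code of index 759, 276 and 1771 are exactly the octad, duad and sextet stabilisers, and no subgroup has index 253. -/
theorem result : (∀ H : Subgroup ↥Cfsg.M24, H.index = 759 → ∃ o ∈ Cfsg.octads, H = MulAction.stabilizer Cfsg.M24 o) ∧ (∀ H : Subgroup ↥Cfsg.M24, H.index = 276 → ∃ s : Finset Cfsg.GolayPt, s.card = 2 ∧ H = MulAction.stabilizer Cfsg.M24 s) ∧ (∀ H : Subgroup ↥Cfsg.M24, H.index = 1771 → ∃ S ∈ Cfsg.sextets, H = MulAction.stabilizer Cfsg.M24 S) ∧ ∀ H : Subgroup ↥Cfsg.M24, H.index ≠ 253 := by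
  refine ⟨?_, ?_, ?_, ?_⟩
  · intro H hi
    have hc := card_of_index H (m := 322560) hi (by norm_num) (by norm_num)
    obtain ⟨g, hg⟩ := exists_conj_over H (by rw [hi]; norm_num)
    have hfix := index759 (conj_le H g) (by rw [card_conj, hc]) (conj_over H g hg)
    have hle := stab_of_conj hfix
    have ho : g.1⁻¹ • ofMask O0m ∈ octads := smul_mem_octads (M24.inv_mem g.2) O0m_mem
    refine ⟨_, ho, Subgroup.eq_of_le_of_card_ge hle ?_⟩
    rw [card_stab_octad ho, hc]
  · intro H hi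
    have hc := card_of_index H (m := 887040) hi (by norm_num) (by norm_num)
    obtain ⟨s, hs, hfix⟩ := index276 (map_le H) (by rw [card_map, hc])
    refine ⟨s, hs, Subgroup.eq_of_le_of_card_ge ?_ ?_⟩
    · intro y hy
      exact hfix y.1 ⟨y, hy, rfl⟩
    · rw [hc]
      exact card_stab_pair hs
  · intro H hi
    have hc := card_of_index H (m := 138240) hi (by norm_num) (by norm_num)
    obtain ⟨g, hg⟩ := exists_conj_over H (by rw [hi]; norm_num)
    obtain ⟨S, hS, hfix⟩ := index1771 (conj_le H g) (by rw [card_conj, hc]) (conj_over H g hg)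
    have hle := stab_of_conj hfix
    have ho : g.1⁻¹ • S ∈ sextets := Cfsg.Agent.Lib.M24Fam.smul_mem_sextets (M24.inv_mem g.2) hS
    refine ⟨_, ho, Subgroup.eq_of_le_of_card_ge hle ?_⟩
    rw [Cfsg.Agent.Lib.SextetGroup.card_stab ho, hc]
  · intro H hi
    have hc := card_of_index H (m := 967680) hi (by norm_num) (by norm_num)
    obtain ⟨g, hg⟩ := exists_conj_over H (by rw [hi]; norm_num)
    exact index253 (conj_le H g) (by rw [card_conj, hc]) (conj_over H g hg)

end Cfsg.Agent.S1589
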