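import Mathlib
import Cfsg.Statements.S1591
import Cfsg.Agent.Lib.TernaryGolay

set_option autoImplicit false
open Cfsg

namespace Cfsg.Agent.S1591

/-- Any two words of the length-12 ternary code have dot product zero. -/
theorem result (x y : Cfsg.ArrayPt → ZMod 3) (hx : x ∈ Cfsg.ternaryGolayCode) (hy : y ∈ Cfsg.ternaryGolayCode) : ∑ p, x p * y p = 0 :=
  Cfsg.Agent.Lib.TernaryGolay.code_orth hx hy

end Cfsg.Agent.S1591
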