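import Mathlib
import Cfsg.Statements.S1593
import Cfsg.Agent.Lib.TernaryHexads

set_option autoImplicit false
open Cfsg

namespace Cfsg.Agent.S1593

open Cfsg.Agent.Lib.TernaryGolay Cfsg.Agent.Lib.TernaryHexads

theorem card_ge {x : ArrayPt → ZMod 3} (hx : x ∈ ternaryGolayCode) (h0 : x ≠ 0) :
    6 ≤ (ternarySupport x).card := by
  obtain ⟨a, rfl⟩ := (mem_code_iff x).1 hx
  rcases weights a with rfl | h
  · exact absurd word_zero h0
  · omega

/-- A sign change preserving a weight-6 word's membership is constant on its support. -/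
theorem const_on_hexad (c : ArrayPt → (ZMod 3)ˣ)
    (h : ∀ x ∈ ternaryGolayCode, monomialMap 1 c x ∈ ternaryGolayCode)
    {x : ArrayPt → ZMod 3} (hx : x ∈ ternaryGolayCode) (hc : (ternarySupport x).card = 6)
    {p q : ArrayPt} (hp : x p ≠ 0) (hq : x q ≠ 0) : c q = c p := by
  set w : ArrayPt → ZMod 3 := monomialMap 1 c x - ((c p : ZMod 3)) • x with hw
  have hwv : ∀ r, w r = ((c r : ZMod 3) - (c p : ZMod 3)) * x r := by
    intro r
    have : (Equiv.symm (1 : Equiv.Perm ArrayPt)) r = r := rfl
    simp [hw, monomialMap, sub_mul, this]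
  have hwmem : w ∈ ternaryGolayCode :=
    Submodule.sub_mem _ (h x hx) (Submodule.smul_mem _ _ hx)
  have hw0 : w = 0 := by
    by_contra hne
    have h6 := card_ge hwmem hne
    have hsub : ternarySupport w ⊆ (ternarySupport x).erase p := by
      intro r hr
      simp only [ternarySupport, Finset.mem_filter, Finset.mem_univ, true_and, Finset.mem_erase,
        ne_eq] at hr ⊢
      rw [hwv] at hr
      constructor
      · rintro rfl
        simp at hr
      · intro hxr
        simp [hxr] at hr
    have := Finset.card_le_card hsub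
    rw [Finset.card_erase_of_mem (by simp [ternarySupport, hp]), hc] at this
    omega
  have hq0 : w q = 0 := by rw [hw0]; rfl
  rw [hwv] at hq0
  have : (c q : ZMod 3) - (c p : ZMod 3) = 0 := by
    rcases mul_eq_zero.1 hq0 with h1 | h1
    · exact h1
    · exact absurd h1 hq
  exact Units.ext (sub_eq_zero.1 this)

/-- The only sign changes preserving the length-12 ternary code are the identity and negation of all coordinates. -/
theorem result (c : Cfsg.ArrayPt → (ZMod 3)ˣ) (h : (∀ x ∈ Cfsg.ternaryGolayCode, Cfsg.monomialMap 1 c x ∈ Cfsg.ternaryGolayCode)) : (∀ p, c p = 1) ∨ (∀ p, c p = -1) := by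
  have hconst : ∀ p q, c q = c p := by
    intro p q
    -- a 5-set containing both points
    obtain ⟨s, hs1, hs2⟩ := Finset.exists_superset_card_eq (s := ({p, q} : Finset ArrayPt)) (n := 5)
      (le_trans (Finset.card_le_two) (by norm_num)) (by simp [Fintype.card_prod, ZMod.card])
    obtain ⟨b, ⟨hb, hsb⟩, -⟩ := isSteiner.2 s hs2
    obtain ⟨x, hx, rfl, hc⟩ := hb
    have hpm : p ∈ ternarySupport x := hsb (hs1 (by simp))
    have hqm : q ∈ ternarySupport x := hsb (hs1 (by simp))
    simp only [ternarySupport, Finset.mem_filter, Finset.mem_univ, true_and] at hpm hqm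
    exact const_on_hexad c h hx hc hpm hqm
  have h2 : ∀ u : (ZMod 3)ˣ, u = 1 ∨ u = -1 := by decide
  rcases h2 (c (0, 0)) with h1 | h1
  · left
    intro p
    rw [hconst (0, 0) p, h1]
  · right
    intro p
    rw [hconst (0, 0) p, h1]

end Cfsg.Agent.S1593
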