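import Mathlib
import Cfsg.Statements.S1594
import Cfsg.Agent.Lib.TernaryHexads
import Cfsg.Agent.Lib.BlockSearch
import Cfsg.Agent.S1593

set_option autoImplicit false
open Cfsg
open scoped Pointwise

namespace Cfsg.Agent.S1594

open Cfsg.Agent.Lib.TernaryGolay Cfsg.Agent.Lib.TernaryHexads Cfsg.Agent.Lib.BitMask
open Cfsg.Agent.Lib.BlockSearch

/-- The position of a number. -/
def ptOf (i : ℕ) : ArrayPt := (Fin.ofNat 4 (i / 3), ((i % 3 : ℕ) : ZMod 3))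

theorem ptOf_pidx : ∀ p, ptOf (pidx p) = p := by decide +kernel

theorem pidx_ptOf' : ∀ i : Fin 12, pidx (ptOf i.val) = i.val := by decide +kernel

theorem pidx_ptOf : ∀ i < 12, pidx (ptOf i) = i := fun i hi => pidx_ptOf' ⟨i, hi⟩

/-- Transversal data: level, target, permutation, inverse, signs. -/
def monoTable : List (ℕ × ℕ × List ℕ × List ℕ × List ℕ) := [
  (0, 0, [0, 1, 2, 3, 4, 5, 6, 7, 8, 9, 10, 11], [0, 1, 2, 3, 4, 5, 6, 7, 8, 9, 10, 11], [1, 1, 1, 1, 1, 1, 1, 1, 1, 1, 1, 1]),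
  (0, 1, [1, 0, 2, 3, 4, 5, 11, 9, 10, 7, 8, 6], [1, 0, 2, 3, 4, 5, 11, 9, 10, 7, 8, 6], [1, 1, 1, 1, 1, 1, 1, 1, 1, 1, 1, 1]),
  (0, 2, [2, 0, 1, 3, 4, 5, 8, 6, 7, 10, 11, 9], [1, 2, 0, 3, 4, 5, 7, 8, 6, 11, 9, 10], [1, 1, 1, 1, 1, 1, 1, 1, 1, 1, 1, 1]),
  (0, 3, [3, 0, 1, 2, 4, 5, 10, 7, 6, 8, 9, 11], [1, 2, 3, 0, 4, 5, 8, 7, 9, 10, 6, 11], [1, 1, 2, 2, 1, 1, 2, 2, 1, 2, 1, 2]),
  (0, 4, [4, 0, 1, 2, 3, 5, 6, 9, 10, 11, 7, 8], [1, 2, 3, 4, 0, 5, 6, 10, 11, 7, 8, 9], [1, 1, 2, 1, 2, 1, 1, 2, 2, 2, 2, 1]),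
  (0, 5, [5, 0, 1, 2, 3, 4, 9, 6, 8, 7, 11, 10], [1, 2, 3, 4, 5, 0, 7, 9, 8, 6, 11, 10], [1, 1, 2, 1, 1, 2, 2, 1, 2, 1, 2, 2]),
  (0, 6, [6, 0, 1, 2, 3, 9, 5, 4, 7, 10, 8, 11], [1, 2, 3, 4, 7, 6, 0, 8, 10, 5, 9, 11], [1, 2, 1, 1, 2, 1, 2, 2, 2, 1, 1, 2]),
  (0, 7, [7, 0, 1, 2, 3, 11, 10, 8, 9, 4, 5, 6], [1, 2, 3, 4, 9, 10, 11, 0, 7, 8, 6, 5], [1, 2, 2, 2, 2, 1, 1, 1, 1, 1, 2, 2]),
  (0, 8, [8, 0, 1, 2, 3, 10, 7, 11, 4, 6, 9, 5], [1, 2, 3, 4, 8, 11, 9, 6, 0, 10, 5, 7], [1, 1, 1, 2, 1, 1, 2, 2, 1, 1, 2, 1]),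
  (0, 9, [9, 0, 1, 2, 3, 6, 4, 5, 11, 8, 10, 7], [1, 2, 3, 4, 6, 7, 5, 11, 9, 0, 10, 8], [1, 2, 1, 1, 1, 2, 1, 2, 1, 2, 2, 2]),
  (0, 10, [10, 0, 1, 2, 3, 8, 11, 7, 5, 9, 6, 4], [1, 2, 3, 4, 11, 8, 10, 7, 5, 9, 0, 6], [1, 1, 1, 2, 1, 1, 1, 1, 2, 2, 1, 2]),
  (0, 11, [11, 0, 1, 2, 3, 7, 8, 10, 6, 5, 4, 9], [1, 2, 3, 4, 10, 9, 8, 5, 6, 11, 7, 0], [1, 2, 2, 2, 1, 2, 1, 2, 2, 1, 1, 1]),
  (1, 1, [0, 1, 2, 3, 4, 5, 6, 7, 8, 9, 10, 11], [0, 1, 2, 3, 4, 5, 6, 7, 8, 9, 10, 11], [1, 1, 1, 1, 1, 1, 1, 1, 1, 1, 1, 1]),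
  (1, 2, [0, 2, 1, 3, 4, 5, 9, 10, 11, 6, 7, 8], [0, 2, 1, 3, 4, 5, 9, 10, 11, 6, 7, 8], [1, 1, 1, 1, 1, 1, 1, 1, 1, 1, 1, 1]),
  (1, 3, [0, 3, 1, 2, 4, 5, 11, 8, 9, 7, 6, 10], [0, 2, 3, 1, 4, 5, 10, 9, 7, 8, 11, 6], [1, 1, 2, 2, 1, 1, 2, 2, 1, 2, 1, 2]),
  (1, 4, [0, 4, 1, 2, 3, 5, 8, 11, 7, 9, 10, 6], [0, 2, 3, 4, 1, 5, 11, 8, 6, 9, 10, 7], [1, 1, 2, 1, 2, 1, 1, 2, 2, 2, 2, 1]),
  (1, 5, [0, 5, 1, 2, 3, 4, 10, 7, 11, 6, 8, 9], [0, 2, 3, 4, 5, 1, 9, 7, 10, 11, 6, 8], [1, 1, 2, 1, 1, 2, 2, 1, 2, 1, 2, 2]),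
  (1, 6, [0, 6, 1, 2, 3, 9, 11, 10, 8, 4, 7, 5], [0, 2, 3, 4, 9, 11, 1, 10, 8, 5, 7, 6], [1, 2, 1, 1, 2, 1, 2, 2, 2, 1, 1, 2]),
  (1, 7, [0, 7, 1, 2, 3, 11, 6, 4, 5, 8, 9, 10], [0, 2, 3, 4, 7, 8, 6, 1, 9, 10, 11, 5], [1, 2, 2, 2, 2, 1, 1, 1, 1, 1, 2, 2]),
  (1, 8, [0, 8, 1, 2, 3, 10, 5, 6, 9, 11, 4, 7], [0, 2, 3, 4, 10, 6, 7, 11, 1, 8, 5, 9], [1, 1, 1, 2, 1, 1, 2, 2, 1, 1, 2, 1]),
  (1, 9, [0, 9, 1, 2, 3, 6, 7, 8, 10, 5, 11, 4], [0, 2, 3, 4, 11, 9, 5, 6, 7, 1, 8, 10], [1, 2, 1, 1, 1, 2, 1, 2, 1, 2, 2, 2]),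
  (1, 10, [0, 10, 1, 2, 3, 8, 4, 9, 6, 7, 5, 11], [0, 2, 3, 4, 6, 10, 8, 9, 5, 7, 1, 11], [1, 1, 1, 2, 1, 1, 1, 1, 2, 2, 1, 2]),
  (1, 11, [0, 11, 1, 2, 3, 7, 9, 5, 4, 10, 6, 8], [0, 2, 3, 4, 8, 7, 10, 5, 11, 6, 9, 1], [1, 2, 2, 2, 1, 2, 1, 2, 2, 1, 1, 1]),
  (2, 2, [0, 1, 2, 3, 4, 5, 6, 7, 8, 9, 10, 11], [0, 1, 2, 3, 4, 5, 6, 7, 8, 9, 10, 11], [1, 1, 1, 1, 1, 1, 1, 1, 1, 1, 1, 1]),
  (2, 3, [0, 1, 3, 2, 4, 5, 7, 6, 10, 11, 8, 9], [0, 1, 3, 2, 4, 5, 7, 6, 10, 11, 8, 9], [1, 1, 2, 2, 1, 1, 2, 2, 1, 2, 1, 2]),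
  (2, 4, [0, 1, 4, 2, 3, 5, 9, 10, 6, 8, 11, 7], [0, 1, 3, 4, 2, 5, 8, 11, 9, 6, 7, 10], [1, 1, 2, 1, 2, 1, 1, 2, 2, 2, 2, 1]),
  (2, 5, [0, 1, 5, 2, 3, 4, 6, 8, 9, 10, 7, 11], [0, 1, 3, 4, 5, 2, 6, 10, 7, 8, 9, 11], [1, 1, 2, 1, 1, 2, 2, 1, 2, 1, 2, 2]),
  (2, 6, [0, 1, 6, 2, 3, 9, 4, 7, 5, 11, 10, 8], [0, 1, 3, 4, 6, 8, 2, 7, 11, 5, 10, 9], [1, 2, 1, 1, 2, 1, 2, 2, 2, 1, 1, 2]),
  (2, 7, [0, 1, 7, 2, 3, 11, 8, 9, 10, 6, 4, 5], [0, 1, 3, 4, 10, 11, 9, 2, 6, 7, 8, 5], [1, 2, 2, 2, 2, 1, 1, 1, 1, 1, 2, 2]),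
  (2, 8, [0, 1, 8, 2, 3, 10, 11, 4, 7, 5, 6, 9], [0, 1, 3, 4, 7, 9, 10, 8, 2, 11, 5, 6], [1, 1, 1, 2, 1, 1, 2, 2, 1, 1, 2, 1]),
  (2, 9, [0, 1, 9, 2, 3, 6, 5, 11, 4, 7, 8, 10], [0, 1, 3, 4, 8, 6, 5, 9, 10, 2, 11, 7], [1, 2, 1, 1, 1, 2, 1, 2, 1, 2, 2, 2]),
  (2, 10, [0, 1, 10, 2, 3, 8, 7, 5, 11, 4, 9, 6], [0, 1, 3, 4, 9, 7, 11, 6, 5, 10, 2, 8], [1, 1, 1, 2, 1, 1, 1, 1, 2, 2, 1, 2]),
  (2, 11, [0, 1, 11, 2, 3, 7, 10, 6, 8, 9, 5, 4], [0, 1, 3, 4, 11, 10, 7, 5, 8, 9, 6, 2], [1, 2, 2, 2, 1, 2, 1, 2, 2, 1, 1, 1]),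
  (3, 3, [0, 1, 2, 3, 4, 5, 6, 7, 8, 9, 10, 11], [0, 1, 2, 3, 4, 5, 6, 7, 8, 9, 10, 11], [1, 1, 1, 1, 1, 1, 1, 1, 1, 1, 1, 1]),
  (3, 4, [0, 1, 2, 4, 3, 5, 10, 9, 11, 7, 6, 8], [0, 1, 2, 4, 3, 5, 10, 9, 11, 7, 6, 8], [1, 1, 1, 1, 1, 1, 1, 1, 1, 1, 1, 1]),
  (3, 5, [0, 1, 2, 5, 3, 4, 8, 6, 7, 11, 9, 10], [0, 1, 2, 4, 5, 3, 7, 8, 6, 10, 11, 9], [1, 1, 1, 1, 1, 1, 1, 1, 1, 1, 1, 1]),
  (3, 6, [0, 1, 2, 6, 3, 9, 7, 4, 10, 8, 5, 11], [0, 1, 2, 4, 7, 10, 3, 6, 9, 5, 8, 11], [1, 2, 2, 1, 1, 1, 1, 1, 1, 1, 1, 1]),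
  (3, 7, [0, 1, 2, 7, 3, 11, 9, 8, 4, 5, 10, 6], [0, 1, 2, 4, 8, 9, 11, 3, 7, 6, 10, 5], [1, 2, 1, 2, 2, 2, 2, 2, 2, 2, 2, 2]),
  (3, 8, [0, 1, 2, 8, 3, 10, 4, 11, 6, 9, 7, 5], [0, 1, 2, 4, 6, 11, 8, 10, 3, 9, 5, 7], [1, 1, 2, 2, 2, 2, 2, 2, 2, 2, 2, 2]),
  (3, 9, [0, 1, 2, 9, 3, 6, 11, 5, 8, 10, 4, 7], [0, 1, 2, 4, 10, 7, 5, 11, 8, 3, 9, 6], [1, 2, 2, 1, 1, 1, 1, 1, 1, 1, 1, 1]),
  (3, 10, [0, 1, 2, 10, 3, 8, 5, 7, 9, 6, 11, 4], [0, 1, 2, 4, 11, 6, 9, 7, 5, 8, 3, 10], [1, 1, 2, 2, 2, 2, 2, 2, 2, 2, 2, 2]),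
  (3, 11, [0, 1, 2, 11, 3, 7, 6, 10, 5, 4, 8, 9], [0, 1, 2, 4, 9, 8, 6, 5, 10, 11, 7, 3], [1, 2, 1, 2, 2, 2, 2, 2, 2, 2, 2, 2]),
  (4, 4, [0, 1, 2, 3, 4, 5, 6, 7, 8, 9, 10, 11], [0, 1, 2, 3, 4, 5, 6, 7, 8, 9, 10, 11], [1, 1, 1, 1, 1, 1, 1, 1, 1, 1, 1, 1]),
  (4, 5, [0, 1, 2, 3, 5, 4, 9, 11, 10, 6, 8, 7], [0, 1, 2, 3, 5, 4, 9, 11, 10, 6, 8, 7], [1, 1, 1, 1, 1, 1, 1, 1, 1, 1, 1, 1]),
  (4, 6, [0, 1, 2, 3, 6, 9, 5, 8, 11, 4, 7, 10], [0, 1, 2, 3, 9, 6, 4, 10, 7, 5, 11, 8], [1, 2, 2, 1, 1, 1, 1, 1, 1, 1, 1, 1]),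
  (4, 7, [0, 1, 2, 3, 7, 11, 10, 5, 6, 8, 9, 4], [0, 1, 2, 3, 11, 7, 8, 4, 9, 10, 6, 5], [1, 2, 1, 2, 2, 2, 2, 2, 2, 2, 2, 2]),
  (4, 8, [0, 1, 2, 3, 8, 10, 7, 9, 5, 11, 4, 6], [0, 1, 2, 3, 10, 8, 11, 6, 4, 7, 5, 9], [1, 1, 2, 2, 2, 2, 2, 2, 2, 2, 2, 2]),
  (4, 9, [0, 1, 2, 3, 9, 6, 4, 10, 7, 5, 11, 8], [0, 1, 2, 3, 6, 9, 5, 8, 11, 4, 7, 10], [1, 2, 2, 1, 1, 1, 1, 1, 1, 1, 1, 1]),
  (4, 10, [0, 1, 2, 3, 10, 8, 11, 6, 4, 7, 5, 9], [0, 1, 2, 3, 8, 10, 7, 9, 5, 11, 4, 6], [1, 1, 2, 2, 2, 2, 2, 2, 2, 2, 2, 2]),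
  (4, 11, [0, 1, 2, 3, 11, 7, 8, 4, 9, 10, 6, 5], [0, 1, 2, 3, 7, 11, 10, 5, 6, 8, 9, 4], [1, 2, 1, 2, 2, 2, 2, 2, 2, 2, 2, 2])]

/-- Check that two number lists are mutually inverse permutations of `0..11`. -/
def goodPerm (d d' : List ℕ) : Bool :=
  (List.range 12).all fun i => d.getD i 0 < 12 && d'.getD i 0 < 12 &&
    d'.getD (d.getD i 0) 0 == i && d.getD (d'.getD i 0) 0 == i

/-- The permutation of positions given by inverse tables. -/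
def permOf (d d' : List ℕ) (h : goodPerm d d' = true) : Equiv.Perm ArrayPt where
  toFun p := ptOf (d.getD (pidx p) 0)
  invFun p := ptOf (d'.getD (pidx p) 0)
  left_inv p := by
    have hp := pidx_lt p
    have := List.all_eq_true.1 h (pidx p) (List.mem_range.2 hp)
    simp only [Bool.and_eq_true, decide_eq_true_eq, beq_iff_eq] at this
    simp only
    rw [pidx_ptOf _ this.1.1.1, this.1.2, ptOf_pidx]
  right_inv p := by
    have hp := pidx_lt p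
    have := List.all_eq_true.1 h (pidx p) (List.mem_range.2 hp)
    simp only [Bool.and_eq_true, decide_eq_true_eq, beq_iff_eq] at this
    simp only
    rw [pidx_ptOf _ this.1.1.2, this.2, ptOf_pidx]

theorem goodAll : ∀ e ∈ monoTable, goodPerm e.2.2.1 e.2.2.2.1 = true := by decide +kernel

/-- The signs as units. -/
def signOf (sg : List ℕ) (p : ArrayPt) : (ZMod 3)ˣ := if sg.getD (pidx p) 0 = 1 then 1 else -1

/-- The image of a word as a function, with the tables. -/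
def monoY (d' sg : List ℕ) (x : ArrayPt → ZMod 3) (p : ArrayPt) : ZMod 3 :=
  (((signOf sg p : (ZMod 3)ˣ)) : ZMod 3) * x (ptOf (d'.getD (pidx p) 0))

theorem monoAll : ∀ e ∈ monoTable, ∀ k : Fin 6,
    ∃ s : ZMod 3, Eqs (monoY e.2.2.2.1 e.2.2.2.2 (bas k)) s := by decide +kernel

theorem monomial_add {σ : Equiv.Perm ArrayPt} {c : ArrayPt → (ZMod 3)ˣ}
    (x y : ArrayPt → ZMod 3) :
    monomialMap σ c (x + y) = monomialMap σ c x + monomialMap σ c y := by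
  funext p
  simp [monomialMap, mul_add]

theorem monomial_smul {σ : Equiv.Perm ArrayPt} {c : ArrayPt → (ZMod 3)ˣ}
    (a : ZMod 3) (x : ArrayPt → ZMod 3) :
    monomialMap σ c (a • x) = a • monomialMap σ c x := by
  funext p
  simp only [monomialMap, Pi.smul_apply, smul_eq_mul]
  ring

theorem monomial_zero {σ : Equiv.Perm ArrayPt} {c : ArrayPt → (ZMod 3)ˣ} :
    monomialMap σ c 0 = 0 := by
  funext p
  simp [monomialMap]

theorem word_eq_sum (a : Fin 6 → ZMod 3) : word a = ∑ k, a k • bas k := by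
  funext p
  simp [word, Finset.sum_apply]

theorem monomial_sum {σ : Equiv.Perm ArrayPt} {c : ArrayPt → (ZMod 3)ˣ} {ι : Type*}
    (s : Finset ι) (f : ι → ArrayPt → ZMod 3) :
    monomialMap σ c (∑ i ∈ s, f i) = ∑ i ∈ s, monomialMap σ c (f i) := by
  classical
  induction s using Finset.induction_on with
  | empty => simp [monomial_zero]
  | insert a s ha ih => rw [Finset.sum_insert ha, Finset.sum_insert ha, monomial_add, ih]

/-- A monomial map preserving the basis preserves the code. -/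
theorem preserves_of_basis {σ : Equiv.Perm ArrayPt} {c : ArrayPt → (ZMod 3)ˣ}
    (h : ∀ k, monomialMap σ c (bas k) ∈ ternaryGolayCode) :
    ∀ x ∈ ternaryGolayCode, monomialMap σ c x ∈ ternaryGolayCode := by
  intro x hx
  obtain ⟨a, rfl⟩ := (mem_code_iff x).1 hx
  rw [word_eq_sum, monomial_sum]
  refine Submodule.sum_mem _ fun k _ => ?_
  rw [monomial_smul]
  exact Submodule.smul_mem _ _ (h k)

/-- The set of permutation parts. -/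
def PSet : Subgroup (Equiv.Perm ArrayPt) := Subgroup.closure
  {σ | ∃ c : ArrayPt → (ZMod 3)ˣ, ∀ x ∈ ternaryGolayCode, monomialMap σ c x ∈ ternaryGolayCode}

/-- The predicate of being a permutation part. -/
def IsPart (σ : Equiv.Perm ArrayPt) : Prop :=
  ∃ c : ArrayPt → (ZMod 3)ˣ, ∀ x ∈ ternaryGolayCode, monomialMap σ c x ∈ ternaryGolayCode

theorem IsPart.mul {σ τ : Equiv.Perm ArrayPt} (h1 : IsPart σ) (h2 : IsPart τ) : IsPart (σ * τ) := by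
  obtain ⟨c, hc⟩ := h1
  obtain ⟨d, hd⟩ := h2
  refine ⟨fun p => c p * d (σ.symm p), fun x hx => ?_⟩
  have : monomialMap (σ * τ) (fun p => c p * d (σ.symm p)) x =
      monomialMap σ c (monomialMap τ d x) := by
    funext p
    simp only [monomialMap, Units.val_mul, mul_assoc]
    rfl
  rw [this]
  exact hc _ (hd _ hx)

theorem table_isPart (e : ℕ × ℕ × List ℕ × List ℕ × List ℕ) (he : e ∈ monoTable) :
    IsPart (permOf e.2.2.1 e.2.2.2.1 (goodAll e he)) := by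
  refine ⟨signOf e.2.2.2.2, preserves_of_basis fun k => ?_⟩
  obtain ⟨s, hs⟩ := monoAll e he k
  exact word_of_eqs hs

theorem transData : ∀ k < 5, ∀ x < 12, k ≤ x → ∃ e ∈ monoTable,
    (∀ j < k, e.2.2.1.getD j 0 = j) ∧ e.2.2.1.getD k 0 = x := by decide +kernel

/-- Transitivity on injective tuples. -/
theorem trans_tuple (k : ℕ) (hk : k ≤ 5) (y : ℕ → ArrayPt)
    (hy : ∀ i < k, ∀ j < k, y i = y j → i = j) :
    ∃ g, IsPart g ∧ ∀ j < k, g (ptOf j) = y j := by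
  induction k with
  | zero =>
    exact ⟨1, ⟨fun _ => 1, fun x hx => by
      have : monomialMap (1 : Equiv.Perm ArrayPt) (fun _ => (1 : (ZMod 3)ˣ)) x = x := by
        funext p
        simp [monomialMap]
        rfl
      rw [this]; exact hx⟩, by simp⟩
  | succ k ih =>
    obtain ⟨g, hg, hgy⟩ := ih (by omega) (fun i hi j hj h => hy i (by omega) j (by omega) h)
    set z : ArrayPt := g⁻¹ (y k) with hz
    have hzk : k ≤ pidx z := by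
      by_contra hlt
      have h1 : pidx z < k := by omega
      have h2 : g (ptOf (pidx z)) = y (pidx z) := hgy _ h1
      rw [ptOf_pidx, hz] at h2
      have h3 : g (g⁻¹ (y k)) = y k := by simp
      rw [h3] at h2
      have := hy _ (by omega : pidx z < k + 1) k (by omega) h2.symm
      omega
    obtain ⟨e, he, he1, he2⟩ := transData k (by omega) (pidx z) (pidx_lt z) hzk
    refine ⟨g * permOf e.2.2.1 e.2.2.2.1 (goodAll e he), hg.mul (table_isPart e he), ?_⟩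
    intro j hj
    have hjlt : j < 12 := by omega
    have hperm : ∀ a b, a < 12 → e.2.2.1.getD a 0 = b →
        permOf e.2.2.1 e.2.2.2.1 (goodAll e he) (ptOf a) = ptOf b := by
      intro a b ha hab
      show ptOf (e.2.2.1.getD (pidx (ptOf a)) 0) = ptOf b
      rw [pidx_ptOf a ha, hab]
    rw [Equiv.Perm.mul_apply]
    by_cases hjk : j < k
    · rw [hperm j j hjlt (he1 j hjk)]
      exact hgy j hjk
    · have : j = k := by omega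
      subst this
      rw [hperm j (pidx z) hjlt he2, ptOf_pidx, hz]
      simp

/-- The support of a monomial image. -/
theorem supp_monomial (σ : Equiv.Perm ArrayPt) (c : ArrayPt → (ZMod 3)ˣ) (x : ArrayPt → ZMod 3) :
    ternarySupport (monomialMap σ c x) = (ternarySupport x).image σ := by
  ext p
  simp only [ternarySupport, monomialMap, Finset.mem_filter, Finset.mem_univ, true_and,
    Finset.mem_image]
  constructor
  · intro h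
    refine ⟨σ.symm p, ?_, by simp⟩
    intro h0
    simp [h0] at h
  · rintro ⟨a, ha, rfl⟩
    simp [ha]

theorem smul_finset_eq (σ : Equiv.Perm ArrayPt) (h : Finset ArrayPt) : σ • h = h.image σ := rfl

/-- Permutation parts preserve the hexads. -/
theorem IsPart.hexad {σ : Equiv.Perm ArrayPt} (h : IsPart σ) {s : Finset ArrayPt}
    (hs : s ∈ hexadSet) : s.image σ ∈ hexadSet := by
  obtain ⟨c, hc⟩ := h
  obtain ⟨x, hx, rfl, h6⟩ := hs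
  refine ⟨monomialMap σ c x, hc x hx, supp_monomial σ c x, ?_⟩
  rw [Finset.card_image_of_injective _ σ.injective]
  exact h6

theorem hexadSet_finite : hexadSet.Finite :=
  Set.finite_of_ncard_ne_zero (by rw [ncard_hexadSet]; norm_num)

theorem smul_hexadSet_eq {σ : Equiv.Perm ArrayPt} (h : ∀ s ∈ hexadSet, s.image σ ∈ hexadSet) :
    σ • hexadSet = hexadSet := by
  have hsub : σ • hexadSet ⊆ hexadSet := by
    rintro _ ⟨s, hs, rfl⟩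
    exact h s hs
  apply Set.eq_of_subset_of_ncard_le hsub _ hexadSet_finite
  rw [← Set.image_smul, Set.ncard_image_of_injective _ (MulAction.injective σ)]

theorem IsPart.mem_aut {σ : Equiv.Perm ArrayPt} (h : IsPart σ) : σ ∈ setSystemAut hexadSet := by
  rw [MulAction.mem_stabilizer_iff]
  exact smul_hexadSet_eq fun s hs => h.hexad hs

theorem image_mem_of_aut {τ : Equiv.Perm ArrayPt} (h : τ ∈ setSystemAut hexadSet)
    {s : Finset ArrayPt} (hs : s ∈ hexadSet) : s.image τ ∈ hexadSet := by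
  rw [MulAction.mem_stabilizer_iff] at h
  rw [← h]
  exact ⟨s, hs, rfl⟩

/-- The rigidity search. -/
theorem rigid_search : search hexMasks 12 (fun L' => L'.all fun p => p.1 == p.2) [5, 6, 7, 8, 9, 10, 11]
    [(4, 4), (3, 3), (2, 2), (1, 1), (0, 0)] = true := by decide +kernel

/-- An automorphism of the hexad system fixing the base is trivial. -/
theorem rigid {τ : Equiv.Perm ArrayPt} (h : τ ∈ setSystemAut hexadSet)
    (hf : ∀ j < 5, τ (ptOf j) = ptOf j) : τ = 1 := by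
  refine eq_one_of_search (e := pidx) (d := ptOf) (n := 12) ptOf_pidx pidx_ptOf pidx_lt τ (B := hexMasks)
    (by decide +kernel) ?_ _ _ rigid_search (by decide) (by decide) (by decide) ?_ (by decide)
  · intro s hs
    rw [← mem_hexadSet_iff] at hs ⊢
    exact image_mem_of_aut h hs
  · intro p hp
    have hp' := hp
    simp only [List.mem_cons, List.not_mem_nil, or_false] at hp'
    rcases hp' with rfl | rfl | rfl | rfl | rfl <;> exact ⟨hf _ (by norm_num), by norm_num⟩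

theorem part_ext {g g' : Equiv.Perm ArrayPt} (h : g ∈ setSystemAut hexadSet)
    (h' : g' ∈ setSystemAut hexadSet) (he : ∀ j < 5, g (ptOf j) = g' (ptOf j)) : g = g' := by
  have : g'⁻¹ * g = 1 := by
    apply rigid (mul_mem (inv_mem h') h)
    intro j hj
    rw [Equiv.Perm.mul_apply, he j hj]
    simp
  exact (inv_mul_eq_one.1 this).symm

theorem part_eq_aut (τ : Equiv.Perm ArrayPt) : IsPart τ ↔ τ ∈ setSystemAut hexadSet := by
  refine ⟨IsPart.mem_aut, fun h => ?_⟩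
  obtain ⟨g, hg, hge⟩ := trans_tuple 5 le_rfl (fun j => τ (ptOf j)) (by
    intro i hi j hj hij
    have h1 : ptOf i = ptOf j := τ.injective hij
    rw [← pidx_ptOf i (by omega), ← pidx_ptOf j (by omega), h1])
  have : g = τ := part_ext hg.mem_aut h hge
  rwa [← this]

/-- The number of permutation parts. -/
theorem card_parts : Nat.card {σ : Equiv.Perm ArrayPt // IsPart σ} = 95040 := by
  let f : {σ : Equiv.Perm ArrayPt // IsPart σ} → (Fin 5 ↪ ArrayPt) := fun σ =>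
    ⟨fun j => σ.1 (ptOf j.val), fun i j h => by
      have h1 : ptOf i.val = ptOf j.val := σ.1.injective h
      apply Fin.ext
      rw [← pidx_ptOf i.val (by omega), ← pidx_ptOf j.val (by omega), h1]⟩
  have hf : Function.Bijective f := by
    constructor
    · intro σ σ' h
      apply Subtype.ext
      apply part_ext σ.2.mem_aut σ'.2.mem_aut
      intro j hj
      have := congrArg (fun F : Fin 5 ↪ ArrayPt => F ⟨j, hj⟩) h
      exact this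
    · intro F
      obtain ⟨g, hg, hge⟩ := trans_tuple 5 le_rfl (fun j => if hj : j < 5 then F ⟨j, hj⟩ else ptOf 0)
        (by
          intro i hi j hj hij
          simp only [hi, hj, dite_true] at hij
          have := F.injective hij
          simpa using this)
      refine ⟨⟨g, hg⟩, ?_⟩
      apply DFunLike.ext
      intro j
      have := hge j.val j.isLt
      simp only [j.isLt, dite_true] at this
      exact this
  rw [Nat.card_congr (Equiv.ofBijective f hf), Nat.card_eq_fintype_card, Fintype.card_embedding_eq]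
  simp [ZMod.card]

/-- The sign change `d = c / c'`. Two lifts of one permutation differ by a global sign. -/
theorem lifts_differ {σ : Equiv.Perm ArrayPt} {c c' : ArrayPt → (ZMod 3)ˣ}
    (h : ∀ x ∈ ternaryGolayCode, monomialMap σ c x ∈ ternaryGolayCode)
    (h' : ∀ x ∈ ternaryGolayCode, monomialMap σ c' x ∈ ternaryGolayCode) :
    ∃ ε : (ZMod 3)ˣ, ∀ p, c p = ε * c' p := by
  -- the map of the lift `c'` on the code is surjective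
  let F : ternaryGolayCode → ternaryGolayCode := fun x => ⟨monomialMap σ c' x.1, h' x.1 x.2⟩
  have hF : Function.Injective F := by
    intro x y hxy
    apply Subtype.ext
    funext p
    have := congrFun (congrArg Subtype.val hxy) (σ p)
    simp only [F, monomialMap, Equiv.symm_apply_apply] at this
    exact (Units.isUnit (c' (σ p))).mul_left_cancel this
  have : Finite ternaryGolayCode := Nat.finite_of_card_ne_zero (by rw [card_code]; norm_num)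
  have hFs := Finite.injective_iff_surjective.1 hF
  have key : ∀ x ∈ ternaryGolayCode,
      monomialMap (1 : Equiv.Perm ArrayPt) (fun p => c p * (c' p)⁻¹) x ∈ ternaryGolayCode := by
    intro x hx
    obtain ⟨x', hx'⟩ := hFs ⟨x, hx⟩
    have e : monomialMap (1 : Equiv.Perm ArrayPt) (fun p => c p * (c' p)⁻¹) x =
        monomialMap σ c x'.1 := by
      funext p
      have hp := congrFun (congrArg Subtype.val hx') p
      simp only [F, monomialMap] at hp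
      simp only [monomialMap]
      have h1 : (Equiv.symm (1 : Equiv.Perm ArrayPt)) p = p := rfl
      rw [h1, ← hp, ← mul_assoc]
      congr 1
      rw [Units.val_mul, mul_assoc, Units.inv_mul, mul_one]
    rw [e]
    exact h _ x'.2
  rcases Cfsg.Agent.S1593.result _ key with h1 | h1
  · refine ⟨1, fun p => ?_⟩
    have := h1 p
    rw [one_mul]
    exact mul_inv_eq_one.1 this
  · refine ⟨-1, fun p => ?_⟩
    have := h1 p
    exact mul_inv_eq_iff_eq_mul.1 this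

/-- Negating a lift. -/
theorem lift_scale {σ : Equiv.Perm ArrayPt} {c : ArrayPt → (ZMod 3)ˣ} (ε : (ZMod 3)ˣ)
    (h : ∀ x ∈ ternaryGolayCode, monomialMap σ c x ∈ ternaryGolayCode) :
    ∀ x ∈ ternaryGolayCode, monomialMap σ (fun p => ε * c p) x ∈ ternaryGolayCode := by
  intro x hx
  have : monomialMap σ (fun p => ε * c p) x = (ε : ZMod 3) • monomialMap σ c x := by
    funext p
    simp only [monomialMap, Units.val_mul, Pi.smul_apply, smul_eq_mul, mul_assoc]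
  rw [this]
  exact Submodule.smul_mem _ _ (h x hx)

/-- The number of monomial automorphisms. -/
theorem card_monomial : Nat.card {f : Equiv.Perm ArrayPt × (ArrayPt → (ZMod 3)ˣ) //
    (∀ x ∈ ternaryGolayCode, monomialMap f.1 f.2 x ∈ ternaryGolayCode)} = 190080 := by
  let cσ : {σ : Equiv.Perm ArrayPt // IsPart σ} → (ArrayPt → (ZMod 3)ˣ) := fun σ => Classical.choose σ.2
  have hcσ : ∀ σ, ∀ x ∈ ternaryGolayCode, monomialMap σ.1 (cσ σ) x ∈ ternaryGolayCode :=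
    fun σ => Classical.choose_spec σ.2
  let E : {f : Equiv.Perm ArrayPt × (ArrayPt → (ZMod 3)ˣ) //
      (∀ x ∈ ternaryGolayCode, monomialMap f.1 f.2 x ∈ ternaryGolayCode)} ≃
      {σ : Equiv.Perm ArrayPt // IsPart σ} × (ZMod 3)ˣ :=
    { toFun := fun f => (⟨f.1.1, f.1.2, f.2⟩, f.1.2 (0, 0) * (cσ ⟨f.1.1, f.1.2, f.2⟩ (0, 0))⁻¹)
      invFun := fun q => ⟨(q.1.1, fun p => q.2 * cσ q.1 p), lift_scale q.2 (hcσ q.1)⟩
      left_inv := by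
        rintro ⟨⟨σ, c⟩, hf⟩
        obtain ⟨ε, hε⟩ := lifts_differ hf (hcσ ⟨σ, c, hf⟩)
        have hε' : ∀ p, c p = ε * cσ ⟨σ, c, hf⟩ p := hε
        apply Subtype.ext
        apply Prod.ext
        · rfl
        · funext p
          show c (0, 0) * (cσ ⟨σ, c, hf⟩ (0, 0))⁻¹ * cσ ⟨σ, c, hf⟩ p = c p
          rw [hε' (0, 0), mul_inv_cancel_right]
          exact (hε' p).symm
      right_inv := by
        rintro ⟨σ, ε⟩
        apply Prod.ext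
        · rfl
        · simp only
          rw [mul_inv_cancel_right] }
  rw [Nat.card_congr E, Nat.card_prod, card_parts]
  have : Nat.card (ZMod 3)ˣ = 2 := by
    rw [Nat.card_eq_fintype_card]
    rfl
  rw [this]

/-- The monomial automorphism group of the length-12 ternary code has order 190080 and its permutation parts are exactly the automorphisms of its hexad system. -/
theorem result : Nat.card {f : Equiv.Perm Cfsg.ArrayPt × (Cfsg.ArrayPt → (ZMod 3)ˣ) // (∀ x ∈ Cfsg.ternaryGolayCode, Cfsg.monomialMap f.1 f.2 x ∈ Cfsg.ternaryGolayCode)} = 190080 ∧ {σ : Equiv.Perm Cfsg.ArrayPt | ∃ c : Cfsg.ArrayPt → (ZMod 3)ˣ, (∀ x ∈ Cfsg.ternaryGolayCode, Cfsg.monomialMap σ c x ∈ Cfsg.ternaryGolayCode)} = (Cfsg.setSystemAut {h : Finset Cfsg.ArrayPt | ∃ x ∈ Cfsg.ternaryGolayCode, Cfsg.ternarySupport x = h ∧ h.card = 6} : Set (Equiv.Perm Cfsg.ArrayPt)) := by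
  refine ⟨card_monomial, ?_⟩
  ext τ
  exact part_eq_aut τ

end Cfsg.Agent.S1594
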