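import Mathlib
import Cfsg.Statements.S1595
import Cfsg.Agent.Lib.SteinerDesign

set_option autoImplicit false
open Cfsg

namespace Cfsg.Agent.S1595

open Cfsg.Agent.Lib.SteinerDesign

theorem count_eq {α : Type*} [Fintype α] [DecidableEq α] {B : Set (Finset α)} (lam : ℕ → ℤ)
    {b : Finset α} (hlam : ∀ I, I ⊆ b → (blockCount B I ∅ : ℤ) = lam I.card) (s : Finset α)
    (hs : s ⊆ b) :
    ({c : Finset α | c ∈ B ∧ b ∩ c = s}.ncard : ℤ) = tri lam s.card (b.card - s.card) := by
  have hd : Disjoint s (b \ s) := Finset.disjoint_sdiff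
  have hcard : (b \ s).card = b.card - s.card := Finset.card_sdiff_of_subset hs
  have h := blockCount_eq_tri lam hlam _ (b \ s) s hcard hs Finset.sdiff_subset hd
  rw [← h]
  unfold blockCount
  congr 2
  ext c
  simp only [Set.mem_ofPred_eq]
  constructor
  · rintro ⟨hc, rfl⟩
    refine ⟨hc, Finset.inter_subset_right, ?_⟩
    rw [Finset.disjoint_left]
    intro a hac hab
    simp only [Finset.mem_sdiff, Finset.mem_inter] at hab
    exact hab.2 ⟨hab.1, hac⟩
  · rintro ⟨hc, hsc, hdis⟩
    refine ⟨hc, ?_⟩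
    ext a
    simp only [Finset.mem_inter]
    constructor
    · rintro ⟨hab, hac⟩
      by_contra has
      exact (Finset.disjoint_left.1 hdis hac) (Finset.mem_sdiff.2 ⟨hab, has⟩)
    · intro has
      exact ⟨hs has, hsc has⟩

/-- Leech triangle of S(5, 6, 12): blocks meet in 0, 2, 3 or 4 points, and a block is met exactly in a given 2-, 3- or 4-subset by 3, 2, 3 blocks respectively. -/
theorem result {α : Type*} [Fintype α] [DecidableEq α] (hα : Fintype.card α = 12) {B : Set (Finset α)} (hB : Cfsg.IsSteinerSystem 5 6 B) (b : Finset α) (hb : b ∈ B) : (∀ c ∈ B, c ≠ b → (b ∩ c).card = 0 ∨ (b ∩ c).card = 2 ∨ (b ∩ c).card = 3 ∨ (b ∩ c).card = 4) ∧ ∀ s ⊆ b, (s.card = 2 → {c : Finset α | c ∈ B ∧ b ∩ c = s}.ncard = 3) ∧ (s.card = 3 → {c : Finset α | c ∈ B ∧ b ∩ c = s}.ncard = 2) ∧ (s.card = 4 → {c : Finset α | c ∈ B ∧ b ∩ c = s}.ncard = 3) := by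
  have hlam := hlam5612 hα hB hb
  have hbc : b.card = 6 := hB.1 b hb
  refine ⟨?_, ?_⟩
  · intro c hc hne
    have h1 := card_inter_lt hB hb hc hne.symm
    have h2 := tri_inter_pos lam5612 hlam hc
    rw [hbc] at h2
    generalize (b ∩ c).card = n at *
    interval_cases n
    · left; rfl
    · norm_num [tri, lam5612] at h2
    · right; left; rfl
    · right; right; left; rfl
    · right; right; right; rfl
  · intro s hs
    have h := count_eq lam5612 hlam s hs
    rw [hbc] at h
    refine ⟨?_, ?_, ?_⟩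
    · intro hc
      rw [hc] at h
      norm_num [tri, lam5612] at h
      exact_mod_cast h
    · intro hc
      rw [hc] at h
      norm_num [tri, lam5612] at h
      exact_mod_cast h
    · intro hc
      rw [hc] at h
      norm_num [tri, lam5612] at h
      exact_mod_cast h

end Cfsg.Agent.S1595
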