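import Mathlib
import Cfsg.Statements.S1596
import Cfsg.Agent.Lib.DodecadQuartets

set_option autoImplicit false
open Cfsg

namespace Cfsg.Agent.S1596

open Finset Cfsg.Agent.Lib.Golay Cfsg.Agent.Lib.M24Orbits Cfsg.Agent.Lib.DodecadQuartets

open scoped Pointwise

/-- A quartet of a dodecad is determined by any two of its triples: two disjoint triples uniting to a hexad extend to exactly one quartet. -/
theorem result (d : Finset Cfsg.GolayPt) (hd : d ∈ Cfsg.dodecads) (t u : Finset Cfsg.GolayPt) (ht : t.card = 3) (hu : u.card = 3) (htu : Disjoint t u) (hh : t ∪ u ∈ Cfsg.hexadsOn d) : ∃! Q : Finset (Finset Cfsg.GolayPt), Q ∈ Cfsg.quartets d ∧ t ∈ Q ∧ u ∈ Q := by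
  obtain ⟨k, hk, hkd, hkt, hku⟩ := exists_edge hd ht hu htu hh
  have hne : t ≠ u := by
    rintro rfl
    have h0 : t = ∅ := by simpa using htu
    rw [h0] at ht
    simp at ht
  have hQ : k • famOf q0 ∈ Cfsg.quartets d := by
    rw [← hkd]
    exact smul_mem_quartets hk (famOf_mem_quartets q0_ok)
  have h1 : t ∈ k • famOf q0 := by
    rw [← hkt]
    exact Finset.smul_mem_smul_finset (ofMask_mem_famOf (by decide +kernel))
  have h2 : u ∈ k • famOf q0 := by
    rw [← hku]
    exact Finset.smul_mem_smul_finset (ofMask_mem_famOf (by decide +kernel))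
  refine ⟨k • famOf q0, ⟨hQ, h1, h2⟩, ?_⟩
  rintro Q ⟨hQ', h1', h2'⟩
  exact edge_unique hd hQ' hQ h1' h2' hne h1 h2

end Cfsg.Agent.S1596
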