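import Mathlib
import Cfsg.Statements.S1597
import Cfsg.Agent.Lib.DodecadQuartets

set_option autoImplicit false
open Cfsg

namespace Cfsg.Agent.S1597

open Finset Cfsg.Agent.Lib.Golay Cfsg.Agent.Lib.M24Orbits Cfsg.Agent.Lib.DodecadQuartets

open scoped Pointwise

/-- A dodecad has 220 quartets and its stabiliser is transitive on them. -/
theorem result (d : Finset Cfsg.GolayPt) (hd : d ∈ Cfsg.dodecads) : (Cfsg.quartets d).ncard = 220 ∧ ∀ Q ∈ Cfsg.quartets d, ∀ Q' ∈ Cfsg.quartets d, ∃ g : Equiv.Perm Cfsg.GolayPt, g ∈ Cfsg.M24 ∧ g • d = d ∧ g • Q = Q' := by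
  refine ⟨ncard_quartets hd, ?_⟩
  intro Q hQ Q' hQ'
  obtain ⟨k, hk, hkd, hkQ⟩ := exists_quartet hd hQ
  obtain ⟨k', hk', hkd', hkQ'⟩ := exists_quartet hd hQ'
  refine ⟨k' * k⁻¹, M24.mul_mem hk' (M24.inv_mem hk), ?_, ?_⟩
  · rw [mul_smul, ← hkd, inv_smul_smul, hkd', hkd]
  · rw [mul_smul, ← hkQ, inv_smul_smul, hkQ']

end Cfsg.Agent.S1597
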