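import Mathlib
import Cfsg.Statements.S1599
import Cfsg.Agent.Lib.DodecadQuartets

set_option autoImplicit false
set_option maxRecDepth 100000
open Cfsg

namespace Cfsg.Agent.S1599

open Finset Cfsg.Agent.Lib.Golay Cfsg.Agent.Lib.M24Orbits Cfsg.Agent.Lib.DodecadQuartets Cfsg.Agent.Lib.FastList

open scoped Pointwise

/-- the weight of an intersection -/
def phi (n : ℕ) : ℕ := n * n * n * n

/-- the invariant, in masks -/
def inv (l : List ℕ) : ℕ := (q0.map fun t => (l.map fun u => phi (pop (Nat.land t u))).sum).sum

/-- the invariant, in sets -/
noncomputable def F (A B : Finset (Finset Cfsg.GolayPt)) : ℕ := ∑ t ∈ A, ∑ u ∈ B, phi (t ∩ u).card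

theorem F_smul (g : Equiv.Perm Cfsg.GolayPt) (A B : Finset (Finset Cfsg.GolayPt)) :
    F (g • A) (g • B) = F A B := by
  unfold F
  rw [Finset.smul_finset_def, Finset.smul_finset_def,
    Finset.sum_image (fun x _ y _ h => MulAction.injective g h)]
  refine Finset.sum_congr rfl fun t _ => ?_
  rw [Finset.sum_image (fun x _ y _ h => MulAction.injective g h)]
  refine Finset.sum_congr rfl fun u _ => ?_
  rw [card_smul_inter]

theorem sum_famOf {l : List ℕ} (hl : strictAsc l = true) (hlt : allLt l = true)
    (f : Finset Cfsg.GolayPt → ℕ) : ∑ t ∈ famOf l, f t = (l.map fun m => f (ofMask m)).sum := by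
  have hnd : (l.map ofMask).Nodup := by
    apply (List.nodup_map_iff_inj_on (strictAsc_nodup hl)).2
    intro a ha b hb hab
    exact ofMask_injOn (allLt_spec hlt a ha) (allLt_spec hlt b hb) hab
  unfold famOf
  rw [List.sum_toFinset f hnd, List.map_map]
  rfl

theorem F_famOf_aux {a b : List ℕ} (ha : strictAsc a = true) (ha' : allLt a = true)
    (hb : strictAsc b = true) (hb' : allLt b = true) :
    F (famOf a) (famOf b) = (a.map fun t => (b.map fun u => phi (pop (Nat.land t u))).sum).sum := by
  unfold F
  rw [sum_famOf ha ha']
  have h1 : (fun m => ∑ u ∈ famOf b, phi (ofMask m ∩ u).card) =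
      fun t => (b.map fun u => phi (pop (Nat.land t u))).sum := by
    funext m
    rw [sum_famOf hb hb']
    have h2 : (fun n => phi (ofMask m ∩ ofMask n).card) = fun u => phi (pop (Nat.land m u)) := by
      funext n
      rw [card_inter_ofMask]
    rw [h2]
  rw [h1]

theorem F_famOf {l : List ℕ} (hl : qOK l = true) : F (famOf q0) (famOf l) = inv l := by
  have h0 := qOK_asc q0_ok
  have h1 := qOK_asc hl
  exact F_famOf_aux h0.1 h0.2 h1.1 h1.2

/-- representatives -/
def repQ (v : ℕ) : List ℕ :=
  match v with
  | 90 => [70, 521, 33152, 8409088]
  | 68 => [7, 896, 36928, 8405000]
  | 54 => [7, 584, 49280, 8392960]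
  | 26 => [7, 4232, 16704, 8421888]
  | _ => q0

def T : List ℕ := [984818244535754528103549039458486304,984818244535754528103549039458486304,984818244535754528103549039458486304,976907791134299798555324425644902401,970323892449469200453615598413745153,980915266709283679625909308187806752,980915266709283679625909308187806752,980915266709283679625909308187806752,274325308143583399760574308040326537,349939517635319207267530918218227175,602861295842136513707465506333687875,602861295842136513707465506333687875,610645700039170093514306231153460291,606660360060217028678249321710978146,400716489697944792742401853893353676,266580167194277051377290440250285356,984728318097572058002623567840450592,146301350966404794632077858657771598,984728318097572058002623567840450592,318852812257006536528744672146105615,649906094351221563855539610284264711,317596571247654666812662726867836175,277045498632764353478407482358604076,347498942372778305208706054448620783,984818244535754528103549039458486304,56491051715988336853914309281422359,264384279944727697263480058203839788,98147395306606408438918672777747566,652102708045690079709044547643705576,312363906448399422853177887322059023,2804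5122010872172302290017779425335,357726457564081859818998098049074663,314676019402825065879970385058970088,651171224543827978606362703184667911,356227063337401491453675278001275367,266985419294810598555603782745701676,17700627646791287438876960783318753,970336565708648288190807373782393857,608296540419406558526593855103735906,608296540419406558526593855103735906,984737193616507953332582334206319648,526271948104095622954902448411621670,984737193616507953332582334206319648,274325308143583399760574308040326537,263005200624555299162815435075771785,387613985744497007067980816226269574,515802817976088451419042450604571942,315988004382405040574603772349854184,106865068845380901602334257622325699,314674758443222389978870884466039272,317392670150925406281381095094553871,65579817318014810425778535931353111,17706967642796390709389348864141025,318852812257006536528744672146105615,970323892449469200453615598413745153,142165363622678121304516645866382414,526190898198991779233736317666304294,312363906448399422853177887322059023,387502548860719086404689566094122374,263010258895612914940307505559976329,596650951771121335795189544748817506,314676019402825065879970385058970088,27042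8669514737924407534549232755081,26390492593502857174043114218169057,607968543247016177382169585391214690,109513110510265898181131339353349230,318691972904311173379455930567080207,145937905374084040590055643305685070,62781133997941686687637296986392599,312363906448399422853177887322059023,270431216721372648559587813871421833,312404431607293969482588896504154383,276961909211063067479012658969806124,108572186961749615264022491824129134,274325308143583399760574308040326537,318854073261028653746322152579138831,25538976762124622534859600791023671,65378471310323069359768078263597079,270795944029792349233133275525644681,979220185094877299415431706412596225,983426482554381605818421604213039136,403160610417147665902489493081169100,983426482554381605818421604213039136,983426482554381605818421604213039136,96937968247979091983740144725471683,980915266709283679625909308187806752,357727738855943507390517966654452199,400554388377897688146339855082785996,274325308143583399760574308040326537,98154990817710857215724355258098798,525335430868287522832393948491701449,398130561241380700344085987721493708,526271948104095622954902448411621670,29430545778075109486205499270895671,513615801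307832294503047767022607654,395034928729709603064398465704495494,270795944029792349233133275525644681,65579817318014810425778535931353111,56494842253636698250461377455137815,264384279944727697263480058203839788,515802817976088451419042450604571942,110770581530774162949096508287559107,345755132223556842549104195792877807,153847684931458851992149899768202318,145936624154743318697097259923832910,606670497505836461619527093092298850,106868862395661475864089485202701763,263010258895612914940307505559976329,65377190819877464036503545368034327,357726457564081859818998098049074663,979422811626021400551155623469889537,142164106326475931101389668934016078,349939517635319207267530918218227175,96937968247979091983740144725471683,638263767216368836747568319221694696,403228973191242827529179002154517708,525335430868287522832393948491701449,651001504215711099932023674487145735,145937905374084040590055643305685070,607972339270869891931681991283498082,98195516521720804037963846906839150,387502548860719086404689566094122374,55358830527896693528986178583345888,26387956090902675248562408846855905,142408515314218421625071792291069006,270431216721372648559587813871421833,3876139857444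97007067980816226269574,652103976474505805895589494717290728,976624114656287961763356487435104257,96937968247979091983740144725471683,983439156539618644473047614254949408,983439156539618644473047614254949408,400716489697944792742401853893353676,356470215084771821444098059579726311,387492410636684353064011181549133190,357525112792983090317067571898551783,403160610417147665902489493081169100,138352235182446008106946993216298434,13815397441458774855172816373260001,361337885174645014500472720341797103,146301350966404794632077858657771598,25538976762124622534859600791023671,596610426090741480620744990224753762,357726457564081859818998098049074663,142164106326475931101389668934016078,513291599622753855556794888280375590,25538976762124622534859600791023671,109513110510265898181131339353349230,527850439262442364104875959406036169,317392670150925406281381095094553871,527773201697564685949951504221833417,96937968247979091983740144725471683,525173329580662516083507327331798217,525173329580662516083507327331798217,264384279944727697263480058203839788,317392670150925406281381095094553871,26387956090902675248562408846855905,314676019402825065879970385058970088,6070250868564925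92336071989608561762,399174719566182821898942052231251334,28166698117550053177350451154237495,55357572004916529804178818459808480,398049510788230555966823722914971852,146301350966404794632077858657771598,314689968543513562309414086627066344,513615801307832294503047767022607654,152619206423483455675550288009470402,979422811626021400551155623469889537,142408515314218421625071792291069006,357525112792983090317067571898551783,607972339270869891931681991283498082,345755132223556842549104195792877807,526190898198991779233736317666304294,398049510788230555966823722914971852,29430545778075109486205499270895671,68054238628288428547372741336436448,980955791882061147476043190404165664,17700627646791287438876960783318753,387502548860719086404689566094122374,98195516521720804037963846906839150,526190898198991779233736317666304294,56491051715988336853914309281422359,638271372352648041706577212647810280,651171224543827978606362703184667911,106865068845380901602334257622325699,28045122010872172302290017779425335,110759162743474031382606828174549443,526271948104095622954902448411621670,636519954088548959164042108078209256,649711075465793745356050473354845447,979422811626021400551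155623469889537,606670497505836461619527093092298850,317392670150925406281381095094553871,399174719566182821898942052231251334,110770581530774162949096508287559107,979422811626021400551155623469889537,62781133997941686687637296986392599,13815397441458774855172816373260001,153724845375420024853143128456435790,146301350966404794632077858657771598,56494842253636698250461377455137815,68055508722218723068520671380480736,26387956090902675248562408846855905,17295376101851072919038206396173025,59251667140687953360251756965464800,98195516521720804037963846906839150,361291014296041582796524266875520239,400716489697944792742401853893353676,636526294076176878532317442019111144,636526294076176878532317442019111144,636526294076176878532317442019111144,29430545778075109486205499270895671,276961909211063067479012658969806124,276961909211063067479012658969806124,347504014180396604401526457709068527,270431216721372648559587813871421833,274327855783391337991230193178578313,984818244535754528103549039458486304,264384279944727697263480058203839788,277045498632764353478407482358604076]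

/-- membership of a code in the joint stabiliser -/
def goodQ (c : ℕ) : Bool := good [] [8442831] c && famInv c q0

/-- same underlying set -/
noncomputable def sameSet (a b : List ℕ) : Bool := allL (fun x => memL x b) a && allL (fun x => memL x a) b

theorem famOf_eq_of_sameSet {a b : List ℕ} (h : sameSet a b = true) : famOf a = famOf b := by
  simp only [sameSet, Bool.and_eq_true] at h
  ext S
  rw [mem_famOf, mem_famOf]
  constructor
  · rintro ⟨m, hm, rfl⟩
    exact ⟨m, memL_iff.1 (allL_iff.1 h.1 m hm), rfl⟩
  · rintro ⟨m, hm, rfl⟩
    exact ⟨m, memL_iff.1 (allL_iff.1 h.2 m hm), rfl⟩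

/-- the certificate -/
noncomputable def certQ : List (List ℕ) → List ℕ → Bool
  | [], _ => true
  | _ :: _, [] => false
  | l :: ls, c :: cs => goodQ c && sameSet ((repQ (inv l)).map (img c)) l && certQ ls cs

theorem cert : certQ qL T = true := by decide +kernel

theorem allLt_q0 : allLt q0 = true := by decide +kernel

theorem certQ_spec {L : List (List ℕ)} {T' : List ℕ} (h : certQ L T' = true) :
    ∀ l ∈ L, ∃ g ∈ M24, g • D = D ∧ g • famOf q0 = famOf q0 ∧ g • famOf (repQ (inv l)) = famOf l := by
  induction L generalizing T' with
  | nil => simp
  | cons a L ih =>
    cases T' with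
    | nil => simp [certQ] at h
    | cons c cs =>
      simp only [certQ, Bool.and_eq_true] at h
      obtain ⟨⟨h1, h2⟩, h3⟩ := h
      intro l hl
      rcases List.mem_cons.1 hl with rfl | hl
      · simp only [goodQ, Bool.and_eq_true] at h1
        have hv := good_valid h1.1
        have hm := decode_mem_SS h1.1
        refine ⟨decode c, hm.1, hm.2.2 8442831 (by simp), (famInv_spec hv allLt_q0).1 h1.2, ?_⟩
        rw [decode_smul_famOf hv]
        exact famOf_eq_of_sameSet h2
      · exact ih h3 l hl

theorem counts12 : (qL.filter fun l => Nat.beq (inv l) 90).length = 12 := by decide +kernel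
theorem counts27 : (qL.filter fun l => Nat.beq (inv l) 68).length = 27 := by decide +kernel
theorem counts72 : (qL.filter fun l => Nat.beq (inv l) 54).length = 72 := by decide +kernel
theorem counts108 : (qL.filter fun l => Nat.beq (inv l) 26).length = 108 := by decide +kernel

theorem values : ∀ l ∈ qL, (inv l = 324 ∧ l = q0) ∨ inv l = 90 ∨ inv l = 68 ∨ inv l = 54 ∨ inv l = 26 := by
  decide +kernel

theorem mem_orbit_iff {d : Finset Cfsg.GolayPt} {Q X Y : Finset (Finset Cfsg.GolayPt)} :
    Y ∈ MulAction.orbit ↥(MulAction.stabilizer Cfsg.M24 d ⊓ MulAction.stabilizer Cfsg.M24 Q) X ↔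
      ∃ g ∈ M24, g • d = d ∧ g • Q = Q ∧ g • X = Y := by
  rw [MulAction.mem_orbit_iff]
  constructor
  · rintro ⟨⟨⟨g, hg⟩, hH⟩, rfl⟩
    exact ⟨g, hg, hH.1, hH.2, rfl⟩
  · rintro ⟨g, hg, h1, h2, rfl⟩
    exact ⟨⟨⟨g, hg⟩, ⟨h1, h2⟩⟩, rfl⟩

/-- the base description of the orbits -/
theorem base_orbit (v : ℕ) (hv : inv (repQ v) = v) (hr : repQ v ∈ qL) (Y : Finset (Finset Cfsg.GolayPt)) :
    (∃ g ∈ M24, g • D = D ∧ g • famOf q0 = famOf q0 ∧ g • famOf (repQ v) = Y) ↔
      ∃ l ∈ qL.filter (fun l => Nat.beq (inv l) v), famOf l = Y := by
  constructor
  · rintro ⟨g, hg, h1, h2, rfl⟩
    have hq : g • famOf (repQ v) ∈ quartets D := by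
      have := smul_mem_quartets hg (famOf_mem_quartets (qL_ok _ hr))
      rwa [h1] at this
    obtain ⟨l, hl, e⟩ := mem_qL_of_quartet hq
    refine ⟨l, List.mem_filter.2 ⟨hl, ?_⟩, e.symm⟩
    rw [Nat.beq_eq, ← F_famOf (qL_ok l hl), ← e, ← h2, F_smul, F_famOf (qL_ok _ hr), hv]
  · rintro ⟨l, hl, rfl⟩
    obtain ⟨hl1, hl2⟩ := List.mem_filter.1 hl
    have := Nat.eq_of_beq_eq_true hl2
    subst this
    exact certQ_spec cert l hl1

theorem conj_smulF (k g : Equiv.Perm Cfsg.GolayPt) {S T : Finset (Finset Cfsg.GolayPt)} (h : g • S = T) :
    (k * g * k⁻¹) • (k • S) = k • T := by
  rw [mul_smul, mul_smul, inv_smul_smul, h]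

theorem orbit_transport {k : Equiv.Perm Cfsg.GolayPt} (hk : k ∈ M24) (v : ℕ) (hv : inv (repQ v) = v) (hr : repQ v ∈ qL) :
    MulAction.orbit ↥(MulAction.stabilizer Cfsg.M24 (k • D) ⊓ MulAction.stabilizer Cfsg.M24 (k • famOf q0))
        (k • famOf (repQ v)) =
      (fun Q => k • Q) '' (famOf '' {l | l ∈ qL.filter (fun l => Nat.beq (inv l) v)}) := by
  ext Y
  rw [mem_orbit_iff]
  constructor
  · rintro ⟨g, hg, h1, h2, rfl⟩
    have hg' : k⁻¹ * g * k ∈ M24 := M24.mul_mem (M24.mul_mem (M24.inv_mem hk) hg) hk
    have e1 : (k⁻¹ * g * k) • D = D := by
      rw [mul_smul, mul_smul, h1, inv_smul_smul]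
    have e2 : (k⁻¹ * g * k) • famOf q0 = famOf q0 := by
      rw [mul_smul, mul_smul, h2, inv_smul_smul]
    obtain ⟨l, hl, e⟩ := (base_orbit v hv hr _).1 ⟨_, hg', e1, e2, rfl⟩
    refine ⟨famOf l, ⟨l, hl, rfl⟩, ?_⟩
    show k • famOf l = g • k • famOf (repQ v)
    rw [e, mul_smul, mul_smul, smul_inv_smul]
  · rintro ⟨_, ⟨l, hl, rfl⟩, rfl⟩
    obtain ⟨g, hg, h1, h2, h3⟩ := (base_orbit v hv hr _).2 ⟨l, hl, rfl⟩
    refine ⟨k * g * k⁻¹, conj_mem_M24 hk hg, conj_smul k g h1, conj_smulF k g h2, ?_⟩
    show (k * g * k⁻¹) • k • famOf (repQ v) = k • famOf l
    exact conj_smulF k g h3

theorem ncard_orbit {k : Equiv.Perm Cfsg.GolayPt} (hk : k ∈ M24) (v : ℕ) (hv : inv (repQ v) = v) (hr : repQ v ∈ qL) :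
    (MulAction.orbit ↥(MulAction.stabilizer Cfsg.M24 (k • D) ⊓ MulAction.stabilizer Cfsg.M24 (k • famOf q0))
        (k • famOf (repQ v))).ncard = (qL.filter (fun l => Nat.beq (inv l) v)).length := by
  rw [orbit_transport hk v hv hr, Set.ncard_image_of_injective _ (MulAction.injective k)]
  apply ncard_image_list _ _ (qL_nodup.filter _)
  intro a ha b hb hab
  exact famOf_injOn_qL (List.mem_of_mem_filter ha) (List.mem_of_mem_filter hb) hab

/-- A quartet stabiliser has five orbits on the quartets of its dodecad, of sizes 1, 12, 27, 72, 108. -/
theorem result (d : Finset Cfsg.GolayPt) (hd : d ∈ Cfsg.dodecads) (Q : Finset (Finset Cfsg.GolayPt)) (hQ : Q ∈ Cfsg.quartets d) : ∃ X₁ ∈ Cfsg.quartets d, ∃ X₂ ∈ Cfsg.quartets d, ∃ X₃ ∈ Cfsg.quartets d, ∃ X₄ ∈ Cfsg.quartets d, (MulAction.orbit ↥(MulAction.stabilizer Cfsg.M24 d ⊓ MulAction.stabilizer Cfsg.M24 Q) X₁).ncard = 12 ∧ (MulAction.orbit ↥(MulAction.stabilizer Cfsg.M24 d ⊓ MulAction.stabilizer Cfsg.M24 Q) X₂).ncard = 27 ∧ (MulAction.orbit ↥(MulAction.stabilizer Cfsg.M24 d ⊓ MulAction.stabilizer Cfsg.M24 Q) X₃).ncard = 72 ∧ (MulAction.orbit ↥(MulAction.stabilizer Cfsg.M24 d ⊓ MulAction.stabilizer Cfsg.M24 Q) X₄).ncard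 = 108 ∧ Cfsg.quartets d = {Q} ∪ MulAction.orbit ↥(MulAction.stabilizer Cfsg.M24 d ⊓ MulAction.stabilizer Cfsg.M24 Q) X₁ ∪ MulAction.orbit ↥(MulAction.stabilizer Cfsg.M24 d ⊓ MulAction.stabilizer Cfsg.M24 Q) X₂ ∪ MulAction.orbit ↥(MulAction.stabilizer Cfsg.M24 d ⊓ MulAction.stabilizer Cfsg.M24 Q) X₃ ∪ MulAction.orbit ↥(MulAction.stabilizer Cfsg.M24 d ⊓ MulAction.stabilizer Cfsg.M24 Q) X₄ := by
  obtain ⟨k, hk, rfl, rfl⟩ := exists_quartet hd hQ
  have hv1 : inv (repQ 90) = 90 := by decide +kernel
  have hv2 : inv (repQ 68) = 68 := by decide +kernel
  have hv3 : inv (repQ 54) = 54 := by decide +kernel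
  have hv4 : inv (repQ 26) = 26 := by decide +kernel
  have hr1 : repQ 90 ∈ qL := by decide +kernel
  have hr2 : repQ 68 ∈ qL := by decide +kernel
  have hr3 : repQ 54 ∈ qL := by decide +kernel
  have hr4 : repQ 26 ∈ qL := by decide +kernel
  have hmem : ∀ l ∈ qL, k • famOf l ∈ Cfsg.quartets (k • D) :=
    fun l hl => smul_mem_quartets hk (famOf_mem_quartets (qL_ok l hl))
  refine ⟨_, hmem _ hr1, _, hmem _ hr2, _, hmem _ hr3, _, hmem _ hr4,
    (ncard_orbit hk 90 hv1 hr1).trans counts12, (ncard_orbit hk 68 hv2 hr2).trans counts27,
    (ncard_orbit hk 54 hv3 hr3).trans counts72, (ncard_orbit hk 26 hv4 hr4).trans counts108, ?_⟩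
  rw [orbit_transport hk 90 hv1 hr1, orbit_transport hk 68 hv2 hr2, orbit_transport hk 54 hv3 hr3,
    orbit_transport hk 26 hv4 hr4]
  ext Z
  simp only [Set.mem_union, Set.mem_singleton_iff]
  constructor
  · intro hZ
    have hZ' : k⁻¹ • Z ∈ quartets D := by
      have := smul_mem_quartets (M24.inv_mem hk) hZ
      rwa [inv_smul_smul] at this
    obtain ⟨l, hl, e⟩ := mem_qL_of_quartet hZ'
    have e' : Z = k • famOf l := by rw [← e, smul_inv_smul]
    have hin : ∀ v, inv l = v → Z ∈ (fun Q => k • Q) '' (famOf '' {l | l ∈ qL.filter (fun l => Nat.beq (inv l) v)}) := by
      intro v hv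
      refine ⟨famOf l, ⟨l, List.mem_filter.2 ⟨hl, ?_⟩, rfl⟩, e'.symm⟩
      rw [Nat.beq_eq, hv]
    rcases values l hl with ⟨_, rfl⟩ | h | h | h | h
    · exact Or.inl (Or.inl (Or.inl (Or.inl e')))
    · exact Or.inl (Or.inl (Or.inl (Or.inr (hin _ h))))
    · exact Or.inl (Or.inl (Or.inr (hin _ h)))
    · exact Or.inl (Or.inr (hin _ h))
    · exact Or.inr (hin _ h)
  · have hin : ∀ v, Z ∈ (fun Q => k • Q) '' (famOf '' {l | l ∈ qL.filter (fun l => Nat.beq (inv l) v)}) →
        Z ∈ Cfsg.quartets (k • D) := by
      rintro v ⟨_, ⟨l, hl, rfl⟩, rfl⟩
      exact hmem l (List.mem_of_mem_filter hl)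
    rintro (((( rfl | h) | h) | h) | h)
    · exact hQ
    · exact hin _ h
    · exact hin _ h
    · exact hin _ h
    · exact hin _ h

end Cfsg.Agent.S1599
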