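import Mathlib
import Cfsg.Statements.S1600
import Cfsg.Agent.Lib.M24Orbits

set_option autoImplicit false
set_option maxRecDepth 100000
open Cfsg

namespace Cfsg.Agent.S1600

open Finset Cfsg.Agent.Lib.Golay Cfsg.Agent.Lib.M24Orbits Cfsg.Agent.Lib.DodecadFacts Cfsg.Agent.Lib.M24Facts

open scoped Pointwise

/-- the complement of the standard dodecad -/
def cL : List ℕ := [4, 5, 10, 11, 13, 16, 17, 18, 19, 20, 21, 22]

theorem cL_spec : ∀ i ∈ idxL, Nat.beq (bit 8442831 i) 0 = true → i ∈ cL := by decide +kernel

def T : List ℕ := [984818244535754528103549039458486304,980924132068208647414064372895658016,979201170686462026945191602333038624,968915591316301102576062963584703520,970332766586372488476379061509661728,968918125094133312867142674648674336,984737193616507953332582334206319648,969199267465777758467557010220496928,977666823536203675389992086812081184,976887510154770538766490027346206752,961278688604686681898179689373284384,962049886769385557593025881059858464]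

theorem cert : certPtOK [23, 0, 1] [8442831] 4 cL T = true := by decide +kernel

theorem orbit_step {d : Finset Cfsg.GolayPt} (hd : d ∈ Cfsg.dodecads) {n : ℕ} (hn : n ≤ 4)
    (x : Fin n ↪ Cfsg.GolayPt) (hx : ∀ i, x i ∈ d) (K : Subgroup ↥Cfsg.M24)
    (hK : ∀ g : ↥Cfsg.M24, g ∈ K ↔ (g : Equiv.Perm Cfsg.GolayPt) • d = d ∧ ∀ i, (g : Equiv.Perm Cfsg.GolayPt) (x i) = x i)
    {c : Cfsg.GolayPt} (hc : c ∈ d) (hcx : ∀ i, c ≠ x i) :
    (MulAction.orbit K c).ncard = 12 - n := by
  have h1 : MulAction.orbit K c = ((d \ (Finset.univ.map x) : Finset Cfsg.GolayPt) : Set Cfsg.GolayPt) := by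
    ext y
    rw [MulAction.mem_orbit_iff]
    constructor
    · rintro ⟨⟨g, hg⟩, rfl⟩
      obtain ⟨h1, h2⟩ := (hK g).1 hg
      have hgc : (g : Equiv.Perm Cfsg.GolayPt) c ∈ d := by
        rw [← h1]
        exact (apply_mem_smul _ _ _).2 hc
      simp only [Finset.coe_sdiff, Set.mem_diff, Finset.mem_coe]
      refine ⟨hgc, ?_⟩
      simp only [Finset.mem_map, Finset.mem_univ, true_and, not_exists]
      intro i hi
      have : (g : Equiv.Perm Cfsg.GolayPt) (x i) = (g : Equiv.Perm Cfsg.GolayPt) c := by
        rw [h2 i]; exact hi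
      exact hcx i ((g : Equiv.Perm Cfsg.GolayPt).injective this).symm
    · intro hy
      simp only [Finset.coe_sdiff, Set.mem_diff, Finset.mem_coe, Finset.mem_map, Finset.mem_univ,
        true_and, not_exists] at hy
      obtain ⟨hyd, hyx⟩ := hy
      -- extend both tuples
      let a : Fin (n + 1) ↪ Cfsg.GolayPt := ⟨Fin.snoc (fun i => x i) c, by
        intro i j h
        induction i using Fin.lastCases with
        | last =>
          induction j using Fin.lastCases with
          | last => rfl
          | cast j =>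
            simp only [Fin.snoc_last, Fin.snoc_castSucc] at h
            exact absurd h (hcx j)
        | cast i =>
          induction j using Fin.lastCases with
          | last =>
            simp only [Fin.snoc_last, Fin.snoc_castSucc] at h
            exact absurd h.symm (hcx i)
          | cast j =>
            simp only [Fin.snoc_castSucc] at h
            rw [x.injective h]⟩
      let b : Fin (n + 1) ↪ Cfsg.GolayPt := ⟨Fin.snoc (fun i => x i) y, by
        intro i j h
        induction i using Fin.lastCases with
        | last =>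
          induction j using Fin.lastCases with
          | last => rfl
          | cast j =>
            simp only [Fin.snoc_last, Fin.snoc_castSucc] at h
            exact absurd h.symm (hyx j)
        | cast i =>
          induction j using Fin.lastCases with
          | last =>
            simp only [Fin.snoc_last, Fin.snoc_castSucc] at h
            exact absurd h (hyx i)
          | cast j =>
            simp only [Fin.snoc_castSucc] at h
            rw [x.injective h]⟩
      have ha : ∀ i, a i ∈ d := by
        intro i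
        induction i using Fin.lastCases with
        | last => show (Fin.snoc (fun i => x i) c : Fin (n + 1) → Cfsg.GolayPt) (Fin.last n) ∈ d
                  rw [Fin.snoc_last]; exact hc
        | cast i => show (Fin.snoc (fun i => x i) c : Fin (n + 1) → Cfsg.GolayPt) (Fin.castSucc i) ∈ d
                    rw [Fin.snoc_castSucc]; exact hx i
      have hb : ∀ i, b i ∈ d := by
        intro i
        induction i using Fin.lastCases with
        | last => show (Fin.snoc (fun i => x i) y : Fin (n + 1) → Cfsg.GolayPt) (Fin.last n) ∈ d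
                  rw [Fin.snoc_last]; exact hyd
        | cast i => show (Fin.snoc (fun i => x i) y : Fin (n + 1) → Cfsg.GolayPt) (Fin.castSucc i) ∈ d
                    rw [Fin.snoc_castSucc]; exact hx i
      obtain ⟨g, hg, hgd, hgab⟩ := exists_dodecad_le (show n + 1 ≤ 5 by omega) hd a b ha hb
      have hfix : ∀ i, g (x i) = x i := by
        intro i
        have := hgab (Fin.castSucc i)
        have e1 : a (Fin.castSucc i) = x i := by
          show (Fin.snoc (fun i => x i) c : Fin (n + 1) → Cfsg.GolayPt) (Fin.castSucc i) = _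
          rw [Fin.snoc_castSucc]
        have e2 : b (Fin.castSucc i) = x i := by
          show (Fin.snoc (fun i => x i) y : Fin (n + 1) → Cfsg.GolayPt) (Fin.castSucc i) = _
          rw [Fin.snoc_castSucc]
        rwa [e1, e2] at this
      have hgc : g c = y := by
        have := hgab (Fin.last n)
        have e1 : a (Fin.last n) = c := by
          show (Fin.snoc (fun i => x i) c : Fin (n + 1) → Cfsg.GolayPt) (Fin.last n) = _
          rw [Fin.snoc_last]
        have e2 : b (Fin.last n) = y := by
          show (Fin.snoc (fun i => x i) y : Fin (n + 1) → Cfsg.GolayPt) (Fin.last n) = _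
          rw [Fin.snoc_last]
        rwa [e1, e2] at this
      exact ⟨⟨⟨g, hg⟩, (hK _).2 ⟨hgd, hfix⟩⟩, hgc⟩
  rw [h1, Set.ncard_coe_finset, Finset.card_sdiff_of_subset, hd.2, Finset.card_map, Finset.card_univ, Fintype.card_fin]
  intro z hz
  obtain ⟨i, -, rfl⟩ := Finset.mem_map.1 hz
  exact hx i

/-- The pointwise stabiliser of three points of a dodecad inside the dodecad stabiliser (order 72) is transitive on the complementary dodecad. -/
theorem result (d : Finset Cfsg.GolayPt) (hd : d ∈ Cfsg.dodecads) (p q r : Cfsg.GolayPt) (hp : p ∈ d) (hq : q ∈ d) (hr : r ∈ d) (hpq : p ≠ q) (hpr : p ≠ r) (hqr : q ≠ r) : Nat.card ↥(MulAction.stabilizer Cfsg.M24 d ⊓ MulAction.stabilizer Cfsg.M24 p ⊓ MulAction.stabilizer Cfsg.M24 q ⊓ MulAction.stabilizer Cfsg.M24 r) = 72 ∧ ∀ x ∉ d, ∀ y ∉ d, ∃ g ∈ (MulAction.stabilizer Cfsg.M24 d ⊓ MulAction.stabilizer Cfsg.M24 p ⊓ MulAction.stabilizer Cfsg.M24 q ⊓ MulAction.stabilizer Cfsg.M24 r), ((g : ↥Cfsg.M24) : Equiv.Perm Cfsg.GolayPt) x = y := by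
  constructor
  · have h0 := card_stabilizer_dodecad_point hd hp
    have h1 := card_eq_orbit_mul_inf (MulAction.stabilizer Cfsg.M24 d ⊓ MulAction.stabilizer Cfsg.M24 p) q
    have h2 := card_eq_orbit_mul_inf (MulAction.stabilizer Cfsg.M24 d ⊓ MulAction.stabilizer Cfsg.M24 p ⊓ MulAction.stabilizer Cfsg.M24 q) r
    have o1 := orbit_step hd (n := 1) (by norm_num) ⟨fun _ => p, fun i j _ => Subsingleton.elim i j⟩
      (fun _ => hp) (MulAction.stabilizer Cfsg.M24 d ⊓ MulAction.stabilizer Cfsg.M24 p) (by
        intro g
        simp only [Subgroup.mem_inf, MulAction.mem_stabilizer_iff]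
        constructor
        · rintro ⟨h1, h2⟩
          exact ⟨h1, fun _ => h2⟩
        · rintro ⟨h1, h2⟩
          exact ⟨h1, h2 0⟩) hq (fun _ => Ne.symm hpq)
    let e2 : Fin 2 ↪ Cfsg.GolayPt := ⟨![p, q], by
      intro i j h
      fin_cases i <;> fin_cases j <;> simp_all⟩
    have o2 := orbit_step hd (n := 2) (by norm_num) e2
      (by
        intro i
        fin_cases i
        · exact hp
        · exact hq) (MulAction.stabilizer Cfsg.M24 d ⊓ MulAction.stabilizer Cfsg.M24 p ⊓ MulAction.stabilizer Cfsg.M24 q) (by
        intro g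
        simp only [Subgroup.mem_inf, MulAction.mem_stabilizer_iff]
        constructor
        · rintro ⟨⟨h1, h2⟩, h3⟩
          refine ⟨h1, fun i => ?_⟩
          fin_cases i
          · exact h2
          · exact h3
        · rintro ⟨h1, h2⟩
          exact ⟨⟨h1, h2 0⟩, h2 1⟩) hr (by
        intro i
        fin_cases i
        · exact Ne.symm hpr
        · exact Ne.symm hqr)
    rw [h0, o1] at h1
    rw [o2] at h2
    rw [h2] at h1
    omega
  · obtain ⟨k, hk, hkd, rfl, rfl, rfl⟩ := exists_flag_dodecad3 hd hp hq hr hpq hpr hqr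
    subst hkd
    have key : ∀ z ∉ k • ofMask 8442831, ∃ g ∈ SS [23, 0, 1] [8442831], g (pt 4) = k⁻¹ z := by
      intro z hz
      have hz' : k⁻¹ z ∉ ofMask 8442831 := by
        intro h
        apply hz
        have := (apply_mem_smul k _ _).2 h
        rwa [← Equiv.Perm.mul_apply, mul_inv_cancel, Equiv.Perm.one_apply] at this
      have hmem : idx (k⁻¹ z) ∈ cL := by
        apply cL_spec _ (mem_idxL.2 (idx_lt _))
        rw [beq_bit_zero_iff (idx_lt _), pt_idx]
        exact hz'
      obtain ⟨g, hg, hgy⟩ := certPtOK_spec (by norm_num) cert _ hmem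
      exact ⟨g, hg, by rw [hgy, pt_idx]⟩
    intro x hx y hy
    obtain ⟨a, ha, hax⟩ := key x hx
    obtain ⟨b, hb, hby⟩ := key y hy
    have hg : b * a⁻¹ ∈ SS [23, 0, 1] [8442831] := (SS _ _).mul_mem hb ((SS _ _).inv_mem ha)
    have hconj := conj_mem_M24 hk hg.1
    refine ⟨⟨k * (b * a⁻¹) * k⁻¹, hconj⟩, ?_, ?_⟩
    · simp only [Subgroup.mem_inf, MulAction.mem_stabilizer_iff]
      refine ⟨⟨⟨?_, ?_⟩, ?_⟩, ?_⟩
      · exact conj_smul k _ (hg.2.2 8442831 (by simp))
      · exact conj_apply k _ (hg.2.1 23 (by simp))
      · exact conj_apply k _ (hg.2.1 0 (by simp))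
      · exact conj_apply k _ (hg.2.1 1 (by simp))
    · show (k * (b * a⁻¹) * k⁻¹) x = y
      have e1 : a⁻¹ (k⁻¹ x) = pt 4 := by
        rw [← hax]
        simp
      simp only [Equiv.Perm.mul_apply]
      rw [e1, hby]
      simp

end Cfsg.Agent.S1600
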