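import Mathlib
import Cfsg.Statements.S1601
import Cfsg.Agent.Lib.M11Simple
import Cfsg.Agent.Lib.OrbPair
import Cfsg.Agent.Lib.PSL2RecData

set_option autoImplicit false
set_option maxRecDepth 100000

namespace Cfsg.Agent.S1601

open Cfsg Cfsg.Agent.Lib.Golay Cfsg.Agent.Lib.GolaySift Cfsg.Agent.Lib.M24Facts
  Cfsg.Agent.Lib.DodecadFacts Cfsg.Agent.Lib.MathieuSimple Cfsg.Agent.Lib.M22Simple
  Cfsg.Agent.Lib.M11Simple
open MulAction
open scoped Pointwise

/-- The subgroups of interest. -/
noncomputable abbrev G3 (d : Finset GolayPt) (p q : GolayPt) : Subgroup M24 :=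
  stabilizer M24 d ⊓ stabilizer M24 p ⊓ stabilizer M24 q

theorem smul_compl_eq {g : Equiv.Perm GolayPt} {d : Finset GolayPt} (h : g • dᶜ = dᶜ) :
    g • d = d := by
  have h1 := Cfsg.Agent.Lib.OrbPair.smul_compl_pt g dᶜ
  rw [h, compl_compl] at h1
  exact h1

/-- Three points in a dodecad, and one outside, move anywhere. -/
theorem exists_three_one {d : Finset GolayPt} (hd : d ∈ dodecads) {q : GolayPt} (hq : q ∉ d)
    (x y : Fin 3 ↪ GolayPt) (hx : ∀ i, x i ∈ d) (hy : ∀ i, y i ∈ d) :
    ∃ g ∈ M24, g • d = d ∧ g q = q ∧ ∀ i, g (x i) = y i := by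
  obtain ⟨g, hg, hgd, hgq, hgi⟩ := exists_dodecad_point_three
    (Cfsg.Agent.Lib.OrbPair.compl_mem_dodecads hd) (p := q) (by simpa using hq) x y
    (fun i => by simpa using hx i) (fun i => by simpa using hy i)
  exact ⟨g, hg, smul_compl_eq hgd, hgq, hgi⟩

theorem stab_mem_d {g : M24} {d : Finset GolayPt} (h : g ∈ stabilizer M24 d) {x : GolayPt}
    (hx : x ∈ d) : g • x ∈ d := by
  have h' : g • d = d := h
  have h2 := Finset.smul_mem_smul_finset (a := g) hx
  rwa [h'] at h2

/-- The orbit of the outer point is the complement. -/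
theorem orbit_out {d : Finset GolayPt} (hd : d ∈ dodecads) {p q : GolayPt} (hp : p ∈ d)
    (hq : q ∉ d) :
    orbit ↥(stabilizer M24 d ⊓ stabilizer M24 p) q = ((dᶜ : Finset GolayPt) : Set GolayPt) := by
  have hc := Cfsg.Agent.Lib.OrbPair.compl_mem_dodecads hd
  have h5 : 5 ≤ (dᶜ : Finset GolayPt).card := by rw [hc.2]; norm_num
  ext r
  rw [mem_orbit_iff]
  constructor
  · rintro ⟨⟨g, hg1, hg2⟩, rfl⟩
    simp only [Finset.coe_compl, Set.mem_compl_iff, Finset.mem_coe]
    intro h
    apply hq
    have h2 := stab_mem_d (g := g⁻¹) (inv_mem hg1) h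
    have h3 : (g⁻¹ : M24) • (g • q) = q := inv_smul_smul g q
    exact h3 ▸ h2
  · intro hr
    have hr' : r ∉ d := by simpa using hr
    obtain ⟨a, ha, ha0⟩ := exists_emb_extend (k := 1) (by norm_num) h5
      ⟨fun _ => q, fun i j _ => Subsingleton.elim i j⟩ (fun _ => Finset.mem_compl.2 hq)
    obtain ⟨b, hb, hb0⟩ := exists_emb_extend (k := 1) (by norm_num) h5
      ⟨fun _ => r, fun i j _ => Subsingleton.elim i j⟩ (fun _ => Finset.mem_compl.2 hr')
    let e : Fin 3 ↪ Fin 5 := Fin.castLEEmb (by norm_num)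
    obtain ⟨g, hg, hgd, hgp, hgi⟩ := exists_dodecad_point_three hd hp (e.trans a) (e.trans b)
      (fun i => by simpa using ha (e i)) (fun i => by simpa using hb (e i))
    refine ⟨⟨⟨g, hg⟩, hgd, hgp⟩, ?_⟩
    have h := hgi 0
    have e1 : (e.trans a) 0 = q := ha0 0
    have e2 : (e.trans b) 0 = r := hb0 0
    rw [e1, e2] at h
    exact h

theorem card_G3 {d : Finset GolayPt} (hd : d ∈ dodecads) {p q : GolayPt} (hp : p ∈ d)
    (hq : q ∉ d) : Nat.card ↥(G3 d p q) = 660 := by
  have h := card_eq_orbit_mul_inf (stabilizer M24 d ⊓ stabilizer M24 p) q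
  rw [card_stabilizer_dodecad_point hd hp, orbit_out hd hp hq, Set.ncard_coe_finset,
    (Cfsg.Agent.Lib.OrbPair.compl_mem_dodecads hd).2] at h
  show Nat.card ↥(stabilizer M24 d ⊓ stabilizer M24 p ⊓ stabilizer M24 q) = 660
  omega

/-- Commuting involutions give a four-group. -/
theorem four_dvd_card {H : Type*} [Group H] [Finite H] {u v : H} (hu : u * u = 1) (hv : v * v = 1)
    (hc : u * v = v * u) (hu1 : u ≠ 1) (hv1 : v ≠ 1) (huv : u ≠ v) : 4 ∣ Nat.card H := by
  classical
  have hui : u⁻¹ = u := inv_eq_of_mul_eq_one_left hu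
  have hvi : v⁻¹ = v := inv_eq_of_mul_eq_one_left hv
  have e1 : u * (u * v) = v := by rw [← mul_assoc, hu, one_mul]
  have e2 : v * (u * v) = u := by rw [hc, ← mul_assoc, hv, one_mul]
  have e3 : u * v * u = v := by rw [hc, mul_assoc, hu, mul_one]
  have e4 : u * v * v = u := by rw [mul_assoc, hv, mul_one]
  have e5 : u * v * (u * v) = 1 := by rw [← mul_assoc, e3, hv]
  let K : Subgroup H :=
    { carrier := ({1, u, v, u * v} : Finset H)
      one_mem' := by simp
      inv_mem' := by
        intro a ha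
        simp only [Finset.coe_insert, Finset.coe_singleton, Set.mem_insert_iff,
          Set.mem_singleton_iff] at ha ⊢
        rcases ha with rfl | rfl | rfl | rfl
        · simp
        · simp [hui]
        · simp [hvi]
        · right; right; right
          rw [mul_inv_rev, hui, hvi, hc]
      mul_mem' := by
        intro a b ha hb
        simp only [Finset.coe_insert, Finset.coe_singleton, Set.mem_insert_iff,
          Set.mem_singleton_iff] at ha hb ⊢
        rcases ha with rfl | rfl | rfl | rfl <;> rcases hb with rfl | rfl | rfl | rfl <;>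
          simp [hu, hv, e1, e2, e3, e4, e5, hc.symm] }
  have hK : Nat.card K = 4 := by
    have h1 : Nat.card K = (({1, u, v, u * v} : Finset H)).card := by
      show Nat.card ((({1, u, v, u * v} : Finset H) : Set H)) = _
      simp
    rw [h1]
    have n1 : (1 : H) ≠ u := hu1.symm
    have n2 : (1 : H) ≠ v := hv1.symm
    have n3 : (1 : H) ≠ u * v := by
      intro h
      apply huv
      have : u⁻¹ = v := inv_eq_of_mul_eq_one_right h.symm
      rwa [hui] at this
    have n4 : u ≠ u * v := by
      intro h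
      exact hv1 (mul_left_cancel (a := u) (by rw [mul_one]; exact h.symm))
    have n5 : v ≠ u * v := by
      intro h
      exact hu1 (mul_right_cancel (b := v) (by rw [one_mul]; exact h.symm))
    rw [Finset.card_insert_of_notMem (by simp [n1, n2, n3]),
      Finset.card_insert_of_notMem (by simp [huv, n4]),
      Finset.card_insert_of_notMem (by simp [n5]), Finset.card_singleton]
  rw [← hK]
  exact Subgroup.card_subgroup_dvd_card K

/-! ### the standard group -/

/-- Pairs of mutually inverse codes. -/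
def conjD : List (ℕ × ℕ) := [(983559143023509422674926022657839392,983541744891996863739970616027418880),(978234165870708456321424599439120768,980263644199404219412721092339845632),(983356478350996415703930980598485088,974461571461124832426925158039598368),(981967399443108749119423733699981408,980358087569037451498455586670952640)]

/-- The check for the conjugators. -/
def conjDOk : Bool :=
  conjD.all fun p => isM24 p.1 && Nat.beq (img p.1 dsMask) dsMask && Nat.beq (ap p.1 0) 0 &&
    Nat.beq (ap p.1 23) 23 && idxL.all (fun i => Nat.beq (ap p.2 (ap p.1 i)) i)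

theorem conjD_ok : conjDOk = true := by decide +kernel

theorem conjD_spec : ∀ p ∈ conjD, valid p.1 = true ∧ decode p.1 ∈ fixL M12d [0, 23] ∧
    idxL.all (fun i => Nat.beq (ap p.2 (ap p.1 i)) i) = true := by
  have h := conjD_ok
  simp only [conjDOk, List.all_eq_true, Bool.and_eq_true] at h
  intro p hp
  obtain ⟨⟨⟨⟨h1, h2⟩, h3⟩, h4⟩, h5⟩ := h p hp
  have hv := isM24_valid h1
  refine ⟨hv, ⟨⟨decode_mem_M24 h1, ?_⟩, fun i hi => ?_⟩, ?_⟩
  · exact decode_smul_ds hv (Nat.eq_of_beq_eq_true h2)
  · simp only [List.mem_cons, List.not_mem_nil, or_false] at hi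
    rcases hi with rfl | rfl
    · rw [decode_pt hv (by norm_num), Nat.eq_of_beq_eq_true h3]
    · rw [decode_pt hv (by norm_num), Nat.eq_of_beq_eq_true h4]
  · simpa only [List.all_eq_true] using h5

/-- The conjugates of `mul2`. -/
def SD : List ℕ := conjD.map (fun p => comp (comp p.1 mul2) p.2)

theorem pt23_notMem : pt 23 ∉ ds := by
  rw [ds, mem_ofMask, idx_pt (by norm_num)]
  decide +kernel

noncomputable abbrev G0 : Subgroup M24 := G3 ds (pt 0) (pt 23)

theorem mul2_23' : ap mul2 23 = 23 := mul2_23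

/-- The element of order 11. -/
noncomputable def x0 : G0 :=
  ⟨⟨decode mul2, decode_mem_M24 mul2_M24⟩,
    ⟨stab_of_perm _ (decode_smul_ds mul2_valid mul2_img), by
      show decode mul2 (pt 0) = pt 0
      rw [decode_pt mul2_valid (by norm_num), mul2_0]⟩, by
    show decode mul2 (pt 23) = pt 23
    rw [decode_pt mul2_valid (by norm_num), mul2_23]⟩

theorem x0_order : orderOf x0 = 11 := by
  have : Fact (Nat.Prime 11) := ⟨by norm_num⟩
  apply orderOf_eq_prime
  · apply Subtype.ext
    apply Subtype.ext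
    exact pow_eq_one_of_code (rep_decode mul2_valid) mul2_pow
  · intro h
    have h1 : decode mul2 = 1 := congrArg (fun a : G0 => ((a : M24) : Equiv.Perm GolayPt)) h
    exact ne_one_of_code (rep_decode mul2_valid) (by norm_num) mul2_1 h1

theorem dvd_of_InH {H : Subgroup (Equiv.Perm GolayPt)} {c p i : ℕ} [Fact p.Prime] (h : InH H c)
    (hpow : powC c p = idC) (hi : i < 24) (hne : Nat.beq (ap c i) i = false) :
    p ∣ Nat.card H := by
  obtain ⟨g, hg, hr⟩ := h
  have ho : orderOf g = p :=
    orderOf_eq_prime (pow_eq_one_of_code hr hpow) (ne_one_of_code hr hi hne)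
  have h2 : orderOf (⟨g, hg⟩ : H) = p := by rw [Subgroup.orderOf_mk]; exact ho
  rw [← h2]
  exact orderOf_dvd_natCard _

/-- Elements with the conjugates of `mul2`. -/
def c0 : ℕ := comp (comp 983559143023509422674926022657839392 mul2) 983541744891996863739970616027418880
def c1 : ℕ := comp (comp 978234165870708456321424599439120768 mul2) 980263644199404219412721092339845632
def c2 : ℕ := comp (comp 983356478350996415703930980598485088 mul2) 974461571461124832426925158039598368
def c3 : ℕ := comp (comp 981967399443108749119423733699981408 mul2) 980358087569037451498455586670952640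

theorem order5 : powC (comp c0 c1) 5 = idC := by decide +kernel
theorem order3 : powC (comp c0 c2) 3 = idC := by decide +kernel
theorem orderU : powC (comp (comp c0 c2) c0) 2 = idC := by decide +kernel
theorem orderV : powC (comp (comp c0 c3) c0) 2 = idC := by decide +kernel
theorem commUV : comp (comp (comp c0 c2) c0) (comp (comp c0 c3) c0) =
    comp (comp (comp c0 c3) c0) (comp (comp c0 c2) c0) := by decide +kernel
theorem move5 : Nat.beq (ap (comp c0 c1) 1) 1 = false := by decide +kernel
theorem move3 : Nat.beq (ap (comp c0 c2) 1) 1 = false := by decide +kernel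
theorem moveU : Nat.beq (ap (comp (comp c0 c2) c0) 1) 1 = false := by decide +kernel
theorem moveV : Nat.beq (ap (comp (comp c0 c3) c0) 1) 1 = false := by decide +kernel
theorem neUV : Nat.beq (ap (comp (comp c0 c2) c0) 2) (ap (comp (comp c0 c3) c0) 2) = false := by
  decide +kernel

theorem SD_eq : SD = [c0, c1, c2, c3] := by
  simp only [SD, conjD, List.map_cons, List.map_nil, c0, c1, c2, c3]

theorem rep_mul_comm {g h : Equiv.Perm GolayPt} {a b : ℕ} (hg : Rep g a) (hh : Rep h b)
    (e : comp a b = comp b a) : g * h = h * g := by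
  have h1 := hg.mul hh
  have h2 := hh.mul hg
  rw [e] at h1
  exact rep_unique h1 h2

theorem card_G0 : Nat.card G0 = 660 := card_G3 ds_mem pt0_mem pt23_notMem

theorem eq_top_of_660 (N : Subgroup G0) (h : 660 ∣ Nat.card N) : N = ⊤ := by
  have hle : Nat.card N ≤ 660 := by
    rw [← card_G0]
    exact Subgroup.card_le_card_group N
  have hN0 : 0 < Nat.card N := Nat.card_pos
  have h660 : Nat.card N = 660 := by
    have := Nat.le_of_dvd hN0 h
    omega
  exact Subgroup.eq_top_of_card_eq N (by rw [h660, card_G0])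

theorem eq_top_G0 (N : Subgroup G0) (hN : N.Normal) (hx : x0 ∈ N) : N = ⊤ := by
  classical
  let φ := phi G0
  have hφ : Function.Injective φ := phi_inj G0
  let Np : Subgroup (Equiv.Perm GolayPt) := N.map φ
  have hcard : Nat.card Np = Nat.card N := Nat.card_congr (Subgroup.equivMapOfInjective N φ hφ).symm.toEquiv
  have hlift : ∀ b ∈ fixL M12d [0, 23], ∃ a : G0, φ a = b := by
    intro b hb
    have h0 := hb.2 0 (by simp)
    have h23 := hb.2 23 (by simp)
    exact ⟨⟨⟨b, hb.1.1⟩, ⟨hb.1.2, h0⟩, h23⟩, rfl⟩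
  have hconj : ∀ b ∈ fixL M12d [0, 23], b * decode mul2 * b⁻¹ ∈ Np := by
    intro b hb
    obtain ⟨a, rfl⟩ := hlift b hb
    refine ⟨a * x0 * a⁻¹, hN.conj_mem x0 hx a, ?_⟩
    have hφx : φ x0 = decode mul2 := rfl
    rw [map_mul, map_mul, map_inv, hφx]
  have hS : ∀ c ∈ SD, InH Np c := conj_inH hconj (rep_decode mul2_valid) conjD conjD_spec
  rw [SD_eq] at hS
  have h0 : InH Np c0 := hS _ (List.mem_cons_self)
  have h1 : InH Np c1 := hS _ (List.mem_cons_of_mem _ List.mem_cons_self)
  have h2 : InH Np c2 := hS _ (List.mem_cons_of_mem _ (List.mem_cons_of_mem _ List.mem_cons_self))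
  have h3 : InH Np c3 := hS _ (List.mem_cons_of_mem _ (List.mem_cons_of_mem _
    (List.mem_cons_of_mem _ List.mem_cons_self)))
  have : Fact (Nat.Prime 5) := ⟨by norm_num⟩
  have : Fact (Nat.Prime 3) := ⟨by norm_num⟩
  have : Fact (Nat.Prime 11) := ⟨by norm_num⟩
  have d5 : 5 ∣ Nat.card Np := dvd_of_InH (h0.comp h1) order5 (by norm_num) move5
  have d3 : 3 ∣ Nat.card Np := dvd_of_InH (h0.comp h2) order3 (by norm_num) move3
  have d11 : 11 ∣ Nat.card Np := by
    have : Nat.card Np = Nat.card N := hcard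
    rw [this, ← x0_order]
    have h := orderOf_dvd_natCard (⟨x0, hx⟩ : N)
    rwa [Subgroup.orderOf_mk] at h
  have d4 : 4 ∣ Nat.card Np := by
    obtain ⟨u, hu, hur⟩ := (h0.comp h2).comp h0
    obtain ⟨v, hv, hvr⟩ := (h0.comp h3).comp h0
    have hu2 : u ^ 2 = 1 := pow_eq_one_of_code hur orderU
    have hv2 : v ^ 2 = 1 := pow_eq_one_of_code hvr orderV
    refine four_dvd_card (H := Np) (u := ⟨u, hu⟩) (v := ⟨v, hv⟩) ?_ ?_ ?_ ?_ ?_ ?_
    · apply Subtype.ext
      show u * u = 1
      rwa [pow_two] at hu2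
    · apply Subtype.ext
      show v * v = 1
      rwa [pow_two] at hv2
    · apply Subtype.ext
      exact rep_mul_comm hur hvr commUV
    · intro h
      exact ne_one_of_code hur (by norm_num) moveU (congrArg Subtype.val h)
    · intro h
      exact ne_one_of_code hvr (by norm_num) moveV (congrArg Subtype.val h)
    · intro h
      exact ne_of_code hur hvr (by norm_num) neUV (congrArg Subtype.val h)
  have hcop : 660 ∣ Nat.card Np := by
    generalize Nat.card Np = n at d3 d4 d5 d11
    omega
  rw [hcard] at hcop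
  exact eq_top_of_660 N hcop

theorem G0_d (g : G0) : (g : M24) • ds = ds := g.2.1.1
theorem G0_0 (g : G0) : g • pt 0 = pt 0 := g.2.1.2
theorem G0_23 (g : G0) : g • pt 23 = pt 23 := g.2.2

theorem G0_mem (g : G0) {y : GolayPt} (hy : y ∈ ds) : g • y ∈ ds :=
  stab_mem_d g.2.1.1 hy

theorem g0_simple : IsSimpleGroup ↥G0 := by
  have : Fact (Nat.Prime 11) := ⟨by norm_num⟩
  refine Cfsg.Agent.Lib.JordanSimple.isSimple_of_prime (X := GolayPt) (ds.erase (pt 0))
    ?_ ?_ ?_ (p := 11) ?_ ?_ (x := x0) x0_order eq_top_G0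
  · intro g y hy
    simp only [Finset.mem_erase] at hy ⊢
    refine ⟨fun h => hy.1 ?_, G0_mem g hy.2⟩
    rw [← G0_0 g] at h
    exact smul_left_cancel g h
  · intro g hg
    apply Subtype.ext
    apply Subtype.ext
    have h1 : ∀ y ∈ ds, (g : G0) • y = y := by
      intro y hy
      by_cases h0 : y = pt 0
      · rw [h0]; exact G0_0 g
      · exact hg y (by simp [h0, hy])
    exact eq_one_of_fix_five ds_mem emb5 emb5_mem g.1.2 (G0_d g) (fun i => h1 _ (emb5_mem i))
  · intro y hy z hz w hw v hv hyz hwv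
    simp only [Finset.mem_erase] at hy hz hw hv
    obtain ⟨g, hg, hgd, hg23, hgi⟩ := exists_three_one ds_mem pt23_notMem
      (emb3 (Ne.symm hy.1) (Ne.symm hz.1) hyz) (emb3 (Ne.symm hw.1) (Ne.symm hv.1) hwv)
      (by
        intro i
        fin_cases i
        · exact pt0_mem
        · exact hy.2
        · exact hz.2)
      (by
        intro i
        fin_cases i
        · exact pt0_mem
        · exact hw.2
        · exact hv.2)
    exact ⟨⟨⟨g, hg⟩, ⟨hgd, hgi 0⟩, hg23⟩, hgi 1, hgi 2⟩
  · rw [card_G0]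
    norm_num
  · rw [Finset.card_erase_of_mem pt0_mem, ds_mem.2]

/-- Transport. -/
theorem exists_transport {d : Finset GolayPt} (hd : d ∈ dodecads) {p q : GolayPt} (hp : p ∈ d)
    (hq : q ∉ d) : ∃ g : M24, g • ds = d ∧ g • pt 0 = p ∧ g • pt 23 = q := by
  obtain ⟨a, ha1, ha2⟩ := exists_conj ds_mem hd pt0_mem hp
  have hq' : a⁻¹ • q ∉ ds := by
    intro h
    apply hq
    rw [← ha1]
    have := Finset.smul_mem_smul_finset (a := a) h
    rwa [smul_inv_smul] at this
  have hmem : a⁻¹ • q ∈ orbit ↥(stabilizer M24 ds ⊓ stabilizer M24 (pt 0)) (pt 23) := by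
    rw [orbit_out ds_mem pt0_mem pt23_notMem]
    simpa using hq'
  obtain ⟨⟨b, hb1, hb2⟩, hb⟩ := hmem
  have hb' : b • pt 23 = a⁻¹ • q := hb
  have hb1' : b • ds = ds := hb1
  have hb2' : b • pt 0 = pt 0 := hb2
  refine ⟨a * b, ?_, ?_, ?_⟩
  · rw [mul_smul, hb1', ha1]
  · rw [mul_smul, hb2', ha2]
  · rw [mul_smul, hb', smul_inv_smul]

theorem G3_simple {d : Finset GolayPt} (hd : d ∈ dodecads) {p q : GolayPt} (hp : p ∈ d)
    (hq : q ∉ d) : IsSimpleGroup ↥(G3 d p q) := by
  obtain ⟨g, rfl, rfl, rfl⟩ := exists_transport hd hp hq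
  refine isSimple_map_conj G0 _ g ?_ g0_simple
  show stabilizer M24 (g • ds) ⊓ stabilizer M24 (g • pt 0) ⊓ stabilizer M24 (g • pt 23) = _
  rw [stabilizer_smul_eq_stabilizer_map_conj, stabilizer_smul_eq_stabilizer_map_conj,
    stabilizer_smul_eq_stabilizer_map_conj,
    Subgroup.map_inf _ _ _ (MulAut.conj g).injective,
    Subgroup.map_inf _ _ _ (MulAut.conj g).injective]

/-- In the 3-transitive action of the smallest Mathieu group on the complementary dodecad, a point stabiliser is isomorphic to PSL(2, 11). -/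
theorem result (d : Finset Cfsg.GolayPt) (hd : d ∈ Cfsg.dodecads) (p q : Cfsg.GolayPt) (hp : p ∈ d) (hq : q ∉ d) : Nonempty (↥(MulAction.stabilizer Cfsg.M24 d ⊓ MulAction.stabilizer Cfsg.M24 p ⊓ MulAction.stabilizer Cfsg.M24 q) ≃* Matrix.ProjectiveSpecialLinearGroup (Fin 2) (ZMod 11)) := by
  have : Fact (Nat.Prime 11) := ⟨by norm_num⟩
  have h := G3_simple hd hp hq
  exact Cfsg.Agent.Lib.PSL2RecData.psl11 (card_G3 hd hp hq) (ZMod.card 11)

end Cfsg.Agent.S1601
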