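import Mathlib
import Cfsg.Statements.S1602
import Cfsg.Agent.S1601
import Cfsg.Agent.Lib.M24Orbits

set_option autoImplicit false
set_option maxRecDepth 100000

namespace Cfsg.Agent.S1602

open Cfsg Cfsg.Agent.Lib.Golay Cfsg.Agent.Lib.GolaySift Cfsg.Agent.Lib.M24Facts
  Cfsg.Agent.Lib.DodecadFacts Cfsg.Agent.Lib.MathieuSimple Cfsg.Agent.Lib.M22Simple
  Cfsg.Agent.Lib.M11Simple Cfsg.Agent.Lib.M24Orbits Cfsg.Agent.S1601
open MulAction
open scoped Pointwise

/-- The subgroups of interest. -/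
noncomputable abbrev G4 (d : Finset GolayPt) (p : GolayPt) (s : Finset GolayPt) : Subgroup M24 :=
  stabilizer M24 d ⊓ stabilizer M24 p ⊓ stabilizer M24 s

/-- Two points outside a dodecad move anywhere. -/
theorem exists_two_out {d : Finset GolayPt} (hd : d ∈ dodecads) {p : GolayPt} (hp : p ∈ d)
    {q q' r r' : GolayPt} (hq : q ∉ d) (hq' : q' ∉ d) (hr : r ∉ d) (hr' : r' ∉ d) (hqq' : q ≠ q')
    (hrr' : r ≠ r') : ∃ g ∈ M24, g • d = d ∧ g p = p ∧ g q = r ∧ g q' = r' := by
  have hc := Cfsg.Agent.Lib.OrbPair.compl_mem_dodecads hd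
  have h5 : 5 ≤ (dᶜ : Finset GolayPt).card := by rw [hc.2]; norm_num
  let x : Fin 2 ↪ GolayPt := ⟨![q, q'], by
    intro i j h
    fin_cases i <;> fin_cases j <;> simp_all⟩
  let y : Fin 2 ↪ GolayPt := ⟨![r, r'], by
    intro i j h
    fin_cases i <;> fin_cases j <;> simp_all⟩
  obtain ⟨a, ha, ha0⟩ := exists_emb_extend (k := 2) (by norm_num) h5 x (by
    intro i
    fin_cases i
    · exact Finset.mem_compl.2 hq
    · exact Finset.mem_compl.2 hq')
  obtain ⟨b, hb, hb0⟩ := exists_emb_extend (k := 2) (by norm_num) h5 y (by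
    intro i
    fin_cases i
    · exact Finset.mem_compl.2 hr
    · exact Finset.mem_compl.2 hr')
  let e : Fin 3 ↪ Fin 5 := Fin.castLEEmb (by norm_num)
  obtain ⟨g, hg, hgd, hgp, hgi⟩ := exists_dodecad_point_three hd hp (e.trans a) (e.trans b)
    (fun i => by simpa using ha (e i)) (fun i => by simpa using hb (e i))
  refine ⟨g, hg, hgd, hgp, ?_, ?_⟩
  · have h := hgi 0
    have e1 : (e.trans a) 0 = q := ha0 0
    have e2 : (e.trans b) 0 = r := hb0 0
    rw [e1, e2] at h
    exact h
  · have h := hgi 1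
    have e1 : (e.trans a) 1 = q' := ha0 1
    have e2 : (e.trans b) 1 = r' := hb0 1
    rw [e1, e2] at h
    exact h

theorem smul_pair_eq (g : M24) (q q' : GolayPt) :
    g • ({q, q'} : Finset GolayPt) = {g • q, g • q'} := by
  rw [Finset.smul_finset_insert, Finset.smul_finset_singleton]

/-- The orbit of a pair outside a dodecad. -/
theorem orbit_pair {d : Finset GolayPt} (hd : d ∈ dodecads) {p q q' : GolayPt} (hp : p ∈ d)
    (hq : q ∉ d) (hq' : q' ∉ d) (hqq' : q ≠ q') :
    orbit ↥(stabilizer M24 d ⊓ stabilizer M24 p) ({q, q'} : Finset GolayPt) =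
      ((Finset.powersetCard 2 (dᶜ : Finset GolayPt) : Finset (Finset GolayPt)) :
        Set (Finset GolayPt)) := by
  ext s
  rw [mem_orbit_iff]
  simp only [Finset.mem_coe]
  constructor
  · rintro ⟨⟨g, hg1, hg2⟩, rfl⟩
    have hsmul : (⟨g, hg1, hg2⟩ : ↥(stabilizer M24 d ⊓ stabilizer M24 p)) •
        ({q, q'} : Finset GolayPt) = g • ({q, q'} : Finset GolayPt) := rfl
    rw [hsmul]
    have hnot : ∀ {x : GolayPt}, x ∉ d → g • x ∉ d := by
      intro x hx h
      apply hx
      have h2 := stab_mem_d (g := g⁻¹) (inv_mem hg1) h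
      have h3 : (g⁻¹ : M24) • (g • x) = x := inv_smul_smul g x
      exact h3 ▸ h2
    rw [Finset.mem_powersetCard]
    constructor
    · rw [smul_pair_eq]
      intro x hx
      simp only [Finset.mem_insert, Finset.mem_singleton] at hx
      rcases hx with rfl | rfl
      · exact Finset.mem_compl.2 (hnot hq)
      · exact Finset.mem_compl.2 (hnot hq')
    · rw [Finset.card_smul_finset, Finset.card_pair hqq']
  · intro hs
    rw [Finset.mem_powersetCard] at hs
    obtain ⟨r, r', hrr', rfl⟩ := Finset.card_eq_two.1 hs.2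
    have hr : r ∉ d := Finset.mem_compl.1 (hs.1 (by simp))
    have hr' : r' ∉ d := Finset.mem_compl.1 (hs.1 (by simp))
    obtain ⟨g, hg, hgd, hgp, h1, h2⟩ := exists_two_out hd hp hq hq' hr hr' hqq' hrr'
    refine ⟨⟨⟨g, hg⟩, hgd, hgp⟩, ?_⟩
    show (⟨g, hg⟩ : M24) • ({q, q'} : Finset GolayPt) = _
    rw [smul_pair_eq]
    show ({g q, g q'} : Finset GolayPt) = _
    rw [h1, h2]

theorem card_G4 {d : Finset GolayPt} (hd : d ∈ dodecads) {p q q' : GolayPt} (hp : p ∈ d)
    (hq : q ∉ d) (hq' : q' ∉ d) (hqq' : q ≠ q') : Nat.card ↥(G4 d p {q, q'}) = 120 := by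
  have h := card_eq_orbit_mul_inf (stabilizer M24 d ⊓ stabilizer M24 p)
    ({q, q'} : Finset GolayPt)
  rw [card_stabilizer_dodecad_point hd hp, orbit_pair hd hp hq hq' hqq', Set.ncard_coe_finset,
    Finset.card_powersetCard, (Cfsg.Agent.Lib.OrbPair.compl_mem_dodecads hd).2] at h
  have e : Nat.choose 12 2 = 66 := by decide
  rw [e] at h
  show Nat.card ↥(stabilizer M24 d ⊓ stabilizer M24 p ⊓ stabilizer M24 ({q, q'} : Finset GolayPt)) = 120
  omega

/-! ### the standard group -/

/-- The mask of the five points. -/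
def Tm : ℕ := 2 ^ 3 + 2 ^ 4 + 2 ^ 12 + 2 ^ 13 + 2 ^ 18

/-- The five points. -/
noncomputable def T0 : Finset GolayPt := ofMask Tm

theorem T0_card : T0.card = 5 := by
  rw [T0, card_ofMask]
  decide +kernel

/-- An octad for each of the five points. -/
theorem exists_oct : ∀ i ∈ idxL, Tm.testBit i = true → ∃ m ∈ octL,
    m.testBit 0 = true ∧ m.testBit 23 = true ∧ m.testBit 5 = true ∧ m.testBit i = true ∧
      pop (Nat.land m dsMask) = 2 := by
  decide +kernel

/-- All the octads with this pattern. -/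
theorem oct_check : ∀ m ∈ octL, m.testBit 0 = true → m.testBit 23 = true → m.testBit 5 = true →
    pop (Nat.land m dsMask) = 2 → ∀ i ∈ idxL, m.testBit i = true → dsMask.testBit i = true →
    i = 0 ∨ Tm.testBit i = true := by
  decide +kernel

noncomputable abbrev K0 : Subgroup M24 := G4 ds (pt 0) {pt 23, pt 5}

theorem mem_T0 {x : GolayPt} : x ∈ T0 ↔ Tm.testBit (idx x) = true := mem_ofMask

theorem T0_sub : ∀ i ∈ idxL, Tm.testBit i = true → dsMask.testBit i = true ∧ i ≠ 0 := by
  decide +kernel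

theorem K0_T0 (g : K0) {x : GolayPt} (hx : x ∈ T0) : ((g : M24) : Equiv.Perm GolayPt) x ∈ T0 := by
  set f : Equiv.Perm GolayPt := ((g : M24) : Equiv.Perm GolayPt) with hf
  have hd : f • ds = ds := g.2.1.1
  have h0 : f (pt 0) = pt 0 := g.2.1.2
  have hs : f • ({pt 23, pt 5} : Finset GolayPt) = {pt 23, pt 5} := g.2.2
  have hM : f ∈ M24 := g.1.2
  have hxi : idx x ∈ idxL := mem_idxL.2 (idx_lt x)
  obtain ⟨m, hm, hm0, hm23, hm5, hmx, hmp⟩ := exists_oct _ hxi (mem_T0.1 hx)
  -- the image octad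
  have hoct : f • ofMask m ∈ octads := (smul_mem_octads_iff hM _).2 (ofMask_mem_octads hm)
  have hm' := (mem_octads_iff_list _).1 hoct
  set m' := toMask (f • ofMask m) with hm'def
  have hom' : ofMask m' = f • ofMask m := ofMask_toMask _
  have hmem : ∀ y, m.testBit (idx y) = true → m'.testBit (idx (f y)) = true := by
    intro y hy
    rw [← mem_ofMask, hom', apply_mem_smul, mem_ofMask]
    exact hy
  have hsub : ({pt 23, pt 5} : Finset GolayPt) ⊆ f • ofMask m := by
    rw [← hs]
    refine Finset.smul_finset_subset_smul_finset_iff.2 ?_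
    intro y hy
    simp only [Finset.mem_insert, Finset.mem_singleton] at hy
    rw [mem_ofMask]
    rcases hy with rfl | rfl
    · rw [idx_pt (by norm_num)]; exact hm23
    · rw [idx_pt (by norm_num)]; exact hm5
  have b0 : m'.testBit 0 = true := by
    have := hmem (pt 0) (by rw [idx_pt (by norm_num)]; exact hm0)
    rwa [h0, idx_pt (by norm_num)] at this
  have b23 : m'.testBit 23 = true := by
    have h1 : pt 23 ∈ ofMask m' := by
      rw [hom']
      exact hsub (by simp)
    rw [mem_ofMask, idx_pt (by norm_num)] at h1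
    exact h1
  have b5 : m'.testBit 5 = true := by
    have h1 : pt 5 ∈ ofMask m' := by
      rw [hom']
      exact hsub (by simp)
    rw [mem_ofMask, idx_pt (by norm_num)] at h1
    exact h1
  have hpop : pop (Nat.land m' dsMask) = 2 := by
    rw [← card_inter_ofMask, hom']
    have h1 : (f • ofMask m ∩ f • ofMask dsMask).card = (ofMask m ∩ ofMask dsMask).card :=
      card_smul_inter f _ _
    have hd' : f • ofMask dsMask = ofMask dsMask := hd
    rw [hd'] at h1
    rw [h1, card_inter_ofMask]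
    exact hmp
  have hfx1 : m'.testBit (idx (f x)) = true := hmem x hmx
  have hfx2 : dsMask.testBit (idx (f x)) = true := by
    have hx' : x ∈ ds := by
      rw [ds, mem_ofMask]
      exact (T0_sub _ hxi (mem_T0.1 hx)).1
    have := stab_mem_d g.2.1.1 hx'
    rw [ds, mem_ofMask] at this
    exact this
  rcases oct_check m' hm' b0 b23 b5 hpop _ (mem_idxL.2 (idx_lt _)) hfx1 hfx2 with h | h
  · exfalso
    have h1 : f x = pt 0 := by
      rw [← h, pt_idx]
    rw [← h0] at h1
    have h2 : x = pt 0 := f.injective h1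
    have h3 := (T0_sub _ hxi (mem_T0.1 hx)).2
    rw [h2, idx_pt (by norm_num)] at h3
    exact h3 rfl
  · exact mem_T0.2 h

theorem K0_T0_iff (g : K0) (x : GolayPt) :
    ((g : M24) : Equiv.Perm GolayPt) x ∈ T0 ↔ x ∈ T0 := by
  constructor
  · intro h
    have := K0_T0 g⁻¹ h
    simpa using this
  · exact K0_T0 g

/-- The action on the five points. -/
noncomputable def φ : K0 →* Equiv.Perm {x // x ∈ T0} where
  toFun g := Equiv.Perm.subtypePerm ((g : M24) : Equiv.Perm GolayPt) (K0_T0_iff g)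
  map_one' := rfl
  map_mul' _ _ := rfl

/-- Five indices. -/
def f5 (i : Fin 5) : ℕ := [3, 4, 12, 13, 18].getD i.1 0

theorem f5_lt : ∀ i, f5 i < 24 := by decide
theorem f5_inj : ∀ i j, f5 i = f5 j → i = j := by decide
theorem f5_T : ∀ i, Tm.testBit (f5 i) = true := by decide +kernel

/-- Five points. -/
noncomputable def e5 : Fin 5 ↪ GolayPt :=
  ⟨fun i => pt (f5 i), fun i j h => f5_inj i j (by
    have h2 : idx (pt (f5 i)) = idx (pt (f5 j)) := congrArg idx h
    rwa [idx_pt (f5_lt i), idx_pt (f5_lt j)] at h2)⟩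

theorem φ_inj : Function.Injective φ := by
  rw [injective_iff_map_eq_one]
  intro g hg
  apply Subtype.ext
  apply Subtype.ext
  have h1 : ∀ y ∈ T0, ((g : M24) : Equiv.Perm GolayPt) y = y := by
    intro y hy
    have := congrArg (fun f : Equiv.Perm {x // x ∈ T0} => ((f ⟨y, hy⟩ : {x // x ∈ T0}) : GolayPt)) hg
    exact this
  have h0 : ((g : M24) : Equiv.Perm GolayPt) (pt 0) = pt 0 := g.2.1.2
  have he : ∀ i, e5 i ∈ T0 := fun i => by
    rw [mem_T0]
    show Tm.testBit (idx (pt (f5 i))) = true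
    rw [idx_pt (f5_lt i)]
    exact f5_T i
  have hed : ∀ i, e5 i ∈ ds := by
    intro i
    rw [ds, mem_ofMask]
    exact (T0_sub _ (mem_idxL.2 (idx_lt _)) (mem_T0.1 (he i))).1
  exact eq_one_of_fix_five ds_mem e5 hed g.1.2 g.2.1.1 (fun i => h1 _ (he i))

theorem q5_notMem : pt 5 ∉ ds := by
  rw [ds, mem_ofMask, idx_pt (by norm_num)]
  decide +kernel

theorem pt23_ne_pt5 : pt 23 ≠ pt 5 := by
  intro h
  have := congrArg idx h
  rw [idx_pt (by norm_num), idx_pt (by norm_num)] at this
  omega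

theorem card_K0 : Nat.card K0 = 120 :=
  card_G4 ds_mem pt0_mem pt23_notMem q5_notMem pt23_ne_pt5

theorem φ_bij : Function.Bijective φ := by
  have h : Nat.card {x // x ∈ T0} = 5 := by
    rw [Nat.card_eq_fintype_card, Fintype.card_coe, T0_card]
  have h2 : Nat.card (Equiv.Perm {x // x ∈ T0}) = 120 := by
    rw [Nat.card_perm, h]
    decide
  exact φ_inj.bijective_of_nat_card_le (by rw [h2, card_K0])

theorem K0_equiv : Nonempty (K0 ≃* Equiv.Perm (Fin 5)) := by
  have e1 : K0 ≃* Equiv.Perm {x // x ∈ T0} := MulEquiv.ofBijective φ φ_bij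
  have h : Fintype.card {x // x ∈ T0} = 5 := by
    rw [Fintype.card_coe, T0_card]
  exact ⟨e1.trans (Fintype.equivFinOfCardEq h).permCongrHom⟩

/-- In the 12-point action of the smallest Mathieu group the setwise stabiliser of a pair is isomorphic to the symmetric group of degree 5. -/
theorem result (d : Finset Cfsg.GolayPt) (hd : d ∈ Cfsg.dodecads) (p q q' : Cfsg.GolayPt) (hp : p ∈ d) (hq : q ∉ d) (hq' : q' ∉ d) (hqq' : q ≠ q') : Nonempty (↥(MulAction.stabilizer Cfsg.M24 d ⊓ MulAction.stabilizer Cfsg.M24 p ⊓ MulAction.stabilizer Cfsg.M24 ({q, q'} : Finset Cfsg.GolayPt)) ≃* Equiv.Perm (Fin 5)) := by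
  -- transport
  obtain ⟨a, ha1, ha2, ha3⟩ := exists_transport hd hp hq
  have hq'' : a⁻¹ • q' ∉ ds := by
    intro h
    apply hq'
    rw [← ha1]
    have := Finset.smul_mem_smul_finset (a := a) h
    rwa [smul_inv_smul] at this
  have hne : pt 23 ≠ a⁻¹ • q' := by
    intro h
    apply hqq'
    have h2 : a • pt 23 = a • a⁻¹ • q' := by rw [← h]
    rwa [smul_inv_smul, ha3] at h2
  obtain ⟨b, hb, hbd, hb0, hb1, hb2⟩ := exists_two_out ds_mem pt0_mem pt23_notMem q5_notMem
    pt23_notMem hq'' pt23_ne_pt5 hne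
  let c : M24 := a * ⟨b, hb⟩
  have c1 : c • ds = d := by
    rw [mul_smul]
    show a • (b • ds) = d
    rw [hbd, ha1]
  have c2 : c • pt 0 = p := by
    rw [mul_smul]
    show a • (b (pt 0)) = p
    rw [hb0, ha2]
  have c3 : c • pt 23 = q := by
    rw [mul_smul]
    show a • (b (pt 23)) = q
    rw [hb1, ha3]
  have c4 : c • pt 5 = q' := by
    rw [mul_smul]
    show a • (b (pt 5)) = q'
    rw [hb2, smul_inv_smul]
  obtain ⟨e⟩ := K0_equiv
  have hmap : stabilizer M24 d ⊓ stabilizer M24 p ⊓ stabilizer M24 ({q, q'} : Finset GolayPt) =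
      K0.map (MulAut.conj c).toMonoidHom := by
    rw [← c1, ← c2, ← c3, ← c4, ← smul_pair_eq, stabilizer_smul_eq_stabilizer_map_conj,
      stabilizer_smul_eq_stabilizer_map_conj, stabilizer_smul_eq_stabilizer_map_conj,
      Subgroup.map_inf _ _ _ (MulAut.conj c).injective,
      Subgroup.map_inf _ _ _ (MulAut.conj c).injective]
  rw [hmap]
  exact ⟨((MulAut.conj c).subgroupMap K0).symm.trans e⟩

end Cfsg.Agent.S1602
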