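import Mathlib
import Cfsg.Statements.S1603
import Cfsg.Agent.Lib.M11Cent
import Cfsg.Agent.Lib.DodecadQuartets

set_option autoImplicit false
open Cfsg

namespace Cfsg.Agent.S1603

open Cfsg.Agent.Lib.Golay Cfsg.Agent.Lib.M11Chain Cfsg.Agent.Lib.M11Cent Cfsg.Agent.Lib.M11Data
open Cfsg.Agent.Lib.DodecadFacts Cfsg.Agent.Lib.DodecadQuartets Cfsg.Agent.Lib.M24Orbits

open scoped Pointwise

theorem mem_of_smul_eq {y : Equiv.Perm GolayPt} {d : Finset GolayPt} (h : y • d = d) {q : GolayPt}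
    (hq : q ∈ d) : y q ∈ d := by
  rw [← h]
  exact (apply_mem_smul _ _ _).2 hq

/-- an involution fixes at most three further points -/
theorem card_fix_le {d : Finset GolayPt} (hd : d ∈ dodecads) {p : GolayPt} (hp : p ∈ d)
    {y : Equiv.Perm GolayPt} (hy : y ∈ M24) (hyd : y • d = d) (hyp : y p = p) (hne : y ≠ 1) :
    ((d.erase p).filter fun q => y q = q).card ≤ 3 := by
  by_contra hcon
  push Not at hcon
  obtain ⟨T, hT, hT4⟩ := Finset.exists_subset_card_eq (show 4 ≤ _ from hcon)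
  have hpT : p ∉ T := fun h => by
    have := (Finset.mem_filter.1 (hT h)).1
    simp at this
  have hcard : (insert p T).card = 5 := by rw [Finset.card_insert_of_notMem hpT, hT4]
  let x : Fin 5 ↪ GolayPt := ⟨fun i => (((insert p T).equivFinOfCardEq hcard).symm i : GolayPt), fun i j h => by
    simpa using Subtype.ext h⟩
  have hxin : ∀ i, x i ∈ insert p T := fun i => (((insert p T).equivFinOfCardEq hcard).symm i).2
  apply hne
  apply eq_one_of_fix_five hd x _ hy hyd
  · intro i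
    rcases Finset.mem_insert.1 (hxin i) with h | h
    · rw [h, hyp]
    · exact (Finset.mem_filter.1 (hT h)).2
  · intro i
    rcases Finset.mem_insert.1 (hxin i) with h | h
    · rw [h]; exact hp
    · exact Finset.mem_of_mem_erase (Finset.mem_filter.1 (hT h)).1

/-- two swapped pairs -/
theorem exists_pairs {d : Finset GolayPt} (hd : d ∈ dodecads) {p : GolayPt} (hp : p ∈ d)
    {y : Equiv.Perm GolayPt} (hy : y ∈ M24) (hyd : y • d = d) (hyp : y p = p) (h2 : y * y = 1)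
    (hne : y ≠ 1) :
    ∃ a b c e : GolayPt, a ∈ d ∧ b ∈ d ∧ c ∈ d ∧ e ∈ d ∧ p ≠ a ∧ p ≠ b ∧ p ≠ c ∧ p ≠ e ∧ a ≠ b ∧ a ≠ c ∧ a ≠ e ∧
      b ≠ c ∧ b ≠ e ∧ c ≠ e ∧ y a = b ∧ y b = a ∧ y c = e ∧ y e = c := by
  have h2' : ∀ q, y (y q) = q := fun q => by
    have := congrArg (fun f => f q) h2
    simpa using this
  have hfix := card_fix_le hd hp hy hyd hyp hne
  have hsum := Finset.card_filter_add_card_filter_not (s := d.erase p) (fun q => y q = q)
  have herase : (d.erase p).card = 11 := by rw [Finset.card_erase_of_mem hp, hd.2]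
  set Mv := (d.erase p).filter (fun q => ¬ y q = q) with hMv
  have hMvc : 8 ≤ Mv.card := by omega
  have hmv : ∀ q ∈ Mv, q ∈ d ∧ q ≠ p ∧ y q ≠ q := by
    intro q hq
    obtain ⟨h1, h3⟩ := Finset.mem_filter.1 hq
    exact ⟨Finset.mem_of_mem_erase h1, Finset.ne_of_mem_erase h1, h3⟩
  obtain ⟨a, ha⟩ : Mv.Nonempty := Finset.card_pos.1 (by omega)
  obtain ⟨ha1, ha2, ha3⟩ := hmv a ha
  have hle : ({a, y a} : Finset GolayPt).card ≤ 2 := Finset.card_le_two
  obtain ⟨c, hc, hc'⟩ : ∃ c, c ∈ Mv ∧ c ∉ ({a, y a} : Finset GolayPt) :=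
    Finset.exists_mem_notMem_of_card_lt_card (by omega)
  simp only [Finset.mem_insert, Finset.mem_singleton, not_or] at hc'
  obtain ⟨hc1, hc2, hc3⟩ := hmv c hc
  have hinj := y.injective
  have hpy : ∀ q, q ≠ p → p ≠ y q := by
    intro q hq e
    apply hq
    apply hinj
    rw [← e, hyp]
  refine ⟨a, y a, c, y c, ha1, mem_of_smul_eq hyd ha1, hc1, mem_of_smul_eq hyd hc1, ha2.symm, hpy a ha2,
    hc2.symm, hpy c hc2, ha3.symm, (Ne.symm hc'.1), ?_, (Ne.symm hc'.2), ?_, hc3.symm, rfl, h2' a, rfl, h2' c⟩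
  · intro e
    apply hc'.2
    rw [e, h2']
  · intro e
    apply hc'.1
    exact hinj e.symm

/-- two involutions of the point stabiliser are conjugate -/
theorem conj_involutions {d : Finset GolayPt} (hd : d ∈ dodecads) {p : GolayPt} (hp : p ∈ d)
    {y z : Equiv.Perm GolayPt} (hy : y ∈ M24) (hyd : y • d = d) (hyp : y p = p) (hy2 : y * y = 1)
    (hyne : y ≠ 1) (hz : z ∈ M24) (hzd : z • d = d) (hzp : z p = p) (hz2 : z * z = 1)
    (hzne : z ≠ 1) : ∃ g ∈ M24, g • d = d ∧ g p = p ∧ g * y * g⁻¹ = z := by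
  obtain ⟨a, b, c, e, ha, hb, hc, he, h1, h2, h3, h4, h5, h6, h7, h8, h9, h10, e1, e2, e3, e4⟩ :=
    exists_pairs hd hp hy hyd hyp hy2 hyne
  obtain ⟨a', b', c', e', ha', hb', hc', he', h1', h2', h3', h4', h5', h6', h7', h8', h9', h10', e1', e2', e3', e4'⟩ :=
    exists_pairs hd hp hz hzd hzp hz2 hzne
  let x1 := emb5 h1 h2 h3 h4 h5 h6 h7 h8 h9 h10
  let x2 := emb5 h1' h2' h3' h4' h5' h6' h7' h8' h9' h10'
  have hx1 : ∀ i, x1 i ∈ d := by
    intro i
    fin_cases i
    · exact hp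
    · exact ha
    · exact hb
    · exact hc
    · exact he
  have hx2 : ∀ i, x2 i ∈ d := by
    intro i
    fin_cases i
    · exact hp
    · exact ha'
    · exact hb'
    · exact hc'
    · exact he'
  obtain ⟨g, hg, hgd, hgx⟩ := exists_dodecad_five hd x1 x2 hx1 hx2
  have g0 : g p = p := hgx 0
  have g1 : g a = a' := hgx 1
  have g2 : g b = b' := hgx 2
  have g3 : g c = c' := hgx 3
  have g4 : g e = e' := hgx 4
  have ginv : ∀ {u v : GolayPt}, g u = v → g⁻¹ v = u := fun {u v} h => by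
    rw [← h]; simp
  refine ⟨g, hg, hgd, g0, ?_⟩
  have hf : g * y * g⁻¹ * z = 1 := by
    apply eq_one_of_fix_five hd x2 hx2 (M24.mul_mem (conj_mem_M24 hg hy) hz)
    · rw [mul_smul, hzd, mul_smul, mul_smul]
      rw [show g⁻¹ • d = d by rw [inv_smul_eq_iff, hgd], hyd, hgd]
    · intro i
      fin_cases i
      · show (g * y * g⁻¹ * z) p = p
        simp only [Equiv.Perm.mul_apply]
        rw [hzp, ginv g0, hyp, g0]
      · show (g * y * g⁻¹ * z) a' = a'
        simp only [Equiv.Perm.mul_apply]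
        rw [e1', ginv g2, e2, g1]
      · show (g * y * g⁻¹ * z) b' = b'
        simp only [Equiv.Perm.mul_apply]
        rw [e2', ginv g1, e1, g2]
      · show (g * y * g⁻¹ * z) c' = c'
        simp only [Equiv.Perm.mul_apply]
        rw [e3', ginv g4, e4, g3]
      · show (g * y * g⁻¹ * z) e' = e'
        simp only [Equiv.Perm.mul_apply]
        rw [e4', ginv g3, e3, g4]
  have : g * y * g⁻¹ = z⁻¹ := eq_inv_of_mul_eq_one_left hf
  rw [this]
  exact inv_eq_of_mul_eq_one_left hz2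

theorem cent_range {A G : Type*} [Group A] [Group G] {z : A} (ι : A →* G) (h : Function.Injective ι)
    (hz : ∀ a, a * z = z * a)
    (r : ∀ g, g ∈ Subgroup.centralizer ({ι z} : Set G) → ∃ a, ι a = g) :
    Nonempty (A ≃* Subgroup.centralizer ({ι z} : Set G)) := by
  refine ⟨MulEquiv.ofBijective (ι.codRestrict _ ?_) ⟨?_, ?_⟩⟩
  · intro a
    rw [Subgroup.mem_centralizer_singleton_iff, ← map_mul, ← map_mul, hz]
  · intro a b hab
    exact h (congrArg Subtype.val hab)
  · rintro ⟨g, hg⟩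
    obtain ⟨a, rfl⟩ := r g hg
    exact ⟨a, rfl⟩

theorem tau_M11 : decode tau ∈ Cfsg.Spor.M11 := by
  rw [← iotaH_zA]
  exact iotaH_mem _

theorem zA_sq : zA * zA = 1 := by
  apply Units.ext
  ext i j
  fin_cases i <;> fin_cases j <;> simp [zA, Matrix.mul_apply, Fin.sum_univ_two] <;> decide

theorem zA_ne : zA ≠ 1 := by
  intro h
  have h1 := congrArg (fun M : A => (M : Matrix (Fin 2) (Fin 2) (ZMod 3)) 0 0) h
  simp [zA] at h1
  exact absurd h1 (by decide)

theorem tau_sq : decode tau * decode tau = 1 := by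
  rw [← iotaH_zA, ← map_mul, zA_sq, map_one]

theorem tau_ne : decode tau ≠ 1 := by
  rw [← iotaH_zA]
  intro h
  exact zA_ne (iotaH_injective (by rw [h, map_one]))

theorem dod_mem : ofMask dod ∈ dodecads := ofMask_mem_dodecads (by decide +kernel)

theorem pt0_mem : pt 0 ∈ ofMask dod := (pt_mem_ofMask (by norm_num)).2 (by decide +kernel)

/-- Involution centralisers in the smallest Mathieu group are isomorphic to GL(2, 3). -/
theorem result (d : Finset Cfsg.GolayPt) (hd : d ∈ Cfsg.dodecads) (p : Cfsg.GolayPt) (hp : p ∈ d) (x : ↥(MulAction.stabilizer Cfsg.M24 d ⊓ MulAction.stabilizer Cfsg.M24 p)) (hx : orderOf x = 2) : Nonempty (↥(Subgroup.centralizer ({x} : Set ↥(MulAction.stabilizer Cfsg.M24 d ⊓ MulAction.stabilizer Cfsg.M24 p))) ≃* GL (Fin 2) (ZMod 3)) := by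
  -- the involution as a permutation
  set y : Equiv.Perm GolayPt := ((x : ↥Cfsg.M24) : Equiv.Perm GolayPt) with hy
  have hyM : y ∈ M24 := (x : ↥Cfsg.M24).2
  have hyd : y • d = d := x.2.1
  have hyp : y p = p := x.2.2
  have hy2 : y * y = 1 := by
    have h1 : x ^ 2 = 1 := by rw [← hx]; exact pow_orderOf_eq_one x
    have h2 := congrArg (fun u : ↥(MulAction.stabilizer Cfsg.M24 d ⊓ MulAction.stabilizer Cfsg.M24 p) =>
      ((u : ↥Cfsg.M24) : Equiv.Perm GolayPt)) h1
    simpa [pow_two] using h2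
  have hyne : y ≠ 1 := by
    intro h
    have h1 : x = 1 := Subtype.ext (Subtype.ext h)
    rw [h1, orderOf_one] at hx
    norm_num at hx
  -- the conjugating element
  obtain ⟨k0, hk0, hk0d⟩ := exists_smul_dodecad dod_mem hd
  have hx1 : ∀ i : Fin 1, (⟨fun _ => k0 (pt 0), fun i j _ => Subsingleton.elim i j⟩ : Fin 1 ↪ GolayPt) i ∈ d :=
    fun _ => by
      rw [← hk0d]
      exact (apply_mem_smul _ _ _).2 pt0_mem
  obtain ⟨k1, hk1, hk1d, hk1x⟩ := exists_dodecad_le (by norm_num) hd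
    (⟨fun _ => k0 (pt 0), fun i j _ => Subsingleton.elim i j⟩ : Fin 1 ↪ GolayPt)
    (⟨fun _ => p, fun i j _ => Subsingleton.elim i j⟩ : Fin 1 ↪ GolayPt) hx1 (fun _ => hp)
  have hk1x' : k1 (k0 (pt 0)) = p := hk1x 0
  set k2 := k1 * k0 with hk2
  have hk2M : k2 ∈ M24 := M24.mul_mem hk1 hk0
  have hk2d : k2 • ofMask dod = d := by rw [hk2, mul_smul, hk0d, hk1d]
  have hk2p : k2 (pt 0) = p := hk1x'
  have hk2inv : k2⁻¹ p = pt 0 := by rw [← hk2p]; simp
  have hk2invd : k2⁻¹ • d = ofMask dod := by rw [← hk2d, inv_smul_smul]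
  -- conjugate to the base
  have hb := (mem_M11_iff _).1 tau_M11
  set y0 := k2⁻¹ * y * k2 with hy0
  have hy0M : y0 ∈ M24 := M24.mul_mem (M24.mul_mem (M24.inv_mem hk2M) hyM) hk2M
  have hy0d : y0 • ofMask dod = ofMask dod := by
    rw [hy0, mul_smul, mul_smul, hk2d, hyd, hk2invd]
  have hy0p : y0 (pt 0) = pt 0 := by
    simp only [hy0, Equiv.Perm.mul_apply]
    rw [hk2p, hyp, hk2inv]
  have hy02 : y0 * y0 = 1 := by
    have : y0 * y0 = k2⁻¹ * (y * y) * k2 := by simp only [hy0]; group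
    rw [this, hy2]
    group
  have hy0ne : y0 ≠ 1 := by
    intro h
    apply hyne
    have : y = k2 * y0 * k2⁻¹ := by simp only [hy0]; group
    rw [this, h]
    group
  obtain ⟨g, hg, hgd, hgp, hgc⟩ := conj_involutions dod_mem pt0_mem hb.1 hb.2.1 hb.2.2 tau_sq tau_ne
    hy0M hy0d hy0p hy02 hy0ne
  set k := k2 * g with hk
  have hkM : k ∈ M24 := M24.mul_mem hk2M hg
  have hkd : k • ofMask dod = d := by rw [hk, mul_smul, hgd, hk2d]
  have hkp : k (pt 0) = p := by
    rw [hk, Equiv.Perm.mul_apply, hgp, hk2p]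
  have hkinvd : k⁻¹ • d = ofMask dod := by rw [← hkd, inv_smul_smul]
  have hkinvp : k⁻¹ p = pt 0 := by rw [← hkp]; simp
  have hkt : k * decode tau * k⁻¹ = y := by
    have : k * decode tau * k⁻¹ = k2 * (g * decode tau * g⁻¹) * k2⁻¹ := by simp only [hk]; group
    rw [this, hgc]
    simp only [hy0]
    group
  -- the homomorphism
  have hmem : ∀ M : A, k * iotaH M * k⁻¹ ∈ M24 := fun M =>
    conj_mem_M24 hkM ((mem_M11_iff _).1 (iotaH_mem M)).1
  have hmem2 : ∀ M : A, (⟨k * iotaH M * k⁻¹, hmem M⟩ : ↥Cfsg.M24) ∈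
      MulAction.stabilizer Cfsg.M24 d ⊓ MulAction.stabilizer Cfsg.M24 p := by
    intro M
    obtain ⟨_, h2, h3⟩ := (mem_M11_iff _).1 (iotaH_mem M)
    constructor
    · show (k * iotaH M * k⁻¹) • d = d
      rw [← hkd]
      exact conj_smul k _ h2
    · show (k * iotaH M * k⁻¹) p = p
      rw [← hkp]
      exact conj_apply k _ h3
  let ι : A →* ↥(MulAction.stabilizer Cfsg.M24 d ⊓ MulAction.stabilizer Cfsg.M24 p) :=
    MonoidHom.mk' (fun M => ⟨⟨k * iotaH M * k⁻¹, hmem M⟩, hmem2 M⟩) (by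
      intro M N
      apply Subtype.ext
      apply Subtype.ext
      show k * iotaH (M * N) * k⁻¹ = k * iotaH M * k⁻¹ * (k * iotaH N * k⁻¹)
      rw [map_mul]
      group)
  have hιz : ι zA = x := by
    apply Subtype.ext
    apply Subtype.ext
    show k * iotaH zA * k⁻¹ = y
    rw [iotaH_zA, hkt]
  have hinj : Function.Injective ι := by
    intro M N h
    have h1 : k * iotaH M * k⁻¹ = k * iotaH N * k⁻¹ := congrArg (fun u : ↥(MulAction.stabilizer Cfsg.M24 d ⊓ MulAction.stabilizer Cfsg.M24 p) => ((u : ↥Cfsg.M24) : Equiv.Perm GolayPt)) h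
    apply iotaH_injective
    simpa using h1
  have hr : ∀ c, c ∈ Subgroup.centralizer ({ι zA} : Set ↥(MulAction.stabilizer Cfsg.M24 d ⊓ MulAction.stabilizer Cfsg.M24 p)) → ∃ a, ι a = c := by
    intro c hc
    rw [Subgroup.mem_centralizer_singleton_iff, hιz] at hc
    set c' : Equiv.Perm GolayPt := ((c : ↥Cfsg.M24) : Equiv.Perm GolayPt) with hc'
    have hcc : c' * y = y * c' := by
      have := congrArg (fun u : ↥(MulAction.stabilizer Cfsg.M24 d ⊓ MulAction.stabilizer Cfsg.M24 p) =>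
        ((u : ↥Cfsg.M24) : Equiv.Perm GolayPt)) hc
      exact this
    have hcM : c' ∈ M24 := (c : ↥Cfsg.M24).2
    have hcd : c' • d = d := c.2.1
    have hcp : c' p = p := c.2.2
    have hm : k⁻¹ * c' * k ∈ Cfsg.Spor.M11 := by
      rw [mem_M11_iff]
      refine ⟨M24.mul_mem (M24.mul_mem (M24.inv_mem hkM) hcM) hkM, ?_, ?_⟩
      · rw [mul_smul, mul_smul, hkd, hcd, hkinvd]
      · simp only [Equiv.Perm.mul_apply]
        rw [hkp, hcp, hkinvp]
    have hcomm : (k⁻¹ * c' * k) * decode tau = decode tau * (k⁻¹ * c' * k) := by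
      have e1 : decode tau = k⁻¹ * y * k := by
        rw [← hkt]; group
      rw [e1]
      calc k⁻¹ * c' * k * (k⁻¹ * y * k) = k⁻¹ * (c' * y) * k := by group
        _ = k⁻¹ * (y * c') * k := by rw [hcc]
        _ = k⁻¹ * y * k * (k⁻¹ * c' * k) := by group
    obtain ⟨M, hM⟩ := exists_iotaH hm hcomm
    refine ⟨M, ?_⟩
    apply Subtype.ext
    apply Subtype.ext
    show k * iotaH M * k⁻¹ = c'
    rw [hM]
    group
  obtain ⟨e⟩ := cent_range ι hinj zA_comm hr
  rw [hιz] at e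
  exact ⟨e.symm⟩

end Cfsg.Agent.S1603
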