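import Mathlib
import Cfsg.Statements.S1606
import Cfsg.Agent.Lib.SylowCount
import Cfsg.Agent.Lib.MathieuSimple

set_option autoImplicit false
set_option maxRecDepth 100000

namespace Cfsg.Agent.S1606

open Cfsg Cfsg.Agent.Lib.Golay Cfsg.Agent.Lib.GolaySift
  Cfsg.Agent.Lib.MathieuSimple Cfsg.Agent.Lib.SylowCount Cfsg.Agent.Lib.M24Facts Subgroup

/-- The code of `t ↦ 2 t`. -/
def zc : ℕ := 983435072843990828779021698901151808
/-- An element of order 5 normalising it. -/
def wc : ℕ := 970459361523271695787015306425278496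
/-- An element of order 4 normalising the last. -/
def tc : ℕ := 961446358753518740900183265768052896
/-- A base change. -/
def kc : ℕ := 963266834631694156771012806248207392
def kic : ℕ := 961200366507855262704536437108495392

noncomputable def z : Equiv.Perm GolayPt := decode zc
noncomputable def w : Equiv.Perm GolayPt := decode wc
noncomputable def t : Equiv.Perm GolayPt := decode tc
noncomputable def κ : Equiv.Perm GolayPt := decode kc

theorem zc_m : isM24 zc = true := by decide +kernel
theorem wc_m : isM24 wc = true := by decide +kernel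
theorem tc_m : isM24 tc = true := by decide +kernel
theorem kc_m : isM24 kc = true := by decide +kernel

theorem rz : Rep z zc := rep_decode (isM24_valid zc_m)
theorem rw' : Rep w wc := rep_decode (isM24_valid wc_m)
theorem rt : Rep t tc := rep_decode (isM24_valid tc_m)
theorem rk : Rep κ kc := rep_decode (isM24_valid kc_m)
theorem rki : Rep κ⁻¹ kic := rk.inv (by decide +kernel)

theorem fixAll : ∀ c ∈ [zc, wc, tc, kc], ap c 0 = 0 ∧ ap c 23 = 23 := by decide +kernel

/-- The ambient group. -/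
abbrev M22p : Subgroup (Equiv.Perm GolayPt) := G [0, 23]

theorem mem_M22p_of {g : Equiv.Perm GolayPt} {c : ℕ} (hm : g ∈ M24) (hr : Rep g c)
    (h : ap c 0 = 0 ∧ ap c 23 = 23) : g ∈ M22p := by
  refine ⟨hm, fun i hi => ?_⟩
  simp only [List.mem_cons, List.not_mem_nil, or_false] at hi
  rcases hi with rfl | rfl
  · rw [hr.apply_pt (by norm_num), h.1]
  · rw [hr.apply_pt (by norm_num), h.2]

theorem z_mem : z ∈ M22p := mem_M22p_of (decode_mem_M24 zc_m) rz (fixAll _ (by simp))
theorem w_mem : w ∈ M22p := mem_M22p_of (decode_mem_M24 wc_m) rw' (fixAll _ (by simp))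
theorem t_mem : t ∈ M22p := mem_M22p_of (decode_mem_M24 tc_m) rt (fixAll _ (by simp))
theorem κ_mem : κ ∈ M22p := mem_M22p_of (decode_mem_M24 kc_m) rk (fixAll _ (by simp))

instance : Fact (Nat.Prime 11) := ⟨by norm_num⟩
instance : Fact (Nat.Prime 5) := ⟨by norm_num⟩
instance : Fact (Nat.Prime 7) := ⟨by norm_num⟩

theorem z_order : orderOf z = 11 :=
  orderOf_eq_prime (pow_eq_one_of_code rz (by decide +kernel))
    (ne_one_of_code rz (i := 1) (by norm_num) (by decide +kernel))

theorem w_order : orderOf w = 5 :=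
  orderOf_eq_prime (pow_eq_one_of_code rw' (by decide +kernel))
    (ne_one_of_code rw' (i := 2) (by norm_num) (by decide +kernel))

theorem t_order : orderOf t = 4 := by
  have h1 : t ^ 4 = 1 := pow_eq_one_of_code rt (by decide +kernel)
  have h2 : t ^ 2 ≠ 1 := ne_one_of_code (rep_pow rt 2) (i := 2) (by norm_num) (by decide +kernel)
  exact orderOf_eq_prime_pow (p := 2) (n := 1) (hp := ⟨by norm_num⟩) (by simpa using h2) (by simpa using h1)

theorem zt_order : orderOf (z * t) = 7 :=
  orderOf_eq_prime (pow_eq_one_of_code (rz.mul rt) (by decide +kernel))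
    (ne_one_of_code (rz.mul rt) (i := 1) (by norm_num) (by decide +kernel))

theorem conj_of_codes {a x : Equiv.Perm GolayPt} {ac xc : ℕ} (ha : Rep a ac) (hx : Rep x xc) {k : ℕ}
    (h : comp ac xc = comp (powC xc k) ac) : a * x * a⁻¹ = x ^ k := by
  have h1 := ha.mul hx
  have h2 := (rep_pow hx k).mul ha
  rw [h] at h1
  have h3 := rep_unique h1 h2
  rw [h3]
  group

theorem w_norm : w ∈ normalizer ((zpowers z : Subgroup _) : Set (Equiv.Perm GolayPt)) :=
  mem_normalizer_zpowers (isOfFinOrder_of_finite w)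
    (conj_of_codes (k := 3) rw' rz (by decide +kernel))

theorem t_norm : t ∈ normalizer ((zpowers w : Subgroup _) : Set (Equiv.Perm GolayPt)) :=
  mem_normalizer_zpowers (isOfFinOrder_of_finite t)
    (conj_of_codes (k := 2) rt rw' (by decide +kernel))

/-! ### A semi-conjugation check -/

/-- `c` semi-conjugates `a` to `b`. -/
def agree (c a b : ℕ) : Bool := idxL.all fun i => Nat.beq (ap c (ap a i)) (ap b (ap c i))

theorem agree_of_rep {g x y : Equiv.Perm GolayPt} {c a b : ℕ} (hg : Rep g c) (hx : Rep x a)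
    (hy : Rep y b) (h : g * x = y * g) : agree c a b = true := by
  simp only [agree, List.all_eq_true]
  intro i hi
  have hi' : i < 24 := mem_idxL.1 hi
  have e := congrArg (fun f : Equiv.Perm GolayPt => idx (f (pt i))) h
  simp only [Equiv.Perm.mul_apply] at e
  rw [hg, hx, idx_pt hi', hy, hg, idx_pt hi'] at e
  rw [e]
  simp

/-- Agreement with a five-point base gives an element in the table. -/
theorem exists_s48 {g u : Equiv.Perm GolayPt} (hg : g ∈ M24) (hu : u ∈ M24)
    (h : ∀ i ∈ [3, 2, 1, 0, 23], u (pt i) = g (pt i)) : ∃ s ∈ S48L, g = u * decode s := by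
  have hmem : u⁻¹ * g ∈ G [3, 2, 1, 0, 23] := by
    refine ⟨M24.mul_mem (M24.inv_mem hu) hg, fun i hi => ?_⟩
    rw [Equiv.Perm.mul_apply, Equiv.Perm.inv_eq_iff_eq, h i hi]
  obtain ⟨s, hs, hse⟩ := mem_S48L hmem
  refine ⟨s, hs, ?_⟩
  rw [← hse]
  group

/-! ### The normaliser of `z` -/

/-- Table: `(k, a, t, z ^ k)`. -/
def TZ : List (ℕ × ℕ × ℕ × ℕ) := [(1,1,984818244535754528103549039458486304,983435072843990828779021698901151808),(2,1,970207418657585019964044073489436704,980668730378935070469623699575545984),(3,1,974290087754762872244937613357752352,975166140090675008210365318152896768),(4,1,979080783356058339553918300584296480,965063883269089610517257152230401536),(5,1,958886985940186861104546595104793632,973782968399780250007192978068752672),(6,1,969162512960574734752157998621673504,962298451038133363011374430748423744),(7,1,975229405062506243660579430937474080,969184212989482915311201746032266656),(8,1,975444682373745342507083094229716000,9820519011531240727066483115009373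12),(9,1,983225740004867797323495035908986912,977903326592794432676351619257413824),(10,1,968497364414281704699213475654938656,970567384681219435340729552166356352),(1,5,958713098370447795567603361734174880,983435072843990828779021698901151808),(2,5,958486292453404441217952570118197408,980668730378935070469623699575545984),(3,5,963217270245949412522116973052183712,975166140090675008210365318152896768),(4,5,984560931332533020390848899978833056,965063883269089610517257152230401536),(5,5,968860385493050892859023844787738784,973782968399780250007192978068752672),(6,5,980338006920410166271535680217011360,962298451038133363011374430748423744),(7,5,967757594294375661767288996036431008,969184212989482915311201746032266656),(8,5,978000609888134309792934700162202784,982051901153124072706648311500937312),(9,5,975527542628245920848875993782983840,977903326592794432676351619257413824),(10,5,971780343686202792019110789688899744,970567384681219435340729552166356352)]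

/-- The membership in `⟨w⟩`. -/
def inW (c : ℕ) : Bool := (List.range 5).any fun i => Nat.beq c (powC wc i)

def checkZ : Bool :=
  TZ.all fun e => isM24 e.2.2.1 && Nat.beq (ap e.2.2.1 23) 23 && Nat.beq (ap e.2.2.1 0) 0 &&
    Nat.beq (ap e.2.2.1 1) e.2.1 && Nat.beq (ap e.2.2.1 2) (ap e.2.2.2 e.2.1) &&
    Nat.beq (ap e.2.2.1 3) (ap (powC e.2.2.2 8) e.2.1) && Nat.beq e.2.2.2 (powC zc e.1) &&
    S48L.all fun s => !(agree (comp e.2.2.1 s) zc e.2.2.2) || inW (comp e.2.2.1 s)

theorem checkZ_ok : checkZ = true := by decide +kernel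

theorem TZ_cover : ∀ k ∈ List.range 11, k ≠ 0 → ∀ a ∈ [1, 5], ∃ e ∈ TZ, e.1 = k ∧ e.2.1 = a := by
  decide +kernel

theorem point_cover : ∀ i ∈ idxL, i ≠ 0 → i ≠ 23 → ∃ m ∈ List.range 11, ∃ a ∈ [1, 5],
    ap (powC zc m) a = i := by
  decide +kernel

theorem ap_z_1 : ap zc 1 = 2 := by decide +kernel
theorem ap_z8_1 : ap (powC zc 8) 1 = 3 := by decide +kernel

theorem step_Z {g : Equiv.Perm GolayPt} (hg : g ∈ M22p) {a k : ℕ} (ha : a ∈ [1, 5])
    (hk : k ∈ List.range 11) (hk0 : k ≠ 0) (h1 : g (pt 1) = pt a) (hc : g * z = z ^ k * g) :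
    ∃ i ∈ List.range 5, g = w ^ i := by
  obtain ⟨e, he, he1, he2⟩ := TZ_cover k hk hk0 a ha
  have hchk := checkZ_ok
  simp only [checkZ, List.all_eq_true, Bool.and_eq_true] at hchk
  obtain ⟨⟨⟨⟨⟨⟨⟨h3, h4⟩, h5⟩, h6⟩, h7⟩, h8⟩, h9⟩, h10⟩ := hchk e he
  rw [he2] at h6 h7 h8
  rw [he1] at h9
  have hzk : e.2.2.2 = powC zc k := Nat.eq_of_beq_eq_true h9
  have hrzk : Rep (z ^ k) e.2.2.2 := by
    rw [hzk]
    exact rep_pow rz k
  have ha24 : a < 24 := by
    simp only [List.mem_cons, List.not_mem_nil, or_false] at ha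
    omega
  have hu : Rep (decode e.2.2.1) e.2.2.1 := rep_decode (isM24_valid h3)
  have hz1 : z (pt 1) = pt 2 := by rw [rz.apply_pt (by norm_num), ap_z_1]
  have hz8 : (z ^ 8) (pt 1) = pt 3 := by
    rw [(rep_pow rz 8).apply_pt (by norm_num), ap_z8_1]
  have hsc : SemiconjBy g z (z ^ k) := hc
  have hsc8 : g * z ^ 8 = (z ^ k) ^ 8 * g := (hsc.pow_right 8).eq
  have hg2 : g (pt 2) = pt (ap e.2.2.2 a) := by
    rw [← hz1]
    have := congrArg (fun f : Equiv.Perm GolayPt => f (pt 1)) hc
    simp only [Equiv.Perm.mul_apply] at this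
    rw [this, h1, hrzk.apply_pt ha24]
  have hg3 : g (pt 3) = pt (ap (powC e.2.2.2 8) a) := by
    rw [← hz8]
    have := congrArg (fun f : Equiv.Perm GolayPt => f (pt 1)) hsc8
    simp only [Equiv.Perm.mul_apply] at this
    rw [this, h1, (rep_pow hrzk 8).apply_pt ha24]
  have hag : ∀ i ∈ [3, 2, 1, 0, 23], decode e.2.2.1 (pt i) = g (pt i) := by
    intro i hi
    simp only [List.mem_cons, List.not_mem_nil, or_false] at hi
    rcases hi with rfl | rfl | rfl | rfl | rfl
    · rw [hu.apply_pt (by norm_num), Nat.eq_of_beq_eq_true h8, hg3]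
    · rw [hu.apply_pt (by norm_num), Nat.eq_of_beq_eq_true h7, hg2]
    · rw [hu.apply_pt (by norm_num), Nat.eq_of_beq_eq_true h6, h1]
    · rw [hu.apply_pt (by norm_num), Nat.eq_of_beq_eq_true h5, hg.2 0 (by simp)]
    · rw [hu.apply_pt (by norm_num), Nat.eq_of_beq_eq_true h4, hg.2 23 (by simp)]
  obtain ⟨s, hs, hse⟩ := exists_s48 hg.1 (decode_mem_M24 h3) hag
  have hrg : Rep g (comp e.2.2.1 s) := by
    rw [hse]
    exact hu.mul (rep_decode (S48L_valid s hs))
  have hag2 := agree_of_rep hrg rz hrzk hc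
  have h11 := h10 s hs
  rw [hag2] at h11
  simp only [Bool.not_true, Bool.false_or, inW, List.any_eq_true] at h11
  obtain ⟨i, hi, hie⟩ := h11
  refine ⟨i, hi, ?_⟩
  have := Nat.eq_of_beq_eq_true hie
  rw [this] at hrg
  exact rep_unique hrg (rep_pow rw' i)

theorem zpow_eq_pow_of_mem {x y : Equiv.Perm GolayPt} (h : y ∈ zpowers x) :
    ∃ k ∈ List.range (orderOf x), y = x ^ k := by
  have h2 : y ∈ Submonoid.powers x := (mem_powers_iff_mem_zpowers).2 h
  obtain ⟨k, hk, rfl⟩ := Finset.mem_image.1 ((mem_powers_iff_mem_range_orderOf).1 h2)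
  exact ⟨k, List.mem_range.2 (Finset.mem_range.1 hk), rfl⟩

theorem eq_pt_of_idx {x : GolayPt} {i : ℕ} (h : idx x = i) : x = pt i := by
  rw [← h, pt_idx]

theorem ne_pt_of_fix {g : Equiv.Perm GolayPt} {x : GolayPt} {i : ℕ} (hi : g (pt i) = pt i)
    (hx : x ≠ pt i) : g x ≠ pt i := by
  intro h
  rw [← hi] at h
  exact hx (g.injective h)

theorem pt_ne {i j : ℕ} (hi : i < 24) (hj : j < 24) (h : i ≠ j) : pt i ≠ pt j := by
  intro e
  have := congrArg idx e
  rw [idx_pt hi, idx_pt hj] at this
  exact h this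

/-- The cover of the normaliser of `z`. -/
theorem cover_Z : ∀ g ∈ M22p ⊓ normalizer ((zpowers z : Subgroup _) : Set (Equiv.Perm GolayPt)),
    ∃ a : Fin 11 × Fin 5, z ^ a.1.1 * w ^ a.2.1 = g := by
  rintro g ⟨hg, hn⟩
  have hn' : g ∈ normalizer ((zpowers z : Subgroup _) : Set (Equiv.Perm GolayPt)) := hn
  rw [mem_normalizer_iff] at hn'
  obtain ⟨k, hk, hke⟩ := zpow_eq_pow_of_mem ((hn' z).1 (mem_zpowers z))
  rw [z_order] at hk
  have hk0 : k ≠ 0 := by
    rintro rfl
    rw [pow_zero] at hke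
    have h1 : z = 1 := by
      have h2 : g * z * g⁻¹ * g = 1 * g := by rw [hke]
      rw [inv_mul_cancel_right, one_mul] at h2
      exact mul_left_cancel (a := g) (by rw [h2, mul_one])
    have h2 := z_order
    rw [h1, orderOf_one] at h2
    exact absurd h2 (by norm_num)
  have hi0 : g (pt 1) ≠ pt 0 := ne_pt_of_fix (hg.2 0 (by simp)) (pt_ne (by norm_num) (by norm_num) (by norm_num))
  have hi23 : g (pt 1) ≠ pt 23 := ne_pt_of_fix (hg.2 23 (by simp)) (pt_ne (by norm_num) (by norm_num) (by norm_num))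
  obtain ⟨m, hm, a, ha, hmae⟩ := point_cover (idx (g (pt 1))) (mem_idxL.2 (idx_lt _))
    (by
      intro h
      apply hi0
      rw [← h, pt_idx])
    (by
      intro h
      apply hi23
      rw [← h, pt_idx])
  have ha24 : a < 24 := by
    simp only [List.mem_cons, List.not_mem_nil, or_false] at ha
    omega
  have hzm : (z ^ m) (pt a) = g (pt 1) := by
    rw [(rep_pow rz m).apply_pt ha24, hmae, pt_idx]
  let g' := (z ^ m)⁻¹ * g
  have hg' : g' ∈ M22p := M22p.mul_mem (M22p.inv_mem (M22p.pow_mem z_mem m)) hg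
  have h1' : g' (pt 1) = pt a := by
    show (z ^ m)⁻¹ (g (pt 1)) = pt a
    rw [Equiv.Perm.inv_eq_iff_eq, hzm]
  have hc' : g' * z = z ^ k * g' := by
    have e1 : g * z = z ^ k * g := by
      rw [← hke]
      group
    have e2 : (z ^ m)⁻¹ * z ^ k = z ^ k * (z ^ m)⁻¹ := by
      have : Commute (z ^ m) (z ^ k) := (Commute.refl z).pow_pow m k
      exact this.inv_left.eq
    calc g' * z = (z ^ m)⁻¹ * (g * z) := by rw [mul_assoc]
      _ = (z ^ m)⁻¹ * z ^ k * g := by rw [e1, mul_assoc]
      _ = z ^ k * (z ^ m)⁻¹ * g := by rw [e2]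
      _ = z ^ k * g' := by rw [mul_assoc]
  obtain ⟨i, hi, hie⟩ := step_Z hg' ha hk hk0 h1' hc'
  refine ⟨(⟨m, List.mem_range.1 hm⟩, ⟨i, List.mem_range.1 hi⟩), ?_⟩
  show z ^ m * w ^ i = g
  rw [← hie]
  show z ^ m * ((z ^ m)⁻¹ * g) = g
  group

/-- The order of the normaliser of `z`. -/
theorem card_BZ : Nat.card ↥(M22p ⊓ normalizer ((zpowers z : Subgroup _) : Set (Equiv.Perm GolayPt))) = 55 := by
  have hle : Nat.card ↥(M22p ⊓ normalizer ((zpowers z : Subgroup _) : Set (Equiv.Perm GolayPt))) ≤ 55 := by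
    have := card_le_of_cover _ _ cover_Z
    simpa using this
  have h11 : 11 ∣ Nat.card ↥(M22p ⊓ normalizer ((zpowers z : Subgroup _) : Set (Equiv.Perm GolayPt))) := by
    have h := Subgroup.orderOf_dvd_natCard _ (show z ∈ M22p ⊓ normalizer ((zpowers z : Subgroup _) : Set (Equiv.Perm GolayPt)) from ⟨z_mem, le_normalizer (mem_zpowers z)⟩)
    rwa [z_order] at h
  have h5 : 5 ∣ Nat.card ↥(M22p ⊓ normalizer ((zpowers z : Subgroup _) : Set (Equiv.Perm GolayPt))) := by
    have h := Subgroup.orderOf_dvd_natCard _ (show w ∈ M22p ⊓ normalizer ((zpowers z : Subgroup _) : Set (Equiv.Perm GolayPt)) from ⟨w_mem, w_norm⟩)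
    rwa [w_order] at h
  have hpos : 0 < Nat.card ↥(M22p ⊓ normalizer ((zpowers z : Subgroup _) : Set (Equiv.Perm GolayPt))) :=
    Nat.card_pos
  generalize Nat.card ↥(M22p ⊓ normalizer ((zpowers z : Subgroup _) : Set (Equiv.Perm GolayPt))) = n at *
  omega

/-! ### The normaliser of `w` -/

/-- The twenty elements moving the point 3. -/
def TW : List ℕ := [984818244535754528103549039458486304,969792217434473543891514541123700768,975206881659631450991128307143182368,984158983359129550953007900942075936,965933924869347573707900197936531488,976853383919023967549387414331197472,964605006189535887548438979271755808,984240177405222622270387525049976864,962744112110397507711163933506504736,981878428855679989018523560002848800,979446999918243512063156916832340000,970279603893326650351860871936280608,962185689677430337975636846473349152,982971234116552842224750728656193568,980659945285429986483690699286415392,964608013903808065800711357523888160,979377112632089073811634314942187552,966484927919251234071716389955700768,975756943178644731593179060683573280,971586097767224052852166069785921568]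

/-- Powers of `w`. -/
def WL : List ℕ := [970459361523271695787015306425278496,968955966875123533138286166201145376,978076899444677511050001024522036256,965300289861748889990672440075108384]

theorem WL_eq : WL = [powC wc 1, powC wc 2, powC wc 3, powC wc 4] := by decide +kernel

/-- The membership in the dihedral group. -/
def inD (c : ℕ) : Bool :=
  (List.range 5).any fun i => (List.range 2).any fun j => Nat.beq c (comp (powC wc i) (powC tc (2 * j)))

def checkW : Bool :=
  TW.all fun u => isM24 u && Nat.beq (ap u 23) 23 && Nat.beq (ap u 0) 0 && Nat.beq (ap u 1) 1 &&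
    Nat.beq (ap u 2) 2 &&
    S48L.all fun s => WL.all fun wk => !(agree (comp (comp kc (comp u s)) kic) wc wk) ||
      inD (comp (comp kc (comp u s)) kic)

theorem checkW_ok : checkW = true := by decide +kernel

theorem TW_cover : ∀ a ∈ idxL, a ≠ 23 → a ≠ 0 → a ≠ 1 → a ≠ 2 → ∃ u ∈ TW, ap u 3 = a := by
  decide +kernel

theorem kc_vals : ap kc 23 = 23 ∧ ap kc 0 = 0 ∧ ap kc 1 = 1 ∧ ap kc 2 = 5 := by decide +kernel

theorem step_W {g : Equiv.Perm GolayPt} (hg : g ∈ M22p) {k : ℕ}
    (hk : k ∈ List.range 5) (hk0 : k ≠ 0) (h1 : g (pt 1) = pt 1) (h5 : g (pt 5) = pt 5)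
    (hc : g * w = w ^ k * g) :
    ∃ i ∈ List.range 5, ∃ j ∈ List.range 2, g = w ^ i * t ^ (2 * j) := by
  have hk2 : powC wc k ∈ WL := by
    rw [WL_eq]
    simp only [List.mem_range] at hk
    interval_cases k
    · exact absurd rfl hk0
    all_goals simp
  have hκ1 : κ (pt 23) = pt 23 := by rw [rk.apply_pt (by norm_num), kc_vals.1]
  have hκ2 : κ (pt 0) = pt 0 := by rw [rk.apply_pt (by norm_num), kc_vals.2.1]
  have hκ3 : κ (pt 1) = pt 1 := by rw [rk.apply_pt (by norm_num), kc_vals.2.2.1]
  have hκ4 : κ (pt 2) = pt 5 := by rw [rk.apply_pt (by norm_num), kc_vals.2.2.2]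
  let h := κ⁻¹ * g * κ
  have hM : h ∈ M24 := M24.mul_mem (M24.mul_mem (M24.inv_mem κ_mem.1) hg.1) κ_mem.1
  have fixh : ∀ {i j : ℕ}, κ (pt i) = pt j → g (pt j) = pt j → h (pt i) = pt i := by
    intro i j e1 e2
    show κ⁻¹ (g (κ (pt i))) = pt i
    rw [e1, e2, Equiv.Perm.inv_eq_iff_eq, e1]
  have h23 := fixh hκ1 (hg.2 23 (by simp))
  have h0 := fixh hκ2 (hg.2 0 (by simp))
  have h1' := fixh hκ3 h1
  have h2' := fixh hκ4 h5
  obtain ⟨u, hu, hua⟩ := TW_cover (idx (h (pt 3))) (mem_idxL.2 (idx_lt _))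
    (by
      intro e
      apply ne_pt_of_fix h23 (pt_ne (by norm_num) (by norm_num) (by norm_num) : pt 3 ≠ pt 23)
      rw [← e, pt_idx])
    (by
      intro e
      apply ne_pt_of_fix h0 (pt_ne (by norm_num) (by norm_num) (by norm_num) : pt 3 ≠ pt 0)
      rw [← e, pt_idx])
    (by
      intro e
      apply ne_pt_of_fix h1' (pt_ne (by norm_num) (by norm_num) (by norm_num) : pt 3 ≠ pt 1)
      rw [← e, pt_idx])
    (by
      intro e
      apply ne_pt_of_fix h2' (pt_ne (by norm_num) (by norm_num) (by norm_num) : pt 3 ≠ pt 2)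
      rw [← e, pt_idx])
  have hchk := checkW_ok
  simp only [checkW, List.all_eq_true, Bool.and_eq_true] at hchk
  obtain ⟨⟨⟨⟨⟨h3', h4'⟩, h5'⟩, h6'⟩, h7'⟩, h8'⟩ := hchk u hu
  have hur : Rep (decode u) u := rep_decode (isM24_valid h3')
  have hag : ∀ i ∈ [3, 2, 1, 0, 23], decode u (pt i) = h (pt i) := by
    intro i hi
    simp only [List.mem_cons, List.not_mem_nil, or_false] at hi
    rcases hi with rfl | rfl | rfl | rfl | rfl
    · rw [hur.apply_pt (by norm_num), hua, pt_idx]
    · rw [hur.apply_pt (by norm_num), Nat.eq_of_beq_eq_true h7', h2']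
    · rw [hur.apply_pt (by norm_num), Nat.eq_of_beq_eq_true h6', h1']
    · rw [hur.apply_pt (by norm_num), Nat.eq_of_beq_eq_true h5', h0]
    · rw [hur.apply_pt (by norm_num), Nat.eq_of_beq_eq_true h4', h23]
  obtain ⟨s, hs, hse⟩ := exists_s48 hM (decode_mem_M24 h3') hag
  have hge : g = κ * h * κ⁻¹ := by
    show g = κ * (κ⁻¹ * g * κ) * κ⁻¹
    group
  have hrg : Rep g (comp (comp kc (comp u s)) kic) := by
    rw [hge, hse]
    exact (rk.mul (hur.mul (rep_decode (S48L_valid s hs)))).mul rki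
  have hag2 := agree_of_rep hrg rw' (rep_pow rw' k) hc
  have h11 := h8' s hs _ hk2
  rw [hag2] at h11
  simp only [Bool.not_true, Bool.false_or, inD, List.any_eq_true] at h11
  obtain ⟨i, hi, j, hj, hie⟩ := h11
  refine ⟨i, hi, j, hj, ?_⟩
  have := Nat.eq_of_beq_eq_true hie
  rw [this] at hrg
  exact rep_unique hrg ((rep_pow rw' i).mul (rep_pow rt (2 * j)))

theorem wfix : ∀ x ∈ idxL, ap wc x = x → x ∈ [0, 1, 5, 23] := by decide +kernel

theorem ap_w_1 : ap wc 1 = 1 := by decide +kernel
theorem ap_w_5 : ap wc 5 = 5 := by decide +kernel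
theorem ap_t_1 : ap tc 1 = 5 := by decide +kernel

/-- Normalisers preserve the fixed points. -/
theorem fix_of_norm {g : Equiv.Perm GolayPt}
    (hn : g ∈ normalizer ((zpowers w : Subgroup _) : Set (Equiv.Perm GolayPt))) {x : ℕ} (_hx : x < 24)
    (hwx : w (pt x) = pt x) : idx (g (pt x)) ∈ [0, 1, 5, 23] := by
  have hn' := hn
  rw [mem_normalizer_iff] at hn'
  have hinv : g⁻¹ * w * g ∈ zpowers w := by
    have := (hn' (g⁻¹ * w * g)).2 (by
      have e : g * (g⁻¹ * w * g) * g⁻¹ = w := by group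
      rw [e]
      exact mem_zpowers w)
    exact this
  obtain ⟨l, -, hl⟩ := zpow_eq_pow_of_mem hinv
  have e1 : w * g = g * w ^ l := by
    rw [← hl]
    group
  have hfix : (w ^ l) (pt x) = pt x := by
    have : w ^ l ∈ zpowers w := pow_mem (mem_zpowers w) l
    have hf : Function.IsFixedPt w (pt x) := hwx
    exact (hf.perm_pow l)
  have h2 : w (g (pt x)) = g (pt x) := by
    have := congrArg (fun f : Equiv.Perm GolayPt => f (pt x)) e1
    simp only [Equiv.Perm.mul_apply] at this
    rw [this, hfix]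
  apply wfix _ (mem_idxL.2 (idx_lt _))
  rw [← rw' (g (pt x)), h2]

theorem w_fix_1 : w (pt 1) = pt 1 := by rw [rw'.apply_pt (by norm_num), ap_w_1]
theorem w_fix_5 : w (pt 5) = pt 5 := by rw [rw'.apply_pt (by norm_num), ap_w_5]
theorem t_1 : t (pt 1) = pt 5 := by rw [rt.apply_pt (by norm_num), ap_t_1]

/-- The part of the normaliser fixing the point 1. -/
theorem step_W2 {g : Equiv.Perm GolayPt} (hg : g ∈ M22p)
    (hn : g ∈ normalizer ((zpowers w : Subgroup _) : Set (Equiv.Perm GolayPt)))
    (h1 : g (pt 1) = pt 1) : ∃ i ∈ List.range 5, ∃ j ∈ List.range 2, g = w ^ i * t ^ (2 * j) := by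
  have hn' := hn
  rw [mem_normalizer_iff] at hn'
  obtain ⟨k, hk, hke⟩ := zpow_eq_pow_of_mem ((hn' w).1 (mem_zpowers w))
  rw [w_order] at hk
  have hk0 : k ≠ 0 := by
    rintro rfl
    rw [pow_zero] at hke
    have h1 : w = 1 := by
      have h2 : g * w * g⁻¹ * g = 1 * g := by rw [hke]
      rw [inv_mul_cancel_right, one_mul] at h2
      exact mul_left_cancel (a := g) (by rw [h2, mul_one])
    have h2 := w_order
    rw [h1, orderOf_one] at h2
    exact absurd h2 (by norm_num)
  have h5 : g (pt 5) = pt 5 := by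
    have hmem := fix_of_norm hn (x := 5) (by norm_num) w_fix_5
    have ne0 : g (pt 5) ≠ pt 0 := ne_pt_of_fix (hg.2 0 (by simp)) (pt_ne (by norm_num) (by norm_num) (by norm_num))
    have ne23 : g (pt 5) ≠ pt 23 := ne_pt_of_fix (hg.2 23 (by simp)) (pt_ne (by norm_num) (by norm_num) (by norm_num))
    have ne1 : g (pt 5) ≠ pt 1 := ne_pt_of_fix h1 (pt_ne (by norm_num) (by norm_num) (by norm_num))
    simp only [List.mem_cons, List.not_mem_nil, or_false] at hmem
    rcases hmem with e | e | e | e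
    · exact absurd (eq_pt_of_idx e) ne0
    · exact absurd (eq_pt_of_idx e) ne1
    · exact eq_pt_of_idx e
    · exact absurd (eq_pt_of_idx e) ne23
  refine step_W hg hk hk0 h1 h5 ?_
  rw [← hke]
  group

theorem cover_W : ∀ g ∈ M22p ⊓ normalizer ((zpowers w : Subgroup _) : Set (Equiv.Perm GolayPt)),
    ∃ a : Fin 2 × Fin 5 × Fin 2, t ^ a.1.1 * (w ^ a.2.1.1 * t ^ (2 * a.2.2.1)) = g := by
  rintro g ⟨hg, hn⟩
  have hn1 : g ∈ normalizer ((zpowers w : Subgroup _) : Set (Equiv.Perm GolayPt)) := hn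
  have hmem := fix_of_norm hn1 (x := 1) (by norm_num) w_fix_1
  have ne0 : g (pt 1) ≠ pt 0 := ne_pt_of_fix (hg.2 0 (by simp)) (pt_ne (by norm_num) (by norm_num) (by norm_num))
  have ne23 : g (pt 1) ≠ pt 23 := ne_pt_of_fix (hg.2 23 (by simp)) (pt_ne (by norm_num) (by norm_num) (by norm_num))
  simp only [List.mem_cons, List.not_mem_nil, or_false] at hmem
  rcases hmem with e | e | e | e
  · exact absurd (eq_pt_of_idx e) ne0
  · obtain ⟨i, hi, j, hj, hie⟩ := step_W2 hg hn1 (eq_pt_of_idx e)
    refine ⟨(0, ⟨i, List.mem_range.1 hi⟩, ⟨j, List.mem_range.1 hj⟩), ?_⟩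
    show t ^ 0 * (w ^ i * t ^ (2 * j)) = g
    rw [pow_zero, one_mul, hie]
  · have h5 : g (pt 1) = pt 5 := eq_pt_of_idx e
    have hg' : t⁻¹ * g ∈ M22p := M22p.mul_mem (M22p.inv_mem t_mem) hg
    have hn' : t⁻¹ * g ∈ normalizer ((zpowers w : Subgroup _) : Set (Equiv.Perm GolayPt)) :=
      mul_mem (inv_mem t_norm) hn1
    have h1' : (t⁻¹ * g) (pt 1) = pt 1 := by
      rw [Equiv.Perm.mul_apply, h5, Equiv.Perm.inv_eq_iff_eq, t_1]
    obtain ⟨i, hi, j, hj, hie⟩ := step_W2 hg' hn' h1'
    refine ⟨(1, ⟨i, List.mem_range.1 hi⟩, ⟨j, List.mem_range.1 hj⟩), ?_⟩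
    show t ^ 1 * (w ^ i * t ^ (2 * j)) = g
    rw [pow_one, ← hie]
    group
  · exact absurd (eq_pt_of_idx e) ne23

theorem card_BW : Nat.card ↥(M22p ⊓ normalizer ((zpowers w : Subgroup _) : Set (Equiv.Perm GolayPt))) = 20 := by
  have hle : Nat.card ↥(M22p ⊓ normalizer ((zpowers w : Subgroup _) : Set (Equiv.Perm GolayPt))) ≤ 20 := by
    have := card_le_of_cover _ _ cover_W
    simpa using this
  have h5 : 5 ∣ Nat.card ↥(M22p ⊓ normalizer ((zpowers w : Subgroup _) : Set (Equiv.Perm GolayPt))) := by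
    have h := Subgroup.orderOf_dvd_natCard _ (show w ∈ M22p ⊓ normalizer ((zpowers w : Subgroup _) : Set (Equiv.Perm GolayPt)) from ⟨w_mem, le_normalizer (mem_zpowers w)⟩)
    rwa [w_order] at h
  have h4 : 4 ∣ Nat.card ↥(M22p ⊓ normalizer ((zpowers w : Subgroup _) : Set (Equiv.Perm GolayPt))) := by
    have h := Subgroup.orderOf_dvd_natCard _ (show t ∈ M22p ⊓ normalizer ((zpowers w : Subgroup _) : Set (Equiv.Perm GolayPt)) from ⟨t_mem, t_norm⟩)
    rwa [t_order] at h
  have hpos : 0 < Nat.card ↥(M22p ⊓ normalizer ((zpowers w : Subgroup _) : Set (Equiv.Perm GolayPt))) :=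
    Nat.card_pos
  generalize Nat.card ↥(M22p ⊓ normalizer ((zpowers w : Subgroup _) : Set (Equiv.Perm GolayPt))) = n at *
  omega

/-! ### The main argument -/

instance : Finite M22p := inferInstance

theorem card_M22p : Nat.card M22p = 443520 := card_G2

theorem arith_55 {n d m : ℕ} (hd : d ∣ 55) (h11 : 11 ∣ d) (hm : m % 11 = 1) (hn : n = m * d) :
    n ≠ 2112 ∧ (n = 7920 → d = 55) := by
  have hd' : d ∈ Nat.divisors 55 := Nat.mem_divisors.2 ⟨hd, by norm_num⟩
  have e : Nat.divisors 55 = {1, 5, 11, 55} := by decide +kernel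
  rw [e] at hd'
  simp only [Finset.mem_insert, Finset.mem_singleton] at hd'
  rcases hd' with rfl | rfl | rfl | rfl
  · omega
  · omega
  · omega
  · omega

theorem arith_20 {d m : ℕ} (hd : d ∣ 20) (h5 : 5 ∣ d) (hm : m % 5 = 1) (hn : 7920 = m * d) :
    d = 20 := by
  have hd' : d ∈ Nat.divisors 20 := Nat.mem_divisors.2 ⟨hd, by norm_num⟩
  have e : Nat.divisors 20 = {1, 2, 4, 5, 10, 20} := by decide +kernel
  rw [e] at hd'
  simp only [Finset.mem_insert, Finset.mem_singleton] at hd'
  rcases hd' with rfl | rfl | rfl | rfl | rfl | rfl <;> omega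

theorem main_of_mem (K : Subgroup (Equiv.Perm GolayPt)) (hK : K ≤ M22p) (hz : z ∈ K) :
    Nat.card K ≠ 2112 ∧ Nat.card K ≠ 7920 := by
  obtain ⟨h1, h2, m, hm, hn⟩ := norm_step (p := 11) hK hz z_order (by rw [card_M22p]; norm_num)
  rw [card_BZ] at h1
  have ha := arith_55 h1 h2 hm hn
  refine ⟨ha.1, fun h7920 => ?_⟩
  have hd := ha.2 h7920
  have hle := norm_le_of_card hK _ (hd.trans card_BZ.symm)
  have hwK : w ∈ K := hle ⟨w_mem, w_norm⟩
  obtain ⟨h1', h2', m', hm', hn'⟩ := norm_step (p := 5) hK hwK w_order (by rw [card_M22p]; norm_num)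
  rw [card_BW] at h1'
  rw [h7920] at hn'
  have hd' := arith_20 h1' h2' hm' hn'
  have hle' := norm_le_of_card hK _ (hd'.trans card_BW.symm)
  have htK : t ∈ K := hle' ⟨t_mem, t_norm⟩
  have hzt : z * t ∈ K := K.mul_mem hz htK
  have h7 := orderOf_dvd_natCard (⟨z * t, hzt⟩ : K)
  rw [Subgroup.orderOf_mk, zt_order, h7920] at h7
  omega

theorem main_sub (K : Subgroup (Equiv.Perm GolayPt)) (hK : K ≤ M22p) :
    Nat.card K ≠ 2112 ∧ Nat.card K ≠ 7920 := by
  by_contra hcon
  have h11 : 11 ∣ Nat.card K := by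
    by_cases h : Nat.card K = 2112
    · rw [h]; norm_num
    · have : Nat.card K = 7920 := by
        by_contra h2
        exact hcon ⟨h, h2⟩
      rw [this]; norm_num
  obtain ⟨g, hg, hgz⟩ := exists_conj_mem hK z_mem z_order (by rw [card_M22p]; norm_num) h11
  let K' : Subgroup (Equiv.Perm GolayPt) := K.map (MulAut.conj g).toMonoidHom
  have hcard : Nat.card K' = Nat.card K :=
    Nat.card_congr ((MulAut.conj g).subgroupMap K).symm.toEquiv
  have hK' : K' ≤ M22p := by
    rintro _ ⟨x, hx, rfl⟩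
    show g * x * g⁻¹ ∈ M22p
    exact M22p.mul_mem (M22p.mul_mem hg (hK hx)) (M22p.inv_mem hg)
  have hz' : z ∈ K' := by
    refine ⟨g⁻¹ * z * g, hgz, ?_⟩
    show g * (g⁻¹ * z * g) * g⁻¹ = z
    group
  have := main_of_mem K' hK' hz'
  rw [hcard] at this
  exact hcon this

/-- The stabiliser of two points in the group of the length-24 code has no subgroups of index 56 or 210. -/
theorem result (p q : Cfsg.GolayPt) (hpq : p ≠ q) (H : Subgroup ↥(MulAction.stabilizer Cfsg.M24 p ⊓ MulAction.stabilizer Cfsg.M24 q)) : H.index ≠ 56 ∧ H.index ≠ 210 := by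
  obtain ⟨g0, h0, h1⟩ := exists_two hpq (pt_ne (by norm_num) (by norm_num) (by norm_num) : pt 0 ≠ pt 23)
  let ψ : ↥(MulAction.stabilizer Cfsg.M24 p ⊓ MulAction.stabilizer Cfsg.M24 q) →* Equiv.Perm GolayPt :=
    (MulAut.conj (g0 : Equiv.Perm GolayPt)).toMonoidHom.comp (M24.subtype.comp (Subgroup.subtype _))
  have hψ : Function.Injective ψ :=
    (MulAut.conj (g0 : Equiv.Perm GolayPt)).injective.comp
      (M24.subtype_injective.comp (Subgroup.subtype_injective _))
  let K : Subgroup (Equiv.Perm GolayPt) := H.map ψ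
  have hcard : Nat.card K = Nat.card H :=
    Nat.card_congr (Subgroup.equivMapOfInjective H ψ hψ).symm.toEquiv
  have hK : K ≤ M22p := by
    rintro _ ⟨⟨⟨x, hxM⟩, hx1, hx2⟩, -, rfl⟩
    have hx1' : x p = p := hx1
    have hx2' : x q = q := hx2
    have h0' : (g0 : Equiv.Perm GolayPt) p = pt 0 := h0
    have h1' : (g0 : Equiv.Perm GolayPt) q = pt 23 := h1
    refine ⟨?_, fun i hi => ?_⟩
    · show (g0 : Equiv.Perm GolayPt) * x * (g0 : Equiv.Perm GolayPt)⁻¹ ∈ M24
      exact M24.mul_mem (M24.mul_mem g0.2 hxM) (M24.inv_mem g0.2)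
    · simp only [List.mem_cons, List.not_mem_nil, or_false] at hi
      show ((g0 : Equiv.Perm GolayPt) * x * (g0 : Equiv.Perm GolayPt)⁻¹) (pt i) = pt i
      rcases hi with rfl | rfl
      · have e : (g0 : Equiv.Perm GolayPt)⁻¹ ((g0 : Equiv.Perm GolayPt) p) = p := by simp
        rw [Equiv.Perm.mul_apply, Equiv.Perm.mul_apply, ← h0', e, hx1']
      · have e : (g0 : Equiv.Perm GolayPt)⁻¹ ((g0 : Equiv.Perm GolayPt) q) = q := by simp
        rw [Equiv.Perm.mul_apply, Equiv.Perm.mul_apply, ← h1', e, hx2']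
  have hmain := main_sub K hK
  rw [hcard] at hmain
  have hc2 : Nat.card ↥(MulAction.stabilizer Cfsg.M24 p ⊓ MulAction.stabilizer Cfsg.M24 q) = 443520 :=
    card_stabilizer_two hpq
  have hidx := H.index_mul_card
  rw [hc2] at hidx
  constructor
  · intro h
    rw [h] at hidx
    apply hmain.2
    omega
  · intro h
    rw [h] at hidx
    apply hmain.1
    omega

end Cfsg.Agent.S1606
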