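import Mathlib
import Cfsg.Statements.S1609
import Cfsg.Agent.Lib.CodeGroup
import Cfsg.Agent.Lib.M24Orbits
import Cfsg.Agent.Lib.OrbPair
import Cfsg.Agent.Lib.DodecadFacts

set_option autoImplicit false
set_option maxRecDepth 100000

namespace Cfsg.Agent.S1609

open Cfsg Cfsg.Agent.Lib.Golay Cfsg.Agent.Lib.GolaySift Cfsg.Agent.Lib.MathieuSimple
  Cfsg.Agent.Lib.SylowCount Cfsg.Agent.Lib.M24Facts Cfsg.Agent.Lib.CodeGroup
  Cfsg.Agent.Lib.M24Orbits Cfsg.Agent.Lib.DodecadFacts
open scoped Pointwise

/-- Generators of a Sylow 2-subgroup of the stabiliser of the point 23. -/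
def gens0 : List ℕ := [972515684202761748824803774667261953,979178064215976754201978316326897696,961442280422868146686817547618551809,983548720921252936276249910206105632]

/-- The elements. -/
def L0 : List ℕ := [961356048420903219925328587759126529,984235865005994746954145143334668320,971333881845163596802180201211004960,976451819779323301108630164852541441,966153201816562050373726047187699713,970088168851091715236834670444840961,979383848149202763275852014489733152,965376962659599963441113497361483808,984724508489452699215480746259449888,968836519859617733664016487548487681,970489636867159238772919421980739585,970499966350631336865513127433832480,960841890722417307166498500791273473,980961453008226842613104290058143776,967397855194896030874157306088982529,961365507626256404119956257276790816,972565208806568471035905691718453249,983314562783121564661200254590814240,960884477435128931241433760505432096,960873674059075312238165030637570049,963832399711090295044819380600244225,984235192867452974499639394904344577,979141531710639973159313694965991425,97912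1071158219704299181131031480352,980584952132777133746864091642234881,981798269885765910628329639496484865,971393868001231926980048512195135489,963352870096674890061177227379771393,983188711879002004991358896732014593,982815477430510018164584634543179808,965009332826279549059011843200583681,984202951082164080105044112956360736,971779014212196317776430585162958880,966606820262299612280828849460643841,968867065153972416576197650585651232,975592003233590804006894186222094337,977023451795203591179182037798520864,975205338077867316637982965279918081,967812279691448225500382947153381408,973119879524202240325888232963344385,976448692869377735270425038196672544,965138075301685604818334475443341313,968858477666788380161804133967497217,975604508812973923585690306941061152,975206881659631450991128307143182368,973054518210042674313238929715267616,980224387687010295957922729495201824,968815149237215509205433714562598944,976934804572108675034832543981668384,967580415455907411547662912282200096,973043792789531640259950872248223745,967532269917795608261166275949135904,979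170901412062631670493143800154113,981851628460820764576221274859571232,982098839366986554058178450405099521,976945608180080078954054506174908417,981677950431416054353402002846287873,968708902336673183175954409307867168,975350105146417016562519999138334721,971776283230864949075138272668616705,983546663363474750168552650252060673,972560815420533050926679905878345760,964076814182484938769285378800257025,983304788100900701605968303195981825,969102907148071390402987876147464193,961438956620049001677386430328277024,980721307978335900412416918884091905,981818691054096003685363657089320992,971588647847066506317984703820433409,980709553603551216750412163315828768,970051008710306135542737326758332448,971392165726200387003485106912528416,980221498237379154014833194152593409,981858237751139580298476692466763777,982079684599265169493092003182970912,981685826122343578567604990824187936,965011074703115379814735225140217888,971592882964418941354553515258775584,963835842514064438119990511449606176,975324366708937487954582326094530561,966182099583441531322624363496310816,9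64643347536545672939204753877010433,970279603893326650351860871936280608,984815236210785284474902464532940801,979579942102132703440927536934193153,966603219009082848213130298981386272,965387569389053786738874349107316737,979568742346775209981927593496184864,966392532067346412104697562983991297,965128854020860192151391391390468128,979361883451392243750558337080002561,966384102809216433681153115633649696,975316926753749867305852685494192160,976406117083132462022169984577767425,975346028712660580592452217730074656,964073805886567692774798621412591648,977017910841622975080763240783316993,970075068886824735502948315867678752,984199627314629270448126215919405057,964655101679034793884593747619121184,967822569326616800157309112113268737,980584160993702585448451808056346656,966159335878249786552220386960279584,970032210711396404692386249053472769,963721886883755259286232606933354528,971341678460361870990456027213236225,984725180598980252173579455780292609,983185387879511632629423111257884704,968712424146468984597237762166458369,963348160910017000073269771345889312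,982830317792536967747549571289909249,969121744971674049307691893229291552,980958129080024135213123847202473985,973122887587861701392823884636653600,966178735993028381335273046516271105,960831283963798152912375878980765728,967395599751671306805005400863606816,967520713857839808719999957145389057,972512676110088067912772961567868960,967576893587895462594270853212964865,963723944209615660477976634562021377,976420838754479978627774237199763488,970298164256180246050941091510159361,984818244535754528103549039458486304,972515684202761748824803774667261953,979178064215976754201978316326897696,961442280422868146686817547618551809,983548720921252936276249910206105632]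

/-- How to get them. -/
def ins0 : List (ℕ × ℕ) := [(2,1),(4,2),(6,3),(4,5),(6,6),(8,7),(10,8),(8,10),(10,11),(12,12),(14,13),(13,15),(15,16),(14,0),(16,1),(18,2),(20,3),(18,5),(20,6),(22,7),(24,8),(22,10),(24,11),(26,12),(25,14),(27,15),(29,16),(31,17),(29,19),(31,20),(33,21),(33,23),(33,25),(35,26),(37,27),(36,29),(38,30),(40,31),(42,32),(40,34),(42,35),(43,37),(45,38),(45,40),(47,41),(47,43),(50,44),(48,46),(51,47),(53,48),(52,0),(54,1),(56,3),(55,5),(57,6),(57,8),(59,9),(59,11),(61,12),(60,14),(63,15),(65,16),(64,18),(67,19),(65,21),(69,22),(68,24),(71,25),(71,27),(73,28),(72,30),(72,32),(74,33),(76,34),(76,36),(79,37),(79,39),(79,41),(79,43),(82,44),(84,45),(82,47),(86,48),(85,50),(87,51),(86,53),(88,54),(90,55),(92,56),(90,58),(94,59),(94,61),(96,62),(95,64),(95,66),(98,67),(98,69),(100,71),(101,74),(100,76),(104,77),(103,81),(105,83),(105,85),(107,87),(106,2),(110,3),(110,5),(111,8),(110,10),(114,11),(112,13),(116,14),(115,18),(118,20),(116,22),(118,24),(120,28),(121,33),(120,36),(124,40),(124,53),(124,58)]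

theorem L0_eq : runSLP (idC :: gens0) ins0 = L0 := by decide +kernel
theorem L0_closed : isClosedL gens0 L0 = true := by decide +kernel
theorem L0_nd : (L0.map vals).Nodup := by decide +kernel
theorem L0_len : L0.length = 128 := by decide +kernel
theorem gens0_all : gens0.all (fun c => isM24 c && Nat.beq (ap c 23) 23) = true := by decide +kernel

theorem gens0_valid : ∀ c ∈ gens0, valid c = true := by
  intro c hc
  have h := List.all_eq_true.1 gens0_all c hc
  simp only [Bool.and_eq_true] at h
  exact isM24_valid h.1

theorem L0_reach : ∀ c ∈ L0, InH (genGroup gens0) c := by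
  rw [← L0_eq]
  exact reach_runSLP gens0_valid ins0

/-- The group. -/
noncomputable abbrev S0 : Subgroup (Equiv.Perm GolayPt) := genGroup gens0

theorem S0_le : S0 ≤ G [23] := by
  rw [show S0 = Subgroup.closure (decode '' {c | c ∈ gens0}) from rfl, Subgroup.closure_le]
  rintro _ ⟨c, hc, rfl⟩
  have h := List.all_eq_true.1 gens0_all c hc
  simp only [Bool.and_eq_true] at h
  refine ⟨decode_mem_M24 h.1, fun i hi => ?_⟩
  simp only [List.mem_cons, List.not_mem_nil, or_false] at hi
  subst hi
  rw [decode_pt (isM24_valid h.1) (by norm_num), Nat.eq_of_beq_eq_true h.2]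

theorem S0_card : Nat.card S0 = 128 := by
  rw [card_genGroup L0_closed L0_reach L0_nd, L0_len]

theorem L0_mem {c : ℕ} (hc : c ∈ L0) : decode c ∈ S0 :=
  (genGroup_eq_of_closed L0_closed L0_reach).2 ⟨c, hc, rfl⟩

theorem L0_valid {c : ℕ} (hc : c ∈ L0) : valid c = true := by
  have h := L0_closed
  simp only [isClosedL, Bool.and_eq_true] at h
  exact List.all_eq_true.1 h.1.2 c hc

/-! ### the orbits -/

def m1 : ℕ := 8241104
def m2 : ℕ := 147496
def m3 : ℕ := 3
def m4 : ℕ := 4

/-- The candidates for an orbit. -/
def cand (a b c : Bool) : ℕ :=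
  Nat.lor m1 (Nat.lor (cond a m2 0) (Nat.lor (cond b m3 0) (cond c m4 0)))

/-- The first orbit. -/
def O1L : List ℕ := [4,6,7,8,9,10,11,12,13,15,16,18,19,20,21,22]

/-- The relation of being in an orbit. -/
def rel (i j : ℕ) : Bool := L0.any fun c => Nat.beq (ap c i) j

theorem rel_O1 : ∀ j ∈ O1L, rel 4 j = true := by decide +kernel
theorem rel_O2 : ∀ j ∈ [3, 5, 14, 17], rel 3 j = true ∧ rel j 3 = true := by decide +kernel
theorem rel_O3 : ∀ j ∈ [0, 1], rel 0 j = true ∧ rel j 0 = true := by decide +kernel

theorem cover : ∀ i ∈ idxL, i ∈ O1L ∨ i ∈ [3, 5, 14, 17] ∨ i ∈ [0, 1] ∨ i = 2 ∨ i = 23 := by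
  decide +kernel

theorem cand_O1 : ∀ a b c : Bool, ∀ i ∈ O1L, (cand a b c).testBit i = true := by decide +kernel
theorem cand_O2 : ∀ a b c : Bool, ∀ i ∈ [3, 5, 14, 17], (cand a b c).testBit i = a := by decide +kernel
theorem cand_O3 : ∀ a b c : Bool, ∀ i ∈ [0, 1], (cand a b c).testBit i = b := by decide +kernel
theorem cand_O4 : ∀ a b c : Bool, (cand a b c).testBit 2 = c := by decide +kernel
theorem cand_O5 : ∀ a b c : Bool, (cand a b c).testBit 23 = false := by decide +kernel

theorem cand_arith : ∀ a b c : Bool, pop (cand a b c) ∣ 40320 → pop (cand a b c) % 7 ≤ 3 →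
    cand a b c = cand false false false ∨ cand a b c = cand true false true := by
  decide +kernel

theorem not_compl1 : ∀ i ∈ idxL, (cand false false false).testBit i = !((8536111 : ℕ).testBit i) := by
  decide +kernel

theorem not_compl2 : ∀ i ∈ idxL, (cand true false true).testBit i = false → i ≠ 23 →
    (3 : ℕ).testBit i = true := by
  decide +kernel

/-- Elements of order 7 have few fixed points. -/
theorem fix_bound {y : Equiv.Perm GolayPt} (hy : y ∈ G [23]) (h7 : orderOf y = 7)
    {F : Finset GolayPt} (hF : ∀ q ∈ F, y q = q) (hn : pt 23 ∉ F) : F.card ≤ 3 := by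
  by_contra hcon
  have hT : 5 ≤ (insert (pt 23) F).card := by
    rw [Finset.card_insert_of_notMem hn]
    omega
  obtain ⟨e, he, -⟩ := exists_emb_extend (k := 0) (by norm_num) hT
    ⟨fun i => i.elim0, fun i => i.elim0⟩ (fun i => i.elim0)
  have hfix : ∀ i, y (e i) = e i := by
    intro i
    rcases Finset.mem_insert.1 (he i) with h | h
    · rw [h]
      exact hy.2 23 (by simp)
    · exact hF _ h
  obtain ⟨g, hg, h0, h1, h2, h3, h4⟩ := exists_M24_base e
  have hmem : g⁻¹ * y * g ∈ G [3, 2, 1, 0, 23] := by
    refine ⟨M24.mul_mem (M24.mul_mem (M24.inv_mem hg) hy.1) hg, fun i hi => ?_⟩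
    simp only [List.mem_cons, List.not_mem_nil, or_false] at hi
    have key : ∀ {j : Fin 5} {i : ℕ}, g (pt i) = e j → (g⁻¹ * y * g) (pt i) = pt i := by
      intro j i hj
      rw [Equiv.Perm.mul_apply, Equiv.Perm.mul_apply, hj, hfix, Equiv.Perm.inv_eq_iff_eq, hj]
    rcases hi with rfl | rfl | rfl | rfl | rfl
    · exact key h4
    · exact key h3
    · exact key h2
    · exact key h1
    · exact key h0
  have h48 := Subgroup.orderOf_dvd_natCard _ hmem
  have hconj : orderOf (g⁻¹ * y * g) = 7 := by
    have : g⁻¹ * y * g = (MulAut.conj g⁻¹) y := by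
      rw [MulAut.conj_apply, inv_inv]
    rw [this]
    exact (orderOf_injective (MulAut.conj g⁻¹).toMonoidHom (MulAut.conj g⁻¹).injective y).trans h7
  rw [hconj, card_G5] at h48
  omega

/-- The pair. -/
noncomputable def s0 : Finset GolayPt := ofMask 3

theorem s0_eq : s0 = {pt 0, pt 1} := by
  unfold s0
  decide +kernel

theorem pt01 : pt 0 ≠ pt 1 := by
  intro h
  have := congrArg idx h
  rw [idx_pt (by norm_num), idx_pt (by norm_num)] at this
  omega

theorem pt230 : pt 23 ≠ pt 0 := by
  intro h
  have := congrArg idx h
  rw [idx_pt (by norm_num), idx_pt (by norm_num)] at this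
  omega

theorem pt231 : pt 23 ≠ pt 1 := by
  intro h
  have := congrArg idx h
  rw [idx_pt (by norm_num), idx_pt (by norm_num)] at this
  omega

theorem pt23_notMem_s0 : pt 23 ∉ s0 := by
  rw [s0_eq]
  simp [pt230, pt231]

theorem s0_card : s0.card = 2 := by
  rw [s0_eq, Finset.card_pair pt01]

theorem ncard_pairs : {S : Finset GolayPt | S.card = 2 ∧ pt 23 ∉ S}.ncard = 253 := by
  rw [ncard_pairs_filter (fun S => pt 23 ∉ S) (fun m => Nat.beq (bit m 23) 0)
    (fun m _ => beq_bit_zero_iff (by norm_num))]
  decide +kernel

theorem orbit_s0 : MulAction.orbit (G [23]) s0 = {S : Finset GolayPt | S.card = 2 ∧ pt 23 ∉ S} := by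
  ext S
  rw [MulAction.mem_orbit_iff]
  constructor
  · rintro ⟨⟨g, hg⟩, rfl⟩
    refine ⟨?_, ?_⟩
    · show (g • s0).card = 2
      rw [Finset.card_smul_finset, s0_card]
    · intro h
      have h1 : pt 23 ∈ g • s0 := h
      have h2 : g (pt 23) = pt 23 := hg.2 23 (by simp)
      rw [← h2, apply_mem_smul] at h1
      exact pt23_notMem_s0 h1
  · rintro ⟨h2, hn⟩
    obtain ⟨c, d, hcd, rfl⟩ := Finset.card_eq_two.1 h2
    have hc : pt 23 ≠ c := fun h => hn (by simp [h])
    have hd : pt 23 ≠ d := fun h => hn (by simp [h])
    obtain ⟨g, g1, g2, g3⟩ := exists_three pt230 pt231 pt01 hc hd hcd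
    refine ⟨⟨g.1, g.2, fun i hi => ?_⟩, ?_⟩
    · simp only [List.mem_cons, List.not_mem_nil, or_false] at hi
      subst hi
      exact g1
    · show (g.1) • s0 = _
      rw [s0_eq, Finset.smul_finset_insert, Finset.smul_finset_singleton]
      show ({g.1 (pt 0), g.1 (pt 1)} : Finset GolayPt) = _
      have e2 : g.1 (pt 0) = c := g2
      have e3 : g.1 (pt 1) = d := g3
      rw [e2, e3]

theorem card_stab_s0 : Nat.card ↥(G [23] ⊓ MulAction.stabilizer (Equiv.Perm GolayPt) s0) = 40320 := by
  have h := card_eq_orbit_mul_inf (G [23]) s0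
  rw [orbit_s0, ncard_pairs, card_G1] at h
  omega

theorem ncard_octs : {S : Finset GolayPt | S ∈ octads ∧ pt 23 ∈ S}.ncard = 253 := by
  rw [ncard_octads_transport (k := 1) M24.one_mem (fun S => pt 23 ∈ S) (fun S => pt 23 ∈ S)
    (fun S => by rw [one_smul]) (fun m => Nat.beq (bit m 23) 1)
    (fun m _ => beq_bit_iff (by norm_num))]
  decide +kernel

theorem pt23_mem_Oct0 : pt 23 ∈ Oct0 := by
  rw [Oct0_eq, mem_ofMask, idx_pt (by norm_num)]
  decide +kernel

theorem Oct0_mem : Oct0 ∈ octads := by
  rw [Oct0_eq]
  exact ofMask_mem_octads (by decide +kernel)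

theorem orbit_Oct0 : MulAction.orbit (G [23]) Oct0 =
    {S : Finset GolayPt | S ∈ octads ∧ pt 23 ∈ S} := by
  ext S
  rw [MulAction.mem_orbit_iff]
  constructor
  · rintro ⟨⟨g, hg⟩, rfl⟩
    refine ⟨(smul_mem_octads_iff hg.1 _).2 Oct0_mem, ?_⟩
    have h2 : g (pt 23) = pt 23 := hg.2 23 (by simp)
    show pt 23 ∈ g • Oct0
    rw [← h2, apply_mem_smul]
    exact pt23_mem_Oct0
  · rintro ⟨h2, hn⟩
    obtain ⟨k, hk, hk1, hk2⟩ := exists_flag_one h2 hn
    refine ⟨⟨k, hk, fun i hi => ?_⟩, hk2⟩
    simp only [List.mem_cons, List.not_mem_nil, or_false] at hi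
    subst hi
    exact hk1

theorem card_stab_Oct0 :
    Nat.card ↥(G [23] ⊓ MulAction.stabilizer (Equiv.Perm GolayPt) Oct0) = 40320 := by
  have h := card_eq_orbit_mul_inf (G [23]) Oct0
  rw [orbit_Oct0, ncard_octs, card_G1] at h
  omega

/-! ### the main argument -/

theorem smul_R_eq {K : Subgroup (Equiv.Perm GolayPt)} {R : Finset GolayPt}
    (hinv : ∀ g ∈ K, ∀ q ∈ R, g q ∈ R) {g : Equiv.Perm GolayPt} (hg : g ∈ K) : g • Rᶜ = Rᶜ := by
  have h1 : g • R = R := by
    apply Finset.eq_of_subset_of_card_le
    · intro q hq
      obtain ⟨r, hr, rfl⟩ := Finset.mem_smul_finset.1 hq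
      exact hinv g hg r hr
    · rw [Finset.card_smul_finset]
  rw [Cfsg.Agent.Lib.OrbPair.smul_compl_pt, h1]

theorem main_sub (K : Subgroup (Equiv.Perm GolayPt)) (hK : K ≤ G [23]) (hS : S0 ≤ K)
    (hc : Nat.card K = 40320) :
    K = G [23] ⊓ MulAction.stabilizer (Equiv.Perm GolayPt) s0 ∨
      K = G [23] ⊓ MulAction.stabilizer (Equiv.Perm GolayPt) Oct0 := by
  classical
  have : Finite K := Finite.of_injective _ (Subgroup.inclusion_injective hK)
  let R : Finset GolayPt := Finset.univ.filter (· ∈ MulAction.orbit K (pt 4))
  have memR : ∀ q, q ∈ R ↔ q ∈ MulAction.orbit K (pt 4) := by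
    intro q
    simp [R]
  have hinv : ∀ g ∈ K, ∀ q ∈ R, g q ∈ R := by
    intro g hg q hq
    rw [memR, MulAction.mem_orbit_iff] at hq ⊢
    obtain ⟨⟨h, hh⟩, rfl⟩ := hq
    exact ⟨⟨g * h, K.mul_mem hg hh⟩, rfl⟩
  have h4 : pt 4 ∈ R := by
    rw [memR]
    exact MulAction.mem_orbit_self _
  have hrel : ∀ {i j : ℕ}, i < 24 → rel i j = true → pt i ∈ R → pt j ∈ R := by
    intro i j hi hr hp
    obtain ⟨c, hc, hj⟩ := List.any_eq_true.1 hr
    have hg : decode c ∈ K := hS (L0_mem hc)
    have h1 := hinv _ hg _ hp
    rw [decode_pt (L0_valid hc) hi, Nat.eq_of_beq_eq_true hj] at h1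
    exact h1
  have hn23 : pt 23 ∉ R := by
    intro h
    rw [memR, MulAction.mem_orbit_iff] at h
    obtain ⟨⟨g, hg⟩, hge⟩ := h
    have h1 : g (pt 4) = pt 23 := hge
    have h2 : g (pt 23) = pt 23 := (hK hg).2 23 (by simp)
    rw [← h2] at h1
    have h3 := congrArg idx (g.injective h1)
    rw [idx_pt (by norm_num), idx_pt (by norm_num)] at h3
    omega
  -- the shape of `R`
  let a : Bool := decide (pt 3 ∈ R)
  let b : Bool := decide (pt 0 ∈ R)
  let c : Bool := decide (pt 2 ∈ R)
  have hR : R = ofMask (cand a b c) := by
    ext q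
    rw [mem_ofMask]
    have hq : q = pt (idx q) := (pt_idx q).symm
    have hi := idx_lt q
    generalize idx q = i at hq hi
    subst hq
    rcases cover i (mem_idxL.2 hi) with h | h | h | h | h
    · rw [cand_O1 a b c i h]
      simp only [iff_true]
      exact hrel (by norm_num) (rel_O1 i h) h4
    · rw [cand_O2 a b c i h]
      have h1 := rel_O2 i h
      simp only [a, decide_eq_true_eq]
      exact ⟨hrel hi h1.2, hrel (by norm_num) h1.1⟩
    · rw [cand_O3 a b c i h]
      have h1 := rel_O3 i h
      simp only [b, decide_eq_true_eq]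
      exact ⟨hrel hi h1.2, hrel (by norm_num) h1.1⟩
    · subst h
      rw [cand_O4 a b c]
      simp only [c, decide_eq_true_eq]
    · subst h
      rw [cand_O5 a b c]
      simp only [Bool.false_eq_true, iff_false]
      exact hn23
  have hRcard : R.card = pop (cand a b c) := by
    rw [hR, card_ofMask]
  -- divisibility
  have hdvd : R.card ∣ 40320 := by
    have h := card_eq_orbit_mul_inf K (pt 4)
    have e : (R : Set GolayPt) = MulAction.orbit K (pt 4) := by
      ext q
      exact memR q
    rw [← e, Set.ncard_coe_finset, hc] at h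
    exact ⟨_, h⟩
  -- an element of order 7
  have h7 : Fact (Nat.Prime 7) := ⟨by norm_num⟩
  obtain ⟨y, hy⟩ := exists_prime_orderOf_dvd_card' (G := K) 7 (by rw [hc]; norm_num)
  have hy' : orderOf (y : Equiv.Perm GolayPt) = 7 := by
    rw [Subgroup.orderOf_coe]
    exact hy
  have hmod := card_mod_fixed R y.1 (hinv y.1 y.2) (p := 7) (by rw [← hy']; exact pow_orderOf_eq_one _)
  have hfix : (R.filter fun q => y.1 q = q).card ≤ 3 :=
    fix_bound (hK y.2) hy' (fun q hq => (Finset.mem_filter.1 hq).2)
      (fun h => hn23 (Finset.mem_filter.1 h).1)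
  have hmod7 : R.card % 7 ≤ 3 := by
    rw [hmod]
    have := Nat.mod_le (R.filter fun q => y.1 q = q).card 7
    omega
  rw [hRcard] at hdvd hmod7
  rcases cand_arith a b c hdvd hmod7 with hcase | hcase
  · -- the octad
    right
    have hOct : Rᶜ = Oct0 := by
      rw [Oct0_eq, hR, hcase]
      ext q
      rw [Finset.mem_compl, mem_ofMask, mem_ofMask, not_compl1 _ (mem_idxL.2 (idx_lt q))]
      cases (8536111 : ℕ).testBit (idx q) <;> simp
    apply Subgroup.eq_of_le_of_card_ge
    · intro g hg
      refine ⟨hK hg, ?_⟩
      show g • Oct0 = Oct0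
      rw [← hOct]
      exact smul_R_eq hinv hg
    · rw [card_stab_Oct0, hc]
  · -- the pair
    left
    have hsub : ∀ q ∈ s0, q ∉ R := by
      intro q hq hqR
      rw [s0_eq] at hq
      simp only [Finset.mem_insert, Finset.mem_singleton] at hq
      rw [hR, hcase, mem_ofMask] at hqR
      rcases hq with rfl | rfl
      · rw [idx_pt (by norm_num)] at hqR
        revert hqR
        decide +kernel
      · rw [idx_pt (by norm_num)] at hqR
        revert hqR
        decide +kernel
    apply Subgroup.eq_of_le_of_card_ge
    · intro g hg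
      refine ⟨hK hg, ?_⟩
      show g • s0 = s0
      apply Finset.eq_of_subset_of_card_le
      · intro q hq
        obtain ⟨r, hr, rfl⟩ := Finset.mem_smul_finset.1 hq
        have h1 : r ∈ Rᶜ := Finset.mem_compl.2 (hsub r hr)
        have h2 : g • r ∈ Rᶜ := by
          have := Finset.smul_mem_smul_finset (a := g) h1
          rwa [smul_R_eq hinv hg] at this
        have h3 : g • r ∉ R := Finset.mem_compl.1 h2
        rw [hR, hcase, mem_ofMask] at h3
        have h4' : idx (g • r) ≠ 23 := by
          intro e
          have e2 : g • r = pt 23 := by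
            rw [← pt_idx (g • r), e]
          have e3 : g (pt 23) = pt 23 := (hK hg).2 23 (by simp)
          have e4 : g r = g (pt 23) := by
            rw [e3]
            exact e2
          have e5 := g.injective e4
          rw [e5] at hr
          exact pt23_notMem_s0 hr
        have h5 := not_compl2 _ (mem_idxL.2 (idx_lt (g • r))) (by simpa using h3) h4'
        rw [s0, mem_ofMask]
        exact h5
      · rw [Finset.card_smul_finset]
    · rw [card_stab_s0, hc]

theorem fac_M23 : (Nat.card (G [23])).factorization 2 = 7 := by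
  rw [card_G1]
  have hn : (10200960 : ℕ) ≠ 0 := by norm_num
  apply le_antisymm
  · by_contra h
    have : 8 ≤ (10200960 : ℕ).factorization 2 := by omega
    have h2 := (Nat.prime_two.pow_dvd_iff_le_factorization hn).2 this
    norm_num at h2
  · exact (Nat.prime_two.pow_dvd_iff_le_factorization hn).1 (by norm_num)

/-- Pulling back the conclusion. -/
theorem pull {x : GolayPt} (H : Subgroup ↥(MulAction.stabilizer M24 x)) (c : Equiv.Perm GolayPt) (hcM : c ∈ M24)
    (hcx : c x = pt 23) (T : Finset GolayPt)
    (hK : (H.map ((MulAut.conj c).toMonoidHom.comp (M24.subtype.comp (Subgroup.subtype _)))) =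
      G [23] ⊓ MulAction.stabilizer (Equiv.Perm GolayPt) T) :
    H = (MulAction.stabilizer M24 (c⁻¹ • T)).subgroupOf (MulAction.stabilizer M24 x) := by
  ext h
  rw [Subgroup.mem_subgroupOf, MulAction.mem_stabilizer_iff]
  have hh : ((h : M24) : Equiv.Perm GolayPt) x = x := h.2
  constructor
  · intro hH
    have h1 : c * ((h : M24) : Equiv.Perm GolayPt) * c⁻¹ ∈
        G [23] ⊓ MulAction.stabilizer (Equiv.Perm GolayPt) T := by
      rw [← hK]
      exact ⟨h, hH, rfl⟩
    have h2 : (c * ((h : M24) : Equiv.Perm GolayPt) * c⁻¹) • T = T := h1.2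
    show ((h : M24) : Equiv.Perm GolayPt) • (c⁻¹ • T) = c⁻¹ • T
    have h3 : ((h : M24) : Equiv.Perm GolayPt) = c⁻¹ * (c * ((h : M24) : Equiv.Perm GolayPt) * c⁻¹) * c := by
      group
    conv_lhs => rw [h3]
    rw [mul_smul, mul_smul, smul_inv_smul, h2]
  · intro hst
    have hst' : ((h : M24) : Equiv.Perm GolayPt) • (c⁻¹ • T) = c⁻¹ • T := hst
    have h1 : c * ((h : M24) : Equiv.Perm GolayPt) * c⁻¹ ∈
        G [23] ⊓ MulAction.stabilizer (Equiv.Perm GolayPt) T := by
      refine ⟨⟨M24.mul_mem (M24.mul_mem hcM h.1.2) (M24.inv_mem hcM), fun i hi => ?_⟩, ?_⟩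
      · simp only [List.mem_cons, List.not_mem_nil, or_false] at hi
        subst hi
        rw [← hcx, Equiv.Perm.mul_apply, Equiv.Perm.mul_apply]
        simp [hh]
      · show (c * ((h : M24) : Equiv.Perm GolayPt) * c⁻¹) • T = T
        rw [mul_smul, mul_smul, hst', smul_inv_smul]
    rw [← hK] at h1
    obtain ⟨h', hh', he⟩ := h1
    have hinj : Function.Injective ((MulAut.conj c).toMonoidHom.comp (M24.subtype.comp (Subgroup.subtype (MulAction.stabilizer M24 x)))) :=
      (MulAut.conj c).injective.comp (M24.subtype_injective.comp (Subgroup.subtype_injective _))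
    have : h' = h := hinj (by rw [he]; rfl)
    rwa [← this]

/-- Subgroups of index 253 in the Mathieu group of degree 23 are exactly the duad stabilisers and the heptad stabilisers. -/
theorem result (x : Cfsg.GolayPt) (H : Subgroup ↥(MulAction.stabilizer Cfsg.M24 x)) (hH : H.index = 253) : (∃ s : Finset Cfsg.GolayPt, s.card = 2 ∧ x ∉ s ∧ H = (MulAction.stabilizer Cfsg.M24 s).subgroupOf (MulAction.stabilizer Cfsg.M24 x)) ∨ ∃ o ∈ Cfsg.octads, x ∈ o ∧ H = (MulAction.stabilizer Cfsg.M24 o).subgroupOf (MulAction.stabilizer Cfsg.M24 x) := by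
  obtain ⟨b, hb⟩ := exists_ne x
  obtain ⟨g0, h0, -⟩ := exists_two hb.symm pt230
  let ψ : ↥(MulAction.stabilizer M24 x) →* Equiv.Perm GolayPt :=
    (MulAut.conj (g0 : Equiv.Perm GolayPt)).toMonoidHom.comp (M24.subtype.comp (Subgroup.subtype _))
  have hψ : Function.Injective ψ :=
    (MulAut.conj (g0 : Equiv.Perm GolayPt)).injective.comp
      (M24.subtype_injective.comp (Subgroup.subtype_injective _))
  let K0 : Subgroup (Equiv.Perm GolayPt) := H.map ψ
  have hcard0 : Nat.card K0 = Nat.card H :=
    Nat.card_congr (Subgroup.equivMapOfInjective H ψ hψ).symm.toEquiv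
  have hH40320 : Nat.card H = 40320 := by
    have h1 := H.index_mul_card
    rw [hH, card_stabilizer_one] at h1
    omega
  have hK0 : K0 ≤ G [23] := by
    rintro _ ⟨⟨⟨y, hyM⟩, hy1⟩, -, rfl⟩
    have hy1' : y x = x := hy1
    have h0' : (g0 : Equiv.Perm GolayPt) x = pt 23 := h0
    refine ⟨?_, fun i hi => ?_⟩
    · show (g0 : Equiv.Perm GolayPt) * y * (g0 : Equiv.Perm GolayPt)⁻¹ ∈ M24
      exact M24.mul_mem (M24.mul_mem g0.2 hyM) (M24.inv_mem g0.2)
    · simp only [List.mem_cons, List.not_mem_nil, or_false] at hi
      subst hi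
      show ((g0 : Equiv.Perm GolayPt) * y * (g0 : Equiv.Perm GolayPt)⁻¹) (pt 23) = pt 23
      have e : (g0 : Equiv.Perm GolayPt)⁻¹ ((g0 : Equiv.Perm GolayPt) x) = x := by simp
      rw [Equiv.Perm.mul_apply, Equiv.Perm.mul_apply, ← h0', e, hy1']
  obtain ⟨g, hg, hgS⟩ := exists_conj_sylow (p := 2) (hp := ⟨Nat.prime_two⟩) hK0 S0_le
    (by rw [S0_card, fac_M23]; norm_num) (by rw [fac_M23, hcard0, hH40320]; norm_num)
  let K1 : Subgroup (Equiv.Perm GolayPt) := K0.map (MulAut.conj g).toMonoidHom
  have hcard1 : Nat.card K1 = 40320 := by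
    rw [← hH40320, ← hcard0]
    exact Nat.card_congr ((MulAut.conj g).subgroupMap K0).symm.toEquiv
  have hK1 : K1 ≤ G [23] := by
    rintro _ ⟨y, hy, rfl⟩
    show g * y * g⁻¹ ∈ G [23]
    exact (G [23]).mul_mem ((G [23]).mul_mem hg (hK0 hy)) ((G [23]).inv_mem hg)
  have hS1 : S0 ≤ K1 := by
    intro s hs
    refine ⟨g⁻¹ * s * g, hgS s hs, ?_⟩
    show g * (g⁻¹ * s * g) * g⁻¹ = s
    group
  let c : Equiv.Perm GolayPt := g * (g0 : Equiv.Perm GolayPt)
  have hcM : c ∈ M24 := M24.mul_mem hg.1 g0.2
  have hcx : c x = pt 23 := by
    show g ((g0 : Equiv.Perm GolayPt) x) = pt 23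
    have h0' : (g0 : Equiv.Perm GolayPt) x = pt 23 := h0
    rw [h0']
    exact hg.2 23 (by simp)
  have hKmap : K1 = H.map ((MulAut.conj c).toMonoidHom.comp (M24.subtype.comp (Subgroup.subtype _))) := by
    ext y
    constructor
    · rintro ⟨_, ⟨h, hh, rfl⟩, rfl⟩
      refine ⟨h, hh, ?_⟩
      show c * _ * c⁻¹ = g * ((g0 : Equiv.Perm GolayPt) * _ * (g0 : Equiv.Perm GolayPt)⁻¹) * g⁻¹
      show g * (g0 : Equiv.Perm GolayPt) * _ * (g * (g0 : Equiv.Perm GolayPt))⁻¹ = _
      group
    · rintro ⟨h, hh, rfl⟩
      refine ⟨ψ h, ⟨h, hh, rfl⟩, ?_⟩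
      show g * ((g0 : Equiv.Perm GolayPt) * _ * (g0 : Equiv.Perm GolayPt)⁻¹) * g⁻¹ = c * _ * c⁻¹
      show _ = g * (g0 : Equiv.Perm GolayPt) * _ * (g * (g0 : Equiv.Perm GolayPt))⁻¹
      group
  have hxmem : ∀ T : Finset GolayPt, x ∈ c⁻¹ • T ↔ pt 23 ∈ T := by
    intro T
    rw [← apply_mem_smul c, hcx, smul_inv_smul]
  rcases main_sub K1 hK1 hS1 hcard1 with h | h
  · left
    refine ⟨c⁻¹ • s0, ?_, ?_, ?_⟩
    · rw [Finset.card_smul_finset, s0_card]
    · rw [hxmem]
      exact pt23_notMem_s0
    · exact pull H c hcM hcx s0 (hKmap.symm.trans h)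
  · right
    refine ⟨c⁻¹ • Oct0, ?_, ?_, ?_⟩
    · exact (smul_mem_octads_iff (M24.inv_mem hcM) _).2 Oct0_mem
    · rw [hxmem]
      exact pt23_mem_Oct0
    · exact pull H c hcM hcx _ (hKmap.symm.trans h)

end Cfsg.Agent.S1609
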