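import Mathlib
import Cfsg.Statements.S1610
import Cfsg.Agent.Lib.Hexacode

set_option autoImplicit false
open Cfsg

namespace Cfsg.Agent.S1610

open Cfsg.Agent.Lib.Hexacode

/-- the weight count over the concrete field -/
theorem count (n : ℕ) : ((Finset.univ.filter fun t : K × K × K =>
    (Finset.univ.filter fun i => wK t i ≠ 0).card = n).card =
      (if n = 0 then 1 else if n = 4 then 45 else if n = 6 then 18 else 0)) := by
  have h : ∀ t : K × K × K, (Finset.univ.filter fun i => wK t i ≠ 0).card ≤ 6 := by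
    intro t
    simpa using Finset.card_le_univ (Finset.univ.filter fun i => wK t i ≠ 0)
  by_cases hn : n ≤ 6
  · interval_cases n <;> first | decide +kernel
  · have : (Finset.univ.filter fun t : K × K × K =>
        (Finset.univ.filter fun i => wK t i ≠ 0).card = n) = ∅ := by
      ext t; simp only [Finset.mem_filter, Finset.mem_univ, true_and, Finset.notMem_empty, iff_false]
      intro h'; exact hn (h' ▸ h t)
    rw [this]
    have h4 : n ≠ 0 := by omega
    have h5 : n ≠ 4 := by omega
    have h6 : n ≠ 6 := by omega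
    simp [h4, h5, h6]

theorem wk_zero (t : K × K × K) (h : wK t ≠ 0) :
    (Finset.univ.filter fun i => wK t i ≠ 0).card = 4 ∨
      (Finset.univ.filter fun i => wK t i ≠ 0).card = 6 := by
  revert t
  decide +kernel

/-- The hexacode has 64 words, minimum weight 4, and weight distribution 0^1 4^45 6^18. -/
theorem result (F : Type*) [Field F] [Fintype F] [DecidableEq F] (hF : Fintype.card F = 4) (ω : F) (hω : ω ^ 2 + ω + 1 = 0) : Nat.card ↥(Cfsg.hexacode F ω) = 64 ∧ (∀ x ∈ Cfsg.hexacode F ω, x ≠ 0 → (Finset.univ.filter fun i => x i ≠ 0).card = 4 ∨ (Finset.univ.filter fun i => x i ≠ 0).card = 6) ∧ {x : Fin 6 → F | x ∈ Cfsg.hexacode F ω ∧ (Finset.univ.filter fun i => x i ≠ 0).card = 4}.ncard = 45 ∧ {x : Fin 6 → F | x ∈ Cfsg.hexacode F ω ∧ (Finset.univ.filter fun i => x i ≠ 0).card = 6}.ncard = 18 := by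
  have hmem := mem_hexacode_iff hF ω hω
  have hinj := wF_injective hF ω hω
  have hsupp := support_wF hF ω hω
  have hcount : ∀ n : ℕ, {x : Fin 6 → F | x ∈ Cfsg.hexacode F ω ∧
      (Finset.univ.filter fun i => x i ≠ 0).card = n}.ncard =
      (if n = 0 then 1 else if n = 4 then 45 else if n = 6 then 18 else 0) := by
    intro n
    have : {x : Fin 6 → F | x ∈ Cfsg.hexacode F ω ∧
        (Finset.univ.filter fun i => x i ≠ 0).card = n} =
        wF ω '' (↑(Finset.univ.filter fun t : K × K × K =>
          (Finset.univ.filter fun i => wK t i ≠ 0).card = n) : Set (K × K × K)) := by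
      ext x
      simp only [Set.mem_ofPred_eq, Set.mem_image, Finset.coe_filter, Finset.mem_univ, true_and]
      constructor
      · rintro ⟨hx, hc⟩
        obtain ⟨t, rfl⟩ := (hmem x).1 hx
        exact ⟨t, by rw [← hsupp]; exact hc, rfl⟩
      · rintro ⟨t, ht, rfl⟩
        exact ⟨(hmem _).2 ⟨t, rfl⟩, by rw [hsupp]; exact ht⟩
    rw [this, Set.ncard_image_of_injective _ hinj, Set.ncard_coe_finset, count]
  refine ⟨?_, ?_, ?_, ?_⟩
  · have e : (K × K × K) ≃ ↥(Cfsg.hexacode F ω) :=
      Equiv.ofBijective (fun t => ⟨wF ω t, (hmem _).2 ⟨t, rfl⟩⟩) (by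
        constructor
        · intro s t h
          exact hinj (congrArg Subtype.val h)
        · rintro ⟨x, hx⟩
          obtain ⟨t, rfl⟩ := (hmem x).1 hx
          exact ⟨t, rfl⟩)
    rw [← Nat.card_congr e]
    simp
  · intro x hx hx0
    obtain ⟨t, rfl⟩ := (hmem x).1 hx
    rw [hsupp]
    apply wk_zero
    rintro h
    apply hx0
    funext i
    simp only [wF, h, Pi.zero_apply]
    rfl
  · simpa using hcount 4
  · simpa using hcount 6

end Cfsg.Agent.S1610
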