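import Mathlib
import Cfsg.Statements.S1611
import Cfsg.Agent.Lib.Hexacode

set_option autoImplicit false
open Cfsg

namespace Cfsg.Agent.S1611

open Cfsg.Agent.Lib.Hexacode

/-- monomial map over the concrete field -/
def monoK (σ : Equiv.Perm (Fin 6)) (c x : Fin 6 → K) : Fin 6 → K :=
  fun i => mulK (c i) (x (σ.symm i))

/-- the parity checks of the hexacode -/
def pc (x : Fin 6 → K) : Prop :=
  x 3 = addK (addK (x 0) (x 1)) (x 2) ∧
  x 4 = addK (addK (mulK 3 (x 0)) (mulK 2 (x 1))) (x 2) ∧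
  x 5 = addK (addK (mulK 2 (x 0)) (mulK 3 (x 1))) (x 2)

instance (x : Fin 6 → K) : Decidable (pc x) := by unfold pc; infer_instance

theorem pc_wK : ∀ t, pc (wK t) := by decide +kernel

theorem solve : ∀ x0 x1 x2 : K, ∃ t, wK t 0 = x0 ∧ wK t 1 = x1 ∧ wK t 2 = x2 := by decide +kernel

theorem pc_iff (x : Fin 6 → K) : pc x ↔ ∃ t, x = wK t := by
  constructor
  · intro h
    obtain ⟨t, h0, h1, h2⟩ := solve (x 0) (x 1) (x 2)
    obtain ⟨h3, h4, h5⟩ := h
    obtain ⟨g3, g4, g5⟩ := pc_wK t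
    refine ⟨t, ?_⟩
    funext i
    fin_cases i
    · exact h0.symm
    · exact h1.symm
    · exact h2.symm
    · show x 3 = wK t 3
      rw [h3, g3, h0, h1, h2]
    · show x 4 = wK t 4
      rw [h4, g4, h0, h1, h2]
    · show x 5 = wK t 5
      rw [h5, g5, h0, h1, h2]
  · rintro ⟨t, rfl⟩
    exact pc_wK t

/-- the check on the three generators -/
def chk (σ : Equiv.Perm (Fin 6)) (c : Fin 6 → K) : Prop :=
  pc (monoK σ c v1) ∧ pc (monoK σ c v2) ∧ pc (monoK σ c v3)

instance (σ : Equiv.Perm (Fin 6)) (c : Fin 6 → K) : Decidable (chk σ c) := by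
  unfold chk; infer_instance

set_option maxRecDepth 100000 in
theorem diag_const : ∀ c : Fin 6 → K, (∀ i, c i ≠ 0) → chk 1 c → ∀ i j, c i = c j := by
  decide +kernel

set_option maxRecDepth 100000 in
theorem swap_fails : ∀ c : Fin 6 → K, (∀ i, c i ≠ 0) → ¬ chk (Equiv.swap 0 1) c := by
  decide +kernel

set_option maxRecDepth 100000 in
theorem three_cycle_ok : ∀ σ : Equiv.Perm (Fin 6), (Finset.univ.filter fun i => σ i ≠ i).card = 3 →
    ∃ c : Fin 6 → K, (∀ i, c i ≠ 0) ∧ chk σ c := by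
  decide +kernel

section
variable {F : Type*} [Field F] [Fintype F] (hF : Fintype.card F = 4) (ω : F)
  (hω : ω ^ 2 + ω + 1 = 0)

/-- `P σ c`: the monomial map preserves the hexacode -/
def P (ω : F) (σ : Equiv.Perm (Fin 6)) (c : Fin 6 → Fˣ) : Prop :=
  ∀ x ∈ Cfsg.hexacode F ω, Cfsg.monomialMap σ c x ∈ Cfsg.hexacode F ω

include hF hω in
theorem mono_phi (σ : Equiv.Perm (Fin 6)) (c : Fin 6 → Fˣ) (c' : Fin 6 → K)
    (hc : ∀ i, phi ω (c' i) = c i) (x : Fin 6 → K) :
    Cfsg.monomialMap σ c (fun i => phi ω (x i)) = fun i => phi ω (monoK σ c' x i) := by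
  funext i
  simp only [Cfsg.monomialMap, monoK, phi_mul hF ω hω, hc]

include hF hω in
theorem phi_v1_mem : (fun i => phi ω (v1 i)) ∈ Cfsg.hexacode F ω := by
  rw [mem_hexacode_iff hF ω hω]
  refine ⟨(1, 0, 0), ?_⟩
  funext i
  simp only [wF]
  congr 1
  revert i
  decide +kernel

include hF hω in
theorem phi_v2_mem : (fun i => phi ω (v2 i)) ∈ Cfsg.hexacode F ω := by
  rw [mem_hexacode_iff hF ω hω]
  refine ⟨(0, 1, 0), ?_⟩
  funext i
  simp only [wF]
  congr 1
  revert i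
  decide +kernel

include hF hω in
theorem phi_v3_mem : (fun i => phi ω (v3 i)) ∈ Cfsg.hexacode F ω := by
  rw [mem_hexacode_iff hF ω hω]
  refine ⟨(0, 0, 1), ?_⟩
  funext i
  simp only [wF]
  congr 1
  revert i
  decide +kernel

include hF hω in
theorem pc_of_phi_mem (x : Fin 6 → K) (h : (fun i => phi ω (x i)) ∈ Cfsg.hexacode F ω) : pc x := by
  rw [mem_hexacode_iff hF ω hω] at h
  obtain ⟨t, ht⟩ := h
  rw [pc_iff]
  refine ⟨t, ?_⟩
  funext i
  exact phi_injective hF ω hω (congrFun ht i)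

include hF hω in
theorem phi_mem_of_pc (x : Fin 6 → K) (h : pc x) : (fun i => phi ω (x i)) ∈ Cfsg.hexacode F ω := by
  rw [pc_iff] at h
  obtain ⟨t, rfl⟩ := h
  rw [mem_hexacode_iff hF ω hω]
  exact ⟨t, rfl⟩

include hF hω in
theorem P_imp_chk (σ : Equiv.Perm (Fin 6)) (c : Fin 6 → Fˣ) (c' : Fin 6 → K)
    (hc : ∀ i, phi ω (c' i) = c i) (h : P ω σ c) : chk σ c' := by
  refine ⟨?_, ?_, ?_⟩
  · apply pc_of_phi_mem hF ω hω
    rw [← mono_phi hF ω hω σ c c' hc]
    exact h _ (phi_v1_mem hF ω hω)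
  · apply pc_of_phi_mem hF ω hω
    rw [← mono_phi hF ω hω σ c c' hc]
    exact h _ (phi_v2_mem hF ω hω)
  · apply pc_of_phi_mem hF ω hω
    rw [← mono_phi hF ω hω σ c c' hc]
    exact h _ (phi_v3_mem hF ω hω)

include hF hω in
theorem chk_imp_P (σ : Equiv.Perm (Fin 6)) (c : Fin 6 → Fˣ) (c' : Fin 6 → K)
    (hc : ∀ i, phi ω (c' i) = c i) (h : chk σ c') : P ω σ c := by
  intro x hx
  have hbij := phi_bijective hF ω hω
  have h1 := phi_mem_of_pc hF ω hω _ h.1
  have h2 := phi_mem_of_pc hF ω hω _ h.2.1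
  have h3 := phi_mem_of_pc hF ω hω _ h.2.2
  rw [← mono_phi hF ω hω σ c c' hc] at h1 h2 h3
  -- `monomialMap` is linear
  let L : (Fin 6 → F) →ₗ[F] (Fin 6 → F) :=
    { toFun := Cfsg.monomialMap σ c
      map_add' := by
        intro a b; funext i; simp [Cfsg.monomialMap, mul_add]
      map_smul' := by
        intro a b; funext i; simp [Cfsg.monomialMap, mul_left_comm] }
  have hle : Cfsg.hexacode F ω ≤ (Cfsg.hexacode F ω).comap L := by
    unfold Cfsg.hexacode
    rw [Submodule.span_le]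
    rintro y hy
    have ea : (![ω, ω ^ 2, ω ^ 2, ω, ω ^ 2, ω] : Fin 6 → F) = fun i => phi ω (v1 i) := by
      rw [omega_sq hF ω hω]
      funext i; fin_cases i <;> simp [phi, v1]
    have eb : (![ω ^ 2, ω, ω, ω ^ 2, ω ^ 2, ω] : Fin 6 → F) = fun i => phi ω (v2 i) := by
      rw [omega_sq hF ω hω]
      funext i; fin_cases i <;> simp [phi, v2]
    have ec : (![ω ^ 2, ω, ω ^ 2, ω, ω, ω ^ 2] : Fin 6 → F) = fun i => phi ω (v3 i) := by
      rw [omega_sq hF ω hω]
      funext i; fin_cases i <;> simp [phi, v3]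
    rw [ea, eb, ec] at hy
    simp only [Set.mem_insert_iff, Set.mem_singleton_iff] at hy
    rcases hy with rfl | rfl | rfl
    · exact h1
    · exact h2
    · exact h3
  exact hle hx

omit [Fintype F] in
theorem mono_mul (σ τ : Equiv.Perm (Fin 6)) (c d : Fin 6 → Fˣ) (x : Fin 6 → F) :
    Cfsg.monomialMap (σ * τ) (fun i => c i * d (σ.symm i)) x =
      Cfsg.monomialMap σ c (Cfsg.monomialMap τ d x) := by
  funext i
  simp only [Cfsg.monomialMap, Units.val_mul, mul_assoc]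
  rfl

omit [Fintype F] in
theorem P_mul {σ τ : Equiv.Perm (Fin 6)} {c d : Fin 6 → Fˣ} (h : P ω σ c) (h' : P ω τ d) :
    P ω (σ * τ) (fun i => c i * d (σ.symm i)) := by
  intro x hx
  rw [mono_mul]
  exact h _ (h' _ hx)

omit hω [Fintype F] in
theorem mono_inv (σ : Equiv.Perm (Fin 6)) (c : Fin 6 → Fˣ) (x : Fin 6 → F) :
    Cfsg.monomialMap σ⁻¹ (fun i => (c (σ i))⁻¹) (Cfsg.monomialMap σ c x) = x := by
  funext i
  change ((c (σ i))⁻¹ : Fˣ).val * ((c (σ i)).val * x (σ.symm (σ i))) = x i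
  simp

theorem P_inv {σ : Equiv.Perm (Fin 6)} {c : Fin 6 → Fˣ} (h : P ω σ c) :
    P ω σ⁻¹ (fun i => (c (σ i))⁻¹) := by
  -- the map is injective on the finite set `hexacode`, so surjective
  classical
  have hinj : Function.Injective (Cfsg.monomialMap σ c) := by
    intro a b hab
    have := congrArg (Cfsg.monomialMap σ⁻¹ (fun i => (c (σ i))⁻¹)) hab
    rwa [mono_inv, mono_inv] at this
  let M : ↥(Cfsg.hexacode F ω) → ↥(Cfsg.hexacode F ω) := fun x => ⟨_, h x.1 x.2⟩
  have hMinj : Function.Injective M := by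
    intro a b hab
    exact Subtype.ext (hinj (congrArg Subtype.val hab))
  have hMsurj : Function.Surjective M := Finite.surjective_of_injective hMinj
  intro y hy
  obtain ⟨x, hx⟩ := hMsurj ⟨y, hy⟩
  have : y = Cfsg.monomialMap σ c x.1 := (congrArg Subtype.val hx).symm
  rw [this, mono_inv]
  exact x.2

omit [Fintype F] in
theorem P_one : P ω 1 (fun _ => 1) := by
  intro x hx
  have : Cfsg.monomialMap 1 (fun _ => (1 : Fˣ)) x = x := by
    funext i
    change ((1 : Fˣ) : F) * x i = x i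
    simp
  rwa [this]

/-- the subgroup of permutation parts -/
def H (ω : F) : Subgroup (Equiv.Perm (Fin 6)) where
  carrier := {σ | ∃ c, P ω σ c}
  one_mem' := ⟨_, P_one ω⟩
  mul_mem' := by
    rintro σ τ ⟨c, hc⟩ ⟨d, hd⟩
    exact ⟨_, P_mul ω hc hd⟩
  inv_mem' := by
    rintro σ ⟨c, hc⟩
    exact ⟨_, P_inv ω hc⟩

include hF hω in
theorem phi_units_lift (c : Fin 6 → Fˣ) : ∃ c' : Fin 6 → K, (∀ i, phi ω (c' i) = c i) ∧ ∀ i, c' i ≠ 0 := by
  have hbij := phi_bijective hF ω hω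
  choose c' hc' using fun i => hbij.2 (c i : F)
  refine ⟨c', hc', fun i h => ?_⟩
  have := hc' i
  rw [h] at this
  exact (c i).ne_zero (this.symm.trans rfl)

include hF hω in
theorem three_cycle_mem (σ : Equiv.Perm (Fin 6)) (hσ : σ.IsThreeCycle) : σ ∈ H ω := by
  have hs : σ.support.card = 3 := card_support_eq_three_iff.2 hσ
  have : (Finset.univ.filter fun i => σ i ≠ i).card = 3 := by
    rw [← hs]; congr 1
  obtain ⟨c', hc', hchk⟩ := three_cycle_ok σ this
  have hne : ∀ i, phi ω (c' i) ≠ 0 := fun i h => hc' i ((phi_eq_zero_iff hF ω hω _).1 h)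
  refine ⟨fun i => Units.mk0 _ (hne i), chk_imp_P hF ω hω σ _ c' (fun i => rfl) hchk⟩

include hF hω in
theorem alt_le_H : alternatingGroup (Fin 6) ≤ H ω := by
  rw [← Equiv.Perm.closure_three_cycles_eq_alternating, Subgroup.closure_le]
  intro σ hσ
  exact three_cycle_mem hF ω hω σ hσ

include hF hω in
theorem swap_not_mem : Equiv.swap (0 : Fin 6) 1 ∉ H ω := by
  rintro ⟨c, hc⟩
  obtain ⟨c', h1, h2⟩ := phi_units_lift hF ω hω c
  exact swap_fails c' h2 (P_imp_chk hF ω hω _ c c' h1 hc)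

include hF hω in
theorem H_eq_alt : H ω = alternatingGroup (Fin 6) := by
  apply le_antisymm _ (alt_le_H hF ω hω)
  intro σ hσ
  by_contra hodd
  have hs : Equiv.Perm.sign σ = -1 := by
    rcases Int.units_eq_one_or (Equiv.Perm.sign σ) with h | h
    · exact absurd (Equiv.Perm.mem_alternatingGroup.2 h) hodd
    · exact h
  apply swap_not_mem hF ω hω
  have hk : σ⁻¹ * Equiv.swap (0 : Fin 6) 1 ∈ alternatingGroup (Fin 6) := by
    rw [Equiv.Perm.mem_alternatingGroup, Equiv.Perm.sign_mul, Equiv.Perm.sign_inv, hs,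
      Equiv.Perm.sign_swap (by decide)]
    rfl
  have := (H ω).mul_mem hσ (alt_le_H hF ω hω hk)
  simpa using this

include hF hω in
theorem diag_const_F (c : Fin 6 → Fˣ) (h : P ω 1 c) (i j : Fin 6) : c i = c j := by
  obtain ⟨c', h1, h2⟩ := phi_units_lift hF ω hω c
  have := diag_const c' h2 (P_imp_chk hF ω hω _ c c' h1 h) i j
  apply Units.ext
  rw [← h1, ← h1, this]

omit [Fintype F] in
theorem P_scale {σ : Equiv.Perm (Fin 6)} {c : Fin 6 → Fˣ} (u : Fˣ) (h : P ω σ c) :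
    P ω σ (fun i => u * c i) := by
  intro x hx
  have : Cfsg.monomialMap σ (fun i => u * c i) x = (u : F) • Cfsg.monomialMap σ c x := by
    funext i
    simp [Cfsg.monomialMap, mul_assoc]
  rw [this]
  exact (Cfsg.hexacode F ω).smul_mem _ (h x hx)

include hF hω in
theorem fiber_const {σ : Equiv.Perm (Fin 6)} {c d : Fin 6 → Fˣ} (hc : P ω σ c) (hd : P ω σ d)
    (i j : Fin 6) : d i * (c i)⁻¹ = d j * (c j)⁻¹ := by
  have h1 := P_mul ω hd (P_inv ω hc)
  have h2 : (fun i => d i * (fun i => (c (σ i))⁻¹) (σ.symm i)) = fun i => d i * (c i)⁻¹ := by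
    funext i; simp
  rw [h2, mul_inv_cancel] at h1
  exact diag_const_F hF ω hω _ h1 i j

end

/-- The monomial automorphism group of the hexacode has order 1080: its diagonal part is the scalars and its permutation parts form the alternating group of degree 6. -/
theorem result (F : Type*) [Field F] [Fintype F] [DecidableEq F] (hF : Fintype.card F = 4) (ω : F) (hω : ω ^ 2 + ω + 1 = 0) : Nat.card {f : Equiv.Perm (Fin 6) × (Fin 6 → Fˣ) // (∀ x ∈ Cfsg.hexacode F ω, Cfsg.monomialMap f.1 f.2 x ∈ Cfsg.hexacode F ω)} = 1080 ∧ (∀ c : Fin 6 → Fˣ, (∀ x ∈ Cfsg.hexacode F ω, Cfsg.monomialMap 1 c x ∈ Cfsg.hexacode F ω) → ∀ i j, c i = c j) ∧ {σ : Equiv.Perm (Fin 6) | ∃ c : Fin 6 → Fˣ, (∀ x ∈ Cfsg.hexacode F ω, Cfsg.monomialMap σ c x ∈ Cfsg.hexacode F ω)} = (alternatingGroup (Fin 6) : Set (Equiv.Perm (Fin 6))) := by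
  have hH := H_eq_alt hF ω hω
  refine ⟨?_, fun c h i j => diag_const_F hF ω hω c h i j, ?_⟩
  · -- a bijection with `alternatingGroup × Fˣ`
    have hw : ∀ σ : alternatingGroup (Fin 6), ∃ c, P ω σ.1 c := by
      intro σ
      have : σ.1 ∈ H ω := by rw [hH]; exact σ.2
      exact this
    choose w hw using hw
    let e : (alternatingGroup (Fin 6)) × Fˣ → {f : Equiv.Perm (Fin 6) × (Fin 6 → Fˣ) // (∀ x ∈ Cfsg.hexacode F ω, Cfsg.monomialMap f.1 f.2 x ∈ Cfsg.hexacode F ω)} :=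
      fun p => ⟨(p.1.1, fun i => p.2 * w p.1 i), P_scale ω p.2 (hw p.1)⟩
    have he : Function.Bijective e := by
      constructor
      · rintro ⟨σ, u⟩ ⟨τ, v⟩ h
        have h1 : σ.1 = τ.1 := congrArg (fun f => f.1.1) h
        have h1' : σ = τ := Subtype.ext h1
        subst h1'
        have h2 : u * w σ 0 = v * w σ 0 := congrFun (congrArg (fun f => f.1.2) h) 0
        rw [mul_left_inj] at h2
        rw [h2]
      · rintro ⟨⟨σ, d⟩, hd⟩
        have hσ : σ ∈ alternatingGroup (Fin 6) := by rw [← hH]; exact ⟨d, hd⟩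
        refine ⟨(⟨σ, hσ⟩, d 0 * (w ⟨σ, hσ⟩ 0)⁻¹), ?_⟩
        apply Subtype.ext
        apply Prod.ext
        · rfl
        · funext i
          have := fiber_const hF ω hω (hw ⟨σ, hσ⟩) hd 0 i
          show d 0 * (w ⟨σ, hσ⟩ 0)⁻¹ * w ⟨σ, hσ⟩ i = d i
          rw [this]
          simp
    rw [← Nat.card_congr (Equiv.ofBijective e he), Nat.card_prod]
    have h1 : Nat.card (alternatingGroup (Fin 6)) = 360 := by
      rw [Nat.card_eq_fintype_card]
      decide +kernel
    have h2 : Nat.card Fˣ = 3 := by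
      rw [Nat.card_eq_fintype_card, Fintype.card_units, hF]
    rw [h1, h2]
  · have : (H ω : Set (Equiv.Perm (Fin 6))) = (alternatingGroup (Fin 6) : Set (Equiv.Perm (Fin 6))) := by
      rw [hH]
    rw [← this]
    rfl

end Cfsg.Agent.S1611
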