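-- Fischer: the normaliser of a basis contains a Sylow 2-subgroup and is doubly transitive on the basis.
import Mathlib
import Cfsg.Statements.S1612
import Cfsg.Agent.Lib.FischerBasis19

set_option autoImplicit false
open Cfsg

namespace Cfsg.Agent.S1612

/-- In a 3-transposition group (no solvable normal subgroup, perfect derived group), the normaliser of a commuting set of transpositions of maximum size contains a Sylow 2-subgroup and is doubly transitive on the set. -/
theorem result {G : Type*} [Group G] [Finite G] (hsol : ∀ N : Subgroup G, N.Normal → Group.IsSolvable ↥N → N = ⊥) (hperf : ⁅commutator G, commutator G⁆ = commutator G) {D : Set G} (hD : Cfsg.IsThreeTranspositionClass D) {E : Set G} (hE : E ⊆ D) (hc : ∀ a ∈ E, ∀ b ∈ E, Commute a b) (hmax : ∀ E' : Set G, E' ⊆ D → (∀ a ∈ E', ∀ b ∈ E', Commute a b) → E'.ncard ≤ E.ncard) : (∃ P : Sylow 2 G, (P : Subgroup G) ≤ Subgroup.normalizer E) ∧ ∀ a ∈ E, ∀ b ∈ E, ∀ c ∈ E, ∀ d ∈ E, a ≠ b → c ≠ d → ∃ g ∈ Subgroup.normalizer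 E, g * a * g⁻¹ = c ∧ g * b * g⁻¹ = d := by
  have hB : Cfsg.Agent.Lib.FischerBasis19.IsBasis D E := ⟨hE, hc, hmax⟩
  obtain ⟨h1, h2⟩ := Cfsg.Agent.Lib.FischerDx19.fischer_simple hsol hperf hD
  refine ⟨Cfsg.Agent.Lib.FischerBasis19.exists_sylow_le hD hB, ?_⟩
  intro a ha b hb c hc' d hd hab hcd
  exact Cfsg.Agent.Lib.FischerBasis19.two_transitive (Cfsg.Agent.Lib.FischerDx19.Setup.of_simple hD h1 h2) hB ha hb hc' hd hab hcd

end Cfsg.Agent.S1612
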