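-- Statement S1626.
import Cfsg.Statements.S1626
import Cfsg.Agent.Lib.J3IsoMain
import Cfsg.Agent.Lib.J3Transport

set_option autoImplicit false
open scoped MatrixGroups
open Matrix
open Cfsg

namespace Cfsg.Agent.S1626

open Cfsg.Spor Subgroup
open Cfsg.Agent.Lib.F4Mat Cfsg.Agent.Lib.ChainCert Cfsg.Agent.Lib.J3Code Cfsg.Agent.Lib.J3Data
  Cfsg.Agent.Lib.J3Chain Cfsg.Agent.Lib.J3Transport Cfsg.Agent.Lib.J3IsoMain

section
variable {F : Type} [Field F] (φ : K4 ≃+* F)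

/-- push a vector -/
def pv (x : F9 → K4) : F9 → F := fun z => φ (x z)

theorem pv_mulVec (g : GL F9 K4) (x : F9 → K4) :
    ((glEquiv φ g : GL F9 F) : Matrix F9 F9 F) *ᵥ (pv φ x) = pv φ ((g : Matrix F9 F9 K4) *ᵥ x) := by
  funext z
  have h := RingHom.map_mulVec (φ : K4 →+* F) (g : Matrix F9 F9 K4) x z
  exact h.symm

theorem pv_smul (c : K4) (x : F9 → K4) : pv φ (c • x) = φ c • pv φ x := by
  funext z
  simp [pv]

theorem pv_single : pv φ (Pi.single (0 : F9) (1 : K4)) = (Pi.single (0 : F9) (1 : F) : F9 → F) := by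
  funext z
  by_cases h : z = 0
  · subst h
    simp [pv]
  · simp [pv, Pi.single_eq_of_ne h]

theorem exists_of_mem (ω : F) (hφ : φ K4.w = ω) {g : GL F9 F} (hg : g ∈ threeJ3 F ω) :
    ∃ g0 ∈ G3, glEquiv φ g0 = g := by
  rw [← map_threeJ3 φ ω hφ] at hg
  obtain ⟨g0, h0, he⟩ := hg
  exact ⟨g0, h0, he⟩

theorem mem_of_mem (ω : F) (hφ : φ K4.w = ω) {g0 : GL F9 K4} (hg : g0 ∈ G3) :
    glEquiv φ g0 ∈ threeJ3 F ω := by
  rw [← map_threeJ3 φ ω hφ]
  exact ⟨g0, hg, rfl⟩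

/-- the first column of a coset representative -/
noncomputable def tcol (i : ℕ) (hi : i < Cfsg.Agent.Lib.J3Check.nT) : F9 → K4 :=
  ((tE i hi : GK) : Matrix F9 F9 K4) *ᵥ Pi.single (0 : F9) (1 : K4)

/-- the line of a coset representative -/
noncomputable def lineOf (i : Fin Cfsg.Agent.Lib.J3Check.nT) : Submodule F (F9 → F) :=
  F ∙ (pv φ (tcol i.1 i.2))

theorem line_eq_range (ω : F) (hφ : φ K4.w = ω) :
    {L : Submodule F (F9 → F) | ∃ g ∈ threeJ3 F ω,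
      L = F ∙ ((g : Matrix F9 F9 F) *ᵥ (Pi.single (0 : F9) (1 : F) : F9 → F))} =
    Set.range (lineOf φ) := by
  ext L
  constructor
  · rintro ⟨g, hg, rfl⟩
    obtain ⟨g0, h0, rfl⟩ := exists_of_mem φ ω hφ hg
    rw [G3_eq_H] at h0
    obtain ⟨i, hi, y, hy, hyr, k, hk, rfl⟩ := tlevel_main.2.2 g0 h0
    refine ⟨⟨i, hi⟩, ?_⟩
    have hye : y = tE i hi := R_inj hyr (tE_R i hi)
    obtain ⟨l', hl', hlr⟩ := klevel_main.2.2 k hk
    obtain ⟨c, hc, hcol⟩ := col_of_R hlr (kg_col l' hl')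
    have hk0 : ((k : GK) : Matrix F9 F9 K4) *ᵥ Pi.single (0 : F9) (1 : K4) = c • Pi.single (0 : F9) (1 : K4) := by
      funext z
      rw [Matrix.mulVec_single_one]
      show ((k : GK) : Matrix F9 F9 K4) z 0 = _
      rw [hcol]
      by_cases h : z = 0
      · subst h
        simp
      · simp [h]
    have hc0 : c ≠ 0 := by
      rcases hc with rfl | rfl | rfl <;> decide
    rw [← pv_single φ, pv_mulVec, Units.val_mul, ← Matrix.mulVec_mulVec, hk0, Matrix.mulVec_smul, pv_smul, hye]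
    show F ∙ (pv φ (tcol i hi)) = _
    rw [Submodule.span_singleton_smul_eq (isUnit_iff_ne_zero.2 ((map_ne_zero φ).2 hc0))]
    rfl
  · rintro ⟨⟨i, hi⟩, rfl⟩
    refine ⟨glEquiv φ (tE i hi), mem_of_mem φ ω hφ (H_le (tE_mem i hi)), ?_⟩
    rw [← pv_single φ, pv_mulVec]
    rfl

theorem lineOf_inj : Function.Injective (lineOf (F := F) φ) := by
  rintro ⟨i, hi⟩ ⟨j, hj⟩ h
  have h1 : F ∙ (pv φ (tcol i hi)) = F ∙ (pv φ (tcol j hj)) := h
  obtain ⟨c, hc⟩ := (Submodule.span_singleton_eq_span_singleton).1 h1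
  have hc0 : φ.symm (c : F) ≠ 0 := by
    rw [Ne, map_eq_zero_iff _ φ.symm.injective]
    exact c.ne_zero
  have hcol : ∀ z : F9, tcol j hj z = φ.symm (c : F) * tcol i hi z := by
    intro z
    have h2 := congrFun hc z
    apply φ.injective
    rw [map_mul, RingEquiv.apply_symm_apply]
    exact h2.symm
  have hl : φ.symm (c : F) = 1 ∨ φ.symm (c : F) = K4.w ∨ φ.symm (c : F) = K4.v := by
    generalize φ.symm (c : F) = a at hc0
    revert a
    decide
  have hR : ∀ (m : ℕ) (hm : m < Cfsg.Agent.Lib.J3Check.nT) (t : Fin 9), tcol m hm (e9.symm t) = dec K4.w (tg m) t 0 := by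
    intro m hm t
    unfold tcol
    rw [Matrix.mulVec_single_one]
    show ((tE m hm : GK) : Matrix F9 F9 K4) (e9.symm t) 0 = _
    rw [show ((tE m hm : GK) : Matrix F9 F9 K4) = _ from tE_R m hm]
    simp [e9_zero]
  have hkey : keyC (tg j) = keyC (tg i) := by
    apply keyC_eq_of_col hl
    intro t
    rw [← hR j hj, ← hR i hi, hcol]
  have := eq_of_adjacent hmt i j hi hj hkey.symm
  subst this
  rfl

end

/-- Orbits of the triple cover of the third Janko group on lines of its 9-space over the field with 4 elements: the line through the first basis vector has exactly 23256 images, and the isotropic lines (nonzero v with Σ v_z³ = 0) form a single orbit. -/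
theorem result (F : Type) [Field F] [Fintype F] (hF : Fintype.card F = 4) (ω : F) (hω : ω ^ 2 + ω + 1 = 0) : {L : Submodule F (Cfsg.Spor.F9 → F) | ∃ g ∈ Cfsg.Spor.threeJ3 F ω, L = F ∙ ((g : Matrix Cfsg.Spor.F9 Cfsg.Spor.F9 F) *ᵥ (Pi.single (0 : Cfsg.Spor.F9) (1 : F) : Cfsg.Spor.F9 → F))}.ncard = 23256 ∧ ∀ v w : Cfsg.Spor.F9 → F, v ≠ 0 → w ≠ 0 → ∑ z, (v z) ^ 3 = 0 → ∑ z, (w z) ^ 3 = 0 → ∃ g ∈ Cfsg.Spor.threeJ3 F ω, ∃ c : F, c ≠ 0 ∧ (g : Matrix Cfsg.Spor.F9 Cfsg.Spor.F9 F) *ᵥ v = c • w := by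
  let φ : K4 ≃+* F := fEquiv hF ω hω
  have hφ : φ K4.w = ω := fEquiv_w hF ω hω
  constructor
  · rw [line_eq_range φ ω hφ, Set.ncard_range_of_injective (lineOf_inj φ)]
    rw [Nat.card_eq_fintype_card, Fintype.card_fin]
    rfl
  · intro v w hv hw h1 h2
    have key : ∀ u : F9 → F, u ≠ 0 → ∑ z, (u z) ^ 3 = 0 →
        ∃ g ∈ G3, ∃ c : K4, c ≠ 0 ∧ (g : Matrix F9 F9 K4) *ᵥ (fun z => φ.symm (u z)) = c • (Cfsg.Agent.Lib.J3Iso.vecC Cfsg.Agent.Lib.J3Iso.rootV ∘ e9) := by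
      intro u hu hs
      apply orbit_K4
      · intro h0
        apply hu
        funext z
        have := congrFun h0 z
        simpa using this
      · have : φ.symm (∑ z, (u z) ^ 3) = 0 := by rw [hs, map_zero]
        rw [map_sum] at this
        simpa using this
    obtain ⟨g1, hg1, c1, hc1, he1⟩ := key v hv h1
    obtain ⟨g2, hg2, c2, hc2, he2⟩ := key w hw h2
    refine ⟨glEquiv φ (g2⁻¹ * g1), mem_of_mem φ ω hφ (G3.mul_mem (G3.inv_mem hg2) hg1), φ (c1 * c2⁻¹),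
      (map_ne_zero φ).2 (mul_ne_zero hc1 (inv_ne_zero hc2)), ?_⟩
    have hx : pv φ (fun z => φ.symm (v z)) = v := by
      funext z; simp [pv]
    have hy : pv φ (fun z => φ.symm (w z)) = w := by
      funext z; simp [pv]
    have h3 : (((g2⁻¹ : GL F9 K4)) : Matrix F9 F9 K4) *ᵥ (c2 • (Cfsg.Agent.Lib.J3Iso.vecC Cfsg.Agent.Lib.J3Iso.rootV ∘ e9)) = fun z => φ.symm (w z) := by
      rw [← he2, Matrix.mulVec_mulVec]
      have : ((g2⁻¹ : GL F9 K4) : Matrix F9 F9 K4) * (g2 : Matrix F9 F9 K4) = 1 := Units.inv_mul g2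
      rw [this, Matrix.one_mulVec]
    rw [Matrix.mulVec_smul] at h3
    have hmain : ((g2⁻¹ * g1 : GL F9 K4) : Matrix F9 F9 K4) *ᵥ (fun z => φ.symm (v z)) =
        (c1 * c2⁻¹) • (fun z => φ.symm (w z)) := by
      rw [Units.val_mul, ← Matrix.mulVec_mulVec, he1, Matrix.mulVec_smul, ← h3, smul_smul, mul_assoc,
        inv_mul_cancel₀ hc2, mul_one]
    calc ((glEquiv φ (g2⁻¹ * g1) : GL F9 F) : Matrix F9 F9 F) *ᵥ v
        = ((glEquiv φ (g2⁻¹ * g1) : GL F9 F) : Matrix F9 F9 F) *ᵥ (pv φ (fun z => φ.symm (v z))) := by rw [hx]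
      _ = pv φ (((g2⁻¹ * g1 : GL F9 K4) : Matrix F9 F9 K4) *ᵥ (fun z => φ.symm (v z))) := pv_mulVec _ _ _
      _ = pv φ ((c1 * c2⁻¹) • (fun z => φ.symm (w z))) := by rw [hmain]
      _ = φ (c1 * c2⁻¹) • pv φ (fun z => φ.symm (w z)) := pv_smul _ _ _
      _ = φ (c1 * c2⁻¹) • w := by rw [hy]

end Cfsg.Agent.S1626
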