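import Mathlib
import Cfsg.Statements.S1629
import Cfsg.Prelude.Def_SporadicB
import Cfsg.Prelude.Def_Classical
import Cfsg.Agent.Lib.OrthTransF2
import Cfsg.Agent.Lib.OrthPlus

open scoped MatrixGroups

namespace Cfsg.Agent.S1629

open Cfsg.Agent.Lib.OrthTransF2 Cfsg.Agent.Lib.OrthPlus

/-- The orthogonal transvections of the plus-type orthogonal group in dimension 2m ≥ 6 over the field with two elements form a generating conjugacy class of 3-transpositions. -/
theorem result (m : ℕ) (hm : 3 ≤ m) : Cfsg.IsThreeTranspositionClass {g : ↥(Cfsg.isometryGroup (ZMod 2) (Cfsg.quadFormPlus m (ZMod 2))) | (((g : GL (Fin m ⊕ Fin m) (ZMod 2)) : Matrix (Fin m ⊕ Fin m) (Fin m ⊕ Fin m) (ZMod 2)) - 1).rank = 1} := by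
  refine isThreeTranspositionClass (quadPlus m (ZMod 2)) (quadPlus_nondeg m (ZMod 2)) ?_ ?_
  · rw [Module.finrank_fintype_fun_eq_card]
    simp only [Fintype.card_sum, Fintype.card_fin]
    omega
  · let j : Fin m := ⟨0, by omega⟩
    refine ⟨Sum.elim (Pi.single j 1) (Pi.single j 1), ?_⟩
    rw [coe_quadPlus]
    simp [Cfsg.quadFormPlus, Pi.single_apply, Finset.sum_ite_eq']

end Cfsg.Agent.S1629
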