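import Mathlib
import Cfsg.Statements.S1630
import Cfsg.Prelude.Def_SporadicB
import Cfsg.Prelude.Def_Classical
import Cfsg.Agent.Lib.OrthTransF2
import Cfsg.Agent.Lib.OrthoOrder
import Cfsg.Agent.Lib.HypNeg

open scoped MatrixGroups

namespace Cfsg.Agent.S1630

open Cfsg.Agent.Lib.OrthTransF2 Cfsg.Agent.Lib.OrthoCount Cfsg.Agent.Lib.OrthoOrder Cfsg.Agent.Lib.HypNeg

/-- The orthogonal transvections of the minus-type orthogonal group in dimension ≥ 6 over the field with two elements form a generating conjugacy class of 3-transpositions. -/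
theorem result (m : ℕ) (hm : 2 ≤ m) : Cfsg.IsThreeTranspositionClass {g : ↥(Cfsg.isometryGroup (ZMod 2) (Cfsg.quadFormMinus m (ZMod 2) 1 1)) | (((g : GL ((Fin m ⊕ Fin m) ⊕ Fin 2) (ZMod 2)) : Matrix ((Fin m ⊕ Fin m) ⊕ Fin 2) ((Fin m ⊕ Fin m) ⊕ Fin 2) (ZMod 2)) - 1).rank = 1} := by
  have hfun : Cfsg.quadFormMinus m (ZMod 2) 1 1 = ⇑(qMinus m (1 : ZMod 2) 1) :=
    funext fun v => (qMinus_apply m 1 1 v).symm
  rw [hfun]
  have hab : ∀ z₁ z₂ : ZMod 2, z₁ ^ 2 + 1 * z₁ * z₂ + 1 * z₂ ^ 2 = 0 → z₁ = 0 ∧ z₂ = 0 := by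
    decide
  refine isThreeTranspositionClass (qMinus m (1 : ZMod 2) 1)
    (nondegenerate_of_nondeg (nondeg_qMinus 1 1 hab m)) ?_ ?_
  · rw [Module.finrank_fintype_fun_eq_card]
    simp only [Fintype.card_sum, Fintype.card_fin]
    omega
  · refine ⟨Sum.elim (fun _ => 0) (Pi.single 0 1), ?_⟩
    rw [qMinus_apply]
    simp [Cfsg.quadFormMinus]

end Cfsg.Agent.S1630
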