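import Mathlib
import Cfsg.Statements.S1631
import Cfsg.Prelude.Def_SporadicB
import Cfsg.Prelude.Def_Classical
import Cfsg.Agent.Lib.SUGen
import Cfsg.Agent.Lib.UnitaryIso

set_option autoImplicit false
set_option linter.unusedSectionVars false
set_option linter.unusedVariables false
set_option linter.unusedSimpArgs false
open Cfsg

namespace Cfsg.Agent.S1631

open Cfsg.Agent.Lib.SUGen Cfsg.Agent.Lib.HermForm Matrix

variable {F : Type} [Field F] [Fintype F] {n : ℕ}

local notation "⟪" x ", " y "⟫" => hermForm n F 2 x y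

section field

variable (hF : Fintype.card F = 4)
include hF

lemma hF2 : Fintype.card F = 2 ^ 2 := by rw [hF]; norm_num

lemma two_zero : (2 : F) = 0 := by
  have h5 : ((Fintype.card F : ℕ) : F) = 0 := FiniteField.cast_card_eq_zero F
  rw [hF] at h5
  have h6 : (2 : F) ^ 2 = 0 := by
    have : (2 : F) ^ 2 = ((4 : ℕ) : F) := by norm_num
    rw [this, h5]
  exact pow_eq_zero_iff (two_ne_zero) |>.1 h6

lemma cube_eq_one {x : F} (hx : x ≠ 0) : x ^ 3 = 1 := by
  have h := FiniteField.pow_card x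
  rw [hF] at h
  have : x * (x ^ 3 - 1) = 0 := by linear_combination h
  rcases mul_eq_zero.1 this with h2 | h2
  · exact absurd h2 hx
  · linear_combination h2

lemma eq_one_of {c : F} (hc : c ≠ 0) (h : c + c ^ 2 = 0) : c = 1 := by
  have h1 : c * (1 + c) = 0 := by linear_combination h
  rcases mul_eq_zero.1 h1 with h2 | h2
  · exact absurd h2 hc
  · have := two_zero hF
    linear_combination h2 - this

end field

/-- The transvection predicate. -/
def IsT (g : SU n F 2) (v : Fin n → F) : Prop := v ≠ 0 ∧ IsE g v 0 1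

section main

variable (hF : Fintype.card F = 4)
include hF

lemma act_T {g : SU n F 2} {v : Fin n → F} (h : IsT g v) (x : Fin n → F) : act g x = x + ⟪x, v⟫ • v := by
  have := h.2.tv_act (hF := hF2 hF) x
  rwa [one_mul] at this

lemma exists_T {v : Fin n → F} (hv : v ≠ 0) (hvv : ⟪v, v⟫ = 0) : ∃ g : SU n F 2, IsT g v := by
  have h2 := two_zero hF
  obtain ⟨A, hA⟩ := exists_tv (hF2 hF) (n := n) (v := v) (c := 1) hvv (by linear_combination h2)
  exact ⟨A, hv, hA⟩

lemma T_ext {g g' : SU n F 2} {v : Fin n → F} (h : IsT g v) (h' : IsT g' v) : g = g' :=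
  SU_ext fun x => by rw [act_T hF h, act_T hF h']

/-- Scaling the centre does not change the transvection. -/
lemma T_smul {g : SU n F 2} {v : Fin n → F} (h : IsT g v) {m : F} (hm : m ≠ 0) : IsT g (m • v) := by
  refine ⟨smul_ne_zero hm h.1, ?_⟩
  have h2 := two_zero hF
  have hvv := h.2.hvv
  refine ⟨?_, hermForm_zero_left _, by rw [hermForm_zero_left]; linear_combination h2, fun x => ?_⟩
  · rw [hermForm_smul_left, hermForm_smul_right, hvv]
    ring
  · rw [act_T hF h x, hermForm_smul_right, hermForm_zero_right (hF2 hF), zero_smul, sub_zero, zero_add, one_smul,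
      smul_smul]
    have e : m ^ 2 * ⟪x, v⟫ * m = ⟪x, v⟫ := by
      have := cube_eq_one hF hm
      linear_combination ⟪x, v⟫ * this
    rw [e]

lemma T_mul_self {g : SU n F 2} {v : Fin n → F} (h : IsT g v) : g * g = 1 := by
  have h2 := two_zero hF
  refine SU_ext fun x => ?_
  rw [act_mul, act_one, act_T hF h, act_T hF h, hermForm_add_left, hermForm_smul_left, h.2.hvv, mul_zero, add_zero,
    add_assoc, ← add_smul]
  have : ⟪x, v⟫ + ⟪x, v⟫ = 0 := by linear_combination ⟪x, v⟫ * h2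
  rw [this, zero_smul, add_zero]

lemma T_ne_one {g : SU n F 2} {v : Fin n → F} (h : IsT g v) : g ≠ 1 := by
  rintro rfl
  obtain ⟨y, hy'⟩ := exists_hermForm_ne_zero (hF2 hF) h.1
  have hy : ⟪y, v⟫ ≠ 0 := by
    rw [← hermForm_conj (hF2 hF)]
    exact pow_ne_zero _ hy'
  have h1 := act_T hF h y
  rw [act_one] at h1
  have h3 : ⟪y, v⟫ • v = 0 := by
    have := congrArg (fun z => z - y) h1
    simpa using this.symm
  rcases smul_eq_zero.1 h3 with h4 | h4
  · exact hy h4
  · exact h.1 h4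

lemma T_order {g : SU n F 2} {v : Fin n → F} (h : IsT g v) : orderOf g = 2 := by
  have : Fact (Nat.Prime 2) := ⟨Nat.prime_two⟩
  refine orderOf_eq_prime ?_ (T_ne_one hF h)
  rw [pow_two]
  exact T_mul_self hF h

lemma T_perp {g g' : SU n F 2} {v w : Fin n → F} (h : IsT g v) (h' : IsT g' w) (hvw : ⟪v, w⟫ = 0) :
    (g * g') ^ 2 = 1 := by
  have h2 := two_zero hF
  have hwv : ⟪w, v⟫ = 0 := by
    rw [← hermForm_conj (hF2 hF), hvw]
    ring
  refine SU_ext fun x => ?_
  rw [pow_two, act_mul, act_mul, act_one, act_mul, act_T hF h, act_T hF h', act_T hF h, act_T hF h']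
  simp only [hermForm_add_left, hermForm_smul_left, h.2.hvv, h'.2.hvv, hvw, hwv, mul_zero, add_zero]
  have e1 : ⟪x, v⟫ + ⟪x, v⟫ = 0 := by linear_combination ⟪x, v⟫ * h2
  have e2 : ⟪x, w⟫ + ⟪x, w⟫ = 0 := by linear_combination ⟪x, w⟫ * h2
  have : x + ⟪x, w⟫ • w + ⟪x, v⟫ • v + ⟪x, w⟫ • w + ⟪x, v⟫ • v = x + (⟪x, w⟫ + ⟪x, w⟫) • w + (⟪x, v⟫ + ⟪x, v⟫) • v := by
    module
  rw [this, e1, e2]
  simp

lemma T_hyp {g g' : SU n F 2} {v w : Fin n → F} (h : IsT g v) (h' : IsT g' w) (hvw : ⟪v, w⟫ = 1) :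
    (g * g') ^ 3 = 1 := by
  have h2 := two_zero hF
  have hwv : ⟪w, v⟫ = 1 := by
    rw [← hermForm_conj (hF2 hF), hvw]
    ring
  refine SU_ext fun x => ?_
  have hG : ∀ y, act (g * g') y = y + ⟪y, w⟫ • w + (⟪y, v⟫ + ⟪y, w⟫) • v := by
    intro y
    rw [act_mul, act_T hF h, act_T hF h']
    simp only [hermForm_add_left, hermForm_smul_left, hwv, mul_one]
  have ha : ∀ y, ⟪act (g * g') y, v⟫ = ⟪y, v⟫ + ⟪y, w⟫ := by
    intro y
    rw [hG]
    simp only [hermForm_add_left, hermForm_smul_left, hwv, h.2.hvv, mul_one, mul_zero, add_zero]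
  have hb : ∀ y, ⟪act (g * g') y, w⟫ = ⟪y, v⟫ := by
    intro y
    rw [hG]
    simp only [hermForm_add_left, hermForm_smul_left, hvw, h'.2.hvv, mul_one, mul_zero, add_zero]
    linear_combination ⟪y, w⟫ * h2
  generalize g * g' = G at hG ha hb ⊢
  have e3 : G ^ 3 = G * (G * G) := by rw [pow_succ, pow_two, mul_assoc]
  rw [e3, act_mul, act_mul, act_one, hG (act G (act G x)), ha, hb, ha, hb, hG (act G x), ha, hb, hG x]
  generalize ⟪x, v⟫ = a
  generalize ⟪x, w⟫ = b
  have e4 : x + b • w + (a + b) • v + a • w + (a + b + a) • v + (a + b) • w + (a + b + a + (a + b)) • v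
      = x + ((2 : F) * (a + b)) • w + ((2 : F) * (3 * a + 2 * b)) • v := by
    module
  rw [e4, h2]
  simp

/-- The general product relation. -/
lemma T_prod {g g' : SU n F 2} {v w : Fin n → F} (h : IsT g v) (h' : IsT g' w) :
    (g * g') ^ 2 = 1 ∨ (g * g') ^ 3 = 1 := by
  by_cases hvw : ⟪v, w⟫ = 0
  · exact Or.inl (T_perp hF h h' hvw)
  · refine Or.inr (T_hyp hF h (T_smul hF h' hvw) ?_)
    rw [hermForm_smul_right]
    have := cube_eq_one hF hvw
    linear_combination this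

/-- Conjugates. -/
lemma T_conj {g : SU n F 2} {v : Fin n → F} (h : IsT g v) (a : SU n F 2) : IsT (a * g * a⁻¹) (act a v) := by
  refine ⟨fun h0 => h.1 (act_inj a (by rw [h0, act_zero])), ?_⟩
  have := h.2.conj (hF2 hF) a
  rwa [act_zero] at this

/-- All transvections are conjugate. -/
lemma T_class {g g' : SU n F 2} {v w : Fin n → F} (hn : 4 ≤ n) (h : IsT g v) (h' : IsT g' w) : IsConj g g' := by
  have hF' := hF2 hF
  -- moving a vector to a multiple of `e`
  have key : ∀ {x e : Fin n → F} {A : SU n F 2} {B : SU n F 2}, IsT A x → IsT B e → ⟪x, e⟫ ≠ 0 → IsConj A B := by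
    intro x e A B hA hB hxe
    obtain ⟨t, -, m, hm, ht⟩ := exists_to_e hF' hA.2.hvv hB.2.hvv hxe
    have h1 := T_conj hF hA t
    rw [ht] at h1
    have h2 := T_smul hF hB hm
    have h3 : t * A * t⁻¹ = B := T_ext hF h1 h2
    exact isConj_iff.2 ⟨t, h3⟩
  obtain ⟨z, hzz, h1, h2⟩ := Cfsg.Agent.Lib.UnitaryIso.exists_iso_ne₂ hF' (n := n) (by omega) h.1 h'.1
  have hz0 : z ≠ 0 := by
    rintro rfl
    exact h1 (hermForm_zero_right hF' v)
  obtain ⟨C, hC⟩ := exists_T hF hz0 hzz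
  exact (key h hC h1).trans (key h' hC h2).symm

/-- Elements with rank one minus identity are transvections. -/
lemma T_of_rank (g : SU n F 2) (h : (((g : Matrix.SpecialLinearGroup (Fin n) F) : Matrix (Fin n) (Fin n) F) - 1).rank = 1) :
    ∃ v, IsT g v := by
  have hF' := hF2 hF
  have h2 := two_zero hF
  set M : Matrix (Fin n) (Fin n) F := ((g : Matrix.SpecialLinearGroup (Fin n) F) : Matrix (Fin n) (Fin n) F) with hM
  have hact : ∀ x, act g x = M *ᵥ x := fun x => rfl
  rw [Matrix.rank, finrank_eq_one_iff'] at h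
  obtain ⟨⟨w, y₀, hy₀⟩, hw0, hall⟩ := h
  have hw0' : w ≠ 0 := fun e => hw0 (Subtype.ext e)
  have hall' : ∀ x, ∃ c : F, act g x = x + c • w := by
    intro x
    obtain ⟨c, hc⟩ := hall ⟨(M - 1).mulVecLin x, LinearMap.mem_range_self _ x⟩
    refine ⟨c, ?_⟩
    have h3 : c • w = (M - 1) *ᵥ x := congrArg Subtype.val hc
    rw [h3, Matrix.sub_mulVec, Matrix.one_mulVec, hact]
    abel
  have hy₀' : act g y₀ = y₀ + w := by
    have h3 : (M - 1) *ᵥ y₀ = w := hy₀
    rw [← h3, Matrix.sub_mulVec, Matrix.one_mulVec, hact]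
    abel
  choose φ hφ using hall'
  have e1 : ∀ x, ⟪x, w⟫ = φ x * (⟪w, y₀⟫ + ⟪w, w⟫) := by
    intro x
    have h3 := herm_act g x y₀
    rw [hφ x, hy₀', hermForm_add_left, hermForm_add_right hF', hermForm_add_right hF', hermForm_smul_left,
      hermForm_smul_left] at h3
    linear_combination h3 + (- φ x * ⟪w, y₀⟫ - φ x * ⟪w, w⟫) * h2
  obtain ⟨κ, hκ⟩ : ∃ κ, κ = ⟪w, y₀⟫ + ⟪w, w⟫ := ⟨_, rfl⟩
  rw [← hκ] at e1
  obtain ⟨z₀, hz₀'⟩ := exists_hermForm_ne_zero hF' hw0'
  have hz₀ : ⟪z₀, w⟫ ≠ 0 := by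
    rw [← hermForm_conj hF']
    exact pow_ne_zero _ hz₀'
  have hκ0 : κ ≠ 0 := by
    rintro rfl
    apply hz₀
    rw [e1, mul_zero]
  obtain ⟨c, hc⟩ : ∃ c, c = κ⁻¹ := ⟨_, rfl⟩
  have hc0 : c ≠ 0 := by
    rw [hc]
    exact inv_ne_zero hκ0
  have hg : ∀ x, act g x = x + (c * ⟪x, w⟫) • w := by
    intro x
    rw [hφ x, e1 x, hc]
    congr 2
    field_simp
  -- the determinant
  have hdet : M.det = 1 := (g : Matrix.SpecialLinearGroup (Fin n) F).2
  have hMe : M = 1 + Matrix.replicateCol Unit w * Matrix.replicateRow Unit (fun j => c * w j ^ 2) := by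
    ext i j
    have h3 := congrFun (hg (Pi.single j 1)) i
    rw [hact, Matrix.mulVec_single_one, hermForm_single_left] at h3
    simp only [Matrix.col_apply, Pi.add_apply, Pi.smul_apply, smul_eq_mul, Pi.single_apply] at h3
    rw [h3]
    simp [Matrix.add_apply, Matrix.mul_apply, Matrix.one_apply, Pi.single_apply, eq_comm]
    ring
  have hww : ⟪w, w⟫ = 0 := by
    rw [hMe, Matrix.det_one_add_replicateCol_mul_replicateRow] at hdet
    have h3 : (fun j => c * w j ^ 2) ⬝ᵥ w = c * ⟪w, w⟫ := by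
      simp only [dotProduct, hermForm, Finset.mul_sum]
      exact Finset.sum_congr rfl fun i _ => by ring
    rw [h3] at hdet
    have h4 : c * ⟪w, w⟫ = 0 := by linear_combination hdet
    exact (mul_eq_zero.1 h4).resolve_left hc0
  have hc1 : c = 1 := by
    refine eq_one_of hF hc0 ?_
    have h3 := herm_act g z₀ z₀
    rw [hg z₀, hermForm_add_left, hermForm_add_right hF', hermForm_add_right hF', hermForm_smul_left,
      hermForm_smul_left, hermForm_smul_right, hermForm_smul_right, hww, ← hermForm_conj hF' z₀ w] at h3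
    have h4 : (c + c ^ 2) * ⟪z₀, w⟫ ^ 3 = 0 := by linear_combination h3
    exact (mul_eq_zero.1 h4).resolve_right (pow_ne_zero _ hz₀)
  refine ⟨w, hw0', hww, hermForm_zero_left _, ?_, fun x => ?_⟩
  · rw [hermForm_zero_left]
    linear_combination h2
  · rw [hg, hc1, hermForm_zero_right hF']
    simp

lemma rank_of_T {g : SU n F 2} {v : Fin n → F} (h : IsT g v) :
    (((g : Matrix.SpecialLinearGroup (Fin n) F) : Matrix (Fin n) (Fin n) F) - 1).rank = 1 := by
  have hF' := hF2 hF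
  set M : Matrix (Fin n) (Fin n) F := ((g : Matrix.SpecialLinearGroup (Fin n) F) : Matrix (Fin n) (Fin n) F) with hM
  have hact : ∀ x, act g x = M *ᵥ x := fun x => rfl
  have key : ∀ x, (M - 1) *ᵥ x = ⟪x, v⟫ • v := by
    intro x
    rw [Matrix.sub_mulVec, Matrix.one_mulVec, ← hact, act_T hF h]
    abel
  obtain ⟨y', hy'⟩ := exists_hermForm_ne_zero hF' h.1
  have hy : ⟪y', v⟫ ≠ 0 := by
    rw [← hermForm_conj hF']
    exact pow_ne_zero _ hy'
  rw [Matrix.rank, finrank_eq_one_iff']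
  refine ⟨⟨v, ⟨(⟪y', v⟫)⁻¹ • y', ?_⟩⟩, ?_, ?_⟩
  · show (M - 1) *ᵥ ((⟪y', v⟫)⁻¹ • y') = v
    rw [key, hermForm_smul_left, inv_mul_cancel₀ hy, one_smul]
  · intro e
    exact h.1 (congrArg Subtype.val e)
  · rintro ⟨w, ⟨x, rfl⟩⟩
    refine ⟨⟪x, v⟫, ?_⟩
    apply Subtype.ext
    show ⟪x, v⟫ • v = (M - 1) *ᵥ x
    rw [key]

end main

/-- The unitary transvections of SU(n, 2), n ≥ 4, form a generating conjugacy class of 3-transpositions. -/
theorem result (F : Type) [Field F] [Fintype F] [DecidableEq F] (hF : Fintype.card F = 4) (n : ℕ) (hn : 4 ≤ n) : Cfsg.IsThreeTranspositionClass {g : ↥(Cfsg.SU n F 2) | (((g : Matrix.SpecialLinearGroup (Fin n) F) : Matrix (Fin n) (Fin n) F) - 1).rank = 1} := by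
  have hF' := hF2 hF
  have hD : ∀ g : SU n F 2, g ∈ {g : ↥(Cfsg.SU n F 2) | (((g : Matrix.SpecialLinearGroup (Fin n) F) : Matrix (Fin n) (Fin n) F) - 1).rank = 1} ↔ ∃ v, IsT g v :=
    fun g => ⟨fun h => T_of_rank hF g h, fun ⟨v, h⟩ => rank_of_T hF h⟩
  refine ⟨⟨fun d hd => ?_, fun d hd e he => ?_⟩, ?_, ?_⟩
  · obtain ⟨v, hv⟩ := (hD d).1 hd
    exact T_order hF hv
  · obtain ⟨v, hv⟩ := (hD d).1 hd
    obtain ⟨w, hw⟩ := (hD e).1 he
    exact T_prod hF hv hw
  · -- existence of an isotropic vector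
    have hex : ∃ e : Fin n → F, e ≠ 0 ∧ hermForm n F 2 e e = 0 := by
      obtain ⟨z, hz, hxz⟩ := Cfsg.Agent.Lib.UnitaryIso.exists_iso_ne hF' (n := n) (by omega) (x := Pi.single ⟨0, by omega⟩ 1)
        (by
          intro h0
          have := congrFun h0 ⟨0, by omega⟩
          simp at this)
      refine ⟨z, ?_, hz⟩
      rintro rfl
      exact hxz (hermForm_zero_right hF' _)
    obtain ⟨e, he0, hee⟩ := hex
    obtain ⟨d, hd⟩ := exists_T hF he0 hee
    refine ⟨d, (hD d).2 ⟨e, hd⟩, ?_⟩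
    ext g
    constructor
    · intro hg
      obtain ⟨v, hv⟩ := (hD g).1 hg
      exact T_class hF hn hd hv
    · intro hg
      obtain ⟨a, rfl⟩ := isConj_iff.1 hg
      exact (hD _).2 ⟨_, T_conj hF hd a⟩
  · rw [eq_top_iff, ← TT_eq_top hF' (n := n) (by omega) (by omega), TT, Subgroup.closure_le]
    rintro A ⟨v, c, hA⟩
    by_cases hv : v = 0
    · have : A = 1 := by
        refine SU_ext fun x => ?_
        rw [hA.tv_act hF', hv, act_one]
        simp
      rw [this]
      exact one_mem _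
    by_cases hc : c = 0
    · have : A = 1 := by
        refine SU_ext fun x => ?_
        rw [hA.tv_act hF', hc, act_one]
        simp
      rw [this]
      exact one_mem _
    have hc1 : c = 1 := by
      refine eq_one_of hF hc ?_
      have := hA.hs
      rwa [hermForm_zero_left, add_zero] at this
    subst hc1
    exact Subgroup.subset_closure ((hD A).2 ⟨v, hv, hA⟩)

end Cfsg.Agent.S1631
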