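import Cfsg.Statements.S1633
import Cfsg.Agent.Lib.U35Hs

set_option autoImplicit false
open Cfsg

namespace Cfsg.Agent.S1633

open Cfsg.Agent.Lib.CoVec Cfsg.Agent.Lib.CoConf Cfsg.Agent.Lib.U35

/-- The set of the statement. -/
def XX (v w : LL) : Set LL :=
  {x : LL | sqNorm (x : GolayPt → ℤ) = 32 ∧ dotInt (v : GolayPt → ℤ) (x : GolayPt → ℤ) = 16 ∧
    dotInt (w : GolayPt → ℤ) (x : GolayPt → ℤ) = -24}

theorem mem_XX {v w : LL} {g : Co0} (h1 : g • v = HSG.lw1) (h2 : g • w = HSG.lu0) (x : LL) :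
    g • (-x) ∈ DS HSG.AR352 ↔ x ∈ XX v w := by
  simp only [DS, HSG.AR352, Set.mem_ofPred_eq, List.mem_cons, List.not_mem_nil, or_false, forall_eq_or_imp, forall_eq, XX,
    ← h1, ← h2, dot_smul, norm_smul]
  have e1 : sqNorm ((-x : LL) : GolayPt → ℤ) = sqNorm (x : GolayPt → ℤ) := norm_neg _
  have e2 : ∀ a : LL, dotInt (a : GolayPt → ℤ) ((-x : LL) : GolayPt → ℤ) = -dotInt (a : GolayPt → ℤ) (x : GolayPt → ℤ) :=
    fun a => dot_neg_right _ _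
  rw [e1, e2, e2]
  constructor
  · rintro ⟨a, b, c⟩
    exact ⟨a, by omega, by omega⟩
  · rintro ⟨a, b, c⟩
    exact ⟨a, by omega, by omega⟩

theorem ncard_XX {v w : LL} {g : Co0} (h1 : g • v = HSG.lw1) (h2 : g • w = HSG.lu0) : (XX v w).ncard = 352 := by
  have e : (fun x : LL => g • (-x)) '' XX v w = DS HSG.AR352 := by
    ext y
    constructor
    · rintro ⟨x, hx, rfl⟩
      exact (mem_XX h1 h2 x).2 hx
    · intro hy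
      refine ⟨-(g⁻¹ • y), (mem_XX h1 h2 _).1 ?_, ?_⟩
      · rwa [neg_neg, smul_inv_smul]
      · show g • (-(-(g⁻¹ • y))) = y
        rw [neg_neg, smul_inv_smul]
  rw [← parts_hs.2, ← e]
  refine (Set.ncard_image_of_injective _ ?_).symm
  intro a b hab
  exact neg_injective (MulAction.injective g hab)

theorem stb_neg (x : LL) : stb (-x) = stb x := by
  ext k
  show k • (-x) = -x ↔ k • x = x
  rw [smul_neg', neg_inj]

theorem neg_mem_XX {v w : LL} (hw : sqNorm (w : GolayPt → ℤ) = 48) (hvw : dotInt (v : GolayPt → ℤ) (w : GolayPt → ℤ) = -32)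
    {x : LL} (hx : x ∈ XX v w) : -w - x ∈ XX v w := by
  obtain ⟨a, b, c⟩ := hx
  have e : ((-w - x : LL) : GolayPt → ℤ) = -(w : GolayPt → ℤ) - (x : GolayPt → ℤ) := rfl
  refine ⟨?_, ?_, ?_⟩
  · rw [e, norm_sub, norm_neg, dot_neg_left, a, hw, c]
    norm_num
  · rw [e, dot_sub_right, dot_neg_right, hvw, b]
    norm_num
  · rw [e, dot_sub_right, dot_neg_right, dot_self, hw, c]
    norm_num

/-- The Higman–Sims group acts transitively on 352 vectors, a set closed under x ↦ −w − x, with vector stabiliser isomorphic to PSU(3, 5). -/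
theorem result (v w : ↥Cfsg.leechLattice) (hv : Cfsg.sqNorm (v : Cfsg.GolayPt → ℤ) = 48) (hw : Cfsg.sqNorm (w : Cfsg.GolayPt → ℤ) = 48) (hvw : Cfsg.dotInt (v : Cfsg.GolayPt → ℤ) (w : Cfsg.GolayPt → ℤ) = -32) (F : Type) [Field F] [Fintype F] (hF : Fintype.card F = 25) : {x : ↥Cfsg.leechLattice | Cfsg.sqNorm (x : Cfsg.GolayPt → ℤ) = 32 ∧ Cfsg.dotInt (v : Cfsg.GolayPt → ℤ) (x : Cfsg.GolayPt → ℤ) = 16 ∧ Cfsg.dotInt (w : Cfsg.GolayPt → ℤ) (x : Cfsg.GolayPt → ℤ) = -24}.ncard = 352 ∧ (∀ x ∈ {x : ↥Cfsg.leechLattice | Cfsg.sqNorm (x : Cfsg.GolayPt → ℤ) = 32 ∧ Cfsg.dotInt (v : Cfsg.GolayPt → ℤ) (x : Cfsg.GolayPt → ℤ) = 16 ∧ Cfsg.dotInt (w : Cfsg.GolayPt → ℤ) (x : Cfsg.GolayPt → ℤ) = -24}, -w - x ∈ {x : ↥Cfsg.leechLattice | Cfsg.sqNorm (x : Cfsg.GolayPt → ℤ) = 32 ∧ Cfsg.dotInt (v : Cfsg.GolayPt → ℤ) (x : Cfsg.GolayPt → ℤ) = 16 ∧ Cfsg.dotInt (w :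 Cfsg.GolayPt → ℤ) (x : Cfsg.GolayPt → ℤ) = -24}) ∧ (∀ x ∈ {x : ↥Cfsg.leechLattice | Cfsg.sqNorm (x : Cfsg.GolayPt → ℤ) = 32 ∧ Cfsg.dotInt (v : Cfsg.GolayPt → ℤ) (x : Cfsg.GolayPt → ℤ) = 16 ∧ Cfsg.dotInt (w : Cfsg.GolayPt → ℤ) (x : Cfsg.GolayPt → ℤ) = -24}, ∀ x' ∈ {x : ↥Cfsg.leechLattice | Cfsg.sqNorm (x : Cfsg.GolayPt → ℤ) = 32 ∧ Cfsg.dotInt (v : Cfsg.GolayPt → ℤ) (x : Cfsg.GolayPt → ℤ) = 16 ∧ Cfsg.dotInt (w : Cfsg.GolayPt → ℤ) (x : Cfsg.GolayPt → ℤ) = -24}, ∃ g : ↥Cfsg.Co0, g • v = v ∧ g • w = w ∧ g • x = x') ∧ ∀ x ∈ {x : ↥Cfsg.leechLattice | Cfsg.sqNorm (x : Cfsg.GolayPt → ℤ) = 32 ∧ Cfsg.dotInt (v : Cfsg.GolayPt → ℤ) (x : Cfsg.GolayPt → ℤ) = 16 ∧ Cfsg.dotInt (w : Cfsg.GolayPt → ℤ) (x : Cfsg.GolayPt → ℤ) = -24}, Nonempty (↥(MulAction.stabilizer ↥Cfsg.Co0 v ⊓ MulAction.stabilizer ↥Cfsg.Co0 w ⊓ MulAction.stabilizer ↥Cfsg.Co0 x) ≃* Cfsg.PSU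 3 F 5) := by
  obtain ⟨g, g1, g2⟩ := hs_move w v hw hv (by rw [dot_comm]; exact hvw)
  have hN := parts_hs.2
  refine ⟨ncard_XX g2 g1, fun x hx => neg_mem_XX hw hvw hx, ?_, ?_⟩
  · intro x hx x' hx'
    have hy : g • (-x) ∈ DS HSG.AR352 := (mem_XX g2 g1 x).2 hx
    have hy' : g • (-x') ∈ DS HSG.AR352 := (mem_XX g2 g1 x').2 hx'
    obtain ⟨h, hh, e⟩ := HSG.transR352 hN.le _ hy _ hy'
    refine ⟨g⁻¹ * (h * g), ?_, ?_, ?_⟩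
    · rw [mul_smul, mul_smul, g2, HSG.fix_w1 hh, ← g2, inv_smul_smul]
    · rw [mul_smul, mul_smul, g1, HSG.fix_u0 hh, ← g1, inv_smul_smul]
    · have e2 : (g⁻¹ * (h * g)) • (-x) = -x' := by
        rw [mul_smul, mul_smul, e, inv_smul_smul]
      rw [smul_neg', neg_inj] at e2
      exact e2
  · intro x hx
    have hy : g • (-x) ∈ DS HSG.AR352 := (mem_XX g2 g1 x).2 hx
    obtain ⟨h, hh, e⟩ := HSG.transR352 hN.le _ hy _ HSG.rootR352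
    have k1 : (h * g) • v = HSG.lw1 := by rw [mul_smul, g2, HSG.fix_w1 hh]
    have k2 : (h * g) • w = HSG.lu0 := by rw [mul_smul, g1, HSG.fix_u0 hh]
    have k3 : (h * g) • (-x) = HSG.lrR352 := by rw [mul_smul, e]
    have c1 : ↥(MulAction.stabilizer ↥Cfsg.Co0 v ⊓ MulAction.stabilizer ↥Cfsg.Co0 w ⊓ MulAction.stabilizer ↥Cfsg.Co0 x) ≃* ↥T0 :=
      conjStb (h * g) (K := stb v ⊓ stb w ⊓ stb x) (K' := T0) (by
        intro k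
        have a1 := mem_stb_conj (h * g) k v
        have a2 := mem_stb_conj (h * g) k w
        have a3 := mem_stb_conj (h * g) k (-x)
        rw [k1] at a1
        rw [k2] at a2
        rw [k3, stb_neg] at a3
        constructor
        · rintro ⟨⟨b1, b2⟩, b3⟩
          exact ⟨⟨a1.1 b1, a2.1 b2⟩, a3.1 b3⟩
        · rintro ⟨⟨b1, b2⟩, b3⟩
          exact ⟨⟨a1.2 b1, a2.2 b2⟩, a3.2 b3⟩)
    obtain ⟨e1⟩ := hs_iso
    obtain ⟨e3⟩ := psu_iso hF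
    exact ⟨c1.trans (e1.trans e3.symm)⟩

end Cfsg.Agent.S1633
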