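import Cfsg.Statements.S1634
import Cfsg.Agent.Lib.CoMcL2

set_option autoImplicit false
open Cfsg
open Cfsg.Agent.Lib.CoConf

namespace Cfsg.Agent.S1634

/-- The McLaughlin group acts on 2025 points (minimal vectors orthogonal to v with customary inner product 2 with w) transitively with rank 4 and subdegrees 1, 330, 462, 1232. -/
theorem result (v w : ↥Cfsg.leechLattice) (hv : Cfsg.sqNorm (v : Cfsg.GolayPt → ℤ) = 32) (hw : Cfsg.sqNorm (w : Cfsg.GolayPt → ℤ) = 32) (hvw : Cfsg.dotInt (v : Cfsg.GolayPt → ℤ) (w : Cfsg.GolayPt → ℤ) = -8) : {x : ↥Cfsg.leechLattice | Cfsg.sqNorm (x : Cfsg.GolayPt → ℤ) = 32 ∧ Cfsg.dotInt (v : Cfsg.GolayPt → ℤ) (x : Cfsg.GolayPt → ℤ) = 0 ∧ Cfsg.dotInt (w : Cfsg.GolayPt → ℤ) (x : Cfsg.GolayPt → ℤ) = 16}.ncard = 2025 ∧ (∀ x ∈ {x : ↥Cfsg.leechLattice | Cfsg.sqNorm (x : Cfsg.GolayPt → ℤ) = 32 ∧ Cfsg.dotInt (v : Cfsg.GolayPt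 → ℤ) (x : Cfsg.GolayPt → ℤ) = 0 ∧ Cfsg.dotInt (w : Cfsg.GolayPt → ℤ) (x : Cfsg.GolayPt → ℤ) = 16}, ∀ x' ∈ {x : ↥Cfsg.leechLattice | Cfsg.sqNorm (x : Cfsg.GolayPt → ℤ) = 32 ∧ Cfsg.dotInt (v : Cfsg.GolayPt → ℤ) (x : Cfsg.GolayPt → ℤ) = 0 ∧ Cfsg.dotInt (w : Cfsg.GolayPt → ℤ) (x : Cfsg.GolayPt → ℤ) = 16}, ∃ g : ↥Cfsg.Co0, g • v = v ∧ g • w = w ∧ g • x = x') ∧ ∀ x ∈ {x : ↥Cfsg.leechLattice | Cfsg.sqNorm (x : Cfsg.GolayPt → ℤ) = 32 ∧ Cfsg.dotInt (v : Cfsg.GolayPt → ℤ) (x : Cfsg.GolayPt → ℤ) = 0 ∧ Cfsg.dotInt (w : Cfsg.GolayPt → ℤ) (x : Cfsg.GolayPt → ℤ) = 16}, ∃ y₁ ∈ {x : ↥Cfsg.leechLattice | Cfsg.sqNorm (x : Cfsg.GolayPt → ℤ) = 32 ∧ Cfsg.dotInt (v : Cfsg.GolayPt → ℤ) (x : Cfsg.GolayPt → ℤ) = 0 ∧ Cfsg.dotInt (w : Cfsg.GolayPt → ℤ) (x : Cfsg.GolayPt → ℤ) = 16}, ∃ y₂ ∈ {x : ↥Cfsg.leechLattice | Cfsg.sqNorm (x : Cfsg.GolayPt → ℤ) = 32 ∧ Cfsg.dotInt (v :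 Cfsg.GolayPt → ℤ) (x : Cfsg.GolayPt → ℤ) = 0 ∧ Cfsg.dotInt (w : Cfsg.GolayPt → ℤ) (x : Cfsg.GolayPt → ℤ) = 16}, ∃ y₃ ∈ {x : ↥Cfsg.leechLattice | Cfsg.sqNorm (x : Cfsg.GolayPt → ℤ) = 32 ∧ Cfsg.dotInt (v : Cfsg.GolayPt → ℤ) (x : Cfsg.GolayPt → ℤ) = 0 ∧ Cfsg.dotInt (w : Cfsg.GolayPt → ℤ) (x : Cfsg.GolayPt → ℤ) = 16}, (MulAction.orbit ↥(MulAction.stabilizer ↥Cfsg.Co0 v ⊓ MulAction.stabilizer ↥Cfsg.Co0 w ⊓ MulAction.stabilizer ↥Cfsg.Co0 x) y₁).ncard = 330 ∧ (MulAction.orbit ↥(MulAction.stabilizer ↥Cfsg.Co0 v ⊓ MulAction.stabilizer ↥Cfsg.Co0 w ⊓ MulAction.stabilizer ↥Cfsg.Co0 x) y₂).ncard = 462 ∧ (MulAction.orbit ↥(MulAction.stabilizer ↥Cfsg.Co0 v ⊓ MulAction.stabilizer ↥Cfsg.Co0 w ⊓ MulAction.stabilizer ↥Cfsg.Co0 x) y₃).ncard = 1232 := by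
  rw [set2025_eq v w]
  refine ⟨ncard_2025 v w hv hw hvw, ?_, ?_⟩
  · intro x hx x' hx'
    obtain ⟨k, hk, e⟩ := transOn_2025' v w hv hw hvw x hx x' hx'
    have h1 : k • v = v := hk (v, 0) (by simp)
    have h2 : k • (v + w) = v + w := hk (v + w, 16) (by simp)
    refine ⟨k, h1, ?_, e⟩
    rw [smul_add', h1] at h2
    exact add_left_cancel h2
  · intro x hx
    have hR := rank_2025 v w hv hw hvw x hx
    let K : Subgroup ↥Cfsg.Co0 := MulAction.stabilizer ↥Cfsg.Co0 v ⊓ MulAction.stabilizer ↥Cfsg.Co0 w ⊓ MulAction.stabilizer ↥Cfsg.Co0 x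
    have hK : ∀ d : ℤ, d ∈ ({32, 0, 16, 8} : Finset ℤ) → d ≠ 32 → ∀ y ∈ DS [(x, d), (v, 0), (v + w, 16)], MulAction.orbit K y = DS [(x, d), (v, 0), (v + w, 16)] := by
      intro d hd hd' y hy
      apply orbit_eq_DS _ _ (hR.2.1 d hd hd') hy
      · intro k hk p hp
        simp only [List.mem_cons, List.not_mem_nil, or_false] at hp
        have a1 : k • v = v := hk.1.1
        have a2 : k • w = w := hk.1.2
        have a3 : k • x = x := hk.2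
        rcases hp with rfl | rfl | rfl
        · exact a3
        · exact a1
        · show k • (v + w) = v + w
          rw [smul_add', a1, a2]
      · intro k hk
        have h1 : k • v = v := hk (v, 0) (by simp)
        have h2 : k • (v + w) = v + w := hk (v + w, 16) (by simp)
        have h3 : k • x = x := hk (x, d) (by simp)
        rw [smul_add', h1] at h2
        exact ⟨⟨h1, add_left_cancel h2⟩, h3⟩
    have hne : ∀ d : ℤ, d ∈ ({32, 0, 16, 8} : Finset ℤ) → (fun d : ℤ => if d = 32 then 1 else if d = 0 then 330 else if d = 16 then 462 else 1232) d ≠ 0 → ∃ y, y ∈ DS [(x, d), (v, 0), (v + w, 16)] := by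
      intro d hd hn
      have := hR.1 d hd
      have h2 : (DS [(x, d), (v, 0), (v + w, 16)]).ncard ≠ 0 := by rw [this]; exact hn
      exact Set.nonempty_of_ncard_ne_zero h2
    obtain ⟨y1, hy1⟩ := hne 0 (by decide) (by norm_num)
    obtain ⟨y2, hy2⟩ := hne 16 (by decide) (by norm_num)
    obtain ⟨y3, hy3⟩ := hne 8 (by decide) (by norm_num)
    have o1 := hK 0 (by decide) (by norm_num) y1 hy1
    have o2 := hK 16 (by decide) (by norm_num) y2 hy2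
    have o3 := hK 8 (by decide) (by norm_num) y3 hy3
    refine ⟨y1, (mem_DS_cons.1 hy1).1, y2, (mem_DS_cons.1 hy2).1, y3, (mem_DS_cons.1 hy3).1, ?_, ?_, ?_⟩
    · show (MulAction.orbit K y1).ncard = 330
      rw [o1, hR.1 0 (by decide)]
      norm_num
    · show (MulAction.orbit K y2).ncard = 462
      rw [o2, hR.1 16 (by decide)]
      norm_num
    · show (MulAction.orbit K y3).ncard = 1232
      rw [o3, hR.1 8 (by decide)]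
      norm_num

end Cfsg.Agent.S1634
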