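import Mathlib
import Cfsg.Statements.S1636
import Cfsg.Agent.Lib.GolayPuncture

set_option autoImplicit false
open Cfsg

namespace Cfsg.Agent.S1636

open Cfsg.Agent.Lib Cfsg.Agent.Lib.GolayPuncture

theorem count (k n : ℕ) (h : (Golay.codeL.filter (fun m => Nat.beq (Golay.pop m - Golay.bit m 23) k)).length = n) :
    {u : ZMod 23 → ZMod 2 | u ∈ {u : ZMod 23 → ZMod 2 | ∃ w ∈ Cfsg.golayCode, ∀ x : ZMod 23, u x = w (some x)} ∧ hammingNorm u = k}.ncard = n := by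
  have := ncard_P_filter (fun t => Nat.beq t k)
  rw [h] at this
  rw [← this]
  congr 1
  ext u
  constructor
  · rintro ⟨h1, h2⟩
    exact ⟨h1, by subst h2; exact Nat.beq_refl _⟩
  · rintro ⟨h1, h2⟩
    exact ⟨h1, Nat.eq_of_beq_eq_true h2⟩

theorem countAll (n : ℕ) (h : (Golay.codeL.filter (fun _ => true)).length = n) :
    {u : ZMod 23 → ZMod 2 | ∃ w ∈ Cfsg.golayCode, ∀ x : ZMod 23, u x = w (some x)}.ncard = n := by
  have e2 : {u : ZMod 23 → ZMod 2 | ∃ w ∈ Cfsg.golayCode, ∀ x : ZMod 23, u x = w (some x)} =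
      {u | u ∈ P ∧ (fun _ => true) (hammingNorm u) = true} := by
    ext u
    constructor
    · intro h1
      exact ⟨h1, rfl⟩
    · rintro ⟨h1, _⟩
      exact h1
  rw [e2]
  exact (ncard_P_filter (fun _ => true)).trans h

/-- The punctured length-23 code has weight distribution 0^1 7^253 8^506 11^1288 12^1288 15^506 16^253 23^1. -/
theorem result : {u : ZMod 23 → ZMod 2 | ∃ w ∈ Cfsg.golayCode, ∀ x : ZMod 23, u x = w (some x)}.ncard = 4096 ∧ {u : ZMod 23 → ZMod 2 | u ∈ {u : ZMod 23 → ZMod 2 | ∃ w ∈ Cfsg.golayCode, ∀ x : ZMod 23, u x = w (some x)} ∧ hammingNorm u = 7}.ncard = 253 ∧ {u : ZMod 23 → ZMod 2 | u ∈ {u : ZMod 23 → ZMod 2 | ∃ w ∈ Cfsg.golayCode, ∀ x : ZMod 23, u x = w (some x)} ∧ hammingNorm u = 8}.ncard = 506 ∧ {u : ZMod 23 → ZMod 2 | u ∈ {u : ZMod 23 → ZMod 2 | ∃ w ∈ Cfsg.golayCode, ∀ x : ZMod 23, u x = w (some x)} ∧ hammingNorm u = 11}.ncard = 1288 ∧ {u : ZMod 23 → ZMod 2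 | u ∈ {u : ZMod 23 → ZMod 2 | ∃ w ∈ Cfsg.golayCode, ∀ x : ZMod 23, u x = w (some x)} ∧ hammingNorm u = 12}.ncard = 1288 ∧ {u : ZMod 23 → ZMod 2 | u ∈ {u : ZMod 23 → ZMod 2 | ∃ w ∈ Cfsg.golayCode, ∀ x : ZMod 23, u x = w (some x)} ∧ hammingNorm u = 15}.ncard = 506 ∧ {u : ZMod 23 → ZMod 2 | u ∈ {u : ZMod 23 → ZMod 2 | ∃ w ∈ Cfsg.golayCode, ∀ x : ZMod 23, u x = w (some x)} ∧ hammingNorm u = 16}.ncard = 253 ∧ ∀ u ∈ {u : ZMod 23 → ZMod 2 | ∃ w ∈ Cfsg.golayCode, ∀ x : ZMod 23, u x = w (some x)}, u ≠ 0 → 7 ≤ hammingNorm u := by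
  refine ⟨?_, count 7 253 (by decide +kernel), count 8 506 (by decide +kernel),
    count 11 1288 (by decide +kernel), count 12 1288 (by decide +kernel),
    count 15 506 (by decide +kernel), count 16 253 (by decide +kernel),
    fun u hu h0 => min_weight hu h0⟩
  exact countAll 4096 (by decide +kernel)

end Cfsg.Agent.S1636
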