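import Cfsg.Statements.S1641
import Cfsg.Agent.Lib.CoHS

set_option autoImplicit false
open Cfsg
open Cfsg.Agent.Lib.CoConf

namespace Cfsg.Agent.S1641

/-- The third Conway group acts on the 11178 cosets of the Higman–Sims group with rank 5 and subdegrees 1, 352, 1100, 4125, 5600. -/
theorem result (u x : ↥Cfsg.leechLattice) (hu : Cfsg.sqNorm (u : Cfsg.GolayPt → ℤ) = 48) (hx : x ∈ {x : ↥Cfsg.leechLattice | Cfsg.sqNorm (x : Cfsg.GolayPt → ℤ) = 32 ∧ Cfsg.dotInt (u : Cfsg.GolayPt → ℤ) (x : Cfsg.GolayPt → ℤ) = -16}) : ∃ y₁ ∈ {x : ↥Cfsg.leechLattice | Cfsg.sqNorm (x : Cfsg.GolayPt → ℤ) = 32 ∧ Cfsg.dotInt (u : Cfsg.GolayPt → ℤ) (x : Cfsg.GolayPt → ℤ) = -16}, ∃ y₂ ∈ {x : ↥Cfsg.leechLattice | Cfsg.sqNorm (x : Cfsg.GolayPt → ℤ) = 32 ∧ Cfsg.dotInt (u : Cfsg.GolayPt → ℤ) (x : Cfsg.GolayPt → ℤ) = -16}, ∃ y₃ ∈ {x : ↥Cfsg.leechLattice | Cfsg.sqNorm (x : Cfsg.GolayPt → ℤ) = 32 ∧ Cfsg.dotInt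 (u : Cfsg.GolayPt → ℤ) (x : Cfsg.GolayPt → ℤ) = -16}, ∃ y₄ ∈ {x : ↥Cfsg.leechLattice | Cfsg.sqNorm (x : Cfsg.GolayPt → ℤ) = 32 ∧ Cfsg.dotInt (u : Cfsg.GolayPt → ℤ) (x : Cfsg.GolayPt → ℤ) = -16}, (MulAction.orbit ↥(MulAction.stabilizer ↥Cfsg.Co0 u ⊓ MulAction.stabilizer ↥Cfsg.Co0 x) y₁).ncard = 352 ∧ (MulAction.orbit ↥(MulAction.stabilizer ↥Cfsg.Co0 u ⊓ MulAction.stabilizer ↥Cfsg.Co0 x) y₂).ncard = 1100 ∧ (MulAction.orbit ↥(MulAction.stabilizer ↥Cfsg.Co0 u ⊓ MulAction.stabilizer ↥Cfsg.Co0 x) y₃).ncard = 4125 ∧ (MulAction.orbit ↥(MulAction.stabilizer ↥Cfsg.Co0 u ⊓ MulAction.stabilizer ↥Cfsg.Co0 x) y₄).ncard = 5600 ∧ {x : ↥Cfsg.leechLattice | Cfsg.sqNorm (x : Cfsg.GolayPt → ℤ) = 32 ∧ Cfsg.dotInt (u : Cfsg.GolayPt → ℤ) (x : Cfsg.GolayPt → ℤ) = -16} = {x} ∪ MulAction.orbit ↥(MulAction.stabilizer ↥Cfsg.Co0 u ⊓ MulAction.stabilizer ↥Cfsg.Co0 x) y₁ ∪ MulAction.orbit ↥(MulAction.stabilizer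 ↥Cfsg.Co0 u ⊓ MulAction.stabilizer ↥Cfsg.Co0 x) y₂ ∪ MulAction.orbit ↥(MulAction.stabilizer ↥Cfsg.Co0 u ⊓ MulAction.stabilizer ↥Cfsg.Co0 x) y₃ ∪ MulAction.orbit ↥(MulAction.stabilizer ↥Cfsg.Co0 u ⊓ MulAction.stabilizer ↥Cfsg.Co0 x) y₄ := by
  have eX : {x : ↥Cfsg.leechLattice | Cfsg.sqNorm (x : Cfsg.GolayPt → ℤ) = 32 ∧ Cfsg.dotInt (u : Cfsg.GolayPt → ℤ) (x : Cfsg.GolayPt → ℤ) = -16} = DS [(u, -16)] := by
    ext x
    simp only [DS, Set.mem_setOf_eq, List.mem_singleton, forall_eq]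
  rw [eX] at hx ⊢
  have hR := rank_11178 u x hu hx
  let K : Subgroup ↥Cfsg.Co0 := MulAction.stabilizer ↥Cfsg.Co0 u ⊓ MulAction.stabilizer ↥Cfsg.Co0 x
  have hK : ∀ d : ℤ, d ∈ ({32, -8, 16, 0, 8} : Finset ℤ) → d ≠ 32 → ∀ y ∈ DS [(x, d), (u, -16)], MulAction.orbit K y = DS [(x, d), (u, -16)] := by
    intro d hd hd' y hy
    apply orbit_eq_DS _ _ (hR.2.1 d hd hd') hy
    · intro k hk p hp
      simp only [List.mem_cons, List.not_mem_nil, or_false] at hp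
      rcases hp with rfl | rfl
      · exact hk.2
      · exact hk.1
    · intro k hk
      exact ⟨hk (u, -16) (by simp), hk (x, d) (by simp)⟩
  have hne : ∀ d : ℤ, d ∈ ({32, -8, 16, 0, 8} : Finset ℤ) → (fun d : ℤ => if d = 32 then 1 else if d = -8 then 352 else if d = 16 then 1100 else if d = 0 then 4125 else 5600) d ≠ 0 → ∃ y, y ∈ DS [(x, d), (u, -16)] := by
    intro d hd hn
    have := hR.1 d hd
    have h2 : (DS [(x, d), (u, -16)]).ncard ≠ 0 := by rw [this]; exact hn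
    exact Set.nonempty_of_ncard_ne_zero h2
  obtain ⟨y1, hy1⟩ := hne (-8) (by decide) (by norm_num)
  obtain ⟨y2, hy2⟩ := hne 16 (by decide) (by norm_num)
  obtain ⟨y3, hy3⟩ := hne 0 (by decide) (by norm_num)
  obtain ⟨y4, hy4⟩ := hne 8 (by decide) (by norm_num)
  have o1 := hK (-8) (by decide) (by norm_num) y1 hy1
  have o2 := hK 16 (by decide) (by norm_num) y2 hy2
  have o3 := hK 0 (by decide) (by norm_num) y3 hy3
  have o4 := hK 8 (by decide) (by norm_num) y4 hy4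
  refine ⟨y1, (mem_DS_cons.1 hy1).1, y2, (mem_DS_cons.1 hy2).1, y3, (mem_DS_cons.1 hy3).1, y4, (mem_DS_cons.1 hy4).1, ?_, ?_, ?_, ?_, ?_⟩
  · show (MulAction.orbit K y1).ncard = 352
    rw [o1, hR.1 (-8) (by decide)]
    norm_num
  · show (MulAction.orbit K y2).ncard = 1100
    rw [o2, hR.1 16 (by decide)]
    norm_num
  · show (MulAction.orbit K y3).ncard = 4125
    rw [o3, hR.1 0 (by decide)]
    norm_num
  · show (MulAction.orbit K y4).ncard = 5600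
    rw [o4, hR.1 8 (by decide)]
    norm_num
  · show DS [(u, -16)] = {x} ∪ MulAction.orbit K y1 ∪ MulAction.orbit K y2 ∪ MulAction.orbit K y3 ∪ MulAction.orbit K y4
    rw [o1, o2, o3, o4]
    ext z
    constructor
    · intro hz
      by_cases hzx : z = x
      · subst hzx
        simp
      · obtain ⟨h1, h2⟩ := hR.dot_ne hx (by decide) (by simp) hz hzx
        simp only [Finset.mem_insert, Finset.mem_singleton] at h1
        simp only [Set.mem_union, Set.mem_singleton_iff]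
        rcases h1 with h | h | h | h | h
        · exact absurd h h2
        · exact Or.inl (Or.inl (Or.inl (Or.inr (mem_DS_cons.2 ⟨hz, h⟩))))
        · exact Or.inl (Or.inl (Or.inr (mem_DS_cons.2 ⟨hz, h⟩)))
        · exact Or.inl (Or.inr (mem_DS_cons.2 ⟨hz, h⟩))
        · exact Or.inr (mem_DS_cons.2 ⟨hz, h⟩)
    · intro hz
      simp only [Set.mem_union, Set.mem_singleton_iff] at hz
      rcases hz with ((((rfl | h) | h) | h) | h)
      · exact hx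
      · exact (mem_DS_cons.1 h).1
      · exact (mem_DS_cons.1 h).1
      · exact (mem_DS_cons.1 h).1
      · exact (mem_DS_cons.1 h).1

end Cfsg.Agent.S1641
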