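import Cfsg.Statements.S1642
import Cfsg.Agent.Lib.CoHSInv

set_option autoImplicit false
open Cfsg
open Cfsg.Agent.Lib.CoConf

namespace Cfsg.Agent.S1642

/-- Some involution of the Higman–Sims group acts without fixed points on its 100 points. -/
theorem result (v w : ↥Cfsg.leechLattice) (hv : Cfsg.sqNorm (v : Cfsg.GolayPt → ℤ) = 48) (hw : Cfsg.sqNorm (w : Cfsg.GolayPt → ℤ) = 48) (hvw : Cfsg.dotInt (v : Cfsg.GolayPt → ℤ) (w : Cfsg.GolayPt → ℤ) = -32) : ∃ g : ↥Cfsg.Co0, g • v = v ∧ g • w = w ∧ orderOf g = 2 ∧ ∀ x ∈ {x : ↥Cfsg.leechLattice | Cfsg.sqNorm (x : Cfsg.GolayPt → ℤ) = 32 ∧ Cfsg.dotInt (v : Cfsg.GolayPt → ℤ) (x : Cfsg.GolayPt → ℤ) = 24 ∧ Cfsg.dotInt (w : Cfsg.GolayPt → ℤ) (x : Cfsg.GolayPt → ℤ) = -24}, g • x ≠ x := by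
  obtain ⟨k, k1, k2⟩ := hs_move v w hv hw hvw
  have hu0 : Cfsg.Agent.Lib.CoVec.HSInvG.e0 • Cfsg.Agent.Lib.CoVec.HSG.lu0 = Cfsg.Agent.Lib.CoVec.HSG.lu0 :=
    Cfsg.Agent.Lib.CoVec.HSInvG.fix_u0 (h := Cfsg.Agent.Lib.CoVec.HSInvG.e0) Cfsg.Agent.Lib.CoVec.HSInvG.mem0
  have hw1 : Cfsg.Agent.Lib.CoVec.HSInvG.e0 • Cfsg.Agent.Lib.CoVec.HSG.lw1 = Cfsg.Agent.Lib.CoVec.HSG.lw1 :=
    Cfsg.Agent.Lib.CoVec.HSInvG.fix_w1 (h := Cfsg.Agent.Lib.CoVec.HSInvG.e0) Cfsg.Agent.Lib.CoVec.HSInvG.mem0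
  refine ⟨k⁻¹ * Cfsg.Agent.Lib.CoVec.HSInvG.e0 * k, ?_, ?_, ?_, ?_⟩
  · rw [mul_smul, mul_smul, k1, hu0, ← k1, inv_smul_smul]
  · rw [mul_smul, mul_smul, k2, hw1, ← k2, inv_smul_smul]
  · apply orderOf_eq_prime
    · rw [pow_two]
      have e : k⁻¹ * Cfsg.Agent.Lib.CoVec.HSInvG.e0 * k * (k⁻¹ * Cfsg.Agent.Lib.CoVec.HSInvG.e0 * k) = k⁻¹ * (Cfsg.Agent.Lib.CoVec.HSInvG.e0 * Cfsg.Agent.Lib.CoVec.HSInvG.e0) * k := by
        group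
      rw [e, inv_sq]
      simp
    · intro h
      apply Cfsg.Agent.Lib.CoConf.inv_ne_one
      have : Cfsg.Agent.Lib.CoVec.HSInvG.e0 = k * (k⁻¹ * Cfsg.Agent.Lib.CoVec.HSInvG.e0 * k) * k⁻¹ := by group
      rw [this, h]
      simp
  · intro x hx e
    have hx' : x ∈ DS [(w, -24), (v, 24)] := by
      rw [← set100_eq v w]
      exact hx
    have h1 : k • x ∈ DS A100 := by
      have := (mem_DS_move k [(w, -24), (v, 24)] x).2 hx'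
      simp only [moveL_cons, moveL_nil, k1, k2] at this
      exact this
    apply inv_nofix _ h1
    rw [mul_smul, mul_smul, inv_smul_eq_iff] at e
    exact e

end Cfsg.Agent.S1642
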