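import Mathlib
import Cfsg.Statements.S1643
import Cfsg.Agent.S0370
import Cfsg.Agent.S0371
import Cfsg.Agent.S0372
import Cfsg.Agent.S1606
import Cfsg.Agent.Lib.GolayFamilies

set_option autoImplicit false
set_option maxRecDepth 100000

namespace Cfsg.Agent.S1643

open Cfsg Cfsg.Agent.Lib.Golay Cfsg.Agent.Lib.GolaySift
  Cfsg.Agent.Lib.MathieuSimple Cfsg.Agent.Lib.SylowCount Cfsg.Agent.Lib.M24Facts Subgroup
open scoped Pointwise

instance : Fact (Nat.Prime 23) := ⟨by norm_num⟩

/-- The translation. -/
abbrev s : Equiv.Perm GolayPt := Equiv.optionCongr (Equiv.addRight (1 : ZMod 23))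

/-- The multiplications. -/
abbrev mu (u : (ZMod 23)ˣ) : Equiv.Perm GolayPt := Equiv.optionCongr (Units.mulLeft u)

theorem s_none : s none = none := rfl
theorem s_some (x : ZMod 23) : s (some x) = some (x + 1) := rfl
theorem mu_none (u : (ZMod 23)ˣ) : mu u none = none := rfl
theorem mu_some (u : (ZMod 23)ˣ) (x : ZMod 23) : mu u (some x) = some ((u : ZMod 23) * x) := rfl

theorem mu_mul (u v : (ZMod 23)ˣ) : mu (u * v) = mu u * mu v := by
  apply Equiv.ext
  intro q
  cases q with
  | none => rfl
  | some x =>
    rw [Equiv.Perm.mul_apply, mu_some, mu_some, mu_some, Units.val_mul, mul_assoc]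

theorem mu_one : mu 1 = 1 := by
  apply Equiv.ext
  intro q
  cases q with
  | none => rfl
  | some x =>
    rw [mu_some, Units.val_one, one_mul]
    rfl

theorem mu_pow (u : (ZMod 23)ˣ) (n : ℕ) : mu (u ^ n) = mu u ^ n := by
  induction n with
  | zero => rw [pow_zero, pow_zero, mu_one]
  | succ n ih => rw [pow_succ, pow_succ, mu_mul, ih]

theorem s_pow_none (n : ℕ) : (s ^ n) none = none := by
  induction n with
  | zero => rfl
  | succ n ih => rw [pow_succ', Equiv.Perm.mul_apply, ih, s_none]

theorem s_pow_some (n : ℕ) (x : ZMod 23) : (s ^ n) (some x) = some (x + n) := by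
  induction n with
  | zero => simp
  | succ n ih =>
    rw [pow_succ', Equiv.Perm.mul_apply, ih, s_some]
    push_cast
    rw [add_assoc]

/-- The unit `2`. -/
def u2 : (ZMod 23)ˣ := ZMod.unitOfCoprime 2 (by norm_num)

/-- The unit `-1`. -/
def neg1 : (ZMod 23)ˣ := -1

def sc : ℕ := 956302485175575353788796878166559809
def zc : ℕ := 983435072843990828779021698901151808
def ic : ℕ := 1795248432537898728475572672376535
def negc : ℕ := 956765793662171983829532039519557312

theorem rep_s : Rep s sc := by
  intro q
  revert q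
  decide +kernel

theorem rep_mu2 : Rep (mu u2) zc := by
  intro q
  revert q
  decide +kernel

theorem rep_i : Rep projInv ic := by
  intro q
  revert q
  decide +kernel

theorem rep_neg : Rep (mu neg1) negc := by
  intro q
  revert q
  decide +kernel

theorem zc_eq : zc = S1606.zc := by decide +kernel

theorem mu2_eq : mu u2 = S1606.z := by
  have h := S1606.rz
  rw [← zc_eq] at h
  exact rep_unique rep_mu2 h

theorem s_mem_M24 : s ∈ M24 := S0370.result

theorem mu_mem_M24 (u : (ZMod 23)ˣ) (hu : IsSquare u) : mu u ∈ M24 := S0371.result u hu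

theorem u2_square : IsSquare u2 := by
  refine ⟨ZMod.unitOfCoprime 5 (by norm_num), ?_⟩
  decide +kernel

theorem neg_not_M24 : mu neg1 ∉ M24 := by
  have hv : valid negc = true := by decide +kernel
  have h1 : mu neg1 = decode negc := rep_unique rep_neg (rep_decode hv)
  rw [h1]
  intro h
  have h2 := (isM24_iff_decode hv).2 h
  have h3 : isM24 negc = false := by decide +kernel
  rw [h3] at h2
  exact absurd h2 (by simp)

theorem table_units : ∀ x : ZMod 23, x ≠ 0 →
    (∃ e ∈ List.range 11, x = 2 ^ e) ∨ (∃ e ∈ List.range 11, x = -(2 ^ e)) := by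
  decide +kernel

theorem u2_val : ((u2 : (ZMod 23)ˣ) : ZMod 23) = 2 := rfl

/-- Multiplications in `M24` are powers of `u2`. -/
theorem mu_mem_pow {u : (ZMod 23)ˣ} (hu : mu u ∈ M24) : ∃ e ∈ List.range 11, u = u2 ^ e := by
  rcases table_units (u : ZMod 23) u.ne_zero with ⟨e, he, h⟩ | ⟨e, he, h⟩
  · refine ⟨e, he, Units.ext ?_⟩
    rw [h, Units.val_pow_eq_pow_val, u2_val]
  · exfalso
    apply neg_not_M24
    have hue : neg1 = u * (u2 ^ e)⁻¹ := by
      apply Units.ext
      have h2 : (u : ZMod 23) = ((neg1 * u2 ^ e : (ZMod 23)ˣ) : ZMod 23) := by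
        rw [h, Units.val_mul, Units.val_pow_eq_pow_val, u2_val]
        simp [neg1]
      have : u = neg1 * u2 ^ e := Units.ext h2
      rw [this]
      simp
    have hsq : mu (u2 ^ e) ∈ M24 := by
      rw [mu_pow]
      exact M24.pow_mem (mu_mem_M24 _ u2_square) e
    have hinv : mu ((u2 ^ e)⁻¹) = (mu (u2 ^ e))⁻¹ := by
      apply eq_inv_of_mul_eq_one_left
      rw [← mu_mul, inv_mul_cancel, mu_one]
    rw [hue, mu_mul, hinv]
    exact M24.mul_mem hu (M24.inv_mem hsq)

/-- The semi-linear form. -/
theorem affine_of_semiconj {g : Equiv.Perm GolayPt} (hnone : g none = none) {k : ℕ}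
    (hk : (k : ZMod 23) ≠ 0) (hc : g * s = s ^ k * g) :
    ∃ c : ℕ, c < 23 ∧ ∃ u : (ZMod 23)ˣ, g = s ^ c * mu u := by
  obtain ⟨c0, hc0⟩ : ∃ c0, g (some 0) = some c0 := by
    cases h : g (some 0) with
    | none =>
      exfalso
      rw [← hnone] at h
      exact absurd (g.injective h) (by simp)
    | some c0 => exact ⟨c0, rfl⟩
  have key : ∀ n : ℕ, g (some (n : ZMod 23)) = some ((k : ZMod 23) * n + c0) := by
    intro n
    induction n with
    | zero => simpa using hc0
    | succ n ih =>
      have h1 : some (((n + 1 : ℕ) : ZMod 23)) = s (some (n : ZMod 23)) := by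
        rw [s_some]
        push_cast
        rfl
      rw [h1]
      have h2 := congrArg (fun f : Equiv.Perm GolayPt => f (some (n : ZMod 23))) hc
      simp only [Equiv.Perm.mul_apply] at h2
      rw [h2, ih, s_pow_some]
      push_cast
      congr 1
      ring
  refine ⟨c0.val, ZMod.val_lt c0, Units.mk0 (k : ZMod 23) hk, ?_⟩
  apply Equiv.ext
  intro q
  cases q with
  | none =>
    rw [hnone, Equiv.Perm.mul_apply, mu_none, s_pow_none]
  | some x =>
    have h := key x.val
    rw [ZMod.natCast_zmod_val] at h
    rw [h, Equiv.Perm.mul_apply, mu_some, s_pow_some, ZMod.natCast_zmod_val]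
    rfl

theorem s_order : orderOf s = 23 :=
  orderOf_eq_prime (pow_eq_one_of_code rep_s (by decide +kernel))
    (ne_one_of_code rep_s (i := 1) (by norm_num) (by decide +kernel))

/-! ### The group `23 : 11` -/

/-- The normaliser. -/
noncomputable abbrev N : Subgroup (Equiv.Perm GolayPt) :=
  G [23] ⊓ normalizer ((zpowers s : Subgroup _) : Set (Equiv.Perm GolayPt))

theorem pt23 : pt 23 = none := by simp [pt]

theorem pt0 : pt 0 = some 0 := by simp [pt]

theorem mem_G23_of {g : Equiv.Perm GolayPt} (h1 : g ∈ M24) (h2 : g none = none) : g ∈ G [23] := by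
  refine ⟨h1, fun i hi => ?_⟩
  simp only [List.mem_cons, List.not_mem_nil, or_false] at hi
  subst hi
  rw [pt23, h2]

theorem G23_none {g : Equiv.Perm GolayPt} (h : g ∈ G [23]) : g none = none := by
  have := h.2 23 (by simp)
  rwa [pt23] at this

theorem mu_norm (u : (ZMod 23)ˣ) : mu u ∈ normalizer ((zpowers s : Subgroup _) : Set (Equiv.Perm GolayPt)) := by
  apply mem_normalizer_zpowers (k := (u : ZMod 23).val) (isOfFinOrder_of_finite _)
  have h : mu u * s = s ^ (u : ZMod 23).val * mu u := by
    apply Equiv.ext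
    intro q
    cases q with
    | none => rw [Equiv.Perm.mul_apply, Equiv.Perm.mul_apply, s_none, mu_none, s_pow_none]
    | some x =>
      rw [Equiv.Perm.mul_apply, Equiv.Perm.mul_apply, s_some, mu_some, mu_some, s_pow_some,
        ZMod.natCast_zmod_val, mul_add, mul_one]
  rw [h]
  group

theorem s_mem_N : s ∈ N := ⟨mem_G23_of s_mem_M24 s_none, le_normalizer (mem_zpowers s)⟩

theorem mu_mem_N (u : (ZMod 23)ˣ) (hu : IsSquare u) : mu u ∈ N :=
  ⟨mem_G23_of (mu_mem_M24 u hu) (mu_none u), mu_norm u⟩

theorem z_mem_N : S1606.z ∈ N := by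
  rw [← mu2_eq]
  exact mu_mem_N _ u2_square

/-- The cover of `N`. -/
theorem cover_N : ∀ g ∈ N, ∃ a : Fin 23 × Fin 11, s ^ a.1.1 * S1606.z ^ a.2.1 = g := by
  rintro g ⟨hg, hn⟩
  have hn' : g ∈ normalizer ((zpowers s : Subgroup _) : Set (Equiv.Perm GolayPt)) := hn
  rw [mem_normalizer_iff] at hn'
  obtain ⟨k, hk, hke⟩ := S1606.zpow_eq_pow_of_mem ((hn' s).1 (mem_zpowers s))
  rw [s_order] at hk
  have hk' : k < 23 := List.mem_range.1 hk
  have hk0 : k ≠ 0 := by
    rintro rfl
    rw [pow_zero] at hke
    have h1 : s = 1 := by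
      have h2 : g * s * g⁻¹ * g = 1 * g := by rw [hke]
      rw [inv_mul_cancel_right, one_mul] at h2
      exact mul_left_cancel (a := g) (by rw [h2, mul_one])
    have h2 := s_order
    rw [h1, orderOf_one] at h2
    exact absurd h2 (by norm_num)
  have hkz : (k : ZMod 23) ≠ 0 := by
    intro h
    have := (ZMod.natCast_eq_zero_iff k 23).1 h
    exact absurd (Nat.le_of_dvd (by omega) this) (by omega)
  have hc : g * s = s ^ k * g := by
    rw [← hke]
    group
  obtain ⟨c, hc23, u, hu⟩ := affine_of_semiconj (G23_none hg) hkz hc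
  have hmu : mu u ∈ M24 := by
    have : mu u = (s ^ c)⁻¹ * g := by
      rw [hu]
      group
    rw [this]
    exact M24.mul_mem (M24.inv_mem (M24.pow_mem s_mem_M24 c)) hg.1
  obtain ⟨e, he, rfl⟩ := mu_mem_pow hmu
  refine ⟨(⟨c, hc23⟩, ⟨e, List.mem_range.1 he⟩), ?_⟩
  show s ^ c * S1606.z ^ e = g
  rw [hu, mu_pow, mu2_eq]

theorem card_N : Nat.card N = 253 := by
  have hle : Nat.card N ≤ 253 := by
    have := card_le_of_cover _ _ cover_N
    simpa using this
  have h23 : 23 ∣ Nat.card N := by
    have h := Subgroup.orderOf_dvd_natCard _ s_mem_N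
    rwa [s_order] at h
  have h11 : 11 ∣ Nat.card N := by
    have h := Subgroup.orderOf_dvd_natCard _ z_mem_N
    rwa [S1606.z_order] at h
  have hpos : 0 < Nat.card N := Nat.card_pos
  generalize Nat.card N = n at *
  omega

/-- The orbit of a finite point. -/
theorem orbit_finite (U : Subgroup (Equiv.Perm GolayPt)) (hU : U ≤ G [23]) (hs : s ∈ U) :
    (MulAction.orbit U (pt 0)).ncard = 23 := by
  have h : MulAction.orbit U (pt 0) = ((Finset.univ.erase none : Finset GolayPt) : Set GolayPt) := by
    ext q
    rw [MulAction.mem_orbit_iff]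
    simp only [Finset.coe_erase, Finset.coe_univ, Set.mem_sdiff, Set.mem_univ, true_and,
      Set.mem_singleton_iff]
    constructor
    · rintro ⟨⟨g, hg⟩, rfl⟩ h
      have h2 : g (pt 0) = none := h
      have h3 := G23_none (hU hg)
      rw [← h3] at h2
      have h4 := g.injective h2
      rw [pt0] at h4
      exact absurd h4 (by simp)
    · intro hq
      cases q with
      | none => exact absurd rfl hq
      | some x =>
        refine ⟨⟨s ^ x.val, U.pow_mem hs _⟩, ?_⟩
        show (s ^ x.val) (pt 0) = some x
        rw [pt0, s_pow_some, zero_add, ZMod.natCast_zmod_val]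
  rw [h, Set.ncard_coe_finset, Finset.card_erase_of_mem (Finset.mem_univ _), Finset.card_univ]
  simp [ZMod.card]

theorem arith_B {m d m0 : ℕ} (hm : m ∣ 40320) (h23 : m % 23 = 1) (hd : d ∣ 55) (h11 : 11 ∣ d)
    (hm0 : m0 % 11 = 1) (hn : 11 * m = m0 * d) : m = 1 ∨ m = 40320 := by
  have hmem : m ∈ (Nat.divisors 40320).filter (fun m => m % 23 = 1 ∧
      (m % 11 = 1 ∨ (m % 5 = 0 ∧ (m / 5) % 11 = 1))) := by
    rw [Finset.mem_filter, Nat.mem_divisors]
    refine ⟨⟨hm, by norm_num⟩, h23, ?_⟩
    have hd' : d ∈ Nat.divisors 55 := Nat.mem_divisors.2 ⟨hd, by norm_num⟩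
    have e : Nat.divisors 55 = {1, 5, 11, 55} := by decide +kernel
    rw [e] at hd'
    simp only [Finset.mem_insert, Finset.mem_singleton] at hd'
    rcases hd' with rfl | rfl | rfl | rfl
    · omega
    · omega
    · left; omega
    · right
      have : m = 5 * m0 := by omega
      subst this
      constructor
      · omega
      · rw [Nat.mul_div_cancel_left _ (by norm_num)]
        exact hm0
  have e : (Nat.divisors 40320).filter (fun m => m % 23 = 1 ∧
      (m % 11 = 1 ∨ (m % 5 = 0 ∧ (m / 5) % 11 = 1))) = {1, 40320} := by decide +kernel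
  rw [e] at hmem
  simpa using hmem

/-- Subgroups containing `N`. -/
theorem coatomB (U : Subgroup (Equiv.Perm GolayPt)) (hU : U ≤ G [23]) (hB : N ≤ U) :
    U = N ∨ U = G [23] := by
  have hsU : s ∈ U := hB s_mem_N
  have hzU : S1606.z ∈ U := hB z_mem_N
  obtain ⟨-, -, m, hm, hn⟩ := norm_step (p := 23) hU hsU s_order (by rw [card_G1]; norm_num)
  have hinf : U ⊓ normalizer ((zpowers s : Subgroup _) : Set (Equiv.Perm GolayPt)) = N := by
    apply le_antisymm
    · exact inf_le_inf_right _ hU
    · exact le_inf hB inf_le_right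
  rw [hinf, card_N] at hn
  have hdvd : Nat.card U ∣ 10200960 := by
    rw [← card_G1]
    exact card_dvd_of_le hU
  have hm40320 : m ∣ 40320 := by
    rw [hn] at hdvd
    have e : (10200960 : ℕ) = 40320 * 253 := by norm_num
    rw [e] at hdvd
    exact Nat.dvd_of_mul_dvd_mul_right (by norm_num) hdvd
  -- the stabiliser of a finite point
  let U0 : Subgroup (Equiv.Perm GolayPt) := U ⊓ MulAction.stabilizer (Equiv.Perm GolayPt) (pt 0)
  have hcard0 := card_eq_orbit_mul_inf U (pt 0)
  rw [orbit_finite U hU hsU] at hcard0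
  have hU0 : Nat.card U0 * 23 = m * 253 := by
    rw [← hn, hcard0, mul_comm]
  have hU0' : 11 * m = Nat.card U0 := by omega
  have hle0 : U0 ≤ S1606.M22p := by
    intro x hx
    refine ⟨(hU hx.1).1, fun i hi => ?_⟩
    simp only [List.mem_cons, List.not_mem_nil, or_false] at hi
    rcases hi with rfl | rfl
    · exact hx.2
    · exact (hU hx.1).2 23 (by simp)
  have hz0 : S1606.z ∈ U0 := ⟨hzU, S1606.z_mem.2 0 (by simp)⟩
  obtain ⟨h1, h2, m0, hm0, hn0⟩ := norm_step (p := 11) hle0 hz0 S1606.z_order
    (by rw [S1606.card_M22p]; norm_num)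
  rw [S1606.card_BZ] at h1
  rcases arith_B hm40320 hm h1 h2 hm0 (hU0'.trans hn0) with rfl | rfl
  · left
    symm
    apply Subgroup.eq_of_le_of_card_ge hB
    rw [hn, card_N]
  · right
    apply Subgroup.eq_of_le_of_card_ge hU
    rw [hn, card_G1]

/-! ### The group `PSL(2,23)` -/

/-- The generating set of `23 : 11`. -/
def SB : Set (Equiv.Perm GolayPt) :=
  {Equiv.optionCongr (Equiv.addRight (1 : ZMod 23))} ∪
    {g : Equiv.Perm Cfsg.GolayPt | ∃ u : (ZMod 23)ˣ, IsSquare u ∧ g = Equiv.optionCongr (Units.mulLeft u)}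

/-- The generating set of `PSL(2,23)`. -/
def SH : Set (Equiv.Perm GolayPt) :=
  {Equiv.optionCongr (Equiv.addRight (1 : ZMod 23)), Cfsg.projInv} ∪
    {g : Equiv.Perm Cfsg.GolayPt | ∃ u : (ZMod 23)ˣ, IsSquare u ∧ g = Equiv.optionCongr (Units.mulLeft u)}

theorem closure_SB : closure SB = N := by
  apply le_antisymm
  · rw [closure_le]
    rintro g (h | ⟨u, hu, rfl⟩)
    · rw [Set.mem_singleton_iff] at h
      rw [h]
      exact s_mem_N
    · exact mu_mem_N u hu
  · intro g hg
    obtain ⟨a, rfl⟩ := cover_N g hg
    have h1 : s ∈ closure SB := subset_closure (Or.inl rfl)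
    have h2 : S1606.z ∈ closure SB := by
      rw [← mu2_eq]
      exact subset_closure (Or.inr ⟨u2, u2_square, rfl⟩)
    exact mul_mem (pow_mem h1 _) (pow_mem h2 _)

theorem SB_sub_SH : SB ⊆ SH := by
  rintro g (h | h)
  · left
    rw [Set.mem_singleton_iff] at h
    rw [h]
    exact Or.inl rfl
  · exact Or.inr h

theorem closure_SH_le : closure SH ≤ M24 := by
  rw [closure_le]
  rintro g ((h | h) | ⟨u, hu, rfl⟩)
  · rw [h]
    exact s_mem_M24
  · rw [Set.mem_singleton_iff] at h
    rw [h]
    exact S0372.result
  · exact mu_mem_M24 u hu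

theorem N_le_H : N ≤ closure SH := by
  rw [← closure_SB]
  exact closure_mono SB_sub_SH

theorem s_mem_H : s ∈ closure SH := subset_closure (Or.inl (Or.inl rfl))
theorem i_mem_H : projInv ∈ closure SH := subset_closure (Or.inl (Or.inr rfl))

/-- Orbit of the extra point. -/
theorem orbit_none (K : Subgroup (Equiv.Perm GolayPt)) (hK : closure SH ≤ K) :
    (MulAction.orbit K (pt 23)).ncard = 24 := by
  have h : MulAction.orbit K (pt 23) = Set.univ := by
    rw [Set.eq_univ_iff_forall]
    intro q
    rw [MulAction.mem_orbit_iff]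
    cases q with
    | none => exact ⟨1, by rw [pt23]; rfl⟩
    | some x =>
      refine ⟨⟨s ^ x.val * projInv, K.mul_mem (K.pow_mem (hK s_mem_H) _) (hK i_mem_H)⟩, ?_⟩
      show (s ^ x.val * projInv) (pt 23) = some x
      rw [pt23, Equiv.Perm.mul_apply]
      have h1 : projInv none = some 0 := rfl
      rw [h1, s_pow_some, zero_add, ZMod.natCast_zmod_val]
  rw [h, Set.ncard_univ]
  simp [ZMod.card]

/-- Subgroups between `H` and `M24`. -/
theorem card_K (K : Subgroup (Equiv.Perm GolayPt)) (hH : closure SH ≤ K) (hK : K ≤ M24) :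
    Nat.card K = 6072 ∨ K = M24 := by
  have h := card_eq_orbit_mul_inf K (pt 23)
  rw [orbit_none K hH] at h
  have hle : K ⊓ MulAction.stabilizer (Equiv.Perm GolayPt) (pt 23) ≤ G [23] := by
    intro x hx
    refine ⟨hK hx.1, fun i hi => ?_⟩
    simp only [List.mem_cons, List.not_mem_nil, or_false] at hi
    subst hi
    exact hx.2
  have hB : N ≤ K ⊓ MulAction.stabilizer (Equiv.Perm GolayPt) (pt 23) := by
    intro x hx
    exact ⟨hH (N_le_H hx), hx.1.2 23 (by simp)⟩
  rcases coatomB _ hle hB with e | e
  · left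
    rw [h, e, card_N]
  · right
    apply Subgroup.eq_of_le_of_card_ge hK
    rw [h, e, card_G1, card_M24]

/-- An invariant family of dodecads. -/
def F : List ℕ := [129431,165759,258862,331518,366503,470393,491269,517724,599543,643955,653901,663036,733006,849075,940786,954839,964841,977557,982538,1035448,1107375,1169181,1199086,1204081,1244041,1262845,1287910,1307802,1326072,1383893,1402519,1466012,1467197,1490055,1508339,1518285,1550091,1563721,1613111,1625931,1667135,1698150,1714153,1727659,1808541,1846461,1881572,1909678,1914673,1929682,1955114,1965076,2004579,2070896,2073809,2214750,2219969,2260627,2338362,2341541,2389447,2398172,2408162,2412863,2443125,2463951,2476723,2488082,2525690,2549287,2558767,2575820,2615604,2652144,2682537,2707933,2767786,2774135,2805038,2831545,2932024,2934394,2937573,2980110,3016678,3029575,3036570,3088843,3100182,3127442,3226222,3251862,3334270,3339489,3348969,3361685,3396300,3428306,3455318,3531833,3617082,3678105,3692922,3707487,3729693,3757673,3763144,3770835,3819356,3829346,3843399,3859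364,3910228,3930152,3966765,4009158,4012121,4121161,4141792,4147618,4162183,4259019,4277183,4377555,4429500,4439938,4494075,4516281,4521254,4618841,4671723,4676724,4683082,4747991,4778894,4796344,4816324,4825726,4886250,4895563,4927902,4939331,4948473,4953446,4969349,4976164,5000859,5007269,5027871,5051380,5058133,5098574,5117534,5151640,5196593,5231208,5304288,5324617,5365074,5389027,5400735,5415866,5426279,5432665,5468947,5473687,5535572,5548270,5581371,5610076,5663090,5709091,5738725,5864048,5868788,5875146,5960220,6033356,6048047,6059150,6073140,6079721,6116003,6177686,6200364,6254884,6275395,6323813,6332895,6383081,6441341,6452444,6503724,6530165,6568299,6642085,6663969,6668540,6678978,6694733,6697938,6708239,6723370,6792600,6856612,6888817,6894671,6907443,6910636,6928777,6931147,6984989,7048849,7063666,7218327,7234164,7252305,7332001,7356210,7360751,7385844,7414974,7459386,7478453,7515346,7526288,7541670,7548423,7638712,7641639,7648025,7658692,7659877,7686798,7718728,7803467,7820456,7860304,7874679,7933530,7968515,80151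23,8018316,8024242,8096037,8131643,8178561,8201865,8242322,8260125,8283584,8295236,8324366,8452849,8481979,8493631,8517090,8534893,8575350,8598654,8645572,8681178,8752973,8758899,8762092,8808700,8843685,8902536,8916911,8956759,8973748,9058487,9090417,9117338,9118523,9129190,9135576,9138503,9228792,9235545,9250927,9261869,9298762,9317829,9362241,9391371,9416464,9421005,9445214,9524910,9543051,9558888,9713549,9728366,9792226,9846068,9848438,9866579,9869772,9882544,9888398,9920603,9984615,10053845,10068976,10079277,10082482,10098237,10108675,10113246,10135130,10208916,10247050,10273491,10324771,10335874,10394134,10444320,10453402,10501820,10522331,10576851,10599529,10661212,10697494,10704075,10718065,10729168,10743859,10816995,10902069,10908427,10913167,11038490,11068124,11114125,11167139,11195844,11228945,11241643,11303528,11308268,11344550,11350936,11361349,11376480,11388188,11412141,11452598,11472927,11546007,11580622,11625575,11659681,11678641,11719082,11725835,11749344,11769946,11776356,11801051,11807866,11823769,11828742,1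1837884,11849313,11881652,11890965,11951489,11960891,11980871,11998321,12029224,12094133,12100491,12105492,12158374,12255961,12260934,12283140,12337277,12347715,12399660,12500032,12518196,12615032,12629597,12635423,12656054,12765094,12768057,12810450,12847063,12866987,12917851,12933816,12947869,12957859,13006380,13014071,13019542,13047522,13069728,13084293,13099110,13160133,13245382,13321897,13348909,13380915,13415530,13428246,13437726,13442945,13525353,13550993,13649773,13677033,13688372,13740645,13747640,13760537,13797105,13839642,13842821,13845191,13945670,13972177,14003080,14009429,14069282,14094678,14125071,14161611,14201395,14218448,14227928,14251525,14289133,14300492,14313264,14334090,14364352,14369053,14379043,14387768,14435674,14438853,14516588,14557246,14562465,14703406,14706319,14772636,14812139,14822101,14847533,14862542,14867537,14895643,14930754,14968674,15049556,15063062,15079065,15110080,15151284,15164104,15213494,15227124,15258930,15268876,15287160,15310018,15311203,15374696,15393322,15451143,15469413,15489305,15514370,15533174,15573134,15578129,15608034,15669840,15741767,15794677,15799658,15812374,15822376,15836429,15928140,16044209,16114179,16123314,16133260,16177672,16259491,16285946,16306822,16410712,16445697,16518353,16611456,16647784]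

theorem F_lt : allLt F = true := by decide +kernel

theorem F_s : famInv sc F = true := by decide +kernel
theorem F_z : famInv zc F = true := by decide +kernel
theorem F_i : famInv ic F = true := by decide +kernel

/-- An element of `M24` moving the family. -/
def xc : ℕ := 217688072204233739304781826846953495

theorem xc_m : isM24 xc = true := by decide +kernel
theorem F_x : famInv xc F = false := by decide +kernel

theorem smul_F_of_rep {g : Equiv.Perm GolayPt} {c : ℕ} (hv : valid c = true) (hr : Rep g c)
    (h : famInv c F = true) : g ∈ MulAction.stabilizer (Equiv.Perm GolayPt) (famOf F) := by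
  have h1 : g = decode c := rep_unique hr (rep_decode hv)
  rw [h1, MulAction.mem_stabilizer_iff]
  exact (famInv_spec hv F_lt).1 h

theorem H_le_stab : closure SH ≤ MulAction.stabilizer (Equiv.Perm GolayPt) (famOf F) := by
  have hz : S1606.z ∈ MulAction.stabilizer (Equiv.Perm GolayPt) (famOf F) := by
    rw [← mu2_eq]
    exact smul_F_of_rep (by decide +kernel) rep_mu2 F_z
  rw [closure_le]
  rintro g ((h | h) | ⟨u, hu, rfl⟩)
  · rw [h]
    exact smul_F_of_rep (by decide +kernel) rep_s F_s
  · rw [Set.mem_singleton_iff] at h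
    rw [h]
    exact smul_F_of_rep (by decide +kernel) rep_i F_i
  · obtain ⟨e, -, rfl⟩ := mu_mem_pow (mu_mem_M24 u hu)
    show mu (u2 ^ e) ∈ _
    rw [mu_pow, mu2_eq]
    exact pow_mem hz e

theorem H_ne : closure SH ≠ M24 := by
  intro h
  have h1 : decode xc ∈ closure SH := by
    rw [h]
    exact decode_mem_M24 xc_m
  have h2 := H_le_stab h1
  rw [MulAction.mem_stabilizer_iff] at h2
  have hv := isM24_valid xc_m
  have h3 := (famInv_spec hv F_lt).2 h2
  rw [F_x] at h3
  exact absurd h3 (by simp)

theorem card_H : Nat.card (closure SH) = 6072 := by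
  rcases card_K _ (le_refl _) closure_SH_le with h | h
  · exact h
  · exact absurd h H_ne

theorem coatomH (K : Subgroup (Equiv.Perm GolayPt)) (hH : closure SH ≤ K) (hK : K ≤ M24) :
    K = closure SH ∨ K = M24 := by
  rcases card_K K hH hK with h | h
  · left
    symm
    apply Subgroup.eq_of_le_of_card_ge hH
    rw [h, card_H]
  · exact Or.inr h

/-- A criterion for a coatom. -/
theorem isCoatom_subgroupOf {Y : Type*} [Group Y] (L S : Subgroup Y) (hne : ¬ S ≤ L)
    (h : ∀ K : Subgroup Y, L ⊓ S ≤ K → K ≤ S → K ≤ L ⊓ S ∨ K = S) :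
    IsCoatom (L.subgroupOf S) := by
  constructor
  · intro e
    apply hne
    rwa [Subgroup.subgroupOf_eq_top] at e
  · intro U hU
    let K : Subgroup Y := U.map S.subtype
    have hKS : K ≤ S := by
      rintro _ ⟨x, -, rfl⟩
      exact x.2
    have hLK : L ⊓ S ≤ K := by
      intro x hx
      refine ⟨⟨x, hx.2⟩, hU.le ?_, rfl⟩
      rw [Subgroup.mem_subgroupOf]
      exact hx.1
    rcases h K hLK hKS with e | e
    · exfalso
      apply hU.not_ge
      intro x hx
      have := e ⟨x, hx, rfl⟩
      rw [Subgroup.mem_subgroupOf]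
      exact this.1
    · rw [eq_top_iff]
      intro x _
      have hx : (x : Y) ∈ K := by
        rw [e]
        exact x.2
      obtain ⟨y, hy, hyx⟩ := hx
      have : y = x := Subtype.ext hyx
      rwa [← this]

theorem H_coatom : IsCoatom ((closure SH).subgroupOf M24) := by
  apply isCoatom_subgroupOf
  · intro h
    exact H_ne (le_antisymm closure_SH_le h)
  · intro K h1 h2
    have hH : closure SH ≤ K := fun x hx => h1 ⟨hx, closure_SH_le hx⟩
    rcases coatomH K hH h2 with e | e
    · left
      rw [e]
      exact le_inf (le_refl _) closure_SH_le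
    · exact Or.inr e

theorem B_coatom : IsCoatom (((closure SB).subgroupOf M24).subgroupOf
    (MulAction.stabilizer M24 (none : GolayPt))) := by
  rw [closure_SB]
  apply isCoatom_subgroupOf
  · intro h
    have hle : G [23] ≤ N := by
      intro x hx
      have hx' : (⟨x, hx.1⟩ : M24) ∈ MulAction.stabilizer M24 (none : GolayPt) := G23_none hx
      have := h hx'
      rwa [Subgroup.mem_subgroupOf] at this
    have h2 := Nat.card_le_card_of_injective _ (Subgroup.inclusion_injective hle)
    rw [card_G1, card_N] at h2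
    omega
  · intro K h1 h2
    let U : Subgroup (Equiv.Perm GolayPt) := K.map M24.subtype
    have hU : U ≤ G [23] := by
      rintro _ ⟨x, hx, rfl⟩
      exact mem_G23_of x.2 (h2 hx)
    have hB : N ≤ U := by
      intro x hx
      refine ⟨⟨x, hx.1.1⟩, h1 ⟨?_, ?_⟩, rfl⟩
      · exact Subgroup.mem_subgroupOf.2 hx
      · exact G23_none hx.1
    rcases coatomB U hU hB with e | e
    · left
      intro x hx
      refine ⟨?_, h2 hx⟩
      have : (x : Equiv.Perm GolayPt) ∈ U := ⟨x, hx, rfl⟩
      rw [e] at this
      exact Subgroup.mem_subgroupOf.2 this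
    · right
      apply le_antisymm h2
      intro x hx
      have hx' : (x : Equiv.Perm GolayPt) ∈ U := by
        rw [e]
        exact mem_G23_of x.2 hx
      obtain ⟨y, hy, hyx⟩ := hx'
      have : y = x := Subtype.ext hyx
      rwa [← this]

/-- PSL(2, 23) = ⟨t ↦ t+1, t ↦ u t (u square), t ↦ −1/t⟩ is maximal of order 6072 in the group of the length-24 code, and its point stabiliser 23:11 (order 253) is maximal in the Mathieu group of degree 23. -/
theorem result : (Subgroup.closure ({Equiv.optionCongr (Equiv.addRight (1 : ZMod 23)), Cfsg.projInv} ∪ {g : Equiv.Perm Cfsg.GolayPt | ∃ u : (ZMod 23)ˣ, IsSquare u ∧ g = Equiv.optionCongr (Units.mulLeft u)}) ≤ Cfsg.M24 ∧ Nat.card ↥(Subgroup.closure ({Equiv.optionCongr (Equiv.addRight (1 : ZMod 23)), Cfsg.projInv} ∪ {g : Equiv.Perm Cfsg.GolayPt | ∃ u : (ZMod 23)ˣ, IsSquare u ∧ g = Equiv.optionCongr (Units.mulLeft u)})) = 6072 ∧ IsCoatom ((Subgroup.closure ({Equiv.optionCongr (Equiv.addRight (1 : ZMod 23)), Cfsg.projInv} ∪ {g : Equiv.Perm Cfsg.GolayPt | ∃ u : (ZMod 23)ˣ, IsSquare u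 ∧ g = Equiv.optionCongr (Units.mulLeft u)})).subgroupOf Cfsg.M24)) ∧ (Subgroup.closure ({Equiv.optionCongr (Equiv.addRight (1 : ZMod 23))} ∪ {g : Equiv.Perm Cfsg.GolayPt | ∃ u : (ZMod 23)ˣ, IsSquare u ∧ g = Equiv.optionCongr (Units.mulLeft u)}) ≤ Cfsg.M24 ⊓ MulAction.stabilizer (Equiv.Perm Cfsg.GolayPt) (none : Cfsg.GolayPt) ∧ Nat.card ↥(Subgroup.closure ({Equiv.optionCongr (Equiv.addRight (1 : ZMod 23))} ∪ {g : Equiv.Perm Cfsg.GolayPt | ∃ u : (ZMod 23)ˣ, IsSquare u ∧ g = Equiv.optionCongr (Units.mulLeft u)})) = 253 ∧ IsCoatom (((Subgroup.closure ({Equiv.optionCongr (Equiv.addRight (1 : ZMod 23))} ∪ {g : Equiv.Perm Cfsg.GolayPt | ∃ u : (ZMod 23)ˣ, IsSquare u ∧ g = Equiv.optionCongr (Units.mulLeft u)})).subgroupOf Cfsg.M24).subgroupOf (MulAction.stabilizer Cfsg.M24 (none : Cfsg.GolayPt)))) := by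
  refine ⟨⟨closure_SH_le, card_H, H_coatom⟩, ?_, ?_, B_coatom⟩
  · show closure SB ≤ _
    rw [closure_SB]
    rintro x ⟨hx, -⟩
    exact ⟨hx.1, G23_none hx⟩
  · show Nat.card (closure SB) = 253
    rw [closure_SB, card_N]

end Cfsg.Agent.S1643
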