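import Mathlib
import Cfsg.Statements.S1682
import Cfsg.Agent.Lib.HeIso
import Cfsg.Agent.TcData.He.Fin

set_option autoImplicit false
set_option maxRecDepth 100000
set_option Elab.async false
open Cfsg

namespace Cfsg.Agent.S1682

open Cfsg.Spor Cfsg.Spor.He Cfsg.Agent.Lib.ProgBits Cfsg.Agent.Lib.ProgChain Cfsg.Agent.Lib.PermChain
  Cfsg.Agent.Lib.TcBits Cfsg.Agent.Lib.HeIso

/-- the words of the generators in the letters of the chain -/
def W : Gen → List ℕ
  | .a => [147]
  | .b => [32, 3, 109, 100, 126, 125, 140, 144, 143, 146, 146, 145, 147]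
  | .c => [130, 138, 144, 146, 145]
  | .d => [107, 114, 127, 137, 137, 144, 143, 145, 146, 145]
  | .e => [109, 114, 130, 125, 139, 138, 145, 146, 145]
  | .f => [106, 114, 129, 124, 143]
  | .g => [3, 19, 112, 132, 137, 137, 144, 143, 145]

/-- the images of the generators -/
noncomputable def f (x : Gen) : Equiv.Perm (Fin 2058) := prodW gH (W x)

/-- substitution of the words -/
def subst (l : List (Gen × Bool)) : List ℕ := l.flatMap (fun p => W p.1)

open Cfsg.Agent.Lib.HePTab in
theorem hinvC : ∀ x ∈ Cfsg.Agent.TcData.He.nodesL, wChk R Y pr (W x ++ W x) [] = true := by decide +kernel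

theorem f_inv (x : Gen) : (f x)⁻¹ = f x := by
  have h := Cfsg.Agent.Lib.HePMain.ctx.prodW_eq (hinvC x (by cases x <;> decide))
  rw [prodW_append, prodW_nil] at h
  exact inv_eq_of_mul_eq_one_left h

theorem lift_eq (r : FreeGroup Gen) : FreeGroup.lift f r = prodW gH (subst r.toWord) := by
  conv_lhs => rw [← FreeGroup.mk_toWord (x := r)]
  rw [FreeGroup.lift_mk]
  generalize r.toWord = l
  induction l with
  | nil => simp [subst, prodW_nil]
  | cons p l ih =>
    rcases p with ⟨x, b⟩
    have : subst ((x, b) :: l) = W x ++ subst l := by simp [subst]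
    rw [this, prodW_append, List.map_cons, List.prod_cons, ih]
    cases b
    · simp only [cond_false, f_inv]; rfl
    · simp only [cond_true]; rfl

open Cfsg.Agent.Lib.HePTab in
theorem hcC : ∀ x ∈ Cfsg.Agent.TcData.He.nodesL, ∀ y ∈ Cfsg.Agent.TcData.He.nodesL,
    wChk R Y pr (subst ((FreeGroup.of x * FreeGroup.of y) ^ coxLabel edges x y).toWord) [] = true := by
  decide +kernel

open Cfsg.Agent.Lib.HePTab in
theorem heC : ∀ r ∈ extra, wChk R Y pr (subst r.toWord) [] = true := by decide +kernel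

theorem hR : ∀ r ∈ Cfsg.Agent.TcData.He.RR, FreeGroup.lift f r = 1 := by
  rintro r (⟨x, hx, y, hy, rfl⟩ | hr)
  · rw [lift_eq]
    have := Cfsg.Agent.Lib.HePMain.ctx.prodW_eq
      (hcC x (Cfsg.Agent.TcData.He.hnodes x hx) y (Cfsg.Agent.TcData.He.hnodes y hy))
    simpa [prodW_nil] using this
  · rw [lift_eq]
    have := Cfsg.Agent.Lib.HePMain.ctx.prodW_eq (heC r hr)
    simpa [prodW_nil] using this

/-- the homomorphism to the permutation group -/
noncomputable def psi : PresentedGroup Cfsg.Agent.TcData.He.RR →* Equiv.Perm (Fin 2058) :=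
  PresentedGroup.toGroup hR

theorem psi_mk (r : FreeGroup Gen) : psi (PresentedGroup.mk _ r) = prodW gH (subst r.toWord) := by
  rw [← lift_eq]
  rfl


open Cfsg.Agent.TcData.He (RR)
open Cfsg.Agent.TcData.He.I2058 (SL hSL)

instance : Finite (PresentedGroup RR) := Cfsg.Agent.TcData.He.Fin.instFinite

open Cfsg.Agent.Lib.HePTab in
theorem hbmove : ptChk pr (subst (FreeGroup.of Gen.b).toWord) 1 0 = true := by decide +kernel

open Cfsg.Agent.Lib.HePTab in
theorem hfixC : ∀ s ∈ SL, ptChk pr (subst s.toWord) 0 0 = true := by decide +kernel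

theorem psi_inj : Function.Injective psi := by
  have hs := (Cfsg.Agent.TcData.He.Fin.final).1
  have hk : psi.ker = ⊥ ∨ psi.ker = ⊤ := hs.eq_bot_or_eq_top_of_normal _ inferInstance
  rcases hk with hk | hk
  · exact (MonoidHom.ker_eq_bot_iff _).mp hk
  · exfalso
    have h1 : PresentedGroup.mk RR (FreeGroup.of Gen.b) ∈ psi.ker := by rw [hk]; trivial
    have h2 : psi (PresentedGroup.mk RR (FreeGroup.of Gen.b)) = 1 := h1
    rw [psi_mk] at h2
    have h3 := Cfsg.Agent.Lib.HePMain.ctx.prodW_pt (b := ⟨0, by norm_num⟩) hbmove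
    have h4 : prodW gH (subst (FreeGroup.of Gen.b).toWord) = 1 := h2
    have h5 : (prodW gH (subst (FreeGroup.of Gen.b).toWord) ⟨0, by norm_num⟩).val = 1 := h3
    rw [h4] at h5
    simp at h5

theorem psi_mem (h : PresentedGroup RR) : psi h ∈ HH := by
  obtain ⟨r, rfl⟩ := QuotientGroup.mk'_surjective _ h
  show psi (PresentedGroup.mk RR r) ∈ HH
  rw [psi_mk]
  refine prodW_mem (lo := 0) (Cfsg.Agent.Lib.HePMain.lev0).1 ?_
  simp

/-- the isomorphism with the permutation group -/
noncomputable def psiP : PresentedGroup RR →* HH := psi.codRestrict HH psi_mem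

theorem psiP_bij : Function.Bijective psiP := by
  refine (Nat.bijective_iff_injective_and_card _).mpr ⟨?_, ?_⟩
  · intro x y h
    exact psi_inj (congrArg Subtype.val h)
  · rw [(Cfsg.Agent.TcData.He.Fin.final).2]
    exact (Cfsg.Agent.Lib.HePMain.cardH0).symm

/-- the subgroup of the presented group -/
noncomputable abbrev SH : Subgroup (PresentedGroup RR) :=
  (Subgroup.closure ({Cfsg.Spor.He.a, Cfsg.Spor.He.c, Cfsg.Spor.He.d, Cfsg.Spor.He.e, Cfsg.Spor.He.f, (Cfsg.Spor.He.a * Cfsg.Spor.He.b) ^ 2, (Cfsg.Spor.He.b * Cfsg.Spor.He.c * Cfsg.Spor.He.d * Cfsg.Spor.He.e) ^ 7} : Set (FreeGroup Cfsg.Spor.He.Gen))).map (PresentedGroup.mk RR)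

theorem SH_fix (h : PresentedGroup RR) (hh : h ∈ SH) : psi h (0 : Fin 2058) = 0 := by
  have h1 : SH ≤ (MulAction.stabilizer (Equiv.Perm (Fin 2058)) (0 : Fin 2058)).comap psi := by
    rw [Subgroup.map_le_iff_le_comap, Subgroup.closure_le]
    intro s hs
    have hQ := hSL (Q := fun s => ptChk Cfsg.Agent.Lib.HePTab.pr (subst s.toWord) 0 0 = true) hfixC s hs
    have h3 := Cfsg.Agent.Lib.HePMain.ctx.prodW_pt (b := ⟨0, by norm_num⟩) hQ
    show psi (PresentedGroup.mk RR s) ∈ MulAction.stabilizer (Equiv.Perm (Fin 2058)) (0 : Fin 2058)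
    rw [psi_mk, MulAction.mem_stabilizer_iff]
    exact Fin.ext h3
  exact h1 hh

/-- the map to the stabilizer -/
noncomputable def e0 : SH →* MulAction.stabilizer HH (0 : Fin 2058) :=
  MonoidHom.codRestrict (psiP.comp SH.subtype) _ (fun x => by
    rw [MulAction.mem_stabilizer_iff]
    exact SH_fix x.1 x.2)

theorem card_SH : Nat.card SH = 1958400 := by
  have h1 := Subgroup.card_mul_index SH
  have h2 : SH.index = 2058 := (Cfsg.Agent.TcData.He.I2058.bij).1
  rw [h2, (Cfsg.Agent.TcData.He.Fin.final).2] at h1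
  omega

theorem e0_bij : Function.Bijective e0 := by
  refine (Nat.bijective_iff_injective_and_card _).mpr ⟨?_, ?_⟩
  · intro x y h
    have h1 : psiP x.1 = psiP y.1 := congrArg Subtype.val h
    exact Subtype.ext (psiP_bij.1 h1)
  · rw [card_SH, card_stab]

/-- In the presented Held group, the subgroup H generated by the images of a, c, d, e, f, (ab)^2 and (bcde)^7 has a normal subgroup of index 2 isomorphic to the 4-dimensional symplectic group over a field with four elements. -/
theorem result : ∃ (N : Subgroup (((Subgroup.closure ({Cfsg.Spor.He.a, Cfsg.Spor.He.c, Cfsg.Spor.He.d, Cfsg.Spor.He.e, Cfsg.Spor.He.f, (Cfsg.Spor.He.a * Cfsg.Spor.He.b) ^ 2, (Cfsg.Spor.He.b * Cfsg.Spor.He.c * Cfsg.Spor.He.d * Cfsg.Spor.He.e) ^ 7} : Set (FreeGroup Cfsg.Spor.He.Gen))).map (PresentedGroup.mk (Cfsg.Spor.coxRelators Cfsg.Spor.He.edges ∪ {r | r ∈ Cfsg.Spor.He.extra}))))) (K : Type) (_ : Field K) (_ : Fintype K), N.Normal ∧ N.index = 2 ∧ Fintype.card K = 4 ∧ Nonempty (N ≃* Matrix.symplecticGroup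 (Fin 2) K) := by
  let e : SH ≃* MulAction.stabilizer HH (0 : Fin 2058) := MulEquiv.ofBijective e0 e0_bij
  refine ⟨NN.map e.symm.toMonoidHom, KK, inferInstance, inferInstance, ?_, ?_,
    Cfsg.Agent.Lib.F4Mat.K4.card_eq, ?_⟩
  · apply Subgroup.normal_of_index_eq_two
    rw [Subgroup.index_map_of_bijective e.symm.bijective, index_NN]
  · rw [Subgroup.index_map_of_bijective e.symm.bijective, index_NN]
  · obtain ⟨e1⟩ := equiv_NN
    exact ⟨(e.symm.subgroupMap NN).symm.trans e1⟩

end Cfsg.Agent.S1682
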