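import Mathlib
import Cfsg.Statements.S1717

set_option autoImplicit false
set_option linter.unusedSimpArgs false
set_option linter.all false
open Cfsg

namespace Cfsg.Agent.S1717

/-- The special linear group. -/
abbrev SL5 : Type := Matrix.SpecialLinearGroup (Fin 5) (ZMod 2)

/-- The listing of the basis in the chosen order. -/
def sig : Equiv.Perm (Fin 5) := ⟨![0, 2, 3, 4, 1], ![0, 4, 1, 2, 3], by decide, by decide⟩

/-- The position of a basis vector. -/
def ord (i : Fin 5) : ℕ := (sig.symm i : ℕ)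

/-- Matrices with ones on the diagonal and zeros below it in the chosen order. -/
def IsUni (M : Matrix (Fin 5) (Fin 5) (ZMod 2)) : Prop :=
  (∀ i j, ord j < ord i → M i j = 0) ∧ ∀ i, M i i = 1

theorem ord_inj {i j : Fin 5} (h : ord i = ord j) : i = j := by
  have h2 : sig.symm i = sig.symm j := Fin.ext h
  exact sig.symm.injective h2

theorem IsUni.mul {M N : Matrix (Fin 5) (Fin 5) (ZMod 2)} (hM : IsUni M) (hN : IsUni N) :
    IsUni (M * N) := by
  constructor
  · intro i j hij
    rw [Matrix.mul_apply]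
    apply Finset.sum_eq_zero
    intro k _
    by_cases hk : ord k < ord i
    · rw [hM.1 i k hk, zero_mul]
    · rw [hN.1 k j (by omega), mul_zero]
  · intro i
    rw [Matrix.mul_apply, Finset.sum_eq_single i]
    · rw [hM.2, hN.2, one_mul]
    · intro k _ hk
      have hne : ord k ≠ ord i := fun h => hk (ord_inj h)
      by_cases h1 : ord k < ord i
      · rw [hM.1 i k h1, zero_mul]
      · rw [hN.1 k i (by omega), mul_zero]
    · intro h; exact absurd (Finset.mem_univ _) h

theorem isUni_one : IsUni (1 : Matrix (Fin 5) (Fin 5) (ZMod 2)) := by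
  constructor
  · intro i j hij
    apply Matrix.one_apply_ne
    rintro rfl
    omega
  · intro i
    exact Matrix.one_apply_eq i

theorem IsUni.det {M : Matrix (Fin 5) (Fin 5) (ZMod 2)} (hM : IsUni M) : M.det = 1 := by
  rw [← Matrix.det_submatrix_equiv_self sig M]
  have h : (M.submatrix sig sig).BlockTriangular id := by
    intro i j hij
    apply hM.1
    simpa [ord] using hij
  rw [Matrix.det_of_isUpperTriangular h]
  simp [hM.2]

/-- The subgroup of the matrices with ones on the diagonal and zeros below it. -/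
def T0 : Subgroup SL5 where
  carrier := {g | IsUni g.1}
  mul_mem' := fun {a b} ha hb => by
    show IsUni ((a * b).1)
    rw [Matrix.SpecialLinearGroup.coe_mul]
    exact IsUni.mul ha hb
  one_mem' := by
    show IsUni ((1 : SL5).1)
    rw [Matrix.SpecialLinearGroup.coe_one]
    exact isUni_one
  inv_mem' := fun {a} ha => by
    have hp : ∀ n : ℕ, IsUni ((a ^ n).1) := by
      intro n
      induction n with
      | zero =>
        rw [pow_zero, Matrix.SpecialLinearGroup.coe_one]
        exact isUni_one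
      | succ n ih =>
        rw [pow_succ, Matrix.SpecialLinearGroup.coe_mul]
        exact IsUni.mul ih ha
    have hpos : 0 < orderOf a := orderOf_pos a
    have h1 : a⁻¹ = a ^ (orderOf a - 1) := by
      apply inv_eq_of_mul_eq_one_left
      rw [← pow_succ, Nat.sub_add_cancel hpos, pow_orderOf_eq_one]
    show IsUni ((a⁻¹).1)
    rw [h1]
    exact hp _

/-- The positions above the diagonal. -/
abbrev Pos : Type := {p : Fin 5 × Fin 5 // ord p.1 < ord p.2}

/-- The matrix with given entries above the diagonal. -/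
def matOf (f : Pos → ZMod 2) : Matrix (Fin 5) (Fin 5) (ZMod 2) := fun i j =>
  if h : ord i < ord j then f ⟨(i, j), h⟩ else if i = j then 1 else 0

theorem isUni_matOf (f : Pos → ZMod 2) : IsUni (matOf f) := by
  constructor
  · intro i j hij
    have h1 : ¬ ord i < ord j := by omega
    have h2 : i ≠ j := by
      rintro rfl
      omega
    simp [matOf, h1, h2]
  · intro i
    simp [matOf]

theorem card_T0 : Nat.card T0 = 2 ^ 10 := by
  let F : T0 → (Pos → ZMod 2) := fun g p => g.1.1 p.1.1 p.1.2
  have hF : Function.Bijective F := by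
    constructor
    · intro a b hab
      apply Subtype.ext
      apply Matrix.SpecialLinearGroup.ext
      intro i j
      by_cases h : ord i < ord j
      · exact congrFun hab ⟨(i, j), h⟩
      · by_cases hij : i = j
        · subst hij
          rw [a.2.2 i, b.2.2 i]
        · have h2 : ord j < ord i := by
            have : ord i ≠ ord j := fun h3 => hij (ord_inj h3)
            omega
          rw [a.2.1 i j h2, b.2.1 i j h2]
    · intro f
      refine ⟨⟨⟨matOf f, (isUni_matOf f).det⟩, isUni_matOf f⟩, ?_⟩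
      funext p
      show matOf f p.1.1 p.1.2 = f p
      simp only [matOf, p.2, dite_true]
  rw [Nat.card_congr (Equiv.ofBijective F hF), Nat.card_eq_fintype_card, Fintype.card_fun, ZMod.card]
  have : Fintype.card Pos = 10 := by decide
  rw [this]

theorem card_SL_dvd : Nat.card SL5 ∣ 2 ^ 10 * 9765 := by
  have h1 : Nat.card SL5 ∣ Nat.card (Matrix.GeneralLinearGroup (Fin 5) (ZMod 2)) :=
    Subgroup.card_dvd_of_injective Matrix.SpecialLinearGroup.toGL
      Matrix.SpecialLinearGroup.toGL_injective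
  have : Fact (Nat.Prime 2) := ⟨Nat.prime_two⟩
  have h2 := Matrix.card_GL_field (𝔽 := ZMod 2) 5
  rw [ZMod.card] at h2
  rw [h2] at h1
  simpa [Fin.prod_univ_five] using h1

theorem index_T0_odd : ¬ 2 ∣ T0.index := by
  have h1 : Nat.card T0 * T0.index = Nat.card SL5 := Subgroup.card_mul_index T0
  rw [card_T0] at h1
  have h2 := card_SL_dvd
  rw [← h1] at h2
  have h3 : T0.index ∣ 9765 := Nat.dvd_of_mul_dvd_mul_left (by norm_num) h2
  intro h4
  have h5 := h4.trans h3
  omega

theorem isPGroup_T0 : IsPGroup 2 T0 := IsPGroup.of_card card_T0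

/-- An elementary matrix. -/
def ue (i j : Fin 5) (h : i ≠ j) : SL5 :=
  ⟨Matrix.transvection i j 1, Matrix.det_transvection_of_ne i j h 1⟩

theorem ue_mem {i j : Fin 5} (h : i ≠ j) (hij : ord i < ord j) : ue i j h ∈ T0 := by
  constructor
  · intro a b hab
    have hne : a ≠ b := by
      rintro rfl
      omega
    show Matrix.transvection i j 1 a b = 0
    rw [Matrix.transvection, Matrix.add_apply, Matrix.one_apply_ne hne, zero_add]
    rw [Matrix.single_apply_of_ne]
    rintro ⟨rfl, rfl⟩
    omega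
  · intro a
    show Matrix.transvection i j 1 a a = 1
    rw [Matrix.transvection, Matrix.add_apply, Matrix.one_apply_eq]
    rw [Matrix.single_apply_of_ne, add_zero]
    rintro ⟨rfl, h2⟩
    exact h h2.symm

theorem comm_entries (Y : Matrix (Fin 5) (Fin 5) (ZMod 2)) (i j a b : Fin 5)
    (h : Y * Matrix.transvection i j 1 = Matrix.transvection i j 1 * Y) :
    (if j = b then Y a i else 0) = (if i = a then Y j b else 0) := by
  have h1 : Y * Matrix.single i j 1 = Matrix.single i j 1 * Y := by
    rw [Matrix.transvection, mul_add, add_mul, mul_one, one_mul] at h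
    exact add_left_cancel h
  have h2 := congrFun (congrFun h1 a) b
  rw [Matrix.mul_apply, Matrix.mul_apply] at h2
  simp only [Matrix.single_apply] at h2
  simpa [Finset.sum_ite_eq, Finset.sum_ite_eq', ite_and, mul_ite, ite_mul] using h2

theorem center_T0 (y : SL5) (hy : y ∈ T0) (hc : ∀ t ∈ T0, y * t = t * y) (s : SL5)
    (hs : (s : Matrix (Fin 5) (Fin 5) (ZMod 2)) = Matrix.transvection 0 1 1) : y = 1 ∨ y = s := by
  set Y : Matrix (Fin 5) (Fin 5) (ZMod 2) := y.1 with hY
  have hU : IsUni Y := hy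
  have hcm : ∀ (i j : Fin 5) (h : i ≠ j), ord i < ord j → ∀ a b,
      (if j = b then Y a i else 0) = (if i = a then Y j b else 0) := by
    intro i j h hij a b
    apply comm_entries
    have := hc _ (ue_mem h hij)
    have h2 := congrArg Subtype.val this
    rw [Matrix.SpecialLinearGroup.coe_mul, Matrix.SpecialLinearGroup.coe_mul] at h2
    exact h2
  -- columns
  have c2 : ∀ a, a ≠ 2 → Y a 2 = 0 := by
    intro a ha
    have := hcm 2 1 (by decide) (by decide) a 1
    simpa [ha.symm] using this
  have c3 : ∀ a, a ≠ 3 → Y a 3 = 0 := by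
    intro a ha
    have := hcm 3 1 (by decide) (by decide) a 1
    simpa [ha.symm] using this
  have c4 : ∀ a, a ≠ 4 → Y a 4 = 0 := by
    intro a ha
    have := hcm 4 1 (by decide) (by decide) a 1
    simpa [ha.symm] using this
  -- rows
  have r2 : ∀ b, b ≠ 2 → Y 2 b = 0 := by
    intro b hb
    have := hcm 0 2 (by decide) (by decide) 0 b
    simpa [hb.symm] using this.symm
  have r3 : ∀ b, b ≠ 3 → Y 3 b = 0 := by
    intro b hb
    have := hcm 0 3 (by decide) (by decide) 0 b
    simpa [hb.symm] using this.symm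
  have r4 : ∀ b, b ≠ 4 → Y 4 b = 0 := by
    intro b hb
    have := hcm 0 4 (by decide) (by decide) 0 b
    simpa [hb.symm] using this.symm
  have r1 : ∀ b, b ≠ 1 → Y 1 b = 0 := by
    intro b hb
    apply hU.1
    revert b
    decide
  have c0 : ∀ a, a ≠ 0 → Y a 0 = 0 := by
    intro a ha
    apply hU.1
    revert a
    decide
  have hc01 : Y 0 1 = 0 ∨ Y 0 1 = 1 := by
    generalize Y 0 1 = c
    revert c
    decide
  rcases hc01 with h01 | h01
  · left
    apply Matrix.SpecialLinearGroup.ext
    intro i j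
    show Y i j = (1 : Matrix (Fin 5) (Fin 5) (ZMod 2)) i j
    fin_cases i <;> fin_cases j <;>
      first
        | exact hU.2 _
        | exact h01
        | exact c0 _ (by decide)
        | exact c2 _ (by decide)
        | exact c3 _ (by decide)
        | exact c4 _ (by decide)
        | exact r1 _ (by decide)
        | exact r2 _ (by decide)
        | exact r3 _ (by decide)
        | exact r4 _ (by decide)
  · right
    apply Matrix.SpecialLinearGroup.ext
    intro i j
    show Y i j = (s : Matrix (Fin 5) (Fin 5) (ZMod 2)) i j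
    rw [hs]
    fin_cases i <;> fin_cases j <;>
      first
        | (refine Eq.trans (hU.2 _) ?_; decide)
        | (refine Eq.trans h01 ?_; decide)
        | (refine Eq.trans (c0 _ (by decide)) ?_; decide)
        | (refine Eq.trans (c2 _ (by decide)) ?_; decide)
        | (refine Eq.trans (c3 _ (by decide)) ?_; decide)
        | (refine Eq.trans (c4 _ (by decide)) ?_; decide)
        | (refine Eq.trans (r1 _ (by decide)) ?_; decide)
        | (refine Eq.trans (r2 _ (by decide)) ?_; decide)
        | (refine Eq.trans (r3 _ (by decide)) ?_; decide)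
        | (refine Eq.trans (r4 _ (by decide)) ?_; decide)

theorem T0_le_cent (s : SL5) (hs : (s : Matrix (Fin 5) (Fin 5) (ZMod 2)) = Matrix.transvection 0 1 1) :
    T0 ≤ Subgroup.centralizer ({s} : Set SL5) := by
  intro g hg
  rw [Subgroup.mem_centralizer_singleton_iff]
  apply Matrix.SpecialLinearGroup.ext
  intro a b
  have hU : IsUni g.1 := hg
  have c0 : ∀ a, a ≠ 0 → g.1 a 0 = 0 := by
    intro a ha
    apply hU.1
    revert a
    decide
  have r1 : ∀ b, b ≠ 1 → g.1 1 b = 0 := by
    intro b hb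
    apply hU.1
    revert b
    decide
  rw [Matrix.SpecialLinearGroup.coe_mul, Matrix.SpecialLinearGroup.coe_mul, hs]
  rw [Matrix.transvection, mul_add, add_mul, mul_one, one_mul]
  rw [Matrix.add_apply, Matrix.add_apply]
  congr 1
  rw [Matrix.mul_apply, Matrix.mul_apply]
  simp only [Matrix.single_apply]
  by_cases h1 : a = 0 <;> by_cases h2 : b = 1
  · subst h1; subst h2
    simp [Finset.sum_ite_eq, Finset.sum_ite_eq', ite_and, mul_ite, ite_mul, hU.2]
  · subst h1
    simp [Finset.sum_ite_eq, Finset.sum_ite_eq', ite_and, mul_ite, ite_mul, h2, Ne.symm h2, r1 b h2]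
  · subst h2
    simp [Finset.sum_ite_eq, Finset.sum_ite_eq', ite_and, mul_ite, ite_mul, h1, Ne.symm h1, c0 a h1]
  · simp [Finset.sum_ite_eq, Finset.sum_ite_eq', ite_and, mul_ite, ite_mul, h1, h2, Ne.symm h1, Ne.symm h2]

/-- A `p`-element normalizing a Sylow subgroup lies in it. -/
theorem mem_of_normalizing {Γ : Type*} [Group Γ] {p : ℕ} (T : Sylow p Γ) (x : Γ)
    (hx : ∃ k : ℕ, x ^ p ^ k = 1) (hn : ∀ t ∈ T, x * t * x⁻¹ ∈ T ∧ x⁻¹ * t * x ∈ T) : x ∈ T := by
  have hp : IsPGroup p (Subgroup.zpowers x) := by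
    rintro ⟨y, n, rfl⟩
    obtain ⟨k, hk⟩ := hx
    refine ⟨k, ?_⟩
    apply Subtype.ext
    show (x ^ n) ^ p ^ k = 1
    rw [← zpow_natCast, ← zpow_mul, mul_comm, zpow_mul, zpow_natCast, hk, one_zpow]
  have hle : Subgroup.zpowers x ≤ Subgroup.normalizer ((T : Subgroup Γ) : Set Γ) := by
    rw [Subgroup.zpowers_le, Subgroup.mem_normalizer_iff]
    intro h
    refine ⟨fun hh => (hn h hh).1, fun hh => ?_⟩
    have := (hn _ hh).2
    have e : x⁻¹ * (x * h * x⁻¹) * x = h := by group
    rwa [e] at this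
  have h1 := hp.to_sup_of_normal_right' T.2 hle
  have h2 := T.3 h1 le_sup_right
  have h3 : x ∈ Subgroup.zpowers x ⊔ (T : Subgroup Γ) :=
    Subgroup.mem_sup_left (Subgroup.mem_zpowers x)
  rw [h2] at h3
  exact h3

section main

open scoped Pointwise

/-- The centraliser. -/
abbrev DD (s : SL5) : Subgroup SL5 := Subgroup.centralizer ({s} : Set SL5)

variable (s : SL5) (hs : (s : Matrix (Fin 5) (Fin 5) (ZMod 2)) = Matrix.transvection 0 1 1)


include hs in
theorem exists_S0 : ∃ S0 : Sylow 2 (DD s), (S0 : Subgroup (DD s)) = T0.subgroupOf (DD s) := by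
  have : Fact (Nat.Prime 2) := ⟨Nat.prime_two⟩
  have hP : IsPGroup 2 (T0.subgroupOf (DD s)) := isPGroup_T0.comap_of_injective (DD s).subtype (DD s).subtype_injective
  have hI : ¬ 2 ∣ (T0.subgroupOf (DD s)).index := by
    intro h
    apply index_T0_odd
    have h1 := Subgroup.relIndex_mul_index (T0_le_cent s hs)
    rw [← h1]
    exact Dvd.dvd.mul_right h _
  exact ⟨hP.toSylow hI, rfl⟩

include hs in
theorem center_sylow (S : Sylow 2 (DD s)) (y : DD s) (hy : y ∈ S) (hc : ∀ t ∈ S, y * t = t * y) :
    y = 1 ∨ (y : SL5) = s := by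
  classical
  have : Fact (Nat.Prime 2) := ⟨Nat.prime_two⟩
  obtain ⟨S0, hS0⟩ := exists_S0 s hs
  obtain ⟨g, hg⟩ := MulAction.exists_smul_eq (DD s) S S0
  have hmem : ∀ a : DD s, a ∈ S0 ↔ g⁻¹ * a * g ∈ S := by
    intro a
    have h1 : (a ∈ S0) ↔ a ∈ (MulAut.conj g • (S : Subgroup (DD s))) := by
      rw [← hg]
      exact Iff.rfl
    rw [h1, Subgroup.mem_pointwise_smul_iff_inv_smul_mem, MulAut.smul_def, MulAut.conj_inv_apply]
    exact Iff.rfl
  set u : DD s := g * y * g⁻¹ with hu
  have hu1 : u ∈ S0 := by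
    rw [hmem, hu]
    have e : g⁻¹ * (g * y * g⁻¹) * g = y := by group
    rwa [e]
  have hu2 : (u : SL5) ∈ T0 := by
    have : u ∈ (S0 : Subgroup (DD s)) := hu1
    rw [hS0] at this
    exact this
  have hu3 : ∀ t ∈ T0, (u : SL5) * t = t * u := by
    intro t ht
    have ht2 : t ∈ DD s := T0_le_cent s hs ht
    have ht3 : (⟨t, ht2⟩ : DD s) ∈ S0 := by
      show (⟨t, ht2⟩ : DD s) ∈ (S0 : Subgroup (DD s))
      rw [hS0]
      exact ht
    have ht4 := (hmem _).mp ht3
    have h5 := hc _ ht4
    have h6 : u * ⟨t, ht2⟩ = ⟨t, ht2⟩ * u := by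
      have e1 : u * ⟨t, ht2⟩ = g * (y * (g⁻¹ * ⟨t, ht2⟩ * g)) * g⁻¹ := by rw [hu]; group
      have e2 : ⟨t, ht2⟩ * u = g * ((g⁻¹ * ⟨t, ht2⟩ * g) * y) * g⁻¹ := by rw [hu]; group
      rw [e1, e2, h5]
    exact congrArg Subtype.val h6
  rcases center_T0 _ hu2 hu3 s hs with h | h
  · left
    have h1 : u = 1 := Subtype.ext h
    have e : y = g⁻¹ * u * g := by rw [hu]; group
    rw [e, h1]
    group
  · right
    have hcomm : ∀ d : DD s, (d : SL5) * s = s * d := fun d =>
      (Subgroup.mem_centralizer_singleton_iff.mp d.2)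
    have e : (y : SL5) = (g : SL5)⁻¹ * u * g := by
      have : y = g⁻¹ * u * g := by rw [hu]; group
      rw [this]
      rfl
    rw [e, h, mul_assoc, ← hcomm g, ← mul_assoc, inv_mul_cancel, one_mul]

end main

theorem main {G : Type*} [Group G] [Finite G] (s : SL5)
    (hs : (s : Matrix (Fin 5) (Fin 5) (ZMod 2)) = Matrix.transvection 0 1 1) (z : G) (hz : orderOf z = 2)
    (C : Subgroup G) (hC : C = Subgroup.centralizer ({z} : Set G))
    (e : C ≃* Subgroup.centralizer ({s} : Set SL5))
    (T : Sylow 2 C) : ¬ 2 ∣ ((T : Subgroup C).map C.subtype).index := by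
  classical
  have hp2 : Fact (Nat.Prime 2) := ⟨Nat.prime_two⟩
  have hzC : z ∈ C := by rw [hC]; exact Subgroup.mem_centralizer_singleton_iff.mpr rfl
  let zt : C := ⟨z, hzC⟩
  have hcent : ∀ c : C, zt * c = c * zt := by
    intro c
    apply Subtype.ext
    have hc2 : (c : G) ∈ Subgroup.centralizer ({z} : Set G) := hC ▸ c.2
    exact (Subgroup.mem_centralizer_singleton_iff.mp hc2).symm
  have hz1 : z ≠ 1 := by
    rintro rfl
    simp at hz
  have hz2 : z ^ 2 = 1 := by
    rw [← hz]; exact pow_orderOf_eq_one z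
  have hztT : zt ∈ T := by
    apply mem_of_normalizing T zt ⟨1, by
      apply Subtype.ext
      show z ^ 2 ^ 1 = 1
      simpa using hz2⟩
    intro t ht
    have h1 : zt * t * zt⁻¹ = t := by rw [hcent]; group
    have h2 : zt⁻¹ * t * zt = t := by rw [mul_assoc, ← hcent]; group
    rw [h1, h2]
    exact ⟨ht, ht⟩
  -- the centre of the Sylow subgroup
  let T1 : Sylow 2 (Subgroup.centralizer ({s} : Set SL5)) :=
    T.mapSurjective (f := e.toMonoidHom) e.surjective
  have hT1 : ∀ t : C, t ∈ T → e t ∈ T1 := fun t ht => Subgroup.mem_map_of_mem _ ht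
  have hcentT : ∀ t ∈ T, (∀ u ∈ T, t * u = u * t) → t = 1 ∨ e t = e zt ∨ e t = 1 := by
    intro t ht hc
    have hc1 : ∀ a ∈ T1, e t * a = a * e t := by
      rintro a ⟨b, hb, rfl⟩
      have := hc b hb
      show e t * e b = e b * e t
      rw [← map_mul, ← map_mul, this]
    have hz3 : ∀ a ∈ T1, e zt * a = a * e zt := by
      rintro a ⟨b, hb, rfl⟩
      show e zt * e b = e b * e zt
      rw [← map_mul, ← map_mul, hcent]
    have h1 := center_sylow s hs T1 (e t) (hT1 t ht) hc1
    have h2 := center_sylow s hs T1 (e zt) (hT1 zt hztT) hz3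
    rcases h1 with h1 | h1
    · exact Or.inr (Or.inr h1)
    · rcases h2 with h2 | h2
      · exfalso
        have h3 : zt = 1 := e.injective (by rw [h2, map_one])
        exact hz1 (congrArg Subtype.val h3)
      · exact Or.inr (Or.inl (Subtype.ext (h1.trans h2.symm)))
  have hcentT2 : ∀ t ∈ T, (∀ u ∈ T, t * u = u * t) → t = 1 ∨ t = zt := by
    intro t ht hc
    rcases hcentT t ht hc with h | h | h
    · exact Or.inl h
    · exact Or.inr (e.injective h)
    · exact Or.inl (e.injective (by rw [h, map_one]))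
  -- a larger two-group
  intro hdiv
  set T' := (T : Subgroup C).map C.subtype with hT'
  have hpT' : IsPGroup 2 T' := T.2.map _
  obtain ⟨P, hP⟩ := hpT'.exists_le_sylow
  have hne : T' ≠ P := by
    intro h
    apply P.not_dvd_index
    show 2 ∣ (P : Subgroup G).index
    rwa [← h]
  have hH : T'.subgroupOf (P : Subgroup G) ≠ ⊤ := by
    intro h
    apply hne
    apply le_antisymm hP
    exact Subgroup.subgroupOf_eq_top.mp h
  have hnil : Group.IsNilpotent (P : Subgroup G) := P.2.isNilpotent
  have hlt := normalizerCondition_of_isNilpotent (G := (P : Subgroup G)) _ (lt_top_iff_ne_top.mpr hH)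
  obtain ⟨x, hx1, hx2⟩ := SetLike.exists_of_lt hlt
  set g : G := (x : G) with hg
  have hgnot : g ∉ T' := fun h => hx2 (Subgroup.mem_subgroupOf.mpr h)
  have hconj : ∀ t ∈ T', g * t * g⁻¹ ∈ T' := by
    intro t ht
    have h1 : (⟨t, hP ht⟩ : (P : Subgroup G)) ∈ T'.subgroupOf (P : Subgroup G) :=
      Subgroup.mem_subgroupOf.mpr ht
    have h2 := (Subgroup.mem_normalizer_iff.mp hx1 _).mp h1
    exact Subgroup.mem_subgroupOf.mp h2
  have hconj' : ∀ t ∈ T', g⁻¹ * t * g ∈ T' := by
    intro t ht
    have h1 : (⟨t, hP ht⟩ : (P : Subgroup G)) ∈ T'.subgroupOf (P : Subgroup G) :=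
      Subgroup.mem_subgroupOf.mpr ht
    have h0 : x⁻¹ ∈ Subgroup.normalizer ((T'.subgroupOf (P : Subgroup G)) : Set (P : Subgroup G)) := Subgroup.inv_mem _ hx1
    have h2 := (Subgroup.mem_normalizer_iff.mp h0 _).mp h1
    have h3 := Subgroup.mem_subgroupOf.mp h2
    simpa [hg] using h3
  have hzT' : z ∈ T' := ⟨zt, hztT, rfl⟩
  have hTC : ∀ t ∈ T', z * t = t * z := by
    rintro _ ⟨c, _, rfl⟩
    exact hcent c |> congrArg Subtype.val
  obtain ⟨w, hw, hwe⟩ := hconj z hzT'
  have hw2 : (w : G) = g * z * g⁻¹ := hwe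
  have hwc : ∀ u ∈ T, w * u = u * w := by
    intro u hu
    apply Subtype.ext
    show (w : G) * u = u * w
    have hu2 : (u : G) ∈ T' := ⟨u, hu, rfl⟩
    have h1 := hTC _ (hconj' _ hu2)
    rw [hw2]
    calc g * z * g⁻¹ * u = g * (z * (g⁻¹ * u * g)) * g⁻¹ := by group
      _ = g * ((g⁻¹ * u * g) * z) * g⁻¹ := by rw [h1]
      _ = u * (g * z * g⁻¹) := by group
  have hgz : g * z * g⁻¹ = z := by
    rcases hcentT2 w hw hwc with h | h
    · exfalso
      have h1 : (w : G) = 1 := congrArg Subtype.val h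
      rw [hw2] at h1
      apply hz1
      have e2 : z = g⁻¹ * (g * z * g⁻¹) * g := by group
      rw [e2, h1]
      group
    · rw [← hw2, h]
  have hgC : g ∈ C := by
    rw [hC, Subgroup.mem_centralizer_singleton_iff]
    exact mul_inv_eq_iff_eq_mul.mp hgz
  have hgT : (⟨g, hgC⟩ : C) ∈ T := by
    apply mem_of_normalizing T ⟨g, hgC⟩
    · obtain ⟨k, hk⟩ := P.2 x
      refine ⟨k, ?_⟩
      apply Subtype.ext
      have := congrArg Subtype.val hk
      exact this
    · intro t ht
      have ht2 : (t : G) ∈ T' := ⟨t, ht, rfl⟩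
      constructor
      · obtain ⟨a, ha, hae⟩ := hconj _ ht2
        have : (⟨g, hgC⟩ : C) * t * (⟨g, hgC⟩ : C)⁻¹ = a := Subtype.ext hae.symm
        rw [this]
        exact ha
      · obtain ⟨a, ha, hae⟩ := hconj' _ ht2
        have : (⟨g, hgC⟩ : C)⁻¹ * t * (⟨g, hgC⟩ : C) = a := Subtype.ext hae.symm
        rw [this]
        exact ha
  exact hgnot ⟨⟨g, hgC⟩, hgT, rfl⟩

/-- Let G be a finite group with an involution z whose centraliser C is isomorphic to the centraliser of a transvection of SL(5, 2). Then a Sylow 2-subgroup of C, viewed in G, is a Sylow 2-subgroup of G (its index in G is odd). -/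
theorem result {G : Type*} [Group G] [Finite G] (s : Matrix.SpecialLinearGroup (Fin 5) (ZMod 2)) (hs : (s : Matrix (Fin 5) (Fin 5) (ZMod 2)) = Matrix.transvection 0 1 1) (z : G) (hz : orderOf z = 2) (e : (Subgroup.centralizer ({z} : Set G)) ≃* Subgroup.centralizer ({s} : Set (Matrix.SpecialLinearGroup (Fin 5) (ZMod 2)))) (T : Sylow 2 (Subgroup.centralizer ({z} : Set G))) : ¬ 2 ∣ ((T : Subgroup (Subgroup.centralizer ({z} : Set G))).map (Subgroup.subtype (Subgroup.centralizer ({z} : Set G)))).index :=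
  main s hs z hz _ rfl e T

end Cfsg.Agent.S1717
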