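import Mathlib
import Cfsg.Statements.S1753

set_option autoImplicit false
universe u
open Cfsg

namespace Cfsg.Agent.S1753

theorem card_section_lt {G : Type u} [Group G] [Finite G] (H : Subgroup G) (hH : H ≠ ⊤)
    (L : Subgroup H) (N : Subgroup L) [N.Normal] :
    Nat.card (L ⧸ N) < Nat.card G := by
  have h1 : Nat.card (L ⧸ N) ≤ Nat.card L :=
    Nat.le_of_dvd Nat.card_pos (Subgroup.card_quotient_dvd_card N)
  have h2 : Nat.card L ≤ Nat.card H :=
    Nat.card_le_card_of_injective L.subtype L.subtype_injective
  have h3 : Nat.card H < Nat.card G := by
    have h4 := H.card_mul_index
    have h5 : 1 < H.index := Subgroup.one_lt_index_of_ne_top hH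
    have h6 : 0 < Nat.card H := Nat.card_pos
    nlinarith
  omega

/-- Let K be any property of groups. (1) If G is a minimal counterexample relative to K — a finite non-abelian simple group not satisfying K such that every finite non-abelian simple group of smaller order satisfies K — then every proper subgroup of G is a K-group (all its non-abelian simple sections satisfy K), since such sections have smaller order than G. (2) Consequently (induction on the order), if every finite non-abelian simple group all of whose proper subgroups are K-groups satisfies K, then every finite non-abelian simple group satisfies K. -/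
theorem result (K : ∀ (X : Type u) [Group X], Prop) :
    (∀ (G : Type u) [Group G], Cfsg.IsMinCounterexampleWith K G → Cfsg.IsKProperWith K G) ∧
      ((∀ (X : Type u) [Group X] [Finite X], IsSimpleGroup X → ¬ IsMulCommutative X → Cfsg.IsKProperWith K X → K X) →
        ∀ (G : Type u) [Group G] [Finite G], IsSimpleGroup G → ¬ IsMulCommutative G → K G) := by
  refine ⟨?_, ?_⟩
  · rintro G _ ⟨hfin, _, _, _, hmin⟩ H hH L N _ hs hc
    haveI := hfin
    exact hmin _ hs hc (card_section_lt H hH L N)
  · intro hK G
    induction' h : Nat.card G using Nat.strong_induction_on with n ih generalizing G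
    intro _ _ hs hc
    subst h
    refine hK G hs hc ?_
    intro H hH L N _ hs' hc'
    exact ih _ (card_section_lt H hH L N) _ rfl hs' hc'

end Cfsg.Agent.S1753
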