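import Mathlib
import Cfsg.Statements.S1755
import Cfsg.Agent.Lib.GF2Setup
import Cfsg.Agent.Lib.KleinTools

set_option autoImplicit false
open Cfsg
open Cfsg.Agent.Lib.GF2Setup

namespace Cfsg.Agent.S1755

theorem aux {G : Type*} [Group G] [Finite G] (C : Subgroup G) (Q : Subgroup ↥C) [Q.Normal]
    (zQ : ↥Q) (hzC : ∀ g : G, g ∈ C ↔ g * ((zQ : ↥C) : G) = ((zQ : ↥C) : G) * g)
    (hQ2 : IsPGroup 2 ↥Q)
    (hQc : ∀ A : Subgroup ↥Q, A.Characteristic → IsMulCommutative ↥A → IsCyclic ↥A)
    (hz2 : zQ ^ 2 = 1) (hz1 : zQ ≠ 1)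
    (B : Subgroup ↥Q) (hBc : B.Characteristic) (hBa : IsMulCommutative ↥B) (g : G) :
    ((B.map Q.subtype).map C.subtype).map (MulAut.conj g).toMonoidHom = (B.map Q.subtype).map C.subtype ∨
      ((B.map Q.subtype).map C.subtype).map (MulAut.conj g).toMonoidHom ⊓ (B.map Q.subtype).map C.subtype = ⊥ := by
  classical
  have hfact : Fact (Nat.Prime 2) := ⟨Nat.prime_two⟩
  have hzcen : zQ ∈ Subgroup.center ↥Q := by
    rw [Subgroup.mem_center_iff]
    intro q
    apply Subtype.ext
    apply Subtype.ext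
    exact (hzC _).1 (q : ↥C).2
  -- cyclicity
  have hcenCyc : IsCyclic ↥(Subgroup.center ↥Q) := hQc _ inferInstance inferInstance
  have hBcyc : IsCyclic ↥B := hQc B hBc hBa
  -- an involution of `Q` in the centre is `zQ`
  have hinvcen : ∀ w : ↥Q, w ∈ Subgroup.center ↥Q → w ^ 2 = 1 → w ≠ 1 → w = zQ := by
    intro w hw hw2 hw1
    have := eq_of_sq_eq_one_of_isCyclic (H := ↥(Subgroup.center ↥Q)) (a := ⟨w, hw⟩) (b := ⟨zQ, hzcen⟩)
      (Subtype.ext hw2) (Subtype.ext hz2)
      (fun h => hw1 (congrArg Subtype.val h)) (fun h => hz1 (congrArg Subtype.val h))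
    exact congrArg Subtype.val this
  -- `zQ ∈ B` whenever `B ≠ ⊥`
  have hBnormal : B.Normal := Subgroup.normal_of_characteristic B
  have hzB : B ≠ ⊥ → zQ ∈ B := by
    intro hB
    obtain ⟨y, hyB, hy1, hycen⟩ := Cfsg.Agent.Lib.KleinTools.exists_central_of_normal hQ2 B hB
    obtain ⟨k, hk2, hk1⟩ := exists_pow_involution hQ2 hy1
    have hcen : y ^ k ∈ Subgroup.center ↥Q := by
      apply Subgroup.pow_mem
      rw [Subgroup.mem_center_iff]
      intro q
      exact hycen q
    have := hinvcen (y ^ k) hcen hk2 hk1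
    rw [← this]
    exact B.pow_mem hyB k
  -- involutions in `B`
  have hinvB : ∀ w ∈ B, w ^ 2 = 1 → w ≠ 1 → w = zQ := by
    intro w hw hw2 hw1
    have hB : B ≠ ⊥ := by
      rintro rfl
      exact hw1 (Subgroup.mem_bot.mp hw)
    have := eq_of_sq_eq_one_of_isCyclic (H := ↥B) (a := ⟨w, hw⟩) (b := ⟨zQ, hzB hB⟩)
      (Subtype.ext hw2) (Subtype.ext hz2)
      (fun h => hw1 (congrArg Subtype.val h)) (fun h => hz1 (congrArg Subtype.val h))
    exact congrArg Subtype.val this
  -- the embedding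
  let emb : ↥Q →* G := C.subtype.comp Q.subtype
  have hemb : Function.Injective emb := fun a b h => Subtype.ext (Subtype.ext h)
  have hB' : (B.map Q.subtype).map C.subtype = B.map emb := Subgroup.map_map _ _ _
  rw [hB']
  -- conjugation by elements of `C`
  have hconjC : ∀ c : ↥C, ∀ x ∈ B.map emb, (c : G) * x * (c : G)⁻¹ ∈ B.map emb := by
    rintro c x ⟨b, hb, rfl⟩
    have hφ : (MulAut.conjNormal c : MulAut ↥Q) b ∈ B := by
      have := hBc.fixed (MulAut.conjNormal c : MulAut ↥Q)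
      rw [← this] at hb
      exact hb
    refine ⟨_, hφ, ?_⟩
    change (((MulAut.conjNormal c : MulAut ↥Q) b : ↥C) : G) = _
    rw [MulAut.conjNormal_apply]
    simp [emb]
  by_cases hg : g ∈ C
  · left
    apply le_antisymm
    · rintro _ ⟨x, hx, rfl⟩
      exact hconjC ⟨g, hg⟩ x hx
    · intro x hx
      refine ⟨((⟨g, hg⟩ : ↥C)⁻¹ : ↥C) * x * (((⟨g, hg⟩ : ↥C)⁻¹ : ↥C) : G)⁻¹, ?_, ?_⟩
      · exact hconjC (⟨g, hg⟩ : ↥C)⁻¹ x hx
      · simp [MulAut.conj_apply]
        group
  · right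
    rw [eq_bot_iff]
    rintro x ⟨⟨y, hy, rfl⟩, hxB⟩
    rw [Subgroup.mem_bot]
    by_contra hx1
    obtain ⟨b₁, hb₁, hb₁x⟩ := hxB
    obtain ⟨b₂, hb₂, hb₂y⟩ := hy
    have hb₁1 : b₁ ≠ 1 := by
      rintro rfl
      apply hx1
      rw [← hb₁x, map_one]
    obtain ⟨k, hk2, hk1⟩ := exists_pow_involution hQ2 hb₁1
    have hk3 := hinvB _ (B.pow_mem hb₁ k) hk2 hk1
    -- relate b₂ ^ k
    have hconj : g * emb b₂ * g⁻¹ = emb b₁ := by
      rw [hb₁x, ← hb₂y]
      rfl
    have hpow : g * emb (b₂ ^ k) * g⁻¹ = emb (b₁ ^ k) := by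
      rw [map_pow, map_pow, ← hconj, conj_pow]
    have hb₂k2 : (b₂ ^ k) ^ 2 = 1 := by
      apply hemb
      rw [map_pow, map_one]
      have h1 : g * (emb (b₂ ^ k)) ^ 2 * g⁻¹ = 1 := by
        rw [← conj_pow, hpow, ← map_pow, hk2, map_one]
      exact conj_eq_one_iff.mp h1
    have hb₂k1 : b₂ ^ k ≠ 1 := by
      intro h
      rw [h, map_one, mul_one, mul_inv_cancel] at hpow
      exact hk1 (hemb (by rw [← hpow, map_one]))
    have hk4 := hinvB _ (B.pow_mem hb₂ k) hb₂k2 hb₂k1
    rw [hk3, hk4] at hpow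
    apply hg
    rw [hzC]
    have hez : emb zQ = ((zQ : ↥C) : G) := rfl
    rw [hez] at hpow
    calc g * ((zQ : ↥C) : G) = g * ((zQ : ↥C) : G) * g⁻¹ * g := by group
      _ = ((zQ : ↥C) : G) * g := by rw [hpow]

/-- Let G be a finite group and let z be an involution of G such that Q, the generalized Fitting subgroup of the centralizer C of z, is a 2-group of symplectic type (every characteristic abelian subgroup of Q is cyclic). Let B be a characteristic abelian subgroup of Q, viewed as a subgroup of G. Then for every g in G, the conjugate of B by g either equals B or meets B trivially. -/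
theorem result {G : Type*} [Group G] [Finite G] (z : G) (hz : orderOf z = 2) (hQ : Cfsg.IsOfSymplecticType ↥(Cfsg.generalizedFittingSubgroup ↥(Subgroup.centralizer ({z} : Set G))))
    (B : Subgroup ↥(Cfsg.generalizedFittingSubgroup ↥(Subgroup.centralizer ({z} : Set G)))) (hBc : B.Characteristic) (hBa : IsMulCommutative ↥B) (g : G) :
    ((B.map (Cfsg.generalizedFittingSubgroup ↥(Subgroup.centralizer ({z} : Set G))).subtype).map (Subgroup.centralizer ({z} : Set G)).subtype).map (MulAut.conj g).toMonoidHom =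
        (B.map (Cfsg.generalizedFittingSubgroup ↥(Subgroup.centralizer ({z} : Set G))).subtype).map (Subgroup.centralizer ({z} : Set G)).subtype ∨
      ((B.map (Cfsg.generalizedFittingSubgroup ↥(Subgroup.centralizer ({z} : Set G))).subtype).map (Subgroup.centralizer ({z} : Set G)).subtype).map (MulAut.conj g).toMonoidHom ⊓
        (B.map (Cfsg.generalizedFittingSubgroup ↥(Subgroup.centralizer ({z} : Set G))).subtype).map (Subgroup.centralizer ({z} : Set G)).subtype = ⊥ := by
  have hzC : z ∈ Subgroup.centralizer ({z} : Set G) := Subgroup.mem_centralizer_singleton_iff.mpr rfl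
  have hzCcen : (⟨z, hzC⟩ : ↥(Subgroup.centralizer ({z} : Set G))) ∈ Subgroup.center ↥(Subgroup.centralizer ({z} : Set G)) := by
    rw [Subgroup.mem_center_iff]
    intro c
    apply Subtype.ext
    exact Subgroup.mem_centralizer_singleton_iff.mp c.2
  have hzQ := center_le_generalizedFitting hzCcen
  refine aux _ _ ⟨_, hzQ⟩ (fun g => Subgroup.mem_centralizer_singleton_iff) hQ.1 hQ.2 ?_ ?_ B hBc hBa g
  · apply Subtype.ext
    apply Subtype.ext
    change z ^ 2 = 1
    rw [← hz]
    exact pow_orderOf_eq_one z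
  · intro h
    have : z = 1 := congrArg (fun x : ↥(Cfsg.generalizedFittingSubgroup ↥(Subgroup.centralizer ({z} : Set G))) => ((x : ↥(Subgroup.centralizer ({z} : Set G))) : G)) h
    rw [this, orderOf_one] at hz
    omega

end Cfsg.Agent.S1755
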