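import Mathlib
import Cfsg.Prelude.Def_Transfer
import Cfsg.Agent.Lib.ExtraDual

set_option autoImplicit false

namespace Cfsg.Agent.S1756

open Cfsg.Agent.Lib.LargeExtra Cfsg.Agent.Lib.ExtraDual

variable {G : Type*} [Group G]

section aux

variable {Q : Subgroup G} {z t q : G}

/-- `t` fixes the central involution. -/
theorem t_z (h : ExtraAt Q z) (ht : t * t = 1) (htN : ∀ x ∈ Q, t * x * t⁻¹ ∈ Q) :
    z * t = t * z := by
  have hti : t⁻¹ = t := inv_eq_of_mul_eq_one_left ht
  have h1 : t * z * t⁻¹ ∈ Q := htN z h.mem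
  have h2 : ∀ y ∈ Q, (t * z * t⁻¹) * y = y * (t * z * t⁻¹) := by
    intro y hy
    have hy' : t⁻¹ * y * t ∈ Q := by
      have e : t⁻¹ * y * t = t * y * t⁻¹ := by rw [hti]
      rw [e]
      exact htN y hy
    calc (t * z * t⁻¹) * y = t * (z * (t⁻¹ * y * t)) * t⁻¹ := by group
      _ = t * ((t⁻¹ * y * t) * z) * t⁻¹ := by rw [h.cen _ hy']
      _ = y * (t * z * t⁻¹) := by group
  rcases h.central _ h1 h2 with h3 | h3
  · exfalso
    apply h.ne_one
    have : z = t⁻¹ * (t * z * t⁻¹) * t := by group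
    rw [this, h3]; simp
  · calc z * t = (t * z * t⁻¹) * t := by rw [h3]
      _ = t * z := by group

/-- The commutator of `t` with `q` is `z`. -/
theorem comm_eq (h : ExtraAt Q z) (ht : t * t = 1) (htN : ∀ x ∈ Q, t * x * t⁻¹ ∈ Q)
    (hq : q ∈ Q) (hqt : ¬ q * t = t * q)
    (hsp : ∀ x ∈ Q, ∀ y ∈ Q, ((x * y) * t = t * (x * y) ↔ (x * t = t * x ↔ y * t = t * y))) :
    t * q * t⁻¹ * q⁻¹ = z := by
  have hti : t⁻¹ = t := inv_eq_of_mul_eq_one_left ht
  have hzt := t_z h ht htN
  have hz2 := h.sq_eq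
  have hqi : q⁻¹ ∈ Q := Q.inv_mem hq
  have hqit : ¬ q⁻¹ * t = t * q⁻¹ := by
    intro h1
    apply hqt
    calc q * t = q * (t * q⁻¹) * q := by group
      _ = q * (q⁻¹ * t) * q := by rw [h1]
      _ = t * q := by group
  -- the element `c`
  obtain ⟨c, hc⟩ : ∃ c, c = t * q * t⁻¹ * q⁻¹ := ⟨_, rfl⟩
  rw [← hc]
  have hcQ : c ∈ Q := by
    rw [hc]
    exact Q.mul_mem (htN q hq) hqi
  -- `c` centralizes `C_Q(t)`
  have hcC : ∀ x ∈ Q, x * t = t * x → c * x = x * c := by
    intro x hx hxt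
    have hx' : q⁻¹ * x * q ∈ Q := Q.mul_mem (Q.mul_mem hqi hx) hq
    have hx't : (q⁻¹ * x * q) * t = t * (q⁻¹ * x * q) := by
      have h1 := (hsp q⁻¹ hqi (x * q) (Q.mul_mem hx hq))
      have h2 := (hsp x hx q hq)
      have h3 : ¬ (x * q) * t = t * (x * q) := by
        intro h4
        exact hqt (h2.mp h4 |>.mp hxt)
      have h5 : (q⁻¹ * (x * q)) * t = t * (q⁻¹ * (x * q)) := by
        rw [h1]
        exact iff_of_false hqit h3
      simpa [mul_assoc] using h5
    have ht' : t⁻¹ * (q⁻¹ * x * q) = (q⁻¹ * x * q) * t⁻¹ := by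
      rw [hti]; exact hx't.symm
    rw [hc]
    calc t * q * t⁻¹ * q⁻¹ * x = t * q * (t⁻¹ * (q⁻¹ * x * q)) * q⁻¹ := by group
      _ = t * q * ((q⁻¹ * x * q) * t⁻¹) * q⁻¹ := by rw [ht']
      _ = (t * x) * q * t⁻¹ * q⁻¹ := by group
      _ = (x * t) * q * t⁻¹ * q⁻¹ := by rw [hxt]
      _ = x * (t * q * t⁻¹ * q⁻¹) := by group
  -- splitting of `Q`
  have hsq : ∀ y ∈ Q, y * t = t * y ∨ (q⁻¹ * y) * t = t * (q⁻¹ * y) := by
    intro y hy
    by_cases h1 : y * t = t * y
    · exact Or.inl h1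
    · right
      rw [hsp q⁻¹ hqi y hy]
      exact iff_of_false hqit h1
  -- it suffices to show `c` commutes with `q`
  have hcq_central : c * q = q * c → c = z := by
    intro hcq
    have hcen : ∀ y ∈ Q, c * y = y * c := by
      intro y hy
      rcases hsq y hy with h1 | h1
      · exact hcC y hy h1
      · have h2 := hcC _ (Q.mul_mem hqi hy) h1
        calc c * y = c * q * (q⁻¹ * y) := by group
          _ = q * (c * (q⁻¹ * y)) := by rw [hcq]; group
          _ = q * ((q⁻¹ * y) * c) := by rw [h2]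
          _ = y * c := by group
    rcases h.central c hcQ hcen with h1 | h1
    · exfalso
      apply hqt
      have h2 : t * q * t⁻¹ = q := by
        have := hc
        rw [h1] at this
        exact (mul_inv_eq_one.mp this.symm)
      calc q * t = t * q * t⁻¹ * t := by rw [h2]
        _ = t * q := by group
    · exact h1
  apply hcq_central
  by_cases hct : c * t = t * c
  · -- `c` is centralized by `t`: then `c² = 1`
    have hcinv : t * c * t⁻¹ = c⁻¹ := by
      rw [hc, hti]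
      have ht2 : ∀ a : G, t * (t * a) = a := fun a => by rw [← mul_assoc, ht, one_mul]
      simp only [mul_inv_rev, inv_inv, hti, mul_assoc, ht2]
    have hcc : c * c = 1 := by
      have h1 : t * c * t⁻¹ = c := by rw [← hct]; group
      rw [hcinv] at h1
      have h2 : c * c⁻¹ = 1 := mul_inv_cancel c
      rw [h1] at h2
      exact h2
    by_contra hne
    have hcomm : q * c * q⁻¹ * c⁻¹ = z := by
      rcases h.comm q hq c hcQ with h1 | h1
      · exact absurd (comm_of_conj_eq (mul_inv_eq_one.mp h1)).symm hne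
      · exact h1
    have hqcq : q * c * q⁻¹ = z * c := by
      calc q * c * q⁻¹ = (q * c * q⁻¹ * c⁻¹) * c := by group
        _ = z * c := by rw [hcomm]
    -- `(c q)² = t q² t⁻¹ = q²`
    have hsq1 : (t * q * t⁻¹) * (t * q * t⁻¹) = t * (q * q) * t⁻¹ := by group
    have hsq2 : t * (q * q) * t⁻¹ = q * q := by
      have h3 := h.sq q hq
      rw [pow_two] at h3
      rcases h3 with h3 | h3
      · rw [h3]; group
      · rw [h3]
        calc t * z * t⁻¹ = z * t * t⁻¹ := by rw [hzt]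
          _ = z := by group
    have hcq : t * q * t⁻¹ = c * q := by rw [hc]; group
    rw [hcq] at hsq1
    have hsq3 : (c * q) * (c * q) = z * (q * q) := by
      calc (c * q) * (c * q) = c * (q * c * q⁻¹) * (q * q) := by group
        _ = c * (z * c) * (q * q) := by rw [hqcq]
        _ = z * (c * c) * (q * q) := by
            rw [← mul_assoc c z c, (h.cen c hcQ)]; group
        _ = z * (q * q) := by rw [hcc]; group
    rw [hsq1, hsq2] at hsq3
    exact h.ne_one (mul_eq_right.mp hsq3.symm)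
  · -- `c ∉ C_Q(t)`: `c` is central, contradiction
    exfalso
    have hcI : c⁻¹ ∈ Q := Q.inv_mem hcQ
    have hcit : ¬ c⁻¹ * t = t * c⁻¹ := by
      intro h1
      apply hct
      calc c * t = c * (t * c⁻¹) * c := by group
        _ = c * (c⁻¹ * t) * c := by rw [h1]
        _ = t * c := by group
    have hcen : ∀ y ∈ Q, c * y = y * c := by
      intro y hy
      by_cases h1 : y * t = t * y
      · exact hcC y hy h1
      · have h2 : (c⁻¹ * y) * t = t * (c⁻¹ * y) := by
          rw [hsp c⁻¹ hcI y hy]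
          exact iff_of_false hcit h1
        have h3 := hcC _ (Q.mul_mem hcI hy) h2
        calc c * y = c * (c * (c⁻¹ * y)) := by group
          _ = c * ((c⁻¹ * y) * c) := by rw [h3]
          _ = y * c := by group
    rcases h.central c hcQ hcen with h1 | h1
    · rw [h1] at hct; simp at hct
    · rw [h1] at hct; exact hct hzt

/-- The conclusion from the existence of `u`. -/
theorem final (h : ExtraAt Q z) (ht : t * t = 1) (htN : ∀ x ∈ Q, t * x * t⁻¹ ∈ Q)
    (hq : q ∈ Q) (hqt : ¬ q * t = t * q)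
    (hsp : ∀ x ∈ Q, ∀ y ∈ Q, ((x * y) * t = t * (x * y) ↔ (x * t = t * x ↔ y * t = t * y)))
    {u : G} (huC : ∀ x ∈ Q, x * t = t * x → u * x = x * u)
    (huq : u * q * u⁻¹ * q⁻¹ = z) : ∀ x ∈ Q, x * (u⁻¹ * t) = (u⁻¹ * t) * x := by
  have hc := comm_eq h ht htN hq hqt hsp
  have hqi : q⁻¹ ∈ Q := Q.inv_mem hq
  have hqit : ¬ q⁻¹ * t = t * q⁻¹ := by
    intro h1
    apply hqt
    calc q * t = q * (t * q⁻¹) * q := by group
      _ = q * (q⁻¹ * t) * q := by rw [h1]
      _ = t * q := by group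
  -- `t q = z q t`
  have h1 : t * q = z * q * t := by
    rw [← hc]; group
  have h2 : u * q = z * q * u := by
    rw [← huq]; group
  have hq' : q * (u⁻¹ * t) = (u⁻¹ * t) * q := by
    have h3 : u⁻¹ * (z * q) = q * u⁻¹ := by
      calc u⁻¹ * (z * q) = u⁻¹ * (z * q * u) * u⁻¹ := by group
        _ = u⁻¹ * (u * q) * u⁻¹ := by rw [h2]
        _ = q * u⁻¹ := by group
    calc q * (u⁻¹ * t) = (q * u⁻¹) * t := by group
      _ = (u⁻¹ * (z * q)) * t := by rw [h3]
      _ = u⁻¹ * (z * q * t) := by group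
      _ = u⁻¹ * (t * q) := by rw [h1]
      _ = (u⁻¹ * t) * q := by group
  have hC : ∀ x ∈ Q, x * t = t * x → x * (u⁻¹ * t) = (u⁻¹ * t) * x := by
    intro x hx hxt
    have h3 := huC x hx hxt
    have h4 : u⁻¹ * x = x * u⁻¹ := by
      calc u⁻¹ * x = u⁻¹ * (x * u) * u⁻¹ := by group
        _ = u⁻¹ * (u * x) * u⁻¹ := by rw [h3]
        _ = x * u⁻¹ := by group
    calc x * (u⁻¹ * t) = (x * u⁻¹) * t := by group
      _ = (u⁻¹ * x) * t := by rw [h4]
      _ = u⁻¹ * (x * t) := by group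
      _ = u⁻¹ * (t * x) := by rw [hxt]
      _ = (u⁻¹ * t) * x := by group
  intro x hx
  by_cases hxt : x * t = t * x
  · exact hC x hx hxt
  · have h3 : (q⁻¹ * x) * t = t * (q⁻¹ * x) := by
      rw [hsp q⁻¹ hqi x hx]
      exact iff_of_false hqit hxt
    have h4 := hC _ (Q.mul_mem hqi hx) h3
    calc x * (u⁻¹ * t) = q * ((q⁻¹ * x) * (u⁻¹ * t)) := by group
      _ = q * ((u⁻¹ * t) * (q⁻¹ * x)) := by rw [h4]
      _ = (q * (u⁻¹ * t)) * (q⁻¹ * x) := by group
      _ = ((u⁻¹ * t) * q) * (q⁻¹ * x) := by rw [hq']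
      _ = (u⁻¹ * t) * x := by group

end aux

/-- Existence of `u`: uses the perp formula. -/
theorem exists_u [Finite G] {Q : Subgroup G} {z t q : G} (h : ExtraAt Q z)
    (hzt : z * t = t * z)
    (hq : q ∈ Q) (hqt : ¬ q * t = t * q)
    (hsp : ∀ x ∈ Q, ∀ y ∈ Q, ((x * y) * t = t * (x * y) ↔ (x * t = t * x ↔ y * t = t * y)))
    (hcard : Nat.card ↥(Subgroup.centralizer ({t} : Set G) ⊓ Q) * 2 = Nat.card Q) :
    ∃ u ∈ Q, (∀ x ∈ Q, x * t = t * x → u * x = x * u) ∧ u * q * u⁻¹ * q⁻¹ = z := by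
  have hqi : q⁻¹ ∈ Q := Q.inv_mem hq
  have hqit : ¬ q⁻¹ * t = t * q⁻¹ := by
    intro h1
    apply hqt
    calc q * t = q * (t * q⁻¹) * q := by group
      _ = q * (q⁻¹ * t) * q := by rw [h1]
      _ = t * q := by group
  obtain ⟨A, hAdef⟩ : ∃ A : Subgroup G, A = Subgroup.centralizer ({t} : Set G) ⊓ Q := ⟨_, rfl⟩
  rw [← hAdef] at hcard
  have hAQ : A ≤ Q := by rw [hAdef]; exact inf_le_right
  have hmemA : ∀ x, x ∈ A ↔ (x * t = t * x ∧ x ∈ Q) := by
    intro x
    rw [hAdef, Subgroup.mem_inf, Subgroup.mem_centralizer_singleton_iff]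
  have hzA : z ∈ A := (hmemA z).mpr ⟨hzt, h.mem⟩
  have hperp := card_mul_centralizer h hAQ hzA
  have hApos : 0 < Nat.card A := Nat.card_pos
  have h4 : Nat.card ↥(Q ⊓ Subgroup.centralizer (A : Set G)) = 4 := by
    rw [← hcard] at hperp
    have : Nat.card A * Nat.card ↥(Q ⊓ Subgroup.centralizer (A : Set G)) = Nat.card A * 4 := by
      rw [hperp]; ring
    exact Nat.eq_of_mul_eq_mul_left hApos this
  -- there is `u` in `C_Q(A)` outside `⟨z⟩`
  have hex : ∃ u ∈ Q ⊓ Subgroup.centralizer (A : Set G), u ≠ 1 ∧ u ≠ z := by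
    by_contra hcon
    push Not at hcon
    have hle : Q ⊓ Subgroup.centralizer (A : Set G) ≤ Subgroup.zpowers z := by
      intro u hu
      by_cases h1 : u = 1
      · rw [h1]; exact Subgroup.one_mem _
      · rw [hcon u hu h1]; exact Subgroup.mem_zpowers _
    have := Subgroup.card_le_of_le hle
    rw [h4, Nat.card_zpowers, h.order] at this
    omega
  obtain ⟨u, ⟨huQ, huC⟩, hu1, huz⟩ := hex
  have huC' : ∀ x ∈ Q, x * t = t * x → u * x = x * u := by
    intro x hx hxt
    exact (Subgroup.mem_centralizer_iff.mp huC x ((hmemA x).mpr ⟨hxt, hx⟩)).symm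
  refine ⟨u, huQ, huC', ?_⟩
  rcases h.comm u huQ q hq with h1 | h1
  · exfalso
    have huq : u * q = q * u := comm_of_conj_eq (mul_inv_eq_one.mp h1)
    have hcen : ∀ y ∈ Q, u * y = y * u := by
      intro y hy
      by_cases h2 : y * t = t * y
      · exact huC' y hy h2
      · have h3 : (q⁻¹ * y) * t = t * (q⁻¹ * y) := by
          rw [hsp q⁻¹ hqi y hy]
          exact iff_of_false hqit h2
        have h5 := huC' _ (Q.mul_mem hqi hy) h3
        calc u * y = u * q * (q⁻¹ * y) := by group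
          _ = q * (u * (q⁻¹ * y)) := by rw [huq]; group
          _ = q * ((q⁻¹ * y) * u) := by rw [h5]
          _ = y * u := by group
    rcases h.central u huQ hcen with h2 | h2
    · exact hu1 h2
    · exact huz h2
  · exact h1

theorem result {G : Type*} [Group G] [Finite G] (Q : Subgroup G)
    (hQ : Cfsg.IsExtraspecial 2 ↥Q) (t : G) (ht : orderOf t = 2) (htN : t ∈ Subgroup.normalizer (Q : Set G))
    (hi : (Subgroup.centralizer ({t} : Set G) ⊓ Q).relIndex Q ≤ 2) :
    t ∈ Q ⊔ Subgroup.centralizer (Q : Set G) := by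
  obtain ⟨z, h, -⟩ := exists_extraAt hQ
  have htt : t * t = 1 := by rw [← pow_two, ← ht]; exact pow_orderOf_eq_one t
  have hN : ∀ x ∈ Q, t * x * t⁻¹ ∈ Q := fun x hx => conj_mem_of_normalizer htN hx
  have hne : (Subgroup.centralizer ({t} : Set G) ⊓ Q).relIndex Q ≠ 0 :=
    Subgroup.index_ne_zero_of_finite
  have hcases : (Subgroup.centralizer ({t} : Set G) ⊓ Q).relIndex Q = 1 ∨
      (Subgroup.centralizer ({t} : Set G) ⊓ Q).relIndex Q = 2 := by omega
  rcases hcases with h1 | h2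
  · -- `t` centralizes `Q`
    rw [Subgroup.relIndex_eq_one] at h1
    apply Subgroup.mem_sup_right
    refine Subgroup.mem_centralizer_iff.mpr ?_
    intro y hy
    exact Subgroup.mem_centralizer_singleton_iff.mp (h1 hy).1
  · -- the main case
    have hsp : ∀ x ∈ Q, ∀ y ∈ Q, ((x * y) * t = t * (x * y) ↔ (x * t = t * x ↔ y * t = t * y)) := by
      intro x hx y hy
      have h3 := Subgroup.mul_mem_iff_of_index_two
        (H := (Subgroup.centralizer ({t} : Set G) ⊓ Q).subgroupOf Q) h2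
        (a := ⟨x, hx⟩) (b := ⟨y, hy⟩)
      simpa [Subgroup.mem_subgroupOf, Subgroup.mem_inf, hx, hy,
        Subgroup.mem_centralizer_singleton_iff] using h3
    have hcard : Nat.card ↥(Subgroup.centralizer ({t} : Set G) ⊓ Q) * 2 = Nat.card Q := by
      have h3 := Subgroup.relIndex_mul_relIndex ⊥ (Subgroup.centralizer ({t} : Set G) ⊓ Q) Q
        bot_le inf_le_right
      rw [Subgroup.relIndex_bot_left, Subgroup.relIndex_bot_left, h2] at h3
      exact h3
    -- choose `q`
    have hex : ∃ q ∈ Q, ¬ q * t = t * q := by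
      by_contra hcon
      push Not at hcon
      have h3 : Q ≤ Subgroup.centralizer ({t} : Set G) ⊓ Q := fun y hy =>
        ⟨Subgroup.mem_centralizer_singleton_iff.mpr (hcon y hy), hy⟩
      rw [← Subgroup.relIndex_eq_one] at h3
      omega
    obtain ⟨q, hq, hqt⟩ := hex
    obtain ⟨u, huQ, huC, huq⟩ := exists_u h (t_z h htt hN) hq hqt hsp hcard
    have hfin := final h htt hN hq hqt hsp huC huq
    have hs : u⁻¹ * t ∈ Subgroup.centralizer (Q : Set G) :=
      Subgroup.mem_centralizer_iff.mpr hfin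
    have e : t = u * (u⁻¹ * t) := by group
    rw [e]
    exact Subgroup.mul_mem_sup huQ hs

end Cfsg.Agent.S1756
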