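import Mathlib
import Cfsg.Statements.S1774
import Cfsg.Agent.Lib.SympExp4
import Cfsg.Agent.Lib.SympPair
import Cfsg.Agent.Lib.GF2Setup
import Cfsg.Agent.Lib.LocalCore

set_option autoImplicit false
open Cfsg

namespace Cfsg.Agent.S1774

open Cfsg.Agent.Lib.SympPair Cfsg.Agent.Lib.SympExp4

/-- The elementwise data of `Q = F*(C(z))`. -/
theorem symp_of {G : Type*} [Group G] [Finite G] (z : G) (hz : orderOf z = 2)
    (hQ : Cfsg.IsOfSymplecticType ↥(Cfsg.generalizedFittingSubgroup ↥(Subgroup.centralizer ({z} : Set G))))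
    (h4 : ∀ q ∈ (Cfsg.generalizedFittingSubgroup ↥(Subgroup.centralizer ({z} : Set G))).map (Subgroup.centralizer ({z} : Set G)).subtype, q ^ 4 = 1) :
    Symp ((Cfsg.generalizedFittingSubgroup ↥(Subgroup.centralizer ({z} : Set G))).map (Subgroup.centralizer ({z} : Set G)).subtype) z := by
  have hmemC : ∀ x, x ∈ Subgroup.centralizer ({z} : Set G) ↔ x * z = z * x := fun x =>
    Subgroup.mem_centralizer_singleton_iff
  have hzC : z ∈ Subgroup.centralizer ({z} : Set G) := (hmemC z).mpr rfl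
  have hzcen : (⟨z, hzC⟩ : ↥(Subgroup.centralizer ({z} : Set G))) ∈
      Subgroup.center ↥(Subgroup.centralizer ({z} : Set G)) := by
    refine Subgroup.mem_center_iff.mpr ?_
    intro g
    apply Subtype.ext
    exact (hmemC g).mp g.2
  have hzF := Cfsg.Agent.Lib.GF2Setup.center_le_generalizedFitting hzcen
  have hz1G : z ≠ 1 := by
    intro h1
    rw [h1, orderOf_one] at hz
    omega
  have hzzG : z * z = 1 := by rw [← pow_two, ← hz]; exact pow_orderOf_eq_one z
  let z₁ : ↥(Cfsg.generalizedFittingSubgroup ↥(Subgroup.centralizer ({z} : Set G))) := ⟨⟨z, hzC⟩, hzF⟩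
  have hval : ∀ {a b : ↥(Cfsg.generalizedFittingSubgroup ↥(Subgroup.centralizer ({z} : Set G)))},
      a = b → ((a : ↥(Subgroup.centralizer ({z} : Set G))) : G) = ((b : ↥(Subgroup.centralizer ({z} : Set G))) : G) := by
    rintro a b rfl; rfl
  have hext : ∀ {a b : ↥(Cfsg.generalizedFittingSubgroup ↥(Subgroup.centralizer ({z} : Set G)))},
      ((a : ↥(Subgroup.centralizer ({z} : Set G))) : G) = ((b : ↥(Subgroup.centralizer ({z} : Set G))) : G) → a = b := by
    intro a b h
    exact Subtype.ext (Subtype.ext h)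
  have hz1 : z₁ ≠ 1 := fun h => hz1G (hval h)
  have hzz : z₁ * z₁ = 1 := hext hzzG
  have hc : ∀ x, x * z₁ = z₁ * x := fun x => hext ((hmemC _).mp x.1.2)
  have h4' : ∀ x : ↥(Cfsg.generalizedFittingSubgroup ↥(Subgroup.centralizer ({z} : Set G))), x ^ 4 = 1 := by
    intro x
    apply hext
    exact h4 _ ⟨x.1, x.2, rfl⟩
  refine ⟨⟨⟨z, hzC⟩, hzF, rfl⟩, hz, ?_, ?_, ?_, ?_, ?_, ?_⟩
  · rintro x ⟨a, -, rfl⟩
    exact (hmemC _).mp a.2
  · rintro x ⟨a, ha, rfl⟩ y ⟨b, hb, rfl⟩
    rcases comm_of_symp hQ h4' hz1 hzz hc ⟨a, ha⟩ ⟨b, hb⟩ with h | h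
    · left; exact hval h
    · right; exact hval h
  · rintro x ⟨a, ha, rfl⟩
    rcases sq_of_symp hQ h4' hz1 hzz hc ⟨a, ha⟩ with h | h
    · left; exact hval h
    · right; exact hval h
  · rintro x ⟨a, ha, rfl⟩ hcen hxx
    have h1 : ∀ y, (⟨a, ha⟩ : ↥(Cfsg.generalizedFittingSubgroup ↥(Subgroup.centralizer ({z} : Set G)))) * y = y * ⟨a, ha⟩ := by
      intro y
      apply hext
      exact hcen _ ⟨y.1, y.2, rfl⟩
    rcases central_inv hQ hz1 hzz hc h1 (hext hxx) with h | h
    · left; exact hval h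
    · right; exact hval h
  · intro x hx
    have hxC : x ∈ Subgroup.centralizer ({z} : Set G) :=
      (hmemC x).mpr (hx z ⟨⟨z, hzC⟩, hzF, rfl⟩).symm
    have h1 : (⟨x, hxC⟩ : ↥(Subgroup.centralizer ({z} : Set G))) ∈
        Subgroup.centralizer (Cfsg.generalizedFittingSubgroup ↥(Subgroup.centralizer ({z} : Set G)) :
          Set ↥(Subgroup.centralizer ({z} : Set G))) := by
      refine Subgroup.mem_centralizer_iff.mpr ?_
      intro y hy
      apply Subtype.ext
      exact hx (y : G) ⟨y, hy, rfl⟩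
    exact ⟨_, Cfsg.Agent.Lib.LocalCore.centralizer_generalizedFitting_le h1, rfl⟩
  · rintro x hxz y ⟨a, ha, rfl⟩
    have := (Cfsg.Agent.Lib.GF2Setup.generalizedFitting_normal (G := ↥(Subgroup.centralizer ({z} : Set G)))).conj_mem
      a ha ⟨x, (hmemC x).mpr hxz⟩
    exact ⟨_, this, rfl⟩

/-- The action on the four-group. -/
theorem four_group {G : Type*} [Group G] {Q Q' : Subgroup G} {z s : G}
    (hS : Symp Q z) (hS' : Symp Q' s) (hsQ : s ∈ Q) (hzQ' : z ∈ Q') (hne : s ≠ z) :
    ∀ u ∈ Subgroup.closure ({z, s} : Set G), ∀ v ∈ Subgroup.closure ({z, s} : Set G),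
        u ≠ 1 → v ≠ 1 → u ≠ v → ∃ x ∈ Q ⊔ Q', x * z * x⁻¹ = u ∧ x * s * x⁻¹ = v := by
  have hzz := hS.sq_eq
  have hss := hS'.sq_eq
  have hzs : z * s = s * z := (hS.cen s hsQ).symm
  have hmem : ∀ w ∈ Subgroup.closure ({z, s} : Set G), w = 1 ∨ w = z ∨ w = s ∨ w = z * s := by
    intro w hw
    induction hw using Subgroup.closure_induction with
    | mem x hx =>
      rcases hx with rfl | rfl
      · exact Or.inr (Or.inl rfl)
      · exact Or.inr (Or.inr (Or.inl rfl))
    | one => exact Or.inl rfl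
    | mul x y _ _ hx hy =>
      have hzsz : z * (z * s) = s := by rw [← mul_assoc, hzz, one_mul]
      have hszs : s * (z * s) = z := by rw [hzs, ← mul_assoc, hss, one_mul]
      have hzsz' : z * s * z = s := by rw [hzs, mul_assoc, hzz, mul_one]
      have hzss : z * s * s = z := by rw [mul_assoc, hss, mul_one]
      have hzszs : z * s * (z * s) = 1 := by
        calc z * s * (z * s) = z * (s * z) * s := by group
          _ = z * (z * s) * s := by rw [hzs]
          _ = (z * z) * (s * s) := by group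
          _ = 1 := by rw [hzz, hss, one_mul]
      have hsz : s * z = z * s := hzs.symm
      rcases hx with rfl | rfl | rfl | rfl <;> rcases hy with rfl | rfl | rfl | rfl <;>
        simp only [one_mul, mul_one, hzz, hss, hzsz, hszs, hzsz', hzss, hzszs, hsz] <;> simp
    | inv x _ hx =>
      have hzi : z⁻¹ = z := hS.inv_eq
      have hsi : s⁻¹ = s := hS'.inv_eq
      rcases hx with rfl | rfl | rfl | rfl
      · simp
      · right; left; exact hzi
      · right; right; left; exact hsi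
      · right; right; right
        rw [mul_inv_rev, hzi, hsi, hzs]
  have hs1 := hS'.ne_one
  have hz1 := hS.ne_one
  -- the two generators
  have hnc : ¬ ∀ y ∈ Q, s * y = y * s := by
    intro h1
    rcases hS.inv s hsQ h1 hss with h2 | h2
    · exact hs1 h2
    · exact hne h2
  obtain ⟨t, ht, hts⟩ := hS.exists_not_comm hsQ hnc
  have hnc' : ¬ ∀ y ∈ Q', z * y = y * z := by
    intro h1
    rcases hS'.inv z hzQ' h1 hzz with h2 | h2
    · exact hz1 h2
    · exact hne h2.symm
  obtain ⟨t', ht', htz⟩ := hS'.exists_not_comm hzQ' hnc'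
  have htz0 : t * z * t⁻¹ = z := Cfsg.Agent.Lib.LargeExtra.conj_eq_of_comm (hS.cen t ht)
  have hts0 : t' * s * t'⁻¹ = s := Cfsg.Agent.Lib.LargeExtra.conj_eq_of_comm (hS'.cen t' ht')
  have A3 : t * (z * s) * t⁻¹ = s := by
    calc t * (z * s) * t⁻¹ = (t * z * t⁻¹) * (t * s * t⁻¹) := by group
      _ = z * (s * z) := by rw [htz0, hts]
      _ = z * (z * s) := by rw [hzs]
      _ = s := by rw [← mul_assoc, hzz, one_mul]
  have B3 : t' * (s * z) * t'⁻¹ = z := by
    calc t' * (s * z) * t'⁻¹ = (t' * s * t'⁻¹) * (t' * z * t'⁻¹) := by group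
      _ = s * (z * s) := by rw [hts0, htz]
      _ = s * (s * z) := by rw [hzs]
      _ = z := by rw [← mul_assoc, hss, one_mul]
  have hcomp : ∀ x y w : G, (x * y) * w * (x * y)⁻¹ = x * (y * w * y⁻¹) * x⁻¹ := by
    intro x y w; group
  have hT : t ∈ Q ⊔ Q' := Subgroup.mem_sup_left ht
  have hT' : t' ∈ Q ⊔ Q' := Subgroup.mem_sup_right ht'
  intro u hu v hv hu1 hv1 huv
  have key1 : ∃ x ∈ Q ⊔ Q', x * z * x⁻¹ = z ∧ x * s * x⁻¹ = s :=
    ⟨1, Subgroup.one_mem _, by simp, by simp⟩
  have key2 : ∃ x ∈ Q ⊔ Q', x * z * x⁻¹ = z ∧ x * s * x⁻¹ = z * s :=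
    ⟨t, hT, htz0, by rw [hts, hzs]⟩
  have key3 : ∃ x ∈ Q ⊔ Q', x * z * x⁻¹ = z * s ∧ x * s * x⁻¹ = s :=
    ⟨t', hT', htz, hts0⟩
  have key4 : ∃ x ∈ Q ⊔ Q', x * z * x⁻¹ = s ∧ x * s * x⁻¹ = z * s :=
    ⟨t * t', Subgroup.mul_mem _ hT hT', by rw [hcomp, htz, A3], by rw [hcomp, hts0, hts, hzs]⟩
  have key5 : ∃ x ∈ Q ⊔ Q', x * z * x⁻¹ = z * s ∧ x * s * x⁻¹ = z :=
    ⟨t' * t, Subgroup.mul_mem _ hT' hT, by rw [hcomp, htz0, htz], by rw [hcomp, hts, B3]⟩
  have key6 : ∃ x ∈ Q ⊔ Q', x * z * x⁻¹ = s ∧ x * s * x⁻¹ = z :=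
    ⟨t * t' * t, Subgroup.mul_mem _ (Subgroup.mul_mem _ hT hT') hT,
      by rw [hcomp, hcomp, htz0, htz, A3], by rw [hcomp, hcomp, hts, B3, htz0]⟩
  rcases hmem u hu with rfl | rfl | rfl | rfl <;> rcases hmem v hv with rfl | rfl | rfl | rfl
  all_goals first
    | exact absurd rfl hu1
    | exact absurd rfl hv1
    | exact absurd rfl huv
    | exact key1
    | exact key2
    | exact key3
    | exact key4
    | exact key5
    | exact key6

/-- Let G be a finite group and let z be an involution of G such that Q, the generalized Fitting subgroup of the centralizer C of z, is a 2-group of symplectic type (every characteristic abelian subgroup of Q is cyclic); suppose every element of Q has order dividing 4. Let g ∈ G with z' = g z g⁻¹ ≠ z and z' ∈ Q. Then z lies in the conjugate g Q g⁻¹, and the subgroup X generated by Q and g Q g⁻¹ induces every automorphism of the four-group generated by z and z': for any two distinct non-identity elements u, v of that four-group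 there is x ∈ X with x z x⁻¹ = u and x z' x⁻¹ = v. -/
theorem result {G : Type*} [Group G] [Finite G] (z : G) (hz : orderOf z = 2) (hQ : Cfsg.IsOfSymplecticType ↥(Cfsg.generalizedFittingSubgroup ↥(Subgroup.centralizer ({z} : Set G))))
    (h4 : ∀ q ∈ (Cfsg.generalizedFittingSubgroup ↥(Subgroup.centralizer ({z} : Set G))).map (Subgroup.centralizer ({z} : Set G)).subtype, q ^ 4 = 1) (g : G) (hne : g * z * g⁻¹ ≠ z) (hin : g * z * g⁻¹ ∈ (Cfsg.generalizedFittingSubgroup ↥(Subgroup.centralizer ({z} : Set G))).map (Subgroup.centralizer ({z} : Set G)).subtype) :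
    z ∈ ((Cfsg.generalizedFittingSubgroup ↥(Subgroup.centralizer ({z} : Set G))).map (Subgroup.centralizer ({z} : Set G)).subtype).map (MulAut.conj g).toMonoidHom ∧
      ∀ u ∈ Subgroup.closure ({z, g * z * g⁻¹} : Set G), ∀ v ∈ Subgroup.closure ({z, g * z * g⁻¹} : Set G),
        u ≠ 1 → v ≠ 1 → u ≠ v →
          ∃ x ∈ (Cfsg.generalizedFittingSubgroup ↥(Subgroup.centralizer ({z} : Set G))).map (Subgroup.centralizer ({z} : Set G)).subtype ⊔ ((Cfsg.generalizedFittingSubgroup ↥(Subgroup.centralizer ({z} : Set G))).map (Subgroup.centralizer ({z} : Set G)).subtype).map (MulAut.conj g).toMonoidHom, x * z * x⁻¹ = u ∧ x * (g * z * g⁻¹) * x⁻¹ = v := by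
  have hS := symp_of z hz hQ h4
  have hmem := mem_conj hS hin hne
  exact ⟨hmem, four_group hS (hS.conj g) hin hmem hne⟩

end Cfsg.Agent.S1774
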