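import Cfsg.Statements.S1775
import Cfsg.Agent.Lib.BalanceB

set_option autoImplicit false
open Cfsg

namespace Cfsg.Agent.S1775

open Cfsg.Agent.Lib.PComp Cfsg.Agent.Lib.PComp2 Cfsg.Agent.Lib.LocalCore Cfsg.Agent.Lib.LocalCore2
open scoped commutatorElement

set_option maxHeartbeats 400000 in
/-- The abstract form. -/
theorem abs_main {Y : Type*} [Group Y] [Finite Y] (hB : HasBProperty (Y ⧸ oddCore Y)) (x : Y) (hx : orderOf x = 2)
    {A : Type*} [Group A] [Finite A] (ι : A →* Y) (hι : Function.Injective ι)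
    (hAx : ∀ a, ι a * x = x * ι a)
    (hnorm : ∀ w ∈ Subgroup.centralizer ({x} : Set Y), ∀ a, ∃ a', w * ι a * w⁻¹ = ι a')
    (J : Subgroup A) (hJ : IsPComponent 2 J) :
    IsComponent (((J.map ι).map (QuotientGroup.mk' (oddCore Y))).subgroupOf
        (Subgroup.centralizer ({QuotientGroup.mk' (oddCore Y) x} : Set (Y ⧸ oddCore Y)))) ∧
      ∀ E : Subgroup Y, E ≤ Subgroup.centralizer ({x} : Set Y) → Odd (Nat.card E) →
        (∀ j ∈ J.map ι, ∀ e ∈ E, j * e * j⁻¹ ∈ E) → ⁅J.map ι, E⁆ ≤ oddCore Y := by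
  classical
  obtain ⟨π, hπ⟩ : ∃ π, π = QuotientGroup.mk' (oddCore Y) := ⟨_, rfl⟩
  rw [← hπ]
  obtain ⟨C, hC⟩ : ∃ C, C = Subgroup.centralizer ({π x} : Set (Y ⧸ oddCore Y)) := ⟨_, rfl⟩
  rw [← hC]
  obtain ⟨W, hW⟩ : ∃ W, W = Subgroup.centralizer ({x} : Set Y) := ⟨_, rfl⟩
  rw [← hW] at hnorm ⊢
  have memW : ∀ w, w ∈ W ↔ w * x = x * w := by
    intro w
    rw [hW, Subgroup.mem_centralizer_singleton_iff]
  have memC : ∀ q, q ∈ C ↔ q * π x = π x * q := by
    intro q
    rw [hC, Subgroup.mem_centralizer_singleton_iff]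
  have hπW : ∀ w, w ∈ W → π w ∈ C := by
    intro w hw
    rw [memC, ← map_mul, ← map_mul, (memW w).mp hw]
  have hodd : ¬ 2 ∣ Nat.card (oddCore Y) := by
    have h1 := Cfsg.Agent.Lib.PCore.card_pPrimeCore_coprime (G := Y) 2
    intro h2
    have h3 := Nat.eq_one_of_dvd_coprimes h1 h2 (dvd_refl 2)
    omega
  have hx2 : x ^ 2 = 1 := by
    rw [← hx]
    exact pow_orderOf_eq_one x
  -- the surjection
  obtain ⟨φ, hφ⟩ : ∃ φ : ↥W →* ↥C, ∀ w : ↥W, ((φ w : ↥C) : Y ⧸ oddCore Y) = π w :=
    ⟨(π.comp W.subtype).codRestrict C (fun w => hπW w w.2), fun w => rfl⟩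
  have hφsurj : Function.Surjective φ := by
    rintro ⟨q, hq⟩
    have hπs : Function.Surjective π := by
      rw [hπ]
      exact QuotientGroup.mk'_surjective _
    obtain ⟨k, rfl⟩ := hπs q
    have hker : ∀ z, π z = 1 ↔ z ∈ oddCore Y := by
      intro z
      rw [hπ]
      exact QuotientGroup.eq_one_iff z
    have hcomm := (memC _).mp hq
    have hk : k⁻¹ * (x * k * x⁻¹) ∈ oddCore Y := by
      rw [← hker, map_mul, map_mul, map_mul, map_inv, map_inv]
      have h1 : π x * π k * (π x)⁻¹ = π k := by rw [← hcomm]; group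
      rw [h1]
      group
    obtain ⟨o, ho, hfix⟩ := exists_centralizing_mul (oddCore Y) hodd x k hx2 (by
      intro o ho
      have h2 : k⁻¹ * (x * (k * o) * x⁻¹) = (k⁻¹ * (x * k * x⁻¹)) * (x * o * x⁻¹) := by group
      rw [h2]
      exact (oddCore Y).mul_mem hk ((inferInstance : (oddCore Y).Normal).conj_mem o ho x))
    refine ⟨⟨k * o, ?_⟩, ?_⟩
    · rw [memW]
      calc k * o * x = (x * (k * o) * x⁻¹) * x := by rw [hfix]
        _ = x * (k * o) := by group
    · apply Subtype.ext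
      rw [hφ]
      show π (k * o) = π k
      rw [map_mul, (hker o).mpr ho, mul_one]
  -- the map from the 2-component
  have hιW : ∀ a, ι a ∈ W := fun a => (memW _).mpr (hAx a)
  obtain ⟨ι₁, hι₁⟩ : ∃ ι₁ : A →* ↥W, ∀ a, ((ι₁ a : ↥W) : Y) = ι a := ⟨ι.codRestrict W hιW, fun a => rfl⟩
  have hrn : ι₁.range.Normal := by
    refine ⟨?_⟩
    rintro _ ⟨a, rfl⟩ w
    obtain ⟨a', ha'⟩ := hnorm w w.2 a
    refine ⟨a', ?_⟩
    apply Subtype.ext
    rw [hι₁, ← ha', Subgroup.coe_mul, Subgroup.coe_mul, hι₁]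
    simp
  have hJ₁ : (J.map ι₁).IsSubnormal := by
    have h1 : (J.map ι₁.rangeRestrict).IsSubnormal := hJ.1.map (MonoidHom.rangeRestrict_surjective ι₁)
    have h2 := h1.trans' hrn.isSubnormal
    have h3 : (J.map ι₁.rangeRestrict).map ι₁.range.subtype = J.map ι₁ := by
      rw [Subgroup.map_map]
      rfl
    rwa [h3] at h2
  obtain ⟨ρ, hρdef⟩ : ∃ ρ : ↥J →* ↥C, ρ = φ.comp (ι₁.comp J.subtype) := ⟨_, rfl⟩
  have hρ : ∀ j : ↥J, ((ρ j : ↥C) : Y ⧸ oddCore Y) = π (ι j) := by
    intro j
    rw [hρdef]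
    show ((φ (ι₁ j) : ↥C) : Y ⧸ oddCore Y) = _
    rw [hφ, hι₁]
  have hrng : ρ.range = (J.map ι₁).map φ := by
    rw [hρdef, MonoidHom.range_comp, MonoidHom.range_comp, Subgroup.range_subtype]
  have hsub : ρ.range.IsSubnormal := by
    rw [hrng]
    exact hJ₁.map hφsurj
  have h2J : 2 ∣ Nat.card ↥J := pc_dvd_card Nat.prime_two hJ
  have hne : ρ.range ≠ ⊥ := by
    intro hb
    obtain ⟨j, hj⟩ := exists_prime_orderOf_dvd_card' (G := ↥J) 2 h2J
    have h1 : ρ j = 1 := by
      have h2 : ρ j ∈ ρ.range := ⟨j, rfl⟩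
      rw [hb] at h2
      exact h2
    have h3 : π (ι j) = 1 := by
      rw [← hρ, h1]
      rfl
    have h4 : ι j ∈ oddCore Y := by
      rw [hπ] at h3
      exact (QuotientGroup.eq_one_iff _).mp h3
    have h5 := Cfsg.Agent.Lib.LocalBalance.orderOf_coprime_of_mem_pPrimeCore h4
    have h6 : orderOf (ι j) = 2 := by
      rw [orderOf_injective ι hι]
      have h7 : orderOf ((j : A)) = orderOf j := Subgroup.orderOf_coe j
      rw [h7]
      exact hj
    rw [h6] at h5
    norm_num at h5
  have hP : IsPComponent 2 ρ.range := Cfsg.Agent.Lib.BalanceB.pc_of_image hJ ρ hsub hne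
  -- the image of the involution
  have hxbar : orderOf (π x) = 2 := by
    apply orderOf_eq_prime
    · rw [← map_pow, hx2, map_one]
    · intro h1
      have h4 : x ∈ oddCore Y := by
        rw [hπ] at h1
        exact (QuotientGroup.eq_one_iff _).mp h1
      have h5 := Cfsg.Agent.Lib.LocalBalance.orderOf_coprime_of_mem_pPrimeCore h4
      rw [hx] at h5
      norm_num at h5
  have hcomm : ⁅pLayer 2 ↥C, oddCore ↥C⁆ = ⊥ := by
    have h1 := hB (π x) hxbar
    have h0 : oddCore (Y ⧸ oddCore Y) = ⊥ := Cfsg.Agent.Lib.PCore.pPrimeCore_quotient_pPrimeCore (G := Y) 2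
    rw [← hC, h0, le_bot_iff] at h1
    exact (Subgroup.map_eq_bot_iff_of_injective _ C.subtype_injective).mp h1
  have hcomp : IsComponent ρ.range := by
    rw [pc_isComponent_iff_commute hP, ← le_bot_iff, ← hcomm]
    exact Subgroup.commutator_mono (pc_le_pLayer hP) le_rfl
  have hT : ((J.map ι).map π).subgroupOf C = ρ.range := by
    ext ⟨q, hq⟩
    rw [Subgroup.mem_subgroupOf]
    constructor
    · rintro ⟨_, ⟨j, hj, rfl⟩, rfl⟩
      exact ⟨⟨j, hj⟩, Subtype.ext (hρ _)⟩
    · rintro ⟨j, hj⟩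
      have h1 : ((ρ j : ↥C) : Y ⧸ oddCore Y) = q := congrArg Subtype.val hj
      rw [hρ] at h1
      exact ⟨ι j, ⟨j, j.2, rfl⟩, h1⟩
  rw [hT]
  refine ⟨hcomp, ?_⟩
  intro E hEW hEodd hEn
  obtain ⟨EC, hEC⟩ : ∃ EC, EC = (E.map π).subgroupOf C := ⟨_, rfl⟩
  have hmemEC : ∀ e ∈ E, ∀ h, (⟨π e, h⟩ : ↥C) ∈ EC := by
    intro e he h
    rw [hEC, Subgroup.mem_subgroupOf]
    exact ⟨e, he, rfl⟩
  have hconj : ∀ j : ↥J, ∀ c ∈ EC, ρ j * c * (ρ j)⁻¹ ∈ EC := by
    intro j c hc
    rw [hEC, Subgroup.mem_subgroupOf] at hc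
    obtain ⟨e, he, hce⟩ := hc
    rw [hEC, Subgroup.mem_subgroupOf]
    refine ⟨ι j * e * (ι j)⁻¹, hEn _ ⟨j, j.2, rfl⟩ e he, ?_⟩
    rw [Subgroup.coe_mul, Subgroup.coe_mul, Subgroup.coe_inv, hρ, ← hce, map_mul, map_mul, map_inv]
  have hnr : ρ.range ≤ Subgroup.normalizer (EC : Set ↥C) := by
    rintro _ ⟨j, rfl⟩
    rw [Subgroup.mem_normalizer_iff]
    intro c
    constructor
    · exact hconj j c
    · intro h
      have h1 := hconj j⁻¹ _ h
      rw [map_inv, inv_inv] at h1
      have h2 : (ρ j)⁻¹ * (ρ j * c * (ρ j)⁻¹) * ρ j = c := by group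
      rwa [h2] at h1
  rcases comp_le_or_commute_of_normalized hcomp (ρ.range ⊔ EC) EC le_sup_left le_sup_right (sup_le hnr Subgroup.le_normalizer) with h | h
  · exfalso
    have h1 : 2 ∣ Nat.card ↥ρ.range := pc_dvd_card Nat.prime_two hP
    have h2 : Nat.card ↥ρ.range ∣ Nat.card ↥EC := Subgroup.card_dvd_of_le h
    have h3 : Nat.card ↥EC ∣ Nat.card ↥(E.map π) := by
      rw [hEC]
      have h4 : Nat.card ↥((E.map π).subgroupOf C) = Nat.card ↥(((E.map π).subgroupOf C).map C.subtype) :=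
        Nat.card_congr (Subgroup.equivMapOfInjective _ _ C.subtype_injective).toEquiv
      rw [h4, Subgroup.subgroupOf_map_subtype]
      exact Subgroup.card_dvd_of_le inf_le_left
    have h5 : Nat.card ↥(E.map π) ∣ Nat.card ↥E := Subgroup.card_map_dvd _ _
    have h6 := (h1.trans h2).trans (h3.trans h5)
    obtain ⟨k, hk⟩ := hEodd
    omega
  · rw [Subgroup.commutator_le]
    intro a ha e he
    obtain ⟨j, hj, rfl⟩ := ha
    have hπe : π e ∈ C := hπW e (hEW he)
    have h1 : (⟨π e, hπe⟩ : ↥C) ∈ EC := hmemEC e he hπe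
    have h2 : ⁅ρ ⟨j, hj⟩, (⟨π e, hπe⟩ : ↥C)⁆ = 1 := by
      have h3 := Subgroup.commutator_mem_commutator (MonoidHom.mem_range.mpr ⟨⟨j, hj⟩, rfl⟩ : ρ ⟨j, hj⟩ ∈ ρ.range) h1
      rw [h] at h3
      exact h3
    have h4 := congrArg Subtype.val h2
    have h5 : π ⁅ι j, e⁆ = 1 := by
      rw [map_commutatorElement, ← hρ ⟨j, hj⟩]
      exact h4
    rw [hπ] at h5
    exact (QuotientGroup.eq_one_iff _).mp h5

/-- Let G be a finite group whose generalized Fitting subgroup is a non-abelian simple group and in which every proper section (every quotient H/N of a proper subgroup H, or of G by a nontrivial normal subgroup) has the B-property. Let x, y be commuting involutions, let D be the intersection of the 2-layer of C_G(x) with C_G(y), and let J be a 2-component of D. Write Q for the quotient of C_G(y) by its largest normal odd-order subgroup. Then (i) the image of J in Q is a component of the centralizer in Q of the image of x; and (ii) for every J-invariant subgroup E of odd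 order of C_G(x) ∩ C_G(y), the commutator subgroup [J, E] lies in the largest normal odd-order subgroup of C_G(y). -/
theorem result {G : Type*} [Group G] [Finite G]
    (hF : IsSimpleGroup ↥(Cfsg.generalizedFittingSubgroup G)) (hF' : ¬ IsMulCommutative ↥(Cfsg.generalizedFittingSubgroup G))
    (hsec : ∀ (H : Subgroup G) (N : Subgroup ↥H) [N.Normal], (H ≠ ⊤ ∨ N ≠ ⊥) → Cfsg.HasBProperty (↥H ⧸ N))
    (x y : G) (hx : orderOf x = 2) (hy : orderOf y = 2) (hxy : x * y = y * x)
    (J : Subgroup ↥((Cfsg.pLayer 2 ↥(Subgroup.centralizer ({x} : Set G))).map (Subgroup.centralizer ({x} : Set G)).subtype ⊓ Subgroup.centralizer ({y} : Set G)))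
    (hJ : Cfsg.IsPComponent 2 J) :
    Cfsg.IsComponent
        ((((J.map (Subgroup.subtype _)).subgroupOf (Subgroup.centralizer ({y} : Set G))).map (QuotientGroup.mk' (Cfsg.oddCore ↥(Subgroup.centralizer ({y} : Set G))))).subgroupOf
          (Subgroup.centralizer ({(QuotientGroup.mk' (Cfsg.oddCore ↥(Subgroup.centralizer ({y} : Set G))) ⟨x, Subgroup.mem_centralizer_singleton_iff.mpr hxy⟩ : ↥(Subgroup.centralizer ({y} : Set G)) ⧸ Cfsg.oddCore ↥(Subgroup.centralizer ({y} : Set G)))} : Set _))) ∧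
      ∀ E : Subgroup G, E ≤ Subgroup.centralizer ({x} : Set G) ⊓ Subgroup.centralizer ({y} : Set G) → Odd (Nat.card ↥E) →
        (∀ j ∈ J.map (Subgroup.subtype _), ∀ e ∈ E, j * e * j⁻¹ ∈ E) →
          ⁅J.map (Subgroup.subtype _), E⁆ ≤ (Cfsg.oddCore ↥(Subgroup.centralizer ({y} : Set G))).map (Subgroup.centralizer ({y} : Set G)).subtype := by
  classical
  have hxC : x ∈ Subgroup.centralizer ({y} : Set G) := Subgroup.mem_centralizer_singleton_iff.mpr hxy
  -- y is not central
  have hCtop : Subgroup.centralizer ({y} : Set G) ≠ ⊤ := by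
    intro htop
    have hcen : ∀ g : G, g * y = y * g := by
      intro g
      have h1 : g ∈ Subgroup.centralizer ({y} : Set G) := by rw [htop]; trivial
      exact Subgroup.mem_centralizer_singleton_iff.mp h1
    have hnorm : (Subgroup.zpowers y).Normal := by
      refine ⟨?_⟩
      rintro _ ⟨k, rfl⟩ g
      refine ⟨k, ?_⟩
      simp only
      have h2 : g * y ^ k * g⁻¹ = y ^ k := by
        have h3 : Commute g (y ^ k) := (show Commute g y from hcen g).zpow_right k
        rw [h3.eq, mul_inv_cancel_right]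
      rw [h2]
    have hnil : Group.IsNilpotent ↥(Subgroup.zpowers y) := by
      letI : CommGroup ↥(Subgroup.zpowers y) :=
        { (inferInstance : Group ↥(Subgroup.zpowers y)) with
          mul_comm := by
            rintro ⟨_, a, rfl⟩ ⟨_, b, rfl⟩
            apply Subtype.ext
            exact zpow_mul_comm y a b }
      exact CommGroup.isNilpotent
    have hyF : y ∈ generalizedFittingSubgroup G := by
      have h4 : Subgroup.zpowers y ≤ fittingSubgroup G := le_sSup ⟨hnorm, hnil⟩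
      exact (le_sup_right : fittingSubgroup G ≤ generalizedFittingSubgroup G) (h4 (Subgroup.mem_zpowers y))
    have hZ : Subgroup.center ↥(generalizedFittingSubgroup G) = ⊥ := by
      rcases hF.eq_bot_or_eq_top_of_normal _ (inferInstance : (Subgroup.center ↥(generalizedFittingSubgroup G)).Normal) with h | h
      · exact h
      · exfalso
        apply hF'
        refine ⟨⟨fun a b => ?_⟩⟩
        have h5 : a ∈ Subgroup.center ↥(generalizedFittingSubgroup G) := by rw [h]; trivial
        exact (Subgroup.mem_center_iff.mp h5 b).symm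
    have h6 : (⟨y, hyF⟩ : ↥(generalizedFittingSubgroup G)) ∈ Subgroup.center ↥(generalizedFittingSubgroup G) := by
      rw [Subgroup.mem_center_iff]
      intro g
      apply Subtype.ext
      exact hcen g
    rw [hZ, Subgroup.mem_bot] at h6
    have h7 : y = 1 := congrArg Subtype.val h6
    rw [h7, orderOf_one] at hy
    omega
  have hB := hsec (Subgroup.centralizer ({y} : Set G)) (oddCore ↥(Subgroup.centralizer ({y} : Set G))) (Or.inl hCtop)
  have hDy : (Cfsg.pLayer 2 ↥(Subgroup.centralizer ({x} : Set G))).map (Subgroup.centralizer ({x} : Set G)).subtype ⊓ Subgroup.centralizer ({y} : Set G) ≤ Subgroup.centralizer ({y} : Set G) := inf_le_right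
  have hmain := abs_main hB (⟨x, hxC⟩ : ↥(Subgroup.centralizer ({y} : Set G))) (by rw [Subgroup.orderOf_mk]; exact hx)
    (Subgroup.inclusion hDy) (Subgroup.inclusion_injective hDy) ?_ ?_ J hJ
  · have hJeq : J.map (Subgroup.inclusion hDy) = (J.map (Subgroup.subtype _)).subgroupOf (Subgroup.centralizer ({y} : Set G)) := by
      ext ⟨g, hg⟩
      rw [Subgroup.mem_subgroupOf]
      constructor
      · rintro ⟨j, hj, hje⟩
        have h1 := congrArg Subtype.val hje
        exact ⟨j, hj, h1⟩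
      · rintro ⟨j, hj, hje⟩
        refine ⟨j, hj, Subtype.ext hje⟩
    rw [hJeq] at hmain
    refine ⟨hmain.1, ?_⟩
    intro E hE hEodd hEn
    have hJle : J.map (Subgroup.subtype _) ≤ Subgroup.centralizer ({y} : Set G) :=
      (Subgroup.map_subtype_le J).trans inf_le_right
    have hEle : E ≤ Subgroup.centralizer ({y} : Set G) := hE.trans inf_le_right
    have hEcard : Nat.card ↥(E.subgroupOf (Subgroup.centralizer ({y} : Set G))) = Nat.card ↥E :=
      Nat.card_congr (Subgroup.subgroupOfEquivOfLe hEle).toEquiv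
    have h2 := hmain.2 (E.subgroupOf (Subgroup.centralizer ({y} : Set G))) ?_ (by rw [hEcard]; exact hEodd) ?_
    · have h3 := Subgroup.map_mono (f := (Subgroup.centralizer ({y} : Set G)).subtype) h2
      rw [Subgroup.map_commutator, Subgroup.subgroupOf_map_subtype, Subgroup.subgroupOf_map_subtype,
        inf_eq_left.mpr hJle, inf_eq_left.mpr hEle] at h3
      exact h3
    · intro e he
      rw [Subgroup.mem_subgroupOf] at he
      have h4 : (e : G) ∈ Subgroup.centralizer ({x} : Set G) := (hE he).1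
      rw [Subgroup.mem_centralizer_singleton_iff] at h4 ⊢
      apply Subtype.ext
      exact h4
    · intro j hj e he
      rw [Subgroup.mem_subgroupOf] at hj he ⊢
      exact hEn j hj e he
  · intro a
    apply Subtype.ext
    have h1 : (a : G) ∈ Subgroup.centralizer ({x} : Set G) := by
      obtain ⟨l, -, hl⟩ := a.2.1
      rw [← hl]
      exact l.2
    exact Subgroup.mem_centralizer_singleton_iff.mp h1
  · intro w hw a
    have hw' : (w : G) * x = x * (w : G) := by
      have h1 := Subgroup.mem_centralizer_singleton_iff.mp hw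
      exact congrArg Subtype.val h1
    have hwx : (w : G) ∈ Subgroup.centralizer ({x} : Set G) := Subgroup.mem_centralizer_singleton_iff.mpr hw'
    obtain ⟨l, hl, hla⟩ := a.2.1
    have hn := (Cfsg.Agent.Lib.ExtTwoLayer.pLayer_normal (X := ↥(Subgroup.centralizer ({x} : Set G))) 2).conj_mem l hl ⟨w, hwx⟩
    refine ⟨⟨(w : G) * a * (w : G)⁻¹, ⟨_, hn, ?_⟩, ?_⟩, ?_⟩
    · rw [← hla]
      rfl
    · exact (Subgroup.centralizer ({y} : Set G)).mul_mem ((Subgroup.centralizer ({y} : Set G)).mul_mem w.2 a.2.2)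
        ((Subgroup.centralizer ({y} : Set G)).inv_mem w.2)
    · apply Subtype.ext
      rfl

end Cfsg.Agent.S1775
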