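import Mathlib
import Cfsg.Statements.S1781
import Cfsg.Agent.Lib.TISubgroups

set_option autoImplicit false
open Cfsg

namespace Cfsg.Agent.S1781

open Cfsg.Agent.Lib.TISubgroups

/-- Let A be an abelian 2-subgroup of the finite group G such that every conjugate of A equals A or meets A trivially, and let g ∈ G with g A g⁻¹ ≠ A. Then either the subgroup of those elements of A that normalize g A g⁻¹ is an elementary abelian 2-group, or A and g A g⁻¹ commute elementwise. -/
theorem result {G : Type*} [Group G] [Finite G] (A : Subgroup G)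
    (hA2 : IsPGroup 2 ↥A) (hAa : IsMulCommutative ↥A)
    (hti : ∀ h : G, A.map (MulAut.conj h).toMonoidHom = A ∨ A.map (MulAut.conj h).toMonoidHom ⊓ A = ⊥)
    (g : G) (hg : A.map (MulAut.conj g).toMonoidHom ≠ A) :
    Cfsg.IsElementaryAbelian 2 (A ⊓ Subgroup.normalizer ((A.map (MulAut.conj g).toMonoidHom : Subgroup G) : Set G)) ∨
      ⁅A, A.map (MulAut.conj g).toMonoidHom⁆ = ⊥ := by
  classical
  have hfact : Fact (Nat.Prime 2) := ⟨Nat.prime_two⟩
  set B : Subgroup G := A.map (MulAut.conj g).toMonoidHom with hB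
  have hBA : B ⊓ A = ⊥ := (hti g).resolve_left hg
  have hAB : A ⊓ B = ⊥ := by rw [inf_comm]; exact hBA
  have hcomm : ∀ a ∈ A, ∀ b ∈ A, a * b = b * a := by
    intro a ha b hb
    have := hAa.is_comm.comm ⟨a, ha⟩ ⟨b, hb⟩
    exact congrArg Subtype.val this
  have hcardB : Nat.card ↥B = Nat.card ↥A := by
    rw [hB]
    exact Subgroup.card_map_of_injective (MulAut.conj g).injective
  have hB2 : IsPGroup 2 ↥B := hA2.map (MulAut.conj g).toMonoidHom
  have hBa : IsMulCommutative ↥B := by
    rw [hB]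
    infer_instance
  -- an element of A commuting with a nontrivial element of `A`... : TI consequence
  have hnormA : ∀ x : G, ∀ a ∈ A, a ≠ 1 → x * a * x⁻¹ = a → ∀ a' ∈ A, x * a' * x⁻¹ ∈ A := by
    intro x a ha ha1 hxa a' ha'
    have hmem : a ∈ A.map (MulAut.conj x).toMonoidHom ⊓ A := ⟨⟨a, ha, hxa⟩, ha⟩
    have hconj : A.map (MulAut.conj x).toMonoidHom = A := by
      rcases hti x with h | h
      · exact h
      · exfalso
        rw [h] at hmem
        exact ha1 (Subgroup.mem_bot.mp hmem)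
    rw [← hconj]
    exact ⟨a', ha', rfl⟩
  by_cases hall : ∀ a ∈ A ⊓ Subgroup.normalizer (B : Set G), a ^ 2 = 1
  · left
    refine ⟨?_, hall⟩
    refine ⟨⟨?_⟩⟩
    intro x y
    exact Subtype.ext (hcomm x x.2.1 y y.2.1)
  · right
    push Not at hall
    obtain ⟨a, ⟨haA, haN⟩, ha2⟩ := hall
    have hanorm : ∀ b ∈ B, a * b * a⁻¹ ∈ B := by
      intro b hb
      exact (Subgroup.mem_normalizer_iff.mp haN b).1 hb
    obtain ⟨k, hk⟩ := IsPGroup.iff_orderOf.mp hA2 ⟨a, haA⟩
    have hk' : orderOf a = 2 ^ k := by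
      rw [← hk]
      exact (Subgroup.orderOf_mk a haA).symm
    -- a centralizes B
    have hfix : ∀ b ∈ B, a * b * a⁻¹ = b := by
      apply conj_fixed_of_sq B hB2 hBa a haN k hk'
      intro b hb hb2
      -- `b` normalizes `A`, as it commutes with `a ^ 2 ≠ 1`
      have ha2A : a ^ 2 ∈ A := A.pow_mem haA 2
      have hba2 : b * a ^ 2 * b⁻¹ = a ^ 2 := by
        have h1 : a ^ 2 * b = b * a ^ 2 := by
          calc a ^ 2 * b = a ^ 2 * b * (a ^ 2)⁻¹ * a ^ 2 := by group
            _ = b * a ^ 2 := by rw [hb2]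
        calc b * a ^ 2 * b⁻¹ = a ^ 2 * b * b⁻¹ := by rw [h1]
          _ = a ^ 2 := by group
      have hbnorm := hnormA b (a ^ 2) ha2A ha2 hba2
      -- the commutator lies in A ⊓ B
      have h1 : a * b * a⁻¹ * b⁻¹ ∈ B := B.mul_mem (hanorm b hb) (B.inv_mem hb)
      have h2 : a * b * a⁻¹ * b⁻¹ ∈ A := by
        have : a * b * a⁻¹ * b⁻¹ = a * (b * a⁻¹ * b⁻¹) := by group
        rw [this]
        exact A.mul_mem haA (hbnorm _ (A.inv_mem haA))
      have h3 : a * b * a⁻¹ * b⁻¹ = 1 := by
        have : a * b * a⁻¹ * b⁻¹ ∈ A ⊓ B := ⟨h2, h1⟩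
        rw [hAB] at this
        exact Subgroup.mem_bot.mp this
      calc a * b * a⁻¹ = a * b * a⁻¹ * b⁻¹ * b := by group
        _ = b := by rw [h3, one_mul]
    have ha1 : a ≠ 1 := by
      rintro rfl
      exact ha2 (one_pow 2)
    -- B normalizes A
    have hBN : B ≤ Subgroup.normalizer (A : Set G) := by
      apply Subgroup.le_normalizer_iff.mpr
      intro b hb a' ha'
      refine hnormA b a haA ha1 ?_ a' ha'
      have h1 := hfix b hb
      have h2 : a * b = b * a := by
        calc a * b = a * b * a⁻¹ * a := by group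
          _ = b * a := by rw [h1]
      calc b * a * b⁻¹ = a * b * b⁻¹ := by rw [h2]
        _ = a := by group
    exact Cfsg.Agent.S1757.result 2 A B hA2 hB2 hti (ti_map_conj A hti g) hcardB.ge hAB hBN

end Cfsg.Agent.S1781
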