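import Mathlib
import Cfsg.Statements.S1783
import Cfsg.Agent.Lib.TISubgroups2
import Cfsg.Agent.Lib.BurnsideAut
import Cfsg.Agent.Lib.LocalCore
import Cfsg.Agent.Lib.PCore
import Cfsg.Agent.Lib.CharPLocal

set_option autoImplicit false
open Cfsg
open Cfsg.Agent.Lib.TISubgroups2
open Cfsg.Agent.S1782 (mem_map_conj_iff)

namespace Cfsg.Agent.S1783

/-- Elements acting trivially on `Q / Φ(Q)`, for `Q` normal in `X`. -/
def frattiniKernel {X : Type*} [Group X] (Q : Subgroup X) [Q.Normal] : Subgroup X where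
  carrier := {x | ∀ q : ↥Q, (MulAut.conjNormal x : MulAut ↥Q) q * q⁻¹ ∈ frattini ↥Q}
  mul_mem' := by
    intro a b ha hb q
    rw [map_mul, MulAut.mul_apply]
    have h1 : (MulAut.conjNormal a : MulAut ↥Q) ((MulAut.conjNormal b : MulAut ↥Q) q) * q⁻¹ =
        ((MulAut.conjNormal a : MulAut ↥Q) ((MulAut.conjNormal b : MulAut ↥Q) q) *
          ((MulAut.conjNormal b : MulAut ↥Q) q)⁻¹) * ((MulAut.conjNormal b : MulAut ↥Q) q * q⁻¹) := by
      group
    rw [h1]
    exact mul_mem (ha _) (hb q)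
  one_mem' := by
    intro q
    rw [map_one, MulAut.one_apply, mul_inv_cancel]
    exact one_mem _
  inv_mem' := by
    intro a ha q
    have h1 := ha ((MulAut.conjNormal a⁻¹ : MulAut ↥Q) q)
    have h2 : (MulAut.conjNormal a : MulAut ↥Q) ((MulAut.conjNormal a⁻¹ : MulAut ↥Q) q) = q := by
      rw [← MulAut.mul_apply, ← map_mul, mul_inv_cancel, map_one, MulAut.one_apply]
    rw [h2] at h1
    have h3 := inv_mem h1
    rw [mul_inv_rev, inv_inv] at h3
    exact h3

theorem mem_frattiniKernel {X : Type*} [Group X] (Q : Subgroup X) [Q.Normal] (x : X) :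
    x ∈ frattiniKernel Q ↔ ∀ q : ↥Q, (MulAut.conjNormal x : MulAut ↥Q) q * q⁻¹ ∈ frattini ↥Q :=
  Iff.rfl

instance frattiniKernel_normal {X : Type*} [Group X] (Q : Subgroup X) [Q.Normal] :
    (frattiniKernel Q).Normal := by
  constructor
  intro k hk g q
  let τ : MulAut ↥Q := MulAut.conjNormal g
  have hchar : ∀ w ∈ frattini ↥Q, τ w ∈ frattini ↥Q := by
    intro w hw
    have := (Subgroup.characteristic_iff_map_le (H := frattini ↥Q)).mp inferInstance τ
    exact this ⟨w, hw, rfl⟩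
  have h1 := hchar _ (hk (τ⁻¹ q))
  have h2 : τ ((MulAut.conjNormal k : MulAut ↥Q) (τ⁻¹ q) * (τ⁻¹ q)⁻¹) =
      (MulAut.conjNormal (g * k * g⁻¹) : MulAut ↥Q) q * q⁻¹ := by
    rw [map_mul, map_inv, map_mul, map_mul, map_inv, MulAut.mul_apply, MulAut.mul_apply]
    simp only [MulAut.apply_inv_self]
    rfl
  rw [← h2]
  exact h1

/-- The kernel of the action on `Q/Φ(Q)` lies in `Q` if `C_X(Q) ≤ Q` and `Q` is a 2-group. -/
theorem frattiniKernel_isPGroup {X : Type*} [Group X] [Finite X] (Q : Subgroup X) [Q.Normal]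
    (hQ : IsPGroup 2 ↥Q) (hC : Subgroup.centralizer (Q : Set X) ≤ Q) :
    IsPGroup 2 ↥(frattiniKernel Q) := by
  have hfact : Fact (Nat.Prime 2) := ⟨Nat.prime_two⟩
  apply Cfsg.Agent.Lib.CharPLocal.isPGroup_of_forall_coprime
  intro y hy hcop
  by_contra hy1
  have hord : orderOf y ≠ 1 := fun h => hy1 (orderOf_eq_one_iff.mp h)
  obtain ⟨r, hr, hrd⟩ := Nat.exists_prime_and_dvd hord
  have hr2 : r ≠ 2 := by
    rintro rfl
    exact Nat.Prime.ne_one Nat.prime_two
      (Nat.Coprime.eq_one_of_dvd (Nat.Coprime.symm hcop) hrd)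
  set y' := y ^ (orderOf y / r) with hy'
  have hy'ord : orderOf y' = r := orderOf_pow_orderOf_div (orderOf_pos y).ne' hrd
  have hy'K : y' ∈ frattiniKernel Q := pow_mem hy _
  have hτ : (MulAut.conjNormal y' : MulAut ↥Q) ^ r = 1 := by
    rw [← map_pow, ← hy'ord, pow_orderOf_eq_one, map_one]
  have h1 := Cfsg.Agent.Lib.BurnsideAut.aut_eq_one_of_trivial_on_frattini hQ hr hr2 _ hτ hy'K
  have hcen : y' ∈ Subgroup.centralizer (Q : Set X) := by
    rw [Subgroup.mem_centralizer_iff]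
    intro q hq
    have h2 := congrArg (fun τ : MulAut ↥Q => ((τ ⟨q, hq⟩ : ↥Q) : X)) h1
    simp only [MulAut.conjNormal_apply, MulAut.one_apply] at h2
    calc q * y' = y' * q * y'⁻¹ * y' := by rw [h2]
      _ = y' * q := by group
  have hy'Q := hC hcen
  obtain ⟨n, hn⟩ := IsPGroup.iff_orderOf.mp hQ ⟨y', hy'Q⟩
  rw [Subgroup.orderOf_mk, hy'ord] at hn
  have : r ∣ 2 ^ n := by rw [hn]
  exact hr2 ((Nat.prime_dvd_prime_iff_eq hr Nat.prime_two).mp (hr.dvd_of_dvd_pow this))

/-- Let X be a finite group whose generalized Fitting subgroup equals its largest normal 2-subgroup Q, and let A be an abelian 2-subgroup of X such that every conjugate of A equals A or meets A trivially. Let B be the subgroup generated by the squares of the elements of A. Then B lies in Q, and if B is not an elementary abelian 2-group then the normal closure of B in X is commutative. -/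
theorem result {X : Type*} [Group X] [Finite X]
    (hX : Cfsg.generalizedFittingSubgroup X = Cfsg.pCore 2 X) (A : Subgroup X) (hA2 : IsPGroup 2 ↥A) (hAa : IsMulCommutative ↥A)
    (hti : ∀ h : X, A.map (MulAut.conj h).toMonoidHom = A ∨ A.map (MulAut.conj h).toMonoidHom ⊓ A = ⊥) :
    Subgroup.closure ((fun a : X => a ^ 2) '' (A : Set X)) ≤ Cfsg.pCore 2 X ∧
      (¬ Cfsg.IsElementaryAbelian 2 (Subgroup.closure ((fun a : X => a ^ 2) '' (A : Set X))) →
        IsMulCommutative ↥(Subgroup.normalClosure ((fun a : X => a ^ 2) '' (A : Set X)))) := by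
  classical
  have hfact : Fact (Nat.Prime 2) := ⟨Nat.prime_two⟩
  have hQ2 : IsPGroup 2 ↥(pCore 2 X) := Cfsg.Agent.Lib.PCore.isPGroup_pCore 2
  have hCQ : Subgroup.centralizer (pCore 2 X : Set X) ≤ pCore 2 X := by
    have := Cfsg.Agent.Lib.LocalCore.centralizer_generalizedFitting_le (G := X)
    rwa [hX] at this
  have hcommA : ∀ a ∈ A, ∀ b ∈ A, a * b = b * a := by
    intro a ha b hb
    have := hAa.is_comm.comm ⟨a, ha⟩ ⟨b, hb⟩
    exact congrArg Subtype.val this
  have hcard : ∀ g : X, Nat.card ↥(A.map (MulAut.conj g).toMonoidHom) = Nat.card ↥A := fun g =>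
    Subgroup.card_map_of_injective (MulAut.conj g).injective
  -- Part 1
  have hpart1 : ∀ a ∈ A, a ^ 2 ∈ pCore 2 X := by
    intro a ha
    by_cases hall : ∀ b ∈ A, b ^ 2 = 1
    · rw [hall a ha]
      exact one_mem _
    push Not at hall
    obtain ⟨b₀, hb₀, hb₀2⟩ := hall
    -- the conjugates of `A` under `QA`
    have hP : IsPGroup 2 ↥(pCore 2 X ⊔ A) := IsPGroup.to_sup_of_normal_left hQ2 hA2
    have hkey := ti_commute_of_subgroup (pCore 2 X ⊔ A) hP
      {R | ∃ s ∈ pCore 2 X ⊔ A, R = A.map (MulAut.conj s).toMonoidHom} ?_ ?_ ?_ ?_ ?_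
    · have hcomm : ∀ q ∈ pCore 2 X, a * (q * a * q⁻¹) = (q * a * q⁻¹) * a := by
        intro q hq
        by_cases hd : A.map (MulAut.conj q).toMonoidHom = A
        · have hmem : q * a * q⁻¹ ∈ A := by
            rw [← hd]
            exact ⟨a, ha, rfl⟩
          exact hcommA _ ha _ hmem
        · have hqP : q ∈ pCore 2 X ⊔ A := (le_sup_left : pCore 2 X ≤ pCore 2 X ⊔ A) hq
          have h1 : A.map (MulAut.conj (1 : X)).toMonoidHom = A := by
            ext x
            rw [mem_map_conj_iff]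
            simp
          apply hkey A ⟨1, one_mem _, h1.symm⟩ (A.map (MulAut.conj q).toMonoidHom) ⟨q, hqP, rfl⟩
            (Ne.symm hd) a ha
          exact ⟨a, ha, rfl⟩
      have hK : a ^ 2 ∈ frattiniKernel (pCore 2 X) := by
        rw [mem_frattiniKernel]
        intro q
        -- c = [a, q]
        have hqinv : (q : X)⁻¹ ∈ pCore 2 X := inv_mem q.2
        have hc1 : a * q * a⁻¹ * (q : X)⁻¹ ∈ pCore 2 X := by
          have hn : a * q * a⁻¹ ∈ pCore 2 X := (inferInstance : (pCore 2 X).Normal).conj_mem _ q.2 a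
          exact mul_mem hn hqinv
        let c : ↥(pCore 2 X) := ⟨a * q * a⁻¹ * (q : X)⁻¹, hc1⟩
        have hc2 := Cfsg.Agent.Lib.Frat.pow_mem_frattini (p := 2) hQ2 c
        have hac : a * (c : X) = (c : X) * a := by
          have h2 := hcomm (q : X) q.2
          have h3 : (c : X) = a * ((q : X) * a * (q : X)⁻¹)⁻¹ := by
            change a * q * a⁻¹ * (q : X)⁻¹ = _
            group
          rw [h3]
          have h4 : Commute a ((q : X) * a * (q : X)⁻¹) := h2
          exact (Commute.refl a).mul_right h4.inv_right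
        have heq : (MulAut.conjNormal (a ^ 2) : MulAut ↥(pCore 2 X)) q * q⁻¹ = c ^ 2 := by
          apply Subtype.ext
          rw [Subgroup.coe_mul, MulAut.conjNormal_apply, Subgroup.coe_pow]
          have h5 : a * q * a⁻¹ = (c : X) * q := by
            change a * q * a⁻¹ = a * q * a⁻¹ * (q : X)⁻¹ * q
            group
          have h6 : a ^ 2 * q * (a ^ 2)⁻¹ = a * (a * q * a⁻¹) * a⁻¹ := by
            simp only [pow_two, mul_inv_rev, mul_assoc]
          rw [h6, h5]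
          have h7 : a * ((c : X) * q) * a⁻¹ = (a * (c : X) * a⁻¹) * (a * q * a⁻¹) := by group
          rw [h7, h5]
          have h8 : a * (c : X) * a⁻¹ = c := by rw [hac]; group
          rw [h8]
          simp only [pow_two, Subgroup.coe_inv, mul_assoc, mul_inv_cancel, mul_one]
        rw [heq]
        exact hc2
      have hKP := frattiniKernel_isPGroup (pCore 2 X) hQ2 hCQ
      exact Cfsg.Agent.Lib.PCore.le_pCore inferInstance hKP hK
    · rintro _ ⟨s, hs, rfl⟩ _ ⟨x, hx, rfl⟩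
      have hxP : x ∈ pCore 2 X ⊔ A := (le_sup_right : A ≤ pCore 2 X ⊔ A) hx
      exact mul_mem (mul_mem hs hxP) (inv_mem hs)
    · rintro s hs _ ⟨t, ht, rfl⟩
      refine ⟨s * t, mul_mem hs ht, ?_⟩
      rw [Subgroup.map_map]
      congr 1
      ext x
      change s * (t * x * t⁻¹) * s⁻¹ = (s * t) * x * (s * t)⁻¹
      group
    · rintro _ ⟨s, _, rfl⟩
      refine ⟨s * b₀ * s⁻¹, ⟨b₀, hb₀, rfl⟩, ?_⟩
      rw [conj_pow]
      intro h
      exact hb₀2 (conj_eq_one_iff.mp h)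
    · rintro _ ⟨s, _, rfl⟩ _ ⟨t, _, rfl⟩
      rw [hcard, hcard]
    · rintro _ ⟨s, _, rfl⟩ _ ⟨t, _, rfl⟩
      exact ti_two A hti s t
  have hBQ : Subgroup.closure ((fun a : X => a ^ 2) '' (A : Set X)) ≤ pCore 2 X := by
    apply (Subgroup.closure_le _).mpr
    rintro _ ⟨a, ha, rfl⟩
    exact hpart1 a ha
  refine ⟨hBQ, ?_⟩
  intro hnot
  have hBA : Subgroup.closure ((fun a : X => a ^ 2) '' (A : Set X)) ≤ A := by
    apply (Subgroup.closure_le _).mpr
    rintro _ ⟨a, ha, rfl⟩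
    exact A.pow_mem ha 2
  have hex : ∃ b ∈ Subgroup.closure ((fun a : X => a ^ 2) '' (A : Set X)), b ^ 2 ≠ 1 := by
    by_contra hall
    push Not at hall
    exact hnot ⟨⟨⟨fun x y => Subtype.ext (hcommA _ (hBA x.2) _ (hBA y.2))⟩⟩, hall⟩
  obtain ⟨b₀, hb₀, hb₀2⟩ := hex
  -- the conjugates of `B`
  have hBmap : ∀ g : X, (Subgroup.closure ((fun a : X => a ^ 2) '' (A : Set X))).map (MulAut.conj g).toMonoidHom =
      Subgroup.closure ((fun a : X => a ^ 2) '' ((A.map (MulAut.conj g).toMonoidHom : Subgroup X) : Set X)) := by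
    intro g
    rw [MonoidHom.map_closure]
    congr 1
    ext x
    constructor
    · rintro ⟨_, ⟨a, ha, rfl⟩, rfl⟩
      refine ⟨g * a * g⁻¹, ⟨a, ha, rfl⟩, ?_⟩
      change (g * a * g⁻¹) ^ 2 = g * a ^ 2 * g⁻¹
      rw [conj_pow]
    · rintro ⟨_, ⟨a, ha, rfl⟩, rfl⟩
      refine ⟨a ^ 2, ⟨a, ha, rfl⟩, ?_⟩
      change g * a ^ 2 * g⁻¹ = (g * a * g⁻¹) ^ 2
      rw [conj_pow]
  have hBleA : ∀ g : X, (Subgroup.closure ((fun a : X => a ^ 2) '' (A : Set X))).map (MulAut.conj g).toMonoidHom ≤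
      A.map (MulAut.conj g).toMonoidHom := fun g => Subgroup.map_mono hBA
  have hcommConj : ∀ g : X, ∀ x ∈ A.map (MulAut.conj g).toMonoidHom,
      ∀ y ∈ A.map (MulAut.conj g).toMonoidHom, x * y = y * x := by
    rintro g _ ⟨u, hu, rfl⟩ _ ⟨v, hv, rfl⟩
    change (g * u * g⁻¹) * (g * v * g⁻¹) = (g * v * g⁻¹) * (g * u * g⁻¹)
    have := hcommA u hu v hv
    calc (g * u * g⁻¹) * (g * v * g⁻¹) = g * (u * v) * g⁻¹ := by group
      _ = g * (v * u) * g⁻¹ := by rw [this]
      _ = (g * v * g⁻¹) * (g * u * g⁻¹) := by group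
  have hkey := ti_commute_of_subgroup (pCore 2 X) hQ2
    {R | ∃ g : X, R = (Subgroup.closure ((fun a : X => a ^ 2) '' (A : Set X))).map (MulAut.conj g).toMonoidHom} ?_ ?_ ?_ ?_ ?_
  · -- the normal closure is commutative
    apply Subgroup.isMulCommutative_closure
    intro x hx y hy
    obtain ⟨_, ⟨a, ha, rfl⟩, hax⟩ := Group.mem_conjugatesOfSet_iff.mp hx
    obtain ⟨_, ⟨b, hb, rfl⟩, hby⟩ := Group.mem_conjugatesOfSet_iff.mp hy
    obtain ⟨g, rfl⟩ := isConj_iff.mp hax
    obtain ⟨h, rfl⟩ := isConj_iff.mp hby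
    have hxm : g * a ^ 2 * g⁻¹ ∈ (Subgroup.closure ((fun a : X => a ^ 2) '' (A : Set X))).map (MulAut.conj g).toMonoidHom :=
      ⟨a ^ 2, Subgroup.subset_closure ⟨a, ha, rfl⟩, rfl⟩
    have hym : h * b ^ 2 * h⁻¹ ∈ (Subgroup.closure ((fun a : X => a ^ 2) '' (A : Set X))).map (MulAut.conj h).toMonoidHom :=
      ⟨b ^ 2, Subgroup.subset_closure ⟨b, hb, rfl⟩, rfl⟩
    by_cases hd : (Subgroup.closure ((fun a : X => a ^ 2) '' (A : Set X))).map (MulAut.conj g).toMonoidHom =
        (Subgroup.closure ((fun a : X => a ^ 2) '' (A : Set X))).map (MulAut.conj h).toMonoidHom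
    · rw [← hd] at hym
      exact hcommConj g _ (hBleA g hxm) _ (hBleA g hym)
    · exact hkey _ ⟨g, rfl⟩ _ ⟨h, rfl⟩ hd _ hxm _ hym
  · rintro _ ⟨g, rfl⟩ _ ⟨b, hb, rfl⟩
    have := (inferInstance : (pCore 2 X).Normal).conj_mem _ (hBQ hb) g
    exact this
  · rintro s _ _ ⟨t, rfl⟩
    refine ⟨s * t, ?_⟩
    rw [Subgroup.map_map]
    congr 1
    ext x
    change s * (t * x * t⁻¹) * s⁻¹ = (s * t) * x * (s * t)⁻¹
    group
  · rintro _ ⟨g, rfl⟩
    refine ⟨g * b₀ * g⁻¹, ⟨b₀, hb₀, rfl⟩, ?_⟩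
    rw [conj_pow]
    intro h
    exact hb₀2 (conj_eq_one_iff.mp h)
  · rintro _ ⟨g, rfl⟩ _ ⟨h, rfl⟩
    rw [Subgroup.card_map_of_injective (MulAut.conj g).injective,
      Subgroup.card_map_of_injective (MulAut.conj h).injective]
  · rintro _ ⟨g, rfl⟩ _ ⟨h, rfl⟩
    rcases ti_two A hti g h with h1 | h1
    · left
      rw [hBmap, hBmap, h1]
    · right
      rw [eq_bot_iff, ← h1]
      exact inf_le_inf (hBleA g) (hBleA h)

end Cfsg.Agent.S1783
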