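import Mathlib
import Cfsg.Prelude.Def_ClassificationK
import Cfsg.Prelude.Def_Transfer
import Cfsg.Agent.Lib.ExtraDual
import Cfsg.Agent.Lib.GF2Setup
import Cfsg.Agent.Lib.LocalCore

set_option autoImplicit false

namespace Cfsg.Agent.S1784

open Cfsg Cfsg.Agent.Lib.LargeExtra Cfsg.Agent.Lib.ExtraDual

variable {G : Type*} [Group G]

/-- The core argument for a subgroup `Q` of `G`. -/
theorem aux [Finite G] {Q Q₀ : Subgroup G} {z α : G} (h : ExtraAt Q z)
    (hαα : α * α = 1) (hαz : α * z = z * α) (hN : ∀ x ∈ Q, α * x * α⁻¹ ∈ Q)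
    (hnc : ¬ ∀ x ∈ Q, α * x = x * α)
    (hQ₀ : ∀ q : G, q ∈ Q₀ ↔ (q ∈ Q ∧ α * q * α⁻¹ * q⁻¹ ∈ Subgroup.zpowers z)) :
    Subgroup.closure ((fun q : G => α * q * α⁻¹ * q⁻¹) '' (Q : Set G)) =
        (Subgroup.center ↥Q₀).map Q₀.subtype ∧
      (¬ Q₀ ≤ (Q ⊓ Subgroup.centralizer ({α} : Set G)) ⊔ Subgroup.zpowers z →
        ∃ q ∈ Q, q * α * q⁻¹ = α * z) := by
  have hαi : α⁻¹ = α := inv_eq_of_mul_eq_one_left hαα
  have hzz := h.sq_eq
  have hzi := h.inv_eq
  -- generic facts on `f`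
  obtain ⟨f, hf⟩ : ∃ f : G → G, f = fun q : G => α * q * α⁻¹ * q⁻¹ := ⟨_, rfl⟩
  have hfv : ∀ q, f q = α * q * α⁻¹ * q⁻¹ := fun q => by rw [hf]
  rw [← hf]
  have hfQ : ∀ q ∈ Q, f q ∈ Q := fun q hq => by
    rw [hfv]; exact Q.mul_mem (hN q hq) (Q.inv_mem hq)
  obtain ⟨R, hRdef⟩ : ∃ R : Subgroup G, R = Subgroup.closure (f '' (Q : Set G)) := ⟨_, rfl⟩
  rw [← hRdef]
  have hfR : ∀ q ∈ Q, f q ∈ R := fun q hq => by
    rw [hRdef]; exact Subgroup.subset_closure ⟨q, hq, rfl⟩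
  have hRQ : R ≤ Q := by
    rw [hRdef, Subgroup.closure_le]
    rintro _ ⟨q, hq, rfl⟩
    exact hfQ q hq
  have hRQ₀ : R ≤ Q₀ := by
    rw [hRdef, Subgroup.closure_le]
    rintro _ ⟨q, hq, rfl⟩
    refine (hQ₀ _).mpr ⟨hfQ q hq, ?_⟩
    -- `f (f q) = ((f q)²)⁻¹`
    have e0 : α * f q * α⁻¹ = (f q)⁻¹ := by
      rw [hfv]
      calc α * (α * q * α⁻¹ * q⁻¹) * α⁻¹ = (α * α) * q * α⁻¹ * q⁻¹ * α⁻¹ := by group
        _ = q * α⁻¹ * q⁻¹ * α⁻¹ := by rw [hαα]; group
        _ = q * α * q⁻¹ * α⁻¹ := by rw [hαi]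
        _ = (α * q * α⁻¹ * q⁻¹)⁻¹ := by group
    have e : α * f q * α⁻¹ * (f q)⁻¹ = ((f q) ^ 2)⁻¹ := by
      rw [e0, pow_two, mul_inv_rev]
    rw [e]
    rcases h.sq _ (hfQ q hq) with h1 | h1
    · rw [h1]; simp
    · rw [h1]; exact Subgroup.inv_mem _ (Subgroup.mem_zpowers _)
  -- the key adjunction
  have hadj : ∀ x ∈ Q, ∀ q ∈ Q, form (f x) q = form x (f q) := by
    intro x hx q hq
    rw [hfv, hfv]
    have hαx := hN x hx
    have hαq := hN q hq
    rw [form_mul_left h hαx (Q.inv_mem hx) hq, form_mul_right h hx hαq (Q.inv_mem hq),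
      form_inv_left h hx hq, form_inv_right h hx hq]
    congr 1
    have := form_conj α x (α * q * α⁻¹)
    rw [← this]
    congr 1
    rw [hαi]
    calc q = (α * α) * q * (α * α) := by rw [hαα]; group
      _ = α * (α * q * α) * α := by group
  -- `Q₀` is the perp of `R`
  have hperp : Q ⊓ Subgroup.centralizer (R : Set G) = Q₀ := by
    ext x
    constructor
    · rintro ⟨hxQ, hxC⟩
      refine (hQ₀ x).mpr ⟨hxQ, ?_⟩
      have hcen : ∀ y ∈ Q, f x * y = y * f x := by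
        intro y hy
        have h1 : form (f x) y = 1 := by
          rw [hadj x hxQ y hy]
          apply form_eq_one_iff.mpr
          exact (Subgroup.mem_centralizer_iff.mp hxC _ (hfR y hy)).symm
        exact form_eq_one_iff.mp h1
      rw [← hfv]
      rcases h.central _ (hfQ x hxQ) hcen with h1 | h1
      · rw [h1]; exact Subgroup.one_mem _
      · rw [h1]; exact Subgroup.mem_zpowers _
    · intro hx
      obtain ⟨hxQ, hxz⟩ := (hQ₀ x).mp hx
      refine ⟨hxQ, ?_⟩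
      have h1 : R ≤ Subgroup.centralizer ({x} : Set G) := by
        rw [hRdef, Subgroup.closure_le]
        rintro _ ⟨q, hq, rfl⟩
        refine Subgroup.mem_centralizer_singleton_iff.mpr ?_
        have h2 : form (f x) q = 1 := by
          apply form_eq_one_iff.mpr
          rw [hfv]
          rcases zpowers_eq_of_order_two h.order hxz with h3 | h3
          · rw [h3]; simp
          · rw [h3]; exact (h.cen q hq).symm
        rw [hadj x hxQ q hq] at h2
        exact (form_eq_one_iff.mp h2).symm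
      refine Subgroup.mem_centralizer_iff.mpr ?_
      intro r hr
      exact Subgroup.mem_centralizer_singleton_iff.mp (h1 hr)
  -- `z ∈ R`
  have hzR : z ∈ R := by
    push Not at hnc
    obtain ⟨q₁, hq₁, hne⟩ := hnc
    have hr1 : f q₁ ≠ 1 := by
      intro h1
      rw [hfv] at h1
      apply hne
      exact comm_of_conj_eq (mul_inv_eq_one.mp h1)
    by_cases hrz : f q₁ = z
    · rw [← hrz]; exact hfR q₁ hq₁
    · obtain ⟨t, ht, hts⟩ := h.exists_not_comm (hfQ q₁ hq₁) hr1 hrz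
      have e : t * f q₁ * t⁻¹ = (f t)⁻¹ * f (t * q₁) := by
        simp only [hfv]; group
      have h1 : t * f q₁ * t⁻¹ ∈ R := by
        rw [e]
        exact R.mul_mem (R.inv_mem (hfR t ht)) (hfR _ (Q.mul_mem ht hq₁))
      rw [hts] at h1
      have e2 : z = (f q₁)⁻¹ * (f q₁ * z) := by group
      rw [e2]
      exact R.mul_mem (R.inv_mem (hfR q₁ hq₁)) h1
  constructor
  · -- (a)
    have hdp := double_perp h hRQ hzR
    rw [hperp] at hdp
    -- `hdp : Q ⊓ centralizer Q₀ = R`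
    rw [← hdp]
    ext y
    constructor
    · rintro ⟨hyQ, hyC⟩
      have hyQ₀ : y ∈ Q₀ := by
        apply hRQ₀
        rw [← hdp]
        exact ⟨hyQ, hyC⟩
      refine ⟨⟨y, hyQ₀⟩, Subgroup.mem_center_iff.mpr ?_, rfl⟩
      intro g
      apply Subtype.ext
      exact Subgroup.mem_centralizer_iff.mp hyC g g.2
    · rintro ⟨y', hy', rfl⟩
      have hQ₀Q : Q₀ ≤ Q := fun q hq => ((hQ₀ q).mp hq).1
      refine ⟨hQ₀Q y'.2, Subgroup.mem_centralizer_iff.mpr ?_⟩
      intro g hg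
      have := Subgroup.mem_center_iff.mp hy' ⟨g, hg⟩
      exact congrArg (fun w : ↥Q₀ => (w : G)) this
  · -- (b)
    intro hnot
    obtain ⟨q₀, hq₀, hq₀n⟩ := SetLike.not_le_iff_exists.mp hnot
    obtain ⟨hq₀Q, hq₀z⟩ := (hQ₀ q₀).mp hq₀
    refine ⟨q₀, hq₀Q, ?_⟩
    rcases zpowers_eq_of_order_two h.order hq₀z with h1 | h1
    · exfalso
      apply hq₀n
      apply Subgroup.mem_sup_left
      refine ⟨hq₀Q, Subgroup.mem_centralizer_singleton_iff.mpr ?_⟩
      exact (comm_of_conj_eq (mul_inv_eq_one.mp h1)).symm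
    · have h2 : q₀ * α * q₀⁻¹ * α⁻¹ = z := by
        have h3 : (α * q₀ * α⁻¹ * q₀⁻¹)⁻¹ = z := by rw [h1, hzi]
        rw [← h3, hαi]
        simp only [mul_inv_rev, inv_inv, hαi, mul_assoc]
      calc q₀ * α * q₀⁻¹ = (q₀ * α * q₀⁻¹ * α⁻¹) * α := by group
        _ = z * α := by rw [h2]
        _ = α * z := hαz.symm

theorem result {G : Type*} [Group G] [Finite G] (z : G) (hz : orderOf z = 2) (hQ : Cfsg.IsOfSymplecticType ↥(Cfsg.generalizedFittingSubgroup ↥(Subgroup.centralizer ({z} : Set G)))) (hE : Cfsg.IsExtraspecial 2 ↥(Cfsg.generalizedFittingSubgroup ↥(Subgroup.centralizer ({z} : Set G))))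
    (α : G) (hα : orderOf α = 2) (hαC : α ∈ Subgroup.centralizer ({z} : Set G)) (hαQ : α ∉ (Cfsg.generalizedFittingSubgroup ↥(Subgroup.centralizer ({z} : Set G))).map (Subgroup.centralizer ({z} : Set G)).subtype)
    (Q₀ : Subgroup G) (hQ₀ : ∀ q : G, q ∈ Q₀ ↔ (q ∈ (Cfsg.generalizedFittingSubgroup ↥(Subgroup.centralizer ({z} : Set G))).map (Subgroup.centralizer ({z} : Set G)).subtype ∧ α * q * α⁻¹ * q⁻¹ ∈ Subgroup.zpowers z)) :
    Subgroup.closure ((fun q : G => α * q * α⁻¹ * q⁻¹) '' ((Cfsg.generalizedFittingSubgroup ↥(Subgroup.centralizer ({z} : Set G))).map (Subgroup.centralizer ({z} : Set G)).subtype : Set G)) = (Subgroup.center ↥Q₀).map Q₀.subtype ∧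
      (¬ Q₀ ≤ ((Cfsg.generalizedFittingSubgroup ↥(Subgroup.centralizer ({z} : Set G))).map (Subgroup.centralizer ({z} : Set G)).subtype ⊓ Subgroup.centralizer ({α} : Set G)) ⊔ Subgroup.zpowers z →
        ∃ q ∈ (Cfsg.generalizedFittingSubgroup ↥(Subgroup.centralizer ({z} : Set G))).map (Subgroup.centralizer ({z} : Set G)).subtype, q * α * q⁻¹ = α * z) := by
  obtain ⟨C, hC⟩ : ∃ C : Subgroup G, C = Subgroup.centralizer ({z} : Set G) := ⟨_, rfl⟩
  have hmemC : ∀ x, x ∈ Subgroup.centralizer ({z} : Set G) ↔ x * z = z * x := fun x =>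
    Subgroup.mem_centralizer_singleton_iff
  obtain ⟨z', hz', -⟩ := exists_extraAt hE
  have hE2 := extraAt_map hz' (Subgroup.subtype _) Subtype.val_injective
  -- `z ∈ Q`
  have hzC : z ∈ Subgroup.centralizer ({z} : Set G) := (hmemC z).mpr rfl
  have hzcen : (⟨z, hzC⟩ : ↥(Subgroup.centralizer ({z} : Set G))) ∈
      Subgroup.center ↥(Subgroup.centralizer ({z} : Set G)) := by
    refine Subgroup.mem_center_iff.mpr ?_
    intro g
    apply Subtype.ext
    exact (hmemC g).mp g.2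
  have hzF := Cfsg.Agent.Lib.GF2Setup.center_le_generalizedFitting hzcen
  have hzQ : z ∈ (Cfsg.generalizedFittingSubgroup ↥(Subgroup.centralizer ({z} : Set G))).map
      (Subgroup.centralizer ({z} : Set G)).subtype := ⟨_, hzF, rfl⟩
  have hz1 : z ≠ 1 := by
    intro h1
    rw [h1, orderOf_one] at hz
    omega
  have hzz' : z = (z' : G) := by
    have h1 := hE2.central z hzQ (by
      rintro y ⟨a, -, rfl⟩
      exact ((hmemC a).mp a.2).symm)
    rcases h1 with h1 | h1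
    · exact absurd h1 hz1
    · exact h1
  have hE3 : ExtraAt ((Cfsg.generalizedFittingSubgroup ↥(Subgroup.centralizer ({z} : Set G))).map
      (Subgroup.centralizer ({z} : Set G)).subtype) z := by
    have : ∀ w : G, w = (Subgroup.centralizer ({z} : Set G)).subtype z' →
        ExtraAt ((Cfsg.generalizedFittingSubgroup ↥(Subgroup.centralizer ({z} : Set G))).map
          (Subgroup.centralizer ({z} : Set G)).subtype) w := by
      rintro w rfl
      exact hE2
    exact this z hzz'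
  have hαα : α * α = 1 := by rw [← pow_two, ← hα]; exact pow_orderOf_eq_one α
  refine aux hE3 hαα ((hmemC α).mp hαC) ?_ ?_ hQ₀
  · rintro x ⟨a, ha, rfl⟩
    have := (Cfsg.Agent.Lib.GF2Setup.generalizedFitting_normal (G := ↥(Subgroup.centralizer ({z} : Set G)))).conj_mem
      a ha ⟨α, hαC⟩
    exact ⟨_, this, rfl⟩
  · intro hcen
    apply hαQ
    have h1 : (⟨α, hαC⟩ : ↥(Subgroup.centralizer ({z} : Set G))) ∈
        Subgroup.centralizer (Cfsg.generalizedFittingSubgroup ↥(Subgroup.centralizer ({z} : Set G)) :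
          Set ↥(Subgroup.centralizer ({z} : Set G))) := by
      refine Subgroup.mem_centralizer_iff.mpr ?_
      intro y hy
      apply Subtype.ext
      exact (hcen (y : G) ⟨y, hy, rfl⟩).symm
    exact ⟨_, Cfsg.Agent.Lib.LocalCore.centralizer_generalizedFitting_le h1, rfl⟩

end Cfsg.Agent.S1784
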