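import Mathlib
import Cfsg.Statements.S1785

set_option autoImplicit false
open Cfsg

namespace Cfsg.Agent.S1785

variable {X : Type*} [Group X]

theorem exists_between [Finite X] (I W : Subgroup X) (hIW : I ≤ W) {n m k : ℕ}
    (hn : Nat.card ↥I = 2 ^ n) (hm : Nat.card ↥W = 2 ^ m) (hnk : n ≤ k) (hkm : k ≤ m) :
    ∃ K : Subgroup X, I ≤ K ∧ K ≤ W ∧ Nat.card ↥K = 2 ^ k := by
  have hfact : Fact (Nat.Prime 2) := ⟨Nat.prime_two⟩
  have hdvd : 2 ^ k ∣ Nat.card ↥W := by
    rw [hm]
    exact pow_dvd_pow 2 hkm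
  have hIc : Nat.card ↥(I.subgroupOf W) = 2 ^ n := by
    rw [← hn]
    exact Nat.card_congr (Subgroup.subgroupOfEquivOfLe hIW).toEquiv
  obtain ⟨K, hK, hle⟩ := Sylow.exists_subgroup_card_pow_prime_le (G := ↥W) 2 hdvd (I.subgroupOf W) hIc hnk
  refine ⟨K.map W.subtype, ?_, ?_, ?_⟩
  · intro x hx
    exact ⟨⟨x, hIW hx⟩, hle hx, rfl⟩
  · rintro _ ⟨y, _, rfl⟩
    exact y.2
  · rw [Subgroup.card_map_of_injective W.subtype_injective, hK]

/-- Fixed points of a `2`-cycle acting on an elementary abelian group: `|F| ≤ |C_F(a)|²`. -/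
theorem card_le_sq_fix [Finite X] (F : Subgroup X) (hFab : ∀ x ∈ F, ∀ y ∈ F, x * y = y * x)
    (hF2 : ∀ x ∈ F, x ^ 2 = 1) (a : X) (ha : a ^ 2 = 1) (hFn : ∀ f ∈ F, a * f * a⁻¹ ∈ F) :
    Nat.card ↥F ≤ Nat.card ↥(F ⊓ Subgroup.centralizer ({a} : Set X)) ^ 2 := by
  have hainv : a⁻¹ = a := by
    rw [inv_eq_iff_mul_eq_one, ← pow_two]
    exact ha
  have hinvF : ∀ f ∈ F, f⁻¹ = f := by
    intro f hf
    rw [inv_eq_iff_mul_eq_one, ← pow_two]
    exact hF2 f hf
  have hcoe : ∀ f : ↥F, (⟨(f : X)⁻¹ * (a * f * a⁻¹), F.mul_mem (F.inv_mem f.2) (hFn f f.2)⟩ : ↥F) =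
      f⁻¹ * ⟨a * f * a⁻¹, hFn f f.2⟩ := fun f => rfl
  let φ : ↥F →* ↥F := MonoidHom.mk'
    (fun f => ⟨(f : X)⁻¹ * (a * f * a⁻¹), F.mul_mem (F.inv_mem f.2) (hFn f f.2)⟩) (by
      intro f g
      apply Subtype.ext
      change ((f : X) * g)⁻¹ * (a * ((f : X) * g) * a⁻¹) =
        (f : X)⁻¹ * (a * f * a⁻¹) * ((g : X)⁻¹ * (a * g * a⁻¹))
      have h1 : a * ((f : X) * g) * a⁻¹ = (a * f * a⁻¹) * (a * g * a⁻¹) := by group
      rw [h1, mul_inv_rev, hFab (g : X)⁻¹ (F.inv_mem g.2) (f : X)⁻¹ (F.inv_mem f.2)]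
      have h2 := hFab (a * f * a⁻¹) (hFn f f.2) (g : X)⁻¹ (F.inv_mem g.2)
      calc (f : X)⁻¹ * (g : X)⁻¹ * (a * f * a⁻¹ * (a * g * a⁻¹))
          = (f : X)⁻¹ * ((g : X)⁻¹ * (a * f * a⁻¹)) * (a * g * a⁻¹) := by group
        _ = (f : X)⁻¹ * ((a * f * a⁻¹) * (g : X)⁻¹) * (a * g * a⁻¹) := by rw [h2]
        _ = (f : X)⁻¹ * (a * f * a⁻¹) * ((g : X)⁻¹ * (a * g * a⁻¹)) := by group)
  have hφ : ∀ f : ↥F, (φ f : X) = (f : X)⁻¹ * (a * f * a⁻¹) := fun _ => rfl
  -- the kernel is the fixed subgroup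
  have hker : Nat.card ↥φ.ker = Nat.card ↥(F ⊓ Subgroup.centralizer ({a} : Set X)) := by
    apply Nat.card_congr
    refine
      { toFun := fun f => ⟨f.1.1, f.1.2, ?_⟩
        invFun := fun f => ⟨⟨f.1, f.2.1⟩, ?_⟩
        left_inv := fun f => rfl
        right_inv := fun f => rfl }
    · have h := f.2
      rw [MonoidHom.mem_ker] at h
      have h1 : ((f.1.1 : X))⁻¹ * (a * f.1.1 * a⁻¹) = 1 := congrArg Subtype.val h
      refine Subgroup.mem_centralizer_singleton_iff.mpr ?_
      have h2 : a * (f.1.1 : X) * a⁻¹ = f.1.1 := by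
        rw [inv_mul_eq_one] at h1
        exact h1.symm
      calc (f.1.1 : X) * a = a * (f.1.1 : X) * a⁻¹ * a := by rw [h2]
        _ = a * (f.1.1 : X) := by group
    · rw [MonoidHom.mem_ker]
      apply Subtype.ext
      have h2 := Subgroup.mem_centralizer_singleton_iff.mp f.2.2
      change (f.1)⁻¹ * (a * f.1 * a⁻¹) = 1
      rw [← h2]
      group
  -- the image lies in the fixed subgroup
  have hrange : Nat.card ↥φ.range ≤ Nat.card ↥(F ⊓ Subgroup.centralizer ({a} : Set X)) := by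
    apply Nat.card_le_card_of_injective
      (fun y : ↥φ.range => (⟨y.1.1, y.1.2, ?_⟩ : ↥(F ⊓ Subgroup.centralizer ({a} : Set X))))
    · intro y z h
      apply Subtype.ext
      apply Subtype.ext
      have h' := congrArg (fun w : ↥(F ⊓ Subgroup.centralizer ({a} : Set X)) => (w : X)) h
      exact h'
    · obtain ⟨f, hf⟩ := y.2
      refine Subgroup.mem_centralizer_singleton_iff.mpr ?_
      rw [← hf, hφ]
      -- a commutes with `f⁻¹ * a f a⁻¹`
      have hfF : a * (f : X) * a⁻¹ ∈ F := hFn f f.2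
      have hinv1 : (a * (f : X) * a⁻¹)⁻¹ = a * (f : X) * a⁻¹ := hinvF _ hfF
      have hinv2 : (f : X)⁻¹ = f := hinvF f f.2
      have hcomm := hFab f f.2 _ hfF
      rw [hinv2]
      calc (f : X) * (a * f * a⁻¹) * a = (f : X) * (a * (f : X) * (a⁻¹ * a)) := by group
        _ = (f : X) * (a * (f : X)) := by simp
        _ = (f : X) * a * (f : X) := by group
        _ = (a * a⁻¹) * ((f : X) * a * (f : X)) := by simp
        _ = a * (a⁻¹ * (f : X) * a * (f : X)) := by group
        _ = a * (a * (f : X) * a⁻¹ * (f : X)) := by rw [hainv]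
        _ = a * ((f : X) * (a * f * a⁻¹)) := by rw [← hcomm]
  have hmul : Nat.card ↥φ.ker * Nat.card ↥φ.range = Nat.card ↥F := by
    rw [← Subgroup.index_ker, Subgroup.card_mul_index]
  rw [← hmul, hker, pow_two]
  exact Nat.mul_le_mul_left _ hrange

theorem sup_zpowers_eq_of_card [Finite X] (W' W : Subgroup X) (hle : W' ≤ W)
    (hcard : Nat.card ↥W = 2 * Nat.card ↥W') {a : X} (ha : a ∈ W) (ha' : a ∉ W') :
    W' ⊔ Subgroup.zpowers a = W := by
  have hL : W' ⊔ Subgroup.zpowers a ≤ W := sup_le hle (by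
    rw [Subgroup.zpowers_le]
    exact ha)
  have h1 : W' ≤ W' ⊔ Subgroup.zpowers a := le_sup_left
  obtain ⟨d, hd⟩ := Subgroup.card_dvd_of_le h1
  have hpos : 0 < Nat.card ↥W' := Nat.card_pos
  obtain ⟨e, he⟩ := Subgroup.card_dvd_of_le hL
  rw [hd, hcard, mul_assoc] at he
  have hde : 2 = d * e := Nat.eq_of_mul_eq_mul_left hpos (by rw [mul_comm (Nat.card ↥W') 2]; exact he)
  have hd2 : d ∣ 2 := ⟨e, hde⟩
  have hd' : d = 1 ∨ d = 2 := (Nat.dvd_prime Nat.prime_two).mp hd2
  rcases hd' with rfl | rfl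
  · exfalso
    rw [mul_one] at hd
    have h2 := Subgroup.eq_of_le_of_card_ge h1 hd.le
    apply ha'
    rw [h2]
    exact (le_sup_right : Subgroup.zpowers a ≤ W' ⊔ Subgroup.zpowers a) (Subgroup.mem_zpowers a)
  · apply Subgroup.eq_of_le_of_card_ge hL
    rw [hcard, hd, mul_comm]

theorem ea_sup (V : Subgroup X) (hV : IsElementaryAbelian 2 V) (f : X) (hf2 : f ^ 2 = 1)
    (hfV : ∀ v ∈ V, f * v = v * f) : IsElementaryAbelian 2 (V ⊔ Subgroup.zpowers f) := by
  have hVc : ∀ x ∈ V, ∀ y ∈ V, x * y = y * x := by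
    intro x hx y hy
    have := hV.1.is_comm.comm ⟨x, hx⟩ ⟨y, hy⟩
    exact congrArg Subtype.val this
  have hsub1 : V ≤ Subgroup.centralizer ((V ⊔ Subgroup.zpowers f : Subgroup X) : Set X) := by
    intro v hv
    have h1 : V ⊔ Subgroup.zpowers f ≤ Subgroup.centralizer ({v} : Set X) := by
      apply sup_le
      · intro w hw
        exact Subgroup.mem_centralizer_singleton_iff.mpr (hVc w hw v hv)
      · rw [Subgroup.zpowers_le]
        exact Subgroup.mem_centralizer_singleton_iff.mpr (hfV v hv)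
    rw [Subgroup.mem_centralizer_iff]
    intro x hx
    exact (Subgroup.mem_centralizer_singleton_iff.mp (h1 hx))
  have hsub2 : Subgroup.zpowers f ≤ Subgroup.centralizer ((V ⊔ Subgroup.zpowers f : Subgroup X) : Set X) := by
    rw [Subgroup.zpowers_le]
    have h1 : V ⊔ Subgroup.zpowers f ≤ Subgroup.centralizer ({f} : Set X) := by
      apply sup_le
      · intro w hw
        exact Subgroup.mem_centralizer_singleton_iff.mpr (hfV w hw).symm
      · rw [Subgroup.zpowers_le]
        exact Subgroup.mem_centralizer_singleton_iff.mpr rfl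
    rw [Subgroup.mem_centralizer_iff]
    intro x hx
    exact (Subgroup.mem_centralizer_singleton_iff.mp (h1 hx))
  have hL : V ⊔ Subgroup.zpowers f ≤ Subgroup.centralizer ((V ⊔ Subgroup.zpowers f : Subgroup X) : Set X) :=
    sup_le hsub1 hsub2
  have hcomm : ∀ x ∈ V ⊔ Subgroup.zpowers f, ∀ y ∈ V ⊔ Subgroup.zpowers f, x * y = y * x := by
    intro x hx y hy
    exact (Subgroup.mem_centralizer_iff.mp (hL hx) y hy).symm
  refine ⟨⟨⟨fun x y => Subtype.ext (hcomm x x.2 y y.2)⟩⟩, ?_⟩
  intro x hx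
  have hx' := hx
  rw [Subgroup.sup_eq_closure] at hx'
  induction hx' using Subgroup.closure_induction with
  | mem z hz =>
    rcases hz with hz | hz
    · exact hV.2 z hz
    · obtain ⟨n, rfl⟩ := Subgroup.mem_zpowers_iff.mp hz
      rw [← zpow_natCast, ← zpow_mul, mul_comm, zpow_mul, zpow_natCast, hf2, one_zpow]
  | one => simp
  | mul a b ha hb iha ihb =>
    rw [Subgroup.sup_eq_closure] at hx
    have ha' : a ∈ V ⊔ Subgroup.zpowers f := by
      rw [Subgroup.sup_eq_closure]
      exact ha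
    have hb' : b ∈ V ⊔ Subgroup.zpowers f := by
      rw [Subgroup.sup_eq_closure]
      exact hb
    rw [(show Commute a b from hcomm a ha' b hb').mul_pow, iha ha', ihb hb', one_mul]
  | inv a ha iha =>
    have ha' : a ∈ V ⊔ Subgroup.zpowers f := by
      rw [Subgroup.sup_eq_closure]
      exact ha
    rw [inv_pow, iha ha', inv_one]

section main

variable [Finite X]

theorem ea_mono {V W : Subgroup X} (h : V ≤ W) (hW : IsElementaryAbelian 2 W) : IsElementaryAbelian 2 V := by
  refine ⟨⟨⟨fun x y => Subtype.ext ?_⟩⟩, fun a ha => hW.2 a (h ha)⟩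
  have := hW.1.is_comm.comm ⟨x, h x.2⟩ ⟨y, h y.2⟩
  have h' := congrArg (fun z : ↥W => (z : X)) this
  exact h'

/-- The `E`-part of the centralizer. -/
theorem card_CE_pow (hX : IsPGroup 2 X) (E : Subgroup X) [hEn : E.Normal]
    (hE : IsElementaryAbelian 2 E) :
    ∀ (k : ℕ) (W : Subgroup X), IsElementaryAbelian 2 W →
      Nat.card ↥W = 2 ^ k * Nat.card ↥(W ⊓ E) →
      Nat.card ↥E ≤ Nat.card ↥(E ⊓ Subgroup.centralizer (W : Set X)) ^ (2 ^ k) := by
  have hfact : Fact (Nat.Prime 2) := ⟨Nat.prime_two⟩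
  have hEc : ∀ x ∈ E, ∀ y ∈ E, x * y = y * x := by
    intro x hx y hy
    have := hE.1.is_comm.comm ⟨x, hx⟩ ⟨y, hy⟩
    exact congrArg Subtype.val this
  intro k
  induction k with
  | zero =>
    intro W _ hc
    rw [pow_zero, one_mul] at hc
    have h1 : W ⊓ E = W := Subgroup.eq_of_le_of_card_ge inf_le_left hc.le
    have h2 : W ≤ E := by
      rw [← h1]
      exact inf_le_right
    have h3 : E ≤ E ⊓ Subgroup.centralizer (W : Set X) := by
      refine le_inf le_rfl ?_
      intro e he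
      rw [Subgroup.mem_centralizer_iff]
      intro w hw
      exact hEc w (h2 hw) e he
    rw [pow_zero, pow_one]
    exact Subgroup.card_le_of_le h3
  | succ k ih =>
    intro W hW hc
    obtain ⟨n, hn⟩ := IsPGroup.iff_card.mp (hX.to_subgroup (W ⊓ E))
    have hWc : Nat.card ↥W = 2 ^ (k + 1 + n) := by
      rw [hc, hn, ← pow_add]
    obtain ⟨W', hIW', hW'W, hW'c⟩ := exists_between (W ⊓ E) W inf_le_left hn hWc
      (show n ≤ k + n by omega) (show k + n ≤ k + 1 + n by omega)
    have hW'E : W' ⊓ E = W ⊓ E := by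
      apply le_antisymm
      · exact inf_le_inf_right E hW'W
      · exact le_inf hIW' inf_le_right
    have hW'ea : IsElementaryAbelian 2 W' := ea_mono hW'W hW
    have hih := ih W' hW'ea (by rw [hW'E, hn, hW'c, pow_add])
    -- pick an element outside `W'`
    have hlt : W' ≠ W := by
      intro h
      rw [h, hWc] at hW'c
      have := Nat.pow_right_injective (le_refl 2) hW'c
      omega
    obtain ⟨a, haW, haW'⟩ : ∃ a ∈ W, a ∉ W' := by
      by_contra hno
      push Not at hno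
      exact hlt (le_antisymm hW'W hno)
    have hWcomm : ∀ x ∈ W, ∀ y ∈ W, x * y = y * x := by
      intro x hx y hy
      have := hW.1.is_comm.comm ⟨x, hx⟩ ⟨y, hy⟩
      exact congrArg Subtype.val this
    have hsup : W' ⊔ Subgroup.zpowers a = W := sup_zpowers_eq_of_card W' W hW'W
      (by rw [hWc, hW'c]; ring) haW haW'
    have ha2 : a ^ 2 = 1 := hW.2 a haW
    have hFab : ∀ x ∈ E ⊓ Subgroup.centralizer (W' : Set X), ∀ y ∈ E ⊓ Subgroup.centralizer (W' : Set X),
        x * y = y * x := fun x hx y hy => hEc x hx.1 y hy.1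
    have hF2 : ∀ x ∈ E ⊓ Subgroup.centralizer (W' : Set X), x ^ 2 = 1 := fun x hx => hE.2 x hx.1
    have hFn : ∀ f ∈ E ⊓ Subgroup.centralizer (W' : Set X),
        a * f * a⁻¹ ∈ E ⊓ Subgroup.centralizer (W' : Set X) := by
      rintro f ⟨hfE, hfC⟩
      refine ⟨hEn.conj_mem f hfE a, ?_⟩
      refine Subgroup.mem_centralizer_iff.mpr ?_
      intro w hw
      have h1 : w * f = f * w := Subgroup.mem_centralizer_iff.mp hfC w hw
      have h2 : a * w = w * a := hWcomm a haW w (hW'W hw)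
      calc w * (a * f * a⁻¹) = (w * a) * f * a⁻¹ := by group
        _ = (a * w) * f * a⁻¹ := by rw [h2]
        _ = a * (w * f) * a⁻¹ := by group
        _ = a * (f * w) * a⁻¹ := by rw [h1]
        _ = a * f * (w * a⁻¹) := by group
        _ = a * f * (a⁻¹ * w) := by
          have h3 : w * a⁻¹ = a⁻¹ * w := by
            have := (show Commute a w from h2).inv_left
            exact this.symm
          rw [h3]
        _ = a * f * a⁻¹ * w := by group
    have hstep := card_le_sq_fix _ hFab hF2 a ha2 hFn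
    have hsubset : (E ⊓ Subgroup.centralizer (W' : Set X)) ⊓ Subgroup.centralizer ({a} : Set X) ≤
        E ⊓ Subgroup.centralizer (W : Set X) := by
      rintro x ⟨⟨hxE, hxC⟩, hxa⟩
      refine ⟨hxE, ?_⟩
      have h1 : W ≤ Subgroup.centralizer ({x} : Set X) := by
        rw [← hsup]
        apply sup_le
        · intro w hw
          exact Subgroup.mem_centralizer_singleton_iff.mpr
            (Subgroup.mem_centralizer_iff.mp hxC w hw)
        · rw [Subgroup.zpowers_le]
          exact Subgroup.mem_centralizer_singleton_iff.mpr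
            (Subgroup.mem_centralizer_singleton_iff.mp hxa).symm
      refine Subgroup.mem_centralizer_iff.mpr ?_
      intro w hw
      exact (Subgroup.mem_centralizer_singleton_iff.mp (h1 hw))
    have hcardle := Subgroup.card_le_of_le hsubset
    calc Nat.card ↥E ≤ Nat.card ↥(E ⊓ Subgroup.centralizer (W' : Set X)) ^ 2 ^ k := hih
      _ ≤ (Nat.card ↥(E ⊓ Subgroup.centralizer (W : Set X)) ^ 2) ^ 2 ^ k := by
        apply Nat.pow_le_pow_left
        exact hstep.trans (Nat.pow_le_pow_left hcardle 2)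
      _ = Nat.card ↥(E ⊓ Subgroup.centralizer (W : Set X)) ^ 2 ^ (k + 1) := by
        rw [← pow_mul, pow_succ]; ring_nf

theorem aux_arith : ∀ k n : ℕ, 1 ≤ k → k + n ≤ 3 → n * 2 ^ k ≤ 4 := by
  intro k n h1 h2
  have h3 : k ≤ 3 := by omega
  have h4 : n ≤ 3 := by omega
  interval_cases k <;> interval_cases n <;> simp_all

/-- **Claim**: an elementary abelian subgroup of order at most `8` not in `E` is centralized by an
element of `E` outside of it. -/
theorem exists_central_not_mem (hX : IsPGroup 2 X) (E : Subgroup X) [hEn : E.Normal]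
    (hE : IsElementaryAbelian 2 E) (h32 : 32 ≤ Nat.card ↥E) (W : Subgroup X)
    (hW : IsElementaryAbelian 2 W) (hc : Nat.card ↥W ≤ 8) (hWE : ¬ W ≤ E) :
    ∃ f ∈ E, (∀ w ∈ W, f * w = w * f) ∧ f ∉ W := by
  have hfact : Fact (Nat.Prime 2) := ⟨Nat.prime_two⟩
  obtain ⟨n, hn⟩ := IsPGroup.iff_card.mp (hX.to_subgroup (W ⊓ E))
  obtain ⟨m, hm⟩ := IsPGroup.iff_card.mp (hX.to_subgroup W)
  have hle : Nat.card ↥(W ⊓ E) ≤ Nat.card ↥W := Subgroup.card_le_of_le inf_le_left
  have hnm : n ≤ m := by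
    rw [hn, hm] at hle
    exact (Nat.pow_le_pow_iff_right (by norm_num)).mp hle
  have hm3 : m ≤ 3 := by
    rw [hm] at hc
    have : 2 ^ m ≤ 2 ^ 3 := hc
    exact (Nat.pow_le_pow_iff_right (by norm_num)).mp this
  have hne : n ≠ m := by
    rintro rfl
    apply hWE
    have : W ⊓ E = W := Subgroup.eq_of_le_of_card_ge inf_le_left (by rw [hn, hm])
    rw [← this]
    exact inf_le_right
  obtain ⟨k, hk⟩ : ∃ k, m = k + n := ⟨m - n, by omega⟩
  have hpow := card_CE_pow hX E hE k W hW (by rw [hn, hm, hk, pow_add])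
  by_contra hno
  push Not at hno
  have hsub : E ⊓ Subgroup.centralizer (W : Set X) ≤ W ⊓ E := by
    rintro f ⟨hfE, hfC⟩
    refine ⟨hno f hfE ?_, hfE⟩
    intro w hw
    exact (Subgroup.mem_centralizer_iff.mp hfC w hw).symm
  have hcardle := Subgroup.card_le_of_le hsub
  rw [hn] at hcardle
  have h1 : Nat.card ↥E ≤ (2 ^ n) ^ 2 ^ k := hpow.trans (Nat.pow_le_pow_left hcardle _)
  have h2 : (2 ^ n) ^ 2 ^ k ≤ 2 ^ 4 := by
    rw [← pow_mul]
    apply Nat.pow_le_pow_right (by norm_num)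
    exact aux_arith k n (by omega) (by omega)
  omega

end main

/-- Let X be a finite 2-group having a normal elementary abelian subgroup of order at least 32. Then (a) for any two elementary abelian subgroups A, B of X of order 8 there is a chain A = A₁, A₂, …, Aₙ = B of elementary abelian subgroups of order 8 in which consecutive members commute elementwise; and (b) every elementary abelian subgroup of X of order 4 is contained in an elementary abelian subgroup of order 8. -/
theorem result {X : Type*} [Group X] [Finite X]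
    (hX : IsPGroup 2 X) (E : Subgroup X) [E.Normal] (hE : Cfsg.IsElementaryAbelian 2 E) (hE32 : 32 ≤ Nat.card ↥E) :
    (∀ A B : Subgroup X, Cfsg.IsElementaryAbelian 2 A → Nat.card ↥A = 8 → Cfsg.IsElementaryAbelian 2 B → Nat.card ↥B = 8 →
        Relation.ReflTransGen
          (fun C D : Subgroup X => Cfsg.IsElementaryAbelian 2 C ∧ Nat.card ↥C = 8 ∧ Cfsg.IsElementaryAbelian 2 D ∧ Nat.card ↥D = 8 ∧ ⁅C, D⁆ = ⊥)
          A B) ∧
      (∀ V : Subgroup X, Cfsg.IsElementaryAbelian 2 V → Nat.card ↥V = 4 →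
        ∃ A : Subgroup X, V ≤ A ∧ Cfsg.IsElementaryAbelian 2 A ∧ Nat.card ↥A = 8) := by
  have hfact : Fact (Nat.Prime 2) := ⟨Nat.prime_two⟩
  obtain ⟨e, he⟩ := IsPGroup.iff_card.mp (hX.to_subgroup E)
  have he5 : 5 ≤ e := by
    rw [he] at hE32
    have : 2 ^ 5 ≤ 2 ^ e := hE32
    exact (Nat.pow_le_pow_iff_right (by norm_num)).mp this
  have hEc : ∀ x ∈ E, ∀ y ∈ E, x * y = y * x := by
    intro x hx y hy
    have := hE.1.is_comm.comm ⟨x, hx⟩ ⟨y, hy⟩
    exact congrArg Subtype.val this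
  constructor
  · -- the chain
    let R : Subgroup X → Subgroup X → Prop := fun C D : Subgroup X =>
      Cfsg.IsElementaryAbelian 2 C ∧ Nat.card ↥C = 8 ∧ Cfsg.IsElementaryAbelian 2 D ∧ Nat.card ↥D = 8 ∧ ⁅C, D⁆ = ⊥
    have hRsym : ∀ C D : Subgroup X, R C D → R D C := by
      rintro C D ⟨h1, h2, h3, h4, h5⟩
      exact ⟨h3, h4, h1, h2, by rw [Subgroup.commutator_comm]; exact h5⟩
    have hrevall : ∀ {a b : Subgroup X}, Relation.ReflTransGen R a b → Relation.ReflTransGen R b a := by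
      intro a b h
      induction h with
      | refl => exact Relation.ReflTransGen.refl
      | tail _ hbc ih => exact Relation.ReflTransGen.head (hRsym _ _ hbc) ih
    -- step
    have hstep : ∀ A : Subgroup X, IsElementaryAbelian 2 A → Nat.card ↥A = 8 → ¬ A ≤ E →
        ∃ K : Subgroup X, R A K ∧ Nat.card ↥(A ⊓ E) < Nat.card ↥(K ⊓ E) := by
      intro A hA hA8 hAE
      obtain ⟨f, hfE, hfc, hfA⟩ := exists_central_not_mem hX E hE hE32 A hA hA8.le hAE
      have hf2 : f ^ 2 = 1 := hE.2 f hfE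
      have hL : IsElementaryAbelian 2 (A ⊔ Subgroup.zpowers f) := ea_sup A hA f hf2 hfc
      obtain ⟨n, hn⟩ := IsPGroup.iff_card.mp (hX.to_subgroup (A ⊓ E))
      have hA8' : Nat.card ↥A = 2 ^ 3 := hA8
      -- n < 3
      have hn3 : n < 3 := by
        by_contra h
        apply hAE
        have h1 : Nat.card ↥A ≤ Nat.card ↥(A ⊓ E) := by
          rw [hA8', hn]
          exact Nat.pow_le_pow_right (by norm_num) (by omega)
        have : A ⊓ E = A := Subgroup.eq_of_le_of_card_ge inf_le_left h1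
        rw [← this]
        exact inf_le_right
      -- a subgroup of `E` of order `2 ^ (n + 1)` above `A ⊓ E`
      obtain ⟨m, hm⟩ := IsPGroup.iff_card.mp (hX.to_subgroup ((A ⊓ E) ⊔ Subgroup.zpowers f))
      have hnm : n + 1 ≤ m := by
        have h1 : A ⊓ E ≤ (A ⊓ E) ⊔ Subgroup.zpowers f := le_sup_left
        have h2 := Subgroup.card_le_of_le h1
        rw [hn, hm] at h2
        have h3 : n ≤ m := (Nat.pow_le_pow_iff_right (by norm_num)).mp h2
        have h4 : n ≠ m := by
          rintro rfl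
          have h5 := Subgroup.eq_of_le_of_card_ge h1 (by rw [hn, hm])
          apply hfA
          have h6 : f ∈ A ⊓ E := by
            rw [h5]
            exact (le_sup_right : Subgroup.zpowers f ≤ (A ⊓ E) ⊔ Subgroup.zpowers f) (Subgroup.mem_zpowers f)
          exact h6.1
        omega
      obtain ⟨J, hIJ, hJle, hJc⟩ := exists_between (A ⊓ E) ((A ⊓ E) ⊔ Subgroup.zpowers f) le_sup_left hn hm
        (show n ≤ n + 1 by omega) hnm
      have hJE : J ≤ E := by
        refine hJle.trans (sup_le inf_le_right ?_)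
        rw [Subgroup.zpowers_le]
        exact hfE
      have hJL : J ≤ A ⊔ Subgroup.zpowers f :=
        hJle.trans (sup_le_sup_right inf_le_left _)
      -- the order of the big group
      obtain ⟨l, hl⟩ := IsPGroup.iff_card.mp (hX.to_subgroup (A ⊔ Subgroup.zpowers f))
      have hl3 : 3 ≤ l := by
        have h1 := Subgroup.card_le_of_le (le_sup_left : A ≤ A ⊔ Subgroup.zpowers f)
        rw [hA8', hl] at h1
        exact (Nat.pow_le_pow_iff_right (by norm_num)).mp h1
      obtain ⟨K, hJK, hKL, hKc⟩ := exists_between J (A ⊔ Subgroup.zpowers f) hJL hJc hl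
        (show n + 1 ≤ 3 by omega) hl3
      refine ⟨K, ⟨hA, hA8, ea_mono hKL hL, hKc, ?_⟩, ?_⟩
      · rw [Subgroup.commutator_eq_bot_iff_le_centralizer]
        intro a ha
        refine Subgroup.mem_centralizer_iff.mpr ?_
        intro k hk
        have hk' := hKL hk
        have ha' : a ∈ A ⊔ Subgroup.zpowers f := (le_sup_left : A ≤ A ⊔ Subgroup.zpowers f) ha
        have := hL.1.is_comm.comm ⟨a, ha'⟩ ⟨k, hk'⟩
        exact (congrArg Subtype.val this).symm
      · have hJKE : J ≤ K ⊓ E := le_inf hJK hJE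
        have h1 := Subgroup.card_le_of_le hJKE
        rw [hJc] at h1
        rw [hn]
        calc 2 ^ n < 2 ^ (n + 1) := Nat.pow_lt_pow_right (by norm_num) (by omega)
          _ ≤ _ := h1
    -- descent to `E`
    have hdesc : ∀ n : ℕ, ∀ A : Subgroup X, IsElementaryAbelian 2 A → Nat.card ↥A = 8 →
        8 - Nat.card ↥(A ⊓ E) ≤ n →
        ∃ A' : Subgroup X, IsElementaryAbelian 2 A' ∧ Nat.card ↥A' = 8 ∧ A' ≤ E ∧
          Relation.ReflTransGen R A A' := by
      intro n
      induction n with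
      | zero =>
        intro A hA hA8 hle
        refine ⟨A, hA, hA8, ?_, Relation.ReflTransGen.refl⟩
        have h1 : Nat.card ↥A ≤ Nat.card ↥(A ⊓ E) := by
          rw [hA8]
          omega
        have : A ⊓ E = A := Subgroup.eq_of_le_of_card_ge inf_le_left h1
        rw [← this]
        exact inf_le_right
      | succ n ih =>
        intro A hA hA8 hle
        by_cases hAE : A ≤ E
        · exact ⟨A, hA, hA8, hAE, Relation.ReflTransGen.refl⟩
        · obtain ⟨K, hRK, hlt⟩ := hstep A hA hA8 hAE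
          obtain ⟨hK1, hK2, hK3, hK4, hK5⟩ := hRK
          have hKle : Nat.card ↥(K ⊓ E) ≤ 8 := by
            rw [← hK4]
            exact Subgroup.card_le_of_le inf_le_left
          have hAle : Nat.card ↥(A ⊓ E) ≤ 8 := by
            rw [← hA8]
            exact Subgroup.card_le_of_le inf_le_left
          obtain ⟨A', h1, h2, h3, h4⟩ := ih K hK3 hK4 (by omega)
          exact ⟨A', h1, h2, h3, Relation.ReflTransGen.head ⟨hK1, hK2, hK3, hK4, hK5⟩ h4⟩
    intro A B hA hA8 hB hB8
    obtain ⟨A', hA'1, hA'2, hA'3, hA'4⟩ := hdesc 8 A hA hA8 (by omega)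
    obtain ⟨B', hB'1, hB'2, hB'3, hB'4⟩ := hdesc 8 B hB hB8 (by omega)
    have hmid : R A' B' := by
      refine ⟨hA'1, hA'2, hB'1, hB'2, ?_⟩
      rw [Subgroup.commutator_eq_bot_iff_le_centralizer]
      intro a ha
      refine Subgroup.mem_centralizer_iff.mpr ?_
      intro b hb
      exact hEc b (hB'3 hb) a (hA'3 ha)
    have hrev : Relation.ReflTransGen R B' B := hrevall hB'4
    exact hA'4.trans (Relation.ReflTransGen.head hmid hrev)
  · intro V hV hV4
    have hV4' : Nat.card ↥V = 2 ^ 2 := hV4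
    by_cases hVE : V ≤ E
    · obtain ⟨K, hVK, hKE, hKc⟩ := exists_between V E hVE hV4' he (show 2 ≤ 3 by omega) (show 3 ≤ e by omega)
      exact ⟨K, hVK, ea_mono hKE hE, hKc⟩
    · obtain ⟨f, hfE, hfc, hfV⟩ := exists_central_not_mem hX E hE hE32 V hV (by omega) hVE
      have hL := ea_sup V hV f (hE.2 f hfE) hfc
      obtain ⟨l, hl⟩ := IsPGroup.iff_card.mp (hX.to_subgroup (V ⊔ Subgroup.zpowers f))
      have hl3 : 3 ≤ l := by
        have h1 := Subgroup.card_le_of_le (le_sup_left : V ≤ V ⊔ Subgroup.zpowers f)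
        rw [hV4', hl] at h1
        have h2 : 2 ≤ l := (Nat.pow_le_pow_iff_right (by norm_num)).mp h1
        have h3 : l ≠ 2 := by
          rintro rfl
          have h5 := Subgroup.eq_of_le_of_card_ge (le_sup_left : V ≤ V ⊔ Subgroup.zpowers f)
            (by rw [hV4', hl])
          apply hfV
          rw [h5]
          exact (le_sup_right : Subgroup.zpowers f ≤ V ⊔ Subgroup.zpowers f) (Subgroup.mem_zpowers f)
        omega
      obtain ⟨K, hVK, hKL, hKc⟩ := exists_between V (V ⊔ Subgroup.zpowers f) le_sup_left hV4' hl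
        (show 2 ≤ 3 by omega) hl3
      exact ⟨K, hVK, ea_mono hKL hL, hKc⟩

end Cfsg.Agent.S1785
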