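import Cfsg.Statements.S1786
import Cfsg.Agent.Lib.TIMax4
import Cfsg.Agent.Lib.LocalCore
import Cfsg.Agent.Lib.PCore

set_option autoImplicit false
open Cfsg

namespace Cfsg.Agent.S1786

/-- Let G be a finite group, V an elementary abelian 2-subgroup of G and M the normalizer of V; write Q for the largest normal 2-subgroup of M. Suppose (1) the generalized Fitting subgroup of M equals Q; (2) V is a maximal abelian normal subgroup of M; (3) every conjugate of V equals V or meets V trivially, and for some g ∈ G the conjugate V' = g V g⁻¹ is different from V and contained in Q. Let P be the centralizer of V in Q, W the subgroup generated by V and V', and H the subgroup generated by P and g P g⁻¹. Then: (a) V is contained in g Q g⁻¹; (b) every non-identity element of W lies in exactly one conjugate of V contained in W, H normalizes W, and H modulo the centralizer of W in H is isomorphic to the special linear group of dimension 2 over the field with |V| elements; (c) P = Q, and V equals the Frattini subgroup, the centre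 and the commutator subgroup of Q. -/
theorem result {G : Type*} [Group G] [Finite G] (V : Subgroup G)
    (hV : Cfsg.IsElementaryAbelian 2 V)
    (h1 : (Cfsg.generalizedFittingSubgroup ↥(Subgroup.normalizer (V : Set G))).map (Subgroup.normalizer (V : Set G)).subtype =
      (Cfsg.pCore 2 ↥(Subgroup.normalizer (V : Set G))).map (Subgroup.normalizer (V : Set G)).subtype)
    (h2 : ∀ A : Subgroup G, V ≤ A → A ≤ Subgroup.normalizer (V : Set G) → IsMulCommutative ↥A →
      (∀ m ∈ Subgroup.normalizer (V : Set G), ∀ a ∈ A, m * a * m⁻¹ ∈ A) → A = V)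
    (hti : ∀ x : G, V.map (MulAut.conj x).toMonoidHom = V ∨ V.map (MulAut.conj x).toMonoidHom ⊓ V = ⊥)
    (g : G) (hg : V.map (MulAut.conj g).toMonoidHom ≠ V)
    (hgQ : V.map (MulAut.conj g).toMonoidHom ≤ (Cfsg.pCore 2 ↥(Subgroup.normalizer (V : Set G))).map (Subgroup.normalizer (V : Set G)).subtype) :
    let Q : Subgroup G := (Cfsg.pCore 2 ↥(Subgroup.normalizer (V : Set G))).map (Subgroup.normalizer (V : Set G)).subtype
    let P : Subgroup G := Q ⊓ Subgroup.centralizer (V : Set G)
    let W : Subgroup G := V ⊔ V.map (MulAut.conj g).toMonoidHom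
    let H : Subgroup G := P ⊔ P.map (MulAut.conj g).toMonoidHom
    V ≤ Q.map (MulAut.conj g).toMonoidHom ∧
      (∀ w ∈ W, w ≠ 1 → ∃! U : Subgroup G, (∃ x : G, U = V.map (MulAut.conj x).toMonoidHom) ∧ U ≤ W ∧ w ∈ U) ∧
      H ≤ Subgroup.normalizer (W : Set G) ∧
      (∀ hN : ((Subgroup.centralizer (W : Set G)).subgroupOf H).Normal, ∃ (F : Type) (_ : Field F) (_ : Fintype F), Fintype.card F = Nat.card ↥V ∧
        Nonempty (↥H ⧸ (Subgroup.centralizer (W : Set G)).subgroupOf H ≃* Matrix.SpecialLinearGroup (Fin 2) F)) ∧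
      P = Q ∧ (frattini ↥Q).map Q.subtype = V ∧ (Subgroup.center ↥Q).map Q.subtype = V ∧ (commutator ↥Q).map Q.subtype = V := by
  classical
  haveI : Fact (Nat.Prime 2) := ⟨Nat.prime_two⟩
  intro Q P W H
  let M : Subgroup G := Subgroup.normalizer (V : Set G)
  have hQmem : ∀ x, x ∈ Q ↔ ∃ h : x ∈ M, (⟨x, h⟩ : ↥M) ∈ Cfsg.pCore 2 ↥M := by
    intro x
    constructor
    · rintro ⟨y, hy, rfl⟩
      exact ⟨y.2, hy⟩
    · rintro ⟨h, hx⟩
      exact ⟨⟨x, h⟩, hx, rfl⟩
  have hpc : (Cfsg.pCore 2 ↥M).Normal := Cfsg.Agent.Lib.PCore.pCore_normal 2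
  have hFit : Cfsg.generalizedFittingSubgroup ↥M = Cfsg.pCore 2 ↥M :=
    Subgroup.map_injective M.subtype_injective h1
  have D : Cfsg.Agent.Lib.TIMax.Data V Q :=
    { comm := by
        intro x hx y hy
        have := hV.1.is_comm.comm (⟨x, hx⟩ : ↥V) (⟨y, hy⟩ : ↥V)
        exact congrArg Subtype.val this
      sq := by
        intro x hx
        rw [← pow_two]
        exact hV.2 x hx
      ti := by
        intro x v hv hv1 hxv
        rcases hti x with h | h
        · apply Cfsg.Agent.Lib.TIMax.mem_norm_of_conj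
          intro u hu
          rw [← h]
          exact ⟨u, hu, rfl⟩
        · exfalso
          have hmem : x * v * x⁻¹ ∈ V.map (MulAut.conj x).toMonoidHom ⊓ V :=
            ⟨⟨v, hv, rfl⟩, hxv⟩
          rw [h, Subgroup.mem_bot] at hmem
          apply hv1
          have e : v = x⁻¹ * (x * v * x⁻¹) * x := by group
          rw [e, hmem]
          group
      two := (Cfsg.Agent.Lib.PCore.isPGroup_pCore 2).of_equiv
        (Subgroup.equivMapOfInjective _ _ M.subtype_injective)
      QN := by
        rintro _ ⟨y, _, rfl⟩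
        exact y.2
      Qn := by
        intro m hm q hq
        obtain ⟨h, hqq⟩ := (hQmem q).1 hq
        refine (hQmem _).2 ⟨M.mul_mem (M.mul_mem hm h) (M.inv_mem hm), ?_⟩
        exact hpc.conj_mem _ hqq ⟨m, hm⟩
      Qmax := by
        intro T hT hTN hTn t ht
        have hN : (T.subgroupOf M).Normal := by
          refine ⟨fun a ha b => ?_⟩
          rw [Subgroup.mem_subgroupOf] at ha ⊢
          exact hTn _ b.2 _ ha
        have hp : IsPGroup 2 ↥(T.subgroupOf M) := by
          intro x
          obtain ⟨k, hk⟩ := hT ⟨((x : ↥M) : G), x.2⟩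
          refine ⟨k, Subtype.ext (Subtype.ext ?_)⟩
          have := congrArg Subtype.val hk
          simpa using this
        have hle := Cfsg.Agent.Lib.PCore.le_pCore hN hp
        refine (hQmem t).2 ⟨hTN ht, hle ?_⟩
        rw [Subgroup.mem_subgroupOf]
        exact ht
      cent := by
        intro c hc hcq
        have hmem : (⟨c, hc⟩ : ↥M) ∈ Subgroup.centralizer
            ((Cfsg.generalizedFittingSubgroup ↥M : Subgroup ↥M) : Set ↥M) := by
          rw [Subgroup.mem_centralizer_iff]
          intro h hh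
          rw [SetLike.mem_coe, hFit] at hh
          apply Subtype.ext
          exact (hcq _ ((hQmem h.1).2 ⟨h.2, hh⟩)).symm
        have h3 := Cfsg.Agent.Lib.LocalCore.centralizer_generalizedFitting_le hmem
        rw [hFit] at h3
        exact (hQmem c).2 ⟨hc, h3⟩
      maxab := by
        intro A hVA hAN hAc hAn
        exact h2 A hVA hAN ⟨⟨fun a b => Subtype.ext (hAc a a.2 b b.2)⟩⟩ hAn }
  have hAQ : Cfsg.Agent.Lib.TIMax.cj g V ≤ Q := hgQ
  obtain ⟨ha, hb, hc, hd, he, hf, hg', hh⟩ := D.main hAQ hg
  refine ⟨ha, hb, hc, ?_, he, hf, hg', hh⟩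
  intro hN
  obtain ⟨F, hF, hFt, hcard, τ₀, hτs₀, hτ₀⟩ := hd
  refine ⟨F, hF, hFt, hcard, ?_⟩
  let τ : ↥H →* Matrix.SpecialLinearGroup (Fin 2) F := τ₀
  have hτs : Function.Surjective τ := hτs₀
  have hτ : ∀ h : ↥H, τ h = 1 ↔ (h : G) ∈ Subgroup.centralizer (W : Set G) := hτ₀
  have hker : (Subgroup.centralizer (W : Set G)).subgroupOf H = τ.ker := by
    ext h
    rw [Subgroup.mem_subgroupOf]
    constructor
    · intro hh
      exact MonoidHom.mem_ker.2 ((hτ h).2 hh)
    · intro hh
      exact (hτ h).1 (MonoidHom.mem_ker.1 hh)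
  exact ⟨(QuotientGroup.quotientMulEquivOfEq hker).trans
    (QuotientGroup.quotientKerEquivOfSurjective τ hτs)⟩

end Cfsg.Agent.S1786
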