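import Mathlib
import Cfsg.Statements.S1957
import Cfsg.Agent.Lib.PCore
import Cfsg.Agent.Lib.BrolineGT
import Cfsg.Agent.Lib.BrauerWielandt

set_option autoImplicit false
set_option linter.unusedSectionVars false
set_option linter.style.haveILetI false
open Cfsg

namespace Cfsg.Agent.S1957

open Cfsg.Agent.Lib.PCore

variable {G : Type*} [Group G] [Finite G]

/-- The centralizer of an involution, as the normalizer of the subgroup it generates. -/
abbrev NN (x : G) : Subgroup G := Subgroup.normalizer ((Subgroup.zpowers x : Subgroup G) : Set G)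

/-- `O₂(C(x))` as a subgroup of `G`. -/
noncomputable def VV (x : G) : Subgroup G := (pCore 2 ↥(NN x)).map (NN x).subtype

theorem mem_NN {x : G} (hx : x * x = 1) {c : G} : c ∈ NN x ↔ c * x = x * c := by
  constructor
  · intro hc
    have h1 : c * x * c⁻¹ ∈ Subgroup.zpowers x :=
      (Subgroup.mem_normalizer_iff.mp hc x).mp (Subgroup.mem_zpowers x)
    obtain ⟨k, hk⟩ := Subgroup.mem_zpowers_iff.mp h1
    have h2 : x ^ k = 1 ∨ x ^ k = x := by
      rcases Int.even_or_odd' k with ⟨m, rfl | rfl⟩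
      · left
        rw [zpow_mul, zpow_two, hx, one_zpow]
      · right
        rw [zpow_add, zpow_mul, zpow_two, hx, one_zpow, one_mul, zpow_one]
    rcases h2 with h2 | h2
    · rw [h2] at hk
      have : c * x = c := by
        have h3 : c * x * c⁻¹ * c = 1 * c := by rw [← hk]
        simpa using h3
      have hx1 : x = 1 := by simpa using this
      simp [hx1]
    · rw [h2] at hk
      have h3 : c * x * c⁻¹ * c = x * c := by rw [← hk]
      simpa using h3
  · intro hc
    rw [Subgroup.mem_normalizer_iff]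
    intro h
    constructor
    · intro hh
      obtain ⟨k, rfl⟩ := Subgroup.mem_zpowers_iff.mp hh
      have hcomm : Commute c (x ^ k) := (show Commute c x from hc).zpow_right k
      have : c * x ^ k * c⁻¹ = x ^ k := by rw [hcomm.eq]; simp
      rw [this]
      exact Subgroup.zpow_mem_zpowers x k
    · intro hh
      obtain ⟨k, hk⟩ := Subgroup.mem_zpowers_iff.mp hh
      have hcomm : Commute c (x ^ k) := (show Commute c x from hc).zpow_right k
      have : h = x ^ k := by
        have h1 : c * (x ^ k) * c⁻¹ = x ^ k := by rw [hcomm.eq]; simp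
        have h2 : c * h * c⁻¹ = c * (x ^ k) * c⁻¹ := by rw [h1, hk]
        have h3 : c * h = c * (x ^ k) := by simpa using h2
        exact mul_left_cancel h3
      rw [this]
      exact Subgroup.zpow_mem_zpowers x k

theorem VV_le (x : G) : VV x ≤ NN x := Subgroup.map_subtype_le _

theorem VV_isP (x : G) : IsPGroup 2 (VV x) := by
  haveI : Fact (Nat.Prime 2) := ⟨Nat.prime_two⟩
  exact (isPGroup_pCore 2).map _

theorem VV_conj (x : G) {c w : G} (hc : c ∈ NN x) (hw : w ∈ VV x) : c * w * c⁻¹ ∈ VV x := by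
  obtain ⟨w', hw', rfl⟩ := Subgroup.mem_map.mp hw
  haveI : (pCore 2 ↥(NN x)).Characteristic := pCore_characteristic 2
  haveI : (pCore 2 ↥(NN x)).Normal := Subgroup.normal_of_characteristic _
  exact ⟨(⟨c, hc⟩ : NN x) * w' * (⟨c, hc⟩ : NN x)⁻¹, this.conj_mem _ hw' _, rfl⟩

theorem VV_cent (h2 : IsCharacteristicTwoType G) {x : G} (hx : x * x = 1) (hx1 : x ≠ 1) {w : G}
    (hw : w ∈ NN x) (hc : ∀ v ∈ VV x, w * v = v * w) : w ∈ VV x := by
  have hzp : IsPGroup 2 (Subgroup.zpowers x) := by
    haveI : Fact (Nat.Prime 2) := ⟨Nat.prime_two⟩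
    have hord : orderOf x = 2 := orderOf_eq_prime (by rw [pow_two, hx]) hx1
    exact IsPGroup.of_card (n := 1) (by rw [Nat.card_zpowers, hord]; rfl)
  have hne : Subgroup.zpowers x ≠ ⊥ := by
    simpa using hx1
  have hk := h2.2 (Subgroup.zpowers x) hzp hne
  have hmem : (⟨w, hw⟩ : NN x) ∈ Subgroup.centralizer (pCore 2 ↥(NN x) : Set ↥(NN x)) := by
    rw [Subgroup.mem_centralizer_iff]
    intro v hv
    apply Subtype.ext
    have := hc v.1 ⟨v, hv, rfl⟩
    exact this.symm
  exact ⟨_, hk hmem, rfl⟩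

theorem le_VV {x : G} {S : Subgroup G} (hS : IsPGroup 2 S) (hSN : S ≤ NN x)
    (hn : ∀ c ∈ NN x, ∀ s ∈ S, c * s * c⁻¹ ∈ S) : S ≤ VV x := by
  intro s hs
  have hnorm : (S.subgroupOf (NN x)).Normal := by
    refine ⟨fun n hn' g => ?_⟩
    rw [Subgroup.mem_subgroupOf] at hn' ⊢
    exact hn g.1 g.2 n.1 hn'
  have hp : IsPGroup 2 (S.subgroupOf (NN x)) :=
    IsPGroup.comap_of_injective hS _ Subtype.val_injective
  have := le_pCore hnorm hp (show (⟨s, hSN hs⟩ : NN x) ∈ S.subgroupOf (NN x) by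
    rw [Subgroup.mem_subgroupOf]; exact hs)
  exact ⟨_, this, rfl⟩

/-- The stability subgroup of `1 ≤ ⟨x⟩ ≤ O₂(C(x))` is contained in `O₂(C(x))`. -/
theorem VV_stab (h2 : IsCharacteristicTwoType G) {x : G} (hx : x * x = 1) (hx1 : x ≠ 1) {w : G}
    (hw : w ∈ NN x) (hst : ∀ v ∈ VV x, w * v * w⁻¹ * v⁻¹ = 1 ∨ w * v * w⁻¹ * v⁻¹ = x) :
    w ∈ VV x := by
  have hinv : x⁻¹ = x := inv_eq_of_mul_eq_one_left hx
  have hconj : ∀ c ∈ NN x, ∀ d : G, (d = 1 ∨ d = x) → (c * d * c⁻¹ = 1 ∨ c * d * c⁻¹ = x) := by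
    intro c hc d hd
    rcases hd with rfl | rfl
    · left; simp
    · right
      rw [(mem_NN hx).mp hc]; simp
  have hprod : ∀ d e : G, (d = 1 ∨ d = x) → (e = 1 ∨ e = x) → (d * e = 1 ∨ d * e = x) := by
    intro d e hd he
    rcases hd with rfl | rfl <;> rcases he with rfl | rfl <;> simp [hx]
  let S : Subgroup G :=
    { carrier := {m | m ∈ NN x ∧ ∀ v ∈ VV x, m * v * m⁻¹ * v⁻¹ = 1 ∨ m * v * m⁻¹ * v⁻¹ = x}
      mul_mem' := by
        rintro a b ⟨ha, ha'⟩ ⟨hb, hb'⟩
        refine ⟨(NN x).mul_mem ha hb, fun v hv => ?_⟩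
        have e : (a * b) * v * (a * b)⁻¹ * v⁻¹ =
            (a * (b * v * b⁻¹ * v⁻¹) * a⁻¹) * (a * v * a⁻¹ * v⁻¹) := by group
        rw [e]
        exact hprod _ _ (hconj a ha _ (hb' v hv)) (ha' v hv)
      one_mem' := by
        refine ⟨(NN x).one_mem, fun v _ => Or.inl (by simp)⟩
      inv_mem' := by
        rintro m ⟨hm, hm'⟩
        refine ⟨(NN x).inv_mem hm, fun v hv => ?_⟩
        have hv' : m⁻¹ * v * m⁻¹⁻¹ ∈ VV x := VV_conj x ((NN x).inv_mem hm) hv
        have h1 := hm' _ hv'
        have e : m⁻¹ * v * m⁻¹⁻¹ * v⁻¹ = (m * (m⁻¹ * v * m⁻¹⁻¹) * m⁻¹ * (m⁻¹ * v * m⁻¹⁻¹)⁻¹)⁻¹ := by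
          group
        rw [e]
        rcases h1 with h1 | h1
        · left; rw [h1]; simp
        · right; rw [h1, hinv] }
  have hSP : IsPGroup 2 S := by
    rintro ⟨m, hm, hm'⟩
    have hcomm : m * m ∈ VV x := by
      refine VV_cent h2 hx hx1 ((NN x).mul_mem hm hm) fun v hv => ?_
      have hmc : m * x = x * m := (mem_NN hx).mp hm
      have h1 := hm' v hv
      have h2' : m * v * m⁻¹ = (m * v * m⁻¹ * v⁻¹) * v := by group
      have hv' : m * v * m⁻¹ ∈ VV x := VV_conj x hm hv
      have h3 := hm' _ hv'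
      rcases h1 with h1 | h1
      · have h4 : m * v = v * m := by
          have : m * v * m⁻¹ = v := by rw [h2', h1, one_mul]
          calc m * v = (m * v * m⁻¹) * m := by group
            _ = v * m := by rw [this]
        calc m * m * v = m * (m * v) := by group
          _ = m * (v * m) := by rw [h4]
          _ = (m * v) * m := by group
          _ = v * m * m := by rw [h4]
          _ = v * (m * m) := by group
      · have h4 : m * v = x * v * m := by
          have : m * v * m⁻¹ = x * v := by rw [h2', h1]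
          calc m * v = (m * v * m⁻¹) * m := by group
            _ = x * v * m := by rw [this]
        calc m * m * v = m * (m * v) := by group
          _ = m * (x * v * m) := by rw [h4]
          _ = (m * x) * v * m := by group
          _ = x * m * v * m := by rw [hmc]
          _ = x * (m * v) * m := by group
          _ = x * (x * v * m) * m := by rw [h4]
          _ = (x * x) * v * (m * m) := by group
          _ = v * (m * m) := by rw [hx, one_mul]
    obtain ⟨k, hk⟩ := VV_isP x (⟨m * m, hcomm⟩ : VV x)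
    refine ⟨k + 1, Subtype.ext ?_⟩
    have hk' : (m * m) ^ (2 ^ k) = 1 := by
      have := congrArg Subtype.val hk
      simpa using this
    show m ^ (2 ^ (k + 1)) = 1
    rw [pow_succ', pow_mul, pow_two]
    exact hk'
  have hSN : S ≤ NN x := fun m hm => hm.1
  have hSn : ∀ c ∈ NN x, ∀ s ∈ S, c * s * c⁻¹ ∈ S := by
    rintro c hc s ⟨hs, hs'⟩
    refine ⟨(NN x).mul_mem ((NN x).mul_mem hc hs) ((NN x).inv_mem hc), fun v hv => ?_⟩
    have hv' : c⁻¹ * v * c⁻¹⁻¹ ∈ VV x := VV_conj x ((NN x).inv_mem hc) hv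
    have h1 := hs' _ hv'
    have e : (c * s * c⁻¹) * v * (c * s * c⁻¹)⁻¹ * v⁻¹ =
        c * (s * (c⁻¹ * v * c⁻¹⁻¹) * s⁻¹ * (c⁻¹ * v * c⁻¹⁻¹)⁻¹) * c⁻¹ := by group
    rw [e]
    exact hconj c hc _ h1
  exact le_VV hSP hSN hSn ⟨hw, hst⟩

/-- Conjugation transports `O₂(C(x))`. -/
theorem VV_transport {x : G} (hx : x * x = 1) (h : G) {w : G} (hw : w ∈ VV x) :
    h * w * h⁻¹ ∈ VV (h * x * h⁻¹) := by
  have hx' : (h * x * h⁻¹) * (h * x * h⁻¹) = 1 := by
    calc (h * x * h⁻¹) * (h * x * h⁻¹) = h * (x * x) * h⁻¹ := by group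
      _ = 1 := by rw [hx]; simp
  have hNmem : ∀ c, c ∈ NN (h * x * h⁻¹) → h⁻¹ * c * h ∈ NN x := by
    intro c hc
    rw [mem_NN hx'] at hc
    rw [mem_NN hx]
    calc h⁻¹ * c * h * x = h⁻¹ * (c * (h * x * h⁻¹)) * h := by group
      _ = h⁻¹ * ((h * x * h⁻¹) * c) * h := by rw [hc]
      _ = x * (h⁻¹ * c * h) := by group
  have hNmem' : ∀ c, c ∈ NN x → h * c * h⁻¹ ∈ NN (h * x * h⁻¹) := by
    intro c hc
    rw [mem_NN hx] at hc
    rw [mem_NN hx']
    calc h * c * h⁻¹ * (h * x * h⁻¹) = h * (c * x) * h⁻¹ := by group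
      _ = h * (x * c) * h⁻¹ := by rw [hc]
      _ = (h * x * h⁻¹) * (h * c * h⁻¹) := by group
  let S : Subgroup G := (VV x).map (MulAut.conj h).toMonoidHom
  have hSP : IsPGroup 2 S := (VV_isP x).map _
  have hS : S ≤ VV (h * x * h⁻¹) := by
    refine le_VV hSP ?_ ?_
    · rintro s ⟨v, hv, rfl⟩
      exact hNmem' v (VV_le x hv)
    · rintro c hc s ⟨v, hv, rfl⟩
      refine ⟨(h⁻¹ * c * h) * v * (h⁻¹ * c * h)⁻¹, VV_conj x (hNmem c hc) hv, ?_⟩
      simp only [MulEquiv.coe_toMonoidHom, MulAut.conj_apply]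
      group
  exact hS ⟨w, hw, by simp⟩

/-- If `A` is a maximal `2`-subgroup of `C(x)` then `O₂(C(x)) ≤ A`. -/
theorem VV_le_of_max {x : G} {A : Subgroup G} (hA : IsPGroup 2 A) (hAN : A ≤ NN x)
    (hmax : ∀ R : Subgroup G, IsPGroup 2 R → R ≤ NN x → A ≤ R → R ≤ A) : VV x ≤ A := by
  haveI : Fact (Nat.Prime 2) := ⟨Nat.prime_two⟩
  have hn : A ≤ Subgroup.normalizer (VV x : Set G) := by
    intro a ha
    rw [Subgroup.mem_normalizer_iff]
    intro v
    constructor
    · exact fun hv => VV_conj x (hAN ha) hv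
    · intro hv
      have := VV_conj x ((NN x).inv_mem (hAN ha)) hv
      simpa [mul_assoc] using this
  have hp : IsPGroup 2 (A ⊔ VV x : Subgroup G) := hA.to_sup_of_normal_right' (VV_isP x) hn
  have hle : A ⊔ VV x ≤ NN x := sup_le hAN (VV_le x)
  exact le_sup_right.trans (hmax _ hp hle le_sup_left)


section Main

variable {P U : Subgroup G}

theorem cyc_unique {A : Type*} [Group A] [Finite A] [IsCyclic A] {a b : A} (ha : a * a = 1)
    (hb : b * b = 1) (ha1 : a ≠ 1) (hb1 : b ≠ 1) : a = b := by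
  classical
  letI := Fintype.ofFinite A
  by_contra hab
  have h := IsCyclic.card_pow_eq_one_le (α := A) (n := 2) (by norm_num)
  have hsub : ({1, a, b} : Finset A) ⊆ Finset.univ.filter (fun x => x ^ 2 = 1) := by
    intro x hx
    simp only [Finset.mem_insert, Finset.mem_singleton] at hx
    rcases hx with rfl | rfl | rfl <;> simp [pow_two, *]
  have hc : ({1, a, b} : Finset A).card = 3 :=
    Finset.card_eq_three.mpr ⟨1, a, b, Ne.symm ha1, Ne.symm hb1, hab, rfl⟩
  have := Finset.card_le_card hsub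
  omega

/-- Facts about a four-subgroup. -/
structure Four (U : Subgroup G) : Prop where
  sq : ∀ a ∈ U, a * a = 1
  comm : ∀ a ∈ U, ∀ b ∈ U, a * b = b * a
  third : ∀ a ∈ U, ∀ b ∈ U, ∀ c ∈ U, a ≠ 1 → b ≠ 1 → a ≠ b → c ≠ 1 → c ≠ a → c ≠ b → c = a * b

theorem four_of_klein (h : IsKleinFour ↥U) : Four U := by
  refine ⟨fun a ha => ?_, fun a ha b hb => ?_, fun a ha b hb c hc h1 h2 h3 h4 h5 h6 => ?_⟩
  · exact congrArg Subtype.val (IsKleinFour.mul_self (⟨a, ha⟩ : U))
  · have hm : IsMulCommutative ↥U := IsKleinFour.isMulCommutative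
    exact congrArg Subtype.val (hm.is_comm.comm (⟨a, ha⟩ : U) ⟨b, hb⟩)
  · have := IsKleinFour.eq_mul_of_ne_all (G := ↥U) (x := ⟨a, ha⟩) (y := ⟨b, hb⟩) (z := ⟨c, hc⟩)
      (fun e => h1 (congrArg Subtype.val e)) (fun e => h2 (congrArg Subtype.val e))
      (fun e => h3 (congrArg Subtype.val e)) (fun e => h4 (congrArg Subtype.val e))
      (fun e => h5 (congrArg Subtype.val e)) (fun e => h6 (congrArg Subtype.val e))
    exact congrArg Subtype.val this

/-- Everything in `U` lies in `O₂(C(z))`, for `z ∈ U` central in the Sylow group `P`. -/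
theorem mem_VV_center (h2 : IsCharacteristicTwoType G) (P : Sylow 2 G) (hU : Four U)
    (hUP : U ≤ (P : Subgroup G)) (hPU : ∀ p ∈ (P : Subgroup G), ∀ a ∈ U, p * a * p⁻¹ ∈ U) {z : G}
    (hzU : z ∈ U) (hz1 : z ≠ 1) (hzP : ∀ p ∈ (P : Subgroup G), p * z = z * p) :
    ∀ w ∈ U, w ∈ VV z := by
  have hzz := hU.sq z hzU
  have hPN : (P : Subgroup G) ≤ NN z := fun p hp => (mem_NN hzz).mpr (hzP p hp)
  have hVP : VV z ≤ (P : Subgroup G) := by
    refine VV_le_of_max P.isPGroup' hPN fun R hR _ hPR => ?_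
    exact (P.is_maximal' hR hPR).le
  have hzV : z ∈ VV z := by
    refine VV_cent h2 hzz hz1 ((mem_NN hzz).mpr rfl) fun v hv => ?_
    exact ((mem_NN hzz).mp (VV_le z hv)).symm
  by_cases hex : ∃ a ∈ U, a ∈ VV z ∧ a ≠ 1 ∧ a ≠ z
  · obtain ⟨a, haU, haV, ha1, haz⟩ := hex
    intro w hw
    by_cases hw1 : w = 1
    · rw [hw1]; exact (VV z).one_mem
    by_cases hwz : w = z
    · rw [hwz]; exact hzV
    by_cases hwa : w = a
    · rw [hwa]; exact haV
    rw [hU.third z hzU a haU w hw hz1 ha1 (Ne.symm haz) hw1 hwz hwa]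
    exact (VV z).mul_mem hzV haV
  · push Not at hex
    intro w hw
    have hwN : w ∈ NN z := (mem_NN hzz).mpr (hU.comm w hw z hzU)
    refine VV_stab h2 hzz hz1 hwN fun v hv => ?_
    have h1 : w * v * w⁻¹ * v⁻¹ ∈ VV z :=
      (VV z).mul_mem (VV_conj z hwN hv) ((VV z).inv_mem hv)
    have h3 : w * v * w⁻¹ * v⁻¹ ∈ U := by
      have e : w * v * w⁻¹ * v⁻¹ = w * (v * w⁻¹ * v⁻¹) := by group
      rw [e]
      exact U.mul_mem hw (hPU v (hVP hv) _ (U.inv_mem hw))
    by_cases h4 : w * v * w⁻¹ * v⁻¹ = 1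
    · exact Or.inl h4
    · exact Or.inr (by
        by_contra h5
        exact h5 (hex _ h3 h1 h4))

/-- The noncentral elements of `U`. -/
theorem mem_VV_other (h2 : IsCharacteristicTwoType G) (P : Sylow 2 G) (hU : Four U)
    (hUP : U ≤ (P : Subgroup G)) (hPU : ∀ p ∈ (P : Subgroup G), ∀ a ∈ U, p * a * p⁻¹ ∈ U) {z : G}
    (hzU : z ∈ U) (hz1 : z ≠ 1) (hzP : ∀ p ∈ (P : Subgroup G), p * z = z * p)
    (hZ : ∀ x ∈ (P : Subgroup G), (∀ p ∈ (P : Subgroup G), p * x = x * p) → x * x = 1 → x = 1 ∨ x = z)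
    {u : G} (huU : u ∈ U) (hu1 : u ≠ 1) (huz : u ≠ z) : ∀ w ∈ U, w ∈ VV u := by
  classical
  have hzz := hU.sq z hzU
  have huu := hU.sq u huU
  have hzinv : z⁻¹ = z := inv_eq_of_mul_eq_one_left hzz
  have huinv : u⁻¹ = u := inv_eq_of_mul_eq_one_left huu
  have hzu : z * u = u * z := hU.comm z hzU u huU
  -- the dichotomy on `P`
  have hPd : ∀ p ∈ (P : Subgroup G), p * u * p⁻¹ = u ∨ p * u * p⁻¹ = z * u := by
    intro p hp
    by_cases h1 : p * u * p⁻¹ = u
    · exact Or.inl h1
    right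
    refine hU.third z hzU u huU _ (hPU p hp u huU) hz1 hu1 (Ne.symm huz) ?_ ?_ h1
    · intro e
      apply hu1
      have : p * u = p := by
        have h3 : p * u * p⁻¹ * p = 1 * p := by rw [e]
        simpa using h3
      simpa using this
    · intro e
      apply huz
      have h3 : p * u = z * p := by
        have h4 : p * u * p⁻¹ * p = z * p := by rw [e]
        simpa using h4
      rw [← hzP p hp] at h3
      exact mul_left_cancel h3
  have hnc : ¬ ∀ p ∈ (P : Subgroup G), p * u = u * p := by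
    intro h
    rcases hZ u (hUP huU) h huu with h | h
    · exact hu1 h
    · exact huz h
  push Not at hnc
  obtain ⟨t, htP, htu⟩ := hnc
  have htu' : t * u * t⁻¹ = z * u := by
    rcases hPd t htP with h | h
    · exfalso
      apply htu
      have h4 : t * u * t⁻¹ * t = u * t := by rw [h]
      simpa using h4
    · exact h
  have htz : t * z * t⁻¹ = z := by
    rw [hzP t htP]; simp
  have hP₀ : ∀ p ∈ (P : Subgroup G), p * u = u * p ↔ p * u * p⁻¹ = u := by
    intro p _
    constructor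
    · intro h; rw [h]; simp
    · intro h
      have h4 : p * u * p⁻¹ * p = u * p := by rw [h]
      simpa using h4
  let P₀ : Subgroup G := (P : Subgroup G) ⊓ Subgroup.centralizer ({u} : Set G)
  have memP₀ : ∀ {x : G}, x ∈ P₀ ↔ x ∈ (P : Subgroup G) ∧ x * u = u * x := by
    intro x
    simp only [P₀, Subgroup.mem_inf, Subgroup.mem_centralizer_singleton_iff]
  -- `P₀` centralizes `U`
  have hUcases : ∀ a ∈ U, a = 1 ∨ a = z ∨ a = u ∨ a = z * u := by
    intro a ha
    by_cases h1 : a = 1
    · exact Or.inl h1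
    by_cases h2' : a = z
    · exact Or.inr (Or.inl h2')
    by_cases h3 : a = u
    · exact Or.inr (Or.inr (Or.inl h3))
    exact Or.inr (Or.inr (Or.inr (hU.third z hzU u huU a ha hz1 hu1 (Ne.symm huz) h1 h2' h3)))
  have hP₀U : ∀ y ∈ P₀, ∀ a ∈ U, y * a = a * y := by
    intro y hy a ha
    obtain ⟨hyP, hyu⟩ := memP₀.mp hy
    have hyz := hzP y hyP
    rcases hUcases a ha with rfl | rfl | rfl | rfl
    · simp
    · exact hyz
    · exact hyu
    · calc y * (z * u) = (y * z) * u := by group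
        _ = (z * y) * u := by rw [hyz]
        _ = z * (y * u) := by group
        _ = z * (u * y) := by rw [hyu]
        _ = z * u * y := by group
  have hUP₀ : U ≤ P₀ := fun a ha => memP₀.mpr ⟨hUP ha, hU.comm a ha u huU⟩
  -- normality of `P₀` in `P`
  have hP₀n : ∀ p ∈ (P : Subgroup G), ∀ y ∈ P₀, p * y * p⁻¹ ∈ P₀ := by
    intro p hp y hy
    obtain ⟨hyP, hyu⟩ := memP₀.mp hy
    refine memP₀.mpr ⟨(P : Subgroup G).mul_mem ((P : Subgroup G).mul_mem hp hyP)
      ((P : Subgroup G).inv_mem hp), ?_⟩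
    have h1 : p⁻¹ * u * p⁻¹⁻¹ ∈ U := hPU _ ((P : Subgroup G).inv_mem hp) u huU
    have h3 := hP₀U y hy _ h1
    calc p * y * p⁻¹ * u = p * (y * (p⁻¹ * u * p⁻¹⁻¹)) * p⁻¹ := by group
      _ = p * ((p⁻¹ * u * p⁻¹⁻¹) * y) * p⁻¹ := by rw [h3]
      _ = u * (p * y * p⁻¹) := by group
  have htt : t * t ∈ P₀ := by
    refine memP₀.mpr ⟨(P : Subgroup G).mul_mem htP htP, ?_⟩
    have h1 : t * (t * u * t⁻¹) * t⁻¹ = u := by
      rw [htu']
      calc t * (z * u) * t⁻¹ = (t * z * t⁻¹) * (t * u * t⁻¹) := by group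
        _ = z * (z * u) := by rw [htz, htu']
        _ = (z * z) * u := by group
        _ = u := by rw [hzz, one_mul]
    calc t * t * u = (t * (t * u * t⁻¹) * t⁻¹) * (t * t) := by group
      _ = u * (t * t) := by rw [h1]
  -- cosets
  have hcos : ∀ p ∈ (P : Subgroup G), p ∈ P₀ ∨ t⁻¹ * p ∈ P₀ := by
    intro p hp
    rcases hPd p hp with h | h
    · exact Or.inl (memP₀.mpr ⟨hp, (hP₀ p hp).mpr h⟩)
    · right
      refine memP₀.mpr ⟨(P : Subgroup G).mul_mem ((P : Subgroup G).inv_mem htP) hp, ?_⟩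
      have h3 : p * u = z * u * p := by
        have h4 : p * u * p⁻¹ * p = z * u * p := by rw [h]
        simpa using h4
      have h5 : t * u = z * u * t := by
        have h4 : t * u * t⁻¹ * t = z * u * t := by rw [htu']
        simpa using h4
      calc t⁻¹ * p * u = t⁻¹ * (p * u) := by group
        _ = t⁻¹ * (z * u * p) := by rw [h3]
        _ = t⁻¹ * (z * u) * p := by group
        _ = u * (t⁻¹ * p) := by
          have h6 : t⁻¹ * (z * u) = u * t⁻¹ := by
            rw [← htu']; group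
          rw [h6]; group
  -- centre of `P` from `P₀` and `t`
  have hcen : ∀ x ∈ P₀, (∀ y ∈ P₀, y * x = x * y) → t * x * t⁻¹ = x →
      ∀ p ∈ (P : Subgroup G), p * x = x * p := by
    intro x hx hc ht p hp
    have htc : t * x = x * t := by
      have h4 : t * x * t⁻¹ * t = x * t := by rw [ht]
      simpa using h4
    rcases hcos p hp with h | h
    · exact hc p h
    · have h1 := hc _ h
      calc p * x = t * (t⁻¹ * p * x) := by group
        _ = t * (x * (t⁻¹ * p)) := by rw [h1]
        _ = (t * x) * (t⁻¹ * p) := by group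
        _ = (x * t) * (t⁻¹ * p) := by rw [htc]
        _ = x * p := by group
  -- the `W`-lemma
  have hW : ∀ x ∈ P₀, (∀ y ∈ P₀, y * x = x * y) → x * x = 1 → x ∈ U := by
    intro x hx hc hxx
    have hxt : t * x * t⁻¹ ∈ P₀ := hP₀n t htP x hx
    have hxtc : ∀ y ∈ P₀, y * (t * x * t⁻¹) = (t * x * t⁻¹) * y := by
      intro y hy
      have h1 := hc _ (hP₀n t⁻¹ ((P : Subgroup G).inv_mem htP) y hy)
      calc y * (t * x * t⁻¹) = t * ((t⁻¹ * y * t⁻¹⁻¹) * x) * t⁻¹ := by group
        _ = t * (x * (t⁻¹ * y * t⁻¹⁻¹)) * t⁻¹ := by rw [h1]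
        _ = (t * x * t⁻¹) * y := by group
    have hxtt : t * (t * x * t⁻¹) * t⁻¹ = x := by
      have h1 := hc _ htt
      calc t * (t * x * t⁻¹) * t⁻¹ = (t * t) * x * (t * t)⁻¹ := by group
        _ = x * (t * t) * (t * t)⁻¹ := by rw [h1]
        _ = x := by group
    obtain ⟨x', hx'⟩ : ∃ x', x' = t * x * t⁻¹ := ⟨_, rfl⟩
    rw [← hx'] at hxt hxtc hxtt
    have hxx'c : x * x' = x' * x := (hxtc x hx)
    have hxx' : x' * x' = 1 := by
      rw [hx']
      calc t * x * t⁻¹ * (t * x * t⁻¹) = t * (x * x) * t⁻¹ := by group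
        _ = 1 := by rw [hxx]; simp
    obtain ⟨c, hc'⟩ : ∃ c, c = x * x' := ⟨_, rfl⟩
    have hcP₀ : c ∈ P₀ := by rw [hc']; exact P₀.mul_mem hx hxt
    have hcc : ∀ y ∈ P₀, y * c = c * y := by
      intro y hy
      rw [hc']
      calc y * (x * x') = (y * x) * x' := by group
        _ = (x * y) * x' := by rw [hc y hy]
        _ = x * (y * x') := by group
        _ = x * (x' * y) := by rw [hxtc y hy]
        _ = x * x' * y := by group
    have hct : t * c * t⁻¹ = c := by
      rw [hc']
      calc t * (x * x') * t⁻¹ = (t * x * t⁻¹) * (t * x' * t⁻¹) := by group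
        _ = x' * x := by rw [hxtt, ← hx']
        _ = x * x' := hxx'c.symm
    have hcsq : c * c = 1 := by
      rw [hc']
      calc x * x' * (x * x') = x * (x' * x) * x' := by group
        _ = x * (x * x') * x' := by rw [hxx'c]
        _ = (x * x) * (x' * x') := by group
        _ = 1 := by rw [hxx, hxx', one_mul]
    rcases hZ c (memP₀.mp hcP₀).1 (hcen c hcP₀ hcc hct) hcsq with hc1 | hc1
    · -- `t` fixes `x`
      have hx'x : x' = x := by
        have h1 : x * x' = 1 := by rw [← hc', hc1]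
        have h3 : x * x' = x * x := by rw [h1, hxx]
        exact mul_left_cancel h3
      rcases hZ x (memP₀.mp hx).1 (hcen x hx hc (hx'.symm.trans hx'x)) hxx with h | h
      · rw [h]; exact U.one_mem
      · rw [h]; exact hzU
    · -- `x u` is fixed by `t`
      have hxu : x * u ∈ P₀ := P₀.mul_mem hx (hUP₀ huU)
      have hx'z : x' = x * z := by
        have h1 : x * x' = z := by rw [← hc', hc1]
        calc x' = (x * x) * x' := by rw [hxx, one_mul]
          _ = x * (x * x') := by group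
          _ = x * z := by rw [h1]
      have hxuc : ∀ y ∈ P₀, y * (x * u) = (x * u) * y := by
        intro y hy
        calc y * (x * u) = (y * x) * u := by group
          _ = (x * y) * u := by rw [hc y hy]
          _ = x * (y * u) := by group
          _ = x * (u * y) := by rw [(memP₀.mp hy).2]
          _ = x * u * y := by group
      have hxut : t * (x * u) * t⁻¹ = x * u := by
        calc t * (x * u) * t⁻¹ = (t * x * t⁻¹) * (t * u * t⁻¹) := by group
          _ = (x * z) * (z * u) := by rw [← hx', hx'z, htu']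
          _ = x * (z * z) * u := by group
          _ = x * u := by rw [hzz, mul_one]
      have hxusq : (x * u) * (x * u) = 1 := by
        have h3 : x * u = u * x := (hc u (hUP₀ huU)).symm
        calc (x * u) * (x * u) = x * (u * x) * u := by group
          _ = x * (x * u) * u := by rw [h3]
          _ = (x * x) * (u * u) := by group
          _ = 1 := by rw [hxx, huu, one_mul]
      have hfinal : x = (x * u) * u := by
        calc x = x * (u * u) := by rw [huu, mul_one]
          _ = (x * u) * u := by group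
      rcases hZ _ (memP₀.mp hxu).1 (hcen _ hxu hxuc hxut) hxusq with h | h
      · rw [hfinal, h, one_mul]; exact huU
      · rw [hfinal, h]; exact U.mul_mem hzU huU
  -- the card bound
  have hcard : Nat.card (P : Subgroup G) ≤ 2 * Nat.card P₀ := by
    have hsub : ((P : Subgroup G) : Set G) ⊆ (P₀ : Set G) ∪ (fun a => t * a) '' (P₀ : Set G) := by
      intro p hp
      rcases hcos p hp with h | h
      · exact Or.inl h
      · exact Or.inr ⟨t⁻¹ * p, h, by simp⟩
    have h1 := Set.ncard_le_ncard hsub (Set.toFinite _)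
    have h3 := Set.ncard_union_le (P₀ : Set G) ((fun a => t * a) '' (P₀ : Set G))
    have h4 : ((fun a => t * a) '' (P₀ : Set G)).ncard = (P₀ : Set G).ncard :=
      Set.ncard_image_of_injective _ (mul_right_injective t)
    have e1 : Nat.card (P : Subgroup G) = ((P : Subgroup G) : Set G).ncard :=
      Nat.card_coe_set_eq _
    have e2 : Nat.card P₀ = (P₀ : Set G).ncard := Nat.card_coe_set_eq _
    rw [e1, e2]
    omega
  by_cases hmax : ∀ R : Subgroup G, IsPGroup 2 R → R ≤ NN u → P₀ ≤ R → R ≤ P₀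
  · -- `P₀` is a Sylow subgroup of `C(u)`
    have hP₀N : P₀ ≤ NN u := fun x hx => (mem_NN huu).mpr (memP₀.mp hx).2
    have hP₀p : IsPGroup 2 P₀ := P.isPGroup'.to_le inf_le_left
    have hVP₀ : VV u ≤ P₀ := VV_le_of_max hP₀p hP₀N hmax
    have hzN : z ∈ NN u := (mem_NN huu).mpr hzu
    have hzV : z ∈ VV u := by
      refine VV_cent h2 huu hu1 hzN fun v hv => ?_
      exact (hzP v (memP₀.mp (hVP₀ hv)).1).symm
    have huV : u ∈ VV u := by
      refine VV_cent h2 huu hu1 ((mem_NN huu).mpr rfl) fun v hv => ?_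
      exact ((mem_NN huu).mp (VV_le u hv)).symm
    intro w hw
    rcases hUcases w hw with rfl | rfl | rfl | rfl
    · exact (VV u).one_mem
    · exact hzV
    · exact huV
    · exact (VV u).mul_mem hzV huV
  · push Not at hmax
    obtain ⟨R, hRp, hRN, hP₀R, hnot⟩ := hmax
    haveI : Fact (Nat.Prime 2) := ⟨Nat.prime_two⟩
    let Q : Subgroup G := R ⊓ Subgroup.normalizer (P₀ : Set G)
    have hP₀Q : P₀ ≤ Q := le_inf hP₀R Subgroup.le_normalizer
    -- `P₀ < Q`
    have hex : ∃ g ∈ Q, g ∉ P₀ := by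
      have hnil : Group.IsNilpotent ↥R := hRp.isNilpotent
      have hlt : P₀.subgroupOf R < ⊤ := by
        rw [lt_top_iff_ne_top]
        intro e
        apply hnot
        intro r hr
        have : (⟨r, hr⟩ : R) ∈ P₀.subgroupOf R := by rw [e]; trivial
        exact this
      have := Group.normalizerCondition_of_isNilpotent (G := ↥R) _ hlt
      obtain ⟨x, hx1, hx2⟩ := SetLike.exists_of_lt this
      refine ⟨x.1, ⟨x.2, ?_⟩, fun h => hx2 (by rwa [Subgroup.mem_subgroupOf])⟩
      show x.1 ∈ Subgroup.normalizer (P₀ : Set G)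
      rw [Subgroup.mem_normalizer_iff]
      intro h
      constructor
      · intro hh
        have h1 : (⟨h, hP₀R hh⟩ : R) ∈ P₀.subgroupOf R := by rwa [Subgroup.mem_subgroupOf]
        have h3 := (Subgroup.mem_normalizer_iff.mp hx1 _).mp h1
        rwa [Subgroup.mem_subgroupOf] at h3
      · intro hh
        have hhR : h ∈ R := by
          have := R.mul_mem (R.mul_mem (R.inv_mem x.2) (hP₀R hh)) x.2
          simpa [mul_assoc] using this
        have h1 := (Subgroup.mem_normalizer_iff.mp hx1 ⟨h, hhR⟩).mpr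
          (by rw [Subgroup.mem_subgroupOf]; exact hh)
        rwa [Subgroup.mem_subgroupOf] at h1
    obtain ⟨g₀, hg₀Q, hg₀⟩ := hex
    have hcardQ : Nat.card (P : Subgroup G) ≤ Nat.card Q := by
      obtain ⟨k, hk⟩ := Subgroup.card_dvd_of_le hP₀Q
      have hpos : 0 < Nat.card P₀ := Nat.card_pos
      have hQpos : 0 < Nat.card Q := Nat.card_pos
      have hk0 : k ≠ 0 := by
        rintro rfl
        omega
      have hk1 : k ≠ 1 := by
        rintro rfl
        have : P₀ = Q := Subgroup.eq_of_le_of_card_ge hP₀Q (by omega)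
        exact hg₀ (this ▸ hg₀Q)
      have hk2 : 2 ≤ k := by omega
      have : 2 * Nat.card P₀ ≤ Nat.card Q := by
        rw [hk, mul_comm]
        exact Nat.mul_le_mul_left _ hk2
      omega
    have hQp : IsPGroup 2 Q := hRp.to_le inf_le_left
    obtain ⟨S, hQS⟩ := hQp.exists_le_sylow
    have hSc : Nat.card (S : Subgroup G) = Nat.card (P : Subgroup G) := by
      rw [Sylow.card_eq_multiplicity, Sylow.card_eq_multiplicity]
    have hQS' : Q = S := Subgroup.eq_of_le_of_card_ge hQS (by rw [hSc]; exact hcardQ)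
    obtain ⟨h, hh⟩ := MulAction.exists_smul_eq G S P
    have hmemP : ∀ p, p ∈ (P : Subgroup G) ↔ h⁻¹ * p * h ∈ Q := by
      intro p
      rw [← hh, hQS', Sylow.coe_subgroup_smul, mem_conj_smul_iff]
    by_cases hcomm : ∀ x ∈ Q, x * z = z * x
    · exfalso
      have hZ1 : ∀ a ∈ Q, (∀ x ∈ Q, x * a = a * x) → a * a = 1 → a ≠ 1 → h * a * h⁻¹ = z := by
        intro a haQ hac haa ha1
        have h1 : h * a * h⁻¹ ∈ (P : Subgroup G) := by
          rw [hmemP]
          have e : h⁻¹ * (h * a * h⁻¹) * h = a := by group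
          rw [e]
          exact haQ
        have h3 : ∀ p ∈ (P : Subgroup G), p * (h * a * h⁻¹) = (h * a * h⁻¹) * p := by
          intro p hp
          have h4 := hac _ ((hmemP p).mp hp)
          calc p * (h * a * h⁻¹) = h * ((h⁻¹ * p * h) * a) * h⁻¹ := by group
            _ = h * (a * (h⁻¹ * p * h)) * h⁻¹ := by rw [h4]
            _ = (h * a * h⁻¹) * p := by group
        have h5 : (h * a * h⁻¹) * (h * a * h⁻¹) = 1 := by
          calc (h * a * h⁻¹) * (h * a * h⁻¹) = h * (a * a) * h⁻¹ := by group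
            _ = 1 := by rw [haa]; simp
        rcases hZ _ h1 h3 h5 with h6 | h6
        · exfalso
          apply ha1
          have : h * a = h := by
            have h7 : h * a * h⁻¹ * h = 1 * h := by rw [h6]
            simpa using h7
          simpa using this
        · exact h6
      have h1 := hZ1 u (hP₀Q (hUP₀ huU)) (fun x hx => (mem_NN huu).mp (hRN hx.1)) huu hu1
      have h3 := hZ1 z (hP₀Q (hUP₀ hzU)) hcomm hzz hz1
      apply huz
      have h4 : h * u * h⁻¹ = h * z * h⁻¹ := h1.trans h3.symm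
      have h5 : h * u = h * z := by simpa using h4
      exact mul_left_cancel h5
    · push Not at hcomm
      obtain ⟨g, hgQ, hgz⟩ := hcomm
      have hgu : g * u = u * g := (mem_NN huu).mp (hRN hgQ.1)
      have hgn : g ∈ Subgroup.normalizer (P₀ : Set G) := hgQ.2
      have hconjW : ∀ g' ∈ Subgroup.normalizer (P₀ : Set G), ∀ a ∈ U, g' * a * g'⁻¹ ∈ U := by
        intro g' hg' a ha
        refine hW _ ((Subgroup.mem_normalizer_iff.mp hg' a).mp (hUP₀ ha)) ?_ ?_
        · intro y hy
          have hy' : g'⁻¹ * y * g'⁻¹⁻¹ ∈ P₀ :=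
            (Subgroup.mem_normalizer_iff.mp
              ((Subgroup.normalizer (P₀ : Set G)).inv_mem hg') y).mp hy
          have h4 := hP₀U _ hy' a ha
          calc y * (g' * a * g'⁻¹) = g' * ((g'⁻¹ * y * g'⁻¹⁻¹) * a) * g'⁻¹ := by group
            _ = g' * (a * (g'⁻¹ * y * g'⁻¹⁻¹)) * g'⁻¹ := by rw [h4]
            _ = (g' * a * g'⁻¹) * y := by group
        · calc (g' * a * g'⁻¹) * (g' * a * g'⁻¹) = g' * (a * a) * g'⁻¹ := by group
            _ = 1 := by rw [hU.sq a ha]; simp
      have hgz' : g * z * g⁻¹ = z * u := by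
        refine hU.third z hzU u huU _ (hconjW g hgn z hzU) hz1 hu1 (Ne.symm huz) ?_ ?_ ?_
        · intro e
          apply hz1
          have : g * z = g := by
            have h7 : g * z * g⁻¹ * g = 1 * g := by rw [e]
            simpa using h7
          simpa using this
        · intro e
          apply hgz
          have h7 : g * z * g⁻¹ * g = z * g := by rw [e]
          simpa using h7
        · intro e
          apply huz
          have h7 : g * z = g * u := by
            have h8 : g * z * g⁻¹ * g = u * g := by rw [e]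
            rw [hgu]
            simpa using h8
          exact (mul_left_cancel h7).symm
      obtain ⟨k, hk⟩ : ∃ k, k = g⁻¹ * t := ⟨_, rfl⟩
      have hku : k * u * k⁻¹ = z := by
        have h7 : g⁻¹ * (z * u) * g = z := by
          rw [← hgz']; group
        rw [hk]
        calc g⁻¹ * t * u * (g⁻¹ * t)⁻¹ = g⁻¹ * (t * u * t⁻¹) * g := by group
          _ = z := by rw [htu', h7]
      intro w hw
      have hw' : k * w * k⁻¹ ∈ U := by
        have h7 := hconjW g⁻¹ ((Subgroup.normalizer (P₀ : Set G)).inv_mem hgn) _ (hPU t htP w hw)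
        have e : k * w * k⁻¹ = g⁻¹ * (t * w * t⁻¹) * g⁻¹⁻¹ := by rw [hk]; group
        rw [e]
        exact h7
      have hV : k * w * k⁻¹ ∈ VV z :=
        mem_VV_center h2 P hU hUP hPU hzU hz1 hzP _ hw'
      have h8 := VV_transport hzz k⁻¹ hV
      have e1 : k⁻¹ * z * k⁻¹⁻¹ = u := by rw [← hku]; group
      have e2 : k⁻¹ * (k * w * k⁻¹) * k⁻¹⁻¹ = w := by group
      rwa [e1, e2] at h8

end Main


/-- Let `G` be a finite non-abelian simple group in which every local subgroup is solvable and which is of characteristic 2 type. Let `P` be a Sylow 2-subgroup of `G` and `U` a normal subgroup of `P` that is a four-group, with `U` central in `P` if the centre of `P` is not cyclic. Then `U` centralizes every subgroup of odd order of `G` that it normalizes. -/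
theorem result {G : Type*} [Group G] [Finite G]
    [IsSimpleGroup G] (hna : ¬ IsMulCommutative G) (hN : Cfsg.IsNGroup G) (h2 : Cfsg.IsCharacteristicTwoType G)
    (P : Sylow 2 G) (U : Subgroup G) (hUP : U ≤ (P : Subgroup G)) (hUn : (P : Subgroup G) ≤ Subgroup.normalizer (U : Set G))
    (hU4 : IsKleinFour ↥U)
    (hUZ : ¬ IsCyclic ↥((P : Subgroup G) ⊓ Subgroup.centralizer ((P : Subgroup G) : Set G)) →
      U ≤ Subgroup.centralizer ((P : Subgroup G) : Set G))
    (K : Subgroup G) (hK : Odd (Nat.card K)) (hUK : U ≤ Subgroup.normalizer (K : Set G)) :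
    U ≤ Subgroup.centralizer (K : Set G) := by
  classical
  have hU : Four U := four_of_klein hU4
  have hPU : ∀ p ∈ (P : Subgroup G), ∀ a ∈ U, p * a * p⁻¹ ∈ U := fun p hp a ha =>
    (Subgroup.mem_normalizer_iff.mp (hUn hp) a).mp ha
  -- all of `U` lies in `O₂(C(v))`
  have key : ∀ v ∈ U, v ≠ 1 → ∀ w ∈ U, w ∈ VV v := by
    by_cases hc : U ≤ Subgroup.centralizer ((P : Subgroup G) : Set G)
    · intro v hv hv1 w hw
      have hvv := hU.sq v hv
      have hcp : ∀ a ∈ U, ∀ p ∈ (P : Subgroup G), p * a = a * p := fun a ha p hp =>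
        (Subgroup.mem_centralizer_iff.mp (hc ha)) p hp
      have hPN : (P : Subgroup G) ≤ NN v := fun p hp => (mem_NN hvv).mpr (hcp v hv p hp)
      have hVP : VV v ≤ (P : Subgroup G) := by
        refine VV_le_of_max P.isPGroup' hPN fun R hR _ hPR => ?_
        exact (P.is_maximal' hR hPR).le
      refine VV_cent h2 hvv hv1 ((mem_NN hvv).mpr (hU.comm w hw v hv)) fun y hy => ?_
      exact (hcp w hw y (hVP hy)).symm
    · have hcyc : IsCyclic ↥((P : Subgroup G) ⊓ Subgroup.centralizer ((P : Subgroup G) : Set G)) := by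
        by_contra h
        exact hc (hUZ h)
      -- a central element of `U`
      haveI : Fact (Nat.Prime 2) := ⟨Nat.prime_two⟩
      have hnil : Group.IsNilpotent ↥(P : Subgroup G) := P.isPGroup'.isNilpotent
      haveI hnorm : (U.subgroupOf (P : Subgroup G)).Normal := by
        refine ⟨fun n hn' g => ?_⟩
        rw [Subgroup.mem_subgroupOf] at hn' ⊢
        exact hPU g.1 g.2 n.1 hn'
      have hUne : U.subgroupOf (P : Subgroup G) ≠ ⊥ := by
        intro e
        apply hc
        intro a ha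
        have h1 : (⟨a, hUP ha⟩ : (P : Subgroup G)) ∈ U.subgroupOf (P : Subgroup G) := by
          rw [Subgroup.mem_subgroupOf]; exact ha
        rw [e, Subgroup.mem_bot] at h1
        have h3 : a = 1 := congrArg Subtype.val h1
        rw [h3]
        exact Subgroup.one_mem _
      have hne := Cfsg.Agent.Lib.BrolineGT.inf_center_ne_bot (U.subgroupOf (P : Subgroup G)) hUne
      obtain ⟨⟨a, haM⟩, ha1⟩ := Subgroup.ne_bot_iff_exists_ne_one.mp hne
      have hzU : a.1 ∈ U := by
        have : a ∈ U.subgroupOf (P : Subgroup G) := haM.1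
        rwa [Subgroup.mem_subgroupOf] at this
      have hz1 : a.1 ≠ 1 := by
        intro e
        apply ha1
        apply Subtype.ext
        apply Subtype.ext
        exact e
      have hzP : ∀ p ∈ (P : Subgroup G), p * a.1 = a.1 * p := by
        intro p hp
        have := (Subgroup.mem_center_iff.mp haM.2) ⟨p, hp⟩
        exact congrArg Subtype.val this
      have hZ : ∀ x ∈ (P : Subgroup G), (∀ p ∈ (P : Subgroup G), p * x = x * p) → x * x = 1 →
          x = 1 ∨ x = a.1 := by
        intro x hxP hxc hxx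
        by_cases hx1 : x = 1
        · exact Or.inl hx1
        right
        have hxM : x ∈ (P : Subgroup G) ⊓ Subgroup.centralizer ((P : Subgroup G) : Set G) :=
          ⟨hxP, Subgroup.mem_centralizer_iff.mpr fun p hp => hxc p hp⟩
        have haM' : a.1 ∈ (P : Subgroup G) ⊓ Subgroup.centralizer ((P : Subgroup G) : Set G) :=
          ⟨a.2, Subgroup.mem_centralizer_iff.mpr fun p hp => hzP p hp⟩
        have := cyc_unique (A := ↥((P : Subgroup G) ⊓ Subgroup.centralizer ((P : Subgroup G) : Set G)))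
          (a := ⟨x, hxM⟩) (b := ⟨a.1, haM'⟩) (Subtype.ext hxx) (Subtype.ext (hU.sq _ hzU))
          (fun e => hx1 (congrArg Subtype.val e)) (fun e => hz1 (congrArg Subtype.val e))
        exact congrArg Subtype.val this
      intro v hv hv1
      by_cases hvz : v = a.1
      · rw [hvz]
        exact mem_VV_center h2 P hU hUP hPU hzU hz1 hzP
      · exact mem_VV_other h2 P hU hUP hPU hzU hz1 hzP hZ hv hv1 hvz
  have hfin : ∀ v ∈ U, v ≠ 1 → ∀ y ∈ K, y * v = v * y → ∀ w ∈ U, y * w = w * y := by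
    intro v hv hv1 y hy hyv w hw
    have hwV := key v hv hv1 w hw
    have hyN : y ∈ NN v := (mem_NN (hU.sq v hv)).mpr hyv
    have hcV : y * w * y⁻¹ * w⁻¹ ∈ VV v :=
      (VV v).mul_mem (VV_conj v hyN hwV) ((VV v).inv_mem hwV)
    have hcK : y * w * y⁻¹ * w⁻¹ ∈ K := by
      have e : y * w * y⁻¹ * w⁻¹ = y * (w * y⁻¹ * w⁻¹) := by group
      rw [e]
      exact K.mul_mem hy ((Subgroup.mem_normalizer_iff.mp (hUK hw) y⁻¹).mp (K.inv_mem hy))
    obtain ⟨k, hk⟩ := VV_isP v (⟨_, hcV⟩ : VV v)
    have hk' : (y * w * y⁻¹ * w⁻¹) ^ (2 ^ k) = 1 := by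
      have := congrArg Subtype.val hk
      simpa using this
    have h1 : orderOf (y * w * y⁻¹ * w⁻¹) ∣ 2 ^ k := orderOf_dvd_of_pow_eq_one hk'
    have h3 : orderOf (y * w * y⁻¹ * w⁻¹) ∣ Nat.card K := Subgroup.orderOf_dvd_natCard K hcK
    have hcop : Nat.Coprime (2 ^ k) (Nat.card K) :=
      Nat.Coprime.pow_left k (Nat.coprime_two_left.mpr hK)
    have h4 : orderOf (y * w * y⁻¹ * w⁻¹) = 1 := Nat.eq_one_of_dvd_coprimes hcop h1 h3
    have h5 : y * w * y⁻¹ * w⁻¹ = 1 := orderOf_eq_one_iff.mp h4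
    have h6 : y * w * y⁻¹ * w⁻¹ * (w * y) = 1 * (w * y) := by rw [h5]
    simpa [mul_assoc] using h6
  haveI : Fact (Nat.Prime 2) := ⟨Nat.prime_two⟩
  have hA : Cfsg.IsElementaryAbelian 2 U :=
    ⟨IsKleinFour.isMulCommutative, fun a ha => by rw [pow_two]; exact hU.sq a ha⟩
  have hA2 : 2 ^ 2 ≤ Nat.card ↥U := by
    rw [IsKleinFour.card_four]; norm_num
  have hK' : ¬ 2 ∣ Nat.card ↥K := by
    rw [← even_iff_two_dvd]
    exact Nat.not_even_iff_odd.mpr hK
  have hUnC : U ≤ Subgroup.centralizer (U : Set G) := fun a ha =>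
    Subgroup.mem_centralizer_iff.mpr fun b hb => hU.comm b hb a ha
  have hmain := Cfsg.Agent.Lib.BrauerWielandt.factorization_of_noncyclic (p := 2) U K
    (K ⊓ Subgroup.centralizer (U : Set G)) ⊥ hA hA2 hK' hUK inf_le_left bot_le
    (by
      intro a ha
      rw [Subgroup.mem_normalizer_iff]
      intro x
      have h1 := Subgroup.mem_normalizer_iff.mp (hUK ha) x
      have h3 := Subgroup.mem_normalizer_iff.mp
        ((Subgroup.le_normalizer (H := Subgroup.centralizer (U : Set G))) (hUnC ha)) x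
      simp only [Subgroup.mem_inf, SetLike.mem_coe] at h1 h3 ⊢
      rw [h1, h3])
    (by
      intro a _
      rw [Subgroup.mem_normalizer_iff]
      intro x
      simp only [Subgroup.mem_bot]
      constructor
      · rintro rfl; simp
      · intro h
        have : a * x = a := by
          have h7 : a * x * a⁻¹ * a = 1 * a := by rw [h]
          simpa using h7
        simpa using this)
    (by
      intro a ha ha1
      ext x
      constructor
      · rintro ⟨hxK, hxa⟩
        refine Set.mem_mul.mpr ⟨x, ⟨⟨hxK, ?_⟩, hxa⟩, 1, ⟨Subgroup.one_mem _, Subgroup.one_mem _⟩, mul_one x⟩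
        refine Subgroup.mem_centralizer_iff.mpr fun w hw => ?_
        exact (hfin a ha ha1 x hxK (Subgroup.mem_centralizer_singleton_iff.mp hxa) w hw).symm
      · rintro ⟨p, hp, q, hq, rfl⟩
        have hq1 : q = 1 := by
          have := hq.1
          simpa using this
        subst hq1
        show p * 1 ∈ K ⊓ Subgroup.centralizer {a}
        rw [mul_one]
        exact ⟨hp.1.1, hp.2⟩)
  intro a ha
  refine Subgroup.mem_centralizer_iff.mpr fun k hk => ?_
  have h1 : k ∈ ((K : Subgroup G) : Set G) := hk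
  rw [hmain] at h1
  obtain ⟨p, hp, q, hq, rfl⟩ := h1
  have hq1 : q = 1 := by simpa using hq
  subst hq1
  show p * 1 * a = a * (p * 1)
  rw [mul_one]
  have := Subgroup.mem_centralizer_iff.mp hp.2 a ha
  exact this.symm

end Cfsg.Agent.S1957
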