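import Mathlib
import Cfsg.Statements.S1958
import Cfsg.Agent.Lib.PCore
import Cfsg.Agent.Lib.PConstr
import Cfsg.Agent.Lib.LocalBalance3
import Cfsg.Agent.Lib.PSolv
import Cfsg.Agent.Lib.MaxPNilp

set_option autoImplicit false
open Cfsg

namespace Cfsg.Agent.S1958


section Aux

open Cfsg.Agent.Lib.PCore Cfsg.Agent.Lib.PConstr Cfsg.Agent.Lib.LocalBalance3

variable {G : Type*} [Group G] [Finite G] {p : ℕ} [Fact p.Prime]

theorem half (x y : G) (hx : orderOf x = p) (hxy : x * y = y * x)
    (hCy : Group.IsSolvable ↥(Subgroup.centralizer ({y} : Set G))) :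
    Cfsg.centralizerPPrimeCore p x ⊓ Subgroup.centralizer {y} ≤
      Cfsg.centralizerPPrimeCore p y ⊓ Subgroup.centralizer {x} := by
  intro t ht
  obtain ⟨ht1, ht2⟩ := Subgroup.mem_inf.mp ht
  refine Subgroup.mem_inf.mpr ⟨?_, ?_⟩
  · set L := Subgroup.centralizer ({y} : Set G) with hL
    have hsol : IsPSolvable p ↥L := Cfsg.Agent.Lib.MaxPNilp.isPSolvable_of_isSolvable p hCy
    have hc := Cfsg.Agent.Lib.PSolv.centralizer_pCore_le_of_pSolvable
      (Cfsg.Agent.Lib.PSolv.isPSolvable_quotient hsol (pPrimeCore p ↥L))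
      (pPrimeCore_quotient_eq_bot (p := p) (G := ↥L))
    have hxL : x ∈ L := by
      rw [hL, Subgroup.mem_centralizer_iff]
      intro w hw
      rw [show w = y from hw]
      exact hxy.symm
    have htcop : (orderOf t).Coprime p := centralizerPPrimeCore_coprime ht1
    have htx : t * x = x * t := centralizerPPrimeCore_commute ht1
    set x' : ↥L := ⟨x, hxL⟩ with hx'
    set t' : ↥L := ⟨t, ht2⟩ with ht'
    have hT : IsPGroup p (Subgroup.zpowers x') := by
      have hpow : x' ^ p ^ 1 = 1 := by
        apply Subtype.ext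
        simp [hx', ← hx, pow_orderOf_eq_one]
      exact Cfsg.Agent.Lib.LocalBalance2.isPGroup_zpowers_of_ppow hpow
    have hfinal : t' ∈ pPrimeCore p ↥L := by
      refine mem_pPrimeCore_of_comm hc hT ?_ ?_ ?_
      · simpa [ht'] using htcop
      · rintro _ ⟨i, rfl⟩
        have h1 : Commute t' x' := Subtype.ext htx
        exact (h1.zpow_right i).eq
      · intro z hz
        obtain ⟨hz1, hz2⟩ := Subgroup.mem_inf.mp hz
        have hzx : (z : G) ∈ Subgroup.centralizer ({x} : Set G) := by
          rw [Subgroup.mem_centralizer_iff]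
          intro w hw
          rw [show w = x from hw]
          have h1 := Subgroup.mem_centralizer_iff.mp hz2 x' (Subgroup.mem_zpowers x')
          exact (congrArg Subtype.val h1)
        apply mem_pPrimeCore_of_mem_of_coprime
        · -- in `O_{p',p}(L)`
          have h2 : (pPrimePCore p ↥L).Normal := inferInstance
          have h3 : t' * z * t'⁻¹ * z⁻¹ = (t' * z * t'⁻¹) * z⁻¹ := rfl
          rw [h3]
          exact mul_mem (h2.conj_mem z hz1 t') (inv_mem hz1)
        · -- in `O_{p'}(C(x))`
          have h4 : t * (z : G) * t⁻¹ * (z : G)⁻¹ ∈ Cfsg.centralizerPPrimeCore p x := by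
            have h5 : t * (z : G) * t⁻¹ * (z : G)⁻¹ = t * ((z : G) * t⁻¹ * (z : G)⁻¹) := by group
            rw [h5]
            exact mul_mem ht1 (centralizerPPrimeCore_conj (inv_mem ht1) hzx)
          have h6 := centralizerPPrimeCore_coprime h4
          have h7 : orderOf (t' * z * t'⁻¹ * z⁻¹) = orderOf (t * (z : G) * t⁻¹ * (z : G)⁻¹) := by
            rw [← Subgroup.orderOf_coe]
            rfl
          rw [h7]
          exact h6
    exact ⟨t', hfinal, rfl⟩
  · rw [Subgroup.mem_centralizer_iff]
    intro w hw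
    rw [show w = x from hw]
    exact (centralizerPPrimeCore_commute ht1).symm

end Aux


/-- Let `G` be a finite group, `p` a prime, and `x, y` commuting elements of order `p` whose centralizers `C_G(x)` and `C_G(y)` are both solvable. Then `O_{p'}(C_G(x)) ∩ C_G(y) = O_{p'}(C_G(y)) ∩ C_G(x)` (balance). -/
theorem result {G : Type*} [Group G] [Finite G]
    (p : ℕ) [Fact p.Prime] (x y : G) (hx : orderOf x = p) (hy : orderOf y = p) (hxy : x * y = y * x)
    (hCx : Group.IsSolvable ↥(Subgroup.centralizer ({x} : Set G))) (hCy : Group.IsSolvable ↥(Subgroup.centralizer ({y} : Set G))) :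
    Cfsg.centralizerPPrimeCore p x ⊓ Subgroup.centralizer {y} = Cfsg.centralizerPPrimeCore p y ⊓ Subgroup.centralizer {x} := by
  exact le_antisymm (half x y hx hxy hCy) (half y x hy hxy.symm hCx)


end Cfsg.Agent.S1958
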