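import Mathlib
import Cfsg.Statements.S1966
import Cfsg.Agent.Lib.PCore

set_option autoImplicit false
open Cfsg

namespace Cfsg.Agent.S1966

/-- Let p be a prime, G a finite group with Sylow p-subgroup S and 𝓕 a conjugation family for S in G. Then the members of 𝓕 containing O_p(G) still form a conjugation family for S in G. -/
theorem result {G : Type*} [Group G] [Finite G] {p : ℕ} [Fact p.Prime] (S : Sylow p G) (𝓕 : Set (Subgroup G)) (h : Cfsg.IsConjugationFamily 𝓕 (S : Subgroup G)) : Cfsg.IsConjugationFamily {T : Subgroup G | T ∈ 𝓕 ∧ Cfsg.pCore p G ≤ T} (S : Subgroup G) := by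
  refine ⟨fun T hT => h.1 T hT.1, fun A g hne hA hg => ?_⟩
  have hO : Cfsg.pCore p G ≤ (S : Subgroup G) := Cfsg.Agent.Lib.PCore.pCore_le_sylow p S
  have hnO : (Cfsg.pCore p G).Normal := Cfsg.Agent.Lib.PCore.pCore_normal p
  have hconj : ∀ (y : G), ∀ o ∈ Cfsg.pCore p G, y⁻¹ * o * y ∈ Cfsg.pCore p G := by
    intro y o ho
    have := hnO.conj_mem o ho y⁻¹
    simpa using this
  obtain ⟨n, T, x, hx, hT, hxN, h0, hs⟩ := h.2 (A ∪ (Cfsg.pCore p G : Set G)) g (hne.mono Set.subset_union_left)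
    (Set.union_subset hA (fun o ho => hO ho))
    (by
      rintro _ ⟨a, ha | ha, rfl⟩
      · exact hg ⟨a, ha, rfl⟩
      · exact hO (hconj g a ha))
  refine ⟨n, T, x, hx, fun i => ⟨hT i, ?_⟩, hxN, fun hn => Set.subset_union_left.trans (h0 hn), fun i hi => ?_⟩
  · obtain ⟨i, hi⟩ := i
    cases i with
    | zero => exact fun o ho => h0 hi (Or.inr ho)
    | succ j =>
      intro o ho
      have hj : j < n := by omega
      have := hs ⟨j, hj⟩ hi
      set y := ((List.ofFn x).take (j + 1)).prod with hy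
      have h2 : y * o * y⁻¹ ∈ Cfsg.pCore p G := hnO.conj_mem o ho y
      have h3 := this ⟨y * o * y⁻¹, Or.inr h2, rfl⟩
      have h4 : y⁻¹ * (y * o * y⁻¹) * y = o := by group
      rw [← h4]
      exact h3
  · refine fun b hb => hs i hi ?_
    obtain ⟨a, ha, rfl⟩ := hb
    exact ⟨a, Or.inl ha, rfl⟩

end Cfsg.Agent.S1966
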