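import Mathlib
import Cfsg.Statements.S1967
import Cfsg.Agent.Lib.PResid
-- import your own Cfsg.Agent.* helpers here

set_option autoImplicit false
open Cfsg

namespace Cfsg.Agent.S1967

/-- Let p be a prime, G a finite group with Sylow p-subgroup S and W a conjugacy functor for p on G. Then W controls strong fusion in G if and only if, whenever T ≤ S and g ∈ G satisfy gTg⁻¹ ≤ S, one can write g = n c with n ∈ N_G(W(S)) and c ∈ C_G(T). -/
theorem result {G : Type*} [Group G] [Finite G] {p : ℕ} [Fact p.Prime] (S : Sylow p G) (W : Subgroup G → Subgroup G) (hW : Cfsg.IsConjugacyFunctor p W) : Cfsg.ControlsStrongFusionIn p W ⊤ ↔ ∀ (T : Subgroup G) (g : G), T ≤ (S : Subgroup G) → T.map (MulAut.conj g).toMonoidHom ≤ (S : Subgroup G) → ∃ n ∈ Subgroup.normalizer ((W (S : Subgroup G) : Subgroup G) : Set G), ∃ c ∈ Subgroup.centralizer (T : Set G), g = n * c := by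
  open Cfsg.Agent.Lib.PResid in
  constructor
  · rintro ⟨T₀, -, hT₀p, hT₀i, hctl⟩ T g hTS hTg
    rw [Subgroup.relIndex_top_right] at hT₀i
    obtain ⟨y, hy⟩ := exists_conj_sylow S (hT₀p.toSylow hT₀i)
    have hy' : T₀ = (S : Subgroup G).map (MulAut.conj y).toMonoidHom := by
      simpa using hy
    -- apply control to `A = y T y⁻¹`, `h = y g y⁻¹`
    have hA : (((T : Set G)).image (fun t => y * t * y⁻¹)) ⊆ (T₀ : Set G) := by
      rintro _ ⟨t, ht, rfl⟩
      rw [hy']
      exact conj_mem_conj_map (hTS ht)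
    have hAg : (fun a => (y * g * y⁻¹) * a * (y * g * y⁻¹)⁻¹) ''
        (((T : Set G)).image (fun t => y * t * y⁻¹)) ⊆ (T₀ : Set G) := by
      rintro _ ⟨_, ⟨t, ht, rfl⟩, rfl⟩
      rw [hy']
      have h1 : g * t * g⁻¹ ∈ (S : Subgroup G) := hTg ⟨t, ht, rfl⟩
      have h2 := conj_mem_conj_map (g := y) h1
      have h3 : (y * g * y⁻¹) * (y * t * y⁻¹) * (y * g * y⁻¹)⁻¹ = y * (g * t * g⁻¹) * y⁻¹ := by group
      show (y * g * y⁻¹) * (y * t * y⁻¹) * (y * g * y⁻¹)⁻¹ ∈ _
      rw [h3]; exact h2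
    obtain ⟨x, hx, hxa⟩ := hctl _ (y * g * y⁻¹) (Subgroup.mem_top _) hA hAg
    have hx2 : x ∈ Subgroup.normalizer ((W T₀ : Subgroup G) : Set G) := hx.2
    have hWT : W T₀ = (W S).map (MulAut.conj y).toMonoidHom := by
      rw [hy']
      exact (hW S S.isPGroup').2.2 y
    refine ⟨y⁻¹ * x * y, ?_, (y⁻¹ * x * y)⁻¹ * g, ?_, by group⟩
    · rw [mem_normalizer_iff_conj_map] at hx2 ⊢
      rw [hWT] at hx2
      rw [conj_map_mul, conj_map_mul]
      have : ((W S).map (MulAut.conj y).toMonoidHom).map (MulAut.conj x).toMonoidHom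
          = (W S).map (MulAut.conj y).toMonoidHom := hx2
      rw [this, conj_map_inv_conj]
    · rw [Subgroup.mem_centralizer_iff]
      intro t ht
      have h4 := hxa (y * t * y⁻¹) ⟨t, ht, rfl⟩
      -- `x (y t y⁻¹) x⁻¹ = y g t g⁻¹ y⁻¹`
      have h5 : (y⁻¹ * x * y) * t * (y⁻¹ * x * y)⁻¹ = g * t * g⁻¹ := by
        have h6 : (y⁻¹ * x * y) * t * (y⁻¹ * x * y)⁻¹ = y⁻¹ * (x * (y * t * y⁻¹) * x⁻¹) * y := by group
        rw [h6, h4]
        group
      have h7 : (y⁻¹ * x * y)⁻¹ * g * t = t * ((y⁻¹ * x * y)⁻¹ * g) ↔ g * t * g⁻¹ = (y⁻¹ * x * y) * t * (y⁻¹ * x * y)⁻¹ := by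
        constructor
        · intro h
          have h8 : g * t = (y⁻¹ * x * y) * (t * ((y⁻¹ * x * y)⁻¹ * g)) := by
            rw [← h]; group
          rw [h8]; group
        · intro h
          have h8 : g * t = (y⁻¹ * x * y) * t * (y⁻¹ * x * y)⁻¹ * g := by
            rw [← h]; group
          rw [mul_assoc, h8]; group
      exact (h7.mpr h5.symm).symm
  · intro h
    refine ⟨S, le_top, S.isPGroup', ?_, ?_⟩
    · rw [Subgroup.relIndex_top_right]
      exact S.not_dvd_index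
    · intro A g _ hA hAg
      have hcl : Subgroup.closure A ≤ (S : Subgroup G) := (Subgroup.closure_le _).mpr hA
      have hcl2 : (Subgroup.closure A).map (MulAut.conj g).toMonoidHom ≤ (S : Subgroup G) := by
        rw [Subgroup.map_le_iff_le_comap, Subgroup.closure_le]
        intro a ha
        exact hAg ⟨a, ha, rfl⟩
      obtain ⟨n, hn, c, hc, rfl⟩ := h _ g hcl hcl2
      refine ⟨n, ⟨Subgroup.mem_top _, hn⟩, ?_⟩
      intro a ha
      have h1 : a * c = c * a := Subgroup.mem_centralizer_iff.mp hc a (Subgroup.subset_closure ha)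
      have h2 : c * a * c⁻¹ = a := by rw [← h1]; group
      calc n * a * n⁻¹ = n * (c * a * c⁻¹) * n⁻¹ := by rw [h2]
        _ = n * c * a * (n * c)⁻¹ := by group

end Cfsg.Agent.S1967
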