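import Mathlib
import Cfsg.Agent.Lib.WeakClosure
import Cfsg.Statements.S1968

set_option autoImplicit false
open Cfsg

namespace Cfsg.Agent.S1968

/-- Let p be a prime, G a finite group with Sylow p-subgroup S and W a conjugacy functor for p on G with Z(P) ≤ W(P) for every p-subgroup P. Let A be a subgroup of Z(S) normalized by N_G(W(S)) that is not weakly closed in S with respect to G. Then there is a subgroup T of S, well placed in S with respect to W, such that: A ≤ T; N_G(W(N_S(T))) normalizes A; N_S(T) is a Sylow p-subgroup of N_G(T); A ≤ Z(N_S(T)); and A is not weakly closed in N_S(T) with respect to N_G(T), that is, some N_G(T)-conjugate of A other than A lies in N_S(T). -/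
theorem result {G : Type*} [Group G] [Finite G] {p : ℕ} [Fact p.Prime] (S : Sylow p G) (W : Subgroup G → Subgroup G) (hW : Cfsg.IsConjugacyFunctor p W) (hWZ : ∀ P : Subgroup G, IsPGroup p ↥P → P ⊓ Subgroup.centralizer (P : Set G) ≤ W P) (A : Subgroup G) (hAZ : A ≤ (S : Subgroup G) ⊓ Subgroup.centralizer ((S : Subgroup G) : Set G)) (hAN : Subgroup.normalizer ((W (S : Subgroup G) : Subgroup G) : Set G) ≤ Subgroup.normalizer ((A : Subgroup G) : Set G)) (hnwc : ¬ Cfsg.IsWeaklyClosed A (S : Subgroup G)) : ∃ T : Subgroup G, Cfsg.IsWellPlaced p W (S : Subgroup G) T ∧ A ≤ T ∧ Subgroup.normalizer ((W ((S : Subgroup G) ⊓ Subgroup.normalizer ((T : Subgroup G) : Set G)) : Subgroup G) : Set G) ≤ Subgroup.normalizer ((A : Subgroup G) : Set G) ∧ ¬ p ∣ ((S : Subgroup G) ⊓ Subgroup.normalizer ((T : Subgroup G) : Set G)).relIndex (Subgroup.normalizer ((T : Subgroup G) : Set G)) ∧ A ≤ Subgroup.centralizer (((S : Subgroup G) ⊓ Subgroup.normalizer ((T : Subgroup G) : Set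 G) : Subgroup G) : Set G) ∧ ∃ g ∈ Subgroup.normalizer ((T : Subgroup G) : Set G), A.map (MulAut.conj g).toMonoidHom ≤ (S : Subgroup G) ⊓ Subgroup.normalizer ((T : Subgroup G) : Set G) ∧ A.map (MulAut.conj g).toMonoidHom ≠ A := by
  classical
  have hAS : A ≤ (S : Subgroup G) := hAZ.trans inf_le_left
  have hex : ∃ g : G, A.map (MulAut.conj g).toMonoidHom ≤ (S : Subgroup G) ∧ A.map (MulAut.conj g).toMonoidHom ≠ A := by
    by_contra hcon
    push Not at hcon
    exact hnwc ⟨hAS, hcon⟩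
  obtain ⟨g, hg1, hg2⟩ := hex
  have hA1 : ∀ a ∈ (A : Set G), a ∈ Subgroup.centralizer (((S : Subgroup G) : Subgroup G) : Set G) :=
    fun a ha => (hAZ ha).2
  obtain ⟨T, hT, hAT, hst, x, hx, hxA⟩ := Cfsg.Agent.Lib.WeakClosure.exists_wellPlaced_of_moved S hW hWZ
    (A := (A : Set G)) hAS hA1
    (fun n hn => Cfsg.Agent.Lib.WeakClosure.cj_eq_of_mem_normalizer (hAN hn))
    (g := g⁻¹) (by
      rw [← Cfsg.Agent.Lib.WeakClosure.coe_map_conj]
      exact hg1)
    (by
      rw [← Cfsg.Agent.Lib.WeakClosure.coe_map_conj]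
      intro h
      exact hg2 (SetLike.coe_injective h))
  have hAT' : A ≤ T := hAT
  refine ⟨T, hT, hAT', fun n hn => Cfsg.Agent.Lib.WeakClosure.mem_normalizer_of_cj_eq (hst n hn), hT.2 0, ?_, x⁻¹, Subgroup.inv_mem _ hx, ?_, ?_⟩
  · intro a ha
    refine Subgroup.mem_centralizer_iff.mpr ?_
    intro h hh
    exact (Subgroup.mem_centralizer_iff.mp (hA1 a ha)) h hh.1
  · rw [Subgroup.map_le_iff_le_comap]
    intro a ha
    have h1 : x⁻¹ * a * x⁻¹⁻¹ ∈ T := (Subgroup.mem_normalizer_iff.mp (Subgroup.inv_mem _ hx) a).mp (hAT' ha)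
    have h2 : x⁻¹ * a * x⁻¹⁻¹ ∈ (S : Subgroup G) ⊓ Subgroup.normalizer ((T : Subgroup G) : Set G) :=
      ⟨hT.1 h1, Subgroup.le_normalizer h1⟩
    exact h2
  · intro h
    apply hxA
    have h2 := Cfsg.Agent.Lib.WeakClosure.coe_map_conj A x⁻¹
    rw [h, inv_inv] at h2
    exact h2.symm


end Cfsg.Agent.S1968
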