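import Mathlib
import Cfsg.Statements.S1969
import Cfsg.Agent.Lib.FusionRed


set_option autoImplicit false
universe u
open Cfsg

namespace Cfsg.Agent.S1969

open Cfsg.Agent.Lib.SecFunctor Cfsg.Agent.Lib.TransferRed Cfsg.Agent.Lib.PCore Cfsg.Agent.Lib.FusionRed
open Cfsg.Agent.Lib.CtrlChain Cfsg.Agent.Lib.CtrlChainMain

/-- Let p be a prime, G a finite group and W an isomorphism-invariant p-group functor (W assigns to every group Q a subgroup W(Q), nontrivial whenever Q is a nontrivial finite p-group, and every isomorphism from a finite p-group Q onto a group R carries W(Q) onto W(R)). Suppose that W(S*) is normal in G* whenever G* = K/R is a section of G with C_{G*}(O_p(G*)) ≤ O_p(G*) and S* is a Sylow p-subgroup of G*. Then W controls strong fusion in every section of G: for every section K/R and every Sylow p-subgroup T of K/R, the subgroup W(T) controls strong fusion in K/R. -/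
theorem result {G : Type u} [Group G] [Finite G] {p : ℕ} [Fact p.Prime] (W : ∀ (Q : Type u) [Group Q], Subgroup Q) (hW : Cfsg.IsCharPFunctor.{u} p W) (hloc : ∀ (K R : Subgroup G) [hR : (R.subgroupOf K).Normal], Subgroup.centralizer ((Cfsg.pCore p (↥K ⧸ R.subgroupOf K) : Subgroup (↥K ⧸ R.subgroupOf K)) : Set (↥K ⧸ R.subgroupOf K)) ≤ Cfsg.pCore p (↥K ⧸ R.subgroupOf K) → ∀ T : Sylow p (↥K ⧸ R.subgroupOf K), (Cfsg.inducedFunctor (G := (↥K ⧸ R.subgroupOf K)) W ((T : Subgroup (↥K ⧸ R.subgroupOf K)))).Normal) : ∀ (K R : Subgroup G) [hR : (R.subgroupOf K).Normal], ∀ T : Sylow p (↥K ⧸ R.subgroupOf K), Cfsg.ControlsStrongFusion p (Cfsg.inducedFunctor (G := (↥K ⧸ R.subgroupOf K)) W ((T : Subgroup (↥K ⧸ R.subgroupOf K)))) := by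
  have h𝓦 : ∀ W' ∈ ({W} : Set (∀ (Q : Type u) [Group Q], Subgroup Q)), IsCharPFunctor.{u} p W' := by
    intro W' hW'
    rw [Set.mem_singleton_iff] at hW'
    rw [hW']
    exact hW
  have main : ∀ (X : Type u) [Group X] [Finite X], Involves X G → FS {W} p X := by
    refine fs_of_sec h𝓦 (Sec := fun X _ => Involves X G) ?_ ?_ ?_
    · intro X _ Y hX
      exact involves_trans hX (involves_subgroup Y)
    · intro X _ M _ hX
      exact involves_trans hX (involves_quotient M)
    · intro X _ _ hX hC S A h hA hAh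
      obtain ⟨K', R', hR', ⟨e⟩⟩ := hX
      have hfin : Finite (↥K' ⧸ R'.subgroupOf K') := Finite.of_equiv X e.symm.toEquiv
      let S₁ : Sylow p (↥K' ⧸ R'.subgroupOf K') := S.mapSurjective (f := e.symm.toMonoidHom) e.symm.surjective
      have hS₁ : (S₁ : Subgroup (↥K' ⧸ R'.subgroupOf K')) = (S : Subgroup X).map e.symm.toMonoidHom := rfl
      have hS₁e : (S₁ : Subgroup (↥K' ⧸ R'.subgroupOf K')).map e.toMonoidHom = S := by
        rw [hS₁]
        ext y
        constructor
        · rintro ⟨_, ⟨z, hz, rfl⟩, rfl⟩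
          have e0 : e.toMonoidHom (e.symm.toMonoidHom z) = z := by simp
          rw [e0]
          exact hz
        · intro hy
          exact ⟨e.symm y, ⟨y, hy, rfl⟩, by simp⟩
      have hN := hloc K' R' (constrained_of_equiv e.symm p hC) S₁
      have hh : h ∈ Subgroup.normalizer ((inducedFunctor W (S : Subgroup X) : Subgroup X) : Set X) := by
        have h1 := normalizer_transport e S hW S₁ hS₁e (a := e.symm h)
          (by rw [Subgroup.normalizer_eq_top_iff.mpr hN]; trivial)
        simpa using h1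
      have hmem : inducedFunctor (G := X) W ∈ fam {W} X := ⟨W, rfl, rfl⟩
      exact Ctrl.step hmem ⟨Subgroup.mem_top _, hh⟩ hA hAh
  intro K R _ T
  have hfs := main (↥K ⧸ R.subgroupOf K) (involves_section K R)
  refine ⟨T, Subgroup.map_subtype_le _, fun A hA => ⟨hA, fun g hg => ?_⟩⟩
  obtain ⟨c, hc, hca⟩ := hfs T A g hA (fun a ha => hg ⟨a, ha, rfl⟩)
  refine ⟨c, ?_, fun a ha => (hca a ha).symm⟩
  clear hca
  induction hc with
  | refl _ => exact Subgroup.one_mem _
  | step W₁ hW₁ hs _ _ ih =>
    obtain ⟨W₂, hW₂, rfl⟩ := hW₁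
    rw [Set.mem_singleton_iff] at hW₂
    subst hW₂
    exact Subgroup.mul_mem _ hs.2 ih

end Cfsg.Agent.S1969
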