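import Mathlib
import Cfsg.Statements.S1970
import Cfsg.Agent.Lib.TransferRed

set_option autoImplicit false
open Cfsg

universe u

namespace Cfsg.Agent.S1970

open Cfsg.Agent.Lib.SecFunctor Cfsg.Agent.Lib.TransferRed Cfsg.Agent.Lib.PCore

/-- Let p be a prime, G a finite group and W an isomorphism-invariant p-group functor (W assigns to every group Q a subgroup W(Q), nontrivial whenever Q is a nontrivial finite p-group, and every isomorphism from a finite p-group Q onto a group R carries W(Q) onto W(R)). Suppose that for every section G* = K/R of G with C_{G*}(O_p(G*)) ≤ O_p(G*) and every Sylow p-subgroup S* of G*, one has O_p(G*) ∩ (G*)' = O_p(G*) ∩ (N_{G*}(W(S*)))'. Then W controls transfer in every section G* of G: S* ∩ (G*)' = S* ∩ (N_{G*}(W(S*)))' for a Sylow p-subgroup S* of G*. -/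
theorem result {G : Type u} [Group G] [Finite G] {p : ℕ} [Fact p.Prime] (W : ∀ (Q : Type u) [Group Q], Subgroup Q) (hW : Cfsg.IsCharPFunctor.{u} p W) (hloc : ∀ (K R : Subgroup G) [hR : (R.subgroupOf K).Normal], Subgroup.centralizer ((Cfsg.pCore p (↥K ⧸ R.subgroupOf K) : Subgroup (↥K ⧸ R.subgroupOf K)) : Set (↥K ⧸ R.subgroupOf K)) ≤ Cfsg.pCore p (↥K ⧸ R.subgroupOf K) → ∀ T : Sylow p (↥K ⧸ R.subgroupOf K), Cfsg.pCore p (↥K ⧸ R.subgroupOf K) ⊓ commutator (↥K ⧸ R.subgroupOf K) = Cfsg.pCore p (↥K ⧸ R.subgroupOf K) ⊓ ⁅Subgroup.normalizer ((Cfsg.inducedFunctor (G := (↥K ⧸ R.subgroupOf K)) W ((T : Subgroup (↥K ⧸ R.subgroupOf K))) : Subgroup (↥K ⧸ R.subgroupOf K)) : Set (↥K ⧸ R.subgroupOf K)), Subgroup.normalizer ((Cfsg.inducedFunctor (G := (↥K ⧸ R.subgroupOf K)) W ((T : Subgroup (↥K ⧸ R.subgroupOf K))) : Subgroup (↥K ⧸ R.subgroupOf K)) : Set (↥K ⧸ R.subgroupOf K))⁆) : ∀ (K R : Subgroup G) [hR : (R.subgroupOf K).Normal], Cfsg.ControlsTransferIn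 p (Cfsg.inducedFunctor (G := (↥K ⧸ R.subgroupOf K)) W) ⊤ := by
  have h𝓦 : ∀ W' ∈ ({W} : Set (∀ (Q : Type u) [Group Q], Subgroup Q)), IsCharPFunctor.{u} p W' := by
    intro W' hW'
    rw [Set.mem_singleton_iff] at hW'
    rw [hW']
    exact hW
  intro K R _
  refine controlsTransferIn_of_ft (ft_of_sec h𝓦 (Sec := fun X _ => Involves X G) ?_ ?_ ?_ _ (involves_section K R))
  · intro X _ Y hX
    exact involves_trans hX (involves_subgroup Y)
  · intro X _ M _ hX
    exact involves_trans hX (involves_quotient M)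
  · intro X _ _ hX hC S
    obtain ⟨K', R', hR', ⟨e⟩⟩ := hX
    have hfin : Finite (↥K' ⧸ R'.subgroupOf K') := Finite.of_equiv X e.symm.toEquiv
    let S₁ : Sylow p (↥K' ⧸ R'.subgroupOf K') := S.mapSurjective (f := e.symm.toMonoidHom) e.symm.surjective
    have hS₁ : (S₁ : Subgroup (↥K' ⧸ R'.subgroupOf K')) = (S : Subgroup X).map e.symm.toMonoidHom := rfl
    have hS₁e : (S₁ : Subgroup (↥K' ⧸ R'.subgroupOf K')).map e.toMonoidHom = S := by
      rw [hS₁]
      ext y
      constructor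
      · rintro ⟨_, ⟨z, hz, rfl⟩, rfl⟩
        have e0 : e.toMonoidHom (e.symm.toMonoidHom z) = z := by simp
        rw [e0]
        exact hz
      · intro hy
        exact ⟨e.symm y, ⟨y, hy, rfl⟩, by simp⟩
    have h1 := hloc K' R' (constrained_of_equiv e.symm p hC) S₁
    rintro u ⟨hu1, hu2⟩
    have h2 : e.symm u ∈ pCore p (↥K' ⧸ R'.subgroupOf K') ⊓ commutator (↥K' ⧸ R'.subgroupOf K') := by
      refine ⟨?_, mem_commutator_map e.symm.toMonoidHom hu2⟩
      rw [← pCore_map_equiv e.symm p]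
      exact ⟨u, hu1, rfl⟩
    rw [h1] at h2
    have h3 : e.symm u ∈ TT {W} (S₁ : Subgroup (↥K' ⧸ R'.subgroupOf K')) := by
      rw [TT_singleton]
      exact ⟨pCore_le_sylow p S₁ h2.1, h2.2⟩
    have h4 := map_TT_le h𝓦 e.toMonoidHom S₁.isPGroup' (T := (S₁ : Subgroup (↥K' ⧸ R'.subgroupOf K')))
      (fun x _ hx => (map_eq_one_iff _ e.injective).mp hx)
    rw [hS₁e] at h4
    have h5 : u ∈ TT {W} (S : Subgroup X) := h4 ⟨e.symm u, h3, by simp⟩
    exact h5

end Cfsg.Agent.S1970
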