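import Mathlib
import Cfsg.Statements.S1972
import Cfsg.Agent.Lib.TransferLocal

set_option autoImplicit false
universe u
open Cfsg

namespace Cfsg.Agent.S1972

open Cfsg.Agent.Lib.SecFunctor Cfsg.Agent.Lib.TransferRed Cfsg.Agent.Lib.PCore Cfsg.Agent.Lib.TransferLocal

/-- Let p be a prime, G a finite group and W an isomorphism-invariant p-group functor (W assigns to every group Q a subgroup W(Q), nontrivial whenever Q is a nontrivial finite p-group, and every isomorphism from a finite p-group Q onto a group R carries W(Q) onto W(R)). Suppose that whenever G* = K/R is a section of G with C_{G*}(O_p(G*)) ≤ O_p(G*) and S* is a Sylow p-subgroup of G* with W(S*) not normal in G*, there is an element g of S* outside O_p(G*) such that [X, g, …, g] ≤ Y with p − 1 entries g, for every chief factor X/Y of G* with X ≤ O_p(G*). Then W controls transfer in every section of G. -/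
theorem result {G : Type u} [Group G] [Finite G] {p : ℕ} [Fact p.Prime] (W : ∀ (Q : Type u) [Group Q], Subgroup Q) (hW : Cfsg.IsCharPFunctor.{u} p W) (hloc : ∀ (K R : Subgroup G) [hR : (R.subgroupOf K).Normal], Subgroup.centralizer ((Cfsg.pCore p (↥K ⧸ R.subgroupOf K) : Subgroup (↥K ⧸ R.subgroupOf K)) : Set (↥K ⧸ R.subgroupOf K)) ≤ Cfsg.pCore p (↥K ⧸ R.subgroupOf K) → ∀ T : Sylow p (↥K ⧸ R.subgroupOf K), ¬ (Cfsg.inducedFunctor (G := (↥K ⧸ R.subgroupOf K)) W ((T : Subgroup (↥K ⧸ R.subgroupOf K)))).Normal → ∃ g : (↥K ⧸ R.subgroupOf K), g ∈ (T : Subgroup (↥K ⧸ R.subgroupOf K)) ∧ g ∉ Cfsg.pCore p (↥K ⧸ R.subgroupOf K) ∧ ∀ U V : Subgroup (↥K ⧸ R.subgroupOf K), Cfsg.IsChiefFactor U V → U ≤ Cfsg.pCore p (↥K ⧸ R.subgroupOf K) → Cfsg.iterCommutator U (Subgroup.zpowers g) (p - 1) ≤ V) : ∀ (K R : Subgroup G) [hR : (R.subgroupOf K).Normal], Cfsg.ControlsTransferIn p (Cfsg.inducedFunctor (G := (↥K ⧸ R.subgroupOf K)) W) ⊤ := by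
  have h𝓦 : ∀ W' ∈ ({W} : Set (∀ (Q : Type u) [Group Q], Subgroup Q)), IsCharPFunctor.{u} p W' := by
    intro W' hW'
    rw [Set.mem_singleton_iff] at hW'
    rw [hW']
    exact hW
  intro K R _
  refine controlsTransferIn_of_ft (ft_of_sec' h𝓦 (Sec := fun X _ => Involves X G) ?_ ?_ ?_ _ (involves_section K R))
  · intro X _ Y hX
    exact involves_trans hX (involves_subgroup Y)
  · intro X _ M _ hX
    exact involves_trans hX (involves_quotient M)
  · intro X _ _ hX hsub hC S
    by_cases hN : (inducedFunctor (G := X) W (S : Subgroup X)).Normal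
    · -- `W(S)` normal
      rw [TT_singleton, Subgroup.normalizer_eq_top_iff.mpr hN]
      refine inf_le_inf (pCore_le_sylow p S) ?_
      exact le_of_eq rfl
    · obtain ⟨K', R', hR', ⟨e⟩⟩ := hX
      have hfin : Finite (↥K' ⧸ R'.subgroupOf K') := Finite.of_equiv X e.symm.toEquiv
      let S₁ : Sylow p (↥K' ⧸ R'.subgroupOf K') := S.mapSurjective (f := e.symm.toMonoidHom) e.symm.surjective
      have hS₁ : (S₁ : Subgroup (↥K' ⧸ R'.subgroupOf K')) = (S : Subgroup X).map e.symm.toMonoidHom := rfl
      have hW₁ : inducedFunctor W (S₁ : Subgroup (↥K' ⧸ R'.subgroupOf K')) =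
          (inducedFunctor W (S : Subgroup X)).map e.symm.toMonoidHom := by
        rw [hS₁]
        exact (Cfsg.Agent.Lib.NPCFunctor.map_inducedFunctor hW _ S.isPGroup' e.symm.toMonoidHom
          (fun x _ hx => (map_eq_one_iff _ e.symm.injective).mp hx)).symm
      have hN₁ : ¬ (inducedFunctor (G := (↥K' ⧸ R'.subgroupOf K')) W (S₁ : Subgroup (↥K' ⧸ R'.subgroupOf K'))).Normal := by
        intro h
        apply hN
        rw [hW₁] at h
        have h2 := normal_map_equiv e h
        have h3 : ((inducedFunctor W (S : Subgroup X)).map e.symm.toMonoidHom).map e.toMonoidHom =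
            inducedFunctor W (S : Subgroup X) := by
          ext y
          constructor
          · rintro ⟨_, ⟨z, hz, rfl⟩, rfl⟩
            simpa using hz
          · intro hy
            exact ⟨e.symm y, ⟨y, hy, rfl⟩, by simp⟩
        rwa [h3] at h2
      obtain ⟨g, hg1, hg2, hg3⟩ := hloc K' R' (constrained_of_equiv e.symm p hC) S₁ hN₁
      have hgu : e.symm (e g) = g := by simp
      have huS : e g ∈ (S : Subgroup X) := by
        obtain ⟨s, hs, hse⟩ := hg1
        have : e g = s := by
          rw [← hse]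
          simp
        rw [this]
        exact hs
      have huP : e g ∉ pCore p X := by
        intro h
        apply hg2
        rw [← pCore_map_equiv e.symm p]
        exact ⟨e g, h, hgu⟩
      refine local_theorem h𝓦 ⟨W, rfl⟩ hsub S (e g) huS huP ?_
      intro U V hch hUP
      have h1 := IsChiefFactor_map_equiv e.symm hch
      have h2 : U.map e.symm.toMonoidHom ≤ pCore p (↥K' ⧸ R'.subgroupOf K') := by
        rw [← pCore_map_equiv e.symm p]
        exact Subgroup.map_mono hUP
      have h3 := hg3 _ _ h1 h2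
      have h4 : (Subgroup.zpowers (e g)).map e.symm.toMonoidHom = Subgroup.zpowers g := by
        rw [MonoidHom.map_zpowers]
        congr 1
      rw [← h4, ← map_iterCommutator] at h3
      exact (Subgroup.map_le_map_iff_of_injective e.symm.injective).mp h3

end Cfsg.Agent.S1972
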