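import Mathlib
import Cfsg.Statements.S1981
import Cfsg.Agent.Lib.KInf
-- import your own Cfsg.Agent.* helpers here

set_option autoImplicit false
open Cfsg

namespace Cfsg.Agent.S1981

/-- Let P be a finite p-group generated by its abelian normal subgroups. Then both K-infinity subgroups of P equal P. -/
theorem result {P : Type*} [Group P] [Finite P] {p : ℕ} [Fact p.Prime] (hP : IsPGroup p P) (hgen : ⨆ A ∈ {A : Subgroup P | A.Normal ∧ IsMulCommutative ↥A}, A = ⊤) : Cfsg.kInfLower P = ⊤ ∧ Cfsg.kInfUpper P = ⊤ := by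
  have hle : ∀ n, Cfsg.kSeqEven P n = ⊤ := by
    intro n
    rw [eq_top_iff, ← hgen]
    refine iSup₂_le fun A hA => ?_
    haveI := hA.1
    exact Cfsg.Agent.Lib.KInf.le_lowStar (Cfsg.Agent.Lib.KInf.abelian_normal_mem_lower hA.2 _)
  have hle2 : ∀ n, Cfsg.kSeqOdd P n = ⊤ := by
    intro n
    cases n with
    | zero => rfl
    | succ n =>
      rw [Cfsg.Agent.Lib.KInf.kSeqOdd_succ, eq_top_iff, ← hgen]
      refine iSup₂_le fun A hA => ?_
      haveI := hA.1
      exact Cfsg.Agent.Lib.KInf.le_upStar (Cfsg.Agent.Lib.KInf.abelian_normal_mem_upper hA.2 _)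
  constructor
  · rw [eq_top_iff, ← hle 0]
    exact Cfsg.Agent.Lib.KInf.kSeqEven_le_kInfLower 0
  · unfold Cfsg.kInfUpper
    simp [hle2]

end Cfsg.Agent.S1981
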