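import Mathlib
import Cfsg.Agent.Lib.KInfControl
import Cfsg.Statements.S1993

set_option autoImplicit false
universe u
open Cfsg

namespace Cfsg.Agent.S1993

/-- Let p be a prime, G a finite group with Sylow p-subgroup S, and K the upper K-infinity subgroup of S. If p ≥ 5 then S ∩ G' = S ∩ (N_G(K))'; and if p is odd and every section of G is p-stable in the normalizer form, then K controls strong fusion in G. -/
theorem result {G : Type u} [Group G] [Finite G] {p : ℕ} [Fact p.Prime] (S : Sylow p G) : (5 ≤ p → (S : Subgroup G) ⊓ commutator G = (S : Subgroup G) ⊓ ⁅Subgroup.normalizer ((Cfsg.inducedFunctor Cfsg.kInfUpper (S : Subgroup G) : Subgroup G) : Set G), Subgroup.normalizer ((Cfsg.inducedFunctor Cfsg.kInfUpper (S : Subgroup G) : Subgroup G) : Set G)⁆) ∧ (p ≠ 2 → (∀ (K R : Subgroup G) [hR : (R.subgroupOf K).Normal], Cfsg.IsNormalizerPStable p (↥K ⧸ R.subgroupOf K)) → Cfsg.ControlsStrongFusion p (Cfsg.inducedFunctor Cfsg.kInfUpper (S : Subgroup G))) := by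
  classical
  open Cfsg.Agent.Lib.TransferRed Cfsg.Agent.Lib.KInfLocal in
  refine ⟨fun hp5 => ?_, fun _ hst => Cfsg.Agent.Lib.KInfControl.control_of_stAll hst Cfsg.kInfUpper (Or.inr rfl) S⟩
  have h2 := ft_of_five hp5 Cfsg.kInfUpper (Or.inr rfl) G S
  rw [TT_singleton] at h2
  apply le_antisymm
  · exact h2
  · exact inf_le_inf_left _ (Subgroup.commutator_mono le_top le_top)


end Cfsg.Agent.S1993
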