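import Mathlib
import Cfsg.Statements.S1995
import Cfsg.Agent.Lib.TransferRed

set_option autoImplicit false
open Cfsg

universe u

namespace Cfsg.Agent.S1995

open Cfsg.Agent.Lib.SecFunctor Cfsg.Agent.Lib.TransferRed Cfsg.Agent.Lib.PCore

/-- Let p be a prime, G a finite group and 𝓦 a set of isomorphism-invariant p-group functors (W assigns to every group Q a subgroup W(Q), nontrivial whenever Q is a nontrivial finite p-group, and every isomorphism from a finite p-group Q onto a group R carries W(Q) onto W(R)). If the conjugacy functors induced by 𝓦 control transfer in every section G* = K/R of G with C_{G*}(O_p(G*)) ≤ O_p(G*), then they control transfer in G: S ∩ G' is generated by the subgroups S ∩ (N_G(W(S)))', W ∈ 𝓦, for a Sylow p-subgroup S. -/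
theorem result {G : Type u} [Group G] [Finite G] {p : ℕ} [Fact p.Prime] (𝓦 : Set (∀ (Q : Type u) [Group Q], Subgroup Q)) (h𝓦 : ∀ W ∈ 𝓦, Cfsg.IsCharPFunctor.{u} p W) (hloc : ∀ (K R : Subgroup G) [hR : (R.subgroupOf K).Normal], Subgroup.centralizer ((Cfsg.pCore p (↥K ⧸ R.subgroupOf K) : Subgroup (↥K ⧸ R.subgroupOf K)) : Set (↥K ⧸ R.subgroupOf K)) ≤ Cfsg.pCore p (↥K ⧸ R.subgroupOf K) → Cfsg.FamilyControlsTransferIn p ((fun W => Cfsg.inducedFunctor (G := (↥K ⧸ R.subgroupOf K)) W) '' 𝓦) ⊤) : Cfsg.FamilyControlsTransferIn p ((fun W => Cfsg.inducedFunctor (G := G) W) '' 𝓦) ⊤ := by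
  refine (ft_iff h𝓦).mp (ft_of_sec h𝓦 (Sec := fun X _ => Involves X G) ?_ ?_ ?_ G involves_refl)
  · intro X _ Y hX
    exact involves_trans hX (involves_subgroup Y)
  · intro X _ M _ hX
    exact involves_trans hX (involves_quotient M)
  · intro X _ _ hX hC S
    obtain ⟨K, R, hR, ⟨e⟩⟩ := hX
    have hfin : Finite (↥K ⧸ R.subgroupOf K) := Finite.of_equiv X e.symm.toEquiv
    have h1 := hloc K R (constrained_of_equiv e.symm p hC)
    have h2 := ft_of_equiv h𝓦 e ((ft_iff h𝓦).mpr h1)
    exact (inf_le_inf_right _ (pCore_le_sylow p S)).trans (h2 S)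

end Cfsg.Agent.S1995
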