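import Mathlib
import Cfsg.Statements.S1996
import Cfsg.Agent.Lib.FusionRed


set_option autoImplicit false
universe u
open Cfsg

namespace Cfsg.Agent.S1996

open Cfsg.Agent.Lib.SecFunctor Cfsg.Agent.Lib.TransferRed Cfsg.Agent.Lib.PCore Cfsg.Agent.Lib.FusionRed
open Cfsg.Agent.Lib.CtrlChain Cfsg.Agent.Lib.CtrlChainMain

/-- Let p be a prime, G a finite group and W₁, W₂ two isomorphism-invariant p-group functors (W assigns to every group Q a subgroup W(Q), nontrivial whenever Q is a nontrivial finite p-group, and every isomorphism from a finite p-group Q onto a group R carries W(Q) onto W(R)). Suppose that G* = N_{G*}(W₁(S*)) N_{G*}(W₂(S*)) whenever G* = K/R is a section of G with C_{G*}(O_p(G*)) ≤ O_p(G*) and S* is a Sylow p-subgroup of G*. Then the pair {W₁, W₂} controls strong fusion in G. -/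
theorem result {G : Type u} [Group G] [Finite G] {p : ℕ} [Fact p.Prime] (W₁ W₂ : ∀ (Q : Type u) [Group Q], Subgroup Q) (hW₁ : Cfsg.IsCharPFunctor.{u} p W₁) (hW₂ : Cfsg.IsCharPFunctor.{u} p W₂) (hfac : ∀ (K R : Subgroup G) [hR : (R.subgroupOf K).Normal], Subgroup.centralizer ((Cfsg.pCore p (↥K ⧸ R.subgroupOf K) : Subgroup (↥K ⧸ R.subgroupOf K)) : Set (↥K ⧸ R.subgroupOf K)) ≤ Cfsg.pCore p (↥K ⧸ R.subgroupOf K) → ∀ T : Sylow p (↥K ⧸ R.subgroupOf K), ∀ x : (↥K ⧸ R.subgroupOf K), ∃ a ∈ Subgroup.normalizer ((Cfsg.inducedFunctor (G := (↥K ⧸ R.subgroupOf K)) W₁ (T : Subgroup (↥K ⧸ R.subgroupOf K)) : Subgroup (↥K ⧸ R.subgroupOf K)) : Set (↥K ⧸ R.subgroupOf K)), ∃ b ∈ Subgroup.normalizer ((Cfsg.inducedFunctor (G := (↥K ⧸ R.subgroupOf K)) W₂ (T : Subgroup (↥K ⧸ R.subgroupOf K)) : Subgroup (↥K ⧸ R.subgroupOf K)) : Set (↥K ⧸ R.subgroupOf K)), x = a * b) : Cfsg.FamilyControlsStrongFusionIn p {Cfsg.inducedFunctor (G := G) W₁, Cfsg.inducedFunctor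 (G := G) W₂} ⊤ := by
  have h𝓦 : ∀ W' ∈ ({W₁, W₂} : Set (∀ (Q : Type u) [Group Q], Subgroup Q)), IsCharPFunctor.{u} p W' := by
    intro W' hW'
    rcases hW' with rfl | hW'
    · exact hW₁
    · rw [Set.mem_singleton_iff] at hW'
      rw [hW']
      exact hW₂
  have hfam : ({inducedFunctor (G := G) W₁, inducedFunctor (G := G) W₂} : Set (Subgroup G → Subgroup G)) =
      fam {W₁, W₂} G := (Set.image_pair _ _ _).symm
  rw [hfam]
  refine (fs_iff h𝓦).mp (fs_of_sec h𝓦 (Sec := fun X _ => Involves X G) ?_ ?_ ?_ G involves_refl)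
  · intro X _ Y hX
    exact involves_trans hX (involves_subgroup Y)
  · intro X _ M _ hX
    exact involves_trans hX (involves_quotient M)
  · intro X _ _ hX hC S A h hA hAh
    obtain ⟨K', R', hR', ⟨e⟩⟩ := hX
    have hfin : Finite (↥K' ⧸ R'.subgroupOf K') := Finite.of_equiv X e.symm.toEquiv
    let S₁ : Sylow p (↥K' ⧸ R'.subgroupOf K') := S.mapSurjective (f := e.symm.toMonoidHom) e.symm.surjective
    have hS₁ : (S₁ : Subgroup (↥K' ⧸ R'.subgroupOf K')) = (S : Subgroup X).map e.symm.toMonoidHom := rfl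
    have hS₁e : (S₁ : Subgroup (↥K' ⧸ R'.subgroupOf K')).map e.toMonoidHom = S := by
      rw [hS₁]
      ext y
      constructor
      · rintro ⟨_, ⟨z, hz, rfl⟩, rfl⟩
        have e0 : e.toMonoidHom (e.symm.toMonoidHom z) = z := by simp
        rw [e0]
        exact hz
      · intro hy
        exact ⟨e.symm y, ⟨y, hy, rfl⟩, by simp⟩
    obtain ⟨a₁, ha₁, b₁, hb₁, hab⟩ := hfac K' R' (constrained_of_equiv e.symm p hC) S₁ (e.symm h)
    set a := e a₁ with ha
    set b := e b₁ with hb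
    have hh : h = a * b := by
      have := congrArg e hab
      simpa using this
    have haN := normalizer_transport e S hW₁ S₁ hS₁e ha₁
    have hbN := normalizer_transport e S hW₂ S₁ hS₁e hb₁
    set N₁ := Subgroup.normalizer ((inducedFunctor W₁ (S : Subgroup X) : Subgroup X) : Set X) with hN₁
    set N₂ := Subgroup.normalizer ((inducedFunctor W₂ (S : Subgroup X) : Subgroup X) : Set X) with hN₂
    have hSN₁ : (S : Subgroup X) ≤ N₁ := le_normalizer_induced hW₁ _ S.isPGroup'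
    have hSN₂ : (S : Subgroup X) ≤ N₂ := le_normalizer_induced hW₂ _ S.isPGroup'
    have hSD : (S : Subgroup X) ≤ N₁ ⊓ N₂ := le_inf hSN₁ hSN₂
    set B : Subgroup X := (Subgroup.closure A).map (MulAut.conj b).toMonoidHom with hB
    have hAcl : Subgroup.closure A ≤ (S : Subgroup X) := (Subgroup.closure_le _).mpr hA
    have hBD : B ≤ N₁ ⊓ N₂ := by
      rintro _ ⟨x, hx, rfl⟩
      have hxS := hAcl hx
      have hxh := conj_closure_mem hAh x hx
      refine ⟨?_, ?_⟩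
      · have e1 : (MulAut.conj b).toMonoidHom x = a⁻¹ * (h * x * h⁻¹) * a := by
          rw [hh]
          simp [MulAut.conj_apply]
          group
        rw [e1]
        exact N₁.mul_mem (N₁.mul_mem (N₁.inv_mem haN) (hSN₁ hxh)) haN
      · show b * x * b⁻¹ ∈ N₂
        exact N₂.mul_mem (N₂.mul_mem hbN (hSN₂ hxS)) (N₂.inv_mem hbN)
    have hBp : IsPGroup p B := (S.isPGroup'.to_le hAcl).map _
    obtain ⟨d, hd, hdB⟩ := Cfsg.Agent.Lib.ConjFam.exists_conj_into S.isPGroup'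
      (not_dvd_relIndex_of_le S hSD) hBD hBp
    have hdb : ∀ x ∈ A, (d * b) * x * (d * b)⁻¹ ∈ (S : Subgroup X) := by
      intro x hx
      have h1 := hdB _ ⟨x, Subgroup.subset_closure hx, rfl⟩
      have e1 : (d * b) * x * (d * b)⁻¹ = d * ((MulAut.conj b).toMonoidHom x) * d⁻¹ := by
        simp [MulAut.conj_apply]
        group
      rw [e1]
      exact h1
    have hm₁ : inducedFunctor (G := X) W₁ ∈ fam {W₁, W₂} X := ⟨W₁, Or.inl rfl, rfl⟩
    have hm₂ : inducedFunctor (G := X) W₂ ∈ fam {W₁, W₂} X := ⟨W₂, Or.inr rfl, rfl⟩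
    have c₁ : Ctrl (fam {W₁, W₂} X) ⊤ (S : Subgroup X) A (d * b) :=
      Ctrl.step hm₂ ⟨Subgroup.mem_top _, N₂.mul_mem hd.2 hbN⟩ hA hdb
    have c₂ : Ctrl (fam {W₁, W₂} X) ⊤ (S : Subgroup X) ((fun x => (d * b) * x * (d * b)⁻¹) '' A) (a * d⁻¹) := by
      refine Ctrl.step hm₁ ⟨Subgroup.mem_top _, N₁.mul_mem haN (N₁.inv_mem hd.1)⟩ ?_ ?_
      · rintro _ ⟨x, hx, rfl⟩
        exact hdb x hx
      · rintro _ ⟨x, hx, rfl⟩
        have e1 : a * d⁻¹ * (d * b * x * (d * b)⁻¹) * (a * d⁻¹)⁻¹ = h * x * h⁻¹ := by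
          rw [hh]
          group
        show a * d⁻¹ * (d * b * x * (d * b)⁻¹) * (a * d⁻¹)⁻¹ ∈ _
        rw [e1]
        exact hAh x hx
    have c₃ := c₁.trans (B := (fun x => (d * b) * x * (d * b)⁻¹) '' A) (fun x hx => ⟨x, hx, rfl⟩) c₂
    have e1 : a * d⁻¹ * (d * b) = h := by
      rw [hh]
      group
    rwa [e1] at c₃

end Cfsg.Agent.S1996
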