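import Mathlib
import Cfsg.Statements.S1997
import Cfsg.Agent.Lib.FusionRed
import Cfsg.Agent.Lib.ZFusion
import Cfsg.Agent.S1996

set_option autoImplicit false
universe u
open Cfsg

namespace Cfsg.Agent.S1997

open Cfsg.Agent.Lib.SecFunctor Cfsg.Agent.Lib.TransferRed Cfsg.Agent.Lib.PCore Cfsg.Agent.Lib.FusionRed
open Cfsg.Agent.Lib.CtrlChain Cfsg.Agent.Lib.CtrlChainMain


open Cfsg.Agent.Lib.ZFusion

/-- `Z` conjugated inside `N_G(W₁(S))` is conjugated inside `N_G(W₁(S)) ∩ N_G(W₂(S))`. -/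
theorem conj_key {G : Type u} [Group G] [Finite G] {p : ℕ} [Fact p.Prime] (S : Sylow p G)
    (W₁ W₂ : ∀ (Q : Type u) [Group Q], Subgroup Q) (hW₁ : Cfsg.IsCharPFunctor.{u} p W₁)
    (hW₂ : Cfsg.IsCharPFunctor.{u} p W₂)
    (hfac : ∀ (K R : Subgroup G) [hR : (R.subgroupOf K).Normal],
      Subgroup.centralizer ((Cfsg.pCore p (↥K ⧸ R.subgroupOf K) : Subgroup (↥K ⧸ R.subgroupOf K)) : Set (↥K ⧸ R.subgroupOf K)) ≤ Cfsg.pCore p (↥K ⧸ R.subgroupOf K) →
      ∀ (T : Sylow p (↥K ⧸ R.subgroupOf K)) (x : (↥K ⧸ R.subgroupOf K)),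
        ∃ a ∈ Subgroup.centralizer ((ZZ₁ p (T : Subgroup (↥K ⧸ R.subgroupOf K)) : Subgroup (↥K ⧸ R.subgroupOf K)) : Set (↥K ⧸ R.subgroupOf K)),
          ∃ b ∈ Subgroup.normalizer ((Cfsg.inducedFunctor (G := (↥K ⧸ R.subgroupOf K)) W₂ (T : Subgroup (↥K ⧸ R.subgroupOf K)) : Subgroup (↥K ⧸ R.subgroupOf K)) : Set (↥K ⧸ R.subgroupOf K)), x = a * b)
    (hZ : ZZ₁ p (S : Subgroup G) ≤ Cfsg.inducedFunctor (G := G) W₁ (S : Subgroup G))
    {z : G} (hz : z ∈ ZZ₁ p (S : Subgroup G)) {g : G}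
    (hg : g ∈ Subgroup.normalizer ((Cfsg.inducedFunctor (G := G) W₁ (S : Subgroup G) : Subgroup G) : Set G)) :
    ∃ h ∈ Subgroup.normalizer ((Cfsg.inducedFunctor (G := G) W₁ (S : Subgroup G) : Subgroup G) : Set G) ⊓
        Subgroup.normalizer ((Cfsg.inducedFunctor (G := G) W₂ (S : Subgroup G) : Subgroup G) : Set G),
      g * z * g⁻¹ = h * z * h⁻¹ := by
  set N₁ := Subgroup.normalizer ((Cfsg.inducedFunctor (G := G) W₁ (S : Subgroup G) : Subgroup G) : Set G) with hN₁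
  have hSN₁ : (S : Subgroup G) ≤ N₁ := le_normalizer_induced hW₁ _ S.isPGroup'
  let T : Sylow p N₁ := S.subtype hSN₁
  have hT : (T : Subgroup N₁) = (S : Subgroup G).subgroupOf N₁ := S.coe_subtype hSN₁
  have hTm : (T : Subgroup N₁).map N₁.subtype = S := by
    rw [hT, Subgroup.map_subgroupOf_eq_of_le hSN₁]
  set D₁ : Subgroup G := Cfsg.inducedFunctor (G := G) W₁ (S : Subgroup G) with hD₁
  have hD₁S : D₁ ≤ S := Subgroup.map_subtype_le _
  have hZ₁ : ZZ₁ p (T : Subgroup N₁) ≤ pCore p N₁ := by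
    intro x hx
    have h1 : (x : G) ∈ ZZ₁ p (S : Subgroup G) := by
      have := map_ZZ₁_le N₁.subtype (T : Subgroup N₁) ⟨x, hx, rfl⟩
      rwa [hTm] at this
    have hn : (D₁.subgroupOf N₁).Normal := by
      constructor
      intro n hn y
      have h3 : ((y : G) * (n : G) * (y : G)⁻¹) ∈ D₁ :=
        (Subgroup.mem_normalizer_iff.mp y.2 n).mp hn
      exact h3
    have hp' : IsPGroup p (D₁.subgroupOf N₁) :=
      (S.isPGroup'.to_le hD₁S).comap_of_injective N₁.subtype N₁.subtype_injective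
    exact le_pCore hn hp' (hZ h1)
  have hzN : z ∈ N₁ := hSN₁ ((mem_ZZ₁.mp hz).1.1)
  have hz₁ : (⟨z, hzN⟩ : N₁) ∈ ZZ₁ p (T : Subgroup N₁) := by
    rw [mem_ZZ₁] at hz ⊢
    refine ⟨⟨?_, ?_⟩, Subtype.ext (by simpa using hz.2)⟩
    · rw [hT]
      exact hz.1.1
    · show (⟨z, hzN⟩ : N₁) ∈ Subgroup.centralizer _
      rw [Subgroup.mem_centralizer_iff]
      intro s hs
      rw [hT] at hs
      exact Subtype.ext (Subgroup.mem_centralizer_iff.mp hz.1.2 _ hs)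
  obtain ⟨h, hh, he⟩ := conj_ZZ₁ hW₂ (Sec := fun X _ => Involves X G)
    (fun X _ Y hX => involves_trans hX (involves_subgroup Y))
    (fun X _ M _ hX => involves_trans hX (involves_quotient M))
    (by
      intro X _ _ hX hC T' x
      obtain ⟨K, R, hR, ⟨e⟩⟩ := hX
      have hfin : Finite (↥K ⧸ R.subgroupOf K) := Finite.of_equiv X e.symm.toEquiv
      exact fac_of_section e hW₂ (hfac K R (constrained_of_equiv e.symm p hC)) T' x)
    N₁ (involves_subgroup N₁) T hZ₁ hz₁ ⟨g, hg⟩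
  refine ⟨h, ⟨h.2, ?_⟩, ?_⟩
  · have h1 := Cfsg.Agent.Lib.NPCFunctor.map_inducedFunctor hW₂ (T : Subgroup N₁) T.isPGroup' N₁.subtype (fun x _ hx => Subtype.ext hx)
    rw [hTm] at h1
    rw [← h1]
    exact Subgroup.le_normalizer_map N₁.subtype ⟨h, hh, rfl⟩
  · have := congrArg N₁.subtype he
    simpa using this

theorem map_normalClosure_eq {G : Type*} [Group G] (N Z : Subgroup G) (hZ : Z ≤ N) :
    (Subgroup.normalClosure ((Z.subgroupOf N : Subgroup ↥N) : Set ↥N)).map N.subtype =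
      Subgroup.closure {y | ∃ g ∈ N, ∃ z ∈ Z, y = g * z * g⁻¹} := by
  rw [Subgroup.normalClosure, MonoidHom.map_closure]
  congr 1
  ext y
  constructor
  · rintro ⟨x, hx, rfl⟩
    obtain ⟨z, hz, hc⟩ := Group.mem_conjugatesOfSet_iff.mp hx
    obtain ⟨c, hc⟩ := isConj_iff.mp hc
    refine ⟨c, c.2, z, hz, ?_⟩
    rw [← hc]
    simp
  · rintro ⟨g, hg, z, hz, rfl⟩
    refine ⟨⟨g, hg⟩ * ⟨z, hZ hz⟩ * (⟨g, hg⟩ : N)⁻¹, Group.mem_conjugatesOfSet_iff.mpr ⟨⟨z, hZ hz⟩, hz, isConj_iff.mpr ⟨⟨g, hg⟩, rfl⟩⟩, ?_⟩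
    simp

/-- Let p be a prime, G a finite group with Sylow p-subgroup S, and W₁, W₂ two isomorphism-invariant p-group functors (W assigns to every group Q a subgroup W(Q), nontrivial whenever Q is a nontrivial finite p-group, and every isomorphism from a finite p-group Q onto a group R carries W(Q) onto W(R)). Suppose that G* = C_{G*}(Ω₁Z(S*)) N_{G*}(W₁(S*)) = C_{G*}(Ω₁Z(S*)) N_{G*}(W₂(S*)) = N_{G*}(W₁(S*)) N_{G*}(W₂(S*)) whenever G* = K/R is a section of G with C_{G*}(O_p(G*)) ≤ O_p(G*) and S* is a Sylow p-subgroup of G*, where Ω₁Z denotes the subgroup generated by the elements of order dividing p in the centre. Suppose also Ω₁Z(S) ≤ W₁(S) ∩ W₂(S), and let A be the normal closure of Ω₁Z(S) in N_G(W₁(S)). Then A is an elementary abelian subgroup of S, strongly closed in S with respect to G, and A controls strong fusion in G. -/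
theorem result {G : Type u} [Group G] [Finite G] {p : ℕ} [Fact p.Prime] (S : Sylow p G) (W₁ W₂ : ∀ (Q : Type u) [Group Q], Subgroup Q) (hW₁ : Cfsg.IsCharPFunctor.{u} p W₁) (hW₂ : Cfsg.IsCharPFunctor.{u} p W₂) (hfac : ∀ (K R : Subgroup G) [hR : (R.subgroupOf K).Normal], Subgroup.centralizer ((Cfsg.pCore p (↥K ⧸ R.subgroupOf K) : Subgroup (↥K ⧸ R.subgroupOf K)) : Set (↥K ⧸ R.subgroupOf K)) ≤ Cfsg.pCore p (↥K ⧸ R.subgroupOf K) → ∀ T : Sylow p (↥K ⧸ R.subgroupOf K), (∀ x : (↥K ⧸ R.subgroupOf K), ∃ a ∈ Subgroup.centralizer ((Cfsg.omegaOne p ((T : Subgroup (↥K ⧸ R.subgroupOf K)) ⊓ Subgroup.centralizer (((T : Subgroup (↥K ⧸ R.subgroupOf K)) : Subgroup (↥K ⧸ R.subgroupOf K)) : Set (↥K ⧸ R.subgroupOf K))) : Subgroup (↥K ⧸ R.subgroupOf K)) : Set (↥K ⧸ R.subgroupOf K)), ∃ b ∈ Subgroup.normalizer ((Cfsg.inducedFunctor (G := (↥K ⧸ R.subgroupOf K)) W₁ (T : Subgroup (↥K ⧸ R.subgroupOf K)) : Subgroup (↥K ⧸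 R.subgroupOf K)) : Set (↥K ⧸ R.subgroupOf K)), x = a * b) ∧ (∀ x : (↥K ⧸ R.subgroupOf K), ∃ a ∈ Subgroup.centralizer ((Cfsg.omegaOne p ((T : Subgroup (↥K ⧸ R.subgroupOf K)) ⊓ Subgroup.centralizer (((T : Subgroup (↥K ⧸ R.subgroupOf K)) : Subgroup (↥K ⧸ R.subgroupOf K)) : Set (↥K ⧸ R.subgroupOf K))) : Subgroup (↥K ⧸ R.subgroupOf K)) : Set (↥K ⧸ R.subgroupOf K)), ∃ b ∈ Subgroup.normalizer ((Cfsg.inducedFunctor (G := (↥K ⧸ R.subgroupOf K)) W₂ (T : Subgroup (↥K ⧸ R.subgroupOf K)) : Subgroup (↥K ⧸ R.subgroupOf K)) : Set (↥K ⧸ R.subgroupOf K)), x = a * b) ∧ (∀ x : (↥K ⧸ R.subgroupOf K), ∃ a ∈ Subgroup.normalizer ((Cfsg.inducedFunctor (G := (↥K ⧸ R.subgroupOf K)) W₁ (T : Subgroup (↥K ⧸ R.subgroupOf K)) : Subgroup (↥K ⧸ R.subgroupOf K)) : Set (↥K ⧸ R.subgroupOf K)), ∃ b ∈ Subgroup.normalizer ((Cfsg.inducedFunctor (G := (↥K ⧸ R.subgroupOf K)) W₂ (T : Subgroup (↥K ⧸ R.subgroupOf K)) : Subgroup (↥K ⧸ R.subgroupOf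 K)) : Set (↥K ⧸ R.subgroupOf K)), x = a * b)) (hZ : Cfsg.omegaOne p ((S : Subgroup G) ⊓ Subgroup.centralizer (((S : Subgroup G) : Subgroup G) : Set G)) ≤ Cfsg.inducedFunctor (G := G) W₁ (S : Subgroup G) ⊓ Cfsg.inducedFunctor (G := G) W₂ (S : Subgroup G)) (N₁ : Subgroup G) (hN₁ : N₁ = Subgroup.normalizer ((Cfsg.inducedFunctor (G := G) W₁ (S : Subgroup G) : Subgroup G) : Set G)) (A : Subgroup G) (hA : A = (Subgroup.normalClosure (((Cfsg.omegaOne p ((S : Subgroup G) ⊓ Subgroup.centralizer (((S : Subgroup G) : Subgroup G) : Set G))).subgroupOf N₁ : Subgroup ↥N₁) : Set ↥N₁)).map N₁.subtype) : A ≤ (S : Subgroup G) ∧ Cfsg.IsElementaryAbelian p A ∧ Cfsg.IsStronglyClosed A (S : Subgroup G) ∧ Cfsg.ControlsStrongFusion p A := by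

  -- notation
  set Z := Cfsg.omegaOne p ((S : Subgroup G) ⊓ Subgroup.centralizer (((S : Subgroup G) : Subgroup G) : Set G)) with hZdef
  set D₁ := Cfsg.inducedFunctor (G := G) W₁ (S : Subgroup G) with hD₁
  set D₂ := Cfsg.inducedFunctor (G := G) W₂ (S : Subgroup G) with hD₂
  have hZ₁ : Z ≤ D₁ := hZ.trans inf_le_left
  have hZ₂ : Z ≤ D₂ := hZ.trans inf_le_right
  set N₂ := Subgroup.normalizer ((D₂ : Subgroup G) : Set G) with hN₂
  have hN₁' : N₁ = Subgroup.normalizer ((D₁ : Subgroup G) : Set G) := hN₁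
  have hSN₁ : (S : Subgroup G) ≤ N₁ := by
    rw [hN₁']
    exact le_normalizer_induced hW₁ _ S.isPGroup'
  have hSN₂ : (S : Subgroup G) ≤ N₂ := le_normalizer_induced hW₂ _ S.isPGroup'
  have hD₁S : D₁ ≤ S := Subgroup.map_subtype_le _
  have hZS : Z ≤ S := hZ₁.trans hD₁S
  have hZN₁ : Z ≤ N₁ := hZS.trans hSN₁
  set cl : Subgroup G → Subgroup G := fun N => Subgroup.closure {y | ∃ g ∈ N, ∃ z ∈ Z, y = g * z * g⁻¹} with hcl
  have hAcl : A = cl N₁ := by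
    rw [hA]
    exact map_normalClosure_eq N₁ Z hZN₁
  have hcl_mono : ∀ {X Y : Subgroup G}, X ≤ Y → cl X ≤ cl Y := by
    intro X Y hXY
    apply Subgroup.closure_mono
    rintro _ ⟨g, hg, z, hz, rfl⟩
    exact ⟨g, hXY hg, z, hz, rfl⟩
  have hcl1 : cl N₁ = cl (N₁ ⊓ N₂) := by
    apply le_antisymm _ (hcl_mono inf_le_left)
    rw [Subgroup.closure_le]
    rintro _ ⟨g, hg, z, hz, rfl⟩
    obtain ⟨h, hh, he⟩ := conj_key S W₁ W₂ hW₁ hW₂ (fun K R _ hC T x => (hfac K R hC T).2.1 x) hZ₁ hz (by rw [← hN₁']; exact hg)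
    rw [he]
    apply Subgroup.subset_closure
    refine ⟨h, ?_, z, hz, rfl⟩
    rw [hN₁']
    exact hh
  have hcl2 : cl N₂ = cl (N₁ ⊓ N₂) := by
    apply le_antisymm _ (hcl_mono inf_le_right)
    rw [Subgroup.closure_le]
    rintro _ ⟨g, hg, z, hz, rfl⟩
    obtain ⟨h, hh, he⟩ := conj_key S W₂ W₁ hW₂ hW₁ (fun K R _ hC T x => (hfac K R hC T).1 x) hZ₂ hz hg
    rw [he]
    apply Subgroup.subset_closure
    refine ⟨h, ?_, z, hz, rfl⟩
    rw [hN₁', inf_comm]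
    exact hh
  have hAcl2 : A = cl N₂ := by rw [hAcl, hcl1, hcl2]
  have hnorm : ∀ N : Subgroup G, cl N ≤ Subgroup.normalizer ((cl N : Subgroup G) : Set G) ∨ True := fun _ => Or.inr trivial
  have hclN : ∀ N : Subgroup G, N ≤ Subgroup.normalizer ((cl N : Subgroup G) : Set G) := by
    intro N n hn
    apply Cfsg.Agent.Lib.ConjFam.mem_normalizer_of_map_conj
    refine Subgroup.eq_of_le_of_card_ge ?_ (by rw [Cfsg.Agent.Lib.CtrlChainMain.card_map_conj])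
    rw [Subgroup.map_le_iff_le_comap, Subgroup.closure_le]
    rintro _ ⟨g, hg, z, hz, rfl⟩
    apply Subgroup.subset_closure
    refine ⟨n * g, N.mul_mem hn hg, z, hz, ?_⟩
    simp [MulAut.conj_apply]
    group
  have hAN₁ : N₁ ≤ Subgroup.normalizer ((A : Subgroup G) : Set G) := by
    rw [hAcl]
    exact hclN N₁
  have hAN₂ : N₂ ≤ Subgroup.normalizer ((A : Subgroup G) : Set G) := by
    rw [hAcl2]
    exact hclN N₂
  -- `A ≤ S`
  have hAD₁ : A ≤ D₁ := by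
    rw [hAcl, Subgroup.closure_le]
    rintro _ ⟨g, hg, z, hz, rfl⟩
    rw [hN₁'] at hg
    exact (Subgroup.mem_normalizer_iff.mp hg z).mp (hZ₁ hz)
  have hAS : A ≤ S := hAD₁.trans hD₁S
  -- `A` is abelian
  have hcomm : A ≤ Subgroup.centralizer ((A : Subgroup G) : Set G) := by
    conv_lhs => rw [hAcl]
    rw [Subgroup.closure_le]
    rintro _ ⟨g, hg, z, hz, rfl⟩
    show g * z * g⁻¹ ∈ Subgroup.centralizer _
    rw [Subgroup.mem_centralizer_iff]
    intro a ha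
    have h1 : g⁻¹ * a * g⁻¹⁻¹ ∈ A := (Subgroup.mem_normalizer_iff.mp (hAN₁ (N₁.inv_mem hg)) a).mp ha
    have h2 : z * (g⁻¹ * a * g⁻¹⁻¹) = (g⁻¹ * a * g⁻¹⁻¹) * z := by
      have h3 := (mem_ZZ₁.mp hz).1.2
      exact (Subgroup.mem_centralizer_iff.mp h3 _ (hAS h1)).symm
    calc a * (g * z * g⁻¹) = g * ((g⁻¹ * a * g⁻¹⁻¹) * z) * g⁻¹ := by group
      _ = g * (z * (g⁻¹ * a * g⁻¹⁻¹)) * g⁻¹ := by rw [h2]
      _ = g * z * g⁻¹ * a := by group
  have hcomm' : ∀ x ∈ A, ∀ y ∈ A, x * y = y * x := by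
    intro x hx y hy
    exact Subgroup.mem_centralizer_iff.mp (hcomm hy) x hx
  have hexp : ∀ a ∈ A, a ^ p = 1 := by
    intro a ha
    have hle : A ≤ A := le_rfl
    have ha' : a ∈ cl N₁ := by rw [← hAcl]; exact ha
    have hsub : cl N₁ ≤ A := by rw [← hAcl]
    induction ha' using Subgroup.closure_induction with
    | mem x hx =>
      obtain ⟨g, _, z, hz, rfl⟩ := hx
      have : (g * z * g⁻¹) ^ p = g * z ^ p * g⁻¹ := by
        rw [conj_pow]
      rw [this, (mem_ZZ₁.mp hz).2]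
      simp
    | one => exact one_pow _
    | mul x y hx hy ihx ihy =>
      have hc : Commute x y := hcomm' x (hsub hx) y (hsub hy)
      rw [hc.mul_pow, ihx (hsub hx), ihy (hsub hy), one_mul]
    | inv x hx ih =>
      rw [inv_pow, ih (hsub hx), inv_one]
  have hEA : Cfsg.IsElementaryAbelian p A := by
    refine ⟨⟨⟨fun a b => Subtype.ext (hcomm' a a.2 b b.2)⟩⟩, hexp⟩
  -- control of strong fusion
  have hCtrl : ∀ (B : Set G) (g : G), B ⊆ S → (∀ b ∈ B, g * b * g⁻¹ ∈ (S : Subgroup G)) →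
      ∃ c ∈ Subgroup.normalizer ((A : Subgroup G) : Set G), ∀ b ∈ B, g * b * g⁻¹ = c * b * c⁻¹ := by
    intro B g hB hg
    have hres := Cfsg.Agent.S1996.result W₁ W₂ hW₁ hW₂ (fun K R _ hC T x => (hfac K R hC T).2.2 x)
    have hconj : ∀ W ∈ ({Cfsg.inducedFunctor (G := G) W₁, Cfsg.inducedFunctor (G := G) W₂} : Set (Subgroup G → Subgroup G)), IsConjugacyFunctor p W := by
      intro W hW
      rcases hW with rfl | hW
      · exact isConjugacyFunctor_induced hW₁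
      · rw [Set.mem_singleton_iff] at hW
        rw [hW]
        exact isConjugacyFunctor_induced hW₂
    obtain ⟨c, hc, hca⟩ := ctrl_any_sylow hconj hres le_top S.isPGroup'
      (by rw [Subgroup.relIndex_top_right]; exact S.not_dvd_index) B g (Subgroup.mem_top _) hB
      (by
        rintro _ ⟨b, hb, rfl⟩
        exact hg b hb)
    refine ⟨c, ?_, fun b hb => (hca b hb).symm⟩
    clear hca
    induction hc with
    | refl _ => exact Subgroup.one_mem _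
    | step W hW hs _ _ ih =>
      refine Subgroup.mul_mem _ ?_ ih
      rcases hW with rfl | hW
      · apply hAN₁
        rw [hN₁']
        exact hs.2
      · rw [Set.mem_singleton_iff] at hW
        rw [hW] at hs
        exact hAN₂ hs.2
  refine ⟨hAS, hEA, ⟨hAS, fun x hx g hg => ?_⟩, ⟨S, hAS, fun B hB => ⟨hB, fun g hg => ?_⟩⟩⟩
  · obtain ⟨c, hc, hca⟩ := hCtrl {x} g (by
      rintro _ rfl
      exact hAS hx) (by
      rintro _ rfl
      exact hg)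
    rw [hca x rfl]
    exact (Subgroup.mem_normalizer_iff.mp hc x).mp hx
  · obtain ⟨c, hc, hca⟩ := hCtrl B g hB (fun b hb => hg ⟨b, hb, rfl⟩)
    exact ⟨c, hc, fun a ha => hca a ha⟩

end Cfsg.Agent.S1997
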