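import Mathlib
import Cfsg.Statements.S1998
import Cfsg.Agent.Lib.TransferLocal

set_option autoImplicit false
universe u
open Cfsg

namespace Cfsg.Agent.S1998

open Cfsg.Agent.Lib.SecFunctor Cfsg.Agent.Lib.TransferRed Cfsg.Agent.Lib.PCore Cfsg.Agent.Lib.TransferLocal

/-- Let p be a prime, G a finite group with Sylow p-subgroup S, and 𝓦 a nonempty set of isomorphism-invariant p-group functors (W assigns to every group Q a subgroup W(Q), nontrivial whenever Q is a nontrivial finite p-group, and every isomorphism from a finite p-group Q onto a group R carries W(Q) onto W(R)). Suppose the induced conjugacy functors control transfer in every section of G other than G itself, but not in G. Let T be the subgroup generated by the S ∩ (N_G(W(S)))', W ∈ 𝓦, and M = N_G(T ∩ O_p(G)). Then: C_G(O_p(G)) ≤ O_p(G); M is a proper subgroup of G containing every proper subgroup of G that contains S (the unique maximal subgroup over S); [O_p(G),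 M] ≤ O_p(G) ∩ M' ≤ O_p(G) ∩ T; and every element u of S outside O_p(G) satisfies [X, u, …, u] ≰ Y with p − 1 entries u, for some chief factor X/Y of G with X ≤ O_p(G). -/
theorem result {G : Type u} [Group G] [Finite G] {p : ℕ} [Fact p.Prime] (S : Sylow p G) (𝓦 : Set (∀ (Q : Type u) [Group Q], Subgroup Q)) (h𝓦 : ∀ W ∈ 𝓦, Cfsg.IsCharPFunctor.{u} p W) (hne : 𝓦.Nonempty) (hsec : ∀ (K R : Subgroup G) [hR : (R.subgroupOf K).Normal], (K = ⊤ → R ≠ ⊥) → Cfsg.FamilyControlsTransferIn p ((fun W => Cfsg.inducedFunctor (G := (↥K ⧸ R.subgroupOf K)) W) '' 𝓦) ⊤) (hG : ¬ Cfsg.FamilyControlsTransferIn p ((fun W => Cfsg.inducedFunctor (G := G) W) '' 𝓦) ⊤) (T M : Subgroup G) (hT : T = (⨆ W ∈ 𝓦, (S : Subgroup G) ⊓ ⁅Subgroup.normalizer ((Cfsg.inducedFunctor (G := G) W (S : Subgroup G) : Subgroup G) : Set G), Subgroup.normalizer ((Cfsg.inducedFunctor (G := G) W (S : Subgroup G) : Subgroup G) : Set G)⁆)) (hM : M = Subgroup.normalizer ((T ⊓ Cfsg.pCore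 p G : Subgroup G) : Set G)) : Subgroup.centralizer ((Cfsg.pCore p G : Subgroup G) : Set G) ≤ Cfsg.pCore p G ∧ (M ≠ ⊤ ∧ ∀ H : Subgroup G, (S : Subgroup G) ≤ H → H ≠ ⊤ → H ≤ M) ∧ (⁅Cfsg.pCore p G, M⁆ ≤ Cfsg.pCore p G ⊓ ⁅M, M⁆ ∧ Cfsg.pCore p G ⊓ ⁅M, M⁆ ≤ Cfsg.pCore p G ⊓ T) ∧ ∀ u : G, u ∈ (S : Subgroup G) → u ∉ Cfsg.pCore p G → ∃ U V : Subgroup G, Cfsg.IsChiefFactor U V ∧ U ≤ Cfsg.pCore p G ∧ ¬ Cfsg.iterCommutator U (Subgroup.zpowers u) (p - 1) ≤ V := by
  classical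
  obtain ⟨W, hW⟩ := id hne
  have hsub : ∀ H : Subgroup G, H ≠ ⊤ → FT 𝓦 p H := by
    intro H hH
    have h1 := hsec H ⊥ (fun h => absurd h hH)
    have h2 : FT 𝓦 p (↥H ⧸ (⊥ : Subgroup G).subgroupOf H) := (ft_iff h𝓦).mpr h1
    exact ft_of_equiv h𝓦 ((QuotientGroup.quotientMulEquivOfEq (Subgroup.bot_subgroupOf H)).trans
      QuotientGroup.quotientBot) h2
  have hquot : ∀ (N : Subgroup G) [N.Normal], N ≠ ⊥ → FT 𝓦 p (G ⧸ N) := by
    intro N _ hN
    have h1 := hsec ⊤ N (fun _ => hN)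
    have h2 : FT 𝓦 p (↥(⊤ : Subgroup G) ⧸ N.subgroupOf ⊤) := (ft_iff h𝓦).mpr h1
    refine ft_of_equiv h𝓦 (QuotientGroup.congr (N.subgroupOf ⊤) N Subgroup.topEquiv ?_) h2
    ext x
    constructor
    · rintro ⟨y, hy, rfl⟩
      exact hy
    · intro hx
      exact ⟨⟨x, trivial⟩, hx, rfl⟩
  have hPS := pCore_le_sylow (G := G) p S
  have hPn : (pCore p G).Normal := inferInstance
  have hnot : ¬ FT 𝓦 p G := fun h => hG ((ft_iff h𝓦).mp h)
  -- the failure
  have hC : Subgroup.centralizer ((pCore p G : Subgroup G) : Set G) ≤ pCore p G := by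
    by_contra hC
    exact hnot (ft_reduction h𝓦 hsub hquot (fun h => absurd h hC))
  have hfail : ¬ pCore p G ⊓ commutator G ≤ TT 𝓦 (S : Subgroup G) := by
    intro h
    exact hnot (ft_reduction h𝓦 hsub hquot (fun _ S' => inf_commutator_le_TT_conj h𝓦 S S' h))
  have hTT : T = TT 𝓦 (S : Subgroup G) := hT
  have hM' : M = Subgroup.normalizer ((T₁ 𝓦 p (S : Subgroup G) : Subgroup G) : Set G) := by
    rw [hM, hTT, inf_comm]
  have hMne : M ≠ ⊤ := by
    intro h
    rw [hM'] at h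
    exact hfail (lemma_A W hW (h𝓦 W hW) S (Subgroup.normalizer_eq_top_iff.mp h))
  have hSne : (S : Subgroup G) ≠ ⊤ := by
    intro h
    apply hfail
    have h1 := commutator_sylow_le_TT h𝓦 hW S
    refine le_trans inf_le_right ?_
    have h2 : commutator G = ⁅(S : Subgroup G), (S : Subgroup G)⁆ := by
      rw [h]
      rfl
    rw [h2]
    exact h1
  have hle : ∀ H : Subgroup G, (S : Subgroup G) ≤ H → H ≠ ⊤ → H ≤ M := by
    intro H h1 h2
    rw [hM']
    exact le_normalizer_T₁ h𝓦 hsub S h1 h2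
  have hSM : (S : Subgroup G) ≤ M := hle _ le_rfl hSne
  refine ⟨hC, ⟨hMne, hle⟩, ⟨?_, ?_⟩, ?_⟩
  · refine le_inf (Subgroup.commutator_le_left _ _) ?_
    exact Subgroup.commutator_mono (hPS.trans hSM) le_rfl
  · rintro x ⟨hx1, hx2⟩
    refine ⟨hx1, ?_⟩
    rw [hTT]
    exact inf_commutator_le_of_subgroup h𝓦 S hSM (hsub M hMne) ⟨hPS hx1, hx2⟩
  · intro u hu hu'
    by_contra hcon
    push Not at hcon
    exact hfail (local_theorem h𝓦 ⟨W, hW⟩ hsub S u hu hu' hcon)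

end Cfsg.Agent.S1998
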