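import Mathlib
import Cfsg.Statements.S2008
-- import your own Cfsg.Agent.* helpers here

set_option autoImplicit false
open Cfsg

namespace Cfsg.Agent.S2008

/-- Conjugation by `z` on a normal subgroup. -/
def conjOn {H : Type*} [Group H] (N : Subgroup H) [hn : N.Normal] (z : H) : N →* N where
  toFun x := ⟨z * x * z⁻¹, hn.conj_mem x x.2 z⟩
  map_one' := by ext; simp
  map_mul' x y := by ext; simp [mul_assoc]

theorem conjOn_apply {H : Type*} [Group H] (N : Subgroup H) [N.Normal] (z : H) (x : N) :
    (conjOn N z x : H) = z * x * z⁻¹ := rfl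

theorem conjOn_fixedPointFree {H : Type*} [Group H] (N : Subgroup H) [N.Normal] {z : H}
    (h : N ⊓ Subgroup.centralizer ({z} : Set H) = ⊥) : MonoidHom.FixedPointFree (conjOn N z) := by
  intro x hx
  have h1 : (x : H) ∈ N ⊓ Subgroup.centralizer ({z} : Set H) := by
    refine ⟨x.2, ?_⟩
    show (x : H) ∈ Subgroup.centralizer _
    rw [Subgroup.mem_centralizer_iff]
    intro y hy
    rw [Set.mem_singleton_iff.mp hy]
    have h2 : z * (x : H) * z⁻¹ = x := congrArg Subtype.val hx
    exact mul_inv_eq_iff_eq_mul.mp h2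
  rw [h] at h1
  exact Subtype.ext (Subgroup.mem_bot.mp h1)

theorem conjOn_involutive {H : Type*} [Group H] (N : Subgroup H) [N.Normal] {z : H}
    (hz : z * z = 1) : Function.Involutive (conjOn N z) := by
  intro x
  apply Subtype.ext
  show z * (z * (x : H) * z⁻¹) * z⁻¹ = x
  have h1 : z⁻¹ = z := by
    rw [inv_eq_iff_mul_eq_one]; exact hz
  rw [h1]
  calc z * (z * (x : H) * z) * z = (z * z) * x * (z * z) := by group
    _ = x := by rw [hz]; simp

theorem inter_conj {H : Type*} [Group H] (N : Subgroup H) [hn : N.Normal] {z e : H}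
    (h : N ⊓ Subgroup.centralizer ({z} : Set H) = ⊥) (hc : IsConj z e) :
    N ⊓ Subgroup.centralizer ({e} : Set H) = ⊥ := by
  obtain ⟨c, rfl⟩ := isConj_iff.mp hc
  rw [eq_bot_iff]
  rintro x ⟨hx, hx2⟩
  have hx3 : x * (c * z * c⁻¹) = (c * z * c⁻¹) * x :=
    ((Subgroup.mem_centralizer_iff.mp hx2) _ rfl).symm
  have h4 : c⁻¹ * x * c ∈ N ⊓ Subgroup.centralizer ({z} : Set H) := by
    refine ⟨?_, ?_⟩
    · have := hn.conj_mem x hx c⁻¹
      simpa using this
    · show c⁻¹ * x * c ∈ Subgroup.centralizer _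
      rw [Subgroup.mem_centralizer_iff]
      intro y hy
      rw [Set.mem_singleton_iff.mp hy]
      calc z * (c⁻¹ * x * c) = c⁻¹ * ((c * z * c⁻¹) * x) * c := by group
        _ = c⁻¹ * (x * (c * z * c⁻¹)) * c := by rw [hx3]
        _ = c⁻¹ * x * c * z := by group
  rw [h] at h4
  have h5 : c⁻¹ * x * c = 1 := Subgroup.mem_bot.mp h4
  have : x = c * (c⁻¹ * x * c) * c⁻¹ := by group
  rw [this, h5]
  simp

/-- Let H be a finite group and z an involution such that every proper normal subgroup of H meets the centralizer of z trivially, and suppose z lies in a Klein four-subgroup E of H all three of whose involutions are conjugate to z in H. Then H has no non-trivial abelian normal subgroup. -/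
theorem result {H : Type*} [Group H] [Finite H] (z : H) (hz : orderOf z = 2) (hN : ∀ N : Subgroup H, N.Normal → N ≠ ⊤ → N ⊓ Subgroup.centralizer ({z} : Set H) = ⊥) (E : Subgroup H) (hE : IsKleinFour ↥E) (hzE : z ∈ E) (hc : ∀ e ∈ E, e ≠ 1 → IsConj z e) (N : Subgroup H) [N.Normal] (hab : IsMulCommutative ↥N) : N = ⊥ := by
  classical
  -- elements of `E`
  have hexp : ∀ e ∈ E, e * e = 1 := by
    intro e he
    have h1 : (⟨e, he⟩ : E) ^ 2 = 1 := by
      have := Monoid.pow_exponent_eq_one (⟨e, he⟩ : E)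
      rwa [IsKleinFour.exponent_two] at this
    have h2 := congrArg Subtype.val h1
    simpa [sq] using h2
  -- a third element
  have hz1 : z ≠ 1 := by
    intro h; rw [h, orderOf_one] at hz; norm_num at hz
  obtain ⟨e, heE, he1, hez⟩ : ∃ e ∈ E, e ≠ 1 ∧ e ≠ z := by
    by_contra hcon
    push Not at hcon
    have hsub : (Set.univ : Set E) ⊆ {1, ⟨z, hzE⟩} := by
      rintro ⟨x, hx⟩ -
      by_cases hx1 : x = 1
      · left; exact Subtype.ext hx1
      · right; exact Subtype.ext (hcon x hx hx1)
    have hcard : Nat.card E ≤ 2 := by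
      have h1 := Set.ncard_le_ncard hsub (Set.toFinite _)
      rw [Set.ncard_univ] at h1
      refine h1.trans ((Set.ncard_insert_le _ _).trans ?_)
      simp
    rw [IsKleinFour.card_four] at hcard
    omega
  by_cases hNtop : N = ⊤
  · exfalso
    have hc2 : IsConj z e := hc e heE he1
    obtain ⟨c, hc3⟩ := isConj_iff.mp hc2
    have hcc : ∀ a b : H, a * b = b * a := by
      intro a b
      have := hab.is_comm.comm ⟨a, hNtop ▸ Subgroup.mem_top a⟩ ⟨b, hNtop ▸ Subgroup.mem_top b⟩
      exact congrArg Subtype.val this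
    apply hez
    rw [← hc3, hcc c z]
    group
  have h0 := hN N inferInstance hNtop
  have he0 := inter_conj N h0 (hc e heE he1)
  have hze : z * e ∈ E := E.mul_mem hzE heE
  have hze1 : z * e ≠ 1 := by
    intro h
    apply hez
    have h2 : z⁻¹ = z := by rw [inv_eq_iff_mul_eq_one]; exact hexp z hzE
    rw [eq_comm, ← inv_eq_iff_mul_eq_one.mpr h, h2]
  have hze0 := inter_conj N h0 (hc _ hze hze1)
  have f1 := MonoidHom.FixedPointFree.coe_eq_inv_of_involutive (conjOn_fixedPointFree N h0) (conjOn_involutive N (hexp z hzE))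
  have f2 := MonoidHom.FixedPointFree.coe_eq_inv_of_involutive (conjOn_fixedPointFree N he0) (conjOn_involutive N (hexp e heE))
  rw [eq_bot_iff]
  intro x hx
  have h3 : (⟨x, hx⟩ : N) = 1 := by
    apply conjOn_fixedPointFree N hze0
    apply Subtype.ext
    show (z * e) * x * (z * e)⁻¹ = x
    have h4 : e * x * e⁻¹ = x⁻¹ := by
      have := congrFun f2 ⟨x, hx⟩
      exact congrArg Subtype.val this
    have h5 : z * x⁻¹ * z⁻¹ = x := by
      have := congrFun f1 ⟨x⁻¹, N.inv_mem hx⟩
      have h6 := congrArg Subtype.val this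
      rw [conjOn_apply] at h6
      simpa using h6
    calc (z * e) * x * (z * e)⁻¹ = z * (e * x * e⁻¹) * z⁻¹ := by group
      _ = x := by rw [h4, h5]
  exact congrArg Subtype.val h3

end Cfsg.Agent.S2008
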