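import Mathlib
import Cfsg.Statements.S2009
import Cfsg.Agent.S2008
-- import your own Cfsg.Agent.* helpers here

set_option autoImplicit false
open Cfsg

namespace Cfsg.Agent.S2009

/-- Let H be a finite group and z an involution such that every proper normal subgroup of H meets the centralizer of z trivially, and suppose z lies in a Klein four-subgroup E of H all three of whose involutions are conjugate to z in H. Then H is simple. -/
theorem result {H : Type*} [Group H] [Finite H] (z : H) (hz : orderOf z = 2) (hN : ∀ N : Subgroup H, N.Normal → N ≠ ⊤ → N ⊓ Subgroup.centralizer ({z} : Set H) = ⊥) (E : Subgroup H) (hE : IsKleinFour ↥E) (hzE : z ∈ E) (hc : ∀ e ∈ E, e ≠ 1 → IsConj z e) : IsSimpleGroup H := by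
  have hz1 : z ≠ 1 := by
    intro h; rw [h, orderOf_one] at hz; norm_num at hz
  have hzz : z * z = 1 := by
    rw [← sq, ← orderOf_dvd_iff_pow_eq_one, hz]
  haveI : Nontrivial H := ⟨⟨z, 1, hz1⟩⟩
  refine ⟨?_⟩
  intro N hNn
  by_cases hNtop : N = ⊤
  · exact Or.inr hNtop
  · left
    have h0 := hN N hNn hNtop
    have hab : IsMulCommutative ↥N := by
      constructor
      constructor
      intro a b
      have := (Cfsg.Agent.S2008.conjOn_fixedPointFree N h0).commute_all_of_involutive
        (Cfsg.Agent.S2008.conjOn_involutive N hzz) a b
      exact this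
    exact Cfsg.Agent.S2008.result z hz hN E hE hzE hc N hab

end Cfsg.Agent.S2009
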