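import Mathlib
import Cfsg.Statements.S2036
import Cfsg.Agent.Lib.M22c46Ok1
import Cfsg.Agent.Lib.M22c46Ok2
import Cfsg.Agent.Lib.M22c46Ok3
import Cfsg.Agent.Lib.SchurCover46

set_option autoImplicit false
set_option maxRecDepth 100000

namespace Cfsg.Agent.S2036

open Cfsg Cfsg.Spor Cfsg.Agent.Lib.Golay Cfsg.Agent.Lib.GolaySift Cfsg.Agent.Lib.MathieuSimple
  Cfsg.Agent.Lib.MathieuOut Cfsg.Agent.Lib.SchurCoset46 Cfsg.Agent.Lib.SchurCosetGolay46
  Cfsg.Agent.Lib.SchurPres46 Cfsg.Agent.Lib.SchurGolayTab46 Cfsg.Agent.Lib.SchurCover46 Cfsg.Agent.Lib.M22c46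
open MulAction

theorem pt23 : pt 23 = (none : GolayPt) := by simp [pt]
theorem pt0 : pt 0 = (some 0 : GolayPt) := by simp [pt]

theorem mem_M22_iff {g : Equiv.Perm GolayPt} :
    g ∈ M22 ↔ g ∈ M24 ∧ g (pt 23) = pt 23 ∧ g (pt 0) = pt 0 := by
  rw [pt23, pt0]
  simp only [M22, M23, Subgroup.mem_inf, MulAction.mem_stabilizer_iff, Equiv.Perm.smul_def]
  tauto

theorem M22_le : M22 ≤ M24 := fun _ h => (mem_M22_iff.mp h).1

theorem mem_of_code {c : ℕ} (h : isM24 c = true) (h1 : ap c 23 = 23) (h2 : ap c 0 = 0) : decode c ∈ M22 := by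
  have hv := isM24_valid h
  rw [mem_M22_iff]
  refine ⟨decode_mem_M24 h, ?_, ?_⟩
  · rw [decode_pt hv (by norm_num), h1]
  · rw [decode_pt hv (by norm_num), h2]

theorem card_M22 : Nat.card ↥M22 = 443520 := by
  have h : M22 = Cfsg.Agent.Lib.Golay.G [0, 23] := by
    ext g
    rw [mem_M22_iff, mem_G]
    constructor
    · rintro ⟨h1, h2, h3⟩
      refine ⟨h1, fun i hi => ?_⟩
      simp only [List.mem_cons, List.not_mem_nil, or_false] at hi
      rcases hi with rfl | rfl
      · exact h3
      · exact h2
    · rintro ⟨h1, h2⟩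
      exact ⟨h1, h2 23 (by simp), h2 0 (by simp)⟩
  rw [h]
  exact card_G2

theorem ac_M24 : isM24 ac = true := by decide +kernel
theorem bc_M24 : isM24 bc = true := by decide +kernel
theorem w2c_M24 : isM24 w2c = true := by decide +kernel
theorem c7c_M24 : isM24 c7c = true := by decide +kernel
theorem aic_valid : valid aic = true := by decide +kernel
theorem bic_valid : valid bic = true := by decide +kernel
theorem w2ic_valid : valid w2ic = true := by decide +kernel

/-- The first generator. -/
noncomputable abbrev aP : Equiv.Perm GolayPt := decode ac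
/-- The second generator. -/
noncomputable abbrev bP : Equiv.Perm GolayPt := decode bc
/-- The second generator of the small subgroup. -/
noncomputable abbrev w2P : Equiv.Perm GolayPt := decode w2c
/-- An element of order 7. -/
noncomputable abbrev c7P : Equiv.Perm GolayPt := decode c7c

theorem aP_M22 : aP ∈ M22 := mem_of_code ac_M24 (by decide +kernel) (by decide +kernel)
theorem bP_M22 : bP ∈ M22 := mem_of_code bc_M24 (by decide +kernel) (by decide +kernel)
theorem w2P_M22 : w2P ∈ M22 := mem_of_code w2c_M24 (by decide +kernel) (by decide +kernel)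
theorem c7P_M22 : c7P ∈ M22 := mem_of_code c7c_M24 (by decide +kernel) (by decide +kernel)
theorem rep_a : Rep aP ac := rep_decode (isM24_valid ac_M24)
theorem rep_b : Rep bP bc := rep_decode (isM24_valid bc_M24)
theorem rep_w2 : Rep w2P w2c := rep_decode (isM24_valid w2c_M24)
theorem rep_c7 : Rep c7P c7c := rep_decode (isM24_valid c7c_M24)

theorem rep_of_inv {g : Equiv.Perm GolayPt} {c d : ℕ} (hg : Rep g c) (hd : valid d = true)
    (h : eqC (comp c d) idC = true) : Rep g⁻¹ d := by
  have h1 : g⁻¹ = decode d := by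
    rw [inv_eq_iff_mul_eq_one]
    exact eq_of_eqC (hg.mul (rep_decode hd)) rep_one h
  rw [h1]
  exact rep_decode hd

theorem rep_ai : Rep aP⁻¹ aic := rep_of_inv rep_a aic_valid (by decide +kernel)
theorem rep_bi : Rep bP⁻¹ bic := rep_of_inv rep_b bic_valid (by decide +kernel)
theorem rep_w2i : Rep w2P⁻¹ w2ic := rep_of_inv rep_w2 w2ic_valid (by decide +kernel)

theorem a_pow : aP ^ 5 = 1 := pow_eq_one_of_code rep_a (by decide +kernel)
theorem b_pow : bP ^ 11 = 1 := pow_eq_one_of_code rep_b (by decide +kernel)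
theorem w2_pow : w2P ^ 5 = 1 := pow_eq_one_of_code rep_w2 (by decide +kernel)
theorem c7_pow : c7P ^ 7 = 1 := pow_eq_one_of_code rep_c7 (by decide +kernel)
theorem a_ne : aP ≠ 1 := ne_one_of_code rep_a (i := 1) (by norm_num) (by decide +kernel)
theorem b_ne : bP ≠ 1 := ne_one_of_code rep_b (i := 1) (by norm_num) (by decide +kernel)
theorem w2_ne : w2P ≠ 1 := ne_one_of_code rep_w2 (i := 1) (by norm_num) (by decide +kernel)
theorem c7_ne : c7P ≠ 1 := ne_one_of_code rep_c7 (i := 1) (by norm_num) (by decide +kernel)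

/-- A straight-line program. -/
def insD : List (ℕ × ℕ) := [(1,1),(2,1),(2,3),(3,3),(3,4),(3,5),(3,6),(0,7),(3,9),(0,9),(0,10),(0,11),(0,12),(0,14),(0,15),(0,15),(0,17),(0,17),(10,0),(20,0),(20,1),(20,2),(3,3),(0,4),(21,6),(0,25),(0,26),(0,9),(0,29),(0,11),(0,31),(0,31),(0,33),(0,34),(0,35),(29,0),(36,0),(35,1),(19,2),(3,20),(4,4),(39,6),(0,43),(0,43),(0,9),(0,10),(0,46),(0,29),(0,48),(29,0),(27,0),(52,0),(32,1),(1,17),(35,3),(19,4),(33,5),(2,21),(1,7),(8,8),(0,9),(61,43),(0,63),(0,28),(0,15),(0,66),(0,66),(0,49),(0,69),(0,51),(0,21),(34,0),(36,0),(74,0),(38,1),(36,2),(25,3),(4,26),(5,5),(19,6),(2,7),(0,30),(47,11),(0,83),(0,66),(0,67),(0,37),(0,52),(0,39),(0,54),(0,41),(0,92),(0,57),(41,0),(36,0),(13,0),(60,0),(46,1),(25,2),(39,3),(2,27),(2,28),(102,67),(0,32),(0,104),(0,87),(0,57),(0,36),(0,15),(0,38),(0,39),(89,0),(53,0),(14,0),(115,0),(115,1),(115,2),(2,3),(99,4),(80,5),(1,6),(48,7),(24,8),(44,9),(10,10),(54,14),(0,126),(0,109),(0,35),(130,0),(75,0),(31,0),(18,0),(133,0),(111,1),(96,2),(85,3),(41,4),(67,139),(0,28),(0,141),(0,92),(0,49),(0,125),(0,126),(0,16),(0,111),(0,148),(147,0),(108,0),(99,0),(151,0),(116,1),(102,2),(58,3),(22,4),(18,5),(122,28),(0,123),(0,66),(0,31),(0,90),(0,14),(0,92),(0,53),(0,116),(0,37),(0,19),(51,0),(72,0),(97,0),(57,0),(136,0),(122,1),(114,2),(79,3),(43,4),(26,5),(40,6),(24,7),(24,8),(24,9)]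

/-- Its outcome. -/
def TD : List ℕ := [970499966350631336865513127433832480,980224387687010295957922729495201824,968708902336673183175954409307867168,967812279691448225500382947153381408,972512676110088067912772961567868960,976448692869377735270425038196672544,971592882964418941354553515258775584,967533375121106613322417967324629024,966064682402425845688368386977957920,968938422589408302186839669499048992,983548720921252936276249910206105632,966039336168793943308839874394687520,980512851159382908514979656779827232,962137005357671798634685330376766496,969759736087508779687532004118805696,963379258509100965732745706515868320,982086361768239816848547546732540416,968612512474895597072801011565497024,965015665502048894815959753751727680,967731612912267975143940484434698912,982914062595958354145615726776789568,961150523318610190273582605700173344,957553609880592898448725449408979424,963393712879831729232444125574604224,981712419043815134309527617447560576,981818691054096003685363657089320992,96136550762625640411995625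7276790816,966182099583441531322624363496310816,971229025345169243162215177199421472,966265707571960147018867639343199264,977916426943300587787340298506871968,963721886883755259286232606933354528,972485073505161838835797824383518752,968702628260709246202644338919461920,970236361728295142721053393311943360,957170709107610009103783306768031968,977793836961183666808582549806717344,957501232944820326213177333078767776,971256367706641645974717708660644384,979182181720338733165245264339569792,967557910392903475838564873806125408,973903758194892652086143926455030176,976360478301816800713196471999374432,972346487013338360546452056467163360,979121071158219704299181131031480352,970443823487437936223357542707890208,984448908323851148258517423007385632,966674420521853169923399075342093344,968429722290122750424380121602729120,965128854020860192151391391390468128,979037747421335847153138073498388512,967775751955048358589096069482874912,977736854974305631477059340049174560,972994778321882362224015793814843840,97515558219743629959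1715989119980864,967636149102482271944646560889641568,971086572913578364206896154964702688,963515095949177277443875056653535264,978936092663098606056983851117774880,979324170037577997009341392416278560,963716329872273802668156052426786848,962702357680248291904715218466062368,972724426888946561451801871367456800,977742171269166811119192729786728480,968733058919219898355236127051951360,968528652968227874467386032868530464,974426985168880355971529128070751392,963340364271918767040408952629701888,969836898326968551397880902883313696,979158210438034036931139658402891808,971084271120029097280583467920988192,962627569880781175768361421701003360,977513909469867686860562415680173184,966214838921836800400457426681442592,984479736858124400497659460825007712,982861588658495318961455486556646592,965908017925143864681519781852006720,981958065150281977913829675910935712,956770837350631991407591344871724288,978264254685374429635652021611120992,977950060300084252028020274531272736,959606934175505074920146850068760608,97247123815634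0489213650609118021664,962660455969611261303912270539327520,962508496607438698101436973414746144,961452335506072607991677177660257312,975346028712660580592452217730074656,967283888461630133824935992167401504,977556891554048538830611652853305376,962489627599130204112600333178932864,973686885601041123106000724095818080,957017273056988016830107985678519488,972360923968869591676473688759686720,977014266295918373168376758435775776,969109180169401216255175364077722784,969972116007737682794195748176314624,963393005562219378329266243892547008,980667752005168355196529339728942304,966188375910301227211111633170913312,976726662165190065057961305520050784,974433129298773809274974475294148640,965987200469983028679134508415944736,978977534330557688550950590304946208,984724508489452699215480746259449888,970538934188133992126314474123986976,980659945285429986483690699286415392,971757565721224620559565535756961824,965344260028127640795919481714062368,973092083512145244899605781180230912,976642716372159688647415991926851616,96760176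4163734492283215360780052512,969188767144469323324463647488983328,957547948008174548590739681563826336,959781578031336978419504490991857280,983339606937697370149606523395983680,969929333610992273357435342849324064,958191149057865426290205156394392224,972440820889757666230860970289857920,960098957237686588740782635083708608,978023706320647342282869435696297472,957475092449270364426497805000588544,968509718789918725847110413523879968,970047614019708188830446340752967712,961171408190728179314541034334391328,959454660215128340436018166910784544,966234485409130904920540129079462944,959742456695584028832466754775692320,971774190105160884689740868044963872,972771800367706245078696517575387392,982007690023652852366861124234818816,983008829171451151390480526740696320,964812145821430658765506362842679328,977745459775846964723639610957478944,962416314114568772327917795588655584,965860008630225859298308041549876736,983029471653530211503215434598365344,968629661290250635354901488551902464,958614439171866452094751196482475424,97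3768995338944753380058709879009504,961405909690755629891236256415339552,971623191330667575673250043748523200,974952949318465886098198775359385632,976401628976411028794600478819687456,958233784979359359606831894970943520,969805182287272168897295324711131200,958604419969800435365664061494144160,973989446972793549491818761619584032,963514216234139749772325144390620576,980332138113635085245470400972949888,970048947144295298498924739443310784,972689469940535587750704848269724256,974172227003221972051591296601861664,978960142505238767453880502331297280,969962527228831912281647454261381376,962286892160691477949554393367580768,958223556491592890003608453991683648,982021435687429862980280690627005600,970193435682221602047175926538706176,973804331418448157545366278126426144,975281194945030086706930089227226144,974339152151718959747052154297304352,980388915031641958913757497491096736,984718808976951047578461817624016128,967850387920107538652798211281600544,976543676398805589631721568915204704,981570076631166642603375611718506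880,968953152816785285385064451565670080,976248326690435155832122646587429440,980349165589386713830688850469116096,966336575704009382039732693868029440,970197118068538125278423423192911328,981755197733322256685727498887092896,956785408829687205071954657949168064,963467304001180693941887865896608160,977901232467950912694358944099508800,984365684030482021741134528294106400,963714266104783739440714516064784032,971818604606973471131906039180966240,970332819527887258270828546798800096,958102061968449043888985446395951744,977746887031549938688618611605133376,956819649559705768590669241185966368,972995696982078800346623318265570464,974185177486176260886012424798940416]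

theorem run : runSLP [bc, ac] insD = TD := by decide +kernel

theorem level2 : levelOk TD [0,23] 1 [1,2,3,4,5,6,7,8,9,10,11,12,13,14,15,16,17,18,19,20,21,22] = true := by decide +kernel
theorem level3 : levelOk TD [1,0,23] 2 [2,3,4,5,6,7,8,9,10,11,12,13,14,15,16,17,18,19,20,21,22] = true := by decide +kernel
theorem level4 : levelOk TD [2,1,0,23] 3 [3,4,5,6,7,8,9,10,11,12,13,14,15,16,17,18,19,20,21,22] = true := by decide +kernel
theorem level5 : levelOk TD [3,2,1,0,23] 5 [5,14,17] = true := by decide +kernel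
theorem level6 : levelOk TD [5,3,2,1,0,23] 4 [4,6,7,8,9,10,11,12,13,15,16,18,19,20,21,22] = true := by decide +kernel

/-- `M22` is generated by the two elements. -/
theorem sift (H : Subgroup (Equiv.Perm GolayPt)) (hH : H ≤ M24) (ha : aP ∈ H) (hb : bP ∈ H) :
    M22 ≤ H := by
  have hT : ∀ c ∈ TD, InH H c := by
    rw [← run]
    apply runSLP_spec
    intro c hc
    simp only [List.mem_cons, List.not_mem_nil, or_false] at hc
    rcases hc with rfl | rfl
    · exact ⟨_, hb, rep_b⟩
    · exact ⟨_, ha, rep_a⟩
  have h : fixL M24 [0,23] ≤ H := by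
    refine sift_step (orbit_bound (by simp) (by norm_num) (by simp) (by decide +kernel))
      (level_of_table hH hT (by simp) (by norm_num) level2) ?_
    refine sift_step (orbit_bound (by simp) (by norm_num) (by simp) (by decide +kernel))
      (level_of_table hH hT (by simp) (by norm_num) level3) ?_
    refine sift_step (orbit_bound (by simp) (by norm_num) (by simp) (by decide +kernel))
      (level_of_table hH hT (by simp) (by norm_num) level4) ?_
    refine sift_step (fun g hg => L6_in g hg)
      (level_of_table hH hT (by simp) (by norm_num) level5) ?_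
    refine sift_step (fun g hg => L7_in g hg)
      (level_of_table hH hT (by simp) (by norm_num) level6) ?_
    intro g hg
    have : g ∈ G [4,5,3,2,1,0,23] := hg
    rw [G7_eq_bot, Subgroup.mem_bot] at this
    rw [this]
    exact Subgroup.one_mem _
  intro g hg
  obtain ⟨h1, h2, h3⟩ := mem_M22_iff.mp hg
  refine h ⟨h1, ?_⟩
  intro i hi
  simp only [List.mem_cons, List.not_mem_nil, or_false] at hi
  rcases hi with rfl | rfl
  · exact h3
  · exact h2

/-- The generators in the subgroup. -/
noncomputable def sG (i : ℕ) : ↥M22 :=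
  if i = 0 then ⟨aP, aP_M22⟩ else if i = 1 then ⟨bP, bP_M22⟩ else 1

theorem sG_0 : sG 0 = ⟨aP, aP_M22⟩ := by simp [sG]
theorem sG_1 : sG 1 = ⟨bP, bP_M22⟩ := by simp [sG]

theorem hgen : Subgroup.closure (sG '' Set.Iio 2) = ⊤ := by
  apply closure_eq_top
  apply sift
  · rintro _ ⟨y, _, rfl⟩
    exact M22_le y.2
  · refine ⟨sG 0, Subgroup.subset_closure ⟨0, by show 0 < 2; norm_num, rfl⟩, ?_⟩
    rw [sG_0]; rfl
  · refine ⟨sG 1, Subgroup.subset_closure ⟨1, by show 1 < 2; norm_num, rfl⟩, ?_⟩
    rw [sG_1]; rfl

theorem hL : ∀ l, l < 2 * 2 → Rep (lett (fun i => (sG i : Equiv.Perm GolayPt)) l) (cL l) := by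
  intro l hl
  have h0 : (sG 0 : Equiv.Perm GolayPt) = aP := by rw [sG_0]
  have h1 : (sG 1 : Equiv.Perm GolayPt) = bP := by rw [sG_1]
  interval_cases l
  · show Rep (lett (fun i => (sG i : Equiv.Perm GolayPt)) (2 * 0)) _
    rw [lett_even, h0]; exact rep_a
  · show Rep (lett (fun i => (sG i : Equiv.Perm GolayPt)) (2 * 0 + 1)) _
    rw [lett_odd, h0]; exact rep_ai
  · show Rep (lett (fun i => (sG i : Equiv.Perm GolayPt)) (2 * 1)) _
    rw [lett_even, h1]; exact rep_b
  · show Rep (lett (fun i => (sG i : Equiv.Perm GolayPt)) (2 * 1 + 1)) _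
    rw [lett_odd, h1]; exact rep_bi

/-- The base of `M22`. -/
theorem hbase (g : ↥M22) (h : ∀ q ∈ [1, 2, 3, 5, 4], (g : Equiv.Perm GolayPt) (pt q) = pt q) : g = 1 := by
  obtain ⟨h1, h2, h3⟩ := mem_M22_iff.mp g.2
  have h4 : (g : Equiv.Perm GolayPt) ∈ G [4,5,3,2,1,0,23] := by
    refine ⟨h1, fun i hi => ?_⟩
    simp only [List.mem_cons, List.not_mem_nil, or_false] at hi
    rcases hi with rfl | rfl | rfl | rfl | rfl | rfl | rfl
    · exact h 4 (by simp)
    · exact h 5 (by simp)
    · exact h 3 (by simp)
    · exact h 2 (by simp)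
    · exact h 1 (by simp)
    · exact h3
    · exact h2
  rw [G7_eq_bot, Subgroup.mem_bot] at h4
  exact Subtype.ext h4

/-! ### The small subgroup -/

/-- The generators of the small subgroup. -/
noncomputable def sH (i : ℕ) : ↥M22 :=
  if i = 0 then ⟨bP, bP_M22⟩ else if i = 1 then ⟨w2P, w2P_M22⟩ else 1

theorem sH_0 : sH 0 = ⟨bP, bP_M22⟩ := by simp [sH]
theorem sH_1 : sH 1 = ⟨w2P, w2P_M22⟩ := by simp [sH]

theorem hLh : ∀ l, l < 2 * 2 → Rep (lett (fun i => (sH i : Equiv.Perm GolayPt)) l) (cLh l) := by
  intro l hl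
  have h0 : (sH 0 : Equiv.Perm GolayPt) = bP := by rw [sH_0]
  have h1 : (sH 1 : Equiv.Perm GolayPt) = w2P := by rw [sH_1]
  interval_cases l
  · show Rep (lett (fun i => (sH i : Equiv.Perm GolayPt)) (2 * 0)) _
    rw [lett_even, h0]; exact rep_b
  · show Rep (lett (fun i => (sH i : Equiv.Perm GolayPt)) (2 * 0 + 1)) _
    rw [lett_odd, h0]; exact rep_bi
  · show Rep (lett (fun i => (sH i : Equiv.Perm GolayPt)) (2 * 1)) _
    rw [lett_even, h1]; exact rep_w2
  · show Rep (lett (fun i => (sH i : Equiv.Perm GolayPt)) (2 * 1 + 1)) _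
    rw [lett_odd, h1]; exact rep_w2i

/-- The small subgroup. -/
noncomputable abbrev HH : Subgroup ↥M22 := Subgroup.closure (sH '' Set.Iio 2)

theorem specH : (∀ y ∈ HH, ∃ k, k < 55 ∧ Rep ((y : ↥M22) : Equiv.Perm GolayPt) (gt1.Hl k)) ∧
    (∀ k, k < 55 → ∃ y ∈ HH, Rep ((y : ↥M22) : Equiv.Perm GolayPt) (gt1.Hl k)) := small_spec small_ok hLh

theorem sH0_mem : sH 0 ∈ HH := Subgroup.subset_closure ⟨0, by show 0 < 2; norm_num, rfl⟩
theorem sH1_mem : sH 1 ∈ HH := Subgroup.subset_closure ⟨1, by show 1 < 2; norm_num, rfl⟩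

theorem card_HH : Nat.card HH = 55 := by
  have h1 : Nat.card HH ≤ 55 := by
    have hex : ∀ y : HH, ∃ k : Fin 55, Rep ((y : ↥M22) : Equiv.Perm GolayPt) (gt1.Hl k) := by
      intro y
      obtain ⟨k, hk, h⟩ := specH.1 y.1 y.2
      exact ⟨⟨k, hk⟩, h⟩
    choose f hf using hex
    have hinj : Function.Injective f := by
      intro a b hab
      apply Subtype.ext
      apply Subtype.ext
      have h2 := hf a
      rw [hab] at h2
      exact eq_of_eqC h2 (hf b) (by rw [eqC, List.all_eq_true]; intro i _; simp)
    have := Nat.card_le_card_of_injective f hinj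
    simpa using this
  have h2 : 11 ∣ Nat.card HH := by
    haveI : Fact (Nat.Prime 11) := ⟨by norm_num⟩
    have h3 : orderOf (⟨sH 0, sH0_mem⟩ : HH) = 11 := by
      apply orderOf_eq_prime
      · apply Subtype.ext
        apply Subtype.ext
        show ((sH 0 : ↥M22) : Equiv.Perm GolayPt) ^ 11 = 1
        rw [sH_0]
        exact b_pow
      · intro h
        have h4 := congrArg (fun y : HH => ((y : ↥M22) : Equiv.Perm GolayPt)) h
        apply b_ne
        have h5 : ((sH 0 : ↥M22) : Equiv.Perm GolayPt) = 1 := h4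
        rwa [sH_0] at h5
    rw [← h3]
    exact orderOf_dvd_natCard _
  have h3 : 5 ∣ Nat.card HH := by
    haveI : Fact (Nat.Prime 5) := ⟨by norm_num⟩
    have h3 : orderOf (⟨sH 1, sH1_mem⟩ : HH) = 5 := by
      apply orderOf_eq_prime
      · apply Subtype.ext
        apply Subtype.ext
        show ((sH 1 : ↥M22) : Equiv.Perm GolayPt) ^ 5 = 1
        rw [sH_1]
        exact w2_pow
      · intro h
        have h4 := congrArg (fun y : HH => ((y : ↥M22) : Equiv.Perm GolayPt)) h
        apply w2_ne
        have h5 : ((sH 1 : ↥M22) : Equiv.Perm GolayPt) = 1 := h4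
        rwa [sH_1] at h5
    rw [← h3]
    exact orderOf_dvd_natCard _
  have h4 : 55 ∣ Nat.card HH := by
    have : Nat.Coprime 11 5 := by norm_num
    exact this.mul_dvd_of_dvd_of_dvd h2 h3
  have h5 : 0 < Nat.card HH := Nat.card_pos
  have h6 := Nat.le_of_dvd h5 h4
  omega

theorem hT0 : Tab nV 2 T par := ded1.base.tab_of_chk tab_ok

theorem gt1_v : ∀ c, c < gt1.n → gt1.vChk c = true := by
  have h := gt1_vs
  rw [List.all_eq_true] at h
  exact fun c hc => h c (List.mem_range.mpr hc)

theorem tab1 : (∀ c, c < gt1.n → (((gt1.gM sG c : ↥M22) : ↥M22 ⧸ HH) = ((1 : ↥M22) : ↥M22 ⧸ HH)) → c = 0) ∧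
    (∀ c, c < gt1.n → ∀ i, i < 2 →
      sG i • ((gt1.gM sG (gt1.T c (2 * i)) : ↥M22) : ↥M22 ⧸ HH) = ((gt1.gM sG c : ↥M22) : ↥M22 ⧸ HH)) :=
  gt1.table (s := sG) hT0 hL gt1_v gt1_h hbase specH.1 specH.2

/-- The coset of a representative. -/
noncomputable def mask1 (c : ℕ) : ↥M22 ⧸ HH := ((gt1.gM sG c : ↥M22) : ↥M22 ⧸ HH)

theorem mask1_zero : mask1 0 = ((1 : ↥M22) : ↥M22 ⧸ HH) := by
  rw [mask1, GTab.gM, tOf_zero, inv_one]

theorem smul_base_iff (g : ↥M22) : g • ((1 : ↥M22) : ↥M22 ⧸ HH) = ((1 : ↥M22) : ↥M22 ⧸ HH) ↔ g ∈ HH := by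
  rw [MulAction.Quotient.smul_coe]
  show ((g • (1 : ↥M22) : ↥M22) : ↥M22 ⧸ HH) = _ ↔ _
  rw [QuotientGroup.eq]
  simp

/-! ### The upper bound -/

theorem rels_ok : ∀ j, j < nR → (∀ l ∈ relsL.getD j [], l < 2 * 2) ∧
    evW sG (relsL.getD j []) = 1 := by
  have h := relsL_ok
  simp only [List.all_eq_true, List.mem_range, Bool.and_eq_true, Nat.blt_eq] at h
  intro j hj
  obtain ⟨h1, h2⟩ := h j hj
  refine ⟨h1, ?_⟩
  apply Subtype.ext
  have h3 := rep_evW hL (relsL.getD j []) h1
  have h4 : evW (fun i => (sG i : Equiv.Perm GolayPt)) (relsL.getD j []) = 1 := eq_of_eqC h3 rep_one h2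
  exact (map_evW M22.subtype sG (relsL.getD j [])).trans h4

theorem up (Γ : Type) [Group Γ] [Finite Γ] (σ : Γ →* ↥M22) (hσ : IsStemExtension σ) :
    ∃ u : σ.ker, u ^ 12 = 1 ∧ ∀ k : σ.ker, k ∈ Subgroup.zpowers u := by
  -- the exponent
  have hcard : Nat.card ↥M22 = 443520 := card_M22
  have h5 : ∀ k ∈ σ.ker, k ^ 88704 = 1 := by
    intro k hk
    haveI : Fact (Nat.Prime 5) := ⟨by norm_num⟩
    exact pow_of_element hσ (g := (⟨aP, aP_M22⟩ : ↥M22)) (Subtype.ext a_pow)
      (fun h => a_ne (congrArg Subtype.val h)) (by rw [hcard]) hk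
  have h11 : ∀ k ∈ σ.ker, k ^ 40320 = 1 := by
    intro k hk
    haveI : Fact (Nat.Prime 11) := ⟨by norm_num⟩
    exact pow_of_element hσ (g := (⟨bP, bP_M22⟩ : ↥M22)) (Subtype.ext b_pow)
      (fun h => b_ne (congrArg Subtype.val h)) (by rw [hcard]) hk
  have h7 : ∀ k ∈ σ.ker, k ^ 63360 = 1 := by
    intro k hk
    haveI : Fact (Nat.Prime 7) := ⟨by norm_num⟩
    exact pow_of_element hσ (g := (⟨c7P, c7P_M22⟩ : ↥M22)) (Subtype.ext c7_pow)
      (fun h => c7_ne (congrArg Subtype.val h)) (by rw [hcard]) hk
  have hexp : ∀ k ∈ σ.ker, k ^ 1152 = 1 := by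
    intro k hk
    have h1 := pow_gcd_eq_one.mpr ⟨h5 k hk, h11 k hk⟩
    have h2 := pow_gcd_eq_one.mpr ⟨h1, h7 k hk⟩
    have : Nat.gcd (Nat.gcd 88704 40320) 63360 = 1152 := by norm_num
    rwa [this] at h2
  -- the retraction
  have hidx : (σ.ker.subgroupOf (HH.comap σ)).index = 55 := by
    rw [Cfsg.Agent.Lib.SchurGolayTab46.index_ker_comap hσ.1 HH, card_HH]
  obtain ⟨ρ, hρ⟩ := Cfsg.Agent.Lib.SchurGolayTab46.exists_retraction_coprime (t := 37) (u := 775) hσ.2.1 hidx hexp (by norm_num)
  have hHt : ∀ y, y ∈ HH.comap σ ↔ σ y • ((1 : ↥M22) : ↥M22 ⧸ HH) = ((1 : ↥M22) : ↥M22 ⧸ HH) := by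
    intro y
    rw [smul_base_iff]
    exact Iff.rfl
  -- the lifts
  have hs0 : (sG 0) ^ 5 = 1 := by
    rw [sG_0]
    exact Subtype.ext a_pow
  have hs1 : (sG 1) ^ 11 = 1 := by
    rw [sG_1]
    exact Subtype.ext b_pow
  obtain ⟨x0, hx0, hx05⟩ := exists_lift_pow hσ (n := 5) (u := 691) hs0 hexp (by norm_num)
  obtain ⟨x1, hx1, hx17⟩ := exists_lift_pow hσ (n := 11) (u := 733) hs1 hexp (by norm_num)
  let x : ℕ → Γ := fun i => if i = 0 then x0 else if i = 1 then x1 else 1
  have hx : ∀ i, σ (x i) = sG i := by
    intro i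
    by_cases h0 : i = 0
    · subst h0
      simpa [x] using hx0
    · by_cases h1 : i = 1
      · subst h1
        simpa [x] using hx1
      · simp [x, sG, h0, h1]
  have hnorm : ∀ j, j < cert2.R → cert2.normal j = true → evW x (cert2.rels j) = 1 := by
    intro j _ hj
    have hj' : j < 2 := by simpa [cert2, cert] using hj
    interval_cases j
    · have e : cert2.rels 0 = [1, 1, 1, 1, 1] := by decide +kernel
      have l1 : lett x 1 = (x 0)⁻¹ := lett_odd x 0
      rw [e]
      simp only [evW, l1, mul_one]
      have h : (x 0)⁻¹ ^ 5 = 1 := by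
        have : x 0 = x0 := by simp [x]
        rw [inv_pow, this, hx05, inv_one]
      simpa [pow_succ, mul_assoc] using h
    · have e : cert2.rels 1 = [3, 3, 3, 3, 3, 3, 3, 3, 3, 3, 3] := by decide +kernel
      have l1 : lett x 3 = (x 1)⁻¹ := lett_odd x 1
      rw [e]
      simp only [evW, l1, mul_one]
      have h : (x 1)⁻¹ ^ 11 = 1 := by
        have : x 1 = x1 := by simp [x]
        rw [inv_pow, this, hx17, inv_one]
      simpa [pow_succ, mul_assoc] using h
  -- the quotient
  letI : CommGroup σ.ker := { (inferInstance : Group σ.ker) with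
    mul_comm := fun a b => Subtype.ext (Subgroup.mem_center_iff.mp (hσ.2.1 b.2) a.1) }
  let L : Subgroup σ.ker := (powMonoidHom 72 : σ.ker →* σ.ker).range
  let ψ : σ.ker →* σ.ker ⧸ L := QuotientGroup.mk' L
  have hE : ∀ b : σ.ker ⧸ L, b ^ cert2.E = 1 := by
    intro b
    induction b using QuotientGroup.induction_on with
    | H k =>
      rw [← QuotientGroup.mk_pow, QuotientGroup.eq_one_iff]
      exact ⟨k, rfl⟩
  obtain ⟨u, hu, hall⟩ := ker_cyclic_of_cert hσ hHt ρ hρ ψ cert2 cert_ok hE (mask := mask1) mask1_zero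
    (by
      intro c hc h
      exact tab1.1 c hc h)
    (s := sG)
    (by
      intro c hc i hi
      exact tab1.2 c hc i hi)
    hgen hx
    (fun j hj => (rels_ok j hj).1)
    (fun j hj => (rels_ok j hj).2)
    hnorm
  have hu12 : u ^ 12 = 1 := hu
  -- the exponent is twelve
  have hdesc : ∀ k : σ.ker, ∃ l : σ.ker, k ^ 12 = l ^ (12 * 6) := by
    intro k
    have h1 : ψ (k ^ 12) = 1 := by
      obtain ⟨i, hi⟩ := Subgroup.mem_zpowers_iff.mp (hall k)
      rw [map_pow, ← hi, ← zpow_natCast, ← zpow_mul, mul_comm, zpow_mul, zpow_natCast, hu12, one_zpow]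
    obtain ⟨l, hl⟩ := (QuotientGroup.eq_one_iff _).mp h1
    exact ⟨l, hl.symm⟩
  have hexp' : ∀ k : σ.ker, k ^ (12 * 6 ^ 7) = 1 := by
    intro k
    apply Subtype.ext
    show (k : Γ) ^ (12 * 6 ^ 7) = 1
    rw [show 12 * 6 ^ 7 = 1152 * 2916 by norm_num, pow_mul, hexp _ k.2, one_pow]
  have h12 : ∀ k : σ.ker, k ^ 12 = 1 := pow_eq_one_of_descent hdesc hexp'
  obtain ⟨w, rfl⟩ := QuotientGroup.mk'_surjective L u
  refine ⟨w, h12 w, ?_⟩
  intro k
  obtain ⟨i, hi⟩ := Subgroup.mem_zpowers_iff.mp (hall k)
  have h1 : ψ (k * (w ^ i)⁻¹) = 1 := by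
    rw [map_mul, map_inv, map_zpow]
    show ψ k * (ψ w ^ i)⁻¹ = 1
    have : ψ w ^ i = ψ k := hi
    rw [this, mul_inv_cancel]
  obtain ⟨l, hl⟩ := (QuotientGroup.eq_one_iff _).mp h1
  have h2 : k * (w ^ i)⁻¹ = 1 := by
    rw [← hl]
    show l ^ 72 = 1
    rw [show 72 = 12 * 6 by norm_num, pow_mul, h12, one_pow]
  have h3 : k = w ^ i := mul_inv_eq_one.mp h2
  rw [h3]
  exact Subgroup.zpow_mem_zpowers w i

/-! ### The covering group -/

/-- The labels. -/
def fZ (v : ℕ) : ZMod 12 := ((fN v : ℕ) : ZMod 12)

/-- The set permuted by the covering group. -/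
abbrev YY := Fin nV × ZMod 12

/-- The monomial permutations. -/
noncomputable def XX (i : ℕ) : Equiv.Perm YY := monoX hT0 fZ i

theorem word_shift {w : List ℕ} {k : ℕ} (hw : ∀ l ∈ w, l < 2 * 2) (h : wordOK w k = true) :
    evW XX w = shiftP (k : ZMod 12) := by
  apply mono_closed hT0 fZ w hw
  intro c hc
  simp only [wordOK, List.all_eq_true, List.mem_range, Bool.and_eq_true] at h
  obtain ⟨h1, h2⟩ := h c hc
  have hf : ∀ v, fN v ≤ 12 := fun v => (Nat.mod_lt _ (by norm_num)).le
  obtain ⟨h3, h4⟩ := walkS_spec (m := 2) (E := 12) T fN w c 0 hf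
  refine ⟨h3.symm.trans (Nat.eq_of_beq_eq_true h1), ?_⟩
  have h5 : sumZ (fun v => ((fN v : ℕ) : ZMod 12)) (pathT 2 T c w) = ((walkS 2 12 T fN c 0 w).2 : ZMod 12) := by
    rw [h4]
    simp
  show sumZ (fun v => ((fN v : ℕ) : ZMod 12)) (pathT 2 T c w) = _
  rw [h5, ← Nat.eq_of_beq_eq_true h2]
  show _ = (((walkS 2 12 T fN c 0 w).2 % 12 : ℕ) : ZMod 12)
  rw [ZMod.natCast_mod]

/-- The generators of the covering group. -/
noncomputable def gg (i : ℕ) : ↥M22 × Equiv.Perm YY := (sG i, XX i)

/-- The covering group. -/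
noncomputable abbrev Γ0 : Subgroup (↥M22 × Equiv.Perm YY) := Subgroup.closure (gg '' Set.Iio 2)

theorem gg_mem (i : ℕ) : gg i ∈ Γ0 := by
  by_cases hi : i < 2
  · exact Subgroup.subset_closure ⟨i, hi, rfl⟩
  · have h1 : gg i = 1 := by
      apply Prod.ext
      · show sG i = 1
        rw [sG, if_neg (by omega), if_neg (by omega)]
      · show monoX hT0 fZ i = 1
        rw [monoX, dif_neg hi]
    rw [h1]
    exact Subgroup.one_mem _

/-- The generators as elements of the covering group. -/
noncomputable def xx (i : ℕ) : ↥Γ0 := ⟨gg i, gg_mem i⟩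

theorem hgen_x : Subgroup.closure (xx '' Set.Iio 2) = ⊤ := by
  have h := Subgroup.closure_closure_coe_preimage (k := gg '' Set.Iio 2)
  rw [← h]
  congr 1
  ext y
  constructor
  · rintro ⟨i, hi, rfl⟩
    exact ⟨i, hi, rfl⟩
  · rintro ⟨i, hi, h1⟩
    exact ⟨i, hi, Subtype.ext h1⟩

/-- The projection. -/
noncomputable def σ0 : ↥Γ0 →* ↥M22 := (MonoidHom.fst _ _).comp Γ0.subtype

theorem σ0_xx (i : ℕ) : σ0 (xx i) = sG i := rfl

theorem σ0_surj : Function.Surjective σ0 := by
  have h : σ0.range = ⊤ := by
    rw [eq_top_iff, ← hgen, Subgroup.closure_le]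
    rintro _ ⟨i, _, rfl⟩
    exact ⟨xx i, rfl⟩
  exact MonoidHom.range_eq_top.mp h

theorem coe_evW (w : List ℕ) : ((evW xx w : ↥Γ0) : ↥M22 × Equiv.Perm YY) = evW gg w :=
  map_evW Γ0.subtype xx w

theorem fst_evW (w : List ℕ) : (evW gg w).1 = evW sG w := map_evW (MonoidHom.fst _ _) gg w

theorem snd_evW (w : List ℕ) : (evW gg w).2 = evW XX w := map_evW (MonoidHom.snd _ _) gg w

theorem comm_shift (k : ZMod 12) {z : ↥M22 × Equiv.Perm YY} (hz : z ∈ Γ0) : Commute (shiftP k) z.2 := by
  induction hz using Subgroup.closure_induction with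
  | mem z hz =>
    obtain ⟨i, _, rfl⟩ := hz
    exact shiftP_comm_mono hT0 fZ k i
  | one => exact Commute.one_right _
  | mul a b _ _ ha hb => exact ha.mul_right hb
  | inv a _ ha => exact ha.inv_right

/-- The central subgroup of the covering group. -/
noncomputable def Z0 : Subgroup ↥Γ0 where
  carrier := {y | (y : ↥M22 × Equiv.Perm YY).1 = 1 ∧ ∃ k : ZMod 12, (y : ↥M22 × Equiv.Perm YY).2 = shiftP k}
  mul_mem' := by
    rintro a b ⟨h1, k1, h2⟩ ⟨h3, k2, h4⟩
    refine ⟨?_, k1 + k2, ?_⟩
    · show (a : ↥M22 × Equiv.Perm YY).1 * (b : ↥M22 × Equiv.Perm YY).1 = 1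
      rw [h1, h3, one_mul]
    · show (a : ↥M22 × Equiv.Perm YY).2 * (b : ↥M22 × Equiv.Perm YY).2 = _
      rw [h2, h4, shiftP_add]
  one_mem' := ⟨rfl, 0, shiftP_zero.symm⟩
  inv_mem' := by
    rintro a ⟨h1, k, h2⟩
    refine ⟨?_, -k, ?_⟩
    · show ((a : ↥M22 × Equiv.Perm YY).1)⁻¹ = 1
      rw [h1, inv_one]
    · show ((a : ↥M22 × Equiv.Perm YY).2)⁻¹ = _
      rw [h2, inv_eq_iff_mul_eq_one, shiftP_add, add_neg_cancel, shiftP_zero]

theorem Z0_central {y : ↥Γ0} (hy : y ∈ Z0) : y ∈ Subgroup.center ↥Γ0 := by
  rw [Subgroup.mem_center_iff]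
  intro w
  obtain ⟨h1, k, h2⟩ := hy
  apply Subtype.ext
  apply Prod.ext
  · show (w : ↥M22 × Equiv.Perm YY).1 * (y : ↥M22 × Equiv.Perm YY).1 = (y : ↥M22 × Equiv.Perm YY).1 * (w : ↥M22 × Equiv.Perm YY).1
    rw [h1, mul_one, one_mul]
  · show (w : ↥M22 × Equiv.Perm YY).2 * (y : ↥M22 × Equiv.Perm YY).2 = (y : ↥M22 × Equiv.Perm YY).2 * (w : ↥M22 × Equiv.Perm YY).2
    rw [h2]
    exact (comm_shift k w.2).symm

theorem Z0_ker {y : ↥Γ0} (hy : y ∈ Z0) : σ0 y = 1 := hy.1

theorem word_Z0 {w : List ℕ} {k : ℕ} (hw : ∀ l ∈ w, l < 2 * 2) (h : wordOK w k = true)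
    (h1 : eqC (wordC cL w) idC = true) : evW xx w ∈ Z0 := by
  constructor
  · rw [coe_evW, fst_evW]
    apply Subtype.ext
    have h3 := rep_evW hL w hw
    have h4 : evW (fun i => (sG i : Equiv.Perm GolayPt)) w = 1 := eq_of_eqC h3 rep_one h1
    exact (map_evW M22.subtype sG w).trans h4
  · refine ⟨(k : ZMod 12), ?_⟩
    rw [coe_evW, snd_evW]
    exact word_shift hw h

theorem rels_Z0 (j : ℕ) (hj : j < nR) : evW xx (relsL.getD j []) ∈ Z0 := by
  have h := relsL_ok
  simp only [List.all_eq_true, List.mem_range, Bool.and_eq_true, Nat.blt_eq] at h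
  obtain ⟨h1, h2⟩ := h j hj
  exact word_Z0 h1 (words_ok j hj) h2

/-- The words of the subgroup, in the covering group. -/
noncomputable def hh (i : ℕ) : ↥Γ0 := evW xx (wsL.getD i [])

/-- The subgroup they generate. -/
noncomputable abbrev L0 : Subgroup ↥Γ0 := Subgroup.closure (hh '' Set.Iio 2)

theorem hh_mem (i : ℕ) : hh i ∈ L0 := by
  by_cases hi : i < 2
  · exact Subgroup.subset_closure ⟨i, hi, rfl⟩
  · have h1 : wsL.getD i [] = [] := by
      rw [List.getD_eq_default]
      have : wsL.length = 2 := by decide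
      omega
    rw [hh, h1]
    exact Subgroup.one_mem _

theorem σ0_evW (w : List ℕ) : σ0 (evW xx w) = evW sG w := map_evW σ0 xx w

theorem rep_W2L : eqC (wordC cL (wsL.getD 1 [])) w2c = true := by decide +kernel

theorem wsL1_lt : ∀ l ∈ wsL.getD 1 [], l < 2 * 2 := by decide +kernel

theorem σ0_hh (i : ℕ) : σ0 (hh i) = sH i := by
  rw [hh, σ0_evW]
  by_cases h0 : i = 0
  · subst h0
    have e : wsL.getD 0 [] = [2] := by decide +kernel
    have h1 : lett sG 2 = sG 1 := lett_even sG 1
    rw [e, sH_0, evW, h1, sG_1, evW, mul_one]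
  · by_cases h1 : i = 1
    · subst h1
      rw [sH_1]
      apply Subtype.ext
      have h3 := rep_evW hL (wsL.getD 1 []) wsL1_lt
      have h4 : evW (fun i => (sG i : Equiv.Perm GolayPt)) (wsL.getD 1 []) = w2P := eq_of_eqC h3 rep_w2 rep_W2L
      exact (map_evW M22.subtype sG _).trans h4
    · have h2 : wsL.getD i [] = [] := by
        rw [List.getD_eq_default]
        have : wsL.length = 2 := by decide +kernel
        omega
      rw [h2, evW, sH, if_neg h0, if_neg h1]

theorem sH_mem (i : ℕ) : sH i ∈ HH := by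
  by_cases hi : i < 2
  · exact Subgroup.subset_closure ⟨i, hi, rfl⟩
  · have : sH i = 1 := by rw [sH, if_neg (by omega), if_neg (by omega)]
    rw [this]
    exact Subgroup.one_mem _

theorem Z0_conj {y : ↥Γ0} (hy : y ∈ Z0) (g : ↥Γ0) : g * y * g⁻¹ = y := by
  rw [Subgroup.mem_center_iff.mp (Z0_central hy) g, mul_assoc, mul_inv_cancel, mul_one]

theorem lev1 : σ0.ker ≤ Z0 ⊔ L0 := by
  refine Ded.ker_le ded1 ded1_ok (σ := σ0) (x := xx) hgen_x (x0 := ((1 : ↥M22) : ↥M22 ⧸ HH)) (mask := mask1)
    mask1_zero (fun c hc h => tab1.1 c hc h) (fun c hc i hi => tab1.2 c hc i hi) (Z0 ⊔ L0) ?_ ?_ ?_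
  · intro j hj g
    have hj' : j < nR := hj
    have e : ded1.rels j = relsL.getD j [] := by
      show relsD j = _
      rw [relsD, if_pos (Nat.blt_eq.mpr hj')]
    rw [e]
    have h1 := rels_Z0 j hj'
    rw [Z0_conj h1 g]
    exact Subgroup.mem_sup_left h1
  · intro j hj _
    have hj' : nR ≤ j := hj
    have e : ded1.rels j = wsL.getD (j - nR) [] := by
      show relsD j = _
      rw [relsD, if_neg]
      rw [Nat.blt_eq]
      omega
    rw [e]
    exact Subgroup.mem_sup_right (hh_mem _)
  · intro y hy
    rw [smul_base_iff]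
    have h : Z0 ⊔ L0 ≤ HH.comap σ0 := by
      refine sup_le (fun z hz => ?_) ?_
      · show σ0 z ∈ HH
        rw [Z0_ker hz]
        exact Subgroup.one_mem _
      · rw [Subgroup.closure_le]
        rintro _ ⟨i, _, rfl⟩
        show σ0 (hh i) ∈ HH
        rw [σ0_hh]
        exact sH_mem i
    exact h hy

/-! ### The second level -/

/-- The inverse of a word. -/
def invW : List ℕ → List ℕ
  | [] => []
  | l :: w => invW w ++ [flipL l]

theorem evW_append {W : Type*} [Group W] (x : ℕ → W) (a b : List ℕ) : evW x (a ++ b) = evW x a * evW x b := by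
  induction a with
  | nil => simp [evW]
  | cons l a ih => simp [evW, ih, mul_assoc]

theorem evW_invW {W : Type*} [Group W] (x : ℕ → W) (w : List ℕ) : evW x (invW w) = (evW x w)⁻¹ := by
  induction w with
  | nil => simp [evW, invW]
  | cons l w ih => simp [evW, invW, evW_append, ih, lett_flip]

/-- Substitution of words. -/
def expW (V : ℕ → List ℕ) : List ℕ → List ℕ
  | [] => []
  | l :: r => (if l % 2 = 0 then V (l / 2) else invW (V (l / 2))) ++ expW V r

theorem evW_expW {W : Type*} [Group W] (x : ℕ → W) (V : ℕ → List ℕ) (r : List ℕ) :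
    evW x (expW V r) = evW (fun i => evW x (V i)) r := by
  induction r with
  | nil => rfl
  | cons l r ih =>
    rw [expW, evW_append, ih, evW, lett]
    split_ifs with h
    · rfl
    · rw [evW_invW]

theorem exp_eq : ∀ j, j < 3 → expL.getD j [] = expW (fun i => wsL.getD i []) (rels2L.getD j []) := by
  decide +kernel

theorem exp_lt : ∀ j, j < 3 → ∀ l ∈ expL.getD j [], l < 2 * 2 := by
  decide +kernel

theorem exp_rep : ∀ j, j < 3 → eqC (wordC cL (expL.getD j [])) idC = true := by
  decide +kernel

/-- The projection on the second level. -/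
noncomputable def σ2 : ↥L0 →* ↥M22 := σ0.comp L0.subtype

/-- The generators on the second level. -/
noncomputable def x2 (i : ℕ) : ↥L0 := ⟨hh i, hh_mem i⟩

theorem hgen2 : Subgroup.closure (x2 '' Set.Iio 2) = ⊤ := by
  have h := Subgroup.closure_closure_coe_preimage (k := hh '' Set.Iio 2)
  rw [← h]
  congr 1
  ext y
  constructor
  · rintro ⟨i, hi, rfl⟩
    exact ⟨i, hi, rfl⟩
  · rintro ⟨i, hi, h1⟩
    exact ⟨i, hi, Subtype.ext h1⟩

/-- The central part on the second level. -/
noncomputable abbrev Z2 : Subgroup ↥L0 := Z0.comap L0.subtype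

theorem hT2 : Tab 55 2 ded2.T ded2.par := by
  have h := ded2_ok
  simp only [Ded.check, Ded.tabOK, Bool.and_eq_true] at h
  exact ded2.base.tab_of_chk h.1.2

theorem gt2_v : ∀ c, c < gt2.n → gt2.vChk c = true := by
  have h := gt2_vs
  rw [List.all_eq_true] at h
  exact fun c hc => h c (List.mem_range.mpr hc)

/-- The trivial subgroup. -/
noncomputable abbrev B0 : Subgroup ↥M22 := ⊥

theorem tab2 : (∀ c, c < gt2.n → (((gt2.gM sH c : ↥M22) : ↥M22 ⧸ B0) = ((1 : ↥M22) : ↥M22 ⧸ B0)) → c = 0) ∧
    (∀ c, c < gt2.n → ∀ i, i < 2 →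
      sH i • ((gt2.gM sH (gt2.T c (2 * i)) : ↥M22) : ↥M22 ⧸ B0) = ((gt2.gM sH c : ↥M22) : ↥M22 ⧸ B0)) := by
  refine gt2.table hT2 hLh gt2_v gt2_h hbase ?_ ?_
  · intro y hy
    rw [Subgroup.mem_bot] at hy
    subst hy
    exact ⟨0, by decide, rep_one⟩
  · intro k _
    exact ⟨1, Subgroup.one_mem _, rep_one⟩

/-- The coset of a representative on the second level. -/
noncomputable def mask2 (c : ℕ) : ↥M22 ⧸ B0 := ((gt2.gM sH c : ↥M22) : ↥M22 ⧸ B0)

theorem mask2_zero : mask2 0 = ((1 : ↥M22) : ↥M22 ⧸ B0) := by
  rw [mask2, GTab.gM, tOf_zero, inv_one]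

theorem rels2_mem (j : ℕ) (hj : j < 3) : evW x2 (rels2L.getD j []) ∈ Z2 := by
  show L0.subtype (evW x2 (rels2L.getD j [])) ∈ Z0
  rw [map_evW]
  have e : (fun i => L0.subtype (x2 i)) = fun i => evW xx (wsL.getD i []) := rfl
  rw [e, ← evW_expW, ← exp_eq j hj]
  exact word_Z0 (exp_lt j hj) (exps_ok j hj) (exp_rep j hj)

theorem lev2 : σ2.ker ≤ Z2 := by
  refine Ded.ker_le ded2 ded2_ok (σ := σ2) (x := x2) hgen2 (x0 := ((1 : ↥M22) : ↥M22 ⧸ B0)) (mask := mask2)
    mask2_zero (fun c hc h => tab2.1 c hc h) (fun c hc i hi => ?_) Z2 ?_ ?_ ?_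
  · have e : σ2 (x2 i) = sH i := σ0_hh i
    rw [e]
    exact tab2.2 c hc i hi
  · intro j hj g
    have hj' : j < 3 := hj
    have h1 : evW x2 (ded2.rels j) ∈ Z2 := rels2_mem j hj'
    have h2 : L0.subtype (evW x2 (ded2.rels j)) ∈ Z0 := h1
    show L0.subtype (g * evW x2 (ded2.rels j) * g⁻¹) ∈ Z0
    rw [map_mul, map_mul, map_inv, Z0_conj h2]
    exact h2
  · intro j hj hj2
    have h1 : 3 ≤ j := hj
    have h2 : j < 3 + 0 := hj2
    omega
  · intro y hy
    have h : σ2 y = 1 := Z0_ker hy
    rw [h, one_smul]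

theorem ker_le_Z0 : σ0.ker ≤ Z0 := by
  intro y hy
  have h1 := lev1 hy
  haveI : Z0.Normal := ⟨fun n hn g => by rw [Z0_conj hn g]; exact hn⟩
  have h2 : y ∈ ((Z0 ⊔ L0 : Subgroup ↥Γ0) : Set ↥Γ0) := h1
  rw [Subgroup.normal_mul] at h2
  obtain ⟨z, hz, l, hl, rfl⟩ := Set.mem_mul.mp h2
  have h3 : σ0 l = 1 := by
    have h4 := MonoidHom.mem_ker.mp hy
    rwa [map_mul, Z0_ker hz, one_mul] at h4
  have h4 : (⟨l, hl⟩ : ↥L0) ∈ σ2.ker := MonoidHom.mem_ker.mpr h3
  have h5 : l ∈ Z0 := lev2 h4
  exact Z0.mul_mem hz h5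

/-! ### The stem extension -/

theorem shift_pow (k : ZMod 12) (n : ℕ) : (shiftP k : Equiv.Perm YY) ^ n = shiftP ((n : ZMod 12) * k) := by
  induction n with
  | zero => simp [shiftP_zero]
  | succ n ih =>
    rw [pow_succ, ih, shiftP_add]
    congr 1
    push_cast
    ring

theorem Z0_pow {y : ↥Γ0} (hy : y ∈ Z0) : y ^ 12 = 1 := by
  obtain ⟨h1, k, h2⟩ := hy
  apply Subtype.ext
  apply Prod.ext
  · show (y : ↥M22 × Equiv.Perm YY).1 ^ 12 = 1
    rw [h1, one_pow]
  · show (y : ↥M22 × Equiv.Perm YY).2 ^ 12 = 1
    rw [h2, shift_pow]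
    have e : ((12 : ℕ) : ZMod 12) = 0 := ZMod.natCast_self 12
    rw [e, zero_mul, shiftP_zero]

theorem gg_rel (j : ℕ) (hj : j < nR) (h0 : kL.getD j 0 = 0) : evW gg (relsL.getD j []) = 1 := by
  apply Prod.ext
  · rw [fst_evW]
    exact (rels_ok j hj).2
  · rw [snd_evW, word_shift (rels_ok j hj).1 (words_ok j hj), h0, Nat.cast_zero, shiftP_zero]
    rfl

theorem gg0 : gg 0 ^ 5 = 1 := by
  have h := gg_rel 0 (by decide +kernel) (by decide +kernel)
  have e : relsL.getD 0 [] = [1, 1, 1, 1, 1] := by decide +kernel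
  have l1 : lett gg 1 = (gg 0)⁻¹ := lett_odd gg 0
  rw [e] at h
  simp only [evW, l1, mul_one] at h
  have h2 : (gg 0)⁻¹ ^ 5 = 1 := by simpa [pow_succ, mul_assoc] using h
  rwa [inv_pow, inv_eq_one] at h2

theorem gg1 : gg 1 ^ 11 = 1 := by
  have h := gg_rel 1 (by decide +kernel) (by decide +kernel)
  have e : relsL.getD 1 [] = [3, 3, 3, 3, 3, 3, 3, 3, 3, 3, 3] := by decide +kernel
  have l1 : lett gg 3 = (gg 1)⁻¹ := lett_odd gg 1
  rw [e] at h
  simp only [evW, l1, mul_one] at h
  have h2 : (gg 1)⁻¹ ^ 11 = 1 := by simpa [pow_succ, mul_assoc] using h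
  rwa [inv_pow, inv_eq_one] at h2

theorem stem : IsStemExtension σ0 := by
  refine ⟨σ0_surj, fun y hy => Z0_central (ker_le_Z0 hy), fun y hy => ?_⟩
  refine mem_commutator_of_gens (gg '' Set.Iio 2) (n := 55) (t := 12) ?_ (by norm_num) y (Z0_pow (ker_le_Z0 hy))
  rintro _ ⟨i, hi, rfl⟩
  have hi' : i < 2 := hi
  interval_cases i
  · rw [show 55 = 5 * 11 by norm_num, pow_mul, gg0, one_pow]
  · rw [show 55 = 11 * 5 by norm_num, pow_mul, gg1, one_pow]

/-! ### The isomorphism -/

theorem u_eq : evW gg (relsL.getD 11 []) = ((1 : ↥M22), (shiftP (1 : ZMod 12) : Equiv.Perm YY)) := by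
  have hj : 11 < nR := by decide +kernel
  apply Prod.ext
  · rw [fst_evW]
    exact (rels_ok 11 hj).2
  · rw [snd_evW, word_shift (rels_ok 11 hj).1 word_11, Nat.cast_one]

theorem shift_mem (k : ZMod 12) : ((1 : ↥M22), (shiftP k : Equiv.Perm YY)) ∈ Γ0 := by
  have h1 : ((1 : ↥M22), (shiftP (1 : ZMod 12) : Equiv.Perm YY)) ∈ Γ0 := by
    rw [← u_eq, ← coe_evW]
    exact (evW xx _).2
  have h2 := Γ0.pow_mem h1 k.val
  have h3 : ((1 : ↥M22), (shiftP (1 : ZMod 12) : Equiv.Perm YY)) ^ k.val = ((1 : ↥M22), (shiftP k : Equiv.Perm YY)) := by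
    apply Prod.ext
    · show (1 : ↥M22) ^ k.val = 1
      rw [one_pow]
    · show (shiftP (1 : ZMod 12) : Equiv.Perm YY) ^ k.val = shiftP k
      rw [shift_pow, mul_one, ZMod.natCast_zmod_val]
  rwa [h3] at h2

/-- The homomorphism from the cyclic group onto the kernel. -/
noncomputable def ψ0 : Multiplicative (ZMod 12) →* σ0.ker where
  toFun k := ⟨⟨((1 : ↥M22), (shiftP (Multiplicative.toAdd k) : Equiv.Perm YY)), shift_mem _⟩, MonoidHom.mem_ker.mpr rfl⟩
  map_one' := by
    apply Subtype.ext
    apply Subtype.ext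
    apply Prod.ext
    · rfl
    · exact shiftP_zero
  map_mul' a b := by
    apply Subtype.ext
    apply Subtype.ext
    apply Prod.ext
    · exact (one_mul _).symm
    · exact (shiftP_add _ _).symm

theorem ψ0_bij : Function.Bijective ψ0 := by
  constructor
  · intro a b h
    have h1 := congrArg (fun y : σ0.ker => ((y : ↥Γ0) : ↥M22 × Equiv.Perm YY).2 ((⟨0, hT0.n_pos⟩ : Fin nV), (0 : ZMod 12))) h
    have h2 : (0 : ZMod 12) + Multiplicative.toAdd a = 0 + Multiplicative.toAdd b := congrArg Prod.snd h1
    simpa using h2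
  · intro y
    obtain ⟨h1, k, h2⟩ := ker_le_Z0 y.2
    refine ⟨Multiplicative.ofAdd k, ?_⟩
    apply Subtype.ext
    apply Subtype.ext
    apply Prod.ext
    · exact h1.symm
    · exact h2.symm

/-- The Schur multiplier of the Mathieu group M₂₂ (the permutations in the automorphism group of the length-24 binary code that fix each of two given points) is cyclic of order 12; here the Schur multiplier is described through stem extensions, as in the definitions: surjective homomorphisms onto the group from a finite group, whose kernel is central in that finite group and contained in that finite group's commutator subgroup. -/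
theorem result : Cfsg.HasCyclicSchurMultiplier ↥Cfsg.Spor.M22 12 :=
  hasCyclicSchurMultiplier_of
    ⟨↥Γ0, inferInstance, inferInstance, σ0, stem, ⟨(MulEquiv.ofBijective ψ0 ψ0_bij).symm⟩⟩ up

end Cfsg.Agent.S2036
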