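import Mathlib
import Cfsg.Statements.S2039
import Cfsg.Agent.Lib.J1Local
import Cfsg.Agent.Lib.SchurStem

set_option autoImplicit false

namespace Cfsg.Agent.S2039

open Cfsg Cfsg.Spor Cfsg.Agent.Lib.J1Local Cfsg.Agent.Lib.J1CCore Cfsg.Agent.Lib.SchurStem
open scoped commutatorElement

/-- The stem kernel is trivial. -/
theorem ker_eq_bot (Γ : Type) [Group Γ] [Finite Γ] (σ : Γ →* ↥J1) (hσ : IsStemExtension σ) : σ.ker = ⊥ := by
  have hs := hσ.1
  have hc := hσ.2.1
  have hcard : Nat.card ↥J1 = 175560 := card_J1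
  -- odd primes
  have hodd : ∀ p : ℕ, p.Prime → p ∣ 175560 → ∀ k ∈ σ.ker, k ^ (175560 / p) = 1 := by
    intro p hp hd k hk
    haveI : Fact p.Prime := ⟨hp⟩
    haveI : Fintype ↥J1 := Fintype.ofFinite _
    obtain ⟨a, ha⟩ := exists_prime_orderOf_dvd_card' p (by rw [hcard]; exact hd)
    have h1 := pow_index_eq_one hσ (Subgroup.zpowers a) (comap_comm_of_zpowers σ hs hc a) hk
    have h2 : (Subgroup.zpowers a).index = 175560 / p := by
      have h3 := Subgroup.card_mul_index (Subgroup.zpowers a)
      rw [Nat.card_zpowers, ha, hcard] at h3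
      rw [← h3, Nat.mul_div_cancel_left _ hp.pos]
    rwa [h2] at h1
  -- the prime two
  have h2 : ∀ k ∈ σ.ker, k ^ 21945 = 1 := by
    intro k hk
    obtain ⟨a, ha⟩ := hs (aJ 0)
    obtain ⟨b, hb⟩ := hs (aJ 1)
    obtain ⟨c, hc'⟩ := hs (aJ 2)
    obtain ⟨x, hx⟩ := hs XJ
    have mem : ∀ z : Γ, σ z = 1 → z ∈ Subgroup.center Γ := fun z hz => hc hz
    have comm : ∀ u v : Γ, σ u * σ v = σ v * σ u → ⁅u, v⁆ ∈ Subgroup.center Γ := by
      intro u v huv
      apply mem
      simp [commutatorElement_def, map_mul, map_inv, huv]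
    have a01 := E0_comm (aJ_mem_E0 (i := 0) (by norm_num)) (aJ_mem_E0 (i := 1) (by norm_num))
    have a02 := E0_comm (aJ_mem_E0 (i := 0) (by norm_num)) (aJ_mem_E0 (i := 2) (by norm_num))
    have a12 := E0_comm (aJ_mem_E0 (i := 1) (by norm_num)) (aJ_mem_E0 (i := 2) (by norm_num))
    have hk₁ : b⁻¹ * (x * a * x⁻¹) ∈ Subgroup.center Γ := by
      apply mem
      simp only [map_mul, map_inv, ha, hb, hx, aJ_succ]
      simp
    have hk₂ : c⁻¹ * (x * b * x⁻¹) ∈ Subgroup.center Γ := by
      apply mem
      simp only [map_mul, map_inv, hb, hc', hx, aJ_succ]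
      simp
    have hk₃ : (a * b)⁻¹ * (x * c * x⁻¹) ∈ Subgroup.center Γ := by
      apply mem
      simp only [map_mul, map_inv, ha, hb, hc', hx, aJ_succ, mul_inv_rev]
      rw [show aJ (2 + 1) = aJ 3 from rfl, ← rel_a3]
      simp
    obtain ⟨r1, r2, r3⟩ := commute_of_F8_relation (a := a) (b := b) (c := c) (x := x)
      (comm _ _ (by rw [ha, hb]; exact a01)) (comm _ _ (by rw [ha, hc']; exact a02))
      (comm _ _ (by rw [hb, hc']; exact a12)) hk₁ hk₂ hk₃ (by group) (by group) (by group)
    have hcomm : ∀ u ∈ ({a, b, c} : Set Γ), ∀ v ∈ ({a, b, c} : Set Γ), u * v = v * u := by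
      have r1' : a * b = b * a := commutatorElement_eq_one_iff_mul_comm.mp r1
      have r2' : a * c = c * a := commutatorElement_eq_one_iff_mul_comm.mp r2
      have r3' : b * c = c * b := commutatorElement_eq_one_iff_mul_comm.mp r3
      rintro u (rfl | rfl | rfl) v (rfl | rfl | rfl)
      · rfl
      · exact r1'
      · exact r2'
      · exact r1'.symm
      · rfl
      · exact r3'
      · exact r2'.symm
      · exact r3'.symm
      · rfl
    have himg : σ '' ({a, b, c} : Set Γ) = {aJ 0, aJ 1, aJ 2} := by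
      simp [Set.image_insert_eq, ha, hb, hc']
    have h3 := pow_index_eq_one hσ E0 (comap_comm_of_lifts σ hc {a, b, c} hcomm E0 (by
      rw [himg]; exact E0_le_closure)) hk
    have h4 : E0.index = 21945 := by
      have h5 := Subgroup.card_mul_index E0
      rw [card_E0, hcard] at h5
      omega
    rwa [h4] at h3
  rw [eq_bot_iff]
  intro k hk
  rw [Subgroup.mem_bot]
  have e3 := hodd 3 (by norm_num) (by norm_num) k hk
  have e5 := hodd 5 (by norm_num) (by norm_num) k hk
  have e7 := hodd 7 (by norm_num) (by norm_num) k hk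
  have e11 := hodd 11 (by norm_num) (by norm_num) k hk
  have e19 := hodd 19 (by norm_num) (by norm_num) k hk
  have e2 := h2 k hk
  have d : orderOf k ∣ 1 := by
    have d3 := orderOf_dvd_of_pow_eq_one e3
    have d5 := orderOf_dvd_of_pow_eq_one e5
    have d7 := orderOf_dvd_of_pow_eq_one e7
    have d11 := orderOf_dvd_of_pow_eq_one e11
    have d19 := orderOf_dvd_of_pow_eq_one e19
    have d2 := orderOf_dvd_of_pow_eq_one e2
    norm_num at d3 d5 d7 d11 d19
    have g1 := Nat.dvd_gcd d3 d5
    have g2 := Nat.dvd_gcd g1 d7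
    have g3 := Nat.dvd_gcd g2 d11
    have g4 := Nat.dvd_gcd g3 d19
    have g5 := Nat.dvd_gcd g4 d2
    norm_num at g5
    simpa using g5
  simpa [orderOf_eq_one_iff] using Nat.dvd_one.mp d

/-- The Schur multiplier of the Janko group J₁ (the group generated by two explicit 7 × 7 matrices over the integers modulo 11) is trivial; here the Schur multiplier is described through stem extensions, as in the definitions: surjective homomorphisms onto the group from a finite group, whose kernel is central in that finite group and contained in that finite group's commutator subgroup. -/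
theorem result : Cfsg.HasCyclicSchurMultiplier ↥Cfsg.Spor.J1 1 := by
  haveI : Finite ↥J1 := Nat.finite_of_card_ne_zero (by rw [card_J1]; norm_num)
  apply hasCyclicSchurMultiplier_one
  intro Γ _ _ σ hσ
  exact ker_eq_bot Γ σ hσ

end Cfsg.Agent.S2039
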