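import Cfsg.Statements.S2040
import Cfsg.Agent.Lib.J2SchurUp12
import Cfsg.Agent.Lib.IcoStem12

set_option autoImplicit false
open Cfsg

namespace Cfsg.Agent.S2040

/-- The Schur multiplier of the Hall–Janko group J₂ (the icosian reflection group modulo its centre) is cyclic of order 2; here the Schur multiplier is described through stem extensions, as in the definitions: surjective homomorphisms onto the group from a finite group, whose kernel is central in that finite group and contained in that finite group's commutator subgroup. -/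
theorem result : Cfsg.HasCyclicSchurMultiplier Cfsg.Spor.J2 2 := by
  refine Cfsg.Agent.Lib.SchurCover46.hasCyclicSchurMultiplier_of (n := 2) ?_ ?_
  · haveI := Cfsg.Agent.Lib.IcoStem12.finite_twoJ2
    exact ⟨_, inferInstance, inferInstance, QuotientGroup.mk' (Subgroup.center Cfsg.Spor.twoJ2),
      Cfsg.Agent.Lib.IcoStem12.isStem, Cfsg.Agent.Lib.IcoStem12.ker_equiv⟩
  · intro Γ _ _ σ hσ
    let e := Cfsg.Agent.Lib.IcoP.j2Equiv
    let σ' : Γ →* Cfsg.Agent.Lib.IcoP.Pg := e.toMonoidHom.comp σ
    have hker : ∀ k, k ∈ σ'.ker ↔ k ∈ σ.ker := by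
      intro k
      rw [MonoidHom.mem_ker, MonoidHom.mem_ker]
      show e (σ k) = 1 ↔ _
      exact map_eq_one_iff e e.injective
    have hσ' : Cfsg.IsStemExtension σ' := by
      refine ⟨e.surjective.comp hσ.1, ?_, ?_⟩
      · intro k hk
        exact hσ.2.1 ((hker k).mp hk)
      · intro k hk
        exact hσ.2.2 ((hker k).mp hk)
    obtain ⟨u, hu, hu2, hall⟩ := Cfsg.Agent.Lib.J2SchurUp12.up hσ'
    refine ⟨⟨u, (hker u).mp hu⟩, Subtype.ext hu2, ?_⟩
    intro k
    obtain ⟨n, hn⟩ := hall k.1 ((hker k.1).mpr k.2)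
    exact ⟨n, Subtype.ext hn⟩

end Cfsg.Agent.S2040
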