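import Mathlib
import Cfsg.Statements.S2044
import Cfsg.Agent.Lib.Co2Rel20A
import Cfsg.Agent.Lib.Co2Rel20B
import Cfsg.Agent.Lib.O8Gen46
import Cfsg.Agent.S2037
import Cfsg.Agent.S2038

set_option autoImplicit false
set_option linter.unusedVariables false
set_option linter.unusedSectionVars false
open Cfsg

namespace Cfsg.Agent.S2044

open Cfsg.Agent.Lib.CoVec Cfsg.Agent.Lib.CoConf Cfsg.Agent.Lib.Co2Rel20 Cfsg.Agent.Lib.SchurRel19 Cfsg.Agent.Lib.Co0Mono
  Cfsg.Agent.Lib.Leech MulAction Cfsg.Spor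
open Cfsg.Agent.Lib.Co3Rel19 (dd dd_val dd_eq smul_dd smul_dd_eq dd_inj)

/-! ### A copy of the Mathieu group fixing the vector -/

theorem exists_c : ∃ c : Equiv.Perm GolayPt, c ∈ M24 ∧ c none = some 0 ∧ c (some 0) = none := by
  obtain ⟨g, h1, h2⟩ := Cfsg.Agent.Lib.M24Facts.exists_two (a := none) (b := some 0) (c := some 0) (d := none) (by simp) (by simp)
  exact ⟨g.1, g.2, h1, h2⟩

/-- The conjugating element -/
noncomputable def c0 : Equiv.Perm GolayPt := exists_c.choose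
theorem c0_mem : c0 ∈ M24 := exists_c.choose_spec.1
theorem c0_none : c0 none = some 0 := exists_c.choose_spec.2.1

theorem c0_inv : c0⁻¹ (some 0) = none := by
  rw [Equiv.Perm.inv_eq_iff_eq]
  exact c0_none.symm

theorem sig_mem (p : ↥Spor.M23) : c0 * (p : Equiv.Perm GolayPt)⁻¹ * c0⁻¹ ∈ M24 :=
  M24.mul_mem (M24.mul_mem c0_mem (M24.inv_mem p.2.1)) (M24.inv_mem c0_mem)

/-- The embedding of the Mathieu group. -/
noncomputable def psi (p : ↥Spor.M23) : Co0 := monoCo0 empty_mem_codeSets (sig_mem p)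

theorem form_w : ∀ i : GolayPt, dec McLWG.w0 i = if i = some 0 then -3 else 1 := by decide +kernel
theorem form_v : ∀ i : GolayPt, dec McLWG.v0 i = if i = none then 4 else if i = some 0 then 4 else 0 := by decide +kernel
theorem form_x : ∀ i : GolayPt, dec xA i = if i = none then 4 else if i = some 0 then -4 else 0 := by decide +kernel
theorem form_w' : ∀ i : GolayPt, dec McLWG.w0 i = if i = none then 1 else if i = some 0 then -3 else 1 := by decide +kernel

theorem sig_fix (p : ↥Spor.M23) : (c0 * (p : Equiv.Perm GolayPt)⁻¹ * c0⁻¹) (some 0) = some 0 := by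
  have h : (p : Equiv.Perm GolayPt) none = none := p.2.2
  have h1 : (p : Equiv.Perm GolayPt)⁻¹ none = none := by
    rw [Equiv.Perm.inv_eq_iff_eq]
    exact h.symm
  simp only [Equiv.Perm.mul_apply, c0_inv, h1, c0_none]

theorem mono_fix_w {σ : Equiv.Perm GolayPt} (h : σ (some 0) = some 0) : mono ∅ σ (dec McLWG.w0) = dec McLWG.w0 := by
  funext i
  simp only [mono_apply, Finset.notMem_empty, if_false]
  rw [form_w, form_w i]
  by_cases e : i = some 0
  · subst e
    rw [h]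
  · have e' : σ i ≠ some 0 := fun e' => e (σ.injective (e'.trans h.symm))
    simp [e, e']

theorem psi_mem (p : ↥Spor.M23) : psi p ∈ KB := by
  apply Subtype.ext
  exact mono_fix_w (sig_fix p)

theorem psi_mul (p q : ↥Spor.M23) : psi (p * q) = psi p * psi q := by
  apply Cfsg.Agent.Lib.Co0Frame.monoCo0_ext
  intro v
  funext i
  show mono ∅ (c0 * ((p * q : ↥Spor.M23) : Equiv.Perm GolayPt)⁻¹ * c0⁻¹) v i =
    mono ∅ (c0 * (p : Equiv.Perm GolayPt)⁻¹ * c0⁻¹) (mono ∅ (c0 * (q : Equiv.Perm GolayPt)⁻¹ * c0⁻¹) v) i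
  simp [mono]

theorem psi_one : psi 1 = 1 := by
  apply Cfsg.Agent.Lib.Co0Frame.monoCo0_ext
  intro v
  funext i
  show mono ∅ (c0 * ((1 : ↥Spor.M23) : Equiv.Perm GolayPt)⁻¹ * c0⁻¹) v i = (v : GolayPt → ℤ) i
  simp [mono]

/-- The embedding of the Mathieu group as a homomorphism. -/
noncomputable def psiH : ↥Spor.M23 →* ↥KB where
  toFun p := ⟨psi p, psi_mem p⟩
  map_one' := Subtype.ext psi_one
  map_mul' p q := Subtype.ext (psi_mul p q)

theorem psiH_inj : Function.Injective psiH := by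
  intro p q h
  have h1 : psi p = psi q := congrArg Subtype.val h
  have h2 := (Cfsg.Agent.Lib.Co0Frame.monoCo0_part_eq h1).2
  apply Subtype.ext
  apply inv_injective
  have h3 := mul_right_cancel h2
  exact mul_left_cancel h3

/-- The copy of the Mathieu group. -/
noncomputable def e23 : ↥Spor.M23 ≃* ↥psiH.range := MonoidHom.ofInjective psiH_inj

theorem phi22_le : Cfsg.Agent.Lib.CoConf.phi22.range ≤ KA ⊓ stb (dd xA) := by
  have hle : ∀ σ (hσ : σ ∈ M24), σ none = none → σ (some 0) = some 0 → monoCo0 empty_mem_codeSets hσ ∈ KA ⊓ stb (dd xA) := by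
    intro σ hσ h1 h2
    refine ⟨⟨?_, ?_⟩, ?_⟩
    · exact Subtype.ext (mono_fix (a := dec McLWG.v0) _ _ _ form_v h1 h2)
    · exact Subtype.ext (mono_fix (a := dec McLWG.w0) _ _ _ form_w' h1 h2)
    · show monoCo0 empty_mem_codeSets hσ • dd xA = dd xA
      rw [dd_eq St_xA]
      exact Subtype.ext (mono_fix (a := dec xA) _ _ _ form_x h1 h2)
  rintro _ ⟨σ, rfl⟩
  refine hle _ _ ?_ ?_
  · have h1 : (σ.1 : ↥M24) • (none : GolayPt) = none := σ.2.1
    have h2 : ((σ.1 : ↥M24)⁻¹) • (none : GolayPt) = none := by rw [inv_smul_eq_iff, h1]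
    exact h2
  · have h1 : (σ.1 : ↥M24) • (some 0 : GolayPt) = some 0 := σ.2.2
    have h2 : ((σ.1 : ↥M24)⁻¹) • (some 0 : GolayPt) = some 0 := by rw [inv_smul_eq_iff, h1]
    exact h2

theorem phi22_eq : Cfsg.Agent.Lib.CoConf.phi22.range = KA ⊓ stb (dd xA) := by
  classical
  have := finite_Co0'
  apply Subgroup.eq_of_le_of_card_ge phi22_le
  have hcard : Nat.card Cfsg.Agent.Lib.CoConf.phi22.range = 443520 := by
    rw [← Nat.card_congr (MonoidHom.ofInjective phi22_inj).toEquiv]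
    exact Cfsg.Agent.Lib.M24Facts.card_stabilizer_two (by simp)
  rw [card_KA_x, hcard]

/-- The subgroup of points over the stabiliser of the base point. -/
theorem S_le_psi {s : Co0} (hs : s ∈ KA ⊓ stb (dd xA)) : ∃ p : ↥Spor.M23, psi p = s := by
  rw [← phi22_eq] at hs
  obtain ⟨σ, rfl⟩ := hs
  have h0 : σ.1.1 ∈ M24 := σ.1.2
  have h1 : (σ.1.1 : Equiv.Perm GolayPt) (some 0) = some 0 := σ.2.2
  have hp : c0⁻¹ * σ.1.1 * c0 ∈ Spor.M23 := by
    refine ⟨M24.mul_mem (M24.mul_mem (M24.inv_mem c0_mem) h0) c0_mem, ?_⟩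
    show (c0⁻¹ * σ.1.1 * c0) none = none
    simp only [Equiv.Perm.mul_apply, c0_none, h1, c0_inv]
  refine ⟨⟨_, hp⟩, ?_⟩
  apply Cfsg.Agent.Lib.Co0Frame.monoCo0_ext
  intro v
  show mono ∅ (c0 * (c0⁻¹ * σ.1.1 * c0)⁻¹ * c0⁻¹) v = mono ∅ (σ.1.1)⁻¹ v
  congr 1
  group

/-! ### The main argument -/

section main

variable {Γ : Type} [Group Γ] [Finite Γ] (σ : Γ →* ↥KB) (hσ : IsStemExtension σ)

include hσ

theorem cen_of {k : Γ} (hk : σ k = 1) (g : Γ) : k * g = g * k :=
  (Subgroup.mem_center_iff.1 (hσ.2.1 (MonoidHom.mem_ker.2 hk)) g).symm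

/-- There is a subgroup of the extension over the copy of the Mathieu group, meeting the kernel trivially. -/
theorem exists_W23 : ∃ W : Subgroup Γ, (∀ w ∈ W, σ w ∈ psiH.range) ∧ (∀ r ∈ psiH.range, ∃ w ∈ W, σ w = r) ∧
    ∀ w ∈ W, σ w = 1 → w = 1 := by
  classical
  let R : Subgroup ↥KB := psiH.range
  let τ : (R.comap σ) →* ↥Spor.M23 := e23.symm.toMonoidHom.comp (σ.subgroupComap R)
  have hτ : Function.Surjective τ :=
    e23.symm.surjective.comp (σ.subgroupComap_surjective_of_surjective R hσ.1)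
  have hker : ∀ y : (R.comap σ), τ y = 1 ↔ σ y = 1 := by
    intro y
    have h1 : τ y = e23.symm (σ.subgroupComap R y) := rfl
    rw [h1, map_eq_one_iff _ e23.symm.injective]
    constructor
    · intro h
      exact congrArg Subtype.val h
    · intro h
      exact Subtype.ext h
  obtain ⟨ρ, hρ⟩ := Cfsg.Agent.Lib.SchurCoset46.exists_retraction' hσ.2.1 Cfsg.Agent.S2037.result
    Cfsg.Agent.S2038.perf_M23 τ hτ hker
  refine ⟨ρ.ker.map (R.comap σ).subtype, ?_, ?_, ?_⟩
  · rintro _ ⟨w, -, rfl⟩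
    exact w.2
  · intro r hr
    obtain ⟨g, rfl⟩ := hσ.1 r
    have hg : g ∈ R.comap σ := hr
    let k : σ.ker := ρ ⟨g, hg⟩
    have hk1 : σ (k : Γ) = 1 := k.2
    have hk : (k : Γ) ∈ R.comap σ := by
      show σ (k : Γ) ∈ R
      rw [hk1]
      exact R.one_mem
    refine ⟨(k : Γ)⁻¹ * g, ⟨⟨(k : Γ)⁻¹ * g, (R.comap σ).mul_mem ((R.comap σ).inv_mem hk) hg⟩, ?_, rfl⟩, ?_⟩
    · rw [SetLike.mem_coe, MonoidHom.mem_ker]
      have e : (⟨(k : Γ)⁻¹ * g, (R.comap σ).mul_mem ((R.comap σ).inv_mem hk) hg⟩ : R.comap σ) =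
          (⟨k, hk⟩ : R.comap σ)⁻¹ * ⟨g, hg⟩ := rfl
      rw [e, map_mul, map_inv, hρ k k.2 hk]
      simp [k]
    · rw [map_mul, map_inv, hk1]
      simp
  · rintro _ ⟨w, hw, rfl⟩ h1
    have h2 := hρ w.1 h1 w.2
    have h3 : ρ w = 1 := hw
    have h4 : (⟨w.1, w.2⟩ : R.comap σ) = w := rfl
    rw [h4, h3] at h2
    exact (congrArg Subtype.val h2).symm

end main

/-- The perfect group. -/
theorem perf_KA : commutator ↥KA = ⊤ := by
  have := finite_Co0'
  haveI hs : IsSimpleGroup ↥KA := mcl_simple _ _ norm_lv0' norm_lw0 dot_v0w0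
  exact perfect_of_card (G := ↥KA) (card_mcl _ _ norm_lv0' norm_lw0 dot_v0w0) (by norm_num)

theorem perf_S : commutator ↥(KA ⊓ stb (dd xA)) = ⊤ := by
  have := finite_Co0'
  haveI hs : IsSimpleGroup ↥(KA ⊓ stb (dd xA)) := mcl_pt_simple _ _ _ norm_lv0' norm_lw0 dot_v0w0 xA_mem
  exact perfect_of_card (G := ↥(KA ⊓ stb (dd xA))) card_KA_x (by norm_num)

theorem KA_le : KA ≤ KB := inf_le_right

theorem ker_eq_bot (Γ : Type) [Group Γ] [Finite Γ] (σ : Γ →* ↥KB) (hσ : IsStemExtension σ) : σ.ker = ⊥ := by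
  classical
  obtain ⟨W23, hW1, hW2, hW3⟩ := exists_W23 σ hσ
  -- the subgroups
  let SB : Subgroup ↥KB := (KA ⊓ stb (dd xA)).comap KB.subtype
  let Nt : Subgroup Γ := (KA.comap KB.subtype).comap σ
  let WS : Subgroup Γ := W23 ⊓ SB.comap σ
  have hSR : ∀ s ∈ SB, s ∈ psiH.range := by
    intro s hs
    obtain ⟨p, e⟩ := S_le_psi hs
    exact ⟨p, Subtype.ext e⟩
  have hWSNt : WS ≤ Nt := fun w hw => hw.2.1
  -- the elements of WS are commutators
  have hWScomm : WS ≤ ⁅WS, WS⁆ := by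
    intro w hw
    have hs : (σ w : ↥KB) ∈ SB := hw.2
    -- the map onto the simple group
    let f : ↥WS →* ↥(KA ⊓ stb (dd xA)) :=
      { toFun := fun y => ⟨(σ y.1 : Co0), y.2.2⟩
        map_one' := Subtype.ext (by simp)
        map_mul' := fun a b => Subtype.ext (by simp) }
    have hf : Function.Surjective f := by
      rintro ⟨s, hs⟩
      have hs' : (⟨s, KA_le hs.1⟩ : ↥KB) ∈ SB := hs
      obtain ⟨y, hy, e⟩ := hW2 _ (hSR _ hs')
      refine ⟨⟨y, hy, ?_⟩, Subtype.ext (show (σ y : Co0) = s from congrArg Subtype.val e)⟩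
      show σ y ∈ SB
      rw [e]
      exact hs'
    have h1 : (⟨w, hw⟩ : ↥WS) ∈ (commutator ↥WS) ⊔ f.ker := by
      have hmap : (commutator ↥WS).map f = ⊤ := by
        rw [_root_.commutator_def, Subgroup.map_commutator, Subgroup.map_top_of_surjective f hf]
        exact perf_S
      have h2 : f ⟨w, hw⟩ ∈ (commutator ↥WS).map f := by
        rw [hmap]
        exact Subgroup.mem_top _
      obtain ⟨d, hd, e⟩ := h2
      have hk : d⁻¹ * ⟨w, hw⟩ ∈ f.ker := by
        rw [MonoidHom.mem_ker, map_mul, map_inv, e, inv_mul_cancel]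
      have h3 : (⟨w, hw⟩ : ↥WS) = d * (d⁻¹ * ⟨w, hw⟩) := by group
      rw [h3]
      exact Subgroup.mul_mem_sup hd hk
    have hkerf : f.ker = ⊥ := by
      rw [eq_bot_iff]
      intro y hy
      have h2 : ((f y : ↥(KA ⊓ stb (dd xA))) : Co0) = 1 := congrArg Subtype.val hy
      have h3 : σ y.1 = 1 := Subtype.ext h2
      have h4 := hW3 y.1 y.2.1 h3
      exact Subgroup.mem_bot.2 (Subtype.ext h4)
    rw [hkerf, sup_bot_eq] at h1
    have h5 : (commutator ↥WS).map WS.subtype = ⁅WS, WS⁆ := by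
      rw [_root_.commutator_def, Subgroup.map_commutator, ← MonoidHom.range_eq_map, Subgroup.range_subtype]
    rw [← h5]
    exact ⟨_, h1, rfl⟩
  have hWSc : WS ≤ (commutator ↥Nt).map Nt.subtype := by
    have h5 : (commutator ↥Nt).map Nt.subtype = ⁅Nt, Nt⁆ := by
      rw [_root_.commutator_def, Subgroup.map_commutator, ← MonoidHom.range_eq_map, Subgroup.range_subtype]
    rw [h5]
    exact hWScomm.trans (Subgroup.commutator_mono hWSNt hWSNt)
  -- the extension of the smaller group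
  let τA : ↥Nt →* ↥KA :=
    { toFun := fun y => ⟨(σ y.1 : Co0), y.2⟩
      map_one' := Subtype.ext (by simp)
      map_mul' := fun a b => Subtype.ext (by simp) }
  have hτA : Function.Surjective τA := by
    rintro ⟨s, hs⟩
    obtain ⟨g, hg⟩ := hσ.1 ⟨s, KA_le hs⟩
    have hg' : g ∈ Nt := by
      show (σ g : Co0) ∈ KA
      rw [hg]
      exact hs
    exact ⟨⟨g, hg'⟩, Subtype.ext (show (σ g : Co0) = s from congrArg Subtype.val hg)⟩
  have hτc : τA.ker ≤ Subgroup.center ↥Nt := by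
    intro y hy
    have h1 : ((τA y : ↥KA) : Co0) = 1 := congrArg Subtype.val hy
    have h2 : σ y.1 = 1 := Subtype.ext h1
    rw [Subgroup.mem_center_iff]
    intro b
    exact Subtype.ext (cen_of σ hσ h2 b.1).symm
  have hstem := Cfsg.Agent.Lib.O8Gen46.stem_of_commutator perf_KA τA hτA hτc
  -- the complement
  let πA : ↥(commutator ↥Nt) →* ↥KA := τA.comp (commutator ↥Nt).subtype
  let emb : ↥(commutator ↥Nt) →* Γ := Nt.subtype.comp (commutator ↥Nt).subtype
  have hval : ∀ y : ↥(commutator ↥Nt), ((πA y : ↥KA) : Co0) = (σ (emb y) : Co0) := fun y => rfl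
  let W' : Subgroup ↥(commutator ↥Nt) := WS.comap emb
  have CA : Compl πA DA.x0X W' := by
    refine ⟨hstem.1, ?_, ?_, ?_, ?_⟩
    · intro k hk g
      exact (Subgroup.mem_center_iff.1 (hstem.2.1 (MonoidHom.mem_ker.2 hk)) g).symm
    · intro w hw
      apply Subtype.ext
      exact (hw.2 : ((σ (emb w) : ↥KB) : Co0) ∈ KA ⊓ stb (dd xA)).2
    · intro g hg
      have h1 : ((πA g : ↥KA) : Co0) • dd xA = dd xA := congrArg Subtype.val hg
      have h2 : (σ (emb g) : ↥KB) ∈ SB := ⟨(πA g).2, h1⟩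
      obtain ⟨w, hw, e⟩ := hW2 _ (hSR _ h2)
      have hwS : w ∈ WS := ⟨hw, by
        show σ w ∈ SB
        rw [e]
        exact h2⟩
      obtain ⟨y, hy, e2⟩ := hWSc hwS
      have hwy : emb ⟨y, hy⟩ = w := e2
      refine ⟨g * (⟨y, hy⟩ : ↥(commutator ↥Nt))⁻¹, ?_, ⟨y, hy⟩, ?_, by group⟩
      · rw [map_mul, map_inv]
        apply mul_inv_eq_one.2
        apply Subtype.ext
        show ((πA g : ↥KA) : Co0) = ((πA ⟨y, hy⟩ : ↥KA) : Co0)
        rw [hval, hval, hwy, e]
      · show emb ⟨y, hy⟩ ∈ WS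
        rw [hwy]
        exact hwS
    · intro k hk hkW
      have h1 : ((πA k : ↥KA) : Co0) = 1 := congrArg Subtype.val hk
      have h2 : σ (emb k) = 1 := Subtype.ext h1
      have h3 := hW3 _ hkW.1 h2
      apply Subtype.ext
      apply Subtype.ext
      exact h3
  have hkerA : πA.ker = ⊥ := ker_A CA hstem.2.2
  -- the complement for the large group
  let W : Subgroup Γ := (commutator ↥Nt).map Nt.subtype
  have CB : Compl σ DB.x0X W := by
    refine ⟨hσ.1, ?_, ?_, ?_, ?_⟩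
    · intro k hk g
      exact cen_of σ hσ hk g
    · rintro _ ⟨y, -, rfl⟩
      apply Subtype.ext
      show (σ y.1 : Co0) • dd McLWG.v0 = dd McLWG.v0
      rw [← lv0_eq]
      exact y.2.1
    · intro g hg
      have h1 : (σ g : Co0) • dd McLWG.v0 = dd McLWG.v0 := congrArg Subtype.val hg
      have hg' : g ∈ Nt := by
        refine ⟨?_, (σ g).2⟩
        show (σ g : Co0) • McLWG.lv0 = McLWG.lv0
        rw [lv0_eq]
        exact h1
      obtain ⟨y, hy⟩ := hstem.1 (τA ⟨g, hg'⟩)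
      refine ⟨g * (emb y)⁻¹, ?_, emb y, ⟨y.1, y.2, rfl⟩, by group⟩
      rw [map_mul, map_inv]
      apply mul_inv_eq_one.2
      apply Subtype.ext
      show (σ g : Co0) = ((πA y : ↥KA) : Co0)
      rw [show πA y = τA ⟨g, hg'⟩ from hy]
      rfl
    · rintro _ hk ⟨y, hy, rfl⟩
      have hy1 : (⟨y, hy⟩ : ↥(commutator ↥Nt)) ∈ πA.ker := by
        rw [MonoidHom.mem_ker]
        apply Subtype.ext
        show (σ y.1 : Co0) = 1
        have : σ y.1 = 1 := hk
        rw [this]
        rfl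
      rw [hkerA, Subgroup.mem_bot] at hy1
      have := congrArg Subtype.val hy1
      have h2 : y = 1 := this
      rw [h2]
      rfl
  exact ker_B CB hσ.2.2

/-- The stabiliser of the vector in the statement. -/
noncomputable def e3 : Spor.Co2 ≃* ↥(stb Spor.leechU) where
  toFun s := ⟨⟨s.1, s.2.1⟩, s.2.2⟩
  invFun k := ⟨k.1.1, ⟨k.1.2, k.2⟩⟩
  left_inv s := rfl
  right_inv k := rfl
  map_mul' a b := rfl

theorem exists_iso : Nonempty (↥Spor.Co2 ≃* ↥KB) := by
  obtain ⟨g, hg⟩ := Cfsg.Agent.Lib.Co0Trans.trans32 Spor.leechU McLWG.lw0 Cfsg.Agent.Lib.CoCensus.sqNorm_leechU norm_lw0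
  exact ⟨e3.trans (Cfsg.Agent.Lib.CoConf.conjStb g (K := stb Spor.leechU) (K' := stb McLWG.lw0) (fun k => by
    have := Cfsg.Agent.Lib.CoConf.mem_stb_conj g k Spor.leechU
    rwa [hg] at this))⟩

/-- The Schur multiplier of the Conway group Co₂ (the stabiliser of a minimal vector of the rank-24 lattice) is trivial; here the Schur multiplier is described through stem extensions, as in the definitions: surjective homomorphisms onto the group from a finite group, whose kernel is central in that finite group and contained in that finite group's commutator subgroup. -/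
theorem result : Cfsg.HasCyclicSchurMultiplier ↥Cfsg.Spor.Co2 1 := by
  obtain ⟨e⟩ := exists_iso
  have := finite_Co0'
  haveI : Finite ↥Spor.Co2 := Finite.of_equiv _ e.symm.toEquiv
  refine Cfsg.Agent.Lib.SchurStem.hasCyclicSchurMultiplier_one _ (fun Γ _ _ σ hσ => ?_)
  have h1 : IsStemExtension (e.toMonoidHom.comp σ) := by
    refine ⟨e.surjective.comp hσ.1, ?_, ?_⟩
    · intro k hk
      apply hσ.2.1
      rw [MonoidHom.mem_ker] at hk ⊢
      exact (map_eq_one_iff e e.injective).1 hk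
    · intro k hk
      apply hσ.2.2
      rw [MonoidHom.mem_ker] at hk ⊢
      exact (map_eq_one_iff e e.injective).1 hk
  have h2 := ker_eq_bot Γ _ h1
  rw [eq_bot_iff] at h2 ⊢
  intro k hk
  apply h2
  rw [MonoidHom.mem_ker] at hk ⊢
  show e (σ k) = 1
  rw [hk, map_one]

end Cfsg.Agent.S2044
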