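import Mathlib
import Cfsg.Statements.S2043
import Cfsg.Agent.Lib.Co0RelMain
import Cfsg.Agent.S2044

set_option autoImplicit false
open Cfsg

namespace Cfsg.Agent.S2043

/-- The Schur multiplier of the Conway group Co₁ (the automorphism group of the rank-24 lattice modulo its centre) is cyclic of order 2; here the Schur multiplier is described through stem extensions, as in the definitions: surjective homomorphisms onto the group from a finite group, whose kernel is central in that finite group and contained in that finite group's commutator subgroup. -/
theorem result : Cfsg.HasCyclicSchurMultiplier Cfsg.Spor.Co1 2 :=
  Cfsg.Agent.Lib.Co0Rel.multiplier_Co1 Cfsg.Agent.S2044.result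

end Cfsg.Agent.S2043
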