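import Mathlib
import Cfsg.Statements.S2045
import Cfsg.Agent.Lib.Co3Rel19D
import Cfsg.Agent.S2037
import Cfsg.Agent.S2038

set_option autoImplicit false
set_option linter.unusedVariables false
open Cfsg

namespace Cfsg.Agent.S2045

open Cfsg.Agent.Lib.CoVec Cfsg.Agent.Lib.CoConf Cfsg.Agent.Lib.Co3Rel19 Cfsg.Agent.Lib.SchurRel19 Cfsg.Agent.Lib.Co0Mono
  Cfsg.Agent.Lib.Leech MulAction

/-- The permutation action of the Mathieu group on the lattice. -/
noncomputable def psi0 (p : ↥Spor.M23) : Co0 := monoCo0 empty_mem_codeSets (M24.inv_mem p.2.1)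

theorem psi0_mul (p q : ↥Spor.M23) : psi0 (p * q) = psi0 p * psi0 q := by
  apply Cfsg.Agent.Lib.Co0Frame.monoCo0_ext
  intro v
  funext i
  show mono ∅ ((p * q : ↥Spor.M23) : Equiv.Perm GolayPt)⁻¹ v i = mono ∅ (p : Equiv.Perm GolayPt)⁻¹ (mono ∅ (q : Equiv.Perm GolayPt)⁻¹ v) i
  simp [mono]

theorem const_u0 : ∀ i : GolayPt, i ≠ none → dec Co3G.u0 i = 1 := by decide +kernel
theorem const_r0 : ∀ i : GolayPt, i ≠ none → dec r0 i = -1 := by decide +kernel

theorem inv_none (p : ↥Spor.M23) : (p : Equiv.Perm GolayPt)⁻¹ none = none := by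
  have h : (p : Equiv.Perm GolayPt) none = none := p.2.2
  rw [Equiv.Perm.inv_eq_iff_eq]
  exact h.symm

theorem inv_ne (p : ↥Spor.M23) {i : GolayPt} (hi : i ≠ none) : (p : Equiv.Perm GolayPt)⁻¹ i ≠ none := by
  intro h
  apply hi
  have h1 : (p : Equiv.Perm GolayPt) none = none := p.2.2
  have h2 := congrArg (p : Equiv.Perm GolayPt) h
  simpa [h1] using h2

theorem mono_fix (p : ↥Spor.M23) {f : GolayPt → ℤ} {b : ℤ} (hf : ∀ i : GolayPt, i ≠ none → f i = b) :
    mono ∅ (p : Equiv.Perm GolayPt)⁻¹ f = f := by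
  funext i
  simp only [mono, Finset.notMem_empty, if_false]
  by_cases hi : i = none
  · subst hi
    rw [inv_none]
  · rw [hf i hi, hf _ (inv_ne p hi)]

theorem psi0_u (p : ↥Spor.M23) : psi0 p ∈ G0 := by
  apply Subtype.ext
  exact mono_fix p const_u0

theorem psi0_x (p : ↥Spor.M23) : (psi0 p) • lx0 = lx0 := by
  apply Subtype.ext
  show mono ∅ (p : Equiv.Perm GolayPt)⁻¹ ((dd r0 : LL) : GolayPt → ℤ) = ((dd r0 : LL) : GolayPt → ℤ)
  rw [dd_val St_r0]
  exact mono_fix p const_r0

/-- The stabiliser of the base point. -/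
noncomputable abbrev H1 : Subgroup ↥G0 := stabilizer ↥G0 x0X

/-- The map from the Mathieu group. -/
noncomputable def e1 : ↥Spor.M23 →* ↥H1 where
  toFun p := ⟨⟨psi0 p, psi0_u p⟩, Subtype.ext (psi0_x p)⟩
  map_one' := by
    apply Subtype.ext
    apply Subtype.ext
    apply Cfsg.Agent.Lib.Co0Frame.monoCo0_ext
    intro v
    funext i
    show mono ∅ ((1 : ↥Spor.M23) : Equiv.Perm GolayPt)⁻¹ v i = (v : GolayPt → ℤ) i
    simp [mono]
  map_mul' p q := by
    apply Subtype.ext
    apply Subtype.ext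
    exact psi0_mul p q

theorem e1_inj : Function.Injective e1 := by
  intro p q h
  have h1 : psi0 p = psi0 q := congrArg (fun z : ↥H1 => ((z : ↥G0) : Co0)) h
  have h2 := (Cfsg.Agent.Lib.Co0Frame.monoCo0_part_eq h1).2
  apply Subtype.ext
  exact inv_injective h2

instance instFinH1 : Finite ↥H1 := inferInstance

theorem card_H1 : Nat.card ↥H1 = 10200960 := by
  have e : ↥H1 ≃ ↥H0c :=
    { toFun := fun k => ⟨k.1.1, H0c_of_stab k.2⟩
      invFun := fun k => ⟨⟨k.1, H0c_le k.2⟩, stab_of_H0c k.2⟩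
      left_inv := fun _ => rfl
      right_inv := fun _ => rfl }
  rw [Nat.card_congr e, card_H0c]

theorem e1_bij : Function.Bijective e1 := by
  haveI : Finite ↥Spor.M23 := by
    haveI : Finite (Equiv.Perm GolayPt) := inferInstance
    exact inferInstance
  refine (Nat.bijective_iff_injective_and_card e1).2 ⟨e1_inj, ?_⟩
  rw [card_H1]
  exact Cfsg.Agent.S2038.card_M23

/-- The isomorphism with the Mathieu group. -/
noncomputable def e2 : ↥Spor.M23 ≃* ↥H1 := MulEquiv.ofBijective e1 e1_bij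

theorem ker_eq_bot (Γ : Type) [Group Γ] [Finite Γ] (σ : Γ →* ↥G0) (hσ : IsStemExtension σ) : σ.ker = ⊥ := by
  let τ : (H1.comap σ) →* ↥Spor.M23 := e2.symm.toMonoidHom.comp (σ.subgroupComap H1)
  have hτ : Function.Surjective τ :=
    e2.symm.surjective.comp (σ.subgroupComap_surjective_of_surjective H1 hσ.1)
  have hker : ∀ y : (H1.comap σ), τ y = 1 ↔ σ y = 1 := by
    intro y
    have h1 : τ y = e2.symm (σ.subgroupComap H1 y) := rfl
    rw [h1, map_eq_one_iff _ e2.symm.injective]
    constructor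
    · intro h
      exact congrArg Subtype.val h
    · intro h
      exact Subtype.ext h
  obtain ⟨ρ, hρ⟩ := Cfsg.Agent.Lib.SchurCoset46.exists_retraction' hσ.2.1 Cfsg.Agent.S2037.result
    Cfsg.Agent.S2038.perf_M23 τ hτ hker
  have C := compl_of_retraction hσ.1 hσ.2.1 ρ hρ
  exact ker_eq_bot_of_system C hσ.2.2 (good_all C) Yg 5 Yg_pow hgen (fun A _ κ v h1 h2 => hsys A κ v h1 h2)

theorem lu0_neg : Co3G.lu0 = -Spor.leechV := by
  apply Subtype.ext
  funext p
  show dec Co3G.u0 p = -(Spor.vecV p)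
  revert p
  decide +kernel

/-- The group of the statement. -/
noncomputable def e3 : Spor.Co3 ≃* ↥G0 where
  toFun σ := ⟨⟨σ.1, σ.2.1⟩, by
      show (⟨σ.1, σ.2.1⟩ : Co0) • Co3G.lu0 = Co3G.lu0
      have h1 : (⟨σ.1, σ.2.1⟩ : Co0) • Spor.leechV = Spor.leechV := σ.2.2
      rw [lu0_neg, smul_neg', h1]⟩
  invFun k := ⟨k.1.1, ⟨k.1.2, by
      show k.1 • Spor.leechV = Spor.leechV
      have h1 : k.1 • Co3G.lu0 = Co3G.lu0 := k.2
      have e : Spor.leechV = -Co3G.lu0 := by
        rw [lu0_neg, neg_neg]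
      rw [e, smul_neg', h1]⟩⟩
  left_inv σ := rfl
  right_inv k := rfl
  map_mul' a b := rfl

/-- The Schur multiplier of the Conway group Co₃ (the stabiliser of a vector of the second shortest length in the rank-24 lattice) is trivial; here the Schur multiplier is described through stem extensions, as in the definitions: surjective homomorphisms onto the group from a finite group, whose kernel is central in that finite group and contained in that finite group's commutator subgroup. -/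
theorem result : Cfsg.HasCyclicSchurMultiplier ↥Cfsg.Spor.Co3 1 := by
  haveI : Finite ↥Spor.Co3 := Finite.of_equiv _ e3.symm.toEquiv
  refine Cfsg.Agent.Lib.SchurStem.hasCyclicSchurMultiplier_one _ (fun Γ _ _ σ hσ => ?_)
  have h1 : IsStemExtension (e3.toMonoidHom.comp σ) := by
    refine ⟨e3.surjective.comp hσ.1, ?_, ?_⟩
    · intro k hk
      apply hσ.2.1
      rw [MonoidHom.mem_ker] at hk ⊢
      exact (map_eq_one_iff e3 e3.injective).1 hk
    · intro k hk
      apply hσ.2.2
      rw [MonoidHom.mem_ker] at hk ⊢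
      exact (map_eq_one_iff e3 e3.injective).1 hk
  have h2 := ker_eq_bot Γ _ h1
  rw [eq_bot_iff] at h2 ⊢
  intro k hk
  apply h2
  rw [MonoidHom.mem_ker] at hk ⊢
  show e3 (σ k) = 1
  rw [hk, map_one]

end Cfsg.Agent.S2045
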