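import Cfsg.Statements.S2102
import Cfsg.Agent.Lib.G24Mult
import Cfsg.Agent.Lib.ChevTransfer
import Cfsg.Agent.Lib.SchurFib

set_option autoImplicit false
open Cfsg

namespace Cfsg.Agent.S2102

/-- Exceptional Schur multiplier: over the field with 4 elements the Chevalley group of type G₂ has Schur multiplier cyclic of order 2 (here the Schur multiplier is described through stem extensions, as in the definitions). -/
theorem result {F : Type*} [Field F] [Fintype F] (hF : Fintype.card F = 4) : Cfsg.HasCyclicSchurMultiplier ↥(Cfsg.Lie.chevG2.group F) 2 := by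
  let φ : F ≃+* Cfsg.Agent.Lib.F4K.K4 := FiniteField.ringEquivOfCardEq (by rw [hF, Cfsg.Agent.Lib.F4K.K4.card_K4])
  exact Cfsg.Agent.Lib.SchurFib.hasSchur_of_equiv
    (Cfsg.Agent.Lib.ChevTransfer.groupEquiv Cfsg.Lie.chevG2 φ)
    Cfsg.Agent.Lib.G24Mult.exists_A2 (fun Γ _ _ σ hσ => Cfsg.Agent.Lib.G24Mult.upper σ hσ)

end Cfsg.Agent.S2102
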