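import Mathlib
import Cfsg.Agent.Lib.RuScTop
import Cfsg.Agent.Lib.RuScStem
import Cfsg.Agent.Lib.RuBrMain
import Cfsg.Agent.Lib.SchurFib
import Cfsg.Agent.Lib.SchurCover46
import Cfsg.Statements.S2051

set_option autoImplicit false
open Cfsg

namespace Cfsg.Agent.S2051

/-- The Schur multiplier of the Rudvalis group (the unitary automorphism group of the rank-28 Gaussian lattice modulo its centre) is cyclic of order 2; here the Schur multiplier is described through stem extensions, as in the definitions: surjective homomorphisms onto the group from a finite group, whose kernel is central in that finite group and contained in that finite group's commutator subgroup. -/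
theorem result : Cfsg.HasCyclicSchurMultiplier Cfsg.Spor.Ru 2 := by
  refine Cfsg.Agent.Lib.SchurFib.hasSchur_of_equiv Cfsg.Agent.Lib.RuBr.quotEquiv Cfsg.Agent.Lib.RuScStem.exists_stem ?_
  intro Γ _ _ σ hσ
  obtain ⟨u, hu, hall⟩ := Cfsg.Agent.Lib.RuScTop.up hσ
  let _ : CommGroup σ.ker := { (inferInstance : Group σ.ker) with
    mul_comm := fun a b => Subtype.ext (Subgroup.mem_center_iff.mp (hσ.2.1 b.2) a.1) }
  exact Cfsg.Agent.Lib.SchurCover46.exists_surj_of_cyclic u hu hall


end Cfsg.Agent.S2051
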