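import Mathlib
import Cfsg.Statements.S2053
import Cfsg.Agent.Lib.SchurFi22Low
import Cfsg.Agent.Lib.SchurAsm

set_option autoImplicit false
open Cfsg

namespace Cfsg.Agent.S2053

/-- The Schur multiplier of the Fischer group Fi₂₂ (the finitely presented group of the definitions) is cyclic of order 6; here the Schur multiplier is described through stem extensions, as in the definitions: surjective homomorphisms onto the group from a finite group, whose kernel is central in that finite group and contained in that finite group's commutator subgroup. -/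
theorem result : Cfsg.HasCyclicSchurMultiplier Cfsg.Spor.Fi22 6 := by
  refine ⟨Cfsg.Agent.Lib.SchurFi22Low.exists_six, ?_⟩
  intro Γ _ _ σ hσ
  obtain ⟨g, hg, h6, hD⟩ := Cfsg.Agent.Lib.SchurFi22.ker_bound σ hσ.1 hσ.2.1 hσ.2.2
  haveI : Fact (1 < 6) := ⟨by norm_num⟩
  exact Cfsg.Agent.Lib.SchurAsm.exists_surj1 hσ hg h6 hD

end Cfsg.Agent.S2053
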