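import Mathlib
import Cfsg.Statements.S2054
import Cfsg.Agent.Lib.SchurFi23

set_option autoImplicit false
open Cfsg

namespace Cfsg.Agent.S2054

/-- The Schur multiplier of the Fischer group Fi₂₃ (the finitely presented group of the definitions) is trivial; here the Schur multiplier is described through stem extensions, as in the definitions: surjective homomorphisms onto the group from a finite group, whose kernel is central in that finite group and contained in that finite group's commutator subgroup. -/
theorem result : Cfsg.HasCyclicSchurMultiplier Cfsg.Spor.Fi23 1 := by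
  refine ⟨⟨Cfsg.Spor.Fi23, inferInstance, Cfsg.Agent.TcChain36.Fi23.finG, MonoidHom.id _, ?_, ?_⟩, ?_⟩
  · have hk : (MonoidHom.id Cfsg.Spor.Fi23).ker = ⊥ := by
      ext x
      simp
    refine ⟨Function.surjective_id, ?_, ?_⟩
    · rw [hk]; exact bot_le
    · rw [hk]; exact bot_le
  · have hk : (MonoidHom.id Cfsg.Spor.Fi23).ker = ⊥ := by
      ext x
      simp
    have : Unique (MonoidHom.id Cfsg.Spor.Fi23).ker := by
      rw [hk]; infer_instance
    have : Unique (Multiplicative (ZMod 1)) :=
      inferInstanceAs (Unique (Multiplicative (Fin 1)))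
    exact ⟨MulEquiv.ofUnique⟩
  · intro Γ _ _ σ hσ
    have hk := Cfsg.Agent.Lib.SchurFi23.ker_trivial σ hσ.1 hσ.2.1 hσ.2.2
    refine ⟨1, ?_⟩
    intro x
    refine ⟨1, ?_⟩
    apply Subtype.ext
    have h2 : (x : Γ) = 1 := by
      have h3 : (x : Γ) ∈ (⊥ : Subgroup Γ) := hk ▸ x.2
      exact Subgroup.mem_bot.mp h3
    rw [h2]
    simp

end Cfsg.Agent.S2054
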