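import Mathlib
import Cfsg.Statements.S2055
import Cfsg.Agent.Lib.F24zLow

set_option autoImplicit false
open Cfsg

namespace Cfsg.Agent.S2055

/-- The Schur multiplier of the Fischer group Fi₂₄′ (the commutator subgroup of the presented group Fi₂₄) is cyclic of order 3; here the Schur multiplier is described through stem extensions, as in the definitions: surjective homomorphisms onto the group from a finite group, whose kernel is central in that finite group and contained in that finite group's commutator subgroup. -/
theorem result : Cfsg.HasCyclicSchurMultiplier Cfsg.Spor.Fi24' 3 := by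
  refine ⟨Cfsg.Agent.Lib.F24zLow.exists_three, ?_⟩
  intro Γ _ _ σ hσ
  obtain ⟨g, hg, h3, hD⟩ := Cfsg.Agent.Lib.F24zTw.ker_bound hσ
  haveI : Fact (1 < 3) := ⟨by norm_num⟩
  exact Cfsg.Agent.Lib.SchurAsm.exists_surj1 hσ hg h3 hD

end Cfsg.Agent.S2055
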