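import Mathlib
import Cfsg.Statements.S2056
import Cfsg.Agent.S2046
import Cfsg.Agent.TcData.HN.Mult
import Cfsg.Agent.TcData.HN.Fin

set_option autoImplicit false
open Cfsg

namespace Cfsg.Agent.S2056

/-- The Schur multiplier of the Harada–Norton group (the finitely presented group of the definitions) is trivial; here the Schur multiplier is described through stem extensions, as in the definitions: surjective homomorphisms onto the group from a finite group, whose kernel is central in that finite group and contained in that finite group's commutator subgroup. -/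
theorem result : Cfsg.HasCyclicSchurMultiplier Cfsg.Spor.HN 1 := by
  haveI : Finite Cfsg.Spor.HN := Cfsg.Agent.TcData.HN.Fin.instFinite
  apply Cfsg.Agent.Lib.SchurBasic.hasCyclicSchurMultiplier_one
  intro Γ _ _ σ hσ
  refine Cfsg.Agent.TcData.HN.Mult.ker_bot_of_bound (fun Γ' _ _ τ hτ => ?_) Γ σ hσ
  obtain ⟨π, hπ⟩ := Cfsg.Agent.S2046.result.2 Γ' τ hτ
  haveI : Finite τ.ker := inferInstance
  have h := Nat.card_le_card_of_surjective π hπ
  refine h.trans ?_
  have : Nat.card (Multiplicative (ZMod 2)) = 2 := by
    rw [Nat.card_congr Multiplicative.toAdd]
    simp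
  omega

end Cfsg.Agent.S2056
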