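-- The Schur multiplier of PSL(3,2).
import Cfsg.Statements.S2087
import Cfsg.Agent.Lib.L32Mult
import Cfsg.Agent.Lib.SLTransfer

set_option autoImplicit false
open Cfsg

namespace Cfsg.Agent.S2087

open Cfsg.Agent.Lib.L32Mult

/-- Exceptional Schur multiplier: over the field with 2 elements, PSL₃ has Schur multiplier cyclic of order 2 (here the Schur multiplier is described through stem extensions, as in the definitions). -/
theorem result {F : Type*} [Field F] [Fintype F] (hF : Fintype.card F = 2) : Cfsg.HasCyclicSchurMultiplier (Matrix.ProjectiveSpecialLinearGroup (Fin 3) F) 2 := by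
  let φ : F ≃+* ZMod 2 := FiniteField.ringEquivOfCardEq (by rw [hF, ZMod.card])
  let e₁ : Matrix.ProjectiveSpecialLinearGroup (Fin 3) F ≃* Matrix.ProjectiveSpecialLinearGroup (Fin 3) (ZMod 2) := Cfsg.Agent.Lib.SLTransfer.pslEquiv φ
  let e₂ : Matrix.ProjectiveSpecialLinearGroup (Fin 3) (ZMod 2) ≃* G0 :=
    (QuotientGroup.quotientMulEquivOfEq center_G0).trans QuotientGroup.quotientBot
  exact Cfsg.Agent.Lib.SchurFib.hasSchur_of_equiv (e₁.trans e₂) exists_AT (fun Γ _ _ σ hσ => upper σ hσ)

end Cfsg.Agent.S2087
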