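import Cfsg.Statements.S2089
import Cfsg.Agent.Lib.UMTop
import Cfsg.Agent.Lib.SUSchurRp79

set_option autoImplicit false
open Cfsg

namespace Cfsg.Agent.S2089

/-- Schur multipliers of the unitary groups: for n ≥ 3 and a field F with q² elements, (n, q) ≠ (3, 2), apart from the exceptional pairs (n, q) = (4, 2), (4, 3), (6, 2), the Schur multiplier of PSU_n(q) is cyclic of order gcd(n, q + 1); here the Schur multiplier is described through stem extensions, as in the definitions. -/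
theorem result {F : Type*} [Field F] [Fintype F] (n q : ℕ) (hF : Fintype.card F = q ^ 2) (hn : 3 ≤ n) (h3 : ¬ (n = 3 ∧ q = 2)) (hexc : (n, q) ∉ ({(4, 2), (4, 3), (6, 2)} : Set (ℕ × ℕ))) : Cfsg.HasCyclicSchurMultiplier (Cfsg.PSU n F q) (Nat.gcd n (q + 1)) := by
  exact Cfsg.Agent.Lib.UMRoot.multiplier_of_rpart hF hn h3 hexc (fun r p hr hp hc hrp Γ _ _ σ hσ hZ => Cfsg.Agent.Lib.SUSchurRp79.ker_eq_bot hF hp hr hrp σ hσ.1 hσ.2.1 hZ hσ.2.2)

end Cfsg.Agent.S2089
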