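import Mathlib
import Cfsg.Statements.S2091
import Cfsg.Agent.Lib.U6Cover46

set_option autoImplicit false
open Cfsg

namespace Cfsg.Agent.S2091

open Cfsg.Agent.Lib.U6Main46 Cfsg.Agent.Lib.U6Cover46 Cfsg.Agent.Lib.U6Upper46 Cfsg.Agent.Lib.U6Bridge46

/-- Exceptional Schur multiplier: PSU₆(2), realised over the field with 4 elements, has Schur multiplier isomorphic to the product of cyclic groups of orders 3, 2 and 2 (order 12, not cyclic; here the Schur multiplier is described through stem extensions, as in the definitions). -/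
theorem result {F : Type*} [Field F] [Fintype F] (hF : Fintype.card F = 4) : Cfsg.HasSchurMultiplier (Cfsg.PSU 6 F 2) (Multiplicative (ZMod 3 × ZMod 2 × ZMod 2)) := by
  obtain ⟨e⟩ := PSU_equiv_PG hF card_PG
  refine Cfsg.Agent.Lib.SchurFib.hasSchur_of_equiv e ⟨↥Γ0, inferInstance, inferInstance, σ0, stem0, ⟨kerEquiv⟩⟩ ?_
  intro Γ _ _ σ hσ
  refine Cfsg.Agent.Lib.O8Gen46.surj_of_card_bound perfPG stem0 kerEquiv ?_ Γ σ hσ
  intro Λ _ _ τ hτ
  have h12 : Nat.card (Multiplicative (ZMod 3 × ZMod 2 × ZMod 2)) = 12 := by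
    rw [Nat.card_congr Multiplicative.toAdd, Nat.card_prod, Nat.card_prod, Nat.card_zmod, Nat.card_zmod]
  rw [h12]
  exact card_ker_le_twelve τ hτ

end Cfsg.Agent.S2091
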