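import Cfsg.Statements.S2093
import Cfsg.Agent.Lib.Sp62Mult
import Cfsg.Agent.Lib.SpCenter

set_option autoImplicit false
open Cfsg

namespace Cfsg.Agent.S2093

open Cfsg.Agent.Lib.SpBasic Matrix

variable {F K : Type*} [Field F] [Field K]

/-- Symplectic groups of isomorphic fields. -/
noncomputable def spE (φ : F ≃+* K) : Sp (Fin 3) F ≃* Sp (Fin 3) K where
  toFun s := ⟨s.1.map φ, SymplecticGroup.map_mem s.2 (φ : F →+* K)⟩
  invFun s := ⟨s.1.map φ.symm, SymplecticGroup.map_mem s.2 (φ.symm : K →+* F)⟩
  left_inv s := by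
    apply Subtype.ext
    ext i j
    simp
  right_inv s := by
    apply Subtype.ext
    ext i j
    simp
  map_mul' s t := by
    apply Subtype.ext
    exact Matrix.map_mul (f := (φ : F →+* K))

/-- The quotient by a trivial centre. -/
noncomputable def pspE (h2 : (2 : F) = 0) : Cfsg.PSp 3 F ≃* Sp (Fin 3) F := by
  have hc : Subgroup.center (Sp (Fin 3) F) = ⊥ := by
    rw [eq_bot_iff]
    intro z hz
    rcases Cfsg.Agent.Lib.SpCenter.mem_center_iff.mp hz with h | h
    · exact h
    · rw [h]
      apply Subtype.ext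
      show -1 = _
      have h1 : (-1 : F) = 1 := by
        rw [neg_eq_iff_add_eq_zero, one_add_one_eq_two, h2]
      ext i j
      simp only [Matrix.neg_apply]
      rw [← neg_one_mul, h1, one_mul]
      rfl
  exact (QuotientGroup.quotientMulEquivOfEq hc).trans QuotientGroup.quotientBot

/-- Exceptional Schur multiplier: over the field with 2 elements, PSp₆ has Schur multiplier cyclic of order 2 (here the Schur multiplier is described through stem extensions, as in the definitions). -/
theorem result {F : Type*} [Field F] [Fintype F] (hF : Fintype.card F = 2) : Cfsg.HasCyclicSchurMultiplier (Cfsg.PSp 3 F) 2 := by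
  have φ : ZMod 2 ≃+* F := ZMod.ringEquivOfPrime F Nat.prime_two hF
  have h2 : (2 : F) = 0 := by
    have := map_natCast φ 2
    rw [show ((2 : ℕ) : ZMod 2) = 0 from rfl, map_zero] at this
    exact_mod_cast this.symm
  exact Cfsg.Agent.Lib.SchurFib.hasSchur_of_equiv ((pspE h2).trans (spE φ.symm))
    Cfsg.Agent.Lib.Sp62Mult.exists_AT (fun Γ _ _ σ hσ => Cfsg.Agent.Lib.Sp62Mult.upper σ hσ)

end Cfsg.Agent.S2093
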