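import Mathlib
import Cfsg.Statements.S2098
import Cfsg.Agent.Lib.O8Cover46
import Cfsg.Agent.Lib.O8Bridge46

set_option autoImplicit false
open Cfsg

namespace Cfsg.Agent.S2098

open Cfsg.Agent.Lib.O8Main46 Cfsg.Agent.Lib.O8Cover46 Cfsg.Agent.Lib.O8Upper46 Cfsg.Agent.Lib.O8Bridge46

/-- Exceptional Schur multiplier: over the field with 2 elements, PΩ⁺₈ (for the form Σ xᵢyᵢ) has Schur multiplier a four-group, the product of two cyclic groups of order 2 (here the Schur multiplier is described through stem extensions, as in the definitions). -/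
theorem result {F : Type*} [Field F] [Fintype F] (hF : Fintype.card F = 2) : Cfsg.HasSchurMultiplier (Cfsg.POmega F (Cfsg.quadFormPlus 4 F)) (Multiplicative (ZMod 2 × ZMod 2)) := by
  obtain ⟨e⟩ := bridge hF
  have hc := card_PG
  have h₀ := stem0 hc
  refine Cfsg.Agent.Lib.SchurFib.hasSchur_of_equiv e ⟨↥Γ0, inferInstance, inferInstance, σ0, h₀, ⟨kerEquiv hc⟩⟩ ?_
  intro Γ _ _ σ hσ
  refine Cfsg.Agent.Lib.O8Gen46.surj_of_card_bound perfPG h₀ (kerEquiv hc) ?_ Γ σ hσ
  intro Λ _ _ τ hτ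
  have h4 : Nat.card (Multiplicative (ZMod 2 × ZMod 2)) = 4 := by
    rw [Nat.card_congr Multiplicative.toAdd, Nat.card_prod, Nat.card_zmod]
  rw [h4]
  exact card_ker_le_four τ hτ hc

end Cfsg.Agent.S2098
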