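import Mathlib
import Cfsg.Statements.S2101
import Cfsg.Agent.Lib.G23Cover
import Cfsg.Agent.Lib.ChevTransfer
import Cfsg.Agent.Lib.SchurCover46

set_option autoImplicit false
open Cfsg

namespace Cfsg.Agent.S2101

/-- Exceptional Schur multiplier: over the field with 3 elements the Chevalley group of type G₂ has Schur multiplier cyclic of order 3 (here the Schur multiplier is described through stem extensions, as in the definitions). -/
theorem result {F : Type*} [Field F] [Fintype F] (hF : Fintype.card F = 3) : Cfsg.HasCyclicSchurMultiplier ↥(Cfsg.Lie.chevG2.group F) 3 := by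
  let φ : F ≃+* ZMod 3 := (ZMod.ringEquivOfPrime F Nat.prime_three hF).symm
  let e : ↥(Cfsg.Lie.chevG2.group F) ≃* Cfsg.Agent.Lib.G23Sub.G0 :=
    Cfsg.Agent.Lib.ChevTransfer.groupEquiv Cfsg.Lie.chevG2 φ
  have : Finite ↥(Cfsg.Lie.chevG2.group F) := Finite.of_equiv _ e.symm.toEquiv
  refine ⟨Cfsg.Agent.Lib.G23Cover.exists_cover e, ?_⟩
  intro Γ _ _ σ hσ
  have hσ' : IsStemExtension (e.toMonoidHom.comp σ) := by
    obtain ⟨h1, h2, h3⟩ := hσ
    have hk : (e.toMonoidHom.comp σ).ker = σ.ker := by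
      ext x
      simp [MonoidHom.mem_ker]
    refine ⟨e.surjective.comp h1, ?_, ?_⟩
    · rw [hk]; exact h2
    · rw [hk]; exact h3
  have hk : (e.toMonoidHom.comp σ).ker = σ.ker := by
    ext x
    simp [MonoidHom.mem_ker]
  obtain ⟨u, hu, hall⟩ := Cfsg.Agent.Lib.G23Up.up _ hσ'
  let _ : CommGroup σ.ker := { (inferInstance : Group σ.ker) with
    mul_comm := fun a b => Subtype.ext (Subgroup.mem_center_iff.mp (hσ.2.1 b.2) a.1) }
  have hu2 : (u : Γ) ∈ σ.ker := hk ▸ u.2
  refine Cfsg.Agent.Lib.SchurCover46.exists_surj_of_cyclic (⟨u, hu2⟩ : σ.ker) ?_ ?_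
  · apply Subtype.ext
    have h6 : ((u ^ 3 : ↥(e.toMonoidHom.comp σ).ker) : Γ) = 1 := congrArg Subtype.val hu
    rw [Subgroup.coe_pow] at h6
    exact h6
  · rintro ⟨k, hk2⟩
    have hk3 : k ∈ (e.toMonoidHom.comp σ).ker := hk ▸ hk2
    obtain ⟨i, hi⟩ := hall ⟨k, hk3⟩
    refine ⟨i, ?_⟩
    apply Subtype.ext
    have h5 : ((u ^ i : ↥(e.toMonoidHom.comp σ).ker) : Γ) = k := congrArg Subtype.val hi
    rw [Subgroup.coe_zpow] at h5
    exact h5

end Cfsg.Agent.S2101
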