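-- Statement S2103: the Schur multiplier of F₄(q) is trivial for q ≥ 3.
import Cfsg.Statements.S2103
import Cfsg.Agent.Lib.ChevTorF4

set_option autoImplicit false
open Cfsg

namespace Cfsg.Agent.S2103

open Cfsg.Agent.Lib.Chev Cfsg.Agent.Lib.ChevStem Cfsg.Agent.Lib.ChevTor Cfsg.Agent.Lib.ChevTorTab
  Cfsg.Agent.Lib.ChevTorF4

/-- Schur multipliers of the Chevalley groups of type F₄: over a finite field with more than 2 elements the Schur multiplier of F₄(q) is trivial (here the Schur multiplier is described through stem extensions, as in the definitions); q = 2 is exceptional. -/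
theorem result {F : Type*} [Field F] [Fintype F] (hF : 3 ≤ Fintype.card F) : Cfsg.HasCyclicSchurMultiplier ↥(Cfsg.Lie.chevF4.group F) 1 := by
  have hq := hF
  have hF : Full _ _ _ Cfsg.Lie.chevF4 := ⟨RelF4.checks, RootF4.checks⟩
  apply multiplier_one
  intro Γ _ _ σ hσ
  refine ker_eq_bot_of_wit hF σ hσ ?_ ?_ ?_ (hTab_of_ok tab_ok) CoxeterMatrix.F₄ (by decide +kernel) brChk_ok
    (tor_inj_of_card hF ?_)
  · intro κ a b
    exact hA_of_ok hF σ hσ.1 hσ.2.1 self_ok κ a b
  · intro κ
    exact hchi_of_dual hq (dual_of_ok dual_ok κ)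
  · by_cases h3 : Fintype.card F = 3
    · have h2 : (2 : F) ≠ 0 := Ring.two_ne_zero (fun h => by
        have := FiniteField.even_card_iff_char_two.mp h
        omega)
      refine wit_of_ok2 hF σ hσ.1 hσ.2.1 wit_ok2 h2 ?_
      intro h
      have := Nat.le_of_dvd (by norm_num) h
      omega
    · refine wit_of_ok hF σ hσ.1 wit_ok ?_
      intro d hd h
      have h1 : d ≠ 0 := by
        rintro rfl
        simp at hd
      have h2 := Nat.le_of_dvd (Nat.pos_of_ne_zero h1) h
      have h4 : d ≤ 2 := by
        simp at hd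
        omega
      omega
  · have := Full.torus_card_F4 (F := F) hF
    rwa [one_mul] at this

end Cfsg.Agent.S2103
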