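-- Statement S2106: the Schur multiplier of E₇(q) is cyclic of order gcd(2, q - 1).
import Cfsg.Statements.S2106
import Cfsg.Agent.S1079
import Cfsg.Agent.Lib.ChevSLE7
import Cfsg.Agent.Lib.ChevStemN

set_option autoImplicit false
open Cfsg

namespace Cfsg.Agent.S2106

open Cfsg.Agent.Lib.Chev Cfsg.Agent.Lib.ChevStemN Cfsg.Agent.Lib.ChevPres

/-- Schur multipliers of the (adjoint, simple) Chevalley groups of type E₇: over a field with q elements the Schur multiplier is cyclic of order gcd(2, q − 1) (here the Schur multiplier is described through stem extensions, as in the definitions). -/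
theorem result {F : Type*} [Field F] [Fintype F] {q : ℕ} (hF : Fintype.card F = q) : Cfsg.HasCyclicSchurMultiplier ↥(Cfsg.Lie.chevE7.group F) (Nat.gcd 2 (q - 1)) := by
  subst hF
  have hF : Full _ _ _ Cfsg.Lie.chevE7 := ⟨RelE7.checks, RootE7.checks⟩
  have hP : PresOK _ Cfsg.Lie.chevE7 :=
    ⟨negOK_of_check hF Cfsg.Agent.Lib.ChevPresNegE7.neg_ok, Cfsg.Agent.Lib.ChevPresTabE7.w_ok⟩
  have hn : Nat.gcd 2 (Fintype.card F - 1) = 1 ∨ (Nat.gcd 2 (Fintype.card F - 1)).Prime := by
    rcases (Nat.dvd_prime Nat.prime_two).mp (Nat.gcd_dvd_left 2 (Fintype.card F - 1)) with h | h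
    · exact Or.inl h
    · right
      rw [h]
      exact Nat.prime_two
  exact multiplier_of_SL hF hP Cfsg.Agent.Lib.ChevSLE7.data Cfsg.Agent.Lib.ChevSLE7.self_ok CoxeterMatrix.E₇
    (by decide +kernel) Cfsg.Agent.Lib.ChevSLE7.brChk_ok hn Cfsg.Agent.S1079.center_E7 (Full.torus_card_E7 (F := F) hF)

end Cfsg.Agent.S2106
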