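-- Statement S2107: the Schur multiplier of E₈(q) is trivial.
import Cfsg.Statements.S2107
import Cfsg.Agent.Lib.ChevSLE8

set_option autoImplicit false
open Cfsg

namespace Cfsg.Agent.S2107

open Cfsg.Agent.Lib.Chev Cfsg.Agent.Lib.ChevStem

/-- Schur multipliers of the Chevalley groups of type E₈: over every finite field the Schur multiplier of E₈(q) is trivial (here the Schur multiplier is described through stem extensions, as in the definitions). -/
theorem result {F : Type*} [Field F] [Fintype F] : Cfsg.HasCyclicSchurMultiplier ↥(Cfsg.Lie.chevE8.group F) 1 := by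
  have hF : Full _ _ _ Cfsg.Lie.chevE8 := ⟨RelE8.checks, RootE8.checks⟩
  have hbraid := hF.r.braid_cover
  apply multiplier_one
  intro Γ _ _ σ hσ
  refine ker_eq_bot_of_tor hF σ Cfsg.Agent.Lib.ChevSLE8.data CoxeterMatrix.E₈ (by decide +kernel)
    Cfsg.Agent.Lib.ChevSLE8.brChk_ok (tor_inj_of_card hF ?_) hσ
  have := Full.torus_card_E8 (F := F) hF
  rwa [one_mul] at this

end Cfsg.Agent.S2107
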