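-- Statement S2108: the Schur multiplier of ²E₆(q), q ≠ 2.
import Cfsg.Statements.S2108
import Cfsg.Agent.Lib.TwE6St.Final
import Cfsg.Agent.Lib.TwE6Low8

set_option autoImplicit false
open Cfsg

namespace Cfsg.Agent.S2108

open Cfsg.Lie Cfsg.Agent.Lib.Chev Cfsg.Agent.Lib.Chev.TwE6 in
/-- Schur multipliers of the twisted groups of type ²E₆: for a prime power q ≠ 2, with the group realised over the field with q² elements, the Schur multiplier of ²E₆(q) is cyclic of order gcd(3, q + 1) (here the Schur multiplier is described through stem extensions, as in the definitions); q = 2 is exceptional. -/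
theorem result {K : Type*} [Field K] [Fintype K] {q : ℕ} (hq : IsPrimePow q) (hK : Fintype.card K = q ^ 2) (h2 : q ≠ 2) : Cfsg.HasCyclicSchurMultiplier ↥(Cfsg.Lie.twistedE6 K q) (Nat.gcd 3 (q + 1)) := by
  have hq3 : 3 ≤ q := by
    have := hq.two_le
    omega
  obtain ⟨f, hf, hf2⟩ := exists_frob2 hq hK
  have hfin : Finite ↥(Cfsg.Lie.twistedE6 K q) := inferInstance
  refine ⟨?_, ?_⟩
  · by_cases h3 : 3 ∣ q + 1
    · rw [Nat.gcd_eq_left h3]
      obtain ⟨Γ, i1, i2, σ, hσ, ⟨e⟩⟩ := Cfsg.Agent.Lib.TwE6Low8.exists_stem hK h3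
      exact ⟨Γ, i1, i2, σ, hσ, ⟨e⟩⟩
    · have h1 : Nat.gcd 3 (q + 1) = 1 := (Nat.Prime.coprime_iff_not_dvd Nat.prime_three).2 h3
      rw [h1]
      refine ⟨↥(Cfsg.Lie.twistedE6 K q), inferInstance, inferInstance, MonoidHom.id _, ⟨Function.surjective_id, ?_, ?_⟩, ?_⟩
      · rw [MonoidHom.ker_id]
        exact bot_le
      · rw [MonoidHom.ker_id]
        exact bot_le
      · have hs : Subsingleton (MonoidHom.id ↥(Cfsg.Lie.twistedE6 K q)).ker := by
          constructor
          rintro ⟨a, ha⟩ ⟨b, hb⟩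
          apply Subtype.ext
          have h1 : a = 1 := ha
          have h2 : b = 1 := hb
          exact h1.trans h2.symm
        have hs' : Subsingleton (Multiplicative (ZMod 1)) := inferInstanceAs (Subsingleton (ZMod 1))
        exact ⟨{ toFun := fun _ => 1, invFun := fun _ => 1, left_inv := fun x => Subsingleton.elim _ _,
                 right_inv := fun x => Subsingleton.elim _ _, map_mul' := fun _ _ => (mul_one _).symm }⟩
  · rw [← G1_eq f hf hf2]
    intro Γ _ _ σ hσ
    exact Cfsg.Agent.Lib.TwE6St.upper (σ := σ) hσ hq hq3 hK hf hf2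

end Cfsg.Agent.S2108
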