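import Mathlib
import Cfsg.Statements.S2111
import Cfsg.Agent.Lib.SzMult
import Cfsg.Agent.Lib.SuzukiIso

set_option autoImplicit false
open Cfsg

namespace Cfsg.Agent.S2111

/-- Schur multipliers of the Suzuki groups: for q = 2^(2m+1) with m ≥ 2 the Schur multiplier of Sz(q) is trivial (here the Schur multiplier is described through stem extensions, as in the definitions); q = 8 is exceptional. -/
theorem result {F : Type*} [Field F] [Fintype F] {m : ℕ} (hm : 2 ≤ m) (hF : Fintype.card F = 2 ^ (2 * m + 1)) : Cfsg.HasCyclicSchurMultiplier ↥(Cfsg.Lie.Sz F (2 ^ (m + 1))) 1 := by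
  haveI : Cfsg.Agent.Lib.Suzuki.SzHyp F m := ⟨by omega, hF⟩
  haveI : CharP F 2 := Cfsg.Agent.Lib.Suzuki.charP_two F m
  let e := Cfsg.Agent.Lib.SuzukiIso.szEquiv (F := F) (m := m)
  haveI : Finite ↥(Cfsg.Lie.Sz F (2 ^ (m + 1))) := Finite.of_equiv _ e.toEquiv
  apply Cfsg.Agent.Lib.SchurBasic.hasCyclicSchurMultiplier_one
  intro Γ _ _ σ hσ
  let σ' : Γ →* Cfsg.Sz F m := e.symm.toMonoidHom.comp σ
  have hk : ∀ x, x ∈ σ'.ker ↔ x ∈ σ.ker := by
    intro x
    rw [MonoidHom.mem_ker, MonoidHom.mem_ker]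
    change e.symm (σ x) = 1 ↔ _
    simp
  have hσ' : Cfsg.IsStemExtension σ' := by
    refine ⟨e.symm.surjective.comp hσ.1, ?_, ?_⟩
    · intro x hx
      exact hσ.2.1 ((hk x).1 hx)
    · intro x hx
      exact hσ.2.2 ((hk x).1 hx)
  have h := Cfsg.Agent.Lib.SzTorus.stem_ker_eq_bot hm Γ σ' hσ'
  rw [eq_bot_iff]
  intro x hx
  have : x ∈ σ'.ker := (hk x).2 hx
  rwa [h] at this

end Cfsg.Agent.S2111
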