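-- The Schur multiplier of Sz(8).
import Cfsg.Statements.S2112
import Cfsg.Agent.Lib.Sz8Mult

set_option autoImplicit false
open Cfsg

namespace Cfsg.Agent.S2112

open Cfsg.Agent.Lib.Sz8 Cfsg.Agent.Lib.Sz8Mult

/-- Exceptional Schur multiplier: the Suzuki group Sz(8), built over the field with 8 elements using the map x ↦ x⁴, has Schur multiplier a four-group, the product of two cyclic groups of order 2 (here the Schur multiplier is described through stem extensions, as in the definitions). -/
theorem result {F : Type*} [Field F] [Fintype F] (hF : Fintype.card F = 8) : Cfsg.HasSchurMultiplier ↥(Cfsg.Lie.Sz F 4) (Multiplicative (ZMod 2 × ZMod 2)) := by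
  let φ : F ≃+* K8 := FiniteField.ringEquivOfCardEq (hF.trans K8.card_K8.symm)
  exact Cfsg.Agent.Lib.SchurFib.hasSchur_of_equiv (Cfsg.Agent.Lib.SzFieldTransfer.szE φ 4) exists_AT
    (fun Γ _ _ σ hσ => upper σ hσ)

end Cfsg.Agent.S2112
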