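import Mathlib
-- Template for statement S2113 (row 2113; see /opt/grader/pristine/manifest.json for weights).
-- Copy to Cfsg/Agent/S2113.lean and replace the sorry. The statement below is byte-identical to the frozen
-- statement Cfsg.CfsgFrozen.S2113 (Cfsg/Statements/S2113.lean; the theorem Cfsg.kfact_multiplier_ree);
-- the grader kernel-checks Cfsg.Agent.S2113.result against that frozen type. Keep the theorem IN THIS FILE
-- (a `result` declared elsewhere and merely imported here is not credited); helpers may live anywhere
-- under Cfsg/Agent/.
import Cfsg.Statements.S2113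
import Cfsg.Agent.Lib.Chev.TwG2Sch

set_option autoImplicit false
open Cfsg

namespace Cfsg.Agent.S2113

/-- Schur multipliers of the small Ree groups: for q = 3^(2m+1) with m ≥ 1 the Schur multiplier of ²G₂(q) is trivial (here the Schur multiplier is described through stem extensions, as in the definitions). -/
theorem result {K : Type*} [Field K] [Fintype K] {m : ℕ} (hm : 1 ≤ m) (hK : Fintype.card K = 3 ^ (2 * m + 1)) : Cfsg.HasCyclicSchurMultiplier ↥(Cfsg.Lie.twistedG2 K (3 ^ m)) 1 := by
  exact Cfsg.Agent.Lib.Chev.TwG2.main_S2113 hm hK

end Cfsg.Agent.S2113
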