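import Mathlib
import Cfsg.Statements.S2115
import Cfsg.Agent.Lib.TitsMUp

set_option autoImplicit false
open Cfsg

namespace Cfsg.Agent.S2115

/-- The Tits group, the commutator subgroup of ²F₄(2), has trivial Schur multiplier (here the Schur multiplier is described through stem extensions, as in the definitions). -/
theorem result : Cfsg.HasCyclicSchurMultiplier Cfsg.Lie.TitsGroup 1 := by
  let e : Cfsg.Lie.TitsGroup ≃* ↥Cfsg.Agent.Lib.TitsPar.T := Cfsg.Agent.Lib.TitsBridge.eT
  have : Finite Cfsg.Lie.TitsGroup := Finite.of_equiv _ e.symm.toEquiv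
  refine Cfsg.Agent.Lib.SchurStem.hasCyclicSchurMultiplier_one _ ?_
  intro Γ _ _ σ hσ
  have hk : (e.toMonoidHom.comp σ).ker = σ.ker := by
    ext x
    simp [MonoidHom.mem_ker]
  have hσ' : IsStemExtension (e.toMonoidHom.comp σ) := by
    obtain ⟨h1, h2, h3⟩ := hσ
    refine ⟨e.surjective.comp h1, ?_, ?_⟩
    · rw [hk]; exact h2
    · rw [hk]; exact h3
  rw [← hk]
  exact Cfsg.Agent.Lib.TitsMUp.ker_bot _ hσ'

end Cfsg.Agent.S2115
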