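import Mathlib
-- Template for statement S2121 (row 2121; see /opt/grader/pristine/manifest.json for weights).
-- Copy to Cfsg/Agent/S2121.lean and replace the sorry. The statement below is byte-identical to the frozen
-- statement Cfsg.CfsgFrozen.S2121 (Cfsg/Statements/S2121.lean; the theorem Cfsg.kfact_outer_automorphisms_g2);
-- the grader kernel-checks Cfsg.Agent.S2121.result against that frozen type. Keep the theorem IN THIS FILE
-- (a `result` declared elsewhere and merely imported here is not credited); helpers may live anywhere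
-- under Cfsg/Agent/.
import Cfsg.Statements.S2121
import Cfsg.Agent.Lib.ChevAut.OutExo
-- import your own Cfsg.Agent.* helpers here

set_option autoImplicit false
open Cfsg

namespace Cfsg.Agent.S2121

/-- Outer automorphisms of the Chevalley groups of type G₂: over a field with q = p^f (p prime) ≥ 3 elements, the outer automorphism group of G₂(q) has order f when p ≠ 3 and 2f when p = 3 (field automorphisms, and in characteristic 3 also the exceptional graph automorphism). -/
theorem result {F : Type*} [Field F] [Fintype F] (p f : ℕ) [Fact p.Prime] [CharP F p] (hF : Fintype.card F = p ^ f) (hq : 3 ≤ p ^ f) : Nat.card (Cfsg.Out ↥(Cfsg.Lie.chevG2.group F)) = (if p = 3 then 2 * f else f) := by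
  have hFl : Cfsg.Agent.Lib.Chev.Full _ _ _ Cfsg.Lie.chevG2 :=
    ⟨Cfsg.Agent.Lib.Chev.RelG2.checks, Cfsg.Agent.Lib.Chev.RootG2.checks⟩
  by_cases hp : p = 3
  · subst hp
    have h := Cfsg.Agent.Lib.ChevAut.card_out_of_RS hFl (F := F) Cfsg.Agent.Lib.ChevAut.diagFacts_G2 (by decide +kernel) hF
      (Cfsg.Agent.Lib.ChevAut.card_RS_two hFl (by decide +kernel) Cfsg.Agent.Lib.ChevAut.perm_G2
        (Cfsg.Agent.Lib.ChevAut.swG2_mem_RS hFl))
      (Cfsg.Agent.Lib.Chev.Full.torus_card_G2 hFl)
    simpa using h
  · have h2 : (3 : F) ≠ 0 := by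
      intro h
      have h3 : ((3 : ℕ) : F) = 0 := by exact_mod_cast h
      rw [CharP.cast_eq_zero_iff F p] at h3
      exact hp ((Nat.prime_dvd_prime_iff_eq Fact.out Nat.prime_three).1 h3)
    have hq' : 3 ≤ Nat.card F := by
      rw [Nat.card_eq_fintype_card, hF]
      exact hq
    have h := Cfsg.Agent.Lib.ChevAut.card_out_of_RS hFl (F := F) Cfsg.Agent.Lib.ChevAut.diagFacts_G2 (by decide +kernel) hF
      (Cfsg.Agent.Lib.ChevAut.card_RS_one' hFl Cfsg.Agent.Lib.ChevAut.perm_G2
        (Cfsg.Agent.Lib.ChevAut.swG2_not_mem_RS hFl h2 hq'))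
      (Cfsg.Agent.Lib.Chev.Full.torus_card_G2 hFl)
    rw [if_neg hp]
    simpa using h

end Cfsg.Agent.S2121
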