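import Mathlib
-- Template for statement S2122 (row 2122; see /opt/grader/pristine/manifest.json for weights).
-- Copy to Cfsg/Agent/S2122.lean and replace the sorry. The statement below is byte-identical to the frozen
-- statement Cfsg.CfsgFrozen.S2122 (Cfsg/Statements/S2122.lean; the theorem Cfsg.kfact_outer_automorphisms_f4);
-- the grader kernel-checks Cfsg.Agent.S2122.result against that frozen type. Keep the theorem IN THIS FILE
-- (a `result` declared elsewhere and merely imported here is not credited); helpers may live anywhere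
-- under Cfsg/Agent/.
import Cfsg.Statements.S2122
import Cfsg.Agent.Lib.ChevAut.OutExo
-- import your own Cfsg.Agent.* helpers here

set_option autoImplicit false
open Cfsg

namespace Cfsg.Agent.S2122

/-- Outer automorphisms of the Chevalley groups of type F₄: over a field with q = p^f (p prime) elements, the outer automorphism group of F₄(q) has order gcd(2, p) · f (field automorphisms, and in characteristic 2 also the exceptional graph automorphism). -/
theorem result {F : Type*} [Field F] [Fintype F] (p f : ℕ) [Fact p.Prime] [CharP F p] (hF : Fintype.card F = p ^ f) : Nat.card (Cfsg.Out ↥(Cfsg.Lie.chevF4.group F)) = Nat.gcd 2 p * f := by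
  have hFl : Cfsg.Agent.Lib.Chev.Full _ _ _ Cfsg.Lie.chevF4 :=
    ⟨Cfsg.Agent.Lib.Chev.RelF4.checks, Cfsg.Agent.Lib.Chev.RootF4.checks⟩
  by_cases hp : p = 2
  · subst hp
    have h := Cfsg.Agent.Lib.ChevAut.card_out_of_RS hFl (F := F) Cfsg.Agent.Lib.ChevAut.diagFacts_F4 (by decide +kernel) hF
      (Cfsg.Agent.Lib.ChevAut.card_RS_two hFl (by decide +kernel) Cfsg.Agent.Lib.ChevAut.perm_F4
        (Cfsg.Agent.Lib.ChevAut.swF4_mem_RS hFl))
      (Cfsg.Agent.Lib.Chev.Full.torus_card_F4 hFl)
    simpa using h
  · have h2 : (2 : F) ≠ 0 := by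
      intro h
      have h3 : ((2 : ℕ) : F) = 0 := by exact_mod_cast h
      rw [CharP.cast_eq_zero_iff F p] at h3
      exact hp ((Nat.prime_dvd_prime_iff_eq Fact.out Nat.prime_two).1 h3)
    have h := Cfsg.Agent.Lib.ChevAut.card_out_of_RS hFl (F := F) Cfsg.Agent.Lib.ChevAut.diagFacts_F4 (by decide +kernel) hF
      (Cfsg.Agent.Lib.ChevAut.card_RS_one' hFl Cfsg.Agent.Lib.ChevAut.perm_F4
        (Cfsg.Agent.Lib.ChevAut.swF4_not_mem_RS hFl h2))
      (Cfsg.Agent.Lib.Chev.Full.torus_card_F4 hFl)
    have hg : Nat.gcd 2 p = 1 := (Nat.coprime_primes Nat.prime_two Fact.out).2 (Ne.symm hp)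
    rw [hg]
    simpa using h

end Cfsg.Agent.S2122
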