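import Mathlib
-- Template for statement S2123 (row 2123; see /opt/grader/pristine/manifest.json for weights).
-- Copy to Cfsg/Agent/S2123.lean and replace the sorry. The statement below is byte-identical to the frozen
-- statement Cfsg.CfsgFrozen.S2123 (Cfsg/Statements/S2123.lean; the theorem Cfsg.kfact_outer_automorphisms_e6);
-- the grader kernel-checks Cfsg.Agent.S2123.result against that frozen type. Keep the theorem IN THIS FILE
-- (a `result` declared elsewhere and merely imported here is not credited); helpers may live anywhere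
-- under Cfsg/Agent/.
import Cfsg.Statements.S2123
import Cfsg.Agent.Lib.ChevAut.Final
import Cfsg.Agent.S1081
-- import your own Cfsg.Agent.* helpers here

set_option autoImplicit false
open Cfsg

namespace Cfsg.Agent.S2123

/-- Outer automorphisms of the (adjoint, simple) Chevalley groups of type E₆: over a field with q = p^f (p prime) elements, the outer automorphism group of E₆(q) has order 2 · gcd(3, q − 1) · f (diagonal, field and graph automorphisms). -/
theorem result {F : Type*} [Field F] [Fintype F] (p f : ℕ) [Fact p.Prime] [CharP F p] (hF : Fintype.card F = p ^ f) : Nat.card (Cfsg.Out ↥(Cfsg.Lie.chevE6.group F)) = 2 * Nat.gcd 3 (p ^ f - 1) * f := by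
  have hFl : Cfsg.Agent.Lib.Chev.Full _ _ _ Cfsg.Lie.chevE6 :=
    ⟨Cfsg.Agent.Lib.Chev.RelE6.checks, Cfsg.Agent.Lib.Chev.RootE6.checks⟩
  obtain ⟨α, hα⟩ := Cfsg.Agent.S1081.result (F := F) (Cfsg.Lie.chevE6, [5, 1, 4, 3, 2, 0]) (by simp)
  have hsw : Cfsg.Agent.Lib.ChevAut.swE6 ∈ Cfsg.Agent.Lib.ChevAut.RS hFl F := by
    refine Cfsg.Agent.Lib.ChevAut.mem_RS_of_param hFl Cfsg.Agent.Lib.ChevAut.diagFacts_E6 (α := α)
      (fun _ t => t) (fun _ t => t) (fun _ => Function.surjective_id) (fun _ => Function.surjective_id) ?_ ?_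
    · intro i t
      apply Subtype.ext
      apply Units.ext
      exact (hα _ i t i.2).1 rfl
    · intro i t
      apply Subtype.ext
      apply Units.ext
      exact (hα _ i t i.2).2 rfl
  have h := Cfsg.Agent.Lib.ChevAut.card_out_of_RS hFl (F := F) Cfsg.Agent.Lib.ChevAut.diagFacts_E6 (by decide +kernel) hF
    (Cfsg.Agent.Lib.ChevAut.card_RS_E6 hFl hsw)
    (Cfsg.Agent.Lib.Chev.Full.torus_card_E6 hFl)
  rw [hF] at h
  simpa using h

end Cfsg.Agent.S2123
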