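import Mathlib
-- Template for statement S2124 (row 2124; see /opt/grader/pristine/manifest.json for weights).
-- Copy to Cfsg/Agent/S2124.lean and replace the sorry. The statement below is byte-identical to the frozen
-- statement Cfsg.CfsgFrozen.S2124 (Cfsg/Statements/S2124.lean; the theorem Cfsg.kfact_outer_automorphisms_e7);
-- the grader kernel-checks Cfsg.Agent.S2124.result against that frozen type. Keep the theorem IN THIS FILE
-- (a `result` declared elsewhere and merely imported here is not credited); helpers may live anywhere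
-- under Cfsg/Agent/.
import Cfsg.Statements.S2124
import Cfsg.Agent.Lib.ChevAut.Final
-- import your own Cfsg.Agent.* helpers here

set_option autoImplicit false
open Cfsg

namespace Cfsg.Agent.S2124

/-- Outer automorphisms of the (adjoint, simple) Chevalley groups of type E₇: over a field with q = p^f (p prime) elements, the outer automorphism group of E₇(q) has order gcd(2, q − 1) · f (diagonal and field automorphisms). -/
theorem result {F : Type*} [Field F] [Fintype F] (p f : ℕ) [Fact p.Prime] [CharP F p] (hF : Fintype.card F = p ^ f) : Nat.card (Cfsg.Out ↥(Cfsg.Lie.chevE7.group F)) = Nat.gcd 2 (p ^ f - 1) * f := by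
  have hFl : Cfsg.Agent.Lib.Chev.Full _ _ _ Cfsg.Lie.chevE7 :=
    ⟨Cfsg.Agent.Lib.Chev.RelE7.checks, Cfsg.Agent.Lib.Chev.RootE7.checks⟩
  have h := Cfsg.Agent.Lib.ChevAut.card_out_of_RS hFl (F := F) Cfsg.Agent.Lib.ChevAut.diagFacts_E7 (by decide +kernel) hF
    (Cfsg.Agent.Lib.ChevAut.card_RS_one hFl (fun ρ hρ =>
      Cfsg.Agent.Lib.ChevAut.perm_eq_one_of_walk _ ρ (Cfsg.Agent.Lib.ChevAut.adjM_perm ρ hρ) 5 Cfsg.Agent.Lib.ChevAut.walk_E7))
    (Cfsg.Agent.Lib.Chev.Full.torus_card_E7 hFl)
  rw [hF] at h
  simpa using h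

end Cfsg.Agent.S2124
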