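import Mathlib
-- Template for statement S2125 (row 2125; see /opt/grader/pristine/manifest.json for weights).
-- Copy to Cfsg/Agent/S2125.lean and replace the sorry. The statement below is byte-identical to the frozen
-- statement Cfsg.CfsgFrozen.S2125 (Cfsg/Statements/S2125.lean; the theorem Cfsg.kfact_outer_automorphisms_e8);
-- the grader kernel-checks Cfsg.Agent.S2125.result against that frozen type. Keep the theorem IN THIS FILE
-- (a `result` declared elsewhere and merely imported here is not credited); helpers may live anywhere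
-- under Cfsg/Agent/.
import Cfsg.Statements.S2125
import Cfsg.Agent.Lib.ChevAut.Final
-- import your own Cfsg.Agent.* helpers here

set_option autoImplicit false
open Cfsg

namespace Cfsg.Agent.S2125

/-- Outer automorphisms of the Chevalley groups of type E₈: over a field with p^f elements, p prime, the outer automorphism group of E₈(p^f) has order f (field automorphisms only). -/
theorem result {F : Type*} [Field F] [Fintype F] (p f : ℕ) [Fact p.Prime] [CharP F p] (hF : Fintype.card F = p ^ f) : Nat.card (Cfsg.Out ↥(Cfsg.Lie.chevE8.group F)) = f := by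
  have hFl : Cfsg.Agent.Lib.Chev.Full _ _ _ Cfsg.Lie.chevE8 :=
    ⟨Cfsg.Agent.Lib.Chev.RelE8.checks, Cfsg.Agent.Lib.Chev.RootE8.checks⟩
  have h := Cfsg.Agent.Lib.ChevAut.card_out_of_RS hFl (F := F) Cfsg.Agent.Lib.ChevAut.diagFacts_E8 (by decide +kernel) hF
    (Cfsg.Agent.Lib.ChevAut.card_RS_one hFl (fun ρ hρ =>
      Cfsg.Agent.Lib.ChevAut.perm_eq_one_of_walk _ ρ (Cfsg.Agent.Lib.ChevAut.adjM_perm ρ hρ) 3 Cfsg.Agent.Lib.ChevAut.walk_E8))
    (Cfsg.Agent.Lib.Chev.Full.torus_card_E8 hFl)
  simpa using h

end Cfsg.Agent.S2125
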