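import Mathlib
import Cfsg.Statements.S2126
import Cfsg.Agent.Lib.SzAut
import Cfsg.Agent.Lib.SuzukiIso

set_option autoImplicit false
open Cfsg

namespace Cfsg.Agent.S2126

/-- Outer automorphisms of the Suzuki groups: for q = 2^(2m+1) with m ≥ 1 the outer automorphism group of Sz(q) has order 2m + 1 (field automorphisms only). -/
theorem result {F : Type*} [Field F] [Fintype F] {m : ℕ} (hm : 1 ≤ m) (hF : Fintype.card F = 2 ^ (2 * m + 1)) : Nat.card (Cfsg.Out ↥(Cfsg.Lie.Sz F (2 ^ (m + 1)))) = 2 * m + 1 := by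
  haveI : Cfsg.Agent.Lib.Suzuki.SzHyp F m := ⟨hm, hF⟩
  haveI : CharP F 2 := Cfsg.Agent.Lib.Suzuki.charP_two F m
  let e := Cfsg.Agent.Lib.SuzukiIso.szEquiv (F := F) (m := m)
  rw [← Cfsg.Agent.Lib.SzTorus.card_out (F := F) (m := m)]
  have hinn : (Cfsg.Inn ↥(Cfsg.Sz F m)).map (MulAut.congr e).toMonoidHom =
      Cfsg.Inn ↥(Cfsg.Lie.Sz F (2 ^ (m + 1))) := by
    apply le_antisymm
    · rintro _ ⟨_, ⟨a, rfl⟩, rfl⟩
      refine ⟨e a, ?_⟩
      ext b
      simp [MulAut.congr]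
    · rintro _ ⟨b, rfl⟩
      refine ⟨MulAut.conj (e.symm b), ⟨_, rfl⟩, ?_⟩
      ext c
      simp [MulAut.congr]
  exact Nat.card_congr (QuotientGroup.congr _ _ (MulAut.congr e) hinn).toEquiv.symm

end Cfsg.Agent.S2126
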