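import Mathlib
-- Template for statement S2127 (row 2127; see /opt/grader/pristine/manifest.json for weights).
-- Copy to Cfsg/Agent/S2127.lean and replace the sorry. The statement below is byte-identical to the frozen
-- statement Cfsg.CfsgFrozen.S2127 (Cfsg/Statements/S2127.lean; the theorem Cfsg.kfact_outer_automorphisms_ree);
-- the grader kernel-checks Cfsg.Agent.S2127.result against that frozen type. Keep the theorem IN THIS FILE
-- (a `result` declared elsewhere and merely imported here is not credited); helpers may live anywhere
-- under Cfsg/Agent/.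
import Cfsg.Statements.S2127
import Cfsg.Agent.Lib.Chev.TwG2Out

set_option autoImplicit false
open Cfsg

namespace Cfsg.Agent.S2127

/-- Outer automorphisms of the small Ree groups: for q = 3^(2m+1) with m ≥ 1 the outer automorphism group of ²G₂(q) has order 2m + 1 (field automorphisms only). -/
theorem result {K : Type*} [Field K] [Fintype K] {m : ℕ} (hm : 1 ≤ m) (hK : Fintype.card K = 3 ^ (2 * m + 1)) : Nat.card (Cfsg.Out ↥(Cfsg.Lie.twistedG2 K (3 ^ m))) = 2 * m + 1 := by
  exact Cfsg.Agent.Lib.Chev.TwG2.main_S2127 hm hK

end Cfsg.Agent.S2127
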