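import Cfsg.Statements.S2136
import Cfsg.Agent.Lib.CoTwo5

set_option autoImplicit false
open Cfsg

namespace Cfsg.Agent.S2136

open Cfsg.Agent.Lib.CoTwo1 Cfsg.Agent.Lib.CoTwo2 Cfsg.Agent.Lib.CoTwo5

theorem fix_t2 : (t2 : Equiv.Perm Cfsg.leechLattice) ∈ MulAction.stabilizer (Equiv.Perm Cfsg.leechLattice) Cfsg.Spor.leechU :=
  MulAction.mem_stabilizer_iff.2 t2_mem.2

/-- The involution. -/
noncomputable def tt : ↥Cfsg.Spor.Co2 := ⟨(t2 : Equiv.Perm Cfsg.leechLattice), ⟨t2.2, fix_t2⟩⟩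

theorem co2_X {x : ↥Cfsg.Spor.Co2} (hx : x ∈ Subgroup.centralizer ({tt} : Set ↥Cfsg.Spor.Co2)) :
    (⟨(x : Equiv.Perm Cfsg.leechLattice), x.2.1⟩ : ↥Cfsg.Co0) ∈ X := by
  constructor
  · have h := Subgroup.mem_centralizer_singleton_iff.1 hx
    apply Subtype.ext
    exact congrArg (fun y : ↥Cfsg.Spor.Co2 => (y : Equiv.Perm Cfsg.leechLattice)) h
  · exact MulAction.mem_stabilizer_iff.1 x.2.2

theorem X_co2 {g : ↥Cfsg.Co0} (hg : g ∈ X) :
    (g : Equiv.Perm Cfsg.leechLattice) ∈ Cfsg.Spor.Co2 := ⟨g.2, MulAction.mem_stabilizer_iff.2 hg.2⟩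

theorem X_cent {g : ↥Cfsg.Co0} (hg : g ∈ X) :
    (⟨(g : Equiv.Perm Cfsg.leechLattice), X_co2 hg⟩ : ↥Cfsg.Spor.Co2) ∈ Subgroup.centralizer ({tt} : Set ↥Cfsg.Spor.Co2) := by
  apply Subgroup.mem_centralizer_singleton_iff.2
  apply Subtype.ext
  exact congrArg (fun y : ↥Cfsg.Co0 => (y : Equiv.Perm Cfsg.leechLattice)) hg.1

/-- The centralizer in the two forms. -/
noncomputable def eqv : ↥(Subgroup.centralizer ({tt} : Set ↥Cfsg.Spor.Co2)) ≃* ↥X where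
  toFun x := ⟨⟨((x : ↥Cfsg.Spor.Co2) : Equiv.Perm Cfsg.leechLattice), (x : ↥Cfsg.Spor.Co2).2.1⟩, co2_X x.2⟩
  invFun g := ⟨⟨((g : ↥Cfsg.Co0) : Equiv.Perm Cfsg.leechLattice), X_co2 g.2⟩, X_cent g.2⟩
  left_inv _ := rfl
  right_inv _ := rfl
  map_mul' _ _ := rfl

theorem tt_order : orderOf tt = 2 := by
  apply orderOf_eq_prime
  · apply Subtype.ext
    have h := congrArg (fun y : ↥X => (((y : ↥Cfsg.Co0)) : Equiv.Perm Cfsg.leechLattice)) tX_sq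
    exact h
  · intro h
    apply tX_ne
    apply Subtype.ext
    apply Subtype.ext
    exact congrArg (fun y : ↥Cfsg.Spor.Co2 => (y : Equiv.Perm Cfsg.leechLattice)) h

/-- The Conway group Co₂ (the stabiliser of a minimal vector of the rank-24 lattice) has an involution whose centraliser C has largest normal 2-subgroup extraspecial of order 2^9 with quotient C / O₂(C) isomorphic to the symplectic group Sp(6, 2) (shape 2^{1+8}Sp(6, 2)). -/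
theorem result : ∃ t : ↥Cfsg.Spor.Co2, orderOf t = 2 ∧ Cfsg.IsExtraspecial 2 (Cfsg.pCore 2 ↥(Subgroup.centralizer ({t} : Set ↥Cfsg.Spor.Co2))) ∧ Nat.card (Cfsg.pCore 2 ↥(Subgroup.centralizer ({t} : Set ↥Cfsg.Spor.Co2))) = 2 ^ 9 ∧ Nonempty (↥(Subgroup.centralizer ({t} : Set ↥Cfsg.Spor.Co2)) ⧸ Cfsg.pCore 2 ↥(Subgroup.centralizer ({t} : Set ↥Cfsg.Spor.Co2)) ≃* Matrix.symplecticGroup (Fin 3) (ZMod 2)) := by
  obtain ⟨h1, h2, h3⟩ := final eqv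
  exact ⟨tt, tt_order, h1, h2, h3⟩

end Cfsg.Agent.S2136
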