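import Mathlib
import Cfsg.Statements.S2140
import Cfsg.Agent.Lib.MinIdxA

set_option autoImplicit false
open Cfsg

namespace Cfsg.Agent.S2140

open Cfsg.Agent.Lib.MinIdxA Cfsg.Agent.Lib.SLMinB Cfsg.Agent.Lib.SLMinC Cfsg.Agent.Lib.PermDeg
open scoped MatrixGroups LinearAlgebra.Projectivization

lemma div_eq {q : ℕ} (hq : 2 ≤ q) (k : ℕ) : (q ^ (k + 1) - 1) / (q - 1) = tgt q k + 1 := by
  have h1 := tgt_mul (q := q) (by omega) k
  have h2 : q ^ (k + 1) - 1 = (q - 1) * (tgt q k + 1) := by
    rw [← h1, mul_add, mul_one]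
    omega
  rw [h2, Nat.mul_div_cancel_left _ (by omega)]

/-- The bound in `SL`. -/
lemma index_bound {F : Type*} [Field F] [Fintype F] [DecidableEq F] (k' : ℕ) (hk : 1 ≤ k')
    (hexc : ¬ (k' = 2 ∧ Fintype.card F = 2)) (K : Subgroup SL(k' + 1 + 1, F)) (hK : K ≠ ⊤) :
    tgt (Fintype.card F) (k' + 1) + 1 ≤ K.index := by
  by_cases hne : NE k' (Fintype.card F)
  · exact add_one_le_index (fun d ρ hρ hnt => main_thm k' hk hne d ρ hρ hnt) K hK
  · unfold NE at hne
    rw [not_and_or] at hne
    simp only [not_not] at hne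
    rcases hne with ⟨rfl, h | h⟩ | ⟨rfl, h | h⟩
    · have := case_two h K hK
      rw [h]
      simpa [tgt, Finset.sum_range_succ] using this
    · have := case_four h K hK
      rw [h]
      simpa [tgt, Finset.sum_range_succ] using this
    · exact absurd ⟨rfl, h⟩ hexc
    · have := case_three h K hK
      rw [h]
      simpa [tgt, Finset.sum_range_succ] using this

/-- Minimal index of a proper subgroup of the linear groups: for n ≥ 3 and a field F with q elements, (n, q) ≠ (4, 2), every proper subgroup of PSL_n(F) has index at least (q^n − 1)/(q − 1), and some subgroup has exactly that index (the stabiliser of a point of the projective space). -/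
theorem result {F : Type*} [Field F] [Fintype F] {q : ℕ} (hF : Fintype.card F = q) (n : ℕ) (hn : 3 ≤ n) (hexc : ¬ (n = 4 ∧ q = 2)) : (∀ H : Subgroup (Matrix.ProjectiveSpecialLinearGroup (Fin n) F), H ≠ ⊤ → (q ^ n - 1) / (q - 1) ≤ H.index) ∧ (∃ H : Subgroup (Matrix.ProjectiveSpecialLinearGroup (Fin n) F), H.index = (q ^ n - 1) / (q - 1)) := by
  classical
  subst hF
  have hq : 2 ≤ Fintype.card F := Fintype.one_lt_card
  obtain ⟨k', rfl⟩ : ∃ k', n = k' + 1 + 1 := ⟨n - 2, by omega⟩
  constructor
  · intro H hH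
    let π : SL(k' + 1 + 1, F) →* Matrix.ProjectiveSpecialLinearGroup (Fin (k' + 1 + 1)) F :=
      QuotientGroup.mk' _
    have hπ : Function.Surjective π := QuotientGroup.mk'_surjective _
    have h1 : (H.comap π).index = H.index := Subgroup.index_comap_of_surjective H hπ
    have h2 : H.comap π ≠ ⊤ := by
      intro h0
      apply hH
      rw [eq_top_iff]
      intro x _
      obtain ⟨y, rfl⟩ := hπ x
      have : y ∈ H.comap π := by rw [h0]; exact Subgroup.mem_top y
      exact this
    rw [← h1, div_eq hq]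
    exact index_bound k' (by omega) (by
      rintro ⟨rfl, h⟩
      exact hexc ⟨rfl, h⟩) _ h2
  · let v : Fin (k' + 1 + 1) → F := Pi.single 0 1
    have hv : v ≠ 0 := by
      intro h0
      have := congrFun h0 0
      simp [v] at this
    let p : ℙ F (Fin (k' + 1 + 1) → F) := Projectivization.mk F v hv
    refine ⟨MulAction.stabilizer _ p, ?_⟩
    rw [MulAction.index_stabilizer_of_transitive]
    have h := Projectivization.card'' F (Fin (k' + 1 + 1) → F)
    rw [h]
    simp [Nat.card_eq_fintype_card]

end Cfsg.Agent.S2140
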