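import Mathlib
import Cfsg.Agent.Lib.SpIdxN
import Cfsg.Agent.Lib.SpCenter
import Cfsg.Statements.S2141

set_option autoImplicit false
open Cfsg

namespace Cfsg.Agent.S2141

open Cfsg.Agent.Lib.SpIdx Cfsg.Agent.Lib.SpBasic

/-- Minimal index of a proper subgroup of the symplectic groups over fields with at least 3 elements: for m ≥ 2 and a field F with q ≥ 3 elements, (m, q) ≠ (2, 3), every proper subgroup of PSp_2m(F) has index at least (q^(2m) − 1)/(q − 1), and that index is attained. -/
theorem result {F : Type*} [Field F] [Fintype F] {q : ℕ} (hF : Fintype.card F = q) (m : ℕ) (hm : 2 ≤ m) (hq : 3 ≤ q) (hexc : ¬ (m = 2 ∧ q = 3)) : (∀ H : Subgroup (Cfsg.PSp m F), H ≠ ⊤ → (q ^ (2 * m) - 1) / (q - 1) ≤ H.index) ∧ (∃ H : Subgroup (Cfsg.PSp m F), H.index = (q ^ (2 * m) - 1) / (q - 1)) := by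
  classical
  subst hF
  have hl : Fintype.card (Fin m) = m := Fintype.card_fin m
  constructor
  · intro H hH
    let π : Sp (Fin m) F →* Cfsg.PSp m F := QuotientGroup.mk' _
    have hπ : Function.Surjective π := QuotientGroup.mk'_surjective _
    have h1 : (H.comap π).index = H.index := Subgroup.index_comap_of_surjective H hπ
    have h2 : H.comap π ≠ ⊤ := by
      intro h0
      apply hH
      rw [eq_top_iff]
      intro x _
      obtain ⟨y, rfl⟩ := hπ x
      have : y ∈ H.comap π := by rw [h0]; exact Subgroup.mem_top y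
      exact this
    have h3 : Good (H.comap π) := index_ge_main hq (by rw [hl]; exact hm) (by rw [hl]; exact hexc) h2
    unfold Good at h3
    rw [hl] at h3
    rw [← h1]
    exact Nat.div_le_of_le_mul (by rw [Nat.mul_comm (Fintype.card F - 1)]; exact h3)
  · have : Nonempty (Fin m) := ⟨⟨0, by omega⟩⟩
    obtain ⟨i⟩ := this
    let x : Fin m ⊕ Fin m → F := fun _ => 1
    have hx : x ≠ 0 := by
      intro h
      have := congrFun h (Sum.inl i)
      exact one_ne_zero this
    have hc : Subgroup.center (Sp (Fin m) F) ≤ Pt x hx := by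
      intro z hz
      haveI : Nonempty (Fin m) := ⟨i⟩
      obtain ⟨a, ha⟩ := Cfsg.Agent.Lib.SpCenter.forall_scalar_of_mem_center hz x
      exact ⟨a, ha⟩
    refine ⟨(Pt x hx).map (QuotientGroup.mk' _), ?_⟩
    rw [← Subgroup.index_comap_of_surjective _ (QuotientGroup.mk'_surjective _),
      Subgroup.comap_map_eq, QuotientGroup.ker_mk', sup_eq_left.mpr hc]
    have h := mul_index_Pt (l := Fin m) hx
    rw [hl] at h
    have h5 : Fintype.card F ^ (2 * m) - 1 = (Fintype.card F - 1) * (Pt x hx).index := by omega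
    rw [h5, Nat.mul_div_cancel_left _ (by omega)]

end Cfsg.Agent.S2141
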