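import Mathlib
import Cfsg.Statements.S2142
import Cfsg.Agent.Lib.SpTwoIdxD
import Cfsg.Agent.Lib.SpCenter

set_option autoImplicit false
open Cfsg

namespace Cfsg.Agent.S2142

open Cfsg.Agent.Lib.SpTwoIdx Cfsg.Agent.Lib.SpBasic

variable {F : Type*} [Field F] [Fintype F]

/-- The bound in `Sp`. -/
lemma index_bound (hF : Fintype.card F = 2) (m : ℕ) (hm : 3 ≤ m) (K : Subgroup (Sp (Fin m) F)) (hK : K ≠ ⊤) :
    tgt m ≤ K.index := by
  classical
  have hl : Fintype.card (Fin m) = m := Fintype.card_fin m
  have ht := tgt_mul (m := m) (by omega)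
  have hcV := card_V (l := Fin m) hF
  rw [hl] at hcV
  by_cases hS : Cfsg.Agent.Lib.SpTwoIdx.Star K
  · have hQ : ∀ x y : Fin m ⊕ Fin m → F, Qf K (x + y) = Qf K x + Qf K y + ω x y :=
      Qf_add (hF := hF) hS hK (by omega)
    have h1 : K ≤ St (Qf K) := fun k hk x => Qf_smul hk x
    have h2 : (St (Qf K)).index ≤ K.index :=
      Nat.le_of_dvd (Nat.pos_of_ne_zero (Subgroup.index_ne_zero_of_finite)) (Subgroup.index_dvd_of_le h1)
    rw [index_St hF hQ] at h2
    have h3 := n0_eq hF hQ
    rw [hl] at h3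
    refine le_trans ?_ h2
    have h4 : (0 : ℕ) < 2 ^ m := by positivity
    rcases h3 with h3 | h3 <;> omega
  · unfold Cfsg.Agent.Lib.SpTwoIdx.Star at hS
    push Not at hS
    obtain ⟨v, u₀, hv, hu₀, hn⟩ := hS
    have h1 := index_ge_W hF hv hu₀ hn
    have hv0 : v ≠ 0 := by
      rintro rfl
      apply hv
      rw [T_zero_left]
      exact K.one_mem
    have h2 := card_W hF hv0
    rw [Nat.card_eq_fintype_card (α := Fin m ⊕ Fin m → F), hcV] at h2
    refine le_trans ?_ h1
    have h4 : (0 : ℕ) < 2 ^ m := by positivity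
    omega

/-- Minimal index of a proper subgroup of the symplectic groups over the field with 2 elements: for m ≥ 3, every proper subgroup of Sp_2m(2) has index at least 2^(m−1)(2^m − 1), and that index is attained. -/
theorem result {F : Type*} [Field F] [Fintype F] (hF : Fintype.card F = 2) (m : ℕ) (hm : 3 ≤ m) : (∀ H : Subgroup (Cfsg.PSp m F), H ≠ ⊤ → 2 ^ (m - 1) * (2 ^ m - 1) ≤ H.index) ∧ (∃ H : Subgroup (Cfsg.PSp m F), H.index = 2 ^ (m - 1) * (2 ^ m - 1)) := by
  classical
  constructor
  · intro H hH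
    let π : Sp (Fin m) F →* Cfsg.PSp m F := QuotientGroup.mk' _
    have hπ : Function.Surjective π := QuotientGroup.mk'_surjective _
    have h1 : (H.comap π).index = H.index := Subgroup.index_comap_of_surjective H hπ
    have h2 : H.comap π ≠ ⊤ := by
      intro h0
      apply hH
      rw [eq_top_iff]
      intro x _
      obtain ⟨y, rfl⟩ := hπ x
      have : y ∈ H.comap π := by rw [h0]; exact Subgroup.mem_top y
      exact this
    rw [← h1]
    exact index_bound hF m hm _ h2
  · obtain ⟨Q, hQ, hn⟩ := exists_form (l := Fin m) hF (m := m) (by omega) (Fintype.card_fin m)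
    have hc : Subgroup.center (Sp (Fin m) F) ≤ St Q := by
      intro z hz x
      by_cases hx : x = 0
      · rw [hx, smul_zero]
      obtain ⟨a, ha⟩ := Cfsg.Agent.Lib.SpCenter.forall_scalar_of_mem_center hz x
      rcases zero_or_one hF a with rfl | rfl
      · rw [zero_smul] at ha
        exact absurd ((smul_eq_zero_iff_eq z).1 ha) hx
      · rw [one_smul] at ha
        rw [ha]
    refine ⟨(St Q).map (QuotientGroup.mk' _), ?_⟩
    rw [← Subgroup.index_comap_of_surjective _ (QuotientGroup.mk'_surjective _), Subgroup.comap_map_eq,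
      QuotientGroup.ker_mk', sup_eq_left.2 hc, index_St hF hQ, hn]
    rfl

end Cfsg.Agent.S2142
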