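import Mathlib
import Cfsg.Statements.S2143
import Cfsg.Agent.Lib.OmIdxL

set_option autoImplicit false
open Cfsg

namespace Cfsg.Agent.S2143

open Module QuadraticMap Cfsg.Agent.Lib.OrthoBasic Cfsg.Agent.Lib.OrthoSiegel Cfsg.Agent.Lib.OrthoGen Cfsg.Agent.Lib.OmIdx Cfsg.Agent.Lib.OrthoCount Cfsg.Agent.Lib.OrthoOrder Cfsg.Agent.Lib.OrthoFinal

/-- Minimal index of a proper subgroup of the odd-dimensional orthogonal groups: for m ≥ 3 and a field F with q elements, q odd and q ≥ 5, every proper subgroup of PΩ_(2m+1)(F) (for the form x₀² + Σ xᵢyᵢ) has index at least (q^(2m) − 1)/(q − 1), and that index is attained. -/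
theorem result {F : Type*} [Field F] [Fintype F] {q : ℕ} (hF : Fintype.card F = q) (hodd : Odd q) (h5 : 5 ≤ q) (m : ℕ) (hm : 3 ≤ m) : (∀ H : Subgroup (Cfsg.POmega F (Cfsg.quadFormOdd m F)), H ≠ ⊤ → (q ^ (2 * m) - 1) / (q - 1) ≤ H.index) ∧ (∃ H : Subgroup (Cfsg.POmega F (Cfsg.quadFormOdd m F)), H.index = (q ^ (2 * m) - 1) / (q - 1)) := by
  classical
  subst hF
  have hodd' : Odd (Fintype.card F) := hodd
  set q := Fintype.card F with hq
  obtain ⟨m', rfl⟩ : ∃ m', m = m' + 2 := ⟨m - 2, by omega⟩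
  have hQ := nondeg_qOdd hodd' (m' + 2)
  have hgen := genR_qOdd hodd' (m' + 2)
  obtain ⟨fr⟩ := frameOdd hodd' m'
  have hdim : finrank F (Unit ⊕ (Fin (m' + 2) ⊕ Fin (m' + 2)) → F) = 2 * (m' + 2) + 1 := by
    rw [Module.finrank_fintype_fun_eq_card]
    simp
    ring
  set C := q ^ (m' + 2) with hC
  have hA : q ^ (2 * (m' + 2)) = C * C := by rw [hC]; ring
  set B := q ^ (2 * (m' + 2) - 2) with hB
  have hAB : C * C = q * q * B := by
    rw [hC, hB]
    have : 2 * (m' + 2) - 2 = 2 * m' + 2 := by omega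
    rw [this]
    ring
  rw [hA]
  have hCq : 5 ≤ C := by
    calc 5 ≤ q := h5
      _ = q ^ 1 := (pow_one q).symm
      _ ≤ q ^ (m' + 2) := Nat.pow_le_pow_right (by omega) (by omega)
  have hdvd : q - 1 ∣ C * C - 1 := by
    rw [← hA]
    simpa using Nat.sub_dvd_pow_sub_pow q 1 (2 * (m' + 2))
  obtain ⟨T, hT⟩ := hdvd
  have hT0 : (C * C - 1) / (q - 1) = T := by
    rw [hT]
    exact Nat.mul_div_cancel_left T (by omega)
  rw [hT0]
  have hTq : T * (q - 1) + 1 = C * C := by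
    have : 1 ≤ C * C := Nat.mul_pos (by omega) (by omega)
    rw [mul_comm]
    omega
  obtain ⟨r, hr⟩ : ∃ r, q = r + 5 := ⟨q - 5, by omega⟩
  have hr' : q - 1 = r + 4 := by omega
  rw [hr'] at hTq
  refine pomega_main _ (qOdd (m' + 2) F) (fun v => (qOdd_apply _ v).symm) hQ hgen fr ?_ ?_ ?_ ?_ ?_
  · omega
  · intro h; exfalso; omega
  · rw [hdim, ← hq]
    have e : 2 * (m' + 2) + 1 - 3 = 2 * (m' + 2) - 2 := by omega
    rw [e, ← hB]
    refine Nat.le_of_mul_le_mul_right (c := r + 4) ?_ (by omega)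
    have h1 : q * q ≤ (q + 2) * (r + 4) := by rw [hr]; nlinarith
    calc T * (r + 4) ≤ q * q * B := by omega
      _ ≤ ((q + 2) * (r + 4)) * B := Nat.mul_le_mul_right _ h1
      _ = _ := by ring
  · rw [← hq, hr', hTq, zeros_odd, hA]
  · intro c hc
    have h1 := odd_lower (m' + 2) c
    rw [← hq, ← hC, hA] at h1
    have h2 := card_R_le_two hc
    calc T * Nat.card {d : F // d ≠ 0 ∧ d ^ 2 * c = c} ≤ T * 2 := Nat.mul_le_mul_left _ h2
      _ ≤ _ := by nlinarith

end Cfsg.Agent.S2143
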