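import Mathlib
import Cfsg.Statements.S2144
import Cfsg.Agent.Lib.OmIdxL

set_option autoImplicit false
open Cfsg

namespace Cfsg.Agent.S2144

open Module QuadraticMap Cfsg.Agent.Lib.OrthoBasic Cfsg.Agent.Lib.OrthoSiegel Cfsg.Agent.Lib.OrthoGen Cfsg.Agent.Lib.OmIdx Cfsg.Agent.Lib.OrthoCount Cfsg.Agent.Lib.OrthoOrder Cfsg.Agent.Lib.OrthoFinal

/-- Minimal index of a proper subgroup of the odd-dimensional orthogonal groups over the field with 3 elements: for m ≥ 3, every proper subgroup of PΩ_(2m+1)(3) (for the form x₀² + Σ xᵢyᵢ) has index at least 3^m(3^m − 1)/2, and that index is attained. -/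
theorem result {F : Type*} [Field F] [Fintype F] (hF : Fintype.card F = 3) (m : ℕ) (hm : 3 ≤ m) : (∀ H : Subgroup (Cfsg.POmega F (Cfsg.quadFormOdd m F)), H ≠ ⊤ → 3 ^ m * (3 ^ m - 1) / 2 ≤ H.index) ∧ (∃ H : Subgroup (Cfsg.POmega F (Cfsg.quadFormOdd m F)), H.index = 3 ^ m * (3 ^ m - 1) / 2) := by
  classical
  have hodd' : Odd (Fintype.card F) := by rw [hF]; decide
  obtain ⟨m', rfl⟩ : ∃ m', m = m' + 2 := ⟨m - 2, by omega⟩
  have hQ := nondeg_qOdd hodd' (m' + 2)
  have hgen := genR_qOdd hodd' (m' + 2)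
  obtain ⟨fr⟩ := frameOdd hodd' m'
  have hdim : finrank F (Unit ⊕ (Fin (m' + 2) ⊕ Fin (m' + 2)) → F) = 2 * (m' + 2) + 1 := by
    rw [Module.finrank_fintype_fun_eq_card]
    simp
    ring
  set C := 3 ^ (m' + 2) with hC
  have hA : (3 : ℕ) ^ (2 * (m' + 2)) = C * C := by rw [hC]; ring
  set B := 3 ^ (2 * (m' + 2) - 2) with hB
  have hAB : C * C = 9 * B := by
    rw [hC, hB]
    have : 2 * (m' + 2) - 2 = 2 * m' + 2 := by omega
    rw [this]
    ring
  have hC9 : 9 ≤ C := by
    calc 9 = 3 ^ 2 := by norm_num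
      _ ≤ 3 ^ (m' + 2) := Nat.pow_le_pow_right (by omega) (by omega)
  obtain ⟨T, hT2⟩ : ∃ T, C * (C - 1) = 2 * T := by
    have : Even (C * (C - 1)) := Nat.even_mul_pred_self C
    obtain ⟨T, hT⟩ := this
    exact ⟨T, by rw [hT]; ring⟩
  have hT0 : C * (C - 1) / 2 = T := by
    rw [hT2]
    simp
  rw [hT0]
  obtain ⟨C', hC'⟩ : ∃ C', C = C' + 1 := ⟨C - 1, by omega⟩
  have hT3 : 2 * T + C = C * C := by
    rw [← hT2, hC']
    simp only [Nat.add_one_sub_one]
    ring
  have hq : Nat.card F = 3 := by rw [Nat.card_eq_fintype_card, hF]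
  have hZ' := card_ne_zero_zero (qOdd (m' + 2) F)
  constructor
  · intro H hH
    refine pomega_lower _ (qOdd (m' + 2) F) (fun v => (qOdd_apply _ v).symm) hQ hgen fr ?_ ?_ ?_ ?_ ?_ H hH
    · omega
    · intro h; exfalso; omega
    · rw [hdim, hq]
      have e : 2 * (m' + 2) + 1 - 3 = 2 * (m' + 2) - 2 := by omega
      rw [e, ← hB]
      omega
    · have h1 : Nat.card {v // qOdd (m' + 2) F v = 0} = C * C := by
        rw [zeros_odd, hF, hA]
      rw [hq]
      omega
    · intro c hc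
      rw [card_ne_zero_ne (qOdd (m' + 2) F) hc]
      have h1 := odd_lower (m' + 2) c
      rw [hF, ← hC, hA] at h1
      have h2 := card_R_le_two hc
      calc T * Nat.card {d : F // d ≠ 0 ∧ d ^ 2 * c = c} ≤ T * 2 := Nat.mul_le_mul_left _ h2
        _ ≤ _ := by omega
  · have h1 := odd_three hF (m' + 2)
    rw [← hC, hA] at h1
    have hne : Nonempty {v // qOdd (m' + 2) F v = -1} := by
      have : 0 < Nat.card {v // qOdd (m' + 2) F v = -1} := by
        have h3 : C < C * C := by nlinarith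
        omega
      exact (Nat.card_pos_iff.1 this).1
    obtain ⟨⟨p, hp⟩⟩ := hne
    have hp0 : p ≠ 0 := by
      rintro rfl
      rw [QuadraticMap.map_zero] at hp
      exact (neg_ne_zero.2 one_ne_zero) hp.symm
    obtain ⟨H, hH⟩ := pomega_exists _ (qOdd (m' + 2) F) (fun v => (qOdd_apply _ v).symm) hQ hgen fr hp0
    refine ⟨H, ?_⟩
    have h2 := card_eq_lineStab hQ (by omega) hp0
    rw [hp, card_ne_zero_ne (qOdd (m' + 2) F) (neg_ne_zero.2 one_ne_zero), ← hH] at h2
    have hR : Nat.card {d : F // d ≠ 0 ∧ d ^ 2 * (-1 : F) = -1} = 2 := by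
      apply le_antisymm (card_R_le_two (neg_ne_zero.2 one_ne_zero))
      have h3 : (3 : F) = 0 := by
        have := FiniteField.cast_card_eq_zero F
        rw [hF] at this
        exact_mod_cast this
      have h4 : (1 : F) ≠ -1 := by
        intro h
        have h5 : (1 : F) = 0 := by linear_combination h3 - h
        exact one_ne_zero h5
      have : Nontrivial {d : F // d ≠ 0 ∧ d ^ 2 * (-1 : F) = -1} :=
        ⟨⟨⟨1, one_ne_zero, by ring⟩, ⟨-1, neg_ne_zero.2 one_ne_zero, by ring⟩, fun h => h4 (congrArg Subtype.val h)⟩⟩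
      exact Finite.one_lt_card
    rw [hR] at h2
    omega

end Cfsg.Agent.S2144
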