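import Mathlib
import Cfsg.Statements.S2145
import Cfsg.Agent.Lib.OmIdxS

set_option autoImplicit false
open Cfsg

namespace Cfsg.Agent.S2145

open Module QuadraticMap Cfsg.Agent.Lib.OrthoBasic Cfsg.Agent.Lib.OrthoSiegel Cfsg.Agent.Lib.OrthoGen Cfsg.Agent.Lib.OmIdx Cfsg.Agent.Lib.OrthoCount Cfsg.Agent.Lib.OrthoOrder Cfsg.Agent.Lib.OrthoFinal Cfsg.Agent.Lib.OmGeo Cfsg.Agent.Lib.Tri

/-- Minimal index of a proper subgroup of the even-dimensional orthogonal groups of plus type: for m ≥ 4 and a field F with q ≥ 4 elements, every proper subgroup of PΩ⁺_2m(F) (for the form Σ xᵢyᵢ) has index at least (q^m − 1)(q^(m−1) + 1)/(q − 1), and that index is attained (the singular points). -/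
theorem result {F : Type*} [Field F] [Fintype F] {q : ℕ} (hF : Fintype.card F = q) (hq : 4 ≤ q) (m : ℕ) (hm : 4 ≤ m) : (∀ H : Subgroup (Cfsg.POmega F (Cfsg.quadFormPlus m F)), H ≠ ⊤ → (q ^ m - 1) * (q ^ (m - 1) + 1) / (q - 1) ≤ H.index) ∧ (∃ H : Subgroup (Cfsg.POmega F (Cfsg.quadFormPlus m F)), H.index = (q ^ m - 1) * (q ^ (m - 1) + 1) / (q - 1)) := by
  classical
  subst hF
  obtain ⟨hT, hZ, hc⟩ := plus_nums hq m hm
  by_cases hm4 : m = 4
  · subst hm4
    exact pomega_D4 hq hT hZ hc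
  · have hm5 : 5 ≤ m := by omega
    obtain ⟨fr⟩ : Nonempty (Frame (qPlus m F)) := by
      have := framePlus (F := F) (m - 3)
      rwa [show m - 3 + 3 = m by omega] at this
    have hdim : finrank F (Fin m ⊕ Fin m → F) = 2 * m := by
      rw [Module.finrank_fintype_fun_eq_card]
      simp
      ring
    refine pomega_main _ (qPlus m F) (fun v => (qPlus_apply _ v).symm) (nondeg_qPlus m) (genR_qPlus m) fr ?_ ?_ ?_ hZ hc
    · rw [hdim]
      omega
    · intro h
      exfalso
      rw [hdim] at h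
      omega
    · rw [hdim]
      exact hT

end Cfsg.Agent.S2145
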