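import Mathlib
import Cfsg.Statements.S2146
import Cfsg.Agent.Lib.OmPlusIdxH
import Cfsg.Agent.Lib.OrthoFinal
import Cfsg.Agent.Lib.OrthoCount
import Cfsg.Agent.Lib.OrthoOrder
import Cfsg.Agent.Lib.OrthoSimple
import Cfsg.Agent.Lib.AutOrthFam

set_option autoImplicit false
open Cfsg

namespace Cfsg.Agent.S2146

open QuadraticMap Cfsg.Agent.Lib.OrthoBasic Cfsg.Agent.Lib.OrthoSiegel Cfsg.Agent.Lib.OmPlusIdx Module

variable {F : Type*} [Field F] [Fintype F]

/-- Two to the power numbers. -/
lemma tt_eq {m : ℕ} (hm : 4 ≤ m) : 2 ^ (2 * m) = 2 ^ (2 * m - 1) + 2 ^ (m - 1) + tt m := by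
  have h1 := tt_add hm
  have h2 := pow_rel4 hm
  have h3 := pow_rel8 hm
  have h4 := pow_facts (m := m) hm
  omega

/-- Number of zeros. -/
lemma card_zeros {m : ℕ} (hF : Fintype.card F = 2) (hm : 4 ≤ m) [DecidableEq F] :
    (Finset.univ.filter (fun x : Fin m ⊕ Fin m → F => Cfsg.Agent.Lib.OrthoCount.qPlus m F x = 0)).card =
      2 ^ (2 * m - 1) + 2 ^ (m - 1) := by
  have h1 := Cfsg.Agent.Lib.OrthoCount.card_zeros_plus hF m (by omega)
  rw [Nat.card_eq_fintype_card, Fintype.card_subtype] at h1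
  have h2 : ∀ x : Fin m ⊕ Fin m → F, Cfsg.Agent.Lib.OrthoCount.qPlus m F x = Cfsg.quadFormPlus m F x :=
    Cfsg.Agent.Lib.OrthoCount.qPlus_apply m
  simp only [h2]
  have h3 : (2 : ℕ) ^ m = 2 * 2 ^ (m - 1) := by
    rw [← pow_succ']
    congr 1
    omega
  have h4 : (Finset.univ.filter (fun x : Fin m ⊕ Fin m → F => Cfsg.quadFormPlus m F x = 0)).card =
      2 ^ (2 * m - 1) + 2 ^ m - 2 ^ (m - 1) := by
    convert h1
  rw [h4, h3]
  generalize (2 : ℕ) ^ (2 * m - 1) = A
  generalize (2 : ℕ) ^ (m - 1) = B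
  omega

/-- Minimal index of a proper subgroup of the even-dimensional orthogonal groups of plus type over the field with 2 elements: for m ≥ 4, every proper subgroup of Ω⁺_2m(2) (for the form Σ xᵢyᵢ) has index at least 2^(m−1)(2^m − 1), and that index is attained. -/
theorem result {F : Type*} [Field F] [Fintype F] (hF : Fintype.card F = 2) (m : ℕ) (hm : 4 ≤ m) : (∀ H : Subgroup (Cfsg.POmega F (Cfsg.quadFormPlus m F)), H ≠ ⊤ → 2 ^ (m - 1) * (2 ^ m - 1) ≤ H.index) ∧ (∃ H : Subgroup (Cfsg.POmega F (Cfsg.quadFormPlus m F)), H.index = 2 ^ (m - 1) * (2 ^ m - 1)) := by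
  classical
  obtain ⟨m', rfl⟩ : ∃ m', m = m' + 3 := ⟨m - 3, by omega⟩
  set Q := Cfsg.Agent.Lib.OrthoCount.qPlus (m' + 3) F with hQdef
  have hQ : Nondeg Q := Cfsg.Agent.Lib.OrthoOrder.nondeg_qPlus (m' + 3)
  have hgen : Cfsg.Agent.Lib.OrthoGen.genR Q = ⊤ := Cfsg.Agent.Lib.OrthoGen.genR_qPlus (m' + 3)
  have hdim : finrank F (Fin (m' + 3) ⊕ Fin (m' + 3) → F) = 2 * (m' + 3) :=
    Cfsg.Agent.Lib.AutOrth.finrank_qPlus (m' + 3)
  have hz := card_zeros (F := F) hF hm
  obtain ⟨fr⟩ := Cfsg.Agent.Lib.OrthoFinal.framePlus (F := F) m'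
  have hE : commutator (OG Q) = siegelE Q := Cfsg.Agent.Lib.OrthoFinal.omega_eq_E hQ hgen fr
  let e := Cfsg.Agent.Lib.OrthoFinal.pomegaEquiv (V := Unit) (Cfsg.quadFormPlus (m' + 3) F) Q
    (fun v => (Cfsg.Agent.Lib.OrthoCount.qPlus_apply _ v).symm) hE
  let φ : GG Q →* Cfsg.POmega F (Cfsg.quadFormPlus (m' + 3) F) :=
    e.symm.toMonoidHom.comp (QuotientGroup.mk' _)
  have hφ : Function.Surjective φ := e.symm.surjective.comp (QuotientGroup.mk'_surjective _)
  constructor
  · intro H hH
    have h1 : (H.comap φ).index = H.index := Subgroup.index_comap_of_surjective H hφ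
    have h2 : H.comap φ ≠ ⊤ := by
      intro h0
      apply hH
      rw [eq_top_iff]
      intro x _
      obtain ⟨y, rfl⟩ := hφ x
      have : y ∈ H.comap φ := by rw [h0]; exact Subgroup.mem_top y
      exact this
    rw [← h1]
    exact index_bound hF hQ hm hdim hgen hz h2
  · -- the stabiliser of a non-singular vector
    obtain ⟨n, hn, -⟩ := exists_nonsing_perp hF hQ hdim (∅ : Finset (Fin (m' + 3) ⊕ Fin (m' + 3) → F)) (by simp)
    have hn0 : n ≠ 0 := by
      rintro rfl
      rw [QuadraticMap.map_zero] at hn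
      exact zero_ne_one hn
    have horbit : MulAction.orbit (GG Q) n = {x | Q x = 1} := by
      ext x
      constructor
      · rintro ⟨g, rfl⟩
        show Q (g • n) = 1
        rw [Q_smul', hn]
      · intro hx
        have hx1 : Q x = 1 := hx
        have hx0 : x ≠ 0 := by
          rintro rfl
          rw [QuadraticMap.map_zero] at hx1
          exact zero_ne_one hx1
        obtain ⟨r, hr, hr1⟩ := exists_nonsing_perp hF hQ hdim ({x} : Finset (Fin (m' + 3) ⊕ Fin (m' + 3) → F))
          (by simp)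
        obtain ⟨g, hg⟩ := exists_G_tuple hF hQ (by omega) hdim hgen (n := 1) ![n] ![x] (li1 hF hn0) (li1 hF hx0)
          (by
            intro i j
            fin_cases i
            fin_cases j
            simp [pol_self hF])
          (by
            intro i
            fin_cases i
            simp [hn, hx1]) hr (by
            intro i
            fin_cases i
            simpa using hr1 x (by simp))
        exact ⟨g, by simpa using hg 0⟩
    have hcard : {x | Q x = 1}.ncard = tt (m' + 3) := by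
      have h1 : ({x | Q x = 1} : Set (Fin (m' + 3) ⊕ Fin (m' + 3) → F)) =
          ((Finset.univ.filter (fun x : Fin (m' + 3) ⊕ Fin (m' + 3) → F => ¬ Q x = 0) : Finset _) : Set _) := by
        ext x
        simp only [Set.mem_ofPred_eq, Finset.coe_filter, Finset.mem_univ, true_and]
        exact ⟨fun h h' => by
          rw [h] at h'
          exact one_ne_zero h', fun h => eq_one_of_ne hF h⟩
      rw [h1, Set.ncard_coe_finset]
      have h2 := Finset.card_filter_add_card_filter_not (s := (Finset.univ : Finset (Fin (m' + 3) ⊕ Fin (m' + 3) → F)))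
        (fun x => Q x = 0)
      rw [hz, Finset.card_univ] at h2
      have h3 : Fintype.card (Fin (m' + 3) ⊕ Fin (m' + 3) → F) = 2 ^ (2 * (m' + 3)) := by
        rw [← Nat.card_eq_fintype_card, Module.natCard_eq_pow_finrank (K := F), hdim, Nat.card_eq_fintype_card, hF]
      rw [h3, tt_eq hm] at h2
      omega
    have hidx : (MulAction.stabilizer (GG Q) n).index = tt (m' + 3) := by
      rw [MulAction.index_stabilizer, horbit, hcard]
    have hcen : φ.ker ≤ MulAction.stabilizer (GG Q) n := by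
      intro z hz'
      have h1 : z ∈ Subgroup.center (siegelE Q) := by
        have h2 : (QuotientGroup.mk' (Subgroup.center (siegelE Q)) z) = 1 := by
          have h3 : e.symm (QuotientGroup.mk' (Subgroup.center (siegelE Q)) z) = 1 := hz'
          simpa using h3
        rwa [← MonoidHom.mem_ker, QuotientGroup.ker_mk'] at h2
      obtain ⟨l, hl, hzl⟩ := Cfsg.Agent.Lib.OrthoSimple.center_scalar hQ fr z h1
      have hl0 : l ≠ 0 := by
        rintro rfl
        simp at hl
      rw [MulAction.mem_stabilizer_iff]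
      show ((z : OG Q) : _ ≃ₗ[F] _) n = n
      rw [hzl, eq_one_of_ne hF hl0, one_smul]
    refine ⟨(MulAction.stabilizer (GG Q) n).map φ, ?_⟩
    rw [← Subgroup.index_comap_of_surjective _ hφ, Subgroup.comap_map_eq, sup_eq_left.2 hcen, hidx]
    rfl

end Cfsg.Agent.S2146
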