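import Mathlib
import Cfsg.Statements.S2147
import Cfsg.Agent.Lib.OmIdxL

set_option autoImplicit false
open Cfsg

namespace Cfsg.Agent.S2147

open Module QuadraticMap Cfsg.Agent.Lib.OrthoBasic Cfsg.Agent.Lib.OrthoSiegel Cfsg.Agent.Lib.OrthoGen Cfsg.Agent.Lib.OmIdx Cfsg.Agent.Lib.OrthoCount Cfsg.Agent.Lib.OrthoOrder Cfsg.Agent.Lib.OrthoFinal

/-- Minimal index of a proper subgroup of the even-dimensional orthogonal groups of minus type: for m ≥ 4 and a field F with q elements, every proper subgroup of PΩ⁻_2m(F) (for the form Σ_{i<m−1} xᵢyᵢ + z₁² + a z₁z₂ + b z₂² with anisotropic binary part) has index at least (q^m + 1)(q^(m−1) − 1)/(q − 1), and that index is attained. -/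
theorem result {F : Type*} [Field F] [Fintype F] {q : ℕ} (hF : Fintype.card F = q) (m : ℕ) (hm : 4 ≤ m) (a b : F) (hab : ∀ z₁ z₂ : F, z₁ ^ 2 + a * z₁ * z₂ + b * z₂ ^ 2 = 0 → z₁ = 0 ∧ z₂ = 0) : (∀ H : Subgroup (Cfsg.POmega F (Cfsg.quadFormMinus (m - 1) F a b)), H ≠ ⊤ → (q ^ m + 1) * (q ^ (m - 1) - 1) / (q - 1) ≤ H.index) ∧ (∃ H : Subgroup (Cfsg.POmega F (Cfsg.quadFormMinus (m - 1) F a b)), H.index = (q ^ m + 1) * (q ^ (m - 1) - 1) / (q - 1)) := by
  classical
  subst hF
  set q := Fintype.card F with hq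
  obtain ⟨n, rfl⟩ : ∃ n, m = n + 3 := ⟨m - 3, by omega⟩
  have e1 : n + 3 - 1 = n + 2 := by omega
  rw [e1]
  have hn : 1 ≤ n := by omega
  have hq2 : 2 ≤ q := Fintype.one_lt_card
  have hQ := nondeg_qMinus a b hab (n + 2)
  have hgen := genR_qMinus a b hab (n + 2)
  obtain ⟨fr⟩ := frameMinus a b hab n
  have hdim : finrank F ((Fin (n + 2) ⊕ Fin (n + 2)) ⊕ Fin 2 → F) = 2 * (n + 3) := by
    rw [Module.finrank_fintype_fun_eq_card]
    simp
    ring
  set C := q ^ (n + 2) with hC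
  have hq3 : q ^ (n + 3) = q * C := by rw [hC]; ring
  rw [hq3]
  set B := q ^ (2 * n + 3) with hB
  have hCB : C * C = q * B := by
    rw [hC, hB]
    ring
  have hC1 : 1 ≤ C := Nat.one_le_iff_ne_zero.2 (by rw [hC]; positivity)
  have hdvd : q - 1 ∣ C - 1 := by
    simpa using Nat.sub_dvd_pow_sub_pow q 1 (n + 2)
  obtain ⟨U, hU⟩ := hdvd
  have hU0 : (q * C + 1) * (C - 1) / (q - 1) = (q * C + 1) * U := by
    rw [hU]
    rw [show (q * C + 1) * ((q - 1) * U) = (q - 1) * ((q * C + 1) * U) by ring]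
    exact Nat.mul_div_cancel_left _ (by omega)
  rw [hU0]
  set T := (q * C + 1) * U with hT
  have hTq : T * (q - 1) = (q * C + 1) * (C - 1) := by
    rw [hU, hT]
    ring
  have hTq' : T * (q - 1) + q * C + 1 = q * C * C + C := by
    rw [hTq]
    obtain ⟨C', hC'⟩ : ∃ C', C = C' + 1 := ⟨C - 1, by omega⟩
    rw [hC']
    simp only [Nat.add_one_sub_one]
    ring
  have hzero := zeros_minus a b hab (n + 2)
  rw [← hq] at hzero
  have e2 : q ^ (2 * (n + 2) + 1) = q * C * C := by rw [hC]; ring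
  have e3 : q ^ (n + 2 + 1) = q * C := by rw [hC]; ring
  have e2' : (q : ℤ) ^ (2 * (n + 2) + 1) = (q : ℤ) * C * C := by exact_mod_cast e2
  have e3' : (q : ℤ) ^ (n + 2 + 1) = (q : ℤ) * C := by exact_mod_cast e3
  have e4' : (q : ℤ) ^ (n + 2) = C := by rw [hC]; push_cast; rfl
  rw [e2', e3', e4'] at hzero
  have hZ : T * (q - 1) + 1 = Nat.card {v // qMinus (n + 2) a b v = 0} := by
    have : ((T * (q - 1) + q * C + 1 : ℕ) : ℤ) = ((q * C * C + C : ℕ) : ℤ) := by rw [hTq']
    push_cast at this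
    have h3 : ((T * (q - 1) + 1 : ℕ) : ℤ) = ((Nat.card {v // qMinus (n + 2) a b v = 0} : ℕ) : ℤ) := by
      rw [hzero]
      push_cast
      linarith
    exact_mod_cast h3
  refine pomega_main _ (qMinus (n + 2) a b) (fun v => (qMinus_apply _ _ _ v).symm) hQ hgen fr ?_ ?_ ?_ hZ ?_
  · omega
  · intro h8
    have hn1 : n = 1 := by omega
    subst hn1
    refine aniso3_of_zeros ?_ ?_
    · rw [card_fun_minus]
    · have h4 := zeros_minus a b hab 3
      rw [← hq] at h4 ⊢
      have h5 : Nat.card {v // qMinus 3 a b v = 0} + q ^ 4 = q ^ 7 + q ^ 3 := by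
        have : ((Nat.card {v // qMinus 3 a b v = 0} + q ^ 4 : ℕ) : ℤ) = ((q ^ 7 + q ^ 3 : ℕ) : ℤ) := by
          push_cast
          rw [h4]
          ring
        exact_mod_cast this
      have h6 : 0 < q ^ 3 := by positivity
      show Nat.card {v // qMinus 3 a b v = 0} < _
      show _ < Fintype.card F ^ 7 + 2 * Fintype.card F ^ 3 - Fintype.card F ^ 4
      rw [← hq]
      omega
  · rw [hdim, ← hq]
    have e4 : 2 * (n + 3) - 3 = 2 * n + 3 := by omega
    rw [e4, ← hB]
    obtain ⟨r, hr⟩ : ∃ r, q = r + 2 := ⟨q - 2, by omega⟩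
    have hr' : q - 1 = r + 1 := by omega
    rw [hr'] at hTq'
    refine Nat.le_of_mul_le_mul_right (c := r + 1) ?_ (by omega)
    have h1 : q * q ≤ (q + 2) * (r + 1) := by rw [hr]; nlinarith
    have h2 : T * (r + 1) ≤ q * (C * C) := by
      have : q * C * C = q * (C * C) := by ring
      have h3 : C ≤ q * C := Nat.le_mul_of_pos_left _ (by omega)
      omega
    calc T * (r + 1) ≤ q * (C * C) := h2
      _ = q * q * B := by rw [hCB]; ring
      _ ≤ ((q + 2) * (r + 1)) * B := Nat.mul_le_mul_right _ h1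
      _ = _ := by ring
  · intro c hc
    have h1 := minus_lower a b hab hc (n + 2)
    rw [← hq, ← hC, e2] at h1
    have h2 := card_R_le_sub_one c
    rw [show Nat.card F = q from Nat.card_eq_fintype_card] at h2
    calc T * Nat.card {d : F // d ≠ 0 ∧ d ^ 2 * c = c} ≤ T * (q - 1) := Nat.mul_le_mul_left _ h2
      _ ≤ _ := by
        have h3 : (q - 1) * C + C = q * C := by
          obtain ⟨r, hr⟩ : ∃ r, q = r + 1 := ⟨q - 1, by omega⟩
          rw [hr]
          simp only [Nat.add_one_sub_one]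
          ring
        omega

end Cfsg.Agent.S2147
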