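import Mathlib
import Cfsg.Agent.Lib.U3MinS
import Cfsg.Statements.S2148

set_option autoImplicit false
open Cfsg

namespace Cfsg.Agent.S2148



/-- Minimal index of a proper subgroup of the three-dimensional unitary groups: for a field F with q² elements, q ≥ 3 and q ≠ 5, every proper subgroup of PSU₃(q) has index at least q³ + 1, and that index is attained. -/
theorem result {F : Type*} [Field F] [Fintype F] (q : ℕ) (hF : Fintype.card F = q ^ 2) (hq : 3 ≤ q) (h5 : q ≠ 5) : (∀ H : Subgroup (Cfsg.PSU 3 F q), H ≠ ⊤ → q ^ 3 + 1 ≤ H.index) ∧ (∃ H : Subgroup (Cfsg.PSU 3 F q), H.index = q ^ 3 + 1) := by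
  classical
  let π := QuotientGroup.mk' (Subgroup.center (Cfsg.SU 3 F q))
  have hπ : Function.Surjective π := QuotientGroup.mk'_surjective _
  constructor
  · intro H hH
    by_contra hlt
    push Not at hlt
    let K : Subgroup (Cfsg.SU 3 F q) := H.comap π
    have hidx : K.index = H.index := Subgroup.index_comap_of_surjective H hπ
    have hZK : Subgroup.center (Cfsg.SU 3 F q) ≤ K := by
      intro z hz
      show π z ∈ H
      have h1 : π z = 1 := (QuotientGroup.eq_one_iff z).2 hz
      rw [h1]
      exact H.one_mem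
    have hKtop : K ≠ ⊤ := by
      intro h
      apply hH
      rw [eq_top_iff]
      intro x _
      obtain ⟨y, rfl⟩ := hπ x
      have h1 : y ∈ K := by rw [h]; trivial
      exact h1
    exact Cfsg.Agent.Lib.U3Min.no_small_index (q := q) hF hq h5 hKtop hZK (by rw [hidx]; exact hlt)
  · obtain ⟨α, β, hα, hβ⟩ := Cfsg.Agent.Lib.U3Min.exists_frame hF
    let B : Subgroup (Cfsg.SU 3 F q) := Cfsg.Agent.Lib.U3Min.Bo (q := q) α
    have hker : π.ker ≤ B := by
      intro z hz
      have h1 : z ∈ Subgroup.center (Cfsg.SU 3 F q) := (QuotientGroup.eq_one_iff z).1 hz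
      exact Cfsg.Agent.Lib.PSUIdx.center_le_BorN hF (n := 1 + 2) (by norm_num) _
        (Cfsg.Agent.Lib.U3Min.vE_ne' hF hα) h1
    refine ⟨B.map π, ?_⟩
    rw [← Subgroup.index_comap_of_surjective _ hπ, Subgroup.comap_map_eq_self hker]
    exact Cfsg.Agent.Lib.U3Min.index_Bo hF hα hβ

end Cfsg.Agent.S2148
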