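import Mathlib
import Cfsg.Statements.S2150
import Cfsg.Agent.Lib.PSUIdxK

set_option autoImplicit false
open Cfsg

namespace Cfsg.Agent.S2150

open Cfsg.Agent.Lib.PSUIdx

/-- Minimal index of a proper subgroup of the four-dimensional unitary groups: for a field F with q² elements, every proper subgroup of PSU₄(q) has index at least (q + 1)(q³ + 1), and that index is attained. -/
theorem result {F : Type*} [Field F] [Fintype F] (q : ℕ) (hF : Fintype.card F = q ^ 2) (hq : 2 ≤ q) : (∀ H : Subgroup (Cfsg.PSU 4 F q), H ≠ ⊤ → (q + 1) * (q ^ 3 + 1) ≤ H.index) ∧ (∃ H : Subgroup (Cfsg.PSU 4 F q), H.index = (q + 1) * (q ^ 3 + 1)) := by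
  have hmain : ∀ H : Subgroup (Cfsg.PSU 4 F q), H ≠ ⊤ → (q + 1) * (q ^ 3 + 1) ≤ H.index := by
    intro H hH
    have h1 : (H.comap (QuotientGroup.mk' (Subgroup.center (Cfsg.SU 4 F q)))) ≠ ⊤ := by
      intro h
      apply hH
      rw [eq_top_iff]
      intro x _
      obtain ⟨g, rfl⟩ := QuotientGroup.mk'_surjective _ x
      have h2 : g ∈ H.comap (QuotientGroup.mk' (Subgroup.center (Cfsg.SU 4 F q))) := by
        rw [h]
        trivial
      exact h2
    have h2 := main4 hF (K := (H.comap (QuotientGroup.mk' (Subgroup.center (Cfsg.SU 4 F q))))) h1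
    rwa [Subgroup.index_comap_of_surjective H (QuotientGroup.mk'_surjective _)] at h2
  refine ⟨hmain, ?_⟩
  obtain ⟨H, hH, hle⟩ := exists_line_subgroup hF
  exact ⟨H, le_antisymm hle (hmain H hH)⟩

end Cfsg.Agent.S2150
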