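import Mathlib
import Cfsg.Statements.S2151
import Cfsg.Agent.Lib.PSUIdxT

set_option autoImplicit false
open Cfsg

namespace Cfsg.Agent.S2151

open Cfsg.Agent.Lib.PSUIdx Cfsg.Agent.Lib.SUMinDeg

/-- Minimal index of a proper subgroup of the unitary groups of odd dimension n ≥ 5: for a field F with q² elements, every proper subgroup of PSU_n(q) has index at least (q^n + 1)(q^(n−1) − 1)/(q² − 1), and that index is attained. -/
theorem result {F : Type*} [Field F] [Fintype F] (q : ℕ) (hF : Fintype.card F = q ^ 2) (hq : 2 ≤ q) (n : ℕ) (hn : 5 ≤ n) (hodd : Odd n) : (∀ H : Subgroup (Cfsg.PSU n F q), H ≠ ⊤ → (q ^ n + 1) * (q ^ (n - 1) - 1) / (q ^ 2 - 1) ≤ H.index) ∧ (∃ H : Subgroup (Cfsg.PSU n F q), H.index = (q ^ n + 1) * (q ^ (n - 1) - 1) / (q ^ 2 - 1)) := by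
  obtain ⟨e, rfl⟩ : ∃ e, n = e + 2 := ⟨n - 2, by omega⟩
  have hev : Odd e := by
    rcases hodd with ⟨a, ha⟩
    exact ⟨a - 1, by omega⟩
  have he : 3 ≤ e := by omega
  have hq1 : 1 < q ^ 2 := Nat.one_lt_pow (by norm_num) (by omega)
  have e1 : e + 2 - 1 = e + 1 := by omega
  rw [e1]
  constructor
  · intro H hH
    have h1 : (H.comap (QuotientGroup.mk' (Subgroup.center (Cfsg.SU (e + 2) F q)))) ≠ ⊤ := by
      intro h
      apply hH
      rw [eq_top_iff]
      intro x _
      obtain ⟨g, rfl⟩ := QuotientGroup.mk'_surjective _ x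
      have h2 : g ∈ H.comap (QuotientGroup.mk' (Subgroup.center (Cfsg.SU (e + 2) F q))) := by
        rw [h]
        trivial
      exact h2
    have h2 := bound_odd hF e hev he _ h1
    rw [Subgroup.index_comap_of_surjective H (QuotientGroup.mk'_surjective _)] at h2
    apply Nat.div_le_of_le_mul
    rw [mul_comm (q ^ 2 - 1)]
    exact h2
  · obtain ⟨α, hα0, hα⟩ := Cfsg.Agent.Lib.SUGen.exists_norm hF (-1 : F) (neg_ne_zero.2 one_ne_zero) (by
      rw [Cfsg.Agent.Lib.HermForm.neg_pow_q hF, one_pow])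
    have hα' : α ^ q * α = -1 := by rw [mul_comm]; exact hα
    have hv := vE_mem (e := e) hF hα'
    have hcen := center_le_BorN hF (n := e + 2) (by omega) (vE α) (vE_ne hF hα')
    obtain ⟨H, hH1, -⟩ := exists_PSU_of hF hcen
    refine ⟨H, ?_⟩
    rw [hH1]
    have h3 := index_BorN hF (n := e + 2) (by omega) hv
    rw [card_IsoV_odd hF (e + 2) hodd, e1] at h3
    exact (Nat.div_eq_of_eq_mul_right (by omega) h3.symm).symm

end Cfsg.Agent.S2151
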