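import Mathlib
import Cfsg.Statements.S2153
import Cfsg.Agent.Lib.PSUIdxW

set_option autoImplicit false
open Cfsg

namespace Cfsg.Agent.S2153

open Cfsg.Agent.Lib.PSUIdx Cfsg.Agent.Lib.SUMinDeg Cfsg.Agent.Lib.HermForm

/-- Minimal index of a proper subgroup of the unitary groups PSU_n(2) with n divisible by 6, realised over the field with 4 elements: every proper subgroup has index at least 2^(n−1)(2^n − 1)/3, and that index is attained. -/
theorem result {F : Type*} [Field F] [Fintype F] (hF : Fintype.card F = 4) (n : ℕ) (hn : 6 ∣ n) (hpos : 6 ≤ n) : (∀ H : Subgroup (Cfsg.PSU n F 2), H ≠ ⊤ → 2 ^ (n - 1) * (2 ^ n - 1) / 3 ≤ H.index) ∧ (∃ H : Subgroup (Cfsg.PSU n F 2), H.index = 2 ^ (n - 1) * (2 ^ n - 1) / 3) := by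
  have hF' : Fintype.card F = 2 ^ 2 := by rw [hF]; norm_num
  obtain ⟨e, rfl⟩ : ∃ e, n = e + 2 := ⟨n - 2, by omega⟩
  have hev : Even e := by
    obtain ⟨c, hc⟩ := hn
    exact ⟨3 * c - 1, by omega⟩
  have he : 4 ≤ e := by omega
  have e1 : e + 2 - 1 = e + 1 := by omega
  rw [e1]
  constructor
  · intro H hH
    have h1 : (H.comap (QuotientGroup.mk' (Subgroup.center (Cfsg.SU (e + 2) F 2)))) ≠ ⊤ := by
      intro h
      apply hH
      rw [eq_top_iff]
      intro x _
      obtain ⟨g, rfl⟩ := QuotientGroup.mk'_surjective _ x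
      have h2 : g ∈ H.comap (QuotientGroup.mk' (Subgroup.center (Cfsg.SU (e + 2) F 2))) := by
        rw [h]
        trivial
      exact h2
    have h2 := bound_even_two hF' e hev he _ h1
    rw [Subgroup.index_comap_of_surjective H (QuotientGroup.mk'_surjective _)] at h2
    exact Nat.div_le_of_le_mul h2
  · set x : Fin (e + 2) → F := Pi.single 0 1 with hx
    have hN : hermForm (e + 2) F 2 x x = 1 := herm_single_self hF' _
    have hx0 : x ≠ 0 := by
      intro h
      rw [h, hermForm_zero_left] at hN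
      exact zero_ne_one hN
    have hcen := center_le_BorN hF' (n := e + 2) (by omega) x hx0
    obtain ⟨H, hH1, -⟩ := exists_PSU_of hF' hcen
    refine ⟨H, ?_⟩
    rw [hH1]
    have h3 := index_BorN_aniso hF' (n := e + 2) (by omega) (x := x) (by rw [hN]; exact one_ne_zero)
    rw [hN, card_Lev_even_ne hF' (n := e + 2) (by
      exact hev.add (by decide)) (one_pow 2) one_ne_zero, e1] at h3
    have h4 : 2 ^ (e + 1) * (2 ^ (e + 2) - 1) = 3 * (BorN x : Subgroup (Cfsg.SU (e + 2) F 2)).index := by
      rw [← h3]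
    rw [h4]
    simp

end Cfsg.Agent.S2153
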