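import Mathlib
-- Template for statement S2155 (row 2155; see /opt/grader/pristine/manifest.json for weights).
-- Copy to Cfsg/Agent/S2155.lean and replace the sorry. The statement below is byte-identical to the frozen
-- statement Cfsg.CfsgFrozen.S2155 (Cfsg/Statements/S2155.lean; the theorem Cfsg.kfact_parabolic_generalized_fitting_p_group);
-- the grader kernel-checks Cfsg.Agent.S2155.result against that frozen type. Keep the theorem IN THIS FILE
-- (a `result` declared elsewhere and merely imported here is not credited); helpers may live anywhere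
-- under Cfsg/Agent/.
import Cfsg.Statements.S2155
import Cfsg.Agent.Lib.ChevAut.ParabFit
import Cfsg.Agent.Lib.Chev.RelG2
import Cfsg.Agent.Lib.Chev.RootG2
import Cfsg.Agent.Lib.Chev.RelB2
import Cfsg.Agent.Lib.Chev.RootB2
import Cfsg.Agent.Lib.Chev.RelD4
import Cfsg.Agent.Lib.Chev.RootD4
import Cfsg.Agent.Lib.Chev.RelF4
import Cfsg.Agent.Lib.Chev.RootF4
import Cfsg.Agent.Lib.Chev.RelE6
import Cfsg.Agent.Lib.Chev.RootE6
import Cfsg.Agent.Lib.Chev.RelE7
import Cfsg.Agent.Lib.Chev.RootE7
import Cfsg.Agent.Lib.Chev.RelE8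
import Cfsg.Agent.Lib.Chev.RootE8
-- import your own Cfsg.Agent.* helpers here

set_option autoImplicit false
open Cfsg

namespace Cfsg.Agent.S2155

open Cfsg.Lie Cfsg.Agent.Lib.Chev Cfsg.Agent.Lib.ChevAut.ParabFit

/-- In a Chevalley group of type G₂, B₂, D₄, F₄, E₆, E₇ or E₈ over a finite field of characteristic p (for types G₂ and B₂ the field is assumed to have at least 3 elements, so that the group is simple), the generalized Fitting subgroup of every proper standard parabolic subgroup P_J is a p-group (P_J is p-constrained with trivial largest normal subgroup of order prime to p). -/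
theorem result {F : Type*} [Field F] [Fintype F] (p : ℕ) [Fact p.Prime] [CharP F p] (D : Cfsg.Lie.ChevalleyDatum) (hD : D ∈ [Cfsg.Lie.chevG2, Cfsg.Lie.chevB2, Cfsg.Lie.chevD4, Cfsg.Lie.chevF4, Cfsg.Lie.chevE6, Cfsg.Lie.chevE7, Cfsg.Lie.chevE8]) (hq : (D = Cfsg.Lie.chevG2 ∨ D = Cfsg.Lie.chevB2) → 3 ≤ Fintype.card F) (J : Set ℕ) (hJ : ∃ i, i < D.rank ∧ i ∉ J) : IsPGroup p ↥(Cfsg.generalizedFittingSubgroup ↥(D.parabolicSubgroup F J)) := by
  obtain ⟨k, hk, hkJ⟩ := hJ
  simp only [List.mem_cons, List.not_mem_nil, or_false] at hD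
  rcases hD with rfl | rfl | rfl | rfl | rfl | rfl | rfl
  · have hFl : Full _ _ _ chevG2 := ⟨RelG2.checks, RootG2.checks⟩
    exact fstar_main hFl p connG2 (by decide +kernel) (by decide +kernel) (T2_of_wf hFl (by decide +kernel)) hk hkJ
  · have hFl : Full _ _ _ chevB2 := ⟨RelB2.checks, RootB2.checks⟩
    exact fstar_main hFl p connB2 (by decide +kernel) (by decide +kernel) (by decide +kernel) hk hkJ
  · have hFl : Full _ _ _ chevD4 := ⟨RelD4.checks, RootD4.checks⟩
    exact fstar_main hFl p connD4 (by decide +kernel) (by decide +kernel) (T2_of_wf hFl (by decide +kernel)) hk hkJ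
  · have hFl : Full _ _ _ chevF4 := ⟨RelF4.checks, RootF4.checks⟩
    exact fstar_main hFl p connF4 (by decide +kernel) (by decide +kernel) (T2_of_wf hFl (by decide +kernel)) hk hkJ
  · have hFl : Full _ _ _ chevE6 := ⟨RelE6.checks, RootE6.checks⟩
    exact fstar_main hFl p connE6 (by decide +kernel) (by decide +kernel) (T2_of_wf hFl (by decide +kernel)) hk hkJ
  · have hFl : Full _ _ _ chevE7 := ⟨RelE7.checks, RootE7.checks⟩
    exact fstar_main hFl p connE7 (by decide +kernel) (by decide +kernel) (T2_of_wf hFl (by decide +kernel)) hk hkJ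
  · have hFl : Full _ _ _ chevE8 := ⟨RelE8.checks, RootE8.checks⟩
    exact fstar_main hFl p connE8 (by decide +kernel) (by decide +kernel) (T2_of_wf hFl (by decide +kernel)) hk hkJ

end Cfsg.Agent.S2155
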