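import Mathlib
import Cfsg.Statements.S2157

set_option autoImplicit false
open Cfsg

namespace Cfsg.Agent.S2157

open Cfsg.Lie Cfsg.Lie.ChevalleyDatum

/-- Check that a chain `s, u₁, u₂, …` in the table is consistent with `chainRoot`. -/
def stepOK (D : ChevalleyDatum) (r : ℕ) : ℕ → List (ℕ × ℤ) → Bool
  | _, [] => true
  | s, (u, _) :: rest => decide (s < D.nroots) && (D.chainRoot r s 1 == some u) && stepOK D r u rest

/-- The whole table check. -/
def chainOK (D : ChevalleyDatum) : Bool :=
  (List.range D.nroots).all fun r =>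
    (D.chain.getD r #[]).toList.all fun e => stepOK D r e.1 e.2.toList

theorem chainOK_G2 : chainOK chevG2 = true := by decide +kernel
theorem chainOK_B2 : chainOK chevB2 = true := by decide +kernel
theorem chainOK_D4 : chainOK chevD4 = true := by decide +kernel
theorem chainOK_F4 : chainOK chevF4 = true := by decide +kernel
theorem chainOK_E6 : chainOK chevE6 = true := by decide +kernel
theorem chainOK_E7 : chainOK chevE7 = true := by decide +kernel
theorem chainOK_E8 : chainOK chevE8 = true := by decide +kernel

variable {F : Type*} [Field F]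

theorem step_char (D : ChevalleyDatum) {χ : ℕ → Fˣ} (hχ : D.IsRootCharacter χ) {r : ℕ}
    (hr : r < D.nroots) : ∀ (l : List (ℕ × ℤ)) (s : ℕ), stepOK D r s l = true →
    ∀ (i : ℕ) (q : (ℕ × ℤ)), l[i]? = some q → χ q.1 = χ r ^ (i + 1) * χ s := by
  intro l
  induction l with
  | nil =>
    intro s _ i q h
    simp at h
  | cons a rest ih =>
    intro s hs i q h
    obtain ⟨u, m⟩ := a
    simp only [stepOK, Bool.and_eq_true, decide_eq_true_eq, beq_iff_eq] at hs
    obtain ⟨⟨hs1, hs2⟩, hs3⟩ := hs
    have hu : χ u = χ r * χ s := hχ.2 r s u hr hs1 hs2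
    cases i with
    | zero =>
      simp only [List.getElem?_cons_zero, Option.some.injEq] at h
      subst h
      simp [hu]
    | succ i =>
      simp only [List.getElem?_cons_succ] at h
      rw [ih u hs3 i q h, hu, pow_succ (χ r) (i + 1), mul_assoc]

theorem chainCoeff_char (D : ChevalleyDatum) (hD : chainOK D = true) {χ : ℕ → Fˣ}
    (hχ : D.IsRootCharacter χ) {r : ℕ} (hr : r < D.nroots) (s u : ℕ) (km : ℕ × ℤ)
    (hkm : km ∈ D.chainCoeff r s u) : χ u = χ r ^ km.1 * χ s := by
  simp only [chainCoeff, List.mem_flatMap, List.mem_filter, List.mem_map] at hkm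
  obtain ⟨e, ⟨he, hes⟩, q, ⟨hq, hqu⟩, rfl⟩ := hkm
  have hes' : e.1 = s := by simpa using hes
  have hqu' : q.1.1 = u := by simpa using hqu
  have h1 : stepOK D r e.1 e.2.toList = true := by
    have := List.all_eq_true.mp hD r (List.mem_range.mpr hr)
    exact List.all_eq_true.mp this e he
  have h2 : e.2.toList[q.2]? = some q.1 := by
    exact List.mem_zipIdx_iff_getElem?.mp hq
  have := step_char D hχ hr _ _ h1 q.2 q.1 h2
  rw [hqu', hes'] at this
  exact this

theorem main_identity (D : ChevalleyDatum) (hD : chainOK D = true) (χ : ℕ → Fˣ)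
    (hχ : D.IsRootCharacter χ) (r : ℕ) (hr : r < D.nroots) (t : F) :
    D.charDiag F χ * D.x F r t * D.charDiag F (fun s => (χ s)⁻¹) = D.x F r ((χ r : F) * t) := by
  have hx : ∀ t : F, D.x F r t = D.xMat F ⟨r, hr⟩ t := fun t => by simp [ChevalleyDatum.x, hr]
  rw [hx, hx]
  ext row col
  simp only [charDiag, Matrix.diagonal_mul, Matrix.mul_diagonal, xMat, Matrix.of_apply]
  have hχr : ((χ r : Fˣ) : F) ≠ 0 := (χ r).ne_zero
  rcases col with i | s
  · rcases row with i' | u
    · simp
    · simp only [Sum.elim_inl, Sum.elim_inr]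
      by_cases hu : u = (⟨r, hr⟩ : Fin D.nroots)
      · subst hu
        simp only [if_true]
        ring
      · simp only [if_neg hu]
        ring
  · rcases row with i' | u
    · by_cases hs : s = (⟨r, hr⟩ : Fin D.nroots)
      · simp [hs]
      · simp only [if_neg hs]
        by_cases hn : s.val = D.negIdx.getD r 0
        · have hsn : χ s.val = (χ r)⁻¹ := by rw [hn]; exact hχ.1 r hr
          simp only [if_pos hn, Sum.elim_inl, Sum.elim_inr, hsn, inv_inv]
          ring
        · simp only [if_neg hn]
          simp
    · simp only [Sum.elim_inr]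
      have hsu : ((χ s.val)⁻¹ : Fˣ) = ((χ s.val : Fˣ) : F)⁻¹ := by simp
      by_cases hs : s = (⟨r, hr⟩ : Fin D.nroots)
      · subst hs
        by_cases hu : u = (⟨r, hr⟩ : Fin D.nroots)
        · subst hu
          simp [hχr]
        · simp [hu]
      · simp only [if_neg hs]
        by_cases hn : s.val = D.negIdx.getD r 0
        · have hsn : χ s.val = (χ r)⁻¹ := by rw [hn]; exact hχ.1 r hr
          simp only [if_pos hn, hsn, inv_inv]
          by_cases hus : u = s
          · subst hus
            simp [hsn, hχr]
          · simp only [if_neg hus]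
            by_cases hur : u = (⟨r, hr⟩ : Fin D.nroots)
            · subst hur
              simp only [if_true]
              ring
            · simp [hur]
        · simp only [if_neg hn]
          have hs0 : ((χ s.val : Fˣ) : F) ≠ 0 := (χ s.val).ne_zero
          rw [mul_add, add_mul]
          congr 1
          · by_cases hus : u = s
            · subst hus
              simp [hs0]
            · simp [hus]
          · rw [← List.sum_map_mul_left, ← List.sum_map_mul_right]
            congr 1
            apply List.map_congr_left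
            intro km hkm
            have h1 := chainCoeff_char D hD hχ hr s.val u.val km hkm
            rw [h1]
            simp only [Units.val_mul, Units.val_pow_eq_pow_val, Units.val_inv_eq_inv_val]
            field_simp
            rw [mul_pow]
            ring

/-- In a Chevalley group of type G₂, B₂, D₄, F₄, E₆, E₇ or E₈, for every character `χ` of the root lattice with values in `Fˣ` the diagonal matrix `ĥ(χ)` (identity on the coroot coordinates, `χ(s)` on the coordinate of `e_s`) conjugates each root element `x_r(t)` to `x_r(χ(r) t)`: `ĥ(χ) x_r(t) ĥ(χ)⁻¹ = x_r(χ(r) t)` as matrices, with `ĥ(χ)⁻¹` written as `ĥ(χ⁻¹)`. -/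
theorem result {F : Type*} [Field F] (D : Cfsg.Lie.ChevalleyDatum) (hD : D ∈ [Cfsg.Lie.chevG2, Cfsg.Lie.chevB2, Cfsg.Lie.chevD4, Cfsg.Lie.chevF4, Cfsg.Lie.chevE6, Cfsg.Lie.chevE7, Cfsg.Lie.chevE8]) (χ : ℕ → Fˣ) (hχ : D.IsRootCharacter χ) (r : ℕ) (hr : r < D.nroots) (t : F) :
    D.charDiag F χ * D.x F r t * D.charDiag F (fun s => (χ s)⁻¹) = D.x F r ((χ r : F) * t) := by
  have hok : chainOK D = true := by
    simp only [List.mem_cons, List.not_mem_nil, or_false] at hD
    rcases hD with rfl | rfl | rfl | rfl | rfl | rfl | rfl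
    · exact chainOK_G2
    · exact chainOK_B2
    · exact chainOK_D4
    · exact chainOK_F4
    · exact chainOK_E6
    · exact chainOK_E7
    · exact chainOK_E8
  exact main_identity D hok χ hχ r hr t

end Cfsg.Agent.S2157
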