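import Mathlib
-- Template for statement S2158 (row 2158; see /opt/grader/pristine/manifest.json for weights).
-- Copy to Cfsg/Agent/S2158.lean and replace the sorry. The statement below is byte-identical to the frozen
-- statement Cfsg.CfsgFrozen.S2158 (Cfsg/Statements/S2158.lean; the theorem Cfsg.kfact2_chevalley_group_inf_character_diagonal);
-- the grader kernel-checks Cfsg.Agent.S2158.result against that frozen type. Keep the theorem IN THIS FILE
-- (a `result` declared elsewhere and merely imported here is not credited); helpers may live anywhere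
-- under Cfsg/Agent/.
import Cfsg.Statements.S2158
import Cfsg.Agent.S2157
import Cfsg.Agent.Lib.ChevAut.SimpleMap
import Cfsg.Agent.Lib.Chev.RelG2
import Cfsg.Agent.Lib.Chev.RootG2
import Cfsg.Agent.Lib.Chev.RelB2
import Cfsg.Agent.Lib.Chev.RootB2
import Cfsg.Agent.Lib.Chev.RelD4
import Cfsg.Agent.Lib.Chev.RootD4
import Cfsg.Agent.Lib.Chev.RelF4
import Cfsg.Agent.Lib.Chev.RootF4
import Cfsg.Agent.Lib.Chev.RelE6
import Cfsg.Agent.Lib.Chev.RootE6
import Cfsg.Agent.Lib.Chev.RelE7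
import Cfsg.Agent.Lib.Chev.RootE7
import Cfsg.Agent.Lib.Chev.RelE8
import Cfsg.Agent.Lib.Chev.RootE8
-- import your own Cfsg.Agent.* helpers here

set_option autoImplicit false
open Cfsg

namespace Cfsg.Agent.S2158

open Cfsg.Lie Cfsg.Agent.Lib.Chev Cfsg.Agent.Lib.ChevAut in
theorem main {T : Tabs} {X : Extra} {R : RootTab} {D : ChevalleyDatum} (hF : Full T X R D)
    (hD : D ∈ [Cfsg.Lie.chevG2, Cfsg.Lie.chevB2, Cfsg.Lie.chevD4, Cfsg.Lie.chevF4, Cfsg.Lie.chevE6, Cfsg.Lie.chevE7, Cfsg.Lie.chevE8])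
    {F : Type*} [Field F] (χ : ℕ → Fˣ) (hχ : D.IsRootCharacter χ) (g : GL D.Idx F) (hg : g ∈ D.group F)
    (hgχ : (g : Matrix D.Idx D.Idx F) = D.charDiag F χ) : g ∈ D.diagonalSubgroup F := by
  have hinv : ((g⁻¹ : GL D.Idx F) : Matrix D.Idx D.Idx F) = D.charDiag F (fun r => (χ r)⁻¹) := by
    apply Units.inv_eq_of_mul_eq_one_right
    rw [hgχ]
    unfold ChevalleyDatum.charDiag
    rw [Matrix.diagonal_mul_diagonal]
    rw [← Matrix.diagonal_one]
    congr 1
    funext a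
    rcases a with i | s
    · simp
    · simp
  have hact : ∀ (r : ℕ) (hr : r < D.nroots) (t : F),
      g * hF.c.xG r t * g⁻¹ = hF.c.xG r ((χ r : F) * t) := by
    intro r hr t
    apply Units.ext
    simp only [Units.val_mul, Checks.coe_xG]
    rw [hgχ, hinv]
    exact Cfsg.Agent.S2157.result D hD χ hχ r hr t
  let x : ↥(D.group F) := ⟨g, hg⟩
  have h1 := nrm_of_root_action hF (θ := MulAut.conj x)
    (fun r hr t => ⟨_, Subtype.ext (hact r hr t)⟩)
    (fun r hr t => ⟨((χ r)⁻¹ : Fˣ) * t, by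
      rw [MulEquiv.symm_apply_eq]
      apply Subtype.ext
      show hF.c.xG r t = g * hF.c.xG r _ * g⁻¹
      rw [hact r hr, ← mul_assoc]
      simp⟩)
  exact mem_diagonal_of_nrm hF h1

/-- In a Chevalley group of type G₂, B₂, D₄, F₄, E₆, E₇ or E₈ over any field, an element of the group whose matrix is the diagonal matrix `ĥ(χ)` of a character `χ` of the root lattice already lies in the diagonal subgroup H (the non-trivial inclusion of the statement that the group meets the group of all such diagonal matrices in H). -/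
theorem result {F : Type*} [Field F] (D : Cfsg.Lie.ChevalleyDatum) (hD : D ∈ [Cfsg.Lie.chevG2, Cfsg.Lie.chevB2, Cfsg.Lie.chevD4, Cfsg.Lie.chevF4, Cfsg.Lie.chevE6, Cfsg.Lie.chevE7, Cfsg.Lie.chevE8]) (χ : ℕ → Fˣ) (hχ : D.IsRootCharacter χ) (g : GL D.Idx F) (hg : g ∈ D.group F)
    (hgχ : (g : Matrix D.Idx D.Idx F) = D.charDiag F χ) : g ∈ D.diagonalSubgroup F := by
  simp only [List.mem_cons, List.not_mem_nil, or_false] at hD
  have hD' := hD
  rcases hD with rfl | rfl | rfl | rfl | rfl | rfl | rfl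
  · exact main ⟨Cfsg.Agent.Lib.Chev.RelG2.checks, Cfsg.Agent.Lib.Chev.RootG2.checks⟩ (by simp) χ hχ g hg hgχ
  · exact main ⟨Cfsg.Agent.Lib.Chev.RelB2.checks, Cfsg.Agent.Lib.Chev.RootB2.checks⟩ (by simp) χ hχ g hg hgχ
  · exact main ⟨Cfsg.Agent.Lib.Chev.RelD4.checks, Cfsg.Agent.Lib.Chev.RootD4.checks⟩ (by simp) χ hχ g hg hgχ
  · exact main ⟨Cfsg.Agent.Lib.Chev.RelF4.checks, Cfsg.Agent.Lib.Chev.RootF4.checks⟩ (by simp) χ hχ g hg hgχ
  · exact main ⟨Cfsg.Agent.Lib.Chev.RelE6.checks, Cfsg.Agent.Lib.Chev.RootE6.checks⟩ (by simp) χ hχ g hg hgχ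
  · exact main ⟨Cfsg.Agent.Lib.Chev.RelE7.checks, Cfsg.Agent.Lib.Chev.RootE7.checks⟩ (by simp) χ hχ g hg hgχ
  · exact main ⟨Cfsg.Agent.Lib.Chev.RelE8.checks, Cfsg.Agent.Lib.Chev.RootE8.checks⟩ (by simp) χ hχ g hg hgχ

end Cfsg.Agent.S2158
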