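import Mathlib
-- Template for statement S2160 (row 2160; see /opt/grader/pristine/manifest.json for weights).
-- Copy to Cfsg/Agent/S2160.lean and replace the sorry. The statement below is byte-identical to the frozen
-- statement Cfsg.CfsgFrozen.S2160 (Cfsg/Statements/S2160.lean; the theorem Cfsg.kfact2_chevalley_field_graph_automorphisms_commute);
-- the grader kernel-checks Cfsg.Agent.S2160.result against that frozen type. Keep the theorem IN THIS FILE
-- (a `result` declared elsewhere and merely imported here is not credited); helpers may live anywhere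
-- under Cfsg/Agent/.
import Cfsg.Statements.S2160
import Cfsg.Agent.Lib.ChevSimpleGen
import Cfsg.Agent.Lib.Chev.RelG2
import Cfsg.Agent.Lib.Chev.RootG2
import Cfsg.Agent.Lib.Chev.RelB2
import Cfsg.Agent.Lib.Chev.RootB2
import Cfsg.Agent.Lib.Chev.RelD4
import Cfsg.Agent.Lib.Chev.RootD4
import Cfsg.Agent.Lib.Chev.RelF4
import Cfsg.Agent.Lib.Chev.RootF4
import Cfsg.Agent.Lib.Chev.RelE6
import Cfsg.Agent.Lib.Chev.RootE6
import Cfsg.Agent.Lib.Chev.RelE7
import Cfsg.Agent.Lib.Chev.RootE7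
import Cfsg.Agent.Lib.Chev.RelE8
import Cfsg.Agent.Lib.Chev.RootE8

set_option autoImplicit false
open Cfsg

namespace Cfsg.Agent.S2160

open Cfsg.Lie Cfsg.Agent.Lib.Chev in
theorem main {T : Tabs} {X : Extra} {R : RootTab} {D : ChevalleyDatum} (hF : Full T X R D)
    {F : Type*} [Field F] (f g : ↥(D.group F) ≃* ↥(D.group F))
    (hf : D.IsFieldAut f) (hg : D.IsGraphAut g) (y : ↥(D.group F)) : f (g y) = g (f y) := by
  obtain ⟨σ, hσ⟩ := hf
  obtain ⟨π, -, hπ⟩ := hg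
  have hsimple : ∀ i : Fin D.rank, D.simple i < D.nroots := fun i => Full.simple_lt hF i.2
  refine Cfsg.Agent.Lib.ChevSimpleGen.hom_ext hF (f.toMonoidHom.comp g.toMonoidHom)
    (g.toMonoidHom.comp f.toMonoidHom) ?_ y
  rintro y ⟨i, hi, t, hy | hy⟩
  · let i' : Fin D.rank := ⟨i, hi⟩
    have h1 := (hπ y i' t).1 hy
    have h2 := hσ (g y) _ _ (hsimple (π i')) h1
    have h3 := hσ y _ t (hsimple i') hy
    have h4 := (hπ (f y) i' (σ t)).1 h3
    apply Subtype.ext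
    apply Units.ext
    show (((f (g y) : ↥(D.group F)) : GL D.Idx F) : Matrix D.Idx D.Idx F) = ((g (f y) : ↥(D.group F)) : GL D.Idx F)
    rw [h2, h4, map_pow]
  · let i' : Fin D.rank := ⟨i, hi⟩
    have h1 := (hπ y i' t).2 hy
    have h2 := hσ (g y) _ _ (Full.neg_lt hF (hsimple (π i'))) h1
    have h3 := hσ y _ t (Full.neg_lt hF (hsimple i')) hy
    have h4 := (hπ (f y) i' (σ t)).2 h3
    apply Subtype.ext
    apply Units.ext
    show (((f (g y) : ↥(D.group F)) : GL D.Idx F) : Matrix D.Idx D.Idx F) = ((g (f y) : ↥(D.group F)) : GL D.Idx F)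
    rw [h2, h4, map_pow]


/-- In a Chevalley group of type G₂, B₂, D₄, F₄, E₆, E₇ or E₈ over a finite field, every field automorphism commutes with every graph automorphism. -/
theorem result {F : Type*} [Field F] [Finite F] (D : Cfsg.Lie.ChevalleyDatum) (hD : D ∈ [Cfsg.Lie.chevG2, Cfsg.Lie.chevB2, Cfsg.Lie.chevD4, Cfsg.Lie.chevF4, Cfsg.Lie.chevE6, Cfsg.Lie.chevE7, Cfsg.Lie.chevE8]) (f g : ↥(D.group F) ≃* ↥(D.group F))
    (hf : D.IsFieldAut f) (hg : D.IsGraphAut g) (y : ↥(D.group F)) : f (g y) = g (f y) := by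
  simp only [List.mem_cons, List.not_mem_nil, or_false] at hD
  rcases hD with rfl | rfl | rfl | rfl | rfl | rfl | rfl
  · have hF : Cfsg.Agent.Lib.Chev.Full _ _ _ Cfsg.Lie.chevG2 :=
      ⟨Cfsg.Agent.Lib.Chev.RelG2.checks, Cfsg.Agent.Lib.Chev.RootG2.checks⟩
    exact main hF f g hf hg y
  · have hF : Cfsg.Agent.Lib.Chev.Full _ _ _ Cfsg.Lie.chevB2 :=
      ⟨Cfsg.Agent.Lib.Chev.RelB2.checks, Cfsg.Agent.Lib.Chev.RootB2.checks⟩
    exact main hF f g hf hg y
  · have hF : Cfsg.Agent.Lib.Chev.Full _ _ _ Cfsg.Lie.chevD4 :=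
      ⟨Cfsg.Agent.Lib.Chev.RelD4.checks, Cfsg.Agent.Lib.Chev.RootD4.checks⟩
    exact main hF f g hf hg y
  · have hF : Cfsg.Agent.Lib.Chev.Full _ _ _ Cfsg.Lie.chevF4 :=
      ⟨Cfsg.Agent.Lib.Chev.RelF4.checks, Cfsg.Agent.Lib.Chev.RootF4.checks⟩
    exact main hF f g hf hg y
  · have hF : Cfsg.Agent.Lib.Chev.Full _ _ _ Cfsg.Lie.chevE6 :=
      ⟨Cfsg.Agent.Lib.Chev.RelE6.checks, Cfsg.Agent.Lib.Chev.RootE6.checks⟩
    exact main hF f g hf hg y
  · have hF : Cfsg.Agent.Lib.Chev.Full _ _ _ Cfsg.Lie.chevE7 :=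
      ⟨Cfsg.Agent.Lib.Chev.RelE7.checks, Cfsg.Agent.Lib.Chev.RootE7.checks⟩
    exact main hF f g hf hg y
  · have hF : Cfsg.Agent.Lib.Chev.Full _ _ _ Cfsg.Lie.chevE8 :=
      ⟨Cfsg.Agent.Lib.Chev.RelE8.checks, Cfsg.Agent.Lib.Chev.RootE8.checks⟩
    exact main hF f g hf hg y

end Cfsg.Agent.S2160
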