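import Mathlib
-- Template for statement S2161 (row 2161; see /opt/grader/pristine/manifest.json for weights).
-- Copy to Cfsg/Agent/S2161.lean and replace the sorry. The statement below is byte-identical to the frozen
-- statement Cfsg.CfsgFrozen.S2161 (Cfsg/Statements/S2161.lean; the theorem Cfsg.kfact2_chevalley_graph_automorphism_root_elem_signs);
-- the grader kernel-checks Cfsg.Agent.S2161.result against that frozen type. Keep the theorem IN THIS FILE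
-- (a `result` declared elsewhere and merely imported here is not credited); helpers may live anywhere
-- under Cfsg/Agent/.
import Cfsg.Statements.S2161
import Cfsg.Agent.Lib.Chev.BNPairChev
import Cfsg.Agent.Lib.Chev.RelD4
import Cfsg.Agent.Lib.Chev.RootD4
import Cfsg.Agent.Lib.Chev.RelE6
import Cfsg.Agent.Lib.Chev.RootE6
-- import your own Cfsg.Agent.* helpers here

set_option autoImplicit false
set_option linter.unusedSectionVars false
set_option linter.unusedVariables false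
open Cfsg

namespace Cfsg.Agent.S2161

open Cfsg.Lie Matrix Cfsg.Agent.Lib.Chev Cfsg.Agent.Lib.Chev.Full

section Gen

variable {T : Tabs} {X : Extra} {R : RootTab} {D : ChevalleyDatum} (hF : Full T X R D)
variable {F : Type*} [Field F]

include hF

theorem main_aux (π : Equiv.Perm (Fin D.rank))
    (hb : ∀ j : Fin D.rank, D.permRoot π (D.simple j) = D.simple (π j))
    (hw : ∀ (j : Fin D.rank), ∀ s < D.nroots, X.wf (π j) (D.permRoot π s) = D.permRoot π (X.wf j s))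
    (hlt : ∀ s < D.nroots, D.permRoot π s < D.nroots)
    (φ : ↥(D.group F) ≃* ↥(D.group F))
    (hφ : ∀ (g : ↥(D.group F)) (i : Fin D.rank) (t : F),
      (((g : GL D.Idx F) : Matrix D.Idx D.Idx F) = D.x F (D.simple i) t →
        ((φ g : GL D.Idx F) : Matrix D.Idx D.Idx F) = D.x F (D.simple (π i)) t) ∧
      (((g : GL D.Idx F) : Matrix D.Idx D.Idx F) = D.x F (D.neg (D.simple i)) t →
        ((φ g : GL D.Idx F) : Matrix D.Idx D.Idx F) = D.x F (D.neg (D.simple (π i))) t))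
    (r : ℕ) (hr : r < D.nroots) :
    ∃ ε : F, (ε = 1 ∨ ε = -1) ∧ ∀ (g : ↥(D.group F)) (t : F),
      ((g : GL D.Idx F) : Matrix D.Idx D.Idx F) = D.x F r t →
        ((φ g : GL D.Idx F) : Matrix D.Idx D.Idx F) = D.x F (D.permRoot π r) (ε * t) := by
  -- the images of the `n_j`
  have hn : ∀ j : Fin D.rank, φ ⟨hF.nS j, hF.nS_mem_group j.2⟩ = ⟨hF.nS (π j), hF.nS_mem_group (π j).2⟩ := by
    intro j
    have h1 : (⟨hF.nS j, hF.nS_mem_group j.2⟩ : ↥(D.group F)) =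
        ⟨hF.c.xG (D.simple j) 1, hF.c.xG_mem_group (hF.simple_lt j.2) 1⟩ *
        ⟨hF.c.xG (D.neg (D.simple j)) (-(1 : F)⁻¹), hF.c.xG_mem_group (hF.neg_lt (hF.simple_lt j.2)) _⟩ *
        ⟨hF.c.xG (D.simple j) 1, hF.c.xG_mem_group (hF.simple_lt j.2) 1⟩ := Subtype.ext rfl
    rw [h1, map_mul, map_mul]
    apply Subtype.ext
    apply Units.ext
    show _ = ((hF.c.xG (D.simple (π j)) 1 * hF.c.xG (D.neg (D.simple (π j))) (-(1 : F)⁻¹) *
      hF.c.xG (D.simple (π j)) 1 : GL D.Idx F) : Matrix D.Idx D.Idx F)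
    simp only [Subgroup.coe_mul, Units.val_mul, Checks.coe_xG]
    rw [(hφ _ j 1).1 rfl, (hφ _ j (-(1 : F)⁻¹)).2 rfl]
  revert r
  refine hF.root_induction (P := fun r => ∃ ε : F, (ε = 1 ∨ ε = -1) ∧ ∀ (g : ↥(D.group F)) (t : F),
      ((g : GL D.Idx F) : Matrix D.Idx D.Idx F) = D.x F r t →
        ((φ g : GL D.Idx F) : Matrix D.Idx D.Idx F) = D.x F (D.permRoot π r) (ε * t)) ?_ ?_
  · intro j hj
    refine ⟨1, Or.inl rfl, fun g t hg => ?_⟩
    rw [hb ⟨j, hj⟩, one_mul]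
    exact (hφ g ⟨j, hj⟩ t).1 hg
  · intro j hj s hs ⟨ε, hε, hP⟩
    let η : F := ((X.eta j s : ℤ) : F)
    have hη : η * η = 1 := hF.eta_sq hj hs
    let j' : Fin D.rank := ⟨j, hj⟩
    have hs' := hlt s hs
    let η' : F := ((X.eta (π j') (D.permRoot π s) : ℤ) : F)
    have hη' : η' * η' = 1 := hF.eta_sq (π j').2 hs'
    have hε2 : ε * ε = 1 := by
      rcases hε with rfl | rfl <;> simp
    refine ⟨η' * ε * η, ?_, fun g u hg => ?_⟩
    · have h1 : (η' * ε * η) * (η' * ε * η) = 1 := by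
        calc (η' * ε * η) * (η' * ε * η) = (η' * η') * (ε * ε) * (η * η) := by ring
          _ = 1 := by rw [hη', hε2, hη]; ring
      exact mul_self_eq_one_iff.1 h1
    · -- `g = n x_s(η u) n⁻¹`
      have hg' : g = ⟨hF.nS j, hF.nS_mem_group hj⟩ * ⟨hF.c.xG s (η * u), hF.c.xG_mem_group hs _⟩ *
          ⟨hF.nS j, hF.nS_mem_group hj⟩⁻¹ := by
        apply Subtype.ext
        show g.1 = hF.nS j * hF.c.xG s (η * u) * (hF.nS j)⁻¹
        rw [hF.nS_conj_xG hj hs, ← mul_assoc, hη, one_mul]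
        exact hF.c.eq_xG hg
      have hx := hP ⟨hF.c.xG s (η * u), hF.c.xG_mem_group hs _⟩ (η * u) rfl
      have hnj := hn j'
      rw [hg', map_mul, map_mul, map_inv]
      have h3 : φ ⟨hF.nS j, hF.nS_mem_group hj⟩ = ⟨hF.nS (π j'), hF.nS_mem_group (π j').2⟩ := hnj
      rw [h3]
      have h4 : ((φ ⟨hF.c.xG s (η * u), hF.c.xG_mem_group hs _⟩ : ↥(D.group F)) : GL D.Idx F) =
          hF.c.xG (D.permRoot π s) (ε * (η * u)) := hF.c.eq_xG hx
      show (((hF.nS (π j') : GL D.Idx F) * ((φ ⟨hF.c.xG s (η * u), hF.c.xG_mem_group hs _⟩ : ↥(D.group F)) : GL D.Idx F) *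
        (hF.nS (π j'))⁻¹ : GL D.Idx F) : Matrix D.Idx D.Idx F) = _
      rw [h4, hF.nS_conj_xG (π j').2 hs', hw j' s hs]
      show D.x F _ _ = _
      congr 1
      show η' * (ε * (η * u)) = _
      ring

end Gen

/-- For the Chevalley groups of types D₄ and E₆ (one root length) over any field: if `π` is a symmetry of the Dynkin diagram and `φ` is an automorphism sending `x_{p_i}(t)` to `x_{p_{π i}}(t)` and `x_{-p_i}(t)` to `x_{-p_{π i}}(t)` for every fundamental root `p_i`, then for every root `r` there is a sign `ε = ±1` with `φ(x_r(t)) = x_{π·r}(ε t)` for all `t`, where `π·r` is the root whose coefficients are those of `r` permuted by `π`. -/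
theorem result {F : Type*} [Field F] (D : Cfsg.Lie.ChevalleyDatum) (hD : D ∈ [Cfsg.Lie.chevD4, Cfsg.Lie.chevE6])
    (π : Equiv.Perm (Fin D.rank)) (hπ : D.IsDiagramSymmetry π) (φ : ↥(D.group F) ≃* ↥(D.group F))
    (hφ : ∀ (g : ↥(D.group F)) (i : Fin D.rank) (t : F),
      (((g : GL D.Idx F) : Matrix D.Idx D.Idx F) = D.x F (D.simple i) t →
        ((φ g : GL D.Idx F) : Matrix D.Idx D.Idx F) = D.x F (D.simple (π i)) t) ∧
      (((g : GL D.Idx F) : Matrix D.Idx D.Idx F) = D.x F (D.neg (D.simple i)) t →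
        ((φ g : GL D.Idx F) : Matrix D.Idx D.Idx F) = D.x F (D.neg (D.simple (π i))) t))
    (r : ℕ) (hr : r < D.nroots) :
    ∃ ε : F, (ε = 1 ∨ ε = -1) ∧ ∀ (g : ↥(D.group F)) (t : F),
      ((g : GL D.Idx F) : Matrix D.Idx D.Idx F) = D.x F r t →
        ((φ g : GL D.Idx F) : Matrix D.Idx D.Idx F) = D.x F (D.permRoot π r) (ε * t) := by
  simp only [List.mem_cons, List.not_mem_nil, or_false] at hD
  rcases hD with rfl | rfl
  · have hFl : Cfsg.Agent.Lib.Chev.Full _ _ _ Cfsg.Lie.chevD4 :=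
      ⟨Cfsg.Agent.Lib.Chev.RelD4.checks, Cfsg.Agent.Lib.Chev.RootD4.checks⟩
    have hall : ∀ π : Equiv.Perm (Fin Cfsg.Lie.chevD4.rank), (∀ i j : Fin Cfsg.Lie.chevD4.rank, i ≠ j → Cfsg.Lie.chevD4.bonds (π i) (π j) = Cfsg.Lie.chevD4.bonds i j) →
        (∀ j : Fin Cfsg.Lie.chevD4.rank, Cfsg.Lie.chevD4.permRoot π (Cfsg.Lie.chevD4.simple j) = Cfsg.Lie.chevD4.simple (π j)) ∧
        (∀ (j : Fin Cfsg.Lie.chevD4.rank), ∀ s < Cfsg.Lie.chevD4.nroots, Cfsg.Agent.Lib.Chev.TabD4.X.wf (π j) (Cfsg.Lie.chevD4.permRoot π s) = Cfsg.Lie.chevD4.permRoot π (Cfsg.Agent.Lib.Chev.TabD4.X.wf j s)) ∧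
        (∀ s < Cfsg.Lie.chevD4.nroots, Cfsg.Lie.chevD4.permRoot π s < Cfsg.Lie.chevD4.nroots) := by
      decide +kernel
    obtain ⟨h1, h2, h3⟩ := hall π hπ
    exact main_aux hFl π h1 h2 h3 φ hφ r hr
  · have hFl : Cfsg.Agent.Lib.Chev.Full _ _ _ Cfsg.Lie.chevE6 :=
      ⟨Cfsg.Agent.Lib.Chev.RelE6.checks, Cfsg.Agent.Lib.Chev.RootE6.checks⟩
    have hall : ∀ π : Equiv.Perm (Fin Cfsg.Lie.chevE6.rank), (∀ i j : Fin Cfsg.Lie.chevE6.rank, i ≠ j → Cfsg.Lie.chevE6.bonds (π i) (π j) = Cfsg.Lie.chevE6.bonds i j) →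
        (∀ j : Fin Cfsg.Lie.chevE6.rank, Cfsg.Lie.chevE6.permRoot π (Cfsg.Lie.chevE6.simple j) = Cfsg.Lie.chevE6.simple (π j)) ∧
        (∀ (j : Fin Cfsg.Lie.chevE6.rank), ∀ s < Cfsg.Lie.chevE6.nroots, Cfsg.Agent.Lib.Chev.TabE6.X.wf (π j) (Cfsg.Lie.chevE6.permRoot π s) = Cfsg.Lie.chevE6.permRoot π (Cfsg.Agent.Lib.Chev.TabE6.X.wf j s)) ∧
        (∀ s < Cfsg.Lie.chevE6.nroots, Cfsg.Lie.chevE6.permRoot π s < Cfsg.Lie.chevE6.nroots) := by
      decide +kernel
    obtain ⟨h1, h2, h3⟩ := hall π hπ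
    exact main_aux hFl π h1 h2 h3 φ hφ r hr

end Cfsg.Agent.S2161
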