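import Mathlib
import Cfsg.Statements.S2302

set_option autoImplicit false
open Cfsg

namespace Cfsg.Agent.S2302

open Matrix

variable {F : Type*} [Field F]

local notation "SL2" => Matrix.SpecialLinearGroup (Fin 2) F

theorem sl2_form (g : SL2) : ∃ a b c d : F, (g : Matrix (Fin 2) (Fin 2) F) = !![a, b; c, d] ∧
    a * d - b * c = 1 := by
  refine ⟨_, _, _, _, Matrix.eta_fin_two _, ?_⟩
  have := g.2
  rwa [Matrix.det_fin_two] at this

/-- An explicit element of SL₂. -/
def mkSL (a b c d : F) (h : a * d - b * c = 1) : SL2 :=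
  ⟨!![a, b; c, d], by rw [Matrix.det_fin_two_of]; exact h⟩

@[simp] theorem coe_mkSL (a b c d : F) (h : a * d - b * c = 1) :
    ((mkSL a b c d h : SL2) : Matrix (Fin 2) (Fin 2) F) = !![a, b; c, d] := rfl

theorem eq_of_coe (g h : SL2) (hh : (g : Matrix (Fin 2) (Fin 2) F) = h) : g = h :=
  Subtype.ext hh

variable [CharP F 2]

theorem two_zero : (2 : F) = 0 := CharTwo.two_eq_zero

/-- The shape of an involution. -/
theorem invol_entries (g : SL2) (h : g * g = 1) {a b c d : F}
    (hg : (g : Matrix (Fin 2) (Fin 2) F) = !![a, b; c, d]) :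
    d = a ∧ a ^ 2 + b * c = 1 := by
  have hm : (g : Matrix (Fin 2) (Fin 2) F) * g = 1 := by
    have := congrArg (fun x : SL2 => (x : Matrix (Fin 2) (Fin 2) F)) h
    simpa using this
  rw [hg] at hm
  have e00 := congrFun (congrFun hm 0) 0
  have e11 := congrFun (congrFun hm 1) 1
  simp [Matrix.mul_apply, Fin.sum_univ_two] at e00 e11
  have h2 : (2 : F) = 0 := two_zero
  have hdet : a * d - b * c = 1 := by
    have := g.2
    rw [hg, Matrix.det_fin_two_of] at this
    exact this
  have hsq : (d - a) ^ 2 = 0 := by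
    linear_combination e00 + e11 + (1 - b * c - a * d) * h2
  have hda : d = a := by
    have := pow_eq_zero_iff (two_ne_zero) |>.mp hsq
    exact sub_eq_zero.mp this
  exact ⟨hda, by linear_combination e00⟩

theorem sqrt_exists [Fintype F] (x : F) : ∃ y : F, y ^ 2 = x := by
  obtain ⟨y, hy⟩ := FiniteField.isSquare_of_char_two (ringChar.eq F 2) x
  exact ⟨y, by rw [hy, pow_two]⟩

/-- The standard transvection. -/
def u0 : SL2 := mkSL 1 1 0 1 (by ring)

theorem conj_u0 [Fintype F] (g : SL2) (h1 : g * g = 1) (hne : g ≠ 1) : IsConj u0 g := by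
  obtain ⟨a, b, c, d, hg, hdet⟩ := sl2_form g
  obtain ⟨rfl, hsq⟩ := invol_entries g h1 hg
  have h2 : (2 : F) = 0 := two_zero
  rw [isConj_iff]
  by_cases hb : b = 0
  · subst hb
    have ha : d = 1 := by
      have : (d - 1) ^ 2 = 0 := by
        linear_combination hsq - d * h2 + h2
      have := pow_eq_zero_iff (two_ne_zero) |>.mp this
      exact sub_eq_zero.mp this
    subst ha
    have hc : c ≠ 0 := by
      rintro rfl
      apply hne
      apply Subtype.ext
      rw [hg]
      ext i j
      fin_cases i <;> fin_cases j <;> simp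
    obtain ⟨s, hs⟩ := sqrt_exists (c⁻¹)
    have hs2 : s * s * c = 1 := by
      rw [← pow_two, hs]
      field_simp
    refine ⟨mkSL 0 s (s * c) 0 (by linear_combination -hs2 - h2), ?_⟩
    rw [mul_inv_eq_iff_eq_mul]
    apply Subtype.ext
    simp only [Matrix.SpecialLinearGroup.coe_mul, hg, u0, coe_mkSL]
    ext i j
    fin_cases i <;> fin_cases j <;> simp [Matrix.mul_apply, Fin.sum_univ_two]
    · ring
  · obtain ⟨s, hs⟩ := sqrt_exists (b⁻¹)
    have hs2 : s * s * b = 1 := by
      rw [← pow_two, hs]
      field_simp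
    refine ⟨mkSL (s * b) 0 (s * (d + 1)) s (by linear_combination hs2), ?_⟩
    rw [mul_inv_eq_iff_eq_mul]
    apply Subtype.ext
    simp only [Matrix.SpecialLinearGroup.coe_mul, hg, u0, coe_mkSL]
    ext i j
    fin_cases i <;> fin_cases j <;> simp [Matrix.mul_apply, Fin.sum_univ_two]
    · linear_combination -s * d * b * h2
    · ring
    · linear_combination -s * hsq
    · linear_combination s * h2

theorem of_order (g : SL2) (hg : orderOf g = 2) : g * g = 1 ∧ g ≠ 1 := by
  constructor
  · rw [← pow_two]
    have := pow_orderOf_eq_one g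
    rwa [hg] at this
  · rintro rfl
    simp at hg

theorem order_of (g : SL2) (h1 : g * g = 1) (h2 : g ≠ 1) : orderOf g = 2 := by
  haveI : Fact (Nat.Prime 2) := ⟨Nat.prime_two⟩
  exact orderOf_eq_prime (by rw [pow_two]; exact h1) h2

/-- Over a finite field with q elements of characteristic 2, the involutions of SL₂ (the non-identity unipotent elements) form a single conjugacy class, of size q² − 1. -/
theorem result {F : Type*} [Field F] [Fintype F] [CharP F 2] (g h : Matrix.SpecialLinearGroup (Fin 2) F) (hg : orderOf g = 2) (hh : orderOf h = 2) :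
    IsConj g h ∧ Nat.card (ConjClasses.mk g).carrier = Fintype.card F ^ 2 - 1 := by
  classical
  obtain ⟨hg1, hg2⟩ := of_order g hg
  obtain ⟨hh1, hh2⟩ := of_order h hh
  have hcg := conj_u0 g hg1 hg2
  have hch := conj_u0 h hh1 hh2
  refine ⟨hcg.symm.trans hch, ?_⟩
  -- the carrier consists of exactly the involutions
  have hmem : ∀ x : Matrix.SpecialLinearGroup (Fin 2) F, x ∈ (ConjClasses.mk g).carrier ↔ x * x = 1 ∧ x ≠ 1 := by
    intro x
    rw [ConjClasses.mem_carrier_iff_mk_eq, ConjClasses.mk_eq_mk_iff_isConj]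
    constructor
    · intro hc
      obtain ⟨c, hc⟩ := isConj_iff.mp hc
      constructor
      · have : c * (x * x) * c⁻¹ = 1 := by
          calc c * (x * x) * c⁻¹ = (c * x * c⁻¹) * (c * x * c⁻¹) := by group
            _ = 1 := by rw [hc, hg1]
        have h3 : c * (x * x) = c := by
          rwa [mul_inv_eq_one] at this
        exact mul_eq_left.mp h3
      · rintro rfl
        apply hg2
        rw [← hc]
        group
    · rintro ⟨hx1, hx2⟩
      exact (conj_u0 x hx1 hx2).symm.trans hcg
  have hne0 : ∀ x : Matrix.SpecialLinearGroup (Fin 2) F, x * x = 1 → x ≠ 1 →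
      (((x : Matrix (Fin 2) (Fin 2) F) 0 1, (x : Matrix (Fin 2) (Fin 2) F) 1 0) : F × F) ≠ 0 := by
    intro x hx1 hx2 h0
    obtain ⟨a, b, c, d, hx, -⟩ := sl2_form x
    obtain ⟨rfl, hsq⟩ := invol_entries x hx1 hx
    rw [hx] at h0
    have hb : b = 0 := congrArg Prod.fst h0
    have hc : c = 0 := congrArg Prod.snd h0
    subst hb hc
    have h2 : (2 : F) = 0 := two_zero
    have ha : d = 1 := by
      have : (d - 1) ^ 2 = 0 := by
        linear_combination hsq - d * h2 + h2
      have := pow_eq_zero_iff (two_ne_zero) |>.mp this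
      exact sub_eq_zero.mp this
    subst ha
    apply hx2
    apply Subtype.ext
    rw [hx]
    ext i j
    fin_cases i <;> fin_cases j <;> simp
  let f : (ConjClasses.mk g).carrier → {p : F × F // p ≠ 0} := fun x =>
    ⟨((x.1 : Matrix (Fin 2) (Fin 2) F) 0 1, (x.1 : Matrix (Fin 2) (Fin 2) F) 1 0),
      hne0 x.1 ((hmem x.1).mp x.2).1 ((hmem x.1).mp x.2).2⟩
  have hf : Function.Bijective f := by
    constructor
    · rintro ⟨x, hx⟩ ⟨y, hy⟩ hxy
      have hb : (x : Matrix (Fin 2) (Fin 2) F) 0 1 = (y : Matrix (Fin 2) (Fin 2) F) 0 1 :=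
        congrArg (fun p : {p : F × F // p ≠ 0} => p.1.1) hxy
      have hc : (x : Matrix (Fin 2) (Fin 2) F) 1 0 = (y : Matrix (Fin 2) (Fin 2) F) 1 0 :=
        congrArg (fun p : {p : F × F // p ≠ 0} => p.1.2) hxy
      obtain ⟨a, b, c, d, hxf, -⟩ := sl2_form x
      obtain ⟨a', b', c', d', hyf, -⟩ := sl2_form y
      obtain ⟨rfl, hsq⟩ := invol_entries x ((hmem x).mp hx).1 hxf
      obtain ⟨rfl, hsq'⟩ := invol_entries y ((hmem y).mp hy).1 hyf
      rw [hxf, hyf] at hb hc
      simp at hb hc
      subst hb hc
      have h2 : (2 : F) = 0 := two_zero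
      have hda : d = d' := by
        have : (d - d') ^ 2 = 0 := by
          linear_combination hsq + hsq' + (1 - b * c - d * d') * h2
        have := pow_eq_zero_iff (two_ne_zero) |>.mp this
        exact sub_eq_zero.mp this
      subst hda
      apply Subtype.ext
      apply Subtype.ext
      exact hxf.trans hyf.symm
    · rintro ⟨⟨b, c⟩, hp⟩
      obtain ⟨a, ha⟩ := sqrt_exists (1 + b * c)
      have h2 : (2 : F) = 0 := two_zero
      have hdet : a * a - b * c = 1 := by
        linear_combination ha
      let x : Matrix.SpecialLinearGroup (Fin 2) F := mkSL a b c a hdet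
      have hx1 : x * x = 1 := by
        apply Subtype.ext
        simp only [Matrix.SpecialLinearGroup.coe_mul, x, coe_mkSL, Matrix.SpecialLinearGroup.coe_one]
        ext i j
        fin_cases i <;> fin_cases j <;> simp [Matrix.mul_apply, Fin.sum_univ_two]
        · linear_combination ha + b * c * h2
        · linear_combination a * b * h2
        · linear_combination c * a * h2
        · linear_combination ha + b * c * h2
      have hx2 : x ≠ 1 := by
        intro h
        apply hp
        have h3 : (x : Matrix (Fin 2) (Fin 2) F) = 1 := by rw [h]; rfl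
        simp only [x, coe_mkSL] at h3
        have e01 := congrFun (congrFun h3 0) 1
        have e10 := congrFun (congrFun h3 1) 0
        simp at e01 e10
        simp [e01, e10]
      refine ⟨⟨x, (hmem x).mpr ⟨hx1, hx2⟩⟩, ?_⟩
      apply Subtype.ext
      rfl
  rw [Nat.card_congr (Equiv.ofBijective f hf)]
  rw [Nat.card_eq_fintype_card, Fintype.card_subtype_compl]
  simp [Fintype.card_prod, pow_two]

end Cfsg.Agent.S2302
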