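import Mathlib
import Cfsg.Statements.S2303

set_option autoImplicit false
open Cfsg

namespace Cfsg.Agent.S2303

open scoped MatrixGroups

variable {F : Type*} [Field F]

theorem mem_cent_iff (g h : Matrix.GeneralLinearGroup (Fin 2) F) :
    h ∈ Subgroup.centralizer ({g} : Set (Matrix.GeneralLinearGroup (Fin 2) F)) ↔
      (h : Matrix (Fin 2) (Fin 2) F) * (g : Matrix (Fin 2) (Fin 2) F) =
        (g : Matrix (Fin 2) (Fin 2) F) * (h : Matrix (Fin 2) (Fin 2) F) := by
  rw [Subgroup.mem_centralizer_singleton_iff]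
  constructor
  · intro H
    have := congrArg (Units.val) H
    simpa using this
  · intro H
    ext1
    simpa using H

/-- the entries of a commutator relation -/
theorem comm_entries (g h : Matrix (Fin 2) (Fin 2) F) (H : h * g = g * h) :
    h 0 1 * g 1 0 = g 0 1 * h 1 0 ∧
    h 0 0 * g 0 1 + h 0 1 * g 1 1 = g 0 0 * h 0 1 + g 0 1 * h 1 1 ∧
    h 1 0 * g 0 0 + h 1 1 * g 1 0 = g 1 0 * h 0 0 + g 1 1 * h 1 0 := by
  have e := fun i j => congrFun (congrFun H i) j
  have e00 := e 0 0
  have e01 := e 0 1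
  have e10 := e 1 0
  simp only [Matrix.mul_apply, Fin.sum_univ_two] at e00 e01 e10
  refine ⟨?_, e01, e10⟩
  linear_combination e00

theorem diag_part (g : Matrix.GeneralLinearGroup (Fin 2) F) [Fintype F]
    (h01 : (g : Matrix (Fin 2) (Fin 2) F) 0 1 = 0) (h10 : (g : Matrix (Fin 2) (Fin 2) F) 1 0 = 0)
    (hne : (g : Matrix (Fin 2) (Fin 2) F) 0 0 ≠ (g : Matrix (Fin 2) (Fin 2) F) 1 1) :
    Nat.card (Subgroup.centralizer ({g} : Set (Matrix.GeneralLinearGroup (Fin 2) F))) = (Fintype.card F - 1) ^ 2 := by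
  classical
  have hdet : ∀ a b : Fˣ, (!![(a : F), 0; 0, (b : F)] : Matrix (Fin 2) (Fin 2) F).det ≠ 0 := by
    intro a b
    simp [Matrix.det_fin_two]
  let f : Fˣ × Fˣ → Subgroup.centralizer ({g} : Set (Matrix.GeneralLinearGroup (Fin 2) F)) :=
    fun x => ⟨Matrix.GeneralLinearGroup.mkOfDetNeZero !![(x.1 : F), 0; 0, (x.2 : F)] (hdet x.1 x.2), by
      rw [mem_cent_iff]
      rw [Matrix.eta_fin_two (g : Matrix (Fin 2) (Fin 2) F), h01, h10]
      change !![(x.1 : F), 0; 0, (x.2 : F)] * _ = _ * !![(x.1 : F), 0; 0, (x.2 : F)]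
      ext i j
      fin_cases i <;> fin_cases j <;> simp [Matrix.mul_apply, Fin.sum_univ_two, mul_comm]⟩
  have hf : Function.Bijective f := by
    constructor
    · rintro ⟨a, b⟩ ⟨c, d⟩ hEq
      have h1 := congrArg (fun x : Subgroup.centralizer ({g} : Set (Matrix.GeneralLinearGroup (Fin 2) F)) => ((x : Matrix.GeneralLinearGroup (Fin 2) F) : Matrix (Fin 2) (Fin 2) F)) hEq
      have h2 : !![(a : F), 0; 0, (b : F)] = !![(c : F), 0; 0, (d : F)] := h1
      have e00 := congrFun (congrFun h2 0) 0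
      have e11 := congrFun (congrFun h2 1) 1
      simp at e00 e11
      rw [Units.ext e00, Units.ext e11]
    · rintro ⟨h, hh⟩
      rw [mem_cent_iff] at hh
      obtain ⟨e1, e2, e3⟩ := comm_entries _ _ hh
      simp only [h01, h10, mul_zero, zero_mul, add_zero, zero_add] at e1 e2 e3
      have hz1 : (h : Matrix (Fin 2) (Fin 2) F) 0 1 = 0 := by
        have : (h : Matrix (Fin 2) (Fin 2) F) 0 1 * ((g : Matrix (Fin 2) (Fin 2) F) 1 1 - (g : Matrix (Fin 2) (Fin 2) F) 0 0) = 0 := by
          linear_combination e2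
        rcases mul_eq_zero.mp this with h' | h'
        · exact h'
        · exact absurd (sub_eq_zero.mp h').symm hne
      have hz2 : (h : Matrix (Fin 2) (Fin 2) F) 1 0 = 0 := by
        have : (h : Matrix (Fin 2) (Fin 2) F) 1 0 * ((g : Matrix (Fin 2) (Fin 2) F) 0 0 - (g : Matrix (Fin 2) (Fin 2) F) 1 1) = 0 := by
          linear_combination e3
        rcases mul_eq_zero.mp this with h' | h'
        · exact h'
        · exact absurd (sub_eq_zero.mp h') hne
      have hd : (h : Matrix (Fin 2) (Fin 2) F).det ≠ 0 := by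
        have := h.isUnit
        exact ((Matrix.isUnit_iff_isUnit_det _).mp h.isUnit).ne_zero
      rw [Matrix.det_fin_two, hz1, hz2] at hd
      simp only [mul_zero, sub_zero] at hd
      have ha : (h : Matrix (Fin 2) (Fin 2) F) 0 0 ≠ 0 := left_ne_zero_of_mul hd
      have hb : (h : Matrix (Fin 2) (Fin 2) F) 1 1 ≠ 0 := right_ne_zero_of_mul hd
      refine ⟨(Units.mk0 _ ha, Units.mk0 _ hb), ?_⟩
      ext i j
      fin_cases i <;> fin_cases j <;> simp [f, hz1, hz2] <;> rfl
  rw [← Nat.card_congr (Equiv.ofBijective f hf)]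
  rw [Nat.card_prod, Nat.card_eq_fintype_card, Fintype.card_units]
  ring

theorem noeig_part (g : Matrix.GeneralLinearGroup (Fin 2) F) [Fintype F]
    (hg : ∀ (c : F) (v : Fin 2 → F), v ≠ 0 → (g : Matrix (Fin 2) (Fin 2) F).mulVec v ≠ c • v) :
    Nat.card (Subgroup.centralizer ({g} : Set (Matrix.GeneralLinearGroup (Fin 2) F))) = Fintype.card F ^ 2 - 1 := by
  classical
  obtain ⟨x, y, z, w, hxyzw⟩ : ∃ x y z w : F, (g : Matrix (Fin 2) (Fin 2) F) = !![x, y; z, w] :=
    ⟨_, _, _, _, Matrix.eta_fin_two _⟩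
  rw [hxyzw] at hg
  -- off-diagonal non-vanishing
  have hz : z ≠ 0 := by
    intro h
    refine hg x ![1, 0] ?_ ?_
    · intro h2
      simpa using congrFun h2 0
    · ext i
      fin_cases i <;> simp [Matrix.mulVec, dotProduct, Fin.sum_univ_two, h]
  have hkey : ∀ t : F, z * t ^ 2 + (w - x) * t - y ≠ 0 := by
    intro t ht
    refine hg (z * t + w) ![t, 1] ?_ ?_
    · intro h2
      simpa using congrFun h2 1
    · ext i
      fin_cases i
      · simp [Matrix.mulVec, dotProduct, Fin.sum_univ_two]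
        linear_combination -ht
      · simp [Matrix.mulVec, dotProduct, Fin.sum_univ_two]
  -- the map
  let D : F × F → F := fun p => p.1 * (p.1 + p.2 * (w - x) / z) - y * p.2 / z * p.2
  have hD : ∀ p : F × F, p ≠ 0 → D p ≠ 0 := by
    rintro ⟨a, c⟩ hp h0
    simp only [D] at h0
    by_cases hc : c = 0
    · subst hc
      simp only [zero_mul, zero_div, add_zero, mul_zero, sub_zero, mul_self_eq_zero] at h0
      subst h0
      exact hp rfl
    · apply hkey (a / c)
      field_simp
      field_simp at h0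
      linear_combination h0
  let f : {p : F × F // p ≠ 0} → Subgroup.centralizer ({g} : Set (Matrix.GeneralLinearGroup (Fin 2) F)) :=
    fun p => ⟨Matrix.GeneralLinearGroup.mkOfDetNeZero
        !![p.1.1, y * p.1.2 / z; p.1.2, p.1.1 + p.1.2 * (w - x) / z] (by
          rw [Matrix.det_fin_two_of]
          exact hD p.1 p.2), by
      rw [mem_cent_iff, hxyzw]
      change !![p.1.1, y * p.1.2 / z; p.1.2, p.1.1 + p.1.2 * (w - x) / z] * _ =
        _ * !![p.1.1, y * p.1.2 / z; p.1.2, p.1.1 + p.1.2 * (w - x) / z]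
      ext i j
      fin_cases i <;> fin_cases j <;> simp [Matrix.mul_apply, Fin.sum_univ_two] <;> field_simp <;> ring⟩
  have hf : Function.Bijective f := by
    constructor
    · rintro ⟨⟨a, c⟩, hp⟩ ⟨⟨b, d⟩, hq⟩ hEq
      have h1 := congrArg (fun x : Subgroup.centralizer ({g} : Set (Matrix.GeneralLinearGroup (Fin 2) F)) => ((x : Matrix.GeneralLinearGroup (Fin 2) F) : Matrix (Fin 2) (Fin 2) F)) hEq
      have h2 : !![a, y * c / z; c, a + c * (w - x) / z] = !![b, y * d / z; d, b + d * (w - x) / z] := h1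
      have e00 := congrFun (congrFun h2 0) 0
      have e10 := congrFun (congrFun h2 1) 0
      simp at e00 e10
      subst e00 e10
      rfl
    · rintro ⟨h, hh⟩
      rw [mem_cent_iff, hxyzw] at hh
      obtain ⟨e1, e2, e3⟩ := comm_entries _ _ hh
      simp only [Matrix.of_apply, Matrix.cons_val', Matrix.cons_val_zero, Matrix.cons_val_one,
        Matrix.cons_val_fin_one] at e1 e2 e3
      obtain ⟨α, β, γ, δ, hform⟩ : ∃ α β γ δ : F, (h : Matrix (Fin 2) (Fin 2) F) = !![α, β; γ, δ] :=
        ⟨_, _, _, _, Matrix.eta_fin_two _⟩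
      rw [hform] at e1 e2 e3
      simp only [Matrix.of_apply, Matrix.cons_val', Matrix.cons_val_zero, Matrix.cons_val_one,
        Matrix.cons_val_fin_one] at e1 e2 e3
      have hdet : (h : Matrix (Fin 2) (Fin 2) F).det ≠ 0 :=
        ((Matrix.isUnit_iff_isUnit_det _).mp h.isUnit).ne_zero
      have hne : (α, γ) ≠ (0 : F × F) := by
        intro h0
        have h1 : α = 0 := congrArg Prod.fst h0
        have h2 : γ = 0 := congrArg Prod.snd h0
        apply hdet
        rw [hform, Matrix.det_fin_two_of, h1, h2]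
        ring
      refine ⟨⟨(α, γ), hne⟩, ?_⟩
      have hβ : β = y * γ / z := by
        field_simp
        linear_combination e1
      have hδ : δ = α + γ * (w - x) / z := by
        field_simp
        linear_combination e3
      apply Subtype.ext
      apply Units.ext
      change !![α, y * γ / z; γ, α + γ * (w - x) / z] = (h : Matrix (Fin 2) (Fin 2) F)
      rw [hform, hβ, hδ]
  rw [← Nat.card_congr (Equiv.ofBijective f hf)]
  rw [Nat.card_eq_fintype_card, Fintype.card_subtype_compl]
  simp [Fintype.card_prod, pow_two]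

/-- Over a finite field with q elements: a diagonal element of GL₂ with two distinct diagonal entries has centralizer of order (q − 1)² (so q(q + 1) conjugates), and an element of GL₂ with no eigenvector in F² has centralizer of order q² − 1 (so q(q − 1) conjugates). -/
theorem result {F : Type*} [Field F] [Fintype F] (g : Matrix.GeneralLinearGroup (Fin 2) F) :
    ((g : Matrix (Fin 2) (Fin 2) F) 0 1 = 0 → (g : Matrix (Fin 2) (Fin 2) F) 1 0 = 0 → (g : Matrix (Fin 2) (Fin 2) F) 0 0 ≠ (g : Matrix (Fin 2) (Fin 2) F) 1 1 →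
      Nat.card (Subgroup.centralizer ({g} : Set (Matrix.GeneralLinearGroup (Fin 2) F))) = (Fintype.card F - 1) ^ 2) ∧
    ((∀ (c : F) (v : Fin 2 → F), v ≠ 0 → (g : Matrix (Fin 2) (Fin 2) F).mulVec v ≠ c • v) →
      Nat.card (Subgroup.centralizer ({g} : Set (Matrix.GeneralLinearGroup (Fin 2) F))) = Fintype.card F ^ 2 - 1) :=
  ⟨fun h1 h2 h3 => diag_part g h1 h2 h3, fun h => noeig_part g h⟩

end Cfsg.Agent.S2303
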