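import Mathlib
import Cfsg.Statements.S2308

set_option autoImplicit false
open Cfsg

namespace Cfsg.Agent.S2308

open Matrix

variable {F : Type*} [Field F]

local notation "G2" => Matrix.GeneralLinearGroup (Fin 2) F
local notation "B2" => Cfsg.upperTriangularGL 2 F

theorem mem_B_iff (x : G2) : x ∈ B2 ↔ (x : Matrix (Fin 2) (Fin 2) F) 1 0 = 0 := by
  constructor
  · intro h
    exact h (by simp)
  · intro h i j hij
    simp only [id] at hij
    have hi : i = 1 := by omega
    have hj : j = 0 := by omega
    subst hi hj
    exact h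

theorem det_ne (x : G2) : (x : Matrix (Fin 2) (Fin 2) F).det ≠ 0 :=
  ((Matrix.isUnit_iff_isUnit_det _).mp x.isUnit).ne_zero

theorem gl2_form (g : G2) : ∃ a b c d : F, (g : Matrix (Fin 2) (Fin 2) F) = !![a, b; c, d] ∧
    a * d - b * c ≠ 0 := by
  refine ⟨_, _, _, _, Matrix.eta_fin_two _, ?_⟩
  have := det_ne g
  rwa [Matrix.det_fin_two] at this

/-- The point of the projective line determined by the first column. -/
noncomputable def col (x : G2) : Option F := by
  classical
  exact if (x : Matrix (Fin 2) (Fin 2) F) 1 0 = 0 then none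
    else some ((x : Matrix (Fin 2) (Fin 2) F) 0 0 / (x : Matrix (Fin 2) (Fin 2) F) 1 0)

theorem col_of_eq (x : G2) (h : (x : Matrix (Fin 2) (Fin 2) F) 1 0 = 0) : col x = none := by
  simp [col, h]

theorem col_of_ne (x : G2) (h : (x : Matrix (Fin 2) (Fin 2) F) 1 0 ≠ 0) :
    col x = some ((x : Matrix (Fin 2) (Fin 2) F) 0 0 / (x : Matrix (Fin 2) (Fin 2) F) 1 0) := by
  simp [col, h]

theorem col_eq_iff (x y : G2) : col x = col y ↔ x⁻¹ * y ∈ B2 := by
  classical
  obtain ⟨a, b, c, d, hx, hxd⟩ := gl2_form x
  obtain ⟨a', b', c', d', hy, hyd⟩ := gl2_form y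
  have hmem : x⁻¹ * y ∈ B2 ↔ a * c' - c * a' = 0 := by
    rw [mem_B_iff]
    have hinv : ((x⁻¹ : G2) : Matrix (Fin 2) (Fin 2) F) = (a * d - b * c)⁻¹ • !![d, -b; -c, a] := by
      rw [Matrix.coe_units_inv, hx, Matrix.inv_def, Matrix.det_fin_two_of, Matrix.adjugate_fin_two_of]
      simp
    have : ((x⁻¹ * y : G2) : Matrix (Fin 2) (Fin 2) F) 1 0 = (a * d - b * c)⁻¹ * (-c * a' + a * c') := by
      rw [Units.val_mul, hinv, hy]
      simp [Matrix.mul_apply, Fin.sum_univ_two, Matrix.smul_apply]
      ring
    rw [this]
    constructor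
    · intro h
      have := (mul_eq_zero.mp h).resolve_left (inv_ne_zero hxd)
      linear_combination this
    · intro h
      have : -c * a' + a * c' = 0 := by linear_combination h
      rw [this, mul_zero]
  rw [hmem]
  have hcx : (x : Matrix (Fin 2) (Fin 2) F) 1 0 = c := by rw [hx]; rfl
  have hcy : (y : Matrix (Fin 2) (Fin 2) F) 1 0 = c' := by rw [hy]; rfl
  have hax : (x : Matrix (Fin 2) (Fin 2) F) 0 0 = a := by rw [hx]; rfl
  have hay : (y : Matrix (Fin 2) (Fin 2) F) 0 0 = a' := by rw [hy]; rfl
  by_cases hc : c = 0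
  · subst hc
    have ha : a ≠ 0 := by
      intro h
      apply hxd
      rw [h]
      ring
    rw [col_of_eq x hcx]
    by_cases hc' : c' = 0
    · subst hc'
      rw [col_of_eq y hcy]
      simp
    · rw [col_of_ne y (by rwa [hcy])]
      simp [ha, hc']
  · rw [col_of_ne x (by rwa [hcx]), hax, hcx]
    by_cases hc' : c' = 0
    · subst hc'
      rw [col_of_eq y hcy]
      simp only [reduceCtorEq, false_iff, mul_zero, zero_sub, neg_eq_zero, mul_eq_zero]
      rintro (h | h)
      · exact hc h
      · apply hyd
        rw [h]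
        ring
    · rw [col_of_ne y (by rwa [hcy]), hay, hcy]
      simp only [Option.some.injEq]
      rw [div_eq_div_iff hc hc']
      constructor
      · intro h; linear_combination h
      · intro h; linear_combination h

/-- The eigenline condition. -/
def Fix (g : G2) : Option F → Prop
  | none => (g : Matrix (Fin 2) (Fin 2) F) 1 0 = 0
  | some t => (g : Matrix (Fin 2) (Fin 2) F) 0 0 * t + (g : Matrix (Fin 2) (Fin 2) F) 0 1 =
      ((g : Matrix (Fin 2) (Fin 2) F) 1 0 * t + (g : Matrix (Fin 2) (Fin 2) F) 1 1) * t

theorem col_mul_eq_iff (g x : G2) : col (g * x) = col x ↔ Fix g (col x) := by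
  classical
  obtain ⟨a, b, c, d, hx, hxd⟩ := gl2_form x
  obtain ⟨x1, y1, z1, w1, hg, hgd⟩ := gl2_form g
  have hcx : (x : Matrix (Fin 2) (Fin 2) F) 1 0 = c := by rw [hx]; rfl
  have hax : (x : Matrix (Fin 2) (Fin 2) F) 0 0 = a := by rw [hx]; rfl
  have hm : ((g * x : G2) : Matrix (Fin 2) (Fin 2) F) = !![x1 * a + y1 * c, x1 * b + y1 * d; z1 * a + w1 * c, z1 * b + w1 * d] := by
    rw [Units.val_mul, hg, hx]
    ext i j
    fin_cases i <;> fin_cases j <;> simp [Matrix.mul_apply, Fin.sum_univ_two]
  have hc10 : ((g * x : G2) : Matrix (Fin 2) (Fin 2) F) 1 0 = z1 * a + w1 * c := by rw [hm]; rfl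
  have hc00 : ((g * x : G2) : Matrix (Fin 2) (Fin 2) F) 0 0 = x1 * a + y1 * c := by rw [hm]; rfl
  have hg00 : (g : Matrix (Fin 2) (Fin 2) F) 0 0 = x1 := by rw [hg]; rfl
  have hg01 : (g : Matrix (Fin 2) (Fin 2) F) 0 1 = y1 := by rw [hg]; rfl
  have hg10 : (g : Matrix (Fin 2) (Fin 2) F) 1 0 = z1 := by rw [hg]; rfl
  have hg11 : (g : Matrix (Fin 2) (Fin 2) F) 1 1 = w1 := by rw [hg]; rfl
  by_cases hc : c = 0
  · subst hc
    have ha : a ≠ 0 := by
      intro h
      apply hxd
      rw [h]
      ring
    rw [col_of_eq x hcx]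
    simp only [Fix, hg10]
    by_cases hz : z1 = 0
    · subst hz
      rw [col_of_eq _ (by rw [hc10]; ring)]
      simp
    · rw [col_of_ne _ (by rw [hc10]; simpa [ha] using hz)]
      simp [hz]
  · rw [col_of_ne x (by rwa [hcx]), hax, hcx]
    simp only [Fix, hg00, hg01, hg10, hg11]
    by_cases hC : z1 * a + w1 * c = 0
    · rw [col_of_eq _ (by rw [hc10]; exact hC)]
      simp only [reduceCtorEq, false_iff]
      intro h
      have e1 : z1 * (a / c) + w1 = 0 := by
        field_simp
        linear_combination hC
      rw [e1] at h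
      simp only [zero_mul] at h
      have e2 : x1 * a + y1 * c = 0 := by
        field_simp at h
        linear_combination h
      apply hxd
      have hg0 : x1 * w1 - y1 * z1 ≠ 0 := hgd
      -- (a, c) is killed by g
      have : (x1 * w1 - y1 * z1) * a = 0 := by linear_combination w1 * e2 - y1 * hC
      have hh := (mul_eq_zero.mp this).resolve_left hg0
      have : (x1 * w1 - y1 * z1) * c = 0 := by linear_combination x1 * hC - z1 * e2
      have hh2 := (mul_eq_zero.mp this).resolve_left hg0
      exact absurd hh2 hc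
    · rw [col_of_ne _ (by rw [hc10]; exact hC), hc00, hc10]
      simp only [Option.some.injEq]
      rw [div_eq_div_iff hC hc]
      constructor
      · intro h
        field_simp
        linear_combination h
      · intro h
        field_simp at h
        linear_combination h

/-- The map from cosets to the projective line. -/
noncomputable def colQ : G2 ⧸ B2 → Option F :=
  Quotient.lift col (by
    intro x y h
    exact (col_eq_iff x y).mpr (QuotientGroup.leftRel_apply.mp h))

theorem colQ_mk (x : G2) : colQ (QuotientGroup.mk x : G2 ⧸ B2) = col x := rfl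

theorem colQ_bijective : Function.Bijective (colQ : G2 ⧸ B2 → Option F) := by
  constructor
  · intro p q
    induction p using QuotientGroup.induction_on with
    | H x =>
      induction q using QuotientGroup.induction_on with
      | H y =>
        intro h
        rw [colQ_mk, colQ_mk, col_eq_iff] at h
        exact QuotientGroup.eq.mpr h
  · intro o
    classical
    cases o with
    | none =>
      refine ⟨QuotientGroup.mk 1, ?_⟩
      rw [colQ_mk, col_of_eq]
      simp
    | some t =>
      have hd : (!![t, 1; 1, 0] : Matrix (Fin 2) (Fin 2) F).det ≠ 0 := by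
        rw [Matrix.det_fin_two_of]
        simp
      refine ⟨QuotientGroup.mk (Matrix.GeneralLinearGroup.mkOfDetNeZero !![t, 1; 1, 0] hd), ?_⟩
      rw [colQ_mk, col_of_ne]
      · simp [Matrix.GeneralLinearGroup.mkOfDetNeZero]
      · simp [Matrix.GeneralLinearGroup.mkOfDetNeZero]

theorem card_fixed (g : G2) :
    Nat.card (MulAction.fixedBy (G2 ⧸ B2) g) = Nat.card {o : Option F // Fix g o} := by
  classical
  refine Nat.card_congr (Equiv.subtypeEquiv (Equiv.ofBijective colQ colQ_bijective) ?_)
  intro q
  induction q using QuotientGroup.induction_on with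
  | H x =>
    simp only [Equiv.ofBijective_apply, colQ_mk, MulAction.mem_fixedBy]
    rw [← col_mul_eq_iff]
    rw [← colQ_mk (g * x), ← colQ_mk x]
    have e : g • (QuotientGroup.mk x : G2 ⧸ B2) = QuotientGroup.mk (g * x) := rfl
    rw [e]
    exact ⟨fun h => by rw [h], fun h => colQ_bijective.1 h⟩

/-- Values of the permutation character of GL₂ over a finite field F with q elements on the cosets of its upper triangular subgroup (equivalently, the number of lines of F² that an element maps to themselves): q + 1 at a scalar matrix, 2 at a diagonal matrix with two different diagonal entries, 0 at an element with no eigenvector in F², and 1 at an upper triangular matrix with equal diagonal entries and non-zero upper right entry. -/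
theorem result {F : Type*} [Field F] [Fintype F] (g : Matrix.GeneralLinearGroup (Fin 2) F) :
    ((∃ a : F, (g : Matrix (Fin 2) (Fin 2) F) = a • (1 : Matrix (Fin 2) (Fin 2) F)) → Cfsg.fixedPointCharacter (Cfsg.upperTriangularGL 2 F) g = Fintype.card F + 1) ∧
    ((g : Matrix (Fin 2) (Fin 2) F) 0 1 = 0 → (g : Matrix (Fin 2) (Fin 2) F) 1 0 = 0 → (g : Matrix (Fin 2) (Fin 2) F) 0 0 ≠ (g : Matrix (Fin 2) (Fin 2) F) 1 1 →
      Cfsg.fixedPointCharacter (Cfsg.upperTriangularGL 2 F) g = 2) ∧
    ((∀ (c : F) (v : Fin 2 → F), v ≠ 0 → (g : Matrix (Fin 2) (Fin 2) F).mulVec v ≠ c • v) → Cfsg.fixedPointCharacter (Cfsg.upperTriangularGL 2 F) g = 0) ∧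
    ((g : Matrix (Fin 2) (Fin 2) F) 1 0 = 0 → (g : Matrix (Fin 2) (Fin 2) F) 0 0 = (g : Matrix (Fin 2) (Fin 2) F) 1 1 → (g : Matrix (Fin 2) (Fin 2) F) 0 1 ≠ 0 →
      Cfsg.fixedPointCharacter (Cfsg.upperTriangularGL 2 F) g = 1) := by
  classical
  simp only [Cfsg.fixedPointCharacter, card_fixed]
  refine ⟨?_, ?_, ?_, ?_⟩
  · rintro ⟨a, ha⟩
    have hall : ∀ o : Option F, Fix g o := by
      intro o
      cases o with
      | none => simp [Fix, ha]
      | some t => simp [Fix, ha]
    have : Nat.card {o : Option F // Fix g o} = Fintype.card F + 1 := by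
      rw [Nat.card_congr (Equiv.subtypeUnivEquiv hall), Nat.card_eq_fintype_card, Fintype.card_option]
    rw [this]
    push_cast
    rfl
  · intro h01 h10 hne
    have hset : ∀ o : Option F, Fix g o ↔ o = none ∨ o = some 0 := by
      intro o
      cases o with
      | none => simp [Fix, h10]
      | some t =>
        simp only [Fix, h01, h10, add_zero, zero_mul, zero_add, reduceCtorEq, false_or, Option.some.injEq]
        constructor
        · intro h
          have : ((g : Matrix (Fin 2) (Fin 2) F) 0 0 - (g : Matrix (Fin 2) (Fin 2) F) 1 1) * t = 0 := by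
            linear_combination h
          exact (mul_eq_zero.mp this).resolve_left (sub_ne_zero.mpr hne)
        · rintro rfl
          simp
    have : Nat.card {o : Option F // Fix g o} = 2 := by
      rw [Nat.card_eq_two_iff]
      refine ⟨⟨none, (hset _).mpr (Or.inl rfl)⟩, ⟨some 0, (hset _).mpr (Or.inr rfl)⟩, ?_, ?_⟩
      · simp
      · ext ⟨o, ho⟩
        simp only [Set.mem_insert_iff, Set.mem_singleton_iff, Set.mem_univ, iff_true, Subtype.mk.injEq]
        exact (hset o).mp ho
    rw [this]
    norm_num
  · intro hno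
    have hnone : ∀ o : Option F, ¬ Fix g o := by
      intro o ho
      cases o with
      | none =>
        refine hno ((g : Matrix (Fin 2) (Fin 2) F) 0 0) ![1, 0] ?_ ?_
        · intro h
          simpa using congrFun h 0
        · simp only [Fix] at ho
          ext i
          fin_cases i <;> simp [Matrix.mulVec, dotProduct, Fin.sum_univ_two, ho]
      | some t =>
        refine hno ((g : Matrix (Fin 2) (Fin 2) F) 1 0 * t + (g : Matrix (Fin 2) (Fin 2) F) 1 1) ![t, 1] ?_ ?_
        · intro h
          simpa using congrFun h 1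
        · simp only [Fix] at ho
          ext i
          fin_cases i <;> simp [Matrix.mulVec, dotProduct, Fin.sum_univ_two]
          exact ho
    have : Nat.card {o : Option F // Fix g o} = 0 := by
      haveI : IsEmpty {o : Option F // Fix g o} := ⟨fun x => hnone x.1 x.2⟩
      exact Nat.card_of_isEmpty
    rw [this]
    norm_num
  · intro h10 heq h01
    have hset : ∀ o : Option F, Fix g o ↔ o = none := by
      intro o
      cases o with
      | none => simp [Fix, h10]
      | some t =>
        simp only [Fix, h10, zero_mul, zero_add, reduceCtorEq, iff_false, heq]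
        intro h
        apply h01
        linear_combination h
    have : Nat.card {o : Option F // Fix g o} = 1 := by
      rw [Nat.card_eq_one_iff_unique]
      refine ⟨⟨?_⟩, ⟨⟨none, (hset _).mpr rfl⟩⟩⟩
      rintro ⟨a, ha⟩ ⟨b, hb⟩
      apply Subtype.ext
      exact ((hset a).mp ha).trans ((hset b).mp hb).symm
    rw [this]
    norm_num

end Cfsg.Agent.S2308
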