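import Mathlib
import Cfsg.Statements.S2309
import Cfsg.Agent.Lib.GL2Irr
-- import your own Cfsg.Agent.* helpers here

set_option autoImplicit false
open Cfsg

namespace Cfsg.Agent.S2309

/-- Over a finite field F with q elements: every irreducible complex character of GL₂ of degree q − 1 vanishes at every diagonal matrix with two distinct entries, and every irreducible complex character of degree q + 1 vanishes at every element with no eigenvector in F². -/
theorem result {F : Type*} [Field F] [Fintype F] (χ : Matrix.GeneralLinearGroup (Fin 2) F → ℂ) (hχ : Cfsg.IsIrrCharacter (Matrix.GeneralLinearGroup (Fin 2) F) χ) (g : Matrix.GeneralLinearGroup (Fin 2) F) :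
    (χ 1 = (Fintype.card F : ℂ) - 1 → (g : Matrix (Fin 2) (Fin 2) F) 0 1 = 0 → (g : Matrix (Fin 2) (Fin 2) F) 1 0 = 0 → (g : Matrix (Fin 2) (Fin 2) F) 0 0 ≠ (g : Matrix (Fin 2) (Fin 2) F) 1 1 → χ g = 0) ∧
    (χ 1 = (Fintype.card F : ℂ) + 1 → (∀ (c : F) (v : Fin 2 → F), v ≠ 0 → (g : Matrix (Fin 2) (Fin 2) F).mulVec v ≠ c • v) → χ g = 0) := by
  classical
  open Cfsg.Agent.Lib.GL2Irr Cfsg.Agent.Lib.GL2Char in
  refine ⟨fun h1 h01 h10 hne => ?_, fun h1 hne => ?_⟩
  · obtain ⟨a, d, rfl, ha, hd⟩ := eq_bmk_of_diag g h01 h10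
    have had : a ≠ d := fun e => hne (by rw [ha, hd, e])
    have hq : 3 ≤ Fintype.card F := by
      by_contra hq2
      have hq3 : Fintype.card F ≤ 2 := by omega
      have h0 : (a : F) ≠ d := fun e => had (Units.ext e)
      have hs : ({0, (a : F), (d : F)} : Finset F).card = 3 := by
        rw [Finset.card_eq_three]
        exact ⟨0, a, d, a.ne_zero.symm, d.ne_zero.symm, h0, rfl⟩
      have := Finset.card_le_univ ({0, (a : F), (d : F)} : Finset F)
      omega
    have hc := deg_q_sub_one_iff hq hχ h1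
    exact cusp_diag_zero (Cfsg.Agent.Lib.CharBasic.isClassFunction_of_isCharacter
      (Cfsg.Agent.Lib.CharBasic.IsIrrCharacter.isCharacter hχ)) hc a d had
  · obtain ⟨α, β, -, rfl⟩ := deg_q_add_one_iff hχ h1
    exact chi_noEig α β hne

end Cfsg.Agent.S2309
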