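import Mathlib
import Cfsg.Statements.S2310
import Cfsg.Agent.Lib.GL2Irr
-- import your own Cfsg.Agent.* helpers here

set_option autoImplicit false
open Cfsg

namespace Cfsg.Agent.S2310

/-- Over a finite field F with q ≥ 3 elements, let u be the upper unitriangular matrix of GL₂ with off-diagonal entry 1. An irreducible complex character χ of GL₂ takes at u the value 1 if χ has degree 1 or q + 1, the value −1 if χ has degree q − 1, and the value 0 if χ has degree q. -/
theorem result {F : Type*} [Field F] [Fintype F] (hq : 3 ≤ Fintype.card F) (χ : Matrix.GeneralLinearGroup (Fin 2) F → ℂ) (hχ : Cfsg.IsIrrCharacter (Matrix.GeneralLinearGroup (Fin 2) F) χ)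
    (u : Matrix.GeneralLinearGroup (Fin 2) F) (hu : (u : Matrix (Fin 2) (Fin 2) F) = !![1, 1; 0, 1]) :
    (χ 1 = 1 → χ u = 1) ∧ (χ 1 = (Fintype.card F : ℂ) + 1 → χ u = 1) ∧
    (χ 1 = (Fintype.card F : ℂ) - 1 → χ u = -1) ∧ (χ 1 = (Fintype.card F : ℂ) → χ u = 0) := by
  classical
  open Cfsg.Agent.Lib.GL2Irr Cfsg.Agent.Lib.GL2Char in
  have hu' : u = uu := by
    apply Units.ext
    rw [hu]
    ext i j
    fin_cases i <;> fin_cases j <;> simp [uu, bmk_00, bmk_01, bmk_10, bmk_11]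
  subst hu'
  refine ⟨fun h1 => ?_, fun h1 => ?_, fun h1 => ?_, fun h1 => ?_⟩
  · obtain ⟨α, rfl⟩ := deg_one_iff hq hχ h1
    exact lin_uu α
  · obtain ⟨α, β, -, rfl⟩ := deg_q_add_one_iff hχ h1
    exact chi_uu α β
  · exact (cusp_degree hχ (deg_q_sub_one_iff hq hχ h1)).2
  · obtain ⟨α, rfl⟩ := deg_q_iff hχ h1
    exact st_uu α

end Cfsg.Agent.S2310
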