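import Cfsg.Statements.S2316
import Cfsg.Agent.Lib.ClCount3
import Cfsg.Agent.Lib.ClSp
import Cfsg.Agent.Lib.SpOrder
-- import your own Cfsg.Agent.* helpers here

set_option autoImplicit false
open Cfsg

namespace Cfsg.Agent.S2316

/-- Steinberg's count of unipotent elements for the symplectic group: over a finite field with q elements of characteristic p, the number of elements of Sp_{2m} of p-power order is q^(2m²). -/
theorem result {F : Type*} [Field F] [Fintype F] (p : ℕ) [Fact p.Prime] [CharP F p] (m : ℕ) :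
    Nat.card {g : ↥(Matrix.symplecticGroup (Fin m) F) // ∃ k : ℕ, orderOf g = p ^ k} = Fintype.card F ^ (2 * m ^ 2) := by
  classical
  haveI : Finite (Matrix.symplecticGroup (Fin m) F) := Subtype.finite
  have hpp : p.Prime := Fact.out
  have h1 := Cfsg.Agent.Lib.ClPolar.Sys.card_pelements (S := Cfsg.Agent.Lib.ClSp.sys F m) p
    Cfsg.Agent.Lib.ClSp.sys_full Cfsg.Agent.Lib.ClSp.sys_thick (Cfsg.Agent.Lib.ClSp.sys_torus p)
  have h2 := Cfsg.Agent.Lib.ClPolar.Sys.card_UU_eq (S := Cfsg.Agent.Lib.ClSp.sys F m) p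
    Cfsg.Agent.Lib.ClSp.sys_full Cfsg.Agent.Lib.ClSp.sys_thick (Cfsg.Agent.Lib.ClSp.sys_torus p)
  rw [h1, ← h2]
  have h3 : Nat.card (Matrix.symplecticGroup (Fin m) F) = Fintype.card F ^ (m ^ 2) *
      ∏ i ∈ Finset.range m, (Fintype.card F ^ (2 * (i + 1)) - 1) := Cfsg.Agent.Lib.SpOrder.card_Sp m
  obtain ⟨f, hf⟩ : ∃ f : ℕ, Fintype.card F = p ^ f := by
    obtain ⟨n, hp', hn⟩ := FiniteField.card F p
    exact ⟨n, hn⟩
  have hf0 : f ≠ 0 := by
    rintro rfl
    have : 1 < Fintype.card F := Fintype.one_lt_card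
    rw [hf] at this
    simp at this
  have hN : ¬ p ∣ ∏ i ∈ Finset.range m, (Fintype.card F ^ (2 * (i + 1)) - 1) := by
    intro h
    obtain ⟨i, -, hi⟩ := (Prime.dvd_finsetProd_iff hpp.prime _).1 h
    have h4 : p ∣ Fintype.card F ^ (2 * (i + 1)) := by
      rw [hf, ← pow_mul]
      exact dvd_pow_self p (Nat.mul_ne_zero hf0 (by omega))
    have h5 : 1 ≤ Fintype.card F ^ (2 * (i + 1)) := Nat.one_le_pow _ _ Fintype.card_pos
    have h6 : p ∣ 1 := by
      have := (Nat.dvd_sub h4 hi)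
      have e : Fintype.card F ^ (2 * (i + 1)) - (Fintype.card F ^ (2 * (i + 1)) - 1) = 1 := by omega
      rwa [e] at this
    exact hpp.one_lt.ne' (Nat.dvd_one.1 h6)
  have hN0 : ∏ i ∈ Finset.range m, (Fintype.card F ^ (2 * (i + 1)) - 1) ≠ 0 := by
    intro h
    apply hN
    rw [h]
    exact dvd_zero _
  obtain ⟨N, hNdef⟩ : ∃ N, N = ∏ i ∈ Finset.range m, (Fintype.card F ^ (2 * (i + 1)) - 1) := ⟨_, rfl⟩
  rw [← hNdef] at h3 hN hN0
  have hfac : (Nat.card (Matrix.symplecticGroup (Fin m) F)).factorization p = f * m ^ 2 := by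
    rw [h3, hf, ← pow_mul, Nat.factorization_mul (pow_ne_zero _ hpp.ne_zero) hN0]
    simp only [Finsupp.add_apply, Nat.factorization_pow, Finsupp.smul_apply, smul_eq_mul, hpp.factorization_self, mul_one]
    rw [Nat.factorization_eq_zero_of_not_dvd hN, add_zero]
  rw [hfac, hf]
  rw [← pow_add, ← pow_mul]
  congr 1
  ring

end Cfsg.Agent.S2316
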