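import Mathlib
import Cfsg.Statements.S2320
import Cfsg.Agent.Lib.GL2Irr
-- import your own Cfsg.Agent.* helpers here

set_option autoImplicit false
open Cfsg

namespace Cfsg.Agent.S2320

/-- Over a finite field F with q elements, every irreducible complex character of GL₂ of degree q takes a value of absolute value 1 at every diagonal matrix with two different diagonal entries and at every element with no eigenvector in F². -/
theorem result {F : Type*} [Field F] [Fintype F] (χ : Matrix.GeneralLinearGroup (Fin 2) F → ℂ) (hχ : Cfsg.IsIrrCharacter (Matrix.GeneralLinearGroup (Fin 2) F) χ) (hdeg : χ 1 = (Fintype.card F : ℂ)) (g : Matrix.GeneralLinearGroup (Fin 2) F) :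
    ((g : Matrix (Fin 2) (Fin 2) F) 0 1 = 0 → (g : Matrix (Fin 2) (Fin 2) F) 1 0 = 0 → (g : Matrix (Fin 2) (Fin 2) F) 0 0 ≠ (g : Matrix (Fin 2) (Fin 2) F) 1 1 → ‖χ g‖ = 1) ∧
    ((∀ (c : F) (v : Fin 2 → F), v ≠ 0 → (g : Matrix (Fin 2) (Fin 2) F).mulVec v ≠ c • v) → ‖χ g‖ = 1) := by
  classical
  open Cfsg.Agent.Lib.GL2Irr Cfsg.Agent.Lib.GL2Char in
  obtain ⟨α, rfl⟩ := deg_q_iff hχ hdeg
  refine ⟨fun h01 h10 hne => ?_, fun hne => ?_⟩
  · obtain ⟨a, d, rfl, ha, hd⟩ := eq_bmk_of_diag g h01 h10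
    have had : a ≠ d := fun e => hne (by rw [ha, hd, e])
    rw [st_diag α a d had, norm_mul, norm_mulChar_eq_one α a.ne_zero,
      norm_mulChar_eq_one α d.ne_zero, one_mul]
  · rw [st_noEig α hne, norm_neg, norm_mulChar_eq_one α (det_ne g)]

end Cfsg.Agent.S2320
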