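import Mathlib
-- Template for statement S2326 (row 2326; see /opt/grader/pristine/manifest.json for weights).
-- Copy to Cfsg/Agent/S2326.lean and replace the sorry. The statement below is byte-identical to the frozen
-- statement Cfsg.CfsgFrozen.S2326 (Cfsg/Statements/S2326.lean; the theorem Cfsg.lie3_chevalley_pos_unipotent_is_sylow);
-- the grader kernel-checks Cfsg.Agent.S2326.result against that frozen type. Keep the theorem IN THIS FILE
-- (a `result` declared elsewhere and merely imported here is not credited); helpers may live anywhere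
-- under Cfsg/Agent/.
import Cfsg.Statements.S2326
import Cfsg.Agent.Lib.ChevSylow
import Cfsg.Agent.Lib.Chev.RelG2
import Cfsg.Agent.Lib.Chev.RootG2
import Cfsg.Agent.Lib.Chev.RelB2
import Cfsg.Agent.Lib.Chev.RootB2
import Cfsg.Agent.Lib.Chev.RelD4
import Cfsg.Agent.Lib.Chev.RootD4
import Cfsg.Agent.Lib.Chev.RelF4
import Cfsg.Agent.Lib.Chev.RootF4
import Cfsg.Agent.Lib.Chev.RelE6
import Cfsg.Agent.Lib.Chev.RootE6
import Cfsg.Agent.Lib.Chev.RelE7
import Cfsg.Agent.Lib.Chev.RootE7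
import Cfsg.Agent.Lib.Chev.RelE8
import Cfsg.Agent.Lib.Chev.RootE8

set_option autoImplicit false
open Cfsg

namespace Cfsg.Agent.S2326

/-- In a Chevalley group of type G₂, B₂, D₄, F₄, E₆, E₇ or E₈ over a finite field of characteristic p, the subgroup U generated by the positive root elements is a Sylow p-subgroup. -/
theorem result {F : Type*} [Field F] [Fintype F] (p : ℕ) [Fact p.Prime] [CharP F p] (D : Cfsg.Lie.ChevalleyDatum) (hD : D ∈ [Cfsg.Lie.chevG2, Cfsg.Lie.chevB2, Cfsg.Lie.chevD4, Cfsg.Lie.chevF4, Cfsg.Lie.chevE6, Cfsg.Lie.chevE7, Cfsg.Lie.chevE8]) :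
    ∃ P : Sylow p ↥(D.group F), (P : Subgroup ↥(D.group F)) = (D.posUnipotent F).subgroupOf (D.group F) := by
  simp only [List.mem_cons, List.not_mem_nil, or_false] at hD
  rcases hD with rfl | rfl | rfl | rfl | rfl | rfl | rfl
  · have hF : Cfsg.Agent.Lib.Chev.Full _ _ _ Cfsg.Lie.chevG2 :=
      ⟨Cfsg.Agent.Lib.Chev.RelG2.checks, Cfsg.Agent.Lib.Chev.RootG2.checks⟩
    exact Cfsg.Agent.Lib.ChevSylow.sylow_main hF p
  · have hF : Cfsg.Agent.Lib.Chev.Full _ _ _ Cfsg.Lie.chevB2 :=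
      ⟨Cfsg.Agent.Lib.Chev.RelB2.checks, Cfsg.Agent.Lib.Chev.RootB2.checks⟩
    exact Cfsg.Agent.Lib.ChevSylow.sylow_main hF p
  · have hF : Cfsg.Agent.Lib.Chev.Full _ _ _ Cfsg.Lie.chevD4 :=
      ⟨Cfsg.Agent.Lib.Chev.RelD4.checks, Cfsg.Agent.Lib.Chev.RootD4.checks⟩
    exact Cfsg.Agent.Lib.ChevSylow.sylow_main hF p
  · have hF : Cfsg.Agent.Lib.Chev.Full _ _ _ Cfsg.Lie.chevF4 :=
      ⟨Cfsg.Agent.Lib.Chev.RelF4.checks, Cfsg.Agent.Lib.Chev.RootF4.checks⟩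
    exact Cfsg.Agent.Lib.ChevSylow.sylow_main hF p
  · have hF : Cfsg.Agent.Lib.Chev.Full _ _ _ Cfsg.Lie.chevE6 :=
      ⟨Cfsg.Agent.Lib.Chev.RelE6.checks, Cfsg.Agent.Lib.Chev.RootE6.checks⟩
    exact Cfsg.Agent.Lib.ChevSylow.sylow_main hF p
  · have hF : Cfsg.Agent.Lib.Chev.Full _ _ _ Cfsg.Lie.chevE7 :=
      ⟨Cfsg.Agent.Lib.Chev.RelE7.checks, Cfsg.Agent.Lib.Chev.RootE7.checks⟩
    exact Cfsg.Agent.Lib.ChevSylow.sylow_main hF p
  · have hF : Cfsg.Agent.Lib.Chev.Full _ _ _ Cfsg.Lie.chevE8 :=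
      ⟨Cfsg.Agent.Lib.Chev.RelE8.checks, Cfsg.Agent.Lib.Chev.RootE8.checks⟩
    exact Cfsg.Agent.Lib.ChevSylow.sylow_main hF p

end Cfsg.Agent.S2326
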