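import Mathlib
import Cfsg.Statements.S2329

set_option autoImplicit false
open Cfsg

namespace Cfsg.Agent.S2329

open Matrix

variable {F : Type*} [Field F]

/-- A nilpotent `2 × 2` matrix over a field has vanishing square. -/
lemma sq_eq_zero (N : Matrix (Fin 2) (Fin 2) F) (h : IsNilpotent N) : N ^ 2 = 0 := by
  have h1 := Matrix.isNilpotent_charpoly_sub_pow_of_isNilpotent h
  have h2 : N.charpoly = Polynomial.X ^ 2 := by
    have := h1.eq_zero
    simpa [sub_eq_zero] using this
  have h3 := Matrix.aeval_self_charpoly N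
  rw [h2] at h3
  simpa using h3

/-- The standard element of order `p`. -/
def jMat (F : Type*) [Field F] : Matrix (Fin 2) (Fin 2) F := !![1, 1; 0, 1]

lemma exists_conj (M : Matrix (Fin 2) (Fin 2) F) (hM : M ^ 2 = 0) (hne : M ≠ 0) :
    ∃ P : Matrix (Fin 2) (Fin 2) F, P.det ≠ 0 ∧ (1 + M) * P = P * jMat F := by
  have e00 := congrFun (congrFun hM 0) 0
  have e01 := congrFun (congrFun hM 0) 1
  have e10 := congrFun (congrFun hM 1) 0
  have e11 := congrFun (congrFun hM 1) 1
  simp only [pow_two, Matrix.mul_apply, Fin.sum_univ_two, Matrix.zero_apply] at e00 e01 e10 e11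
  by_cases hc : M 1 0 = 0
  · by_cases hb : M 0 1 = 0
    · exfalso
      apply hne
      have ha : M 0 0 = 0 := by
        have : M 0 0 * M 0 0 = 0 := by simpa [hb] using e00
        exact mul_self_eq_zero.mp this
      have hd : M 1 1 = 0 := by
        have : M 1 1 * M 1 1 = 0 := by simpa [hb] using e11
        exact mul_self_eq_zero.mp this
      ext i j
      fin_cases i <;> fin_cases j <;> simp [ha, hb, hc, hd]
    · refine ⟨!![M 0 1, 0; M 1 1, 1], ?_, ?_⟩
      · simpa [Matrix.det_fin_two] using hb
      · ext i j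
        fin_cases i <;> fin_cases j <;>
          simp [jMat, Matrix.mul_apply, Fin.sum_univ_two, Matrix.one_apply] <;>
          first
            | done
            | linear_combination e01
            | linear_combination e11
            | ring
  · refine ⟨!![M 0 0, 1; M 1 0, 0], ?_, ?_⟩
    · simpa [Matrix.det_fin_two] using hc
    · ext i j
      fin_cases i <;> fin_cases j <;>
        simp [jMat, Matrix.mul_apply, Fin.sum_univ_two, Matrix.one_apply] <;>
        first
          | done
          | linear_combination e00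
          | linear_combination e10
          | ring

lemma conj_jMat (p : ℕ) [Fact p.Prime] [CharP F p] (g : Matrix.GeneralLinearGroup (Fin 2) F)
    (hg : orderOf g = p) (J : Matrix.GeneralLinearGroup (Fin 2) F)
    (hJ : (J : Matrix (Fin 2) (Fin 2) F) = jMat F) : IsConj g J := by
  classical
  have hp : p.Prime := Fact.out
  haveI hcp : CharP (Matrix (Fin 2) (Fin 2) F) p := Matrix.charP p
  haveI hec : ExpChar (Matrix (Fin 2) (Fin 2) F) p := ExpChar.prime hp
  set M : Matrix (Fin 2) (Fin 2) F := (g : Matrix (Fin 2) (Fin 2) F) - 1 with hM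
  have h1 : M ^ p = 0 := by
    have := sub_pow_expChar_of_commute (p := p) (Commute.one_right (g : Matrix (Fin 2) (Fin 2) F))
    rw [hM, this, ← Units.val_pow_eq_pow_val, ← hg, pow_orderOf_eq_one]
    simp
  have h2 : M ^ 2 = 0 := sq_eq_zero M ⟨p, h1⟩
  have h3 : M ≠ 0 := by
    intro h0
    have : g = 1 := by
      apply Units.ext
      rw [Units.val_one]
      exact sub_eq_zero.mp h0
    rw [this, orderOf_one] at hg
    exact hp.one_lt.ne hg
  obtain ⟨P, hdet, hP⟩ := exists_conj M h2 h3
  have hPu : IsUnit P := (Matrix.isUnit_iff_isUnit_det P).mpr (isUnit_iff_ne_zero.mpr hdet)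
  let Q : Matrix.GeneralLinearGroup (Fin 2) F := hPu.unit
  have hQ : (Q : Matrix (Fin 2) (Fin 2) F) = P := rfl
  rw [isConj_comm, isConj_iff]
  refine ⟨Q, ?_⟩
  apply mul_inv_eq_of_eq_mul
  apply Units.ext
  rw [Units.val_mul, Units.val_mul, hJ, hQ, ← hP, hM]
  congr 1
  abel

/-- Over a finite field of characteristic p, any two elements of order p of GL₂ are conjugate: there is a single conjugacy class of non-identity unipotent elements. -/
theorem result {F : Type*} [Field F] [Fintype F] (p : ℕ) [Fact p.Prime] [CharP F p] (g h : Matrix.GeneralLinearGroup (Fin 2) F)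
    (hg : orderOf g = p) (hh : orderOf h = p) : IsConj g h := by
  have hdet : IsUnit (jMat F) := by
    rw [Matrix.isUnit_iff_isUnit_det, isUnit_iff_ne_zero]
    simp [jMat, Matrix.det_fin_two]
  exact (conj_jMat p g hg hdet.unit rfl).trans (conj_jMat p h hh hdet.unit rfl).symm

end Cfsg.Agent.S2329
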