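import Mathlib
import Cfsg.Statements.S2362
import Cfsg.Agent.Lib.SpecBC.NoElt
import Cfsg.Agent.Lib.SpecBC.PSpElt
import Cfsg.Agent.Lib.OmegaOddClasses
import Cfsg.Agent.Lib.OrthMatrix

set_option autoImplicit false
open Cfsg

namespace Cfsg.Agent.S2362

/-- Let F be a finite field of odd order and n ≥ 3. The simple orthogonal group PΩ(2n+1, F) (type B_n) and the projective symplectic group PSp(2n, F) (type C_n), which have the same order, do not have the same set of element orders. -/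
theorem result {F : Type*} [Field F] [Fintype F] (hodd : Odd (Fintype.card F)) (n : ℕ) (hn : 3 ≤ n) :
    Set.range (orderOf : Cfsg.POmega F (Cfsg.quadFormOdd n F) → ℕ) ≠ Set.range (orderOf : Cfsg.PSp n F → ℕ) := by
  classical
  intro heq
  obtain ⟨m, rfl⟩ : ∃ m, n = m + 1 := ⟨n - 1, by omega⟩
  have hm : 2 ≤ m := by omega
  have hf : Cfsg.quadFormOdd (m + 1) F = ⇑(Cfsg.Agent.Lib.OrthoCount.qOdd (m + 1) F) :=
    funext fun v => (Cfsg.Agent.Lib.OrthoCount.qOdd_apply (m + 1) v).symm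
  rw [hf] at heq
  haveI hpp : Fact (ringChar F).Prime := ⟨CharP.char_is_prime F (ringChar F)⟩
  haveI : CharP F (ringChar F) := ringChar.charP F
  obtain ⟨x, hx⟩ := Cfsg.Agent.Lib.SpecBC.exists_psp_elt (F := F) (ringChar F) rfl hodd (by omega : 1 ≤ m)
  have hmem : (ringChar F) * (Fintype.card F ^ m + 1) ∈
      Set.range (orderOf : Cfsg.POmega F ⇑(Cfsg.Agent.Lib.OrthoCount.qOdd (m + 1) F) → ℕ) := by
    rw [heq]
    exact ⟨x, hx⟩
  obtain ⟨y, hy⟩ := hmem
  obtain ⟨g, rfl⟩ := QuotientGroup.mk_surjective y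
  have hcenter := Cfsg.Agent.Lib.OmegaOddClasses.center_Omega_odd hodd (m + 1) (by omega)
  have hinj : Function.Injective
      (QuotientGroup.mk' (Subgroup.center (Cfsg.Omega F ⇑(Cfsg.Agent.Lib.OrthoCount.qOdd (m + 1) F)))) := by
    rw [injective_iff_map_eq_one]
    intro a ha
    have : a ∈ Subgroup.center (Cfsg.Omega F ⇑(Cfsg.Agent.Lib.OrthoCount.qOdd (m + 1) F)) :=
      (QuotientGroup.eq_one_iff a).mp ha
    rw [hcenter] at this
    exact this
  have h1 : orderOf g = (ringChar F) * (Fintype.card F ^ m + 1) := by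
    rw [← hy]
    exact (orderOf_injective _ hinj g).symm
  let Q := Cfsg.Agent.Lib.OrthoCount.qOdd (m + 1) F
  have hQ : (Cfsg.Agent.Lib.OrthGroup.B Q).Nondegenerate :=
    Cfsg.Agent.Lib.OmegaOddClasses.nondegenerate_of_nondeg (Cfsg.Agent.Lib.OrthoOrder.nondeg_qOdd hodd (m + 1))
  have hV : Module.finrank F (Unit ⊕ (Fin (m + 1) ⊕ Fin (m + 1)) → F) = 2 * m + 3 := by
    simp only [Module.finrank_fintype_fun_eq_card, Fintype.card_sum, Fintype.card_unit, Fintype.card_fin]
    omega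
  have h2 := (Cfsg.Agent.Lib.OrthMatrix.mem_Omega_iff Q g.1).mp g.2
  have h3 := Cfsg.Agent.Lib.SpecBC.no_element (F := F) (ringChar F) rfl hodd hm Q hQ hV
    (Cfsg.Agent.Lib.OrthMatrix.toO Q g.1) h2
  apply h3
  rw [Subgroup.orderOf_coe, MulEquiv.orderOf_eq]
  rw [Subgroup.orderOf_coe]
  exact h1

end Cfsg.Agent.S2362
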