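-- Statement S2363: the order of a group of Lie type against its `p`-part.
import Cfsg.Statements.S2363
import Cfsg.Agent.Lib.LieOrdFam

set_option autoImplicit false
open Cfsg

namespace Cfsg.Agent.S2363

open Cfsg.Agent.Lib.LieOrdFam Cfsg.Agent.Lib.LieOrdShape

theorem of_concl {G : Type*} [Group G] [Finite G] {p k c : ℕ} (hc : Nat.card G = c) (h : Concl p c k) :
    Nat.card G < p ^ (3 * (Nat.card G).factorization p) ∧
      ((¬ ∃ (F : Type) (_ : Field F) (_ : Fintype F), Fintype.card F = p ^ (Nat.card G).factorization p ∧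
          Nonempty (G ≃* Matrix.ProjectiveSpecialLinearGroup (Fin 2) F)) →
        Nat.card G ^ 3 < p ^ (8 * (Nat.card G).factorization p)) := by
  obtain ⟨h1, h2, h3⟩ := h
  rw [hc, h1]
  exact ⟨h2, fun _ => h3⟩

/-- Let G be a finite simple group of Lie type in characteristic p and let p^k be the exact power of p dividing the order of G. Then the order of G is less than p^(3k); and unless G is isomorphic to PSL(2, F) for the field F with p^k elements, the cube of the order of G is less than p^(8k) (that is, the order is below p^(8k/3)). -/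
theorem result {G : Type*} [Group G] [Finite G] (p : ℕ) (hp : p.Prime) (hG : Cfsg.IsLieTypeChar p G) :
    Nat.card G < p ^ (3 * (Nat.card G).factorization p) ∧
      ((¬ ∃ (F : Type) (_ : Field F) (_ : Fintype F), Fintype.card F = p ^ (Nat.card G).factorization p ∧
          Nonempty (G ≃* Matrix.ProjectiveSpecialLinearGroup (Fin 2) F)) →
        Nat.card G ^ 3 < p ^ (8 * (Nat.card G).factorization p)) := by
  rcases hG with hG | hG | hG | hG | hG | hG | hG | hG | hG | hG | hG
  · -- linear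
    obtain ⟨F, _, _, _, n, hn, -, ⟨e⟩⟩ := hG
    obtain ⟨f, hf, hq⟩ := exists_pow (F := F) hp
    have hc : Nat.card G = Nat.card (Matrix.ProjectiveSpecialLinearGroup (Fin n) F) := Nat.card_congr e.toEquiv
    obtain ⟨h1, h2, h3⟩ := concl_psl hp rfl hq hf hn
    rw [hc, h1]
    refine ⟨h2, fun hne => h3 ?_⟩
    by_contra hn3
    have hn2 : n = 2 := by omega
    subst hn2
    apply hne
    refine ⟨F, inferInstance, inferInstance, ?_, ⟨e⟩⟩
    rw [hq]
    congr 1
    simp [Finset.sum_range_succ]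
  · -- symplectic
    obtain ⟨F, _, _, _, m, hm, -, ⟨e⟩⟩ := hG
    obtain ⟨f, hf, hq⟩ := exists_pow (F := F) hp
    exact of_concl (Nat.card_congr e.toEquiv) (concl_psp hp rfl hq hf hm)
  · -- unitary
    obtain ⟨F, _, _, _, n, q, hF, hn, -, ⟨e⟩⟩ := hG
    obtain ⟨f', hf', hq⟩ := exists_pow (F := F) hp
    have hdvd : q ∣ p ^ f' := by
      rw [← hq, hF]
      exact dvd_pow_self q (by norm_num)
    obtain ⟨f, -, hqf⟩ := (Nat.dvd_prime_pow hp).1 hdvd
    have hf : 1 ≤ f := by
      by_contra h0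
      have hf0 : f = 0 := by omega
      subst hf0
      rw [pow_zero] at hqf
      subst hqf
      have := Fintype.one_lt_card (α := F)
      rw [hF] at this
      norm_num at this
    exact of_concl (Nat.card_congr e.toEquiv) (concl_psu hp hF hqf hf hn)
  · -- odd orthogonal
    obtain ⟨F, _, _, _, m, hm, hodd, ⟨e⟩⟩ := hG
    obtain ⟨f, hf, hq⟩ := exists_pow (F := F) hp
    exact of_concl (Nat.card_congr e.toEquiv) (concl_odd hp rfl hq hf hodd hm)
  · -- plus
    obtain ⟨F, _, _, _, m, hm, ⟨e⟩⟩ := hG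
    obtain ⟨f, hf, hq⟩ := exists_pow (F := F) hp
    exact of_concl (Nat.card_congr e.toEquiv) (concl_plus hp rfl hq hf hm)
  · -- minus
    obtain ⟨F, _, _, _, m, a, b, hm, hab, ⟨e⟩⟩ := hG
    obtain ⟨f, hf, hq⟩ := exists_pow (F := F) hp
    exact of_concl (Nat.card_congr e.toEquiv) (concl_minus hp rfl hq hf hm a b hab)
  · -- exceptional
    obtain ⟨F, _, _, _, ⟨-, ⟨e⟩⟩ | ⟨⟨e⟩⟩ | ⟨⟨e⟩⟩ | ⟨⟨e⟩⟩ | ⟨⟨e⟩⟩⟩ := hG <;>
    obtain ⟨f, hf, hq⟩ := exists_pow (F := F) hp
    · exact of_concl (Nat.card_congr e.toEquiv) (concl_g2 hp rfl hq hf)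
    · exact of_concl (Nat.card_congr e.toEquiv) (concl_f4 hp rfl hq hf)
    · exact of_concl (Nat.card_congr e.toEquiv) (concl_e6 hp rfl hq hf)
    · exact of_concl (Nat.card_congr e.toEquiv) (concl_e7 hp rfl hq hf)
    · exact of_concl (Nat.card_congr e.toEquiv) (concl_e8 hp rfl hq hf)
  · -- twisted
    obtain ⟨K, _, _, _, q, hpq, ⟨hK, ⟨e⟩⟩ | ⟨hK, ⟨e⟩⟩⟩ := hG
    · obtain ⟨f', hf', hq⟩ := exists_pow (F := K) hp
      have hdvd : q ∣ p ^ f' := by
        rw [← hq, hK]
        exact dvd_pow_self q (by norm_num)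
      obtain ⟨f, -, hqf⟩ := (Nat.dvd_prime_pow hp).1 hdvd
      have hf : 1 ≤ f := by
        by_contra h0
        have hf0 : f = 0 := by omega
        subst hf0
        rw [pow_zero] at hqf
        subst hqf
        exact hpq.ne_one rfl
      exact of_concl (Nat.card_congr e.toEquiv) (concl_2e6 hp hpq hK hqf hf)
    · obtain ⟨f', hf', hq⟩ := exists_pow (F := K) hp
      have hdvd : q ∣ p ^ f' := by
        rw [← hq, hK]
        exact dvd_pow_self q (by norm_num)
      obtain ⟨f, -, hqf⟩ := (Nat.dvd_prime_pow hp).1 hdvd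
      have hf : 1 ≤ f := by
        by_contra h0
        have hf0 : f = 0 := by omega
        subst hf0
        rw [pow_zero] at hqf
        subst hqf
        exact hpq.ne_one rfl
      exact of_concl (Nat.card_congr e.toEquiv) (concl_3d4 hp hpq hK hqf hf)
  · -- Suzuki
    obtain ⟨rfl, F, _, _, m, hm, hF, ⟨e⟩⟩ := hG
    exact of_concl (Nat.card_congr e.toEquiv) (concl_sz hm hF)
  · -- large Ree
    obtain ⟨rfl, K, _, _, m, hm, hF, ⟨e⟩⟩ := hG
    exact of_concl (Nat.card_congr e.toEquiv) (concl_2f4 hF)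
  · -- small Ree
    obtain ⟨rfl, K, _, _, m, hm, hF, ⟨e⟩⟩ := hG
    exact of_concl (Nat.card_congr e.toEquiv) (concl_2g2 hF)

end Cfsg.Agent.S2363
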