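import Mathlib
import Cfsg.Statements.S2364
import Cfsg.Agent.Lib.CommUnip
import Cfsg.Agent.Lib.ClassicalCore

set_option autoImplicit false
set_option linter.unusedVariables false
open Cfsg

namespace Cfsg.Agent.S2364

open Matrix Matrix.SpecialLinearGroup Module

variable {F : Type*} [Field F] [Fintype F]

lemma card_pos_nonzero {n : ℕ} : Nat.card (SpecialLinearGroup (Fin n) F) ≠ 0 :=
  Nat.card_pos.ne'

/-- Divisibility of the order of `SL_m`. -/
lemma dvd_card_SL {m r : ℕ} (hm : 2 ≤ m) (hr : r.Prime)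
    (hdvd : r ∣ Fintype.card F ∨ ∃ i, 1 ≤ i ∧ i ≤ m ∧ r ∣ Fintype.card F ^ i - 1)
    (hp : r ∣ Fintype.card F → ¬ r ∣ Fintype.card F - 1) :
    r ∣ Nat.card (SpecialLinearGroup (Fin m) F) := by
  classical
  set q := Fintype.card F with hq
  have hq2 : 1 < q := Fintype.one_lt_card
  have : Nonempty (Fin m) := ⟨⟨0, by omega⟩⟩
  have h1 := Cfsg.Agent.Lib.ClassicalCore.card_GL_eq_mul_card_SL (n := Fin m) (F := F)
  rw [Matrix.card_GL_field, ← hq] at h1
  set S := Nat.card (SpecialLinearGroup (Fin m) F) with hS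
  -- factors of the order of `GL_m`
  have hfac : ∀ j, j < m → (q ^ m - q ^ j) = q ^ j * (q ^ (m - j) - 1) := by
    intro j hj
    rw [Nat.mul_sub, mul_one, ← pow_add]
    congr 2
    omega
  have hdvdf : ∀ j, j < m → (q ^ m - q ^ j) ∣ (q - 1) * S := by
    intro j hj
    rw [← h1]
    exact Finset.dvd_prod_of_mem (fun i : Fin m => q ^ m - q ^ (i : ℕ)) (Finset.mem_univ (⟨j, hj⟩ : Fin m))
  by_cases hrq1 : r ∣ q - 1
  · -- the two factors
    have h2 : (q ^ m - q ^ 0) * (q ^ m - q ^ 1) ∣ (q - 1) * S := by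
      rw [← h1]
      have h0 : (0 : ℕ) < m := by omega
      have h1' : (1 : ℕ) < m := by omega
      have hne : (⟨0, h0⟩ : Fin m) ≠ ⟨1, h1'⟩ := by simp [Fin.ext_iff]
      have := Finset.prod_dvd_prod_of_subset ({⟨0, h0⟩, ⟨1, h1'⟩} : Finset (Fin m)) Finset.univ
        (fun i : Fin m => q ^ m - q ^ (i : ℕ)) (Finset.subset_univ _)
      rwa [Finset.prod_pair hne] at this
    have h3 : (q - 1) ∣ q ^ m - q ^ 0 := by
      rw [pow_zero]
      exact Nat.sub_one_dvd_pow_sub_one _ _ |> fun h => h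
    have h4 : (q - 1) ∣ q ^ m - q ^ 1 := by
      rw [hfac 1 (by omega), pow_one]
      exact Dvd.dvd.mul_left (by simpa using Nat.sub_one_dvd_pow_sub_one q (m - 1)) q
    have h5 : (q - 1) * (q - 1) ∣ (q - 1) * S := (mul_dvd_mul h3 h4).trans h2
    have h6 : q - 1 ∣ S := Nat.dvd_of_mul_dvd_mul_left (by omega) h5
    exact hrq1.trans h6
  · have h2 : r ∣ (q - 1) * S := by
      rcases hdvd with h | ⟨i, hi1, him, hi⟩
      · have h0 : (q ^ m - q ^ 1) ∣ (q - 1) * S := hdvdf 1 (by omega)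
        refine Dvd.dvd.trans ?_ h0
        rw [hfac 1 (by omega), pow_one]
        exact Dvd.dvd.mul_right h _
      · have h0 : (q ^ m - q ^ (m - i)) ∣ (q - 1) * S := hdvdf (m - i) (by omega)
        refine Dvd.dvd.trans ?_ h0
        rw [hfac (m - i) (by omega)]
        have : m - (m - i) = i := by omega
        rw [this]
        exact Dvd.dvd.mul_left hi _
    rcases (Nat.Prime.dvd_mul hr).1 h2 with h3 | h3
    · exact absurd h3 hrq1
    · exact h3

/-- The theorem for `PSL`. -/
theorem result {F : Type*} [Field F] [Fintype F] (p : ℕ) [Fact p.Prime] [CharP F p] (n : ℕ) (hn : 4 ≤ n)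
    (a b : Matrix.ProjectiveSpecialLinearGroup (Fin n) F) (ha : orderOf a = p) (hab : Commute a b) :
    (orderOf b).primeFactors ⊆ (Nat.card (Matrix.SpecialLinearGroup (Fin (n - 2)) F)).primeFactors := by
  classical
  intro r hr
  have hrp := Nat.prime_of_mem_primeFactors hr
  have hrb := Nat.dvd_of_mem_primeFactors hr
  rw [Nat.mem_primeFactors]
  refine ⟨hrp, ?_, card_pos_nonzero⟩
  have : Fact r.Prime := ⟨hrp⟩
  set q := Fintype.card F with hq
  have hq2 : 1 < q := Fintype.one_lt_card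
  have hp : Fact p.Prime := inferInstance
  have hpq : p ∣ q := by
    obtain ⟨k, hk, hk2⟩ := FiniteField.card F p
    rw [hq, hk2]
    exact dvd_pow_self _ k.ne_zero
  have hpq1 : ¬ p ∣ q - 1 := by
    intro h
    have h3 : p ∣ q - (q - 1) := Nat.dvd_sub hpq h
    have h4 : q - (q - 1) = 1 := by omega
    rw [h4] at h3
    exact hp.out.one_lt.ne' (Nat.dvd_one.1 h3)
  have hm : 2 ≤ n - 2 := by omega
  -- lifts
  obtain ⟨A, rfl⟩ := QuotientGroup.mk_surjective a
  obtain ⟨B, rfl⟩ := QuotientGroup.mk_surjective b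
  let π : SpecialLinearGroup (Fin n) F →* Matrix.ProjectiveSpecialLinearGroup (Fin n) F :=
    QuotientGroup.mk' _
  have hπ : ∀ x, π x = 1 ↔ x ∈ Subgroup.center (SpecialLinearGroup (Fin n) F) := by
    intro x
    exact QuotientGroup.eq_one_iff x
  have hne : Nonempty (Fin n) := ⟨⟨0, by omega⟩⟩
  have hchar : CharP (Matrix (Fin n) (Fin n) F) p := inferInstance
  change orderOf (π A) = p at ha
  change Commute (π A) (π B) at hab
  change r ∣ orderOf (π B) at hrb
  have hA1 : π A ^ p = 1 := by rw [← ha]; exact pow_orderOf_eq_one _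
  -- a lift of order `p`
  obtain ⟨c, hc, hcA⟩ := mem_center_iff.1 ((hπ (A ^ p)).1 (by rw [map_pow, hA1]))
  have hc0 : c ≠ 0 := by
    rintro rfl
    rw [Fintype.card_fin, zero_pow (by omega)] at hc
    exact zero_ne_one hc
  have hct : c ^ (q - 1) = 1 := FiniteField.pow_card_sub_one_eq_one c hc0
  have hA2 : A ^ (p * (q - 1)) = 1 := by
    rw [pow_mul]
    apply Subtype.ext
    have h1 : ((A ^ p : SpecialLinearGroup (Fin n) F) : Matrix (Fin n) (Fin n) F) = scalar (Fin n) c := hcA.symm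
    rw [Matrix.SpecialLinearGroup.coe_pow, h1, ← map_pow, hct, map_one]
    rfl
  have hcop : Nat.Coprime (q - 1) p :=
    ((Nat.Prime.coprime_iff_not_dvd hp.out).2 hpq1).symm
  obtain ⟨u, _, hu⟩ := Nat.exists_mul_mod_eq_one_of_coprime hcop hp.out.one_lt
  set A' := A ^ ((q - 1) * u) with hA'
  have hA'π : π A' = π A := by
    rw [hA', map_pow, pow_eq_pow_mod _ hA1, hu, pow_one]
  have hA'p : A' ^ p = 1 := by
    rw [hA', ← pow_mul, show (q - 1) * u * p = p * (q - 1) * u by ring, pow_mul, hA2, one_pow]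
  have hA'1 : A' ≠ 1 := by
    intro h
    have h1 : π A = 1 := by rw [← hA'π, h, map_one]
    rw [h1, orderOf_one] at ha
    exact hp.out.one_lt.ne ha
  set N : Matrix (Fin n) (Fin n) F := (A' : Matrix (Fin n) (Fin n) F) - 1 with hN
  have hN0 : N ≠ 0 := by
    intro h
    apply hA'1
    apply Subtype.ext
    exact sub_eq_zero.1 h
  have hNp : IsNilpotent N := by
    refine ⟨p, ?_⟩
    rw [hN, sub_pow_char_of_commute p (Commute.one_right _), one_pow, sub_eq_zero]
    rw [← Matrix.SpecialLinearGroup.coe_pow, hA'p]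
    rfl
  -- `B` commutes with the lift
  have hBA : B * A' = A' * B := by
    have h1 : π (B * A' * B⁻¹ * A'⁻¹) = 1 := by
      simp only [map_mul, map_inv, hA'π]
      rw [hab.symm.eq, mul_inv_cancel_right, mul_inv_cancel]
    have hWc := (hπ _).1 h1
    obtain ⟨z, _, hz⟩ := mem_center_iff.1 hWc
    set W := B * A' * B⁻¹ * A'⁻¹ with hW
    have hBA' : B * A' * B⁻¹ = W * A' := by rw [hW]; group
    have hWcomm : Commute W A' := (Subgroup.mem_center_iff.1 hWc A').symm
    have hWp : W ^ p = 1 := by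
      have h2 : (B * A' * B⁻¹) ^ p = 1 := by
        rw [conj_pow, hA'p]
        group
      rw [hBA', hWcomm.mul_pow, hA'p, mul_one] at h2
      exact h2
    have hz1 : z ^ p = 1 := by
      have h2 : ((W ^ p : Matrix.SpecialLinearGroup (Fin n) F) : Matrix (Fin n) (Fin n) F) = 1 := by
        rw [hWp]
        rfl
      rw [Matrix.SpecialLinearGroup.coe_pow, ← hz, ← map_pow] at h2
      have h3 := congrFun (congrFun h2 ⟨0, by omega⟩) ⟨0, by omega⟩
      simpa [Matrix.scalar_apply] using h3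
    have hz2 : z = 1 := by
      have h2 : (z - 1) ^ p = 0 := by
        rw [sub_pow_char, one_pow, hz1, sub_self]
      have h3 := pow_eq_zero_iff (hp.out.ne_zero) |>.1 h2
      exact sub_eq_zero.1 h3
    have hW1 : W = 1 := by
      apply Subtype.ext
      rw [← hz, hz2, map_one]
      rfl
    have h5 : B * A' * B⁻¹ = A' := by rw [hBA', hW1, one_mul]
    calc B * A' = (B * A' * B⁻¹) * B := by group
      _ = A' * B := by rw [h5]
  -- an element of order `r`
  have hrB : r ∣ orderOf B := hrb.trans (orderOf_map_dvd π B)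
  have hB0 : orderOf B ≠ 0 := (orderOf_pos B).ne'
  set g := B ^ (orderOf B / r) with hg
  have hgo : orderOf g = r := orderOf_pow_orderOf_div hB0 hrB
  have hgr : g ^ r = 1 := by rw [← hgo]; exact pow_orderOf_eq_one _
  have hg1 : g ≠ 1 := by
    intro h
    rw [h, orderOf_one] at hgo
    exact hrp.one_lt.ne hgo
  have hgA : g * A' = A' * g := (Commute.pow_left hBA _ : Commute g A')
  have hrdvd : r ∣ q → ¬ r ∣ q - 1 := by
    intro h1 h2
    have h3 : r ∣ q - (q - 1) := Nat.dvd_sub h1 h2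
    have h4 : q - (q - 1) = 1 := by omega
    rw [h4] at h3
    exact hrp.one_lt.ne' (Nat.dvd_one.1 h3)
  by_cases hrpe : r = p
  · apply dvd_card_SL hm hrp (Or.inl (hrpe ▸ hpq)) hrdvd
  · have hrq : ¬ r ∣ q := by
      intro h
      obtain ⟨k, _, hk2⟩ := FiniteField.card F p
      rw [hq, hk2] at h
      have := (Nat.prime_dvd_prime_iff_eq hrp hp.out).1 (hrp.dvd_of_dvd_pow h)
      exact hrpe this
    have hgm : (g : Matrix (Fin n) (Fin n) F) ^ r = 1 := by
      rw [← Matrix.SpecialLinearGroup.coe_pow, hgr]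
      rfl
    have hg1m : (g : Matrix (Fin n) (Fin n) F) ≠ 1 := by
      intro h
      apply hg1
      apply Subtype.ext
      exact h
    have hgNm : (g : Matrix (Fin n) (Fin n) F) * N = N * g := by
      have h1 : (g : Matrix (Fin n) (Fin n) F) * A' = A' * g := by
        rw [← Matrix.SpecialLinearGroup.coe_mul, hgA, Matrix.SpecialLinearGroup.coe_mul]
      rw [hN, mul_sub, sub_mul, h1, mul_one, one_mul]
    obtain ⟨i, hi1, hi2, hi⟩ := Cfsg.Agent.Lib.CommUnip.exists_dvd (p := p) (r := r) (by omega) hrpe hrq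
      (g : Matrix (Fin n) (Fin n) F) N hgm hg1m hgNm hN0 hNp
    exact dvd_card_SL hm hrp (Or.inr ⟨i, hi1, by omega, hi⟩) hrdvd

end Cfsg.Agent.S2364
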