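import Mathlib
import Cfsg.Statements.S2365
import Cfsg.Agent.S5984
import Cfsg.Agent.Lib.UnitarySU
import Cfsg.Agent.Lib.HermOrtho

set_option autoImplicit false
set_option linter.unusedVariables false
set_option linter.unusedSimpArgs false
set_option linter.unusedSectionVars false
open Cfsg

namespace Cfsg.Agent.S2365

open Matrix Module Cfsg.Agent.Lib.HermForm Cfsg.Agent.Lib.HermOrtho

variable {F : Type*} [Field F] [Fintype F] {q m r : ℕ}

/-- The factor of the unitary order. -/
def uq (q k : ℕ) : ℕ := if Even k then q ^ k - 1 else q ^ k + 1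

/-- A fixed-point-free isometry of prime order `r` prime to `q`: the count of vectors of norm one. -/
theorem fpf_count {X : Type*} [AddCommGroup X] [Module F X] [FiniteDimensional F X] (H : X → X → F)
    (hadd : ∀ x y v, H (x + y) v = H x v + H y v) (hsmul : ∀ (c : F) x v, H (c • x) v = c * H x v)
    (hherm : ∀ v w, H v w = (H w v) ^ q) (hF : Fintype.card F = q ^ 2)
    (hnd : ∀ v, (∀ w, H v w = 0) → v = 0) (hr : r.Prime) (hrq : ¬ r ∣ q)
    (g : X → X) (hg : ∀ x y, H (g x) (g y) = H x y) (hgr : g^[r] = id) (hfix : ∀ x, g x = x → x = 0)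
    (hk : finrank F X ≠ 0) : r ∣ uq q (finrank F X) := by
  classical
  obtain ⟨E, hE⟩ := Cfsg.Agent.S5984.exists_herm_equiv H hadd hsmul hherm hF hnd (k := finrank F X) rfl
  have : Fact r.Prime := ⟨hr⟩
  have hfinX : Finite X := Module.finite_of_finite F
  let S := {v : X // H v v = 1}
  let f : Function.End S := fun z => ⟨g z.1, by rw [hg]; exact z.2⟩
  have hpow : ∀ (k : ℕ) (z : S), ((f ^ k) z : S).1 = g^[k] z.1 := by
    intro k
    induction k with
    | zero => intro z; rfl
    | succ k ih =>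
      intro z
      rw [pow_succ]
      change ((f ^ k) (f z)).1 = _
      rw [ih]
      rfl
  have hf : f ^ r ^ 1 = 1 := by
    rw [pow_one]
    funext z
    apply Subtype.ext
    rw [hpow, hgr]
    rfl
  haveI : Fintype S := Fintype.ofFinite S
  haveI : DecidableEq S := Classical.decEq S
  have hmod := Equiv.Perm.card_fixedPoints_modEq (f := f) hf
  have hfx : Fintype.card f.fixedPoints = 0 := by
    rw [Fintype.card_eq_zero_iff]
    refine ⟨fun z => ?_⟩
    have h1 : f z.1 = z.1 := z.2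
    have h2 : g z.1.1 = z.1.1 := congrArg Subtype.val h1
    have h3 := hfix _ h2
    have h4 := z.1.2
    rw [h3] at h4
    have h5 := hsmul 0 0 0
    simp only [zero_smul, zero_mul] at h5
    rw [h5] at h4
    exact zero_ne_one h4
  rw [hfx] at hmod
  have hcard : Fintype.card S = Nat.card {v : Fin (finrank F X) → F // hermForm (finrank F X) F q v v = 1} := by
    rw [← Nat.card_eq_fintype_card]
    refine Nat.card_congr ⟨fun z => ⟨E.symm z.1, ?_⟩, fun z => ⟨E z.1, ?_⟩, ?_, ?_⟩
    · rw [← hE]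
      simpa using z.2
    · rw [hE]; exact z.2
    · intro z; simp
    · intro z; simp
  have hdvd : r ∣ Fintype.card S := (Nat.modEq_zero_iff_dvd).1 hmod
  rw [hcard, Cfsg.Agent.Lib.HermCount.card_norm_one hF] at hdvd
  have : r ∣ q ^ (finrank F X - 1) * uq q (finrank F X) := by
    unfold uq
    split_ifs at hdvd ⊢ <;> exact hdvd
  rcases (Nat.Prime.dvd_mul hr).1 this with h1 | h1
  · exact absurd (hr.dvd_of_dvd_pow h1) hrq
  · exact h1

/-- A nonzero `F`-element with `θ^q = -θ`. -/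
theorem exists_skew (hF : Fintype.card F = q ^ 2) : ∃ θ : F, θ ≠ 0 ∧ θ ^ q = -θ := by
  have hq := Cfsg.Agent.Lib.HermCount.two_le_q hF
  obtain ⟨x, hx⟩ : ∃ x : F, x ^ q ≠ x := by
    by_contra hcon
    push Not at hcon
    have h2 : Nat.card {c : F // c ^ q = c} = q ^ 2 := by
      rw [← hF, ← Nat.card_eq_fintype_card]
      exact Nat.card_congr (Equiv.subtypeUnivEquiv hcon)
    rw [Cfsg.Agent.Lib.HermLines.card_fixed hF] at h2
    nlinarith
  refine ⟨x - x ^ q, sub_ne_zero.2 (Ne.symm hx), ?_⟩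
  rw [sub_pow_q hF, Cfsg.Agent.Lib.HermCount.pow_q_pow_q hF]
  ring

local notation "h" => hermForm m F q

/-- The fixed space of an isometry of prime order is nondegenerate. -/
theorem fixed_nd (hF : Fintype.card F = q ^ 2) (hrF : (r : F) ≠ 0)
    (g : (Fin m → F) →ₗ[F] (Fin m → F)) (hg : ∀ x y, h (g x) (g y) = h x y) (hgr : g ^ r = 1) :
    ND q (LinearMap.ker (g - LinearMap.id)) := by
  intro u hu hperp
  have hu' : g u = u := by simpa [sub_eq_zero] using hu
  by_contra hu0
  obtain ⟨y, hy⟩ := exists_hermForm_ne_zero hF hu0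
  apply hy
  have hPy : ∑ i ∈ Finset.range r, (g ^ i) y ∈ LinearMap.ker (g - LinearMap.id) := by
    rw [LinearMap.mem_ker, LinearMap.sub_apply, LinearMap.id_apply, sub_eq_zero, map_sum]
    have h1 : ∀ i, g ((g ^ i) y) = (g ^ (i + 1)) y := by
      intro i
      rw [pow_succ']
      rfl
    simp only [h1]
    have a := Finset.sum_range_succ (fun i => (g ^ i) y) r
    have b := Finset.sum_range_succ' (fun i => (g ^ i) y) r
    rw [a] at b
    simp only [hgr, pow_zero] at b
    exact (add_right_cancel b).symm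
  have h2 := hperp _ hPy
  have hpu : ∀ i, (g ^ i) u = u := by
    intro i
    induction i with
    | zero => rfl
    | succ i ih =>
      rw [pow_succ']
      change g ((g ^ i) u) = u
      rw [ih, hu']
  have hpg : ∀ i x y, h ((g ^ i) x) ((g ^ i) y) = h x y := by
    intro i
    induction i with
    | zero => intro x y; rfl
    | succ i ih =>
      intro x y
      rw [pow_succ']
      change h (g ((g ^ i) x)) (g ((g ^ i) y)) = _
      rw [hg, ih]
  have h3 : h u (∑ i ∈ Finset.range r, (g ^ i) y) = (r : F) * h u y := by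
    rw [herm_sum_right hF]
    have : ∀ i ∈ Finset.range r, h u ((g ^ i) y) = h u y := by
      intro i _
      conv_lhs => rw [← hpu i]
      exact hpg i u y
    rw [Finset.sum_congr rfl this]
    simp
  rw [h3] at h2
  exact (mul_eq_zero.1 h2).resolve_left hrF

/-- The core: fixed-point-free parts of `g`. -/
theorem core_case1 (hF : Fintype.card F = q ^ 2) (hrF : (r : F) ≠ 0) (hr : r.Prime) (hrq : ¬ r ∣ q)
    (g : (Fin m → F) →ₗ[F] (Fin m → F)) (hg : ∀ x y, h (g x) (g y) = h x y) (hgr : g ^ r = 1)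
    (hg1 : g ≠ 1) (hU : 2 ≤ finrank F (LinearMap.ker (g - LinearMap.id))) (hm : 2 ≤ m) :
    ∃ k, 1 ≤ k ∧ k ≤ m - 2 ∧ r ∣ uq q k := by
  classical
  set U := LinearMap.ker (g - LinearMap.id) with hUdef
  have hUnd : ND q U := fixed_nd hF hrF g hg hgr
  obtain ⟨hW1, hW2⟩ := perp_props hF hUnd rfl
  set W := perp (q := q) U with hWdef
  have hmemU : ∀ x, x ∈ U ↔ g x = x := by
    intro x
    simp [hUdef, sub_eq_zero]
  have hgW : ∀ x ∈ W, g x ∈ W := by
    intro x hx u hu
    have : h (g x) u = h (g x) (g u) := by rw [(hmemU u).1 hu]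
    rw [this, hg]
    exact hx u hu
  have hUle : finrank F U ≤ m := by
    have := Submodule.finrank_le U
    simpa using this
  have hW0 : finrank F W ≠ 0 := by
    intro h0
    have h3 : finrank F U = m := by omega
    have h4 : U = ⊤ := by
      apply Submodule.eq_top_of_finrank_eq
      simpa using h3
    apply hg1
    refine LinearMap.ext fun x => ?_
    have := (hmemU x).1 (by rw [h4]; trivial)
    rw [this]
    rfl
  have hcount := fpf_count (q := q) (r := r) (X := W) (fun x y => h x.1 y.1)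
    (fun x y v => hermForm_add_left _ _ _)
    (fun c x v => hermForm_smul_left _ _ _)
    (fun v w => (hermForm_conj hF _ _).symm) hF
    (fun v hv => Subtype.ext (hW2 v.1 v.2 (fun w hw => hv ⟨w, hw⟩))) hr hrq
    (fun x => ⟨g x.1, hgW _ x.2⟩) (fun x y => hg _ _)
    (by
      have hit : ∀ (i : ℕ) (x : W), ((fun x : W => (⟨g x.1, hgW _ x.2⟩ : W))^[i] x).1 = (g ^ i) x.1 := by
        intro i
        induction i with
        | zero => intro x; rfl
        | succ i ih =>
          intro x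
          rw [Function.iterate_succ_apply, ih, pow_succ]
          rfl
      funext x
      apply Subtype.ext
      rw [hit, hgr]
      rfl)
    (by
      intro x hx
      have h1 : g x.1 = x.1 := congrArg Subtype.val hx
      apply Subtype.ext
      apply hUnd x.1 ((hmemU _).2 h1)
      intro v hv
      exact x.2 v hv)
    hW0
  exact ⟨finrank F W, by omega, by omega, hcount⟩

/-- The second case: the fixed space has dimension at most one. -/
theorem core_case2 (hF : Fintype.card F = q ^ 2) (hrF : (r : F) ≠ 0) (hr : r.Prime) (hrq : ¬ r ∣ q)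
    (g T : (Fin m → F) →ₗ[F] (Fin m → F)) (hg : ∀ x y, h (g x) (g y) = h x y) (hgr : g ^ r = 1)
    (ε θ : F) (hθ : θ ≠ 0) (hεθ : θ ^ q * ε = θ) (hε : ε ≠ 0)
    (hT : ∀ x y, h (T x) y = ε * h x (T y)) (hT0 : T ≠ 0) (hT2 : ∀ x, T (T x) = 0)
    (hgT : ∀ x, g (T x) = T (g x))
    (hU : finrank F (LinearMap.ker (g - LinearMap.id)) ≤ 1) (hm : 4 ≤ m) :
    ∃ k, 1 ≤ k ∧ k ≤ m - 2 ∧ r ∣ uq q k := by
  classical
  set U := LinearMap.ker (g - LinearMap.id) with hUdef
  have hUnd : ND q U := fixed_nd hF hrF g hg hgr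
  have hmemU : ∀ x, x ∈ U ↔ g x = x := by
    intro x
    simp [hUdef, sub_eq_zero]
  -- `T` kills `U`
  have hTU : ∀ x ∈ U, T x = 0 := by
    intro x hx
    have hTx : T x ∈ U := by
      rw [hmemU, hgT, (hmemU x).1 hx]
    obtain ⟨v, hv⟩ := finrank_le_one_iff.1 hU
    obtain ⟨a, ha⟩ := hv ⟨x, hx⟩
    obtain ⟨b, hb⟩ := hv ⟨T x, hTx⟩
    have ha' : a • v.1 = x := congrArg Subtype.val ha
    have hb' : b • v.1 = T x := congrArg Subtype.val hb
    by_cases ha0 : a = 0
    · rw [ha0, zero_smul] at ha'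
      rw [← ha', map_zero]
    · have h1 : T x = (b / a) • x := by
        rw [← hb', ← ha', smul_smul]
        congr 1
        field_simp
      have h2 := hT2 x
      rw [h1, map_smul, h1, smul_smul] at h2
      rcases smul_eq_zero.1 h2 with h3 | h3
      · have h4 : b / a = 0 := by simpa using h3
        rw [h1, h4, zero_smul]
      · rw [h1, h3, smul_zero]
  set Z := LinearMap.range T with hZdef
  have hgZ : ∀ z ∈ Z, g z ∈ Z := by
    rintro _ ⟨y, rfl⟩
    exact ⟨g y, (hgT y).symm⟩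
  -- the section
  obtain ⟨S, hS⟩ := LinearMap.exists_rightInverse_of_surjective T.rangeRestrict (LinearMap.range_rangeRestrict T)
  have hTS : ∀ z : Z, T (S z) = z.1 := by
    intro z
    have := LinearMap.congr_fun hS z
    exact congrArg Subtype.val this
  have hkerperp : ∀ k y, T k = 0 → h k (T y) = 0 := by
    intro k y hk
    have h1 := hT k y
    rw [hk, hermForm_zero_left] at h1
    exact (mul_eq_zero.1 h1.symm).resolve_left hε
  -- dimension of `Z`
  have hdim : 2 * finrank F Z ≤ m := by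
    have h1 : finrank F Z + finrank F (LinearMap.ker T) = m := by
      have h1 := LinearMap.finrank_range_add_finrank_ker T
      rwa [finrank_fin_fun] at h1
    have h2 : Z ≤ LinearMap.ker T := by
      rintro _ ⟨y, rfl⟩
      exact hT2 y
    have h3 := Submodule.finrank_mono h2
    omega
  have hZ0 : finrank F Z ≠ 0 := by
    intro h0
    have h1 : Z = ⊥ := Submodule.finrank_eq_zero.1 h0
    apply hT0
    exact LinearMap.range_eq_bot.1 h1
  have hcount := fpf_count (q := q) (r := r) (X := Z) (fun z z' => θ * h (S z) z'.1)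
    (fun x y v => by
      rw [map_add, hermForm_add_left, mul_add])
    (fun c x v => by
      rw [map_smul, hermForm_smul_left]
      ring)
    (fun v w => by
      rw [mul_pow]
      -- `(h (S w) v)^q = h v (S w)`
      rw [hermForm_conj hF]
      have h1 : h v.1 (S w) = ε * h (S v) w.1 := by
        rw [← hTS v, hT, hTS]
      rw [h1, ← mul_assoc, hεθ])
    hF
    (fun v hv => by
      apply Subtype.ext
      by_contra hv0
      obtain ⟨y, hy⟩ := exists_hermForm_ne_zero hF hv0
      apply hy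
      have h1 := hv ⟨T y, y, rfl⟩
      have h2 : h (S v) (T y) = 0 := (mul_eq_zero.1 h1).resolve_left hθ
      have h3 := hT (S v) y
      rw [hTS, h2, mul_zero] at h3
      exact h3) hr hrq
    (fun x => ⟨g x.1, hgZ _ x.2⟩)
    (fun x y => by
      congr 1
      obtain ⟨y', hy'⟩ := y.2
      have h1 : S ⟨g x.1, hgZ _ x.2⟩ = g (S x) + (S ⟨g x.1, hgZ _ x.2⟩ - g (S x)) := by abel
      have h2 : T (S ⟨g x.1, hgZ _ x.2⟩ - g (S x)) = 0 := by
        rw [map_sub, hTS, ← hgT, hTS, sub_self]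
      change h (S ⟨g x.1, hgZ _ x.2⟩) (g y.1) = _
      rw [h1, hermForm_add_left, hg]
      have h3 : g y.1 = T (g y') := by rw [← hy', hgT]
      rw [h3, hkerperp _ _ h2, add_zero])
    (by
      have hit : ∀ (i : ℕ) (x : Z), ((fun x : Z => (⟨g x.1, hgZ _ x.2⟩ : Z))^[i] x).1 = (g ^ i) x.1 := by
        intro i
        induction i with
        | zero => intro x; rfl
        | succ i ih =>
          intro x
          rw [Function.iterate_succ_apply, ih, pow_succ]
          rfl
      funext x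
      apply Subtype.ext
      rw [hit, hgr]
      rfl)
    (by
      intro x hx
      have h1 : g x.1 = x.1 := congrArg Subtype.val hx
      apply Subtype.ext
      apply hUnd x.1 ((hmemU _).2 h1)
      intro v hv
      obtain ⟨y, hy⟩ := x.2
      rw [← hy, hT, hTU v hv, hermForm_zero_right hF, mul_zero])
    hZ0
  exact ⟨finrank F Z, by omega, by omega, hcount⟩

/-- The factor `uq` for `k ≤ n` gives divisibility of `|SU_n|`, `n ≥ 2`. -/
theorem dvd_card_SU (hF : Fintype.card F = q ^ 2) {n k : ℕ} (hn : 2 ≤ n) (hk1 : 1 ≤ k) (hk : k ≤ n)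
    (hr : r.Prime) (hd : r ∣ uq q k) : r ∣ Nat.card (SU n F q) := by
  have hq := Cfsg.Agent.Lib.HermCount.two_le_q hF
  have h1 := Cfsg.Agent.Lib.UnitarySU.card_SU hF n (by omega)
  -- split off the factor `q + 1`
  obtain ⟨n', rfl⟩ : ∃ n', n = n' + 1 := ⟨n - 1, by omega⟩
  rw [Finset.prod_range_succ'] at h1
  simp only [zero_add, pow_one, Even.zero, if_true] at h1
  -- cancel
  have h2 : Nat.card (SU (n' + 1) F q) = q ^ ((n' + 1) * (n' + 1 - 1) / 2) *
      ∏ i ∈ Finset.range n', (if Even (i + 1) then q ^ (i + 1 + 1) + 1 else q ^ (i + 1 + 1) - 1) := by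
    have h3 : (q + 1) * Nat.card (SU (n' + 1) F q) = (q + 1) * (q ^ ((n' + 1) * (n' + 1 - 1) / 2) *
      ∏ i ∈ Finset.range n', (if Even (i + 1) then q ^ (i + 1 + 1) + 1 else q ^ (i + 1 + 1) - 1)) := by
      rw [h1]
      ring
    exact Nat.eq_of_mul_eq_mul_left (by omega) h3
  rw [h2]
  apply Dvd.dvd.mul_left
  -- the factor
  have hfac : ∀ j, 2 ≤ j → j ≤ n' + 1 → uq q j ∣ ∏ i ∈ Finset.range n', (if Even (i + 1) then q ^ (i + 1 + 1) + 1 else q ^ (i + 1 + 1) - 1) := by
    intro j hj hj'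
    obtain ⟨i, rfl⟩ : ∃ i, j = i + 1 + 1 := ⟨j - 2, by omega⟩
    have hmem : i ∈ Finset.range n' := Finset.mem_range.2 (by omega)
    have := Finset.dvd_prod_of_mem (fun i => if Even (i + 1) then q ^ (i + 1 + 1) + 1 else q ^ (i + 1 + 1) - 1) hmem
    refine Dvd.dvd.trans ?_ this
    unfold uq
    by_cases he : Even (i + 1)
    · have : ¬ Even (i + 1 + 1) := by
        rw [Nat.even_add_one]
        simpa using he
      simp [he, this]
    · have : Even (i + 1 + 1) := by
        rw [Nat.even_add_one]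
        exact he
      simp [he, this]
  by_cases hk2 : 2 ≤ k
  · exact hd.trans (hfac k hk2 hk)
  · have hk1' : k = 1 := by omega
    subst hk1'
    refine Dvd.dvd.trans ?_ (hfac 2 le_rfl hn)
    refine hd.trans ?_
    unfold uq
    simp only [show ¬ Even 1 by decide, show Even 2 by decide, if_true, if_false, pow_one]
    refine ⟨q - 1, ?_⟩
    obtain ⟨s, rfl⟩ : ∃ s, q = s + 1 := ⟨q - 1, by omega⟩
    simp only [Nat.add_sub_cancel]
    have : (s + 1) ^ 2 = (s + 1 + 1) * s + 1 := by ring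
    omega

lemma mulVecLin_pow' {n : ℕ} (M : Matrix (Fin n) (Fin n) F) (k : ℕ) : (M ^ k).mulVecLin = M.mulVecLin ^ k := by
  induction k with
  | zero => simp [Module.End.one_eq_id]
  | succ k ih => rw [pow_succ, pow_succ, Matrix.mulVecLin_mul, ih]; rfl

lemma mulVecLin_inj {n : ℕ} {M M' : Matrix (Fin n) (Fin n) F} (hMM : M.mulVecLin = M'.mulVecLin) : M = M' := by
  apply Matrix.toLin'.injective
  rw [Matrix.toLin'_apply', Matrix.toLin'_apply', hMM]

/-- Matrix form of the linear core. -/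
theorem core_matrix (hF : Fintype.card F = q ^ 2) (hrF : (r : F) ≠ 0) (hr : r.Prime) (hrq : ¬ r ∣ q) (hm : 4 ≤ m)
    (p : ℕ) [Fact p.Prime] [CharP F p]
    (G A : Matrix (Fin m) (Fin m) F) (hG : ∀ x y, h (G *ᵥ x) (G *ᵥ y) = h x y) (hA : ∀ x y, h (A *ᵥ x) (A *ᵥ y) = h x y)
    (hGr : G ^ r = 1) (hG1 : G ≠ 1) (hAp : A ^ p = 1) (hA1 : A ≠ 1) (hGA : G * A = A * G) :
    ∃ k, 1 ≤ k ∧ k ≤ m - 2 ∧ r ∣ uq q k := by
  classical
  have hpp : p.Prime := Fact.out
  have : Nonempty (Fin m) := ⟨⟨0, by omega⟩⟩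
  set N : Matrix (Fin m) (Fin m) F := A - 1 with hN
  have hN0 : N ≠ 0 := fun h0 => hA1 (sub_eq_zero.1 h0)
  have hchar : CharP (Matrix (Fin m) (Fin m) F) p := inferInstance
  have hNp : N ^ p = 0 := by
    rw [hN, sub_pow_char_of_commute p (Commute.one_right _), one_pow, hAp, sub_self]
  have hex : ∃ j, N ^ j = 0 := ⟨p, hNp⟩
  set j₀ := Nat.find hex with hj₀
  have hj0 : N ^ j₀ = 0 := Nat.find_spec hex
  have hj1 : 2 ≤ j₀ := by
    by_contra hlt
    have : j₀ = 0 ∨ j₀ = 1 := by omega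
    rcases this with h0 | h0
    · rw [h0, pow_zero] at hj0
      exact one_ne_zero hj0
    · rw [h0, pow_one] at hj0
      exact hN0 hj0
  obtain ⟨k, hk⟩ : ∃ k, j₀ = k + 1 := ⟨j₀ - 1, by omega⟩
  have hk1 : 1 ≤ k := by omega
  have hTne : N ^ k ≠ 0 := Nat.find_min hex (by omega)
  have hTs : N ^ (k + 1) = 0 := by rw [← hk]; exact hj0
  -- the inverse
  set D : Matrix (Fin m) (Fin m) F := A ^ (p - 1) with hD
  have hAD : A * D = 1 := by
    rw [hD, ← pow_succ', show p - 1 + 1 = p by have := hpp.pos; omega, hAp]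
  have hDA : D * A = 1 := by
    rw [hD, ← pow_succ, show p - 1 + 1 = p by have := hpp.pos; omega, hAp]
  have hND : N * D = D * N := by
    rw [hN, sub_mul, mul_sub, hAD, hDA, one_mul, mul_one]
  have hAadj : ∀ x y, h (A *ᵥ x) y = h x (D *ᵥ y) := by
    intro x y
    conv_lhs => rw [show y = A *ᵥ (D *ᵥ y) by rw [mulVec_mulVec, hAD, one_mulVec]]
    exact hA _ _
  have hNadj : ∀ x y, h (N *ᵥ x) y = - h x ((N * D) *ᵥ y) := by
    intro x y
    rw [hN, sub_mulVec, one_mulVec, hermForm_sub_left, hAadj]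
    have : (A - 1) * D = 1 - D := by rw [sub_mul, hAD, one_mul]
    rw [this, sub_mulVec, one_mulVec, hermForm_sub_right hF]
    ring
  have hNpow : ∀ (j : ℕ) (x y : Fin m → F), h ((N ^ j) *ᵥ x) y = (-1) ^ j * h x ((N ^ j * D ^ j) *ᵥ y) := by
    intro j
    induction j with
    | zero => intro x y; simp
    | succ j ih =>
      intro x y
      rw [pow_succ N j, ← mulVec_mulVec, ih, hNadj, mulVec_mulVec]
      have e : N * D * (N ^ j * D ^ j) = N ^ (j + 1) * D ^ (j + 1) := by
        have h1 : Commute D (N ^ j) := (Commute.pow_right (hND.symm : Commute D N) j)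
        calc N * D * (N ^ j * D ^ j) = N * (D * N ^ j) * D ^ j := by simp only [mul_assoc]
          _ = N * (N ^ j * D) * D ^ j := by rw [h1.eq]
          _ = N ^ (j + 1) * D ^ (j + 1) := by rw [pow_succ' N j, pow_succ' D j]; simp only [mul_assoc]
      rw [e, pow_succ]
      ring
  -- `N^k D = N^k`
  have hTD : N ^ k * D = N ^ k := by
    have h1 : D = 1 - N * D := by
      have : (A - 1) * D = 1 - D := by rw [sub_mul, hAD, one_mul]
      rw [hN, this]
      abel
    conv_lhs => rw [h1]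
    rw [mul_sub, mul_one, ← mul_assoc, ← pow_succ, hTs, zero_mul, sub_zero]
  have hTDk : ∀ j, N ^ k * D ^ j = N ^ k := by
    intro j
    induction j with
    | zero => simp
    | succ j ih => rw [pow_succ, ← mul_assoc, ih, hTD]
  have hTadj : ∀ x y, h ((N ^ k) *ᵥ x) y = (-1) ^ k * h x ((N ^ k) *ᵥ y) := by
    intro x y
    rw [hNpow, hTDk]
  have hGN : G * N = N * G := by
    rw [hN, mul_sub, sub_mul, hGA, mul_one, one_mul]
  have hGT : G * N ^ k = N ^ k * G := (Commute.pow_right (hGN : Commute G N) k).eq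
  -- linear maps
  let gl := G.mulVecLin
  let Tl := (N ^ k).mulVecLin
  have hgl : ∀ x y, h (gl x) (gl y) = h x y := hG
  have hglr : gl ^ r = 1 := by
    rw [← mulVecLin_pow', hGr]
    exact LinearMap.ext fun x => one_mulVec x
  have hgl1 : gl ≠ 1 := by
    intro h0
    apply hG1
    apply mulVecLin_inj
    rw [show gl = G.mulVecLin from rfl] at h0
    rw [h0]
    exact (LinearMap.ext fun x => (one_mulVec x).symm)
  have hTl0 : Tl ≠ 0 := by
    intro h0
    apply hTne
    apply mulVecLin_inj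
    rw [show Tl = (N ^ k).mulVecLin from rfl] at h0
    rw [h0]
    exact (LinearMap.ext fun x => (zero_mulVec x).symm)
  have hTl2 : ∀ x, Tl (Tl x) = 0 := by
    intro x
    change (N ^ k) *ᵥ ((N ^ k) *ᵥ x) = 0
    rw [mulVec_mulVec, ← pow_add, show k + k = (k + 1) + (k - 1) by omega, pow_add, hTs, zero_mul, zero_mulVec]
  have hgTl : ∀ x, gl (Tl x) = Tl (gl x) := by
    intro x
    change G *ᵥ ((N ^ k) *ᵥ x) = (N ^ k) *ᵥ (G *ᵥ x)
    rw [mulVec_mulVec, mulVec_mulVec, hGT]
  obtain ⟨θ, hθ, hεθ⟩ : ∃ θ : F, θ ≠ 0 ∧ θ ^ q * (-1) ^ k = θ := by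
    rcases Nat.even_or_odd k with he | ho
    · exact ⟨1, one_ne_zero, by rw [he.neg_one_pow]; simp⟩
    · obtain ⟨θ, h1, h2⟩ := exists_skew hF
      exact ⟨θ, h1, by rw [ho.neg_one_pow, h2]; ring⟩
  have hε : ((-1 : F)) ^ k ≠ 0 := pow_ne_zero _ (neg_ne_zero.2 one_ne_zero)
  by_cases hU : 2 ≤ finrank F (LinearMap.ker (gl - LinearMap.id))
  · exact core_case1 hF hrF hr hrq gl hgl hglr hgl1 hU (by omega)
  · exact core_case2 hF hrF hr hrq gl Tl hgl hglr _ θ hθ hεθ hε hTadj hTl0 hTl2 hgTl (by omega) hm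

/-- Central elements of `SU` are scalar. -/
lemma center_scalar (hF : Fintype.card F = q ^ 2) (hm : 2 ≤ m) (z : SU m F q) (hz : z ∈ Subgroup.center (SU m F q)) :
    ∃ c : F, (z.1.1 : Matrix (Fin m) (Fin m) F) = Matrix.scalar (Fin m) c := by
  refine ⟨(z.1.1 : Matrix (Fin m) (Fin m) F) ⟨0, by omega⟩ ⟨0, by omega⟩, ?_⟩
  ext i j
  rw [Matrix.scalar_apply, Matrix.diagonal_apply]
  by_cases hij : i = j
  · subst hij
    rw [if_pos rfl]
    by_cases hi0 : i = ⟨0, by omega⟩
    · rw [hi0]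
    · exact Cfsg.Agent.Lib.UnitarySU.center_diag_eq hF z hz hi0
  · rw [if_neg hij]
    exact Cfsg.Agent.Lib.UnitarySU.center_offdiag_zero hF z hz hij

lemma coe_pow_SU (z : SU m F q) (k : ℕ) : (((z ^ k : SU m F q)).1.1 : Matrix (Fin m) (Fin m) F) = (z.1.1 : Matrix (Fin m) (Fin m) F) ^ k := by
  induction k with
  | zero => rfl
  | succ k ih =>
    rw [pow_succ, pow_succ, ← ih]
    rfl

lemma coe_mul_SU (z w : SU m F q) : ((z * w : SU m F q).1.1 : Matrix (Fin m) (Fin m) F) = (z.1.1 : Matrix (Fin m) (Fin m) F) * (w.1.1 : Matrix (Fin m) (Fin m) F) := rfl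

lemma eq_of_coe_SU {z w : SU m F q} (hzw : (z.1.1 : Matrix (Fin m) (Fin m) F) = (w.1.1 : Matrix (Fin m) (Fin m) F)) : z = w :=
  Subtype.ext (Subtype.ext hzw)

/-- The theorem. -/
theorem result {F : Type*} [Field F] [Fintype F] (p : ℕ) [Fact p.Prime] [CharP F p] (m q : ℕ) (hm : 4 ≤ m) (hF : Fintype.card F = q ^ 2)
    (a b : Cfsg.PSU m F q) (ha : orderOf a = p) (hab : Commute a b) :
    (orderOf b).primeFactors ⊆ (Nat.card ↥(Cfsg.SU (m - 2) F q)).primeFactors := by
  classical
  intro r hr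
  have hrp := Nat.prime_of_mem_primeFactors hr
  have hrb := Nat.dvd_of_mem_primeFactors hr
  rw [Nat.mem_primeFactors]
  refine ⟨hrp, ?_, Nat.card_pos.ne'⟩
  have hpp : p.Prime := Fact.out
  have hq2 := Cfsg.Agent.Lib.HermCount.two_le_q hF
  have hpQ : p ∣ Fintype.card F := by
    obtain ⟨k, hk, hk2⟩ := FiniteField.card F p
    rw [hk2]
    exact dvd_pow_self _ k.ne_zero
  set Q := Fintype.card F with hQ
  have hQ2 : 1 < Q := Fintype.one_lt_card
  have hpQ1 : ¬ p ∣ Q - 1 := by
    intro hh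
    have h3 : p ∣ Q - (Q - 1) := Nat.dvd_sub hpQ hh
    have h4 : Q - (Q - 1) = 1 := by omega
    rw [h4] at h3
    exact hpp.one_lt.ne' (Nat.dvd_one.1 h3)
  have hpq : p ∣ q := by
    rw [hF] at hpQ
    exact hpp.dvd_of_dvd_pow hpQ
  -- lifts
  obtain ⟨A, rfl⟩ := QuotientGroup.mk_surjective a
  obtain ⟨B, rfl⟩ := QuotientGroup.mk_surjective b
  let π : SU m F q →* Cfsg.PSU m F q := QuotientGroup.mk' _
  have hπ : ∀ x, π x = 1 ↔ x ∈ Subgroup.center (SU m F q) := fun x => QuotientGroup.eq_one_iff x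
  change orderOf (π A) = p at ha
  change Commute (π A) (π B) at hab
  change r ∣ orderOf (π B) at hrb
  have hA1 : π A ^ p = 1 := by rw [← ha]; exact pow_orderOf_eq_one _
  obtain ⟨c, hcA⟩ := center_scalar hF (by omega) _ ((hπ (A ^ p)).1 (by rw [map_pow, hA1]))
  have hc0 : c ≠ 0 := by
    rintro rfl
    have h2 := (A ^ p).1.2
    rw [hcA] at h2
    simp only [map_zero] at h2
    have hne : Nonempty (Fin m) := ⟨⟨0, by omega⟩⟩
    rw [Matrix.det_zero] at h2
    exact zero_ne_one h2
  have hct : c ^ (Q - 1) = 1 := FiniteField.pow_card_sub_one_eq_one c hc0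
  have hA2 : A ^ (p * (Q - 1)) = 1 := by
    rw [pow_mul]
    apply eq_of_coe_SU
    rw [coe_pow_SU, hcA, ← map_pow, hct, map_one]
    rfl
  have hcop : Nat.Coprime (Q - 1) p := ((Nat.Prime.coprime_iff_not_dvd hpp).2 hpQ1).symm
  obtain ⟨u, _, hu⟩ := Nat.exists_mul_mod_eq_one_of_coprime hcop hpp.one_lt
  set A' := A ^ ((Q - 1) * u) with hA'
  have hA'π : π A' = π A := by
    rw [hA', map_pow, pow_eq_pow_mod _ hA1, hu, pow_one]
  have hA'p : A' ^ p = 1 := by
    rw [hA', ← pow_mul, show (Q - 1) * u * p = p * (Q - 1) * u by ring, pow_mul, hA2, one_pow]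
  have hA'1 : A' ≠ 1 := by
    intro hh
    have h1 : π A = 1 := by rw [← hA'π, hh, map_one]
    rw [h1, orderOf_one] at ha
    exact hpp.one_lt.ne ha
  -- `B` commutes with the lift
  have hBA : B * A' = A' * B := by
    have h1 : π (B * A' * B⁻¹ * A'⁻¹) = 1 := by
      simp only [map_mul, map_inv, hA'π]
      rw [hab.symm.eq, mul_inv_cancel_right, mul_inv_cancel]
    have hWc := (hπ _).1 h1
    obtain ⟨z, hz⟩ := center_scalar hF (by omega) _ hWc
    set W := B * A' * B⁻¹ * A'⁻¹ with hW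
    have hBA' : B * A' * B⁻¹ = W * A' := by rw [hW]; group
    have hWcomm : Commute W A' := (Subgroup.mem_center_iff.1 hWc A').symm
    have hWp : W ^ p = 1 := by
      have h2 : (B * A' * B⁻¹) ^ p = 1 := by
        rw [conj_pow, hA'p]
        group
      rw [hBA', hWcomm.mul_pow, hA'p, mul_one] at h2
      exact h2
    have hz1 : z ^ p = 1 := by
      have h2 : ((W ^ p : SU m F q).1.1 : Matrix (Fin m) (Fin m) F) = 1 := by
        rw [hWp]
        rfl
      rw [coe_pow_SU, hz, ← map_pow] at h2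
      have h3 := congrFun (congrFun h2 ⟨0, by omega⟩) ⟨0, by omega⟩
      simpa [Matrix.scalar_apply] using h3
    have hz2 : z = 1 := by
      have h2 : (z - 1) ^ p = 0 := by
        rw [sub_pow_char, one_pow, hz1, sub_self]
      have h3 := pow_eq_zero_iff (hpp.ne_zero) |>.1 h2
      exact sub_eq_zero.1 h3
    have hW1 : W = 1 := by
      apply eq_of_coe_SU
      rw [hz, hz2, map_one]
      rfl
    have h5 : B * A' * B⁻¹ = A' := by rw [hBA', hW1, one_mul]
    calc B * A' = (B * A' * B⁻¹) * B := by group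
      _ = A' * B := by rw [h5]
  -- an element of order `r`
  have hrB : r ∣ orderOf B := hrb.trans (orderOf_map_dvd π B)
  have hB0 : orderOf B ≠ 0 := (orderOf_pos B).ne'
  set g := B ^ (orderOf B / r) with hg
  have hgo : orderOf g = r := orderOf_pow_orderOf_div hB0 hrB
  have hgr : g ^ r = 1 := by rw [← hgo]; exact pow_orderOf_eq_one _
  have hg1 : g ≠ 1 := by
    intro hh
    rw [hh, orderOf_one] at hgo
    exact hrp.one_lt.ne hgo
  have hgA : g * A' = A' * g := (Commute.pow_left hBA _ : Commute g A')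
  by_cases hrpe : r = p
  · -- `p` divides the order
    subst hrpe
    have h1 := Cfsg.Agent.Lib.UnitarySU.card_SU hF (m - 2) (by omega)
    have h2 : r ∣ (q + 1) * Nat.card (SU (m - 2) F q) := by
      rw [h1]
      apply Dvd.dvd.mul_right
      refine hpq.trans (dvd_pow_self q ?_)
      have h3 : 2 ≤ (m - 2) * (m - 2 - 1) := by
        have h4 : 2 ≤ m - 2 := by omega
        have h5 : 1 ≤ m - 2 - 1 := by omega
        nlinarith
      have h6 : 1 ≤ (m - 2) * (m - 2 - 1) / 2 := by omega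
      omega
    rcases (Nat.Prime.dvd_mul hrp).1 h2 with h3 | h3
    · exfalso
      have h4 : r ∣ q + 1 - q := Nat.dvd_sub h3 hpq
      rw [Nat.add_sub_cancel_left] at h4
      exact hrp.one_lt.ne' (Nat.dvd_one.1 h4)
    · exact h3
  · have hrq : ¬ r ∣ q := by
      intro hh
      obtain ⟨k, _, hk2⟩ := FiniteField.card F p
      have h1 : r ∣ p ^ (k : ℕ) := by
        rw [← hk2, ← hQ, hF]
        exact hh.trans (dvd_pow_self q two_ne_zero)
      exact hrpe ((Nat.prime_dvd_prime_iff_eq hrp hpp).1 (hrp.dvd_of_dvd_pow h1))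
    have hrF : (r : F) ≠ 0 := by
      intro h0
      have h1 : p ∣ r := (CharP.cast_eq_zero_iff F p r).1 h0
      exact hrpe ((Nat.prime_dvd_prime_iff_eq hpp hrp).1 h1).symm
    obtain ⟨k, hk1, hk2, hk⟩ := core_matrix (q := q) (m := m) (r := r) hF hrF hrp hrq hm p (g.1.1 : Matrix (Fin m) (Fin m) F) (A'.1.1 : Matrix (Fin m) (Fin m) F)
      (fun x y => g.2 x y) (fun x y => A'.2 x y)
      (by rw [← coe_pow_SU, hgr]; rfl)
      (fun h0 => hg1 (eq_of_coe_SU h0))
      (by rw [← coe_pow_SU, hA'p]; rfl)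
      (fun h0 => hA'1 (eq_of_coe_SU h0))
      (by rw [← coe_mul_SU, hgA, coe_mul_SU])
    exact dvd_card_SU hF (by omega) hk1 hk2 hrp hk

end Cfsg.Agent.S2365
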