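import Mathlib
import Cfsg.Statements.S2366
import Cfsg.Agent.Lib.SUSpecMain

set_option autoImplicit false
open Cfsg

namespace Cfsg.Agent.S2366

open Polynomial Matrix
open Cfsg.Agent.Lib.SUSpec

section general

lemma range_dvd {G : Type*} [Group G] [Finite G] {a s : ℕ} (ha : a ∈ Set.range (orderOf : G → ℕ))
    (hs : s ∣ a) : s ∈ Set.range (orderOf : G → ℕ) := by
  obtain ⟨g, rfl⟩ := ha
  exact ⟨g ^ (orderOf g / s), orderOf_pow_orderOf_div (orderOf_pos g).ne' hs⟩

end general

variable {F : Type*} [Field F] [Fintype F]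

local notation "K" => AlgebraicClosure F
local notation "ιF" => algebraMap F (AlgebraicClosure F)

section elements

variable {q : ℕ}

lemma tw_eq_of_pow {L : Type*} [Field L] {z : L} (h : z ^ (q + 1) = 1) : tw q z = z := by
  have hz : z ≠ 0 := by
    rintro rfl
    simp at h
  exact (tw_fix_iff hz).2 h

lemma ne_zero_of_pow {L : Type*} [Field L] {z : L} {k : ℕ} (hk : k ≠ 0) (h : z ^ k = 1) : z ≠ 0 := by
  rintro rfl
  rw [zero_pow hk] at h
  exact zero_ne_one h

end elements

section lower

variable (p : ℕ) [hp : Fact p.Prime] [CharP F p] (q : ℕ) (hF : Fintype.card F = q ^ 2)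

include hF p

lemma p_dvd_q : p ∣ q := by
  obtain ⟨n, hpp, hn⟩ := FiniteField.card F p
  rw [hF] at hn
  have h1 : p ∣ q ^ 2 := by
    rw [hn]
    exact dvd_pow_self p n.ne_zero
  exact hpp.dvd_of_dvd_pow h1

omit hF in
lemma charK : CharP K p := charP_of_injective_algebraMap (algebraMap F K).injective p

/-- The first element. -/
lemma mem_N1 : q + 1 ∈ Set.range (orderOf : PSU 3 F q → ℕ) :=
  r_mem hF (by norm_num) dvd_rfl

/-- The torus of order `q² - 1`. -/
lemma mem_N3 {t : ℕ} (ht : q + 1 = Nat.gcd 3 (q + 1) * t) :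
    (q - 1) * t ∈ Set.range (orderOf : PSU 3 F q → ℕ) := by
  classical
  haveI := charK (F := F) p
  have hq2 := Cfsg.Agent.Lib.HermCount.two_le_q hF
  have hpq := p_dvd_q (F := F) p q hF
  have hpp := hp.out
  set d := Nat.gcd 3 (q + 1) with hd
  have hN : q ^ 2 - 1 ≠ 0 := by
    have : 2 ^ 2 ≤ q ^ 2 := Nat.pow_le_pow_left hq2 2
    omega
  have hpN : ¬ p ∣ q ^ 2 - 1 := by
    intro h
    have h1 : p ∣ q ^ 2 := Dvd.dvd.pow hpq (by norm_num)
    have h2 : p ∣ q ^ 2 - (q ^ 2 - 1) := Nat.dvd_sub h1 h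
    have h3 : q ^ 2 - (q ^ 2 - 1) = 1 := by omega
    rw [h3] at h2
    exact hpp.one_lt.ne' (Nat.dvd_one.1 h2)
  obtain ⟨z, hz⟩ : ∃ z : K, orderOf z = _ := exists_order p hN hpN
  have hz1 : z ^ (q ^ 2 - 1) = 1 := by rw [← hz]; exact pow_orderOf_eq_one z
  have hz0 : z ≠ 0 := ne_zero_of_pow hN hz1
  have hq21 : q ^ 2 = (q ^ 2 - 1) + 1 := by omega
  have hfac : q ^ 2 - 1 = (q - 1) * (q + 1) := by
    obtain ⟨s, rfl⟩ : ∃ s, q = s + 1 := ⟨q - 1, by omega⟩
    have : (s + 1) ^ 2 = s * (s + 1 + 1) + 1 := by ring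
    simp only [Nat.add_sub_cancel]
    omega
  have hzq : z ^ q * z⁻¹ ≠ 0 := mul_ne_zero (pow_ne_zero _ hz0) (inv_ne_zero hz0)
  let w : K := z ^ (q - 1)
  have hw1 : w ^ (q + 1) = 1 := by
    simp only [w]
    rw [← pow_mul, ← hfac, hz1]
  have hww : tw q w = w := tw_eq_of_pow hw1
  have htt : tw q (tw q z) = z := by
    rw [tw_tw, ← pow_mul, ← sq, hq21, pow_succ, hz1, one_mul]
  let M : Multiset K := z ::ₘ tw q z ::ₘ w ::ₘ 0
  have hM : M.map (tw q) = M := by
    simp only [M, Multiset.map_cons, Multiset.map_zero, htt, hww]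
    rw [Multiset.cons_swap]
  have hM0 : ∀ x ∈ M, x ≠ 0 := by
    intro x hx
    simp only [M, Multiset.mem_cons, Multiset.notMem_zero, or_false] at hx
    rcases hx with rfl | rfl | rfl
    · exact hz0
    · exact tw_ne_zero hF hz0
    · exact pow_ne_zero _ hz0
  have hR : Rz hF 3 M 1 := Rz.realize hF M hM hM0
  have hprod : M.prod = 1 := by
    simp only [M, Multiset.prod_cons, Multiset.prod_zero, mul_one, tw_def, w]
    have h1 : z ^ q = z ^ (q - 1) * z := by
      rw [← pow_succ]
      congr 1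
      omega
    rw [h1]
    field_simp
  have hE : InOm hF 3 ((q - 1) * t) := by
    apply InOm.of_Rz hF hR hprod
    intro k c hk _
    have h1 := hk z (by simp [M])
    have h2 := hk (tw q z) (by simp [M])
    have h3 := hk w (by simp [M])
    -- `z^k = (z^q)⁻¹^k`
    have h4 : z ^ (k * (q + 1)) = 1 := by
      rw [pow_mul]
      exact (tw_fix_iff (pow_ne_zero _ hz0)).1 (by rw [tw_pow, h2, h1])
    have h5 : z ^ (k * (q - 2)) = 1 := by
      have h6 : w ^ k = z ^ k := by rw [h1, h3]
      simp only [w] at h6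
      have h7 : q - 1 = (q - 2) + 1 := by omega
      rw [h7, pow_succ, mul_pow, ← pow_mul, mul_comm (q - 2) k] at h6
      exact mul_right_cancel₀ (pow_ne_zero _ hz0) (by rw [h6, one_mul])
    have h6 : q ^ 2 - 1 ∣ k * (q + 1) := by
      rw [← hz]
      exact orderOf_dvd_of_pow_eq_one h4
    have h7 : q ^ 2 - 1 ∣ k * (q - 2) := by
      rw [← hz]
      exact orderOf_dvd_of_pow_eq_one h5
    have h8 : q ^ 2 - 1 ∣ k * 3 := by
      have : k * (q + 1) = k * (q - 2) + k * 3 := by
        rw [← mul_add]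
        congr 1
        omega
      rw [this] at h6
      exact (Nat.dvd_add_right h7).1 h6
    have h9 : q ^ 2 - 1 ∣ k * d := by
      rw [hd, Nat.gcd_comm]
      have := Nat.dvd_gcd h6 h8
      rwa [Nat.gcd_mul_left] at this
    have ht0 : t ≠ 0 := by
      rintro rfl
      omega
    have hd0 : 0 < d := Nat.gcd_pos_of_pos_left _ (by norm_num)
    have h10 : (q - 1) * t * d ∣ k * d := by
      have : (q - 1) * t * d = q ^ 2 - 1 := by
        rw [hfac]
        conv_rhs => rw [ht]
        ring
      rw [this]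
      exact h9
    exact Nat.dvd_of_mul_dvd_mul_right hd0 h10
  exact hE.mem_range

/-- The torus of order `q² - q + 1`. -/
lemma mem_N4 {l : ℕ} (hl : q ^ 2 - q + 1 = Nat.gcd 3 (q + 1) * l) :
    l ∈ Set.range (orderOf : PSU 3 F q → ℕ) := by
  classical
  haveI := charK (F := F) p
  have hq2 := Cfsg.Agent.Lib.HermCount.two_le_q hF
  have hpq := p_dvd_q (F := F) p q hF
  have hpp := hp.out
  set d := Nat.gcd 3 (q + 1) with hd
  set L := q ^ 2 - q + 1 with hL
  have hq2q : q ≤ q ^ 2 := Nat.le_self_pow (by norm_num) _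
  have hL1 : L + q = q ^ 2 + 1 := by omega
  have hN : L ≠ 0 := by omega
  have hpN : ¬ p ∣ L := by
    intro h
    have h1 : p ∣ q ^ 2 := Dvd.dvd.pow hpq (by norm_num)
    have h3 : p ∣ q ^ 2 - q := Nat.dvd_sub h1 hpq
    have h4 : p ∣ 1 := (Nat.dvd_add_right h3).1 h
    exact hpp.one_lt.ne' (Nat.dvd_one.1 h4)
  obtain ⟨z, hz⟩ : ∃ z : K, orderOf z = _ := exists_order p hN hpN
  have hz1 : z ^ L = 1 := by rw [← hz]; exact pow_orderOf_eq_one z
  have hz0 : z ≠ 0 := ne_zero_of_pow hN hz1
  have hq3 : q ^ 3 + 1 = L * (q + 1) := by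
    have : (q ^ 2 + 1) * (q + 1) = q ^ 3 + 1 + (q ^ 2 + q) := by ring
    have h2 : (L + q) * (q + 1) = L * (q + 1) + (q ^ 2 + q) := by ring
    rw [hL1] at h2
    omega
  have hz3 : z ^ (q ^ 3 + 1) = 1 := by
    rw [hq3, pow_mul, hz1, one_pow]
  have hqq : z ^ (q ^ 2) * z = z ^ q := by
    rw [← pow_succ, ← hL1, pow_add, hz1, one_mul]
  have ht1 : tw q z = (z ^ q)⁻¹ := rfl
  have ht2 : tw q (tw q z) = z ^ (q ^ 2) := by
    rw [tw_tw, ← pow_mul, sq]
  have ht3 : tw q (tw q (tw q z)) = z := by
    rw [ht2, tw_def, ← pow_mul]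
    have h1 : z ^ (q ^ 2 * q) * z = 1 := by
      rw [← pow_succ, ← hz3, show q ^ 2 * q + 1 = q ^ 3 + 1 by ring]
    exact inv_eq_of_mul_eq_one_right h1
  let M : Multiset K := z ::ₘ tw q z ::ₘ tw q (tw q z) ::ₘ 0
  have hM : M.map (tw q) = M := by
    simp only [M, Multiset.map_cons, Multiset.map_zero, ht3]
    rw [Multiset.cons_swap (tw q (tw q z)) z, Multiset.cons_swap (tw q z) z]
  have hM0 : ∀ x ∈ M, x ≠ 0 := by
    intro x hx
    simp only [M, Multiset.mem_cons, Multiset.notMem_zero, or_false] at hx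
    rcases hx with rfl | rfl | rfl
    · exact hz0
    · exact tw_ne_zero hF hz0
    · exact tw_ne_zero hF (tw_ne_zero hF hz0)
  have hR : Rz hF 3 M 1 := Rz.realize hF M hM hM0
  have hprod : M.prod = 1 := by
    simp only [M, Multiset.prod_cons, Multiset.prod_zero, mul_one]
    rw [ht2, ht1]
    have h7 : z ^ q ≠ 0 := pow_ne_zero _ hz0
    calc z * ((z ^ q)⁻¹ * z ^ q ^ 2) = (z ^ (q ^ 2) * z) * (z ^ q)⁻¹ := by ring
      _ = 1 := by rw [hqq, mul_inv_cancel₀ h7]
  have hE : InOm hF 3 l := by
    apply InOm.of_Rz hF hR hprod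
    intro k c hk _
    have h1 := hk z (by simp [M])
    have h2 := hk (tw q z) (by simp [M])
    have h4 : z ^ (k * (q + 1)) = 1 := by
      rw [pow_mul]
      exact (tw_fix_iff (pow_ne_zero _ hz0)).1 (by rw [tw_pow, h2, h1])
    have h6 : L ∣ k * (q + 1) := by
      rw [← hz]
      exact orderOf_dvd_of_pow_eq_one h4
    -- `gcd(L, q + 1) = d`
    have h7 : Nat.gcd L (q + 1) = d := by
      have h8 : L = 3 + (q + 1) * (q - 2) := by
        obtain ⟨s, rfl⟩ : ∃ s, q = s + 2 := ⟨q - 2, by omega⟩
        have h9 : (s + 2) ^ 2 = (s + 2) + (s + 2 + 1) * s + 2 := by ring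
        simp only [Nat.add_sub_cancel] at *
        omega
      rw [h8, hd, Nat.gcd_add_mul_left_left]
    have hd0 : 0 < d := Nat.gcd_pos_of_pos_left _ (by norm_num)
    obtain ⟨t, ht⟩ : d ∣ q + 1 := Nat.gcd_dvd_right _ _
    have h8 : Nat.Coprime l t := by
      have h9 := Nat.coprime_div_gcd_div_gcd (m := L) (n := q + 1) (by rw [h7]; exact hd0)
      rw [h7, hl, ht, Nat.mul_div_cancel_left _ hd0, Nat.mul_div_cancel_left _ hd0] at h9
      exact h9
    have h9 : l ∣ k * t := by
      have h10 : d * l ∣ d * (k * t) := by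
        have : d * (k * t) = k * (q + 1) := by rw [ht]; ring
        rw [this, ← hl]
        exact h6
      exact Nat.dvd_of_mul_dvd_mul_left hd0 h10
    exact h8.dvd_of_dvd_mul_right h9
  exact hE.mem_range

/-- The mixed element of order `p (q + 1) / d`. -/
lemma mem_N2 (hp2 : p ≠ 2) {t : ℕ} (ht : q + 1 = Nat.gcd 3 (q + 1) * t) :
    p * t ∈ Set.range (orderOf : PSU 3 F q → ℕ) := by
  classical
  haveI := charK (F := F) p
  have hq2 := Cfsg.Agent.Lib.HermCount.two_le_q hF
  have hpq := p_dvd_q (F := F) p q hF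
  have hpp := hp.out
  have hp3 : 3 ≤ p := by
    have := hpp.two_le
    omega
  have hq3 : 3 ≤ q := by
    have := Nat.le_of_dvd (by omega) hpq
    omega
  set d := Nat.gcd 3 (q + 1) with hd
  have hN : q + 1 ≠ 0 := by omega
  have hpN : ¬ p ∣ q + 1 := by
    intro h
    have h4 : p ∣ 1 := (Nat.dvd_add_right hpq).1 h
    exact hpp.one_lt.ne' (Nat.dvd_one.1 h4)
  obtain ⟨y, hy⟩ : ∃ z : K, orderOf z = _ := exists_order p hN hpN
  have hy1 : y ^ (q + 1) = 1 := by rw [← hy]; exact pow_orderOf_eq_one y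
  have hy0 : y ≠ 0 := ne_zero_of_pow hN hy1
  have hinv : ((y ^ 2)⁻¹) ^ (q + 1) = 1 := by
    rw [inv_pow, ← pow_mul, mul_comm, pow_mul, hy1, one_pow, inv_one]
  let M : Multiset K := y ::ₘ y ::ₘ (y ^ 2)⁻¹ ::ₘ 0
  have hM : M.map (tw q) = M := by
    simp only [M, Multiset.map_cons, Multiset.map_zero, tw_eq_of_pow hy1, tw_eq_of_pow hinv]
  have hM0 : ∀ x ∈ M, x ≠ 0 := by
    intro x hx
    simp only [M, Multiset.mem_cons, Multiset.notMem_zero, or_false] at hx
    rcases hx with rfl | rfl | rfl
    · exact hy0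
    · exact hy0
    · exact inv_ne_zero (pow_ne_zero _ hy0)
  have hprod : M.prod = 1 := by
    simp only [M, Multiset.prod_cons, Multiset.prod_zero, mul_one]
    field_simp
  have hy1' : y ≠ 1 := by
    rintro rfl
    rw [orderOf_one] at hy
    omega
  have hy2' : y ^ 2 ≠ 1 := by
    intro h
    have := orderOf_dvd_of_pow_eq_one h
    rw [hy] at this
    have := Nat.le_of_dvd (by norm_num) this
    omega
  have hξM : ((algebraMap F K) (1 : F))⁻¹ ∉ M := by
    simp only [map_one, inv_one, M, Multiset.mem_cons, Multiset.notMem_zero, or_false, not_or]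
    refine ⟨fun h => hy1' h.symm, fun h => hy1' h.symm, fun h => hy2' ?_⟩
    exact (inv_eq_one.mp h.symm)
  have hc2 : 0 ^ 1 + 1 ≤ 2 := by norm_num
  have hcount : p ^ 0 + 1 ≤ Multiset.count y M := by
    simp only [M, Multiset.count_cons_self, pow_zero]
    omega
  have hR0 := Rz.of_count hF p M hM hM0 (by simp [M]) (1 : F) (one_pow _) hξM y 0 hcount
  have hcard : Multiset.card M = 3 := by simp [M]
  have hR : Rz hF 3 M (p ^ (0 + 1)) := Rz.cast hF hR0 hcard rfl rfl
  have hE : InOm hF 3 (p * t) := by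
    apply InOm.of_Rz hF hR hprod
    intro k c hk hpk
    have h1 := hk y (by simp [M])
    have h3 := hk ((y ^ 2)⁻¹) (by simp [M])
    have hpk' : p ∣ k := by simpa using hpk
    have h4 : y ^ (3 * k) = 1 := by
      have h5 : ((y ^ 2)⁻¹) ^ k = y ^ k := by rw [h1, h3]
      rw [inv_pow, ← pow_mul] at h5
      have h6 : y ^ (2 * k) ≠ 0 := pow_ne_zero _ hy0
      have h7 : y ^ (3 * k) = y ^ k * y ^ (2 * k) := by
        rw [← pow_add]
        congr 1
        ring
      rw [h7, ← h5]
      exact inv_mul_cancel₀ h6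
    have h6 : q + 1 ∣ 3 * k := by
      rw [← hy]
      exact orderOf_dvd_of_pow_eq_one h4
    have h7 : q + 1 ∣ d * k := by
      rw [hd]
      have h8 := Nat.dvd_gcd h6 (Nat.dvd_mul_right (q + 1) k)
      rwa [Nat.gcd_mul_right] at h8
    have hd0 : 0 < d := Nat.gcd_pos_of_pos_left _ (by norm_num)
    have h8 : t ∣ k := by
      rw [ht] at h7
      exact Nat.dvd_of_mul_dvd_mul_left hd0 h7
    have hcop : Nat.Coprime p t := by
      rw [hpp.coprime_iff_not_dvd]
      intro h
      exact hpN (ht ▸ h.trans (Nat.dvd_mul_left _ _))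
    exact hcop.mul_dvd_of_dvd_of_dvd hpk' h8
  exact hE.mem_range

end lower

section upper

variable (p : ℕ) [hp : Fact p.Prime] [CharP F p] (q : ℕ) (hF : Fintype.card F = q ^ 2)

include hF p

/-- The upper bound: an element order divides one of the four numbers. -/
lemma upper (hp2 : p ≠ 2) {t l : ℕ} (ht : q + 1 = Nat.gcd 3 (q + 1) * t)
    (hl : q ^ 2 - q + 1 = Nat.gcd 3 (q + 1) * l) {a : ℕ}
    (ha : a ∈ Set.range (orderOf : PSU 3 F q → ℕ)) :
    a ∣ q + 1 ∨ a ∣ p * t ∨ a ∣ (q - 1) * t ∨ a ∣ l := by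
  classical
  haveI := charK (F := F) p
  have hq2 := Cfsg.Agent.Lib.HermCount.two_le_q hF
  have hpq := p_dvd_q (F := F) p q hF
  have hpp := hp.out
  have hp3 : 3 ≤ p := by
    have := hpp.two_le
    omega
  have ha0 : a ≠ 0 := by
    obtain ⟨g, rfl⟩ := ha
    exact (orderOf_pos g).ne'
  have harith : q ^ 2 - q + 1 + q = 1 + q * q := by
    have hq2q : q ≤ q ^ 2 := Nat.le_self_pow (by norm_num) _
    rw [← sq]
    omega
  obtain ⟨α, a', hpa', rfl⟩ := Nat.exists_eq_pow_mul_and_not_dvd ha0 p hpp.ne_one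
  have hcop : Nat.Coprime a' p := ((hpp.coprime_iff_not_dvd).2 hpa').symm
  rw [mul_comm] at ha
  obtain ⟨M, hM, hM0, hcard, hprod, hconst, hmin, hcount⟩ := spec_setup hF p ha hcop
  set d := Nat.gcd 3 (q + 1) with hd
  have hd3 : d ∣ 3 := Nat.gcd_dvd_left _ _
  have hdq : d ∣ q + 1 := Nat.gcd_dvd_right _ _
  have hd0 : 0 < d := Nat.gcd_pos_of_pos_left _ (by norm_num)
  have htne : t ≠ 0 := by
    rintro rfl
    omega
  -- if `M` has no repetition then `α = 0`
  have hα : M.Nodup → α = 0 := by
    intro hnd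
    by_contra hα
    obtain ⟨z, hz, hc⟩ := hcount (Nat.pos_of_ne_zero hα)
    have := Multiset.nodup_iff_count_le_one.1 hnd z
    have h1 : 0 < p ^ (α - 1) := pow_pos hpp.pos _
    omega
  rw [mul_comm] at ha ⊢
  obtain ⟨x₁, x₂, x₃, hx⟩ := Multiset.card_eq_three.1 hcard
  have hx₁ : x₁ ∈ M := by simp [hx]
  by_cases hfix : ∀ z ∈ M, tw q z = z
  · -- Case A: all eigenvalues are in the norm-one group
    have hpow : ∀ z ∈ M, z ^ (q + 1) = 1 := fun z hz => (tw_fix_iff (hM0 z hz)).1 (hfix z hz)
    have hA : a' ∣ q + 1 := hmin (q + 1) 1 hpow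
    rcases Nat.eq_zero_or_pos α with rfl | hαpos
    · left
      simpa using hA
    · obtain ⟨z, hz, hcz⟩ := hcount hαpos
      have hc3 : Multiset.count z M ≤ 3 := hcard ▸ Multiset.count_le_card z M
      have hα1 : α = 1 := by
        by_contra hne
        have h2 : 2 ≤ α := by omega
        have h3 : p ^ 1 ≤ p ^ (α - 1) := Nat.pow_le_pow_right hpp.pos (by omega)
        rw [pow_one] at h3
        omega
      subst hα1
      right
      left
      have hc2 : 2 ≤ Multiset.count z M := by simpa using hcz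
      -- `M = z + z + w`
      have hle : Multiset.replicate 2 z ≤ M := Multiset.le_count_iff_replicate_le.1 hc2
      obtain ⟨S, hS⟩ := Multiset.le_iff_exists_add.1 hle
      have hS1 : Multiset.card S = 1 := by
        have := congrArg Multiset.card hS
        rw [hcard, Multiset.card_add, Multiset.card_replicate] at this
        omega
      obtain ⟨w, rfl⟩ := Multiset.card_eq_one.1 hS1
      have hw : M = z ::ₘ z ::ₘ w ::ₘ 0 := by
        rw [hS]
        rfl
      have hwM : w ∈ M := by simp [hw]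
      have hwz : w = (z ^ 2)⁻¹ := by
        rw [hw] at hprod
        simp only [Multiset.prod_cons, Multiset.prod_zero, mul_one] at hprod
        have h4 : z ^ 2 * w = 1 := by
          rw [sq, mul_assoc]
          exact hprod
        exact eq_inv_of_mul_eq_one_right h4
      have hz0 := hM0 z hz
      have h3t : z ^ (3 * t) = 1 := by
        obtain ⟨e, he⟩ := hd3
        have h5 : 3 * t = e * (q + 1) := by
          conv_rhs => rw [ht]
          rw [mul_comm e, mul_assoc, mul_comm t e, ← mul_assoc, ← he]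
        rw [h5, mul_comm, pow_mul, hpow z hz, one_pow]
      have hpt : a' ∣ t := by
        apply hmin t (z ^ t)
        intro u hu
        rw [hw] at hu
        simp only [Multiset.mem_cons, Multiset.notMem_zero, or_false] at hu
        rcases hu with rfl | rfl | rfl
        · rfl
        · rfl
        · rw [hwz, inv_pow, ← pow_mul]
          have h5 : z ^ (3 * t) = z ^ t * z ^ (2 * t) := by
            rw [← pow_add]
            congr 1
            ring
          rw [h5] at h3t
          exact (eq_inv_of_mul_eq_one_left h3t).symm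
      rw [pow_one, mul_comm]
      exact mul_dvd_mul_left p hpt
  · -- Case B: there is an eigenvalue outside the norm-one group.
    push_neg at hfix
    obtain ⟨z, hz, hτz⟩ := hfix
    have hz0 := hM0 z hz
    have hτmem : ∀ u ∈ M, tw q u ∈ M := by
      intro u hu
      rw [← hM]
      exact Multiset.mem_map_of_mem _ hu
    have hinj : Function.Injective (tw q : K → K) := tw_injective hF
    have hτzM := hτmem z hz
    -- `M = z + τ z + w`
    have hle : z ::ₘ tw q z ::ₘ 0 ≤ M := by
      rw [Multiset.le_iff_count]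
      intro u
      by_cases hu : u = z
      · subst hu
        rw [Multiset.count_cons_self, Multiset.count_cons_of_ne (Ne.symm hτz), Multiset.count_zero]
        exact Multiset.count_pos.2 hz
      · rw [Multiset.count_cons_of_ne hu]
        by_cases hu2 : u = tw q z
        · subst hu2
          rw [Multiset.count_cons_self, Multiset.count_zero]
          exact Multiset.count_pos.2 hτzM
        · rw [Multiset.count_cons_of_ne hu2, Multiset.count_zero]
          exact Nat.zero_le _
    obtain ⟨S, hS⟩ := Multiset.le_iff_exists_add.1 hle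
    have hS1 : Multiset.card S = 1 := by
      have := congrArg Multiset.card hS
      rw [hcard, Multiset.card_add] at this
      simp only [Multiset.card_cons, Multiset.card_zero] at this
      omega
    obtain ⟨w, rfl⟩ := Multiset.card_eq_one.1 hS1
    have hw : M = z ::ₘ tw q z ::ₘ w ::ₘ 0 := by
      rw [hS]
      rfl
    have hwM : w ∈ M := by simp [hw]
    have hw0 := hM0 w hwM
    have hτw0 := tw_ne_zero hF hz0
    by_cases h2z : tw q (tw q z) = z
    · -- Case B1: `z` in an orbit of length two.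
      have hτw : tw q w = w := by
        have h1 := hM
        rw [hw] at h1
        simp only [Multiset.map_cons, Multiset.map_zero, h2z] at h1
        rw [Multiset.cons_swap] at h1
        have h2 := (Multiset.cons_inj_right _).1 ((Multiset.cons_inj_right _).1 h1)
        simpa using h2
      have hnd : M.Nodup := by
        rw [hw]
        simp only [Multiset.nodup_cons, Multiset.mem_cons, Multiset.notMem_zero, or_false, not_or]
        refine ⟨⟨Ne.symm hτz, ?_⟩, ?_, by simp⟩
        · rintro rfl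
          exact hτz hτw
        · rintro rfl
          rw [h2z] at hτw
          exact hτz hτw.symm
      have hα0 := hα hnd
      subst hα0
      right
      right
      left
      have hzq1 : z ^ (q ^ 2 - 1) = 1 := by
        have h3 : (z ^ q) ^ q = z := by rw [← tw_tw]; exact h2z
        have h4 : z ^ (q ^ 2 - 1) * z = z := by
          rw [← pow_succ, show q ^ 2 - 1 + 1 = q * q by
            have : 2 ^ 2 ≤ q ^ 2 := Nat.pow_le_pow_left hq2 2
            rw [← sq]
            omega, pow_mul, h3]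
        exact mul_right_cancel₀ hz0 (by rw [h4, one_mul])
      have hfac : q ^ 2 - 1 = (q - 1) * (q + 1) := by
        obtain ⟨s, rfl⟩ : ∃ s, q = s + 1 := ⟨q - 1, by omega⟩
        have : (s + 1) ^ 2 = s * (s + 1 + 1) + 1 := by ring
        simp only [Nat.add_sub_cancel]
        omega
      have hwz : w = z ^ (q - 1) := by
        have hprod' := hprod
        rw [hw] at hprod'
        simp only [Multiset.prod_cons, Multiset.prod_zero, mul_one, tw_def] at hprod'
        have h1 : z ^ q = z ^ (q - 1) * z := by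
          rw [← pow_succ]
          congr 1
          omega
        rw [h1] at hprod'
        have h2 : z ^ (q - 1) ≠ 0 := pow_ne_zero _ hz0
        field_simp at hprod'
        exact hprod'
      have hv : (z ^ ((q - 1) * t)) ^ (q + 1) = 1 := by
        rw [← pow_mul, mul_right_comm, ← hfac, pow_mul, hzq1, one_pow]
      have hv2 : z ^ ((q - 1) * ((q - 1) * t)) = z ^ ((q - 1) * t) := by
        -- `d ∣ q - 2`
        have hd2 : d ∣ q - 2 := by
          have h1 : q - 2 = (q + 1) - 3 := by omega
          rw [h1]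
          exact Nat.dvd_sub hdq hd3
        obtain ⟨e, he⟩ := hd2
        have h1 : q - 1 = (q - 2) + 1 := by omega
        have h2 : (q - 1) * ((q - 1) * t) = e * (q ^ 2 - 1) + (q - 1) * t := by
          have h3 : (q - 2) * t = e * (q + 1) := by
            conv_rhs => rw [ht]
            rw [he]
            ring
          rw [hfac]
          calc (q - 1) * ((q - 1) * t) = (q - 1) * ((q - 2) * t + t) := by
                conv_lhs => rw [h1]
                rw [h1]
                ring
            _ = e * ((q - 1) * (q + 1)) + (q - 1) * t := by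
                rw [h3]
                ring
        rw [h2, pow_add, mul_comm e, pow_mul, hzq1, one_pow, one_mul]
      have hN : a' ∣ (q - 1) * t := by
        apply hmin ((q - 1) * t) (z ^ ((q - 1) * t))
        intro u hu
        rw [hw] at hu
        simp only [Multiset.mem_cons, Multiset.notMem_zero, or_false] at hu
        rcases hu with rfl | rfl | rfl
        · rfl
        · rw [← tw_pow]
          exact (tw_fix_iff (pow_ne_zero _ hz0)).2 hv
        · rw [hwz, ← pow_mul]
          exact hv2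
      simpa using hN
    · -- Case B2: `z` in an orbit of length three.
      have hτ2M := hτmem _ hτzM
      have hτ2w : tw q (tw q z) = w := by
        rw [hw] at hτ2M
        simp only [Multiset.mem_cons, Multiset.notMem_zero, or_false] at hτ2M
        rcases hτ2M with h | h | h
        · exact absurd h h2z
        · exact absurd (hinj h) hτz
        · exact h
      subst hτ2w
      have hnd : M.Nodup := by
        rw [hw]
        simp only [Multiset.nodup_cons, Multiset.mem_cons, Multiset.notMem_zero, or_false, not_or]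
        refine ⟨⟨Ne.symm hτz, Ne.symm h2z⟩, fun h => hτz (hinj h.symm), by simp⟩
      have hα0 := hα hnd
      subst hα0
      right
      right
      right
      have hzL : z ^ (q ^ 2 - q + 1) = 1 := by
        have hprod' := hprod
        rw [hw] at hprod'
        simp only [Multiset.prod_cons, Multiset.prod_zero, mul_one] at hprod'
        rw [tw_tw, tw_def] at hprod'
        have h7 : z ^ q ≠ 0 := pow_ne_zero _ hz0
        have h1 : z * (z ^ q) ^ q = z ^ q := by
          calc z * (z ^ q) ^ q = (z * ((z ^ q)⁻¹ * (z ^ q) ^ q)) * z ^ q := by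
                field_simp
            _ = z ^ q := by rw [hprod', one_mul]
        have h2 : z ^ (q ^ 2 - q + 1) * z ^ q = 1 * z ^ q := by
          rw [one_mul, ← pow_add, harith, pow_add, pow_mul, pow_one, h1]
        exact mul_right_cancel₀ h7 h2
      have hv : (z ^ l) ^ (q + 1) = 1 := by
        have : l * (q + 1) = (q ^ 2 - q + 1) * t := by
          rw [hl]
          conv_lhs => rw [ht]
          ring
        rw [← pow_mul, this, pow_mul, hzL, one_pow]
      have hτv : tw q (z ^ l) = z ^ l := (tw_fix_iff (pow_ne_zero _ hz0)).2 hv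
      have hN : a' ∣ l := by
        apply hmin l (z ^ l)
        intro u hu
        rw [hw] at hu
        simp only [Multiset.mem_cons, Multiset.notMem_zero, or_false] at hu
        rcases hu with rfl | rfl | rfl
        · rfl
        · rw [← tw_pow, hτv]
        · rw [← tw_pow, ← tw_pow, hτv, hτv]
      simpa using hN

end upper

/-- The set of element orders of PSU(3, q) for an odd prime power q = p^n: writing d = gcd(3, q + 1), a positive integer is the order of some element exactly when it divides one of q + 1, p(q + 1)/d, (q² − 1)/d, (q² − q + 1)/d. -/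
theorem result {F : Type*} [Field F] [Fintype F] (p : ℕ) [Fact p.Prime] [CharP F p] (hp : p ≠ 2) (q : ℕ) (hF : Fintype.card F = q ^ 2) :
    Set.range (orderOf : Cfsg.PSU 3 F q → ℕ) =
      {s : ℕ | s ∣ q + 1} ∪ {s : ℕ | s ∣ p * (q + 1) / Nat.gcd 3 (q + 1)} ∪
        {s : ℕ | s ∣ (q ^ 2 - 1) / Nat.gcd 3 (q + 1)} ∪ {s : ℕ | s ∣ (q ^ 2 - q + 1) / Nat.gcd 3 (q + 1)} := by
  have hq2 := Cfsg.Agent.Lib.HermCount.two_le_q hF
  have hd3 : Nat.gcd 3 (q + 1) ∣ 3 := Nat.gcd_dvd_left _ _
  have hdq : Nat.gcd 3 (q + 1) ∣ q + 1 := Nat.gcd_dvd_right _ _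
  have hd0 : 0 < Nat.gcd 3 (q + 1) := Nat.gcd_pos_of_pos_left _ (by norm_num)
  obtain ⟨t, ht⟩ := hdq
  have hdL : Nat.gcd 3 (q + 1) ∣ q ^ 2 - q + 1 := by
    have h8 : q ^ 2 - q + 1 = 3 + (q + 1) * (q - 2) := by
      obtain ⟨s, rfl⟩ : ∃ s, q = s + 2 := ⟨q - 2, by omega⟩
      have h9 : (s + 2) ^ 2 = (s + 2) + (s + 2 + 1) * s + 2 := by ring
      simp only [Nat.add_sub_cancel] at *
      omega
    rw [h8]
    exact dvd_add hd3 (Dvd.dvd.mul_right (Nat.gcd_dvd_right _ _) _)
  obtain ⟨l, hl⟩ := hdL
  have hfac : q ^ 2 - 1 = Nat.gcd 3 (q + 1) * ((q - 1) * t) := by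
    obtain ⟨s, hs⟩ : ∃ s, q = s + 1 := ⟨q - 1, by omega⟩
    have h1 : q ^ 2 - 1 = (q - 1) * (q + 1) := by
      subst hs
      have : (s + 1) ^ 2 = s * (s + 1 + 1) + 1 := by ring
      simp only [Nat.add_sub_cancel]
      omega
    rw [h1]
    conv_lhs => rw [ht]
    ring
  have e1 : p * (q + 1) / Nat.gcd 3 (q + 1) = p * t := by
    apply Nat.div_eq_of_eq_mul_right hd0
    rw [mul_left_comm, ← ht]
  have e2 : (q ^ 2 - 1) / Nat.gcd 3 (q + 1) = (q - 1) * t := by
    rw [hfac, Nat.mul_div_cancel_left _ hd0]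
  have e3 : (q ^ 2 - q + 1) / Nat.gcd 3 (q + 1) = l := by
    rw [hl, Nat.mul_div_cancel_left _ hd0]
  rw [e1, e2, e3]
  ext s
  simp only [Set.mem_union]
  change _ ↔ ((s ∣ q + 1 ∨ s ∣ p * t) ∨ s ∣ (q - 1) * t) ∨ s ∣ l
  constructor
  · intro hs
    rcases upper p q hF hp ht hl hs with h | h | h | h
    · exact Or.inl (Or.inl (Or.inl h))
    · exact Or.inl (Or.inl (Or.inr h))
    · exact Or.inl (Or.inr h)
    · exact Or.inr h
  · rintro (((h | h) | h) | h)
    · exact range_dvd (mem_N1 p q hF) h
    · exact range_dvd (mem_N2 p q hF hp ht) h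
    · exact range_dvd (mem_N3 p q hF ht) h
    · exact range_dvd (mem_N4 p q hF hl) h

end Cfsg.Agent.S2366
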