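import Mathlib
import Cfsg.Statements.S2367

set_option autoImplicit false
open Cfsg

namespace Cfsg.Agent.S2367

def smallPrimes : List ℕ := [2, 3, 5, 7, 11, 13, 17, 19, 23, 29, 31, 37, 41, 43, 47, 59, 67, 71]

theorem smallPrimes_prime : ∀ q ∈ smallPrimes, q.Prime := by
  intro q hq
  simp only [smallPrimes, List.mem_cons, List.not_mem_nil, or_false] at hq
  rcases hq with rfl | rfl | rfl | rfl | rfl | rfl | rfl | rfl | rfl | rfl | rfl | rfl | rfl | rfl | rfl | rfl | rfl | rfl <;> norm_num

/-- Table check: `L` is a prime factorisation of `N`. -/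
theorem table_check (N a : ℕ) (L : List (ℕ × ℕ))
    (h1' : ∀ x ∈ L, x.1 ∈ smallPrimes)
    (h2 : ∀ x ∈ L, x.1 ^ x.2 ∣ N ∧ ¬ x.1 ^ (x.2 + 1) ∣ N)
    (h3 : (L.map fun x => x.1 ^ x.2).prod = N)
    (h4 : 2 ^ a ∣ N) (hN : N ≠ 0)
    (h5 : ∀ x ∈ L, x.1 ≠ 2 → x.2 = 3 → x.1 ^ 3 < 2 ^ a)
    (p : ℕ) (hp : p.Prime) (hodd : p ≠ 2) (h : N.factorization p = 3) :
    p ^ 3 < 2 ^ N.factorization 2 := by
  have h1 : ∀ x ∈ L, x.1.Prime := fun x hx => smallPrimes_prime _ (h1' x hx)
  have hlt : 2 ^ a ≤ 2 ^ N.factorization 2 := by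
    apply Nat.pow_le_pow_right (by norm_num)
    exact (Nat.Prime.pow_dvd_iff_le_factorization Nat.prime_two hN).1 h4
  refine lt_of_lt_of_le ?_ hlt
  have hpN : p ∣ N := by
    have : 3 ≤ N.factorization p := h.ge
    have h' := (Nat.Prime.pow_dvd_iff_le_factorization hp hN).2 this
    exact dvd_trans (dvd_pow_self p (by norm_num)) h'
  rw [← h3] at hpN
  obtain ⟨y, hy, hyd⟩ := (Prime.dvd_prod_iff hp.prime).1 hpN
  obtain ⟨x, hx, rfl⟩ := List.mem_map.1 hy
  have hpx : p = x.1 := (Nat.prime_dvd_prime_iff_eq hp (h1 x hx)).1 (hp.dvd_of_dvd_pow hyd)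
  subst hpx
  obtain ⟨h2a, h2b⟩ := h2 x hx
  have e1 := (Nat.Prime.pow_dvd_iff_le_factorization hp hN).1 h2a
  have e2 : ¬ x.2 + 1 ≤ N.factorization x.1 := fun h' =>
    h2b ((Nat.Prime.pow_dvd_iff_le_factorization hp hN).2 h')
  have e3 : x.2 = 3 := by omega
  exact h5 x hx hodd e3

theorem two_pow_half_dvd (n : ℕ) : 2 ^ (n / 2) ∣ n.factorial := by
  induction n using Nat.twoStepInduction with
  | zero => simp
  | one => simp
  | more n ih _ =>
    have h1 : (n + 2) / 2 = n / 2 + 1 := by omega
    rw [h1, pow_succ]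
    have h2 : (n + 2).factorial = (n + 2) * ((n + 1) * n.factorial) := by
      simp [Nat.factorial_succ]
    rw [h2]
    by_cases hev : Even n
    · obtain ⟨k, hk⟩ := hev
      have h3 : (n + 2) = 2 * (k + 1) := by omega
      rw [h3]
      obtain ⟨c, hc⟩ := ih
      refine ⟨(k + 1) * (2 * k + 2 - 1) * c, ?_⟩
      have : n + 1 = 2 * k + 2 - 1 := by omega
      rw [this, hc]; ring
    · -- `n + 1` is even
      have hodd' : Odd n := Nat.not_even_iff_odd.1 hev
      obtain ⟨k, hk⟩ := hodd'
      obtain ⟨c, hc⟩ := ih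
      refine ⟨(n + 2) * (k + 1) * c, ?_⟩
      have : n + 1 = 2 * (k + 1) := by omega
      rw [this, hc]; ring

theorem cube_lt (p : ℕ) (hp : 7 ≤ p) : p ^ 3 < 2 ^ ((3 * p - 3) / 2) := by
  induction p, hp using Nat.le_induction with
  | base => norm_num
  | succ m hm ih =>
    -- step by one does not directly give a bound: use a coarser route
    by_cases h : Even m
    · obtain ⟨k, rfl⟩ := h
      have h1 : (3 * (k + k + 1) - 3) / 2 = (3 * (k + k) - 3) / 2 + 2 := by omega
      rw [h1, pow_add]
      have h2 : (k + k + 1) ^ 3 ≤ (k + k) ^ 3 * 4 := by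
        have : k + k + 1 ≤ 2 * (k + k) - (k + k) + 1 := by omega
        nlinarith [sq_nonneg (k : ℕ), mul_pos (show 0 < k by omega) (show 0 < k by omega),
          mul_pos (mul_pos (show 0 < k by omega) (show 0 < k by omega)) (show 0 < k by omega)]
      calc (k + k + 1) ^ 3 ≤ (k + k) ^ 3 * 4 := h2
        _ < 2 ^ ((3 * (k + k) - 3) / 2) * 2 ^ 2 := by
          have := ih; norm_num; omega
    · obtain ⟨k, rfl⟩ := Nat.not_even_iff_odd.1 h
      have h1 : (3 * (2 * k + 1 + 1) - 3) / 2 = (3 * (2 * k + 1) - 3) / 2 + 1 := by omega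
      rw [h1, pow_add]
      have h2 : (2 * k + 1 + 1) ^ 3 ≤ (2 * k + 1) ^ 3 * 2 := by
        have hk : 3 ≤ k := by omega
        nlinarith [mul_le_mul hk hk (by norm_num) (by omega),
          mul_le_mul (mul_le_mul hk hk (by norm_num) (by omega)) hk (by norm_num) (by omega)]
      calc (2 * k + 1 + 1) ^ 3 ≤ (2 * k + 1) ^ 3 * 2 := h2
        _ < 2 ^ ((3 * (2 * k + 1) - 3) / 2) * 2 ^ 1 := by
          have := ih; norm_num; omega

theorem three_mul_le_of_factorization (n p : ℕ) (hp : p.Prime) (h5 : 5 ≤ p)
    (h : n.factorial.factorization p = 3) : 3 * p ≤ n := by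
  by_contra hlt
  push_neg at hlt
  -- `n < 3p` gives at most two factors of `p`
  have hfp : Fact p.Prime := ⟨hp⟩
  have hlog : n < p ^ 2 := by nlinarith
  have h1 : n.factorial.factorization p = n / p := by
    rw [Nat.factorization_def _ hp]
    have hb : Nat.log p n < 2 := by
      rcases Nat.eq_zero_or_pos n with rfl | hn
      · simp
      · exact Nat.log_lt_of_lt_pow (by omega) hlog
    rw [padicValNat_factorial (b := 2) hb]
    simp [Finset.sum_range_succ, Nat.Ico_succ_singleton]
  rw [h1] at h
  have : n / p < 3 := by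
    rw [Nat.div_lt_iff_lt_mul hp.pos]; nlinarith
  omega

theorem alt_case (n : ℕ) (hn : 5 ≤ n) (N : ℕ) (hN : 2 * N = n.factorial)
    (p : ℕ) (hp : p.Prime) (hodd : p ≠ 2) (h3 : N.factorization p = 3) :
    p ^ 3 < 2 ^ N.factorization 2 := by
  have hN0 : N ≠ 0 := by
    rintro rfl
    have := n.factorial_pos
    omega
  have hfac : n.factorial.factorization p = 3 := by
    have h20 : (2 : ℕ).factorization p = 0 := Nat.factorization_eq_zero_of_not_dvd (fun hd =>
      hodd ((Nat.prime_dvd_prime_iff_eq hp Nat.prime_two).1 hd))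
    rw [← hN, Nat.factorization_mul (by norm_num) hN0]
    simp [h20, h3]
  have htwo : ∀ k, 2 ^ (k + 1) ∣ n.factorial → k ≤ N.factorization 2 := by
    intro k hk
    rw [← hN, pow_succ, mul_comm] at hk
    exact (Nat.Prime.pow_dvd_iff_le_factorization Nat.prime_two hN0).1
      (Nat.dvd_of_mul_dvd_mul_left (by norm_num) hk)
  -- `p = 3` is impossible
  have hp3 : p ≠ 3 := by
    rintro rfl
    by_cases hle : n ≤ 8
    · have : n.factorial ∣ (8 : ℕ).factorial := Nat.factorial_dvd_factorial hle
      have h4 : (3 : ℕ) ^ 3 ∣ n.factorial :=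
        (Nat.Prime.pow_dvd_iff_le_factorization hp n.factorial_ne_zero).2 hfac.ge
      have : (3 : ℕ) ^ 3 ∣ (8 : ℕ).factorial := h4.trans this
      exact absurd this (by decide +kernel)
    · have : (9 : ℕ).factorial ∣ n.factorial := Nat.factorial_dvd_factorial (by omega)
      have h4 : (3 : ℕ) ^ 4 ∣ n.factorial := dvd_trans (by decide +kernel) this
      have := (Nat.Prime.pow_dvd_iff_le_factorization hp n.factorial_ne_zero).1 h4
      omega
  have hp5 : 5 ≤ p := by
    have := hp.two_le
    by_contra hlt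
    have : p = 2 ∨ p = 3 ∨ p = 4 := by omega
    rcases this with rfl | rfl | rfl
    · exact hodd rfl
    · exact hp3 rfl
    · exact absurd hp (by norm_num)
  have hn3 := three_mul_le_of_factorization n p hp hp5 hfac
  by_cases hp7 : 7 ≤ p
  · have h1 := cube_lt p hp7
    have h2 : (3 * p - 3) / 2 ≤ N.factorization 2 := by
      apply htwo
      refine dvd_trans (pow_dvd_pow 2 ?_) (two_pow_half_dvd n)
      omega
    exact lt_of_lt_of_le h1 (Nat.pow_le_pow_right (by norm_num) h2)
  · have hp5' : p = 5 := by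
      have : p = 5 ∨ p = 6 := by omega
      rcases this with rfl | rfl
      · rfl
      · exact absurd hp (by norm_num)
    subst hp5'
    have h2 : 10 ≤ N.factorization 2 := by
      apply htwo
      have : (15 : ℕ).factorial ∣ n.factorial := Nat.factorial_dvd_factorial (by omega)
      exact dvd_trans (by decide +kernel) this
    exact lt_of_lt_of_le (by norm_num) (Nat.pow_le_pow_right (by norm_num) h2)

/-- Let G be an alternating group of degree at least 5 or a simple group with the order of one of the 26 sporadic groups, and let p be an odd prime such that p³ is the exact power of p dividing the order of G. Then p³ is less than the 2-part of the order of G. -/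
theorem result {G : Type*} [Group G] [Finite G] (hG : Cfsg.IsAlternating G ∨ Cfsg.IsSporadic G)
    (p : ℕ) (hp : p.Prime) (hodd : p ≠ 2) (h3 : (Nat.card G).factorization p = 3) :
    p ^ 3 < 2 ^ (Nat.card G).factorization 2 := by
  rcases hG with ⟨n, hn, ⟨e⟩⟩ | hS
  · have hc : Nat.card G = Nat.card (alternatingGroup (Fin n)) := Nat.card_congr e.toEquiv
    have : Nontrivial (Fin n) := Fin.nontrivial_iff_two_le.2 (by omega)
    have h2 : 2 * Nat.card (alternatingGroup (Fin n)) = n.factorial := by
      rw [two_mul_nat_card_alternatingGroup]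
      simp [Nat.card_eq_fintype_card, Fintype.card_perm]
    rw [← hc] at h2
    exact alt_case n hn _ h2 p hp hodd h3
  · rcases hS with h | h | h | h | h | h | h | h | h | h | h | h | h | h | h | h | h | h | h | h | h | h | h | h | h | h
    · obtain ⟨_, hN⟩ := h
      rw [hN] at h3 ⊢
      exact table_check _ 4 [(2, 4), (3, 2), (5, 1), (11, 1)] (by decide +kernel) (by decide +kernel) (by decide +kernel) (by decide +kernel) (by norm_num) (by decide +kernel) p hp hodd h3
    · obtain ⟨_, hN⟩ := h
      rw [hN] at h3 ⊢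
      exact table_check _ 6 [(2, 6), (3, 3), (5, 1), (11, 1)] (by decide +kernel) (by decide +kernel) (by decide +kernel) (by decide +kernel) (by norm_num) (by decide +kernel) p hp hodd h3
    · obtain ⟨_, hN⟩ := h
      rw [hN] at h3 ⊢
      exact table_check _ 7 [(2, 7), (3, 2), (5, 1), (7, 1), (11, 1)] (by decide +kernel) (by decide +kernel) (by decide +kernel) (by decide +kernel) (by norm_num) (by decide +kernel) p hp hodd h3
    · obtain ⟨_, hN⟩ := h
      rw [hN] at h3 ⊢
      exact table_check _ 7 [(2, 7), (3, 2), (5, 1), (7, 1), (11, 1), (23, 1)] (by decide +kernel) (by decide +kernel) (by decide +kernel) (by decide +kernel) (by norm_num) (by decide +kernel) p hp hodd h3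
    · obtain ⟨_, hN⟩ := h
      rw [hN] at h3 ⊢
      exact table_check _ 10 [(2, 10), (3, 3), (5, 1), (7, 1), (11, 1), (23, 1)] (by decide +kernel) (by decide +kernel) (by decide +kernel) (by decide +kernel) (by norm_num) (by decide +kernel) p hp hodd h3
    · obtain ⟨_, hN⟩ := h
      rw [hN] at h3 ⊢
      exact table_check _ 3 [(2, 3), (3, 1), (5, 1), (7, 1), (11, 1), (19, 1)] (by decide +kernel) (by decide +kernel) (by decide +kernel) (by decide +kernel) (by norm_num) (by decide +kernel) p hp hodd h3
    · obtain ⟨_, hN⟩ := h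
      rw [hN] at h3 ⊢
      exact table_check _ 7 [(2, 7), (3, 3), (5, 2), (7, 1)] (by decide +kernel) (by decide +kernel) (by decide +kernel) (by decide +kernel) (by norm_num) (by decide +kernel) p hp hodd h3
    · obtain ⟨_, hN⟩ := h
      rw [hN] at h3 ⊢
      exact table_check _ 7 [(2, 7), (3, 5), (5, 1), (17, 1), (19, 1)] (by decide +kernel) (by decide +kernel) (by decide +kernel) (by decide +kernel) (by norm_num) (by decide +kernel) p hp hodd h3
    · obtain ⟨_, hN⟩ := h
      rw [hN] at h3 ⊢
      exact table_check _ 21 [(2, 21), (3, 3), (5, 1), (7, 1), (11, 3), (23, 1), (29, 1), (31, 1), (37, 1), (43, 1)] (by decide +kernel) (by decide +kernel) (by decide +kernel) (by decide +kernel) (by norm_num) (by decide +kernel) p hp hodd h3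
    · obtain ⟨_, hN⟩ := h
      rw [hN] at h3 ⊢
      exact table_check _ 21 [(2, 21), (3, 9), (5, 4), (7, 2), (11, 1), (13, 1), (23, 1)] (by decide +kernel) (by decide +kernel) (by decide +kernel) (by decide +kernel) (by norm_num) (by decide +kernel) p hp hodd h3
    · obtain ⟨_, hN⟩ := h
      rw [hN] at h3 ⊢
      exact table_check _ 18 [(2, 18), (3, 6), (5, 3), (7, 1), (11, 1), (23, 1)] (by decide +kernel) (by decide +kernel) (by decide +kernel) (by decide +kernel) (by norm_num) (by decide +kernel) p hp hodd h3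
    · obtain ⟨_, hN⟩ := h
      rw [hN] at h3 ⊢
      exact table_check _ 10 [(2, 10), (3, 7), (5, 3), (7, 1), (11, 1), (23, 1)] (by decide +kernel) (by decide +kernel) (by decide +kernel) (by decide +kernel) (by norm_num) (by decide +kernel) p hp hodd h3
    · obtain ⟨_, hN⟩ := h
      rw [hN] at h3 ⊢
      exact table_check _ 17 [(2, 17), (3, 9), (5, 2), (7, 1), (11, 1), (13, 1)] (by decide +kernel) (by decide +kernel) (by decide +kernel) (by decide +kernel) (by norm_num) (by decide +kernel) p hp hodd h3
    · obtain ⟨_, hN⟩ := h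
      rw [hN] at h3 ⊢
      exact table_check _ 18 [(2, 18), (3, 13), (5, 2), (7, 1), (11, 1), (13, 1), (17, 1), (23, 1)] (by decide +kernel) (by decide +kernel) (by decide +kernel) (by decide +kernel) (by norm_num) (by decide +kernel) p hp hodd h3
    · obtain ⟨_, hN⟩ := h
      rw [hN] at h3 ⊢
      exact table_check _ 21 [(2, 21), (3, 16), (5, 2), (7, 3), (11, 1), (13, 1), (17, 1), (23, 1), (29, 1)] (by decide +kernel) (by decide +kernel) (by decide +kernel) (by decide +kernel) (by norm_num) (by decide +kernel) p hp hodd h3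
    · obtain ⟨_, hN⟩ := h
      rw [hN] at h3 ⊢
      exact table_check _ 9 [(2, 9), (3, 2), (5, 3), (7, 1), (11, 1)] (by decide +kernel) (by decide +kernel) (by decide +kernel) (by decide +kernel) (by norm_num) (by decide +kernel) p hp hodd h3
    · obtain ⟨_, hN⟩ := h
      rw [hN] at h3 ⊢
      exact table_check _ 7 [(2, 7), (3, 6), (5, 3), (7, 1), (11, 1)] (by decide +kernel) (by decide +kernel) (by decide +kernel) (by decide +kernel) (by norm_num) (by decide +kernel) p hp hodd h3
    · obtain ⟨_, hN⟩ := h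
      rw [hN] at h3 ⊢
      exact table_check _ 10 [(2, 10), (3, 3), (5, 2), (7, 3), (17, 1)] (by decide +kernel) (by decide +kernel) (by decide +kernel) (by decide +kernel) (by norm_num) (by decide +kernel) p hp hodd h3
    · obtain ⟨_, hN⟩ := h
      rw [hN] at h3 ⊢
      exact table_check _ 14 [(2, 14), (3, 3), (5, 3), (7, 1), (13, 1), (29, 1)] (by decide +kernel) (by decide +kernel) (by decide +kernel) (by decide +kernel) (by norm_num) (by decide +kernel) p hp hodd h3
    · obtain ⟨_, hN⟩ := h
      rw [hN] at h3 ⊢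
      exact table_check _ 13 [(2, 13), (3, 7), (5, 2), (7, 1), (11, 1), (13, 1)] (by decide +kernel) (by decide +kernel) (by decide +kernel) (by decide +kernel) (by norm_num) (by decide +kernel) p hp hodd h3
    · obtain ⟨_, hN⟩ := h
      rw [hN] at h3 ⊢
      exact table_check _ 9 [(2, 9), (3, 4), (5, 1), (7, 3), (11, 1), (19, 1), (31, 1)] (by decide +kernel) (by decide +kernel) (by decide +kernel) (by decide +kernel) (by norm_num) (by decide +kernel) p hp hodd h3
    · obtain ⟨_, hN⟩ := h
      rw [hN] at h3 ⊢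
      exact table_check _ 14 [(2, 14), (3, 6), (5, 6), (7, 1), (11, 1), (19, 1)] (by decide +kernel) (by decide +kernel) (by decide +kernel) (by decide +kernel) (by norm_num) (by decide +kernel) p hp hodd h3
    · obtain ⟨_, hN⟩ := h
      rw [hN] at h3 ⊢
      exact table_check _ 8 [(2, 8), (3, 7), (5, 6), (7, 1), (11, 1), (31, 1), (37, 1), (67, 1)] (by decide +kernel) (by decide +kernel) (by decide +kernel) (by decide +kernel) (by norm_num) (by decide +kernel) p hp hodd h3
    · obtain ⟨_, hN⟩ := h
      rw [hN] at h3 ⊢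
      exact table_check _ 15 [(2, 15), (3, 10), (5, 3), (7, 2), (13, 1), (19, 1), (31, 1)] (by decide +kernel) (by decide +kernel) (by decide +kernel) (by decide +kernel) (by norm_num) (by decide +kernel) p hp hodd h3
    · obtain ⟨_, hN⟩ := h
      rw [hN] at h3 ⊢
      exact table_check _ 41 [(2, 41), (3, 13), (5, 6), (7, 2), (11, 1), (13, 1), (17, 1), (19, 1), (23, 1), (31, 1), (47, 1)] (by decide +kernel) (by decide +kernel) (by decide +kernel) (by decide +kernel) (by norm_num) (by decide +kernel) p hp hodd h3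
    · obtain ⟨_, hN⟩ := h
      rw [hN] at h3 ⊢
      exact table_check _ 46 [(2, 46), (3, 20), (5, 9), (7, 6), (11, 2), (13, 3), (17, 1), (19, 1), (23, 1), (29, 1), (31, 1), (41, 1), (47, 1), (59, 1), (71, 1)] (by decide +kernel) (by decide +kernel) (by decide +kernel) (by decide +kernel) (by norm_num) (by decide +kernel) p hp hodd h3

end Cfsg.Agent.S2367
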