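import Mathlib
import Cfsg.Statements.S2368

set_option autoImplicit false
open Cfsg

namespace Cfsg.Agent.S2368

open Matrix

variable {F : Type*} [Field F]

/-- A nilpotent `m × m` matrix over a field has vanishing `m`-th power. -/
lemma pow_card_eq_zero {m : ℕ} (N : Matrix (Fin m) (Fin m) F) (h : IsNilpotent N) : N ^ m = 0 := by
  have h1 := Matrix.isNilpotent_charpoly_sub_pow_of_isNilpotent h
  have h2 : N.charpoly = Polynomial.X ^ m := by
    have := h1.eq_zero
    simpa [sub_eq_zero] using this
  have h3 := Matrix.aeval_self_charpoly N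
  rw [h2] at h3
  simpa using h3

/-- The superdiagonal nilpotent matrix. -/
def sup (m : ℕ) (F : Type*) [Field F] : Matrix (Fin m) (Fin m) F :=
  Matrix.of fun i j => if j.val = i.val + 1 then 1 else 0

lemma sup_pow_apply (m : ℕ) (k : ℕ) (i j : Fin m) :
    (sup m F ^ k) i j = if j.val = i.val + k then 1 else 0 := by
  induction k generalizing j with
  | zero =>
    simp [Matrix.one_apply, Fin.ext_iff, eq_comm]
  | succ k ih =>
    rw [pow_succ, Matrix.mul_apply]
    by_cases hj : j.val = i.val + (k + 1)
    · have hlt : i.val + k < m := by have := j.isLt; omega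
      rw [Finset.sum_eq_single (⟨i.val + k, hlt⟩ : Fin m)]
      · have e1 : sup m F (⟨i.val + k, hlt⟩ : Fin m) j = 1 := by
          simp only [sup, Matrix.of_apply]
          rw [if_pos (by omega)]
        rw [ih, e1, if_pos hj, mul_one, if_pos rfl]
      · intro b _ hb
        rw [ih]
        have : b.val ≠ i.val + k := fun h => hb (Fin.ext h)
        simp [this]
      · simp
    · rw [if_neg hj]
      apply Finset.sum_eq_zero
      intro x _
      rw [ih]
      by_cases hx : x.val = i.val + k
      · have : ¬ j.val = x.val + 1 := by omega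
        simp [sup, this]
      · simp [hx]

lemma sup_pow_card (m : ℕ) : sup m F ^ m = 0 := by
  ext i j
  rw [sup_pow_apply]
  have : ¬ j.val = i.val + m := by have := j.isLt; omega
  simp [this]

lemma sup_pow_ne_zero {m k : ℕ} (hk : k < m) : sup m F ^ k ≠ 0 := by
  intro h
  have h1 := congrFun (congrFun h ⟨0, by omega⟩) ⟨k, hk⟩
  rw [sup_pow_apply] at h1
  simp at h1

/-- Let F be a finite field of characteristic p and m ≥ 1. Every element of GL(m, F) of p-power order has order less than p·m, and GL(m, F) has an element of p-power order at least m; so the largest order of a p-element of GL(m, F) is the least power of p that is at least m. -/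
theorem result {F : Type*} [Field F] [Fintype F] (p : ℕ) [Fact p.Prime] [CharP F p] (m : ℕ) (hm : 1 ≤ m) :
    (∀ g : Matrix.GeneralLinearGroup (Fin m) F, (∃ j : ℕ, orderOf g = p ^ j) → orderOf g < p * m) ∧
      ∃ g : Matrix.GeneralLinearGroup (Fin m) F, (∃ j : ℕ, orderOf g = p ^ j) ∧ m ≤ orderOf g := by
  classical
  haveI : NeZero m := ⟨by omega⟩
  haveI hcp : CharP (Matrix (Fin m) (Fin m) F) p := Matrix.charP p
  have hp : p.Prime := Fact.out
  have hp1 : 1 < p := hp.one_lt
  set c := Nat.clog p m with hc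
  have hle : m ≤ p ^ c := Nat.le_pow_clog hp1 m
  have hlt : p ^ c < p * m := by
    by_cases hm1 : m = 1
    · have : c = 0 := by rw [hc, hm1]; exact Nat.clog_of_right_le_one le_rfl p
      rw [this, hm1]
      simpa using hp1
    · have hc0 : c ≠ 0 := by
        rw [hc]
        exact (Nat.clog_pos hp1 (by omega)).ne'
      obtain ⟨d, hd⟩ := Nat.exists_eq_succ_of_ne_zero hc0
      have h1 : p ^ d < m := by
        have := Nat.pow_pred_clog_lt_self hp1 (by omega : 1 < m)
        rw [← hc, hd] at this
        simpa using this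
      rw [hd, pow_succ']
      exact Nat.mul_lt_mul_of_pos_left h1 hp.pos
  haveI hec : ExpChar (Matrix (Fin m) (Fin m) F) p := ExpChar.prime hp
  have hsub : ∀ (x : Matrix (Fin m) (Fin m) F) (n : ℕ), (x - 1) ^ (p ^ n) = x ^ (p ^ n) - 1 := by
    intro x n
    have := sub_pow_expChar_pow_of_commute p n (Commute.one_right x)
    simpa using this
  constructor
  · rintro g ⟨j, hj⟩
    set M : Matrix (Fin m) (Fin m) F := (g : Matrix (Fin m) (Fin m) F) with hM
    have h1 : M ^ (p ^ j) = 1 := by
      rw [hM, ← Units.val_pow_eq_pow_val, ← hj, pow_orderOf_eq_one]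
      rfl
    have h2 : (M - 1) ^ (p ^ j) = 0 := by rw [hsub, h1, sub_self]
    have h3 : (M - 1) ^ m = 0 := pow_card_eq_zero _ ⟨_, h2⟩
    have h4 : (M - 1) ^ (p ^ c) = 0 := pow_eq_zero_of_le hle h3
    have h5 : M ^ (p ^ c) = 1 := by
      rw [hsub] at h4
      exact sub_eq_zero.mp h4
    have h6 : g ^ (p ^ c) = 1 := by
      apply Units.ext
      rw [Units.val_pow_eq_pow_val]
      exact h5
    have h7 : orderOf g ∣ p ^ c := orderOf_dvd_of_pow_eq_one h6
    exact lt_of_le_of_lt (Nat.le_of_dvd (pow_pos hp.pos _) h7) hlt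
  · have hnil : IsNilpotent (sup m F) := ⟨m, sup_pow_card m⟩
    have hunit : IsUnit (1 + sup m F) := hnil.isUnit_one_add
    let g : Matrix.GeneralLinearGroup (Fin m) F := hunit.unit
    have hg : (g : Matrix (Fin m) (Fin m) F) = 1 + sup m F := rfl
    have hpow : ∀ n : ℕ, (g : Matrix (Fin m) (Fin m) F) ^ (p ^ n) - 1 = sup m F ^ (p ^ n) := by
      intro n
      rw [← hsub, hg, add_sub_cancel_left]
    have h1 : g ^ (p ^ c) = 1 := by
      apply Units.ext
      rw [Units.val_pow_eq_pow_val]
      have := hpow c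
      have h0 : sup m F ^ (p ^ c) = 0 := pow_eq_zero_of_le hle (sup_pow_card m)
      rw [h0] at this
      exact sub_eq_zero.mp this
    have h2 : orderOf g ∣ p ^ c := orderOf_dvd_of_pow_eq_one h1
    obtain ⟨j, _, hj⟩ := (Nat.dvd_prime_pow hp).mp h2
    refine ⟨g, ⟨j, hj⟩, ?_⟩
    by_contra hlt2
    have hlt3 : p ^ j < m := by rw [← hj]; omega
    have h3 := hpow j
    have h4 : (g : Matrix (Fin m) (Fin m) F) ^ (p ^ j) = 1 := by
      rw [← Units.val_pow_eq_pow_val, ← hj, pow_orderOf_eq_one]
      rfl
    rw [h4, sub_self] at h3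
    exact sup_pow_ne_zero hlt3 h3.symm

end Cfsg.Agent.S2368
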