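import Cfsg.Statements.S2369
import Cfsg.Agent.Lib.TwF4Comm50

set_option autoImplicit false
open Cfsg

namespace Cfsg.Agent.S2369

/-- Let q = 2^(2m+1) with m ≥ 1 and let a, b be commuting elements of the large Ree group ²F₄(q) with a an involution. Then every prime divisor of the order of b divides q(q⁴ − 1). -/
theorem result {K : Type*} [Field K] [Fintype K] (m : ℕ) (hm : 1 ≤ m) (hK : Fintype.card K = 2 ^ (2 * m + 1))
    (a b : ↥(Cfsg.Lie.twistedF4 K (2 ^ m))) (ha : orderOf a = 2) (hab : Commute a b) :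
    (orderOf b).primeFactors ⊆ (2 ^ (2 * m + 1) * ((2 ^ (2 * m + 1)) ^ 4 - 1)).primeFactors := by
  classical
  obtain ⟨d⟩ := Cfsg.Agent.Lib.Chev.TwF4.exists_dat (K := K) hK
  haveI := Cfsg.Agent.Lib.Chev.TwF4.charP2 hK
  haveI : Fact (Nat.Prime 2) := ⟨Nat.prime_two⟩
  intro r hr
  have hrp := Nat.prime_of_mem_primeFactors hr
  have hrd := Nat.dvd_of_mem_primeFactors hr
  have hpos : orderOf b ≠ 0 := (orderOf_pos b).ne'
  have hc : orderOf (b ^ (orderOf b / r)) = r := orderOf_pow_orderOf_div hpos hrd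
  have hac : Commute a (b ^ (orderOf b / r)) := hab.pow_right _
  have h1 := Cfsg.Agent.Lib.TwSt50.F4Comm.main d _ hK.symm (a := a) (c := b ^ (orderOf b / r)) ha hac hrp hc
  refine Nat.mem_primeFactors.2 ⟨hrp, h1, ?_⟩
  have h2 : 2 ≤ 2 ^ (2 * m + 1) := by
    calc 2 = 2 ^ 1 := by norm_num
      _ ≤ 2 ^ (2 * m + 1) := Nat.pow_le_pow_right (by norm_num) (by omega)
  have h3 : 2 ^ 4 ≤ (2 ^ (2 * m + 1)) ^ 4 := Nat.pow_le_pow_left h2 4
  have h4 : 0 < 2 ^ (2 * m + 1) := by omega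
  have h5 : (2 ^ (2 * m + 1)) ^ 4 - 1 ≠ 0 := by omega
  exact Nat.mul_ne_zero h4.ne' h5

end Cfsg.Agent.S2369
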