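import Mathlib
import Cfsg.Statements.S2370
import Cfsg.Agent.Lib.ChevLieCheck

set_option autoImplicit false
open Cfsg

namespace Cfsg.Agent.S2370

open Cfsg.Lie Cfsg.Agent.Lib.ChevLieCheck Matrix

/-- The coordinates of the short-root ideal of the Lie algebra of type F₄ in characteristic two:
the coroots `h₁, h₂` and the short root vectors, as a bit mask. -/
def f4Mask : ℕ := 316536972114051

/-- Membership in the short-root ideal. -/
def inSF4 (k : ℕ) : Bool := f4Mask.testBit k

/-- The roots occurring in the generating words of ²F₄. -/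
def rootsF4 : List ℕ := [f4p1, f4p4, f4m1, f4m4, f4a, f4b, f4ab, f4aab, f4ma, f4mb, f4mab, f4maab]

/-- A certificate for the triviality of the centraliser of the ideal. -/
def certF4 : List (List (ℕ × ℕ)) :=
  [[(7, 7)], [(18, 18)], [(7, 7), (24, 24)], [(7, 7), (22, 22)], [(33, 7)], [(32, 7)], [(31, 7)],
   [(0, 7)], [(24, 7)], [(23, 7)], [(22, 7)], [(0, 11)], [(1, 12)], [(1, 13)], [(1, 14)], [(0, 15)],
   [(0, 16)], [(0, 17)], [(1, 18)], [(17, 11)], [(16, 11)], [(15, 11)], [(0, 22)], [(0, 23)],
   [(0, 24)], [(14, 12)], [(13, 12)], [(14, 13)], [(13, 14)], [(12, 13)], [(12, 14)], [(0, 31)],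
   [(0, 32)], [(0, 33)], [(11, 15)], [(11, 16)], [(11, 17)], [(1, 37)], [(0, 38)], [(0, 39)],
   [(0, 40)], [(1, 41)], [(1, 42)], [(1, 43)], [(0, 44)], [(7, 22)], [(7, 23)], [(7, 24)], [(0, 48)],
   [(7, 31)], [(7, 32)], [(7, 33)]]

/-- The certificate as a function. -/
def certF4Fn (k : ℕ) : List (ℕ × ℕ) := certF4.getD k []

set_option maxRecDepth 100000 in
theorem stab_check : rootsF4.all (stabRoot chevF4 inSF4) = true := by decide +kernel

set_option maxRecDepth 100000 in
theorem ideal_check : idealOK chevF4 inSF4 = true := by decide +kernel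

set_option maxRecDepth 100000 in
theorem cert_check : certOK chevF4 inSF4 certF4Fn = true := by decide +kernel

set_option maxRecDepth 100000 in
theorem card_check : ((List.range (dimN chevF4)).filter inSF4).length ≤ 32 := by decide +kernel

set_option maxRecDepth 100000 in
theorem aut_check1 : autRootS chevF4 inSF4 f4p1 = true := by decide +kernel
set_option maxRecDepth 100000 in
theorem aut_check2 : autRootS chevF4 inSF4 f4p4 = true := by decide +kernel
set_option maxRecDepth 100000 in
theorem aut_check3 : autRootS chevF4 inSF4 f4m1 = true := by decide +kernel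
set_option maxRecDepth 100000 in
theorem aut_check4 : autRootS chevF4 inSF4 f4m4 = true := by decide +kernel
set_option maxRecDepth 100000 in
theorem aut_check5 : autRootS chevF4 inSF4 f4a = true := by decide +kernel
set_option maxRecDepth 100000 in
theorem aut_check6 : autRootS chevF4 inSF4 f4b = true := by decide +kernel
set_option maxRecDepth 100000 in
theorem aut_check7 : autRootS chevF4 inSF4 f4ab = true := by decide +kernel
set_option maxRecDepth 100000 in
theorem aut_check8 : autRootS chevF4 inSF4 f4aab = true := by decide +kernel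
set_option maxRecDepth 100000 in
theorem aut_check9 : autRootS chevF4 inSF4 f4ma = true := by decide +kernel
set_option maxRecDepth 100000 in
theorem aut_check10 : autRootS chevF4 inSF4 f4mb = true := by decide +kernel
set_option maxRecDepth 100000 in
theorem aut_check11 : autRootS chevF4 inSF4 f4mab = true := by decide +kernel
set_option maxRecDepth 100000 in
theorem aut_check12 : autRootS chevF4 inSF4 f4maab = true := by decide +kernel

theorem aut_check {r : ℕ} (hr : r ∈ rootsF4) : autRootS chevF4 inSF4 r = true := by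
  simp only [rootsF4, List.mem_cons, List.not_mem_nil, or_false] at hr
  rcases hr with rfl | rfl | rfl | rfl | rfl | rfl | rfl | rfl | rfl | rfl | rfl | rfl
  · exact aut_check1
  · exact aut_check2
  · exact aut_check3
  · exact aut_check4
  · exact aut_check5
  · exact aut_check6
  · exact aut_check7
  · exact aut_check8
  · exact aut_check9
  · exact aut_check10
  · exact aut_check11
  · exact aut_check12

theorem stab_check' {r : ℕ} (hr : r ∈ rootsF4) : stabRoot chevF4 inSF4 r = true := by
  have := stab_check
  rw [List.all_eq_true] at this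
  exact this r hr

variable {K : Type*} [Field K]

lemma good_x (h2 : (2 : K) = 0) {r : ℕ} (hr : r ∈ rootsF4) (t : K) :
    Good inSF4 (chevF4.x K r t) := by
  unfold ChevalleyDatum.x
  split_ifs with h
  · exact good_xMat h2 ⟨r, h⟩ (stab_check' hr) (aut_check hr) t
  · exact good_one

lemma good_word (h2 : (2 : K) = 0) (w : List (ℕ × K)) (hw : ∀ p ∈ w, p.1 ∈ rootsF4) :
    Good inSF4 (chevF4.wordMat K w) := by
  unfold ChevalleyDatum.wordMat
  induction w with
  | nil => simpa using good_one
  | cons p w ih =>
    rw [List.map_cons, List.prod_cons]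
    exact (good_x h2 (hw p List.mem_cons_self) p.2).mul
      (ih fun q hq => hw q (List.mem_cons_of_mem _ hq))

lemma words_roots (e : ℕ) {w : List (ℕ × K)} (hw : w ∈ f4Words K e) : ∀ p ∈ w, p.1 ∈ rootsF4 := by
  simp only [f4Words, Set.mem_union, Set.mem_ofPred_eq, f4PairWord, b2ClassWord] at hw
  rcases hw with ⟨t, rfl | rfl⟩ | ⟨t, u, rfl | rfl⟩ <;>
  · intro p hp
    simp only [List.mem_cons, List.not_mem_nil, or_false] at hp
    rcases hp with rfl | rfl | rfl | rfl <;> simp [rootsF4]

theorem good_of_mem [Finite K] (h2 : (2 : K) = 0) (e : ℕ) (g : GL chevF4.Idx K)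
    (hg : g ∈ twistedF4 K e) : Good inSF4 (g : Matrix chevF4.Idx chevF4.Idx K) := by
  unfold twistedF4 ChevalleyDatum.genSubgroup at hg
  induction hg using Subgroup.closure_induction with
  | mem x hx =>
    obtain ⟨w, hw, hx⟩ := hx
    rw [hx]
    exact good_word h2 w (words_roots e hw)
  | one => simpa using good_one
  | mul x y _ _ hx hy =>
    rw [Units.val_mul]
    exact hx.mul hy
  | inv x _ hx =>
    have h3 : x⁻¹ = x ^ (orderOf x - 1) := by
      rw [eq_comm, ← mul_eq_one_iff_eq_inv, ← pow_succ]
      have : orderOf x - 1 + 1 = orderOf x :=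
        Nat.sub_add_cancel (orderOf_pos x)
      rw [this, pow_orderOf_eq_one]
    rw [h3, Units.val_pow_eq_pow_val]
    exact hx.pow _

/-- Let q = 2^(2m+1) with m ≥ 1. Every element of 2-power order of the large Ree group ²F₄(q) has order at most 32. -/
theorem result {K : Type*} [Field K] [Fintype K] (m : ℕ) (hm : 1 ≤ m) (hK : Fintype.card K = 2 ^ (2 * m + 1))
    (x : ↥(Cfsg.Lie.twistedF4 K (2 ^ m))) (hx : ∃ j : ℕ, orderOf x = 2 ^ j) : orderOf x ≤ 32 := by
  have h2 : (2 : K) = 0 := by
    have h3 : ((Fintype.card K : ℕ) : K) = 0 := Nat.cast_card_eq_zero K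
    rw [hK] at h3
    push_cast at h3
    exact pow_eq_zero_iff (by omega) |>.mp h3
  obtain ⟨j, hj⟩ := hx
  have hgood := good_of_mem h2 (2 ^ m) x.1 x.2
  have hM : ((x.1 : Matrix chevF4.Idx chevF4.Idx K)) ^ (2 ^ j) = 1 := by
    rw [← Units.val_pow_eq_pow_val, ← hj]
    have : (x.1) ^ orderOf x = 1 := by
      rw [← Subgroup.coe_pow, pow_orderOf_eq_one]
      rfl
    rw [this]
    rfl
  have hfix := pow32_fix h2 card_check hgood hM
  have htriv := trivial_of_fix h2 ideal_check cert_check (hgood.pow 32) hfix
  have h32 : (x.1 : Matrix chevF4.Idx chevF4.Idx K) ^ 32 = 1 := by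
    classical
    apply Matrix.ext_of_mulVec_single
    intro i
    have := htriv (Pi.single i 1)
    rw [this, Matrix.one_mulVec]
  have h32' : x ^ 32 = 1 := by
    apply Subtype.ext
    apply Units.ext
    simpa using h32
  have hdvd : orderOf x ∣ 32 := orderOf_dvd_of_pow_eq_one h32'
  exact Nat.le_of_dvd (by norm_num) hdvd

end Cfsg.Agent.S2370
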