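import Mathlib
import Cfsg.Agent.Lib.TwE7P32

set_option autoImplicit false
open Cfsg

namespace Cfsg.Agent.S2374

/-- The group E₇(q) (the simple Chevalley group of type E₇) contains a cyclic subgroup of order (q⁴ − q² + 1)(q³ + 1)/gcd(2, q − 1) which is its own centralizer. -/
theorem result {F : Type*} [Field F] [Fintype F] (q : ℕ) (hF : Fintype.card F = q) :
    ∃ H : Subgroup ↥(Cfsg.Lie.chevE7.group F), IsCyclic ↥H ∧ Nat.card ↥H = (q ^ 4 - q ^ 2 + 1) * (q ^ 3 + 1) / Nat.gcd 2 (q - 1) ∧
      Subgroup.centralizer (H : Set ↥(Cfsg.Lie.chevE7.group F)) = H := by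
  classical
  obtain ⟨p', hp'⟩ := CharP.exists F
  have hpp : p'.Prime := CharP.char_is_prime F p'
  have : Fact p'.Prime := ⟨hpp⟩
  let _ : Fintype (FiniteField.Extension F p' 36) := Fintype.ofFinite _
  refine Cfsg.Agent.Lib.TwE7P32.core (K := FiniteField.Extension F p' 36) q hF ?_
  rw [← Nat.card_eq_fintype_card, FiniteField.natCard_extension, Nat.card_eq_fintype_card, hF]

end Cfsg.Agent.S2374
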