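import Mathlib
import Cfsg.Agent.Lib.TwTorE832

set_option autoImplicit false
open Cfsg

namespace Cfsg.Agent.S2375

/-- The group E₈(q) contains a cyclic subgroup of order q⁸ + q⁷ − q⁵ − q⁴ − q³ + q + 1 which is its own centralizer. -/
theorem result {F : Type*} [Field F] [Fintype F] (q : ℕ) (hF : Fintype.card F = q) :
    ∃ H : Subgroup ↥(Cfsg.Lie.chevE8.group F), IsCyclic ↥H ∧ Nat.card ↥H = q ^ 8 + q ^ 7 - q ^ 5 - q ^ 4 - q ^ 3 + q + 1 ∧
      Subgroup.centralizer (H : Set ↥(Cfsg.Lie.chevE8.group F)) = H := by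
  classical
  obtain ⟨p', hp'⟩ := CharP.exists F
  have hpp : p'.Prime := CharP.char_is_prime F p'
  have : Fact p'.Prime := ⟨hpp⟩
  let _ : Fintype (FiniteField.Extension F p' 30) := Fintype.ofFinite _
  refine Cfsg.Agent.Lib.TwTorE832.core (K := FiniteField.Extension F p' 30) q hF ?_
  rw [← Nat.card_eq_fintype_card, FiniteField.natCard_extension, Nat.card_eq_fintype_card, hF]

end Cfsg.Agent.S2375
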