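import Mathlib
import Cfsg.Statements.S2379
import Cfsg.Agent.Lib.SylowGL

set_option autoImplicit false
open Cfsg

namespace Cfsg.Agent.S2379

/-- Sylow subgroups of `SL_n(q)` for large primes. Let `F` be a field with `q` elements and `r` a prime with `r > n` and `r ∤ q` (so `r` does not divide the order `n!` of the Weyl group). Let `d` be the multiplicative order of `q` modulo `r`, `a` the number of integers `i` with `2 ≤ i ≤ n` divisible by `d` (the degrees of the Weyl group are `2, …, n`), and `m` the `r`-part of the value at `q` of the `d`-th cyclotomic polynomial. Then every Sylow `r`-subgroup of `SL_n(q)` is a direct product of `a` cyclic groups of order `m`. -/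
theorem result {F : Type*} [Field F] [Fintype F] {q : ℕ} (hq : Fintype.card F = q) (n : ℕ)
    (r : ℕ) [Fact r.Prime] (hrn : n < r) (hrq : ¬ r ∣ q) (P : Sylow r (Matrix.SpecialLinearGroup (Fin n) F)) :
    Nonempty (↥(P : Subgroup (Matrix.SpecialLinearGroup (Fin n) F)) ≃*
      (Fin ((Finset.Icc 2 n).filter (fun i => orderOf (q : ZMod r) ∣ i)).card →
        Multiplicative (ZMod (r ^ padicValNat r ((Polynomial.cyclotomic (orderOf (q : ZMod r)) ℤ).eval (q : ℤ)).natAbs)))) := by
  classical
  have hq2 : 2 ≤ q := hq ▸ Fintype.one_lt_card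
  have hd := Cfsg.Agent.Lib.SylowGL.order_pos (r := r) hrq
  have hval := Cfsg.Agent.Lib.SylowGL.padicVal_pow_order (r := r) hq2 hrq
  generalize hw : padicValNat r ((Polynomial.cyclotomic (orderOf (q : ZMod r)) ℤ).eval (q : ℤ)).natAbs = w at hval ⊢
  have hm : r ^ w ≠ 0 := pow_ne_zero _ (Fact.out (p := r.Prime)).ne_zero
  haveI : NeZero (r ^ w) := ⟨hm⟩
  have hdvd : r ^ w ∣ Fintype.card F ^ orderOf (q : ZMod r) - 1 := by
    rw [hq, ← hval]
    exact pow_padicValNat_dvd
  rcases Nat.eq_zero_or_pos n with rfl | hn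
  · have hc : ((Finset.Icc 2 0).filter (fun i => orderOf (q : ZMod r) ∣ i)).card = 0 := by simp
    rw [hc]
    haveI : Subsingleton (Matrix.SpecialLinearGroup (Fin 0) F) :=
      ⟨fun a b => Subtype.ext (Matrix.ext fun i => i.elim0)⟩
    refine Cfsg.Agent.Lib.SylowGL.sylow_equiv_of_injective r 1
      (Function.injective_of_subsingleton _) ?_ P
    rw [Nat.card_of_subsingleton (1 : Matrix.SpecialLinearGroup (Fin 0) F), Nat.factorization_one]
    simp
  have hSL := Cfsg.Agent.Lib.SylowGL.factorization_card_SL (F := F) (r := r) hq hn.ne'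
  rw [Cfsg.Agent.Lib.SylowGL.factorization_card_GL hq hrn hrq, hw] at hSL
  rcases Nat.lt_or_ge 1 (orderOf (q : ZMod r)) with hd2 | hd1
  · -- the order is at least two
    rw [Cfsg.Agent.Lib.SylowGL.card_filter_Icc_of_two_le hd2 n]
    have hr1 : ¬ r ∣ q - 1 := by
      intro h
      have h' : r ∣ q ^ 1 - 1 := by simpa using h
      have := Nat.le_of_dvd (by norm_num) ((Cfsg.Agent.Lib.SylowGL.dvd_pow_sub_one_iff hq2 1).1 h')
      omega
    rw [Nat.factorization_eq_zero_of_not_dvd hr1, add_zero] at hSL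
    obtain ⟨f, hf⟩ := Cfsg.Agent.Lib.SylowGL.exists_torus (F := F) n _ hd _ hm hdvd
    have hdet : ∀ u, Matrix.det (f u : Matrix (Fin n) (Fin n) F) = 1 := by
      intro u
      have h1 : (Matrix.GeneralLinearGroup.det (f u)) ^ (r ^ w) = 1 := by
        rw [← map_pow, ← map_pow, Cfsg.Agent.Lib.SylowGL.pow_homocyclic, map_one, map_one]
      have h2 : (Matrix.GeneralLinearGroup.det (f u)) ^ (q - 1) = 1 := by
        have := FiniteField.pow_card_sub_one_eq_one (K := F) _ (Units.ne_zero (Matrix.GeneralLinearGroup.det (f u)))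
        rw [hq] at this
        exact Units.ext (by simpa using this)
      have hcop : Nat.Coprime (r ^ w) (q - 1) :=
        Nat.Coprime.pow_left _ ((Nat.Prime.coprime_iff_not_dvd Fact.out).2 hr1)
      have h3 := pow_gcd_eq_one.2 ⟨h1, h2⟩
      rw [hcop.gcd_eq_one, pow_one] at h3
      have := congrArg (fun x : Fˣ => (x : F)) h3
      simpa using this
    refine Cfsg.Agent.Lib.SylowGL.sylow_equiv_of_injective r (Cfsg.Agent.Lib.SylowGL.toSLHom f hdet)
      (Cfsg.Agent.Lib.SylowGL.toSLHom_injective f hdet hf) ?_ P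
    rw [Cfsg.Agent.Lib.SylowGL.card_homocyclic, hSL, ← pow_mul, mul_comm]
  · -- the order is one
    have hd1' : orderOf (q : ZMod r) = 1 := by omega
    rw [hd1'] at hSL hval hdvd ⊢
    rw [Cfsg.Agent.Lib.SylowGL.card_filter_Icc_one n]
    obtain ⟨k, rfl⟩ : ∃ k, n = k + 1 := ⟨n - 1, by omega⟩
    rw [pow_one] at hdvd hval
    have hqv : (q - 1).factorization r = w := by
      rw [Nat.factorization_def _ Fact.out, hval]
    rw [hqv, Nat.div_one] at hSL
    obtain ⟨f, hf⟩ := Cfsg.Agent.Lib.SylowGL.exists_diag (F := F) k (r ^ w) hm hdvd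
    refine Cfsg.Agent.Lib.SylowGL.sylow_equiv_of_injective r f hf ?_ P
    rw [Cfsg.Agent.Lib.SylowGL.card_homocyclic, ← pow_mul]
    congr 1
    have h1 : (k + 1) * w = w * k + w := by ring
    omega

end Cfsg.Agent.S2379
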