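import Mathlib
import Cfsg.Statements.S2380
import Cfsg.Agent.Lib.SylowGL

set_option autoImplicit false
open scoped MatrixGroups
open Cfsg

namespace Cfsg.Agent.S2380

/-- Sylow subgroups of `GL_n(q)` for large primes. Let `F` be a field with `q` elements and `r` a prime with `r > n` and `r ∤ q`. Let `d` be the multiplicative order of `q` modulo `r` and `m` the `r`-part of the value at `q` of the `d`-th cyclotomic polynomial. Then every Sylow `r`-subgroup of `GL_n(q)` is a direct product of `⌊n/d⌋` cyclic groups of order `m` (the degrees of the Weyl group being `1, …, n`). -/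
theorem result {F : Type*} [Field F] [Fintype F] {q : ℕ} (hq : Fintype.card F = q) (n : ℕ)
    (r : ℕ) [Fact r.Prime] (hrn : n < r) (hrq : ¬ r ∣ q) (P : Sylow r (GL (Fin n) F)) :
    Nonempty (↥(P : Subgroup (GL (Fin n) F)) ≃*
      (Fin (n / orderOf (q : ZMod r)) →
        Multiplicative (ZMod (r ^ padicValNat r ((Polynomial.cyclotomic (orderOf (q : ZMod r)) ℤ).eval (q : ℤ)).natAbs)))) := by
  have hq2 : 2 ≤ q := hq ▸ Fintype.one_lt_card
  have hd := Cfsg.Agent.Lib.SylowGL.order_pos (r := r) hrq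
  have hm : r ^ padicValNat r ((Polynomial.cyclotomic (orderOf (q : ZMod r)) ℤ).eval (q : ℤ)).natAbs ≠ 0 :=
    pow_ne_zero _ (Fact.out (p := r.Prime)).ne_zero
  haveI : NeZero (r ^ padicValNat r ((Polynomial.cyclotomic (orderOf (q : ZMod r)) ℤ).eval (q : ℤ)).natAbs) := ⟨hm⟩
  have hdvd : r ^ padicValNat r ((Polynomial.cyclotomic (orderOf (q : ZMod r)) ℤ).eval (q : ℤ)).natAbs ∣
      Fintype.card F ^ orderOf (q : ZMod r) - 1 := by
    rw [hq, ← Cfsg.Agent.Lib.SylowGL.padicVal_pow_order hq2 hrq]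
    exact pow_padicValNat_dvd
  obtain ⟨f, hf⟩ := Cfsg.Agent.Lib.SylowGL.exists_torus n _ hd _ hm hdvd
  refine Cfsg.Agent.Lib.SylowGL.sylow_equiv_of_injective r f hf ?_ P
  rw [Cfsg.Agent.Lib.SylowGL.card_homocyclic, Cfsg.Agent.Lib.SylowGL.factorization_card_GL hq hrn hrq,
    ← pow_mul, mul_comm]

end Cfsg.Agent.S2380
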