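import Cfsg.Statements.S2381
import Mathlib
import Cfsg.Agent.Lib.SpRealize
import Cfsg.Agent.Lib.SpOrder

set_option autoImplicit false
open Cfsg

namespace Cfsg.Agent.S2381

open Polynomial Module
open Cfsg.Agent.Lib.PrimeFactors Cfsg.Agent.Lib.DualFactors Cfsg.Agent.Lib.SemisimpleGL Cfsg.Agent.Lib.SpRealize

section num

variable {q r : ℕ} [hrp : Fact r.Prime]

theorem r_dvd_iff (hq : 1 ≤ q) {j : ℕ} : r ∣ q ^ j - 1 ↔ orderOf (q : ZMod r) ∣ j := by
  rw [orderOf_dvd_iff_pow_eq_one, ← ZMod.natCast_eq_zero_iff, Nat.cast_sub (Nat.one_le_pow _ _ hq), Nat.cast_pow,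
    Nat.cast_one, sub_eq_zero]

theorem d_pos (hrq : ¬ r ∣ q) : 0 < orderOf (q : ZMod r) := by
  have hu : (q : ZMod r) ≠ 0 := by
    rw [Ne, ZMod.natCast_eq_zero_iff]
    exact hrq
  have : IsOfFinOrder (q : ZMod r) := by
    have h1 := ZMod.pow_card_sub_one_eq_one hu
    exact isOfFinOrder_iff_pow_eq_one.2 ⟨r - 1, by have := (Fact.out : r.Prime).two_le; omega, h1⟩
  exact this.orderOf_pos

theorem val_cyclo (hq : 2 ≤ q) (hrq : ¬ r ∣ q) :
    padicValNat r (q ^ orderOf (q : ZMod r) - 1) =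
      padicValNat r ((cyclotomic (orderOf (q : ZMod r)) ℤ).eval (q : ℤ)).natAbs := by
  classical
  have hr : r.Prime := Fact.out
  have hd := d_pos (q := q) (r := r) hrq
  obtain ⟨d, hdd⟩ : ∃ d, d = orderOf (q : ZMod r) := ⟨_, rfl⟩
  rw [← hdd] at hd ⊢
  have h1 := congrArg (eval (q : ℤ)) (prod_cyclotomic_eq_X_pow_sub_one hd ℤ)
  rw [eval_prod, ← Finset.mul_prod_erase _ _ (Nat.mem_divisors_self d hd.ne')] at h1
  simp only [eval_sub, eval_pow, eval_X, eval_one] at h1
  have hqd : 2 ≤ q ^ d := by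
    calc 2 ≤ q := hq
      _ = q ^ 1 := (pow_one q).symm
      _ ≤ q ^ d := Nat.pow_le_pow_right (by omega) hd
  have h2 := congrArg Int.natAbs h1
  rw [Int.natAbs_mul] at h2
  have h3 : ((q : ℤ) ^ d - 1).natAbs = q ^ d - 1 := by
    have : ((q : ℤ) ^ d - 1) = ((q ^ d - 1 : ℕ) : ℤ) := by
      rw [Nat.cast_sub (by omega)]
      push_cast
      ring
    rw [this, Int.natAbs_natCast]
  rw [h3] at h2
  obtain ⟨A, hA⟩ : ∃ A, A = (eval (q : ℤ) (cyclotomic d ℤ)).natAbs := ⟨_, rfl⟩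
  obtain ⟨B, hB⟩ : ∃ B, B = (∏ x ∈ d.divisors.erase d, eval (q : ℤ) (cyclotomic x ℤ)).natAbs := ⟨_, rfl⟩
  rw [← hA, ← hB] at h2
  rw [← hA, ← h2]
  have hA0 : A ≠ 0 := by
    rintro rfl
    rw [zero_mul] at h2
    omega
  have hB0 : B ≠ 0 := by
    rintro rfl
    rw [mul_zero] at h2
    omega
  haveI : Fact r.Prime := ⟨hr⟩
  rw [padicValNat.mul hA0 hB0]
  have hBr : ¬ r ∣ B := by
    intro hd'
    rw [hB, ← Int.natCast_dvd, Prime.dvd_finsetProd_iff (Nat.prime_iff_prime_int.1 hr)] at hd'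
    obtain ⟨i, hi, hri⟩ := hd'
    obtain ⟨hid, hdi⟩ := Finset.mem_erase.1 hi
    have hi1 := Nat.mem_divisors.1 hdi
    have hi0 : 0 < i := Nat.pos_of_dvd_of_pos hi1.1 hd
    have h5 : eval (q : ℤ) (cyclotomic i ℤ) ∣ (q : ℤ) ^ i - 1 := by
      have h6 := eval_dvd (x := (q : ℤ)) (cyclotomic.dvd_X_pow_sub_one i ℤ)
      simpa using h6
    have h7 : (r : ℤ) ∣ (q : ℤ) ^ i - 1 := hri.trans h5
    have h8 : ((q : ℤ) ^ i - 1) = ((q ^ i - 1 : ℕ) : ℤ) := by
      rw [Nat.cast_sub (Nat.one_le_pow _ _ (by omega))]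
      push_cast
      ring
    rw [h8, Int.natCast_dvd_natCast, r_dvd_iff (by omega), ← hdd] at h7
    have h9 := Nat.le_of_dvd hi0 h7
    have h10 := Nat.le_of_dvd hd hi1.1
    omega
  rw [padicValNat.eq_zero_of_not_dvd hBr, add_zero]

theorem val_pow (hr2 : r ≠ 2) (hq : 2 ≤ q) (hrq : ¬ r ∣ q) {j : ℕ} (hj : j ≠ 0) (hdj : orderOf (q : ZMod r) ∣ j)
    (hk : ¬ r ∣ j / orderOf (q : ZMod r)) :
    padicValNat r (q ^ j - 1) = padicValNat r (q ^ orderOf (q : ZMod r) - 1) := by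
  have hr : r.Prime := Fact.out
  have hd := d_pos (q := q) (r := r) hrq
  obtain ⟨d, hdd⟩ : ∃ d, d = orderOf (q : ZMod r) := ⟨_, rfl⟩
  rw [← hdd] at hd hdj hk ⊢
  obtain ⟨k, rfl⟩ := hdj
  rw [Nat.mul_div_cancel_left _ hd] at hk
  have hk0 : k ≠ 0 := by
    rintro rfl
    simp at hj
  have hqd : 2 ≤ q ^ d := by
    calc 2 ≤ q := hq
      _ = q ^ 1 := (pow_one q).symm
      _ ≤ q ^ d := Nat.pow_le_pow_right (by omega) hd
  have h1 : r ∣ q ^ d - 1 := (r_dvd_iff (by omega)).2 (by rw [hdd])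
  have h2 : ¬ r ∣ q ^ d := fun h => hrq (hr.dvd_of_dvd_pow h)
  have h3 := padicValNat.pow_sub_pow (p := r) (hr.odd_of_ne_two hr2) (x := q ^ d) (y := 1) (by omega) (by simpa using h1) h2 hk0
  rw [one_pow] at h3
  rw [pow_mul, h3, padicValNat.eq_zero_of_not_dvd hk, add_zero]

end num

section cyc

universe u

variable {F : Type u} [Field F] [Fintype F]

theorem root_prim {m : ℕ} (hm : (m : F) ≠ 0) {j : F[X]} (hi : Irreducible j) (hd : j ∣ cyclotomic m F)
    [Fact (Irreducible j)] : IsPrimitiveRoot (AdjoinRoot.root j) m := by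
  have hne : ((m : ℕ) : AdjoinRoot j) ≠ 0 := by
    have h1 : ((m : ℕ) : AdjoinRoot j) = algebraMap F (AdjoinRoot j) (m : F) := by simp
    rw [h1]
    exact (_root_.map_ne_zero _).2 hm
  haveI : NeZero ((m : ℕ) : AdjoinRoot j) := ⟨hne⟩
  rw [← isRoot_cyclotomic_iff, ← map_cyclotomic m (algebraMap F (AdjoinRoot j)), IsRoot.def, eval_map]
  obtain ⟨c, hc⟩ := hd
  rw [hc, eval₂_mul, AdjoinRoot.algebraMap_eq, AdjoinRoot.eval₂_root, zero_mul]

theorem natDegree_of_cyc {m : ℕ} (hm0 : m ≠ 0) (hm : (m : F) ≠ 0) {j : F[X]} (hi : Irreducible j) (hj : j.Monic)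
    (hd : j ∣ cyclotomic m F) : j.natDegree = orderOf ((Fintype.card F : ℕ) : ZMod m) := by
  classical
  have hQ1 : 1 < Fintype.card F := Fintype.one_lt_card
  haveI : Fact (Irreducible j) := ⟨hi⟩
  haveI : Module.Finite F (AdjoinRoot j) := hj.finite_adjoinRoot
  haveI : Finite (AdjoinRoot j) := Module.finite_of_finite F
  haveI : Fintype (AdjoinRoot j) := Fintype.ofFinite _
  obtain ⟨θ, hθ⟩ : ∃ θ, θ = AdjoinRoot.root j := ⟨_, rfl⟩
  have hprim := root_prim hm hi hd
  rw [← hθ] at hprim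
  have hord : orderOf θ = m := hprim.eq_orderOf.symm
  have hpow : θ ^ m = 1 := hprim.pow_eq_one
  have hθ0 : θ ≠ 0 := by
    rintro rfl
    rw [zero_pow hm0] at hpow
    exact zero_ne_one hpow
  have hd' : finrank F (AdjoinRoot j) = j.natDegree := finrank_adjoinRoot hj
  have hcard : Fintype.card (AdjoinRoot j) = Fintype.card F ^ j.natDegree := by
    rw [← hd']
    exact Module.card_eq_pow_finrank (K := F) (V := AdjoinRoot j)
  have hd0 : j.natDegree ≠ 0 := hi.natDegree_pos.ne'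
  have h1 : m ∣ Fintype.card F ^ j.natDegree - 1 := by
    rw [← hord, ← hcard]
    exact orderOf_dvd_of_pow_eq_one (FiniteField.pow_card_sub_one_eq_one θ hθ0)
  have h2 : ((Fintype.card F : ℕ) : ZMod m) ^ j.natDegree = 1 := by
    have h3 := (ZMod.natCast_eq_zero_iff _ _).2 h1
    rw [Nat.cast_sub (Nat.one_le_pow _ _ (by omega)), Nat.cast_pow, Nat.cast_one, sub_eq_zero] at h3
    exact h3
  have h3 := orderOf_dvd_of_pow_eq_one h2
  obtain ⟨b, hb⟩ : ∃ b, b = orderOf ((Fintype.card F : ℕ) : ZMod m) := ⟨_, rfl⟩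
  rw [← hb] at h3 ⊢
  have hble := Nat.le_of_dvd (Nat.pos_of_ne_zero hd0) h3
  have hb0 : b ≠ 0 := by
    rintro rfl
    exact hd0 (Nat.eq_zero_of_zero_dvd h3)
  have h4 : ((Fintype.card F : ℕ) : ZMod m) ^ b = 1 := by
    rw [hb]
    exact pow_orderOf_eq_one _
  have h5 : m ∣ Fintype.card F ^ b - 1 := by
    rw [← ZMod.natCast_eq_zero_iff, Nat.cast_sub (Nat.one_le_pow _ _ (by omega)), Nat.cast_pow, Nat.cast_one, h4, sub_self]
  obtain ⟨c, hc⟩ := h5
  have hfix : θ ^ (Fintype.card F ^ b) = θ := by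
    have e : Fintype.card F ^ b = m * c + 1 := by
      have := Nat.one_le_pow b (Fintype.card F) (by omega)
      omega
    rw [e, pow_succ, pow_mul, hpow, one_pow, one_mul]
  have hid : (FiniteField.frobeniusAlgHom F (AdjoinRoot j)) ^ b = AlgHom.id F (AdjoinRoot j) := by
    apply AdjoinRoot.algHom_ext
    rw [frob_pow_apply, ← hθ, hfix]
    rfl
  have hall : ∀ x : AdjoinRoot j, x ^ (Fintype.card F ^ b) = x := by
    intro x
    rw [← frob_pow_apply (F := F), hid]
    rfl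
  have hQb : 1 < Fintype.card F ^ b := Nat.one_lt_pow hb0 hQ1
  have hneP := FiniteField.X_pow_card_sub_X_ne_zero (AdjoinRoot j) hQb
  have hsub : (Finset.univ : Finset (AdjoinRoot j)).val ⊆ (X ^ (Fintype.card F ^ b) - X : (AdjoinRoot j)[X]).roots := by
    intro a _
    rw [Polynomial.mem_roots hneP]
    simp [Polynomial.IsRoot, hall a]
  have h6 := Polynomial.card_le_degree_of_subset_roots hsub
  rw [FiniteField.X_pow_card_sub_X_natDegree_eq (AdjoinRoot j) hQb, Finset.card_univ, hcard] at h6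
  have h7 := (Nat.pow_le_pow_iff_right hQ1).1 h6
  omega

theorem ord_pow {q r v : ℕ} [Fact r.Prime] (hq : 1 ≤ q) (hv : v ≠ 0) (h : r ^ v ∣ q ^ orderOf (q : ZMod r) - 1) :
    orderOf (q : ZMod (r ^ v)) = orderOf (q : ZMod r) := by
  apply Nat.dvd_antisymm
  · apply orderOf_dvd_of_pow_eq_one
    have h3 := (ZMod.natCast_eq_zero_iff _ _).2 h
    rw [Nat.cast_sub (Nat.one_le_pow _ _ hq), Nat.cast_pow, Nat.cast_one, sub_eq_zero] at h3
    exact h3
  · have h4 : (q : ZMod (r ^ v)) ^ orderOf (q : ZMod (r ^ v)) = 1 := pow_orderOf_eq_one _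
    have h5 : r ^ v ∣ q ^ orderOf (q : ZMod (r ^ v)) - 1 := by
      rw [← ZMod.natCast_eq_zero_iff, Nat.cast_sub (Nat.one_le_pow _ _ hq), Nat.cast_pow, Nat.cast_one, h4, sub_self]
    have h6 : r ∣ q ^ orderOf (q : ZMod (r ^ v)) - 1 := (dvd_pow_self r hv).trans h5
    exact (r_dvd_iff hq).1 h6

theorem order_T {W : Type u} [AddCommGroup W] [Module F W] [FiniteDimensional F W] {T : W →ₗ[F] W} {k r v : ℕ} [Fact r.Prime]
    (hrF : (r : F) ≠ 0) (hk0 : (k : F) ≠ 0) (hk : T ^ k = 1) (hv : v ≠ 0)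
    (hfac : ∀ g : F[X], g.Monic → Irreducible g → g ∣ T.charpoly → g ∣ X ^ (r ^ v) - 1) {M : F[X]} (hMi : Irreducible M)
    (hMT : M ∣ T.charpoly) (hMd : M ∣ cyclotomic (r ^ v) F) :
    T ^ (r ^ v) = 1 ∧ orderOf T = r ^ v := by
  classical
  have hr : r.Prime := Fact.out
  obtain ⟨v, rfl⟩ : ∃ w, v = w + 1 := ⟨v - 1, by omega⟩
  obtain ⟨b, hb⟩ : ∃ b, b = Module.finBasis F W := ⟨_, rfl⟩
  obtain ⟨φ, hφ⟩ : ∃ φ, φ = LinearMap.toMatrixAlgEquiv b := ⟨_, rfl⟩
  have hcp : (φ T).charpoly = T.charpoly := by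
    rw [hφ]
    exact LinearMap.charpoly_toMatrix T b
  have hAk : φ T ^ k = 1 := by
    rw [← map_pow, hk, map_one]
  have h1 : φ T ^ (r ^ (v + 1)) = 1 := pow_eq_one_of_dvd hk0 hAk _ (fun g hgm hgi hgd => hfac g hgm hgi (by rwa [hcp] at hgd))
  have hT : T ^ (r ^ (v + 1)) = 1 := by
    apply φ.injective
    rw [map_pow, h1, map_one]
  refine ⟨hT, orderOf_eq_prime_pow (fun h => ?_) hT⟩
  have h2 : φ T ^ (r ^ v) = 1 := by
    rw [← map_pow, h, map_one]
  have hrv : ((r ^ v : ℕ) : F) ≠ 0 := by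
    rw [Nat.cast_pow]
    exact pow_ne_zero _ hrF
  have h3 : M ∣ X ^ (r ^ v) - 1 := dvd_of_pow_eq_one hrv h2 hMi (by rwa [hcp])
  haveI : Fact (Irreducible M) := ⟨hMi⟩
  have hrv' : ((r ^ (v + 1) : ℕ) : F) ≠ 0 := by
    rw [Nat.cast_pow]
    exact pow_ne_zero _ hrF
  have hprim := root_prim hrv' hMi hMd
  have h4 : AdjoinRoot.root M ^ (r ^ v) = 1 := by
    have h5 : AdjoinRoot.mk M (X ^ (r ^ v) - 1) = 0 := AdjoinRoot.mk_eq_zero.2 h3
    rw [map_sub, map_pow, AdjoinRoot.mk_X, map_one, sub_eq_zero] at h5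
    exact h5
  have h6 := hprim.dvd_of_pow_eq_one _ h4
  have h7 := Nat.le_of_dvd (pow_pos hr.pos v) h6
  have h8 : r ^ v < r ^ (v + 1) := Nat.pow_lt_pow_right hr.one_lt (by omega)
  omega

/-- An isometry of order `r ^ v` on a symplectic space of dimension `2 e`. -/
theorem exists_block (p : ℕ) [Fact p.Prime] [CharP F p] {r v : ℕ} [Fact r.Prime] (hr2 : r ≠ 2) (hv : v ≠ 0) (hrF : (r : F) ≠ 0)
    (hrq : ¬ r ∣ Fintype.card F)
    (hdvd : r ^ v ∣ Fintype.card F ^ orderOf ((Fintype.card F : ℕ) : ZMod r) - 1) :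
    ∃ (W : Type u) (_ : AddCommGroup W) (_ : Module F W) (_ : FiniteDimensional F W)
      (B : LinearMap.BilinForm F W) (T : W →ₗ[F] W), B.IsAlt ∧ B.Nondegenerate ∧ (∀ x y, B (T x) (T y) = B x y) ∧
      T ^ (r ^ v) = 1 ∧ orderOf T = r ^ v ∧
      finrank F W = 2 * (if Even (orderOf ((Fintype.card F : ℕ) : ZMod r)) then orderOf ((Fintype.card F : ℕ) : ZMod r) / 2 else orderOf ((Fintype.card F : ℕ) : ZMod r)) := by
  classical
  have hr : r.Prime := Fact.out
  obtain ⟨q, hq⟩ : ∃ q, q = Fintype.card F := ⟨_, rfl⟩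
  rw [← hq] at hrq hdvd ⊢
  have hq1 : 1 < q := by
    rw [hq]
    exact Fintype.one_lt_card
  have hdp := d_pos (q := q) (r := r) hrq
  obtain ⟨d, hd⟩ : ∃ d, d = orderOf (q : ZMod r) := ⟨_, rfl⟩
  rw [← hd] at hdvd hdp ⊢
  obtain ⟨m, hm⟩ : ∃ m, m = r ^ v := ⟨_, rfl⟩
  rw [← hm] at hdvd ⊢
  have hm0 : m ≠ 0 := by
    rw [hm]
    exact pow_ne_zero _ hr.ne_zero
  have hmF : (m : F) ≠ 0 := by
    rw [hm, Nat.cast_pow]
    exact pow_ne_zero _ hrF
  have hnu : ¬ IsUnit (cyclotomic m F) := by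
    intro hu
    have h1 := natDegree_eq_zero_of_isUnit hu
    rw [natDegree_cyclotomic] at h1
    exact (Nat.totient_pos.2 (Nat.pos_of_ne_zero hm0)).ne' h1
  obtain ⟨M, hMm, hMi, hMd⟩ := Polynomial.exists_monic_irreducible_factor _ hnu
  have hMX : M ∣ X ^ m - 1 := hMd.trans (cyclotomic.dvd_X_pow_sub_one m F)
  have h0 : M.coeff 0 ≠ 0 := coeff_zero_ne_of_dvd hm0 hMX
  have hdeg : M.natDegree = d := by
    have h3 : r ^ v ∣ q ^ orderOf (q : ZMod r) - 1 := by
      rw [← hm, ← hd]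
      exact hdvd
    rw [natDegree_of_cyc hm0 hmF hMi hMm hMd, ← hq, hm, ord_pow hq1.le hv h3, hd]
  have hσ : ∀ x : F, RingHom.id F (RingHom.id F x) = x := fun x => rfl
  have hσ1 : RingHom.id F (-1) = -1 := rfl
  by_cases hev : Even d
  · rw [if_pos hev]
    obtain ⟨e, he⟩ := hev
    have hdiv : (e + e) / 2 = e := by omega
    rw [he, hdiv]
    have he0 : 0 < e := by omega
    -- the polynomial is self dual
    have hfix : Dl (RingHom.id F) M = M := by
      haveI : Fact (Irreducible M) := ⟨hMi⟩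
      haveI : Module.Finite F (AdjoinRoot M) := hMm.finite_adjoinRoot
      haveI : Finite (AdjoinRoot M) := Module.finite_of_finite F
      haveI : Fintype (AdjoinRoot M) := Fintype.ofFinite _
      have hprim := root_prim hmF hMi hMd
      obtain ⟨θ, hθ⟩ : ∃ θ, θ = AdjoinRoot.root M := ⟨_, rfl⟩
      rw [← hθ] at hprim
      have hθ0 : θ ≠ 0 := hprim.ne_zero hm0
      have hx1 : 1 ≤ q ^ e := Nat.one_le_pow _ _ (by omega)
      have hfac : q ^ d - 1 = (q ^ e + 1) * (q ^ e - 1) := by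
        have h1 := Nat.sq_sub_sq (q ^ e) 1
        rw [he, ← two_mul, mul_comm 2 e, pow_mul]
        simpa using h1
      have hnd : ¬ r ∣ q ^ e - 1 := by
        rw [r_dvd_iff (by omega), ← hd]
        intro h1
        have := Nat.le_of_dvd he0 h1
        omega
      have hco : Nat.Coprime m (q ^ e - 1) := by
        rw [hm]
        exact Nat.Coprime.pow_left _ ((Nat.Prime.coprime_iff_not_dvd hr).2 hnd)
      have hdv : m ∣ q ^ e + 1 := by
        rw [hfac] at hdvd
        exact hco.dvd_of_dvd_mul_right hdvd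
      have hinv : θ ^ (q ^ e) = θ⁻¹ := by
        have h2 : θ ^ (q ^ e + 1) = 1 := by
          obtain ⟨c, hc⟩ := hdv
          rw [hc, pow_mul, hprim.pow_eq_one, one_pow]
        rw [pow_succ] at h2
        exact eq_inv_of_mul_eq_one_left h2
      have hroot : aeval θ M = 0 := by
        rw [hθ]
        exact aeval_root_eq M
      have h1 : aeval θ⁻¹ M = 0 := by
        have h2 := aeval_frob (F := F) hroot e
        rw [← hq, hinv] at h2
        exact h2
      have h2 : aeval θ⁻¹ (Dl (RingHom.id F) M) = 0 :=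
        aeval_Dl_inv (σ := RingHom.id F) (RingHom.id (AdjoinRoot M)) (fun x => rfl) hθ0 hroot
      exact (minpoly.eq_of_irreducible_of_monic (irreducible_Dl hσ hMm h0 hMi) h2 (monic_Dl h0)).trans
        (minpoly.eq_of_irreducible_of_monic hMi h1 hMm).symm
    have hdeg2 : 2 ≤ M.natDegree := by omega
    obtain ⟨W, _, _, _, B, T, k, hA, hN, hI, hk, hc, hch⟩ := Rz_field (p := p) hMm hMi hfix hdeg2
    have hk0 : (k : F) ≠ 0 := cast_ne_of_coprime p hc
    obtain ⟨hT1, hT2⟩ := order_T hrF hk0 hk hv (M := M) (fun g hgm hgi hgd => by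
      rw [hch] at hgd
      rw [← hm]
      exact hgd.trans hMX) hMi (by rw [hch]) (by rw [← hm]; exact hMd)
    refine ⟨W, inferInstance, inferInstance, inferInstance, B, T, hA, hN, hI, ?_, ?_, ?_⟩
    · rw [hm]
      exact hT1
    · rw [hm]
      exact hT2
    · rw [← LinearMap.charpoly_natDegree T, hch, hdeg, he]
      ring
  · rw [if_neg hev]
    obtain ⟨W, _, _, _, B, T, k, hA, hN, hI, hk, hc, hch⟩ := Rz_hyper (p := p) hMm h0
    have hk0 : (k : F) ≠ 0 := cast_ne_of_coprime p hc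
    have hDX : Dl (RingHom.id F) M ∣ X ^ m - 1 := by
      obtain ⟨c, hc⟩ := hMX
      rw [← Dl_X_pow_sub_one (σ := RingHom.id F) hm0 hσ1, hc, Dl_mul]
      exact dvd_mul_right _ _
    obtain ⟨hT1, hT2⟩ := order_T hrF hk0 hk hv (M := M) (fun g hgm hgi hgd => by
      rw [hch] at hgd
      rw [← hm]
      rcases hgi.prime.dvd_or_dvd hgd with h | h
      · exact h.trans hMX
      · exact h.trans hDX) hMi (by rw [hch]; exact dvd_mul_right _ _) (by rw [← hm]; exact hMd)
    refine ⟨W, inferInstance, inferInstance, inferInstance, B, T, hA, hN, hI, ?_, ?_, ?_⟩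
    · rw [hm]
      exact hT1
    · rw [hm]
      exact hT2
    · rw [← LinearMap.charpoly_natDegree T, hch, Monic.natDegree_mul hMm (monic_Dl h0), natDegree_Dl h0, hdeg]
      ring

end cyc

section hom

universe u

variable {F : Type u} [Field F]

theorem exists_hom_sp {n : ℕ} {V : Type*} [AddCommGroup V] [Module F V] [FiniteDimensional F V]
    (B : LinearMap.BilinForm F V) (hA : B.IsAlt) (hN : B.Nondegenerate) (hd : finrank F V = 2 * n)
    {G : Type*} [Monoid G] (ψ : G →* Module.End F V) (hψ : ∀ g x y, B (ψ g x) (ψ g y) = B x y) :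
    ∃ Φ : G →* ↥(Matrix.symplecticGroup (Fin n) F), (Function.Injective ψ → Function.Injective Φ) := by
  classical
  have hfr : finrank F V = finrank F (Fin n ⊕ Fin n → F) := by
    rw [hd, Module.finrank_fintype_fun_eq_card, Fintype.card_sum, Fintype.card_fin]
    ring
  obtain ⟨φ, hφ⟩ := Cfsg.Agent.Lib.SemisimpleSp.alt_isometry B (Cfsg.Agent.Lib.SemisimpleSp.bform (Matrix.J (Fin n) F)) hA
    Cfsg.Agent.Lib.RegSp2.halt_J hN Cfsg.Agent.Lib.RegSp2.hnd_J hfr
  let T' : G → Module.End F (Fin n ⊕ Fin n → F) := fun g => φ.toLinearMap ∘ₗ ψ g ∘ₗ φ.symm.toLinearMap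
  have hT'v : ∀ g v, T' g v = φ (ψ g (φ.symm v)) := fun g v => rfl
  let γ : G → Matrix (Fin n ⊕ Fin n) (Fin n ⊕ Fin n) F := fun g => LinearMap.toMatrix' (T' g)
  have hγv : ∀ g v, (γ g).mulVec v = T' g v := fun g v => LinearMap.toMatrix'_mulVec _ _
  have hγm : ∀ g, γ g ∈ Matrix.symplecticGroup (Fin n) F := fun g =>
    Cfsg.Agent.Lib.SpBasic.mem_symplecticGroup_iff.mpr fun x y => by
      rw [hγv, hγv, hT'v, hT'v]
      have e : ∀ a b : Fin n ⊕ Fin n → F, Cfsg.Agent.Lib.SpBasic.ω a b = Cfsg.Agent.Lib.SemisimpleSp.bform (Matrix.J (Fin n) F) a b := by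
        intro a b
        rw [Cfsg.Agent.Lib.SemisimpleSp.bform_apply]
        rfl
      rw [e, e, hφ, hψ, ← hφ, φ.apply_symm_apply, φ.apply_symm_apply]
  have hT1 : T' 1 = LinearMap.id := by
    apply LinearMap.ext
    intro v
    rw [hT'v, map_one]
    simp
  have hTmul : ∀ g h, T' (g * h) = T' g ∘ₗ T' h := by
    intro g h
    apply LinearMap.ext
    intro v
    change φ (ψ (g * h) (φ.symm v)) = φ (ψ g (φ.symm (φ (ψ h (φ.symm v)))))
    rw [map_mul, φ.symm_apply_apply]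
    rfl
  refine ⟨⟨⟨fun g => ⟨γ g, hγm g⟩, ?_⟩, ?_⟩, ?_⟩
  · apply Subtype.ext
    change LinearMap.toMatrix' (T' 1) = 1
    rw [hT1, LinearMap.toMatrix'_id]
  · intro g h
    apply Subtype.ext
    change LinearMap.toMatrix' (T' (g * h)) = LinearMap.toMatrix' (T' g) * LinearMap.toMatrix' (T' h)
    rw [hTmul, LinearMap.toMatrix'_comp]
  · intro hinj g h hgh
    apply hinj
    have h1 : γ g = γ h := congrArg Subtype.val hgh
    have h2 : T' g = T' h := LinearMap.toMatrix'.injective h1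
    apply LinearMap.ext
    intro v
    have h3 := LinearMap.congr_fun h2 (φ v)
    rw [hT'v, hT'v, φ.symm_apply_apply] at h3
    exact φ.injective h3

theorem exists_blocks {W : Type u} [AddCommGroup W] [Module F W] [FiniteDimensional F W] (B₀ : LinearMap.BilinForm F W)
    (hA₀ : B₀.IsAlt) (hN₀ : B₀.Nondegenerate) (T : W →ₗ[F] W) (hI : ∀ x y, B₀ (T x) (T y) = B₀ x y) {m : ℕ} [NeZero m]
    (hTm : T ^ m = 1) (hord : orderOf T = m) (a t : ℕ) :
    ∃ (V : Type u) (_ : AddCommGroup V) (_ : Module F V) (_ : FiniteDimensional F V) (B : LinearMap.BilinForm F V)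
      (ψ : (Fin a → Multiplicative (ZMod m)) →* Module.End F V), B.IsAlt ∧ B.Nondegenerate ∧
      finrank F V = a * finrank F W + 2 * t ∧ (∀ g x y, B (ψ g x) (ψ g y) = B x y) ∧ Function.Injective ψ := by
  classical
  obtain ⟨pw, hpw⟩ : ∃ pw : Multiplicative (ZMod m) → Module.End F W, pw = fun x => T ^ (Multiplicative.toAdd x).val := ⟨_, rfl⟩
  have hpwv : ∀ x, pw x = T ^ (Multiplicative.toAdd x).val := fun x => by rw [hpw]
  have hpw1 : pw 1 = 1 := by
    rw [hpwv, toAdd_one, ZMod.val_zero, pow_zero]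
  have hpwm : ∀ x y, pw (x * y) = pw x * pw y := by
    intro x y
    rw [hpwv, hpwv, hpwv, toAdd_mul, ZMod.val_add, ← pow_add, ← pow_eq_pow_mod _ hTm]
  have hpwI : ∀ x u v, B₀ (pw x u) (pw x v) = B₀ u v := by
    intro x
    rw [hpwv]
    induction (Multiplicative.toAdd x).val with
    | zero =>
      intro u v
      rfl
    | succ k ih =>
      intro u v
      rw [pow_succ, Module.End.mul_apply, Module.End.mul_apply, ih, hI]
  let B₁ : LinearMap.BilinForm F (Fin a → W) := ∑ i : Fin a, B₀.compl₁₂ (LinearMap.proj i) (LinearMap.proj i)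
  have hB₁ : ∀ u v, B₁ u v = ∑ i, B₀ (u i) (v i) := by
    intro u v
    simp [B₁, LinearMap.sum_apply]
  let B₂ := Cfsg.Agent.Lib.SemisimpleSp.bform (Matrix.J (Fin t) F)
  have hA₂ : B₂.IsAlt := Cfsg.Agent.Lib.RegSp2.halt_J
  have hN₂ : B₂.Nondegenerate := Cfsg.Agent.Lib.RegSp2.hnd_J
  let B : LinearMap.BilinForm F ((Fin a → W) × (Fin t ⊕ Fin t → F)) :=
    B₁.compl₁₂ (LinearMap.fst F _ _) (LinearMap.fst F _ _) + B₂.compl₁₂ (LinearMap.snd F _ _) (LinearMap.snd F _ _)
  have hB : ∀ u v, B u v = B₁ u.1 v.1 + B₂ u.2 v.2 := fun u v => rfl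
  have hsingle : ∀ (x : Fin a → W) (i : Fin a) (z : W), B₁ x (Pi.single i z) = B₀ (x i) z := by
    intro x i z
    rw [hB₁, Finset.sum_eq_single i]
    · rw [Pi.single_eq_same]
    · intro b _ hb
      rw [Pi.single_eq_of_ne hb, map_zero]
    · simp
  have hsingle' : ∀ (x : Fin a → W) (i : Fin a) (z : W), B₁ (Pi.single i z) x = B₀ z (x i) := by
    intro x i z
    rw [hB₁, Finset.sum_eq_single i]
    · rw [Pi.single_eq_same]
    · intro b _ hb
      rw [Pi.single_eq_of_ne hb, map_zero, LinearMap.zero_apply]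
    · simp
  let ψ₀ : (Fin a → Multiplicative (ZMod m)) → Module.End F ((Fin a → W) × (Fin t ⊕ Fin t → F)) := fun g =>
    (LinearMap.pi fun i => pw (g i) ∘ₗ LinearMap.proj i).prodMap LinearMap.id
  have hψ₀ : ∀ g x, ψ₀ g x = (fun i => pw (g i) (x.1 i), x.2) := fun g x => rfl
  let ψ : (Fin a → Multiplicative (ZMod m)) →* Module.End F ((Fin a → W) × (Fin t ⊕ Fin t → F)) :=
    { toFun := ψ₀
      map_one' := by
        apply LinearMap.ext
        intro x
        rw [hψ₀]
        simp [hpw1]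
      map_mul' := by
        intro g h
        apply LinearMap.ext
        intro x
        rw [hψ₀, Module.End.mul_apply, hψ₀, hψ₀]
        simp [hpwm] }
  refine ⟨_, inferInstance, inferInstance, inferInstance, B, ψ, ?_, ?_, ?_, ?_, ?_⟩
  · intro x
    rw [hB, hB₁, hA₂, add_zero]
    exact Finset.sum_eq_zero fun i _ => hA₀ _
  · constructor
    · rintro ⟨x, y⟩ h
      have h1 : x = 0 := by
        funext i
        exact hN₀.1 _ fun z => by
          have := h (Pi.single i z, 0)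
          rw [hB] at this
          simpa [hsingle] using this
      have h2 : y = 0 := hN₂.1 y fun z => by
        have := h (0, z)
        rw [hB] at this
        simpa using this
      rw [h1, h2]
      rfl
    · rintro ⟨x, y⟩ h
      have h1 : x = 0 := by
        funext i
        exact hN₀.2 _ fun z => by
          have := h (Pi.single i z, 0)
          rw [hB] at this
          simpa [hsingle'] using this
      have h2 : y = 0 := hN₂.2 y fun z => by
        have := h (0, z)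
        rw [hB] at this
        simpa using this
      rw [h1, h2]
      rfl
  · rw [Module.finrank_prod, Module.finrank_pi_fintype, Module.finrank_fintype_fun_eq_card]
    simp
    ring
  · intro g x y
    change B (ψ₀ g x) (ψ₀ g y) = _
    rw [hB, hB, hψ₀, hψ₀, hB₁, hB₁]
    congr 1
    exact Finset.sum_congr rfl fun i _ => hpwI _ _ _
  · intro g h hgh
    funext i
    have hm0 : m ≠ 0 := NeZero.ne m
    have h1 : pw (g i) = pw (h i) := by
      apply LinearMap.ext
      intro z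
      have h2 := LinearMap.congr_fun hgh (Pi.single i z, 0)
      have h3 : ψ₀ g (Pi.single i z, 0) = ψ₀ h (Pi.single i z, 0) := h2
      rw [hψ₀, hψ₀] at h3
      have h4 := congrFun (congrArg Prod.fst h3) i
      simpa using h4
    rw [hpwv, hpwv] at h1
    let u : (Module.End F W)ˣ := Units.ofPowEqOne T m hTm hm0
    have hu : orderOf u = m := by
      rw [← hord, ← orderOf_units]
      rfl
    have h2 : u ^ (Multiplicative.toAdd (g i)).val = u ^ (Multiplicative.toAdd (h i)).val := Units.ext (by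
      rw [Units.val_pow_eq_pow_val, Units.val_pow_eq_pow_val]
      exact h1)
    have hx : (Multiplicative.toAdd (g i)).val ∈ Set.Iio (orderOf u) := by
      rw [hu]
      exact ZMod.val_lt _
    have hy : (Multiplicative.toAdd (h i)).val ∈ Set.Iio (orderOf u) := by
      rw [hu]
      exact ZMod.val_lt _
    have h3 := pow_injOn_Iio_orderOf hx hy h2
    exact Multiplicative.toAdd.injective (ZMod.val_injective m h3)

end hom

section final

variable {q r : ℕ} [hrp : Fact r.Prime]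

theorem val_factor (hr2 : r ≠ 2) (hq : 2 ≤ q) (hrq : ¬ r ∣ q) {i n : ℕ} (hin : i < n) (hrn : n < r) :
    padicValNat r (q ^ (2 * (i + 1)) - 1) =
      if orderOf (q : ZMod r) ∣ 2 * (i + 1) then padicValNat r (q ^ orderOf (q : ZMod r) - 1) else 0 := by
  have hr : r.Prime := Fact.out
  split_ifs with h
  · refine val_pow hr2 hq hrq (by omega) h fun hk => ?_
    have h1 : r ∣ 2 * (i + 1) := hk.trans (Nat.div_dvd_of_dvd h)
    rcases (Nat.Prime.dvd_mul hr).1 h1 with h2 | h2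
    · exact hr2 ((Nat.prime_dvd_prime_iff_eq hr Nat.prime_two).1 h2)
    · have := Nat.le_of_dvd (by omega) h2
      omega
  · apply padicValNat.eq_zero_of_not_dvd
    rw [r_dvd_iff (by omega)]
    exact h

theorem val_prod (hr2 : r ≠ 2) (hq : 2 ≤ q) (hrq : ¬ r ∣ q) {n : ℕ} (hrn : n < r) (m : ℕ) (hm : m ≤ n) :
    padicValNat r (∏ i ∈ Finset.range m, (q ^ (2 * (i + 1)) - 1)) =
      ((Finset.range m).filter fun i => orderOf (q : ZMod r) ∣ 2 * (i + 1)).card * padicValNat r (q ^ orderOf (q : ZMod r) - 1) := by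
  classical
  have hne : ∀ i, q ^ (2 * (i + 1)) - 1 ≠ 0 := by
    intro i
    have h1 : q ^ 1 ≤ q ^ (2 * (i + 1)) := Nat.pow_le_pow_right (by omega) (by omega)
    rw [pow_one] at h1
    omega
  induction m with
  | zero => simp
  | succ m ih =>
    rw [Finset.prod_range_succ, padicValNat.mul (Finset.prod_ne_zero_iff.2 fun i _ => hne i) (hne m), ih (by omega),
      val_factor hr2 hq hrq (show m < n by omega) hrn, Finset.card_filter, Finset.card_filter, Finset.sum_range_succ]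
    split_ifs with h
    · ring
    · simp

theorem factorization_Sp {F : Type*} [Field F] [Fintype F] (hr2 : r ≠ 2) (hrq : ¬ r ∣ Fintype.card F) {n : ℕ} (hrn : n < r) :
    (Nat.card ↥(Matrix.symplecticGroup (Fin n) F)).factorization r =
      ((Finset.range n).filter fun i => orderOf ((Fintype.card F : ℕ) : ZMod r) ∣ 2 * (i + 1)).card *
        padicValNat r (Fintype.card F ^ orderOf ((Fintype.card F : ℕ) : ZMod r) - 1) := by
  have hr : r.Prime := Fact.out
  have hq : 2 ≤ Fintype.card F := Fintype.one_lt_card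
  have h1 := Cfsg.Agent.Lib.SpOrder.card_Sp (F := F) n
  have h2 : Nat.card ↥(Matrix.symplecticGroup (Fin n) F) ≠ 0 := Nat.card_pos.ne'
  change Nat.card ↥(Matrix.symplecticGroup (Fin n) F) = _ at h1
  rw [Nat.factorization_def _ hr, h1]
  have hne : ∏ i ∈ Finset.range n, (Fintype.card F ^ (2 * (i + 1)) - 1) ≠ 0 := by
    intro h3
    rw [h1, h3, mul_zero] at h2
    exact h2 rfl
  have hpne : Fintype.card F ^ (n ^ 2) ≠ 0 := pow_ne_zero _ (by omega)
  rw [padicValNat.mul hpne hne, val_prod hr2 hq hrq hrn n le_rfl, padicValNat.eq_zero_of_not_dvd, zero_add]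
  exact fun h => hrq (hr.dvd_of_dvd_pow h)

theorem card_filter_eq (d e n : ℕ) (h : ∀ i, d ∣ 2 * i ↔ e ∣ i) :
    ((Finset.Icc 1 n).filter fun i => d ∣ 2 * i).card = n / e ∧
    ((Finset.range n).filter fun i => d ∣ 2 * (i + 1)).card = n / e := by
  have h1 : ((Finset.range n).filter fun i => d ∣ 2 * (i + 1)).card = n / e := by
    rw [← Nat.card_multiples]
    congr 1
    ext i
    simp only [Finset.mem_filter, Finset.mem_range, h]
  refine ⟨?_, h1⟩
  rw [← h1]
  refine Finset.card_nbij' (fun x => x - 1) (fun x => x + 1) ?_ ?_ ?_ ?_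
  · intro x hx
    have hx' := Finset.mem_filter.1 (Finset.mem_coe.1 hx)
    have hx1 := Finset.mem_Icc.1 hx'.1
    have hx2 : x - 1 < n := by omega
    refine Finset.mem_coe.2 (Finset.mem_filter.2 ⟨Finset.mem_range.2 hx2, ?_⟩)
    change d ∣ 2 * (x - 1 + 1)
    rw [Nat.sub_add_cancel hx1.1]
    exact hx'.2
  · intro x hx
    have hx' := Finset.mem_filter.1 (Finset.mem_coe.1 hx)
    have hx1 := Finset.mem_range.1 hx'.1
    have hx2 : 1 ≤ x + 1 := by omega
    have hx3 : x + 1 ≤ n := by omega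
    exact Finset.mem_coe.2 (Finset.mem_filter.2 ⟨Finset.mem_Icc.2 ⟨hx2, hx3⟩, hx'.2⟩)
  · intro x hx
    have hx' := Finset.mem_filter.1 (Finset.mem_coe.1 hx)
    have hx1 := Finset.mem_Icc.1 hx'.1
    exact Nat.sub_add_cancel hx1.1
  · intro x _
    rfl

end final

/-- Sylow subgroups of `Sp_{2n}(q)` for large primes. Let `F` be a field with `q` elements and `r` an odd prime with `r > n` and `r ∤ q` (so `r` does not divide the order `2^n n!` of the Weyl group). Let `d` be the multiplicative order of `q` modulo `r`, `a` the number of `i` with `1 ≤ i ≤ n` and `d ∣ 2i` (the degrees being `2, 4, …, 2n`), and `m` the `r`-part of the value at `q` of the `d`-th cyclotomic polynomial. Then every Sylow `r`-subgroup of the symplectic group `Sp_{2n}(q)` is a direct product of `a` cyclic groups of order `m`. -/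
theorem result {F : Type*} [Field F] [Fintype F] {q : ℕ} (hq : Fintype.card F = q) (n : ℕ)
    (r : ℕ) [Fact r.Prime] (hr2 : r ≠ 2) (hrn : n < r) (hrq : ¬ r ∣ q) (P : Sylow r ↥(Matrix.symplecticGroup (Fin n) F)) :
    Nonempty (↥(P : Subgroup ↥(Matrix.symplecticGroup (Fin n) F)) ≃*
      (Fin ((Finset.Icc 1 n).filter (fun i => orderOf (q : ZMod r) ∣ 2 * i)).card →
        Multiplicative (ZMod (r ^ padicValNat r ((Polynomial.cyclotomic (orderOf (q : ZMod r)) ℤ).eval (q : ℤ)).natAbs)))) := by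
  classical
  subst hq
  have hr : r.Prime := Fact.out
  obtain ⟨p, hchar⟩ := CharP.exists F
  haveI : Fact p.Prime := ⟨CharP.char_is_prime F p⟩
  have hq2 : 2 ≤ Fintype.card F := Fintype.one_lt_card
  have hrF : (r : F) ≠ 0 := by
    intro h
    have h1 : p ∣ r := (CharP.cast_eq_zero_iff F p r).1 h
    have h2 : p ∣ Fintype.card F := (CharP.cast_eq_zero_iff F p _).1 (Nat.cast_card_eq_zero F)
    have h3 : p = r := (Nat.prime_dvd_prime_iff_eq (Fact.out) hr).1 h1
    rw [h3] at h2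
    exact hrq h2
  have hdp := d_pos (q := Fintype.card F) (r := r) hrq
  have hval := val_cyclo (q := Fintype.card F) (r := r) hq2 hrq
  obtain ⟨a, ha⟩ : ∃ a, a = ((Finset.Icc 1 n).filter (fun i => orderOf ((Fintype.card F : ℕ) : ZMod r) ∣ 2 * i)).card := ⟨_, rfl⟩
  rw [← ha, ← hval]
  have hfac := factorization_Sp (F := F) hr2 hrq hrn
  obtain ⟨d, hd⟩ : ∃ d, d = orderOf ((Fintype.card F : ℕ) : ZMod r) := ⟨_, rfl⟩
  rw [← hd] at ha hdp hfac ⊢
  obtain ⟨v, hv⟩ : ∃ v, v = padicValNat r (Fintype.card F ^ d - 1) := ⟨_, rfl⟩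
  rw [← hv] at hfac ⊢
  have hqd : 2 ≤ Fintype.card F ^ d := by
    calc 2 ≤ Fintype.card F := hq2
      _ = Fintype.card F ^ 1 := (pow_one _).symm
      _ ≤ Fintype.card F ^ d := Nat.pow_le_pow_right (by omega) hdp
  have hrd : r ∣ Fintype.card F ^ d - 1 := (r_dvd_iff (by omega)).2 (by rw [hd])
  have hv0 : v ≠ 0 := by
    have h1 := one_le_padicValNat_of_dvd (p := r) (n := Fintype.card F ^ d - 1) (by omega) hrd
    omega
  have hdvd : r ^ v ∣ Fintype.card F ^ d - 1 := by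
    rw [hv]
    exact pow_padicValNat_dvd
  obtain ⟨e, he⟩ : ∃ e, e = if Even d then d / 2 else d := ⟨_, rfl⟩
  have hepos : 0 < e := by
    rw [he]
    split_ifs with h
    · obtain ⟨c, hc⟩ := h
      omega
    · exact hdp
  have hiff : ∀ i, d ∣ 2 * i ↔ e ∣ i := by
    intro i
    rw [he]
    split_ifs with h
    · obtain ⟨c, rfl⟩ := h
      have hc : (c + c) / 2 = c := by omega
      rw [hc, ← two_mul]
      exact Nat.mul_dvd_mul_iff_left (by norm_num)
    · rw [Nat.not_even_iff_odd] at h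
      have hco : Nat.Coprime d 2 := Nat.Coprime.symm (Nat.coprime_two_left.2 h)
      exact ⟨fun h1 => hco.dvd_of_dvd_mul_left h1, fun h1 => h1.mul_left 2⟩
  obtain ⟨hc1, hc2⟩ := card_filter_eq d e n hiff
  rw [← ha] at hc1
  rw [hc2] at hfac
  rw [← hc1] at hfac
  have hae : a * e ≤ n := by
    rw [hc1]
    exact Nat.div_mul_le_self n e
  obtain ⟨W, _, _, _, B₀, T, hA₀, hN₀, hI, hTm, hord, hWd⟩ := exists_block p hr2 hv0 hrF hrq (by
    rw [← hd]
    exact hdvd)
  rw [← hd, ← he] at hWd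
  haveI : NeZero (r ^ v) := ⟨pow_ne_zero _ hr.ne_zero⟩
  obtain ⟨V, _, _, _, B, ψ, hA, hN, hVd, hψ, hinj⟩ := exists_blocks B₀ hA₀ hN₀ T hI hTm hord a (n - a * e)
  have hVd' : Module.finrank F V = 2 * n := by
    rw [hVd, hWd]
    have h1 : a * (2 * e) = 2 * (a * e) := by ring
    rw [h1]
    omega
  obtain ⟨Φ, hΦ⟩ := exists_hom_sp B hA hN hVd' ψ hψ
  have hΦi := hΦ hinj
  have hcardG : Nat.card (Fin a → Multiplicative (ZMod (r ^ v))) = r ^ (a * v) := by
    rw [Nat.card_fun, Nat.card_eq_fintype_card (α := Fin a), Fintype.card_fin, Nat.card_congr Multiplicative.toAdd, Nat.card_zmod,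
      ← pow_mul, mul_comm]
  have hK : Nat.card ↥Φ.range = r ^ (Nat.card ↥(Matrix.symplecticGroup (Fin n) F)).factorization r := by
    rw [hfac, ← hcardG]
    exact Nat.card_congr (MonoidHom.ofInjective hΦi).toEquiv.symm
  let Q : Sylow r ↥(Matrix.symplecticGroup (Fin n) F) := Sylow.ofCard Φ.range hK
  exact ⟨(Sylow.equiv P Q).trans (MonoidHom.ofInjective hΦi).symm⟩

end Cfsg.Agent.S2381
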