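import Cfsg.Statements.S2383
import Cfsg.Agent.Lib.CRCount50

set_option autoImplicit false
open Cfsg

namespace Cfsg.Agent.S2383

/-- Steinberg's count of semisimple classes in characteristic 2 for the types B₂, D₄, E₇, where the finite simply connected group has trivial centre and so coincides with the Chevalley group: for the Chevalley group of type B₂, D₄ or E₇ over a field with `q` elements of characteristic 2, the conjugacy classes of elements of odd order number exactly `q^l`, `l` the rank. -/
theorem result {F : Type*} [Field F] [Fintype F] {q : ℕ} (hq : Fintype.card F = q) [CharP F 2]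
    (D : Cfsg.Lie.ChevalleyDatum) (hD : D ∈ [Cfsg.Lie.chevB2, Cfsg.Lie.chevD4, Cfsg.Lie.chevE7]) :
    Nat.card {c : ConjClasses ↥(D.group F) // ∃ g : ↥(D.group F), ConjClasses.mk g = c ∧ Odd (orderOf g)} = q ^ D.rank := by
  subst hq
  simp only [List.mem_cons, List.not_mem_nil, or_false] at hD
  obtain ⟨T, X, R, hF, hpos⟩ := Cfsg.Agent.Lib.CRChev50.exists_full_pos D (by
    rcases hD with rfl | rfl | rfl <;> simp)
  have hodd : Nat.gcd 2 (Fintype.card F - 1) = 1 := by
    obtain ⟨n, _, hn⟩ := FiniteField.card F 2
    have h1 : 2 ∣ Fintype.card F := by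
      rw [hn]
      exact dvd_pow_self _ n.ne_zero
    have h2 : 1 < Fintype.card F := Fintype.one_lt_card
    have h3 : Odd (Fintype.card F - 1) := by
      rw [Nat.odd_iff]
      omega
    exact (Nat.coprime_two_left.2 h3)
  have key := Cfsg.Agent.Lib.CRChev50.card_reg hF hpos (F := F) 2 (by
    rcases hD with rfl | rfl | rfl
    · have := Cfsg.Agent.Lib.Chev.Full.torus_card_B2 (F := F) hF
      rw [hodd] at this
      simpa using this
    · have := Cfsg.Agent.Lib.Chev.Full.torus_card_D4 (F := F) hF
      rw [hodd] at this
      simpa using this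
    · have := Cfsg.Agent.Lib.Chev.Full.torus_card_E7 (F := F) hF
      rw [hodd] at this
      simpa using this)
  simpa only [Nat.coprime_two_right] using key

end Cfsg.Agent.S2383
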