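import Cfsg.Statements.S2385
import Mathlib
import Cfsg.Agent.Lib.SpRealize

set_option autoImplicit false
open Cfsg

namespace Cfsg.Agent.S2385

open Polynomial Module
open Cfsg.Agent.Lib.SemisimpleGL Cfsg.Agent.Lib.SpRealize

section aux

variable {F : Type*} [Field F]

/-- The coefficients of a reciprocal polynomial. -/
noncomputable def palB (n : ℕ) (a : Fin n → F) (k : ℕ) : F :=
  if h : k = 0 then 1 else if h2 : k - 1 < n then a ⟨k - 1, h2⟩ else 0

/-- The reciprocal polynomial. -/
noncomputable def pal (n : ℕ) (a : Fin n → F) : F[X] :=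
  ∑ i ∈ Finset.range (2 * n + 1), monomial i (palB n a (min i (2 * n - i)))

theorem coeff_pal (n : ℕ) (a : Fin n → F) (k : ℕ) :
    (pal n a).coeff k = if k ≤ 2 * n then palB n a (min k (2 * n - k)) else 0 := by
  classical
  rw [pal, finsetSum_coeff]
  simp only [coeff_monomial]
  rw [Finset.sum_ite_eq' (Finset.range (2 * n + 1)) k]
  simp only [Finset.mem_range, Nat.lt_succ_iff]

theorem pal_natDegree (n : ℕ) (a : Fin n → F) : (pal n a).natDegree = 2 * n := by
  apply natDegree_eq_of_le_of_coeff_ne_zero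
  · rw [natDegree_le_iff_coeff_eq_zero]
    intro N hN
    rw [coeff_pal, if_neg (by omega)]
  · rw [coeff_pal, if_pos le_rfl]
    have : min (2 * n) (2 * n - 2 * n) = 0 := by omega
    rw [this]
    simp [palB]

theorem pal_monic (n : ℕ) (a : Fin n → F) : (pal n a).Monic := by
  rw [Monic, leadingCoeff, pal_natDegree, coeff_pal, if_pos le_rfl]
  have : min (2 * n) (2 * n - 2 * n) = 0 := by omega
  rw [this]
  simp [palB]

theorem pal_coeff_zero (n : ℕ) (a : Fin n → F) : (pal n a).coeff 0 = 1 := by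
  rw [coeff_pal, if_pos (Nat.zero_le _)]
  have : min 0 (2 * n - 0) = 0 := by omega
  rw [this]
  simp [palB]

theorem pal_reverse (n : ℕ) (a : Fin n → F) : (pal n a).reverse = pal n a := by
  ext k
  rw [coeff_reverse, pal_natDegree]
  by_cases hk : k ≤ 2 * n
  · rw [revAt_le hk, coeff_pal, coeff_pal, if_pos (Nat.sub_le _ _), if_pos hk]
    congr 1
    omega
  · rw [revAt_eq_self_of_lt (by omega)]

theorem card_palin (n : ℕ) [Fintype F] :
    Nat.card {f : F[X] // f.Monic ∧ f.natDegree = 2 * n ∧ f.coeff 0 = 1 ∧ f.reverse = f} = Fintype.card F ^ n := by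
  classical
  have h1 : Nat.card (Fin n → F) = Fintype.card F ^ n := by
    rw [Nat.card_eq_fintype_card, Fintype.card_fun, Fintype.card_fin]
  rw [← h1]
  symm
  refine Nat.card_eq_of_bijective (fun a => ⟨pal n a, pal_monic n a, pal_natDegree n a, pal_coeff_zero n a, pal_reverse n a⟩) ⟨?_, ?_⟩
  · intro a a' h
    funext i
    have h2 : pal n a = pal n a' := congrArg Subtype.val h
    have h3 := congrArg (fun P => Polynomial.coeff P (i.val + 1)) h2
    simp only [coeff_pal] at h3
    have hi := i.2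
    rw [if_pos (by omega), if_pos (by omega)] at h3
    have h4 : min (i.val + 1) (2 * n - (i.val + 1)) = i.val + 1 := by omega
    rw [h4] at h3
    simp only [palB] at h3
    rw [dif_neg (by omega), dif_pos (by omega), dif_neg (by omega), dif_pos (by omega)] at h3
    exact h3
  · rintro ⟨f, hm, hd, h0, hrev⟩
    refine ⟨fun i => f.coeff (i.val + 1), Subtype.ext ?_⟩
    show pal n _ = f
    ext k
    rw [coeff_pal]
    by_cases hk : k ≤ 2 * n
    · rw [if_pos hk]
      have hsym : f.coeff (2 * n - k) = f.coeff k := by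
        have h2 := congrArg (fun P => Polynomial.coeff P k) hrev
        simp only [coeff_reverse, hd] at h2
        rwa [revAt_le hk] at h2
      have hmin : f.coeff (min k (2 * n - k)) = f.coeff k := by
        rcases le_total k (2 * n - k) with h | h
        · rw [min_eq_left h]
        · rw [min_eq_right h, hsym]
      rw [← hmin]
      obtain ⟨l, hl⟩ : ∃ l, l = min k (2 * n - k) := ⟨_, rfl⟩
      have hln : l ≤ n := by omega
      rw [← hl, palB]
      by_cases hl0 : l = 0
      · rw [dif_pos hl0, hl0, h0]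
      · rw [dif_neg hl0, dif_pos (by omega)]
        show f.coeff (l - 1 + 1) = f.coeff l
        rw [Nat.sub_add_cancel (by omega)]
    · rw [if_neg hk]
      symm
      apply coeff_eq_zero_of_natDegree_lt
      omega

end aux

/-- In the symplectic group `Sp_{2n}(q)`, `q` a power of the prime `p`, the number of conjugacy classes of elements of order prime to `p` is `q^n`. -/
theorem result {F : Type*} [Field F] [Fintype F] {q : ℕ} (hq : Fintype.card F = q) (p : ℕ) [Fact p.Prime] [CharP F p] (n : ℕ) :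
    Nat.card {c : ConjClasses ↥(Matrix.symplecticGroup (Fin n) F) //
      ∃ g : ↥(Matrix.symplecticGroup (Fin n) F), ConjClasses.mk g = c ∧ (orderOf g).Coprime p} = q ^ n := by
  classical
  subst hq
  rw [← card_palin n]
  symm
  have hex : ∀ f : {f : F[X] // f.Monic ∧ f.natDegree = 2 * n ∧ f.coeff 0 = 1 ∧ f.reverse = f},
      ∃ g : ↥(Matrix.symplecticGroup (Fin n) F), (orderOf g).Coprime p ∧
        (g : Matrix (Fin n ⊕ Fin n) (Fin n ⊕ Fin n) F).charpoly = f.1 :=
    fun f => exists_sp (p := p) f.2.1 f.2.2.1 f.2.2.2.1 f.2.2.2.2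
  choose elt helt hchar using hex
  refine Nat.card_eq_of_bijective (fun f => ⟨ConjClasses.mk (elt f), elt f, rfl, helt f⟩) ⟨?_, ?_⟩
  · intro f f' h
    have h1 : ConjClasses.mk (elt f) = ConjClasses.mk (elt f') := congrArg Subtype.val h
    rw [ConjClasses.mk_eq_mk_iff_isConj, isConj_iff] at h1
    obtain ⟨c, hc⟩ := h1
    apply Subtype.ext
    rw [← hchar f, ← hchar f', ← hc]
    show _ = ((c : Matrix (Fin n ⊕ Fin n) (Fin n ⊕ Fin n) F) * (elt f : Matrix (Fin n ⊕ Fin n) (Fin n ⊕ Fin n) F) *
      ((c⁻¹ : ↥(Matrix.symplecticGroup (Fin n) F)) : Matrix (Fin n ⊕ Fin n) (Fin n ⊕ Fin n) F)).charpoly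
    rw [Matrix.charpoly_mul_comm, ← mul_assoc]
    have h2 : ((c⁻¹ : ↥(Matrix.symplecticGroup (Fin n) F)) : Matrix (Fin n ⊕ Fin n) (Fin n ⊕ Fin n) F) * (c : Matrix (Fin n ⊕ Fin n) (Fin n ⊕ Fin n) F) = 1 := by
      have := congrArg Subtype.val (inv_mul_cancel c)
      exact this
    rw [h2, one_mul]
  · rintro ⟨C, g, rfl, hg⟩
    have hmonic := Matrix.charpoly_monic (g : Matrix (Fin n ⊕ Fin n) (Fin n ⊕ Fin n) F)
    have hdeg : (g : Matrix (Fin n ⊕ Fin n) (Fin n ⊕ Fin n) F).charpoly.natDegree = 2 * n := by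
      rw [Matrix.charpoly_natDegree_eq_dim, Fintype.card_sum, Fintype.card_fin, two_mul]
    refine ⟨⟨_, hmonic, hdeg, charpoly_sp_coeff g, charpoly_sp_reverse g⟩, Subtype.ext ?_⟩
    show ConjClasses.mk (elt _) = ConjClasses.mk g
    rw [ConjClasses.mk_eq_mk_iff_isConj]
    exact isConj_sp (p := p) _ _ (helt _) hg (hchar _)

end Cfsg.Agent.S2385
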