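import Cfsg.Statements.S2390
import Mathlib
import Cfsg.Agent.Lib.SUSemi

set_option autoImplicit false
open Cfsg

namespace Cfsg.Agent.S2390

/-- In the special unitary group `SU_n(q)` (inside `SL_n` over the field with `q²` elements), `q` a power of the prime `p`, two elements of order prime to `p` with the same characteristic polynomial are conjugate in `SU_n(q)`. -/
theorem result {F : Type*} [Field F] [Fintype F] {q : ℕ} (hF : Fintype.card F = q ^ 2) (p : ℕ) [Fact p.Prime] [CharP F p] (n : ℕ)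
    (g h : ↥(Cfsg.SU n F q)) (hg : (orderOf g).Coprime p) (hh : (orderOf h).Coprime p)
    (hc : ((g : Matrix.SpecialLinearGroup (Fin n) F) : Matrix (Fin n) (Fin n) F).charpoly =
      ((h : Matrix.SpecialLinearGroup (Fin n) F) : Matrix (Fin n) (Fin n) F).charpoly) : IsConj g h := by
  classical
  rcases Nat.eq_zero_or_pos n with rfl | hn
  · have : g = h := Subtype.ext (Subtype.ext (Subsingleton.elim _ _))
    rw [this]
  -- to `GU`
  let toG : ↥(Cfsg.SU n F q) → ↥(Cfsg.GU n F q) := fun u =>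
    Cfsg.Agent.Lib.UnitarySU.GUofMatrix hF ((u : Matrix.SpecialLinearGroup (Fin n) F) : Matrix (Fin n) (Fin n) F) (fun a b => u.2 a b)
  have htoG : ∀ u : ↥(Cfsg.SU n F q), (((toG u : ↥(Cfsg.GU n F q)) : GL (Fin n) F) : Matrix (Fin n) (Fin n) F) =
      ((u : Matrix.SpecialLinearGroup (Fin n) F) : Matrix (Fin n) (Fin n) F) := fun u => rfl
  have hpow : ∀ (u : ↥(Cfsg.SU n F q)) (j : ℕ), ((u : Matrix.SpecialLinearGroup (Fin n) F) : Matrix (Fin n) (Fin n) F) ^ j =
      (((u ^ j : ↥(Cfsg.SU n F q)) : Matrix.SpecialLinearGroup (Fin n) F) : Matrix (Fin n) (Fin n) F) := by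
    intro u j
    rw [Subgroup.coe_pow, Matrix.SpecialLinearGroup.coe_pow]
  have hA : ((g : Matrix.SpecialLinearGroup (Fin n) F) : Matrix (Fin n) (Fin n) F) ^ orderOf g = 1 := by
    rw [hpow, pow_orderOf_eq_one]
    rfl
  have hB : ((h : Matrix.SpecialLinearGroup (Fin n) F) : Matrix (Fin n) (Fin n) F) ^ orderOf h = 1 := by
    rw [hpow, pow_orderOf_eq_one]
    rfl
  have hm := Cfsg.Agent.Lib.SemisimpleGL.cast_ne_of_coprime (F := F) p hg
  have hm' := Cfsg.Agent.Lib.SemisimpleGL.cast_ne_of_coprime (F := F) p hh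
  obtain ⟨Y, hY, hYA⟩ := Cfsg.Agent.Lib.SemisimpleGL.mat_conj hm hm' hA hB hc
  have hcGL : IsConj ((toG g : ↥(Cfsg.GU n F q)) : GL (Fin n) F) ((toG h : ↥(Cfsg.GU n F q)) : GL (Fin n) F) := by
    refine isConj_iff.2 ⟨Matrix.GeneralLinearGroup.mkOfDetNeZero Y hY, ?_⟩
    rw [mul_inv_eq_iff_eq_mul]
    apply Units.ext
    exact hYA
  obtain ⟨c, hcc⟩ := isConj_iff.1 (Cfsg.Agent.Lib.UnitaryConjGU.isConj_GU_of_GL hF (toG g) (toG h) hcGL)
  -- the correction
  have hdc := Cfsg.Agent.Lib.UnitarySU.nrm_det hF (A := ((c : GL (Fin n) F) : Matrix (Fin n) (Fin n) F)) fun u v => c.2 u v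
  have hd0 : ((c : GL (Fin n) F) : Matrix (Fin n) (Fin n) F).det ≠ 0 := by
    intro h0
    rw [h0] at hdc
    rw [(Cfsg.Agent.Lib.HermCount.nrm_eq_zero hF).2 rfl] at hdc
    exact zero_ne_one hdc
  have hd : (((c : GL (Fin n) F) : Matrix (Fin n) (Fin n) F).det)⁻¹ ^ (q + 1) = 1 := by
    rw [inv_pow, pow_succ, mul_comm]
    have : ((c : GL (Fin n) F) : Matrix (Fin n) (Fin n) F).det * ((c : GL (Fin n) F) : Matrix (Fin n) (Fin n) F).det ^ q = 1 := hdc
    rw [this, inv_one]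
  have hgm : (toG g) ^ orderOf g = 1 := by
    apply Subtype.ext
    apply Units.ext
    have : (((toG g ^ orderOf g : ↥(Cfsg.GU n F q)) : GL (Fin n) F) : Matrix (Fin n) (Fin n) F) =
        ((g : Matrix.SpecialLinearGroup (Fin n) F) : Matrix (Fin n) (Fin n) F) ^ orderOf g := by
      rw [Subgroup.coe_pow, Units.val_pow_eq_pow_val]
      rfl
    rw [this, hA]
    rfl
  obtain ⟨z, hz1, hz2⟩ := Cfsg.Agent.Lib.SUSemi.exists_comm_det hF hn (toG g) hgm hm hd
  -- the element of `SU`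
  let σ : ↥(Cfsg.GU n F q) := c * z
  have hσdet : (((σ : ↥(Cfsg.GU n F q)) : GL (Fin n) F) : Matrix (Fin n) (Fin n) F).det = 1 := by
    show (((c : GL (Fin n) F) : Matrix (Fin n) (Fin n) F) * ((z : GL (Fin n) F) : Matrix (Fin n) (Fin n) F)).det = 1
    rw [Matrix.det_mul, hz2, mul_inv_cancel₀ hd0]
  let s : ↥(Cfsg.SU n F q) := Cfsg.Agent.Lib.UnitarySU.SUofMatrix _ hσdet (fun u v => σ.2 u v)
  refine isConj_iff.2 ⟨s, ?_⟩
  rw [mul_inv_eq_iff_eq_mul]
  have e : σ * toG g = toG h * σ := by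
    have h1 : c * toG g = toG h * c := by
      rw [← hcc]
      group
    calc σ * toG g = c * (z * toG g) := by simp only [σ, mul_assoc]
      _ = c * (toG g * z) := by rw [hz1]
      _ = (c * toG g) * z := by simp only [mul_assoc]
      _ = toG h * c * z := by rw [h1]
      _ = toG h * σ := by simp only [σ, mul_assoc]
  apply Subtype.ext
  apply Subtype.ext
  exact congrArg (fun x : ↥(Cfsg.GU n F q) => ((x : GL (Fin n) F) : Matrix (Fin n) (Fin n) F)) e

end Cfsg.Agent.S2390
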