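import Cfsg.Statements.S2386
import Mathlib
import Cfsg.Agent.Lib.SelfDual
import Cfsg.Agent.S2390

set_option autoImplicit false
open Cfsg

namespace Cfsg.Agent.S2386

/-- In the special unitary group `SU_n(q)` (matrices of determinant one over the field with `q²` elements preserving the standard Hermitian form), `q` a power of the prime `p`, the number of conjugacy classes of elements of order prime to `p` is `q^(n-1)`. -/
theorem result {F : Type*} [Field F] [Fintype F] {q : ℕ} (hF : Fintype.card F = q ^ 2) (p : ℕ) [Fact p.Prime] [CharP F p] (n : ℕ) (hn : 1 ≤ n) :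
    Nat.card {c : ConjClasses ↥(Cfsg.SU n F q) // ∃ g : ↥(Cfsg.SU n F q), ConjClasses.mk g = c ∧ (orderOf g).Coprime p} = q ^ (n - 1) := by
  classical
  open Cfsg.Agent.Lib.SelfDual Cfsg.Agent.Lib.UnitaryConjGU in
  obtain ⟨k, rfl⟩ : ∃ k, n = k + 1 := ⟨n - 1, by omega⟩
  rw [Nat.add_sub_cancel]
  have hε : ((-1 : F) ^ (k + 1)) ^ (q + 1) = 1 := by
    rw [← pow_mul, mul_comm, pow_mul, Cfsg.Agent.Lib.SUCyc.neg_one_pow_succ hF, one_pow]
  rw [← card_sd hF k hε]
  symm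
  have hsq : ((-1 : F) ^ (k + 1)) * ((-1 : F) ^ (k + 1)) = 1 := by
    rw [← mul_pow]
    simp
  -- to `GU`
  let toG : ↥(Cfsg.SU (k + 1) F q) → ↥(Cfsg.GU (k + 1) F q) := fun u =>
    Cfsg.Agent.Lib.UnitarySU.GUofMatrix hF ((u : Matrix.SpecialLinearGroup (Fin (k + 1)) F) : Matrix (Fin (k + 1)) (Fin (k + 1)) F) (fun a b => u.2 a b)
  have hex : ∀ f : {f : Polynomial F // f.Monic ∧ f.natDegree = k + 1 ∧ f.coeff 0 = (-1) ^ (k + 1) ∧ SD hF f},
      ∃ g : ↥(Cfsg.SU (k + 1) F q), (orderOf g).Coprime p ∧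
        ((g : Matrix.SpecialLinearGroup (Fin (k + 1)) F) : Matrix (Fin (k + 1)) (Fin (k + 1)) F).charpoly = f.1 := by
    intro f
    have hne : f.1.coeff 0 ≠ 0 := by
      rw [f.2.2.2.1]
      exact pow_ne_zero _ (neg_ne_zero.mpr one_ne_zero)
    obtain ⟨B, hB1, hB2⟩ := exists_GU_of_sd p hF f.2.1 f.2.2.1 hne f.2.2.2.2
    have hdet : ((B : GL (Fin (k + 1)) F) : Matrix (Fin (k + 1)) (Fin (k + 1)) F).det = 1 := by
      rw [Matrix.det_eq_sign_charpoly_coeff, hB2, f.2.2.2.1, Fintype.card_fin, hsq]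
    let g : ↥(Cfsg.SU (k + 1) F q) := Cfsg.Agent.Lib.UnitarySU.SUofMatrix _ hdet (fun u v => B.2 u v)
    refine ⟨g, ?_, hB2⟩
    have h1 : g ^ orderOf B = 1 := by
      apply Subtype.ext
      apply Subtype.ext
      have e : ((g ^ orderOf B : ↥(Cfsg.SU (k + 1) F q)) : Matrix.SpecialLinearGroup (Fin (k + 1)) F).1 =
          ((B : GL (Fin (k + 1)) F) : Matrix (Fin (k + 1)) (Fin (k + 1)) F) ^ orderOf B := by
        rw [Subgroup.coe_pow, Matrix.SpecialLinearGroup.coe_pow]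
        rfl
      rw [e, ← Units.val_pow_eq_pow_val, ← Subgroup.coe_pow, pow_orderOf_eq_one]
      rfl
    exact Nat.Coprime.coprime_dvd_left (orderOf_dvd_of_pow_eq_one h1) hB1
  choose elt helt hchar using hex
  refine Nat.card_eq_of_bijective (fun f => ⟨ConjClasses.mk (elt f), elt f, rfl, helt f⟩) ⟨?_, ?_⟩
  · intro f f' h
    have h1 : ConjClasses.mk (elt f) = ConjClasses.mk (elt f') := congrArg Subtype.val h
    rw [ConjClasses.mk_eq_mk_iff_isConj, isConj_iff] at h1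
    obtain ⟨c, hc⟩ := h1
    apply Subtype.ext
    rw [← hchar f, ← hchar f', ← hc]
    show _ = (((c : Matrix.SpecialLinearGroup (Fin (k + 1)) F) : Matrix (Fin (k + 1)) (Fin (k + 1)) F) *
      ((elt f : Matrix.SpecialLinearGroup (Fin (k + 1)) F) : Matrix (Fin (k + 1)) (Fin (k + 1)) F) *
      (((c⁻¹ : ↥(Cfsg.SU (k + 1) F q)) : Matrix.SpecialLinearGroup (Fin (k + 1)) F) : Matrix (Fin (k + 1)) (Fin (k + 1)) F)).charpoly
    rw [Matrix.charpoly_mul_comm, ← mul_assoc, ← Matrix.SpecialLinearGroup.coe_mul]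
    simp
  · rintro ⟨C, g, rfl, hg⟩
    have hmonic := Matrix.charpoly_monic ((g : Matrix.SpecialLinearGroup (Fin (k + 1)) F) : Matrix (Fin (k + 1)) (Fin (k + 1)) F)
    have hdeg : ((g : Matrix.SpecialLinearGroup (Fin (k + 1)) F) : Matrix (Fin (k + 1)) (Fin (k + 1)) F).charpoly.natDegree = k + 1 := by
      rw [Matrix.charpoly_natDegree_eq_dim, Fintype.card_fin]
    have h0 : ((g : Matrix.SpecialLinearGroup (Fin (k + 1)) F) : Matrix (Fin (k + 1)) (Fin (k + 1)) F).charpoly.coeff 0 = (-1) ^ (k + 1) := by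
      have h3 := Matrix.det_eq_sign_charpoly_coeff ((g : Matrix.SpecialLinearGroup (Fin (k + 1)) F) : Matrix (Fin (k + 1)) (Fin (k + 1)) F)
      rw [g.1.2, Fintype.card_fin] at h3
      calc _ = ((-1 : F) ^ (k + 1) * (-1) ^ (k + 1)) * ((g : Matrix.SpecialLinearGroup (Fin (k + 1)) F) : Matrix (Fin (k + 1)) (Fin (k + 1)) F).charpoly.coeff 0 := by
            rw [hsq, one_mul]
        _ = (-1) ^ (k + 1) * ((-1) ^ (k + 1) * ((g : Matrix.SpecialLinearGroup (Fin (k + 1)) F) : Matrix (Fin (k + 1)) (Fin (k + 1)) F).charpoly.coeff 0) := by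
            ring
        _ = _ := by rw [← h3, mul_one]
    have hsd : SD hF ((g : Matrix.SpecialLinearGroup (Fin (k + 1)) F) : Matrix (Fin (k + 1)) (Fin (k + 1)) F).charpoly :=
      sd_of_unitary hF (st_mul_self_of_mem hF (toG g).2)
    refine ⟨⟨_, hmonic, hdeg, h0, hsd⟩, Subtype.ext ?_⟩
    obtain ⟨f, hf⟩ : ∃ f : {f : Polynomial F // f.Monic ∧ f.natDegree = k + 1 ∧ f.coeff 0 = (-1) ^ (k + 1) ∧ SD hF f}, f = ⟨_, hmonic, hdeg, h0, hsd⟩ := ⟨_, rfl⟩
    rw [← hf]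
    show ConjClasses.mk (elt f) = ConjClasses.mk g
    rw [ConjClasses.mk_eq_mk_iff_isConj]
    refine Cfsg.Agent.S2390.result hF p (k + 1) (elt f) g (helt f) hg ?_
    rw [hchar f, hf]

end Cfsg.Agent.S2386
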