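import Cfsg.Statements.S2389
import Mathlib
import Cfsg.Agent.S2589
import Cfsg.Agent.Lib.SemisimpleGL

set_option autoImplicit false
open Cfsg

namespace Cfsg.Agent.S2389

/-- In the symplectic group `Sp_{2n}(q)`, `q` a power of the prime `p`, two elements of order prime to `p` with the same characteristic polynomial are conjugate in `Sp_{2n}(q)`. -/
theorem result {F : Type*} [Field F] [Fintype F] (p : ℕ) [Fact p.Prime] [CharP F p] (n : ℕ)
    (g h : ↥(Matrix.symplecticGroup (Fin n) F)) (hg : (orderOf g).Coprime p) (hh : (orderOf h).Coprime p)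
    (hc : (g : Matrix (Fin n ⊕ Fin n) (Fin n ⊕ Fin n) F).charpoly = (h : Matrix (Fin n ⊕ Fin n) (Fin n ⊕ Fin n) F).charpoly) :
    IsConj g h := by
  classical
  have hp : p.Prime := Fact.out
  have hcast : ∀ {k : ℕ}, k.Coprime p → (k : F) ≠ 0 := fun h => Cfsg.Agent.Lib.SemisimpleGL.cast_ne_of_coprime (F := F) p h
  let e := Fintype.equivFin (Fin n ⊕ Fin n)
  let φ := Matrix.reindexAlgEquiv F F e
  have hpow : ∀ g : ↥(Matrix.symplecticGroup (Fin n) F), (φ g.1) ^ orderOf g = 1 := by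
    intro g
    have h1 : g.1 ^ orderOf g = 1 := by
      have h2 : (g ^ orderOf g).1 = 1 := by rw [pow_orderOf_eq_one]; rfl
      exact h2
    rw [← map_pow, h1, map_one]
  have hc' : (φ g.1).charpoly = (φ h.1).charpoly := by
    have e1 : ∀ A : Matrix (Fin n ⊕ Fin n) (Fin n ⊕ Fin n) F, (φ A).charpoly = A.charpoly := fun A =>
      Matrix.charpoly_reindex e A
    rw [e1, e1, hc]
  obtain ⟨Y, hY, hYA⟩ := Cfsg.Agent.Lib.SemisimpleGL.mat_conj (hcast hg) (hcast hh) (hpow g) (hpow h) hc'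
  have hunit : IsUnit Y := (Matrix.isUnit_iff_isUnit_det _).2 (isUnit_iff_ne_zero.2 hY)
  obtain ⟨u, rfl⟩ := hunit
  have hc2 : IsConj (φ g.1) (φ h.1) := ⟨u, hYA⟩
  have hc3 := (φ.symm : Matrix _ _ F ≃ₐ[F] Matrix _ _ F).toAlgHom.toRingHom.toMonoidHom.map_isConj hc2
  have hc4 : IsConj (g : Matrix (Fin n ⊕ Fin n) (Fin n ⊕ Fin n) F) (h : Matrix (Fin n ⊕ Fin n) (Fin n ⊕ Fin n) F) := by
    simpa using hc3
  exact (Cfsg.Agent.S2589.result g h hg).2 hc4

end Cfsg.Agent.S2389
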