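import Mathlib
import Cfsg.Statements.S2391

set_option autoImplicit false
open Cfsg

namespace Cfsg.Agent.S2391

variable {F : Type*} [Field F] {n : ℕ}

local notation "G" => Matrix.SpecialLinearGroup (Fin n) F

/-- The vectors moved by `U` into `W`. -/
def step (U : Subgroup (Matrix.SpecialLinearGroup (Fin n) F)) (W : Submodule F (Fin n → F)) :
    Submodule F (Fin n → F) where
  carrier := {v | ∀ u ∈ U, (u : Matrix (Fin n) (Fin n) F).mulVec v - v ∈ W}
  add_mem' := by
    intro a b ha hb u hu
    have := W.add_mem (ha u hu) (hb u hu)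
    rw [Matrix.mulVec_add]
    convert this using 1
    abel
  zero_mem' := by
    intro u _
    simp
  smul_mem' := by
    intro c x hx u hu
    have := W.smul_mem c (hx u hu)
    rw [Matrix.mulVec_smul]
    convert this using 1
    rw [smul_sub]

/-- The ascending chain of the flag. -/
def chain (U : Subgroup (Matrix.SpecialLinearGroup (Fin n) F)) : ℕ → Submodule F (Fin n → F)
  | 0 => ⊥
  | i + 1 => step U (chain U i)

lemma step_mono (U : Subgroup (Matrix.SpecialLinearGroup (Fin n) F))
    {W W' : Submodule F (Fin n → F)} (h : W ≤ W') : step U W ≤ step U W' :=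
  fun _ hv u hu => h (hv u hu)

lemma chain_le_succ (U : Subgroup (Matrix.SpecialLinearGroup (Fin n) F)) (i : ℕ) :
    chain U i ≤ chain U (i + 1) := by
  induction i with
  | zero => exact bot_le
  | succ i ih => exact step_mono U ih

lemma step_stable (U : Subgroup (Matrix.SpecialLinearGroup (Fin n) F))
    (W : Submodule F (Fin n → F)) {v : Fin n → F} (hv : v ∈ step U W) {u : Matrix.SpecialLinearGroup (Fin n) F}
    (hu : u ∈ U) : (u : Matrix (Fin n) (Fin n) F).mulVec v ∈ step U W := by
  intro u' hu'
  have h1 := hv (u' * u) (U.mul_mem hu' hu)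
  have h2 := hv u hu
  have h3 := W.sub_mem h1 h2
  convert h3 using 1
  rw [Matrix.SpecialLinearGroup.coe_mul, ← Matrix.mulVec_mulVec]
  abel

lemma chain_stable (U : Subgroup (Matrix.SpecialLinearGroup (Fin n) F)) (i : ℕ) {v : Fin n → F}
    (hv : v ∈ chain U i) {u : Matrix.SpecialLinearGroup (Fin n) F} (hu : u ∈ U) :
    (u : Matrix (Fin n) (Fin n) F).mulVec v ∈ chain U i := by
  cases i with
  | zero =>
    have : v = 0 := by simpa [chain] using hv
    simp [this, chain]
  | succ i => exact step_stable U _ hv hu

/-- The step grows as long as it is not everything. -/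
lemma chain_lt_succ [Finite F] (p : ℕ) [Fact p.Prime] [CharP F p]
    (U : Subgroup (Matrix.SpecialLinearGroup (Fin n) F)) (hU : IsPGroup p ↥U) (i : ℕ)
    (hi : chain U i ≠ ⊤) : chain U i < chain U (i + 1) := by
  classical
  set W := chain U i with hW
  refine lt_of_le_of_ne (chain_le_succ U i) ?_
  intro heq
  -- the action on the quotient
  let act (u : ↥U) : (Fin n → F) ⧸ W →ₗ[F] (Fin n → F) ⧸ W :=
    W.mapQ W (Matrix.mulVecLin (u.1 : Matrix (Fin n) (Fin n) F)) (fun v hv => chain_stable U i hv u.2)
  letI : MulAction ↥U ((Fin n → F) ⧸ W) :=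
    { smul := fun u x => act u x
      one_smul := by
        intro x
        induction x using Submodule.Quotient.induction_on with
        | H v =>
          change act 1 (Submodule.Quotient.mk v) = _
          simp [act]
      mul_smul := by
        intro a b x
        induction x using Submodule.Quotient.induction_on with
        | H v =>
          change act (a * b) (Submodule.Quotient.mk v) = act a (act b (Submodule.Quotient.mk v))
          show (Submodule.Quotient.mk (((a * b : ↥U).1 : Matrix (Fin n) (Fin n) F).mulVec v) : (Fin n → F) ⧸ W) =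
            Submodule.Quotient.mk ((a.1 : Matrix (Fin n) (Fin n) F).mulVec ((b.1 : Matrix (Fin n) (Fin n) F).mulVec v))
          rw [Matrix.mulVec_mulVec]
          rfl }
  have hsmul : ∀ (u : ↥U) (v : Fin n → F),
      u • (Submodule.Quotient.mk v : (Fin n → F) ⧸ W) =
        Submodule.Quotient.mk ((u.1 : Matrix (Fin n) (Fin n) F).mulVec v) := by
    intro u v
    rfl
  haveI : Finite ((Fin n → F) ⧸ W) := Quotient.finite _
  -- a nonzero element
  have hne : ∃ x : (Fin n → F) ⧸ W, x ≠ 0 := by
    by_contra h
    apply hi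
    rw [Submodule.eq_top_iff']
    intro v
    by_contra hv
    exact h ⟨Submodule.Quotient.mk v, by simpa [Submodule.Quotient.mk_eq_zero] using hv⟩
  obtain ⟨x₀, hx₀⟩ := hne
  have hcard : p ∣ Nat.card ((Fin n → F) ⧸ W) := by
    have h1 : addOrderOf x₀ = p := by
      apply addOrderOf_eq_prime
      · have : (p : F) = 0 := CharP.cast_eq_zero F p
        rw [← Nat.cast_smul_eq_nsmul F, this, zero_smul]
      · exact hx₀
    rw [← h1]
    exact addOrderOf_dvd_natCard x₀
  have hfix0 : (0 : (Fin n → F) ⧸ W) ∈ MulAction.fixedPoints ↥U ((Fin n → F) ⧸ W) := by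
    intro u
    have := hsmul u 0
    simpa using this
  obtain ⟨b, hb, hb0⟩ := hU.exists_fixed_point_of_prime_dvd_card_of_fixed_point _ hcard hfix0
  obtain ⟨v, rfl⟩ := Submodule.Quotient.mk_surjective _ b
  have hv : v ∈ chain U (i + 1) := by
    intro u hu
    have h1 := hb ⟨u, hu⟩
    rw [hsmul] at h1
    have h2 := (Submodule.Quotient.eq W).mp h1
    exact h2
  rw [← heq] at hv
  exact hb0 ((Submodule.Quotient.mk_eq_zero W).mpr hv).symm

lemma exists_chain_top [Finite F] (p : ℕ) [Fact p.Prime] [CharP F p]
    (U : Subgroup (Matrix.SpecialLinearGroup (Fin n) F)) (hU : IsPGroup p ↥U) :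
    ∃ i, chain U i = ⊤ := by
  have key : ∀ i, chain U i = ⊤ ∨ i ≤ Module.finrank F (chain U i) := by
    intro i
    induction i with
    | zero => right; exact Nat.zero_le _
    | succ i ih =>
      rcases ih with ih | ih
      · left
        exact top_le_iff.mp (ih ▸ chain_le_succ U i)
      · by_cases h : chain U (i + 1) = ⊤
        · exact Or.inl h
        · right
          have hne : chain U i ≠ ⊤ := by
            intro h'
            exact h (top_le_iff.mp (h' ▸ chain_le_succ U i))
          have := Submodule.finrank_lt_finrank_of_lt (chain_lt_succ p U hU i hne)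
          omega
  rcases key (n + 1) with h | h
  · exact ⟨_, h⟩
  · have := Submodule.finrank_le (chain U (n + 1))
    simp only [Module.finrank_fin_fun] at this
    omega

lemma map_chain_le (U : Subgroup (Matrix.SpecialLinearGroup (Fin n) F))
    {g : Matrix.SpecialLinearGroup (Fin n) F}
    (hg : g ∈ Subgroup.normalizer (U : Set (Matrix.SpecialLinearGroup (Fin n) F))) (i : ℕ) :
    (chain U i).map (Matrix.mulVecLin (g : Matrix (Fin n) (Fin n) F)) ≤ chain U i := by
  induction i with
  | zero => simp [chain]
  | succ i ih =>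
    rintro _ ⟨v, hv, rfl⟩
    intro u hu
    have hg' : g⁻¹ ∈ Subgroup.normalizer (U : Set (Matrix.SpecialLinearGroup (Fin n) F)) := inv_mem hg
    have h1 : g⁻¹ * u * g⁻¹⁻¹ ∈ U := (Subgroup.mem_normalizer_iff.mp hg' u).mp hu
    rw [inv_inv] at h1
    have h2 := hv _ h1
    have h3 : (Matrix.mulVecLin (g : Matrix (Fin n) (Fin n) F))
        (((g⁻¹ * u * g : Matrix.SpecialLinearGroup (Fin n) F) : Matrix (Fin n) (Fin n) F).mulVec v - v)
        ∈ chain U i := ih ⟨_, h2, rfl⟩
    convert h3 using 1
    simp only [Matrix.mulVecLin_apply, Matrix.mulVec_sub]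
    congr 1
    have hinv : (g : Matrix (Fin n) (Fin n) F) * ((g⁻¹ : Matrix.SpecialLinearGroup (Fin n) F) : Matrix (Fin n) (Fin n) F) = 1 := by
      rw [← Matrix.SpecialLinearGroup.coe_mul, mul_inv_cancel, Matrix.SpecialLinearGroup.coe_one]
    rw [Matrix.SpecialLinearGroup.coe_mul, Matrix.SpecialLinearGroup.coe_mul, Matrix.mulVec_mulVec,
      Matrix.mulVec_mulVec, ← mul_assoc, ← mul_assoc, hinv, one_mul]

lemma map_chain_eq (U : Subgroup (Matrix.SpecialLinearGroup (Fin n) F))
    {g : Matrix.SpecialLinearGroup (Fin n) F}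
    (hg : g ∈ Subgroup.normalizer (U : Set (Matrix.SpecialLinearGroup (Fin n) F))) (i : ℕ) :
    (chain U i).map (Matrix.mulVecLin (g : Matrix (Fin n) (Fin n) F)) = chain U i := by
  apply le_antisymm (map_chain_le U hg i)
  intro v hv
  have hg' : g⁻¹ ∈ Subgroup.normalizer (U : Set (Matrix.SpecialLinearGroup (Fin n) F)) := inv_mem hg
  have h1 := map_chain_le U hg' i ⟨v, hv, rfl⟩
  refine ⟨_, h1, ?_⟩
  simp only [Matrix.mulVecLin_apply, Matrix.mulVec_mulVec]
  rw [← Matrix.SpecialLinearGroup.coe_mul, mul_inv_cancel, Matrix.SpecialLinearGroup.coe_one,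
    Matrix.one_mulVec]

/-- The Borel–Tits property of `SL_n(q)` in flag form: for a field `F` of characteristic `p` with finitely many elements and a non-trivial `p`-subgroup `U` of `SL_n(F)`, there is a flag `0 = V₀ < V₁ < ⋯ < V_{k+1} = F^n` with at least one proper non-zero member such that every element of the normaliser of `U` maps each `V_i` onto itself and every element of `U` acts trivially on each quotient `V_{i+1}/V_i` (so the normaliser lies in the parabolic subgroup of the flag and `U` in its unipotent radical). -/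
theorem result {F : Type*} [Field F] [Fintype F] (p : ℕ) [Fact p.Prime] [CharP F p] (n : ℕ)
    (U : Subgroup (Matrix.SpecialLinearGroup (Fin n) F)) (hU : IsPGroup p ↥U) (hne : U ≠ ⊥) :
    ∃ (k : ℕ) (V : Fin (k + 2) → Submodule F (Fin n → F)), 1 ≤ k ∧ StrictMono V ∧ V 0 = ⊥ ∧ V (Fin.last (k + 1)) = ⊤ ∧
      (∀ g ∈ Subgroup.normalizer (U : Set (Matrix.SpecialLinearGroup (Fin n) F)), ∀ i, (V i).map (Matrix.mulVecLin (g : Matrix (Fin n) (Fin n) F)) = V i) ∧
      (∀ u ∈ U, ∀ i : Fin (k + 1), ∀ v ∈ V i.succ, (u : Matrix (Fin n) (Fin n) F).mulVec v - v ∈ V (Fin.castSucc i)) := by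
  classical
  have hex := exists_chain_top p U hU
  set K := Nat.find hex with hK
  have hKtop : chain U K = ⊤ := Nat.find_spec hex
  have hKmin : ∀ i < K, chain U i ≠ ⊤ := fun i hi => Nat.find_min hex hi
  -- the first step is not everything
  have h1 : chain U 1 ≠ ⊤ := by
    intro h
    apply hne
    rw [Subgroup.eq_bot_iff_forall]
    intro u hu
    apply Matrix.SpecialLinearGroup.ext
    intro i j
    have hv : (Pi.single j 1 : Fin n → F) ∈ chain U 1 := by rw [h]; trivial
    have h2 := hv u hu
    have h3 : (u : Matrix (Fin n) (Fin n) F).mulVec (Pi.single j 1) = Pi.single j 1 := by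
      have h4 : (u : Matrix (Fin n) (Fin n) F).mulVec (Pi.single j 1) - Pi.single j 1 = 0 := by
        simpa [chain] using h2
      exact sub_eq_zero.mp h4
    have h5 := congrFun h3 i
    rw [Matrix.mulVec_single_one] at h5
    simpa [Matrix.one_apply, Pi.single_apply] using h5
  have hK2 : 2 ≤ K := by
    by_contra h
    have hK1 : K ≤ 1 := by omega
    have : chain U 1 = ⊤ := by
      have hle : chain U K ≤ chain U 1 := by
        interval_cases K
        · exact chain_le_succ U 0
        · exact le_rfl
      exact top_le_iff.mp (hKtop ▸ hle)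
    exact h1 this
  refine ⟨K - 1, fun i => chain U i.val, by omega, ?_, rfl, ?_, ?_, ?_⟩
  · rw [Fin.strictMono_iff_lt_succ]
    intro i
    have hi : i.val < K := by have := i.isLt; omega
    exact chain_lt_succ p U hU i.val (hKmin _ hi)
  · have : (Fin.last (K - 1 + 1)).val = K := by simp; omega
    simp only [this]
    exact hKtop
  · intro g hg i
    exact map_chain_eq U hg i.val
  · intro u hu i v hv
    exact hv u hu

end Cfsg.Agent.S2391
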