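import Mathlib
import Cfsg.Statements.S2393
import Cfsg.Agent.Lib.ReprFourier
import Cfsg.Agent.Lib.TvGL

set_option autoImplicit false
open scoped MatrixGroups
open Cfsg

namespace Cfsg.Agent.S2393

open Matrix Cfsg.Agent.Lib.ReprFourier Cfsg.Agent.Lib.TvGL

section blocks

variable {F : Type*} [Field F] {n : ℕ}

/-- The symmetric matrix attached to a vector: first row and column are `v`. -/
def symM (i0 : Fin n) (v : Fin n → F) : Matrix (Fin n) (Fin n) F :=
  Matrix.of fun i j => if i = i0 then v j else if j = i0 then v i else 0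

lemma symM_apply (i0 : Fin n) (v : Fin n → F) (i j : Fin n) :
    symM i0 v i j = if i = i0 then v j else if j = i0 then v i else 0 := rfl

lemma symM_add (i0 : Fin n) (v w : Fin n → F) : symM i0 (v + w) = symM i0 v + symM i0 w := by
  ext i j
  simp only [symM_apply, Matrix.add_apply, Pi.add_apply]
  split_ifs <;> simp

lemma symM_zero (i0 : Fin n) : symM i0 (0 : Fin n → F) = 0 := by
  ext i j
  simp only [symM_apply, Pi.zero_apply, Matrix.zero_apply]
  split_ifs <;> rfl

lemma symM_symm (i0 : Fin n) (v : Fin n → F) (i j : Fin n) : symM i0 v i j = symM i0 v j i := by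
  simp only [symM_apply]
  by_cases hi : i = i0 <;> by_cases hj : j = i0 <;> simp [hi, hj]

lemma symM_transpose (i0 : Fin n) (v : Fin n → F) : (symM i0 v)ᵀ = symM i0 v := by
  ext i j
  exact symM_symm i0 v j i

/-- The root element. -/
def xEl (i0 : Fin n) (v : Fin n → F) : Matrix.symplecticGroup (Fin n) F :=
  ⟨fromBlocks 1 (symM i0 v) 0 1, by
    rw [SymplecticGroup.mem_iff, Matrix.J, Matrix.fromBlocks_multiply, Matrix.fromBlocks_transpose,
      Matrix.fromBlocks_multiply]
    simp [symM_transpose]⟩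

lemma xEl_val (i0 : Fin n) (v : Fin n → F) : (xEl i0 v).1 = fromBlocks 1 (symM i0 v) 0 1 := rfl

lemma xEl_add (i0 : Fin n) (v w : Fin n → F) : xEl i0 (v + w) = xEl i0 v * xEl i0 w := by
  apply Subtype.ext
  change fromBlocks 1 (symM i0 (v + w)) 0 1 = fromBlocks 1 (symM i0 v) 0 1 * fromBlocks 1 (symM i0 w) 0 1
  rw [Matrix.fromBlocks_multiply, symM_add]
  simp [add_comm]

lemma xEl_zero (i0 : Fin n) : xEl i0 (0 : Fin n → F) = 1 := by
  apply Subtype.ext
  change fromBlocks 1 (symM i0 (0 : Fin n → F)) 0 1 = 1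
  rw [symM_zero, Matrix.fromBlocks_one]

/-- The Levi embedding of `GL_n`. -/
noncomputable def leviSp : GL (Fin n) F →* Matrix.symplecticGroup (Fin n) F where
  toFun g := ⟨fromBlocks g.1 0 0 (g⁻¹.1)ᵀ, by
    have h1 : g.1 * g⁻¹.1 = 1 := Units.mul_inv g
    have h2 : (g⁻¹.1)ᵀ * (g.1)ᵀ = 1 := by
      rw [← Matrix.transpose_mul, h1, Matrix.transpose_one]
    rw [SymplecticGroup.mem_iff, Matrix.J, Matrix.fromBlocks_multiply, Matrix.fromBlocks_transpose,
      Matrix.fromBlocks_multiply]
    simp only [mul_zero, zero_mul, add_zero, zero_add, mul_neg, mul_one, neg_mul,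
      Matrix.transpose_zero, Matrix.transpose_transpose, h1, h2, neg_zero]⟩
  map_one' := by
    apply Subtype.ext
    simp
  map_mul' A B := by
    apply Subtype.ext
    simp [Matrix.fromBlocks_multiply]

/-- How the Levi moves root elements. -/
lemma levi_mul_xEl {i0 : Fin n} (g : GL (Fin n) F) {v v' : Fin n → F}
    (h : g.1 * symM i0 v * (g.1)ᵀ = symM i0 v') :
    leviSp g * xEl i0 v = xEl i0 v' * leviSp g := by
  apply Subtype.ext
  change fromBlocks g.1 0 0 (g⁻¹.1)ᵀ * fromBlocks 1 (symM i0 v) 0 1 =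
    fromBlocks 1 (symM i0 v') 0 1 * fromBlocks g.1 0 0 (g⁻¹.1)ᵀ
  rw [Matrix.fromBlocks_multiply, Matrix.fromBlocks_multiply, ← h]
  have h1 : (g.1)ᵀ * (g⁻¹.1)ᵀ = 1 := by
    rw [← Matrix.transpose_mul, Units.inv_mul g, Matrix.transpose_one]
  simp only [mul_zero, zero_mul, add_zero, zero_add, mul_one, one_mul]
  congr 1
  rw [Matrix.mul_assoc, h1, Matrix.mul_one]

/-- The diagonal element. -/
noncomputable def diagGL (i0 : Fin n) (a : F) (ha : a ≠ 0) : GL (Fin n) F where
  val := Matrix.diagonal fun i => if i = i0 then a else 1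
  inv := Matrix.diagonal fun i => if i = i0 then a⁻¹ else 1
  val_inv := by
    rw [Matrix.diagonal_mul_diagonal, ← Matrix.diagonal_one]
    congr 1
    ext i
    split_ifs <;> simp [ha]
  inv_val := by
    rw [Matrix.diagonal_mul_diagonal, ← Matrix.diagonal_one]
    congr 1
    ext i
    split_ifs <;> simp [ha]

lemma diag_symM (i0 : Fin n) (a : F) (ha : a ≠ 0) (v : Fin n → F) :
    (diagGL i0 a ha).1 * symM i0 v * ((diagGL i0 a ha).1)ᵀ =
      symM i0 (fun j => if j = i0 then a ^ 2 * v j else a * v j) := by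
  change Matrix.diagonal (fun i => if i = i0 then a else 1) * symM i0 v *
    (Matrix.diagonal fun i => if i = i0 then a else 1)ᵀ = _
  rw [Matrix.diagonal_transpose]
  ext i j
  rw [Matrix.mul_diagonal, Matrix.diagonal_mul]
  simp only [symM_apply]
  by_cases hi : i = i0 <;> by_cases hj : j = i0 <;> simp [hi, hj] <;> ring

/-- The transvection. -/
lemma tv_symM (i0 : Fin n) (y : Fin n → F) (hy : y i0 = 0) (v : Fin n → F)
    (h : y ⬝ᵥ (Pi.single i0 1 : Fin n → F) = 0) :
    (tv (Pi.single i0 1) y h).1 * symM i0 v * ((tv (Pi.single i0 1) y h).1)ᵀ =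
      symM i0 (fun j => if j = i0 then v j + 2 * (y ⬝ᵥ v) else v j) := by
  have hE : ∀ i j, (tv (Pi.single i0 1) y h).1 i j = (1 : Matrix (Fin n) (Fin n) F) i j +
      (if i = i0 then y j else 0) := by
    intro i j
    rw [tv_val, Matrix.add_apply, vecMulVec_apply]
    by_cases hi : i = i0 <;> simp [hi]
  -- `∑ y_k S_kj`
  have h1 : ∀ j, ∑ k, y k * symM i0 v k j = if j = i0 then y ⬝ᵥ v else 0 := by
    intro j
    by_cases hj : j = i0
    · rw [if_pos hj, dotProduct]
      refine Finset.sum_congr rfl fun k _ => ?_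
      rw [symM_apply, hj]
      by_cases hk : k = i0
      · simp [hk]
      · simp [hk]
    · rw [if_neg hj]
      refine Finset.sum_eq_zero fun k _ => ?_
      rw [symM_apply]
      by_cases hk : k = i0
      · simp [hk, hy]
      · simp [hk, hj]
  have h2 : ∀ i j, ((tv (Pi.single i0 1) y h).1 * symM i0 v) i j =
      symM i0 v i j + if i = i0 then (if j = i0 then y ⬝ᵥ v else 0) else 0 := by
    intro i j
    rw [Matrix.mul_apply]
    simp only [hE, add_mul, Finset.sum_add_distrib, Matrix.one_apply, ite_mul, one_mul, zero_mul,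
      Finset.sum_ite_eq, Finset.mem_univ, if_true]
    congr 1
    by_cases hi : i = i0
    · simp only [hi, if_true]
      exact h1 j
    · simp [hi]
  have h4 : ∀ i, ∑ l, ((tv (Pi.single i0 1) y h).1 * symM i0 v) i l * y l =
      if i = i0 then y ⬝ᵥ v else 0 := by
    intro i
    simp only [h2, add_mul, Finset.sum_add_distrib]
    have h5 : ∑ l, symM i0 v i l * y l = if i = i0 then y ⬝ᵥ v else 0 := by
      rw [← h1 i]
      refine Finset.sum_congr rfl fun l _ => ?_
      rw [symM_symm, mul_comm]
    rw [h5]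
    by_cases hi : i = i0
    · subst hi
      simp [hy]
    · simp [hi]
  ext i j
  rw [Matrix.mul_apply]
  simp only [Matrix.transpose_apply, hE, mul_add, Finset.sum_add_distrib, Matrix.one_apply, mul_ite,
    mul_one, mul_zero, Finset.sum_ite_eq, Finset.mem_univ, if_true]
  rw [h2]
  by_cases hj : j = i0
  · subst hj
    simp only [if_true]
    rw [h4]
    simp only [symM_apply]
    by_cases hi : i = j
    · subst hi
      simp
      ring
    · simp [hi]
  · simp only [if_neg hj]
    simp only [symM_apply, if_neg hj]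
    by_cases hi : i = i0 <;> simp [hi, hj]

end blocks

/-- A cast of the order of `F` is non-zero in fields of other characteristic. -/
lemma card_cast_ne_zero {F K : Type*} [Field F] [Fintype F] [Field K] (hK : ringChar K ≠ ringChar F) :
    ((Fintype.card F : ℕ) : K) ≠ 0 := by
  obtain ⟨p, hp⟩ := CharP.exists F
  obtain ⟨n, hpp, hn⟩ := FiniteField.card F p
  have hr : ringChar F = p := ringChar.eq F p
  rw [hn]
  push_cast
  refine pow_ne_zero _ ?_
  intro h0
  have h1 : ringChar K ∣ p := (ringChar.spec K p).1 h0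
  have h2 := (Nat.dvd_prime hpp).1 h1
  rcases h2 with h2 | h2
  · exact CharP.ringChar_ne_one h2
  · exact hK (h2.trans hr.symm)

/-- A lower bound for representations in cross characteristic: for `n ≥ 2` and a field `F` with `q` elements, `q` odd, every homomorphism from the symplectic group `Sp_{2n}(F)` to `GL_d(K)`, `K` a field of characteristic different from that of `F`, whose kernel is central has `d ≥ q^(n-1)(q-1)/2`. -/
theorem result {F : Type*} [Field F] [Fintype F] {q : ℕ} (hq : Fintype.card F = q) (hodd : Odd q) (n : ℕ) (hn : 2 ≤ n)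
    {K : Type*} [Field K] (hK : ringChar K ≠ ringChar F) {d : ℕ}
    (ρ : ↥(Matrix.symplecticGroup (Fin n) F) →* GL (Fin d) K) (hker : ρ.ker ≤ Subgroup.center ↥(Matrix.symplecticGroup (Fin n) F)) :
    q ^ (n - 1) * (q - 1) / 2 ≤ d := by
  classical
  obtain ⟨m, rfl⟩ : ∃ m, n = m + 1 := ⟨n - 1, by omega⟩
  simp only [Nat.add_sub_cancel]
  have h2F : (2 : F) ≠ 0 := by
    intro h
    have h1 : CharP F 2 := CharTwo.of_one_ne_zero_of_two_eq_zero one_ne_zero h
    have h3 : ringChar F = 2 := ringChar.eq F 2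
    have h4 := FiniteField.even_card_iff_char_two.1 h3
    rw [hq] at h4
    obtain ⟨c, hc⟩ := hodd
    omega
  -- the field of values
  let χ := AddChar.FiniteField.primitiveChar F K hK
  let K' := CyclotomicField χ.n K
  let ψ : AddChar F K' := χ.char
  have hψ : ψ.IsPrimitive := χ.prim
  let ι : K →+* K' := algebraMap K K'
  let ρ' : ↥(Matrix.symplecticGroup (Fin (m + 1)) F) →* GL (Fin d) K' :=
    (Matrix.GeneralLinearGroup.map ι).comp ρ
  have hρ' : ∀ x, ρ' x = 1 → ρ x = 1 := by
    intro x hx
    apply Units.ext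
    ext i j
    have h1 := congrArg (fun g : GL (Fin d) K' => (g : Matrix (Fin d) (Fin d) K') i j) hx
    apply ι.injective
    simpa [ρ', Matrix.one_apply, apply_ite ι] using h1
  let i0 : Fin (m + 1) := 0
  let r : (Fin (m + 1) → F) → Matrix (Fin d) (Fin d) K' :=
    fun v => (ρ' (xEl i0 v) : Matrix (Fin d) (Fin d) K')
  have h0 : r 0 = 1 := by
    simp [r, xEl_zero]
  have hadd : ∀ v w, r (v + w) = r v * r w := by
    intro v w
    simp [r, xEl_add]
  have hc : ((Fintype.card (Fin (m + 1) → F) : ℕ) : K') ≠ 0 := by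
    have h1 : Fintype.card (Fin (m + 1) → F) = Fintype.card F ^ (m + 1) := by simp
    rw [h1]
    push_cast
    refine pow_ne_zero _ ?_
    have h2 : ((Fintype.card F : ℕ) : K') = ι ((Fintype.card F : ℕ) : K) := by simp
    rw [h2]
    exact (map_ne_zero ι).2 (card_cast_ne_zero hK)
  -- conjugation by the Levi
  have hconj : ∀ (g : GL (Fin (m + 1)) F) (α : (Fin (m + 1) → F) ≃ (Fin (m + 1) → F)),
      (∀ v, g.1 * symM i0 v * (g.1)ᵀ = symM i0 (α v)) →
      ∀ u u' : Fin (m + 1) → F, (∀ v, u' ⬝ᵥ α v = u ⬝ᵥ v) → eU ψ r u ≠ 0 → eU ψ r u' ≠ 0 := by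
    intro g α hα u u' huu' hu
    refine conj_eU (P := (ρ' (leviSp g) : Matrix (Fin d) (Fin d) K'))
      (P' := (ρ' (leviSp g⁻¹) : Matrix (Fin d) (Fin d) K')) ?_ α ?_ huu' hu
    · rw [← Units.val_mul, ← map_mul, ← map_mul, inv_mul_cancel, map_one, map_one]
      rfl
    · intro v
      change (ρ' (leviSp g) : Matrix (Fin d) (Fin d) K') * (ρ' (xEl i0 v) : Matrix (Fin d) (Fin d) K') *
        (ρ' (leviSp g⁻¹) : Matrix (Fin d) (Fin d) K') = (ρ' (xEl i0 (α v)) : Matrix (Fin d) (Fin d) K')
      rw [← Units.val_mul, ← Units.val_mul, ← map_mul, ← map_mul, levi_mul_xEl g (hα v), mul_assoc,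
        ← map_mul, mul_inv_cancel, map_one, mul_one]
  -- first step: the transvections
  have hstep1 : ∀ u u' : Fin (m + 1) → F, u i0 ≠ 0 → u' i0 = u i0 → eU ψ r u ≠ 0 → eU ψ r u' ≠ 0 := by
    intro u u' hu0 huu' hu
    set y : Fin (m + 1) → F := (2 * u i0)⁻¹ • (u - u') with hy
    have hy0 : y i0 = 0 := by
      simp [hy, huu']
    have h2u : (2 * u i0) • y = u - u' := by
      rw [hy, smul_smul, mul_inv_cancel₀ (mul_ne_zero h2F hu0), one_smul]
    have hdot : y ⬝ᵥ (Pi.single i0 1 : Fin (m + 1) → F) = 0 := by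
      rw [dotProduct_single, hy0, mul_one]
    have hyα : ∀ (c : F) (v : Fin (m + 1) → F), y ⬝ᵥ (fun j => if j = i0 then v j + c else v j) = y ⬝ᵥ v := by
      intro c v
      simp only [dotProduct]
      refine Finset.sum_congr rfl fun j _ => ?_
      by_cases hj : j = i0
      · simp [hj, hy0]
      · simp [hj]
    let α : (Fin (m + 1) → F) ≃ (Fin (m + 1) → F) :=
      { toFun := fun v j => if j = i0 then v j + 2 * (y ⬝ᵥ v) else v j
        invFun := fun v j => if j = i0 then v j + (-(2 * (y ⬝ᵥ v))) else v j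
        left_inv := fun v => by
          funext j
          simp only [hyα]
          by_cases hj : j = i0
          · simp [hj]
          · simp [hj]
        right_inv := fun v => by
          funext j
          simp only [hyα]
          by_cases hj : j = i0
          · simp [hj]
          · simp [hj] }
    refine hconj (tv (Pi.single i0 1) y hdot) α (fun v => tv_symM i0 y hy0 v hdot) u u' ?_ hu
    intro v
    have h3 : u' ⬝ᵥ α v = u' ⬝ᵥ v + u' i0 * (2 * (y ⬝ᵥ v)) := by
      change u' ⬝ᵥ (fun j => if j = i0 then v j + 2 * (y ⬝ᵥ v) else v j) = _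
      have h4 : (fun j => if j = i0 then v j + 2 * (y ⬝ᵥ v) else v j) =
          v + Pi.single i0 (2 * (y ⬝ᵥ v)) := by
        funext j
        by_cases hj : j = i0
        · simp [hj]
        · simp [hj]
      rw [h4, dotProduct_add, dotProduct_single]
    rw [h3, huu']
    have h5 : (2 * u i0) * (y ⬝ᵥ v) = (u - u') ⬝ᵥ v := by
      have h6 : ((2 * u i0) • y) ⬝ᵥ v = (u - u') ⬝ᵥ v := by rw [h2u]
      rwa [smul_dotProduct, smul_eq_mul] at h6
    rw [sub_dotProduct] at h5
    linear_combination h5
  -- second step: the diagonal elements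
  have hstep2 : ∀ (u : Fin (m + 1) → F) (a : F), a ≠ 0 → eU ψ r u ≠ 0 →
      eU ψ r (fun j => if j = i0 then u j / a ^ 2 else u j / a) ≠ 0 := by
    intro u a ha hu
    let α : (Fin (m + 1) → F) ≃ (Fin (m + 1) → F) :=
      { toFun := fun v j => if j = i0 then a ^ 2 * v j else a * v j
        invFun := fun v j => if j = i0 then v j / a ^ 2 else v j / a
        left_inv := fun v => by
          funext j
          by_cases hj : j = i0
          · simp only [hj, if_true]
            field_simp
          · simp only [hj, if_false]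
            field_simp
        right_inv := fun v => by
          funext j
          by_cases hj : j = i0
          · simp only [hj, if_true]
            field_simp
          · simp only [hj, if_false]
            field_simp }
    refine hconj (diagGL i0 a ha) α (fun v => diag_symM i0 a ha v) u _ ?_ hu
    intro v
    simp only [dotProduct]
    refine Finset.sum_congr rfl fun j _ => ?_
    change (if j = i0 then u j / a ^ 2 else u j / a) * (if j = i0 then a ^ 2 * v j else a * v j) = _
    by_cases hj : j = i0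
    · simp only [hj, if_true]
      field_simp
    · simp only [hj, if_false]
      field_simp
  -- noncentrality
  let w : Fin (m + 1) → F := Pi.single i0 1
  have hrw : r w ≠ 1 := by
    intro h
    have h1 : ρ' (xEl i0 w) = 1 := Units.ext h
    have h2 : xEl i0 w ∈ Subgroup.center (Matrix.symplecticGroup (Fin (m + 1)) F) := hker (hρ' _ h1)
    have h3 := (Subgroup.mem_center_iff.1 h2) (SymplecticGroup.symJ (Fin (m + 1)) F)
    have h4 := congrArg Subtype.val h3
    change Matrix.J (Fin (m + 1)) F * fromBlocks 1 (symM i0 w) 0 1 =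
      fromBlocks 1 (symM i0 w) 0 1 * Matrix.J (Fin (m + 1)) F at h4
    rw [Matrix.J, Matrix.fromBlocks_multiply, Matrix.fromBlocks_multiply] at h4
    simp only [mul_zero, zero_mul, add_zero, zero_add, mul_one, one_mul, neg_mul, mul_neg] at h4
    have h5 := (Matrix.fromBlocks_inj.1 h4).1
    have h6 := congrFun (congrFun h5 i0) i0
    simp [symM_apply, w] at h6
  obtain ⟨u, hu, hu1⟩ := exists_eU_ne hψ h0 hadd hc hrw
  have hu0 : u i0 ≠ 0 := by
    intro h
    apply hu1
    change ψ (u ⬝ᵥ Pi.single i0 1) = 1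
    rw [dotProduct_single, h]
    simp
  -- the orbit
  have hall : ∀ (a : F), a ≠ 0 → ∀ u' : Fin (m + 1) → F, u' i0 = u i0 / a ^ 2 → eU ψ r u' ≠ 0 := by
    intro a ha u' hu'
    have h1 := hstep2 u a ha hu
    refine hstep1 _ u' ?_ ?_ h1
    · simp only [if_true]
      exact div_ne_zero hu0 (pow_ne_zero _ ha)
    · simp only [if_true]
      exact hu'
  let f : F → F := fun a => u i0 / a ^ 2
  let s₁ : Finset F := Finset.univ.erase 0
  let S₀ : Finset F := s₁.image f
  have hS₀ : q - 1 ≤ 2 * S₀.card := by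
    have h1 : s₁.card = q - 1 := by
      rw [Finset.card_erase_of_mem (Finset.mem_univ _), Finset.card_univ, hq]
    rw [← h1]
    refine Finset.card_le_mul_card_image s₁ 2 ?_
    intro t ht
    obtain ⟨b, hb, hbt⟩ := Finset.mem_image.1 ht
    have hb0 : b ≠ 0 := Finset.ne_of_mem_erase hb
    have h2 : (s₁.filter fun x => f x = t) ⊆ {b, -b} := by
      intro x hx
      obtain ⟨hx1, hx2⟩ := Finset.mem_filter.1 hx
      have hx0 : x ≠ 0 := Finset.ne_of_mem_erase hx1
      rw [← hbt] at hx2
      have h3 : x ^ 2 = b ^ 2 := by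
        simp only [f] at hx2
        field_simp at hx2
        exact hx2.symm
      simp only [Finset.mem_insert, Finset.mem_singleton]
      exact sq_eq_sq_iff_eq_or_eq_neg.1 h3
    exact (Finset.card_le_card h2).trans Finset.card_le_two
  let T : Finset (Fin (m + 1) → F) :=
    (S₀ ×ˢ (Finset.univ : Finset (Fin m → F))).image fun p => (Fin.cons p.1 p.2 : Fin (m + 1) → F)
  have hT : T.card = S₀.card * q ^ m := by
    rw [Finset.card_image_of_injective, Finset.card_product]
    · simp [hq]
    · intro p p' h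
      have h1 := (Fin.cons_inj.1 h)
      exact Prod.ext h1.1 h1.2
  have hTle : T.card ≤ d := by
    refine card_le hψ hadd hc ?_
    intro u' hu'
    obtain ⟨p, hp, rfl⟩ := Finset.mem_image.1 hu'
    obtain ⟨hp1, _⟩ := Finset.mem_product.1 hp
    obtain ⟨a, ha, hap⟩ := Finset.mem_image.1 hp1
    refine hall a (Finset.ne_of_mem_erase ha) _ ?_
    change p.1 = _
    rw [← hap]
  rw [hT] at hTle
  apply Nat.div_le_of_le_mul
  calc q ^ m * (q - 1) ≤ q ^ m * (2 * S₀.card) := Nat.mul_le_mul_left _ hS₀
    _ = 2 * (S₀.card * q ^ m) := by ring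
    _ ≤ 2 * d := Nat.mul_le_mul_left _ hTle

end Cfsg.Agent.S2393
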