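import Mathlib
import Cfsg.Statements.S2394
import Cfsg.Agent.Lib.SpOrder
import Cfsg.Agent.Lib.Zsig

set_option autoImplicit false
open Cfsg

namespace Cfsg.Agent.S2394

lemma prime_dvd_GL {q d r : ℕ} (hr : r.Prime) (hrq : ¬ r ∣ q)
    (h : r ∣ ∏ i : Fin d, (q ^ d - q ^ (i : ℕ))) (hq : 1 ≤ q) :
    ∃ j, 0 < j ∧ j ≤ d ∧ r ∣ q ^ j - 1 := by
  obtain ⟨i, _, hi⟩ := (Prime.dvd_finsetProd_iff hr.prime _).1 h
  have hid : (i : ℕ) ≤ d := i.2.le
  have h1 : q ^ d - q ^ (i : ℕ) = q ^ (i : ℕ) * (q ^ (d - i) - 1) := by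
    rw [Nat.mul_sub, mul_one, ← pow_add]
    congr 2
    omega
  rw [h1] at hi
  rcases (Nat.Prime.dvd_mul hr).1 hi with h2 | h2
  · exact absurd (hr.dvd_of_dvd_pow h2) hrq
  · exact ⟨d - i, by have := i.2; omega, by omega, h2⟩

/-- The smallest degree of a faithful representation of the symplectic group `Sp_{2n}(q)` over its own field `F_q` is `2n`: every injective homomorphism from `Sp_{2n}(F)` to `GL_d(F)`, `F` the field with `q` elements, has `d ≥ 2n`. -/
theorem result {F : Type*} [Field F] [Fintype F] (n : ℕ) {d : ℕ}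
    (ρ : ↥(Matrix.symplecticGroup (Fin n) F) →* GL (Fin d) F) (hρ : Function.Injective ρ) : 2 * n ≤ d := by
  classical
  by_contra hd
  push Not at hd
  set q := Fintype.card F with hq
  have hq2 : 1 < q := Fintype.one_lt_card
  have hdvd : Nat.card (Matrix.symplecticGroup (Fin n) F) ∣ Nat.card (GL (Fin d) F) :=
    Subgroup.card_dvd_of_injective ρ hρ
  rw [Cfsg.Agent.Lib.SpOrder.card_Sp, Matrix.card_GL_field, ← hq] at hdvd
  have hn0 : n ≠ 0 := by
    rintro rfl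
    omega
  have hfac : (q ^ (2 * n) - 1) ∣ ∏ i ∈ Finset.range n, (q ^ (2 * (i + 1)) - 1) := by
    obtain ⟨m, rfl⟩ : ∃ m, n = m + 1 := ⟨n - 1, by omega⟩
    exact Finset.dvd_prod_of_mem (fun i => q ^ (2 * (i + 1)) - 1) (Finset.mem_range.2 (Nat.lt_succ_self m))
  have hfac2 := (hfac.trans (Dvd.intro_left _ rfl)).trans hdvd
  by_cases hn1 : n = 1
  · subst hn1
    have hd1 : d ≤ 1 := by omega
    have h2 : Nat.card (Matrix.symplecticGroup (Fin 1) F) ∣ Nat.card (GL (Fin d) F) :=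
      Subgroup.card_dvd_of_injective ρ hρ
    rw [Cfsg.Agent.Lib.SpOrder.card_Sp, Matrix.card_GL_field, ← hq] at h2
    simp only [one_pow, pow_one, Finset.prod_range_one, zero_add, mul_one] at h2
    have h3 : ∏ i : Fin d, (q ^ d - q ^ (i : ℕ)) ≠ 0 := by
      interval_cases d
      · simp
      · simp; omega
    have h4 := Nat.le_of_dvd (Nat.pos_of_ne_zero h3) h2
    have h5 : q * (q ^ 2 - 1) > ∏ i : Fin d, (q ^ d - q ^ (i : ℕ)) := by
      have h6 : q ^ 2 - 1 ≥ 1 := by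
        have : q ^ 2 ≥ 2 ^ 2 := Nat.pow_le_pow_left hq2 2
        omega
      have h7 : q * (q ^ 2 - 1) ≥ q := Nat.le_mul_of_pos_right _ (by omega)
      interval_cases d
      · simp; nlinarith
      · simp; omega
    omega
  by_cases h26 : q = 2 ∧ n = 3
  · obtain ⟨h1, rfl⟩ := h26
    rw [h1] at hdvd
    have : d ≤ 5 := by omega
    interval_cases d <;> simp [Finset.prod_range_succ, Fin.prod_univ_succ] at hdvd <;> omega
  obtain ⟨r, hr, hr1, hr2⟩ := Cfsg.Agent.Lib.Zsig.zsigmondy q (2 * n) hq2 (by omega)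
    (by
      rintro ⟨h1, h2⟩
      exact h26 ⟨h1, by omega⟩)
    (by
      rintro ⟨h1, _⟩
      omega)
  have hrq : ¬ r ∣ q := by
    intro h
    have h1 : r ∣ q ^ (2 * n) := dvd_pow h (by omega)
    have h2 : 1 ≤ q ^ (2 * n) := Nat.one_le_pow _ _ (by omega)
    have h3 : r ∣ 1 := by
      have := (Nat.dvd_sub h1 hr1)
      have h4 : q ^ (2 * n) - (q ^ (2 * n) - 1) = 1 := by omega
      rwa [h4] at this
    exact hr.one_lt.ne' (Nat.dvd_one.1 h3)
  obtain ⟨j, hj0, hjd, hj⟩ := prime_dvd_GL hr hrq (hr1.trans hfac2) (by omega)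
  exact hr2 j hj0 (by omega) hj

end Cfsg.Agent.S2394
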