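-- Statement S2397: over a finite field the relators (R3) follow from (R1), (R2).
import Cfsg.Statements.S2397
import Cfsg.Agent.Lib.ChevCov.R3
import Cfsg.Agent.Lib.ChevPresAll

set_option autoImplicit false
open scoped MatrixGroups
open Cfsg

namespace Cfsg.Agent.S2397

open Cfsg.Lie Cfsg.Agent.Lib.Chev Cfsg.Agent.Lib.ChevCov

/-- Over a finite field the relators (R3) h̄_r(t₁) h̄_r(t₂) = h̄_r(t₁ t₂) are consequences of (R1) and (R2): for each of the types G₂, B₂, D₄, F₄, E₆, E₇, E₈ (for types B₂ and G₂ the field must have more than two elements — the cases where the Chevalley group is not simple are set aside) the group presented by (R1), (R2) is canonically isomorphic to the one presented by (R1)–(R3), by an isomorphism matching the generators x̄_r(t). -/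
theorem result {K : Type*} [Field K] [Finite K] (D : Cfsg.Lie.ChevalleyDatum) (hD : D ∈ [Cfsg.Lie.chevG2, Cfsg.Lie.chevB2, Cfsg.Lie.chevD4, Cfsg.Lie.chevF4, Cfsg.Lie.chevE6, Cfsg.Lie.chevE7, Cfsg.Lie.chevE8]) (hK : D ∈ [Cfsg.Lie.chevB2, Cfsg.Lie.chevG2] → ∃ x : K, x ≠ 0 ∧ x ≠ 1) :
    ∃ e : D.SteinbergCover K ≃* D.SteinbergGroup K, ∀ (r : ℕ) (t : K), e (D.scGen K r t) = D.stGen K r t := by
  classical
  have := Fintype.ofFinite K
  obtain ⟨T, X, R, hF, hP⟩ := Cfsg.Agent.Lib.ChevPres.exists_presOK D hD
  have hfin := finite_cover (K := K) hF hP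
  have hA : FreeGroup.lift (fun q : Fin D.nroots × K => PresentedGroup.of (rels := D.steinbergRelsAB K) q) =
      PresentedGroup.mk (D.steinbergRelsAB K) := by
    ext q
    simp [PresentedGroup.of]
  have hB : FreeGroup.lift (fun q : Fin D.nroots × K => PresentedGroup.of (rels := D.steinbergRels K) q) =
      PresentedGroup.mk (D.steinbergRels K) := by
    ext q
    simp [PresentedGroup.of]
  -- the relators of the smaller presentation
  have h1 : ∀ g ∈ D.steinbergRelsAB K,
      FreeGroup.lift (fun q : Fin D.nroots × K => PresentedGroup.of (rels := D.steinbergRels K) q) g = 1 := by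
    intro g hg
    rw [hB]
    exact PresentedGroup.one_of_mem (Or.inl hg)
  -- the relators of the larger presentation
  have h2 : ∀ g ∈ D.steinbergRels K,
      FreeGroup.lift (fun q : Fin D.nroots × K => PresentedGroup.of (rels := D.steinbergRelsAB K) q) g = 1 := by
    rintro g (hg | ⟨r, t₁, t₂, hr, ht₁, ht₂, rfl⟩)
    · rw [hA]
      exact PresentedGroup.one_of_mem hg
    · rw [hA, map_mul, map_mul, map_inv, mk_stH, mk_stH, mk_stH, hb_mul_cov hF hP hr ht₁ ht₂, mul_inv_cancel]
  let a : D.SteinbergCover K →* D.SteinbergGroup K := PresentedGroup.toGroup h1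
  let b : D.SteinbergGroup K →* D.SteinbergCover K := PresentedGroup.toGroup h2
  have hab : b.comp a = MonoidHom.id _ := by
    apply PresentedGroup.ext
    intro q
    simp [a, b]
  have hba : a.comp b = MonoidHom.id _ := by
    apply PresentedGroup.ext
    intro q
    simp [a, b]
  refine ⟨MonoidHom.toMulEquiv a b hab hba, ?_⟩
  intro r t
  show a (D.scGen K r t) = _
  by_cases hr : r < D.nroots
  · have e1 : D.scGen K r t = PresentedGroup.of ((⟨r, hr⟩, t) : Fin D.nroots × K) := by
      unfold ChevalleyDatum.scGen ChevalleyDatum.stX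
      rw [dif_pos hr]
      rfl
    have e2 : D.stGen K r t = PresentedGroup.of ((⟨r, hr⟩, t) : Fin D.nroots × K) := by
      unfold ChevalleyDatum.stGen ChevalleyDatum.stX
      rw [dif_pos hr]
      rfl
    rw [e1, e2]
    exact PresentedGroup.toGroup.of h1
  · have e1 : D.scGen K r t = 1 := by
      unfold ChevalleyDatum.scGen ChevalleyDatum.stX
      rw [dif_neg hr, map_one]
    have e2 : D.stGen K r t = 1 := by
      unfold ChevalleyDatum.stGen ChevalleyDatum.stX
      rw [dif_neg hr, map_one]
    rw [e1, e2, map_one]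

end Cfsg.Agent.S2397
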