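-- Statement S2398: the group presented by (R1), (R2) over a field with more than four elements lifts uniquely through
-- central extensions.
import Cfsg.Statements.S2398
import Cfsg.Agent.Lib.ChevCov.Univ

set_option autoImplicit false
open scoped MatrixGroups
open Cfsg

namespace Cfsg.Agent.S2398

open Cfsg.Lie Cfsg.Agent.Lib.Chev Cfsg.Agent.Lib.ChevCov Cfsg.Agent.Lib.ChevTorTab
open Cfsg.Agent.Lib.ChevPres (PresOK negOK_of_check)

universe u v

theorem univ_gen {K : Type u} [Field K] {T : Tabs} {X : Extra} {R : RootTab} {D : ChevalleyDatum} (hF : Full T X R D)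
    (hP : PresOK X D) (hperf : commutator (D.SteinbergCover K) = ⊤)
    (hlift : ∀ (Γ : Type (max u v)) [Group Γ] (p : Γ →* ↥(D.group K)), Function.Surjective p →
      p.ker ≤ Subgroup.center Γ → ∃ φ : D.SteinbergCover K →* Γ, p.comp φ = thetaG hF)
    {G₁ : Type*} {E : Type v} [Group G₁] [Group E] (π₁ : E →* G₁) (hπ : Function.Surjective π₁)
    (hc : π₁.ker ≤ Subgroup.center E) (σ : D.SteinbergCover K →* G₁) : ∃! τ : D.SteinbergCover K →* E, π₁.comp τ = σ :=
  univ_of_lift (thetaG hF) (thetaG_surjective hF) (by rw [ker_thetaG]; exact ker_le_center hF hP) hperf π₁ hπ hc σ hlift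

/-- Universality of the group Δ presented by Steinberg's generators with relators (R1), (R2), over a field with more than four elements (types G₂, B₂, D₄, F₄, E₆, E₇, E₈): for every central extension `π₁ : E → G₁` (surjective, central kernel) and every homomorphism `σ : Δ → G₁` there is exactly one homomorphism `τ : Δ → E` with `π₁ ∘ τ = σ`. In particular every central extension of Δ splits; together with the fact that Δ maps onto the Chevalley group with central kernel, this makes Δ the universal central extension of the Chevalley group. -/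
theorem result {K : Type*} [Field K] (hK5 : ∃ s : Finset K, 4 < s.card) (D : Cfsg.Lie.ChevalleyDatum) (hD : D ∈ [Cfsg.Lie.chevG2, Cfsg.Lie.chevB2, Cfsg.Lie.chevD4, Cfsg.Lie.chevF4, Cfsg.Lie.chevE6, Cfsg.Lie.chevE7, Cfsg.Lie.chevE8])
    {G₁ E : Type*} [Group G₁] [Group E] (π₁ : E →* G₁) (hπ : Function.Surjective π₁) (hc : π₁.ker ≤ Subgroup.center E)
    (σ : D.SteinbergCover K →* G₁) : ∃! τ : D.SteinbergCover K →* E, π₁.comp τ = σ := by
  have h1 := exists_pow_ne_one_gen hK5 (d := 1) (by norm_num) (by norm_num)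
  simp only [List.mem_cons, List.not_mem_nil, or_false] at hD
  rcases hD with rfl | rfl | rfl | rfl | rfl | rfl | rfl
  · have hF : Full _ _ _ chevG2 := ⟨RelG2.checks, RootG2.checks⟩
    have hP : PresOK _ chevG2 := ⟨negOK_of_check hF Cfsg.Agent.Lib.ChevPresNegG2.neg_ok, Cfsg.Agent.Lib.ChevPresTabG2.w_ok⟩
    refine univ_gen hF hP (perfect_of_vecs hF hP fun κ => ⟨_, 1, dual_of_ok Cfsg.Agent.Lib.ChevTorG2.dual_ok κ, h1⟩)
      (fun Γ _ p hs hc' => lift_G2 hK5 hF p hs hc') π₁ hπ hc σ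
  · have hF : Full _ _ _ chevB2 := ⟨RelB2.checks, RootB2.checks⟩
    have hP : PresOK _ chevB2 := ⟨negOK_of_check hF Cfsg.Agent.Lib.ChevPresNegB2.neg_ok, Cfsg.Agent.Lib.ChevPresTabB2.w_ok⟩
    refine univ_gen hF hP (perfect_of_vecs hF hP fun κ => ?_)
      (fun Γ _ p hs hc' => lift_B2 hK5 hF p hs hc') π₁ hπ hc σ
    obtain ⟨v, d, h2, h3, h4⟩ := vec_B2 κ
    exact ⟨v, d, h2, exists_pow_ne_one_gen hK5 h3 h4⟩
  · have hF : Full _ _ _ chevD4 := ⟨RelD4.checks, RootD4.checks⟩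
    have hP : PresOK _ chevD4 := ⟨negOK_of_check hF Cfsg.Agent.Lib.ChevPresNegD4.neg_ok, Cfsg.Agent.Lib.ChevPresTabD4.w_ok⟩
    refine univ_gen hF hP (perfect_of_vecs hF hP fun κ => ⟨_, 1, dual_of_ok Cfsg.Agent.Lib.ChevTorD4.dual_ok κ, h1⟩)
      (fun Γ _ p hs hc' => lift_D4 hK5 hF p hs hc') π₁ hπ hc σ
  · have hF : Full _ _ _ chevF4 := ⟨RelF4.checks, RootF4.checks⟩
    have hP : PresOK _ chevF4 := ⟨negOK_of_check hF Cfsg.Agent.Lib.ChevPresNegF4.neg_ok, Cfsg.Agent.Lib.ChevPresTabF4.w_ok⟩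
    refine univ_gen hF hP (perfect_of_vecs hF hP fun κ => ⟨_, 1, dual_of_ok Cfsg.Agent.Lib.ChevTorF4.dual_ok κ, h1⟩)
      (fun Γ _ p hs hc' => lift_F4 hK5 hF p hs hc') π₁ hπ hc σ
  · have hF : Full _ _ _ chevE6 := ⟨RelE6.checks, RootE6.checks⟩
    have hP : PresOK _ chevE6 := ⟨negOK_of_check hF Cfsg.Agent.Lib.ChevPresNegE6.neg_ok, Cfsg.Agent.Lib.ChevPresTabE6.w_ok⟩
    refine univ_gen hF hP (perfect_of_vecs hF hP fun κ => ⟨_, 1, dual_of_ok dualE6_ok κ, h1⟩)
      (fun Γ _ p hs hc' => lift_SL hF Cfsg.Agent.Lib.ChevSLE6.data p hs hc') π₁ hπ hc σ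
  · have hF : Full _ _ _ chevE7 := ⟨RelE7.checks, RootE7.checks⟩
    have hP : PresOK _ chevE7 := ⟨negOK_of_check hF Cfsg.Agent.Lib.ChevPresNegE7.neg_ok, Cfsg.Agent.Lib.ChevPresTabE7.w_ok⟩
    refine univ_gen hF hP (perfect_of_vecs hF hP fun κ => ⟨_, 1, dual_of_ok dualE7_ok κ, h1⟩)
      (fun Γ _ p hs hc' => lift_SL hF Cfsg.Agent.Lib.ChevSLE7.data p hs hc') π₁ hπ hc σ
  · have hF : Full _ _ _ chevE8 := ⟨RelE8.checks, RootE8.checks⟩
    have hP : PresOK _ chevE8 := ⟨negOK_of_check hF Cfsg.Agent.Lib.ChevPresNegE8.neg_ok, Cfsg.Agent.Lib.ChevPresTabE8.w_ok⟩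
    refine univ_gen hF hP (perfect_of_vecs hF hP fun κ => ⟨_, 1, dual_of_ok dualE8_ok κ, h1⟩)
      (fun Γ _ p hs hc' => lift_SL hF Cfsg.Agent.Lib.ChevSLE8.data p hs hc') π₁ hπ hc σ

end Cfsg.Agent.S2398
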