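-- Statement S2399: projective representations in the natural characteristic lift to the group presented by (R1), (R2).
import Cfsg.Statements.S2399
import Cfsg.Agent.S2398
import Cfsg.Agent.Lib.ChevCov.Proj

set_option autoImplicit false
open scoped MatrixGroups
open Cfsg

namespace Cfsg.Agent.S2399

open Cfsg.Lie Cfsg.Agent.Lib.Chev Cfsg.Agent.Lib.ChevCov

/-- Scalars have no torsion in the characteristic. -/
lemma tf_center {L : Type*} [Field L] {n ℓ : ℕ} [Fact ℓ.Prime] [CharP L ℓ] (z : GL (Fin n) L)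
    (hz : z ∈ Subgroup.center (GL (Fin n) L)) (h : z ^ ℓ = 1) : z = 1 := by
  obtain ⟨a, ha⟩ := Matrix.GeneralLinearGroup.mem_center_iff_val_mem_range_scalar.mp hz
  apply Units.ext
  ext i j
  have h1 : (Matrix.scalar (Fin n) a) ^ ℓ = 1 := by
    rw [ha]
    have := congrArg Units.val h
    simpa using this
  rw [← map_pow] at h1
  have h2 : a ^ ℓ = 1 := by
    have := congrFun (congrFun h1 i) i
    simpa [Matrix.scalar_apply] using this
  have h3 : a = 1 := by
    have h4 : (a - 1) ^ ℓ = 0 := by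
      rw [sub_pow_char, h2, one_pow, sub_self]
    have h5 := pow_eq_zero_iff (Fact.out : ℓ.Prime).ne_zero |>.mp h4
    exact sub_eq_zero.mp h5
  rw [← ha, h3]
  simp [Matrix.scalar_apply, Matrix.one_apply, Matrix.diagonal_apply]

/-- Projective representations in the natural characteristic lift: for each of the types G₂, B₂, D₄, F₄, E₆, E₇, E₈ over any field `K` (for types B₂ and G₂ the field must have more than two elements — the cases where the Chevalley group is not simple are set aside), every homomorphism from the Chevalley group to `PGL_n(L) = GL_n(L)/Z`, `L` a field of the same characteristic as `K`, lifts uniquely to a homomorphism from the group Δ presented by (R1), (R2) to `GL_n(L)`, compatibly with the projection Δ → Chevalley group sending x̄_r(t) to x_r(t). -/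
theorem result {K : Type*} [Field K] (D : Cfsg.Lie.ChevalleyDatum) (hD : D ∈ [Cfsg.Lie.chevG2, Cfsg.Lie.chevB2, Cfsg.Lie.chevD4, Cfsg.Lie.chevF4, Cfsg.Lie.chevE6, Cfsg.Lie.chevE7, Cfsg.Lie.chevE8]) (hK : D ∈ [Cfsg.Lie.chevB2, Cfsg.Lie.chevG2] → ∃ x : K, x ≠ 0 ∧ x ≠ 1)
    (θ : D.SteinbergCover K →* ↥(D.group K))
    (hθ : ∀ (r : ℕ) (t : K), r < D.nroots → ((θ (D.scGen K r t) : GL D.Idx K) : Matrix D.Idx D.Idx K) = D.x K r t)
    {L : Type*} [Field L] (hL : ringChar L = ringChar K) {n : ℕ}
    (φ : ↥(D.group K) →* GL (Fin n) L ⧸ Subgroup.center (GL (Fin n) L)) :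
    ∃! ψ : D.SteinbergCover K →* GL (Fin n) L, (QuotientGroup.mk' (Subgroup.center (GL (Fin n) L))).comp ψ = φ.comp θ := by
  classical
  by_cases hK5 : ∃ s : Finset K, 4 < s.card
  · refine Cfsg.Agent.S2398.result hK5 D hD _ (QuotientGroup.mk'_surjective _) ?_ (φ.comp θ)
    rw [QuotientGroup.ker_mk']
  -- the field is finite
  have hfin : Finite K := by
    by_contra h
    have : Infinite K := not_finite_iff_infinite.mp h
    obtain ⟨s, hs⟩ := Infinite.exists_subset_card_eq K 5
    exact hK5 ⟨s, by omega⟩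
  have := Fintype.ofFinite K
  obtain ⟨ℓ, hℓ⟩ : ∃ ℓ, ℓ = ringChar K := ⟨_, rfl⟩
  have hcK : CharP K ℓ := by
    rw [hℓ]
    exact ringChar.charP K
  have hcL : CharP L ℓ := by
    rw [hℓ, ← hL]
    exact ringChar.charP L
  have hp : ℓ.Prime := CharP.char_is_prime K ℓ
  haveI : Fact ℓ.Prime := ⟨hp⟩
  have hℓ0 : (ℓ : K) = 0 := CharP.cast_eq_zero K ℓ
  -- the pullback
  let P : Subgroup (↥(D.group K) × GL (Fin n) L) :=
    MonoidHom.eqLocus (φ.comp (MonoidHom.fst _ _))
      ((QuotientGroup.mk' (Subgroup.center (GL (Fin n) L))).comp (MonoidHom.snd _ _))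
  have hPmem : ∀ w : P, φ w.1.1 = QuotientGroup.mk' _ w.1.2 := fun w => w.2
  let q : P →* ↥(D.group K) := (MonoidHom.fst _ _).comp P.subtype
  have hqs : Function.Surjective q := by
    intro x
    obtain ⟨e, he⟩ := QuotientGroup.mk'_surjective (Subgroup.center (GL (Fin n) L)) (φ x)
    exact ⟨⟨(x, e), he.symm⟩, rfl⟩
  have hcen : ∀ z : P, z ∈ q.ker → z.1.1 = 1 ∧ z.1.2 ∈ Subgroup.center (GL (Fin n) L) := by
    intro z hz
    have hz1 : z.1.1 = 1 := hz
    refine ⟨hz1, ?_⟩
    have h2 := hPmem z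
    rw [hz1, map_one] at h2
    have h3 : z.1.2 ∈ (QuotientGroup.mk' (Subgroup.center (GL (Fin n) L))).ker := h2.symm
    rwa [QuotientGroup.ker_mk'] at h3
  have hqk : q.ker ≤ Subgroup.center P := by
    intro z hz
    obtain ⟨hz1, hz2⟩ := hcen z hz
    rw [Subgroup.mem_center_iff]
    intro w
    apply Subtype.ext
    apply Prod.ext
    · show w.1.1 * z.1.1 = z.1.1 * w.1.1
      rw [hz1, mul_one, one_mul]
    · show w.1.2 * z.1.2 = z.1.2 * w.1.2
      exact Subgroup.mem_center_iff.mp hz2 _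
  have hTF : TF q ℓ := by
    refine ⟨hℓ0, ?_⟩
    intro z hz h
    obtain ⟨hz1, hz2⟩ := hcen z hz
    apply Subtype.ext
    apply Prod.ext
    · exact hz1
    · apply tf_center _ hz2
      have := congrArg (fun w : P => w.1.2) h
      simpa using this
  obtain ⟨f, hf⟩ := lift_tf_all D hD hK q hqs hqk hTF
  have hqf : q.comp f = θ := by
    apply PresentedGroup.ext
    intro x
    have h : PresentedGroup.of (rels := D.steinbergRelsAB K) x = D.scGen K x.1 x.2 := by
      unfold ChevalleyDatum.scGen ChevalleyDatum.stX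
      rw [dif_pos x.1.2]
      rfl
    rw [h]
    apply Subtype.ext
    apply Units.ext
    rw [MonoidHom.comp_apply, hf _ _ x.1.2, hθ _ _ x.1.2]
  let r : P →* GL (Fin n) L := (MonoidHom.snd _ _).comp P.subtype
  have hψ : (QuotientGroup.mk' (Subgroup.center (GL (Fin n) L))).comp (r.comp f) = φ.comp θ := by
    apply MonoidHom.ext
    intro x
    have h1 := hPmem (f x)
    have h2 : q (f x) = θ x := DFunLike.congr_fun hqf x
    have h3 : (f x).1.1 = θ x := h2
    rw [h3] at h1
    exact h1.symm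
  refine ⟨r.comp f, hψ, ?_⟩
  intro ψ' hψ'
  apply PresentedGroup.ext
  rintro ⟨s, t⟩
  have hgen : ∀ t : K, PresentedGroup.of (rels := D.steinbergRelsAB K) ((s, t) : Fin D.nroots × K) = D.scGen K s t := by
    intro t
    unfold ChevalleyDatum.scGen ChevalleyDatum.stX
    rw [dif_pos s.2]
    rfl
  rw [hgen]
  refine uniq_add (A := GL (Fin n) L) hℓ0 (Subgroup.center _) le_rfl (fun z hz h => tf_center z hz h)
    (y := fun t => ψ' (D.scGen K s t)) (y' := fun t => (r.comp f) (D.scGen K s t)) ?_ ?_ ?_ t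
  · intro a b
    show ψ' _ = ψ' _ * ψ' _
    rw [← map_mul, yb_add]
  · intro a b
    show (r.comp f) _ = (r.comp f) _ * (r.comp f) _
    rw [← map_mul, yb_add]
  · intro t
    have e1 := DFunLike.congr_fun hψ (D.scGen K s t)
    have e2 := DFunLike.congr_fun hψ' (D.scGen K s t)
    have e3 : (QuotientGroup.mk ((r.comp f) (D.scGen K s t)) : GL (Fin n) L ⧸ Subgroup.center (GL (Fin n) L)) =
        QuotientGroup.mk (ψ' (D.scGen K s t)) := e1.trans e2.symm
    exact QuotientGroup.eq.mp e3

end Cfsg.Agent.S2399
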