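-- Statement S2400: the presented groups of type E₆, E₇, and of type B₂, D₄ over fields with more than two elements, have trivial multiplier.
import Cfsg.Statements.S2400
import Cfsg.Agent.Lib.ChevSLE6
import Cfsg.Agent.Lib.ChevSLE7
import Cfsg.Agent.Lib.ChevPresNegE6
import Cfsg.Agent.Lib.ChevPresTabE6
import Cfsg.Agent.Lib.ChevPresNegE7
import Cfsg.Agent.Lib.ChevPresTabE7
import Cfsg.Agent.Lib.ChevStD4
import Cfsg.Agent.Lib.ChevStB2

set_option autoImplicit false
open Cfsg

namespace Cfsg.Agent.S2400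

open Cfsg.Agent.Lib.Chev Cfsg.Agent.Lib.ChevPres Cfsg.Agent.Lib.ChevStRed

/-- Over a finite field `K`, the group presented by Steinberg's relators (R1)–(R3) (the universal Chevalley group) of type E₆ or E₇, or of type B₂ or D₄ with `K` of more than two elements, has trivial Schur multiplier: every finite stem extension of it is an isomorphism (Schur multiplier described through stem extensions as in the definitions). Types G₂, F₄ and E₈ are not covered here. -/
theorem result {K : Type*} [Field K] [Fintype K] (e : Cfsg.Lie.ChevalleyDatum × ℕ)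
    (he : e ∈ [(Cfsg.Lie.chevE6, 0), (Cfsg.Lie.chevE7, 0), (Cfsg.Lie.chevB2, 2), (Cfsg.Lie.chevD4, 2)]) (hK : Fintype.card K ≠ e.2) :
    Cfsg.HasCyclicSchurMultiplier (e.1.SteinbergGroup K) 1 := by
  have h2 : 1 < Fintype.card K := Fintype.one_lt_card
  simp only [List.mem_cons, List.not_mem_nil, or_false] at he
  rcases he with rfl | rfl | rfl | rfl
  · have hF : Full _ _ _ Cfsg.Lie.chevE6 := ⟨RelE6.checks, RootE6.checks⟩
    have hP : PresOK _ Cfsg.Lie.chevE6 :=
      ⟨negOK_of_check hF Cfsg.Agent.Lib.ChevPresNegE6.neg_ok, Cfsg.Agent.Lib.ChevPresTabE6.w_ok⟩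
    exact multiplier_St_SL hF hP Cfsg.Agent.Lib.ChevSLE6.data Cfsg.Agent.Lib.ChevSLE6.self_ok
  · have hF : Full _ _ _ Cfsg.Lie.chevE7 := ⟨RelE7.checks, RootE7.checks⟩
    have hP : PresOK _ Cfsg.Lie.chevE7 :=
      ⟨negOK_of_check hF Cfsg.Agent.Lib.ChevPresNegE7.neg_ok, Cfsg.Agent.Lib.ChevPresTabE7.w_ok⟩
    exact multiplier_St_SL hF hP Cfsg.Agent.Lib.ChevSLE7.data Cfsg.Agent.Lib.ChevSLE7.self_ok
  · exact Cfsg.Agent.Lib.ChevStB2.multiplier_B2 (by
      have : Fintype.card K ≠ 2 := hK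
      omega)
  · exact Cfsg.Agent.Lib.ChevStD4.multiplier_D4 (by
      have : Fintype.card K ≠ 2 := hK
      omega)

end Cfsg.Agent.S2400
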