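import Cfsg.Statements.S2405
import Cfsg.Agent.Lib.ChevGen2.E
import Cfsg.Agent.Lib.ChevGen2.DF
import Cfsg.Agent.Lib.ChevGen2.BG

set_option autoImplicit false
open Cfsg

namespace Cfsg.Agent.S2405

/-- Each Chevalley group of type G₂, B₂, D₄, F₄, E₆, E₇ or E₈ over a finite field is generated by two of its elements (types B₂ and G₂ over the field with two elements, where the group is not simple, excepted). -/
theorem result {F : Type*} [Field F] [Finite F] (D : Cfsg.Lie.ChevalleyDatum) (hD : D ∈ [Cfsg.Lie.chevG2, Cfsg.Lie.chevB2, Cfsg.Lie.chevD4, Cfsg.Lie.chevF4, Cfsg.Lie.chevE6, Cfsg.Lie.chevE7, Cfsg.Lie.chevE8])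
    (hF : D ∈ [Cfsg.Lie.chevB2, Cfsg.Lie.chevG2] → ∃ x : F, x ≠ 0 ∧ x ≠ 1) :
    ∃ a b : ↥(D.group F), Subgroup.closure ({a, b} : Set ↥(D.group F)) = ⊤ := by
  classical
  haveI := Fintype.ofFinite F
  have hq : D ∈ [Cfsg.Lie.chevB2, Cfsg.Lie.chevG2] → 2 < Fintype.card F := by
    intro h
    obtain ⟨x, h0, h1⟩ := hF h
    exact Fintype.two_lt_card_iff.2 ⟨0, 1, x, zero_ne_one, h0.symm, h1.symm⟩
  simp only [List.mem_cons, List.not_mem_nil, or_false] at hD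
  rcases hD with rfl | rfl | rfl | rfl | rfl | rfl | rfl
  · exact Cfsg.Agent.Lib.Chev.TwoGen.two_gen_G2 (hq (by simp))
  · exact Cfsg.Agent.Lib.Chev.TwoGen.two_gen_B2 (hq (by simp))
  · exact Cfsg.Agent.Lib.Chev.TwoGen.two_gen_D4
  · exact Cfsg.Agent.Lib.Chev.TwoGen.two_gen_F4
  · exact Cfsg.Agent.Lib.Chev.TwoGen.two_gen_E6
  · exact Cfsg.Agent.Lib.Chev.TwoGen.two_gen_E7
  · exact Cfsg.Agent.Lib.Chev.TwoGen.two_gen_E8

end Cfsg.Agent.S2405
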