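import Mathlib
import Cfsg.Agent.Lib.OmTwoAlg
import Cfsg.Agent.Lib.OrthoFive
import Cfsg.Agent.S2411
import Cfsg.Statements.S2413

set_option autoImplicit false
open Cfsg

namespace Cfsg.Agent.S2413

open Matrix QuadraticMap Cfsg Cfsg.Geo Module
open scoped MatrixGroups
open Cfsg.Agent.Lib.LawEmbed (IsHyp sl_inv_mul)
open Cfsg.Agent.Lib.OrthGroup (refl refl_apply B O G O_le_G)
open Cfsg.Agent.Lib.OrthOmega (prodR prodO prodR_cons prodO_mem_commutator sq_mem_commutator)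
open Cfsg.Agent.Lib.OrthMatrix (glEquiv toO mem_Omega_iff toO_apply mulVec_glEquiv_symm mem_isometryGroup)
open Cfsg.Agent.Lib.HypNeg (IsHypCoord)
open Cfsg.Agent.Lib.OrthoBasic Cfsg.Agent.Lib.OrthoSiegel Cfsg.Agent.Lib.OrthoGen Cfsg.Agent.Lib.OrthoCount Cfsg.Agent.Lib.OrthoOrder
  Cfsg.Agent.Lib.OrthoFinal Cfsg.Agent.Lib.OmCalc Cfsg.Agent.Lib.OmTwoCore Cfsg.Agent.Lib.OmTwoField
  Cfsg.Agent.Lib.OmTwoHyp Cfsg.Agent.Lib.OmTwoAlg
open Cfsg.Agent.Lib.SympT (GL_ext mulVec_mul_GL mulVec_inv_GL inv_mulVec_GL)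

local notation:70 g:71 " ⋆ " x:70 => Matrix.mulVec (Units.val g) x

section swap

variable {F : Type*} [Field F] [Fintype F] {ι : Type} [Fintype ι] [DecidableEq ι] {n : ℕ}
  {e : (Fin n ⊕ Fin n) ⊕ Unit ≃ ι} {Q : QuadraticForm F (ι → F)}

/-- The form on the extra coordinate. -/
abbrev Rk₁ (F : Type*) [Field F] : (Unit → F) → F := fun c => (c ()) ^ 2

theorem polar_Rk₁ (c c' : Unit → F) : polar (Rk₁ F) c c' = 2 * c () * c' () := by
  show (c () + c' ()) ^ 2 - c () ^ 2 - c' () ^ 2 = 2 * c () * c' ()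
  ring

theorem Rk₁_zero : Rk₁ F 0 = 0 := by simp

/-- A product of reflections performing the signed swap on the coordinates in a list. -/
theorem prodR_swap_neg (h : IsHyp e (⇑Q) (Rk₁ F)) (l : List (Fin n)) (hl : l.Nodup) (x : ι → F) :
    (∀ j, prodR Q (l.map fun j => Pi.single (e (.inl (.inl j))) 1 + Pi.single (e (.inl (.inr j))) 1) x (e (.inl (.inl j))) =
      if j ∈ l then - x (e (.inl (.inr j))) else x (e (.inl (.inl j)))) ∧
    (∀ j, prodR Q (l.map fun j => Pi.single (e (.inl (.inl j))) 1 + Pi.single (e (.inl (.inr j))) 1) x (e (.inl (.inr j))) =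
      if j ∈ l then - x (e (.inl (.inl j))) else x (e (.inl (.inr j)))) ∧
    (∀ c, prodR Q (l.map fun j => Pi.single (e (.inl (.inl j))) 1 + Pi.single (e (.inl (.inr j))) 1) x (e (.inr c)) =
      x (e (.inr c))) := by
  have hR0 := Rk₁_zero (F := F)
  induction l with
  | nil => simp
  | cons i l ih =>
    obtain ⟨hi, hl'⟩ := List.nodup_cons.mp hl
    obtain ⟨ih1, ih2, ih3⟩ := ih hl'
    rw [List.map_cons, prodR_cons]
    have hc : (-1 : F) ≠ 0 := by simp
    have hr : ∀ (x : ι → F) k, refl Q (Pi.single (e (.inl (.inl i))) 1 + Pi.single (e (.inl (.inr i))) 1) x k =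
        if k = e (.inl (.inl i)) then - x (e (.inl (.inr i))) else if k = e (.inl (.inr i)) then - x (e (.inl (.inl i))) else x k := by
      intro x k
      have := Cfsg.Agent.Lib.HypLevi.hyp_refl_sub_smul_apply (hypCoord_of h hR0 i) hc x k
      simpa using this
    refine ⟨?_, ?_, ?_⟩
    · intro j
      change refl Q _ (prodR Q _ x) _ = _
      rw [hr]
      by_cases hji : j = i
      · subst hji
        simp only [if_true, List.mem_cons, true_or]
        rw [ih2, if_neg hi]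
      · have h1 : ¬ (e (Sum.inl (Sum.inl j)) = e (Sum.inl (Sum.inl i))) := by
          intro h'
          apply hji
          simpa using e.injective h'
        have h2 : ¬ (e (Sum.inl (Sum.inl j)) = e (Sum.inl (Sum.inr i))) := by
          intro h'
          simpa using e.injective h'
        simp [h1, h2, hji, ih1]
    · intro j
      change refl Q _ (prodR Q _ x) _ = _
      rw [hr]
      by_cases hji : j = i
      · subst hji
        have h1 : ¬ (e (Sum.inl (Sum.inr j)) = e (Sum.inl (Sum.inl j))) := by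
          intro h'
          simpa using e.injective h'
        simp only [h1, if_false, if_true, List.mem_cons, true_or]
        rw [ih1, if_neg hi]
      · have h1 : ¬ (e (Sum.inl (Sum.inr j)) = e (Sum.inl (Sum.inr i))) := by
          intro h'
          apply hji
          simpa using e.injective h'
        have h2 : ¬ (e (Sum.inl (Sum.inr j)) = e (Sum.inl (Sum.inl i))) := by
          intro h'
          simpa using e.injective h'
        simp [h1, h2, hji, ih2]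
    · intro c
      change refl Q _ (prodR Q _ x) _ = _
      rw [hr]
      have h1 : ¬ (e (Sum.inr c) = e (Sum.inl (Sum.inl i))) := by
        intro h'
        simpa using e.injective h'
      have h2 : ¬ (e (Sum.inr c) = e (Sum.inl (Sum.inr i))) := by
        intro h'
        simpa using e.injective h'
      simp [h1, h2, ih3]

/-- The reflection in the extra coordinate. -/
theorem refl_extra (h : IsHyp e (⇑Q) (Rk₁ F)) (hQ1 : (2 : F) ≠ 0) (x y : Fin n → F) (c : Unit → F) :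
    refl Q (vec e 0 0 1) (vec e x y c) = vec e x y (-c) := by
  have h1 : Q (vec e 0 0 (1 : Unit → F)) = 1 := by
    rw [Q_vec h]
    simp
  have h2 : B Q (vec e x y c) (vec e 0 0 (1 : Unit → F)) = 2 * c () := by
    change polar Q _ _ = _
    rw [polar_vec h, polar_Rk₁]
    simp
  rw [Cfsg.Agent.Lib.OrthGroup.refl_apply, h1, h2, inv_one, one_mul, Lib.OmTwoHyp.vec_smul, Lib.OmTwoHyp.vec_sub]
  congr 1
  · simp
  · simp
  · funext i
    simp
    ring

/-- The signed swap in `Ω`. -/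
theorem exists_swap_neg (h : IsHyp e (⇑Q) (Rk₁ F)) (hQ : Nondeg Q) (h2 : (2 : F) ≠ 0) :
    ∃ (ε : F) (g : ↥(isometryGroup F ⇑Q)), ε ≠ 0 ∧ g ∈ Omega F ⇑Q ∧
      ∀ x y c, (g : GL ι F) ⋆ vec e x y c = vec e (-y) (-x) (ε • c) := by
  classical
  have hR0 := Rk₁_zero (F := F)
  have hB : (B Q).Nondegenerate := Cfsg.Agent.Lib.QuadFF.nondegenerate_of_ND (nd_of hQ)
  let L : List (ι → F) := (List.finRange n).map fun j => Pi.single (e (.inl (.inl j))) 1 + Pi.single (e (.inl (.inr j))) 1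
  have hQL : ∀ v ∈ L, Q v = 1 := by
    intro v hv
    obtain ⟨j, -, rfl⟩ := List.mem_map.mp hv
    exact (hypCoord_of h hR0 j).Q_add
  have hsw : ∀ x y c, prodR Q L (vec e x y c) = vec e (-y) (-x) c := by
    intro x y c
    obtain ⟨h1, h2, h3⟩ := prodR_swap_neg h (List.finRange n) (List.nodup_finRange n) (vec e x y c)
    apply vec_ext e
    · intro j
      have := h1 j
      simpa [L] using this
    · intro j
      have := h2 j
      simpa [L] using this
    · intro j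
      have := h3 j
      simpa [L] using this
  have hmk : ∀ L' : List (ι → F), (∀ v ∈ L', Q v = 1) → Even L'.length →
      ∃ g : ↥(isometryGroup F ⇑Q), g ∈ Omega F ⇑Q ∧ ∀ x, ((g : GL ι F) : Matrix ι ι F) *ᵥ x = prodR Q L' x := by
    intro L' hL' hev
    let g : ↥(isometryGroup F ⇑Q) := (toO Q).symm (prodO Q L')
    refine ⟨g, ?_, ?_⟩
    · rw [mem_Omega_iff, MulEquiv.apply_symm_apply]
      apply prodO_mem_commutator hB L' (fun v hv => by rw [hL' v hv]; exact one_ne_zero) hev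
      have : (L'.map Q).prod = 1 := by
        apply List.prod_eq_one
        intro x hx
        obtain ⟨v, hv, rfl⟩ := List.mem_map.mp hx
        exact hL' v hv
      rw [this]
      exact IsSquare.one
    · intro x
      have h1 := toO_apply Q g x
      rw [← h1, MulEquiv.apply_symm_apply]
      rfl
  rcases Nat.even_or_odd n with hev | hodd
  · obtain ⟨g, hg, hg'⟩ := hmk L hQL (by simpa [L] using hev)
    refine ⟨1, g, one_ne_zero, hg, fun x y c => ?_⟩
    rw [hg', hsw, one_smul]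
  · have hd : Q (vec e 0 0 (1 : Unit → F)) = 1 := by
      rw [Q_vec h]
      simp
    obtain ⟨g, hg, hg'⟩ := hmk (L ++ [vec e 0 0 1]) (by
      intro v hv
      rcases List.mem_append.mp hv with hv | hv
      · exact hQL v hv
      · rw [List.mem_singleton.mp hv, hd]) (by
      simp only [List.length_append, List.length_cons, List.length_nil, zero_add, L, List.length_map,
        List.length_finRange]
      exact hodd.add_one)
    refine ⟨-1, g, by simp, hg, fun x y c => ?_⟩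
    rw [hg', Cfsg.Agent.Lib.OrthOmega.prodR_append]
    change prodR Q L (prodR Q [vec e 0 0 1] (vec e x y c)) = _
    have : prodR Q [vec e 0 0 1] (vec e x y c) = refl Q (vec e 0 0 1) (vec e x y c) := by
      rw [prodR_cons]
      rfl
    rw [this, refl_extra h h2, hsw, neg_smul, one_smul]

end swap

section model

variable {F : Type*} [Field F] [Fintype F] {K : Type*} [Field K] [Fintype K] [Algebra F K]
  {ι : Type} [Fintype ι] [DecidableEq ι] {n : ℕ} {e : (Fin n ⊕ Fin n) ⊕ Unit ≃ ι} (b : Basis (Fin n) F K)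
  {Q : QuadraticForm F (ι → F)}

/-- The element `j`. -/
theorem exists_j_odd (h : IsHyp e (⇑Q) (Rk₁ F)) (hQ : Nondeg Q) (h2 : (2 : F) ≠ 0) (hn : 3 ≤ n) :
    ∃ (δ : Kˣ) (ε : F) (g : ↥(isometryGroup F ⇑Q)), ε ≠ 0 ∧ g ∈ Omega F ⇑Q ∧ ∀ x y c, (g : GL ι F) ⋆ em e b x y c =
      em e b (-(((δ⁻¹ : Kˣ) : K) * y)) (-((δ : K) * x)) (ε • c) := by
  have hnd : ∀ x : K, (∀ y, Algebra.trace F K (x * y) = 0) → x = 0 := by
    intro x hx
    apply (traceForm_nondegenerate F K).1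
    intro z
    rw [Algebra.traceForm_apply]
    exact hx z
  have hG : IsUnit (gram b) := gram_isUnit b hnd
  have hG' : gram b * (gram b)⁻¹ = 1 := Matrix.mul_nonsing_inv _ ((Matrix.isUnit_iff_isUnit_det _).1 hG)
  have hG'' : (gram b)⁻¹ * gram b = 1 := Matrix.nonsing_inv_mul _ ((Matrix.isUnit_iff_isUnit_det _).1 hG)
  have hdet0 : (gram b).det ≠ 0 := ((Matrix.isUnit_iff_isUnit_det _).1 hG).ne_zero
  obtain ⟨δ₀, hδ₀⟩ := FiniteField.norm_surjective F K ((gram b).det)⁻¹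
  have hδ₀0 : δ₀ ≠ 0 := by
    rintro rfl
    rw [Algebra.norm_zero] at hδ₀
    exact inv_ne_zero hdet0 hδ₀.symm
  let δ : Kˣ := Units.mk0 δ₀ hδ₀0
  have hc1 : rho b ((δ⁻¹ : Kˣ) : K) * rho b (δ : K) = 1 := by
    rw [← map_mul, Units.inv_mul, map_one]
  have hdet : (rho b (δ : K)).det * (gram b).det = 1 := by
    rw [← Algebra.norm_eq_matrix_det, show ((δ : Kˣ) : K) = δ₀ from rfl, hδ₀, inv_mul_cancel₀ hdet0]
  have hinv : rho b ((δ⁻¹ : Kˣ) : K) * (gram b)⁻¹ * (gram b * rho b (δ : K)) = 1 := by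
    rw [Matrix.mul_assoc, ← Matrix.mul_assoc (gram b)⁻¹, hG'', Matrix.one_mul, hc1]
  have hdet1 : (rho b ((δ⁻¹ : Kˣ) : K) * (gram b)⁻¹).det = 1 := by
    have h1 := congrArg Matrix.det hinv
    rw [Matrix.det_mul, Matrix.det_one, Matrix.det_mul (gram b), mul_comm (gram b).det, hdet, mul_one] at h1
    exact h1
  let P : SL(n, F) := ⟨rho b ((δ⁻¹ : Kˣ) : K) * (gram b)⁻¹, hdet1⟩
  have hP1 : ((P⁻¹ : SL(n, F)).1) = gram b * rho b (δ : K) := by
    have h1 := sl_inv_mul P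
    have h2 : P.1 * (gram b * rho b (δ : K)) = 1 := hinv
    calc ((P⁻¹ : SL(n, F)).1) = ((P⁻¹ : SL(n, F)).1) * (P.1 * (gram b * rho b (δ : K))) := by rw [h2, Matrix.mul_one]
      _ = gram b * rho b (δ : K) := by rw [← Matrix.mul_assoc, h1, Matrix.one_mul]
  have hP2 : ((P⁻¹ : SL(n, F)).1)ᵀ = gram b * rho b (δ : K) := by
    rw [hP1, Matrix.transpose_mul, gram_transpose, ← gram_mul_rho]
  obtain ⟨ε, g₁, hε, hg₁, hg₁'⟩ := exists_swap_neg h hQ h2
  obtain ⟨g₂, hg₂, hg₂'⟩ := exists_levi h hn P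
  refine ⟨δ, ε, g₂ * g₁, hε, Subgroup.mul_mem _ hg₂ hg₁, fun x y w => ?_⟩
  have h1 : ((g₂ * g₁ : ↥(isometryGroup F ⇑Q)) : GL ι F) = (g₂ : GL ι F) * (g₁ : GL ι F) := rfl
  rw [h1, mulVec_mul_GL, Lib.OmTwoAlg.em, hg₁', hg₂', hP2, Lib.OmTwoAlg.em]
  congr 1
  · show (rho b ((δ⁻¹ : Kˣ) : K) * (gram b)⁻¹) *ᵥ (-(gram b *ᵥ (b.repr y : Fin n → F))) = _
    rw [Matrix.mulVec_neg, Matrix.mulVec_mulVec, Matrix.mul_assoc, hG'', Matrix.mul_one, rho_mulVec]
    simp
  · rw [Matrix.mulVec_neg, ← Matrix.mulVec_mulVec, rho_mulVec]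
    simp [Matrix.mulVec_neg]

theorem hG_K : IsUnit (gram b) := by
  have hnd : ∀ x : K, (∀ y, Algebra.trace F K (x * y) = 0) → x = 0 := by
    intro x hx
    apply (traceForm_nondegenerate F K).1
    intro z
    rw [Algebra.traceForm_apply]
    exact hx z
  exact gram_isUnit b hnd

variable (e) in
/-- Vectors with a scalar last coordinate. -/
noncomputable def vv (x y : K) (c : F) : ι → F := em e b x y (fun _ => c)

theorem vv_add (x y x' y' : K) (c c' : F) : vv e b x y c + vv e b x' y' c' = vv e b (x + x') (y + y') (c + c') := by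
  rw [vv, vv, em_add, vv]
  rfl

theorem vv_sub (x y x' y' : K) (c c' : F) : vv e b x y c - vv e b x' y' c' = vv e b (x - x') (y - y') (c - c') := by
  rw [vv, vv, em_sub, vv]
  rfl

theorem vv_smul (t : F) (x y : K) (c : F) : t • vv e b x y c = vv e b (t • x) (t • y) (t * c) := by
  rw [vv, em_smul, vv]
  rfl

theorem exists_vv (v : ι → F) : ∃ x y c, v = vv e b x y c := by
  obtain ⟨x, y, c, rfl⟩ := exists_em e b (hG_K b) v
  exact ⟨x, y, c (), rfl⟩

variable {b}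

theorem Q_vv (h : IsHyp e (⇑Q) (Rk₁ F)) (x y : K) (c : F) : Q (vv e b x y c) = Algebra.trace F K (x * y) + c ^ 2 := by
  rw [vv, Q_em b h]

theorem polar_vv (h : IsHyp e (⇑Q) (Rk₁ F)) (x y x' y' : K) (c c' : F) :
    polar Q (vv e b x y c) (vv e b x' y' c') = Algebra.trace F K (x * y') + Algebra.trace F K (x' * y) + 2 * c * c' := by
  rw [vv, vv, polar_em b h, polar_Rk₁]

theorem Q_il (h : IsHyp e (⇑Q) (Rk₁ F)) (X : K) : Q (vv e b X 0 0) = 0 := by
  rw [Q_vv h]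
  simp

theorem p_il_d (h : IsHyp e (⇑Q) (Rk₁ F)) (X : K) : polar Q (vv e b X 0 0) (vv e b 0 0 1) = 0 := by
  rw [polar_vv h]
  simp

theorem p_il_il (h : IsHyp e (⇑Q) (Rk₁ F)) (X X' : K) : polar Q (vv e b X 0 0) (vv e b X' 0 0) = 0 := by
  rw [polar_vv h]
  simp

variable (b) (h : IsHyp e (⇑Q) (Rk₁ F)) (hQ : Nondeg Q)

/-- `t_X = sE(X, d)`. -/
noncomputable def tt (X : K) : GL ι F := sE hQ (Q_il (b := b) h X) (p_il_d h X)

/-- `ζ_{X, X'} = sE(X, X')`. -/
noncomputable def zz (X X' : K) : GL ι F := sE hQ (Q_il (b := b) h X) (p_il_il h X X')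

theorem tt_vv (X x y : K) (c : F) : tt b h hQ X ⋆ vv e b x y c =
    vv e b (x - (2 * c + Algebra.trace F K (X * y)) • X) y (c + Algebra.trace F K (X * y)) := by
  rw [tt, sE_apply', polar_vv h, polar_vv h, Q_vv h, vv_smul, vv_smul, vv_add, vv_sub]
  congr 1
  · simp
  · simp
  · simp

theorem zz_vv (X X' x y : K) (c : F) : zz b h hQ X X' ⋆ vv e b x y c =
    vv e b (x + Algebra.trace F K (X * y) • X' - Algebra.trace F K (X' * y) • X) y c := by
  rw [zz, sE_apply', polar_vv h, polar_vv h, Q_vv h, vv_smul, vv_smul, vv_add, vv_sub]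
  congr 1
  · simp
  · simp
  · simp

theorem tt_mul (X X' : K) : tt b h hQ X * tt b h hQ X' = zz b h hQ X X' * tt b h hQ (X + X') := by
  apply GL_ext
  intro v
  obtain ⟨x, y, c, rfl⟩ := exists_vv (e := e) b v
  rw [mulVec_mul_GL, mulVec_mul_GL, tt_vv, tt_vv, tt_vv, zz_vv, add_mul, map_add]
  congr 1
  · module
  · ring

theorem zz_mul (X X' X'' : K) : zz b h hQ X X' * zz b h hQ X X'' = zz b h hQ X (X' + X'') := by
  apply GL_ext
  intro v
  obtain ⟨x, y, c, rfl⟩ := exists_vv (e := e) b v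
  rw [mulVec_mul_GL, zz_vv, zz_vv, zz_vv, add_mul, map_add]
  congr 1
  module

theorem zz_swap (X X' : K) : zz b h hQ X X' * zz b h hQ X' X = 1 := by
  apply GL_ext
  intro v
  obtain ⟨x, y, c, rfl⟩ := exists_vv (e := e) b v
  rw [mulVec_mul_GL, zz_vv, zz_vv]
  simp only [Units.val_one, Matrix.one_mulVec]
  congr 1
  module

theorem tt_neg (X : K) : (tt b h hQ X)⁻¹ = tt b h hQ (-X) := by
  rw [inv_eq_iff_mul_eq_one]
  apply GL_ext
  intro v
  obtain ⟨x, y, c, rfl⟩ := exists_vv (e := e) b v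
  rw [mulVec_mul_GL, tt_vv, tt_vv]
  simp only [Units.val_one, Matrix.one_mulVec, neg_mul, map_neg]
  congr 1
  · module
  · ring

theorem tt_zero : tt b h hQ 0 = 1 := by
  apply GL_ext
  intro v
  obtain ⟨x, y, c, rfl⟩ := exists_vv (e := e) b v
  rw [tt_vv]
  simp

theorem tt_iso (X : K) (v : ι → F) : Q (tt b h hQ X ⋆ v) = Q v := sE_iso hQ _ _ v

/-- The group of transformations `(x, y, c) ↦ (x + φ(y), y, c)`. -/
def Zphi (e : (Fin n ⊕ Fin n) ⊕ Unit ≃ ι) (b : Basis (Fin n) F K) : Subgroup (GL ι F) where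
  carrier := {z | ∃ φ : K → K, ∀ x y c, z ⋆ vv e b x y c = vv e b (x + φ y) y c}
  mul_mem' := by
    rintro z z' ⟨φ, hφ⟩ ⟨φ', hφ'⟩
    refine ⟨fun y => φ' y + φ y, fun x y c => ?_⟩
    rw [mulVec_mul_GL, hφ', hφ, add_assoc]
  one_mem' := ⟨fun _ => 0, fun x y c => by simp⟩
  inv_mem' := by
    rintro z ⟨φ, hφ⟩
    refine ⟨fun y => - φ y, fun x y c => ?_⟩
    have h1 := hφ (x + - φ y) y c
    rw [neg_add_cancel_right] at h1
    rw [← h1, inv_mulVec_GL]

theorem Zphi_comm {z z' : GL ι F} (hz : z ∈ Zphi e b) (hz' : z' ∈ Zphi e b) : z * z' = z' * z := by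
  obtain ⟨φ, hφ⟩ := hz
  obtain ⟨φ', hφ'⟩ := hz'
  apply GL_ext
  intro v
  obtain ⟨x, y, c, rfl⟩ := exists_vv (e := e) b v
  rw [mulVec_mul_GL, mulVec_mul_GL, hφ, hφ', hφ, hφ', add_right_comm]

theorem Zphi_comm_tt {z : GL ι F} (hz : z ∈ Zphi e b) (X : K) : z * tt b h hQ X = tt b h hQ X * z := by
  obtain ⟨φ, hφ⟩ := hz
  apply GL_ext
  intro v
  obtain ⟨x, y, c, rfl⟩ := exists_vv (e := e) b v
  rw [mulVec_mul_GL, mulVec_mul_GL, hφ, tt_vv, tt_vv, hφ]
  congr 1
  abel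

theorem zz_mem_Zphi (X X' : K) : zz b h hQ X X' ∈ Zphi e b :=
  ⟨fun y => Algebra.trace F K (X * y) • X' - Algebra.trace F K (X' * y) • X, fun x y c => by
    rw [zz_vv, add_sub_assoc]⟩

/-- The group generated by the `ζ`. -/
def Zz : Subgroup (GL ι F) := Subgroup.closure (Set.range fun p : K × K => zz b h hQ p.1 p.2)

theorem Zz_le : Zz b h hQ ≤ Zphi e b := by
  rw [Zz, Subgroup.closure_le]
  rintro _ ⟨p, rfl⟩
  exact zz_mem_Zphi b h hQ _ _

theorem zz_mem_Zz (X X' : K) : zz b h hQ X X' ∈ Zz b h hQ :=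
  Subgroup.subset_closure ⟨(X, X'), rfl⟩

/-- The Levi elements. -/
noncomputable def levT (e : (Fin n ⊕ Fin n) ⊕ Unit ≃ ι) (b : Basis (Fin n) F K) : Kˣ →* GL ι F :=
  (lev e).comp ((rhoU b).prod 1)

theorem levT_vv (τ : Kˣ) (x y : K) (c : F) :
    levT e b τ ⋆ vv e b x y c = vv e b ((τ : K) * x) (((τ⁻¹ : Kˣ) : K) * y) c := by
  have h1 : levT e b τ = lev e (rhoU b τ, 1) := rfl
  rw [h1, vv, lev_em, vv]
  simp

include h in
theorem levT_iso (τ : Kˣ) (v : ι → F) : Q (levT e b τ ⋆ v) = Q v :=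
  lev_iso h _ (fun c => by simp) v

theorem levT_tt (τ : Kˣ) (X : K) : levT e b τ * tt b h hQ X * (levT e b τ)⁻¹ = tt b h hQ ((τ : K) * X) := by
  rw [tt, sE_conj hQ (levT_iso b h τ) _ _ (by rw [levT_iso b h]; exact Q_il h X)
    (by rw [polar_iso (levT_iso b h τ)]; exact p_il_d h X)]
  apply sE_congr
  · rw [levT_vv]
    simp
  · rw [levT_vv]
    simp

theorem levT_zz (τ : Kˣ) (X X' : K) : levT e b τ * zz b h hQ X X' * (levT e b τ)⁻¹ = zz b h hQ ((τ : K) * X) ((τ : K) * X') := by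
  rw [zz, sE_conj hQ (levT_iso b h τ) _ _ (by rw [levT_iso b h]; exact Q_il h X)
    (by rw [polar_iso (levT_iso b h τ)]; exact p_il_il h X X')]
  apply sE_congr
  · rw [levT_vv]
    simp
  · rw [levT_vv]
    simp

theorem levT_Zz (τ : Kˣ) {z : GL ι F} (hz : z ∈ Zz b h hQ) :
    levT e b τ * z * (levT e b τ)⁻¹ ∈ Zz b h hQ := by
  have h1 : Zz b h hQ ≤ (Zz b h hQ).comap (MulAut.conj (levT e b τ)).toMonoidHom := by
    rw [Zz, Subgroup.closure_le]
    rintro _ ⟨p, rfl⟩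
    show levT e b τ * zz b h hQ p.1 p.2 * (levT e b τ)⁻¹ ∈ Zz b h hQ
    rw [levT_zz]
    exact zz_mem_Zz b h hQ _ _
  exact h1 hz

theorem omega_le_main (h2 : (2 : F) ≠ 0) (h7 : 7 ≤ Fintype.card ι) (fr : Frame Q) {θ : Kˣ}
    (hθ : ∀ x, x ∈ Subgroup.zpowers θ) (hθ2 : θ * θ ≠ 1) {δ : Kˣ} {ε : F} (hε : ε ≠ 0) {j : GL ι F}
    (hj : ∀ x y c, j ⋆ em e b x y c = em e b (-(((δ⁻¹ : Kˣ) : K) * y)) (-((δ : K) * x)) (ε • c))
    (hjQ : ∀ v, Q (j ⋆ v) = Q v) {M : Subgroup (GL ι F)} (haM : levT e b (θ * θ) ∈ M)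
    (hbM : tt b h hQ 1 * j ∈ M) : omegaGL ⇑Q ≤ M := by
  classical
  have hj' : ∀ x y c, j ⋆ vv e b x y c = vv e b (-(((δ⁻¹ : Kˣ) : K) * y)) (-((δ : K) * x)) (ε * c) := by
    intro x y c
    exact hj x y _
  set a := levT e b (θ * θ) with hadef
  have hainv : a⁻¹ = levT e b (θ * θ)⁻¹ := by rw [hadef, map_inv]
  set ξ : K := ((θ * θ : Kˣ) : K) with hξ
  have hξ0 : ξ ≠ 0 := (θ * θ).ne_zero
  have hξ1 : ξ - 1 ≠ 0 := by
    intro h1
    apply hθ2
    exact Units.ext (sub_eq_zero.mp h1)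
  have hjj : j * a * j⁻¹ = a⁻¹ := by
    rw [mul_inv_eq_iff_eq_mul]
    apply GL_ext
    intro v
    obtain ⟨x, y, c, rfl⟩ := exists_vv (e := e) b v
    rw [mulVec_mul_GL, mulVec_mul_GL, hainv, hj', levT_vv, hj', levT_vv]
    congr 1
    · simp only [mul_neg]
      ring
    · simp only [inv_inv, mul_neg]
      ring
  -- the set `P`
  let P : Set K := {X | ∃ z ∈ Zz b h hQ, tt b h hQ X * z ∈ M}
  have hP0 : (0 : K) ∈ P := ⟨1, Subgroup.one_mem _, by rw [tt_zero, mul_one]; exact M.one_mem⟩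
  have hPadd : ∀ X X', X ∈ P → X' ∈ P → X + X' ∈ P := by
    rintro X X' ⟨z, hz, hzM⟩ ⟨z', hz', hz'M⟩
    refine ⟨zz b h hQ X X' * z * z', Subgroup.mul_mem _ (Subgroup.mul_mem _ (zz_mem_Zz b h hQ _ _) hz) hz', ?_⟩
    have h1 : tt b h hQ (X + X') * (zz b h hQ X X' * z * z') = (tt b h hQ X * z) * (tt b h hQ X' * z') := by
      calc tt b h hQ (X + X') * (zz b h hQ X X' * z * z') = (tt b h hQ (X + X') * zz b h hQ X X') * z * z' := by group
        _ = (zz b h hQ X X' * tt b h hQ (X + X')) * z * z' := by rw [Zphi_comm_tt b h hQ (zz_mem_Zphi b h hQ _ _)]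
        _ = (tt b h hQ X * tt b h hQ X') * z * z' := by rw [tt_mul]
        _ = tt b h hQ X * (tt b h hQ X' * z) * z' := by group
        _ = tt b h hQ X * (z * tt b h hQ X') * z' := by rw [Zphi_comm_tt b h hQ (Zz_le b h hQ hz)]
        _ = _ := by group
    rw [h1]
    exact M.mul_mem hzM hz'M
  have hPconj : ∀ (τ : Kˣ), levT e b τ ∈ M → ∀ X, X ∈ P → (τ : K) * X ∈ P := by
    rintro τ hτ X ⟨z, hz, hzM⟩
    refine ⟨_, levT_Zz b h hQ τ hz, ?_⟩
    have h1 : tt b h hQ ((τ : K) * X) * (levT e b τ * z * (levT e b τ)⁻¹) =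
        levT e b τ * (tt b h hQ X * z) * (levT e b τ)⁻¹ := by
      rw [← levT_tt]
      group
    rw [h1]
    exact M.mul_mem (M.mul_mem hτ hzM) (M.inv_mem hτ)
  have hP1 : ξ - 1 ∈ P := by
    refine ⟨zz b h hQ ξ (-1), zz_mem_Zz b h hQ _ _, ?_⟩
    have h1 : tt b h hQ (ξ - 1) * zz b h hQ ξ (-1) = a * ((tt b h hQ 1 * j) * a * (tt b h hQ 1 * j)⁻¹) := by
      have h3 : (tt b h hQ 1 * j) * a * (tt b h hQ 1 * j)⁻¹ = tt b h hQ 1 * (j * a * j⁻¹) * (tt b h hQ 1)⁻¹ := by group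
      have h4 : a * tt b h hQ 1 * a⁻¹ = tt b h hQ ξ := by
        rw [hadef, levT_tt, mul_one]
      have h5 : a * (tt b h hQ 1 * a⁻¹ * (tt b h hQ 1)⁻¹) = (a * tt b h hQ 1 * a⁻¹) * (tt b h hQ 1)⁻¹ := by group
      rw [h3, hjj, h5, h4, tt_neg, tt_mul, ← Zphi_comm_tt b h hQ (zz_mem_Zphi b h hQ _ _), sub_eq_add_neg]
    rw [h1]
    exact M.mul_mem haM (M.mul_mem (M.mul_mem hbM haM) (M.inv_mem hbM))
  have hPsq : ∀ γ : K, γ ^ 2 * (ξ - 1) ∈ P := by
    intro γ
    by_cases hγ : γ = 0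
    · rw [hγ]
      simpa using hP0
    · obtain ⟨i, hi⟩ := hθ (Units.mk0 γ hγ)
      have hi' : (θ ^ i : Kˣ) = Units.mk0 γ hγ := hi
      have h1 : ((θ * θ) ^ i : Kˣ) = Units.mk0 γ hγ * Units.mk0 γ hγ := by
        rw [← hi', mul_zpow]
      have h2 : levT e b ((θ * θ) ^ i) ∈ M := by
        rw [map_zpow]
        exact M.zpow_mem haM i
      have h3 := hPconj _ h2 _ hP1
      rw [h1] at h3
      have h5 : ((Units.mk0 γ hγ * Units.mk0 γ hγ : Kˣ) : K) = γ ^ 2 := by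
        simp [_root_.sq]
      rwa [h5] at h3
  have hPall : ∀ X, X ∈ P := by
    intro X
    obtain ⟨α, β, hαβ⟩ := sum_two_squares (X / (ξ - 1))
    have h1 : X = α ^ 2 * (ξ - 1) + β ^ 2 * (ξ - 1) := by
      rw [← add_mul, ← hαβ]
      field_simp
    rw [h1]
    exact hPadd _ _ (hPsq α) (hPsq β)
  -- commutators
  have hzzM : ∀ X X', zz b h hQ X X' ∈ M := by
    intro X X'
    obtain ⟨z, hz, hzM⟩ := hPall X
    obtain ⟨z', hz', hz'M⟩ := hPall ((2⁻¹ : F) • X')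
    set Y := (2⁻¹ : F) • X' with hY
    have hYY : Y + Y = X' := by
      rw [hY, ← add_smul, ← two_mul, mul_inv_cancel₀ h2, one_smul]
    have hZ := Zz_le b h hQ hz
    have hZ' := Zz_le b h hQ hz'
    have e1 : (tt b h hQ X * z) * (tt b h hQ Y * z') = zz b h hQ X Y * tt b h hQ (X + Y) * (z * z') := by
      calc (tt b h hQ X * z) * (tt b h hQ Y * z') = tt b h hQ X * (z * tt b h hQ Y) * z' := by group
        _ = tt b h hQ X * (tt b h hQ Y * z) * z' := by rw [Zphi_comm_tt b h hQ hZ]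
        _ = (tt b h hQ X * tt b h hQ Y) * (z * z') := by group
        _ = _ := by rw [tt_mul]
    have e2 : (tt b h hQ Y * z') * (tt b h hQ X * z) = zz b h hQ Y X * tt b h hQ (X + Y) * (z * z') := by
      calc (tt b h hQ Y * z') * (tt b h hQ X * z) = tt b h hQ Y * (z' * tt b h hQ X) * z := by group
        _ = tt b h hQ Y * (tt b h hQ X * z') * z := by rw [Zphi_comm_tt b h hQ hZ']
        _ = (tt b h hQ Y * tt b h hQ X) * (z' * z) := by group
        _ = _ := by rw [tt_mul, add_comm Y X, Zphi_comm b hZ' hZ]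
    have e3 : (zz b h hQ Y X)⁻¹ = zz b h hQ X Y := by
      rw [inv_eq_iff_mul_eq_one]
      exact zz_swap b h hQ Y X
    have e4 : (tt b h hQ X * z) * (tt b h hQ Y * z') * (tt b h hQ X * z)⁻¹ * (tt b h hQ Y * z')⁻¹ = zz b h hQ X X' := by
      have e5 : (tt b h hQ X * z) * (tt b h hQ Y * z') * (tt b h hQ X * z)⁻¹ * (tt b h hQ Y * z')⁻¹ =
          ((tt b h hQ X * z) * (tt b h hQ Y * z')) * ((tt b h hQ Y * z') * (tt b h hQ X * z))⁻¹ := by group
      rw [e5, e1, e2]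
      have e6 : zz b h hQ X Y * tt b h hQ (X + Y) * (z * z') * (zz b h hQ Y X * tt b h hQ (X + Y) * (z * z'))⁻¹ =
          zz b h hQ X Y * (zz b h hQ Y X)⁻¹ := by group
      rw [e6, e3, zz_mul, hYY]
    rw [← e4]
    exact M.mul_mem (M.mul_mem (M.mul_mem hzM hz'M) (M.inv_mem hzM)) (M.inv_mem hz'M)
  have hZzM : Zz b h hQ ≤ M := by
    rw [Zz, Subgroup.closure_le]
    rintro _ ⟨p, rfl⟩
    exact hzzM _ _
  have httM : ∀ X, tt b h hQ X ∈ M := by
    intro X
    obtain ⟨z, hz, hzM⟩ := hPall X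
    have := M.mul_mem hzM (M.inv_mem (hZzM hz))
    rwa [mul_inv_cancel_right] at this
  have hjM : j ∈ M := by
    have := M.mul_mem (M.inv_mem (httM 1)) hbM
    rwa [inv_mul_cancel_left] at this
  -- `R`-facts
  have hRll : ∀ X X', R hQ M (vv e b X 0 0) (vv e b X' 0 0) := fun X X' => ⟨Q_il h X, p_il_il h X X', hzzM X X'⟩
  have hRld : ∀ X, R hQ M (vv e b X 0 0) (vv e b 0 0 1) := fun X => ⟨Q_il h X, p_il_d h X, httM X⟩
  have hδ0 : (δ : K) ≠ 0 := δ.ne_zero
  have hRrd : ∀ Y, R hQ M (vv e b 0 Y 0) (vv e b 0 0 1) := by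
    intro Y
    have h1 := R_conj hjQ hjM (hRld (-(((δ⁻¹ : Kˣ) : K) * (ε⁻¹ • Y))))
    rw [hj', hj'] at h1
    have h3 : vv e b (-(((δ⁻¹ : Kˣ) : K) * 0)) (-((δ : K) * 0)) (ε * 1) = ε • vv e b 0 0 1 := by
      rw [vv_smul]
      simp
    rw [h3] at h1
    have h4 := R_smul_left ε h1
    have h5 : ε • vv e b (-(((δ⁻¹ : Kˣ) : K) * 0)) (-((δ : K) * -(((δ⁻¹ : Kˣ) : K) * (ε⁻¹ • Y)))) (ε * 0) = vv e b 0 Y 0 := by
      rw [vv_smul]
      congr 1
      · simp
      · rw [mul_neg, neg_neg, ← mul_assoc, Units.mul_inv, one_mul, smul_smul, mul_inv_cancel₀ hε, one_smul]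
      · simp
    rwa [h5] at h4
  have hRlr : ∀ E Y, Algebra.trace F K (E * Y) = 0 → R hQ M (vv e b E 0 0) (vv e b 0 Y 0) := by
    intro E Y hEY
    set Y₂ := (2⁻¹ : F) • Y with hY₂
    have hT : Algebra.trace F K (E * Y₂) = 0 := by
      rw [hY₂, mul_smul_comm, map_smul, hEY, smul_zero]
    have h1 := R_conj (tt_iso b h hQ E) (httM E) (hRrd Y₂)
    rw [tt_vv, tt_vv, hT] at h1
    have h0 : vv e b (0 - (2 * (0 : F) + 0) • E) Y₂ (0 + 0) = vv e b 0 Y₂ 0 := by
      congr 1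
      · simp
      · simp
    rw [h0] at h1
    have h3 := R_sub (hRrd Y₂) h1
    have h4 : vv e b (0 : K) 0 1 - vv e b (0 - (2 * 1 + Algebra.trace F K (E * 0)) • E) 0 (1 + Algebra.trace F K (E * 0)) = (2 : F) • vv e b E 0 0 := by
      rw [vv_sub, vv_smul]
      congr 1
      · simp
      · simp
      · simp
    rw [h4] at h3
    have h5 := R_swap' h3 (by rw [QuadraticMap.map_smul, Q_il h, smul_zero])
    have h6 := R_smul_right (Q_il h E) 2 h5
    have h7 : (2 : F) • vv e b 0 Y₂ 0 = vv e b 0 Y 0 := by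
      rw [vv_smul, hY₂, smul_smul, mul_inv_cancel₀ h2, one_smul]
      simp
    rwa [h7] at h6
  have hTl : ∀ E, T hQ M (vv e b E 0 0) := by
    intro E
    refine ⟨Q_il h E, fun v hv => ?_⟩
    obtain ⟨x, y, c, rfl⟩ := exists_vv (e := e) b v
    rw [polar_vv h] at hv
    have h0 : Algebra.trace F K (E * y) = 0 := by simpa using hv
    have h1 : vv e b x y c = vv e b x 0 0 + vv e b 0 y 0 + c • vv e b 0 0 1 := by
      rw [vv_smul, vv_add, vv_add]
      simp
    rw [h1]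
    refine R_add (R_add (hRll _ _) (hRlr E y h0)) (R_smul_right (Q_il h E) c ?_)
    have h3 : c • vv e b E 0 0 = vv e b (c • E) 0 0 := by
      rw [vv_smul]
      simp
    rw [h3]
    exact hRld _
  obtain ⟨E, hE⟩ : ∃ E : K, Algebra.trace F K (E * ((δ : K) * E)) ≠ 0 := by
    by_contra hno
    push Not at hno
    apply hδ0
    apply (traceForm_nondegenerate F K).1
    intro z
    rw [Algebra.traceForm_apply]
    obtain ⟨α, β, hαβ⟩ := sum_two_squares z
    have h1 : (δ : K) * z = α * ((δ : K) * α) + β * ((δ : K) * β) := by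
      rw [hαβ]
      ring
    rw [h1, map_add, hno, hno, add_zero]
  have hT' := T_conj hjQ hjM (hTl E)
  refine omega_le_of_opp' hQ h7 fr (hTl E) hT' ?_
  rw [hj', polar_vv h]
  simpa using hE

end model

theorem big_case {F : Type*} [Field F] [Fintype F] (hodd : Odd (Fintype.card F)) (m : ℕ) (hm : 3 ≤ m) :
    ∃ a b : Cfsg.POmega F (Cfsg.quadFormOdd m F), Subgroup.closure ({a, b} : Set (Cfsg.POmega F (Cfsg.quadFormOdd m F))) = ⊤ := by
  classical
  obtain ⟨m', rfl⟩ : ∃ m', m = m' + 2 := ⟨m - 2, by omega⟩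
  obtain ⟨fr⟩ := frameOdd hodd m'
  have hf : (Cfsg.quadFormOdd (m' + 2) F) = ⇑(qOdd (m' + 2) F) := by
    funext v
    rw [qOdd_apply]
  rw [hf]
  set Q := qOdd (m' + 2) F with hQdef
  have hQ : Nondeg Q := nondeg_qOdd hodd (m' + 2)
  let e : (Fin (m' + 2) ⊕ Fin (m' + 2)) ⊕ Unit ≃ Unit ⊕ (Fin (m' + 2) ⊕ Fin (m' + 2)) := Equiv.sumComm _ _
  have h : IsHyp e (⇑Q) (Rk₁ F) := by
    intro v
    rw [hQdef, qOdd_apply]
    simp [Cfsg.quadFormOdd, e, add_comm]
  have h2 : (2 : F) ≠ 0 := Cfsg.Agent.Lib.OrthoChar.char_ne_two_of_odd hodd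
  have hcard : Fintype.card (Unit ⊕ (Fin (m' + 2) ⊕ Fin (m' + 2))) = 2 * (m' + 2) + 1 := by simp; ring
  have h4 : Fintype.card (Unit ⊕ (Fin (m' + 2) ⊕ Fin (m' + 2))) ≠ 4 := by omega
  have h7 : 7 ≤ Fintype.card (Unit ⊕ (Fin (m' + 2) ⊕ Fin (m' + 2))) := by omega
  obtain ⟨p, hp⟩ := CharP.exists F
  haveI := hp
  haveI : Fact p.Prime := ⟨CharP.char_is_prime F p⟩
  haveI : NeZero (m' + 2) := ⟨by omega⟩
  let K := FiniteField.Extension F p (m' + 2)
  letI : Fintype K := Fintype.ofFinite K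
  have hfr : Module.finrank F K = m' + 2 := FiniteField.finrank_extension F p (m' + 2)
  let b : Basis (Fin (m' + 2)) F K := Module.finBasisOfFinrankEq F K hfr
  obtain ⟨θ, hθ⟩ := IsCyclic.exists_generator (α := Kˣ)
  have hθ2 : θ * θ ≠ 1 := by
    intro hh
    have h1 : orderOf θ = Fintype.card Kˣ := orderOf_eq_card_of_forall_mem_zpowers hθ |>.trans Nat.card_eq_fintype_card
    have h3 : Fintype.card Kˣ = Fintype.card K - 1 := Fintype.card_units K
    have h5 : orderOf θ ∣ 2 := orderOf_dvd_of_pow_eq_one (by rw [_root_.sq]; exact hh)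
    have h6 := Nat.le_of_dvd (by norm_num) h5
    have h8 : Fintype.card K = Fintype.card F ^ (m' + 2) := by
      rw [Module.card_eq_pow_finrank (K := F) (V := K), hfr]
    have h9 : 2 ≤ Fintype.card F := Fintype.one_lt_card
    have h10 : 2 ^ 3 ≤ Fintype.card F ^ (m' + 2) :=
      (Nat.pow_le_pow_right (by norm_num) (by omega)).trans (Nat.pow_le_pow_left h9 _)
    omega
  obtain ⟨δ, ε, j, hε, hjΩ, hj⟩ := exists_j_odd b h hQ h2 (by omega)
  have hjQ : ∀ v, Q ((j : GL _ F) ⋆ v) = Q v := (mem_isometryGroup _ _).1 j.2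
  have haΩ : levT e b (θ * θ) ∈ omegaGL ⇑Q := by
    refine ⟨isoOf (levT e b θ) (levT_iso b h θ) * isoOf (levT e b θ) (levT_iso b h θ), sq_mem_omega hQ h4 _, ?_⟩
    rw [map_mul (levT e b)]
    rfl
  apply gen_of_GL (ga := levT e b (θ * θ)) (gb := tt b h hQ 1 * (j : GL _ F)) haΩ
  · exact Subgroup.mul_mem _ (sE_mem_omega hQ h4 fr _ _) ⟨j, hjΩ, rfl⟩
  intro M haM hbM
  exact omega_le_main b h hQ h2 h7 fr hθ hθ2 hε hj hjQ haM hbM

/-- The simple orthogonal group `PΩ_{2m+1}(q)` (commutator subgroup of the orthogonal group of `x₀² + Σ x_i y_i` modulo its centre) with `m ≥ 2` and `q` odd is generated by two of its elements. -/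
theorem result {F : Type*} [Field F] [Fintype F] (hodd : Odd (Fintype.card F)) (m : ℕ) (hm : 2 ≤ m) :
    ∃ a b : Cfsg.POmega F (Cfsg.quadFormOdd m F), Subgroup.closure ({a, b} : Set (Cfsg.POmega F (Cfsg.quadFormOdd m F))) = ⊤ := by
  rcases Nat.lt_or_ge m 3 with h3 | h3
  · obtain rfl : m = 2 := by omega
    obtain ⟨φ⟩ := Cfsg.Agent.Lib.OrthoFive.pomega_five (F := F) hodd
    have hq : 2 < Fintype.card F := by
      obtain ⟨k, hk⟩ := hodd
      have := Fintype.one_lt_card (α := F)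
      omega
    obtain ⟨a, b, hab⟩ := Cfsg.Agent.S2411.result (F := F) 2 le_rfl (fun _ => hq)
    refine ⟨φ.symm a, φ.symm b, ?_⟩
    have h1 := congrArg (Subgroup.map φ.symm.toMonoidHom) hab
    rw [MonoidHom.map_closure, Set.image_pair, Subgroup.map_top_of_surjective _ φ.symm.surjective] at h1
    exact h1
  · exact big_case hodd m h3

end Cfsg.Agent.S2413
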