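import Mathlib
import Cfsg.Agent.Lib.OmTwoAlg
import Cfsg.Statements.S2414

set_option autoImplicit false
open Cfsg

namespace Cfsg.Agent.S2414

open Matrix QuadraticMap Cfsg Cfsg.Geo Module
open Cfsg.Agent.Lib.LawEmbed (IsHyp)
open Cfsg.Agent.Lib.OrthoBasic Cfsg.Agent.Lib.OrthoSiegel Cfsg.Agent.Lib.OrthoGen Cfsg.Agent.Lib.OrthoCount Cfsg.Agent.Lib.OrthoOrder
  Cfsg.Agent.Lib.OrthoFinal Cfsg.Agent.Lib.OmCalc Cfsg.Agent.Lib.OmTwoCore Cfsg.Agent.Lib.OmTwoField
  Cfsg.Agent.Lib.OmTwoHyp Cfsg.Agent.Lib.OmTwoAlg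
open Cfsg.Agent.Lib.OrthMatrix (mem_isometryGroup)
open Cfsg.Agent.Lib.SympT (GL_ext mulVec_mul_GL mulVec_inv_GL inv_mulVec_GL)

local notation:70 g:71 " ⋆ " x:70 => Matrix.mulVec (Units.val g) x

/-- The coordinates for `m` odd. -/
def eOdd (n : ℕ) : (Fin n ⊕ Fin n) ⊕ Fin 2 ≃ Fin (n + 1) ⊕ Fin (n + 1) where
  toFun := Sum.elim (Sum.elim (fun i => .inl i.castSucc) (fun i => .inr i.castSucc))
    (fun c => if c = 0 then .inl (Fin.last n) else .inr (Fin.last n))
  invFun := Sum.elim (fun i => Fin.lastCases (.inr 0) (fun i => .inl (.inl i)) i)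
    (fun i => Fin.lastCases (.inr 1) (fun i => .inl (.inr i)) i)
  left_inv := by
    rintro ((i | i) | c)
    · simp
    · simp
    · fin_cases c
      · simp
      · simp
  right_inv := by
    rintro (i | i)
    · induction i using Fin.lastCases with
      | last => simp
      | cast i => simp
    · induction i using Fin.lastCases with
      | last => simp
      | cast i => simp

theorem sE_pow {ι : Type} [Fintype ι] [DecidableEq ι] {F : Type*} [Field F] [Fintype F] {Q : QuadraticForm F (ι → F)}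
    (hQ : Nondeg Q) {u y : ι → F} (hu : Q u = 0) (hy : polar Q u y = 0) (N : ℕ) (hy' : polar Q u ((N : F) • y) = 0) :
    (sE hQ hu hy) ^ N = sE hQ hu hy' := by
  induction N with
  | zero =>
    apply GL_ext
    intro x
    rw [sE_apply]
    simp [siegelLin_apply]
  | succ N ih =>
    have h1 : polar Q u ((N : F) • y) = 0 := by
      rw [polar_smul_right, hy, smul_zero]
    rw [pow_succ, ih h1, sE_mul hQ hu h1 hy (by rw [polar_add_right, h1, hy, add_zero])]
    apply sE_congr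
    · rfl
    · push_cast
      rw [add_smul, one_smul]

theorem even_case {F : Type*} [Field F] [Fintype F] (m : ℕ) (hm : 4 ≤ m) (hev : Even m) :
    ∃ a b : Cfsg.POmega F (Cfsg.quadFormPlus m F), Subgroup.closure ({a, b} : Set (Cfsg.POmega F (Cfsg.quadFormPlus m F))) = ⊤ := by
  classical
  obtain ⟨m', rfl⟩ : ∃ m', m = m' + 3 := ⟨m - 3, by omega⟩
  obtain ⟨fr⟩ := framePlus (F := F) m'
  have hf : (Cfsg.quadFormPlus (m' + 3) F) = ⇑(qPlus (m' + 3) F) := by
    funext v
    rw [qPlus_apply]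
  rw [hf]
  set Q := qPlus (m' + 3) F with hQdef
  have hQ : Nondeg Q := nondeg_qPlus (m' + 3)
  let e : (Fin (m' + 3) ⊕ Fin (m' + 3)) ⊕ Empty ≃ (Fin (m' + 3) ⊕ Fin (m' + 3)) := Equiv.sumEmpty _ _
  let Rk : (Empty → F) → F := fun _ => 0
  have hR0 : Rk 0 = 0 := rfl
  have h : IsHyp e (⇑Q) Rk := by
    intro v
    rw [hQdef, qPlus_apply]
    simp [Cfsg.quadFormPlus, e, Rk]
  have hcard : Fintype.card (Fin (m' + 3) ⊕ Fin (m' + 3)) = 2 * (m' + 3) := by simp; ring
  have h4 : Fintype.card (Fin (m' + 3) ⊕ Fin (m' + 3)) ≠ 4 := by omega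
  have h7 : 7 ≤ Fintype.card (Fin (m' + 3) ⊕ Fin (m' + 3)) := by omega
  obtain ⟨K, _, _, _, b, θ, hθ, hθ2, h8, h14⟩ := exists_field_data F (m' + 3) (m' + 2) rfl (by omega)
  have hG : IsUnit (gram b) := gram_isUnit b hnd_FK
  have hu := Q_u (K := K) b h hR0
  have hw : polar Q (em e b ((1 : F), (0 : K)) 0 0) (em e b ((0 : F), (1 : K)) (0, 1) 0) = 0 := by
    rw [polar_u b h hR0]
  obtain ⟨d, j, hd0, hjΩ, hj⟩ := exists_j_FK b h hR0 hQ (by omega) hev
  have hjQ : ∀ v, Q ((j : GL _ F) ⋆ v) = Q v := (mem_isometryGroup _ _).1 j.2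
  obtain ⟨g₀, hg₀, hg₀'⟩ := levK_sq_mem b hQ h4 h θ
  apply gen_of_GL (ga := levK e b (θ * θ)) (gb := sE hQ hu hw * (j : GL _ F))
  · exact ⟨g₀, hg₀, hg₀'⟩
  · exact Subgroup.mul_mem _ (sE_mem_omega hQ h4 fr hu hw) ⟨j, hjΩ, rfl⟩
  intro M haM hbM
  have key := core_W b hQ h hG d hj hθ hθ2 h8 h14 rfl rfl hu hw haM hbM
  have hT : T hQ M (em e b ((1 : F), (0 : K)) 0 0) := by
    refine ⟨hu, fun y hy => ?_⟩
    obtain ⟨x, y', c, rfl⟩ := exists_em e b hG y
    rw [polar_u b h hR0] at hy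
    have hc : c = 0 := Subsingleton.elim _ _
    have h1 : em e b x y' c = x.1 • em e b ((1 : F), (0 : K)) 0 0 + fW e b (x.2, y'.2) := by
      rw [em_smul, fW_apply, em_add, hc]
      congr 1
      · apply Prod.ext <;> simp
      · apply Prod.ext
        · simp [hy]
        · simp
      · simp
    rw [h1]
    exact R_add (R_self hu _) (key _)
  have htM : sE hQ hu hw ∈ M := by
    obtain ⟨_, _, h2⟩ := hT.2 _ hw
    exact h2
  have hjM : (j : GL _ F) ∈ M := by
    have := M.mul_mem (M.inv_mem htM) hbM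
    rwa [inv_mul_cancel_left] at this
  have hT' := T_conj hjQ hjM hT
  refine omega_le_of_opp' hQ h7 fr hT hT' ?_
  rw [hj, polar_u' b h hR0]
  simpa using hd0

theorem odd_case {F : Type*} [Field F] [Fintype F] (m : ℕ) (hm : 4 ≤ m) (hodd : Odd m) :
    ∃ a b : Cfsg.POmega F (Cfsg.quadFormPlus m F), Subgroup.closure ({a, b} : Set (Cfsg.POmega F (Cfsg.quadFormPlus m F))) = ⊤ := by
  classical
  obtain ⟨n', rfl⟩ : ∃ n', m = n' + 2 + 1 := ⟨m - 3, by omega⟩
  have hev : Even (n' + 2) := by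
    rcases Nat.even_or_odd (n' + 2) with h | h
    · exact h
    · exact absurd hodd (by simpa [Nat.odd_add_one] using h)
  obtain ⟨fr⟩ := framePlus (F := F) n'
  have hf : (Cfsg.quadFormPlus (n' + 2 + 1) F) = ⇑(qPlus (n' + 2 + 1) F) := by
    funext v
    rw [qPlus_apply]
  rw [hf]
  set Q := qPlus (n' + 2 + 1) F with hQdef
  have hQ : Nondeg Q := nondeg_qPlus (n' + 2 + 1)
  let e := eOdd (n' + 2)
  let Rk : (Fin 2 → F) → F := fun c => c 0 * c 1
  have hR0 : Rk 0 = 0 := by simp [Rk]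
  have h : IsHyp e (⇑Q) Rk := by
    intro v
    rw [hQdef, qPlus_apply, Cfsg.quadFormPlus, Fin.sum_univ_castSucc]
    simp [e, Rk, eOdd]
  have hRp : ∀ c c' : Fin 2 → F, polar Rk c c' = c 0 * c' 1 + c' 0 * c 1 := by
    intro c c'
    simp only [polar, Rk, Pi.add_apply]
    ring
  have hcard : Fintype.card (Fin (n' + 2 + 1) ⊕ Fin (n' + 2 + 1)) = 2 * (n' + 2 + 1) := by simp; ring
  have h4 : Fintype.card (Fin (n' + 2 + 1) ⊕ Fin (n' + 2 + 1)) ≠ 4 := by omega
  have h7 : 7 ≤ Fintype.card (Fin (n' + 2 + 1) ⊕ Fin (n' + 2 + 1)) := by omega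
  have hn4 : 4 ≤ n' + 2 := by
    obtain ⟨r, hr⟩ := hev
    omega
  obtain ⟨K, _, _, _, b, θ, hθ, hθ2, h8, h14⟩ := exists_field_data F (n' + 2) (n' + 1) rfl (by omega)
  have hG : IsUnit (gram b) := gram_isUnit b hnd_FK
  set u := em e b ((1 : F), (0 : K)) 0 0 with hudef
  have hu : Q u = 0 := Q_u (K := K) b h hR0
  set y_ := em e b (0 : F × K) 0 ![1, 0] with hy_def
  set ys := em e b (0 : F × K) 0 ![0, 1] with hysdef
  have hQy_ : Q y_ = 0 := by
    rw [hy_def, Q_em b h]
    simp [Rk]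
  have hQys : Q ys = 0 := by
    rw [hysdef, Q_em b h]
    simp [Rk]
  have hpy_ : polar Q u y_ = 0 := by rw [hudef, hy_def, polar_u b h hR0]; rfl
  have hpys : polar Q u ys = 0 := by rw [hudef, hysdef, polar_u b h hR0]; rfl
  set w₀ := em e b ((0 : F), (1 : K)) (0, 1) ![0, 1] with hw₀def
  have hw : polar Q u w₀ = 0 := by rw [hudef, hw₀def, polar_u b h hR0]
  obtain ⟨d, j, hd0, hjΩ, hj⟩ := exists_j_FK b h hR0 hQ (by omega) hev
  have hjQ : ∀ v, Q ((j : GL _ F) ⋆ v) = Q v := (mem_isometryGroup _ _).1 j.2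
  obtain ⟨g₀, hg₀, hg₀'⟩ := levK_sq_mem b hQ h4 h θ
  set z := sE hQ hu hpy_ with hzdef
  have hzΩ : z ∈ omegaGL ⇑Q := sE_mem_omega hQ h4 fr hu hpy_
  have ha₀Ω : levK e b (θ * θ) ∈ omegaGL ⇑Q := ⟨g₀, hg₀, hg₀'⟩
  apply gen_of_GL (ga := levK e b (θ * θ) * z) (gb := sE hQ hu hw * (j : GL _ F))
  · exact Subgroup.mul_mem _ ha₀Ω hzΩ
  · exact Subgroup.mul_mem _ (sE_mem_omega hQ h4 fr hu hw) ⟨j, hjΩ, rfl⟩
  intro M haM hbM
  -- splitting `a`
  have hau : levK e b (θ * θ) ⋆ u = u := by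
    rw [hudef, levK_em]
    simp [Prod.mk_zero_zero]
  have hay_ : levK e b (θ * θ) ⋆ y_ = y_ := by
    rw [hy_def, levK_em]
    simp [Prod.mk_zero_zero]
  have hcomm : Commute (levK e b (θ * θ)) z := by
    have h1 : levK e b (θ * θ) * z * (levK e b (θ * θ))⁻¹ = z := by
      rw [hzdef, sE_conj hQ (levK_iso b h _) hu hpy_ (by rw [hau]; exact hu) (by rw [hau, hay_]; exact hpy_)]
      exact sE_congr hQ _ _ _ _ hau hay_
    exact (mul_inv_eq_iff_eq_mul.mp h1)
  have hzM : z ∈ M := by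
    have hN1 : ((Fintype.card K - 1 : ℕ) : F) = -1 := by
      have h1 : ((Fintype.card K : ℕ) : K) = 0 := FiniteField.cast_card_eq_zero K
      have h2 : ((Fintype.card K : ℕ) : F) = 0 := by
        apply (algebraMap F K).injective
        rw [map_natCast, h1, map_zero]
      have h3 : 1 ≤ Fintype.card K := by omega
      rw [Nat.cast_sub h3, h2]
      simp
    have h1 : (levK e b (θ * θ)) ^ (Fintype.card K - 1) = 1 := by
      rw [← map_pow]
      have : (θ * θ) ^ (Fintype.card K - 1) = 1 := by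
        rw [← Fintype.card_units]
        exact pow_card_eq_one
      rw [this, map_one]
    have hy' : polar Q u (((Fintype.card K - 1 : ℕ) : F) • y_) = 0 := by
      rw [polar_smul_right, hpy_, smul_zero]
    have h2 : (levK e b (θ * θ) * z) ^ (Fintype.card K - 1) = z⁻¹ := by
      rw [hcomm.mul_pow, h1, one_mul, hzdef, sE_pow hQ hu hpy_ _ hy',
        sE_inv hQ hu hpy_ (y' := -y_) (by rw [polar_neg_right, hpy_, neg_zero]) rfl]
      exact sE_congr hQ _ _ _ _ rfl (by rw [hN1, neg_one_smul])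
    have h3 := M.pow_mem haM (Fintype.card K - 1)
    rw [h2] at h3
    simpa using M.inv_mem h3
  have ha₀M : levK e b (θ * θ) ∈ M := by
    have := M.mul_mem haM (M.inv_mem hzM)
    rwa [mul_inv_cancel_right] at this
  have key := core_W b hQ h hG d hj hθ hθ2 h8 h14 hudef hw₀def hu hw ha₀M hbM
  -- the element `b'`
  have hb'M : sE hQ hu hpys * (j : GL _ F) ∈ M := by
    have h1 := key (1, 1)
    obtain ⟨_, h2, h3⟩ := h1
    have h4 : sE hQ hu h2 * sE hQ hu hpys = sE hQ hu hw := by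
      rw [sE_mul hQ hu h2 hpys (by rw [polar_add_right, h2, hpys, add_zero])]
      apply sE_congr hQ _ _ _ _ rfl
      rw [fW_apply, hysdef, em_add, hw₀def]
      congr 1
      · apply Prod.ext <;> simp
      · apply Prod.ext <;> simp
      · simp
    rw [← h4, mul_assoc] at hbM
    have := M.mul_mem (M.inv_mem h3) hbM
    rwa [inv_mul_cancel_left] at this
  -- formulas
  have hpol_u : ∀ x y c, polar Q (em e b x y c) u = y.1 := fun x y c => polar_u' b h hR0 x y c
  have hpol_ys : ∀ (x y : F × K) c, polar Q (em e b x y c) ys = c 0 := by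
    intro x y c
    rw [hysdef, polar_em b h, hRp]
    simp
  have hpol_y_ : ∀ (x y : F × K) c, polar Q (em e b x y c) y_ = c 1 := by
    intro x y c
    rw [hy_def, polar_em b h, hRp]
    simp
  have hsys : ∀ x y c, sE hQ hu hpys ⋆ em e b x y c = em e b (x.1 - c 0, x.2) y (c + y.1 • ![0, 1]) := by
    intro x y c
    rw [sE_apply', hpol_u, hpol_ys, hQys, hysdef, hudef, em_smul, em_smul, em_add, em_sub]
    congr 1
    · apply Prod.ext <;> simp
    · simp
    · simp
  have hsy_ : ∀ x y c, z ⋆ em e b x y c = em e b (x.1 - c 1, x.2) y (c + y.1 • ![1, 0]) := by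
    intro x y c
    rw [hzdef, sE_apply', hpol_u, hpol_y_, hQy_, hy_def, hudef, em_smul, em_smul, em_add, em_sub]
    congr 1
    · apply Prod.ext <;> simp
    · simp
    · simp
  have hb' : ∀ x y c, (sE hQ hu hpys * (j : GL _ F)) ⋆ em e b x y c =
      em e b (d⁻¹ * y.1 - c 0, y.2) (d * x.1, x.2) (c + (d * x.1) • ![0, 1]) := by
    intro x y c
    rw [mulVec_mul_GL, hj, hsys]
  have hzQ : ∀ v, Q (z ⋆ v) = Q v := fun v => by rw [hzdef]; exact sE_iso hQ hu hpy_ v
  have hb'Q : ∀ v, Q ((sE hQ hu hpys * (j : GL _ F)) ⋆ v) = Q v := fun v => by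
    rw [mulVec_mul_GL, sE_iso, hjQ]
  -- good vectors
  have hGu : Good hQ M e b u := good_u hu key
  have hb'fW : ∀ p, (sE hQ hu hpys * (j : GL _ F)) ⋆ fW e b (p.2, p.1) = fW e b p := by
    intro p
    rw [fW_apply, hb', fW_apply]
    simp [Prod.mk_zero_zero]
  have hzfW : ∀ p, z ⋆ fW e b p = fW e b p := by
    intro p
    rw [fW_apply, hsy_]
    simp [Prod.mk_zero_zero]
  have hG1 : Good hQ M e b (em e b 0 ((d, 0) : F × K) (d • ![0, 1])) := by
    have := hGu.conj hb'Q hb'M (fun p => (p.2, p.1)) hb'fW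
    have h2 : (sE hQ hu hpys * (j : GL _ F)) ⋆ u = _ := hb' _ _ _
    rw [h2] at this
    convert this using 2
    · apply Prod.ext <;> simp
    · apply Prod.ext <;> simp
    · simp
  have hG2 : Good hQ M e b (em e b ((1 : F), (0 : K)) 0 (d • ![0, 1])) := by
    have := hG1.conj hb'Q hb'M (fun p => (p.2, p.1)) hb'fW
    rw [hb'] at this
    convert this using 2
    · apply Prod.ext <;> simp [hd0]
    · apply Prod.ext <;> simp
    · simp
  have hG3 : Good hQ M e b ys := by
    have h1 := (hG2.sub hGu).smul d⁻¹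
    convert h1 using 1
    rw [hudef, em_sub, em_smul, hysdef]
    congr 1
    · apply Prod.ext <;> simp
    · simp
    · funext i
      fin_cases i <;> simp [hd0]
  have hG4 : Good hQ M e b (em e b 0 ((d, 0) : F × K) 0) := by
    have h1 := hG1.sub (hG3.smul d)
    convert h1 using 1
    rw [hysdef, em_smul, em_sub]
    simp
  have hG5 : Good hQ M e b y_ := by
    have h0 := hG4.conj hzQ hzM (fun p => p) hzfW
    rw [hsy_] at h0
    have h1 := (h0.sub hG4).smul d⁻¹
    convert h1 using 1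
    rw [em_sub, em_smul, hy_def]
    congr 1
    · apply Prod.ext <;> simp
    · simp
    · funext i
      fin_cases i <;> simp [hd0]
  -- the transfer
  have htrans : ∀ x, Q x = 0 → Good hQ M e b x → (∀ p, polar Q (fW e b p) x = 0) → polar Q u x = 0 →
      ∀ t : F, R hQ M u (t • x) := by
    intro x hx hGx hpx hux t
    obtain ⟨τ, hτ⟩ := Algebra.trace_surjective F K t
    have hq1 : Q (fW e b (1, 0)) = 0 := by
      rw [Q_fW h hR0]
      simp
    have hq2 : Q (fW e b (0, τ)) = 0 := by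
      rw [Q_fW h hR0]
      simp
    have h1 := R_swap' (hGx (1, 0) hq1) hx
    have h2 := hGu (0, τ) hq2
    have h3 : polar Q u (fW e b (1, 0)) = 0 := (key _).perp
    have h4 := R_comm h1 h2 hu (hpx _) hux h3
    rwa [polar_fW_fW h hR0, show ((0, τ) : K × K).1 = 0 from rfl, zero_mul, map_zero, zero_add,
      show ((0, τ) : K × K).2 = τ from rfl, show ((1, 0) : K × K).1 = 1 from rfl, one_mul, hτ] at h4
  have hpfW : ∀ p c, polar Q (fW e b p) (em e b 0 0 c) = 0 := by
    intro p c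
    rw [fW_apply, polar_em b h, polar_zero_left hR0]
    simp
  have hR1 := htrans ys hQys hG3 (fun p => hpfW p _) hpys
  have hR2 := htrans y_ hQy_ hG5 (fun p => hpfW p _) hpy_
  have hT : T hQ M u := by
    refine ⟨hu, fun y hy => ?_⟩
    obtain ⟨x, y', c, rfl⟩ := exists_em e b hG y
    rw [hudef, polar_u b h hR0] at hy
    have h1 : em e b x y' c = x.1 • u + fW e b (x.2, y'.2) + c 0 • y_ + c 1 • ys := by
      rw [hudef, em_smul, fW_apply, em_add, hy_def, em_smul, em_add, hysdef, em_smul, em_add]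
      congr 1
      · apply Prod.ext <;> simp
      · apply Prod.ext
        · simp [hy]
        · simp
      · funext i
        fin_cases i <;> simp
    rw [h1]
    exact R_add (R_add (R_add (R_self hu _) (key _)) (hR2 _)) (hR1 _)
  have htM : sE hQ hu hpys ∈ M := by
    obtain ⟨_, _, h2⟩ := hT.2 _ hpys
    exact h2
  have hjM : (j : GL _ F) ∈ M := by
    have := M.mul_mem (M.inv_mem htM) hb'M
    rwa [inv_mul_cancel_left] at this
  have hT' := T_conj hjQ hjM hT
  refine omega_le_of_opp' hQ h7 fr hT hT' ?_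
  rw [hudef, hj, polar_u' b h hR0]
  simpa using hd0

/-- The simple orthogonal group `PΩ⁺_{2m}(q)` (commutator subgroup of the orthogonal group of `Σ x_i y_i` modulo its centre) with `m ≥ 4` is generated by two of its elements. -/
theorem result {F : Type*} [Field F] [Fintype F] (m : ℕ) (hm : 4 ≤ m) :
    ∃ a b : Cfsg.POmega F (Cfsg.quadFormPlus m F), Subgroup.closure ({a, b} : Set (Cfsg.POmega F (Cfsg.quadFormPlus m F))) = ⊤ := by
  rcases Nat.even_or_odd m with hev | hodd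
  · exact even_case m hm hev
  · exact odd_case m hm hodd

end Cfsg.Agent.S2414
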