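import Mathlib
import Cfsg.Agent.Lib.OmTwoBin
import Cfsg.Agent.Lib.OmTwoEight
import Cfsg.Statements.S2415

set_option autoImplicit false
open Cfsg

namespace Cfsg.Agent.S2415

open Matrix QuadraticMap Cfsg Cfsg.Geo Module
open scoped MatrixGroups
open Cfsg.Agent.Lib.LawEmbed (IsHyp)
open Cfsg.Agent.Lib.OrthMatrix (mem_isometryGroup)
open Cfsg.Agent.Lib.OrthoBasic Cfsg.Agent.Lib.OrthoSiegel Cfsg.Agent.Lib.OrthoGen Cfsg.Agent.Lib.OrthoCount Cfsg.Agent.Lib.OrthoOrder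
  Cfsg.Agent.Lib.OrthoFinal Cfsg.Agent.Lib.OmCalc Cfsg.Agent.Lib.OmTwoCore Cfsg.Agent.Lib.OmTwoField
  Cfsg.Agent.Lib.OmTwoHyp Cfsg.Agent.Lib.OmTwoAlg Cfsg.Agent.Lib.OmTwoMinus Cfsg.Agent.Lib.OmTwoBin Cfsg.Agent.Lib.OmTwoEight
  Cfsg.Agent.Lib.HermCount Cfsg.Agent.Lib.QuadExt
open Cfsg.Agent.Lib.SympT (GL_ext mulVec_mul_GL mulVec_inv_GL inv_mulVec_GL)

local notation:70 g:71 " ⋆ " x:70 => Matrix.mulVec (Units.val g) x

section aux

variable {F : Type*} [Field F] [Fintype F] {K : Type*} [Field K] [Fintype K] [Algebra F K]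

theorem not_isSquare_norm (h2 : ringChar F ≠ 2) {θ : Kˣ} (hθ : ∀ x, x ∈ Subgroup.zpowers θ) :
    ¬ IsSquare (Algebra.norm F (θ : K)) := by
  rintro ⟨s, hs⟩
  obtain ⟨z, hz⟩ := FiniteField.exists_nonsquare h2
  apply hz
  have hz0 : z ≠ 0 := by
    rintro rfl
    exact hz IsSquare.zero
  obtain ⟨x, hx⟩ := FiniteField.norm_surjective F K z
  have hx0 : x ≠ 0 := by
    rintro rfl
    rw [Algebra.norm_zero] at hx
    exact hz0 hx.symm
  obtain ⟨i, hi⟩ := hθ (Units.mk0 x hx0)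
  have hi' : (θ ^ i : Kˣ) = Units.mk0 x hx0 := hi
  have hs0 : s ≠ 0 := by
    rintro rfl
    rw [mul_zero, Algebra.norm_eq_zero_iff] at hs
    exact θ.ne_zero hs
  have h3 : Units.map (Algebra.norm F (S := K) : K →* F) θ = Units.mk0 s hs0 * Units.mk0 s hs0 := by
    apply Units.ext
    simpa using hs
  have h4 : Units.map (Algebra.norm F (S := K) : K →* F) (Units.mk0 x hx0) =
      (Units.mk0 s hs0) ^ i * (Units.mk0 s hs0) ^ i := by
    rw [← hi', map_zpow, h3, mul_zpow]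
  have h5 := congrArg Units.val h4
  simp only [Units.coe_map, Units.val_mk0, Units.val_mul] at h5
  refine ⟨((Units.mk0 s hs0 ^ i : Fˣ) : F), ?_⟩
  rw [← hx]
  exact h5

theorem isSquare_of_not (h2 : ringChar F ≠ 2) {x y : F} (hx : ¬ IsSquare x) (hy : ¬ IsSquare y) : IsSquare (x⁻¹ * y) := by
  classical
  have hx0 : x ≠ 0 := by
    rintro rfl
    exact hx IsSquare.zero
  have hy0 : y ≠ 0 := by
    rintro rfl
    exact hy IsSquare.zero
  have h1 := (quadraticChar_neg_one_iff_not_isSquare (F := F)).2 hx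
  have h3 := (quadraticChar_neg_one_iff_not_isSquare (F := F)).2 hy
  have h4 : IsSquare (x * y) := by
    rw [← quadraticChar_one_iff_isSquare (mul_ne_zero hx0 hy0), map_mul, h1, h3]
    norm_num
  have h5 : x⁻¹ * y = (x⁻¹) ^ 2 * (x * y) := by
    field_simp
  rw [h5]
  exact (IsSquare.sq _).mul h4

theorem det_rho_inr {n : ℕ} (b : Basis (Fin n) F (F × K)) (τ : K) : (rho b ((1, τ) : F × K)).det = Algebra.norm F τ := by
  rw [← Algebra.norm_eq_matrix_det, Algebra.norm_apply, Algebra.norm_apply]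
  have h1 : (Algebra.lmul F (F × K)) ((1, τ) : F × K) = (LinearMap.id : F →ₗ[F] F).prodMap ((Algebra.lmul F K) τ) := by
    ext x
    · simp
    · simp
    · simp
    · simp
  rw [h1, LinearMap.det_prodMap, LinearMap.det_id, one_mul]

end aux

theorem main_general {F : Type*} [Field F] [Fintype F] (n : ℕ) (hn : 3 ≤ n) (hex : n = 3 → Fintype.card F ≠ 2) (a₀ b₀ : F)
    (hab : ∀ z₁ z₂ : F, z₁ ^ 2 + a₀ * z₁ * z₂ + b₀ * z₂ ^ 2 = 0 → z₁ = 0 ∧ z₂ = 0) :
    ∃ g h : Cfsg.POmega F (Cfsg.quadFormMinus n F a₀ b₀),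
      Subgroup.closure ({g, h} : Set (Cfsg.POmega F (Cfsg.quadFormMinus n F a₀ b₀))) = ⊤ := by
  classical
  obtain ⟨n', rfl⟩ : ∃ n', n = n' + 2 := ⟨n - 2, by omega⟩
  obtain ⟨fr⟩ := frameMinus a₀ b₀ hab n'
  have hf : (Cfsg.quadFormMinus (n' + 2) F a₀ b₀) = ⇑(qMinus (n' + 2) a₀ b₀) := by
    funext v
    rw [qMinus_apply]
  rw [hf]
  set Q := qMinus (n' + 2) a₀ b₀ with hQdef
  have hQ : Nondeg Q := nondeg_qMinus a₀ b₀ hab (n' + 2)
  let e : (Fin (n' + 2) ⊕ Fin (n' + 2)) ⊕ Fin 2 ≃ (Fin (n' + 2) ⊕ Fin (n' + 2)) ⊕ Fin 2 := Equiv.refl _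
  have h : IsHyp e (⇑Q) (Rb a₀ b₀) := by
    intro v
    rw [hQdef, qMinus_apply]
    rfl
  have hR0 : Rb a₀ b₀ 0 = 0 := by simp [Rb]
  have hcard : Fintype.card ((Fin (n' + 2) ⊕ Fin (n' + 2)) ⊕ Fin 2) = 2 * (n' + 2) + 2 := by simp; ring
  have h4 : Fintype.card ((Fin (n' + 2) ⊕ Fin (n' + 2)) ⊕ Fin 2) ≠ 4 := by omega
  have h7 : 7 ≤ Fintype.card ((Fin (n' + 2) ⊕ Fin (n' + 2)) ⊕ Fin 2) := by omega
  -- the fields
  set q := Fintype.card F with hqdef
  have hq2 : 2 ≤ q := Fintype.one_lt_card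
  obtain ⟨E, _, _, _, ω, hE, H⟩ := exists_data (F := F) rfl a₀ b₀ hab
  obtain ⟨p, hp⟩ := CharP.exists F
  haveI := hp
  haveI : Fact p.Prime := ⟨CharP.char_is_prime F p⟩
  haveI : NeZero (n' + 1) := ⟨by omega⟩
  let K := FiniteField.Extension F p (n' + 1)
  letI : Fintype K := Fintype.ofFinite K
  have hfr : Module.finrank F K = n' + 1 := FiniteField.finrank_extension F p (n' + 1)
  have hfr2 : Module.finrank F (F × K) = n' + 2 := by
    rw [Module.finrank_prod, Module.finrank_self, hfr, add_comm]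
  let b : Basis (Fin (n' + 2)) F (F × K) := Module.finBasisOfFinrankEq F (F × K) hfr2
  obtain ⟨θ, hθ⟩ := IsCyclic.exists_generator (α := Kˣ)
  obtain ⟨β, hβ⟩ := IsCyclic.exists_generator (α := Eˣ)
  have hG : IsUnit (gram b) := gram_isUnit b hnd_FK
  have hcardK : Fintype.card K = q ^ (n' + 1) := by
    rw [Module.card_eq_pow_finrank (K := F) (V := K), hfr]
  have hlarge : q + 2 < q ^ (n' + 1) := by
    rcases Nat.lt_or_ge n' 2 with h2 | h2
    · obtain rfl : n' = 1 := by omega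
      have h3 : q ≠ 2 := hex rfl
      have h5 : 3 ≤ q := by omega
      show q + 2 < q ^ 2
      nlinarith
    · have h3 : q ^ 3 ≤ q ^ (n' + 1) := Nat.pow_le_pow_right (by omega) (by omega)
      have h5 : q + 2 < q ^ 3 := by
        have : q ^ 3 = q * q * q := by ring
        rw [this]
        nlinarith [Nat.mul_le_mul hq2 hq2]
      omega
  have hθN : θ ^ (q + 1) ≠ 1 := by
    intro hh
    have h1 : orderOf θ = Fintype.card Kˣ := orderOf_eq_card_of_forall_mem_zpowers hθ |>.trans Nat.card_eq_fintype_card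
    have h3 : Fintype.card Kˣ = Fintype.card K - 1 := Fintype.card_units K
    have h5 : orderOf θ ∣ q + 1 := orderOf_dvd_of_pow_eq_one hh
    have h6 := Nat.le_of_dvd (by omega) h5
    omega
  have hθ1 : θ ≠ 1 := by
    rintro rfl
    exact hθN (one_pow _)
  have h5K : 5 ≤ Fintype.card K := by omega
  let ν : Eˣ := β * (β ^ q)⁻¹
  have hνval : (ν : E) = (β : E) * ((β : E) ^ q)⁻¹ := by simp [ν]
  have hνnrm : nrm q (ν : E) = 1 := by
    rw [hνval, nrm, mul_pow, inv_pow, pow_q_pow_q hE]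
    have h1 : (β : E) ≠ 0 := β.ne_zero
    have h2 : (β : E) ^ q ≠ 0 := pow_ne_zero _ h1
    field_simp
  have hνpow : ν ^ (q + 1) = 1 := by
    apply Units.ext
    have := hνnrm
    rw [nrm_eq_pow] at this
    simpa using this
  have hord : ∀ s : ℕ, 0 < s → (ν : E) ^ s = 1 → q + 1 ≤ s := by
    intro s hs hνs
    have h1 : ν ^ s = 1 := Units.ext (by simpa using hνs)
    have h2 : β ^ s = (β ^ q) ^ s := by
      have h3 : (β * (β ^ q)⁻¹) ^ s = 1 := h1
      rw [mul_pow, inv_pow, mul_inv_eq_one] at h3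
      exact h3
    have h3 : β ^ ((q - 1) * s) = 1 := by
      have h5 : q * s = (q - 1) * s + s := by
        have : q = (q - 1) + 1 := by omega
        nth_rewrite 1 [this]
        ring
      rw [← pow_mul, h5, pow_add] at h2
      exact mul_right_cancel (b := β ^ s) (by rw [one_mul]; exact h2.symm)
    have h5 : orderOf β = Fintype.card Eˣ := orderOf_eq_card_of_forall_mem_zpowers hβ |>.trans Nat.card_eq_fintype_card
    have h6 : Fintype.card Eˣ = (q - 1) * (q + 1) := by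
      rw [Fintype.card_units, hE]
      obtain ⟨r, hr⟩ : ∃ r, q = r + 1 := ⟨q - 1, by omega⟩
      show q ^ 2 - 1 = _
      rw [hr]
      simp only [Nat.add_sub_cancel]
      have : (r + 1) ^ 2 = r * (r + 1 + 1) + 1 := by ring
      omega
    have h8 : (q - 1) * (q + 1) ∣ (q - 1) * s := by
      rw [← h6, ← h5]
      exact orderOf_dvd_of_pow_eq_one h3
    have h9 := Nat.dvd_of_mul_dvd_mul_left (by omega) h8
    exact Nat.le_of_dvd hs h9
  have hν1 : ν ≠ 1 := by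
    intro hh
    have := hord 1 (by omega) (by rw [hh]; simp)
    omega
  set ε₁ : Fin 2 → F := (piE H rfl hE).symm 1 with hε₁
  set ε₂ : Fin 2 → F := (piE H rfl hE).symm (β : E) with hε₂
  have hπ₁ : piE H rfl hE ε₁ = 1 := LinearEquiv.apply_symm_apply _ _
  have hπ₂ : piE H rfl hE ε₂ = (β : E) := LinearEquiv.apply_symm_apply _ _
  have hR₁ : Rb a₀ b₀ ε₁ = 1 := by
    apply (algebraMap F E).injective
    rw [← piE_nrm H rfl hE, hπ₁, map_one]
    simp [nrm]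
  have hR₂ : Rb a₀ b₀ ε₂ = Algebra.norm F (β : E) := by
    apply (algebraMap F E).injective
    rw [← piE_nrm H rfl hE, hπ₂, norm_eq_nrm H rfl hE]
  have hR₂0 : Rb a₀ b₀ ε₂ ≠ 0 := by
    rw [hR₂, Ne, Algebra.norm_eq_zero_iff]
    exact β.ne_zero
  have hR₁0 : Rb a₀ b₀ ε₁ ≠ 0 := by
    rw [hR₁]
    exact one_ne_zero
  -- the element `a`
  have haΩ : levKB e b (θ, Bmul H rfl hE ν) ∈ omegaGL ⇑Q := by
    have h0 : levKB e b (θ, Bmul H rfl hE ν) = lev e (rhoU b (inrU θ), Bmul H rfl hE ν) := rfl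
    rw [h0]
    apply lev_mem_of_refl h hR0 hQ (by omega) _ _ ε₁ ε₂ (Bmul_refl H rfl hE β ε₁ ε₂ hπ₁ hπ₂ hR₁0 hR₂0 ν hνval) hR₁0 hR₂0
    have h1 : ((rhoU b (inrU θ) : GL (Fin (n' + 2)) F) : Matrix (Fin (n' + 2)) (Fin (n' + 2)) F).det = Algebra.norm F (θ : K) := by
      rw [rhoU_val, inrU_val, det_rho_inr]
    rw [h1, hR₁, mul_one, hR₂]
    by_cases h2 : ringChar F = 2
    · exact FiniteField.isSquare_of_char_two h2 _
    · exact isSquare_of_not h2 (not_isSquare_norm h2 hθ) (not_isSquare_norm h2 hβ)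
  have hBN : (Bmul H rfl hE ν) ^ (q + 1) = 1 := by
    rw [← map_pow, hνpow, map_one]
  -- the final step, for `j` acting through `Bj` with `ν₂`
  have finish : ∀ (ν₂ : Eˣ) (Bj : (Fin 2 → F) → (Fin 2 → F)) (g₁ : ↥(isometryGroup F ⇑Q)), nrm q (ν₂ : E) = 1 → ν₂ ≠ 1 →
      (∀ c, Bj (((Bmul H rfl hE ν : GL (Fin 2) F) : Matrix (Fin 2) (Fin 2) F) *ᵥ c) =
        ((Bmul H rfl hE ν₂ : GL (Fin 2) F) : Matrix (Fin 2) (Fin 2) F) *ᵥ Bj c) →
      g₁ ∈ Omega F ⇑Q → (∀ x y c, (g₁ : GL _ F) ⋆ vec e x y c = vec e y x (Bj c)) →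
      ∃ g h : Cfsg.POmega F ⇑Q, Subgroup.closure ({g, h} : Set (Cfsg.POmega F ⇑Q)) = ⊤ := by
    intro ν₂ Bj g₁ hν₂ hν₂1 hBj hg₁ hg₁'
    obtain ⟨d, j, hd0, hjΩ, hj⟩ := exists_j_gen b h (by omega) hg₁ hg₁'
    have hjQ : ∀ v, Q ((j : GL _ F) ⋆ v) = Q v := (mem_isometryGroup _ _).1 j.2
    have hu := Q_u (K := K) b h hR0
    have hw : polar Q (em e b ((1 : F), (0 : K)) 0 0) (em e b ((0 : F), (1 : K)) (0, 1) ε₁) = 0 := by
      rw [polar_u b h hR0]
    apply gen_of_GL (ga := levKB e b (θ, Bmul H rfl hE ν)) (gb := sE hQ hu hw * (j : GL _ F)) haΩ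
    · exact Subgroup.mul_mem _ (sE_mem_omega hQ h4 fr hu hw) ⟨j, hjΩ, rfl⟩
    intro M haM hbM
    refine core_minus b hQ h hR0 h7 fr hd0 hj hjQ hθ hθ1 (Rb_Bmul H rfl hE ν hνnrm) (Rb_Bmul H rfl hE ν₂ hν₂) hBj
      (by rw [← map_mul, ← map_mul, mul_comm]) hBN hθN ?_ h5K rfl rfl hu hw haM hbM
    intro P hP1 hP2
    refine span_coord H rfl hE hord P ?_ hP1 hP2
    intro hc
    have h1 := congrArg (piE H rfl hE) hc
    rw [map_sub, map_sub, piE_Bmul, map_sub, piE_Bmul, hπ₁, map_zero, mul_one] at h1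
    have h2 : ((ν : E) - 1) * (1 - (ν₂ : E)) = 0 := by
      linear_combination h1
    rcases mul_eq_zero.mp h2 with h3 | h3
    · exact hν1 (Units.ext (by simpa using sub_eq_zero.mp h3))
    · exact hν₂1 (Units.ext (by simpa using (sub_eq_zero.mp h3).symm))
  rcases Nat.even_or_odd (n' + 2) with hev | hod
  · obtain ⟨g₁, hg₁, hg₁'⟩ := exists_swap h hR0 hQ hev
    exact finish ν id g₁ hνnrm hν1 (fun c => rfl) hg₁ hg₁'
  · obtain ⟨ε, hε⟩ := exists_value H rfl hE (-1 : F)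
    have hε0 : Rb a₀ b₀ ε ≠ 0 := by
      rw [hε]
      simp
    obtain ⟨g₁, hg₁, hg₁'⟩ := exists_swap_odd h hR0 hQ hod ε hε
    refine finish ν⁻¹ (rκ (Rb a₀ b₀) ε) g₁ ?_ (by simpa using hν1) (rκ_Bmul H rfl hE ε hε0 ν hνnrm) hg₁ hg₁'
    have h1 : nrm q (ν : E) * nrm q ((ν⁻¹ : Eˣ) : E) = 1 := by
      rw [← Cfsg.Agent.Lib.UnitaryBasic.nrm_mul', Units.mul_inv, Cfsg.Agent.Lib.UnitaryBasic.nrm_one]
    rwa [hνnrm, one_mul] at h1

/-- The simple orthogonal group `PΩ⁻_{2m}(q)` with `m ≥ 4` (commutator subgroup, modulo its centre, of the orthogonal group of `Σ_{i<m−1} x_i y_i + z₁² + a z₁z₂ + b z₂²` with the binary part anisotropic) is generated by two of its elements. -/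
theorem result {F : Type*} [Field F] [Fintype F] (m : ℕ) (hm : 4 ≤ m) (a b : F)
    (hab : ∀ z₁ z₂ : F, z₁ ^ 2 + a * z₁ * z₂ + b * z₂ ^ 2 = 0 → z₁ = 0 ∧ z₂ = 0) :
    ∃ g h : Cfsg.POmega F (Cfsg.quadFormMinus (m - 1) F a b),
      Subgroup.closure ({g, h} : Set (Cfsg.POmega F (Cfsg.quadFormMinus (m - 1) F a b))) = ⊤ := by
  have h1 : m - 1 = (m - 1) := rfl
  by_cases hex : m = 4 ∧ Fintype.card F = 2
  · obtain ⟨rfl, hF⟩ := hex
    have h2 := two_zero hF
    have hb : b = 1 := by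
      rcases zero_or_one hF b with rfl | rfl
      · have := (hab 0 1 (by ring)).2
        exact absurd this one_ne_zero
      · rfl
    subst hb
    have ha : a = 1 := by
      rcases zero_or_one hF a with rfl | rfl
      · have := (hab 1 1 (by linear_combination h2)).2
        exact absurd this one_ne_zero
      · rfl
    subst ha
    have hf : (Cfsg.quadFormMinus (4 - 1) F 1 1) = ⇑(Q8 : QuadraticForm F (I8 → F)) := by
      funext v
      rw [Q8, qMinus_apply]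
    rw [hf]
    exact main8 hF
  · exact main_general (m - 1) (by omega) (fun h3 h2 => hex ⟨by omega, h2⟩) a b hab

end Cfsg.Agent.S2415
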