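import Mathlib
-- Template for statement S2416 (row 2416; see /opt/grader/pristine/manifest.json for weights).
-- Copy to Cfsg/Agent/S2416.lean and replace the sorry. The statement below is byte-identical to the frozen
-- statement Cfsg.CfsgFrozen.S2416 (Cfsg/Statements/S2416.lean; the theorem Cfsg.lie4_chevalley_generated_by_monomial_and_short_root_subgroup);
-- the grader kernel-checks Cfsg.Agent.S2416.result against that frozen type. Keep the theorem IN THIS FILE
-- (a `result` declared elsewhere and merely imported here is not credited); helpers may live anywhere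
-- under Cfsg/Agent/.
import Cfsg.Statements.S2416
import Cfsg.Agent.Lib.ChevAut.GenN
import Cfsg.Agent.Lib.Chev.RelG2
import Cfsg.Agent.Lib.Chev.RootG2
import Cfsg.Agent.Lib.Chev.RelB2
import Cfsg.Agent.Lib.Chev.RootB2
import Cfsg.Agent.Lib.Chev.RelD4
import Cfsg.Agent.Lib.Chev.RootD4
import Cfsg.Agent.Lib.Chev.RelF4
import Cfsg.Agent.Lib.Chev.RootF4
import Cfsg.Agent.Lib.Chev.RelE6
import Cfsg.Agent.Lib.Chev.RootE6
import Cfsg.Agent.Lib.Chev.RelE7
import Cfsg.Agent.Lib.Chev.RootE7
import Cfsg.Agent.Lib.Chev.RelE8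
import Cfsg.Agent.Lib.Chev.RootE8
-- import your own Cfsg.Agent.* helpers here

set_option autoImplicit false
open scoped MatrixGroups
open Cfsg

namespace Cfsg.Agent.S2416

open Cfsg.Lie Cfsg.Agent.Lib.Chev Cfsg.Agent.Lib.ChevAut.GenN

/-- A Chevalley group of type G₂, B₂, D₄, F₄, E₆, E₇ or E₈ over a finite field lies in (indeed equals) the subgroup generated by its monomial subgroup `N` and a single fundamental root subgroup `X_p`, where `p` is a short fundamental root if there are two root lengths (any fundamental root otherwise), provided the characteristic is not 2 for types B₂, F₄ and not 3 for type G₂ (and the field has more than two elements for B₂, G₂). -/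
theorem result {K : Type*} [Field K] [Finite K] (D : Cfsg.Lie.ChevalleyDatum) (hD : D ∈ [Cfsg.Lie.chevG2, Cfsg.Lie.chevB2, Cfsg.Lie.chevD4, Cfsg.Lie.chevF4, Cfsg.Lie.chevE6, Cfsg.Lie.chevE7, Cfsg.Lie.chevE8])
    (hK : D ∈ [Cfsg.Lie.chevB2, Cfsg.Lie.chevG2] → ∃ x : K, x ≠ 0 ∧ x ≠ 1)
    (h2 : D ∈ [Cfsg.Lie.chevB2, Cfsg.Lie.chevF4] → ringChar K ≠ 2) (h3 : D = Cfsg.Lie.chevG2 → ringChar K ≠ 3)
    (i : ℕ) (hi : i < D.rank) (hshort : D.isLong (D.simple i) = false) :
    D.group K ≤ D.monomialSubgroup K ⊔ D.rootSubgroup K (D.simple i) := by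
  simp only [List.mem_cons, List.not_mem_nil, or_false] at hD
  rcases hD with rfl | rfl | rfl | rfl | rfl | rfl | rfl
  · -- `G₂`
    have hFl : Full _ _ _ chevG2 := ⟨RelG2.checks, RootG2.checks⟩
    have h3' : ((3 : ℤ) : K) ≠ 0 := by
      intro h
      apply h3 rfl
      have h4 : ((3 : ℕ) : K) = 0 := by exact_mod_cast h
      exact ((Nat.prime_dvd_prime_iff_eq (CharP.char_is_prime K (ringChar K)) Nat.prime_three).1
        ((CharP.cast_eq_zero_iff K (ringChar K) 3).1 h4))
    have hi0 : ∀ i < chevG2.rank, chevG2.isLong (chevG2.simple i) = false → i = 0 := by decide +kernel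
    obtain rfl := hi0 i hi hshort
    have hN : chevG2.monomialSubgroup K ≤ chevG2.monomialSubgroup K ⊔ chevG2.rootSubgroup K (chevG2.simple 0) := le_sup_left
    have h0 : ∀ t : K, hFl.c.xG (chevG2.simple 0) t ∈ chevG2.monomialSubgroup K ⊔ chevG2.rootSubgroup K (chevG2.simple 0) :=
      fun t => Subgroup.mem_sup_right (hFl.c.xG_mem_rootSubgroup _ t)
    apply group_le_of_simple hFl hN
    intro k hk t
    have hk2 : k = 0 ∨ k = 1 := by
      have : k < 2 := hk
      omega
    rcases hk2 with rfl | rfl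
    · exact h0 t
    · -- `a`, `a + b`, `2a + b`, `3a + b`, `b`
      have e1 : TabG2.X.wf 0 (TabG2.X.wf 1 (chevG2.simple 0)) < chevG2.nroots := by decide +kernel
      have h1 : ∀ t : K, hFl.c.xG (TabG2.X.wf 0 (TabG2.X.wf 1 (chevG2.simple 0))) t ∈ chevG2.monomialSubgroup K ⊔ chevG2.rootSubgroup K (chevG2.simple 0) :=
        P_wf hFl hN (by decide +kernel) (by decide +kernel) (P_wf hFl hN (by decide +kernel) (by decide +kernel) h0)
      obtain ⟨w, c, hterms, hc, hw, hwlt⟩ : ∃ (w : ℕ) (c : ℤ), chevG2.commTerms (chevG2.simple 0) (TabG2.X.wf 0 (TabG2.X.wf 1 (chevG2.simple 0))) = [(w, c, 1, 1)] ∧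
          (c = 3 ∨ c = -3) ∧ TabG2.X.wf 0 w = chevG2.simple 1 ∧ w < chevG2.nroots := ⟨10, 3, by decide +kernel⟩
      have hc' : ((c : ℤ) : K) ≠ 0 := by
        rcases hc with rfl | rfl
        · exact h3'
        · rw [Int.cast_neg]
          exact neg_ne_zero.2 h3'
      have h2 := P_comm hFl (by decide +kernel) e1 (by decide +kernel) (by decide +kernel) hterms hc' h0 h1
      rw [← hw]
      exact P_wf hFl hN (by decide +kernel) hwlt h2 t
  · -- `B₂`
    have hFl : Full _ _ _ chevB2 := ⟨RelB2.checks, RootB2.checks⟩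
    have h3' : ((2 : ℤ) : K) ≠ 0 := by
      intro h
      apply h2 (by simp)
      have h4 : ((2 : ℕ) : K) = 0 := by exact_mod_cast h
      exact ((Nat.prime_dvd_prime_iff_eq (CharP.char_is_prime K (ringChar K)) Nat.prime_two).1
        ((CharP.cast_eq_zero_iff K (ringChar K) 2).1 h4))
    have hi0 : ∀ i < chevB2.rank, chevB2.isLong (chevB2.simple i) = false → i = 0 := by decide +kernel
    obtain rfl := hi0 i hi hshort
    have hN : chevB2.monomialSubgroup K ≤ chevB2.monomialSubgroup K ⊔ chevB2.rootSubgroup K (chevB2.simple 0) := le_sup_left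
    have h0 : ∀ t : K, hFl.c.xG (chevB2.simple 0) t ∈ chevB2.monomialSubgroup K ⊔ chevB2.rootSubgroup K (chevB2.simple 0) :=
      fun t => Subgroup.mem_sup_right (hFl.c.xG_mem_rootSubgroup _ t)
    apply group_le_of_simple hFl hN
    intro k hk t
    have hk2 : k = 0 ∨ k = 1 := by
      have : k < 2 := hk
      omega
    rcases hk2 with rfl | rfl
    · exact h0 t
    · have e1 : TabB2.X.wf 1 (chevB2.simple 0) < chevB2.nroots := by decide +kernel
      have h1 : ∀ t : K, hFl.c.xG (TabB2.X.wf 1 (chevB2.simple 0)) t ∈ chevB2.monomialSubgroup K ⊔ chevB2.rootSubgroup K (chevB2.simple 0) :=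
        P_wf hFl hN (by decide +kernel) (by decide +kernel) h0
      obtain ⟨w, c, hterms, hc, hw, hwlt⟩ : ∃ (w : ℕ) (c : ℤ), chevB2.commTerms (chevB2.simple 0) (TabB2.X.wf 1 (chevB2.simple 0)) = [(w, c, 1, 1)] ∧
          (c = 2 ∨ c = -2) ∧ TabB2.X.wf 0 w = chevB2.simple 1 ∧ w < chevB2.nroots := ⟨7, 2, by decide +kernel⟩
      have hc' : ((c : ℤ) : K) ≠ 0 := by
        rcases hc with rfl | rfl
        · exact h3'
        · rw [Int.cast_neg]
          exact neg_ne_zero.2 h3'
      have h2' := P_comm hFl (by decide +kernel) e1 (by decide +kernel) (by decide +kernel) hterms hc' h0 h1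
      rw [← hw]
      exact P_wf hFl hN (by decide +kernel) hwlt h2' t
  · have hFl : Full _ _ _ chevD4 := ⟨RelD4.checks, RootD4.checks⟩
    apply group_le_of_simple hFl le_sup_left
    exact all_simple_of_conn hFl connD4 (by decide +kernel) le_sup_left hi
      (fun t => Subgroup.mem_sup_right (hFl.c.xG_mem_rootSubgroup _ t))
  · -- `F₄`
    have hFl : Full _ _ _ chevF4 := ⟨RelF4.checks, RootF4.checks⟩
    have h3' : ((2 : ℤ) : K) ≠ 0 := by
      intro h
      apply h2 (by simp)
      have h4 : ((2 : ℕ) : K) = 0 := by exact_mod_cast h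
      exact ((Nat.prime_dvd_prime_iff_eq (CharP.char_is_prime K (ringChar K)) Nat.prime_two).1
        ((CharP.cast_eq_zero_iff K (ringChar K) 2).1 h4))
    have hi0 : ∀ i < chevF4.rank, chevF4.isLong (chevF4.simple i) = false → i = 0 ∨ i = 1 := by decide +kernel
    have hN : chevF4.monomialSubgroup K ≤ chevF4.monomialSubgroup K ⊔ chevF4.rootSubgroup K (chevF4.simple i) := le_sup_left
    have hi' : ∀ t : K, hFl.c.xG (chevF4.simple i) t ∈ chevF4.monomialSubgroup K ⊔ chevF4.rootSubgroup K (chevF4.simple i) :=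
      fun t => Subgroup.mem_sup_right (hFl.c.xG_mem_rootSubgroup _ t)
    have h1 : ∀ t : K, hFl.c.xG (chevF4.simple 1) t ∈ chevF4.monomialSubgroup K ⊔ chevF4.rootSubgroup K (chevF4.simple i) := by
      rcases hi0 i hi hshort with rfl | rfl
      · have e0 : TabF4.X.wf 0 (TabF4.X.wf 1 (chevF4.simple 0)) = chevF4.simple 1 := by decide +kernel
        rw [← e0]
        exact P_wf hFl hN (by decide +kernel) (by decide +kernel) (P_wf hFl hN (by decide +kernel) (by decide +kernel) hi')
      · exact hi'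
    have h0 : ∀ t : K, hFl.c.xG (chevF4.simple 0) t ∈ chevF4.monomialSubgroup K ⊔ chevF4.rootSubgroup K (chevF4.simple i) := by
      have e0 : TabF4.X.wf 1 (TabF4.X.wf 0 (chevF4.simple 1)) = chevF4.simple 0 := by decide +kernel
      rw [← e0]
      exact P_wf hFl hN (by decide +kernel) (by decide +kernel) (P_wf hFl hN (by decide +kernel) (by decide +kernel) h1)
    have h22 : ∀ t : K, hFl.c.xG (chevF4.simple 2) t ∈ chevF4.monomialSubgroup K ⊔ chevF4.rootSubgroup K (chevF4.simple i) := by
      have e1 : TabF4.X.wf 2 (chevF4.simple 1) < chevF4.nroots := by decide +kernel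
      have h4 : ∀ t : K, hFl.c.xG (TabF4.X.wf 2 (chevF4.simple 1)) t ∈ chevF4.monomialSubgroup K ⊔ chevF4.rootSubgroup K (chevF4.simple i) :=
        P_wf hFl hN (by decide +kernel) (by decide +kernel) h1
      obtain ⟨w, c, hterms, hc, hw, hwlt⟩ : ∃ (w : ℕ) (c : ℤ), chevF4.commTerms (chevF4.simple 1) (TabF4.X.wf 2 (chevF4.simple 1)) = [(w, c, 1, 1)] ∧
          (c = 2 ∨ c = -2) ∧ TabF4.X.wf 1 w = chevF4.simple 2 ∧ w < chevF4.nroots := ⟨30, 2, by decide +kernel⟩
      have hc' : ((c : ℤ) : K) ≠ 0 := by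
        rcases hc with rfl | rfl
        · exact h3'
        · rw [Int.cast_neg]
          exact neg_ne_zero.2 h3'
      have h2' := P_comm hFl (by decide +kernel) e1 (by decide +kernel) (by decide +kernel) hterms hc' h1 h4
      rw [← hw]
      exact P_wf hFl hN (by decide +kernel) hwlt h2'
    have h33 : ∀ t : K, hFl.c.xG (chevF4.simple 3) t ∈ chevF4.monomialSubgroup K ⊔ chevF4.rootSubgroup K (chevF4.simple i) := by
      have e0 : TabF4.X.wf 2 (TabF4.X.wf 3 (chevF4.simple 2)) = chevF4.simple 3 := by decide +kernel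
      rw [← e0]
      exact P_wf hFl hN (by decide +kernel) (by decide +kernel) (P_wf hFl hN (by decide +kernel) (by decide +kernel) h22)
    apply group_le_of_simple hFl hN
    intro k hk t
    have hk2 : k = 0 ∨ k = 1 ∨ k = 2 ∨ k = 3 := by
      have : k < 4 := hk
      omega
    rcases hk2 with rfl | rfl | rfl | rfl
    · exact h0 t
    · exact h1 t
    · exact h22 t
    · exact h33 t
  · have hFl : Full _ _ _ chevE6 := ⟨RelE6.checks, RootE6.checks⟩
    apply group_le_of_simple hFl le_sup_left
    exact all_simple_of_conn hFl connE6 (by decide +kernel) le_sup_left hi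
      (fun t => Subgroup.mem_sup_right (hFl.c.xG_mem_rootSubgroup _ t))
  · have hFl : Full _ _ _ chevE7 := ⟨RelE7.checks, RootE7.checks⟩
    apply group_le_of_simple hFl le_sup_left
    exact all_simple_of_conn hFl connE7 (by decide +kernel) le_sup_left hi
      (fun t => Subgroup.mem_sup_right (hFl.c.xG_mem_rootSubgroup _ t))
  · have hFl : Full _ _ _ chevE8 := ⟨RelE8.checks, RootE8.checks⟩
    apply group_le_of_simple hFl le_sup_left
    exact all_simple_of_conn hFl connE8 (by decide +kernel) le_sup_left hi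
      (fun t => Subgroup.mem_sup_right (hFl.c.xG_mem_rootSubgroup _ t))

end Cfsg.Agent.S2416
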