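import Mathlib
-- Template for statement S2417 (row 2417; see /opt/grader/pristine/manifest.json for weights).
-- Copy to Cfsg/Agent/S2417.lean and replace the sorry. The statement below is byte-identical to the frozen
-- statement Cfsg.CfsgFrozen.S2417 (Cfsg/Statements/S2417.lean; the theorem Cfsg.lie4_chevalley_generated_by_monomial_and_two_root_subgroups_small_char);
-- the grader kernel-checks Cfsg.Agent.S2417.result against that frozen type. Keep the theorem IN THIS FILE
-- (a `result` declared elsewhere and merely imported here is not credited); helpers may live anywhere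
-- under Cfsg/Agent/.
import Cfsg.Statements.S2417
import Cfsg.Agent.Lib.ChevAut.GenN
import Cfsg.Agent.Lib.Chev.RelB2
import Cfsg.Agent.Lib.Chev.RootB2
import Cfsg.Agent.Lib.Chev.RelF4
import Cfsg.Agent.Lib.Chev.RootF4
import Cfsg.Agent.Lib.Chev.RelG2
import Cfsg.Agent.Lib.Chev.RootG2
-- import your own Cfsg.Agent.* helpers here

set_option autoImplicit false
open scoped MatrixGroups
open Cfsg

namespace Cfsg.Agent.S2417

open Cfsg.Lie Cfsg.Agent.Lib.Chev Cfsg.Agent.Lib.ChevAut.GenN

/-- In the characteristics with an exceptional graph symmetry — type B₂ or F₄ in characteristic 2 (field of more than two elements for B₂) and type G₂ in characteristic 3 — the Chevalley group lies in the subgroup generated by its monomial subgroup `N` and the two fundamental root subgroups `X_a`, `X_b` of a short root `a` and a long root `b` joined in the Dynkin diagram. -/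
theorem result {K : Type*} [Field K] [Finite K] (e : Cfsg.Lie.ChevalleyDatum × ℕ)
    (he : e ∈ [(Cfsg.Lie.chevB2, 2), (Cfsg.Lie.chevF4, 2), (Cfsg.Lie.chevG2, 3)]) [CharP K e.2]
    (hK : e.1 = Cfsg.Lie.chevB2 → ∃ x : K, x ≠ 0 ∧ x ≠ 1)
    (i j : ℕ) (hi : i < e.1.rank) (hj : j < e.1.rank) (hshort : e.1.isLong (e.1.simple i) = false)
    (hlong : e.1.isLong (e.1.simple j) = true) (hbond : e.1.bonds i j ≠ 0) :
    e.1.group K ≤ e.1.monomialSubgroup K ⊔ e.1.rootSubgroup K (e.1.simple i) ⊔ e.1.rootSubgroup K (e.1.simple j) := by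
  obtain ⟨D, c⟩ := e
  simp only [List.mem_cons, List.not_mem_nil, or_false, Prod.mk.injEq] at he
  simp only at hi hj hshort hlong hbond hK ⊢
  rcases he with ⟨rfl, rfl⟩ | ⟨rfl, rfl⟩ | ⟨rfl, rfl⟩
  · have hFl : Full _ _ _ chevB2 := ⟨RelB2.checks, RootB2.checks⟩
    have hij : ∀ i < chevB2.rank, ∀ j < chevB2.rank, chevB2.isLong (chevB2.simple i) = false →
        chevB2.isLong (chevB2.simple j) = true → i = 0 ∧ j = 1 := by decide +kernel
    obtain ⟨rfl, rfl⟩ := hij i hi j hj hshort hlong
    apply group_le_of_simple hFl (le_sup_left.trans le_sup_left)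
    intro k hk t
    have hk2 : k = 0 ∨ k = 1 := by
      have : k < 2 := hk
      omega
    rcases hk2 with rfl | rfl
    · exact Subgroup.mem_sup_left (Subgroup.mem_sup_right (hFl.c.xG_mem_rootSubgroup _ t))
    · exact Subgroup.mem_sup_right (hFl.c.xG_mem_rootSubgroup _ t)
  · have hFl : Full _ _ _ chevF4 := ⟨RelF4.checks, RootF4.checks⟩
    have hij : ∀ i < chevF4.rank, ∀ j < chevF4.rank, (chevF4.isLong (chevF4.simple i) = false ∧
        chevF4.isLong (chevF4.simple j) = true) → (chevF4.bonds i j = 0 ∨ (i = 1 ∧ j = 2)) := by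
      decide +kernel
    obtain ⟨rfl, rfl⟩ := (hij i hi j hj ⟨hshort, hlong⟩).resolve_left hbond
    have hN : chevF4.monomialSubgroup K ≤ chevF4.monomialSubgroup K ⊔ chevF4.rootSubgroup K (chevF4.simple 1) ⊔
        chevF4.rootSubgroup K (chevF4.simple 2) := le_sup_left.trans le_sup_left
    have h1 : ∀ t : K, hFl.c.xG (chevF4.simple 1) t ∈ chevF4.monomialSubgroup K ⊔ chevF4.rootSubgroup K (chevF4.simple 1) ⊔
        chevF4.rootSubgroup K (chevF4.simple 2) :=
      fun t => Subgroup.mem_sup_left (Subgroup.mem_sup_right (hFl.c.xG_mem_rootSubgroup _ t))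
    have h2 : ∀ t : K, hFl.c.xG (chevF4.simple 2) t ∈ chevF4.monomialSubgroup K ⊔ chevF4.rootSubgroup K (chevF4.simple 1) ⊔
        chevF4.rootSubgroup K (chevF4.simple 2) :=
      fun t => Subgroup.mem_sup_right (hFl.c.xG_mem_rootSubgroup _ t)
    apply group_le_of_simple hFl hN
    intro k hk t
    have hk2 : k = 0 ∨ k = 1 ∨ k = 2 ∨ k = 3 := by
      have : k < 4 := hk
      omega
    rcases hk2 with rfl | rfl | rfl | rfl
    · have e0 : TabF4.X.wf 1 (TabF4.X.wf 0 (chevF4.simple 1)) = chevF4.simple 0 := by decide +kernel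
      rw [← e0]
      exact P_wf hFl hN (by decide +kernel) (hFl.wf_lt (by decide +kernel) (hFl.simple_lt (by decide +kernel)))
        (P_wf hFl hN (by decide +kernel) (hFl.simple_lt (by decide +kernel)) h1) t
    · exact h1 t
    · exact h2 t
    · have e0 : TabF4.X.wf 2 (TabF4.X.wf 3 (chevF4.simple 2)) = chevF4.simple 3 := by decide +kernel
      rw [← e0]
      exact P_wf hFl hN (by decide +kernel) (hFl.wf_lt (by decide +kernel) (hFl.simple_lt (by decide +kernel)))
        (P_wf hFl hN (by decide +kernel) (hFl.simple_lt (by decide +kernel)) h2) t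
  · have hFl : Full _ _ _ chevG2 := ⟨RelG2.checks, RootG2.checks⟩
    have hij : ∀ i < chevG2.rank, ∀ j < chevG2.rank, chevG2.isLong (chevG2.simple i) = false →
        chevG2.isLong (chevG2.simple j) = true → i = 0 ∧ j = 1 := by decide +kernel
    obtain ⟨rfl, rfl⟩ := hij i hi j hj hshort hlong
    apply group_le_of_simple hFl (le_sup_left.trans le_sup_left)
    intro k hk t
    have hk2 : k = 0 ∨ k = 1 := by
      have : k < 2 := hk
      omega
    rcases hk2 with rfl | rfl
    · exact Subgroup.mem_sup_left (Subgroup.mem_sup_right (hFl.c.xG_mem_rootSubgroup _ t))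
    · exact Subgroup.mem_sup_right (hFl.c.xG_mem_rootSubgroup _ t)

end Cfsg.Agent.S2417
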