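import Mathlib
import Cfsg.Statements.S2419
import Cfsg.Agent.Lib.CoxOrder
import Cfsg.Agent.Lib.CoxB2
import Cfsg.Agent.Lib.CoxG2
import Cfsg.Agent.Lib.CoxD4
import Cfsg.Agent.Lib.CoxF4
import Cfsg.Agent.Lib.CoxE6
import Cfsg.Agent.Lib.CoxE7
import Cfsg.Agent.Lib.CoxE8

set_option autoImplicit false
set_option linter.unusedSectionVars false
set_option linter.unusedVariables false
open Cfsg

namespace Cfsg.Agent.S2419

open Cfsg.Agent.Lib.CoxOrder

/-- Tokens in the matrix group. -/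
def tokM {n : ℕ} (A : ℕ → ℕ → ℤ) (cM cI : Matrix (Fin n) (Fin n) ℤ) (g : List (Fin n)) :
    ℕ → Matrix (Fin n) (Fin n) ℤ
  | 0 => cM
  | 1 => cI
  | (k + 2) => match g[k]? with
    | some i => R A i
    | none => 1

/-- Tokens in the Coxeter group. -/
noncomputable def tokG {n : ℕ} (M : CoxeterMatrix (Fin n)) (c : M.Group) (g : List (Fin n)) :
    ℕ → M.Group
  | 0 => c
  | 1 => c⁻¹
  | (k + 2) => match g[k]? with
    | some i => M.simple i
    | none => 1

theorem gen_of_words {n : ℕ} (M : CoxeterMatrix (Fin n)) (A : ℕ → ℕ → ℤ)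
    (hrel : ∀ i j : Fin n, (R A i * R A j) ^ M i j = 1)
    (hinj : Function.Injective (matRep M A hrel)) (g : List (Fin n)) (hg : g.Nodup)
    (hR : ∀ i j : Fin n, R A i = R A j → i = j)
    (cI : Matrix (Fin n) (Fin n) ℤ) (hcI : ((List.finRange n).map (R A)).prod * cI = 1)
    (w : Fin n → List ℕ)
    (hw : ∀ i, ((w i).map (tokM A ((List.finRange n).map (R A)).prod cI g)).prod = R A i) :
    ∃ T : Finset M.Group, T.card = g.length ∧
      (∀ t ∈ T, ∃ (g : M.Group) (i : Fin n), t = g * M.simple i * g⁻¹) ∧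
      Subgroup.closure (({((List.finRange n).map M.simple).prod} : Set M.Group) ∪ ↑T) = ⊤ := by
  classical
  set c := ((List.finRange n).map M.simple).prod with hc
  set cM := ((List.finRange n).map (R A)).prod with hcM
  have hrepc : matRep M A hrel c = cM := by
    rw [hc, map_list_prod, List.map_map]
    have : (⇑(matRep M A hrel) ∘ M.simple) = R A := by
      funext i
      exact matRep_simple M A hrel i
    rw [this]
  have hrepcI : matRep M A hrel c⁻¹ = cI := by
    have h1 : matRep M A hrel c⁻¹ * cM = 1 := by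
      rw [← hrepc, ← map_mul, inv_mul_cancel, map_one]
    exact left_inv_eq_right_inv h1 hcI
  have hsimp : ∀ i, matRep M A hrel (M.simple i) = R A i := matRep_simple M A hrel
  have hsinj : Function.Injective M.simple := by
    intro i j hij
    apply hR
    rw [← hsimp, ← hsimp, hij]
  refine ⟨(g.map M.simple).toFinset, ?_, ?_, ?_⟩
  · rw [List.toFinset_card_of_nodup (hg.map hsinj), List.length_map]
  · intro t ht
    rw [List.mem_toFinset, List.mem_map] at ht
    obtain ⟨i, -, rfl⟩ := ht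
    exact ⟨1, i, by simp⟩
  · rw [eq_top_iff, ← M.toCoxeterSystem.subgroup_closure_range_simple]
    rw [Subgroup.closure_le]
    rintro _ ⟨i, rfl⟩
    set S := Subgroup.closure (({c} : Set M.Group) ∪ ↑(g.map M.simple).toFinset) with hS
    have hcS : c ∈ S := Subgroup.subset_closure (Or.inl rfl)
    have htok : ∀ k, tokG M c g k ∈ S := by
      intro k
      match k with
      | 0 => exact hcS
      | 1 => exact S.inv_mem hcS
      | (k + 2) =>
        simp only [tokG]
        split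
        · rename_i j hj
          apply Subgroup.subset_closure
          right
          simp only [Finset.mem_coe, List.mem_toFinset, List.mem_map]
          exact ⟨j, List.mem_of_getElem? hj, rfl⟩
        · exact S.one_mem
    have hrep : ∀ k, matRep M A hrel (tokG M c g k) = tokM A cM cI g k := by
      intro k
      match k with
      | 0 => exact hrepc
      | 1 => exact hrepcI
      | (k + 2) =>
        simp only [tokG, tokM]
        split
        · exact hsimp _
        · exact map_one _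
    have hword : M.simple i = ((w i).map (tokG M c g)).prod := by
      apply hinj
      rw [hsimp, map_list_prod, List.map_map, ← hw i]
      congr 1
      apply List.map_congr_left
      intro k _
      exact (hrep k).symm
    change M.simple i ∈ S
    rw [hword]
    apply Subgroup.list_prod_mem
    intro x hx
    obtain ⟨k, -, rfl⟩ := List.mem_map.mp hx
    exact htok k

section B2
open Cfsg.Agent.Lib.CoxB2

/-- The inverse of the Coxeter element. -/
def cIB2 : Matrix (Fin 2) (Fin 2) ℤ := ((List.finRange 2).reverse.map (R A)).prod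

/-- The words. -/
def wdB2 : Fin 2 → List ℕ := ![[2], [1, 2]]

theorem caseB2 : ∃ T : Finset M.Group, T.card = 1 ∧
      (∀ t ∈ T, ∃ (g : M.Group) (i : Fin 2), t = g * M.simple i * g⁻¹) ∧
      Subgroup.closure (({((List.finRange 2).map M.simple).prod} : Set M.Group) ∪ ↑T) = ⊤ :=
  gen_of_words M A hrel main.2.2 [0] (by decide) (by decide +kernel) cIB2 (by decide +kernel) wdB2
    (by decide +kernel)

end B2

section G2
open Cfsg.Agent.Lib.CoxG2

/-- The inverse of the Coxeter element. -/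
def cIG2 : Matrix (Fin 2) (Fin 2) ℤ := ((List.finRange 2).reverse.map (R A)).prod

/-- The words. -/
def wdG2 : Fin 2 → List ℕ := ![[2], [1, 2]]

theorem caseG2 : ∃ T : Finset M.Group, T.card = 1 ∧
      (∀ t ∈ T, ∃ (g : M.Group) (i : Fin 2), t = g * M.simple i * g⁻¹) ∧
      Subgroup.closure (({((List.finRange 2).map M.simple).prod} : Set M.Group) ∪ ↑T) = ⊤ :=
  gen_of_words M A hrel main.2.2 [0] (by decide) (by decide +kernel) cIG2 (by decide +kernel) wdG2
    (by decide +kernel)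

end G2

section D4
open Cfsg.Agent.Lib.CoxD4

/-- The inverse of the Coxeter element. -/
def cID4 : Matrix (Fin 4) (Fin 4) ℤ := ((List.finRange 4).reverse.map (R A)).prod

/-- The words. -/
def wdD4 : Fin 4 → List ℕ := ![[2], [0, 2, 1], [3], [0, 2, 1, 2, 0, 3]]

theorem caseD4 : ∃ T : Finset M.Group, T.card = 2 ∧
      (∀ t ∈ T, ∃ (g : M.Group) (i : Fin 4), t = g * M.simple i * g⁻¹) ∧
      Subgroup.closure (({((List.finRange 4).map M.simple).prod} : Set M.Group) ∪ ↑T) = ⊤ :=
  gen_of_words M A hrel main.2.2 [0, 2] (by decide) (by decide +kernel) cID4 (by decide +kernel) wdD4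
    (by decide +kernel)

end D4

section F4
open Cfsg.Agent.Lib.CoxF4

/-- The inverse of the Coxeter element. -/
def cIF4 : Matrix (Fin 4) (Fin 4) ℤ := ((List.finRange 4).reverse.map (R A)).prod

/-- The words. -/
def wdF4 : Fin 4 → List ℕ := ![[2], [0, 2, 1], [3], [0, 3, 1]]

theorem caseF4 : ∃ T : Finset M.Group, T.card = 2 ∧
      (∀ t ∈ T, ∃ (g : M.Group) (i : Fin 4), t = g * M.simple i * g⁻¹) ∧
      Subgroup.closure (({((List.finRange 4).map M.simple).prod} : Set M.Group) ∪ ↑T) = ⊤ :=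
  gen_of_words M A hrel main.2.2 [0, 2] (by decide) (by decide +kernel) cIF4 (by decide +kernel) wdF4
    (by decide +kernel)

end F4

section E6
open Cfsg.Agent.Lib.CoxE6

/-- The inverse of the Coxeter element. -/
def cIE6 : Matrix (Fin 6) (Fin 6) ℤ := ((List.finRange 6).reverse.map (R A)).prod

/-- The words. -/
def wdE6 : Fin 6 → List ℕ := ![[2], [1, 2, 1, 1, 1, 2, 0, 0, 0, 2, 0], [0, 2, 1], [0, 0, 0, 0, 0, 2, 1, 1, 1, 1, 1], [0, 0, 0, 0, 0, 0, 2, 1, 1, 1, 1, 1, 1], [1, 1, 1, 1, 1, 2, 0, 0, 0, 0, 0]]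

theorem caseE6 : ∃ T : Finset M.Group, T.card = 1 ∧
      (∀ t ∈ T, ∃ (g : M.Group) (i : Fin 6), t = g * M.simple i * g⁻¹) ∧
      Subgroup.closure (({((List.finRange 6).map M.simple).prod} : Set M.Group) ∪ ↑T) = ⊤ :=
  gen_of_words M A hrel main.2.2 [0] (by decide) (by decide +kernel) cIE6 (by decide +kernel) wdE6
    (by decide +kernel)

end E6

section E7
open Cfsg.Agent.Lib.CoxE7

/-- The inverse of the Coxeter element. -/
def cIE7 : Matrix (Fin 7) (Fin 7) ℤ := ((List.finRange 7).reverse.map (R A)).prod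

/-- The words. -/
def wdE7 : Fin 7 → List ℕ := ![[0, 0, 0, 2, 0, 0, 2, 1, 1, 2, 1, 1, 1], [2], [1, 1, 1, 2, 1, 1, 2, 0, 0, 2, 0, 0, 0], [2, 1, 1, 2, 1, 1, 2, 0, 0, 2, 0, 0, 2], [0, 2, 1, 1, 2, 1, 1, 2, 0, 0, 2, 0, 0, 2, 1], [1, 1, 2, 0, 0, 2, 0, 0, 2, 1, 1, 2, 1, 1, 2, 0, 0], [1, 2, 0, 0, 2, 0, 0, 2, 1, 1, 2, 1, 1, 2, 0]]

theorem caseE7 : ∃ T : Finset M.Group, T.card = 1 ∧
      (∀ t ∈ T, ∃ (g : M.Group) (i : Fin 7), t = g * M.simple i * g⁻¹) ∧
      Subgroup.closure (({((List.finRange 7).map M.simple).prod} : Set M.Group) ∪ ↑T) = ⊤ :=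
  gen_of_words M A hrel main.2.2 [1] (by decide) (by decide +kernel) cIE7 (by decide +kernel) wdE7
    (by decide +kernel)

end E7

section E8
open Cfsg.Agent.Lib.CoxE8

/-- The inverse of the Coxeter element. -/
def cIE8 : Matrix (Fin 8) (Fin 8) ℤ := ((List.finRange 8).reverse.map (R A)).prod

/-- The words. -/
def wdE8 : Fin 8 → List ℕ := ![[2], [1, 2, 1, 1, 2, 1, 1, 1, 2, 0, 0, 0, 2, 0, 0, 2, 0], [0, 2, 1], [0, 0, 0, 0, 2, 0, 0, 0, 2, 1, 1, 1, 2, 1, 1, 1, 1], [0, 0, 0, 0, 0, 2, 0, 0, 0, 2, 1, 1, 1, 2, 1, 1, 1, 1, 1], [0, 0, 0, 0, 0, 0, 2, 0, 0, 0, 2, 1, 1, 1, 2, 1, 1, 1, 1, 1, 1], [1, 1, 1, 1, 1, 2, 1, 1, 1, 2, 0, 0, 0, 2, 0, 0, 0, 0, 0], [1, 1, 1, 1, 2, 1, 1, 1, 2, 0, 0, 0, 2, 0, 0, 0, 0]]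

theorem caseE8 : ∃ T : Finset M.Group, T.card = 1 ∧
      (∀ t ∈ T, ∃ (g : M.Group) (i : Fin 8), t = g * M.simple i * g⁻¹) ∧
      Subgroup.closure (({((List.finRange 8).map M.simple).prod} : Set M.Group) ∪ ↑T) = ⊤ :=
  gen_of_words M A hrel main.2.2 [0] (by decide) (by decide +kernel) cIE8 (by decide +kernel) wdE8
    (by decide +kernel)

end E8

/-- The Coxeter groups of types B₂, G₂, E₆, E₇, E₈ are generated by the Coxeter element `s₁ s₂ ⋯ s_l` together with one suitable reflection (a conjugate of a simple reflection); for types D₄ and F₄ the Coxeter element together with two suitable reflections suffices. -/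
theorem result (c : (Σ n : ℕ, CoxeterMatrix (Fin n)) × ℕ)
    (hc : c ∈ [(⟨2, CoxeterMatrix.B 2⟩, 1), (⟨2, CoxeterMatrix.G₂⟩, 1), (⟨4, Cfsg.Lie.coxeterD4⟩, 2), (⟨4, CoxeterMatrix.F₄⟩, 2),
      (⟨6, CoxeterMatrix.E₆⟩, 1), (⟨7, CoxeterMatrix.E₇⟩, 1), (⟨8, CoxeterMatrix.E₈⟩, 1)]) :
    ∃ T : Finset c.1.2.Group, T.card = c.2 ∧ (∀ t ∈ T, ∃ (g : c.1.2.Group) (i : Fin c.1.1), t = g * c.1.2.simple i * g⁻¹) ∧
      Subgroup.closure (({((List.finRange c.1.1).map c.1.2.simple).prod} : Set c.1.2.Group) ∪ ↑T) = ⊤ := by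
  simp only [List.mem_cons, List.not_mem_nil, or_false] at hc
  rcases hc with rfl | rfl | rfl | rfl | rfl | rfl | rfl
  · exact caseB2
  · exact caseG2
  · exact caseD4
  · exact caseF4
  · exact caseE6
  · exact caseE7
  · exact caseE8

end Cfsg.Agent.S2419
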