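import Cfsg.Statements.S2425
import Cfsg.Agent.Lib.StVal6

set_option autoImplicit false
open scoped MatrixGroups
open Cfsg

namespace Cfsg.Agent.S2425

/-- Values of the Steinberg character of `GL_n(q)` (the partition-indexed character for `ν = (1,…,1)`, of degree `q^(n(n−1)/2)`) at elements of order prime to the characteristic: if the characteristic polynomial of such an element is `∏ f^(m_f)` over distinct monic irreducible `f`, the value is `∏_f (−1)^((deg f − 1) m_f) q^(deg f · m_f (m_f − 1)/2)`. (At elements of order divisible by the characteristic the value is 0; that is not part of this statement.) -/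
theorem result {F : Type*} [Field F] [Fintype F] [DecidableEq F] {q : ℕ} (hq : Fintype.card F = q) (p : ℕ) [Fact p.Prime] [CharP F p]
    {n : ℕ} (x : GL (Fin n) F) (hx : (orderOf x).Coprime p) :
    Cfsg.unipotentCharacterGL n F (fun _ => 1) x =
      ∏ f ∈ (UniqueFactorizationMonoid.normalizedFactors (x : Matrix (Fin n) (Fin n) F).charpoly).toFinset,
        (-1 : ℂ) ^ ((f.natDegree - 1) * (UniqueFactorizationMonoid.normalizedFactors (x : Matrix (Fin n) (Fin n) F).charpoly).count f) *
          (q : ℂ) ^ (f.natDegree * (UniqueFactorizationMonoid.normalizedFactors (x : Matrix (Fin n) (Fin n) F).charpoly).count f *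
            ((UniqueFactorizationMonoid.normalizedFactors (x : Matrix (Fin n) (Fin n) F).charpoly).count f - 1) / 2) := by
  subst hq
  have hss : Module.End.IsSemisimple (Matrix.toLin' (x : Matrix (Fin n) (Fin n) F)) := by
    have hN : ((orderOf x : ℕ) : F) ≠ 0 := by
      intro h
      have hdvd : p ∣ orderOf x := (CharP.cast_eq_zero_iff F p _).1 h
      have h1 : p ∣ 1 := by
        have := Nat.dvd_gcd hdvd (dvd_refl p)
        rwa [Nat.Coprime.gcd_eq_one hx] at this
      exact (Fact.out : p.Prime).one_lt.ne' (Nat.dvd_one.1 h1)
    apply Module.End.isSemisimple_of_squarefree_aeval_eq_zero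
      (p := Polynomial.X ^ (orderOf x) - Polynomial.C (1 : F))
    · exact (Polynomial.separable_X_pow_sub_C (1 : F) hN one_ne_zero).squarefree
    · have hpow : ∀ k : ℕ, (Matrix.toLin' (x : Matrix (Fin n) (Fin n) F)) ^ k =
          Matrix.toLin' (((x ^ k : GL (Fin n) F)) : Matrix (Fin n) (Fin n) F) := by
        intro k
        induction k with
        | zero =>
          simp only [pow_zero, Units.val_one, Matrix.toLin'_one]
          rfl
        | succ k ih =>
          rw [pow_succ, ih, pow_succ, Units.val_mul, Matrix.toLin'_mul]
          rfl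
      simp only [map_sub, map_pow, Polynomial.aeval_X, Polynomial.aeval_C, map_one]
      rw [hpow, pow_orderOf_eq_one, Units.val_one, Matrix.toLin'_one]
      exact sub_self (1 : Module.End F (Fin n → F))
  rw [Cfsg.Agent.Lib.StVal.steinberg_value x hss]
  rfl

end Cfsg.Agent.S2425
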