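import Mathlib
import Cfsg.Statements.S2427
-- import your own Cfsg.Agent.* helpers here

set_option autoImplicit false
open Cfsg

namespace Cfsg.Agent.S2427

abbrev G := Matrix.SpecialLinearGroup (Fin 2) (ZMod 3)

/-- the predicate of the quaternion subgroup -/
def P (g : G) : Prop :=
  g = 1 ∨ g = -1 ∨ (g : Matrix (Fin 2) (Fin 2) (ZMod 3)) 0 0 + (g : Matrix (Fin 2) (Fin 2) (ZMod 3)) 1 1 = 0

instance decP : DecidablePred P := fun g => by unfold P; infer_instance

set_option maxRecDepth 100000 in
lemma P_mul : ∀ a b : G, P a → P b → P (a * b) := by decide +kernel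
set_option maxRecDepth 100000 in
lemma P_one : P (1 : G) := by decide +kernel
set_option maxRecDepth 100000 in
lemma P_inv : ∀ a : G, P a → P a⁻¹ := by decide +kernel

/-- the quaternion subgroup -/
def Q : Subgroup G where
  carrier := {g | P g}
  mul_mem' := fun {a b} ha hb => P_mul a b ha hb
  one_mem' := P_one
  inv_mem' := fun {a} ha => P_inv a ha

lemma mem_Q (g : G) : g ∈ Q ↔ P g := Iff.rfl

instance decQ : DecidablePred (· ∈ Q) := fun g => decP g

set_option maxRecDepth 100000 in
lemma P_comm : ∀ a b : G, P (a * b * a⁻¹ * b⁻¹) := by decide +kernel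

set_option maxRecDepth 100000 in
lemma P_is_comm : ∀ g : G, P g → ∃ a b : G, g = a * b * a⁻¹ * b⁻¹ := by decide +kernel

lemma commutator_eq : commutator G = Q := by
  apply le_antisymm
  · rw [commutator_eq_closure, Subgroup.closure_le]
    rintro _ ⟨a, b, rfl⟩
    exact P_comm a b
  · intro g hg
    obtain ⟨a, b, rfl⟩ := P_is_comm g hg
    exact Subgroup.commutator_mem_commutator (Subgroup.mem_top a) (Subgroup.mem_top b)

set_option maxRecDepth 100000 in
lemma card_G : Fintype.card G = 24 := by decide +kernel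

set_option maxRecDepth 100000 in
lemma card_Q : Fintype.card Q = 8 := by decide +kernel

set_option maxRecDepth 100000 in
lemma card_center : Fintype.card (Subgroup.center G) = 2 := by decide +kernel

/-- generator A -/
def A : G := ⟨!![0, 1; -1, 0], by decide +kernel⟩
/-- generator X -/
def X : G := ⟨!![1, 1; 1, -1], by decide +kernel⟩

/-- The map from the quaternion group. -/
def fq : QuaternionGroup 2 → G
  | .a i => A ^ (ZMod.val i)
  | .xa i => X * A ^ (ZMod.val i)

set_option maxRecDepth 100000 in
lemma fq_mul : ∀ x y : QuaternionGroup 2, fq (x * y) = fq x * fq y := by decide +kernel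

set_option maxRecDepth 100000 in
lemma fq_inj : ∀ x y : QuaternionGroup 2, fq x = fq y → x = y := by decide +kernel

set_option maxRecDepth 100000 in
lemma fq_mem : ∀ x : QuaternionGroup 2, P (fq x) := by decide +kernel

set_option maxRecDepth 100000 in
lemma fq_surj : ∀ g : G, P g → ∃ x : QuaternionGroup 2, fq x = g := by decide +kernel

/-- the isomorphism -/
noncomputable def fqEquiv : QuaternionGroup 2 ≃* Q :=
  MulEquiv.ofBijective
    (MonoidHom.mk' (fun x => (⟨fq x, fq_mem x⟩ : Q)) (fun x y => Subtype.ext (fq_mul x y)))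
    ⟨fun x y h => fq_inj x y (congrArg Subtype.val h),
     fun g => by
      obtain ⟨x, hx⟩ := fq_surj g.1 g.2
      exact ⟨x, Subtype.ext hx⟩⟩

set_option maxRecDepth 100000 in
lemma norm_step0 : ∀ g : G, g ≠ 1 → g ≠ -1 →
    ((g : Matrix (Fin 2) (Fin 2) (ZMod 3)) 0 0 + (g : Matrix (Fin 2) (Fin 2) (ZMod 3)) 1 1 = 0) ∨
    ∃ x : G, ((x * g * x⁻¹ * g⁻¹ : G) : Matrix (Fin 2) (Fin 2) (ZMod 3)) 0 0 +
      ((x * g * x⁻¹ * g⁻¹ : G) : Matrix (Fin 2) (Fin 2) (ZMod 3)) 1 1 = 0 := by decide +kernel

set_option maxRecDepth 100000 in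
lemma norm_step : ∀ g : G, ((g : Matrix (Fin 2) (Fin 2) (ZMod 3)) 0 0 + (g : Matrix (Fin 2) (Fin 2) (ZMod 3)) 1 1 = 0) →
    ∀ h : G, P h →
    ∃ x y : G, h = x * g * x⁻¹ * (y * g * y⁻¹)⁻¹ ∨ h = x * g * x⁻¹ * (y * g * y⁻¹) := by decide +kernel

set_option maxRecDepth 100000 in
lemma top_step : ∀ g : G, ¬ P g → ∀ y : G, ∃ h : G, P h ∧ ∃ e : Fin 3, y = h * g ^ (e : ℕ) := by decide +kernel

set_option maxRecDepth 100000 in
lemma center_iff : ∀ g : G, g ∈ Subgroup.center G ↔ (g = 1 ∨ g = -1) := by decide +kernel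

lemma normal_cases (N : Subgroup G) (hN : N.Normal) :
    N = ⊥ ∨ N = ⊤ ∨ N = Subgroup.center G ∨ N = commutator G := by
  rw [commutator_eq]
  have conj_mem : ∀ g ∈ N, ∀ x : G, x * g * x⁻¹ ∈ N := fun g hg x => hN.conj_mem g hg x
  by_cases h1 : ∃ g ∈ N, g ≠ 1 ∧ g ≠ -1
  · obtain ⟨g, hgN, hg1, hg2⟩ := h1
    have hQ0 : ∀ g ∈ N, ((g : Matrix (Fin 2) (Fin 2) (ZMod 3)) 0 0 + (g : Matrix (Fin 2) (Fin 2) (ZMod 3)) 1 1 = 0) → Q ≤ N := by
      intro g hgN ht h hh
      obtain ⟨x, y, hxy | hxy⟩ := norm_step g ht h hh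
      · rw [hxy]
        exact N.mul_mem (conj_mem g hgN x) (N.inv_mem (conj_mem g hgN y))
      · rw [hxy]
        exact N.mul_mem (conj_mem g hgN x) (conj_mem g hgN y)
    have hQ : Q ≤ N := by
      rcases norm_step0 g hg1 hg2 with ht | ⟨x, ht⟩
      · exact hQ0 g hgN ht
      · exact hQ0 _ (N.mul_mem (conj_mem g hgN x) (N.inv_mem hgN)) ht
    by_cases h2 : ∃ g ∈ N, ¬ P g
    · obtain ⟨g', hg'N, hg'⟩ := h2
      right; left
      rw [eq_top_iff]
      intro y _
      obtain ⟨h, hh, e, rfl⟩ := top_step g' hg' y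
      exact N.mul_mem (hQ hh) (N.pow_mem hg'N _)
    · right; right; right
      apply le_antisymm
      · intro g hg
        by_contra hc
        exact h2 ⟨g, hg, hc⟩
      · exact hQ
  · push Not at h1
    by_cases h3 : (-1 : G) ∈ N
    · right; right; left
      apply le_antisymm
      · intro g hg
        rw [center_iff]
        by_cases hg1 : g = 1
        · exact Or.inl hg1
        · exact Or.inr (h1 g hg hg1)
      · intro g hg
        rw [center_iff] at hg
        rcases hg with rfl | rfl
        · exact N.one_mem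
        · exact h3
    · left
      rw [eq_bot_iff]
      intro g hg
      by_contra hc
      apply h3
      rw [← h1 g hg hc]
      exact hg


/-- The group SL₂ over the field with 3 elements has order 24 and centre of order 2; its commutator subgroup has order 8, is isomorphic to the quaternion group of order 8 and is complemented by every Sylow 3-subgroup (so the group is a semidirect product of a quaternion group of order 8 by a cyclic group of order 3); and its only normal subgroups besides the trivial subgroup and the whole group are the centre and the commutator subgroup. -/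
theorem result :
    Nat.card (Matrix.SpecialLinearGroup (Fin 2) (ZMod 3)) = 24 ∧
    Nat.card (Subgroup.center (Matrix.SpecialLinearGroup (Fin 2) (ZMod 3))) = 2 ∧
    Nat.card (commutator (Matrix.SpecialLinearGroup (Fin 2) (ZMod 3))) = 8 ∧
    Nonempty (commutator (Matrix.SpecialLinearGroup (Fin 2) (ZMod 3)) ≃* QuaternionGroup 2) ∧
    (∀ P : Sylow 3 (Matrix.SpecialLinearGroup (Fin 2) (ZMod 3)),
      Subgroup.IsComplement' (commutator (Matrix.SpecialLinearGroup (Fin 2) (ZMod 3)))
        (P : Subgroup (Matrix.SpecialLinearGroup (Fin 2) (ZMod 3)))) ∧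
    ∀ N : Subgroup (Matrix.SpecialLinearGroup (Fin 2) (ZMod 3)), N.Normal →
      N = ⊥ ∨ N = ⊤ ∨ N = Subgroup.center (Matrix.SpecialLinearGroup (Fin 2) (ZMod 3)) ∨
        N = commutator (Matrix.SpecialLinearGroup (Fin 2) (ZMod 3)) := by
  refine ⟨?_, ?_, ?_, ?_, ?_, normal_cases⟩
  · rw [Nat.card_eq_fintype_card]; exact card_G
  · rw [Nat.card_eq_fintype_card]; exact card_center
  · rw [commutator_eq, Nat.card_eq_fintype_card]; exact card_Q
  · rw [commutator_eq]; exact ⟨fqEquiv.symm⟩
  · intro P
    have hG : Nat.card G = 24 := by rw [Nat.card_eq_fintype_card]; exact card_G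
    have hP : Nat.card P = 3 := by
      rw [Sylow.card_eq_multiplicity, hG]
      have : Nat.factorization 24 3 = 1 := by
        have : (24:ℕ) = 2^3 * 3 := by norm_num
        rw [this, Nat.factorization_mul (by norm_num) (by norm_num), Finsupp.add_apply,
          Nat.Prime.factorization_self Nat.prime_three,
          Nat.factorization_eq_zero_of_not_dvd (by norm_num)]
      rw [this, pow_one]
    have hQc : Nat.card (commutator G) = 8 := by
      rw [commutator_eq, Nat.card_eq_fintype_card]; exact card_Q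
    apply Subgroup.isComplement'_of_coprime
    · rw [hQc, hP, hG]
    · rw [hQc, hP]; norm_num

end Cfsg.Agent.S2427
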