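import Cfsg.Statements.S2429
import Cfsg.Agent.Lib.SL2Nonsplit

set_option autoImplicit false
open Cfsg

namespace Cfsg.Agent.S2429

/-- Let F be a finite field with q elements, q odd. Then SL₂ over F contains a cyclic subgroup T′ of order q + 1 (a non-split torus) with the following properties: T′ is its own centraliser, and indeed the centraliser of each element of T′ other than 1 and −1 is exactly T′; every element of SL₂ having no eigenvector in F² is conjugate to an element of T′; the normaliser of T′ has order 2(q + 1) and exactly (q + 7)/2 conjugacy classes; and every element of that normaliser outside T′ has square −1. -/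
theorem result {F : Type*} [Field F] [Fintype F] (hodd : Odd (Fintype.card F)) :
    ∃ T' : Subgroup (Matrix.SpecialLinearGroup (Fin 2) F), IsCyclic T' ∧ Nat.card T' = Fintype.card F + 1 ∧
      Subgroup.centralizer ((T' : Set (Matrix.SpecialLinearGroup (Fin 2) F))) = T' ∧
      (∀ g : Matrix.SpecialLinearGroup (Fin 2) F, g ∈ T' → (g : Matrix (Fin 2) (Fin 2) F) ≠ 1 → (g : Matrix (Fin 2) (Fin 2) F) ≠ -1 → Subgroup.centralizer ({g} : Set (Matrix.SpecialLinearGroup (Fin 2) F)) = T') ∧
      (∀ g : Matrix.SpecialLinearGroup (Fin 2) F, (∀ (c : F) (v : Fin 2 → F), v ≠ 0 → (g : Matrix (Fin 2) (Fin 2) F).mulVec v ≠ c • v) → ∃ h : Matrix.SpecialLinearGroup (Fin 2) F, h * g * h⁻¹ ∈ T') ∧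
      Nat.card (Subgroup.normalizer (T' : Set (Matrix.SpecialLinearGroup (Fin 2) F))) = 2 * (Fintype.card F + 1) ∧
      Nat.card (ConjClasses (Subgroup.normalizer (T' : Set (Matrix.SpecialLinearGroup (Fin 2) F)))) = (Fintype.card F + 7) / 2 ∧
      ∀ g : Matrix.SpecialLinearGroup (Fin 2) F, g ∈ Subgroup.normalizer (T' : Set (Matrix.SpecialLinearGroup (Fin 2) F)) → g ∉ T' → ((g * g) : Matrix (Fin 2) (Fin 2) F) = -1 := by
  classical
  have hc : ringChar F ≠ 2 := by
    intro hc
    have h1 := FiniteField.even_card_of_char_two hc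
    have h2 := Nat.odd_iff.mp hodd
    omega
  obtain ⟨D⟩ := Cfsg.Agent.Lib.SL2Torus.exists_normOneData (F := F)
  have hT := Cfsg.Agent.Lib.SL2Nonsplit.isNSTorus_zpowers hc D
  refine ⟨Subgroup.zpowers (Cfsg.Agent.Lib.SL2Nonsplit.gC D), hT.cyc, hT.card_eq, ?_, ?_, ?_, hT.card_normalizer hc,
    hT.card_conjClasses_normalizer hc, ?_⟩
  · obtain ⟨g, hg, -, hgZ⟩ := hT.exists_gen
    apply le_antisymm
    · intro x hx
      rw [← hT.cent g hg hgZ, Subgroup.mem_centralizer_singleton_iff]
      have := (Subgroup.mem_centralizer_iff.mp hx) g hg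
      exact this.symm
    · intro x hx
      rw [Subgroup.mem_centralizer_iff]
      intro y hy
      exact hT.comm hy hx
  · intro g hg h1 h2
    apply hT.cent g hg
    intro hZ
    rcases Cfsg.Agent.Lib.SL2Core.center_eq g hZ with h3 | h3
    · exact h1 (by rw [h3]; rfl)
    · exact h2 (by rw [h3]; simp)
  · intro g hg
    exact hT.all_conj g ((Cfsg.Agent.Lib.SL2Nonsplit.ns_iff g).mpr hg)
  · intro g hg hgT
    rcases (hT.mem_normalizer_iff hc).mp hg with h | h
    · exact absurd h hgT
    · have := hT.inverting_sq hc h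
      rw [← Matrix.SpecialLinearGroup.coe_mul, this]
      simp

end Cfsg.Agent.S2429
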