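import Cfsg.Statements.S2435
import Cfsg.Agent.Lib.SL2CuspVal

set_option autoImplicit false
open Cfsg

namespace Cfsg.Agent.S2435

/-- Let F be a finite field with q elements, q odd and q ≥ 5, and χ an irreducible complex character of SL₂ over F. If χ has degree (q + 1)/2, then at a diagonal element with entry a, a² ≠ 1, χ takes the value 1 when a is a square in F and −1 otherwise. If χ has degree (q − 1)/2, then at an element g with no eigenvector in F² (so g has order dividing q + 1), χ takes the value −1 when g raised to the power (q + 1)/2 is the identity and the value 1 otherwise. -/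
theorem result {F : Type*} [Field F] [Fintype F] (hodd : Odd (Fintype.card F)) (hq : 5 ≤ Fintype.card F)
    (χ : Matrix.SpecialLinearGroup (Fin 2) F → ℂ) (hχ : Cfsg.IsIrrCharacter (Matrix.SpecialLinearGroup (Fin 2) F) χ) (g : Matrix.SpecialLinearGroup (Fin 2) F) :
    (χ 1 = (((Fintype.card F + 1) / 2 : ℕ) : ℂ) → (g : Matrix (Fin 2) (Fin 2) F) 0 1 = 0 → (g : Matrix (Fin 2) (Fin 2) F) 1 0 = 0 → (g : Matrix (Fin 2) (Fin 2) F) 0 0 ^ 2 ≠ 1 →
      (IsSquare ((g : Matrix (Fin 2) (Fin 2) F) 0 0) → χ g = 1) ∧ (¬ IsSquare ((g : Matrix (Fin 2) (Fin 2) F) 0 0) → χ g = -1)) ∧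
    (χ 1 = (((Fintype.card F - 1) / 2 : ℕ) : ℂ) → (∀ (c : F) (v : Fin 2 → F), v ≠ 0 → (g : Matrix (Fin 2) (Fin 2) F).mulVec v ≠ c • v) →
      (((g ^ ((Fintype.card F + 1) / 2)) : Matrix (Fin 2) (Fin 2) F) = 1 → χ g = -1) ∧ (((g ^ ((Fintype.card F + 1) / 2)) : Matrix (Fin 2) (Fin 2) F) ≠ 1 → χ g = 1)) := by
  classical
  refine ⟨?_, ?_⟩
  · intro h1 h01 h10 hsq
    exact Cfsg.Agent.Lib.SL2Cusp.half_prin_value hodd hq hχ h1 h01 h10 hsq
  · intro h1 hns
    have hns' : Cfsg.Agent.Lib.SL2Nonsplit.NS g := (Cfsg.Agent.Lib.SL2Nonsplit.ns_iff g).mpr hns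
    obtain ⟨a, b⟩ := Cfsg.Agent.Lib.SL2Cusp.half_cusp_value hodd hq hχ h1 hns'
    constructor
    · intro h
      apply a
      apply Subtype.ext
      rw [Matrix.SpecialLinearGroup.coe_pow, h]
      rfl
    · intro h
      apply b
      intro e
      apply h
      rw [← Matrix.SpecialLinearGroup.coe_pow, e]
      rfl

end Cfsg.Agent.S2435
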