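import Cfsg.Statements.S2436
import Cfsg.Agent.Lib.SL2McKayN

set_option autoImplicit false
open Cfsg

namespace Cfsg.Agent.S2436

/-- Let F be a finite field with q elements, q odd, ℓ any prime and S a Sylow ℓ-subgroup of SL₂ over F with normaliser N. Then SL₂ and N have the same number of irreducible complex characters of degree not divisible by ℓ (the McKay equality holds for SL₂ over F at every prime). -/
theorem result {F : Type*} [Field F] [Fintype F] (hodd : Odd (Fintype.card F)) (ℓ : ℕ) [Fact ℓ.Prime] (S : Sylow ℓ (Matrix.SpecialLinearGroup (Fin 2) F)) :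
    Nat.card {χ : Cfsg.IrrCharacter (Matrix.SpecialLinearGroup (Fin 2) F) // ¬ ℓ ∣ Cfsg.charDegree (χ : Matrix.SpecialLinearGroup (Fin 2) F → ℂ)} =
      Nat.card {ψ : Cfsg.IrrCharacter (Subgroup.normalizer ((S : Subgroup (Matrix.SpecialLinearGroup (Fin 2) F)) : Set (Matrix.SpecialLinearGroup (Fin 2) F))) //
        ¬ ℓ ∣ Cfsg.charDegree (ψ : Subgroup.normalizer ((S : Subgroup (Matrix.SpecialLinearGroup (Fin 2) F)) : Set (Matrix.SpecialLinearGroup (Fin 2) F)) → ℂ)} := by
  classical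
have hp : ℓ.Prime := Fact.out
have hq : 2 ≤ Fintype.card F := Fintype.one_lt_card
have hoddm : Fintype.card F % 2 = 1 := Nat.odd_iff.mp hodd
by_cases h1 : ℓ ∣ Fintype.card F
· rw [Cfsg.Agent.Lib.SL2McKayN.count_N_defining hodd ℓ h1 S,
    Cfsg.Agent.Lib.SL2McKay.count_G_defining hodd hp h1]
by_cases h2 : ℓ = 2
· subst h2
  have hcases : (Fintype.card F % 8 = 1 ∨ Fintype.card F % 8 = 7) ∨
      (Fintype.card F % 8 = 3 ∨ Fintype.card F % 8 = 5) := by omega
  rcases hcases with h8 | h8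
  · have hq5 : 5 ≤ Fintype.card F := by omega
    rw [Cfsg.Agent.Lib.SL2McKayN.count_N_two_eight hodd h8 S,
      Cfsg.Agent.Lib.SL2McKay.count_G_two hodd hq5]
  · obtain ⟨h24, h3⟩ := Cfsg.Agent.Lib.SL2McKayN.card_N_quat hodd h8 S
    by_cases hq3 : Fintype.card F = 3
    · have hG : Nat.card (Matrix.SpecialLinearGroup (Fin 2) F) = 24 := by
        rw [Cfsg.Agent.Lib.ClassicalSmall.card_SL2, hq3]
      have hN : Subgroup.normalizer ((S : Subgroup (Matrix.SpecialLinearGroup (Fin 2) F)) : Set (Matrix.SpecialLinearGroup (Fin 2) F)) = ⊤ := by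
        apply Subgroup.eq_top_of_card_eq
        rw [h24, hG]
      exact Cfsg.Agent.Lib.McKayTools.count_congr
        ((MulEquiv.subgroupCongr hN).trans Subgroup.topEquiv).symm (fun d => ¬ 2 ∣ d)
    · have hq5 : 5 ≤ Fintype.card F := by omega
      rw [Cfsg.Agent.Lib.McKayTools.odd_count_of_three h24 h3,
        Cfsg.Agent.Lib.SL2McKay.count_G_two hodd hq5]
by_cases h3 : ℓ ∣ Fintype.card F - 1
· have hℓ3 : 3 ≤ ℓ := by
    have := hp.two_le
    omega
  have hq5 : 5 ≤ Fintype.card F := by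
    have := Nat.le_of_dvd (by omega) h3
    omega
  rw [Cfsg.Agent.Lib.SL2McKayN.count_N_split hodd hq5 ℓ h2 S h3,
    Cfsg.Agent.Lib.SL2McKay.count_G_split hodd hq5 hp h2 h3]
by_cases h4 : ℓ ∣ Fintype.card F + 1
· have hq5 : 5 ≤ Fintype.card F := by
    by_contra hcon
    have hq3 : Fintype.card F = 3 := by omega
    rw [hq3] at h4
    have h5 : ℓ ∣ 2 ^ 2 := h4
    exact h2 ((Nat.prime_dvd_prime_iff_eq hp Nat.prime_two).mp (hp.dvd_of_dvd_pow h5))
  rw [Cfsg.Agent.Lib.SL2McKayN.count_N_nonsplit hodd ℓ h2 S h4,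
    Cfsg.Agent.Lib.SL2McKay.count_G_nonsplit hodd hq5 hp h2 h4]
· apply Cfsg.Agent.Lib.SL2McKayN.count_coprime
  rw [Cfsg.Agent.Lib.ClassicalSmall.card_SL2]
  intro h
  rcases (Nat.Prime.dvd_mul hp).mp h with h5 | h5
  · rcases (Nat.Prime.dvd_mul hp).mp h5 with h6 | h6
    · first | exact h4 h6 | exact h1 h6 | exact h3 h6
    · first | exact h4 h6 | exact h1 h6 | exact h3 h6
  · first | exact h4 h5 | exact h1 h5 | exact h3 h5

end Cfsg.Agent.S2436
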