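import Cfsg.Statements.S2440
import Cfsg.Agent.S0953
import Cfsg.Agent.Lib.SL2Blocks
import Cfsg.Agent.Lib.SLnBlocks50

set_option autoImplicit false
open Cfsg

namespace Cfsg.Agent.S2440

/-- For a prime p and n ≥ 2, the group SL_n over the field with p elements has exactly gcd(n, p − 1) + 1 p-blocks relative to any maximal ideal of the algebraic integers containing p, that is, one more than the order of its centre (only this total is asserted; it arises as the defect-zero block of the Steinberg character plus as many blocks of maximal defect as the order of the centre). -/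
theorem result (p : ℕ) [Fact p.Prime] (n : ℕ) (hn : 2 ≤ n) (M : Ideal Cfsg.AlgInt) (hM : Cfsg.IsPModular p M) :
    Nat.card {B : Set (Cfsg.IrrCharacter (Matrix.SpecialLinearGroup (Fin n) (ZMod p))) // Cfsg.IsPBlock M B} =
      Nat.gcd n (p - 1) + 1 := by
    classical
  have hpp : p.Prime := Fact.out
  have hcard : Fintype.card (ZMod p) = p := ZMod.card p
  by_cases hcase : n = 2 ∧ p ≠ 2
  · obtain ⟨rfl, hp2⟩ := hcase
    have h := Cfsg.Agent.Lib.SL2Blocks.card_blocks (F := ZMod p) (p := p) hM hp2
    rw [h]
    have hodd : Odd p := hpp.odd_of_ne_two hp2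
    have h2 : Nat.gcd 2 (p - 1) = 2 := by
      obtain ⟨k, hk⟩ := hodd
      rw [hk, Nat.add_sub_cancel]
      exact Nat.gcd_eq_left (dvd_mul_right 2 k)
    rw [h2]
  · have hh3 : 3 ≤ n ∨ ∀ a : ZMod p, a ≠ 0 → a = 1 := by
      by_cases h3 : 3 ≤ n
      · exact Or.inl h3
      · right
        have hn2 : n = 2 := by omega
        have hp2 : p = 2 := by
          by_contra h
          exact hcase ⟨hn2, h⟩
        subst hp2
        intro a ha
        have h1 := ZMod.val_lt a
        have h2 : a.val ≠ 0 := fun h => ha ((ZMod.val_eq_zero a).mp h)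
        have h3 : a.val = 1 := by omega
        have h4 := ZMod.natCast_zmod_val a
        rw [h3] at h4
        simpa using h4.symm
    obtain ⟨P⟩ : Nonempty (Sylow p (Matrix.SpecialLinearGroup (Fin n) (ZMod p))) := inferInstance
    have h1 := Cfsg.Agent.Lib.SLnBlocks50.card_blocks_general (M := M) hM
      (Cfsg.Agent.Lib.SLnBlocks50.defect_dichotomy hM)
      (Cfsg.Agent.Lib.SLnSteinberg50.exists_defect_zero (F := ZMod p) p (n := n) (by omega))
      (fun χ χ' h h' => Cfsg.Agent.Lib.SLnBorel50.unique_vanish p (by omega) hh3 χ χ'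
        (Cfsg.Agent.Lib.SLnSteinberg50.vanish_of_not_dvd hpp χ h)
        (Cfsg.Agent.Lib.SLnSteinberg50.vanish_of_not_dvd hpp χ' h'))
      (Cfsg.Agent.Lib.SLnBlocks50.dvd_card hn) P
    rw [h1, Cfsg.Agent.S0953.result p M hM P, Cfsg.Agent.Lib.SLnBlocks50.card_classes hn P, hcard]

end Cfsg.Agent.S2440
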