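import Cfsg.Statements.S2500
import Cfsg.Agent.Lib.NC2Base
import Cfsg.Agent.Lib.NC2Lin
import Cfsg.Agent.Lib.NC2U4
import Cfsg.Agent.Lib.NC2U3B
import Cfsg.Agent.Lib.NC2SpE
import Cfsg.Agent.Lib.NC2Sp6
import Cfsg.Agent.Lib.NC2G2

set_option autoImplicit false
open Cfsg

namespace Cfsg.Agent.S2500

/-- The infinite families of simple groups with normal covering number 2. For a finite field F: each of PSL_2(F) (|F| ≥ 4), PSL_3(F), PSL_4(F), PSU_4 over F (|F| = q²), PSU_3 over F when |F| = q² with q a power of 3, PSp_{2m}(F) for |F| even, m ≥ 2 and (m, |F|) ≠ (2, 2), PSp_6(F) for |F| a power of 3, and G_2(F) (automorphisms of the split octonions) for |F| = 2^a ≥ 4 is the union of the conjugates of two proper subgroups: there are proper subgroups H, K such that every element is conjugate into H or into K. -/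
theorem result {F : Type} [Field F] [Fintype F] :
    (4 ≤ Fintype.card F → (∃ H K : Subgroup (Matrix.ProjectiveSpecialLinearGroup (Fin 2) F), H ≠ ⊤ ∧ K ≠ ⊤ ∧ ∀ g : (Matrix.ProjectiveSpecialLinearGroup (Fin 2) F), ∃ x : (Matrix.ProjectiveSpecialLinearGroup (Fin 2) F), x * g * x⁻¹ ∈ H ∨ x * g * x⁻¹ ∈ K)) ∧
    (∃ H K : Subgroup (Matrix.ProjectiveSpecialLinearGroup (Fin 3) F), H ≠ ⊤ ∧ K ≠ ⊤ ∧ ∀ g : (Matrix.ProjectiveSpecialLinearGroup (Fin 3) F), ∃ x : (Matrix.ProjectiveSpecialLinearGroup (Fin 3) F), x * g * x⁻¹ ∈ H ∨ x * g * x⁻¹ ∈ K) ∧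
    (∃ H K : Subgroup (Matrix.ProjectiveSpecialLinearGroup (Fin 4) F), H ≠ ⊤ ∧ K ≠ ⊤ ∧ ∀ g : (Matrix.ProjectiveSpecialLinearGroup (Fin 4) F), ∃ x : (Matrix.ProjectiveSpecialLinearGroup (Fin 4) F), x * g * x⁻¹ ∈ H ∨ x * g * x⁻¹ ∈ K) ∧
    (∀ q : ℕ, Fintype.card F = q ^ 2 → (∃ H K : Subgroup (Cfsg.PSU 4 F q), H ≠ ⊤ ∧ K ≠ ⊤ ∧ ∀ g : (Cfsg.PSU 4 F q), ∃ x : (Cfsg.PSU 4 F q), x * g * x⁻¹ ∈ H ∨ x * g * x⁻¹ ∈ K)) ∧
    (∀ q a : ℕ, Fintype.card F = q ^ 2 → 1 ≤ a → q = 3 ^ a → (∃ H K : Subgroup (Cfsg.PSU 3 F q), H ≠ ⊤ ∧ K ≠ ⊤ ∧ ∀ g : (Cfsg.PSU 3 F q), ∃ x : (Cfsg.PSU 3 F q), x * g * x⁻¹ ∈ H ∨ x * g * x⁻¹ ∈ K)) ∧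
    (∀ m : ℕ, 2 ≤ m → ¬ Odd (Fintype.card F) → ¬ (m = 2 ∧ Fintype.card F = 2) → (∃ H K : Subgroup (Cfsg.PSp m F), H ≠ ⊤ ∧ K ≠ ⊤ ∧ ∀ g : (Cfsg.PSp m F), ∃ x : (Cfsg.PSp m F), x * g * x⁻¹ ∈ H ∨ x * g * x⁻¹ ∈ K)) ∧
    (∀ a : ℕ, 1 ≤ a → Fintype.card F = 3 ^ a → (∃ H K : Subgroup (Cfsg.PSp 3 F), H ≠ ⊤ ∧ K ≠ ⊤ ∧ ∀ g : (Cfsg.PSp 3 F), ∃ x : (Cfsg.PSp 3 F), x * g * x⁻¹ ∈ H ∨ x * g * x⁻¹ ∈ K)) ∧
    (∀ a : ℕ, 2 ≤ a → Fintype.card F = 2 ^ a → (∃ H K : Subgroup (Cfsg.Lie.G2 F), H ≠ ⊤ ∧ K ≠ ⊤ ∧ ∀ g : (Cfsg.Lie.G2 F), ∃ x : (Cfsg.Lie.G2 F), x * g * x⁻¹ ∈ H ∨ x * g * x⁻¹ ∈ K)) := by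
  classical
  have charTwo : ∀ n : ℕ, n ≠ 0 → Fintype.card F = 2 ^ n → CharP F 2 := by
    intro n hn hc
    obtain ⟨p, hp⟩ := CharP.exists F
    obtain ⟨k, hpp, hk⟩ := FiniteField.card F p
    have h2 : p ∣ 2 ^ n := by
      rw [← hc, hk]
      exact dvd_pow_self p k.pos.ne'
    have h3 : p = 2 := (Nat.prime_dvd_prime_iff_eq hpp Nat.prime_two).1 (hpp.dvd_of_dvd_pow h2)
    rw [h3] at hp
    exact hp
  refine ⟨?_, ?_, ?_, ?_, ?_, ?_, ?_, ?_⟩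
  · intro _
    exact Cfsg.Agent.Lib.NC2Lin.cover_PSL 2 2 1 (by norm_num) (by norm_num) (by norm_num) (by
      intro np ns h1 h2 h3 h4
      have : np = 2 := by omega
      rw [this])
  · exact Cfsg.Agent.Lib.NC2Lin.cover_PSL 3 3 1 (by norm_num) (by norm_num) (by norm_num) (by
      intro np ns h1 h2 h3 h4
      have : np = 3 := by omega
      rw [this])
  · exact Cfsg.Agent.Lib.NC2Lin.cover_PSL 4 2 2 (by norm_num) (by norm_num) (by norm_num) (by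
      intro np ns h1 h2 h3 h4
      have : np = 2 ∨ np = 4 := by omega
      rcases this with h | h <;> rw [h] <;> norm_num)
  · intro q hF
    obtain ⟨H, K, h1, h2, h3, h4, h5⟩ := Cfsg.Agent.Lib.NC2U4.main hF
    exact Cfsg.Agent.Lib.NC2.cover_quot H K h1 h2 h3 h4 h5
  · intro q a hF ha hq
    obtain ⟨H, K, h1, h2, h3, h4, h5⟩ := Cfsg.Agent.Lib.NC2U3.main hF ha hq
    exact Cfsg.Agent.Lib.NC2.cover_quot H K h1 h2 h3 h4 h5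
  · intro m hm hodd _
    haveI : CharP F 2 := by
      obtain ⟨p, hp⟩ := CharP.exists F
      obtain ⟨k, hpp, hk⟩ := FiniteField.card F p
      have h3 : p = 2 := by
        by_contra hne
        apply hodd
        rw [hk]
        exact (hpp.odd_of_ne_two hne).pow
      rw [h3] at hp
      exact hp
    obtain ⟨H, K, h1, h2, h3, h4, h5⟩ := Cfsg.Agent.Lib.NC2SpE.main (F := F) hm
    exact Cfsg.Agent.Lib.NC2.cover_quot H K h1 h2 h3 h4 h5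
  · intro a ha hF
    have h3 : (3 : F) = 0 := by
      have h1 : ((Fintype.card F : ℕ) : F) = 0 := FiniteField.cast_card_eq_zero F
      rw [hF] at h1
      push_cast at h1
      exact pow_eq_zero_iff (by omega) |>.1 h1
    obtain ⟨H, K, h1, h2, h3', h4, h5⟩ := Cfsg.Agent.Lib.NC2Sp6.main h3
    exact Cfsg.Agent.Lib.NC2.cover_quot H K h1 h2 h3' h4 h5
  · intro a ha hF
    haveI : CharP F 2 := charTwo a (by omega) hF
    exact Cfsg.Agent.Lib.NC2G2.main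

end Cfsg.Agent.S2500
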