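import Mathlib
import Cfsg.Statements.S2531

set_option autoImplicit false
open Cfsg

namespace Cfsg.Agent.S2531

open Finset in
/-- Double counting for a sharply 2-transitive set of permutations. -/
theorem count_aux {X : Type*} [Fintype X] [DecidableEq X] (S : Finset (Equiv.Perm X))
    (hS : ∀ a b c d : X, a ≠ b → c ≠ d → ∃! s, s ∈ S ∧ s a = c ∧ s b = d)
    (c d : X) (A B : Finset X) (hA : c ∉ A) (hB : d ∉ B) :
    ∑ s ∈ S.filter (fun s => s c = d), (A.filter (fun b => s b ∈ B)).card = A.card * B.card := by
  have h := Finset.sum_card_bipartiteAbove_eq_sum_card_bipartiteBelow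
    (s := S.filter (fun s => s c = d)) (t := A ×ˢ B)
    (fun (s : Equiv.Perm X) (p : X × X) => s p.1 = p.2)
  have h1 : ∀ s ∈ S.filter (fun s => s c = d),
      (Finset.bipartiteAbove (fun (s : Equiv.Perm X) (p : X × X) => s p.1 = p.2) (A ×ˢ B) s).card
        = (A.filter (fun b => s b ∈ B)).card := by
    intro s _
    apply Finset.card_bij (fun p _ => p.1)
    · intro p hp
      simp only [Finset.mem_bipartiteAbove, Finset.mem_product] at hp
      simp only [Finset.mem_filter]
      exact ⟨hp.1.1, hp.2 ▸ hp.1.2⟩
    · intro p hp p' hp' hpp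
      simp only [Finset.mem_bipartiteAbove, Finset.mem_product] at hp hp'
      ext
      · exact hpp
      · rw [← hp.2, ← hp'.2, hpp]
    · intro b hb
      simp only [Finset.mem_filter] at hb
      exact ⟨(b, s b), by simp [Finset.mem_bipartiteAbove, Finset.mem_product, hb.1, hb.2], rfl⟩
  have h2 : ∀ p ∈ A ×ˢ B,
      (Finset.bipartiteBelow (fun (s : Equiv.Perm X) (p : X × X) => s p.1 = p.2)
        (S.filter (fun s => s c = d)) p).card = 1 := by
    rintro ⟨b, y⟩ hp
    simp only [Finset.mem_product] at hp
    have hcb : c ≠ b := fun h => hA (h ▸ hp.1)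
    have hdy : d ≠ y := fun h => hB (h ▸ hp.2)
    obtain ⟨s, ⟨hs, hsc, hsb⟩, huniq⟩ := hS c b d y hcb hdy
    rw [Finset.card_eq_one]
    refine ⟨s, ?_⟩
    ext t
    simp only [Finset.mem_bipartiteBelow, Finset.mem_filter, Finset.mem_singleton]
    constructor
    · rintro ⟨⟨ht, htc⟩, htb⟩
      exact huniq t ⟨ht, htc, htb⟩
    · rintro rfl
      exact ⟨⟨hs, hsc⟩, hsb⟩
  rw [Finset.sum_congr rfl h1] at h
  rw [h, Finset.sum_congr rfl h2]
  simp [Finset.card_product]

/-- Points in a subspace. -/
noncomputable def pts {F V : Type*} [Field F] [AddCommGroup V] [Module F V]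
    [Fintype (Projectivization F V)] [DecidableEq (Projectivization F V)]
    (W : Submodule F V) : Finset (Projectivization F V) := by
  classical
  exact Finset.univ.filter (fun p => p.submodule ≤ W)

theorem mk_mem_pts {F V : Type*} [Field F] [AddCommGroup V] [Module F V]
    [Fintype (Projectivization F V)] [DecidableEq (Projectivization F V)]
    (W : Submodule F V) (v : V) (hv : v ≠ 0) :
    Projectivization.mk F v hv ∈ pts W ↔ v ∈ W := by
  classical
  simp only [pts, Finset.mem_filter, Finset.mem_univ, true_and, Projectivization.submodule_mk]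
  exact Submodule.span_singleton_le_iff_mem v W

theorem card_pts {F V : Type*} [Field F] [Finite F] [AddCommGroup V] [Module F V]
    [Module.Finite F V]
    [Fintype (Projectivization F V)] [DecidableEq (Projectivization F V)]
    (W : Submodule F V) (hW : W ≠ ⊥) :
    (pts W).card ≡ 1 [MOD Nat.card F] := by
  classical
  have hinj : Function.Injective W.subtype := W.injective_subtype
  have hcard : (pts W).card = Nat.card (Projectivization F W) := by
    have himg : Function.Injective (Projectivization.map W.subtype hinj) :=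
      Projectivization.map_injective _ hinj
    rw [← Nat.card_eq_finsetCard]
    apply Nat.card_congr
    refine (Equiv.ofInjective _ himg).trans (Equiv.setCongr ?_) |>.symm
    ext p
    induction p using Projectivization.ind with
    | h v hv =>
      simp only [Set.mem_range, SetLike.mem_coe, mk_mem_pts]
      constructor
      · rintro ⟨x, hx⟩
        induction x using Projectivization.ind with
        | h w hw =>
          rw [Projectivization.map_mk] at hx
          have hx' := hx.symm
          rw [Projectivization.mk_eq_mk_iff'] at hx'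
          obtain ⟨a, ha⟩ := hx'
          rw [← ha]
          exact W.smul_mem a w.2
      · intro hvW
        refine ⟨Projectivization.mk F ⟨v, hvW⟩ (by simpa [Subtype.ext_iff] using hv), ?_⟩
        rw [Projectivization.map_mk]
        rfl
  rw [hcard]
  have hpos : Module.finrank F W ≠ 0 := by
    intro h0
    exact hW (Submodule.finrank_eq_zero.mp h0)
  rw [Projectivization.card_of_finrank F W rfl]
  obtain ⟨k, hk⟩ := Nat.exists_eq_succ_of_ne_zero hpos
  rw [hk, Finset.sum_range_succ']
  simp only [pow_zero]
  have : ∑ i ∈ Finset.range k, Nat.card F ^ (i + 1) ≡ 0 [MOD Nat.card F] := by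
    rw [Nat.modEq_zero_iff_dvd]
    apply Finset.dvd_sum
    intro i _
    exact dvd_pow_self _ (by omega)
  simpa using this.add_right 1

theorem result {F : Type*} [Field F] [Finite F]
    (n : ℕ) (hn : 3 ≤ n) (S : Set (Equiv.Perm (Projectivization F (Fin n → F))))
    (hS : ∀ s ∈ S, ∃ (σ : F ≃+* F) (f : (Fin n → F) →ₛₗ[(σ : F →+* F)] (Fin n → F)) (hf : Function.Injective f),
      ∀ x, s x = Projectivization.map f hf x) :
    ¬ (∀ a b c d : Projectivization F (Fin n → F), a ≠ b → c ≠ d →
        ∃! s, s ∈ S ∧ s a = c ∧ s b = d) := by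
  classical
  intro hT
  have : Fintype F := Fintype.ofFinite F
  have : Fintype (Projectivization F (Fin n → F)) := Fintype.ofFinite _
  let i0 : Fin n := ⟨0, by omega⟩
  let i1 : Fin n := ⟨1, by omega⟩
  let i2 : Fin n := ⟨2, by omega⟩
  have h01 : i0 ≠ i1 := by simp [i0, i1, Fin.ext_iff]
  have h02 : i0 ≠ i2 := by simp [i0, i2, Fin.ext_iff]
  have h12 : i1 ≠ i2 := by simp [i1, i2, Fin.ext_iff]
  let e : Fin n → (Fin n → F) := fun i => Pi.single i 1
  have he : ∀ i, e i ≠ 0 := fun i h => by
    have := congrFun h i
    simp [e] at this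
  have hei : ∀ i, e i i = 1 := fun i => by simp [e]
  have hej : ∀ i j, i ≠ j → e i j = 0 := fun i j h => by simp [e, h.symm]
  let Hyp : Fin n → Submodule F (Fin n → F) := fun i => LinearMap.ker (LinearMap.proj i)
  have hHyp : ∀ i (v : Fin n → F), v ∈ Hyp i ↔ v i = 0 := fun i v => by simp [Hyp]
  have hHypne : ∀ i j, i ≠ j → Hyp i ≠ ⊥ := by
    intro i j hij h
    have : e j ∈ Hyp i := (hHyp i _).mpr (hej j i hij.symm)
    rw [h] at this
    exact he j (by simpa using this)
  let S' : Finset (Equiv.Perm (Projectivization F (Fin n → F))) := (S.toFinite).toFinset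
  have hS' : ∀ s, s ∈ S' ↔ s ∈ S := fun s => by simp [S']
  have hT' : ∀ a b c d : Projectivization F (Fin n → F), a ≠ b → c ≠ d → ∃! s, s ∈ S' ∧ s a = c ∧ s b = d := by
    intro a b c d hab hcd
    obtain ⟨s, hs, huniq⟩ := hT a b c d hab hcd
    refine ⟨s, ⟨(hS' s).mpr hs.1, hs.2⟩, ?_⟩
    rintro t ⟨ht, ht2⟩
    exact huniq t ⟨(hS' t).mp ht, ht2⟩
  let c₀ : Projectivization F (Fin n → F) := Projectivization.mk F (e i2) (he i2)
  let d₀ : Projectivization F (Fin n → F) := Projectivization.mk F (e i0) (he i0)
  let b₀ : Projectivization F (Fin n → F) := Projectivization.mk F (e i1) (he i1)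
  have hbc : c₀ ≠ b₀ := by
    intro h
    rw [Projectivization.mk_eq_mk_iff'] at h
    obtain ⟨a, ha⟩ := h
    have := congrFun ha i1
    simp only [Pi.smul_apply, smul_eq_mul, hei, hej i2 i1 h12.symm, mul_one] at this
    have h2 := congrFun ha i2
    simp only [Pi.smul_apply, smul_eq_mul, hei, hej i1 i2 h12, mul_zero] at h2
    exact one_ne_zero h2.symm
  have hc₀A : c₀ ∉ pts (Hyp i2) := by
    rw [mk_mem_pts, hHyp, hei]
    exact one_ne_zero
  have hd₀B : d₀ ∉ pts (Hyp i0) := by
    rw [mk_mem_pts, hHyp, hei]
    exact one_ne_zero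
  set S₀ := S'.filter (fun s => s c₀ = d₀) with hS₀
  -- first count
  have hcount := count_aux S' hT' c₀ d₀ (pts (Hyp i2)) (pts (Hyp i0)) hc₀A hd₀B
  -- second count
  have hcount2 := count_aux S' hT' c₀ d₀ {b₀} (Finset.univ.erase d₀) (by simpa using hbc)
    (by simp)
  -- summands are 1 in second count
  have hsec : ∀ s ∈ S₀, (({b₀} : Finset (Projectivization F (Fin n → F))).filter
      (fun b => s b ∈ Finset.univ.erase d₀)).card = 1 := by
    intro s hs
    rw [hS₀, Finset.mem_filter] at hs
    have : s b₀ ≠ d₀ := by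
      intro h
      apply hbc
      apply s.injective
      rw [hs.2, h]
    rw [Finset.filter_singleton]
    simp [this]
  rw [Finset.sum_congr rfl hsec] at hcount2
  simp only [Finset.sum_const, smul_eq_mul, mul_one, Finset.card_singleton, one_mul] at hcount2
  -- summands are 1 mod q in first count
  have hfirst : ∀ s ∈ S₀, ((pts (Hyp i2)).filter (fun b => s b ∈ pts (Hyp i0))).card
      ≡ 1 [MOD Nat.card F] := by
    intro s hs
    rw [hS₀, Finset.mem_filter] at hs
    obtain ⟨σ, f, hf, hsf⟩ := hS s ((hS' s).mp hs.1)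
    let W : Submodule F (Fin n → F) :=
      { carrier := {v | v i2 = 0 ∧ f v i0 = 0}
        add_mem' := by
          intro a b ha hb
          simp only [Set.mem_setOf_eq] at ha hb ⊢
          simp [map_add, ha.1, ha.2, hb.1, hb.2]
        zero_mem' := by simp
        smul_mem' := by
          intro c v hv
          simp only [Set.mem_setOf_eq] at hv ⊢
          rw [map_smulₛₗ]
          simp [hv.1, hv.2] }
    have hWmem : ∀ v, v ∈ W ↔ v i2 = 0 ∧ f v i0 = 0 := fun v => Iff.rfl
    have hW : W ≠ ⊥ := by
      intro hbot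
      by_cases ha : f (e i0) i0 = 0
      · have : e i0 ∈ W := (hWmem _).mpr ⟨hej _ _ h02, ha⟩
        rw [hbot] at this
        exact he i0 (by simpa using this)
      · let b := f (e i1) i0
        let a := f (e i0) i0
        let v : Fin n → F := e i1 - (σ.symm (b / a)) • e i0
        have hv : v ∈ W := by
          rw [hWmem]
          constructor
          · simp [v, hej _ _ h12, hej _ _ h02]
          · have : f v = f (e i1) - ((σ : F →+* F) (σ.symm (b / a))) • f (e i0) := by
              simp only [v, map_sub, map_smulₛₗ]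
            rw [this]
            simp only [Pi.sub_apply, Pi.smul_apply, smul_eq_mul, RingEquiv.coe_toRingHom,
              RingEquiv.apply_symm_apply]
            change b - (b / a) * a = 0
            rw [div_mul_cancel₀ _ ha, sub_self]
        rw [hbot] at hv
        have hv0 : v = 0 := by simpa using hv
        have := congrFun hv0 i1
        simp [v, hej _ _ h01, hei] at this
    have heq : (pts (Hyp i2)).filter (fun b => s b ∈ pts (Hyp i0)) = pts W := by
      ext p
      induction p using Projectivization.ind with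
      | h v hv =>
        rw [Finset.mem_filter, mk_mem_pts, mk_mem_pts, hHyp, hWmem, hsf, Projectivization.map_mk,
          mk_mem_pts, hHyp]
    rw [heq]
    exact card_pts W hW
  have hsum : ∑ s ∈ S₀, ((pts (Hyp i2)).filter (fun b => s b ∈ pts (Hyp i0))).card
      ≡ S₀.card [MOD Nat.card F] := by
    calc ∑ s ∈ S₀, ((pts (Hyp i2)).filter (fun b => s b ∈ pts (Hyp i0))).card
        ≡ ∑ s ∈ S₀, 1 [MOD Nat.card F] := by
          unfold Nat.ModEq
          rw [Finset.sum_nat_mod, Finset.sum_nat_mod S₀ _ (fun _ => 1)]
          congr 1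
          exact Finset.sum_congr rfl hfirst
      _ = S₀.card := by simp
  rw [hcount] at hsum
  have hA := card_pts (Hyp i2) (hHypne i2 i0 h02.symm)
  have hB := card_pts (Hyp i0) (hHypne i0 i1 h01)
  have hAB := hA.mul hB
  have hAll := card_pts (⊤ : Submodule F (Fin n → F)) (by
    intro h
    have : e i0 ∈ (⊤ : Submodule F (Fin n → F)) := Submodule.mem_top
    rw [h] at this
    exact he i0 (by simpa using this))
  have hptsTop : pts (⊤ : Submodule F (Fin n → F)) = Finset.univ := by
    ext p
    induction p using Projectivization.ind with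
    | h v hv => simp [mk_mem_pts]
  rw [hptsTop] at hAll
  have hcard2 : S₀.card + 1 = (Finset.univ : Finset (Projectivization F (Fin n → F))).card := by
    have h1 : (Finset.univ.erase d₀ : Finset (Projectivization F (Fin n → F))).card
        = (Finset.univ : Finset (Projectivization F (Fin n → F))).card - 1 :=
      Finset.card_erase_of_mem (Finset.mem_univ _)
    have h2 : 0 < (Finset.univ : Finset (Projectivization F (Fin n → F))).card :=
      Finset.card_pos.mpr ⟨d₀, Finset.mem_univ _⟩
    omega
  -- conclude
  have hS₀1 : S₀.card ≡ 1 [MOD Nat.card F] := hsum.symm.trans (by simpa using hAB)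
  have hS₀0 : S₀.card + 1 ≡ 1 [MOD Nat.card F] := by rw [hcard2]; exact hAll
  have h1 : (2 : ℕ) ≡ 1 [MOD Nat.card F] := by
    have := (hS₀1.add_right 1).symm.trans hS₀0
    simpa using this
  have h2 : (1 : ℕ) ≡ 0 [MOD Nat.card F] := by
    have h3 : (1 : ℕ) + 1 ≡ 0 + 1 [MOD Nat.card F] := h1
    exact Nat.ModEq.add_right_cancel' 1 h3
  rw [Nat.modEq_zero_iff_dvd] at h2
  have h3 : 1 < Nat.card F := Finite.one_lt_card
  have := Nat.le_of_dvd one_pos h2
  omega

end Cfsg.Agent.S2531
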