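import Mathlib
import Cfsg.Statements.S2532

set_option autoImplicit false
open Cfsg

namespace Cfsg.Agent.S2532

section action

variable {H X : Type*} [Group H] [MulAction H X]

/-- The map from `Fin r × H/L` to `X`, the `j`-th copy of `H/L` going to the orbit of `x j`. -/
noncomputable def psi (L : Subgroup H) {r : ℕ} (x : Fin r → X)
    (hx : ∀ j, MulAction.stabilizer H (x j) = L) : Fin r × (H ⧸ L) → X := fun p =>
  Quotient.liftOn' p.2 (fun h => h • x p.1) (by
    intro a b hab
    have hab' : a⁻¹ * b ∈ L := QuotientGroup.leftRel_apply.mp hab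
    have : a⁻¹ * b ∈ MulAction.stabilizer H (x p.1) := by rw [hx]; exact hab'
    rw [MulAction.mem_stabilizer_iff, mul_smul, inv_smul_eq_iff] at this
    exact this.symm)

theorem psi_mk (L : Subgroup H) {r : ℕ} (x : Fin r → X)
    (hx : ∀ j, MulAction.stabilizer H (x j) = L) (j : Fin r) (h : H) :
    psi L x hx (j, (h : H ⧸ L)) = h • x j := rfl

theorem psi_inj (L : Subgroup H) {r : ℕ} (x : Fin r → X)
    (hx : ∀ j, MulAction.stabilizer H (x j) = L)
    (hdist : ∀ i j, MulAction.orbit H (x i) = MulAction.orbit H (x j) → i = j) :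
    Function.Injective (psi L x hx) := by
  rintro ⟨i, c⟩ ⟨j, d⟩ hp
  induction c using QuotientGroup.induction_on with | H a => ?_
  induction d using QuotientGroup.induction_on with | H b => ?_
  rw [psi_mk, psi_mk] at hp
  have hij : i = j := by
    apply hdist
    rw [MulAction.orbit_eq_iff]
    refine ⟨a⁻¹ * b, ?_⟩
    show (a⁻¹ * b) • x j = x i
    rw [mul_smul, ← hp, inv_smul_smul]
  subst hij
  have hab : a⁻¹ * b ∈ MulAction.stabilizer H (x i) := by
    rw [MulAction.mem_stabilizer_iff, mul_smul, inv_smul_eq_iff]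
    exact hp.symm
  rw [hx] at hab
  have : (a : H ⧸ L) = b := QuotientGroup.eq.mpr hab
  rw [this]

theorem psi_smul (L : Subgroup H) {r : ℕ} (x : Fin r → X)
    (hx : ∀ j, MulAction.stabilizer H (x j) = L) (g : H) (j : Fin r) (c : H ⧸ L) :
    g • psi L x hx (j, c) = psi L x hx (j, g • c) := by
  induction c using QuotientGroup.induction_on with | H a => ?_
  rw [psi_mk, ← mul_smul]
  rfl

open Classical in
/-- The homomorphism from `Perm (Fin r)` to `Perm X` permuting the `r` isomorphic orbits. -/
noncomputable def permHom (L : Subgroup H) {r : ℕ} (x : Fin r → X)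
    (hx : ∀ j, MulAction.stabilizer H (x j) = L)
    (hdist : ∀ i j, MulAction.orbit H (x i) = MulAction.orbit H (x j) → i = j) :
    Equiv.Perm (Fin r) →* Equiv.Perm X :=
  (Equiv.Perm.extendDomainHom (Equiv.ofInjective _ (psi_inj L x hx hdist))).comp
    { toFun := fun σ => Equiv.prodCongr σ (Equiv.refl (H ⧸ L))
      map_one' := by ext p <;> rfl
      map_mul' := fun σ τ => by ext p <;> rfl }

theorem permHom_apply_psi (L : Subgroup H) {r : ℕ} (x : Fin r → X)
    (hx : ∀ j, MulAction.stabilizer H (x j) = L)
    (hdist : ∀ i j, MulAction.orbit H (x i) = MulAction.orbit H (x j) → i = j)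
    (σ : Equiv.Perm (Fin r)) (j : Fin r) (c : H ⧸ L) :
    permHom L x hx hdist σ (psi L x hx (j, c)) = psi L x hx (σ j, c) := by
  classical
  have := Equiv.Perm.extendDomain_apply_image (Equiv.prodCongr σ (Equiv.refl (H ⧸ L)))
    (Equiv.ofInjective _ (psi_inj L x hx hdist)) (j, c)
  exact this

theorem permHom_apply_not (L : Subgroup H) {r : ℕ} (x : Fin r → X)
    (hx : ∀ j, MulAction.stabilizer H (x j) = L)
    (hdist : ∀ i j, MulAction.orbit H (x i) = MulAction.orbit H (x j) → i = j)
    (σ : Equiv.Perm (Fin r)) (y : X) (hy : y ∉ Set.range (psi L x hx)) :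
    permHom L x hx hdist σ y = y := by
  classical
  exact Equiv.Perm.extendDomain_apply_not_subtype (Equiv.prodCongr σ (Equiv.refl (H ⧸ L)))
    (Equiv.ofInjective _ (psi_inj L x hx hdist)) hy

theorem permHom_smul (L : Subgroup H) {r : ℕ} (x : Fin r → X)
    (hx : ∀ j, MulAction.stabilizer H (x j) = L)
    (hdist : ∀ i j, MulAction.orbit H (x i) = MulAction.orbit H (x j) → i = j)
    (σ : Equiv.Perm (Fin r)) (g : H) (y : X) :
    permHom L x hx hdist σ (g • y) = g • permHom L x hx hdist σ y := by
  by_cases hy : y ∈ Set.range (psi L x hx)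
  · obtain ⟨⟨j, c⟩, rfl⟩ := hy
    rw [psi_smul, permHom_apply_psi, permHom_apply_psi, psi_smul]
  · have hgy : g • y ∉ Set.range (psi L x hx) := by
      rintro ⟨⟨j, c⟩, hp⟩
      apply hy
      refine ⟨(j, g⁻¹ • c), ?_⟩
      rw [← psi_smul, hp, inv_smul_smul]
    rw [permHom_apply_not L x hx hdist σ _ hy, permHom_apply_not L x hx hdist σ _ hgy]

theorem permHom_injective (L : Subgroup H) {r : ℕ} (x : Fin r → X)
    (hx : ∀ j, MulAction.stabilizer H (x j) = L)
    (hdist : ∀ i j, MulAction.orbit H (x i) = MulAction.orbit H (x j) → i = j) :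
    Function.Injective (permHom L x hx hdist) := by
  intro σ τ h
  apply Equiv.ext
  intro j
  have h1 := congrArg (fun T : Equiv.Perm X => T (psi L x hx (j, ((1 : H) : H ⧸ L)))) h
  simp only [permHom_apply_psi] at h1
  have := psi_inj L x hx hdist h1
  simpa using congrArg Prod.fst this

end action

/-- Existence of `r` points in distinct orbits with the same stabilizer. -/
theorem exists_points {H X : Type*} [Group H] [MulAction H X] [Finite H] [Finite X] (r : ℕ)
    (hcard : r * 2 ^ Nat.card H * Nat.card H ≤ Nat.card X) :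
    ∃ (L : Subgroup H) (x : Fin r → X), (∀ j, MulAction.stabilizer H (x j) = L) ∧
      ∀ i j, MulAction.orbit H (x i) = MulAction.orbit H (x j) → i = j := by
  classical
  have : Fintype H := Fintype.ofFinite H
  have : Fintype X := Fintype.ofFinite X
  let Ω := MulAction.orbitRel.Quotient H X
  have : Fintype Ω := Fintype.ofFinite Ω
  have hX : Nat.card X ≤ Nat.card Ω * Nat.card H := by
    rw [Nat.card_congr (MulAction.selfEquivSigmaOrbitsQuotientStabilizer H X)]
    rw [Nat.card_sigma]
    calc ∑ ω : Ω, Nat.card (H ⧸ MulAction.stabilizer H (Quotient.out ω))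
        ≤ ∑ _ω : Ω, Nat.card H := by
          apply Finset.sum_le_sum
          intro ω _
          exact Nat.card_le_card_of_surjective _ (QuotientGroup.mk_surjective)
      _ = Nat.card Ω * Nat.card H := by
          simp [Nat.card_eq_fintype_card]
  have hHpos : 0 < Nat.card H := Nat.card_pos
  have hΩ : r * 2 ^ Nat.card H ≤ Nat.card Ω := by
    have := hcard.trans hX
    exact Nat.le_of_mul_le_mul_right this hHpos
  have hsub : Fintype.card (Subgroup H) ≤ 2 ^ Nat.card H := by
    have h1 : Function.Injective (fun K : Subgroup H => (K : Set H)) := SetLike.coe_injective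
    have h2 := Fintype.card_le_of_injective _ h1
    rw [Fintype.card_set] at h2
    rw [Nat.card_eq_fintype_card]
    exact h2
  let g : Ω → Subgroup H := fun ω => MulAction.stabilizer H (Quotient.out ω)
  have hfib : Fintype.card (Subgroup H) * r ≤ Fintype.card Ω := by
    rw [← Nat.card_eq_fintype_card (α := Ω)]
    calc Fintype.card (Subgroup H) * r ≤ 2 ^ Nat.card H * r := Nat.mul_le_mul_right _ hsub
      _ = r * 2 ^ Nat.card H := Nat.mul_comm _ _
      _ ≤ _ := hΩ
  obtain ⟨L, hL⟩ := Fintype.exists_le_card_fiber_of_mul_le_card g hfib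
  obtain ⟨s, hs, hsc⟩ := Finset.exists_subset_card_eq hL
  let e := s.equivFinOfCardEq hsc
  refine ⟨L, fun j => Quotient.out (e.symm j : Ω), ?_, ?_⟩
  · intro j
    have := hs (e.symm j).2
    rw [Finset.mem_filter] at this
    exact this.2
  · intro i j hij
    have h1 : (e.symm i : Ω) = (e.symm j : Ω) := by
      have h2 := MulAction.orbitRel_apply.mpr (show Quotient.out (e.symm i : Ω) ∈ MulAction.orbit H (Quotient.out (e.symm j : Ω)) by
        rw [← hij]; exact MulAction.mem_orbit_self _)
      have h3 := Quotient.sound h2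
      simpa using h3
    have := e.symm.injective (Subtype.ext h1)
    exact this

theorem sign_permHom_three {X : Type*} [Fintype X] [DecidableEq X] {r : ℕ}
    (T : Equiv.Perm (Fin r) →* Equiv.Perm X) (σ : Equiv.Perm (Fin r)) (hσ : σ ∈ alternatingGroup (Fin r)) :
    T σ ∈ alternatingGroup X := by
  rw [← Equiv.Perm.closure_three_cycles_eq_alternating] at hσ
  induction hσ using Subgroup.closure_induction with
  | mem c hc =>
    have hc3 : c ^ 3 = 1 := by
      have := (show Equiv.Perm.IsThreeCycle c from hc).orderOf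
      rw [← this]
      exact pow_orderOf_eq_one c
    rw [Equiv.Perm.mem_alternatingGroup]
    have h1 : (Equiv.Perm.sign (T c)) ^ 3 = 1 := by
      rw [← map_pow, ← map_pow, hc3, map_one, map_one]
    rcases Int.units_eq_one_or (Equiv.Perm.sign (T c)) with h | h
    · exact h
    · rw [h] at h1
      exact absurd h1 (by decide)
  | one => simp
  | mul a b _ _ ha hb =>
    rw [map_mul]
    exact Subgroup.mul_mem _ ha hb
  | inv a _ ha =>
    rw [map_inv]
    exact Subgroup.inv_mem _ ha

/-- There is a function `f` of two natural-number arguments such that, whenever `m ≥ f(n, r)`, every subgroup of order `n` of the alternating group of degree `m` centralizes some subgroup of that alternating group isomorphic to the alternating group of degree `r`. -/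
theorem result :
    ∃ f : ℕ → ℕ → ℕ, ∀ (m r : ℕ) (H : Subgroup ↥(alternatingGroup (Fin m))), f (Nat.card H) r ≤ m →
      ∃ K : Subgroup ↥(alternatingGroup (Fin m)), Nonempty (↥K ≃* ↥(alternatingGroup (Fin r))) ∧
        K ≤ Subgroup.centralizer (H : Set ↥(alternatingGroup (Fin m))) := by
  refine ⟨fun n r => r * 2 ^ n * n, ?_⟩
  intro m r H hm
  obtain ⟨L, x, hx, hdist⟩ := exists_points (H := H) (X := Fin m) r (by simpa using hm)
  set T := permHom L x hx hdist with hT
  have hTinj : Function.Injective T := permHom_injective L x hx hdist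
  let T' : alternatingGroup (Fin r) →* alternatingGroup (Fin m) :=
    (T.comp (alternatingGroup (Fin r)).subtype).codRestrict (alternatingGroup (Fin m))
      (fun σ => sign_permHom_three T σ σ.2)
  have hT'inj : Function.Injective T' := by
    intro a b hab
    apply Subtype.ext
    apply hTinj
    exact congrArg Subtype.val hab
  refine ⟨T'.range, ⟨(MonoidHom.ofInjective hT'inj).symm⟩, ?_⟩
  rintro _ ⟨σ, rfl⟩
  rw [Subgroup.mem_centralizer_iff]
  intro h hh
  apply Subtype.ext
  apply Equiv.ext
  intro y
  have := permHom_smul L x hx hdist (σ : Equiv.Perm (Fin r)) (⟨h, hh⟩ : H) y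
  exact this.symm

end Cfsg.Agent.S2532
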