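import Mathlib
import Cfsg.Statements.S2533

set_option autoImplicit false
open Cfsg

namespace Cfsg.Agent.S2533

open Matrix

section mats

variable {p : ℕ} [Fact p.Prime] (k : ℕ)

/-- Matrices mapping the first `k` coordinates to the last `k+1` and killing the last `k+1`. -/
def LowBlock (M : Matrix (Fin (2 * k + 1)) (Fin (2 * k + 1)) (ZMod p)) : Prop :=
  ∀ i j, M i j ≠ 0 → k ≤ (i : ℕ) ∧ (j : ℕ) < k

variable {k}

theorem LowBlock.mul_eq_zero {M M' : Matrix (Fin (2 * k + 1)) (Fin (2 * k + 1)) (ZMod p)}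
    (h : LowBlock k M) (h' : LowBlock k M') : M * M' = 0 := by
  ext i j
  rw [Matrix.mul_apply, Matrix.zero_apply]
  apply Finset.sum_eq_zero
  intro l _
  by_contra hne
  have h1 : M i l ≠ 0 := left_ne_zero_of_mul hne
  have h2 : M' l j ≠ 0 := right_ne_zero_of_mul hne
  have := (h i l h1).2
  have := (h' l j h2).1
  omega

theorem LowBlock.add {M M' : Matrix (Fin (2 * k + 1)) (Fin (2 * k + 1)) (ZMod p)}
    (h : LowBlock k M) (h' : LowBlock k M') : LowBlock k (M + M') := by
  intro i j hne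
  by_cases h1 : M i j = 0
  · have : M' i j ≠ 0 := by
      intro h2
      apply hne
      simp [h1, h2]
    exact h' i j this
  · exact h i j h1

theorem LowBlock.smul {M : Matrix (Fin (2 * k + 1)) (Fin (2 * k + 1)) (ZMod p)}
    (h : LowBlock k M) (c : ZMod p) : LowBlock k (c • M) := by
  intro i j hne
  apply h i j
  intro h1
  apply hne
  simp [h1]

variable (p k)

def Xm : Matrix (Fin (2 * k + 1)) (Fin (2 * k + 1)) (ZMod p) :=
  Matrix.of fun i j => if (i : ℕ) = j + k ∧ (j : ℕ) < k then 1 else 0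

def Ym : Matrix (Fin (2 * k + 1)) (Fin (2 * k + 1)) (ZMod p) :=
  Matrix.of fun i j => if (i : ℕ) = j + k + 1 ∧ (j : ℕ) < k then 1 else 0

def Zm : Matrix (Fin (2 * k + 1)) (Fin (2 * k + 1)) (ZMod p) :=
  Matrix.of fun i j => if (i : ℕ) = k ∧ (j : ℕ) = 0 ∧ 0 < k then 1 else 0

theorem Xm_low : LowBlock k (Xm p k) := by
  intro i j hne
  simp only [Xm, Matrix.of_apply, ne_eq, ite_eq_right_iff, Classical.not_imp] at hne
  omega

theorem Ym_low : LowBlock k (Ym p k) := by
  intro i j hne
  simp only [Ym, Matrix.of_apply, ne_eq, ite_eq_right_iff, Classical.not_imp] at hne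
  omega

theorem Zm_low : LowBlock k (Zm p k) := by
  intro i j hne
  simp only [Zm, Matrix.of_apply, ne_eq, ite_eq_right_iff, Classical.not_imp] at hne
  omega

def Tm (a : Fin 3 → ZMod p) : Matrix (Fin (2 * k + 1)) (Fin (2 * k + 1)) (ZMod p) :=
  a 0 • Xm p k + a 1 • Ym p k + a 2 • Zm p k

theorem Tm_low (a : Fin 3 → ZMod p) : LowBlock k (Tm p k a) :=
  (((Xm_low p k).smul _).add ((Ym_low p k).smul _)).add ((Zm_low p k).smul _)

theorem Tm_add (a b : Fin 3 → ZMod p) : Tm p k (a + b) = Tm p k a + Tm p k b := by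
  unfold Tm
  simp only [Pi.add_apply, add_smul]
  abel

theorem Tm_zero : Tm p k 0 = 0 := by
  simp [Tm]

theorem one_add_mul (a b : Fin 3 → ZMod p) :
    (1 + Tm p k a) * (1 + Tm p k b) = 1 + Tm p k (a + b) := by
  rw [mul_add, add_mul, add_mul, LowBlock.mul_eq_zero (Tm_low p k a) (Tm_low p k b), Tm_add]
  simp only [one_mul, mul_one, add_zero]
  abel

theorem one_add_pow (a : Fin 3 → ZMod p) (m : ℕ) :
    (1 + Tm p k a) ^ m = 1 + Tm p k (m • a) := by
  induction m with
  | zero => simp [Tm_zero]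
  | succ m ih =>
    rw [pow_succ, ih, one_add_mul, add_smul, one_smul]

theorem one_add_pow_p (a : Fin 3 → ZMod p) :
    (1 + Tm p k a) ^ p = 1 := by
  have h : p • a = 0 := by
    funext i
    simp
  rw [one_add_pow, h, Tm_zero, add_zero]

theorem det_one_add (a : Fin 3 → ZMod p) : (1 + Tm p k a).det = 1 := by
  have h := congrArg Matrix.det (one_add_pow_p p k a)
  rw [Matrix.det_pow, Matrix.det_one, ZMod.pow_card] at h
  exact h

def tauD : Fin (2 * k + 1) → ZMod p := fun i => if (i : ℕ) < k then 1 else -1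

def tauM : Matrix (Fin (2 * k + 1)) (Fin (2 * k + 1)) (ZMod p) := Matrix.diagonal (tauD p k)

theorem tauM_sq : tauM p k * tauM p k = 1 := by
  unfold tauM
  rw [Matrix.diagonal_mul_diagonal, ← Matrix.diagonal_one]
  congr 1
  funext i
  simp only [tauD]
  split_ifs <;> simp

theorem tau_low (M : Matrix (Fin (2 * k + 1)) (Fin (2 * k + 1)) (ZMod p)) (hM : LowBlock k M) :
    tauM p k * M * tauM p k = - M := by
  ext i j
  unfold tauM
  rw [Matrix.mul_diagonal, Matrix.diagonal_mul, Matrix.neg_apply]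
  by_cases h : M i j = 0
  · simp [h]
  · obtain ⟨h1, h2⟩ := hM i j h
    have h3 : ¬ (i : ℕ) < k := by omega
    simp [tauD, h2, h3]

theorem card_lt : (Finset.univ.filter (fun i : Fin (2 * k + 1) => (i : ℕ) < k)).card = k := by
  rw [Fin.card_filter_val_lt]
  omega

theorem card_not_lt : (Finset.univ.filter (fun i : Fin (2 * k + 1) => ¬ (i : ℕ) < k)).card = k + 1 := by
  have h := Finset.card_filter_add_card_filter_not (s := (Finset.univ : Finset (Fin (2 * k + 1))))
    (fun i : Fin (2 * k + 1) => (i : ℕ) < k)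
  rw [card_lt] at h
  simp only [Finset.card_univ, Fintype.card_fin] at h
  omega

theorem det_tau (hk : Odd k) : (tauM p k).det = 1 := by
  unfold tauM tauD
  rw [Matrix.det_diagonal, Finset.prod_ite]
  simp only [Finset.prod_const, one_pow, one_mul, card_not_lt]
  exact Even.neg_one_pow hk.add_one

theorem trace_tau : (tauM p k).trace = -1 := by
  unfold tauM tauD
  rw [Matrix.trace_diagonal, Finset.sum_ite]
  simp only [Finset.sum_const, card_lt, card_not_lt]
  simp

end mats

section entries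

variable {p : ℕ} [Fact p.Prime] {k : ℕ}

theorem mul_Xm_apply (g : Matrix (Fin (2 * k + 1)) (Fin (2 * k + 1)) (ZMod p))
    (i j : Fin (2 * k + 1)) (hj : (j : ℕ) < k) :
    (g * Xm p k) i j = g i ⟨j + k, by omega⟩ := by
  rw [Matrix.mul_apply, Finset.sum_eq_single (⟨j + k, by omega⟩ : Fin (2 * k + 1))]
  · simp [Xm, hj]
  · intro l _ hl
    have : ¬ ((l : ℕ) = j + k ∧ (j : ℕ) < k) := by
      rintro ⟨h1, _⟩
      exact hl (Fin.ext h1)
    simp [Xm, this]
  · simp

theorem Xm_mul_apply (g : Matrix (Fin (2 * k + 1)) (Fin (2 * k + 1)) (ZMod p))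
    (l : ℕ) (hl : l < k) (j : Fin (2 * k + 1)) :
    (Xm p k * g) ⟨l + k, by omega⟩ j = g ⟨l, by omega⟩ j := by
  rw [Matrix.mul_apply, Finset.sum_eq_single (⟨l, by omega⟩ : Fin (2 * k + 1))]
  · simp [Xm, hl]
  · intro m _ hm
    have hne : l ≠ (m : ℕ) := fun h => hm (Fin.ext h.symm)
    simp [Xm, hne]
  · simp

theorem Xm_mul_apply_top (g : Matrix (Fin (2 * k + 1)) (Fin (2 * k + 1)) (ZMod p))
    (j : Fin (2 * k + 1)) :
    (Xm p k * g) ⟨2 * k, by omega⟩ j = 0 := by
  rw [Matrix.mul_apply]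
  apply Finset.sum_eq_zero
  intro m _
  have : ¬ (2 * k = (m : ℕ) + k ∧ (m : ℕ) < k) := by
    rintro ⟨h1, h2⟩
    omega
  simp [Xm, this]

theorem mul_Ym_apply (g : Matrix (Fin (2 * k + 1)) (Fin (2 * k + 1)) (ZMod p))
    (i j : Fin (2 * k + 1)) (hj : (j : ℕ) < k) :
    (g * Ym p k) i j = g i ⟨j + k + 1, by omega⟩ := by
  rw [Matrix.mul_apply, Finset.sum_eq_single (⟨j + k + 1, by omega⟩ : Fin (2 * k + 1))]
  · simp [Ym, hj]
  · intro l _ hl
    have : ¬ ((l : ℕ) = j + k + 1 ∧ (j : ℕ) < k) := by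
      rintro ⟨h1, _⟩
      exact hl (Fin.ext h1)
    simp [Ym, this]
  · simp

theorem Ym_mul_apply (g : Matrix (Fin (2 * k + 1)) (Fin (2 * k + 1)) (ZMod p))
    (l : ℕ) (hl : l < k) (j : Fin (2 * k + 1)) :
    (Ym p k * g) ⟨l + k + 1, by omega⟩ j = g ⟨l, by omega⟩ j := by
  rw [Matrix.mul_apply, Finset.sum_eq_single (⟨l, by omega⟩ : Fin (2 * k + 1))]
  · simp [Ym, hl]
  · intro m _ hm
    have hne : l ≠ (m : ℕ) := fun h => hm (Fin.ext h.symm)
    simp [Ym, hne]
  · simp

theorem Ym_mul_apply_bot (g : Matrix (Fin (2 * k + 1)) (Fin (2 * k + 1)) (ZMod p))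
    (j : Fin (2 * k + 1)) :
    (Ym p k * g) ⟨k, by omega⟩ j = 0 := by
  rw [Matrix.mul_apply]
  apply Finset.sum_eq_zero
  intro m _
  have : ¬ (k = (m : ℕ) + k + 1 ∧ (m : ℕ) < k) := by
    rintro ⟨h1, h2⟩
    omega
  simp [Ym, this]

theorem diag_shift {R : Type*} [Zero R] (b : ℕ → ℕ → R) (k : ℕ)
    (h1 : ∀ l j, l < k → j < k → b (l + 1) (j + 1) = b l j)
    (h2 : ∀ j, j < k → b k j = 0) (h3 : ∀ j, j < k → b 0 (j + 1) = 0) :
    ∀ l j, l ≤ k → j ≤ k → b l j = if l = j then b 0 0 else 0 := by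
  have hshift : ∀ d l j, l + d ≤ k → j + d ≤ k → b (l + d) (j + d) = b l j := by
    intro d
    induction d with
    | zero => intro l j _ _; rfl
    | succ d ih =>
      intro l j hl hj
      have := h1 (l + d) (j + d) (by omega) (by omega)
      rw [← add_assoc, ← add_assoc, this]
      exact ih l j (by omega) (by omega)
  intro l j hl hj
  split_ifs with h
  · subst h
    have := hshift l 0 0 (by omega) (by omega)
    simpa using this
  · rcases Nat.lt_or_gt_of_ne h with hlt | hgt
    · have := hshift l 0 (j - l) (by omega) (by omega)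
      have e1 : 0 + l = l := by omega
      have e2 : j - l + l = j := by omega
      rw [e1, e2] at this
      rw [this]
      obtain ⟨m, hm⟩ : ∃ m, j - l = m + 1 := ⟨j - l - 1, by omega⟩
      rw [hm]
      exact h3 m (by omega)
    · have := hshift (k - l) l j (by omega) (by omega)
      have e1 : l + (k - l) = k := by omega
      rw [e1] at this
      rw [← this]
      exact h2 _ (by omega)

theorem scalar_of_comm (hp : p ≠ 2) (g : Matrix (Fin (2 * k + 1)) (Fin (2 * k + 1)) (ZMod p))
    (hX : g * Xm p k = Xm p k * g) (hY : g * Ym p k = Ym p k * g)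
    (hτ : g * tauM p k = tauM p k * g) : ∃ c : ZMod p, g = c • 1 := by
  have h2ne : (2 : ZMod p) ≠ 0 := by
    intro h
    have h1 : ((2 : ℕ) : ZMod p) = 0 := by exact_mod_cast h
    rw [ZMod.natCast_eq_zero_iff] at h1
    have hpp := (Fact.out : p.Prime)
    have := (Nat.prime_dvd_prime_iff_eq hpp Nat.prime_two).mp h1
    exact hp this
  let b : ℕ → ℕ → ZMod p := fun l j =>
    if h : l ≤ k ∧ j ≤ k then g ⟨l + k, by omega⟩ ⟨j + k, by omega⟩ else 0
  have hb : ∀ l j (hl : l ≤ k) (hj : j ≤ k), b l j = g ⟨l + k, by omega⟩ ⟨j + k, by omega⟩ := by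
    intro l j hl hj
    simp [b, hl, hj]
  -- (1) from X
  have h1 : ∀ l j (hl : l < k) (hj : j < k), b l j = g ⟨l, by omega⟩ ⟨j, by omega⟩ := by
    intro l j hl hj
    rw [hb l j hl.le hj.le]
    have h := congrFun (congrFun hX ⟨l + k, by omega⟩) ⟨j, by omega⟩
    rw [mul_Xm_apply g _ _ hj, Xm_mul_apply g l hl] at h
    exact h
  -- (2) from Y
  have h2 : ∀ l j (hl : l < k) (hj : j < k), b (l + 1) (j + 1) = g ⟨l, by omega⟩ ⟨j, by omega⟩ := by
    intro l j hl hj
    rw [hb (l + 1) (j + 1) (by omega) (by omega)]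
    have h := congrFun (congrFun hY ⟨l + k + 1, by omega⟩) ⟨j, by omega⟩
    rw [mul_Ym_apply g _ _ hj, Ym_mul_apply g l hl] at h
    have e1 : (⟨l + 1 + k, by omega⟩ : Fin (2 * k + 1)) = ⟨l + k + 1, by omega⟩ := by
      apply Fin.ext; simp only; omega
    have e2 : (⟨j + 1 + k, by omega⟩ : Fin (2 * k + 1)) = ⟨j + k + 1, by omega⟩ := by
      apply Fin.ext; simp only; omega
    rw [e1, e2]
    exact h
  -- (3)
  have h3 : ∀ j, j < k → b k j = 0 := by
    intro j hj
    rw [hb k j le_rfl hj.le]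
    have h := congrFun (congrFun hX ⟨2 * k, by omega⟩) ⟨j, by omega⟩
    rw [mul_Xm_apply g _ _ hj, Xm_mul_apply_top g] at h
    have e1 : (⟨k + k, by omega⟩ : Fin (2 * k + 1)) = ⟨2 * k, by omega⟩ := by
      apply Fin.ext; simp only; omega
    rw [e1]
    exact h
  -- (4)
  have h4 : ∀ j, j < k → b 0 (j + 1) = 0 := by
    intro j hj
    rw [hb 0 (j + 1) (by omega) (by omega)]
    have h := congrFun (congrFun hY ⟨k, by omega⟩) ⟨j, by omega⟩
    rw [mul_Ym_apply g _ _ hj, Ym_mul_apply_bot g] at h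
    have e1 : (⟨0 + k, by omega⟩ : Fin (2 * k + 1)) = ⟨k, by omega⟩ := by
      apply Fin.ext; simp only; omega
    have e2 : (⟨j + 1 + k, by omega⟩ : Fin (2 * k + 1)) = ⟨j + k + 1, by omega⟩ := by
      apply Fin.ext; simp only; omega
    rw [e1, e2]
    exact h
  have hdiag := diag_shift b k (fun l j hl hj => by rw [h2 l j hl hj, h1 l j hl hj]) h3 h4
  refine ⟨b 0 0, ?_⟩
  ext i j
  rw [Matrix.smul_apply, Matrix.one_apply, smul_eq_mul]
  have hτij := congrFun (congrFun hτ i) j
  unfold tauM at hτij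
  rw [Matrix.mul_diagonal, Matrix.diagonal_mul] at hτij
  by_cases hi : (i : ℕ) < k <;> by_cases hj : (j : ℕ) < k
  · have h5 := h1 i j hi hj
    have h6 := hdiag i j hi.le hj.le
    have e1 : (⟨(i : ℕ), by omega⟩ : Fin (2 * k + 1)) = i := Fin.ext rfl
    have e2 : (⟨(j : ℕ), by omega⟩ : Fin (2 * k + 1)) = j := Fin.ext rfl
    rw [e1, e2] at h5
    rw [← h5, h6]
    by_cases hij : i = j
    · simp [hij]
    · have : (i : ℕ) ≠ j := fun h => hij (Fin.ext h)
      simp [hij, this]
  · simp only [tauD, hi, hj, if_true, if_false] at hτij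
    have hij : i ≠ j := by
      rintro rfl
      exact hj hi
    have : g i j = 0 := by
      have h7 : 2 * g i j = 0 := by linear_combination -hτij
      exact (mul_eq_zero.mp h7).resolve_left h2ne
    simp [this, hij]
  · simp only [tauD, hi, hj, if_true, if_false] at hτij
    have hij : i ≠ j := by
      rintro rfl
      exact hi hj
    have : g i j = 0 := by
      have h7 : 2 * g i j = 0 := by linear_combination hτij
      exact (mul_eq_zero.mp h7).resolve_left h2ne
    simp [this, hij]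
  · have hi' : k ≤ (i : ℕ) := by omega
    have hj' : k ≤ (j : ℕ) := by omega
    have h5 := hb ((i : ℕ) - k) ((j : ℕ) - k) (by omega) (by omega)
    have h6 := hdiag ((i : ℕ) - k) ((j : ℕ) - k) (by omega) (by omega)
    have e1 : (⟨(i : ℕ) - k + k, by omega⟩ : Fin (2 * k + 1)) = i := by
      apply Fin.ext; simp only; omega
    have e2 : (⟨(j : ℕ) - k + k, by omega⟩ : Fin (2 * k + 1)) = j := by
      apply Fin.ext; simp only; omega
    rw [e1, e2] at h5
    rw [← h5, h6]
    by_cases hij : i = j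
    · simp [hij]
    · have : (i : ℕ) - k ≠ (j : ℕ) - k := by
        intro h
        apply hij
        apply Fin.ext
        omega
      simp [hij, this]

end entries

section group

/-- The homomorphism from the units of `ℤ` given by an involution. -/
def unitsHom {G : Type*} [Group G] (t : G) (ht : t * t = 1) : ℤˣ →* G where
  toFun u := if u = 1 then 1 else t
  map_one' := by simp
  map_mul' u v := by
    have hne : (-1 : ℤˣ) ≠ 1 := by decide
    rcases Int.units_eq_one_or u with rfl | rfl <;> rcases Int.units_eq_one_or v with rfl | rfl <;>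
      simp [hne, ht]

theorem unitsHom_one {G : Type*} [Group G] (t : G) (ht : t * t = 1) : unitsHom t ht 1 = 1 := by
  simp [unitsHom]

theorem unitsHom_neg {G : Type*} [Group G] (t : G) (ht : t * t = 1) : unitsHom t ht (-1) = t := by
  have hne : (-1 : ℤˣ) ≠ 1 := by decide
  simp [unitsHom, hne]

variable (p : ℕ) [Fact p.Prime]

/-- The inversion action on the normal part. -/
def invAct : ℤˣ →* MulAut (Multiplicative (Fin 3 → ZMod p)) :=
  unitsHom (MulEquiv.inv (Multiplicative (Fin 3 → ZMod p))) (by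
    ext a i
    simp)

/-- The generalized dihedral group of order `2 p^3`. -/
abbrev HH : Type := Multiplicative (Fin 3 → ZMod p) ⋊[invAct p] ℤˣ

instance : Finite (HH p) := Finite.of_equiv _ SemidirectProduct.equivProd.symm

theorem card_HH : Nat.card (HH p) = 2 * p ^ 3 := by
  rw [Nat.card_congr SemidirectProduct.equivProd, Nat.card_prod,
    Nat.card_congr Multiplicative.toAdd, Nat.card_fun, Nat.card_eq_fintype_card (α := ℤˣ),
    Fintype.card_units_int, Nat.card_zmod, Nat.card_eq_fintype_card, Fintype.card_fin]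
  ring

variable (k : ℕ)

/-- The normal part maps to unipotent lower block matrices. -/
def f1 : Multiplicative (Fin 3 → ZMod p) →* Matrix.SpecialLinearGroup (Fin (2 * k + 1)) (ZMod p) where
  toFun a := ⟨1 + Tm p k (Multiplicative.toAdd a), det_one_add p k _⟩
  map_one' := by
    apply Subtype.ext
    show 1 + Tm p k 0 = 1
    rw [Tm_zero, add_zero]
  map_mul' a b := by
    apply Subtype.ext
    exact (one_add_mul p k _ _).symm

/-- The diagonal involution in `SL`. -/
def slTau (hk : Odd k) : Matrix.SpecialLinearGroup (Fin (2 * k + 1)) (ZMod p) :=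
  ⟨tauM p k, det_tau p k hk⟩

theorem slTau_sq (hk : Odd k) : slTau p k hk * slTau p k hk = 1 := by
  apply Subtype.ext
  exact tauM_sq p k

theorem Tm_neg (a : Fin 3 → ZMod p) : Tm p k (-a) = - Tm p k a := by
  have h := Tm_add p k a (-a)
  rw [add_neg_cancel, Tm_zero] at h
  exact (neg_eq_of_add_eq_zero_right h.symm).symm

/-- The representation of the group of order `2 p^3`. -/
noncomputable def rho (hk : Odd k) : HH p →* Matrix.SpecialLinearGroup (Fin (2 * k + 1)) (ZMod p) :=
  SemidirectProduct.lift (f1 p k) (unitsHom (slTau p k hk) (slTau_sq p k hk)) (by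
    intro u
    rcases Int.units_eq_one_or u with rfl | rfl
    · ext a
      simp [invAct, unitsHom_one]
    · apply MonoidHom.ext
      intro a
      simp only [MonoidHom.comp_apply, MulEquiv.coe_toMonoidHom, invAct, unitsHom_neg,
        MulAut.conj_apply]
      have hinv : (slTau p k hk)⁻¹ = slTau p k hk :=
        inv_eq_of_mul_eq_one_left (slTau_sq p k hk)
      rw [hinv]
      apply Subtype.ext
      show 1 + Tm p k (Multiplicative.toAdd a⁻¹) = tauM p k * (1 + Tm p k (Multiplicative.toAdd a)) * tauM p k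
      rw [mul_add, add_mul, mul_one, tau_low p k _ (Tm_low p k _), tauM_sq]
      show 1 + Tm p k (- Multiplicative.toAdd a) = 1 + - Tm p k (Multiplicative.toAdd a)
      rw [Tm_neg])

theorem rho_val (hk : Odd k) (x : HH p) :
    ((rho p k hk x : Matrix.SpecialLinearGroup (Fin (2 * k + 1)) (ZMod p)) : Matrix (Fin (2 * k + 1)) (Fin (2 * k + 1)) (ZMod p))
      = (1 + Tm p k (Multiplicative.toAdd x.left)) *
        ((unitsHom (slTau p k hk) (slTau_sq p k hk) x.right : Matrix.SpecialLinearGroup (Fin (2 * k + 1)) (ZMod p)) : Matrix (Fin (2 * k + 1)) (Fin (2 * k + 1)) (ZMod p)) := by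
  conv_lhs => rw [← SemidirectProduct.inl_left_mul_inr_right x]
  rw [map_mul]
  simp [rho]
  rfl

/-- The map to `PSL`. -/
noncomputable def phi (hk : Odd k) :
    HH p →* Matrix.ProjectiveSpecialLinearGroup (Fin (2 * k + 1)) (ZMod p) :=
  (QuotientGroup.mk' _).comp (rho p k hk)

theorem Tm_diag (a : Fin 3 → ZMod p) (i : Fin (2 * k + 1)) : Tm p k a i i = 0 := by
  by_contra h
  have := Tm_low p k a i i h
  omega

theorem neg_one_ne_one' (hp : p ≠ 2) : (-1 : ZMod p) ≠ 1 := by
  intro h
  have h2 : (2 : ZMod p) = 0 := by linear_combination -h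
  have h1 : ((2 : ℕ) : ZMod p) = 0 := by exact_mod_cast h2
  rw [ZMod.natCast_eq_zero_iff] at h1
  have hpp := (Fact.out : p.Prime)
  exact hp ((Nat.prime_dvd_prime_iff_eq hpp Nat.prime_two).mp h1)

theorem phi_injective (hp : p ≠ 2) (hk : Odd k) (hk2 : 2 ≤ k) : Function.Injective (phi p k hk) := by
  rw [injective_iff_map_eq_one]
  intro x hx
  have h1 : rho p k hk x ∈ Subgroup.center (Matrix.SpecialLinearGroup (Fin (2 * k + 1)) (ZMod p)) := by
    have := hx
    simp only [phi, MonoidHom.comp_apply] at this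
    exact (QuotientGroup.eq_one_iff _).mp this
  obtain ⟨r, _, hr⟩ := Matrix.SpecialLinearGroup.mem_center_iff.mp h1
  rw [rho_val] at hr
  have hscal : ∀ i j, (Matrix.scalar (Fin (2 * k + 1)) r) i j = if i = j then r else 0 := by
    intro i j
    simp [Matrix.scalar_apply, Matrix.diagonal_apply]
  rcases Int.units_eq_one_or x.right with hu | hu
  · rw [hu, unitsHom_one] at hr
    simp only [Matrix.SpecialLinearGroup.coe_one, mul_one] at hr
    have hent : ∀ i j, (1 + Tm p k (Multiplicative.toAdd x.left)) i j = if i = j then r else 0 := by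
      intro i j
      rw [← hr, hscal]
    have hr1 : r = 1 := by
      have := hent 0 0
      simp [Tm_diag] at this
      exact this.symm
    subst hr1
    have hT : ∀ i j : Fin (2 * k + 1), i ≠ j → Tm p k (Multiplicative.toAdd x.left) i j = 0 := by
      intro i j hij
      have := hent i j
      simpa [hij] using this
    set a := Multiplicative.toAdd x.left with ha
    have e1 := hT ⟨k + 1, by omega⟩ ⟨1, by omega⟩ (by
      intro h
      have := congrArg Fin.val h
      simp only at this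
      omega)
    have e2 := hT ⟨k + 1, by omega⟩ ⟨0, by omega⟩ (by
      intro h
      have := congrArg Fin.val h
      simp only at this
      omega)
    have e3 := hT ⟨k, by omega⟩ ⟨0, by omega⟩ (by
      intro h
      have := congrArg Fin.val h
      simp only at this
      omega)
    simp only [Tm, Xm, Ym, Zm, Matrix.add_apply, Matrix.smul_apply, Matrix.of_apply, smul_eq_mul] at e1 e2 e3
    have a0 : a 0 = 0 := by
      have c1 : (k + 1 = 1 + k ∧ 1 < k) := ⟨by omega, by omega⟩
      have c2 : ¬ (k + 1 = 1 + k + 1 ∧ 1 < k) := by omega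
      have c3 : ¬ (k + 1 = k ∧ 1 = 0 ∧ 0 < k) := by omega
      rw [if_pos c1, if_neg c2, if_neg c3] at e1
      simpa using e1
    have a1 : a 1 = 0 := by
      have c1 : ¬ (k + 1 = 0 + k ∧ 0 < k) := by omega
      have c2 : (k + 1 = 0 + k + 1 ∧ 0 < k) := ⟨by omega, by omega⟩
      have c3 : ¬ (k + 1 = k ∧ True ∧ 0 < k) := by omega
      rw [if_neg c1, if_pos c2, if_neg c3] at e2
      simpa using e2
    have a2 : a 2 = 0 := by
      have c1 : (k = 0 + k ∧ 0 < k) := ⟨by omega, by omega⟩
      have c2 : ¬ (k = 0 + k + 1 ∧ 0 < k) := by omega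
      have c3 : (True ∧ True ∧ 0 < k) := ⟨trivial, trivial, by omega⟩
      rw [if_pos c1, if_neg c2, if_pos c3, a0] at e3
      simpa using e3
    have hl : x.left = 1 := by
      apply Multiplicative.toAdd.injective
      funext i
      fin_cases i
      · exact a0
      · exact a1
      · exact a2
    apply SemidirectProduct.ext
    · exact hl
    · exact hu
  · exfalso
    rw [hu, unitsHom_neg] at hr
    have hent : ∀ i j, ((1 + Tm p k (Multiplicative.toAdd x.left)) * tauM p k) i j = if i = j then r else 0 := by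
      intro i j
      have h3 := congrFun (congrFun hr i) j
      rw [hscal] at h3
      exact h3.symm
    have e0 := hent ⟨0, by omega⟩ ⟨0, by omega⟩
    have ek := hent ⟨k, by omega⟩ ⟨k, by omega⟩
    unfold tauM at e0 ek
    rw [Matrix.mul_diagonal] at e0 ek
    have hk0 : 0 < k := by omega
    simp [Tm_diag, tauD, hk0] at e0 ek
    exact neg_one_ne_one' p hp (by rw [ek, e0])

theorem comm_of_mk_comm {n : ℕ} (s t : Matrix.SpecialLinearGroup (Fin n) (ZMod p))
    (h : (QuotientGroup.mk s : Matrix.ProjectiveSpecialLinearGroup (Fin n) (ZMod p)) * (QuotientGroup.mk t) = (QuotientGroup.mk t) * (QuotientGroup.mk s)) :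
    ∃ c : ZMod p, (t : Matrix (Fin n) (Fin n) (ZMod p)) * (s : Matrix (Fin n) (Fin n) (ZMod p))
      = c • ((s : Matrix (Fin n) (Fin n) (ZMod p)) * (t : Matrix (Fin n) (Fin n) (ZMod p))) := by
  rw [← QuotientGroup.mk_mul, ← QuotientGroup.mk_mul, QuotientGroup.eq] at h
  obtain ⟨r, _, hr⟩ := Matrix.SpecialLinearGroup.mem_center_iff.mp h
  refine ⟨r, ?_⟩
  have h3 : ((t * s : Matrix.SpecialLinearGroup (Fin n) (ZMod p)) : Matrix (Fin n) (Fin n) (ZMod p))
      = ((s * t : Matrix.SpecialLinearGroup (Fin n) (ZMod p)) : Matrix (Fin n) (Fin n) (ZMod p)) *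
        (((s * t)⁻¹ * (t * s) : Matrix.SpecialLinearGroup (Fin n) (ZMod p)) : Matrix (Fin n) (Fin n) (ZMod p)) := by
    rw [← Matrix.SpecialLinearGroup.coe_mul, mul_inv_cancel_left]
  rw [← hr] at h3
  have h4 : Matrix.scalar (Fin n) r = r • (1 : Matrix (Fin n) (Fin n) (ZMod p)) := by
    ext i j
    simp [Matrix.scalar_apply, Matrix.diagonal_apply, Matrix.one_apply]
  rw [h4, Matrix.mul_smul, mul_one] at h3
  rw [← Matrix.SpecialLinearGroup.coe_mul, ← Matrix.SpecialLinearGroup.coe_mul, h3]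

theorem eq_one_of_conj_pow (hk : Odd k)
    (g : Matrix.SpecialLinearGroup (Fin (2 * k + 1)) (ZMod p)) (a : Fin 3 → ZMod p) (c : ZMod p)
    (h : (g : Matrix (Fin (2 * k + 1)) (Fin (2 * k + 1)) (ZMod p)) * (1 + Tm p k a)
      = c • ((1 + Tm p k a) * (g : Matrix (Fin (2 * k + 1)) (Fin (2 * k + 1)) (ZMod p)))) :
    c = 1 := by
  set G : Matrix (Fin (2 * k + 1)) (Fin (2 * k + 1)) (ZMod p) := g.1 with hG
  set A := 1 + Tm p k a with hA
  have hpow : ∀ m : ℕ, G * A ^ m = c ^ m • (A ^ m * G) := by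
    intro m
    induction m with
    | zero => simp
    | succ m ih =>
      rw [pow_succ, ← mul_assoc, ih, Matrix.smul_mul, mul_assoc, h, Matrix.mul_smul, smul_smul]
      rw [pow_succ, ← mul_assoc]
  have h1 := hpow p
  rw [hA, one_add_pow_p, one_mul, mul_one] at h1
  have h2 : c ^ p = c := ZMod.pow_card c
  rw [h2] at h1
  -- `G` is invertible
  have hdet : G.det = 1 := g.2
  have hG0 : G ≠ 0 := by
    intro h0
    rw [h0] at hdet
    rw [Matrix.det_zero] at hdet
    exact zero_ne_one hdet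
  have h3 : (c - 1) • G = 0 := by
    rw [sub_smul, one_smul, ← h1, sub_self]
  rcases smul_eq_zero.mp h3 with h4 | h4
  · exact sub_eq_zero.mp h4
  · exact absurd h4 hG0

theorem eq_one_of_conj_tau (hk : Odd k)
    (g : Matrix.SpecialLinearGroup (Fin (2 * k + 1)) (ZMod p)) (c : ZMod p)
    (h : (g : Matrix (Fin (2 * k + 1)) (Fin (2 * k + 1)) (ZMod p)) * tauM p k
      = c • (tauM p k * (g : Matrix (Fin (2 * k + 1)) (Fin (2 * k + 1)) (ZMod p)))) :
    c = 1 := by
  set G : Matrix (Fin (2 * k + 1)) (Fin (2 * k + 1)) (ZMod p) := g.1 with hG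
  set H : Matrix (Fin (2 * k + 1)) (Fin (2 * k + 1)) (ZMod p) :=
    ((g⁻¹ : Matrix.SpecialLinearGroup (Fin (2 * k + 1)) (ZMod p)) : Matrix (Fin (2 * k + 1)) (Fin (2 * k + 1)) (ZMod p)) with hH
  have hGH : G * H = 1 := by
    rw [hG, hH, ← Matrix.SpecialLinearGroup.coe_mul, mul_inv_cancel, Matrix.SpecialLinearGroup.coe_one]
  have hHG : H * G = 1 := by
    rw [hG, hH, ← Matrix.SpecialLinearGroup.coe_mul, inv_mul_cancel, Matrix.SpecialLinearGroup.coe_one]
  have h1 : G * tauM p k * H = c • tauM p k := by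
    rw [h, Matrix.smul_mul, mul_assoc, hGH, mul_one]
  have h2 := congrArg Matrix.trace h1
  rw [Matrix.trace_mul_comm, ← mul_assoc, hHG, one_mul, Matrix.trace_smul, trace_tau] at h2
  simp only [smul_eq_mul, mul_neg, mul_one] at h2
  exact neg_injective h2.symm

theorem centralizer_phi (hp : p ≠ 2) (hk : Odd k) :
    Subgroup.centralizer ((phi p k hk).range : Set (Matrix.ProjectiveSpecialLinearGroup (Fin (2 * k + 1)) (ZMod p))) = ⊥ := by
  rw [Subgroup.eq_bot_iff_forall]
  intro x hx
  rw [Subgroup.mem_centralizer_iff] at hx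
  obtain ⟨g, rfl⟩ := QuotientGroup.mk_surjective x
  have hcomm : ∀ y : HH p, ((rho p k hk y : Matrix.SpecialLinearGroup (Fin (2 * k + 1)) (ZMod p)) : Matrix.ProjectiveSpecialLinearGroup (Fin (2 * k + 1)) (ZMod p)) * (g : Matrix.ProjectiveSpecialLinearGroup (Fin (2 * k + 1)) (ZMod p))
      = (g : Matrix.ProjectiveSpecialLinearGroup (Fin (2 * k + 1)) (ZMod p)) * ((rho p k hk y : Matrix.SpecialLinearGroup (Fin (2 * k + 1)) (ZMod p)) : Matrix.ProjectiveSpecialLinearGroup (Fin (2 * k + 1)) (ZMod p)) := by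
    intro y
    exact hx _ ⟨y, rfl⟩
  have hT : ∀ a : Fin 3 → ZMod p, (g : Matrix (Fin (2 * k + 1)) (Fin (2 * k + 1)) (ZMod p)) * Tm p k a
      = Tm p k a * (g : Matrix (Fin (2 * k + 1)) (Fin (2 * k + 1)) (ZMod p)) := by
    intro a
    obtain ⟨c, hc⟩ := comm_of_mk_comm p _ g (hcomm (SemidirectProduct.inl (Multiplicative.ofAdd a)))
    have hrho : ((rho p k hk (SemidirectProduct.inl (Multiplicative.ofAdd a)) : Matrix.SpecialLinearGroup (Fin (2 * k + 1)) (ZMod p)) : Matrix (Fin (2 * k + 1)) (Fin (2 * k + 1)) (ZMod p))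
        = 1 + Tm p k a := by
      simp [rho]
      rfl
    rw [hrho] at hc
    have hc1 := eq_one_of_conj_pow p k hk g a c hc
    rw [hc1, one_smul, mul_add, add_mul, mul_one, one_mul] at hc
    exact add_left_cancel hc
  have hX : (g : Matrix (Fin (2 * k + 1)) (Fin (2 * k + 1)) (ZMod p)) * Xm p k = Xm p k * g := by
    have := hT ![1, 0, 0]
    simpa [Tm] using this
  have hY : (g : Matrix (Fin (2 * k + 1)) (Fin (2 * k + 1)) (ZMod p)) * Ym p k = Ym p k * g := by
    have := hT ![0, 1, 0]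
    simpa [Tm] using this
  have hτ : (g : Matrix (Fin (2 * k + 1)) (Fin (2 * k + 1)) (ZMod p)) * tauM p k = tauM p k * g := by
    obtain ⟨c, hc⟩ := comm_of_mk_comm p _ g (hcomm (SemidirectProduct.inr (-1)))
    have hrho : ((rho p k hk (SemidirectProduct.inr (-1)) : Matrix.SpecialLinearGroup (Fin (2 * k + 1)) (ZMod p)) : Matrix (Fin (2 * k + 1)) (Fin (2 * k + 1)) (ZMod p))
        = tauM p k := by
      simp only [rho, SemidirectProduct.lift_inr, unitsHom_neg]
      rfl
    rw [hrho] at hc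
    have hc1 := eq_one_of_conj_tau p k hk g c hc
    rw [hc1, one_smul] at hc
    exact hc
  obtain ⟨c, hc⟩ := scalar_of_comm hp (g : Matrix (Fin (2 * k + 1)) (Fin (2 * k + 1)) (ZMod p)) hX hY hτ
  rw [QuotientGroup.eq_one_iff, Matrix.SpecialLinearGroup.mem_center_iff]
  refine ⟨c, ?_, ?_⟩
  · have h1 : (g : Matrix (Fin (2 * k + 1)) (Fin (2 * k + 1)) (ZMod p)).det = 1 := g.2
    rw [hc, Matrix.det_smul, Matrix.det_one, mul_one] at h1
    exact h1
  · rw [hc]
    ext i j
    simp [Matrix.scalar_apply, Matrix.diagonal_apply, Matrix.one_apply]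

end group

/-- For every odd prime `p` there is a finite group `H` of order `2p³` which, for infinitely many `n`, embeds in the projective special linear group `PSL(n, p)` as a subgroup with trivial centralizer. -/
theorem result
    (p : ℕ) [Fact p.Prime] (hp : p ≠ 2) :
    ∃ (H : Type) (_ : Group H) (_ : Finite H), Nat.card H = 2 * p ^ 3 ∧
      ∀ N : ℕ, ∃ n, N ≤ n ∧ ∃ φ : H →* Matrix.ProjectiveSpecialLinearGroup (Fin n) (ZMod p),
        Function.Injective φ ∧ Subgroup.centralizer (φ.range : Set (Matrix.ProjectiveSpecialLinearGroup (Fin n) (ZMod p))) = ⊥ := by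
  refine ⟨HH p, inferInstance, inferInstance, card_HH p, ?_⟩
  intro N
  have hk : Odd (2 * N + 3) := ⟨N + 1, by ring⟩
  refine ⟨2 * (2 * N + 3) + 1, by omega, phi p (2 * N + 3) hk, ?_, ?_⟩
  · exact phi_injective p (2 * N + 3) hp hk (by omega)
  · exact centralizer_phi p (2 * N + 3) hp hk

end Cfsg.Agent.S2533
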