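import Mathlib
import Cfsg.Statements.S2540
import Cfsg.Agent.Lib.ClassicalSL

set_option autoImplicit false
open Cfsg

namespace Cfsg.Agent.S2540

open Matrix
open scoped commutatorElement

section core

variable {ι F : Type*} [Fintype ι] [DecidableEq ι] [Nontrivial ι] [Field F]

private lemma comm_eq_of_central {X : Type*} [Group X] {h h' z z' : X}
    (hz : z ∈ Subgroup.center X) (hz' : z' ∈ Subgroup.center X) :
    ⁅h * z, h' * z'⁆ = ⁅h, h'⁆ := by
  have c1 : ∀ x, z * x = x * z := fun x => (Subgroup.mem_center_iff.mp hz x).symm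
  have c2 : ∀ x, z' * x = x * z' := fun x => (Subgroup.mem_center_iff.mp hz' x).symm
  have c1' : ∀ x, z⁻¹ * x = x * z⁻¹ := fun x => by
    have := c1 x
    calc z⁻¹ * x = z⁻¹ * (x * z) * z⁻¹ := by group
      _ = z⁻¹ * (z * x) * z⁻¹ := by rw [c1]
      _ = x * z⁻¹ := by group
  have c2' : ∀ x, z'⁻¹ * x = x * z'⁻¹ := fun x => by
    calc z'⁻¹ * x = z'⁻¹ * (x * z') * z'⁻¹ := by group
      _ = z'⁻¹ * (z' * x) * z'⁻¹ := by rw [c2]
      _ = x * z'⁻¹ := by group
  rw [commutatorElement_def, commutatorElement_def]
  calc h * z * (h' * z') * (h * z)⁻¹ * (h' * z')⁻¹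
      = h * (z * h') * z' * z⁻¹ * h⁻¹ * z'⁻¹ * h'⁻¹ := by group
    _ = h * h' * z * (z' * z⁻¹) * h⁻¹ * z'⁻¹ * h'⁻¹ := by rw [c1]; group
    _ = h * h' * z * (z⁻¹ * z') * h⁻¹ * z'⁻¹ * h'⁻¹ := by rw [c2]
    _ = h * h' * (z' * h⁻¹) * z'⁻¹ * h'⁻¹ := by group
    _ = h * h' * h⁻¹ * h'⁻¹ := by rw [c2]; group

private lemma core (hperf : commutator (SpecialLinearGroup ι F) = ⊤)
    (hsimple : IsSimpleGroup (ProjectiveSpecialLinearGroup ι F))
    (G : Subgroup (GL ι F))
    (hG : ∀ s : SpecialLinearGroup ι F, ∀ g ∈ G,
      (SpecialLinearGroup.toGL s) * g * (SpecialLinearGroup.toGL s)⁻¹ ∈ G) :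
    (∀ g ∈ G, ∃ c : F, (g : Matrix ι ι F) = c • (1 : Matrix ι ι F)) ∨
      (SpecialLinearGroup.toGL : SpecialLinearGroup ι F →* _).range ≤ G := by
  classical
  let toG : SpecialLinearGroup ι F →* GL ι F := SpecialLinearGroup.toGL
  let H : Subgroup (SpecialLinearGroup ι F) := G.comap toG
  haveI hHn : H.Normal := ⟨fun n hn s => by
    change toG (s * n * s⁻¹) ∈ G
    rw [map_mul, map_mul, map_inv]
    exact hG s _ hn⟩
  let π : SpecialLinearGroup ι F →* ProjectiveSpecialLinearGroup ι F :=
    QuotientGroup.mk' (Subgroup.center (SpecialLinearGroup ι F))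
  have hπ : Function.Surjective π := QuotientGroup.mk'_surjective _
  haveI : (H.map π).Normal := Subgroup.Normal.map hHn π hπ
  rcases hsimple.eq_bot_or_eq_top_of_normal (H.map π) inferInstance with hP | hP
  · -- `H` is central
    left
    have hHc : H ≤ Subgroup.center (SpecialLinearGroup ι F) := by
      intro h hh
      have : π h = 1 := by
        have : π h ∈ H.map π := ⟨h, hh, rfl⟩
        rw [hP] at this
        simpa using this
      exact (QuotientGroup.eq_one_iff h).mp this
    intro g hg
    have key : ∀ t : TransvectionStruct ι F, Commute t.toMatrix (g : Matrix ι ι F) := by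
      intro t
      let s : SpecialLinearGroup ι F := SpecialLinearGroup.transvection t.hij t.c
      have hsval : ((toG s : GL ι F) : Matrix ι ι F) = t.toMatrix := by
        rfl
      -- commutator of `g` with `toG s`
      let x : GL ι F := g * (toG s * g⁻¹ * (toG s)⁻¹)
      have hxG : x ∈ G := G.mul_mem hg (hG s _ (G.inv_mem hg))
      have hxdet : GeneralLinearGroup.det x = 1 := by
        have hds : GeneralLinearGroup.det (toG s) = 1 := by
          ext
          simp [toG, s, SpecialLinearGroup.det_coe]
        simp only [x, map_mul, map_inv, hds, one_mul, inv_one, mul_one]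
        simp
      let y : SpecialLinearGroup ι F := ⟨(x : Matrix ι ι F), by
        have := congrArg Units.val hxdet
        simpa using this⟩
      have hyx : toG y = x := by
        ext1
        rfl
      have hyH : y ∈ H := by
        change toG y ∈ G
        rw [hyx]; exact hxG
      obtain ⟨c, -, hc⟩ := Matrix.SpecialLinearGroup.mem_center_iff.mp (hHc hyH)
      have hxval : (x : Matrix ι ι F) = c • (1 : Matrix ι ι F) := by
        have : (y : Matrix ι ι F) = scalar ι c := hc.symm
        change (y : Matrix ι ι F) = _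
        rw [this]
        ext i j
        simp [Matrix.scalar_apply, Matrix.smul_apply, Matrix.diagonal_apply, Matrix.one_apply]
      -- rewrite: `g s g⁻¹ = c s`
      have hconj : (g : Matrix ι ι F) * t.toMatrix * ((g⁻¹ : GL ι F) : Matrix ι ι F)
          = c • t.toMatrix := by
        have h1 : (x : Matrix ι ι F) * t.toMatrix
            = (g : Matrix ι ι F) * t.toMatrix * ((g⁻¹ : GL ι F) : Matrix ι ι F) := by
          have : x * toG s = g * toG s * g⁻¹ := by
            simp only [x]; group
          have := congrArg Units.val this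
          simpa [hsval] using this
        rw [← h1, hxval]
        simp
      -- square-zero argument
      let N : Matrix ι ι F := Matrix.single t.i t.j t.c
      have hNN : N * N = 0 := by
        simp [N, Matrix.single_mul_single_of_ne _ _ _ _ t.hij.symm]
      have hts : t.toMatrix = 1 + N := rfl
      have hgg : (g : Matrix ι ι F) * ((g⁻¹ : GL ι F) : Matrix ι ι F) = 1 := by
        have := congrArg Units.val (mul_inv_cancel g)
        simpa using this
      have hggi : ((g⁻¹ : GL ι F) : Matrix ι ι F) * (g : Matrix ι ι F) = 1 := by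
        have := congrArg Units.val (inv_mul_cancel g)
        simpa using this
      have hconjN : (g : Matrix ι ι F) * N * ((g⁻¹ : GL ι F) : Matrix ι ι F)
          = c • t.toMatrix - 1 := by
        rw [← hconj, hts, mul_add, add_mul, mul_one, hgg]
        abel
      have hsq : (c • t.toMatrix - 1) * (c • t.toMatrix - 1) = 0 := by
        rw [← hconjN]
        calc (g : Matrix ι ι F) * N * ((g⁻¹ : GL ι F) : Matrix ι ι F) *
              ((g : Matrix ι ι F) * N * ((g⁻¹ : GL ι F) : Matrix ι ι F))
            = (g : Matrix ι ι F) * N * (((g⁻¹ : GL ι F) : Matrix ι ι F) * (g : Matrix ι ι F)) * N *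
                ((g⁻¹ : GL ι F) : Matrix ι ι F) := by noncomm_ring
          _ = (g : Matrix ι ι F) * (N * N) * ((g⁻¹ : GL ι F) : Matrix ι ι F) := by
                rw [hggi]; noncomm_ring
          _ = 0 := by rw [hNN]; simp
      have hexpand : (c • t.toMatrix - 1) * (c • t.toMatrix - 1)
          = ((c - 1) ^ 2) • (1 : Matrix ι ι F) + (2 * (c - 1) * c) • N := by
        have : c • t.toMatrix - 1 = (c - 1) • (1 : Matrix ι ι F) + c • N := by
          rw [hts, smul_add, sub_smul, one_smul]; abel
        rw [this]
        simp only [add_mul, mul_add, smul_mul_smul_comm, mul_one, one_mul, hNN, smul_zero, add_zero]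
        rw [sq, add_assoc, ← add_smul]
        congr 2
        ring
      have hc1 : c = 1 := by
        have h2 := congrFun (congrFun hsq t.i) t.i
        rw [hexpand] at h2
        simp [N, Matrix.single_apply, Matrix.add_apply, Matrix.smul_apply, t.hij.symm] at h2
        exact sub_eq_zero.mp h2
      subst hc1
      rw [one_smul] at hconj
      -- conclude
      change t.toMatrix * (g : Matrix ι ι F) = (g : Matrix ι ι F) * t.toMatrix
      calc t.toMatrix * (g : Matrix ι ι F)
          = (g : Matrix ι ι F) * t.toMatrix * ((g⁻¹ : GL ι F) : Matrix ι ι F) *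
              (g : Matrix ι ι F) := by rw [hconj]
        _ = (g : Matrix ι ι F) * t.toMatrix * (((g⁻¹ : GL ι F) : Matrix ι ι F) *
              (g : Matrix ι ι F)) := by noncomm_ring
        _ = _ := by rw [hggi, mul_one]
    obtain ⟨c, hc⟩ := mem_range_scalar_of_commute_transvectionStruct key
    refine ⟨c, ?_⟩
    rw [← hc]
    ext i j
    simp [Matrix.scalar_apply, Matrix.smul_apply, Matrix.diagonal_apply, Matrix.one_apply]
  · -- `H` is everything
    right
    have hHtop : H = ⊤ := by
      rw [eq_top_iff, ← hperf]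
      have : ∀ a : SpecialLinearGroup ι F,
          ∃ h ∈ H, ∃ z ∈ Subgroup.center (SpecialLinearGroup ι F), a = h * z := by
        intro a
        have : π a ∈ H.map π := by rw [hP]; trivial
        obtain ⟨h, hh, hha⟩ := this
        refine ⟨h, hh, h⁻¹ * a, ?_, by group⟩
        have := (QuotientGroup.eq (s := Subgroup.center (SpecialLinearGroup ι F))).mp hha
        exact this
      rw [commutator_def, Subgroup.commutator_le]
      intro a _ b _
      obtain ⟨h, hh, z, hz, rfl⟩ := this a
      obtain ⟨h', hh', z', hz', rfl⟩ := this b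
      rw [comm_eq_of_central hz hz']
      rw [commutatorElement_def]
      exact H.mul_mem (H.mul_mem (H.mul_mem hh hh') (H.inv_mem hh)) (H.inv_mem hh')
    rintro _ ⟨s, rfl⟩
    have : s ∈ H := by rw [hHtop]; trivial
    exact this

end core

private lemma field_cond {F : Type*} [Field F] [Fintype F] (hF : 4 ≤ Nat.card F) :
    ∃ a : F, a ≠ 0 ∧ a ^ 2 ≠ 1 := by
  obtain ⟨x, hx⟩ : IsCyclic Fˣ := by infer_instance
  refine ⟨x, Units.ne_zero x, fun h ↦ ?_⟩
  grw [Nat.card_eq_card_units_add_one F, ← orderOf_eq_card_of_forall_mem_zpowers hx,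
    orderOf_le_of_pow_eq_one zero_lt_two (Units.ext <| by simpa using h)] at hF
  omega

/-- Let F be a finite field and n ≥ 1, excluding the case n = 2 with #F ≤ 3. A subgroup of GL_n(F) that is normalized by every element of SL_n(F) either consists of scalar matrices or contains SL_n(F). -/
theorem result {F : Type*} [Field F] [Fintype F] (n : ℕ) (hn : 1 ≤ n) (hex : ¬ (n = 2 ∧ Fintype.card F ≤ 3)) (G : Subgroup (Matrix.GeneralLinearGroup (Fin n) F)) (hG : ∀ s : Matrix.SpecialLinearGroup (Fin n) F, ∀ g ∈ G, (Matrix.SpecialLinearGroup.toGL s) * g * (Matrix.SpecialLinearGroup.toGL s)⁻¹ ∈ G) : (∀ g ∈ G, ∃ c : F, (g : Matrix (Fin n) (Fin n) F) = c • (1 : Matrix (Fin n) (Fin n) F)) ∨ (Matrix.SpecialLinearGroup.toGL : Matrix.SpecialLinearGroup (Fin n) F →* _).range ≤ G := by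
  classical
  rcases Nat.lt_or_ge n 2 with h1 | h2
  · -- `n = 1`
    have : n = 1 := by omega
    subst this
    right
    rintro _ ⟨s, rfl⟩
    have : s = 1 := Subsingleton.elim _ _
    rw [this, map_one]
    exact G.one_mem
  · rcases Nat.lt_or_ge n 3 with h3 | h3
    · have : n = 2 := by omega
      subst this
      have hq : 4 ≤ Nat.card F := by
        rw [Nat.card_eq_fintype_card]
        by_contra hlt
        exact hex ⟨rfl, by omega⟩
      obtain ⟨a, ha, ha2⟩ := field_cond hq
      exact core (SL2.commutator_eq_top ha ha2)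
        (Matrix.ProjectiveSpecialLinearGroup.rank_two_simple hq) G hG
    · haveI : Nontrivial (Fin n) := Fin.nontrivial_iff_two_le.mpr h2
      have hc : 3 ≤ Fintype.card (Fin n) := by simpa using h3
      exact core (Cfsg.Agent.Lib.ClassicalSL.commutator_SL_eq_top hc)
        (Cfsg.Agent.Lib.ClassicalSL.isSimpleGroup_PSL hc) G hG

end Cfsg.Agent.S2540
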