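import Mathlib
import Cfsg.Statements.S2541

set_option autoImplicit false
open Cfsg

namespace Cfsg.Agent.S2541

theorem perm_pow_sixty (σ : Equiv.Perm (Fin 6)) : σ ^ 60 = 1 := by
  apply orderOf_dvd_iff_pow_eq_one.mp
  rw [← Equiv.Perm.lcm_cycleType]
  apply Multiset.lcm_dvd.mpr
  intro a ha
  have h1 : a ≤ σ.cycleType.sum := Multiset.le_sum_of_mem ha
  rw [Equiv.Perm.sum_cycleType] at h1
  have h2 : σ.support.card ≤ 6 := by
    simpa using Finset.card_le_univ σ.support
  have h3 : a ≤ 6 := h1.trans h2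
  have h0 : a ≠ 0 := by
    have := Equiv.Perm.two_le_of_mem_cycleType ha
    omega
  interval_cases a <;> first | omega | decide

theorem result {F : Type*} [Field F] [Fintype F] (hF : Fintype.card F = 9) : ¬ Nonempty (Equiv.Perm (Fin 6) ≃* Matrix.ProjGenLinGroup (Fin 2) F) := by
  classical
  rintro ⟨e⟩
  obtain ⟨a, ha⟩ := IsCyclic.exists_ofOrder_eq_natCard (α := Fˣ)
  have hcard : Nat.card Fˣ = 8 := by
    rw [Nat.card_eq_fintype_card, Fintype.card_units, hF]
  rw [hcard] at ha
  let d : GL (Fin 2) F := ⟨!![(a : F), 0; 0, 1], !![((a⁻¹ : Fˣ) : F), 0; 0, 1],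
    by
      ext i j
      fin_cases i <;> fin_cases j <;> simp,
    by
      ext i j
      fin_cases i <;> fin_cases j <;> simp⟩
  have hd : ∀ k : ℕ, ((d ^ k : GL (Fin 2) F) : Matrix (Fin 2) (Fin 2) F) = !![(a : F) ^ k, 0; 0, 1] := by
    intro k
    induction k with
    | zero =>
      ext i j
      fin_cases i <;> fin_cases j <;> simp
    | succ k ih =>
      rw [pow_succ, Units.val_mul, ih]
      ext i j
      fin_cases i <;> fin_cases j <;> simp [d, pow_succ]
  have h60 := perm_pow_sixty (e.symm (Matrix.ProjGenLinGroup.mk d))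
  have h61 : (Matrix.ProjGenLinGroup.mk d) ^ 60 = 1 := by
    have := congrArg e h60
    simpa using this
  rw [← map_pow, Matrix.ProjGenLinGroup.mk_eq_one,
    Matrix.GeneralLinearGroup.mem_center_iff_val_mem_range_scalar, hd] at h61
  obtain ⟨c, hc⟩ := h61
  have h00 := congrFun (congrFun hc 0) 0
  have h11 := congrFun (congrFun hc 1) 1
  simp at h00 h11
  have h2 : (a : F) ^ 60 = 1 := by rw [← h00, h11]
  have h3 : a ^ 60 = 1 := by
    ext
    simpa using h2
  have := orderOf_dvd_of_pow_eq_one h3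
  rw [ha] at this
  omega

end Cfsg.Agent.S2541
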