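import Cfsg.Statements.S2544
import Mathlib
import Cfsg.Agent.Lib.StProj53

set_option autoImplicit false
open Cfsg

namespace Cfsg.Agent.S2544

open Matrix Finset Cfsg.Agent.Lib.StProj53 Cfsg.Agent.Lib.CharBasic
open scoped MatrixGroups

variable {F : Type*} [Field F]

/-- The Steinberg character on `GL_n` is invariant under multiplication by central elements. -/
theorem st_central {n : ℕ} {z : GL (Fin n) F} (hz : z ∈ Subgroup.center (GL (Fin n) F)) (g : GL (Fin n) F) :
    unipotentCharacterGL n F (fun _ => 1) (z * g) = unipotentCharacterGL n F (fun _ => 1) g := by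
  unfold unipotentCharacterGL
  apply Finset.sum_congr rfl
  intro κ _
  split_ifs with h
  · congr 1
    apply fixedPoint_central _ hz
    -- a central element is a scalar
    have hzs := (Matrix.GeneralLinearGroup.mem_center_iff_val_mem_range_scalar.1 hz)
    obtain ⟨a, ha⟩ := hzs
    show (z : Matrix (Fin n) (Fin n) F).BlockTriangular _
    rw [← ha]
    intro i j hij
    have hne : i ≠ j := by
      rintro rfl
      exact lt_irrefl _ hij
    simp [Matrix.scalar_apply, Matrix.diagonal_apply_ne _ hne]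
  · rfl

/-- **The statement.** -/
theorem result {F : Type*} [Field F] [Fintype F] (p : ℕ) [Fact p.Prime] [CharP F p] (n : ℕ) (hn : 2 ≤ n) : ∃ χ : Matrix.ProjectiveSpecialLinearGroup (Fin n) F → ℂ, Cfsg.IsIrrCharacter (Matrix.ProjectiveSpecialLinearGroup (Fin n) F) χ ∧ ∀ P : Sylow p (Matrix.ProjectiveSpecialLinearGroup (Fin n) F), χ 1 = Nat.card P ∧ ∀ x : Matrix.ProjectiveSpecialLinearGroup (Fin n) F, x ∈ P → x ≠ 1 → χ x = 0 := by
  classical
  have hp := (Fact.out : p.Prime)
  have hn0 : 0 < n := by omega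
  haveI : Nonempty (Fin n) := ⟨⟨0, hn0⟩⟩
  letI : Fintype (GL (Fin n) F) := Fintype.ofFinite _
  set H := (Matrix.GeneralLinearGroup.det : GL (Fin n) F →* Fˣ).ker with hH
  letI : Fintype H := Fintype.ofFinite _
  have hχ := Cfsg.Agent.Lib.FlagChar.isIrr_unipotent (n := n) (F := F) (fun _ => 1) monotone_const (by simp)
  set χ := unipotentCharacterGL n F (fun _ => 1) with hχd
  set N := ∑ i ∈ Finset.range n, i with hN
  obtain ⟨f, hpp, hf⟩ := FiniteField.card F p
  have hone : χ 1 = ((p ^ ((f : ℕ) * N) : ℕ) : ℂ) := by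
    rw [hχd, Cfsg.Agent.Lib.SLnSteinberg50.st_one rfl n, hf, pow_mul]
    push_cast
    rfl
  have hidx : H.index = Fintype.card F - 1 := by
    rw [hH, Subgroup.index_ker, MonoidHom.range_eq_top.mpr Matrix.GeneralLinearGroup.det_surjective]
    rw [Nat.card_congr Subgroup.topEquiv.toEquiv, Nat.card_eq_fintype_card, Fintype.card_units]
  have hpq : p ∣ Fintype.card F := by
    rw [hf]
    exact dvd_pow_self p f.ne_zero
  have hq1 : 1 ≤ Fintype.card F := Fintype.card_pos
  have hpq1 : ¬ p ∣ Fintype.card F - 1 := by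
    intro h
    have h3 : p ∣ 1 := by
      have := Nat.dvd_sub hpq h
      rwa [Nat.sub_sub_self hq1] at this
    exact hp.one_lt.ne' (Nat.dvd_one.mp h3)
  have hcop : Nat.Coprime (p ^ ((f : ℕ) * N)) H.index := by
    rw [hidx]
    exact Nat.Coprime.pow_left _ ((Nat.Prime.coprime_iff_not_dvd hp).2 hpq1)
  have hirrH : IsIrrCharacter H (fun h : H => χ h) := restrict_irr H hχ hone hcop
  have hirrSL : IsIrrCharacter (Matrix.SpecialLinearGroup (Fin n) F)
      (fun g => (fun h : H => χ h) (Cfsg.Agent.Lib.ClassicalCore.slEquivKer g)) :=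
    isIrrCharacter_comp_of_surjective Cfsg.Agent.Lib.ClassicalCore.slEquivKer.toMonoidHom
      Cfsg.Agent.Lib.ClassicalCore.slEquivKer.surjective hirrH
  -- the centre is in the kernel
  have hcoe : ∀ g : Matrix.SpecialLinearGroup (Fin n) F,
      ((Cfsg.Agent.Lib.ClassicalCore.slEquivKer g : H) : GL (Fin n) F) = (g : GL (Fin n) F) := fun g => rfl
  have hker : ∀ z ∈ Subgroup.center (Matrix.SpecialLinearGroup (Fin n) F),
      (fun g => (fun h : H => χ h) (Cfsg.Agent.Lib.ClassicalCore.slEquivKer g)) z =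
      (fun g => (fun h : H => χ h) (Cfsg.Agent.Lib.ClassicalCore.slEquivKer g)) 1 := by
    intro z hz
    have hz' : ((z : Matrix.SpecialLinearGroup (Fin n) F) : GL (Fin n) F) ∈ Subgroup.center (GL (Fin n) F) := by
      obtain ⟨r, -, hr⟩ := Matrix.SpecialLinearGroup.mem_center_iff.1 hz
      rw [Matrix.GeneralLinearGroup.mem_center_iff_val_mem_range_scalar]
      exact ⟨r, hr⟩
    show χ ((Cfsg.Agent.Lib.ClassicalCore.slEquivKer z : H) : GL (Fin n) F) =
      χ ((Cfsg.Agent.Lib.ClassicalCore.slEquivKer (1 : Matrix.SpecialLinearGroup (Fin n) F) : H) : GL (Fin n) F)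
    rw [map_one, hcoe z]
    have := st_central (F := F) hz' (1 : GL (Fin n) F)
    rw [mul_one] at this
    exact this
  obtain ⟨χ', hχ', hval⟩ := Cfsg.Agent.Lib.CharKernel.exists_quotient_irr _ hirrSL hker
  refine ⟨χ', hχ', ?_⟩
  have hone' : χ' 1 = ((p ^ ((f : ℕ) * N) : ℕ) : ℂ) := by
    have h1 := hval 1
    have e : (((1 : Matrix.SpecialLinearGroup (Fin n) F) : Matrix.SpecialLinearGroup (Fin n) F ⧸
        Subgroup.center (Matrix.SpecialLinearGroup (Fin n) F))) = 1 := rfl
    rw [e] at h1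
    rw [h1, ← hone]
    show χ ((Cfsg.Agent.Lib.ClassicalCore.slEquivKer (1 : Matrix.SpecialLinearGroup (Fin n) F) : H) : GL (Fin n) F) = _
    rw [map_one]
    rfl
  have hdeg : Cfsg.charDegree χ' = p ^ ((f : ℕ) * N) := by
    have h1 := Cfsg.Agent.Lib.CharKernel.one_eq_charDegree (IsIrrCharacter.isCharacter hχ')
    rw [hone'] at h1
    exact_mod_cast h1.symm
  obtain ⟨m, hm⟩ : p ^ ((f : ℕ) * N) ∣ Nat.card (Matrix.ProjectiveSpecialLinearGroup (Fin n) F) := by
    rw [← hdeg]
    exact Cfsg.Agent.Lib.CharKernel.charDegree_dvd_card hχ'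
  have hcardSL : Nat.card (Matrix.SpecialLinearGroup (Fin n) F) =
      Nat.card (Matrix.ProjectiveSpecialLinearGroup (Fin n) F) *
        Nat.card (Subgroup.center (Matrix.SpecialLinearGroup (Fin n) F)) :=
    Subgroup.card_eq_card_quotient_mul_card_subgroup _
  have hnot := Cfsg.Agent.Lib.SLnSteinberg50.not_dvd_card_div (F := F) p hn0
  have hqN : Fintype.card F ^ N = p ^ ((f : ℕ) * N) := by rw [hf, pow_mul]
  have hpos : 0 < p ^ ((f : ℕ) * N) := pow_pos hp.pos _
  rw [hcardSL, hm, hqN, mul_assoc, Nat.mul_div_cancel_left _ hpos] at hnot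
  have hm' : ¬ p ∣ m := fun h => hnot (Dvd.dvd.mul_right h _)
  intro P
  exact sylow_final hχ' hone' hm hm' P

end Cfsg.Agent.S2544
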