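import Cfsg.Statements.S2548
import Cfsg.Agent.Lib.ClPlus6
-- import your own Cfsg.Agent.* helpers here

set_option autoImplicit false
open Cfsg

namespace Cfsg.Agent.S2548

/-- Let F be a finite field of characteristic p and consider the group PΩ⁺_{2m}(F) of the hyperbolic quadratic form Σ x_i y_i with m ≥ 1, where Ω denotes the commutator subgroup of the full isometry group. This group has an irreducible complex character χ whose degree equals the order of a Sylow p-subgroup (equal to q^(m(m−1)) when #F = q, except in the degenerate case m = 2, q = 2, where this commutator subgroup has order 18 and its Sylow 2-subgroups have order 2) and whose restriction to any Sylow p-subgroup P is the regular character of P: χ vanishes on the non-identity elements of P. (This is the Steinberg character.) -/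
theorem result {F : Type*} [Field F] [Fintype F] (p : ℕ) [Fact p.Prime] [CharP F p] (m : ℕ) (hm : 1 ≤ m) : ∃ χ : Cfsg.POmega F (Cfsg.quadFormPlus m F) → ℂ, Cfsg.IsIrrCharacter (Cfsg.POmega F (Cfsg.quadFormPlus m F)) χ ∧ ∀ P : Sylow p (Cfsg.POmega F (Cfsg.quadFormPlus m F)), χ 1 = Nat.card P ∧ ∀ x : Cfsg.POmega F (Cfsg.quadFormPlus m F), x ∈ P → x ≠ 1 → χ x = 0 := by
  have hq : Cfsg.quadFormPlus m F = ⇑(Cfsg.Agent.Lib.OrthoCount.qPlus m F) :=
    funext fun v => (Cfsg.Agent.Lib.OrthoCount.qPlus_apply m v).symm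
  rw [hq]
  by_cases hex : Fintype.card F = 2 ∧ m = 2
  · obtain ⟨hF, rfl⟩ := hex
    haveI : Fact (Nat.Prime 2) := ⟨Nat.prime_two⟩
    haveI : CharP F 2 := charP_of_card_eq_prime hF
    obtain rfl : p = 2 := CharP.eq F ‹CharP F p› ‹CharP F 2›
    haveI : Finite (Cfsg.Omega F ⇑(Cfsg.Agent.Lib.OrthoCount.qPlus 2 F)) := by
      haveI := (Cfsg.Agent.Lib.ClOrth.odPlus F 2).instFiniteA
      exact Finite.of_injective (fun x => x.1) Subtype.val_injective
    exact Cfsg.Agent.Lib.ClSmall18.steinberg_quot _ (Cfsg.Agent.Lib.ClOrth.card_Omega_dvd hF)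
  · haveI : Nonempty (Fin m) := ⟨⟨0, hm⟩⟩
    have hOG : Cfsg.Agent.Lib.OrthGroup.O (Cfsg.Agent.Lib.OrthoCount.qPlus m F) ≤
        Cfsg.Agent.Lib.OrthGroup.G (Cfsg.Agent.Lib.OrthoCount.qPlus m F) := by
      refine Cfsg.Agent.Lib.OrthGroup.O_le_G (Cfsg.Agent.Lib.ClOrth.odPlus F m).nd
        (Cfsg.Agent.Lib.OrthMatrix.hF_of (n := 2 * m) ?_ ?_)
      · by_cases h : Fintype.card F = 2
        · right
          intro h4
          exact hex ⟨h, by omega⟩
        · exact Or.inl h
      · simp
        ring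
    exact Cfsg.Agent.Lib.ClOrth.steinberg_plus p hOG ⟨m - 1, by omega⟩ (by
      show m - 1 + 1 = m
      omega)

end Cfsg.Agent.S2548
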