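import Mathlib
import Cfsg.Statements.S2550
import Cfsg.Agent.Lib.ClassicalCore
import Cfsg.Agent.Lib.Transv

set_option autoImplicit false
open Cfsg

namespace Cfsg.Agent.S2550

open Matrix
open scoped MatrixGroups

section KFacts

variable {K : Type*} [Field K] [Fintype K]

private lemma two_eq_zero_K (hK : Fintype.card K = 4) : (2 : K) = 0 := by
  have h : ((Fintype.card K : ℕ) : K) = 0 := Nat.cast_card_eq_zero K
  rw [hK] at h
  have h2 : (2 : K) * 2 = 0 := by
    have : (2 : K) * 2 = ((4 : ℕ) : K) := by norm_num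
    rw [this, h]
  simpa using h2

private lemma cube_eq_one (hK : Fintype.card K = 4) {x : K} (hx : x ≠ 0) : x ^ 3 = 1 := by
  have := FiniteField.pow_card_sub_one_eq_one x hx
  rwa [hK] at this

end KFacts

section entries

variable {K : Type*} [Field K]

/-- A matrix commuting with the elementary matrix, of determinant one, whose cube is scalar,
is scalar. -/
private lemma scalar_of_comm (h2 : (2 : K) = 0) (hc : ∀ x : K, x ≠ 0 → x ^ 3 = 1)
    (S : Matrix (Fin 3) (Fin 3) K)
    (hcomm : S * Matrix.single 1 0 1 = Matrix.single 1 0 1 * S) (hdet : S.det = 1) (μ : K)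
    (hs3 : S * S * S = μ • (1 : Matrix (Fin 3) (Fin 3) K)) :
    ∃ l : K, S = l • (1 : Matrix (Fin 3) (Fin 3) K) := by
  have he : ∀ i j, (S * Matrix.single 1 0 1 : Matrix (Fin 3) (Fin 3) K) i j =
      (Matrix.single 1 0 1 * S : Matrix (Fin 3) (Fin 3) K) i j := by
    intro i j; rw [hcomm]
  have e1 := he 0 0
  have e2 := he 1 0
  have e3 := he 2 0
  have e4 := he 1 2
  simp [Matrix.mul_apply, Fin.sum_univ_three, Matrix.single_apply] at e1 e2 e3 e4
  have hS01 : S 0 1 = 0 := e1
  have hS11 : S 1 1 = S 0 0 := e2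
  have hS21 : S 2 1 = 0 := e3
  have hS02 : S 0 2 = 0 := e4.symm
  have hd := hdet
  rw [Matrix.det_fin_three, hS01, hS02, hS21, hS11] at hd
  simp only [mul_zero, zero_mul, sub_zero, add_zero, zero_add] at hd
  -- write `l = S 0 0`
  set l := S 0 0 with hl
  have hd' : l * l * S 2 2 = 1 := hd
  have hl0 : l ≠ 0 := by
    rintro h0
    rw [h0] at hd'
    simp at hd'
  have hl3 : l ^ 3 = 1 := hc l hl0
  have hS22 : S 2 2 = l := by
    have : l * l * S 2 2 = l * l * l := by
      rw [hd']
      rw [← hl3]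
      ring
    exact mul_left_cancel₀ (mul_ne_zero hl0 hl0) this
  have ent : ∀ i j, (S * S * S : Matrix (Fin 3) (Fin 3) K) i j =
      (μ • (1 : Matrix (Fin 3) (Fin 3) K)) i j := by
    intro i j; rw [hs3]
  have ex : ∀ i j, (S * S * S : Matrix (Fin 3) (Fin 3) K) i j =
      ∑ a : Fin 3, (∑ b : Fin 3, S i b * S b a) * S a j := by
    intro i j
    simp [Matrix.mul_apply]
  have h12 := ent 1 2
  have h20 := ent 2 0
  have h10 := ent 1 0
  rw [ex] at h12 h20 h10
  simp only [Fin.sum_univ_three, hS01, hS02, hS21, hS11, hS22, Matrix.smul_apply, Matrix.one_apply,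
    smul_eq_mul, mul_zero, zero_mul, add_zero, zero_add] at h12 h20 h10
  simp at h12 h20 h10
  rw [← hl] at h20 h10
  have hll : l * l ≠ 0 := mul_ne_zero hl0 hl0
  have hb : S 1 2 = 0 := by
    have : l * l * S 1 2 = 0 := by linear_combination h12 - (l * l * S 1 2) * h2
    exact (mul_eq_zero.mp this).resolve_left hll
  have hc' : S 2 0 = 0 := by
    have : l * l * S 2 0 = 0 := by linear_combination h20 - (l * l * S 2 0) * h2
    exact (mul_eq_zero.mp this).resolve_left hll
  have ha : S 1 0 = 0 := by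
    rw [hb, hc'] at h10
    have : l * l * S 1 0 = 0 := by linear_combination h10 - (l * l * S 1 0) * h2
    exact (mul_eq_zero.mp this).resolve_left hll
  refine ⟨l, ?_⟩
  ext i j
  fin_cases i <;> fin_cases j <;>
    simp [Matrix.smul_apply, Matrix.one_apply, hS01, hS02, hS21, hS11, hS22, hb, hc', ha, ← hl]

/-- The rank of a nonzero square-zero `3 × 3` matrix is one. -/
private lemma rank_one_of_sq_zero (N : Matrix (Fin 3) (Fin 3) K) (h0 : N ≠ 0) (hN : N * N = 0) :
    N.rank = 1 := by
  have h1 : N.rank ≠ 0 := by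
    intro h
    apply h0
    have h3 : LinearMap.range N.mulVecLin = ⊥ := Submodule.finrank_eq_zero.mp h
    have h4 : N.mulVecLin = 0 := LinearMap.range_eq_bot.mp h3
    apply Matrix.mulVec_injective
    funext x
    have := congrArg (fun L : (Fin 3 → K) →ₗ[K] (Fin 3 → K) => L x) h4
    simpa using this
  have h2 : 2 * N.rank ≤ 3 := by
    have h3 := LinearMap.finrank_range_add_finrank_ker N.mulVecLin
    have h4 : LinearMap.range N.mulVecLin ≤ LinearMap.ker N.mulVecLin := by
      rintro _ ⟨x, rfl⟩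
      rw [LinearMap.mem_ker, Matrix.mulVecLin_apply, Matrix.mulVecLin_apply, Matrix.mulVec_mulVec,
        hN, Matrix.zero_mulVec]
    have h5 := Submodule.finrank_mono h4
    have h6 : Module.finrank K (Fin 3 → K) = 3 := by simp
    rw [h6] at h3
    have h7 : N.rank = Module.finrank K (LinearMap.range N.mulVecLin) := rfl
    omega
  omega

end entries

section PSL3

variable {K : Type*} [Field K] [Fintype K]

/-- The main lemma: in `PSL_3(4)`, the centraliser of an involution has no element of order 3. -/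
private lemma no_order6 (hK : Fintype.card K = 4)
    (t s : ProjectiveSpecialLinearGroup (Fin 3) K) (ht : t * t = 1) (ht1 : t ≠ 1)
    (hs : s * s * s = 1) (hts : t * s = s * t) : s = 1 := by
  classical
  have h2 := two_eq_zero_K hK
  have hc := fun x hx => cube_eq_one (K := K) hK (x := x) hx
  obtain ⟨t', rfl⟩ := QuotientGroup.mk_surjective t
  obtain ⟨s', rfl⟩ := QuotientGroup.mk_surjective s
  have hcenter : ∀ x : SpecialLinearGroup (Fin 3) K,
      ((x : SpecialLinearGroup (Fin 3) K) : ProjectiveSpecialLinearGroup (Fin 3) K) = 1 →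
      ∃ r : K, r ^ 3 = 1 ∧ (x : Matrix (Fin 3) (Fin 3) K) = r • 1 := by
    intro x hx
    have hm : x ∈ Subgroup.center (SpecialLinearGroup (Fin 3) K) := (QuotientGroup.eq_one_iff x).mp hx
    obtain ⟨r, hr, hrx⟩ := Matrix.SpecialLinearGroup.mem_center_iff.mp hm
    refine ⟨r, by simpa using hr, ?_⟩
    rw [← hrx]
    ext i j
    simp [Matrix.scalar_apply, Matrix.smul_apply, Matrix.diagonal_apply, Matrix.one_apply]
  -- the involution
  have hT : ((t' * t' : SpecialLinearGroup (Fin 3) K) : ProjectiveSpecialLinearGroup (Fin 3) K) = 1 := ht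
  obtain ⟨r, hr3, hrT⟩ := hcenter _ hT
  have hr0 : r ≠ 0 := by
    rintro rfl
    simp at hr3
  let T : Matrix (Fin 3) (Fin 3) K := r • (t' : Matrix (Fin 3) (Fin 3) K)
  have hT2 : T * T = 1 := by
    have h3 : (t' : Matrix (Fin 3) (Fin 3) K) * t' = r • 1 := by
      rw [← hrT]; rfl
    simp only [T, smul_mul_smul_comm, h3, smul_smul]
    rw [show r * r * r = r ^ 3 by ring, hr3, one_smul]
  let N : Matrix (Fin 3) (Fin 3) K := T + 1
  have hNN : N * N = 0 := by
    simp only [N, add_mul, mul_add, hT2, mul_one, one_mul]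
    have : (1 : Matrix (Fin 3) (Fin 3) K) + T + (T + 1) = (2 : K) • (T + 1) := by
      rw [two_smul]; abel
    rw [this, h2, zero_smul]
  have hN0 : N ≠ 0 := by
    intro h
    apply ht1
    apply (QuotientGroup.eq_one_iff t').mpr
    -- `t'` is scalar
    have hT1 : T = 1 := by
      have : T + 1 = 0 := h
      have h3 : T = T + (2 : K) • 1 := by rw [h2, zero_smul, add_zero]
      rw [h3, two_smul, ← add_assoc, this, zero_add]
    have hval : (t' : Matrix (Fin 3) (Fin 3) K) = r⁻¹ • 1 := by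
      have : r⁻¹ • T = (t' : Matrix (Fin 3) (Fin 3) K) := by
        simp only [T, smul_smul, inv_mul_cancel₀ hr0, one_smul]
      rw [← this, hT1]
    rw [Matrix.SpecialLinearGroup.mem_center_iff]
    refine ⟨r⁻¹, ?_, ?_⟩
    · have : (r⁻¹) ^ 3 = 1 := by rw [inv_pow, hr3, inv_one]
      simpa using this
    · rw [hval]
      ext i j
      simp [Matrix.scalar_apply, Matrix.smul_apply, Matrix.diagonal_apply, Matrix.one_apply]
  have hrank := rank_one_of_sq_zero N hN0 hNN
  -- the commutator of the lifts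
  have hcomm : ∃ c : K, c ^ 3 = 1 ∧ (t' : Matrix (Fin 3) (Fin 3) K) * s' = c • ((s' : Matrix (Fin 3) (Fin 3) K) * t') := by
    have h3 : ((t' * s' * t'⁻¹ * s'⁻¹ : SpecialLinearGroup (Fin 3) K) : ProjectiveSpecialLinearGroup (Fin 3) K) = 1 := by
      have e1 : ((t' * s' * t'⁻¹ * s'⁻¹ : SpecialLinearGroup (Fin 3) K) : ProjectiveSpecialLinearGroup (Fin 3) K)
          = (t' : ProjectiveSpecialLinearGroup (Fin 3) K) * s' * (t' : ProjectiveSpecialLinearGroup (Fin 3) K)⁻¹ * (s' : ProjectiveSpecialLinearGroup (Fin 3) K)⁻¹ := rfl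
      rw [e1, hts]
      group
    obtain ⟨c, hc3, hcv⟩ := hcenter _ h3
    refine ⟨c, hc3, ?_⟩
    have e2 : t' * s' = (t' * s' * t'⁻¹ * s'⁻¹) * (s' * t') := by group
    have e3 := congrArg (fun x : SpecialLinearGroup (Fin 3) K => (x : Matrix (Fin 3) (Fin 3) K)) e2
    change (t' : Matrix (Fin 3) (Fin 3) K) * s' =
      ((t' * s' * t'⁻¹ * s'⁻¹ : SpecialLinearGroup (Fin 3) K) : Matrix (Fin 3) (Fin 3) K) *
        ((s' : Matrix (Fin 3) (Fin 3) K) * t') at e3
    rw [e3, hcv]
    simp
  obtain ⟨c, hc3, hcv⟩ := hcomm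
  let S : Matrix (Fin 3) (Fin 3) K := (s' : Matrix (Fin 3) (Fin 3) K)
  have hTS : T * S = c • (S * T) := by
    simp only [T, S, smul_mul_assoc, mul_smul_comm, hcv, smul_smul]
    rw [mul_comm]
  have hdetS : S.det = 1 := s'.2
  have hS0 : S ≠ 0 := by
    intro h
    rw [h] at hdetS
    simp at hdetS
  -- `c = 1`
  have hc1 : c = 1 := by
    have h3 : T * (T * S) = (c * c) • (S * (T * T)) := by
      rw [hTS, mul_smul_comm, ← mul_assoc, hTS, smul_mul_assoc, smul_smul, mul_assoc]
    rw [← mul_assoc, hT2, one_mul, mul_one] at h3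
    have h4 : ((1 : K) - c * c) • S = 0 := by
      rw [sub_smul, one_smul, ← h3, sub_self]
    have h5 : (1 : K) - c * c = 0 := (smul_eq_zero.mp h4).resolve_right hS0
    have h6 : c * c = 1 := (sub_eq_zero.mp h5).symm
    calc c = c * (c * c) := by rw [h6, mul_one]
      _ = c ^ 3 := by ring
      _ = 1 := hc3
  rw [hc1, one_smul] at hTS
  have hNS : N * S = S * N := by
    simp only [N, add_mul, mul_add, hTS, one_mul, mul_one]
  -- conjugate to the standard form
  obtain ⟨G, hGdet, hG⟩ := Cfsg.Agent.Lib.Transv.exists_sl_conj (k := 0) N hrank hNN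
  let E : Matrix (Fin 3) (Fin 3) K := Matrix.single 1 0 1
  have hGE : G * E = N * G := by
    have h3 : G + G * E = G + N * G := by
      have := hG
      rw [mul_add, mul_one, add_mul, one_mul] at this
      exact this
    exact add_left_cancel h3
  have hGu : IsUnit G.det := by rw [hGdet]; exact isUnit_one
  have hGG : G⁻¹ * G = 1 := Matrix.nonsing_inv_mul G hGu
  have hGG' : G * G⁻¹ = 1 := Matrix.mul_nonsing_inv G hGu
  let S' : Matrix (Fin 3) (Fin 3) K := G⁻¹ * S * G
  have hS'E : S' * E = E * S' := by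
    have h3 : E = G⁻¹ * N * G := by
      calc E = G⁻¹ * (G * E) := by rw [← mul_assoc, hGG, one_mul]
        _ = G⁻¹ * N * G := by rw [hGE, mul_assoc]
    calc S' * E = G⁻¹ * S * (G * E) := by simp only [S', mul_assoc]
      _ = G⁻¹ * S * (N * G) := by rw [hGE]
      _ = G⁻¹ * (S * N) * G := by simp only [mul_assoc]
      _ = G⁻¹ * (N * S) * G := by rw [hNS]
      _ = (G⁻¹ * N * (G * G⁻¹)) * S * G := by rw [hGG', mul_one]; simp only [mul_assoc]
      _ = (G⁻¹ * N * G) * (G⁻¹ * S * G) := by simp only [mul_assoc]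
      _ = E * S' := by rw [← h3]
  have hS'det : S'.det = 1 := by
    simp only [S', Matrix.det_mul, hdetS, mul_one]
    rw [← Matrix.det_mul, hGG, Matrix.det_one]
  have hS3 : ((s' * s' * s' : SpecialLinearGroup (Fin 3) K) : ProjectiveSpecialLinearGroup (Fin 3) K) = 1 := hs
  obtain ⟨μ, -, hμ⟩ := hcenter _ hS3
  have hS3' : S * S * S = μ • 1 := by
    rw [← hμ]; rfl
  have hS'3 : S' * S' * S' = μ • (1 : Matrix (Fin 3) (Fin 3) K) := by
    calc S' * S' * S' = G⁻¹ * S * (G * G⁻¹) * S * (G * G⁻¹) * S * G := by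
          simp only [S', mul_assoc]
      _ = G⁻¹ * (S * S * S) * G := by rw [hGG']; simp only [mul_one, mul_assoc]
      _ = μ • (G⁻¹ * G) := by rw [hS3']; simp
      _ = μ • 1 := by rw [hGG]
  obtain ⟨l, hl⟩ := scalar_of_comm h2 hc S' hS'E hS'det μ hS'3
  have hSl : S = l • 1 := by
    calc S = G * S' * G⁻¹ := by
          simp only [S']
          calc S = (G * G⁻¹) * S * (G * G⁻¹) := by rw [hGG']; simp
            _ = _ := by simp only [mul_assoc]
      _ = l • (G * G⁻¹) := by rw [hl]; simp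
      _ = l • 1 := by rw [hGG']
  apply (QuotientGroup.eq_one_iff s').mpr
  rw [Matrix.SpecialLinearGroup.mem_center_iff]
  refine ⟨l, ?_, ?_⟩
  · have hl0 : l ≠ 0 := by
      rintro rfl
      apply hS0
      rw [hSl, zero_smul]
    simpa using hc l hl0
  · change _ = S
    rw [hSl]
    ext i j
    simp [Matrix.scalar_apply, Matrix.smul_apply, Matrix.diagonal_apply, Matrix.one_apply]

end PSL3

private lemma card_eq {F K : Type*} [Field F] [Fintype F] [Field K] [Fintype K]
    (hF : Fintype.card F = 2) (hK : Fintype.card K = 4) :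
    Nat.card (Matrix.ProjectiveSpecialLinearGroup (Fin 4) F)
      = Nat.card (Matrix.ProjectiveSpecialLinearGroup (Fin 3) K) := by
  classical
  have h1 : Nat.card (SpecialLinearGroup (Fin 4) F) = 20160 := by
    have h2 := Cfsg.Agent.Lib.ClassicalCore.card_GL_eq_mul_card_SL (n := Fin 4) (F := F)
    rw [Matrix.card_GL_field, hF] at h2
    have e : ∏ i : Fin 4, (2 ^ 4 - 2 ^ (i : ℕ)) = 20160 := by decide
    rw [e] at h2
    omega
  have h3 : Nat.card (SpecialLinearGroup (Fin 3) K) = 60480 := by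
    have h2 := Cfsg.Agent.Lib.ClassicalCore.card_GL_eq_mul_card_SL (n := Fin 3) (F := K)
    rw [Matrix.card_GL_field, hK] at h2
    have e : ∏ i : Fin 3, (4 ^ 3 - 4 ^ (i : ℕ)) = 181440 := by decide
    rw [e] at h2
    omega
  have h4 : Nat.card (Subgroup.center (SpecialLinearGroup (Fin 4) F)) = 1 := by
    rw [Cfsg.Agent.Lib.ClassicalCore.card_center_SL, hF]
    simp
  have h5 : Nat.card (Subgroup.center (SpecialLinearGroup (Fin 3) K)) = 3 := by
    rw [Cfsg.Agent.Lib.ClassicalCore.card_center_SL, hK]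
    simp
  have h6 := Subgroup.card_eq_card_quotient_mul_card_subgroup
    (Subgroup.center (SpecialLinearGroup (Fin 4) F))
  have h7 := Subgroup.card_eq_card_quotient_mul_card_subgroup
    (Subgroup.center (SpecialLinearGroup (Fin 3) K))
  rw [h1, h4] at h6
  rw [h3, h5] at h7
  change Nat.card (SpecialLinearGroup (Fin 4) F ⧸ Subgroup.center (SpecialLinearGroup (Fin 4) F))
    = Nat.card (SpecialLinearGroup (Fin 3) K ⧸ Subgroup.center (SpecialLinearGroup (Fin 3) K))
  omega

private lemma exists_pair_F {F : Type*} [Field F] [Fintype F] (hF : Fintype.card F = 2) :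
    ∃ t s : Matrix.ProjectiveSpecialLinearGroup (Fin 4) F, t * t = 1 ∧ t ≠ 1 ∧ s * s * s = 1 ∧ s ≠ 1
      ∧ t * s = s * t := by
  classical
  have hFc : ∀ x : F, x = 0 ∨ x = 1 := by
    intro x
    by_contra hcon
    push Not at hcon
    have : 2 < Fintype.card F := Finset.two_lt_card.mpr
      ⟨0, Finset.mem_univ _, 1, Finset.mem_univ _, x, Finset.mem_univ _, zero_ne_one,
        hcon.1.symm, hcon.2.symm⟩
    omega
  have h2 : (1 : F) + 1 = 0 := by
    rcases hFc (1 + 1) with h | h
    · exact h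
    · exfalso
      have : (1 : F) = 0 := by
        have h3 : (1 : F) + 1 = 1 + 0 := by rw [h, add_zero]
        exact add_left_cancel h3
      exact one_ne_zero this
  haveI : CharP F 2 := by
    apply CharTwo.of_one_ne_zero_of_two_eq_zero one_ne_zero
    rw [← h2]; norm_num
  -- the elements, over `ZMod 2`
  let φ : ZMod 2 →+* F := ZMod.castHom (dvd_refl 2) F
  let m : SpecialLinearGroup (Fin 4) (ZMod 2) →* SpecialLinearGroup (Fin 4) F :=
    SpecialLinearGroup.map φ
  let t₀ : SpecialLinearGroup (Fin 4) (ZMod 2) :=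
    SpecialLinearGroup.transvection (i := 0) (j := 1) (by decide) 1
  let s₀ : SpecialLinearGroup (Fin 4) (ZMod 2) :=
    SpecialLinearGroup.transvection (i := 2) (j := 3) (by decide) 1 *
      SpecialLinearGroup.transvection (i := 3) (j := 2) (by decide) 1
  have ht₀ : t₀ * t₀ = 1 := by decide
  have hs₀ : s₀ * s₀ * s₀ = 1 := by decide
  have hts₀ : t₀ * s₀ = s₀ * t₀ := by decide
  have hnc : ∀ x : SpecialLinearGroup (Fin 4) F, ∀ i j : Fin 4, i ≠ j →
      (x : Matrix (Fin 4) (Fin 4) F) i j ≠ 0 →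
      ((x : SpecialLinearGroup (Fin 4) F) : ProjectiveSpecialLinearGroup (Fin 4) F) ≠ 1 := by
    intro x i j hij hx h1
    have hm : x ∈ Subgroup.center (SpecialLinearGroup (Fin 4) F) :=
      (QuotientGroup.eq_one_iff x).mp h1
    obtain ⟨r, hr, hrx⟩ := Matrix.SpecialLinearGroup.mem_center_iff.mp hm
    apply hx
    rw [← hrx]
    simp [Matrix.scalar_apply, Matrix.diagonal_apply, hij]
  refine ⟨((m t₀ : SpecialLinearGroup (Fin 4) F) : ProjectiveSpecialLinearGroup (Fin 4) F),
    ((m s₀ : SpecialLinearGroup (Fin 4) F) : ProjectiveSpecialLinearGroup (Fin 4) F),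
    ?_, ?_, ?_, ?_, ?_⟩
  · change ((m t₀ * m t₀ : SpecialLinearGroup (Fin 4) F) : ProjectiveSpecialLinearGroup (Fin 4) F) = 1
    rw [← map_mul, ht₀, map_one]
    rfl
  · refine hnc _ 0 1 (by decide) ?_
    have e : (t₀ : Matrix (Fin 4) (Fin 4) (ZMod 2)) 0 1 = 1 := by decide
    change φ ((t₀ : Matrix (Fin 4) (Fin 4) (ZMod 2)) 0 1) ≠ 0
    rw [e, map_one]
    exact one_ne_zero
  · change ((m s₀ * m s₀ * m s₀ : SpecialLinearGroup (Fin 4) F) : ProjectiveSpecialLinearGroup (Fin 4) F) = 1
    rw [← map_mul, ← map_mul, hs₀, map_one]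
    rfl
  · refine hnc _ 2 3 (by decide) ?_
    have e : (s₀ : Matrix (Fin 4) (Fin 4) (ZMod 2)) 2 3 = 1 := by decide
    change φ ((s₀ : Matrix (Fin 4) (Fin 4) (ZMod 2)) 2 3) ≠ 0
    rw [e, map_one]
    exact one_ne_zero
  · change ((m t₀ * m s₀ : SpecialLinearGroup (Fin 4) F) : ProjectiveSpecialLinearGroup (Fin 4) F)
      = ((m s₀ * m t₀ : SpecialLinearGroup (Fin 4) F) : ProjectiveSpecialLinearGroup (Fin 4) F)
    rw [← map_mul, ← map_mul, hts₀]

/-- Let F be a field with 2 elements and K a field with 4 elements. PSL_4(F) and PSL_3(K) have the same order (20160) but are not isomorphic. -/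
theorem result {F K : Type*} [Field F] [Fintype F] [Field K] [Fintype K] (hF : Fintype.card F = 2) (hK : Fintype.card K = 4) : Nat.card (Matrix.ProjectiveSpecialLinearGroup (Fin 4) F) = Nat.card (Matrix.ProjectiveSpecialLinearGroup (Fin 3) K) ∧ ¬ Nonempty (Matrix.ProjectiveSpecialLinearGroup (Fin 4) F ≃* Matrix.ProjectiveSpecialLinearGroup (Fin 3) K) := by
  classical
  constructor
  · exact card_eq hF hK
  · rintro ⟨ψ⟩
    obtain ⟨t, s, ht, ht1, hs, hs1, hts⟩ := exists_pair_F hF
    exact hs1 (ψ.injective (by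
      rw [map_one]
      exact no_order6 hK (ψ t) (ψ s) (by rw [← map_mul, ht, map_one])
        (fun h => ht1 (ψ.injective (by rw [h, map_one])))
        (by rw [← map_mul, ← map_mul, hs, map_one]) (by rw [← map_mul, hts, map_mul])))

end Cfsg.Agent.S2550
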