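import Mathlib
import Cfsg.Statements.S2551
import Cfsg.Agent.Lib.OrthoCount
import Cfsg.Agent.Lib.ClassicalCore
import Cfsg.Agent.S0256

set_option autoImplicit false
open Cfsg

namespace Cfsg.Agent.S2551

open Matrix

section

variable {F : Type*} [Field F] [Fintype F]

/-- Pairs of distinct non-zero vectors. -/
abbrev XX (F : Type*) [Field F] :=
  {p : (Fin 4 → F) × (Fin 4 → F) // p.1 ≠ 0 ∧ p.2 ≠ 0 ∧ p.1 ≠ p.2}

private lemma ne_zero_of_mulVec (g : Matrix.GeneralLinearGroup (Fin 4) F) {v : Fin 4 → F} (hv : v ≠ 0) :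
    (g : Matrix (Fin 4) (Fin 4) F) *ᵥ v ≠ 0 := by
  intro h
  apply hv
  have := congrArg (fun x => ((g⁻¹ : Matrix.GeneralLinearGroup (Fin 4) F) : Matrix (Fin 4) (Fin 4) F) *ᵥ x) h
  simpa [Matrix.mulVec_mulVec] using this

private lemma mulVec_inj (g : Matrix.GeneralLinearGroup (Fin 4) F) {v w : Fin 4 → F}
    (h : (g : Matrix (Fin 4) (Fin 4) F) *ᵥ v = (g : Matrix (Fin 4) (Fin 4) F) *ᵥ w) : v = w := by
  have := congrArg (fun x => ((g⁻¹ : Matrix.GeneralLinearGroup (Fin 4) F) : Matrix (Fin 4) (Fin 4) F) *ᵥ x) h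
  simpa [Matrix.mulVec_mulVec] using this

/-- The action on pairs. -/
instance actXX : MulAction (Matrix.GeneralLinearGroup (Fin 4) F) (XX F) where
  smul g x := ⟨((g : Matrix (Fin 4) (Fin 4) F) *ᵥ x.1.1, (g : Matrix (Fin 4) (Fin 4) F) *ᵥ x.1.2),
    ne_zero_of_mulVec g x.2.1, ne_zero_of_mulVec g x.2.2.1, fun h => x.2.2.2 (mulVec_inj g h)⟩
  one_smul x := by
    apply Subtype.ext
    apply Prod.ext
    · exact Matrix.one_mulVec _
    · exact Matrix.one_mulVec _
  mul_smul g h x := by
    apply Subtype.ext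
    apply Prod.ext
    · change ((g * h : Matrix.GeneralLinearGroup (Fin 4) F) : Matrix (Fin 4) (Fin 4) F) *ᵥ x.1.1 =
        (g : Matrix (Fin 4) (Fin 4) F) *ᵥ ((h : Matrix (Fin 4) (Fin 4) F) *ᵥ x.1.1)
      rw [Matrix.mulVec_mulVec]
      rfl
    · change ((g * h : Matrix.GeneralLinearGroup (Fin 4) F) : Matrix (Fin 4) (Fin 4) F) *ᵥ x.1.2 =
        (g : Matrix (Fin 4) (Fin 4) F) *ᵥ ((h : Matrix (Fin 4) (Fin 4) F) *ᵥ x.1.2)
      rw [Matrix.mulVec_mulVec]
      rfl

private lemma smul_fst (g : Matrix.GeneralLinearGroup (Fin 4) F) (x : XX F) :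
    (g • x).1.1 = (g : Matrix (Fin 4) (Fin 4) F) *ᵥ x.1.1 := rfl
private lemma smul_snd (g : Matrix.GeneralLinearGroup (Fin 4) F) (x : XX F) :
    (g • x).1.2 = (g : Matrix (Fin 4) (Fin 4) F) *ᵥ x.1.2 := rfl

private lemma F_cases (hF : Fintype.card F = 2) (x : F) : x = 0 ∨ x = 1 := by
  classical
  by_contra hcon
  push Not at hcon
  have : 2 < Fintype.card F := Finset.two_lt_card.mpr
    ⟨0, Finset.mem_univ _, 1, Finset.mem_univ _, x, Finset.mem_univ _, zero_ne_one,
      hcon.1.symm, hcon.2.symm⟩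
  omega

private lemma F_two (hF : Fintype.card F = 2) : (1 : F) + 1 = 0 := by
  rcases F_cases hF (1 + 1) with h | h
  · exact h
  · exfalso
    have : (1 : F) = 0 := by
      have h3 : (1 : F) + 1 = 1 + 0 := by rw [h, add_zero]
      exact add_left_cancel h3
    exact one_ne_zero this

private lemma li_pair (hF : Fintype.card F = 2) (x : XX F) :
    LinearIndependent F ![x.1.1, x.1.2] := by
  rw [LinearIndependent.pair_iff]
  intro s t hst
  have h2 := F_two hF
  rcases F_cases hF s with rfl | rfl <;> rcases F_cases hF t with rfl | rfl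
  · exact ⟨rfl, rfl⟩
  · simp at hst
    exact absurd hst x.2.2.1
  · simp at hst
    exact absurd hst x.2.1
  · simp only [one_smul] at hst
    exfalso
    apply x.2.2.2
    funext i
    have := congrFun hst i
    simp only [Pi.add_apply, Pi.zero_apply] at this
    have h3 : (x.1.1 i) = -(x.1.2 i) := eq_neg_of_add_eq_zero_left this
    rw [h3]
    have h4 : -(x.1.2 i) = x.1.2 i := by
      have : (x.1.2 i) + (x.1.2 i) = (1 + 1) * x.1.2 i := by ring
      rw [neg_eq_iff_add_eq_zero, this, h2, zero_mul]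
    exact h4

/-- `GL_4(2)` is transitive on pairs. -/
private lemma trans_GL (hF : Fintype.card F = 2) (x y : XX F) :
    ∃ g : Matrix.GeneralLinearGroup (Fin 4) F, g • x = y := by
  classical
  have hD := li_pair hF x
  have hE := li_pair hF y
  let f := hD.linearCombinationEquiv.symm ≪≫ₗ hE.linearCombinationEquiv
  have : FiniteDimensional F (Submodule.span F (Set.range ![x.1.1, x.1.2])) :=
    FiniteDimensional.span_of_finite F (Set.finite_range _)
  obtain ⟨g, hg⟩ := Submodule.exists_linearEquiv_restrict_eq f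
  have q0 : ∀ z : XX F, (li_pair hF z).linearCombinationEquiv (Finsupp.single 0 1) = z.1.1 := by
    intro z; simp
  have q1 : ∀ z : XX F, (li_pair hF z).linearCombinationEquiv (Finsupp.single 1 1) = z.1.2 := by
    intro z; simp
  refine ⟨Cfsg.Agent.Lib.OrthoCount.glEquiv.symm g, ?_⟩
  have hap : ∀ v, ((Cfsg.Agent.Lib.OrthoCount.glEquiv.symm g : Matrix.GeneralLinearGroup (Fin 4) F) : Matrix (Fin 4) (Fin 4) F) *ᵥ v = g v := by
    intro v
    have := Cfsg.Agent.Lib.OrthoCount.glEquiv_apply (Cfsg.Agent.Lib.OrthoCount.glEquiv.symm g) v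
    rw [← this]
    simp
  apply Subtype.ext
  apply Prod.ext
  · rw [smul_fst, hap]
    calc g x.1.1 = g ((hD.linearCombinationEquiv (Finsupp.single 0 1) : _) : Fin 4 → F) := by
          rw [q0 x]
      _ = ((f (hD.linearCombinationEquiv (Finsupp.single 0 1)) : _) : Fin 4 → F) := (hg _).symm
      _ = ((hE.linearCombinationEquiv (Finsupp.single 0 1) : _) : Fin 4 → F) := by simp [f]
      _ = y.1.1 := q0 y
  · rw [smul_snd, hap]
    calc g x.1.2 = g ((hD.linearCombinationEquiv (Finsupp.single 1 1) : _) : Fin 4 → F) := by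
          rw [q1 x]
      _ = ((f (hD.linearCombinationEquiv (Finsupp.single 1 1)) : _) : Fin 4 → F) := (hg _).symm
      _ = ((hE.linearCombinationEquiv (Finsupp.single 1 1) : _) : Fin 4 → F) := by simp [f]
      _ = y.1.2 := q1 y

/-- The number of pairs. -/
private lemma card_XX (hF : Fintype.card F = 2) : Nat.card (XX F) = 210 := by
  classical
  rw [Nat.card_eq_fintype_card, Fintype.card_subtype]
  have h : (Finset.univ.filter fun p : (Fin 4 → F) × (Fin 4 → F) => p.1 ≠ 0 ∧ p.2 ≠ 0 ∧ p.1 ≠ p.2)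
      = ((Finset.univ : Finset (Fin 4 → F)).erase 0).offDiag := by
    ext p
    simp [Finset.mem_offDiag, and_assoc]
  rw [h, Finset.offDiag_card, Finset.card_erase_of_mem (Finset.mem_univ _), Finset.card_univ,
    Fintype.card_fun, hF]
  simp

/-- The order of the stabilizer of a pair in `GL_4(2)`. -/
private lemma card_stab_GL (hF : Fintype.card F = 2) (x : XX F) :
    Nat.card (MulAction.stabilizer (Matrix.GeneralLinearGroup (Fin 4) F) x) = 96 := by
  classical
  have hGcard : Nat.card (Matrix.GeneralLinearGroup (Fin 4) F) = 20160 := by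
    rw [Matrix.card_GL_field, hF]
    decide
  have horb : MulAction.orbit (Matrix.GeneralLinearGroup (Fin 4) F) x = Set.univ := by
    ext y
    simp only [Set.mem_univ, iff_true]
    obtain ⟨g, hg⟩ := trans_GL hF x y
    exact ⟨g, hg⟩
  have h1 := Subgroup.index_mul_card (MulAction.stabilizer (Matrix.GeneralLinearGroup (Fin 4) F) x)
  rw [MulAction.index_stabilizer, horb, Set.ncard_univ, card_XX hF, hGcard] at h1
  omega

/-- The main theorem on two-transitivity. -/
private lemma two_trans (hF : Fintype.card F = 2) (H : Subgroup (Matrix.GeneralLinearGroup (Fin 4) F))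
    (hH : Nat.card H = 2520) (x y : XX F) : ∃ g ∈ H, g • x = y := by
  classical
  have hdvd : ∀ z : XX F, 105 ∣ (MulAction.orbit H z).ncard := by
    intro z
    have h1 := Subgroup.index_mul_card (MulAction.stabilizer H z)
    rw [MulAction.index_stabilizer, hH] at h1
    have h2 : Nat.card (MulAction.stabilizer H z) ∣ 96 := by
      rw [← card_stab_GL hF z]
      let j : MulAction.stabilizer H z →* MulAction.stabilizer (Matrix.GeneralLinearGroup (Fin 4) F) z :=
        { toFun := fun a => ⟨(a : H), a.2⟩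
          map_one' := rfl
          map_mul' := fun _ _ => rfl }
      have hj : Function.Injective j := by
        intro a b hab
        apply Subtype.ext
        apply Subtype.ext
        exact congrArg (fun c => ((c : MulAction.stabilizer (Matrix.GeneralLinearGroup (Fin 4) F) z) : Matrix.GeneralLinearGroup (Fin 4) F)) hab
      have := Subgroup.card_subgroup_dvd_card j.range
      rwa [Nat.card_congr (MonoidHom.ofInjective hj).toEquiv.symm] at this
    have h3 : Nat.card (MulAction.stabilizer H z) ∣ 24 := by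
      have h4 : Nat.card (MulAction.stabilizer H z) ∣ 2520 := ⟨_, by rw [mul_comm]; exact h1.symm⟩
      have := Nat.dvd_gcd h2 h4
      simpa using this
    obtain ⟨e, he⟩ := h3
    have hpos : 0 < Nat.card (MulAction.stabilizer H z) := Nat.card_pos
    refine ⟨e, ?_⟩
    have : (MulAction.orbit H z).ncard * Nat.card (MulAction.stabilizer H z)
        = 105 * e * Nat.card (MulAction.stabilizer H z) := by
      rw [h1]
      calc 2520 = 105 * 24 := by norm_num
        _ = _ := by rw [he]; ring
    exact Nat.eq_of_mul_eq_mul_right hpos this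
  -- an involution in `H`
  have h2H : Nat.Prime 2 := Nat.prime_two
  obtain ⟨h, hh⟩ : ∃ h : H, orderOf h = 2 := by
    haveI : Finite H := inferInstance
    apply exists_prime_orderOf_dvd_card' 2
    rw [hH]
    norm_num
  have hh1 : h ≠ 1 := by
    intro e
    rw [e, orderOf_one] at hh
    omega
  have hh2 : h * h = 1 := by
    rw [← sq, ← hh, pow_orderOf_eq_one]
  have hval : ((h : H) : Matrix.GeneralLinearGroup (Fin 4) F) ≠ 1 := fun e => hh1 (Subtype.ext e)
  obtain ⟨a, ha⟩ : ∃ a : Fin 4 → F, (((h : H) : Matrix.GeneralLinearGroup (Fin 4) F) : Matrix (Fin 4) (Fin 4) F) *ᵥ a ≠ a := by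
    by_contra hcon
    push Not at hcon
    apply hval
    apply Units.ext
    apply Matrix.mulVec_injective
    funext v
    simpa using hcon v
  set hv : Matrix (Fin 4) (Fin 4) F := (((h : H) : Matrix.GeneralLinearGroup (Fin 4) F) : Matrix (Fin 4) (Fin 4) F) with hhv
  have ha0 : a ≠ 0 := by
    rintro rfl
    exact ha (Matrix.mulVec_zero _)
  have hb0 : hv *ᵥ a ≠ 0 := ne_zero_of_mulVec _ ha0
  let x₀ : XX F := ⟨(a, hv *ᵥ a), ha0, hb0, fun e => ha e.symm⟩
  let sw : XX F → XX F := fun z => ⟨(z.1.2, z.1.1), z.2.2.1, z.2.1, z.2.2.2.symm⟩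
  have hsw : ∀ (k : H) (z : XX F), sw (k • z) = k • sw z := fun _ _ => rfl
  have hvv : hv * hv = 1 := by
    have := congrArg (fun c : H => ((c : Matrix.GeneralLinearGroup (Fin 4) F) : Matrix (Fin 4) (Fin 4) F)) hh2
    simpa using this
  have hsw0 : sw x₀ = h • x₀ := by
    apply Subtype.ext
    apply Prod.ext
    · rfl
    · change a = hv *ᵥ (hv *ᵥ a)
      rw [Matrix.mulVec_mulVec, hvv, Matrix.one_mulVec]
  -- the orbit
  let O := MulAction.orbit H x₀
  have hcard : O.ncard = O.toFinset.card := Set.ncard_eq_toFinset_card' O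
  have hsum : ∑ _z ∈ O.toFinset, (1 : ZMod 2) = 0 := by
    refine Finset.sum_involution (fun z _ => sw z) (fun _ _ => by decide)
      (fun z _ _ hz => ?_) (fun z hz => ?_) (fun z _ => rfl)
    · have := congrArg (fun c : XX F => c.1.1) hz
      exact z.2.2.2 this.symm
    · rw [Set.mem_toFinset] at hz ⊢
      obtain ⟨k, rfl⟩ := hz
      refine ⟨k * h, ?_⟩
      change (k * h) • x₀ = sw (k • x₀)
      rw [hsw, hsw0, mul_smul]
  have heven : 2 ∣ O.ncard := by
    rw [hcard, ← ZMod.natCast_eq_zero_iff]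
    simpa using hsum
  have hn210 : 210 ∣ O.ncard := by
    have h1 : Nat.Coprime 2 105 := by norm_num
    have := Nat.Coprime.mul_dvd_of_dvd_of_dvd h1 heven (hdvd x₀)
    simpa using this
  have hO : O = Set.univ := by
    have hpos : 0 < O.ncard := by
      rw [Set.ncard_pos]
      exact ⟨x₀, MulAction.mem_orbit_self x₀⟩
    have hle := Nat.le_of_dvd hpos hn210
    have huniv : (Set.univ : Set (XX F)).ncard = 210 := by
      rw [Set.ncard_univ, card_XX hF]
    apply Set.eq_of_subset_of_ncard_le (Set.subset_univ _)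
    rw [huniv]
    exact hle
  have hx : x ∈ O := by rw [hO]; trivial
  have hy : y ∈ O := by rw [hO]; trivial
  obtain ⟨k, hk⟩ := hx
  obtain ⟨l, hl⟩ := hy
  refine ⟨(l * k⁻¹ : H), (l * k⁻¹ : H).2, ?_⟩
  change (l * k⁻¹) • x = y
  rw [← hk, ← hl]
  simp only [mul_smul]
  simp


/-- `A₇` embeds in `A₈`. -/
private lemma exists_A7_A8 : ∃ i : alternatingGroup (Fin 7) →* alternatingGroup (Fin 8), Function.Injective i := by
  classical
  let f : Fin 7 ≃ {x : Fin 8 // x ≠ Fin.last 7} :=
    Equiv.ofBijective (fun a : Fin 7 => (⟨a.castSucc, (Fin.castSucc_lt_last a).ne⟩ : {x : Fin 8 // x ≠ Fin.last 7})) (by decide)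
  let j : Equiv.Perm (Fin 7) →* Equiv.Perm (Fin 8) := Equiv.Perm.extendDomainHom f
  have hj : Function.Injective j := Equiv.Perm.extendDomainHom_injective f
  let i : alternatingGroup (Fin 7) →* alternatingGroup (Fin 8) :=
    (j.comp (alternatingGroup (Fin 7)).subtype).codRestrict (alternatingGroup (Fin 8)) (by
      intro x
      rw [Equiv.Perm.mem_alternatingGroup]
      change Equiv.Perm.sign (Equiv.Perm.extendDomain (x : Equiv.Perm (Fin 7)) f) = 1
      rw [Equiv.Perm.sign_extendDomain]
      exact x.2)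
  refine ⟨i, ?_⟩
  intro x y hxy
  apply Subtype.ext
  apply hj
  exact congrArg Subtype.val hxy

/-- `A₈` embeds into `GL₄(2)`. -/
private lemma exists_A8_GL {F : Type*} [Field F] [Fintype F] (hF : Fintype.card F = 2) :
    ∃ i : alternatingGroup (Fin 8) →* Matrix.GeneralLinearGroup (Fin 4) F, Function.Injective i := by
  classical
  obtain ⟨e⟩ := Cfsg.Agent.S0256.result hF
  have hc : Nat.card (Subgroup.center (Matrix.SpecialLinearGroup (Fin 4) F)) = 1 := by
    rw [Cfsg.Agent.Lib.ClassicalCore.card_center_SL, hF]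
    simp
  have hcb : Subgroup.center (Matrix.SpecialLinearGroup (Fin 4) F) = ⊥ :=
    Subgroup.eq_bot_of_card_eq _ hc
  let q : Matrix.SpecialLinearGroup (Fin 4) F →* Matrix.ProjectiveSpecialLinearGroup (Fin 4) F :=
    QuotientGroup.mk' _
  have hq : Function.Bijective q := by
    refine ⟨?_, QuotientGroup.mk'_surjective _⟩
    rw [injective_iff_map_eq_one]
    intro a ha
    have : a ∈ Subgroup.center (Matrix.SpecialLinearGroup (Fin 4) F) :=
      (QuotientGroup.eq_one_iff a).mp ha
    rw [hcb] at this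
    exact this
  let eq : Matrix.SpecialLinearGroup (Fin 4) F ≃* Matrix.ProjectiveSpecialLinearGroup (Fin 4) F :=
    MulEquiv.ofBijective q hq
  let t : Matrix.SpecialLinearGroup (Fin 4) F →* Matrix.GeneralLinearGroup (Fin 4) F :=
    Matrix.SpecialLinearGroup.toGL
  have ht : Function.Injective t := Matrix.SpecialLinearGroup.toGL_injective
  refine ⟨t.comp ((eq.symm.toMonoidHom).comp e.symm.toMonoidHom), ?_⟩
  intro x y hxy
  exact e.symm.injective (eq.symm.injective (ht hxy))

end

/-- Let F be the field with 2 elements. GL_4(F) (≅ A_8) has a subgroup isomorphic to the alternating group A_7, and every such subgroup acts 2-transitively on the 15 non-zero vectors of F⁴: any ordered pair of distinct non-zero vectors is carried to any other by some element of the subgroup. -/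
theorem result {F : Type*} [Field F] [Fintype F] (hF : Fintype.card F = 2) : (∃ H : Subgroup (Matrix.GeneralLinearGroup (Fin 4) F), Nonempty (H ≃* alternatingGroup (Fin 7))) ∧ ∀ H : Subgroup (Matrix.GeneralLinearGroup (Fin 4) F), Nonempty (H ≃* alternatingGroup (Fin 7)) → ∀ v w v' w' : Fin 4 → F, v ≠ 0 → w ≠ 0 → v ≠ w → v' ≠ 0 → w' ≠ 0 → v' ≠ w' → ∃ g ∈ H, (g : Matrix (Fin 4) (Fin 4) F).mulVec v = v' ∧ (g : Matrix (Fin 4) (Fin 4) F).mulVec w = w' := by
  refine ⟨?_, ?_⟩
  · obtain ⟨i, hi⟩ := exists_A7_A8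
    obtain ⟨i', hi'⟩ := exists_A8_GL hF
    refine ⟨(i'.comp i).range, ⟨(MonoidHom.ofInjective (f := i'.comp i) (hi'.comp hi)).symm⟩⟩
  · rintro H ⟨e⟩ v w v' w' hv hw hvw hv' hw' hvw'
    have hH : Nat.card H = 2520 := by
      rw [Nat.card_congr e.toEquiv, nat_card_alternatingGroup]
      simp [Nat.factorial]
    obtain ⟨g, hg, hgx⟩ := two_trans hF H hH ⟨(v, w), hv, hw, hvw⟩ ⟨(v', w'), hv', hw', hvw'⟩
    exact ⟨g, hg, congrArg (fun c : XX F => c.1.1) hgx, congrArg (fun c : XX F => c.1.2) hgx⟩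

end Cfsg.Agent.S2551
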