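import Mathlib
import Cfsg.Statements.S2552

set_option autoImplicit false
open Cfsg

namespace Cfsg.Agent.S2552

theorem exists_det_eq {F : Type*} [Field F] {V : Type*} [AddCommGroup V] [Module F V]
    [FiniteDimensional F V] (U : Submodule F V) (hU : U ≠ ⊤) (a : F) (ha : a ≠ 0) :
    ∃ h : V ≃ₗ[F] V, LinearMap.det (h : V →ₗ[F] V) = a ∧ ∀ x ∈ U, h x = x := by
  obtain ⟨φ, hφ, hle⟩ := Submodule.exists_le_ker_of_lt_top U (lt_top_iff_ne_top.mpr hU)
  obtain ⟨v, hv⟩ : ∃ v, φ v ≠ 0 := by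
    by_contra hcon
    push Not at hcon
    exact hφ (LinearMap.ext hcon)
  set w : V := ((a - 1) * (φ v)⁻¹) • v with hw
  have hφw : φ w = a - 1 := by
    rw [hw, map_smul, smul_eq_mul, mul_assoc, inv_mul_cancel₀ hv, mul_one]
  have hunit : IsUnit (1 + φ w) := by
    rw [hφw]
    simpa using ha
  refine ⟨LinearEquiv.dilatransvection hunit, ?_, ?_⟩
  · rw [LinearEquiv.dilatransvection.coe_toLinearMap, LinearMap.transvection.det, hφw]
    ring
  · intro x hx
    have : φ x = 0 := hle hx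
    rw [LinearEquiv.dilatransvection.apply, this, zero_smul, add_zero]

theorem result {F : Type*} [Field F] [Fintype F] (n : ℕ) (hn : 1 ≤ n) (U₁ U₂ : Submodule F (Fin n → F)) (h : Module.finrank F U₁ = Module.finrank F U₂) : ∃ g : Matrix.SpecialLinearGroup (Fin n) F, U₁.map ((Matrix.SpecialLinearGroup.toLin' g : (Fin n → F) ≃ₗ[F] (Fin n → F)) : (Fin n → F) →ₗ[F] (Fin n → F)) = U₂ := by
  by_cases hU : U₁ = ⊤
  · subst hU
    have hU₂ : U₂ = ⊤ := by
      apply Submodule.eq_top_of_finrank_eq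
      rw [← h]
      simp
    subst hU₂
    refine ⟨1, ?_⟩
    simp
  · obtain ⟨g, hg⟩ := Submodule.exists_linearEquiv_restrict_eq (LinearEquiv.ofFinrankEq U₁ U₂ h)
    have hdet : LinearMap.det (g : (Fin n → F) →ₗ[F] (Fin n → F)) ≠ 0 := by
      have := (LinearEquiv.isUnit_det' g).ne_zero
      exact this
    obtain ⟨k, hk, hkU⟩ := exists_det_eq U₁ hU
      (LinearMap.det (g : (Fin n → F) →ₗ[F] (Fin n → F)))⁻¹ (inv_ne_zero hdet)
    set T : (Fin n → F) →ₗ[F] (Fin n → F) :=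
      (g : (Fin n → F) →ₗ[F] (Fin n → F)) ∘ₗ (k : (Fin n → F) →ₗ[F] (Fin n → F)) with hT
    have hTdet : LinearMap.det T = 1 := by
      rw [hT, LinearMap.det_comp, hk, mul_inv_cancel₀ hdet]
    let M : Matrix.SpecialLinearGroup (Fin n) F :=
      ⟨LinearMap.toMatrix' T, by rw [LinearMap.det_toMatrix', hTdet]⟩
    refine ⟨M, ?_⟩
    have hcoe : ((Matrix.SpecialLinearGroup.toLin' M : (Fin n → F) ≃ₗ[F] (Fin n → F)) : (Fin n → F) →ₗ[F] (Fin n → F)) = T := by
      apply LinearMap.ext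
      intro v
      show Matrix.SpecialLinearGroup.toLin' M v = T v
      rw [Matrix.SpecialLinearGroup.toLin'_apply]
      show Matrix.toLin' (LinearMap.toMatrix' T) v = T v
      simp
    rw [hcoe]
    apply le_antisymm
    · rintro _ ⟨x, hx, rfl⟩
      have h1 : T x = g x := by
        simp [hT, hkU x hx]
      rw [h1]
      have h2 := hg ⟨x, hx⟩
      simp only at h2
      rw [← h2]
      exact ((LinearEquiv.ofFinrankEq U₁ U₂ h) ⟨x, hx⟩).2
    · intro y hy
      set x : U₁ := (LinearEquiv.ofFinrankEq U₁ U₂ h).symm ⟨y, hy⟩ with hx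
      refine ⟨x, x.2, ?_⟩
      have h1 : T x = g x := by
        simp [hT, hkU x x.2]
      have h2 := hg x
      rw [h1, ← h2, hx]
      simp

end Cfsg.Agent.S2552
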