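import Mathlib
import Cfsg.Statements.S2561
import Cfsg.Agent.Lib.F2Quad
-- import your own Cfsg.Agent.* helpers here

set_option autoImplicit false
open Cfsg

namespace Cfsg.Agent.S2561

/-- Fix the non-singular alternating form on the 2m-dimensional space over the field of two elements obtained by polarizing the plus-type form Σ xᵢyᵢ (m ≥ 1). The functions q on the space with q(u + v) = q(u) + q(v) + f(u, v) (the quadratic forms polarizing to f) number 2^(2m); each is equivalent under an invertible linear map either to the plus-type form or to the minus-type form Σ xᵢyᵢ + (z₁² + z₁z₂ + z₂²); and those of plus type number 2^(2m−1) + 2^(m−1), those of minus type 2^(2m−1) − 2^(m−1). -/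
theorem result (m : ℕ) (hm : 1 ≤ m) :
    Nat.card {q : (Fin m ⊕ Fin m → ZMod 2) → ZMod 2 // (∀ u v : (Fin m ⊕ Fin m → ZMod 2), q (u + v) = q u + q v + (Cfsg.quadFormPlus m (ZMod 2) (u + v) - Cfsg.quadFormPlus m (ZMod 2) u - Cfsg.quadFormPlus m (ZMod 2) v))} = 2 ^ (2 * m) ∧
    (∀ q : (Fin m ⊕ Fin m → ZMod 2) → ZMod 2, (∀ u v : (Fin m ⊕ Fin m → ZMod 2), q (u + v) = q u + q v + (Cfsg.quadFormPlus m (ZMod 2) (u + v) - Cfsg.quadFormPlus m (ZMod 2) u - Cfsg.quadFormPlus m (ZMod 2) v)) →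
      (∃ g : (Fin m ⊕ Fin m → ZMod 2) ≃ₗ[ZMod 2] (Fin m ⊕ Fin m → ZMod 2), ∀ v, q v = Cfsg.quadFormPlus m (ZMod 2) (g v)) ∨
      (∃ g : (Fin m ⊕ Fin m → ZMod 2) ≃ₗ[ZMod 2] ((Fin (m - 1) ⊕ Fin (m - 1)) ⊕ Fin 2 → ZMod 2), ∀ v, q v = Cfsg.quadFormMinus (m - 1) (ZMod 2) 1 1 (g v))) ∧
    Nat.card {q : (Fin m ⊕ Fin m → ZMod 2) → ZMod 2 // (∀ u v : (Fin m ⊕ Fin m → ZMod 2), q (u + v) = q u + q v + (Cfsg.quadFormPlus m (ZMod 2) (u + v) - Cfsg.quadFormPlus m (ZMod 2) u - Cfsg.quadFormPlus m (ZMod 2) v)) ∧ ∃ g : (Fin m ⊕ Fin m → ZMod 2) ≃ₗ[ZMod 2] (Fin m ⊕ Fin m → ZMod 2), ∀ v, q v = Cfsg.quadFormPlus m (ZMod 2) (g v)} = 2 ^ (2 * m - 1) + 2 ^ (m - 1) ∧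
    Nat.card {q : (Fin m ⊕ Fin m → ZMod 2) → ZMod 2 // (∀ u v : (Fin m ⊕ Fin m → ZMod 2), q (u + v) = q u + q v + (Cfsg.quadFormPlus m (ZMod 2) (u + v) - Cfsg.quadFormPlus m (ZMod 2) u - Cfsg.quadFormPlus m (ZMod 2) v)) ∧ ∃ g : (Fin m ⊕ Fin m → ZMod 2) ≃ₗ[ZMod 2] ((Fin (m - 1) ⊕ Fin (m - 1)) ⊕ Fin 2 → ZMod 2), ∀ v, q v = Cfsg.quadFormMinus (m - 1) (ZMod 2) 1 1 (g v)} = 2 ^ (2 * m - 1) - 2 ^ (m - 1) := by
  classical
  open Cfsg.Agent.Lib.F2Quad in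
  obtain ⟨k, rfl⟩ : ∃ k, m = k + 1 := ⟨m - 1, by omega⟩
  refine ⟨Cfsg.Agent.Lib.F2Quad.card_isPol (k + 1), ?_, ?_, ?_⟩
  · intro q hq
    obtain ⟨w, rfl⟩ := Cfsg.Agent.Lib.F2Quad.exists_rep hq
    have hc : ∀ c : ZMod 2, c = 0 ∨ c = 1 := by decide
    rcases hc (Cfsg.Agent.Lib.F2Quad.Q (k + 1) w) with h | h
    · exact Or.inl (Cfsg.Agent.Lib.F2Quad.plus_of_Q_zero h)
    · exact Or.inr (Cfsg.Agent.Lib.F2Quad.minus_of_Q_one h)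
  · have := Cfsg.Agent.Lib.F2Quad.card_subtype_rep (m := k + 1)
      (fun q => ∃ g : (Fin (k + 1) ⊕ Fin (k + 1) → ZMod 2) ≃ₗ[ZMod 2] (Fin (k + 1) ⊕ Fin (k + 1) → ZMod 2),
        ∀ v, q v = Cfsg.quadFormPlus (k + 1) (ZMod 2) (g v))
      (fun w => Cfsg.Agent.Lib.F2Quad.Q (k + 1) w = 0)
      (fun w => Cfsg.Agent.Lib.F2Quad.plus_iff)
    exact this.trans (Cfsg.Agent.Lib.F2Quad.card_Q_zero (by omega))
  · have := Cfsg.Agent.Lib.F2Quad.card_subtype_rep (m := k + 1)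
      (fun q => ∃ g : (Fin (k + 1) ⊕ Fin (k + 1) → ZMod 2) ≃ₗ[ZMod 2] ((Fin k ⊕ Fin k) ⊕ Fin 2 → ZMod 2),
        ∀ v, q v = Cfsg.quadFormMinus k (ZMod 2) 1 1 (g v))
      (fun w => Cfsg.Agent.Lib.F2Quad.Q (k + 1) w = 1)
      (fun w => Cfsg.Agent.Lib.F2Quad.minus_iff)
    exact this.trans (Cfsg.Agent.Lib.F2Quad.card_Q_one (by omega))

end Cfsg.Agent.S2561
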