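import Mathlib
import Cfsg.Statements.S2562
import Cfsg.Agent.Lib.F2Quad
-- import your own Cfsg.Agent.* helpers here

set_option autoImplicit false
open Cfsg

namespace Cfsg.Agent.S2562

/-- Witt indices over the field of two elements, m ≥ 1: for the plus-type form Σ xᵢyᵢ in dimension 2m some m-dimensional subspace is totally singular and no totally singular subspace has larger dimension; for the minus-type form Σ xᵢyᵢ + (z₁² + z₁z₂ + z₂²) in dimension 2m the maximal dimension of a totally singular subspace is m − 1. -/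
theorem result (m : ℕ) (hm : 1 ≤ m) :
    (∃ U : Submodule (ZMod 2) (Fin m ⊕ Fin m → ZMod 2), (∀ u ∈ U, Cfsg.quadFormPlus m (ZMod 2) u = 0) ∧ Module.finrank (ZMod 2) ↥U = m) ∧
    (∀ U : Submodule (ZMod 2) (Fin m ⊕ Fin m → ZMod 2), (∀ u ∈ U, Cfsg.quadFormPlus m (ZMod 2) u = 0) → Module.finrank (ZMod 2) ↥U ≤ m) ∧
    (∃ U : Submodule (ZMod 2) ((Fin (m - 1) ⊕ Fin (m - 1)) ⊕ Fin 2 → ZMod 2), (∀ u ∈ U, Cfsg.quadFormMinus (m - 1) (ZMod 2) 1 1 u = 0) ∧ Module.finrank (ZMod 2) ↥U = m - 1) ∧
    (∀ U : Submodule (ZMod 2) ((Fin (m - 1) ⊕ Fin (m - 1)) ⊕ Fin 2 → ZMod 2), (∀ u ∈ U, Cfsg.quadFormMinus (m - 1) (ZMod 2) 1 1 u = 0) → Module.finrank (ZMod 2) ↥U ≤ m - 1) := by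
  classical
  obtain ⟨k, rfl⟩ : ∃ k, m = k + 1 := ⟨m - 1, by omega⟩
  refine ⟨?_, ?_, ?_, ?_⟩
  · -- the standard totally singular subspace
    let ι : (Fin (k + 1) → ZMod 2) →ₗ[ZMod 2] (Fin (k + 1) ⊕ Fin (k + 1) → ZMod 2) :=
      { toFun := fun x => Sum.elim x 0
        map_add' := fun x y => by
          funext j
          rcases j with i | i <;> simp
        map_smul' := fun c x => by
          funext j
          rcases j with i | i <;> simp }
    have hι : Function.Injective ι := fun x y h => by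
      funext i
      exact congrFun h (.inl i)
    refine ⟨LinearMap.range ι, ?_, ?_⟩
    · rintro _ ⟨x, rfl⟩
      simp [ι, Cfsg.quadFormPlus]
    · rw [LinearMap.finrank_range_of_inj hι]
      simp
  · intro U hU
    exact Cfsg.Agent.Lib.F2Quad.finrank_le_of_singular (Cfsg.Agent.Lib.F2Quad.isPol_Q (k + 1)) hU
  · let ι : (Fin k → ZMod 2) →ₗ[ZMod 2] ((Fin k ⊕ Fin k) ⊕ Fin 2 → ZMod 2) :=
      { toFun := fun x => Sum.elim (Sum.elim x 0) 0
        map_add' := fun x y => by
          funext j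
          rcases j with (i | i) | i <;> simp
        map_smul' := fun c x => by
          funext j
          rcases j with (i | i) | i <;> simp }
    have hι : Function.Injective ι := fun x y h => by
      funext i
      exact congrFun h (.inl (.inl i))
    refine ⟨LinearMap.range ι, ?_, ?_⟩
    · rintro _ ⟨x, rfl⟩
      simp [ι, Cfsg.quadFormMinus]
    · refine (LinearMap.finrank_range_of_inj hι).trans ?_
      simp
  · intro U hU
    let g := Cfsg.Agent.Lib.F2Quad.g0 k
    let U' : Submodule (ZMod 2) (Fin (k + 1) ⊕ Fin (k + 1) → ZMod 2) := U.comap g.toLinearMap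
    have hU' : ∀ u ∈ U', Cfsg.Agent.Lib.F2Quad.qw (Cfsg.Agent.Lib.F2Quad.w0 k) u = 0 := by
      intro u hu
      rw [Cfsg.Agent.Lib.F2Quad.qw_w0]
      exact hU _ hu
    have hle := Cfsg.Agent.Lib.F2Quad.finrank_le_of_singular_of_Q_one
      (Cfsg.Agent.Lib.F2Quad.Q_w0 k) hU'
    have heq : Module.finrank (ZMod 2) U' = Module.finrank (ZMod 2) U := by
      have e : U' = U.map g.symm.toLinearMap := by
        exact (Submodule.map_equiv_eq_comap_symm g.symm U).symm
      rw [e]
      exact LinearEquiv.finrank_map_eq g.symm U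
    rw [heq] at hle
    exact hle

end Cfsg.Agent.S2562
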