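import Mathlib
import Cfsg.Statements.S2564
import Cfsg.Agent.Lib.F2Quad
-- import your own Cfsg.Agent.* helpers here

set_option autoImplicit false
open Cfsg

namespace Cfsg.Agent.S2564

/-- On the 2m-dimensional space over the field of two elements (m ≥ 1) let f be the alternating form obtained by polarizing the plus-type form Σ xᵢyᵢ, and let q be any quadratic form polarizing to f. For a vector w, the function q + f(·, w) again polarizes to f, and it is equivalent to q under an invertible linear map (that is, has the same type) if and only if q(w) = 0. -/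
theorem result (m : ℕ) (hm : 1 ≤ m) (q : (Fin m ⊕ Fin m → ZMod 2) → ZMod 2) (hq : (∀ u v : (Fin m ⊕ Fin m → ZMod 2), q (u + v) = q u + q v + (Cfsg.quadFormPlus m (ZMod 2) (u + v) - Cfsg.quadFormPlus m (ZMod 2) u - Cfsg.quadFormPlus m (ZMod 2) v))) (w : (Fin m ⊕ Fin m → ZMod 2)) :
    (∀ u v : (Fin m ⊕ Fin m → ZMod 2), (q (u + v) + (Cfsg.quadFormPlus m (ZMod 2) (u + v + w) - Cfsg.quadFormPlus m (ZMod 2) (u + v) - Cfsg.quadFormPlus m (ZMod 2) w)) =
        (q u + (Cfsg.quadFormPlus m (ZMod 2) (u + w) - Cfsg.quadFormPlus m (ZMod 2) u - Cfsg.quadFormPlus m (ZMod 2) w)) + (q v + (Cfsg.quadFormPlus m (ZMod 2) (v + w) - Cfsg.quadFormPlus m (ZMod 2) v - Cfsg.quadFormPlus m (ZMod 2) w)) +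
        (Cfsg.quadFormPlus m (ZMod 2) (u + v) - Cfsg.quadFormPlus m (ZMod 2) u - Cfsg.quadFormPlus m (ZMod 2) v)) ∧
    ((∃ g : (Fin m ⊕ Fin m → ZMod 2) ≃ₗ[ZMod 2] (Fin m ⊕ Fin m → ZMod 2), ∀ v, q v + (Cfsg.quadFormPlus m (ZMod 2) (v + w) - Cfsg.quadFormPlus m (ZMod 2) v - Cfsg.quadFormPlus m (ZMod 2) w) = q (g v)) ↔ q w = 0) := by
  classical
  have hP : Cfsg.Agent.Lib.F2Quad.IsPol q := hq
  have hpol := @Cfsg.Agent.Lib.F2Quad.pol_eq m
  simp only [hpol]
  constructor
  · intro u v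
    rw [hP.add u v, map_add, LinearMap.add_apply]
    ring
  · constructor
    · rintro ⟨g, hg⟩
      by_contra hne
      have hq1 : q w = 1 := by
        have hc : ∀ c : ZMod 2, c ≠ 0 → c = 1 := by decide
        exact hc _ hne
      have h1 := Cfsg.Agent.Lib.F2Quad.S_congr g.toEquiv
        (fun v => q v + Cfsg.Agent.Lib.F2Quad.f m v w) q hg
      rw [Cfsg.Agent.Lib.F2Quad.S_shift hP, hq1, Cfsg.Agent.Lib.F2Quad.chi_one] at h1
      have h2 := Cfsg.Agent.Lib.F2Quad.S_ne_zero hP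
      omega
    · intro h0
      exact ⟨Cfsg.Agent.Lib.F2Quad.tv w, fun v => (hP.tv_apply h0 v).symm⟩

end Cfsg.Agent.S2564
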