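import Mathlib
import Cfsg.Statements.S2565
import Cfsg.Agent.Lib.F2Even
import Cfsg.Agent.Lib.OrthoOrder
-- import your own Cfsg.Agent.* helpers here

set_option autoImplicit false
open Cfsg

namespace Cfsg.Agent.S2565

/-- The commutator subgroup of the full orthogonal group of the plus-type form Σ xᵢyᵢ in dimension 6 over the field of two elements (the group Ω⁺₆(2), of index 2) is isomorphic to the alternating group of degree 8. -/
theorem result :
    (Cfsg.Omega (ZMod 2) (Cfsg.quadFormPlus 3 (ZMod 2))).index = 2 ∧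
    Nonempty (↥(Cfsg.Omega (ZMod 2) (Cfsg.quadFormPlus 3 (ZMod 2))) ≃* alternatingGroup (Fin 8)) := by
  classical
  obtain ⟨φ, hφ⟩ := Cfsg.Agent.Lib.F2Even.exists_hom_plus (k := 1) (X := Fin 8) (by decide) (by simp)
  have hc : Nat.card ↥(Cfsg.isometryGroup (ZMod 2) (Cfsg.quadFormPlus 3 (ZMod 2))) = Nat.card (Equiv.Perm (Fin 8)) := by
    rw [Cfsg.Agent.Lib.OrthoOrder.card_isometry_plus (ZMod.card 2) 3 (by norm_num), Nat.card_perm]
    simp [Finset.prod_range_succ, Nat.factorial]
  have hb : Function.Bijective φ := by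
    rw [Nat.bijective_iff_injective_and_card]
    exact ⟨hφ, hc.symm⟩
  let E : Equiv.Perm (Fin 8) ≃* ↥(Cfsg.isometryGroup (ZMod 2) (Cfsg.quadFormPlus 3 (ZMod 2))) :=
    MulEquiv.ofBijective φ hb
  have hcomm : (alternatingGroup (Fin 8)).map E.toMonoidHom = Cfsg.Omega (ZMod 2) (Cfsg.quadFormPlus 3 (ZMod 2)) := by
    rw [← alternatingGroup.commutator_perm_eq (by simp), map_commutator_eq]
    have : E.toMonoidHom.range = ⊤ := MonoidHom.range_eq_top.mpr E.surjective
    rw [this]
    rfl
  refine ⟨?_, ⟨?_⟩⟩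
  · rw [← hcomm]
    have := Subgroup.index_map_equiv (H := alternatingGroup (Fin 8)) E
    exact this.trans alternatingGroup.index_eq_two
  · rw [← hcomm]
    exact (E.subgroupMap (alternatingGroup (Fin 8))).symm

end Cfsg.Agent.S2565
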