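import Mathlib
import Cfsg.Statements.S2566
import Cfsg.Agent.Lib.OrthoOrder
-- import your own Cfsg.Agent.* helpers here

set_option autoImplicit false
open Cfsg

namespace Cfsg.Agent.S2566


open Equiv Matrix

abbrev ι := Fin 2 ⊕ Fin 2

def u : Fin 3 → (Fin 2 → ZMod 2) := ![![1,0],![0,1],![1,1]]

def M (σ : Perm (Fin 3)) : Matrix (Fin 2) (Fin 2) (ZMod 2) :=
  Matrix.of fun r c => u (σ (Fin.castSucc c)) r

def P : Matrix (Fin 2) (Fin 2) (ZMod 2) := !![0,1;1,0]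

def lm (A : Matrix (Fin 2) (Fin 2) (ZMod 2)) : Matrix ι ι (ZMod 2) :=
  fromBlocks (A 0 0 • 1) (A 0 1 • P) (A 1 0 • P) (A 1 1 • 1)

def rm (A : Matrix (Fin 2) (Fin 2) (ZMod 2)) : Matrix ι ι (ZMod 2) :=
  fromBlocks A 0 0 !![A 1 1, A 1 0; A 0 1, A 0 0]

def T : Matrix ι ι (ZMod 2) :=
  (Equiv.toPEquiv (Equiv.swap (Sum.inl 1) (Sum.inr 1))).toMatrix

abbrev L (σ : Perm (Fin 3)) : Matrix ι ι (ZMod 2) := lm (M σ)
abbrev R (σ : Perm (Fin 3)) : Matrix ι ι (ZMod 2) := rm (M σ)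

abbrev QQ : (ι → ZMod 2) → ZMod 2 := Cfsg.quadFormPlus 2 (ZMod 2)

set_option maxRecDepth 100000

theorem L_mul : ∀ σ τ : Perm (Fin 3), L (σ * τ) = L σ * L τ := by decide
theorem R_mul : ∀ σ τ : Perm (Fin 3), R (σ * τ) = R σ * R τ := by decide
theorem L_one : L 1 = 1 := by decide
theorem R_one : R 1 = 1 := by decide
theorem LR_comm : ∀ σ τ : Perm (Fin 3), L σ * R τ = R τ * L σ := by decide
theorem L_inj : ∀ σ τ : Perm (Fin 3), L σ = L τ → σ = τ := by decide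
theorem R_inj : ∀ σ τ : Perm (Fin 3), R σ = R τ → σ = τ := by decide
theorem LR_triv : ∀ σ τ : Perm (Fin 3), L σ = R τ → σ = 1 ∧ τ = 1 := by decide
theorem T_sq : T * T = 1 := by decide
theorem T_conj : ∀ σ : Perm (Fin 3), T * L σ * T = R σ := by decide

/-- Isometry check on the coefficient level. -/
theorem QQ_apply (v : ι → ZMod 2) :
    QQ v = v (.inl 0) * v (.inr 0) + v (.inl 1) * v (.inr 1) := by
  simp [Cfsg.quadFormPlus, Fin.sum_univ_two]

theorem L_iso : ∀ (σ : Perm (Fin 3)), ∀ a b c d : ZMod 2,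
    QQ (L σ *ᵥ Sum.elim ![a, b] ![c, d]) = QQ (Sum.elim ![a, b] ![c, d]) := by decide
theorem R_iso : ∀ (σ : Perm (Fin 3)), ∀ a b c d : ZMod 2,
    QQ (R σ *ᵥ Sum.elim ![a, b] ![c, d]) = QQ (Sum.elim ![a, b] ![c, d]) := by decide
theorem T_iso : ∀ a b c d : ZMod 2,
    QQ (T *ᵥ Sum.elim ![a, b] ![c, d]) = QQ (Sum.elim ![a, b] ![c, d]) := by decide

theorem elim_eta (v : ι → ZMod 2) :
    v = Sum.elim ![v (.inl 0), v (.inl 1)] ![v (.inr 0), v (.inr 1)] := by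
  funext j
  rcases j with i | i <;> fin_cases i <;> rfl

/-- `L` as a monoid hom to units. -/
noncomputable def Lm : Perm (Fin 3) →* Matrix ι ι (ZMod 2) where
  toFun := L
  map_one' := L_one
  map_mul' := L_mul

noncomputable def Rm : Perm (Fin 3) →* Matrix ι ι (ZMod 2) where
  toFun := R
  map_one' := R_one
  map_mul' := R_mul

abbrev GG := Cfsg.isometryGroup (ZMod 2) QQ

noncomputable def φ₁ : Perm (Fin 3) →* GG :=
  (MonoidHom.toHomUnits Lm).codRestrict _ (fun σ u' _ => by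
    change QQ (L σ *ᵥ u') = QQ u'
    rw [elim_eta u']
    exact L_iso σ _ _ _ _)

noncomputable def φ₂ : Perm (Fin 3) →* GG :=
  (MonoidHom.toHomUnits Rm).codRestrict _ (fun σ u' _ => by
    change QQ (R σ *ᵥ u') = QQ u'
    rw [elim_eta u']
    exact R_iso σ _ _ _ _)

theorem φ₁_val (σ : Perm (Fin 3)) : (((φ₁ σ : GG) : GL ι (ZMod 2)) : Matrix ι ι (ZMod 2)) = L σ := rfl
theorem φ₂_val (σ : Perm (Fin 3)) : (((φ₂ σ : GG) : GL ι (ZMod 2)) : Matrix ι ι (ZMod 2)) = R σ := rfl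

theorem GG_ext {x y : GG} (h : ((x : GL ι (ZMod 2)) : Matrix ι ι (ZMod 2)) = (y : GL ι (ZMod 2))) :
    x = y := Subtype.ext (Units.ext h)

theorem φ₁_inj : Function.Injective φ₁ := fun σ τ h =>
  L_inj σ τ (congrArg (fun x : GG => ((x : GL ι (ZMod 2)) : Matrix ι ι (ZMod 2))) h)

theorem φ₂_inj : Function.Injective φ₂ := fun σ τ h =>
  R_inj σ τ (congrArg (fun x : GG => ((x : GL ι (ZMod 2)) : Matrix ι ι (ZMod 2))) h)

/-- The swap element. -/
noncomputable def tt : GG :=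
  ⟨⟨T, T, T_sq, T_sq⟩, fun u' _ => by
    change QQ (T *ᵥ u') = QQ u'
    rw [elim_eta u']
    exact T_iso _ _ _ _⟩

theorem φ_comm (σ τ : Perm (Fin 3)) : Commute (φ₁ σ) (φ₂ τ) := GG_ext (LR_comm σ τ)

theorem card_GG : Nat.card GG = 72 := by
  have := Cfsg.Agent.Lib.OrthoOrder.card_isometry_plus (F := ZMod 2) (q := 2) (ZMod.card 2) 2 (by norm_num)
  rw [this]
  decide

/-- The full orthogonal group of the plus-type form x₁y₁ + x₂y₂ in dimension 4 over the field of two elements has order 72 and is isomorphic to the wreath product of the symmetric group of degree 3 by a group of order 2: it has a normal subgroup isomorphic to the direct product of two symmetric groups of degree 3, of index 2, whose two direct factors are interchanged by conjugation by some element. -/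
theorem result :
    Nat.card ↥(Cfsg.isometryGroup (ZMod 2) (Cfsg.quadFormPlus 2 (ZMod 2))) = 72 ∧
    ∃ (A B : Subgroup ↥(Cfsg.isometryGroup (ZMod 2) (Cfsg.quadFormPlus 2 (ZMod 2)))),
      Nonempty (↥A ≃* Equiv.Perm (Fin 3)) ∧ Nonempty (↥B ≃* Equiv.Perm (Fin 3)) ∧ A ⊓ B = ⊥ ∧ (∀ a ∈ A, ∀ b ∈ B, a * b = b * a) ∧
      (A ⊔ B).index = 2 ∧ ∃ g : ↥(Cfsg.isometryGroup (ZMod 2) (Cfsg.quadFormPlus 2 (ZMod 2))), A.map (MulAut.conj g).toMonoidHom = B := by
  classical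
  refine ⟨card_GG, φ₁.range, φ₂.range, ⟨(MonoidHom.ofInjective φ₁_inj).symm⟩,
    ⟨(MonoidHom.ofInjective φ₂_inj).symm⟩, ?_, ?_, ?_, tt, ?_⟩
  · rw [eq_bot_iff]
    rintro x ⟨⟨σ, rfl⟩, ⟨τ, hτ⟩⟩
    have := LR_triv σ τ (congrArg (fun x : GG => ((x : GL ι (ZMod 2)) : Matrix ι ι (ZMod 2))) hτ.symm)
    rw [this.1, map_one]
    exact Subgroup.one_mem _
  · rintro _ ⟨σ, rfl⟩ _ ⟨τ, rfl⟩
    exact φ_comm σ τ
  · -- the index
    let ψ : Perm (Fin 3) × Perm (Fin 3) →* GG := MonoidHom.noncommCoprod φ₁ φ₂ φ_comm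
    have hψ : Function.Injective ψ := by
      rintro ⟨a, b⟩ ⟨c, d⟩ h
      have h' : φ₁ a * φ₂ b = φ₁ c * φ₂ d := h
      have h2 : φ₁ (c⁻¹ * a) = φ₂ (d * b⁻¹) := by
        rw [map_mul, map_mul, map_inv, map_inv]
        have hc := (φ_comm c⁻¹ b)
        calc (φ₁ c)⁻¹ * φ₁ a = (φ₁ c)⁻¹ * (φ₁ a * φ₂ b) * (φ₂ b)⁻¹ := by group
          _ = (φ₁ c)⁻¹ * (φ₁ c * φ₂ d) * (φ₂ b)⁻¹ := by rw [h']
          _ = φ₂ d * (φ₂ b)⁻¹ := by group
      have h3 := LR_triv _ _ (congrArg (fun x : GG => ((x : GL ι (ZMod 2)) : Matrix ι ι (ZMod 2))) h2)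
      have ha : a = c := by
        have := h3.1
        exact (inv_mul_eq_one.mp this).symm
      have hb : b = d := by
        have := h3.2
        exact (mul_inv_eq_one.mp this).symm
      rw [ha, hb]
    have hr : ψ.range = φ₁.range ⊔ φ₂.range := MonoidHom.noncommCoprod_range φ₁ φ₂ φ_comm
    rw [← hr]
    have hc : Nat.card ψ.range = 36 := by
      rw [Nat.card_congr (MonoidHom.ofInjective hψ).toEquiv.symm, Nat.card_prod, Nat.card_perm]
      simp [Nat.factorial]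
    have hi := Subgroup.index_mul_card ψ.range
    rw [hc, card_GG] at hi
    omega
  · ext x
    constructor
    · rintro ⟨_, ⟨σ, rfl⟩, rfl⟩
      refine ⟨σ, GG_ext ?_⟩
      change R σ = T * L σ * T
      exact (T_conj σ).symm
    · rintro ⟨σ, rfl⟩
      refine ⟨φ₁ σ, ⟨σ, rfl⟩, GG_ext ?_⟩
      change T * L σ * T = R σ
      exact T_conj σ

end Cfsg.Agent.S2566
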