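import Mathlib
import Cfsg.Statements.S2567

set_option autoImplicit false
open Cfsg

namespace Cfsg.Agent.S2567

theorem lift_aux {G : Type*} [Group G] {r : ℕ} (hr : r.Prime)
    (hZ : (Nat.card (Subgroup.center G)).Coprime r)
    (x : G ⧸ Subgroup.center G) (hx : orderOf x = r) :
    ∃! g : G, (QuotientGroup.mk g : G ⧸ Subgroup.center G) = x ∧ orderOf g = r := by
  obtain ⟨g₀, rfl⟩ := QuotientGroup.mk_surjective x
  have h1 : g₀ ^ r ∈ Subgroup.center G := by
    rw [← QuotientGroup.eq_one_iff, QuotientGroup.mk_pow, ← hx, pow_orderOf_eq_one]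
  set z : Subgroup.center G := ⟨g₀ ^ r, h1⟩ with hz
  set b : Subgroup.center G := (powCoprime hZ).symm z with hb
  have hbr : b ^ r = z := by
    have := (powCoprime hZ).apply_symm_apply z
    rwa [powCoprime_apply] at this
  have hbc : ∀ y : G, (b : G) * y = y * b := fun y => (Subgroup.mem_center_iff.mp b.2 y).symm
  have hmk : (QuotientGroup.mk (g₀ * (b : G)⁻¹) : G ⧸ Subgroup.center G) = QuotientGroup.mk g₀ := by
    rw [QuotientGroup.eq]
    have : (g₀ * (b : G)⁻¹)⁻¹ * g₀ = (b : G) := by group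
    rw [this]
    exact b.2
  have hcomm : Commute g₀ (b : G)⁻¹ := by
    have h : Commute g₀ (b : G) := (hbc g₀).symm
    exact h.inv_right
  have hpow : (g₀ * (b : G)⁻¹) ^ r = 1 := by
    rw [hcomm.mul_pow, inv_pow]
    have : ((b : G)) ^ r = g₀ ^ r := by
      have := congrArg Subtype.val hbr
      simpa [hz] using this
    rw [this, mul_inv_cancel]
  have hne : g₀ * (b : G)⁻¹ ≠ 1 := by
    intro h
    rw [h] at hmk
    have : (QuotientGroup.mk g₀ : G ⧸ Subgroup.center G) = 1 := hmk.symm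
    rw [this, orderOf_one] at hx
    exact hr.one_lt.ne hx
  have : Fact r.Prime := ⟨hr⟩
  refine ⟨g₀ * (b : G)⁻¹, ⟨hmk, orderOf_eq_prime hpow hne⟩, ?_⟩
  rintro g' ⟨hg', hog'⟩
  have hmem : (g₀ * (b : G)⁻¹)⁻¹ * g' ∈ Subgroup.center G := by
    rw [← QuotientGroup.eq, hmk, hg']
  set c : Subgroup.center G := ⟨(g₀ * (b : G)⁻¹)⁻¹ * g', hmem⟩ with hc
  have hg'eq : g' = (g₀ * (b : G)⁻¹) * c := by
    rw [hc]
    show g' = (g₀ * (b : G)⁻¹) * ((g₀ * (b : G)⁻¹)⁻¹ * g')
    group
  have hc1 : c ^ r = 1 := by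
    have h2 : g' ^ r = 1 := by rw [← hog', pow_orderOf_eq_one]
    rw [hg'eq] at h2
    have hcc : Commute (g₀ * (b : G)⁻¹) (c : G) :=
      (Subgroup.mem_center_iff.mp c.2 _)
    rw [hcc.symm.symm.mul_pow, hpow, one_mul] at h2
    ext
    simpa using h2
  have hc2 : c = 1 := by
    apply (powCoprime hZ).injective
    simp [powCoprime_apply, hc1]
  rw [hg'eq, hc2]
  simp

theorem result {F : Type*} [Field F] [Fintype F] {q n r : ℕ} (hF : Fintype.card F = q) (hr : r.Prime) (hdiv : ¬ r ∣ q - 1) (x : GL (Fin n) F ⧸ Subgroup.center (GL (Fin n) F)) (hx : orderOf x = r) : ∃! g : GL (Fin n) F, (QuotientGroup.mk g : GL (Fin n) F ⧸ Subgroup.center (GL (Fin n) F)) = x ∧ orderOf g = r := by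
  classical
  apply lift_aux hr _ x hx
  have hd : Nat.card (Subgroup.center (GL (Fin n) F)) ∣ q - 1 := by
    rw [Matrix.GeneralLinearGroup.center_eq_range_scalar]
    have := Subgroup.card_range_dvd (Matrix.GeneralLinearGroup.scalar (Fin n) (R := F))
    rwa [Nat.card_eq_fintype_card (α := Fˣ), Fintype.card_units, hF] at this
  exact Nat.Coprime.symm ((Nat.Prime.coprime_iff_not_dvd hr).mpr (fun h => hdiv (h.trans hd)))

end Cfsg.Agent.S2567
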