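import Cfsg.Statements.S2568
import Mathlib
import Cfsg.Agent.Lib.PrimeFactors

set_option autoImplicit false
open Cfsg

namespace Cfsg.Agent.S2568

open Cfsg.Agent.Lib.PrimeFactors Cfsg.Agent.Lib.SemisimpleGL

/-- Number of conjugacy classes of elements of a given prime order r, coprime to the characteristic, in GL_n(q): if i is the multiplicative order of q modulo r and t = (r − 1)/i, the classes correspond to the non-zero t-tuples of natural numbers (a_1, …, a_t) with i(a_1 + ⋯ + a_t) ≤ n (a_j is the multiplicity of the j-th Frobenius orbit of nontrivial r-th roots of unity among the eigenvalues), so there are exactly C(⌊n/i⌋ + t, t) − 1 of them. -/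
theorem result {F : Type*} [Field F] [Fintype F] {p q : ℕ} [Fact p.Prime] [CharP F p] (hF : Fintype.card F = q) (n r i t : ℕ) (hr : r.Prime) (hrp : r ≠ p) (hi : i = orderOf (q : ZMod r)) (ht : t * i = r - 1) : Nat.card {C : ConjClasses (GL (Fin n) F) // ∃ g : GL (Fin n) F, ConjClasses.mk g = C ∧ orderOf g = r} = Nat.choose (n / i + t) t - 1 := by
  classical
  subst hF
  subst hi
  haveI : Fact r.Prime := ⟨hr⟩
  have hpp : p.Prime := Fact.out
  have hr0 := hr.ne_zero
  have hrF : (r : F) ≠ 0 := by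
    rw [Ne, CharP.cast_eq_zero_iff F p]
    intro hd
    exact hrp ((Nat.prime_dvd_prime_iff_eq hpp hr).1 hd).symm
  have hcard := card_Idx (F := F) (r := r) hrF
  obtain ⟨i, hi⟩ : ∃ i, i = orderOf ((Fintype.card F : ℕ) : ZMod r) := ⟨_, rfl⟩
  rw [← hi] at ht hcard ⊢
  have hr2 := hr.two_le
  have hipos : 0 < i := by
    rcases Nat.eq_zero_or_pos i with h | h
    · rw [h, mul_zero] at hcard
      omega
    · exact h
  have htc : Fintype.card ↥(Idx F r) = t := Nat.eq_of_mul_eq_mul_right hipos (hcard.trans ht.symm)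
  rw [← htc, ← card_tuples_ne (ι := ↥(Idx F r)) (n / i)]
  symm
  have hiff : ∀ a : ↥(Idx F r) → ℕ, ∑ j, a j ≤ n / i ↔ orderOf ((Fintype.card F : ℕ) : ZMod r) * ∑ j, a j ≤ n := by
    intro a
    rw [Nat.le_div_iff_mul_le hipos, mul_comm, hi]
  have hex : ∀ a : {a : ↥(Idx F r) → ℕ // a ≠ 0 ∧ ∑ j, a j ≤ n / i},
      ∃ g : GL (Fin n) F, (g : Matrix (Fin n) (Fin n) F).charpoly = Pa F r n a.1 ∧ orderOf g = r := by
    rintro ⟨a, ha, hs⟩
    have hs' := (hiff a).1 hs
    have hm : (Pa F r n a).Monic := Pa_monic hr0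
    have hd := Pa_natDegree (n := n) (a := a) hrF hs'
    obtain ⟨A, m, hAm, hco, hA⟩ := mat_exists p (Pa F r n a) hm hd
      (coeff_zero_of_supp hr0 hm (fun g hg hgd => Pa_dvd hr0 hg hgd))
    have hAr : A ^ r = 1 := pow_eq_one_of_dvd (cast_ne_of_coprime (F := F) p hco) hAm r
      (fun g _ hg hgd => Pa_dvd hr0 hg (hA ▸ hgd))
    have hA1 : A ≠ 1 := by
      rintro rfl
      rw [Matrix.charpoly_one, Fintype.card_fin] at hA
      apply ha
      apply Pa_inj (n := n) hrF hr0
      rw [← hA, Pa]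
      simp
    refine ⟨Units.ofPowEqOne A r hAr hr0, hA, orderOf_eq_prime ?_ ?_⟩
    · apply Units.ext
      exact hAr
    · intro h
      exact hA1 (congrArg Units.val h)
  choose elt hchar hord using hex
  refine Nat.card_eq_of_bijective (fun a => ⟨ConjClasses.mk (elt a), elt a, rfl, hord a⟩) ⟨?_, ?_⟩
  · intro a a' h
    have h1 : ConjClasses.mk (elt a) = ConjClasses.mk (elt a') := congrArg Subtype.val h
    rw [ConjClasses.mk_eq_mk_iff_isConj, isConj_iff] at h1
    obtain ⟨c, hc⟩ := h1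
    apply Subtype.ext
    apply Pa_inj (n := n) hrF hr0
    rw [← hchar a, ← hchar a', ← hc]
    show _ = (c.val * (elt a).val * (c⁻¹).val).charpoly
    rw [Matrix.charpoly_mul_comm, ← mul_assoc, Units.inv_mul, one_mul]
  · rintro ⟨C, g, rfl, hg⟩
    have hmonic := Matrix.charpoly_monic (g : Matrix (Fin n) (Fin n) F)
    have hdeg : (g : Matrix (Fin n) (Fin n) F).charpoly.natDegree = n := by
      rw [Matrix.charpoly_natDegree_eq_dim, Fintype.card_fin]
    have hgr : (g : Matrix (Fin n) (Fin n) F) ^ r = 1 := by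
      rw [← Units.val_pow_eq_pow_val, ← hg, pow_orderOf_eq_one]
      rfl
    obtain ⟨a, ha, haeq⟩ := exists_Pa (n := n) hrF hmonic hdeg
      (fun f hf hfd => dvd_of_pow_eq_one hrF hgr hf hfd)
    have ha0 : a ≠ 0 := by
      rintro rfl
      have hgone : (g : Matrix (Fin n) (Fin n) F) ^ 1 = 1 := by
        refine pow_eq_one_of_dvd hrF hgr 1 (fun f _ hf hfd => ?_)
        rw [haeq, Pa] at hfd
        simp only [Pi.zero_apply, pow_zero, Finset.prod_const_one, mul_one] at hfd
        rw [pow_one]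
        exact hf.prime.dvd_of_dvd_pow hfd
      have h1 : g = 1 := by
        apply Units.ext
        rw [pow_one] at hgone
        exact hgone
      rw [h1, orderOf_one] at hg
      omega
    refine ⟨⟨a, ha0, (hiff a).2 ha⟩, Subtype.ext ?_⟩
    obtain ⟨a', ha'⟩ : ∃ a' : {a : ↥(Idx F r) → ℕ // a ≠ 0 ∧ ∑ j, a j ≤ n / i}, a' = ⟨a, ha0, (hiff a).2 ha⟩ := ⟨_, rfl⟩
    rw [← ha']
    show ConjClasses.mk (elt a') = ConjClasses.mk g
    rw [ConjClasses.mk_eq_mk_iff_isConj, isConj_iff]
    have hA : ((elt a' : GL (Fin n) F) : Matrix (Fin n) (Fin n) F) ^ r = 1 := by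
      rw [← Units.val_pow_eq_pow_val, ← hord a', pow_orderOf_eq_one]
      rfl
    have hc : ((elt a' : GL (Fin n) F) : Matrix (Fin n) (Fin n) F).charpoly = (g : Matrix (Fin n) (Fin n) F).charpoly := by
      rw [hchar, ha', haeq]
    obtain ⟨Y, hY, hYA⟩ := mat_conj hrF hrF hA hgr hc
    refine ⟨Matrix.GeneralLinearGroup.mkOfDetNeZero Y hY, ?_⟩
    rw [mul_inv_eq_iff_eq_mul]
    apply Units.ext
    exact hYA

end Cfsg.Agent.S2568
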