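import Mathlib
import Cfsg.Statements.S2569

set_option autoImplicit false
open Cfsg

namespace Cfsg.Agent.S2569

open Polynomial Module

section abstract

variable {F V : Type*} [Field F] [Finite F] [AddCommGroup V] [Module F V] [FiniteDimensional F V]

/-- Existence of an irreducible `f` and a nonzero vector killed by `f(x)`. -/
theorem exists_irreducible_vector [Nontrivial V] (x : End F V) :
    ∃ (f : F[X]) (v : V), Irreducible f ∧ v ≠ 0 ∧ aeval x f v = 0 := by
  have hint : IsIntegral F x := Algebra.IsIntegral.isIntegral x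
  set m := minpoly F x with hm
  have hm0 : m ≠ 0 := minpoly.ne_zero hint
  have hmu : ¬ IsUnit m := by
    intro hu
    have h1 : m = 1 := by
      have hmonic : m.Monic := minpoly.monic hint
      exact hmonic.eq_one_of_isUnit hu
    have h2 : aeval x m = 0 := minpoly.aeval F x
    rw [h1, map_one] at h2
    exact one_ne_zero h2
  obtain ⟨f, hf, g, hg⟩ := WfDvdMonoid.exists_irreducible_factor hmu hm0
  have hg0 : aeval x g ≠ 0 := by
    intro h0
    have hd : m ∣ g := minpoly.dvd F x h0
    obtain ⟨k, hk⟩ := hd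
    have hg0' : g ≠ 0 := by
      rintro rfl
      exact hm0 (by rw [hg, mul_zero])
    have : f * k = 1 := by
      apply mul_left_cancel₀ hg0'
      calc g * (f * k) = (f * g) * k := by ring
        _ = g * 1 := by rw [← hg, mul_one, ← hk]
    exact hf.not_isUnit (IsUnit.of_mul_eq_one _ this)
  obtain ⟨w, hw⟩ : ∃ w, aeval x g w ≠ 0 := by
    by_contra hcon
    push Not at hcon
    exact hg0 (LinearMap.ext hcon)
  refine ⟨f, aeval x g w, hf, hw, ?_⟩
  have h2 : aeval x m = 0 := minpoly.aeval F x
  rw [hg, map_mul] at h2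
  have := congrArg (fun T : End F V => T w) h2
  simpa using this

/-- The centralizer of a semisimple endomorphism of a nonzero space surjects onto the scalars by the
determinant. -/
theorem exists_commuting_det [Nontrivial V] (x : End F V) (hss : x.IsSemisimple) (d : F)
    (hd : d ≠ 0) :
    ∃ c : V ≃ₗ[F] V, (∀ v, c (x v) = x (c v)) ∧ LinearMap.det (c : V →ₗ[F] V) = d := by
  classical
  obtain ⟨f, v, hf, hv, hfv⟩ := exists_irreducible_vector x
  have : Fact (Irreducible f) := ⟨hf⟩
  let K := AdjoinRoot f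
  have : Module.Finite F K := (AdjoinRoot.powerBasis hf.ne_zero).finite
  have : Finite K := Module.finite_of_finite F
  -- the linear map P ↦ P(x) v
  let φ : F[X] →ₗ[F] V := (LinearMap.applyₗ v) ∘ₗ (aeval x).toLinearMap
  have hφ : ∀ P, φ P = aeval x P v := fun P => rfl
  let mkL : F[X] →ₗ[F] K := (AdjoinRoot.mkₐ f).toLinearMap
  have hmkL : ∀ P, mkL P = AdjoinRoot.mk f P := fun P => rfl
  have hmk_surj : Function.Surjective mkL := AdjoinRoot.mk_surjective
  obtain ⟨s, hs⟩ := mkL.exists_rightInverse_of_surjective (LinearMap.range_eq_top.mpr hmk_surj)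
  let J : K →ₗ[F] V := φ ∘ₗ s
  have hJ : ∀ P, J (AdjoinRoot.mk f P) = aeval x P v := by
    intro P
    show φ (s (AdjoinRoot.mk f P)) = _
    have h1 : mkL (s (mkL P)) = mkL P := by
      have := congrArg (fun T : K →ₗ[F] K => T (mkL P)) hs
      simpa using this
    have h2 : AdjoinRoot.mk f (s (AdjoinRoot.mk f P) - P) = 0 := by
      rw [map_sub, sub_eq_zero]
      exact h1
    obtain ⟨q, hq⟩ := AdjoinRoot.mk_eq_zero.mp h2
    have h3 : s (AdjoinRoot.mk f P) = P + q * f := by
      rw [mul_comm, ← hq]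
      ring
    rw [hφ, h3, map_add, map_mul]
    simp [hfv]
  have hJmul : ∀ Q a, J (AdjoinRoot.mk f Q * a) = aeval x Q (J a) := by
    intro Q a
    obtain ⟨P, rfl⟩ := AdjoinRoot.mk_surjective a
    rw [← map_mul, hJ, hJ, map_mul]
    rfl
  have hJinj : Function.Injective J := by
    rw [← LinearMap.ker_eq_bot, LinearMap.ker_eq_bot']
    intro a ha
    by_contra hne
    obtain ⟨Q, hQ⟩ := AdjoinRoot.mk_surjective a⁻¹
    have h1 : J (AdjoinRoot.mk f Q * a) = 0 := by
      rw [hJmul, ha, map_zero]
    rw [hQ, inv_mul_cancel₀ hne] at h1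
    have h2 : J (AdjoinRoot.mk f 1) = 0 := by rwa [map_one]
    rw [hJ] at h2
    simp at h2
    exact hv h2
  -- the root acts as x
  let r : K := AdjoinRoot.root f
  have hJr : ∀ a, J (r * a) = x (J a) := by
    intro a
    have := hJmul X a
    simpa [r, AdjoinRoot.mk_X] using this
  -- the invariant complement
  let U := LinearMap.range J
  have hU : U ∈ End.invtSubmodule x := by
    rw [End.mem_invtSubmodule]
    rintro _ ⟨a, rfl⟩
    exact ⟨r * a, hJr a⟩
  obtain ⟨W, hW, hUW⟩ := (End.isSemisimple_iff.mp hss) U hU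
  rw [End.mem_invtSubmodule] at hW
  -- the isomorphism K × W ≃ V
  let E : (K × W) ≃ₗ[F] V :=
    (LinearEquiv.prodCongr (LinearEquiv.ofInjective J hJinj) (LinearEquiv.refl F W)).trans
      (Submodule.prodEquivOfIsCompl U W hUW)
  have hE : ∀ a w, E (a, w) = J a + (w : V) := fun a w => rfl
  obtain ⟨l, hl⟩ := FiniteField.norm_surjective F K d
  have hl0 : l ≠ 0 := by
    rintro rfl
    rw [Algebra.norm_zero] at hl
    exact hd hl.symm
  let M : K ≃ₗ[F] K := LinearEquiv.ofLinearMap (LinearMap.mulLeft F l) (LinearMap.mulLeft F l⁻¹)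
    (by
      ext a
      simp [hl0])
    (by
      ext a
      simp [hl0])
  let T : (K × W) ≃ₗ[F] (K × W) := LinearEquiv.prodCongr M (LinearEquiv.refl F W)
  let c : V ≃ₗ[F] V := (E.symm.trans T).trans E
  refine ⟨c, ?_, ?_⟩
  · intro u
    obtain ⟨⟨a, w⟩, rfl⟩ := E.surjective u
    have hc : ∀ a w, c (E (a, w)) = E (l * a, w) := by
      intro a w
      show E (T (E.symm (E (a, w)))) = _
      rw [LinearEquiv.symm_apply_apply]
      rfl
    have hxE : ∀ a (w : W), x (E (a, w)) = E (r * a, ⟨x w, hW w.2⟩) := by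
      intro a w
      rw [hE, hE, map_add, hJr]
    rw [hxE, hc, hc, hxE, hE, hE]
    congr 2
    ring
  · have h1 : ((c : V ≃ₗ[F] V) : V →ₗ[F] V)
        = (E : (K × W) →ₗ[F] V) ∘ₗ (LinearMap.prodMap (LinearMap.mulLeft F l) LinearMap.id) ∘ₗ (E.symm : V →ₗ[F] (K × W)) := by
      apply LinearMap.ext
      intro u
      rfl
    rw [h1, LinearMap.det_conj, LinearMap.det_prodMap, LinearMap.det_id, mul_one, ← hl,
      Algebra.norm_apply]
    rfl

end abstract

/-- In GL_n over a finite field of characteristic p, the conjugacy class of a semisimple element (an element of order prime to p) under the special linear group is its whole GL-conjugacy class: for every such x and every invertible g there is h of determinant one with h x h⁻¹ = g x g⁻¹. -/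
theorem result {F : Type*} [Field F] [Fintype F] {p : ℕ} [Fact p.Prime] [CharP F p] {n : ℕ} (x g : GL (Fin n) F) (hx : (orderOf x).Coprime p) : ∃ h : GL (Fin n) F, (h : Matrix (Fin n) (Fin n) F).det = 1 ∧ h * x * h⁻¹ = g * x * g⁻¹ := by
  classical
  rcases Nat.eq_zero_or_pos n with rfl | hn
  · refine ⟨1, by simp, ?_⟩
    exact Subsingleton.elim _ _
  have : Nontrivial (Fin n → F) := by
    have : Nonempty (Fin n) := ⟨⟨0, hn⟩⟩
    infer_instance
  let X : End F (Fin n → F) := Matrix.toLin' (x : Matrix (Fin n) (Fin n) F)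
  have hord : x ^ orderOf x = 1 := pow_orderOf_eq_one x
  have hpos : 0 < orderOf x := orderOf_pos x
  have hss : X.IsSemisimple := by
    have hnd : ¬ p ∣ orderOf x := by
      intro h
      have h1 := Nat.Coprime.eq_one_of_dvd hx.symm h
      exact (Fact.out : p.Prime).one_lt.ne' h1
    have hsep := Polynomial.separable_X_pow_sub_C' (F := F) p (orderOf x) 1 hnd one_ne_zero
    apply End.isSemisimple_of_squarefree_aeval_eq_zero hsep.squarefree
    simp only [map_sub, map_pow, aeval_X, aeval_C, map_one]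
    rw [sub_eq_zero]
    show (Matrix.toLin' (x : Matrix (Fin n) (Fin n) F)) ^ orderOf x = _
    rw [← Matrix.toLin'_pow, ← Units.val_pow_eq_pow_val, hord]
    simp
    rfl
  have hdet : ((g : Matrix (Fin n) (Fin n) F).det)⁻¹ ≠ 0 := by
    apply inv_ne_zero
    exact (Matrix.isUnit_iff_isUnit_det _).mp g.isUnit |>.ne_zero
  obtain ⟨c, hc1, hc2⟩ := exists_commuting_det X hss _ hdet
  let C : Matrix (Fin n) (Fin n) F := LinearMap.toMatrix' (c : (Fin n → F) →ₗ[F] (Fin n → F))
  let C' : Matrix (Fin n) (Fin n) F := LinearMap.toMatrix' (c.symm : (Fin n → F) →ₗ[F] (Fin n → F))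
  have hCC' : C * C' = 1 := by
    simp only [C, C']
    rw [← LinearMap.toMatrix'_comp]
    simp
  have hC'C : C' * C = 1 := by
    simp only [C, C']
    rw [← LinearMap.toMatrix'_comp]
    simp
  let cg : GL (Fin n) F := ⟨C, C', hCC', hC'C⟩
  have hcomm : cg * x = x * cg := by
    apply Units.ext
    show C * (x : Matrix (Fin n) (Fin n) F) = (x : Matrix (Fin n) (Fin n) F) * C
    apply Matrix.toLin'.injective
    apply LinearMap.ext
    intro v
    simp only [Matrix.toLin'_mul, C, LinearMap.comp_apply, Matrix.toLin'_toMatrix']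
    exact hc1 v
  refine ⟨g * cg, ?_, ?_⟩
  · rw [Units.val_mul, Matrix.det_mul]
    have : C.det = ((g : Matrix (Fin n) (Fin n) F).det)⁻¹ := by
      simp only [C]
      rw [LinearMap.det_toMatrix']
      exact hc2
    show (g : Matrix (Fin n) (Fin n) F).det * C.det = 1
    rw [this, mul_inv_cancel₀]
    exact (Matrix.isUnit_iff_isUnit_det _).mp g.isUnit |>.ne_zero
  · have h1 : cg * x * cg⁻¹ = x := by
      rw [hcomm, mul_inv_cancel_right]
    calc g * cg * x * (g * cg)⁻¹ = g * (cg * x * cg⁻¹) * g⁻¹ := by group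
      _ = g * x * g⁻¹ := by rw [h1]

end Cfsg.Agent.S2569
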