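import Mathlib
import Cfsg.Statements.S2571
import Cfsg.Agent.Lib.RegUnip

set_option autoImplicit false
open Cfsg

namespace Cfsg.Agent.S2571

open Cfsg.Agent.Lib.RegUnip Module Matrix

variable {F : Type*} [Field F] {n : ℕ}

theorem pow_pred_ne_zero (N : Matrix (Fin (n + 1)) (Fin (n + 1)) F)
    (hreg : N.rank = n + 1 - 1) : N ^ n ≠ 0 := by
  intro h
  have h1 : finrank F (LinearMap.ker (Matrix.toLin' N)) ≤ 1 :=
    finrank_ker_le_one_of_rank N hreg
  have h2 := finrank_ker_pow_le (Matrix.toLin' N : End F (Fin (n + 1) → F)) h1 n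
  rw [← Matrix.toLin'_pow, h] at h2
  have h3 : LinearMap.ker (Matrix.toLin' (0 : Matrix (Fin (n + 1)) (Fin (n + 1)) F)) = ⊤ := by
    simp
  rw [h3] at h2
  simp at h2

/-- Linear independence of the cyclic family. -/
theorem li_family (N : Matrix (Fin (n + 1)) (Fin (n + 1)) F) (hnil : N ^ (n + 1) = 0)
    (v : Fin (n + 1) → F) (hv : (N ^ n) *ᵥ v ≠ 0) :
    LinearIndependent F (fun i : Fin (n + 1) => (N ^ (i : ℕ)) *ᵥ v) := by
  rw [Fintype.linearIndependent_iff]
  intro g hg
  have key : ∀ m : ℕ, ∀ i : Fin (n + 1), (i : ℕ) = m → g i = 0 := by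
    intro m
    induction m using Nat.strong_induction_on with
    | _ m ih =>
      intro i hi
      have h1 : (N ^ (n - m)) *ᵥ (∑ j, g j • ((N ^ (j : ℕ)) *ᵥ v)) = 0 := by
        rw [hg]; simp
      rw [Matrix.mulVec_sum] at h1
      rw [Finset.sum_eq_single i] at h1
      · rw [Matrix.mulVec_smul, Matrix.mulVec_mulVec, ← pow_add, hi] at h1
        have h2 : n - m + m = n := by
          have := i.2
          omega
        rw [h2] at h1
        rcases smul_eq_zero.mp h1 with h3 | h3
        · exact h3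
        · exact absurd h3 hv
      · intro j _ hji
        by_cases hlt : (j : ℕ) < m
        · rw [ih j hlt j rfl]
          simp
        · have hgt : n + 1 ≤ n - m + j := by
            have : (j : ℕ) ≠ m := fun h => hji (Fin.ext (h.trans hi.symm))
            have := i.2
            omega
          rw [Matrix.mulVec_smul, Matrix.mulVec_mulVec, ← pow_add]
          obtain ⟨d, hd⟩ := Nat.exists_eq_add_of_le hgt
          rw [hd, pow_add, hnil]
          simp
      · simp
  intro i
  exact key i i rfl

/-- A matrix commuting with `N` killing the cyclic vector vanishes. -/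
theorem eq_zero_of_commute (N : Matrix (Fin (n + 1)) (Fin (n + 1)) F) (hnil : N ^ (n + 1) = 0)
    (v : Fin (n + 1) → F) (hv : (N ^ n) *ᵥ v ≠ 0) (M : Matrix (Fin (n + 1)) (Fin (n + 1)) F)
    (hM : Commute M N) (hMv : M *ᵥ v = 0) : M = 0 := by
  have hli := li_family N hnil v hv
  have hspan : ⊤ ≤ Submodule.span F (Set.range (fun i : Fin (n + 1) => (N ^ (i : ℕ)) *ᵥ v)) := by
    apply le_of_eq
    symm
    exact hli.span_eq_top_of_card_eq_finrank (by simp)
  apply Matrix.toLin'.injective
  rw [map_zero]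
  apply LinearMap.ext
  intro x
  have hx : x ∈ Submodule.span F (Set.range (fun i : Fin (n + 1) => (N ^ (i : ℕ)) *ᵥ v)) :=
    hspan Submodule.mem_top
  induction hx using Submodule.span_induction with
  | mem y hy =>
    obtain ⟨i, rfl⟩ := hy
    simp only [Matrix.toLin'_apply, LinearMap.zero_apply]
    rw [Matrix.mulVec_mulVec, (hM.pow_right (i : ℕ)).eq, ← Matrix.mulVec_mulVec, hMv]
    simp
  | zero => simp
  | add a b _ _ ha hb => simp only [map_add, ha, hb, LinearMap.zero_apply, add_zero]
  | smul c a _ ha => simp only [map_smul, ha, LinearMap.zero_apply, smul_zero]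

/-- The polynomial in `N` with coefficients `a`. -/
noncomputable def polyN (N : Matrix (Fin (n + 1)) (Fin (n + 1)) F) (a : Fin (n + 1) → F) :
    Matrix (Fin (n + 1)) (Fin (n + 1)) F :=
  ∑ i, a i • N ^ (i : ℕ)

theorem polyN_comm (N : Matrix (Fin (n + 1)) (Fin (n + 1)) F) (a : Fin (n + 1) → F) :
    Commute (polyN N a) N := by
  unfold polyN
  apply Commute.sum_left
  intro i _
  exact ((Commute.refl N).pow_left _).smul_left _

theorem polyN_mulVec (N : Matrix (Fin (n + 1)) (Fin (n + 1)) F) (a : Fin (n + 1) → F)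
    (v : Fin (n + 1) → F) : polyN N a *ᵥ v = ∑ i, a i • (N ^ (i : ℕ) *ᵥ v) := by
  unfold polyN
  rw [Matrix.sum_mulVec]
  simp [Matrix.smul_mulVec]

theorem polyN_isUnit (N : Matrix (Fin (n + 1)) (Fin (n + 1)) F) (hnil : N ^ (n + 1) = 0)
    (a : Fin (n + 1) → F) (ha : a 0 ≠ 0) : IsUnit (polyN N a) := by
  unfold polyN
  rw [Fin.sum_univ_succ]
  simp only [Fin.val_zero, pow_zero, Fin.val_succ]
  have hnp : IsNilpotent (∑ i : Fin n, a i.succ • N ^ ((i : ℕ) + 1)) := by
    have : (∑ i : Fin n, a i.succ • N ^ ((i : ℕ) + 1)) = N * ∑ i : Fin n, a i.succ • N ^ (i : ℕ) := by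
      rw [Finset.mul_sum]
      apply Finset.sum_congr rfl
      intro i _
      rw [Matrix.mul_smul, pow_succ']
    rw [this]
    apply Commute.isNilpotent_mul_right
    · apply Commute.sum_right
      intro i _
      exact ((Commute.refl N).pow_right _).smul_right _
    · exact ⟨n + 1, hnil⟩
  have hu : IsUnit (a 0 • (1 : Matrix (Fin (n + 1)) (Fin (n + 1)) F)) := by
    have : a 0 • (1 : Matrix (Fin (n + 1)) (Fin (n + 1)) F) = Matrix.scalar _ (a 0) := by
      ext i j
      simp [Matrix.one_apply, Matrix.scalar_apply, Matrix.diagonal_apply]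
    rw [this]
    exact (Ne.isUnit ha).map _
  apply hnp.isUnit_add_left_of_commute hu
  apply Commute.sum_left
  intro i _
  exact (Commute.smul_left ((Commute.one_right _)) _).smul_right _

theorem card_nonzero_first {q : ℕ} [Fintype F] (hF : Fintype.card F = q) :
    Nat.card {a : Fin (n + 1) → F // a 0 ≠ 0} = (q - 1) * q ^ n := by
  classical
  let e : {a : Fin (n + 1) → F // a 0 ≠ 0} ≃ {c : F // c ≠ 0} × (Fin n → F) :=
    { toFun := fun a => (⟨a.1 0, a.2⟩, Fin.tail a.1)
      invFun := fun p => ⟨Fin.cons p.1.1 p.2, by simpa using p.1.2⟩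
      left_inv := by
        rintro ⟨a, ha⟩
        apply Subtype.ext
        exact Fin.cons_self_tail a
      right_inv := by
        rintro ⟨⟨c, hc⟩, t⟩
        simp }
  rw [Nat.card_congr e, Nat.card_prod, Nat.card_fun]
  have h1 : Nat.card {c : F // c ≠ 0} = q - 1 := by
    rw [← Nat.card_congr unitsEquivNeZero, Nat.card_eq_fintype_card, Fintype.card_units, hF]
  rw [h1, Nat.card_eq_fintype_card, hF, Nat.card_eq_fintype_card, Fintype.card_fin]

theorem result_aux {q : ℕ} [Fintype F] (hF : Fintype.card F = q)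
    (u : GL (Fin (n + 1)) F)
    (hnil : ((u : Matrix (Fin (n + 1)) (Fin (n + 1)) F) - 1) ^ (n + 1) = 0)
    (hreg : ((u : Matrix (Fin (n + 1)) (Fin (n + 1)) F) - 1).rank = n + 1 - 1) :
    Nat.card ↥(Subgroup.centralizer ({u} : Set (GL (Fin (n + 1)) F))) = (q - 1) * q ^ n := by
  classical
  set N : Matrix (Fin (n + 1)) (Fin (n + 1)) F := (u : Matrix (Fin (n + 1)) (Fin (n + 1)) F) - 1 with hN
  have hpow := pow_pred_ne_zero N hreg
  obtain ⟨v, hv⟩ : ∃ v, (N ^ n) *ᵥ v ≠ 0 := by
    by_contra hcon
    push Not at hcon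
    apply hpow
    apply Matrix.toLin'.injective
    rw [map_zero]
    apply LinearMap.ext
    intro x
    rw [Matrix.toLin'_apply]
    exact hcon x
  have hli := li_family N hnil v hv
  have hspan : ⊤ ≤ Submodule.span F (Set.range (fun i : Fin (n + 1) => (N ^ (i : ℕ)) *ᵥ v)) := by
    apply le_of_eq
    symm
    exact hli.span_eq_top_of_card_eq_finrank (by simp)
  have hcommU : ∀ M : Matrix (Fin (n + 1)) (Fin (n + 1)) F, Commute M N ↔
      Commute M (u : Matrix (Fin (n + 1)) (Fin (n + 1)) F) := by
    intro M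
    constructor
    · intro h
      have : (u : Matrix (Fin (n + 1)) (Fin (n + 1)) F) = N + 1 := by rw [hN]; abel
      rw [this]
      exact h.add_right (Commute.one_right _)
    · intro h
      rw [hN]
      exact h.sub_right (Commute.one_right _)
  -- the map
  let Φ : {a : Fin (n + 1) → F // a 0 ≠ 0} → ↥(Subgroup.centralizer ({u} : Set (GL (Fin (n + 1)) F))) :=
    fun a => ⟨(polyN_isUnit N hnil a.1 a.2).unit, by
      rw [Subgroup.mem_centralizer_singleton_iff]
      apply Units.ext
      show polyN N a.1 * (u : Matrix (Fin (n + 1)) (Fin (n + 1)) F) = (u : Matrix (Fin (n + 1)) (Fin (n + 1)) F) * polyN N a.1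
      exact ((hcommU _).mp (polyN_comm N a.1)).eq⟩
  have hΦval : ∀ a, (((Φ a : GL (Fin (n + 1)) F)) : Matrix (Fin (n + 1)) (Fin (n + 1)) F) = polyN N a.1 := fun a => rfl
  have hΦ : Function.Bijective Φ := by
    constructor
    · intro a b hab
      have h1 : polyN N a.1 = polyN N b.1 := by
        rw [← hΦval, ← hΦval, hab]
      have h2 : ∑ i, (a.1 i - b.1 i) • (N ^ (i : ℕ) *ᵥ v) = 0 := by
        have h3 := congrArg (fun M => M *ᵥ v) h1
        simp only [polyN_mulVec] at h3
        simp only [sub_smul, Finset.sum_sub_distrib, h3, sub_self]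
      have h4 := Fintype.linearIndependent_iff.mp hli _ h2
      apply Subtype.ext
      funext i
      exact sub_eq_zero.mp (h4 i)
    · rintro ⟨g, hg⟩
      have hgc : Commute (g : Matrix (Fin (n + 1)) (Fin (n + 1)) F) N := by
        rw [hcommU]
        rw [Subgroup.mem_centralizer_singleton_iff] at hg
        have := congrArg (fun x : GL (Fin (n + 1)) F => (x : Matrix (Fin (n + 1)) (Fin (n + 1)) F)) hg
        exact this
      have hgv : (g : Matrix (Fin (n + 1)) (Fin (n + 1)) F) *ᵥ v ∈ Submodule.span F (Set.range (fun i : Fin (n + 1) => (N ^ (i : ℕ)) *ᵥ v)) :=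
        hspan Submodule.mem_top
      obtain ⟨a, ha⟩ := (Submodule.mem_span_range_iff_exists_fun F).mp hgv
      have hEq : (g : Matrix (Fin (n + 1)) (Fin (n + 1)) F) = polyN N a := by
        rw [← sub_eq_zero]
        apply eq_zero_of_commute N hnil v hv
        · exact hgc.sub_left (polyN_comm N a)
        · rw [Matrix.sub_mulVec, polyN_mulVec, ha, sub_self]
      have ha0 : a 0 ≠ 0 := by
        intro h0
        have hkill : polyN N a *ᵥ (N ^ n *ᵥ v) = 0 := by
          rw [polyN_mulVec]
          apply Finset.sum_eq_zero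
          intro i _
          by_cases hi : i = 0
          · rw [hi, h0, zero_smul]
          · have hi' : 1 ≤ (i : ℕ) := by
              rw [Nat.one_le_iff_ne_zero]
              intro h
              exact hi (Fin.ext h)
            obtain ⟨d, hd⟩ := Nat.exists_eq_add_of_le hi'
            rw [Matrix.mulVec_mulVec, ← pow_add, hd]
            have : 1 + d + n = n + 1 + d := by omega
            rw [this, pow_add, hnil]
            simp
        rw [← hEq] at hkill
        apply hv
        have h1 := congrArg (fun x => ((g⁻¹ : GL (Fin (n + 1)) F) : Matrix (Fin (n + 1)) (Fin (n + 1)) F) *ᵥ x) hkill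
        simp only [Matrix.mulVec_mulVec, Matrix.mulVec_zero] at h1
        have h2 : ((g⁻¹ : GL (Fin (n + 1)) F) : Matrix (Fin (n + 1)) (Fin (n + 1)) F) * (g : Matrix (Fin (n + 1)) (Fin (n + 1)) F) = 1 := by
          rw [← Units.val_mul]
          simp
        rw [← Matrix.mul_assoc, h2, Matrix.one_mul] at h1
        exact h1
      refine ⟨⟨a, ha0⟩, ?_⟩
      apply Subtype.ext
      apply Units.ext
      rw [hΦval]
      exact hEq.symm
  rw [← Nat.card_congr (Equiv.ofBijective Φ hΦ), card_nonzero_first hF]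

/-- Centraliser of a regular unipotent element in GL_n(q): if u is an invertible n × n matrix over the field with q elements, n ≥ 1, with (u − 1)^n = 0 and rank(u − 1) = n − 1 (a single unipotent Jordan block), then its centraliser in GL_n(q) has order (q − 1) q^(n−1). -/
theorem result {F : Type*} [Field F] [Fintype F] {q n : ℕ} (hF : Fintype.card F = q) (hn : 1 ≤ n) (u : GL (Fin n) F) (hnil : ((u : Matrix (Fin n) (Fin n) F) - 1) ^ n = 0) (hreg : ((u : Matrix (Fin n) (Fin n) F) - 1).rank = n - 1) : Nat.card ↥(Subgroup.centralizer ({u} : Set (GL (Fin n) F))) = (q - 1) * q ^ (n - 1) := by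
  obtain ⟨k, rfl⟩ : ∃ k, n = k + 1 := ⟨n - 1, by omega⟩
  exact result_aux hF u hnil hreg

end Cfsg.Agent.S2571
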