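import Mathlib
import Cfsg.Statements.S2572

set_option autoImplicit false
open Cfsg

namespace Cfsg.Agent.S2572

open Matrix Module

section abstract

variable {K V : Type*} [Field K] [AddCommGroup V] [Module K V] [FiniteDimensional K V]

/-- The group of units acts transitively on the nonzero vectors. -/
theorem exists_equiv_of_ne {A : Type*} [AddCommGroup A] [Module K A] [FiniteDimensional K A]
    (x y : A) (hx : x ≠ 0) (hy : y ≠ 0) : ∃ L : A ≃ₗ[K] A, L x = y := by
  let e : (K ∙ x) ≃ₗ[K] (K ∙ y) :=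
    (LinearEquiv.toSpanNonzeroSingleton K A x hx).symm.trans
      (LinearEquiv.toSpanNonzeroSingleton K A y hy)
  obtain ⟨L, hL⟩ := Submodule.exists_linearEquiv_restrict_eq e
  refine ⟨L, ?_⟩
  have h := hL ⟨x, Submodule.mem_span_singleton_self x⟩
  rw [← h]
  have h1 : (⟨x, Submodule.mem_span_singleton_self x⟩ : K ∙ x)
      = LinearEquiv.toSpanNonzeroSingleton K A x hx 1 := by
    apply Subtype.ext
    simp
  have h2 : e (LinearEquiv.toSpanNonzeroSingleton K A x hx 1)
      = LinearEquiv.toSpanNonzeroSingleton K A y hy 1 := by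
    simp only [e, LinearEquiv.trans_apply, LinearEquiv.symm_apply_apply]
  rw [h1, h2]
  simp

/-- Transitivity on pairs of a nonzero vector and a nonzero functional vanishing on it. -/
theorem exists_equiv_pair (v v' : V) (φ φ' : Module.Dual K V) (hv : v ≠ 0) (hv' : v' ≠ 0)
    (hφ : φ ≠ 0) (hφ' : φ' ≠ 0) (h : φ v = 0) (h' : φ' v' = 0) :
    ∃ L : V ≃ₗ[K] V, L v = v' ∧ ∀ x, φ' (L x) = φ x := by
  obtain ⟨z₀, hz₀⟩ : ∃ z, φ z ≠ 0 := by
    by_contra hcon
    push Not at hcon
    exact hφ (LinearMap.ext hcon)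
  obtain ⟨z'₀, hz'₀⟩ : ∃ z, φ' z ≠ 0 := by
    by_contra hcon
    push Not at hcon
    exact hφ' (LinearMap.ext hcon)
  set z := (φ z₀)⁻¹ • z₀ with hz
  set z' := (φ' z'₀)⁻¹ • z'₀ with hz'
  have hφz : φ z = 1 := by
    rw [hz, map_smul, smul_eq_mul, inv_mul_cancel₀ hz₀]
  have hφz' : φ' z' = 1 := by
    rw [hz', map_smul, smul_eq_mul, inv_mul_cancel₀ hz'₀]
  let H := LinearMap.ker φ
  let H' := LinearMap.ker φ'
  have hfin : finrank K H = finrank K H' := by
    have h1 := Module.Dual.finrank_ker_add_one_of_ne_zero hφ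
    have h2 := Module.Dual.finrank_ker_add_one_of_ne_zero hφ'
    show finrank K (LinearMap.ker φ) = finrank K (LinearMap.ker φ')
    omega
  let δ : H ≃ₗ[K] H' := LinearEquiv.ofFinrankEq H H' hfin
  have hvH : v ∈ H := h
  have hvH' : v' ∈ H' := h'
  have hδ : δ ⟨v, hvH⟩ ≠ 0 := by
    intro h0
    have := δ.injective (h0.trans (map_zero δ).symm)
    exact hv (congrArg Subtype.val this)
  obtain ⟨γ, hγ⟩ := exists_equiv_of_ne (K := K) (δ ⟨v, hvH⟩) (⟨v', hvH'⟩ : H') hδ
    (fun h0 => hv' (congrArg Subtype.val h0))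
  let β : H ≃ₗ[K] H' := δ.trans γ
  have hβ : β ⟨v, hvH⟩ = ⟨v', hvH'⟩ := by simpa [β] using hγ
  -- the projections
  let pr : V →ₗ[K] H := LinearMap.codRestrict H (LinearMap.id - φ.smulRight z) (by
    intro x
    show φ (x - φ x • z) = 0
    rw [map_sub, map_smul, hφz, smul_eq_mul, mul_one, sub_self])
  let pr' : V →ₗ[K] H' := LinearMap.codRestrict H' (LinearMap.id - φ'.smulRight z') (by
    intro x
    show φ' (x - φ' x • z') = 0
    rw [map_sub, map_smul, hφz', smul_eq_mul, mul_one, sub_self])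
  have hpr : ∀ x, (pr x : V) = x - φ x • z := fun x => rfl
  have hpr' : ∀ x, (pr' x : V) = x - φ' x • z' := fun x => rfl
  let f : V →ₗ[K] V := H'.subtype ∘ₗ β.toLinearMap ∘ₗ pr + φ.smulRight z'
  let f' : V →ₗ[K] V := H.subtype ∘ₗ β.symm.toLinearMap ∘ₗ pr' + φ'.smulRight z
  have hf : ∀ x, f x = (β (pr x) : V) + φ x • z' := fun x => rfl
  have hf' : ∀ x, f' x = (β.symm (pr' x) : V) + φ' x • z := fun x => rfl
  have hφ'f : ∀ x, φ' (f x) = φ x := by
    intro x
    rw [hf, map_add, map_smul, hφz']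
    have : φ' (β (pr x) : V) = 0 := (β (pr x)).2
    rw [this]
    simp
  have hφf' : ∀ x, φ (f' x) = φ' x := by
    intro x
    rw [hf', map_add, map_smul, hφz]
    have : φ (β.symm (pr' x) : V) = 0 := (β.symm (pr' x)).2
    rw [this]
    simp
  have hpf : ∀ x, pr' (f x) = β (pr x) := by
    intro x
    apply Subtype.ext
    rw [hpr', hφ'f, hf]
    abel
  have hpf' : ∀ x, pr (f' x) = β.symm (pr' x) := by
    intro x
    apply Subtype.ext
    rw [hpr, hφf', hf']
    abel
  have hff' : ∀ x, f (f' x) = x := by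
    intro x
    rw [hf, hpf', hφf']
    simp only [LinearEquiv.apply_symm_apply]
    rw [hpr']
    abel
  have hf'f : ∀ x, f' (f x) = x := by
    intro x
    rw [hf', hpf, hφ'f]
    simp only [LinearEquiv.symm_apply_apply]
    rw [hpr]
    abel
  let L : V ≃ₗ[K] V := LinearEquiv.ofLinearMap f f' (LinearMap.ext hff') (LinearMap.ext hf'f)
  refine ⟨L, ?_, hφ'f⟩
  show f v = v'
  rw [hf, h, zero_smul, add_zero]
  have : pr v = ⟨v, hvH⟩ := by
    apply Subtype.ext
    rw [hpr, h, zero_smul, sub_zero]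
  rw [this, hβ]

end abstract

section matrices

variable {F : Type*} [Field F] {n : ℕ}

/-- The functional attached to a vector by the dot product. -/
def dotFun (w : Fin n → F) : Module.Dual F (Fin n → F) :=
  { toFun := fun x => w ⬝ᵥ x
    map_add' := fun x y => dotProduct_add w x y
    map_smul' := fun c x => by simp [dotProduct_smul] }

theorem dotFun_apply (w x : Fin n → F) : dotFun w x = w ⬝ᵥ x := rfl

theorem dotFun_ne_zero (w : Fin n → F) (hw : w ≠ 0) : dotFun w ≠ 0 := by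
  intro h
  apply hw
  apply dotProduct_eq_zero
  intro x
  have := congrArg (fun f => f x) h
  simpa [dotFun_apply] using this

/-- The transvection `1 + v ⊗ w` as an element of `GL`. -/
def tv (v w : Fin n → F) (h : w ⬝ᵥ v = 0) : GL (Fin n) F :=
  ⟨1 + vecMulVec v w, 1 - vecMulVec v w,
    by
      have h2 : vecMulVec v w * vecMulVec v w = 0 := by
        rw [vecMulVec_mul_vecMulVec, h, zero_smul, vecMulVec_zero]
      rw [mul_sub, add_mul, add_mul, h2]
      simp,
    by
      have h2 : vecMulVec v w * vecMulVec v w = 0 := by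
        rw [vecMulVec_mul_vecMulVec, h, zero_smul, vecMulVec_zero]
      rw [sub_mul, mul_add, mul_add, h2]
      simp⟩

theorem tv_val (v w : Fin n → F) (h : w ⬝ᵥ v = 0) :
    ((tv v w h : GL (Fin n) F) : Matrix (Fin n) (Fin n) F) = 1 + vecMulVec v w := rfl

/-- The vector and functional of a transvection. -/
theorem exists_tv (t : GL (Fin n) F) (ht : Cfsg.IsTransvection (t : Matrix (Fin n) (Fin n) F)) :
    ∃ (v w : Fin n → F) (h : w ⬝ᵥ v = 0), v ≠ 0 ∧ w ≠ 0 ∧ t = tv v w h := by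
  obtain ⟨hr, hsq⟩ := ht
  set N : Matrix (Fin n) (Fin n) F := (t : Matrix (Fin n) (Fin n) F) - 1 with hN
  have hr' : finrank F (LinearMap.range N.mulVecLin) = 1 := hr
  obtain ⟨v, hv, hspan⟩ := finrank_eq_one_iff'.mp hr'
  have hv0 : (v : Fin n → F) ≠ 0 := fun h => hv (Subtype.ext h)
  have hcol : ∀ j, ∃ c : F, c • (v : Fin n → F) = N *ᵥ (Pi.single j 1) := by
    intro j
    have hmem : N *ᵥ (Pi.single j 1) ∈ LinearMap.range N.mulVecLin := ⟨_, rfl⟩
    obtain ⟨c, hc⟩ := hspan ⟨_, hmem⟩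
    exact ⟨c, congrArg Subtype.val hc⟩
  choose w hw using hcol
  have hNeq : N = vecMulVec (v : Fin n → F) w := by
    ext i j
    have h1 := congrFun (hw j) i
    simp only [Pi.smul_apply, smul_eq_mul, Matrix.mulVec_single, MulOpposite.op_one, one_smul, Matrix.col_apply] at h1
    rw [vecMulVec_apply, ← h1, mul_comm]
  have hw0 : w ≠ 0 := by
    rintro rfl
    rw [vecMulVec_zero] at hNeq
    apply hv0
    obtain ⟨x, hx⟩ := v.2
    rw [← hx, hNeq]
    show (0 : Matrix (Fin n) (Fin n) F) *ᵥ x = 0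
    simp
  have hdot : w ⬝ᵥ (v : Fin n → F) = 0 := by
    by_contra hne
    rw [hNeq, vecMulVec_mul_vecMulVec] at hsq
    obtain ⟨i, hi⟩ := Function.ne_iff.mp hv0
    obtain ⟨j, hj⟩ := Function.ne_iff.mp hw0
    have h1 := congrFun (congrFun hsq i) j
    simp only [vecMulVec_apply, Pi.smul_apply, smul_eq_mul, Matrix.zero_apply, mul_eq_zero] at h1
    simp only [Pi.zero_apply] at hi hj
    tauto
  refine ⟨v, w, hdot, hv0, hw0, ?_⟩
  apply Units.ext
  rw [tv_val, ← hNeq, hN]
  abel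

theorem tv_conj (v w : Fin n → F) (h : w ⬝ᵥ v = 0) (v' w' : Fin n → F) (h' : w' ⬝ᵥ v' = 0)
    (g : GL (Fin n) F) (hv : (g : Matrix (Fin n) (Fin n) F) *ᵥ v = v')
    (hw : w' ᵥ* (g : Matrix (Fin n) (Fin n) F) = w) :
    g * tv v w h * g⁻¹ = tv v' w' h' := by
  apply Units.ext
  have h1 : w ᵥ* ((g⁻¹ : GL (Fin n) F) : Matrix (Fin n) (Fin n) F) = w' := by
    rw [← hw, Matrix.vecMul_vecMul, ← Units.val_mul]
    simp
  simp only [Units.val_mul, tv_val]
  rw [mul_add, mul_one, add_mul, mul_vecMulVec, vecMulVec_mul, hv, h1, ← Units.val_mul]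
  simp

theorem tv_conj_exists [Fintype F] (v w : Fin n → F) (h : w ⬝ᵥ v = 0) (v' w' : Fin n → F)
    (h' : w' ⬝ᵥ v' = 0) (hv0 : v ≠ 0) (hw0 : w ≠ 0) (hv0' : v' ≠ 0) (hw0' : w' ≠ 0) :
    ∃ g : GL (Fin n) F, g * tv v w h * g⁻¹ = tv v' w' h' := by
  obtain ⟨L, hLv, hLw⟩ := exists_equiv_pair (K := F) v v' (dotFun w) (dotFun w') hv0 hv0'
    (dotFun_ne_zero w hw0) (dotFun_ne_zero w' hw0') h h'
  let M := LinearMap.toMatrix' (L : (Fin n → F) →ₗ[F] (Fin n → F))
  let M' := LinearMap.toMatrix' (L.symm : (Fin n → F) →ₗ[F] (Fin n → F))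
  have hMM' : M * M' = 1 := by
    simp only [M, M']
    rw [← LinearMap.toMatrix'_comp]
    simp
  have hM'M : M' * M = 1 := by
    simp only [M, M']
    rw [← LinearMap.toMatrix'_comp]
    simp
  let g : GL (Fin n) F := ⟨M, M', hMM', hM'M⟩
  refine ⟨g, tv_conj v w h v' w' h' g ?_ ?_⟩
  · show M *ᵥ v = v'
    simp only [M]
    rw [LinearMap.toMatrix'_mulVec]
    exact hLv
  · show w' ᵥ* M = w
    apply dotProduct_eq
    intro x
    rw [← Matrix.dotProduct_mulVec]
    simp only [M]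
    rw [LinearMap.toMatrix'_mulVec]
    exact hLw x

end matrices

section counting

variable {F : Type*} [Field F] [Fintype F] {n : ℕ}

/-- Pairs (vector, covector) with zero pairing, both nonzero. -/
abbrev PP (n : ℕ) (F : Type*) [Field F] : Type _ :=
  {p : (Fin n → F) × (Fin n → F) // p.1 ≠ 0 ∧ p.2 ≠ 0 ∧ p.2 ⬝ᵥ p.1 = 0}

theorem card_subtype_ne' {α : Type*} [Fintype α] [DecidableEq α] (a : α) :
    Fintype.card {x : α // x ≠ a} = Fintype.card α - 1 := by
  rw [Fintype.card_subtype_compl, Fintype.card_subtype_eq]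

theorem card_ker_dot (v : Fin n → F) (hv : v ≠ 0) :
    Nat.card {w : Fin n → F // w ⬝ᵥ v = 0} = Fintype.card F ^ (n - 1) := by
  classical
  have hne : dotFun v ≠ 0 := dotFun_ne_zero v hv
  have h1 := Module.Dual.finrank_ker_add_one_of_ne_zero hne
  have h2 : finrank F (Fin n → F) = n := by simp
  have h3 : finrank F (LinearMap.ker (dotFun v)) = n - 1 := by omega
  have h4 : Nat.card (LinearMap.ker (dotFun v)) = Fintype.card F ^ (n - 1) := by
    rw [Nat.card_eq_fintype_card, Module.card_eq_pow_finrank (K := F), h3]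
  rw [← h4]
  apply Nat.card_congr
  refine Equiv.subtypeEquivRight ?_
  intro w
  rw [LinearMap.mem_ker, dotFun_apply, dotProduct_comm]

theorem card_PP (hn : 1 ≤ n) : Nat.card (PP n F) =
    (Fintype.card F ^ n - 1) * (Fintype.card F ^ (n - 1) - 1) := by
  classical
  have hq : 1 ≤ Fintype.card F := Fintype.card_pos
  have e : PP n F ≃ Σ v : {v : Fin n → F // v ≠ 0}, {w : Fin n → F // w ≠ 0 ∧ w ⬝ᵥ (v : Fin n → F) = 0} :=
    { toFun := fun p => ⟨⟨p.1.1, p.2.1⟩, ⟨p.1.2, p.2.2⟩⟩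
      invFun := fun s => ⟨(s.1.1, s.2.1), s.1.2, s.2.2⟩
      left_inv := fun p => rfl
      right_inv := fun s => rfl }
  rw [Nat.card_congr e, Nat.card_sigma]
  have hfib : ∀ v : {v : Fin n → F // v ≠ 0},
      Nat.card {w : Fin n → F // w ≠ 0 ∧ w ⬝ᵥ (v : Fin n → F) = 0} = Fintype.card F ^ (n - 1) - 1 := by
    intro v
    have h1 := card_ker_dot (F := F) (v : Fin n → F) v.2
    rw [← h1]
    have e2 : {w : Fin n → F // w ≠ 0 ∧ w ⬝ᵥ (v : Fin n → F) = 0} ≃
        {x : {w : Fin n → F // w ⬝ᵥ (v : Fin n → F) = 0} // x ≠ ⟨0, by simp⟩} :=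
      { toFun := fun w => ⟨⟨w.1, w.2.2⟩, fun h => w.2.1 (congrArg Subtype.val h)⟩
        invFun := fun x => ⟨x.1.1, fun h => x.2 (Subtype.ext h), x.1.2⟩
        left_inv := fun w => rfl
        right_inv := fun x => rfl }
    rw [Nat.card_congr e2, Nat.card_eq_fintype_card, Nat.card_eq_fintype_card]
    exact card_subtype_ne' _
  simp only [hfib, Finset.sum_const, smul_eq_mul, Finset.card_univ]
  congr 1
  rw [← Nat.card_eq_fintype_card]
  have : Nat.card {v : Fin n → F // v ≠ 0} = Nat.card (Fin n → F) - 1 := by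
    rw [Nat.card_eq_fintype_card, Nat.card_eq_fintype_card]
    exact card_subtype_ne' _
  rw [this, Nat.card_fun, Nat.card_fin, Nat.card_eq_fintype_card]

/-- The transvection map on pairs. -/
def pi' (p : PP n F) : GL (Fin n) F := tv p.1.1 p.1.2 p.2.2.2

theorem exists_scale (v w v₀ w₀ : Fin n → F) (hv : v ≠ 0) (hw : w ≠ 0) (hv₀ : v₀ ≠ 0)
    (h : vecMulVec v w = vecMulVec v₀ w₀) :
    ∃ c : Fˣ, v = (c : F) • v₀ ∧ w = ((c⁻¹ : Fˣ) : F) • w₀ := by
  obtain ⟨j, hj⟩ := Function.ne_iff.mp hw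
  simp only [Pi.zero_apply] at hj
  have hent : ∀ i j, v i * w j = v₀ i * w₀ j := fun i j => by
    have := congrFun (congrFun h i) j
    simpa [vecMulVec_apply] using this
  have hw₀j : w₀ j ≠ 0 := by
    intro h0
    apply hv
    funext i
    have := hent i j
    rw [h0, mul_zero] at this
    exact (mul_eq_zero.mp this).resolve_right hj
  let c : Fˣ := Units.mk0 (w₀ j / w j) (div_ne_zero hw₀j hj)
  have hcv : (c : F) = w₀ j / w j := rfl
  have h1 : v = (c : F) • v₀ := by
    funext i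
    simp only [Pi.smul_apply, smul_eq_mul, hcv]
    have := hent i j
    field_simp
    linear_combination this
  refine ⟨c, h1, ?_⟩
  obtain ⟨i, hi⟩ := Function.ne_iff.mp hv₀
  simp only [Pi.zero_apply] at hi
  funext k
  have h2 := hent i k
  rw [h1] at h2
  simp only [Pi.smul_apply, smul_eq_mul] at h2
  simp only [Pi.smul_apply, smul_eq_mul]
  have hc0 : (c : F) ≠ 0 := c.ne_zero
  rw [Units.val_inv_eq_inv_val]
  field_simp
  have h3 : v₀ i * ((c : F) * w k - w₀ k) = 0 := by linear_combination h2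
  have h4 := (mul_eq_zero.mp h3).resolve_left hi
  linear_combination h4

theorem card_range_mul [DecidableEq F] : Nat.card (Set.range (pi' (n := n) (F := F))) * (Fintype.card F - 1) = Nat.card (PP n F) := by
  classical
  have hsec : ∀ τ : Set.range (pi' (n := n) (F := F)), ∃ p : PP n F, pi' p = (τ : GL (Fin n) F) :=
    fun τ => τ.2
  choose s hs using hsec
  let Φ : Set.range (pi' (n := n) (F := F)) × Fˣ → PP n F := fun x =>
    ⟨(((x.2 : F)) • (s x.1).1.1, (((x.2⁻¹ : Fˣ) : F)) • (s x.1).1.2), by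
      refine ⟨smul_ne_zero x.2.ne_zero (s x.1).2.1, smul_ne_zero (x.2⁻¹).ne_zero (s x.1).2.2.1, ?_⟩
      simp only [smul_dotProduct, dotProduct_smul, (s x.1).2.2.2, smul_zero]⟩
  have hΦπ : ∀ x, pi' (Φ x) = x.1 := by
    intro x
    rw [← hs x.1]
    apply Units.ext
    simp only [pi', tv_val, Φ]
    congr 1
    rw [smul_vecMulVec, vecMulVec_smul, smul_smul]
    simp
  have hbij : Function.Bijective Φ := by
    constructor
    · rintro ⟨τ, c⟩ ⟨τ', c'⟩ h
      have h1 : τ = τ' := by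
        have := congrArg pi' h
        rw [hΦπ, hΦπ] at this
        exact Subtype.ext this
      subst h1
      have h2 := congrArg (fun p : PP n F => p.1.1) h
      simp only [Φ] at h2
      have hv := (s τ).2.1
      obtain ⟨i, hi⟩ := Function.ne_iff.mp hv
      simp only [Pi.zero_apply] at hi
      have h3 := congrFun h2 i
      simp only [Pi.smul_apply, smul_eq_mul] at h3
      have h4 := mul_right_cancel₀ hi h3
      have h5 : c = c' := Units.ext h4
      rw [h5]
    · intro p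
      let τ : Set.range (pi' (n := n) (F := F)) := ⟨pi' p, p, rfl⟩
      have h1 : pi' (s τ) = pi' p := hs τ
      have h2 : vecMulVec p.1.1 p.1.2 = vecMulVec (s τ).1.1 (s τ).1.2 := by
        have := congrArg (fun g : GL (Fin n) F => ((g : Matrix (Fin n) (Fin n) F))) h1
        simp only [pi', tv_val] at this
        exact (add_left_cancel this).symm
      obtain ⟨c, hc1, hc2⟩ := exists_scale p.1.1 p.1.2 (s τ).1.1 (s τ).1.2 p.2.1 p.2.2.1 (s τ).2.1 h2
      refine ⟨(τ, c), ?_⟩
      apply Subtype.ext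
      apply Prod.ext
      · exact hc1.symm
      · exact hc2.symm
  rw [← Nat.card_congr (Equiv.ofBijective Φ hbij), Nat.card_prod, Nat.card_eq_fintype_card (α := Fˣ), Fintype.card_units]

theorem card_centralizer_mul (t : GL (Fin n) F) (v₀ w₀ : Fin n → F) (h₀ : w₀ ⬝ᵥ v₀ = 0)
    (hv₀ : v₀ ≠ 0) (hw₀ : w₀ ≠ 0) (ht : t = tv v₀ w₀ h₀) :
    Nat.card (Subgroup.centralizer ({t} : Set (GL (Fin n) F))) * Nat.card (Set.range (pi' (n := n) (F := F)))
      = Nat.card (GL (Fin n) F) := by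
  classical
  let G := GL (Fin n) F
  have horb : MulAction.orbit (ConjAct G) t = Set.range (pi' (n := n) (F := F)) := by
    ext x
    constructor
    · rintro ⟨g, rfl⟩
      have hg : g • t = ConjAct.ofConjAct g * t * (ConjAct.ofConjAct g)⁻¹ := ConjAct.smul_def g t
      let g' : G := ConjAct.ofConjAct g
      let v' : Fin n → F := (g' : Matrix (Fin n) (Fin n) F) *ᵥ v₀
      let w' : Fin n → F := w₀ ᵥ* ((g'⁻¹ : G) : Matrix (Fin n) (Fin n) F)
      have hgg : ((g' : Matrix (Fin n) (Fin n) F)) * ((g'⁻¹ : G) : Matrix (Fin n) (Fin n) F) = 1 := by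
        rw [← Units.val_mul]; simp
      have hgg' : (((g'⁻¹ : G) : Matrix (Fin n) (Fin n) F)) * ((g' : Matrix (Fin n) (Fin n) F)) = 1 := by
        rw [← Units.val_mul]; simp
      have hdot : w' ⬝ᵥ v' = 0 := by
        simp only [w', v']
        rw [Matrix.dotProduct_mulVec, Matrix.vecMul_vecMul, hgg', Matrix.vecMul_one]
        exact h₀
      have hv' : v' ≠ 0 := by
        intro h
        apply hv₀
        have := congrArg (fun x => ((g'⁻¹ : G) : Matrix (Fin n) (Fin n) F) *ᵥ x) h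
        simp only [v', Matrix.mulVec_mulVec, hgg', Matrix.one_mulVec, Matrix.mulVec_zero] at this
        exact this
      have hw' : w' ≠ 0 := by
        intro h
        apply hw₀
        have := congrArg (fun x => x ᵥ* (g' : Matrix (Fin n) (Fin n) F)) h
        simp only [w', Matrix.vecMul_vecMul, hgg', Matrix.vecMul_one, Matrix.zero_vecMul] at this
        exact this
      refine ⟨⟨(v', w'), hv', hw', hdot⟩, ?_⟩
      show tv v' w' hdot = g • t
      rw [hg, ht]
      symm
      apply tv_conj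
      · rfl
      · show w₀ ᵥ* ((g'⁻¹ : G) : Matrix (Fin n) (Fin n) F) ᵥ* (g' : Matrix (Fin n) (Fin n) F) = w₀
        rw [Matrix.vecMul_vecMul, hgg', Matrix.vecMul_one]
    · rintro ⟨p, rfl⟩
      obtain ⟨g, hg⟩ := tv_conj_exists v₀ w₀ h₀ p.1.1 p.1.2 p.2.2.2 hv₀ hw₀ p.2.1 p.2.2.1
      refine ⟨ConjAct.toConjAct g, ?_⟩
      show ConjAct.toConjAct g • t = pi' p
      rw [ConjAct.smul_def, ht]
      exact hg
  have h1 := MulAction.card_orbit_mul_card_stabilizer_eq_card_group (ConjAct G) t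
  have hstab : Nat.card (MulAction.stabilizer (ConjAct G) t) = Nat.card (Subgroup.centralizer ({t} : Set G)) := by
    apply Nat.card_congr
    refine (ConjAct.ofConjAct (G := G)).toEquiv.subtypeEquiv ?_
    intro a
    rw [MulAction.mem_stabilizer_iff, ConjAct.smul_def, Subgroup.mem_centralizer_singleton_iff]
    show _ ↔ ConjAct.ofConjAct a * t = t * ConjAct.ofConjAct a
    constructor
    · intro h
      calc ConjAct.ofConjAct a * t
          = (ConjAct.ofConjAct a * t * (ConjAct.ofConjAct a)⁻¹) * ConjAct.ofConjAct a := by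
            rw [inv_mul_cancel_right]
        _ = t * ConjAct.ofConjAct a := by rw [h]
    · intro h
      rw [h]
      group
  have h3 : Fintype.card (ConjAct G) = Fintype.card G :=
    Fintype.card_congr ConjAct.ofConjAct.toEquiv
  rw [← hstab, mul_comm, ← horb]
  rw [Nat.card_eq_fintype_card, Nat.card_eq_fintype_card, Nat.card_eq_fintype_card]
  exact h1.trans h3

theorem arith {q m C S : ℕ} (hq : 2 ≤ q) (D : ℕ)
    (hD : D = ∏ i : Fin m, (q ^ m - q ^ (i : ℕ)))
    (h1 : C * S = ∏ i : Fin (m + 2), (q ^ (m + 2) - q ^ (i : ℕ)))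
    (h2 : S * (q - 1) = (q ^ (m + 2) - 1) * (q ^ (m + 1) - 1)) :
    C = q ^ (2 * m + 1) * (q - 1) * D := by
  have hprod : ∏ i : Fin (m + 2), (q ^ (m + 2) - q ^ (i : ℕ))
      = (q ^ (m + 2) - 1) * (q * (q ^ (m + 1) - 1)) * (q ^ (2 * m) * D) := by
    rw [Fin.prod_univ_succ, Fin.prod_univ_succ]
    simp only [Fin.val_zero, pow_zero, Fin.val_succ, zero_add, pow_one]
    have e1 : q ^ (m + 2) - q = q * (q ^ (m + 1) - 1) := by
      rw [Nat.mul_sub, mul_one, pow_succ' q (m + 1)]
    have e2 : ∏ i : Fin m, (q ^ (m + 2) - q ^ ((i : ℕ) + 1 + 1)) = q ^ (2 * m) * D := by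
      rw [hD, pow_mul]
      have : (q ^ 2) ^ m = ∏ _i : Fin m, q ^ 2 := by simp
      rw [this, ← Finset.prod_mul_distrib]
      apply Finset.prod_congr rfl
      intro i _
      rw [Nat.mul_sub, ← pow_add, ← pow_add]
      congr 2 <;> omega
    rw [e1, e2]
    ring
  have hpos1 : 0 < (q ^ (m + 2) - 1) := by
    have : 1 < q ^ (m + 2) := Nat.one_lt_pow (by omega) (by omega)
    omega
  have hpos2 : 0 < (q ^ (m + 1) - 1) := by
    have : 1 < q ^ (m + 1) := Nat.one_lt_pow (by omega) (by omega)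
    omega
  have hkey : C * ((q ^ (m + 2) - 1) * (q ^ (m + 1) - 1))
      = (q ^ (2 * m + 1) * (q - 1) * D) * ((q ^ (m + 2) - 1) * (q ^ (m + 1) - 1)) := by
    rw [← h2]
    calc C * (S * (q - 1)) = (C * S) * (q - 1) := by ring
      _ = _ := by
        rw [h1, hprod, h2]
        ring
  exact Nat.eq_of_mul_eq_mul_right (Nat.mul_pos hpos1 hpos2) hkey

end counting

/-- Centraliser of a transvection in GL_n(q), n ≥ 2: if t − 1 has rank one and square zero, the centraliser of t in GL_n(q) has order q^(2n−3) (q − 1) |GL_(n−2)(q)| (a group of order q^(2n−3) extended by GL_1(q) × GL_(n−2)(q)). -/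
theorem result {F : Type*} [Field F] [Fintype F] {q n : ℕ} (hF : Fintype.card F = q) (hn : 2 ≤ n) (t : GL (Fin n) F) (ht : Cfsg.IsTransvection (t : Matrix (Fin n) (Fin n) F)) : Nat.card ↥(Subgroup.centralizer ({t} : Set (GL (Fin n) F))) = q ^ (2 * n - 3) * (q - 1) * ∏ i : Fin (n - 2), (q ^ (n - 2) - q ^ (i : ℕ)) := by
  classical
  obtain ⟨m, rfl⟩ : ∃ m, n = m + 2 := ⟨n - 2, by omega⟩
  obtain ⟨v₀, w₀, h₀, hv₀, hw₀, hte⟩ := exists_tv t ht
  have h1 := card_centralizer_mul t v₀ w₀ h₀ hv₀ hw₀ hte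
  have h2 := card_range_mul (n := m + 2) (F := F)
  rw [card_PP (by omega)] at h2
  rw [Matrix.card_GL_field] at h1
  rw [hF] at h1 h2
  have hq : 2 ≤ q := by
    rw [← hF]
    exact Fintype.one_lt_card
  have e1 : 2 * (m + 2) - 3 = 2 * m + 1 := by omega
  have e2 : m + 2 - 2 = m := by omega
  have e3 : m + 2 - 1 = m + 1 := by omega
  rw [e3] at h2
  rw [e1]
  simp only [e2]
  exact arith hq _ rfl h1 h2

end Cfsg.Agent.S2572
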