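import Mathlib
import Cfsg.Statements.S2573
import Cfsg.Agent.Lib.RegUnip

set_option autoImplicit false
open Cfsg

namespace Cfsg.Agent.S2573

open Cfsg.Agent.Lib.RegUnip in
/-- The invariant subspaces of a regular unipotent matrix form a chain: over a finite field, if u is an n × n matrix with (u − 1)^n = 0 and rank(u − 1) = n − 1, then every subspace W of F^n with u W ⊆ W is the kernel of (u − 1)^(dim W); so u has at most one invariant subspace of each dimension. -/
theorem result {F : Type*} [Field F] [Finite F] {n : ℕ} (u : Matrix (Fin n) (Fin n) F) (hnil : (u - 1) ^ n = 0) (hreg : (u - 1).rank = n - 1) (W : Submodule F (Fin n → F)) (hW : ∀ v ∈ W, u.mulVec v ∈ W) : W = LinearMap.ker (Matrix.mulVecLin ((u - 1) ^ Module.finrank F W)) := by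
  let N : Module.End F (Fin n → F) := Matrix.toLin' (u - 1)
  have hN : IsNilpotent N := isNilpotent_toLin' (u - 1) n hnil
  have h1 : Module.finrank F (LinearMap.ker N) ≤ 1 := finrank_ker_le_one_of_rank (u - 1) hreg
  have hWN : ∀ v ∈ W, N v ∈ W := by
    intro v hv
    have : N v = u.mulVec v - v := by
      show Matrix.toLin' (u - 1) v = _
      rw [Matrix.toLin'_apply, Matrix.sub_mulVec, Matrix.one_mulVec]
    rw [this]
    exact W.sub_mem (hW v hv) hv
  have h := eq_ker_pow_finrank N hN h1 W hWN
  have h2 : N ^ Module.finrank F W = Matrix.mulVecLin ((u - 1) ^ Module.finrank F W) := by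
    show (Matrix.toLin' (u - 1)) ^ Module.finrank F W = _
    rw [← Matrix.toLin'_pow, Matrix.toLin'_apply']
  rw [h2] at h
  exact h

end Cfsg.Agent.S2573
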