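import Mathlib
import Cfsg.Statements.S2574
import Cfsg.Agent.Lib.RegUnip

set_option autoImplicit false
open Cfsg

namespace Cfsg.Agent.S2574

open Cfsg.Agent.Lib.RegUnip Module Matrix

theorem symp_preserved {F : Type*} [Field F] {m : ℕ} (u : Matrix (Fin m ⊕ Fin m) (Fin m ⊕ Fin m) F)
    (hu : u ∈ Matrix.symplecticGroup (Fin m) F) (x y : Fin m ⊕ Fin m → F) :
    Cfsg.sympForm m F (u *ᵥ x) (u *ᵥ y) = Cfsg.sympForm m F x y := by
  unfold Cfsg.sympForm
  have h := (SymplecticGroup.mem_iff' (A := u)).mp hu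
  have h2 : (u *ᵥ x) ⬝ᵥ (J (Fin m) F *ᵥ (u *ᵥ y)) = x ⬝ᵥ (uᵀ *ᵥ (J (Fin m) F *ᵥ (u *ᵥ y))) := by
    rw [Matrix.dotProduct_mulVec x, Matrix.vecMul_transpose]
  rw [h2, Matrix.mulVec_mulVec, Matrix.mulVec_mulVec, h]

/-- Adjoint relation: `f(N x, y) = - f(u x, N y)` for `N = u - 1`. -/
theorem adjoint {F : Type*} [Field F] {m : ℕ} (u : Matrix (Fin m ⊕ Fin m) (Fin m ⊕ Fin m) F)
    (hu : u ∈ Matrix.symplecticGroup (Fin m) F) (x y : Fin m ⊕ Fin m → F) :
    Cfsg.sympForm m F ((u - 1) *ᵥ x) y = - Cfsg.sympForm m F (u *ᵥ x) ((u - 1) *ᵥ y) := by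
  have h := symp_preserved u hu x y
  unfold Cfsg.sympForm at h ⊢
  rw [Matrix.sub_mulVec, Matrix.sub_mulVec, Matrix.one_mulVec, Matrix.one_mulVec,
    sub_dotProduct, Matrix.mulVec_sub, dotProduct_sub, h]
  ring

theorem form_pow {F : Type*} [Field F] {m : ℕ} (u : Matrix (Fin m ⊕ Fin m) (Fin m ⊕ Fin m) F)
    (hu : u ∈ Matrix.symplecticGroup (Fin m) F) (j : ℕ) :
    ∀ x y : Fin m ⊕ Fin m → F, ((u - 1) ^ j) *ᵥ y = 0 →
      Cfsg.sympForm m F (((u - 1) ^ j) *ᵥ x) y = 0 := by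
  induction j with
  | zero =>
    intro x y hy
    rw [pow_zero, Matrix.one_mulVec] at hy
    subst hy
    simp [Cfsg.sympForm]
  | succ j ih =>
    intro x y hy
    rw [pow_succ', ← Matrix.mulVec_mulVec, adjoint u hu]
    have hcomm : u *ᵥ (((u - 1) ^ j) *ᵥ x) = ((u - 1) ^ j) *ᵥ (u *ᵥ x) := by
      rw [Matrix.mulVec_mulVec, Matrix.mulVec_mulVec]
      congr 1
      exact ((Commute.sub_left (Commute.refl u) (Commute.one_left u)).pow_left j).symm.eq
    rw [hcomm, ih (u *ᵥ x) ((u - 1) *ᵥ y), neg_zero]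
    rw [Matrix.mulVec_mulVec, ← pow_succ]
    exact hy

theorem result {F : Type*} [Field F] [Finite F] {m : ℕ} (u : Matrix.symplecticGroup (Fin m) F) (hnil : ((u : Matrix (Fin m ⊕ Fin m) (Fin m ⊕ Fin m) F) - 1) ^ (2 * m) = 0) (hreg : ((u : Matrix (Fin m ⊕ Fin m) (Fin m ⊕ Fin m) F) - 1).rank = 2 * m - 1) (W : Submodule F (Fin m ⊕ Fin m → F)) (hW : ∀ v ∈ W, (u : Matrix (Fin m ⊕ Fin m) (Fin m ⊕ Fin m) F).mulVec v ∈ W) (hdim : 2 * Module.finrank F W ≤ 2 * m) : ∀ v ∈ W, ∀ w ∈ W, Cfsg.sympForm m F v w = 0 := by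
  set U : Matrix (Fin m ⊕ Fin m) (Fin m ⊕ Fin m) F := (u : Matrix (Fin m ⊕ Fin m) (Fin m ⊕ Fin m) F) with hU
  let N : End F (Fin m ⊕ Fin m → F) := Matrix.toLin' (U - 1)
  have hNpow : ∀ j : ℕ, ∀ x, (N ^ j) x = ((U - 1) ^ j) *ᵥ x := by
    intro j x
    have : N ^ j = Matrix.toLin' ((U - 1) ^ j) := (Matrix.toLin'_pow _ _).symm
    rw [this, Matrix.toLin'_apply]
  have hdimV : finrank F (Fin m ⊕ Fin m → F) = 2 * m := by
    simp [two_mul]
  have hN : IsNilpotent N := ⟨2 * m, by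
    apply LinearMap.ext
    intro x
    rw [hNpow, hnil]
    simp⟩
  have h1 : finrank F (LinearMap.ker N) ≤ 1 := by
    have h := N.finrank_range_add_finrank_ker
    have h2 : finrank F (LinearMap.range N) = (U - 1).rank := by
      have : N = Matrix.mulVecLin (U - 1) := Matrix.toLin'_apply' _
      rw [this]
      rfl
    omega
  have hWN : ∀ v ∈ W, N v ∈ W := by
    intro v hv
    have : N v = U *ᵥ v - v := by
      show Matrix.toLin' (U - 1) v = _
      rw [Matrix.toLin'_apply, Matrix.sub_mulVec, Matrix.one_mulVec]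
    rw [this]
    exact W.sub_mem (hW v hv) hv
  set k := finrank F W with hk
  have hkm : k ≤ m := by omega
  have hWk := eq_ker_pow_finrank N hN h1 W hWN
  rw [← hk] at hWk
  -- W is the range of N^(2m-k)
  have hrange : LinearMap.range (N ^ (2 * m - k)) = W := by
    apply Submodule.eq_of_le_of_finrank_le
    · rw [hWk]
      rintro _ ⟨x, rfl⟩
      rw [LinearMap.mem_ker, ← Module.End.mul_apply, ← pow_add]
      have : k + (2 * m - k) = 2 * m := by omega
      rw [this, hNpow, hnil]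
      simp
    · have h2 := (N ^ (2 * m - k)).finrank_range_add_finrank_ker
      have h3 := finrank_ker_pow_le N h1 (2 * m - k)
      omega
  intro v hv w hw
  have hv' : v ∈ LinearMap.range (N ^ (2 * m - k)) := by rw [hrange]; exact hv
  obtain ⟨x, rfl⟩ := hv'
  rw [hNpow]
  apply form_pow U u.2
  rw [← hNpow]
  have hw0 : (N ^ k) w = 0 := by
    rw [hWk] at hw
    exact hw
  have : 2 * m - k = (2 * m - k - k) + k := by omega
  rw [this, pow_add, Module.End.mul_apply, hw0, map_zero]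

end Cfsg.Agent.S2574
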