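import Mathlib
import Cfsg.Statements.S2575

set_option autoImplicit false
open Cfsg

namespace Cfsg.Agent.S2575

theorem det_eq {F : Type*} [Field F] {n : ℕ} (i : ℕ) (hi : i ≤ n) (c : F) :
    (c • Matrix.diagonal (fun j : Fin n => if (j : ℕ) < i then (-1 : F) else 1)).det
      = c ^ n * (-1) ^ i := by
  rw [Matrix.det_smul, Matrix.det_diagonal, Fintype.card_fin, Finset.prod_ite]
  simp only [Finset.prod_const, one_pow, mul_one]
  rw [Fin.card_filter_val_lt, Nat.min_eq_right hi]

theorem neg_one_ne_one' {F : Type*} [Field F] [Fintype F] {q : ℕ} (hF : Fintype.card F = q)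
    (hq : Odd q) : (-1 : F) ≠ 1 := by
  apply Ring.neg_one_ne_one_of_char_ne_two
  intro h
  have := FiniteField.even_card_iff_char_two.mp h
  rw [hF] at this
  obtain ⟨k, rfl⟩ := hq
  omega

theorem padic_two_pow_mul_odd {k m : ℕ} (hm : Odd m) : padicValNat 2 (2 ^ k * m) = k := by
  have hm0 : m ≠ 0 := by
    rintro rfl
    simp at hm
  rw [padicValNat.mul (by positivity) hm0, padicValNat.prime_pow]
  have : padicValNat 2 m = 0 := padicValNat.eq_zero_of_not_dvd (by
    obtain ⟨t, rfl⟩ := hm
    omega)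
  omega

theorem exists_pow_eq_neg_one {F : Type*} [Field F] [Fintype F] {q : ℕ}
    (hF : Fintype.card F = q) (hq : Odd q) {n : ℕ} (hn : 1 ≤ n) :
    (∃ c : F, c ^ n = -1) ↔ padicValNat 2 n < padicValNat 2 (q - 1) := by
  have hq2 : 2 ≤ q := by
    rw [← hF]; exact Fintype.one_lt_card
  have hq1 : q - 1 ≠ 0 := by omega
  have hq3 : 3 ≤ q := by
    obtain ⟨t, rfl⟩ := hq
    omega
  have hne : (-1 : F) ≠ 1 := neg_one_ne_one' hF hq
  obtain ⟨a, u, hu, hqu⟩ := Nat.exists_eq_two_pow_mul_odd hq1
  obtain ⟨b, w, hw, hnw⟩ := Nat.exists_eq_two_pow_mul_odd (show n ≠ 0 by omega)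
  rw [hqu, hnw, padic_two_pow_mul_odd hu, padic_two_pow_mul_odd hw]
  constructor
  · rintro ⟨c, hc⟩
    rw [← hnw] at hc
    by_contra hab
    push Not at hab
    have hc0 : c ≠ 0 := by
      rintro rfl
      rw [zero_pow (by omega)] at hc
      exact hne (by
        have : (1 : F) = 0 := by simpa using hc.symm
        simp [this])
    have h1 : c ^ (q - 1) = 1 := by
      have := FiniteField.pow_card_sub_one_eq_one c hc0
      rwa [hF] at this
    have h2 : (c ^ n) ^ u = 1 := by
      obtain ⟨d, hd⟩ := Nat.exists_eq_add_of_le hab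
      have : n * u = (q - 1) * (2 ^ d * w) := by
        rw [hnw, hqu, hd, pow_add]
        ring
      rw [← pow_mul, this, pow_mul, h1, one_pow]
    rw [hc, Odd.neg_one_pow hu] at h2
    exact hne h2
  · intro hab
    classical
    obtain ⟨g, hg⟩ := IsCyclic.exists_ofOrder_eq_natCard (α := Fˣ)
    have hcard : Nat.card Fˣ = q - 1 := by
      rw [Nat.card_eq_fintype_card, Fintype.card_units, hF]
    rw [hcard] at hg
    obtain ⟨d, hd⟩ := Nat.exists_eq_add_of_lt hab
    -- a = b + d + 1
    have hq' : q - 1 = 2 * (2 ^ b * 2 ^ d * u) := by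
      rw [hqu, hd]
      ring
    set h : Fˣ := g ^ (2 ^ b * 2 ^ d * u) with hh
    have hh2 : h ^ 2 = 1 := by
      rw [hh, ← pow_mul, mul_comm, ← hq', ← hg, pow_orderOf_eq_one]
    have hh1 : h ≠ 1 := by
      intro hcon
      have := orderOf_dvd_of_pow_eq_one hcon
      rw [hg, hq'] at this
      have hpos : 0 < 2 ^ b * 2 ^ d * u := by
        have : 0 < u := hu.pos
        positivity
      have := Nat.le_of_dvd hpos this
      omega
    have hhneg : (h : F) = -1 := by
      have h3 : ((h : F)) ^ 2 = 1 := by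
        have := congrArg (Units.val) hh2
        simpa using this
      have h4 : ((h : F) - 1) * ((h : F) + 1) = 0 := by linear_combination h3
      rcases mul_eq_zero.mp h4 with h5 | h5
      · exfalso
        apply hh1
        ext
        simpa using sub_eq_zero.mp h5
      · linear_combination h5
    refine ⟨((g ^ (2 ^ d * u) : Fˣ) : F), ?_⟩
    have h6 : ((g ^ (2 ^ d * u) : Fˣ) : F) ^ (2 ^ b * w) = ((h : F)) ^ w := by
      rw [hh]
      push_cast
      rw [← pow_mul, ← pow_mul]
      congr 1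
      ring
    rw [h6, hhneg, Odd.neg_one_pow hw]

theorem result {F : Type*} [Field F] [Fintype F] {q : ℕ} (hF : Fintype.card F = q) (hq : Odd q) {n : ℕ} (hn : 1 ≤ n) (i : ℕ) (hi : i ≤ n) : (∃ c : F, c ≠ 0 ∧ (c • Matrix.diagonal (fun j : Fin n => if (j : ℕ) < i then (-1 : F) else 1)).det = 1) ↔ (Even i ∨ padicValNat 2 n < padicValNat 2 (q - 1)) := by
  simp only [det_eq i hi]
  have key := exists_pow_eq_neg_one hF hq hn
  rcases Nat.even_or_odd i with he | ho
  · simp only [he, true_or, iff_true, Even.neg_one_pow he, mul_one]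
    exact ⟨1, one_ne_zero, one_pow _⟩
  · have hne : ¬ Even i := Nat.not_even_iff_odd.mpr ho
    simp only [hne, false_or, Odd.neg_one_pow ho, ← key]
    constructor
    · rintro ⟨c, _, hc⟩
      exact ⟨c, by linear_combination -hc⟩
    · rintro ⟨c, hc⟩
      refine ⟨c, ?_, by rw [hc]; ring⟩
      rintro rfl
      rw [zero_pow (by omega)] at hc
      have : (1 : F) = 0 := by simpa using hc.symm
      exact one_ne_zero this

end Cfsg.Agent.S2575
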