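import Mathlib
import Cfsg.Statements.S2576

set_option autoImplicit false
open Cfsg

namespace Cfsg.Agent.S2576

/-- Which involutions of PGL_2m(q) coming from a scalar of the quadratic extension field lie in PSL_2m(q), q odd: let μ generate the Sylow 2-subgroup of the multiplicative group of the field with q elements (μ has order the 2-part of q − 1) and let t be the block-diagonal matrix with m diagonal blocks [[0, 1], [μ, 0]] (so t² is the scalar μ and t is an involution modulo scalars). Then some non-zero scalar multiple of t has determinant one if and only if q ≡ 3 (mod 4) or the 2-part of q − 1 is less than the 2-part of 2m. -/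
theorem result {F : Type*} [Field F] [Fintype F] {q : ℕ} (hF : Fintype.card F = q) (hq : Odd q) {m : ℕ} (hm : 1 ≤ m) (μ : F) (hμ : orderOf μ = 2 ^ padicValNat 2 (q - 1)) : (∃ c : F, c ≠ 0 ∧ (c • Matrix.blockDiagonal (fun _ : Fin m => !![(0 : F), 1; μ, 0])).det = 1) ↔ (q % 4 = 3 ∨ padicValNat 2 (q - 1) < padicValNat 2 (2 * m)) := by
  classical
  have hdet : ∀ c : F, (c • Matrix.blockDiagonal (fun _ : Fin m => !![(0 : F), 1; μ, 0])).det = c ^ (2 * m) * (-μ) ^ m := by
    intro c
    rw [Matrix.det_smul, Matrix.det_blockDiagonal]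
    simp [Matrix.det_fin_two_of]
  simp only [hdet]
  have hq1 : 1 < q := by
    rw [← hF]; exact Fintype.one_lt_card
  have hq0 : q - 1 ≠ 0 := by omega
  obtain ⟨a, r, hr, hqr⟩ := Nat.exists_eq_pow_mul_and_not_dvd hq0 2 (by norm_num)
  obtain ⟨b, m', hm', hmm⟩ := Nat.exists_eq_pow_mul_and_not_dvd (show m ≠ 0 by omega) 2 (by norm_num)
  have : Fact (Nat.Prime 2) := ⟨Nat.prime_two⟩
  have hr0 : r ≠ 0 := by
    rintro rfl; simp at hr
  have hm'0 : m' ≠ 0 := by
    rintro rfl; simp at hm'
  have hva : padicValNat 2 (q - 1) = a := by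
    rw [hqr, padicValNat.mul (by positivity) hr0, padicValNat.prime_pow,
      padicValNat.eq_zero_of_not_dvd hr, add_zero]
  have hvb : padicValNat 2 (2 * m) = b + 1 := by
    rw [padicValNat.mul (by norm_num) (by omega), hmm, padicValNat.mul (by positivity) hm'0,
      padicValNat.prime_pow, padicValNat.eq_zero_of_not_dvd hm', add_zero, padicValNat.self (by norm_num)]
    ring
  rw [hva] at hμ
  rw [hva, hvb]
  have hroot : μ ^ (2 ^ a) = 1 := by
    rw [← hμ]; exact pow_orderOf_eq_one μ
  have hrodd : Odd r := Nat.odd_iff.mpr (by omega)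
  have hm'odd : Odd m' := Nat.odd_iff.mpr (by omega)
  have hqodd : q % 2 = 1 := Nat.odd_iff.mp hq
  have ha : 1 ≤ a := by
    by_contra h
    have : a = 0 := by omega
    subst this
    simp at hqr
    rw [← hqr] at hr
    omega
  constructor
  · rintro ⟨c, hc0, hc⟩
    by_contra hcon
    push Not at hcon
    obtain ⟨h43, hab⟩ := hcon
    -- a ≥ 2
    have ha2 : 2 ≤ a := by
      by_contra h
      have : a = 1 := by omega
      subst this
      have hr2 : r % 2 = 1 := Nat.odd_iff.mp hrodd
      have h5 : q = 2 * r + 1 := by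
        have : q - 1 = 2 * r := by simpa using hqr
        omega
      omega
    -- raise to the power
    have hcq : c ^ (q - 1) = 1 := by
      rw [← hF]; exact FiniteField.pow_card_sub_one_eq_one c hc0
    obtain ⟨s, rfl⟩ : ∃ s, a = b + 1 + s := ⟨a - (b + 1), by omega⟩
    have h1 := congrArg (· ^ (r * 2 ^ s)) hc
    simp only [one_pow, mul_pow] at h1
    have h2 : (c ^ (2 * m)) ^ (r * 2 ^ s) = 1 := by
      have : 2 * m * (r * 2 ^ s) = (q - 1) * m' := by
        rw [hqr, hmm]; ring
      rw [← pow_mul, this, pow_mul, hcq, one_pow]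
    rw [h2, one_mul, ← pow_mul] at h1
    have h3 : m * (r * 2 ^ s) = 2 ^ (b + s) * (m' * r) := by
      rw [hmm]; ring
    have he : Even (2 ^ (b + s)) := (Nat.even_pow' (by omega)).mpr (by decide)
    rw [h3, pow_mul, he.neg_pow, ← pow_mul] at h1
    have h4 : 2 ^ (b + 1 + s) ∣ 2 ^ (b + s) * (m' * r) := by
      rw [← hμ]; exact orderOf_dvd_of_pow_eq_one h1
    rw [show b + 1 + s = (b + s) + 1 by ring, pow_succ] at h4
    have h5 : 2 ∣ m' * r := Nat.dvd_of_mul_dvd_mul_left (by positivity) h4
    rcases (Nat.prime_two.dvd_mul).mp h5 with h6 | h6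
    · exact hm' h6
    · exact hr h6
  · rintro (h | h)
    · refine ⟨1, one_ne_zero, ?_⟩
      have ha1 : a = 1 := by
        by_contra hne
        obtain ⟨s, rfl⟩ : ∃ s, a = s + 2 := ⟨a - 2, by omega⟩
        have : 4 ∣ q - 1 := by
          rw [hqr, pow_add]
          exact ⟨2 ^ s * r, by ring⟩
        omega
      subst ha1
      have hne : μ ≠ 1 := by
        rintro rfl
        simp at hμ
      have h5 : (μ - 1) * (μ + 1) = 0 := by
        have : μ ^ 2 = 1 := by simpa using hroot
        linear_combination this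
      have h6 : μ = -1 := by
        rcases mul_eq_zero.mp h5 with h7 | h7
        · exact absurd (sub_eq_zero.mp h7) hne
        · exact eq_neg_of_add_eq_zero_left h7
      rw [h6]; simp
    · refine ⟨1, one_ne_zero, ?_⟩
      have hab : a ≤ b := by omega
      obtain ⟨s, rfl⟩ : ∃ s, b = a + s := ⟨b - a, by omega⟩
      have he : Even m := by
        rw [hmm]
        exact Even.mul_right ((Nat.even_pow' (by omega)).mpr (by decide)) _
      rw [one_pow, one_mul, he.neg_pow, hmm, pow_add, mul_assoc, pow_mul, hroot, one_pow]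

end Cfsg.Agent.S2576
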