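import Cfsg.Statements.S2578
import Mathlib
import Cfsg.Agent.Lib.RegNil

set_option autoImplicit false
open Cfsg

namespace Cfsg.Agent.S2578

/-- Regular unipotent classes of SL_n(q): for n ≥ 2 over the field with q elements, the matrices u of determinant one with (u − 1)^n = 0 and rank(u − 1) = n − 1 form a single GL_n(q)-class which splits into exactly gcd(n, q − 1) conjugacy classes of SL_n(q). -/
theorem result {F : Type*} [Field F] [Fintype F] {q : ℕ} (hF : Fintype.card F = q) {n : ℕ} (hn : 2 ≤ n) : Nat.card {C : ConjClasses (Matrix.SpecialLinearGroup (Fin n) F) // ∃ u : Matrix.SpecialLinearGroup (Fin n) F, ConjClasses.mk u = C ∧ ((u : Matrix (Fin n) (Fin n) F) - 1) ^ n = 0 ∧ ((u : Matrix (Fin n) (Fin n) F) - 1).rank = n - 1} = Nat.gcd n (q - 1) := by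
  classical
  have hn1 : 1 ≤ n := by omega
  have hreg0 := Cfsg.Agent.Lib.RegNil.isReg_shift (F := F) hn1
  obtain ⟨N₀, hN₀⟩ : ∃ N₀, N₀ = Cfsg.Agent.Lib.RegNil.shift n F := ⟨_, rfl⟩
  rw [← hN₀] at hreg0
  have hdet0 : (1 + N₀ : Matrix (Fin n) (Fin n) F).det = 1 := by
    have h := Cfsg.Agent.Lib.RegNil.det_const_add_nil (A := N₀) ⟨n, hreg0.hnil⟩ (1 : F)
    simpa using h
  -- conjugates of the base point
  have hdetc : ∀ g : Matrix.GeneralLinearGroup (Fin n) F,
      ((g : Matrix (Fin n) (Fin n) F) * (1 + N₀) * ((g⁻¹ : Matrix.GeneralLinearGroup (Fin n) F) : Matrix (Fin n) (Fin n) F)).det = 1 := by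
    intro g
    rw [Matrix.det_mul, Matrix.det_mul, hdet0, mul_one, ← Matrix.det_mul, ← Units.val_mul, mul_inv_cancel, Units.val_one, Matrix.det_one]
  let cU : Matrix.GeneralLinearGroup (Fin n) F → Matrix.SpecialLinearGroup (Fin n) F := fun g => ⟨_, hdetc g⟩
  have hcU : ∀ g, ((cU g : Matrix.SpecialLinearGroup (Fin n) F) : Matrix (Fin n) (Fin n) F) =
      (g : Matrix (Fin n) (Fin n) F) * (1 + N₀) * ((g⁻¹ : Matrix.GeneralLinearGroup (Fin n) F) : Matrix (Fin n) (Fin n) F) := fun g => rfl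
  have hcUreg : ∀ g, Cfsg.Agent.Lib.RegNil.IsReg (((cU g : Matrix.SpecialLinearGroup (Fin n) F) : Matrix (Fin n) (Fin n) F) - 1) n := by
    intro g
    have h1 : ((cU g : Matrix.SpecialLinearGroup (Fin n) F) : Matrix (Fin n) (Fin n) F) - 1 =
        (g : Matrix (Fin n) (Fin n) F) * N₀ * ((g⁻¹ : Matrix.GeneralLinearGroup (Fin n) F) : Matrix (Fin n) (Fin n) F) := by
      rw [hcU, mul_add, add_mul, mul_one, sub_eq_iff_eq_add, add_comm]
      congr 1
      exact (Units.mul_inv g)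
    rw [h1]
    exact Cfsg.Agent.Lib.RegNil.isReg_conj hreg0 (Units.mul_inv g) (Units.inv_mul g)
  -- every regular element is such a conjugate
  have hall : ∀ u : Matrix.SpecialLinearGroup (Fin n) F, ((u : Matrix (Fin n) (Fin n) F) - 1) ^ n = 0 →
      ((u : Matrix (Fin n) (Fin n) F) - 1).rank = n - 1 → ∃ g, u = cU g := by
    intro u h1 h2
    have hr : Cfsg.Agent.Lib.RegNil.IsReg ((u : Matrix (Fin n) (Fin n) F) - 1) n := ⟨Fintype.card_fin n, hn1, h1, h2⟩
    obtain ⟨g, g', hgg', hg'g, hgN⟩ := Cfsg.Agent.Lib.RegNil.conj_of_isReg hreg0 hr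
    refine ⟨⟨g, g', hgg', hg'g⟩, ?_⟩
    apply Subtype.ext
    show (u : Matrix (Fin n) (Fin n) F) = g * (1 + N₀) * g'
    have h3 : g * (1 + N₀) = (u : Matrix (Fin n) (Fin n) F) * g := by
      rw [mul_add, mul_one, hgN, sub_mul, one_mul]
      abel
    rw [h3, mul_assoc, hgg', mul_one]
  -- the key criterion
  have hkey : ∀ g₁ g₂ : Matrix.GeneralLinearGroup (Fin n) F, IsConj (cU g₁) (cU g₂) ↔
      (Matrix.GeneralLinearGroup.det g₁)⁻¹ * Matrix.GeneralLinearGroup.det g₂ ∈ (powMonoidHom n : Fˣ →* Fˣ).range := by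
    intro g₁ g₂
    constructor
    · intro h
      obtain ⟨s, hs⟩ := isConj_iff.mp h
      rw [mul_inv_eq_iff_eq_mul] at hs
      have hs' : (s : Matrix (Fin n) (Fin n) F) * (g₁ * (1 + N₀) * ((g₁⁻¹ : Matrix.GeneralLinearGroup (Fin n) F) : Matrix (Fin n) (Fin n) F)) =
          (g₂ * (1 + N₀) * ((g₂⁻¹ : Matrix.GeneralLinearGroup (Fin n) F) : Matrix (Fin n) (Fin n) F)) * s :=
        congrArg (fun x : Matrix.SpecialLinearGroup (Fin n) F => (x : Matrix (Fin n) (Fin n) F)) hs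
      -- `h := g₁⁻¹ s⁻¹ g₂` commutes with `N₀`
      let σ : Matrix.GeneralLinearGroup (Fin n) F := (s⁻¹ : Matrix.SpecialLinearGroup (Fin n) F)
      have hσ : (σ : Matrix (Fin n) (Fin n) F) * (s : Matrix (Fin n) (Fin n) F) = 1 := by
        show ((s⁻¹ : Matrix.SpecialLinearGroup (Fin n) F) : Matrix (Fin n) (Fin n) F) * (s : Matrix (Fin n) (Fin n) F) = 1
        rw [← Matrix.SpecialLinearGroup.coe_mul, inv_mul_cancel, Matrix.SpecialLinearGroup.coe_one]
      have hσ' : (s : Matrix (Fin n) (Fin n) F) * (σ : Matrix (Fin n) (Fin n) F) = 1 := mul_eq_one_comm.mp hσ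
      have hσdet : Matrix.GeneralLinearGroup.det σ = 1 := by
        apply Units.ext
        exact (s⁻¹ : Matrix.SpecialLinearGroup (Fin n) F).2
      let τ : Matrix.GeneralLinearGroup (Fin n) F := g₁⁻¹ * σ * g₂
      have hτ : (τ : Matrix (Fin n) (Fin n) F) * N₀ = N₀ * τ := by
        have e1 : (τ : Matrix (Fin n) (Fin n) F) * (1 + N₀) = (1 + N₀) * τ := by
          have e2 : (τ : Matrix (Fin n) (Fin n) F) = ((g₁⁻¹ : Matrix.GeneralLinearGroup (Fin n) F) : Matrix (Fin n) (Fin n) F) * σ * g₂ := rfl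
          rw [e2]
          have e3 : (g₂ : Matrix (Fin n) (Fin n) F) * (1 + N₀) = (g₂ * (1 + N₀) * ((g₂⁻¹ : Matrix.GeneralLinearGroup (Fin n) F) : Matrix (Fin n) (Fin n) F)) * g₂ := by
            rw [mul_assoc _ _ (g₂ : Matrix (Fin n) (Fin n) F)]
            rw [show ((g₂⁻¹ : Matrix.GeneralLinearGroup (Fin n) F) : Matrix (Fin n) (Fin n) F) * (g₂ : Matrix (Fin n) (Fin n) F) = 1 from Units.inv_mul g₂, mul_one]
          calc ((g₁⁻¹ : Matrix.GeneralLinearGroup (Fin n) F) : Matrix (Fin n) (Fin n) F) * σ * g₂ * (1 + N₀)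
              = ((g₁⁻¹ : Matrix.GeneralLinearGroup (Fin n) F) : Matrix (Fin n) (Fin n) F) * σ * (g₂ * (1 + N₀)) := by simp only [mul_assoc]
            _ = ((g₁⁻¹ : Matrix.GeneralLinearGroup (Fin n) F) : Matrix (Fin n) (Fin n) F) * σ * ((g₂ * (1 + N₀) * ((g₂⁻¹ : Matrix.GeneralLinearGroup (Fin n) F) : Matrix (Fin n) (Fin n) F)) * g₂) := by rw [← e3]
            _ = ((g₁⁻¹ : Matrix.GeneralLinearGroup (Fin n) F) : Matrix (Fin n) (Fin n) F) * σ * (((g₂ * (1 + N₀) * ((g₂⁻¹ : Matrix.GeneralLinearGroup (Fin n) F) : Matrix (Fin n) (Fin n) F)) * s) * σ) * g₂ := by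
                simp only [mul_assoc]
                rw [← mul_assoc (s : Matrix (Fin n) (Fin n) F) (σ : Matrix (Fin n) (Fin n) F), hσ', one_mul]
            _ = ((g₁⁻¹ : Matrix.GeneralLinearGroup (Fin n) F) : Matrix (Fin n) (Fin n) F) * σ * (((s : Matrix (Fin n) (Fin n) F) * (g₁ * (1 + N₀) * ((g₁⁻¹ : Matrix.GeneralLinearGroup (Fin n) F) : Matrix (Fin n) (Fin n) F))) * σ) * g₂ := by rw [hs']
            _ = ((g₁⁻¹ : Matrix.GeneralLinearGroup (Fin n) F) : Matrix (Fin n) (Fin n) F) * (σ * s) * g₁ * (1 + N₀) * (((g₁⁻¹ : Matrix.GeneralLinearGroup (Fin n) F) : Matrix (Fin n) (Fin n) F) * σ * g₂) := by simp only [mul_assoc]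
            _ = _ := by
                rw [hσ, mul_one, show ((g₁⁻¹ : Matrix.GeneralLinearGroup (Fin n) F) : Matrix (Fin n) (Fin n) F) * (g₁ : Matrix (Fin n) (Fin n) F) = 1 from Units.inv_mul g₁, one_mul]
        rw [mul_add, add_mul, mul_one, one_mul] at e1
        exact add_left_cancel e1
      obtain ⟨c, hc⟩ := Cfsg.Agent.Lib.RegNil.det_of_comm hreg0 hτ
      have hτdet : Matrix.GeneralLinearGroup.det τ = (Matrix.GeneralLinearGroup.det g₁)⁻¹ * Matrix.GeneralLinearGroup.det g₂ := by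
        simp only [τ, map_mul, map_inv, hσdet, mul_one]
      have hdτ : (τ : Matrix (Fin n) (Fin n) F).det = ((Matrix.GeneralLinearGroup.det τ : Fˣ) : F) := rfl
      have hc0 : c ≠ 0 := by
        intro h0
        have : (τ : Matrix (Fin n) (Fin n) F).det = 0 := by
          rw [hc, h0, zero_pow (by omega)]
        rw [hdτ] at this
        exact Units.ne_zero _ this
      refine ⟨Units.mk0 c hc0, ?_⟩
      apply Units.ext
      rw [← hτdet, powMonoidHom_apply]
      simp only [Units.val_pow_eq_pow_val, Units.val_mk0]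
      rw [hdτ] at hc
      exact hc.symm
    · rintro ⟨c, hc⟩
      rw [powMonoidHom_apply] at hc
      -- the scalar correction
      let z : Matrix.GeneralLinearGroup (Fin n) F := Units.map (Matrix.scalar (Fin n)).toMonoidHom c⁻¹
      have hzv : (z : Matrix (Fin n) (Fin n) F) = Matrix.scalar (Fin n) ((c⁻¹ : Fˣ) : F) := rfl
      have hzinv : ((z⁻¹ : Matrix.GeneralLinearGroup (Fin n) F) : Matrix (Fin n) (Fin n) F) = Matrix.scalar (Fin n) (c : F) := by
        have : z⁻¹ = Units.map (Matrix.scalar (Fin n)).toMonoidHom c := by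
          simp [z]
        rw [this]
        rfl
      have hzdet : Matrix.GeneralLinearGroup.det z = (c ^ n)⁻¹ := by
        apply Units.ext
        show (z : Matrix (Fin n) (Fin n) F).det = _
        rw [hzv, Matrix.scalar_apply, Matrix.det_diagonal]
        simp
      let σ : Matrix.GeneralLinearGroup (Fin n) F := g₂ * g₁⁻¹ * z
      have hσdet : Matrix.GeneralLinearGroup.det σ = 1 := by
        simp only [σ, map_mul, map_inv, hzdet]
        rw [hc, mul_inv_eq_one, mul_comm]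
      let s : Matrix.SpecialLinearGroup (Fin n) F := ⟨σ, by
        have := congrArg (fun x : Fˣ => (x : F)) hσdet
        simpa using this⟩
      refine isConj_iff.mpr ⟨s, ?_⟩
      rw [mul_inv_eq_iff_eq_mul]
      apply Subtype.ext
      show (σ : Matrix (Fin n) (Fin n) F) * ((g₁ : Matrix (Fin n) (Fin n) F) * (1 + N₀) * ((g₁⁻¹ : Matrix.GeneralLinearGroup (Fin n) F) : Matrix (Fin n) (Fin n) F)) =
        ((g₂ : Matrix (Fin n) (Fin n) F) * (1 + N₀) * ((g₂⁻¹ : Matrix.GeneralLinearGroup (Fin n) F) : Matrix (Fin n) (Fin n) F)) * σ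
      have hσv : (σ : Matrix (Fin n) (Fin n) F) = ((c⁻¹ : Fˣ) : F) • ((g₂ : Matrix (Fin n) (Fin n) F) * ((g₁⁻¹ : Matrix.GeneralLinearGroup (Fin n) F) : Matrix (Fin n) (Fin n) F)) := by
        show ((g₂ * g₁⁻¹ * z : Matrix.GeneralLinearGroup (Fin n) F) : Matrix (Fin n) (Fin n) F) = _
        rw [Units.val_mul, Units.val_mul, hzv, Matrix.scalar_apply, ← Matrix.smul_one_eq_diagonal, mul_smul_comm, mul_one]
      rw [hσv, smul_mul_assoc, mul_smul_comm]
      congr 1
      have e1 : ((g₁⁻¹ : Matrix.GeneralLinearGroup (Fin n) F) : Matrix (Fin n) (Fin n) F) * (g₁ : Matrix (Fin n) (Fin n) F) = 1 := Units.inv_mul g₁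
      have e2 : ((g₂⁻¹ : Matrix.GeneralLinearGroup (Fin n) F) : Matrix (Fin n) (Fin n) F) * (g₂ : Matrix (Fin n) (Fin n) F) = 1 := Units.inv_mul g₂
      calc (g₂ : Matrix (Fin n) (Fin n) F) * ((g₁⁻¹ : Matrix.GeneralLinearGroup (Fin n) F) : Matrix (Fin n) (Fin n) F) * ((g₁ : Matrix (Fin n) (Fin n) F) * (1 + N₀) * ((g₁⁻¹ : Matrix.GeneralLinearGroup (Fin n) F) : Matrix (Fin n) (Fin n) F))
          = g₂ * (((g₁⁻¹ : Matrix.GeneralLinearGroup (Fin n) F) : Matrix (Fin n) (Fin n) F) * g₁) * (1 + N₀) * ((g₁⁻¹ : Matrix.GeneralLinearGroup (Fin n) F) : Matrix (Fin n) (Fin n) F) := by simp only [mul_assoc]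
        _ = g₂ * (1 + N₀) * ((g₂⁻¹ : Matrix.GeneralLinearGroup (Fin n) F) : Matrix (Fin n) (Fin n) F) * g₂ * ((g₁⁻¹ : Matrix.GeneralLinearGroup (Fin n) F) : Matrix (Fin n) (Fin n) F) := by
            rw [e1, mul_one, mul_assoc _ _ (g₂ : Matrix (Fin n) (Fin n) F), e2, mul_one]
        _ = _ := by simp only [mul_assoc]
  -- a section of the determinant
  have hsurj : Function.Surjective (Matrix.GeneralLinearGroup.det : Matrix.GeneralLinearGroup (Fin n) F →* Fˣ) := by
    intro d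
    refine ⟨⟨Matrix.diagonal (fun k => if (k : ℕ) = 0 then (d : F) else 1),
      Matrix.diagonal (fun k => if (k : ℕ) = 0 then ((d⁻¹ : Fˣ) : F) else 1), ?_, ?_⟩, ?_⟩
    · rw [Matrix.diagonal_mul_diagonal, ← Matrix.diagonal_one]
      congr 1
      funext k
      by_cases h : (k : ℕ) = 0 <;> simp [h]
    · rw [Matrix.diagonal_mul_diagonal, ← Matrix.diagonal_one]
      congr 1
      funext k
      by_cases h : (k : ℕ) = 0 <;> simp [h]
    · apply Units.ext
      show (Matrix.diagonal _ : Matrix (Fin n) (Fin n) F).det = _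
      rw [Matrix.det_diagonal, Finset.prod_eq_single (⟨0, by omega⟩ : Fin n)]
      · simp
      · intro b _ hb
        rw [if_neg]
        intro h
        exact hb (Fin.ext h)
      · simp
  let gd : Fˣ → Matrix.GeneralLinearGroup (Fin n) F := Function.surjInv hsurj
  have hgd : ∀ d, Matrix.GeneralLinearGroup.det (gd d) = d := Function.surjInv_eq hsurj
  -- the bijection
  let S := {C : ConjClasses (Matrix.SpecialLinearGroup (Fin n) F) // ∃ u : Matrix.SpecialLinearGroup (Fin n) F, ConjClasses.mk u = C ∧ ((u : Matrix (Fin n) (Fin n) F) - 1) ^ n = 0 ∧ ((u : Matrix (Fin n) (Fin n) F) - 1).rank = n - 1}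
  let P : Subgroup Fˣ := (powMonoidHom n : Fˣ →* Fˣ).range
  let Φ₀ : Fˣ → S := fun d => ⟨ConjClasses.mk (cU (gd d)), cU (gd d), rfl, (hcUreg _).hnil, (hcUreg _).hrank⟩
  have hΦ₀ : ∀ a b : Fˣ, Φ₀ a = Φ₀ b ↔ a⁻¹ * b ∈ P := by
    intro a b
    rw [Subtype.ext_iff]
    show ConjClasses.mk (cU (gd a)) = ConjClasses.mk (cU (gd b)) ↔ _
    rw [ConjClasses.mk_eq_mk_iff_isConj, hkey, hgd, hgd]
  let Φ : Fˣ ⧸ P → S := Quotient.lift Φ₀ (by
    intro a b hab
    exact (hΦ₀ a b).mpr (QuotientGroup.leftRel_apply.mp hab))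
  have hΦbij : Function.Bijective Φ := by
    constructor
    · intro x y
      refine Quotient.inductionOn₂ x y ?_
      intro a b hab
      exact QuotientGroup.eq.mpr ((hΦ₀ a b).mp hab)
    · rintro ⟨C, u, rfl, h1, h2⟩
      obtain ⟨g, rfl⟩ := hall u h1 h2
      refine ⟨(QuotientGroup.mk (Matrix.GeneralLinearGroup.det g) : Fˣ ⧸ P), ?_⟩
      apply Subtype.ext
      show ConjClasses.mk (cU (gd (Matrix.GeneralLinearGroup.det g))) = ConjClasses.mk (cU g)
      rw [ConjClasses.mk_eq_mk_iff_isConj, hkey, hgd]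
      simp only [inv_mul_cancel]
      exact one_mem _
  have hcard : Nat.card S = Nat.card (Fˣ ⧸ P) := (Nat.card_eq_of_bijective Φ hΦbij).symm
  show Nat.card S = _
  rw [hcard, ← Subgroup.index_eq_card]
  have h5 : P.index = Nat.gcd (Nat.card Fˣ) n := IsCyclic.index_powMonoidHom_range Fˣ n
  rw [h5, Nat.card_eq_fintype_card, Fintype.card_units, hF, Nat.gcd_comm]

end Cfsg.Agent.S2578
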