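import Mathlib
import Cfsg.Statements.S2579
import Cfsg.Agent.Lib.Transv

set_option autoImplicit false
open Cfsg

namespace Cfsg.Agent.S2579

/-- In SL_n(F) with n ≥ 3, over a finite field F, any two transvections (matrices t with t − 1 of rank one and square zero) are conjugate by an element of SL_n(F). -/
theorem result {F : Type*} [Field F] [Finite F] {n : ℕ} (hn : 3 ≤ n) (s t : Matrix.SpecialLinearGroup (Fin n) F) (hs : Cfsg.IsTransvection (s : Matrix (Fin n) (Fin n) F)) (ht : Cfsg.IsTransvection (t : Matrix (Fin n) (Fin n) F)) : IsConj s t := by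
  classical
  obtain ⟨k, rfl⟩ : ∃ k, n = k + 3 := ⟨n - 3, by omega⟩
  have key : ∀ x : Matrix.SpecialLinearGroup (Fin (k + 3)) F, Cfsg.IsTransvection (x : Matrix (Fin (k + 3)) (Fin (k + 3)) F) →
      ∀ T₀ : Matrix.SpecialLinearGroup (Fin (k + 3)) F, (T₀ : Matrix (Fin (k + 3)) (Fin (k + 3)) F) = 1 + Matrix.single 1 0 1 →
      IsConj T₀ x := by
    intro x hx T₀ hT₀
    obtain ⟨g, hg1, hg2⟩ := Cfsg.Agent.Lib.Transv.exists_sl_conj (x.1 - 1) hx.1 hx.2
    let g' : Matrix.SpecialLinearGroup (Fin (k + 3)) F := ⟨g, hg1⟩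
    refine isConj_iff.mpr ⟨g', ?_⟩
    have h : g' * T₀ = x * g' := by
      apply Subtype.ext
      change g * T₀.1 = x.1 * g
      have := hg2
      rw [add_sub_cancel] at this
      rw [hT₀, this]
    rw [h, mul_inv_cancel_right]
  let T₀ : Matrix.SpecialLinearGroup (Fin (k + 3)) F := ⟨1 + Matrix.single 1 0 1, by
    have := Matrix.det_transvection_of_ne (n := Fin (k + 3)) (R := F) (1 : Fin (k + 3)) 0 (by
      intro h
      have := congrArg Fin.val h
      simp at this) 1
    simpa [Matrix.transvection] using this⟩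
  exact (key s hs T₀ rfl).symm.trans (key t ht T₀ rfl)

end Cfsg.Agent.S2579
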