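import Cfsg.Statements.S2582
import Mathlib
import Cfsg.Agent.Lib.JTypeFinal
import Cfsg.Agent.Lib.SpBasic
import Cfsg.Agent.Lib.Inv2
import Cfsg.Agent.Lib.OrthMatrix

set_option autoImplicit false
open Cfsg

namespace Cfsg.Agent.S2582

/-- Which unipotent Jordan types occur in the finite symplectic group: over a finite field, a unipotent matrix with Jordan block sizes d_1, …, d_t (sum 2m, all at least 1) is similar to an element of Sp_2m(F) if and only if every odd block size occurs an even number of times. -/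
theorem result {F : Type*} [Field F] [Fintype F] {m t : ℕ} (d : Fin t → ℕ) (hd : ∀ k, 1 ≤ d k) (hsum : ∑ k, d k = 2 * m) : (∃ e : ((k : Fin t) × Fin (d k)) ≃ (Fin m ⊕ Fin m), ∃ A : Matrix.symplecticGroup (Fin m) F, IsConj (Matrix.reindex e e (Cfsg.jordanTypeMatrix d F)) (A : Matrix (Fin m ⊕ Fin m) (Fin m ⊕ Fin m) F)) ↔ ∀ j : ℕ, Odd j → Even (Finset.univ.filter (fun k : Fin t => d k = j)).card := by
  open Cfsg.Agent.Lib.JTypeFinal in
  constructor
  · rintro ⟨e, A, hc⟩ j hj
    refine nec_sp hd e hc ωB_nd ωB_alt (fun x y => ?_) j hj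
    simp only [ωB_apply]
    exact Cfsg.Agent.Lib.SpBasic.mem_symplecticGroup_iff.mp A.2 x y
  · intro h
    obtain ⟨f, hnd, hinv, halt⟩ := exists_alt_form (F := F) hd h
    exact sp_std hsum hnd hinv halt

end Cfsg.Agent.S2582
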