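import Cfsg.Statements.S2584
import Mathlib
import Cfsg.Agent.Lib.JTypeFinal
import Cfsg.Agent.Lib.SpBasic
import Cfsg.Agent.Lib.Inv2
import Cfsg.Agent.Lib.OrthMatrix

set_option autoImplicit false
open Cfsg

namespace Cfsg.Agent.S2584

/-- Which unipotent Jordan types occur in a finite orthogonal group in characteristic two: over a finite field of characteristic 2 and in even dimension 2m, a unipotent matrix with Jordan block sizes d_1, …, d_t (sum 2m, all at least 1) is similar to an isometry of some quadratic form on F^(2m) with non-degenerate polar form if and only if every odd block size occurs an even number of times (the same condition as for the symplectic group, which contains these orthogonal groups). -/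
theorem result {F : Type*} [Field F] [Fintype F] [CharP F 2] {m t : ℕ} (d : Fin t → ℕ) (hd : ∀ k, 1 ≤ d k) (hsum : ∑ k, d k = 2 * m) : (∃ Q : QuadraticForm F (Fin (2 * m) → F), (QuadraticMap.polarBilin Q).Nondegenerate ∧ ∃ e : ((k : Fin t) × Fin (d k)) ≃ Fin (2 * m), ∃ A : ↥(Cfsg.isometryGroup F ⇑Q), IsConj (Matrix.reindex e e (Cfsg.jordanTypeMatrix d F)) ((A : Matrix.GeneralLinearGroup (Fin (2 * m)) F) : Matrix (Fin (2 * m)) (Fin (2 * m)) F)) ↔ ∀ j : ℕ, Odd j → Even (Finset.univ.filter (fun k : Fin t => d k = j)).card := by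
  open Cfsg.Agent.Lib.JTypeFinal Cfsg.Agent.Lib.JType in
  constructor
  · rintro ⟨Q, hnd, e, A, hc⟩ j hj
    refine nec_sp hd e hc hnd (Cfsg.Agent.Lib.Inv2.pB_alt Q) (fun x y => ?_) j hj
    have hQ : ∀ u, Q (((A : Matrix.GeneralLinearGroup (Fin (2 * m)) F) : Matrix (Fin (2 * m)) (Fin (2 * m)) F).mulVec u) = Q u :=
      (Cfsg.Agent.Lib.OrthMatrix.mem_isometryGroup _ _).1 A.2
    simp only [QuadraticMap.polarBilin_apply_apply, QuadraticMap.polar, ← Matrix.mulVec_add, hQ]
  · intro h
    classical
    obtain ⟨f, hnd, hinv, halt⟩ := exists_alt_form (F := F) hd h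
    have hS : ∀ x y, f x y = f y x := fun x y => by
      have h1 := halt.neg_eq x y
      rw [CharTwo.neg_eq] at h1
      exact h1
    obtain ⟨Q, hQ1, hQ2⟩ := dye hS halt (Ju d F) hinv
    have hcard : Fintype.card (Kap d) = Fintype.card (Fin (2 * m)) := by
      simp [Kap, Fintype.card_sigma, hsum]
    let e : Kap d ≃ Fin (2 * m) := Fintype.equivOfCardEq hcard
    obtain ⟨Q', h1, A, h3⟩ := q_std e (Q := Q) (by rw [hQ1]; exact hnd) hQ2
    exact ⟨Q', h1, e, A, h3⟩

end Cfsg.Agent.S2584
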