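import Mathlib
import Cfsg.Statements.S2585

set_option autoImplicit false
open Cfsg

namespace Cfsg.Agent.S2585

open Matrix

/-- the form `Σ x_i y_i` as a QuadraticForm -/
noncomputable def Q0 (m : ℕ) (F : Type*) [Field F] : QuadraticForm F (Fin m ⊕ Fin m → F) :=
  ∑ i : Fin m, QuadraticMap.linMulLin (LinearMap.proj (Sum.inl i)) (LinearMap.proj (Sum.inr i))

theorem Q0_apply (m : ℕ) (F : Type*) [Field F] (v : Fin m ⊕ Fin m → F) :
    Q0 m F v = ∑ i : Fin m, v (Sum.inl i) * v (Sum.inr i) := by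
  simp [Q0]

theorem polar_Q0 (m : ℕ) (F : Type*) [Field F] [CharP F 2] (u v : Fin m ⊕ Fin m → F) :
    QuadraticMap.polar (Q0 m F) u v = Cfsg.sympForm m F u v := by
  have h2 : (2 : F) = 0 := by
    have := CharP.cast_eq_zero F 2
    exact_mod_cast this
  have hJ : Matrix.J (Fin m) F *ᵥ v = Sum.elim (fun i => - v (Sum.inr i)) (fun i => v (Sum.inl i)) := by
    ext k
    rcases k with i | i <;>
    simp [Matrix.J, Matrix.mulVec, dotProduct, Fintype.sum_sum_type, Matrix.one_apply]
  simp only [QuadraticMap.polar, Q0_apply, Cfsg.sympForm, hJ]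
  simp only [dotProduct, Fintype.sum_sum_type, Sum.elim_inl, Sum.elim_inr, Pi.add_apply]
  rw [← Finset.sum_sub_distrib, ← Finset.sum_sub_distrib, ← Finset.sum_add_distrib]
  refine Finset.sum_congr rfl fun i _ => ?_
  linear_combination (u (Sum.inl i) * v (Sum.inr i)) * h2

/-- Over a finite field of characteristic two every element of the symplectic group is orthogonal for a suitable quadratic form: for each A in Sp_2m(F) there is a quadratic form Q on F^(2m) whose polar form is the alternating form defining Sp_2m(F) (so Q is non-degenerate) and which A preserves. Equivalently, for m ≥ 1, Sp_2m(F) is the union of the conjugates of its two orthogonal subgroups O⁺_2m(F) and O⁻_2m(F). -/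
theorem result {F : Type*} [Field F] [Fintype F] [CharP F 2] {m : ℕ} (A : Matrix.symplecticGroup (Fin m) F) : ∃ Q : QuadraticForm F (Fin m ⊕ Fin m → F), (∀ u v : Fin m ⊕ Fin m → F, QuadraticMap.polar ⇑Q u v = Cfsg.sympForm m F u v) ∧ ∀ v : Fin m ⊕ Fin m → F, Q ((A : Matrix (Fin m ⊕ Fin m) (Fin m ⊕ Fin m) F).mulVec v) = Q v := by
  classical
  set M : Matrix (Fin m ⊕ Fin m) (Fin m ⊕ Fin m) F := (A : Matrix (Fin m ⊕ Fin m) (Fin m ⊕ Fin m) F) with hM
  have h2 : (2 : F) = 0 := by
    have := CharP.cast_eq_zero F 2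
    exact_mod_cast this
  have hsymp : ∀ u v, Cfsg.sympForm m F (M *ᵥ u) (M *ᵥ v) = Cfsg.sympForm m F u v := by
    intro u v
    have h1 : Mᵀ * Matrix.J (Fin m) F * M = Matrix.J (Fin m) F :=
      (SymplecticGroup.mem_iff').mp A.2
    simp only [Cfsg.sympForm]
    rw [← Matrix.vecMul_transpose, ← Matrix.dotProduct_mulVec, Matrix.mulVec_mulVec,
      Matrix.mulVec_mulVec, h1]
  have hMadd : ∀ u v, M *ᵥ (u + v) = M *ᵥ u + M *ᵥ v := Matrix.mulVec_add M
  have hQ0add : ∀ u v, Q0 m F (u + v) = Cfsg.sympForm m F u v + Q0 m F u + Q0 m F v := by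
    intro u v
    rw [← polar_Q0]
    simp only [QuadraticMap.polar]
    ring
  let D : (Fin m ⊕ Fin m → F) → F := fun v => Q0 m F (M *ᵥ v) + Q0 m F v
  have hDadd : ∀ u v, D (u + v) = D u + D v := by
    intro u v
    simp only [D]
    rw [hMadd, hQ0add, hQ0add u v, hsymp]
    linear_combination (Cfsg.sympForm m F u v) * h2
  have hDsmul : ∀ (c : F) v, D (c • v) = c ^ 2 * D v := by
    intro c v
    simp only [D]
    rw [Matrix.mulVec_smul, QuadraticMap.map_smul, QuadraticMap.map_smul]
    simp only [smul_eq_mul]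
    ring
  have : Fact (Nat.Prime 2) := ⟨Nat.prime_two⟩
  let σ : F ≃+* F := (frobeniusEquiv F 2).symm
  have hσ : ∀ x, (σ x) ^ 2 = x := fun x => frobenius_apply_frobeniusEquiv_symm F 2 x
  have hσ2 : ∀ x, σ (x ^ 2) = x := fun x => frobeniusEquiv_symm_apply_frobenius F 2 x
  let φ : (Fin m ⊕ Fin m → F) →ₗ[F] F :=
    { toFun := fun v => σ (D v)
      map_add' := by
        intro u v
        simp only [hDadd, map_add]
      map_smul' := by
        intro c v
        simp only [hDsmul, map_mul, hσ2, RingHom.id_apply, smul_eq_mul] }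
  have hφ2 : ∀ v, (φ v) ^ 2 = D v := fun v => hσ _
  let f : (Fin m ⊕ Fin m → F) →ₗ[F] (Fin m ⊕ Fin m → F) := M.mulVecLin - LinearMap.id
  have hker : φ ∈ (LinearMap.ker f).dualAnnihilator := by
    rw [Submodule.mem_dualAnnihilator]
    intro v hv
    have h1 : M *ᵥ v = v := by
      have : f v = 0 := hv
      simpa [f, sub_eq_zero] using this
    have h3 : D v = 0 := by
      simp only [D, h1]
      linear_combination (Q0 m F v) * h2
    change σ (D v) = 0
    rw [h3, map_zero]
  rw [← LinearMap.range_dualMap_eq_dualAnnihilator_ker] at hker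
  obtain ⟨ψ, hψ⟩ := hker
  have hψ' : ∀ v, ψ (M *ᵥ v) = ψ v + φ v := by
    intro v
    have : ψ (f v) = φ v := by
      rw [← hψ]; rfl
    have h3 : f v = M *ᵥ v - v := rfl
    rw [h3, map_sub] at this
    rw [← this]; ring
  refine ⟨Q0 m F + QuadraticMap.linMulLin ψ ψ, ?_, ?_⟩
  · intro u v
    rw [← polar_Q0]
    simp only [QuadraticMap.polar, _root_.add_apply, QuadraticMap.linMulLin_apply, map_add]
    linear_combination (ψ u * ψ v) * h2
  · intro v
    simp only [_root_.add_apply, QuadraticMap.linMulLin_apply]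
    rw [hψ']
    have h3 := hφ2 v
    simp only [D] at h3
    linear_combination h3 + (Q0 m F (M *ᵥ v) + ψ v * φ v) * h2

end Cfsg.Agent.S2585
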