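import Cfsg.Statements.S2590
import Mathlib
import Cfsg.Agent.Lib.SemisimpleOrth

set_option autoImplicit false
open Cfsg

namespace Cfsg.Agent.S2590

/-- Two semisimple elements of odd order of a finite orthogonal group (isometry group of a quadratic form on F^n with non-degenerate polar form, F finite of characteristic p; the elements have odd order prime to p) are conjugate in the orthogonal group if and only if they are conjugate in GL_n(F). -/
theorem result {F : Type*} [Field F] [Fintype F] {p : ℕ} [Fact p.Prime] [CharP F p] {n : ℕ} (Q : QuadraticForm F (Fin n → F)) (hQ : (QuadraticMap.polarBilin Q).Nondegenerate) (A B : ↥(Cfsg.isometryGroup F ⇑Q)) (hodd : Odd (orderOf A)) (hA : (orderOf A).Coprime p) : IsConj A B ↔ IsConj ((A : Matrix.GeneralLinearGroup (Fin n) F) : Matrix (Fin n) (Fin n) F) ((B : Matrix.GeneralLinearGroup (Fin n) F) : Matrix (Fin n) (Fin n) F) := by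
  classical
  constructor
  · intro h
    let f : ↥(Cfsg.isometryGroup F ⇑Q) →* Matrix (Fin n) (Fin n) F :=
      (Units.coeHom (Matrix (Fin n) (Fin n) F)).comp (Subgroup.subtype _)
    exact f.map_isConj h
  · rintro ⟨c, hc⟩
    have hab : (c : Matrix (Fin n) (Fin n) F) * ((A : Matrix.GeneralLinearGroup (Fin n) F) : Matrix (Fin n) (Fin n) F) =
        ((B : Matrix.GeneralLinearGroup (Fin n) F) : Matrix (Fin n) (Fin n) F) * c := hc
    have hk : ((A : Matrix.GeneralLinearGroup (Fin n) F) : Matrix (Fin n) (Fin n) F) ^ orderOf A = 1 := by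
      let f : ↥(Cfsg.isometryGroup F ⇑Q) →* Matrix (Fin n) (Fin n) F :=
        (Units.coeHom (Matrix (Fin n) (Fin n) F)).comp (Subgroup.subtype _)
      have h1 : f (A ^ orderOf A) = 1 := by rw [pow_orderOf_eq_one, map_one]
      rw [map_pow] at h1
      exact h1
    obtain ⟨g, hg1, hg2⟩ := Cfsg.Agent.Lib.SemisimpleOrth.orth_conj (p := p) Q hQ
      (a := ((A : Matrix.GeneralLinearGroup (Fin n) F) : Matrix (Fin n) (Fin n) F))
      (b := ((B : Matrix.GeneralLinearGroup (Fin n) F) : Matrix (Fin n) (Fin n) F))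
      (c := c) (c' := ((c⁻¹ : (Matrix (Fin n) (Fin n) F)ˣ) : Matrix (Fin n) (Fin n) F))
      (fun v => A.2 v v) (fun v => B.2 v v) (Units.mul_inv c) (Units.inv_mul c) hab hk hodd hA
    let γ : Matrix.GeneralLinearGroup (Fin n) F := Cfsg.Agent.Lib.OrthMatrix.glEquiv.symm g
    have hγ : ∀ v, (γ : Matrix (Fin n) (Fin n) F).mulVec v = g v := fun v =>
      Cfsg.Agent.Lib.OrthMatrix.mulVec_glEquiv_symm g v
    have hγm : γ ∈ Cfsg.isometryGroup F ⇑Q := (Cfsg.Agent.Lib.OrthMatrix.mem_isometryGroup _ _).2 fun u => by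
      rw [hγ]
      exact hg1 u
    refine isConj_iff.mpr ⟨⟨γ, hγm⟩, ?_⟩
    rw [mul_inv_eq_iff_eq_mul]
    apply Subtype.ext
    apply Units.ext
    show (γ : Matrix (Fin n) (Fin n) F) * ((A : Matrix.GeneralLinearGroup (Fin n) F) : Matrix (Fin n) (Fin n) F) =
      ((B : Matrix.GeneralLinearGroup (Fin n) F) : Matrix (Fin n) (Fin n) F) * γ
    rw [Cfsg.Agent.Lib.OrthMatrix.matrix_eq_iff]
    intro v
    rw [← Matrix.mulVec_mulVec, ← Matrix.mulVec_mulVec, hγ, hγ]
    exact hg2 v

end Cfsg.Agent.S2590
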