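import Cfsg.Statements.S2591
import Mathlib
import Cfsg.Agent.Lib.RegSp2

set_option autoImplicit false
open Cfsg

namespace Cfsg.Agent.S2591

/-- Over a finite field of odd order and for m ≥ 1, the regular unipotent elements of Sp_2m(F) (u − 1 nilpotent of rank 2m − 1, a single Jordan block) form exactly two conjugacy classes of Sp_2m(F) (one class under the similarity group, which splits in two). -/
theorem result {F : Type*} [Field F] [Fintype F] {q : ℕ} (hF : Fintype.card F = q) (hq : Odd q) {m : ℕ} (hm : 1 ≤ m) : Nat.card {C : ConjClasses ↥(Matrix.symplecticGroup (Fin m) F) // ∃ u : Matrix.symplecticGroup (Fin m) F, ConjClasses.mk u = C ∧ ((u : Matrix (Fin m ⊕ Fin m) (Fin m ⊕ Fin m) F) - 1) ^ (2 * m) = 0 ∧ ((u : Matrix (Fin m ⊕ Fin m) (Fin m ⊕ Fin m) F) - 1).rank = 2 * m - 1} = 2 := by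
  classical
  have h2 := Cfsg.Agent.Lib.RegSp.two_ne_zero_of_odd hF hq
  have hG := Cfsg.Agent.Lib.RegSp.isGram_J (F := F) (l := Fin m)
  have hchar : ringChar F ≠ 2 := by
    intro h
    apply h2
    have : CharP F 2 := by
      rw [← h]
      exact ringChar.charP F
    exact CharTwo.two_eq_zero
  obtain ⟨μ, hμ⟩ := FiniteField.exists_nonsquare hchar
  have hμ0 : μ ≠ 0 := by
    rintro rfl
    exact hμ IsSquare.zero
  obtain ⟨A, hA, hR⟩ := Cfsg.Agent.Lib.RegSp2.exists_reg_sp (l := Fin m) h2 (m := m) (by simp) hm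
  have hσ : (Cfsg.Agent.Lib.RegSp2.D μ : Matrix (Fin m ⊕ Fin m) (Fin m ⊕ Fin m) F) * Cfsg.Agent.Lib.RegSp2.D μ⁻¹ = 1 :=
    Cfsg.Agent.Lib.RegSp2.D_mul hμ0
  have hσ' : (Cfsg.Agent.Lib.RegSp2.D μ⁻¹ : Matrix (Fin m ⊕ Fin m) (Fin m ⊕ Fin m) F) * Cfsg.Agent.Lib.RegSp2.D μ = 1 :=
    mul_eq_one_comm.mp hσ
  obtain ⟨B, hBd⟩ : ∃ B, B = (Cfsg.Agent.Lib.RegSp2.D μ : Matrix (Fin m ⊕ Fin m) (Fin m ⊕ Fin m) F) * A * Cfsg.Agent.Lib.RegSp2.D μ⁻¹ := ⟨_, rfl⟩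
  have hB : Cfsg.Agent.Lib.SemisimpleConj.adj (Matrix.J (Fin m) F) (-Matrix.J (Fin m) F) B * B = 1 := by
    rw [hBd]
    exact Cfsg.Agent.Lib.RegSp2.sim_facts hμ0 hA
  have hRB : Cfsg.Agent.Lib.RegNil.IsReg (B - 1) (2 * m) := by
    have e : B - 1 = Cfsg.Agent.Lib.RegSp2.D μ * (A - 1) * Cfsg.Agent.Lib.RegSp2.D μ⁻¹ := by
      rw [hBd, mul_sub, sub_mul, mul_one, hσ]
    rw [e]
    exact Cfsg.Agent.Lib.RegNil.isReg_conj hR hσ hσ'
  let u₀ : Matrix.symplecticGroup (Fin m) F := ⟨A, Cfsg.Agent.Lib.RegSp.mem_sp_iff.mpr hA⟩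
  let u₁ : Matrix.symplecticGroup (Fin m) F := ⟨B, Cfsg.Agent.Lib.RegSp.mem_sp_iff.mpr hB⟩
  have hconj : ∀ (g : Matrix (Fin m ⊕ Fin m) (Fin m ⊕ Fin m) F) (a b : Matrix.symplecticGroup (Fin m) F),
      Cfsg.Agent.Lib.SemisimpleConj.adj (Matrix.J (Fin m) F) (-Matrix.J (Fin m) F) g * g = 1 →
      g * (a : Matrix (Fin m ⊕ Fin m) (Fin m ⊕ Fin m) F) = (b : Matrix (Fin m ⊕ Fin m) (Fin m ⊕ Fin m) F) * g → IsConj a b := by
    intro g a b h1 h3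
    refine isConj_iff.mpr ⟨⟨g, Cfsg.Agent.Lib.RegSp.mem_sp_iff.mpr h1⟩, ?_⟩
    rw [mul_inv_eq_iff_eq_mul]
    exact Subtype.ext h3
  rw [Nat.card_eq_two_iff]
  refine ⟨⟨ConjClasses.mk u₀, u₀, rfl, hR.hnil, hR.hrank⟩, ⟨ConjClasses.mk u₁, u₁, rfl, hRB.hnil, hRB.hrank⟩, ?_, ?_⟩
  · intro h
    have h3 : ConjClasses.mk u₀ = ConjClasses.mk u₁ := congrArg Subtype.val h
    rw [ConjClasses.mk_eq_mk_iff_isConj] at h3
    obtain ⟨g, hg⟩ := isConj_iff.mp h3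
    rw [mul_inv_eq_iff_eq_mul] at hg
    have hg' : (g : Matrix (Fin m ⊕ Fin m) (Fin m ⊕ Fin m) F) * A = B * g := congrArg Subtype.val hg
    rw [hBd] at hg'
    obtain ⟨c, hc⟩ := Cfsg.Agent.Lib.RegSp.not_conj_sim h2 hG hA hR hσ hσ' (Cfsg.Agent.Lib.RegSp2.adj_D μ⁻¹)
      (Cfsg.Agent.Lib.RegSp.mem_sp_iff.mp g.2) hg'
    apply hμ
    have : IsSquare μ⁻¹ := ⟨c, hc⟩
    exact isSquare_inv.mp this
  · ext x
    simp only [Set.mem_insert_iff, Set.mem_singleton_iff, Set.mem_univ, iff_true]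
    obtain ⟨C, v, rfl, h3, h4⟩ := x
    have hv := Cfsg.Agent.Lib.RegSp.mem_sp_iff.mp v.2
    have hRv : Cfsg.Agent.Lib.RegNil.IsReg ((v : Matrix (Fin m ⊕ Fin m) (Fin m ⊕ Fin m) F) - 1) (2 * m) :=
      ⟨hR.hcard, hR.hpos, h3, h4⟩
    rcases Cfsg.Agent.Lib.RegSp2.conj_or h2 hμ hA hv hR hRv with ⟨g, h5, h6⟩ | ⟨g, h5, h6⟩
    · left
      apply Subtype.ext
      show ConjClasses.mk v = ConjClasses.mk u₀
      rw [ConjClasses.mk_eq_mk_iff_isConj]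
      exact (hconj g u₀ v h5 h6).symm
    · right
      apply Subtype.ext
      show ConjClasses.mk v = ConjClasses.mk u₁
      rw [ConjClasses.mk_eq_mk_iff_isConj]
      refine (hconj g u₁ v h5 ?_).symm
      show g * B = _
      rw [hBd]
      exact h6

end Cfsg.Agent.S2591
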