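import Cfsg.Statements.S2592
import Mathlib
import Cfsg.Agent.Lib.RegSp

set_option autoImplicit false
open Cfsg

namespace Cfsg.Agent.S2592

/-- Over a finite field with q elements, q odd, the centraliser in Sp_2m(F) (m ≥ 1) of a regular unipotent element (u − 1 nilpotent of rank 2m − 1) has order 2 q^m. -/
theorem result {F : Type*} [Field F] [Fintype F] {q : ℕ} (hF : Fintype.card F = q) (hq : Odd q) {m : ℕ} (hm : 1 ≤ m) (u : Matrix.symplecticGroup (Fin m) F) (hnil : ((u : Matrix (Fin m ⊕ Fin m) (Fin m ⊕ Fin m) F) - 1) ^ (2 * m) = 0) (hreg : ((u : Matrix (Fin m ⊕ Fin m) (Fin m ⊕ Fin m) F) - 1).rank = 2 * m - 1) : Nat.card ↥(Subgroup.centralizer ({u} : Set ↥(Matrix.symplecticGroup (Fin m) F))) = 2 * q ^ m := by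
  classical
  have h2 := Cfsg.Agent.Lib.RegSp.two_ne_zero_of_odd hF hq
  have hG := Cfsg.Agent.Lib.RegSp.isGram_J (F := F) (l := Fin m)
  have hcard : Fintype.card (Fin m ⊕ Fin m) = 2 * m := by simp; omega
  have hN : Cfsg.Agent.Lib.RegNil.IsReg ((u : Matrix (Fin m ⊕ Fin m) (Fin m ⊕ Fin m) F) - 1) (2 * m) :=
    ⟨hcard, by omega, hnil, hreg⟩
  have hu := Cfsg.Agent.Lib.RegSp.mem_sp_iff.mp u.2
  rw [← hF, ← Cfsg.Agent.Lib.RegSp.card_cent h2 hG hu hN]
  refine Nat.card_congr ?_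
  exact {
    toFun := fun g => ⟨g.1.1, by
      have h1 := Subgroup.mem_centralizer_singleton_iff.mp g.2
      exact congrArg Subtype.val h1, Cfsg.Agent.Lib.RegSp.mem_sp_iff.mp g.1.2⟩
    invFun := fun X => ⟨⟨X.1, Cfsg.Agent.Lib.RegSp.mem_sp_iff.mpr X.2.2⟩, by
      rw [Subgroup.mem_centralizer_singleton_iff]
      apply Subtype.ext
      exact X.2.1⟩
    left_inv := fun g => rfl
    right_inv := fun X => rfl }

end Cfsg.Agent.S2592
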