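import Cfsg.Statements.S2594
import Mathlib
import Cfsg.Agent.Lib.SpOrder

set_option autoImplicit false
open Cfsg

namespace Cfsg.Agent.S2594

open Matrix Cfsg.Agent.Lib.SpBasic

variable {F : Type*} [Field F] {l : Type*} [Fintype l] [DecidableEq l]

/-- A symplectic rank one perturbation of the identity is a transvection. -/
theorem exists_eq_T (t : Sp l F) (ht : ((t : Matrix (l ⊕ l) (l ⊕ l) F) - 1).rank = 1) :
    ∃ (u : l ⊕ l → F) (c : F), u ≠ 0 ∧ c ≠ 0 ∧ t = T u c := by
  classical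
  have h1 : Module.finrank F (LinearMap.range ((t : Matrix (l ⊕ l) (l ⊕ l) F) - 1).mulVecLin) = 1 := ht
  obtain ⟨⟨u, hu⟩, hu0, hall⟩ := finrank_eq_one_iff'.1 h1
  have hu0' : u ≠ 0 := fun h => hu0 (Subtype.ext h)
  have hex : ∀ x : l ⊕ l → F, ∃ a : F, ((t : Matrix (l ⊕ l) (l ⊕ l) F) - 1) *ᵥ x = a • u := by
    intro x
    obtain ⟨a, ha⟩ := hall ⟨_, LinearMap.mem_range_self _ x⟩
    exact ⟨a, (congrArg Subtype.val ha).symm⟩
  choose φ hφ using hex
  have htx : ∀ x, t • x = x + φ x • u := by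
    intro x
    have h2 := hφ x
    rw [Matrix.sub_mulVec, Matrix.one_mulVec] at h2
    rw [← h2, Sp_smul_def]
    abel
  have hkey : ∀ x y, φ y * ω x u + φ x * ω u y = 0 := by
    intro x y
    have h2 := ω_smul_smul t x y
    rw [htx, htx, ω_add_left, ω_add_right, ω_add_right, ω_smul_right, ω_smul_left, ω_smul_left,
      ω_smul_right, ω_self] at h2
    linear_combination h2
  obtain ⟨y₀, hy₀⟩ := exists_ω_ne_zero hu0'
  let c : F := φ y₀ / ω u y₀
  have hφc : ∀ x, φ x = c * ω u x := by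
    intro x
    have h2 := hkey x y₀
    rw [ω_comm x u] at h2
    simp only [c]
    field_simp
    linear_combination h2
  have hteq : t = T u c := by
    apply Sp_ext
    intro x
    rw [htx, T_smul, hφc]
  refine ⟨u, c, hu0', ?_, hteq⟩
  rintro hc
  rw [hc, T_zero_right] at hteq
  rw [hteq] at ht
  have : ((1 : Sp l F) : Matrix (l ⊕ l) (l ⊕ l) F) - 1 = 0 := by
    simp
  rw [this] at ht
  simp at ht

theorem T_one_inj [CharP F 2] {a b : l ⊕ l → F} (ha : a ≠ 0) (h : T a (1 : F) = T b 1) : a = b := by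
  have h2 : (2 : F) = 0 := by
    have := CharP.cast_eq_zero F 2
    exact_mod_cast this
  have hx : ∀ x, ω a x • a = ω b x • b := by
    intro x
    have h1 := congrArg (fun g : Sp l F => g • x) h
    simp only [T_smul, one_mul] at h1
    exact add_left_cancel h1
  obtain ⟨y, hy⟩ := exists_ω_ne_zero ha
  have hab : a = (ω b y / ω a y) • b := by
    rw [div_eq_inv_mul, mul_smul, ← hx y, smul_smul, inv_mul_cancel₀ hy, one_smul]
  set s := ω b y / ω a y with hs
  have hb0 : b ≠ 0 := by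
    rintro rfl
    apply ha
    rw [hab]
    simp
  obtain ⟨z, hz⟩ := exists_ω_ne_zero hb0
  have h3 := hx z
  rw [hab, ω_smul_left, smul_smul] at h3
  have h4 : (ω b z * (s * s - 1)) • b = 0 := by
    rw [mul_sub, sub_smul, mul_one]
    have : (ω b z * (s * s)) = s * ω b z * s := by ring
    rw [this, h3, sub_self]
  have h5 : s * s = 1 := by
    rcases smul_eq_zero.1 h4 with h6 | h6
    · rcases mul_eq_zero.1 h6 with h7 | h7
      · exact absurd h7 hz
      · exact sub_eq_zero.1 h7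
    · exact absurd h6 hb0
  have hs1 : s = 1 := by
    have h6 : (s - 1) * (s - 1) = 0 := by
      linear_combination h5 + (1 - s) * h2
    have h7 := mul_self_eq_zero.1 h6
    exact sub_eq_zero.1 h7
  rw [hab, hs1, one_smul]

/-- In characteristic two a transvection is `T w 1`. -/
theorem exists_eq_T_one [Fintype F] [CharP F 2] (t : Sp l F) (ht : ((t : Matrix (l ⊕ l) (l ⊕ l) F) - 1).rank = 1) :
    ∃ w : l ⊕ l → F, w ≠ 0 ∧ t = T w 1 := by
  obtain ⟨u, c, hu, hc, rfl⟩ := exists_eq_T t ht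
  obtain ⟨d, hd⟩ := FiniteField.isSquare_of_char_two (ringChar.eq F 2) c
  have hd0 : d ≠ 0 := by
    rintro rfl
    apply hc
    rw [hd]; simp
  refine ⟨d • u, smul_ne_zero hd0 hu, ?_⟩
  rw [T_smul_vec, hd]
  congr 1
  ring

theorem mem_centralizer_iff [CharP F 2] {w : l ⊕ l → F} (hw : w ≠ 0) (g : Sp l F) :
    g ∈ Subgroup.centralizer ({T w (1 : F)} : Set (Sp l F)) ↔ g • w = w := by
  rw [Subgroup.mem_centralizer_singleton_iff]
  constructor
  · intro h
    have h1 : T (g • w) (1 : F) = T w 1 := by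
      rw [← T_conj, h]; group
    exact (T_one_inj (by
      intro h0
      apply hw
      have := congrArg (fun x => g⁻¹ • x) h0
      simpa using this) h1)
  · intro h
    have h1 := T_conj g w (1 : F)
    rw [h] at h1
    calc g * T w 1 = (g * T w 1 * g⁻¹) * g := by group
      _ = T w 1 * g := by rw [h1]


/-- Over a finite field with q elements, q even, an element t of Sp_2m(F) with rank(t − 1) = 1 (a symplectic transvection) has centraliser in Sp_2m(F) of order q^(2m−1) · |Sp_(2m−2)(q)| = q^(2m−1) · q^((m−1)²) · Π_(i=1)^(m−1) (q^(2i) − 1). -/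
theorem result {F : Type*} [Field F] [Fintype F] [CharP F 2] {q : ℕ} (hF : Fintype.card F = q) {m : ℕ} (hm : 1 ≤ m) (t : Matrix.symplecticGroup (Fin m) F) (ht : ((t : Matrix (Fin m ⊕ Fin m) (Fin m ⊕ Fin m) F) - 1).rank = 1) : Nat.card ↥(Subgroup.centralizer ({t} : Set ↥(Matrix.symplecticGroup (Fin m) F))) = q ^ (2 * m - 1) * (q ^ ((m - 1) ^ 2) * ∏ i : Fin (m - 1), (q ^ (2 * ((i : ℕ) + 1)) - 1)) := by
  classical
  obtain ⟨w, hw, rfl⟩ := exists_eq_T_one t ht
  have hcent : Subgroup.centralizer ({T w (1 : F)} : Set (Sp (Fin m) F)) = MulAction.stabilizer (Sp (Fin m) F) w := by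
    ext g
    rw [mem_centralizer_iff hw, MulAction.mem_stabilizer_iff]
  have horb : MulAction.orbit (Sp (Fin m) F) w = {x | x ≠ 0} := by
    ext x
    constructor
    · rintro ⟨g, rfl⟩
      intro h0
      apply hw
      have := congrArg (fun y => g⁻¹ • y) h0
      simpa using this
    · intro hx
      obtain ⟨g, hg⟩ := exists_smul_eq_of_ne_zero hw hx
      exact ⟨g, hg⟩
  have hO := MulAction.card_orbit_mul_card_stabilizer_eq_card_group (Sp (Fin m) F) w
  have hcardV : Nat.card (MulAction.orbit (Sp (Fin m) F) w) = q ^ (2 * m) - 1 := by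
    rw [horb]
    have h1 : Nat.card {x : Fin m ⊕ Fin m → F // x ≠ 0} = Nat.card (Fin m ⊕ Fin m → F) - 1 := by
      have := Fintype.card_subtype_compl (fun x : Fin m ⊕ Fin m → F => x = 0)
      simp only [Fintype.card_subtype_eq] at this
      simp only [Nat.card_eq_fintype_card]
      exact this
    have h2 : Nat.card (Fin m ⊕ Fin m → F) = q ^ (2 * m) := by
      rw [Nat.card_eq_fintype_card, Fintype.card_fun, Fintype.card_sum, Fintype.card_fin, hF]
      congr 1
      ring
    rw [← h2, ← h1]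
    rfl
  have hSp := Cfsg.Agent.Lib.SpOrder.card_Sp (F := F) m
  rw [hF] at hSp
  rw [hcent]
  obtain ⟨k, rfl⟩ : ∃ k, m = k + 1 := ⟨m - 1, by omega⟩
  have hq : 2 ≤ q := by
    rw [← hF]; exact Fintype.one_lt_card
  have hpos : 0 < q ^ (2 * (k + 1)) - 1 := by
    have : 1 < q ^ (2 * (k + 1)) := Nat.one_lt_pow (by omega) (by omega)
    omega
  rw [Finset.prod_range_succ] at hSp
  simp only [Nat.card_eq_fintype_card] at hO hcardV hSp ⊢
  rw [hcardV, hSp] at hO
  have e1 : (k + 1) ^ 2 = (2 * (k + 1) - 1) + k ^ 2 := by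
    have : 2 * (k + 1) - 1 = 2 * k + 1 := by omega
    rw [this]; ring
  have e2 : ∀ N, ∏ i : Fin N, (q ^ (2 * ((i : ℕ) + 1)) - 1) = ∏ i ∈ Finset.range N, (q ^ (2 * (i + 1)) - 1) :=
    fun N => Fin.prod_univ_eq_prod_range (fun i => q ^ (2 * (i + 1)) - 1) N
  rw [e2]
  simp only [Nat.add_sub_cancel]
  apply Nat.eq_of_mul_eq_mul_left hpos
  rw [hO, e1, pow_add]
  ring

end Cfsg.Agent.S2594
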