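import Cfsg.Statements.S2595
import Mathlib
import Cfsg.Agent.Lib.Inv2Count

set_option autoImplicit false
open Cfsg

namespace Cfsg.Agent.S2595

/-- Number of conjugacy classes of involutions in the full orthogonal group O⁺_2m(F) of the hyperbolic quadratic form Σ x_i y_i over a finite field of characteristic two (m ≥ 1): one class for each odd s ≤ m and two for each even s with 2 ≤ s ≤ m, where s = rank(t − 1); in all m + ⌊m/2⌋. -/
theorem result {F : Type*} [Field F] [Fintype F] [CharP F 2] {m : ℕ} (hm : 1 ≤ m) : Nat.card {C : ConjClasses ↥(Cfsg.isometryGroup F (Cfsg.quadFormPlus m F)) // ∃ g : ↥(Cfsg.isometryGroup F (Cfsg.quadFormPlus m F)), ConjClasses.mk g = C ∧ orderOf g = 2} = m + m / 2 := by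
  have h : Cfsg.quadFormPlus m F = ⇑(Cfsg.Agent.Lib.OrthoCount.qPlus m F) :=
    funext fun v => (Cfsg.Agent.Lib.OrthoCount.qPlus_apply m v).symm
  rw [h]
  have hnd : (QuadraticMap.polarBilin (Cfsg.Agent.Lib.OrthoCount.qPlus m F)).Nondegenerate := Cfsg.Agent.Lib.Inv2Count.nd_plus
  exact Cfsg.Agent.Lib.Inv2Count.count_O _ hnd Cfsg.Agent.Lib.Inv2Count.finrank_plus le_rfl
    (fun N hN _ => by
      have := Cfsg.Agent.Lib.Inv2.hnd_range_le hN.sa
      rw [Cfsg.Agent.Lib.Inv2Count.finrank_plus] at this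
      omega)
    (fun s h1 h2 => Cfsg.Agent.Lib.Inv2Rep.plus_nonalt h1 h2 hnd)
    (fun r h1 h2 => Cfsg.Agent.Lib.Inv2Rep.plus_alt h2 hnd)

end Cfsg.Agent.S2595
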