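import Cfsg.Statements.S2596
import Mathlib
import Cfsg.Agent.Lib.Inv2Count

set_option autoImplicit false
open Cfsg

namespace Cfsg.Agent.S2596

/-- Number of conjugacy classes of involutions in the full orthogonal group O⁻_2m(F) of an elliptic quadratic form (Σ_(i<m−1) x_i y_i plus an anisotropic binary form) over a finite field of characteristic two (m ≥ 1): one class for each odd s ≤ m, two for each even s with 2 ≤ s < m and one for s = m when m is even, where s = rank(t − 1); in all m + ⌊(m − 1)/2⌋. -/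
theorem result {F : Type*} [Field F] [Fintype F] [CharP F 2] {m : ℕ} (hm : 1 ≤ m) (a b : F) (hab : ∀ z₁ z₂ : F, z₁ ^ 2 + a * z₁ * z₂ + b * z₂ ^ 2 = 0 → z₁ = 0 ∧ z₂ = 0) : Nat.card {C : ConjClasses ↥(Cfsg.isometryGroup F (Cfsg.quadFormMinus (m - 1) F a b)) // ∃ g : ↥(Cfsg.isometryGroup F (Cfsg.quadFormMinus (m - 1) F a b)), ConjClasses.mk g = C ∧ orderOf g = 2} = m + (m - 1) / 2 := by
  obtain ⟨k, rfl⟩ : ∃ k, m = k + 1 := ⟨m - 1, by omega⟩
  have hk : k + 1 - 1 = k := rfl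
  rw [hk]
  have h : Cfsg.quadFormMinus k F a b = ⇑(Cfsg.Agent.Lib.OrthoCount.qMinus k a b) :=
    funext fun v => (Cfsg.Agent.Lib.OrthoCount.qMinus_apply k a b v).symm
  rw [h]
  have hnd : (QuadraticMap.polarBilin (Cfsg.Agent.Lib.OrthoCount.qMinus k a b)).Nondegenerate :=
    Cfsg.Agent.Lib.HypNeg.nondegenerate_of_nondeg (Cfsg.Agent.Lib.OrthoOrder.nondeg_qMinus a b hab k)
  have hV : Module.finrank F ((Fin k ⊕ Fin k) ⊕ Fin 2 → F) = 2 * (k + 1) := by
    simp
    ring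
  exact Cfsg.Agent.Lib.Inv2Count.count_O _ hnd hV (by omega)
    (fun N hN ha => Cfsg.Agent.Lib.Inv2Rep.minus_alt_le a b hab hnd hN ha)
    (fun s h1 h2 => Cfsg.Agent.Lib.Inv2Rep.minus_nonalt a b h1 h2 hnd)
    (fun r h1 h2 => Cfsg.Agent.Lib.Inv2Rep.minus_alt a b h2 hnd)

end Cfsg.Agent.S2596
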