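import Cfsg.Statements.S2597
import Mathlib
import Cfsg.Agent.Lib.Inv2Omega

set_option autoImplicit false
open Cfsg

namespace Cfsg.Agent.S2597

/-- Number of conjugacy classes of involutions in Ω⁺_2m(F) (the commutator subgroup of the orthogonal group of Σ x_i y_i) over a finite field F of characteristic two, m ≥ 1, excluding the case m = 2 over the field of two elements: the involutions of Ω are those with s = rank(t − 1) even, giving two O-classes for each even s with 2 ≤ s ≤ m, each of which is a single Ω-class except that for m even the class with s = m and v ↦ f(v, tv) identically zero splits in two; in all 2⌊m/2⌋ + 1 classes if m is even and 2⌊m/2⌋ if m is odd. -/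
theorem result {F : Type*} [Field F] [Fintype F] [CharP F 2] {m : ℕ} (hm : 1 ≤ m) (h : Fintype.card F ≠ 2 ∨ m ≠ 2) : Nat.card {C : ConjClasses ↥(Cfsg.Omega F (Cfsg.quadFormPlus m F)) // ∃ g : ↥(Cfsg.Omega F (Cfsg.quadFormPlus m F)), ConjClasses.mk g = C ∧ orderOf g = 2} = 2 * (m / 2) + (if Even m then 1 else 0) := by
  have hq : Cfsg.quadFormPlus m F = ⇑(Cfsg.Agent.Lib.OrthoCount.qPlus m F) :=
    funext fun v => (Cfsg.Agent.Lib.OrthoCount.qPlus_apply m v).symm
  rw [hq]
  have hnd : (QuadraticMap.polarBilin (Cfsg.Agent.Lib.OrthoCount.qPlus m F)).Nondegenerate := Cfsg.Agent.Lib.Inv2Count.nd_plus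
  have hOG : Cfsg.Agent.Lib.OrthGroup.O (Cfsg.Agent.Lib.OrthoCount.qPlus m F) ≤
      Cfsg.Agent.Lib.OrthGroup.G (Cfsg.Agent.Lib.OrthoCount.qPlus m F) := by
    refine Cfsg.Agent.Lib.OrthGroup.O_le_G hnd (Cfsg.Agent.Lib.OrthMatrix.hF_of (n := 2 * m) ?_ Cfsg.Agent.Lib.Inv2Count.finrank_plus)
    rcases h with h | h
    · exact Or.inl h
    · exact Or.inr (by omega)
  rw [Cfsg.Agent.Lib.Inv2Omega.count_Omega hnd hOG Cfsg.Agent.Lib.Inv2Count.finrank_plus le_rfl
    (fun N hN _ => by
      have := Cfsg.Agent.Lib.Inv2.hnd_range_le hN.sa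
      rw [Cfsg.Agent.Lib.Inv2Count.finrank_plus] at this
      omega)
    (fun s h1 h2 => Cfsg.Agent.Lib.Inv2Rep.plus_nonalt h1 h2 hnd)
    (fun r h1 h2 => Cfsg.Agent.Lib.Inv2Rep.plus_alt h2 hnd)]
  by_cases he : Even m
  · simp [he, hm]
    omega
  · simp [he]
    omega

end Cfsg.Agent.S2597
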