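import Mathlib
import Cfsg.Statements.S2599

set_option autoImplicit false
open Cfsg

namespace Cfsg.Agent.S2599

/-- An irreducible invariant subspace of a semisimple isometry is non-degenerate or totally singular: let Q be a quadratic form on F^n (F finite of characteristic p) with non-degenerate polar form f, x an isometry of Q of order prime to p, and U a non-zero x-invariant subspace containing no x-invariant subspace other than 0 and U. Then U meets its f-orthogonal trivially, or Q vanishes on U, or p = 2, U is a line spanned by a non-singular vector and x fixes U pointwise. -/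
theorem result {F : Type*} [Field F] [Fintype F] {p : ℕ} [Fact p.Prime] [CharP F p] {n : ℕ} (Q : QuadraticForm F (Fin n → F)) (hQ : (QuadraticMap.polarBilin Q).Nondegenerate) (x : ↥(Cfsg.isometryGroup F ⇑Q)) (hx : (orderOf x).Coprime p) (U : Submodule F (Fin n → F)) (hU0 : U ≠ ⊥) (hUx : ∀ u ∈ U, ((x : Matrix.GeneralLinearGroup (Fin n) F) : Matrix (Fin n) (Fin n) F).mulVec u ∈ U) (hirr : ∀ W : Submodule F (Fin n → F), W ≤ U → (∀ w ∈ W, ((x : Matrix.GeneralLinearGroup (Fin n) F) : Matrix (Fin n) (Fin n) F).mulVec w ∈ W) → W = ⊥ ∨ W = U) : U ⊓ LinearMap.BilinForm.orthogonal (QuadraticMap.polarBilin Q) U = ⊥ ∨ (∀ u ∈ U, Q u = 0) ∨ (p = 2 ∧ Module.finrank F U = 1 ∧ (∃ u ∈ U, Q u ≠ 0) ∧ ∀ u ∈ U, ((x : Matrix.GeneralLinearGroup (Fin n) F) : Matrix (Fin n) (Fin n) F).mulVec u = u) := by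
  classical
  set X : Matrix (Fin n) (Fin n) F := ((x : Matrix.GeneralLinearGroup (Fin n) F) : Matrix (Fin n) (Fin n) F) with hX
  have hXQ : ∀ v, Q (X.mulVec v) = Q v := fun v => x.2 v v
  have hXadd : ∀ u v, X.mulVec (u + v) = X.mulVec u + X.mulVec v := Matrix.mulVec_add X
  have hXpol : ∀ u v, QuadraticMap.polar Q (X.mulVec u) (X.mulVec v) = QuadraticMap.polar Q u v := by
    intro u v
    simp only [QuadraticMap.polar, ← hXadd, hXQ]
  have hXinj : Function.Injective X.mulVec :=
    Matrix.mulVec_injective_of_isUnit (Units.isUnit _)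
  -- X maps U onto U
  have hXsurj : ∀ u ∈ U, ∃ u' ∈ U, X.mulVec u' = u := by
    let T : U →ₗ[F] U :=
      { toFun := fun u => ⟨X.mulVec u, hUx u u.2⟩
        map_add' := by intro a b; ext1; simp [Matrix.mulVec_add]
        map_smul' := by intro c a; ext1; simp [Matrix.mulVec_smul] }
    have hT : Function.Injective T := by
      intro a b hab
      have : X.mulVec a = X.mulVec b := congrArg Subtype.val hab
      exact Subtype.ext (hXinj this)
    have hT' := LinearMap.injective_iff_surjective.mp hT
    intro u hu
    obtain ⟨u', hu'⟩ := hT' ⟨u, hu⟩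
    exact ⟨u', u'.2, congrArg Subtype.val hu'⟩
  -- the radical of U
  have hW := hirr (U ⊓ LinearMap.BilinForm.orthogonal (QuadraticMap.polarBilin Q) U) inf_le_left (by
    rintro w ⟨hwU, hwO⟩
    refine ⟨hUx w hwU, ?_⟩
    intro u hu
    obtain ⟨u', hu', rfl⟩ := hXsurj u hu
    have := hwO u' hu'
    simp only [QuadraticMap.polarBilin_apply_apply] at this ⊢
    rw [hXpol]; exact this)
  rcases hW with hW | hW
  · exact Or.inl hW
  right
  -- U totally isotropic for polar
  have hpol0 : ∀ u ∈ U, ∀ v ∈ U, QuadraticMap.polar Q u v = 0 := by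
    intro u hu v hv
    have hv' : v ∈ U ⊓ LinearMap.BilinForm.orthogonal (QuadraticMap.polarBilin Q) U := by rw [hW]; exact hv
    have := hv'.2 u hu
    simpa using this
  have hQadd : ∀ u ∈ U, ∀ v ∈ U, Q (u + v) = Q u + Q v := by
    intro u hu v hv
    have := hpol0 u hu v hv
    simp only [QuadraticMap.polar] at this
    linear_combination this
  by_cases hp2 : p = 2
  · subst hp2
    -- zero set of Q on U
    let Z : Submodule F (Fin n → F) :=
      { carrier := {u | u ∈ U ∧ Q u = 0}
        add_mem' := by
          rintro a b ⟨ha, ha0⟩ ⟨hb, hb0⟩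
          exact ⟨U.add_mem ha hb, by rw [hQadd a ha b hb, ha0, hb0, add_zero]⟩
        zero_mem' := ⟨U.zero_mem, by simp⟩
        smul_mem' := by
          rintro c a ⟨ha, ha0⟩
          refine ⟨U.smul_mem c ha, ?_⟩
          rw [QuadraticMap.map_smul, ha0]; simp }
    have hZ := hirr Z (fun z hz => hz.1) (by
      rintro w ⟨hw, hw0⟩
      exact ⟨hUx w hw, by rw [hXQ, hw0]⟩)
    rcases hZ with hZ | hZ
    · right
      refine ⟨rfl, ?_⟩
      -- Q injective on U
      have hinj : ∀ u ∈ U, Q u = 0 → u = 0 := by
        intro u hu hu0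
        have : u ∈ Z := ⟨hu, hu0⟩
        rw [hZ] at this
        simpa using this
      obtain ⟨u0, hu0, hu0ne⟩ := Submodule.exists_mem_ne_zero_of_ne_bot hU0
      have hQu0 : Q u0 ≠ 0 := fun h => hu0ne (hinj u0 hu0 h)
      have hchar : ringChar F = 2 := ringChar.eq F 2
      -- every element of U is a multiple of u0
      have hmul : ∀ v ∈ U, ∃ c : F, v = c • u0 := by
        intro v hv
        obtain ⟨c, hc⟩ := FiniteField.isSquare_of_char_two hchar (Q v / Q u0)
        refine ⟨-c, ?_⟩
        have h1 : Q (v + c • u0) = 0 := by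
          rw [hQadd v hv _ (U.smul_mem c hu0), QuadraticMap.map_smul]
          have hv2 : Q v = c * c * Q u0 := by
            rw [← hc]; field_simp
          rw [hv2]
          have h22 : (2 : F) = 0 := by
            have := CharP.cast_eq_zero F 2
            exact_mod_cast this
          simp only [smul_eq_mul]
          linear_combination (c * c * Q u0) * h22
        have h2 := hinj _ (U.add_mem hv (U.smul_mem c hu0)) h1
        rw [neg_smul]
        exact eq_neg_of_add_eq_zero_left h2
      refine ⟨?_, ⟨u0, hu0, hQu0⟩, ?_⟩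
      · refine finrank_eq_one_iff'.mpr ⟨⟨u0, hu0⟩, ?_, ?_⟩
        · intro h
          exact hu0ne (congrArg Subtype.val h)
        · rintro ⟨w, hw⟩
          obtain ⟨c, hc⟩ := hmul w hw
          exact ⟨c, Subtype.ext (by simp [hc])⟩
      · intro w hw
        obtain ⟨c, rfl⟩ := hmul w hw
        obtain ⟨a, ha⟩ := hmul _ (hUx u0 hu0)
        have h3 : a * a * Q u0 = Q u0 := by
          have := hXQ u0
          rw [ha, QuadraticMap.map_smul] at this
          simpa [smul_eq_mul] using this
        have h4 : a * a = 1 := mul_right_cancel₀ hQu0 (by rw [h3, one_mul])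
        have h22 : (2 : F) = 0 := by
          have := CharP.cast_eq_zero F 2
          exact_mod_cast this
        have h5 : (a - 1) * (a - 1) = 0 := by
          linear_combination h4 + (1 - a) * h22
        have h6 : a = 1 := by
          have := mul_self_eq_zero.mp h5
          exact sub_eq_zero.mp this
        rw [Matrix.mulVec_smul, ha, h6, one_smul]
    · left
      intro u hu
      have : u ∈ Z := by rw [hZ]; exact hu
      exact this.2
  · left
    intro u hu
    have h2 : (2 : F) ≠ 0 := by
      intro h
      have : (p : ℕ) ∣ 2 := by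
        have := (CharP.cast_eq_zero_iff F p 2).mp (by exact_mod_cast h)
        exact this
      have hp := (Fact.out : p.Prime)
      exact hp2 ((Nat.prime_dvd_prime_iff_eq hp Nat.prime_two).mp this)
    have := hpol0 u hu u hu
    rw [QuadraticMap.polar_self] at this
    have h3 : (2 : F) * Q u = 0 := by simpa [two_smul, two_mul] using this
    exact (mul_eq_zero.mp h3).resolve_left h2

end Cfsg.Agent.S2599
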