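import Cfsg.Statements.S2612
import Mathlib
import Cfsg.Agent.Lib.HypLevi

set_option autoImplicit false
open Cfsg

namespace Cfsg.Agent.S2612

/-- For the hyperbolic quadratic form Σ x_i y_i on F^(2m) (F finite, m ≥ 1, excluding m = 2 over the field of two elements), Ω⁺_2m(F) (the commutator subgroup of the orthogonal group) contains an element interchanging the two complementary maximal totally singular subspaces {y = 0} and {x = 0} if and only if m is even (dimension divisible by 4). -/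
theorem result {F : Type*} [Field F] [Fintype F] {m : ℕ} (hm : 1 ≤ m) (h : Fintype.card F ≠ 2 ∨ m ≠ 2) : (∃ g : ↥(Cfsg.isometryGroup F (Cfsg.quadFormPlus m F)), g ∈ Cfsg.Omega F (Cfsg.quadFormPlus m F) ∧ (∀ v : Fin m ⊕ Fin m → F, (∀ i, v (Sum.inr i) = 0) → ∀ i, (((g : Matrix.GeneralLinearGroup (Fin m ⊕ Fin m) F) : Matrix (Fin m ⊕ Fin m) (Fin m ⊕ Fin m) F).mulVec v) (Sum.inl i) = 0) ∧ (∀ v : Fin m ⊕ Fin m → F, (∀ i, v (Sum.inl i) = 0) → ∀ i, (((g : Matrix.GeneralLinearGroup (Fin m ⊕ Fin m) F) : Matrix (Fin m ⊕ Fin m) (Fin m ⊕ Fin m) F).mulVec v) (Sum.inr i) = 0)) ↔ Even m := by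
  classical
  have hfun : Cfsg.quadFormPlus m F = ⇑(Cfsg.Agent.Lib.OrthoCount.qPlus m F) :=
    funext fun v => (Cfsg.Agent.Lib.OrthoCount.qPlus_apply m v).symm
  rw [hfun]
  constructor
  · rintro ⟨g, hg, h1, -⟩
    exact Cfsg.Agent.Lib.HypLevi.even_of_swap h g hg h1
  · intro he
    obtain ⟨g, hg, hgs⟩ := Cfsg.Agent.Lib.HypLevi.swap_exists (F := F) h he
    refine ⟨g, hg, ?_, ?_⟩
    · intro v hv i
      rw [(hgs v i).1]
      exact hv i
    · intro v hv i
      rw [(hgs v i).2]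
      exact hv i

end Cfsg.Agent.S2612
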