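import Mathlib
import Cfsg.Statements.S2613
import Cfsg.Agent.Lib.HypNeg

set_option autoImplicit false
open Cfsg

namespace Cfsg.Agent.S2613

open Cfsg.Agent.Lib.HypNeg Cfsg.Agent.Lib.OrthoCount Cfsg.Agent.Lib.OrthoOrder

/-- For the hyperbolic form Σ x_j y_j on F^(2m), F finite with q elements, q odd, and 1 ≤ i ≤ m: the involution negating the first i hyperbolic pairs (x_j, y_j ↦ −x_j, −y_j for j < i) and fixing the rest lies in Ω⁺_2m(q) (commutator subgroup of the orthogonal group) if and only if q^i ≡ 1 (mod 4); its (−1)-eigenspace is a hyperbolic 2i-space. -/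
theorem result {F : Type*} [Field F] [Fintype F] {q : ℕ} (hF : Fintype.card F = q) (hq : Odd q) {m : ℕ} (i : ℕ) (hi : 1 ≤ i) (him : i ≤ m) : (∃ g : ↥(Cfsg.isometryGroup F (Cfsg.quadFormPlus m F)), g ∈ Cfsg.Omega F (Cfsg.quadFormPlus m F) ∧ ((g : Matrix.GeneralLinearGroup (Fin m ⊕ Fin m) F) : Matrix (Fin m ⊕ Fin m) (Fin m ⊕ Fin m) F) = Matrix.diagonal (fun k : Fin m ⊕ Fin m => if (Sum.elim (fun j : Fin m => (j : ℕ)) (fun j : Fin m => (j : ℕ)) k) < i then (-1 : F) else 1)) ↔ q ^ i % 4 = 1 := by
  subst hF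
  have hfun : Cfsg.quadFormPlus m F = ⇑(qPlus m F) := funext fun v => (qPlus_apply m v).symm
  rw [hfun]
  refine coord_mem_Omega_iff hq (nondegenerate_of_nondeg (nondeg_qPlus m)) him Sum.inl Sum.inr
    Sum.inl_injective Sum.inr_injective (fun _ _ => by simp) (hyp_qPlus m) _ ?_
  intro k
  rcases k with l | l
  · constructor
    · rintro ⟨j, hj, h | h⟩
      · have := Sum.inl_injective h
        subst this
        simp [hj]
      · simp at h
    · intro h
      have : ¬ (l : ℕ) < i := fun hl => h ⟨l, hl, Or.inl rfl⟩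
      simp [this]
  · constructor
    · rintro ⟨j, hj, h | h⟩
      · simp at h
      · have := Sum.inr_injective h
        subst this
        simp [hj]
    · intro h
      have : ¬ (l : ℕ) < i := fun hl => h ⟨l, hl, Or.inr rfl⟩
      simp [this]

end Cfsg.Agent.S2613
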