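import Mathlib
import Cfsg.Statements.S2617

set_option autoImplicit false
open Cfsg

namespace Cfsg.Agent.S2617

theorem aux {F : Type*} [Field F] {k m : ℕ} (hmk : k < m) (ζ : F) (hζ : ∀ t : F, t ^ 2 + t + ζ ≠ 0) (g : (Fin m ⊕ Fin m → F) ≃ₗ[F] ((Fin k ⊕ Fin k) ⊕ Fin 2 → F)) : ¬ (∀ v : Fin m ⊕ Fin m → F, Cfsg.quadFormMinus k F 1 ζ (g v) = Cfsg.quadFormPlus m F v) := by
  classical
  intro hg
  -- the isotropic subspace
  let ι₀ : (Fin m → F) →ₗ[F] (Fin m ⊕ Fin m → F) :=
    { toFun := fun a => Sum.elim a 0
      map_add' := by intro a b; ext (i | i) <;> simp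
      map_smul' := by intro c a; ext (i | i) <;> simp }
  let G : (Fin m → F) →ₗ[F] ((Fin k ⊕ Fin k) ⊕ Fin 2 → F) := g.toLinearMap ∘ₗ ι₀
  have hGinj : Function.Injective G := by
    intro a b hab
    have h1 : ι₀ a = ι₀ b := g.injective hab
    ext i
    exact congrFun h1 (Sum.inl i)
  have hG0 : ∀ a, Cfsg.quadFormMinus k F 1 ζ (G a) = 0 := by
    intro a
    change Cfsg.quadFormMinus k F 1 ζ (g (ι₀ a)) = 0
    rw [hg]
    simp [Cfsg.quadFormPlus, ι₀]
  let A : (Fin m → F) →ₗ[F] (Fin k → F) :=
    { toFun := fun a i => G a (Sum.inl (Sum.inl i))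
      map_add' := by intro a b; ext i; simp
      map_smul' := by intro c a; ext i; simp }
  have hker : ∀ a, A a = 0 → ∀ j, G a (Sum.inr j) = 0 := by
    intro a ha
    have h1 := hG0 a
    have hx : ∀ i, G a (Sum.inl (Sum.inl i)) = 0 := fun i => congrFun ha i
    simp only [Cfsg.quadFormMinus, hx, zero_mul, Finset.sum_const_zero, zero_add, one_mul] at h1
    by_cases hz1 : G a (Sum.inr 1) = 0
    · rw [hz1] at h1
      have h2 : G a (Sum.inr 0) = 0 := by
        simpa using h1
      intro j
      fin_cases j
      · exact h2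
      · exact hz1
    · exfalso
      apply hζ (G a (Sum.inr 0) / G a (Sum.inr 1))
      field_simp
      linear_combination h1
  -- dual map
  let y : (Fin m → F) →ₗ[F] (Fin k → F) :=
    { toFun := fun a i => G a (Sum.inl (Sum.inr i))
      map_add' := by intro a b; ext i; simp
      map_smul' := by intro c a; ext i; simp }
  have hperp : ∀ a b, A b = 0 → A a ⬝ᵥ y b = 0 := by
    intro a b hb
    have h1 := hG0 (a + b)
    have h2 := hG0 a
    have hx : ∀ i, G b (Sum.inl (Sum.inl i)) = 0 := fun i => congrFun hb i
    have hz := hker b hb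
    rw [map_add] at h1
    simp only [Cfsg.quadFormMinus, Pi.add_apply, hx, hz, add_zero, mul_add] at h1 h2
    rw [Finset.sum_add_distrib] at h1
    simp only [dotProduct, A, y]
    change (∑ i, G a (Sum.inl (Sum.inl i)) * G b (Sum.inl (Sum.inr i))) = 0
    linear_combination h1 - h2
  have hyinj : ∀ b, A b = 0 → y b = 0 → b = 0 := by
    intro b h1 h2
    have : G b = 0 := by
      ext (i | j)
      · rcases i with i | i
        · exact congrFun h1 i
        · exact congrFun h2 i
      · exact hker b h1 j
    exact hGinj (by simpa using this)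
  -- dimension count
  have h1 := LinearMap.finrank_range_add_finrank_ker A
  have h2 := Subspace.finrank_add_finrank_dualAnnihilator_eq (LinearMap.range A)
  let C : (LinearMap.ker A) →ₗ[F] (LinearMap.range A).dualAnnihilator :=
    { toFun := fun b => ⟨(dotProductBilin F F).flip (y b), by
        rw [Submodule.mem_dualAnnihilator]
        rintro _ ⟨a, rfl⟩
        exact hperp a b b.2⟩
      map_add' := by
        intro a b
        apply Subtype.ext
        ext x
        simp [LinearMap.flip_apply, dotProductBilin]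
      map_smul' := by
        intro c a
        apply Subtype.ext
        ext x
        simp [LinearMap.flip_apply, dotProductBilin] }
  have hC : Function.Injective C := by
    refine (injective_iff_map_eq_zero C).mpr ?_
    intro b hb
    have h3 : ∀ x : Fin k → F, x ⬝ᵥ y b = 0 := by
      intro x
      have := congrArg (fun z : (LinearMap.range A).dualAnnihilator => (z : Module.Dual F (Fin k → F)) x) hb
      simpa [C, LinearMap.flip_apply, dotProductBilin] using this
    have h4 : y b = 0 := by
      ext i
      simpa using h3 (Pi.single i 1)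
    exact Subtype.ext (hyinj b b.2 h4)
  have h3 := LinearMap.finrank_le_finrank_of_injective hC
  simp only [Module.finrank_fintype_fun_eq_card, Fintype.card_fin] at h1 h2
  omega

/-- The two standard quadratic forms of even dimension 2m over a finite field are not isometric: there is no linear isomorphism carrying the elliptic form Σ_(i<m−1) x_i y_i + z₁² + z₁z₂ + ζ z₂² (t² + t + ζ without roots) to the hyperbolic form Σ_(i<m) x_i y_i (they have different Witt index). -/
theorem result {F : Type*} [Field F] [Finite F] {m : ℕ} (hm : 1 ≤ m) (ζ : F) (hζ : ∀ t : F, t ^ 2 + t + ζ ≠ 0) (g : (Fin m ⊕ Fin m → F) ≃ₗ[F] ((Fin (m - 1) ⊕ Fin (m - 1)) ⊕ Fin 2 → F)) : ¬ (∀ v : Fin m ⊕ Fin m → F, Cfsg.quadFormMinus (m - 1) F 1 ζ (g v) = Cfsg.quadFormPlus m F v) :=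
  aux (by omega) ζ hζ g

end Cfsg.Agent.S2617
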