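import Mathlib
import Cfsg.Statements.S2619

set_option autoImplicit false
open Cfsg

namespace Cfsg.Agent.S2619

theorem uniq {F V ι : Type*} [Field F] [AddCommGroup V] [Module F V] (b : Module.Basis ι F V)
    (Q1 Q2 : QuadraticForm F V)
    (hp : QuadraticMap.polarBilin Q1 = QuadraticMap.polarBilin Q2)
    (hb : ∀ i, Q1 (b i) = Q2 (b i)) : Q1 = Q2 := by
  apply QuadraticMap.ext
  intro v
  have hv : v ∈ Submodule.span F (Set.range b) := by rw [b.span_eq]; trivial
  induction hv using Submodule.span_induction with
  | mem x hx =>
    obtain ⟨i, rfl⟩ := hx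
    exact hb i
  | zero => simp
  | add x y _ _ hx hy =>
    have h1 := congrArg (fun f => (f x y : F)) hp
    simp only [QuadraticMap.polarBilin_apply_apply, QuadraticMap.polar] at h1
    linear_combination h1 + hx + hy
  | smul a x _ hx =>
    rw [QuadraticMap.map_smul, QuadraticMap.map_smul, hx]

/-- Over a finite field of characteristic two, given an alternating bilinear form B on a finite-dimensional space, a basis (v_i) and scalars (λ_i), there is exactly one quadratic form whose polar form is B and whose value at each v_i is λ_i. -/
theorem result {F V ι : Type*} [Field F] [Finite F] [CharP F 2] [AddCommGroup V] [Module F V] [Fintype ι] (b : Module.Basis ι F V) (B : LinearMap.BilinForm F V) (hB : B.IsAlt) (c : ι → F) : ∃! Q : QuadraticForm F V, QuadraticMap.polarBilin Q = B ∧ ∀ i, Q (b i) = c i := by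
  classical
  let _ : LinearOrder ι := LinearOrder.lift' (Fintype.equivFin ι) (Fintype.equivFin ι).injective
  have h2 : (2 : F) = 0 := by
    have := CharP.cast_eq_zero F 2
    exact_mod_cast this
  have hneg : ∀ x : F, -x = x := by
    intro x
    linear_combination (-x) * h2
  let M : Matrix ι ι F := fun i j => if i = j then c i else if i < j then B (b i) (b j) else 0
  let B' : LinearMap.BilinForm F V := Matrix.toBilin b M
  have hB' : ∀ i j, B' (b i) (b j) = M i j := by
    intro i j
    have := congrFun (congrFun (LinearMap.BilinForm.toMatrix_toBilin b M) i) j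
    rwa [LinearMap.BilinForm.toMatrix_apply] at this
  have hexB : ∀ i j, (QuadraticMap.polarBilin (LinearMap.BilinMap.toQuadraticMap B')) (b i) (b j) = B (b i) (b j) := by
    intro i j
    simp only [QuadraticMap.polarBilin_apply_apply, LinearMap.BilinMap.polar_toQuadraticMap, hB', M]
    rcases lt_trichotomy i j with h | h | h
    · simp [h, h.ne, h.ne', not_lt.mpr h.le]
    · subst h
      simp only [if_true]
      rw [hB.self_eq_zero]
      linear_combination c i * h2
    · simp only [h.ne, h.ne', if_false, h, if_true, not_lt.mpr h.le, zero_add]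
      rw [← hB.neg_eq, hneg]
  refine ⟨LinearMap.BilinMap.toQuadraticMap B', ⟨?_, ?_⟩, ?_⟩
  · apply LinearMap.BilinForm.ext_basis b
    exact hexB
  · intro i
    simp [LinearMap.BilinMap.toQuadraticMap_apply, hB', M]
  · rintro Q ⟨hQ1, hQ2⟩
    refine uniq b Q _ ?_ ?_
    · rw [hQ1]
      apply LinearMap.BilinForm.ext_basis b
      intro i j
      exact (hexB i j).symm
    · intro i
      rw [hQ2]
      simp [LinearMap.BilinMap.toQuadraticMap_apply, hB', M]

end Cfsg.Agent.S2619
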