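import Mathlib
import Cfsg.Statements.S2625

set_option autoImplicit false
open Cfsg

namespace Cfsg.Agent.S2625

/-- For a quadratic form Q on F^n with non-degenerate polar form, F finite and n odd (so |F| is odd), the multiplier of any similarity is a square: if g is an invertible linear map with Q(g v) = c·Q(v) for all v then c is a square. -/
theorem result {F : Type*} [Field F] [Fintype F] {n : ℕ} (hn : Odd n) (Q : QuadraticForm F (Fin n → F)) (hQ : (QuadraticMap.polarBilin Q).Nondegenerate) (g : (Fin n → F) ≃ₗ[F] (Fin n → F)) (c : F) (hg : ∀ v, Q (g v) = c * Q v) : IsSquare c := by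
  classical
  set B := QuadraticMap.polarBilin Q with hB
  have h1 : ∀ u v, B (g u) (g v) = c * B u v := by
    intro u v
    simp only [hB, QuadraticMap.polarBilin_apply_apply, QuadraticMap.polar, ← map_add, hg]
    ring
  have h2 : (LinearMap.BilinForm.comp B (g : (Fin n → F) →ₗ[F] (Fin n → F))
      (g : (Fin n → F) →ₗ[F] (Fin n → F))) = c • B := by
    ext u v
    simp [h1]
  have h3 := congrArg LinearMap.BilinForm.toMatrix' h2
  rw [LinearMap.BilinForm.toMatrix'_comp, map_smul] at h3
  have h4 := congrArg Matrix.det h3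
  rw [Matrix.det_mul, Matrix.det_mul, Matrix.det_transpose, Matrix.det_smul, Fintype.card_fin] at h4
  set d := (LinearMap.toMatrix' (g : (Fin n → F) →ₗ[F] (Fin n → F))).det with hd
  have hM : (LinearMap.BilinForm.toMatrix' B).det ≠ 0 := by
    apply Matrix.Nondegenerate.det_ne_zero
    exact (LinearMap.BilinForm.nondegenerate_toMatrix'_iff).2 hQ
  have h5 : d * d = c ^ n := by
    have : (d * d) * (LinearMap.BilinForm.toMatrix' B).det = c ^ n * (LinearMap.BilinForm.toMatrix' B).det := by
      rw [← h4]; ring
    exact mul_right_cancel₀ hM this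
  by_cases hc : c = 0
  · rw [hc]; exact IsSquare.zero
  obtain ⟨k, rfl⟩ := hn
  refine ⟨d / c ^ k, ?_⟩
  have hck : c ^ k ≠ 0 := pow_ne_zero _ hc
  field_simp
  rw [sq d, h5]
  ring

end Cfsg.Agent.S2625
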