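import Mathlib
import Cfsg.Statements.S2630
import Cfsg.Agent.Lib.OrthPlus

set_option autoImplicit false
open Cfsg

namespace Cfsg.Agent.S2630

open Module
open Cfsg.Agent.Lib.OrthPlus Cfsg.Agent.Lib.OrthGroup Cfsg.Agent.Lib.OrthOmega Cfsg.Agent.Lib.OrthLagr Cfsg.Agent.Lib.OrthMatrix

/-- For the hyperbolic form Σ x_i y_i on F^(2m) over a finite field of characteristic two (m ≥ 1, excluding m = 2 over the field of two elements), an isometry g preserves the class of the maximal totally singular subspace U₀ = {y = 0} (m − dim(U₀ ∩ gU₀) even) if and only if g lies in Ω (the commutator subgroup of the orthogonal group): the stabiliser of each class is Ω. -/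
theorem result {F : Type*} [Field F] [Fintype F] [CharP F 2] {m : ℕ} (hm : 1 ≤ m) (h : Fintype.card F ≠ 2 ∨ m ≠ 2) (g : ↥(Cfsg.isometryGroup F (Cfsg.quadFormPlus m F))) : Even (m - Module.finrank F ↥(LinearMap.ker (LinearMap.funLeft F F (Sum.inr : Fin m → Fin m ⊕ Fin m)) ⊓ (LinearMap.ker (LinearMap.funLeft F F (Sum.inr : Fin m → Fin m ⊕ Fin m))).map (Matrix.mulVecLin ((g : Matrix.GeneralLinearGroup (Fin m ⊕ Fin m) F) : Matrix (Fin m ⊕ Fin m) (Fin m ⊕ Fin m) F)))) ↔ g ∈ Cfsg.Omega F (Cfsg.quadFormPlus m F) := by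
  have hQ := quadPlus_nondeg m F
  have hV := finrank_plus m F
  have hU := isLag_U₀ m F
  have hOG : O (quadPlus m F) ≤ G (quadPlus m F) := O_le_G hQ (by
    rcases h with h | h
    · exact Or.inl (exists_ne_zero_one_of_card_ne_two h)
    · right
      rw [hV]
      omega)
  have hmem := mem_Omega_iff (quadPlus m F) g
  have hmv := mulVecLin_toO (quadPlus m F) g
  obtain ⟨L, hL, hx⟩ := exists_list_of_mem_G (hOG (toO (quadPlus m F) g).2)
  have hg : toO (quadPlus m F) g = prodO (quadPlus m F) L := Subtype.ext hx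
  have par := parity_lag hQ hV hU hU L hL
  have hself : m - finrank F ↥(U₀ m F ⊓ U₀ m F) = 0 := by
    rw [inf_idem, finrank_U₀]
    omega
  rw [hself, add_zero] at par
  have hmv' : Matrix.mulVecLin ((g : Matrix.GeneralLinearGroup (Fin m ⊕ Fin m) F) : Matrix (Fin m ⊕ Fin m) (Fin m ⊕ Fin m) F) =
      ((prodR (quadPlus m F) L : _ ≃ₗ[F] _) : (Fin m ⊕ Fin m → F) →ₗ[F] (Fin m ⊕ Fin m → F)) := by
    rw [hmv, hg]
    rfl
  rw [hmv']
  refine Iff.trans ?_ hmem.symm
  rw [hg]
  constructor
  · intro he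
    apply prodO_mem_commutator hQ L hL _ (isSquare_char_two _)
    exact (Nat.even_add.1 par).1 he
  · intro hc
    obtain ⟨M, hM, hgM, heM, _⟩ := exists_list_of_mem_commutator hOG hc
    have h1 : prodR (quadPlus m F) L = prodR (quadPlus m F) M := congrArg Subtype.val hgM
    obtain ⟨he, _⟩ := invariant_of_prodR_eq hQ hL hM h1
    exact (Nat.even_add.1 par).2 ((Nat.even_add.1 he).2 heM)

end Cfsg.Agent.S2630
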