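import Mathlib
import Cfsg.Statements.S2631
import Cfsg.Agent.Lib.OrthPlus

set_option autoImplicit false
open Cfsg

namespace Cfsg.Agent.S2631

open Module
open Cfsg.Agent.Lib.OrthPlus Cfsg.Agent.Lib.OrthGroup Cfsg.Agent.Lib.OrthOmega Cfsg.Agent.Lib.OrthLagr Cfsg.Agent.Lib.OrthMatrix

/-- For the hyperbolic form Σ x_i y_i on F^(2m) over a finite field (m ≥ 1, excluding m = 2 over the field of two elements), Ω (the commutator subgroup of the orthogonal group) acts transitively on each of the two classes of maximal totally singular subspaces: if U and W are m-dimensional totally singular subspaces with m − dim(U ∩ W) even, some element of Ω carries U to W. -/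
theorem result {F : Type*} [Field F] [Fintype F] {m : ℕ} (hm : 1 ≤ m) (h : Fintype.card F ≠ 2 ∨ m ≠ 2) (U W : Submodule F (Fin m ⊕ Fin m → F)) (hU : Module.finrank F U = m) (hW : Module.finrank F W = m) (hU0 : ∀ u ∈ U, Cfsg.quadFormPlus m F u = 0) (hW0 : ∀ w ∈ W, Cfsg.quadFormPlus m F w = 0) (he : Even (m - Module.finrank F ↥(U ⊓ W))) : ∃ g : ↥(Cfsg.isometryGroup F (Cfsg.quadFormPlus m F)), g ∈ Cfsg.Omega F (Cfsg.quadFormPlus m F) ∧ U.map (Matrix.mulVecLin ((g : Matrix.GeneralLinearGroup (Fin m ⊕ Fin m) F) : Matrix (Fin m ⊕ Fin m) (Fin m ⊕ Fin m) F)) = W := by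
  have hQ := quadPlus_nondeg m F
  have hV := finrank_plus m F
  have hLU : IsLag (quadPlus m F) m U := ⟨hU0, hU⟩
  have hLW : IsLag (quadPlus m F) m W := ⟨hW0, hW⟩
  obtain ⟨L, hL, hk, hmap⟩ := exists_chain hQ hV hLW _ U hLU rfl
  have he' : Even L.length := by
    rw [hk, inf_comm]
    exact he
  have hL' : ∀ v ∈ L, quadPlus m F v ≠ 0 := by
    intro v hv
    rw [hL v hv]
    exact neg_ne_zero.2 one_ne_zero
  have hs : IsSquare (L.map (quadPlus m F)).prod := by
    have h1 : L.map (quadPlus m F) = List.replicate L.length (-1) := by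
      rw [List.eq_replicate_iff]
      constructor
      · simp
      · intro b hb
        obtain ⟨v, hv, rfl⟩ := List.mem_map.1 hb
        exact hL v hv
    rw [h1, List.prod_replicate, he'.neg_one_pow]
    exact IsSquare.one
  refine ⟨(toO (quadPlus m F)).symm (prodO (quadPlus m F) L), ?_, ?_⟩
  · have hmem := mem_Omega_iff (quadPlus m F) ((toO (quadPlus m F)).symm (prodO (quadPlus m F) L))
    refine hmem.2 ?_
    rw [MulEquiv.apply_symm_apply]
    exact prodO_mem_commutator hQ L hL' he' hs
  · have hmv := mulVecLin_toO_symm (quadPlus m F) (prodO (quadPlus m F) L)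
    rw [hmv]
    exact hmap

end Cfsg.Agent.S2631
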