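import Mathlib
import Cfsg.Statements.S2632
import Cfsg.Agent.Lib.OrthTrans2
import Cfsg.Agent.Lib.OrthPlus

set_option autoImplicit false
open Cfsg

namespace Cfsg.Agent.S2632

open Cfsg.Agent.Lib.OrthPlus Cfsg.Agent.Lib.OrthGroup Cfsg.Agent.Lib.OrthMatrix Cfsg.Agent.Lib.OrthTrans2

/-- Ω is transitive on non-degenerate subspaces of each isometry type: for a quadratic form Q on F^n, n ≥ 3, with non-degenerate polar form (F finite; excluding dimension 4 over the field of two elements), if U and W are subspaces on which the polar form is non-degenerate and there is a Q-preserving linear isomorphism U → W, then some element of Ω (the commutator subgroup of the orthogonal group) carries U to W. (In dimension 2 this fails: Ω can be {±1}, which fixes every line.) -/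
theorem result {F : Type*} [Field F] [Fintype F] {n : ℕ} (hn : 3 ≤ n) (h : Fintype.card F ≠ 2 ∨ n ≠ 4) (Q : QuadraticForm F (Fin n → F)) (hQ : (QuadraticMap.polarBilin Q).Nondegenerate) (U W : Submodule F (Fin n → F)) (hU : U ⊓ LinearMap.BilinForm.orthogonal (QuadraticMap.polarBilin Q) U = ⊥) (hW : W ⊓ LinearMap.BilinForm.orthogonal (QuadraticMap.polarBilin Q) W = ⊥) (e : U ≃ₗ[F] W) (he : ∀ u : U, Q (e u : Fin n → F) = Q (u : Fin n → F)) : ∃ g : ↥(Cfsg.isometryGroup F ⇑Q), g ∈ Cfsg.Omega F ⇑Q ∧ U.map (Matrix.mulVecLin ((g : Matrix.GeneralLinearGroup (Fin n) F) : Matrix (Fin n) (Fin n) F)) = W := by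
  have hOG : O Q ≤ G Q := O_le_G hQ (hF_of h (by simp))
  obtain ⟨x, hx, hmap⟩ := transitive_nondeg hQ hOG (by simpa using hn) hU e he
  refine ⟨(toO Q).symm x, ?_, ?_⟩
  · rw [mem_Omega_iff, MulEquiv.apply_symm_apply]
    exact hx
  · rw [mulVecLin_toO_symm]
    exact hmap

end Cfsg.Agent.S2632
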