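import Mathlib
import Cfsg.Statements.S2634
import Cfsg.Agent.Lib.OrthMatrix

set_option autoImplicit false
open Cfsg
open Cfsg.Agent.Lib.OrthGroup Cfsg.Agent.Lib.OrthOmega Cfsg.Agent.Lib.OrthMatrix

namespace Cfsg.Agent.S2634

/-- Over a finite field of characteristic two, Ω (the commutator subgroup of the orthogonal group of a quadratic form Q on F^n with non-degenerate polar form; excluding dimension 4 over the field of two elements) acts transitively on the non-singular 1-spaces: for u, v with Q(u) ≠ 0 and Q(v) ≠ 0 some element of Ω carries the line through u to the line through v. -/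
theorem result {F : Type*} [Field F] [Fintype F] [CharP F 2] {n : ℕ} (h : Fintype.card F ≠ 2 ∨ n ≠ 4) (Q : QuadraticForm F (Fin n → F)) (hQ : (QuadraticMap.polarBilin Q).Nondegenerate) (u v : Fin n → F) (hu : Q u ≠ 0) (hv : Q v ≠ 0) : ∃ g : ↥(Cfsg.isometryGroup F ⇑Q), g ∈ Cfsg.Omega F ⇑Q ∧ (F ∙ ((g : Matrix.GeneralLinearGroup (Fin n) F) : Matrix (Fin n) (Fin n) F).mulVec u) = F ∙ v := by
  classical
  have hOG : O Q ≤ G Q := O_le_G hQ (hF_of h (by simp))
  have hu0 : u ≠ 0 := fun h0 => hu (by rw [h0]; simp)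
  have hv0 : v ≠ 0 := fun h0 => hv (by rw [h0]; simp)
  obtain ⟨c, hc⟩ := isSquare_char_two (F := F) (Q v / Q u)
  have hc0 : c ≠ 0 := by
    rintro rfl
    rw [mul_zero] at hc
    exact div_ne_zero hv hu hc
  have hcu : Q (c • u) = Q v := by
    rw [Q_smul, ← hc]
    field_simp
  obtain ⟨k, hk, hkuv⟩ := witt_vector hQ (smul_ne_zero hc0 hu0) hv0 hcu
  obtain ⟨L, hL, hkL⟩ := exists_list_of_mem_G (hOG hk)
  have hku : k u = c⁻¹ • v := by
    have : k (c • u) = c • k u := map_smul _ _ _
    rw [this] at hkuv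
    rw [← hkuv, smul_smul, inv_mul_cancel₀ hc0, one_smul]
  have hspan : ∀ (a : F) (x : Fin n → F), a ≠ 0 → (F ∙ (a • x)) = (F ∙ x) := by
    intro a x ha
    exact Submodule.span_singleton_smul_eq (IsUnit.mk0 a ha) x
  by_cases he : Even L.length
  · refine ⟨(toO Q).symm (prodO Q L), ?_, ?_⟩
    · rw [mem_Omega_iff, MulEquiv.apply_symm_apply]
      exact prodO_mem_commutator hQ L hL he (isSquare_char_two _)
    · have h1 := toO_apply Q ((toO Q).symm (prodO Q L)) u
      rw [MulEquiv.apply_symm_apply] at h1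
      rw [← h1]
      show (F ∙ (prodR Q L u)) = _
      rw [← hkL, hku]
      exact hspan _ _ (inv_ne_zero hc0)
  · rw [Nat.not_even_iff_odd] at he
    refine ⟨(toO Q).symm (prodO Q (L ++ [u])), ?_, ?_⟩
    · rw [mem_Omega_iff, MulEquiv.apply_symm_apply]
      refine prodO_mem_commutator hQ _ ?_ ?_ (isSquare_char_two _)
      · intro w hw
        rcases List.mem_append.1 hw with h' | h'
        · exact hL w h'
        · rw [List.mem_singleton] at h'
          rw [h']; exact hu
      · rw [List.length_append]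
        simpa using he.add_one
    · have h1 := toO_apply Q ((toO Q).symm (prodO Q (L ++ [u]))) u
      rw [MulEquiv.apply_symm_apply] at h1
      rw [← h1]
      show (F ∙ (prodR Q (L ++ [u]) u)) = _
      rw [prodR_append, ← hkL]
      show (F ∙ (k (prodR Q [u] u))) = _
      rw [prodR_cons, prodR_nil, mul_one, refl_self Q hu, map_neg, hku, ← neg_smul]
      exact hspan _ _ (neg_ne_zero.2 (inv_ne_zero hc0))

end Cfsg.Agent.S2634
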