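import Mathlib
import Cfsg.Statements.S2635
import Cfsg.Agent.Lib.OrthMatrix

set_option autoImplicit false
open Cfsg
open Cfsg.Agent.Lib.OrthGroup Cfsg.Agent.Lib.OrthOmega Cfsg.Agent.Lib.OrthMatrix

namespace Cfsg.Agent.S2635

/-- Over a finite field of characteristic two, for a quadratic form Q on F^n with non-degenerate polar form, n ≥ 2, other than dimension 4 over the field of two elements, Ω (the commutator subgroup of the orthogonal group) is exactly the subgroup generated by the products of two reflections (orthogonal transvections) x ↦ x − Q(v)⁻¹ f(x, v) v, Q(v) ≠ 0: the products of an even number of reflections. -/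
theorem result {F : Type*} [Field F] [Fintype F] [CharP F 2] {n : ℕ} (hn : 2 ≤ n) (h : Fintype.card F ≠ 2 ∨ n ≠ 4) (Q : QuadraticForm F (Fin n → F)) (hQ : (QuadraticMap.polarBilin Q).Nondegenerate) : Cfsg.Omega F ⇑Q = Subgroup.closure {g : ↥(Cfsg.isometryGroup F ⇑Q) | ∃ u v : Fin n → F, Q u ≠ 0 ∧ Q v ≠ 0 ∧ ((g : Matrix.GeneralLinearGroup (Fin n) F) : Matrix (Fin n) (Fin n) F) = Cfsg.reflectionMatrix ⇑Q u * Cfsg.reflectionMatrix ⇑Q v} := by
  classical
  have hOG : O Q ≤ G Q := O_le_G hQ (hF_of h (by simp))
  apply le_antisymm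
  · intro g hg
    rw [mem_Omega_iff] at hg
    obtain ⟨L, hL, hgL, he, -⟩ := exists_list_of_mem_commutator hOG hg
    have key : ∀ (m : ℕ) (L : List (Fin n → F)), L.length = 2 * m → (∀ v ∈ L, Q v ≠ 0) →
        (toO Q).symm (prodO Q L) ∈ Subgroup.closure {g : ↥(Cfsg.isometryGroup F ⇑Q) | ∃ u v : Fin n → F, Q u ≠ 0 ∧ Q v ≠ 0 ∧ ((g : Matrix.GeneralLinearGroup (Fin n) F) : Matrix (Fin n) (Fin n) F) = Cfsg.reflectionMatrix ⇑Q u * Cfsg.reflectionMatrix ⇑Q v} := by
      intro m
      induction m with
      | zero =>
        intro L hL _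
        have : L = [] := List.length_eq_zero_iff.1 (by omega)
        subst this
        simp [Subgroup.one_mem]
      | succ m ih =>
        intro L hLn hL
        match L, hLn, hL with
        | [], h, _ => simp at h
        | [_], h, _ => simp at h; omega
        | u :: v :: L', h, hL =>
          have hu := hL u (by simp)
          have hv := hL v (by simp)
          have h1 : prodO Q (u :: v :: L') = (reflO Q u * reflO Q v) * prodO Q L' := by
            rw [prodO_cons, prodO_cons, mul_assoc]
          rw [h1, map_mul]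
          refine Subgroup.mul_mem _ (Subgroup.subset_closure ⟨u, v, hu, hv, ?_⟩) ?_
          · rw [toO_eq_reflO_mul_iff]
            simp
          · exact ih L' (by simp at h; omega) (fun w hw => hL w (by simp [hw]))
    obtain ⟨k, hk⟩ := he
    have := key k L (by omega) hL
    rwa [← hgL, MulEquiv.symm_apply_apply] at this
  · rw [Subgroup.closure_le]
    rintro g ⟨u, v, hu, hv, huv⟩
    show g ∈ Cfsg.Omega F ⇑Q
    rw [mem_Omega_iff]
    have h1 : toO Q g = prodO Q [u, v] := by
      rw [(toO_eq_reflO_mul_iff Q g u v).1 huv, prodO_cons, prodO_cons, prodO_nil, mul_one]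
    rw [h1]
    refine prodO_mem_commutator hQ _ ?_ (by simp) (isSquare_char_two _)
    intro w hw
    simp only [List.mem_cons, List.not_mem_nil, or_false] at hw
    rcases hw with rfl | rfl
    · exact hu
    · exact hv

end Cfsg.Agent.S2635
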