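import Mathlib
import Cfsg.Statements.S2636
import Cfsg.Agent.Lib.Hilbert90

set_option autoImplicit false
open Cfsg

open scoped MatrixGroups

namespace Cfsg.Agent.S2636

open Cfsg.Agent.Lib.Hilbert90

/-- Centraliser of a field automorphism in PGL_n: let F be the field with q = q₀^r elements, σ a field automorphism of F of prime order r (so its fixed field has q₀ elements) and n ≥ 1. The invertible matrices g whose entrywise image under σ is a scalar multiple of g — those whose coset modulo scalars is fixed by σ — number (q − 1)/(q₀ − 1) · |GL_n(q₀)|; equivalently the centraliser in PGL_n(q) of the induced automorphism has the order of PGL_n(q₀). -/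
theorem result {F : Type*} [Field F] [Fintype F] {q₀ r n : ℕ} (hr : r.Prime) (hn : 1 ≤ n) (hF : Fintype.card F = q₀ ^ r) (σ : F ≃+* F) (hσ : orderOf σ = r) : Nat.card {g : GL (Fin n) F // ∃ c : F, c ≠ 0 ∧ (g : Matrix (Fin n) (Fin n) F).map σ = c • (g : Matrix (Fin n) (Fin n) F)} = (q₀ ^ r - 1) / (q₀ - 1) * ∏ i : Fin n, (q₀ ^ n - q₀ ^ (i : ℕ)) := by
  classical
  have hcard := card_eq_card_fixedF_pow σ hσ
  rw [Nat.card_eq_fintype_card, hF] at hcard
  have hq₀ : Nat.card (fixedF σ) = q₀ := (Nat.pow_left_injective (n := r) hr.pos.ne' hcard).symm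
  have h1 := card_range_coB σ
  rw [Nat.card_eq_fintype_card (α := F), hF, hq₀] at h1
  have h2 : 1 < q₀ := by
    rw [← hq₀]
    exact Finite.one_lt_card
  rw [card_scalar_fixed σ hr.pos hσ hn, card_fixed_matrices]
  haveI : Fintype (fixedF σ) := Fintype.ofFinite _
  rw [Matrix.card_GL_field, ← Nat.card_eq_fintype_card, hq₀]
  congr 1
  rw [← h1, Nat.mul_div_cancel _ (by omega)]

end Cfsg.Agent.S2636
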