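import Mathlib
import Cfsg.Statements.S2637
import Cfsg.Agent.Lib.SpOrder3

set_option autoImplicit false
open Cfsg

namespace Cfsg.Agent.S2637

open Matrix Polynomial Module
open Cfsg.Agent.Lib.UnitaryBasic Cfsg.Agent.Lib.SpOrder3 Cfsg.Agent.Lib.SympForm

/-- `X² + X + 1` is irreducible over the field with `q ≡ 2 (mod 3)` elements. -/
theorem no_root {F : Type*} [Field F] [Fintype F] {q : ℕ} (hF : Fintype.card F = q) (hq : q % 3 = 2)
    (a : F) : a ^ 2 + a + 1 ≠ 0 := by
  intro h
  have h3 : a ^ 3 = 1 := by linear_combination (a - 1) * h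
  have ha0 : a ≠ 0 := by
    rintro rfl
    simp at h
  have ha1 : a ^ q = a ^ 2 := by
    rw [← Nat.div_add_mod q 3, hq, pow_add, pow_mul, h3, one_pow, one_mul]
  have ha2 : a ^ q = a := by
    rw [← hF, FiniteField.pow_card]
  have ha3 : a = 1 := by
    have h4 : a * (a - 1) = 0 := by
      rw [ha2] at ha1
      linear_combination -ha1
    rcases mul_eq_zero.1 h4 with h5 | h5
    · exact absurd h5 ha0
    · exact sub_eq_zero.1 h5
  subst ha3
  -- characteristic three
  have h30 : (3 : F) = 0 := by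
    have : (1 : F) ^ 2 + 1 + 1 = 3 := by norm_num
    rw [← this]
    exact h
  obtain ⟨p, hp⟩ := CharP.exists F
  obtain ⟨n, hpp, hcard⟩ := FiniteField.card F p
  have h3' : ((3 : ℕ) : F) = 0 := by exact_mod_cast h30
  have hdvd : p ∣ 3 := (CharP.cast_eq_zero_iff F p 3).1 h3'
  have hp3 : p = 3 := (Nat.prime_dvd_prime_iff_eq hpp Nat.prime_three).1 hdvd
  subst hp3
  rw [hF] at hcard
  rw [hcard] at hq
  have : 3 ∣ 3 ^ (n : ℕ) := dvd_pow_self 3 n.ne_zero
  omega

/-- Centraliser of a fixed-point-free element of order three in Sp_2m(q) when q ≡ 2 (mod 3): if x ∈ Sp_2m(F) (|F| = q, m ≥ 1) satisfies x³ = 1 and x − 1 is invertible, then its centraliser in Sp_2m(F) has the order of the unitary group GU_m(q), namely q^(m(m−1)/2) Π_(i=1)^m (q^i − (−1)^i) (x lies in the centre of a subgroup GU_m(q) of Sp_2m(q)). -/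
theorem result {F : Type*} [Field F] [Fintype F] {q : ℕ} (hF : Fintype.card F = q) (hq : q % 3 = 2) {m : ℕ} (hm : 1 ≤ m) (x : Matrix.symplecticGroup (Fin m) F) (hx3 : x ^ 3 = 1) (hfpf : IsUnit ((x : Matrix (Fin m ⊕ Fin m) (Fin m ⊕ Fin m) F) - 1)) : (Nat.card ↥(Subgroup.centralizer ({x} : Set ↥(Matrix.symplecticGroup (Fin m) F))) : ℤ) = (q : ℤ) ^ (m * (m - 1) / 2) * ∏ i : Fin m, ((q : ℤ) ^ ((i : ℕ) + 1) - (-1) ^ ((i : ℕ) + 1)) := by
  classical
  set Y : Matrix (Fin m ⊕ Fin m) (Fin m ⊕ Fin m) F := x.1 with hY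
  have hY3 : Y ^ 3 = 1 := by
    have := congrArg (fun g : Matrix.symplecticGroup (Fin m) F =>
      (g : Matrix (Fin m ⊕ Fin m) (Fin m ⊕ Fin m) F)) hx3
    simpa [hY] using this
  have hY2 : Y * Y + Y + 1 = 0 := by
    have h1 : (Y - 1) * (Y * Y + Y + 1) = (Y - 1) * 0 := by
      rw [mul_zero]
      have : (Y - 1) * (Y * Y + Y + 1) = Y ^ 3 - 1 := by noncomm_ring
      rw [this, hY3, sub_self]
    exact hfpf.mul_left_cancel h1
  have hYB : ∀ u v, sympForm m F (Y *ᵥ u) (Y *ᵥ v) = sympForm m F u v := fun u v => sp_preserves x u v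
  -- the field with `q²` elements
  let f : F[X] := X ^ 2 + X + 1
  have hfdeg : f.natDegree = 2 := by
    simp only [f]
    compute_degree!
  have hfdeg' : f.degree = 2 := by
    rw [Polynomial.degree_eq_natDegree (by rintro h; rw [h] at hfdeg; simp at hfdeg), hfdeg]
    rfl
  have hfmonic : f.Monic := by
    simp only [f]
    monicity!
  have hroot : ∀ a : F, f.eval a = a ^ 2 + a + 1 := by
    intro a
    simp [f]
  have hirr : Irreducible f := by
    rw [Polynomial.Monic.irreducible_iff_roots_eq_zero_of_degree_le_three hfmonic (by omega) (by omega)]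
    rw [Multiset.eq_zero_iff_forall_notMem]
    intro a ha
    have h1 := (Polynomial.mem_roots'.1 ha).2
    rw [Polynomial.IsRoot, hroot] at h1
    exact no_root hF hq a h1
  haveI : Fact (Irreducible f) := ⟨hirr⟩
  let K := AdjoinRoot f
  haveI : Finite K := by
    have : FiniteDimensional F K := (AdjoinRoot.powerBasis hirr.ne_zero).finite
    exact Module.finite_of_finite F
  letI : Fintype K := Fintype.ofFinite K
  have hfr : finrank F K = 2 := by
    have h1 := (AdjoinRoot.powerBasis hirr.ne_zero).finrank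
    rw [AdjoinRoot.powerBasis_dim] at h1
    rw [h1, hfdeg]
  have hK : Fintype.card K = q ^ 2 := by
    have h1 := Module.card_eq_pow_finrank (K := F) (V := K)
    rw [hfr, hF] at h1
    exact h1
  let ω : K := AdjoinRoot.root f
  have hω : ω ^ 2 + ω + 1 = 0 := by
    have h1 := AdjoinRoot.eval₂_root f
    simpa [f, Polynomial.eval₂_add, Polynomial.eval₂_pow] using h1
  have hω3 : ω ^ 3 = 1 := by linear_combination (ω - 1) * hω
  have hωq : ω ^ q = ω ^ 2 := by
    rw [← Nat.div_add_mod q 3, hq, pow_add, pow_mul, hω3, one_pow, one_mul]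
  have hω0 : ω ≠ 0 := by
    intro h0
    rw [h0] at hω
    simp at hω
  have hωσ : sigma hK ω ≠ ω := by
    rw [sigma_apply, hωq]
    intro h1
    have h2 : ω = 1 := by
      have h3 : ω * (ω - 1) = 0 := by linear_combination h1
      rcases mul_eq_zero.1 h3 with h5 | h5
      · exact absurd h5 hω0
      · exact sub_eq_zero.1 h5
    rw [h2] at hω
    have h3 : algebraMap F K ((1 : F) ^ 2 + 1 + 1) = 0 := by
      simp only [map_add, map_pow, map_one]
      exact hω
    exact no_root hF hq 1 ((map_eq_zero _).1 h3)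
  -- the action of `K` on `F^{2m}`
  let LY : Module.End F (Fin m ⊕ Fin m → F) := Matrix.mulVecLin Y
  have hLY : Polynomial.aeval LY f = 0 := by
    apply LinearMap.ext
    intro v
    have h2 := congrArg (fun M => M *ᵥ v) hY2
    simp only [Matrix.add_mulVec, Matrix.one_mulVec, Matrix.zero_mulVec] at h2
    simp only [f, map_add, map_pow, Polynomial.aeval_X, map_one]
    rw [pow_two]
    change Y *ᵥ (Y *ᵥ v) + Y *ᵥ v + v = 0
    rw [Matrix.mulVec_mulVec]
    exact h2
  let act : K →+* Module.End F (Fin m ⊕ Fin m → F) :=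
    Ideal.Quotient.lift (Ideal.span {f}) (Polynomial.aeval LY : F[X] →ₐ[F] _).toRingHom (by
      intro a ha
      obtain ⟨g, rfl⟩ := Ideal.mem_span_singleton'.1 ha
      change Polynomial.aeval LY (g * f) = 0
      rw [map_mul, hLY, mul_zero])
  have hact_of : ∀ c : F, act (algebraMap F K c) = algebraMap F _ c := by
    intro c
    have h1 : (algebraMap F K c) = Ideal.Quotient.mk (Ideal.span {f}) (Polynomial.C c) := rfl
    rw [h1]
    change Polynomial.aeval LY (Polynomial.C c) = _
    rw [Polynomial.aeval_C]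
  have hact_root : act ω = LY := by
    have h1 : ω = Ideal.Quotient.mk (Ideal.span {f}) (Polynomial.X) := rfl
    rw [h1]
    change Polynomial.aeval LY Polynomial.X = _
    rw [Polynomial.aeval_X]
  letI : Module K (Fin m ⊕ Fin m → F) := Module.compHom _ act
  have hsmul : ∀ (k : K) (v : Fin m ⊕ Fin m → F), k • v = act k v := fun _ _ => rfl
  haveI : IsScalarTower F K (Fin m ⊕ Fin m → F) := ⟨by
    intro c k v
    rw [hsmul, hsmul, Algebra.smul_def, map_mul]
    rw [hact_of]
    rfl⟩
  have hact : ∀ v, ω • v = Y *ᵥ v := by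
    intro v
    rw [hsmul]
    rw [hact_root]
    rfl
  have hcard := card_centralizer hF hK hω hωq hωσ hYB hY2 hact
  have h1 := Cfsg.Agent.Lib.GUField.card_GU_int hK m
  rw [← hcard] at h1
  rw [← h1]
  congr 1
  apply Nat.card_congr
  apply Equiv.subtypeEquivRight
  intro g
  rw [Subgroup.mem_centralizer_singleton_iff]
  constructor
  · intro h
    have := congrArg (fun g : Matrix.symplecticGroup (Fin m) F =>
      (g : Matrix (Fin m ⊕ Fin m) (Fin m ⊕ Fin m) F)) h
    exact this
  · intro h
    exact Subtype.ext h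

end Cfsg.Agent.S2637
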