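import Mathlib
import Cfsg.Statements.S2638

set_option autoImplicit false
open Cfsg

open scoped MatrixGroups

namespace Cfsg.Agent.S2638

open Polynomial Module Matrix

set_option linter.unusedSectionVars false

variable {F : Type*} [Field F] [Fintype F] {p q : ℕ} [Fact p.Prime] [CharP F p] {n r : ℕ}

/-- Irreducible factors of the cyclotomic-type polynomial have degree divisible by the order of `q`. -/
theorem dvd_natDegree_of_factor (hF : Fintype.card F = q) (hr : r.Prime) (hrp : r ≠ p)
    {P : F[X]} (hP : Irreducible P) (hdvd : P ∣ ∑ i ∈ Finset.range r, (X : F[X]) ^ i) :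
    orderOf (q : ZMod r) ∣ P.natDegree := by
  classical
  haveI : Fact (Irreducible P) := ⟨hP⟩
  haveI : Fact r.Prime := ⟨hr⟩
  let L := AdjoinRoot P
  have hP0 : P ≠ 0 := hP.ne_zero
  haveI : Module.Finite F L := (AdjoinRoot.powerBasis hP0).finite
  haveI : Finite L := Module.finite_of_finite F
  haveI : Fintype L := Fintype.ofFinite L
  have hfr : finrank F L = P.natDegree := by
    rw [(AdjoinRoot.powerBasis hP0).finrank]
    exact AdjoinRoot.powerBasis_dim hP0
  have hcard : Fintype.card L = q ^ P.natDegree := by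
    rw [Module.card_eq_pow_finrank (K := F) (V := L), hF, hfr]
  let ζ : L := AdjoinRoot.root P
  have hΦ : aeval ζ (∑ i ∈ Finset.range r, (X : F[X]) ^ i) = 0 := by
    obtain ⟨u, hu⟩ := hdvd
    rw [hu, map_mul]
    have : aeval ζ P = 0 := AdjoinRoot.eval₂_root P
    rw [this, zero_mul]
  have hΦ' : ∑ i ∈ Finset.range r, ζ ^ i = 0 := by
    simpa [map_sum] using hΦ
  have hpow : ζ ^ r = 1 := by
    have := geom_sum_mul ζ r
    rw [hΦ', zero_mul] at this
    exact (sub_eq_zero.1 this.symm)
  have hne : ζ ≠ 1 := by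
    intro h1
    rw [h1] at hΦ'
    simp only [one_pow, Finset.sum_const, Finset.card_range, nsmul_eq_mul, mul_one] at hΦ'
    have h2 : ((r : F) : L) = 0 := by
      simpa using hΦ'
    have h3 : (r : F) = 0 := by
      have : algebraMap F L (r : F) = 0 := by simpa using hΦ'
      exact (map_eq_zero (algebraMap F L)).1 this
    have h4 : p ∣ r := (CharP.cast_eq_zero_iff F p r).1 h3
    exact hrp ((Nat.prime_dvd_prime_iff_eq Fact.out hr).1 h4).symm
  have hord : orderOf ζ = r := orderOf_eq_prime hpow hne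
  have hζ0 : ζ ≠ 0 := by
    intro h0
    rw [h0, zero_pow hr.ne_zero] at hpow
    exact zero_ne_one hpow
  have h1 := FiniteField.pow_card_sub_one_eq_one ζ hζ0
  have h2 : r ∣ q ^ P.natDegree - 1 := by
    rw [← hord, ← hcard]
    exact orderOf_dvd_of_pow_eq_one h1
  apply orderOf_dvd_of_pow_eq_one
  have h3 : ((q ^ P.natDegree - 1 : ℕ) : ZMod r) = 0 := (ZMod.natCast_eq_zero_iff _ _).2 h2
  have hq : 1 ≤ q ^ P.natDegree := by
    rw [← hcard]
    exact Fintype.card_pos
  rw [Nat.cast_sub hq] at h3
  push_cast at h3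
  exact sub_eq_zero.1 h3

/-- The minimal polynomial of `x` is irreducible of degree `n`. -/
theorem minpoly_irreducible (hF : Fintype.card F = q) (hr : r.Prime) (hrp : r ≠ p)
    (hn : 1 ≤ n) (hi : orderOf (q : ZMod r) = n) (x : GL (Fin n) F) (hx : orderOf x = r) :
    Irreducible (minpoly F (x : Matrix (Fin n) (Fin n) F)) ∧
      (minpoly F (x : Matrix (Fin n) (Fin n) F)).natDegree = n := by
  classical
  set M : Matrix (Fin n) (Fin n) F := (x : Matrix (Fin n) (Fin n) F) with hM
  haveI : Nonempty (Fin n) := ⟨⟨0, hn⟩⟩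
  have hint : IsIntegral F M := Matrix.isIntegral M
  have hmon := minpoly.monic hint
  set μ := minpoly F M with hμ
  have hμ0 : μ ≠ 0 := hmon.ne_zero
  have hdeg : μ.natDegree ≤ n := by
    have h1 := natDegree_le_of_dvd (Matrix.minpoly_dvd_charpoly M) (Matrix.charpoly_monic M).ne_zero
    rw [Matrix.charpoly_natDegree_eq_dim, Fintype.card_fin] at h1
    exact h1
  have hpos : 0 < μ.natDegree := minpoly.natDegree_pos hint
  have hMr : M ^ r = 1 := by
    rw [hM, ← Units.val_pow_eq_pow_val, ← hx, pow_orderOf_eq_one, Units.val_one]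
  have hM1 : M ≠ 1 := by
    intro h1
    have h2 : x = 1 := Units.ext h1
    rw [h2, orderOf_one] at hx
    exact hr.ne_one hx.symm
  set Φ : F[X] := ∑ i ∈ Finset.range r, (X : F[X]) ^ i with hΦ
  have hdiv : μ ∣ Φ * (X - 1) := by
    apply minpoly.dvd
    rw [hΦ, geom_sum_mul, map_sub, map_pow, aeval_X, map_one, hMr, sub_self]
  have hncop : ¬ IsCoprime μ Φ := by
    intro hc
    have h1 : μ ∣ X - 1 := by
      apply hc.dvd_of_dvd_mul_left
      exact hdiv
    have h2 : X - 1 = μ := by
      apply eq_of_monic_of_dvd_of_natDegree_le hmon (monic_X_sub_C (1 : F)) 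
      · simpa using h1
      · simp only [natDegree_X_sub_C]
        omega
    have h3 : aeval M μ = 0 := minpoly.aeval F M
    rw [← h2, map_sub, aeval_X, map_one] at h3
    exact hM1 (sub_eq_zero.1 h3)
  have hnu : ¬ IsUnit (EuclideanDomain.gcd μ Φ) := fun h => hncop (EuclideanDomain.gcd_isUnit_iff.1 h)
  have hg0 : EuclideanDomain.gcd μ Φ ≠ 0 := by
    intro h0
    exact hμ0 (EuclideanDomain.gcd_eq_zero_iff.1 h0).1
  obtain ⟨P, hP, hPd⟩ := WfDvdMonoid.exists_irreducible_factor hnu hg0
  have hPμ : P ∣ μ := hPd.trans (EuclideanDomain.gcd_dvd_left _ _)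
  have hPΦ : P ∣ Φ := hPd.trans (EuclideanDomain.gcd_dvd_right _ _)
  have h1 := dvd_natDegree_of_factor hF hr hrp hP hPΦ
  rw [hi] at h1
  have hPpos : 0 < P.natDegree := natDegree_pos_iff_degree_pos.2 (degree_pos_of_irreducible hP)
  have h2 : n ≤ P.natDegree := Nat.le_of_dvd hPpos h1
  have h3 : P.natDegree ≤ μ.natDegree := natDegree_le_of_dvd hPμ hμ0
  have hassoc : Associated P μ := associated_of_dvd_of_natDegree_le hPμ hμ0 (by omega)
  exact ⟨hassoc.irreducible hP, by omega⟩

theorem commute_aeval {A M : Matrix (Fin n) (Fin n) F} (h : Commute A M) (f : F[X]) :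
    Commute A (aeval M f) := by
  induction f using Polynomial.induction_on' with
  | add a b ha hb =>
    rw [map_add]
    exact ha.add_right hb
  | monomial k a =>
    rw [aeval_monomial]
    exact (show Commute A (algebraMap F _ a) from (Algebra.commutes a A).symm).mul_right (h.pow_right k)

/-- For an irreducible minimal polynomial of degree `n`, the centraliser is the unit group of a field. -/
theorem main (hF : Fintype.card F = q) (hn : 1 ≤ n) (x : GL (Fin n) F)
    (hirr : Irreducible (minpoly F (x : Matrix (Fin n) (Fin n) F)))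
    (hdeg : (minpoly F (x : Matrix (Fin n) (Fin n) F)).natDegree = n) :
    IsCyclic ↥(Subgroup.centralizer ({x} : Set (GL (Fin n) F))) ∧
      Nat.card ↥(Subgroup.centralizer ({x} : Set (GL (Fin n) F))) = q ^ n - 1 := by
  classical
  set M : Matrix (Fin n) (Fin n) F := (x : Matrix (Fin n) (Fin n) F) with hM
  haveI : Nonempty (Fin n) := ⟨⟨0, hn⟩⟩
  set μ := minpoly F M with hμ
  haveI : Fact (Irreducible μ) := ⟨hirr⟩
  have hμ0 : μ ≠ 0 := hirr.ne_zero
  let L := AdjoinRoot μ
  haveI : Module.Finite F L := (AdjoinRoot.powerBasis hμ0).finite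
  haveI : Finite L := Module.finite_of_finite F
  haveI : Fintype L := Fintype.ofFinite L
  have hfr : finrank F L = n := by
    rw [(AdjoinRoot.powerBasis hμ0).finrank, AdjoinRoot.powerBasis_dim hμ0, hdeg]
  have hcard : Fintype.card L = q ^ n := by
    rw [Module.card_eq_pow_finrank (K := F) (V := L), hF, hfr]
  have heval : ∀ a ∈ Ideal.span {μ}, (aeval M : F[X] →ₐ[F] Matrix (Fin n) (Fin n) F) a = 0 := by
    intro a ha
    obtain ⟨b, rfl⟩ := Ideal.mem_span_singleton'.1 ha
    rw [map_mul, minpoly.aeval, mul_zero]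
  let f : L →ₐ[F] Matrix (Fin n) (Fin n) F := Ideal.Quotient.liftₐ (Ideal.span {μ}) (aeval M) heval
  have hfmk : ∀ g : F[X], f (AdjoinRoot.mk μ g) = aeval M g := by
    intro g
    rfl
  -- commuting with `M` implies commuting with the image of `f`
  have hcomm : ∀ {A : Matrix (Fin n) (Fin n) F}, Commute A M → ∀ l : L, Commute A (f l) := by
    intro A hA l
    obtain ⟨g, rfl⟩ := AdjoinRoot.mk_surjective l
    rw [hfmk]
    exact commute_aeval hA g
  have hMf : ∀ l : L, Commute M (f l) := fun l => hcomm (Commute.refl M) l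
  have hflmul : ∀ l l' : L, f l * f l' = f l' * f l := by
    intro l l'
    rw [← map_mul, ← map_mul, mul_comm]
  have hfl1 : ∀ l : L, l ≠ 0 → f l⁻¹ * f l = 1 := by
    intro l hl
    rw [← map_mul, inv_mul_cancel₀ hl, map_one]
  -- a cyclic vector
  obtain ⟨v₀, hv₀⟩ : ∃ v₀ : Fin n → F, v₀ ≠ 0 :=
    ⟨fun _ => 1, fun h => one_ne_zero (congrFun h ⟨0, hn⟩)⟩
  let E : L →ₗ[F] (Fin n → F) :=
    { toFun := fun l => f l *ᵥ v₀
      map_add' := fun a b => by rw [map_add, Matrix.add_mulVec]
      map_smul' := fun c a => by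
        rw [map_smul, Matrix.smul_mulVec]
        rfl }
  have hEinj : Function.Injective E := by
    rw [← LinearMap.ker_eq_bot, LinearMap.ker_eq_bot']
    intro l hl
    by_contra hl0
    apply hv₀
    have h1 : f l *ᵥ v₀ = 0 := hl
    have h2 : f l⁻¹ *ᵥ (f l *ᵥ v₀) = 0 := by rw [h1, Matrix.mulVec_zero]
    rwa [Matrix.mulVec_mulVec, hfl1 l hl0, Matrix.one_mulVec] at h2
  have hEsurj : Function.Surjective E :=
    (LinearMap.injective_iff_surjective_of_finrank_eq_finrank (by simp [hfr])).1 hEinj
  -- the isomorphism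
  have hfinj : Function.Injective f := f.toRingHom.injective
  let φ : Lˣ →* ↥(Subgroup.centralizer ({x} : Set (GL (Fin n) F))) :=
    { toFun := fun u => ⟨Units.map (f : L →* Matrix (Fin n) (Fin n) F) u, by
        rw [Subgroup.mem_centralizer_iff]
        intro y hy
        rw [Set.mem_singleton_iff] at hy
        subst hy
        apply Units.ext
        exact (hMf u).eq⟩
      map_one' := by
        apply Subtype.ext
        simp
      map_mul' := fun a b => by
        apply Subtype.ext
        simp }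
  have hφval : ∀ u : Lˣ, (((φ u : ↥(Subgroup.centralizer ({x} : Set (GL (Fin n) F)))) : GL (Fin n) F) :
      Matrix (Fin n) (Fin n) F) = f u := fun u => rfl
  have hφinj : Function.Injective φ := by
    intro a b hab
    apply Units.ext
    apply hfinj
    rw [← hφval, ← hφval, hab]
  have hφsurj : Function.Surjective φ := by
    rintro ⟨A, hA⟩
    rw [Subgroup.mem_centralizer_iff] at hA
    have hAx : A * x = x * A := (hA x (Set.mem_singleton x)).symm
    have hAM : Commute (A : Matrix (Fin n) (Fin n) F) M := by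
      show (A : Matrix (Fin n) (Fin n) F) * M = M * A
      rw [hM, ← Units.val_mul, ← Units.val_mul, hAx]
    obtain ⟨l, hl⟩ := hEsurj ((A : Matrix (Fin n) (Fin n) F) *ᵥ v₀)
    have hl' : f l *ᵥ v₀ = (A : Matrix (Fin n) (Fin n) F) *ᵥ v₀ := hl
    have hAfl : (A : Matrix (Fin n) (Fin n) F) = f l := by
      apply Matrix.toLin'.injective
      apply LinearMap.ext
      intro w
      obtain ⟨l', hl''⟩ := hEsurj w
      have hw : f l' *ᵥ v₀ = w := hl''
      show (A : Matrix (Fin n) (Fin n) F) *ᵥ w = f l *ᵥ w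
      rw [← hw, Matrix.mulVec_mulVec, Matrix.mulVec_mulVec, (hcomm hAM l').eq, hflmul l l',
        ← Matrix.mulVec_mulVec, ← Matrix.mulVec_mulVec, hl']
    have hl0 : l ≠ 0 := by
      rintro rfl
      rw [map_zero] at hAfl
      have h1 := A.mul_inv
      rw [hAfl, zero_mul] at h1
      have h2 := congrFun (congrFun h1 ⟨0, hn⟩) ⟨0, hn⟩
      simp at h2
    refine ⟨Units.mk0 l hl0, ?_⟩
    apply Subtype.ext
    apply Units.ext
    rw [hφval]
    exact hAfl.symm
  let e : Lˣ ≃* ↥(Subgroup.centralizer ({x} : Set (GL (Fin n) F))) :=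
    MulEquiv.ofBijective φ ⟨hφinj, hφsurj⟩
  constructor
  · exact isCyclic_of_surjective e e.surjective
  · rw [← Nat.card_congr e.toEquiv, Nat.card_eq_fintype_card, Fintype.card_units, hcard]

/-- If an element x of GL_n(q), n ≥ 1, has prime order r and the multiplicative order of q modulo r is n (r is a primitive prime divisor of q^n − 1, so x acts irreducibly), then the centraliser of x in GL_n(q) is cyclic of order q^n − 1 (the multiplicative group of the field with q^n elements, a Singer cycle). -/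
theorem result {F : Type*} [Field F] [Fintype F] {p q : ℕ} [Fact p.Prime] [CharP F p] (hF : Fintype.card F = q) {n r : ℕ} (hn : 1 ≤ n) (hr : r.Prime) (hrp : r ≠ p) (hi : orderOf (q : ZMod r) = n) (x : GL (Fin n) F) (hx : orderOf x = r) : IsCyclic ↥(Subgroup.centralizer ({x} : Set (GL (Fin n) F))) ∧ Nat.card ↥(Subgroup.centralizer ({x} : Set (GL (Fin n) F))) = q ^ n - 1 := by
  obtain ⟨h1, h2⟩ := minpoly_irreducible hF hr hrp hn hi x hx
  exact main hF hn x h1 h2

end Cfsg.Agent.S2638
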