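import Mathlib
import Cfsg.Statements.S2639
import Cfsg.Agent.Lib.RestrScal

set_option autoImplicit false
open Cfsg

namespace Cfsg.Agent.S2639

open Cfsg.Agent.Lib.RestrScal Cfsg.Agent.Lib.SympForm Matrix

/-- The unitary group embeds in the symplectic group of twice the dimension over the subfield: for a field K with q² elements and a field F with q elements (isomorphic to the subfield of K of order q), there is an injective homomorphism GU_m(q) → Sp_2m(F). -/
theorem result {K F : Type*} [Field K] [Fintype K] [Field F] [Fintype F] {q : ℕ} (hK : Fintype.card K = q ^ 2) (hF : Fintype.card F = q) (m : ℕ) : ∃ φ : ↥(Cfsg.GU m K q) →* ↥(Matrix.symplecticGroup (Fin m) F), Function.Injective φ := by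
  obtain ⟨ι⟩ := exists_ringHom hF hK
  letI : Algebra F K := ι.toAlgebra
  obtain ⟨θ, hθ⟩ := exists_sigma_ne hK
  let e := eθ hF hK hθ m
  have hmem : ∀ g : ↥(Cfsg.GU m K q), R e ((g.1 : Matrix.GeneralLinearGroup (Fin m) K) : Matrix (Fin m) (Fin m) K) ∈
      Matrix.symplecticGroup (Fin m) F := by
    intro g
    rw [mem_symplecticGroup_iff_preserves]
    intro x y
    apply (algebraMap F K).injective
    rw [sympForm_eq_trace hF hK hθ, sympForm_eq_trace hF hK hθ]
    have h1 := apply_R_mulVec e ((g.1 : Matrix.GeneralLinearGroup (Fin m) K) : Matrix (Fin m) (Fin m) K) x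
    have h2 := apply_R_mulVec e ((g.1 : Matrix.GeneralLinearGroup (Fin m) K) : Matrix (Fin m) (Fin m) K) y
    have h3 := g.2 (e x) (e y)
    have h4 : hermForm m K q (e (R e ((g.1 : Matrix.GeneralLinearGroup (Fin m) K) : Matrix (Fin m) (Fin m) K) *ᵥ x))
        (e (R e ((g.1 : Matrix.GeneralLinearGroup (Fin m) K) : Matrix (Fin m) (Fin m) K) *ᵥ y)) = hermForm m K q (e x) (e y) := by
      rw [h1, h2]
      exact h3
    exact congrArg (fun z => Cfsg.Agent.Lib.RestrScal.lam hK θ * z + Cfsg.Agent.Lib.UnitaryBasic.sigma hK (Cfsg.Agent.Lib.RestrScal.lam hK θ * z)) h4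
  refine ⟨{ toFun := fun g => ⟨R e ((g.1 : Matrix.GeneralLinearGroup (Fin m) K) : Matrix (Fin m) (Fin m) K), hmem g⟩
            map_one' := ?_
            map_mul' := ?_ }, ?_⟩
  · apply Subtype.ext
    exact map_one (R e)
  · intro a b
    apply Subtype.ext
    exact map_mul (R e) _ _
  · intro a b hab
    apply Subtype.ext
    apply Units.ext
    exact R_injective e (congrArg Subtype.val hab)

end Cfsg.Agent.S2639
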