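import Mathlib
import Cfsg.Statements.S2640
import Cfsg.Agent.Lib.RestrHerm

set_option autoImplicit false
open Cfsg

namespace Cfsg.Agent.S2640

open Cfsg.Agent.Lib.RestrScal Cfsg.Agent.Lib.RestrHerm Cfsg.Agent.Lib.UnitaryBasic Matrix Module

/-- For m even, the unitary group GU_m(q) (over the field with q² elements) embeds in the orthogonal group O⁺_2m(q) of the hyperbolic form Σ x_i y_i over the field with q elements (there is an injective homomorphism). -/
theorem result {K F : Type*} [Field K] [Fintype K] [Field F] [Fintype F] {q : ℕ} (hK : Fintype.card K = q ^ 2) (hF : Fintype.card F = q) (m : ℕ) (hm : Even m) : ∃ φ : ↥(Cfsg.GU m K q) →* ↥(Cfsg.isometryGroup F (Cfsg.quadFormPlus m F)), Function.Injective φ := by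
  obtain ⟨k, rfl⟩ := hm
  obtain ⟨ι⟩ := exists_ringHom hF hK
  letI : Algebra F K := ι.toAlgebra
  obtain ⟨θ, hθ⟩ := exists_sigma_ne hK
  obtain ⟨c, hc0, hc⟩ := exists_norm_neg_one hK
  let e : (Fin (k + k) ⊕ Fin (k + k) → F) ≃ₗ[F] (Fin (k + k) → K) :=
    (hypE hK θ c k).linearEquivOfInjective (hypE_injective hF hK hθ hc0 k) (by
      rw [finrank_sum, finrank_pi_K hF hK]
      simp only [Fintype.card_fin]
      ring)
  exact exists_hom_of_isometry hK e _ (hypE_norm hF hK hθ hc k)

end Cfsg.Agent.S2640
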