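import Mathlib
import Cfsg.Statements.S2641
import Cfsg.Agent.Lib.RestrHerm

set_option autoImplicit false
open Cfsg

namespace Cfsg.Agent.S2641

open Cfsg.Agent.Lib.RestrScal Cfsg.Agent.Lib.RestrHerm Cfsg.Agent.Lib.UnitaryBasic Matrix Module

set_option linter.unusedSectionVars false
set_option linter.unusedSimpArgs false

variable {F K : Type*} [Field F] [Fintype F] [Field K] [Fintype K] [Algebra F K] {q : ℕ}

/-- Coordinates on `K^{k+k+1}`. -/
noncomputable def E (hK : Fintype.card K = q ^ 2) (θ c τ : K) (k : ℕ) :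
    ((Fin (k + k) ⊕ Fin (k + k)) ⊕ Fin 2 → F) →ₗ[F] (Fin (k + k + 1) → K) where
  toFun z i := Sum.elim (hypE hK θ c k (fun s => z (.inl s)))
    (fun _ => algebraMap F K (z (.inr 0)) - τ * algebraMap F K (z (.inr 1)))
    (finSumFinEquiv.symm i)
  map_add' x y := by
    funext i
    obtain ⟨s, rfl⟩ := finSumFinEquiv.surjective i
    rcases s with j | j
    · simp only [Equiv.symm_apply_apply, Sum.elim_inl, Pi.add_apply]
      have : (fun s => x (Sum.inl s) + y (Sum.inl s)) = (fun s => x (Sum.inl s)) + (fun s => y (Sum.inl s)) := rfl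
      rw [this, map_add]
      rfl
    · simp only [Equiv.symm_apply_apply, Sum.elim_inr, Pi.add_apply, map_add]
      ring
  map_smul' a x := by
    funext i
    obtain ⟨s, rfl⟩ := finSumFinEquiv.surjective i
    rcases s with j | j
    · simp only [Equiv.symm_apply_apply, Sum.elim_inl, Pi.smul_apply, RingHom.id_apply]
      have : (fun s => a • x (Sum.inl s)) = a • (fun s => x (Sum.inl s)) := rfl
      rw [this, map_smul]
      rfl
    · simp only [Equiv.symm_apply_apply, Sum.elim_inr, Pi.smul_apply, smul_eq_mul, RingHom.id_apply,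
        map_mul, Algebra.smul_def]
      ring

theorem E_inl (hK : Fintype.card K = q ^ 2) (θ c τ : K) (k : ℕ)
    (z : (Fin (k + k) ⊕ Fin (k + k)) ⊕ Fin 2 → F) (i : Fin (k + k)) :
    E hK θ c τ k z (finSumFinEquiv (.inl i)) = hypE hK θ c k (fun s => z (.inl s)) i := by
  show Sum.elim _ _ (finSumFinEquiv.symm _) = _
  rw [Equiv.symm_apply_apply]
  rfl

theorem E_inr (hK : Fintype.card K = q ^ 2) (θ c τ : K) (k : ℕ)
    (z : (Fin (k + k) ⊕ Fin (k + k)) ⊕ Fin 2 → F) (i : Fin 1) :
    E hK θ c τ k z (finSumFinEquiv (.inr i)) = algebraMap F K (z (.inr 0)) - τ * algebraMap F K (z (.inr 1)) := by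
  show Sum.elim _ _ (finSumFinEquiv.symm _) = _
  rw [Equiv.symm_apply_apply]
  rfl

theorem core (hF : Fintype.card F = q) (hK : Fintype.card K = q ^ 2) (k : ℕ) (a b : F)
    (hab : ∀ z₁ z₂ : F, z₁ ^ 2 + a * z₁ * z₂ + b * z₂ ^ 2 = 0 → z₁ = 0 ∧ z₂ = 0) :
    ∃ φ : ↥(Cfsg.GU (k + k + 1) K q) →* ↥(Cfsg.isometryGroup F (Cfsg.quadFormMinus (k + k) F a b)),
      Function.Injective φ := by
  obtain ⟨θ, hθ⟩ := exists_sigma_ne hK
  obtain ⟨c, hc0, hc⟩ := exists_norm_neg_one hK
  obtain ⟨τ, hτ⟩ := exists_root_of_anisotropic hF hK hab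
  obtain ⟨hτne, hτsum, hτprod⟩ := root_facts hF hK hab hτ
  have hinj : Function.Injective (E (F := F) hK θ c τ k) := by
    rw [← LinearMap.ker_eq_bot, LinearMap.ker_eq_bot']
    intro z hz
    have h1 : (fun s => z (Sum.inl s)) = 0 := by
      apply hypE_injective hF hK hθ hc0 k
      rw [map_zero]
      funext i
      rw [← E_inl hK θ c τ k z i, hz]
      rfl
    have h2 : algebraMap F K (z (.inr 0)) + algebraMap F K (- z (.inr 1)) * τ = 0 := by
      have := E_inr hK θ c τ k z 0
      rw [hz] at this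
      have h0 : (0 : Fin (k + k + 1) → K) (finSumFinEquiv (.inr 0)) = 0 := rfl
      rw [h0] at this
      rw [map_neg]
      linear_combination -this
    obtain ⟨h3, h4⟩ := eq_zero_of_add_mul hF hK hτne h2
    funext s
    rcases s with s | s
    · exact congrFun h1 s
    · fin_cases s
      · exact h3
      · exact neg_eq_zero.1 h4
  let e : ((Fin (k + k) ⊕ Fin (k + k)) ⊕ Fin 2 → F) ≃ₗ[F] (Fin (k + k + 1) → K) :=
    (E hK θ c τ k).linearEquivOfInjective hinj (by
      rw [Module.finrank_fintype_fun_eq_card, finrank_pi_K hF hK]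
      simp only [Fintype.card_sum, Fintype.card_fin]
      ring)
  apply exists_hom_of_isometry hK e
  intro z
  show _ = Cfsg.hermForm (k + k + 1) K q (E hK θ c τ k z) (E hK θ c τ k z)
  have h1 := hypE_norm hF hK hθ hc k (fun s => z (.inl s))
  simp only [Cfsg.hermForm] at h1 ⊢
  rw [← finSumFinEquiv.sum_comp (fun i => E hK θ c τ k z i * E hK θ c τ k z i ^ q),
    Fintype.sum_sum_type]
  simp only [E_inl, E_inr]
  rw [← h1]
  simp only [Cfsg.quadFormMinus, Cfsg.quadFormPlus, map_add, map_mul, map_pow, Fin.sum_univ_one]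
  rw [← sigma_apply hK (algebraMap F K (z (.inr 0)) - τ * algebraMap F K (z (.inr 1)))]
  simp only [map_sub, map_mul, sigma_algebraMap hF]
  congr 1
  linear_combination ((algebraMap F K (z (.inr 0))) * algebraMap F K (z (.inr 1))) * hτsum -
    (algebraMap F K (z (.inr 1))) ^ 2 * hτprod

/-- For m odd, the unitary group GU_m(q) (over the field with q² elements) embeds in the orthogonal group O⁻_2m(q) of an elliptic form (Σ_(i<m−1) x_i y_i plus an anisotropic binary form) over the field with q elements (there is an injective homomorphism). -/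
theorem result {K F : Type*} [Field K] [Fintype K] [Field F] [Fintype F] {q : ℕ} (hK : Fintype.card K = q ^ 2) (hF : Fintype.card F = q) (m : ℕ) (hm : Odd m) (a b : F) (hab : ∀ z₁ z₂ : F, z₁ ^ 2 + a * z₁ * z₂ + b * z₂ ^ 2 = 0 → z₁ = 0 ∧ z₂ = 0) : ∃ φ : ↥(Cfsg.GU m K q) →* ↥(Cfsg.isometryGroup F (Cfsg.quadFormMinus (m - 1) F a b)), Function.Injective φ := by
  obtain ⟨k, hk⟩ := hm
  have hk' : m = k + k + 1 := by omega
  subst hk'
  obtain ⟨ι⟩ := exists_ringHom hF hK
  letI : Algebra F K := ι.toAlgebra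
  exact core hF hK k a b hab

end Cfsg.Agent.S2641
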