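import Cfsg.Statements.S2645
import Mathlib
import Cfsg.Agent.Lib.SpRealize

set_option autoImplicit false
open Cfsg

namespace Cfsg.Agent.S2645

open Polynomial Module
open Cfsg.Agent.Lib.PrimeFactors Cfsg.Agent.Lib.DualFactors Cfsg.Agent.Lib.SemisimpleGL Cfsg.Agent.Lib.SpRealize

section aux

variable {F : Type*} [Field F] [Fintype F]

theorem coeff_zero_eq_one {r : ℕ} (hrodd : r % 2 = 1) {f : F[X]} (hm : f.Monic) (hd : Even f.natDegree)
    (hfix : Dl (RingHom.id F) f = f) (h0 : f.coeff 0 ≠ 0) (hs : ∀ g : F[X], Irreducible g → g ∣ f → g ∣ X ^ r - 1) :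
    f.coeff 0 = 1 := by
  obtain ⟨h2, hrev⟩ := dual_facts hm h0 hfix
  by_contra hne
  have h1 : f.coeff 0 = -1 := by
    have h3 : (f.coeff 0 - 1) * (f.coeff 0 + 1) = 0 := by
      have : (f.coeff 0 - 1) * (f.coeff 0 + 1) = f.coeff 0 * f.coeff 0 - 1 := by ring
      rw [this, h2, sub_self]
    rcases mul_eq_zero.1 h3 with h4 | h4
    · exact absurd (sub_eq_zero.1 h4) hne
    · exact eq_neg_of_add_eq_zero_left h4
  have h2' : (2 : F) ≠ 0 := by
    intro h3
    apply hne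
    rw [h1]
    have h5 : (2 : F) = 1 + 1 := by norm_num
    rw [h5] at h3
    exact neg_eq_of_add_eq_zero_left h3
  have h3 : f.reverse.eval (-1) = f.eval (-1) := by
    letI : Invertible (-1 : F) := ⟨-1, by norm_num, by norm_num⟩
    have h4 := eval₂_reverse_mul_pow (RingHom.id F) (-1 : F) f
    have h5 : ⅟(-1 : F) = -1 := rfl
    rw [h5, hd.neg_one_pow, mul_one, eval₂_id, eval₂_id] at h4
    exact h4
  rw [hrev, h1, eval_mul, eval_C] at h3
  have h4 : 2 * f.eval (-1) = 0 := by linear_combination -h3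
  have h5 := (mul_eq_zero.1 h4).resolve_left h2'
  have h6 : (X - C (-1 : F)) ∣ f := dvd_iff_isRoot.2 h5
  have h7 := hs _ (irreducible_X_sub_C _) h6
  have h8 : (X ^ r - 1 : F[X]).IsRoot (-1) := by
    have := dvd_iff_isRoot.1 h7
    exact this
  have h9 : (-1 : F) ^ r - 1 = 0 := by
    have := h8
    simpa [IsRoot] using this
  have hodd : Odd r := Nat.odd_iff.2 hrodd
  rw [hodd.neg_one_pow] at h9
  apply h2'
  linear_combination -h9

theorem main_bij {p m r : ℕ} [Fact p.Prime] [CharP F p] [hrp : Fact r.Prime] (hrF : (r : F) ≠ 0) (hr0 : r ≠ 0) (hr2 : r ≠ 2) :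
    Nat.card {C : ConjClasses ↥(Matrix.symplecticGroup (Fin m) F) // ∃ g : ↥(Matrix.symplecticGroup (Fin m) F), ConjClasses.mk g = C ∧ orderOf g = r} =
    Nat.card {a : ↥(Idx F r) → ℕ // a ≠ 0 ∧ a ∘ dl (σ := RingHom.id F) (fun x => rfl) rfl hrF hr0 = a ∧
      orderOf ((Fintype.card F : ℕ) : ZMod r) * ∑ j, a j ≤ 2 * m} := by
  classical
  have hr : r.Prime := Fact.out
  have hrodd : r % 2 = 1 := (hr.eq_two_or_odd).resolve_left hr2
  symm
  have hpow : ∀ g : ↥(Matrix.symplecticGroup (Fin m) F), (g : Matrix (Fin m ⊕ Fin m) (Fin m ⊕ Fin m) F) ^ orderOf g = 1 := by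
    intro h
    let f : Matrix.symplecticGroup (Fin m) F →* Matrix (Fin m ⊕ Fin m) (Fin m ⊕ Fin m) F := Submonoid.subtype _
    have h1 : f (h ^ orderOf h) = 1 := by rw [pow_orderOf_eq_one, map_one]
    rw [map_pow] at h1
    exact h1
  have hcoprime : ∀ g : ↥(Matrix.symplecticGroup (Fin m) F), orderOf g = r → (orderOf g).Coprime p := by
    intro g hg
    have hpp : p.Prime := Fact.out
    rw [hg]
    apply Nat.Coprime.symm
    rw [hpp.coprime_iff_not_dvd]
    intro hd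
    apply hrF
    rw [← (Nat.prime_dvd_prime_iff_eq hpp hr).1 hd]
    exact CharP.cast_eq_zero F p
  have hex : ∀ a : {a : ↥(Idx F r) → ℕ // a ≠ 0 ∧ a ∘ dl (σ := RingHom.id F) (fun x => rfl) rfl hrF hr0 = a ∧
      orderOf ((Fintype.card F : ℕ) : ZMod r) * ∑ j, a j ≤ 2 * m},
      ∃ g : ↥(Matrix.symplecticGroup (Fin m) F), (g : Matrix (Fin m ⊕ Fin m) (Fin m ⊕ Fin m) F).charpoly = Pa F r (2 * m) a.1 ∧ orderOf g = r := by
    rintro ⟨a, ha, hinv, hs⟩
    have hm : (Pa F r (2 * m) a).Monic := Pa_monic hr0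
    have hd := Pa_natDegree (n := 2 * m) (a := a) hrF hs
    have hsupp : ∀ g : F[X], Irreducible g → g ∣ Pa F r (2 * m) a → g ∣ X ^ r - 1 := fun g hg hgd => Pa_dvd hr0 hg hgd
    have h0 : (Pa F r (2 * m) a).coeff 0 ≠ 0 := coeff_zero_of_supp hr0 hm hsupp
    have hfix : Dl (RingHom.id F) (Pa F r (2 * m) a) = Pa F r (2 * m) a := by
      rw [Dl_Pa (σ := RingHom.id F) (fun x => rfl) rfl hrF hr0, hinv]
    have h1 := coeff_zero_eq_one hrodd hm (by rw [hd]; exact even_two_mul m) hfix h0 hsupp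
    have hrev : (Pa F r (2 * m) a).reverse = Pa F r (2 * m) a := by
      have h2 := (dual_facts hm h0 hfix).2
      rwa [h1, C_1, one_mul] at h2
    obtain ⟨B, hB1, hB2⟩ := exists_sp (p := p) hm hd h1 hrev
    have hAr : (B : Matrix (Fin m ⊕ Fin m) (Fin m ⊕ Fin m) F) ^ r = 1 :=
      pow_eq_one_of_dvd_gen (cast_ne_of_coprime (F := F) p hB1) (hpow B) r (fun g _ hg hgd => Pa_dvd hr0 hg (hB2 ▸ hgd))
    refine ⟨B, hB2, orderOf_eq_prime ?_ ?_⟩
    · apply Subtype.ext
      show (B : Matrix (Fin m ⊕ Fin m) (Fin m ⊕ Fin m) F) ^ r = 1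
      exact hAr
    · intro h1
      rw [h1] at hB2
      have h2 : ((1 : ↥(Matrix.symplecticGroup (Fin m) F)) : Matrix (Fin m ⊕ Fin m) (Fin m ⊕ Fin m) F) = 1 := rfl
      rw [h2, Matrix.charpoly_one, Fintype.card_sum, Fintype.card_fin, ← two_mul] at hB2
      apply ha
      apply Pa_inj (n := 2 * m) hrF hr0
      rw [← hB2, Pa]
      simp
  choose elt hchar hord using hex
  refine Nat.card_eq_of_bijective (fun a => ⟨ConjClasses.mk (elt a), elt a, rfl, hord a⟩) ⟨?_, ?_⟩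
  · intro a a' h
    have h1 : ConjClasses.mk (elt a) = ConjClasses.mk (elt a') := congrArg Subtype.val h
    rw [ConjClasses.mk_eq_mk_iff_isConj, isConj_iff] at h1
    obtain ⟨c, hc⟩ := h1
    apply Subtype.ext
    apply Pa_inj (n := 2 * m) hrF hr0
    rw [← hchar a, ← hchar a', ← hc]
    show _ = ((c : Matrix (Fin m ⊕ Fin m) (Fin m ⊕ Fin m) F) * (elt a : Matrix (Fin m ⊕ Fin m) (Fin m ⊕ Fin m) F) *
      ((c⁻¹ : ↥(Matrix.symplecticGroup (Fin m) F)) : Matrix (Fin m ⊕ Fin m) (Fin m ⊕ Fin m) F)).charpoly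
    rw [Matrix.charpoly_mul_comm, ← mul_assoc]
    have h2 : ((c⁻¹ : ↥(Matrix.symplecticGroup (Fin m) F)) : Matrix (Fin m ⊕ Fin m) (Fin m ⊕ Fin m) F) * (c : Matrix (Fin m ⊕ Fin m) (Fin m ⊕ Fin m) F) = 1 := by
      have := congrArg Subtype.val (inv_mul_cancel c)
      exact this
    rw [h2, one_mul]
  · rintro ⟨C, g, rfl, hg⟩
    have hmonic := Matrix.charpoly_monic (g : Matrix (Fin m ⊕ Fin m) (Fin m ⊕ Fin m) F)
    have hdeg : (g : Matrix (Fin m ⊕ Fin m) (Fin m ⊕ Fin m) F).charpoly.natDegree = 2 * m := by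
      rw [Matrix.charpoly_natDegree_eq_dim, Fintype.card_sum, Fintype.card_fin, two_mul]
    have hgr : (g : Matrix (Fin m ⊕ Fin m) (Fin m ⊕ Fin m) F) ^ r = 1 := hg ▸ hpow g
    obtain ⟨a, ha, haeq⟩ := exists_Pa (n := 2 * m) hrF hmonic hdeg
      (fun f hf hfd => dvd_of_pow_eq_one_gen hrF hgr hf hfd)
    have ha0 : a ≠ 0 := by
      rintro rfl
      have hgone : (g : Matrix (Fin m ⊕ Fin m) (Fin m ⊕ Fin m) F) ^ 1 = 1 := by
        refine pow_eq_one_of_dvd_gen hrF hgr 1 (fun f _ hf hfd => ?_)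
        rw [haeq, Pa] at hfd
        simp only [Pi.zero_apply, pow_zero, Finset.prod_const_one, mul_one] at hfd
        rw [pow_one]
        exact hf.prime.dvd_of_dvd_pow hfd
      have h1 : g = 1 := by
        apply Subtype.ext
        rw [pow_one] at hgone
        exact hgone
      rw [h1, orderOf_one] at hg
      have := hr.one_lt
      omega
    have hD : Dl (RingHom.id F) (g : Matrix (Fin m ⊕ Fin m) (Fin m ⊕ Fin m) F).charpoly = (g : Matrix (Fin m ⊕ Fin m) (Fin m ⊕ Fin m) F).charpoly := by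
      rw [dl_id_apply, charpoly_sp_reverse, charpoly_sp_coeff, inv_one, C_1, one_mul]
    rw [haeq, Dl_Pa (σ := RingHom.id F) (fun x => rfl) rfl hrF hr0] at hD
    have hinv := Pa_inj (n := 2 * m) hrF hr0 hD
    refine ⟨⟨a, ha0, hinv, ha⟩, Subtype.ext ?_⟩
    obtain ⟨a', ha'⟩ : ∃ a' : {a : ↥(Idx F r) → ℕ // a ≠ 0 ∧ a ∘ dl (σ := RingHom.id F) (fun x => rfl) rfl hrF hr0 = a ∧
      orderOf ((Fintype.card F : ℕ) : ZMod r) * ∑ j, a j ≤ 2 * m}, a' = ⟨a, ha0, hinv, ha⟩ := ⟨_, rfl⟩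
    rw [← ha']
    show ConjClasses.mk (elt a') = ConjClasses.mk g
    rw [ConjClasses.mk_eq_mk_iff_isConj]
    refine isConj_sp (p := p) _ _ (hcoprime _ (hord a')) (hcoprime _ hg) ?_
    rw [hchar, ha', haeq]

end aux

/-- Number of conjugacy classes of elements of odd prime order r, r different from the characteristic, in the symplectic group Sp_2m(q): let i be the multiplicative order of q modulo r and t = (r − 1)/i. If i is odd the eigenvalue orbits pair off (Λ ≠ Λ⁻¹) and the classes correspond to the non-zero (t/2)-tuples (a_j) with 2i Σ a_j ≤ 2m, giving C(⌊m/i⌋ + t/2, t/2) − 1 classes; if i is even (Λ = Λ⁻¹) they correspond to the non-zero t-tuples with i Σ a_j ≤ 2m, giving C(⌊2m/i⌋ + t, t) − 1 classes. -/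
theorem result {F : Type*} [Field F] [Fintype F] {p q : ℕ} [Fact p.Prime] [CharP F p] (hF : Fintype.card F = q) (m r i t : ℕ) (hr : r.Prime) (hr2 : r ≠ 2) (hrp : r ≠ p) (hi : i = orderOf (q : ZMod r)) (ht : t * i = r - 1) : Nat.card {C : ConjClasses ↥(Matrix.symplecticGroup (Fin m) F) // ∃ g : Matrix.symplecticGroup (Fin m) F, ConjClasses.mk g = C ∧ orderOf g = r} = if Odd i then Nat.choose (m / i + t / 2) (t / 2) - 1 else Nat.choose (2 * m / i + t) t - 1 := by
  classical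
  subst hF
  subst hi
  haveI : Fact r.Prime := ⟨hr⟩
  have hpp : p.Prime := Fact.out
  have hr0 := hr.ne_zero
  have hrF : (r : F) ≠ 0 := by
    rw [Ne, CharP.cast_eq_zero_iff F p]
    intro hd
    exact hrp ((Nat.prime_dvd_prime_iff_eq hpp hr).1 hd).symm
  have hcard := card_Idx (F := F) (r := r) hrF
  obtain ⟨i, hi⟩ : ∃ i, i = orderOf ((Fintype.card F : ℕ) : ZMod r) := ⟨_, rfl⟩
  rw [← hi] at ht hcard ⊢
  have hr2' := hr.two_le
  have hipos : 0 < i := by
    rcases Nat.eq_zero_or_pos i with h | h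
    · rw [h, mul_zero] at hcard
      omega
    · exact h
  have htc : Fintype.card ↥(Idx F r) = t := Nat.eq_of_mul_eq_mul_right hipos (hcard.trans ht.symm)
  rw [main_bij hrF hr0 hr2, ← hi]
  have hfix : ∀ j : ↥(Idx F r), dl (σ := RingHom.id F) (fun x => rfl) rfl hrF hr0 j = j ↔ Even i := by
    intro j
    have h1 := dual_fixed_iff (σ := RingHom.id F) (fun x => rfl) hrF j.2 1 (RingHom.id _) (fun x => rfl) (by simp)
    rw [Nat.cast_one, exists_pow_eq_neg_one_iff hr2 (hi ▸ hipos.ne'), ← hi] at h1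
    rw [← h1]
    exact Subtype.ext_iff
  split_ifs with hc
  · have hne : ¬ Even i := Nat.not_even_iff_odd.2 hc
    have h1 : 2 * m / (2 * i) = m / i := Nat.mul_div_mul_left _ _ (by norm_num)
    rw [← h1, ← htc]
    exact card_inv_fpf _ (dl_dl (σ := RingHom.id F) (fun x => rfl) rfl hrF hr0) (fun j h => hne ((hfix j).1 h)) i (2 * m) hipos
  · rw [Nat.not_odd_iff_even] at hc
    have hid : dl (σ := RingHom.id F) (fun x => rfl) rfl hrF hr0 = id := funext fun j => (hfix j).2 hc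
    rw [hid, ← htc, ← card_inv_id i (2 * m) hipos]
    refine Nat.card_congr (Equiv.subtypeEquivRight fun a => ?_)
    simp

end Cfsg.Agent.S2645
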