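import Cfsg.Statements.S2646
import Mathlib
import Cfsg.Agent.Lib.GUCentC

set_option autoImplicit false
open Cfsg

namespace Cfsg.Agent.S2646

open Matrix Cfsg.Agent.Lib.GUCentC Cfsg.Agent.Lib.GUCentB Cfsg.Agent.Lib.JCent Cfsg.Agent.Lib.JCentCount Cfsg.Agent.Lib.JCentTri Cfsg.Agent.Lib.JType
open Cfsg.Agent.Lib.UnitaryConjGU

section transport

variable {K : Type*} [Field K] [Fintype K] {q n : ℕ}

/-- The centraliser of a unitary matrix as a set of matrices. -/
abbrev T1 (q : ℕ) (B : Matrix (Fin n) (Fin n) K) : Type _ :=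
  {g : Matrix (Fin n) (Fin n) K // g * B = B * g ∧ st q g * g = 1}

/-- The centraliser in the unitary group. -/
noncomputable def centEquiv (hK : Fintype.card K = q ^ 2) (B : ↥(GU n K q)) :
    Subgroup.centralizer ({B} : Set ↥(GU n K q)) ≃ T1 q ((B : GL (Fin n) K) : Matrix (Fin n) (Fin n) K) where
  toFun g := ⟨((g.1 : GL (Fin n) K) : Matrix (Fin n) (Fin n) K), by
    have h := Subgroup.mem_centralizer_singleton_iff.1 g.2
    have h2 : ((g.1 : GL (Fin n) K) * (B : GL (Fin n) K)) = (B : GL (Fin n) K) * (g.1 : GL (Fin n) K) :=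
      congrArg Subtype.val h
    exact congrArg Units.val h2, st_mul_self_of_mem hK g.1.2⟩
  invFun g := ⟨⟨⟨g.1, st q g.1, mul_eq_one_comm.mp g.2.2, g.2.2⟩, mem_of_st_mul_self hK g.2.2⟩, by
    refine Subgroup.mem_centralizer_singleton_iff.2 ?_
    apply Subtype.ext
    apply Units.ext
    exact g.2.1⟩
  left_inv g := by
    apply Subtype.ext
    apply Subtype.ext
    apply Units.ext
    rfl
  right_inv g := by
    apply Subtype.ext
    rfl

/-- Conjugate elements have centralisers of the same order. -/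
theorem card_cent_of_conj {G : Type*} [Group G] {a b : G} (h : IsConj a b) :
    Nat.card (Subgroup.centralizer ({a} : Set G)) = Nat.card (Subgroup.centralizer ({b} : Set G)) := by
  obtain ⟨c, rfl⟩ := isConj_iff.1 h
  refine Nat.card_congr
    { toFun := fun x => ⟨c * x.1 * c⁻¹, ?_⟩
      invFun := fun x => ⟨c⁻¹ * x.1 * c, ?_⟩
      left_inv := fun x => ?_
      right_inv := fun x => ?_ }
  · have hx := Subgroup.mem_centralizer_singleton_iff.1 x.2
    refine Subgroup.mem_centralizer_singleton_iff.2 ?_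
    calc c * x.1 * c⁻¹ * (c * a * c⁻¹) = c * (x.1 * a) * c⁻¹ := by group
      _ = c * (a * x.1) * c⁻¹ := by rw [hx]
      _ = c * a * c⁻¹ * (c * x.1 * c⁻¹) := by group
  · have hx := Subgroup.mem_centralizer_singleton_iff.1 x.2
    refine Subgroup.mem_centralizer_singleton_iff.2 ?_
    calc c⁻¹ * x.1 * c * a = c⁻¹ * (x.1 * (c * a * c⁻¹)) * c := by group
      _ = c⁻¹ * ((c * a * c⁻¹) * x.1) * c := by rw [hx]
      _ = a * (c⁻¹ * x.1 * c) := by group
  · apply Subtype.ext
    show c⁻¹ * (c * x.1 * c⁻¹) * c = x.1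
    group
  · apply Subtype.ext
    show c * (c⁻¹ * x.1 * c) * c⁻¹ = x.1
    group

/-- Conjugating the commutant by a norm. -/
def T1Equiv (hK : Fintype.card K = q ^ 2) {C D D' Jr : Matrix (Fin n) (Fin n) K} (hDD' : D * D' = 1) (hD'D : D' * D = 1)
    (hD2 : st q D * D = C) :
    {a : Matrix (Fin n) (Fin n) K // a * Jr = Jr * a ∧ st q a * C * a = C} ≃ T1 q (D * Jr * D') where
  toFun a := ⟨D * a.1 * D', by
    calc D * a.1 * D' * (D * Jr * D') = D * a.1 * (D' * D) * Jr * D' := by simp only [mul_assoc]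
      _ = D * (a.1 * Jr) * D' := by rw [hD'D, mul_one]; simp only [mul_assoc]
      _ = D * (Jr * a.1) * D' := by rw [a.2.1]
      _ = D * Jr * (D' * D) * a.1 * D' := by rw [hD'D, mul_one]; simp only [mul_assoc]
      _ = D * Jr * D' * (D * a.1 * D') := by simp only [mul_assoc], by
    rw [st_mul hK, st_mul hK]
    calc st q D' * (st q a.1 * st q D) * (D * a.1 * D') = st q D' * (st q a.1 * (st q D * D) * a.1) * D' := by
          simp only [mul_assoc]
      _ = st q D' * C * D' := by rw [hD2, a.2.2]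
      _ = st q D' * st q D * (D * D') := by rw [← hD2]; simp only [mul_assoc]
      _ = 1 := by rw [← st_mul hK, hDD', st_one hK, mul_one]⟩
  invFun g := ⟨D' * g.1 * D, by
    have hg := g.2.1
    calc D' * g.1 * D * Jr = D' * g.1 * (D * Jr * D') * D := by
          simp only [mul_assoc]
          rw [hD'D, mul_one]
      _ = D' * (g.1 * (D * Jr * D')) * D := by simp only [mul_assoc]
      _ = D' * ((D * Jr * D') * g.1) * D := by rw [hg]
      _ = (D' * D) * Jr * (D' * g.1 * D) := by simp only [mul_assoc]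
      _ = Jr * (D' * g.1 * D) := by rw [hD'D, one_mul], by
    have hg := g.2.2
    rw [st_mul hK, st_mul hK]
    calc st q D * (st q g.1 * st q D') * C * (D' * g.1 * D)
        = st q D * st q g.1 * (st q D' * st q D) * (D * D') * g.1 * D := by
          rw [← hD2]; simp only [mul_assoc]
      _ = st q D * (st q g.1 * g.1) * D := by
          have e1 : st q D' * st q D = 1 := by rw [← st_mul hK, hDD', st_one hK]
          rw [e1, hDD']; simp only [mul_assoc, mul_one, one_mul]
      _ = C := by rw [hg, mul_one, hD2]⟩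
  left_inv a := by
    apply Subtype.ext
    show D' * (D * a.1 * D') * D = a.1
    calc D' * (D * a.1 * D') * D = (D' * D) * a.1 * (D' * D) := by simp only [mul_assoc]
      _ = a.1 := by rw [hD'D, one_mul, mul_one]
  right_inv g := by
    apply Subtype.ext
    show D * (D' * g.1 * D) * D' = g.1
    calc D * (D' * g.1 * D) * D' = (D * D') * g.1 * (D * D') := by simp only [mul_assoc]
      _ = g.1 := by rw [hDD', one_mul, mul_one]

variable {t : ℕ} {d : Fin t → ℕ}

/-- The commutant after relabelling. -/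
noncomputable def T0Equiv (e : Kap d ≃ Fin n) (H : Matrix (Kap d) (Kap d) K) :
    T0 q d H ≃ {a : Matrix (Fin n) (Fin n) K // a * Matrix.reindex e e (jordanTypeMatrix d K) = Matrix.reindex e e (jordanTypeMatrix d K) * a ∧
      st q a * Matrix.reindex e e H * a = Matrix.reindex e e H} := by
  refine Equiv.subtypeEquiv (Matrix.reindex e e) fun G => ?_
  have rx_mul : ∀ X Y : Matrix (Kap d) (Kap d) K, Matrix.reindex e e (X * Y) = Matrix.reindex e e X * Matrix.reindex e e Y := fun X Y => by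
    simp only [Matrix.reindex_apply, Matrix.submatrix_mul_equiv]
  have rx_st : st q (Matrix.reindex e e G) = Matrix.reindex e e (cs q G) := rfl
  rw [← rx_mul, ← rx_mul, rx_st, ← rx_mul, ← rx_mul]
  simp only [EmbeddingLike.apply_eq_iff_eq]

end transport

theorem main {K : Type*} [Field K] [Fintype K] {q n t : ℕ} (hK : Fintype.card K = q ^ 2) (d : Fin t → ℕ) (hd : ∀ k, 1 ≤ d k)
    (e : ((k : Fin t) × Fin (d k)) ≃ Fin n) (u : ↥(Cfsg.GU n K q))
    (hu : IsConj (Matrix.reindex e e (Cfsg.jordanTypeMatrix d K)) ((u : GL (Fin n) K) : Matrix (Fin n) (Fin n) K)) :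
    Nat.card ↥(Subgroup.centralizer ({u} : Set ↥(Cfsg.GU n K q))) =
      (∏ c : Fin (Finset.univ.sup d + 1), Nat.card (GU (Fintype.card (Blk d c)) K q)) * q ^ (Fintype.card (Pairs d) + Fintype.card (Rest d)) := by
  classical
  obtain ⟨H, H', c, F⟩ := exists_FD hK hd
  have rx_mul : ∀ X Y : Matrix (Kap d) (Kap d) K, Matrix.reindex e e (X * Y) = Matrix.reindex e e X * Matrix.reindex e e Y := fun X Y => by
    simp only [Matrix.reindex_apply, Matrix.submatrix_mul_equiv]
  have rx_st : ∀ X : Matrix (Kap d) (Kap d) K, st q (Matrix.reindex e e X) = Matrix.reindex e e (cs q X) := fun X => rfl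
  have rx_one : Matrix.reindex e e (1 : Matrix (Kap d) (Kap d) K) = 1 := by
    simp only [Matrix.reindex_apply, Matrix.submatrix_one_equiv]
  obtain ⟨C, hC⟩ : ∃ C, C = Matrix.reindex e e H := ⟨_, rfl⟩
  obtain ⟨C', hC'⟩ : ∃ C', C' = Matrix.reindex e e H' := ⟨_, rfl⟩
  obtain ⟨Jr, hJr⟩ : ∃ Jr, Jr = Matrix.reindex e e (Cfsg.jordanTypeMatrix d K) := ⟨_, rfl⟩
  have hC1 : st q C = C := by rw [hC, rx_st, F.hst]
  have hC2 : C * C' = 1 := by rw [hC, hC', ← rx_mul, F.mul1, rx_one]
  have hinv : st q Jr * C * Jr = C := by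
    rw [hJr, hC, rx_st, ← rx_mul, ← rx_mul, F.inv]
  obtain ⟨D, D', -, -, hDD', hD1, hD2⟩ := exists_norm hK hC1 hC2
  have hD'D : D' * D = 1 := mul_eq_one_comm.mp hDD'
  obtain ⟨b, hb⟩ : ∃ b, b = D * Jr * D' := ⟨_, rfl⟩
  have hbU : st q b * b = 1 := by
    rw [hb, st_mul hK, st_mul hK]
    calc st q D' * (st q Jr * st q D) * (D * Jr * D') = st q D' * (st q Jr * (st q D * D) * Jr) * D' := by
          simp only [mul_assoc]
      _ = st q D' * C * D' := by rw [hD2, hinv]
      _ = st q D' * st q D * (D * D') := by rw [← hD2]; simp only [mul_assoc]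
      _ = 1 := by rw [← st_mul hK, hDD', st_one hK, mul_one]
  let B0 : ↥(GU n K q) := ⟨⟨b, st q b, mul_eq_one_comm.mp hbU, hbU⟩, mem_of_st_mul_self hK hbU⟩
  have hconj : IsConj (B0 : GL (Fin n) K) (u : GL (Fin n) K) := by
    obtain ⟨w, hw⟩ := hu
    rw [← hJr] at hw
    have hw' : (w : Matrix (Fin n) (Fin n) K) * Jr = ((u : GL (Fin n) K) : Matrix (Fin n) (Fin n) K) * w := hw
    let W : GL (Fin n) K := w
    let DU : GL (Fin n) K := ⟨D, D', hDD', hD'D⟩
    refine isConj_iff.2 ⟨W * DU⁻¹, ?_⟩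
    rw [mul_inv_eq_iff_eq_mul]
    apply Units.ext
    show (w : Matrix (Fin n) (Fin n) K) * D' * b = ((u : GL (Fin n) K) : Matrix (Fin n) (Fin n) K) * ((w : Matrix (Fin n) (Fin n) K) * D')
    rw [hb]
    calc (w : Matrix (Fin n) (Fin n) K) * D' * (D * Jr * D') = (w : Matrix (Fin n) (Fin n) K) * (D' * D) * Jr * D' := by
          simp only [mul_assoc]
      _ = ((w : Matrix (Fin n) (Fin n) K) * Jr) * D' := by rw [hD'D, mul_one]
      _ = ((u : GL (Fin n) K) : Matrix (Fin n) (Fin n) K) * ((w : Matrix (Fin n) (Fin n) K) * D') := by rw [hw', mul_assoc]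
  have hconj2 : IsConj B0 u := isConj_GU_of_GL hK B0 u hconj
  rw [← card_cent_of_conj hconj2, Nat.card_congr (centEquiv hK B0)]
  have hB0 : ((B0 : GL (Fin n) K) : Matrix (Fin n) (Fin n) K) = D * Jr * D' := hb
  rw [hB0, ← Nat.card_congr (T1Equiv hK hDD' hD'D hD2)]
  rw [hC, hJr, ← Nat.card_congr (T0Equiv e H), card_T0 hd F hK, card_UB hK]

/-- Order of the centraliser in the general unitary group GU_n(q) of a unipotent element of given Jordan type: if u ∈ GU_n(q) (isometries of Σ u_i v_i^q over the field with q² elements) is similar to the unipotent matrix with a_i Jordan blocks of size i (all sizes at least 1), then its centraliser in GU_n(q) has order q^γ · Π_i |GU_(a_i)(q)| with γ = 2 Σ_(i<j) i a_i a_j + Σ_i (i − 1) a_i², the same exponent as in GL_n(q), where |GU_a(q)| = q^(a(a−1)/2) Π_(k=1)^a (q^k − (−1)^k). -/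
theorem result {K : Type*} [Field K] [Fintype K] {q n t : ℕ} (hK : Fintype.card K = q ^ 2) (d : Fin t → ℕ) (hd : ∀ k, 1 ≤ d k) (e : ((k : Fin t) × Fin (d k)) ≃ Fin n) (u : ↥(Cfsg.GU n K q)) (hu : IsConj (Matrix.reindex e e (Cfsg.jordanTypeMatrix d K)) ((u : GL (Fin n) K) : Matrix (Fin n) (Fin n) K)) : (Nat.card ↥(Subgroup.centralizer ({u} : Set ↥(Cfsg.GU n K q))) : ℤ) = (q : ℤ) ^ (2 * (∑ i ∈ Finset.range (Finset.univ.sup d + 1), ∑ j ∈ Finset.range (Finset.univ.sup d + 1), if i < j then i * (Finset.univ.filter (fun k : Fin t => d k = i)).card * (Finset.univ.filter (fun k : Fin t => d k = j)).card else 0) + ∑ i ∈ Finset.range (Finset.univ.sup d + 1), (i - 1) * (Finset.univ.filter (fun k : Fin t => d k = i)).card ^ 2) * ∏ i ∈ Finset.range (Finset.univ.sup d + 1), ((q : ℤ) ^ ((Finset.univ.filter (fun k : Fin t => d k = i)).card * ((Finset.univ.filter (fun k : Fin t => d k = i)).card - 1) / 2) * ∏ j : Fin (Finset.univ.filter (fun k : Fin t => d k = i)).card, ((q : ℤ) ^ ((j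 : ℕ) + 1) - (-1) ^ ((j : ℕ) + 1))) := by
  classical
  rw [main hK d hd e u hu, ← exponent hd, Nat.cast_mul, Nat.cast_pow, Nat.cast_prod, mul_comm]
  congr 1
  rw [Finset.prod_range (fun i => ((q : ℤ) ^ ((Finset.univ.filter (fun k : Fin t => d k = i)).card * ((Finset.univ.filter (fun k : Fin t => d k = i)).card - 1) / 2) * ∏ j : Fin (Finset.univ.filter (fun k : Fin t => d k = i)).card, ((q : ℤ) ^ ((j : ℕ) + 1) - (-1) ^ ((j : ℕ) + 1))))]
  refine Finset.prod_congr rfl fun c _ => ?_
  have h1 : Fintype.card (Blk d c) = (Finset.univ.filter (fun k : Fin t => d k = c)).card := Fintype.card_subtype _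
  rw [h1]
  exact Cfsg.Agent.Lib.GUField.card_GU_int hK _

end Cfsg.Agent.S2646
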