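import Mathlib
-- Template for statement S2663 (row 2663; see /opt/grader/pristine/manifest.json for weights).
-- Copy to Cfsg/Agent/S2663.lean and replace the sorry. The statement below is byte-identical to the frozen
-- statement Cfsg.CfsgFrozen.S2663 (Cfsg/Statements/S2663.lean; the theorem Cfsg.lie17_f4_field_automorphism_of_prime_order_fixed_points);
-- the grader kernel-checks Cfsg.Agent.S2663.result against that frozen type. Keep the theorem IN THIS FILE
-- (a `result` declared elsewhere and merely imported here is not credited); helpers may live anywhere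
-- under Cfsg/Agent/.
import Cfsg.Statements.S2663
import Cfsg.Agent.Lib.ChevFix
import Cfsg.Agent.Lib.Chev.RelF4
import Cfsg.Agent.Lib.Chev.RootF4

set_option autoImplicit false
open scoped MatrixGroups
open Cfsg

namespace Cfsg.Agent.S2663

/-- The transposed inverse of the Cartan matrix. -/
def invCartan : Fin Cfsg.Lie.chevF4.rank → Fin Cfsg.Lie.chevF4.rank → ℤ := fun k j =>
  (![![2, 3, 4, 2], ![3, 6, 8, 4], ![2, 4, 6, 3], ![1, 2, 3, 2]] : Fin 4 → Fin 4 → ℤ) j k

theorem invCartan_spec : ∀ k i : Fin Cfsg.Lie.chevF4.rank,
    ∑ j : Fin Cfsg.Lie.chevF4.rank, invCartan k j * Cfsg.Lie.chevF4.cartan i (Cfsg.Lie.chevF4.simple j) =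
      if i = k then 1 else 0 := by
  decide +kernel


/-- Centralizers of field automorphisms of prime order, type F₄. Let `F` be a finite field and `G` the Chevalley group of type F₄ over `F` (for this type the group generated by the root elements is the whole group of rational points, with trivial centre). Let `φ` be a field automorphism of `G` (it sends each root element `x_s(t)` to `x_s(σ t)` for a fixed automorphism `σ` of `F`) whose order is a prime `r`. Then `F` has `q₀ ^ r` elements for some prime power `q₀`, and the subgroup of elements fixed by `φ` is isomorphic to the Chevalley group of type F₄ over a field with `q₀` elements. -/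
theorem result {F : Type*} [Field F] [Fintype F]
    (φ : MulAut ↥(Cfsg.Lie.chevF4.group F)) (hφ : Cfsg.Lie.chevF4.IsFieldAut φ) (r : ℕ) (hr : r.Prime) (ho : orderOf φ = r) :
    ∃ (F₀ : Type) (_ : Field F₀) (_ : Fintype F₀), Fintype.card F = Fintype.card F₀ ^ r ∧
      Nonempty (↥((MulEquiv.toMonoidHom φ).eqLocus (MonoidHom.id ↥(Cfsg.Lie.chevF4.group F))) ≃* ↥(Cfsg.Lie.chevF4.group F₀)) := by
  classical
  have hF : Cfsg.Agent.Lib.Chev.Full _ _ _ Cfsg.Lie.chevF4 :=
    ⟨Cfsg.Agent.Lib.Chev.RelF4.checks, Cfsg.Agent.Lib.Chev.RootF4.checks⟩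
  exact Cfsg.Agent.Lib.ChevFix.fixed_main hF (by decide)
    (fun c hc => Cfsg.Agent.Lib.ChevFix.eq_one_of_cartanMap invCartan invCartan_spec hc) φ hφ ho

end Cfsg.Agent.S2663
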