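import Mathlib
import Cfsg.Statements.S2665

set_option autoImplicit false
open Cfsg

open scoped MatrixGroups

namespace Cfsg.Agent.S2665

open Polynomial Module Finset

set_option linter.unusedSectionVars false

section AddPoly

variable {K : Type*} [Field K]

/-- The additive polynomials of Lang's argument. -/
noncomputable def addPoly (q : ℕ) (a : ℕ → K) : ℕ → K[X]
  | 0 => C (a 0) * X ^ q
  | (j + 1) => (addPoly q a j) ^ q + C (a (j + 1)) * X ^ q

theorem natDegree_addPoly {q : ℕ} (hq : 2 ≤ q) {a : ℕ → K} (ha : a 0 ≠ 0) (j : ℕ) :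
    (addPoly q a j).natDegree = q ^ (j + 1) := by
  induction j with
  | zero =>
    simp only [addPoly, zero_add, pow_one]
    exact natDegree_C_mul_X_pow q (a 0) ha
  | succ j ih =>
    simp only [addPoly]
    have h1 : ((addPoly q a j) ^ q).natDegree = q ^ (j + 1 + 1) := by
      rw [natDegree_pow, ih, pow_succ' q (j + 1)]
    have h2 : (C (a (j + 1)) * X ^ q : K[X]).natDegree ≤ q := natDegree_C_mul_X_pow_le _ _
    have h3 : q < q ^ (j + 1 + 1) := by
      calc q = q ^ 1 := (pow_one q).symm
        _ < q ^ (j + 1 + 1) := Nat.pow_lt_pow_right (by omega) (by omega)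
    rw [natDegree_add_eq_left_of_natDegree_lt (by omega), h1]

theorem X_sq_dvd_addPoly {q : ℕ} (hq : 2 ≤ q) (a : ℕ → K) (j : ℕ) :
    (X : K[X]) ^ 2 ∣ addPoly q a j := by
  have hX : (X : K[X]) ^ 2 ∣ X ^ q := pow_dvd_pow _ hq
  induction j with
  | zero =>
    simp only [addPoly]
    exact hX.mul_left _
  | succ j ih =>
    simp only [addPoly]
    exact dvd_add (ih.trans (dvd_pow_self _ (by omega))) (hX.mul_left _)

theorem exists_root_addPoly [IsAlgClosed K] {q : ℕ} (hq : 2 ≤ q) {a : ℕ → K} (ha : a 0 ≠ 0) (j : ℕ) :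
    ∃ t : K, t ≠ 0 ∧ (addPoly q a j).eval t = t := by
  obtain ⟨S, hS⟩ := X_sq_dvd_addPoly hq a j
  have hS0 : S ≠ 0 := by
    rintro rfl
    have h1 := natDegree_addPoly hq ha j
    rw [hS, mul_zero, natDegree_zero] at h1
    have : 0 < q ^ (j + 1) := by positivity
    omega
  have hdeg : 0 < (X * S).degree :=
    natDegree_pos_iff_degree_pos.1 (by rw [natDegree_X_mul hS0]; omega)
  obtain ⟨t, ht⟩ := IsAlgClosed.exists_root (X * S - C (1 : K)) (by
    rw [degree_sub_C hdeg]
    exact hdeg.ne')
  have ht' : t * S.eval t = 1 := by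
    have := ht
    simp only [IsRoot, eval_sub, eval_mul, eval_X, eval_C] at this
    exact sub_eq_zero.1 this
  refine ⟨t, ?_, ?_⟩
  · rintro rfl
    rw [zero_mul] at ht'
    exact zero_ne_one ht'
  · rw [hS, eval_mul, eval_pow, eval_X, sq, mul_assoc, ht', mul_one]

end AddPoly

section Linear

variable {K : Type*} [Field K] [IsAlgClosed K] {V : Type*} [AddCommGroup V] [Module K V]
  [FiniteDimensional K V] {σ : K →+* K} {q : ℕ}

theorem exists_stage (b : ℕ → V) (h0 : b 0 ≠ 0) :
    ∃ e : ℕ, LinearIndependent K (fun i : Fin (e + 1) => b i) ∧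
      b (e + 1) ∈ Submodule.span K (Set.range (fun i : Fin (e + 1) => b i)) := by
  by_contra hno
  push Not at hno
  have hall : ∀ e : ℕ, LinearIndependent K (fun i : Fin (e + 1) => b i) := by
    intro e
    induction e with
    | zero =>
      exact LinearIndependent.of_subsingleton (v := fun i : Fin 1 => b i) 0 (by simpa using h0)
    | succ e ih =>
      have h1 := hno e ih
      have h2 : LinearIndependent K (Fin.snoc (fun i : Fin (e + 1) => b i) (b (e + 1)) : Fin (e + 2) → V) :=
        linearIndependent_finSnoc.2 ⟨ih, h1⟩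
      convert h2 using 1
      funext i
      refine Fin.lastCases ?_ (fun j => ?_) i
      · simp
      · simp
  have h5 : Fintype.card (Fin (finrank K V + 1)) ≤ finrank K V := (hall _).fintype_card_le_finrank
  simp at h5

theorem coeff_zero_of_li {b : ℕ → V} {e : ℕ}
    (hli : LinearIndependent K (fun i : Fin (e + 1) => b i)) (l : ℕ → K)
    (h : ∑ i ∈ range (e + 1), l i • b i = 0) : ∀ i, i < e + 1 → l i = 0 := by
  have := Fintype.linearIndependent_iff.1 hli (fun i => l i) (by
    rw [Fin.sum_univ_eq_sum_range (fun i => l i • b i)]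
    exact h)
  exact fun i hi => this ⟨i, hi⟩

/-- A bijective semilinear map on a non-zero space has a non-zero fixed vector. -/
theorem exists_fixed [Nontrivial V] (hσ : ∀ x, σ x = x ^ q) (hq : 2 ≤ q) (Φ : V →ₛₗ[σ] V)
    (hinj : Function.Injective Φ) : ∃ w : V, w ≠ 0 ∧ Φ w = w := by
  classical
  obtain ⟨v, hv⟩ := exists_ne (0 : V)
  let b : ℕ → V := fun i => (⇑Φ)^[i] v
  have hbs : ∀ i, Φ (b i) = b (i + 1) := fun i => (Function.iterate_succ_apply' (⇑Φ) i v).symm
  obtain ⟨e, hli, hspan⟩ := exists_stage (K := K) b hv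
  obtain ⟨a₀, ha₀⟩ := (Submodule.mem_span_range_iff_exists_fun K).1 hspan
  let a : ℕ → K := fun i => if h : i < e + 1 then a₀ ⟨i, h⟩ else 0
  have hrel : b (e + 1) = ∑ i ∈ range (e + 1), a i • b i := by
    rw [← ha₀, ← Fin.sum_univ_eq_sum_range (fun i => a i • b i)]
    refine Finset.sum_congr rfl fun i _ => ?_
    have hai : a (i : ℕ) = a₀ i := dif_pos i.2
    rw [hai]
  -- the constant term does not vanish
  have ha0 : a 0 ≠ 0 := by
    intro h0
    have hroot : ∀ i, ∃ r : K, r ^ q = a (i + 1) := fun i =>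
      IsAlgClosed.exists_pow_nat_eq _ (by omega)
    choose r hr using hroot
    have h1 : Φ (∑ i ∈ range e, r i • b i) = Φ (b e) := by
      rw [map_sum, hbs, hrel, sum_range_succ', h0, zero_smul, add_zero]
      refine Finset.sum_congr rfl fun i _ => ?_
      rw [LinearMap.map_smulₛₗ, hσ, hbs, hr]
    have h2 := hinj h1
    have h3 := coeff_zero_of_li hli (fun i => if i < e then r i else -1) (by
      rw [sum_range_succ]
      simp only [lt_irrefl, if_false, neg_smul, one_smul]
      rw [← h2, add_neg_eq_zero]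
      refine Finset.sum_congr rfl fun i hi => ?_
      rw [if_pos (mem_range.1 hi)]) e (by omega)
    simp at h3
  obtain ⟨t, ht0, ht⟩ := exists_root_addPoly hq ha0 e
  let c : ℕ → K := fun j => (addPoly q a j).eval t
  have hc0 : c 0 = a 0 * t ^ q := by
    simp [c, addPoly]
  have hcs : ∀ j, c (j + 1) = c j ^ q + a (j + 1) * t ^ q := by
    intro j
    simp [c, addPoly]
  have hce : c e = t := ht
  refine ⟨∑ i ∈ range (e + 1), c i • b i, ?_, ?_⟩
  · intro h0
    have := coeff_zero_of_li hli c h0 e (by omega)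
    rw [hce] at this
    exact ht0 this
  · have h1 : Φ (∑ i ∈ range (e + 1), c i • b i) = ∑ i ∈ range (e + 1), c i ^ q • b (i + 1) := by
      rw [map_sum]
      refine Finset.sum_congr rfl fun i _ => ?_
      rw [LinearMap.map_smulₛₗ, hσ, hbs]
    rw [h1, sum_range_succ (fun i => c i ^ q • b (i + 1)), hrel, hce, Finset.smul_sum]
    have h2 : ∑ i ∈ range (e + 1), c i • b i =
        ∑ i ∈ range e, c i ^ q • b (i + 1) + ∑ i ∈ range (e + 1), t ^ q • a i • b i := by
      rw [sum_range_succ' (fun i => c i • b i), sum_range_succ' (fun i => t ^ q • a i • b i)]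
      simp only [hcs, hc0, add_smul, Finset.sum_add_distrib, mul_smul]
      rw [smul_comm (a 0) (t ^ q)]
      have h3 : ∀ i, a (i + 1) • t ^ q • b (i + 1) = t ^ q • a (i + 1) • b (i + 1) := fun i => smul_comm _ _ _
      simp only [h3]
      abel
    rw [h2]

/-- The fixed vectors of a bijective semilinear map span. -/
theorem span_fixed (hσ : ∀ x, σ x = x ^ q) (hq : 2 ≤ q) (Φ : V →ₛₗ[σ] V)
    (hinj : Function.Injective Φ) : Submodule.span K {v | Φ v = v} = ⊤ := by
  classical
  by_contra hW
  set W := Submodule.span K {v | Φ v = v} with hWdef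
  have hstab : W ≤ W.comap Φ := by
    intro y hy
    induction hy using Submodule.span_induction with
    | mem x hx =>
      show Φ x ∈ W
      rw [show Φ x = x from hx]
      exact Submodule.subset_span hx
    | zero => simp
    | add x y _ _ hx hy =>
      show Φ (x + y) ∈ W
      rw [map_add]
      exact W.add_mem hx hy
    | smul a x _ hx =>
      show Φ (a • x) ∈ W
      rw [LinearMap.map_smulₛₗ]
      exact W.smul_mem _ hx
  have hpre : ∀ y ∈ W, ∀ a : K, ∃ z ∈ W, Φ z = a • y := by
    intro y hy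
    induction hy using Submodule.span_induction with
    | mem x hx =>
      intro a
      obtain ⟨r, hr⟩ := IsAlgClosed.exists_pow_nat_eq a (n := q) (by omega)
      refine ⟨r • x, W.smul_mem _ (Submodule.subset_span hx), ?_⟩
      rw [LinearMap.map_smulₛₗ, hσ, hr, show Φ x = x from hx]
    | zero =>
      exact fun a => ⟨0, W.zero_mem, by simp⟩
    | add x y _ _ hx hy =>
      intro a
      obtain ⟨z₁, hz₁, h₁⟩ := hx a
      obtain ⟨z₂, hz₂, h₂⟩ := hy a
      exact ⟨z₁ + z₂, W.add_mem hz₁ hz₂, by rw [map_add, h₁, h₂, smul_add]⟩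
    | smul b x _ hx =>
      intro a
      obtain ⟨z, hz, h⟩ := hx (a * b)
      exact ⟨z, hz, by rw [h, mul_smul]⟩
  have hAS : ∀ y ∈ W, ∀ a : K, ∃ z ∈ W, Φ z - z = a • y := by
    intro y hy
    induction hy using Submodule.span_induction with
    | mem x hx =>
      intro a
      -- Artin-Schreier
      have hdeg : (X ^ q - X - C a : K[X]).degree ≠ 0 := by
        have h1 : (X ^ q - X : K[X]).degree = q := by
          rw [degree_sub_eq_left_of_degree_lt]
          · simp
          · simp only [degree_X, degree_X_pow]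
            exact_mod_cast (show 1 < q by omega)
        rw [degree_sub_C (by rw [h1]; exact_mod_cast (show 0 < q by omega)), h1]
        exact_mod_cast (show q ≠ 0 by omega)
      obtain ⟨r, hr⟩ := IsAlgClosed.exists_root _ hdeg
      have hr' : r ^ q - r = a := by
        have := hr
        simp only [IsRoot, eval_sub, eval_pow, eval_X, eval_C] at this
        exact sub_eq_zero.1 this
      refine ⟨r • x, W.smul_mem _ (Submodule.subset_span hx), ?_⟩
      rw [LinearMap.map_smulₛₗ, hσ, show Φ x = x from hx, ← sub_smul, hr']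
    | zero =>
      exact fun a => ⟨0, W.zero_mem, by simp⟩
    | add x y _ _ hx hy =>
      intro a
      obtain ⟨z₁, hz₁, h₁⟩ := hx a
      obtain ⟨z₂, hz₂, h₂⟩ := hy a
      refine ⟨z₁ + z₂, W.add_mem hz₁ hz₂, ?_⟩
      rw [map_add, smul_add, ← h₁, ← h₂]
      abel
    | smul b x _ hx =>
      intro a
      obtain ⟨z, hz, h⟩ := hx (a * b)
      exact ⟨z, hz, by rw [h, mul_smul]⟩
  haveI : Nontrivial (V ⧸ W) := Submodule.Quotient.nontrivial_iff.2 hW
  let Ψ : (V ⧸ W) →ₛₗ[σ] (V ⧸ W) := Submodule.mapQ W W Φ hstab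
  have hΨinj : Function.Injective Ψ := by
    intro x y
    obtain ⟨x, rfl⟩ := Submodule.Quotient.mk_surjective W x
    obtain ⟨y, rfl⟩ := Submodule.Quotient.mk_surjective W y
    intro hxy
    have h1 : Submodule.Quotient.mk (Φ x) = (Submodule.Quotient.mk (Φ y) : V ⧸ W) := hxy
    rw [Submodule.Quotient.eq, ← map_sub] at h1
    obtain ⟨z, hz, hzΦ⟩ := hpre _ h1 1
    rw [one_smul] at hzΦ
    have := hinj hzΦ
    rw [Submodule.Quotient.eq, ← this]
    exact hz
  obtain ⟨ū, hū0, hū⟩ := exists_fixed hσ hq Ψ hΨinj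
  obtain ⟨u, rfl⟩ := Submodule.Quotient.mk_surjective W ū
  have h1 : Submodule.Quotient.mk (Φ u) = (Submodule.Quotient.mk u : V ⧸ W) := hū
  rw [Submodule.Quotient.eq] at h1
  obtain ⟨z, hz, hzΦ⟩ := hAS _ h1 1
  rw [one_smul] at hzΦ
  apply hū0
  rw [Submodule.Quotient.mk_eq_zero]
  have hfix : Φ (u - z) = u - z := by
    rw [map_sub]
    exact sub_eq_sub_iff_sub_eq_sub.1 hzΦ.symm
  have h2 : u - z ∈ W := Submodule.subset_span hfix
  have h3 := W.add_mem h2 hz
  simpa using h3

end Linear

section Main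

variable {K : Type*} [Field K] [IsAlgClosed K]

/-- The Lang–Steinberg Theorem for the general linear group. Let `K` be an algebraically closed field of prime characteristic `p`, let `q = p^f` with `f ≥ 1`, and let `σ` be the endomorphism of GL_n(K) raising every matrix entry to the `q`-th power. Then every element `g` of GL_n(K) can be written `g = x · σ(x)⁻¹` for some `x` in GL_n(K): the map `x ↦ x σ(x)⁻¹` is surjective. -/
theorem result {K : Type*} [Field K] [IsAlgClosed K] (p : ℕ) [Fact p.Prime] [CharP K p] (f : ℕ) (hf : 1 ≤ f) (n : ℕ) (g : GL (Fin n) K) : ∃ x : GL (Fin n) K, g = x * (Matrix.GeneralLinearGroup.map (iterateFrobenius K p f) x)⁻¹ := by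
  classical
  have hp : 2 ≤ p := (Fact.out : p.Prime).two_le
  have hq : 2 ≤ p ^ f := by
    calc 2 ≤ p := hp
      _ = p ^ 1 := (pow_one p).symm
      _ ≤ p ^ f := Nat.pow_le_pow_right (by omega) hf
  set σ : K →+* K := iterateFrobenius K p f with hσdef
  have hσ : ∀ x, σ x = x ^ (p ^ f) := fun x => iterateFrobenius_def p f x
  let Φ : (Fin n → K) →ₛₗ[σ] (Fin n → K) :=
    { toFun := fun v => (g : Matrix (Fin n) (Fin n) K).mulVec (fun i => σ (v i))
      map_add' := fun x y => by
        rw [← Matrix.mulVec_add]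
        congr 1
        funext i
        simp
      map_smul' := fun a x => by
        show (g : Matrix (Fin n) (Fin n) K).mulVec _ = σ a • (g : Matrix (Fin n) (Fin n) K).mulVec _
        rw [← Matrix.mulVec_smul]
        congr 1
        funext i
        simp }
  have hΦ : ∀ v, Φ v = (g : Matrix (Fin n) (Fin n) K).mulVec (fun i => σ (v i)) := fun v => rfl
  have hΦinj : Function.Injective Φ := by
    intro x y hxy
    have h1 : (g : Matrix (Fin n) (Fin n) K).mulVec (fun i => σ (x i)) =
        (g : Matrix (Fin n) (Fin n) K).mulVec (fun i => σ (y i)) := hxy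
    have h2 := congrArg (((g⁻¹ : GL (Fin n) K) : Matrix (Fin n) (Fin n) K).mulVec) h1
    simp only [Matrix.mulVec_mulVec, ← Units.val_mul, inv_mul_cancel, Units.val_one, Matrix.one_mulVec] at h2
    funext i
    exact σ.injective (congrFun h2 i)
  have hspan := span_fixed hσ hq Φ hΦinj
  obtain ⟨f₀, hfix, _, hli⟩ := Submodule.exists_fun_fin_finrank_span_eq K {v | Φ v = v}
  have hfin : finrank K ↥(Submodule.span K {v | Φ v = v}) = n := by
    rw [hspan, finrank_top, Module.finrank_fin_fun]
  let e : Fin n ≃ Fin (finrank K ↥(Submodule.span K {v | Φ v = v})) := finCongr hfin.symm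
  let vv : Fin n → (Fin n → K) := fun j => f₀ (e j)
  have hvvli : LinearIndependent K vv := hli.comp _ e.injective
  have hvvfix : ∀ j, Φ (vv j) = vv j := fun j => hfix (e j)
  let X : Matrix (Fin n) (Fin n) K := Matrix.of fun i j => vv j i
  have hXcol : X.col = vv := by
    funext j i
    rfl
  have hXu : IsUnit X := Matrix.linearIndependent_cols_iff_isUnit.1 (by rw [hXcol]; exact hvvli)
  refine ⟨hXu.unit, ?_⟩
  apply eq_mul_inv_of_mul_eq
  apply Units.ext
  ext i j
  rw [Units.val_mul, Matrix.mul_apply]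
  simp only [Matrix.GeneralLinearGroup.map_apply]
  have h1 := congrFun (hvvfix j) i
  rw [hΦ] at h1
  exact h1

end Main

end Cfsg.Agent.S2665
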