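import Mathlib
import Cfsg.Statements.S2666
import Cfsg.Agent.Lib.Shintani

set_option autoImplicit false
open Cfsg

namespace Cfsg.Agent.S2666

/-- Shintani descent, in an abstract form. Let `σ` be an automorphism of a group `X` such that the maps `a ↦ a·σ(a)⁻¹` and `a ↦ a·σᵉ(a)⁻¹` are surjective on `X` (the Lang–Steinberg property, which holds when `X` is a connected algebraic group and `σ` a Steinberg endomorphism), where `e ≥ 1`. Write `G` for the subgroup of fixed points of `σᵉ` and `H` for the subgroup of fixed points of `σ`. The `G`-conjugacy classes in the coset `G σ` of the semidirect product of `G` by `σ` correspond to the orbits of `G` on itself under twisted conjugation `g ↦ k g σ(k)⁻¹`, and the `e`-th power of `g σ` has `G`-part the norm `g σ(g) ⋯ σ^(e-1)(g)`. For `g` in `G` and any `a` with `g = a σ(a)⁻¹`, put `x = σᵉ(a)⁻¹ a`. Then: (1) `x` lies in `H`, and `a⁻¹ · (g σ(g) ⋯ σ^(e-1)(g)) · a = x`; (2) for `g, g'` in `G` with such elements `a, b` and `x, x'`,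 the elements `g, g'` are twisted-conjugate under `G` if and only if `x, x'` are conjugate in `H`; (3) every element of `H` arises as such an `x`. So `g ↦ x` induces a well-defined bijection from the twisted `G`-classes of `G` onto the conjugacy classes of `H` (the Shintani map). -/
theorem result {X : Type*} [Group X] (σ : MulAut X) (e : ℕ) (he : 1 ≤ e)
    (hL : ∀ g : X, ∃ a : X, g = a * (σ a)⁻¹) (hLe : ∀ g : X, ∃ a : X, g = a * ((σ ^ e) a)⁻¹) :
    (∀ g ∈ (MulEquiv.toMonoidHom (σ ^ e)).eqLocus (MonoidHom.id X), ∀ a : X, g = a * (σ a)⁻¹ →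
        ((σ ^ e) a)⁻¹ * a ∈ (MulEquiv.toMonoidHom σ).eqLocus (MonoidHom.id X) ∧
          a⁻¹ * ((List.range e).map (fun i => (σ ^ i) g)).prod * a = ((σ ^ e) a)⁻¹ * a) ∧
    (∀ g ∈ (MulEquiv.toMonoidHom (σ ^ e)).eqLocus (MonoidHom.id X), ∀ g' ∈ (MulEquiv.toMonoidHom (σ ^ e)).eqLocus (MonoidHom.id X), ∀ a b : X,
        g = a * (σ a)⁻¹ → g' = b * (σ b)⁻¹ →
          ((∃ k ∈ (MulEquiv.toMonoidHom (σ ^ e)).eqLocus (MonoidHom.id X), g' = k * g * (σ k)⁻¹) ↔
            (∃ h ∈ (MulEquiv.toMonoidHom σ).eqLocus (MonoidHom.id X), ((σ ^ e) b)⁻¹ * b = h * (((σ ^ e) a)⁻¹ * a) * h⁻¹))) ∧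
    (∀ x ∈ (MulEquiv.toMonoidHom σ).eqLocus (MonoidHom.id X), ∃ g ∈ (MulEquiv.toMonoidHom (σ ^ e)).eqLocus (MonoidHom.id X), ∃ a : X,
        g = a * (σ a)⁻¹ ∧ ((σ ^ e) a)⁻¹ * a = x) := by
  have fix := @Lib.Shintani.mem_fix X _
  refine ⟨?_, ?_, ?_⟩
  · intro g hg a ha
    rw [fix] at hg
    subst ha
    refine ⟨?_, ?_⟩
    · rw [fix]
      exact Lib.Shintani.shintani_fixed σ e a hg
    · rw [Lib.Shintani.norm_eq]
      group
  · intro g hg g' hg' a b ha hb
    rw [fix] at hg hg'
    subst ha hb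
    constructor
    · rintro ⟨k, hk, hk'⟩
      rw [fix] at hk
      -- c = b⁻¹ k a is σ-fixed
      have hc : σ (b⁻¹ * k * a) = b⁻¹ * k * a := by
        have h1 : σ b = σ b := rfl
        have h2 : (σ b)⁻¹ * σ k * σ a = b⁻¹ * k * a := by
          have : b * (σ b)⁻¹ * σ k * σ a = k * a := by
            rw [hk']; group
          calc (σ b)⁻¹ * σ k * σ a = b⁻¹ * (b * (σ b)⁻¹ * σ k * σ a) := by group
            _ = b⁻¹ * k * a := by rw [this]; group
        simpa [map_mul, map_inv] using h2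
      refine ⟨b⁻¹ * k * a, ?_, ?_⟩
      · rw [fix]; exact hc
      · have hcp : ∀ i : ℕ, (σ ^ i) (b⁻¹ * k * a) = b⁻¹ * k * a := by
          intro i
          induction i with
          | zero => simp
          | succ i ih => rw [Lib.Shintani.pow_succ_left, ih, hc]
        have h3 := hcp e
        rw [map_mul, map_mul, map_inv, hk] at h3
        have h4 : (σ ^ e) b = k * (σ ^ e) a * a⁻¹ * k⁻¹ * b := by
          have : ((σ ^ e) b)⁻¹ * k * (σ ^ e) a = b⁻¹ * k * a := h3
          calc (σ ^ e) b = ((b⁻¹ * k * a) * ((σ ^ e) a)⁻¹ * k⁻¹)⁻¹ := by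
                rw [← this]; group
            _ = k * (σ ^ e) a * a⁻¹ * k⁻¹ * b := by group
        rw [h4]; group
    · rintro ⟨h, hh, hh'⟩
      rw [fix] at hh
      refine ⟨b * h * a⁻¹, ?_, ?_⟩
      · rw [fix]
        have hhp : ∀ i : ℕ, (σ ^ i) h = h := by
          intro i
          induction i with
          | zero => simp
          | succ i ih => rw [Lib.Shintani.pow_succ_left, ih, hh]
        rw [map_mul, map_mul, map_inv, hhp]
        have h5 : (σ ^ e) b = b * (h * (((σ ^ e) a)⁻¹ * a) * h⁻¹)⁻¹ := by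
          rw [← hh']; group
        rw [h5]; group
      · simp only [map_mul, map_inv, hh]
        group
  · intro x hx
    rw [fix] at hx
    obtain ⟨b, hx2⟩ : ∃ b : X, ((σ ^ e) b)⁻¹ * b = x := by
      obtain ⟨a', ha'⟩ := hLe x⁻¹
      refine ⟨a'⁻¹, ?_⟩
      rw [map_inv, inv_inv]
      have : x = (σ ^ e) a' * a'⁻¹ := by
        have := congrArg (fun z => z⁻¹) ha'
        simp only [inv_inv] at this
        rw [this]; group
      exact this.symm
    refine ⟨b * (σ b)⁻¹, ?_, b, rfl, hx2⟩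
    rw [fix, map_mul, map_inv, ← Lib.Shintani.pow_comm]
    have h6 : (σ ^ e) b = b * x⁻¹ := by
      have := Lib.Shintani.pow_apply_eq σ e b
      rw [hx2] at this
      exact this
    rw [h6, map_mul, map_inv, hx]
    group

end Cfsg.Agent.S2666
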