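import Mathlib
import Cfsg.Statements.S2667
import Cfsg.Agent.Lib.Shintani

set_option autoImplicit false
open Cfsg

namespace Cfsg.Agent.S2667

/-- Shintani descent, in an abstract form. Let `σ` be an automorphism of a group `X` and `e ≥ 1` (no surjectivity of the Lang maps is needed for this part; in the classical setting `X` is a connected algebraic group and `σ` a Steinberg endomorphism). Write `G` for the subgroup of fixed points of `σᵉ` and `H` for the subgroup of fixed points of `σ`. The `G`-conjugacy classes in the coset `G σ` of the semidirect product of `G` by `σ` correspond to the orbits of `G` on itself under twisted conjugation `g ↦ k g σ(k)⁻¹`, and the `e`-th power of `g σ` has `G`-part the norm `g σ(g) ⋯ σ^(e-1)(g)`. For `g` in `G` and any `a` with `g = a σ(a)⁻¹`, put `x = σᵉ(a)⁻¹ a`. Then conjugation by `a⁻¹` carries the twisted centralizer `{k ∈ G : k g σ(k)⁻¹ = g}` (the centralizer of `g σ` in `G`) exactly onto the centralizer of `x` in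 `H`: an element `k` of `X` lies in `G` and satisfies `k g σ(k)⁻¹ = g` if and only if `a⁻¹ k a` lies in `H` and commutes with `x`. In particular the two centralizers are conjugate in `X` and have the same order. -/
theorem result {X : Type*} [Group X] (σ : MulAut X) (e : ℕ) (he : 1 ≤ e)
    (g : X) (hg : g ∈ (MulEquiv.toMonoidHom (σ ^ e)).eqLocus (MonoidHom.id X)) (a : X) (ha : g = a * (σ a)⁻¹) (k : X) :
    (k ∈ (MulEquiv.toMonoidHom (σ ^ e)).eqLocus (MonoidHom.id X) ∧ k * g * (σ k)⁻¹ = g) ↔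
      (a⁻¹ * k * a ∈ (MulEquiv.toMonoidHom σ).eqLocus (MonoidHom.id X) ∧
        (a⁻¹ * k * a) * (((σ ^ e) a)⁻¹ * a) = (((σ ^ e) a)⁻¹ * a) * (a⁻¹ * k * a)) := by
  have fix := @Lib.Shintani.mem_fix X _
  rw [fix] at hg
  subst ha
  rw [fix, fix]
  have hx := Lib.Shintani.shintani_fixed σ e a hg
  have hxe : (σ ^ e) a = a * (((σ ^ e) a)⁻¹ * a)⁻¹ := Lib.Shintani.pow_apply_eq σ e a
  set x := ((σ ^ e) a)⁻¹ * a with hxdef
  constructor
  · rintro ⟨hk, hk'⟩
    have h1 : σ (a⁻¹ * k * a) = a⁻¹ * k * a := by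
      have : (σ a)⁻¹ * σ k * σ a = a⁻¹ * k * a := by
        have h : a * (σ a)⁻¹ * σ k * σ a = k * a := by
          have : k * (a * (σ a)⁻¹) * (σ k)⁻¹ * σ k * σ a = a * (σ a)⁻¹ * σ k * σ a := by rw [hk']
          rw [← this]; group
        calc (σ a)⁻¹ * σ k * σ a = a⁻¹ * (a * (σ a)⁻¹ * σ k * σ a) := by group
          _ = a⁻¹ * k * a := by rw [h]; group
      simpa [map_mul, map_inv] using this
    refine ⟨h1, ?_⟩
    -- commutation: apply σᵉ to a⁻¹ k a
    have hcp : ∀ i : ℕ, (σ ^ i) (a⁻¹ * k * a) = a⁻¹ * k * a := by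
      intro i
      induction i with
      | zero => simp
      | succ i ih => rw [Lib.Shintani.pow_succ_left, ih, h1]
    have h3 := hcp e
    rw [map_mul, map_mul, map_inv, hk, hxe] at h3
    have h4 : x * (a⁻¹ * k * a) * x⁻¹ = a⁻¹ * k * a := by
      calc x * (a⁻¹ * k * a) * x⁻¹ = (a * x⁻¹)⁻¹ * k * (a * x⁻¹) := by group
        _ = a⁻¹ * k * a := h3
    calc a⁻¹ * k * a * x = x * (a⁻¹ * k * a) * x⁻¹ * x := by rw [h4]
      _ = x * (a⁻¹ * k * a) := by group
  · rintro ⟨h1, h2⟩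
    have h1' : (σ a)⁻¹ * σ k * σ a = a⁻¹ * k * a := by
      simpa [map_mul, map_inv] using h1
    have hcp : ∀ i : ℕ, (σ ^ i) (a⁻¹ * k * a) = a⁻¹ * k * a := by
      intro i
      induction i with
      | zero => simp
      | succ i ih => rw [Lib.Shintani.pow_succ_left, ih, h1]
    have h3 := hcp e
    rw [map_mul, map_mul, map_inv, hxe] at h3
    constructor
    · -- σᵉ k = k
      have h5 : x * (a⁻¹ * (σ ^ e) k * a) * x⁻¹ = a⁻¹ * k * a := by
        rw [← h3]; group
      have h6 : a⁻¹ * (σ ^ e) k * a = a⁻¹ * k * a := by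
        calc a⁻¹ * (σ ^ e) k * a = x⁻¹ * (x * (a⁻¹ * (σ ^ e) k * a) * x⁻¹) * x := by group
          _ = x⁻¹ * (a⁻¹ * k * a) * x := by rw [h5]
          _ = x⁻¹ * (a⁻¹ * k * a * x) := by group
          _ = x⁻¹ * (x * (a⁻¹ * k * a)) := by rw [h2]
          _ = a⁻¹ * k * a := by group
      have : a * (a⁻¹ * (σ ^ e) k * a) * a⁻¹ = a * (a⁻¹ * k * a) * a⁻¹ := by rw [h6]
      simpa [mul_assoc] using this
    · have h7 : k * a = a * (σ a)⁻¹ * σ k * σ a := by
        calc k * a = a * (a⁻¹ * k * a) := by group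
          _ = a * ((σ a)⁻¹ * σ k * σ a) := by rw [h1']
          _ = a * (σ a)⁻¹ * σ k * σ a := by group
      calc k * (a * (σ a)⁻¹) * (σ k)⁻¹ = (k * a) * (σ a)⁻¹ * (σ k)⁻¹ := by group
        _ = (a * (σ a)⁻¹ * σ k * σ a) * (σ a)⁻¹ * (σ k)⁻¹ := by rw [h7]
        _ = a * (σ a)⁻¹ := by group

end Cfsg.Agent.S2667
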