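import Mathlib
import Cfsg.Statements.S2669
import Cfsg.Agent.Lib.Shintani

set_option autoImplicit false
open Cfsg

namespace Cfsg.Agent.S2669

/-- Abstract fibre count. -/
theorem card_fibre {X ι : Type*} [Group X] (H Y : Subgroup X) (P : ι → H → Prop)
    (hP : ∀ i u v, P i u → (P i v ↔ ((u : X)⁻¹ * (v : X) ∈ Y))) :
    Nat.card {p : ι × H // P p.1 p.2} = Nat.card {i : ι // ∃ u, P i u} * Nat.card ↥(Y ⊓ H) := by
  classical
  rw [← Nat.card_prod]
  refine Nat.card_congr ?_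
  let base : (i : {i : ι // ∃ u, P i u}) → H := fun i => Classical.choose i.2
  have hbase : ∀ i : {i : ι // ∃ u, P i u}, P i.1 (base i) := fun i => Classical.choose_spec i.2
  refine
    { toFun := fun p => ⟨⟨p.1.1, ⟨p.1.2, p.2⟩⟩,
        ⟨((base ⟨p.1.1, ⟨p.1.2, p.2⟩⟩ : H) : X)⁻¹ * (p.1.2 : X), ?_, ?_⟩⟩
      invFun := fun q => ⟨⟨q.1.1, ⟨((base q.1 : H) : X) * (q.2 : X), ?_⟩⟩, ?_⟩
      left_inv := ?_
      right_inv := ?_ }
  · exact (hP _ _ _ (hbase ⟨p.1.1, ⟨p.1.2, p.2⟩⟩)).1 p.2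
  · exact H.mul_mem (H.inv_mem (base ⟨p.1.1, ⟨p.1.2, p.2⟩⟩).2) p.1.2.2
  · exact H.mul_mem (base q.1).2 q.2.2.2
  · refine (hP _ _ _ (hbase q.1)).2 ?_
    simp only [inv_mul_cancel_left]
    exact q.2.2.1
  · rintro ⟨⟨i, u⟩, hu⟩
    simp
  · rintro ⟨⟨i, hi⟩, ⟨s, hs1, hs2⟩⟩
    simp

/-- Shintani descent preserves numbers of fixed points on coset spaces (abstract form). Let `σ` be an automorphism of a group `X` and `e ≥ 1`; write `G` for the fixed points of `σᵉ` and `H` for the fixed points of `σ`, and assume `G` is finite. Let `Y` be a `σ`-stable subgroup of `X` on which the maps `a ↦ a σ(a)⁻¹` and `a ↦ a σᵉ(a)⁻¹` are surjective (as for a closed connected `σ`-stable subgroup of an algebraic group). Let `g ∈ G`, let `a ∈ X` satisfy `g = a σ(a)⁻¹` and put `x = σᵉ(a)⁻¹ a` (the Shintani image, an element of `H`). The element `g σ` of the semidirect product acts on the cosets of `Y ∩ G` in `G` by `k (Y ∩ G) ↦ g σ(k)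 (Y ∩ G)`, fixing that coset exactly when `k⁻¹ g σ(k) ∈ Y`; and `x` fixes the coset `h (Y ∩ H)` of `H` exactly when `h⁻¹ x h ∈ Y`. Then the two numbers of fixed cosets agree; in cross-multiplied form, `#{k ∈ G : k⁻¹ g σ(k) ∈ Y} · |Y ∩ H| = #{h ∈ H : h⁻¹ x h ∈ Y} · |Y ∩ G|`. -/
theorem result {X : Type*} [Group X] (σ : MulAut X) (e : ℕ) (he : 1 ≤ e)
    [Finite ↥((MulEquiv.toMonoidHom (σ ^ e)).eqLocus (MonoidHom.id X))]
    (Y : Subgroup X) (hY : ∀ y : X, y ∈ Y ↔ σ y ∈ Y)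
    (hYL : ∀ y ∈ Y, ∃ a ∈ Y, y = a * (σ a)⁻¹) (hYLe : ∀ y ∈ Y, ∃ a ∈ Y, y = a * ((σ ^ e) a)⁻¹)
    (g : X) (hg : g ∈ (MulEquiv.toMonoidHom (σ ^ e)).eqLocus (MonoidHom.id X)) (a : X) (ha : g = a * (σ a)⁻¹) :
    Nat.card {k : ↥((MulEquiv.toMonoidHom (σ ^ e)).eqLocus (MonoidHom.id X)) // (k : X)⁻¹ * g * σ k ∈ Y} *
        Nat.card ↥(Y ⊓ (MulEquiv.toMonoidHom σ).eqLocus (MonoidHom.id X)) =
      Nat.card {h : ↥((MulEquiv.toMonoidHom σ).eqLocus (MonoidHom.id X)) // (h : X)⁻¹ * (((σ ^ e) a)⁻¹ * a) * h ∈ Y} *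
        Nat.card ↥(Y ⊓ (MulEquiv.toMonoidHom (σ ^ e)).eqLocus (MonoidHom.id X)) := by
  classical
  have fix := @Lib.Shintani.mem_fix X _
  rw [fix] at hg
  subst ha
  set G := (MulEquiv.toMonoidHom (σ ^ e)).eqLocus (MonoidHom.id X) with hG
  set H := (MulEquiv.toMonoidHom σ).eqLocus (MonoidHom.id X) with hH
  have memG : ∀ x : X, x ∈ G ↔ (σ ^ e) x = x := fun x => fix _ x
  have memH : ∀ x : X, x ∈ H ↔ σ x = x := fun x => fix _ x
  have hpowH : ∀ x : X, σ x = x → (σ ^ e) x = x := by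
    intro x hx
    have : ∀ i : ℕ, (σ ^ i) x = x := by
      intro i
      induction i with
      | zero => simp
      | succ i ih => rw [Lib.Shintani.pow_succ_left, ih, hx]
    exact this e
  have hYpow : ∀ y ∈ Y, (σ ^ e) y ∈ Y := by
    intro y hy
    have : ∀ i : ℕ, (σ ^ i) y ∈ Y := by
      intro i
      induction i with
      | zero => simpa using hy
      | succ i ih => rw [Lib.Shintani.pow_succ_left]; exact (hY _).1 ih
    exact this e
  -- first fibration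
  have h1 := card_fibre H Y (fun (k : G) (h : H) => (k : X)⁻¹ * a * (h : X) ∈ Y) (by
    intro k u v hu
    constructor
    · intro hv
      have : (u : X)⁻¹ * (v : X) = ((k : X)⁻¹ * a * (u : X))⁻¹ * ((k : X)⁻¹ * a * (v : X)) := by
        group
      rw [this]
      exact Y.mul_mem (Y.inv_mem hu) hv
    · intro huv
      have : (k : X)⁻¹ * a * (v : X) = ((k : X)⁻¹ * a * (u : X)) * ((u : X)⁻¹ * (v : X)) := by
        group
      rw [this]
      exact Y.mul_mem hu huv)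
  have h2 := card_fibre G Y (fun (h : H) (k : G) => (k : X)⁻¹ * a * (h : X) ∈ Y) (by
    intro h u v hu
    constructor
    · intro hv
      have : (u : X)⁻¹ * (v : X) = ((u : X)⁻¹ * a * (h : X)) * ((v : X)⁻¹ * a * (h : X))⁻¹ := by
        group
      rw [this]
      exact Y.mul_mem hu (Y.inv_mem hv)
    · intro huv
      have : (v : X)⁻¹ * a * (h : X) = ((u : X)⁻¹ * (v : X))⁻¹ * ((u : X)⁻¹ * a * (h : X)) := by
        group
      rw [this]
      exact Y.mul_mem (Y.inv_mem huv) hu)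
  have h12 : Nat.card {p : G × H // (p.1 : X)⁻¹ * a * (p.2 : X) ∈ Y} =
      Nat.card {p : H × G // (p.2 : X)⁻¹ * a * (p.1 : X) ∈ Y} := by
    refine Nat.card_congr ?_
    exact
      { toFun := fun p => ⟨(p.1.2, p.1.1), p.2⟩
        invFun := fun p => ⟨(p.1.2, p.1.1), p.2⟩
        left_inv := fun p => rfl
        right_inv := fun p => rfl }
  -- identify the bases
  have hk : Nat.card {k : G // (k : X)⁻¹ * (a * (σ a)⁻¹) * σ k ∈ Y} =
      Nat.card {k : G // ∃ h : H, (k : X)⁻¹ * a * (h : X) ∈ Y} := by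
    refine Nat.card_congr (Equiv.subtypeEquivRight ?_)
    intro k
    constructor
    · intro hy
      obtain ⟨c, hc, hc'⟩ := hYL _ hy
      -- b = k⁻¹ a, h = b⁻¹ c
      have hb : (k : X)⁻¹ * a * (σ ((k : X)⁻¹ * a))⁻¹ = c * (σ c)⁻¹ := by
        rw [← hc']; simp only [map_mul, map_inv]; group
      have hfix : σ (((k : X)⁻¹ * a)⁻¹ * c) = ((k : X)⁻¹ * a)⁻¹ * c := by
        have h3 : σ ((k : X)⁻¹ * a) = (c * (σ c)⁻¹)⁻¹ * ((k : X)⁻¹ * a) := by
          rw [← hb]; group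
        rw [map_mul, map_inv, h3]; group
      refine ⟨⟨((k : X)⁻¹ * a)⁻¹ * c, (memH _).2 hfix⟩, ?_⟩
      have : (k : X)⁻¹ * a * (((k : X)⁻¹ * a)⁻¹ * c) = c := by group
      show (k : X)⁻¹ * a * (((k : X)⁻¹ * a)⁻¹ * c) ∈ Y
      rw [this]
      exact hc
    · rintro ⟨h, hh⟩
      set c := (k : X)⁻¹ * a * (h : X) with hc
      have hσh : σ (h : X) = h := (memH _).1 h.2
      have : (k : X)⁻¹ * (a * (σ a)⁻¹) * σ k = c * (σ c)⁻¹ := by
        rw [hc]; simp only [map_mul, map_inv, hσh]; group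
      rw [this]
      exact Y.mul_mem hh (Y.inv_mem ((hY _).1 hh))
  have hl : Nat.card {h : H // (h : X)⁻¹ * (((σ ^ e) a)⁻¹ * a) * h ∈ Y} =
      Nat.card {h : H // ∃ k : G, (k : X)⁻¹ * a * (h : X) ∈ Y} := by
    refine Nat.card_congr (Equiv.subtypeEquivRight ?_)
    intro h
    have hh : (σ ^ e) (h : X) = h := hpowH _ ((memH _).1 h.2)
    constructor
    · intro hz
      obtain ⟨a', ha', ha''⟩ := hYLe _ (Y.inv_mem hz)
      -- c = a'⁻¹
      have hz' : (h : X)⁻¹ * (((σ ^ e) a)⁻¹ * a) * h = (σ ^ e) a' * a'⁻¹ := by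
        have := congrArg (fun z => z⁻¹) ha''
        simp only [inv_inv] at this
        rw [this]; group
      have hsa : (σ ^ e) a = a * (h : X) * a' * ((σ ^ e) a')⁻¹ * (h : X)⁻¹ := by
        have h4 : ((σ ^ e) a)⁻¹ * a = (h : X) * ((σ ^ e) a' * a'⁻¹) * (h : X)⁻¹ := by
          rw [← hz']; group
        calc (σ ^ e) a = a * (((σ ^ e) a)⁻¹ * a)⁻¹ := by group
          _ = a * ((h : X) * ((σ ^ e) a' * a'⁻¹) * (h : X)⁻¹)⁻¹ := by rw [h4]
          _ = _ := by group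
      refine ⟨⟨a * (h : X) * a', (memG _).2 ?_⟩, ?_⟩
      · rw [map_mul, map_mul, hh, hsa]; group
      · have : (a * (h : X) * a')⁻¹ * a * (h : X) = a'⁻¹ := by group
        show (a * (h : X) * a')⁻¹ * a * (h : X) ∈ Y
        rw [this]
        exact Y.inv_mem ha'
    · rintro ⟨k, hk⟩
      set c := (k : X)⁻¹ * a * (h : X) with hc
      have hkk : (σ ^ e) (k : X) = k := (memG _).1 k.2
      have hs : (σ ^ e) c = (k : X)⁻¹ * (σ ^ e) a * (h : X) := by
        rw [hc]; simp only [map_mul, map_inv, hh, hkk]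
      have : (h : X)⁻¹ * (((σ ^ e) a)⁻¹ * a) * h = ((σ ^ e) c)⁻¹ * c := by
        rw [hs, hc]; group
      rw [this]
      exact Y.mul_mem (Y.inv_mem (hYpow _ hk)) hk
  rw [hk, hl, ← h1, h12, h2]

end Cfsg.Agent.S2669
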