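import Cfsg.Statements.S2670
import Mathlib
import Cfsg.Agent.Lib.ProjClasses

set_option autoImplicit false
open Cfsg

namespace Cfsg.Agent.S2670

open Polynomial Cfsg.Agent.Lib.ProjClasses

/-- Number of conjugacy classes of elements of prime order r in PGL_n(q) = GL_n(q)/scalars when r divides q − 1 (n ≥ 2): the classes of elements with a diagonalisable lift correspond to the orbits of the cyclic rotation on the r-tuples of eigenvalue multiplicities (a_0, …, a_(r−1)) summing to n with every a_j < n, and when r divides n there are r − 1 further classes (lifts acting irreducibly on blocks of size r); in all (C(n+r−1, r−1) − r − [r ∣ n])/r + r·[r ∣ n] classes. -/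
theorem result {F : Type*} [Field F] [Fintype F] {q : ℕ} (hF : Fintype.card F = q) {n r : ℕ} (hn : 2 ≤ n) (hr : r.Prime) (hrq : r ∣ q - 1) : Nat.card {C : ConjClasses (GL (Fin n) F ⧸ Subgroup.center (GL (Fin n) F)) // ∃ g : GL (Fin n) F ⧸ Subgroup.center (GL (Fin n) F), ConjClasses.mk g = C ∧ orderOf g = r} = (Nat.choose (n + r - 1) (r - 1) - r - (if r ∣ n then 1 else 0)) / r + r * (if r ∣ n then 1 else 0) := by
  classical
  subst hF
  haveI : Fact r.Prime := ⟨hr⟩
  obtain ⟨p, hchar⟩ := CharP.exists F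
  haveI : Fact p.Prime := ⟨CharP.char_is_prime F p⟩
  obtain ⟨g, hg⟩ := IsCyclic.exists_generator (α := Fˣ)
  have hgord : orderOf g = Fintype.card F - 1 := by
    rw [orderOf_eq_card_of_forall_mem_zpowers hg, Nat.card_units]
    rw [Nat.card_eq_fintype_card]
  have hone : 1 < Fintype.card F := Fintype.one_lt_card
  have hN : 0 < Fintype.card F - 1 := by omega
  have hNK : ((Fintype.card F - 1 : ℕ) : F) ≠ 0 := by
    rw [Nat.cast_sub hone.le, Nat.cast_card_eq_zero, Nat.cast_one, zero_sub]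
    exact neg_ne_zero.2 one_ne_zero
  have hrK : (r : F) ≠ 0 := by
    obtain ⟨d, hd⟩ := hrq
    intro h0
    apply hNK
    rw [hd, Nat.cast_mul, h0, zero_mul]
  have hc₀ : orderOf (g : F) = Fintype.card F - 1 := by
    rw [orderOf_units, hgord]
  have hpow : ∀ a : F, a ≠ 0 → ∃ k : ℕ, a = (g : F) ^ k := by
    intro a ha
    have h1 := hg (Units.mk0 a ha)
    rw [← mem_powers_iff_mem_zpowers] at h1
    obtain ⟨k, hk⟩ := h1
    refine ⟨k, ?_⟩
    have h2 := congrArg Units.val hk
    simp only [Units.val_pow_eq_pow_val, Units.val_mk0] at h2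
    exact h2.symm
  have hg0 : (g : F) ≠ 0 := g.ne_zero
  have hn1 : 1 ≤ n := by omega
  have hZ : ∀ z : GL (Fin n) F, z ∈ Subgroup.center (GL (Fin n) F) ↔ ∃ k : ℕ, (((MonoidHom.id _) z : GL (Fin n) F) : Matrix (Fin n) (Fin n) F) = Matrix.diagonal fun _ => (g : F) ^ k := by
    intro z
    rw [Matrix.GeneralLinearGroup.mem_center_iff_val_mem_range_scalar]
    constructor
    · rintro ⟨a, ha⟩
      have ha0 : a ≠ 0 := by
        rintro rfl
        have h1 : (z : Matrix (Fin n) (Fin n) F) = 0 := by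
          rw [← ha]
          simp
        have h2 := z.mul_inv
        rw [h1, zero_mul] at h2
        haveI : Nonempty (Fin n) := ⟨⟨0, by omega⟩⟩
        exact zero_ne_one h2
      obtain ⟨k, rfl⟩ := hpow a ha0
      refine ⟨k, ?_⟩
      rw [MonoidHom.id_apply, ← ha]
      rfl
    · rintro ⟨k, hk⟩
      refine ⟨(g : F) ^ k, ?_⟩
      rw [MonoidHom.id_apply] at hk
      rw [hk]
      rfl
  have hdiag : ∀ w : Fin n → F, (∀ i, w i ^ (Fintype.card F - 1) = 1) → ∃ h : GL (Fin n) F, (((MonoidHom.id _) h : GL (Fin n) F) : Matrix (Fin n) (Fin n) F) = Matrix.diagonal w := by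
    intro w hw
    have h1 : (Matrix.diagonal w) ^ (Fintype.card F - 1) = 1 := by
      rw [Matrix.diagonal_pow]
      have : (w ^ (Fintype.card F - 1)) = fun _ => 1 := by
        funext i
        exact hw i
      rw [this, Matrix.diagonal_one]
    exact ⟨Units.ofPowEqOne _ _ h1 hN.ne', rfl⟩
  have hnr : ∀ k : ℕ, ¬ r ∣ k → ∀ b : F, b ^ r ≠ (g : F) ^ k := by
    intro k hk b hb
    have hb0 : b ≠ 0 := by
      rintro rfl
      rw [zero_pow hr.ne_zero] at hb
      exact pow_ne_zero k hg0 hb.symm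
    obtain ⟨t, rfl⟩ := hpow b hb0
    rw [← pow_mul] at hb
    have hb' : g ^ (t * r) = g ^ k := Units.ext (by
      rw [Units.val_pow_eq_pow_val, Units.val_pow_eq_pow_val]
      exact hb)
    have h1 := (pow_eq_pow_iff_modEq.1 hb').of_dvd (hgord ▸ hrq)
    apply hk
    have h2 : (t * r) % r = k % r := h1
    rw [Nat.mul_mod_left] at h2
    exact Nat.dvd_of_mod_eq_zero h2.symm
  have hex : r ∣ n → ∀ k : ℕ, ¬ r ∣ k → ∃ h : GL (Fin n) F, (∃ m : ℕ, (m : F) ≠ 0 ∧ (MonoidHom.id _) h ^ m = 1) ∧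
      (((MonoidHom.id _) h : GL (Fin n) F) : Matrix (Fin n) (Fin n) F).charpoly = (X ^ r - C ((g : F) ^ k)) ^ (n / r) := by
    intro hd k hk
    have hm : (X ^ r - C ((g : F) ^ k) : F[X]).Monic := monic_X_pow_sub_C _ hr.ne_zero
    obtain ⟨h, hco, hc⟩ := Cfsg.Agent.Lib.SemisimpleGL.exists_gl p ((X ^ r - C ((g : F) ^ k)) ^ (n / r)) (hm.pow _)
      (by rw [hm.natDegree_pow, natDegree_X_pow_sub_C, Nat.div_mul_cancel hd])
      (by
        rw [coeff_zero_eq_eval_zero, eval_pow, eval_sub, eval_pow, eval_X, eval_C, zero_pow hr.ne_zero, zero_sub]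
        exact pow_ne_zero _ (neg_ne_zero.2 (pow_ne_zero _ hg0)))
    exact ⟨h, ⟨orderOf h, Cfsg.Agent.Lib.SemisimpleGL.cast_ne_of_coprime p hco, pow_orderOf_eq_one h⟩, hc⟩
  exact count_of_setup hn1 (MonoidHom.id _) (fun _ _ h => h) (g : F) hc₀ hN hrq hrK hNK hZ (fun _ _ h => h) hdiag hex hnr

end Cfsg.Agent.S2670
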