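import Cfsg.Statements.S2671
import Mathlib
import Cfsg.Agent.Lib.DualFactors
import Cfsg.Agent.Lib.SelfDual
import Cfsg.Agent.Lib.SemisimpleGL

set_option autoImplicit false
open Cfsg

namespace Cfsg.Agent.S2671

open Polynomial Module
open Cfsg.Agent.Lib.PrimeFactors Cfsg.Agent.Lib.DualFactors Cfsg.Agent.Lib.SemisimpleGL
open Cfsg.Agent.Lib.SelfDual Cfsg.Agent.Lib.UnitaryConjGU

local notation "σ'" => Cfsg.Agent.Lib.UnitaryBasic.sigma

section aux

variable {K : Type*} [Field K] [Fintype K] {q : ℕ}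

theorem sd_iff_Dl (hK : Fintype.card K = q ^ 2) {f : K[X]} (h0 : f.coeff 0 ≠ 0) :
    SD hK f ↔ Dl (σ' hK) f = f := by
  have hq : (σ' hK) (f.coeff 0) ≠ 0 := (_root_.map_ne_zero _).2 h0
  unfold SD Dl
  constructor
  · intro h
    have h1 : f.coeff 0 ^ q = (σ' hK) (f.coeff 0) := rfl
    rw [h, h1, ← mul_assoc, ← C_mul, inv_mul_cancel₀ hq, C_1, one_mul]
  · intro h
    have h2 : C ((σ' hK) (f.coeff 0)) * (C ((σ' hK) (f.coeff 0))⁻¹ * (f.map (σ' hK)).reverse) = C ((σ' hK) (f.coeff 0)) * f := congrArg _ h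
    rw [← mul_assoc, ← C_mul, mul_inv_cancel₀ hq, C_1, one_mul] at h2
    exact h2

theorem sigma_neg_one (hK : Fintype.card K = q ^ 2) : (σ' hK) (-1) = -1 := by
  rw [map_neg, map_one]

theorem exists_tau {p : ℕ} [Fact p.Prime] [CharP K p] (hK : Fintype.card K = q ^ 2) (j : K[X]) [Fact (Irreducible j)] :
    ∃ τ : AdjoinRoot j →+* AdjoinRoot j, (∀ x, τ (algebraMap K (AdjoinRoot j) x) = algebraMap K (AdjoinRoot j) ((σ' hK) x)) ∧
      τ (AdjoinRoot.root j) = AdjoinRoot.root j ^ q := by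
  have hp : p.Prime := Fact.out
  obtain ⟨f, -, hf⟩ := FiniteField.card K p
  have hd : q ∣ p ^ (f : ℕ) := by
    rw [← hf, hK]
    exact dvd_pow_self q two_ne_zero
  obtain ⟨e, -, rfl⟩ := (Nat.dvd_prime_pow hp).1 hd
  haveI : CharP (AdjoinRoot j) p := charP_of_injective_algebraMap (algebraMap K (AdjoinRoot j)).injective p
  refine ⟨iterateFrobenius (AdjoinRoot j) p e, ?_, ?_⟩
  · intro x
    rw [iterateFrobenius_def]
    exact (map_pow _ x _).symm
  · rw [iterateFrobenius_def]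

theorem main_bij {p n r : ℕ} [Fact p.Prime] [CharP K p] [hrp : Fact r.Prime] (hK : Fintype.card K = q ^ 2) (hrF : (r : K) ≠ 0)
    (hr0 : r ≠ 0) :
    Nat.card {C : ConjClasses ↥(Cfsg.GU n K q) // ∃ g : ↥(Cfsg.GU n K q), ConjClasses.mk g = C ∧ orderOf g = r} =
    Nat.card {a : ↥(Idx K r) → ℕ // a ≠ 0 ∧ a ∘ dl (Cfsg.Agent.Lib.UnitaryBasic.sigma_sigma hK) (sigma_neg_one hK) hrF hr0 = a ∧
      orderOf ((Fintype.card K : ℕ) : ZMod r) * ∑ j, a j ≤ n} := by
  classical
  have hr : r.Prime := Fact.out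
  symm
  have hpow : ∀ g : ↥(Cfsg.GU n K q), ((g : GL (Fin n) K) : Matrix (Fin n) (Fin n) K) ^ orderOf g = 1 := by
    intro g
    have h1 : ((g ^ orderOf g : ↥(Cfsg.GU n K q)) : GL (Fin n) K) = 1 := by
      rw [pow_orderOf_eq_one]
      rfl
    have h2 := congrArg Units.val h1
    rw [Subgroup.coe_pow, Units.val_pow_eq_pow_val] at h2
    exact h2
  have hcast : ∀ g : ↥(Cfsg.GU n K q), (orderOf g).Coprime p → ((orderOf g : ℕ) : K) ≠ 0 :=
    fun g hg => cast_ne_of_coprime (F := K) p hg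
  have hex : ∀ a : {a : ↥(Idx K r) → ℕ // a ≠ 0 ∧ a ∘ dl (Cfsg.Agent.Lib.UnitaryBasic.sigma_sigma hK) (sigma_neg_one hK) hrF hr0 = a ∧
      orderOf ((Fintype.card K : ℕ) : ZMod r) * ∑ j, a j ≤ n},
      ∃ g : ↥(Cfsg.GU n K q), ((g : GL (Fin n) K) : Matrix (Fin n) (Fin n) K).charpoly = Pa K r n a.1 ∧ orderOf g = r := by
    rintro ⟨a, ha, hinv, hs⟩
    have hm : (Pa K r n a).Monic := Pa_monic hr0
    have hd := Pa_natDegree (n := n) (a := a) hrF hs
    have h0 : (Pa K r n a).coeff 0 ≠ 0 := coeff_zero_of_supp hr0 hm (fun g hg hgd => Pa_dvd hr0 hg hgd)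
    have hsd : SD hK (Pa K r n a) := by
      rw [sd_iff_Dl hK h0, Dl_Pa (Cfsg.Agent.Lib.UnitaryBasic.sigma_sigma hK) (sigma_neg_one hK) hrF hr0, hinv]
    obtain ⟨B, hB1, hB2⟩ := exists_GU_of_sd p hK hm hd h0 hsd
    have hAr : ((B : GL (Fin n) K) : Matrix (Fin n) (Fin n) K) ^ r = 1 :=
      pow_eq_one_of_dvd (hcast B hB1) (hpow B) r (fun g _ hg hgd => Pa_dvd hr0 hg (hB2 ▸ hgd))
    refine ⟨B, hB2, orderOf_eq_prime ?_ ?_⟩
    · apply Subtype.ext
      apply Units.ext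
      rw [Subgroup.coe_pow, Units.val_pow_eq_pow_val]
      exact hAr
    · intro h1
      rw [h1] at hB2
      have h2 : ((1 : ↥(Cfsg.GU n K q)) : GL (Fin n) K).val = (1 : Matrix (Fin n) (Fin n) K) := rfl
      rw [h2, Matrix.charpoly_one, Fintype.card_fin] at hB2
      apply ha
      apply Pa_inj (n := n) hrF hr0
      rw [← hB2, Pa]
      simp
  choose elt hchar hord using hex
  refine Nat.card_eq_of_bijective (fun a => ⟨ConjClasses.mk (elt a), elt a, rfl, hord a⟩) ⟨?_, ?_⟩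
  · intro a a' h
    have h1 : ConjClasses.mk (elt a) = ConjClasses.mk (elt a') := congrArg Subtype.val h
    rw [ConjClasses.mk_eq_mk_iff_isConj] at h1
    have h2 := (Cfsg.GU n K q).subtype.map_isConj h1
    rw [isConj_iff] at h2
    obtain ⟨c, hc⟩ := h2
    apply Subtype.ext
    apply Pa_inj (n := n) hrF hr0
    rw [← hchar a, ← hchar a']
    have hc' : ((elt a' : GL (Fin n) K) : Matrix (Fin n) (Fin n) K) = c.val * ((elt a : GL (Fin n) K) : Matrix (Fin n) (Fin n) K) * (c⁻¹).val := by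
      have := congrArg Units.val hc
      exact this.symm
    rw [hc', Matrix.charpoly_mul_comm, ← mul_assoc, Units.inv_mul, one_mul]
  · rintro ⟨C, g, rfl, hg⟩
    have hmonic := Matrix.charpoly_monic ((g : GL (Fin n) K) : Matrix (Fin n) (Fin n) K)
    have hdeg : ((g : GL (Fin n) K) : Matrix (Fin n) (Fin n) K).charpoly.natDegree = n := by
      rw [Matrix.charpoly_natDegree_eq_dim, Fintype.card_fin]
    have hgr : ((g : GL (Fin n) K) : Matrix (Fin n) (Fin n) K) ^ r = 1 := hg ▸ hpow g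
    obtain ⟨a, ha, haeq⟩ := exists_Pa (n := n) hrF hmonic hdeg
      (fun f hf hfd => dvd_of_pow_eq_one hrF hgr hf hfd)
    have ha0 : a ≠ 0 := by
      rintro rfl
      have hgone : ((g : GL (Fin n) K) : Matrix (Fin n) (Fin n) K) ^ 1 = 1 := by
        refine pow_eq_one_of_dvd hrF hgr 1 (fun f _ hf hfd => ?_)
        rw [haeq, Pa] at hfd
        simp only [Pi.zero_apply, pow_zero, Finset.prod_const_one, mul_one] at hfd
        rw [pow_one]
        exact hf.prime.dvd_of_dvd_pow hfd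
      have h1 : g = 1 := by
        apply Subtype.ext
        apply Units.ext
        rw [pow_one] at hgone
        exact hgone
      rw [h1, orderOf_one] at hg
      have := hr.one_lt
      omega
    have h00 : ((g : GL (Fin n) K) : Matrix (Fin n) (Fin n) K).charpoly.coeff 0 ≠ 0 :=
      coeff_zero_of_supp hr0 hmonic (fun f hf hfd => dvd_of_pow_eq_one hrF hgr hf hfd)
    have hsd := sd_of_unitary hK (st_mul_self_of_mem hK g.2)
    rw [sd_iff_Dl hK h00, haeq, Dl_Pa (Cfsg.Agent.Lib.UnitaryBasic.sigma_sigma hK) (sigma_neg_one hK) hrF hr0] at hsd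
    have hinv := Pa_inj (n := n) hrF hr0 hsd
    refine ⟨⟨a, ha0, hinv, ha⟩, Subtype.ext ?_⟩
    obtain ⟨a', ha'⟩ : ∃ a' : {a : ↥(Idx K r) → ℕ // a ≠ 0 ∧ a ∘ dl (Cfsg.Agent.Lib.UnitaryBasic.sigma_sigma hK) (sigma_neg_one hK) hrF hr0 = a ∧
      orderOf ((Fintype.card K : ℕ) : ZMod r) * ∑ j, a j ≤ n}, a' = ⟨a, ha0, hinv, ha⟩ := ⟨_, rfl⟩
    rw [← ha']
    show ConjClasses.mk (elt a') = ConjClasses.mk g
    rw [ConjClasses.mk_eq_mk_iff_isConj]
    apply isConj_GU_of_GL hK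
    rw [isConj_iff]
    have hA : ((elt a' : GL (Fin n) K) : Matrix (Fin n) (Fin n) K) ^ r = 1 := by
      have := hpow (elt a')
      rwa [hord a'] at this
    have hc : ((elt a' : GL (Fin n) K) : Matrix (Fin n) (Fin n) K).charpoly = ((g : GL (Fin n) K) : Matrix (Fin n) (Fin n) K).charpoly := by
      rw [hchar, ha', haeq]
    obtain ⟨Y, hY, hYA⟩ := mat_conj hrF hrF hA hgr hc
    refine ⟨Matrix.GeneralLinearGroup.mkOfDetNeZero Y hY, ?_⟩
    rw [mul_inv_eq_iff_eq_mul]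
    apply Units.ext
    exact hYA

end aux

/-- Number of conjugacy classes of elements of odd prime order r in the general unitary group GU_n(q), for r not dividing q(q + 1): let i be the multiplicative order of q modulo r, b = i if i is odd and b = i/2 if i is even, and s = (r − 1)/b. If i ≢ 2 (mod 4) the eigenvalue orbits pair off into dual pairs of totally isotropic blocks and there are C(⌊n/(2b)⌋ + s/2, s/2) − 1 classes; if i ≡ 2 (mod 4) each orbit gives a non-degenerate block of dimension i/2 and there are C(⌊2n/i⌋ + s, s) − 1 classes. -/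
theorem result {K : Type*} [Field K] [Fintype K] {p q n r i b s : ℕ} [Fact p.Prime] [CharP K p] (hK : Fintype.card K = q ^ 2) (hr : r.Prime) (hr2 : r ≠ 2) (hrp : r ≠ p) (hi : i = orderOf (q : ZMod r)) (hi2 : i ≠ 2) (hb : b = if Odd i then i else i / 2) (hs : s * b = r - 1) : Nat.card {C : ConjClasses ↥(Cfsg.GU n K q) // ∃ g : ↥(Cfsg.GU n K q), ConjClasses.mk g = C ∧ orderOf g = r} = if i % 4 = 2 then Nat.choose (2 * n / i + s) s - 1 else Nat.choose (n / (2 * b) + s / 2) (s / 2) - 1 := by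
  classical
  subst hi
  haveI : Fact r.Prime := ⟨hr⟩
  have hpp : p.Prime := Fact.out
  have hr0 := hr.ne_zero
  have hrF : (r : K) ≠ 0 := by
    rw [Ne, CharP.cast_eq_zero_iff K p]
    intro hd
    exact hrp ((Nat.prime_dvd_prime_iff_eq hpp hr).1 hd).symm
  have hr2' := hr.two_le
  -- the residue of `q`
  obtain ⟨x, hx⟩ : ∃ x : ZMod r, x = (q : ZMod r) := ⟨_, rfl⟩
  rw [← hx] at hb hi2 ⊢
  have hx0 : x ≠ 0 := by
    rw [hx, Ne, ZMod.natCast_eq_zero_iff]
    intro hd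
    have h1 : r ∣ p ^ 1 := by
      obtain ⟨f, -, hf⟩ := FiniteField.card K p
      have h2 : r ∣ p ^ (f : ℕ) := by
        rw [← hf, hK]
        exact dvd_pow hd two_ne_zero
      have h3 := hr.dvd_of_dvd_pow h2
      rwa [pow_one]
    rw [pow_one] at h1
    exact hrp ((Nat.prime_dvd_prime_iff_eq hr hpp).1 h1)
  have hi0 : orderOf x ≠ 0 := by
    have h1 : x ^ (r - 1) = 1 := ZMod.pow_card_sub_one_eq_one hx0
    have h2 := orderOf_dvd_of_pow_eq_one h1
    intro h3
    rw [h3] at h2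
    have := Nat.eq_zero_of_zero_dvd h2
    omega
  obtain ⟨i, hi⟩ : ∃ i, i = orderOf x := ⟨_, rfl⟩
  rw [← hi] at hb hi0 hi2 ⊢
  have hQ : ((Fintype.card K : ℕ) : ZMod r) = x ^ 2 := by
    rw [hK, hx]
    push_cast
    rfl
  have hordQ : orderOf ((Fintype.card K : ℕ) : ZMod r) = b := by
    rw [hQ, orderOf_pow' x two_ne_zero, ← hi, hb]
    split_ifs with ho
    · have h1 : i.gcd 2 = 1 := Nat.coprime_two_right.2 ho
      rw [h1, Nat.div_one]
    · rw [Nat.not_odd_iff_even] at ho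
      have h1 : i.gcd 2 = 2 := Nat.gcd_eq_right ho.two_dvd
      rw [h1]
  have hcard := card_Idx (F := K) (r := r) hrF
  rw [hordQ] at hcard
  have hbpos : 0 < b := by
    rcases Nat.eq_zero_or_pos b with h | h
    · rw [h, mul_zero] at hcard
      omega
    · exact h
  have hsc : Fintype.card ↥(Idx K r) = s := Nat.eq_of_mul_eq_mul_right hbpos (hcard.trans hs.symm)
  rw [main_bij hK hrF hr0, hordQ]
  -- the fixed points of the involution
  have hσ := Cfsg.Agent.Lib.UnitaryBasic.sigma_sigma hK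
  have hσ1 := sigma_neg_one hK
  have hfix : ∀ j : ↥(Idx K r), dl hσ hσ1 hrF hr0 j = j ↔ i % 4 = 2 := by
    intro j
    obtain ⟨hirr, -, -⟩ := (mem_Idx hr0).1 j.2
    haveI : Fact (Irreducible (j : K[X])) := ⟨hirr⟩
    obtain ⟨τ, hτ1, hτ2⟩ := exists_tau (p := p) hK (j : K[X])
    have h1 := dual_fixed_iff hσ hrF j.2 q τ hτ1 hτ2
    rw [hQ, ← hx, exists_sq_pow_eq_neg_iff hr2 (hi ▸ hi0), ← hi] at h1
    rw [← h1]
    exact Subtype.ext_iff
  split_ifs with hc
  · have hid : dl hσ hσ1 hrF hr0 = id := funext fun j => (hfix j).2 hc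
    rw [hid]
    have hi2b : i = 2 * b := by
      rw [hb, if_neg]
      · omega
      · rw [Nat.not_odd_iff_even]
        exact ⟨i / 2, by omega⟩
    have h1 : 2 * n / i = n / b := by
      rw [hi2b, Nat.mul_div_mul_left _ _ (by norm_num)]
    rw [h1, ← hsc, ← card_inv_id b n hbpos]
    refine Nat.card_congr (Equiv.subtypeEquivRight fun a => ?_)
    simp
  · rw [← hsc]
    refine card_inv_fpf _ (dl_dl hσ hσ1 hrF hr0) (fun j h => hc ((hfix j).1 h)) b n hbpos

end Cfsg.Agent.S2671
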