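import Cfsg.Statements.S2672
import Mathlib
import Cfsg.Agent.Lib.ProjClasses
import Cfsg.Agent.Lib.UnitaryGU

set_option autoImplicit false
open Cfsg

namespace Cfsg.Agent.S2672

open Polynomial Cfsg.Agent.Lib.ProjClasses Cfsg.Agent.Lib.SelfDual

section aux

variable {K : Type*} [Field K] [Fintype K] {q : ℕ}

theorem sd_mul (hK : Fintype.card K = q ^ 2) {f g : K[X]} (hf : SD hK f) (hg : SD hK g) : SD hK (f * g) := by
  unfold SD at *
  rw [Polynomial.map_mul, reverse_mul_of_domain, hf, hg, mul_coeff_zero, mul_pow, C_mul]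
  ring

theorem sd_one (hK : Fintype.card K = q ^ 2) : SD hK (1 : K[X]) := by
  unfold SD
  have h1 : (1 : K[X]).reverse = 1 := by
    rw [← C_1, reverse, natDegree_C, reflect_C, pow_zero, mul_one]
  rw [Polynomial.map_one, h1, coeff_one_zero, one_pow, C_1, mul_one]

theorem sd_pow (hK : Fintype.card K = q ^ 2) {f : K[X]} (hf : SD hK f) (j : ℕ) : SD hK (f ^ j) := by
  induction j with
  | zero =>
    rw [pow_zero]
    exact sd_one hK
  | succ j ih =>
    rw [pow_succ]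
    exact sd_mul hK ih hf

theorem reverse_pi {r : ℕ} (hr : r ≠ 0) (m : K) : (X ^ r - C m : K[X]).reverse = 1 - C m * X ^ r := by
  rw [reverse, natDegree_X_pow_sub_C, reflect_sub, reflect_monomial, reflect_C, revAt_le le_rfl, Nat.sub_self, pow_zero]

theorem sd_pi (hK : Fintype.card K = q ^ 2) {r : ℕ} (hr : r ≠ 0) {l : K} (hl : l ^ (q + 1) = 1) : SD hK (X ^ r - C l : K[X]) := by
  unfold SD
  have hσ : (X ^ r - C l : K[X]).map (Cfsg.Agent.Lib.UnitaryBasic.sigma hK) = X ^ r - C (l ^ q) := by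
    rw [Polynomial.map_sub, Polynomial.map_pow, map_X, map_C]
    rfl
  have h0 : (X ^ r - C l : K[X]).coeff 0 = -l := by
    rw [coeff_zero_eq_eval_zero, eval_sub, eval_pow, eval_X, eval_C, zero_pow hr, zero_sub]
  rw [hσ, reverse_pi hr, h0, Cfsg.Agent.Lib.UnitaryBasic.neg_pow_q hK]
  have h1 : (C (-(l ^ q)) * (X ^ r - C l) : K[X]) = C (l ^ q * l) - C (l ^ q) * X ^ r := by
    rw [C_neg, C_mul]
    ring
  rw [h1, ← pow_succ, hl, C_1]

end aux

/-- Number of conjugacy classes of elements of odd prime order r in PGU_n(q) = GU_n(q)/scalars (n ≥ 3) when r divides q + 1: as in the linear case with q − 1 replaced by q + 1, the classes correspond to the rotation orbits on r-tuples of eigenvalue multiplicities summing to n with every entry < n, plus r − 1 further classes when r divides n; in all (C(n+r−1, r−1) − r − [r ∣ n])/r + r·[r ∣ n]. -/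
theorem result {K : Type*} [Field K] [Fintype K] {q n r : ℕ} (hK : Fintype.card K = q ^ 2) (hn : 3 ≤ n) (hr : r.Prime) (hr2 : r ≠ 2) (hrq : r ∣ q + 1) : Nat.card {C : ConjClasses (↥(Cfsg.GU n K q) ⧸ Subgroup.center ↥(Cfsg.GU n K q)) // ∃ g : ↥(Cfsg.GU n K q) ⧸ Subgroup.center ↥(Cfsg.GU n K q), ConjClasses.mk g = C ∧ orderOf g = r} = (Nat.choose (n + r - 1) (r - 1) - r - (if r ∣ n then 1 else 0)) / r + r * (if r ∣ n then 1 else 0) := by
  classical
  haveI : Fact r.Prime := ⟨hr⟩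
  obtain ⟨p, hchar⟩ := CharP.exists K
  haveI : Fact p.Prime := ⟨CharP.char_is_prime K p⟩
  have hq2 := Cfsg.Agent.Lib.HermCount.two_le_q hK
  obtain ⟨g, hg⟩ := IsCyclic.exists_generator (α := Kˣ)
  have hq21 : q ^ 2 - 1 = (q + 1) * (q - 1) := by
    have := Nat.sq_sub_sq q 1
    simpa using this
  have hgord : orderOf g = q ^ 2 - 1 := by
    rw [orderOf_eq_card_of_forall_mem_zpowers hg, Nat.card_units, Nat.card_eq_fintype_card, hK]
  obtain ⟨u, hu⟩ : ∃ u, u = g ^ (q - 1) := ⟨_, rfl⟩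
  have huord : orderOf u = q + 1 := by
    have hne : q - 1 ≠ 0 := by omega
    rw [hu, orderOf_pow' _ hne, hgord, hq21, Nat.gcd_eq_right (dvd_mul_left _ _), Nat.mul_div_cancel _ (by omega)]
  have hc₀ : orderOf (u : K) = q + 1 := by
    rw [orderOf_units, huord]
  have hqK : (q : K) = 0 := by
    have h1 : ((q ^ 2 : ℕ) : K) = 0 := by
      rw [← hK]
      exact Nat.cast_card_eq_zero K
    rw [Nat.cast_pow] at h1
    exact pow_eq_zero_iff (by norm_num) |>.1 h1
  have hNK : ((q + 1 : ℕ) : K) ≠ 0 := by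
    rw [Nat.cast_add, hqK, Nat.cast_one, zero_add]
    exact one_ne_zero
  have hrK : (r : K) ≠ 0 := by
    obtain ⟨d, hd⟩ := hrq
    intro h0
    apply hNK
    rw [hd, Nat.cast_mul, h0, zero_mul]
  have hnorm : ∀ a : K, a ^ (q + 1) = 1 → ∃ k : ℕ, a = (u : K) ^ k := by
    intro a ha
    have ha0 : a ≠ 0 := by
      rintro rfl
      rw [zero_pow (by omega)] at ha
      exact zero_ne_one ha
    have h1 := hg (Units.mk0 a ha0)
    rw [← mem_powers_iff_mem_zpowers] at h1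
    obtain ⟨j, hj⟩ := h1
    have hj' : (g : K) ^ j = a := by
      have h2 := congrArg Units.val hj
      simpa using h2
    have h3 : g ^ (j * (q + 1)) = 1 := by
      apply Units.ext
      rw [pow_mul, Units.val_pow_eq_pow_val, Units.val_pow_eq_pow_val, hj', ha, Units.val_one]
    have h4 := orderOf_dvd_of_pow_eq_one h3
    rw [hgord, hq21, mul_comm (q + 1) (q - 1)] at h4
    obtain ⟨k, rfl⟩ := Nat.dvd_of_mul_dvd_mul_right (by omega) h4
    refine ⟨k, ?_⟩
    rw [← hj', pow_mul, hu, Units.val_pow_eq_pow_val]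
  have hn1 : 1 ≤ n := by omega
  have hN : 0 < q + 1 := by omega
  have hZ : ∀ z : ↥(Cfsg.GU n K q), z ∈ Subgroup.center ↥(Cfsg.GU n K q) ↔ ∃ k : ℕ, (((Cfsg.GU n K q).subtype z : GL (Fin n) K) : Matrix (Fin n) (Fin n) K) = Matrix.diagonal fun _ => (u : K) ^ k := by
    intro z
    constructor
    · intro hz
      obtain ⟨a, ha, hza⟩ := Cfsg.Agent.Lib.UnitaryGU.center_scalar hK (by omega) z hz
      rw [Cfsg.Agent.Lib.HermCount.nrm_eq_pow] at ha
      obtain ⟨k, rfl⟩ := hnorm a ha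
      exact ⟨k, hza⟩
    · rintro ⟨k, hk⟩
      rw [Subgroup.mem_center_iff]
      intro x
      apply Subtype.ext
      apply Units.ext
      change (x.1 : Matrix (Fin n) (Fin n) K) * ((Cfsg.GU n K q).subtype z : GL (Fin n) K) = ((Cfsg.GU n K q).subtype z : GL (Fin n) K) * (x.1 : Matrix (Fin n) (Fin n) K)
      rw [hk]
      ext i j
      rw [Matrix.mul_diagonal, Matrix.diagonal_mul, mul_comm]
  have hconj : ∀ a b : ↥(Cfsg.GU n K q), IsConj ((Cfsg.GU n K q).subtype a) ((Cfsg.GU n K q).subtype b) → IsConj a b :=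
    fun a b h => Cfsg.Agent.Lib.UnitaryConjGU.isConj_GU_of_GL hK a b h
  have hdiag : ∀ w : Fin n → K, (∀ i, w i ^ (q + 1) = 1) → ∃ h : ↥(Cfsg.GU n K q), (((Cfsg.GU n K q).subtype h : GL (Fin n) K) : Matrix (Fin n) (Fin n) K) = Matrix.diagonal w := by
    intro w hw
    have hd : ∀ i, Cfsg.Agent.Lib.HermCount.nrm q (w i) = 1 := fun i => by
      rw [Cfsg.Agent.Lib.HermCount.nrm_eq_pow]
      exact hw i
    exact ⟨Cfsg.Agent.Lib.UnitarySU.GUofMatrix hK (Matrix.diagonal w) (Cfsg.Agent.Lib.UnitarySU.diagonal_unitary hd), rfl⟩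
  have hu0 : (u : K) ≠ 0 := u.ne_zero
  have huN : (u : K) ^ (q + 1) = 1 := by
    rw [← hc₀]
    exact pow_orderOf_eq_one _
  have hex : r ∣ n → ∀ k : ℕ, ¬ r ∣ k → ∃ h : ↥(Cfsg.GU n K q), (∃ m : ℕ, (m : K) ≠ 0 ∧ (Cfsg.GU n K q).subtype h ^ m = 1) ∧
      (((Cfsg.GU n K q).subtype h : GL (Fin n) K) : Matrix (Fin n) (Fin n) K).charpoly = (X ^ r - C ((u : K) ^ k)) ^ (n / r) := by
    intro hd k hk
    have hm : (X ^ r - C ((u : K) ^ k) : K[X]).Monic := monic_X_pow_sub_C _ hr.ne_zero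
    have hl : ((u : K) ^ k) ^ (q + 1) = 1 := by
      rw [← pow_mul, mul_comm, pow_mul, huN, one_pow]
    obtain ⟨h, hco, hc⟩ := exists_GU_of_sd p hK (hm.pow (n / r))
      (by rw [hm.natDegree_pow, natDegree_X_pow_sub_C, Nat.div_mul_cancel hd])
      (by
        rw [coeff_zero_eq_eval_zero, eval_pow, eval_sub, eval_pow, eval_X, eval_C, zero_pow hr.ne_zero, zero_sub]
        exact pow_ne_zero _ (neg_ne_zero.2 (pow_ne_zero _ hu0)))
      (sd_pow hK (sd_pi hK hr.ne_zero hl) _)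
    refine ⟨h, ⟨orderOf h, Cfsg.Agent.Lib.SemisimpleGL.cast_ne_of_coprime p hco, ?_⟩, hc⟩
    rw [← map_pow, pow_orderOf_eq_one, map_one]
  have hnr : ∀ k : ℕ, ¬ r ∣ k → ∀ b : K, b ^ r ≠ (u : K) ^ k := by
    intro k hk b hb
    have hb0 : b ≠ 0 := by
      rintro rfl
      rw [zero_pow hr.ne_zero] at hb
      exact pow_ne_zero k hu0 hb.symm
    have h1 : (b ^ (q + 1)) ^ r = 1 := by
      rw [← pow_mul, mul_comm, pow_mul, hb, ← pow_mul, mul_comm, pow_mul, huN, one_pow]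
    have h2 : (b ^ (q + 1)) ^ (q - 1) = 1 := by
      rw [← pow_mul, ← hq21, ← hK]
      exact FiniteField.pow_card_sub_one_eq_one b hb0
    have hnd : ¬ r ∣ q - 1 := by
      intro h3
      have h4 : r ∣ (q + 1) - (q - 1) := Nat.dvd_sub hrq h3
      rw [show (q + 1) - (q - 1) = 2 by omega] at h4
      exact hr2 ((Nat.prime_dvd_prime_iff_eq hr Nat.prime_two).1 h4)
    have hco : Nat.gcd r (q - 1) = 1 := (Nat.Prime.coprime_iff_not_dvd hr).2 hnd
    have h3 : orderOf (b ^ (q + 1)) ∣ Nat.gcd r (q - 1) :=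
      Nat.dvd_gcd (orderOf_dvd_of_pow_eq_one h1) (orderOf_dvd_of_pow_eq_one h2)
    rw [hco] at h3
    have h4 : b ^ (q + 1) = 1 := by
      rw [← orderOf_eq_one_iff]
      exact Nat.dvd_one.1 h3
    obtain ⟨t, rfl⟩ := hnorm b h4
    rw [← pow_mul] at hb
    have hb' : u ^ (t * r) = u ^ k := Units.ext (by
      rw [Units.val_pow_eq_pow_val, Units.val_pow_eq_pow_val]
      exact hb)
    have h5 := (pow_eq_pow_iff_modEq.1 hb').of_dvd (huord ▸ hrq)
    apply hk
    have h6 : (t * r) % r = k % r := h5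
    rw [Nat.mul_mod_left] at h6
    exact Nat.dvd_of_mod_eq_zero h6.symm
  exact count_of_setup hn1 (Cfsg.GU n K q).subtype Subtype.val_injective (u : K) hc₀ hN hrq hrK hNK hZ hconj hdiag hex hnr

end Cfsg.Agent.S2672
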