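import Cfsg.Statements.S2676
import Cfsg.Agent.Lib.SpFMSig
-- import your own Cfsg.Agent.* helpers here

set_option autoImplicit false
open Classical
open Cfsg

namespace Cfsg.Agent.S2676

open Cfsg.Agent.Lib.SpFM Cfsg.Agent.Lib.SpFM.FM Matrix Module

universe u

/-- The relation between a conjugacy class and a signature. -/
def Rel {F : Type u} [Field F] {p : ℕ} {m : ℕ} (C : ConjClasses ↥(Matrix.symplecticGroup (Fin m) F))
    (s : Σ _ : Nat.Partition (2 * m), Finset ℕ) : Prop :=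
  ∃ (g : Matrix.symplecticGroup (Fin m) F) (N : Mt m F)
    (hN : Nᵀ * Matrix.J (Fin m) F + Matrix.J (Fin m) F * N = 0) (hnil : ∃ k, N ^ k = 0),
    ConjClasses.mk g = C ∧ g ^ p = 1 ∧ N * (g.1 + 1) = g.1 - 1 ∧ Sig (stdFM N hN hnil) s.1.parts s.2

theorem count_X {F : Type u} [Field F] [Fintype F] {p : ℕ} [Fact p.Prime] [CharP F p] (h2 : (2 : F) ≠ 0)
    (m : ℕ) (𝒮 : Finset (Σ _ : Nat.Partition (2 * m), Finset ℕ))
    (h𝒮 : ∀ s, s ∈ 𝒮 ↔ ((∀ a ∈ s.1.parts, a ≤ p) ∧ ∀ j : ℕ, Odd j → Even (s.1.parts.count j)) ∧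
      ∀ j ∈ s.2, j ∈ s.1.parts ∧ Even j) :
    Nat.card {C : ConjClasses ↥(Matrix.symplecticGroup (Fin m) F) //
      ∃ g : Matrix.symplecticGroup (Fin m) F, ConjClasses.mk g = C ∧ g ^ p = 1} = 𝒮.card := by
  have hdimV : finrank F (Fin m ⊕ Fin m → F) = 2 * m := by
    simp
    ring
  apply card_of_rel 𝒮 (fun C s => Rel (p := p) C.1 s)
  · rintro ⟨C, g, rfl, hg⟩
    obtain ⟨N, hN, hNp, hrel⟩ := exists_cay h2 g hg
    have hnil : ∃ k, N ^ k = 0 := ⟨p, hNp⟩
    obtain ⟨μ, S, hsig⟩ := sig_exists h2 (stdFM N hN hnil)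
    obtain ⟨d, ht, hS⟩ := id hsig
    have hsum : μ.sum = 2 * m := by
      rw [← ht.finrank_eq]
      exact hdimV
    refine ⟨⟨⟨μ, fun {i} hi => ht.pos i hi, hsum⟩, S⟩, ?_, g, N, hN, hnil, rfl, hg, hrel, hsig⟩
    rw [h𝒮]
    refine ⟨⟨?_, ht.parity⟩, fun j hj => ?_⟩
    · refine (ht.pow_eq_zero_iff p).1 ?_
      change (N.mulVecLin) ^ p = 0
      rw [mvl_pow, hNp]
      exact Matrix.mulVecLin_zero
    · have := (hS j).1 hj
      exact ⟨this.1, this.2.1⟩
  · rintro ⟨C, _⟩ ⟨C', _⟩ s ⟨g, N, hN, hnil, hC, _, hr, hs⟩ ⟨g', N', hN', hnil', hC', _, hr', hs'⟩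
    apply Subtype.ext
    change C = C'
    have hC1 : ConjClasses.mk g = C := hC
    have hC2 : ConjClasses.mk g' = C' := hC'
    rw [← hC1, ← hC2]
    rw [ConjClasses.mk_eq_mk_iff_isConj, isConj_iff_iso h2 g g' N N' hN hN' hnil hnil' hr hr']
    exact sig_inj h2 hs hs'
  · rintro ⟨π, S⟩ hs
    rw [h𝒮] at hs
    obtain ⟨⟨hle, hpar⟩, hS⟩ := hs
    obtain ⟨A, hsig⟩ := sig_surj (F := F) h2 π.parts (fun p hp => π.parts_pos hp) hpar S hS
    obtain ⟨d, ht, hS'⟩ := id hsig
    have hdim : finrank F A.V = 2 * m := by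
      rw [ht.finrank_eq, π.parts_sum]
    obtain ⟨N, hN, hnil, hiso, hall⟩ := realize h2 A hdim
    have hNp : N ^ p = 0 := hall p ((ht.pow_eq_zero_iff p).2 hle)
    obtain ⟨g, hg, hrel⟩ := exists_of_N N hN hNp
    refine ⟨⟨ConjClasses.mk g, g, rfl, hg⟩, g, N, hN, hnil, rfl, hg, hrel, d, HasType.iso hiso.symm ht, hS'⟩
  · rintro ⟨C, _⟩ ⟨π, S⟩ ⟨π', S'⟩ ⟨g, N, hN, hnil, hC, _, hr, hs⟩ ⟨g', N', hN', hnil', hC', _, hr', hs'⟩
    have hcj : IsConj g g' := by
      rw [← ConjClasses.mk_eq_mk_iff_isConj, hC, hC']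
    rw [isConj_iff_iso h2 g g' N N' hN hN' hnil hnil' hr hr'] at hcj
    obtain ⟨h3, h4⟩ := sig_unique hs hs' hcj
    have h5 : π = π' := Nat.Partition.ext h3
    subst h5
    have h4' : S = S' := h4
    rw [h4']

/-- Number of conjugacy classes of elements of order p in Sp_2m(q), q a power of the odd prime p: the classes correspond to the signed partitions of 2m — partitions with all parts at most p in which every odd part has even multiplicity, each even part size that occurs carrying a sign — other than the all-ones partition; so the count is the sum over such partitions of 2^(number of distinct even parts), minus one. -/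
theorem result {F : Type*} [Field F] [Fintype F] {p : ℕ} [Fact p.Prime] [CharP F p] (hp : p ≠ 2) (m : ℕ) : Nat.card {C : ConjClasses ↥(Matrix.symplecticGroup (Fin m) F) // ∃ g : Matrix.symplecticGroup (Fin m) F, ConjClasses.mk g = C ∧ orderOf g = p} = (∑ μ ∈ Finset.univ.filter (fun μ : Nat.Partition (2 * m) => (∀ a ∈ μ.parts, a ≤ p) ∧ ∀ j : ℕ, Odd j → Even (μ.parts.count j)), 2 ^ ((μ.parts.toFinset.filter (fun j : ℕ => Even j)).card)) - 1 := by
  have h2 : (2 : F) ≠ 0 := by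
    intro h
    have h3 := (CharP.cast_eq_zero_iff F p 2).1 (by exact_mod_cast h)
    exact hp ((Nat.prime_dvd_prime_iff_eq (Fact.out) Nat.prime_two).1 h3)
  have hX := count_X (p := p) h2 m
    ((Finset.univ.filter (fun μ : Nat.Partition (2 * m) => (∀ a ∈ μ.parts, a ≤ p) ∧ ∀ j : ℕ, Odd j → Even (μ.parts.count j))).sigma
      (fun μ => (μ.parts.toFinset.filter (fun j : ℕ => Even j)).powerset))
    (by
      rintro ⟨π, S⟩
      simp only [Finset.mem_sigma, Finset.mem_filter, Finset.mem_univ, true_and, Finset.mem_powerset,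
        Finset.subset_iff, Multiset.mem_toFinset])
  rw [Finset.card_sigma] at hX
  simp only [Finset.card_powerset] at hX
  rw [← hX]
  haveI : Finite (Matrix.symplecticGroup (Fin m) F) := inferInstance
  haveI : Finite (ConjClasses ↥(Matrix.symplecticGroup (Fin m) F)) := Quotient.finite _
  have hset : {C : ConjClasses ↥(Matrix.symplecticGroup (Fin m) F) | ∃ g : Matrix.symplecticGroup (Fin m) F, ConjClasses.mk g = C ∧ g ^ p = 1} =
      insert (ConjClasses.mk 1) {C | ∃ g : Matrix.symplecticGroup (Fin m) F, ConjClasses.mk g = C ∧ orderOf g = p} := by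
    ext C
    simp only [Set.mem_ofPred_eq, Set.mem_insert_iff]
    constructor
    · rintro ⟨g, rfl, hg⟩
      by_cases h1 : g = 1
      · left
        rw [h1]
      · right
        exact ⟨g, rfl, orderOf_eq_prime hg h1⟩
    · rintro (rfl | ⟨g, rfl, hg⟩)
      · exact ⟨1, rfl, one_pow _⟩
      · exact ⟨g, rfl, by rw [← hg]; exact pow_orderOf_eq_one g⟩
  have hnot : ConjClasses.mk (1 : Matrix.symplecticGroup (Fin m) F) ∉
      {C | ∃ g : Matrix.symplecticGroup (Fin m) F, ConjClasses.mk g = C ∧ orderOf g = p} := by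
    rintro ⟨g, hg, hord⟩
    rw [ConjClasses.mk_eq_mk_iff_isConj, isConj_one_left] at hg
    rw [hg, orderOf_one] at hord
    exact (Fact.out : p.Prime).one_lt.ne hord
  have hc1 := Nat.card_coe_set_eq {C : ConjClasses ↥(Matrix.symplecticGroup (Fin m) F) | ∃ g : Matrix.symplecticGroup (Fin m) F, ConjClasses.mk g = C ∧ g ^ p = 1}
  have hc2 := Nat.card_coe_set_eq {C : ConjClasses ↥(Matrix.symplecticGroup (Fin m) F) | ∃ g : Matrix.symplecticGroup (Fin m) F, ConjClasses.mk g = C ∧ orderOf g = p}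
  rw [hset, Set.ncard_insert_of_notMem hnot (Set.toFinite _), ← hc2] at hc1
  have hc3 : Nat.card ↑(insert (ConjClasses.mk 1) {C : ConjClasses ↥(Matrix.symplecticGroup (Fin m) F) | ∃ g : Matrix.symplecticGroup (Fin m) F, ConjClasses.mk g = C ∧ orderOf g = p}) =
      Nat.card {C : ConjClasses ↥(Matrix.symplecticGroup (Fin m) F) // ∃ g : Matrix.symplecticGroup (Fin m) F, ConjClasses.mk g = C ∧ g ^ p = 1} := by
    rw [← hset]
    rfl
  rw [hc3] at hc1
  rw [hc1, Nat.add_sub_cancel]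
  rfl

end Cfsg.Agent.S2676
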