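import Mathlib
import Cfsg.Statements.S2677
import Cfsg.Agent.Lib.GUField

set_option autoImplicit false
open Cfsg

open scoped MatrixGroups

namespace Cfsg.Agent.S2677

open Matrix
open Cfsg.Agent.Lib.Hilbert90 Cfsg.Agent.Lib.GUField Cfsg.Agent.Lib.UnitaryBasic Cfsg.Agent.Lib.FFNorm

set_option linter.unusedSectionVars false
set_option linter.unusedSimpArgs false

variable {K : Type*} [Field K] [Fintype K] {q₀ q r n : ℕ}

theorem pow_eq_of_fixed (σ : K ≃+* K) [Fintype (fixedF σ)] (hK₀ : Fintype.card (fixedF σ) = q₀ ^ 2)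
    (hodd : Odd r) (hq : q = q₀ ^ r) {x : K} (hx : σ x = x) : x ^ q = x ^ q₀ := by
  obtain ⟨s, rfl⟩ := hodd
  let y : fixedF σ := ⟨x, hx⟩
  have h1 : y ^ ((q₀ ^ 2) ^ s) = y := by
    rw [← hK₀]
    exact FiniteField.pow_card_pow s y
  have h2 : x ^ ((q₀ ^ 2) ^ s) = x := congrArg Subtype.val h1
  rw [hq, pow_succ, pow_mul q₀ 2 s, pow_mul, h2]

/-- Norm-one units. -/
abbrev U1 (K : Type*) [Field K] (q : ℕ) : Subgroup Kˣ := (powMonoidHom (q + 1) : Kˣ →* Kˣ).ker

theorem mem_U1 {d : Kˣ} : d ∈ U1 K q ↔ (d : K) ^ (q + 1) = 1 := by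
  rw [MonoidHom.mem_ker, powMonoidHom_apply]
  constructor
  · intro h
    have := congrArg Units.val h
    simpa using this
  · intro h
    apply Units.ext
    simpa using h

/-- The coboundary map on norm-one units. -/
def T (σ : K ≃+* K) : U1 K q →* Kˣ := (coB σ).comp (U1 K q).subtype

theorem T_val (σ : K ≃+* K) (d : U1 K q) : ((T σ d : Kˣ) : K) * σ ((d : Kˣ) : K) = ((d : Kˣ) : K) :=
  coB_mul σ d.1

theorem card_range_T (σ : K ≃+* K) [Fintype (fixedF σ)] (hK₀ : Fintype.card (fixedF σ) = q₀ ^ 2)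
    (hK : Fintype.card K = q ^ 2) (hodd : Odd r) (hq : q = q₀ ^ r) :
    Nat.card (T σ (q := q)).range * (q₀ + 1) = q + 1 := by
  classical
  have h1 := Subgroup.card_mul_index (T σ (q := q)).ker
  rw [Subgroup.index_ker] at h1
  have h2 : Nat.card (U1 K q) = q + 1 := card_ker_pow_succ hK
  have h3 : Nat.card (T σ (q := q)).ker = q₀ + 1 := by
    rw [← card_ker_pow_succ hK₀]
    symm
    apply Nat.card_eq_of_bijective
      (fun x : (powMonoidHom (q₀ + 1) : (fixedF σ)ˣ →* (fixedF σ)ˣ).ker =>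
        (⟨⟨Units.map (fixedF σ).subtype.toMonoidHom x.1, ?_⟩, ?_⟩ : (T σ (q := q)).ker))
    · constructor
      · intro a b hab
        apply Subtype.ext
        apply Units.ext
        apply Subtype.ext
        have := congrArg (fun z : (T σ (q := q)).ker => (((z.1 : U1 K q) : Kˣ) : K)) hab
        exact this
      · rintro ⟨⟨d, hd⟩, hd2⟩
        have hdσ : σ (d : K) = d := by
          have h4 := T_val σ (⟨d, hd⟩ : U1 K q)
          rw [MonoidHom.mem_ker.1 hd2, Units.val_one, one_mul] at h4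
          exact h4
        let y : (fixedF σ) := ⟨(d : K), hdσ⟩
        have hy0 : y ≠ 0 := by
          intro h0
          exact d.ne_zero (congrArg Subtype.val h0)
        have hdq : (d : K) ^ (q + 1) = 1 := mem_U1.1 hd
        have hdq₀ : y ^ (q₀ + 1) = 1 := by
          apply Subtype.ext
          show (d : K) ^ (q₀ + 1) = 1
          rw [pow_succ, ← pow_eq_of_fixed σ hK₀ hodd hq hdσ, ← pow_succ, hdq]
        refine ⟨⟨Units.mk0 y hy0, ?_⟩, ?_⟩
        · rw [MonoidHom.mem_ker, powMonoidHom_apply]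
          apply Units.ext
          simpa using hdq₀
        · apply Subtype.ext
          apply Subtype.ext
          apply Units.ext
          rfl
    · -- in U1
      have hx2 := mem_U1.1 x.2
      rw [mem_U1]
      have hfix : σ (((x.1 : (fixedF σ)ˣ) : fixedF σ) : K) = (((x.1 : (fixedF σ)ˣ) : fixedF σ) : K) :=
        ((x.1 : (fixedF σ)ˣ) : fixedF σ).2
      show (((x.1 : (fixedF σ)ˣ) : fixedF σ) : K) ^ (q + 1) = 1
      rw [pow_succ, pow_eq_of_fixed σ hK₀ hodd hq hfix, ← pow_succ]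
      exact congrArg Subtype.val hx2
    · -- in the kernel
      rw [MonoidHom.mem_ker]
      apply Units.ext
      show ((coB σ (Units.map (fixedF σ).subtype.toMonoidHom x.1) : Kˣ) : K) = 1
      rw [coB_val]
      have hfix : σ (((x.1 : (fixedF σ)ˣ) : fixedF σ) : K) = (((x.1 : (fixedF σ)ˣ) : fixedF σ) : K) :=
        ((x.1 : (fixedF σ)ˣ) : fixedF σ).2
      have hne : (((x.1 : (fixedF σ)ˣ) : fixedF σ) : K) ≠ 0 := by
        intro h0
        exact (x.1 : (fixedF σ)ˣ).ne_zero (Subtype.ext h0)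
      show (((x.1 : (fixedF σ)ˣ) : fixedF σ) : K) / σ (((x.1 : (fixedF σ)ˣ) : fixedF σ) : K) = 1
      rw [hfix, div_self hne]
  rw [h3, h2] at h1
  rw [← h1, mul_comm]

theorem scal_mem_GU (d : U1 K q) : scal (n := n) (d : Kˣ) ∈ GU n K q := by
  rw [mem_GU_iff]
  intro u v
  have h : ((scal (n := n) (d : Kˣ) : GL (Fin n) K) : Matrix (Fin n) (Fin n) K) = ((d : Kˣ) : K) • 1 := by
    have := scal_val (n := n) (d : Kˣ) (1 : Matrix (Fin n) (Fin n) K)
    rwa [mul_one] at this
  rw [h, Matrix.smul_mulVec, Matrix.smul_mulVec, Matrix.one_mulVec, Matrix.one_mulVec]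
  have hd : ((d : Kˣ) : K) ^ (q + 1) = 1 := mem_U1.1 d.2
  have hd' : ((d : Kˣ) : K) * ((d : Kˣ) : K) ^ q = 1 := by
    rw [← hd, pow_succ']
  simp only [hermForm, Pi.smul_apply, smul_eq_mul, mul_pow]
  refine Finset.sum_congr rfl fun i _ => ?_
  linear_combination (u i * v i ^ q) * hd'

/-- `σ`-fixed elements of `GU_n(q)` are `GU_n(q₀)`. -/
theorem card_fix (σ : K ≃+* K) [Fintype (fixedF σ)] (hK₀ : Fintype.card (fixedF σ) = q₀ ^ 2)
    (hK : Fintype.card K = q ^ 2) (hodd : Odd r) (hq : q = q₀ ^ r) :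
    Nat.card {g : ↥(GU n K q) // ((g : GL (Fin n) K) : Matrix (Fin n) (Fin n) K).map σ =
        ((g : GL (Fin n) K) : Matrix (Fin n) (Fin n) K)} = Nat.card (GU n (fixedF σ) q₀) := by
  classical
  symm
  have hmemK : ∀ h : GU n (fixedF σ) q₀,
      Matrix.GeneralLinearGroup.map (fixedF σ).subtype h.1 ∈ GU n K q := by
    intro h
    rw [mem_GU_iff]
    apply preserve_of_relation hK
    apply relation_of_entry hK
    intro j k
    have h1 := relation_entry hK₀ (A := ((h.1 : GL (Fin n) (fixedF σ)) : Matrix (Fin n) (Fin n) (fixedF σ)))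
      (fun u v => h.2 u v) j k
    have h2 := congrArg (fixedF σ).subtype h1
    simp only [map_sum, map_mul, map_pow] at h2
    have h3 : ∀ i, (((h.1 : GL (Fin n) (fixedF σ)) : Matrix (Fin n) (Fin n) (fixedF σ)) i k : K) ^ q =
        (((h.1 : GL (Fin n) (fixedF σ)) : Matrix (Fin n) (Fin n) (fixedF σ)) i k : K) ^ q₀ := fun i =>
      pow_eq_of_fixed σ hK₀ hodd hq (((h.1 : GL (Fin n) (fixedF σ)) : Matrix (Fin n) (Fin n) (fixedF σ)) i k).2
    simp only [Matrix.GeneralLinearGroup.map_apply]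
    have h4 : ∑ i, (((h.1 : GL (Fin n) (fixedF σ)) : Matrix (Fin n) (Fin n) (fixedF σ)) i j : K) *
        (((h.1 : GL (Fin n) (fixedF σ)) : Matrix (Fin n) (Fin n) (fixedF σ)) i k : K) ^ q₀ =
        (fixedF σ).subtype (if j = k then 1 else 0) := h2
    have h5 : (fixedF σ).subtype (if j = k then (1 : fixedF σ) else 0) = if j = k then (1 : K) else 0 := by
      split_ifs <;> simp
    rw [h5] at h4
    rw [← h4]
    exact Finset.sum_congr rfl fun i _ => by
      show _ * ((((h.1 : GL (Fin n) (fixedF σ)) : Matrix (Fin n) (Fin n) (fixedF σ)) i k : fixedF σ) : K) ^ q = _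
      rw [h3]
      rfl
  apply Nat.card_eq_of_bijective
    (fun h : GU n (fixedF σ) q₀ =>
      (⟨⟨Matrix.GeneralLinearGroup.map (fixedF σ).subtype h.1, hmemK h⟩, by
        ext i j
        exact (((h.1 : GL (Fin n) (fixedF σ)) : Matrix (Fin n) (Fin n) (fixedF σ)) i j).2⟩ :
        {g : ↥(GU n K q) // ((g : GL (Fin n) K) : Matrix (Fin n) (Fin n) K).map σ =
          ((g : GL (Fin n) K) : Matrix (Fin n) (Fin n) K)}))
  constructor
  · intro a b hab
    apply Subtype.ext
    ext i j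
    have := congrArg (fun g : {g : ↥(GU n K q) // ((g : GL (Fin n) K) : Matrix (Fin n) (Fin n) K).map σ =
          ((g : GL (Fin n) K) : Matrix (Fin n) (Fin n) K)} =>
      ((g.1 : GL (Fin n) K) : Matrix (Fin n) (Fin n) K) i j) hab
    exact this
  · rintro ⟨⟨g, hgU⟩, hg⟩
    have hmem : ∀ i j, (g : Matrix (Fin n) (Fin n) K) i j ∈ fixedF σ := by
      intro i j
      have := congrFun (congrFun hg i) j
      exact this
    let A : Matrix (Fin n) (Fin n) (fixedF σ) := fun i j => ⟨(g : Matrix (Fin n) (Fin n) K) i j, hmem i j⟩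
    have hA : A.map (fixedF σ).subtype = (g : Matrix (Fin n) (Fin n) K) := rfl
    have hdet : A.det ≠ 0 := by
      intro h0
      have h1 := RingHom.map_det (fixedF σ).subtype A
      rw [h0, map_zero] at h1
      have h2 : (A.map (fixedF σ).subtype).det = 0 := h1.symm
      rw [hA] at h2
      exact (Matrix.GeneralLinearGroup.det g).ne_zero h2
    have hAU : Matrix.GeneralLinearGroup.mkOfDetNeZero A hdet ∈ GU n (fixedF σ) q₀ := by
      rw [mem_GU_iff]
      apply preserve_of_relation hK₀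
      apply relation_of_entry hK₀
      intro j k
      have h1 := relation_entry hK (A := (g : Matrix (Fin n) (Fin n) K)) (fun u v => hgU u v) j k
      apply Subtype.ext
      rw [AddSubmonoidClass.coe_finsetSum]
      show ∑ i, (g : Matrix (Fin n) (Fin n) K) i j * (g : Matrix (Fin n) (Fin n) K) i k ^ q₀ = _
      have h2 : ∀ i, (g : Matrix (Fin n) (Fin n) K) i k ^ q₀ = (g : Matrix (Fin n) (Fin n) K) i k ^ q := fun i =>
        (pow_eq_of_fixed σ hK₀ hodd hq (hmem i k)).symm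
      simp only [h2]
      rw [h1]
      split_ifs <;> rfl
    refine ⟨⟨Matrix.GeneralLinearGroup.mkOfDetNeZero A hdet, hAU⟩, ?_⟩
    apply Subtype.ext
    apply Subtype.ext
    apply Units.ext
    exact hA

/-- The main count. -/
theorem card_main (σ : K ≃+* K) [Fintype (fixedF σ)] (hK₀ : Fintype.card (fixedF σ) = q₀ ^ 2)
    (hK : Fintype.card K = q ^ 2) (hodd : Odd r) (hq : q = q₀ ^ r) (hr : 0 < r)
    (hord : orderOf σ = r) (hn : 1 ≤ n) :
    Nat.card {g : ↥(GU n K q) // ∃ c : K, c ≠ 0 ∧ ((g : GL (Fin n) K) : Matrix (Fin n) (Fin n) K).map σ =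
        c • ((g : GL (Fin n) K) : Matrix (Fin n) (Fin n) K)} =
      Nat.card (T σ (q := q)).range *
        Nat.card {g : ↥(GU n K q) // ((g : GL (Fin n) K) : Matrix (Fin n) (Fin n) K).map σ =
          ((g : GL (Fin n) K) : Matrix (Fin n) (Fin n) K)} := by
  classical
  have hσr : σ ^ r = 1 := by rw [← hord]; exact pow_orderOf_eq_one σ
  let s : (T σ (q := q)).range → U1 K q := fun b => Classical.choose b.2
  have hs : ∀ b : (T σ (q := q)).range, T σ (s b) = b.1 := fun b => Classical.choose_spec b.2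
  have hsb : ∀ b : (T σ (q := q)).range, ((b.1 : Kˣ) : K) * σ (((s b : U1 K q) : Kˣ) : K) = ((s b : U1 K q) : Kˣ) := by
    intro b
    rw [← hs]
    exact T_val σ _
  have hsσ : ∀ b : (T σ (q := q)).range, σ (((s b : U1 K q) : Kˣ)⁻¹ : Kˣ) = ((b.1 : Kˣ) : K) * (((s b : U1 K q) : Kˣ)⁻¹ : Kˣ) := by
    intro b
    have h1 := hsb b
    have h2 : (((s b : U1 K q) : Kˣ) : K) ≠ 0 := ((s b : U1 K q) : Kˣ).ne_zero
    have h3 : σ (((s b : U1 K q) : Kˣ) : K) ≠ 0 := by simpa using h2
    rw [Units.val_inv_eq_inv_val, map_inv₀]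
    field_simp
    linear_combination -h1
  rw [← Nat.card_prod]
  symm
  apply Nat.card_eq_of_bijective
    (fun p : (T σ (q := q)).range × {g : ↥(GU n K q) // ((g : GL (Fin n) K) : Matrix (Fin n) (Fin n) K).map σ =
          ((g : GL (Fin n) K) : Matrix (Fin n) (Fin n) K)} =>
      (⟨⟨scal ((s p.1 : U1 K q) : Kˣ)⁻¹ * p.2.1.1, (GU n K q).mul_mem (by
          have := scal_mem_GU (n := n) (s p.1)⁻¹
          simpa using this) p.2.1.2⟩, (p.1.1 : K), p.1.1.ne_zero, by
        show (((scal ((s p.1 : U1 K q) : Kˣ)⁻¹ * p.2.1.1 : GL (Fin n) K)) : Matrix (Fin n) (Fin n) K).map σ =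
          _ • ((scal ((s p.1 : U1 K q) : Kˣ)⁻¹ * p.2.1.1 : GL (Fin n) K) : Matrix (Fin n) (Fin n) K)
        rw [scal_mul_val, map_smul_matrix, p.2.2, hsσ, smul_smul]⟩ :
        {g : ↥(GU n K q) // ∃ c : K, c ≠ 0 ∧ ((g : GL (Fin n) K) : Matrix (Fin n) (Fin n) K).map σ =
          c • ((g : GL (Fin n) K) : Matrix (Fin n) (Fin n) K)}))
  constructor
  · rintro ⟨b, k⟩ ⟨b', k'⟩ hab
    have h1 : scal ((s b : U1 K q) : Kˣ)⁻¹ * k.1.1 = scal ((s b' : U1 K q) : Kˣ)⁻¹ * k'.1.1 :=
      congrArg (fun z => ((z.1 : ↥(GU n K q)) : GL (Fin n) K)) hab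
    have hk := k.2
    have hk' := k'.2
    have h2 : ((b.1 : Kˣ) : K) • ((((s b : U1 K q) : Kˣ)⁻¹ : Kˣ) : K) • ((k.1 : GL (Fin n) K) : Matrix (Fin n) (Fin n) K) =
        ((b'.1 : Kˣ) : K) • ((((s b' : U1 K q) : Kˣ)⁻¹ : Kˣ) : K) • ((k'.1 : GL (Fin n) K) : Matrix (Fin n) (Fin n) K) := by
      have h3 := congrArg (fun g : GL (Fin n) K => (g : Matrix (Fin n) (Fin n) K).map σ) h1
      simp only [scal_mul_val, map_smul_matrix, hk, hk', hsσ, smul_smul] at h3
      simpa only [smul_smul] using h3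
    have h4 : ((b.1 : Kˣ) : K) = ((b'.1 : Kˣ) : K) := by
      have h5 : ((((s b : U1 K q) : Kˣ)⁻¹ : Kˣ) : K) • ((k.1 : GL (Fin n) K) : Matrix (Fin n) (Fin n) K) =
          ((((s b' : U1 K q) : Kˣ)⁻¹ : Kˣ) : K) • ((k'.1 : GL (Fin n) K) : Matrix (Fin n) (Fin n) K) := by
        have := congrArg (fun g : GL (Fin n) K => (g : Matrix (Fin n) (Fin n) K)) h1
        simpa only [scal_mul_val] using this
      rw [h5] at h2
      exact smul_left_cancel_GL hn (scal ((s b' : U1 K q) : Kˣ)⁻¹ * k'.1.1) (by simpa only [scal_mul_val] using h2)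
    have hbb : b = b' := by
      apply Subtype.ext
      exact Units.ext h4
    subst hbb
    have hkk : k = k' := by
      apply Subtype.ext
      apply Subtype.ext
      exact mul_left_cancel h1
    subst hkk
    rfl
  · rintro ⟨⟨g, hgU⟩, c, hc, hg⟩
    obtain ⟨i, j, hij⟩ := exists_entry_ne_zero hn g
    have hentry : ∀ i j, σ ((g : Matrix (Fin n) (Fin n) K) i j) = c * (g : Matrix (Fin n) (Fin n) K) i j := by
      intro i j
      have := congrFun (congrFun hg i) j
      simpa using this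
    have hN := pnorm_eq_one_of_fixed σ hσr hij (hentry i j)
    obtain ⟨d₀, hd₀, hcd⟩ := exists_of_pnorm_eq_one σ hr hord hN
    -- `c` has norm one
    have hσq : ∀ x : K, σ (x ^ q) = (σ x) ^ q := fun x => map_pow σ x q
    have hcnorm : c ^ (q + 1) = 1 := by
      have h1 := relation_entry hK (A := (g : Matrix (Fin n) (Fin n) K)) (fun u v => hgU u v) j j
      rw [if_pos rfl] at h1
      have h2 := congrArg σ h1
      rw [map_sum, map_one] at h2
      have h3 : ∑ i, σ ((g : Matrix (Fin n) (Fin n) K) i j * (g : Matrix (Fin n) (Fin n) K) i j ^ q) =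
          c ^ (q + 1) * ∑ i, (g : Matrix (Fin n) (Fin n) K) i j * (g : Matrix (Fin n) (Fin n) K) i j ^ q := by
        rw [Finset.mul_sum]
        refine Finset.sum_congr rfl fun i _ => ?_
        rw [map_mul, hσq, hentry, mul_pow, pow_succ]
        ring
      rw [h3, h1, mul_one] at h2
      exact h2
    -- the norm of `d₀`
    have hσne : σ d₀ ≠ 0 := by simpa using hd₀
    have hefix : σ (d₀ ^ (q + 1)) = d₀ ^ (q + 1) := by
      have h1 : (c * σ d₀) ^ (q + 1) = d₀ ^ (q + 1) := by rw [hcd]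
      rw [mul_pow, hcnorm, one_mul] at h1
      rw [map_pow, h1]
    have he0 : d₀ ^ (q + 1) ≠ 0 := pow_ne_zero _ hd₀
    let e₀ : fixedF σ := ⟨d₀ ^ (q + 1), hefix⟩
    have he₀0 : e₀ ≠ 0 := fun h0 => he0 (congrArg Subtype.val h0)
    have hq2 : ∀ x : K, (x ^ q) ^ q = x := pow_pow_self hK
    have he₀q : e₀ ^ q₀ = e₀ := by
      apply Subtype.ext
      show (d₀ ^ (q + 1)) ^ q₀ = d₀ ^ (q + 1)
      rw [← pow_eq_of_fixed σ hK₀ hodd hq hefix]
      rw [← pow_mul, mul_comm, pow_mul, pow_succ, hq2, pow_succ, mul_comm]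
    obtain ⟨t, ht0, ht⟩ := exists_norm_eq hK₀ (inv_ne_zero he₀0) (by rw [inv_pow, he₀q])
    have ht' : (t : K) ^ (q + 1) = (d₀ ^ (q + 1))⁻¹ := by
      have h1 : (t : K) ^ (q₀ + 1) = (d₀ ^ (q + 1))⁻¹ := congrArg Subtype.val ht
      rw [pow_succ, pow_eq_of_fixed σ hK₀ hodd hq t.2, ← pow_succ]
      exact h1
    have ht0' : (t : K) ≠ 0 := fun h0 => ht0 (Subtype.ext h0)
    let d : K := d₀ * t
    have hd0 : d ≠ 0 := mul_ne_zero hd₀ ht0'
    have hdn : d ^ (q + 1) = 1 := by
      simp only [d, mul_pow]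
      rw [ht']
      exact mul_inv_cancel₀ he0
    have hcdd : c * σ d = d := by
      simp only [d, map_mul]
      have : σ (t : K) = t := t.2
      rw [this, ← mul_assoc, hcd]
    let du : U1 K q := ⟨Units.mk0 d hd0, mem_U1.2 hdn⟩
    let cu : Kˣ := Units.mk0 c hc
    have hcu : T σ du = cu := by
      apply Units.ext
      show ((coB σ (Units.mk0 d hd0) : Kˣ) : K) = c
      rw [coB_val]
      show d / σ d = c
      have h3 : σ d ≠ 0 := by simpa using hd0
      field_simp
      linear_combination -hcdd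
    let b : (T σ (q := q)).range := ⟨cu, du, hcu⟩
    have hsb' := hsb b
    have hfix : (((scal ((s b : U1 K q) : Kˣ) * g : GL (Fin n) K) : Matrix (Fin n) (Fin n) K)).map σ =
        ((scal ((s b : U1 K q) : Kˣ) * g : GL (Fin n) K) : Matrix (Fin n) (Fin n) K) := by
      rw [scal_mul_val, map_smul_matrix, hg, smul_smul]
      congr 1
      rw [mul_comm]
      exact hsb'
    refine ⟨(b, ⟨⟨scal ((s b : U1 K q) : Kˣ) * g, (GU n K q).mul_mem (scal_mem_GU (s b)) hgU⟩, hfix⟩), ?_⟩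
    apply Subtype.ext
    apply Subtype.ext
    show scal ((s b : U1 K q) : Kˣ)⁻¹ * (scal ((s b : U1 K q) : Kˣ) * g) = g
    have h5 : scal (n := n) ((s b : U1 K q) : Kˣ)⁻¹ * scal ((s b : U1 K q) : Kˣ) = (1 : GL (Fin n) K) := by
      apply Units.ext
      ext a c
      simp [scal]
    rw [← mul_assoc, h5, one_mul]

/-- Centraliser of a field automorphism of odd prime order in PGU_n(q): let q = q₀^r with r an odd prime, K the field with q² elements and σ a field automorphism of K of order r (fixed field of order q₀²). The elements g of GU_n(q) whose entrywise image under σ is a scalar multiple of g — those whose coset modulo the q + 1 unitary scalars is fixed by σ — number (q + 1)/(q₀ + 1) · |GU_n(q₀)|; equivalently the centraliser in PGU_n(q) of the induced automorphism has the order of PGU_n(q₀). -/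
theorem result {K : Type*} [Field K] [Fintype K] {q₀ q r n : ℕ} (hr : r.Prime) (hr2 : r ≠ 2) (hn : 1 ≤ n) (hq : q = q₀ ^ r) (hK : Fintype.card K = q ^ 2) (σ : K ≃+* K) (hσ : orderOf σ = r) : (Nat.card {g : ↥(Cfsg.GU n K q) // ∃ c : K, c ≠ 0 ∧ ((g : GL (Fin n) K) : Matrix (Fin n) (Fin n) K).map σ = c • ((g : GL (Fin n) K) : Matrix (Fin n) (Fin n) K)} : ℤ) = ((q + 1) / (q₀ + 1) : ℕ) * ((q₀ : ℤ) ^ (n * (n - 1) / 2) * ∏ i : Fin n, ((q₀ : ℤ) ^ ((i : ℕ) + 1) - (-1) ^ ((i : ℕ) + 1))) := by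
  classical
  have hodd : Odd r := hr.odd_of_ne_two hr2
  have hcard := card_eq_card_fixedF_pow σ hσ
  rw [Nat.card_eq_fintype_card, hK, hq, ← pow_mul, mul_comm r 2, pow_mul] at hcard
  have hq₀ : Nat.card (fixedF σ) = q₀ ^ 2 := (Nat.pow_left_injective (n := r) hr.pos.ne' hcard).symm
  letI : Fintype (fixedF σ) := Fintype.ofFinite _
  have hK₀ : Fintype.card (fixedF σ) = q₀ ^ 2 := by rw [← hq₀, Nat.card_eq_fintype_card]
  have h1 := card_range_T σ hK₀ hK hodd hq
  rw [card_main σ hK₀ hK hodd hq hr.pos hσ hn, card_fix σ hK₀ hK hodd hq, Nat.cast_mul, card_GU_int hK₀]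
  congr 2
  rw [← h1, Nat.mul_div_cancel _ (by omega)]

end Cfsg.Agent.S2677
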