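import Mathlib
import Cfsg.Statements.S2678
import Cfsg.Agent.Lib.RestrScal

set_option autoImplicit false
open Cfsg

namespace Cfsg.Agent.S2678

open Cfsg.Agent.Lib.RestrScal Cfsg.Agent.Lib.SympForm Cfsg.Agent.Lib.UnitaryBasic Matrix Module

set_option linter.unusedSectionVars false
set_option linter.unusedSimpArgs false

variable {F K : Type*} [Field F] [Fintype F] [Field K] [Fintype K] [Algebra F K] {q : ℕ}

/-- The index equivalence. -/
def idx (a : ℕ) : Fin a ⊕ Fin a ≃ Fin (2 * a) :=
  finSumFinEquiv.trans (finCongr (two_mul a).symm)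

/-- The coordinates: `1, θ` on the first half, the dual basis on the second. -/
noncomputable def E (hK : Fintype.card K = q ^ 2) (θ : K) (a : ℕ) :
    (Fin (2 * a) ⊕ Fin (2 * a) → F) →ₗ[F] (Fin a ⊕ Fin a → K) where
  toFun z := Sum.elim
    (fun j => algebraMap F K (z (.inl (idx a (.inl j)))) + algebraMap F K (z (.inl (idx a (.inr j)))) * θ)
    (fun j => lam hK θ * (algebraMap F K (z (.inr (idx a (.inr j)))) -
        algebraMap F K (z (.inr (idx a (.inl j)))) * sigma hK θ))
  map_add' x y := by
    funext s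
    rcases s with j | j
    · simp only [Sum.elim_inl, Pi.add_apply, map_add]
      ring
    · simp only [Sum.elim_inr, Pi.add_apply, map_add]
      ring
  map_smul' c x := by
    funext s
    rcases s with j | j
    · simp only [Sum.elim_inl, Pi.smul_apply, smul_eq_mul, map_mul, RingHom.id_apply, Algebra.smul_def]
      ring
    · simp only [Sum.elim_inr, Pi.smul_apply, smul_eq_mul, map_mul, RingHom.id_apply, Algebra.smul_def]
      ring

theorem E_inl (hK : Fintype.card K = q ^ 2) (θ : K) (a : ℕ) (z : Fin (2 * a) ⊕ Fin (2 * a) → F) (j : Fin a) :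
    E hK θ a z (.inl j) =
      algebraMap F K (z (.inl (idx a (.inl j)))) + algebraMap F K (z (.inl (idx a (.inr j)))) * θ := rfl

theorem E_inr (hK : Fintype.card K = q ^ 2) (θ : K) (a : ℕ) (z : Fin (2 * a) ⊕ Fin (2 * a) → F) (j : Fin a) :
    E hK θ a z (.inr j) = lam hK θ * (algebraMap F K (z (.inr (idx a (.inr j)))) -
        algebraMap F K (z (.inr (idx a (.inl j)))) * sigma hK θ) := rfl

theorem E_injective (hF : Fintype.card F = q) (hK : Fintype.card K = q ^ 2) {θ : K}
    (hθ : sigma hK θ ≠ θ) (a : ℕ) : Function.Injective (E (F := F) hK θ a) := by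
  rw [← LinearMap.ker_eq_bot, LinearMap.ker_eq_bot']
  intro z hz
  have h1 : ∀ j, z (.inl (idx a (.inl j))) = 0 ∧ z (.inl (idx a (.inr j))) = 0 := by
    intro j
    have := congrFun hz (.inl j)
    exact eq_zero_of_add_mul hF hK hθ this
  have hlam : lam hK θ ≠ 0 := inv_ne_zero (sub_ne_zero.2 hθ.symm)
  have hθ' : sigma hK (sigma hK θ) ≠ sigma hK θ := by
    rw [sigma_sigma]
    exact hθ.symm
  have h2 : ∀ j, z (.inr (idx a (.inr j))) = 0 ∧ z (.inr (idx a (.inl j))) = 0 := by
    intro j
    have h3 := congrFun hz (.inr j)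
    rw [E_inr] at h3
    have h4 := (mul_eq_zero.1 h3).resolve_left hlam
    have h5 : algebraMap F K (z (.inr (idx a (.inr j)))) +
        algebraMap F K (-z (.inr (idx a (.inl j)))) * sigma hK θ = 0 := by
      rw [map_neg]
      linear_combination h4
    obtain ⟨h6, h7⟩ := eq_zero_of_add_mul hF hK hθ' h5
    exact ⟨h6, neg_eq_zero.1 h7⟩
  funext s
  rcases s with i | i
  · obtain ⟨t, rfl⟩ := (idx a).surjective i
    rcases t with j | j
    · exact (h1 j).1
    · exact (h1 j).2
  · obtain ⟨t, rfl⟩ := (idx a).surjective i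
    rcases t with j | j
    · exact (h2 j).2
    · exact (h2 j).1

/-- The equivalence. -/
noncomputable def e (hF : Fintype.card F = q) (hK : Fintype.card K = q ^ 2) {θ : K}
    (hθ : sigma hK θ ≠ θ) (a : ℕ) : (Fin (2 * a) ⊕ Fin (2 * a) → F) ≃ₗ[F] (Fin a ⊕ Fin a → K) :=
  (E hK θ a).linearEquivOfInjective (E_injective hF hK hθ a) (by
    rw [finrank_sum, finrank_pi_K hF hK]
    simp only [Fintype.card_sum, Fintype.card_fin]
    ring)

/-- The symplectic form over `F` is the trace of the symplectic form over `K`. -/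
theorem symp_trace (hF : Fintype.card F = q) (hK : Fintype.card K = q ^ 2) {θ : K}
    (hθ : sigma hK θ ≠ θ) (a : ℕ) (x y : Fin (2 * a) ⊕ Fin (2 * a) → F) :
    algebraMap F K (sympForm (2 * a) F x y) =
      sympForm a K (e hF hK hθ a x) (e hF hK hθ a y) +
        sigma hK (sympForm a K (e hF hK hθ a x) (e hF hK hθ a y)) := by
  have hl := lam_mul hK hθ
  rw [sympForm_apply, sympForm_apply, map_sum, map_sum, ← Finset.sum_add_distrib,
    ← (idx a).sum_comp, Fintype.sum_sum_type, ← Finset.sum_add_distrib]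
  refine Finset.sum_congr rfl fun j _ => ?_
  show _ = (E hK θ a x (.inr j) * E hK θ a y (.inl j) - E hK θ a x (.inl j) * E hK θ a y (.inr j)) +
    sigma hK (E hK θ a x (.inr j) * E hK θ a y (.inl j) - E hK θ a x (.inl j) * E hK θ a y (.inr j))
  simp only [E_inl, E_inr, map_sub, map_add, map_mul, sigma_algebraMap hF, sigma_lam, sigma_sigma]
  linear_combination (-(algebraMap F K (x (.inr (idx a (.inl j)))) * algebraMap F K (y (.inl (idx a (.inl j)))) +
    algebraMap F K (x (.inr (idx a (.inr j)))) * algebraMap F K (y (.inl (idx a (.inr j)))) -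
    algebraMap F K (x (.inl (idx a (.inl j)))) * algebraMap F K (y (.inr (idx a (.inl j)))) -
    algebraMap F K (x (.inl (idx a (.inr j)))) * algebraMap F K (y (.inr (idx a (.inr j)))))) * hl

/-- Field-extension embedding of symplectic groups: for a field K with q² elements and a field F with q elements there is an injective homomorphism Sp_2a(K) → Sp_4a(F). -/
theorem result {K F : Type*} [Field K] [Fintype K] [Field F] [Fintype F] {q : ℕ} (hK : Fintype.card K = q ^ 2) (hF : Fintype.card F = q) (a : ℕ) : ∃ φ : ↥(Matrix.symplecticGroup (Fin a) K) →* ↥(Matrix.symplecticGroup (Fin (2 * a)) F), Function.Injective φ := by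
  obtain ⟨ι⟩ := exists_ringHom hF hK
  letI : Algebra F K := ι.toAlgebra
  obtain ⟨θ, hθ⟩ := exists_sigma_ne hK
  let e' := e hF hK hθ a
  have hmem : ∀ g : ↥(Matrix.symplecticGroup (Fin a) K),
      R e' (g : Matrix (Fin a ⊕ Fin a) (Fin a ⊕ Fin a) K) ∈ Matrix.symplecticGroup (Fin (2 * a)) F := by
    intro g
    rw [mem_symplecticGroup_iff_preserves]
    intro x y
    apply (algebraMap F K).injective
    rw [symp_trace hF hK hθ, symp_trace hF hK hθ]
    have h1 := apply_R_mulVec e' (g : Matrix (Fin a ⊕ Fin a) (Fin a ⊕ Fin a) K) x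
    have h2 := apply_R_mulVec e' (g : Matrix (Fin a ⊕ Fin a) (Fin a ⊕ Fin a) K) y
    have h3 := sp_preserves g (e' x) (e' y)
    have h4 : sympForm a K (e' (R e' (g : Matrix (Fin a ⊕ Fin a) (Fin a ⊕ Fin a) K) *ᵥ x))
        (e' (R e' (g : Matrix (Fin a ⊕ Fin a) (Fin a ⊕ Fin a) K) *ᵥ y)) = sympForm a K (e' x) (e' y) := by
      rw [h1, h2]
      exact h3
    exact congrArg (fun z => z + sigma hK z) h4
  refine ⟨{ toFun := fun g => ⟨R e' (g : Matrix (Fin a ⊕ Fin a) (Fin a ⊕ Fin a) K), hmem g⟩
            map_one' := ?_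
            map_mul' := ?_ }, ?_⟩
  · apply Subtype.ext
    exact map_one (R e')
  · intro a b
    apply Subtype.ext
    exact map_mul (R e') _ _
  · intro a b hab
    apply Subtype.ext
    exact R_injective e' (congrArg Subtype.val hab)

end Cfsg.Agent.S2678
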