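import Mathlib
import Cfsg.Statements.S2679
import Cfsg.Agent.Lib.RestrHerm
import Cfsg.Agent.Lib.OrthGroup

set_option autoImplicit false
open Cfsg

open scoped MatrixGroups

namespace Cfsg.Agent.S2679

open Cfsg.Agent.Lib.RestrScal Cfsg.Agent.Lib.RestrHerm Cfsg.Agent.Lib.UnitaryBasic Matrix Module
open Cfsg.Agent.Lib.OrthoCount

set_option linter.unusedSectionVars false
set_option linter.unusedSimpArgs false

variable {F K : Type*} [Field F] [Fintype F] [Field K] [Fintype K] [Algebra F K] {q : ℕ}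

/-- Splitting the anisotropic plane over `K`. -/
noncomputable def P (τ τ' : K) (n : ℕ) :
    ((Fin n ⊕ Fin n) ⊕ Fin 2 → K) →ₗ[K] (Fin (n + 1) ⊕ Fin (n + 1) → K) where
  toFun v := Sum.elim
    (Fin.snoc (fun i => v (.inl (.inl i))) (v (.inr 0) - τ * v (.inr 1)))
    (Fin.snoc (fun i => v (.inl (.inr i))) (v (.inr 0) - τ' * v (.inr 1)))
  map_add' x y := by
    funext s
    rcases s with i | i <;> refine Fin.lastCases ?_ (fun j => ?_) i <;>
      simp only [Sum.elim_inl, Sum.elim_inr, Fin.snoc_last, Fin.snoc_castSucc, Pi.add_apply] <;> ring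
  map_smul' c x := by
    funext s
    rcases s with i | i <;> refine Fin.lastCases ?_ (fun j => ?_) i <;>
      simp only [Sum.elim_inl, Sum.elim_inr, Fin.snoc_last, Fin.snoc_castSucc, Pi.smul_apply,
        smul_eq_mul, RingHom.id_apply] <;> ring

theorem P_norm (τ τ' : K) (n : ℕ) (a c : K) (h1 : τ + τ' = -a) (h2 : τ * τ' = c)
    (v : (Fin n ⊕ Fin n) ⊕ Fin 2 → K) :
    Cfsg.quadFormPlus (n + 1) K (P τ τ' n v) = Cfsg.quadFormMinus n K a c v := by
  have h3 : ∀ i : Fin n, P τ τ' n v (.inl i.castSucc) = v (.inl (.inl i)) := fun i => by simp [P]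
  have h4 : ∀ i : Fin n, P τ τ' n v (.inr i.castSucc) = v (.inl (.inr i)) := fun i => by simp [P]
  have h5 : P τ τ' n v (.inl (Fin.last n)) = v (.inr 0) - τ * v (.inr 1) := by simp [P]
  have h6 : P τ τ' n v (.inr (Fin.last n)) = v (.inr 0) - τ' * v (.inr 1) := by simp [P]
  simp only [Cfsg.quadFormPlus, Cfsg.quadFormMinus]
  rw [Fin.sum_univ_castSucc]
  simp only [h3, h4, h5, h6]
  congr 1
  linear_combination (-(v (.inr 0) * v (.inr 1))) * h1 + (v (.inr 1)) ^ 2 * h2

theorem P_injective {τ τ' : K} (hne : τ' ≠ τ) (n : ℕ) : Function.Injective (P τ τ' n) := by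
  rw [← LinearMap.ker_eq_bot, LinearMap.ker_eq_bot']
  intro v hv
  have h1 : ∀ i : Fin n, v (.inl (.inl i)) = 0 := by
    intro i
    have := congrFun hv (.inl i.castSucc)
    simpa [P] using this
  have h2 : ∀ i : Fin n, v (.inl (.inr i)) = 0 := by
    intro i
    have := congrFun hv (.inr i.castSucc)
    simpa [P] using this
  have h3 : v (.inr 0) - τ * v (.inr 1) = 0 := by
    have := congrFun hv (.inl (Fin.last n))
    simpa [P] using this
  have h4 : v (.inr 0) - τ' * v (.inr 1) = 0 := by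
    have := congrFun hv (.inr (Fin.last n))
    simpa [P] using this
  have h5 : (τ - τ') * v (.inr 1) = 0 := by linear_combination h4 - h3
  have h6 : v (.inr 1) = 0 := (mul_eq_zero.1 h5).resolve_left (sub_ne_zero.2 hne.symm)
  have h7 : v (.inr 0) = 0 := by
    rw [h6] at h3
    simpa using h3
  funext s
  rcases s with (i | i) | i
  · exact h1 i
  · exact h2 i
  · fin_cases i
    · exact h7
    · exact h6

/-- The extension of a form to `K`-points. -/
theorem qMinus_ext (n : ℕ) (a c : F) (u : (Fin n ⊕ Fin n) ⊕ Fin 2 → F) :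
    qMinus n (algebraMap F K a) (algebraMap F K c) (fun s => algebraMap F K (u s)) =
      algebraMap F K (Cfsg.quadFormMinus n F a c u) := by
  rw [qMinus_apply]
  simp only [Cfsg.quadFormMinus, map_add, map_mul, map_pow, map_sum]

/-- Isometries extend to `K`-points. -/
theorem pres (hF : Fintype.card F = q) (hK : Fintype.card K = q ^ 2) (n : ℕ) (a c : F)
    (g : Matrix ((Fin n ⊕ Fin n) ⊕ Fin 2) ((Fin n ⊕ Fin n) ⊕ Fin 2) F)
    (hg : ∀ u, Cfsg.quadFormMinus n F a c (g *ᵥ u) = Cfsg.quadFormMinus n F a c u)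
    (y : (Fin n ⊕ Fin n) ⊕ Fin 2 → K) :
    Cfsg.quadFormMinus n K (algebraMap F K a) (algebraMap F K c) (g.map (algebraMap F K) *ᵥ y) =
      Cfsg.quadFormMinus n K (algebraMap F K a) (algebraMap F K c) y := by
  classical
  open Cfsg.Agent.Lib.OrthGroup in
  obtain ⟨θ, hθ⟩ := exists_sigma_ne hK
  choose u₁ u₂ hu using fun s => exists_decomp hF hK hθ (y s)
  set QK := qMinus n (algebraMap F K a) (algebraMap F K c) with hQK
  have hext : ∀ u : (Fin n ⊕ Fin n) ⊕ Fin 2 → F, QK (fun s => algebraMap F K (u s)) =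
      algebraMap F K (Cfsg.quadFormMinus n F a c u) := fun u => qMinus_ext n a c u
  have key : ∀ v₁ v₂ : (Fin n ⊕ Fin n) ⊕ Fin 2 → F,
      QK (fun s => algebraMap F K (v₁ s) + algebraMap F K (v₂ s) * θ) =
        algebraMap F K (Cfsg.quadFormMinus n F a c v₁) +
          θ * θ * algebraMap F K (Cfsg.quadFormMinus n F a c v₂) +
          θ * (algebraMap F K (Cfsg.quadFormMinus n F a c (v₁ + v₂)) -
            algebraMap F K (Cfsg.quadFormMinus n F a c v₁) -
            algebraMap F K (Cfsg.quadFormMinus n F a c v₂)) := by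
    intro v₁ v₂
    have e1 : (fun s => algebraMap F K (v₁ s) + algebraMap F K (v₂ s) * θ) =
        (fun s => algebraMap F K (v₁ s)) + θ • (fun s => algebraMap F K (v₂ s)) := by
      funext s
      simp [mul_comm]
    have e2 : (fun s => algebraMap F K ((v₁ + v₂) s)) =
        (fun s => algebraMap F K (v₁ s)) + (fun s => algebraMap F K (v₂ s)) := by
      funext s
      simp
    rw [e1, Cfsg.Agent.Lib.OrthGroup.Q_add, Cfsg.Agent.Lib.OrthGroup.Q_smul, map_smul, hext, hext]
    rw [← hext (v₁ + v₂), e2, Cfsg.Agent.Lib.OrthGroup.Q_add, hext, hext]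
    simp only [smul_eq_mul]
    ring
  have hy : y = fun s => algebraMap F K (u₁ s) + algebraMap F K (u₂ s) * θ := by
    funext s
    exact hu s
  have hgy : g.map (algebraMap F K) *ᵥ y = fun s => algebraMap F K ((g *ᵥ u₁) s) +
      algebraMap F K ((g *ᵥ u₂) s) * θ := by
    rw [hy]
    have e1 : (fun s => algebraMap F K (u₁ s) + algebraMap F K (u₂ s) * θ) =
        (fun s => algebraMap F K (u₁ s)) + θ • (fun s => algebraMap F K (u₂ s)) := by
      funext s
      simp [mul_comm]
    rw [e1, Matrix.mulVec_add, Matrix.mulVec_smul]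
    funext s
    have h1 := RingHom.map_mulVec (algebraMap F K) g u₁ s
    have h2 := RingHom.map_mulVec (algebraMap F K) g u₂ s
    simp only [Pi.add_apply, Pi.smul_apply, smul_eq_mul]
    rw [h1, h2, mul_comm]
    rfl
  have hcoe : ∀ w, Cfsg.quadFormMinus n K (algebraMap F K a) (algebraMap F K c) w = QK w := by
    intro w
    rw [hQK, qMinus_apply]
  rw [hcoe, hcoe, hgy, key, hy, key, hg, hg]
  have hadd : g *ᵥ u₁ + g *ᵥ u₂ = g *ᵥ (u₁ + u₂) := (Matrix.mulVec_add g u₁ u₂).symm
  rw [hadd, hg]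

/-- An elliptic orthogonal group embeds in the hyperbolic orthogonal group of the same dimension over the quadratic extension: for a field F with q elements and a field K with q² elements there is an injective homomorphism from O⁻_2m(F) (isometries of Σ_(j<m−1) x_j y_j + z₁² + a z₁z₂ + c z₂², binary part anisotropic) to O⁺_2m(K) (isometries of Σ_(j<m) x_j y_j over K). -/
theorem core (hF : Fintype.card F = q) (hK : Fintype.card K = q ^ 2) (n : ℕ) (a c : F)
    (hac : ∀ z₁ z₂ : F, z₁ ^ 2 + a * z₁ * z₂ + c * z₂ ^ 2 = 0 → z₁ = 0 ∧ z₂ = 0) :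
    ∃ φ : ↥(Cfsg.isometryGroup F (Cfsg.quadFormMinus n F a c)) →*
        ↥(Cfsg.isometryGroup K (Cfsg.quadFormPlus (n + 1) K)), Function.Injective φ := by
  classical
  obtain ⟨τ, hτ⟩ := exists_root_of_anisotropic hF hK hac
  obtain ⟨hτne, hτsum, hτprod⟩ := root_facts hF hK hac hτ
  let eP : ((Fin n ⊕ Fin n) ⊕ Fin 2 → K) ≃ₗ[K] (Fin (n + 1) ⊕ Fin (n + 1) → K) :=
    (P τ (sigma hK τ) n).linearEquivOfInjective (P_injective hτne n) (by
      rw [Module.finrank_fintype_fun_eq_card, Module.finrank_fintype_fun_eq_card]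
      simp only [Fintype.card_sum, Fintype.card_fin]
      ring)
  have hePapply : ∀ v, eP v = P τ (sigma hK τ) n v := fun v => rfl
  let e := eP.symm
  have hnorm : ∀ x, Cfsg.quadFormPlus (n + 1) K x =
      Cfsg.quadFormMinus n K (algebraMap F K a) (algebraMap F K c) (e x) := by
    intro x
    rw [← P_norm τ (sigma hK τ) n _ _ hτsum hτprod, ← hePapply, LinearEquiv.apply_symm_apply]
  have hmem : ∀ g : ↥(Cfsg.isometryGroup F (Cfsg.quadFormMinus n F a c)),
      RGL e (Matrix.GeneralLinearGroup.map (algebraMap F K) g.1) ∈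
        Cfsg.isometryGroup K (Cfsg.quadFormPlus (n + 1) K) := by
    intro g
    rw [Cfsg.Agent.Lib.OrthMatrix.mem_isometryGroup]
    intro u
    rw [hnorm, hnorm, RGL_val, apply_R_mulVec]
    exact pres hF hK n a c _ (fun u => (Cfsg.Agent.Lib.OrthMatrix.mem_isometryGroup _ _).1 g.2 u) _
  refine ⟨{ toFun := fun g => ⟨RGL e (Matrix.GeneralLinearGroup.map (algebraMap F K) g.1), hmem g⟩
            map_one' := ?_
            map_mul' := ?_ }, ?_⟩
  · apply Subtype.ext
    simp
  · intro a b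
    apply Subtype.ext
    simp
  · intro a b hab
    apply Subtype.ext
    have h1 : Matrix.GeneralLinearGroup.map (algebraMap F K) a.1 = Matrix.GeneralLinearGroup.map (algebraMap F K) b.1 :=
      RGL_injective e (congrArg Subtype.val hab)
    ext i j
    have h2 := congrArg (fun z : GL _ K => (z : Matrix _ _ K) i j) h1
    simp only [Matrix.GeneralLinearGroup.map_apply] at h2
    exact (algebraMap F K).injective h2

theorem result {F K : Type*} [Field F] [Fintype F] [Field K] [Fintype K] {q : ℕ} (hF : Fintype.card F = q) (hK : Fintype.card K = q ^ 2) {m : ℕ} (hm : 1 ≤ m) (a c : F) (hac : ∀ z₁ z₂ : F, z₁ ^ 2 + a * z₁ * z₂ + c * z₂ ^ 2 = 0 → z₁ = 0 ∧ z₂ = 0) : ∃ φ : ↥(Cfsg.isometryGroup F (Cfsg.quadFormMinus (m - 1) F a c)) →* ↥(Cfsg.isometryGroup K (Cfsg.quadFormPlus m K)), Function.Injective φ := by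
  obtain ⟨n, rfl⟩ : ∃ n, m = n + 1 := ⟨m - 1, by omega⟩
  obtain ⟨ι⟩ := exists_ringHom hF hK
  letI : Algebra F K := ι.toAlgebra
  exact core hF hK n a c hac

end Cfsg.Agent.S2679
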