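import Cfsg.Statements.S2680
import Mathlib
import Cfsg.Agent.Lib.CentSp

set_option autoImplicit false
open Cfsg

namespace Cfsg.Agent.S2680

/-- Centraliser order of an involution t of Sp_2m(q), q even, with s = rank(t − 1) odd (type b_s): |C(t)| = q^(2ms − (3s² − s)/2) · |Sp_(s−1)(q)| · |Sp_(2m−2s)(q)|, where |Sp_2k(q)| = q^(k²) Π_(i=1)^k (q^(2i) − 1). -/
theorem result {F : Type*} [Field F] [Fintype F] [CharP F 2] {q : ℕ} (hF : Fintype.card F = q) {m s : ℕ} (t : Matrix.symplecticGroup (Fin m) F) (ht : t ^ 2 = 1) (hs : ((t : Matrix (Fin m ⊕ Fin m) (Fin m ⊕ Fin m) F) - 1).rank = s) (hodd : Odd s) : Nat.card ↥(Subgroup.centralizer ({t} : Set ↥(Matrix.symplecticGroup (Fin m) F))) = q ^ (2 * m * s - (3 * s ^ 2 - s) / 2) * ((q : ℕ) ^ (((s - 1) / 2) ^ 2) * ∏ i : Fin ((s - 1) / 2), (q ^ (2 * ((i : ℕ) + 1)) - 1)) * ((q : ℕ) ^ ((m - s) ^ 2) * ∏ i : Fin (m - s), (q ^ (2 * ((i : ℕ) + 1)) - 1)) := by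
  open Cfsg.Agent.Lib.CentSp Cfsg.Agent.Lib.Inv2Conv Cfsg.Agent.Lib.Inv2Count Cfsg.Agent.Lib.Inv2 Cfsg.Agent.Lib.CentFrameCount in
  subst hF
  have ht1 : t ≠ 1 := by
    rintro rfl
    have : ((1 : Matrix.symplecticGroup (Fin m) F) : Matrix (Fin m ⊕ Fin m) (Fin m ⊕ Fin m) F) - 1 = 0 := by
      rw [sub_eq_zero]
      rfl
    rw [this, Matrix.rank_zero] at hs
    subst hs
    simp at hodd
  have hord := order_of t ht ht1
  have hN := sp_h1 t hord
  have hfr : Module.finrank F (LinearMap.range (Nx (eS t))) = s := by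
    rw [finrank_Nx_S, hs]
  have hna : ∃ v, QuadraticMap.polarBilin (Cfsg.Agent.Lib.OrthoCount.qPlus m F) v (Nx (eS t) v) ≠ 0 := by
    by_contra hc
    push Not at hc
    obtain ⟨r, x, hr, -⟩ := exists_data_alt nd_plus hN (pB_comm _) (pB_self _) hc
    rw [hfr] at hr
    rw [← hr] at hodd
    exact (Nat.not_odd_iff_even.2 (even_two_mul r)) hodd
  obtain ⟨r, rfl⟩ := hodd
  rw [cent_nonalt t hord hna hfr, card_orth_odd]
  have e : (2 * r + 1 - 1) / 2 = r := by omega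
  rw [e, Finset.prod_range (fun i => Fintype.card F ^ (2 * (i + 1)) - 1), Finset.prod_range (fun i => Fintype.card F ^ (2 * (i + 1)) - 1)]

end Cfsg.Agent.S2680
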