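import Cfsg.Statements.S2682
import Mathlib
import Cfsg.Agent.Lib.CentSp

set_option autoImplicit false
open Cfsg

namespace Cfsg.Agent.S2682

/-- Centraliser order of an involution t of Sp_2m(q), q even, with s = rank(t − 1) even and f(v, tv) ≠ 0 for some v, f the symplectic form (type c_s): |C(t)| = q^(2ms − (3s² − 3s)/2 − 1) · |Sp_(s−2)(q)| · |Sp_(2m−2s)(q)|. -/
theorem result {F : Type*} [Field F] [Fintype F] [CharP F 2] {q : ℕ} (hF : Fintype.card F = q) {m s : ℕ} (t : Matrix.symplecticGroup (Fin m) F) (ht : t ^ 2 = 1) (hs : ((t : Matrix (Fin m ⊕ Fin m) (Fin m ⊕ Fin m) F) - 1).rank = s) (heven : Even s) (hna : ∃ v : Fin m ⊕ Fin m → F, Cfsg.sympForm m F v ((t : Matrix (Fin m ⊕ Fin m) (Fin m ⊕ Fin m) F).mulVec v) ≠ 0) : Nat.card ↥(Subgroup.centralizer ({t} : Set ↥(Matrix.symplecticGroup (Fin m) F))) = q ^ (2 * m * s - (3 * s ^ 2 - 3 * s) / 2 - 1) * ((q : ℕ) ^ (((s -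 2) / 2) ^ 2) * ∏ i : Fin ((s - 2) / 2), (q ^ (2 * ((i : ℕ) + 1)) - 1)) * ((q : ℕ) ^ ((m - s) ^ 2) * ∏ i : Fin (m - s), (q ^ (2 * ((i : ℕ) + 1)) - 1)) := by
  open Cfsg.Agent.Lib.CentSp Cfsg.Agent.Lib.Inv2Conv Cfsg.Agent.Lib.Inv2Count Cfsg.Agent.Lib.Inv2 Cfsg.Agent.Lib.CentFrameCount in
  subst hF
  have ht1 : t ≠ 1 := by
    rintro rfl
    obtain ⟨v, hv⟩ := hna
    apply hv
    have : ((1 : Matrix.symplecticGroup (Fin m) F) : Matrix (Fin m ⊕ Fin m) (Fin m ⊕ Fin m) F) = 1 := rfl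
    rw [this, Matrix.one_mulVec]
    exact Cfsg.Agent.Lib.SpBasic.ω_self v
  have hord := order_of t ht ht1
  have hN := sp_h1 t hord
  have hfr : Module.finrank F (LinearMap.range (Nx (eS t))) = s := by
    rw [finrank_Nx_S, hs]
  have hna' : ∃ v, QuadraticMap.polarBilin (Cfsg.Agent.Lib.OrthoCount.qPlus m F) v (Nx (eS t) v) ≠ 0 := by
    obtain ⟨v, hv⟩ := hna
    exact ⟨v, by rw [← symp_eq]; exact hv⟩
  have hle := rank_le t hN
  rw [hfr] at hle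
  have hs0 : s ≠ 0 := by
    rintro rfl
    obtain ⟨v, hv⟩ := hna'
    apply hv
    have : Nx (eS t) v = 0 := by
      have h1 : LinearMap.range (Nx (eS t)) = ⊥ := Submodule.finrank_eq_zero.mp hfr
      have h2 := LinearMap.range_eq_bot.mp h1
      rw [h2]
      rfl
    rw [this, map_zero]
  obtain ⟨a, ha⟩ := heven
  obtain ⟨r, rfl⟩ : ∃ r, a = r + 1 := ⟨a - 1, by omega⟩
  have hs2 : s = 2 * r + 2 := by omega
  subst hs2
  rw [cent_nonalt t hord hna' hfr, card_orth_even]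
  have e : (2 * r + 2 - 2) / 2 = r := by omega
  rw [e, Finset.prod_range (fun i => Fintype.card F ^ (2 * (i + 1)) - 1), Finset.prod_range (fun i => Fintype.card F ^ (2 * (i + 1)) - 1)]
  have e1 : (3 * (2 * r + 2) ^ 2 - (2 * r + 2)) / 2 = 6 * (r + 1) ^ 2 - (r + 1) := by
    have : 3 * (2 * r + 2) ^ 2 = 2 * (6 * (r + 1) ^ 2) := by ring
    rw [this]
    have h3 : r + 1 ≤ 6 * (r + 1) ^ 2 := by nlinarith
    omega
  have e2 : (3 * (2 * r + 2) ^ 2 - 3 * (2 * r + 2)) / 2 = 6 * (r + 1) ^ 2 - 3 * (r + 1) := by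
    have : 3 * (2 * r + 2) ^ 2 = 2 * (6 * (r + 1) ^ 2) := by ring
    rw [this]
    have h3 : 3 * (r + 1) ≤ 6 * (r + 1) ^ 2 := by nlinarith
    omega
  rw [e1, e2]
  have hm : 6 * (r + 1) ^ 2 ≤ 2 * m * (2 * r + 2) := by nlinarith
  obtain ⟨X, hX⟩ : ∃ X, X = 2 * m * (2 * r + 2) := ⟨_, rfl⟩
  rw [← hX] at hm ⊢
  have hsq : (r + 1) ^ 2 = r ^ 2 + 2 * r + 1 := by ring
  have e3 : X - (6 * (r + 1) ^ 2 - (r + 1)) + (r + 1) ^ 2 = X - (6 * (r + 1) ^ 2 - 3 * (r + 1)) - 1 + r ^ 2 := by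
    have h3 : r + 1 ≤ 6 * (r + 1) ^ 2 := by nlinarith
    have h4 : 3 * (r + 1) ≤ 6 * (r + 1) ^ 2 := by nlinarith
    have h5 : 1 ≤ X - (6 * (r + 1) ^ 2 - 3 * (r + 1)) := by omega
    omega
  calc _ = Fintype.card F ^ (X - (6 * (r + 1) ^ 2 - (r + 1)) + (r + 1) ^ 2) * (∏ i : Fin r, (Fintype.card F ^ (2 * ((i : ℕ) + 1)) - 1)) *
        (Fintype.card F ^ ((m - (2 * r + 2)) ^ 2) * ∏ i : Fin (m - (2 * r + 2)), (Fintype.card F ^ (2 * ((i : ℕ) + 1)) - 1)) := by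
        rw [pow_add]
        ring
    _ = _ := by
        rw [e3, pow_add]
        ring

end Cfsg.Agent.S2682
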