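import Cfsg.Statements.S2683
import Mathlib
import Cfsg.Agent.Lib.CentOrth2

set_option autoImplicit false
open Cfsg

namespace Cfsg.Agent.S2683

/-- For the hyperbolic form Σ x_j y_j on F^(2m) over a finite field with q elements, q even (excluding m = 2 over the field of two elements), and an involution x of the orthogonal group with s = rank(x − 1) odd (type b_s; such x lie outside Ω): the elements of Ω (the commutator subgroup of the orthogonal group) commuting with x number q^(2m(s−1) − (3s² − 3s)/2) · |Sp_(s−1)(q)| · |Sp_(2m−2s)(q)|, where |Sp_2k(q)| = q^(k²) Π_(i=1)^k (q^(2i) − 1). -/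
theorem result {F : Type*} [Field F] [Fintype F] [CharP F 2] {q : ℕ} (hF : Fintype.card F = q) {m s : ℕ} (h : Fintype.card F ≠ 2 ∨ m ≠ 2) (x : ↥(Cfsg.isometryGroup F (Cfsg.quadFormPlus m F))) (hx : x ^ 2 = 1) (hs : (((x : Matrix.GeneralLinearGroup (Fin m ⊕ Fin m) F) : Matrix (Fin m ⊕ Fin m) (Fin m ⊕ Fin m) F) - 1).rank = s) (hodd : Odd s) : Nat.card {g : ↥(Cfsg.Omega F (Cfsg.quadFormPlus m F)) // (g : ↥(Cfsg.isometryGroup F (Cfsg.quadFormPlus m F))) * x = x * (g : ↥(Cfsg.isometryGroup F (Cfsg.quadFormPlus m F)))} = q ^ (2 * m * (s - 1) - (3 * s ^ 2 - 3 * s) / 2) * ((q : ℕ) ^ (((s - 1) / 2) ^ 2) * ∏ i : Fin ((s - 1) / 2), (q ^ (2 * ((i : ℕ) + 1)) - 1)) * ((q : ℕ) ^ ((m - s) ^ 2) * ∏ i : Fin (m - s), (q ^ (2 * ((i : ℕ) + 1)) - 1)) := by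
  open Cfsg.Agent.Lib.CentOrth2 Cfsg.Agent.Lib.CentSp Cfsg.Agent.Lib.Inv2Conv Cfsg.Agent.Lib.Inv2Count Cfsg.Agent.Lib.Inv2 Cfsg.Agent.Lib.CentFrameCount in
  subst hF
  have hq : Cfsg.quadFormPlus m F = ⇑(Cfsg.Agent.Lib.OrthoCount.qPlus m F) :=
    funext fun v => (Cfsg.Agent.Lib.OrthoCount.qPlus_apply m v).symm
  revert x
  rw [hq]
  intro x hx hs
  have hx1 : x ≠ 1 := by
    rintro rfl
    have : (((1 : ↥(Cfsg.isometryGroup F ⇑(Cfsg.Agent.Lib.OrthoCount.qPlus m F))) : Matrix.GeneralLinearGroup (Fin m ⊕ Fin m) F) : Matrix (Fin m ⊕ Fin m) (Fin m ⊕ Fin m) F) - 1 = 0 := by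
      rw [sub_eq_zero]
      rfl
    rw [this, Matrix.rank_zero] at hs
    subst hs
    simp at hodd
  have hord : orderOf x = 2 := orderOf_two_of (by rw [← pow_two, hx]) hx1
  have hN := adm_of_order _ x hord
  have hfr : Module.finrank F (LinearMap.range (Nx (eO _ x))) = s := by
    rw [finrank_Nx, hs]
  have hna : ∃ v, QuadraticMap.polarBilin (Cfsg.Agent.Lib.OrthoCount.qPlus m F) v (Nx (eO _ x) v) ≠ 0 := by
    by_contra hc
    push Not at hc
    obtain ⟨r, y, hr, -⟩ := exists_data_alt nd_plus hN.sa (pB_comm _) (pB_self _) hc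
    rw [hfr] at hr
    rw [← hr] at hodd
    exact (Nat.not_odd_iff_even.2 (even_two_mul r)) hodd
  obtain ⟨r, rfl⟩ := hodd
  rw [main_nonalt (hOG_plus h) x hord hfr hna, card_orth_odd]
  have e : (2 * r + 1 - 1) / 2 = r := by omega
  rw [e, Finset.prod_range (fun i => Fintype.card F ^ (2 * (i + 1)) - 1), Finset.prod_range (fun i => Fintype.card F ^ (2 * (i + 1)) - 1)]

end Cfsg.Agent.S2683
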