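import Cfsg.Statements.S2685
import Mathlib
import Cfsg.Agent.Lib.CentOrth2

set_option autoImplicit false
open Cfsg

namespace Cfsg.Agent.S2685

/-- For the hyperbolic form Q = Σ x_j y_j on F^(2m) over a finite field with q elements, q even (excluding m = 2 over the field of two elements), and an involution x of the orthogonal group with s = rank(x − 1) even and Q not vanishing on the image of x − 1 (f(v, xv) ≠ 0 for some v, where f(u, w) = Q(u + w) − Q(u) − Q(w) is the bilinear form of Q; type c_s, which lies in Ω): its centraliser in Ω (the commutator subgroup of the orthogonal group) has order q^(2m(s−1) − (3s² − 5s)/2 − 1) · |Sp_(s−2)(q)| · |Sp_(2m−2s)(q)|. -/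
theorem result {F : Type*} [Field F] [Fintype F] [CharP F 2] {q : ℕ} (hF : Fintype.card F = q) {m s : ℕ} (h : Fintype.card F ≠ 2 ∨ m ≠ 2) (x : ↥(Cfsg.isometryGroup F (Cfsg.quadFormPlus m F))) (hx : x ^ 2 = 1) (hs : (((x : Matrix.GeneralLinearGroup (Fin m ⊕ Fin m) F) : Matrix (Fin m ⊕ Fin m) (Fin m ⊕ Fin m) F) - 1).rank = s) (heven : Even s) (hna : ∃ v : Fin m ⊕ Fin m → F, Cfsg.quadFormPlus m F ((((x : Matrix.GeneralLinearGroup (Fin m ⊕ Fin m) F) : Matrix (Fin m ⊕ Fin m) (Fin m ⊕ Fin m) F) - 1).mulVec v) ≠ 0) : Nat.card {g : ↥(Cfsg.Omega F (Cfsg.quadFormPlus m F)) // (g : ↥(Cfsg.isometryGroup F (Cfsg.quadFormPlus m F))) * x = x * (g : ↥(Cfsg.isometryGroup F (Cfsg.quadFormPlus m F)))} = q ^ (2 * m * (s - 1) - (3 * s ^ 2 - 5 * s) / 2 - 1) * ((q : ℕ) ^ (((s - 2) / 2) ^ 2) * ∏ i : Fin ((s - 2) / 2), (q ^ (2 * ((i : ℕ) + 1)) - 1)) * ((q : ℕ) ^ ((m - s) ^ 2) * ∏ i : Fin (m - s), (q ^ (2 * ((i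 : ℕ) + 1)) - 1)) := by
  open Cfsg.Agent.Lib.CentOrth2 Cfsg.Agent.Lib.CentSp Cfsg.Agent.Lib.Inv2Conv Cfsg.Agent.Lib.Inv2Count Cfsg.Agent.Lib.Inv2 Cfsg.Agent.Lib.CentFrameCount in
  subst hF
  have hq : Cfsg.quadFormPlus m F = ⇑(Cfsg.Agent.Lib.OrthoCount.qPlus m F) :=
    funext fun v => (Cfsg.Agent.Lib.OrthoCount.qPlus_apply m v).symm
  revert x
  rw [hq]
  intro x hx hs hna
  have hx1 : x ≠ 1 := by
    rintro rfl
    have : (((1 : ↥(Cfsg.isometryGroup F ⇑(Cfsg.Agent.Lib.OrthoCount.qPlus m F))) : Matrix.GeneralLinearGroup (Fin m ⊕ Fin m) F) : Matrix (Fin m ⊕ Fin m) (Fin m ⊕ Fin m) F) - 1 = 0 := by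
      rw [sub_eq_zero]
      rfl
    obtain ⟨v, hv⟩ := hna
    rw [this, Matrix.zero_mulVec, map_zero] at hv
    exact hv rfl
  have hord : orderOf x = 2 := orderOf_two_of (by rw [← pow_two, hx]) hx1
  have hN := adm_of_order _ x hord
  have hfr : Module.finrank F (LinearMap.range (Nx (eO _ x))) = s := by
    rw [finrank_Nx, hs]
  have hna' : ∃ v, QuadraticMap.polarBilin (Cfsg.Agent.Lib.OrthoCount.qPlus m F) v (Nx (eO _ x) v) ≠ 0 := by
    obtain ⟨v, hv⟩ := hna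
    refine ⟨v, ?_⟩
    rw [← hN.q, Nx_eO]
    exact hv
  have hle := hnd_range_le hN.sa
  rw [finrank_plus, hfr] at hle
  have hs0 : s ≠ 0 := by
    rintro rfl
    obtain ⟨v, hv⟩ := hna'
    apply hv
    rw [Submodule.finrank_eq_zero, LinearMap.range_eq_bot] at hfr
    rw [hfr, LinearMap.zero_apply, map_zero]
  obtain ⟨t, ht⟩ := heven
  obtain ⟨r, rfl⟩ : ∃ r, s = 2 * r + 2 := ⟨t - 1, by omega⟩
  rw [main_nonalt (hOG_plus h) x hord hfr hna', card_orth_even]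
  have e : (2 * r + 2 - 2) / 2 = r := by omega
  rw [e, Finset.prod_range (fun i => Fintype.card F ^ (2 * (i + 1)) - 1), Finset.prod_range (fun i => Fintype.card F ^ (2 * (i + 1)) - 1)]
  have e1 : (3 * (2 * r + 2) ^ 2 - 3 * (2 * r + 2)) / 2 = 6 * r ^ 2 + 9 * r + 3 := by
    have : 3 * (2 * r + 2) ^ 2 = 2 * (6 * r ^ 2 + 9 * r + 3) + 3 * (2 * r + 2) := by ring
    omega
  have e2 : (3 * (2 * r + 2) ^ 2 - 5 * (2 * r + 2)) / 2 = 6 * r ^ 2 + 7 * r + 1 := by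
    have : 3 * (2 * r + 2) ^ 2 = 2 * (6 * r ^ 2 + 7 * r + 1) + 5 * (2 * r + 2) := by ring
    omega
  have e3 : 2 * r + 2 - 1 = 2 * r + 1 := by omega
  rw [e1, e2, e3]
  have hm : 2 * (2 * r + 2) * (2 * r + 1) ≤ 2 * m * (2 * r + 1) := by
    have : 2 * r + 2 ≤ m := by omega
    exact Nat.mul_le_mul_right _ (by omega)
  have h4 : 6 * r ^ 2 + 9 * r + 3 ≤ 2 * m * (2 * r + 1) := by nlinarith
  have hexp : 2 * m * (2 * r + 1) - (6 * r ^ 2 + 9 * r + 3) + (r + 1) ^ 2 =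
      2 * m * (2 * r + 1) - (6 * r ^ 2 + 7 * r + 1) - 1 + r ^ 2 := by
    have : (r + 1) ^ 2 = r ^ 2 + 2 * r + 1 := by ring
    omega
  have h5 := congrArg (fun k => Fintype.card F ^ k) hexp
  simp only [pow_add] at h5
  calc _ = (Fintype.card F ^ (2 * m * (2 * r + 1) - (6 * r ^ 2 + 9 * r + 3)) * Fintype.card F ^ ((r + 1) ^ 2)) * (∏ i : Fin r, (Fintype.card F ^ (2 * ((i : ℕ) + 1)) - 1)) * (Fintype.card F ^ ((m - (2 * r + 2)) ^ 2) * ∏ i : Fin (m - (2 * r + 2)), (Fintype.card F ^ (2 * ((i : ℕ) + 1)) - 1)) := by ring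
    _ = _ := by
      rw [show 2 * m * (2 * r + 1) - (6 * r ^ 2 + 9 * r + 3) + (r + 1) ^ 2 = 2 * m * (2 * r + 1) - (6 * r ^ 2 + 9 * r + 3) + (r + 1) ^ 2 from rfl] at hexp
      rw [← pow_add, hexp, pow_add]
      ring

end Cfsg.Agent.S2685
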