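import Cfsg.Statements.S2698
import Cfsg.Agent.Lib.AutPSL.FieldCent

set_option autoImplicit false
open Cfsg

namespace Cfsg.Agent.S2698

open Cfsg.Agent.Lib.AutPSL Cfsg.Agent.Lib.Hilbert90

/-- Let T = PSL_n(F) be simple over the field F with p^f elements (n ≥ 2; p^f ≥ 4 when n = 2), G = Inndiag(T) the image of PGL_n(F) in Aut(T), and x a field automorphism of T of prime order r. Then r divides f; the centralizer C_G(x) is isomorphic to PGL_n(F₀) for the subfield size |F₀| = p^(f/r); and the G-class of x is the union of exactly gcd(n, (p^f − 1)/(p^(f/r) − 1)) classes under conjugation by T (the inner automorphism group). -/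
theorem result {F : Type*} [Field F] [Fintype F] {p f : ℕ} [Fact p.Prime] (hF : Fintype.card F = p ^ f) (hf : 1 ≤ f) {n : ℕ} (hn : 2 ≤ n) (hs : n = 2 → 4 ≤ Fintype.card F) (x : MulAut (Matrix.ProjectiveSpecialLinearGroup (Fin n) F)) (hx : Cfsg.IsFieldAutClassPSL x) {r : ℕ} (hr : r.Prime) (hxr : orderOf x = r) (F₀ : Type*) [Field F₀] [Fintype F₀] (hF₀ : Fintype.card F₀ = p ^ (f / r)) :
    r ∣ f ∧ Nonempty (↥(Cfsg.inndiagPSL n F ⊓ Subgroup.centralizer {x}) ≃* Matrix.ProjGenLinGroup (Fin n) F₀) ∧ Cfsg.splitClassCount (Cfsg.inndiagPSL n F) (Cfsg.Inn (Matrix.ProjectiveSpecialLinearGroup (Fin n) F)) x = Nat.gcd n ((p ^ f - 1) / (p ^ (f / r) - 1)) := by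
  classical
  have hp : p.Prime := Fact.out
  obtain ⟨u, σ, hσ, hxu⟩ := exists_of_fieldClass hp hf hF hn hx
  have hconj : ∀ (a b : MulAut (Matrix.ProjectiveSpecialLinearGroup (Fin n) F)), orderOf (a * b * a⁻¹) = orderOf b := by
    intro a b
    exact orderOf_injective (MulAut.conj a).toMonoidHom (MulEquiv.injective _) b
  have hord : orderOf σ = r := by
    rw [← hxr, hxu, hconj, orderOf_fa hn]
  have : Finite (F ≃+* F) := Finite.of_injective (fun e : F ≃+* F => (e : F → F)) DFunLike.coe_injective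
  have hrf : r ∣ f := by
    rw [← hord]
    have h1 := orderOf_dvd_natCard σ
    rwa [card_ringAut hF hf] at h1
  obtain ⟨k, rfl⟩ := hrf
  have hk : r * k / r = k := Nat.mul_div_cancel_left _ hr.pos
  rw [hk] at hF₀ ⊢
  have hk0 : 0 < k := by
    rcases Nat.eq_zero_or_pos k with rfl | h
    · simp at hf
    · exact h
  have hfix : Nat.card (fixedF σ) = p ^ k := by
    have h1 := card_eq_card_fixedF_pow σ hord
    rw [Nat.card_eq_fintype_card (α := F), hF, mul_comm r k, pow_mul] at h1
    exact (Nat.pow_left_injective (n := r) (by have := hr.pos; omega) h1).symm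
  have hU := dl_mem_inndiag u
  refine ⟨dvd_mul_right r k, ?_, ?_⟩
  · obtain ⟨e₁⟩ := field_cent_equiv (F₀ := F₀) (n := n) hn σ hr.pos hord (by rw [hF₀, hfix])
    rw [hxu]
    obtain ⟨e₂⟩ := centr_conj_equiv (Cfsg.inndiagPSL n F) hU (fa σ)
    exact ⟨e₂.trans e₁⟩
  · rw [hxu, splitClassCount_conj _ _ hU, field_count hn σ hr.pos hord, Nat.gcd_comm]
    congr 1
    have h2 := card_range_coB σ
    rw [hfix, Nat.card_eq_fintype_card (α := F), hF] at h2
    have h3 : 1 < p ^ k := Nat.one_lt_pow (by omega) hp.one_lt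
    rw [← h2, Nat.mul_div_cancel _ (by omega)]

end Cfsg.Agent.S2698
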