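import Cfsg.Statements.S2699
import Cfsg.Agent.Lib.AutPSL.OddTwo

set_option autoImplicit false
open Cfsg

namespace Cfsg.Agent.S2699

open Cfsg.Agent.Lib.AutPSL Cfsg.Agent.Lib.QuadGram
open scoped Matrix

variable {F : Type*} [Field F] [Fintype F] {n m : ℕ}

/-- The odd characteristic case. -/
lemma odd_case (h2 : (2 : F) ≠ 0) (hn : 3 ≤ n) (hnm : n = 2 * m + 1) (e : Unit ⊕ (Fin m ⊕ Fin m) ≃ Fin n)
    (γ : MulAut (Matrix.ProjectiveSpecialLinearGroup (Fin n) F)) (hγ : Cfsg.IsGraphAutClassPSL γ) (hγ2 : orderOf γ = 2) :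
    Cfsg.IsConjUnder (Cfsg.inndiagPSL n F) (gr (rG e (gOddG F m h2)⁻¹)) γ := by
  have hn2 : 2 ≤ n := by omega
  obtain ⟨g, rfl, hg⟩ := involution_cases hn hγ hγ2
  have hgs : (g : Matrix (Fin n) (Fin n) F)ᵀ = g := by
    rcases hg with hg | hg
    · exact hg
    · exfalso
      have h1 := congrArg Matrix.det hg
      rw [Matrix.det_transpose, Matrix.det_neg, Fintype.card_fin] at h1
      have hp : (-1 : F) ^ n = -1 := by
        rw [hnm]
        exact Odd.neg_one_pow ⟨m, rfl⟩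
      rw [hp] at h1
      have h3 : 2 * (g : Matrix (Fin n) (Fin n) F).det = 0 := by
        linear_combination h1
      exact (mul_ne_zero h2 (gl_det_ne g)) h3
  set g₀ : GL (Fin n) F := rG e (gOddG F m h2)⁻¹ with hg₀
  have hs₀ : (g₀ : Matrix (Fin n) (Fin n) F)ᵀ = g₀ := rG_inv_symm e _ (gOdd_symm F m)
  -- scale `g`
  set d := (g₀ : Matrix (Fin n) (Fin n) F).det with hd
  set δ := (g : Matrix (Fin n) (Fin n) F).det with hδ
  have hd0 : d ≠ 0 := gl_det_ne g₀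
  have hδ0 : δ ≠ 0 := gl_det_ne g
  have hs : (d * δ) ≠ 0 := mul_ne_zero hd0 hδ0
  have hdet : (((d * δ) • (g : Matrix (Fin n) (Fin n) F))).det = (d * δ) ^ n * δ := by
    rw [Matrix.det_smul, Fintype.card_fin]
  obtain ⟨P, hP⟩ := exists_congr_sym h2 (g₀ : Matrix (Fin n) (Fin n) F) ((d * δ) • (g : Matrix (Fin n) (Fin n) F)) hs₀
    (by rw [Matrix.transpose_smul, hgs]) hd0 (by
      rw [hdet]
      exact mul_ne_zero (pow_ne_zero _ hs) hδ0) (by
      rw [hdet, ← hd]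
      refine ⟨(d * δ) ^ (m + 1), ?_⟩
      rw [hnm]
      ring)
  exact (isConj_gr_iff hn2 g₀ g).mpr ⟨P, Units.mk0 _ hs, hP⟩

/-- The characteristic two case. -/
lemma two_case [CharP F 2] (hn : 3 ≤ n) (hnm : n = 2 * m + 1) (e : Unit ⊕ (Fin m ⊕ Fin m) ≃ Fin n)
    (γ : MulAut (Matrix.ProjectiveSpecialLinearGroup (Fin n) F)) (hγ : Cfsg.IsGraphAutClassPSL γ) (hγ2 : orderOf γ = 2) :
    Cfsg.IsConjUnder (Cfsg.inndiagPSL n F) (gr (rG e (dFormG m F)⁻¹)) γ := by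
  have hn2 : 2 ≤ n := by omega
  obtain ⟨g, rfl, hg⟩ := involution_cases hn hγ hγ2
  have hgs : (g : Matrix (Fin n) (Fin n) F)ᵀ = g := by
    rcases hg with hg | hg
    · exact hg
    · rw [hg, neg_matrix_two]
  have hna : ∃ v : Fin n → F, v ⬝ᵥ ((g : Matrix (Fin n) (Fin n) F) *ᵥ v) ≠ 0 := by
    by_contra hcon
    simp only [not_exists, not_not] at hcon
    have h1 := even_of_alt _ hcon (gl_det_ne g)
    rw [hnm] at h1
    exact (Nat.not_even_iff_odd.mpr ⟨m, rfl⟩) h1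
  refine conj_nonalt hn2 _ _ (rG_inv_symm e _ dForm_symm) hgs ?_ hna
  apply nonalt_rG_inv e _ (vv 1 0)
  change _ ⬝ᵥ ((dForm m F)ᵀ *ᵥ _) ≠ 0
  rw [dForm_symm, dForm_vv]
  simp

/-- Let T = PSL_n(F) over the field with p^f elements with n ≥ 3 odd, n = 2m + 1, and G = Inndiag(T) the image of PGL_n(F). Every involutory graph automorphism γ of T (an inner-diagonal automorphism followed by inverse-transpose, of order 2) has centralizer C_G(γ) isomorphic to the projective conformal orthogonal group of the form x₀² + Σ xᵢ yᵢ in dimension n (for q even this group is isomorphic to Sp_{n−1}(q)), and any two involutory graph automorphisms are G-conjugate. -/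
theorem result {F : Type*} [Field F] [Fintype F] {p f : ℕ} [Fact p.Prime] (hF : Fintype.card F = p ^ f) (hf : 1 ≤ f) {n : ℕ} (hn : 3 ≤ n) {m : ℕ} (hnm : n = 2 * m + 1) (γ γ' : MulAut (Matrix.ProjectiveSpecialLinearGroup (Fin n) F)) (hγ : Cfsg.IsGraphAutClassPSL γ) (hγ2 : orderOf γ = 2) (hγ' : Cfsg.IsGraphAutClassPSL γ') (hγ'2 : orderOf γ' = 2) :
    Nonempty (↥(Cfsg.inndiagPSL n F ⊓ Subgroup.centralizer {γ}) ≃* Cfsg.PGO F (Cfsg.quadFormOdd m F)) ∧ Cfsg.IsConjUnder (Cfsg.inndiagPSL n F) γ γ' := by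
  classical
  have hn2 : 2 ≤ n := by omega
  let e : Unit ⊕ (Fin m ⊕ Fin m) ≃ Fin n := Fintype.equivFinOfCardEq (by simp; omega)
  by_cases h2 : (2 : F) = 0
  · haveI : CharP F 2 := CharTwo.of_one_ne_zero_of_two_eq_zero one_ne_zero h2
    have h1 := two_case hn hnm e γ hγ hγ2
    have h1' := two_case hn hnm e γ' hγ' hγ'2
    refine ⟨?_, isConj_trans' (isConj_symm' h1) h1'⟩
    obtain ⟨a, ha, hh⟩ := h1
    rw [hh]
    obtain ⟨e₁⟩ := centr_conj_equiv _ ha (gr (rG e (dFormG m F)⁻¹))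
    obtain ⟨e₂⟩ := cent_equiv_two hn2 e (dFormG m F) _ dgPart_injective mem_range_dgPart
    obtain ⟨e₃⟩ := pgo_equiv_iso (F := F) (m := m)
    exact ⟨(e₁.trans e₂).trans e₃⟩
  · have h1 := odd_case h2 hn hnm e γ hγ hγ2
    have h1' := odd_case h2 hn hnm e γ' hγ' hγ'2
    refine ⟨?_, isConj_trans' (isConj_symm' h1) h1'⟩
    obtain ⟨a, ha, hh⟩ := h1
    rw [hh]
    obtain ⟨e₁⟩ := centr_conj_equiv _ ha (gr (rG e (gOddG F m h2)⁻¹))
    obtain ⟨e₂⟩ := cent_odd h2 hn2 e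
    exact ⟨e₁.trans e₂⟩

end Cfsg.Agent.S2699
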