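import Cfsg.Statements.S2700
import Cfsg.Agent.Lib.AutPSL.GramForms

set_option autoImplicit false
open Cfsg

namespace Cfsg.Agent.S2700

open Cfsg.Agent.Lib.AutPSL Cfsg.Agent.Lib.QuadGram
open scoped Matrix

/-- Let T = PSL_n(F) over a finite field of odd order with n = 2m ≥ 4 even, and G = Inndiag(T) the image of PGL_n(F). The involutory graph automorphisms of T fall into exactly three G-classes, with representatives γ₁, γ₂, γ₃ whose centralizers in G are isomorphic respectively to the projective conformal symplectic group PGSp_n(F), the projective conformal orthogonal group of the plus-type form Σ xᵢ yᵢ, and that of a minus-type form Σ xᵢ yᵢ + z₁² + a z₁ z₂ + b z₂² (anisotropic binary part) in dimension n. -/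
theorem result {F : Type*} [Field F] [Fintype F] (hodd : Odd (Fintype.card F)) {n m : ℕ} (hm : 2 ≤ m) (hnm : n = 2 * m) :
    ∃ (γ₁ γ₂ γ₃ : MulAut (Matrix.ProjectiveSpecialLinearGroup (Fin n) F)) (a b : F), (∀ z₁ z₂ : F, z₁ ^ 2 + a * z₁ * z₂ + b * z₂ ^ 2 = 0 → z₁ = 0 ∧ z₂ = 0) ∧ Cfsg.IsGraphAutClassPSL γ₁ ∧ orderOf γ₁ = 2 ∧ Cfsg.IsGraphAutClassPSL γ₂ ∧ orderOf γ₂ = 2 ∧ Cfsg.IsGraphAutClassPSL γ₃ ∧ orderOf γ₃ = 2 ∧ ¬ Cfsg.IsConjUnder (Cfsg.inndiagPSL n F) γ₁ γ₂ ∧ ¬ Cfsg.IsConjUnder (Cfsg.inndiagPSL n F) γ₁ γ₃ ∧ ¬ Cfsg.IsConjUnder (Cfsg.inndiagPSL n F) γ₂ γ₃ ∧ (∀ γ : MulAut (Matrix.ProjectiveSpecialLinearGroup (Fin n) F), Cfsg.IsGraphAutClassPSL γ → orderOf γ = 2 → Cfsg.IsConjUnder (Cfsg.inndiagPSL n F) γ₁ γ ∨ Cfsg.IsConjUnder (Cfsg.inndiagPSL n F) γ₂ γ ∨ Cfsg.IsConjUnder (Cfsg.inndiagPSL n F) γ₃ γ) ∧ Nonempty (↥(Cfsg.inndiagPSL n F ⊓ Subgroup.centralizer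 {γ₁}) ≃* Cfsg.PGSp m F) ∧ Nonempty (↥(Cfsg.inndiagPSL n F ⊓ Subgroup.centralizer {γ₂}) ≃* Cfsg.PGO F (Cfsg.quadFormPlus m F)) ∧ Nonempty (↥(Cfsg.inndiagPSL n F ⊓ Subgroup.centralizer {γ₃}) ≃* Cfsg.PGO F (Cfsg.quadFormMinus (m - 1) F a b)) := by
  classical
  have h2 : (2 : F) ≠ 0 := two_ne_of_odd hodd
  have hn2 : 2 ≤ n := by omega
  have hn3 : 3 ≤ n := by omega
  obtain ⟨k, rfl⟩ : ∃ k, m = k + 1 := ⟨m - 1, by omega⟩
  rw [Nat.add_sub_cancel]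
  obtain ⟨ν, hν⟩ := exists_nonsq h2
  have hab := hab_of_nonsq h2 hν
  let e₁ : Fin (k + 1) ⊕ Fin (k + 1) ≃ Fin n := Fintype.equivFinOfCardEq (by simp; omega)
  let e₂ : (Fin k ⊕ Fin k) ⊕ Fin 2 ≃ Fin n := Fintype.equivFinOfCardEq (by simp; omega)
  set g₁ : GL (Fin n) F := rG e₁ (jG F (k + 1))⁻¹ with hg₁
  set g₂ : GL (Fin n) F := rG e₁ (gPlusG F (k + 1))⁻¹ with hg₂
  set g₃ : GL (Fin n) F := rG e₂ (gMinusG F k hab)⁻¹ with hg₃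
  have hs₁ : (g₁ : Matrix (Fin n) (Fin n) F)ᵀ = -(g₁ : Matrix (Fin n) (Fin n) F) :=
    rG_inv_skew e₁ _ (by
      rw [jG_transpose]
      simp)
  have hs₂ : (g₂ : Matrix (Fin n) (Fin n) F)ᵀ = g₂ := rG_inv_symm e₁ _ (gramHyp_symm F (k + 1))
  have hs₃ : (g₃ : Matrix (Fin n) (Fin n) F)ᵀ = g₃ := rG_inv_symm e₂ _ (gMinus_symm F k 0 (-ν))
  have hd₂ : (g₂ : Matrix (Fin n) (Fin n) F).det = (((-1 : F) ^ (k + 1))⁻¹) := by
    rw [hg₂, det_rG_inv]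
    change ((gramHyp (Fin (k + 1)) F).det)⁻¹ = _
    rw [det_gramHyp]
  have hd₃ : (g₃ : Matrix (Fin n) (Fin n) F).det = (((-1 : F) ^ k * (4 * (-ν) - 0 ^ 2))⁻¹) := by
    rw [hg₃, det_rG_inv]
    change ((gMinus F k 0 (-ν)).det)⁻¹ = _
    rw [det_gMinus]
  have hν0 : ν ≠ 0 := fun h => hν (h ▸ IsSquare.zero)
  have hns : ¬ IsSquare ((g₂ : Matrix (Fin n) (Fin n) F).det * (g₃ : Matrix (Fin n) (Fin n) F).det) := by
    rw [hd₂, hd₃, ← mul_inv, isSquare_inv]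
    have e : (-1 : F) ^ (k + 1) * ((-1) ^ k * (4 * (-ν) - 0 ^ 2)) = 4 * ν * ((-1) ^ k * (-1) ^ k) := by
      ring
    have e' : (-1 : F) ^ k * (-1) ^ k = 1 := by
      rw [← mul_pow]
      simp
    rw [e, e', mul_one]
    rintro ⟨r, hr⟩
    apply hν
    refine ⟨r / 2, ?_⟩
    field_simp
    linear_combination hr
  refine ⟨gr g₁, gr g₂, gr g₃, 0, -ν, aniso_of_nonsq hν, isGraphClass_gr hn3 _, orderOf_gr_skew hn3 _ hs₁,
    isGraphClass_gr hn3 _, orderOf_gr_sym hn3 _ hs₂, isGraphClass_gr hn3 _, orderOf_gr_sym hn3 _ hs₃,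
    not_conj_skew_sym h2 hn2 _ _ hs₁ hs₂, not_conj_skew_sym h2 hn2 _ _ hs₁ hs₃, ?_, ?_, ?_, ?_, ?_⟩
  · intro hc
    exact hns (isSquare_of_conj hn2 hnm _ _ hc)
  · intro γ hγ hγ2
    obtain ⟨g, rfl, hg | hg⟩ := involution_cases hn3 hγ hγ2
    · right
      rcases sq_dichotomy (gl_det_ne g) hns with h3 | h3
      · left
        exact conj_sym_of_square h2 hn2 _ _ hs₂ hg h3
      · right
        exact conj_sym_of_square h2 hn2 _ _ hs₃ hg h3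
    · left
      obtain ⟨P, hP⟩ := exists_congr_alt _ _ (skew_alt h2 _ hs₁) (skew_alt h2 _ hg) (gl_det_ne g₁) (gl_det_ne g)
      exact (isConj_gr_iff hn2 g₁ g).mpr ⟨P, 1, by rw [hP]; simp⟩
  · exact cent_symp hn2 e₁
  · exact cent_plus h2 hn2 e₁
  · exact cent_minus h2 hn2 hab e₂

end Cfsg.Agent.S2700
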