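import Cfsg.Statements.S2701
import Cfsg.Agent.Lib.AutPSL.GraphTwo
import Cfsg.Agent.S2594

set_option autoImplicit false
open Cfsg

namespace Cfsg.Agent.S2701

open Cfsg.Agent.Lib.AutPSL Cfsg.Agent.Lib.SpBasic Matrix
open scoped MatrixGroups

variable {F : Type*} [Field F] {l : Type} [Fintype l] [DecidableEq l]

/-- The symplectic group inside `GL`. -/
noncomputable def spToGL : Sp l F →* GL (l ⊕ l) F :=
  (Units.map (symplecticGroup l F).subtype).comp (toUnits : Sp l F ≃* (Sp l F)ˣ).toMonoidHom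

lemma spToGL_coe (A : Sp l F) : ((spToGL A : GL (l ⊕ l) F) : Matrix (l ⊕ l) (l ⊕ l) F) = A.1 := rfl

lemma spToGL_injective : Function.Injective (spToGL : Sp l F →* GL (l ⊕ l) F) := by
  intro a b h
  apply Subtype.ext
  have := congrArg (fun x : GL (l ⊕ l) F => (x : Matrix (l ⊕ l) (l ⊕ l) F)) h
  exact this

lemma mem_range_spToGL (u : GL (l ⊕ l) F) :
    u ∈ (spToGL : Sp l F →* GL (l ⊕ l) F).range ↔
      (u : Matrix (l ⊕ l) (l ⊕ l) F)ᵀ * J l F * (u : Matrix (l ⊕ l) (l ⊕ l) F) = J l F := by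
  constructor
  · rintro ⟨k, rfl⟩
    exact SymplecticGroup.mem_iff'.mp k.2
  · intro h
    refine ⟨⟨u, SymplecticGroup.mem_iff'.mpr h⟩, ?_⟩
    apply Units.ext
    rfl

/-- The linear form `x ↦ ω(w, x)`. -/
noncomputable def fV (w : l ⊕ l → F) : l ⊕ l → F := w ᵥ* J l F

lemma fV_dot (w x : l ⊕ l → F) : fV w ⬝ᵥ x = ω w x := by
  rw [fV, ω, Matrix.dotProduct_mulVec]

/-- The non-alternating symmetric form attached to a transvection. -/
noncomputable def A3 (w : l ⊕ l → F) : Matrix (l ⊕ l) (l ⊕ l) F := J l F + vecMulVec (fV w) (fV w)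

lemma form_A3 (w x : l ⊕ l → F) : x ⬝ᵥ (A3 w *ᵥ x) = (fV w ⬝ᵥ x) ^ 2 := by
  have h1 : x ⬝ᵥ (J l F *ᵥ x) = 0 := ω_self x
  rw [A3, Matrix.add_mulVec, dotProduct_add, h1, zero_add, Matrix.vecMulVec_mulVec, op_smul_eq_smul, dotProduct_smul,
    smul_eq_mul, dotProduct_comm x, pow_two]

lemma A3_symm [CharP F 2] (w : l ⊕ l → F) : (A3 w)ᵀ = A3 w := by
  rw [A3, Matrix.transpose_add, J_transpose, neg_matrix_two]
  congr 1
  ext i j
  simp [vecMulVec_apply, mul_comm]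

lemma A3_det (w : l ⊕ l → F) : (A3 w).det ≠ 0 := by
  intro h0
  obtain ⟨v, hv, hv0⟩ := Matrix.exists_mulVec_eq_zero_iff.mpr h0
  have h1 := form_A3 w v
  rw [hv0, dotProduct_zero] at h1
  have h2 : fV w ⬝ᵥ v = 0 := by
    exact (pow_eq_zero_iff (by norm_num)).mp h1.symm
  have h3 : J l F *ᵥ v = 0 := by
    have := hv0
    rw [A3, Matrix.add_mulVec, Matrix.vecMulVec_mulVec, h2] at this
    simpa using this
  apply hv
  have h4 : (J l F * J l F) *ᵥ v = 0 := by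
    rw [← Matrix.mulVec_mulVec, h3, Matrix.mulVec_zero]
  rw [J_squared] at h4
  simpa [Matrix.neg_mulVec] using h4

/-- The form in `GL`. -/
noncomputable def A3G (w : l ⊕ l → F) : GL (l ⊕ l) F :=
  Matrix.GeneralLinearGroup.mkOfDetNeZero (A3 w) (A3_det w)

lemma A3G_coe (w : l ⊕ l → F) : ((A3G w : GL (l ⊕ l) F) : Matrix (l ⊕ l) (l ⊕ l) F) = A3 w := rfl

lemma mul_A3_mul (w : l ⊕ l → F) (U : Matrix (l ⊕ l) (l ⊕ l) F) :
    Uᵀ * A3 w * U = Uᵀ * J l F * U + vecMulVec (fV w ᵥ* U) (fV w ᵥ* U) := by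
  rw [A3, Matrix.mul_add, Matrix.add_mul, Matrix.mul_vecMulVec, Matrix.vecMulVec_mul, Matrix.mulVec_transpose]

/-- The centraliser of the transvection is the isometry group of `A3 w`. -/
lemma mem_range_cent [CharP F 2] [Fintype F] (w : l ⊕ l → F) (hw : w ≠ 0) (u : GL (l ⊕ l) F) :
    u ∈ ((spToGL : Sp l F →* GL (l ⊕ l) F).comp (Subgroup.centralizer ({T w (1 : F)} : Set (Sp l F))).subtype).range ↔
      (u : Matrix (l ⊕ l) (l ⊕ l) F)ᵀ * A3 w * (u : Matrix (l ⊕ l) (l ⊕ l) F) = A3 w := by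
  set U := (u : Matrix (l ⊕ l) (l ⊕ l) F) with hU
  constructor
  · rintro ⟨⟨k, hk⟩, hku⟩
    have hkU : k.1 = U := by
      rw [hU, ← hku]
      rfl
    have hsm : k • w = w := (Cfsg.Agent.S2594.mem_centralizer_iff hw k).mp hk
    have h1 : Uᵀ * J l F * U = J l F := by
      rw [← hkU]
      exact SymplecticGroup.mem_iff'.mp k.2
    have h2 : fV w ᵥ* U = fV w := by
      apply dotProduct_eq
      intro x
      rw [← Matrix.dotProduct_mulVec, fV_dot, fV_dot]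
      have h3 := ω_smul_smul k w x
      rw [hsm] at h3
      rw [← h3, ← hkU]
      rfl
    rw [mul_A3_mul, h1, h2]
    rfl
  · intro h
    have hf : ∀ x, fV w ⬝ᵥ (U *ᵥ x) = fV w ⬝ᵥ x := by
      intro x
      apply eq_of_sq_eq
      rw [← form_A3, ← form_A3]
      have h3 := form_transpose U (A3 w) x x
      rw [h3, h]
    have h2 : fV w ᵥ* U = fV w := by
      apply dotProduct_eq
      intro x
      rw [← Matrix.dotProduct_mulVec, hf]
    have h1 : Uᵀ * J l F * U = J l F := by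
      have h3 := mul_A3_mul w U
      rw [h, h2, A3] at h3
      exact (add_right_cancel h3).symm
    let k : Sp l F := ⟨U, SymplecticGroup.mem_iff'.mpr h1⟩
    have hsm : k • w = w := by
      have h3 : ∀ y, ω (U *ᵥ w - w) y = 0 := by
        intro y
        have hy : y = U *ᵥ (((u⁻¹ : GL (l ⊕ l) F) : Matrix (l ⊕ l) (l ⊕ l) F) *ᵥ y) := by
          rw [Matrix.mulVec_mulVec, gl_mi, Matrix.one_mulVec]
        rw [hy]
        set x := ((u⁻¹ : GL (l ⊕ l) F) : Matrix (l ⊕ l) (l ⊕ l) F) *ᵥ y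
        have h4 := ω_smul_smul k w x
        have h5 := hf x
        rw [fV_dot, fV_dot] at h5
        rw [ω_sub_left]
        have h6 : ω (U *ᵥ w) (U *ᵥ x) = ω w x := h4
        rw [h6, h5, sub_self]
      exact sub_eq_zero.mp (eq_zero_of_ω_eq_zero h3)
    have hk : k ∈ Subgroup.centralizer ({T w (1 : F)} : Set (Sp l F)) :=
      (Cfsg.Agent.S2594.mem_centralizer_iff hw k).mpr hsm
    refine ⟨⟨k, hk⟩, ?_⟩
    apply Units.ext
    rfl

lemma T_sub_one (w : l ⊕ l → F) :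
    ((T w (1 : F) : Sp l F) : Matrix (l ⊕ l) (l ⊕ l) F) - 1 = vecMulVec w (fV w) := by
  change tMat w (1 : F) - 1 = _
  rw [tMat, one_smul, add_sub_cancel_left]
  rfl

lemma fV_ne_zero {w : l ⊕ l → F} (hw : w ≠ 0) : fV w ≠ 0 := by
  intro h
  obtain ⟨y, hy⟩ := exists_ω_ne_zero hw
  apply hy
  rw [← fV_dot, h, zero_dotProduct]

lemma isTransvection_T {w : l ⊕ l → F} (hw : w ≠ 0) :
    Cfsg.IsTransvection ((T w (1 : F) : Sp l F) : Matrix (l ⊕ l) (l ⊕ l) F) := by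
  refine ⟨?_, ?_⟩
  · rw [T_sub_one]
    exact rank_vecMulVec_one w _ hw (fV_ne_zero hw)
  · rw [T_sub_one, Matrix.vecMulVec_mul_vecMulVec, fV_dot, ω_self]
    simp

/-- Let T = PSL_n(F) over a finite field of characteristic 2 with n = 2m ≥ 4 even, and G = Inndiag(T) the image of PGL_n(F). The involutory graph automorphisms of T fall into exactly two G-classes, with representatives γ₁ and γ₃ whose centralizers in G are isomorphic respectively to the symplectic group Sp_n(F) and to the centralizer in Sp_n(F) of a symplectic transvection. -/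
theorem result {F : Type*} [Field F] [Fintype F] [CharP F 2] {n m : ℕ} (hm : 2 ≤ m) (hnm : n = 2 * m) :
    ∃ (γ₁ γ₃ : MulAut (Matrix.ProjectiveSpecialLinearGroup (Fin n) F)) (t : ↥(Matrix.symplecticGroup (Fin m) F)), Cfsg.IsTransvection (t : Matrix (Fin m ⊕ Fin m) (Fin m ⊕ Fin m) F) ∧ Cfsg.IsGraphAutClassPSL γ₁ ∧ orderOf γ₁ = 2 ∧ Cfsg.IsGraphAutClassPSL γ₃ ∧ orderOf γ₃ = 2 ∧ ¬ Cfsg.IsConjUnder (Cfsg.inndiagPSL n F) γ₁ γ₃ ∧ (∀ γ : MulAut (Matrix.ProjectiveSpecialLinearGroup (Fin n) F), Cfsg.IsGraphAutClassPSL γ → orderOf γ = 2 → Cfsg.IsConjUnder (Cfsg.inndiagPSL n F) γ₁ γ ∨ Cfsg.IsConjUnder (Cfsg.inndiagPSL n F) γ₃ γ) ∧ Nonempty (↥(Cfsg.inndiagPSL n F ⊓ Subgroup.centralizer {γ₁}) ≃* ↥(Matrix.symplecticGroup (Fin m) F)) ∧ Nonempty (↥(Cfsg.inndiagPSL n F ⊓ Subgroup.centralizer {γ₃}) ≃* ↥(Subgroup.centralizer ({t} : Set ↥(Matrix.symplecticGroup (Fin m) F)))) := by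
  classical
  have hn2 : 2 ≤ n := by omega
  have hn3 : 3 ≤ n := by omega
  let e : Fin m ⊕ Fin m ≃ Fin n := Fintype.equivFinOfCardEq (by simp; omega)
  let i₀ : Fin m := ⟨0, by omega⟩
  let w : Fin m ⊕ Fin m → F := Pi.single (Sum.inl i₀) 1
  have hw : w ≠ 0 := by
    intro h
    have := congrFun h (Sum.inl i₀)
    simp [w] at this
  set g₁ : GL (Fin n) F := rG e (jG F m)⁻¹ with hg₁
  set g₃ : GL (Fin n) F := rG e (A3G w)⁻¹ with hg₃
  have hs₁ : (g₁ : Matrix (Fin n) (Fin n) F)ᵀ = g₁ := by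
    have h1 : (g₁ : Matrix (Fin n) (Fin n) F)ᵀ = -(g₁ : Matrix (Fin n) (Fin n) F) :=
      rG_inv_skew e _ (by
        rw [jG_transpose]
        simp)
    rw [h1, neg_matrix_two]
  have hs₃ : (g₃ : Matrix (Fin n) (Fin n) F)ᵀ = g₃ := rG_inv_symm e _ (A3_symm w)
  have ha₁ : ∀ v : Fin n → F, v ⬝ᵥ ((g₁ : Matrix (Fin n) (Fin n) F) *ᵥ v) = 0 := by
    apply alt_rG_inv
    intro v
    change v ⬝ᵥ ((J (Fin m) F)ᵀ *ᵥ v) = 0
    rw [J_transpose, Matrix.neg_mulVec, dotProduct_neg]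
    have := ω_self (F := F) v
    rw [ω] at this
    rw [this, neg_zero]
  have ha₃ : ∃ v : Fin n → F, v ⬝ᵥ ((g₃ : Matrix (Fin n) (Fin n) F) *ᵥ v) ≠ 0 := by
    obtain ⟨y, hy⟩ := exists_ω_ne_zero hw
    apply nonalt_rG_inv e _ y
    rw [A3G_coe, A3_symm, form_A3, fV_dot]
    exact pow_ne_zero _ hy
  refine ⟨gr g₁, gr g₃, T w 1, isTransvection_T hw, isGraphClass_gr hn3 _, orderOf_gr_sym hn3 _ hs₁,
    isGraphClass_gr hn3 _, orderOf_gr_sym hn3 _ hs₃, not_conj_alt_nonalt hn2 _ _ ha₁ ha₃, ?_, ?_, ?_⟩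
  · intro γ hγ hγ2
    obtain ⟨g, rfl, hg⟩ := involution_cases hn3 hγ hγ2
    have hgs : (g : Matrix (Fin n) (Fin n) F)ᵀ = g := by
      rcases hg with hg | hg
      · exact hg
      · rw [hg, neg_matrix_two]
    by_cases halt : ∀ v : Fin n → F, v ⬝ᵥ ((g : Matrix (Fin n) (Fin n) F) *ᵥ v) = 0
    · left
      exact conj_alt hn2 _ _ ha₁ halt
    · right
      rw [not_forall] at halt
      exact conj_nonalt hn2 _ _ hs₃ hgs ha₃ halt
  · exact cent_equiv_two hn2 e _ spToGL spToGL_injective mem_range_spToGL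
  · refine cent_equiv_two hn2 e (A3G w) _ ?_ (mem_range_cent w hw)
    rw [MonoidHom.coe_comp]
    exact spToGL_injective.comp (Subtype.val_injective)

end Cfsg.Agent.S2701
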