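import Cfsg.Statements.S2702
import Cfsg.Agent.Lib.AutPSL.GraphCard

set_option autoImplicit false
open Cfsg

namespace Cfsg.Agent.S2702

open Cfsg.Agent.Lib.AutPSL Cfsg.Agent.Lib.QuadGram
open scoped Matrix

/-- Let T = PSL_n(F) over the field with q = p^f elements, n ≥ 3, G = Inndiag(T) the image of PGL_n(F), and γ an involutory graph automorphism of T. The G-class of γ is the union of exactly c T-classes, where: if n is even and q is odd, c = gcd(n/2, q − 1) when C_G(γ) is isomorphic to the projective conformal symplectic group PGSp_n(F) (symplectic type) and c = gcd(n, q − 1)/2 otherwise; and c = gcd(n, q − 1) when n is odd or q is even. -/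
theorem result {F : Type*} [Field F] [Fintype F] {p f : ℕ} [Fact p.Prime] (hF : Fintype.card F = p ^ f) (hf : 1 ≤ f) {n : ℕ} (hn : 3 ≤ n) (γ : MulAut (Matrix.ProjectiveSpecialLinearGroup (Fin n) F)) (hγ : Cfsg.IsGraphAutClassPSL γ) (hγ2 : orderOf γ = 2) :
    ((Even n ∧ Odd p ∧ Nonempty (↥(Cfsg.inndiagPSL n F ⊓ Subgroup.centralizer {γ}) ≃* Cfsg.PGSp (n / 2) F)) → Cfsg.splitClassCount (Cfsg.inndiagPSL n F) (Cfsg.Inn (Matrix.ProjectiveSpecialLinearGroup (Fin n) F)) γ = Nat.gcd (n / 2) (p ^ f - 1)) ∧ ((Even n ∧ Odd p ∧ ¬ Nonempty (↥(Cfsg.inndiagPSL n F ⊓ Subgroup.centralizer {γ}) ≃* Cfsg.PGSp (n / 2) F)) → Cfsg.splitClassCount (Cfsg.inndiagPSL n F) (Cfsg.Inn (Matrix.ProjectiveSpecialLinearGroup (Fin n) F)) γ = Nat.gcd n (p ^ f - 1) / 2) ∧ (¬ (Even n ∧ Odd p) → Cfsg.splitClassCount (Cfsg.inndiagPSL n F) (Cfsg.Inn (Matrix.ProjectiveSpecialLinearGroup (Fin n) F)) γ = Nat.gcd n (p ^ f - 1)) := by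
  classical
  have hn2 : 2 ≤ n := by omega
  obtain ⟨g, rfl, hg⟩ := involution_cases hn hγ hγ2
  rw [← hF]
  have hoddq : Odd p → Odd (Fintype.card F) := fun h => by
    rw [hF]
    exact h.pow
  -- the skew case is conjugate to `J`
  have hskew : ∀ m : ℕ, n = 2 * m → ∀ (e : Fin m ⊕ Fin m ≃ Fin n), (2 : F) ≠ 0 →
      (g : Matrix (Fin n) (Fin n) F)ᵀ = -(g : Matrix (Fin n) (Fin n) F) →
      Cfsg.IsConjUnder (Cfsg.inndiagPSL n F) (gr (rG e (jG F m)⁻¹)) (gr g) := by
    intro m _ e h2 hs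
    have hs₁ : ((rG e (jG F m)⁻¹ : GL (Fin n) F) : Matrix (Fin n) (Fin n) F)ᵀ = -((rG e (jG F m)⁻¹ : GL (Fin n) F) : Matrix (Fin n) (Fin n) F) :=
      rG_inv_skew e _ (by
        rw [jG_transpose]
        simp)
    exact conj_alt hn2 _ _ (skew_alt h2 _ hs₁) (skew_alt h2 _ hs)
  refine ⟨?_, ?_, ?_⟩
  · rintro ⟨⟨m, hm⟩, hp, hiso⟩
    have hnm : n = 2 * m := by omega
    have hn2m : n / 2 = m := by omega
    rw [hn2m] at hiso ⊢
    have h2 : (2 : F) ≠ 0 := two_ne_of_odd (hoddq hp)
    have hs : (g : Matrix (Fin n) (Fin n) F)ᵀ = -(g : Matrix (Fin n) (Fin n) F) := by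
      rcases hg with hg | hg
      · exact absurd hiso (not_equiv_sym (hoddq hp) (by omega) hnm g hg)
      · exact hg
    let e : Fin m ⊕ Fin m ≃ Fin n := Fintype.equivFinOfCardEq (by simp; omega)
    obtain ⟨a, ha, hh⟩ := hskew m hnm e h2 hs
    rw [hh, splitClassCount_conj _ _ ha, count_symp hn2 hnm e]
  · rintro ⟨⟨m, hm⟩, hp, hiso⟩
    have hnm : n = 2 * m := by omega
    have hn2m : n / 2 = m := by omega
    rw [hn2m] at hiso
    have h2 : (2 : F) ≠ 0 := two_ne_of_odd (hoddq hp)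
    have hs : (g : Matrix (Fin n) (Fin n) F)ᵀ = g := by
      rcases hg with hg | hg
      · exact hg
      · exfalso
        apply hiso
        let e : Fin m ⊕ Fin m ≃ Fin n := Fintype.equivFinOfCardEq (by simp; omega)
        obtain ⟨a, ha, hh⟩ := hskew m hnm e h2 hg
        rw [hh]
        obtain ⟨iso₁⟩ := centr_conj_equiv _ ha (gr (rG e (jG F m)⁻¹))
        obtain ⟨iso₂⟩ := cent_symp (F := F) hn2 e
        exact ⟨iso₁.trans iso₂⟩
    exact count_sym g (hoddq hp) hn2 hnm hs
  · intro hcon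
    by_cases h2 : (2 : F) = 0
    · haveI : CharP F 2 := CharTwo.of_one_ne_zero_of_two_eq_zero one_ne_zero h2
      exact count_two hn2 g
    · have hp : Odd p := by
        have hp' : p.Prime := Fact.out
        rcases hp'.eq_two_or_odd' with h3 | h3
        · exfalso
          apply h2
          subst h3
          have hf' : f ≠ 0 := by omega
          have h4 : CharP F 2 := by
            obtain ⟨p', hp'⟩ := CharP.exists F
            obtain ⟨l, hp'prime, hk'⟩ := FiniteField.card F p'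
            have h5 : p' ∣ 2 ^ f := by
              rw [← hF, hk']
              exact dvd_pow_self _ l.ne_zero
            have h6 : p' = 2 := (Nat.prime_dvd_prime_iff_eq hp'prime Nat.prime_two).mp (hp'prime.dvd_of_dvd_pow h5)
            rwa [h6] at hp'
          exact two_eq_zero_F
        · exact h3
      have hodd : Odd n := by
        rw [← Nat.not_even_iff_odd]
        intro hev
        exact hcon ⟨hev, hp⟩
      exact count_odd_dim hn2 hodd g

end Cfsg.Agent.S2702
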