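import Cfsg.Statements.S2703
import Cfsg.Agent.Lib.AutPSL.GramForms

set_option autoImplicit false
open Cfsg

namespace Cfsg.Agent.S2703

open Cfsg.Agent.Lib.AutPSL Cfsg.Agent.Lib.QuadGram

/-- Let T = PSL_n(F) over the field with q elements, q odd, n = 2m ≥ 4 even, and ι the inverse-transpose automorphism. Its centralizer in G = Inndiag(T) (the image of PGL_n(F)) is isomorphic to the projective conformal orthogonal group of the plus-type form Σ xᵢ yᵢ in dimension n when n(q − 1)/4 is even, and to that of a minus-type form (Σ xᵢ yᵢ + z₁² + a z₁ z₂ + b z₂² with anisotropic binary part) when n(q − 1)/4 is odd. -/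
theorem result {F : Type*} [Field F] [Fintype F] (hodd : Odd (Fintype.card F)) {n m : ℕ} (hm : 2 ≤ m) (hnm : n = 2 * m) (ι : MulAut (Matrix.ProjectiveSpecialLinearGroup (Fin n) F)) (hι : Cfsg.IsInverseTransposeAutPSL ι) :
    (Even (n * (Fintype.card F - 1) / 4) → Nonempty (↥(Cfsg.inndiagPSL n F ⊓ Subgroup.centralizer {ι}) ≃* Cfsg.PGO F (Cfsg.quadFormPlus m F))) ∧ (¬ Even (n * (Fintype.card F - 1) / 4) → ∃ a b : F, (∀ z₁ z₂ : F, z₁ ^ 2 + a * z₁ * z₂ + b * z₂ ^ 2 = 0 → z₁ = 0 ∧ z₂ = 0) ∧ Nonempty (↥(Cfsg.inndiagPSL n F ⊓ Subgroup.centralizer {ι}) ≃* Cfsg.PGO F (Cfsg.quadFormMinus (m - 1) F a b))) := by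
  classical
  have h2 : (2 : F) ≠ 0 := two_ne_of_odd hodd
  have hn : 2 ≤ n := by omega
  have hι' : ι = gr 1 := by
    rw [gr_one]
    exact (isIT_iff ι).mp hι
  subst hι'
  have harith : n * (Fintype.card F - 1) / 4 = m * (Fintype.card F - 1) / 2 := by
    subst hnm
    have : 2 * m * (Fintype.card F - 1) = 2 * (m * (Fintype.card F - 1)) := by ring
    rw [this]
    exact Nat.mul_div_mul_left _ 2 (by norm_num)
  have hsqiff : Even (n * (Fintype.card F - 1) / 4) ↔ IsSquare ((-1 : F) ^ m) := by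
    rw [harith, isSquare_neg_one_pow_iff hodd]
  rw [hsqiff]
  refine ⟨fun h => ?_, fun h => ?_⟩
  · let e : Fin m ⊕ Fin m ≃ Fin n := Fintype.equivFinOfCardEq (by simp; omega)
    have hc := conj_sym_of_square h2 hn (1 : GL (Fin n) F) (rG e (gPlusG F m)⁻¹) (by simp)
      (rG_inv_symm e _ (gramHyp_symm F m)) (by
        rw [gr_one_det, one_mul, det_rG_inv, isSquare_inv]
        change IsSquare (gramHyp (Fin m) F).det
        rwa [det_gramHyp])
    obtain ⟨e₁⟩ := cent_gr_conj hc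
    obtain ⟨e₂⟩ := cent_plus h2 hn e
    exact ⟨e₁.symm.trans e₂⟩
  · obtain ⟨k, rfl⟩ : ∃ k, m = k + 1 := ⟨m - 1, by omega⟩
    rw [Nat.add_sub_cancel]
    obtain ⟨ν, hν⟩ := exists_nonsq h2
    have hab := hab_of_nonsq h2 hν
    refine ⟨0, -ν, aniso_of_nonsq hν, ?_⟩
    let e : (Fin k ⊕ Fin k) ⊕ Fin 2 ≃ Fin n := Fintype.equivFinOfCardEq (by simp; omega)
    have hc := conj_sym_of_square h2 hn (1 : GL (Fin n) F) (rG e (gMinusG F k hab)⁻¹) (by simp)
      (rG_inv_symm e _ (gMinus_symm F k 0 (-ν))) (by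
        rw [gr_one_det, one_mul, det_rG_inv, isSquare_inv]
        change IsSquare (gMinus F k 0 (-ν)).det
        rw [det_gMinus]
        obtain ⟨r, hr⟩ := isSquare_mul_of_not h hν
        refine ⟨2 * r, ?_⟩
        have : (-1 : F) ^ (k + 1) = -(-1) ^ k := by ring
        rw [this] at hr
        linear_combination (4 : F) * hr)
    obtain ⟨e₁⟩ := cent_gr_conj hc
    obtain ⟨e₂⟩ := cent_minus h2 hn hab e
    exact ⟨e₁.symm.trans e₂⟩

end Cfsg.Agent.S2703
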