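import Cfsg.Statements.S2704
import Cfsg.Agent.Lib.AutPSL.GraphFieldCent

set_option autoImplicit false
open Cfsg

namespace Cfsg.Agent.S2704

open Cfsg.Agent.Lib.AutPSL Cfsg.Agent.Lib.Hilbert90

/-- Let T = PSL_n(F) over the field F with p^f elements, n ≥ 3, and G = Inndiag(T) the image of PGL_n(F). If x is an involutory graph-field automorphism of T then f is even; x is G-conjugate to every other involutory graph-field automorphism; C_G(x) is isomorphic to the projective general unitary group PGU_n(q₀) with q₀² = p^f, realised over F itself through the Hermitian form Σ uᵢ vᵢ^{q₀}; and the G-class of x is the union of exactly gcd(n, q₀ − 1) T-classes. -/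
theorem result {F : Type*} [Field F] [Fintype F] {p f : ℕ} [Fact p.Prime] (hF : Fintype.card F = p ^ f) (hf : 1 ≤ f) {n : ℕ} (hn : 3 ≤ n) (x : MulAut (Matrix.ProjectiveSpecialLinearGroup (Fin n) F)) (hx : Cfsg.IsGraphFieldAutClassPSL x) (hx2 : orderOf x = 2) :
    Even f ∧ (∀ y : MulAut (Matrix.ProjectiveSpecialLinearGroup (Fin n) F), Cfsg.IsGraphFieldAutClassPSL y → orderOf y = 2 → Cfsg.IsConjUnder (Cfsg.inndiagPSL n F) x y) ∧ Nonempty (↥(Cfsg.inndiagPSL n F ⊓ Subgroup.centralizer {x}) ≃* Cfsg.PGU n F (p ^ (f / 2))) ∧ Cfsg.splitClassCount (Cfsg.inndiagPSL n F) (Cfsg.Inn (Matrix.ProjectiveSpecialLinearGroup (Fin n) F)) x = Nat.gcd n (p ^ (f / 2) - 1) := by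
  classical
  have hp : p.Prime := Fact.out
  have hn2 : 2 ≤ n := by omega
  have hconj : ∀ (a b : MulAut (Matrix.ProjectiveSpecialLinearGroup (Fin n) F)), orderOf (a * b * a⁻¹) = orderOf b := by
    intro a b
    exact orderOf_injective (MulAut.conj a).toMonoidHom (MulEquiv.injective _) b
  have hfp : ∀ (σ : F ≃+* F) (k : ℕ), (fa σ : MulAut (Matrix.ProjectiveSpecialLinearGroup (Fin n) F)) ^ k = fa (σ ^ k) := by
    intro σ k
    rw [← faHom_apply, ← faHom_apply, map_pow]
  -- involutory graph-field automorphisms come from involutions of the field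
  have key : ∀ y : MulAut (Matrix.ProjectiveSpecialLinearGroup (Fin n) F), Cfsg.IsGraphFieldAutClassPSL y → orderOf y = 2 →
      ∃ (u : GL (Fin n) F) (σ : F ≃+* F), orderOf σ = 2 ∧ y = dl u * (fa σ * itAut) * (dl u)⁻¹ := by
    intro y hy hy2
    obtain ⟨u, σ, hσ, hyu⟩ := exists_of_graphFieldClass hp hf hF hy
    refine ⟨u, σ, ?_, hyu⟩
    have hcomm : Commute (fa σ : MulAut (Matrix.ProjectiveSpecialLinearGroup (Fin n) F)) itAut := (itAut_mul_fa σ).symm
    have h1 : orderOf (fa σ * itAut : MulAut (Matrix.ProjectiveSpecialLinearGroup (Fin n) F)) = 2 := by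
      rw [← hy2, hyu, hconj]
    have hbr : (fa σ * itAut : MulAut (Matrix.ProjectiveSpecialLinearGroup (Fin n) F)) ^ 2 = 1 := by
      rw [← h1]
      exact pow_orderOf_eq_one _
    have hσ2 : σ ^ 2 = 1 := by
      rw [hcomm.mul_pow, hfp, itAut_pow_two, mul_one] at hbr
      apply fa_injective (n := n) hn2
      rw [hbr, fa_one]
    exact orderOf_eq_prime hσ2 hσ
  obtain ⟨u, σ, hord, hxu⟩ := key x hx hx2
  have : Finite (F ≃+* F) := Finite.of_injective (fun e : F ≃+* F => (e : F → F)) DFunLike.coe_injective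
  have h2f : 2 ∣ f := by
    rw [← hord]
    have h1 := orderOf_dvd_natCard σ
    rwa [card_ringAut hF hf] at h1
  obtain ⟨k, rfl⟩ := h2f
  have hk : 2 * k / 2 = k := Nat.mul_div_cancel_left _ (by norm_num)
  rw [hk]
  have hk0 : 0 < k := by
    rcases Nat.eq_zero_or_pos k with rfl | h
    · simp at hf
    · exact h
  have hfix : Nat.card (fixedF σ) = p ^ k := by
    have h1 := card_eq_card_fixedF_pow σ hord
    rw [Nat.card_eq_fintype_card (α := F), hF, mul_comm 2 k, pow_mul] at h1
    exact (Nat.pow_left_injective (n := 2) (by omega) h1).symm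
  have hq : ∀ a : F, σ a = a ^ (p ^ k) := inv_aut_eq_pow hF hk0 σ hord
  have hU := dl_mem_inndiag u
  refine ⟨⟨k, by ring⟩, ?_, ?_, ?_⟩
  · intro y hy hy2
    obtain ⟨v, τ, hordτ, hyv⟩ := key y hy hy2
    have hτ : τ = σ := by
      ext a
      rw [hq a, inv_aut_eq_pow hF hk0 τ hordτ a]
    subst hτ
    refine ⟨dl v * (dl u)⁻¹, mul_mem (dl_mem_inndiag v) (inv_mem hU), ?_⟩
    rw [hyv, hxu]
    group
  · obtain ⟨e₁⟩ := graphField_cent_equiv hn2 σ hord hq
    rw [hxu]
    obtain ⟨e₂⟩ := centr_conj_equiv (Cfsg.inndiagPSL n F) hU (fa σ * itAut)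
    exact ⟨e₂.trans e₁⟩
  · rw [hxu, splitClassCount_conj _ _ hU, graphField_count hn2 σ hord, Nat.gcd_comm, hfix]

end Cfsg.Agent.S2704
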