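import Cfsg.Statements.S2705
import Cfsg.Agent.Lib.AutPSU.FieldSplitU

set_option autoImplicit false
open Cfsg

namespace Cfsg.Agent.S2705

open Cfsg.Agent.Lib.AutPSU Cfsg.Agent.Lib.Hilbert90

theorem inn_conj {T : Type*} [Group T] (α : MulAut T) (h : MulAut T) : h ∈ Cfsg.Inn T ↔ α * h * α⁻¹ ∈ Cfsg.Inn T := by
  have key : ∀ (β : MulAut T) (a : T), β * MulAut.conj a * β⁻¹ = MulAut.conj (β a) := by
    intro β a
    ext x
    simp [MulAut.conj_apply, MulAut.inv_def, MulAut.mul_apply]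
  constructor
  · rintro ⟨a, rfl⟩
    exact ⟨α a, (key α a).symm⟩
  · rintro ⟨a, ha⟩
    refine ⟨α⁻¹ a, ?_⟩
    have h1 := key α⁻¹ a
    rw [inv_inv] at h1
    change MulAut.conj _ = _
    rw [← h1]
    change α⁻¹ * MulAut.conj a * α = h
    rw [show MulAut.conj a = α * h * α⁻¹ from ha]
    group

/-- Let T = PSU_n(q) be simple (n ≥ 3, (n, q) ≠ (3, 2), q = p^f), realised over the field F with q² elements, G = Inndiag(T) the image of PGU_n(q) in Aut(T), and x a field automorphism of T (conjugate to a standard field automorphism of odd order) of odd prime order r. Then r divides f; C_G(x) is isomorphic to PGU_n(q₀) with q₀ = p^(f/r), realised over a field F₀ with q₀² elements; and the G-class of x is the union of exactly gcd(n, (q + 1)/(q₀ + 1)) T-classes. -/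
theorem result {F : Type*} [Field F] [Fintype F] {p f q : ℕ} [Fact p.Prime] (hq : q = p ^ f) (hf : 1 ≤ f) (hF : Fintype.card F = q ^ 2) {n : ℕ} (hn : 3 ≤ n) (hs : ¬ (n = 3 ∧ q = 2)) (x : MulAut (Cfsg.PSU n F q)) (hx : Cfsg.IsFieldAutClassPSU x) {r : ℕ} (hr : r.Prime) (hro : Odd r) (hxr : orderOf x = r) (F₀ : Type*) [Field F₀] [Fintype F₀] (hF₀ : Fintype.card F₀ = p ^ (2 * (f / r))) :
    r ∣ f ∧ Nonempty (↥(Cfsg.inndiagPSU n F q ⊓ Subgroup.centralizer {x}) ≃* Cfsg.PGU n F₀ (p ^ (f / r))) ∧ Cfsg.splitClassCount (Cfsg.inndiagPSU n F q) (Cfsg.Inn (Cfsg.PSU n F q)) x = Nat.gcd n ((q + 1) / (p ^ (f / r) + 1)) := by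
  classical
  haveI := charP_of_card hF hq hf
  obtain ⟨α, φ, σ, -, hodd, hφ, hαx⟩ := hx
  rw [eq_faU hφ] at hαx
  have hox : orderOf σ = r := by
    have h1 : orderOf (α * x * α⁻¹) = orderOf x := ((SemiconjBy.conj_mk α x).orderOf_eq α).symm
    rw [hαx, orderOf_faU (p := p) hF hn, hxr] at h1
    exact h1
  have hFp : Fintype.card F = p ^ (2 * f) := by
    rw [hF, hq, ← pow_mul, mul_comm]
  have h2f : 1 ≤ 2 * f := by omega
  have hd : r ∣ 2 * f := by
    rw [← hox, ← Cfsg.Agent.Lib.AutPSL.card_ringAut hFp h2f]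
    exact orderOf_dvd_natCard σ
  have hrf : r ∣ f := (Nat.Coprime.dvd_of_dvd_mul_left hro.coprime_two_right hd)
  obtain ⟨m, hm⟩ := hrf
  have hfr : f / r = m := by
    rw [hm]
    exact Nat.mul_div_cancel_left m hr.pos
  rw [hfr] at hF₀ ⊢
  have hqq : q = (p ^ m) ^ orderOf σ := by
    rw [hox, hq, hm, ← pow_mul, mul_comm]
  have hF₀' : Fintype.card F₀ = (p ^ m) ^ 2 := by
    rw [hF₀, ← pow_mul, mul_comm]
  have hcard : Nat.card (fixedF σ) = (p ^ m) ^ 2 := by
    have h1 := card_eq_card_fixedF_pow σ hox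
    rw [Nat.card_eq_fintype_card, hF, hqq, hox, ← pow_mul, mul_comm, pow_mul] at h1
    exact (Nat.pow_left_injective (n := r) (by have := hr.two_le; omega) h1).symm
  have hnormH : ∀ h, h ∈ Cfsg.inndiagPSU n F q ↔ α * h * α⁻¹ ∈ Cfsg.inndiagPSU n F q := by
    intro h
    constructor
    · exact conj_mem_inndiag (p := p) hF hn hs α
    · intro h1
      have h2 := conj_mem_inndiag (p := p) hF hn hs α⁻¹ h1
      have h3 : α⁻¹ * (α * h * α⁻¹) * α⁻¹⁻¹ = h := by group
      rwa [h3] at h2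
  refine ⟨⟨m, hm⟩, ?_, ?_⟩
  · obtain ⟨e1⟩ := centr_conj_equiv' _ α hnormH x
    rw [hαx] at e1
    obtain ⟨e2⟩ := cent_equiv (p := p) hF hn σ hodd hF₀' hcard hqq
    exact ⟨e1.trans e2⟩
  · rw [← splitClassCount_conj' _ _ α hnormH (inn_conj α) x, hαx, split_count_U (p := p) hF hn σ hodd hcard hqq, Nat.gcd_comm]

end Cfsg.Agent.S2705
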