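import Cfsg.Statements.S2707
import Cfsg.Agent.Lib.AutPSU.GraphCent
import Cfsg.Agent.S2700

set_option autoImplicit false
open Cfsg

namespace Cfsg.Agent.S2707

open Cfsg.Agent.Lib.AutPSU Cfsg.Agent.Lib.AutPSU.GB

/-- Let T = PSU_n(q) with n = 2m ≥ 4 even and q odd, realised over the field F with q² elements, and G = Inndiag(T) the image of PGU_n(q). The involutory graph automorphisms of T fall into exactly three G-classes, with representatives whose centralizers in G are isomorphic respectively to the projective conformal symplectic group PGSp_n(F₀), the projective conformal orthogonal group of the plus-type form Σ xᵢ yᵢ, and that of a minus-type form Σ xᵢ yᵢ + z₁² + a z₁ z₂ + b z₂² (anisotropic binary part) in dimension n, all over a field F₀ with q elements. -/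
theorem result {F : Type*} [Field F] [Fintype F] {q : ℕ} (hodd : Odd q) (hF : Fintype.card F = q ^ 2) {n m : ℕ} (hm : 2 ≤ m) (hnm : n = 2 * m) (F₀ : Type*) [Field F₀] [Fintype F₀] (hF₀ : Fintype.card F₀ = q) :
    ∃ (γ₁ γ₂ γ₃ : MulAut (Cfsg.PSU n F q)) (a b : F₀), (∀ z₁ z₂ : F₀, z₁ ^ 2 + a * z₁ * z₂ + b * z₂ ^ 2 = 0 → z₁ = 0 ∧ z₂ = 0) ∧ Cfsg.IsGraphAutClassPSU γ₁ ∧ orderOf γ₁ = 2 ∧ Cfsg.IsGraphAutClassPSU γ₂ ∧ orderOf γ₂ = 2 ∧ Cfsg.IsGraphAutClassPSU γ₃ ∧ orderOf γ₃ = 2 ∧ ¬ Cfsg.IsConjUnder (Cfsg.inndiagPSU n F q) γ₁ γ₂ ∧ ¬ Cfsg.IsConjUnder (Cfsg.inndiagPSU n F q) γ₁ γ₃ ∧ ¬ Cfsg.IsConjUnder (Cfsg.inndiagPSU n F q) γ₂ γ₃ ∧ (∀ γ : MulAut (Cfsg.PSU n F q), Cfsg.IsGraphAutClassPSU γ → orderOf γ = 2 → Cfsg.IsConjUnder (Cfsg.inndiagPSU n F q) γ₁ γ ∨ Cfsg.IsConjUnder (Cfsg.inndiagPSU n F q) γ₂ γ ∨ Cfsg.IsConjUnder (Cfsg.inndiagPSU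 n F q) γ₃ γ) ∧ Nonempty (↥(Cfsg.inndiagPSU n F q ⊓ Subgroup.centralizer {γ₁}) ≃* Cfsg.PGSp m F₀) ∧ Nonempty (↥(Cfsg.inndiagPSU n F q ⊓ Subgroup.centralizer {γ₂}) ≃* Cfsg.PGO F₀ (Cfsg.quadFormPlus m F₀)) ∧ Nonempty (↥(Cfsg.inndiagPSU n F q ⊓ Subgroup.centralizer {γ₃}) ≃* Cfsg.PGO F₀ (Cfsg.quadFormMinus (m - 1) F₀ a b)) := by
  obtain ⟨p, hch⟩ := CharP.exists F
  haveI hp : Fact p.Prime := ⟨CharP.char_is_prime F p⟩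
  have hn : 3 ≤ n := by omega
  obtain ⟨ι, hι⟩ := exists_emb (F₀ := F₀) hF hF₀
  have hodd₀ : Odd (Fintype.card F₀) := by rw [hF₀]; exact hodd
  obtain ⟨y₁, y₂, y₃, a, b, hab, hy₁, ho₁, hy₂, ho₂, hy₃, ho₃, n12, n13, n23, hall, ⟨c₁⟩, ⟨c₂⟩, ⟨c₃⟩⟩ :=
    Cfsg.Agent.S2700.result (F := F₀) hodd₀ hm hnm
  obtain ⟨γ₁, hg₁, hγo₁, hl₁⟩ := exists_link_of_L (q := q) (F := F) (p := p) hF hn hι hy₁ ho₁
  obtain ⟨γ₂, hg₂, hγo₂, hl₂⟩ := exists_link_of_L (q := q) (F := F) (p := p) hF hn hι hy₂ ho₂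
  obtain ⟨γ₃, hg₃, hγo₃, hl₃⟩ := exists_link_of_L (q := q) (F := F) (p := p) hF hn hι hy₃ ho₃
  refine ⟨γ₁, γ₂, γ₃, a, b, hab, hg₁, hγo₁, hg₂, hγo₂, hg₃, hγo₃, ?_, ?_, ?_, ?_, ?_, ?_, ?_⟩
  · rw [link_conj (p := p) hF hn hι hl₁ hl₂]
    exact n12
  · rw [link_conj (p := p) hF hn hι hl₁ hl₃]
    exact n13
  · rw [link_conj (p := p) hF hn hι hl₂ hl₃]
    exact n23
  · intro γ hγ hγo
    obtain ⟨y, hy, hyo, hl⟩ := exists_link_of_U (p := p) hF hn hι hγ hγo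
    rw [link_conj (p := p) hF hn hι hl₁ hl, link_conj (p := p) hF hn hι hl₂ hl, link_conj (p := p) hF hn hι hl₃ hl]
    exact hall y hy hyo
  · obtain ⟨e⟩ := link_cent (p := p) hF hn hι hl₁
    exact ⟨e.trans c₁⟩
  · obtain ⟨e⟩ := link_cent (p := p) hF hn hι hl₂
    exact ⟨e.trans c₂⟩
  · obtain ⟨e⟩ := link_cent (p := p) hF hn hι hl₃
    exact ⟨e.trans c₃⟩

end Cfsg.Agent.S2707
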