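import Cfsg.Statements.S2708
import Cfsg.Agent.Lib.AutPSU.GraphCent
import Cfsg.Agent.S2701

set_option autoImplicit false
open Cfsg

namespace Cfsg.Agent.S2708

open Cfsg.Agent.Lib.AutPSU Cfsg.Agent.Lib.AutPSU.GB

/-- Let T = PSU_n(q) with n = 2m ≥ 4 even and q even, realised over the field F (of characteristic 2) with q² elements, and G = Inndiag(T) the image of PGU_n(q). The involutory graph automorphisms of T fall into exactly two G-classes, with representatives whose centralizers in G are isomorphic respectively to the symplectic group Sp_n(F₀) and to the centralizer in Sp_n(F₀) of a symplectic transvection, F₀ a field with q elements. -/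
theorem result {F : Type*} [Field F] [Fintype F] [CharP F 2] {q : ℕ} (hF : Fintype.card F = q ^ 2) {n m : ℕ} (hm : 2 ≤ m) (hnm : n = 2 * m) (F₀ : Type*) [Field F₀] [Fintype F₀] (hF₀ : Fintype.card F₀ = q) :
    ∃ (γ₁ γ₃ : MulAut (Cfsg.PSU n F q)) (t : ↥(Matrix.symplecticGroup (Fin m) F₀)), Cfsg.IsTransvection (t : Matrix (Fin m ⊕ Fin m) (Fin m ⊕ Fin m) F₀) ∧ Cfsg.IsGraphAutClassPSU γ₁ ∧ orderOf γ₁ = 2 ∧ Cfsg.IsGraphAutClassPSU γ₃ ∧ orderOf γ₃ = 2 ∧ ¬ Cfsg.IsConjUnder (Cfsg.inndiagPSU n F q) γ₁ γ₃ ∧ (∀ γ : MulAut (Cfsg.PSU n F q), Cfsg.IsGraphAutClassPSU γ → orderOf γ = 2 → Cfsg.IsConjUnder (Cfsg.inndiagPSU n F q) γ₁ γ ∨ Cfsg.IsConjUnder (Cfsg.inndiagPSU n F q) γ₃ γ) ∧ Nonempty (↥(Cfsg.inndiagPSU n F q ⊓ Subgroup.centralizer {γ₁}) ≃* ↥(Matrix.symplecticGroup (Fin m) F₀)) ∧ Nonempty (↥(Cfsg.inndiagPSU n F q ⊓ Subgroup.centralizer {γ₃}) ≃* ↥(Subgroup.centralizer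 ({t} : Set ↥(Matrix.symplecticGroup (Fin m) F₀)))) := by
  haveI hp : Fact (Nat.Prime 2) := ⟨Nat.prime_two⟩
  have hn : 3 ≤ n := by omega
  obtain ⟨ι, hι⟩ := exists_emb (F₀ := F₀) hF hF₀
  haveI hch₀ : CharP F₀ 2 := (RingHom.charP_iff ι ι.injective 2).2 inferInstance
  obtain ⟨y₁, y₃, t, ht, hy₁, ho₁, hy₃, ho₃, n13, hall, ⟨c₁⟩, ⟨c₃⟩⟩ :=
    Cfsg.Agent.S2701.result (F := F₀) hm hnm
  obtain ⟨γ₁, hg₁, hγo₁, hl₁⟩ := exists_link_of_L (q := q) (F := F) (p := 2) hF hn hι hy₁ ho₁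
  obtain ⟨γ₃, hg₃, hγo₃, hl₃⟩ := exists_link_of_L (q := q) (F := F) (p := 2) hF hn hι hy₃ ho₃
  refine ⟨γ₁, γ₃, t, ht, hg₁, hγo₁, hg₃, hγo₃, ?_, ?_, ?_, ?_⟩
  · rw [link_conj (p := 2) hF hn hι hl₁ hl₃]
    exact n13
  · intro γ hγ hγo
    obtain ⟨y, hy, hyo, hl⟩ := exists_link_of_U (p := 2) hF hn hι hγ hγo
    rw [link_conj (p := 2) hF hn hι hl₁ hl, link_conj (p := 2) hF hn hι hl₃ hl]
    exact hall y hy hyo
  · obtain ⟨e⟩ := link_cent (p := 2) hF hn hι hl₁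
    exact ⟨e.trans c₁⟩
  · obtain ⟨e⟩ := link_cent (p := 2) hF hn hι hl₃
    exact ⟨e.trans c₃⟩

end Cfsg.Agent.S2708
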