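import Cfsg.Statements.S2709
import Cfsg.Agent.Lib.AutPSU.GraphCountU

set_option autoImplicit false
open Cfsg

namespace Cfsg.Agent.S2709

open Cfsg.Agent.Lib.AutPSU Cfsg.Agent.Lib.AutPSU.GB
open Cfsg.Agent.Lib.AutPSL (gr rG jG skew_alt two_ne_of_odd not_equiv_sym conj_alt rG_inv_skew jG_transpose gl_det_ne centr_conj_equiv cent_symp sign_of_sym)
open scoped MatrixGroups Matrix

/-- Let T = PSU_n(q) be simple (n ≥ 3, (n,q) ≠ (3,2), q = p^f), realised over the field F with q² elements, G = Inndiag(T) the image of PGU_n(q), and γ an involutory graph automorphism of T. The G-class of γ is the union of exactly c T-classes, where: if n is even and q is odd, c = gcd(n/2, q + 1) when C_G(γ) is isomorphic to PGSp_n(F₀) for a field F₀ with q elements (symplectic type) and c = gcd(n, q + 1)/2 otherwise; and c = gcd(n, q + 1) when n is odd or q is even. -/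
theorem result {F : Type*} [Field F] [Fintype F] {p f q : ℕ} [Fact p.Prime] (hq : q = p ^ f) (hf : 1 ≤ f) (hF : Fintype.card F = q ^ 2) {n : ℕ} (hn : 3 ≤ n) (hs : ¬ (n = 3 ∧ q = 2)) (F₀ : Type*) [Field F₀] [Fintype F₀] (hF₀ : Fintype.card F₀ = q) (γ : MulAut (Cfsg.PSU n F q)) (hγ : Cfsg.IsGraphAutClassPSU γ) (hγ2 : orderOf γ = 2) :
    ((Even n ∧ Odd q ∧ Nonempty (↥(Cfsg.inndiagPSU n F q ⊓ Subgroup.centralizer {γ}) ≃* Cfsg.PGSp (n / 2) F₀)) → Cfsg.splitClassCount (Cfsg.inndiagPSU n F q) (Cfsg.Inn (Cfsg.PSU n F q)) γ = Nat.gcd (n / 2) (q + 1)) ∧ ((Even n ∧ Odd q ∧ ¬ Nonempty (↥(Cfsg.inndiagPSU n F q ⊓ Subgroup.centralizer {γ}) ≃* Cfsg.PGSp (n / 2) F₀)) → Cfsg.splitClassCount (Cfsg.inndiagPSU n F q) (Cfsg.Inn (Cfsg.PSU n F q)) γ = Nat.gcd n (q + 1) / 2) ∧ (¬ (Even n ∧ Odd q) → Cfsg.splitClassCount (Cfsg.inndiagPSU n F q) (Cfsg.Inn (Cfsg.PSU n F q)) γ = Nat.gcd n (q + 1)) := by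
  classical
  haveI hch := charP_of_card hF hq hf
  obtain ⟨ι, hι⟩ := exists_emb (F₀ := F₀) hF hF₀
  have hn1 : 1 ≤ n := by omega
  have hn2 : 2 ≤ n := by omega
  obtain ⟨g, hg, μ, rfl, hμ⟩ := exists_of_graph (p := p) hF hn hγ hγ2
  obtain ⟨B, hr⟩ := exists_form_of_inv hn1 hι hg hμ
  have hl : Link hF ι (semiAut hg (tauE hF)) (gr B⁻¹) := ⟨g, hg, B, hr, rfl, rfl⟩
  obtain ⟨e₁⟩ := link_cent (p := p) hF hn hι hl
  obtain ⟨ε, hε⟩ := form_symm_of_rep hn1 hι hr
  have hoddq : Odd q → Odd (Fintype.card F₀) := fun h => by rw [hF₀]; exact h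
  have hεs : Odd q → ((B : Matrix (Fin n) (Fin n) F₀)ᵀ = B ∨ (B : Matrix (Fin n) (Fin n) F₀)ᵀ = -(B : Matrix (Fin n) (Fin n) F₀)) := by
    intro _
    have h1 : (B : Matrix (Fin n) (Fin n) F₀) = ((ε : F₀)) • (B : Matrix (Fin n) (Fin n) F₀)ᵀ := by
      have hss : (ε : F₀) * ε = 1 := by
        have h2 : (B : Matrix (Fin n) (Fin n) F₀) = ((ε : F₀) * ε) • (B : Matrix (Fin n) (Fin n) F₀) := by
          have h3 := congrArg Matrix.transpose hε
          rw [Matrix.transpose_transpose, Matrix.transpose_smul, hε, smul_smul] at h3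
          exact h3
        by_contra hne
        have h4 : ((ε : F₀) * ε - 1) • (B : Matrix (Fin n) (Fin n) F₀) = 0 := by
          rw [sub_smul, ← h2, one_smul, sub_self]
        rcases smul_eq_zero.1 h4 with h5 | h5
        · exact hne (sub_eq_zero.1 h5)
        · have h6 := gl_det_ne B
          rw [h5] at h6
          haveI : Nonempty (Fin n) := ⟨⟨0, by omega⟩⟩
          exact h6 Matrix.det_zero
      rw [hε, smul_smul, hss, one_smul]
    rcases sign_of_sym hn1 B ε h1 with h2 | h2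
    · left
      rw [hε, h2, one_smul]
    · right
      rw [hε, h2, neg_one_smul]
  -- the skew case gives a symplectic centraliser
  have hskew : ∀ m : ℕ, n = 2 * m → (2 : F₀) ≠ 0 → (B : Matrix (Fin n) (Fin n) F₀)ᵀ = -(B : Matrix (Fin n) (Fin n) F₀) →
      Nonempty (↥(Cfsg.inndiagPSL n F₀ ⊓ Subgroup.centralizer {gr B⁻¹}) ≃* Cfsg.PGSp m F₀) := by
    intro m hnm h2 hB
    let e : Fin m ⊕ Fin m ≃ Fin n := Fintype.equivFinOfCardEq (by simp; omega)
    have hs₁ : ((rG e (jG F₀ m)⁻¹ : GL (Fin n) F₀) : Matrix (Fin n) (Fin n) F₀)ᵀ = -((rG e (jG F₀ m)⁻¹ : GL (Fin n) F₀) : Matrix (Fin n) (Fin n) F₀) :=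
      rG_inv_skew e _ (by
        rw [jG_transpose]
        simp)
    obtain ⟨a, ha, hh⟩ := conj_alt hn2 _ _ (skew_alt h2 _ hs₁) (skew_alt h2 _ (inv_skew hB))
    rw [hh]
    obtain ⟨iso₁⟩ := centr_conj_equiv _ ha (gr (rG e (jG F₀ m)⁻¹))
    obtain ⟨iso₂⟩ := cent_symp (F := F₀) hn2 e
    exact ⟨iso₁.trans iso₂⟩
  refine ⟨?_, ?_, ?_⟩
  · rintro ⟨⟨m, hm⟩, hodd, ⟨iso⟩⟩
    have hnm : n = 2 * m := by omega
    have hn2m : n / 2 = m := by omega
    rw [hn2m] at iso ⊢
    have h2 : (2 : F₀) ≠ 0 := two_ne_of_odd (hoddq hodd)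
    rcases hεs hodd with hB | hB
    · exact absurd ⟨e₁.symm.trans iso⟩ (not_equiv_sym (hoddq hodd) (by omega) hnm B⁻¹ (inv_symm hB))
    · exact countU_alt (p := p) hF hn hι hg hr hnm h2 hB
  · rintro ⟨⟨m, hm⟩, hodd, hiso⟩
    have hnm : n = 2 * m := by omega
    have hn2m : n / 2 = m := by omega
    rw [hn2m] at hiso
    have h2 : (2 : F₀) ≠ 0 := two_ne_of_odd (hoddq hodd)
    rcases hεs hodd with hB | hB
    · exact countU_sym (p := p) hF hn hι hg hr hnm h2 hodd hB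
    · exfalso
      apply hiso
      obtain ⟨iso⟩ := hskew m hnm h2 hB
      exact ⟨e₁.trans iso⟩
  · intro hcon
    apply countU_trivial (p := p) hF hn hι hg hr
    by_cases hodd : Odd n
    · exact Or.inl hodd
    · right
      have hev : Even n := Nat.not_odd_iff_even.1 hodd
      have hqe : Even q := by
        rw [← Nat.not_odd_iff_even]
        intro h
        exact hcon ⟨hev, h⟩
      have h1 : (q : F₀) = 0 := by
        rw [← hF₀]
        exact Nat.cast_card_eq_zero F₀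
      obtain ⟨k, hk⟩ := hqe
      -- `p = 2`
      have hp2 : p = 2 := by
        have hp' : p.Prime := Fact.out
        have h3 : 2 ∣ p ^ f := by
          rw [← hq, hk]
          exact ⟨k, by ring⟩
        exact ((Nat.prime_dvd_prime_iff_eq Nat.prime_two hp').1 (Nat.prime_two.dvd_of_dvd_pow h3)).symm
      subst hp2
      haveI hch₀ : CharP F₀ 2 := (RingHom.charP_iff ι ι.injective 2).2 hch
      exact CharTwo.two_eq_zero

end Cfsg.Agent.S2709
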