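import Cfsg.Statements.S2710
import Cfsg.Agent.Lib.AutPSU.GraphCent

set_option autoImplicit false
open Cfsg

namespace Cfsg.Agent.S2710

open Cfsg.Agent.Lib.AutPSU Cfsg.Agent.Lib.AutPSU.GB
open Cfsg.Agent.Lib.AutPSL (gr rG gPlusG gramHyp_symm rG_inv_symm det_rG_inv conj_sym_of_square cent_gr_conj cent_plus two_ne_of_odd)
open scoped MatrixGroups Matrix

/-- Let T = PSU_n(q) with n ≥ 4 divisible by 4 (n = 2m) and q odd, realised over the field F with q² elements, G = Inndiag(T) the image of PGU_n(q), and φ the standard field automorphism of T attached to the q-th power map of F (it induces inverse-transpose on the unitary matrices and is a graph automorphism). Its centralizer in G is isomorphic to the projective conformal orthogonal group of the plus-type form Σ xᵢ yᵢ in dimension n over a field F₀ with q elements. (Dimensions n ≡ 2 (mod 4) are not covered.) -/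
theorem result {F : Type*} [Field F] [Fintype F] {q : ℕ} (hodd : Odd q) (hF : Fintype.card F = q ^ 2) {n m : ℕ} (hm : 2 ≤ m) (hnm : n = 2 * m) (h4 : 4 ∣ n) (F₀ : Type*) [Field F₀] [Fintype F₀] (hF₀ : Fintype.card F₀ = q) (σ : F ≃+* F) (hσ : ∀ a : F, σ a = a ^ q) (φ : MulAut (Cfsg.PSU n F q)) (hφ : Cfsg.IsFieldAutPSUOf σ φ) :
    Nonempty (↥(Cfsg.inndiagPSU n F q ⊓ Subgroup.centralizer {φ}) ≃* Cfsg.PGO F₀ (Cfsg.quadFormPlus m F₀)) := by
  classical
  obtain ⟨p, hch⟩ := CharP.exists F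
  haveI hp : Fact p.Prime := ⟨CharP.char_is_prime F p⟩
  have hn : 3 ≤ n := by omega
  obtain ⟨ι, hι⟩ := exists_emb (F₀ := F₀) hF hF₀
  have hodd₀ : Odd (Fintype.card F₀) := by rw [hF₀]; exact hodd
  have h2 : (2 : F₀) ≠ 0 := two_ne_of_odd hodd₀
  have hσ' : σ = tauE hF := by
    ext a
    rw [hσ, tauE_apply]
  subst hσ'
  rw [eq_faU hφ]
  -- the link with `gr 1`
  have hl : Link hF ι (faU n F q (tauE hF)) (gr (1 : GL (Fin n) F₀)⁻¹) := by
    refine ⟨1, one_mem _, 1, ⟨1, 1, 1, ?_, ?_⟩, rfl, rfl⟩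
    · simp
    · simp [cj_one]
  obtain ⟨e₁⟩ := link_cent (p := p) hF hn hι hl
  rw [inv_one] at e₁
  -- `m` is even
  have hmeven : Even m := by
    obtain ⟨k, hk⟩ := h4
    exact ⟨k, by omega⟩
  let e : Fin m ⊕ Fin m ≃ Fin n := Fintype.equivFinOfCardEq (by simp; omega)
  set g₂ : GL (Fin n) F₀ := rG e (gPlusG F₀ m)⁻¹ with hg₂
  have hs₂ : (g₂ : Matrix (Fin n) (Fin n) F₀)ᵀ = g₂ := rG_inv_symm e _ (gramHyp_symm F₀ m)
  have hd₂ : (g₂ : Matrix (Fin n) (Fin n) F₀).det = 1 := by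
    rw [hg₂, det_rG_inv]
    change ((Cfsg.Agent.Lib.QuadGram.gramHyp (Fin m) F₀).det)⁻¹ = _
    rw [Cfsg.Agent.Lib.QuadGram.det_gramHyp, hmeven.neg_one_pow, inv_one]
  have hc : Cfsg.IsConjUnder (Cfsg.inndiagPSL n F₀) (gr g₂) (gr (1 : GL (Fin n) F₀)) := by
    apply conj_sym_of_square h2 (by omega) _ _ hs₂ (by simp)
    rw [hd₂]
    simp
  obtain ⟨e₂⟩ := cent_gr_conj hc
  obtain ⟨e₃⟩ := cent_plus (F := F₀) h2 (by omega) e
  exact ⟨e₁.trans (e₂.trans e₃)⟩

end Cfsg.Agent.S2710
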