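import Cfsg.Statements.S2712
import Cfsg.Agent.Lib.AutPSp.Cent

set_option autoImplicit false
open Cfsg

namespace Cfsg.Agent.S2712

open Cfsg.Agent.Lib.AutPSp Cfsg.Agent.Lib.Hilbert90

/-- Let T = PSp_{2m}(F) be simple over the field F with p^f elements (m ≥ 2, (2m, |F|) ≠ (4, 2)), G = Inndiag(T) the image of the projective conformal symplectic group PGSp_{2m}(F), and x a field automorphism of T of prime order r. Then r divides f; C_G(x) is isomorphic to PGSp_{2m}(F₀) for a field F₀ with p^(f/r) elements; and the G-class of x is the union of exactly gcd(gcd(2, p^f − 1), r) T-classes. -/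
theorem result {F : Type*} [Field F] [Fintype F] {p f : ℕ} [Fact p.Prime] (hF : Fintype.card F = p ^ f) (hf : 1 ≤ f) {m : ℕ} (hm : 2 ≤ m) (hs : m = 2 → 3 ≤ Fintype.card F) (x : MulAut (Cfsg.PSp m F)) (hx : Cfsg.IsFieldAutClassPSp x) {r : ℕ} (hr : r.Prime) (hxr : orderOf x = r) (F₀ : Type*) [Field F₀] [Fintype F₀] (hF₀ : Fintype.card F₀ = p ^ (f / r)) :
    r ∣ f ∧ Nonempty (↥(Cfsg.inndiagPSp m F ⊓ Subgroup.centralizer {x}) ≃* Cfsg.PGSp m F₀) ∧ Cfsg.splitClassCount (Cfsg.inndiagPSp m F) (Cfsg.Inn (Cfsg.PSp m F)) x = Nat.gcd (Nat.gcd 2 (p ^ f - 1)) r := by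
  classical
  have hp : p.Prime := Fact.out
  haveI : NeZero m := ⟨by omega⟩
  obtain ⟨u, σ, hord, hxu⟩ := exists_of_fieldClass hm hx hr hxr
  have : Finite (F ≃+* F) := Finite.of_injective (fun e : F ≃+* F => (e : F → F)) DFunLike.coe_injective
  have hrf : r ∣ f := by
    rw [← hord]
    have h1 := orderOf_dvd_natCard σ
    rwa [Cfsg.Agent.Lib.AutPSL.card_ringAut hF hf] at h1
  obtain ⟨k, rfl⟩ := hrf
  have hk : r * k / r = k := Nat.mul_div_cancel_left _ hr.pos
  rw [hk] at hF₀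
  have hk0 : 0 < k := by
    rcases Nat.eq_zero_or_pos k with rfl | h
    · simp at hf
    · exact h
  have hfix : Nat.card (fixedF σ) = p ^ k := by
    have h1 := card_eq_card_fixedF_pow σ hord
    rw [Nat.card_eq_fintype_card (α := F), hF, mul_comm r k, pow_mul] at h1
    exact (Nat.pow_left_injective (n := r) (by have := hr.pos; omega) h1).symm
  have hU := dlS_mem_inndiag u
  refine ⟨dvd_mul_right r k, ?_, ?_⟩
  · obtain ⟨e₁⟩ := field_cent_equiv_S (F₀ := F₀) (m := m) hm σ hr.pos hord (by rw [hF₀, hfix])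
    rw [hxu]
    obtain ⟨e₂⟩ := Cfsg.Agent.Lib.AutPSL.centr_conj_equiv (Cfsg.inndiagPSp m F) hU (faS σ)
    exact ⟨e₂.trans e₁⟩
  · rw [hxu, Cfsg.Agent.Lib.AutPSL.splitClassCount_conj _ _ hU, field_count_S hm σ hr.pos hord, ← gcd_geom_two hp hk0 hr.pos]
    congr 1
    have h2 := card_range_coB σ
    rw [hfix, Nat.card_eq_fintype_card (α := F), hF] at h2
    have h3 : 1 < p ^ k := Nat.one_lt_pow (by omega) hp.one_lt
    rw [← h2, Nat.mul_div_cancel _ (by omega)]

end Cfsg.Agent.S2712
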