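import Cfsg.Statements.S2713
import Cfsg.Agent.Lib.AutPSp.Exc

set_option autoImplicit false
open Cfsg

namespace Cfsg.Agent.S2713

open Cfsg.Agent.Lib.AutPSp

/-- Let T = PSp_{2m}(F) be simple over a finite field (m ≥ 2, (2m, |F|) ≠ (4, 2)) and let x be a field automorphism of T of prime order r. Then an element y of the coset Inndiag(T)·x (y = δ x with δ in the image of the projective conformal symplectic group) has order r if and only if y is conjugate to x by an element of Inndiag(T). -/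
theorem result {F : Type*} [Field F] [Fintype F] {m : ℕ} (hm : 2 ≤ m) (hs : m = 2 → 3 ≤ Fintype.card F) (x δ : MulAut (Cfsg.PSp m F)) (hx : Cfsg.IsFieldAutClassPSp x) {r : ℕ} (hr : r.Prime) (hxr : orderOf x = r) (hδ : δ ∈ Cfsg.inndiagPSp m F) :
    orderOf (δ * x) = r ↔ Cfsg.IsConjUnder (Cfsg.inndiagPSp m F) x (δ * x) := by
  haveI : NeZero m := ⟨by omega⟩
  have hconj : ∀ (a b : MulAut (Cfsg.PSp m F)), orderOf (a * b * a⁻¹) = orderOf b := by
    intro a b
    exact orderOf_injective (MulAut.conj a).toMonoidHom (MulEquiv.injective _) b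
  constructor
  · intro hy
    obtain ⟨v, rfl⟩ := (mem_inndiag_iff δ).mp hδ
    have hy1 : (dlS v * x) ^ r = 1 := by
      rw [← hy]
      exact pow_orderOf_eq_one _
    obtain ⟨u, σ, hord, hxu⟩ := exists_of_fieldClass hm hx hr hxr
    set w := u⁻¹ * v * u with hw
    have hdlw : dlS w = (dlS u)⁻¹ * dlS v * dlS u := by
      rw [hw, dlS_inv, dlS_mul, dlS_mul]
    have e : gsAut w σ = (dlS u)⁻¹ * (dlS v * x) * ((dlS u)⁻¹)⁻¹ := by
      rw [← dlS_mul_faS, hdlw, hxu]
      group
    have hy2 : (gsAut w σ) ^ r = 1 := by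
      rw [e, conj_pow, hy1]
      group
    obtain ⟨h, hh⟩ := lang_S hm σ hr.pos hord w hy2
    refine ⟨dlS (u * h * u⁻¹), dlS_mem_inndiag _, ?_⟩
    have e' : dlS v * x = dlS u * gsAut w σ * (dlS u)⁻¹ := by
      rw [e]
      group
    have hC : dlS (u * h * u⁻¹) = dlS u * dlS h * (dlS u)⁻¹ := by
      rw [dlS_inv, dlS_mul, dlS_mul]
    rw [e', hh, hC, hxu]
    group
  · rintro ⟨U, -, hU⟩
    rw [hU, hconj, hxr]

end Cfsg.Agent.S2713
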