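import Cfsg.Statements.S2714
import Cfsg.Agent.S2694
import Cfsg.Agent.Lib.AutPOm.Odd
import Cfsg.Agent.Lib.AutPOm.OddCount

set_option autoImplicit false
open Cfsg

namespace Cfsg.Agent.S2714

open Cfsg.Agent.Lib.AutPOm Cfsg.Agent.Lib.GammaCount Cfsg.Agent.Lib.PgoPsi Cfsg.Agent.Lib.Hilbert90
  Cfsg.Agent.Lib.OrthoCount Cfsg.Agent.Lib.PgoGroup

/-- Let T = Ω_{2m+1}(F) (m ≥ 3, |F| = p^f odd; realised as PΩ of the form x₀² + Σ xᵢ yᵢ), G = Inndiag(T) the image of the conformal orthogonal group in Aut(T), and x a field automorphism of T of prime order r. Then r divides f; C_G(x) is isomorphic to Inndiag(Ω_{2m+1}(F₀)) for a field F₀ with p^(f/r) elements; and the G-class of x is a single T-class when r is odd and the union of exactly two T-classes when r = 2. -/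
theorem result {F : Type*} [Field F] [Fintype F] {p f : ℕ} [Fact p.Prime] (hF : Fintype.card F = p ^ f) (hf : 1 ≤ f) (hodd : Odd (Fintype.card F)) {m : ℕ} (hm : 3 ≤ m) (x : MulAut (Cfsg.POmega F (Cfsg.quadFormOdd m F))) (hx : Cfsg.IsFieldAutClassPOmega (Cfsg.quadFormOdd m F) x) {r : ℕ} (hr : r.Prime) (hxr : orderOf x = r) (F₀ : Type*) [Field F₀] [Fintype F₀] (hF₀ : Fintype.card F₀ = p ^ (f / r)) :
    r ∣ f ∧ Nonempty (↥(Cfsg.inndiagPOmegaOdd m F ⊓ Subgroup.centralizer {x}) ≃* ↥(Cfsg.inndiagPOmegaOdd m F₀)) ∧ (Odd r → Cfsg.splitClassCount (Cfsg.inndiagPOmegaOdd m F) (Cfsg.Inn (Cfsg.POmega F (Cfsg.quadFormOdd m F))) x = 1) ∧ (r = 2 → Cfsg.splitClassCount (Cfsg.inndiagPOmegaOdd m F) (Cfsg.Inn (Cfsg.POmega F (Cfsg.quadFormOdd m F))) x = 2) := by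
  classical
  have hp : p.Prime := Fact.out
  obtain ⟨α, φ, τ, -, hφ, hα⟩ := hx
  have hφ' := (isFieldAut_iff FInv_odd τ φ).1 hφ
  obtain ⟨U, hU⟩ := exists_dl_conj_of_gamma FInv_odd (Cfsg.Agent.S2694.result hodd hm) hφ' hα
  have S := sys_odd hodd (show 2 ≤ m by omega) (F := F)
  have hord : orderOf τ = r := by
    rw [← hxr, ← orderOf_fa FInv_odd S, ← hφ', ← hU]
    have := orderOf_injective (MulAut.conj (dl U)).toMonoidHom (MulAut.conj (dl U)).injective x
    simpa using this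
  have hxU : x = dl U⁻¹ * fa FInv_odd τ * (dl U⁻¹)⁻¹ := by
    rw [dl_inv, inv_inv, ← hφ', ← hU]
    group
  have hUmem : dl U⁻¹ ∈ Cfsg.inndiagPOmegaOdd m F := mem_inndiag_odd_iff.2 ⟨_, rfl⟩
  have : Finite (F ≃+* F) := Finite.of_injective (fun e : F ≃+* F => (e : F → F)) DFunLike.coe_injective
  have hrf : r ∣ f := by
    rw [← hord]
    have h1 := orderOf_dvd_natCard τ
    rwa [Cfsg.Agent.Lib.AutPSL.card_ringAut hF hf] at h1
  obtain ⟨k, rfl⟩ := hrf
  have hk : r * k / r = k := Nat.mul_div_cancel_left _ hr.pos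
  rw [hk] at hF₀
  have hk0 : 0 < k := by
    rcases Nat.eq_zero_or_pos k with rfl | h
    · simp at hf
    · exact h
  have hfix : Nat.card (fixedF τ) = p ^ k := by
    have h1 := card_eq_card_fixedF_pow τ hord
    rw [Nat.card_eq_fintype_card (α := F), hF, mul_comm r k, pow_mul] at h1
    exact (Nat.pow_left_injective (n := r) (by have := hr.pos; omega) h1).symm
  haveI : Fintype (fixedF τ) := Fintype.ofFinite _
  have hcard : Fintype.card F₀ = Fintype.card (fixedF τ) := by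
    rw [hF₀, ← Nat.card_eq_fintype_card, hfix]
  let e₀ : F₀ ≃+* fixedF τ := FiniteField.ringEquivOfCardEq hcard
  let j : F₀ →+* F := (fixedF τ).subtype.comp e₀.toRingHom
  have hodd₀ : Odd (Fintype.card F₀) := by
    rw [hF₀]
    have h1 : Odd p := by
      rw [hF] at hodd
      by_contra h
      rw [Nat.not_odd_iff_even] at h
      have h2 : Even (p ^ (r * k)) := h.pow_of_ne_zero (by have := hr.pos; positivity)
      exact (Nat.not_even_iff_odd.2 hodd) h2
    exact h1.pow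
  have hcardr : Fintype.card F = Fintype.card F₀ ^ r := by
    rw [hF, hF₀, mul_comm r k, pow_mul]
  have B : BC j τ (quadFormOdd m F₀) (quadFormOdd m F) (qOdd m F₀) (qOdd m F) := by
    refine ⟨⟨fun v => ?_⟩, sys_odd hodd₀ (show 2 ≤ m by omega), S, fun y => (e₀ y).2, fun y hy => ?_⟩
    · rw [qOdd_apply, qOdd_apply]
      simp [quadFormOdd, mapV]
    · refine ⟨e₀.symm ⟨y, hy⟩, ?_⟩
      change ((e₀ (e₀.symm ⟨y, hy⟩) : fixedF τ) : F) = y
      rw [RingEquiv.apply_symm_apply]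
  have hdim : Odd (Fintype.card (Unit ⊕ (Fin m ⊕ Fin m))) := by
    simp only [Fintype.card_sum, Fintype.card_unit, Fintype.card_fin]
    exact ⟨m, by ring⟩
  have hH : Cfsg.inndiagPOmegaOdd m F = (⊤ : Subgroup (CO (quadFormOdd m F))).map (psiO _) := pgoAut_eq _
  have hH₀ : Cfsg.inndiagPOmegaOdd m F₀ = (⊤ : Subgroup (CO (quadFormOdd m F₀))).map (psiO _) := pgoAut_eq _
  refine ⟨dvd_mul_right r k, ?_, ?_, ?_⟩
  · obtain ⟨e₁⟩ := cent_equiv B FInv_odd hr.pos hord ⊤ ⊤ (fun g => by simp) (fun g d => by simp)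
    rw [hxU]
    obtain ⟨e₂⟩ := Cfsg.Agent.Lib.AutPSL.centr_conj_equiv (Cfsg.inndiagPOmegaOdd m F) hUmem (fa FInv_odd τ)
    rw [← hH, ← hH₀] at e₁
    exact ⟨e₂.trans e₁⟩
  · intro hr2
    rw [hxU, Cfsg.Agent.Lib.AutPSL.splitClassCount_conj _ _ hUmem, hH]
    exact count_odd_deg hodd₀ hdim B FInv_odd hr2 hcardr
  · rintro rfl
    rw [hxU, Cfsg.Agent.Lib.AutPSL.splitClassCount_conj _ _ hUmem, hH]
    exact count_two_deg hodd₀ hdim B FInv_odd hcardr

end Cfsg.Agent.S2714
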