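import Cfsg.Statements.S2716
import Cfsg.Agent.Lib.AutPOm.CountMinus

set_option autoImplicit false
open Cfsg

namespace Cfsg.Agent.S2716

open Cfsg.Agent.Lib.AutPOm Cfsg.Agent.Lib.GammaCount Cfsg.Agent.Lib.PgoPsi Cfsg.Agent.Lib.Hilbert90
  Cfsg.Agent.Lib.OrthoCount Cfsg.Agent.Lib.PgoGroup

set_option maxHeartbeats 2000000 in
/-- Let T = PΩ⁻_{2m+2}(F) (m ≥ 3, |F| = p^f; the form Σ xᵢ yᵢ + z₁² + a z₁ z₂ + b z₂² with anisotropic binary part), G = Inndiag(T), and x a field automorphism of T of prime order r. Then r is odd and divides f; C_G(x) is isomorphic to Inndiag(PΩ⁻_{2m+2}(F₀)) for a field F₀ with p^(f/r) elements and some anisotropic binary part over F₀; and the G-class of x is a single T-class. -/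
theorem result {F : Type*} [Field F] [Fintype F] {p f : ℕ} [Fact p.Prime] (hF : Fintype.card F = p ^ f) (hf : 1 ≤ f) {m : ℕ} (hm : 3 ≤ m) (a b : F) (hab : (∀ z₁ z₂ : F, z₁ ^ 2 + a * z₁ * z₂ + b * z₂ ^ 2 = 0 → z₁ = 0 ∧ z₂ = 0)) (x : MulAut (Cfsg.POmega F (Cfsg.quadFormMinus m F a b))) (hx : Cfsg.IsFieldAutClassPOmegaMinus m x) {r : ℕ} (hr : r.Prime) (hxr : orderOf x = r) (F₀ : Type*) [Field F₀] [Fintype F₀] (hF₀ : Fintype.card F₀ = p ^ (f / r)) :
    Odd r ∧ r ∣ f ∧ (∃ a₀ b₀ : F₀, (∀ z₁ z₂ : F₀, z₁ ^ 2 + a₀ * z₁ * z₂ + b₀ * z₂ ^ 2 = 0 → z₁ = 0 ∧ z₂ = 0) ∧ Nonempty (↥(Cfsg.inndiagPOmegaMinus m F a b ⊓ Subgroup.centralizer {x}) ≃* ↥(Cfsg.inndiagPOmegaMinus m F₀ a₀ b₀))) ∧ Cfsg.splitClassCount (Cfsg.inndiagPOmegaMinus m F a b) (Cfsg.Inn (Cfsg.POmega F (Cfsg.quadFormMinus m F a b))) x = 1 := by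
  classical
  have hp : p.Prime := Fact.out
  have hm2 : 2 ≤ m := by omega
  obtain ⟨a', b', ψ, σ, hab', hσ, ha, hb, hφ⟩ := hx
  have hI : InvAt (Cfsg.quadFormMinus m F a' b') σ := invAt_minus ha hb
  have hφ' := (isFieldAut_iff' hI _).1 hφ
  have S := sys_minus hm2 hab'
  have hord : orderOf σ = r := by
    rw [← hxr, ← orderOf_fb S hI, ← hφ']
    exact orderOf_trA ψ x
  have : Finite (F ≃+* F) := Finite.of_injective (fun e : F ≃+* F => (e : F → F)) DFunLike.coe_injective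
  have hrf : r ∣ f := by
    rw [← hord]
    have h1 := orderOf_dvd_natCard σ
    rwa [Cfsg.Agent.Lib.AutPSL.card_ringAut hF hf] at h1
  obtain ⟨k, rfl⟩ := hrf
  have hk : r * k / r = k := Nat.mul_div_cancel_left _ hr.pos
  rw [hk] at hF₀
  have hfix : Nat.card (fixedF σ) = p ^ k := by
    have h1 := card_eq_card_fixedF_pow σ hord
    rw [Nat.card_eq_fintype_card (α := F), hF, mul_comm r k, pow_mul] at h1
    exact (Nat.pow_left_injective (n := r) (by have := hr.pos; omega) h1).symm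
  haveI : Fintype (fixedF σ) := Fintype.ofFinite _
  have hcard : Fintype.card F₀ = Fintype.card (fixedF σ) := by
    rw [hF₀, ← Nat.card_eq_fintype_card, hfix]
  let e₀ : F₀ ≃+* fixedF σ := FiniteField.ringEquivOfCardEq hcard
  let j : F₀ →+* F := (fixedF σ).subtype.comp e₀.toRingHom
  set a₀ : F₀ := e₀.symm ⟨a', ha⟩ with ha₀
  set b₀ : F₀ := e₀.symm ⟨b', hb⟩ with hb₀
  have ja : j a₀ = a' := by
    change ((e₀ (e₀.symm ⟨a', ha⟩) : fixedF σ) : F) = a'
    rw [RingEquiv.apply_symm_apply]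
  have jb : j b₀ = b' := by
    change ((e₀ (e₀.symm ⟨b', hb⟩) : fixedF σ) : F) = b'
    rw [RingEquiv.apply_symm_apply]
  have hab₀ : ∀ z₁ z₂ : F₀, z₁ ^ 2 + a₀ * z₁ * z₂ + b₀ * z₂ ^ 2 = 0 → z₁ = 0 ∧ z₂ = 0 :=
    aniso_of_map j (by rw [ja, jb]; exact hab')
  have hfixj : ∀ y, σ (j y) = j y := fun y => (e₀ y).2
  have hranj : ∀ y, σ y = y → ∃ z, j z = y := by
    intro y hy
    refine ⟨e₀.symm ⟨y, hy⟩, ?_⟩
    change ((e₀ (e₀.symm ⟨y, hy⟩) : fixedF σ) : F) = y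
    rw [RingEquiv.apply_symm_apply]
  have B : BC j σ (quadFormMinus m F₀ a₀ b₀) (quadFormMinus m F a' b') (qMinus m a₀ b₀) (qMinus m a' b') :=
    bc_minus' j hm2 ja jb hab' hfixj hranj
  have hcardr : Fintype.card F = Fintype.card F₀ ^ r := by
    rw [hF, hF₀, mul_comm r k, pow_mul]
  have hrodd : Odd r := by
    rcases hr.eq_two_or_odd' with rfl | h
    · exfalso
      letI : Algebra F₀ F := j.toAlgebra
      have hfin : Module.finrank F₀ F = 2 := by
        have h3 := Module.card_eq_pow_finrank (K := F₀) (V := F)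
        rw [hcardr] at h3
        exact ((Nat.pow_right_injective (Fintype.one_lt_card)).eq_iff.1 h3).symm
      obtain ⟨ρ, hρ⟩ := exists_root_quad (K := F) hfin a₀ b₀ hab₀
      have e1 : algebraMap F₀ F = j := rfl
      rw [e1, ja, jb] at hρ
      have := hab' ρ 1 (by linear_combination hρ)
      exact one_ne_zero this.2
    · exact h
  have h1 : ∀ β ∈ inndiagPOmegaMinus m F a b, trA ψ β ∈ inndiagPOmegaMinus m F a' b' :=
    fun β hβ => inndiag_transport hm hab hab' ψ β hβ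
  have h2 : ∀ β ∈ inndiagPOmegaMinus m F a' b', (trA ψ).symm β ∈ inndiagPOmegaMinus m F a b :=
    fun β hβ => inndiag_transport hm hab' hab ψ.symm β hβ
  refine ⟨hrodd, dvd_mul_right r k, ⟨a₀, b₀, hab₀, ?_⟩, ?_⟩
  · obtain ⟨e₁⟩ := centr_transfer ψ _ _ h1 h2 hφ'
    have hA : ∀ (G : Subgroup (MulAut (POmega F (quadFormMinus m F a' b')))), G ≤ (⊤ : Subgroup (CO (quadFormMinus m F a' b'))).map (psiO _) →
        (G.comap (psiO (quadFormMinus m F a' b'))).map (psiO _) = G := by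
      intro G hG
      apply Subgroup.map_comap_eq_self
      intro β hβ
      obtain ⟨g, -, rfl⟩ := hG hβ
      exact ⟨g, rfl⟩
    have hA₀ : ((inndiagPOmegaMinus m F₀ a₀ b₀).comap (psiO (quadFormMinus m F₀ a₀ b₀))).map (psiO _) = inndiagPOmegaMinus m F₀ a₀ b₀ := by
      apply Subgroup.map_comap_eq_self
      intro β hβ
      obtain ⟨g, -, rfl⟩ := inndiag_le_range hβ
      exact ⟨g, rfl⟩
    obtain ⟨e₂⟩ := cent_equiv_at B hI hr.pos hord ((inndiagPOmegaMinus m F a' b').comap (psiO _))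
      ((inndiagPOmegaMinus m F₀ a₀ b₀).comap (psiO _))
      (fun g => inndiag_base_change hm2 hab' hab₀ B hr.ne_zero hcardr g)
      (fun g d => by
        change dl (scO B.S d * g) ∈ inndiagPOmegaMinus m F a' b' ↔ dl g ∈ inndiagPOmegaMinus m F a' b'
        rw [dl_mul, dl_scO, one_mul])
    rw [hA _ inndiag_le_range, hA₀] at e₂
    exact ⟨e₁.trans e₂⟩
  · refine count_one_transfer ψ _ _ h1 h2 (Inn_le_inndiag hm2 hab') hφ' ?_
    intro β hβ
    obtain ⟨g, -, rfl⟩ := inndiag_le_range hβ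
    obtain ⟨k', u, hk', hu, hfx, rfl⟩ := minus_factor hm2 hab' hab₀ B hrodd hcardr g hβ
    exact ⟨dl k', dl u, hk', hu, commute_dl_fb_of_fixed hI S u hfx, dl_mul _ _⟩

end Cfsg.Agent.S2716
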