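import Cfsg.Statements.S2717
import Cfsg.Agent.Lib.AutPOm.GraphCount
import Cfsg.Agent.Lib.FieldPOm.Minus
import Cfsg.Agent.S2695

set_option autoImplicit false
open Cfsg

namespace Cfsg.Agent.S2717

open Cfsg.Agent.Lib.AutPOm Cfsg.Agent.Lib.GammaCount Cfsg.Agent.Lib.PgoPsi Cfsg.Agent.Lib.OrthoCount
  Cfsg.Agent.Lib.PgoGraphInv Cfsg.Agent.Lib.PgoInndiag

set_option maxHeartbeats 2000000 in
/-- Let T = PΩ⁺_{2m}(F) with m ≥ 5 (dimension 2m ≠ 8) and |F| = p^f, G = Inndiag(T), and x an involutory graph-field automorphism of T. Then f is even; any two involutory graph-field automorphisms of T are G-conjugate; C_G(x) is isomorphic to Inndiag(PΩ⁻_{2m}(F₀)) for a field F₀ with p^(f/2) elements (some anisotropic binary part over F₀); and the G-class of x is the union of exactly c T-classes with c = 1 if p = 2, c = 4 if p is odd, m is odd and p^(f/2) ≡ 1 (mod 4), and c = 2 otherwise. -/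
theorem result {F : Type*} [Field F] [Fintype F] {p f : ℕ} [Fact p.Prime] (hF : Fintype.card F = p ^ f) (hf : 1 ≤ f) {m : ℕ} (hm : 5 ≤ m) (x : MulAut (Cfsg.POmega F (Cfsg.quadFormPlus m F))) (hx : Cfsg.IsGraphFieldAutClassPOmegaPlus m x) (hx2 : orderOf x = 2) (F₀ : Type*) [Field F₀] [Fintype F₀] (hF₀ : Fintype.card F₀ = p ^ (f / 2)) :
    Even f ∧ (∀ y : MulAut (Cfsg.POmega F (Cfsg.quadFormPlus m F)), Cfsg.IsGraphFieldAutClassPOmegaPlus m y → orderOf y = 2 → Cfsg.IsConjUnder (Cfsg.inndiagPOmegaPlus m F) x y) ∧ (∃ a₀ b₀ : F₀, (∀ z₁ z₂ : F₀, z₁ ^ 2 + a₀ * z₁ * z₂ + b₀ * z₂ ^ 2 = 0 → z₁ = 0 ∧ z₂ = 0) ∧ Nonempty (↥(Cfsg.inndiagPOmegaPlus m F ⊓ Subgroup.centralizer {x}) ≃* ↥(Cfsg.inndiagPOmegaMinus (m - 1) F₀ a₀ b₀))) ∧ (p = 2 → Cfsg.splitClassCount (Cfsg.inndiagPOmegaPlus m F) (Cfsg.Inn (Cfsg.POmega F (Cfsg.quadFormPlus m F))) x = 1) ∧ ((p ≠ 2 ∧ Odd m ∧ p ^ (f / 2) % 4 = 1) → Cfsg.splitClassCount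 (Cfsg.inndiagPOmegaPlus m F) (Cfsg.Inn (Cfsg.POmega F (Cfsg.quadFormPlus m F))) x = 4) ∧ ((p ≠ 2 ∧ ¬ (Odd m ∧ p ^ (f / 2) % 4 = 1)) → Cfsg.splitClassCount (Cfsg.inndiagPOmegaPlus m F) (Cfsg.Inn (Cfsg.POmega F (Cfsg.quadFormPlus m F))) x = 2) := by
  classical
  have hp : p.Prime := Fact.out
  have hΓ : gammaPOmega F (quadFormPlus m F) = ⊤ := Cfsg.Agent.S2695.result hm
  obtain ⟨n, rfl⟩ : ∃ n, m = n + 3 := ⟨m - 3, by omega⟩
  have hm3 : 3 ≤ n + 3 := by omega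
  have S := sys_plus (F := F) hm3
  obtain ⟨σ, B, c, y, hσ, hB, hy, hc, hcfix⟩ := normal_form_graph hm3 hΓ x hx
  have hcx : (dl c * fb (invAt_plus σ)) ^ 2 = 1 := by
    rw [← hB, conj_pow, ← hx2, pow_orderOf_eq_one, mul_one, mul_inv_cancel]
  have hord : orderOf σ = 2 := order_sigma hm3 hσ c Nat.prime_two hcx
  obtain ⟨h2f, j, hfix, hran, hcard⟩ := Cfsg.Agent.Lib.FieldPOm.exists_sub hF hf Nat.prime_two hord F₀ hF₀
  have hyv : qPlus (n + 3) F (yv (0 : Fin (n + 3))) ≠ 0 := by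
    rw [q_yv]
    exact one_ne_zero
  obtain ⟨cc, hcc⟩ := exists_refl_CO S hyv
  have hccfix : glMap σ (cc : GL (Fin (n + 3) ⊕ Fin (n + 3)) F) = cc := by
    apply gl_ext_mulVec
    intro v
    rw [glMap_reflLin S.hf (invAt_plus σ) hcc, hcc]
    congr 2
    funext i
    rcases i with i | i <;> simp [yv, sv, Pi.single_apply]
  have hstd := fun (y : MulAut (Cfsg.POmega F (Cfsg.quadFormPlus (n + 3) F))) hy hy2 =>
    exists_conj_std hm3 hΓ hord cc hyv hcc hccfix y hy hy2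
  obtain ⟨u, hu, hxe⟩ := hstd x hx hx2
  obtain ⟨χ, hχ, hχr⟩ := exists_chi_plus (F := F) (n + 3) hm3
  have hχc : χ cc = Multiplicative.ofAdd 1 := hχr cc _ hyv hcc
  have hx₀2 := sq_refl_fb hm3 hord cc hyv hcc hccfix
  obtain ⟨b₀, hab₀, ⟨T⟩⟩ := exists_tw (k := n + 2) (by omega) χ hχ hχr (invAt_plus σ) (by norm_num) hord cc hx₀2 hχc j hfix hran
  have hcount : p ≠ 2 → (Odd (n + 3) ∧ p ^ (f / 2) % 4 = 1 → splitClassCount (inndiagPOmegaPlus (n + 3) F) (Inn (POmega F (quadFormPlus (n + 3) F))) x = 4) ∧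
      (¬ (Odd (n + 3) ∧ p ^ (f / 2) % 4 = 1) → splitClassCount (inndiagPOmegaPlus (n + 3) F) (Inn (POmega F (quadFormPlus (n + 3) F))) x = 2) := by
    intro hp2
    have hoddp : Odd p := hp.odd_of_ne_two hp2
    have hodd₀ : Odd (Fintype.card F₀) := by
      rw [hF₀]
      exact hoddp.pow
    have hodd : Odd (Fintype.card F) := by
      rw [hcard]
      exact hodd₀.pow
    obtain ⟨D, -⟩ := exists_data_plus hodd n
    obtain ⟨D₀, -⟩ := exists_data_minus hodd₀ 1 b₀ hab₀ n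
    have h := count_graph hodd₀ hcard hord hfix hran cc 0 hcc T D D₀
    rw [hF₀] at h
    rw [hxe, Cfsg.Agent.Lib.AutPSL.splitClassCount_conj _ _ hu, inndiag_plus n D]
    exact h
  refine ⟨even_iff_two_dvd.2 h2f, ?_, ⟨1, b₀, hab₀, ?_⟩, ?_, fun h => (hcount h.1).1 h.2, fun h => (hcount h.1).2 h.2⟩
  · intro y hy hy2
    obtain ⟨u', hu', hye⟩ := hstd y hy hy2
    refine ⟨u' * u⁻¹, mul_mem hu' (inv_mem hu), ?_⟩
    rw [hye, hxe]
    group
  · rw [hxe]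
    obtain ⟨e₁⟩ := Cfsg.Agent.Lib.AutPSL.centr_conj_equiv _ hu (dl cc * fb (invAt_plus σ))
    obtain ⟨e₂⟩ := cent_graph T hab₀ (invAt_plus σ) cc rfl (by norm_num) hord hcard
    exact ⟨e₁.trans e₂⟩
  · intro hp2
    have hq : Even (Fintype.card F) := by
      rw [hF, hp2]
      exact (even_two).pow_of_ne_zero (by omega)
    rw [inndiag_plus_char2 hq (n + 3) hm3]
    exact Cfsg.Agent.Lib.FieldPOm.count_self _ _

end Cfsg.Agent.S2717
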