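import Cfsg.Statements.S2718
import Cfsg.Agent.Lib.PgoGraphInv

set_option autoImplicit false
open Cfsg

namespace Cfsg.Agent.S2718

open Cfsg.Agent.Lib.PgoGraphInv Cfsg.Agent.Lib.PgoInndiag Cfsg.Agent.Lib.PgoSim Cfsg.Agent.Lib.PgoPsi
  Cfsg.Agent.Lib.OrthoChar Cfsg.Agent.Lib.OrthoCount Cfsg.Agent.Lib.PgoFamilies Cfsg.Agent.Lib.OrthoSiegel

/-- Let T = PΩ⁺_{2m}(F) with m ≥ 4 and |F| = q odd, G = Inndiag(T), and γ an involutory graph automorphism of T induced by a similarity (one interchanging the two classes of maximal totally singular subspaces). Then the G-class of γ is either a single T-class or the union of exactly two T-classes, and it is the union of two unless m is odd and q ≡ 3 (mod 4). -/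
theorem result {F : Type*} [Field F] [Fintype F] (hodd : Odd (Fintype.card F)) {m : ℕ} (hm : 4 ≤ m) (γ : MulAut (Cfsg.POmega F (Cfsg.quadFormPlus m F))) (hγ : Cfsg.IsSimilarityGraphAutPOmegaPlus m γ) (hγ2 : orderOf γ = 2) :
    (Cfsg.splitClassCount (Cfsg.inndiagPOmegaPlus m F) (Cfsg.Inn (Cfsg.POmega F (Cfsg.quadFormPlus m F))) γ = 1 ∨ Cfsg.splitClassCount (Cfsg.inndiagPOmegaPlus m F) (Cfsg.Inn (Cfsg.POmega F (Cfsg.quadFormPlus m F))) γ = 2) ∧ (¬ (Odd m ∧ Fintype.card F % 4 = 3) → Cfsg.splitClassCount (Cfsg.inndiagPOmegaPlus m F) (Cfsg.Inn (Cfsg.POmega F (Cfsg.quadFormPlus m F))) γ = 2) := by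
  obtain ⟨n, rfl⟩ : ∃ n, m = n + 3 := ⟨m - 3, by omega⟩
  obtain ⟨D, -⟩ := exists_data_plus (F := F) hodd n
  have hneg := neg_plus (F := F) hodd n
  rw [inndiag_plus n D]
  obtain ⟨g, hg, hP, hI⟩ := hγ
  have hγe : γ = psiO _ (⟨g, hg⟩ : CO (Cfsg.quadFormPlus (n + 3) F)) := (induced_iff _ ⟨g, hg⟩ γ).1 hI
  set g' : CO (Cfsg.quadFormPlus (n + 3) F) := ⟨g, hg⟩ with hg'
  have hδ : D.delta g' = -1 := by
    rcases D.delta_values g' with h | h
    · exfalso
      apply hP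
      have h1 := Cfsg.Agent.Lib.PgoClass.preserves_plus_iff (Cfsg.Agent.Lib.PgoInndiag.two_ne D.hodd) (n + 3) (by omega) g
        (D.multC g').ne_zero (fun v => D.multC_spec g' v)
      exact h1.2 ((delta_eq_one_iff D g').1 h)
    · exact h
  have h2 : psiO _ (g' * g') = 1 := by
    rw [map_mul, ← hγe, ← pow_two, ← hγ2]
    exact pow_orderOf_eq_one γ
  obtain ⟨l, hl⟩ := (D.psiO_eq_one_iff _).1 h2
  rw [hγe]
  by_cases hm : negEl (Cfsg.Agent.Lib.OrthoCount.qPlus (n + 3) F) ∈ siegelE (Cfsg.Agent.Lib.OrthoCount.qPlus (n + 3) F)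
  · have h3 := count_mem D (by omega) hm g' hδ hl
    exact ⟨Or.inr h3, fun _ => h3⟩
  · refine ⟨count_not_mem D hm _, fun h => ?_⟩
    exact absurd (hneg.2 h) hm

end Cfsg.Agent.S2718
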