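import Cfsg.Statements.S2719
import Cfsg.Agent.Lib.PgoGraphMinus

set_option autoImplicit false
open Cfsg

namespace Cfsg.Agent.S2719

open Cfsg.Agent.Lib.PgoGraphInv Cfsg.Agent.Lib.PgoGraphMinus Cfsg.Agent.Lib.PgoInndiag Cfsg.Agent.Lib.PgoSim Cfsg.Agent.Lib.PgoPsi
  Cfsg.Agent.Lib.OrthoChar Cfsg.Agent.Lib.OrthoCount Cfsg.Agent.Lib.PgoFamilies Cfsg.Agent.Lib.OrthoSiegel
  Cfsg.Agent.Lib.AutPOm Cfsg.Agent.Lib.OrthoFinal Cfsg.Agent.Lib.GammaCount

/-- Let T = PΩ⁻_{2m+2}(F) with m ≥ 3 and |F| = q odd (form with anisotropic binary part z₁² + a z₁ z₂ + b z₂²), G = Inndiag(T), and γ an involutory graph automorphism of T (an automorphism in the image of the semisimilarity group, not inner-diagonal, of order 2). Then the G-class of γ is either a single T-class or the union of exactly two T-classes, and it is the union of two unless m is even and q ≡ 1 (mod 4). -/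
theorem result {F : Type*} [Field F] [Fintype F] (hodd : Odd (Fintype.card F)) {m : ℕ} (hm : 3 ≤ m) (a b : F) (hab : (∀ z₁ z₂ : F, z₁ ^ 2 + a * z₁ * z₂ + b * z₂ ^ 2 = 0 → z₁ = 0 ∧ z₂ = 0)) (γ : MulAut (Cfsg.POmega F (Cfsg.quadFormMinus m F a b))) (hγ : Cfsg.IsGraphAutClassPOmegaMinus m a b γ) (hγ2 : orderOf γ = 2) :
    (Cfsg.splitClassCount (Cfsg.inndiagPOmegaMinus m F a b) (Cfsg.Inn (Cfsg.POmega F (Cfsg.quadFormMinus m F a b))) γ = 1 ∨ Cfsg.splitClassCount (Cfsg.inndiagPOmegaMinus m F a b) (Cfsg.Inn (Cfsg.POmega F (Cfsg.quadFormMinus m F a b))) γ = 2) ∧ (¬ (Even m ∧ Fintype.card F % 4 = 1) → Cfsg.splitClassCount (Cfsg.inndiagPOmegaMinus m F a b) (Cfsg.Inn (Cfsg.POmega F (Cfsg.quadFormMinus m F a b))) γ = 2) := by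
  obtain ⟨n, rfl⟩ : ∃ n, m = n + 2 := ⟨m - 2, by omega⟩
  obtain ⟨D, -⟩ := exists_data_minus (F := F) hodd a b hab n
  have hneg := neg_minus (F := F) hodd a b hab n
  obtain ⟨hγ1, hγ3, -⟩ := hγ
  rw [inndiag_minus a b hab n D] at hγ3 ⊢
  obtain ⟨g, σ, h, rfl⟩ := gs_range γ hγ1
  have hS : Sys (Cfsg.quadFormMinus (n + 2) F a b) (qMinus (n + 2) a b) := ⟨D.hf, D.hQ, D.hgen, ⟨D.fr⟩⟩
  have hg2 : gs h * gs h = 1 := by
    have hp := pow_orderOf_eq_one (gs h)
    rw [hγ2, pow_two] at hp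
    exact hp
  rw [gs_mul] at hg2
  have hσ2 := gs_eq_one_right hS _ hg2
  obtain ⟨d, hd⟩ := scalar_of_gs_eq_one hS _ hσ2 hg2
  have hσ : σ = RingEquiv.refl F := by
    by_contra hne
    have hord : orderOf σ = 2 := by
      apply orderOf_eq_prime
      · rw [pow_two]
        exact hσ2
      · exact hne
    exact no_semilinear_minus hodd a b hab h hord hd
  subst hσ
  rw [gs_eq_dl' h] at hγ3 hγ2 ⊢
  set g' : CO (Cfsg.quadFormMinus (n + 2) F a b) := ⟨g, mem_CO_of_semisim h⟩ with hg'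
  have hδ : D.delta g' = -1 := by
    rcases D.delta_values g' with h1 | h1
    · exact absurd (Gd_mem D h1) hγ3
    · exact h1
  have h2 : psiO _ (g' * g') = 1 := by
    have hp := pow_orderOf_eq_one (psiO _ g')
    rw [hγ2, pow_two] at hp
    rw [map_mul]
    exact hp
  obtain ⟨l, hl⟩ := (D.psiO_eq_one_iff _).1 h2
  by_cases hm : negEl (qMinus (n + 2) a b) ∈ siegelE (qMinus (n + 2) a b)
  · have h3 := count_mem D (by omega) hm g' hδ hl
    exact ⟨Or.inr h3, fun _ => h3⟩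
  · refine ⟨count_not_mem D hm _, fun h4 => ?_⟩
    have hev : Even (n + 3) := by
      by_contra hno
      rw [Nat.not_even_iff_odd] at hno
      have he2 : Even (n + 2) := by
        obtain ⟨k, hk⟩ := hno
        exact ⟨k, by omega⟩
      have h5 : Fintype.card F % 2 = 1 := Nat.odd_iff.1 hodd
      have h6 : Fintype.card F % 4 = 1 ∨ Fintype.card F % 4 = 3 := by omega
      rcases h6 with h6 | h6
      · exact h4 ⟨he2, h6⟩
      · exact hm (hneg.2 ⟨he2, h6⟩)
    exact count_even D hm hev g' hδ hl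

end Cfsg.Agent.S2719
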