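import Cfsg.Statements.S2720
import Cfsg.Agent.Lib.PgoCent.Final

set_option autoImplicit false
open Cfsg

namespace Cfsg.Agent.S2720

open Cfsg.Agent.Lib.PgoInndiag Cfsg.Agent.Lib.PgoSim Cfsg.Agent.Lib.PgoPsi Cfsg.Agent.Lib.OrthoChar Cfsg.Agent.Lib.OrthoCount Cfsg.Agent.Lib.PgoFamilies

/-- Let T = PΩ⁺_{2m}(F) (m ≥ 4, F finite of odd characteristic p), G = Inndiag(T), and let x be an automorphism of T induced by a similarity of the form (an element of the image G̃ of the conformal orthogonal group) of odd prime order r ≠ p. Then the T-class, the PSO-class and the G-class of x coincide (conjugacy under inner automorphisms, under the image of the special orthogonal group, and under G), and the PO-class of x coincides with its G̃-class. (In characteristic 2 the first equality fails: there the special orthogonal group is the full orthogonal group and some such classes split.) -/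
theorem result {F : Type*} [Field F] [Fintype F] {p : ℕ} [Fact p.Prime] [CharP F p] (hp : p ≠ 2) {m : ℕ} (hm : 4 ≤ m) (x : MulAut (Cfsg.POmega F (Cfsg.quadFormPlus m F))) (hx : x ∈ Cfsg.pgoAut F (Cfsg.quadFormPlus m F)) {r : ℕ} (hr : r.Prime) (hro : Odd r) (hrp : r ≠ p) (hxr : orderOf x = r) :
    (∀ y : MulAut (Cfsg.POmega F (Cfsg.quadFormPlus m F)), (Cfsg.IsConjUnder (Cfsg.Inn (Cfsg.POmega F (Cfsg.quadFormPlus m F))) x y ↔ Cfsg.IsConjUnder (Cfsg.inndiagPOmegaPlus m F) x y) ∧ (Cfsg.IsConjUnder (Cfsg.psoAut F (Cfsg.quadFormPlus m F)) x y ↔ Cfsg.IsConjUnder (Cfsg.inndiagPOmegaPlus m F) x y)) ∧ (∀ y : MulAut (Cfsg.POmega F (Cfsg.quadFormPlus m F)), Cfsg.IsConjUnder (Cfsg.poAut F (Cfsg.quadFormPlus m F)) x y ↔ Cfsg.IsConjUnder (Cfsg.pgoAut F (Cfsg.quadFormPlus m F)) x y) := by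
  classical
  obtain ⟨n, rfl⟩ : ∃ n, m = n + 3 := ⟨m - 3, by omega⟩
  have hodd : Odd (Fintype.card F) := by
    have h1 : ringChar F = p := ringChar.eq F p
    have h2 := FiniteField.odd_card_of_char_ne_two (F := F) (by rw [h1]; exact hp)
    exact Nat.odd_iff.2 h2
  have hrF : (r : F) ≠ 0 := by
    intro h
    have h1 := (CharP.cast_eq_zero_iff F p r).1 h
    rcases (Nat.dvd_prime hr).1 h1 with h2 | h2
    · exact (Fact.out : p.Prime).one_lt.ne' h2
    · exact hrp h2.symm
  obtain ⟨D, -⟩ := exists_data_plus (F := F) hodd n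
  rw [inndiag_plus n D]
  have hc := fun y => Cfsg.Agent.Lib.PgoCent.classes D x hx hr hro hrF hxr y
  exact ⟨fun y => ⟨(hc y).1, (hc y).2.1⟩, fun y => (hc y).2.2⟩

end Cfsg.Agent.S2720
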