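import Cfsg.Statements.S2734
import Cfsg.Agent.Lib.FixD4

set_option autoImplicit false
open Cfsg

namespace Cfsg.Agent.S2734

open Cfsg.Lie Equiv Cfsg.Agent.Lib.Chev Cfsg.Agent.Lib.FixIso

theorem not_long : ∀ j : Fin chevD4.rank, chevD4.isLong (chevD4.simple j) = false := by decide +kernel

theorem sym_cases : ∀ π : Perm (Fin 4), (∀ i j : Fin 4, i ≠ j → chevD4.bonds (π i) (π j) = chevD4.bonds i j) →
    (∀ i, π (π i) = i) ∨ (∀ i, ((π i : Fin 4) : ℕ) = TwTabD4.S.p i) ∨ (∀ i, (((π⁻¹ : Perm (Fin 4)) i : Fin 4) : ℕ) = TwTabD4.S.p i) := by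
  decide +kernel

/-- In the Chevalley group of type D₄ over a finite field F (the matrix group generated by the root elements), a graph automorphism attached to a symmetry π of the Dynkin diagram (sending each fundamental root element x_p(t) to x_{π(p)}(t) and each x_{−p}(t) to x_{−π(p)}(t)) that has order 3 — a standard triality graph automorphism, π being a 3-cycle of the three outer nodes — has fixed-point subgroup isomorphic to the Chevalley group of type G₂ over F. -/
theorem result {F : Type*} [Field F] [Fintype F] (τ : MulAut ↥(Cfsg.Lie.chevD4.group F)) (hτ : Cfsg.Lie.chevD4.IsGraphAut τ) (hτ3 : orderOf τ = 3) :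
    Nonempty (↥(MonoidHom.eqLocus τ.toMonoidHom (MonoidHom.id ↥(Cfsg.Lie.chevD4.group F))) ≃* ↥(Cfsg.Lie.chevG2.group F)) := by
  obtain ⟨π, hsym, hact⟩ := hτ
  have hG : GA (MulEquiv.toMonoidHom τ) π := GA_of_isGraph not_long τ π hact
  rcases sym_cases π hsym with h2 | h1 | h1
  · exfalso
    have h3 : τ ^ 2 = 1 := by
      apply MulEquiv.ext
      intro g
      have := GA_sq TwD4.hF _ π hG h2 g
      rw [pow_two]
      exact this
    have h4 := orderOf_dvd_of_pow_eq_one h3
    rw [hτ3] at h4
    omega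
  · exact Lib.FixD4.equiv_of_graph (MulEquiv.toMonoidHom τ) π h1 hG _ (fun g => Iff.rfl)
  · refine Lib.FixD4.equiv_of_graph (MulEquiv.toMonoidHom τ.symm) (π⁻¹ : Perm _) h1 (GA_symm TwD4.hF τ π hG) _ (fun g => ?_)
    show τ g = g ↔ τ.symm g = g
    constructor
    · intro e
      conv_lhs => rw [← e]
      simp
    · intro e
      conv_lhs => rw [← e]
      simp

end Cfsg.Agent.S2734
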