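import Cfsg.Statements.S2735
import Cfsg.Agent.S2694
import Cfsg.Agent.Lib.AutPOm.Odd

set_option autoImplicit false
open Cfsg

namespace Cfsg.Agent.S2735

open Cfsg.Agent.Lib.AutPOm Cfsg.Agent.Lib.GammaCount Cfsg.Agent.Lib.PgoPsi

/-- Let T = Ω_{2m+1}(F) (m ≥ 3, |F| odd) and x a field automorphism of T of prime order r. Then an element y of the coset Inndiag(T)·x (y = δ x with δ induced by a similarity of the form) has order r if and only if y is conjugate to x by an element of Inndiag(T). (T has no graph or graph-field automorphisms.) -/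
theorem result {F : Type*} [Field F] [Fintype F] (hodd : Odd (Fintype.card F)) {m : ℕ} (hm : 3 ≤ m) (x δ : MulAut (Cfsg.POmega F (Cfsg.quadFormOdd m F))) (hx : Cfsg.IsFieldAutClassPOmega (Cfsg.quadFormOdd m F) x) {r : ℕ} (hr : r.Prime) (hxr : orderOf x = r) (hδ : δ ∈ Cfsg.inndiagPOmegaOdd m F) :
    orderOf (δ * x) = r ↔ Cfsg.IsConjUnder (Cfsg.inndiagPOmegaOdd m F) x (δ * x) := by
  constructor
  · intro h
    obtain ⟨α, φ, τ, -, hφ, hα⟩ := hx
    have hφ' := (isFieldAut_iff FInv_odd τ φ).1 hφ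
    obtain ⟨B, hB⟩ := exists_dl_conj_of_gamma FInv_odd (Cfsg.Agent.S2694.result hodd hm) hφ' hα
    exact coset_lang_odd hodd (by omega) hφ' hB hδ (by rw [h, hxr])
  · rintro ⟨u, -, hu⟩
    rw [hu, ← hxr]
    have := orderOf_injective (MulAut.conj u).toMonoidHom (MulAut.conj u).injective x
    simpa using this

end Cfsg.Agent.S2735
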