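import Cfsg.Statements.S2736
import Cfsg.Agent.Lib.AutPOm.CosetPlus
import Cfsg.Agent.S2695

set_option autoImplicit false
open Cfsg

namespace Cfsg.Agent.S2736

open Cfsg.Agent.Lib.AutPOm Cfsg.Agent.Lib.GammaCount Cfsg.Agent.Lib.PgoPsi

/-- Let T = PΩ⁺_{2m}(F) with m ≥ 5 (dimension ≠ 8) and x a field automorphism or a graph-field automorphism of T of prime order r. Then an element y of the coset Inndiag(T)·x (y = δ x with δ induced by a class-preserving similarity) has order r if and only if y is conjugate to x by an element of Inndiag(T). -/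
theorem result {F : Type*} [Field F] [Fintype F] {m : ℕ} (hm : 5 ≤ m) (x δ : MulAut (Cfsg.POmega F (Cfsg.quadFormPlus m F))) (hx : Cfsg.IsFieldAutClassPOmega (Cfsg.quadFormPlus m F) x ∨ Cfsg.IsGraphFieldAutClassPOmegaPlus m x) {r : ℕ} (hr : r.Prime) (hxr : orderOf x = r) (hδ : δ ∈ Cfsg.inndiagPOmegaPlus m F) :
    orderOf (δ * x) = r ↔ Cfsg.IsConjUnder (Cfsg.inndiagPOmegaPlus m F) x (δ * x) := by
  classical
  constructor
  · intro hy
    have hm3 : 3 ≤ m := by omega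
    have hΓ : gammaPOmega F (quadFormPlus m F) = ⊤ := Cfsg.Agent.S2695.result hm
    obtain ⟨σ, B, c, R, y, hσ, hB, hy', hR, hcomm⟩ := normal_form_plus hm3 hΓ x hx
    obtain ⟨χ, hχ, hχr⟩ := exists_chi_plus (F := F) m hm3
    have S := sys_plus (F := F) hm3
    set hI := invAt_plus (F := F) (m := m) σ with hIdef
    have hx₀ : (dl c * fb hI) ^ r = 1 := by
      rw [← hB, conj_pow, ← hxr, pow_orderOf_eq_one, mul_one, mul_inv_cancel]
    have hord := order_sigma hm3 hσ c hr hx₀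
    rw [inndiag_plus_eq m hm3 χ hχ] at hδ ⊢
    obtain ⟨g₀, hg₀, rfl⟩ := hδ
    set g₁ := B * g₀ * B⁻¹ with hg₁
    have hy₀ : dl B * (dl g₀ * x) * (dl B)⁻¹ = dl (g₁ * c) * fb hI := by
      have e1 : dl (g₁ * c) * fb hI = dl g₁ * (dl c * fb hI) := by rw [dl_mul, mul_assoc]
      rw [e1, ← hB, hg₁, dl_mul, dl_mul, dl_inv]
      group
    have hy₀r : (dl (g₁ * c) * fb hI) ^ r = 1 := by
      rw [← hy₀, conj_pow, ← hy, pow_orderOf_eq_one, mul_one, mul_inv_cancel]
    have hg₀1 : χ g₀ = 1 := hg₀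
    have hχe : χ c = χ (g₁ * c) := by
      rw [hg₁, map_mul, map_mul, map_mul, map_inv, hg₀1, mul_one, mul_inv_cancel, one_mul]
    obtain ⟨H, hH⟩ := coset_plus hm3 χ hχ hχr hI hr.pos hord c (g₁ * c) hx₀ hy₀r hχe
    have hχR : χ R = Multiplicative.ofAdd 1 := hχr R y hy' hR
    have hex : ∃ H' : CO (quadFormPlus m F), χ H' = 1 ∧ dl (g₁ * c) * fb hI = dl H' * (dl c * fb hI) * (dl H')⁻¹ := by
      have hcases : ∀ a : Multiplicative (ZMod 2), a = 1 ∨ a * Multiplicative.ofAdd 1 = 1 := by decide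
      rcases hcases (χ H) with h1 | h1
      · exact ⟨H, h1, hH⟩
      · refine ⟨H * R, by rw [map_mul, hχR]; exact h1, ?_⟩
        rw [hH, dl_mul]
        have h2 : dl R * (dl c * fb hI) * (dl R)⁻¹ = dl c * fb hI := by
          rw [hcomm.eq, mul_inv_cancel_right]
        calc dl H * (dl c * fb hI) * (dl H)⁻¹ = dl H * (dl R * (dl c * fb hI) * (dl R)⁻¹) * (dl H)⁻¹ := by rw [h2]
          _ = _ := by group
    obtain ⟨H', hH'1, hH'⟩ := hex
    refine ⟨dl (B⁻¹ * H' * B), ⟨_, ?_, rfl⟩, ?_⟩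
    · change χ (B⁻¹ * H' * B) = 1
      rw [map_mul, map_mul, map_inv, hH'1, mul_one, inv_mul_cancel]
    · have e := hy₀.trans hH'
      rw [← hB] at e
      rw [dl_mul, dl_mul, dl_inv]
      calc dl g₀ * x = (dl B)⁻¹ * (dl B * (dl g₀ * x) * (dl B)⁻¹) * dl B := by group
        _ = (dl B)⁻¹ * (dl H' * (dl B * x * (dl B)⁻¹) * (dl H')⁻¹) * dl B := by rw [e]
        _ = _ := by group
  · rintro ⟨u, -, hu⟩
    rw [hu, ← hxr]
    have := orderOf_injective (MulAut.conj u).toMonoidHom (MulAut.conj u).injective x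
    simpa using this

end Cfsg.Agent.S2736
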