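import Cfsg.Statements.S2737
import Cfsg.Agent.Lib.AutPOm.LangMinus

set_option autoImplicit false
open Cfsg

namespace Cfsg.Agent.S2737

open Cfsg.Agent.Lib.AutPOm Cfsg.Agent.Lib.GammaCount Cfsg.Agent.Lib.PgoPsi

/-- Let T = PΩ⁻_{2m+2}(F) (m ≥ 3; form with anisotropic binary part) and x a field automorphism of T of prime order r. Then an element y of the coset Inndiag(T)·x has order r if and only if y is conjugate to x by an element of Inndiag(T). (T has no graph-field automorphisms.) -/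
theorem result {F : Type*} [Field F] [Fintype F] {m : ℕ} (hm : 3 ≤ m) (a b : F) (hab : (∀ z₁ z₂ : F, z₁ ^ 2 + a * z₁ * z₂ + b * z₂ ^ 2 = 0 → z₁ = 0 ∧ z₂ = 0)) (x δ : MulAut (Cfsg.POmega F (Cfsg.quadFormMinus m F a b))) (hx : Cfsg.IsFieldAutClassPOmegaMinus m x) {r : ℕ} (hr : r.Prime) (hxr : orderOf x = r) (hδ : δ ∈ Cfsg.inndiagPOmegaMinus m F a b) :
    orderOf (δ * x) = r ↔ Cfsg.IsConjUnder (Cfsg.inndiagPOmegaMinus m F a b) x (δ * x) := by
  classical
  constructor
  · intro h
    obtain ⟨a', b', ψ, σ, hab', hσ, ha, hb, hφ⟩ := hx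
    have hI : InvAt (Cfsg.quadFormMinus m F a' b') σ := invAt_minus ha hb
    have hφ' := (isFieldAut_iff' hI _).1 hφ
    have S := sys_minus (show 2 ≤ m by omega) hab'
    have hord : orderOf σ = r := by
      rw [← hxr, ← orderOf_fb S hI, ← hφ']
      exact orderOf_trA ψ x
    refine coset_transfer ψ _ _ (fun β hβ => inndiag_transport hm hab hab' ψ β hβ)
      (fun β hβ => inndiag_transport hm hab' hab ψ.symm β hβ) hφ' hδ ?_ h
    intro δ' hδ' hy
    obtain ⟨g₀, -, rfl⟩ := inndiag_le_range hδ'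
    obtain ⟨H, hH, hconj⟩ := coset_minus (show 2 ≤ m by omega) hab' ha hb hr.pos hord hI g₀ hy
    exact ⟨dl H, hH, hconj⟩
  · rintro ⟨u, -, hu⟩
    rw [hu, ← hxr]
    have := orderOf_injective (MulAut.conj u).toMonoidHom (MulAut.conj u).injective x
    simpa using this

end Cfsg.Agent.S2737
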