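import Mathlib
import Cfsg.Statements.S2738

set_option autoImplicit false
open Cfsg

namespace Cfsg.Agent.S2738

variable {F : Type*} [Field F]

lemma two_eq_zero_of_card [Fintype F] (hF : Fintype.card F = 4) : (2 : F) = 0 := by
  have h : ((Fintype.card F : ℕ) : F) = 0 := Nat.cast_card_eq_zero F
  rw [hF] at h
  have h4 : ((2 : F)) ^ 2 = 0 := by
    have : ((4 : ℕ) : F) = 2 ^ 2 := by norm_num
    rw [← this]; exact h
  exact pow_eq_zero_iff (two_ne_zero) |>.mp h4

lemma exists_omega [Fintype F] (hF : Fintype.card F = 4) :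
    ∃ w : F, w ^ 2 + w + 1 = 0 ∧ w ≠ 1 ∧ w ≠ 0 := by
  classical
  have hlt : ({0, 1} : Finset F).card < (Finset.univ : Finset F).card := by
    rw [Finset.card_univ, hF]
    exact lt_of_le_of_lt (Finset.card_le_two) (by norm_num)
  obtain ⟨w, -, hw⟩ := Finset.exists_mem_notMem_of_card_lt_card hlt
  simp only [Finset.mem_insert, Finset.mem_singleton, not_or] at hw
  refine ⟨w, ?_, hw.2, hw.1⟩
  have h3 : w ^ 3 = 1 := by
    have := FiniteField.pow_card_sub_one_eq_one w hw.1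
    rwa [hF] at this
  have : (w - 1) * (w ^ 2 + w + 1) = 0 := by ring_nf; rw [h3]; ring
  rcases mul_eq_zero.mp this with h | h
  · exact absurd (sub_eq_zero.mp h) hw.2
  · exact h

/-- The centre has exactly 3 elements. -/
lemma card_center [Fintype F] (hF : Fintype.card F = 4) :
    Nat.card ↥(Subgroup.center (Matrix.SpecialLinearGroup (Fin 3) F)) = 3 := by
  classical
  rw [Nat.card_congr (Matrix.SpecialLinearGroup.center_equiv_rootsOfUnity' (0 : Fin 3)).toEquiv]
  have hcard : Fintype.card (Fin 3) = 3 := by simp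
  rw [hcard]
  have hall : ∀ u : Fˣ, u ∈ rootsOfUnity 3 F := by
    intro u
    rw [mem_rootsOfUnity]
    have := FiniteField.pow_card_sub_one_eq_one (u : F) u.ne_zero
    rw [hF] at this
    ext
    simpa using this
  have htop : rootsOfUnity 3 F = ⊤ := by
    ext u; simp [hall u]
  rw [htop, Nat.card_congr Subgroup.topEquiv.toEquiv, Nat.card_units, Nat.card_eq_fintype_card, hF]

lemma comp_invol {G : Type*} [Group G] (Z K : Subgroup G) (hZ : Z ≤ Subgroup.center G)
    (hZ3 : Nat.card Z = 3) (hc : Subgroup.IsComplement' Z K) (x : G) (hx : x * x = 1) : x ∈ K := by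
  classical
  have hcompl := hc
  obtain ⟨⟨z, k⟩, hzk⟩ := hc.2 x
  simp only at hzk
  have hzc : ∀ y : G, (z : G) * y = y * z := fun y => by
    have := Subgroup.mem_center_iff.mp (hZ z.2) y
    exact this.symm
  have hk : (k : G) * k = ((z : G) * z)⁻¹ := by
    have : (z : G) * k * ((z : G) * k) = 1 := by rw [hzk]; exact hx
    have h2 : (z : G) * z * ((k : G) * k) = 1 := by
      calc (z : G) * z * ((k : G) * k) = (z : G) * (z * k) * k := by simp only [mul_assoc]
        _ = (z : G) * (k * z) * k := by rw [hzc (k : G)]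
        _ = (z : G) * k * ((z : G) * k) := by simp only [mul_assoc]
        _ = 1 := this
    exact (eq_inv_of_mul_eq_one_right h2)
  have hdisj : Disjoint Z K := hc.disjoint
  have hzz : (z : G) * z ∈ K := by
    have : ((z : G) * z)⁻¹ ∈ K := hk ▸ K.mul_mem k.2 k.2
    simpa using K.inv_mem this
  have hzz' : (z : G) * z ∈ Z := Z.mul_mem z.2 z.2
  have hzz1 : (z : G) * z = 1 := by
    have := Subgroup.disjoint_def.mp hdisj hzz' hzz
    exact this
  -- z has order dividing 2 and dividing 3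
  have hz3 : z ^ 3 = 1 := by
    have := pow_card_eq_one' (G := Z) (x := z)
    rwa [hZ3] at this
  have hz2 : z * z = 1 := Subtype.ext (by simpa using hzz1)
  have hz1 : z = 1 := by
    rw [pow_succ, pow_two, hz2, one_mul] at hz3
    exact hz3
  rw [← hzk, hz1]
  simp

theorem result (F : Type*) [Field F] [Fintype F] (hF : Fintype.card F = 4) : Nat.card ↥(Subgroup.center (Matrix.SpecialLinearGroup (Fin 3) F)) = 3 ∧ ¬ ∃ K : Subgroup (Matrix.SpecialLinearGroup (Fin 3) F), Subgroup.IsComplement' (Subgroup.center (Matrix.SpecialLinearGroup (Fin 3) F)) K := by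
  classical
  refine ⟨card_center hF, ?_⟩
  rintro ⟨K, hK⟩
  have h2 : (2 : F) = 0 := two_eq_zero_of_card hF
  obtain ⟨w, hw, hw1, hw0⟩ := exists_omega hF
  have hw3 : w ^ 3 = 1 := by
    have : w ^ 3 - 1 = (w - 1) * (w ^ 2 + w + 1) := by ring
    rw [hw, mul_zero] at this
    exact sub_eq_zero.mp this
  have hneg : ∀ a : F, -a = a := by
    intro a
    have : a + a = 0 := by rw [← two_mul, h2, zero_mul]
    exact neg_eq_of_add_eq_zero_left this
  have hww : w * w ^ 2 = 1 := by rw [← hw3]; ring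
  have hdet1 : (!![0, w, 0; w ^ 2, 0, 0; 0, 0, 1] : Matrix (Fin 3) (Fin 3) F).det = 1 := by
    rw [Matrix.det_fin_three]; simp; rw [hneg, hww]
  have hdet2 : (!![0, 1, 0; 1, 0, 0; 0, 0, 1] : Matrix (Fin 3) (Fin 3) F).det = 1 := by
    rw [Matrix.det_fin_three]; simp; rw [hneg]
  have hdet3 : (!![1, 0, 0; 0, 0, w ^ 2; 0, w, 0] : Matrix (Fin 3) (Fin 3) F).det = 1 := by
    rw [Matrix.det_fin_three]; simp; rw [hneg, mul_comm, hww]
  have hdet4 : (!![1, 0, 0; 0, 0, 1; 0, 1, 0] : Matrix (Fin 3) (Fin 3) F).det = 1 := by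
    rw [Matrix.det_fin_three]; simp; rw [hneg]
  let A1 : Matrix.SpecialLinearGroup (Fin 3) F := ⟨!![0, w, 0; w ^ 2, 0, 0; 0, 0, 1], hdet1⟩
  let A2 : Matrix.SpecialLinearGroup (Fin 3) F := ⟨!![0, 1, 0; 1, 0, 0; 0, 0, 1], hdet2⟩
  let A3 : Matrix.SpecialLinearGroup (Fin 3) F := ⟨!![1, 0, 0; 0, 0, w ^ 2; 0, w, 0], hdet3⟩
  let A4 : Matrix.SpecialLinearGroup (Fin 3) F := ⟨!![1, 0, 0; 0, 0, 1; 0, 1, 0], hdet4⟩
  have hcenter : Subgroup.center (Matrix.SpecialLinearGroup (Fin 3) F) ≤ Subgroup.center _ := le_rfl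
  have hZ3 := card_center hF
  have hA1 : A1 ∈ K := comp_invol _ K le_rfl hZ3 hK A1 (by
    apply Subtype.ext
    change (!![0, w, 0; w ^ 2, 0, 0; 0, 0, 1] : Matrix (Fin 3) (Fin 3) F) * !![0, w, 0; w ^ 2, 0, 0; 0, 0, 1] = 1
    ext i j; fin_cases i <;> fin_cases j <;> simp [Matrix.mul_apply, Fin.sum_univ_three, hww, mul_comm])
  have hA2 : A2 ∈ K := comp_invol _ K le_rfl hZ3 hK A2 (by
    apply Subtype.ext
    change (!![0, 1, 0; 1, 0, 0; 0, 0, 1] : Matrix (Fin 3) (Fin 3) F) * !![0, 1, 0; 1, 0, 0; 0, 0, 1] = 1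
    ext i j; fin_cases i <;> fin_cases j <;> simp [Matrix.mul_apply, Fin.sum_univ_three])
  have hA3 : A3 ∈ K := comp_invol _ K le_rfl hZ3 hK A3 (by
    apply Subtype.ext
    change (!![1, 0, 0; 0, 0, w ^ 2; 0, w, 0] : Matrix (Fin 3) (Fin 3) F) * !![1, 0, 0; 0, 0, w ^ 2; 0, w, 0] = 1
    ext i j; fin_cases i <;> fin_cases j <;> simp [Matrix.mul_apply, Fin.sum_univ_three, hww, mul_comm])
  have hA4 : A4 ∈ K := comp_invol _ K le_rfl hZ3 hK A4 (by
    apply Subtype.ext
    change (!![1, 0, 0; 0, 0, 1; 0, 1, 0] : Matrix (Fin 3) (Fin 3) F) * !![1, 0, 0; 0, 0, 1; 0, 1, 0] = 1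
    ext i j; fin_cases i <;> fin_cases j <;> simp [Matrix.mul_apply, Fin.sum_univ_three])
  have hprod : A1 * A2 * (A3 * A4) ∈ K := K.mul_mem (K.mul_mem hA1 hA2) (K.mul_mem hA3 hA4)
  have hw4 : w ^ 2 * w ^ 2 = w := by
    calc w ^ 2 * w ^ 2 = w ^ 3 * w := by ring
      _ = w := by rw [hw3, one_mul]
  have hval : ((A1 * A2 * (A3 * A4) : Matrix.SpecialLinearGroup (Fin 3) F) : Matrix (Fin 3) (Fin 3) F)
      = Matrix.scalar (Fin 3) w := by
    change (!![0, w, 0; w ^ 2, 0, 0; 0, 0, 1] : Matrix (Fin 3) (Fin 3) F) * !![0, 1, 0; 1, 0, 0; 0, 0, 1]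
      * ((!![1, 0, 0; 0, 0, w ^ 2; 0, w, 0] : Matrix (Fin 3) (Fin 3) F) * !![1, 0, 0; 0, 0, 1; 0, 1, 0]) = _
    ext i j; fin_cases i <;> fin_cases j <;> simp [Matrix.mul_apply, Fin.sum_univ_three, hw4]
  have hcen : A1 * A2 * (A3 * A4) ∈ Subgroup.center (Matrix.SpecialLinearGroup (Fin 3) F) := by
    rw [Matrix.SpecialLinearGroup.mem_center_iff]
    exact ⟨w, by simpa using hw3, hval.symm⟩
  have h1 : A1 * A2 * (A3 * A4) = 1 := Subgroup.disjoint_def.mp hK.disjoint hcen hprod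
  rw [h1] at hval
  have := congrFun (congrFun hval 0) 0
  simp at this
  exact hw1 this.symm

end Cfsg.Agent.S2738
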