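import Mathlib
import Cfsg.Statements.S2739

set_option autoImplicit false
open scoped Pointwise
open Cfsg

namespace Cfsg.Agent.S2739

variable {F : Type*} [Field F]

/-- Trace. -/
def tr3 (m : Matrix (Fin 3) (Fin 3) F) : F := m 0 0 + m 1 1 + m 2 2

/-- Sum of principal minors. -/
def e3 (m : Matrix (Fin 3) (Fin 3) F) : F :=
  m 0 0 * m 1 1 - m 0 1 * m 1 0 + m 0 0 * m 2 2 - m 0 2 * m 2 0 + m 1 1 * m 2 2 - m 1 2 * m 2 1

lemma cayley3 (m : Matrix (Fin 3) (Fin 3) F) :
    m * m * m - tr3 m • (m * m) + e3 m • m - m.det • (1 : Matrix (Fin 3) (Fin 3) F) = 0 := by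
  ext i j
  fin_cases i <;> fin_cases j <;>
    simp [Matrix.mul_apply, Fin.sum_univ_three, Matrix.det_fin_three, tr3, e3] <;> ring

lemma det_sub_scalar3 (m : Matrix (Fin 3) (Fin 3) F) (a : F) :
    (m - a • (1 : Matrix (Fin 3) (Fin 3) F)).det = m.det - a * e3 m + a ^ 2 * tr3 m - a ^ 3 := by
  simp [Matrix.det_fin_three, tr3, e3]
  ring

lemma two_eq_zero_of_card [Fintype F] (hF : Fintype.card F = 4) : (2 : F) = 0 := by
  have h : ((Fintype.card F : ℕ) : F) = 0 := Nat.cast_card_eq_zero F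
  rw [hF] at h
  have h4 : ((2 : F)) ^ 2 = 0 := by
    have : ((4 : ℕ) : F) = 2 ^ 2 := by norm_num
    rw [← this]; exact h
  exact pow_eq_zero_iff (two_ne_zero) |>.mp h4

lemma exists_omega [Fintype F] (hF : Fintype.card F = 4) :
    ∃ w : F, w ^ 2 + w + 1 = 0 ∧ w ≠ 1 ∧ w ≠ 0 := by
  classical
  have hlt : ({0, 1} : Finset F).card < (Finset.univ : Finset F).card := by
    rw [Finset.card_univ, hF]
    exact lt_of_le_of_lt (Finset.card_le_two) (by norm_num)
  obtain ⟨w, -, hw⟩ := Finset.exists_mem_notMem_of_card_lt_card hlt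
  simp only [Finset.mem_insert, Finset.mem_singleton, not_or] at hw
  refine ⟨w, ?_, hw.2, hw.1⟩
  have h3 : w ^ 3 = 1 := by
    have := FiniteField.pow_card_sub_one_eq_one w hw.1
    rwa [hF] at this
  have : (w - 1) * (w ^ 2 + w + 1) = 0 := by ring_nf; rw [h3]; ring
  rcases mul_eq_zero.mp this with h | h
  · exact absurd (sub_eq_zero.mp h) hw.2
  · exact h

lemma pow3_of_ne [Fintype F] (hF : Fintype.card F = 4) (a : F) (ha : a ≠ 0) : a ^ 3 = 1 := by
  have := FiniteField.pow_card_sub_one_eq_one a ha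
  rwa [hF] at this

/-- Main linear algebra: non-scalar `s` of determinant 1 with `s^3` scalar has `tr = e = 0`. -/
lemma tr_e_zero [Fintype F] (hF : Fintype.card F = 4) (m : Matrix (Fin 3) (Fin 3) F)
    (hdet : m.det = 1) (l : F) (h3 : m * m * m = l • (1 : Matrix (Fin 3) (Fin 3) F))
    (hns : ∀ c : F, m ≠ c • (1 : Matrix (Fin 3) (Fin 3) F)) :
    tr3 m = 0 ∧ e3 m = 0 ∧ l = 1 := by
  have h2 : (2 : F) = 0 := two_eq_zero_of_card hF
  have hneg : ∀ a : F, -a = a := by
    intro a
    have : a + a = 0 := by rw [← two_mul, h2, zero_mul]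
    exact neg_eq_of_add_eq_zero_left this
  have hsub : ∀ a b : F, a - b = a + b := by
    intro a b; rw [sub_eq_add_neg, hneg]
  have hns2 : ∀ a b : F, a • m = b • (1 : Matrix (Fin 3) (Fin 3) F) → a = 0 := by
    intro a b hab
    by_contra ha
    apply hns (b / a)
    calc m = (a⁻¹ * a) • m := by rw [inv_mul_cancel₀ ha, one_smul]
      _ = a⁻¹ • (a • m) := by rw [smul_smul]
      _ = (b / a) • (1 : Matrix (Fin 3) (Fin 3) F) := by
        rw [hab, smul_smul, div_eq_inv_mul]
  have hl3 : l ^ 3 = 1 := by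
    have := congrArg Matrix.det h3
    rw [Matrix.det_mul, Matrix.det_mul, hdet, Matrix.det_smul, Matrix.det_one] at this
    simpa using this.symm
  have hl0 : l ≠ 0 := by
    rintro rfl
    simp at hl3
  have hc := cayley3 m
  rw [h3, hdet] at hc
  have hc' : tr3 m • (m * m) = e3 m • m + (l + 1) • (1 : Matrix (Fin 3) (Fin 3) F) := by
    ext i j
    have := congrFun (congrFun hc i) j
    simp only [Matrix.sub_apply, Matrix.add_apply, Matrix.smul_apply, smul_eq_mul, Matrix.zero_apply] at this ⊢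
    simp only [hsub] at this
    have h5 : ∀ a b : F, a + b = 0 → a = b := by
      intro a b hab
      have := eq_neg_of_add_eq_zero_left hab
      rwa [hneg] at this
    apply h5
    rw [← this]
    ring
  by_cases ht : tr3 m = 0
  · -- trace zero
    rw [ht, zero_smul] at hc'
    have he : e3 m = 0 := by
      have h6 : e3 m • m = (l + 1) • (1 : Matrix (Fin 3) (Fin 3) F) := by
        have : e3 m • m = - ((l + 1) • (1 : Matrix (Fin 3) (Fin 3) F)) := eq_neg_of_add_eq_zero_left hc'.symm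
        rw [this, ← neg_smul, hneg]
      exact hns2 _ _ h6
    refine ⟨ht, he, ?_⟩
    rw [he, zero_smul, zero_add] at hc'
    have h7 := congrFun (congrFun hc' 0) 0
    have h12 : l + 1 = 0 := by
      simpa using h7.symm
    have : l = -1 := eq_neg_of_add_eq_zero_left h12
    rw [this, hneg]
  · exfalso
    set a := (tr3 m)⁻¹ * e3 m with ha
    set b := (tr3 m)⁻¹ * (l + 1) with hb
    have hsq : m * m = a • m + b • (1 : Matrix (Fin 3) (Fin 3) F) := by
      calc m * m = (tr3 m)⁻¹ • (tr3 m • (m * m)) := by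
            rw [smul_smul, inv_mul_cancel₀ ht, one_smul]
        _ = a • m + b • (1 : Matrix (Fin 3) (Fin 3) F) := by
            rw [hc', smul_add, smul_smul, smul_smul]
    have hcube : m * m * m = (a * a + b) • m + (a * b) • (1 : Matrix (Fin 3) (Fin 3) F) := by
      rw [hsq, Matrix.add_mul, Matrix.smul_mul, Matrix.smul_mul, hsq, Matrix.one_mul, smul_add,
        smul_smul, smul_smul, add_smul]
      abel
    rw [h3] at hcube
    have h8 : (a * a + b) • m = (l + a * b) • (1 : Matrix (Fin 3) (Fin 3) F) := by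
      have : (a * a + b) • m = l • (1 : Matrix (Fin 3) (Fin 3) F) - (a * b) • (1 : Matrix (Fin 3) (Fin 3) F) :=
        eq_sub_of_add_eq hcube.symm
      rw [this, ← sub_smul, hsub]
    have h9 : a * a + b = 0 := hns2 _ _ h8
    rw [h9, zero_smul] at h8
    have h10 : l = a * b := by
      have := congrFun (congrFun h8 0) 0
      have h12 : l + a * b = 0 := by
        simpa using this.symm
      have h11 : l = -(a * b) := eq_neg_of_add_eq_zero_left h12
      rw [h11, hneg]
    have hb' : b = a * a := by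
      have : b = -(a * a) := eq_neg_of_add_eq_zero_right h9
      rw [this, hneg]
    have hl' : l = a ^ 3 := by rw [h10, hb']; ring
    have ha0 : a ≠ 0 := by
      rintro h0
      rw [h0] at hl'
      simp at hl'
      exact hl0 hl'
    have hl1 : l = 1 := by rw [hl', pow3_of_ne hF a ha0]
    have hb0 : b = 0 := by
      rw [hb, hl1]
      have : (1 : F) + 1 = 0 := by rw [← two_eq_zero_of_card hF]; norm_num
      rw [this, mul_zero]
    rw [hb0] at hb'
    exact ha0 (by simpa using hb'.symm)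

/-- Eigenvectors for a non-scalar `m`: for each cube root of unity `a` there is an eigenvector. -/
lemma exists_eigen (m : Matrix (Fin 3) (Fin 3) F)
    (hdet : m.det = 1) (ht : tr3 m = 0) (he : e3 m = 0) (a : F) (ha : a ^ 3 = 1) :
    ∃ v : Fin 3 → F, v ≠ 0 ∧ m.mulVec v = a • v := by
  have hd : (m - a • (1 : Matrix (Fin 3) (Fin 3) F)).det = 0 := by
    rw [det_sub_scalar3, hdet, ht, he, ha]; ring
  obtain ⟨v, hv0, hv⟩ := Matrix.exists_mulVec_eq_zero_iff.mpr hd
  refine ⟨v, hv0, ?_⟩
  rw [Matrix.sub_mulVec, Matrix.smul_mulVec, Matrix.one_mulVec] at hv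
  exact sub_eq_zero.mp hv

/-- Diagonalisation. -/
lemma exists_diag [Fintype F] (hF : Fintype.card F = 4) (w : F) (hw : w ^ 2 + w + 1 = 0)
    (m : Matrix (Fin 3) (Fin 3) F)
    (hdet : m.det = 1) (ht : tr3 m = 0) (he : e3 m = 0) :
    ∃ g : Matrix.SpecialLinearGroup (Fin 3) F, m * (g : Matrix (Fin 3) (Fin 3) F) =
      (g : Matrix (Fin 3) (Fin 3) F) * Matrix.diagonal ![1, w, w ^ 2] := by
  have h2 : (2 : F) = 0 := two_eq_zero_of_card hF
  have hw3 : w ^ 3 = 1 := by
    have : w ^ 3 - 1 = (w - 1) * (w ^ 2 + w + 1) := by ring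
    rw [hw, mul_zero] at this
    exact sub_eq_zero.mp this
  obtain ⟨v0, hv0, hm0⟩ := exists_eigen m hdet ht he 1 (by ring)
  obtain ⟨v1, hv1, hm1⟩ := exists_eigen m hdet ht he w hw3
  obtain ⟨v2, hv2, hm2⟩ := exists_eigen m hdet ht he (w ^ 2) (by
    calc (w ^ 2) ^ 3 = (w ^ 3) ^ 2 := by ring
      _ = 1 := by rw [hw3]; ring)
  -- matrix of columns
  let g0 : Matrix (Fin 3) (Fin 3) F := Matrix.of fun i j => ![v0 i, v1 i, v2 i] j
  have hg0 : m * g0 = g0 * Matrix.diagonal ![1, w, w ^ 2] := by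
    ext i j
    have e0 := congrFun hm0 i
    have e1 := congrFun hm1 i
    have e2 := congrFun hm2 i
    simp only [Matrix.mulVec, dotProduct, Fin.sum_univ_three, Pi.smul_apply, smul_eq_mul] at e0 e1 e2
    fin_cases j <;>
      simp [Matrix.mul_apply, Fin.sum_univ_three, g0, Matrix.diagonal_apply, e0, e1, e2, mul_comm]
  have h3 : (3 : F) = 1 := by
    have : (3 : F) = 2 + 1 := by norm_num
    rw [this, h2, zero_add]
  have hdet0 : g0.det ≠ 0 := by
    intro h0
    obtain ⟨c, hc0, hc⟩ := Matrix.exists_mulVec_eq_zero_iff.mpr h0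
    apply hc0
    have hsum : ∀ i, c 0 * v0 i + c 1 * v1 i + c 2 * v2 i = 0 := by
      intro i
      have := congrFun hc i
      simp [Matrix.mulVec, dotProduct, Fin.sum_univ_three, g0] at this
      linear_combination this
    -- apply m
    have hsum1 : ∀ i, c 0 * v0 i + w * (c 1 * v1 i) + w ^ 2 * (c 2 * v2 i) = 0 := by
      intro i
      have h := congrArg (fun x => (m.mulVec x) i) (funext hsum : (fun i => c 0 * v0 i + c 1 * v1 i + c 2 * v2 i) = 0)
      have h' : (fun i => c 0 * v0 i + c 1 * v1 i + c 2 * v2 i) = c 0 • v0 + c 1 • v1 + c 2 • v2 := by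
        ext i; simp
      simp only [h'] at h
      rw [Matrix.mulVec_add, Matrix.mulVec_add, Matrix.mulVec_smul, Matrix.mulVec_smul, Matrix.mulVec_smul,
        hm0, hm1, hm2] at h
      simp at h
      linear_combination h
    have hsum2 : ∀ i, c 0 * v0 i + w ^ 2 * (c 1 * v1 i) + w * (c 2 * v2 i) = 0 := by
      intro i
      have h := congrArg (fun x => (m.mulVec x) i) (funext hsum1 : (fun i => c 0 * v0 i + w * (c 1 * v1 i) + w ^ 2 * (c 2 * v2 i)) = 0)
      have h' : (fun i => c 0 * v0 i + w * (c 1 * v1 i) + w ^ 2 * (c 2 * v2 i))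
          = c 0 • v0 + (w * c 1) • v1 + (w ^ 2 * c 2) • v2 := by
        ext i; simp; ring
      simp only [h'] at h
      rw [Matrix.mulVec_add, Matrix.mulVec_add, Matrix.mulVec_smul, Matrix.mulVec_smul, Matrix.mulVec_smul,
        hm0, hm1, hm2] at h
      simp at h
      have h44 : w ^ 2 * w ^ 2 = w := by
        calc w ^ 2 * w ^ 2 = w ^ 3 * w := by ring
          _ = w := by rw [hw3, one_mul]
      linear_combination h + (-(c 2 * v2 i)) * h44
    have e0 : ∀ i, c 0 * v0 i = 0 := by
      intro i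
      have h := hsum i
      have h1 := hsum1 i
      have h2' := hsum2 i
      have : (3 : F) * (c 0 * v0 i) = 0 := by
        linear_combination h + h1 + h2' - (c 1 * v1 i + c 2 * v2 i) * hw
      rwa [h3, one_mul] at this
    have e1 : ∀ i, c 1 * v1 i = 0 := by
      intro i
      have h := hsum i
      have h1 := hsum1 i
      have h2' := hsum2 i
      have : (3 : F) * (c 1 * v1 i) = 0 := by
        linear_combination h + w ^ 2 * h1 + w * h2' - (c 0 * v0 i) * hw - 2 * (c 1 * v1 i) * hw3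
          - (c 2 * v2 i) * (w * hw3 + hw)
      rwa [h3, one_mul] at this
    have e2 : ∀ i, c 2 * v2 i = 0 := by
      intro i
      have h := hsum i
      have h1 := hsum1 i
      have h2' := hsum2 i
      have : (3 : F) * (c 2 * v2 i) = 0 := by
        linear_combination h + w * h1 + w ^ 2 * h2' - (c 0 * v0 i) * hw - 2 * (c 2 * v2 i) * hw3
          - (c 1 * v1 i) * (w * hw3 + hw)
      rwa [h3, one_mul] at this
    have key : ∀ (v : Fin 3 → F) (a : F), v ≠ 0 → (∀ i, a * v i = 0) → a = 0 := by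
      intro v a hv h
      obtain ⟨i, hi⟩ := Function.ne_iff.mp hv
      exact (mul_eq_zero.mp (h i)).resolve_right hi
    have c0 := key v0 _ hv0 e0
    have c1 := key v1 _ hv1 e1
    have c2 := key v2 _ hv2 e2
    ext i
    fin_cases i <;> simp [c0, c1, c2]
  -- rescale
  let D : Matrix (Fin 3) (Fin 3) F := Matrix.diagonal ![g0.det⁻¹, 1, 1]
  have hgdet : (g0 * D).det = 1 := by
    rw [Matrix.det_mul, Matrix.det_diagonal, Fin.prod_univ_three]
    simp [hdet0]
  refine ⟨⟨g0 * D, hgdet⟩, ?_⟩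
  change m * (g0 * D) = g0 * D * Matrix.diagonal ![1, w, w ^ 2]
  have hcomm : D * Matrix.diagonal ![1, w, w ^ 2] = Matrix.diagonal ![1, w, w ^ 2] * D := by
    simp only [D, Matrix.diagonal_mul_diagonal]
    congr 1
    ext i
    fin_cases i <;> simp [mul_comm]
  calc m * (g0 * D) = (m * g0) * D := by rw [Matrix.mul_assoc]
    _ = g0 * Matrix.diagonal ![1, w, w ^ 2] * D := by rw [hg0]
    _ = g0 * (Matrix.diagonal ![1, w, w ^ 2] * D) := by rw [Matrix.mul_assoc]
    _ = g0 * (D * Matrix.diagonal ![1, w, w ^ 2]) := by rw [hcomm]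
    _ = g0 * D * Matrix.diagonal ![1, w, w ^ 2] := by rw [Matrix.mul_assoc]

/-- Every element of order 3 in PSL(3,4) is conjugate to the image of a fixed one. -/
lemma conj_of_order3 [Fintype F] (hF : Fintype.card F = 4) (w : F) (hw : w ^ 2 + w + 1 = 0)
    (d : Matrix.SpecialLinearGroup (Fin 3) F)
    (hd : (d : Matrix (Fin 3) (Fin 3) F) = Matrix.diagonal ![1, w, w ^ 2])
    (x : Matrix.ProjectiveSpecialLinearGroup (Fin 3) F) (hx1 : x ≠ 1) (hx3 : x ^ 3 = 1) :
    ∃ g : Matrix.ProjectiveSpecialLinearGroup (Fin 3) F, x = g * (QuotientGroup.mk d) * g⁻¹ := by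
  obtain ⟨s, rfl⟩ := QuotientGroup.mk_surjective x
  have hz : s ^ 3 ∈ Subgroup.center (Matrix.SpecialLinearGroup (Fin 3) F) := by
    have : ((s ^ 3 : Matrix.SpecialLinearGroup (Fin 3) F) : _ ⧸ Subgroup.center (Matrix.SpecialLinearGroup (Fin 3) F)) = 1 := by
      rw [QuotientGroup.mk_pow]; exact hx3
    exact (QuotientGroup.eq_one_iff _).mp this
  obtain ⟨l, -, hl⟩ := Matrix.SpecialLinearGroup.mem_center_iff.mp hz
  have hm3 : (s : Matrix (Fin 3) (Fin 3) F) * s * s = l • (1 : Matrix (Fin 3) (Fin 3) F) := by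
    have : ((s ^ 3 : Matrix.SpecialLinearGroup (Fin 3) F) : Matrix (Fin 3) (Fin 3) F) = s * s * s := by
      rw [pow_succ, pow_two]; rfl
    rw [← this, ← hl]
    ext i j
    simp [Matrix.scalar_apply, Matrix.one_apply, Matrix.diagonal_apply]
  have hns : ∀ c : F, (s : Matrix (Fin 3) (Fin 3) F) ≠ c • (1 : Matrix (Fin 3) (Fin 3) F) := by
    intro c hc
    apply hx1
    have : s ∈ Subgroup.center (Matrix.SpecialLinearGroup (Fin 3) F) := by
      rw [Matrix.SpecialLinearGroup.mem_center_iff]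
      refine ⟨c, ?_, ?_⟩
      · have hd := s.2
        rw [hc, Matrix.det_smul, Matrix.det_one] at hd
        simpa using hd
      · rw [hc]
        ext i j
        simp [Matrix.scalar_apply, Matrix.one_apply, Matrix.diagonal_apply]
    exact (QuotientGroup.eq_one_iff _).mpr this
  obtain ⟨ht, he, hl1⟩ := tr_e_zero hF _ s.2 l hm3 hns
  obtain ⟨g, hg⟩ := exists_diag hF w hw _ s.2 ht he
  refine ⟨QuotientGroup.mk g, ?_⟩
  have hsg : s * g = g * d := by
    apply Subtype.ext
    change (s : Matrix (Fin 3) (Fin 3) F) * g = g * d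
    rw [hg, hd]
  have : s = g * d * g⁻¹ := by
    rw [← hsg]; group
  rw [this]
  simp [QuotientGroup.mk_mul, QuotientGroup.mk_inv]

theorem result (F : Type*) [Field F] [Fintype F] (hF : Fintype.card F = 4) (X Y : Subgroup (Matrix.ProjectiveSpecialLinearGroup (Fin 3) F)) (hX : Nat.card ↥X = 3) (hY : Nat.card ↥Y = 3) : ∃ g : Matrix.ProjectiveSpecialLinearGroup (Fin 3) F, MulAut.conj g • X = Y := by
  classical
  obtain ⟨w, hw, hw1, hw0⟩ := exists_omega hF
  have h2 : (2 : F) = 0 := two_eq_zero_of_card hF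
  have hw3 : w ^ 3 = 1 := by
    have : w ^ 3 - 1 = (w - 1) * (w ^ 2 + w + 1) := by ring
    rw [hw, mul_zero] at this
    exact sub_eq_zero.mp this
  let d : Matrix.SpecialLinearGroup (Fin 3) F := ⟨Matrix.diagonal ![1, w, w ^ 2], by
    rw [Matrix.det_diagonal, Fin.prod_univ_three]
    simp
    rw [← hw3]; ring⟩
  have hd : (d : Matrix (Fin 3) (Fin 3) F) = Matrix.diagonal ![1, w, w ^ 2] := rfl
  -- each subgroup of order 3 is a conjugate of the cyclic group of `d`
  have key : ∀ Z : Subgroup (Matrix.ProjectiveSpecialLinearGroup (Fin 3) F), Nat.card Z = 3 →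
      ∃ g : Matrix.ProjectiveSpecialLinearGroup (Fin 3) F,
        Z = MulAut.conj g • Subgroup.zpowers (QuotientGroup.mk d : Matrix.ProjectiveSpecialLinearGroup (Fin 3) F) := by
    intro Z hZ
    have : Finite Z := Nat.finite_of_card_ne_zero (by omega)
    obtain ⟨z, hz⟩ : ∃ z : Z, z ≠ 1 := by
      have : Nontrivial Z := by
        apply Finite.one_lt_card_iff_nontrivial.mp
        omega
      exact exists_ne 1
    have hz3 : z ^ 3 = 1 := by
      have := pow_card_eq_one' (G := Z) (x := z)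
      rwa [hZ] at this
    have hz1 : (z : Matrix.ProjectiveSpecialLinearGroup (Fin 3) F) ≠ 1 := by
      intro h; exact hz (Subtype.ext h)
    have hz3' : (z : Matrix.ProjectiveSpecialLinearGroup (Fin 3) F) ^ 3 = 1 := by
      have := congrArg (fun u : Z => (u : Matrix.ProjectiveSpecialLinearGroup (Fin 3) F)) hz3
      simpa using this
    obtain ⟨g, hg⟩ := conj_of_order3 hF w hw d hd _ hz1 hz3'
    refine ⟨g, ?_⟩
    have hzp : Z = Subgroup.zpowers (z : Matrix.ProjectiveSpecialLinearGroup (Fin 3) F) := by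
      symm
      apply Subgroup.eq_of_le_of_card_ge
      · rw [Subgroup.zpowers_le]; exact z.2
      · rw [hZ, Nat.card_zpowers]
        have := orderOf_dvd_of_pow_eq_one hz3'
        have h3 := (Nat.dvd_prime Nat.prime_three).mp this
        rcases h3 with h3 | h3
        · exact absurd (orderOf_eq_one_iff.mp h3) hz1
        · rw [h3]
    rw [hzp, hg]
    ext y
    rw [Subgroup.mem_smul_pointwise_iff_exists]
    constructor
    · rintro ⟨k, rfl⟩
      refine ⟨_, ⟨k, rfl⟩, ?_⟩
      simp only [MulAut.smul_def, MulAut.conj_apply]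
      simp [conj_zpow]
    · rintro ⟨_, ⟨k, rfl⟩, rfl⟩
      refine ⟨k, ?_⟩
      simp only [MulAut.smul_def, MulAut.conj_apply]
      simp [conj_zpow]
  obtain ⟨g1, h1⟩ := key X hX
  obtain ⟨g2, h2'⟩ := key Y hY
  refine ⟨g2 * g1⁻¹, ?_⟩
  rw [h1, h2', map_mul, map_inv, mul_smul]
  simp

end Cfsg.Agent.S2739
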