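import Mathlib
import Cfsg.Agent.Lib.InvolvesAPI
import Cfsg.Agent.Lib.DihedralIso
import Cfsg.Statements.S2758
-- import your own Cfsg.Agent.* helpers here

set_option autoImplicit false
open Cfsg

namespace Cfsg.Agent.S2758

open Cfsg.Agent.Lib.DihedralIso Cfsg.Agent.Lib.InvolvesAPI

section

variable {G : Type*} [Group G] {p : ℕ} [hp : Fact p.Prime]

theorem order_of_pow_2 {x : G} {a : ℕ} (ha : orderOf x = 2 ^ a) (n : ℕ) : ∃ i, orderOf (x ^ n) = 2 ^ i := by
  have h : orderOf (x ^ n) ∣ 2 ^ a := by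
    rw [← ha]
    exact orderOf_dvd_of_pow_eq_one (by rw [← pow_mul, mul_comm, pow_mul, pow_orderOf_eq_one, one_pow])
  obtain ⟨i, _, hi⟩ := (Nat.dvd_prime_pow Nat.prime_two).1 h
  exact ⟨i, hi⟩

/-- (b) implies (c). -/
theorem b_c {x : G} {P : Subgroup G} (hx : ∃ k : ℕ, orderOf x = 2 ^ k) (hP : IsPGroup p P)
    (hn : x ∈ Subgroup.normalizer (P : Set G)) (hc : x ∉ Subgroup.centralizer (P : Set G)) :
    ∃ x y : G, (∃ k : ℕ, orderOf x = 2 ^ k) ∧ (∃ k : ℕ, orderOf y = p ^ k) ∧ y ≠ 1 ∧ x * y * x⁻¹ = y⁻¹ := by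
  classical
  obtain ⟨a, ha⟩ := hx
  have hex : ∃ j, x ^ 2 ^ j ∈ Subgroup.centralizer (P : Set G) :=
    ⟨a, by rw [← ha, pow_orderOf_eq_one]; exact Subgroup.one_mem _⟩
  have hj0 : Nat.find hex ≠ 0 := by
    intro h0
    have := Nat.find_spec hex
    rw [h0] at this
    simp only [pow_zero, pow_one] at this
    exact hc this
  obtain ⟨j, hj⟩ := Nat.exists_eq_succ_of_ne_zero hj0
  have hj1 : x ^ 2 ^ j ∉ Subgroup.centralizer (P : Set G) := Nat.find_min hex (by omega)
  have hj2 : x ^ 2 ^ (j + 1) ∈ Subgroup.centralizer (P : Set G) := by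
    have := Nat.find_spec hex
    rwa [hj] at this
  set x₁ := x ^ 2 ^ j with hx₁
  have hsq : x₁ * x₁ ∈ Subgroup.centralizer (P : Set G) := by
    have : x₁ * x₁ = x ^ 2 ^ (j + 1) := by
      rw [hx₁, ← pow_add, pow_succ]
      congr 1
      ring
    rw [this]
    exact hj2
  have hnx₁ : x₁ ∈ Subgroup.normalizer (P : Set G) := Subgroup.pow_mem _ hn _
  obtain ⟨i, hi⟩ := order_of_pow_2 ha (2 ^ j)
  rw [Subgroup.mem_centralizer_iff] at hj1
  push Not at hj1
  obtain ⟨g, hg, hne⟩ := hj1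
  let g' := x₁ * g * x₁⁻¹
  have hg' : g' ∈ P := (Subgroup.mem_normalizer_iff.1 hnx₁ g).1 hg
  refine ⟨x₁, g⁻¹ * g', ⟨i, hi⟩, ?_, ?_, ?_⟩
  · have hz : g⁻¹ * g' ∈ P := P.mul_mem (P.inv_mem hg) hg'
    obtain ⟨k, hk⟩ := hP ⟨_, hz⟩
    have hk' : (g⁻¹ * g') ^ p ^ k = 1 := by
      have := congrArg Subtype.val hk
      simpa using this
    obtain ⟨l, _, hl⟩ := (Nat.dvd_prime_pow hp.out).1 (orderOf_dvd_of_pow_eq_one hk')
    exact ⟨l, hl⟩
  · intro h
    apply hne
    have h1 : g' = g := by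
      have := inv_mul_eq_one.1 h
      exact this.symm
    have h2 : x₁ * g * x₁⁻¹ = g := h1
    calc g * x₁ = (x₁ * g * x₁⁻¹) * x₁ := by rw [h2]
      _ = x₁ * g := by group
  · have hcomm : (x₁ * x₁) * g = g * (x₁ * x₁) := by
      have := Subgroup.mem_centralizer_iff.1 hsq g hg
      exact this.symm
    have h3 : x₁ * g' * x₁⁻¹ = g := by
      show x₁ * (x₁ * g * x₁⁻¹) * x₁⁻¹ = g
      calc x₁ * (x₁ * g * x₁⁻¹) * x₁⁻¹ = (x₁ * x₁) * g * (x₁ * x₁)⁻¹ := by group
        _ = g := by rw [hcomm]; group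
    calc x₁ * (g⁻¹ * g') * x₁⁻¹ = (x₁ * g * x₁⁻¹)⁻¹ * (x₁ * g' * x₁⁻¹) := by group
      _ = g'⁻¹ * g := by rw [h3]
      _ = (g⁻¹ * g')⁻¹ := by group

/-- Sign homomorphism. -/
def sgn (p : ℕ) : DihedralGroup p →* Multiplicative (ZMod 2) :=
  MonoidHom.mk' (fun g => match g with
    | .r _ => 1
    | .sr _ => Multiplicative.ofAdd 1) (by
      rintro (i | i) (j | j) <;>
      simp only [DihedralGroup.r_mul_r, DihedralGroup.r_mul_sr, DihedralGroup.sr_mul_r, DihedralGroup.sr_mul_sr] <;>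
      decide)

theorem sgn_r (i : ZMod p) : sgn p (.r i) = 1 := rfl
theorem sgn_sr (i : ZMod p) : sgn p (.sr i) = Multiplicative.ofAdd 1 := rfl

theorem mul2_sq (s : Multiplicative (ZMod 2)) : s ^ 2 = 1 := by
  revert s
  decide

theorem sq_odd {X : Type*} [Monoid X] {s : X} (hs : s ^ 2 = 1) {m : ℕ} (hm : Odd m) : s ^ m = s := by
  obtain ⟨l, rfl⟩ := hm
  rw [pow_succ, pow_mul, hs, one_pow, one_mul]

/-- (a) implies (b). -/
theorem a_b [Finite G] (hp2 : p ≠ 2) (h : Cfsg.Involves (DihedralGroup p) G) :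
    ∃ (x : G) (P : Subgroup G), (∃ k : ℕ, orderOf x = 2 ^ k) ∧ IsPGroup p ↥P ∧
      x ∈ Subgroup.normalizer (P : Set G) ∧ x ∉ Subgroup.centralizer (P : Set G) := by
  obtain ⟨K, φ, hφ⟩ := exists_surj_of_involves h
  haveI : NeZero p := ⟨hp.out.ne_zero⟩
  have hodd : Odd p := hp.out.odd_of_ne_two hp2
  let T : Subgroup K := ((sgn p).comp φ).ker
  have hT : ∀ g : K, g ∈ T ↔ sgn p (φ g) = 1 := fun g => MonoidHom.mem_ker
  obtain ⟨P⟩ : Nonempty (Sylow p K) := inferInstance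
  have hPT : (P : Subgroup K) ≤ T := by
    intro g hg
    obtain ⟨k, hk⟩ := P.isPGroup' ⟨g, hg⟩
    have hk' : g ^ p ^ k = 1 := by
      have := congrArg Subtype.val hk
      simpa using this
    rw [hT]
    have h1 : sgn p (φ g) ^ p ^ k = 1 := by
      rw [← map_pow, ← map_pow, hk', map_one, map_one]
    rwa [sq_odd (mul2_sq _) (hodd.pow)] at h1
  have htop := P.normalizer_sup_eq_top' hPT
  -- an element of `P` with nontrivial image
  have hy : ∃ y ∈ (P : Subgroup K), φ y ≠ 1 := by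
    by_contra hall
    push Not at hall
    have hle : (P : Subgroup K) ≤ φ.ker := fun y hy => MonoidHom.mem_ker.2 (hall y hy)
    have h1 := Subgroup.index_dvd_of_le hle
    have h2 : φ.ker.index = Nat.card (DihedralGroup p) := by
      rw [Subgroup.index_ker, MonoidHom.range_eq_top.2 hφ, Subgroup.card_top]
    rw [h2, DihedralGroup.nat_card] at h1
    exact P.not_dvd_index ((Dvd.intro_left 2 rfl).trans h1)
  obtain ⟨y, hyP, hy1⟩ := hy
  obtain ⟨j, hj, hj0⟩ : ∃ j, φ y = DihedralGroup.r j ∧ j ≠ 0 := by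
    have h1 := (hT y).1 (hPT hyP)
    cases hv : φ y with
    | r j =>
      refine ⟨j, rfl, ?_⟩
      rintro rfl
      apply hy1
      rw [hv]
      rfl
    | sr j =>
      rw [hv, sgn_sr] at h1
      exact absurd h1 (by decide)
  -- an element of the normalizer with image a reflection
  obtain ⟨g, hg⟩ := hφ (DihedralGroup.sr 0)
  have hgm : g ∈ Subgroup.normalizer ((P : Subgroup K) : Set K) ⊔ T := by
    have h2 : g ∈ (⊤ : Subgroup K) := trivial
    rw [← htop] at h2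
    exact h2
  obtain ⟨n, hn, t, ht, hnt⟩ := Subgroup.mem_sup_of_normal_right.1 hgm
  obtain ⟨i, hi⟩ : ∃ i, φ n = DihedralGroup.sr i := by
    have h1 : sgn p (φ n) * sgn p (φ t) = Multiplicative.ofAdd 1 := by
      rw [← map_mul, ← map_mul, hnt, hg, sgn_sr]
    rw [(hT t).1 ht, mul_one] at h1
    cases hv : φ n with
    | r j =>
      rw [hv, sgn_r] at h1
      exact absurd h1 (by decide)
    | sr j => exact ⟨j, rfl⟩
  -- the `2`-part
  have hord : orderOf n ≠ 0 := (orderOf_pos n).ne'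
  obtain ⟨a, m, hm, ham⟩ := Nat.exists_eq_two_pow_mul_odd hord
  have hm0 : m ≠ 0 := hm.pos.ne'
  let x := n ^ m
  have hxo : orderOf x = 2 ^ a := by
    have := orderOf_pow_of_dvd hm0 (ham ▸ Dvd.intro_left _ rfl)
    rw [this, ham]
    exact Nat.mul_div_cancel _ hm.pos
  have hxi : φ x = DihedralGroup.sr i := by
    change φ (n ^ m) = _
    rw [map_pow, hi]
    apply sq_odd _ hm
    rw [sq]
    exact DihedralGroup.sr_mul_self i
  have hxN : x ∈ Subgroup.normalizer ((P : Subgroup K) : Set K) := Subgroup.pow_mem _ hn _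
  refine ⟨(x : G), (P : Subgroup K).map K.subtype, ⟨a, ?_⟩, ?_, ?_, ?_⟩
  · rw [Subgroup.orderOf_coe, hxo]
  · exact P.isPGroup'.map K.subtype
  · rw [Subgroup.mem_normalizer_iff]
    intro h
    constructor
    · rintro ⟨b, hb, rfl⟩
      exact ⟨x * b * x⁻¹, (Subgroup.mem_normalizer_iff.1 hxN b).1 hb, rfl⟩
    · rintro ⟨b, hb, hbe⟩
      refine ⟨x⁻¹ * b * x, ?_, ?_⟩
      · have := (Subgroup.mem_normalizer_iff.1 (Subgroup.inv_mem _ hxN) b).1 hb
        exact (by simpa using this : x⁻¹ * b * x ∈ (P : Subgroup K))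
      · simp only [Subgroup.subtype_apply, MulMemClass.coe_mul, InvMemClass.coe_inv] at hbe ⊢
        rw [hbe]
        group
  · intro hc
    have h1 := Subgroup.mem_centralizer_iff.1 hc (y : G) ⟨y, hyP, rfl⟩
    have h2 : y * x = x * y := Subtype.ext h1
    have h3 := congrArg φ h2
    rw [map_mul, map_mul, hxi, hj, DihedralGroup.r_mul_sr, DihedralGroup.sr_mul_r] at h3
    have h4 : i - j = i + j := DihedralGroup.sr.inj h3
    have h5 : (2 : ZMod p) * j = 0 := by linear_combination -h4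
    have h6 : (2 : ZMod p) ≠ 0 := by
      intro h
      have : ((2 : ℕ) : ZMod p) = 0 := by exact_mod_cast h
      rw [ZMod.natCast_eq_zero_iff] at this
      exact hp2 ((Nat.prime_dvd_prime_iff_eq hp.out Nat.prime_two).1 this)
    exact hj0 ((mul_eq_zero.1 h5).resolve_left h6)

/-- (c) implies (a). -/
theorem c_a (hp2 : p ≠ 2) {x y : G} (hx : ∃ k : ℕ, orderOf x = 2 ^ k) (hy : ∃ k : ℕ, orderOf y = p ^ k)
    (hne : y ≠ 1) (hinv : x * y * x⁻¹ = y⁻¹) : Cfsg.Involves (DihedralGroup p) G := by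
  obtain ⟨a, ha⟩ := hx
  obtain ⟨e, he⟩ := hy
  haveI : NeZero p := ⟨hp.out.ne_zero⟩
  have he0 : e ≠ 0 := by
    rintro rfl
    rw [pow_zero, orderOf_eq_one_iff] at he
    exact hne he
  obtain ⟨e', rfl⟩ := Nat.exists_eq_succ_of_ne_zero he0
  let y₁ := y ^ p ^ e'
  have hy₁o : orderOf y₁ = p := by
    have h1 := orderOf_pow_of_dvd (x := y) (n := p ^ e') (pow_ne_zero _ hp.out.ne_zero)
      (by rw [he]; exact pow_dvd_pow p (Nat.le_succ _))
    rw [h1, he, pow_succ]
    exact Nat.mul_div_cancel_left _ (pow_pos hp.out.pos _)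
  have hy₁ne : y₁ ≠ 1 := by
    intro h
    rw [h, orderOf_one] at hy₁o
    exact hp.out.ne_one hy₁o.symm
  have hinv₁ : x * y₁ * x⁻¹ = y₁⁻¹ := by
    simp only [y₁]
    rw [← conj_pow, hinv, inv_pow]
  have hy₁p : y₁ ^ p = 1 := by
    rw [← hy₁o]
    exact pow_orderOf_eq_one _
  have hcomm : x * x * y₁ = y₁ * (x * x) := by
    have h1 : x * y₁⁻¹ * x⁻¹ = y₁ := by
      have : x * y₁⁻¹ * x⁻¹ = (x * y₁ * x⁻¹)⁻¹ := by group
      rw [this, hinv₁, inv_inv]
    calc x * x * y₁ = x * (x * y₁ * x⁻¹) * x := by group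
      _ = (x * y₁⁻¹ * x⁻¹) * (x * x) := by rw [hinv₁]; group
      _ = y₁ * (x * x) := by rw [h1]
  have hcop : ∀ w : G, w ^ p = 1 → w ^ 2 ^ a = 1 → w = 1 := by
    intro w h1 h2
    have h3 : orderOf w ∣ Nat.gcd p (2 ^ a) :=
      Nat.dvd_gcd (orderOf_dvd_of_pow_eq_one h1) (orderOf_dvd_of_pow_eq_one h2)
    have h4 : Nat.gcd p (2 ^ a) = 1 := by
      apply Nat.Coprime.pow_right
      exact (Nat.coprime_primes hp.out Nat.prime_two).2 hp2
    rw [h4, Nat.dvd_one, orderOf_eq_one_iff] at h3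
    exact h3
  have hxpow : x ^ 2 ^ a = 1 := by
    rw [← ha]
    exact pow_orderOf_eq_one x
  let K : Subgroup G := Subgroup.closure {x, y₁}
  let x' : K := ⟨x, Subgroup.subset_closure (by simp)⟩
  let y' : K := ⟨y₁, Subgroup.subset_closure (by simp)⟩
  have hcen : ∀ g : K, g * (x' * x') = (x' * x') * g := by
    have hle : K ≤ Subgroup.centralizer ({x * x} : Set G) := by
      refine (Subgroup.closure_le _).2 ?_
      rintro z (rfl | rfl)
      · rw [SetLike.mem_coe, Subgroup.mem_centralizer_singleton_iff]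
        group
      · rw [SetLike.mem_coe, Subgroup.mem_centralizer_singleton_iff]
        exact hcomm.symm
    intro g
    apply Subtype.ext
    have := Subgroup.mem_centralizer_singleton_iff.1 (hle g.2)
    exact this
  let R : Subgroup K := Subgroup.zpowers (x' * x')
  haveI hRn : R.Normal := by
    refine ⟨fun n hn g => ?_⟩
    obtain ⟨i, rfl⟩ := Subgroup.mem_zpowers_iff.1 hn
    have h1 : Commute g (x' * x') := hcen g
    have h2 : g * (x' * x') ^ i * g⁻¹ = (x' * x') ^ i := by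
      rw [(h1.zpow_right i).eq]
      group
    rw [h2]
    exact Subgroup.zpow_mem_zpowers _ _
  let ζ : K ⧸ R := QuotientGroup.mk y'
  let t : K ⧸ R := QuotientGroup.mk x'
  have hζp : ζ ^ p = 1 := by
    have : y' ^ p = 1 := Subtype.ext hy₁p
    rw [← QuotientGroup.mk_pow, this]
    rfl
  have ht : t * t = 1 := by
    rw [← QuotientGroup.mk_mul]
    exact (QuotientGroup.eq_one_iff _).2 (Subgroup.mem_zpowers _)
  have htinv : t⁻¹ = t := inv_eq_of_mul_eq_one_left ht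
  have hconj : t * ζ * t = ζ⁻¹ := by
    have h1 : x' * y' * x'⁻¹ = y'⁻¹ := Subtype.ext hinv₁
    have h2 : t * ζ * t⁻¹ = ζ⁻¹ := by
      rw [← QuotientGroup.mk_inv, ← QuotientGroup.mk_inv, ← QuotientGroup.mk_mul, ← QuotientGroup.mk_mul, h1]
    rwa [htinv] at h2
  have hRpow : ∀ r ∈ R, (r : G) ^ 2 ^ a = 1 := by
    intro r hr
    obtain ⟨i, rfl⟩ := Subgroup.mem_zpowers_iff.1 hr
    have h1 : (x' * x') ^ 2 ^ a = 1 := by
      apply Subtype.ext
      have hc : Commute x x := Commute.refl x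
      simp only [Subgroup.coe_pow, Subgroup.coe_mul, Subgroup.coe_one]
      change (x * x) ^ 2 ^ a = 1
      rw [hc.mul_pow, hxpow, one_mul]
    have h2 : ((x' * x') ^ i) ^ 2 ^ a = 1 := by
      rw [← zpow_natCast, ← zpow_mul, mul_comm, zpow_mul, zpow_natCast, h1, one_zpow]
    have := congrArg Subtype.val h2
    simpa using this
  have hζne : ζ ≠ 1 := by
    intro h
    have h1 : y' ∈ R := (QuotientGroup.eq_one_iff _).1 h
    exact hy₁ne (hcop _ hy₁p (hRpow _ h1))
  have hord : orderOf ζ = p := orderOf_eq_prime hζp hζne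
  have hx1 : x ≠ 1 := by
    rintro rfl
    have h1 : y₁ = y₁⁻¹ := by simpa using hinv₁
    have h2 : y₁ ^ 2 = 1 := by
      rw [sq]
      nth_rw 1 [h1]
      simp
    have h3 : orderOf y₁ ∣ 2 := orderOf_dvd_of_pow_eq_one h2
    rw [hy₁o] at h3
    exact hp2 ((Nat.prime_dvd_prime_iff_eq hp.out Nat.prime_two).1 h3)
  have htout : ∀ k : ℕ, ζ ^ k ≠ t := by
    intro k hk
    have h1 : ((y' ^ k : K) : K ⧸ R) = QuotientGroup.mk x' := by
      rw [QuotientGroup.mk_pow]
      exact hk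
    have h2 : (y' ^ k)⁻¹ * x' ∈ R := QuotientGroup.eq.1 h1
    obtain ⟨i, hi⟩ := Subgroup.mem_zpowers_iff.1 h2
    -- `x' * (x' x')^(-i) = y'^k`
    have h3 : x' * ((x' * x') ^ i)⁻¹ = y' ^ k := by
      rw [hi]
      group
    have h4 : x' ^ (1 - 2 * i) = y' ^ k := by
      rw [← h3]
      have : x' * x' = x' ^ (2 : ℤ) := by
        rw [zpow_two]
      rw [this, ← zpow_mul, sub_eq_add_neg, zpow_add, zpow_one, zpow_neg]
    have h5 : (x' ^ (1 - 2 * i)) ^ p = 1 := by
      rw [h4, ← pow_mul, mul_comm, pow_mul]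
      have : y' ^ p = 1 := Subtype.ext hy₁p
      rw [this, one_pow]
    have hx'pow : x' ^ 2 ^ a = 1 := Subtype.ext hxpow
    have h6 : (x' ^ (1 - 2 * i)) ^ 2 ^ a = 1 := by
      rw [← zpow_natCast, ← zpow_mul, mul_comm, zpow_mul, zpow_natCast, hx'pow, one_zpow]
    have h7 : x ^ (1 - 2 * i) = 1 := by
      have := hcop ((x' ^ (1 - 2 * i) : K) : G) (by
        have := congrArg Subtype.val h5
        simpa using this) (by
        have := congrArg Subtype.val h6
        simpa using this)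
      simpa [x'] using this
    have h8 := orderOf_dvd_iff_zpow_eq_one.2 h7
    rw [ha] at h8
    rcases a with _ | a
    · rw [pow_zero, orderOf_eq_one_iff] at ha
      exact hx1 ha
    · push_cast at h8
      rw [pow_succ] at h8
      have h9 : (2 : ℤ) ∣ 1 - 2 * i := (Dvd.intro_left _ rfl).trans h8
      omega
  let f := dihedralHom ζ t hζp ht hconj
  have hinj : Function.Injective f := dihedralHom_injective ζ t hζp ht hconj hord htout
  have hsurj : Function.Surjective f := by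
    intro g
    obtain ⟨⟨b, hb⟩, rfl⟩ := QuotientGroup.mk_surjective g
    suffices h : (QuotientGroup.mk ⟨b, hb⟩ : K ⧸ R) ∈ f.range from h
    induction hb using Subgroup.closure_induction with
    | mem z hz =>
      rcases hz with rfl | rfl
      · refine ⟨.sr 0, ?_⟩
        change t * pw ζ (0 : ZMod p) = t
        rw [pw_zero, mul_one]
      · refine ⟨.r ((1 : ℕ) : ZMod p), ?_⟩
        change pw ζ ((1 : ℕ) : ZMod p) = ζ
        rw [pw, ZMod.val_natCast, Nat.mod_eq_of_lt hp.out.one_lt, pow_one]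
    | one => exact Subgroup.one_mem _
    | mul a b _ _ h1 h2 => exact Subgroup.mul_mem _ h1 h2
    | inv a _ h1 => exact Subgroup.inv_mem _ h1
  exact involves_of_quotient K R (MulEquiv.ofBijective f ⟨hinj, hsurj⟩).symm

end



/-- For an odd prime p and a finite group G the following are equivalent: the dihedral group of order 2p is involved in G; some element of 2-power order normalizes but does not centralize some p-subgroup of G; some element of 2-power order inverts some nonidentity element of p-power order. -/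
theorem result {G : Type*} [Group G] [Finite G] {p : ℕ} [Fact p.Prime] (hp : p ≠ 2) : (Cfsg.Involves (DihedralGroup p) G ↔ ∃ (x : G) (P : Subgroup G), (∃ k : ℕ, orderOf x = 2 ^ k) ∧ IsPGroup p ↥P ∧ x ∈ Subgroup.normalizer (P : Set G) ∧ x ∉ Subgroup.centralizer (P : Set G)) ∧ (Cfsg.Involves (DihedralGroup p) G ↔ ∃ x y : G, (∃ k : ℕ, orderOf x = 2 ^ k) ∧ (∃ k : ℕ, orderOf y = p ^ k) ∧ y ≠ 1 ∧ x * y * x⁻¹ = y⁻¹) := by
  have hab := a_b (G := G) (p := p) hp
  have hbc : ∀ (x : G) (P : Subgroup G), (∃ k : ℕ, orderOf x = 2 ^ k) → IsPGroup p ↥P → x ∈ Subgroup.normalizer (P : Set G) → x ∉ Subgroup.centralizer (P : Set G) → ∃ x y : G, (∃ k : ℕ, orderOf x = 2 ^ k) ∧ (∃ k : ℕ, orderOf y = p ^ k) ∧ y ≠ 1 ∧ x * y * x⁻¹ = y⁻¹ :=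
    fun x P h1 h2 h3 h4 => b_c h1 h2 h3 h4
  have hca : (∃ x y : G, (∃ k : ℕ, orderOf x = 2 ^ k) ∧ (∃ k : ℕ, orderOf y = p ^ k) ∧ y ≠ 1 ∧ x * y * x⁻¹ = y⁻¹) → Cfsg.Involves (DihedralGroup p) G := by
    rintro ⟨x, y, h1, h2, h3, h4⟩
    exact c_a hp h1 h2 h3 h4
  refine ⟨⟨hab, ?_⟩, ⟨?_, hca⟩⟩
  · rintro ⟨x, P, h1, h2, h3, h4⟩
    exact hca (hbc x P h1 h2 h3 h4)
  · intro h
    obtain ⟨x, P, h1, h2, h3, h4⟩ := hab h
    exact hbc x P h1 h2 h3 h4

end Cfsg.Agent.S2758
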