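import Mathlib
import Cfsg.Agent.Lib.PCore
import Cfsg.Statements.S2760
-- import your own Cfsg.Agent.* helpers here

set_option autoImplicit false
open Cfsg

namespace Cfsg.Agent.S2760

open Cfsg.Agent.Lib.PCore

theorem isPGroup_of_forall_coprime {L : Type*} [Group L] [Finite L] {p : ℕ} [Fact p.Prime]
    (h : ∀ y : L, (orderOf y).Coprime p → y = 1) : IsPGroup p L := by
  intro g
  have hn : orderOf g ≠ 0 := (orderOf_pos g).ne'
  obtain ⟨k, m, hm, hkm⟩ := Nat.exists_eq_pow_mul_and_not_dvd hn p (Fact.out : p.Prime).ne_one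
  refine ⟨k, h _ ?_⟩
  have h1 : orderOf (g ^ p ^ k) = m := by
    have hmpos : 0 < m := Nat.pos_of_ne_zero (by
      rintro rfl
      rw [mul_zero] at hkm
      exact hn hkm)
    have e : orderOf g / m = p ^ k := by rw [hkm]; exact Nat.mul_div_cancel _ hmpos
    have h2 := orderOf_pow_orderOf_div hn (n := m) ⟨p ^ k, by rw [hkm, mul_comm]⟩
    rwa [e] at h2
  rw [h1]
  exact ((Nat.Prime.coprime_iff_not_dvd (Fact.out : p.Prime)).2 hm).symm

theorem eq_one_of_stability {G : Type*} [Group G] [Finite G] {p : ℕ} [Fact p.Prime]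
    {Q : Subgroup G} (hQ : IsPGroup p Q) (hC : Subgroup.centralizer (Q : Set G) ≤ Q) (y : G)
    (hy : (orderOf y).Coprime p)
    (h : ∀ q ∈ Q, q⁻¹ * (y * q * y⁻¹) ∈ Q ∧ y * (q⁻¹ * (y * q * y⁻¹)) = (q⁻¹ * (y * q * y⁻¹)) * y) :
    y = 1 := by
  have hcomm : y ∈ Subgroup.centralizer (Q : Set G) := by
    rw [Subgroup.mem_centralizer_iff]
    intro q hq
    obtain ⟨hc, hcy⟩ := h q hq
    set c := q⁻¹ * (y * q * y⁻¹) with hcdef
    have hyq : y * q * y⁻¹ = q * c := by rw [hcdef]; group
    have hpow : ∀ n : ℕ, y ^ n * q * (y ^ n)⁻¹ = q * c ^ n := by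
      intro n
      induction n with
      | zero => simp
      | succ n ih =>
        have hycn : Commute y (c ^ n) := (show Commute y c from hcy).pow_right n
        calc y ^ (n + 1) * q * (y ^ (n + 1))⁻¹
            = y * (y ^ n * q * (y ^ n)⁻¹) * y⁻¹ := by rw [pow_succ']; group
          _ = y * (q * c ^ n) * y⁻¹ := by rw [ih]
          _ = (y * q * y⁻¹) * (y * c ^ n * y⁻¹) := by group
          _ = q * c * c ^ n := by rw [hyq, hycn.eq]; group
          _ = q * c ^ (n + 1) := by rw [pow_succ']; group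
    have h1 : c ^ orderOf y = 1 := by
      have := hpow (orderOf y)
      rw [pow_orderOf_eq_one] at this
      simpa using this
    -- `c` is a `p`-element
    obtain ⟨k, hk⟩ := hQ ⟨c, hc⟩
    have hk' : c ^ p ^ k = 1 := by
      have := congrArg (fun z : Q => (z : G)) hk
      simpa using this
    have hcop : (orderOf y).Coprime (p ^ k) := hy.pow_right k
    have hc1 : c = 1 := by
      have hd1 := orderOf_dvd_of_pow_eq_one h1
      have hd2 := orderOf_dvd_of_pow_eq_one hk'
      have := Nat.eq_one_of_dvd_coprimes hcop hd1 hd2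
      exact orderOf_eq_one_iff.1 this
    rw [hc1] at hyq
    have : y * q = q * y := by
      have e : y * q * y⁻¹ * y = q * 1 * y := by rw [hyq]
      simpa using e
    exact this.symm
  have hyQ := hC hcomm
  obtain ⟨k, hk⟩ := hQ ⟨y, hyQ⟩
  have hk' : y ^ p ^ k = 1 := by
    have := congrArg (fun z : Q => (z : G)) hk
    simpa using this
  have hcop : (orderOf y).Coprime (p ^ k) := hy.pow_right k
  have := Nat.eq_one_of_dvd_coprimes hcop (dvd_refl _) (orderOf_dvd_of_pow_eq_one hk')
  exact orderOf_eq_one_iff.1 this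

/-- The normal case. -/
theorem normal_case {G : Type*} [Group G] [Finite G] {p : ℕ} [Fact p.Prime]
    (hchar : Subgroup.centralizer (pCore p G : Set G) ≤ pCore p G) (H : Subgroup G) (hH : H.Normal) :
    Subgroup.centralizer (pCore p ↥H : Set ↥H) ≤ pCore p ↥H := by
  have hQp : IsPGroup p (pCore p G) := isPGroup_pCore p
  have hQn : (pCore p G).Normal := inferInstance
  -- `Q ∩ H ≤ O_p(H)`
  have hcap : ∀ z : H, (z : G) ∈ pCore p G → z ∈ pCore p ↥H := by
    intro z hz
    have hn : ((pCore p G).subgroupOf H).Normal := inferInstance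
    have hpg : IsPGroup p ((pCore p G).subgroupOf H) :=
      hQp.comap_of_injective H.subtype H.subtype_injective
    exact le_pCore hn hpg hz
  have hL : IsPGroup p ↥(Subgroup.centralizer (pCore p ↥H : Set ↥H)) := by
    refine isPGroup_of_forall_coprime ?_
    rintro ⟨y, hy⟩ hyo
    have hyo' : (orderOf (y : G)).Coprime p := by
      rw [Subgroup.orderOf_coe] 
      rw [← Subgroup.orderOf_mk y hy]
      exact hyo
    have hy1 : (y : G) = 1 := by
      refine eq_one_of_stability hQp hchar (y : G) hyo' ?_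
      intro q hq
      have hc1 : q⁻¹ * ((y : G) * q * (y : G)⁻¹) ∈ pCore p G := by
        exact (pCore p G).mul_mem ((pCore p G).inv_mem hq) (hQn.conj_mem q hq y)
      have hc2 : q⁻¹ * ((y : G) * q * (y : G)⁻¹) ∈ H := by
        have : q⁻¹ * ((y : G) * q * (y : G)⁻¹) = (q⁻¹ * (y : G) * q) * (y : G)⁻¹ := by group
        rw [this]
        have h3 := hH.conj_mem (y : G) y.2 q⁻¹
        simp only [inv_inv] at h3
        exact H.mul_mem h3 (H.inv_mem y.2)
      refine ⟨hc1, ?_⟩
      have h4 := (Subgroup.mem_centralizer_iff.1 hy) ⟨_, hc2⟩ (hcap ⟨_, hc2⟩ hc1)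
      have h5 := congrArg (fun z : H => (z : G)) h4
      exact h5.symm
    apply Subtype.ext
    apply Subtype.ext
    exact hy1
  have hLn : (Subgroup.centralizer (pCore p ↥H : Set ↥H)).Normal := inferInstance
  exact le_pCore hLn hL

/-- The general statement. -/
theorem main_case {G : Type*} [Group G] [Finite G] {p : ℕ} [Fact p.Prime]
    (hchar : Subgroup.centralizer (pCore p G : Set G) ≤ pCore p G) (H : Subgroup G)
    (hH : ((pResidual p ↥H).map H.subtype).Normal) :
    Subgroup.centralizer (pCore p ↥H : Set ↥H) ≤ pCore p ↥H := by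
  set H₀ : Subgroup G := (pResidual p ↥H).map H.subtype with hH₀
  have hA := normal_case hchar H₀ hH
  have hH₀H : H₀ ≤ H := Subgroup.map_subtype_le _
  -- `O_p(H₀)` is a normal `p`-subgroup of `G`, hence lies in `O_p(H)`
  have hN : ((pCore p ↥H₀).map H₀.subtype).Normal := by
    refine ⟨fun n hn g => ?_⟩
    obtain ⟨z, hz, rfl⟩ := hn
    have hch : (pCore p ↥H₀).Characteristic := inferInstance
    have h1 := (Subgroup.characteristic_iff_map_eq.1 hch) (MulAut.conjNormal g)
    have h2 : MulAut.conjNormal g z ∈ (pCore p ↥H₀).map (MulAut.conjNormal g : ↥H₀ ≃* ↥H₀).toMonoidHom :=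
      ⟨z, hz, rfl⟩
    rw [h1] at h2
    refine ⟨_, h2, ?_⟩
    simp
  have hle : ∀ z : ↥H₀, z ∈ pCore p ↥H₀ → (⟨z, hH₀H z.2⟩ : H) ∈ pCore p ↥H := by
    intro z hz
    have hn : ((pCore p ↥H₀).map H₀.subtype).subgroupOf H |>.Normal := inferInstance
    have hpg : IsPGroup p (((pCore p ↥H₀).map H₀.subtype).subgroupOf H) :=
      ((isPGroup_pCore p).map H₀.subtype).comap_of_injective H.subtype H.subtype_injective
    refine le_pCore hn hpg ?_
    rw [Subgroup.mem_subgroupOf]
    exact ⟨z, hz, rfl⟩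
  have hL : IsPGroup p ↥(Subgroup.centralizer (pCore p ↥H : Set ↥H)) := by
    refine isPGroup_of_forall_coprime ?_
    rintro ⟨y, hy⟩ hyo
    have hyo' : (orderOf y).Coprime p := by
      rw [← Subgroup.orderOf_mk y hy]
      exact hyo
    have hyR : y ∈ pResidual p ↥H := Subgroup.subset_closure hyo'
    let y₀ : H₀ := ⟨y, y, hyR, rfl⟩
    have hy₀c : y₀ ∈ Subgroup.centralizer (pCore p ↥H₀ : Set ↥H₀) := by
      rw [Subgroup.mem_centralizer_iff]
      intro z hz
      have h4 := (Subgroup.mem_centralizer_iff.1 hy) _ (hle z hz)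
      apply Subtype.ext
      exact congrArg (fun z : H => (z : G)) h4
    have hy₀O := hA hy₀c
    obtain ⟨k, hk⟩ := (isPGroup_pCore (G := ↥H₀) p) ⟨y₀, hy₀O⟩
    have hk' : y ^ p ^ k = 1 := by
      have h5 := congrArg (fun z : (pCore p ↥H₀) => ((z : ↥H₀) : G)) hk
      apply Subtype.ext
      simpa [y₀] using h5
    have hcop : (orderOf y).Coprime (p ^ k) := hyo'.pow_right k
    have hy1 : y = 1 := by
      have := Nat.eq_one_of_dvd_coprimes hcop (dvd_refl _) (orderOf_dvd_of_pow_eq_one hk')
      exact orderOf_eq_one_iff.1 this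
    apply Subtype.ext
    exact hy1
  have hLn : (Subgroup.centralizer (pCore p ↥H : Set ↥H)).Normal := inferInstance
  exact le_pCore hLn hL


/-- Let G be a finite group with C_G(O₂(G)) ≤ O₂(G) and H a subgroup of G such that H is normal in G, or the subgroup O²(H) generated by the elements of H of odd order is normal in G. Then C_H(O₂(H)) ≤ O₂(H). -/
theorem result {G : Type*} [Group G] [Finite G] (hchar : Subgroup.centralizer (Cfsg.pCore 2 G : Set G) ≤ Cfsg.pCore 2 G) (H : Subgroup G) (hH : H.Normal ∨ ((Cfsg.pResidual 2 ↥H).map H.subtype).Normal) : Subgroup.centralizer (Cfsg.pCore 2 ↥H : Set ↥H) ≤ Cfsg.pCore 2 ↥H := by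
  rcases hH with hH | hH
  · exact normal_case hchar H hH
  · exact main_case hchar H hH

end Cfsg.Agent.S2760
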