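import Mathlib
import Cfsg.Agent.Lib.QdFacts
import Cfsg.Statements.S2761
-- import your own Cfsg.Agent.* helpers here

set_option autoImplicit false
open Cfsg

namespace Cfsg.Agent.S2761

/-- Shorthand. -/
abbrev Q := ↥(Cfsg.qd 2)

/-- Points of the affine plane. -/
abbrev Pt := ZMod 2 × ZMod 2

/-- Entries. -/
def en (M : Q) (i j : Fin 3) : ZMod 2 :=
  ((M : Matrix.SpecialLinearGroup (Fin 3) (ZMod 2)) : Matrix (Fin 3) (Fin 3) (ZMod 2)) i j

theorem last0 (M : Q) : en M 2 0 = 0 := (Cfsg.Agent.Lib.QdFacts.lastRow M.1 M.2).1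
theorem last1 (M : Q) : en M 2 1 = 0 := (Cfsg.Agent.Lib.QdFacts.lastRow M.1 M.2).2.1
theorem last2 (M : Q) : en M 2 2 = 1 := (Cfsg.Agent.Lib.QdFacts.lastRow M.1 M.2).2.2

theorem en_ext {a b : Q} (h : ∀ i j, en a i j = en b i j) : a = b := by
  apply Subtype.ext
  apply Subtype.ext
  ext i j
  exact h i j

theorem en_mul (a b : Q) (i j : Fin 3) :
    en (a * b) i j = en a i 0 * en b 0 j + en a i 1 * en b 1 j + en a i 2 * en b 2 j := by
  simp [en, Matrix.mul_apply, Fin.sum_univ_three]

theorem en_one (i j : Fin 3) : en (1 : Q) i j = (1 : Matrix (Fin 3) (Fin 3) (ZMod 2)) i j := rfl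

/-- The action. -/
def act (M : Q) (v : Pt) : Pt :=
  (en M 0 0 * v.1 + en M 0 1 * v.2 + en M 0 2, en M 1 0 * v.1 + en M 1 1 * v.2 + en M 1 2)

theorem act_mul (a b : Q) (v : Pt) : act (a * b) v = act a (act b v) := by
  ext
  · simp only [act, en_mul, last0 b, last1 b, last2 b]
    ring
  · simp only [act, en_mul, last0 b, last1 b, last2 b]
    ring

theorem act_one (v : Pt) : act 1 v = v := by
  ext <;> simp [act, en_one]

/-- The permutation representation. -/
def phi : Q →* Equiv.Perm Pt where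
  toFun M := ⟨act M, act M⁻¹, fun v => by rw [← act_mul]; simp [act_one],
    fun v => by rw [← act_mul]; simp [act_one]⟩
  map_one' := by
    ext v
    · simp [act_one]
    · simp [act_one]
  map_mul' a b := by
    ext v
    · simp [act_mul]
    · simp [act_mul]

theorem phi_apply (M : Q) (v : Pt) : phi M v = act M v := rfl

theorem phi_inj : Function.Injective phi := by
  intro a b h
  have h0 := congrArg (fun π : Equiv.Perm Pt => π (0, 0)) h
  have h1 := congrArg (fun π : Equiv.Perm Pt => π (1, 0)) h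
  have h2 := congrArg (fun π : Equiv.Perm Pt => π (0, 1)) h
  simp only [phi_apply, act, Prod.mk.injEq] at h0 h1 h2
  simp only [mul_zero, zero_add, mul_one, add_zero] at h0 h1 h2
  obtain ⟨e1, e2⟩ := h0
  obtain ⟨e3, e4⟩ := h1
  obtain ⟨e5, e6⟩ := h2
  rw [e1] at e3 e5
  rw [e2] at e4 e6
  have e3' := add_right_cancel e3
  have e4' := add_right_cancel e4
  have e5' := add_right_cancel e5
  have e6' := add_right_cancel e6
  apply en_ext
  intro i j
  fin_cases i <;> fin_cases j <;>
    first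
    | exact e1 | exact e2 | exact e3' | exact e4' | exact e5' | exact e6'
    | (simp only [Fin.reduceFinMk]; first | rw [last0, last0] | rw [last1, last1] | rw [last2, last2])

/-- Coordinates of a permutation. -/
def cc (π : Equiv.Perm Pt) : ZMod 2 × ZMod 2 × ZMod 2 × ZMod 2 × ZMod 2 × ZMod 2 :=
  let c := (π (0,0)).1
  let f := (π (0,0)).2
  let a := (π (1,0)).1 + c
  let d := (π (1,0)).2 + f
  let b := (π (0,1)).1 + c
  let e := (π (0,1)).2 + f
  (a,b,c,d,e,f)

theorem key : ∀ π : Equiv.Perm Pt,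
    (cc π).1 * (cc π).2.2.2.2.1 - (cc π).2.1 * (cc π).2.2.2.1 = 1 ∧
     ∀ v : Pt, π v = ((cc π).1 * v.1 + (cc π).2.1 * v.2 + (cc π).2.2.1,
        (cc π).2.2.2.1 * v.1 + (cc π).2.2.2.2.1 * v.2 + (cc π).2.2.2.2.2) := by
  decide +kernel

theorem phi_surj : Function.Surjective phi := by
  intro π
  obtain ⟨hd, hv⟩ := key π
  generalize cc π = t at hd hv
  obtain ⟨a, b, c, d, e, f⟩ := t
  refine ⟨⟨⟨!![a, b, c; d, e, f; 0, 0, 1], ?_⟩, Subgroup.subset_closure ?_⟩, ?_⟩
  · rw [Matrix.det_fin_three]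
    simp
    linear_combination hd
  · refine ⟨?_, ?_, ?_⟩ <;> simp
  · ext v
    · rw [hv v]
      simp [phi_apply, act, en]
    · rw [hv v]
      simp [phi_apply, act, en]



/-- The group Qd(2), the natural semidirect product of an elementary abelian group of order 4 by SL₂(2) (realised as the affine subgroup of SL₃(2)), is isomorphic to the symmetric group of degree 4. -/
theorem result : Nonempty (↥(Cfsg.qd 2) ≃* Equiv.Perm (Fin 4)) := by
  have e : Pt ≃ Fin 4 := Fintype.equivFinOfCardEq (by simp)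
  exact ⟨(MulEquiv.ofBijective phi ⟨phi_inj, phi_surj⟩).trans e.permCongrHom⟩

end Cfsg.Agent.S2761
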