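import Mathlib
import Cfsg.Agent.Lib.PCore
import Cfsg.Statements.S2762
-- import your own Cfsg.Agent.* helpers here

set_option autoImplicit false
open Cfsg

namespace Cfsg.Agent.S2762

open Matrix Cfsg.Agent.Lib.PCore

section

variable {F : Type*} [Field F]

/-- Shorthand. -/
abbrev Q (F : Type*) [Field F] := ↥(Cfsg.qdOver F)

/-- Entries. -/
def en (M : Q F) (i j : Fin 3) : F :=
  ((M : Matrix.SpecialLinearGroup (Fin 3) F) : Matrix (Fin 3) (Fin 3) F) i j

theorem lastRow (M : Matrix.SpecialLinearGroup (Fin 3) F) (hM : M ∈ Cfsg.qdOver F) :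
    (M : Matrix (Fin 3) (Fin 3) F) 2 0 = 0 ∧ (M : Matrix (Fin 3) (Fin 3) F) 2 1 = 0 ∧
      (M : Matrix (Fin 3) (Fin 3) F) 2 2 = 1 := by
  unfold Cfsg.qdOver at hM
  induction hM using Subgroup.closure_induction with
  | mem x hx => exact hx
  | one => simp
  | mul a b _ _ ha hb =>
    obtain ⟨a0, a1, a2⟩ := ha
    obtain ⟨b0, b1, b2⟩ := hb
    simp only [Matrix.SpecialLinearGroup.coe_mul, Matrix.mul_apply, Fin.sum_univ_three]
    rw [a0, a1, a2, b0, b1, b2]
    simp
  | inv a _ ha =>
    obtain ⟨a0, a1, a2⟩ := ha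
    have h : ∀ j, ((a * a⁻¹ : Matrix.SpecialLinearGroup (Fin 3) F) : Matrix (Fin 3) (Fin 3) F) 2 j =
        (1 : Matrix (Fin 3) (Fin 3) F) 2 j := by
      intro j
      rw [mul_inv_cancel]
      rfl
    have h' : ∀ j, ((a⁻¹ : Matrix.SpecialLinearGroup (Fin 3) F) : Matrix (Fin 3) (Fin 3) F) 2 j =
        (1 : Matrix (Fin 3) (Fin 3) F) 2 j := by
      intro j
      have := h j
      simp only [Matrix.SpecialLinearGroup.coe_mul, Matrix.mul_apply, Fin.sum_univ_three] at this
      rw [a0, a1, a2] at this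
      simpa using this
    refine ⟨?_, ?_, ?_⟩
    · rw [h' 0]; simp
    · rw [h' 1]; simp
    · rw [h' 2]; simp

theorem last0 (M : Q F) : en M 2 0 = 0 := (lastRow M.1 M.2).1
theorem last1 (M : Q F) : en M 2 1 = 0 := (lastRow M.1 M.2).2.1
theorem last2 (M : Q F) : en M 2 2 = 1 := (lastRow M.1 M.2).2.2

theorem en_ext {a b : Q F} (h : ∀ i j, en a i j = en b i j) : a = b := by
  apply Subtype.ext
  apply Subtype.ext
  ext i j
  exact h i j

theorem en_mul (a b : Q F) (i j : Fin 3) :
    en (a * b) i j = en a i 0 * en b 0 j + en a i 1 * en b 1 j + en a i 2 * en b 2 j := by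
  simp [en, Matrix.mul_apply, Fin.sum_univ_three]

theorem en_one (i j : Fin 3) : en (1 : Q F) i j = (1 : Matrix (Fin 3) (Fin 3) F) i j := rfl

theorem en_det (M : Q F) : en M 0 0 * en M 1 1 - en M 0 1 * en M 1 0 = 1 := by
  have h := M.1.2
  rw [Matrix.det_fin_three] at h
  have h0 := last0 M
  have h1 := last1 M
  have h2 := last2 M
  simp only [en] at h0 h1 h2 ⊢
  rw [h0, h1, h2] at h
  linear_combination h

/-- Constructor. -/
def mkQ (A : Matrix (Fin 3) (Fin 3) F) (hd : A.det = 1) (h0 : A 2 0 = 0) (h1 : A 2 1 = 0)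
    (h2 : A 2 2 = 1) : Q F :=
  ⟨⟨A, hd⟩, Subgroup.subset_closure ⟨h0, h1, h2⟩⟩

theorem en_mk (A : Matrix (Fin 3) (Fin 3) F) (hd : A.det = 1) (h0 : A 2 0 = 0) (h1 : A 2 1 = 0)
    (h2 : A 2 2 = 1) (i j : Fin 3) : en (mkQ A hd h0 h1 h2) i j = A i j := rfl

/-- The block homomorphism. -/
def rho : Q F →* Matrix.SpecialLinearGroup (Fin 2) F where
  toFun M := ⟨!![en M 0 0, en M 0 1; en M 1 0, en M 1 1], by
    rw [Matrix.det_fin_two_of]; exact en_det M⟩
  map_one' := by
    apply Subtype.ext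
    ext i j
    fin_cases i <;> fin_cases j <;> simp [en_one]
  map_mul' a b := by
    apply Subtype.ext
    change !![en (a * b) 0 0, en (a * b) 0 1; en (a * b) 1 0, en (a * b) 1 1] =
      !![en a 0 0, en a 0 1; en a 1 0, en a 1 1] * !![en b 0 0, en b 0 1; en b 1 0, en b 1 1]
    ext i j
    fin_cases i <;> fin_cases j <;>
      simp [en_mul, last0, last1, Matrix.mul_apply, Fin.sum_univ_two]

theorem rho_coe (M : Q F) : ((rho M : Matrix.SpecialLinearGroup (Fin 2) F) : Matrix (Fin 2) (Fin 2) F) =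
    !![en M 0 0, en M 0 1; en M 1 0, en M 1 1] := rfl

/-- The section. -/
def secFun (A : Matrix.SpecialLinearGroup (Fin 2) F) : Q F :=
  mkQ !![(A : Matrix (Fin 2) (Fin 2) F) 0 0, (A : Matrix (Fin 2) (Fin 2) F) 0 1, 0;
      (A : Matrix (Fin 2) (Fin 2) F) 1 0, (A : Matrix (Fin 2) (Fin 2) F) 1 1, 0; 0, 0, 1]
    (by
      have := A.2
      rw [Matrix.det_fin_two] at this
      rw [Matrix.det_fin_three]
      simp
      linear_combination this)
    (by simp) (by simp) (by simp)

theorem sec_00 (A : Matrix.SpecialLinearGroup (Fin 2) F) : en (secFun A) 0 0 = (A : Matrix (Fin 2) (Fin 2) F) 0 0 := by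
  simp [secFun, en_mk]
theorem sec_01 (A : Matrix.SpecialLinearGroup (Fin 2) F) : en (secFun A) 0 1 = (A : Matrix (Fin 2) (Fin 2) F) 0 1 := by
  simp [secFun, en_mk]
theorem sec_10 (A : Matrix.SpecialLinearGroup (Fin 2) F) : en (secFun A) 1 0 = (A : Matrix (Fin 2) (Fin 2) F) 1 0 := by
  simp [secFun, en_mk]
theorem sec_11 (A : Matrix.SpecialLinearGroup (Fin 2) F) : en (secFun A) 1 1 = (A : Matrix (Fin 2) (Fin 2) F) 1 1 := by
  simp [secFun, en_mk]
theorem sec_02 (A : Matrix.SpecialLinearGroup (Fin 2) F) : en (secFun A) 0 2 = 0 := by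
  simp [secFun, en_mk]
theorem sec_12 (A : Matrix.SpecialLinearGroup (Fin 2) F) : en (secFun A) 1 2 = 0 := by
  simp [secFun, en_mk]

theorem rho_sec (A : Matrix.SpecialLinearGroup (Fin 2) F) : rho (secFun A) = A := by
  apply Subtype.ext
  rw [rho_coe, sec_00, sec_01, sec_10, sec_11]
  ext i j
  fin_cases i <;> fin_cases j <;> simp

theorem sec_rho {M : Q F} (h1 : en M 0 2 = 0) (h2 : en M 1 2 = 0) : secFun (rho M) = M := by
  apply en_ext
  intro i j
  fin_cases i <;> fin_cases j <;>
    simp [sec_00, sec_01, sec_02, sec_10, sec_11, sec_12, rho_coe, h1, h2, last0, last1, last2]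

/-- The section as a homomorphism. -/
def sec : Matrix.SpecialLinearGroup (Fin 2) F →* Q F where
  toFun := secFun
  map_one' := by
    apply en_ext
    intro i j
    fin_cases i <;> fin_cases j <;>
      simp [sec_00, sec_01, sec_02, sec_10, sec_11, sec_12, en_one, last0, last1, last2]
  map_mul' a b := by
    rw [← sec_rho (M := secFun a * secFun b)]
    · rw [map_mul, rho_sec, rho_sec]
    · simp [en_mul, sec_02, sec_12]
    · simp [en_mul, sec_02, sec_12]

theorem rho_sec' (A : Matrix.SpecialLinearGroup (Fin 2) F) : rho (sec A) = A := rho_sec A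

theorem sec_inj : Function.Injective (sec (F := F)) := by
  intro a b h
  have := congrArg rho h
  rwa [rho_sec', rho_sec'] at this

/-- Translations. -/
def tr (a b : F) : Q F :=
  mkQ !![1, 0, a; 0, 1, b; 0, 0, 1] (by rw [Matrix.det_fin_three]; simp) (by simp) (by simp) (by simp)

theorem tr_mul (a b c d : F) : tr a b * tr c d = tr (a + c) (b + d) := by
  apply en_ext
  intro i j
  rw [en_mul]
  simp only [tr, en_mk]
  fin_cases i <;> fin_cases j <;> simp [add_comm]

theorem tr_zero : tr (0 : F) 0 = 1 := by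
  apply en_ext
  intro i j
  simp only [tr, en_mk, en_one]
  fin_cases i <;> fin_cases j <;> simp

theorem tr_pow (a b : F) (n : ℕ) : tr a b ^ n = tr ((n : F) * a) ((n : F) * b) := by
  induction n with
  | zero => simp [tr_zero]
  | succ n ih =>
    rw [pow_succ, ih, tr_mul]
    congr 1 <;> push_cast <;> ring

theorem en_tr_02 (a b : F) : en (tr a b) 0 2 = a := by simp [tr, en_mk]
theorem en_tr_12 (a b : F) : en (tr a b) 1 2 = b := by simp [tr, en_mk]

/-- The translation subgroup. -/
def T (F : Type*) [Field F] : Subgroup (Q F) := (rho (F := F)).ker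

instance : (T F).Normal := by
  unfold T
  infer_instance

theorem mem_T {M : Q F} : M ∈ T F ↔ en M 0 0 = 1 ∧ en M 0 1 = 0 ∧ en M 1 0 = 0 ∧ en M 1 1 = 1 := by
  unfold T
  rw [MonoidHom.mem_ker]
  constructor
  · intro h
    have e := congrArg (fun A : Matrix.SpecialLinearGroup (Fin 2) F => (A : Matrix (Fin 2) (Fin 2) F)) h
    simp only [rho_coe, Matrix.SpecialLinearGroup.coe_one] at e
    have e00 := congrFun (congrFun e 0) 0
    have e01 := congrFun (congrFun e 0) 1
    have e10 := congrFun (congrFun e 1) 0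
    have e11 := congrFun (congrFun e 1) 1
    simp at e00 e01 e10 e11
    exact ⟨e00, e01, e10, e11⟩
  · rintro ⟨h0, h1, h2, h3⟩
    apply Subtype.ext
    rw [rho_coe, h0, h1, h2, h3]
    ext i j
    fin_cases i <;> fin_cases j <;> simp

theorem tr_mem (a b : F) : tr a b ∈ T F := by
  rw [mem_T]
  simp [tr, en_mk]

theorem eq_tr {M : Q F} (h : M ∈ T F) : M = tr (en M 0 2) (en M 1 2) := by
  obtain ⟨h0, h1, h2, h3⟩ := mem_T.1 h
  apply en_ext
  intro i j
  fin_cases i <;> fin_cases j <;>
    simp [h0, h1, h2, h3, last0, last1, last2, en_tr_02, en_tr_12] <;> simp [tr, en_mk]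

variable {p : ℕ} [hp : Fact p.Prime] [CharP F p]

theorem T_isPGroup : IsPGroup p (T F) := by
  rintro ⟨t, ht⟩
  refine ⟨1, ?_⟩
  apply Subtype.ext
  simp only [pow_one, Subgroup.coe_pow, Subgroup.coe_one]
  rw [eq_tr ht, tr_pow]
  simp [tr_zero]

theorem T_le_pCore : T F ≤ Cfsg.pCore p (Q F) := le_pCore inferInstance T_isPGroup

/-- Trace of an element of `p`-power order. -/
theorem trace_of_pow {g : Q F} {k : ℕ} (h : g ^ p ^ k = 1) : en g 0 0 + en g 1 1 + en g 2 2 = 3 := by
  have hm : ((g.1 : Matrix.SpecialLinearGroup (Fin 3) F) : Matrix (Fin 3) (Fin 3) F) ^ p ^ k = 1 := by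
    have := congrArg (fun z : Q F => ((z.1 : Matrix.SpecialLinearGroup (Fin 3) F) : Matrix (Fin 3) (Fin 3) F)) h
    simpa using this
  have : CharP (Matrix (Fin 3) (Fin 3) F) p := Matrix.charP p
  have hc : Commute ((g.1 : Matrix.SpecialLinearGroup (Fin 3) F) : Matrix (Fin 3) (Fin 3) F) 1 := Commute.one_right _
  have hN : IsNilpotent (((g.1 : Matrix.SpecialLinearGroup (Fin 3) F) : Matrix (Fin 3) (Fin 3) F) - 1) := by
    refine ⟨p ^ k, ?_⟩
    rw [sub_pow_char_pow_of_commute p k hc, hm]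
    simp
  have ht := (Matrix.isNilpotent_trace_of_isNilpotent hN).eq_zero
  rw [Matrix.trace_sub, Matrix.trace_one, Matrix.trace_fin_three] at ht
  simp only [Fintype.card_fin, Nat.cast_ofNat] at ht
  simp only [en]
  linear_combination ht

/-- Upper transvection. -/
def uu (a : F) : Q F :=
  mkQ !![1, a, 0; 0, 1, 0; 0, 0, 1] (by rw [Matrix.det_fin_three]; simp) (by simp) (by simp) (by simp)

/-- Lower transvection. -/
def ll (a : F) : Q F :=
  mkQ !![1, 0, 0; a, 1, 0; 0, 0, 1] (by rw [Matrix.det_fin_three]; simp) (by simp) (by simp) (by simp)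

theorem uu_pow (a : F) (n : ℕ) : uu a ^ n = uu ((n : F) * a) := by
  induction n with
  | zero =>
    simp only [pow_zero, Nat.cast_zero, zero_mul]
    apply en_ext
    intro i j
    simp only [uu, en_mk, en_one]
    fin_cases i <;> fin_cases j <;> simp
  | succ n ih =>
    rw [pow_succ, ih]
    apply en_ext
    intro i j
    rw [en_mul]
    simp only [uu, en_mk]
    fin_cases i <;> fin_cases j <;> simp <;> ring

theorem ll_pow (a : F) (n : ℕ) : ll a ^ n = ll ((n : F) * a) := by
  induction n with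
  | zero =>
    simp only [pow_zero, Nat.cast_zero, zero_mul]
    apply en_ext
    intro i j
    simp only [ll, en_mk, en_one]
    fin_cases i <;> fin_cases j <;> simp
  | succ n ih =>
    rw [pow_succ, ih]
    apply en_ext
    intro i j
    rw [en_mul]
    simp only [ll, en_mk]
    fin_cases i <;> fin_cases j <;> simp <;> ring

omit [CharP F p] in
theorem isP_zpowers {X : Type*} [Group X] {u : X} (h : u ^ p = 1) : IsPGroup p (Subgroup.zpowers u) := by
  rintro ⟨_, k, rfl⟩
  refine ⟨1, ?_⟩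
  apply Subtype.ext
  simp only [pow_one, Subgroup.coe_pow, Subgroup.coe_one]
  rw [← zpow_natCast, ← _root_.zpow_mul, mul_comm, _root_.zpow_mul, zpow_natCast, h, _root_.one_zpow]

theorem uu_p : (uu (1 : F)) ^ p = 1 := by
  rw [uu_pow]
  simp only [CharP.cast_eq_zero, mul_one]
  apply en_ext
  intro i j
  simp only [uu, en_mk, en_one]
  fin_cases i <;> fin_cases j <;> simp

theorem ll_p : (ll (1 : F)) ^ p = 1 := by
  rw [ll_pow]
  simp only [CharP.cast_eq_zero, mul_one]
  apply en_ext
  intro i j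
  simp only [ll, en_mk, en_one]
  fin_cases i <;> fin_cases j <;> simp

theorem pCore_le_T [Finite F] : Cfsg.pCore p (Q F) ≤ T F := by
  intro M hM
  haveI : Finite (Q F) := by
    classical
    haveI : Fintype F := Fintype.ofFinite F
    infer_instance
  have hP : IsPGroup p (Cfsg.pCore p (Q F)) := isPGroup_pCore p
  have hsum : ∀ u : Q F, u ^ p = 1 → ∃ k : ℕ, (M * u) ^ p ^ k = 1 := by
    intro u hu
    have h2 := hP.to_sup_of_normal_left (isP_zpowers hu)
    have hmem : M * u ∈ Cfsg.pCore p (Q F) ⊔ Subgroup.zpowers u :=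
      Subgroup.mul_mem _ (Subgroup.mem_sup_left hM) (Subgroup.mem_sup_right (Subgroup.mem_zpowers u))
    obtain ⟨k, hk⟩ := h2 ⟨M * u, hmem⟩
    refine ⟨k, ?_⟩
    have := congrArg Subtype.val hk
    simpa using this
  obtain ⟨k₀, hk₀⟩ := hP ⟨M, hM⟩
  have hk₀' : M ^ p ^ k₀ = 1 := by
    have := congrArg Subtype.val hk₀
    simpa using this
  have ht := trace_of_pow hk₀'
  obtain ⟨k₁, hk₁⟩ := hsum (uu 1) uu_p
  obtain ⟨k₂, hk₂⟩ := hsum (ll 1) ll_p
  have ht₁ := trace_of_pow hk₁
  have ht₂ := trace_of_pow hk₂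
  simp only [en_mul] at ht₁ ht₂
  simp only [uu, ll, en_mk] at ht₁ ht₂
  simp at ht₁ ht₂
  rw [last2] at ht ht₁ ht₂
  have h10 : en M 1 0 = 0 := by linear_combination ht₁ - ht
  have h01 : en M 0 1 = 0 := by linear_combination ht₂ - ht
  have hd := en_det M
  rw [h10, h01] at hd
  have h00 : en M 0 0 = 1 := by
    have h2 : (en M 0 0 - 1) ^ 2 = 0 := by linear_combination (en M 0 0) * ht - hd
    have h3 := pow_eq_zero_iff (two_ne_zero) |>.1 h2
    exact sub_eq_zero.1 h3
  rw [mem_T]
  refine ⟨h00, h01, h10, ?_⟩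
  rw [h00] at ht
  linear_combination ht

omit hp [CharP F p] in
theorem en_mul_T {a b : Q F} (ha : a ∈ T F) (i : Fin 3) (hi : i = 0 ∨ i = 1) :
    en (a * b) i 2 = (if i = 0 then en b 0 2 else en b 1 2) + en a i 2 := by
  obtain ⟨h0, h1, h2, h3⟩ := mem_T.1 ha
  rw [en_mul, last2]
  rcases hi with rfl | rfl
  · rw [h0, h1]; simp
  · rw [h2, h3]; simp

/-- The coordinate map on translations. -/
def psi (F : Type*) [Field F] : Additive (T F) ≃+ (Fin 2 → F) where
  toFun v := ![en (Additive.toMul v).1 0 2, en (Additive.toMul v).1 1 2]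
  invFun w := Additive.ofMul ⟨tr (w 0) (w 1), tr_mem _ _⟩
  left_inv v := by
    apply Additive.toMul.injective
    apply Subtype.ext
    simp only [Matrix.cons_val_zero, Matrix.cons_val_one, toMul_ofMul]
    exact (eq_tr (Additive.toMul v).2).symm
  right_inv w := by
    ext i
    fin_cases i
    · simp [en_tr_02]
    · simp [en_tr_12]
  map_add' a b := by
    have h0 := en_mul_T (b := (Additive.toMul b).1) (Additive.toMul a).2 0 (Or.inl rfl)
    have h1 := en_mul_T (b := (Additive.toMul b).1) (Additive.toMul a).2 1 (Or.inr rfl)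
    ext i
    fin_cases i
    · simp only [toMul_add, Subgroup.coe_mul]
      simp [h0, add_comm]
    · simp only [toMul_add, Subgroup.coe_mul]
      simp [h1, add_comm]

theorem psi_apply (v : T F) : psi F (Additive.ofMul v) = ![en v.1 0 2, en v.1 1 2] := rfl

theorem pCore_eq_T [Finite F] : Cfsg.pCore p (Q F) = T F := le_antisymm pCore_le_T T_le_pCore

end



/-- Structure of Qd over a finite field F of characteristic p (the affine subgroup of SL₃(F)): its largest normal p-subgroup is the group of translations (matrices with upper-left block the identity), the block-diagonal matrices form a complement isomorphic to SL₂(F), and the translation subgroup is a natural SL₂(F)-module for that complement. -/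
theorem result {F : Type*} [Field F] [Fintype F] {p : ℕ} [Fact p.Prime] [CharP F p] : (∀ M : ↥(Cfsg.qdOver F), M ∈ Cfsg.pCore p ↥(Cfsg.qdOver F) ↔ ((M : Matrix.SpecialLinearGroup (Fin 3) F) : Matrix (Fin 3) (Fin 3) F) 0 0 = 1 ∧ ((M : Matrix.SpecialLinearGroup (Fin 3) F) : Matrix (Fin 3) (Fin 3) F) 0 1 = 0 ∧ ((M : Matrix.SpecialLinearGroup (Fin 3) F) : Matrix (Fin 3) (Fin 3) F) 1 0 = 0 ∧ ((M : Matrix.SpecialLinearGroup (Fin 3) F) : Matrix (Fin 3) (Fin 3) F) 1 1 = 1) ∧ ∃ K : Subgroup ↥(Cfsg.qdOver F), (∀ M : ↥(Cfsg.qdOver F), M ∈ K ↔ ((M : Matrix.SpecialLinearGroup (Fin 3) F) : Matrix (Fin 3) (Fin 3) F) 0 2 = 0 ∧ ((M : Matrix.SpecialLinearGroup (Fin 3) F) : Matrix (Fin 3) (Fin 3) F) 1 2 = 0) ∧ K ⊓ Cfsg.pCore p ↥(Cfsg.qdOver F) = ⊥ ∧ K ⊔ Cfsg.pCore p ↥(Cfsg.qdOver F) = ⊤ ∧ Nonempty (↥K ≃* Matrix.SpecialLinearGroup (Fin 2) F) ∧ Cfsg.IsNaturalSL2Module F (Cfsg.pCore p ↥(Cfsg.qdOver F)) K := by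
  haveI : Finite F := Finite.of_fintype F
  have hP : Cfsg.pCore p (Q F) = T F := pCore_eq_T
  have hmemK : ∀ M : Q F, M ∈ (sec (F := F)).range ↔ en M 0 2 = 0 ∧ en M 1 2 = 0 := by
    intro M
    constructor
    · rintro ⟨A, rfl⟩
      exact ⟨sec_02 A, sec_12 A⟩
    · rintro ⟨h1, h2⟩
      exact ⟨rho M, sec_rho h1 h2⟩
  refine ⟨?_, (sec (F := F)).range, hmemK, ?_, ?_, ?_, ?_⟩
  · intro M
    rw [hP]
    exact mem_T
  · rw [hP, eq_bot_iff]
    rintro M ⟨⟨A, rfl⟩, h2⟩
    have h3 : rho (sec A) = 1 := h2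
    rw [rho_sec'] at h3
    rw [h3, map_one]
    exact Subgroup.one_mem _
  · rw [hP, eq_top_iff]
    intro M _
    have h1 : (sec (rho M))⁻¹ * M ∈ T F := by
      show rho _ = 1
      rw [map_mul, map_inv, rho_sec']
      simp
    have h2 : M = sec (rho M) * ((sec (rho M))⁻¹ * M) := by group
    rw [h2]
    exact Subgroup.mul_mem _ (Subgroup.mem_sup_left ⟨_, rfl⟩) (Subgroup.mem_sup_right h1)
  · exact ⟨(MonoidHom.ofInjective sec_inj).symm⟩
  · rw [hP]
    refine ⟨?_, ?_⟩
    · intro l _
      rw [Subgroup.mem_normalizer_iff]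
      intro v
      constructor
      · intro hv
        exact (inferInstance : (T F).Normal).conj_mem v hv l
      · intro hv
        have := (inferInstance : (T F).Normal).conj_mem _ hv l⁻¹
        simpa [mul_assoc] using this
    · refine ⟨(rho (F := F)).comp (sec (F := F)).range.subtype, psi F, ?_, ?_, ?_⟩
      · intro A
        exact ⟨⟨sec A, ⟨A, rfl⟩⟩, rho_sec' A⟩
      · ext ⟨l, A, rfl⟩
        rw [MonoidHom.mem_ker, Subgroup.mem_subgroupOf]
        simp only [MonoidHom.coe_comp, Subgroup.coe_subtype, Function.comp_apply]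
        rw [rho_sec']
        constructor
        · rintro rfl
          rw [map_one]
          exact Subgroup.one_mem _
        · intro hc
          have hK := (hmemK (sec A)).1 ⟨A, rfl⟩
          have h1 : tr 1 0 * sec A = sec A * tr (1 : F) 0 := (Subgroup.mem_centralizer_iff.1 hc) _ (tr_mem 1 0)
          have h2 : tr 0 1 * sec A = sec A * tr (0 : F) 1 := (Subgroup.mem_centralizer_iff.1 hc) _ (tr_mem 0 1)
          have e1 := congrArg (fun M => en M 0 2) h1
          have e2 := congrArg (fun M => en M 1 2) h1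
          have e3 := congrArg (fun M => en M 0 2) h2
          have e4 := congrArg (fun M => en M 1 2) h2
          simp only [en_mul, hK.1, hK.2, last2, en_tr_02, en_tr_12] at e1 e2 e3 e4
          simp only [tr, en_mk] at e1 e2 e3 e4
          simp at e1 e2 e3 e4
          have hA : sec A = 1 := by
            apply en_ext
            intro i j
            fin_cases i <;> fin_cases j <;>
              simp [en_one, last0, last1, last2, hK.1, hK.2, ← e1, ← e2, ← e3, ← e4]
          exact sec_inj (by rw [hA, map_one])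
      · rintro ⟨l, A, rfl⟩ v
        have hK := (hmemK (sec A)).1 ⟨A, rfl⟩
        refine ⟨⟨sec A * v.1 * (sec A)⁻¹, (inferInstance : (T F).Normal).conj_mem _ v.2 _⟩, rfl, ?_⟩
        generalize hw : (⟨sec A * v.1 * (sec A)⁻¹, (inferInstance : (T F).Normal).conj_mem _ v.2 _⟩ : T F) = w
        have he : w.1 * sec A = sec A * v.1 := by
          rw [← hw]
          simp
        have e0 := congrArg (fun M => en M 0 2) he
        have e1 := congrArg (fun M => en M 1 2) he
        simp only [en_mul, hK.1, hK.2, last2] at e0 e1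
        rw [psi_apply, psi_apply]
        simp only [MonoidHom.coe_comp, Subgroup.coe_subtype, Function.comp_apply, rho_sec']
        have h00 : (A : Matrix (Fin 2) (Fin 2) F) 0 0 = en (sec A) 0 0 := (sec_00 A).symm
        have h01 : (A : Matrix (Fin 2) (Fin 2) F) 0 1 = en (sec A) 0 1 := (sec_01 A).symm
        have h10 : (A : Matrix (Fin 2) (Fin 2) F) 1 0 = en (sec A) 1 0 := (sec_10 A).symm
        have h11 : (A : Matrix (Fin 2) (Fin 2) F) 1 1 = en (sec A) 1 1 := (sec_11 A).symm
        ext i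
        fin_cases i
        · simp [Matrix.mulVec, dotProduct, Fin.sum_univ_two, h00, h01]
          simpa using e0
        · simp [Matrix.mulVec, dotProduct, Fin.sum_univ_two, h10, h11]
          simpa using e1

end Cfsg.Agent.S2762
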