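import Mathlib
import Cfsg.Agent.Lib.CosetGraph2
import Cfsg.Agent.Lib.ClassicalSE
import Cfsg.Agent.Lib.QdFacts
import Cfsg.Statements.S2763
-- import your own Cfsg.Agent.* helpers here

set_option autoImplicit false
open Cfsg

namespace Cfsg.Agent.S2763

open Matrix Cfsg.Agent.Lib.CosetGraph Cfsg.Agent.Lib.CosetGraph2

variable {p : ℕ} [hp : Fact p.Prime]

/-- Shorthand. -/
abbrev Q (p : ℕ) [Fact p.Prime] := ↥(Cfsg.qd p)

/-- Entries. -/
def en (M : Q p) (i j : Fin 3) : ZMod p :=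
  ((M : Matrix.SpecialLinearGroup (Fin 3) (ZMod p)) : Matrix (Fin 3) (Fin 3) (ZMod p)) i j

theorem en_ext {a b : Q p} (h : ∀ i j, en a i j = en b i j) : a = b := by
  apply Subtype.ext
  apply Subtype.ext
  ext i j
  exact h i j

theorem last0 (M : Q p) : en M 2 0 = 0 := (Cfsg.Agent.Lib.QdFacts.lastRow M.1 M.2).1
theorem last1 (M : Q p) : en M 2 1 = 0 := (Cfsg.Agent.Lib.QdFacts.lastRow M.1 M.2).2.1
theorem last2 (M : Q p) : en M 2 2 = 1 := (Cfsg.Agent.Lib.QdFacts.lastRow M.1 M.2).2.2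

theorem en_mul (a b : Q p) (i j : Fin 3) :
    en (a * b) i j = en a i 0 * en b 0 j + en a i 1 * en b 1 j + en a i 2 * en b 2 j := by
  simp [en, Matrix.mul_apply, Fin.sum_univ_three]

theorem en_one (i j : Fin 3) : en (1 : Q p) i j = (1 : Matrix (Fin 3) (Fin 3) (ZMod p)) i j := rfl

theorem en_det (M : Q p) : en M 0 0 * en M 1 1 - en M 0 1 * en M 1 0 = 1 := by
  have h := M.1.2
  rw [Matrix.det_fin_three] at h
  have h0 := last0 M
  have h1 := last1 M
  have h2 := last2 M
  simp only [en] at h0 h1 h2 ⊢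
  rw [h0, h1, h2] at h
  linear_combination h

/-- The explicit unitriangular element. -/
def uu (x z y : ZMod p) : Q p :=
  ⟨⟨!![1, x, y; 0, 1, z; 0, 0, 1], by simp [Matrix.det_fin_three]⟩,
    Subgroup.subset_closure (by
      refine ⟨?_, ?_, ?_⟩ <;> simp)⟩

@[simp] theorem en_uu_00 (x z y : ZMod p) : en (uu x z y) 0 0 = 1 := by simp [en, uu]
@[simp] theorem en_uu_01 (x z y : ZMod p) : en (uu x z y) 0 1 = x := by simp [en, uu]
@[simp] theorem en_uu_02 (x z y : ZMod p) : en (uu x z y) 0 2 = y := by simp [en, uu]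
@[simp] theorem en_uu_10 (x z y : ZMod p) : en (uu x z y) 1 0 = 0 := by simp [en, uu]
@[simp] theorem en_uu_11 (x z y : ZMod p) : en (uu x z y) 1 1 = 1 := by simp [en, uu]
@[simp] theorem en_uu_12 (x z y : ZMod p) : en (uu x z y) 1 2 = z := by simp [en, uu]

/-- The lower transvection. -/
def ll : Q p :=
  ⟨⟨!![1, 0, 0; 1, 1, 0; 0, 0, 1], by simp [Matrix.det_fin_three]⟩,
    Subgroup.subset_closure (by
      refine ⟨?_, ?_, ?_⟩ <;> simp)⟩

theorem en_ll_10 : en (ll (p := p)) 1 0 = 1 := by simp [en, ll]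

/-- The standard Sylow subgroup. -/
def S0 (p : ℕ) [Fact p.Prime] : Subgroup (Q p) where
  carrier := {M | en M 0 0 = 1 ∧ en M 1 0 = 0 ∧ en M 1 1 = 1}
  one_mem' := by simp [en_one]
  mul_mem' := by
    rintro a b ⟨a0, a1, a2⟩ ⟨b0, b1, b2⟩
    refine ⟨?_, ?_, ?_⟩
    · rw [en_mul, a0, b0, b1, last0 b]; ring
    · rw [en_mul, a1, b0, b1, last0 b]; ring
    · rw [en_mul, a1, a2, b2, last1 b]; ring
  inv_mem' := by
    rintro a ⟨a0, a1, a2⟩
    have e : ∀ i j, en (a * a⁻¹) i j = (1 : Matrix (Fin 3) (Fin 3) (ZMod p)) i j := by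
      intro i j
      rw [mul_inv_cancel]
      rfl
    have e10 := e 1 0
    have e11 := e 1 1
    have e00 := e 0 0
    rw [en_mul, a1, a2, last0 a⁻¹] at e10
    rw [en_mul, a1, a2, last1 a⁻¹] at e11
    rw [en_mul, a0, last0 a⁻¹] at e00
    simp at e10 e11 e00
    refine ⟨?_, e10, e11⟩
    rw [e10] at e00
    simpa using e00

theorem mem_S0 {M : Q p} : M ∈ S0 p ↔ en M 0 0 = 1 ∧ en M 1 0 = 0 ∧ en M 1 1 = 1 := Iff.rfl

theorem uu_mem (x z y : ZMod p) : uu x z y ∈ S0 p := by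
  rw [mem_S0]; simp

theorem eq_uu {M : Q p} (h : M ∈ S0 p) : M = uu (en M 0 1) (en M 1 2) (en M 0 2) := by
  obtain ⟨h0, h1, h2⟩ := h
  apply en_ext
  intro i j
  fin_cases i <;> fin_cases j <;>
    simp [h0, h1, h2, last0, last1, last2]

theorem uu_mul (x z y x' z' y' : ZMod p) :
    uu x z y * uu x' z' y' = uu (x + x') (z + z') (y + y' + x * z') := by
  apply en_ext
  intro i j
  rw [en_mul]
  fin_cases i <;> fin_cases j <;> simp [en, uu] <;> ring

/-- `S0` is a `p`-group. -/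
theorem S0_isPGroup : IsPGroup p (S0 p) := by
  rintro ⟨s, hs⟩
  refine ⟨2, ?_⟩
  apply Subtype.ext
  apply Subtype.ext
  apply Subtype.ext
  simp only [Subgroup.coe_pow, Matrix.SpecialLinearGroup.coe_pow, Subgroup.coe_one,
    Matrix.SpecialLinearGroup.coe_one]
  rw [eq_uu hs]
  generalize en s 0 1 = x
  generalize en s 1 2 = z
  generalize en s 0 2 = y
  set N : Matrix (Fin 3) (Fin 3) (ZMod p) := !![0, x, y; 0, 0, z; 0, 0, 0] with hN
  have e : ((uu x z y : Q p).1 : Matrix (Fin 3) (Fin 3) (ZMod p)) = 1 + N := by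
    ext i j
    fin_cases i <;> fin_cases j <;> simp [uu, hN]
  rw [e]
  have hc : Commute (1 : Matrix (Fin 3) (Fin 3) (ZMod p)) N := Commute.one_left N
  have : CharP (Matrix (Fin 3) (Fin 3) (ZMod p)) p := Matrix.charP p
  rw [add_pow_char_pow_of_commute p 2 hc]
  have hN3 : N ^ 3 = 0 := by
    ext i j
    fin_cases i <;> fin_cases j <;>
      simp [hN, pow_succ, Matrix.mul_apply, Fin.sum_univ_three]
  have hle : 3 ≤ p ^ 2 := by
    have := hp.out.two_le
    nlinarith
  have hN4 : N ^ p ^ 2 = 0 := pow_eq_zero_of_le hle hN3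
  rw [hN4]
  simp

theorem en_pow_of_tri {x : Q p} (h : en x 1 0 = 0) (n : ℕ) :
    en (x ^ n) 0 0 = en x 0 0 ^ n ∧ en (x ^ n) 1 0 = 0 := by
  induction n with
  | zero => simp [en_one]
  | succ n ih =>
    rw [pow_succ, en_mul, en_mul, ih.1, ih.2, h, last0 x]
    refine ⟨?_, by ring⟩
    ring

/-- Conjugation computation. -/
theorem conj_eq {g v w : Q p} (h : g * v * g⁻¹ = w) : w * g = g * v := by
  rw [← h]; group

/-- A normalizing element is upper triangular. -/
theorem low_eq_zero {g : Q p} (hg : g ∈ Subgroup.normalizer ((S0 p : Subgroup (Q p)) : Set (Q p))) :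
    en g 1 0 = 0 := by
  have h1 := (Subgroup.mem_normalizer_iff.1 hg _).1 (uu_mem (p := p) 1 0 0)
  have h2 := conj_eq (g := g) (v := uu 1 0 0) rfl
  obtain ⟨_, w1, w2⟩ := h1
  have h3 := congrArg (fun M => en M 1 1) h2
  simp only [en_mul (g * uu 1 0 0 * g⁻¹) g, en_mul g (uu 1 0 0)] at h3
  rw [w1, w2, last1 g, last1 (uu 1 0 0)] at h3
  simp at h3
  exact h3

theorem conj_mem_S0 {g s : Q p} (hg : en g 1 0 = 0) (hs : s ∈ S0 p) : g * s * g⁻¹ ∈ S0 p := by
  have h2 := conj_eq (g := g) (v := s) rfl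
  set w := g * s * g⁻¹ with hw
  have hd := en_det g
  rw [hg] at hd
  have h00 : en g 0 0 ≠ 0 := by
    intro h
    rw [h] at hd
    simp at hd
  have h11 : en g 1 1 ≠ 0 := by
    intro h
    rw [h] at hd
    simp at hd
  obtain ⟨s0, s1, s2⟩ := hs
  have e00 := congrArg (fun M => en M 0 0) h2
  have e10 := congrArg (fun M => en M 1 0) h2
  have e11 := congrArg (fun M => en M 1 1) h2
  simp only [en_mul] at e00 e10 e11
  rw [hg, last0 g, s0, s1, last0 s] at e00 e10
  rw [hg, last1 g, s2, last1 s] at e11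
  simp only [mul_zero, add_zero, mul_one, zero_mul] at e00 e10 e11
  have w10 : en w 1 0 = 0 := by simpa [h00] using e10
  refine ⟨?_, w10, ?_⟩
  · exact mul_right_cancel₀ h00 (by rw [e00, one_mul])
  · rw [w10] at e11
    simp only [zero_mul, zero_add] at e11
    exact mul_right_cancel₀ h11 (by rw [e11, one_mul])

theorem mem_normalizer_of_low {g : Q p} (hg : en g 1 0 = 0) :
    g ∈ Subgroup.normalizer ((S0 p : Subgroup (Q p)) : Set (Q p)) := by
  rw [Subgroup.mem_normalizer_iff]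
  intro s
  refine ⟨conj_mem_S0 hg, fun h => ?_⟩
  have hinv : en g⁻¹ 1 0 = 0 := by
    have e : en (g * g⁻¹) 1 0 = (1 : Matrix (Fin 3) (Fin 3) (ZMod p)) 1 0 := by
      rw [mul_inv_cancel]; rfl
    have hd := en_det g
    rw [hg] at hd
    rw [en_mul, hg, last0 g⁻¹] at e
    simp at e
    rcases e with e | e
    · rw [e] at hd; simp at hd
    · exact e
  have := conj_mem_S0 hinv h
  simpa [mul_assoc] using this

/-- `S0` is a Sylow subgroup. -/
theorem exists_sylow_S0 : ∃ P : Sylow p (Q p), (P : Subgroup (Q p)) = S0 p := by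
  obtain ⟨P, hP⟩ := (S0_isPGroup (p := p)).exists_le_sylow
  refine ⟨P, ?_⟩
  by_contra hne
  have hlt : S0 p < P := lt_of_le_of_ne hP (Ne.symm hne)
  obtain ⟨g, hgP, hgK, hgn⟩ := Cfsg.Agent.Lib.ClassicalSE.exists_normalizing_of_lt P.isPGroup' hlt
  have hnorm : g ∈ Subgroup.normalizer ((S0 p : Subgroup (Q p)) : Set (Q p)) := by
    apply mem_normalizer_of_map_conj_eq
    apply Subgroup.eq_of_le_of_card_ge hgn
    rw [card_map_conj]
  have hlow := low_eq_zero hnorm
  apply hgK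
  obtain ⟨k, hk⟩ := (P.isPGroup' ⟨g, hgP⟩)
  have hk' : g ^ p ^ k = 1 := by
    have := congrArg Subtype.val hk
    simpa using this
  have h1 := (en_pow_of_tri hlow (p ^ k)).1
  rw [hk', en_one] at h1
  have h2 : en g 0 0 = 1 := by
    rw [← ZMod.pow_card_pow (n := k) (en g 0 0), ← h1]
    simp
  have hd := en_det g
  rw [hlow, h2] at hd
  simp at hd
  exact ⟨h2, hlow, hd⟩

/-- The outer automorphism of `S0`. -/
def sigmaFun (s : S0 p) : S0 p :=
  ⟨uu (- en s.1 1 2) (- en s.1 0 1) (en s.1 0 1 * en s.1 1 2 - en s.1 0 2), uu_mem _ _ _⟩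

theorem sigma_mul (a b : S0 p) : sigmaFun (a * b) = sigmaFun a * sigmaFun b := by
  apply Subtype.ext
  simp only [sigmaFun, Subgroup.coe_mul, uu_mul]
  have e1 := eq_uu a.2
  have e2 := eq_uu b.2
  have h01 : en (a.1 * b.1) 0 1 = en a.1 0 1 + en b.1 0 1 := by
    rw [e1, e2, uu_mul]; simp
  have h12 : en (a.1 * b.1) 1 2 = en a.1 1 2 + en b.1 1 2 := by
    rw [e1, e2, uu_mul]; simp
  have h02 : en (a.1 * b.1) 0 2 = en a.1 0 2 + en b.1 0 2 + en a.1 0 1 * en b.1 1 2 := by
    rw [e1, e2, uu_mul]; simp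
  rw [h01, h12, h02]
  congr 1 <;> ring

theorem sigma_sigma (a : S0 p) : sigmaFun (sigmaFun a) = a := by
  apply Subtype.ext
  simp only [sigmaFun, en_uu_01, en_uu_02, en_uu_12, neg_neg]
  conv_rhs => rw [eq_uu a.2]
  congr 1
  ring

/-- The automorphism. -/
def sigma : S0 p ≃* S0 p where
  toFun := sigmaFun
  invFun := sigmaFun
  left_inv := sigma_sigma
  right_inv := sigma_sigma
  map_mul' := sigma_mul

/-- The core computation. -/
theorem low_of_char (T : Subgroup (S0 p)) (hT : T ≠ ⊥) (hc : T.Characteristic) {g : Q p}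
    (hg : g ∈ Subgroup.normalizer ((T.map (S0 p).subtype : Subgroup (Q p)) : Set (Q p))) :
    en g 1 0 = 0 := by
  by_contra hd
  have hconj : ∀ t ∈ T, ∃ w ∈ T, (w : Q p) * g = g * (t : Q p) := by
    intro t ht
    have h1 : (t : Q p) ∈ T.map (S0 p).subtype := ⟨t, ht, rfl⟩
    have h2 := (Subgroup.mem_normalizer_iff.1 hg _).1 h1
    obtain ⟨w, hw, hwe⟩ := h2
    refine ⟨w, hw, ?_⟩
    have := conj_eq (g := g) (v := (t : Q p)) (w := (w : Q p)) (hwe.symm)
    exact this
  -- every element has `x = 0`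
  have hx : ∀ t ∈ T, en t.1 0 1 = 0 := by
    intro t ht
    obtain ⟨w, _, he⟩ := hconj t ht
    have h3 := congrArg (fun M => en M 1 1) he
    simp only [en_mul] at h3
    rw [w.2.2.1, w.2.2.2, last1 g, t.2.2.2, last1 t.1] at h3
    simp at h3
    rcases h3 with h3 | h3
    · exact absurd h3 hd
    · exact h3
  have hz : ∀ t ∈ T, en t.1 1 2 = 0 := by
    intro t ht
    have hs : sigma t ∈ T := by
      have := hc.fixed (sigma (p := p))
      have h4 : t ∈ T.comap (sigma (p := p)).toMonoidHom ↔ t ∈ T := by rw [this]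
      exact h4.2 ht
    have := hx _ hs
    simp only [sigma, MulEquiv.coe_mk, Equiv.coe_fn_mk, sigmaFun, en_uu_01, neg_eq_zero] at this
    exact this
  obtain ⟨t, hne⟩ := (Subgroup.ne_bot_iff_exists_ne_one).1 hT
  have ht : (t : S0 p) ∈ T := t.2
  obtain ⟨w, hwT, he⟩ := hconj t ht
  have hy : en t.1.1 0 2 ≠ 0 := by
    intro hy
    apply hne
    apply Subtype.ext
    apply Subtype.ext
    have e := eq_uu t.1.2
    rw [hx _ ht, hz _ ht, hy] at e
    rw [e]
    apply en_ext
    intro i j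
    fin_cases i <;> fin_cases j <;> simp [en_one] <;> simp [en, uu]
  have h3 := congrArg (fun M => en M 1 2) he
  simp only [en_mul] at h3
  rw [w.2.2.1, w.2.2.2, last2 g, hz _ hwT, last2 t.1.1, hz _ ht] at h3
  simp at h3
  rcases h3 with h3 | h3
  · exact hd h3
  · exact hy h3

/-- Transport along a conjugation. -/
theorem transport {X : Type*} [Group X] {S S' : Subgroup X} (x : X)
    (h : S' = S.map (MulAut.conj x).toMonoidHom)
    (hS : ∀ T : Subgroup S, T ≠ ⊥ → T.Characteristic →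
      Subgroup.normalizer ((T.map S.subtype : Subgroup X) : Set X) ≤ Subgroup.normalizer ((S : Subgroup X) : Set X))
    (T : Subgroup S') (hT : T ≠ ⊥) (hc : T.Characteristic) :
      Subgroup.normalizer ((T.map S'.subtype : Subgroup X) : Set X) ≤ Subgroup.normalizer ((S' : Subgroup X) : Set X) := by
  obtain ⟨φ, hφ⟩ := exists_conj_equiv S S' x h
  set T₀ : Subgroup S := T.comap φ.toMonoidHom with hT₀
  have hne : T₀ ≠ ⊥ := by
    obtain ⟨t, ht⟩ := (Subgroup.ne_bot_iff_exists_ne_one).1 hT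
    rw [Subgroup.ne_bot_iff_exists_ne_one]
    refine ⟨⟨φ.symm t.1, ?_⟩, ?_⟩
    · simp [hT₀]
    · intro h1
      apply ht
      have := congrArg Subtype.val h1
      simp only [Subgroup.coe_one] at this
      apply Subtype.ext
      simpa using this
  have hc₀ : T₀.Characteristic := by
    rw [Subgroup.characteristic_iff_comap_eq]
    intro ψ
    ext s
    have h1 := hc.fixed (φ.symm.trans (ψ.trans φ))
    have h2 : φ s ∈ T.comap (φ.symm.trans (ψ.trans φ)).toMonoidHom ↔ φ s ∈ T := by rw [h1]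
    simp only [Subgroup.mem_comap, MulEquiv.toMonoidHom_eq_coe, MonoidHom.coe_coe, MulEquiv.trans_apply, MulEquiv.symm_apply_apply] at h2
    simp only [hT₀, Subgroup.mem_comap, MulEquiv.toMonoidHom_eq_coe, MonoidHom.coe_coe]
    exact h2
  have hmap : T.map S'.subtype = (T₀.map S.subtype).map (MulAut.conj x).toMonoidHom := by
    ext y
    constructor
    · rintro ⟨t, ht, rfl⟩
      refine ⟨(φ.symm t : S), ⟨φ.symm t, ?_, rfl⟩, ?_⟩
      · simpa [hT₀] using ht
      · have := hφ (φ.symm t)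
        simp only [MulEquiv.apply_symm_apply] at this
        simp [this]
    · rintro ⟨_, ⟨s, hs, rfl⟩, rfl⟩
      refine ⟨φ s, hs, ?_⟩
      simp [hφ]
  rw [hmap, normalizer_map_conj, h, normalizer_map_conj]
  exact Subgroup.map_mono (hS T₀ hne hc₀)



/-- In the group Qd(p) (p prime; the natural semidirect product of an elementary abelian group of order p² by SL₂(p)), the normalizer of every nontrivial characteristic subgroup of a Sylow p-subgroup S equals the normalizer of S, which is a proper subgroup; in particular no such characteristic subgroup is normal. -/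
theorem result {p : ℕ} [Fact p.Prime] (S : Sylow p ↥(Cfsg.qd p)) (T : Subgroup ↥(S : Subgroup ↥(Cfsg.qd p))) (hT : T ≠ ⊥) (hTc : T.Characteristic) : Subgroup.normalizer ((T.map (S : Subgroup ↥(Cfsg.qd p)).subtype : Subgroup ↥(Cfsg.qd p)) : Set ↥(Cfsg.qd p)) = Subgroup.normalizer ((S : Subgroup ↥(Cfsg.qd p)) : Set ↥(Cfsg.qd p)) ∧ Subgroup.normalizer ((S : Subgroup ↥(Cfsg.qd p)) : Set ↥(Cfsg.qd p)) ≠ ⊤ := by
  obtain ⟨P, hP⟩ := exists_sylow_S0 (p := p)
  obtain ⟨x, hx⟩ := MulAction.exists_smul_eq (Q p) P S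
  have hS : (S : Subgroup (Q p)) = (S0 p).map (MulAut.conj x).toMonoidHom := by
    rw [← hx, ← hP]; rfl
  refine ⟨le_antisymm ?_ ?_, ?_⟩
  · apply transport x hS _ T hT hTc
    intro T₀ h₀ hc₀ g hg
    exact mem_normalizer_of_low (low_of_char T₀ h₀ hc₀ hg)
  · intro g₀ hg₀
    refine mem_normalizer_of_forall_conj_le ?_ hg₀
    rintro g hg _ ⟨t, ht, rfl⟩
    obtain ⟨φ, hφ⟩ := exists_conj_equiv (S : Subgroup (Q p)) S g (map_conj_eq_of_mem_normalizer hg).symm
    have h1 : φ t ∈ T := by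
      have := hTc.fixed φ
      have h2 : t ∈ T.comap φ.toMonoidHom ↔ t ∈ T := by rw [this]
      exact h2.2 ht
    refine ⟨φ t, h1, ?_⟩
    simp [hφ]
  · intro htop
    have h1 : x * (ll : Q p) * x⁻¹ ∈ Subgroup.normalizer (((S : Subgroup (Q p)) : Subgroup (Q p)) : Set (Q p)) := by
      rw [htop]; trivial
    rw [hS, normalizer_map_conj, mem_map_conj_iff] at h1
    have h2 : x⁻¹ * (x * (ll : Q p) * x⁻¹) * x = ll := by group
    rw [h2] at h1
    have := low_eq_zero h1
    rw [en_ll_10] at this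
    exact one_ne_zero this

end Cfsg.Agent.S2763
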