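import Mathlib
import Cfsg.Statements.S2780
import Cfsg.Agent.Lib.NatSL2NF

set_option autoImplicit false
set_option linter.unusedSectionVars false
set_option linter.unusedVariables false
open Cfsg

namespace Cfsg.Agent.S2780

open Cfsg.Agent.Lib.NatSL2NF Cfsg.Agent.Lib.SL2NaturalModule

section Aux

variable {G : Type*} [Group G] {F : Type*} [Field F] {V L T : Subgroup G} (N : NF F V L T)

include N

/-- Conjugates `gTg⁻¹`, description of `C_V`. -/
theorem mem_C_conj {g : G} (hg : g ∈ L) {v : G} :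
    v ∈ V ⊓ Subgroup.centralizer ((T.map (MulAut.conj g).toMonoidHom : Subgroup G) : Set G) ↔
      ∃ hv : v ∈ V, ((ent (N.ρ ⟨g, hg⟩)⁻¹).mulVec (N.vec ⟨v, hv⟩)) 1 = 0 := by
  have hg' : ∀ t : G, (MulAut.conj g).toMonoidHom t = g * t * g⁻¹ := fun t => rfl
  have hginv : (⟨g, hg⟩ : L)⁻¹ = ⟨g⁻¹, L.inv_mem hg⟩ := rfl
  constructor
  · rintro ⟨hV, hC⟩
    refine ⟨hV, ?_⟩
    obtain ⟨w, hw, hw2⟩ := N.act' ⟨g⁻¹, L.inv_mem hg⟩ ⟨v, hV⟩
    have hwC : (w : G) ∈ V ⊓ Subgroup.centralizer (T : Set G) := by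
      refine ⟨w.2, Subgroup.mem_centralizer_iff.mpr ?_⟩
      intro t ht
      have h1 := (Subgroup.mem_centralizer_iff.mp hC) (g * t * g⁻¹) ⟨t, ht, rfl⟩
      simp only at hw
      rw [hw]
      have h2 : t * (g⁻¹ * v * g⁻¹⁻¹) = g⁻¹ * ((g * t * g⁻¹) * v) * g := by
        group
      have h3 : (g⁻¹ * v * g⁻¹⁻¹) * t = g⁻¹ * (v * (g * t * g⁻¹)) * g := by
        group
      rw [h2, h3, h1]
    obtain ⟨h1, h2⟩ := N.mem_C_iff.mp hwC
    rw [show (⟨(w : G), h1⟩ : V) = w from rfl, hw2] at h2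
    rw [← hginv, map_inv] at h2
    exact h2
  · rintro ⟨hV, h⟩
    refine ⟨hV, Subgroup.mem_centralizer_iff.mpr ?_⟩
    rintro _ ⟨t, ht, rfl⟩
    obtain ⟨w, hw, hw2⟩ := N.act' ⟨g⁻¹, L.inv_mem hg⟩ ⟨v, hV⟩
    have hwC : (w : G) ∈ V ⊓ Subgroup.centralizer (T : Set G) := by
      rw [N.mem_C_iff]
      refine ⟨w.2, ?_⟩
      rw [show (⟨(w : G), w.2⟩ : V) = w from rfl, hw2, ← hginv, map_inv]
      exact h
    have h1 := (Subgroup.mem_centralizer_iff.mp hwC.2) t ht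
    simp only at hw
    rw [hw] at h1
    rw [hg']
    have h2 : g * t * g⁻¹ * v = g * (t * (g⁻¹ * v * g⁻¹⁻¹)) * g⁻¹ := by group
    have h3 : v * (g * t * g⁻¹) = g * ((g⁻¹ * v * g⁻¹⁻¹) * t) * g⁻¹ := by group
    rw [h2, h3, h1]

/-- A triangular matrix normalizes the stabilizer of `e₁`. -/
theorem conj_mem_of_triangular {g : L} (hg : (ent (N.ρ g)) 1 0 = 0) {h : G} (hh : h ∈ T) :
    (g : G) * h * (g : G)⁻¹ ∈ T := by
  have hhL : h ∈ L := N.hTL hh
  have hmem : (g : G) * h * (g : G)⁻¹ ∈ L := L.mul_mem (L.mul_mem g.2 hhL) (L.inv_mem g.2)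
  have e1 : ((⟨(g : G) * h * (g : G)⁻¹, hmem⟩ : L)) = g * ⟨h, hhL⟩ * g⁻¹ := rfl
  rw [show (g : G) * h * (g : G)⁻¹ = ((⟨(g : G) * h * (g : G)⁻¹, hmem⟩ : L) : G) from rfl, N.hT, e1]
  have hfix := (N.hT ⟨h, hhL⟩).mp hh
  have h00 : ent (N.ρ g) 0 0 ≠ 0 := by
    intro h0
    have := ent_det (N.ρ g)
    rw [h0, hg] at this
    simp at this
  set m := N.ρ g with hm
  have hme : (ent m).mulVec ![1, 0] = ent m 0 0 • ![1, 0] := by
    rw [vec_eq_iff]
    constructor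
    · simp [Matrix.mulVec, dotProduct, Fin.sum_univ_two]
    · simp [Matrix.mulVec, dotProduct, Fin.sum_univ_two, hg]
  have hinv : (ent m⁻¹).mulVec ![1, 0] = (ent m 0 0)⁻¹ • ![1, 0] := by
    have h2 : (ent m⁻¹).mulVec ((ent m).mulVec ![1, 0]) = ![1, 0] := by
      rw [Matrix.mulVec_mulVec, ← ent_mul, inv_mul_cancel, ent_one, Matrix.one_mulVec]
    rw [hme, Matrix.mulVec_smul] at h2
    rw [eq_inv_smul_iff₀ h00]
    exact h2
  rw [map_mul, map_mul, map_inv, ent_mul, ent_mul, ← hm, ← Matrix.mulVec_mulVec, hinv, Matrix.mulVec_smul,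
    ← Matrix.mulVec_mulVec, hfix, hme, smul_smul, inv_mul_cancel₀ h00, one_smul]

/-- An element with `ρ g` upper triangular normalizes `T`. -/
theorem mem_normalizer_of_triangular {g : L} (hg : (ent (N.ρ g)) 1 0 = 0) :
    (g : G) ∈ Subgroup.normalizer (T : Set G) := by
  rw [Subgroup.mem_normalizer_iff]
  intro h
  constructor
  · exact fun hh => conj_mem_of_triangular N hg hh
  · intro hh
    have hg' : (ent (N.ρ g⁻¹)) 1 0 = 0 := by
      rw [map_inv, Matrix.SpecialLinearGroup.SL2_inv_expl]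
      change (!![(N.ρ g).1 1 1, -(N.ρ g).1 0 1; -(N.ρ g).1 1 0, (N.ρ g).1 0 0] : Matrix (Fin 2) (Fin 2) F) 1 0 = 0
      have : (N.ρ g).1 1 0 = 0 := hg
      simp [this]
    have := conj_mem_of_triangular N hg' hh
    have e : ((g⁻¹ : L) : G) * ((g : G) * h * (g : G)⁻¹) * ((g⁻¹ : L) : G)⁻¹ = h := by
      simp only [Subgroup.coe_inv]
      group
    rwa [e] at this

/-- First clause. -/
theorem clause1 {g : G} (hg : g ∈ L) (hgn : g ∉ Subgroup.normalizer (T : Set G)) :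
    IsInternalDirectProduct (V ⊓ Subgroup.centralizer (T : Set G))
      (V ⊓ Subgroup.centralizer ((T.map (MulAut.conj g).toMonoidHom : Subgroup G) : Set G)) V := by
  set m := N.ρ ⟨g, hg⟩ with hm
  have hc : (ent m) 1 0 ≠ 0 := fun h => hgn (mem_normalizer_of_triangular N (g := ⟨g, hg⟩) h)
  have hinvent : ∀ u : Fin 2 → F, ((ent m⁻¹).mulVec u) 1 = - (ent m 1 0) * u 0 + ent m 0 0 * u 1 := by
    intro u
    rw [Matrix.SpecialLinearGroup.SL2_inv_expl]
    change (!![m.1 1 1, -m.1 0 1; -m.1 1 0, m.1 0 0] : Matrix (Fin 2) (Fin 2) F).mulVec u 1 = _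
    simp [Matrix.mulVec, dotProduct, Fin.sum_univ_two, ent]
  refine ⟨inf_le_left, inf_le_left, ?_, ?_, ?_⟩
  · intro a ha b hb
    exact N.comm_V ha.1 hb.1
  · rw [eq_bot_iff]
    rintro v ⟨hv1, hv2⟩
    obtain ⟨hV, h1⟩ := N.mem_C_iff.mp hv1
    obtain ⟨hV', h2⟩ := (mem_C_conj N hg).mp hv2
    rw [← hm, hinvent, h1] at h2
    have h3 : N.vec ⟨v, hV⟩ 0 = 0 := by
      simpa [hc] using h2
    have h4 : (⟨v, hV⟩ : V) = 1 := by
      apply N.vec_inj
      rw [N.vec_one, vec_eq_iff]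
      exact ⟨h3, h1⟩
    have := congrArg (fun z : V => (z : G)) h4
    simpa using this
  · apply le_antisymm
    · exact sup_le inf_le_left inf_le_left
    · intro v hV
      set x := N.vec ⟨v, hV⟩ 0 with hx
      set y := N.vec ⟨v, hV⟩ 1 with hy
      obtain ⟨v₂, hv₂⟩ := N.vec_surj ![ent m 0 0 * y / ent m 1 0, y]
      obtain ⟨v₁, hv₁⟩ := N.vec_surj ![x - ent m 0 0 * y / ent m 1 0, 0]
      have h1 : (v₁ : G) ∈ V ⊓ Subgroup.centralizer (T : Set G) :=
        N.mem_C_iff.mpr ⟨v₁.2, by rw [show (⟨(v₁ : G), v₁.2⟩ : V) = v₁ from rfl, hv₁]; simp⟩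
      have h2 : (v₂ : G) ∈ V ⊓ Subgroup.centralizer
          ((T.map (MulAut.conj g).toMonoidHom : Subgroup G) : Set G) := by
        refine (mem_C_conj N hg).mpr ⟨v₂.2, ?_⟩
        rw [← hm, hinvent, show (⟨(v₂ : G), v₂.2⟩ : V) = v₂ from rfl, hv₂]
        simp
        field_simp
        ring
      have h3 : (⟨v, hV⟩ : V) = v₁ * v₂ := by
        apply N.vec_inj
        rw [N.vec_mul, hv₁, hv₂, vec_eq_iff]
        simp [← hx, ← hy]
      have h4 : v = (v₁ : G) * v₂ := congrArg (fun z : V => (z : G)) h3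
      rw [h4]
      exact Subgroup.mul_mem_sup h1 h2

/-- Second clause. -/
theorem clause2 {p : ℕ} [hp : Fact p.Prime] [CharP F p] {x : G} (hx : x ∈ L) (hx1 : x ≠ 1)
    (hxp : (orderOf x).Coprime p) : V ⊓ Subgroup.centralizer ({x} : Set G) = ⊥ := by
  rw [eq_bot_iff]
  rintro v ⟨hV, hC⟩
  by_contra hv1
  have hv1' : v ≠ 1 := hv1
  have h1 := (Subgroup.mem_centralizer_iff.mp hC) x rfl
  have h2 := (N.commute_iff ⟨x, hx⟩ ⟨v, hV⟩).mp h1
  have hu : N.vec ⟨v, hV⟩ ≠ 0 := by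
    intro h0
    apply hv1'
    have : (⟨v, hV⟩ : V) = 1 := N.vec_inj (by rw [h0, N.vec_one])
    exact congrArg (fun z : V => (z : G)) this
  obtain ⟨h, hh⟩ := exists_mulVec_eq_e1 _ hu
  set m := N.ρ ⟨x, hx⟩ with hm
  have h3 : (ent (h * m * h⁻¹)).mulVec ![1, 0] = ![1, 0] := by
    rw [← hh, Matrix.mulVec_mulVec, ← ent_mul, show h * m * h⁻¹ * h = h * m by group, ent_mul,
      ← Matrix.mulVec_mulVec, h2]
  have h4 := eq_up_of_fix _ h3
  have h5 : ∀ (y : F) (k : ℕ), (up y : Matrix.SpecialLinearGroup (Fin 2) F) ^ k = up ((k : F) * y) := by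
    intro y k
    induction k with
    | zero => simp [up_zero]
    | succ k ih =>
      rw [pow_succ, ih, up_add]
      congr 1
      push_cast
      ring
  have h6 : (h * m * h⁻¹) ^ p = 1 := by
    rw [h4, h5, CharP.cast_eq_zero F p, zero_mul, up_zero]
  have h7 : m ^ p = 1 := by
    rw [conj_pow] at h6
    have := congrArg (fun z => h⁻¹ * z * h) h6
    simpa [mul_assoc] using this
  have h8 : (⟨x, hx⟩ : L) ^ p = 1 := N.inj (by rw [map_pow, map_one]; exact h7)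
  have h9 : x ^ p = 1 := by
    have := congrArg (fun z : L => (z : G)) h8
    simpa using this
  have h10 : orderOf x ∣ p := orderOf_dvd_of_pow_eq_one h9
  have h11 : orderOf x = 1 := Nat.Coprime.eq_one_of_dvd hxp h10
  exact hx1 (orderOf_eq_one_iff.mp h11)

/-- The torus. -/
theorem tor_act (s : Fˣ) : ∃ l : L, (l : G) ∈ L ⊓ Subgroup.normalizer (T : Set G) ∧ ∀ v : V, ∃ w : V,
    (w : G) = (l : G) * (v : G) * (l : G)⁻¹ ∧ N.vec w 0 = (s : F) * N.vec v 0 ∧
      N.vec w 1 = ((s⁻¹ : Fˣ) : F) * N.vec v 1 := by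
  obtain ⟨l, hl⟩ := N.surj (tor s)
  refine ⟨l, ⟨l.2, mem_normalizer_of_triangular N ?_⟩, ?_⟩
  · rw [hl]
    simp [ent_tor]
  · intro v
    obtain ⟨w, hw, hw2⟩ := N.act' l v
    refine ⟨w, hw, ?_, ?_⟩
    · rw [hw2, hl]
      simp [ent_tor, Matrix.mulVec, dotProduct, Fin.sum_univ_two]
    · rw [hw2, hl]
      simp [ent_tor, Matrix.mulVec, dotProduct, Fin.sum_univ_two]

/-- Third clause. -/
theorem clause3 (U : Subgroup G) (hU : U ≤ V ⊓ Subgroup.centralizer (T : Set G))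
    (hn : L ⊓ Subgroup.normalizer (T : Set G) ≤ Subgroup.normalizer (U : Set G)) :
    U = ⊥ ∨ U = V ⊓ Subgroup.centralizer (T : Set G) := by
  by_cases hb : U = ⊥
  · exact Or.inl hb
  right
  obtain ⟨u, huU, hu1⟩ := U.ne_bot_iff_exists_ne_one.mp hb |> fun ⟨u, hu⟩ => (⟨u.1, u.2, fun h => hu (Subtype.ext h)⟩ : ∃ u : G, u ∈ U ∧ u ≠ 1)
  apply le_antisymm hU
  intro g hg
  obtain ⟨huV, hu0⟩ := N.mem_C_iff.mp (hU huU)
  obtain ⟨hgV, hg0⟩ := N.mem_C_iff.mp hg
  have ha : N.vec ⟨u, huV⟩ 0 ≠ 0 := by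
    intro h
    apply hu1
    have : (⟨u, huV⟩ : V) = 1 := N.vec_inj (by rw [N.vec_one, vec_eq_iff]; exact ⟨h, hu0⟩)
    exact congrArg (fun z : V => (z : G)) this
  by_cases hc : N.vec ⟨g, hgV⟩ 0 = 0
  · have : (⟨g, hgV⟩ : V) = 1 := N.vec_inj (by rw [N.vec_one, vec_eq_iff]; exact ⟨hc, hg0⟩)
    have h2 : g = 1 := congrArg (fun z : V => (z : G)) this
    rw [h2]
    exact U.one_mem
  · set s : Fˣ := Units.mk0 (N.vec ⟨g, hgV⟩ 0 / N.vec ⟨u, huV⟩ 0) (div_ne_zero hc ha) with hs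
    obtain ⟨l, hl, hact⟩ := tor_act N s
    obtain ⟨w, hw, hw0, hw1⟩ := hact ⟨u, huV⟩
    have h1 : (w : G) ∈ U := by
      rw [hw]
      exact (Subgroup.mem_normalizer_iff.mp (hn hl) u).mp huU
    have : (⟨g, hgV⟩ : V) = w := by
      apply N.vec_inj
      rw [vec_eq_iff, hw0, hw1, hu0, mul_zero, hg0]
      refine ⟨?_, rfl⟩
      rw [hs, Units.val_mk0]
      field_simp
    have h2 : g = w := congrArg (fun z : V => (z : G)) this
    rwa [h2]

/-- Fourth clause. -/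
theorem clause4 (U : Subgroup G) (hCU : V ⊓ Subgroup.centralizer (T : Set G) ≤ U) (hUV : U ≤ V)
    (hn : L ⊓ Subgroup.normalizer (T : Set G) ≤ Subgroup.normalizer (U : Set G)) :
    U = V ⊓ Subgroup.centralizer (T : Set G) ∨ U = V := by
  by_cases hb : U ≤ V ⊓ Subgroup.centralizer (T : Set G)
  · exact Or.inl (le_antisymm hb hCU)
  right
  obtain ⟨u, huU, hu⟩ := SetLike.not_le_iff_exists.mp hb
  apply le_antisymm hUV
  intro v hv
  have huV : u ∈ V := hUV huU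
  have hub : N.vec ⟨u, huV⟩ 1 ≠ 0 := fun h => hu (N.mem_C_iff.mpr ⟨huV, h⟩)
  by_cases hd : N.vec ⟨v, hv⟩ 1 = 0
  · exact hCU (N.mem_C_iff.mpr ⟨hv, hd⟩)
  · set s : Fˣ := Units.mk0 (N.vec ⟨u, huV⟩ 1 / N.vec ⟨v, hv⟩ 1) (div_ne_zero hub hd) with hs
    obtain ⟨l, hl, hact⟩ := tor_act N s
    obtain ⟨w, hw, hw0, hw1⟩ := hact ⟨u, huV⟩
    have h1 : (w : G) ∈ U := by
      rw [hw]
      exact (Subgroup.mem_normalizer_iff.mp (hn hl) u).mp huU
    obtain ⟨c, hc⟩ := N.vec_surj ![N.vec ⟨v, hv⟩ 0 - N.vec w 0, 0]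
    have h2 : (c : G) ∈ U :=
      hCU (N.mem_C_iff.mpr ⟨c.2, by rw [show (⟨(c : G), c.2⟩ : V) = c from rfl, hc]; simp⟩)
    have : (⟨v, hv⟩ : V) = w * c := by
      apply N.vec_inj
      rw [N.vec_mul, hc, vec_eq_iff]
      constructor
      · simp
      · simp [hw1, hs]
        field_simp
    have h3 : v = (w : G) * c := congrArg (fun z : V => (z : G)) this
    rw [h3]
    exact U.mul_mem h1 h2

end Aux

/-- Let L act on the elementary abelian p-group V (inside a finite group, faithfully) as SL₂(F) on its natural module, F a field with p^n elements, S a Sylow p-subgroup of L. Then: for every g ∈ L not normalizing S, V is the internal direct product of C_V(S) and C_V(gSg⁻¹); every nonidentity element of L of order prime to p acts on V without nonidentity fixed points; and C_V(S) and V/C_V(S) are irreducible for N_L(S): the only N_L(S)-invariant subgroups of C_V(S) are 1 and C_V(S), and the only N_L(S)-invariant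 subgroups between C_V(S) and V are those two. -/
theorem result {G : Type*} [Group G] [Finite G] {p : ℕ} [Fact p.Prime] {F : Type*} [Field F] [Fintype F] (n : ℕ) (hF : Fintype.card F = p ^ n) (V L : Subgroup G) (hnat : Cfsg.IsNaturalSL2Module F V L) (hf : L ⊓ Subgroup.centralizer (V : Set G) = ⊥) (S : Sylow p ↥L) (T : Subgroup G) (hT : T = ((S : Subgroup ↥L).map L.subtype)) : (∀ g ∈ L, g ∉ Subgroup.normalizer (T : Set G) → Cfsg.IsInternalDirectProduct (V ⊓ Subgroup.centralizer ((T : Subgroup G) : Set G)) (V ⊓ Subgroup.centralizer ((T.map (MulAut.conj g).toMonoidHom : Subgroup G) : Set G)) V) ∧ (∀ x ∈ L, x ≠ 1 → (orderOf x).Coprime p → (V ⊓ Subgroup.centralizer ({x} : Set G)) = ⊥) ∧ (∀ U : Subgroup G, U ≤ (V ⊓ Subgroup.centralizer ((T : Subgroup G) : Set G)) → L ⊓ Subgroup.normalizer (T : Set G) ≤ Subgroup.normalizer (U : Set G) → U = ⊥ ∨ U = (V ⊓ Subgroup.centralizer ((T : Subgroup G) : Set G))) ∧ (∀ U : Subgroup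 G, (V ⊓ Subgroup.centralizer ((T : Subgroup G) : Set G)) ≤ U → U ≤ V → L ⊓ Subgroup.normalizer (T : Set G) ≤ Subgroup.normalizer (U : Set G) → U = (V ⊓ Subgroup.centralizer ((T : Subgroup G) : Set G)) ∨ U = V) := by
  obtain ⟨N⟩ := exists_nf hF V L hnat hf S T hT
  haveI := charP_of_card (F := F) hF
  exact ⟨fun g hg hgn => clause1 N hg hgn, fun x hx hx1 hxp => clause2 N hx hx1 hxp,
    fun U hU hn => clause3 N U hU hn, fun U hCU hUV hn => clause4 N U hCU hUV hn⟩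

end Cfsg.Agent.S2780
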