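import Mathlib
import Cfsg.Agent.Lib.CosetGraph2
import Cfsg.Statements.S2781
-- import your own Cfsg.Agent.* helpers here

set_option autoImplicit false
open Cfsg

namespace Cfsg.Agent.S2781

open Cfsg.Agent.Lib.CosetGraph Cfsg.Agent.Lib.CosetGraph2
open scoped commutatorElement

/-- The norm argument: if `T ≤ R` fixes `v ∈ V` then `v ^ |R : T|` lies in `[V, R] C_V(R)`. -/
theorem norm_mem {G : Type*} [Group G] {V R : Subgroup G} [Finite R]
    (hVc : ∀ a ∈ V, ∀ b ∈ V, a * b = b * a)
    (hRV : R ≤ Subgroup.normalizer (V : Set G)) (T : Subgroup R) {v : G} (hv : v ∈ V)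
    (hT : ∀ t ∈ T, (t : G) * v = v * t) :
    v ^ T.index ∈ ⁅V, R⁆ ⊔ (V ⊓ Subgroup.centralizer (R : Set G)) := by
  classical
  letI CG : CommGroup V :=
    { (inferInstance : Group V) with
      mul_comm := fun a b => Subtype.ext (hVc a a.2 b b.2) }
  have hconj : ∀ (r : R) (x : V), (r : G) * x * (r : G)⁻¹ ∈ V := fun r x =>
    (Subgroup.mem_normalizer_iff.1 (hRV r.2) x).1 x.2
  -- conjugation by `r` as an endomorphism of `V`
  let act : R → (V →* V) := fun r =>
    { toFun := fun x => ⟨(r : G) * x * (r : G)⁻¹, hconj r x⟩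
      map_one' := by
        apply Subtype.ext
        change (r : G) * ((1 : V) : G) * (r : G)⁻¹ = ((1 : V) : G)
        simp
      map_mul' := fun a b => by
        apply Subtype.ext
        change (r : G) * ((a * b : V) : G) * (r : G)⁻¹ = ((r : G) * a * (r : G)⁻¹) * ((r : G) * b * (r : G)⁻¹)
        have : ((a * b : V) : G) = (a : G) * b := rfl
        rw [this]
        group }
  have hact : ∀ (r : R) (x : V), ((act r x : V) : G) = (r : G) * x * (r : G)⁻¹ := fun _ _ => rfl
  let v' : V := ⟨v, hv⟩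
  have hTfix : ∀ (r : R) (t : R), t ∈ T → act (r * t) v' = act r v' := by
    intro r t ht
    apply Subtype.ext
    rw [hact, hact]
    have h1 : (t : G) * v * (t : G)⁻¹ = v := by
      rw [hT t ht]; group
    have : ((r * t : R) : G) * v * ((r * t : R) : G)⁻¹ = (r : G) * ((t : G) * v * (t : G)⁻¹) * (r : G)⁻¹ := by
      simp only [MulMemClass.coe_mul]; group
    change ((r * t : R) : G) * v * ((r * t : R) : G)⁻¹ = (r : G) * v * (r : G)⁻¹
    rw [this, h1]
  have : Fintype (R ⧸ T) := Fintype.ofFinite _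
  let f : R ⧸ T → V := fun c => act c.out v'
  have hf : ∀ (s : R) (c : R ⧸ T), act s (f c) = f (s • c) := by
    intro s c
    have h0 : act s (f c) = act (s * c.out) v' := by
      apply Subtype.ext
      rw [hact]
      change (s : G) * ((c.out : G) * v * (c.out : G)⁻¹) * (s : G)⁻¹ = ((s * c.out : R) : G) * v * ((s * c.out : R) : G)⁻¹
      simp only [MulMemClass.coe_mul]; group
    rw [h0]
    have h1 : s • c = ((s * c.out : R) : R ⧸ T) := by
      conv_lhs => rw [← QuotientGroup.out_eq' c]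
      rfl
    obtain ⟨t, ht⟩ := QuotientGroup.mk_out_eq_mul T (s * c.out)
    change act (s * c.out) v' = act (s • c).out v'
    rw [h1, ht, hTfix _ _ t.2]
  let N : V := ∏ c : R ⧸ T, f c
  have hNc : (N : G) ∈ V ⊓ Subgroup.centralizer (R : Set G) := by
    refine ⟨N.2, Subgroup.mem_centralizer_iff.2 ?_⟩
    intro r hr
    have h1 : act ⟨r, hr⟩ N = N := by
      change act ⟨r, hr⟩ (∏ c : R ⧸ T, f c) = ∏ c : R ⧸ T, f c
      rw [map_prod]
      simp only [hf]
      exact Equiv.prod_comp (MulAction.toPerm (⟨r, hr⟩ : R)) f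
    have h2 : r * (N : G) * r⁻¹ = N := congrArg (fun x : V => (x : G)) h1
    have h3 : r * (N : G) * r⁻¹ * r = (N : G) * r := by rw [h2]
    simpa using h3
  -- the difference
  have hdiff : ((N * (v' ^ T.index)⁻¹ : V) : G) ∈ ⁅V, R⁆ := by
    have hcard : T.index = Fintype.card (R ⧸ T) := by
      rw [Subgroup.index, Nat.card_eq_fintype_card]
    have h1 : N * (v' ^ T.index)⁻¹ = ∏ c : R ⧸ T, (f c * v'⁻¹) := by
      rw [Finset.prod_mul_distrib]
      simp only [Finset.prod_const, Finset.card_univ, hcard, inv_pow]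
      rfl
    rw [h1]
    have h2 : ∀ s : Finset (R ⧸ T), ((∏ c ∈ s, (f c * v'⁻¹) : V) : G) ∈ ⁅V, R⁆ := by
      intro s
      induction s using Finset.induction_on with
      | empty => simp
      | insert a s ha ih =>
        rw [Finset.prod_insert ha]
        change ((f a * v'⁻¹ : V) : G) * _ ∈ ⁅V, R⁆
        refine Subgroup.mul_mem _ ?_ ih
        have h3 : ((f a * v'⁻¹ : V) : G) = (⁅v, (a.out : G)⁆)⁻¹ := by
          change (a.out : G) * v * (a.out : G)⁻¹ * v⁻¹ = _
          rw [commutatorElement_def]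
          group
        rw [h3]
        exact Subgroup.inv_mem _ (Subgroup.commutator_mem_commutator hv a.out.2)
    exact h2 _
  have hfinal : v ^ T.index = ((N * (N * (v' ^ T.index)⁻¹)⁻¹ : V) : G) := by
    have : N * (N * (v' ^ T.index)⁻¹)⁻¹ = v' ^ T.index := by
      rw [mul_inv_rev, inv_inv, mul_comm (v' ^ T.index), mul_inv_cancel_left]
    rw [this]
    rfl
  rw [hfinal]
  have e : ((N * (N * (v' ^ T.index)⁻¹)⁻¹ : V) : G) = (N : G) * ((N * (v' ^ T.index)⁻¹ : V) : G)⁻¹ := rfl
  rw [e]
  exact Subgroup.mul_mem _ (Subgroup.mem_sup_right hNc) (Subgroup.mem_sup_left (Subgroup.inv_mem _ hdiff))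

theorem mem_of_pow_index_mem {G : Type*} [Group G] {p : ℕ} [Fact p.Prime] {v : G} (hv : v ^ p = 1)
    {m : ℕ} (hm : ¬ p ∣ m) {W : Subgroup G} (h : v ^ m ∈ W) : v ∈ W := by
  have hcop : m.Coprime p := ((Nat.Prime.coprime_iff_not_dvd (Fact.out : p.Prime)).2 hm).symm
  obtain ⟨k, -, hk⟩ := Nat.exists_mul_mod_eq_one_of_coprime hcop (Fact.out : p.Prime).one_lt
  have h1 : v = (v ^ m) ^ k := by
    rw [← pow_mul, pow_eq_pow_mod (m * k) hv, hk, pow_one]
  rw [h1]
  exact W.pow_mem h k

theorem le_normalizer_pResidual (p : ℕ) {G : Type*} [Group G] (H : Subgroup G) :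
    H ≤ Subgroup.normalizer (((pResidual p ↥H).map H.subtype : Subgroup G) : Set G) := by
  intro g hg
  refine mem_normalizer_of_forall_conj_le (H := H) ?_ hg
  rintro g hg _ ⟨y, hy, rfl⟩
  let g' : H := ⟨g, hg⟩
  have hle : pResidual p ↥H ≤ (pResidual p ↥H).comap (MulAut.conj g').toMonoidHom := by
    refine (Subgroup.closure_le _).2 ?_
    intro x hx
    refine Subgroup.subset_closure ?_
    have : orderOf ((MulAut.conj g').toMonoidHom x) = orderOf x :=
      orderOf_injective (MulAut.conj g').toMonoidHom (MulAut.conj g').injective x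
    change Nat.Coprime _ p
    rw [this]
    exact hx
  exact ⟨_, hle hy, rfl⟩

theorem inf_centralizer_map_conj {G : Type*} [Group G] (K A : Subgroup G) (g : G) :
    (K ⊓ Subgroup.centralizer (A : Set G)).map (MulAut.conj g).toMonoidHom =
      K.map (MulAut.conj g).toMonoidHom ⊓
        Subgroup.centralizer ((A.map (MulAut.conj g).toMonoidHom : Subgroup G) : Set G) := by
  ext y
  simp only [Subgroup.mem_inf, mem_map_conj_iff, Subgroup.mem_centralizer_iff, SetLike.mem_coe]
  refine and_congr_right fun _ => ?_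
  constructor
  · intro h z hz
    have := h _ hz
    have h2 : g * (g⁻¹ * z * g * (g⁻¹ * y * g)) * g⁻¹ = g * (g⁻¹ * y * g * (g⁻¹ * z * g)) * g⁻¹ := by
      rw [this]
    simpa [mul_assoc] using h2
  · intro h z hz
    have := h (g * z * g⁻¹) (by simpa [mul_assoc] using hz)
    have h2 : g⁻¹ * (g * z * g⁻¹ * y) * g = g⁻¹ * (y * (g * z * g⁻¹)) * g := by rw [this]
    simpa [mul_assoc] using h2


/-- Let H act faithfully by conjugation on the elementary abelian p-subgroup V of a finite group, let O^p(H) be the subgroup of H generated by its elements of order prime to p, and T a Sylow p-subgroup of O^p(H). If V is generated by the H-conjugates of C_V(T) (V is the smallest H-invariant subgroup containing C_V(T)), then V = [V, O^p(H)]·C_V(O^p(H)). -/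
theorem result {G : Type*} [Group G] [Finite G] {p : ℕ} [Fact p.Prime] (V H : Subgroup G) (hV : Cfsg.IsElementaryAbelian p V) (hHV : H ≤ Subgroup.normalizer (V : Set G)) (hf : H ⊓ Subgroup.centralizer (V : Set G) = ⊥) (R : Subgroup G) (hR : R = (Cfsg.pResidual p ↥H).map H.subtype) (S : Sylow p ↥R) (T : Subgroup G) (hT : T = ((S : Subgroup ↥R).map R.subtype)) (hgen : ∀ W : Subgroup G, H ≤ Subgroup.normalizer (W : Set G) → (V ⊓ Subgroup.centralizer ((T : Subgroup G) : Set G)) ≤ W → V ≤ W) : ⁅V, R⁆ ⊔ (V ⊓ Subgroup.centralizer ((R : Subgroup G) : Set G)) = V := by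
  subst hT
  have hRH : R ≤ H := by rw [hR]; exact Subgroup.map_subtype_le _
  have hRN : H ≤ Subgroup.normalizer (R : Set G) := by
    rw [hR]; exact le_normalizer_pResidual p H
  have hVc : ∀ a ∈ V, ∀ b ∈ V, a * b = b * a := by
    intro a ha b hb
    have h2 := hV.1.is_comm.comm ⟨a, ha⟩ ⟨b, hb⟩
    exact congrArg (fun x : V => (x : G)) h2
  set W : Subgroup G := ⁅V, R⁆ ⊔ (V ⊓ Subgroup.centralizer (R : Set G)) with hW
  have hWV : W ≤ V := by
    refine sup_le ?_ inf_le_left
    rw [Subgroup.commutator_le]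
    intro v hv r hr
    change v * r * v⁻¹ * r⁻¹ ∈ V
    have h1 := (Subgroup.mem_normalizer_iff.1 (hHV (hRH hr)) v⁻¹).1 (V.inv_mem hv)
    have e : v * r * v⁻¹ * r⁻¹ = v * (r * v⁻¹ * r⁻¹) := by group
    rw [e]
    exact V.mul_mem hv h1
  have hHW : H ≤ Subgroup.normalizer (W : Set G) := by
    intro g hg
    apply mem_normalizer_of_map_conj_eq
    have h1 : V.map (MulAut.conj g).toMonoidHom = V :=
      map_conj_eq_of_mem_normalizer (hHV hg)
    have h2 : R.map (MulAut.conj g).toMonoidHom = R :=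
      map_conj_eq_of_mem_normalizer (hRN hg)
    rw [hW, Subgroup.map_sup, Subgroup.map_commutator, inf_centralizer_map_conj, h1, h2]
  have hle : V ⊓ Subgroup.centralizer ((sylowMap p S : Subgroup G) : Set G) ≤ W := by
    rintro v ⟨hv, hvc⟩
    have hfinR : Finite R := inferInstance
    have hTfix : ∀ t ∈ (S : Subgroup R), (t : G) * v = v * t := by
      intro t ht
      exact (Subgroup.mem_centralizer_iff.1 hvc) t ⟨t, ht, rfl⟩
    have h1 := norm_mem hVc (hRH.trans hHV) (S : Subgroup R) hv hTfix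
    exact mem_of_pow_index_mem (hV.2 v hv) S.not_dvd_index h1
  exact le_antisymm hWV (hgen W hHW hle)

end Cfsg.Agent.S2781
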