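import Mathlib
import Cfsg.Statements.S2788
import Cfsg.Agent.Lib.SL2Index

set_option autoImplicit false
set_option linter.unusedSectionVars false
set_option linter.unusedVariables false
open Cfsg

namespace Cfsg.Agent.S2788

open Cfsg.Agent.Lib.SL2Index

/-- Let H act faithfully by conjugation on the elementary abelian p-subgroup V of a finite group with H ≅ SL₂(F), F a field with p^n elements, S a Sylow p-subgroup of H, and A ≤ S a subgroup of order at least 3 acting quadratically on V ([V, A, A] = 1). Then |V/C_V(a)| ≥ p^n for every nonidentity a ∈ A. -/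
theorem result {G : Type*} [Group G] [Finite G] {p : ℕ} [Fact p.Prime] (V H : Subgroup G) (hV : Cfsg.IsElementaryAbelian p V) (hHV : H ≤ Subgroup.normalizer (V : Set G)) (hf : H ⊓ Subgroup.centralizer (V : Set G) = ⊥) {F : Type*} [Field F] [Fintype F] (n : ℕ) (hF : Fintype.card F = p ^ n) (hiso : Nonempty (↥H ≃* Matrix.SpecialLinearGroup (Fin 2) F)) (S : Sylow p ↥H) (T : Subgroup G) (hT : T = ((S : Subgroup ↥H).map H.subtype)) (A : Subgroup G) (hA : A ≤ T) (hA3 : 3 ≤ Nat.card A) (hquad : ⁅⁅V, A⁆, A⁆ = ⊥) : ∀ a ∈ A, a ≠ 1 → p ^ n ≤ ((V ⊓ Subgroup.centralizer ({a} : Set G))).relIndex V := by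
  classical
  intro a ha ha1
  have hp := (Fact.out : p.Prime)
  obtain ⟨φ⟩ := hiso
  haveI : CharP F p := Cfsg.Agent.Lib.NatSL2NF.charP_of_card hF
  have hVp : IsPGroup p V := by
    intro v
    refine ⟨1, ?_⟩
    apply Subtype.ext
    simpa using hV.2 v v.2
  have haT : a ∈ T := hA ha
  rw [hT] at haT
  obtain ⟨s, hsS, rfl⟩ := haT
  obtain ⟨k, hk⟩ := S.isPGroup' ⟨s, hsS⟩
  have hs : s ^ (p ^ k) = 1 := by
    have := congrArg (fun z : (S : Subgroup H) => (z : H)) hk
    simpa using this
  have hs1 : s ≠ 1 := by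
    rintro rfl
    exact ha1 (by simp)
  set a : G := H.subtype s with hadef
  have haH : a = (s : G) := rfl
  -- nontriviality of the relative index
  have hk1 : (V ⊓ Subgroup.centralizer ({a} : Set G)).relIndex V ≠ 1 := by
    intro h
    have h1 := Subgroup.relIndex_eq_one.mp h
    apply ha1
    have h2 : a ∈ H ⊓ Subgroup.centralizer (V : Set G) := by
      refine ⟨s.2, Subgroup.mem_centralizer_iff.mpr ?_⟩
      intro v hv
      exact ((Subgroup.mem_centralizer_iff.mp (h1 hv).2) a rfl).symm
    rw [hf] at h2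
    exact h2
  obtain ⟨N, hN⟩ := IsPGroup.iff_card.mp hVp
  have hkd : (V ⊓ Subgroup.centralizer ({a} : Set G)).relIndex V ∣ p ^ N := by
    rw [← hN]
    exact Subgroup.relIndex_dvd_card _ _
  obtain ⟨t, -, ht⟩ := (Nat.dvd_prime_pow hp).mp hkd
  have ht0 : t ≠ 0 := by
    rintro rfl
    exact hk1 (by simpa using ht)
  by_cases hn : n ≤ 1
  · rw [ht]
    exact Nat.pow_le_pow_right hp.pos (by omega)
  · have hn2 : 2 ≤ n := by omega
    let π : H →* Matrix.ProjectiveSpecialLinearGroup (Fin 2) F := κ.comp φ.toMonoidHom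
    have hπ : Function.Surjective π :=
      (QuotientGroup.mk'_surjective _).comp φ.surjective
    have hπs : π s ≠ 1 := by
      intro h
      have h1 : φ s ∈ Subgroup.center (Matrix.SpecialLinearGroup (Fin 2) F) := κ_eq_one_iff.mp h
      have h2 : (φ s) ^ (p ^ k) = 1 := by rw [← map_pow, hs, map_one]
      have h3 : φ s = 1 := by
        by_cases hp2 : p = 2
        · subst hp2
          exact eq_one_of_mem_center_char2 h1
        · have hodd : Odd (p ^ k) := (hp.odd_of_ne_two hp2).pow
          obtain ⟨t', ht'⟩ := hodd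
          rw [ht', pow_succ, pow_mul, sq_eq_one_of_mem_center h1, one_pow, one_mul] at h2
          exact h2
      exact hs1 (φ.injective (by rw [h3, map_one]))
    obtain ⟨h1, -⟩ := main hF hn2 V H hVp hHV hf π hπ s hs hπs
    have h2 : p ^ (2 * n) = (p ^ n) ^ 2 := by rw [← pow_mul, mul_comm]
    rw [h2] at h1
    exact le_of_pow_le_pow_left₀ two_ne_zero (Nat.zero_le _) h1

end Cfsg.Agent.S2788
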