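import Mathlib
import Cfsg.Agent.Lib.CosetGraph2
import Cfsg.Agent.Lib.ClassicalSE
import Cfsg.Statements.S2791
-- import your own Cfsg.Agent.* helpers here

set_option autoImplicit false
open Cfsg

namespace Cfsg.Agent.S2791

open Cfsg.Agent.Lib.CosetGraph Cfsg.Agent.Lib.CosetGraph2 Cfsg.Agent.Lib.PCore

universe u

section lemmas

variable {G : Type u} [Group G] [Finite G] {p : ℕ} [Fact p.Prime]

theorem card_lt_of_lt_aux {A B : Subgroup G} (h : A < B) : Nat.card A < Nat.card B :=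
  lt_of_le_of_ne (Subgroup.card_le_of_le h.le)
    (fun e => h.ne (Subgroup.eq_of_le_of_card_ge h.le e.ge))

theorem conj_mem_of_mem_sylow {A S : Subgroup G} (hA : IsStronglyClosed A S) {s a : G} (hs : s ∈ S)
    (ha : a ∈ A) : s * a * s⁻¹ ∈ A :=
  hA.2 a ha s (S.mul_mem (S.mul_mem hs (hA.1 ha)) (S.inv_mem hs))

theorem mem_normalizer_of_strong {A S : Subgroup G} (hA : IsStronglyClosed A S) {g : G}
    (h : ∀ a ∈ A, g * a * g⁻¹ ∈ S) : g ∈ Subgroup.normalizer (A : Set G) := by
  apply mem_normalizer_of_map_conj_eq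
  refine Subgroup.eq_of_le_of_card_ge ?_ ?_
  · rintro _ ⟨a, ha, rfl⟩
    exact hA.2 a ha g (h a ha)
  · rw [card_map_conj]

theorem exists_conj_le (S : Sylow p G) {R : Subgroup G} (hR : IsPGroup p R) :
    ∃ h : G, R.map (MulAut.conj h).toMonoidHom ≤ S := by
  obtain ⟨S₂, hS₂⟩ := hR.exists_le_sylow
  obtain ⟨h, hh⟩ := MulAction.exists_smul_eq G S₂ S
  refine ⟨h, ?_⟩
  have e : (S : Subgroup G) = (S₂ : Subgroup G).map (MulAut.conj h).toMonoidHom := by
    rw [← hh]; rfl
  rw [e]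
  exact Subgroup.map_mono hS₂

/-- The stabilizer of the chain `Q₀ ≤ Q`. -/
def chainStab (Q Q₀ : Subgroup G) (hQ : Q.Normal) (hQ₀ : Q₀.Normal) (hle : Q₀ ≤ Q) : Subgroup G where
  carrier := {h | (∀ q ∈ Q, h * q * h⁻¹ * q⁻¹ ∈ Q₀) ∧ ∀ z ∈ Q₀, h * z = z * h}
  one_mem' := ⟨fun q _ => by simp [Q₀.one_mem], fun z _ => by simp⟩
  mul_mem' := by
    rintro a b ⟨ha1, ha2⟩ ⟨hb1, hb2⟩
    refine ⟨fun q hq => ?_, fun z hz => ?_⟩
    · have h1 := hb1 q hq
      set z := b * q * b⁻¹ * q⁻¹ with hz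
      have h2 := ha1 q hq
      have e : a * b * q * (a * b)⁻¹ * q⁻¹ = (a * z * a⁻¹) * (a * q * a⁻¹ * q⁻¹) := by
        rw [hz]; group
      rw [e]
      refine Q₀.mul_mem ?_ h2
      rw [ha2 z h1]
      simpa using h1
    · calc a * b * z = a * (b * z) := by group
        _ = a * (z * b) := by rw [hb2 z hz]
        _ = a * z * b := by group
        _ = z * a * b := by rw [ha2 z hz]
        _ = z * (a * b) := by group
  inv_mem' := by
    rintro a ⟨ha1, ha2⟩
    refine ⟨fun q hq => ?_, fun z hz => ?_⟩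
    · have hq' : a⁻¹ * q * a⁻¹⁻¹ ∈ Q := hQ.conj_mem q hq a⁻¹
      have h1 := ha1 _ hq'
      have e1 : a * (a⁻¹ * q * a⁻¹⁻¹) * a⁻¹ * (a⁻¹ * q * a⁻¹⁻¹)⁻¹ = q * (a⁻¹ * q * a)⁻¹ := by group
      rw [e1] at h1
      have h2 := Q₀.inv_mem h1
      have e2 : (q * (a⁻¹ * q * a)⁻¹)⁻¹ = a⁻¹ * q * a⁻¹⁻¹ * q⁻¹ := by group
      rw [e2] at h2
      exact h2
    · have := ha2 z hz
      calc a⁻¹ * z = a⁻¹ * (z * a) * a⁻¹ := by group
        _ = a⁻¹ * (a * z) * a⁻¹ := by rw [this]
        _ = z * a⁻¹ := by group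

theorem chainStab_normal (Q Q₀ : Subgroup G) (hQ : Q.Normal) (hQ₀ : Q₀.Normal) (hle : Q₀ ≤ Q) :
    (chainStab Q Q₀ hQ hQ₀ hle).Normal := by
  refine ⟨fun n hn g => ?_⟩
  obtain ⟨hn1, hn2⟩ := hn
  refine ⟨fun q hq => ?_, fun z hz => ?_⟩
  · have hq' : g⁻¹ * q * g⁻¹⁻¹ ∈ Q := hQ.conj_mem q hq g⁻¹
    have h1 := hQ₀.conj_mem _ (hn1 _ hq') g
    have e : g * (n * (g⁻¹ * q * g⁻¹⁻¹) * n⁻¹ * (g⁻¹ * q * g⁻¹⁻¹)⁻¹) * g⁻¹ =
        g * n * g⁻¹ * q * (g * n * g⁻¹)⁻¹ * q⁻¹ := by group
    rw [e] at h1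
    exact h1
  · have hz' : g⁻¹ * z * g⁻¹⁻¹ ∈ Q₀ := hQ₀.conj_mem z hz g⁻¹
    have h1 := hn2 _ hz'
    have h2 := congrArg (fun w => g * w * g⁻¹) h1
    have e1 : g * (n * (g⁻¹ * z * g⁻¹⁻¹)) * g⁻¹ = g * n * g⁻¹ * z := by group
    have e2 : g * (g⁻¹ * z * g⁻¹⁻¹ * n) * g⁻¹ = z * (g * n * g⁻¹) := by group
    rw [e1, e2] at h2
    exact h2

/-- Elements of order prime to `p` of the chain stabilizer centralize `Q`, when `Q` is a `p`-group. -/
theorem mem_centralizer_of_chainStab {Q Q₀ : Subgroup G} (hQp : IsPGroup p Q) (hQ : Q.Normal)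
    (hQ₀ : Q₀.Normal) (hle : Q₀ ≤ Q) {m : G} (hm : m ∈ chainStab Q Q₀ hQ hQ₀ hle)
    (hm' : (orderOf m).Coprime p) : m ∈ Subgroup.centralizer (Q : Set G) := by
  obtain ⟨hm1, hm2⟩ := hm
  rw [Subgroup.mem_centralizer_iff]
  intro q hq
  have hc := hm1 q hq
  set c := m * q * m⁻¹ * q⁻¹ with hcdef
  have hmq : m * q * m⁻¹ = c * q := by rw [hcdef]; group
  have hcm : m * c = c * m := hm2 c hc
  have hpow : ∀ n : ℕ, m ^ n * q * (m ^ n)⁻¹ = c ^ n * q := by
    intro n
    induction n with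
    | zero => simp
    | succ n ih =>
      have hycn : Commute m (c ^ n) := (show Commute m c from hcm).pow_right n
      calc m ^ (n + 1) * q * (m ^ (n + 1))⁻¹
          = m * (m ^ n * q * (m ^ n)⁻¹) * m⁻¹ := by rw [pow_succ']; group
        _ = m * (c ^ n * q) * m⁻¹ := by rw [ih]
        _ = (m * c ^ n * m⁻¹) * (m * q * m⁻¹) := by group
        _ = c ^ n * (c * q) := by rw [hmq, hycn.eq]; group
        _ = c ^ (n + 1) * q := by rw [pow_succ]; group
  have h1 : c ^ orderOf m = 1 := by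
    have := hpow (orderOf m)
    rw [pow_orderOf_eq_one] at this
    simpa using this.symm
  obtain ⟨k, hk⟩ := hQp ⟨c, hle hc⟩
  have hk' : c ^ p ^ k = 1 := by
    have := congrArg (fun z : Q => (z : G)) hk
    simpa using this
  have hcop : (orderOf m).Coprime (p ^ k) := hm'.pow_right k
  have hc1 : c = 1 := by
    have hd1 := orderOf_dvd_of_pow_eq_one h1
    have hd2 := orderOf_dvd_of_pow_eq_one hk'
    have := Nat.eq_one_of_dvd_coprimes hcop hd1 hd2
    exact orderOf_eq_one_iff.1 this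
  rw [hc1, one_mul] at hmq
  have : m * q = q * m := by
    have e : m * q * m⁻¹ * m = q * m := by rw [hmq]
    simpa using e
  exact this.symm

/-- The base case: `F` normal in `G`. -/
theorem normal_base (S : Sylow p G) {A F : Subgroup G} (hAc : ∀ a ∈ A, ∀ b ∈ A, a * b = b * a)
    (hA : IsStronglyClosed A (S : Subgroup G)) (hF : F.Normal) (hFS : F ≤ S) (y : G) :
    ∃ c ∈ Subgroup.centralizer (F : Set G), c * y ∈ Subgroup.normalizer (A : Set G) := by
  classical
  have hFp : IsPGroup p F := S.isPGroup'.to_le hFS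
  set Q₀ := A ⊓ F with hQ₀def
  have hQ₀n : Q₀.Normal := by
    refine ⟨fun z hz g => ⟨?_, hF.conj_mem z hz.2 g⟩⟩
    exact hA.2 z hz.1 g (hFS (hF.conj_mem z hz.2 g))
  have hle : Q₀ ≤ F := inf_le_right
  set M := chainStab F Q₀ hF hQ₀n hle with hM
  have hMn : M.Normal := chainStab_normal F Q₀ hF hQ₀n hle
  have hAM : A ≤ M := by
    intro a ha
    refine ⟨fun q hq => ⟨?_, ?_⟩, fun z hz => hAc a ha z hz.1⟩
    · have h1 := conj_mem_of_mem_sylow hA (hFS hq) (A.inv_mem ha)
      have e : a * q * a⁻¹ * q⁻¹ = a * (q * a⁻¹ * q⁻¹) := by group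
      rw [e]
      exact A.mul_mem ha h1
    · exact F.mul_mem (hF.conj_mem q hq a) (F.inv_mem hq)
  -- `C = C_G(F)` is normal
  set C := Subgroup.centralizer (F : Set G) with hC
  have hCn : C.Normal := inferInstance
  -- `M / C` is a `p`-group
  set π := QuotientGroup.mk' C with hπ
  have hπs : Function.Surjective π := QuotientGroup.mk'_surjective C
  have hπk : ∀ z : G, π z = 1 ↔ z ∈ C := fun z => by
    rw [hπ, QuotientGroup.mk'_apply, QuotientGroup.eq_one_iff]
  have hMp : IsPGroup p (M.map π) := by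
    rintro ⟨_, m, hm, rfl⟩
    have hn : orderOf m ≠ 0 := (orderOf_pos m).ne'
    obtain ⟨k, l, hl, hkl⟩ := Nat.exists_eq_pow_mul_and_not_dvd hn p (Fact.out : p.Prime).ne_one
    have hlpos : 0 < l := Nat.pos_of_ne_zero (by
      rintro rfl
      rw [mul_zero] at hkl
      exact hn hkl)
    have e : orderOf m / l = p ^ k := by rw [hkl]; exact Nat.mul_div_cancel _ hlpos
    have h2 := orderOf_pow_orderOf_div hn (n := l) ⟨p ^ k, by rw [hkl, mul_comm]⟩
    rw [e] at h2
    have hcop : (orderOf (m ^ p ^ k)).Coprime p := by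
      rw [h2]
      exact ((Nat.Prime.coprime_iff_not_dvd (Fact.out : p.Prime)).2 hl).symm
    have hmc := mem_centralizer_of_chainStab hFp hF hQ₀n hle (M.pow_mem hm _) hcop
    refine ⟨k, ?_⟩
    apply Subtype.ext
    change (π m) ^ p ^ k = 1
    rw [← map_pow, hπk]
    exact hmc
  have hMn' : (M.map π).Normal := hMn.map _ hπs
  -- so `M / C` lies in the image of `S`
  have hMS : M.map π ≤ ((S : Subgroup G).map π) := by
    have h1 := le_pCore hMn' hMp
    have h2 := pCore_le_sylow p (S.mapSurjective hπs)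
    rw [Sylow.coe_mapSurjective] at h2
    exact h1.trans h2
  -- the conjugate of `A` by `y`
  set A₂ := A.map (MulAut.conj y).toMonoidHom with hA₂
  have hA₂M : A₂ ≤ M := by
    rintro _ ⟨a, ha, rfl⟩
    exact hMn.conj_mem a (hAM ha) y
  set W := (S : Subgroup G) ⊔ C with hW
  have hSW : (S : Subgroup G) ≤ W := le_sup_left
  have hA₂W : A₂ ≤ W := by
    intro z hz
    have h1 : π z ∈ (S : Subgroup G).map π := hMS ⟨z, hA₂M hz, rfl⟩
    obtain ⟨s, hs, e⟩ := h1
    have h2 : s⁻¹ * z ∈ C := by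
      rw [← hπk, map_mul, map_inv, e]; simp
    have : z = s * (s⁻¹ * z) := by group
    rw [this]
    exact Subgroup.mul_mem _ (Subgroup.mem_sup_left hs) (Subgroup.mem_sup_right h2)
  -- conjugate `A₂` into `S` inside `W`
  let S_W : Sylow p W := S.subtype hSW
  have hS_W : sylowMap p S_W = S := by
    change ((S.subtype hSW : Sylow p W) : Subgroup W).map W.subtype = S
    rw [Sylow.coe_subtype, Subgroup.subgroupOf_map_subtype]
    exact inf_eq_left.2 hSW
  have hA₂p : IsPGroup p A₂ := (S.isPGroup'.to_le hA.1).map _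
  have hA₂p' : IsPGroup p (A₂.subgroupOf W) := hA₂p.comap_of_injective W.subtype W.subtype_injective
  obtain ⟨P, hP⟩ := hA₂p'.exists_le_sylow
  obtain ⟨w, hw⟩ := MulAction.exists_smul_eq W P S_W
  have hP2 : S = (sylowMap p P).map (MulAut.conj (w : G)).toMonoidHom := by
    have := sylowMap_smul p P w
    rw [hw, hS_W] at this
    exact this
  have hA₂P : A₂ ≤ sylowMap p P := by
    intro z hz
    exact ⟨⟨z, hA₂W hz⟩, hP hz, rfl⟩
  have hconjS : A₂.map (MulAut.conj (w : G)).toMonoidHom ≤ S := by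
    rw [hP2]
    exact Subgroup.map_mono hA₂P
  obtain ⟨s, hs, c, hc, hsc⟩ := Subgroup.mem_sup_of_normal_right.1 w.2
  refine ⟨c, hc, mem_normalizer_of_strong hA ?_⟩
  intro a ha
  have h1 : (w : G) * (y * a * y⁻¹) * (w : G)⁻¹ ∈ (S : Subgroup G) :=
    hconjS ⟨_, ⟨a, ha, rfl⟩, rfl⟩
  rw [← hsc] at h1
  have h2 := (S : Subgroup G).mul_mem ((S : Subgroup G).mul_mem ((S : Subgroup G).inv_mem hs) h1) hs
  have e : s⁻¹ * (s * c * (y * a * y⁻¹) * (s * c)⁻¹) * s = c * y * a * (c * y)⁻¹ := by group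
  rw [e] at h2
  exact h2

/-- Composition of conjugations. -/
theorem map_conj_map_conj (D : Subgroup G) (g h : G) :
    (D.map (MulAut.conj g).toMonoidHom).map (MulAut.conj h).toMonoidHom =
      D.map (MulAut.conj (h * g)).toMonoidHom := by
  rw [Subgroup.map_map]
  congr 1
  ext z
  simp [mul_assoc]

/-- `D` has all its conjugation maps into `S` realized in `N(A)`. -/
def Fus (S A D : Subgroup G) : Prop :=
  ∀ g : G, D.map (MulAut.conj g).toMonoidHom ≤ S →
    ∃ x ∈ Subgroup.normalizer (A : Set G), ∀ d ∈ D, g * d * g⁻¹ = x * d * x⁻¹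

/-- `S ⊓ N(F)` is a Sylow subgroup of `N(F)`. -/
def Full (p : ℕ) (S F : Subgroup G) : Prop :=
  ∃ S' : Sylow p ↥(Subgroup.normalizer (F : Set G)),
    sylowMap p S' = S ⊓ Subgroup.normalizer (F : Set G)

theorem exists_full (S : Sylow p G) {D : Subgroup G} (hD : D ≤ S) :
    ∃ g₁ : G, D.map (MulAut.conj g₁).toMonoidHom ≤ S ∧
      Full p (S : Subgroup G) (D.map (MulAut.conj g₁).toMonoidHom) := by
  classical
  let I := {g : G // D.map (MulAut.conj g).toMonoidHom ≤ S}
  have hI : Nonempty I := by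
    refine ⟨⟨1, ?_⟩⟩
    rintro _ ⟨d, hd, rfl⟩
    simpa using hD hd
  let f : I → ℕ := fun g =>
    Nat.card ↥((S : Subgroup G) ⊓ Subgroup.normalizer ((D.map (MulAut.conj (g : G)).toMonoidHom : Subgroup G) : Set G))
  obtain ⟨⟨g₁, hg₁⟩, hmax⟩ := Finite.exists_max f
  refine ⟨g₁, hg₁, ?_⟩
  set F := D.map (MulAut.conj g₁).toMonoidHom with hF
  set X := Subgroup.normalizer (F : Set G) with hX
  have hp0 : IsPGroup p (((S : Subgroup G) ⊓ X).subgroupOf X) :=
    (S.isPGroup'.to_le inf_le_left).comap_of_injective X.subtype X.subtype_injective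
  obtain ⟨R', hR'⟩ := hp0.exists_le_sylow
  refine ⟨R', ?_⟩
  set R := sylowMap p R' with hR
  have hSR : (S : Subgroup G) ⊓ X ≤ R := by
    intro z hz
    exact ⟨⟨z, hz.2⟩, hR' hz, rfl⟩
  have hRX : R ≤ X := sylowMap_le p R'
  have hRp : IsPGroup p R := R'.isPGroup'.map _
  obtain ⟨h, hh⟩ := exists_conj_le S hRp
  have hFX : F ≤ X := Subgroup.le_normalizer
  have hFR : F ≤ R := (le_inf hg₁ hFX).trans hSR
  have hF₂ : F.map (MulAut.conj h).toMonoidHom ≤ S := (Subgroup.map_mono hFR).trans hh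
  have hF₂' : D.map (MulAut.conj (h * g₁)).toMonoidHom ≤ S := by
    rw [← map_conj_map_conj]; exact hF₂
  have hm := hmax ⟨h * g₁, hF₂'⟩
  change Nat.card ↥((S : Subgroup G) ⊓ Subgroup.normalizer ((D.map (MulAut.conj (h * g₁)).toMonoidHom : Subgroup G) : Set G)) ≤
    Nat.card ↥((S : Subgroup G) ⊓ X) at hm
  rw [← map_conj_map_conj, ← hF] at hm
  have hRh : R.map (MulAut.conj h).toMonoidHom ≤
      (S : Subgroup G) ⊓ Subgroup.normalizer ((F.map (MulAut.conj h).toMonoidHom : Subgroup G) : Set G) := by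
    refine le_inf hh ?_
    rw [normalizer_map_conj]
    exact Subgroup.map_mono hRX
  have hc1 : Nat.card R ≤ Nat.card ↥((S : Subgroup G) ⊓ X) := by
    refine le_trans ?_ hm
    rw [← card_map_conj R h]
    exact Subgroup.card_le_of_le hRh
  exact (Subgroup.eq_of_le_of_card_ge hSR hc1).symm

theorem card_lt_of_ne_top {X : Subgroup G} (h : X ≠ ⊤) : Nat.card X < Nat.card G :=
  lt_of_le_of_ne (Subgroup.card_le_card_group X) (fun e => h (Subgroup.eq_top_of_card_eq X e))

/-- If `A ⊓ N(F) ≤ F` then `A ≤ F`. -/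
theorem le_of_inf_normalizer_le {S A F : Subgroup G} (hSp : IsPGroup p S)
    (hA : IsStronglyClosed A S) (hFS : F ≤ S)
    (h : A ⊓ Subgroup.normalizer (F : Set G) ≤ F) : A ≤ F := by
  by_contra hne
  have hlt : F < F ⊔ A := by
    refine lt_of_le_of_ne le_sup_left (fun e => hne ?_)
    rw [e]
    exact le_sup_right
  have hTS : F ⊔ A ≤ S := sup_le hFS hA.1
  obtain ⟨g, hgT, hgF, hgn⟩ :=
    Cfsg.Agent.Lib.ClassicalSE.exists_normalizing_of_lt (hSp.to_le hTS) hlt
  have hgN : g ∈ Subgroup.normalizer (F : Set G) := by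
    apply mem_normalizer_of_map_conj_eq
    refine Subgroup.eq_of_le_of_card_ge hgn ?_
    rw [card_map_conj]
  -- write `g = f * a`
  let A' : Subgroup S := A.subgroupOf S
  let F' : Subgroup S := F.subgroupOf S
  have hA'n : A'.Normal := by
    refine ⟨fun n hn s => ?_⟩
    exact conj_mem_of_mem_sylow hA s.2 hn
  have hsup : (F' ⊔ A').map S.subtype = F ⊔ A := by
    rw [Subgroup.map_sup, Subgroup.subgroupOf_map_subtype, Subgroup.subgroupOf_map_subtype,
      inf_eq_left.2 hFS, inf_eq_left.2 hA.1]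
  have hgT' : g ∈ (F' ⊔ A').map S.subtype := by rw [hsup]; exact hgT
  obtain ⟨g', hg', rfl⟩ := hgT'
  obtain ⟨f, hf, a, ha, e⟩ := Subgroup.mem_sup_of_normal_right.1 hg'
  have hf' : (f : G) ∈ F := hf
  have ha' : (a : G) ∈ A := ha
  have hgeq : S.subtype g' = f * a := by
    rw [← e]; rfl
  have haN : (a : G) ∈ Subgroup.normalizer (F : Set G) := by
    have : (a : G) = (f : G)⁻¹ * S.subtype g' := by rw [hgeq]; group
    rw [this]
    exact Subgroup.mul_mem _ (Subgroup.inv_mem _ (Subgroup.le_normalizer hf')) hgN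
  have haF : (a : G) ∈ F := h ⟨ha', haN⟩
  apply hgF
  rw [hgeq]
  exact F.mul_mem hf' haF

end lemmas

section main

variable {p : ℕ} [Fact p.Prime]

/-- The statement to be proved by induction on the group. -/
def Claim (p : ℕ) [Fact p.Prime] (G : Type u) [Group G] : Prop :=
  ∀ (S : Sylow p G) (A : Subgroup G), (∀ a ∈ A, ∀ b ∈ A, a * b = b * a) →
    IsStronglyClosed A (S : Subgroup G) → ∀ D : Subgroup G, D ≤ S → Fus (S : Subgroup G) A D

variable {G : Type u} [Group G] [Finite G]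

/-- Automorphisms of a fully normalized subgroup are realized in `N(A)`. -/
theorem r_step (IHG : ∀ (H : Type u) [Group H] [Finite H], Nat.card H < Nat.card G → Claim p H)
    (S : Sylow p G) {A : Subgroup G} (hAc : ∀ a ∈ A, ∀ b ∈ A, a * b = b * a)
    (hA : IsStronglyClosed A (S : Subgroup G)) {F : Subgroup G} (hFS : F ≤ S)
    (hFull : Full p (S : Subgroup G) F)
    (hgt : ∀ E : Subgroup G, E ≤ S → Nat.card F < Nat.card E → Fus (S : Subgroup G) A E)
    {y : G} (hy : y ∈ Subgroup.normalizer (F : Set G)) :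
    ∃ x ∈ Subgroup.normalizer (A : Set G), ∀ f ∈ F, y * f * y⁻¹ = x * f * x⁻¹ := by
  classical
  set X := Subgroup.normalizer (F : Set G) with hX
  by_cases htop : X = ⊤
  · have hFn : F.Normal := Subgroup.normalizer_eq_top_iff.1 htop
    obtain ⟨c, hc, hcy⟩ := normal_base S hAc hA hFn hFS y
    refine ⟨c * y, hcy, fun f hf => ?_⟩
    have h1 : y * f * y⁻¹ ∈ F := hFn.conj_mem f hf y
    have h2 := (Subgroup.mem_centralizer_iff.1 hc) _ h1
    have e : c * y * f * (c * y)⁻¹ = c * (y * f * y⁻¹) * c⁻¹ := by group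
    rw [e, ← h2]
    group
  · obtain ⟨S', hS'⟩ := hFull
    have hS'mem : ∀ w : X, w ∈ (S' : Subgroup X) ↔ (w : G) ∈ (S : Subgroup G) := by
      intro w
      constructor
      · intro hw
        have : (w : G) ∈ sylowMap p S' := ⟨w, hw, rfl⟩
        rw [hS'] at this
        exact this.1
      · intro hw
        have : (w : G) ∈ sylowMap p S' := by
          rw [hS']; exact ⟨hw, w.2⟩
        obtain ⟨w', hw', e⟩ := this
        have : w' = w := Subtype.ext e
        rwa [← this]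
    let A' : Subgroup X := A.subgroupOf X
    let F' : Subgroup X := F.subgroupOf X
    have hA'c : ∀ a ∈ A', ∀ b ∈ A', a * b = b * a := fun a ha b hb =>
      Subtype.ext (hAc a ha b hb)
    have hA'sc : IsStronglyClosed A' (S' : Subgroup X) := by
      refine ⟨fun a ha => (hS'mem a).2 (hA.1 ha), fun a ha z hz => ?_⟩
      have h1 := (hS'mem _).1 hz
      exact hA.2 a ha z h1
    have hF'S : F' ≤ (S' : Subgroup X) := fun f hf => (hS'mem f).2 (hFS hf)
    let y' : X := ⟨y, hy⟩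
    have hconj : F'.map (MulAut.conj y').toMonoidHom ≤ (S' : Subgroup X) := by
      rintro _ ⟨f, hf, rfl⟩
      refine (hS'mem _).2 (hFS ?_)
      exact (Subgroup.mem_normalizer_iff.1 hy f).1 hf
    obtain ⟨x', hx', hxf⟩ := IHG X (card_lt_of_ne_top htop) S' A' hA'c hA'sc F' hF'S y' hconj
    set x₁ : G := (x' : X).1 with hx₁
    have hxf' : ∀ f ∈ F, y * f * y⁻¹ = x₁ * f * x₁⁻¹ := by
      intro f hf
      have hfX : f ∈ X := Subgroup.le_normalizer hf
      have := hxf ⟨f, hfX⟩ hf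
      exact congrArg (fun z : X => (z : G)) this
    have hx₁X : x₁ ∈ X := x'.2
    by_cases hle : A ⊓ X ≤ F
    · have hAF := le_of_inf_normalizer_le S.isPGroup' hA hFS hle
      refine ⟨y, mem_normalizer_of_strong hA ?_, fun f _ => rfl⟩
      intro a ha
      exact hFS ((Subgroup.mem_normalizer_iff.1 hy a).1 (hAF ha))
    · set E₂ := F ⊔ (A ⊓ X) with hE₂
      have hE₂S : E₂ ≤ S := sup_le hFS (inf_le_left.trans hA.1)
      have hAXn : (A ⊓ X).map (MulAut.conj x₁).toMonoidHom = A ⊓ X := by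
        apply map_conj_eq_of_mem_normalizer
        rw [Subgroup.mem_normalizer_iff]
        intro w
        constructor
        · rintro ⟨hw1, hw2⟩
          have h3 := (Subgroup.mem_normalizer_iff.1 hx' ⟨w, hw2⟩).1 hw1
          exact ⟨h3, X.mul_mem (X.mul_mem hx₁X hw2) (X.inv_mem hx₁X)⟩
        · rintro ⟨hw1, hw2⟩
          have hwX : w ∈ X := by
            have e : w = x₁⁻¹ * (x₁ * w * x₁⁻¹) * x₁ := by group
            rw [e]
            exact X.mul_mem (X.mul_mem (X.inv_mem hx₁X) hw2) hx₁X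
          have h3 := (Subgroup.mem_normalizer_iff.1 hx' ⟨w, hwX⟩).2 hw1
          exact ⟨h3, hwX⟩
      have hFn : F.map (MulAut.conj x₁).toMonoidHom = F := map_conj_eq_of_mem_normalizer hx₁X
      have hE₂n : E₂.map (MulAut.conj x₁).toMonoidHom = E₂ := by
        rw [hE₂, Subgroup.map_sup, hFn, hAXn]
      have hcard : Nat.card F < Nat.card E₂ := by
        have hlt : F < E₂ := by
          refine lt_of_le_of_ne le_sup_left (fun e => hle ?_)
          rw [e]
          exact le_sup_right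
        exact card_lt_of_lt_aux hlt
      obtain ⟨x, hx, hxE⟩ := hgt E₂ hE₂S hcard x₁ (by rw [hE₂n]; exact hE₂S)
      refine ⟨x, hx, fun f hf => ?_⟩
      rw [hxf' f hf]
      exact hxE f (Subgroup.mem_sup_left hf)

/-- Maps to a fully normalized subgroup are realized in `N(A)`. -/
theorem q_step (S : Sylow p G) {A : Subgroup G} {E F : Subgroup G} (hES : E < S)
    (hFull : Full p (S : Subgroup G) F)
    (hR : ∀ y ∈ Subgroup.normalizer (F : Set G), ∃ x ∈ Subgroup.normalizer (A : Set G),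
      ∀ f ∈ F, y * f * y⁻¹ = x * f * x⁻¹)
    (hgt : ∀ E' : Subgroup G, E' ≤ S → Nat.card F < Nat.card E' → Fus (S : Subgroup G) A E')
    {h : G} (hEF : E.map (MulAut.conj h).toMonoidHom = F) :
    ∃ x ∈ Subgroup.normalizer (A : Set G), ∀ e ∈ E, h * e * h⁻¹ = x * e * x⁻¹ := by
  classical
  obtain ⟨S', hS'⟩ := hFull
  set T₁ := (S : Subgroup G) ⊓ Subgroup.normalizer (E : Set G) with hT₁
  have hlt : E < T₁ := by
    obtain ⟨g, hgS, hgE, hgn⟩ :=
      Cfsg.Agent.Lib.ClassicalSE.exists_normalizing_of_lt S.isPGroup' hES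
    have hgN : g ∈ Subgroup.normalizer (E : Set G) := by
      apply mem_normalizer_of_map_conj_eq
      refine Subgroup.eq_of_le_of_card_ge hgn ?_
      rw [card_map_conj]
    refine lt_of_le_of_ne (le_inf hES.le Subgroup.le_normalizer) (fun e => hgE ?_)
    rw [e]
    exact ⟨hgS, hgN⟩
  have hcardEF : Nat.card F = Nat.card E := by rw [← hEF, card_map_conj]
  have hT₁h : T₁.map (MulAut.conj h).toMonoidHom ≤ Subgroup.normalizer (F : Set G) := by
    rw [← hEF, normalizer_map_conj]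
    exact Subgroup.map_mono inf_le_right
  have hT₁p : IsPGroup p T₁ := S.isPGroup'.to_le inf_le_left
  have hT₂p : IsPGroup p ((T₁.map (MulAut.conj h).toMonoidHom).subgroupOf (Subgroup.normalizer (F : Set G))) :=
    (hT₁p.map _).comap_of_injective _ (Subgroup.subtype_injective _)
  obtain ⟨S₂, hS₂⟩ := hT₂p.exists_le_sylow
  obtain ⟨y', hy'⟩ := MulAction.exists_smul_eq (Subgroup.normalizer (F : Set G)) S₂ S'
  have hS'2 : sylowMap p S' = (sylowMap p S₂).map (MulAut.conj (y' : G)).toMonoidHom := by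
    rw [← hy', sylowMap_smul]
  have hle2 : T₁.map (MulAut.conj h).toMonoidHom ≤ sylowMap p S₂ := by
    intro z hz
    exact ⟨⟨z, hT₁h hz⟩, hS₂ hz, rfl⟩
  have hconj : T₁.map (MulAut.conj ((y' : G) * h)).toMonoidHom ≤ S := by
    rw [← map_conj_map_conj]
    refine (Subgroup.map_mono hle2).trans ?_
    rw [← hS'2, hS']
    exact inf_le_left
  obtain ⟨x₁, hx₁, hx₁T⟩ := hgt T₁ inf_le_left (by
    rw [hcardEF]; exact card_lt_of_lt_aux hlt) _ hconj
  obtain ⟨x₂, hx₂, hx₂F⟩ := hR _ (Subgroup.inv_mem _ y'.2)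
  refine ⟨x₂ * x₁, Subgroup.mul_mem _ hx₂ hx₁, fun e he => ?_⟩
  have heT : e ∈ T₁ := hlt.le he
  have h1 := hx₁T e heT
  have hfF : (y' : G) * (h * e * h⁻¹) * (y' : G)⁻¹ ∈ F := by
    have h2 : h * e * h⁻¹ ∈ F := by
      rw [← hEF]; exact ⟨e, he, rfl⟩
    exact (Subgroup.mem_normalizer_iff.1 y'.2 _).1 h2
  have h3 := hx₂F _ hfF
  have e1 : (y' : G)⁻¹ * ((y' : G) * (h * e * h⁻¹) * (y' : G)⁻¹) * (y' : G)⁻¹⁻¹ = h * e * h⁻¹ := by
    group
  have e2 : (y' : G) * (h * e * h⁻¹) * (y' : G)⁻¹ = x₁ * e * x₁⁻¹ := by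
    rw [← h1]; group
  rw [e1, e2] at h3
  rw [h3]
  group

theorem full_case (S : Sylow p G) {A : Subgroup G} (hA : IsStronglyClosed A (S : Subgroup G)) :
    Fus (S : Subgroup G) A (S : Subgroup G) := by
  intro g hg
  refine ⟨g, mem_normalizer_of_strong hA ?_, fun _ _ => rfl⟩
  intro a ha
  exact hg ⟨a, hA.1 ha, rfl⟩

theorem claim_of_smaller (IHG : ∀ (H : Type u) [Group H] [Finite H], Nat.card H < Nat.card G → Claim p H) :
    Claim p G := by
  intro S A hAc hA
  have key : ∀ m : ℕ, ∀ D : Subgroup G, D ≤ S → Nat.card (S : Subgroup G) = Nat.card D + m →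
      Fus (S : Subgroup G) A D := by
    intro m
    induction m using Nat.strong_induction_on with
    | _ m ih =>
      intro D hD hm g hg
      by_cases hDS : D = S
      · rw [hDS] at hg ⊢
        exact full_case S hA g hg
      have hDlt : D < S := lt_of_le_of_ne hD hDS
      -- larger subgroups are handled by induction
      have hgt' : ∀ E : Subgroup G, E ≤ S → Nat.card D < Nat.card E → Fus (S : Subgroup G) A E := by
        intro E hE hc
        have hc2 : Nat.card E ≤ Nat.card (S : Subgroup G) := Subgroup.card_le_of_le hE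
        exact ih (Nat.card (S : Subgroup G) - Nat.card E) (by omega) E hE (by omega)
      obtain ⟨g₁, hg₁, hFull⟩ := exists_full S hD
      set F := D.map (MulAut.conj g₁).toMonoidHom with hF
      have hcF : Nat.card F = Nat.card D := card_map_conj _ _
      have hgtF : ∀ E : Subgroup G, E ≤ S → Nat.card F < Nat.card E → Fus (S : Subgroup G) A E := by
        intro E hE hc
        exact hgt' E hE (by omega)
      have hR : ∀ y ∈ Subgroup.normalizer (F : Set G), ∃ x ∈ Subgroup.normalizer (A : Set G),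
          ∀ f ∈ F, y * f * y⁻¹ = x * f * x⁻¹ := fun y hy =>
        r_step IHG S hAc hA hg₁ hFull hgtF hy
      obtain ⟨x₁, hx₁, h1⟩ := q_step S hDlt hFull hR hgtF (h := g₁) rfl
      -- the conjugate `E = D^g`
      set E := D.map (MulAut.conj g).toMonoidHom with hE
      have hElt : E < S := by
        refine lt_of_le_of_ne hg (fun e => ?_)
        have h3 : Nat.card E = Nat.card D := card_map_conj _ _
        have h4 : Nat.card D < Nat.card (S : Subgroup G) := card_lt_of_lt_aux hDlt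
        rw [e] at h3
        omega
      have hEF : E.map (MulAut.conj (g₁ * g⁻¹)).toMonoidHom = F := by
        rw [hE, map_conj_map_conj]
        simp [hF]
      obtain ⟨x₂, hx₂, h2⟩ := q_step S hElt hFull hR hgtF hEF
      refine ⟨x₂⁻¹ * x₁, Subgroup.mul_mem _ (Subgroup.inv_mem _ hx₂) hx₁, fun d hd => ?_⟩
      have h5 := h1 d hd
      have h6 := h2 (g * d * g⁻¹) ⟨d, hd, rfl⟩
      have e1 : g₁ * g⁻¹ * (g * d * g⁻¹) * (g₁ * g⁻¹)⁻¹ = g₁ * d * g₁⁻¹ := by group
      rw [e1, h5] at h6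
      have h7 : g * d * g⁻¹ = x₂⁻¹ * (x₁ * d * x₁⁻¹) * x₂ := by
        rw [h6]; group
      rw [h7]
      group
  intro D hD
  have hc : Nat.card D ≤ Nat.card (S : Subgroup G) := Subgroup.card_le_of_le hD
  exact key (Nat.card (S : Subgroup G) - Nat.card D) D hD (by omega)

theorem claim_all (n : ℕ) : ∀ (G : Type u) [Group G] [Finite G], Nat.card G = n → Claim p G := by
  induction n using Nat.strong_induction_on with
  | _ n ih =>
    intro G _ _ hG
    refine claim_of_smaller ?_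
    intro H _ _ hH
    exact ih (Nat.card H) (by omega) H rfl

end main


/-- Let S be a Sylow p-subgroup of the finite group G and A an abelian subgroup of S that is strongly closed in S with respect to G. Then A controls strong fusion in G: for some Sylow p-subgroup T containing A, whenever a subset of T is conjugated into T by an element of G, the same elementwise conjugation is induced by an element of N_G(A). -/
theorem result {G : Type*} [Group G] [Finite G] {p : ℕ} [Fact p.Prime] (S : Sylow p G) (A : Subgroup G) (hA : IsMulCommutative ↥A) (hsc : Cfsg.IsStronglyClosed A (S : Subgroup G)) : Cfsg.ControlsStrongFusion p A := by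
  have hAc : ∀ a ∈ A, ∀ b ∈ A, a * b = b * a := fun a ha b hb =>
    congrArg (fun x : A => (x : G)) (hA.is_comm.comm ⟨a, ha⟩ ⟨b, hb⟩)
  refine ⟨S, hsc.1, fun B hB => ⟨hB, fun g hg => ?_⟩⟩
  have hD : Subgroup.closure B ≤ (S : Subgroup G) := (Subgroup.closure_le _).2 hB
  have hconj : (Subgroup.closure B).map (MulAut.conj g).toMonoidHom ≤ (S : Subgroup G) := by
    rw [MonoidHom.map_closure, Subgroup.closure_le]
    rintro _ ⟨b, hb, rfl⟩
    exact hg ⟨b, hb, rfl⟩
  obtain ⟨x, hx, h⟩ := claim_all (p := p) (Nat.card G) G rfl S A hAc hsc _ hD g hconj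
  exact ⟨x, hx, fun a ha => h a (Subgroup.subset_closure ha)⟩

end Cfsg.Agent.S2791
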