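import Mathlib
-- Template for statement S2792 (row 2792; see /opt/grader/pristine/manifest.json for weights).
-- Copy to Cfsg/Agent/S2792.lean and replace the sorry. The statement below is byte-identical to the frozen
-- statement Cfsg.CfsgFrozen.S2792 (Cfsg/Statements/S2792.lean; the theorem Cfsg.loc_weakly_closed_transfer_iterated_commutator);
-- the grader kernel-checks Cfsg.Agent.S2792.result against that frozen type. Keep the theorem IN THIS FILE
-- (a `result` declared elsewhere and merely imported here is not credited); helpers may live anywhere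
-- under Cfsg/Agent/.
import Cfsg.Statements.S2792
import Cfsg.Agent.Lib.WYExt
import Cfsg.Agent.Lib.Frat
import Cfsg.Agent.Lib.ExtClosed

set_option autoImplicit false
open Cfsg

open Subgroup

namespace Cfsg.Agent.S2792

theorem relIndex_of_normalizes {G : Type*} [Group G] (U W : Subgroup G)
    (hWN : W ≤ normalizer (U : Set G)) : U.relIndex (U ⊔ W) = U.relIndex W := by
  have hR : U ⊔ W ≤ normalizer (U : Set G) := sup_le le_normalizer hWN
  have : (U.subgroupOf (U ⊔ W)).Normal := (normal_subgroupOf_iff_le_normalizer le_sup_left).2 hR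
  have h1 : U.subgroupOf (U ⊔ W) ⊔ W.subgroupOf (U ⊔ W) = ⊤ := by
    apply Subgroup.map_injective (U ⊔ W).subtype_injective
    rw [Subgroup.map_sup, Subgroup.map_subgroupOf_eq_of_le le_sup_left,
      Subgroup.map_subgroupOf_eq_of_le le_sup_right, ← MonoidHom.range_eq_map, Subgroup.range_subtype]
  have h2 := relIndex_sup_left (W.subgroupOf (U ⊔ W)) (U.subgroupOf (U ⊔ W))
  rw [h1, relIndex_top_right] at h2
  rw [Subgroup.relIndex, h2, relIndex_subgroupOf le_sup_right]

/-- Let S be a Sylow p-subgroup of the finite group G and W a subgroup of S weakly closed in S with respect to G. If S ∩ G' ≠ S ∩ (N_G(W))', then there are x ∈ S, z ∈ W and a maximal subgroup W₀ of W such that the iterated commutator [x, z; p−1] (with [x, z] = x⁻¹z⁻¹xz and [x, z; i+1] = [[x, z; i], z]) lies in W₀ but not in the Frattini subgroup of W₀; in particular [x, z; p−1] ≠ 1. -/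
theorem result {G : Type*} [Group G] [Finite G] {p : ℕ} [Fact p.Prime] (S : Sylow p G) (W : Subgroup G) (hW : Cfsg.IsWeaklyClosed W (S : Subgroup G)) (h : (S : Subgroup G) ⊓ commutator G ≠ (S : Subgroup G) ⊓ ⁅Subgroup.normalizer (W : Set G), Subgroup.normalizer (W : Set G)⁆) : ∃ x ∈ (S : Subgroup G), ∃ z ∈ W, ∃ W₀ : Subgroup ↥W, IsCoatom W₀ ∧ (fun y : G => y⁻¹ * z⁻¹ * y * z)^[p - 1] x ∈ W₀.map W.subtype ∧ (fun y : G => y⁻¹ * z⁻¹ * y * z)^[p - 1] x ∉ ((frattini ↥W₀).map W₀.subtype).map W.subtype := by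
  by_contra hcon
  push Not at hcon
  apply h
  apply Cfsg.Agent.Lib.WYExt.commutator_inf_eq (S : Subgroup G) W S.isPGroup' S.not_dvd_index hW.1 hW.2
  apply Cfsg.Agent.Lib.WYExt.normHyp_of Cfsg.Agent.Lib.WYExt.Cp_exp
  intro U z hUS hWN hi hzW hzU ν r hr
  rename_i hp
  have hWS := hW.1
  have hWn := Cfsg.Agent.Lib.WYExt.le_normalizer_of_weaklyClosed hW.1 hW.2
  have hyU := Cfsg.Agent.Lib.WYExt.iterate_mem U z (hWN hzW) r hr (p - 1)
  have hyW : (fun y : G => y⁻¹ * z⁻¹ * y * z)^[p - 1] r ∈ W := by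
    have hp1 := hp.out.one_lt
    have e : p - 1 = (p - 2) + 1 := by omega
    rw [e, Function.iterate_succ_apply']
    have h0 := Cfsg.Agent.Lib.WYExt.iterate_mem U z (hWN hzW) r hr (p - 2)
    set y' := (fun y : G => y⁻¹ * z⁻¹ * y * z)^[p - 2] r with hy'
    have h1 : y'⁻¹ * z⁻¹ * y' ∈ W := by
      have h2 := (mem_normalizer_iff.1 (hWn ((S : Subgroup G).inv_mem (hUS h0))) z⁻¹).1
        (W.inv_mem hzW)
      simpa using h2
    exact W.mul_mem h1 hzW
  set y := (fun y : G => y⁻¹ * z⁻¹ * y * z)^[p - 1] r with hy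
  let W₀ : Subgroup W := U.subgroupOf W
  have hidx : W₀.index = p := by
    rw [← hi, relIndex_of_normalizes U W hWN]
    rfl
  have hco : IsCoatom W₀ := Cfsg.Agent.Lib.ExtClosed.isCoatom_of_index_prime (by rw [hidx]; exact hp.out)
  have hmem : y ∈ W₀.map W.subtype := ⟨⟨y, hyW⟩, hyU, rfl⟩
  obtain ⟨_, ⟨w₀, hw₀, rfl⟩, hw⟩ := hcon r (hUS hr) z hzW W₀ hco hmem
  let j : W₀ →* U := MonoidHom.mk' (fun w => ⟨((w : W) : G), w.2⟩) (fun _ _ => rfl)
  let ν' : W₀ →* Cfsg.Agent.Lib.WYExt.Cp p := ν.comp j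
  have hker : frattini W₀ ≤ ν'.ker := by
    apply Cfsg.Agent.Lib.Frat.frattini_le_of_commutator_pow (p := p)
    · rw [commutator_def, commutator_le]
      rintro a - b -
      rw [MonoidHom.mem_ker, commutatorElement_def]
      simp only [map_mul, map_inv]
      rw [mul_comm (ν' a) (ν' b)]
      group
    · intro x
      rw [MonoidHom.mem_ker, map_pow]
      exact Cfsg.Agent.Lib.WYExt.Cp_exp _
  have h3 : ν' ((⟨w₀.1, w₀.2⟩ : W₀)) = 1 := hker hw₀
  rw [Cfsg.Agent.Lib.WYCoc.ext_of_mem ν hyU]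
  have h4 : (⟨y, hyU⟩ : U) = j w₀ := by
    apply Subtype.ext
    exact hw.symm
  rw [h4]
  exact h3

end Cfsg.Agent.S2792
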