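import Mathlib
-- Template for statement S2807 (row 2807; see /opt/grader/pristine/manifest.json for weights).
-- Copy to Cfsg/Agent/S2807.lean and replace the sorry. The statement below is byte-identical to the frozen
-- statement Cfsg.CfsgFrozen.S2807 (Cfsg/Statements/S2807.lean; the theorem Cfsg.loc_sylow_normalizer_transfer_or_wreath_image);
-- the grader kernel-checks Cfsg.Agent.S2807.result against that frozen type. Keep the theorem IN THIS FILE
-- (a `result` declared elsewhere and merely imported here is not credited); helpers may live anywhere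
-- under Cfsg/Agent/.
import Cfsg.Statements.S2807
import Cfsg.Agent.Lib.WYWreath

set_option autoImplicit false
open Cfsg

open Subgroup

namespace Cfsg.Agent.S2807

/-- Let S be a Sylow p-subgroup of the finite group G. If S ∩ G' ≠ S ∩ (N_G(S))' (derived subgroups), then the wreath product Z_p ≀ Z_p — realised as a Sylow p-subgroup of the symmetric group of degree p² — is a homomorphic image of S. -/
theorem result {G : Type*} [Group G] [Finite G] {p : ℕ} [Fact p.Prime] (S : Sylow p G) (h : (S : Subgroup G) ⊓ commutator G ≠ (S : Subgroup G) ⊓ ⁅Subgroup.normalizer ((S : Subgroup G) : Set G), Subgroup.normalizer ((S : Subgroup G) : Set G)⁆) : ∃ (P : Sylow p (Equiv.Perm (Fin (p ^ 2)))) (f : ↥(S : Subgroup G) →* ↥(P : Subgroup (Equiv.Perm (Fin (p ^ 2))))), Function.Surjective f := by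
  by_contra hcon
  apply h
  have hSS : ∀ g : G, (S : Subgroup G).map (MulAut.conj g).toMonoidHom ≤ (S : Subgroup G) →
      (S : Subgroup G).map (MulAut.conj g).toMonoidHom = (S : Subgroup G) := by
    intro g hg
    apply Subgroup.eq_of_le_of_card_ge hg
    have h1 : Nat.card ((S : Subgroup G).map (MulAut.conj g).toMonoidHom) = Nat.card (S : Subgroup G) :=
      Subgroup.card_map_of_injective (MulAut.conj g).injective
    rw [h1]
  apply Cfsg.Agent.Lib.WYExt.commutator_inf_eq (S : Subgroup G) (S : Subgroup G) S.isPGroup'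
    S.not_dvd_index le_rfl hSS
  apply Cfsg.Agent.Lib.WYExt.normHyp_of Cfsg.Agent.Lib.WYExt.Cp_exp
  intro U z hUS hWN hi hzW hzU ν r hr
  by_contra hne
  apply hcon
  have hsup : U ⊔ (S : Subgroup G) = S := sup_eq_right.2 hUS
  rw [hsup] at hi
  let z' : (S : Subgroup G) := ⟨z, hzW⟩
  let r' : (S : Subgroup G) := ⟨r, hUS hr⟩
  let U' : Subgroup (S : Subgroup G) := U.subgroupOf S
  have hU'n : U'.Normal := (normal_subgroupOf_iff_le_normalizer hUS).2 hWN
  let j : U' →* U := MonoidHom.mk' (fun w => ⟨((w : (S : Subgroup G)) : G), w.2⟩) (fun _ _ => rfl)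
  have hiter : ∀ k : ℕ, (((fun y : (S : Subgroup G) => y⁻¹ * z'⁻¹ * y * z')^[k] r' : (S : Subgroup G)) : G) =
      (fun y : G => y⁻¹ * z⁻¹ * y * z)^[k] r := by
    intro k
    induction k with
    | zero => rfl
    | succ k ih =>
      rw [Function.iterate_succ_apply', Function.iterate_succ_apply', ← ih]
      rfl
  refine Cfsg.Agent.Lib.WYWreath.wreath_image S.isPGroup' U' hU'n hi z' (ν.comp j) r' hr ?_
  have hmemU' := Cfsg.Agent.Lib.WYExt.iterate_mem U' z'
    (by rw [normalizer_eq_top_iff.2 hU'n]; trivial) r' hr (p - 1)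
  rw [Cfsg.Agent.Lib.WYCoc.ext_of_mem _ hmemU']
  intro h3
  apply hne
  have hmem : (fun y : G => y⁻¹ * z⁻¹ * y * z)^[p - 1] r ∈ U := by
    have := hmemU'
    rw [← hiter]
    exact this
  rw [Cfsg.Agent.Lib.WYCoc.ext_of_mem _ hmem]
  have h4 : (⟨(fun y : G => y⁻¹ * z⁻¹ * y * z)^[p - 1] r, hmem⟩ : U) =
      j ⟨(fun y : (S : Subgroup G) => y⁻¹ * z'⁻¹ * y * z')^[p - 1] r', hmemU'⟩ := by
    apply Subtype.ext
    exact (hiter (p - 1)).symm
  rw [h4]
  exact h3

end Cfsg.Agent.S2807
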