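import Mathlib
import Cfsg.Statements.S2951
import Cfsg.Agent.Lib.FFG27

set_option autoImplicit false
open Cfsg

namespace Cfsg.Agent.S2951

open Cfsg.Agent.Lib.FFG Cfsg.Agent.Lib.JCompStruct

/-- Let G be a finite group of characteristic 2 type in which every 2-local subgroup is solvable and the centralizer of Ω₁(Z(S)) lies in N_G(S) for every Sylow 2-subgroup S; suppose O₂(G) = 1, fix a Sylow 2-subgroup S and a 2-local subgroup M containing N_G(J(S)) (J the Thompson subgroup generated by the elementary abelian 2-subgroups of largest order), and put Z = Ω₁(Z(S)). Let T ≤ S be maximal (for the order of a largest elementary abelian subgroup, then the order of J(T), then the order of T) among the nontrivial 2-subgroups of M lying in a 2-local subgroup not inside M, K a J(T)-component not contained in M with J(T) the Thompson subgroup of every Sylow 2-subgroup of N_G(W_K) containing J(T), and O₂(⟨K, T⟩) ≠ 1, L a maximal 2-local subgroup containing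 ⟨K, J(T)⟩ (there is only one), and Z₀ = Ω₁(Z(J(T))). Then Z₀ ∩ W_K ≠ 1, and one of: Z = Z₀ has order 2; Z = Z₀ has order 4 and T = S; Ω₁(Z(T)) = Z₀ has order 4 and C_L(Z₀) has index 2 in N_G(Z₀). -/
theorem result {G : Type*} [Group G] [Finite G] (hL : Cfsg.IsCharacteristicTwoType G) (hN : ∀ N : Subgroup G, Cfsg.IsTwoLocal N → Group.IsSolvable ↥N)
    (hZ : ∀ S : Sylow 2 G, Subgroup.centralizer (Cfsg.omegaCenterOf (S : Subgroup G) : Set G) ≤ Subgroup.normalizer ((S : Subgroup G) : Set G)) (hO : Cfsg.pCore 2 G = ⊥) (S : Sylow 2 G) (M : Subgroup G) (hM : Cfsg.IsTwoLocal M)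
    (hMJ : Subgroup.normalizer (Cfsg.thompsonSubgroupOf 2 (S : Subgroup G) : Set G) ≤ M) (T : Subgroup G) (hT : T ∈ Cfsg.maxStraddlingTwoSubgroups M)
    (hTS : T ≤ (S : Subgroup G)) (K : Subgroup G) (hK : K ∈ Cfsg.jComponentsOutside M T)
    (L : Subgroup G) (hLmax : Cfsg.IsMaximalTwoLocal L) (hKL : K ⊔ Cfsg.thompsonSubgroupOf 2 T ≤ L)
    (Z Z₀ : Subgroup G) (hZdef : Z = Cfsg.omegaCenterOf (S : Subgroup G)) (hZ₀ : Z₀ = Cfsg.omegaCenterOf (Cfsg.thompsonSubgroupOf 2 T)) :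
    Z₀ ⊓ Cfsg.wOf K ≠ ⊥ ∧
      ((Z = Z₀ ∧ Nat.card ↥Z₀ = 2) ∨ (Z = Z₀ ∧ Nat.card ↥Z₀ = 4 ∧ T = (S : Subgroup G)) ∨
        (Cfsg.omegaCenterOf T = Z₀ ∧ Nat.card ↥Z₀ = 4 ∧
          (L ⊓ Subgroup.centralizer (Z₀ : Set G)).relIndex (Subgroup.normalizer (Z₀ : Set G)) = 2)) := by
  subst hZdef hZ₀
  have Z' : ZNH G := ⟨hL, hN, hZ⟩
  obtain ⟨L', htop, hLT⟩ := exists_topOf Z' hO S hM hMJ hT hK
  have hLL' : L' = L := hLmax.2 L' htop.hL.1 (htop.htop L hLmax.1 hKL)
  subst hLL'
  have hT2 : IsPGroup 2 T := hT.1.1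
  obtain ⟨k, w₁, w₂, hJ⟩ := exists_JCS hT2 hK.1.1
  have hw₁Z := jcs_w₁_omega hJ
  have hJT : thompsonSubgroupOf 2 T ≤ T := Cfsg.Agent.Lib.JCompBasic.thompsonSubgroupOf_le 2 T
  refine ⟨?_, ?_⟩
  · intro hb
    have h1 : w₁ ∈ omegaCenterOf (thompsonSubgroupOf 2 T) ⊓ wOf K := ⟨hw₁Z, hJ.hw₁⟩
    rw [hb] at h1
    exact hJ.hw₁1 (Subgroup.mem_bot.mp h1)
  by_cases hne : T = (S : Subgroup G)
  · subst hne
    obtain ⟨K', L'', hK', htop', hLT', hnot⟩ := exists_second Z' hO S hK.1.1 htop hLT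
    obtain ⟨k', a₁, a₂, hJ'⟩ := exists_JCS hT2 hK'
    have hf := fun (s : G) (hs : s ∈ (S : Subgroup G)) (z : G) (hz : z ∈ omegaCenterOf (thompsonSubgroupOf 2 (S : Subgroup G))) =>
      topsep Z' S hJ hJ' htop hLT.1.1 hnot hs hz
    have hZe : omegaCenterOf (S : Subgroup G) = omegaCenterOf (thompsonSubgroupOf 2 (S : Subgroup G)) :=
      le_antisymm (omega_le_Z₀ _) (fun z hz => omega_eq_of_fix S hJT hf hz)
    by_cases hex : ∃ c ∈ hpl (thompsonSubgroupOf 2 (S : Subgroup G)) K, c ≠ 1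
    · obtain ⟨c, hc, hc1⟩ := hex
      refine Or.inr (Or.inl ⟨hZe, Z₀_card_four hJ hc hc1 ?_, rfl⟩)
      intro y hy
      rcases hpl_small hJ' (fun c h3 h4 => hpl_sep htop hnot h3 h4) hy hc with h | h | h
      · exact Or.inl h
      · exact absurd h hc1
      · exact Or.inr h
    · push Not at hex
      exact Or.inl ⟨hZe, Z₀_card_two hJ hex⟩
  · obtain ⟨L₂, x, k₀, a₁, a₂, k₂, w₃, C⟩ := exists_TSC Z' hO S hM hMJ hT hTS hne hK
    have h1eq : L₂ = L' := htop.unique C.htop htop.K_le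
    subst h1eq
    have hcen : Subgroup.centralizer (T : Set G) ≤ T := centralizer_le_of_jover hLT
    by_cases hex : ∃ c ∈ hpl (thompsonSubgroupOf 2 T) K, c ≠ 1
    · obtain ⟨c, hc, hc1⟩ := hex
      refine Or.inr (Or.inr ⟨?_, Z₀_card_four C.hJ hc hc1 ?_, C.relIndex_eq_two Z' hc hc1⟩)
      · exact le_antisymm (omega_le_Z₀ T)
          (fun z hz => mem_omegaCenter (hJT (omegaCenter_mem hz).1) (fun t ht => C.Z₀_central ht hz) (omega_sq hz))
      · intro y hy
        rcases C.hsmall hy hc with h | h | h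
        · exact Or.inl h
        · exact absurd h hc1
        · exact Or.inr h
    · push Not at hex
      refine Or.inl ⟨?_, Z₀_card_two C.hJ hex⟩
      have hw₁Z' := jcs_w₁_omega C.hJ
      have hcases : ∀ {u : G}, u ∈ omegaCenterOf (thompsonSubgroupOf 2 T) → u = 1 ∨ u = a₁ := by
        intro u hu
        rcases jcs_decomp C.hJ hu with h1 | h1
        · exact Or.inl (hex u h1)
        · right
          have h2 := hex _ h1
          have h3 := omega_sq hw₁Z'
          calc u = u * (a₁ * a₁) := by rw [h3, mul_one]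
            _ = (u * a₁) * a₁ := by group
            _ = a₁ := by rw [h2, one_mul]
      obtain ⟨u₀, hu₀, hu₀1⟩ := exists_omega_ne_one S (hTS (hJT (omegaCenter_mem hw₁Z').1)) (omega_sq hw₁Z') C.hJ.hw₁1
      have hle := omega_le_omega hTS hcen
      have hu₀' := omega_le_Z₀ T (hle hu₀)
      apply le_antisymm (hle.trans (omega_le_Z₀ T))
      intro z hz
      rcases hcases hz with h | h
      · rw [h]; exact Subgroup.one_mem _
      · rcases hcases hu₀' with h3 | h3
        · exact absurd h3 hu₀1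
        · rw [h, ← h3]; exact hu₀


end Cfsg.Agent.S2951
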