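import Mathlib
import Cfsg.Statements.S3084
import Cfsg.Agent.Lib.HeisReal
-- import your own Cfsg.Agent.* helpers here

set_option autoImplicit false
open Cfsg

namespace Cfsg.Agent.S3084

/-- Let K be a group acting faithfully and linearly on a finite-dimensional vector space U of dimension 2n ≥ 2 over the field with two elements, preserving a quadratic form q whose polar bilinear form is non-degenerate and which vanishes on some n-dimensional subspace (a non-singular form of plus type). Then there is a finite group R with a normal extraspecial 2-subgroup Q of order 2^(2n+1), an isomorphism of R/Q with K, and a surjective homomorphism χ from Q onto (the additive group of) U with kernel the centre of Q, such that χ carries conjugation by any r in R to the action of the image of r in K, and an element a of Q squares to the identity exactly when q vanishes at χ(a). -/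
theorem result {K : Type*} [Group K] {U : Type*} [AddCommGroup U] [Module (ZMod 2) U] [Module.Finite (ZMod 2) U] (n : ℕ) (hn1 : 1 ≤ n) (hn : Module.finrank (ZMod 2) U = 2 * n) (ρ : Representation (ZMod 2) K U) (hρ : Function.Injective ρ) (q : QuadraticForm (ZMod 2) U) (hq : ∀ (k : K) (u : U), q (ρ k u) = q u) (hnd : (QuadraticMap.polarBilin q).Nondegenerate) (hplus : ∃ W : Submodule (ZMod 2) U, Module.finrank (ZMod 2) ↥W = n ∧ ∀ w ∈ W, q w = 0) : ∃ (R : Type) (_ : Group R) (_ : Finite R) (Q : Subgroup R) (hN : Q.Normal) (e : R ⧸ Q ≃* K) (χ : ↥Q →* Multiplicative U), Cfsg.IsExtraspecial 2 ↥Q ∧ Nat.card ↥Q = 2 ^ (2 * n + 1) ∧ Function.Surjective χ ∧ χ.ker = Subgroup.center ↥Q ∧ (∀ (r : R) (a : ↥Q), χ ⟨r * a * r⁻¹, hN.conj_mem (a : R) a.2 r⟩ = Multiplicative.ofAdd (ρ (e (r : R ⧸ Q)) (Multiplicative.toAdd (χ a)))) ∧ ∀ a : ↥Q, a * a = 1 ↔ q (Multiplicative.toAdd (χ a)) = 0 := by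
  classical
  obtain ⟨W, hWn, hW0⟩ := hplus
  obtain ⟨ψ, hψ⟩ := Cfsg.Agent.Lib.HeisReal.exists_hyperbolic n hn q hnd W hWn hW0
  have hUfin : Finite U := Module.finite_of_finite (ZMod 2)
  have hKfin : Finite K := by
    refine Finite.of_injective (fun k => (ρ k : U → U)) (fun a b h => hρ (DFunLike.coe_injective h))
  let G : K →* Module.End (ZMod 2) (Cfsg.Agent.Lib.HeisReal.V n) :=
    { toFun := fun k => ψ.toLinearMap ∘ₗ ρ k ∘ₗ ψ.symm.toLinearMap
      map_one' := by
        apply LinearMap.ext
        intro u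
        simp
      map_mul' := by
        intro a b
        apply LinearMap.ext
        intro u
        simp }
  have hGapp : ∀ k u, G k u = ψ (ρ k (ψ.symm u)) := fun _ _ => rfl
  have hG : Function.Injective G := by
    intro a b hab
    apply hρ
    apply LinearMap.ext
    intro u
    have := congrArg (fun f : Module.End (ZMod 2) (Cfsg.Agent.Lib.HeisReal.V n) => f (ψ u)) hab
    simp only [hGapp, LinearEquiv.symm_apply_apply] at this
    exact ψ.injective this
  have hqG : ∀ k u, Cfsg.Agent.Lib.HeisReal.q₀ (G k u) = Cfsg.Agent.Lib.HeisReal.q₀ u := by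
    intro k u
    rw [hGapp, ← hψ, hq, hψ, ψ.apply_symm_apply]
  obtain ⟨R, gR, fR, Q, hN, e, χ, h1, h2, h3, h4, h5, h6⟩ := Cfsg.Agent.Lib.HeisReal.model hn1 G hG hqG
  let Ψ : Multiplicative (Cfsg.Agent.Lib.HeisReal.V n) →* Multiplicative U :=
    AddMonoidHom.toMultiplicative ψ.symm.toLinearMap.toAddMonoidHom
  have hΨ : ∀ x, Ψ x = Multiplicative.ofAdd (ψ.symm (Multiplicative.toAdd x)) := fun _ => rfl
  refine ⟨R, gR, fR, Q, hN, e, Ψ.comp χ, h1, h2, ?_, ?_, ?_, ?_⟩
  · intro y
    obtain ⟨a, ha⟩ := h3 (Multiplicative.ofAdd (ψ (Multiplicative.toAdd y)))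
    refine ⟨a, ?_⟩
    rw [MonoidHom.comp_apply, ha, hΨ]
    simp
  · rw [← h4]
    ext a
    rw [MonoidHom.mem_ker, MonoidHom.mem_ker, MonoidHom.comp_apply, hΨ]
    constructor
    · intro h
      have h7 : ψ.symm (Multiplicative.toAdd (χ a)) = 0 := ofAdd_eq_one.1 h
      have h8 : Multiplicative.toAdd (χ a) = 0 := by
        simpa using h7
      exact toAdd_eq_zero.1 h8
    · intro h
      rw [h]
      simp
  · intro r a
    rw [MonoidHom.comp_apply, h5, hΨ, MonoidHom.comp_apply, hΨ, hGapp]
    simp
  · intro a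
    rw [h6, MonoidHom.comp_apply, hΨ, hψ]
    simp

end Cfsg.Agent.S3084
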