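import Mathlib
import Cfsg.Statements.S3085
import Cfsg.Agent.Lib.ExtraSqForm

set_option autoImplicit false
open Cfsg

namespace Cfsg.Agent.S3085

open Cfsg.Agent.Lib.ExtraSqForm

section basics

variable {P : Type*} [Group P] {c : P}

theorem comm_or (h : ES c) (x y : P) : x * y = y * x ∨ x * y = y * x * c := by
  rcases h.comm x y with h1 | h1
  · exact Or.inl (kap_eq_one_iff.mp h1)
  · right
    unfold kap at h1
    have h2 : x * y = c * (y * x) := by rw [← h1]; group
    rw [h2]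
    exact (h.cen _).symm

theorem not_comm (h : ES c) {x y : P} (hxy : ¬ x * y = y * x) : x * y = y * x * c :=
  (comm_or h x y).resolve_left hxy

theorem c_left (h : ES c) (x : P) : c * x = x * c := (h.cen x).symm

theorem mul_comm_comm {x y a : P} (hx : x * a = a * x) (hy : y * a = a * y) :
    (x * y) * a = a * (x * y) := by
  rw [mul_assoc, hy, ← mul_assoc, hx, mul_assoc]

theorem mul_comm_not (h : ES c) {x y a : P} (hx : x * a = a * x) (hy : ¬ y * a = a * y) :
    ¬ (x * y) * a = a * (x * y) := by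
  intro h1
  have h2 := not_comm h hy
  apply h.ne
  have h3 : x * y * a = a * (x * y) * c := by
    rw [mul_assoc, h2, ← mul_assoc, ← mul_assoc, hx, mul_assoc a x y]
  rw [h1] at h3
  exact (mul_left_cancel (a := a * (x * y)) (by rw [mul_one]; exact h3)).symm

theorem not_mul_comm (h : ES c) {x y a : P} (hx : ¬ x * a = a * x) (hy : y * a = a * y) :
    ¬ (x * y) * a = a * (x * y) := by
  intro h1
  have h2 := not_comm h hx
  apply h.ne
  have h3 : x * y * a = a * (x * y) * c := by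
    rw [mul_assoc, hy, ← mul_assoc, h2, mul_assoc, mul_assoc, mul_assoc, c_left h y]
    simp only [mul_assoc]
  rw [h1] at h3
  exact (mul_left_cancel (a := a * (x * y)) (by rw [mul_one]; exact h3)).symm

theorem not_not_comm (h : ES c) {x y a : P} (hx : ¬ x * a = a * x) (hy : ¬ y * a = a * y) :
    (x * y) * a = a * (x * y) := by
  have h2 := not_comm h hx
  have h3 := not_comm h hy
  calc (x * y) * a = x * (y * a) := by rw [mul_assoc]
    _ = x * (a * y * c) := by rw [h3]
    _ = (x * a) * y * c := by simp only [mul_assoc]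
    _ = (a * x * c) * y * c := by rw [h2]
    _ = a * x * (c * y) * c := by simp only [mul_assoc]
    _ = a * x * (y * c) * c := by rw [c_left h]
    _ = a * (x * y) * (c * c) := by simp only [mul_assoc]
    _ = a * (x * y) := by rw [h.sq_c, mul_one]

/-- right-hand versions -/
theorem comm_symm {x y : P} (hxy : x * y = y * x) : y * x = x * y := hxy.symm

theorem not_symm {x y : P} (hxy : ¬ x * y = y * x) : ¬ y * x = x * y := fun h => hxy h.symm

open Classical in
/-- `1` if `u` commutes with `a`, and `a` otherwise. -/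
noncomputable def pw (a u : P) : P := if u * a = a * u then 1 else a

theorem pw_of_comm {a u : P} (hu : u * a = a * u) : pw a u = 1 := by
  unfold pw; rw [if_pos hu]

theorem pw_of_not {a u : P} (hu : ¬ u * a = a * u) : pw a u = a := by
  unfold pw; rw [if_neg hu]

/-- the transvection function -/
noncomputable def tvFun (a u : P) : P := u * pw a u

theorem tvFun_mul (h : ES c) {a : P} (ha : a * a = c) (u v : P) :
    tvFun a (u * v) = tvFun a u * tvFun a v := by
  unfold tvFun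
  by_cases hu : u * a = a * u <;> by_cases hv : v * a = a * v
  · rw [pw_of_comm (mul_comm_comm hu hv), pw_of_comm hu, pw_of_comm hv]
    simp
  · rw [pw_of_not (mul_comm_not h hu hv), pw_of_comm hu, pw_of_not hv]
    simp [mul_assoc]
  · rw [pw_of_not (not_mul_comm h hu hv), pw_of_not hu, pw_of_comm hv]
    simp only [mul_one, mul_assoc, hv]
  · rw [pw_of_comm (not_not_comm h hu hv), pw_of_not hu, pw_of_not hv]
    have h3 : a * v = v * a * c := not_comm h (not_symm hv)
    calc u * v * 1 = u * v * (c * c) := by rw [h.sq_c]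
      _ = u * (v * (a * a) * c) := by rw [ha]; simp only [mul_assoc]
      _ = u * ((v * a * c) * a) := by
          simp only [mul_assoc]
          rw [c_left h a]
      _ = u * ((a * v) * a) := by rw [h3]
      _ = u * a * (v * a) := by simp only [mul_assoc]

theorem pw_comm_right {a b u : P} (hab : a * b = b * a) : pw b u * a = a * pw b u := by
  by_cases hu : u * b = b * u
  · rw [pw_of_comm hu]; simp
  · rw [pw_of_not hu]; exact hab.symm

/-- the transvection automorphism -/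
noncomputable def tvHom (h : ES c) {a : P} (ha : a * a = c) : P →* P :=
  MonoidHom.mk' (tvFun a) (tvFun_mul h ha)

theorem tvHom_inj (h : ES c) {a : P} (ha : a * a = c) :
    Function.Injective (tvHom h ha) := by
  rw [injective_iff_map_eq_one]
  intro u hu
  change tvFun a u = 1 at hu
  unfold tvFun at hu
  by_cases hc : u * a = a * u
  · rwa [pw_of_comm hc, mul_one] at hu
  · rw [pw_of_not hc] at hu
    exfalso
    apply hc
    have : u = a⁻¹ := eq_inv_of_mul_eq_one_left hu
    rw [this]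
    group

variable [Finite P]

noncomputable def tv (h : ES c) {a : P} (ha : a * a = c) : MulAut P :=
  MulEquiv.ofBijective (tvHom h ha) (Finite.injective_iff_bijective.mp (tvHom_inj h ha))

theorem tv_apply (h : ES c) {a : P} (ha : a * a = c) (u : P) : tv h ha u = u * pw a u := rfl

theorem tv_sq (h : ES c) {a : P} (ha : a * a = c) : tv h ha * tv h ha = MulAut.conj a := by
  refine MulEquiv.ext fun u => ?_
  rw [MulAut.mul_apply, MulAut.conj_apply, tv_apply, tv_apply]
  by_cases hu : u * a = a * u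
  · rw [pw_of_comm hu, mul_one, pw_of_comm hu, mul_one, ← hu]
    group
  · rw [pw_of_not hu]
    have h1 := not_comm h hu
    have h2 : ¬ (u * a) * a = a * (u * a) := not_mul_comm h hu rfl
    rw [pw_of_not h2]
    have h3 : a * u = u * a * c := not_comm h (not_symm hu)
    rw [h3, mul_assoc u a a, ha, mul_assoc, mul_assoc, c_left h a⁻¹, ← mul_assoc a, mul_inv_cancel,
      one_mul]

theorem tv_pw (h : ES c) {a b : P} (ha : a * a = c) (hab : a * b = b * a) (u v : P) :
    tv h ha (v * pw b u) = tv h ha v * pw b u := by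
  rw [map_mul]
  congr 1
  rw [tv_apply, pw_of_comm (pw_comm_right hab), mul_one]

theorem tv_tv (h : ES c) {a b : P} (ha : a * a = c) (hb : b * b = c) (hab : a * b = b * a) (u : P) :
    tv h ha (tv h hb u) = u * pw a u * pw b u := by
  rw [tv_apply h hb, tv_pw h ha hab, tv_apply]

theorem pw_comm_pw {a b : P} (hab : a * b = b * a) (u v : P) :
    pw a u * pw b v = pw b v * pw a u := by
  by_cases hu : u * a = a * u <;> by_cases hv : v * b = b * v
  · rw [pw_of_comm hu, pw_of_comm hv]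
  · rw [pw_of_comm hu, pw_of_not hv]; simp
  · rw [pw_of_not hu, pw_of_comm hv]; simp
  · rw [pw_of_not hu, pw_of_not hv]; exact hab

theorem tv_comm (h : ES c) {a b : P} (ha : a * a = c) (hb : b * b = c) (hab : a * b = b * a) :
    tv h ha * tv h hb = tv h hb * tv h ha := by
  refine MulEquiv.ext fun u => ?_
  rw [MulAut.mul_apply, MulAut.mul_apply, tv_tv h ha hb hab, tv_tv h hb ha hab.symm, mul_assoc,
    mul_assoc, pw_comm_pw hab]

end basics

section cw

variable {W : Type*} [CommGroup W]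

theorem cw_one {A E₁ : W} (hsq : ∀ x : W, x * x = 1) {p₁ p₂ : W} (hp₁ : p₁ = 1 ∨ p₁ = A)
    (hp₂ : p₂ = 1 ∨ p₂ = A * E₁) (hA : A ≠ 1) (hE₁ : E₁ ≠ 1) (hAE₁ : A * E₁ ≠ 1)
    (he : p₁ * p₂ * (A * (A * E₁)) = 1) : p₂ = A * E₁ := by
  have hsq' : ∀ x y : W, x * (x * y) = y := fun x y => by rw [← mul_assoc, hsq, one_mul]
  rcases hp₁ with rfl | rfl <;> rcases hp₂ with rfl | rfl
  · simp only [one_mul, hsq'] at he
    exact absurd he hE₁
  · rfl
  · exfalso
    simp only [mul_one, hsq'] at he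
    exact hAE₁ he
  · rfl

theorem cw_two {A E₁ E₂ : W} (hsq : ∀ x : W, x * x = 1) {q₂ q₃ q₄ : W}
    (h₂ : q₂ = 1 ∨ q₂ = A * E₁) (h₃ : q₃ = 1 ∨ q₃ = A * E₂) (h₄ : q₄ = 1 ∨ q₄ = A * E₁ * E₂)
    (hA : A ≠ 1) (hE₁ : E₁ ≠ 1) (hE₂ : E₂ ≠ 1) (hE₁₂ : E₁ * E₂ ≠ 1)
    (hAE₁ : A * E₁ ≠ 1) (hAE₂ : A * E₂ ≠ 1) (hAE₁₂ : A * (E₁ * E₂) ≠ 1)
    (he : q₂ * q₃ * q₄ * (A * E₁ * (A * E₂) * (A * E₁ * E₂)) = 1) :
    q₂ = A * E₁ ∧ q₃ = A * E₂ ∧ q₄ = A * E₁ * E₂ := by
  have hsq' : ∀ x y : W, x * (x * y) = y := fun x y => by rw [← mul_assoc, hsq, one_mul]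
  rcases h₂ with rfl | rfl <;> rcases h₃ with rfl | rfl <;> rcases h₄ with rfl | rfl
  all_goals first
    | exact ⟨rfl, rfl, rfl⟩
    | (exfalso
       simp only [mul_assoc, mul_comm, mul_left_comm, hsq, hsq', one_mul, mul_one] at he
       first
        | exact hA he
        | exact hE₁ he
        | exact hE₂ he
        | exact hE₁₂ he
        | exact hAE₁ he
        | exact hAE₂ he
        | exact hAE₁₂ he)

theorem cw_three {A E₁ E₂ : W} (hsq : ∀ x : W, x * x = 1) {r₃ r₄ : W}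
    (h₃ : r₃ = 1 ∨ r₃ = A * E₂) (h₄ : r₄ = 1 ∨ r₄ = A * E₁ * E₂)
    (hA : A ≠ 1) (hE₂ : E₂ ≠ 1) (hE₁₂ : E₁ * E₂ ≠ 1) (hAE₁ : A * E₁ ≠ 1)
    (he : A * (A * E₁) * (A * E₁ * r₃ * r₄) = 1) : False := by
  have hsq' : ∀ x y : W, x * (x * y) = y := fun x y => by rw [← mul_assoc, hsq, one_mul]
  rcases h₃ with rfl | rfl <;> rcases h₄ with rfl | rfl
  all_goals
    simp only [mul_assoc, mul_comm, mul_left_comm, hsq, hsq', one_mul, mul_one] at he
    first
      | exact hA he
      | exact hE₂ he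
      | exact hE₁₂ he
      | exact hAE₁ he

end cw

section data

variable {P : Type*} [Group P] [Finite P] {c : P}

theorem exists_not_mem (D : Subgroup P) (S : Finset P) (hS : S.card < Nat.card D) :
    ∃ x ∈ D, x ∉ S := by
  classical
  by_contra hcon
  push Not at hcon
  have hle : Nat.card D ≤ S.card := by
    have hf : Function.Injective (fun x : D => (⟨x.1, hcon x.1 x.2⟩ : S)) := by
      intro x y hxy
      exact Subtype.ext (congrArg (fun z : S => (z : P)) hxy)
    have := Nat.card_le_card_of_injective _ hf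
    simpa using this
  omega

theorem card_le_two_mul (h : ES c) (E : Subgroup P) (y e : P) (he : e ∈ E)
    (hey : ¬ e * y = y * e) :
    Nat.card E ≤ 2 * Nat.card ↥(E ⊓ Subgroup.centralizer ({y} : Set P)) := by
  classical
  set D := E ⊓ Subgroup.centralizer ({y} : Set P) with hD
  have hmemD : ∀ x : P, x ∈ D ↔ x ∈ E ∧ x * y = y * x := by
    intro x
    rw [hD, Subgroup.mem_inf, Subgroup.mem_centralizer_singleton_iff]
  have hstep : ∀ x : E, (x : P) ∉ D → e * x ∈ D := by
    intro x hx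
    have hx2 : ¬ (x : P) * y = y * x := fun h1 => hx ((hmemD _).2 ⟨x.2, h1⟩)
    exact (hmemD _).2 ⟨E.mul_mem he x.2, not_not_comm h hey hx2⟩
  let f : E → D × Bool := fun x =>
    if hx : (x : P) ∈ D then (⟨x, hx⟩, false) else (⟨e * x, hstep x hx⟩, true)
  have hf : Function.Injective f := by
    intro x₁ x₂ h12
    by_cases h1 : (x₁ : P) ∈ D <;> by_cases h2 : (x₂ : P) ∈ D
    · simp only [f, dif_pos h1, dif_pos h2, Prod.mk.injEq] at h12
      exact Subtype.ext (by simpa using h12.1)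
    · simp [f, dif_pos h1, dif_neg h2] at h12
    · simp [f, dif_neg h1, dif_pos h2] at h12
    · simp only [f, dif_neg h1, dif_neg h2, Prod.mk.injEq] at h12
      have := congrArg Subtype.val h12.1
      exact Subtype.ext (mul_left_cancel this)
  have := Nat.card_le_card_of_injective f hf
  rw [Nat.card_prod, Nat.card_eq_fintype_card (α := Bool), Fintype.card_bool] at this
  omega

theorem exists_data (h : ES c) (E : Subgroup P) (hab : IsMulCommutative E)
    (hsq : ∀ a ∈ E, a ^ 2 = 1) (hcard : 16 ≤ Nat.card E) :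
    ∃ a e₁ e₂ : P, a * a = c ∧ e₁ * e₁ = 1 ∧ e₂ * e₂ = 1 ∧ a * e₁ = e₁ * a ∧ a * e₂ = e₂ * a ∧
      e₁ * e₂ = e₂ * e₁ ∧ e₁ ≠ 1 ∧ e₁ ≠ c ∧ e₂ ≠ 1 ∧ e₂ ≠ c ∧ e₂ ≠ e₁ ∧ e₂ ≠ e₁ * c := by
  classical
  have hcommE : ∀ x ∈ E, ∀ y ∈ E, x * y = y * x := by
    intro x hx y hy
    have := hab.is_comm.comm (⟨x, hx⟩ : E) ⟨y, hy⟩
    exact congrArg Subtype.val this
  have hsq2 : ∀ x ∈ E, x * x = 1 := fun x hx => by rw [← pow_two]; exact hsq x hx
  obtain ⟨e, heE, hes⟩ := exists_not_mem E {1, c} (by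
    refine lt_of_le_of_lt (Finset.card_le_two) (by omega))
  have he1 : e ≠ 1 := fun h1 => hes (by simp [h1])
  have hec : e ≠ c := fun h1 => hes (by simp [h1])
  have hnc : ¬ ∀ y, e * y = y * e := fun h1 => (h.central e h1).elim he1 hec
  push Not at hnc
  obtain ⟨y, hy⟩ := hnc
  have hD := card_le_two_mul h E y e heE hy
  set D := E ⊓ Subgroup.centralizer ({y} : Set P) with hDdef
  have hDmem : ∀ x ∈ D, x ∈ E ∧ x * y = y * x := by
    intro x hx
    have h1 := Subgroup.mem_inf.mp hx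
    refine ⟨h1.1, ?_⟩
    have := Subgroup.mem_centralizer_singleton_iff.mp h1.2
    exact this
  -- the element `a`
  have hya : ∃ a : P, a * a = c ∧ ∀ x ∈ D, a * x = x * a := by
    have hey : e * y = y * e * c := not_comm h hy
    rcases h.sq y with h1 | h1
    · refine ⟨y * e, ?_, ?_⟩
      · rw [pow_two] at h1
        calc y * e * (y * e) = y * (e * y) * e := by group
          _ = y * (y * e * c) * e := by rw [hey]
          _ = y * y * (e * c * e) := by group
          _ = y * y * (e * (c * e)) := by group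
          _ = y * y * (e * (e * c)) := by rw [c_left h e]
          _ = y * y * (e * e) * c := by group
          _ = c := by rw [h1, hsq2 e heE]; simp
      · intro x hx
        obtain ⟨hxE, hxy⟩ := hDmem x hx
        rw [mul_assoc, hcommE e heE x hxE, ← mul_assoc, ← hxy, mul_assoc]
    · refine ⟨y, by rw [← pow_two]; exact h1, ?_⟩
      intro x hx
      exact ((hDmem x hx).2).symm
  obtain ⟨a, ha, haD⟩ := hya
  have hD8 : 8 ≤ Nat.card D := by omega
  obtain ⟨e₁, he₁D, he₁s⟩ := exists_not_mem D {1, c} (by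
    refine lt_of_le_of_lt (Finset.card_le_two) (by omega))
  obtain ⟨e₂, he₂D, he₂s⟩ := exists_not_mem D {1, c, e₁, e₁ * c} (by
    refine lt_of_le_of_lt (Finset.card_le_four) (by omega))
  simp only [Finset.mem_insert, Finset.mem_singleton, not_or] at he₁s he₂s
  refine ⟨a, e₁, e₂, ha, hsq2 _ (hDmem _ he₁D).1, hsq2 _ (hDmem _ he₂D).1, haD _ he₁D, haD _ he₂D,
    hcommE _ (hDmem _ he₁D).1 _ (hDmem _ he₂D).1, he₁s.1, he₁s.2, he₂s.1, he₂s.2.1, he₂s.2.2.1,
    he₂s.2.2.2⟩

end data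

section main

variable {P : Type*} [Group P] [Finite P] {c : P}

theorem conj_swap (X : MulAut P) (g : P) :
    X * MulAut.conj g = MulAut.conj (X g) * X := by
  refine MulEquiv.ext fun x => ?_
  simp [MulAut.mul_apply, MulAut.conj_apply]

theorem tv_fix (h : ES c) {a b : P} (ha : a * a = c) (hab : a * b = b * a) (u : P) :
    tv h ha (pw b u) = pw b u := by
  rw [tv_apply, pw_of_comm (pw_comm_right hab), mul_one]

theorem pw_cases {W : Type*} [Group W] (π : P →* W) (a u : P) : π (pw a u) = 1 ∨ π (pw a u) = π a := by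
  by_cases hu : u * a = a * u
  · left; rw [pw_of_comm hu, map_one]
  · right; rw [pw_of_not hu]

theorem pw_eq_of_ne {W : Type*} [Group W] (π : P →* W) {a u : P} (h1 : π a ≠ 1)
    (h2 : π (pw a u) = π a) : ¬ u * a = a * u := by
  intro hu
  rw [pw_of_comm hu, map_one] at h2
  exact h1 h2.symm

/-- the core contradiction -/
theorem no_complement_core (h : ES c) {W : Type*} [CommGroup W] (π : P →* W)
    (hsqW : ∀ x : W, x * x = 1) (hker : ∀ x : P, π x = 1 ↔ x = 1 ∨ x = c)
    {a₁ a₂ a₃ a₄ : P} (s₁ : a₁ * a₁ = c) (s₂ : a₂ * a₂ = c) (s₃ : a₃ * a₃ = c) (s₄ : a₄ * a₄ = c)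
    (c12 : a₁ * a₂ = a₂ * a₁) (c13 : a₁ * a₃ = a₃ * a₁) (c14 : a₁ * a₄ = a₄ * a₁)
    (c23 : a₂ * a₃ = a₃ * a₂) (c24 : a₂ * a₄ = a₄ * a₂) (c34 : a₃ * a₄ = a₄ * a₃)
    (hrel : a₁ * a₂ * a₃ = a₄ * c)
    {A E₁ E₂ : W} (h1 : π a₁ = A) (h2 : π a₂ = A * E₁) (h3 : π a₃ = A * E₂) (h4 : π a₄ = A * E₁ * E₂)
    (hA : A ≠ 1) (hE₁ : E₁ ≠ 1) (hE₂ : E₂ ≠ 1) (hE₁₂ : E₁ * E₂ ≠ 1)
    (hAE₁ : A * E₁ ≠ 1) (hAE₂ : A * E₂ ≠ 1) (hAE₁₂ : A * (E₁ * E₂) ≠ 1)
    (L : Subgroup (MulAut P)) (hc : (Cfsg.Inn P).IsComplement' L) : False := by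
  classical
  have hinv : ∀ x : W, x⁻¹ = x := fun x => inv_eq_of_mul_eq_one_left (hsqW x)
  have hdisj : ∀ x : MulAut P, x ∈ Cfsg.Inn P → x ∈ L → x = 1 := fun x hx hx' =>
    Subgroup.disjoint_def.mp hc.disjoint hx hx'
  have hconj : ∀ w : P, MulAut.conj w ∈ L → π w = 1 := by
    intro w hw
    have h5 : MulAut.conj w = 1 := hdisj _ ⟨w, rfl⟩ hw
    rw [hker]
    refine h.central w fun y => ?_
    have h6 := congrArg (fun f : MulAut P => f y) h5
    simp only [MulAut.conj_apply, MulAut.one_apply] at h6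
    exact (mul_inv_eq_iff_eq_mul.mp h6)
  have hdecomp : ∀ X : MulAut P, ∃ u : P, MulAut.conj u * X ∈ L := by
    intro X
    obtain ⟨⟨⟨i, hi⟩, ⟨l, hl⟩⟩, hil⟩ := hc.2 X
    obtain ⟨u, rfl⟩ := hi
    refine ⟨u⁻¹, ?_⟩
    have : X = MulAut.conj u * l := hil.symm
    rw [this, map_inv, inv_mul_cancel_left]
    exact hl
  -- the automorphisms
  set t₁ := tv h s₁ with ht₁
  set t₂ := tv h s₂ with ht₂
  set t₃ := tv h s₃ with ht₃
  set t₄ := tv h s₄ with ht₄
  have T12 : Commute t₁ t₂ := tv_comm h s₁ s₂ c12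
  have T13 : Commute t₁ t₃ := tv_comm h s₁ s₃ c13
  have T14 : Commute t₁ t₄ := tv_comm h s₁ s₄ c14
  have T23 : Commute t₂ t₃ := tv_comm h s₂ s₃ c23
  have T24 : Commute t₂ t₄ := tv_comm h s₂ s₄ c24
  have T34 : Commute t₃ t₄ := tv_comm h s₃ s₄ c34
  have hc12 : Commute a₁ a₂ := c12
  have hc23 : Commute a₂ a₃ := c23
  have hc24 : Commute a₂ a₄ := c24
  have hc34 : Commute a₃ a₄ := c34
  have Q1 : t₁ * t₁ = MulAut.conj a₁ := tv_sq h s₁
  have Q2 : t₂ * t₂ = MulAut.conj a₂ := tv_sq h s₂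
  have Q3 : t₃ * t₃ = MulAut.conj a₃ := tv_sq h s₃
  have Q4 : t₄ * t₄ = MulAut.conj a₄ := tv_sq h s₄
  set X : MulAut P := t₁ * t₂ with hX
  set Y : MulAut P := t₂ * (t₃ * t₄) with hY
  have hXa : ∀ u, X u = u * pw a₁ u * pw a₂ u := fun u => by
    rw [hX, MulAut.mul_apply]; exact tv_tv h s₁ s₂ c12 u
  have hYa : ∀ u, Y u = u * pw a₂ u * pw a₃ u * pw a₄ u := fun u => by
    rw [hY, MulAut.mul_apply, MulAut.mul_apply]
    have e1 : t₃ (t₄ u) = u * pw a₃ u * pw a₄ u := tv_tv h s₃ s₄ c34 u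
    rw [e1, map_mul, map_mul]
    have e2 : t₂ (pw a₃ u) = pw a₃ u := tv_fix h s₂ c23 u
    have e3 : t₂ (pw a₄ u) = pw a₄ u := tv_fix h s₂ c24 u
    rw [e2, e3]
    rfl
  have hXX : X * X = MulAut.conj (a₁ * a₂) := by
    rw [map_mul, ← Q1, ← Q2, hX]
    exact T12.symm.mul_mul_mul_comm t₁ t₂
  have hYY : Y * Y = MulAut.conj (a₂ * a₃ * a₄) := by
    rw [map_mul, map_mul, ← Q2, ← Q3, ← Q4, hY]
    have e1 : t₃ * t₄ * (t₃ * t₄) = t₃ * t₃ * (t₄ * t₄) := T34.symm.mul_mul_mul_comm t₃ t₄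
    have C : Commute t₂ (t₃ * t₄) := T23.mul_right T24
    rw [C.symm.mul_mul_mul_comm, e1]
    simp only [mul_assoc]
  have hXY : X * Y = Y * X := by
    have C : Commute X Y := by
      refine Commute.mul_left ?_ ?_
      · exact T12.mul_right (T13.mul_right T14)
      · exact (Commute.refl t₂).mul_right (T23.mul_right T24)
    exact C
  obtain ⟨u, hu⟩ := hdecomp X
  obtain ⟨v, hv⟩ := hdecomp Y
  have eφ : (MulAut.conj u * X) * (MulAut.conj u * X)
      = MulAut.conj (u * X u * (a₁ * a₂)) := by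
    rw [map_mul, map_mul, ← hXX]
    calc MulAut.conj u * X * (MulAut.conj u * X)
        = MulAut.conj u * (X * MulAut.conj u) * X := by group
      _ = MulAut.conj u * (MulAut.conj (X u) * X) * X := by rw [conj_swap]
      _ = _ := by group
  have eψ : (MulAut.conj v * Y) * (MulAut.conj v * Y)
      = MulAut.conj (v * Y v * (a₂ * a₃ * a₄)) := by
    rw [map_mul, map_mul, ← hYY]
    calc MulAut.conj v * Y * (MulAut.conj v * Y)
        = MulAut.conj v * (Y * MulAut.conj v) * Y := by group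
      _ = MulAut.conj v * (MulAut.conj (Y v) * Y) * Y := by rw [conj_swap]
      _ = _ := by group
  have e1 := hconj _ (by rw [← eφ]; exact L.mul_mem hu hu)
  have e2 := hconj _ (by rw [← eψ]; exact L.mul_mem hv hv)
  rw [hXa, map_mul, map_mul, map_mul, map_mul, map_mul, h1, h2] at e1
  rw [hYa, map_mul, map_mul, map_mul, map_mul, map_mul, map_mul, map_mul, h2, h3, h4] at e2
  have hp₂ : π (pw a₂ u) = A * E₁ := by
    refine cw_one hsqW (p₁ := π (pw a₁ u)) ?_ ?_ hA hE₁ hAE₁ ?_
    · rw [← h1]; exact pw_cases π a₁ u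
    · rw [← h2]; exact pw_cases π a₂ u
    · have e3 : π u * (π u * π (pw a₁ u) * π (pw a₂ u)) * (A * (A * E₁))
          = (π u * π u) * (π (pw a₁ u) * π (pw a₂ u) * (A * (A * E₁))) := by ac_rfl
      rw [e3, hsqW, one_mul] at e1
      exact e1
  have hq := cw_two hsqW (q₂ := π (pw a₂ v)) (q₃ := π (pw a₃ v)) (q₄ := π (pw a₄ v))
    (by rw [← h2]; exact pw_cases π a₂ v) (by rw [← h3]; exact pw_cases π a₃ v)
    (by rw [← h4]; exact pw_cases π a₄ v) hA hE₁ hE₂ hE₁₂ hAE₁ hAE₂ hAE₁₂ (by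
      have e3 : π v * (π v * π (pw a₂ v) * π (pw a₃ v) * π (pw a₄ v)) *
            (A * E₁ * (A * E₂) * (A * E₁ * E₂))
          = (π v * π v) * (π (pw a₂ v) * π (pw a₃ v) * π (pw a₄ v) *
            (A * E₁ * (A * E₂) * (A * E₁ * E₂))) := by ac_rfl
      rw [e3, hsqW, one_mul] at e2
      exact e2)
  obtain ⟨hq₂, hq₃, hq₄⟩ := hq
  have hne2 : π a₂ ≠ 1 := by rw [h2]; exact hAE₁
  have hne3 : π a₃ ≠ 1 := by rw [h3]; exact hAE₂
  have hne4 : π a₄ ≠ 1 := by rw [h4, mul_assoc]; exact hAE₁₂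
  have nc2 : ¬ v * a₂ = a₂ * v := pw_eq_of_ne π hne2 (by rw [hq₂, h2])
  have nc3 : ¬ v * a₃ = a₃ * v := pw_eq_of_ne π hne3 (by rw [hq₃, h3])
  have nc4 : ¬ v * a₄ = a₄ * v := pw_eq_of_ne π hne4 (by rw [hq₄, h4])
  have nc1 : ¬ v * a₁ = a₁ * v := by
    intro h5
    have h6 : ¬ (a₁ * a₂) * v = v * (a₁ * a₂) :=
      mul_comm_not h h5.symm (not_symm nc2)
    have h7 : ((a₁ * a₂) * a₃) * v = v * ((a₁ * a₂) * a₃) := not_not_comm h h6 (not_symm nc3)
    rw [hrel] at h7
    apply nc4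
    have h8 : a₄ * c * v = a₄ * v * c := by rw [mul_assoc, c_left h, mul_assoc]
    rw [h8, ← mul_assoc] at h7
    exact (mul_right_cancel h7).symm
  have hs₁ : π (pw a₁ v) = A := by rw [pw_of_not nc1, h1]
  -- commutator relation
  have eφψ : (MulAut.conj u * X) * (MulAut.conj v * Y) = MulAut.conj (u * X v) * (X * Y) := by
    rw [map_mul]
    calc MulAut.conj u * X * (MulAut.conj v * Y)
        = MulAut.conj u * (X * MulAut.conj v) * Y := by group
      _ = MulAut.conj u * (MulAut.conj (X v) * X) * Y := by rw [conj_swap]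
      _ = _ := by group
  have eψφ : (MulAut.conj v * Y) * (MulAut.conj u * X) = MulAut.conj (v * Y u) * (X * Y) := by
    rw [map_mul, hXY]
    calc MulAut.conj v * Y * (MulAut.conj u * X)
        = MulAut.conj v * (Y * MulAut.conj u) * X := by group
      _ = MulAut.conj v * (MulAut.conj (Y u) * Y) * X := by rw [conj_swap]
      _ = _ := by group
  have e4 : MulAut.conj (u * X v * (v * Y u)⁻¹) ∈ L := by
    have h9 : MulAut.conj (u * X v * (v * Y u)⁻¹)
        = ((MulAut.conj u * X) * (MulAut.conj v * Y)) *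
          ((MulAut.conj v * Y) * (MulAut.conj u * X))⁻¹ := by
      rw [eφψ, eψφ, map_mul, map_inv, mul_inv_rev, mul_assoc, mul_inv_cancel_left]
    rw [h9]
    exact L.mul_mem (L.mul_mem hu hv) (L.inv_mem (L.mul_mem hv hu))
  have e5 := hconj _ e4
  rw [map_mul, map_inv, hinv, map_mul, map_mul, hXa, hYa, map_mul, map_mul, map_mul, map_mul, map_mul,
    hs₁, hq₂, hp₂] at e5
  refine cw_three hsqW (r₃ := π (pw a₃ u)) (r₄ := π (pw a₄ u))
    (by rw [← h3]; exact pw_cases π a₃ u) (by rw [← h4]; exact pw_cases π a₄ u) hA hE₂ hE₁₂ hAE₁ ?_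
  have e6 : π u * (π v * A * (A * E₁)) * (π v * (π u * (A * E₁) * π (pw a₃ u) * π (pw a₄ u)))
      = (π u * π u) * (π v * π v) * (A * (A * E₁) * (A * E₁ * π (pw a₃ u) * π (pw a₄ u))) := by
    ac_rfl
  rw [e6, hsqW, hsqW, one_mul, one_mul] at e5
  exact e5

end main

/-- Let Q be an extraspecial 2-group of order 2^(2n+1) with n ≥ 3 that is of plus type (it contains an elementary abelian subgroup of order 2^(n+1)). Then the group of inner automorphisms of Q has no complement in the full automorphism group of Q: the extension of the inner automorphism group (elementary abelian of order 2^(2n)) by the outer automorphism group (the orthogonal group of plus type) does not split. -/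
theorem result {Q : Type*} [Group Q] [Finite Q] (n : ℕ) (hn : 3 ≤ n) (hQ : Cfsg.IsExtraspecial 2 Q) (hcard : Nat.card Q = 2 ^ (2 * n + 1)) (hplus : ∃ E : Subgroup Q, Cfsg.IsElementaryAbelian 2 E ∧ Nat.card ↥E = 2 ^ (n + 1)) (L : Subgroup (MulAut Q)) : ¬ (Cfsg.Inn Q).IsComplement' L := by
  intro hc
  classical
  obtain ⟨c, hES, hcen⟩ := exists_ES hQ
  obtain ⟨E, ⟨hab, hsq⟩, hEcard⟩ := hplus
  have h16 : 16 ≤ Nat.card E := by
    rw [hEcard]
    calc 16 = 2 ^ 4 := by norm_num
      _ ≤ 2 ^ (n + 1) := Nat.pow_le_pow_right (by norm_num) (by omega)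
  obtain ⟨a, e₁, e₂, ha, he₁, he₂, hae₁, hae₂, he₁₂, h11, h12, h21, h22, h23, h24⟩ :=
    exists_data hES E hab hsq h16
  have hcomm : commutator Q = Subgroup.center Q := hQ.1.2.2
  have hker : ∀ x : Q, (Abelianization.of : Q →* Abelianization Q) x = 1 ↔ x = 1 ∨ x = c := by
    intro x
    have h3 : ((Abelianization.of : Q →* Abelianization Q) x = 1) ↔
        x ∈ (Abelianization.of : Q →* Abelianization Q).ker := Iff.rfl
    rw [h3, Abelianization.ker_of, hcomm, hcen]
  have hsqW : ∀ x : Abelianization Q, x * x = 1 := by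
    intro x
    induction x using QuotientGroup.induction_on with
    | H x =>
      have h1 : (Abelianization.of x) * (Abelianization.of x) = 1 := by
        rw [← map_mul, hker]
        have := hES.sq x
        rwa [pow_two] at this
      exact h1
  set π : Q →* Abelianization Q := Abelianization.of with hπ
  have C1 : Commute a e₁ := hae₁
  have C2 : Commute a e₂ := hae₂
  have C3 : Commute e₁ e₂ := he₁₂
  have s₂ : (a * e₁) * (a * e₁) = c := by
    rw [C1.symm.mul_mul_mul_comm, ha, he₁, mul_one]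
  have s₃ : (a * e₂) * (a * e₂) = c := by
    rw [C2.symm.mul_mul_mul_comm, ha, he₂, mul_one]
  have C4 : Commute (a * e₁) e₂ := C2.mul_left C3
  have s₄ : (a * e₁ * e₂) * (a * e₁ * e₂) = c := by
    rw [C4.symm.mul_mul_mul_comm, s₂, he₂, mul_one]
  have hnot : ∀ x : Q, x * x = c → π x ≠ 1 := by
    intro x hx hx1
    rcases (hker x).mp hx1 with rfl | rfl
    · rw [mul_one] at hx
      exact hES.ne hx.symm
    · rw [hES.sq_c] at hx
      exact hES.ne hx.symm
  have hrel : a * (a * e₁) * (a * e₂) = a * e₁ * e₂ * c := by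
    calc a * (a * e₁) * (a * e₂) = (a * a) * (e₁ * a) * e₂ := by group
      _ = c * (a * e₁) * e₂ := by rw [ha, hae₁]
      _ = (a * e₁) * c * e₂ := by rw [c_left hES]
      _ = (a * e₁) * (c * e₂) := by group
      _ = (a * e₁) * (e₂ * c) := by rw [c_left hES]
      _ = a * e₁ * e₂ * c := by group
  refine no_complement_core hES π hsqW hker ha s₂ s₃ s₄
    ((Commute.refl a).mul_right C1) ((Commute.refl a).mul_right C2)
    (((Commute.refl a).mul_right C1).mul_right C2)
    (?_) (?_) (?_) hrel (A := π a) (E₁ := π e₁) (E₂ := π e₂) rfl (map_mul _ _ _)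
    (map_mul _ _ _) (by rw [map_mul, map_mul]) (hnot a ha) ?_ ?_ ?_ ?_ ?_ ?_ L hc
  · exact Commute.mul_left ((Commute.refl a).mul_right C2) (C1.symm.mul_right C3)
  · exact (Commute.refl (a * e₁)).mul_right C4
  · have C5 : Commute (a * e₂) (a * e₁) :=
      (Commute.mul_left ((Commute.refl a).mul_right C2) (C1.symm.mul_right C3)).symm
    exact C5.mul_right (C2.mul_left (Commute.refl e₂))
  · intro h1
    rcases (hker e₁).mp h1 with h2 | h2
    · exact h11 h2
    · exact h12 h2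
  · intro h1
    rcases (hker e₂).mp h1 with h2 | h2
    · exact h21 h2
    · exact h22 h2
  · intro h1
    rw [← map_mul] at h1
    have hinv₁ : e₁⁻¹ = e₁ := inv_eq_of_mul_eq_one_left he₁
    rcases (hker _).mp h1 with h2 | h2
    · apply h23
      have := eq_inv_of_mul_eq_one_right h2
      rw [this, hinv₁]
    · apply h24
      have h3 : e₂ = e₁⁻¹ * c := by rw [← h2]; group
      rw [h3, hinv₁]
  · rw [← map_mul]; exact hnot _ s₂
  · rw [← map_mul]; exact hnot _ s₃
  · rw [← map_mul, ← map_mul, ← mul_assoc]; exact hnot _ s₄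

end Cfsg.Agent.S3085
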