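import Mathlib
import Cfsg.Statements.S3104
import Cfsg.Agent.S3103
import Cfsg.Agent.Lib.SubA8Big

set_option autoImplicit false
open Cfsg

namespace Cfsg.Agent.S3104

/-- Let X be a finite nonsolvable 2-constrained group with no nontrivial normal subgroup of odd order such that O₂(X) has sectional 2-rank at most 4, and write Q for X/O₂(X). Then Q is isomorphic to the projective special linear group of dimension 3 over the field with 2 elements, to an alternating group of degree n with 5 ≤ n ≤ 8, to a symmetric group of degree n with 5 ≤ n ≤ 7, or else O₃(Q) has order 3 and Q/O₃(Q) is isomorphic to the alternating or the symmetric group of degree 5 (so Q is the direct product of a group of order 3 with the alternating group of degree 5, or an extension of that direct product by a group of order 2). If moreover X itself has sectional 2-rank at most 4, then Q is not isomorphic to the symmetric group of degree 6 or 7 nor to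 the alternating group of degree 8. -/
theorem result {X : Type*} [Group X] [Finite X] (hns : ¬ Group.IsSolvable X) (hc : Cfsg.IsPConstrained 2 X) (hO : Cfsg.oddCore X = ⊥)
    (h4 : Cfsg.SectionalPRankLE 2 4 ↥(Cfsg.pCore 2 X)) :
    ((∃ (F : Type) (_ : Field F) (_ : Fintype F), Fintype.card F = 2 ∧
          Nonempty (X ⧸ Cfsg.pCore 2 X ≃* Matrix.ProjectiveSpecialLinearGroup (Fin 3) F)) ∨
        (∃ n : ℕ, 5 ≤ n ∧ n ≤ 8 ∧ Nonempty (X ⧸ Cfsg.pCore 2 X ≃* ↥(alternatingGroup (Fin n)))) ∨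
        (∃ n : ℕ, 5 ≤ n ∧ n ≤ 7 ∧ Nonempty (X ⧸ Cfsg.pCore 2 X ≃* Equiv.Perm (Fin n))) ∨
        (Nat.card ↥(Cfsg.pCore 3 (X ⧸ Cfsg.pCore 2 X)) = 3 ∧
          (Nonempty ((X ⧸ Cfsg.pCore 2 X) ⧸ Cfsg.pCore 3 (X ⧸ Cfsg.pCore 2 X) ≃* ↥(alternatingGroup (Fin 5))) ∨
            Nonempty ((X ⧸ Cfsg.pCore 2 X) ⧸ Cfsg.pCore 3 (X ⧸ Cfsg.pCore 2 X) ≃* Equiv.Perm (Fin 5))))) ∧
      (Cfsg.SectionalPRankLE 2 4 X →
        ¬ (Nonempty (X ⧸ Cfsg.pCore 2 X ≃* Equiv.Perm (Fin 6)) ∨ Nonempty (X ⧸ Cfsg.pCore 2 X ≃* Equiv.Perm (Fin 7)) ∨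
            Nonempty (X ⧸ Cfsg.pCore 2 X ≃* ↥(alternatingGroup (Fin 8))))) := by
  classical
  have hp : Fact (Nat.Prime 2) := ⟨Nat.prime_two⟩
  obtain ⟨f, hf⟩ := Cfsg.Agent.S3103.result hc hO h4
  obtain ⟨hnsQ, hOQ⟩ := Cfsg.Agent.Lib.SubA8Big.quot_facts hns
  refine ⟨?_, fun h4X hbig => ?_⟩
  · rcases Cfsg.Agent.Lib.SubA8Big.classify_abs f hf hnsQ hOQ with ⟨⟨h⟩⟩ | h | h | ⟨ψ, h3, hA⟩
    · exact Or.inl ⟨ZMod 2, inferInstance, inferInstance, ZMod.card 2, ⟨h⟩⟩
    · exact Or.inr (Or.inl h)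
    · exact Or.inr (Or.inr (Or.inl h))
    · exact Or.inr (Or.inr (Or.inr (Cfsg.Agent.Lib.SubA8Big.pCore_of_hom ψ h3 hA)))
  · have hcards : Nat.card (X ⧸ Cfsg.pCore 2 X) = 720 ∨ Nat.card (X ⧸ Cfsg.pCore 2 X) = 5040 ∨
        Nat.card (X ⧸ Cfsg.pCore 2 X) = 20160 := by
      rcases hbig with ⟨⟨h⟩⟩ | ⟨⟨h⟩⟩ | ⟨⟨h⟩⟩
      · left
        rw [Nat.card_congr h.toEquiv, Cfsg.Agent.Lib.SubA8Big.card_perm_fin]
        rfl
      · right; left
        rw [Nat.card_congr h.toEquiv, Cfsg.Agent.Lib.SubA8Big.card_perm_fin]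
        rfl
      · right; right
        rw [Nat.card_congr h.toEquiv, nat_card_alternatingGroup]
        simp [Nat.factorial]
    exact Cfsg.Agent.Lib.SubA8Big.no_big hns hc hO h4 h4X (by omega) (by omega)

end Cfsg.Agent.S3104
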