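import Mathlib
import Cfsg.Statements.S3117
import Cfsg.Agent.Lib.AnisoCore
import Cfsg.Agent.Lib.SympExp4
import Cfsg.Agent.Lib.BurnsideAut
import Cfsg.Agent.Lib.Frat

set_option autoImplicit false
set_option linter.style.haveILetI false
set_option linter.unusedSimpArgs false
set_option linter.unusedVariables false

open Cfsg

namespace Cfsg.Agent.S3117

open Cfsg.Agent.Lib.AnisoCore

section aut

variable {G : Type*} [Group G]

/-- Restriction to an invariant subgroup. -/
def autSub (H : Subgroup G) (hH : ∀ α : MulAut G, ∀ h ∈ H, α h ∈ H) : MulAut G →* MulAut H where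
  toFun α :=
    { toFun := fun z => ⟨α z, hH α z z.2⟩
      invFun := fun z => ⟨α⁻¹ z, hH α⁻¹ z z.2⟩
      left_inv := fun z => Subtype.ext (by simp)
      right_inv := fun z => Subtype.ext (by simp)
      map_mul' := fun a b => Subtype.ext (by simp) }
  map_one' := by
    apply MulEquiv.ext
    intro z
    rfl
  map_mul' := by
    intro a b
    apply MulEquiv.ext
    intro z
    rfl

theorem autSub_coe (H : Subgroup G) (hH : ∀ α : MulAut G, ∀ h ∈ H, α h ∈ H) (α : MulAut G) (z : H) :
    ((autSub H hH α z : H) : G) = α z := rfl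

/-- The action on a quotient by an invariant subgroup. -/
def autQuot (H : Subgroup G) [H.Normal] (hH : ∀ α : MulAut G, ∀ h ∈ H, α h ∈ H) :
    MulAut G →* MulAut (G ⧸ H) where
  toFun α := QuotientGroup.congr H H α (by
    apply le_antisymm
    · rintro _ ⟨h, hh, rfl⟩
      exact hH α h hh
    · intro h hh
      refine ⟨α⁻¹ h, hH α⁻¹ h hh, ?_⟩
      change α (α⁻¹ h) = h
      simp)
  map_one' := by
    apply MulEquiv.ext
    intro w
    obtain ⟨g, rfl⟩ := QuotientGroup.mk'_surjective H w
    rfl
  map_mul' := by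
    intro a b
    apply MulEquiv.ext
    intro w
    obtain ⟨g, rfl⟩ := QuotientGroup.mk'_surjective H w
    rfl

theorem autQuot_mk (H : Subgroup G) [H.Normal] (hH : ∀ α : MulAut G, ∀ h ∈ H, α h ∈ H)
    (α : MulAut G) (g : G) : autQuot H hH α (g : G ⧸ H) = ((α g : G) : G ⧸ H) := rfl

theorem center_inv (α : MulAut G) (h : G) (hh : h ∈ Subgroup.center G) :
    α h ∈ Subgroup.center G := by
  rw [Subgroup.mem_center_iff]
  intro g
  have h1 := congrArg α (Subgroup.mem_center_iff.mp hh (α.symm g))
  simpa using h1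

/-- An automorphism of odd order fixing `z = c⁻¹ α c` fixes `c`, when `z` is a `2`-element. -/
theorem fix_of_coset (β : MulAut G) {r : ℕ} (hr : Odd r) (hβ : β ^ r = 1) (c : G)
    (hz : β (c⁻¹ * β c) = c⁻¹ * β c) {k : ℕ} (h2 : (c⁻¹ * β c) ^ 2 ^ k = 1) : β c = c := by
  obtain ⟨z, hzdef⟩ : ∃ z, z = c⁻¹ * β c := ⟨_, rfl⟩
  rw [← hzdef] at hz h2
  have hc : β c = c * z := by rw [hzdef]; group
  have hpow : ∀ n : ℕ, (β ^ n) c = c * z ^ n := by
    intro n
    induction n with
    | zero => simp
    | succ n ih =>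
      rw [pow_succ', MulAut.mul_apply, ih, map_mul, map_pow, hz, hc, pow_succ', mul_assoc]
  have h3 := hpow r
  rw [hβ] at h3
  have h4 : z ^ r = 1 := by
    have : c * z ^ r = c * 1 := by rw [← h3, mul_one]; rfl
    exact mul_left_cancel this
  have h5 : z = 1 := by
    have h6 := Nat.Coprime.pow_right k (Nat.coprime_two_right.mpr hr)
    have h7 := orderOf_dvd_of_pow_eq_one h4
    have h8 := orderOf_dvd_of_pow_eq_one h2
    have h9 : orderOf z = 1 := Nat.eq_one_of_dvd_coprimes h6 h7 h8
    exact orderOf_eq_one_iff.mp h9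
  rw [hc, h5, mul_one]

/-- A group in which no element has odd prime order is a `2`-group. -/
theorem isPGroup_of_no_odd [Finite G] (h : ∀ (r : ℕ) (g : G), r.Prime → r ≠ 2 → g ^ r = 1 → g = 1) :
    IsPGroup 2 G := by
  have : Fact (Nat.Prime 2) := ⟨Nat.prime_two⟩
  rw [IsPGroup.iff_orderOf]
  intro g
  have hn0 : orderOf g ≠ 0 := (orderOf_pos g).ne'
  refine ⟨_, Nat.eq_prime_pow_of_unique_prime_dvd hn0 ?_⟩
  intro r hr hrd
  by_contra hr2
  have h1 : orderOf (g ^ (orderOf g / r)) = r := orderOf_pow_orderOf_div hn0 hrd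
  have h3 : (g ^ (orderOf g / r)) ^ r = 1 := by
    have := pow_orderOf_eq_one (g ^ (orderOf g / r))
    rwa [h1] at this
  have h2 : g ^ (orderOf g / r) = 1 := h r _ hr hr2 h3
  rw [h2, orderOf_one] at h1
  exact hr.one_lt.ne h1

end aut

section R

variable {R : Type*} [Group R]

/-- The commutator. -/
def cm (a b : R) : R := a * b * a⁻¹ * b⁻¹

/-- The hypotheses on the group `R`. -/
structure HypR (R : Type*) [Group R] : Prop where
  p2 : IsPGroup 2 R
  sq : ∀ c : R, c ^ 2 ∈ Subgroup.center R
  root : ∀ c : R, c ^ 2 = 1 → c ∈ Subgroup.center R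
  few : Nat.card {z : R // z ^ 2 = 1} ≤ 4

theorem central {z : R} (hz : z ∈ Subgroup.center R) (g : R) : g * z = z * g :=
  Subgroup.mem_center_iff.mp hz g

theorem cm_mem (hsq : ∀ c : R, c ^ 2 ∈ Subgroup.center R) (a b : R) : cm a b ∈ Subgroup.center R := by
  have hc : b * (a ^ 2)⁻¹ = (a ^ 2)⁻¹ * b :=
    central (Subgroup.inv_mem _ (hsq a)) b
  have e : cm a b = (a * b) ^ 2 * (a ^ 2)⁻¹ * (b ^ 2)⁻¹ := by
    calc cm a b = a * b * a * ((a ^ 2)⁻¹ * b) * (b ^ 2)⁻¹ := by
          simp only [cm, pow_two]; group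
      _ = a * b * a * (b * (a ^ 2)⁻¹) * (b ^ 2)⁻¹ := by rw [hc]
      _ = _ := by simp only [pow_two]; group
  rw [e]
  exact Subgroup.mul_mem _ (Subgroup.mul_mem _ (hsq _) (Subgroup.inv_mem _ (hsq _)))
    (Subgroup.inv_mem _ (hsq _))

theorem cm_mul_right (hsq : ∀ c : R, c ^ 2 ∈ Subgroup.center R) (a b c : R) :
    cm a (b * c) = cm a b * cm a c := by
  have h1 : c * a⁻¹ * c⁻¹ = a⁻¹ * cm a c := by simp only [cm]; group
  calc cm a (b * c) = a * b * (c * a⁻¹ * c⁻¹) * b⁻¹ := by simp only [cm]; group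
    _ = a * b * a⁻¹ * (cm a c * b⁻¹) := by rw [h1]; group
    _ = a * b * a⁻¹ * (b⁻¹ * cm a c) := by rw [central (cm_mem hsq a c)]
    _ = cm a b * cm a c := by simp only [cm]; group

theorem sq_mul (hsq : ∀ c : R, c ^ 2 ∈ Subgroup.center R) (a b : R) :
    (a * b) ^ 2 = a ^ 2 * b ^ 2 * cm b a := by
  have h1 : b * a = cm b a * (a * b) := by simp only [cm]; group
  calc (a * b) ^ 2 = a * (b * a) * b := by simp only [pow_two]; group
    _ = a * (cm b a * (a * b)) * b := by rw [← h1]
    _ = a * (a * b * cm b a) * b := by rw [central (cm_mem hsq b a) (a * b)]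
    _ = a * (a * b) * (cm b a * b) := by group
    _ = a * (a * b) * (b * cm b a) := by rw [central (cm_mem hsq b a) b]
    _ = _ := by simp only [pow_two]; group

theorem center_comm (a b : Subgroup.center R) : a * b = b * a :=
  Subtype.ext (central b.2 (a : R))

/-- The squaring map on the centre. -/
def sqHom (R : Type*) [Group R] : Subgroup.center R →* Subgroup.center R where
  toFun z := z ^ 2
  map_one' := one_pow 2
  map_mul' a b := (show Commute a b from center_comm a b).mul_pow 2

/-- The subgroup of squares of the centre. -/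
abbrev Sq (R : Type*) [Group R] : Subgroup (Subgroup.center R) := (sqHom R).range

instance sq_normal (R : Type*) [Group R] : (Sq R).Normal := by
  constructor
  intro n hn g
  have : g * n * g⁻¹ = n := by rw [center_comm g n]; group
  rwa [this]

variable (h : HypR R)
include h


/-- The element `c²` of the centre. -/
def pw (c : R) : Subgroup.center R := ⟨c ^ 2, h.sq c⟩

/-- The commutator as an element of the centre. -/
def cmZ (a b : R) : Subgroup.center R := ⟨cm a b, cm_mem h.sq a b⟩

theorem pw_mul (a b : R) : pw h (a * b) = pw h a * pw h b * cmZ h b a :=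
  Subtype.ext (sq_mul h.sq a b)

theorem cmZ_mul_right (a b c : R) : cmZ h a (b * c) = cmZ h a b * cmZ h a c :=
  Subtype.ext (cm_mul_right h.sq a b c)

/-- The quadratic map on `R / Z(R)`. -/
def qmap : R ⧸ Subgroup.center R → Subgroup.center R ⧸ Sq R := fun w =>
  Quotient.liftOn' w (fun c => ((pw h c : Subgroup.center R) : Subgroup.center R ⧸ Sq R)) (by
    intro a b hab
    rw [QuotientGroup.leftRel_apply] at hab
    obtain ⟨z, hz⟩ : ∃ z : Subgroup.center R, (z : R) = a⁻¹ * b := ⟨⟨_, hab⟩, rfl⟩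
    have hb : b = a * z := by rw [hz]; group
    have h1 : pw h b = pw h a * (sqHom R z) := by
      apply Subtype.ext
      change b ^ 2 = a ^ 2 * (z : R) ^ 2
      rw [hb, pow_two, pow_two, pow_two, mul_assoc a (z : R), ← mul_assoc (z : R) a,
        ← central z.2 a]
      group
    change ((pw h a : Subgroup.center R) : Subgroup.center R ⧸ Sq R) = _
    rw [h1, QuotientGroup.mk_mul]
    have h2 : ((sqHom R z : Subgroup.center R) :
        Subgroup.center R ⧸ Sq R) = 1 := (QuotientGroup.eq_one_iff _).mpr (MonoidHom.mem_range.mpr ⟨z, rfl⟩)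
    rw [h2, mul_one])

theorem qmap_mk (c : R) : qmap h (c : R ⧸ Subgroup.center R) =
    ((pw h c : Subgroup.center R) : Subgroup.center R ⧸ Sq R) := rfl

theorem U_sq (u : Subgroup.center R ⧸ Sq R) : u * u = 1 := by
  obtain ⟨z, rfl⟩ := QuotientGroup.mk'_surjective _ u
  rw [← map_mul]
  exact (QuotientGroup.eq_one_iff _).mpr (MonoidHom.mem_range.mpr ⟨z, pow_two z⟩)

theorem U_comm (a b : Subgroup.center R ⧸ Sq R) : a * b = b * a := by
  obtain ⟨x, rfl⟩ := QuotientGroup.mk'_surjective _ a
  obtain ⟨y, rfl⟩ := QuotientGroup.mk'_surjective _ b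
  rw [← map_mul, ← map_mul, center_comm]

theorem pol_mk (a b : R) : pol (qmap h) (a : R ⧸ Subgroup.center R) (b : R ⧸ Subgroup.center R) =
    ((cmZ h b a : Subgroup.center R) : Subgroup.center R ⧸ Sq R) := by
  have hu := U_sq h
  have hc := U_comm h
  simp only [pol]
  rw [← QuotientGroup.mk_mul, qmap_mk, qmap_mk, qmap_mk, pw_mul, QuotientGroup.mk_mul,
    QuotientGroup.mk_mul]
  generalize ((pw h a : Subgroup.center R) : Subgroup.center R ⧸ Sq R) = x
  generalize ((pw h b : Subgroup.center R) : Subgroup.center R ⧸ Sq R) = y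
  generalize ((cmZ h b a : Subgroup.center R) : Subgroup.center R ⧸ Sq R) = z
  calc x * y * z * x * y = (x * x) * ((y * y) * z) := by
        rw [hc (x * y) z, mul_assoc z, mul_assoc z, hc z]
        simp only [mul_assoc]
        rw [← mul_assoc y x, hc y x]
        simp only [mul_assoc]
    _ = z := by rw [hu, hu, one_mul, one_mul]

theorem qf : QF (qmap h) where
  w2 := by
    intro w
    obtain ⟨c, rfl⟩ := QuotientGroup.mk'_surjective _ w
    rw [← map_mul, ← pow_two]
    exact (QuotientGroup.eq_one_iff _).mpr (h.sq c)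
  u2 := U_sq h
  anis := by
    intro w hw
    obtain ⟨c, rfl⟩ := QuotientGroup.mk'_surjective _ w
    have h1 : pw h c ∈ Sq R := (QuotientGroup.eq_one_iff _).mp hw
    obtain ⟨z, hz⟩ := MonoidHom.mem_range.mp h1
    have h2 : (c * (z : R)⁻¹) ^ 2 = 1 := by
      have h3 : c ^ 2 = (z : R) ^ 2 := (congrArg Subtype.val hz).symm
      have h4 := central (Subgroup.inv_mem _ z.2) c
      rw [pow_two, mul_assoc c, ← mul_assoc _ c, h4.symm, mul_assoc c, ← mul_assoc c c]
      rw [← pow_two c, h3, pow_two]
      group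
    have h5 := h.root _ h2
    have h6 : c ∈ Subgroup.center R := by
      have := Subgroup.mul_mem _ h5 z.2
      simpa using this
    exact (QuotientGroup.eq_one_iff _).mpr h6
  bil := by
    intro x y z
    obtain ⟨a, rfl⟩ := QuotientGroup.mk'_surjective _ x
    obtain ⟨b, rfl⟩ := QuotientGroup.mk'_surjective _ y
    obtain ⟨c, rfl⟩ := QuotientGroup.mk'_surjective _ z
    rw [← map_mul]
    change pol (qmap h) ((a * b : R) : R ⧸ Subgroup.center R) (c : R ⧸ Subgroup.center R) =
      pol (qmap h) (a : R ⧸ Subgroup.center R) (c : R ⧸ Subgroup.center R) *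
        pol (qmap h) (b : R ⧸ Subgroup.center R) (c : R ⧸ Subgroup.center R)
    rw [pol_mk, pol_mk, pol_mk, cmZ_mul_right, QuotientGroup.mk_mul]

theorem card_U [Finite R] : Nat.card (Subgroup.center R ⧸ Sq R) ≤ 4 := by
  classical
  let φ : Subgroup.center R →* Subgroup.center R := sqHom R
  have h1 := Subgroup.card_eq_card_quotient_mul_card_subgroup (Sq R)
  have h2 := Subgroup.card_mul_index φ.ker
  rw [Subgroup.index_ker] at h2
  have h3 : Nat.card (Subgroup.center R ⧸ Sq R) = Nat.card φ.ker := by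
    have hpos : 0 < Nat.card φ.range := Nat.card_pos
    apply Nat.eq_of_mul_eq_mul_right hpos
    rw [h2]
    exact h1.symm
  rw [h3]
  refine le_trans ?_ h.few
  refine Nat.card_le_card_of_injective
    (fun z => (⟨((z.1 : Subgroup.center R) : R), ?_⟩ : {z : R // z ^ 2 = 1})) ?_
  · have := z.2
    rw [MonoidHom.mem_ker] at this
    exact congrArg Subtype.val this
  · intro a b hab
    have h9 := congrArg (fun t : {z : R // z ^ 2 = 1} => (t : R)) hab
    exact Subtype.ext (Subtype.ext h9)

omit h in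
theorem sq_inv (α : MulAut (Subgroup.center R)) (z : Subgroup.center R) (hz : z ∈ Sq R) :
    α z ∈ Sq R := by
  obtain ⟨w, rfl⟩ := MonoidHom.mem_range.mp hz
  refine MonoidHom.mem_range.mpr ⟨α w, ?_⟩
  change (α w) ^ 2 = α (w ^ 2)
  rw [map_pow]

/-- The action on the centre. -/
abbrev toZ (R : Type*) [Group R] : MulAut R →* MulAut (Subgroup.center R) :=
  autSub (Subgroup.center R) center_inv

/-- The action on `R / Z(R)`. -/
abbrev toW (R : Type*) [Group R] : MulAut R →* MulAut (R ⧸ Subgroup.center R) :=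
  autQuot (Subgroup.center R) center_inv

/-- The action on `Z(R) / Z(R)²`. -/
abbrev toU (R : Type*) [Group R] : MulAut R →* MulAut (Subgroup.center R ⧸ Sq R) :=
  (autQuot (Sq R) sq_inv).comp (toZ R)

theorem qmap_equiv (α : MulAut R) (w : R ⧸ Subgroup.center R) :
    qmap h (toW R α w) = toU R α (qmap h w) := by
  obtain ⟨c, rfl⟩ := QuotientGroup.mk'_surjective _ w
  change ((pw h (α c) : Subgroup.center R) : Subgroup.center R ⧸ Sq R) =
    ((toZ R α (pw h c) : Subgroup.center R) : Subgroup.center R ⧸ Sq R)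
  congr 1
  apply Subtype.ext
  change (α c) ^ 2 = α (c ^ 2)
  rw [map_pow]

/-- Elements of odd prime order in the kernel are trivial. -/
theorem kernel_trivial [Finite R] (β : MulAut R) {r : ℕ} (hr : r.Prime) (hr2 : r ≠ 2)
    (hβ : β ^ r = 1) (hU : toU R β = 1) (hW : toW R β = 1) : β = 1 := by
  classical
  have : Fact (Nat.Prime 2) := ⟨Nat.prime_two⟩
  have hZ : IsPGroup 2 (Subgroup.center R) := h.p2.to_subgroup _
  -- trivial on the centre
  have hZ1 : toZ R β = 1 := by
    apply Cfsg.Agent.Lib.BurnsideAut.aut_eq_one_of_trivial_on_frattini hZ hr hr2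
    · rw [← map_pow, hβ, map_one]
    · intro z
      have h1 : ((toZ R β z : Subgroup.center R) : Subgroup.center R ⧸ Sq R) =
          ((z : Subgroup.center R) : Subgroup.center R ⧸ Sq R) := by
        have := DFunLike.congr_fun hU ((z : Subgroup.center R) : Subgroup.center R ⧸ Sq R)
        exact this
      have h2 : z⁻¹ * toZ R β z ∈ Sq R := QuotientGroup.eq.mp h1.symm
      obtain ⟨w, hw⟩ := MonoidHom.mem_range.mp h2
      have h3 : toZ R β z * z⁻¹ = w ^ 2 := by
        rw [center_comm]
        exact hw.symm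
      rw [h3]
      exact Cfsg.Agent.Lib.Frat.pow_mem_frattini hZ w
  have hfixZ : ∀ z ∈ Subgroup.center R, β z = z := by
    intro z hz
    have := DFunLike.congr_fun hZ1 ⟨z, hz⟩
    exact congrArg Subtype.val this
  apply MulEquiv.ext
  intro c
  change β c = c
  have h1 : ((β c : R) : R ⧸ Subgroup.center R) = (c : R ⧸ Subgroup.center R) := by
    have := DFunLike.congr_fun hW (c : R ⧸ Subgroup.center R)
    exact this
  have h2 : c⁻¹ * β c ∈ Subgroup.center R := QuotientGroup.eq.mp h1.symm
  have hodd : Odd r := hr.odd_of_ne_two hr2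
  obtain ⟨k, hk⟩ := (IsPGroup.iff_orderOf.mp h.p2) (c⁻¹ * β c)
  exact fix_of_coset β hodd hβ c (hfixZ _ h2) (k := k) (by rw [← hk]; exact pow_orderOf_eq_one _)

/-- The automorphism group of `R` is solvable. -/
theorem aut_solvable [Finite R] : Group.IsSolvable (MulAut R) := by
  classical
  have hfin : Finite (MulAut R) :=
    Finite.of_injective (fun α : MulAut R => (α : R → R)) (fun a b hab => MulEquiv.ext (congrFun hab))
  have hq := qf h
  have hUc := card_U h
  have hWc : Nat.card (R ⧸ Subgroup.center R) ≤ 16 := card_le hq hUc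
  -- the kernel on `U`
  let g₁ : (toU R).ker →* MulAut (R ⧸ Subgroup.center R) := (toW R).comp (toU R).ker.subtype
  have hsolv1 : Group.IsSolvable g₁.range := by
    apply solvable_of_preserving hq hWc
    rintro _ ⟨α, rfl⟩ w
    change qmap h (toW R α.1 w) = qmap h w
    rw [qmap_equiv h]
    have := α.2
    rw [MonoidHom.mem_ker] at this
    rw [this]
    rfl
  have hp : IsPGroup 2 g₁.ker := by
    apply isPGroup_of_no_odd
    rintro r ⟨⟨β, hβ⟩, hβ₂⟩ hr hr2 hpow
    have h1 : β ^ r = 1 := by
      have := congrArg (fun x : g₁.ker => ((x : (toU R).ker) : MulAut R)) hpow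
      exact this
    have hU : toU R β = 1 := hβ
    have hW : toW R β = 1 := hβ₂
    have h3 := kernel_trivial h β hr hr2 h1 hU hW
    subst h3
    rfl
  have hs2 : Group.IsSolvable g₁.ker := by
    have : Fact (Nat.Prime 2) := ⟨Nat.prime_two⟩
    have := hp.isNilpotent
    infer_instance
  have hs3 : Group.IsSolvable (toU R).ker := by
    apply Group.isSolvable_of_ker_le_range g₁.ker.subtype g₁.rangeRestrict
    intro x hx
    refine ⟨⟨x, ?_⟩, rfl⟩
    have := congrArg Subtype.val (MonoidHom.mem_ker.mp hx)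
    exact this
  have hs4 : Group.IsSolvable (MulAut (Subgroup.center R ⧸ Sq R)) := by
    have hinj : Function.Injective (MulAut.toPerm (Subgroup.center R ⧸ Sq R)) := by
      intro a b hab
      apply MulEquiv.ext
      intro x
      exact congrArg (fun σ : Equiv.Perm _ => σ x) hab
    have hperm : Group.IsSolvable (Equiv.Perm (Subgroup.center R ⧸ Sq R)) := by
      have h1 : Nat.card (Equiv.Perm (Subgroup.center R ⧸ Sq R)) =
          (Nat.card (Subgroup.center R ⧸ Sq R)).factorial := by
        rw [Nat.card_perm]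
      apply Cfsg.Agent.Lib.BurnsidePQ.isSolvable_of_card_eq 2 3 Nat.prime_two (by norm_num) _ _ h1
      have h0 : 0 < Nat.card (Subgroup.center R ⧸ Sq R) := Nat.card_pos
      generalize Nat.card (Subgroup.center R ⧸ Sq R) = n at hUc h0
      interval_cases n
      · exact ⟨0, 0, rfl⟩
      · exact ⟨1, 0, rfl⟩
      · exact ⟨1, 1, rfl⟩
      · exact ⟨3, 1, rfl⟩
    exact Group.isSolvable_of_isSolvable_injective hinj
  apply Group.isSolvable_of_ker_le_range (toU R).ker.subtype (toU R)
  intro x hx
  exact ⟨⟨x, hx⟩, rfl⟩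

end R

section X

variable {X : Type*} [Group X] [Finite X]

/-- The centralizer of the set of involutions. -/
def X₂ (X : Type*) [Group X] : Subgroup X := Subgroup.centralizer {x : X | orderOf x = 2}

theorem X₂_inv (α : MulAut X) (g : X) (hg : g ∈ X₂ X) : α g ∈ X₂ X := by
  rw [X₂, Subgroup.mem_centralizer_iff]
  intro y hy
  have hy' : orderOf (α.symm y) = 2 := by
    rw [MulEquiv.orderOf_eq]
    exact hy
  have h1 := Subgroup.mem_centralizer_iff.mp hg (α.symm y) hy'
  have h2 := congrArg α h1
  simpa using h2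

omit [Finite X] in
theorem order_conj (g x : X) : orderOf (g * x * g⁻¹) = orderOf x :=
  MulEquiv.orderOf_eq (MulAut.conj g) x

omit [Finite X] in
theorem order_conj' (g x : X) : orderOf (g⁻¹ * x * g) = orderOf x := by
  simpa using order_conj g⁻¹ x

theorem X₂_index (h2 : IsPGroup 2 X) (h3 : Nat.card {x : X // orderOf x = 2} = 3) :
    (X₂ X).index = 1 ∨ (X₂ X).index = 2 := by
  classical
  have : Fact (Nat.Prime 2) := ⟨Nat.prime_two⟩
  let φ : X →* Equiv.Perm {x : X // orderOf x = 2} :=
    { toFun := fun g =>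
        { toFun := fun i => ⟨g * i.1 * g⁻¹, by rw [order_conj]; exact i.2⟩
          invFun := fun i => ⟨g⁻¹ * i.1 * g, by rw [order_conj']; exact i.2⟩
          left_inv := fun i => Subtype.ext (by simp; group)
          right_inv := fun i => Subtype.ext (by simp; group) }
      map_one' := by
        ext i
        simp
      map_mul' := by
        intro a b
        ext i
        simp
        group }
  have hker : φ.ker = X₂ X := by
    ext g
    rw [MonoidHom.mem_ker, X₂, Subgroup.mem_centralizer_iff]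
    constructor
    · intro hg y hy
      have h1 := congrArg (fun σ : Equiv.Perm {x : X // orderOf x = 2} =>
        ((σ ⟨y, hy⟩ : {x : X // orderOf x = 2}) : X)) hg
      have h4 : g * y * g⁻¹ = y := h1
      calc y * g = g * y * g⁻¹ * g := by rw [h4]
        _ = g * y := by group
    · intro hg
      ext i
      change g * i.1 * g⁻¹ = i.1
      have h5 := hg i.1 i.2
      rw [← h5]
      group
  rw [← hker, Subgroup.index_ker]
  have hd1 : Nat.card φ.range ∣ 6 := by
    have h1 := Subgroup.card_subgroup_dvd_card φ.range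
    rwa [Nat.card_perm, h3] at h1
  have hd2 : Nat.card φ.range ∣ Nat.card X := by
    rw [← Subgroup.index_ker]
    exact Subgroup.index_dvd_card _
  obtain ⟨n, hn⟩ := IsPGroup.iff_card.mp h2
  rw [hn] at hd2
  obtain ⟨k, -, hk⟩ := (Nat.dvd_prime_pow Nat.prime_two).mp hd2
  rw [hk] at hd1 ⊢
  by_cases hk2 : k ≤ 1
  · interval_cases k
    · left; rfl
    · right; rfl
  · exfalso
    have : 2 ^ 2 ∣ 6 := (pow_dvd_pow 2 (by omega)).trans hd1
    omega

theorem hyp_R' (h2 : IsPGroup 2 X) (h3 : Nat.card {x : X // orderOf x = 2} = 3)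
    (K : Subgroup X) (hKp : ∀ w ∈ K, w ^ 2 ∈ Cfsg.Agent.Lib.SympExp4.zc K ∧
      ∀ y, y * w * y⁻¹ * w⁻¹ ∈ Cfsg.Agent.Lib.SympExp4.zc K) :
    HypR ↥(K ⊓ X₂ X) where
  p2 := h2.to_subgroup _
  sq := by
    intro c
    rw [Subgroup.mem_center_iff]
    intro d
    apply Subtype.ext
    have h1 := (hKp c.1 c.2.1).1
    have h4 := (Cfsg.Agent.Lib.SympExp4.mem_zc.mp h1).2 d.1 d.2.1
    exact h4
  root := by
    intro c hc
    rw [Subgroup.mem_center_iff]
    intro d
    apply Subtype.ext
    have hc' : (c : X) ^ 2 = 1 := congrArg Subtype.val hc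
    by_cases hc1 : (c : X) = 1
    · change (d : X) * c = c * d
      rw [hc1, one_mul, mul_one]
    · have ho : orderOf (c : X) = 2 := orderOf_eq_prime hc' hc1
      have hd : (d : X) ∈ X₂ X := d.2.2
      exact (Subgroup.mem_centralizer_iff.mp hd (c : X) ho).symm
  few := by
    classical
    have hI : ({x : X | orderOf x = 2}).ncard = 3 := by
      rw [← Nat.card_coe_set_eq]
      exact h3
    have hle : Nat.card {x : X // x ^ 2 = 1} ≤ 4 := by
      have h4 : {x : X | x ^ 2 = 1} ⊆ insert 1 {x : X | orderOf x = 2} := by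
        intro x hx
        by_cases hx1 : x = 1
        · left; exact hx1
        · right; exact orderOf_eq_prime hx hx1
      have h5 := Set.ncard_le_ncard h4 (Set.toFinite _)
      have h6 := Set.ncard_insert_le (1 : X) {x : X | orderOf x = 2}
      rw [hI] at h6
      have h7 : Nat.card {x : X // x ^ 2 = 1} = ({x : X | x ^ 2 = 1}).ncard :=
        Nat.card_coe_set_eq _
      omega
    refine le_trans ?_ hle
    refine Nat.card_le_card_of_injective
      (fun z => (⟨((z.1 : ↥(K ⊓ X₂ X)) : X), congrArg Subtype.val z.2⟩ : {x : X // x ^ 2 = 1})) ?_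
    intro a b hab
    have h9 := congrArg (fun t : {x : X // x ^ 2 = 1} => (t : X)) hab
    exact Subtype.ext (Subtype.ext h9)

theorem result_aux (h2 : IsPGroup 2 X) (h3 : Nat.card {x : X // orderOf x = 2} = 3) :
    Group.IsSolvable (MulAut X) := by
  classical
  have : Fact (Nat.Prime 2) := ⟨Nat.prime_two⟩
  obtain ⟨K, hKc, hKp, hCK⟩ := Cfsg.Agent.Lib.SympExp4.exists_critical h2
  have hK_inv : ∀ α : MulAut X, ∀ k ∈ K, α k ∈ K := by
    intro α k hk
    have h1 := hKc.fixed α
    rw [← h1] at hk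
    exact hk
  have hR_inv : ∀ α : MulAut X, ∀ r ∈ K ⊓ X₂ X, α r ∈ K ⊓ X₂ X :=
    fun α r hr => ⟨hK_inv α r hr.1, X₂_inv α r hr.2⟩
  let toR : MulAut X →* MulAut ↥(K ⊓ X₂ X) := autSub (K ⊓ X₂ X) hR_inv
  have hR := hyp_R' h2 h3 K hKp
  have hs1 : Group.IsSolvable (MulAut ↥(K ⊓ X₂ X)) := aut_solvable hR
  have hfin : Finite (MulAut X) :=
    Finite.of_injective (fun α : MulAut X => (α : X → X)) (fun a b hab => MulEquiv.ext (congrFun hab))
  have hp : IsPGroup 2 toR.ker := by
    apply isPGroup_of_no_odd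
    rintro r ⟨β, hβ⟩ hr hr2 hpow
    have hodd : Odd r := hr.odd_of_ne_two hr2
    have h1 : β ^ r = 1 := congrArg Subtype.val hpow
    have hfixR : ∀ c ∈ K ⊓ X₂ X, β c = c := by
      intro c hc
      have := DFunLike.congr_fun (MonoidHom.mem_ker.mp hβ) ⟨c, hc⟩
      exact congrArg Subtype.val this
    have h2pow : ∀ z : X, ∃ k, z ^ 2 ^ k = 1 := by
      intro z
      obtain ⟨k, hk⟩ := (IsPGroup.iff_orderOf.mp h2) z
      exact ⟨k, by rw [← hk]; exact pow_orderOf_eq_one _⟩
    have hfixK : ∀ c ∈ K, β c = c := by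
      intro c hc
      obtain ⟨k, hk⟩ := h2pow (c⁻¹ * β c)
      refine fix_of_coset β hodd h1 c ?_ hk
      apply hfixR
      refine ⟨Subgroup.mul_mem _ (Subgroup.inv_mem _ hc) (hK_inv β c hc), ?_⟩
      change c⁻¹ * β c ∈ X₂ X
      rcases X₂_index h2 h3 with hi | hi
      · rw [Subgroup.index_eq_one.mp hi]
        exact Subgroup.mem_top _
      · rw [Subgroup.mul_mem_iff_of_index_two hi, Subgroup.inv_mem_iff]
        constructor
        · exact fun h' => X₂_inv β c h'
        · intro h'
          have := X₂_inv β⁻¹ _ h'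
          simpa using this
    have hfixX : ∀ x : X, β x = x := by
      intro x
      obtain ⟨k, hk⟩ := h2pow (x⁻¹ * β x)
      refine fix_of_coset β hodd h1 x ?_ hk
      apply hfixK
      apply hCK
      rw [Subgroup.mem_centralizer_iff]
      intro y hy
      have hn : K.Normal := Subgroup.normal_of_characteristic K
      have h5 := hfixK _ (hn.conj_mem y hy x)
      simp only [map_mul, map_inv, hfixK y hy] at h5
      have h6 : x⁻¹ * (β x * y * (β x)⁻¹) * x = y := by
        rw [h5]
        group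
      calc y * (x⁻¹ * β x) = (x⁻¹ * (β x * y * (β x)⁻¹) * x) * (x⁻¹ * β x) := by rw [h6]
        _ = x⁻¹ * β x * y := by group
    apply Subtype.ext
    exact MulEquiv.ext hfixX
  have hs2 : Group.IsSolvable toR.ker := by
    have := hp.isNilpotent
    infer_instance
  apply Group.isSolvable_of_ker_le_range toR.ker.subtype toR
  intro x hx
  exact ⟨⟨x, hx⟩, rfl⟩

end X

theorem result {X : Type*} [Group X] [Finite X] (h2 : IsPGroup 2 X) (h3 : Nat.card {x : X // orderOf x = 2} = 3) : Group.IsSolvable (MulAut X) :=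
  result_aux h2 h3

end Cfsg.Agent.S3117
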