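import Mathlib
import Cfsg.Statements.S3356

set_option autoImplicit false
set_option linter.style.haveILetI false
set_option linter.unusedSectionVars false
open Cfsg

namespace Cfsg.Agent.S3356

open MulAction

/-- Orbits of constant size divide the size of the set. -/
theorem dvd_card_of_orbit {B X : Type*} [Group B] [MulAction B X] [Finite X] (m : ℕ)
    (h : ∀ x : X, Nat.card (orbit B x) = m) : m ∣ Nat.card X := by
  classical
  haveI : Fintype (orbitRel.Quotient B X) := Fintype.ofFinite _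
  rw [Nat.card_congr (MulAction.selfEquivSigmaOrbits B X), Nat.card_sigma]
  apply Finset.dvd_sum
  intro ω _
  exact (h _).symm.dvd

theorem orbit_mul_stab {B Y : Type*} [Group B] [Finite B] [MulAction B Y] (y : Y) :
    Nat.card (orbit B y) * Nat.card (stabilizer B y) = Nat.card B := by
  rw [mul_comm, ← Subgroup.card_mul_index (stabilizer B y), index_stabilizer, Nat.card_coe_set_eq]

/-- The size of an invariant set with constant stabilizer size. -/
theorem dvd_card_sub {B Y : Type*} [Group B] [Finite B] [MulAction B Y] (X : SubMulAction B Y)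
    [Finite X] (s m : ℕ) (h : ∀ y ∈ X, Nat.card (stabilizer B y) = s) (hm : m * s = Nat.card B)
    (hs : 0 < s) : m ∣ Nat.card X := by
  apply dvd_card_of_orbit (B := B)
  intro x
  have h1 := orbit_mul_stab (B := B) x
  have h2 : stabilizer B x = stabilizer B (x : Y) := SubMulAction.stabilizer_of_subMul x
  rw [h2, h _ x.2, ← hm] at h1
  exact Nat.eq_of_mul_eq_mul_right hs h1

/-- The main counting lemma: on a block, the stabilizers are all equal. -/
theorem stab_eq_of_block {A Y : Type*} [Group A] [Finite A] [MulAction A Y] (X : Set Y) [Finite X]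
    (k d : ℕ) (hkd : k * d = Nat.card A) (hd : ∀ y ∈ X, Nat.card (stabilizer A y) = d)
    (hco : Nat.Coprime k (Nat.card X)) (hb : ∀ g : A, ∀ x ∈ X, g • x ∈ X → ∀ z ∈ X, g • z ∈ X)
    {x y : Y} (hx : x ∈ X) (hy : y ∈ X) : stabilizer A x = stabilizer A y := by
  classical
  have hd0 : 0 < d := by
    rw [← hd x hx]
    exact Nat.card_pos
  -- the stabilizer of the block
  let B : Subgroup A :=
    { carrier := {g | ∀ z ∈ X, g • z ∈ X}
      one_mem' := fun z hz => by rwa [one_smul]
      mul_mem' := fun {g h} hg hh z hz => by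
        rw [mul_smul]
        exact hg _ (hh z hz)
      inv_mem' := fun {g} hg z hz => by
        let f : X → X := fun w => ⟨g • w.1, hg _ w.2⟩
        have hf : Function.Injective f := fun u v huv =>
          Subtype.ext (smul_left_cancel g (congrArg Subtype.val huv))
        obtain ⟨w, hw⟩ := (Finite.injective_iff_surjective.mp hf) ⟨z, hz⟩
        have h1 : g • w.1 = z := congrArg Subtype.val hw
        rw [← h1, inv_smul_smul]
        exact w.2 }
  have hBmem : ∀ g, g ∈ B ↔ ∀ z ∈ X, g • z ∈ X := fun _ => Iff.rfl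
  have hle : ∀ w ∈ X, stabilizer A w ≤ B := by
    intro w hw g hg
    apply hb g w hw
    rw [mem_stabilizer_iff.mp hg]
    exact hw
  let X' : SubMulAction B Y :=
    { carrier := X
      smul_mem' := fun c w hw => c.2 w hw }
  haveI : Finite X' := ‹Finite X›
  have hcX : Nat.card X' = Nat.card X := rfl
  have hsB : ∀ w ∈ X, Nat.card (stabilizer B w) = d := by
    intro w hw
    rw [← hd w hw]
    have h1 : stabilizer B w = (stabilizer A w).subgroupOf B := by
      ext g
      simp only [mem_stabilizer_iff, Subgroup.mem_subgroupOf]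
      rfl
    rw [h1]
    exact Nat.card_congr (Subgroup.subgroupOfEquivOfLe (hle w hw)).toEquiv
  -- the index
  have hdB : d ∣ Nat.card B := by
    rw [← hsB x hx]
    exact Subgroup.card_subgroup_dvd_card _
  obtain ⟨m, hm⟩ := hdB
  have hm1 : m ∣ Nat.card X' := dvd_card_sub X' d m (fun y hy => hsB y hy) (by rw [hm, mul_comm]) hd0
  have hm2 : m ∣ k := by
    have h1 := Subgroup.card_mul_index B
    rw [hm, ← hkd] at h1
    have h2 : d * (m * B.index) = d * k := by
      rw [← mul_assoc, h1, mul_comm]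
    exact ⟨B.index, (Nat.eq_of_mul_eq_mul_left hd0 h2).symm⟩
  have hm3 : m = 1 := Nat.eq_one_of_dvd_coprimes hco hm2 (by rwa [← hcX])
  rw [hm3, mul_one] at hm
  have key : ∀ w ∈ X, stabilizer A w = B := by
    intro w hw
    apply Subgroup.eq_of_le_of_card_ge (hle w hw)
    rw [hm, hd w hw]
  rw [key x hx, key y hy]

/-- The main theorem. -/
theorem result {G Ω : Type*} [Group G] [Finite G]
    [MulAction G Ω] [FaithfulSMul G Ω] [Finite Ω] (htrans : MulAction.IsPretransitive G Ω)
    (hne : ∀ a : Ω, MulAction.stabilizer G a ≠ ⊥)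
    (hhalf : ∀ a b c : Ω, b ≠ a → c ≠ a →
      Nat.card (MulAction.orbit (MulAction.stabilizer G a) b) = Nat.card (MulAction.orbit (MulAction.stabilizer G a) c))
    (N : Subgroup G) [hN : N.Normal] (hNt : MulAction.IsPretransitive N Ω) (hNr : ∀ a : Ω, MulAction.stabilizer N a = ⊥)
    (hnotF : ∃ a b : Ω, a ≠ b ∧ MulAction.stabilizer G a ⊓ MulAction.stabilizer G b ≠ ⊥) :
    (∃ p : ℕ, p.Prime ∧ IsMulCommutative N ∧ ∀ x ∈ N, x ^ p = 1) ∧
    (∀ M : Subgroup G, M.Normal → M ≠ ⊥ → N ≤ M) := by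
  classical
  obtain ⟨a, b, hab, hnt⟩ := hnotF
  let A := stabilizer G a
  -- coordinates
  have hfix : ∀ y ∈ N, y • a = a → y = 1 := by
    intro y hy h
    have h1 : (⟨y, hy⟩ : N) ∈ stabilizer N a := mem_stabilizer_iff.mpr h
    rw [hNr a, Subgroup.mem_bot] at h1
    exact congrArg Subtype.val h1
  have hinj : ∀ y ∈ N, ∀ z ∈ N, y • a = z • a → y = z := by
    intro y hy z hz h
    have h1 : (z⁻¹ * y) • a = a := by rw [mul_smul, h, inv_smul_smul]
    have h2 := hfix _ (N.mul_mem (N.inv_mem hz) hy) h1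
    exact (inv_mul_eq_one.mp h2).symm
  have hsurj : ∀ ω : Ω, ∃ y ∈ N, y • a = ω := by
    intro ω
    obtain ⟨y, hy⟩ := hNt.exists_smul_eq a ω
    exact ⟨y, y.2, hy⟩
  have hconj : ∀ (g : A) (y : G), (g : G) • y • a = ((g : G) * y * (g : G)⁻¹) • a := by
    intro g y
    have h1 : (g : G)⁻¹ • a = a := by
      have h2 : (g : G) • a = a := mem_stabilizer_iff.mp g.2
      rw [inv_smul_eq_iff, h2]
    rw [mul_smul, mul_smul, h1]
  have hNconj : ∀ (g : G), ∀ y ∈ N, g * y * g⁻¹ ∈ N := fun g y hy => hN.conj_mem y hy g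
  have hmem : ∀ (g : A), ∀ y ∈ N, g ∈ stabilizer A (y • a) ↔ (g : G) * y * (g : G)⁻¹ = y := by
    intro g y hy
    rw [mem_stabilizer_iff]
    show (g : G) • y • a = y • a ↔ _
    rw [hconj]
    exact ⟨fun h => hinj _ (hNconj _ y hy) _ hy h, fun h => by rw [h]⟩
  -- the numbers
  set k := Nat.card (orbit A b) with hk
  set d := Nat.card (stabilizer A b) with hd
  have hkd : k * d = Nat.card A := orbit_mul_stab (B := A) b
  have hk0 : 0 < k := by
    haveI : Nonempty (orbit A b) := ⟨⟨b, mem_orbit_self b⟩⟩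
    exact Nat.card_pos
  have hstab : ∀ ω : Ω, ω ≠ a → Nat.card (stabilizer A ω) = d := by
    intro ω hω
    have h1 := orbit_mul_stab (B := A) ω
    have h2 : Nat.card (orbit A ω) = k := hhalf a ω b hω hab.symm
    rw [h2, ← hkd] at h1
    exact Nat.eq_of_mul_eq_mul_left hk0 h1
  have hstabN : ∀ y ∈ N, y ≠ 1 → Nat.card (stabilizer A (y • a)) = d := by
    intro y hy hy1
    apply hstab
    intro h
    exact hy1 (hfix y hy h)
  have hd1 : 1 < d := by
    obtain ⟨g, hg, hg1⟩ : ∃ g ∈ stabilizer G a ⊓ stabilizer G b, g ≠ 1 := by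
      by_contra h
      push Not at h
      exact hnt ((Subgroup.eq_bot_iff_forall _).mpr h)
    have h1 : (⟨g, hg.1⟩ : A) ∈ stabilizer A b := mem_stabilizer_iff.mpr hg.2
    haveI : Nontrivial (stabilizer A b) := by
      refine ⟨⟨⟨⟨g, hg.1⟩, h1⟩, 1, ?_⟩⟩
      intro h
      exact hg1 (congrArg (fun x : stabilizer A b => ((x : A) : G)) h)
    exact Finite.one_lt_card
  have hfaith : ∀ g : A, (∀ y ∈ N, (g : G) * y * (g : G)⁻¹ = y) → g = 1 := by
    intro g hg
    have h1 : (g : G) = 1 := by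
      apply FaithfulSMul.eq_of_smul_eq_smul (α := Ω)
      intro ω
      obtain ⟨y, hy, rfl⟩ := hsurj ω
      rw [hconj, hg y hy, one_smul]
    exact Subtype.ext h1
  -- coprimality
  have hcardN : Nat.card N = Nat.card Ω := by
    apply Nat.card_eq_of_bijective (fun y : N => (y : G) • a)
    constructor
    · intro y z h
      exact Subtype.ext (hinj _ y.2 _ z.2 h)
    · intro ω
      obtain ⟨y, hy, h⟩ := hsurj ω
      exact ⟨⟨y, hy⟩, h⟩
  have hkN : Nat.Coprime k (Nat.card N) := by
    let X : SubMulAction A Ω :=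
      { carrier := {ω | ω ≠ a}
        smul_mem' := fun c w hw h => by
          apply hw
          have h1 : (c : G) • a = a := mem_stabilizer_iff.mp c.2
          have h2 : (c : G) • w = (c : G) • a := by
            rw [h1]
            exact h
          exact smul_left_cancel _ h2 }
    have h1 : k ∣ Nat.card X := by
      apply dvd_card_sub X d k (fun y hy => hstab y hy) hkd
      omega
    have h2 : Nat.card X + 1 = Nat.card Ω := by
      have h3 : Nat.card X = Nat.card {ω : Ω // ω ≠ a} := rfl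
      haveI := Fintype.ofFinite Ω
      rw [h3, Nat.card_eq_fintype_card, Nat.card_eq_fintype_card, Fintype.card_subtype_compl]
      simp only [Fintype.card_unique]
      have : 0 < Fintype.card Ω := Fintype.card_pos_iff.mpr ⟨a⟩
      omega
    rw [hcardN, ← h2]
    have h3 : Nat.Coprime (Nat.card X) (Nat.card X + 1) := by simp
    exact Nat.Coprime.coprime_dvd_left h1 h3
  -- conjugate elements have the same stabilizer
  have hcl : ∀ x ∈ N, x ≠ 1 → ∀ n ∈ N, stabilizer A ((n * x * n⁻¹) • a) = stabilizer A (x • a) := by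
    intro x hx hx1 n hn
    haveI : Finite (ConjAct N) := Finite.of_equiv N ConjAct.toConjAct.toEquiv
    let x₀ : N := ⟨x, hx⟩
    let O := orbit (ConjAct N) x₀
    let f : N → Ω := fun y => (y : G) • a
    have hf : Function.Injective f := fun y z h => Subtype.ext (hinj _ y.2 _ z.2 h)
    have hO : ∀ y : N, y ∈ O ↔ ∃ m : N, y = m * x₀ * m⁻¹ := by
      intro y
      constructor
      · rintro ⟨m, rfl⟩
        exact ⟨ConjAct.ofConjAct m, (ConjAct.smul_def m x₀)⟩
      · rintro ⟨m, rfl⟩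
        exact ⟨ConjAct.toConjAct m, (ConjAct.smul_def _ x₀)⟩
    let X : Set Ω := f '' O
    have hXc : Nat.card X ∣ Nat.card N := by
      have h1 : Nat.card X = Nat.card O := by
        show Nat.card (f '' O) = _
        rw [Nat.card_image_of_injective hf]
      rw [h1]
      have h2 := orbit_mul_stab (B := ConjAct N) x₀
      have h3 : Nat.card (ConjAct N) = Nat.card N := rfl
      rw [← h3, ← h2]
      exact Dvd.intro _ rfl
    have hXmem : ∀ ω, ω ∈ X ↔ ∃ m ∈ N, ω = (m * x * m⁻¹) • a := by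
      intro ω
      constructor
      · rintro ⟨y, hy, rfl⟩
        obtain ⟨m, rfl⟩ := (hO y).mp hy
        exact ⟨m, m.2, rfl⟩
      · rintro ⟨m, hm, rfl⟩
        exact ⟨⟨m, hm⟩ * x₀ * ⟨m, hm⟩⁻¹, (hO _).mpr ⟨⟨m, hm⟩, rfl⟩, rfl⟩
    have hne1 : ∀ m : G, m * x * m⁻¹ ≠ 1 := by
      intro m h
      apply hx1
      have h1 : m⁻¹ * (m * x * m⁻¹) * m = x := by group
      rw [← h1, h]
      group
    apply stab_eq_of_block X k d hkd _ (Nat.Coprime.coprime_dvd_right hXc hkN) _
      ((hXmem _).mpr ⟨n, hn, rfl⟩) ((hXmem _).mpr ⟨1, N.one_mem, by simp⟩)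
    · intro y hy
      obtain ⟨m, hm, rfl⟩ := (hXmem y).mp hy
      exact hstabN _ (N.mul_mem (N.mul_mem hm hx) (N.inv_mem hm)) (hne1 m)
    · rintro g ω hω hgω z hz
      obtain ⟨m, hm, rfl⟩ := (hXmem ω).mp hω
      obtain ⟨m', hm', hm'e⟩ := (hXmem _).mp hgω
      obtain ⟨l, hl, rfl⟩ := (hXmem z).mp hz
      have h1 : (g : G) • (m * x * m⁻¹) • a = (m' * x * m'⁻¹) • a := hm'e
      rw [hconj] at h1
      have h2 := hinj _ (hNconj _ _ (N.mul_mem (N.mul_mem hm hx) (N.inv_mem hm))) _
        (N.mul_mem (N.mul_mem hm' hx) (N.inv_mem hm')) h1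
      -- the conjugate of `x`
      set γ : G := (g : G) with hγ
      set m₁ : G := γ * m * γ⁻¹ with hm₁
      have hm₁N : m₁ ∈ N := hNconj _ _ hm
      have h3 : γ * x * γ⁻¹ = (m₁⁻¹ * m') * x * (m₁⁻¹ * m')⁻¹ := by
        have h4 : γ * (m * x * m⁻¹) * γ⁻¹ = m₁ * (γ * x * γ⁻¹) * m₁⁻¹ := by
          rw [hm₁]
          group
        rw [h4] at h2
        have h5 : γ * x * γ⁻¹ = m₁⁻¹ * (m₁ * (γ * x * γ⁻¹) * m₁⁻¹) * m₁ := by group
        rw [h5, h2]
        group
      refine (hXmem _).mpr ⟨γ * l * γ⁻¹ * (m₁⁻¹ * m'), ?_, ?_⟩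
      · exact N.mul_mem (hNconj _ _ hl) (N.mul_mem (N.inv_mem hm₁N) hm')
      · show γ • (l * x * l⁻¹) • a = _
        rw [hconj]
        congr 1
        have h4 : γ * (l * x * l⁻¹) * γ⁻¹ = (γ * l * γ⁻¹) * (γ * x * γ⁻¹) * (γ * l * γ⁻¹)⁻¹ := by group
        rw [h4, h3]
        group
  -- notation
  let st : G → Subgroup A := fun y => stabilizer A (y • a)
  have hst : ∀ (g : A), ∀ y ∈ N, g ∈ st y ↔ (g : G) * y * (g : G)⁻¹ = y := hmem
  have hstc : ∀ y ∈ N, y ≠ 1 → Nat.card (st y) = d := hstabN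
  have hsteq : ∀ y ∈ N, ∀ z ∈ N, y ≠ 1 → z ≠ 1 → st y ≤ st z → st y = st z := by
    intro y hy z hz hy1 hz1 h
    apply Subgroup.eq_of_le_of_card_ge h
    rw [hstc y hy hy1, hstc z hz hz1]
  have hstinv : ∀ y ∈ N, st y⁻¹ = st y := by
    intro y hy
    ext g
    rw [hst g _ (N.inv_mem hy), hst g _ hy]
    constructor
    · intro h
      have h1 := congrArg (fun t => t⁻¹) h
      simpa [mul_assoc] using h1
    · intro h
      have h1 := congrArg (fun t => t⁻¹) h
      simpa [mul_assoc] using h1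
  have hstmul : ∀ y ∈ N, ∀ z ∈ N, ∀ g : A, g ∈ st y → g ∈ st z → g ∈ st (y * z) := by
    intro y hy z hz g h1 h2
    rw [hst g _ (N.mul_mem hy hz)]
    rw [hst g _ hy] at h1
    rw [hst g _ hz] at h2
    calc (g : G) * (y * z) * (g : G)⁻¹ = ((g : G) * y * (g : G)⁻¹) * ((g : G) * z * (g : G)⁻¹) := by group
      _ = y * z := by rw [h1, h2]
  have hstdiv : ∀ y ∈ N, ∀ z ∈ N, ∀ g : A, g ∈ st y → g ∈ st (y * z) → g ∈ st z := by
    intro y hy z hz g h1 h2
    have h3 := hstmul _ (N.inv_mem hy) _ (N.mul_mem hy hz) g (by rw [hstinv y hy]; exact h1) h2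
    rwa [inv_mul_cancel_left] at h3
  -- commuting
  have hcomm : ∀ x ∈ N, ∀ y ∈ N, x ≠ 1 → y ≠ 1 → st x ≠ st y → x * y = y * x := by
    intro x hx y hy hx1 hy1 hne'
    by_contra hxy
    set z := x * y * x⁻¹ * y⁻¹ with hz
    have hzN : z ∈ N := N.mul_mem (N.mul_mem (N.mul_mem hx hy) (N.inv_mem hx)) (N.inv_mem hy)
    have hz1 : z ≠ 1 := by
      intro h
      apply hxy
      have h1 : x * y * x⁻¹ * y⁻¹ = 1 := h
      have h2 : x * y * x⁻¹ = y := by
        rw [mul_inv_eq_one] at h1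
        exact h1
      rw [mul_inv_eq_iff_eq_mul] at h2
      exact h2
    have h1 : st x ≤ st z := by
      intro g hg
      have h2 : z = x * (y * x⁻¹ * y⁻¹) := by rw [hz]; group
      rw [h2]
      apply hstmul x hx _ (N.mul_mem (N.mul_mem hy (N.inv_mem hx)) (N.inv_mem hy)) g hg
      have h3 : st (y * x⁻¹ * y⁻¹) = st x⁻¹ := hcl x⁻¹ (N.inv_mem hx) (inv_ne_one.mpr hx1) y hy
      show g ∈ st (y * x⁻¹ * y⁻¹)
      rw [h3, hstinv x hx]
      exact hg
    have h2 : st y ≤ st z := by
      intro g hg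
      have h3 : z = (x * y * x⁻¹) * y⁻¹ := by rw [hz]
      rw [h3]
      apply hstmul _ (N.mul_mem (N.mul_mem hx hy) (N.inv_mem hx)) _ (N.inv_mem hy) g
      · have h4 : st (x * y * x⁻¹) = st y := hcl y hy hy1 x hx
        rw [h4]
        exact hg
      · rw [hstinv y hy]
        exact hg
    exact hne' ((hsteq x hx z hzN hx1 hz1 h1).trans (hsteq y hy z hzN hy1 hz1 h2).symm)
  -- not all stabilizers are equal
  have hnotall : ¬ ∀ x ∈ N, ∀ y ∈ N, x ≠ 1 → y ≠ 1 → st x = st y := by
    intro hall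
    obtain ⟨n₀, hn₀, hn₀e⟩ := hsurj b
    have hn₀1 : n₀ ≠ 1 := by
      rintro rfl
      rw [one_smul] at hn₀e
      exact hab hn₀e
    haveI : Nontrivial (st n₀) := by
      have := hstc n₀ hn₀ hn₀1
      exact Finite.one_lt_card_iff_nontrivial.mp (by omega)
    obtain ⟨g, hg⟩ := exists_ne (1 : st n₀)
    apply hg
    apply Subtype.ext
    apply hfaith
    intro y hy
    by_cases hy1 : y = 1
    · rw [hy1]
      group
    · have h1 : (g : A) ∈ st y := by
        rw [← hall n₀ hn₀ y hy hn₀1 hy1]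
        exact g.2
      exact (hst _ _ hy).mp h1
  -- `N` is abelian
  have hother : ∀ x ∈ N, x ≠ 1 → ∃ w ∈ N, w ≠ 1 ∧ st w ≠ st x := by
    intro x hx hx1
    by_contra hno
    push Not at hno
    apply hnotall
    intro y hy z hz hy1 hz1
    rw [hno y hy hy1, hno z hz hz1]
  have hab' : ∀ x ∈ N, ∀ y ∈ N, x * y = y * x := by
    intro x hx y hy
    by_cases hx1 : x = 1
    · rw [hx1, one_mul, mul_one]
    by_cases hy1 : y = 1
    · rw [hy1, one_mul, mul_one]
    by_cases hxy : st x = st y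
    · obtain ⟨w, hw, hw1, hwx⟩ := hother x hx hx1
      have hxw : x * w ≠ 1 := by
        intro h
        have h1 : w = x⁻¹ := eq_inv_of_mul_eq_one_right h
        apply hwx
        rw [h1, hstinv x hx]
      have h1 : st (x * w) ≠ st x := by
        intro h
        apply hwx
        apply (hsteq x hx w hw hx1 hw1 ?_).symm
        intro g hg
        apply hstdiv x hx w hw g hg
        show g ∈ st (x * w)
        rw [h]
        exact hg
      have h2 : (x * w) * y = y * (x * w) :=
        hcomm _ (N.mul_mem hx hw) y hy hxw hy1 (by rw [← hxy]; exact h1)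
      have h3 : w * y = y * w := hcomm w hw y hy hw1 hy1 (by rw [← hxy]; exact hwx)
      have h4 : x * y * w = y * x * w := by
        calc x * y * w = x * (y * w) := by group
          _ = x * (w * y) := by rw [h3]
          _ = (x * w) * y := by group
          _ = y * (x * w) := h2
          _ = y * x * w := by group
      exact mul_right_cancel h4
    · exact hcomm x hx y hy hx1 hy1 hxy
  -- invariant subgroups
  have hsimple : ∀ U : Subgroup G, U ≤ N → (∀ g : A, ∀ u ∈ U, (g : G) * u * (g : G)⁻¹ ∈ U) →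
      U = ⊥ ∨ U = N := by
    intro U hUN hUinv
    by_contra hcon
    push Not at hcon
    obtain ⟨hU1, hUN'⟩ := hcon
    obtain ⟨v₀, hv₀N, hv₀U⟩ : ∃ v ∈ N, v ∉ U := by
      by_contra h
      push Not at h
      exact hUN' (le_antisymm hUN h)
    have hcst : ∀ v ∈ N, v ∉ U → ∀ u ∈ U, st (v * u) = st v := by
      intro v hvN hvU u hu
      let f : U → Ω := fun w => (v * (w : G)) • a
      have hf : Function.Injective f := by
        intro w w' h
        have h1 := hinj _ (N.mul_mem hvN (hUN w.2)) _ (N.mul_mem hvN (hUN w'.2)) h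
        exact Subtype.ext (mul_left_cancel h1)
      let X : Set Ω := Set.range f
      have hXc : Nat.card X ∣ Nat.card N := by
        have h1 : Nat.card X = Nat.card U := Nat.card_range_of_injective hf
        rw [h1]
        exact Subgroup.card_dvd_of_le hUN
      have hXmem : ∀ ω, ω ∈ X ↔ ∃ w ∈ U, ω = (v * w) • a := by
        intro ω
        constructor
        · rintro ⟨w, rfl⟩
          exact ⟨w, w.2, rfl⟩
        · rintro ⟨w, hw, rfl⟩
          exact ⟨⟨w, hw⟩, rfl⟩
      have hne1 : ∀ w ∈ U, v * w ≠ 1 := by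
        intro w hw h
        apply hvU
        have h1 : v = w⁻¹ := eq_inv_of_mul_eq_one_left h
        rw [h1]
        exact U.inv_mem hw
      apply stab_eq_of_block X k d hkd _ (Nat.Coprime.coprime_dvd_right hXc hkN) _
        ((hXmem _).mpr ⟨u, hu, rfl⟩) ((hXmem _).mpr ⟨1, U.one_mem, by simp⟩)
      · intro y hy
        obtain ⟨w, hw, rfl⟩ := (hXmem y).mp hy
        exact hstabN _ (N.mul_mem hvN (hUN hw)) (hne1 w hw)
      · rintro g ω hω hgω z hz
        obtain ⟨w, hw, rfl⟩ := (hXmem ω).mp hω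
        obtain ⟨w', hw', hw'e⟩ := (hXmem _).mp hgω
        obtain ⟨l, hl, rfl⟩ := (hXmem z).mp hz
        have h1 : (g : G) • (v * w) • a = (v * w') • a := hw'e
        rw [hconj] at h1
        have h2 := hinj _ (hNconj _ _ (N.mul_mem hvN (hUN hw))) _ (N.mul_mem hvN (hUN hw')) h1
        set γ : G := (g : G) with hγ
        have h3 : γ * v * γ⁻¹ = v * (w' * (γ * w * γ⁻¹)⁻¹) := by
          have h4 : γ * (v * w) * γ⁻¹ = (γ * v * γ⁻¹) * (γ * w * γ⁻¹) := by group
          rw [h4] at h2
          rw [← mul_assoc, ← h2]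
          group
        refine (hXmem _).mpr ⟨(w' * (γ * w * γ⁻¹)⁻¹) * (γ * l * γ⁻¹), ?_, ?_⟩
        · exact U.mul_mem (U.mul_mem hw' (U.inv_mem (hUinv g w hw))) (hUinv g l hl)
        · show γ • (v * l) • a = _
          rw [hconj]
          congr 1
          have h4 : γ * (v * l) * γ⁻¹ = (γ * v * γ⁻¹) * (γ * l * γ⁻¹) := by group
          rw [h4, h3]
          group
    have hUv : ∀ v ∈ N, v ∉ U → ∀ u ∈ U, u ≠ 1 → st u = st v := by
      intro v hvN hvU u hu hu1
      have hv1 : v ≠ 1 := by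
        rintro rfl
        exact hvU U.one_mem
      apply (hsteq v hvN u (hUN hu) hv1 hu1 ?_).symm
      intro g hg
      apply hstdiv v hvN u (hUN hu) g hg
      show g ∈ st (v * u)
      rw [hcst v hvN hvU u hu]
      exact hg
    obtain ⟨u₀, hu₀, hu₀1⟩ : ∃ u ∈ U, u ≠ 1 := by
      by_contra h
      push Not at h
      exact hU1 ((Subgroup.eq_bot_iff_forall _).mpr h)
    have hall : ∀ x ∈ N, x ≠ 1 → st x = st u₀ := by
      intro x hx hx1
      by_cases hxU : x ∈ U
      · rw [hUv v₀ hv₀N hv₀U x hxU hx1, hUv v₀ hv₀N hv₀U u₀ hu₀ hu₀1]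
      · exact (hUv x hx hxU u₀ hu₀ hu₀1).symm
    apply hnotall
    intro x hx y hy hx1 hy1
    rw [hall x hx hx1, hall y hy hy1]
  -- the conclusions
  obtain ⟨n₀, hn₀, hn₀e⟩ := hsurj b
  have hn₀1 : n₀ ≠ 1 := by
    rintro rfl
    rw [one_smul] at hn₀e
    exact hab hn₀e
  have hN1 : Nat.card N ≠ 1 := by
    intro h
    have h1 := (Nat.card_eq_one_iff_unique.mp h).1
    have h2 : (⟨n₀, hn₀⟩ : N) = 1 := Subsingleton.elim _ _
    exact hn₀1 (congrArg Subtype.val h2)
  obtain ⟨p, hp, hpN⟩ := Nat.exists_prime_and_dvd hN1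
  haveI : Fact p.Prime := ⟨hp⟩
  obtain ⟨x₀, hx₀⟩ := exists_prime_orderOf_dvd_card' p hpN
  have hx₀p : (x₀ : G) ^ p = 1 := by
    have h1 : x₀ ^ p = 1 := by rw [← hx₀]; exact pow_orderOf_eq_one x₀
    exact_mod_cast congrArg Subtype.val h1
  have hx₀1 : (x₀ : G) ≠ 1 := by
    intro h
    have h1 : x₀ = 1 := Subtype.ext h
    rw [h1, orderOf_one] at hx₀
    exact hp.one_lt.ne hx₀
  let U : Subgroup G :=
    { carrier := {x | x ∈ N ∧ x ^ p = 1}
      one_mem' := ⟨N.one_mem, one_pow p⟩
      mul_mem' := fun {x y} hx hy => ⟨N.mul_mem hx.1 hy.1, by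
        have h1 : Commute x y := hab' x hx.1 y hy.1
        rw [h1.mul_pow, hx.2, hy.2, one_mul]⟩
      inv_mem' := fun {x} hx => ⟨N.inv_mem hx.1, by rw [inv_pow, hx.2, inv_one]⟩ }
  have hUN : U = N := by
    rcases hsimple U (fun x hx => hx.1) (by
      intro g u hu
      refine ⟨hNconj _ _ hu.1, ?_⟩
      rw [conj_pow, hu.2, mul_one, mul_inv_cancel]) with h | h
    · exfalso
      have h1 : (x₀ : G) ∈ U := ⟨x₀.2, hx₀p⟩
      rw [h, Subgroup.mem_bot] at h1
      exact hx₀1 h1
    · exact h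
  refine ⟨⟨p, hp, ⟨⟨fun x y => Subtype.ext (hab' _ x.2 _ y.2)⟩⟩, ?_⟩, ?_⟩
  · intro x hx
    rw [← hUN] at hx
    exact hx.2
  · intro M hM hM1
    rcases hsimple (M ⊓ N) inf_le_right (by
      intro g u hu
      exact ⟨hM.conj_mem _ hu.1 _, hNconj _ _ hu.2⟩) with h | h
    · exfalso
      obtain ⟨m, hm, hm1⟩ : ∃ m ∈ M, m ≠ 1 := by
        by_contra h'
        push Not at h'
        exact hM1 ((Subgroup.eq_bot_iff_forall _).mpr h')
      obtain ⟨n, hn, hne⟩ := hsurj (m • a)
      have hdisj : Disjoint M N := by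
        rw [Subgroup.disjoint_def]
        intro y hy hy'
        have h1 : y ∈ M ⊓ N := ⟨hy, hy'⟩
        rw [h, Subgroup.mem_bot] at h1
        exact h1
      have hg : n⁻¹ * m ∈ A := by
        rw [mem_stabilizer_iff, mul_smul, ← hne, inv_smul_smul]
      have hg1 : (⟨n⁻¹ * m, hg⟩ : A) = 1 := by
        apply hfaith
        intro y hy
        show n⁻¹ * m * y * (n⁻¹ * m)⁻¹ = y
        have h1 : m * y = y * m :=
          (Subgroup.commute_of_normal_of_disjoint _ _ hM inferInstance hdisj m y hm hy)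
        have h2 : y * n = n * y := hab' y hy n hn
        calc n⁻¹ * m * y * (n⁻¹ * m)⁻¹ = n⁻¹ * (m * y) * m⁻¹ * n := by group
          _ = n⁻¹ * (y * m) * m⁻¹ * n := by rw [h1]
          _ = n⁻¹ * (y * n) := by group
          _ = n⁻¹ * (n * y) := by rw [h2]
          _ = y := by group
      have hg2 : n⁻¹ * m = 1 := congrArg Subtype.val hg1
      have hmn : m = n := by
        rw [inv_mul_eq_one] at hg2
        exact hg2.symm
      have h1 : m ∈ M ⊓ N := ⟨hm, hmn ▸ hn⟩
      rw [h, Subgroup.mem_bot] at h1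
      exact hm1 h1
    · rw [← h]
      exact inf_le_left

end Cfsg.Agent.S3356
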