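import Mathlib
import Cfsg.Statements.S3357
import Cfsg.Agent.Lib.FpfChar
import Cfsg.Agent.Lib.FrobConj

set_option autoImplicit false
set_option linter.unusedSectionVars false
set_option linter.style.haveILetI false

namespace Cfsg.Agent.S3357

open Cfsg.Agent.Lib.FpfChar Cfsg.Agent.Lib.FpfNorm

section Alg

variable {A : Type*} [Group A] [Fintype A] [DecidableEq A]
variable {𝕜 : Type*} [Field 𝕜] [CharZero 𝕜]

/-- The rational version of the norm elements. -/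
noncomputable def genQ (x a y : A) : A → ℚ :=
  ∑ i ∈ Finset.range (orderOf a), Pi.single (x * a ^ i * y) 1

/-- The version of the norm elements over a field. -/
noncomputable def genK (𝕜 : Type*) [Field 𝕜] {A : Type*} [Group A] [Fintype A] [DecidableEq A]
    (x a y : A) : A → 𝕜 :=
  ∑ i ∈ Finset.range (orderOf a), Pi.single (x * a ^ i * y) 1

theorem genQ_eq (x a y : A) : genQ x a y = fun z => ((gen x a y z : ℤ) : ℚ) := by
  ext z
  simp [genQ, gen, Finset.sum_apply, Pi.single_apply]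

/-- Clearing denominators. -/
theorem exists_int_of_mem_span (v : A → ℚ)
    (hv : v ∈ Submodule.span ℚ {z | ∃ x a y : A, a ≠ 1 ∧ z = genQ x a y}) :
    ∃ d : ℤ, d ≠ 0 ∧ ∃ l ∈ KK A, ∀ z, (d : ℚ) * v z = (l z : ℚ) := by
  induction hv using Submodule.span_induction with
  | mem z hz =>
    obtain ⟨x, a, y, ha, rfl⟩ := hz
    refine ⟨1, one_ne_zero, gen x a y, Submodule.subset_span ⟨x, a, y, ha, rfl⟩, ?_⟩
    intro z
    rw [genQ_eq]
    simp
  | zero =>
    exact ⟨1, one_ne_zero, 0, Submodule.zero_mem _, by simp⟩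
  | add u w _ _ hu hw =>
    obtain ⟨d₁, hd₁, l₁, hl₁, h₁⟩ := hu
    obtain ⟨d₂, hd₂, l₂, hl₂, h₂⟩ := hw
    refine ⟨d₁ * d₂, mul_ne_zero hd₁ hd₂, d₂ • l₁ + d₁ • l₂,
      Submodule.add_mem _ (Submodule.smul_mem _ _ hl₁) (Submodule.smul_mem _ _ hl₂), ?_⟩
    intro z
    have h3 := h₁ z
    have h4 := h₂ z
    simp only [Pi.add_apply, Pi.smul_apply, smul_eq_mul]
    push_cast
    rw [← h3, ← h4]
    ring
  | smul q u _ hu =>
    obtain ⟨d, hd, l, hl, h⟩ := hu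
    refine ⟨(q.den : ℤ) * d, mul_ne_zero (by exact_mod_cast q.den_ne_zero) hd, q.num • l,
      Submodule.smul_mem _ _ hl, ?_⟩
    intro z
    have h3 := h z
    simp only [Pi.smul_apply, smul_eq_mul]
    push_cast
    rw [← h3]
    have h5 : (q.den : ℚ) * q = q.num := by
      exact Rat.den_mul_eq_num q
    calc (q.den : ℚ) * d * (q * u z) = ((q.den : ℚ) * q) * (d * u z) := by ring
      _ = _ := by rw [h5]

/-- The ideal generated by the norm elements, over a field. -/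
noncomputable def JJ (𝕜 : Type*) [Field 𝕜] (A : Type*) [Group A] [Fintype A] [DecidableEq A] :
    Submodule 𝕜 (A → 𝕜) :=
  Submodule.span 𝕜 {z | ∃ x a y : A, a ≠ 1 ∧ z = genK 𝕜 x a y}

/-- `1` is not in the ideal when no nonzero integer lies in `KK`. -/
theorem single_one_not_mem (hKK : ∀ n : ℤ, (Pi.single 1 n : A → ℤ) ∈ KK A → n = 0) :
    (Pi.single 1 1 : A → 𝕜) ∉ JJ 𝕜 A := by
  intro hmem
  set Q : Submodule ℚ (A → ℚ) := Submodule.span ℚ {z | ∃ x a y : A, a ≠ 1 ∧ z = genQ x a y} with hQ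
  have hnot : (Pi.single 1 1 : A → ℚ) ∉ Q := by
    intro h
    obtain ⟨d, hd, l, hl, h2⟩ := exists_int_of_mem_span _ h
    have h3 : l = Pi.single 1 d := by
      ext z
      have h4 := h2 z
      by_cases hz : z = 1
      · subst hz
        simp only [Pi.single_eq_same, mul_one] at h4
        simp only [Pi.single_eq_same]
        exact_mod_cast h4.symm
      · simp only [Pi.single_eq_of_ne hz, mul_zero] at h4
        rw [Pi.single_eq_of_ne hz]
        exact_mod_cast h4.symm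
    rw [h3] at hl
    exact hd (hKK d hl)
  obtain ⟨ℓ, hℓ1, hℓ2⟩ := Submodule.exists_le_ker_of_notMem hnot
  -- the coefficients of the functional
  set c : A → ℚ := fun g => ℓ (Pi.single g 1) with hc
  have hℓ : ∀ v : A → ℚ, ℓ v = ∑ g, v g * c g := by
    intro v
    conv_lhs => rw [← Finset.univ_sum_single v]
    rw [map_sum]
    refine Finset.sum_congr rfl fun g _ => ?_
    have : (Pi.single g (v g) : A → ℚ) = v g • Pi.single g 1 := by
      ext z
      simp [Pi.single_apply]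
    rw [this, map_smul, smul_eq_mul]
  let ℓ' : (A → 𝕜) →ₗ[𝕜] 𝕜 :=
    ∑ g, ((c g : ℚ) : 𝕜) • LinearMap.proj g
  have hℓ' : ∀ v : A → 𝕜, ℓ' v = ∑ g, v g * ((c g : ℚ) : 𝕜) := by
    intro v
    simp [ℓ', LinearMap.sum_apply, mul_comm]
  have hle : JJ 𝕜 A ≤ LinearMap.ker ℓ' := by
    rw [JJ, Submodule.span_le]
    rintro _ ⟨x, a, y, ha, rfl⟩
    rw [SetLike.mem_coe, LinearMap.mem_ker, hℓ']
    have h1 : genQ x a y ∈ Q := Submodule.subset_span ⟨x, a, y, ha, rfl⟩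
    have h2 : ℓ (genQ x a y) = 0 := hℓ2 h1
    rw [hℓ] at h2
    have h3 : ∀ g, genK 𝕜 x a y g = ((genQ x a y g : ℚ) : 𝕜) := by
      intro g
      simp [genK, genQ, Finset.sum_apply, Pi.single_apply]
    have h4 := congrArg (fun q : ℚ => (q : 𝕜)) h2
    simp only [Rat.cast_sum, Rat.cast_mul, Rat.cast_zero] at h4
    rw [← h4]
    exact Finset.sum_congr rfl fun g _ => by rw [h3]
  have h5 := hle hmem
  rw [LinearMap.mem_ker, hℓ'] at h5
  rw [Finset.sum_eq_single 1] at h5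
  · simp only [Pi.single_eq_same, one_mul] at h5
    have h6 : c 1 = 0 := by exact_mod_cast h5
    have h7 : ℓ (Pi.single 1 1) = 0 := h6
    exact hℓ1 h7
  · intro g _ hg
    simp [Pi.single_eq_of_ne hg]
  · simp

/-- Left translation. -/
noncomputable def TT (𝕜 : Type*) [Field 𝕜] {A : Type*} [Group A] (a : A) : (A → 𝕜) →ₗ[𝕜] (A → 𝕜) :=
  LinearMap.funLeft 𝕜 𝕜 (fun x => a⁻¹ * x)

theorem TT_apply (a : A) (l : A → 𝕜) (x : A) : TT 𝕜 a l x = l (a⁻¹ * x) := rfl

theorem TT_single (a z : A) (c : 𝕜) : TT 𝕜 a (Pi.single z c) = Pi.single (a * z) c := by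
  ext x
  rw [TT_apply]
  by_cases h : x = a * z
  · subst h
    simp
  · have h2 : a⁻¹ * x ≠ z := fun h3 => h (by rw [← h3]; group)
    rw [Pi.single_eq_of_ne h, Pi.single_eq_of_ne h2]

theorem TT_mul (a b : A) (l : A → 𝕜) : TT 𝕜 (a * b) l = TT 𝕜 a (TT 𝕜 b l) := by
  ext x
  simp only [TT_apply, mul_inv_rev, mul_assoc]

theorem TT_one (l : A → 𝕜) : TT 𝕜 (1 : A) l = l := by
  ext x
  simp [TT_apply]

theorem TT_gen (g x a y : A) : TT 𝕜 g (genK 𝕜 x a y) = genK 𝕜 (g * x) a y := by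
  rw [genK, map_sum, genK]
  refine Finset.sum_congr rfl fun i _ => ?_
  rw [TT_single]
  simp only [mul_assoc]

theorem JJ_le_comap (a : A) : JJ 𝕜 A ≤ (JJ 𝕜 A).comap (TT 𝕜 a) := by
  rw [JJ, Submodule.span_le]
  rintro _ ⟨x, b, y, hb, rfl⟩
  rw [SetLike.mem_coe, Submodule.mem_comap, TT_gen]
  exact Submodule.subset_span ⟨a * x, b, y, hb, rfl⟩

theorem sum_TT_mem (a : A) (ha : a ≠ 1) (l : A → 𝕜) :
    ∑ i ∈ Finset.range (orderOf a), TT 𝕜 (a ^ i) l ∈ JJ 𝕜 A := by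
  have h1 : l = ∑ y, Pi.single y (l y) := (Finset.univ_sum_single l).symm
  have h2 : ∑ i ∈ Finset.range (orderOf a), TT 𝕜 (a ^ i) l =
      ∑ y, (l y) • genK 𝕜 1 a y := by
    conv_lhs => rw [h1]
    simp_rw [map_sum, TT_single]
    rw [Finset.sum_comm]
    refine Finset.sum_congr rfl fun y _ => ?_
    rw [genK, Finset.smul_sum]
    refine Finset.sum_congr rfl fun i _ => ?_
    ext x
    simp [Pi.single_apply]
  rw [h2]
  exact Submodule.sum_mem _ fun y _ =>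
    Submodule.smul_mem _ _ (Submodule.subset_span ⟨1, a, y, ha, rfl⟩)

/-- The quotient module. -/
abbrev WW (𝕜 : Type*) [Field 𝕜] (A : Type*) [Group A] [Fintype A] [DecidableEq A] :=
  (A → 𝕜) ⧸ JJ 𝕜 A

/-- The action on the quotient. -/
noncomputable def Θ : A →* Module.End 𝕜 (WW 𝕜 A) where
  toFun a := Submodule.mapQ _ _ (TT 𝕜 a) (JJ_le_comap a)
  map_one' := by
    ext l
    simp [TT_one]
  map_mul' a b := by
    ext l
    simp [TT_mul]

theorem Θ_mk (a : A) (l : A → 𝕜) :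
    (Θ a : Module.End 𝕜 (WW 𝕜 A)) (Submodule.Quotient.mk l) = Submodule.Quotient.mk (TT 𝕜 a l) :=
  rfl

/-- Fixed vectors vanish. -/
theorem fix_eq_zero (a : A) (ha : a ≠ 1) (u : WW 𝕜 A) (hu : (Θ a : Module.End 𝕜 (WW 𝕜 A)) u = u) :
    u = 0 := by
  obtain ⟨l, rfl⟩ := Submodule.Quotient.mk_surjective _ u
  have hpow : ∀ i, (Θ (a ^ i) : Module.End 𝕜 (WW 𝕜 A)) (Submodule.Quotient.mk l) =
      Submodule.Quotient.mk l := by
    intro i
    induction i with
    | zero => rw [pow_zero, map_one]; rfl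
    | succ i ih =>
      rw [pow_succ, map_mul, Module.End.mul_apply, hu, ih]
  have h1 : (∑ i ∈ Finset.range (orderOf a), Submodule.Quotient.mk (TT 𝕜 (a ^ i) l) : WW 𝕜 A) = 0 := by
    have h3 := sum_TT_mem (𝕜 := 𝕜) a ha l
    rw [← Submodule.Quotient.mk_eq_zero] at h3
    rw [← h3]
    exact (map_sum (Submodule.mkQ (JJ 𝕜 A)) (fun i => TT 𝕜 (a ^ i) l)
      (Finset.range (orderOf a))).symm
  have h4 : ∀ i, (Submodule.Quotient.mk (TT 𝕜 (a ^ i) l) : WW 𝕜 A) = Submodule.Quotient.mk l := hpow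
  simp_rw [h4] at h1
  rw [Finset.sum_const, Finset.card_range] at h1
  have h5 : ((orderOf a : ℕ) : 𝕜) ≠ 0 := by
    exact_mod_cast (orderOf_pos a).ne'
  rw [← Nat.cast_smul_eq_nsmul 𝕜] at h1
  exact (smul_eq_zero.1 h1).resolve_left h5

end Alg

section Main

variable {G : Type*} [Group G] [Finite G]

theorem exists_rep_of_fpf {V : Type*} [CommGroup V] [Finite V] [Nontrivial V] {φ : G →* MulAut V}
    (h : IsFpf φ) :
    ∃ (n : ℕ) (ρ : G →* GL (Fin n) (AlgebraicClosure ℚ)), 0 < n ∧ Function.Injective ρ ∧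
      (∀ W : Submodule (AlgebraicClosure ℚ) (Fin n → AlgebraicClosure ℚ),
        (∀ g : G, ∀ w ∈ W, ((ρ g : GL (Fin n) (AlgebraicClosure ℚ)) : Matrix (Fin n) (Fin n) (AlgebraicClosure ℚ)).mulVec w ∈ W) → W = ⊥ ∨ W = ⊤) ∧
      ∀ g : G, g ≠ 1 → ∀ v : Fin n → AlgebraicClosure ℚ,
        ((ρ g : GL (Fin n) (AlgebraicClosure ℚ)) : Matrix (Fin n) (Fin n) (AlgebraicClosure ℚ)).mulVec v = v → v = 0 := by
  classical
  letI : Fintype G := Fintype.ofFinite G
  set 𝕜 := AlgebraicClosure ℚ with h𝕜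
  obtain ⟨r, k, hr, ρ₀, hk, hcop, hunit⟩ := exists_matrix_rep h
  have hKK : ∀ n : ℤ, (Pi.single 1 n : G → ℤ) ∈ KK G → n = 0 :=
    fun n hn => eq_zero_of_mem_KK hk hcop ρ₀ hunit n hn
  have hnot : (Pi.single 1 1 : G → 𝕜) ∉ JJ 𝕜 G := single_one_not_mem hKK
  have hJtop : JJ 𝕜 G ≠ ⊤ := fun h' => hnot (by rw [h']; trivial)
  haveI hWnt : Nontrivial (WW 𝕜 G) := Submodule.Quotient.nontrivial_iff.mpr hJtop
  -- a minimal invariant subspace
  let 𝓢 : Set (Submodule 𝕜 (WW 𝕜 G)) :=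
    {U | U ≠ ⊥ ∧ ∀ (a : G), ∀ u ∈ U, (Θ a : Module.End 𝕜 (WW 𝕜 G)) u ∈ U}
  have h𝓢 : 𝓢.Nonempty := ⟨⊤, top_ne_bot, fun _ _ _ => trivial⟩
  obtain ⟨U, hU, hUmin⟩ := (wellFounded_lt (α := Submodule 𝕜 (WW 𝕜 G))).has_min 𝓢 h𝓢
  obtain ⟨hUne, hUinv⟩ := hU
  set n := Module.finrank 𝕜 U with hn
  have hnpos : 0 < n := by
    rw [hn, Module.finrank_pos_iff]
    exact (Submodule.nontrivial_iff_ne_bot).2 hUne
  let b : Module.Basis (Fin n) 𝕜 U := Module.finBasis 𝕜 U
  let Θ₁ : G →* Module.End 𝕜 U :=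
    { toFun := fun a => (Θ a : Module.End 𝕜 (WW 𝕜 G)).restrict (hUinv a)
      map_one' := by
        ext u
        simp
      map_mul' := fun a c => by
        ext u
        simp }
  have hΘ₁ : ∀ (a : G) (u : U), ((Θ₁ a u : U) : WW 𝕜 G) = (Θ a : Module.End 𝕜 (WW 𝕜 G)) u :=
    fun _ _ => rfl
  let ρ₁ : G →* Matrix (Fin n) (Fin n) 𝕜 :=
    ((LinearMap.toMatrixAlgEquiv b : Module.End 𝕜 U ≃ₐ[𝕜] Matrix (Fin n) (Fin n) 𝕜) :
      Module.End 𝕜 U →* Matrix (Fin n) (Fin n) 𝕜).comp Θ₁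
  let ρ : G →* GL (Fin n) 𝕜 := MonoidHom.toHomUnits ρ₁
  have hρ : ∀ g, ((ρ g : GL (Fin n) 𝕜) : Matrix (Fin n) (Fin n) 𝕜) = ρ₁ g := fun g =>
    MonoidHom.coe_toHomUnits ρ₁ g
  have hmv : ∀ (g : G) (u : U),
      ((ρ g : GL (Fin n) 𝕜) : Matrix (Fin n) (Fin n) 𝕜).mulVec (b.repr u) = b.repr (Θ₁ g u) := by
    intro g u
    rw [hρ]
    exact LinearMap.toMatrix_mulVec_repr b b (Θ₁ g) u
  have hfix : ∀ g : G, g ≠ 1 → ∀ v : Fin n → 𝕜,
      ((ρ g : GL (Fin n) 𝕜) : Matrix (Fin n) (Fin n) 𝕜).mulVec v = v → v = 0 := by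
    intro g hg v hv
    set u : U := b.equivFun.symm v with hu
    have hvu : v = b.repr u := by
      have : b.equivFun u = v := b.equivFun.apply_symm_apply v
      rw [← this]; rfl
    rw [hvu] at hv
    rw [hmv] at hv
    have h1 : Θ₁ g u = u := by
      have h2 : b.repr (Θ₁ g u) = b.repr u := by
        ext i
        exact congrFun hv i
      exact b.repr.injective h2
    have h3 := fix_eq_zero (𝕜 := 𝕜) g hg (u : WW 𝕜 G) (by
      rw [← hΘ₁, h1])
    have h4 : u = 0 := Subtype.ext h3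
    rw [hvu, h4]
    simp
  refine ⟨n, ρ, hnpos, ?_, ?_, hfix⟩
  · -- injective
    rw [injective_iff_map_eq_one]
    intro g hg
    by_contra hne
    have h1 := hfix g hne (fun _ => 1) (by
      rw [hg]
      simp)
    have h2 := congrFun h1 ⟨0, hnpos⟩
    exact one_ne_zero h2
  · -- irreducible
    intro W hW
    let S : Submodule 𝕜 (WW 𝕜 G) := (W.comap (b.equivFun : U →ₗ[𝕜] (Fin n → 𝕜))).map U.subtype
    have hSU : S ≤ U := by
      rintro _ ⟨u, _, rfl⟩
      exact u.2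
    have hSmem : ∀ u : U, (u : WW 𝕜 G) ∈ S ↔ (⇑(b.repr u) : Fin n → 𝕜) ∈ W := by
      intro u
      constructor
      · rintro ⟨u', hu', he⟩
        have : u' = u := Subtype.ext he
        rw [← this]
        exact hu'
      · intro h'
        exact ⟨u, h', rfl⟩
    have hSinv : ∀ (a : G), ∀ u ∈ S, (Θ a : Module.End 𝕜 (WW 𝕜 G)) u ∈ S := by
      intro a u hu
      have huU : u ∈ U := hSU hu
      have h1 := (hSmem ⟨u, huU⟩).1 hu
      have h2 := hW a _ h1
      rw [hmv] at h2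
      have h3 := (hSmem (Θ₁ a ⟨u, huU⟩)).2 h2
      exact h3
    by_cases hS : S = ⊥
    · left
      rw [eq_bot_iff]
      intro v hv
      set u : U := b.equivFun.symm v with hu
      have hvu : (⇑(b.repr u) : Fin n → 𝕜) = v := b.equivFun.apply_symm_apply v
      have h1 : (u : WW 𝕜 G) ∈ S := (hSmem u).2 (by rw [hvu]; exact hv)
      rw [hS] at h1
      have h2 : u = 0 := Subtype.ext h1
      rw [Submodule.mem_bot, ← hvu, h2]
      simp
    · right
      have hSeq : S = U := by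
        by_contra hne
        have hlt : S < U := lt_of_le_of_ne hSU hne
        exact hUmin S ⟨hS, hSinv⟩ hlt
      rw [eq_top_iff]
      intro v _
      set u : U := b.equivFun.symm v with hu
      have hvu : (⇑(b.repr u) : Fin n → 𝕜) = v := b.equivFun.apply_symm_apply v
      rw [← hvu]
      apply (hSmem u).1
      rw [hSeq]
      exact u.2

end Main

theorem result {G : Type*} [Group G] [Finite G]
    (hFC : ∃ (L : Type) (_ : Group L) (_ : Finite L) (H : Subgroup L), Cfsg.IsFrobeniusComplement H ∧ Nonempty (G ≃* H)) :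
    ∃ (n : ℕ) (ρ : G →* GL (Fin n) (AlgebraicClosure ℚ)), 0 < n ∧ Function.Injective ρ ∧
      (∀ W : Submodule (AlgebraicClosure ℚ) (Fin n → AlgebraicClosure ℚ),
        (∀ g : G, ∀ w ∈ W, ((ρ g : GL (Fin n) (AlgebraicClosure ℚ)) : Matrix (Fin n) (Fin n) (AlgebraicClosure ℚ)).mulVec w ∈ W) → W = ⊥ ∨ W = ⊤) ∧
      ∀ g : G, g ≠ 1 → ∀ v : Fin n → AlgebraicClosure ℚ,
        ((ρ g : GL (Fin n) (AlgebraicClosure ℚ)) : Matrix (Fin n) (Fin n) (AlgebraicClosure ℚ)).mulVec v = v → v = 0 := by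
  obtain ⟨L, _, _, H, hH, ⟨e⟩⟩ := hFC
  obtain ⟨V, hVc, φ, hV, hfpf⟩ := Cfsg.Agent.Lib.FrobConj.exists_fpf_of_isFrobeniusComplement hH
  letI : CommGroup V := { (inferInstance : Group V) with mul_comm := fun a b => hVc.is_comm.comm a b }
  haveI : Nontrivial V := (Subgroup.nontrivial_iff_ne_bot V).2 hV
  exact exists_rep_of_fpf (φ := φ.comp e.toMonoidHom) (hfpf.comp _ e.injective)

end Cfsg.Agent.S3357
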