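import Mathlib
import Cfsg.Statements.S3358
import Cfsg.Agent.Lib.Q8AutPerm
import Cfsg.Agent.Lib.FrobConj
import Cfsg.Agent.Lib.FrobCompl
import Cfsg.Agent.Lib.FpfGeneral
import Cfsg.Agent.Lib.PCore
import Cfsg.Agent.Lib.PComplement
import Cfsg.Agent.Lib.FusionDQ
import Cfsg.Agent.Lib.ThompsonTransfer

set_option autoImplicit false
set_option linter.unusedSectionVars false
set_option linter.style.haveILetI false

namespace Cfsg.Agent.S3358

open Cfsg Cfsg.Agent.Lib.FpfNorm Subgroup
open scoped commutatorElement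

section Presentation

/-- The relators of the metacyclic presentation. -/
def Rels (n m r : ℕ) : Set (FreeGroup (Fin 2)) :=
  {FreeGroup.of (0 : Fin 2) ^ n, FreeGroup.of (1 : Fin 2) ^ m,
    (FreeGroup.of (0 : Fin 2))⁻¹ * FreeGroup.of 1 * FreeGroup.of 0 * (FreeGroup.of (1 : Fin 2) ^ r)⁻¹}

variable {n m r : ℕ}

theorem X_pow : (PresentedGroup.of (0 : Fin 2) : PresentedGroup (Rels n m r)) ^ n = 1 := by
  have h : FreeGroup.of (0 : Fin 2) ^ n ∈ Rels n m r := Or.inl rfl
  have h1 := PresentedGroup.one_of_mem h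
  rwa [map_pow] at h1

theorem Y_pow : (PresentedGroup.of (1 : Fin 2) : PresentedGroup (Rels n m r)) ^ m = 1 := by
  have h : FreeGroup.of (1 : Fin 2) ^ m ∈ Rels n m r := Or.inr (Or.inl rfl)
  have h1 := PresentedGroup.one_of_mem h
  rwa [map_pow] at h1

theorem YX : (PresentedGroup.of (1 : Fin 2) : PresentedGroup (Rels n m r)) * PresentedGroup.of 0 =
    PresentedGroup.of 0 * PresentedGroup.of 1 ^ r := by
  have h : (FreeGroup.of (0 : Fin 2))⁻¹ * FreeGroup.of 1 * FreeGroup.of 0 * (FreeGroup.of (1 : Fin 2) ^ r)⁻¹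
      ∈ Rels n m r := Or.inr (Or.inr rfl)
  have h1 := PresentedGroup.one_of_mem h
  simp only [map_mul, map_inv, map_pow] at h1
  have h2 : (PresentedGroup.of (0 : Fin 2) : PresentedGroup (Rels n m r))⁻¹ * PresentedGroup.of 1 *
      PresentedGroup.of 0 = PresentedGroup.of 1 ^ r := by
    have := mul_inv_eq_one.1 h1
    exact this
  calc (PresentedGroup.of (1 : Fin 2) : PresentedGroup (Rels n m r)) * PresentedGroup.of 0
      = PresentedGroup.of 0 * ((PresentedGroup.of 0)⁻¹ * PresentedGroup.of 1 * PresentedGroup.of 0) := by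
        group
    _ = _ := by rw [h2]

theorem exists_normal_form (hn : 0 < n) (hm : 0 < m) (z : PresentedGroup (Rels n m r)) :
    ∃ (b : Fin n) (a : Fin m), z = PresentedGroup.of 0 ^ (b : ℕ) * PresentedGroup.of 1 ^ (a : ℕ) := by
  set X : PresentedGroup (Rels n m r) := PresentedGroup.of 0 with hX
  set Y : PresentedGroup (Rels n m r) := PresentedGroup.of 1 with hY
  have hXn : X ^ n = 1 := X_pow
  have hYm : Y ^ m = 1 := Y_pow
  have hYX : Y * X = X * Y ^ r := YX
  have hYaX : ∀ a : ℕ, Y ^ a * X = X * Y ^ (r * a) := by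
    intro a
    induction a with
    | zero => simp
    | succ a ih =>
      calc Y ^ (a + 1) * X = Y ^ a * (Y * X) := by rw [pow_succ]; group
        _ = Y ^ a * (X * Y ^ r) := by rw [hYX]
        _ = (Y ^ a * X) * Y ^ r := by group
        _ = X * Y ^ (r * a) * Y ^ r := by rw [ih]
        _ = X * Y ^ (r * (a + 1)) := by
          rw [mul_assoc, ← pow_add]; congr 2
  -- normal forms with natural exponents
  have hmain : ∀ z : PresentedGroup (Rels n m r), ∃ b a : ℕ, z = X ^ b * Y ^ a := by
    have hright : ∀ (z : PresentedGroup (Rels n m r)), (∃ b a : ℕ, z = X ^ b * Y ^ a) → ∃ b a : ℕ, z * X = X ^ b * Y ^ a := by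
      rintro z ⟨b, a, rfl⟩
      refine ⟨b + 1, r * a, ?_⟩
      rw [mul_assoc, hYaX, pow_succ, mul_assoc]
    have hrightY : ∀ (z : PresentedGroup (Rels n m r)), (∃ b a : ℕ, z = X ^ b * Y ^ a) → ∃ b a : ℕ, z * Y = X ^ b * Y ^ a := by
      rintro z ⟨b, a, rfl⟩
      exact ⟨b, a + 1, by rw [mul_assoc, pow_succ]⟩
    have hrightPow : ∀ (k : ℕ) (z : PresentedGroup (Rels n m r)), (∃ b a : ℕ, z = X ^ b * Y ^ a) → ∃ b a : ℕ, z * X ^ k = X ^ b * Y ^ a := by
      intro k
      induction k with
      | zero => intro z hz; simpa using hz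
      | succ k ih =>
        intro z hz
        rw [pow_succ, ← mul_assoc]
        exact hright _ (ih z hz)
    have hrightPowY : ∀ (k : ℕ) (z : PresentedGroup (Rels n m r)), (∃ b a : ℕ, z = X ^ b * Y ^ a) → ∃ b a : ℕ, z * Y ^ k = X ^ b * Y ^ a := by
      intro k
      induction k with
      | zero => intro z hz; simpa using hz
      | succ k ih =>
        intro z hz
        rw [pow_succ, ← mul_assoc]
        exact hrightY _ (ih z hz)
    have hXinv : X⁻¹ = X ^ (n - 1) := by
      apply inv_eq_of_mul_eq_one_left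
      rw [← pow_succ, Nat.sub_add_cancel hn, hXn]
    have hYinv : Y⁻¹ = Y ^ (m - 1) := by
      apply inv_eq_of_mul_eq_one_left
      rw [← pow_succ, Nat.sub_add_cancel hm, hYm]
    intro z
    have hz : z ∈ Subgroup.closure (Set.range (PresentedGroup.of : Fin 2 → PresentedGroup (Rels n m r))) := by
      rw [PresentedGroup.closure_range_of]
      trivial
    induction hz using Subgroup.closure_induction_right with
    | one => exact ⟨0, 0, by simp⟩
    | mul_right w y hw hy ih =>
      obtain ⟨i, rfl⟩ := hy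
      fin_cases i
      · exact hright _ ih
      · exact hrightY _ ih
    | mul_inv_cancel w y hw hy ih =>
      obtain ⟨i, rfl⟩ := hy
      fin_cases i
      · show ∃ b a : ℕ, w * X⁻¹ = _
        rw [hXinv]
        exact hrightPow _ _ ih
      · show ∃ b a : ℕ, w * Y⁻¹ = _
        rw [hYinv]
        exact hrightPowY _ _ ih
  obtain ⟨b, a, rfl⟩ := hmain z
  refine ⟨⟨b % n, Nat.mod_lt _ hn⟩, ⟨a % m, Nat.mod_lt _ hm⟩, ?_⟩
  have h1 : X ^ b = X ^ (b % n) := by
    conv_lhs => rw [← Nat.div_add_mod b n, pow_add, pow_mul, hXn, one_pow, one_mul]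
  have h2 : Y ^ a = Y ^ (a % m) := by
    conv_lhs => rw [← Nat.div_add_mod a m, pow_add, pow_mul, hYm, one_pow, one_mul]
  rw [h1, h2]

theorem finite_presented (hn : 0 < n) (hm : 0 < m) : Finite (PresentedGroup (Rels n m r)) := by
  haveI : NeZero n := ⟨hn.ne'⟩
  haveI : NeZero m := ⟨hm.ne'⟩
  let g : Fin n × Fin m → PresentedGroup (Rels n m r) :=
    fun p => PresentedGroup.of 0 ^ (p.1 : ℕ) * PresentedGroup.of 1 ^ (p.2 : ℕ)
  have hg : Function.Surjective g := by
    intro z
    obtain ⟨b, a, h⟩ := exists_normal_form hn hm z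
    exact ⟨(b, a), h.symm⟩
  exact Finite.of_surjective g hg

theorem card_presented_le (hn : 0 < n) (hm : 0 < m) : Nat.card (PresentedGroup (Rels n m r)) ≤ n * m := by
  haveI : NeZero n := ⟨hn.ne'⟩
  haveI : NeZero m := ⟨hm.ne'⟩
  let g : Fin n × Fin m → PresentedGroup (Rels n m r) :=
    fun p => PresentedGroup.of 0 ^ (p.1 : ℕ) * PresentedGroup.of 1 ^ (p.2 : ℕ)
  have hg : Function.Surjective g := by
    intro z
    obtain ⟨b, a, h⟩ := exists_normal_form hn hm z
    exact ⟨(b, a), h.symm⟩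
  calc Nat.card (PresentedGroup (Rels n m r)) ≤ Nat.card (Fin n × Fin m) :=
        Nat.card_le_card_of_surjective g hg
    _ = n * m := by simp

/-- A group generated by `x` and `y` with the relations of the right order is the presented
group. -/
theorem mulEquiv_presented {Z : Type*} [Group Z] [Finite Z] (x y : Z) (hn : 0 < n) (hm : 0 < m)
    (hx : x ^ n = 1) (hy : y ^ m = 1) (hr : x⁻¹ * y * x = y ^ r)
    (hgen : ∀ g : Z, ∃ b a : ℕ, g = x ^ b * y ^ a) (hcard : Nat.card Z = n * m) :
    Nonempty (Z ≃* PresentedGroup (Rels n m r)) := by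
  haveI := finite_presented (n := n) (m := m) (r := r) hn hm
  let f : Fin 2 → Z := ![x, y]
  have hf : ∀ w ∈ Rels n m r, FreeGroup.lift f w = 1 := by
    rintro w (rfl | rfl | rfl)
    · simpa [f] using hx
    · simpa [f] using hy
    · simp only [map_mul, map_inv, map_pow, FreeGroup.lift_apply_of]
      rw [mul_inv_eq_one]
      simpa [f] using hr
  let φ : PresentedGroup (Rels n m r) →* Z := PresentedGroup.toGroup hf
  have hφ0 : φ (PresentedGroup.of 0) = x := PresentedGroup.toGroup.of hf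
  have hφ1 : φ (PresentedGroup.of 1) = y := PresentedGroup.toGroup.of hf
  have hsurj : Function.Surjective φ := by
    intro g
    obtain ⟨b, a, rfl⟩ := hgen g
    exact ⟨PresentedGroup.of 0 ^ b * PresentedGroup.of 1 ^ a, by
      rw [map_mul, map_pow, map_pow, hφ0, hφ1]⟩
  have hbij := hsurj.bijective_of_nat_card_le (by rw [hcard]; exact card_presented_le hn hm)
  exact ⟨(MulEquiv.ofBijective φ hbij).symm⟩

end Presentation

section Arith

/-- Order of a residue and primes. -/
theorem dvd_div_rad {n d : ℕ} (hn : 0 < n) (hd : d ∣ n) (h : ∀ p ∈ n.primeFactors, d ∣ n / p) :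
    d ∣ n / ∏ p ∈ n.primeFactors, p := by
  have key : ∀ S : Finset ℕ, S ⊆ n.primeFactors → (∏ p ∈ S, p) * d ∣ n := by
    intro S
    induction S using Finset.induction_on with
    | empty => intro _; simpa using hd
    | insert p S hpS ih =>
      intro hS
      have hp : p ∈ n.primeFactors := hS (Finset.mem_insert_self _ _)
      have hS' : S ⊆ n.primeFactors := fun x hx => hS (Finset.mem_insert_of_mem hx)
      have h1 := ih hS'
      have hpp : p.Prime := Nat.prime_of_mem_primeFactors hp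
      have hpn : p ∣ n := Nat.dvd_of_mem_primeFactors hp
      have h2 : p * d ∣ n := by
        have h3 := Nat.mul_dvd_mul_left p (h p hp)
        rwa [Nat.mul_div_cancel' hpn] at h3
      have hcop : Nat.Coprime p (∏ q ∈ S, q) := by
        apply Nat.Coprime.prod_right
        intro q hq
        have hqq : q.Prime := Nat.prime_of_mem_primeFactors (hS' hq)
        exact (Nat.coprime_primes hpp hqq).2 (fun e => hpS (e ▸ hq))
      rw [Finset.prod_insert hpS]
      have h4 : Nat.lcm (p * d) ((∏ q ∈ S, q) * d) ∣ n := Nat.lcm_dvd h2 h1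
      rw [Nat.lcm_mul_right, Nat.Coprime.lcm_eq_mul hcop] at h4
      exact h4
  exact Nat.dvd_div_of_mul_dvd (key _ (Finset.Subset.refl _))

end Arith

section ZGroup

variable {Z : Type*} [Group Z] [Finite Z]
variable {V : Type*} [CommGroup V] [Finite V] [Nontrivial V] {φ : Z →* MulAut V}

/-- An element of prime order coprime to the order of a normal cyclic subgroup centralizes it. -/
theorem commutes_of_prime_order (h : IsFpf φ) {M : Subgroup Z} [M.Normal] (hM : IsCyclic M)
    {u : Z} {p : ℕ} (hp : p.Prime) (hu : orderOf u = p) (hcop : ¬ p ∣ Nat.card M) :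
    ∀ w ∈ M, u * w = w * u := by
  classical
  letI : CommGroup M := IsCyclic.commGroup
  haveI : Fact p.Prime := ⟨hp⟩
  let α : MulAut M := MulAut.conjNormal u
  have hα : ∀ w : M, ((α w : M) : Z) = u * w * u⁻¹ := fun w => MulAut.conjNormal_apply u w
  let β : M →* M := MonoidHom.mk' (fun w => α w * w⁻¹) (by
    intro a b
    simp only [map_mul, mul_inv_rev]
    rw [mul_comm b⁻¹ a⁻¹]
    exact mul_mul_mul_comm _ _ _ _)
  have hβ : ∀ w, β w = α w * w⁻¹ := fun _ => rfl
  have hαp : α ^ p = 1 := by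
    have h1 : (MulAut.conjNormal : Z →* MulAut M) (u ^ p) = 1 := by
      rw [← hu, pow_orderOf_eq_one, map_one]
    rw [map_pow] at h1
    exact h1
  -- the norm kills the image of `β`
  have hnorm : ∀ w : M, ∏ i ∈ Finset.range p, (α ^ i) (β w) = 1 := by
    intro w
    have h1 : ∀ i, (α ^ i) (β w) = (α ^ (i + 1)) w / (α ^ i) w := by
      intro i
      rw [hβ, map_mul, map_inv, div_eq_mul_inv, pow_succ]
      rfl
    simp_rw [h1]
    have h2 := Finset.prod_range_div (fun i => (α ^ i) w) p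
    rw [h2, hαp]
    simp
  by_contra hcon
  push Not at hcon
  obtain ⟨w, hwM, hw⟩ := hcon
  have hβne : β.range ≠ ⊥ := by
    intro hbot
    have h1 : β ⟨w, hwM⟩ ∈ β.range := ⟨_, rfl⟩
    rw [hbot, Subgroup.mem_bot, hβ, mul_inv_eq_one] at h1
    have h2 := congrArg Subtype.val h1
    rw [hα] at h2
    apply hw
    calc u * w = (u * w * u⁻¹) * u := by group
      _ = w * u := by rw [show u * w * u⁻¹ = w from h2]
  haveI : Nontrivial β.range := (Subgroup.nontrivial_iff_ne_bot _).2 hβne
  obtain ⟨q, hq, hqB⟩ := Nat.exists_prime_and_dvd (Finite.one_lt_card (α := β.range)).ne'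
  haveI : Fact q.Prime := ⟨hq⟩
  obtain ⟨w₁, hw₁⟩ := exists_prime_orderOf_dvd_card' q hqB
  have hqM : q ∣ Nat.card M := hqB.trans (Subgroup.card_subgroup_dvd_card _)
  have hqp : q ≠ p := fun e => hcop (e ▸ hqM)
  obtain ⟨w₂, hw₂⟩ := w₁.2
  set w₀ : M := (w₁ : M) with hw₀
  have hw₀o : orderOf w₀ = q := by rw [hw₀, Subgroup.orderOf_coe]; exact hw₁
  have hw₀Z : orderOf (w₀ : Z) = q := by rw [Subgroup.orderOf_coe]; exact hw₀o
  -- `w₀` is not centralized
  have hnc : α w₀ ≠ w₀ := by
    intro hfix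
    have h1 := hnorm w₂
    rw [hw₂] at h1
    have h2 : ∀ i, (α ^ i) w₀ = w₀ := by
      intro i
      induction i with
      | zero => rfl
      | succ i ih =>
        rw [pow_succ]
        show (α ^ i) (α w₀) = w₀
        rw [hfix, ih]
    have h3 : ∏ i ∈ Finset.range p, (α ^ i) (w₁ : M) = w₀ ^ p := by
      rw [← hw₀]
      simp_rw [h2]
      rw [Finset.prod_const, Finset.card_range]
    rw [h3] at h1
    have h4 := orderOf_dvd_of_pow_eq_one h1
    rw [hw₀o] at h4
    exact hqp ((Nat.prime_dvd_prime_iff_eq hq hp).1 h4)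
  -- the subgroup generated by `w₀` is normal
  let W : Subgroup Z := zpowers (w₀ : Z)
  have hWcard : Nat.card W = q := by
    rw [Nat.card_zpowers, hw₀Z]
  have hWM : W ≤ M := by
    rw [Subgroup.zpowers_le]
    exact w₀.2
  have hWn : W.Normal := by
    refine ⟨fun n hn g => ?_⟩
    obtain ⟨k, rfl⟩ := Subgroup.mem_zpowers_iff.1 hn
    rw [← conj_zpow]
    apply Subgroup.zpow_mem
    -- the conjugate of `w₀` lies in `M` and has order `q`
    have hconjM : g * (w₀ : Z) * g⁻¹ ∈ M := ‹M.Normal›.conj_mem _ w₀.2 g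
    let c : M := ⟨_, hconjM⟩
    have hco : orderOf c = q := by
      rw [← Subgroup.orderOf_coe, ← hw₀Z]
      show orderOf (g * (w₀ : Z) * g⁻¹) = _
      rw [← MulAut.conj_apply]
      exact MulEquiv.orderOf_eq _ _
    have heq : zpowers c = zpowers w₀ := by
      apply Cfsg.Agent.Lib.FpfGeneral.eq_of_card_eq_of_isCyclic
      rw [Nat.card_zpowers, Nat.card_zpowers, hco, hw₀o]
    have hcm : c ∈ zpowers w₀ := heq ▸ mem_zpowers c
    obtain ⟨j, hj⟩ := Subgroup.mem_zpowers_iff.1 hcm
    refine Subgroup.mem_zpowers_iff.2 ⟨j, ?_⟩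
    have := congrArg Subtype.val hj
    simpa using this
  let U : Subgroup Z := zpowers u
  have hUcard : Nat.card U = p := by
    rw [Nat.card_zpowers, hu]
  let T : Subgroup Z := U ⊔ W
  have hTdvd : Nat.card T ∣ Nat.card U * Nat.card W :=
    Cfsg.Agent.Lib.PCore.card_sup_dvd U W
  have h1 : p ∣ Nat.card T := by
    rw [← hUcard]
    exact Subgroup.card_dvd_of_le le_sup_left
  have h2 : q ∣ Nat.card T := by
    rw [← hWcard]
    exact Subgroup.card_dvd_of_le le_sup_right
  have hTcard : Nat.card T = p * q := by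
    apply Nat.dvd_antisymm
    · rwa [hUcard, hWcard] at hTdvd
    · exact Nat.Coprime.mul_dvd_of_dvd_of_dvd ((Nat.coprime_primes hp hq).2 (Ne.symm hqp)) h1 h2
  have hfpfT : IsFpf (φ.comp T.subtype) := h.comp _ T.subtype_injective
  have hTc : IsCyclic T := isCyclic_of_card_eq_mul hfpfT hp hq hTcard
  letI : CommGroup T := IsCyclic.commGroup
  have huT : u ∈ T := (le_sup_left : U ≤ T) (mem_zpowers u)
  have hwT : (w₀ : Z) ∈ T := (le_sup_right : W ≤ T) (mem_zpowers _)
  have hcomm : u * (w₀ : Z) = (w₀ : Z) * u :=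
    congrArg Subtype.val (mul_comm (⟨u, huT⟩ : T) ⟨(w₀ : Z), hwT⟩)
  apply hnc
  apply Subtype.ext
  rw [hα, hcomm, mul_inv_cancel_right]

/-- The metacyclic structure of a `Z`-group acting fixed-point-freely. -/
theorem zgroup_presentation (hZ : IsZGroup Z) (h : IsFpf φ) :
    ∃ n m r : ℕ, 0 < n ∧ 0 < m ∧ Nat.Coprime (r - 1) m ∧ Nat.Coprime n m ∧ 1 ≤ r ∧
      r ^ (n / ∏ p ∈ n.primeFactors, p) % m = 1 % m ∧
      Nonempty (Z ≃* PresentedGroup (Rels n m r)) := by
  classical
  set M : Subgroup Z := commutator Z with hMdef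
  haveI hMn : M.Normal := by rw [hMdef]; infer_instance
  have hMcop : (Nat.card M).Coprime M.index := IsZGroup.coprime_commutator_index Z
  haveI hMc : IsCyclic M := IsZGroup.isCyclic_commutator Z
  obtain ⟨C, hC⟩ := Subgroup.exists_right_complement'_of_coprime hMcop
  have hCc : IsCyclic C := by
    have e : Z ⧸ M ≃* C := hC.symm.QuotientMulEquiv
    haveI : IsCyclic (Z ⧸ M) := IsZGroup.isCyclic_abelianization
    exact isCyclic_of_surjective _ e.surjective
  obtain ⟨x₀, hx₀⟩ := IsCyclic.exists_generator (α := C)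
  obtain ⟨y₀, hy₀⟩ := IsCyclic.exists_generator (α := M)
  set x : Z := (x₀ : Z) with hx
  set y : Z := (y₀ : Z) with hy
  set n := orderOf x with hn
  set m := orderOf y with hm
  have hnC : n = Nat.card C := by
    rw [hn, hx, Subgroup.orderOf_coe]
    exact orderOf_eq_card_of_forall_mem_zpowers hx₀
  have hmM : m = Nat.card M := by
    rw [hm, hy, Subgroup.orderOf_coe]
    exact orderOf_eq_card_of_forall_mem_zpowers hy₀
  have hnpos : 0 < n := orderOf_pos x
  have hmpos : 0 < m := orderOf_pos y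
  have hCidx : Nat.card C = M.index := hC.symm.index_eq_card.symm
  have hcop : Nat.Coprime n m := by
    rw [hnC, hmM, hCidx]
    exact hMcop.symm
  have hcard : Nat.card Z = n * m := by
    rw [← hC.card_mul_card, hnC, hmM, mul_comm]
  have hxn : x ^ n = 1 := pow_orderOf_eq_one x
  have hym : y ^ m = 1 := pow_orderOf_eq_one y
  -- elements of `M` and `C` as powers
  have hMpow : ∀ w ∈ M, ∃ k : ℕ, y ^ k = w := by
    intro w hw
    have h1 : (⟨w, hw⟩ : M) ∈ zpowers y₀ := hy₀ _
    obtain ⟨k, hk⟩ := mem_powers_iff_mem_zpowers.2 h1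
    exact ⟨k, by simpa using congrArg Subtype.val hk⟩
  have hCpow : ∀ w ∈ C, ∃ k : ℕ, x ^ k = w := by
    intro w hw
    have h1 : (⟨w, hw⟩ : C) ∈ zpowers x₀ := hx₀ _
    obtain ⟨k, hk⟩ := mem_powers_iff_mem_zpowers.2 h1
    exact ⟨k, by simpa using congrArg Subtype.val hk⟩
  have hgen : ∀ g : Z, ∃ b a : ℕ, g = x ^ b * y ^ a := by
    intro g
    obtain ⟨⟨c, μ⟩, hc⟩ := hC.symm.2 g
    obtain ⟨b, hb⟩ := hCpow c c.2
    obtain ⟨a, ha⟩ := hMpow μ μ.2
    refine ⟨b, a, ?_⟩
    rw [hb, ha]
    exact hc.symm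
  -- the exponent
  have hyM : y ∈ M := y₀.2
  have hxM : x⁻¹ * y * x ∈ M := by
    have := hMn.conj_mem y hyM x⁻¹
    simpa using this
  obtain ⟨k, hk⟩ := hMpow _ hxM
  set r := k + m with hr
  have hrel : x⁻¹ * y * x = y ^ r := by
    rw [hr, pow_add, hym, mul_one, hk]
  have hr1 : 1 ≤ r := by omega
  have hYX : y * x = x * y ^ r := by
    rw [← hrel]
    group
  -- `gcd (r - 1, m) = 1`
  have hgcd : Nat.Coprime (r - 1) m := by
    set d := Nat.gcd (r - 1) m with hd
    have hdr : d ∣ r - 1 := Nat.gcd_dvd_left _ _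
    have hdm : d ∣ m := Nat.gcd_dvd_right _ _
    let H : Subgroup Z := zpowers (y ^ d)
    have hHn : H.Normal := by
      refine ⟨fun w hw g => ?_⟩
      obtain ⟨j, rfl⟩ := Subgroup.mem_zpowers_iff.1 hw
      rw [← conj_zpow]
      apply Subgroup.zpow_mem
      obtain ⟨t, ht⟩ := hMpow _ (hMn.conj_mem y hyM g)
      have : g * y ^ d * g⁻¹ = (y ^ d) ^ t := by
        rw [← conj_pow, ← ht, ← pow_mul, ← pow_mul, mul_comm]
      rw [this]
      exact Subgroup.pow_mem _ (mem_zpowers _) _
    have hyr : y ^ (r - 1) ∈ H := by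
      obtain ⟨e, he⟩ := hdr
      rw [he, pow_mul]
      exact Subgroup.pow_mem _ (mem_zpowers _) _
    have hcomm : commutator Z ≤ H := by
      haveI := hHn
      let ψ := QuotientGroup.mk' H
      have hXY : Commute (ψ x) (ψ y) := by
        have h1 : ψ y * ψ x = ψ x * ψ y ^ r := by
          rw [← map_mul, hYX, map_mul, map_pow]
        have h2 : ψ y ^ (r - 1) = 1 := by
          rw [← map_pow]
          exact (QuotientGroup.eq_one_iff _).2 hyr
        have h3 : ψ y ^ r = ψ y := by
          calc ψ y ^ r = ψ y ^ ((r - 1) + 1) := by rw [Nat.sub_add_cancel hr1]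
            _ = ψ y ^ (r - 1) * ψ y := pow_succ _ _
            _ = ψ y := by rw [h2, one_mul]
        rw [h3] at h1
        exact h1.symm
      have hall : ∀ a b : Z, ψ a * ψ b = ψ b * ψ a := by
        intro a b
        obtain ⟨b₁, a₁, rfl⟩ := hgen a
        obtain ⟨b₂, a₂, rfl⟩ := hgen b
        simp only [map_mul, map_pow]
        have c1 : Commute (ψ x ^ b₁ * ψ y ^ a₁) (ψ x ^ b₂ * ψ y ^ a₂) := by
          apply Commute.mul_left
          · apply Commute.mul_right
            · exact (Commute.refl _).pow_pow _ _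
            · exact hXY.pow_pow _ _
          · apply Commute.mul_right
            · exact hXY.symm.pow_pow _ _
            · exact (Commute.refl _).pow_pow _ _
        exact c1
      rw [_root_.commutator_def, Subgroup.commutator_le]
      intro a _ b _
      rw [← QuotientGroup.eq_one_iff]
      show ψ ⁅a, b⁆ = 1
      rw [commutatorElement_def]
      simp only [map_mul, map_inv]
      rw [hall a b]
      group
    have hyH : y ∈ H := hcomm hyM
    obtain ⟨t, ht⟩ := mem_powers_iff_mem_zpowers.2 hyH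
    have h1 : y ^ (d * t) = y ^ 1 := by
      rw [pow_mul, pow_one]
      exact ht
    have h2 : d * t ≡ 1 [MOD m] := (pow_eq_pow_iff_modEq).1 h1
    have h3 := h2.gcd_eq
    have h4 : d ∣ Nat.gcd (d * t) m := Nat.dvd_gcd (dvd_mul_right _ _) hdm
    rw [h3, Nat.gcd_one_left] at h4
    exact Nat.dvd_one.1 h4
  -- the power of `r`
  have hconj : ∀ j : ℕ, (x ^ j)⁻¹ * y * x ^ j = y ^ (r ^ j) := by
    intro j
    induction j with
    | zero => simp
    | succ j ih =>
      calc (x ^ (j + 1))⁻¹ * y * x ^ (j + 1) = x⁻¹ * ((x ^ j)⁻¹ * y * x ^ j) * x := by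
            rw [pow_succ]; group
        _ = x⁻¹ * y ^ (r ^ j) * x := by rw [ih]
        _ = (x⁻¹ * y * x) ^ (r ^ j) := by
            have := conj_pow (a := x⁻¹) (b := y) (i := r ^ j)
            simpa using this.symm
        _ = y ^ (r ^ (j + 1)) := by
            rw [hrel, ← pow_mul, pow_succ, mul_comm]
  have hzeta : ∀ j : ℕ, (x ^ j) * y = y * x ^ j → ((r : ZMod m)) ^ j = 1 := by
    intro j hj
    have h1 : y ^ (r ^ j) = y ^ 1 := by
      rw [← hconj, pow_one, mul_assoc, ← hj]
      group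
    have h2 : r ^ j ≡ 1 [MOD m] := (pow_eq_pow_iff_modEq).1 h1
    have h3 := (ZMod.natCast_eq_natCast_iff _ _ _).2 h2
    push_cast at h3
    exact h3
  set ζ : ZMod m := (r : ZMod m) with hζ
  have hzn : ζ ^ n = 1 := hzeta n (by rw [hxn]; simp)
  have hnp : ∀ p ∈ n.primeFactors, orderOf ζ ∣ n / p := by
    intro p hp
    have hpp : p.Prime := Nat.prime_of_mem_primeFactors hp
    have hpn : p ∣ n := Nat.dvd_of_mem_primeFactors hp
    apply orderOf_dvd_of_pow_eq_one
    apply hzeta
    have hu : orderOf (x ^ (n / p)) = p := by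
      rw [orderOf_pow_of_dvd (Nat.div_ne_zero_iff_of_dvd hpn |>.2 ⟨hnpos.ne', hpp.ne_zero⟩) (Nat.div_dvd_of_dvd hpn)]
      exact Nat.div_div_self hpn hnpos.ne'
    have hpM : ¬ p ∣ Nat.card M := by
      rw [← hmM]
      intro hd
      have := Nat.Coprime.eq_one_of_dvd (Nat.Coprime.coprime_dvd_left hpn hcop) hd
      exact hpp.ne_one this
    exact commutes_of_prime_order h hMc hpp hu hpM y hyM
  have hdiv : orderOf ζ ∣ n / ∏ p ∈ n.primeFactors, p :=
    dvd_div_rad hnpos (orderOf_dvd_of_pow_eq_one hzn) hnp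
  have hpowz : ζ ^ (n / ∏ p ∈ n.primeFactors, p) = 1 := orderOf_dvd_iff_pow_eq_one.1 hdiv
  have hfin : r ^ (n / ∏ p ∈ n.primeFactors, p) % m = 1 % m := by
    have h1 : ((r ^ (n / ∏ p ∈ n.primeFactors, p) : ℕ) : ZMod m) = ((1 : ℕ) : ZMod m) := by
      push_cast
      exact hpowz
    exact (ZMod.natCast_eq_natCast_iff' _ _ _).1 h1
  exact ⟨n, m, r, hnpos, hmpos, hgcd, hcop, hr1, hfin,
    mulEquiv_presented x y hnpos hmpos hxn hym hrel hgen hcard⟩

end ZGroup

section Struct

variable {G : Type*} [Group G] [Finite G]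
variable {V : Type*} [CommGroup V] [Finite V] [Nontrivial V] {φ : G →* MulAut V}

theorem invol_inverts (h : IsFpf φ) {z : G} (hz : z * z = 1) (hz1 : z ≠ 1) (v : V) :
    φ z v = v⁻¹ := by
  have h1 : φ z (v * φ z v) = v * φ z v := by
    rw [map_mul, ← MulAut.mul_apply, ← map_mul, hz, map_one, MulAut.one_apply, mul_comm]
  have h2 := h z hz1 _ h1
  exact eq_inv_of_mul_eq_one_right h2

theorem invol_unique (h : IsFpf φ) {z w : G} (hz : z * z = 1) (hz1 : z ≠ 1) (hw : w * w = 1)
    (hw1 : w ≠ 1) : z = w := by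
  by_contra hne
  have h1 : z * w ≠ 1 := by
    intro h2
    apply hne
    have : w⁻¹ = w := inv_eq_of_mul_eq_one_left hw
    rw [← this]
    exact eq_inv_of_mul_eq_one_left h2
  obtain ⟨v, hv⟩ := exists_ne (1 : V)
  apply hv
  apply h (z * w) h1 v
  rw [map_mul, MulAut.mul_apply, invol_inverts h hw hw1, map_inv, invol_inverts h hz hz1, inv_inv]

theorem cyc_or_quat (h : IsFpf φ) {p : ℕ} [Fact p.Prime] (T : Subgroup G) (hT : IsPGroup p T) :
    IsCyclic T ∨ (p = 2 ∧ ∃ n : ℕ, Nonempty (T ≃* QuaternionGroup (2 ^ n))) :=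
  Cfsg.Agent.Lib.FrobCompl.cyclic_or_quaternion_of_fpf hT (h.comp T.subtype T.subtype_injective)

theorem isCyclic_of_mulEquiv {A B : Type*} [Group A] [Group B] (e : A ≃* B) (h : IsCyclic B) :
    IsCyclic A :=
  isCyclic_of_surjective e.symm e.symm.surjective

theorem isZGroup_of (h : IsFpf φ) (H : Subgroup G)
    (h2 : ∀ T : Subgroup G, T ≤ H → IsPGroup 2 T → IsCyclic T) : IsZGroup H := by
  refine ⟨fun p hp P => ?_⟩
  haveI := Fact.mk hp
  let T : Subgroup G := (P : Subgroup H).map H.subtype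
  have hT : IsPGroup p T := P.2.map H.subtype
  have hTH : T ≤ H := Subgroup.map_subtype_le _
  have hTc : IsCyclic T := by
    rcases cyc_or_quat h T hT with hc | ⟨rfl, _⟩
    · exact hc
    · exact h2 T hTH hT
  exact isCyclic_of_mulEquiv ((P : Subgroup H).equivMapOfInjective H.subtype H.subtype_injective) hTc

open QuaternionGroup in
/-- The case where the `2`-core is a quaternion group of order eight. -/
theorem case_q8 (h : IsFpf φ) (Q : Subgroup G) [Q.Normal] (e : Q ≃* QuaternionGroup 2) :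
    ∃ G₀ : Subgroup G, G₀.Normal ∧ (∃ f : G →* Equiv.Perm (Fin 4), f.ker = G₀) ∧ IsZGroup G₀ := by
  classical
  let f : G →* Equiv.Perm (Fin 4) :=
    Cfsg.Agent.Lib.Q8AutPerm.τ.comp ((MulAut.congr e).toMonoidHom.comp MulAut.conjNormal)
  have hker : ∀ g, g ∈ f.ker → ∀ q ∈ Q, g * q = q * g := by
    intro g hg q hq
    have h1 : f g = 1 := hg
    have h2 : (MulAut.congr e) (MulAut.conjNormal g) = 1 := by
      apply Cfsg.Agent.Lib.Q8AutPerm.τ_injective
      rw [map_one]
      exact h1
    have h3 : (MulAut.conjNormal g : MulAut Q) = 1 := by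
      apply (MulAut.congr e).injective
      rw [h2, map_one]
    have h4 := MulAut.conjNormal_apply (H := Q) g ⟨q, hq⟩
    rw [h3] at h4
    have h5 : q = g * q * g⁻¹ := h4
    calc g * q = (g * q * g⁻¹) * g := by group
      _ = q * g := by rw [← h5]
  refine ⟨f.ker, MonoidHom.normal_ker f, ⟨f, rfl⟩, ?_⟩
  apply isZGroup_of h
  intro T hT hT2
  haveI : Fact (Nat.Prime 2) := ⟨Nat.prime_two⟩
  rcases cyc_or_quat h T hT2 with hc | ⟨-, n, ⟨e'⟩⟩
  · exact hc
  · exfalso
    haveI : NeZero (2 ^ n) := ⟨by positivity⟩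
    -- an element of order four
    let t₀ : T := e'.symm (xa 0)
    set t : G := (t₀ : G) with ht
    have hto : orderOf t = 4 := by
      rw [ht, Subgroup.orderOf_coe, MulEquiv.orderOf_eq]
      exact QuaternionGroup.orderOf_xa 0
    let u : G := ((e.symm (a 1) : Q) : G)
    let v : G := ((e.symm (xa 0) : Q) : G)
    have huo : orderOf u = 4 := by
      show orderOf ((e.symm (a 1) : Q) : G) = 4
      rw [Subgroup.orderOf_coe, MulEquiv.orderOf_eq]
      exact QuaternionGroup.orderOf_a_one
    have hvo : orderOf v = 4 := by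
      show orderOf ((e.symm (xa 0) : Q) : G) = 4
      rw [Subgroup.orderOf_coe, MulEquiv.orderOf_eq]
      exact QuaternionGroup.orderOf_xa 0
    have htu : t * u = u * t := hker t (hT t₀.2) u (e.symm (a 1)).2
    have htv : t * v = v * t := hker t (hT t₀.2) v (e.symm (xa 0)).2
    have hne : u * v ≠ v * u := by
      intro huv
      have h1 : ((e.symm (a 1) * e.symm (xa 0) : Q) : G) = ((e.symm (xa 0) * e.symm (a 1) : Q) : G) := huv
      have h2 := Subtype.ext h1
      rw [← map_mul, ← map_mul] at h2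
      have h3 := e.symm.injective h2
      revert h3
      decide +kernel
    -- squares of elements of order four are involutions
    have hsq : ∀ w : G, orderOf w = 4 → (w * w) * (w * w) = 1 ∧ w * w ≠ 1 := by
      intro w hw
      constructor
      · have : w ^ 4 = 1 := by rw [← hw]; exact pow_orderOf_eq_one w
        calc w * w * (w * w) = w ^ 4 := by simp only [pow_succ, pow_zero, one_mul, mul_assoc]
          _ = 1 := this
      · intro h1
        have h2 : w ^ 2 = 1 := by rw [pow_two]; exact h1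
        have := orderOf_dvd_of_pow_eq_one h2
        rw [hw] at this
        omega
    have key : ∀ w : G, orderOf w = 4 → t * w = w * t → w = t ∨ w = t * t * t := by
      intro w hw hc
      have h1 := hsq t hto
      have h2 := hsq w hw
      have heq : t * t = w * w := invol_unique h h1.1 h1.2 h2.1 h2.2
      by_cases h3 : w * t = 1
      · right
        have h4 : w = t⁻¹ := eq_inv_of_mul_eq_one_left h3
        rw [h4]
        apply inv_eq_of_mul_eq_one_left
        have : t ^ 4 = 1 := by rw [← hto]; exact pow_orderOf_eq_one t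
        calc t * t * t * t = t ^ 4 := by simp only [pow_succ, pow_zero, one_mul]
          _ = 1 := this
      · -- `w * t` is an involution or `w * t * (t * t)⁻¹` ...
        have h4 : (w * t⁻¹) * (w * t⁻¹) = 1 := by
          have hc' : t⁻¹ * w = w * t⁻¹ := by
            calc t⁻¹ * w = t⁻¹ * (w * t) * t⁻¹ := by group
              _ = t⁻¹ * (t * w) * t⁻¹ := by rw [hc]
              _ = w * t⁻¹ := by group
          calc (w * t⁻¹) * (w * t⁻¹) = w * (t⁻¹ * w) * t⁻¹ := by group
            _ = w * (w * t⁻¹) * t⁻¹ := by rw [hc']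
            _ = (w * w) * (t * t)⁻¹ := by group
            _ = 1 := by rw [← heq]; group
        by_cases h5 : w * t⁻¹ = 1
        · left
          exact mul_inv_eq_one.1 h5
        · right
          have h6 : w * t⁻¹ = t * t := invol_unique h h4 h5 h1.1 h1.2
          calc w = (w * t⁻¹) * t := by group
            _ = t * t * t := by rw [h6]
    have hcomm : u * v = v * u := by
      rcases key u huo htu with h1 | h1 <;> rcases key v hvo htv with h2 | h2 <;> rw [h1, h2] <;> group
    exact hne hcomm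

theorem isPGroup_aut_of_not_q8 (h : IsFpf φ) (Q : Subgroup G) (hQ2 : IsPGroup 2 Q)
    (hQ : ¬ Nonempty (Q ≃* QuaternionGroup 2)) : IsPGroup 2 (MulAut Q) := by
  haveI : Fact (Nat.Prime 2) := ⟨Nat.prime_two⟩
  have hcyc : IsCyclic Q → IsPGroup 2 (MulAut Q) := by
    intro hc
    obtain ⟨k, hk⟩ := IsPGroup.iff_card.1 hQ2
    apply IsPGroup.iff_card.2
    rw [IsCyclic.card_mulAut, hk]
    rcases k with _ | k
    · exact ⟨0, by simp⟩
    · rw [Nat.totient_prime_pow_succ Nat.prime_two]
      exact ⟨k, by simp⟩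
  rcases cyc_or_quat h Q hQ2 with hc | ⟨-, n, ⟨e⟩⟩
  · exact hcyc hc
  · rcases n with _ | _ | n
    · apply hcyc
      have h1 : IsCyclic (QuaternionGroup (2 ^ 0)) := by
        rw [pow_zero]
        exact QuaternionGroup.quaternionGroup_one_isCyclic
      exact isCyclic_of_mulEquiv e h1
    · exact absurd ⟨e⟩ hQ
    · have h1 : IsPGroup 2 (MulAut (QuaternionGroup (2 ^ (n + 1 + 1)))) :=
        Cfsg.Agent.Lib.FusionDQ.isPGroup_quaternion (n := n + 1 + 1 + 2) (by omega)
      exact h1.of_equiv (MulAut.congr e).symm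

theorem coprime_two_pow_eq_one {g : G} {k m : ℕ} (hg : g ^ (2 ^ k) = 1) (hm : g ^ m = 1)
    (hc : Nat.Coprime m 2) : g = 1 := by
  have h1 := orderOf_dvd_of_pow_eq_one hg
  have h2 := orderOf_dvd_of_pow_eq_one hm
  have h3 : Nat.Coprime m (2 ^ k) := Nat.Coprime.pow_right k hc
  have h4 := Nat.Coprime.eq_one_of_dvd (Nat.Coprime.coprime_dvd_left h2 h3) h1
  exact orderOf_eq_one_iff.1 h4

open scoped Pointwise in
/-- The case where the `2`-core is not a quaternion group of order eight. -/
theorem case_not_q8 [Group.IsSolvable G] (h : IsFpf φ)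
    (hQ : ¬ Nonempty (Cfsg.pCore 2 G ≃* QuaternionGroup 2)) :
    ∃ G₀ : Subgroup G, G₀.Normal ∧ (∃ f : G →* Equiv.Perm (Fin 4), f.ker = G₀) ∧ IsZGroup G₀ := by
  classical
  haveI : Fact (Nat.Prime 2) := ⟨Nat.prime_two⟩
  set Q : Subgroup G := Cfsg.pCore 2 G with hQdef
  haveI hQn : Q.Normal := Cfsg.Agent.Lib.PCore.pCore_normal 2
  have hQ2 : IsPGroup 2 Q := Cfsg.Agent.Lib.PCore.isPGroup_pCore 2
  have hAut := isPGroup_aut_of_not_q8 h Q hQ2 hQ
  -- elements of odd order centralize `Q`
  have hodd : ∀ g : G, Nat.Coprime (orderOf g) 2 → (MulAut.conjNormal g : MulAut Q) = 1 := by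
    intro g hg
    obtain ⟨k, hk⟩ := hAut (MulAut.conjNormal g)
    have h1 : (MulAut.conjNormal g : MulAut Q) ^ orderOf g = 1 := by
      rw [← map_pow, pow_orderOf_eq_one, map_one]
    exact coprime_two_pow_eq_one hk h1 hg
  -- commutators centralize the odd cores
  have hcore : ∀ (p : ℕ) [Fact p.Prime], p ≠ 2 → ∀ a b z : G, z ∈ Cfsg.pCore p G →
      ⁅a, b⁆ * z = z * ⁅a, b⁆ := by
    intro p _ hp a b z hz
    set P : Subgroup G := Cfsg.pCore p G with hP
    haveI hPn : P.Normal := Cfsg.Agent.Lib.PCore.pCore_normal p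
    have hPp : IsPGroup p P := Cfsg.Agent.Lib.PCore.isPGroup_pCore p
    have hPc : IsCyclic P := by
      rcases cyc_or_quat h P hPp with hc | ⟨h2, _⟩
      · exact hc
      · exact absurd h2 hp
    have hcomm : ∀ α β : MulAut P, α * β = β * α := by
      intro α β
      apply (IsCyclic.mulAutMulEquiv P).injective
      rw [map_mul, map_mul, mul_comm]
    have h1 : (MulAut.conjNormal ⁅a, b⁆ : MulAut P) = 1 := by
      rw [commutatorElement_def, map_mul, map_mul, map_mul, map_inv, map_inv,
        hcomm (MulAut.conjNormal a) (MulAut.conjNormal b)]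
      group
    have h2 := MulAut.conjNormal_apply (H := P) ⁅a, b⁆ ⟨z, hz⟩
    rw [h1] at h2
    have h3 : z = ⁅a, b⁆ * z * ⁅a, b⁆⁻¹ := h2
    calc ⁅a, b⁆ * z = (⁅a, b⁆ * z * ⁅a, b⁆⁻¹) * ⁅a, b⁆ := by group
      _ = z * ⁅a, b⁆ := by rw [← h3]
  -- the Sylow subgroup and the local hypothesis
  obtain ⟨S⟩ : Nonempty (Sylow 2 G) := inferInstance
  have hlocal : ∀ U : Subgroup G, U ≤ (S : Subgroup G) → ∀ y ∈ normalizer (U : Set G),
      Nat.Coprime (orderOf y) 2 → y ∈ centralizer (U : Set G) := by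
    intro U hU y hyN hy
    rw [Subgroup.mem_centralizer_iff]
    intro u hu
    set c : G := ⁅u, y⁆ with hc
    have hcU : c ∈ U := by
      rw [hc, commutatorElement_def]
      have h1 : y * u⁻¹ * y⁻¹ ∈ U := (mem_normalizer_iff.1 hyN u⁻¹).1 (inv_mem hu)
      have e : u * y * u⁻¹ * y⁻¹ = u * (y * u⁻¹ * y⁻¹) := by group
      rw [e]
      exact mul_mem hu h1
    have hyQ := hodd y hy
    -- `c` centralizes `Q`
    have hcQ : (MulAut.conjNormal c : MulAut Q) = 1 := by
      rw [hc, commutatorElement_def, map_mul, map_mul, map_mul, map_inv, map_inv, hyQ]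
      group
    have hcz : ∀ z ∈ Q, c * z = z * c := by
      intro z hz
      have h2 := MulAut.conjNormal_apply (H := Q) c ⟨z, hz⟩
      rw [hcQ] at h2
      have h3 : z = c * z * c⁻¹ := h2
      calc c * z = (c * z * c⁻¹) * c := by group
        _ = z * c := by rw [← h3]
    -- `c` centralizes the Fitting subgroup
    have hcF : c ∈ Cfsg.fittingSubgroup G := by
      apply Cfsg.Agent.Lib.PCore.centralizer_fittingSubgroup_le
      rw [Subgroup.mem_centralizer_iff]
      intro z hz
      have hle : Cfsg.fittingSubgroup G ≤ centralizer ({c} : Set G) := by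
        rw [Cfsg.Agent.Lib.PCore.fittingSubgroup_eq_iSup_pCore]
        apply iSup_le
        rintro ⟨p, hp⟩
        haveI : Fact p.Prime := ⟨hp⟩
        intro w hw
        rw [Subgroup.mem_centralizer_singleton_iff]
        by_cases hp2 : p = 2
        · subst hp2
          exact (hcz w hw).symm
        · exact (hcore p hp2 u y w hw).symm
      have h5 := hle hz
      rw [Subgroup.mem_centralizer_singleton_iff] at h5
      exact h5
    -- `c` is a `2`-element
    obtain ⟨k, hk⟩ := S.2 ⟨c, hU hcU⟩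
    have hck : c ^ (2 ^ k) = 1 := by
      have := congrArg Subtype.val hk
      simpa using this
    -- so `c` lies in `Q`
    have hcmemQ : c ∈ Q := by
      have h1 := Cfsg.Agent.Lib.PCore.fittingSubgroup_le_sup (G := G) 2 hcF
      have h1' : c ∈ ((Cfsg.pCore 2 G ⊔ Cfsg.pPrimeCore 2 G : Subgroup G) : Set G) := h1
      rw [Subgroup.mul_normal] at h1'
      obtain ⟨a, ha, b, hb, hab⟩ := Set.mem_mul.1 h1'
      let π := QuotientGroup.mk' Q
      have h2 : π c = π b := by
        rw [← hab, map_mul]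
        have : π a = 1 := (QuotientGroup.eq_one_iff a).2 ha
        rw [this, one_mul]
      have hb1 : b ^ Nat.card (Cfsg.pPrimeCore 2 G) = 1 := by
        have h5 := pow_card_eq_one' (G := Cfsg.pPrimeCore 2 G) (x := ⟨b, hb⟩)
        exact congrArg Subtype.val h5
      have h3 : π c ^ (2 ^ k) = 1 := by rw [← map_pow, hck, map_one]
      have h4 : π c ^ Nat.card (Cfsg.pPrimeCore 2 G) = 1 := by
        rw [h2, ← map_pow, hb1, map_one]
      have h5 := coprime_two_pow_eq_one h3 h4 (Cfsg.Agent.Lib.PCore.card_pPrimeCore_coprime 2)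
      exact (QuotientGroup.eq_one_iff c).1 h5
    -- `y` centralizes `c`
    have hyc : y * c = c * y := by
      have h2 := MulAut.conjNormal_apply (H := Q) y ⟨c, hcmemQ⟩
      rw [hyQ] at h2
      have h3 : c = y * c * y⁻¹ := h2
      calc y * c = (y * c * y⁻¹) * y := by group
        _ = c * y := by rw [← h3]
    have hyu : y * u * y⁻¹ = c⁻¹ * u := by
      rw [hc, commutatorElement_def]
      group
    have hiter : ∀ j : ℕ, y ^ j * u * (y ^ j)⁻¹ = (c⁻¹) ^ j * u := by
      intro j
      induction j with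
      | zero => simp
      | succ j ih =>
        have hyc' : y * c⁻¹ = c⁻¹ * y := by
          calc y * c⁻¹ = c⁻¹ * (c * y) * c⁻¹ := by group
            _ = c⁻¹ * (y * c) * c⁻¹ := by rw [hyc]
            _ = c⁻¹ * y := by group
        have hypow : y * (c⁻¹) ^ j = (c⁻¹) ^ j * y := (Commute.pow_right hyc' j)
        calc y ^ (j + 1) * u * (y ^ (j + 1))⁻¹ = y * (y ^ j * u * (y ^ j)⁻¹) * y⁻¹ := by
              rw [pow_succ']; group
          _ = y * ((c⁻¹) ^ j * u) * y⁻¹ := by rw [ih]
          _ = (y * (c⁻¹) ^ j) * u * y⁻¹ := by group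
          _ = (c⁻¹) ^ j * (y * u * y⁻¹) := by rw [hypow]; group
          _ = (c⁻¹) ^ j * (c⁻¹ * u) := by rw [hyu]
          _ = (c⁻¹) ^ (j + 1) * u := by rw [pow_succ, mul_assoc]
    have h5 := hiter (orderOf y)
    rw [pow_orderOf_eq_one, one_mul, inv_one, mul_one] at h5
    have h6 : (c⁻¹) ^ orderOf y = 1 := by
      have := mul_right_cancel (a := (c⁻¹) ^ orderOf y) (b := u) (c := 1) (by rw [one_mul]; exact h5.symm)
      exact this
    have h7 : c ^ orderOf y = 1 := by
      rw [inv_pow] at h6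
      exact inv_eq_one.1 h6
    have h8 : c = 1 := coprime_two_pow_eq_one hck h7 hy
    have h9 : u * y * u⁻¹ * y⁻¹ = 1 := by
      rw [← commutatorElement_def, ← hc, h8]
    calc u * y = (u * y * u⁻¹ * y⁻¹) * (y * u) := by group
      _ = y * u := by rw [h9, one_mul]
  obtain ⟨N, hNn, hN⟩ := (Cfsg.Agent.Lib.PComplement.frobenius_criterion S).2 hlocal
  -- 2-subgroups are conjugate into `S`
  have hconjS : ∀ T : Subgroup G, IsPGroup 2 T → ∃ g : G, ∀ t ∈ T, g * t * g⁻¹ ∈ (S : Subgroup G) := by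
    intro T hT
    obtain ⟨P, hP⟩ := hT.exists_le_sylow
    obtain ⟨g, hg⟩ := MulAction.exists_smul_eq G P S
    refine ⟨g, fun t ht => ?_⟩
    rw [← hg]
    refine Cfsg.Agent.Lib.TransferCore.mem_smul_sylow.2 ?_
    have e : g⁻¹ * (g * t * g⁻¹) * g = t := by group
    rw [e]
    exact hP ht
  have hcyclic_of_conj : ∀ (T A : Subgroup G) (g : G), IsCyclic A → (∀ t ∈ T, g * t * g⁻¹ ∈ A) → IsCyclic T := by
    intro T A g hA hT
    let T' : Subgroup G := T.map (MulAut.conj g).toMonoidHom
    have hT' : T' ≤ A := by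
      rintro _ ⟨t, ht, rfl⟩
      exact hT t ht
    have h1 : IsCyclic T' := Subgroup.isCyclic_of_le hT'
    exact isCyclic_of_mulEquiv (T.equivMapOfInjective _ (MulAut.conj g).injective) h1
  by_cases hSc : IsCyclic (S : Subgroup G)
  · -- all Sylow subgroups are cyclic
    refine ⟨⊤, inferInstance, ⟨1, MonoidHom.ker_one⟩, ?_⟩
    apply isZGroup_of h
    intro T _ hT
    obtain ⟨g, hg⟩ := hconjS T hT
    exact hcyclic_of_conj T S g hSc hg
  · -- `S` is generalized quaternion
    rcases cyc_or_quat h (S : Subgroup G) S.2 with hc | ⟨-, n, ⟨e⟩⟩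
    · exact absurd hc hSc
    haveI : NeZero (2 ^ n) := ⟨by positivity⟩
    haveI : NeZero (2 * 2 ^ n) := ⟨by positivity⟩
    set a₀ : G := ((e.symm (QuaternionGroup.a 1) : (S : Subgroup G)) : G) with ha₀
    set A : Subgroup G := zpowers a₀ with hA
    have hAS : A ≤ (S : Subgroup G) := by
      rw [hA, Subgroup.zpowers_le]
      exact (e.symm (QuaternionGroup.a 1)).2
    have hAc : IsCyclic A := by
      rw [hA]
      infer_instance
    have hAcard : Nat.card A = 2 * 2 ^ n := by
      rw [hA, Nat.card_zpowers, ha₀, Subgroup.orderOf_coe, MulEquiv.orderOf_eq]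
      exact QuaternionGroup.orderOf_a_one
    have hScard : Nat.card (S : Subgroup G) = 4 * 2 ^ n := by
      rw [Nat.card_congr e.toEquiv, Nat.card_eq_fintype_card, QuaternionGroup.card]
    have hGcard : Nat.card N * Nat.card (S : Subgroup G) = Nat.card G := hN.card_mul_card
    have hNodd : Nat.Coprime (Nat.card N) 2 :=
      Cfsg.Agent.Lib.TransferCore.coprime_card_of_complement hN
    have hcopNA : Nat.Coprime (Nat.card N) (Nat.card A) := by
      obtain ⟨k, hk⟩ := IsPGroup.iff_card.1 (S.2.to_le hAS)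
      rw [hk]
      exact Nat.Coprime.pow_right k hNodd
    set G₀ : Subgroup G := A ⊔ N with hG₀
    have hG₀card : Nat.card G₀ = Nat.card A * Nat.card N := by
      apply Nat.dvd_antisymm
      · exact Cfsg.Agent.Lib.PCore.card_sup_dvd A N
      · apply Nat.Coprime.mul_dvd_of_dvd_of_dvd hcopNA.symm
        · exact Subgroup.card_dvd_of_le le_sup_left
        · exact Subgroup.card_dvd_of_le le_sup_right
    have hidx : G₀.index = 2 := by
      have h1 := Subgroup.card_mul_index G₀
      rw [hG₀card, ← hGcard, hScard, hAcard] at h1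
      have h2 : 0 < 2 * 2 ^ n * Nat.card N := by
        have : 0 < Nat.card N := Nat.card_pos
        positivity
      have h3 : 2 * 2 ^ n * Nat.card N * G₀.index = 2 * 2 ^ n * Nat.card N * 2 := by
        rw [h1]; ring
      exact Nat.eq_of_mul_eq_mul_left h2 h3
    haveI hG₀n : G₀.Normal := Subgroup.normal_of_index_eq_two hidx
    -- the homomorphism to `Sym(4)`
    let ι : ℤˣ →* Equiv.Perm (Fin 4) :=
      { toFun := fun u => if u = 1 then 1 else Equiv.swap 0 1
        map_one' := by simp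
        map_mul' := fun a b => by
          rcases Int.units_eq_one_or a with rfl | rfl <;>
            rcases Int.units_eq_one_or b with rfl | rfl <;> decide }
    have hι : ∀ u, ι u = 1 → u = 1 := by
      intro u hu
      rcases Int.units_eq_one_or u with rfl | rfl
      · rfl
      · revert hu
        decide
    refine ⟨G₀, hG₀n, ⟨ι.comp (Cfsg.Agent.Lib.ThompsonTransfer.signHom G₀ hidx), ?_⟩, ?_⟩
    · ext g
      rw [MonoidHom.mem_ker, MonoidHom.comp_apply]
      constructor
      · intro hg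
        by_contra hn
        rw [Cfsg.Agent.Lib.ThompsonTransfer.signHom_of_not_mem G₀ hidx hn] at hg
        exact absurd (hι _ hg) (by decide)
      · intro hg
        rw [Cfsg.Agent.Lib.ThompsonTransfer.signHom_of_mem G₀ hidx hg, map_one]
    · apply isZGroup_of h
      intro T hTG hT
      obtain ⟨g, hg⟩ := hconjS T hT
      apply hcyclic_of_conj T A g hAc
      intro t ht
      have h1 : g * t * g⁻¹ ∈ G₀ := hG₀n.conj_mem t (hTG ht) g
      have h2 := hg t ht
      -- Dedekind
      have h1' : g * t * g⁻¹ ∈ ((A ⊔ N : Subgroup G) : Set G) := h1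
      rw [Subgroup.mul_normal] at h1'
      obtain ⟨x, hx, n', hn', hxn⟩ := Set.mem_mul.1 h1'
      have hn'S : n' ∈ (S : Subgroup G) := by
        have e2 : n' = x⁻¹ * (g * t * g⁻¹) := by rw [← hxn]; group
        rw [e2]
        exact mul_mem (inv_mem (hAS hx)) h2
      have hdisj : n' ∈ N ⊓ (S : Subgroup G) := ⟨hn', hn'S⟩
      rw [hN.disjoint.eq_bot, Subgroup.mem_bot] at hdisj
      rw [← hxn, hdisj, mul_one]
      exact hx

end Struct

/-- The statement. -/
theorem result {G : Type*} [Group G] [Finite G] (hsol : Group.IsSolvable G)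
    (hFC : ∃ (L : Type) (_ : Group L) (_ : Finite L) (H : Subgroup L), Cfsg.IsFrobeniusComplement H ∧ Nonempty (G ≃* H)) :
    ∃ G₀ : Subgroup G, G₀.Normal ∧
      (∃ f : G →* Equiv.Perm (Fin 4), f.ker = G₀) ∧
      (∀ (p : ℕ) [Fact p.Prime] (P : Sylow p G₀), IsCyclic P) ∧
      ∃ n m r : ℕ, 0 < n ∧ 0 < m ∧ Nat.Coprime (r - 1) m ∧ Nat.Coprime n m ∧ 1 ≤ r ∧
        r ^ (n / ∏ p ∈ n.primeFactors, p) % m = 1 % m ∧
        Nonempty (G₀ ≃* PresentedGroup
          ({FreeGroup.of (0 : Fin 2) ^ n, FreeGroup.of (1 : Fin 2) ^ m,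
            (FreeGroup.of (0 : Fin 2))⁻¹ * FreeGroup.of 1 * FreeGroup.of 0 * (FreeGroup.of (1 : Fin 2) ^ r)⁻¹} :
            Set (FreeGroup (Fin 2)))) := by
  classical
  obtain ⟨L, _, _, H, hH, ⟨e⟩⟩ := hFC
  obtain ⟨V, hVc, φ, hV, hfpf⟩ := Cfsg.Agent.Lib.FrobConj.exists_fpf_of_isFrobeniusComplement hH
  letI : CommGroup V := { (inferInstance : Group V) with mul_comm := fun a b => hVc.is_comm.comm a b }
  haveI : Nontrivial V := (Subgroup.nontrivial_iff_ne_bot V).2 hV
  have hG : IsFpf (φ.comp e.toMonoidHom) := hfpf.comp _ e.injective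
  have hstruct : ∃ G₀ : Subgroup G, G₀.Normal ∧ (∃ f : G →* Equiv.Perm (Fin 4), f.ker = G₀) ∧ IsZGroup G₀ := by
    by_cases hQ : Nonempty (Cfsg.pCore 2 G ≃* QuaternionGroup 2)
    · obtain ⟨e'⟩ := hQ
      haveI : (Cfsg.pCore 2 G).Normal := Cfsg.Agent.Lib.PCore.pCore_normal 2
      exact case_q8 hG _ e'
    · exact case_not_q8 hG hQ
  obtain ⟨G₀, hn, hf, hZ⟩ := hstruct
  refine ⟨G₀, hn, hf, fun p _ P => hZ.isZGroup p Fact.out P, ?_⟩
  exact zgroup_presentation hZ (hG.comp G₀.subtype G₀.subtype_injective)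

end Cfsg.Agent.S3358
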