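import Mathlib
import Cfsg.Statements.S3361
import Cfsg.Agent.S3360
import Cfsg.Agent.Lib.Q8Aut2

set_option autoImplicit false
set_option linter.style.haveILetI false
set_option linter.unusedSectionVars false
open Cfsg

namespace Cfsg.Agent.S3361

open Cfsg.Agent.S3360 (FForm main_T quat_main q8_core cyc_core half_normal exists_odd_gen)
open Cfsg.Agent.S3370 (stab mem_stab)
open Cfsg.Agent.S3380 (map_mul_apply map_one_apply)
open Cfsg.Agent.S3371 (half_of)
open Cfsg.Agent.Lib.TransLin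
open Cfsg.Agent.Lib.PCore
open Cfsg.Agent.Lib.Q8Aut (Q8)
open Cfsg.Agent.Lib.Q8Aut2

variable {q : ℕ} [hq : Fact q.Prime] {V : Type*} [AddCommGroup V] [Module (ZMod q) V]
  {G : Type*} [Group G]

/-- The quadratic character gives a subgroup of index two. -/
theorem index_two_of_form [Finite V] [Finite G] (ρ : G →* (V ≃ₗ[ZMod q] V))
    (htrans : ∀ v w : V, v ≠ 0 → w ≠ 0 → ∃ g : G, ρ g v = w) (hq2 : q ≠ 2) (hf : FForm ρ) :
    ∃ N : Subgroup G, N.Normal ∧ N.index = 2 := by
  classical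
  have hqq : q.Prime := Fact.out
  obtain ⟨F, _, _, e, he⟩ := hf
  set v₁ : V := e.symm 1 with hv₁
  have hev₁ : e v₁ = 1 := e.apply_symm_apply 1
  have hv₁0 : v₁ ≠ 0 := by
    intro h
    rw [h, map_zero] at hev₁
    exact zero_ne_one hev₁
  let a : G → F := fun g => e (ρ g v₁)
  have ha : ∀ g, a g = e (ρ g v₁) := fun _ => rfl
  have ha0 : ∀ g, a g ≠ 0 := by
    intro g h
    rw [ha] at h
    have h1 : ρ g v₁ = 0 := e.injective (by rw [h, map_zero])
    have h2 : v₁ = 0 := (ρ g).injective (by rw [h1, map_zero])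
    exact hv₁0 h2
  have hform : ∀ g, ∃ σ : F ≃+* F, ∀ v, e (ρ g v) = a g * σ (e v) := by
    intro g
    obtain ⟨b, σ, h⟩ := he g
    have h1 : a g = b := by
      rw [ha, h, hev₁, map_one, mul_one]
    exact ⟨σ, by rw [h1]; exact h⟩
  have hsq : ∀ (σ : F ≃+* F) (x : F), quadraticChar F (σ x) = quadraticChar F x := by
    intro σ x
    by_cases hx : x = 0
    · rw [hx, map_zero]
    have hx' : σ x ≠ 0 := by
      intro h
      exact hx (σ.injective (by rw [h, map_zero]))
    have hs : IsSquare (σ x) ↔ IsSquare x := by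
      constructor
      · rintro ⟨r, hr⟩
        refine ⟨σ.symm r, σ.injective ?_⟩
        rw [hr, map_mul, RingEquiv.apply_symm_apply]
      · rintro ⟨r, hr⟩
        exact ⟨σ r, by rw [hr, map_mul]⟩
    by_cases h : IsSquare x
    · rw [(quadraticChar_one_iff_isSquare hx).mpr h, (quadraticChar_one_iff_isSquare hx').mpr (hs.mpr h)]
    · rw [quadraticChar_neg_one_iff_not_isSquare.mpr h,
        quadraticChar_neg_one_iff_not_isSquare.mpr (fun h' => h (hs.mp h'))]
  let ψ₀ : G →* ℤ :=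
    { toFun := fun g => quadraticChar F (a g)
      map_one' := by
        show quadraticChar F (e (ρ 1 v₁)) = 1
        rw [map_one_apply, hev₁, map_one]
      map_mul' := by
        intro g h
        obtain ⟨σ, hσ⟩ := hform g
        show quadraticChar F (e (ρ (g * h) v₁)) = quadraticChar F (a g) * quadraticChar F (a h)
        rw [map_mul_apply, hσ, map_mul, hsq] }
  let ψ : G →* ℤˣ := ψ₀.toHomUnits
  have hchar : ringChar F ≠ 2 := by
    intro h2
    have h1 : ((q : ℕ) : F) = 0 := by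
      have h3 : ((q : ℕ) : F) = e ((q : ZMod q) • v₁) := by
        rw [Nat.cast_smul_eq_nsmul, map_nsmul, hev₁]
        simp
      rw [h3, ZMod.natCast_self, zero_smul, map_zero]
    have h3 := ringChar.dvd h1
    rw [h2] at h3
    exact hq2 ((Nat.prime_dvd_prime_iff_eq Nat.prime_two hqq).mp h3).symm
  obtain ⟨w, hw⟩ := FiniteField.exists_nonsquare hchar
  have hw0 : w ≠ 0 := by
    rintro rfl
    exact hw IsSquare.zero
  have hws : e.symm w ≠ 0 := by
    intro h
    apply hw0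
    have := congrArg e h
    rwa [AddEquiv.apply_symm_apply, map_zero] at this
  obtain ⟨g₀, hg₀⟩ := htrans v₁ (e.symm w) hv₁0 hws
  have hg₀' : a g₀ = w := by
    rw [ha, hg₀, AddEquiv.apply_symm_apply]
  have hψ : ψ g₀ = -1 := by
    apply Units.ext
    show quadraticChar F (a g₀) = _
    rw [hg₀', quadraticChar_neg_one_iff_not_isSquare.mpr hw]
    rfl
  have hr : ψ.range = ⊤ := by
    rw [eq_top_iff]
    intro u _
    rcases Int.units_eq_one_or u with rfl | rfl
    · exact Subgroup.one_mem _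
    · exact ⟨g₀, hψ⟩
  refine ⟨ψ.ker, inferInstance, ?_⟩
  rw [Subgroup.index_ker, hr, Nat.card_congr Subgroup.topEquiv.toEquiv, Nat.card_eq_fintype_card]
  rfl

/-- Involutions act as `-1` on a semiregular linear group. -/
theorem act_neg (ρ : G →* (V ≃ₗ[ZMod q] V))
    (hreg : ∀ v : V, v ≠ 0 → ∀ g : G, ρ g v = v → g = 1) {x : G} (hx1 : x ≠ 1) (hx2 : x ^ 2 = 1) (v : V) :
    ρ x v = -v := by
  by_contra hne
  have h1 : v + ρ x v ≠ 0 := by
    intro h
    apply hne
    exact eq_neg_of_add_eq_zero_right h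
  apply hx1
  apply hreg _ h1
  rw [map_add, ← map_mul_apply, ← pow_two, hx2, map_one_apply, add_comm]

/-- The Sylow structure. -/
theorem T_struct [Finite G] (ρ : G →* (V ≃ₗ[ZMod q] V)) (hρ : Function.Injective ρ)
    (hreg : ∀ v : V, v ≠ 0 → ∀ g : G, ρ g v = v → g = 1) :
    IsCyclic (pCore 2 G) ∨ ∃ n : ℕ, Nonempty (pCore 2 G ≃* QuaternionGroup (2 ^ n)) := by
  classical
  haveI : Fact (Nat.Prime 2) := ⟨Nat.prime_two⟩
  have hgen : ∀ H : Subgroup (pCore 2 G), Nat.card H = 2 → ∃ x : pCore 2 G, x ≠ 1 ∧ x ^ 2 = 1 ∧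
      H = Subgroup.zpowers x := by
    intro H hH
    haveI : Nontrivial H := Finite.one_lt_card_iff_nontrivial.mp (by omega)
    obtain ⟨x, hx⟩ := exists_ne (1 : H)
    have hx1 : (x : pCore 2 G) ≠ 1 := fun h => hx (Subtype.ext h)
    have hx2 : (x : pCore 2 G) ^ 2 = 1 := by
      have h1 := pow_card_eq_one' (x := x)
      rw [hH] at h1
      exact_mod_cast congrArg Subtype.val h1
    refine ⟨x, hx1, hx2, ?_⟩
    symm
    apply Subgroup.eq_of_le_of_card_ge
    · rw [Subgroup.zpowers_le]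
      exact x.2
    · rw [Nat.card_zpowers, hH, orderOf_eq_prime hx2 hx1]
  have huniq : ∀ H K : Subgroup (pCore 2 G), Nat.card H = 2 → Nat.card K = 2 → H = K := by
    intro H K hH hK
    obtain ⟨x, hx1, hx2, rfl⟩ := hgen H hH
    obtain ⟨y, hy1, hy2, rfl⟩ := hgen K hK
    have hxy : (x : G) = y := by
      apply hρ
      apply LinearEquiv.ext
      intro v
      rw [act_neg ρ hreg (x := (x : G)) (by exact_mod_cast hx1) (by exact_mod_cast congrArg Subtype.val hx2),
        act_neg ρ hreg (x := (y : G)) (by exact_mod_cast hy1) (by exact_mod_cast congrArg Subtype.val hy2)]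
    rw [Subtype.ext hxy]
  rcases Cfsg.Agent.Lib.UniqueSub.main 2 (isPGroup_pCore (G := G) 2) huniq with h | ⟨-, n, hn⟩
  · exact Or.inl h
  · exact Or.inr ⟨n, hn⟩

/-- The order of `G`. -/
theorem card_G [Finite V] [Nontrivial V] [Finite G] (ρ : G →* (V ≃ₗ[ZMod q] V))
    (htrans : ∀ v w : V, v ≠ 0 → w ≠ 0 → ∃ g : G, ρ g v = w)
    (hreg : ∀ v : V, v ≠ 0 → ∀ g : G, ρ g v = v → g = 1) : Nat.card G = Nat.card V - 1 := by
  obtain ⟨v₀, hv₀⟩ := exists_ne (0 : V)
  rw [Cfsg.Agent.S3370.card_formula ρ htrans v₀ hv₀]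
  have h1 : Nat.card (stab ρ v₀) = 1 := by
    rw [Nat.card_eq_one_iff_unique]
    refine ⟨⟨?_⟩, ⟨1⟩⟩
    intro a b
    apply Subtype.ext
    rw [hreg v₀ hv₀ a (mem_stab.mp a.2), hreg v₀ hv₀ b (mem_stab.mp b.2)]
  rw [h1, mul_one]

/-- The field form when `|V| = 9`. -/
theorem q3_form [Finite V] [Nontrivial V] [Finite G] (ρ : G →* (V ≃ₗ[ZMod q] V))
    (hρ : Function.Injective ρ) (htrans : ∀ v w : V, v ≠ 0 → w ≠ 0 → ∃ g : G, ρ g v = w)
    (hV : Nat.card V = 9) (hG : Nat.card G = 8) (e : pCore 2 G ≃* Q8) : FForm ρ := by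
  classical
  have hcT : Nat.card (pCore 2 G) = 8 := by
    rw [Nat.card_congr e.toEquiv, Nat.card_eq_fintype_card, QuaternionGroup.card]
  have htop : pCore 2 G = ⊤ := Subgroup.eq_top_of_card_eq _ (by rw [hcT, hG])
  have hmem : ∀ g : G, g ∈ pCore 2 G := fun g => by rw [htop]; exact Subgroup.mem_top g
  let c : G := ((e.symm (QuaternionGroup.a 1) : pCore 2 G) : G)
  have hco : orderOf c = 4 := by
    show orderOf ((e.symm (QuaternionGroup.a 1) : pCore 2 G) : G) = 4
    rw [Subgroup.orderOf_coe, MulEquiv.orderOf_eq, QuaternionGroup.orderOf_a_one]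
  have hc : ∀ g : G, ∃ j : ℕ, g * c * g⁻¹ = c ^ j := by
    intro g
    have h1 := conj_a1 (e ⟨g, hmem g⟩)
    have h2 : ∀ j : ℕ, e ⟨g, hmem g⟩ * QuaternionGroup.a 1 * (e ⟨g, hmem g⟩)⁻¹ =
        (QuaternionGroup.a 1 : Q8) ^ j → g * c * g⁻¹ = c ^ j := by
      intro j hj
      have h3 := congrArg e.symm hj
      rw [map_mul, map_mul, map_inv, MulEquiv.symm_apply_apply, map_pow] at h3
      exact congrArg Subtype.val h3
    rcases h1 with h1 | h1
    · exact ⟨1, h2 1 (by rw [h1, pow_one])⟩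
    · exact ⟨3, h2 3 h1⟩
  obtain ⟨F, _, _, φ, hinj, hall, hone⟩ := exists_field ρ hc htrans
  obtain ⟨n, hn0, hn⟩ := card_eq_pow φ
  have hord := order_dvd hρ hall (c := c)
  rw [hco] at hord
  have hQ1 : 1 < Nat.card F := Finite.one_lt_card
  have hQ5 : 5 ≤ Nat.card F := by
    have := Nat.le_of_dvd (by omega) hord
    omega
  have hn1 : n = 1 := by
    by_contra h
    have h2 : 2 ≤ n := by omega
    have h3 : Nat.card F ^ 2 ≤ Nat.card F ^ n := Nat.pow_le_pow_right (by omega) h2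
    rw [← hn, hV] at h3
    nlinarith
  rw [hn1, pow_one] at hn
  exact form_of_card hinj hall hone hc hn.symm

section Q8case

variable [Finite G] (e : pCore 2 G ≃* Q8)

/-- The conjugation action on `Q8`. -/
noncomputable def Th : G →* MulAut Q8 :=
  (MulAut.congr e).toMonoidHom.comp (MulAut.conjNormal (H := pCore 2 G))

theorem Th_apply (g : G) (x : Q8) : ((e.symm (Th e g x) : pCore 2 G) : G) =
    g * ((e.symm x : pCore 2 G) : G) * g⁻¹ := by
  show ((e.symm (e (MulAut.conjNormal g (e.symm x))) : pCore 2 G) : G) = _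
  rw [MulEquiv.symm_apply_apply, MulAut.conjNormal_apply]

theorem mem_ker_Th (g : G) : g ∈ (Th e).ker ↔ ∀ t ∈ pCore 2 G, g * t = t * g := by
  rw [MonoidHom.mem_ker]
  constructor
  · intro h t ht
    have h1 := Th_apply e g (e ⟨t, ht⟩)
    have h3 : (1 : MulAut Q8) (e ⟨t, ht⟩) = e ⟨t, ht⟩ := rfl
    rw [h, h3, MulEquiv.symm_apply_apply] at h1
    have h2 : t = g * t * g⁻¹ := h1
    exact (mul_inv_eq_iff_eq_mul.mp h2.symm)
  · intro h
    ext x
    have h1 := Th_apply e g x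
    rw [mul_inv_eq_iff_eq_mul.mpr (h _ (e.symm x).2)] at h1
    exact (e.symm.injective (Subtype.ext h1))

/-- The order of the kernel. -/
theorem card_ker_Th {c' : G} (hcen : ∀ g, g * c' = c' * g)
    (hK : ∀ x : G, (∀ t ∈ pCore 2 G, x * t = t * x) →
        x ∈ Subgroup.zpowers (((e.symm (QuaternionGroup.a 2) : pCore 2 G) : G) * c'))
    (hodd : Odd (orderOf c')) :
    Nat.card (Th e).ker = 2 * orderOf c' := by
  classical
  set z : G := ((e.symm (QuaternionGroup.a 2) : pCore 2 G) : G) with hz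
  have hzo : orderOf z = 2 := by
    rw [hz, Subgroup.orderOf_coe, MulEquiv.orderOf_eq, Cfsg.Agent.Lib.Q8Aut.orderOf_a2]
  have hzT : ∀ t ∈ pCore 2 G, z * t = t * z := by
    intro t ht
    have h1 : ∀ y : Q8, (QuaternionGroup.a 2 : Q8) * y = y * QuaternionGroup.a 2 :=
      (Cfsg.Agent.Lib.Q8Aut.center_eq _).mpr (Or.inr rfl)
    have h2 := congrArg (fun r => ((e.symm r : pCore 2 G) : G)) (h1 (e ⟨t, ht⟩))
    simp only [map_mul, MulEquiv.symm_apply_apply] at h2
    exact h2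
  have hcm : Commute z c' := hcen z
  have hco : Nat.Coprime (orderOf z) (orderOf c') := by
    rw [hzo]
    exact Nat.coprime_two_left.mpr hodd
  have hordc : orderOf (z * c') = 2 * orderOf c' := by
    rw [hcm.orderOf_mul_eq_mul_orderOf_of_coprime hco, hzo]
  have heq : (Th e).ker = Subgroup.zpowers (z * c') := by
    apply le_antisymm
    · intro x hx
      exact hK x ((mem_ker_Th e x).mp hx)
    · rw [Subgroup.zpowers_le, mem_ker_Th]
      intro t ht
      rw [mul_assoc, ← hcen t, ← mul_assoc, hzT t ht, mul_assoc]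
  rw [heq, Nat.card_zpowers, hordc]

theorem card_Th : Nat.card (Th e).ker * Nat.card (Th e).range = Nat.card G := by
  rw [← Subgroup.index_ker]
  exact Subgroup.card_mul_index _

theorem range_dvd : Nat.card (Th e).range ∣ 24 := by
  rw [← Cfsg.Agent.Lib.Q8Aut.card_aut]
  exact Subgroup.card_subgroup_dvd_card _

/-- The index two subgroup from the sign of an automorphism. -/
theorem index_two_of_sgn (hA : Nat.card (Th e).range = 8 ∨ Nat.card (Th e).range = 24) :
    ∃ N : Subgroup G, N.Normal ∧ N.index = 2 := by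
  obtain ⟨f, ⟨g, rfl⟩, hf⟩ := exists_sgn hA
  let ψ : G →* ℤˣ := sgn.comp (Th e)
  have hr : ψ.range = ⊤ := by
    rw [eq_top_iff]
    intro u _
    rcases Int.units_eq_one_or u with rfl | rfl
    · exact Subgroup.one_mem _
    · exact ⟨g, hf⟩
  refine ⟨ψ.ker, inferInstance, ?_⟩
  rw [Subgroup.index_ker, hr, Nat.card_congr Subgroup.topEquiv.toEquiv, Nat.card_eq_fintype_card]
  rfl

/-- The homomorphism from `SL(2,3)`. -/
theorem exists_Psi (hk : ∀ y : G, orderOf y = 3 → y ∉ (Th e).ker) (h3 : 3 ∣ Nat.card G) :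
    ∃ Ψ : SL23 →* G, Function.Injective Ψ := by
  classical
  haveI : Fact (Nat.Prime 3) := ⟨Nat.prime_three⟩
  obtain ⟨y, hy⟩ := exists_prime_orderOf_dvd_card' 3 h3
  have hy3 : y ^ 3 = 1 := by rw [← hy]; exact pow_orderOf_eq_one y
  have hβ3 : ∀ x, Th e y (Th e y (Th e y x)) = x := by
    intro x
    have h1 : Th e (y ^ 3) = 1 := by rw [hy3, map_one]
    have h2 : Th e (y ^ 3) x = x := by rw [h1]; rfl
    have h3 : Th e (y ^ 3) = Th e y * (Th e y * Th e y) := by
      rw [map_pow, pow_succ, pow_two, mul_assoc]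
    rw [h3] at h2
    exact h2
  have hβ1 : ∃ x, Th e y x ≠ x := by
    by_contra hno
    push Not at hno
    apply hk y hy
    rw [MonoidHom.mem_ker]
    ext x
    exact hno x
  obtain ⟨γ, hγ⟩ := exists_conj (Th e y) hβ3 hβ1
  let e' : pCore 2 G ≃* Q8 := e.trans γ
  have hT : ∀ t : Q8, y * ((e'.symm t : pCore 2 G) : G) * y⁻¹ = ((e'.symm (al t) : pCore 2 G) : G) := by
    intro t
    have h1 : ∀ r : Q8, e'.symm r = e.symm (γ.symm r) := fun _ => rfl
    rw [h1, h1, ← Th_apply]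
    have h2 : γ.symm (al t) = Th e y (γ.symm t) := by
      apply γ.injective
      rw [MulEquiv.apply_symm_apply, hγ, MulEquiv.apply_symm_apply]
    rw [h2]
  obtain ⟨Ψ, hΨ⟩ := exists_hom e' hy3 hT
  exact ⟨Ψ, hom_inj e' hy hΨ⟩

end Q8case

theorem of_form [Finite V] [Finite G] {ρ : G →* (V ≃ₗ[ZMod q] V)}
    (htrans : ∀ v w : V, v ≠ 0 → w ≠ 0 → ∃ g : G, ρ g v = w) (h : FForm ρ) :
    ((∃ (F : Type) (_ : Field F) (_ : Fintype F) (e : V ≃+ F),
        ∀ g : G, ∃ (a : F) (σ : F ≃+* F), ∀ v : V, e (ρ g v) = a * σ (e v)) ∨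
      Nat.card V ∈ ({25, 49, 121, 529} : Set ℕ)) ∧
    (q ≠ 2 → (∃ N : Subgroup G, N.Normal ∧ N.index = 2) ∨
      (Nat.card V = 25 ∧ Nonempty (G ≃* Matrix.SpecialLinearGroup (Fin 2) (ZMod 3))) ∨
      (Nat.card V = 121 ∧ Nonempty (G ≃* Matrix.SpecialLinearGroup (Fin 2) (ZMod 3) × Multiplicative (ZMod 5)))) :=
  ⟨Or.inl h, fun hq2 => Or.inl (index_two_of_form ρ htrans hq2 h)⟩

/-- The main theorem. -/
theorem result
    (q : ℕ) [Fact q.Prime] {V : Type*} [AddCommGroup V] [Module (ZMod q) V] [Finite V] [Nontrivial V]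
    {G : Type*} [Group G] [Finite G] (hsol : Group.IsSolvable G)
    (ρ : G →* (V ≃ₗ[ZMod q] V)) (hρ : Function.Injective ρ)
    (htrans : ∀ v w : V, v ≠ 0 → w ≠ 0 → ∃ g : G, ρ g v = w)
    (hreg : ∀ v : V, v ≠ 0 → ∀ g : G, ρ g v = v → g = 1) :
    ((∃ (F : Type) (_ : Field F) (_ : Fintype F) (e : V ≃+ F),
        ∀ g : G, ∃ (a : F) (σ : F ≃+* F), ∀ v : V, e (ρ g v) = a * σ (e v)) ∨
      Nat.card V ∈ ({25, 49, 121, 529} : Set ℕ)) ∧
    (q ≠ 2 → (∃ N : Subgroup G, N.Normal ∧ N.index = 2) ∨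
      (Nat.card V = 25 ∧ Nonempty (G ≃* Matrix.SpecialLinearGroup (Fin 2) (ZMod 3))) ∨
      (Nat.card V = 121 ∧ Nonempty (G ≃* Matrix.SpecialLinearGroup (Fin 2) (ZMod 3) × Multiplicative (ZMod 5)))) := by
  classical
  haveI := hsol
  haveI : Fact (Nat.Prime 2) := ⟨Nat.prime_two⟩
  have hqq : q.Prime := Fact.out
  have hcard := card_G ρ htrans hreg
  obtain ⟨c', hc'odd, hc'n, -, hF⟩ := exists_odd_gen (G := G)
    (fun p _ hp => cyc_core ρ hρ htrans p hp)
  -- the field form case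
  have hform := of_form (V := V) (G := G) (ρ := ρ) htrans
  -- the structure of the Sylow group
  by_cases hcyc : IsCyclic (pCore 2 G)
  · apply hform
    obtain ⟨x, hx⟩ := IsCyclic.exists_generator (α := pCore 2 G)
    have hz : Subgroup.zpowers (x : G) = pCore 2 G := by
      apply le_antisymm
      · rw [Subgroup.zpowers_le]
        exact x.2
      · intro y hy
        obtain ⟨k, hk⟩ := Subgroup.mem_zpowers_iff.mp (hx ⟨y, hy⟩)
        rw [Subgroup.mem_zpowers_iff]
        exact ⟨k, by simpa using congrArg Subtype.val hk⟩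
    refine main_T ρ hρ htrans hc'odd hc'n hF x.2 ?_ ?_
    · intro g
      rw [hz]
      exact (inferInstance : (pCore 2 G).Normal).conj_mem _ x.2 g
    · intro t ht _
      rw [hz]
      exact ht
  obtain ⟨n, ⟨e₁⟩⟩ := (T_struct ρ hρ hreg).resolve_left hcyc
  rcases quat_main ρ hρ htrans hc'odd hc'n hF hcyc e₁ with ⟨-, e, -⟩ | h
  swap
  · exact hform h
  rcases q8_core ρ hρ htrans hc'odd hc'n hF e with h | ⟨hq, hV, hcen, h2B, hK⟩
  · exact hform h
  have hkc := card_ker_Th e hcen hK hc'odd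
  have hT := card_Th e
  have hA := range_dvd e
  rw [hkc, hcard, hV] at hT
  set B := orderOf c' with hB
  set A := Nat.card (Th e).range with hAdef
  have hBo : B % 2 = 1 := Nat.odd_iff.mp hc'odd
  have hAle : A ≤ 24 := Nat.le_of_dvd (by norm_num) hA
  have hk3 : 3 ∣ q ^ 2 - 1 → ¬ 3 ∣ 2 * B → ∀ y : G, orderOf y = 3 → y ∉ (Th e).ker := by
    intro _ h3 y hy hmem
    have h1 : orderOf y ∣ Nat.card (Th e).ker := by
      have := orderOf_dvd_natCard (⟨y, hmem⟩ : (Th e).ker)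
      rwa [Subgroup.orderOf_mk] at this
    rw [hy, hkc] at h1
    exact h3 h1
  rcases hq with rfl | rfl | rfl | rfl | rfl
  · -- `q = 3`
    apply hform
    apply q3_form ρ hρ htrans (by rw [hV]; norm_num) _ e
    rw [hcard, hV]
    norm_num
  · -- `q = 5`
    have hB1 : B = 1 := by
      have h1 : 2 * B ≤ 4 := Nat.le_of_dvd (by norm_num) h2B
      omega
    refine ⟨Or.inr (by rw [hV]; norm_num), fun _ => Or.inr (Or.inl ⟨by rw [hV]; norm_num, ?_⟩)⟩
    obtain ⟨Ψ, hΨ⟩ := exists_Psi e (hk3 (by norm_num) (by rw [hB1]; norm_num)) (by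
      rw [hcard, hV]
      norm_num)
    have hb : Function.Bijective Ψ := by
      apply Function.Injective.bijective_of_nat_card_le hΨ
      rw [hcard, hV, natCard_SL23]
      norm_num
    exact ⟨(MulEquiv.ofBijective Ψ hb).symm⟩
  · -- `q = 7`
    refine ⟨Or.inr (by rw [hV]; norm_num), fun _ => Or.inl (index_two_of_sgn e ?_)⟩
    have h1 : 2 * B ≤ 6 := Nat.le_of_dvd (by norm_num) h2B
    have h2 : B = 1 ∨ B = 3 := by omega
    rcases h2 with h2 | h2 <;> rw [h2] at hT <;> omega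
  · -- `q = 11`
    have h1 : 2 * B ≤ 10 := Nat.le_of_dvd (by norm_num) h2B
    have h2 : B = 1 ∨ B = 3 ∨ B = 5 := by omega
    have hB5 : B = 5 := by
      rcases h2 with h2 | h2 | h2
      · rw [h2] at hT
        omega
      · rw [h2] at h2B
        norm_num at h2B
      · exact h2
    refine ⟨Or.inr (by rw [hV]; norm_num), fun _ => Or.inr (Or.inr ⟨by rw [hV]; norm_num, ?_⟩)⟩
    obtain ⟨Ψ, hΨ⟩ := exists_Psi e (hk3 (by norm_num) (by rw [hB5]; norm_num)) (by
      rw [hcard, hV]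
      norm_num)
    exact iso_c5 hΨ hB5 hcen (by rw [hcard, hV]; norm_num)
  · -- `q = 23`
    refine ⟨Or.inr (by rw [hV]; norm_num), fun _ => Or.inl (index_two_of_sgn e (Or.inr ?_))⟩
    have h1 : 2 * B ≤ 22 := Nat.le_of_dvd (by norm_num) h2B
    have h2 : B = 1 ∨ B = 3 ∨ B = 5 ∨ B = 7 ∨ B = 9 ∨ B = 11 := by omega
    rcases h2 with h2 | h2 | h2 | h2 | h2 | h2
    · rw [h2] at hT
      omega
    · rw [h2] at h2B
      norm_num at h2B
    · rw [h2] at h2B
      norm_num at h2B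
    · rw [h2] at h2B
      norm_num at h2B
    · rw [h2] at h2B
      norm_num at h2B
    · rw [h2] at hT
      omega

end Cfsg.Agent.S3361
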