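import Mathlib
import Cfsg.Statements.S3362
import Cfsg.Agent.Lib.PermChain

set_option autoImplicit false
set_option linter.style.haveILetI false
set_option linter.unusedSectionVars false
open Cfsg

namespace Cfsg.Agent.S3362

open Cfsg.Agent.Lib.PermChain

/-- generator -/
abbrev ps : Equiv.Perm (Fin 12) := Equiv.swap (3 : Fin 12) 5 * Equiv.swap (3 : Fin 12) 4 * Equiv.swap (6 : Fin 12) 8 * Equiv.swap (6 : Fin 12) 7 * Equiv.swap (9 : Fin 12) 11 * Equiv.swap (9 : Fin 12) 10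
/-- generator -/
abbrev pt : Equiv.Perm (Fin 12) := Equiv.swap (3 : Fin 12) 9 * Equiv.swap (3 : Fin 12) 6 * Equiv.swap (4 : Fin 12) 10 * Equiv.swap (4 : Fin 12) 7 * Equiv.swap (5 : Fin 12) 11 * Equiv.swap (5 : Fin 12) 8
/-- generator -/
abbrev pu : Equiv.Perm (Fin 12) := Equiv.swap (4 : Fin 12) 9 * Equiv.swap (4 : Fin 12) 5 * Equiv.swap (4 : Fin 12) 6 * Equiv.swap (7 : Fin 12) 10 * Equiv.swap (7 : Fin 12) 11 * Equiv.swap (7 : Fin 12) 8
/-- generator -/
abbrev pv : Equiv.Perm (Fin 12) := Equiv.swap (4 : Fin 12) 11 * Equiv.swap (4 : Fin 12) 5 * Equiv.swap (4 : Fin 12) 7 * Equiv.swap (6 : Fin 12) 8 * Equiv.swap (6 : Fin 12) 9 * Equiv.swap (6 : Fin 12) 10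
/-- generator -/
abbrev pw : Equiv.Perm (Fin 12) := Equiv.swap (4 : Fin 12) 8 * Equiv.swap (4 : Fin 12) 5 * Equiv.swap (4 : Fin 12) 10 * Equiv.swap (6 : Fin 12) 7 * Equiv.swap (6 : Fin 12) 9 * Equiv.swap (6 : Fin 12) 11
/-- generator -/
abbrev px1 : Equiv.Perm (Fin 12) := Equiv.swap (0 : Fin 12) 3 * Equiv.swap (6 : Fin 12) 7 * Equiv.swap (8 : Fin 12) 10 * Equiv.swap (9 : Fin 12) 11
/-- generator -/
abbrev px2 : Equiv.Perm (Fin 12) := Equiv.swap (0 : Fin 12) 1 * Equiv.swap (6 : Fin 12) 9 * Equiv.swap (7 : Fin 12) 10 * Equiv.swap (8 : Fin 12) 11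
/-- generator -/
abbrev px3 : Equiv.Perm (Fin 12) := Equiv.swap (1 : Fin 12) 2 * Equiv.swap (6 : Fin 12) 11 * Equiv.swap (7 : Fin 12) 9 * Equiv.swap (8 : Fin 12) 10

/-- letters -/
def gl : List (Equiv.Perm (Fin 12)) :=
  [ps, ps⁻¹, pt, pt⁻¹, pu, pu⁻¹, pv, pv⁻¹, pw, pw⁻¹, px1, px1⁻¹, px2, px2⁻¹, px3, px3⁻¹]

/-- letters -/
def gg (k : ℕ) : Equiv.Perm (Fin 12) := gl.getD k 1

/-- codes of the generators and their inverses -/
def csl : List ℕ := [2798710607331594075371602176,3105782506183104206941061376,1552275123121935321491702016,2484370986029767479250780416,3103331671908747429468569856,2489202004267852810974003456,1248858261637354181590384896,1554725994000428398352138496,2791442848277985774815805696,1861797801122060564397424896,2795088625882096358916227331,2795088625882096358916227331,2484371097144259712655687681,2484371097144259712655687681,1866614707169428356231922176,1866614707169428356231922176]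

/-- code of the identity -/
def idc : ℕ := 3416467015609337987117220096

/-- words of the transversal at level 0 -/
def T0 : List (List ℕ) := [[12,14],[14],[],[10,12,14],[0,10,12,14],[0,0,10,12,14],[2,10,12,14],[2,0,10,12,14],[2,0,0,10,12,14],[2,2,10,12,14],[8,0,10,12,14],[8,2,10,12,14]]

/-- generators of level 0 -/
def sL0 : List ℕ := [0,2,4,6,8,10,12,14]

/-- orbit of level 0 -/
def oL0 : List ℕ := [0,1,2,3,4,5,6,7,8,9,10,11]

/-- words of the transversal at level 1 -/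
def T1 : List (List ℕ) := [[12],[],[],[10,12],[0,10,12],[0,0,10,12],[2,10,12],[2,0,10,12],[2,0,0,10,12],[2,2,10,12],[8,0,10,12],[8,2,10,12]]

/-- generators of level 1 -/
def sL1 : List ℕ := [0,2,4,6,8,10,12]

/-- orbit of level 1 -/
def oL1 : List ℕ := [0,1,3,4,5,6,7,8,9,10,11]

/-- words of the transversal at level 2 -/
def T2 : List (List ℕ) := [[],[],[],[10],[0,10],[0,0,10],[2,10],[2,0,10],[2,0,0,10],[2,2,10],[8,0,10],[8,2,10]]

/-- generators of level 2 -/
def sL2 : List ℕ := [0,2,4,6,8,10]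

/-- orbit of level 2 -/
def oL2 : List ℕ := [0,3,4,5,6,7,8,9,10,11]

/-- words of the transversal at level 3 -/
def T3 : List (List ℕ) := [[],[],[],[],[0],[0,0],[2],[2,0],[2,0,0],[2,2],[8,0],[8,2]]

/-- generators of level 3 -/
def sL3 : List ℕ := [0,2,4,6,8]

/-- orbit of level 3 -/
def oL3 : List ℕ := [3,4,5,6,7,8,9,10,11]

/-- words of the transversal at level 4 -/
def T4 : List (List ℕ) := [[],[],[],[],[],[4,4],[4],[6],[4,6],[6,8],[8],[8,4]]

/-- generators of level 4 -/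
def sL4 : List ℕ := [4,6,8]

/-- orbit of level 4 -/
def oL4 : List ℕ := [4,5,6,7,8,9,10,11]

/-- codes -/
def cc (k : ℕ) : ℕ := csl.getD k idc

theorem gg_large {k : ℕ} (h : 16 ≤ k) : gg k = 1 := by
  unfold gg
  exact List.getD_eq_default _ _ (by simpa [gl] using h)

theorem cc_large {k : ℕ} (h : 16 ≤ k) : cc k = idc := by
  unfold cc
  exact List.getD_eq_default _ _ (by simpa [csl] using h)

theorem hgg : ∀ k, Rep (gg k) (cc k) := by
  intro k
  by_cases h : k < 16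
  · have : ∀ k : Fin 16, ∀ i : Fin 12, (gg k i).val = img (cc k) i.val := by decide +kernel
    exact this ⟨k, h⟩
  · rw [gg_large (by omega), cc_large (by omega)]
    have : ∀ i : Fin 12, ((1 : Equiv.Perm (Fin 12)) i).val = img idc i.val := by decide +kernel
    exact this

theorem hinv : ∀ k, gg (invL k) = (gg k)⁻¹ := by
  intro k
  by_cases h : k < 16
  · interval_cases k
    · rfl
    · exact (inv_inv _).symm
    · rfl
    · exact (inv_inv _).symm
    · rfl
    · exact (inv_inv _).symm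
    · rfl
    · exact (inv_inv _).symm
    · rfl
    · exact (inv_inv _).symm
    · rfl
    · exact (inv_inv _).symm
    · rfl
    · exact (inv_inv _).symm
    · rfl
    · exact (inv_inv _).symm
  · have h1 : 16 ≤ invL k := by
      unfold invL
      split_ifs <;> omega
    rw [gg_large h1, gg_large (by omega), inv_one]

/-- the groups of the chain -/
abbrev G0 : Subgroup (Equiv.Perm (Fin 12)) := genOf gg sL0
/-- the groups of the chain -/
abbrev G1 : Subgroup (Equiv.Perm (Fin 12)) := genOf gg sL1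
/-- the groups of the chain -/
abbrev G2 : Subgroup (Equiv.Perm (Fin 12)) := genOf gg sL2
/-- the groups of the chain -/
abbrev G3 : Subgroup (Equiv.Perm (Fin 12)) := genOf gg sL3
/-- the groups of the chain -/
abbrev G4 : Subgroup (Equiv.Perm (Fin 12)) := genOf gg sL4

theorem le43 : G4 ≤ G3 := genOf_le (by decide)
theorem le32 : G3 ≤ G2 := genOf_le (by decide)
theorem le21 : G2 ≤ G1 := genOf_le (by decide)
theorem le10 : G1 ≤ G0 := genOf_le (by decide)

theorem tbl4 : ∀ w ∈ T4, ∀ k ∈ w, k ∈ sL4 := by decide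
theorem tbl3 : ∀ w ∈ T3, ∀ k ∈ w, k ∈ sL3 := by decide
theorem tbl2 : ∀ w ∈ T2, ∀ k ∈ w, k ∈ sL2 := by decide
theorem tbl1 : ∀ w ∈ T1, ∀ k ∈ w, k ∈ sL1 := by decide

theorem L4 : Level G4 (⊥ : Subgroup _) (4 : Fin 12) (fun p => prodW gg (tblW T4 p.val)) (orbOf 12 oL4) := by
  refine level_of_check hgg hinv (lower := []) bot_le ?_ (by simp) (by decide +kernel)
  intro h hh
  rw [Subgroup.mem_bot] at hh
  rw [hh]; rfl

theorem L3 : Level G3 G4 (3 : Fin 12) (fun p => prodW gg (tblW T3 p.val)) (orbOf 12 oL3) := by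
  refine level_of_check hgg hinv (lower := [(4, tblW T4)]) le43
    (fix_genOf (by decide +kernel)) ?_ (by decide +kernel)
  intro e he p
  simp only [List.mem_singleton] at he
  subst he
  exact mem_tblW le_rfl tbl4 p

theorem L2 : Level G2 G3 (0 : Fin 12) (fun p => prodW gg (tblW T2 p.val)) (orbOf 12 oL2) := by
  refine level_of_check hgg hinv (lower := [(3, tblW T3), (4, tblW T4)]) le32
    (fix_genOf (by decide +kernel)) ?_ (by decide +kernel)
  intro e he p
  simp only [List.mem_cons, List.not_mem_nil, or_false] at he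
  rcases he with rfl | rfl
  · exact mem_tblW le_rfl tbl3 p
  · exact mem_tblW le43 tbl4 p

theorem L1 : Level G1 G2 (1 : Fin 12) (fun p => prodW gg (tblW T1 p.val)) (orbOf 12 oL1) := by
  refine level_of_check hgg hinv (lower := [(0, tblW T2), (3, tblW T3), (4, tblW T4)]) le21
    (fix_genOf (by decide +kernel)) ?_ (by decide +kernel)
  intro e he p
  simp only [List.mem_cons, List.not_mem_nil, or_false] at he
  rcases he with rfl | rfl | rfl
  · exact mem_tblW le_rfl tbl2 p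
  · exact mem_tblW le32 tbl3 p
  · exact mem_tblW (le43.trans le32) tbl4 p

theorem L0 : Level G0 G1 (2 : Fin 12) (fun p => prodW gg (tblW T0 p.val)) (orbOf 12 oL0) := by
  refine level_of_check hgg hinv (lower := [(1, tblW T1), (0, tblW T2), (3, tblW T3), (4, tblW T4)]) le10
    (fix_genOf (by decide +kernel)) ?_ (by decide +kernel)
  intro e he p
  simp only [List.mem_cons, List.not_mem_nil, or_false] at he
  rcases he with rfl | rfl | rfl | rfl
  · exact mem_tblW le_rfl tbl1 p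
  · exact mem_tblW le21 tbl2 p
  · exact mem_tblW (le32.trans le21) tbl3 p
  · exact mem_tblW (le43.trans (le32.trans le21)) tbl4 p

theorem card4 : Nat.card G4 = 8 := by
  rw [L4.card, Subgroup.card_bot]; decide +kernel
theorem card3 : Nat.card G3 = 72 := by
  rw [L3.card, card4]; decide +kernel
theorem card2 : Nat.card G2 = 720 := by
  rw [L2.card, card3]; decide +kernel
theorem card1 : Nat.card G1 = 7920 := by
  rw [L1.card, card2]; decide +kernel
theorem card0 : Nat.card G0 = 95040 := by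
  rw [L0.card, card1]; decide +kernel

/-- base embedding -/
def y0 : Fin 5 ↪ Fin 12 := ⟨![2, 1, 0, 3, 4], by decide⟩

theorem rigid (g : Equiv.Perm (Fin 12)) (hg : g ∈ G0) (h : ∀ i, g (y0 i) = y0 i) : g = 1 := by
  have h1 : g ∈ G1 := L0.stab.ge ⟨hg, h 0⟩
  have h2 : g ∈ G2 := L1.stab.ge ⟨h1, h 1⟩
  have h3 : g ∈ G3 := L2.stab.ge ⟨h2, h 2⟩
  have h4 : g ∈ G4 := L3.stab.ge ⟨h3, h 3⟩
  have h5 : g ∈ (⊥ : Subgroup _) := L4.stab.ge ⟨h4, h 4⟩
  simpa using h5

/-- orbit map -/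
def fmap (g : G0) : Fin 5 ↪ Fin 12 := g • y0

theorem fmap_apply (g : G0) (i : Fin 5) : fmap g i = (g : Equiv.Perm (Fin 12)) (y0 i) := rfl

theorem fmap_inj : Function.Injective fmap := by
  intro a b hab
  have h : (a⁻¹ * b : G0) = 1 := by
    apply Subtype.ext
    apply rigid _ (a⁻¹ * b : G0).2
    intro i
    have h1 : (a : Equiv.Perm (Fin 12)) (y0 i) = (b : Equiv.Perm (Fin 12)) (y0 i) := by
      rw [← fmap_apply, ← fmap_apply, hab]
    show ((a : Equiv.Perm (Fin 12))⁻¹ * (b : Equiv.Perm (Fin 12))) (y0 i) = y0 i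
    rw [Equiv.Perm.mul_apply, ← h1]
    simp
  exact (inv_mul_eq_one.mp h)

theorem fmap_bij : Function.Bijective fmap := by
  rw [Nat.bijective_iff_injective_and_card]
  refine ⟨fmap_inj, ?_⟩
  rw [card0, Nat.card_eq_fintype_card, Fintype.card_embedding_eq]
  simp

theorem smul2 (a b : G0) (y : Fin 5 ↪ Fin 12) : a • (b • y) = (a * b) • y := by
  ext i; rfl

theorem pretrans : MulAction.IsMultiplyPretransitive G0 (Fin 12) 5 := by
  constructor
  intro x y
  obtain ⟨a, rfl⟩ := fmap_bij.2 x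
  obtain ⟨b, rfl⟩ := fmap_bij.2 y
  refine ⟨b * a⁻¹, ?_⟩
  show (b * a⁻¹) • (a • y0) = b • y0
  rw [smul2]; simp

theorem stab_bot (y : Fin 5 ↪ Fin 12) : MulAction.stabilizer G0 y = ⊥ := by
  rw [eq_bot_iff]
  intro h hh
  obtain ⟨g, rfl⟩ := fmap_bij.2 y
  have h1 : h • (g • y0) = g • y0 := hh
  have h2 : h * g = g := fmap_inj (by
    show (h * g) • y0 = g • y0
    rw [← smul2]; exact h1)
  rw [Subgroup.mem_bot]
  exact mul_eq_right.mp h2

theorem eq0 : Subgroup.closure ({ps, pt, pu, pv, pw, px1, px2, px3} : Set (Equiv.Perm (Fin 12))) = G0 := by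
  apply congrArg
  ext x
  simp [sL0, gg, gl]

theorem eq1 : Subgroup.closure ({ps, pt, pu, pv, pw, px1, px2} : Set (Equiv.Perm (Fin 12))) = G1 := by
  apply congrArg
  ext x
  simp [sL1, gg, gl]

theorem result
    (s t u v w x₁ x₂ x₃ : Equiv.Perm (Fin 12))
    (hs : s = Equiv.swap (3 : Fin 12) 5 * Equiv.swap (3 : Fin 12) 4 * Equiv.swap (6 : Fin 12) 8 * Equiv.swap (6 : Fin 12) 7 * Equiv.swap (9 : Fin 12) 11 * Equiv.swap (9 : Fin 12) 10) (ht : t = Equiv.swap (3 : Fin 12) 9 * Equiv.swap (3 : Fin 12) 6 * Equiv.swap (4 : Fin 12) 10 * Equiv.swap (4 : Fin 12) 7 * Equiv.swap (5 : Fin 12) 11 * Equiv.swap (5 : Fin 12) 8)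
    (hu : u = Equiv.swap (4 : Fin 12) 9 * Equiv.swap (4 : Fin 12) 5 * Equiv.swap (4 : Fin 12) 6 * Equiv.swap (7 : Fin 12) 10 * Equiv.swap (7 : Fin 12) 11 * Equiv.swap (7 : Fin 12) 8) (hv : v = Equiv.swap (4 : Fin 12) 11 * Equiv.swap (4 : Fin 12) 5 * Equiv.swap (4 : Fin 12) 7 * Equiv.swap (6 : Fin 12) 8 * Equiv.swap (6 : Fin 12) 9 * Equiv.swap (6 : Fin 12) 10) (hw : w = Equiv.swap (4 : Fin 12) 8 * Equiv.swap (4 : Fin 12) 5 * Equiv.swap (4 : Fin 12) 10 * Equiv.swap (6 : Fin 12) 7 * Equiv.swap (6 : Fin 12) 9 * Equiv.swap (6 : Fin 12) 11)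
    (hx₁ : x₁ = Equiv.swap (0 : Fin 12) 3 * Equiv.swap (6 : Fin 12) 7 * Equiv.swap (8 : Fin 12) 10 * Equiv.swap (9 : Fin 12) 11) (hx₂ : x₂ = Equiv.swap (0 : Fin 12) 1 * Equiv.swap (6 : Fin 12) 9 * Equiv.swap (7 : Fin 12) 10 * Equiv.swap (8 : Fin 12) 11)
    (hx₃ : x₃ = Equiv.swap (1 : Fin 12) 2 * Equiv.swap (6 : Fin 12) 11 * Equiv.swap (7 : Fin 12) 9 * Equiv.swap (8 : Fin 12) 10)
    (M₁₂ M₁₁ : Subgroup (Equiv.Perm (Fin 12))) (hM₁₂ : M₁₂ = Subgroup.closure {s, t, u, v, w, x₁, x₂, x₃})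
    (hM₁₁ : M₁₁ = Subgroup.closure {s, t, u, v, w, x₁, x₂}) :
    MulAction.IsMultiplyPretransitive M₁₂ (Fin 12) 5 ∧ (∀ y : Fin 5 ↪ Fin 12, MulAction.stabilizer M₁₂ y = ⊥) ∧
    Nat.card M₁₂ = 95040 ∧ Nat.card M₁₁ = 7920 ∧
    M₁₁ = M₁₂ ⊓ MulAction.stabilizer (Equiv.Perm (Fin 12)) (2 : Fin 12) := by
  subst hs ht hu hv hw hx₁ hx₂ hx₃
  have e0 : M₁₂ = G0 := hM₁₂.trans eq0
  have e1 : M₁₁ = G1 := hM₁₁.trans eq1
  subst e0 e1
  exact ⟨pretrans, stab_bot, card0, card1, L0.stab⟩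

end Cfsg.Agent.S3362
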