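import Mathlib
import Cfsg.Statements.S3375

set_option autoImplicit false
open Cfsg

namespace Cfsg.Agent.S3375

/-- Let γ be an automorphism of order 2 of a finite group H. (i) If γ fixes only the identity, then H is abelian and γ inverts every element. (ii) If γ has exactly two fixed points and H has a subgroup of index 2, then H has a γ-invariant abelian subgroup of index 2 on which γ acts by inversion. -/
theorem result {H : Type*} [Group H] [Finite H] (γ : MulAut H) (hγ : orderOf γ = 2) :
    ((∀ h : H, γ h = h → h = 1) → (∀ a b : H, a * b = b * a) ∧ ∀ h : H, γ h = h⁻¹) ∧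
    ((Nat.card {h : H // γ h = h} = 2 ∧ ∃ M : Subgroup H, M.index = 2) →
      ∃ A : Subgroup H, A.index = 2 ∧ IsMulCommutative A ∧ (∀ a ∈ A, γ a ∈ A) ∧ ∀ a ∈ A, γ a = a⁻¹) := by
  classical
  have hγγ : ∀ h : H, γ (γ h) = h := by
    intro h
    have h1 : γ ^ 2 = 1 := by rw [← hγ]; exact pow_orderOf_eq_one γ
    have h2 := congrArg (fun f : MulAut H => f h) h1
    simpa [pow_two, MulAut.mul_apply] using h2
  -- ψ(h) = h γ(h)⁻¹ is inverted by γ
  have hψ : ∀ h : H, γ (h * (γ h)⁻¹) = (h * (γ h)⁻¹)⁻¹ := by
    intro h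
    rw [map_mul, map_inv, hγγ]; group
  have hψeq : ∀ a b : H, a * (γ a)⁻¹ = b * (γ b)⁻¹ → γ (b⁻¹ * a) = b⁻¹ * a := by
    intro a b hab
    rw [map_mul, map_inv]
    have : b⁻¹ * a = (γ b)⁻¹ * γ a := by
      have h1 := congrArg (fun t => b⁻¹ * t * γ a) hab
      simpa [mul_assoc] using h1
    rw [this]
  refine ⟨?_, ?_⟩
  · intro hfree
    have hinj : Function.Injective (fun h : H => h * (γ h)⁻¹) := by
      intro a b hab
      have h1 := hfree _ (hψeq a b hab)
      rw [inv_mul_eq_one] at h1
      exact h1.symm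
    have hsurj := Finite.surjective_of_injective hinj
    have hinv : ∀ h : H, γ h = h⁻¹ := by
      intro h
      obtain ⟨x, rfl⟩ := hsurj h
      exact hψ x
    refine ⟨?_, hinv⟩
    intro a b
    have h1 := hinv (a * b)
    rw [map_mul, hinv, hinv, mul_inv_rev] at h1
    have h2 := congrArg (·⁻¹) h1
    simpa using h2.symm
  · rintro ⟨hcard, M, hM⟩
    -- a γ-invariant subgroup of index 2
    have hex : ∃ N : Subgroup H, N.index = 2 ∧ ∀ a ∈ N, γ a ∈ N := by
      by_cases hinv : ∀ a ∈ M, γ a ∈ M
      · exact ⟨M, hM, hinv⟩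
      -- the conjugate subgroup
      let M' : Subgroup H := M.comap γ.toMonoidHom
      have hM'mem : ∀ x, x ∈ M' ↔ γ x ∈ M := fun x => Iff.rfl
      have hM' : M'.index = 2 := by
        have h1 : M'.index = M.index := by
          apply Subgroup.index_comap_of_surjective
          exact γ.surjective
        rw [h1, hM]
      let N : Subgroup H :=
        { carrier := {x | x ∈ M ↔ x ∈ M'}
          one_mem' := by simp [M.one_mem, M'.one_mem]
          mul_mem' := by
            intro a b ha hb
            simp only [Set.mem_ofPred_eq] at ha hb ⊢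
            rw [Subgroup.mul_mem_iff_of_index_two hM, Subgroup.mul_mem_iff_of_index_two hM', ha, hb]
          inv_mem' := by
            intro a ha
            simp only [Set.mem_ofPred_eq] at ha ⊢
            rw [M.inv_mem_iff, M'.inv_mem_iff]; exact ha }
      have hNmem : ∀ x, x ∈ N ↔ (x ∈ M ↔ x ∈ M') := fun x => Iff.rfl
      obtain ⟨t, htM, htγ⟩ : ∃ t, t ∈ M ∧ γ t ∉ M := by
        push Not at hinv; exact hinv
      refine ⟨N, ?_, ?_⟩
      · rw [Subgroup.index_eq_two_iff]
        refine ⟨t, ?_⟩
        intro b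
        have h1 := Subgroup.mul_mem_iff_of_index_two hM (a := b) (b := t)
        have h2 := Subgroup.mul_mem_iff_of_index_two hM' (a := b) (b := t)
        have htM' : t ∉ M' := htγ
        rw [hNmem, hNmem, h1, h2]
        simp only [htM, htM', iff_true, iff_false]
        tauto
      · intro a ha
        rw [hNmem] at ha ⊢
        rw [hM'mem, hγγ]
        rw [hM'mem] at ha
        tauto
    obtain ⟨N, hNi, hNinv'⟩ := hex
    have hNiff : ∀ h, γ h ∈ N ↔ h ∈ N := by
      intro h
      refine ⟨fun h1 => ?_, hNinv' h⟩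
      have := hNinv' _ h1
      rwa [hγγ] at this
    -- ψ lands in N
    have hψN : ∀ h : H, h * (γ h)⁻¹ ∈ N := by
      intro h
      rw [Subgroup.mul_mem_iff_of_index_two hNi, N.inv_mem_iff, hNiff]
    -- fixed subgroup
    let C : Subgroup H := (γ.toMonoidHom).eqLocus (MonoidHom.id H)
    have hCmem : ∀ x, x ∈ C ↔ γ x = x := fun x => Iff.rfl
    have hCcard : Nat.card C = 2 := by
      rw [← hcard]
      exact Nat.card_congr (Equiv.subtypeEquivRight hCmem)
    let F : H ⧸ C → N := fun q => Quotient.liftOn' q (fun h => (⟨h * (γ h)⁻¹, hψN h⟩ : N)) (by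
      intro a b hab
      rw [QuotientGroup.leftRel_apply] at hab
      have h1 : γ (a⁻¹ * b) = a⁻¹ * b := (hCmem _).mp hab
      apply Subtype.ext
      show a * (γ a)⁻¹ = b * (γ b)⁻¹
      rw [map_mul, map_inv] at h1
      have h2 : (γ a)⁻¹ = a⁻¹ * b * (γ b)⁻¹ := by
        rw [← h1]; group
      rw [h2]; group)
    have hFinj : Function.Injective F := by
      intro x y
      induction x using QuotientGroup.induction_on with | H a => ?_
      induction y using QuotientGroup.induction_on with | H b => ?_
      intro hxy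
      have h1 : a * (γ a)⁻¹ = b * (γ b)⁻¹ := congrArg Subtype.val hxy
      rw [QuotientGroup.eq]
      have h2 := hψeq b a h1.symm
      exact (hCmem _).mpr h2
    have hcardeq : Nat.card (H ⧸ C) = Nat.card N := by
      have h1 : Nat.card C * C.index = Nat.card H := C.card_mul_index
      have h2 : Nat.card N * N.index = Nat.card H := N.card_mul_index
      rw [hCcard] at h1
      rw [hNi] at h2
      change C.index = Nat.card N
      have hpos : 0 < Nat.card H := Nat.card_pos
      omega
    have hFsurj : Function.Surjective F := ((Nat.bijective_iff_injective_and_card F).mpr ⟨hFinj, hcardeq⟩).2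
    have hNinv : ∀ a ∈ N, γ a = a⁻¹ := by
      intro a ha
      obtain ⟨q, hq⟩ := hFsurj ⟨a, ha⟩
      induction q using QuotientGroup.induction_on with | H b => ?_
      have h1 : b * (γ b)⁻¹ = a := congrArg Subtype.val hq
      rw [← h1]
      exact hψ b
    refine ⟨N, hNi, ⟨⟨?_⟩⟩, hNinv', hNinv⟩
    rintro ⟨a, ha⟩ ⟨b, hb⟩
    apply Subtype.ext
    have h1 := hNinv _ (N.mul_mem ha hb)
    rw [map_mul, hNinv a ha, hNinv b hb, mul_inv_rev] at h1
    have h2 := congrArg (·⁻¹) h1
    simpa using h2.symm

end Cfsg.Agent.S3375
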