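import Mathlib
import Cfsg.Statements.S3379

set_option autoImplicit false
set_option linter.style.haveILetI false
open Cfsg

namespace Cfsg.Agent.S3379

/-- Let G be a finite group all of whose Sylow subgroups are cyclic. Then G is generated by two elements x and y of coprime orders n and m with x⁻¹yx = y^r, where gcd(r − 1, m) = 1 and r^n ≡ 1 (mod m). -/
theorem result {G : Type*} [Group G] [Finite G]
    (hZ : ∀ (p : ℕ) [Fact p.Prime] (P : Sylow p G), IsCyclic (P : Subgroup G)) :
    ∃ (x y : G) (n m r : ℕ), Subgroup.closure {x, y} = ⊤ ∧ orderOf x = n ∧ orderOf y = m ∧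
      x⁻¹ * y * x = y ^ r ∧ Nat.Coprime (r - 1) m ∧ Nat.Coprime n m ∧ 1 ≤ r ∧ r ^ n % m = 1 % m := by
  classical
  haveI : IsZGroup G := ⟨fun p hp P => by haveI := Fact.mk hp; exact hZ p P⟩
  have hcop := IsZGroup.coprime_commutator_index G
  obtain ⟨H, hH⟩ := Subgroup.exists_right_complement'_of_coprime hcop
  haveI : IsCyclic (commutator G) := IsZGroup.isCyclic_commutator G
  have h1 : Abelianization G ≃* H := hH.symm.QuotientMulEquiv
  haveI : IsCyclic H := isCyclic_of_surjective _ h1.surjective
  obtain ⟨⟨y, hyN⟩, hy⟩ := IsCyclic.exists_generator (α := commutator G)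
  obtain ⟨⟨x, hxH⟩, hx⟩ := IsCyclic.exists_generator (α := H)
  -- `commutator G` is the cyclic group generated by y
  have hNy : commutator G = Subgroup.zpowers y := by
    apply le_antisymm
    · intro a ha
      obtain ⟨k, hk⟩ := Subgroup.mem_zpowers_iff.mp (hy ⟨a, ha⟩)
      have := congrArg Subtype.val hk
      simp only [SubgroupClass.coe_zpow] at this
      exact Subgroup.mem_zpowers_iff.mpr ⟨k, this⟩
    · rw [Subgroup.zpowers_le]; exact hyN
  have hHx : H = Subgroup.zpowers x := by
    apply le_antisymm
    · intro a ha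
      obtain ⟨k, hk⟩ := Subgroup.mem_zpowers_iff.mp (hx ⟨a, ha⟩)
      have := congrArg Subtype.val hk
      simp only [SubgroupClass.coe_zpow] at this
      exact Subgroup.mem_zpowers_iff.mpr ⟨k, this⟩
    · rw [Subgroup.zpowers_le]; exact hxH
  have hcardN : orderOf y = Nat.card (commutator G) := by
    rw [hNy, Nat.card_zpowers]
  have hcardH : orderOf x = (commutator G).index := by
    rw [hH.symm.index_eq_card, hHx, Nat.card_zpowers]
  have hcoprime : Nat.Coprime (orderOf x) (orderOf y) := by
    rw [hcardN, hcardH]; exact hcop.symm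
  have hclosure : Subgroup.closure {x, y} = ⊤ := by
    rw [eq_top_iff, ← hH.sup_eq_top, sup_le_iff]
    constructor
    · rw [hNy, Subgroup.zpowers_le]; exact Subgroup.subset_closure (by simp)
    · rw [hHx, Subgroup.zpowers_le]; exact Subgroup.subset_closure (by simp)
  -- the exponent r
  have hconjmem : x⁻¹ * y * x ∈ Subgroup.zpowers y := by
    rw [← hNy]
    have := (inferInstance : (commutator G).Normal).conj_mem y hyN x⁻¹
    simpa using this
  have hconjmem' : x⁻¹ * y * x ∈ Submonoid.powers y := by
    rw [mem_powers_iff_mem_zpowers]; exact hconjmem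
  obtain ⟨k, hk⟩ := hconjmem'
  set m := orderOf y with hm
  have hmpos : 0 < m := orderOf_pos y
  set r := k + m with hr
  have hyr : x⁻¹ * y * x = y ^ r := by
    rw [hr, pow_add, hm, pow_orderOf_eq_one, mul_one]; exact hk.symm
  have hr1 : 1 ≤ r := by omega
  -- conjugation of powers
  have hconjpow : ∀ (g : G) (t : ℕ), x⁻¹ * g ^ t * x = (x⁻¹ * g * x) ^ t := by
    intro g t
    have := conj_pow (a := x⁻¹) (b := g) (i := t)
    simpa using this.symm
  -- iterate
  have hiter : ∀ j : ℕ, (x⁻¹) ^ j * y * x ^ j = y ^ (r ^ j) := by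
    intro j
    induction j with
    | zero => simp
    | succ j ih =>
      have h2 : (x⁻¹) ^ (j + 1) * y * x ^ (j + 1) = x⁻¹ * ((x⁻¹) ^ j * y * x ^ j) * x := by
        rw [pow_succ' x⁻¹ j, pow_succ x j]; group
      rw [h2, ih, hconjpow, hyr, ← pow_mul, pow_succ' r j]
  have hrn : r ^ (orderOf x) ≡ 1 [MOD m] := by
    have h3 := hiter (orderOf x)
    rw [inv_pow, pow_orderOf_eq_one] at h3
    simp only [inv_one, one_mul, mul_one] at h3
    have h4 : y ^ (r ^ orderOf x) = y ^ 1 := by rw [← h3, pow_one]
    exact (pow_eq_pow_iff_modEq).mp h4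
  -- the subgroup K generated by y^(r-1)
  let K : Subgroup G := Subgroup.zpowers (y ^ (r - 1))
  have hKnormal : K.Normal := by
    rw [← Subgroup.normalizer_eq_top_iff, eq_top_iff, ← hclosure, Subgroup.closure_le]
    have hfin : ∀ g : G, (∀ h ∈ K, g * h * g⁻¹ ∈ K) → g ∈ Subgroup.normalizer (K : Set G) := by
      intro g hg
      have hle : K.map (MulAut.conj g).toMonoidHom ≤ K := by
        rintro _ ⟨h, hh, rfl⟩
        exact hg h hh
      have hc : Nat.card (K.map (MulAut.conj g).toMonoidHom) = Nat.card K :=
        Subgroup.card_map_of_injective (MulAut.conj g).injective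
      have heq : K.map (MulAut.conj g).toMonoidHom = K :=
        Subgroup.eq_of_le_of_card_ge hle (le_of_eq hc.symm)
      rw [Subgroup.mem_normalizer_iff]
      intro h
      constructor
      · exact hg h
      · intro hh
        rw [← heq] at hh
        obtain ⟨w, hw, hwh⟩ := hh
        have : w = h := by
          have h1 : g * w * g⁻¹ = g * h * g⁻¹ := hwh
          simpa using h1
        rwa [← this]
    rintro g (rfl | rfl)
    · -- x normalizes K
      have hxinv : g⁻¹ ∈ Subgroup.normalizer (K : Set G) := by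
        apply hfin
        intro h hh
        obtain ⟨t, rfl⟩ := Subgroup.mem_zpowers_iff.mp hh
        have h5 : g⁻¹ * y ^ (r - 1) * g = (y ^ (r - 1)) ^ r := by
          rw [hconjpow, hyr, ← pow_mul, ← pow_mul, mul_comm]
        have h6 : g⁻¹ * (y ^ (r - 1)) ^ t * g⁻¹⁻¹ = ((y ^ (r - 1)) ^ r) ^ t := by
          rw [← h5]
          have := conj_zpow (a := g⁻¹) (b := y ^ (r - 1)) (i := t)
          simpa using this.symm
        rw [h6, ← zpow_natCast, ← zpow_mul]
        exact Subgroup.zpow_mem _ (Subgroup.mem_zpowers _) _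
      have := Subgroup.inv_mem _ hxinv
      simpa using this
    · -- y normalizes K
      apply hfin
      intro h hh
      obtain ⟨t, rfl⟩ := Subgroup.mem_zpowers_iff.mp hh
      have : g * (g ^ (r - 1)) ^ t * g⁻¹ = (g ^ (r - 1)) ^ t := by
        have hc : Commute g ((g ^ (r - 1)) ^ t) := ((Commute.refl g).pow_right _).zpow_right _
        rw [hc.eq]; group
      rw [this]
      exact Subgroup.zpow_mem _ (Subgroup.mem_zpowers _) _
  -- the quotient is commutative
  let c : G →* G ⧸ K := QuotientGroup.mk' K
  have hcsurj : Function.Surjective c := QuotientGroup.mk'_surjective K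
  have hcy : c (y ^ (r - 1)) = 1 := by
    rw [QuotientGroup.mk'_apply, QuotientGroup.eq_one_iff]
    exact Subgroup.mem_zpowers _
  have hcomm : c x * c y = c y * c x := by
    have h7 : c x⁻¹ * c y * c x = c y := by
      rw [← map_mul, ← map_mul, hyr]
      have h9 : y ^ r = y ^ (r - 1) * y := by
        rw [← pow_succ]; congr 1; omega
      rw [h9, map_mul, hcy, one_mul]
    have h8 := congrArg (fun t => c x * t) h7
    simp only [map_inv, mul_assoc, mul_inv_cancel_left] at h8
    exact h8.symm
  have hclosure' : Subgroup.closure {c x, c y} = ⊤ := by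
    have := MonoidHom.map_closure c ({x, y} : Set G)
    rw [hclosure, Set.image_pair, ← MonoidHom.range_eq_map, MonoidHom.range_eq_top.mpr hcsurj] at this
    exact this.symm
  have hcent : ∀ u : G ⧸ K, u = c x ∨ u = c y → ∀ v : G ⧸ K, v * u = u * v := by
    intro u hu
    have hle : Subgroup.closure {c x, c y} ≤ Subgroup.centralizer ({u} : Set (G ⧸ K)) := by
      rw [Subgroup.closure_le]
      rintro w (rfl | rfl) <;> rw [SetLike.mem_coe, Subgroup.mem_centralizer_iff] <;> rintro _ rfl <;>
        rcases hu with rfl | rfl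
      · rfl
      · exact hcomm.symm
      · exact hcomm
      · rfl
    intro v
    have hv := hle (by rw [hclosure']; trivial : v ∈ Subgroup.closure {c x, c y})
    rw [Subgroup.mem_centralizer_iff] at hv
    exact (hv u rfl).symm
  have hquot : IsMulCommutative (G ⧸ K) := by
    have hle : Subgroup.closure {c x, c y} ≤ Subgroup.center (G ⧸ K) := by
      rw [Subgroup.closure_le]
      rintro w hw
      rw [SetLike.mem_coe, Subgroup.mem_center_iff]
      intro v
      exact hcent w hw v
    refine ⟨⟨fun a b => ?_⟩⟩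
    have ha := hle (by rw [hclosure']; trivial : a ∈ Subgroup.closure {c x, c y})
    exact (Subgroup.mem_center_iff.mp ha b).symm
  have hcommK : commutator G ≤ K := Subgroup.Normal.quotient_commutative_iff_commutator_le.mp hquot
  have hyK : y ∈ K := hcommK hyN
  have hyK' : y ∈ Submonoid.powers (y ^ (r - 1)) := by
    rw [mem_powers_iff_mem_zpowers]; exact hyK
  obtain ⟨t, ht⟩ := hyK'
  have hmod : (r - 1) * t ≡ 1 [MOD m] := by
    have ht' : (y ^ (r - 1)) ^ t = y := ht
    have : y ^ ((r - 1) * t) = y ^ 1 := by rw [pow_mul, ht', pow_one]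
    exact (pow_eq_pow_iff_modEq).mp this
  have hgcd : Nat.Coprime ((r - 1) * t) m := by
    have := hmod.gcd_eq
    rw [Nat.Coprime, this]; simp
  exact ⟨x, y, orderOf x, m, r, hclosure, rfl, rfl, hyr, Nat.Coprime.coprime_mul_right hgcd, hcoprime, hr1, hrn⟩

end Cfsg.Agent.S3379
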