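import Mathlib
import Cfsg.Statements.S3381

set_option autoImplicit false
set_option linter.unusedSectionVars false
open Cfsg

namespace Cfsg.Agent.S3381

variable {q : ℕ} [Fact q.Prime] {V : Type*} [AddCommGroup V] [Module (ZMod q) V] [Finite V]
  {G : Type*} [Group G] [Finite G] (ρ : G →* (V ≃ₗ[ZMod q] V))

theorem stab_unique (hstab : ∀ v : V, v ≠ 0 → Nat.card {g : G // ρ g v = v} = 2)
    {v : V} (hv : v ≠ 0) {a b : G} (ha : ρ a v = v) (hb : ρ b v = v) (ha1 : a ≠ 1) (hb1 : b ≠ 1) :
    a = b := by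
  by_contra hab
  obtain ⟨x, y, hxy, hall⟩ := Nat.card_eq_two_iff.mp (hstab v hv)
  have key : ∀ w : {g : G // ρ g v = v}, w = x ∨ w = y := by
    intro w
    have : w ∈ ({x, y} : Set _) := hall ▸ Set.mem_univ w
    simpa using this
  have h1 := key ⟨1, by simp⟩
  have h2 := key ⟨a, ha⟩
  have h3 := key ⟨b, hb⟩
  have e1 : ∀ w w' : {g : G // ρ g v = v}, w = w' → w.1 = w'.1 := fun _ _ h => by rw [h]
  rcases h1 with h1 | h1 <;> rcases h2 with h2 | h2 <;> rcases h3 with h3 | h3
  · exact ha1 (by have := e1 _ _ (h2.trans h1.symm); simpa using this)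
  · exact ha1 (by have := e1 _ _ (h2.trans h1.symm); simpa using this)
  · exact hb1 (by have := e1 _ _ (h3.trans h1.symm); simpa using this)
  · exact hab (by have := e1 _ _ (h2.trans h3.symm); simpa using this)
  · exact hab (by have := e1 _ _ (h2.trans h3.symm); simpa using this)
  · exact hb1 (by have := e1 _ _ (h3.trans h1.symm); simpa using this)
  · exact ha1 (by have := e1 _ _ (h2.trans h1.symm); simpa using this)
  · exact ha1 (by have := e1 _ _ (h2.trans h1.symm); simpa using this)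

theorem exists_stab (hstab : ∀ v : V, v ≠ 0 → Nat.card {g : G // ρ g v = v} = 2)
    {v : V} (hv : v ≠ 0) : ∃ t : G, t ≠ 1 ∧ ρ t v = v := by
  obtain ⟨x, y, hxy, -⟩ := Nat.card_eq_two_iff.mp (hstab v hv)
  by_cases hx : x.1 = 1
  · exact ⟨y.1, fun hy => hxy (Subtype.ext (hx.trans hy.symm)), y.2⟩
  · exact ⟨x.1, hx, x.2⟩

theorem stab_sq (hstab : ∀ v : V, v ≠ 0 → Nat.card {g : G // ρ g v = v} = 2)
    {v : V} (hv : v ≠ 0) {t : G} (ht : t ≠ 1) (htv : ρ t v = v) : t * t = 1 := by
  by_contra h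
  have : t * t = t := stab_unique ρ hstab hv (by simp [htv]) htv h ht
  exact ht (by simpa using this)

theorem zfix (hρ : Function.Injective ρ)
    (hstab : ∀ v : V, v ≠ 0 → Nat.card {g : G // ρ g v = v} = 2)
    (z : G) (hz1 : z ≠ 1) (hzz : z * z = 1) (hcomm : ∀ g, g * z = z * g) :
    ∀ v, ρ z v = v → v = 0 := by
  intro v hv
  by_contra hv0
  have hzz' : ∀ u, ρ z (ρ z u) = u := by
    intro u
    have : ρ (z * z) u = u := by rw [hzz]; simp
    simpa using this
  obtain ⟨u, hu⟩ : ∃ u, ρ z u ≠ u := by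
    by_contra hall
    push Not at hall
    apply hz1; apply hρ; ext u; simp [hall]
  have claim : ∀ u, ρ z u ≠ u → ρ z u = -u := by
    intro u hu
    have hu0 : u ≠ 0 := by rintro rfl; simp at hu
    obtain ⟨t, ht1, htu⟩ := exists_stab ρ hstab hu0
    by_contra hne
    have hy : u + ρ z u ≠ 0 := fun h => hne (by rw [eq_neg_iff_add_eq_zero, add_comm]; exact h)
    have h1 : ρ z (u + ρ z u) = u + ρ z u := by simp [hzz', add_comm]
    have h2 : ρ t (u + ρ z u) = u + ρ z u := by
      rw [map_add, htu]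
      congr 1
      have : ρ (t * z) u = ρ (z * t) u := by rw [hcomm]
      simpa [htu] using this
    have := stab_unique ρ hstab hy h1 h2 hz1 ht1
    exact hu (this ▸ htu)
  have h1 := claim u hu
  have h2 := claim (u + v) (by intro h; apply hu; simpa [map_add, hv] using h)
  rw [map_add, hv, h1] at h2
  have h2v : (2 : ZMod q) • v = 0 := by
    have : v + v = 0 := by
      have h3 : -u + v + (u + v) = 0 := by rw [h2]; abel
      have h4 : -u + v + (u + v) = v + v := by abel
      rw [← h4, h3]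
    rw [two_smul, this]
  have h20 : (2 : ZMod q) = 0 := by
    by_contra h
    exact hv0 ((smul_eq_zero.mp h2v).resolve_left h)
  apply hu
  rw [h1]
  have : (2 : ZMod q) • u = 0 := by rw [h20, zero_smul]
  rw [two_smul] at this
  exact neg_eq_of_add_eq_zero_left this

/-- fixed subspace -/
def F (t : G) : Submodule (ZMod q) V :=
  LinearMap.ker ((ρ t : V ≃ₗ[ZMod q] V).toLinearMap - LinearMap.id)

theorem mem_F {t : G} {v : V} : v ∈ F ρ t ↔ ρ t v = v := by
  simp [F, sub_eq_zero]

theorem card_mul_le {A B : Submodule (ZMod q) V} (h : A ⊓ B = ⊥) :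
    Nat.card A * Nat.card B ≤ Nat.card V := by
  rw [← Nat.card_prod]
  apply Nat.card_le_card_of_injective (fun p : A × B => (p.1 : V) + p.2)
  rintro ⟨a, b⟩ ⟨a', b'⟩ hh
  simp only at hh
  have h1 : (a : V) - a' = b' - b := by
    rw [sub_eq_sub_iff_add_eq_add, add_comm (b' : V)]; exact hh
  have h2 : (a : V) - a' ∈ A ⊓ B := ⟨A.sub_mem a.2 a'.2, h1 ▸ B.sub_mem b'.2 b.2⟩
  rw [h] at h2
  have h3 : (a : V) - a' = 0 := by simpa using h2
  have h4 : (b' : V) - b = 0 := by rw [← h1, h3]
  exact Prod.ext (Subtype.ext (sub_eq_zero.mp h3)) (Subtype.ext (sub_eq_zero.mp h4).symm)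

theorem card_compl {A B : Submodule (ZMod q) V} (h : IsCompl A B) :
    Nat.card A * Nat.card B = Nat.card V := by
  rw [← Nat.card_prod]
  exact Nat.card_congr (Submodule.prodEquivOfIsCompl A B h).toEquiv

theorem result
    (q : ℕ) [Fact q.Prime] {V : Type*} [AddCommGroup V] [Module (ZMod q) V] [Finite V] [Nontrivial V]
    {G : Type*} [Group G] [Finite G] (ρ : G →* (V ≃ₗ[ZMod q] V)) (hρ : Function.Injective ρ)
    (hstab : ∀ v : V, v ≠ 0 → Nat.card {g : G // ρ g v = v} = 2)
    (z : G) (hz : orderOf z = 2) (hzc : z ∈ Subgroup.center G) :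
    ∃ r : ℕ, Nat.card V = q ^ (2 * r) ∧
      Nat.card {g : G // orderOf g = 2 ∧ g ∉ Subgroup.center G} = q ^ r + 1 := by
  classical
  have hz1 : z ≠ 1 := by
    rintro rfl; simp at hz
  have hzz : z * z = 1 := by
    have := pow_orderOf_eq_one z
    rw [hz, pow_two] at this; exact this
  have hcomm : ∀ g, g * z = z * g := fun g => ((Subgroup.mem_center_iff.mp hzc) g)
  have hfix := zfix ρ hρ hstab z hz1 hzz hcomm
  have hzz' : ∀ u, ρ z (ρ z u) = u := by
    intro u
    have : ρ (z * z) u = u := by rw [hzz]; simp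
    simpa using this
  have hneg : ∀ u, ρ z u = -u := by
    intro u
    have : u + ρ z u = 0 := hfix _ (by simp [hzz', add_comm])
    exact (neg_eq_of_add_eq_zero_right this).symm
  have h20 : (2 : ZMod q) ≠ 0 := by
    intro h
    apply hz1; apply hρ; ext u
    have : (2 : ZMod q) • u = 0 := by rw [h, zero_smul]
    rw [two_smul] at this
    have h3 : -u = u := neg_eq_of_add_eq_zero_left this
    simp [hneg, h3]
  have htwo : ∀ v : V, v + v = 0 → v = 0 := by
    intro v hv
    have : (2 : ZMod q) • v = 0 := by rw [two_smul, hv]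
    exact (smul_eq_zero.mp this).resolve_left h20
  have hinv2 : (2 : ZMod q)⁻¹ + (2 : ZMod q)⁻¹ = 1 := by
    rw [← two_mul, mul_inv_cancel₀ h20]
  -- the involutions other than z
  let P : G → Prop := fun t => t * t = 1 ∧ t ≠ 1 ∧ t ≠ z
  have hPord : ∀ g, (orderOf g = 2 ∧ g ≠ z) ↔ P g := by
    intro g
    constructor
    · rintro ⟨h1, h2⟩
      refine ⟨?_, ?_, h2⟩
      · have := pow_orderOf_eq_one g
        rw [h1, pow_two] at this; exact this
      · rintro rfl; simp at h1
    · rintro ⟨h1, h2, h3⟩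
      refine ⟨?_, h3⟩
      exact orderOf_eq_prime (by rw [pow_two]; exact h1) h2
  have hPz : ∀ t, P t → P (t * z) := by
    rintro t ⟨h1, h2, h3⟩
    refine ⟨?_, ?_, ?_⟩
    · calc t * z * (t * z) = (t * t) * (z * z) := by
            rw [mul_assoc, ← mul_assoc z t z, ← hcomm t, mul_assoc t z z, mul_assoc]
        _ = 1 := by rw [h1, hzz, one_mul]
    · intro h
      apply h3
      have : t * z * z = z := by rw [h, one_mul]
      rwa [mul_assoc, hzz, mul_one] at this
    · intro h
      exact h2 (by simpa using h)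
  have hzzr : ∀ t : G, t * z * z = t := by
    intro t; rw [mul_assoc, hzz, mul_one]
  have hρmz : ∀ t v, ρ (t * z) v = - ρ t v := by
    intro t v
    simp [hneg]
  -- disjointness
  have hdisj : ∀ s t, s ≠ 1 → t ≠ 1 → s ≠ t → F ρ s ⊓ F ρ t = ⊥ := by
    intro s t hs ht hst
    rw [eq_bot_iff]
    rintro v ⟨hv1, hv2⟩
    rw [SetLike.mem_coe, mem_F] at hv1 hv2
    rw [Submodule.mem_bot]
    by_contra hv0
    exact hst (stab_unique ρ hstab hv0 hv1 hv2 hs ht)
  have hcompl : ∀ t, P t → IsCompl (F ρ t) (F ρ (t * z)) := by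
    intro t ht
    constructor
    · rw [disjoint_iff]
      exact hdisj _ _ ht.2.1 (hPz t ht).2.1 (by
        intro h
        exact hz1 (by simpa using h.symm))
    · rw [codisjoint_iff, eq_top_iff]
      intro v _
      have hv : v = (2 : ZMod q)⁻¹ • (v + ρ t v) + (2 : ZMod q)⁻¹ • (v - ρ t v) := by
        rw [← smul_add]
        have : v + ρ t v + (v - ρ t v) = (2 : ZMod q) • v := by rw [two_smul]; abel
        rw [this, smul_smul, inv_mul_cancel₀ h20, one_smul]
      rw [hv]
      have htt : ∀ u, ρ t (ρ t u) = u := by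
        intro u
        have : ρ (t * t) u = u := by rw [ht.1]; simp
        simpa using this
      refine Submodule.add_mem_sup (Submodule.smul_mem _ _ ?_) (Submodule.smul_mem _ _ ?_)
      · rw [mem_F]; simp [htt, add_comm]
      · rw [mem_F, hρmz]; simp [htt]
  have hcard : ∀ t, P t → Nat.card (F ρ t) * Nat.card (F ρ (t * z)) = Nat.card V :=
    fun t ht => card_compl (hcompl t ht)
  have hpos : ∀ t : G, 0 < Nat.card (F ρ t) := fun t => Nat.card_pos
  -- comparing
  have hle : ∀ s t, P s → P t → s ≠ t → s ≠ t * z → Nat.card (F ρ s) ≤ Nat.card (F ρ t) := by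
    intro s t hs ht h1 h2
    have h3 := card_mul_le (hdisj s (t * z) hs.2.1 (hPz t ht).2.1 h2)
    rw [← hcard t ht] at h3
    exact Nat.le_of_mul_le_mul_right h3 (hpos _)
  -- nonzero fixed vectors
  have hne : ∀ t, P t → ∃ v : V, v ≠ 0 ∧ ρ t v = v := by
    intro t ht
    by_contra hall
    push Not at hall
    have hbot : F ρ t = ⊥ := by
      rw [eq_bot_iff]
      intro v hv
      rw [mem_F] at hv
      by_contra hv0
      exact hall v hv0 hv
    have htop : F ρ (t * z) = ⊤ := by
      have := (hcompl t ht).sup_eq_top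
      rwa [hbot, bot_sup_eq] at this
    apply (hPz t ht).2.1
    apply hρ
    ext v
    have : v ∈ F ρ (t * z) := by rw [htop]; trivial
    rw [mem_F] at this
    simpa using this
  have hother : ∀ t, P t → ∃ s, P s ∧ s ≠ t ∧ s ≠ t * z := by
    intro t ht
    obtain ⟨a, ha0, ha⟩ := hne t ht
    obtain ⟨b, hb0, hb⟩ := hne (t * z) (hPz t ht)
    have hb' : ρ t b = -b := by
      rw [hρmz] at hb
      exact neg_eq_iff_eq_neg.mp hb
    have hw : a + b ≠ 0 := by
      intro h
      have h1 : ρ t (a + b) = 0 := by rw [h, map_zero]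
      rw [map_add, ha, hb'] at h1
      have h3 : a + a = 0 := by
        have h4 : a + -b + (a + b) = a + a := by abel
        rw [← h4, h1, h, add_zero]
      exact ha0 (htwo a h3)
    obtain ⟨s, hs1, hsw⟩ := exists_stab ρ hstab hw
    have hsz : s ≠ z := by
      rintro rfl
      exact hw (hfix _ hsw)
    refine ⟨s, ⟨stab_sq ρ hstab hw hs1 hsw, hs1, hsz⟩, ?_, ?_⟩
    · rintro rfl
      rw [map_add, ha, hb'] at hsw
      have h3 : b + b = 0 := by
        have h4 : a + -b = a + b := hsw
        have h5 : -b = b := add_left_cancel h4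
        exact neg_eq_iff_add_eq_zero.mp h5 |> fun h => by rw [← h5] at h ⊢; simpa using h
      exact hb0 (htwo b h3)
    · rintro rfl
      rw [map_add, hρmz, hρmz, ha, hb', neg_neg] at hsw
      have h3 : a + a = 0 := by
        have h4 : -a + b = a + b := hsw
        have h5 : -a = a := add_right_cancel h4
        exact neg_eq_iff_add_eq_zero.mp h5 |> fun h => by rw [← h5] at h ⊢; simpa using h
      exact ha0 (htwo a h3)
  have hsq : ∀ t, P t → Nat.card (F ρ t) * Nat.card (F ρ t) = Nat.card V := by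
    intro t ht
    obtain ⟨s, hs, h1, h2⟩ := hother t ht
    have e1 := hle s t hs ht h1 h2
    have e2 := hle s (t * z) hs (hPz t ht) h2 (by rwa [hzzr])
    have e3 := hle t s ht hs h1.symm (by
      rintro rfl
      exact h2 (by rw [hzzr]))
    have e4 := hle (t * z) s (hPz t ht) hs h2.symm (by
      intro h
      apply h1
      exact mul_right_cancel h.symm)
    have e5 : Nat.card (F ρ (t * z)) = Nat.card (F ρ t) := by omega
    have := hcard t ht
    rwa [e5] at this
  -- a base involution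
  obtain ⟨v₀, hv₀⟩ := exists_ne (0 : V)
  obtain ⟨t₀, ht₀1, ht₀v⟩ := exists_stab ρ hstab hv₀
  have ht₀ : P t₀ := ⟨stab_sq ρ hstab hv₀ ht₀1 ht₀v, ht₀1, by rintro rfl; exact hv₀ (hfix _ ht₀v)⟩
  set r := Module.finrank (ZMod q) (F ρ t₀) with hr
  have ha : Nat.card (F ρ t₀) = q ^ r := by
    rw [Module.natCard_eq_pow_finrank (K := ZMod q), Nat.card_zmod]
  have hV : Nat.card V = q ^ (2 * r) := by
    rw [← hsq t₀ ht₀, ha, two_mul, pow_add]
  have hall : ∀ t, P t → Nat.card (F ρ t) = q ^ r := by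
    intro t ht
    have h1 := hsq t ht
    rw [← hsq t₀ ht₀, ha] at h1
    exact Nat.mul_self_inj.mp h1
  -- counting
  let I := {t : G // P t}
  let _ : Fintype I := Fintype.ofFinite I
  let Φ : (Σ t : I, {v : F ρ t.1 // v ≠ 0}) → {v : V // v ≠ 0} :=
    fun x => ⟨(x.2.1 : V), fun h => x.2.2 (Subtype.ext h)⟩
  have hΦ : Function.Bijective Φ := by
    constructor
    · rintro ⟨t, v, hv⟩ ⟨t', v', hv'⟩ h
      have h1 : (v : V) = v' := congrArg Subtype.val h
      have hv0 : (v : V) ≠ 0 := fun h => hv (Subtype.ext h)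
      have h2 : ρ t.1 v = v := mem_F ρ |>.mp v.2
      have h3 : ρ t'.1 v = v := by rw [h1]; rw [← h1] ; rw [h1]; exact mem_F ρ |>.mp v'.2
      have h4 : t = t' := Subtype.ext (stab_unique ρ hstab hv0 h2 h3 t.2.2.1 t'.2.2.1)
      subst h4
      have h5 : v = v' := Subtype.ext h1
      subst h5
      rfl
    · rintro ⟨w, hw⟩
      obtain ⟨t, ht1, htw⟩ := exists_stab ρ hstab hw
      have ht : P t := ⟨stab_sq ρ hstab hw ht1 htw, ht1, by rintro rfl; exact hw (hfix _ htw)⟩
      exact ⟨⟨⟨t, ht⟩, ⟨⟨w, (mem_F ρ).mpr htw⟩, fun h => hw (congrArg Subtype.val h)⟩⟩, rfl⟩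
  have hopt : ∀ {W : Type _} [Finite W] (a : W), Nat.card W = Nat.card {b // b ≠ a} + 1 := by
    intro W _ a
    rw [← Nat.card_congr (Equiv.optionSubtypeNe a), Finite.card_option]
  have hgt : 1 < q ^ r := by
    have h1 : 1 < Nat.card V := Finite.one_lt_card
    rw [← hsq t₀ ht₀, ha] at h1
    by_contra h
    have h2 : q ^ r ≤ 1 := by omega
    have h3 : q ^ r * q ^ r ≤ 1 * 1 := Nat.mul_le_mul h2 h2
    omega
  have hcount : Nat.card V = Nat.card I * (q ^ r - 1) + 1 := by
    rw [hopt (0 : V), ← Nat.card_congr (Equiv.ofBijective Φ hΦ), Nat.card_sigma]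
    congr 1
    have : ∀ t : I, Nat.card {v : F ρ t.1 // v ≠ 0} = q ^ r - 1 := by
      intro t
      have h1 := hopt (0 : F ρ t.1)
      rw [hall t.1 t.2] at h1
      omega
    simp only [this, Finset.sum_const, Finset.card_univ, smul_eq_mul, Nat.card_eq_fintype_card]
  have hI : Nat.card I = q ^ r + 1 := by
    have h1 : q ^ r * q ^ r = Nat.card I * (q ^ r - 1) + 1 := by
      rw [← hcount, ← hsq t₀ ht₀, ha]
    obtain ⟨a, ha'⟩ : ∃ a, q ^ r = a + 1 := ⟨q ^ r - 1, by omega⟩
    rw [ha'] at h1 hgt ⊢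
    simp only [Nat.add_sub_cancel] at h1
    have ha0 : 0 < a := by omega
    have h2 : (a + 2) * a = Nat.card I * a := by nlinarith
    have h3 := Nat.eq_of_mul_eq_mul_right ha0 h2
    omega
  refine ⟨r, hV, ?_⟩
  rw [← hI]
  apply Nat.card_congr
  apply Equiv.subtypeEquivRight
  intro g
  constructor
  · rintro ⟨h1, h2⟩
    exact (hPord g).mp ⟨h1, fun h => h2 (h ▸ hzc)⟩
  · intro hg
    refine ⟨((hPord g).mpr hg).1, ?_⟩
    intro hgc
    obtain ⟨s, hs, h1, h2⟩ := hother g hg
    obtain ⟨v, hv0, hv⟩ := hne s hs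
    have hgg : ∀ u, ρ g (ρ g u) = u := by
      intro u
      have : ρ (g * g) u = u := by rw [hg.1]; simp
      simpa using this
    have hsg : ρ s (ρ g v) = ρ g v := by
      have h3 : s * g = g * s := (Subgroup.mem_center_iff.mp hgc) s
      have : ρ (s * g) v = ρ (g * s) v := by rw [h3]
      simpa [hv] using this
    by_cases hw : v + ρ g v = 0
    · have h3 : ρ (g * z) v = v := by
        rw [hρmz]
        have := neg_eq_of_add_eq_zero_right hw
        rw [← this, neg_neg]
      exact h2 (stab_unique ρ hstab hv0 hv h3 hs.2.1 (hPz g hg).2.1)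
    · have h3 : ρ s (v + ρ g v) = v + ρ g v := by rw [map_add, hv, hsg]
      have h4 : ρ g (v + ρ g v) = v + ρ g v := by rw [map_add, hgg, add_comm]
      exact h1 (stab_unique ρ hstab hw h3 h4 hs.2.1 hg.2.1)

end Cfsg.Agent.S3381
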