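import Mathlib
import Cfsg.Statements.S3383

set_option autoImplicit false
open Cfsg
open scoped Pointwise

namespace Cfsg.Agent.S3383

/-- Let H be a Frobenius complement in a finite group L and K the Frobenius kernel (as a subgroup). Then K is characteristic in L, and every normal subgroup of L either contains K or is contained in K. -/
theorem result {L : Type*} [Group L] [Finite L]
    (H : Subgroup L) (hH : Cfsg.IsFrobeniusComplement H)
    (K : Subgroup L) (hK : (K : Set L) = Cfsg.frobeniusKernel H) :
    K.Characteristic ∧ ∀ N : Subgroup L, N.Normal → K ≤ N ∨ N ≤ K := by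
  classical
  have hmemK : ∀ x : L, x ∈ K ↔ (x = 1 ∨ ∀ g : L, x ∉ MulAut.conj g • H) := by
    intro x
    rw [← SetLike.mem_coe, hK]; rfl
  obtain ⟨-, -, hTI⟩ := hH
  -- membership in a conjugate
  have hconj : ∀ g x : L, x ∈ MulAut.conj g • H ↔ g⁻¹ * x * g ∈ H := by
    intro g x
    rw [Subgroup.mem_pointwise_smul_iff_inv_smul_mem]
    simp [MulAut.conj_symm_apply, MulAut.smul_def]
  -- n ≠ 1 in H commutes with no nontrivial k ∈ K
  have hfree : ∀ n ∈ H, n ≠ 1 → ∀ k ∈ K, n * k = k * n → k = 1 := by
    intro n hn hn1 k hk hc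
    by_contra hk1
    have hk' := (hmemK k).mp hk
    have hk2 : ∀ g : L, k ∉ MulAut.conj g • H := by
      rcases hk' with h | h
      · exact absurd h hk1
      · exact h
    have hkH : k ∉ H := by
      intro hkH
      apply hk2 1
      rw [hconj]; simpa using hkH
    have hmem : n ∈ H ⊓ (MulAut.conj k • H) := by
      refine Subgroup.mem_inf.mpr ⟨hn, ?_⟩
      rw [hconj]
      have : k⁻¹ * n * k = n := by
        rw [mul_assoc, hc]; group
      rw [this]; exact hn
    rw [hTI k hkH] at hmem
    exact hn1 (Subgroup.mem_bot.mp hmem)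
  have hdich : ∀ N : Subgroup L, N.Normal → K ≤ N ∨ N ≤ K := by
    intro N hN
    by_cases hNK : N ≤ K
    · exact Or.inr hNK
    left
    obtain ⟨x, hxN, hxK⟩ := SetLike.not_le_iff_exists.mp hNK
    rw [hmemK] at hxK
    push Not at hxK
    obtain ⟨hx1, g, hxg⟩ := hxK
    rw [hconj] at hxg
    set n : L := g⁻¹ * x * g with hn
    have hnN : n ∈ N := by
      have := hN.conj_mem x hxN g⁻¹
      simpa [hn] using this
    have hn1 : n ≠ 1 := by
      intro h
      apply hx1
      have : g * n * g⁻¹ = 1 := by rw [h]; group
      rw [hn] at this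
      simpa [mul_assoc] using this
    -- the map a ↦ n a n⁻¹ a⁻¹ is a bijection of K
    let f : K → K := fun a =>
      ⟨n * a * n⁻¹ * (a : L)⁻¹, by
        have hKn : K.Normal := by
          constructor
          intro a ha g
          rw [hmemK] at ha ⊢
          rcases ha with rfl | ha
          · left; simp
          · right
            intro g' hg'
            apply ha (g⁻¹ * g')
            rw [hconj] at hg' ⊢
            simpa [mul_assoc] using hg'
        exact K.mul_mem (hKn.conj_mem _ a.2 n) (K.inv_mem a.2)⟩
    have hfinj : Function.Injective f := by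
      intro a b hab
      have h1 : n * a * n⁻¹ * (a : L)⁻¹ = n * b * n⁻¹ * (b : L)⁻¹ := congrArg Subtype.val hab
      have h2 : (a : L) * n⁻¹ * (a : L)⁻¹ = b * n⁻¹ * (b : L)⁻¹ := by
        have := congrArg (fun t => n⁻¹ * t) h1
        simpa [mul_assoc] using this
      have h3 : n * ((b : L)⁻¹ * a) = ((b : L)⁻¹ * a) * n := by
        have h4 : ((b : L)⁻¹ * a) * n⁻¹ = n⁻¹ * ((b : L)⁻¹ * a) := by
          have := congrArg (fun t => (b : L)⁻¹ * t * a) h2
          simpa [mul_assoc] using this
        have := congrArg (fun t => n * t * n) h4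
        simpa [mul_assoc] using this
      have h5 := hfree n hxg hn1 _ (K.mul_mem (K.inv_mem b.2) a.2) h3
      apply Subtype.ext
      rw [inv_mul_eq_one] at h5
      exact h5.symm
    have hfsurj := Finite.surjective_of_injective hfinj
    intro k hk
    obtain ⟨a, ha⟩ := hfsurj ⟨k, hk⟩
    have h1 : n * a * n⁻¹ * (a : L)⁻¹ = k := congrArg Subtype.val ha
    rw [← h1, mul_assoc, mul_assoc]
    apply N.mul_mem hnN
    have := hN.conj_mem _ (N.inv_mem hnN) a
    simpa [mul_assoc] using this
  refine ⟨?_, hdich⟩
  rw [Subgroup.characteristic_iff_comap_eq]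
  intro σ
  have hnorm : (K.comap σ.toMonoidHom).Normal := by
    have hKn : K.Normal := by
      constructor
      intro a ha g
      rw [hmemK] at ha ⊢
      rcases ha with rfl | ha
      · left; simp
      · right
        intro g' hg'
        apply ha (g⁻¹ * g')
        rw [hconj] at hg' ⊢
        simpa [mul_assoc] using hg'
    exact hKn.comap _
  have hcard : Nat.card (K.comap σ.toMonoidHom) = Nat.card K := by
    refine Nat.card_congr (σ.toEquiv.subtypeEquiv ?_)
    intro a; rfl
  rcases hdich _ hnorm with h | h
  · exact (Subgroup.eq_of_le_of_card_ge h (le_of_eq hcard)).symm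
  · exact Subgroup.eq_of_le_of_card_ge h (le_of_eq hcard.symm)

end Cfsg.Agent.S3383
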