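import Mathlib
import Cfsg.Statements.S3419
import Cfsg.Agent.Lib.Hall

set_option autoImplicit false
set_option linter.style.haveILetI false
open Cfsg

namespace Cfsg.Agent.S3419

open Real in
theorem real_ineq {x : ℝ} (x_large : (512 : ℝ) ≤ x) :
    x * (2 * x) * ((2 * x) ^ √(2 * x) * 4 ^ (2 * x / 3)) ≤ 4 ^ x := by
  let f : ℝ → ℝ := fun x => log x + log (2 * x) + √(2 * x) * log (2 * x) - log 4 / 3 * x
  have hf' : ∀ x, 0 < x → 0 < x * (2 * x) * (2 * x) ^ √(2 * x) / 4 ^ (x / 3) := fun x h =>
    div_pos (mul_pos (mul_pos h (mul_pos two_pos h)) (rpow_pos_of_pos (mul_pos two_pos h) _))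
      (rpow_pos_of_pos four_pos _)
  have hf : ∀ x, 0 < x → f x = log (x * (2 * x) * (2 * x) ^ √(2 * x) / 4 ^ (x / 3)) := by
    intro x h5
    have h6 := mul_pos (zero_lt_two' ℝ) h5
    have h7 := rpow_pos_of_pos h6 (√(2 * x))
    rw [log_div (mul_pos (mul_pos h5 h6) h7).ne' (rpow_pos_of_pos four_pos _).ne',
      log_mul (mul_pos h5 h6).ne' h7.ne', log_mul h5.ne' h6.ne',
      log_rpow h6, log_rpow zero_lt_four, ← mul_div_right_comm, ← mul_div, mul_comm x]
  have h5 : 0 < x := lt_of_lt_of_le (by norm_num1) x_large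
  have hkey : f x ≤ 0 := by
    have h : ConcaveOn ℝ (Set.Ioi 0.5) f := by
      apply ConcaveOn.sub
      · apply ConcaveOn.add
        · apply ConcaveOn.add
          · exact strictConcaveOn_log_Ioi.concaveOn.subset
              (Set.Ioi_subset_Ioi (by norm_num)) (convex_Ioi 0.5)
          · have h1 : ConcaveOn ℝ (Set.Ioi 0.5) (fun x => log x + log 2) :=
              (strictConcaveOn_log_Ioi.concaveOn.subset
                (Set.Ioi_subset_Ioi (by norm_num)) (convex_Ioi 0.5)).add
                (concaveOn_const _ (convex_Ioi 0.5))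
            refine h1.congr ?_
            intro y hy
            have hy0 : (0 : ℝ) < y := lt_trans (by norm_num) (Set.mem_Ioi.mp hy)
            simp only
            rw [log_mul two_ne_zero hy0.ne']; ring
        convert!
          ((strictConcaveOn_sqrt_mul_log_Ioi.concaveOn.comp_linearMap ((2 : ℝ) • LinearMap.id)))
          using 1
        ext x
        simp only [Set.mem_Ioi, Set.mem_preimage, LinearMap.smul_apply,
          LinearMap.id_coe, id_eq, smul_eq_mul]
        rw [← mul_lt_mul_iff_right₀ (two_pos)]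
        norm_num1
        rfl
      apply ConvexOn.smul
      · refine div_nonneg (log_nonneg (by norm_num1)) (by norm_num1)
      · exact convexOn_id (convex_Ioi (0.5 : ℝ))
    suffices ∃ x1 x2, 0.5 < x1 ∧ x1 < x2 ∧ x2 ≤ x ∧ 0 ≤ f x1 ∧ f x2 ≤ 0 by
      obtain ⟨x1, x2, h1, h2, h0, h3, h4⟩ := this
      exact (h.right_le_of_le_left'' h1 ((h1.trans h2).trans_le h0) h2 h0 (h4.trans h3)).trans h4
    refine ⟨18, 512, by norm_num1, by norm_num1, x_large, ?_, ?_⟩
    · have : √(2 * 18 : ℝ) = 6 := (sqrt_eq_iff_mul_self_eq_of_pos (by norm_num1)).mpr (by norm_num1)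
      rw [hf _ (by norm_num1), log_nonneg_iff (by positivity), this, one_le_div (by norm_num1)]
      norm_num1
    · have : √(2 * 512) = 32 :=
        (sqrt_eq_iff_mul_self_eq_of_pos (by norm_num1)).mpr (by norm_num1)
      rw [hf _ (by norm_num1), log_nonpos_iff (hf' _ (by norm_num1)).le, this,
          div_le_one (by positivity)]
      conv in 32 => rw [← Nat.cast_ofNat]
      rw [rpow_natCast]
      calc (512 : ℝ) * (2 * 512) * (2 * 512) ^ 32 = (2 : ℝ) ^ ((339 : ℕ) : ℝ) := by
            rw [rpow_natCast, show (2 * 512 : ℝ) = 2 ^ 10 by norm_num,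
              show (512 : ℝ) = 2 ^ 9 by norm_num, ← pow_mul, ← pow_add, ← pow_add]
        _ ≤ (2 : ℝ) ^ ((1024 : ℝ) / 3) := rpow_le_rpow_of_exponent_le (by norm_num) (by norm_num)
        _ = (4 : ℝ) ^ ((512 : ℝ) / 3) := by
            rw [show (4 : ℝ) = 2 ^ (2 : ℝ) by norm_num, ← rpow_mul (by norm_num)]
            norm_num
  have h6 := hf x h5
  rw [h6, log_nonpos_iff (hf' x h5).le, div_le_one (rpow_pos_of_pos four_pos _)] at hkey
  have h7 : (4 : ℝ) ^ x = 4 ^ (x / 3) * 4 ^ (2 * x / 3) := by
    rw [← rpow_add four_pos]; congr 1; ring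
  rw [h7]
  have h8 : (0 : ℝ) < 4 ^ (2 * x / 3) := rpow_pos_of_pos four_pos _
  calc x * (2 * x) * ((2 * x) ^ √(2 * x) * 4 ^ (2 * x / 3))
      = x * (2 * x) * (2 * x) ^ √(2 * x) * 4 ^ (2 * x / 3) := by ring
    _ ≤ 4 ^ (x / 3) * 4 ^ (2 * x / 3) := by gcongr


open Nat in
theorem nat_ineq {n : ℕ} (n_large : 512 ≤ n) :
    n * (2 * n) * ((2 * n) ^ sqrt (2 * n) * 4 ^ (2 * n / 3)) ≤ 4 ^ n := by
  rw [← @cast_le ℝ]
  simp only [cast_mul, cast_pow, ← Real.rpow_natCast, cast_ofNat]
  refine _root_.trans ?_ (real_ineq (by exact_mod_cast n_large))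
  gcongr
  · have n2_pos : 0 < 2 * n := by positivity
    exact mod_cast n2_pos
  · exact_mod_cast Real.nat_sqrt_le_real_sqrt
  · norm_num1
  · exact cast_div_le.trans (by norm_cast)

open Nat in
theorem small_part_le (n : ℕ) (n_large : 2 < n) :
    ∏ p ∈ Finset.range (2 * n / 3 + 1), p ^ (centralBinom n).factorization p
      ≤ (2 * n) ^ sqrt (2 * n) * 4 ^ (2 * n / 3) := by
  have n_pos : 0 < n := (Nat.zero_le _).trans_lt n_large
  have n2_pos : 1 ≤ 2 * n := mul_pos (zero_lt_two' ℕ) n_pos
  let S := {p ∈ Finset.range (2 * n / 3 + 1) | Nat.Prime p}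
  let f x := x ^ n.centralBinom.factorization x
  have : ∏ x ∈ S, f x = ∏ x ∈ Finset.range (2 * n / 3 + 1), f x := by
    refine Finset.prod_filter_of_ne fun p _ h => ?_
    contrapose h; dsimp only [f]
    rw [factorization_eq_zero_of_not_prime n.centralBinom h, _root_.pow_zero]
  rw [← this, ← Finset.prod_filter_mul_prod_filter_not S (· ≤ sqrt (2 * n))]
  apply mul_le_mul'
  · refine (Finset.prod_le_prod' fun p _ => (?_ : f p ≤ 2 * n)).trans ?_
    · exact pow_factorization_choose_le (mul_pos two_pos n_pos)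
    have : (Finset.Icc 1 (sqrt (2 * n))).card = sqrt (2 * n) := by rw [card_Icc, Nat.add_sub_cancel]
    rw [Finset.prod_const]
    refine pow_right_mono₀ n2_pos ((Finset.card_le_card fun x hx => ?_).trans this.le)
    obtain ⟨h1, h2⟩ := Finset.mem_filter.1 hx
    exact Finset.mem_Icc.mpr ⟨(Finset.mem_filter.1 h1).2.one_lt.le, h2⟩
  · refine le_trans ?_ (primorial_le_four_pow (2 * n / 3))
    refine (Finset.prod_le_prod' fun p hp => (?_ : f p ≤ p)).trans ?_
    · obtain ⟨h1, h2⟩ := Finset.mem_filter.1 hp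
      refine (pow_right_mono₀ (Finset.mem_filter.1 h1).2.one_lt.le ?_).trans (pow_one p).le
      exact Nat.factorization_choose_le_one (sqrt_lt'.mp <| not_le.1 h2)
    refine Finset.prod_le_prod_of_subset_of_one_le' (Finset.filter_subset _ _) ?_
    exact fun p hp _ => (Finset.mem_filter.1 hp).2.one_lt.le

open Nat in
theorem two_primes_large (n : ℕ) (n_large : 512 ≤ n) :
    ∃ p q : ℕ, p.Prime ∧ q.Prime ∧ n < p ∧ p < q ∧ q ≤ 2 * n := by
  obtain ⟨P, hP, hP1, hP2⟩ := Nat.exists_prime_lt_and_le_two_mul n (by omega)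
  by_contra hcon
  push Not at hcon
  have huniq : ∀ p : ℕ, p.Prime → n < p → p ≤ 2 * n → p = P := by
    intro p hp h1 h2
    rcases lt_trichotomy p P with h | h | h
    · have := hcon p P hp hP h1 h; omega
    · exact h
    · have := hcon P p hP hp hP1 h; omega
  have no_prime : 4 ^ n < n * n.centralBinom :=
    Nat.four_pow_lt_mul_centralBinom n (le_trans (by norm_num1) n_large)
  have hn2 : 2 < n := by omega
  have hdecomp : n.centralBinom = (∏ p ∈ Finset.range (2 * n / 3 + 1),
      p ^ (centralBinom n).factorization p) * P ^ (centralBinom n).factorization P := by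
    have hPnot : P ∉ Finset.range (2 * n / 3 + 1) := by
      simp only [Finset.mem_range, not_lt]
      omega
    rw [mul_comm]
    rw [← Finset.prod_insert (f := fun p => p ^ (centralBinom n).factorization p) hPnot]
    refine (Eq.trans ?_ n.prod_pow_factorization_centralBinom).symm
    apply Finset.prod_subset
    · intro x hx
      simp only [Finset.mem_insert, Finset.mem_range] at hx ⊢
      rcases hx with rfl | hx
      · omega
      · have := Nat.div_le_self (2 * n) 3
        omega
    · intro x hx h2x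
      simp only [Finset.mem_insert, Finset.mem_range, not_or, not_lt] at hx h2x
      obtain ⟨hne, h3⟩ := h2x
      have hx2 : x ≤ 2 * n := by omega
      have hx3 : 2 * n < 3 * x := by
        have := Nat.lt_mul_div_succ (2 * n) (show 0 < 3 by norm_num)
        omega
      by_cases hxp : x.Prime
      · by_cases hxn : x ≤ n
        · rw [factorization_centralBinom_of_two_mul_self_lt_three_mul hn2 hxn hx3, Nat.pow_zero]
        · exact absurd (huniq x hxp (by omega) hx2) hne
      · rw [factorization_eq_zero_of_not_prime n.centralBinom hxp, Nat.pow_zero]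
  have h1 := small_part_le n hn2
  have h2 : P ^ (centralBinom n).factorization P ≤ 2 * n :=
    pow_factorization_choose_le (by omega)
  have h3 : n.centralBinom ≤ (2 * n) * ((2 * n) ^ sqrt (2 * n) * 4 ^ (2 * n / 3)) := by
    calc n.centralBinom = _ := hdecomp
      _ ≤ ((2 * n) ^ sqrt (2 * n) * 4 ^ (2 * n / 3)) * (2 * n) := Nat.mul_le_mul h1 h2
      _ = _ := mul_comm _ _
  have h4 := nat_ineq n_large
  have h5 : n * n.centralBinom ≤ n * ((2 * n) * ((2 * n) ^ sqrt (2 * n) * 4 ^ (2 * n / 3))) :=
    Nat.mul_le_mul_left _ h3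
  rw [← mul_assoc] at h5
  omega

theorem two_primes_step {n : ℕ} (a b c : ℕ) (ha : a.Prime) (hb : b.Prime) (hab : a < b)
    (hc : c ≤ 2 * a) (H : n < b → ∃ p q : ℕ, p.Prime ∧ q.Prime ∧ n < 2 * p ∧ p < q ∧ q ≤ n)
    (hn : n < c) : ∃ p q : ℕ, p.Prime ∧ q.Prime ∧ n < 2 * p ∧ p < q ∧ q ≤ n := by
  by_cases h : n < b
  · exact H h
  · exact ⟨a, b, ha, hb, by omega, hab, by omega⟩

/-- two primes in `(n/2, n]` -/
theorem two_primes (n : ℕ) (hn : 11 ≤ n) :
    ∃ p q : ℕ, p.Prime ∧ q.Prime ∧ n < 2 * p ∧ p < q ∧ q ≤ n := by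
  by_cases h : n < 1259
  · revert h
    refine two_primes_step 631 787 1259 (by norm_num) (by norm_num) (by norm_num) (by norm_num) ?_
    refine two_primes_step 397 631 787 (by norm_num) (by norm_num) (by norm_num) (by norm_num) ?_
    refine two_primes_step 317 397 631 (by norm_num) (by norm_num) (by norm_num) (by norm_num) ?_
    refine two_primes_step 199 317 397 (by norm_num) (by norm_num) (by norm_num) (by norm_num) ?_
    refine two_primes_step 163 199 317 (by norm_num) (by norm_num) (by norm_num) (by norm_num) ?_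
    refine two_primes_step 101 163 199 (by norm_num) (by norm_num) (by norm_num) (by norm_num) ?_
    refine two_primes_step 83 101 163 (by norm_num) (by norm_num) (by norm_num) (by norm_num) ?_
    refine two_primes_step 53 83 101 (by norm_num) (by norm_num) (by norm_num) (by norm_num) ?_
    refine two_primes_step 43 53 83 (by norm_num) (by norm_num) (by norm_num) (by norm_num) ?_
    refine two_primes_step 29 43 53 (by norm_num) (by norm_num) (by norm_num) (by norm_num) ?_
    refine two_primes_step 23 29 43 (by norm_num) (by norm_num) (by norm_num) (by norm_num) ?_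
    refine two_primes_step 17 23 29 (by norm_num) (by norm_num) (by norm_num) (by norm_num) ?_
    refine two_primes_step 13 17 23 (by norm_num) (by norm_num) (by norm_num) (by norm_num) ?_
    refine two_primes_step 11 13 17 (by norm_num) (by norm_num) (by norm_num) (by norm_num) ?_
    refine two_primes_step 7 11 13 (by norm_num) (by norm_num) (by norm_num) (by norm_num) ?_
    intro h; omega
  · obtain ⟨p, q, hp, hq, h1, h2, h3⟩ := two_primes_large (n / 2) (by omega)
    exact ⟨p, q, hp, hq, by omega, h2, by omega⟩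

/-- no element of order `p * q` in a permutation group of degree less than `p + q` -/
theorem no_elem {n p q : ℕ} (hp : p.Prime) (hq : q.Prime) (hpq : p ≠ q) (hn : n < p + q)
    (σ : Equiv.Perm (Fin n)) : orderOf σ ≠ p * q := by
  intro hσ
  have hprime : ∀ r : ℕ, r.Prime → r ∣ orderOf σ → ∃ c ∈ σ.cycleType, r ∣ c := by
    intro r hr hd
    rw [← Equiv.Perm.lcm_cycleType] at hd
    revert hd
    generalize σ.cycleType = s
    induction s using Multiset.induction_on with
    | empty => intro h; simp at h; exact absurd h hr.one_lt.ne'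
    | cons a s ih =>
      intro h
      rw [Multiset.lcm_cons] at h
      have h' : r ∣ Nat.lcm a s.lcm := h
      rcases (Nat.Prime.dvd_lcm hr).mp h' with h1 | h1
      · exact ⟨a, Multiset.mem_cons_self _ _, h1⟩
      · obtain ⟨c, hc, hrc⟩ := ih h1
        exact ⟨c, Multiset.mem_cons_of_mem hc, hrc⟩
  obtain ⟨c₁, hc₁, h1⟩ := hprime p hp (by rw [hσ]; exact dvd_mul_right _ _)
  obtain ⟨c₂, hc₂, h2⟩ := hprime q hq (by rw [hσ]; exact dvd_mul_left _ _)
  have hsum : σ.cycleType.sum ≤ n := by
    rw [Equiv.Perm.sum_cycleType]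
    simpa using Finset.card_le_univ σ.support
  have hc₁pos : 0 < c₁ := by have := Equiv.Perm.two_le_of_mem_cycleType hc₁; omega
  have hc₂pos : 0 < c₂ := by have := Equiv.Perm.two_le_of_mem_cycleType hc₂; omega
  have hp' := Nat.le_of_dvd hc₁pos h1
  have hq' := Nat.le_of_dvd hc₂pos h2
  by_cases hc : c₁ = c₂
  · subst hc
    have hdvd : p * q ∣ c₁ := (Nat.Coprime.mul_dvd_of_dvd_of_dvd
      ((Nat.coprime_primes hp hq).mpr hpq) h1 h2)
    have hle := Nat.le_of_dvd hc₁pos hdvd
    have hle2 : c₁ ≤ σ.cycleType.sum := Multiset.single_le_sum (by simp) _ hc₁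
    have : p + q ≤ p * q := by
      have h2p := hp.two_le
      have h2q := hq.two_le
      nlinarith
    omega
  · obtain ⟨s, hs⟩ := Multiset.exists_cons_of_mem hc₁
    rw [hs] at hc₂ hsum
    have hc₂' : c₂ ∈ s := by
      rcases Multiset.mem_cons.mp hc₂ with h | h
      · exact absurd h.symm hc
      · exact h
    obtain ⟨s', hs'⟩ := Multiset.exists_cons_of_mem hc₂'
    rw [hs', Multiset.sum_cons, Multiset.sum_cons] at hsum
    omega


/-- A group of order `p^a * q` with a small condition contains an element of order `p * q`. -/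
theorem exists_order_mul {H : Type*} [Group H] [Finite H] {p q : ℕ} (hp : p.Prime) (hq : q.Prime)
    (hpq : p ≠ q) (a : ℕ) (ha : 0 < a) (hcard : Nat.card H = p ^ a * q)
    (hmod : ∀ i ≤ a, 0 < i → ¬ p ^ i ≡ 1 [MOD q]) (hcop : p.Coprime (q - 1)) :
    ∃ x : H, orderOf x = p * q := by
  haveI : Fact q.Prime := ⟨hq⟩
  haveI : Fact p.Prime := ⟨hp⟩
  have hcopq : (p ^ a).Coprime q := Nat.Coprime.pow_left _ ((Nat.coprime_primes hp hq).mpr hpq)
  have hfq : (Nat.card H).factorization q = 1 := by
    rw [hcard, Nat.factorization_mul (pow_ne_zero _ hp.ne_zero) hq.ne_zero, Finsupp.add_apply,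
      hq.factorization_self, Nat.factorization_pow, Finsupp.smul_apply,
      Nat.factorization_eq_zero_of_not_dvd (fun h' =>
        hpq ((Nat.prime_dvd_prime_iff_eq hq hp).mp h').symm)]
    simp
  let Q : Sylow q H := default
  have hQcard : Nat.card Q = q := by
    rw [Sylow.card_eq_multiplicity, hfq, pow_one]
  have hindex : (Q : Subgroup H).index = p ^ a := by
    have h1 := (Q : Subgroup H).card_mul_index
    rw [hQcard, hcard, mul_comm (p ^ a)] at h1
    exact Nat.eq_of_mul_eq_mul_left hq.pos h1
  have hone : Nat.card (Sylow q H) = 1 := by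
    have h1 := Q.card_dvd_index
    rw [hindex] at h1
    obtain ⟨i, hi, hi'⟩ := (Nat.dvd_prime_pow hp).mp h1
    have h2 := card_sylow_modEq_one q H
    rw [hi'] at h2 ⊢
    rcases Nat.eq_zero_or_pos i with rfl | hi0
    · simp
    · exact absurd h2 (hmod i hi hi0)
  haveI : Subsingleton (Sylow q H) := (Nat.card_eq_one_iff_unique.mp hone).1
  haveI hQn : (Q : Subgroup H).Normal := Sylow.normal_of_subsingleton Q
  haveI : Fact q.Prime := ⟨hq⟩
  haveI hQcyc : IsCyclic (Q : Subgroup H) := isCyclic_of_prime_card hQcard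
  obtain ⟨x, hx⟩ := IsCyclic.exists_generator (α := (Q : Subgroup H))
  have hxo : orderOf x = q := by
    rw [orderOf_eq_card_of_forall_mem_zpowers hx, hQcard]
  obtain ⟨y, hy⟩ := exists_prime_orderOf_dvd_card' (G := H) p
    (by rw [hcard]; exact Dvd.dvd.mul_right (dvd_pow_self p ha.ne') q)
  have hphi : (MulAut.conjNormal (H := (Q : Subgroup H)) y) = 1 := by
    set φ := MulAut.conjNormal (H := (Q : Subgroup H)) y with hφ
    have h1 : orderOf φ ∣ p := by
      rw [← hy]
      exact orderOf_map_dvd _ y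
    have h2 : orderOf φ ∣ q - 1 := by
      have := orderOf_dvd_natCard φ
      rw [IsCyclic.card_mulAut, hQcard, Nat.totient_prime hq] at this
      exact this
    have h3 : orderOf φ = 1 := Nat.eq_one_of_dvd_coprimes hcop h1 h2
    exact orderOf_eq_one_iff.mp h3
  have hcomm : y * (x : H) * y⁻¹ = x := by
    have := MulAut.conjNormal_apply (H := (Q : Subgroup H)) y x
    rw [hphi] at this
    simpa using this.symm
  have hc : Commute (x : H) y := by
    have h1 : y * (x : H) = x * y := by
      rw [← hcomm]; simp [hcomm]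
      exact mul_inv_eq_iff_eq_mul.mp hcomm
    exact h1.symm
  refine ⟨(x : H) * y, ?_⟩
  have hxo' : orderOf (x : H) = q := by rw [Subgroup.orderOf_coe, hxo]
  rw [hc.orderOf_mul_eq_mul_orderOf_of_coprime (by rw [hxo', hy]; exact ((Nat.coprime_primes hq hp).mpr hpq.symm)),
    hxo', hy, mul_comm]


theorem split_card {N p q : ℕ} (hN : N ≠ 0) (hp : p.Prime) (hq : q.Prime) (hpq : p ≠ q)
    (a : ℕ) (hfp : N.factorization p = a) (hfq : N.factorization q = 1) :
    ∃ m, N = (p ^ a * q) * m ∧ (p ^ a * q).Coprime m := by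
  have h1 : p ^ a ∣ N := (hp.pow_dvd_iff_le_factorization hN).mpr hfp.ge
  have h2 : q ∣ N := by
    have := (hq.pow_dvd_iff_le_factorization hN (k := 1)).mpr hfq.ge
    simpa using this
  have h3 : p ^ a * q ∣ N := Nat.Coprime.mul_dvd_of_dvd_of_dvd
    (Nat.Coprime.pow_left _ ((Nat.coprime_primes hp hq).mpr hpq)) h1 h2
  obtain ⟨m, rfl⟩ := h3
  refine ⟨m, rfl, ?_⟩
  have hmp : ¬ p ∣ m := by
    rintro ⟨k, rfl⟩
    have h4 : p ^ (a + 1) ∣ p ^ a * q * (p * k) :=
      ⟨q * k, by rw [pow_succ]; ring⟩
    have := (hp.pow_dvd_iff_le_factorization hN).mp h4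
    omega
  have hmq : ¬ q ∣ m := by
    rintro ⟨k, rfl⟩
    have h4 : q ^ 2 ∣ p ^ a * q * (q * k) :=
      ⟨p ^ a * k, by ring⟩
    have := (hq.pow_dvd_iff_le_factorization hN).mp h4
    omega
  exact Nat.Coprime.mul_left
    (Nat.Coprime.pow_left _ ((Nat.Prime.coprime_iff_not_dvd hp).mpr hmp))
    ((Nat.Prime.coprime_iff_not_dvd hq).mpr hmq)

theorem core {G : Type*} [Group G] [Finite G] [Group.IsSolvable G] {n p q a m : ℕ}
    (hp : p.Prime) (hq : q.Prime) (hpq : p ≠ q) (ha : 0 < a)
    (hcard : Nat.card G = (p ^ a * q) * m) (hcop : (p ^ a * q).Coprime m)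
    (hmod : ∀ i ≤ a, 0 < i → ¬ p ^ i ≡ 1 [MOD q]) (hcop2 : p.Coprime (q - 1))
    (hn : n < p + q)
    (hspec : Set.range (orderOf : G → ℕ) = Set.range (orderOf : ↥(alternatingGroup (Fin n)) → ℕ)) :
    False := by
  obtain ⟨H, hH⟩ := (Lib.Hall.hall_main (Nat.card G) G (p ^ a * q) m rfl hcard hcop).1
  obtain ⟨x, hx⟩ := exists_order_mul (H := H) hp hq hpq a ha hH hmod hcop2
  have h1 : p * q ∈ Set.range (orderOf : G → ℕ) := ⟨x, by rw [Subgroup.orderOf_coe, hx]⟩
  rw [hspec] at h1
  obtain ⟨g, hg⟩ := h1
  exact no_elem hp hq hpq hn g.1 (by rw [Subgroup.orderOf_coe, hg])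

theorem result {G : Type*} [Group G] [Finite G] (n : ℕ) (hn : 5 ≤ n)
    (hcard : Nat.card G = Nat.card ↥(alternatingGroup (Fin n)))
    (hspec : Set.range (orderOf : G → ℕ) = Set.range (orderOf : ↥(alternatingGroup (Fin n)) → ℕ)) :
    ¬ Group.IsSolvable G := by
  intro hsolv
  haveI : Nontrivial (Fin n) := Fin.nontrivial_iff_two_le.mpr (by omega)
  have h2N : 2 * Nat.card G = n.factorial := by
    rw [hcard, two_mul_nat_card_alternatingGroup, Nat.card_eq_fintype_card, Fintype.card_perm,
      Fintype.card_fin]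
  by_cases hn11 : 11 ≤ n
  · obtain ⟨p, q, hp, hq, h1, h2, h3⟩ := two_primes n hn11
    have hfac : ∀ r : ℕ, r.Prime → n < 2 * r → r ≤ n → (Nat.card G).factorization r = 1 := by
      intro r hr h4 h5
      have h6 : n < r ^ 2 := by
        have := hr.two_le
        nlinarith
      have h7 : n.factorial.factorization r = 1 := by
        rw [Nat.factorization_factorial hr (b := 2) (Nat.log_lt_of_lt_pow (by omega) h6)]
        simp only [Nat.Ico_succ_singleton, Finset.sum_singleton, pow_one]
        apply le_antisymm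
        · have : n / r < 2 := Nat.div_lt_of_lt_mul (by rwa [mul_comm] at h4)
          omega
        · exact (Nat.one_le_div_iff hr.pos).mpr h5
      rw [← h2N, Nat.factorization_mul two_ne_zero Nat.card_pos.ne', Finsupp.add_apply,
        Nat.factorization_eq_zero_of_not_dvd] at h7
      · omega
      · intro h
        have := (Nat.prime_dvd_prime_iff_eq hr Nat.prime_two).mp h
        omega
    obtain ⟨m, hm1, hm2⟩ := split_card Nat.card_pos.ne' hp hq h2.ne 1
      (hfac p hp h1 (by omega)) (hfac q hq (by omega) h3)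
    refine core hp hq h2.ne one_pos hm1 hm2 ?_ ?_ (by omega) hspec
    · intro i hi h0
      obtain rfl : i = 1 := by omega
      rw [pow_one, Nat.ModEq, Nat.mod_eq_of_lt h2, Nat.mod_eq_of_lt hq.one_lt]
      exact hp.one_lt.ne'
    · rw [Nat.Prime.coprime_iff_not_dvd hp]
      rintro ⟨k, hk⟩
      have h4 : k = 1 := by
        rcases k with _ | _ | k
        · have := hq.one_lt; simp at hk; omega
        · rfl
        · have : p * (k + 1 + 1) = p * k + 2 * p := by ring
          omega
      subst h4
      have h5 := hp.eq_two_or_odd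
      have h6 := hq.eq_two_or_odd
      omega
  · have hn10 : n ≤ 10 := by omega
    have hfact : Nat.card G = n.factorial / 2 := by omega
    clear h2N hcard
    have hmod1 : ∀ p q : ℕ, 1 < p → p < q → ∀ i ≤ 1, 0 < i → ¬ p ^ i ≡ 1 [MOD q] := by
      intro p q h1 h2 i hi h0
      obtain rfl : i = 1 := by omega
      rw [pow_one, Nat.ModEq, Nat.mod_eq_of_lt h2, Nat.mod_eq_of_lt (by omega)]
      omega
    interval_cases n
    · exact core (p := 3) (q := 5) (a := 1) (m := 4) (by norm_num) (by norm_num) (by norm_num)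
        (by norm_num) (by rw [hfact]; norm_num [Nat.factorial]) (by norm_num) (hmod1 3 5 (by norm_num) (by norm_num))
        (by norm_num) (by norm_num) hspec
    · refine core (p := 3) (q := 5) (a := 2) (m := 8) (by norm_num) (by norm_num) (by norm_num)
        (by norm_num) (by rw [hfact]; norm_num [Nat.factorial]) (by norm_num) ?_ (by norm_num) (by norm_num) hspec
      intro i hi h0
      interval_cases i <;> decide
    · exact core (p := 5) (q := 7) (a := 1) (m := 72) (by norm_num) (by norm_num) (by norm_num)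
        (by norm_num) (by rw [hfact]; norm_num [Nat.factorial]) (by norm_num) (hmod1 5 7 (by norm_num) (by norm_num))
        (by norm_num) (by norm_num) hspec
    · exact core (p := 5) (q := 7) (a := 1) (m := 576) (by norm_num) (by norm_num) (by norm_num)
        (by norm_num) (by rw [hfact]; norm_num [Nat.factorial]) (by norm_num) (hmod1 5 7 (by norm_num) (by norm_num))
        (by norm_num) (by norm_num) hspec
    · exact core (p := 5) (q := 7) (a := 1) (m := 5184) (by norm_num) (by norm_num) (by norm_num)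
        (by norm_num) (by rw [hfact]; norm_num [Nat.factorial]) (by norm_num) (hmod1 5 7 (by norm_num) (by norm_num))
        (by norm_num) (by norm_num) hspec
    · refine core (p := 5) (q := 7) (a := 2) (m := 10368) (by norm_num) (by norm_num) (by norm_num)
        (by norm_num) (by rw [hfact]; norm_num [Nat.factorial]) (by norm_num) ?_ (by norm_num) (by norm_num) hspec
      intro i hi h0
      interval_cases i <;> decide

end Cfsg.Agent.S3419
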