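import Mathlib
import Cfsg.Statements.S3430
import Cfsg.Agent.Lib.Zsig

set_option autoImplicit false
open Cfsg

namespace Cfsg.Agent.S3430

open Polynomial Nat ArithmeticFunction Cfsg.Agent.Lib.Zsig

/-- The infinite product bound. -/
lemma prod_ge (n : ℕ) (hn : 1 ≤ n) :
    (1 / 4 : ℝ) * (1 + 2 * (1 / 2) ^ n) ≤ ∏ d ∈ Finset.Icc 1 n, (1 - (1 / 2 : ℝ) ^ d) := by
  induction n, hn using Nat.le_induction with
  | base => norm_num
  | succ k hk ih =>
    rw [Finset.prod_Icc_succ_top (by omega)]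
    have hx : (0 : ℝ) < (1 / 2) ^ k := by positivity
    have hx2 : ((1 : ℝ) / 2) ^ k ≤ 1 / 2 := by
      calc ((1 : ℝ) / 2) ^ k ≤ (1 / 2) ^ 1 := pow_le_pow_of_le_one (by norm_num) (by norm_num) hk
        _ = 1 / 2 := by norm_num
    set x : ℝ := (1 / 2) ^ k with hxd
    have h3 : ((1 : ℝ) / 2) ^ (k + 1) = x / 2 := by rw [pow_succ, hxd]; ring
    rw [h3]
    have h4 : (0 : ℝ) ≤ 1 - x / 2 := by linarith
    calc (1 / 4 : ℝ) * (1 + 2 * (x / 2)) ≤ (1 / 4) * (1 + 2 * x) * (1 - x / 2) := by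
          nlinarith
      _ ≤ _ := mul_le_mul_of_nonneg_right ih h4

/-- The Möbius lower bound for cyclotomic values. -/
theorem phi_lower (q n : ℕ) (hq : 2 ≤ q) (hn : 0 < n) :
    (q : ℝ) ^ (φ n) ≤ 4 * ((Phi n q : ℤ) : ℝ) := by
  have hq' : (2 : ℝ) ≤ q := by exact_mod_cast hq
  set x : ℝ := (q : ℝ) with hx
  have hx1 : (1 : ℝ) < x := by linarith
  have hx0 : (0 : ℝ) < x := by linarith
  let f : ℕ → ℝ := fun k => eval x (cyclotomic k ℝ) / x ^ (φ k)
  let g : ℕ → ℝ := fun k => 1 - (1 / x) ^ k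
  have hinv1 : 1 / x ≤ 1 / 2 := by
    rw [div_le_div_iff₀ hx0 (by norm_num)]
    linarith
  have hinv0 : 0 < 1 / x := by positivity
  have hg2 : ∀ k, (1 : ℕ) ≤ k → 1 - (1 / 2 : ℝ) ^ k ≤ g k := by
    intro k hk
    have : (1 / x) ^ k ≤ (1 / 2 : ℝ) ^ k := pow_le_pow_left₀ hinv0.le hinv1 k
    simp only [g]
    linarith
  have hg0 : ∀ k, 0 < k → 0 < g k := by
    intro k hk
    have h1 : (1 / 2 : ℝ) ^ k ≤ (1 / 2) ^ 1 := pow_le_pow_of_le_one (by norm_num) (by norm_num) hk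
    have := hg2 k hk
    norm_num at h1 this ⊢
    linarith
  have hg1 : ∀ k, g k ≤ 1 := by
    intro k
    have : 0 ≤ (1 / x) ^ k := by positivity
    simp only [g]
    linarith
  have hf : ∀ k, 0 < k → f k ≠ 0 := by
    intro k _
    have h1 := cyclotomic_pos' k hx1
    exact (div_pos h1 (pow_pos hx0 _)).ne'
  have hprod : ∀ k > 0, ∏ i ∈ k.divisors, f i = g k := by
    intro k hk
    simp only [f, g]
    rw [Finset.prod_div_distrib, Finset.prod_pow_eq_pow_sum, Nat.sum_totient, ← eval_prod,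
      prod_cyclotomic_eq_X_pow_sub_one hk]
    simp only [eval_sub, eval_pow, eval_X, eval_one]
    have hxk : x ^ k ≠ 0 := (pow_pos hx0 k).ne'
    rw [one_div, inv_pow]
    field_simp
  have hinv := (prod_eq_iff_prod_pow_moebius_eq_of_nonzero hf (fun k hk => (hg0 k hk).ne')).mp hprod n hn
  -- each factor is at least `g d`
  have h1 : ∏ d ∈ n.divisors, g d ≤ f n := by
    rw [← hinv, Nat.prod_divisorsAntidiagonal' (fun a d => g d ^ moebius a)]
    apply Finset.prod_le_prod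
    · intro d hd
      exact (hg0 d (Nat.pos_of_mem_divisors hd)).le
    · intro d hd
      have hd0 := hg0 d (Nat.pos_of_mem_divisors hd)
      rcases moebius_eq_or (n / d) with h | h | h
      · rw [h, zpow_zero]; exact hg1 d
      · rw [h, zpow_one]
      · rw [h, zpow_neg_one]
        have : 1 ≤ (g d)⁻¹ := (one_le_inv₀ hd0).mpr (hg1 d)
        linarith [hg1 d]
  have h2 : ∏ d ∈ Finset.Icc 1 n, g d ≤ ∏ d ∈ n.divisors, g d := by
    have hsub : n.divisors ⊆ Finset.Icc 1 n := by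
      intro d hd
      exact Finset.mem_Icc.mpr ⟨Nat.pos_of_mem_divisors hd, Nat.divisor_le hd⟩
    rw [← Finset.prod_sdiff hsub]
    apply mul_le_of_le_one_left
    · apply Finset.prod_nonneg
      intro d hd
      exact (hg0 d (Nat.pos_of_mem_divisors hd)).le
    · apply Finset.prod_le_one
      · intro d hd
        exact (hg0 d (Finset.mem_Icc.mp (Finset.mem_sdiff.mp hd).1).1).le
      · intro d _
        exact hg1 d
  have h3 : (1 / 4 : ℝ) ≤ ∏ d ∈ Finset.Icc 1 n, g d := by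
    refine le_trans ?_ (le_trans (prod_ge n hn) (Finset.prod_le_prod ?_ ?_))
    · have : (0 : ℝ) ≤ (1 / 2) ^ n := by positivity
      linarith
    · intro d hd
      have hd1 := (Finset.mem_Icc.mp hd).1
      have h1 : (1 / 2 : ℝ) ^ d ≤ (1 / 2) ^ 1 := pow_le_pow_of_le_one (by norm_num) (by norm_num) hd1
      norm_num at h1 ⊢
      linarith
    · intro d hd
      exact hg2 d (Finset.mem_Icc.mp hd).1
  have h4 : (1 / 4 : ℝ) ≤ f n := h3.trans (h2.trans h1)
  rw [phi_cast_real]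
  simp only [f] at h4
  rw [le_div_iff₀ (pow_pos hx0 _)] at h4
  linarith

/-- `φ(n)² ≥ n` away from `n ≡ 2 (mod 4)`, and `2 φ(n)² ≥ n` always. -/
lemma totient_sq (n : ℕ) : n ≤ 2 * φ n ^ 2 ∧ (¬ (n % 4 = 2) → n ≤ φ n ^ 2) := by
  induction n using Nat.recOnPosPrimePosCoprime with
  | zero => simp
  | one => simp
  | prime_pow p k hp hk =>
    rw [Nat.totient_prime_pow hp hk]
    obtain ⟨j, rfl⟩ : ∃ j, k = j + 1 := ⟨k - 1, by omega⟩
    simp only [Nat.add_sub_cancel]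
    rcases hp.eq_two_or_odd' with rfl | hodd
    · simp only [Nat.add_one_sub_one, mul_one] 
      rcases Nat.eq_zero_or_pos j with rfl | hj
      · norm_num
      · have h1 : 2 ^ (j + 1) ≤ (2 ^ j) ^ 2 := by
          rw [← pow_mul]
          exact Nat.pow_le_pow_right (by norm_num) (by omega)
        exact ⟨by omega, fun _ => h1⟩
    · have hp3 : 3 ≤ p := by
        have := hp.two_le
        rcases hodd with ⟨t, ht⟩
        omega
      have h1 : p ≤ (p - 1) ^ 2 := by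
        obtain ⟨r, rfl⟩ : ∃ r, p = r + 3 := ⟨p - 3, by omega⟩
        simp only [show r + 3 - 1 = r + 2 by omega]
        nlinarith
      have h2 : 1 ≤ p ^ j := Nat.one_le_pow _ _ hp.pos
      have h3 : p ^ (j + 1) ≤ (p ^ j * (p - 1)) ^ 2 := by
        rw [mul_pow, pow_succ]
        apply Nat.mul_le_mul _ h1
        rw [← pow_mul]
        exact Nat.pow_le_pow_right hp.pos (by omega)
      exact ⟨by omega, fun _ => h3⟩
  | coprime a b ha hb hab iha ihb =>
    rw [Nat.totient_mul hab, mul_pow]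
    have hne : ¬ (a % 4 = 2 ∧ b % 4 = 2) := by
      rintro ⟨h1, h2⟩
      have h3 : 2 ∣ a := by omega
      have h4 : 2 ∣ b := by omega
      have := Nat.dvd_gcd h3 h4
      rw [hab.gcd_eq_one] at this
      omega
    constructor
    · by_cases h : a % 4 = 2
      · have h2 := ihb.2 (fun h' => hne ⟨h, h'⟩)
        calc a * b ≤ (2 * φ a ^ 2) * φ b ^ 2 := Nat.mul_le_mul iha.1 h2
          _ = _ := by ring
      · have h2 := iha.2 h
        calc a * b ≤ φ a ^ 2 * (2 * φ b ^ 2) := Nat.mul_le_mul h2 ihb.1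
          _ = _ := by ring
    · intro hab4
      have h1 : ¬ a % 4 = 2 := by
        intro h
        have h3 : b % 2 = 1 := by
          by_contra h'
          have h4 : 2 ∣ a := by omega
          have h5 : 2 ∣ b := by omega
          have := Nat.dvd_gcd h4 h5
          rw [hab.gcd_eq_one] at this
          omega
        apply hab4
        rw [Nat.mul_mod, h]
        have : b % 4 = 1 ∨ b % 4 = 3 := by omega
        rcases this with h5 | h5 <;> rw [h5]
      have h2 : ¬ b % 4 = 2 := by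
        intro h
        have h3 : a % 2 = 1 := by
          by_contra h'
          have h4 : 2 ∣ a := by omega
          have h5 : 2 ∣ b := by omega
          have := Nat.dvd_gcd h4 h5
          rw [hab.gcd_eq_one] at this
          omega
        apply hab4
        rw [Nat.mul_mod, h]
        have : a % 4 = 1 ∨ a % 4 = 3 := by omega
        rcases this with h5 | h5 <;> rw [h5]
      exact Nat.mul_le_mul (iha.2 h1) (ihb.2 h2)

/-- The exponential beats the quartic. -/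
lemma quartic (m : ℕ) (hm : 22 ≤ m) : 4 * (2 * m ^ 2) * (2 * m ^ 2 + 1) < 2 ^ m := by
  induction m, hm using Nat.le_induction with
  | base => norm_num
  | succ k hk ih =>
    rw [pow_succ 2 k]
    have h1 : 4 * (2 * (k + 1) ^ 2) * (2 * (k + 1) ^ 2 + 1) ≤ 2 * (4 * (2 * k ^ 2) * (2 * k ^ 2 + 1)) := by
      obtain ⟨r, rfl⟩ : ∃ r, k = r + 22 := ⟨k - 22, by omega⟩
      ring_nf
      nlinarith [sq_nonneg r, sq_nonneg (r ^ 2)]
    omega

lemma big_n (n : ℕ) (hn : 883 ≤ n) : 4 * n * (n + 1) < 2 ^ φ n := by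
  have h1 := (totient_sq n).1
  have h2 : 22 ≤ φ n := by
    by_contra h
    have h3 : φ n ≤ 21 := by omega
    have h4 : φ n ^ 2 ≤ 21 ^ 2 := Nat.pow_le_pow_left h3 2
    omega
  have h3 := quartic _ h2
  calc 4 * n * (n + 1) ≤ 4 * (2 * φ n ^ 2) * (2 * φ n ^ 2 + 1) := by
        apply Nat.mul_le_mul (Nat.mul_le_mul_left 4 h1)
        omega
    _ < _ := h3

/-- The list of small exceptions to the size estimate for `q = 2`. -/
def L : List ℕ := [3, 4, 5, 6, 7, 8, 9, 10, 12, 14, 15, 16, 18, 20, 22, 24, 30, 36, 42]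

set_option maxRecDepth 100000 in
lemma small_n : ∀ n < 883, 3 ≤ n → 2 ^ φ n ≤ 4 * n * (n + 1) → n ∈ L := by decide +kernel

/-- Witnesses. -/
def W : List (ℕ × ℕ × ℕ) := [(2, 3, 7), (3, 3, 13), (4, 3, 7), (5, 3, 31), (6, 3, 43), (4, 4, 17), (5, 4, 13), (6, 4, 37), (7, 4, 5), (8, 4, 13), (2, 5, 31), (3, 5, 11), (4, 6, 13), (6, 6, 31), (7, 6, 43), (8, 6, 19), (9, 6, 73), (10, 6, 13), (11, 6, 37), (12, 6, 19), (2, 7, 127), (2, 8, 17), (3, 8, 41), (4, 8, 257), (2, 9, 73), (3, 10, 61), (4, 10, 41), (3, 12, 73), (4, 12, 241), (2, 14, 43), (3, 14, 547), (2, 15, 151), (2, 16, 257), (3, 18, 37), (2, 20, 41), (2, 22, 683), (2, 24, 241), (2, 30, 331), (2, 36, 109), (2, 42, 5419)]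

/-- The exceptional pairs. -/
def E : List (ℕ × ℕ) := [(2, 4), (3, 4), (2, 6), (3, 6), (5, 6), (2, 10), (2, 12), (2, 18)]

set_option maxRecDepth 100000 in
lemma pairs : ∀ n ∈ L, ∀ q < 2 * n + 2, 2 ≤ q → q ^ φ n ≤ 4 * n * (n + 1) →
    (q, n) ∈ E ∨ ∃ x ∈ W, x.1 = q ∧ x.2.1 = n := by decide +kernel

lemma W_prime : ∀ x ∈ W, x.2.2.Prime := by
  simp only [W, List.mem_cons, List.not_mem_nil, or_false, forall_eq_or_imp, forall_eq]
  norm_num

set_option maxRecDepth 100000 in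
lemma W_good : ∀ x ∈ W, x.2.2 ∣ x.1 ^ x.2.1 - 1 ∧ (∀ i < x.2.1, 1 ≤ i → ¬ x.2.2 ∣ x.1 ^ i - 1) ∧
    (x.2.1 + 1 < x.2.2 ∨ x.2.2 ^ 2 ∣ x.1 ^ x.2.1 - 1) := by decide +kernel

/-- The structure of the primes: if the cyclotomic value is large, there is a large primitive
prime divisor. -/
theorem key (q n : ℕ) (hq : 2 ≤ q) (hn : 3 ≤ n) (hbig : (n * (n + 1) : ℤ) < Phi n q) :
    ∃ p : ℕ, p.Prime ∧ p ∣ q ^ n - 1 ∧ (∀ i : ℕ, 1 ≤ i → i < n → ¬ p ∣ q ^ i - 1) ∧
      (n + 1 < p ∨ p ^ 2 ∣ q ^ n - 1) := by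
  by_contra hcon
  push Not at hcon
  have hq1 : 1 < q := by omega
  have hnZ : (0 : ℤ) ≤ n * (n + 1) := by positivity
  obtain ⟨N, hN⟩ := Int.eq_ofNat_of_zero_le (by omega : 0 ≤ Phi n q)
  have hdvdN : ∀ s : ℕ, (s : ℤ) ∣ Phi n q ↔ s ∣ N := by
    intro s
    rw [hN]
    exact Int.natCast_dvd_natCast
  have hNgt : n * (n + 1) < N := by
    have : ((n * (n + 1) : ℕ) : ℤ) < (N : ℤ) := by
      rw [← hN]
      push_cast
      exact hbig
    exact_mod_cast this
  have hone : 1 ≤ q ^ n := Nat.one_le_pow _ _ (by omega)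
  have hdvd : N ∣ q ^ n - 1 := by
    apply Int.natCast_dvd_natCast.mp
    rw [← hN]
    have h1 := map_dvd (evalRingHom (q : ℤ)) (cyclotomic.dvd_X_pow_sub_one n ℤ)
    simp only [map_sub, map_pow, coe_evalRingHom, eval_X, eval_one] at h1
    have h2 : ((q ^ n - 1 : ℕ) : ℤ) = (q : ℤ) ^ n - 1 := by
      rw [Nat.cast_sub hone]
      push_cast
      rfl
    rw [h2]
    exact h1
  -- the primes not dividing `n`
  have hnot : ∀ r : ℕ, r.Prime → r ∣ N → ¬ r ∣ n → r = n + 1 ∧ ¬ r ^ 2 ∣ q ^ n - 1 := by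
    intro r hr hrN hrn
    have : Fact r.Prime := ⟨hr⟩
    have hord := orderOf_of_not_dvd ((hdvdN r).mpr hrN) hrn
    have key : ∀ k : ℕ, r ∣ q ^ k - 1 ↔ (q : ZMod r) ^ k = 1 := by
      intro k
      have h1 : 1 ≤ q ^ k := Nat.one_le_pow _ _ (by omega)
      rw [← ZMod.natCast_eq_zero_iff, Nat.cast_sub h1]
      push_cast
      exact sub_eq_zero
    have hno : ∀ i : ℕ, 1 ≤ i → i < n → ¬ r ∣ q ^ i - 1 := by
      intro k hk hkn h
      rw [key] at h
      have h1 := orderOf_dvd_of_pow_eq_one h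
      rw [hord] at h1
      exact absurd (Nat.le_of_dvd hk h1) (by omega)
    obtain ⟨h1, h2⟩ := hcon r hr (hrN.trans hdvd) hno
    refine ⟨?_, h2⟩
    have h0 : (q : ZMod r) ≠ 0 := by
      intro h0
      have h3 := pow_orderOf_eq_one (q : ZMod r)
      rw [hord, h0, zero_pow (by omega)] at h3
      exact zero_ne_one h3
    have h3 := ZMod.orderOf_dvd_card_sub_one h0
    rw [hord] at h3
    have h4 := Nat.le_of_dvd (by have := hr.one_lt; omega) h3
    have := hr.one_lt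
    omega
  have hsq : Squarefree N := by
    rw [Nat.squarefree_iff_prime_squarefree]
    intro r hr hrr
    have : Fact r.Prime := ⟨hr⟩
    have hrN : r ∣ N := (Dvd.intro _ rfl).trans hrr
    by_cases hrn : r ∣ n
    · apply not_sq_dvd hq1 hn ((hdvdN r).mpr hrN) hrn
      have : ((r * r : ℕ) : ℤ) ∣ Phi n q := (hdvdN _).mpr hrr
      rw [pow_two]
      exact_mod_cast this
    · apply (hnot r hr hrN hrn).2
      rw [pow_two]
      exact hrr.trans hdvd
  have hdiv : N ∣ n * (n + 1) := by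
    rw [← Nat.prod_primeFactors_of_squarefree hsq]
    apply Finset.prod_primes_dvd
    · intro r hr
      exact (Nat.prime_of_mem_primeFactors hr).prime
    · intro r hr
      have hrp := Nat.prime_of_mem_primeFactors hr
      have hrN := Nat.dvd_of_mem_primeFactors hr
      by_cases hrn : r ∣ n
      · exact hrn.trans (Nat.dvd_mul_right _ _)
      · rw [(hnot r hrp hrN hrn).1]
        exact Nat.dvd_mul_left _ _
  have := Nat.le_of_dvd (by positivity) hdiv
  omega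

/-- The case `n = 2`. -/
theorem case_two (q : ℕ) (hq : 2 ≤ q) (h1 : ¬ ∃ s t : ℕ, t ≤ 1 ∧ q + 1 = 2 ^ s * 3 ^ t) :
    ∃ p : ℕ, p.Prime ∧ p ∣ q ^ 2 - 1 ∧ (∀ i : ℕ, 1 ≤ i → i < 2 → ¬ p ∣ q ^ i - 1) ∧
      (2 + 1 < p ∨ p ^ 2 ∣ q ^ 2 - 1) := by
  have hfac : q ^ 2 - 1 = (q + 1) * (q - 1) := by
    obtain ⟨r, rfl⟩ : ∃ r, q = r + 1 := ⟨q - 1, by omega⟩
    simp only [Nat.add_sub_cancel]
    have : (r + 1) ^ 2 = (r + 1 + 1) * r + 1 := by ring
    omega
  have hprim : ∀ p : ℕ, p.Prime → p ∣ q + 1 → 3 ≤ p → ∀ i : ℕ, 1 ≤ i → i < 2 → ¬ p ∣ q ^ i - 1 := by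
    intro p hp hpq hp3 i hi hi2 hd
    have hi1 : i = 1 := by omega
    subst hi1
    rw [pow_one] at hd
    have h2 : p ∣ 2 := by
      have h3 : q + 1 = (q - 1) + 2 := by omega
      rw [h3] at hpq
      exact (Nat.dvd_add_right hd).mp hpq
    have := Nat.le_of_dvd (by norm_num) h2
    omega
  by_cases h : ∃ p : ℕ, p.Prime ∧ 5 ≤ p ∧ p ∣ q + 1
  · obtain ⟨p, hp, hp5, hpq⟩ := h
    refine ⟨p, hp, ?_, hprim p hp hpq (by omega), Or.inl (by omega)⟩
    rw [hfac]
    exact hpq.trans (Nat.dvd_mul_right _ _)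
  · push Not at h
    obtain ⟨s, a, ha, has⟩ := Nat.exists_eq_pow_mul_and_not_dvd (n := q + 1) (by omega) 2 (by norm_num)
    have ha0 : a ≠ 0 := fun h0 => ha (h0 ▸ dvd_zero 2)
    obtain ⟨t, b, hb, hbt⟩ := Nat.exists_eq_pow_mul_and_not_dvd ha0 3 (by norm_num)
    have hb1 : b = 1 := by
      by_contra hb1
      obtain ⟨r, hr, hrb⟩ := Nat.exists_prime_and_dvd hb1
      have hra : r ∣ a := by rw [hbt]; exact hrb.trans (Nat.dvd_mul_left _ _)
      have hrq : r ∣ q + 1 := by rw [has]; exact hra.trans (Nat.dvd_mul_left _ _)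
      have h5 : r < 5 := by
        by_contra h6
        exact h r hr (by omega) hrq
      have h6 := hr.two_le
      interval_cases r
      · exact ha hra
      · exact hb hrb
      · exact absurd hr (by norm_num)
    rw [hb1, mul_one] at hbt
    have ht : 2 ≤ t := by
      by_contra ht
      exact h1 ⟨s, t, by omega, by rw [has, hbt]⟩
    have h9 : 3 ^ 2 ∣ q + 1 := by
      rw [has, hbt]
      exact (pow_dvd_pow 3 ht).trans (Nat.dvd_mul_left _ _)
    have h3 : 3 ∣ q + 1 := (by norm_num : 3 ∣ 3 ^ 2).trans h9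
    refine ⟨3, Nat.prime_three, ?_, hprim 3 Nat.prime_three h3 le_rfl, Or.inr ?_⟩
    · rw [hfac]
      exact h3.trans (Nat.dvd_mul_right _ _)
    · rw [hfac]
      exact h9.trans (Nat.dvd_mul_right _ _)

/-- Let q, n ≥ 2 be integers. Unless (n = 2 and q + 1 = 2^s·3^t for some s ≥ 0 and t ≤ 1), or (q = 2 and n ∈ {4, 6, 10, 12, 18}), or (q = 3 and n ∈ {4, 6}), or (q, n) = (5, 6), there is a prime p dividing q^n − 1 but no q^i − 1 with 1 ≤ i < n (a primitive prime divisor), such that p > n + 1 or p² divides q^n − 1. -/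
theorem result (q n : ℕ) (hq : 2 ≤ q) (hn : 2 ≤ n)
    (h1 : ¬ (n = 2 ∧ ∃ s t : ℕ, t ≤ 1 ∧ q + 1 = 2 ^ s * 3 ^ t))
    (h2 : ¬ (q = 2 ∧ (n = 4 ∨ n = 6 ∨ n = 10 ∨ n = 12 ∨ n = 18)))
    (h3 : ¬ (q = 3 ∧ (n = 4 ∨ n = 6))) (h4 : ¬ (q = 5 ∧ n = 6)) :
    ∃ p : ℕ, p.Prime ∧ p ∣ q ^ n - 1 ∧ (∀ i : ℕ, 1 ≤ i → i < n → ¬ p ∣ q ^ i - 1) ∧ (n + 1 < p ∨ p ^ 2 ∣ q ^ n - 1) := by
  by_cases hn2 : n = 2
  · subst hn2
    exact case_two q hq (fun h => h1 ⟨rfl, h⟩)
  have hn3 : 3 ≤ n := by omega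
  by_cases hbig : 4 * n * (n + 1) < q ^ φ n
  · apply key q n hq hn3
    have h5 := phi_lower q n hq (by omega)
    have h6 : ((4 * n * (n + 1) : ℕ) : ℝ) < ((q ^ φ n : ℕ) : ℝ) := by exact_mod_cast hbig
    push_cast at h6
    have h7 : ((n * (n + 1) : ℤ) : ℝ) < ((Phi n q : ℤ) : ℝ) := by
      push_cast
      linarith
    exact_mod_cast h7
  · have hn883 : n < 883 := by
      by_contra hn883
      apply hbig
      have h5 := big_n n (by omega)
      exact h5.trans_le (Nat.pow_le_pow_left hq _)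
    have hφ : 2 ≤ φ n := by
      have h5 := Nat.totient_even (by omega : 2 < n)
      have h6 := Nat.totient_pos.mpr (by omega : 0 < n)
      obtain ⟨t, ht⟩ := h5
      omega
    have hL : n ∈ L := small_n n hn883 hn3
      (le_trans (Nat.pow_le_pow_left hq _) (not_lt.mp hbig))
    have hq2 : q < 2 * n + 2 := by
      by_contra hq2
      apply hbig
      have h5 : q ^ 2 ≤ q ^ φ n := Nat.pow_le_pow_right (by omega) hφ
      have h6 : (2 * n + 2) ^ 2 ≤ q ^ 2 := Nat.pow_le_pow_left (by omega) 2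
      nlinarith
    rcases pairs n hL q hq2 hq (not_lt.mp hbig) with h | ⟨⟨q', n', p⟩, h, rfl, rfl⟩
    · exfalso
      simp only [E, List.mem_cons, Prod.mk.injEq, List.not_mem_nil, or_false] at h
      grind
    · have hp := W_prime _ h
      obtain ⟨g1, g2, g3⟩ := W_good _ h
      exact ⟨p, hp, g1, fun i hi hin => g2 i hin hi, g3⟩

end Cfsg.Agent.S3430
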