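import Mathlib
import Cfsg.Statements.S3704

set_option autoImplicit false
open Cfsg

namespace Cfsg.Agent.S3704

open Matrix

section Trace

variable {Ω X : Type*} [Fintype Ω] [Fintype X] [DecidableEq Ω] [DecidableEq X]

/-- The linear-algebra core. -/
theorem trace_bound (A B : Matrix Ω X ℚ) (a b : ℚ) (ha : a ≠ 0) (hb : b ≠ 0) (n : ℚ) (hn1 : n ≠ 1)
    (hn0 : n ≠ 0)
    (hcardO : (Fintype.card Ω : ℚ) = n) (hcardX : (Fintype.card X : ℚ) = n)
    (D J : Matrix Ω Ω ℚ) (hD : D = (n / (n - 1)) • (1 : Matrix Ω Ω ℚ) - (1 / (n - 1)) • J)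
    (hJ : ∀ i, J i i = 1)
    (hAA : A * Aᵀ = a • D) (hBB : B * Bᵀ = b • D) (hAB : A * Bᵀ = 0)
    (hAJ : Aᵀ * J = 0) (hBJ : Bᵀ * J = 0) : n ≤ 2 := by
  have hn1' : n - 1 ≠ 0 := sub_ne_zero.mpr hn1
  set c : ℚ := a * (n / (n - 1)) with hc
  set c' : ℚ := b * (n / (n - 1)) with hc'
  have hc0 : c ≠ 0 := mul_ne_zero ha (div_ne_zero hn0 hn1')
  have hc0' : c' ≠ 0 := mul_ne_zero hb (div_ne_zero hn0 hn1')
  have hAJA : Aᵀ * J * A = 0 := by rw [hAJ, Matrix.zero_mul]
  have hBJB : Bᵀ * J * B = 0 := by rw [hBJ, Matrix.zero_mul]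
  have h1 : (Aᵀ * A) * (Aᵀ * A) = c • (Aᵀ * A) := by
    calc (Aᵀ * A) * (Aᵀ * A) = Aᵀ * (A * Aᵀ) * A := by simp only [Matrix.mul_assoc]
      _ = c • (Aᵀ * A) := by
        rw [hAA, hD, smul_sub, smul_smul, smul_smul, Matrix.mul_sub, Matrix.sub_mul,
          Matrix.mul_smul, Matrix.mul_smul, Matrix.smul_mul, Matrix.smul_mul, hAJA, Matrix.mul_one,
          smul_zero, sub_zero]
  have h2 : (Bᵀ * B) * (Bᵀ * B) = c' • (Bᵀ * B) := by
    calc (Bᵀ * B) * (Bᵀ * B) = Bᵀ * (B * Bᵀ) * B := by simp only [Matrix.mul_assoc]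
      _ = c' • (Bᵀ * B) := by
        rw [hBB, hD, smul_sub, smul_smul, smul_smul, Matrix.mul_sub, Matrix.sub_mul,
          Matrix.mul_smul, Matrix.mul_smul, Matrix.smul_mul, Matrix.smul_mul, hBJB, Matrix.mul_one,
          smul_zero, sub_zero]
  have h3 : (Aᵀ * A) * (Bᵀ * B) = 0 := by
    calc (Aᵀ * A) * (Bᵀ * B) = Aᵀ * (A * Bᵀ) * B := by simp only [Matrix.mul_assoc]
      _ = 0 := by rw [hAB]; simp
  have hBA : B * Aᵀ = 0 := by
    have := congrArg Matrix.transpose hAB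
    simpa [Matrix.transpose_mul] using this
  have h4 : (Bᵀ * B) * (Aᵀ * A) = 0 := by
    calc (Bᵀ * B) * (Aᵀ * A) = Bᵀ * (B * Aᵀ) * A := by simp only [Matrix.mul_assoc]
      _ = 0 := by rw [hBA]; simp
  set E : Matrix X X ℚ := c⁻¹ • (Aᵀ * A) with hE
  set E' : Matrix X X ℚ := c'⁻¹ • (Bᵀ * B) with hE'
  have hEE : E * E = E := by
    rw [hE, Matrix.smul_mul, Matrix.mul_smul, h1, smul_smul, smul_smul]
    congr 1
    field_simp
  have hEE' : E' * E' = E' := by
    rw [hE', Matrix.smul_mul, Matrix.mul_smul, h2, smul_smul, smul_smul]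
    congr 1
    field_simp
  have hEF : E * E' = 0 := by
    rw [hE, hE', Matrix.smul_mul, Matrix.mul_smul, h3]; simp
  have hFE : E' * E = 0 := by
    rw [hE, hE', Matrix.smul_mul, Matrix.mul_smul, h4]; simp
  have hEt : Eᵀ = E := by
    rw [hE, Matrix.transpose_smul, Matrix.transpose_mul, Matrix.transpose_transpose]
  have hEt' : E'ᵀ = E' := by
    rw [hE', Matrix.transpose_smul, Matrix.transpose_mul, Matrix.transpose_transpose]
  set Q : Matrix X X ℚ := 1 - E - E' with hQ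
  have hQQ : Q * Q = Q := by
    rw [hQ]
    simp only [Matrix.mul_sub, Matrix.sub_mul, Matrix.mul_one, Matrix.one_mul, hEE, hEE', hEF, hFE]
    abel
  have hQt : Qᵀ = Q := by
    rw [hQ, Matrix.transpose_sub, Matrix.transpose_sub, Matrix.transpose_one, hEt, hEt']
  have htD : Matrix.trace D = n := by
    rw [hD, Matrix.trace_sub, Matrix.trace_smul, Matrix.trace_smul, Matrix.trace_one]
    have : Matrix.trace J = n := by
      rw [Matrix.trace]
      simp only [Matrix.diag_apply, hJ, Finset.sum_const, Finset.card_univ, nsmul_eq_mul, mul_one]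
      exact hcardO
    rw [this, hcardO]
    simp only [smul_eq_mul]
    field_simp
  have htE : Matrix.trace E = n - 1 := by
    rw [hE, Matrix.trace_smul, Matrix.trace_mul_comm, hAA, Matrix.trace_smul, htD, hc]
    simp only [smul_eq_mul]
    field_simp
  have htE' : Matrix.trace E' = n - 1 := by
    rw [hE', Matrix.trace_smul, Matrix.trace_mul_comm, hBB, Matrix.trace_smul, htD, hc']
    simp only [smul_eq_mul]
    field_simp
  have htQ : Matrix.trace Q = 2 - n := by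
    rw [hQ, Matrix.trace_sub, Matrix.trace_sub, Matrix.trace_one, htE, htE', hcardX]
    ring
  have hpos : 0 ≤ Matrix.trace Q := by
    rw [Matrix.trace]
    apply Finset.sum_nonneg
    intro x _
    simp only [Matrix.diag_apply]
    have h5 : Q x x = (Q * Q) x x := by rw [hQQ]
    rw [h5, Matrix.mul_apply]
    apply Finset.sum_nonneg
    intro y _
    have h6 : Q y x = Q x y := by
      have := congrFun (congrFun hQt x) y
      simpa [Matrix.transpose_apply] using this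
    rw [h6]
    exact mul_self_nonneg _
  rw [htQ] at hpos
  linarith

end Trace

section Grp

variable (G : Type*) {Ω : Type*} [Group G] [Fintype G] [MulAction G Ω] [Fintype Ω] [DecidableEq Ω]

/-- The `G`-averaged kernel. -/
def S (f f' : Ω → ℚ) (a b : Ω) : ℚ := ∑ g : G, f (g⁻¹ • a) * f' (g⁻¹ • b)

variable {G}

theorem S_smul (f f' : Ω → ℚ) (h : G) (a b : Ω) : S G f f' (h • a) (h • b) = S G f f' a b := by
  unfold S
  apply Fintype.sum_equiv (Equiv.mulLeft h⁻¹)
  intro g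
  simp [mul_smul]

theorem sum_smul_eq (f : Ω → ℚ) (g : G) : ∑ b : Ω, f (g⁻¹ • b) = ∑ b : Ω, f b :=
  Equiv.sum_comp (MulAction.toPerm g⁻¹) f

theorem S_sum_right (f f' : Ω → ℚ) (hf' : ∑ b, f' b = 0) (a : Ω) : ∑ b, S G f f' a b = 0 := by
  unfold S
  rw [Finset.sum_comm]
  apply Finset.sum_eq_zero
  intro g _
  rw [← Finset.mul_sum, sum_smul_eq, hf', mul_zero]

theorem S_diag_sum (f f' : Ω → ℚ) :
    ∑ a, S G f f' a a = (Fintype.card G : ℚ) * ∑ a, f a * f' a := by
  unfold S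
  rw [Finset.sum_comm, ← nsmul_eq_mul, ← Finset.card_univ, ← Finset.sum_const]
  apply Finset.sum_congr rfl
  intro g _
  exact Equiv.sum_comp (MulAction.toPerm g⁻¹) (fun a => f a * f' a)

theorem S_diag (h2 : ∀ {a b c d : Ω}, a ≠ b → c ≠ d → ∃ g : G, g • a = c ∧ g • b = d)
    (htr : ∀ a b : Ω, ∃ g : G, g • a = b) (f f' : Ω → ℚ) (a : Ω) :
    (Fintype.card Ω : ℚ) * S G f f' a a = (Fintype.card G : ℚ) * ∑ a, f a * f' a := by
  rw [← S_diag_sum]
  have : ∀ b, S G f f' b b = S G f f' a a := by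
    intro b
    obtain ⟨g, rfl⟩ := htr a b
    exact S_smul f f' g a a
  simp only [this, Finset.sum_const, Finset.card_univ, nsmul_eq_mul]

theorem S_off (h2 : ∀ {a b c d : Ω}, a ≠ b → c ≠ d → ∃ g : G, g • a = c ∧ g • b = d)
    (f f' : Ω → ℚ) (hf' : ∑ b, f' b = 0) {a b : Ω} (hab : a ≠ b) :
    S G f f' a a + ((Fintype.card Ω : ℚ) - 1) * S G f f' a b = 0 := by
  have h1 := S_sum_right (G := G) f f' hf' a
  rw [← Finset.add_sum_erase _ _ (Finset.mem_univ a)] at h1
  have h3 : ∀ b' ∈ Finset.univ.erase a, S G f f' a b' = S G f f' a b := by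
    intro b' hb'
    have hne : a ≠ b' := (Finset.ne_of_mem_erase hb').symm
    obtain ⟨g, hg1, hg2⟩ := h2 hne hab
    rw [← S_smul f f' g a b', hg1, hg2]
  rw [Finset.sum_congr rfl h3, Finset.sum_const, Finset.card_erase_of_mem (Finset.mem_univ a),
    Finset.card_univ, nsmul_eq_mul] at h1
  have hpos : 1 ≤ Fintype.card Ω := Fintype.card_pos_iff.mpr ⟨a⟩
  rw [Nat.cast_sub hpos] at h1
  simpa using h1

/-- A sum over a group of a function constant on cosets. -/
theorem sum_eq_card_mul_sum_quotient (Z : Subgroup G) [Fintype (G ⧸ Z)] [Fintype Z]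
    (f : G → ℚ) (hf : ∀ x, ∀ z ∈ Z, f (x * z) = f x) :
    ∑ x : G, f x = (Nat.card Z : ℚ) * ∑ q : G ⧸ Z, f (Quotient.out q) := by
  classical
  rw [← Finset.sum_fiberwise (s := Finset.univ) (g := fun x : G => (x : G ⧸ Z)) (f := f), Finset.mul_sum]
  refine Finset.sum_congr rfl fun q _ => ?_
  have h1 : ∀ x ∈ Finset.univ.filter (fun x : G => (x : G ⧸ Z) = q), f x = f (Quotient.out q) := by
    intro x hx
    have hx' : (x : G ⧸ Z) = q := by simpa using hx
    have h2 : (Quotient.out q)⁻¹ * x ∈ Z := by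
      rw [← QuotientGroup.eq, QuotientGroup.out_eq', hx']
    have h3 := hf (Quotient.out q) _ h2
    rwa [mul_inv_cancel_left] at h3
  rw [Finset.sum_congr rfl h1, Finset.sum_const, nsmul_eq_mul]
  congr 2
  rw [Nat.card_eq_fintype_card, ← Finset.card_univ]
  symm
  apply Finset.card_bij (fun (z : Z) _ => Quotient.out q * (z : G))
  · intro z _
    simp only [Finset.mem_filter, Finset.mem_univ, true_and]
    rw [QuotientGroup.mk_mul_of_mem _ z.2]
    exact QuotientGroup.out_eq' q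
  · intro a _ b _ h
    exact Subtype.ext (mul_left_cancel h)
  · intro x hx
    have hx' : (x : G ⧸ Z) = q := by simpa using hx
    have h2 : (Quotient.out q)⁻¹ * x ∈ Z := by
      rw [← QuotientGroup.eq, QuotientGroup.out_eq', hx']
    exact ⟨⟨_, h2⟩, Finset.mem_univ _, by simp⟩

/-- The matrix attached to an `H`-invariant function. -/
noncomputable def Amat (H : Subgroup G) (f : Ω → ℚ) : Matrix Ω (G ⧸ H) ℚ :=
  Matrix.of fun ω x => f ((Quotient.out x)⁻¹ • ω)

/-- The inner product formula. -/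
theorem Amat_mul (h2 : ∀ {a b c d : Ω}, a ≠ b → c ≠ d → ∃ g : G, g • a = c ∧ g • b = d)
    (htr : ∀ a b : Ω, ∃ g : G, g • a = b) (H : Subgroup G) [Fintype (G ⧸ H)] [Fintype H]
    (hidx : H.index = Fintype.card Ω) (f f' : Ω → ℚ) (hf : ∀ h ∈ H, ∀ ω, f (h • ω) = f ω)
    (hf'i : ∀ h ∈ H, ∀ ω, f' (h • ω) = f' ω) (hf' : ∑ b, f' b = 0)
    (n : ℚ) (hn : n = Fintype.card Ω) (hn0 : n ≠ 0) (hn1 : n ≠ 1) (a b : Ω) :
    (Amat H f * (Amat H f')ᵀ) a b =
      (∑ a, f a * f' a) * (if a = b then 1 else -1 / (n - 1)) := by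
  have hSA : S G f f' a b = (Nat.card H : ℚ) * (Amat H f * (Amat H f')ᵀ) a b := by
    unfold S
    rw [sum_eq_card_mul_sum_quotient H (fun g => f (g⁻¹ • a) * f' (g⁻¹ • b))]
    · rw [Matrix.mul_apply]
      rfl
    · intro x z hz
      simp only [_root_.mul_inv_rev, mul_smul]
      rw [hf _ (H.inv_mem hz), hf'i _ (H.inv_mem hz)]
  have hHpos : (Nat.card H : ℚ) ≠ 0 := by
    have : 0 < Nat.card H := Nat.card_pos
    exact_mod_cast this.ne'
  have hcardG : (Fintype.card G : ℚ) = (Nat.card H : ℚ) * n := by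
    have h3 := Subgroup.index_mul_card H
    rw [hidx, Nat.card_eq_fintype_card (α := G)] at h3
    rw [hn, ← h3]
    push_cast
    ring
  have hdiag : ∀ c, S G f f' c c = (Nat.card H : ℚ) * ∑ a, f a * f' a := by
    intro c
    have h3 := S_diag h2 htr f f' c
    rw [← hn, hcardG] at h3
    have h4 : n * S G f f' c c = n * ((Nat.card H : ℚ) * ∑ a, f a * f' a) := by
      rw [h3]; ring
    exact mul_left_cancel₀ hn0 h4
  have hn1' : n - 1 ≠ 0 := sub_ne_zero.mpr hn1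
  by_cases hab : a = b
  · subst hab
    rw [if_pos rfl, mul_one]
    have := hdiag a
    rw [hSA] at this
    exact mul_left_cancel₀ hHpos this
  · rw [if_neg hab]
    have h3 := S_off h2 f f' hf' hab
    rw [hdiag a, hSA, ← hn] at h3
    have h5 : (∑ a, f a * f' a) + (n - 1) * (Amat H f * (Amat H f')ᵀ) a b = 0 := by
      have h6 : (Nat.card H : ℚ) * ((∑ a, f a * f' a) + (n - 1) * (Amat H f * (Amat H f')ᵀ) a b) = 0 := by
        linear_combination h3
      exact (mul_eq_zero.mp h6).resolve_left hHpos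
    field_simp
    linear_combination h5

/-- The orthogonality bound. -/
theorem ortho_bound (h2 : ∀ {a b c d : Ω}, a ≠ b → c ≠ d → ∃ g : G, g • a = c ∧ g • b = d)
    (htr : ∀ a b : Ω, ∃ g : G, g • a = b) (H : Subgroup G)
    (hidx : H.index = Fintype.card Ω) (f f' : Ω → ℚ) (hf : ∀ h ∈ H, ∀ ω, f (h • ω) = f ω)
    (hf'i : ∀ h ∈ H, ∀ ω, f' (h • ω) = f' ω) (hs : ∑ b, f b = 0) (hs' : ∑ b, f' b = 0)
    (hff : ∑ a, f a * f a ≠ 0) (hff' : ∑ a, f' a * f' a ≠ 0) (hfo : ∑ a, f a * f' a = 0)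
    (hn2 : 2 ≤ Fintype.card Ω) : Fintype.card Ω ≤ 2 := by
  classical
  let _ : Fintype (G ⧸ H) := Fintype.ofFinite _
  let _ : Fintype H := Fintype.ofFinite _
  set n : ℚ := (Fintype.card Ω : ℚ) with hn
  have hn0 : n ≠ 0 := by
    rw [hn]
    have : Fintype.card Ω ≠ 0 := by omega
    exact_mod_cast this
  have hn1 : n ≠ 1 := by
    rw [hn]
    have : Fintype.card Ω ≠ 1 := by omega
    exact_mod_cast this
  have hn1' : n - 1 ≠ 0 := sub_ne_zero.mpr hn1
  let J : Matrix Ω Ω ℚ := Matrix.of fun _ _ => 1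
  let D : Matrix Ω Ω ℚ := (n / (n - 1)) • (1 : Matrix Ω Ω ℚ) - (1 / (n - 1)) • J
  have hDapp : ∀ a b, D a b = if a = b then 1 else -1 / (n - 1) := by
    intro a b
    by_cases hab : a = b
    · subst hab
      simp only [D, J, Matrix.sub_apply, Matrix.smul_apply, Matrix.one_apply_eq, Matrix.of_apply,
        smul_eq_mul, if_true]
      field_simp
    · simp only [D, J, Matrix.sub_apply, Matrix.smul_apply, Matrix.one_apply_ne hab, Matrix.of_apply,
        smul_eq_mul, if_neg hab]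
      ring
  have hcardX : (Fintype.card (G ⧸ H) : ℚ) = n := by
    have : Fintype.card (G ⧸ H) = Fintype.card Ω := by
      rw [← hidx, Subgroup.index, Nat.card_eq_fintype_card]
    rw [this]
  have hAll : ∀ (φ ψ : Ω → ℚ), (∀ h ∈ H, ∀ ω, φ (h • ω) = φ ω) → (∀ h ∈ H, ∀ ω, ψ (h • ω) = ψ ω) →
      ∑ b, ψ b = 0 → Amat H φ * (Amat H ψ)ᵀ = (∑ a, φ a * ψ a) • D := by
    intro φ ψ h1 h3 h4
    ext a b
    rw [Amat_mul h2 htr H hidx φ ψ h1 h3 h4 n hn hn0 hn1 a b, Matrix.smul_apply, hDapp, smul_eq_mul]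
  have hJz : ∀ φ : Ω → ℚ, ∑ b, φ b = 0 → (Amat H φ)ᵀ * J = 0 := by
    intro φ h1
    ext x ω
    rw [Matrix.mul_apply]
    simp only [J, Matrix.of_apply, Matrix.transpose_apply, mul_one, Matrix.zero_apply]
    have := sum_smul_eq φ (Quotient.out x)
    rw [h1] at this
    exact this
  have hle := trace_bound (Amat H f) (Amat H f') (∑ a, f a * f a) (∑ a, f' a * f' a) hff hff' n hn1 hn0
    rfl hcardX D J rfl (by intro i; rfl) (hAll f f hf hf hs) (hAll f' f' hf'i hf'i hs')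
    (by rw [hAll f f' hf hf'i hs', hfo, zero_smul]) (hJz f hs) (hJz f' hs')
  have : ((Fintype.card Ω : ℕ) : ℚ) ≤ ((2 : ℕ) : ℚ) := by
    push_cast
    exact hle
  exact_mod_cast this

end Grp

/-- Let G be a finite group acting faithfully and 2-transitively on a finite set Ω of size n, and let H be a subgroup of index n in G which is not transitive on Ω and fixes no point of Ω. Then H has exactly two orbits on Ω. -/
theorem result {G Ω : Type*} [Group G] [Finite G] [MulAction G Ω] [FaithfulSMul G Ω] [Finite Ω] (h2 : MulAction.IsMultiplyPretransitive G Ω 2) (H : Subgroup G) (hidx : H.index = Nat.card Ω) (hnt : ¬ MulAction.IsPretransitive H Ω) (hfix : ∀ a : Ω, ∃ h : H, h • a ≠ a) : Nat.card (MulAction.orbitRel.Quotient H Ω) = 2 := by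
  classical
  let _ : Fintype G := Fintype.ofFinite _
  let _ : Fintype Ω := Fintype.ofFinite _
  have hΩne : Nonempty Ω := by
    by_contra hemp
    rw [not_nonempty_iff] at hemp
    have h0 : Nat.card Ω = 0 := Nat.card_of_isEmpty
    rw [h0] at hidx
    exact (Subgroup.index_ne_zero_of_finite (H := H)) hidx
  have h2' : ∀ {a b c d : Ω}, a ≠ b → c ≠ d → ∃ g : G, g • a = c ∧ g • b = d :=
    MulAction.is_two_pretransitive_iff.mp h2
  have htr : ∀ a b : Ω, ∃ g : G, g • a = b := by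
    have := MulAction.isPretransitive_of_is_two_pretransitive (G := G) (α := Ω)
    exact fun a b => MulAction.exists_smul_eq G a b
  let Q := MulAction.orbitRel.Quotient H Ω
  let _ : Fintype Q := Fintype.ofFinite _
  let mk : Ω → Q := fun ω => Quotient.mk (MulAction.orbitRel H Ω) ω
  have hmk : ∀ q : Q, ∃ ω, mk ω = q := fun q => Quotient.exists_rep q
  have hmkinv : ∀ h ∈ H, ∀ ω, mk (h • ω) = mk ω := by
    intro h hh ω
    apply Quotient.sound
    exact ⟨⟨h, hh⟩, rfl⟩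
  have h1 : Nat.card Q ≠ 0 := by
    rw [Nat.card_ne_zero]
    obtain ⟨a⟩ := hΩne
    exact ⟨⟨mk a⟩, inferInstance⟩
  have h3 : Nat.card Q ≠ 1 := by
    intro hcard
    apply hnt
    rw [Nat.card_eq_one_iff_unique] at hcard
    refine ⟨fun a b => ?_⟩
    have hq : mk a = mk b := hcard.1.elim _ _
    have := Quotient.exact hq
    obtain ⟨h, hh⟩ := this
    refine ⟨h⁻¹, ?_⟩
    have hh' : (h : H) • b = a := hh
    rw [← hh', inv_smul_smul]
  change Nat.card Q = 2
  by_contra hne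
  have hge3 : 2 < Fintype.card Q := by
    rw [← Nat.card_eq_fintype_card]
    omega
  obtain ⟨q₁, q₂, q₃, h12, h13, h23⟩ := Fintype.two_lt_card_iff.mp hge3
  -- indicators
  let O : Q → Ω → ℚ := fun q ω => if mk ω = q then 1 else 0
  have hOinv : ∀ q, ∀ h ∈ H, ∀ ω, O q (h • ω) = O q ω := by
    intro q h hh ω
    simp only [O, hmkinv h hh]
  let s : Q → ℚ := fun q => ∑ ω, O q ω
  have hspos : ∀ q, 0 < s q := by
    intro q
    obtain ⟨ω, hω⟩ := hmk q
    apply Finset.sum_pos'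
    · intro i _
      simp only [O]
      split_ifs <;> norm_num
    · refine ⟨ω, Finset.mem_univ _, ?_⟩
      simp [O, hω]
  have hOO : ∀ q ω, O q ω * O q ω = O q ω := by
    intro q ω
    simp only [O]
    split_ifs <;> norm_num
  have hOne : ∀ q q', q ≠ q' → ∀ ω, O q ω * O q' ω = 0 := by
    intro q q' hqq ω
    simp only [O]
    by_cases h5 : mk ω = q
    · have : mk ω ≠ q' := fun h6 => hqq (h5.symm.trans h6)
      simp [h5, hqq]
    · simp [h5]
  set s₁ := s q₁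
  set s₂ := s q₂
  set s₃ := s q₃
  have hs₁ : 0 < s₁ := hspos _
  have hs₂ : 0 < s₂ := hspos _
  have hs₃ : 0 < s₃ := hspos _
  let f : Ω → ℚ := fun ω => s₂ * O q₁ ω - s₁ * O q₂ ω
  let f' : Ω → ℚ := fun ω => s₃ * (O q₁ ω + O q₂ ω) - (s₁ + s₂) * O q₃ ω
  have hfinv : ∀ h ∈ H, ∀ ω, f (h • ω) = f ω := by
    intro h hh ω
    simp only [f, hOinv _ h hh]
  have hfinv' : ∀ h ∈ H, ∀ ω, f' (h • ω) = f' ω := by
    intro h hh ω
    simp only [f', hOinv _ h hh]
  have hsum1 : ∑ ω, O q₁ ω = s₁ := rfl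
  have hsum2 : ∑ ω, O q₂ ω = s₂ := rfl
  have hsum3 : ∑ ω, O q₃ ω = s₃ := rfl
  have hs : ∑ ω, f ω = 0 := by
    simp only [f, Finset.sum_sub_distrib, ← Finset.mul_sum, hsum1, hsum2]
    ring
  have hs' : ∑ ω, f' ω = 0 := by
    simp only [f', Finset.sum_sub_distrib, Finset.sum_add_distrib, ← Finset.mul_sum, hsum1, hsum2, hsum3]
    ring
  have hff : ∑ ω, f ω * f ω = s₂ ^ 2 * s₁ + s₁ ^ 2 * s₂ := by
    have : ∀ ω, f ω * f ω = s₂ ^ 2 * O q₁ ω + s₁ ^ 2 * O q₂ ω := by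
      intro ω
      simp only [f]
      have e1 := hOO q₁ ω
      have e2 := hOO q₂ ω
      have e3 := hOne q₁ q₂ h12 ω
      linear_combination s₂ ^ 2 * e1 + s₁ ^ 2 * e2 - 2 * s₁ * s₂ * e3
    simp only [this, Finset.sum_add_distrib, ← Finset.mul_sum, hsum1, hsum2]
  have hff' : ∑ ω, f' ω * f' ω = s₃ ^ 2 * (s₁ + s₂) + (s₁ + s₂) ^ 2 * s₃ := by
    have : ∀ ω, f' ω * f' ω = s₃ ^ 2 * (O q₁ ω + O q₂ ω) + (s₁ + s₂) ^ 2 * O q₃ ω := by
      intro ω
      simp only [f']
      have e1 := hOO q₁ ω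
      have e2 := hOO q₂ ω
      have e4 := hOO q₃ ω
      have e3 := hOne q₁ q₂ h12 ω
      have e5 := hOne q₁ q₃ h13 ω
      have e6 := hOne q₂ q₃ h23 ω
      linear_combination s₃ ^ 2 * e1 + s₃ ^ 2 * e2 + (s₁ + s₂) ^ 2 * e4 + 2 * s₃ ^ 2 * e3
        - 2 * s₃ * (s₁ + s₂) * e5 - 2 * s₃ * (s₁ + s₂) * e6
    simp only [this, Finset.sum_add_distrib, ← Finset.mul_sum, hsum1, hsum2, hsum3]
  have hfo : ∑ ω, f ω * f' ω = 0 := by
    have : ∀ ω, f ω * f' ω = s₂ * s₃ * O q₁ ω - s₁ * s₃ * O q₂ ω := by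
      intro ω
      simp only [f, f']
      have e1 := hOO q₁ ω
      have e2 := hOO q₂ ω
      have e3 := hOne q₁ q₂ h12 ω
      have e5 := hOne q₁ q₃ h13 ω
      have e6 := hOne q₂ q₃ h23 ω
      linear_combination s₂ * s₃ * e1 - s₁ * s₃ * e2 + (s₂ * s₃ - s₁ * s₃) * e3
        - s₂ * (s₁ + s₂) * e5 + s₁ * (s₁ + s₂) * e6
    simp only [this, Finset.sum_sub_distrib, ← Finset.mul_sum, hsum1, hsum2]
    ring
  -- at least three points
  have hcard3 : 3 ≤ Fintype.card Ω := by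
    obtain ⟨ω₁, hω₁⟩ := hmk q₁
    obtain ⟨ω₂, hω₂⟩ := hmk q₂
    obtain ⟨ω₃, hω₃⟩ := hmk q₃
    have hne12 : ω₁ ≠ ω₂ := fun h => h12 (by rw [← hω₁, ← hω₂, h])
    have hne13 : ω₁ ≠ ω₃ := fun h => h13 (by rw [← hω₁, ← hω₃, h])
    have hne23 : ω₂ ≠ ω₃ := fun h => h23 (by rw [← hω₂, ← hω₃, h])
    exact Fintype.two_lt_card_iff.mpr ⟨ω₁, ω₂, ω₃, hne12, hne13, hne23⟩
  have hbound := ortho_bound (G := G) h2' htr H (by rw [hidx, Nat.card_eq_fintype_card]) f f'
    hfinv hfinv' hs hs' (by rw [hff]; positivity) (by rw [hff']; positivity) hfo (by omega)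
  omega

end Cfsg.Agent.S3704
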