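import Mathlib
import Cfsg.Statements.S3707

set_option autoImplicit false
open Cfsg

namespace Cfsg.Agent.S3707

open MulAction
open scoped Pointwise

variable (G : Type*) {Ω : Type*} [Group G] [MulAction G Ω]

/-- Jordan sets. -/
def IsJ (J : Set Ω) : Prop :=
  ∀ x ∈ J, ∀ y ∈ J, ∃ g : G, (∀ z, z ∉ J → g • z = z) ∧ g • x = y

variable {G}

theorem IsJ.union {J₁ J₂ : Set Ω} (h₁ : IsJ G J₁) (h₂ : IsJ G J₂) (hne : (J₁ ∩ J₂).Nonempty) :
    IsJ G (J₁ ∪ J₂) := by
  obtain ⟨p, hp₁, hp₂⟩ := hne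
  have key : ∀ x ∈ J₁ ∪ J₂, ∃ g : G, (∀ z, z ∉ J₁ ∪ J₂ → g • z = z) ∧ g • x = p := by
    rintro x (hx | hx)
    · obtain ⟨g, hg, hgx⟩ := h₁ x hx p hp₁
      exact ⟨g, fun z hz => hg z (fun h => hz (Or.inl h)), hgx⟩
    · obtain ⟨g, hg, hgx⟩ := h₂ x hx p hp₂
      exact ⟨g, fun z hz => hg z (fun h => hz (Or.inr h)), hgx⟩
  intro x hx y hy
  obtain ⟨g, hg, hgx⟩ := key x hx
  obtain ⟨k, hk, hky⟩ := key y hy
  refine ⟨k⁻¹ * g, fun z hz => ?_, ?_⟩
  · rw [mul_smul, hg z hz, inv_smul_eq_iff, hk z hz]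
  · rw [mul_smul, hgx, inv_smul_eq_iff, hky]

theorem IsJ.smul {J : Set Ω} (h : IsJ G J) (g : G) : IsJ G (g • J) := by
  intro x hx y hy
  rw [Set.mem_smul_set_iff_inv_smul_mem] at hx hy
  obtain ⟨k, hk, hkx⟩ := h _ hx _ hy
  refine ⟨g * k * g⁻¹, fun z hz => ?_, ?_⟩
  · rw [Set.mem_smul_set_iff_inv_smul_mem] at hz
    rw [mul_smul, mul_smul, hk _ hz, smul_inv_smul]
  · rw [mul_smul, mul_smul, hkx, smul_inv_smul]

variable [Finite Ω]

/-- **Step A**: a nontrivial proper Jordan set in a primitive group yields 2-transitivity. -/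
theorem two_transitive (hprim : IsPreprimitive G Ω) {J : Set Ω} (hJ : IsJ G J) (h1 : 1 < J.ncard)
    (hne : J ≠ Set.univ) :
    ∀ {a b c d : Ω}, a ≠ b → c ≠ d → ∃ g : G, g • a = c ∧ g • b = d := by
  classical
  -- a maximal proper Jordan set
  obtain ⟨Y, hJY, hYmax⟩ := (Set.toFinite {Y : Set Ω | IsJ G Y ∧ J ⊆ Y ∧ Y ≠ Set.univ}).exists_le_maximal
    (a := J) ⟨hJ, subset_rfl, hne⟩
  obtain ⟨⟨hYJ, hJsub, hYne⟩, hYm⟩ := hYmax
  have hmax : ∀ Y' : Set Ω, IsJ G Y' → Y ⊆ Y' → Y' ≠ Set.univ → Y' = Y := by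
    intro Y' h1' h2' h3'
    exact le_antisymm (hYm ⟨h1', hJsub.trans h2', h3'⟩ h2') h2'
  have hYns : ¬ Y.Subsingleton := by
    intro hs
    have := (Set.ncard_le_one (Set.toFinite Y)).mpr (fun a ha b hb => hs ha hb)
    have h2 := Set.ncard_le_ncard hJsub (Set.toFinite _)
    omega
  have hYnon : Y.Nonempty := by
    by_contra hemp
    rw [Set.not_nonempty_iff_eq_empty] at hemp
    exact hYns (by rw [hemp]; exact Set.subsingleton_empty)
  -- `Y` is not a block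
  have hnb : ¬ IsBlock G Y := fun hb => by
    rcases hprim.isTrivialBlock_of_isBlock hb with h | h
    · exact hYns h
    · exact hYne h
  obtain ⟨g, hg1, hg2⟩ : ∃ g : G, g • Y ≠ Y ∧ (g • Y ∩ Y).Nonempty := by
    by_contra hcon
    push Not at hcon
    apply hnb
    rw [isBlock_iff_smul_eq_or_disjoint]
    intro g
    by_cases h : g • Y = Y
    · exact Or.inl h
    · right
      rw [Set.disjoint_iff_inter_eq_empty]
      exact Set.not_nonempty_iff_eq_empty.mp (fun h2 => h (by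
        by_contra h3
        exact (Set.not_nonempty_iff_eq_empty.mpr (hcon g h3)) h2))
  have hsub : ¬ g • Y ⊆ Y := fun h => hg1 (Set.eq_of_subset_of_ncard_le h
    (by rw [Set.ncard_smul_set]) (Set.toFinite _))
  have hun : Y ∪ g • Y = Set.univ := by
    by_contra hnt
    have := hmax (Y ∪ g • Y) (hYJ.union (hYJ.smul g) (by rwa [Set.inter_comm])) Set.subset_union_left hnt
    exact hsub (Set.subset_union_right.trans this.subset)
  -- `Z = Yᶜ`
  set Z : Set Ω := Yᶜ with hZdef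
  have hcard : ∀ S : Set Ω, S.ncard + Sᶜ.ncard = Nat.card Ω := fun S => Set.ncard_add_ncard_compl S
  have hZdisj : Disjoint (g • Z) Z := by
    rw [hZdef, Set.smul_set_compl, Set.disjoint_iff_inter_eq_empty]
    ext x
    simp only [Set.mem_inter_iff, Set.mem_compl_iff, Set.mem_empty_iff_false, iff_false, not_and, not_not]
    intro h
    have : x ∈ Y ∪ g • Y := by rw [hun]; trivial
    rcases this with h2 | h2
    · exact h2
    · exact absurd h2 h
  have hZcard : 2 * Z.ncard ≤ Nat.card Ω := by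
    have h3 := Set.ncard_union_eq hZdisj (Set.toFinite _) (Set.toFinite _)
    rw [Set.ncard_smul_set] at h3
    have h4 := hcard (g • Z ∪ Z)
    omega
  -- `Z` is a block
  have hZb : IsBlock G Z := by
    rw [isBlock_iff_smul_eq_or_disjoint]
    intro g'
    by_cases hd : Disjoint (g' • Z) Z
    · exact Or.inr hd
    · left
      rw [Set.not_disjoint_iff_nonempty_inter] at hd
      obtain ⟨q, hq1, hq2⟩ := hd
      have hYY : (g' • Y ∩ Y).Nonempty := by
        by_contra hemp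
        rw [Set.not_nonempty_iff_eq_empty] at hemp
        have h5 : g' • Z ∪ Z = Set.univ := by
          rw [hZdef, Set.smul_set_compl, ← Set.compl_inter, hemp, Set.compl_empty]
        have h6 := Set.ncard_union_add_ncard_inter (g' • Z) Z (Set.toFinite _) (Set.toFinite _)
        rw [h5, Set.ncard_smul_set, Set.ncard_univ] at h6
        have h7 : 0 < (g' • Z ∩ Z).ncard := (Set.ncard_pos (Set.toFinite _)).mpr ⟨q, hq1, hq2⟩
        omega
      have hnt : Y ∪ g' • Y ≠ Set.univ := by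
        intro hu
        have : q ∈ Y ∪ g' • Y := by rw [hu]; trivial
        rcases this with h | h
        · exact hq2 h
        · rw [hZdef, Set.smul_set_compl] at hq1
          exact hq1 h
      have h8 := hmax _ (hYJ.union (hYJ.smul g') (by rwa [Set.inter_comm])) Set.subset_union_left hnt
      have h9 : g' • Y ⊆ Y := Set.subset_union_right.trans h8.subset
      have h10 : g' • Y = Y := Set.eq_of_subset_of_ncard_le h9
        (by rw [Set.ncard_smul_set]) (Set.toFinite _)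
      rw [hZdef, Set.smul_set_compl, h10]
  have hZne : Z.Nonempty := by
    rw [hZdef, Set.nonempty_compl]
    exact hYne
  have hZs : Z.Subsingleton := by
    rcases hprim.isTrivialBlock_of_isBlock hZb with h | h
    · exact h
    · exfalso
      obtain ⟨y, hy⟩ := hYnon
      have : y ∈ Z := by rw [h]; trivial
      exact this hy
  obtain ⟨a₀, ha₀⟩ := hZne
  have hYa : ∀ x, x ≠ a₀ → x ∈ Y := by
    intro x hx
    by_contra hxY
    exact hx (hZs hxY ha₀)
  have haY : a₀ ∉ Y := ha₀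
  -- to a normal form
  have htr := hprim.toIsPretransitive
  intro a b c d hab hcd
  obtain ⟨g₁, hg₁⟩ := exists_smul_eq G a a₀
  obtain ⟨g₂, hg₂⟩ := exists_smul_eq G c a₀
  have hb1 : g₁ • b ≠ a₀ := fun h => hab (MulAction.injective g₁ (hg₁.trans h.symm))
  have hd1 : g₂ • d ≠ a₀ := fun h => hcd (MulAction.injective g₂ (hg₂.trans h.symm))
  obtain ⟨t, ht, htb⟩ := hYJ _ (hYa _ hb1) _ (hYa _ hd1)
  refine ⟨g₂⁻¹ * t * g₁, ?_, ?_⟩
  · rw [mul_smul, mul_smul, hg₁, ht _ haY, ← hg₂, inv_smul_smul]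
  · rw [mul_smul, mul_smul, htb, inv_smul_smul]

/-- Let G be a finite primitive permutation group on Ω of degree n and Γ ⊂ Ω a subset with 1 < #Γ ≤ n/2 such that the pointwise stabilizer of Ω ∖ Γ is transitive on Γ. Then G is 3-transitive on Ω. -/
theorem result {G Ω : Type*} [Group G] [Finite G] [MulAction G Ω] [FaithfulSMul G Ω] [Finite Ω] (hprim : MulAction.IsPreprimitive G Ω) (Γ : Set Ω) (h1 : 1 < Γ.ncard) (h2 : 2 * Γ.ncard ≤ Nat.card Ω) (htr : ∀ x ∈ Γ, ∀ y ∈ Γ, ∃ g : G, (∀ z ∉ Γ, g • z = z) ∧ g • x = y) : MulAction.IsMultiplyPretransitive G Ω 3 := by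
  classical
  have hcard : ∀ S : Set Ω, S.ncard + Sᶜ.ncard = Nat.card Ω := fun S => Set.ncard_add_ncard_compl S
  have hΓJ : IsJ G Γ := htr
  have hΓne : Γ ≠ Set.univ := by
    intro h
    rw [h, Set.ncard_univ] at h1 h2
    omega
  have h2t : ∀ {a b c d : Ω}, a ≠ b → c ≠ d → ∃ g : G, g • a = c ∧ g • b = d :=
    two_transitive hprim hΓJ h1 hΓne
  -- maximal Jordan set with complement of size at least 2
  have hΓc : 2 ≤ Γᶜ.ncard := by
    have := hcard Γ
    omega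
  obtain ⟨Y, hΓY, hYmax⟩ := (Set.toFinite {Y : Set Ω | IsJ G Y ∧ Γ ⊆ Y ∧ 2 ≤ Yᶜ.ncard}).exists_le_maximal
    (a := Γ) ⟨hΓJ, subset_rfl, hΓc⟩
  obtain ⟨⟨hYJ, hΓsub, hYc⟩, hYm⟩ := hYmax
  have hmax : ∀ Y' : Set Ω, IsJ G Y' → Y ⊆ Y' → 2 ≤ Y'ᶜ.ncard → Y' = Y := by
    intro Y' h1' h2' h3'
    exact le_antisymm (hYm ⟨h1', hΓsub.trans h2', h3'⟩ h2') h2'
  set Z : Set Ω := Yᶜ with hZdef
  have hYZ : ∀ x, x ∈ Y ∨ x ∈ Z := fun x => by
    by_cases h : x ∈ Y
    · exact Or.inl h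
    · exact Or.inr h
  -- Jordan sets crossing `Y`
  have hcross : ∀ J : Set Ω, IsJ G J → (J ∩ Y).Nonempty → (J ∩ Z).Nonempty → (Z \ J).ncard ≤ 1 := by
    intro J hJ hn1 hn2
    by_contra hc
    push Not at hc
    have hcomp : (Y ∪ J)ᶜ = Z \ J := by
      ext x
      simp only [hZdef, Set.mem_compl_iff, Set.mem_union, not_or, Set.mem_sdiff]
    have h3 := hmax (Y ∪ J) (hYJ.union hJ (by rwa [Set.inter_comm])) Set.subset_union_left
      (by rw [hcomp]; omega)
    obtain ⟨x, hx1, hx2⟩ := hn2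
    have : x ∈ Y := by rw [← h3]; exact Or.inr hx1
    exact hx2 this
  suffices hz2 : Z.ncard ≤ 2 by
    -- `Z = {a, b}`
    have hZ2 : Z.ncard = 2 := le_antisymm hz2 hYc
    obtain ⟨a, b, hab, hZab⟩ := Set.ncard_eq_two.mp hZ2
    have hYa : ∀ x, x ≠ a → x ≠ b → x ∈ Y := by
      intro x h1 h2
      rcases hYZ x with h | h
      · exact h
      · rw [hZab] at h
        rcases h with h | h
        · exact absurd h h1
        · exact absurd h h2
    have haZ : a ∉ Y := by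
      have : a ∈ Z := by rw [hZab]; exact Or.inl rfl
      exact this
    have hbZ : b ∉ Y := by
      have : b ∈ Z := by rw [hZab]; exact Or.inr rfl
      exact this
    have hYne : Y.Nonempty := by
      have : 0 < Γ.ncard := by omega
      obtain ⟨x, hx⟩ := (Set.ncard_pos (Set.toFinite _)).mp this
      exact ⟨x, hΓsub hx⟩
    obtain ⟨c, hc⟩ := hYne
    have hnorm : ∀ x : Fin 3 ↪ Ω, ∃ g : G, g • x 0 = a ∧ g • x 1 = b ∧ g • x 2 = c := by
      intro x
      have h01 : x 0 ≠ x 1 := fun h => by simpa using x.injective h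
      have h02 : x 0 ≠ x 2 := fun h => by simpa using x.injective h
      have h12 : x 1 ≠ x 2 := fun h => by simpa using x.injective h
      obtain ⟨g, hg0, hg1⟩ := h2t h01 hab
      have h3 : g • x 2 ∈ Y := hYa _
        (fun h => h02 (MulAction.injective g (hg0.trans h.symm)))
        (fun h => h12 (MulAction.injective g (hg1.trans h.symm)))
      obtain ⟨t, ht, ht2⟩ := hYJ _ h3 _ hc
      refine ⟨t * g, ?_, ?_, ?_⟩
      · rw [mul_smul, hg0, ht _ haZ]
      · rw [mul_smul, hg1, ht _ hbZ]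
      · rw [mul_smul, ht2]
    rw [MulAction.isMultiplyPretransitive_iff]
    intro x y
    obtain ⟨g, g0, g1, g2⟩ := hnorm x
    obtain ⟨k, k0, k1, k2⟩ := hnorm y
    refine ⟨k⁻¹ * g, ?_⟩
    ext i
    fin_cases i
    · change (k⁻¹ * g) • x 0 = y 0
      rw [mul_smul, g0, inv_smul_eq_iff, k0]
    · change (k⁻¹ * g) • x 1 = y 1
      rw [mul_smul, g1, inv_smul_eq_iff, k1]
    · change (k⁻¹ * g) • x 2 = y 2
      rw [mul_smul, g2, inv_smul_eq_iff, k2]
  -- now assume `z ≥ 3`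
  by_contra hz3
  push Not at hz3
  obtain ⟨u, hu, v, hv, huv⟩ := (Set.one_lt_ncard (Set.toFinite _)).mp h1
  obtain ⟨z₀, hz₀⟩ : Z.Nonempty := by
    rw [← Set.ncard_pos (Set.toFinite _)]; omega
  have hy₀ : u ∈ Y := hΓsub hu
  have hz₀y : z₀ ≠ u := fun h => hz₀ (h ▸ hy₀)
  obtain ⟨g, hgu, hgv⟩ := h2t huv hz₀y
  set Δ : Set Ω := g • Γ with hΔ
  have hΔJ : IsJ G Δ := hΓJ.smul g
  have hΔcard : Δ.ncard = Γ.ncard := Set.ncard_smul_set g Γ
  have hz₀Δ : z₀ ∈ Δ := by rw [hΔ, ← hgu]; exact Set.smul_mem_smul_set hu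
  have huΔ : u ∈ Δ := by rw [hΔ, ← hgv]; exact Set.smul_mem_smul_set hv
  have hcr := hcross Δ hΔJ ⟨u, huΔ, hy₀⟩ ⟨z₀, hz₀Δ, hz₀⟩
  -- sizes
  have hZsplit : (Z \ Δ).ncard + (Z ∩ Δ).ncard = Z.ncard := by
    rw [add_comm, Set.ncard_inter_add_ncard_sdiff_eq_ncard Z Δ (Set.toFinite _)]
  have hZΔsub : Z ∩ Δ ⊆ Δ \ {u} := by
    rintro x ⟨h1', h2'⟩
    refine ⟨h2', ?_⟩
    rintro rfl
    exact h1' hy₀
  have hΔu : (Δ \ {u}).ncard + 1 = Δ.ncard := Set.ncard_sdiff_singleton_add_one huΔ (Set.toFinite _)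
  have hZΔle := Set.ncard_le_ncard hZΔsub (Set.toFinite _)
  have hzΓ : Z.ncard ≤ Γ.ncard := by omega
  have hZΔ2 : 2 ≤ (Z ∩ Δ).ncard := by omega
  have hYc2 := hcard Y
  -- lines
  have hline : ∀ k : G, 2 ≤ (k • Z ∩ Z).ncard → k • Z = Z := by
    intro k hk
    have hYY : (Y ∩ k • Y).Nonempty := by
      by_contra hemp
      rw [Set.not_nonempty_iff_eq_empty] at hemp
      have h5 : k • Z ∪ Z = Set.univ := by
        rw [hZdef, Set.smul_set_compl, ← Set.compl_inter, Set.inter_comm, hemp, Set.compl_empty]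
      have h6 := Set.ncard_union_add_ncard_inter (k • Z) Z (Set.toFinite _) (Set.toFinite _)
      rw [h5, Set.ncard_smul_set, Set.ncard_univ] at h6
      omega
    have hcomp : (Y ∪ k • Y)ᶜ = k • Z ∩ Z := by
      rw [hZdef, Set.smul_set_compl, Set.compl_union, Set.inter_comm]
    have h8 := hmax _ (hYJ.union (hYJ.smul k) hYY) Set.subset_union_left (by rw [hcomp]; exact hk)
    have h9 : k • Y ⊆ Y := Set.subset_union_right.trans h8.subset
    have h10 : k • Y = Y := Set.eq_of_subset_of_ncard_le h9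
      (by rw [Set.ncard_smul_set]) (Set.toFinite _)
    rw [hZdef, Set.smul_set_compl, h10]
  have huniq : ∀ (k k' : G) (p q : Ω), p ≠ q → p ∈ k • Z → q ∈ k • Z → p ∈ k' • Z → q ∈ k' • Z →
      k • Z = k' • Z := by
    intro k k' p q hpq h1' h2' h3' h4'
    have hmem : ∀ x, x ∈ k • Z → x ∈ k' • Z → k'⁻¹ • x ∈ (k'⁻¹ * k) • Z ∩ Z := by
      intro x hx hx'
      constructor
      · rw [mul_smul]
        exact Set.smul_mem_smul_set hx
      · exact Set.mem_smul_set_iff_inv_smul_mem.mp hx'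
    have hsub2 : {k'⁻¹ • p, k'⁻¹ • q} ⊆ (k'⁻¹ * k) • Z ∩ Z := by
      rintro x (rfl | rfl)
      · exact hmem _ h1' h3'
      · exact hmem _ h2' h4'
    have hcard2 : ({k'⁻¹ • p, k'⁻¹ • q} : Set Ω).ncard = 2 :=
      Set.ncard_pair (fun h => hpq (MulAction.injective _ h))
    have h5 := hline (k'⁻¹ * k) (by
      rw [← hcard2]; exact Set.ncard_le_ncard hsub2 (Set.toFinite _))
    rw [mul_smul] at h5
    have h6 := congrArg (fun S : Set Ω => k' • S) h5
    simpa [smul_smul] using h6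
  obtain ⟨z₁, hz₁, z₂, hz₂, hz₁₂⟩ := (Set.one_lt_ncard (Set.toFinite _)).mp
    (by omega : 1 < Z.ncard)
  have hexists : ∀ p q : Ω, p ≠ q → ∃ k : G, p ∈ k • Z ∧ q ∈ k • Z := by
    intro p q hpq
    obtain ⟨k, hk1, hk2⟩ := h2t hz₁₂ hpq
    refine ⟨k, ?_, ?_⟩
    · rw [← hk1]; exact Set.smul_mem_smul_set hz₁
    · rw [← hk2]; exact Set.smul_mem_smul_set hz₂
  -- a line with two points outside `Δ` misses `Δ`
  have hmiss : ∀ (k : G) (p q : Ω), p ≠ q → p ∈ k • Z → q ∈ k • Z → p ∉ Δ → q ∉ Δ →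
      ∀ x ∈ k • Z, x ∉ Δ := by
    intro k p q hpq hp hq hpΔ hqΔ x hx hxΔ
    have hnot : ¬ Δ ⊆ k • Z := by
      intro hsub
      have h5 : k • Z = Z := hline k (by
        refine hZΔ2.trans (Set.ncard_le_ncard ?_ (Set.toFinite _))
        rintro a ⟨h1', h2'⟩
        exact ⟨hsub h2', h1'⟩)
      have : u ∈ Z := by rw [← h5]; exact hsub huΔ
      exact this hy₀
    obtain ⟨x', hx', hx'k⟩ := Set.not_subset.mp hnot
    obtain ⟨t, ht, htx⟩ := hΔJ x hxΔ x' hx'
    have hp' : p ∈ (t * k) • Z := by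
      rw [mul_smul, ← ht p hpΔ]; exact Set.smul_mem_smul_set hp
    have hq' : q ∈ (t * k) • Z := by
      rw [mul_smul, ← ht q hqΔ]; exact Set.smul_mem_smul_set hq
    have h6 := huniq k (t * k) p q hpq hp hq hp' hq'
    apply hx'k
    rw [h6, mul_smul, ← htx]
    exact Set.smul_mem_smul_set hx
  -- counting
  have hthird : ∀ w : Ω, w ∈ Δᶜ → ∃ (k : G) (p : Ω), u ∈ k • Z ∧ w ∈ k • Z ∧ p ∈ k • Z ∧ p ≠ u ∧ p ≠ w := by
    intro w hw
    have huw : u ≠ w := fun h => hw (h ▸ huΔ)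
    obtain ⟨k, hk1, hk2⟩ := hexists u w huw
    have hlt : ({u, w} : Set Ω).ncard < (k • Z).ncard := by
      rw [Set.ncard_pair huw, Set.ncard_smul_set]
      exact hz3
    obtain ⟨p, hp1, hp2⟩ := Set.exists_mem_notMem_of_ncard_lt_ncard hlt (Set.toFinite _)
    refine ⟨k, p, hk1, hk2, hp1, fun h => hp2 (Or.inl h), fun h => hp2 (Or.inr h)⟩
  choose! k p hk1 hk2 hk3 hk4 hk5 using hthird
  have hle : (Δᶜ).ncard ≤ (Δ \ {u}).ncard := by
    apply Set.ncard_le_ncard_of_injOn p _ _ (Set.toFinite _)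
    · intro w hw
      refine ⟨?_, hk4 w hw⟩
      by_contra hpw
      exact hmiss (k w) w (p w) (Ne.symm (hk5 w hw)) (hk2 w hw) (hk3 w hw) hw hpw u (hk1 w hw) huΔ
    · intro w hw w' hw' heq
      by_contra hne
      have h7 := huniq (k w) (k w') u (p w) (Ne.symm (hk4 w hw)) (hk1 w hw) (hk3 w hw)
        (hk1 w' hw') (heq ▸ hk3 w' hw')
      have h8 : w' ∈ k w • Z := by rw [h7]; exact hk2 w' hw'
      exact hmiss (k w) w w' hne (hk2 w hw) h8 hw hw' u (hk1 w hw) huΔ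
  have hcΔ := hcard Δ
  omega

end Cfsg.Agent.S3707
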