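import Mathlib
import Cfsg.Statements.S3733

set_option autoImplicit false
open Cfsg

namespace Cfsg.Agent.S3733

theorem core {Γ V ι : Type*} [Group Γ] [Fintype Γ] [DecidableEq Γ] [CommGroup V] [DecidableEq ι]
    (φ : Γ →* MulAut V) (s : Finset ι) (H : ι → Subgroup Γ) (hne : s.Nonempty)
    (hpart : ∀ a : Γ, a ≠ 1 → ∃! i, i ∈ s ∧ a ∈ H i)
    (hfix : ∀ i ∈ s, ∀ v : V, (∀ b ∈ H i, φ b v = v) → v = 1) (v : V) :
    v ^ (s.card - 1) = 1 := by
  classical
  let N : Subgroup Γ → V := fun K => ∏ x ∈ Finset.univ.filter (· ∈ K), φ x v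
  have hNfix : ∀ K : Subgroup Γ, ∀ b ∈ K, φ b (N K) = N K := by
    intro K b hb
    show φ b (∏ x ∈ Finset.univ.filter (· ∈ K), φ x v) = ∏ x ∈ Finset.univ.filter (· ∈ K), φ x v
    rw [map_prod]
    apply Finset.prod_bij (fun x _ => b * x)
    · intro x hx
      simp only [Finset.mem_filter, Finset.mem_univ, true_and] at hx ⊢
      exact mul_mem hb hx
    · intro x _ y _ h
      exact mul_left_cancel h
    · intro y hy
      simp only [Finset.mem_filter, Finset.mem_univ, true_and] at hy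
      refine ⟨b⁻¹ * y, ?_, by group⟩
      simp only [Finset.mem_filter, Finset.mem_univ, true_and]
      exact mul_mem (inv_mem hb) hy
    · intro x _
      rw [map_mul]
      rfl
  have hN1 : ∀ i ∈ s, N (H i) = 1 := fun i hi => hfix i hi _ (fun b hb => hNfix _ b hb)
  have hNtop : N ⊤ = 1 := by
    obtain ⟨i, hi⟩ := hne
    exact hfix i hi _ (fun b _ => hNfix ⊤ b (Subgroup.mem_top b))
  let D : ι → Finset Γ := fun i => Finset.univ.filter (fun x => x ∈ H i ∧ x ≠ 1)
  have hsplit : ∀ K : Subgroup Γ, N K = v * ∏ x ∈ (Finset.univ.filter (fun x => x ∈ K ∧ x ≠ 1)), φ x v := by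
    intro K
    have h1 : (Finset.univ.filter (· ∈ K)) = insert 1 (Finset.univ.filter (fun x => x ∈ K ∧ x ≠ 1)) := by
      ext x
      simp only [Finset.mem_filter, Finset.mem_univ, true_and, Finset.mem_insert]
      by_cases hx : x = 1
      · simp [hx, one_mem]
      · simp [hx]
    show ∏ x ∈ Finset.univ.filter (· ∈ K), φ x v = _
    rw [h1, Finset.prod_insert (by simp)]
    simp
  have hD : ∀ i ∈ s, ∏ x ∈ D i, φ x v = v⁻¹ := by
    intro i hi
    have h := hsplit (H i)
    rw [hN1 i hi] at h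
    exact (eq_inv_of_mul_eq_one_right h.symm)
  have hDtop : ∏ x ∈ (Finset.univ.filter (fun x : Γ => x ∈ (⊤ : Subgroup Γ) ∧ x ≠ 1)), φ x v = v⁻¹ := by
    have h := hsplit ⊤
    rw [hNtop] at h
    exact (eq_inv_of_mul_eq_one_right h.symm)
  have hunion : (Finset.univ.filter (fun x : Γ => x ∈ (⊤ : Subgroup Γ) ∧ x ≠ 1)) = s.biUnion D := by
    ext x
    simp only [Finset.mem_filter, Finset.mem_univ, true_and, Subgroup.mem_top, Finset.mem_biUnion, D]
    constructor
    · intro hx
      obtain ⟨i, ⟨hi, hxi⟩, _⟩ := hpart x hx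
      exact ⟨i, hi, hxi, hx⟩
    · rintro ⟨i, _, _, hx⟩
      exact hx
  have hdisj : (s : Set ι).PairwiseDisjoint D := by
    intro i hi j hj hij
    rw [Function.onFun, Finset.disjoint_left]
    intro x hxi hxj
    simp only [D, Finset.mem_filter, Finset.mem_univ, true_and] at hxi hxj
    exact hij ((hpart x hxi.2).unique ⟨hi, hxi.1⟩ ⟨hj, hxj.1⟩)
  have hprod : v⁻¹ = (v⁻¹) ^ s.card := by
    calc v⁻¹ = ∏ x ∈ (Finset.univ.filter (fun x : Γ => x ∈ (⊤ : Subgroup Γ) ∧ x ≠ 1)), φ x v := hDtop.symm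
      _ = ∏ i ∈ s, ∏ x ∈ D i, φ x v := by rw [hunion, Finset.prod_biUnion hdisj]
      _ = ∏ i ∈ s, v⁻¹ := Finset.prod_congr rfl hD
      _ = (v⁻¹) ^ s.card := by rw [Finset.prod_const]
  have hcard : 1 ≤ s.card := Finset.card_pos.mpr hne
  have h2 : (v⁻¹) ^ (s.card - 1) = 1 := by
    have e : s.card = (s.card - 1) + 1 := by omega
    have h3 : (v⁻¹) ^ (s.card - 1) * v⁻¹ = 1 * v⁻¹ := by
      rw [← pow_succ, ← e, one_mul]
      exact hprod.symm
    exact mul_right_cancel h3
  rw [inv_pow] at h2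
  exact inv_eq_one.mp h2

/-- Let A and V be subgroups of a finite group with V abelian and nontrivial and A normalizing V. Suppose a nonempty finite family of proper subgroups of A partitions A: every non-identity element of A lies in exactly one member. If the number of members minus one is coprime to the order of V, then some member B of the family has a non-identity fixed point on V, that is V ∩ C(B) ≠ 1. -/
theorem result {G : Type*} [Group G] [Finite G] (A V : Subgroup G) (hVab : IsMulCommutative V) (hV : V ≠ ⊥) (hAV : A ≤ Subgroup.normalizer (V : Set G)) (𝒜 : Finset (Subgroup G)) (hne : 𝒜.Nonempty) (hprop : ∀ B ∈ 𝒜, B < A) (hpart : ∀ a ∈ A, a ≠ 1 → ∃! B, B ∈ 𝒜 ∧ a ∈ B) (hk : (𝒜.card - 1).Coprime (Nat.card V)) : ∃ B ∈ 𝒜, V ⊓ Subgroup.centralizer (B : Set G) ≠ ⊥ := by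
  classical
  by_contra hcon
  push Not at hcon
  haveI := Fintype.ofFinite A
  letI : CommGroup V := { (inferInstance : Group V) with mul_comm := fun a b => mul_comm' a b }
  let φ : A →* MulAut V := (Subgroup.normalizerMonoidHom V).comp (Subgroup.inclusion hAV)
  have hφ : ∀ (a : A) (v : V), ((φ a v : V) : G) = (a : G) * (v : G) * (a : G)⁻¹ := by
    intro a v
    rfl
  have hmain : ∀ v : V, v ^ (𝒜.card - 1) = 1 := by
    intro v
    apply core φ 𝒜 (fun B => B.subgroupOf A) hne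
    · intro a ha1
      have ha1' : (a : G) ≠ 1 := fun h => ha1 (Subtype.ext h)
      obtain ⟨B, ⟨hB, haB⟩, huniq⟩ := hpart a a.2 ha1'
      refine ⟨B, ⟨hB, Subgroup.mem_subgroupOf.mpr haB⟩, ?_⟩
      rintro C ⟨hC, haC⟩
      exact huniq C ⟨hC, Subgroup.mem_subgroupOf.mp haC⟩
    · intro B hB v hv
      have hmem : (v : G) ∈ V ⊓ Subgroup.centralizer (B : Set G) := by
        refine Subgroup.mem_inf.mpr ⟨v.2, ?_⟩
        rw [Subgroup.mem_centralizer_iff]
        intro b hb
        have hbA : b ∈ A := (hprop B hB).le hb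
        have h1 := hv ⟨b, hbA⟩ (Subgroup.mem_subgroupOf.mpr hb)
        have h2 := congrArg (Subtype.val) h1
        rw [hφ] at h2
        simp only at h2
        calc b * (v : G) = (b * (v : G) * b⁻¹) * b := by group
          _ = (v : G) * b := by rw [h2]
      rw [hcon B hB] at hmem
      exact Subtype.ext (Subgroup.mem_bot.mp hmem)
  apply hV
  rw [eq_bot_iff]
  intro x hx
  have h1 : (⟨x, hx⟩ : V) ^ (𝒜.card - 1) = 1 := hmain ⟨x, hx⟩
  have h2 : (⟨x, hx⟩ : V) ^ (Nat.card V) = 1 := pow_card_eq_one'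
  have h3 : orderOf (⟨x, hx⟩ : V) ∣ Nat.gcd (𝒜.card - 1) (Nat.card V) :=
    Nat.dvd_gcd (orderOf_dvd_of_pow_eq_one h1) (orderOf_dvd_of_pow_eq_one h2)
  rw [hk, Nat.dvd_one, orderOf_eq_one_iff] at h3
  rw [Subgroup.mem_bot]
  exact congrArg Subtype.val h3

end Cfsg.Agent.S3733
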