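import Mathlib
import Cfsg.Statements.S3734
import Cfsg.Agent.Lib.CoprimeHyper
import Cfsg.Agent.Lib.Glauberman
import Cfsg.Agent.Lib.Glauberman2
import Cfsg.Agent.Lib.LocalTools
import Cfsg.Agent.Lib.CoprimeInv

set_option autoImplicit false
set_option linter.unusedVariables false
set_option linter.style.haveILetI false
open Cfsg

namespace Cfsg.Agent.S3734

open Cfsg.Agent.Lib Cfsg.Agent.Lib.CoprimeHyper
open scoped commutatorElement

/-- A finite noncyclic abelian group has two independent elements of prime order. -/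
theorem exists_two_indep {C : Type*} [CommGroup C] [Finite C] (h : ¬ IsCyclic C) :
    ∃ t : ℕ, t.Prime ∧ ∃ x y : C, x ^ t = 1 ∧ y ^ t = 1 ∧ x ≠ 1 ∧ y ∉ Subgroup.zpowers x := by
  classical
  have hexp : Monoid.ExponentExists C := Monoid.ExponentExists.of_finite
  obtain ⟨g, hg⟩ := Monoid.exists_orderOf_eq_exponent hexp
  have hne : Subgroup.zpowers g ≠ ⊤ := by
    intro htop
    apply h
    refine ⟨⟨g, fun x => ?_⟩⟩
    have hx : x ∈ Subgroup.zpowers g := by
      rw [htop]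
      trivial
    exact hx
  have hidx : (Subgroup.zpowers g).index ≠ 1 := fun h1 => hne (Subgroup.index_eq_one.mp h1)
  obtain ⟨t, ht, htd⟩ := Nat.exists_prime_and_dvd hidx
  haveI : Fact t.Prime := ⟨ht⟩
  have htq : t ∣ Nat.card (C ⧸ Subgroup.zpowers g) := htd
  obtain ⟨z, hz⟩ := exists_prime_orderOf_dvd_card' t htq
  obtain ⟨w, rfl⟩ := QuotientGroup.mk_surjective z
  have hw : w ∉ Subgroup.zpowers g := by
    intro hmem
    have h1 : ((w : C) : C ⧸ Subgroup.zpowers g) = 1 := (QuotientGroup.eq_one_iff w).mpr hmem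
    rw [h1, orderOf_one] at hz
    exact ht.one_lt.ne hz
  have hwt : w ^ t ∈ Subgroup.zpowers g := by
    have h1 : ((w : C) : C ⧸ Subgroup.zpowers g) ^ t = 1 := by
      rw [← hz]
      exact pow_orderOf_eq_one _
    rw [← QuotientGroup.mk_pow] at h1
    exact (QuotientGroup.eq_one_iff _).mp h1
  rw [← mem_powers_iff_mem_zpowers, Submonoid.mem_powers_iff] at hwt
  obtain ⟨k, hk⟩ := hwt
  have hcard : t ∣ Nat.card C := by
    exact htd.trans (Subgroup.index_dvd_card _)
  obtain ⟨z', hz'⟩ := exists_prime_orderOf_dvd_card' t hcard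
  have hte : t ∣ Monoid.exponent C := by
    rw [← hz']
    exact Monoid.order_dvd_exponent z'
  obtain ⟨e₁, he₁⟩ := hte
  have he0 : Monoid.exponent C ≠ 0 := Monoid.exponent_ne_zero_of_finite
  have he₁0 : 0 < e₁ := by
    rcases Nat.eq_zero_or_pos e₁ with h0 | h0
    · rw [h0, mul_zero] at he₁
      exact absurd he₁ he0
    · exact h0
  have hkt : t ∣ k := by
    have h1 : g ^ (k * e₁) = 1 := by
      rw [pow_mul, hk, ← pow_mul, ← he₁]
      exact Monoid.pow_exponent_eq_one w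
    have h2 : orderOf g ∣ k * e₁ := orderOf_dvd_of_pow_eq_one h1
    rw [hg, he₁, mul_comm t] at h2
    rw [mul_comm k] at h2
    exact Nat.dvd_of_mul_dvd_mul_left he₁0 h2
  obtain ⟨m, rfl⟩ := hkt
  refine ⟨t, ht, g ^ e₁, w * (g ^ m)⁻¹, ?_, ?_, ?_, ?_⟩
  · rw [← pow_mul, mul_comm, ← he₁]
    exact Monoid.pow_exponent_eq_one g
  · rw [mul_pow, inv_pow, ← hk, ← pow_mul, mul_comm m, mul_inv_cancel]
  · apply pow_ne_one_of_lt_orderOf he₁0.ne'
    rw [hg, he₁]
    have := ht.two_le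
    nlinarith
  · intro hmem
    have h1 : g ^ e₁ ∈ Subgroup.zpowers g := Subgroup.npow_mem_zpowers g e₁
    have h2 : Subgroup.zpowers (g ^ e₁) ≤ Subgroup.zpowers g := Subgroup.zpowers_le.mpr h1
    apply hw
    have h3 := h2 hmem
    have h4 : w = (w * (g ^ m)⁻¹) * g ^ m := by group
    rw [h4]
    exact Subgroup.mul_mem _ h3 (Subgroup.npow_mem_zpowers g m)

/-- An abelian group acting coprimely and without fixed points on an abelian group is cyclic. -/
theorem isCyclic_of_fpf {C W : Type*} [CommGroup C] [CommGroup W] [Finite C] [Finite W]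
    (ψ : C →* MulAut W) (hcop : (Nat.card C).Coprime (Nat.card W)) (hnt : Nontrivial W)
    (hfpf : ∀ c : C, c ≠ 1 → ∀ u : W, u ≠ 1 → ψ c u ≠ u) : IsCyclic C := by
  classical
  by_contra hnc
  obtain ⟨t, ht, x, y, hx, hy, hx1, hyx⟩ := exists_two_indep hnc
  haveI : Fact t.Prime := ⟨ht⟩
  obtain ⟨v, hv⟩ := exists_ne (1 : W)
  have hnorm : ∀ c : C, c ^ t = 1 → c ≠ 1 → normOf t (ψ c) v = 1 := by
    intro c hc hc1
    by_contra hne
    apply hfpf c hc1 _ hne
    apply normOf_fixed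
    rw [← map_pow, hc, map_one]
  have hy1 : y ≠ 1 := by
    rintro rfl
    exact hyx (Subgroup.one_mem _)
  have hci : ∀ i : ZMod t, x * y ^ i.val ≠ 1 := by
    intro i hi
    by_cases hi0 : i = 0
    · subst hi0
      simp [ZMod.val_zero] at hi
      exact hx1 hi
    · apply hyx
      have h1 : y ^ i.val = x⁻¹ := by
        rw [eq_inv_iff_mul_eq_one, mul_comm]
        exact hi
      have h2 : (y ^ i.val) ^ (i⁻¹).val = y := by
        rw [← pow_val_mul hy, inv_mul_cancel₀ hi0, ZMod.val_one_eq_one_mod,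
          Nat.mod_eq_of_lt ht.one_lt, pow_one]
      rw [← h2, h1]
      exact Subgroup.pow_mem _ (Subgroup.inv_mem _ (Subgroup.mem_zpowers x)) _
  have hid := rank_two_identity (p := t) (x := ψ x) (y := ψ y)
    (by rw [← map_mul, ← map_mul, mul_comm]) (by rw [← map_pow, hx, map_one])
    (by rw [← map_pow, hy, map_one]) v
  have h3 : ∀ i : ZMod t, normOf t (ψ x * ψ y ^ i.val) v = 1 := by
    intro i
    have h4 := hnorm (x * y ^ i.val) (by
      rw [mul_pow, hx, one_mul, ← pow_mul, mul_comm, pow_mul, hy, one_pow]) (hci i)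
    rwa [map_mul, map_pow] at h4
  rw [hnorm y hy hy1] at hid
  simp only [h3, Finset.prod_const_one, mul_one] at hid
  have h4 : normOf t (ψ x) (1 : W) = 1 := by
    simp [normOf]
  rw [h4, mul_one] at hid
  have hvp : v ^ t = 1 := hid.symm
  have hord : orderOf v = t := orderOf_eq_prime hvp hv
  have hordx : orderOf x = t := orderOf_eq_prime hx hx1
  have h5 : t ∣ Nat.card W := hord ▸ orderOf_dvd_natCard v
  have h6 : t ∣ Nat.card C := hordx ▸ orderOf_dvd_natCard x
  exact ht.one_lt.ne' (Nat.eq_one_of_dvd_coprimes hcop h6 h5)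

/-- **Fixed points of co-cyclic subgroups.** -/
theorem exists_cocyclic_fixed {A W : Type*} [CommGroup A] [CommGroup W] [Finite A] [Finite W]
    (φ : A →* MulAut W) (hcop : (Nat.card A).Coprime (Nat.card W)) (hnt : Nontrivial W) :
    ∃ B : Subgroup A, (∃ a : A, B ⊔ Subgroup.zpowers a = ⊤) ∧ ∃ v : W, v ≠ 1 ∧ ∀ b ∈ B, φ b v = v := by
  classical
  let S : Set (Subgroup A) := {D | ∃ v : W, v ≠ 1 ∧ ∀ d ∈ D, φ d v = v}
  have hbot : (⊥ : Subgroup A) ∈ S := by
    obtain ⟨v, hv⟩ := exists_ne (1 : W)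
    refine ⟨v, hv, ?_⟩
    intro d hd
    rw [Subgroup.mem_bot] at hd
    simp [hd]
  obtain ⟨D, hDmax⟩ : ∃ D, Maximal (· ∈ S) D := (Set.toFinite S).exists_maximal ⟨⊥, hbot⟩
  obtain ⟨v, hv1, hvD⟩ := hDmax.prop
  have hfree : ∀ c : A, c ∉ D → ∀ u : W, u ≠ 1 → (∀ d ∈ D, φ d u = u) → φ c u ≠ u := by
    intro c hc u hu hud hcu
    have hmem : D ⊔ Subgroup.zpowers c ∈ S := by
      refine ⟨u, hu, ?_⟩
      have hle : D ⊔ Subgroup.zpowers c ≤ fixSub φ u := by
        refine sup_le (fun d hd => hud d hd) ?_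
        rw [Subgroup.zpowers_le]
        exact hcu
      exact fun d hd => hle hd
    have := hDmax.le_of_ge hmem le_sup_left
    exact hc (this (le_sup_right (a := D) (Subgroup.mem_zpowers c)))
  -- the fixed points of `D`
  let W₁ : Subgroup W :=
    { carrier := {u | ∀ d ∈ D, φ d u = u}
      one_mem' := fun d _ => map_one (φ d)
      mul_mem' := fun {a b} ha hb d hd => by rw [map_mul, ha d hd, hb d hd]
      inv_mem' := fun {a} ha d hd => by rw [map_inv, ha d hd] }
  have hW₁a : ∀ (a : A) (u : W), u ∈ W₁ → φ a u ∈ W₁ := by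
    intro a u hu d hd
    have h1 : φ d (φ a u) = (φ d * φ a) u := rfl
    rw [h1, ← map_mul, mul_comm, map_mul, MulAut.mul_apply, hu d hd]
  let ρ : A →* MulAut W₁ :=
    { toFun := fun a =>
        { toFun := fun u => ⟨φ a u, hW₁a a u u.2⟩
          invFun := fun u => ⟨φ a⁻¹ u, hW₁a a⁻¹ u u.2⟩
          left_inv := fun u => by
            apply Subtype.ext
            show φ a⁻¹ (φ a u) = u
            rw [map_inv]
            simp
          right_inv := fun u => by
            apply Subtype.ext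
            show φ a (φ a⁻¹ u) = u
            rw [map_inv]
            simp
          map_mul' := fun u u' => by
            apply Subtype.ext
            show φ a (u * u') = φ a u * φ a u'
            rw [map_mul] }
      map_one' := by
        ext u
        show φ 1 u = u
        simp
      map_mul' := fun a b => by
        ext u
        show φ (a * b) u = φ a (φ b u)
        rw [map_mul]
        rfl }
  have hρ : ∀ a (u : W₁), ((ρ a u : W₁) : W) = φ a u := fun a u => rfl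
  have hDker : D ≤ ρ.ker := by
    intro d hd
    rw [MonoidHom.mem_ker]
    ext u
    exact u.2 d hd
  let ψ : (A ⧸ D) →* MulAut W₁ := QuotientGroup.lift D ρ hDker
  have hψ : ∀ (a : A) (u : W₁), ψ (a : A ⧸ D) u = ρ a u := fun a u => rfl
  have hW₁nt : Nontrivial W₁ := ⟨⟨⟨v, hvD⟩, 1, fun h => hv1 (congrArg Subtype.val h)⟩⟩
  have hcop₁ : (Nat.card (A ⧸ D)).Coprime (Nat.card W₁) := by
    refine Nat.Coprime.coprime_dvd_left ?_ (Nat.Coprime.coprime_dvd_right ?_ hcop)
    · exact D.index_dvd_card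
    · exact Subgroup.card_subgroup_dvd_card W₁
  have hcyc : IsCyclic (A ⧸ D) := by
    apply isCyclic_of_fpf ψ hcop₁ hW₁nt
    intro c hc u hu h
    obtain ⟨c', rfl⟩ := QuotientGroup.mk_surjective c
    have hc' : c' ∉ D := fun hm => hc ((QuotientGroup.eq_one_iff c').mpr hm)
    apply hfree c' hc' (u : W) (fun h1 => hu (Subtype.ext h1)) u.2
    have h2 := congrArg Subtype.val h
    rw [hψ, hρ] at h2
    exact h2
  obtain ⟨g, hg⟩ := hcyc.exists_generator
  obtain ⟨a, rfl⟩ := QuotientGroup.mk_surjective g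
  refine ⟨D, ⟨a, ?_⟩, v, hv1, hvD⟩
  rw [eq_top_iff]
  intro z _
  obtain ⟨n, hn⟩ := Subgroup.mem_zpowers_iff.mp (hg (z : A ⧸ D))
  have h1 : ((a ^ n : A) : A ⧸ D) = (z : A ⧸ D) := by
    rw [QuotientGroup.mk_zpow]
    exact hn
  have h2 : (a ^ n)⁻¹ * z ∈ D := QuotientGroup.eq.mp h1
  have h3 : z = (a ^ n) * ((a ^ n)⁻¹ * z) := by group
  rw [h3, mul_comm]
  exact Subgroup.mul_mem_sup h2 (Subgroup.zpow_mem _ (Subgroup.mem_zpowers a) n)

section lifts

variable {H : Type*} [Group H]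

/-- Abstract section lemma. -/
theorem exists_fixed_of_section {A' Gb : Type*} [CommGroup A'] [Group Gb] [Finite A'] [Finite Gb]
    {q : ℕ} [Fact q.Prime] (ψ : A' →* Gb)
    (Nb : Subgroup Gb) (hN : IsPGroup q Nb) (hNne : Nb ≠ ⊥)
    (hcop : (Nat.card A').Coprime (Nat.card Nb))
    (hψ : ∀ a, ψ a ∈ Subgroup.normalizer (Nb : Set Gb)) :
    ∃ B : Subgroup A', (∃ a : A', B ⊔ Subgroup.zpowers a = ⊤) ∧
      ∃ v ∈ Nb, v ≠ 1 ∧ ∀ b ∈ B, ψ b * v = v * ψ b := by
  classical
  haveI : Nontrivial ↥Nb := (Subgroup.nontrivial_iff_ne_bot Nb).2 hNne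
  let W : Subgroup Gb := (Subgroup.center ↥Nb).map Nb.subtype
  have hWle : W ≤ Nb := by
    rintro _ ⟨x, _, rfl⟩
    exact x.2
  have hWmem : ∀ w ∈ W, ∀ n ∈ Nb, w * n = n * w := by
    rintro _ ⟨x, hx, rfl⟩ n hn
    have := (Subgroup.mem_center_iff.1 hx) ⟨n, hn⟩
    exact (congrArg Subtype.val this).symm
  have hWmem' : ∀ w ∈ Nb, (∀ n ∈ Nb, w * n = n * w) → w ∈ W := by
    intro w hw h
    refine ⟨⟨w, hw⟩, Subgroup.mem_center_iff.2 ?_, rfl⟩
    rintro ⟨n, hn⟩
    exact Subtype.ext (h n hn).symm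
  have hWnt : Nontrivial ↥W := by
    have h1 : Nontrivial ↥(Subgroup.center ↥Nb) := hN.center_nontrivial
    have h2 : (Subgroup.center ↥Nb) ≠ ⊥ := (Subgroup.nontrivial_iff_ne_bot _).1 h1
    refine (Subgroup.nontrivial_iff_ne_bot _).2 ?_
    intro hbot
    rw [Subgroup.map_eq_bot_iff_of_injective _ Nb.subtype_injective] at hbot
    exact h2 hbot
  have hψN : ∀ a, ∀ n ∈ Nb, ψ a * n * (ψ a)⁻¹ ∈ Nb := by
    intro a n hn
    exact (Subgroup.mem_normalizer_iff.1 (hψ a) n).1 hn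
  have hψN' : ∀ a, ∀ n ∈ Nb, (ψ a)⁻¹ * n * ψ a ∈ Nb := by
    intro a n hn
    have := hψN a⁻¹ n hn
    simpa using this
  have hψW : ∀ a, ψ a ∈ Subgroup.normalizer (W : Set Gb) := by
    have key : ∀ a, ∀ w ∈ W, ψ a * w * (ψ a)⁻¹ ∈ W := by
      intro a w hw
      apply hWmem' _ (hψN a w (hWle hw))
      intro n hn
      have h1 := hWmem w hw _ (hψN' a n hn)
      have e1 : ψ a * w * (ψ a)⁻¹ * n = ψ a * (w * ((ψ a)⁻¹ * n * ψ a)) * (ψ a)⁻¹ := by group
      have e2 : n * (ψ a * w * (ψ a)⁻¹) = ψ a * (((ψ a)⁻¹ * n * ψ a) * w) * (ψ a)⁻¹ := by group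
      rw [e1, e2, h1]
    intro a
    rw [Subgroup.mem_normalizer_iff]
    intro w
    refine ⟨fun hw => key a w hw, fun hw => ?_⟩
    have := key a⁻¹ _ hw
    simpa [mul_assoc] using this
  letI instW : CommGroup ↥W :=
    { (inferInstance : Group ↥W) with
      mul_comm := by
        rintro ⟨a, ha⟩ ⟨b, hb⟩
        exact Subtype.ext (hWmem a ha b (hWle hb)) }
  let φ : A' →* MulAut ↥W := W.normalizerMonoidHom.comp (ψ.codRestrict _ hψW)
  have hWp : (Nat.card A').Coprime (Nat.card ↥W) :=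
    Nat.Coprime.coprime_dvd_right (Subgroup.card_dvd_of_le hWle) hcop
  obtain ⟨B, hB, v, hv, hvB⟩ := exists_cocyclic_fixed φ hWp hWnt
  refine ⟨B, hB, (v : Gb), hWle v.2, ?_, ?_⟩
  · intro h
    exact hv (Subtype.ext h)
  · intro b hb
    have h1 := hvB b hb
    have h2 : ψ b * (v : Gb) * (ψ b)⁻¹ = v := congrArg Subtype.val h1
    rw [mul_inv_eq_iff_eq_mul] at h2
    exact h2

/-- Concrete section lemma. -/
theorem exists_fixed_of_normalizing [Finite H] {q : ℕ} [Fact q.Prime]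
    (A Q₀ N : Subgroup H) (hAc : IsMulCommutative ↥A)
    (hN : IsPGroup q N) (hcop : (Nat.card A).Coprime (Nat.card N)) (hlt : Q₀ < N)
    (hNQ : N ≤ Subgroup.normalizer (Q₀ : Set H)) (hAQ : A ≤ Subgroup.normalizer (Q₀ : Set H))
    (hAN : A ≤ Subgroup.normalizer (N : Set H)) :
    ∃ B : Subgroup H, B ≤ A ∧ (∃ a ∈ A, B ⊔ Subgroup.zpowers a = A) ∧
      ∃ w ∈ N, w ∉ Q₀ ∧ ∀ b ∈ B, b * w = w * b := by
  classical
  let G₁ : Subgroup H := Subgroup.normalizer (Q₀ : Set H)
  haveI : (Q₀.subgroupOf G₁).Normal := Subgroup.normal_in_normalizer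
  let π : ↥G₁ →* ↥G₁ ⧸ (Q₀.subgroupOf G₁) := QuotientGroup.mk' _
  let Nb : Subgroup (↥G₁ ⧸ (Q₀.subgroupOf G₁)) := (N.subgroupOf G₁).map π
  letI instA : CommGroup ↥A :=
    { (inferInstance : Group ↥A) with
      mul_comm := fun a b => hAc.is_comm.comm a b }
  let ψ : ↥A →* ↥G₁ ⧸ (Q₀.subgroupOf G₁) := π.comp (Subgroup.inclusion hAQ)
  have hNb : IsPGroup q ↥Nb := (hN.comap_of_injective G₁.subtype G₁.subtype_injective).map π
  obtain ⟨x, hx, hxQ⟩ := SetLike.exists_of_lt hlt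
  have hQ₀le : Q₀ ≤ N := hlt.le
  have hπ : ∀ y : ↥G₁, π y = 1 ↔ (y : H) ∈ Q₀ := by
    intro y
    rw [QuotientGroup.mk'_apply, QuotientGroup.eq_one_iff, Subgroup.mem_subgroupOf]
  have hNbne : Nb ≠ ⊥ := by
    intro hbot
    have : π ⟨x, hNQ hx⟩ ∈ Nb := ⟨⟨x, hNQ hx⟩, hx, rfl⟩
    rw [hbot, Subgroup.mem_bot, hπ] at this
    exact hxQ this
  have hNbcop : (Nat.card ↥A).Coprime (Nat.card ↥Nb) := by
    have h1 : Nat.card ↥Nb ∣ Nat.card ↥(N.subgroupOf G₁) := Subgroup.card_map_dvd _ _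
    have h2 : Nat.card ↥(N.subgroupOf G₁) = Nat.card ↥N :=
      Nat.card_congr (Subgroup.subgroupOfEquivOfLe hNQ).toEquiv
    exact Nat.Coprime.coprime_dvd_right (h2 ▸ h1) hcop
  have hψ : ∀ a, ψ a ∈ Subgroup.normalizer (Nb : Set (↥G₁ ⧸ (Q₀.subgroupOf G₁))) := by
    have key : ∀ a : ↥A, ∀ n ∈ Nb, ψ a * n * (ψ a)⁻¹ ∈ Nb := by
      rintro a _ ⟨y, hy, rfl⟩
      refine ⟨Subgroup.inclusion hAQ a * y * (Subgroup.inclusion hAQ a)⁻¹, ?_, ?_⟩
      · rw [SetLike.mem_coe, Subgroup.mem_subgroupOf]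
        show (a : H) * y * (a : H)⁻¹ ∈ N
        exact (Subgroup.mem_normalizer_iff.1 (hAN a.2) y).1 hy
      · simp [ψ, map_mul]
    intro a
    rw [Subgroup.mem_normalizer_iff]
    intro n
    refine ⟨fun hn => key a n hn, fun hn => ?_⟩
    have := key a⁻¹ _ hn
    simpa [mul_assoc] using this
  obtain ⟨B, ⟨a₀, ha₀⟩, v, hv, hv1, hvB⟩ := exists_fixed_of_section (q := q)
    ψ Nb hNb hNbne hNbcop hψ
  obtain ⟨w₀, hw₀, rfl⟩ := hv
  have hw₀N : (w₀ : H) ∈ N := hw₀
  let B' : Subgroup H := B.map A.subtype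
  have hB'A : B' ≤ A := by
    rintro _ ⟨b, _, rfl⟩
    exact b.2
  have hBcop : (Nat.card B').Coprime (Nat.card N) :=
    Nat.Coprime.coprime_dvd_left (Subgroup.card_dvd_of_le hB'A) hcop
  have hsolvN : Group.IsSolvable N := by
    have : Group.IsNilpotent N := hN.isNilpotent
    infer_instance
  have hw : ∀ b ∈ B', b * (w₀ : H) * b⁻¹ * (w₀ : H)⁻¹ ∈ Q₀ := by
    rintro _ ⟨b, hb, rfl⟩
    have h1 := hvB b hb
    have h2 : π (Subgroup.inclusion hAQ b * w₀ * (Subgroup.inclusion hAQ b)⁻¹ * (w₀)⁻¹) = 1 := by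
      have h3 : π (Subgroup.inclusion hAQ b) * π w₀ = π w₀ * π (Subgroup.inclusion hAQ b) := h1
      rw [map_mul, map_mul, map_mul, map_inv, map_inv, h3]
      group
    exact (hπ _).1 h2
  obtain ⟨c, hc, hcQ⟩ := Glauberman.exists_mem_centralizer_of_coset_fixed hBcop (Or.inr hsolvN) hQ₀le hNQ
    (hB'A.trans hAQ) (w₀ : H) hw₀N hw
  refine ⟨B', hB'A, ⟨a₀, a₀.2, ?_⟩, c, hc.1, ?_, ?_⟩
  · have h1 := congrArg (Subgroup.map A.subtype) ha₀
    rw [Subgroup.map_sup, MonoidHom.map_zpowers, ← MonoidHom.range_eq_map, Subgroup.range_subtype] at h1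
    exact h1
  · intro hmem
    apply hv1
    rw [hπ]
    have h2 : (w₀ : H) = c * (((w₀ : H)⁻¹ * c)⁻¹) := by group
    rw [h2]
    exact Q₀.mul_mem hmem (Q₀.inv_mem hcQ)
  · intro b hb
    exact (Subgroup.mem_centralizer_iff.mp hc.2 b hb)

/-- If `A` normalizes the `q`-subgroup `Q` and a proper subgroup `Q₀`, there is a subgroup `B ≤ A`
with `A/B` cyclic centralizing an element of `Q` outside `Q₀`. -/
theorem exists_fixed_outside [Finite H] {q : ℕ} [Fact q.Prime]
    (A Q₀ Q : Subgroup H) (hAc : IsMulCommutative ↥A)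
    (hQ : IsPGroup q Q) (hcop : (Nat.card A).Coprime (Nat.card Q)) (hlt : Q₀ < Q)
    (hAQ₀ : A ≤ Subgroup.normalizer (Q₀ : Set H)) (hAQ : A ≤ Subgroup.normalizer (Q : Set H)) :
    ∃ B : Subgroup H, B ≤ A ∧ (∃ a ∈ A, B ⊔ Subgroup.zpowers a = A) ∧
      ∃ w ∈ Q, w ∉ Q₀ ∧ ∀ b ∈ B, b * w = w * b := by
  let N : Subgroup H := Q ⊓ Subgroup.normalizer (Q₀ : Set H)
  have hNQ : N ≤ Q := inf_le_left
  have hNn : N ≤ Subgroup.normalizer (Q₀ : Set H) := inf_le_right
  have hQ₀N : Q₀ < N := by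
    haveI : Group.IsNilpotent ↥Q := IsPGroup.isNilpotent hQ
    have hlt' : (Q₀.subgroupOf Q) < ⊤ := by
      rw [lt_top_iff_ne_top]
      intro htop
      rw [Subgroup.subgroupOf_eq_top] at htop
      exact absurd (le_antisymm hlt.le htop) hlt.ne
    have hnc := Group.normalizerCondition_of_isNilpotent (G := ↥Q) _ hlt'
    obtain ⟨x, hx, hxn⟩ := SetLike.exists_of_lt hnc
    have hxN : (x : H) ∈ Subgroup.normalizer (Q₀ : Set H) := by
      rw [Subgroup.mem_normalizer_iff] at hx ⊢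
      intro h
      constructor
      · intro hh
        have := (hx ⟨h, hlt.le hh⟩).1 (by simpa [Subgroup.mem_subgroupOf] using hh)
        simpa [Subgroup.mem_subgroupOf] using this
      · intro hh
        have hhQ : h ∈ Q := by
          have := Q.mul_mem (Q.mul_mem (Q.inv_mem x.2) (hlt.le hh)) x.2
          simpa [mul_assoc] using this
        have := (hx ⟨h, hhQ⟩).2 (by simpa [Subgroup.mem_subgroupOf] using hh)
        simpa [Subgroup.mem_subgroupOf] using this
    refine lt_of_le_of_ne (le_inf hlt.le Subgroup.le_normalizer) ?_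
    intro heq
    apply hxn
    rw [Subgroup.mem_subgroupOf, heq]
    exact ⟨x.2, hxN⟩
  have hAN : A ≤ Subgroup.normalizer (N : Set H) := by
    intro a ha
    have h1 := Subgroup.mem_normalizer_iff.1 (hAQ ha)
    have h2 := hAQ₀ ha
    rw [Subgroup.mem_normalizer_iff]
    intro n
    constructor
    · rintro ⟨hn1, hn2⟩
      refine ⟨(h1 n).1 hn1, ?_⟩
      exact Subgroup.mul_mem _ (Subgroup.mul_mem _ h2 hn2) (Subgroup.inv_mem _ h2)
    · rintro ⟨hn1, hn2⟩
      refine ⟨(h1 n).2 hn1, ?_⟩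
      have h4 := Subgroup.mul_mem _ (Subgroup.mul_mem _ (Subgroup.inv_mem _ h2) hn2) h2
      simpa [mul_assoc] using h4
  have hNc : (Nat.card A).Coprime (Nat.card N) :=
    Nat.Coprime.coprime_dvd_right (Subgroup.card_dvd_of_le hNQ) hcop
  obtain ⟨B, hB, hBi, w, hw, hwQ, hwB⟩ := exists_fixed_of_normalizing A Q₀ N hAc
    (hQ.to_le hNQ) hNc hQ₀N hNn hAQ₀ hAN
  exact ⟨B, hB, hBi, w, hNQ hw, hwQ, hwB⟩

end lifts

section main

variable {X : Type*} [Group X] [Finite X]

/-- A subgroup of an abelian `A` normalizes nothing new: `A` normalizes `C(B)`. -/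
theorem le_normalizer_centralizer {A B : Subgroup X} (hAc : IsMulCommutative ↥A) (hB : B ≤ A) :
    A ≤ Subgroup.normalizer ((Subgroup.centralizer (B : Set X) : Subgroup X) : Set X) := by
  have hcomm : ∀ a ∈ A, ∀ b ∈ A, a * b = b * a := by
    intro a ha b hb
    have := hAc.is_comm.comm ⟨a, ha⟩ ⟨b, hb⟩
    exact congrArg Subtype.val this
  rw [Subgroup.le_normalizer_iff]
  intro a ha x hx
  rw [Subgroup.mem_centralizer_iff] at hx ⊢
  intro b hb
  have hb' : b ∈ A := hB hb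
  have h1 := hx b hb
  have h2 := hcomm a ha b hb'
  have h3 : b * a⁻¹ = a⁻¹ * b := by
    have : Commute a b := h2
    exact (this.inv_left).eq.symm
  calc b * (a * x * a⁻¹) = (b * a) * x * a⁻¹ := by group
    _ = (a * b) * x * a⁻¹ := by rw [h2]
    _ = a * (b * x) * a⁻¹ := by group
    _ = a * (x * b) * a⁻¹ := by rw [h1]
    _ = a * x * (b * a⁻¹) := by group
    _ = a * x * (a⁻¹ * b) := by rw [h3]
    _ = a * x * a⁻¹ * b := by group

theorem part1 (A G : Subgroup X) (hAab : IsMulCommutative A)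
    (hAG : A ≤ Subgroup.normalizer (G : Set X)) (hcop : (Nat.card A).Coprime (Nat.card G)) :
    (⨆ B ∈ {B : Subgroup X | B ≤ A ∧ ∃ a ∈ A, B ⊔ Subgroup.zpowers a = A},
      G ⊓ Subgroup.centralizer (B : Set X)) = G := by
  set T : Subgroup X := ⨆ B ∈ {B : Subgroup X | B ≤ A ∧ ∃ a ∈ A, B ⊔ Subgroup.zpowers a = A},
      G ⊓ Subgroup.centralizer (B : Set X) with hT
  have hTG : T ≤ G := iSup₂_le fun B _ => inf_le_left
  have hsolvA : Group.IsSolvable A := by
    letI : CommGroup ↥A := { (inferInstance : Group ↥A) with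
      mul_comm := fun a b => hAab.is_comm.comm a b }
    infer_instance
  have hAT : A ≤ Subgroup.normalizer (T : Set X) := by
    rw [Subgroup.le_normalizer_iff]
    intro a ha
    have hle : T ≤ T.comap (MulAut.conj a).toMonoidHom := by
      refine iSup₂_le fun B hB => ?_
      intro x hx
      refine (le_iSup₂ (f := fun B (_ : B ∈ {B : Subgroup X | B ≤ A ∧ ∃ a ∈ A, B ⊔ Subgroup.zpowers a = A}) =>
        G ⊓ Subgroup.centralizer (B : Set X)) B hB) ?_
      refine ⟨Subgroup.le_normalizer_iff.mp hAG a ha x hx.1, ?_⟩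
      exact Subgroup.le_normalizer_iff.mp (le_normalizer_centralizer hAab hB.1) a ha x hx.2
    exact fun t ht => hle ht
  refine le_antisymm hTG ?_
  have htop : T.subgroupOf G = ⊤ := by
    apply Cfsg.Agent.Lib.CoprimeHyper.eq_top_of_forall_sylow_le'
    intro q _
    obtain ⟨Q, hQ⟩ := Glauberman2.exists_invariant_sylow hAG hcop (Or.inl hsolvA) q
    refine ⟨Q, ?_⟩
    set Q' : Subgroup X := (Q : Subgroup ↥G).map G.subtype with hQ'
    have hQ'G : Q' ≤ G := by
      rintro _ ⟨y, _, rfl⟩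
      exact y.2
    have hAQ₀ : A ≤ Subgroup.normalizer ((Q' ⊓ T : Subgroup X) : Set X) :=
      CoprimeInv.le_normalizer_inf hQ hAT
    by_contra hnot
    have hlt : Q' ⊓ T < Q' := by
      refine lt_of_le_of_ne inf_le_left ?_
      intro heq
      apply hnot
      intro y hy
      rw [Subgroup.mem_subgroupOf]
      have h1 : (y : X) ∈ Q' := ⟨y, hy, rfl⟩
      rw [← heq] at h1
      exact h1.2
    have hQpg : IsPGroup q ↥Q' := Q.isPGroup'.map G.subtype
    have hQc : (Nat.card A).Coprime (Nat.card Q') :=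
      Nat.Coprime.coprime_dvd_right (Subgroup.card_dvd_of_le hQ'G) hcop
    obtain ⟨B, hB, hBi, w, hw, hwQ, hwB⟩ :=
      exists_fixed_outside A (Q' ⊓ T) Q' hAab hQpg hQc hlt hAQ₀ hQ
    apply hwQ
    refine ⟨hw, ?_⟩
    refine (le_iSup₂ (f := fun B (_ : B ∈ {B : Subgroup X | B ≤ A ∧ ∃ a ∈ A, B ⊔ Subgroup.zpowers a = A}) =>
        G ⊓ Subgroup.centralizer (B : Set X)) B ⟨hB, hBi⟩) ⟨hQ'G hw, ?_⟩
    exact Subgroup.mem_centralizer_iff.2 hwB
  intro x hx
  have : (⟨x, hx⟩ : ↥G) ∈ T.subgroupOf G := by rw [htop]; trivial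
  exact this

theorem part2 (A G : Subgroup X) (hAab : IsMulCommutative A)
    (hAG : A ≤ Subgroup.normalizer (G : Set X)) (hcop : (Nat.card A).Coprime (Nat.card G)) :
    (⨆ B ∈ {B : Subgroup X | B ≤ A ∧ ∃ a ∈ A, B ⊔ Subgroup.zpowers a = A},
      ⁅G ⊓ Subgroup.centralizer (B : Set X), A⁆) = ⁅G, A⁆ := by
  set F : Set (Subgroup X) := {B : Subgroup X | B ≤ A ∧ ∃ a ∈ A, B ⊔ Subgroup.zpowers a = A} with hF
  set K : Subgroup X := ⨆ B ∈ F, ⁅G ⊓ Subgroup.centralizer (B : Set X), A⁆ with hK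
  have hsolvA : Group.IsSolvable A := by
    letI : CommGroup ↥A := { (inferInstance : Group ↥A) with
      mul_comm := fun a b => hAab.is_comm.comm a b }
    infer_instance
  have hmemK : ∀ B ∈ F, ⁅G ⊓ Subgroup.centralizer (B : Set X), A⁆ ≤ K := fun B hB =>
    le_iSup₂ (f := fun B (_ : B ∈ F) => ⁅G ⊓ Subgroup.centralizer (B : Set X), A⁆) B hB
  have hKle : K ≤ ⁅G, A⁆ := iSup₂_le fun B _ => Subgroup.commutator_mono inf_le_left le_rfl
  refine le_antisymm hKle ?_
  have hAnorm : ∀ B ∈ F, A ≤ Subgroup.normalizer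
      ((G ⊓ Subgroup.centralizer (B : Set X) : Subgroup X) : Set X) := fun B hB =>
    CoprimeInv.le_normalizer_inf hAG (le_normalizer_centralizer hAab hB.1)
  have hKG : K ≤ G := hKle.trans (Glauberman.commutator_le_of_le_normalizer hAG)
  -- `A` normalizes `K`
  have hAK : A ≤ Subgroup.normalizer (K : Set X) := by
    rw [Subgroup.le_normalizer_iff]
    intro a ha
    have hle : K ≤ K.comap (MulAut.conj a).toMonoidHom := by
      refine iSup₂_le fun B hB => ?_
      intro x hx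
      refine hmemK B hB ?_
      exact Subgroup.le_normalizer_iff.mp (Glauberman.le_normalizer_commutator (hAnorm B hB)) a ha x hx
    exact fun t ht => hle ht
  -- `C_G(A)` normalizes `K`
  have hCK : G ⊓ Subgroup.centralizer (A : Set X) ≤ Subgroup.normalizer (K : Set X) := by
    rw [Subgroup.le_normalizer_iff]
    rintro c ⟨hcG, hcA⟩
    have hle : K ≤ K.comap (MulAut.conj c).toMonoidHom := by
      refine iSup₂_le fun B hB => ?_
      intro x hx
      refine hmemK B hB ?_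
      have hc1 : c ∈ Subgroup.normalizer
          ((G ⊓ Subgroup.centralizer (B : Set X) : Subgroup X) : Set X) := by
        apply Subgroup.le_normalizer
        refine ⟨hcG, ?_⟩
        exact Subgroup.centralizer_le (SetLike.coe_subset_coe.mpr hB.1) hcA
      have hc2 : c ∈ Subgroup.normalizer (A : Set X) := by
        rw [Subgroup.mem_normalizer_iff]
        intro a
        constructor
        · intro ha
          have h1 := Subgroup.mem_centralizer_iff.mp hcA a ha
          rw [← h1]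
          simpa using ha
        · intro ha
          have h1 : c * a * c⁻¹ ∈ A := ha
          have h2 := Subgroup.mem_centralizer_iff.mp hcA _ h1
          have h3 : c * a * c⁻¹ * c = c * a := by group
          rw [h3] at h2
          have h4 : a = c * a * c⁻¹ := mul_left_cancel h2
          rw [h4]
          exact h1
      exact Subgroup.le_normalizer_iff.mp
        (show (Subgroup.zpowers c) ≤ _ by
          rw [Subgroup.zpowers_le]
          exact LocalTools.mem_normalizer_commutator hc1 hc2) c (Subgroup.mem_zpowers c) x hx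
    exact fun t ht => hle ht
  -- `G ≤ K C_G(A)`
  have hGsup : G ≤ K ⊔ (G ⊓ Subgroup.centralizer (A : Set X)) := by
    conv_lhs => rw [← part1 A G hAab hAG hcop]
    refine iSup₂_le fun B hB => ?_
    have h1 := Glauberman.commutator_sup_inf_centralizer (hAnorm B hB)
      (Nat.Coprime.coprime_dvd_right (Subgroup.card_dvd_of_le inf_le_left) hcop) (Or.inl hsolvA)
    rw [← h1]
    refine sup_le ((hmemK B hB).trans le_sup_left) ?_
    exact (le_inf (inf_le_left.trans inf_le_left) inf_le_right).trans le_sup_right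
  rw [Subgroup.commutator_le]
  intro g hg a ha
  obtain ⟨k, hk, c, hc, rfl⟩ := (LocalTools.mem_sup_of_le_normalizer' hCK).mp (hGsup hg)
  have hca : c * a = a * c := (Subgroup.mem_centralizer_iff.mp hc.2 a ha).symm
  have h1 : ⁅k * c, a⁆ = k * (a * k⁻¹ * a⁻¹) := by
    rw [commutatorElement_def]
    calc k * c * a * (k * c)⁻¹ * a⁻¹ = k * (c * a) * c⁻¹ * k⁻¹ * a⁻¹ := by group
      _ = k * (a * c) * c⁻¹ * k⁻¹ * a⁻¹ := by rw [hca]
      _ = k * (a * k⁻¹ * a⁻¹) := by group
  rw [h1]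
  exact K.mul_mem hk (Subgroup.le_normalizer_iff.mp hAK a ha _ (K.inv_mem hk))

end main

/-- Let A and G be subgroups of a finite group with A abelian, A normalizing G and the orders of A and G coprime. Then G is generated by the fixed-point subgroups C_G(B) of those subgroups B of A for which A/B is cyclic (that is, A = ⟨B, a⟩ for some a), and [G, A] is generated by the commutator subgroups [C_G(B), A] over the same subgroups B. -/
theorem result {X : Type*} [Group X] [Finite X] (A G : Subgroup X) (hAab : IsMulCommutative A) (hAG : A ≤ Subgroup.normalizer (G : Set X)) (hcop : (Nat.card A).Coprime (Nat.card G)) : (⨆ B ∈ {B : Subgroup X | B ≤ A ∧ ∃ a ∈ A, B ⊔ Subgroup.zpowers a = A}, G ⊓ Subgroup.centralizer (B : Set X)) = G ∧ (⨆ B ∈ {B : Subgroup X | B ≤ A ∧ ∃ a ∈ A, B ⊔ Subgroup.zpowers a = A}, ⁅G ⊓ Subgroup.centralizer (B : Set X), A⁆) = ⁅G, A⁆ :=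
  ⟨part1 A G hAab hAG hcop, part2 A G hAab hAG hcop⟩

end Cfsg.Agent.S3734
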