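import Mathlib
import Cfsg.Statements.S3735

set_option autoImplicit false
open Cfsg

namespace Cfsg.Agent.S3735

variable {G : Type*} [Group G]

theorem le_normalizer_of_conj_mem {H X : Subgroup G}
    (h : ∀ g ∈ H, ∀ x ∈ X, g * x * g⁻¹ ∈ X) : H ≤ Subgroup.normalizer (X : Set G) := by
  intro g hg
  rw [Subgroup.mem_normalizer_iff]
  intro x
  refine ⟨h g hg x, fun hx => ?_⟩
  have := h g⁻¹ (inv_mem hg) _ hx
  simpa [mul_assoc] using this

theorem conj_mem_of_le_normalizer {H X : Subgroup G}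
    (h : H ≤ Subgroup.normalizer (X : Set G)) {g x : G} (hg : g ∈ H) (hx : x ∈ X) :
    g * x * g⁻¹ ∈ X :=
  (Subgroup.mem_normalizer_iff.mp (h hg) x).mp hx

theorem mem_sup_of_abelian {V P Q : Subgroup G} (hV : ∀ a ∈ V, ∀ b ∈ V, a * b = b * a)
    (hP : P ≤ V) (hQ : Q ≤ V) {x : G} (hx : x ∈ P ⊔ Q) : ∃ p ∈ P, ∃ q ∈ Q, p * q = x := by
  rw [Subgroup.sup_eq_closure] at hx
  induction hx using Subgroup.closure_induction with
  | mem y hy =>
    rcases hy with hy | hy
    · exact ⟨y, hy, 1, one_mem _, by simp⟩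
    · exact ⟨1, one_mem _, y, hy, by simp⟩
  | one => exact ⟨1, one_mem _, 1, one_mem _, by simp⟩
  | mul a b _ _ ha hb =>
    obtain ⟨p, hp, q, hq, rfl⟩ := ha
    obtain ⟨p', hp', q', hq', rfl⟩ := hb
    refine ⟨p * p', mul_mem hp hp', q * q', mul_mem hq hq', ?_⟩
    have : q * p' = p' * q := hV q (hQ hq) p' (hP hp')
    calc p * p' * (q * q') = p * (p' * q) * q' := by group
      _ = p * (q * p') * q' := by rw [this]
      _ = p * q * (p' * q') := by group
  | inv a _ ha =>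
    obtain ⟨p, hp, q, hq, rfl⟩ := ha
    refine ⟨p⁻¹, inv_mem hp, q⁻¹, inv_mem hq, ?_⟩
    have : q⁻¹ * p⁻¹ = p⁻¹ * q⁻¹ := hV _ (hQ (inv_mem hq)) _ (hP (inv_mem hp))
    rw [mul_inv_rev, this]

theorem sup_invariant {A P Q : Subgroup G} (hP : A ≤ Subgroup.normalizer (P : Set G))
    (hQ : A ≤ Subgroup.normalizer (Q : Set G)) :
    A ≤ Subgroup.normalizer ((P ⊔ Q : Subgroup G) : Set G) := by
  intro a ha
  rw [Subgroup.mem_normalizer_iff_map_conj_eq, Subgroup.map_sup,
    Subgroup.mem_normalizer_iff_map_conj_eq.mp (hP ha),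
    Subgroup.mem_normalizer_iff_map_conj_eq.mp (hQ ha)]

theorem inf_invariant {A P Q : Subgroup G} (hP : A ≤ Subgroup.normalizer (P : Set G))
    (hQ : A ≤ Subgroup.normalizer (Q : Set G)) :
    A ≤ Subgroup.normalizer ((P ⊓ Q : Subgroup G) : Set G) := by
  intro a ha
  rw [Subgroup.mem_normalizer_iff]
  intro x
  simp only [Subgroup.mem_inf]
  rw [← Subgroup.mem_normalizer_iff.mp (hP ha) x, ← Subgroup.mem_normalizer_iff.mp (hQ ha) x]

/-- Clifford's Theorem for actions on finite abelian groups, first part. Let H and V be subgroups of a finite group with V abelian and H normalizing V, and let A be a normal subgroup of H. If every H-invariant subgroup of V has an H-invariant complement in V, then every A-invariant subgroup of V has an A-invariant complement in V. -/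
theorem result {G : Type*} [Group G] [Finite G] (H A V : Subgroup G) (hVab : IsMulCommutative V) (hHV : H ≤ Subgroup.normalizer (V : Set G)) (hAH : A ≤ H) (hAn : H ≤ Subgroup.normalizer (A : Set G)) (hss : ∀ U : Subgroup G, U ≤ V → H ≤ Subgroup.normalizer (U : Set G) → ∃ W : Subgroup G, W ≤ V ∧ H ≤ Subgroup.normalizer (W : Set G) ∧ U ⊓ W = ⊥ ∧ U ⊔ W = V) (U : Subgroup G) (hUV : U ≤ V) (hAU : A ≤ Subgroup.normalizer (U : Set G)) : ∃ W : Subgroup G, W ≤ V ∧ A ≤ Subgroup.normalizer (W : Set G) ∧ U ⊓ W = ⊥ ∧ U ⊔ W = V := by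
  classical
  have hcomm : ∀ a ∈ V, ∀ b ∈ V, a * b = b * a := by
    intro a ha b hb
    have := mul_comm' (⟨a, ha⟩ : V) ⟨b, hb⟩
    exact congrArg Subtype.val this
  -- the minimal A-invariant subgroups
  let 𝒮 : Set (Subgroup G) := {X | X ≤ V ∧ X ≠ ⊥ ∧ A ≤ Subgroup.normalizer (X : Set G) ∧
    ∀ Y : Subgroup G, Y ≤ X → A ≤ Subgroup.normalizer (Y : Set G) → Y = ⊥ ∨ Y = X}
  let S : Subgroup G := sSup 𝒮
  have hSV : S ≤ V := sSup_le (fun X hX => hX.1)
  -- conjugates of invariant subgroups are invariant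
  have hconjinv : ∀ (h : G), h ∈ H → ∀ Y : Subgroup G, A ≤ Subgroup.normalizer (Y : Set G) →
      A ≤ Subgroup.normalizer ((Y.map (MulAut.conj h).toMonoidHom : Subgroup G) : Set G) := by
    intro h hh Y hY
    apply le_normalizer_of_conj_mem
    rintro a ha _ ⟨y, hy, rfl⟩
    refine ⟨(h⁻¹ * a * h) * y * (h⁻¹ * a * h)⁻¹, ?_, ?_⟩
    · apply conj_mem_of_le_normalizer hY _ hy
      have := conj_mem_of_le_normalizer hAn (inv_mem hh) ha
      simpa using this
    · simp only [MulEquiv.coe_toMonoidHom, MulAut.conj_apply]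
      group
  have hmapinv : ∀ (h : G) (Y : Subgroup G), (Y.map (MulAut.conj h).toMonoidHom).map (MulAut.conj h⁻¹).toMonoidHom = Y := by
    intro h Y
    ext y
    simp only [Subgroup.mem_map, MulEquiv.coe_toMonoidHom, MulAut.conj_apply]
    constructor
    · rintro ⟨_, ⟨k, hk, rfl⟩, rfl⟩
      have : h⁻¹ * (h * k * h⁻¹) * h⁻¹⁻¹ = k := by group
      rwa [this]
    · intro hy
      exact ⟨h * y * h⁻¹, ⟨y, hy, rfl⟩, by group⟩
  have hconj𝒮 : ∀ h ∈ H, ∀ X ∈ 𝒮, X.map (MulAut.conj h).toMonoidHom ∈ 𝒮 := by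
    intro h hh X hX
    obtain ⟨hXV, hX1, hXA, hXmin⟩ := hX
    refine ⟨?_, ?_, hconjinv h hh X hXA, ?_⟩
    · rintro _ ⟨x, hx, rfl⟩
      exact conj_mem_of_le_normalizer hHV hh (hXV hx)
    · intro hbot
      apply hX1
      rw [Subgroup.map_eq_bot_iff_of_injective _ (MulEquiv.injective _)] at hbot
      exact hbot
    · intro Y hY hYA
      have h1 : Y.map (MulAut.conj h⁻¹).toMonoidHom ≤ X := by
        have := Subgroup.map_mono (f := (MulAut.conj h⁻¹).toMonoidHom) hY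
        rwa [hmapinv] at this
      have h2 := hXmin _ h1 (hconjinv h⁻¹ (inv_mem hh) Y hYA)
      have h3 := hmapinv h⁻¹ Y
      rw [inv_inv] at h3
      rcases h2 with h2 | h2
      · left
        rw [h2] at h3
        rw [← h3]
        simp
      · right
        rw [h2] at h3
        exact h3.symm
  have hSH : H ≤ Subgroup.normalizer (S : Set G) := by
    apply le_normalizer_of_conj_mem
    intro h hh x hx
    have hle : S ≤ S.comap (MulAut.conj h).toMonoidHom := by
      apply sSup_le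
      intro X hX y hy
      have h1 : X.map (MulAut.conj h).toMonoidHom ≤ S := le_sSup (hconj𝒮 h hh X hX)
      exact h1 (Subgroup.mem_map_of_mem _ hy)
    exact hle hx
  -- S = V
  obtain ⟨T, hTV, hTH, hST, hSTV⟩ := hss S hSV hSH
  have hTbot : T = ⊥ := by
    by_contra hT
    let 𝒯 : Set (Subgroup G) := {Y | Y ≤ T ∧ Y ≠ ⊥ ∧ A ≤ Subgroup.normalizer (Y : Set G)}
    obtain ⟨X, hX⟩ := 𝒯.toFinite.exists_minimal ⟨T, le_rfl, hT, hAH.trans hTH⟩
    have hX𝒮 : X ∈ 𝒮 := by
      refine ⟨hX.1.1.trans hTV, hX.1.2.1, hX.1.2.2, ?_⟩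
      intro Y hY hYA
      by_cases hY1 : Y = ⊥
      · exact Or.inl hY1
      · right
        exact le_antisymm hY (hX.2 ⟨hY.trans hX.1.1, hY1, hYA⟩ hY)
    have hXS : X ≤ S := le_sSup hX𝒮
    have : X ≤ S ⊓ T := le_inf hXS hX.1.1
    rw [hST] at this
    exact hX.1.2.1 (le_bot_iff.mp this)
  have hSeq : S = V := by
    rw [hTbot, sup_bot_eq] at hSTV
    exact hSTV
  -- maximal complement
  let 𝒲 : Set (Subgroup G) := {W | W ≤ V ∧ A ≤ Subgroup.normalizer (W : Set G) ∧ U ⊓ W = ⊥}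
  obtain ⟨W, hW⟩ := 𝒲.toFinite.exists_maximal ⟨⊥, bot_le, by
    intro a _
    rw [Subgroup.mem_normalizer_iff]
    intro x
    simp only [Subgroup.coe_bot, Set.mem_singleton_iff, SetLike.mem_coe, Subgroup.mem_bot]
    constructor
    · rintro rfl; simp
    · intro h
      have : a⁻¹ * (a * x * a⁻¹) * a = a⁻¹ * 1 * a := by rw [h]
      simpa [mul_assoc] using this, by simp⟩
  obtain ⟨hWV, hWA, hUW⟩ := hW.1
  refine ⟨W, hWV, hWA, hUW, ?_⟩
  apply le_antisymm (sup_le hUV hWV)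
  rw [← hSeq]
  apply sSup_le
  intro X hX
  by_contra hXle
  obtain ⟨hXV, hX1, hXA, hXmin⟩ := hX
  have hUWA : A ≤ Subgroup.normalizer ((U ⊔ W : Subgroup G) : Set G) := sup_invariant hAU hWA
  have hinter : X ⊓ (U ⊔ W) = ⊥ := by
    rcases hXmin _ inf_le_left (inf_invariant hXA hUWA) with h | h
    · exact h
    · exact absurd (inf_eq_left.mp h) hXle
  have hW'mem : W ⊔ X ∈ 𝒲 := by
    refine ⟨sup_le hWV hXV, sup_invariant hWA hXA, ?_⟩
    rw [eq_bot_iff]
    rintro u ⟨huU, huWX⟩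
    obtain ⟨w, hw, x, hx, rfl⟩ := mem_sup_of_abelian hcomm hWV hXV huWX
    have hxin : x ∈ X ⊓ (U ⊔ W) := by
      refine Subgroup.mem_inf.mpr ⟨hx, ?_⟩
      have : x = w⁻¹ * (w * x) := by group
      rw [this]
      exact mul_mem (Subgroup.mem_sup_right (inv_mem hw)) (Subgroup.mem_sup_left huU)
    rw [hinter, Subgroup.mem_bot] at hxin
    subst hxin
    rw [mul_one] at huU ⊢
    have : w ∈ U ⊓ W := Subgroup.mem_inf.mpr ⟨huU, hw⟩
    rwa [hUW] at this
  have hXW : X ≤ W := by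
    have := hW.2 hW'mem le_sup_left
    exact le_sup_right.trans this
  exact hXle (hXW.trans le_sup_right)

end Cfsg.Agent.S3735
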