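import Mathlib
import Cfsg.Statements.S3737
import Cfsg.Agent.S3736
import Cfsg.Agent.Lib.BaerSum

set_option autoImplicit false
open Cfsg

namespace Cfsg.Agent.S3737

open scoped commutatorElement
open Cfsg.Agent.Lib

/-- Abstract form of the `P × Q` lemma on a group of exponent `p` and class at most two. -/
theorem abstract_form {N Q P : Type*} [Group N] [Finite N] [Group Q] [Finite Q] [Group P]
    {p h : ℕ} [Fact p.Prime] (H : BaerSum.Hyp N p h) (hP : IsPGroup p P)
    (ρ : Q →* MulAut N) (π : P →* MulAut N) (σ : P → Q ≃ Q)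
    (hσ : ∀ g q x, π g (ρ q x) = ρ (σ g q) (π g x))
    (hcop : (Nat.card Q).Coprime p)
    (hC : ∀ x : N, (∀ g, π g x = x) → ∀ q, ρ q x = x) : ∀ q x, ρ q x = x := by
  classical
  by_contra hne
  push Not at hne
  obtain ⟨q₀, x₀, hx₀⟩ := hne
  have hpp : p.Prime := Fact.out
  letI : AddCommGroup N := H.acg
  haveI : Fintype Q := Fintype.ofFinite Q
  let ρa : Q → (N →+ N) := fun q => H.addHom (ρ q).toMonoidHom
  have hρa : ∀ q x, ρa q x = ρ q x := fun q x => rfl
  let T : N →+ N := ∑ q, ρa q
  have hT : ∀ x, T x = ∑ q, ρ q x := by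
    intro x
    simp [T, hρa]
  have hTρ : ∀ q x, T (ρ q x) = T x := by
    intro q x
    rw [hT, hT]
    refine Fintype.sum_equiv (Equiv.mulRight q) _ _ ?_
    intro r
    simp [map_mul, MulAut.mul_apply]
  have hTπ : ∀ g x, T (π g x) = π g (T x) := by
    intro g x
    rw [hT, hT]
    have hadd : ∀ s : Finset Q, π g (∑ q ∈ s, ρ q x) = ∑ q ∈ s, π g (ρ q x) := by
      intro s
      exact map_sum (H.addHom (π g).toMonoidHom) _ _
    rw [hadd]
    symm
    refine Fintype.sum_equiv (σ g) _ _ ?_
    intro q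
    exact hσ g q x
  -- the `P`-set `W`
  let W : AddSubgroup N := T.ker
  have hWmem : ∀ x, x ∈ W ↔ T x = 0 := fun x => AddMonoidHom.mem_ker
  letI act : MulAction P W :=
    { smul := fun g w => ⟨π g w, by
        rw [hWmem, hTπ, (hWmem _).mp w.2]
        exact map_one (π g)⟩
      one_smul := by
        intro w
        apply Subtype.ext
        show π 1 (w : N) = w
        simp
      mul_smul := by
        intro g g' w
        apply Subtype.ext
        show π (g * g') (w : N) = π g (π g' w)
        simp [MulAut.mul_apply] }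
  have hsmul : ∀ (g : P) (w : W), ((g • w : W) : N) = π g w := fun g w => rfl
  -- a nonzero element of `W`
  let y : N := ρ q₀ x₀ - x₀
  have hy0 : y ≠ 0 := by
    intro hy
    exact hx₀ (sub_eq_zero.mp hy)
  have hyW : y ∈ W := by
    rw [hWmem, map_sub, hTρ, sub_self]
  have hpnsmul : ∀ x : N, p • x = 0 := by
    intro x
    have h1 := H.nsmul_eq_pow p x
    rw [H.pow] at h1
    exact h1
  have hcardW : p ∣ Nat.card W := by
    have h1 : addOrderOf (⟨y, hyW⟩ : W) = p := by
      apply addOrderOf_eq_prime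
      · apply Subtype.ext
        exact hpnsmul y
      · intro h0
        exact hy0 (congrArg Subtype.val h0)
    rw [← h1]
    exact addOrderOf_dvd_natCard _
  have h0fix : (0 : W) ∈ MulAction.fixedPoints P W := by
    intro g
    apply Subtype.ext
    exact map_one (π g)
  obtain ⟨b, hbfix, hb⟩ :=
    hP.exists_fixed_point_of_prime_dvd_card_of_fixed_point W hcardW h0fix
  have hbπ : ∀ g, π g (b : N) = b := by
    intro g
    have := hbfix g
    exact congrArg Subtype.val this
  have hbρ := hC b hbπ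
  have hTb : T b = Nat.card Q • (b : N) := by
    rw [hT]
    simp [hbρ, Nat.card_eq_fintype_card, Finset.card_univ]
  have hb0 : Nat.card Q • (b : N) = 0 := by
    rw [← hTb]
    exact (hWmem _).mp b.2
  have hbz : (b : N) = 0 := by
    have h1 : addOrderOf (b : N) ∣ Nat.card Q := addOrderOf_dvd_of_nsmul_eq_zero hb0
    have h2 : addOrderOf (b : N) ∣ p := addOrderOf_dvd_of_nsmul_eq_zero (hpnsmul b)
    have h3 : addOrderOf (b : N) = 1 := Nat.eq_one_of_dvd_coprimes hcop h1 h2
    exact AddMonoid.addOrderOf_eq_one_iff.mp h3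
  apply hb
  apply Subtype.ext
  exact hbz.symm

/-- Thompson's strengthening of the P × Q lemma for odd primes. Let p be an odd prime and let P, Q and G be subgroups of a finite group with P a p-group, Q of order prime to p and normalized by P, and G a p-group normalized by both P and Q. If every element of G centralized by P is centralized by Q, then Q centralizes G. -/
theorem result {X : Type*} [Group X] [Finite X] {p : ℕ} [Fact p.Prime] (hp : p ≠ 2) (P Q G : Subgroup X) (hP : IsPGroup p P) (hQ : (Nat.card Q).Coprime p) (hPQ : P ≤ Subgroup.normalizer (Q : Set X)) (hG : IsPGroup p G) (hPG : P ≤ Subgroup.normalizer (G : Set X)) (hQG : Q ≤ Subgroup.normalizer (G : Set X)) (hC : G ⊓ Subgroup.centralizer (P : Set X) ≤ Subgroup.centralizer (Q : Set X)) : Q ≤ Subgroup.centralizer (G : Set X) := by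
  have hpp : p.Prime := Fact.out
  set B : Subgroup X := P ⊔ Q with hB
  have hBG : B ≤ Subgroup.normalizer (G : Set X) := sup_le hPG hQG
  have hQB : Q ≤ B := le_sup_right
  have hBQ : B ≤ Subgroup.normalizer (Q : Set X) := sup_le hPQ Subgroup.le_normalizer
  rw [← Subgroup.commutator_eq_bot_iff_le_centralizer, Subgroup.commutator_comm]
  by_contra hne
  let S : Set (Subgroup X) := {U | U ≤ G ∧ B ≤ Subgroup.normalizer (U : Set X) ∧ ⁅U, Q⁆ ≠ ⊥}
  obtain ⟨U, ⟨hUG, hBU, hUne⟩, hmin⟩ := wellFounded_lt.has_min S ⟨G, le_rfl, hBG, hne⟩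
  have hUp : IsPGroup p U := hG.to_le hUG
  have hmin' : ∀ V : Subgroup X, V < U → B ≤ Subgroup.normalizer (V : Set X) → ⁅V, Q⁆ = ⊥ := by
    intro V hVU hBV
    by_contra hVne
    exact hmin V ⟨hVU.le.trans hUG, hBV, hVne⟩ hVU
  obtain ⟨-, -, hcomm, hPΦ, -⟩ := S3736.basic B Q U hUp hBU hQB hBQ hQ hUne hmin'
  have hpow := S3736.pow_eq_one B Q U hUp hBU hQB hBQ hQ hUne hmin' hp
  have hodd : Odd p := hpp.odd_of_ne_two hp
  have H : BaerSum.Hyp U p ((p + 1) / 2) := by
    refine ⟨?_, ?_, ?_⟩
    · intro x y z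
      have h1 : (⁅(x : X), (y : X)⁆) ∈ ⁅U, U⁆ :=
        Subgroup.commutator_mem_commutator x.2 y.2
      rw [hcomm] at h1
      have h2 : ⁅(z : X), ⁅(x : X), (y : X)⁆⁆ ∈ ⁅U, (frattini ↥U).map U.subtype⁆ :=
        Subgroup.commutator_mem_commutator z.2 h1
      rw [hPΦ, Subgroup.mem_bot] at h2
      have h3 : Commute (z : X) ⁅(x : X), (y : X)⁆ := commutatorElement_eq_one_iff_commute.mp h2
      apply Subtype.ext
      exact h3.symm.eq
    · intro x
      apply Subtype.ext
      simpa using hpow x x.2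
    · obtain ⟨k, hk⟩ := hodd
      subst hk
      omega
  let ρ : Q →* MulAut U := U.normalizerMonoidHom.comp (Subgroup.inclusion (hQB.trans hBU))
  let π : P →* MulAut U := U.normalizerMonoidHom.comp (Subgroup.inclusion ((le_sup_left : P ≤ B).trans hBU))
  have hρ : ∀ (q : Q) (x : U), ((ρ q x : U) : X) = q * x * (q : X)⁻¹ := fun q x => rfl
  have hπ : ∀ (g : P) (x : U), ((π g x : U) : X) = g * x * (g : X)⁻¹ := fun g x => rfl
  let σ : P → Q ≃ Q := fun g => (Q.normalizerMonoidHom ⟨g, hPQ g.2⟩).toEquiv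
  have hσv : ∀ (g : P) (q : Q), ((σ g q : Q) : X) = g * q * (g : X)⁻¹ := fun g q => rfl
  have key := abstract_form H hP ρ π σ (by
      intro g q x
      apply Subtype.ext
      rw [hπ, hρ, hρ, hπ, hσv]
      group) hQ (by
      intro x hx q
      have h1 : (x : X) ∈ G ⊓ Subgroup.centralizer (P : Set X) := by
        refine Subgroup.mem_inf.mpr ⟨hUG x.2, ?_⟩
        rw [Subgroup.mem_centralizer_iff]
        intro g hg
        have h2 : (g : X) * x * g⁻¹ = x := by
          rw [← hπ ⟨g, hg⟩ x, hx]
        calc g * (x : X) = g * x * g⁻¹ * g := by group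
          _ = x * g := by rw [h2]
      have h3 := hC h1
      rw [Subgroup.mem_centralizer_iff] at h3
      apply Subtype.ext
      rw [hρ, h3 q q.2]
      group)
  apply hUne
  rw [Subgroup.commutator_eq_bot_iff_le_centralizer]
  intro u hu
  rw [Subgroup.mem_centralizer_iff]
  intro q hq
  have h1 := congrArg Subtype.val (key ⟨q, hq⟩ ⟨u, hu⟩)
  rw [hρ] at h1
  simp only at h1
  calc q * u = q * u * q⁻¹ * q := by group
    _ = u * q := by rw [h1]

end Cfsg.Agent.S3737
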