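import Mathlib
import Cfsg.Statements.S3740
import Cfsg.Agent.Lib.CycMax2
import Cfsg.Agent.Lib.ClassicalSmall

set_option autoImplicit false
set_option linter.unusedSimpArgs false
set_option linter.style.haveILetI false
set_option linter.unusedSectionVars false
open Cfsg

namespace Cfsg.Agent.S3740

open Subgroup
open scoped commutatorElement
open Cfsg.Agent.Lib

theorem zmod3_cases : ∀ c : ZMod 3, c = 0 ∨ c = 1 ∨ c = -1 := by decide

section basic

variable {F : Type} [Field F]

local notation "SL" => Matrix.SpecialLinearGroup (Fin 2) F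

/-- Elements of `SL₂` from entries. -/
def mk (a b c d : F) (h : a * d - b * c = 1) : SL :=
  ⟨!![a, b; c, d], by simpa [Matrix.det_fin_two_of] using h⟩

@[simp] theorem mk_00 (a b c d : F) (h : a * d - b * c = 1) : (mk a b c d h).1 0 0 = a := rfl
@[simp] theorem mk_01 (a b c d : F) (h : a * d - b * c = 1) : (mk a b c d h).1 0 1 = b := rfl
@[simp] theorem mk_10 (a b c d : F) (h : a * d - b * c = 1) : (mk a b c d h).1 1 0 = c := rfl
@[simp] theorem mk_11 (a b c d : F) (h : a * d - b * c = 1) : (mk a b c d h).1 1 1 = d := rfl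

theorem det_eq (x : SL) : x.1 0 0 * x.1 1 1 - x.1 0 1 * x.1 1 0 = 1 := by
  have := x.2
  rwa [Matrix.det_fin_two] at this

theorem ext2 {x y : SL} (h00 : x.1 0 0 = y.1 0 0) (h01 : x.1 0 1 = y.1 0 1)
    (h10 : x.1 1 0 = y.1 1 0) (h11 : x.1 1 1 = y.1 1 1) : x = y := by
  apply Subtype.ext
  ext i j
  fin_cases i <;> fin_cases j <;> assumption

theorem mul_00 (x y : SL) : (x * y).1 0 0 = x.1 0 0 * y.1 0 0 + x.1 0 1 * y.1 1 0 := by
  simp [Matrix.SpecialLinearGroup.coe_mul, Matrix.mul_apply, Fin.sum_univ_two]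
theorem mul_01 (x y : SL) : (x * y).1 0 1 = x.1 0 0 * y.1 0 1 + x.1 0 1 * y.1 1 1 := by
  simp [Matrix.SpecialLinearGroup.coe_mul, Matrix.mul_apply, Fin.sum_univ_two]
theorem mul_10 (x y : SL) : (x * y).1 1 0 = x.1 1 0 * y.1 0 0 + x.1 1 1 * y.1 1 0 := by
  simp [Matrix.SpecialLinearGroup.coe_mul, Matrix.mul_apply, Fin.sum_univ_two]
theorem mul_11 (x y : SL) : (x * y).1 1 1 = x.1 1 0 * y.1 0 1 + x.1 1 1 * y.1 1 1 := by
  simp [Matrix.SpecialLinearGroup.coe_mul, Matrix.mul_apply, Fin.sum_univ_two]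

theorem one_00 : (1 : SL).1 0 0 = 1 := by simp
theorem one_01 : (1 : SL).1 0 1 = 0 := by simp
theorem one_10 : (1 : SL).1 1 0 = 0 := by simp
theorem one_11 : (1 : SL).1 1 1 = 1 := by simp

/-- The unipotent elements. -/
def unip (s : F) : SL := mk 1 s 0 1 (by ring)

/-- Minus the identity. -/
def m1 : SL := mk (-1) 0 0 (-1) (by ring)

/-- The elements of trace zero with lower left entry one. -/
def rW (w : F) : SL := mk w (-w ^ 2 - 1) 1 (-w) (by ring)

theorem unip_mul (s t : F) : unip s * unip t = unip (s + t) := by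
  apply ext2 <;> simp [unip, mul_00, mul_01, mul_10, mul_11]
  ring

theorem unip_zero : unip (0 : F) = 1 := by
  apply ext2 <;> simp [unip]

theorem unip_pow (s : F) (n : ℕ) : unip s ^ n = unip ((n : F) * s) := by
  induction n with
  | zero => simp [unip_zero]
  | succ n ih =>
    rw [pow_succ, ih, unip_mul]
    congr 1
    push_cast
    ring

theorem unip_inv (s : F) : (unip s)⁻¹ = unip (-s) := by
  rw [inv_eq_iff_mul_eq_one, unip_mul, add_neg_cancel, unip_zero]

theorem m1_comm (x : SL) : m1 * x = x * m1 := by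
  apply ext2 <;> simp [m1, mul_00, mul_01, mul_10, mul_11]

theorem m1_m1 : (m1 : SL) * m1 = 1 := by
  apply ext2 <;> simp [m1, mul_00, mul_01, mul_10, mul_11]

theorem conj_unip_rW (s w : F) : unip s * rW w * (unip s)⁻¹ = rW (w + s) := by
  rw [unip_inv]
  apply ext2 <;> simp [unip, rW, mul_00, mul_01, mul_10, mul_11] <;> ring

theorem rW_rW (w : F) : rW w * rW w = (m1 : SL) := by
  apply ext2 <;> simp [m1, rW, mul_00, mul_01, mul_10, mul_11] <;> ring

/-- The trace of a `p`-element. -/
theorem trace_two {p : ℕ} [hp : Fact p.Prime] [CharP F p] (x : SL) (e : ℕ) (h : x ^ (p ^ e) = 1) :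
    x.1 0 0 + x.1 1 1 = 2 := by
  haveI : CharP (Matrix (Fin 2) (Fin 2) F) p := inferInstance
  haveI : ExpChar (Matrix (Fin 2) (Fin 2) F) p := ExpChar.prime hp.out
  have h1 : (x.1 - 1) ^ (p ^ e) = 0 := by
    rw [sub_pow_expChar_pow_of_commute p e (Commute.one_right x.1), one_pow]
    have h2 : x.1 ^ (p ^ e) = 1 := by
      have := congrArg Subtype.val h
      simpa using this
    rw [h2, sub_self]
  have h3 : (x.1 - 1).det ^ (p ^ e) = 0 := by
    rw [← Matrix.det_pow, h1, Matrix.det_zero]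
  have h4 : (x.1 - 1).det = 0 := pow_eq_zero_iff (pow_ne_zero e hp.out.ne_zero) |>.mp h3
  rw [Matrix.det_fin_two] at h4
  have h5 := det_eq x
  simp only [Matrix.sub_apply, Matrix.one_apply_eq, Matrix.one_apply_ne (show (0 : Fin 2) ≠ 1 by decide),
    Matrix.one_apply_ne (show (1 : Fin 2) ≠ 0 by decide), sub_zero] at h4
  linear_combination h5 - h4

/-- An element commuting with a nontrivial `p`-element has trace `±2`. -/
theorem trace_sq {p : ℕ} [hp : Fact p.Prime] [CharP F p] (x y : SL) (e : ℕ)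
    (hy : y ^ (p ^ e) = 1) (hy1 : y ≠ 1) (hxy : x * y = y * x) :
    (x.1 0 0 + x.1 1 1) ^ 2 = 4 := by
  have htr := trace_two (p := p) y e hy
  have hdy := det_eq y
  have hdx := det_eq x
  have e00 := congrArg (fun z : SL => z.1 0 0) hxy
  have e01 := congrArg (fun z : SL => z.1 0 1) hxy
  have e10 := congrArg (fun z : SL => z.1 1 0) hxy
  simp only [mul_00, mul_01, mul_10] at e00 e01 e10
  set A := y.1 0 0 - 1 with hA
  have hy00 : y.1 0 0 = 1 + A := by rw [hA]; ring
  have hy11 : y.1 1 1 = 1 - A := by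
    rw [hA]
    linear_combination htr
  set B := y.1 0 1 with hB
  set C := y.1 1 0 with hC
  have hABC : A ^ 2 + B * C = 0 := by
    rw [hy00, hy11] at hdy
    linear_combination -hdy
  simp only [hy00, hy11] at e00 e01 e10
  set x0 := x.1 0 0
  set x1 := x.1 0 1
  set x2 := x.1 1 0
  set x3 := x.1 1 1
  have E0 : x1 * C = B * x2 := by linear_combination e00
  have E1 : B * (x0 - x3) = 2 * A * x1 := by linear_combination e01
  have E2 : C * (x0 - x3) = 2 * A * x2 := by linear_combination -e10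
  have hΔ : ∀ t : F, t * ((x0 + x3) ^ 2 - 4) = 0 → t ≠ 0 → (x0 + x3) ^ 2 = 4 := by
    intro t h1 h2
    have := (mul_eq_zero.mp h1).resolve_left h2
    linear_combination this
  by_cases hB0 : B = 0
  · by_cases hC0 : C = 0
    · exfalso
      have hA0 : A = 0 := by
        have : A ^ 2 = 0 := by
          rw [hB0] at hABC
          linear_combination hABC
        exact pow_eq_zero_iff (two_ne_zero) |>.mp this
      apply hy1
      apply ext2
      · rw [hy00, hA0, one_00]
        ring
      · rw [one_01]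
        exact hB0
      · rw [one_10]
        exact hC0
      · rw [hy11, hA0, one_11]
        ring
    · apply hΔ (C ^ 2) _ (pow_ne_zero 2 hC0)
      have : C ^ 2 * ((x0 + x3) ^ 2 - 4) = (C * (x0 - x3)) ^ 2 + 4 * C ^ 2 * (x1 * x2)
          + 4 * C ^ 2 * ((x0 * x3 - x1 * x2) - 1) := by ring
      rw [this, E2, hdx]
      linear_combination (4 * x2 ^ 2) * hABC + (4 * C * x2) * E0
  · apply hΔ (B ^ 2) _ (pow_ne_zero 2 hB0)
    have : B ^ 2 * ((x0 + x3) ^ 2 - 4) = (B * (x0 - x3)) ^ 2 + 4 * B ^ 2 * (x1 * x2)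
        + 4 * B ^ 2 * ((x0 * x3 - x1 * x2) - 1) := by ring
    rw [this, E1, hdx]
    linear_combination (4 * x1 ^ 2) * hABC - (4 * B * x1) * E0

end basic

section normal

variable {F : Type} [Field F] {p : ℕ} [hp : Fact p.Prime] [hc : CharP F p]

local notation "SL" => Matrix.SpecialLinearGroup (Fin 2) F

variable [Fintype F]

omit [Fintype F] in
theorem two_ne (hp2 : p ≠ 2) : (2 : F) ≠ 0 := by
  intro h
  have h1 : ((2 : ℕ) : F) = 0 := by exact_mod_cast h
  rw [CharP.cast_eq_zero_iff F p] at h1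
  exact hp2 ((Nat.prime_dvd_prime_iff_eq hp.out Nat.prime_two).mp h1)

theorem one_of_pow (R : Subgroup SL) (hR : (Nat.card R).Coprime p) {u : SL} (hu : u ∈ R)
    (h : u ^ p = 1) : u = 1 := by
  have h1 : orderOf (⟨u, hu⟩ : R) ∣ p :=
    orderOf_dvd_of_pow_eq_one (Subtype.ext (by simpa using h))
  have h2 : orderOf (⟨u, hu⟩ : R) ∣ Nat.card R := orderOf_dvd_natCard _
  have h3 := Nat.eq_one_of_dvd_coprimes hR h2 h1
  have h4 := orderOf_eq_one_iff.mp h3
  exact congrArg Subtype.val h4

theorem unip_eq_zero (R : Subgroup SL) (hR : (Nat.card R).Coprime p) {s : F} (hs : unip s ∈ R) :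
    s = 0 := by
  have h1 : unip s ^ p = 1 := by
    rw [unip_pow, CharP.cast_eq_zero F p, zero_mul, unip_zero]
  have h2 := one_of_pow R hR hs h1
  have h3 := congrArg (fun z : SL => z.1 0 1) h2
  simpa [unip] using h3

theorem coset_pow (R : Subgroup SL) (haR : unip (1 : F) ∈ normalizer (R : Set SL)) {r : SL}
    (hr : r ∈ R) (k n : ℕ) : ∃ r' ∈ R, (r * unip (1 : F) ^ k) ^ n = r' * unip (1 : F) ^ (k * n) := by
  induction n with
  | zero => exact ⟨1, R.one_mem, by simp⟩
  | succ n ih =>
    obtain ⟨r', hr', h⟩ := ih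
    set b := unip (1 : F) with hb
    have hbn : b ^ (k * n) ∈ normalizer (R : Set SL) := Subgroup.pow_mem _ haR _
    have h1 : b ^ (k * n) * r * (b ^ (k * n))⁻¹ ∈ R := (mem_normalizer_iff.mp hbn r).mp hr
    refine ⟨r' * (b ^ (k * n) * r * (b ^ (k * n))⁻¹), R.mul_mem hr' h1, ?_⟩
    rw [pow_succ, h, Nat.mul_succ, pow_add]
    group

theorem trace_coset (R : Subgroup SL) (hR : (Nat.card R).Coprime p)
    (haR : unip (1 : F) ∈ normalizer (R : Set SL)) {r : SL} (hr : r ∈ R) (k : ℕ) (hk : ¬ p ∣ k) :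
    (r.1 0 0 + (k : F) * r.1 1 0 + r.1 1 1) ^ 2 = 4 := by
  have hpp : p.Prime := hp.out
  set x := r * unip (1 : F) ^ k with hx
  obtain ⟨r', hr', h1⟩ := coset_pow R haR hr k (Nat.card R)
  obtain ⟨r'', hr'', h2⟩ := coset_pow R haR hr k p
  have ha3 : unip (1 : F) ^ (k * p) = 1 := by
    rw [unip_pow]
    push_cast
    rw [CharP.cast_eq_zero F p, mul_zero, zero_mul, unip_zero]
  rw [ha3, mul_one] at h2
  have hr''n : r'' ^ Nat.card R = 1 := by
    have h0 : (⟨r'', hr''⟩ : R) ^ Nat.card R = 1 := pow_card_eq_one'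
    have h00 := congrArg Subtype.val h0
    rwa [Subgroup.coe_pow, Subgroup.coe_one] at h00
  have hy : (x ^ Nat.card R) ^ (p ^ 1) = 1 := by
    rw [pow_one, ← pow_mul, mul_comm, pow_mul, h2, hr''n]
  have hy1 : x ^ Nat.card R ≠ 1 := by
    intro h
    rw [h1] at h
    have h3 : unip (1 : F) ^ (k * Nat.card R) = r'⁻¹ := eq_inv_of_mul_eq_one_right h
    have h4 : unip (1 : F) ^ (k * Nat.card R) ∈ R := by
      rw [h3]
      exact R.inv_mem hr'
    rw [unip_pow] at h4
    have h5 := unip_eq_zero R hR h4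
    rw [mul_one, CharP.cast_eq_zero_iff F p] at h5
    rcases (Nat.Prime.dvd_mul hpp).mp h5 with h6 | h6
    · exact hk h6
    · exact hpp.one_lt.ne' (Nat.eq_one_of_dvd_coprimes hR h6 dvd_rfl)
  have h3 := trace_sq (p := p) x (x ^ Nat.card R) 1 hy hy1 ((Commute.refl x).pow_right _).eq
  have h4 : x.1 0 0 = r.1 0 0 := by
    rw [hx, unip_pow, mul_00]
    simp [unip]
  have h5 : x.1 1 1 = (k : F) * r.1 1 0 + r.1 1 1 := by
    rw [hx, unip_pow, mul_11]
    simp [unip]
    ring
  rw [h4, h5] at h3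
  linear_combination h3

/-- Elements of `R` with vanishing lower left entry are `±1`. -/
theorem eq_of_low_zero (hp2 : p ≠ 2) (R : Subgroup SL) (hR : (Nat.card R).Coprime p)
    (haR : unip (1 : F) ∈ normalizer (R : Set SL)) {r : SL} (hr : r ∈ R) (h0 : r.1 1 0 = 0) :
    r = 1 ∨ r = m1 := by
  have hdet := det_eq r
  rw [h0, mul_zero, sub_zero] at hdet
  set α := r.1 0 0 with hα
  set β := r.1 0 1 with hβ
  set δ := r.1 1 1 with hδ
  have hα0 : α ≠ 0 := by
    rintro h
    rw [h, zero_mul] at hdet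
    exact zero_ne_one hdet
  -- the commutator with `a₀`
  have e : unip (1 : F) * r = unip (α * (δ - α)) * r * unip (1 : F) := by
    apply ext2
    · simp [unip, mul_00, mul_01, mul_10, mul_11, h0, ← hα, ← hβ, ← hδ]
    · simp [unip, mul_00, mul_01, mul_10, mul_11, h0, ← hα, ← hβ, ← hδ]
      linear_combination (α - δ) * hdet
    · simp [unip, mul_00, mul_01, mul_10, mul_11, h0, ← hα, ← hβ, ← hδ]
    · simp [unip, mul_00, mul_01, mul_10, mul_11, h0, ← hα, ← hβ, ← hδ]
  have h1 : unip (1 : F) * r * (unip (1 : F))⁻¹ ∈ R := (mem_normalizer_iff.mp haR r).mp hr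
  have h2 : unip (α * (δ - α)) ∈ R := by
    have h3 : unip (α * (δ - α)) = unip (1 : F) * r * (unip (1 : F))⁻¹ * r⁻¹ := by
      rw [e]
      group
    rw [h3]
    exact R.mul_mem h1 (R.inv_mem hr)
  have h3 := unip_eq_zero R hR h2
  have hδα : δ = α := by
    have := (mul_eq_zero.mp h3).resolve_left hα0
    linear_combination this
  rw [hδα] at hdet
  -- the square
  have h4 : unip (2 * α * β) ∈ R := by
    have h5 : unip (2 * α * β) = r * r := by
      apply ext2
      · simp [unip, mul_00, mul_01, mul_10, mul_11, h0, ← hα, ← hβ, ← hδ]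
        linear_combination -hdet
      · simp [unip, mul_00, mul_01, mul_10, mul_11, h0, ← hα, ← hβ, ← hδ, hδα]
        ring
      · simp [unip, mul_00, mul_01, mul_10, mul_11, h0, ← hα, ← hβ, ← hδ]
      · simp [unip, mul_00, mul_01, mul_10, mul_11, h0, ← hα, ← hβ, ← hδ, hδα]
        linear_combination -hdet
    rw [h5]
    exact R.mul_mem hr hr
  have h5 := unip_eq_zero R hR h4
  have h2ne : (2 : F) ≠ 0 := two_ne (p := p) hp2
  have hβ0 : β = 0 := by
    have := (mul_eq_zero.mp h5).resolve_left (mul_ne_zero h2ne hα0)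
    exact this
  have hα2 : (α - 1) * (α + 1) = 0 := by
    linear_combination hdet
  rcases mul_eq_zero.mp hα2 with h6 | h6
  · left
    apply ext2
    · rw [one_00]
      linear_combination h6
    · rw [one_01]
      exact hβ0
    · rw [one_10]
      exact h0
    · rw [one_11]
      show δ = 1
      rw [hδα]
      linear_combination h6
  · right
    apply ext2
    · simp only [m1, mk_00]
      linear_combination h6
    · simp only [m1, mk_01]
      exact hβ0
    · simp only [m1, mk_10]
      exact h0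
    · simp only [m1, mk_11]
      show δ = -1
      rw [hδα]
      linear_combination h6

theorem exists_low_ne (hp2 : p ≠ 2) (R : Subgroup SL) (hR : (Nat.card R).Coprime p)
    (haR : unip (1 : F) ∈ normalizer (R : Set SL)) (hnt : ⁅R, zpowers (unip (1 : F))⁆ ≠ ⊥) :
    ∃ r ∈ R, r.1 1 0 ≠ 0 := by
  by_contra hall
  push Not at hall
  apply hnt
  rw [commutator_eq_bot_iff_le_centralizer]
  intro r hr
  rw [mem_centralizer_iff]
  rintro _ ⟨k, rfl⟩
  rcases eq_of_low_zero (p := p) hp2 R hR haR hr (hall r hr) with rfl | rfl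
  · simp
  · exact (m1_comm _).symm

theorem prime_eq_three (hp2 : p ≠ 2) (R : Subgroup SL) (hR : (Nat.card R).Coprime p)
    (haR : unip (1 : F) ∈ normalizer (R : Set SL)) {r : SL} (hr : r ∈ R) (hr0 : r.1 1 0 ≠ 0) :
    p = 3 := by
  have hpp : p.Prime := hp.out
  by_contra hne
  have h1 := trace_coset R hR haR hr 1 (fun h => hpp.one_lt.ne' (Nat.dvd_one.mp h))
  have h2 := trace_coset R hR haR hr 2 (fun h => hp2 ((Nat.prime_dvd_prime_iff_eq hpp Nat.prime_two).mp h))
  have h3 := trace_coset R hR haR hr 3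
    (fun h => hne ((Nat.prime_dvd_prime_iff_eq hpp Nat.prime_three).mp h))
  push_cast at h1 h2 h3
  have h4 : 2 * (r.1 1 0) ^ 2 = 0 := by
    linear_combination h3 - 2 * h2 + h1
  have h5 := (mul_eq_zero.mp h4).resolve_left (two_ne (p := p) hp2)
  exact hr0 (pow_eq_zero_iff two_ne_zero |>.mp h5)

/-- The case `p = 3`. -/
theorem case_three [Fact (Nat.Prime 3)] [CharP F 3] (R : Subgroup SL) (hR : (Nat.card R).Coprime 3)
    (haR : unip (1 : F) ∈ normalizer (R : Set SL)) (hnt : ⁅R, zpowers (unip (1 : F))⁆ ≠ ⊥) :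
    Nonempty (↥R ≃* QuaternionGroup 2) ∧
      Nonempty (↥(R ⊔ zpowers (unip (1 : F))) ≃* Matrix.SpecialLinearGroup (Fin 2) (ZMod 3)) := by
  classical
  have h3 : (3 : F) = 0 := by
    have := CharP.cast_eq_zero F 3
    exact_mod_cast this
  have h2ne : (2 : F) ≠ 0 := two_ne (p := 3) (by norm_num)
  have h1ne : (-1 : F) ≠ 1 := by
    intro h
    apply h2ne
    linear_combination -h
  -- elements with nonzero lower left entry
  have F3 : ∀ r ∈ R, r.1 1 0 ≠ 0 → r.1 0 0 + r.1 1 1 = 0 ∧ (r.1 1 0) ^ 2 = 1 := by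
    intro r hr h0
    have h1 := trace_coset R hR haR hr 1 (by norm_num)
    have h2 := trace_coset R hR haR hr 2 (by norm_num)
    push_cast at h1 h2
    have h4 : 2 * (r.1 1 0 * (r.1 0 0 + r.1 1 1)) = 0 := by
      linear_combination h2 - h1 - (r.1 1 0) ^ 2 * h3
    have h5 := (mul_eq_zero.mp ((mul_eq_zero.mp h4).resolve_left h2ne)).resolve_left h0
    refine ⟨h5, ?_⟩
    have h6 : (r.1 0 0 + 1 * r.1 1 0 + r.1 1 1) = r.1 1 0 := by
      linear_combination h5
    rw [h6] at h1
    linear_combination h1 + h3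
  have F4 : ∀ r ∈ R, r.1 1 0 ≠ 0 → r * r = m1 := by
    intro r hr h0
    obtain ⟨h5, -⟩ := F3 r hr h0
    have hd := det_eq r
    apply ext2
    · simp only [mul_00, m1, mk_00]
      linear_combination (r.1 0 0) * h5 - hd
    · simp only [mul_01, m1, mk_01]
      linear_combination (r.1 0 1) * h5
    · simp only [mul_10, m1, mk_10]
      linear_combination (r.1 1 0) * h5
    · simp only [mul_11, m1, mk_11]
      linear_combination (r.1 1 1) * h5 - hd
  have F5 : ∀ r ∈ R, r.1 1 0 = 1 → r = rW (r.1 0 0) := by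
    intro r hr h0
    obtain ⟨h5, -⟩ := F3 r hr (by rw [h0]; exact one_ne_zero)
    have hd := det_eq r
    rw [h0] at hd
    apply ext2
    · simp [rW]
    · simp only [rW, mk_01]
      linear_combination (r.1 0 0) * h5 - hd
    · simp only [rW, mk_10]
      exact h0
    · simp only [rW, mk_11]
      linear_combination h5
  obtain ⟨r₀, hr₀, hr₀0⟩ := exists_low_ne (p := 3) (by norm_num) R hR haR hnt
  have hm1 : (m1 : SL) ∈ R := by
    rw [← F4 r₀ hr₀ hr₀0]
    exact R.mul_mem hr₀ hr₀
  have hneg : ∀ r : SL, (m1 * r).1 1 0 = - r.1 1 0 ∧ (m1 * r).1 0 0 = - r.1 0 0 := by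
    intro r
    simp [m1, mul_00, mul_10]
  -- reduce to lower left entry one
  have hrep : ∀ r ∈ R, r.1 1 0 ≠ 0 → (rW (r.1 0 0) ∈ R ∧ r = rW (r.1 0 0)) ∨
      (rW (-r.1 0 0) ∈ R ∧ r = m1 * rW (-r.1 0 0)) := by
    intro r hr h0
    obtain ⟨-, h5⟩ := F3 r hr h0
    have h6 : (r.1 1 0 - 1) * (r.1 1 0 + 1) = 0 := by
      linear_combination h5
    rcases mul_eq_zero.mp h6 with h7 | h7
    · left
      have h8 : r.1 1 0 = 1 := by linear_combination h7
      have h9 := F5 r hr h8
      rw [← h9]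
      exact ⟨hr, rfl⟩
    · right
      have h8 : r.1 1 0 = -1 := by linear_combination h7
      have h9 : m1 * r ∈ R := R.mul_mem hm1 hr
      have h10 : (m1 * r).1 1 0 = 1 := by
        rw [(hneg r).1, h8]
        ring
      have h11 := F5 _ h9 h10
      rw [(hneg r).2] at h11
      rw [← h11]
      refine ⟨h9, ?_⟩
      rw [← mul_assoc, m1_m1, one_mul]
  obtain ⟨s, hs⟩ : ∃ s, rW s ∈ R := by
    rcases hrep r₀ hr₀ hr₀0 with ⟨h, -⟩ | ⟨h, -⟩
    · exact ⟨_, h⟩
    · exact ⟨_, h⟩
  have hW : ∀ w, rW w ∈ R → rW (w + 1) ∈ R := by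
    intro w hw
    rw [← conj_unip_rW]
    exact (mem_normalizer_iff.mp haR _).mp hw
  have hdiff : ∀ w, rW w ∈ R → w = s ∨ w = s + 1 ∨ w = s - 1 := by
    intro w hw
    have h1 : rW s * rW w ∈ R := R.mul_mem hs hw
    have h2 : (rW s * rW w).1 1 0 = w - s := by
      simp [rW, mul_10]
      ring
    by_cases h0 : w - s = 0
    · left
      linear_combination h0
    · obtain ⟨-, h5⟩ := F3 _ h1 (by rw [h2]; exact h0)
      rw [h2] at h5
      have h6 : (w - s - 1) * (w - s + 1) = 0 := by
        linear_combination h5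
      rcases mul_eq_zero.mp h6 with h7 | h7
      · right; left
        linear_combination h7
      · right; right
        linear_combination h7
  let κ : ZMod 3 →+* F := ZMod.castHom (dvd_refl 3) F
  have hZ3 : ∀ c : ZMod 3, c = 0 ∨ c = 1 ∨ c = -1 := zmod3_cases
  have hWc : ∀ c : ZMod 3, rW (s + κ c) ∈ R := by
    intro c
    rcases hZ3 c with rfl | rfl | rfl
    · simpa using hs
    · simpa using hW s hs
    · have h1 := hW _ (hW s hs)
      have h2 : s + κ (-1) = s + 1 + 1 := by
        rw [map_neg, map_one]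
        linear_combination -h3
      rw [h2]
      exact h1
  have hlist : ∀ r ∈ R, r = 1 ∨ r = m1 ∨ ∃ c : ZMod 3, r = rW (s + κ c) ∨ r = m1 * rW (s + κ c) := by
    intro r hr
    by_cases h0 : r.1 1 0 = 0
    · rcases eq_of_low_zero (p := 3) (by norm_num) R hR haR hr h0 with h | h
      · exact Or.inl h
      · exact Or.inr (Or.inl h)
    · right; right
      have hcases : ∀ w, rW w ∈ R → ∃ c : ZMod 3, w = s + κ c := by
        intro w hw
        rcases hdiff w hw with h | h | h
        · exact ⟨0, by simp [h]⟩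
        · exact ⟨1, by simp [h]⟩
        · exact ⟨-1, by simp [h]; ring⟩
      rcases hrep r hr h0 with ⟨h1, h2⟩ | ⟨h1, h2⟩
      · obtain ⟨c, hc⟩ := hcases _ h1
        refine ⟨c, Or.inl ?_⟩
        rw [← hc]
        exact h2
      · obtain ⟨c, hc⟩ := hcases _ h1
        refine ⟨c, Or.inr ?_⟩
        rw [← hc]
        exact h2
  -- the quaternion group
  let ζ : R := ⟨rW s, hs⟩
  let t : R := ⟨rW (s + 1), hW s hs⟩
  let u : R := ⟨m1, hm1⟩
  have huc : ∀ x : R, u * x = x * u := fun x => Subtype.ext (m1_comm x.1)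
  have huu : u * u = 1 := Subtype.ext m1_m1
  have hζζ : ζ * ζ = u := Subtype.ext (rW_rW s)
  have htt : t * t = u := Subtype.ext (rW_rW _)
  have hu1 : u ≠ 1 := by
    intro h
    have h1 := congrArg (fun z : R => z.1.1 0 0) h
    simp only [u, m1, mk_00] at h1
    exact h1ne (by simpa using h1)
  have hζ4 : ζ ^ (2 * 2) = 1 := by
    rw [pow_mul, pow_two ζ, hζζ, pow_two u, huu]
  have hζ2 : ¬ ζ ^ (2 ^ 1) = 1 := by
    rw [pow_one, pow_two, hζζ]
    exact hu1
  have hord : orderOf ζ = 2 * 2 := by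
    have := orderOf_eq_prime_pow (p := 2) (n := 1) hζ2 (by simpa using hζ4)
    simpa using this
  have hT : (t * ζ) * (t * ζ) = u := by
    apply Subtype.ext
    apply F4 (rW (s + 1) * rW s) (R.mul_mem (hW s hs) hs)
    simp [rW, mul_10]
  have hconj : t * ζ * t⁻¹ = ζ⁻¹ := by
    have htu : t⁻¹ * t⁻¹ = u⁻¹ := by
      rw [← htt]
      group
    calc t * ζ * t⁻¹ = ((t * ζ) * (t * ζ)) * ζ⁻¹ * (t⁻¹ * t⁻¹) := by group
      _ = u * ζ⁻¹ * u⁻¹ := by rw [hT, htu]
      _ = ζ⁻¹ := by
        rw [huc]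
        group
  have htout : ∀ k : ℕ, ζ ^ k ≠ t := by
    have hP : ∀ k : ℕ, ζ ^ k = 1 ∨ ζ ^ k = ζ ∨ ζ ^ k = u ∨ ζ ^ k = ζ * u := by
      intro k
      induction k with
      | zero => exact Or.inl (pow_zero _)
      | succ k ih =>
        rw [pow_succ]
        rcases ih with h | h | h | h <;> rw [h]
        · right; left
          exact one_mul _
        · right; right; left
          exact hζζ
        · right; right; right
          exact huc _
        · left
          calc ζ * u * ζ = ζ * (ζ * u) := by rw [mul_assoc, huc]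
            _ = (ζ * ζ) * u := by rw [mul_assoc]
            _ = 1 := by rw [hζζ, huu]
    intro k h
    have ht1 : t.1.1 1 0 = 1 := by simp [t, rW]
    have ht0 : t.1.1 0 0 = s + 1 := by simp [t, rW]
    rcases hP k with h1 | h1 | h1 | h1 <;> rw [h1] at h <;> rw [← h] at ht1 ht0
    · simp at ht1
    · simp [ζ, rW] at ht0
    · simp [u, m1] at ht1
    · simp [ζ, u, m1, rW, mul_10] at ht1
      exact h1ne ht1
  have hle8 : Nat.card R ≤ 8 := by
    let T := Bool × Option (ZMod 3)
    let fv : T → SL := fun x => match x with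
      | (true, none) => 1
      | (false, none) => m1
      | (true, some c) => rW (s + κ c)
      | (false, some c) => m1 * rW (s + κ c)
    have hfv : ∀ x, fv x ∈ R := by
      rintro ⟨b, c⟩
      cases b <;> cases c
      · exact hm1
      · exact R.mul_mem hm1 (hWc _)
      · exact R.one_mem
      · exact hWc _
    let f : T → R := fun x => ⟨fv x, hfv x⟩
    have hf : Function.Surjective f := by
      rintro ⟨r, hr⟩
      rcases hlist r hr with h | h | ⟨c, h | h⟩
      · exact ⟨(true, none), Subtype.ext h.symm⟩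
      · exact ⟨(false, none), Subtype.ext h.symm⟩
      · exact ⟨(true, some c), Subtype.ext h.symm⟩
      · exact ⟨(false, some c), Subtype.ext h.symm⟩
    have h1 := Nat.card_le_card_of_surjective f hf
    have h2 : Nat.card T = 8 := by
      rw [Nat.card_eq_fintype_card]
      simp [T, ZMod.card]
    omega
  have hdvd4 : 4 ∣ Nat.card R := by
    have := orderOf_dvd_natCard ζ
    rwa [hord] at this
  have hne4 : Nat.card R ≠ 4 := by
    intro h
    have h1 : zpowers ζ = ⊤ := by
      apply Subgroup.eq_top_of_card_eq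
      rw [Nat.card_zpowers, hord, h]
    have h2 : t ∈ zpowers ζ := by
      rw [h1]
      trivial
    have hfin : IsOfFinOrder ζ := isOfFinOrder_of_finite ζ
    rw [← hfin.mem_powers_iff_mem_zpowers] at h2
    obtain ⟨k, hk⟩ := (Submonoid.mem_powers_iff _ _).1 h2
    exact htout k hk
  have hcard8 : Nat.card R = 8 := by
    obtain ⟨c, hc⟩ := hdvd4
    have h0 : Nat.card R ≠ 0 := Nat.card_pos.ne'
    omega
  refine ⟨?_, ?_⟩
  · haveI : NeZero (2 * 2) := ⟨by norm_num⟩
    exact CycMax2.nonempty_quaternion_of_card 2 ζ t hζ4 (by rw [htt, pow_two, hζζ]) hconj hord htout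
      (by rw [hcard8])
  -- the embedding of `SL₂(3)`
  let ι : Matrix.SpecialLinearGroup (Fin 2) (ZMod 3) →* SL :=
    (MulAut.conj (unip s)).toMonoidHom.comp (Matrix.SpecialLinearGroup.map κ)
  have hι : ∀ x, ι x = unip s * (Matrix.SpecialLinearGroup.map κ x) * (unip s)⁻¹ := fun x => rfl
  have hmap : ∀ (x : Matrix.SpecialLinearGroup (Fin 2) (ZMod 3)) (i j : Fin 2),
      (Matrix.SpecialLinearGroup.map κ x).1 i j = κ (x.1 i j) := fun x i j => rfl
  have hιinj : Function.Injective ι := by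
    intro x y h
    have h1 : Matrix.SpecialLinearGroup.map κ x = Matrix.SpecialLinearGroup.map κ y := by
      rw [hι, hι] at h
      exact mul_left_cancel (mul_right_cancel h)
    have hk : Function.Injective κ := κ.injective
    apply ext2
    · apply hk
      rw [← hmap, ← hmap, h1]
    · apply hk
      rw [← hmap, ← hmap, h1]
    · apply hk
      rw [← hmap, ← hmap, h1]
    · apply hk
      rw [← hmap, ← hmap, h1]
  have himg_unip : ι (unip 1) = unip (1 : F) := by
    rw [hι]
    have h1 : Matrix.SpecialLinearGroup.map κ (unip (1 : ZMod 3)) = unip (1 : F) := by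
      apply ext2 <;> rw [hmap] <;> simp [unip]
    rw [h1, unip_inv, unip_mul, unip_mul]
    congr 1
    ring
  have himg_m1 : ι m1 = (m1 : SL) := by
    rw [hι]
    have h1 : Matrix.SpecialLinearGroup.map κ (m1 : Matrix.SpecialLinearGroup (Fin 2) (ZMod 3)) = (m1 : SL) := by
      apply ext2 <;> rw [hmap] <;> simp [m1]
    rw [h1, ← m1_comm]
    group
  have himg_rW : ∀ c : ZMod 3, ι (rW c) = rW (s + κ c) := by
    intro c
    rw [hι]
    have h1 : Matrix.SpecialLinearGroup.map κ (rW c) = rW (κ c) := by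
      apply ext2 <;> rw [hmap] <;> simp [rW]
    rw [h1, conj_unip_rW, add_comm]
  have hle : R ⊔ zpowers (unip (1 : F)) ≤ ι.range := by
    apply sup_le
    · intro r hr
      rcases hlist r hr with h | h | ⟨c, h | h⟩
      · rw [h]
        exact one_mem _
      · rw [h, ← himg_m1]
        exact ⟨_, rfl⟩
      · rw [h, ← himg_rW]
        exact ⟨_, rfl⟩
      · rw [h, ← himg_rW, ← himg_m1, ← map_mul]
        exact ⟨_, rfl⟩
    · rw [zpowers_le, ← himg_unip]
      exact ⟨_, rfl⟩
  have hrange : Nat.card ι.range = 24 := by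
    rw [← Nat.card_congr (MonoidHom.ofInjective hιinj).toEquiv, ClassicalSmall.card_SL2, ZMod.card]
  have hK8 : 8 ∣ Nat.card ↥(R ⊔ zpowers (unip (1 : F))) := by
    rw [← hcard8]
    exact Subgroup.card_dvd_of_le le_sup_left
  have hK3 : 3 ∣ Nat.card ↥(R ⊔ zpowers (unip (1 : F))) := by
    have hmem : unip (1 : F) ∈ R ⊔ zpowers (unip (1 : F)) :=
      Subgroup.mem_sup_right (mem_zpowers _)
    have h1 : orderOf (⟨unip (1 : F), hmem⟩ : ↥(R ⊔ zpowers (unip (1 : F)))) = 3 := by
      rw [Subgroup.orderOf_mk]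
      apply orderOf_eq_prime
      · rw [unip_pow]
        push_cast
        rw [h3, zero_mul, unip_zero]
      · intro h
        have h2 := congrArg (fun z : SL => z.1 0 1) h
        simp [unip] at h2
    rw [← h1]
    exact orderOf_dvd_natCard _
  have hK24 : 24 ≤ Nat.card ↥(R ⊔ zpowers (unip (1 : F))) := by
    have h1 : 8 * 3 ∣ Nat.card ↥(R ⊔ zpowers (unip (1 : F))) :=
      Nat.Coprime.mul_dvd_of_dvd_of_dvd (by norm_num) hK8 hK3
    exact Nat.le_of_dvd Nat.card_pos h1
  have hKeq : R ⊔ zpowers (unip (1 : F)) = ι.range :=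
    Subgroup.eq_of_le_of_card_ge hle (by omega)
  rw [hKeq]
  exact ⟨(MonoidHom.ofInjective hιinj).symm⟩
end normal

section transport

variable {F : Type} [Field F]

local notation "SL" => Matrix.SpecialLinearGroup (Fin 2) F

/-- Conjugation by an invertible matrix. -/
def conjE (u v : Matrix (Fin 2) (Fin 2) F) (huv : u * v = 1) (hvu : v * u = 1) : SL ≃* SL where
  toFun x := ⟨v * x.1 * u, by
    rw [Matrix.det_mul, Matrix.det_mul, x.2, mul_one, ← Matrix.det_mul, hvu, Matrix.det_one]⟩
  invFun x := ⟨u * x.1 * v, by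
    rw [Matrix.det_mul, Matrix.det_mul, x.2, mul_one, ← Matrix.det_mul, huv, Matrix.det_one]⟩
  left_inv x := by
    apply Subtype.ext
    show u * (v * x.1 * u) * v = x.1
    calc u * (v * x.1 * u) * v = (u * v) * x.1 * (u * v) := by
          simp only [Matrix.mul_assoc]
      _ = x.1 := by rw [huv, Matrix.one_mul, Matrix.mul_one]
  right_inv x := by
    apply Subtype.ext
    show v * (u * x.1 * v) * u = x.1
    calc v * (u * x.1 * v) * u = (v * u) * x.1 * (v * u) := by
          simp only [Matrix.mul_assoc]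
      _ = x.1 := by rw [hvu, Matrix.one_mul, Matrix.mul_one]
  map_mul' x y := by
    apply Subtype.ext
    show v * (x.1 * y.1) * u = (v * x.1 * u) * (v * y.1 * u)
    calc v * (x.1 * y.1) * u = v * x.1 * 1 * y.1 * u := by
          simp only [Matrix.mul_one, Matrix.mul_assoc]
      _ = v * x.1 * (u * v) * y.1 * u := by rw [huv]
      _ = (v * x.1 * u) * (v * y.1 * u) := by simp only [Matrix.mul_assoc]

theorem exists_conj_unip (a : SL) (h1 : a ≠ 1) (htr : a.1 0 0 + a.1 1 1 = 2) :
    ∃ ψ : SL ≃* SL, ψ a = unip 1 := by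
  have hd := det_eq a
  set A := a.1 0 0 - 1 with hA
  have h00 : a.1 0 0 = 1 + A := by rw [hA]; ring
  have h11 : a.1 1 1 = 1 - A := by
    rw [hA]
    linear_combination htr
  set B := a.1 0 1 with hB
  set C := a.1 1 0 with hC
  have hABC : A ^ 2 + B * C = 0 := by
    rw [h00, h11] at hd
    linear_combination -hd
  have hU : ∀ u v : Matrix (Fin 2) (Fin 2) F, u * v = 1 → v * u = 1 →
      a.1 * u = u * (unip (1 : F)).1 → ∃ ψ : SL ≃* SL, ψ a = unip 1 := by
    intro u v huv hvu hau
    refine ⟨conjE u v huv hvu, ?_⟩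
    apply Subtype.ext
    show v * a.1 * u = (unip (1 : F)).1
    rw [Matrix.mul_assoc, hau, ← Matrix.mul_assoc, hvu, Matrix.one_mul]
  have ha : a.1 = !![1 + A, B; C, 1 - A] := by
    ext i j
    fin_cases i <;> fin_cases j
    · exact h00
    · rfl
    · rfl
    · exact h11
  have hun : (unip (1 : F)).1 = !![1, 1; 0, 1] := rfl
  by_cases hC0 : C = 0
  · have hA0 : A = 0 := by
      have : A ^ 2 = 0 := by
        rw [hC0] at hABC
        linear_combination hABC
      exact pow_eq_zero_iff two_ne_zero |>.mp this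
    have hB0 : B ≠ 0 := by
      intro hB0
      apply h1
      apply ext2
      · rw [h00, hA0, one_00]
        ring
      · rw [one_01]
        exact hB0
      · rw [one_10]
        exact hC0
      · rw [h11, hA0, one_11]
        ring
    apply hU !![B, 0; 0, 1] !![B⁻¹, 0; 0, 1]
    · simp [Matrix.mul_fin_two, hB0, Matrix.one_fin_two]
    · simp [Matrix.mul_fin_two, hB0, Matrix.one_fin_two]
    · rw [ha, hun, hA0, hC0]
      simp [Matrix.mul_fin_two]
  · apply hU !![A, 1; C, 0] !![0, C⁻¹; 1, -A * C⁻¹]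
    · simp [Matrix.mul_fin_two, hC0, Matrix.one_fin_two]
    · simp [Matrix.mul_fin_two, hC0, Matrix.one_fin_two]
    · rw [ha, hun]
      simp only [Matrix.mul_fin_two]
      congr 1
      have e1 : (1 + A) * A + B * C = A := by linear_combination hABC
      have e2 : (1 + A) * 1 + B * 0 = A * 1 + 1 * 1 := by ring
      have e3 : C * A + (1 - A) * C = C * 1 + 0 * 0 := by ring
      have e4 : C * 1 + (1 - A) * 0 = C * 1 + 0 * 1 := by ring
      have e5 : A = A * 1 + 1 * 0 := by ring
      rw [e1, e2, e3, e4, ← e5]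

end transport

/-- Let F be a finite field of odd characteristic p and let a be a p-element of SL₂(F) normalizing a subgroup R of order prime to p with [R, a] ≠ 1. Then p = 3, R is a quaternion group of order 8, and R⟨a⟩ is isomorphic to SL₂(3). -/
theorem result (F : Type) [Field F] [Fintype F] {p : ℕ} [Fact p.Prime] [CharP F p] (hp : p ≠ 2) (a : Matrix.SpecialLinearGroup (Fin 2) F) (ha : IsPGroup p ↥(Subgroup.zpowers a)) (R : Subgroup (Matrix.SpecialLinearGroup (Fin 2) F)) (hR : (Nat.card R).Coprime p) (haR : a ∈ Subgroup.normalizer (R : Set (Matrix.SpecialLinearGroup (Fin 2) F))) (hnt : ⁅R, Subgroup.zpowers a⁆ ≠ ⊥) : p = 3 ∧ Nonempty (↥R ≃* QuaternionGroup 2) ∧ Nonempty (↥(R ⊔ Subgroup.zpowers a) ≃* Matrix.SpecialLinearGroup (Fin 2) (ZMod 3)) := by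
  have ha1 : a ≠ 1 := by
    rintro rfl
    apply hnt
    rw [commutator_eq_bot_iff_le_centralizer]
    intro r _
    rw [mem_centralizer_iff]
    rintro _ ⟨k, rfl⟩
    simp
  obtain ⟨e, he⟩ := ha ⟨a, mem_zpowers a⟩
  have he' : a ^ (p ^ e) = 1 := by
    have := congrArg Subtype.val he
    simpa using this
  have htr := trace_two (p := p) a e he'
  obtain ⟨ψ, hψ⟩ := exists_conj_unip a ha1 htr
  have hinj : Function.Injective ψ.toMonoidHom := ψ.injective
  set R' := R.map ψ.toMonoidHom with hR'def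
  have hcard : Nat.card R' = Nat.card R := Nat.card_congr (R.equivMapOfInjective _ hinj).symm.toEquiv
  have hR' : (Nat.card R').Coprime p := by rwa [hcard]
  have haR' : unip (1 : F) ∈ normalizer (R' : Set (Matrix.SpecialLinearGroup (Fin 2) F)) := by
    rw [mem_normalizer_iff]
    intro h
    rw [hR'def, ← hψ]
    simp only [Subgroup.mem_map, MulEquiv.coe_toMonoidHom]
    constructor
    · rintro ⟨x, hx, rfl⟩
      refine ⟨a * x * a⁻¹, (mem_normalizer_iff.mp haR x).mp hx, ?_⟩
      simp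
    · rintro ⟨x, hx, hxe⟩
      refine ⟨a⁻¹ * x * a, ?_, ?_⟩
      · have : a * (a⁻¹ * x * a) * a⁻¹ ∈ R := by
          simpa [mul_assoc] using hx
        exact (mem_normalizer_iff.mp haR _).mpr this
      · simp only [map_mul, map_inv] at hxe ⊢
        rw [hxe]
        group
  have hzp : (zpowers a).map ψ.toMonoidHom = zpowers (unip (1 : F)) := by
    rw [MonoidHom.map_zpowers]
    simp [hψ]
  have hnt' : ⁅R', zpowers (unip (1 : F))⁆ ≠ ⊥ := by
    rw [← hzp, hR'def, ← Subgroup.map_commutator]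
    intro h
    exact hnt ((Subgroup.map_eq_bot_iff_of_injective _ hinj).mp h)
  obtain ⟨r, hr, hr0⟩ := exists_low_ne (p := p) hp R' hR' haR' hnt'
  have hp3 : p = 3 := prime_eq_three (p := p) hp R' hR' haR' hr hr0
  subst hp3
  obtain ⟨⟨f1⟩, ⟨f2⟩⟩ := case_three R' hR' haR' hnt'
  refine ⟨rfl, ⟨(R.equivMapOfInjective _ hinj).trans f1⟩, ?_⟩
  have hsup : (R ⊔ zpowers a).map ψ.toMonoidHom = R' ⊔ zpowers (unip (1 : F)) := by
    rw [Subgroup.map_sup, hzp]
  refine ⟨((R ⊔ zpowers a).equivMapOfInjective _ hinj).trans ((MulEquiv.subgroupCongr hsup).trans f2)⟩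

end Cfsg.Agent.S3740
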