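import Mathlib
import Cfsg.Statements.S3741

set_option autoImplicit false
open Cfsg

namespace Cfsg.Agent.S3741

variable {G : Type*} [Group G]

theorem index_bound [Finite G] (B D : Subgroup G) (a : G) (h : ∀ b ∈ B, b * a * b⁻¹ * a⁻¹ ∈ D) :
    ((Subgroup.centralizer ({a} : Set G)).subgroupOf B).index ≤ Nat.card D := by
  let K := (Subgroup.centralizer ({a} : Set G)).subgroupOf B
  let f : B → D := fun b => ⟨b * a * (b : G)⁻¹ * a⁻¹, h b b.2⟩
  have hf : ∀ x y : B, f x = f y ↔ x⁻¹ * y ∈ K := by
    intro x y
    simp only [K, Subgroup.mem_subgroupOf, f, Subtype.mk.injEq]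
    rw [Subgroup.mem_centralizer_singleton_iff]
    simp only [Subgroup.coe_mul, Subgroup.coe_inv]
    constructor
    · intro he
      have h1 : (x : G) * a * (x : G)⁻¹ = y * a * (y : G)⁻¹ := mul_right_cancel he
      calc ((x : G)⁻¹ * y) * a = (x : G)⁻¹ * (y * a * (y : G)⁻¹) * y := by group
        _ = (x : G)⁻¹ * (x * a * (x : G)⁻¹) * y := by rw [h1]
        _ = a * ((x : G)⁻¹ * y) := by group
    · intro he
      have h1 : (x : G) * a * (x : G)⁻¹ = y * a * (y : G)⁻¹ := by
        have h2 : (x : G) * ((x : G)⁻¹ * y * a) * (y : G)⁻¹ = y * a * (y : G)⁻¹ := by group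
        rw [he] at h2
        rw [← h2]
        group
      rw [h1]
  let g : (B ⧸ K) → D := Quotient.lift f (by
    intro x y hxy
    exact (hf x y).mpr (QuotientGroup.leftRel_apply.mp hxy))
  have hg : Function.Injective g := by
    intro q₁ q₂
    induction q₁ using QuotientGroup.induction_on with
    | H x =>
      induction q₂ using QuotientGroup.induction_on with
      | H y =>
        intro he
        exact QuotientGroup.eq.mpr ((hf x y).mp he)
  exact Nat.card_le_card_of_injective g hg

theorem index_cases [Finite G] {p : ℕ} [Fact p.Prime] (hG : IsPGroup p G) (B D : Subgroup G) (a : G)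
    (hD : Nat.card D ≤ p) (h : ∀ b ∈ B, b * a * b⁻¹ * a⁻¹ ∈ D) :
    ((Subgroup.centralizer ({a} : Set G)).subgroupOf B).index = 1 ∨
      ((Subgroup.centralizer ({a} : Set G)).subgroupOf B).index = p := by
  have hpp : p.Prime := Fact.out
  obtain ⟨n, hn⟩ := (hG.to_subgroup B).index ((Subgroup.centralizer ({a} : Set G)).subgroupOf B)
  have hle := (index_bound B D a h).trans hD
  rw [hn] at hle ⊢
  rcases n with _ | n
  · left; simp
  · rcases n with _ | n
    · right; simp
    · exfalso
      have h1 : p ^ 2 ≤ p ^ (n + 1 + 1) := Nat.pow_le_pow_right hpp.pos (by omega)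
      have h2 : p < p ^ 2 := by
        have := hpp.two_le
        nlinarith
      omega

open Classical in
/-- commuting pairs -/
noncomputable def pairs (A B : Subgroup G) [Fintype A] [Fintype B] : ℕ :=
  ∑ a : A, ∑ b : B, if (a : G) * b = b * a then 1 else 0

open Classical in
theorem pairs_comm (A B : Subgroup G) [Fintype A] [Fintype B] : pairs A B = pairs B A := by
  unfold pairs
  rw [Finset.sum_comm]
  refine Finset.sum_congr rfl (fun b _ => Finset.sum_congr rfl (fun a _ => ?_))
  by_cases h : (a : G) * b = b * a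
  · simp [h]
  · have h' : ¬ (b : G) * a = a * b := fun e => h e.symm
    simp [h, h']

open Classical in
theorem count [Finite G] {p : ℕ} [Fact p.Prime] (hG : IsPGroup p G) (A B D : Subgroup G) [Fintype A] [Fintype B]
    (hD : Nat.card D ≤ p) (h : ∀ a ∈ A, ∀ b ∈ B, b * a * b⁻¹ * a⁻¹ ∈ D) :
    p * pairs A B + Nat.card ((Subgroup.centralizer (B : Set G)).subgroupOf A) * Nat.card B =
      Nat.card ((Subgroup.centralizer (B : Set G)).subgroupOf A) * (p * Nat.card B) +
        Nat.card A * Nat.card B := by
  have hpp : p.Prime := Fact.out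
  let K : A → Subgroup B := fun a => (Subgroup.centralizer ({(a : G)} : Set G)).subgroupOf B
  have hin : ∀ a : A, (∑ b : B, if (a : G) * b = b * a then 1 else 0) = Nat.card (K a) := by
    intro a
    rw [Finset.sum_boole, Nat.card_eq_fintype_card, Fintype.card_subtype]
    simp only [Nat.cast_id]
    congr 1
    ext b
    simp only [Finset.mem_filter, Finset.mem_univ, true_and, K, Subgroup.mem_subgroupOf,
      Subgroup.mem_centralizer_singleton_iff]
    exact eq_comm
  have hpoint : ∀ a : A, p * Nat.card (K a) +
      (if (a : G) ∈ Subgroup.centralizer (B : Set G) then Nat.card B else 0) =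
      (if (a : G) ∈ Subgroup.centralizer (B : Set G) then p * Nat.card B else 0) + Nat.card B := by
    intro a
    have hmul := Subgroup.index_mul_card (K a)
    have hKtop : K a = ⊤ ↔ (a : G) ∈ Subgroup.centralizer (B : Set G) := by
      simp only [K]
      rw [Subgroup.subgroupOf_eq_top, Subgroup.mem_centralizer_iff]
      constructor
      · intro hle b hb
        have := hle hb
        rw [Subgroup.mem_centralizer_singleton_iff] at this
        exact this
      · intro hc b hb
        rw [Subgroup.mem_centralizer_singleton_iff]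
        exact hc b hb
    rcases index_cases hG B D a hD (h a a.2) with h1 | h1
    · have h2 : (K a).index = 1 := h1
      have htop : K a = ⊤ := Subgroup.index_eq_one.mp h2
      rw [if_pos (hKtop.mp htop), if_pos (hKtop.mp htop)]
      rw [h2, one_mul] at hmul
      rw [hmul]
    · have h2 : (K a).index = p := h1
      have hnot : (a : G) ∉ Subgroup.centralizer (B : Set G) := by
        intro hc
        have := hKtop.mpr hc
        rw [this, Subgroup.index_top] at h2
        exact hpp.one_lt.ne h2
      rw [if_neg hnot, if_neg hnot]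
      rw [h2] at hmul
      omega
  have hsum := Finset.sum_congr (rfl : (Finset.univ : Finset A) = Finset.univ) (fun a _ => hpoint a)
  rw [Finset.sum_add_distrib, Finset.sum_add_distrib] at hsum
  have hP : ∀ X : ℕ, (∑ a : A, if (a : G) ∈ Subgroup.centralizer (B : Set G) then X else 0) =
      Nat.card ((Subgroup.centralizer (B : Set G)).subgroupOf A) * X := by
    intro X
    rw [Finset.sum_ite, Finset.sum_const, Finset.sum_const_zero, add_zero, smul_eq_mul]
    congr 1
    rw [Nat.card_eq_fintype_card, Fintype.card_subtype]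
    rfl
  rw [hP, hP] at hsum
  have h1 : p * pairs A B = ∑ a : A, p * Nat.card (K a) := by
    unfold pairs
    rw [Finset.mul_sum]
    refine Finset.sum_congr rfl (fun a _ => ?_)
    rw [hin a]
  rw [h1, hsum]
  simp only [Finset.sum_const, Finset.card_univ, smul_eq_mul, Nat.card_eq_fintype_card]

/-- Let A and B be subgroups of a finite p-group with [A, B] ≤ A ∩ B and [A, B] of order at most p. Then |A : C_A(B)| = |B : C_B(A)|. -/
theorem result {G : Type*} [Group G] [Finite G] {p : ℕ} [Fact p.Prime] (hG : IsPGroup p G) (A B : Subgroup G) (hAB : ⁅A, B⁆ ≤ A ⊓ B) (hcard : Nat.card ↥⁅A, B⁆ ≤ p) : (A ⊓ Subgroup.centralizer (B : Set G)).relIndex A = (B ⊓ Subgroup.centralizer (A : Set G)).relIndex B := by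
  classical
  haveI := Fintype.ofFinite A
  haveI := Fintype.ofFinite B
  have hpp : p.Prime := Fact.out
  have h1 : ∀ a ∈ A, ∀ b ∈ B, b * a * b⁻¹ * a⁻¹ ∈ ⁅A, B⁆ := by
    intro a ha b hb
    have := inv_mem (Subgroup.commutator_mem_commutator ha hb)
    have e : (a * b * a⁻¹ * b⁻¹)⁻¹ = b * a * b⁻¹ * a⁻¹ := by group
    rw [commutatorElement_def, e] at this
    exact this
  have h2 : ∀ b ∈ B, ∀ a ∈ A, a * b * a⁻¹ * b⁻¹ ∈ ⁅A, B⁆ := by
    intro b hb a ha
    have := Subgroup.commutator_mem_commutator ha hb
    rwa [commutatorElement_def] at this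
  have c1 := count hG A B ⁅A, B⁆ hcard h1
  have c2 := count hG B A ⁅A, B⁆ hcard h2
  rw [pairs_comm B A] at c2
  set cA := Nat.card ((Subgroup.centralizer (B : Set G)).subgroupOf A) with hcA
  set cB := Nat.card ((Subgroup.centralizer (A : Set G)).subgroupOf B) with hcB
  set a := Nat.card A
  set b := Nat.card B
  have heq : cA * b = cB * a := by
    have hp2 : 2 ≤ p := hpp.two_le
    have c1' : (p : ℤ) * (pairs A B : ℤ) + cA * b = cA * (p * b) + a * b := by exact_mod_cast c1
    have c2' : (p : ℤ) * (pairs A B : ℤ) + cB * a = cB * (p * a) + b * a := by exact_mod_cast c2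
    have h3 : ((p : ℤ) - 1) * ((cA : ℤ) * b - cB * a) = 0 := by linear_combination c2' - c1'
    have h4 : (p : ℤ) - 1 ≠ 0 := by
      have : (2 : ℤ) ≤ p := by exact_mod_cast hp2
      omega
    have h5 : (cA : ℤ) * b - cB * a = 0 := (mul_eq_zero.mp h3).resolve_left h4
    have h6 : (cA : ℤ) * b = cB * a := by linarith
    exact_mod_cast h6
  rw [Subgroup.inf_relIndex_left, Subgroup.inf_relIndex_left]
  have hx : (Subgroup.centralizer (B : Set G)).relIndex A * cA = a :=
    Subgroup.index_mul_card _
  have hy : (Subgroup.centralizer (A : Set G)).relIndex B * cB = b :=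
    Subgroup.index_mul_card _
  set x := (Subgroup.centralizer (B : Set G)).relIndex A
  set y := (Subgroup.centralizer (A : Set G)).relIndex B
  have hcApos : 0 < cA := Nat.card_pos
  have hcBpos : 0 < cB := Nat.card_pos
  have : (cA * cB) * y = (cA * cB) * x := by
    calc (cA * cB) * y = cA * (y * cB) := by ring
      _ = cA * b := by rw [hy]
      _ = cB * a := heq
      _ = cB * (x * cA) := by rw [hx]
      _ = (cA * cB) * x := by ring
  exact (Nat.eq_of_mul_eq_mul_left (Nat.mul_pos hcApos hcBpos) this).symm

end Cfsg.Agent.S3741
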