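import Mathlib
import Cfsg.Statements.S3742

set_option autoImplicit false
open Cfsg

namespace Cfsg.Agent.S3742

open QuaternionGroup

/-- The quaternion group of order 8. -/
abbrev Q8 := QuaternionGroup 2

/-- Exclusive or on `Fin 4`. -/
def x4 (a b : Fin 4) : Fin 4 := ⟨(a.val ^^^ b.val) % 4, Nat.mod_lt _ (by norm_num)⟩

/-- The sign of an element of order four, on its axis. -/
def ν : Q8 → Fin 4
  | a i => if i = 3 then 1 else 0
  | xa i => if i = 2 then 2 else if i = 3 then 3 else 0

/-- The endomorphism of `Q8` with prescribed images of the generators. -/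
def F (u v : Q8) : Q8 → Q8
  | a i => u ^ i.val
  | xa i => v * u ^ i.val

/-- The first element of the triple labelled `d`. -/
def X (d : Fin 4) : Q8 := if d.val % 2 = 1 then a 3 else a 1
/-- The second element of the triple labelled `d`. -/
def Y (d : Fin 4) : Q8 := if d.val / 2 = 1 then xa 2 else xa 0
/-- The third element of the triple labelled `d`. -/
def Z (_ : Fin 4) : Q8 := xa 1

/-- The generators form a non-commuting pair of elements of order four. -/
def cond (u v : Q8) : Prop := u * u ≠ 1 ∧ v * v ≠ 1 ∧ u * v ≠ v * u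

instance (u v : Q8) : Decidable (cond u v) := by unfold cond; infer_instance

/-- The action on the four diagonals. -/
def T (f : Q8 → Q8) (d : Fin 4) : Fin 4 := x4 (x4 (ν (f (X d))) (ν (f (Y d)))) (ν (f (Z d)))

set_option maxRecDepth 100000 in
theorem F_mul : ∀ u v : Q8, cond u v → ∀ x y : Q8, F u v (x * y) = F u v x * F u v y := by decide

set_option maxRecDepth 100000 in
theorem F_inj : ∀ u v : Q8, cond u v → ∀ x y : Q8, F u v x = F u v y → x = y := by decide

set_option maxRecDepth 100000 in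
theorem T_comp : ∀ u v u' v' : Q8, cond u v → cond u' v' → ∀ d : Fin 4,
    T (fun w => F u v (F u' v' w)) d = T (F u v) (T (F u' v') d) := by decide

set_option maxRecDepth 100000 in
theorem T_one : ∀ d : Fin 4, T (F (a 1) (xa 0)) d = d := by decide

set_option maxRecDepth 100000 in
theorem T_inj : ∀ u v : Q8, cond u v → (∀ d : Fin 4, T (F u v) d = d) → u = a 1 ∧ v = xa 0 := by
  decide

set_option maxRecDepth 100000 in
theorem T_surj : ∀ σ : Equiv.Perm (Fin 4), ∃ u v : Q8, cond u v ∧ ∀ d : Fin 4, T (F u v) d = σ d := by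
  decide

set_option maxRecDepth 100000 in
theorem a_eq : ∀ i : ZMod 4, (a i : Q8) = (a 1) ^ i.val := by decide

set_option maxRecDepth 100000 in
theorem xa_eq : ∀ i : ZMod 4, (xa i : Q8) = xa 0 * (a 1) ^ i.val := by decide

set_option maxRecDepth 100000 in
theorem cond_base : (a 1 : Q8) * a 1 ≠ 1 ∧ (xa 0 : Q8) * xa 0 ≠ 1 ∧ (a 1 : Q8) * xa 0 ≠ xa 0 * a 1 := by
  decide

theorem eq_F (φ : MulAut Q8) (w : Q8) : φ w = F (φ (a 1)) (φ (xa 0)) w := by
  cases w with
  | a i =>
    show φ (a i) = φ (a 1) ^ i.val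
    rw [a_eq i, map_pow]
  | xa i =>
    show φ (xa i) = φ (xa 0) * φ (a 1) ^ i.val
    rw [xa_eq i, map_mul, map_pow]

theorem cond_aut (φ : MulAut Q8) : cond (φ (a 1)) (φ (xa 0)) := by
  obtain ⟨h1, h2, h3⟩ := cond_base
  refine ⟨?_, ?_, ?_⟩
  · rw [← map_mul]
    intro h
    exact h1 ((map_eq_one_iff φ φ.injective).mp h)
  · rw [← map_mul]
    intro h
    exact h2 ((map_eq_one_iff φ φ.injective).mp h)
  · rw [← map_mul, ← map_mul]
    intro h
    exact h3 (φ.injective h)

/-- The action of an automorphism on the diagonals. -/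
def act (φ : MulAut Q8) (d : Fin 4) : Fin 4 := T φ d

theorem act_one (d : Fin 4) : act 1 d = d := by
  have h : (fun w : Q8 => (1 : MulAut Q8) w) = F (a 1) (xa 0) := by
    funext w
    exact eq_F 1 w
  show T (fun w : Q8 => (1 : MulAut Q8) w) d = d
  rw [h]
  exact T_one d

theorem act_mul (φ ψ : MulAut Q8) (d : Fin 4) : act (φ * ψ) d = act φ (act ψ d) := by
  have h1 : (fun w : Q8 => (φ * ψ) w) =
      fun w => F (φ (a 1)) (φ (xa 0)) (F (ψ (a 1)) (ψ (xa 0)) w) := by
    funext w
    rw [MulAut.mul_apply, ← eq_F ψ w, ← eq_F φ]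
  have h2 : (fun w : Q8 => φ w) = F (φ (a 1)) (φ (xa 0)) := funext (eq_F φ)
  have h3 : (fun w : Q8 => ψ w) = F (ψ (a 1)) (ψ (xa 0)) := funext (eq_F ψ)
  show T (fun w : Q8 => (φ * ψ) w) d = T (fun w : Q8 => φ w) (T (fun w : Q8 => ψ w) d)
  rw [h1, h2, h3]
  exact T_comp _ _ _ _ (cond_aut φ) (cond_aut ψ) d

/-- The homomorphism to the symmetric group on the diagonals. -/
def Θ : MulAut Q8 →* Equiv.Perm (Fin 4) where
  toFun φ :=
    { toFun := act φ
      invFun := act φ⁻¹
      left_inv := fun d => by rw [← act_mul, inv_mul_cancel, act_one]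
      right_inv := fun d => by rw [← act_mul, mul_inv_cancel, act_one] }
  map_one' := by
    ext d
    simp [act_one]
  map_mul' φ ψ := by
    ext d
    simp [act_mul]

theorem Θ_apply (φ : MulAut Q8) (d : Fin 4) : Θ φ d = T (F (φ (a 1)) (φ (xa 0))) d := by
  have h2 : (fun w : Q8 => φ w) = F (φ (a 1)) (φ (xa 0)) := funext (eq_F φ)
  show T (fun w : Q8 => φ w) d = _
  rw [h2]

theorem Θ_injective : Function.Injective Θ := by
  rw [injective_iff_map_eq_one]
  intro φ hφ
  have h1 : ∀ d, T (F (φ (a 1)) (φ (xa 0))) d = d := by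
    intro d
    rw [← Θ_apply, hφ]
    rfl
  obtain ⟨h2, h3⟩ := T_inj _ _ (cond_aut φ) h1
  ext w
  have h4 : F (a 1) (xa 0) w = (1 : MulAut Q8) w := (eq_F 1 w).symm
  rw [eq_F φ w, h2, h3, h4]

/-- The automorphism of `Q8` with prescribed images of the generators. -/
noncomputable def mkAut (u v : Q8) (h : cond u v) : MulAut Q8 :=
  MulEquiv.ofBijective
    ({ toFun := F u v
       map_one' := by
         have h1 := F_mul u v h 1 1
         rw [mul_one] at h1
         exact (mul_eq_left.mp h1.symm)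
       map_mul' := F_mul u v h } : Q8 →* Q8)
    (Finite.injective_iff_bijective.mp (F_inj u v h))

theorem mkAut_apply (u v : Q8) (h : cond u v) (w : Q8) : mkAut u v h w = F u v w := rfl

theorem F_gens : ∀ u v : Q8, F u v (a 1) = u ∧ F u v (xa 0) = v := by
  intro u v
  constructor
  · show u ^ (1 : ZMod 4).val = u
    have : (1 : ZMod 4).val = 1 := by decide
    rw [this, pow_one]
  · show v * u ^ (0 : ZMod 4).val = v
    have : (0 : ZMod 4).val = 0 := by decide
    rw [this, pow_zero, mul_one]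

theorem Θ_surjective : Function.Surjective Θ := by
  intro σ
  obtain ⟨u, v, h, hd⟩ := T_surj σ
  refine ⟨mkAut u v h, ?_⟩
  ext d
  rw [Θ_apply, mkAut_apply, mkAut_apply, (F_gens u v).1, (F_gens u v).2, hd]

/-- The automorphism group of the quaternion group of order 8 is isomorphic to the symmetric group of degree 4. -/
theorem result : Nonempty (MulAut (QuaternionGroup 2) ≃* Equiv.Perm (Fin 4)) :=
  ⟨MulEquiv.ofBijective Θ ⟨Θ_injective, Θ_surjective⟩⟩

end Cfsg.Agent.S3742
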