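import Mathlib
import Cfsg.Statements.S3743
import Cfsg.Agent.Lib.BGTrans2
import Cfsg.Agent.Lib.LocalCore

set_option autoImplicit false
open Cfsg

namespace Cfsg.Agent.S3743

open Cfsg.Agent.Lib Subgroup

theorem aux {G : Type*} [Group G] [Finite G] (π : Set ℕ) :
    ∀ K : Subgroup G, K.IsSubnormal → ∀ N : Subgroup G, N ≤ K →
      K ≤ normalizer (N : Set G) → (∀ p : ℕ, p.Prime → p ∣ Nat.card N → p ∈ π) →
      N ≤ Cfsg.piCore π G := by
  intro K hK
  induction hK with
  | top =>
    intro N _ hn hp
    exact BGTrans.le_piCore (normalizer_eq_top_iff.mp (top_le_iff.mp hn)) hp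
  | step K K' hKK' _ hnorm ih =>
    intro N hNK hn hp
    have hKn := (normal_subgroupOf_iff_le_normalizer hKK').mp hnorm
    have hNC := BGTrans.le_piCoreOf hNK hn hp
    exact hNC.trans (ih _ ((BGTrans.piCoreOf_le π K).trans hKK')
      (hKn.trans (BGTrans2.normalizer_le_normalizer_piCoreOf π K)) (BGTrans.piCoreOf_primes π K))

/-- In a finite group G, every subnormal nilpotent subgroup lies in the Fitting subgroup F(G), and, for a set of primes π, every subnormal subgroup all of whose prime divisors lie in π lies in O_π(G). -/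
theorem result {G : Type*} [Group G] [Finite G] (A : Subgroup G) (hA : A.IsSubnormal) : (Group.IsNilpotent A → A ≤ Cfsg.fittingSubgroup G) ∧ ∀ π : Set ℕ, (∀ p : ℕ, p.Prime → p ∣ Nat.card A → p ∈ π) → A ≤ Cfsg.piCore π G := by
  refine ⟨fun h => LocalCore.subnormal_nilpotent_le_fitting hA h, fun π h => ?_⟩
  exact aux π A hA A le_rfl Subgroup.le_normalizer h

end Cfsg.Agent.S3743
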