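import Mathlib
import Cfsg.Statements.S3744
import Cfsg.Agent.Lib.PSolv
import Cfsg.Agent.Lib.CoprimeInv

set_option autoImplicit false
open Cfsg

namespace Cfsg.Agent.S3744

open Subgroup Cfsg.Agent.Lib Cfsg.Agent.Lib.CoprimeInv

universe u

/-- `H` is a `p`-complement. -/
def IsC (p : ℕ) {G : Type*} [Group G] (H : Subgroup G) : Prop :=
  (Nat.card H).Coprime p ∧ ∃ n : ℕ, H.index = p ^ n

variable {p : ℕ}

theorem exists_normal {G : Type*} [Group G] [Nontrivial G] (hG : IsPSolvable p G) :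
    ∃ N : Subgroup G, N.Normal ∧ N ≠ ⊥ ∧ (IsPGroup p N ∨ (Nat.card N).Coprime p) := by
  obtain ⟨n, K, h0, hlast, hmono, hnorm, hidx⟩ := hG
  have key : ∀ i : Fin (n + 1), K i ≠ ⊥ →
      ∃ N : Subgroup G, N.Normal ∧ N ≠ ⊥ ∧ (IsPGroup p N ∨ (Nat.card N).Coprime p) := by
    intro i
    induction i using Fin.induction with
    | zero => exact fun h => absurd h0 h
    | succ i ih =>
      intro h
      by_cases hb : K i.castSucc = ⊥
      · refine ⟨K i.succ, hnorm _, h, ?_⟩
        have h1 := hidx i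
        rw [hb, relIndex_bot_left] at h1
        rcases h1 with ⟨m, hm⟩ | hc
        · exact Or.inl (IsPGroup.of_card hm)
        · exact Or.inr hc
      · exact ih hb
  apply key (Fin.last n)
  rw [hlast]
  exact top_ne_bot

theorem IsC.cj {G : Type*} [Group G] [Finite G] {H : Subgroup G} (h : IsC p H) (g : G) :
    IsC p (cj H g) := by
  refine ⟨by rw [card_cj]; exact h.1, ?_⟩
  obtain ⟨n, hn⟩ := h.2
  refine ⟨n, ?_⟩
  rw [← hn]
  have h1 := card_mul_index H
  have h2 := card_mul_index (CoprimeInv.cj H g)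
  rw [card_cj] at h2
  have hpos : 0 < Nat.card H := Nat.card_pos
  exact Nat.eq_of_mul_eq_mul_left hpos (h2.trans h1.symm)

section quot

variable {G : Type*} [Group G] [Finite G] [Fact p.Prime] (N : Subgroup G) [hNn : N.Normal]

theorem card_map_coprime {U : Subgroup G} (h : (Nat.card U).Coprime p) :
    (Nat.card (U.map (QuotientGroup.mk' N))).Coprime p :=
  Nat.Coprime.coprime_dvd_left (Subgroup.card_map_dvd _ _) h

theorem isC_map {H : Subgroup G} (h : IsC p H) : IsC p (H.map (QuotientGroup.mk' N)) := by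
  refine ⟨card_map_coprime N h.1, ?_⟩
  obtain ⟨n, hn⟩ := h.2
  have h1 : (H.map (QuotientGroup.mk' N)).index ∣ p ^ n := by
    rw [← hn]
    exact H.index_map_dvd (QuotientGroup.mk'_surjective N)
  obtain ⟨k, _, hk⟩ := (Nat.dvd_prime_pow Fact.out).mp h1
  exact ⟨k, hk⟩

theorem card_comap (K : Subgroup (G ⧸ N)) :
    Nat.card (K.comap (QuotientGroup.mk' N)) = Nat.card K * Nat.card N := by
  have := PSolv.card_comap_of_surjective (QuotientGroup.mk' N) (QuotientGroup.mk'_surjective N) K
  rwa [QuotientGroup.ker_mk'] at this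

theorem map_cj_eq {H₁ H₂ : Subgroup G} {g : G ⧸ N}
    (h : H₂.map (QuotientGroup.mk' N) = CoprimeInv.cj (H₁.map (QuotientGroup.mk' N)) g) :
    ∃ x : G, H₂ ⊔ N = CoprimeInv.cj H₁ x ⊔ N := by
  obtain ⟨x, rfl⟩ := QuotientGroup.mk'_surjective N g
  refine ⟨x, ?_⟩
  have h1 : (CoprimeInv.cj H₁ x).map (QuotientGroup.mk' N) =
      CoprimeInv.cj (H₁.map (QuotientGroup.mk' N)) (QuotientGroup.mk' N x) := by
    ext y
    simp only [mem_cj]
    constructor
    · rintro ⟨z, hz, rfl⟩
      have hz' : z ∈ CoprimeInv.cj H₁ x := hz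
      rw [mem_cj] at hz'
      exact ⟨_, hz', by simp⟩
    · rintro ⟨z, hz, hzy⟩
      refine ⟨x * z * x⁻¹, ?_, ?_⟩
      · show x * z * x⁻¹ ∈ CoprimeInv.cj H₁ x
        rw [mem_cj]
        simpa [mul_assoc] using hz
      · rw [map_mul, map_mul, map_inv, hzy]
        simp [mul_assoc]
  rw [← h1] at h
  have h2 := (Subgroup.map_eq_map_iff (f := QuotientGroup.mk' N)).mp h
  rwa [QuotientGroup.ker_mk'] at h2

end quot

/-- A `p`-complement contains each normal `p'`-subgroup. -/
theorem le_of_isC {G : Type*} [Group G] [Finite G] [hp : Fact p.Prime] (N : Subgroup G) [hNn : N.Normal]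
    (hN : (Nat.card N).Coprime p) {H : Subgroup G} (h : IsC p H) : N ≤ H := by
  have hsN : H ≤ normalizer (N : Set G) := by
    rw [normalizer_eq_top_iff.mpr hNn]
    exact le_top
  have h1 := card_sup_mul_card_inf hsN
  have h2 : (Nat.card (H ⊔ N : Subgroup G)).Coprime p := by
    have h3 : Nat.card (H ⊔ N : Subgroup G) ∣ Nat.card H * Nat.card N := ⟨_, h1.symm⟩
    exact Nat.Coprime.coprime_dvd_left h3 (Nat.Coprime.mul_left h.1 hN)
  obtain ⟨n, hn⟩ := h.2
  have h4 : H.relIndex (H ⊔ N) ∣ p ^ n := by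
    rw [← hn]
    exact relIndex_dvd_index_of_le le_sup_left
  have h5 : H.relIndex (H ⊔ N) ∣ Nat.card (H ⊔ N : Subgroup G) := relIndex_dvd_card _ _
  have h6 : H.relIndex (H ⊔ N) = 1 := by
    have h7 : (H.relIndex (H ⊔ N)).Coprime (p ^ n) :=
      Nat.Coprime.pow_right n (Nat.Coprime.coprime_dvd_left h5 h2)
    exact Nat.eq_one_of_dvd_coprimes h7 dvd_rfl h4
  have h8 := Subgroup.relIndex_eq_one.mp h6
  exact (le_sup_right.trans h8)

/-- A complement of a normal `p`-subgroup in an overgroup. -/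
theorem exists_complement {G : Type*} [Group G] [Finite G] [hp : Fact p.Prime] (N : Subgroup G)
    [hNn : N.Normal] (hN : IsPGroup p N) (K : Subgroup (G ⧸ N)) (hK : IsC p K) :
    ∃ C : Subgroup G, IsC p C ∧ C ≤ K.comap (QuotientGroup.mk' N) ∧
      N ⊔ C = K.comap (QuotientGroup.mk' N) := by
  set H : Subgroup G := K.comap (QuotientGroup.mk' N) with hH
  have hNH : N ≤ H := by
    intro x hx
    show QuotientGroup.mk' N x ∈ K
    have : QuotientGroup.mk' N x = 1 := by
      rw [← MonoidHom.mem_ker, QuotientGroup.ker_mk']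
      exact hx
    rw [this]
    exact K.one_mem
  have hcard : Nat.card H = Nat.card K * Nat.card N := card_comap N K
  obtain ⟨a, ha⟩ := IsPGroup.iff_card.mp hN
  have hc0 : Nat.card N = Nat.card (N.subgroupOf H) := (card_subgroupOf_of_le hNH).symm
  have hidx : (N.subgroupOf H).index = Nat.card K := by
    have h1 := card_mul_index (N.subgroupOf H)
    rw [← hc0, hcard, mul_comm] at h1
    have hpos : 0 < Nat.card N := Nat.card_pos
    exact Nat.eq_of_mul_eq_mul_right hpos h1
  have hcop : (Nat.card (N.subgroupOf H)).Coprime (N.subgroupOf H).index := by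
    rw [← hc0, hidx, ha]
    exact Nat.Coprime.pow_left a hK.1.symm
  obtain ⟨C₀, hC₀⟩ := Subgroup.exists_right_complement'_of_coprime hcop
  refine ⟨C₀.map H.subtype, ⟨?_, ?_⟩, Subgroup.map_subtype_le _, ?_⟩
  · have h1 : Nat.card (C₀.map H.subtype) = Nat.card K := by
      rw [Subgroup.card_map_of_injective H.subtype_injective, ← hidx]
      exact hC₀.symm.index_eq_card.symm
    rw [h1]
    exact hK.1
  · obtain ⟨m, hm⟩ := hK.2
    refine ⟨a + m, ?_⟩
    have h1 : Nat.card (C₀.map H.subtype) = Nat.card K := by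
      rw [Subgroup.card_map_of_injective H.subtype_injective, ← hidx]
      exact hC₀.symm.index_eq_card.symm
    have h2 := card_mul_index (C₀.map H.subtype)
    have h3 := card_mul_index K
    have h4 := card_mul_index H
    have h5 : Nat.card G = Nat.card (G ⧸ N) * Nat.card N := by
      rw [Subgroup.card_eq_card_quotient_mul_card_subgroup N]
    rw [h1] at h2
    rw [hm] at h3
    have hpos : 0 < Nat.card K := Nat.card_pos
    apply Nat.eq_of_mul_eq_mul_left hpos
    rw [h2, h5, ← h3, ha, pow_add]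
    ring
  · apply le_antisymm
    · exact sup_le hNH (Subgroup.map_subtype_le _)
    · intro x hx
      have h1 : (⟨x, hx⟩ : H) ∈ (⊤ : Subgroup H) := trivial
      rw [← hC₀.sup_eq_top] at h1
      have hNn' : (N.subgroupOf H).Normal := inferInstance
      obtain ⟨n, hn, c, hc, hnc⟩ := Subgroup.mem_sup_of_normal_left.mp h1
      have h2 : x = n * c := (congrArg Subtype.val hnc).symm
      rw [h2]
      exact Subgroup.mul_mem_sup (Subgroup.mem_subgroupOf.mp hn) ⟨c, hc, rfl⟩

theorem main (p : ℕ) [hp : Fact p.Prime] : ∀ (n : ℕ) (G : Type u) [Group G] [Finite G], Nat.card G = n →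
    IsPSolvable p G → (∃ H : Subgroup G, IsC p H) ∧
      (∀ H₁ H₂ : Subgroup G, IsC p H₁ → IsC p H₂ → ∃ g : G, H₂ = cj H₁ g) ∧
      (∀ U : Subgroup G, (Nat.card U).Coprime p → ∃ H : Subgroup G, IsC p H ∧ U ≤ H) := by
  intro n
  induction n using Nat.strong_induction_on with
  | _ n ih =>
  intro G _ _ hn hG
  rcases subsingleton_or_nontrivial G with hs | hnt
  · have htop : ∀ H : Subgroup G, IsC p H := by
      intro H
      have h1 : H = ⊤ := Subsingleton.elim _ _
      rw [h1]
      refine ⟨?_, 0, by simp⟩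
      rw [Subgroup.card_top, Nat.card_of_subsingleton (1 : G)]
      exact Nat.coprime_one_left p
    refine ⟨⟨⊥, htop _⟩, fun H₁ H₂ _ _ => ⟨1, Subsingleton.elim _ _⟩, fun U _ => ⟨U, htop _, le_rfl⟩⟩
  · obtain ⟨N, hNn, hNb, hNtype⟩ := exists_normal hG
    haveI := hNn
    have hQ := PSolv.isPSolvable_quotient hG N
    have hlt : Nat.card (G ⧸ N) < n := by
      have h1 := Subgroup.card_eq_card_quotient_mul_card_subgroup N
      have h2 : 1 < Nat.card N := by
        haveI := (Subgroup.nontrivial_iff_ne_bot N).mpr hNb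
        exact Finite.one_lt_card
      rw [← hn, h1]
      have h3 : 0 < Nat.card (G ⧸ N) := Nat.card_pos
      nlinarith
    obtain ⟨hE, hC, hD⟩ := ih _ hlt (G ⧸ N) rfl hQ
    have hNcomap : ∀ K : Subgroup (G ⧸ N), N ≤ K.comap (QuotientGroup.mk' N) := by
      intro K x hx
      show QuotientGroup.mk' N x ∈ K
      have : QuotientGroup.mk' N x = 1 := by
        rw [← MonoidHom.mem_ker, QuotientGroup.ker_mk']
        exact hx
      rw [this]
      exact K.one_mem
    rcases hNtype with hNp | hNc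
    · -- `N` is a `p`-group
      obtain ⟨a, ha⟩ := IsPGroup.iff_card.mp hNp
      have hsolvN : Group.IsSolvable N := by
        have : Group.IsNilpotent N := hNp.isNilpotent
        infer_instance
      have hnorm : ∀ K : Subgroup G, K ≤ normalizer (N : Set G) := by
        intro K
        rw [normalizer_eq_top_iff.mpr hNn]
        exact le_top
      have hcopN : ∀ K : Subgroup G, (Nat.card K).Coprime p → (Nat.card N).Coprime (Nat.card K) := by
        intro K hK
        rw [ha]
        exact Nat.Coprime.pow_left a hK.symm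
      refine ⟨?_, ?_, ?_⟩
      · obtain ⟨K, hK⟩ := hE
        obtain ⟨C, hC', _, _⟩ := exists_complement N hNp K hK
        exact ⟨C, hC'⟩
      · intro H₁ H₂ h₁ h₂
        obtain ⟨g, hg⟩ := hC _ _ (isC_map N h₁) (isC_map N h₂)
        obtain ⟨x, hx⟩ := map_cj_eq N hg
        have h₃ := IsC.cj h₁ x
        obtain ⟨y, hy, hye⟩ := exists_conj_rel (N := N) (K₁ := cj H₁ x) (K₂ := H₂) hsolvN (hnorm _)
          (hnorm _) (inf_eq_bot_of_coprime' (hcopN _ h₃.1)) (inf_eq_bot_of_coprime' (hcopN _ h₂.1))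
          (by rw [sup_comm, ← hx, sup_comm]) (hcopN _ h₃.1)
        refine ⟨y * x, ?_⟩
        rw [hye, cj_cj]
      · intro U hU
        obtain ⟨K, hK, hUK⟩ := hD (U.map (QuotientGroup.mk' N)) (card_map_coprime N hU)
        obtain ⟨C, hC', hCle, hCsup⟩ := exists_complement N hNp K hK
        have hUH : U ≤ K.comap (QuotientGroup.mk' N) := Subgroup.map_le_iff_le_comap.mp hUK
        have hK₂ : (Nat.card ((U ⊔ N) ⊓ C : Subgroup G)).Coprime p :=
          Nat.Coprime.coprime_dvd_left (card_dvd_of_le inf_le_right) hC'.1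
        have hsup : N ⊔ ((U ⊔ N) ⊓ C) = N ⊔ U := by
          apply le_antisymm
          · exact sup_le le_sup_left (inf_le_left.trans (sup_comm U N).le)
          · rw [sup_le_iff]
            refine ⟨le_sup_left, ?_⟩
            intro u hu
            have h1 : u ∈ N ⊔ C := by
              rw [hCsup]
              exact hUH hu
            obtain ⟨n', hn', c, hc, rfl⟩ := Subgroup.mem_sup_of_normal_left.mp h1
            refine Subgroup.mul_mem_sup hn' ⟨?_, hc⟩
            have h2 : c = n'⁻¹ * (n' * c) := by group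
            rw [h2]
            exact (U ⊔ N).mul_mem ((le_sup_right : N ≤ U ⊔ N) (N.inv_mem hn')) ((le_sup_left : U ≤ U ⊔ N) hu)
        obtain ⟨y, hy, hye⟩ := exists_conj_rel (N := N) (K₁ := (U ⊔ N) ⊓ C) (K₂ := U) hsolvN (hnorm _)
          (hnorm _) (inf_eq_bot_of_coprime' (hcopN _ hK₂)) (inf_eq_bot_of_coprime' (hcopN _ hU))
          hsup (hcopN _ hK₂)
        refine ⟨cj C y, IsC.cj hC' y, ?_⟩
        rw [hye]
        exact cj_mono inf_le_right y
    · -- `N` is a `p'`-group
      have hmk : ∀ K : Subgroup (G ⧸ N), IsC p K → IsC p (K.comap (QuotientGroup.mk' N)) := by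
        intro K hK
        refine ⟨?_, ?_⟩
        · rw [card_comap]
          exact Nat.Coprime.mul_left hK.1 hNc
        · obtain ⟨m, hm⟩ := hK.2
          exact ⟨m, by rw [Subgroup.index_comap_of_surjective _ (QuotientGroup.mk'_surjective N), hm]⟩
      refine ⟨?_, ?_, ?_⟩
      · obtain ⟨K, hK⟩ := hE
        exact ⟨_, hmk K hK⟩
      · intro H₁ H₂ h₁ h₂
        obtain ⟨g, hg⟩ := hC _ _ (isC_map N h₁) (isC_map N h₂)
        obtain ⟨x, hx⟩ := map_cj_eq N hg
        refine ⟨x, ?_⟩
        have h₃ := IsC.cj h₁ x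
        rwa [sup_eq_left.mpr (le_of_isC N hNc h₂), sup_eq_left.mpr (le_of_isC N hNc h₃)] at hx
      · intro U hU
        obtain ⟨K, hK, hUK⟩ := hD (U.map (QuotientGroup.mk' N)) (card_map_coprime N hU)
        exact ⟨_, hmk K hK, Subgroup.map_le_iff_le_comap.mp hUK⟩

/-- A finite p-soluble group has a p-complement, all its p-complements are conjugate, and every subgroup of order prime to p lies in one of them. Here a p-complement is a subgroup of order prime to p whose index is a power of p. -/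
theorem result {G : Type*} [Group G] [Finite G] {p : ℕ} [Fact p.Prime] (hG : Cfsg.IsPSolvable p G) : (∃ H : Subgroup G, (Nat.card H).Coprime p ∧ ∃ n : ℕ, H.index = p ^ n) ∧ (∀ H₁ H₂ : Subgroup G, (Nat.card H₁).Coprime p → (∃ n : ℕ, H₁.index = p ^ n) → (Nat.card H₂).Coprime p → (∃ n : ℕ, H₂.index = p ^ n) → ∃ g : G, H₂ = H₁.map (MulAut.conj g).toMonoidHom) ∧ (∀ U : Subgroup G, (Nat.card U).Coprime p → ∃ H : Subgroup G, (Nat.card H).Coprime p ∧ (∃ n : ℕ, H.index = p ^ n) ∧ ∃ g : G, U.map (MulAut.conj g).toMonoidHom ≤ H) := by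
  obtain ⟨hE, hC, hD⟩ := main p _ G rfl hG
  refine ⟨hE, ?_, ?_⟩
  · intro H₁ H₂ h₁ h₁' h₂ h₂'
    exact hC H₁ H₂ ⟨h₁, h₁'⟩ ⟨h₂, h₂'⟩
  · intro U hU
    obtain ⟨H, hH, hUH⟩ := hD U hU
    refine ⟨H, hH.1, hH.2, 1, ?_⟩
    have : U.map (MulAut.conj (1 : G)).toMonoidHom = U := cj_one U
    rw [this]
    exact hUH

end Cfsg.Agent.S3744
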