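import Mathlib
import Cfsg.Statements.S3745
import Cfsg.Agent.Lib.NormQuot
import Cfsg.Agent.Lib.Hall
import Cfsg.Agent.Lib.HallExist
import Cfsg.Agent.Lib.CoprimeInv
import Cfsg.Agent.Lib.PCore
import Cfsg.Agent.Lib.LocalTools
import Cfsg.Agent.S3736

set_option autoImplicit false
open Cfsg

namespace Cfsg.Agent.S3745

open Subgroup Cfsg.Agent.Lib Cfsg.Agent.Lib.CoprimeInv Cfsg.Agent.Lib.NormQuot

universe u

section basics

variable {X : Type u} [Group X] [Finite X] {π : Set ℕ} {H H₁ H₂ G : Subgroup X}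

theorem hall_coprime (h : IsPiHallOf π H G) : (Nat.card H).Coprime (H.relIndex G) :=
  Nat.coprime_of_dvd (fun k hk h1 h2 => h.2.2 k hk (h.2.1 k hk h1) h2)

theorem hall_conj_le (hs : Group.IsSolvable G) (h₁ : IsPiHallOf π H₁ G) (h₂ : IsPiHallOf π H₂ G) :
    ∃ g ∈ G, H₂ ≤ cj H₁ g := by
  have hcard : Nat.card G = Nat.card H₁ * H₁.relIndex G := by
    rw [mul_comm]
    exact (relIndex_mul_card' h₁.1).symm
  have hco : (Nat.card H₂).Coprime (H₁.relIndex G) :=
    Nat.coprime_of_dvd (fun k hk h1 h3 => h₁.2.2 k hk (h₂.2.1 k hk h1) h3)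
  obtain ⟨g, hg⟩ := (Hall.hall_main _ ↥G (Nat.card H₁) (H₁.relIndex G) rfl hcard
    (hall_coprime h₁)).2 (H₁.subgroupOf G) (H₂.subgroupOf G)
    (Nat.card_congr (Subgroup.subgroupOfEquivOfLe h₁.1).toEquiv)
    (by rw [Nat.card_congr (Subgroup.subgroupOfEquivOfLe h₂.1).toEquiv]; exact hco)
  refine ⟨g, g.2, ?_⟩
  intro x hx
  have h1 : (⟨x, h₂.1 hx⟩ : G) ∈ H₂.subgroupOf G := by
    simpa [mem_subgroupOf] using hx
  have h2 := hg h1
  rw [PCore.mem_conj_smul_iff] at h2
  rw [mem_cj]
  simpa [mem_subgroupOf] using h2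

theorem hall_conj (hs : Group.IsSolvable G) (h₁ : IsPiHallOf π H₁ G) (h₂ : IsPiHallOf π H₂ G) :
    ∃ g ∈ G, H₂ = cj H₁ g := by
  obtain ⟨g, hg, hle⟩ := hall_conj_le hs h₁ h₂
  obtain ⟨g', _, hle'⟩ := hall_conj_le hs h₂ h₁
  refine ⟨g, hg, Subgroup.eq_of_le_of_card_ge hle ?_⟩
  rw [card_cj]
  exact (Subgroup.card_le_of_le hle').trans (by rw [card_cj])

theorem hall_cj (h : IsPiHallOf π H G) {x : X} (hx : x ∈ normalizer (G : Set X)) :
    IsPiHallOf π (cj H x) G := by
  have hG : cj G x = G := cj_eq_of_mem_normalizer hx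
  refine ⟨?_, ?_, ?_⟩
  · have := cj_mono h.1 x
    rwa [hG] at this
  · rw [card_cj]
    exact h.2.1
  · intro p hp hπ
    have h1 : (cj H x).relIndex (cj G x) = H.relIndex G :=
      Subgroup.relIndex_map_map_of_injective _ _ (MulAut.conj x).injective
    rw [hG] at h1
    rw [h1]
    exact h.2.2 p hp hπ

theorem exists_hall (π : Set ℕ) (hs : Group.IsSolvable G) : ∃ H : Subgroup X, IsPiHallOf π H G := by
  obtain ⟨H₀, h1, h2⟩ := HallExist.exists_hall (fun q => q ∈ π) ↥G
  refine ⟨H₀.map G.subtype, Subgroup.map_subtype_le _, ?_, ?_⟩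
  · intro p hp hd
    rw [Subgroup.card_map_of_injective G.subtype_injective] at hd
    exact h1 p hp hd
  · intro p hp hπ hd
    have h3 : (H₀.map G.subtype).relIndex ((⊤ : Subgroup G).map G.subtype) = H₀.relIndex ⊤ :=
      Subgroup.relIndex_map_map_of_injective _ _ G.subtype_injective
    rw [← MonoidHom.range_eq_map, Subgroup.range_subtype, Subgroup.relIndex_top_right] at h3
    rw [h3] at hd
    exact h2 p hp hd hπ

end basics

section parts

variable {X : Type u} [Group X] [Finite X] (A G : Subgroup X)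

theorem part_a (hAG : A ≤ normalizer (G : Set X)) (hcop : (Nat.card A).Coprime (Nat.card G))
    (hsolv : Group.IsSolvable G) (π : Set ℕ) :
    ∃ H : Subgroup X, IsPiHallOf π H G ∧ A ≤ normalizer (H : Set X) := by
  have hsup : G ⊔ A ≤ normalizer (G : Set X) := sup_le le_normalizer hAG
  obtain ⟨ω, hω, hA⟩ := glauberman_fixed hsolv hAG hcop.symm {H | IsPiHallOf π H G}
    (fun x hx ω hω => hall_cj hω (hsup hx))
    (fun ω₁ h₁ ω₂ h₂ => hall_conj hsolv h₁ h₂) (exists_hall π hsolv)
  exact ⟨ω, hω, hA⟩

theorem part_b (hAG : A ≤ normalizer (G : Set X)) (hcop : (Nat.card A).Coprime (Nat.card G))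
    (hsolv : Group.IsSolvable G) (π : Set ℕ) (H₁ H₂ : Subgroup X) (h₁ : IsPiHallOf π H₁ G)
    (hA₁ : A ≤ normalizer (H₁ : Set X)) (h₂ : IsPiHallOf π H₂ G)
    (hA₂ : A ≤ normalizer (H₂ : Set X)) :
    ∃ c ∈ G ⊓ centralizer (A : Set X), H₂ = cj H₁ c := by
  obtain ⟨g, hg, hge⟩ := hall_conj hsolv h₁ h₂
  exact glauberman_trans hsolv hAG hcop.symm hg hge hA₁ hA₂

end parts

theorem card_sup_of_coprime {X : Type u} [Group X] [Finite X] {U V : Subgroup X}
    (h : U ≤ normalizer (V : Set X)) (hc : (Nat.card U).Coprime (Nat.card V)) :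
    Nat.card (U ⊔ V : Subgroup X) = Nat.card U * Nat.card V := by
  have h1 := card_sup_mul_card_inf h
  rw [inf_eq_bot_of_coprime' hc, Subgroup.card_bot, mul_one] at h1
  exact h1

theorem le_normalizer_sup' {X : Type u} [Group X] {A U V : Subgroup X}
    (hU : A ≤ normalizer (U : Set X)) (hV : A ≤ normalizer (V : Set X)) :
    A ≤ normalizer ((U ⊔ V : Subgroup X) : Set X) := by
  intro a ha
  have h1 := mem_normalizer_iff_map_conj_eq.mp (hU ha)
  have h2 := mem_normalizer_iff_map_conj_eq.mp (hV ha)
  rw [mem_normalizer_iff_map_conj_eq, Subgroup.map_sup, h1, h2]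

theorem part_c (π : Set ℕ) : ∀ (n : ℕ) (X : Type u) [Group X] [Finite X] (A G U : Subgroup X),
    Nat.card G = n → A ≤ normalizer (G : Set X) → (Nat.card A).Coprime (Nat.card G) →
    Group.IsSolvable G → U ≤ G → A ≤ normalizer (U : Set X) →
    (∀ p : ℕ, p.Prime → p ∣ Nat.card U → p ∈ π) →
    ∃ H : Subgroup X, IsPiHallOf π H G ∧ A ≤ normalizer (H : Set X) ∧ U ≤ H := by
  intro n
  induction n using Nat.strong_induction_on with
  | _ n ih =>
  intro X _ _ A G U hn hAG hcop hsolv hUG hAU hUπ
  by_cases hG : G = ⊥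
  · subst hG
    have hU : U = ⊥ := le_bot_iff.mp hUG
    subst hU
    refine ⟨⊥, ⟨le_rfl, ?_, ?_⟩, ?_, le_rfl⟩
    · intro p hp hd
      rw [Subgroup.card_bot] at hd
      exact absurd (Nat.dvd_one.mp hd) hp.ne_one
    · intro p hp _ hd
      rw [Subgroup.relIndex_self] at hd
      exact absurd (Nat.dvd_one.mp hd) hp.ne_one
    · rw [Subgroup.normalizer_eq_top_iff.mpr (inferInstance : (⊥ : Subgroup X).Normal)]
      exact le_top
  · have hnt : Nontrivial G := (Subgroup.nontrivial_iff_ne_bot G).mpr hG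
    obtain ⟨r, hr, hne⟩ := PCore.exists_pCore_ne_bot (G := ↥G)
    have : Fact r.Prime := ⟨hr⟩
    set V : Subgroup X := (pCore r ↥G).map G.subtype with hV
    have hVG : V ≤ G := Subgroup.map_subtype_le _
    have hnormV : normalizer (G : Set X) ≤ normalizer (V : Set X) := fun g hg =>
      S3736.mem_normalizer_map_of_characteristic G _ hg
    have hGN : G ≤ normalizer (V : Set X) := le_normalizer.trans hnormV
    have hAN : A ≤ normalizer (V : Set X) := hAG.trans hnormV
    have hUN : U ≤ normalizer (V : Set X) := hUG.trans hGN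
    have hVp : IsPGroup r V := (PCore.isPGroup_pCore r).map _
    have hVne : V ≠ ⊥ := by
      intro h
      apply hne
      exact (Subgroup.map_eq_bot_iff_of_injective _ G.subtype_injective).mp h
    have hV1 : 1 < Nat.card V := by
      have := (Subgroup.nontrivial_iff_ne_bot V).mpr hVne
      exact Finite.one_lt_card
    have hcardG := card_eq_of_ge hGN hVG
    have hlt : Nat.card (bar V G) < n := by
      rw [← hn, hcardG]
      have h3 : 0 < Nat.card (bar V G) := Nat.card_pos
      nlinarith
    have hsolvbar : Group.IsSolvable (bar V G) := by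
      have h1 : Group.IsSolvable (G.subgroupOf (normalizer (V : Set X))) :=
        Group.isSolvable_of_surjective (f := (Subgroup.subgroupOfEquivOfLe hGN).symm.toMonoidHom)
          (MulEquiv.surjective _)
      exact Group.isSolvable_of_surjective (f := (f V).subgroupMap _) (MonoidHom.subgroupMap_surjective _ _)
    obtain ⟨Hb, hHb, hAHb, hUHb⟩ := ih _ hlt (Q V) (bar V A) (bar V G) (bar V U) rfl
      (bar_le_normalizer hAG)
      (Nat.Coprime.coprime_dvd_left (card_bar_dvd hAN)
        (Nat.Coprime.coprime_dvd_right (card_bar_dvd hGN) hcop)) hsolvbar (bar_mono hUG)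
      (bar_le_normalizer hAU)
      (fun p hp hd => hUπ p hp (hd.trans (card_bar_dvd hUN)))
    set H : Subgroup X := tilde V Hb with hH
    have hVH : V ≤ H := le_tilde Hb
    have hGt : tilde V (bar V G) = G := tilde_bar hGN hVG
    have hHG : H ≤ G := by
      rw [← hGt]
      exact tilde_mono hHb.1
    have hAH : A ≤ normalizer (H : Set X) := le_normalizer_tilde hAN hAHb
    have hUH : U ≤ H := (le_tilde_iff hUN).mpr hUHb
    have hrel : H.relIndex G = Hb.relIndex (bar V G) := by
      rw [← relIndex_tilde hHb.1, hGt]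
    have hcardH : Nat.card H = Nat.card Hb * Nat.card V := card_tilde Hb
    obtain ⟨k, hk⟩ := IsPGroup.iff_card.mp hVp
    have hprimeV : ∀ q : ℕ, q.Prime → q ∣ Nat.card V → q = r := by
      intro q hq hd
      rw [hk] at hd
      exact (Nat.prime_dvd_prime_iff_eq hq hr).mp (hq.dvd_of_dvd_pow hd)
    by_cases hrπ : r ∈ π
    · refine ⟨H, ⟨hHG, ?_, ?_⟩, hAH, hUH⟩
      · intro p hp hd
        rw [hcardH] at hd
        rcases (Nat.Prime.dvd_mul hp).mp hd with h | h
        · exact hHb.2.1 p hp h
        · rw [hprimeV p hp h]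
          exact hrπ
      · intro p hp hπ
        rw [hrel]
        exact hHb.2.2 p hp hπ
    · -- `V` is a `π'`-group
      have hVπ : ∀ q ∈ π, q.Prime → ¬ q ∣ Nat.card V := by
        intro q hq hqp hd
        rw [← hprimeV q hqp hd] at hrπ
        exact hrπ hq
      have hsolvH : Group.IsSolvable H :=
        Group.isSolvable_of_isSolvable_injective (Subgroup.inclusion_injective hHG)
      have hcopH : (Nat.card A).Coprime (Nat.card H) :=
        Nat.Coprime.coprime_dvd_right (Subgroup.card_dvd_of_le hHG) hcop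
      obtain ⟨L, hL, hAL⟩ := part_a A H hAH hcopH hsolvH π
      -- the group `W = UV`
      have hUVc : (Nat.card U).Coprime (Nat.card V) :=
        Nat.coprime_of_dvd (fun q hq h1 h2 => hVπ q (hUπ q hq h1) hq h2)
      have hLVc : (Nat.card L).Coprime (Nat.card V) :=
        Nat.coprime_of_dvd (fun q hq h1 h2 => hVπ q (hL.2.1 q hq h1) hq h2)
      have hLH : L ≤ H := hL.1
      have hLN : L ≤ normalizer (V : Set X) := hLH.trans (hHG.trans hGN)
      -- `L V = H`
      have hLV : L ⊔ V = H := by
        apply Subgroup.eq_of_le_of_card_ge (sup_le hLH hVH)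
        rw [card_sup_of_coprime hLN hLVc, hcardH]
        have h1 := relIndex_mul_card' hLH
        rw [hcardH] at h1
        have h2 : (Nat.card L).Coprime (L.relIndex H) := hall_coprime hL
        have h3 : Nat.card Hb ∣ Nat.card L := by
          have h4 : Nat.card Hb ∣ L.relIndex H * Nat.card L := ⟨_, h1⟩
          have h5 : (Nat.card Hb).Coprime (L.relIndex H) := by
            apply Nat.coprime_of_dvd
            intro q hq h6 h7
            exact hL.2.2 q hq (hHb.2.1 q hq h6) h7
          exact h5.dvd_of_dvd_mul_left h4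
        exact Nat.mul_le_mul_right _ (Nat.le_of_dvd Nat.card_pos h3)
      set W : Subgroup X := U ⊔ V with hW
      have hVW : V ≤ W := le_sup_right
      have hUW : U ≤ W := le_sup_left
      have hWH : W ≤ H := sup_le hUH hVH
      have hAW : A ≤ normalizer (W : Set X) :=
        le_normalizer_sup' hAU hAN
      have hWcard : Nat.card W = Nat.card U * Nat.card V := card_sup_of_coprime hUN hUVc
      have hsolvW : Group.IsSolvable W :=
        Group.isSolvable_of_isSolvable_injective (Subgroup.inclusion_injective (hWH.trans hHG))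
      have hcopW : (Nat.card A).Coprime (Nat.card W) :=
        Nat.Coprime.coprime_dvd_right (Subgroup.card_dvd_of_le (hWH.trans hHG)) hcop
      have hUhall : IsPiHallOf π U W := by
        refine ⟨hUW, hUπ, ?_⟩
        intro p hp hπ hd
        have h1 := relIndex_mul_card' hUW
        rw [hWcard, mul_comm (Nat.card U)] at h1
        have h2 : U.relIndex W = Nat.card V :=
          Nat.eq_of_mul_eq_mul_right Nat.card_pos h1
        rw [h2] at hd
        exact hVπ p hπ hp hd
      -- `L ∩ W` is a Hall subgroup of `W`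
      have hLWsup : (L ⊓ W) ⊔ V = W := by
        apply le_antisymm (sup_le inf_le_right hVW)
        intro w hw
        have hw' : w ∈ L ⊔ V := by
          rw [hLV]
          exact hWH hw
        obtain ⟨l, hl, v, hv, rfl⟩ := (LocalTools.mem_sup_of_le_normalizer hLN).mp hw'
        refine Subgroup.mul_mem_sup ⟨hl, ?_⟩ hv
        have h2 : l = l * v * v⁻¹ := by group
        rw [h2]
        exact W.mul_mem hw (W.inv_mem (hVW hv))
      have hLWc : (Nat.card (L ⊓ W : Subgroup X)).Coprime (Nat.card V) :=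
        Nat.Coprime.coprime_dvd_left (Subgroup.card_dvd_of_le inf_le_left) hLVc
      have hLWcard : Nat.card W = Nat.card (L ⊓ W : Subgroup X) * Nat.card V := by
        conv_lhs => rw [← hLWsup]
        exact card_sup_of_coprime (inf_le_left.trans hLN) hLWc
      have hLWhall : IsPiHallOf π (L ⊓ W) W := by
        refine ⟨inf_le_right, ?_, ?_⟩
        · intro p hp hd
          exact hL.2.1 p hp (hd.trans (Subgroup.card_dvd_of_le inf_le_left))
        · intro p hp hπ hd
          have h1 := relIndex_mul_card' (inf_le_right : L ⊓ W ≤ W)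
          rw [hLWcard, mul_comm (Nat.card (L ⊓ W : Subgroup X))] at h1
          have h2 : (L ⊓ W).relIndex W = Nat.card V :=
            Nat.eq_of_mul_eq_mul_right Nat.card_pos h1
          rw [h2] at hd
          exact hVπ p hπ hp hd
      have hALW : A ≤ normalizer ((L ⊓ W : Subgroup X) : Set X) := le_normalizer_inf hAL hAW
      obtain ⟨c, hc, hce⟩ := part_b A W hAW hcopW hsolvW π _ _ hLWhall hALW hUhall hAU
      have hcG : c ∈ G := hHG (hWH hc.1)
      -- `L` is a Hall subgroup of `G`
      have hLG : IsPiHallOf π L G := by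
        refine ⟨hLH.trans hHG, hL.2.1, ?_⟩
        intro p hp hπ hd
        rw [← Subgroup.relIndex_mul_relIndex L H G hLH hHG] at hd
        rcases (Nat.Prime.dvd_mul hp).mp hd with h | h
        · exact hL.2.2 p hp hπ h
        · rw [hrel] at h
          exact hHb.2.2 p hp hπ h
      refine ⟨cj L c, hall_cj hLG (le_normalizer hcG), ?_, ?_⟩
      · intro a ha
        have h1 : c * a * c⁻¹ = a := by
          rw [(Subgroup.mem_centralizer_iff.mp hc.2 a ha).symm]
          simp
        have h2 : a ∈ cj A c := by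
          rw [mem_cj]
          have : c⁻¹ * a * c = c⁻¹ * (c * a * c⁻¹) * c := by rw [h1]
          rw [this]
          simpa [mul_assoc] using ha
        exact normalizer_cj_of_le hAL h2
      · rw [hce]
        exact cj_mono inf_le_left c

/-- Coprime action on a solvable group and Hall subgroups. Let A and G be subgroups of a finite group with A normalizing G, the orders of A and G coprime, and G solvable, and let π be a set of primes. Then (a) G has an A-invariant Hall π-subgroup; (b) any two A-invariant Hall π-subgroups of G are conjugate by an element of C_G(A); (c) every A-invariant π-subgroup of G lies in an A-invariant Hall π-subgroup of G. -/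
theorem result {X : Type*} [Group X] [Finite X] (A G : Subgroup X) (hAG : A ≤ Subgroup.normalizer (G : Set X)) (hcop : (Nat.card A).Coprime (Nat.card G)) (hsolv : Group.IsSolvable G) (π : Set ℕ) : (∃ H : Subgroup X, Cfsg.IsPiHallOf π H G ∧ A ≤ Subgroup.normalizer (H : Set X)) ∧ (∀ H₁ H₂ : Subgroup X, Cfsg.IsPiHallOf π H₁ G → A ≤ Subgroup.normalizer (H₁ : Set X) → Cfsg.IsPiHallOf π H₂ G → A ≤ Subgroup.normalizer (H₂ : Set X) → ∃ c ∈ G ⊓ Subgroup.centralizer (A : Set X), H₂ = H₁.map (MulAut.conj c).toMonoidHom) ∧ (∀ U : Subgroup X, U ≤ G → A ≤ Subgroup.normalizer (U : Set X) → (∀ p : ℕ, p.Prime → p ∣ Nat.card U → p ∈ π) → ∃ H : Subgroup X, Cfsg.IsPiHallOf π H G ∧ A ≤ Subgroup.normalizer (H : Set X) ∧ U ≤ H) := by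
  refine ⟨part_a A G hAG hcop hsolv π, part_b A G hAG hcop hsolv π, ?_⟩
  intro U hUG hAU hUπ
  exact part_c π _ X A G U rfl hAG hcop hsolv hUG hAU hUπ

end Cfsg.Agent.S3745
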