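import Mathlib
import Cfsg.Statements.S3746
import Cfsg.Agent.Lib.PComp
import Cfsg.Agent.Lib.LocalTools

set_option autoImplicit false
open Cfsg

namespace Cfsg.Agent.S3746

open Cfsg.Agent.Lib Subgroup
open scoped commutatorElement

theorem comm_mul_central {G : Type*} [Group G] (a b z w : G) (hz : ∀ x, z * x = x * z)
    (hw : ∀ x, w * x = x * w) : ⁅a * z, b * w⁆ = ⁅a, b⁆ := by
  rw [commutatorElement_def, commutatorElement_def]
  calc a * z * (b * w) * (a * z)⁻¹ * (b * w)⁻¹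
      = a * (z * b) * w * z⁻¹ * a⁻¹ * w⁻¹ * b⁻¹ := by group
    _ = a * (b * z) * w * z⁻¹ * a⁻¹ * w⁻¹ * b⁻¹ := by rw [hz b]
    _ = a * b * (z * w) * z⁻¹ * a⁻¹ * w⁻¹ * b⁻¹ := by group
    _ = a * b * (w * z) * z⁻¹ * a⁻¹ * w⁻¹ * b⁻¹ := by rw [hz w]
    _ = a * b * (w * a⁻¹) * w⁻¹ * b⁻¹ := by group
    _ = a * b * (a⁻¹ * w) * w⁻¹ * b⁻¹ := by rw [hw a⁻¹]
    _ = a * b * a⁻¹ * b⁻¹ := by group

/-- Let Z ≤ Z(G) be a central subgroup of a finite group G and E a subgroup of G containing Z whose image E/Z is a component of G/Z (subnormal and quasisimple). Then the derived subgroup [E, E] is a component of G. -/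
theorem result {G : Type*} [Group G] [Finite G] (Z : Subgroup G) (hZ : Z ≤ Subgroup.center G) [Z.Normal] (E : Subgroup G) (hZE : Z ≤ E) (hE : Cfsg.IsComponent (E.map (QuotientGroup.mk' Z))) : Cfsg.IsComponent ⁅E, E⁆ := by
  have hker : (QuotientGroup.mk' Z).ker = Z := QuotientGroup.ker_mk' Z
  have hEsub : E.IsSubnormal := by
    have h := Subgroup.IsSubnormal.comap (QuotientGroup.mk' Z) hE.1
    rw [Subgroup.comap_map_eq, hker, sup_eq_left.mpr hZE] at h
    exact h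
  have hKE : ⁅E, E⁆ ≤ E := Subgroup.commutator_le.mpr fun a ha b hb =>
    E.mul_mem (E.mul_mem (E.mul_mem ha hb) (E.inv_mem ha)) (E.inv_mem hb)
  have hEN : E ≤ normalizer ((⁅E, E⁆ : Subgroup G) : Set G) := fun g hg =>
    LocalTools.mem_normalizer_commutator (Subgroup.le_normalizer hg) (Subgroup.le_normalizer hg)
  refine ⟨Subgroup.IsSubnormal.step _ E hKE hEsub (normal_subgroupOf_of_le_normalizer hEN), ?_⟩
  -- `E/Z` is perfect
  obtain ⟨hperf, _⟩ := hE.2
  have hcomm : commutator ↥(E.map (QuotientGroup.mk' Z)) = ⊤ := hperf.commutator_eq_top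
  have h1 : ⁅E.map (QuotientGroup.mk' Z), E.map (QuotientGroup.mk' Z)⁆ =
      E.map (QuotientGroup.mk' Z) := by
    rw [← Subgroup.map_subtype_commutator, hcomm, ← MonoidHom.range_eq_map, Subgroup.range_subtype]
  rw [← Subgroup.map_commutator] at h1
  have h2 : ⁅E, E⁆ ⊔ Z = E := by
    have h3 := (Subgroup.map_eq_map_iff (f := QuotientGroup.mk' Z)).mp h1
    rw [hker, sup_eq_left.mpr hZE] at h3
    exact h3
  -- the derived subgroup is perfect
  have hKK : ⁅E, E⁆ ≤ ⁅⁅E, E⁆, ⁅E, E⁆⁆ := by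
    rw [Subgroup.commutator_le]
    intro x hx y hy
    rw [← h2] at hx hy
    obtain ⟨k, hk, z, hz, rfl⟩ := Subgroup.mem_sup_of_normal_right.mp hx
    obtain ⟨k', hk', z', hz', rfl⟩ := Subgroup.mem_sup_of_normal_right.mp hy
    have hzc : ∀ w, z * w = w * z := fun w => (Subgroup.mem_center_iff.mp (hZ hz) w).symm
    have hzc' : ∀ w, z' * w = w * z' := fun w => (Subgroup.mem_center_iff.mp (hZ hz') w).symm
    have : ⁅k * z, k' * z'⁆ = ⁅k, k'⁆ := comm_mul_central k k' z z' hzc hzc'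
    rw [this]
    exact Subgroup.commutator_mem_commutator hk hk'
  have hKK' : ⁅⁅E, E⁆, ⁅E, E⁆⁆ = ⁅E, E⁆ := le_antisymm (Subgroup.commutator_mono hKE hKE) hKK
  have hKcomm : commutator ↥(⁅E, E⁆ : Subgroup G) = ⊤ := by
    apply Subgroup.map_injective (⁅E, E⁆ : Subgroup G).subtype_injective
    rw [Subgroup.map_subtype_commutator, hKK', ← MonoidHom.range_eq_map, Subgroup.range_subtype]
  let f : ↥(⁅E, E⁆ : Subgroup G) →* ↥(E.map (QuotientGroup.mk' Z)) :=
    ((QuotientGroup.mk' Z).subgroupMap E).comp (Subgroup.inclusion hKE)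
  have hf : Function.Surjective f := by
    rintro ⟨y, hy⟩
    rw [← h1] at hy
    obtain ⟨k, hk, rfl⟩ := hy
    exact ⟨⟨k, hk⟩, rfl⟩
  have hfker : f.ker ≤ Subgroup.center ↥(⁅E, E⁆ : Subgroup G) := by
    rintro ⟨k, hk⟩ hk'
    have h3 : (QuotientGroup.mk' Z) k = 1 := congrArg Subtype.val (MonoidHom.mem_ker.mp hk')
    have h4 : k ∈ Z := by
      rw [← hker]
      exact h3
    rw [Subgroup.mem_center_iff]
    rintro ⟨w, hw⟩
    apply Subtype.ext
    exact (Subgroup.mem_center_iff.mp (hZ h4) w)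
  exact PComp.qs_of_central_ext hE.2 hKcomm f hf hfker

end Cfsg.Agent.S3746
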