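import Mathlib
import Cfsg.Statements.S3747
import Cfsg.Agent.Lib.LocalCore

set_option autoImplicit false
open Cfsg

namespace Cfsg.Agent.S3747

open Cfsg.Agent.Lib Cfsg.Agent.Lib.LocalCore Subgroup

variable {G : Type*} [Group G]

/-- The conjugates of a subgroup. -/
def Conjs (K : Subgroup G) : Set (Subgroup G) :=
  {L | ∃ g : G, L = K.map (MulAut.conj g).toMonoidHom}

theorem normalClosure_eq (K : Subgroup G) : normalClosure (K : Set G) = sSup (Conjs K) := by
  apply le_antisymm
  · rw [normalClosure, closure_le]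
    intro x hx
    obtain ⟨a, ha, hc⟩ := Group.mem_conjugatesOfSet_iff.mp hx
    obtain ⟨c, rfl⟩ := isConj_iff.mp hc
    have h : K.map (MulAut.conj c).toMonoidHom ≤ sSup (Conjs K) := le_sSup ⟨c, rfl⟩
    exact h ⟨a, ha, rfl⟩
  · apply sSup_le
    rintro _ ⟨g, rfl⟩
    rintro _ ⟨k, hk, rfl⟩
    exact (normalClosure_normal (s := (K : Set G))).conj_mem k (subset_normalClosure hk) g

theorem commute_conj {K N : Subgroup G} (hN : N.Normal) (h : ⁅K, N⁆ = ⊥) {z : G} (hz : z ∈ N)
    {L : Subgroup G} (hL : L ∈ Conjs K) {y : G} (hy : y ∈ L) : z * y = y * z := by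
  obtain ⟨g, rfl⟩ := hL
  obtain ⟨k, hk, rfl⟩ := hy
  have h1 : g⁻¹ * z * g ∈ N := by
    have := hN.conj_mem z hz g⁻¹
    simpa using this
  have h2 := commutator_eq_bot_iff_elementwise.mp h k hk _ h1
  simp only [MulEquiv.toMonoidHom_eq_coe, MonoidHom.coe_coe, MulAut.conj_apply]
  calc z * (g * k * g⁻¹) = g * ((g⁻¹ * z * g) * k) * g⁻¹ := by group
    _ = g * (k * (g⁻¹ * z * g)) * g⁻¹ := by rw [h2]
    _ = g * k * g⁻¹ * z := by group

theorem eq_one_of_central_conj {K : Subgroup G} (hK : Subgroup.center ↥K = ⊥) {L : Subgroup G}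
    (hL : L ∈ Conjs K) {l : G} (hl : l ∈ L) (hc : ∀ y ∈ L, l * y = y * l) : l = 1 := by
  obtain ⟨g, rfl⟩ := hL
  obtain ⟨k, hk, rfl⟩ := hl
  simp only [MulEquiv.toMonoidHom_eq_coe, MonoidHom.coe_coe, MulAut.conj_apply] at hc ⊢
  have h1 : (⟨k, hk⟩ : K) ∈ Subgroup.center ↥K := by
    rw [Subgroup.mem_center_iff]
    rintro ⟨k', hk'⟩
    apply Subtype.ext
    have h2 := hc (g * k' * g⁻¹) ⟨k', hk', by simp⟩
    have h3 : g * (k * k') * g⁻¹ = g * (k' * k) * g⁻¹ := by
      calc g * (k * k') * g⁻¹ = g * k * g⁻¹ * (g * k' * g⁻¹) := by group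
        _ = g * k' * g⁻¹ * (g * k * g⁻¹) := h2
        _ = g * (k' * k) * g⁻¹ := by group
    have h4 : k * k' = k' * k := by
      simpa using h3
    exact h4.symm
  rw [hK, Subgroup.mem_bot] at h1
  have h5 : k = 1 := congrArg Subtype.val h1
  rw [h5]
  simp

theorem eq_one_aux {K : Subgroup G} (hK : IsComponent K) (hZ : Subgroup.center ↥K = ⊥)
    (S : Set (Subgroup G)) (hS : S.Finite) : S ⊆ Conjs K → ∀ z ∈ sSup S,
      (∀ L ∈ Conjs K, ∀ y ∈ L, z * y = y * z) → z = 1 := by
  induction S, hS using Set.Finite.induction_on with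
  | empty =>
    intro _ z hz _
    simpa using hz
  | @insert L S' hLS' _ ih =>
    intro hsub z hz hc
    have hL : L ∈ Conjs K := hsub (Set.mem_insert _ _)
    have hS' : S' ⊆ Conjs K := fun K' hK' => hsub (Set.mem_insert_of_mem _ hK')
    have hcomp : ∀ L' ∈ Conjs K, IsComponent L' := by
      rintro _ ⟨g, rfl⟩
      exact comp_conj hK g
    rw [sSup_insert] at hz
    have hcomm : ⁅L, sSup S'⁆ = ⊥ := by
      rw [commutator_eq_bot_iff_elementwise]
      intro a ha b hb
      have h1 : sSup S' ≤ Subgroup.centralizer ({a} : Set G) := by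
        refine sSup_le fun K' hK' => ?_
        intro k hk
        rw [Subgroup.mem_centralizer_iff]
        intro w hw
        rw [Set.mem_singleton_iff] at hw
        subst hw
        have hne : L ≠ K' := fun h => hLS' (h ▸ hK')
        exact commutator_eq_bot_iff_elementwise.mp
          (comp_commute_of_ne (hcomp L hL) (hcomp K' (hS' hK')) hne) w ha k hk
      exact Subgroup.mem_centralizer_iff.mp (h1 hb) a rfl
    obtain ⟨l, hl, w, hw, rfl⟩ := mem_sup_of_commute hcomm hz
    have hl1 : l = 1 := by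
      apply eq_one_of_central_conj hZ hL hl
      intro y hy
      have h1 := hc L hL y hy
      have h2 : y * w = w * y := commutator_eq_bot_iff_elementwise.mp hcomm y hy w hw
      have h3 : l * y * w = y * l * w := by
        calc l * y * w = l * (y * w) := by group
          _ = l * (w * y) := by rw [h2]
          _ = l * w * y := by group
          _ = y * (l * w) := h1
          _ = y * l * w := by group
      exact mul_right_cancel h3
    subst hl1
    simp only [one_mul] at hc ⊢
    exact ih hS' w hw hc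

theorem part_a [Finite G] (K : Subgroup G) (hK : IsComponent K) (hZ : Subgroup.center ↥K = ⊥) :
    normalClosure (K : Set G) ≠ ⊥ ∧ ∀ N : Subgroup G, N.Normal → N ≤ normalClosure (K : Set G) →
      N = ⊥ ∨ N = normalClosure (K : Set G) := by
  refine ⟨?_, ?_⟩
  · intro h
    apply comp_ne_bot hK
    rw [eq_bot_iff, ← h]
    exact le_normalClosure
  · intro N hN hle
    rcases comp_le_or_commute hK hN.isSubnormal with h | h
    · right
      exact le_antisymm hle (normalClosure_le_normal h)
    · left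
      rw [eq_bot_iff]
      intro z hz
      rw [Subgroup.mem_bot]
      have hz' : z ∈ sSup (Conjs K) := by
        rw [← normalClosure_eq]
        exact hle hz
      exact eq_one_aux hK hZ _ (Set.toFinite _) subset_rfl z hz'
        (fun L hL y hy => commute_conj hN h hz hL hy)

theorem center_eq_bot_of_fitting [Finite G] (hF : fittingSubgroup G = ⊥) (K : Subgroup G)
    (hK : IsComponent K) : Subgroup.center ↥K = ⊥ := by
  have h1 : ((Subgroup.center ↥K).map K.subtype).IsSubnormal :=
    (inferInstance : (Subgroup.center ↥K).Normal).isSubnormal.trans' hK.1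
  have h2 : Group.IsNilpotent ((Subgroup.center ↥K).map K.subtype) := by
    apply nilpotent_of_commutator_centralized
    have h0 : ⁅(Subgroup.center ↥K).map K.subtype, (Subgroup.center ↥K).map K.subtype⁆ = ⊥ := by
      rw [commutator_eq_bot_iff_elementwise]
      rintro _ ⟨a, ha, rfl⟩ _ ⟨b, _, rfl⟩
      exact congrArg Subtype.val ((Subgroup.mem_center_iff.mp ha b).symm)
    rw [h0]
    exact Subgroup.commutator_bot_left _
  have h3 := subnormal_nilpotent_le_fitting h1 h2
  rw [hF] at h3
  rw [eq_bot_iff]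
  intro x hx
  have h4 : (x : G) ∈ (⊥ : Subgroup G) := h3 ⟨x, hx, rfl⟩
  exact Subtype.ext (Subgroup.mem_bot.mp h4)

theorem minimal_le_layer [Finite G] (hF : fittingSubgroup G = ⊥) (N : Subgroup G) (hne : N ≠ ⊥)
    (hN : N.Normal) (hmin : ∀ N' : Subgroup G, N'.Normal → N' ≤ N → N' = ⊥ ∨ N' = N) :
    N ≤ layer G := by
  let S : Set (Subgroup G) := {M | M ≠ ⊥ ∧ M ≤ N ∧ M.IsSubnormal}
  have hSne : S.Nonempty := ⟨N, hne, le_rfl, hN.isSubnormal⟩
  obtain ⟨M, hM⟩ := S.toFinite.exists_minimal hSne
  obtain ⟨hM0, hMN, hMs⟩ := hM.prop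
  have hcomp : IsComponent M := by
    rcases nilpotent_or_comp_of_proper_central hMs hM0 (fun M₀ h1 h2 h3 => by
      have h4 : M₀ = ⊥ := by
        by_contra hcon
        have h5 : M₀ ∈ S := ⟨hcon, h1.trans hMN, h2⟩
        exact h3 (le_antisymm h1 (hM.le_of_le h5 h1))
      rw [h4]
      exact Subgroup.commutator_bot_left M) with h | h
    · exfalso
      have h3 := subnormal_nilpotent_le_fitting hMs h
      rw [hF] at h3
      exact hM0 (le_bot_iff.mp h3)
    · exact h
  have hML : M ≤ layer G := comp_le_layer hcomp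
  have hnorm : (N ⊓ layer G).Normal := Subgroup.normal_inf_normal _ _
  rcases hmin _ hnorm inf_le_left with h | h
  · exfalso
    apply hM0
    rw [eq_bot_iff, ← h]
    exact le_inf hMN hML
  · rw [← h]
    exact inf_le_right

/-- Let G be a finite group. (a) If K is a component of G with trivial centre, then the normal closure of K in G is a minimal normal subgroup of G. (b) If the Fitting subgroup of G is trivial, then the layer E(G) is generated by the minimal normal subgroups of G. -/
theorem result {G : Type*} [Group G] [Finite G] : (∀ K : Subgroup G, Cfsg.IsComponent K → Subgroup.center ↥K = ⊥ → (Subgroup.normalClosure (K : Set G) ≠ ⊥ ∧ ∀ N : Subgroup G, N.Normal → N ≤ Subgroup.normalClosure (K : Set G) → N = ⊥ ∨ N = Subgroup.normalClosure (K : Set G))) ∧ (Cfsg.fittingSubgroup G = ⊥ → sSup {N : Subgroup G | N ≠ ⊥ ∧ N.Normal ∧ ∀ N' : Subgroup G, N'.Normal → N' ≤ N → N' = ⊥ ∨ N' = N} = Cfsg.layer G) := by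
  refine ⟨part_a, fun hF => le_antisymm ?_ ?_⟩
  · refine sSup_le ?_
    rintro N ⟨hne, hN, hmin⟩
    exact minimal_le_layer hF N hne hN hmin
  · refine sSup_le ?_
    intro K hK
    obtain ⟨h1, h2⟩ := part_a K hK (center_eq_bot_of_fitting hF K hK)
    exact le_normalClosure.trans (le_sSup ⟨h1, normalClosure_normal, h2⟩)

end Cfsg.Agent.S3747
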