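import Mathlib
import Cfsg.Statements.S3748
import Cfsg.Agent.Lib.Subnormal
import Cfsg.Agent.Lib.Subnormal2
import Cfsg.Agent.Lib.PCore

set_option autoImplicit false
open Cfsg

namespace Cfsg.Agent.S3748

open scoped Pointwise
open Cfsg.Agent.Lib

/-- Call a proper subgroup M of G primitive when M = N_G(N) for every non-trivial normal subgroup N of M. If M is a primitive subgroup of the finite group G, then no non-trivial subnormal subgroup of G is contained in M; in particular M ∩ F(G) = 1. -/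
theorem result {G : Type*} [Group G] [Finite G] (M : Subgroup G) (hM : M ≠ ⊤) (hprim : ∀ N : Subgroup G, N ≤ M → M ≤ Subgroup.normalizer (N : Set G) → N ≠ ⊥ → Subgroup.normalizer (N : Set G) = M) : (∀ L : Subgroup G, L.IsSubnormal → L ≤ M → L = ⊥) ∧ M ⊓ Cfsg.fittingSubgroup G = ⊥ := by
  have hL : ∀ L : Subgroup G, L.IsSubnormal → L ≤ M → L = ⊥ := by
    intro L₀ hL₀ hL₀M
    by_contra hne
    let S : Set (Subgroup G) := {L | L.IsSubnormal ∧ L ≤ M}
    have hfin : S.Finite := Set.toFinite S
    obtain ⟨L, hL₀L, hLmax⟩ := hfin.exists_le_maximal (a := L₀) ⟨hL₀, hL₀M⟩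
    have hLs : L.IsSubnormal := hLmax.prop.1
    have hLM : L ≤ M := hLmax.prop.2
    have hLne : L ≠ ⊥ := by
      rintro rfl
      exact hne (le_bot_iff.mp hL₀L)
    have hMN : M ≤ Subgroup.normalizer (L : Set G) := by
      intro x hx
      have h1 : (MulAut.conj x • L).IsSubnormal := hLs.smul _
      have h2 : MulAut.conj x • L ≤ M := Subnormal.conj_smul_le_of_mem hLM hx
      have h3 : (L ⊔ MulAut.conj x • L) ∈ S := ⟨Subnormal.sup_isSubnormal _ _ hLs h1, sup_le hLM h2⟩
      have h4 := hLmax.le_of_ge h3 le_sup_left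
      exact Subnormal.mem_normalizer_of_conj_mem L x
        (fun d hd => h4 ((le_sup_right : MulAut.conj x • L ≤ _) (Subnormal.conj_mem_conj_smul hd)))
    have hN := hprim L hLM hMN hLne
    rcases Subgroup.IsSubnormal.iff_eq_top_or_exists.mp hLs with h | ⟨K, hLK, hKs, hnorm⟩
    · exact hM (top_le_iff.mp (h ▸ hLM))
    · have hKN : K ≤ Subgroup.normalizer (L : Set G) :=
        (Subgroup.normal_subgroupOf_iff_le_normalizer hLK.le).mp hnorm
      have hKM : K ≤ M := hN ▸ hKN
      exact absurd (hLmax.le_of_ge ⟨hKs, hKM⟩ hLK.le) (not_le_of_gt hLK)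
  refine ⟨hL, hL _ ?_ inf_le_left⟩
  have hnil : Group.IsNilpotent (Cfsg.fittingSubgroup G) := PCore.isNilpotent_fittingSubgroup
  have h1 : ((M ⊓ Cfsg.fittingSubgroup G).subgroupOf (Cfsg.fittingSubgroup G)).IsSubnormal :=
    Subnormal2.isSubnormal_of_isNilpotent _
  exact Subgroup.IsSubnormal.trans inf_le_right h1 (PCore.fittingSubgroup_normal).isSubnormal

end Cfsg.Agent.S3748
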