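import Mathlib
import Cfsg.Statements.S3749
import Cfsg.Agent.Lib.PCore
import Cfsg.Agent.Lib.CoprimeHyper

set_option autoImplicit false
open Cfsg
open scoped Pointwise

namespace Cfsg.Agent.S3749

open Cfsg.Agent.Lib

variable {G : Type*} [Group G]

theorem mem_smul_sylow {q : ℕ} (N : Subgroup G) (n : N) (Q : Sylow q N) (x : G) :
    x ∈ (((n • Q : Sylow q N) : Subgroup N).map N.subtype) ↔
      (n : G)⁻¹ * x * n ∈ (Q : Subgroup N).map N.subtype := by
  rw [Sylow.smul_def, Sylow.pointwise_smul_def, Subgroup.mem_map, Subgroup.mem_map]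
  constructor
  · rintro ⟨y, hy, rfl⟩
    rw [Subgroup.mem_pointwise_smul_iff_inv_smul_mem] at hy
    refine ⟨_, hy, ?_⟩
    simp [MulAut.smul_def]
  · rintro ⟨y, hy, hxy⟩
    refine ⟨n * y * n⁻¹, ?_, ?_⟩
    · rw [Subgroup.mem_pointwise_smul_iff_inv_smul_mem]
      have : (MulAut.conj n)⁻¹ • (n * y * n⁻¹) = y := by
        simp [MulAut.smul_def]
        group
      rw [this]
      exact hy
    · simp only [Subgroup.coe_subtype] at hxy
      simp only [Subgroup.coe_subtype, Subgroup.coe_mul, Subgroup.coe_inv, hxy]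
      group

theorem uniq [Finite G] {p q : ℕ} [Fact p.Prime] [Fact q.Prime] (P N : Subgroup G) [hNn : N.Normal]
    (hP : IsPGroup p P) (hN : ¬ p ∣ Nat.card N)
    (hC : ∀ x ∈ N, (∀ b ∈ P, b * x * b⁻¹ = x) → x = 1) (Q₁ Q₂ : Sylow q N)
    (h₁ : P ≤ Subgroup.normalizer (((Q₁ : Subgroup N).map N.subtype : Subgroup G) : Set G))
    (h₂ : P ≤ Subgroup.normalizer (((Q₂ : Subgroup N).map N.subtype : Subgroup G) : Set G)) :
    Q₁ = Q₂ := by
  obtain ⟨n, hn⟩ := MulAction.exists_smul_eq N Q₁ Q₂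
  set QQ₁ : Subgroup G := (Q₁ : Subgroup N).map N.subtype with hQ₁
  set QQ₂ : Subgroup G := (Q₂ : Subgroup N).map N.subtype with hQ₂
  have hmem : ∀ x : G, x ∈ QQ₂ ↔ (n : G)⁻¹ * x * n ∈ QQ₁ := by
    intro x
    rw [hQ₂, ← hn, mem_smul_sylow]
  let T : Subgroup G := N ⊓ Subgroup.normalizer (QQ₁ : Set G)
  have hT : ¬ p ∣ Nat.card T := by
    intro hd
    apply hN
    exact hd.trans (Subgroup.card_dvd_of_le inf_le_left)
  have hBK : ∀ b ∈ P, ∀ k ∈ T, b * k * b⁻¹ ∈ T := by
    intro b hb k hk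
    refine Subgroup.mem_inf.mpr ⟨hNn.conj_mem k (Subgroup.mem_inf.mp hk).1 b, ?_⟩
    exact mul_mem (mul_mem (h₁ hb) (Subgroup.mem_inf.mp hk).2) (inv_mem (h₁ hb))
  have hw : ∀ b ∈ P, (n : G)⁻¹ * (b * n * b⁻¹) ∈ T := by
    intro b hb
    refine Subgroup.mem_inf.mpr ⟨mul_mem (inv_mem n.2) (hNn.conj_mem n n.2 b), ?_⟩
    rw [Subgroup.mem_normalizer_iff]
    intro x
    have h1 := Subgroup.mem_normalizer_iff.mp (inv_mem (h₁ hb)) x
    have h2 := hmem ((n : G) * (b⁻¹ * x * b⁻¹⁻¹) * (n : G)⁻¹)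
    have h3 := Subgroup.mem_normalizer_iff.mp (h₂ hb) ((n : G) * (b⁻¹ * x * b⁻¹⁻¹) * (n : G)⁻¹)
    have h4 := hmem (b * ((n : G) * (b⁻¹ * x * b⁻¹⁻¹) * (n : G)⁻¹) * b⁻¹)
    have e1 : (n : G)⁻¹ * ((n : G) * (b⁻¹ * x * b⁻¹⁻¹) * (n : G)⁻¹) * n = b⁻¹ * x * b⁻¹⁻¹ := by group
    rw [e1] at h2
    have e2 : (n : G)⁻¹ * (b * n * b⁻¹) * x * ((n : G)⁻¹ * (b * n * b⁻¹))⁻¹ =
        (n : G)⁻¹ * (b * ((n : G) * (b⁻¹ * x * b⁻¹⁻¹) * (n : G)⁻¹) * b⁻¹) * n := by group
    rw [e2, h1, ← h2, h3, h4]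
  obtain ⟨u, hu, hfix⟩ := CoprimeHyper.exists_fixed_in_coset P T hP hT hBK n hw
  have hnu : (n : G) * u = 1 := by
    apply hC
    · exact mul_mem n.2 (Subgroup.mem_inf.mp hu).1
    · exact hfix
  have hn' : (n : G) ∈ Subgroup.normalizer (QQ₁ : Set G) := by
    have : (n : G) = u⁻¹ := eq_inv_of_mul_eq_one_left hnu
    rw [this]
    exact inv_mem (Subgroup.mem_inf.mp hu).2
  have hQeq : QQ₂ = QQ₁ := by
    ext x
    rw [hmem]
    have := Subgroup.mem_normalizer_iff.mp (inv_mem hn') x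
    rw [this]
    simp
  apply Sylow.ext
  have := Subgroup.map_injective N.subtype_injective hQeq
  exact this.symm

/-- Call a proper subgroup M of G primitive when M = N_G(N) for every non-trivial normal subgroup N of M. Let M be a primitive subgroup of the finite group G, p a prime with O_p(M) ≠ 1, and N a normal subgroup of G with M ∩ N = 1. Then p does not divide the order of N; for every prime q there is exactly one Sylow q-subgroup of N normalized by M; and if the order of N has at least two prime divisors then M is not a maximal subgroup of G. -/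
theorem result {G : Type*} [Group G] [Finite G] (M : Subgroup G) (hM : M ≠ ⊤) (hprim : ∀ N : Subgroup G, N ≤ M → M ≤ Subgroup.normalizer (N : Set G) → N ≠ ⊥ → Subgroup.normalizer (N : Set G) = M) {p : ℕ} [Fact p.Prime] (hOp : Cfsg.pCore p ↥M ≠ ⊥) (N : Subgroup G) [N.Normal] (hMN : M ⊓ N = ⊥) : ¬ p ∣ Nat.card N ∧ (∀ q : ℕ, [Fact q.Prime] → ∃! Q : Sylow q ↥N, M ≤ Subgroup.normalizer ((Q : Subgroup ↥N).map N.subtype : Set G)) ∧ ((∃ q r : ℕ, q.Prime ∧ r.Prime ∧ q ≠ r ∧ q ∣ Nat.card N ∧ r ∣ Nat.card N) → ¬ IsCoatom M) := by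
  classical
  set P : Subgroup G := (Cfsg.pCore p ↥M).map M.subtype with hPdef
  have hPM : P ≤ M := by
    rintro _ ⟨x, _, rfl⟩
    exact x.2
  have hMP : M ≤ Subgroup.normalizer (P : Set G) := by
    intro m hm
    rw [Subgroup.mem_normalizer_iff]
    intro x
    have hnorm : (Cfsg.pCore p ↥M).Normal := inferInstance
    constructor
    · rintro ⟨y, hy, rfl⟩
      refine ⟨⟨m, hm⟩ * y * ⟨m, hm⟩⁻¹, hnorm.conj_mem y hy _, ?_⟩
      simp
    · rintro ⟨y, hy, hxy⟩
      refine ⟨⟨m, hm⟩⁻¹ * y * ⟨m, hm⟩, ?_, ?_⟩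
      · have := hnorm.conj_mem y hy ⟨m, hm⟩⁻¹
        simpa using this
      · simp only [Subgroup.coe_subtype] at hxy
        simp only [Subgroup.coe_subtype, Subgroup.coe_mul, Subgroup.coe_inv, hxy]
        group
  have hP1 : P ≠ ⊥ := by
    intro h
    apply hOp
    rw [hPdef, Subgroup.map_eq_bot_iff_of_injective _ M.subtype_injective] at h
    exact h
  have hPp : IsPGroup p P := (PCore.isPGroup_pCore (G := M) p).map M.subtype
  have hNP : Subgroup.normalizer (P : Set G) = M := hprim P hPM hMP hP1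
  have hC : ∀ x ∈ N, (∀ b ∈ P, b * x * b⁻¹ = x) → x = 1 := by
    intro x hx hfix
    have hcomm : ∀ b ∈ P, b * x = x * b := by
      intro b hb
      have h2 := hfix b hb
      calc b * x = b * x * b⁻¹ * b := by group
        _ = x * b := by rw [h2]
    have hxM : x ∈ M := by
      rw [← hNP, Subgroup.mem_normalizer_iff]
      intro y
      constructor
      · intro hy
        have h1 : x * y * x⁻¹ = y := by
          rw [← hcomm y hy]; group
        rw [h1]; exact hy
      · intro hy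
        have h2 := hcomm _ hy
        have h4 : x * y = x * (x * y * x⁻¹) := by
          calc x * y = x * y * x⁻¹ * x := by group
            _ = _ := h2
        have h5 : y = x * y * x⁻¹ := mul_left_cancel h4
        rw [h5]; exact hy
    have : x ∈ M ⊓ N := Subgroup.mem_inf.mpr ⟨hxM, hx⟩
    rwa [hMN, Subgroup.mem_bot] at this
  -- (1)
  have hNp : ¬ p ∣ Nat.card N := by
    intro hd
    have hPN : P ≤ Subgroup.normalizer (N : Set G) := by
      rw [(Subgroup.normalizer_eq_top_iff).mpr inferInstance]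
      exact le_top
    let φ : ↥P →* MulAut ↥N := N.normalizerMonoidHom.comp (Subgroup.inclusion hPN)
    letI : MulDistribMulAction ↥P ↥N := MulDistribMulAction.compHom ↥N φ
    have hfix1 : (1 : N) ∈ MulAction.fixedPoints ↥P ↥N := by
      intro b
      exact smul_one b
    obtain ⟨b, hb, hne⟩ := hPp.exists_fixed_point_of_prime_dvd_card_of_fixed_point ↥N hd hfix1
    apply hne
    apply Subtype.ext
    symm
    apply hC b b.2
    intro a ha
    have := MulAction.mem_fixedPoints.1 hb ⟨a, ha⟩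
    exact congrArg Subtype.val this
  -- uniqueness
  have huniq : ∀ (q : ℕ) [Fact q.Prime] (Q₁ Q₂ : Sylow q N),
      P ≤ Subgroup.normalizer (((Q₁ : Subgroup N).map N.subtype : Subgroup G) : Set G) →
      P ≤ Subgroup.normalizer (((Q₂ : Subgroup N).map N.subtype : Subgroup G) : Set G) → Q₁ = Q₂ :=
    fun q _ Q₁ Q₂ h₁ h₂ => uniq P N hPp hNp hC Q₁ Q₂ h₁ h₂
  have hPN : P ≤ Subgroup.normalizer (N : Set G) := by
    rw [(Subgroup.normalizer_eq_top_iff).mpr inferInstance]
    exact le_top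
  have hinv : ∀ (q : ℕ) [Fact q.Prime], ∃ Q : Sylow q N,
      M ≤ Subgroup.normalizer (((Q : Subgroup N).map N.subtype : Subgroup G) : Set G) := by
    intro q _
    obtain ⟨Q, hQ⟩ := CoprimeHyper.exists_invariant_sylow (q := q) P N hPp hNp hPN
    have hQP : P ≤ Subgroup.normalizer (((Q : Subgroup N).map N.subtype : Subgroup G) : Set G) := by
      intro a ha
      rw [Subgroup.mem_normalizer_iff]
      intro x
      refine ⟨hQ a ha x, fun hx => ?_⟩
      have := hQ a⁻¹ (inv_mem ha) _ hx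
      simpa [mul_assoc] using this
    refine ⟨Q, ?_⟩
    intro m hm
    -- the conjugate of Q by m
    let m' : MulAut N := MulAut.conjNormal m
    let Q' : Sylow q N := m' • Q
    have hQ'mem : ∀ x : G, x ∈ (Q' : Subgroup N).map N.subtype ↔
        m⁻¹ * x * m ∈ (Q : Subgroup N).map N.subtype := by
      intro x
      simp only [Q', Sylow.smul_def, Sylow.pointwise_smul_def]
      rw [Subgroup.mem_map, Subgroup.mem_map]
      constructor
      · rintro ⟨y, hy, rfl⟩
        rw [Subgroup.mem_pointwise_smul_iff_inv_smul_mem] at hy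
        refine ⟨_, hy, ?_⟩
        simp [MulAut.smul_def, m', MulAut.conjNormal_symm_apply]
      · rintro ⟨y, hy, hxy⟩
        refine ⟨m' • y, ?_, ?_⟩
        · exact Subgroup.smul_mem_pointwise_smul _ _ _ hy
        · simp only [Subgroup.coe_subtype] at hxy
          simp only [Subgroup.coe_subtype, MulAut.smul_def, m', MulAut.conjNormal_apply, hxy]
          group
    have hQ'P : P ≤ Subgroup.normalizer (((Q' : Subgroup N).map N.subtype : Subgroup G) : Set G) := by
      intro a ha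
      rw [Subgroup.mem_normalizer_iff]
      intro x
      rw [hQ'mem, hQ'mem]
      have hma : m⁻¹ * a * m ∈ P := by
        have := (Subgroup.mem_normalizer_iff.mp (inv_mem (hMP hm)) a).mp ha
        simpa using this
      have := Subgroup.mem_normalizer_iff.mp (hQP hma) (m⁻¹ * x * m)
      rw [this]
      have e : m⁻¹ * a * m * (m⁻¹ * x * m) * (m⁻¹ * a * m)⁻¹ = m⁻¹ * (a * x * a⁻¹) * m := by group
      rw [e]
    have heq : Q' = Q := huniq q Q' Q hQ'P hQP
    rw [Subgroup.mem_normalizer_iff]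
    intro x
    have h1 := hQ'mem (m * x * m⁻¹)
    rw [heq] at h1
    have e : m⁻¹ * (m * x * m⁻¹) * m = x := by group
    rw [e] at h1
    exact h1.symm
  refine ⟨hNp, ?_, ?_⟩
  · intro q _
    obtain ⟨Q, hQ⟩ := hinv q
    refine ⟨Q, hQ, ?_⟩
    intro Q' hQ'
    exact huniq q Q' Q (hPM.trans hQ') (hPM.trans hQ)
  · rintro ⟨q, r, hq, hr, hqr, hqd, hrd⟩ hcoat
    haveI : Fact q.Prime := ⟨hq⟩
    obtain ⟨Q, hQ⟩ := hinv q
    set QQ : Subgroup G := (Q : Subgroup N).map N.subtype with hQQ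
    have hQN : QQ ≤ N := by
      rintro _ ⟨x, _, rfl⟩
      exact x.2
    have hQ1 : QQ ≠ ⊥ := by
      intro h
      rw [hQQ, Subgroup.map_eq_bot_iff_of_injective _ N.subtype_injective] at h
      have h1 := Q.card_eq_multiplicity
      rw [h, Subgroup.card_bot] at h1
      have h2 : q ^ (Nat.card N).factorization q = 1 := h1.symm
      have h3 : (Nat.card N).factorization q = 0 := by
        by_contra h4
        have := hq.one_lt
        have h5 : 1 < q ^ (Nat.card N).factorization q := Nat.one_lt_pow h4 this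
        omega
      have h6 : (Nat.card N).factorization q ≠ 0 :=
        (Nat.Prime.factorization_pos_of_dvd hq Nat.card_pos.ne' hqd).ne'
      exact h6 h3
    have hlt : M < M ⊔ QQ := by
      refine lt_of_le_of_ne le_sup_left ?_
      intro h
      have hle : QQ ≤ M := by
        rw [h]; exact le_sup_right
      apply hQ1
      rw [eq_bot_iff, ← hMN]
      exact le_inf hle hQN
    have htop : M ⊔ QQ = ⊤ := hcoat.2 _ hlt
    have hNQ : N ≤ QQ := by
      intro x hx
      have hx' : x ∈ ((M ⊔ QQ : Subgroup G) : Set G) := by rw [htop]; trivial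
      rw [Subgroup.coe_mul_of_left_le_normalizer_right M QQ hQ] at hx'
      obtain ⟨m, hm, y, hy, rfl⟩ := Set.mem_mul.mp hx'
      have hmN : m ∈ N := by
        have : m = (m * y) * y⁻¹ := by group
        rw [this]
        exact mul_mem hx (inv_mem (hQN hy))
      have : m ∈ M ⊓ N := Subgroup.mem_inf.mpr ⟨hm, hmN⟩
      rw [hMN, Subgroup.mem_bot] at this
      simpa [this] using hy
    -- N is a q-group
    have hqg : IsPGroup q N := by
      have h1 : IsPGroup q QQ := Q.isPGroup'.map N.subtype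
      exact h1.to_le hNQ
    obtain ⟨k, hk⟩ := IsPGroup.iff_card.mp hqg
    rw [hk] at hrd
    have := (Nat.prime_dvd_prime_iff_eq hr hq).mp (hr.dvd_of_dvd_pow hrd)
    exact hqr this.symm

end Cfsg.Agent.S3749
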