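import Mathlib
import Cfsg.Statements.S3750
import Cfsg.Agent.S3747
import Cfsg.Agent.S3748
import Cfsg.Agent.Lib.LocalCore

set_option autoImplicit false
open Cfsg

namespace Cfsg.Agent.S3750

open Cfsg.Agent.Lib Cfsg.Agent.Lib.LocalCore Cfsg.Agent.Lib.PCore Subgroup

variable {G : Type*} [Group G]

theorem layer_map_le (N : Subgroup G) (hN : N.IsSubnormal) :
    (layer ↥N).map N.subtype ≤ layer G := by
  rw [Subgroup.map_le_iff_le_comap]
  refine sSup_le fun K hK => ?_
  rw [← Subgroup.map_le_iff_le_comap]
  exact comp_le_layer (comp_map_subtype hN hK)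

theorem fitting_map_le [Finite G] (N : Subgroup G) (hN : N.IsSubnormal) :
    (fittingSubgroup ↥N).map N.subtype ≤ fittingSubgroup G := by
  apply subnormal_nilpotent_le_fitting
  · exact (fittingSubgroup_normal (G := ↥N)).isSubnormal.trans' hN
  · exact (Group.isNilpotent_congr
      ((fittingSubgroup ↥N).equivMapOfInjective N.subtype N.subtype_injective)).mp
      isNilpotent_fittingSubgroup

/-- Call a proper subgroup M of G primitive when M = N_G(N) for every non-trivial normal subgroup N of M. Let M be a primitive subgroup of the finite group G and N a normal subgroup of G with M ∩ F*(N) ≠ 1. Then F(G) = 1 and F*(N) = F*(G) = E(G); in particular every minimal normal subgroup of G is contained in N. -/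
theorem result {G : Type*} [Group G] [Finite G] (M : Subgroup G) (hM : M ≠ ⊤) (hprim : ∀ N : Subgroup G, N ≤ M → M ≤ Subgroup.normalizer (N : Set G) → N ≠ ⊥ → Subgroup.normalizer (N : Set G) = M) (N : Subgroup G) [N.Normal] (hMF : M ⊓ (Cfsg.generalizedFittingSubgroup ↥N).map N.subtype ≠ ⊥) : Cfsg.fittingSubgroup G = ⊥ ∧ (Cfsg.generalizedFittingSubgroup ↥N).map N.subtype = Cfsg.generalizedFittingSubgroup G ∧ Cfsg.generalizedFittingSubgroup G = Cfsg.layer G ∧ ∀ K : Subgroup G, K.Normal → K ≠ ⊥ → (∀ K' : Subgroup G, K'.Normal → K' ≤ K → K' = ⊥ ∨ K' = K) → K ≤ N := by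
  obtain ⟨hsub, hfit⟩ := S3748.result M hM hprim
  have hNs : N.IsSubnormal := Subgroup.Normal.isSubnormal inferInstance
  set F : Subgroup G := (Cfsg.generalizedFittingSubgroup ↥N).map N.subtype with hF
  have hFn : F.Normal := ConjAct.normal_of_characteristic_of_normal
  have hFeq : F = (layer ↥N).map N.subtype ⊔ (fittingSubgroup ↥N).map N.subtype := by
    rw [hF, generalizedFittingSubgroup, Subgroup.map_sup]
  set D : Subgroup G := M ⊓ F with hD
  have hDM : D ≤ M := inf_le_left
  have hMD : M ≤ normalizer (D : Set G) := by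
    intro g hg
    rw [Subgroup.mem_normalizer_iff]
    intro x
    constructor
    · rintro ⟨h1, h2⟩
      exact ⟨M.mul_mem (M.mul_mem hg h1) (M.inv_mem hg), hFn.conj_mem x h2 g⟩
    · rintro ⟨h1, h2⟩
      refine ⟨?_, ?_⟩
      · have h3 := M.mul_mem (M.mul_mem (M.inv_mem hg) h1) hg
        simpa [mul_assoc] using h3
      · have h3 := hFn.conj_mem _ h2 g⁻¹
        simpa [mul_assoc] using h3
  have hND := hprim D hDM hMD hMF
  have hCM : centralizer (F : Set G) ≤ M := by
    rw [← hND]
    intro x hx
    rw [Subgroup.mem_normalizer_iff]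
    intro y
    constructor
    · intro hy
      have : x * y * x⁻¹ = y := by
        rw [(Subgroup.mem_centralizer_iff.mp hx y hy.2).symm]
        simp
      rw [this]; exact hy
    · intro hy
      have : x * y * x⁻¹ ∈ F := hy.2
      have h2 : y ∈ F := by
        have h3 := hFn.conj_mem _ this x⁻¹
        simpa [mul_assoc] using h3
      have h4 : x * y * x⁻¹ = y := by
        rw [(Subgroup.mem_centralizer_iff.mp hx y h2).symm]
        simp
      rw [h4] at hy
      exact hy
  -- `Z(F(G))` centralizes `F*(N)`
  have hlay := layer_map_le N hNs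
  have hfitle := fitting_map_le N hNs
  have hZ : (Subgroup.center (fittingSubgroup G)).map (fittingSubgroup G).subtype ≤
      centralizer (F : Set G) := by
    rintro _ ⟨⟨z, hzF⟩, hz, rfl⟩
    rw [Subgroup.mem_centralizer_iff]
    intro y hy
    simp only [Subgroup.subtype_apply]
    rw [hFeq] at hy
    have hZF : ∀ w ∈ (layer ↥N).map N.subtype ⊔ (fittingSubgroup ↥N).map N.subtype,
        w ∈ centralizer ({z} : Set G) := by
      have : (layer ↥N).map N.subtype ⊔ (fittingSubgroup ↥N).map N.subtype ≤
          centralizer ({z} : Set G) := by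
        apply sup_le
        · intro w hw
          rw [Subgroup.mem_centralizer_iff]
          intro c hc
          rw [Set.mem_singleton_iff] at hc
          rw [hc]
          exact (commutator_eq_bot_iff_elementwise.mp (layer_commute_fitting (G := G)) w (hlay hw) z hzF).symm
        · intro w hw
          rw [Subgroup.mem_centralizer_iff]
          intro c hc
          rw [Set.mem_singleton_iff] at hc
          rw [hc]
          have h1 := Subgroup.mem_center_iff.mp hz ⟨w, hfitle hw⟩
          exact (congrArg Subtype.val h1).symm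
      exact fun w hw => this hw
    exact (Subgroup.mem_centralizer_iff.mp (hZF y hy) z rfl).symm
  have hFit : fittingSubgroup G = ⊥ := by
    have h1 : (Subgroup.center (fittingSubgroup G)).map (fittingSubgroup G).subtype ≤ M ⊓ fittingSubgroup G :=
      le_inf (hZ.trans hCM) (Subgroup.map_subtype_le _)
    rw [hfit] at h1
    have hnil : Group.IsNilpotent (fittingSubgroup G) := isNilpotent_fittingSubgroup
    by_contra hne
    have hnt : Nontrivial (fittingSubgroup G) := (Subgroup.nontrivial_iff_ne_bot _).mpr hne
    apply Group.IsNilpotent.center_ne_bot (G := fittingSubgroup G)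
    rw [eq_bot_iff]
    intro x hx
    have h2 : (x : G) ∈ (⊥ : Subgroup G) := h1 ⟨x, hx, rfl⟩
    exact Subtype.ext (Subgroup.mem_bot.mp h2)
  have hfitN : (fittingSubgroup ↥N).map N.subtype = ⊥ := le_bot_iff.mp (hFit ▸ hfitle)
  have hFlayer : F = (layer ↥N).map N.subtype := by
    rw [hFeq, hfitN, sup_bot_eq]
  have hFN : F ≤ N := by
    rw [hF]
    exact Subgroup.map_subtype_le _
  have hlayer : layer G ≤ F := by
    refine sSup_le fun L hL => ?_
    rcases comp_le_or_commute hL hNs with h | h
    · rw [hFlayer]
      have h1 := comp_le_layer (comp_subgroupOf hL h)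
      intro l hl
      exact ⟨⟨l, h hl⟩, h1 (by simpa [Subgroup.mem_subgroupOf] using hl), rfl⟩
    · exfalso
      have h1 : L ≤ centralizer (F : Set G) := by
        intro l hl
        rw [Subgroup.mem_centralizer_iff]
        intro y hy
        exact (commutator_eq_bot_iff_elementwise.mp h l hl y (hFN hy)).symm
      exact comp_ne_bot hL (hsub L hL.1 (h1.trans hCM))
  have hFL : F = layer G := le_antisymm (by rw [hFlayer]; exact hlay) hlayer
  have hGF : Cfsg.generalizedFittingSubgroup G = layer G := by
    rw [generalizedFittingSubgroup, hFit, sup_bot_eq]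
  refine ⟨hFit, ?_, hGF, ?_⟩
  · rw [hFL, hGF]
  · intro K hK hne hmin
    exact (S3747.minimal_le_layer hFit K hne hK hmin).trans (hFL ▸ hFN)

end Cfsg.Agent.S3750
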