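import Mathlib
import Cfsg.Statements.S3751
import Cfsg.Agent.Lib.CharTwoLocal
import Cfsg.Agent.Lib.PCore

set_option autoImplicit false
set_option linter.unusedSectionVars false
open Cfsg

namespace Cfsg.Agent.S3751

open Subgroup Cfsg.Agent.Lib Cfsg.Agent.Lib.CharTwoLocal
open scoped commutatorElement

variable {G : Type*} [Group G] [Finite G] {p : ℕ} [hp : Fact p.Prime]

/-- `p`-local subgroups. -/
def IsLoc (p : ℕ) (M : Subgroup G) : Prop :=
  ∃ T : Subgroup G, IsPGroup p T ∧ T ≠ ⊥ ∧ M = normalizer (T : Set G)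

/-- Maximal `p`-local subgroups. -/
def IsMaxLoc (p : ℕ) (M : Subgroup G) : Prop :=
  IsLoc p M ∧ ∀ L : Subgroup G, IsLoc p L → M ≤ L → L = M

theorem isLoc_normalizer {T : Subgroup G} (hT : IsPGroup p T) (hne : T ≠ ⊥) :
    IsLoc p (normalizer (T : Set G)) := ⟨T, hT, hne, rfl⟩

theorem le_normalizer_Oc (M : Subgroup G) : M ≤ normalizer (Oc p M : Set G) := by
  intro x hx
  refine mem_normalizer_of_forall (fun a ha => conj_mem_Oc hx ha) (fun a ha => ?_)
  have := conj_mem_Oc (M.inv_mem hx) ha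
  simpa using this

theorem Oc_ne_bot {M : Subgroup G} (hM : IsLoc p M) : Oc p M ≠ ⊥ := by
  obtain ⟨T, hT, hne, rfl⟩ := hM
  intro h
  apply hne
  have h1 : T ≤ Oc p (normalizer (T : Set G)) :=
    le_Oc le_normalizer hT (fun x hx y hy => (mem_normalizer_iff.mp hx y).mp hy)
  rw [h] at h1
  exact le_bot_iff.mp h1

theorem normalizer_Oc_eq {M : Subgroup G} (hM : IsMaxLoc p M) :
    normalizer (Oc p M : Set G) = M :=
  hM.2 _ (isLoc_normalizer (isPGroup_Oc p M) (Oc_ne_bot hM.1)) (le_normalizer_Oc M)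

theorem normalizer_eq {M : Subgroup G} (hM : IsMaxLoc p M) : normalizer (M : Set G) = M := by
  apply le_antisymm _ le_normalizer
  intro x hx
  rw [← normalizer_Oc_eq hM]
  refine mem_normalizer_of_forall (fun a ha => conj_mem_Oc_of_normalizer hx ha) (fun a ha => ?_)
  exact conj_mem_Oc_of_normalizer (Subgroup.inv_mem _ hx) ha |> fun h => by simpa using h

theorem conj_conj_inv (L : Subgroup G) (x : G) :
    (L.map (MulAut.conj x⁻¹).toMonoidHom).map (MulAut.conj x).toMonoidHom = L := by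
  ext y
  simp only [mem_map, MulEquiv.coe_toMonoidHom, MulAut.conj_apply]
  constructor
  · rintro ⟨_, ⟨z, hz, rfl⟩, rfl⟩
    simpa [mul_assoc] using hz
  · intro hy
    exact ⟨x⁻¹ * y * x, ⟨y, hy, by group⟩, by group⟩

theorem conj_inv_conj (L : Subgroup G) (x : G) :
    (L.map (MulAut.conj x).toMonoidHom).map (MulAut.conj x⁻¹).toMonoidHom = L := by
  have := conj_conj_inv L x⁻¹
  simpa using this

theorem isLoc_conj {M : Subgroup G} (hM : IsLoc p M) (x : G) :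
    IsLoc p (M.map (MulAut.conj x).toMonoidHom) := by
  obtain ⟨T, hT, hne, rfl⟩ := hM
  refine ⟨T.map (MulAut.conj x).toMonoidHom, hT.map _, ?_, ?_⟩
  · intro h
    apply hne
    exact (map_eq_bot_iff_of_injective _ (MulAut.conj x).injective).mp h
  · exact map_equiv_normalizer_eq T (MulAut.conj x)

theorem isMaxLoc_conj {M : Subgroup G} (hM : IsMaxLoc p M) (x : G) :
    IsMaxLoc p (M.map (MulAut.conj x).toMonoidHom) := by
  refine ⟨isLoc_conj hM.1 x, fun L hL hle => ?_⟩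
  have h1 : M ≤ L.map (MulAut.conj x⁻¹).toMonoidHom := by
    rw [← conj_inv_conj M x]
    exact map_mono hle
  have h2 := hM.2 _ (isLoc_conj hL x⁻¹) h1
  rw [← h2, conj_conj_inv]

theorem exists_max_above {L : Subgroup G} (hL : IsLoc p L) : ∃ M, IsMaxLoc p M ∧ L ≤ M := by
  obtain ⟨M, hLM, hM⟩ := Set.Finite.exists_le_maximal (s := {M : Subgroup G | IsLoc p M})
    (Set.toFinite _) hL
  exact ⟨M, ⟨hM.1, fun K hK hle => le_antisymm (hM.2 hK hle) hle⟩, hLM⟩

theorem Oc_conj_le (M : Subgroup G) (x : G) :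
    Oc p (M.map (MulAut.conj x).toMonoidHom) ≤ (Oc p M).map (MulAut.conj x).toMonoidHom := by
  set R := Oc p (M.map (MulAut.conj x).toMonoidHom) with hR
  have h1 : R.map (MulAut.conj x⁻¹).toMonoidHom ≤ Oc p M := by
    apply le_Oc
    · calc R.map (MulAut.conj x⁻¹).toMonoidHom
          ≤ (M.map (MulAut.conj x).toMonoidHom).map (MulAut.conj x⁻¹).toMonoidHom :=
            map_mono (Oc_le _ _)
        _ = M := conj_inv_conj M x
    · exact (isPGroup_Oc p _).map _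
    · rintro h hh _ ⟨r, hr, rfl⟩
      have h2 : x * h * x⁻¹ ∈ M.map (MulAut.conj x).toMonoidHom := ⟨h, hh, rfl⟩
      have h3 := conj_mem_Oc h2 hr
      refine ⟨_, h3, ?_⟩
      simp only [MulEquiv.coe_toMonoidHom, MulAut.conj_apply]
      group
  calc R = (R.map (MulAut.conj x⁻¹).toMonoidHom).map (MulAut.conj x).toMonoidHom :=
        (conj_conj_inv R x).symm
    _ ≤ _ := map_mono h1

theorem mem_of_conj_eq {M : Subgroup G} (hM : IsMaxLoc p M) {g : G}
    (h : M = M.map (MulAut.conj g).toMonoidHom) : g ∈ M := by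
  rw [← normalizer_eq hM, mem_normalizer_iff]
  intro z
  constructor
  · intro hz
    have h1 : g * z * g⁻¹ ∈ M.map (MulAut.conj g).toMonoidHom := ⟨z, hz, rfl⟩
    rwa [← h] at h1
  · intro hz
    have h1 : g * z * g⁻¹ ∈ M.map (MulAut.conj g).toMonoidHom := by
      rw [← h]
      exact hz
    obtain ⟨w, hw, hwe⟩ := h1
    have : w = z := by
      simpa using (mul_left_cancel (mul_right_cancel hwe))
    rwa [← this]

/-- The key lemma on pairs. -/
theorem exists_pair {M : Subgroup G} (hM : IsMaxLoc p M) {g : G} (hg : g ∉ M)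
    (hdvd : p ∣ Nat.card ↥(M ⊓ M.map (MulAut.conj g).toMonoidHom)) :
    ∃ M₁ M₂ : Subgroup G, IsMaxLoc p M₁ ∧ IsMaxLoc p M₂ ∧ M₁ ≠ M₂ ∧ Oc p M₁ ≤ M₂ ∧ Oc p M₂ ≤ M₁ := by
  classical
  let PiSet : Set (Subgroup G) := {P | IsPGroup p P ∧ P ≠ ⊥ ∧
    ∃ M₁ M₂ : Subgroup G, IsMaxLoc p M₁ ∧ IsMaxLoc p M₂ ∧ M₁ ≠ M₂ ∧ P ≤ M₁ ∧ P ≤ M₂}
  have hne : PiSet.Nonempty := by
    obtain ⟨y, hy⟩ := exists_prime_orderOf_dvd_card' p hdvd
    refine ⟨zpowers (y : G), ?_, ?_, M, M.map (MulAut.conj g).toMonoidHom, hM, isMaxLoc_conj hM g,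
      ?_, ?_, ?_⟩
    · have h1 : orderOf (y : G) = p := by
        rw [Subgroup.orderOf_coe]
        exact hy
      apply IsPGroup.of_card (n := 1)
      rw [Nat.card_zpowers, h1, pow_one]
    · intro h
      have h1 : orderOf (y : G) = p := by
        rw [Subgroup.orderOf_coe]
        exact hy
      rw [zpowers_eq_bot] at h
      rw [h, orderOf_one] at h1
      exact hp.out.one_lt.ne h1
    · exact fun h => hg (mem_of_conj_eq hM h)
    · rw [zpowers_le]
      exact y.2.1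
    · rw [zpowers_le]
      exact y.2.2
  obtain ⟨P, ⟨hPp, hPne, M₁, M₂, hM₁, hM₂, hne12, hPM₁, hPM₂⟩, hmax⟩ :=
    Set.exists_max_image PiSet (fun P => Nat.card P) (Set.toFinite _) hne
  -- bigger `p`-subgroups lie in at most one maximal local
  have hbig : ∀ R : Subgroup G, IsPGroup p R → P < R → ∀ M M' : Subgroup G, IsMaxLoc p M →
      IsMaxLoc p M' → R ≤ M → R ≤ M' → M = M' := by
    intro R hR hlt M M' hMm hMm' hRM hRM'
    by_contra hne'
    have hRne : R ≠ ⊥ := by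
      intro h
      rw [h] at hlt
      exact not_lt_bot hlt
    have h1 := hmax R ⟨hR, hRne, M, M', hMm, hMm', hne', hRM, hRM'⟩
    exact hlt.ne (Subgroup.eq_of_le_of_card_ge hlt.le h1)
  -- the normalizer of `P` in a bigger `p`-group
  have hgrow : ∀ M : Subgroup G, IsMaxLoc p M → P ≤ M → ¬ Oc p M ≤ P →
      ∃ R : Subgroup G, IsPGroup p R ∧ P < R ∧ R ≤ M ∧ R ≤ normalizer (P : Set G) := by
    intro M hMm hPM hQ
    have h1 : IsPGroup p ↥(P ⊔ Oc p M) := by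
      apply hPp.to_sup_of_normal_right' (isPGroup_Oc p M)
      exact hPM.trans (le_normalizer_Oc M)
    have h2 : P < P ⊔ Oc p M := by
      apply lt_of_le_of_ne le_sup_left
      intro h
      apply hQ
      rw [h]
      exact le_sup_right
    obtain ⟨x, hx, hxP, hxN⟩ := exists_mem_normalizer_of_lt h1 h2
    have hxM : x ∈ M := sup_le hPM (Oc_le p M) hx
    refine ⟨P ⊔ zpowers x, ?_, ?_, ?_, ?_⟩
    · apply h1.to_le
      exact sup_le le_sup_left ((zpowers_le).mpr hx)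
    · apply lt_of_le_of_ne le_sup_left
      intro h
      apply hxP
      rw [h]
      exact mem_sup_right (mem_zpowers x)
    · exact sup_le hPM ((zpowers_le).mpr hxM)
    · exact sup_le le_normalizer ((zpowers_le).mpr hxN)
  have hPloc : IsLoc p (normalizer (P : Set G)) := isLoc_normalizer hPp hPne
  obtain ⟨M₃, hM₃, hNM₃⟩ := exists_max_above hPloc
  -- if `Oc M ≰ P`, then `N(P) ≤ M`
  have hN : ∀ M : Subgroup G, IsMaxLoc p M → P ≤ M → ¬ Oc p M ≤ P →
      normalizer (P : Set G) ≤ M := by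
    intro M hMm hPM hQ
    obtain ⟨R, hR, hlt, hRM, hRN⟩ := hgrow M hMm hPM hQ
    have := hbig R hR hlt M M₃ hMm hM₃ hRM (hRN.trans hNM₃)
    rw [this]
    exact hNM₃
  -- Case 3
  have hcase3 : ∀ M₁ M₂ : Subgroup G, IsMaxLoc p M₁ → IsMaxLoc p M₂ → M₁ ≠ M₂ → P ≤ M₁ → P ≤ M₂ →
      Oc p M₁ ≤ P → ¬ Oc p M₂ ≤ P →
      ∃ M₁ M₂ : Subgroup G, IsMaxLoc p M₁ ∧ IsMaxLoc p M₂ ∧ M₁ ≠ M₂ ∧ Oc p M₁ ≤ M₂ ∧ Oc p M₂ ≤ M₁ := by
    intro M₁ M₂ hM₁ hM₂ hne12 hPM₁ hPM₂ hQ₁ hQ₂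
    obtain ⟨R, hR, hlt, hRM, hRN⟩ := hgrow M₂ hM₂ hPM₂ hQ₂
    have hRM₁ : ¬ R ≤ M₁ := fun h => hne12 (hbig R hR hlt M₁ M₂ hM₁ hM₂ h hRM)
    obtain ⟨x, hxR, hxM₁⟩ := SetLike.not_le_iff_exists.mp hRM₁
    have hxN := hRN hxR
    have hPx : P.map (MulAut.conj x).toMonoidHom = P := by
      ext y
      rw [mem_normalizer_iff] at hxN
      constructor
      · rintro ⟨z, hz, rfl⟩
        exact (hxN z).mp hz
      · intro hy
        refine ⟨x⁻¹ * y * x, ?_, by simp [mul_assoc]⟩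
        show x⁻¹ * y * x ∈ P
        rw [hxN (x⁻¹ * y * x)]
        simpa [mul_assoc] using hy
    have hM₃ := isMaxLoc_conj hM₁ x
    have hPM₃ : P ≤ M₁.map (MulAut.conj x).toMonoidHom := by
      rw [← hPx]
      exact map_mono hPM₁
    refine ⟨M₁, M₁.map (MulAut.conj x).toMonoidHom, hM₁, hM₃, ?_, hQ₁.trans hPM₃, ?_⟩
    · exact fun h => hxM₁ (mem_of_conj_eq hM₁ h)
    · calc Oc p (M₁.map (MulAut.conj x).toMonoidHom) ≤ (Oc p M₁).map (MulAut.conj x).toMonoidHom :=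
            Oc_conj_le M₁ x
        _ ≤ P.map (MulAut.conj x).toMonoidHom := map_mono hQ₁
        _ = P := hPx
        _ ≤ M₁ := hPM₁
  by_cases hQ₁ : Oc p M₁ ≤ P
  · by_cases hQ₂ : Oc p M₂ ≤ P
    · exact ⟨M₁, M₂, hM₁, hM₂, hne12, hQ₁.trans hPM₂, hQ₂.trans hPM₁⟩
    · exact hcase3 M₁ M₂ hM₁ hM₂ hne12 hPM₁ hPM₂ hQ₁ hQ₂
  · by_cases hQ₂ : Oc p M₂ ≤ P
    · exact hcase3 M₂ M₁ hM₂ hM₁ hne12.symm hPM₂ hPM₁ hQ₂ hQ₁
    · exfalso
      obtain ⟨R, hR, hlt, hRM, hRN⟩ := hgrow M₁ hM₁ hPM₁ hQ₁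
      exact hne12 (hbig R hR hlt M₁ M₂ hM₁ hM₂ hRM (hRN.trans (hN M₂ hM₂ hPM₂ hQ₂)))

/-- The normal subgroup lemma. -/
theorem normalizer_of_normal {M : Subgroup G} (hM : IsMaxLoc p M)
    (hc : centralizer (pCore p ↥M : Set ↥M) ≤ pCore p ↥M) {A : Subgroup G} (hA : A ≠ ⊥) (hAM : A ≤ M)
    (hMA : M ≤ normalizer (A : Set G)) : normalizer (A : Set G) = M := by
  have h0 : A ⊓ Oc p M ≠ ⊥ := by
    intro h
    apply hA
    rw [eq_bot_iff]
    intro a ha
    have hcomm : ∀ y ∈ Oc p M, a * y = y * a := by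
      intro y hy
      have h1 : ⁅a, y⁆ ∈ A ⊓ Oc p M := by
        have hyM := Oc_le p M hy
        constructor
        · have h2 := (mem_normalizer_iff.mp (hMA hyM) a⁻¹).mp (A.inv_mem ha)
          have h3 : ⁅a, y⁆ = a * (y * a⁻¹ * y⁻¹) := by
            rw [commutatorElement_def]
            group
          rw [h3]
          exact A.mul_mem ha h2
        · have h2 := conj_mem_Oc (hAM ha) hy
          rw [commutatorElement_def]
          exact Subgroup.mul_mem _ h2 (Subgroup.inv_mem _ hy)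
      rw [h] at h1
      have h2 : ⁅a, y⁆ = 1 := h1
      exact commutatorElement_eq_one_iff_mul_comm.mp h2
    have h1 : (⟨a, hAM ha⟩ : M) ∈ centralizer (pCore p ↥M : Set ↥M) := by
      rw [mem_centralizer_iff]
      intro y hy
      apply Subtype.ext
      exact (hcomm y ⟨y, hy, rfl⟩).symm
    have h2 : a ∈ Oc p M := ⟨_, hc h1, rfl⟩
    have h3 : a ∈ A ⊓ Oc p M := ⟨ha, h2⟩
    rw [h] at h3
    exact h3
  set T := Oc p A with hT
  have hBT : A ⊓ Oc p M ≤ T := by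
    apply le_Oc inf_le_left
    · exact (isPGroup_Oc p M).to_le inf_le_right
    · intro h hh x hx
      exact ⟨A.mul_mem (A.mul_mem hh hx.1) (A.inv_mem hh), conj_mem_Oc (hAM hh) hx.2⟩
  have hTne : T ≠ ⊥ := by
    intro h
    rw [h] at hBT
    exact h0 (le_bot_iff.mp hBT)
  have hNN : normalizer (A : Set G) ≤ normalizer (T : Set G) := by
    intro x hx
    refine mem_normalizer_of_forall (fun a ha => conj_mem_Oc_of_normalizer hx ha) (fun a ha => ?_)
    exact conj_mem_Oc_of_normalizer (Subgroup.inv_mem _ hx) ha |> fun h => by simpa using h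
  have h1 := hM.2 _ (isLoc_normalizer (isPGroup_Oc p A) hTne) (hMA.trans hNN)
  exact le_antisymm (hNN.trans h1.le) hMA

/-- Two distinct subgroups M₁, M₂ of G form a primitive pair when, for {i, j} = {1, 2}, every non-trivial normal subgroup A of M_i contained in M₁ ∩ M₂ satisfies N_{M_j}(A) = M₁ ∩ M₂; the pair has characteristic p when moreover C_{M_i}(O_p(M_i)) ≤ O_p(M_i) for both i and O_p(M₁)O_p(M₂) ≤ M₁ ∩ M₂. Let G be a finite group, p a prime dividing its order, with O_p(G) = 1 and every p-local subgroup of characteristic p. Then either G has a primitive pair of characteristic p, or every maximal p-local subgroup M of G is strongly p-embedded in G: M is a proper subgroup, p divides its order, and for every g ∉ M the order of M ∩ gMg⁻¹ is prime to p. -/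
theorem result {G : Type*} [Group G] [Finite G] {p : ℕ} [Fact p.Prime] (hloc : Cfsg.IsOfLocalCharacteristic p G) (hOp : Cfsg.pCore p G = ⊥) : (∃ M₁ M₂ : Subgroup G, M₁ ≠ M₂ ∧ (∀ A : Subgroup G, A ≠ ⊥ → A ≤ M₁ ⊓ M₂ → (M₁ ≤ Subgroup.normalizer (A : Set G) → M₂ ⊓ Subgroup.normalizer (A : Set G) = M₁ ⊓ M₂) ∧ (M₂ ≤ Subgroup.normalizer (A : Set G) → M₁ ⊓ Subgroup.normalizer (A : Set G) = M₁ ⊓ M₂)) ∧ Subgroup.centralizer (Cfsg.pCore p ↥M₁ : Set ↥M₁) ≤ Cfsg.pCore p ↥M₁ ∧ Subgroup.centralizer (Cfsg.pCore p ↥M₂ : Set ↥M₂) ≤ Cfsg.pCore p ↥M₂ ∧ (Cfsg.pCore p ↥M₁).map M₁.subtype ⊔ (Cfsg.pCore p ↥M₂).map M₂.subtype ≤ M₁ ⊓ M₂) ∨ (∀ M : Subgroup G, (∃ T : Subgroup G, IsPGroup p T ∧ T ≠ ⊥ ∧ M = Subgroup.normalizer (T : Set G)) → (∀ L : Subgroup G, (∃ T : Subgroup G, IsPGroup p T ∧ T ≠ ⊥ ∧ L = Subgroup.normalizer (T : Set G)) → M ≤ L → L = M) → M ≠ ⊤ ∧ p ∣ Nat.card M ∧ ∀ g : G, g ∉ M → ¬ p ∣ Nat.card ↥(M ⊓ M.map (MulAut.conj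 g).toMonoidHom)) := by
  have hcent : ∀ M : Subgroup G, IsLoc p M → centralizer (pCore p ↥M : Set ↥M) ≤ pCore p ↥M := by
    rintro M ⟨T, hT, hne, rfl⟩
    exact hloc.2 T hT hne
  by_cases hall : ∀ M : Subgroup G, (∃ T : Subgroup G, IsPGroup p T ∧ T ≠ ⊥ ∧ M = Subgroup.normalizer (T : Set G)) → (∀ L : Subgroup G, (∃ T : Subgroup G, IsPGroup p T ∧ T ≠ ⊥ ∧ L = Subgroup.normalizer (T : Set G)) → M ≤ L → L = M) → M ≠ ⊤ ∧ p ∣ Nat.card M ∧ ∀ g : G, g ∉ M → ¬ p ∣ Nat.card ↥(M ⊓ M.map (MulAut.conj g).toMonoidHom)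
  · exact Or.inr hall
  left
  push Not at hall
  obtain ⟨M, hM1, hM2, hM3⟩ := hall
  have hM : IsMaxLoc p M := ⟨hM1, hM2⟩
  have hMtop : M ≠ ⊤ := by
    obtain ⟨T, hT, hne, rfl⟩ := hM1
    intro h
    apply hne
    have h1 : T.Normal := normalizer_eq_top_iff.mp h
    have h2 : T ≤ pCore p G := PCore.le_pCore h1 hT
    rw [hOp] at h2
    exact le_bot_iff.mp h2
  have hMdvd : p ∣ Nat.card M := by
    obtain ⟨T, hT, hne, rfl⟩ := hM1
    have h1 : Nat.card T ∣ Nat.card ↥(normalizer (T : Set G)) := Subgroup.card_dvd_of_le le_normalizer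
    obtain ⟨k, hk⟩ := IsPGroup.iff_card.mp hT
    have hk0 : k ≠ 0 := by
      rintro rfl
      apply hne
      rw [pow_zero] at hk
      exact Subgroup.eq_bot_of_card_eq _ hk
    rw [hk] at h1
    exact (dvd_pow_self p hk0).trans h1
  obtain ⟨g, hg, hdvd⟩ := hM3 hMtop hMdvd
  obtain ⟨M₁, M₂, hM₁, hM₂, hne, h12, h21⟩ := exists_pair hM hg hdvd
  refine ⟨M₁, M₂, hne, ?_, hcent _ hM₁.1, hcent _ hM₂.1, ?_⟩
  · intro A hA hAle
    constructor
    · intro hn
      rw [normalizer_of_normal hM₁ (hcent _ hM₁.1) hA (hAle.trans inf_le_left) hn, inf_comm]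
    · intro hn
      rw [normalizer_of_normal hM₂ (hcent _ hM₂.1) hA (hAle.trans inf_le_right) hn]
  · refine sup_le (le_inf (Oc_le p M₁) h12) (le_inf h21 (Oc_le p M₂))

end Cfsg.Agent.S3751
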