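import Mathlib
import Cfsg.Statements.S3752
import Cfsg.Agent.Lib.CharTwoLocal
import Cfsg.Agent.Lib.PCore
import Cfsg.Agent.Lib.LocalCore
import Cfsg.Agent.S3736

set_option autoImplicit false
set_option linter.unusedSectionVars false
open Cfsg

namespace Cfsg.Agent.S3752

open Subgroup Cfsg.Agent.Lib Cfsg.Agent.Lib.CharTwoLocal Cfsg.Agent.Lib.LocalCore
open scoped commutatorElement

variable {G : Type*} [Group G] [Finite G]

/-- Commutation of coprime mutually normalizing subgroups. -/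
theorem commute_of_coprime {A B : Subgroup G} (hAB : A ≤ normalizer (B : Set G))
    (hBA : B ≤ normalizer (A : Set G)) (hc : (Nat.card A).Coprime (Nat.card B)) {a b : G}
    (ha : a ∈ A) (hb : b ∈ B) : a * b = b * a := by
  have h0 : A ⊓ B = ⊥ := disjoint_iff.mp (Subgroup.disjoint_of_coprime_natCard hc)
  have h1 : a * b * a⁻¹ * b⁻¹ ∈ A ⊓ B := by
    constructor
    · have h2 := (mem_normalizer_iff.mp (hBA hb) a⁻¹).mp (A.inv_mem ha)
      have h3 : a * b * a⁻¹ * b⁻¹ = a * (b * a⁻¹ * b⁻¹) := by group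
      rw [h3]
      exact A.mul_mem ha h2
    · have h2 := (mem_normalizer_iff.mp (hAB ha) b).mp hb
      exact B.mul_mem h2 (B.inv_mem hb)
  rw [h0] at h1
  have h2 : a * b * a⁻¹ * b⁻¹ = 1 := h1
  calc a * b = a * b * a⁻¹ * b⁻¹ * (b * a) := by group
    _ = b * a := by rw [h2, one_mul]

/-- The normalizer of a characteristic subgroup of `M` (viewed in `G`) contains `M`. -/
theorem le_normalizer_map (M : Subgroup G) (K : Subgroup M) [K.Characteristic] :
    M ≤ normalizer ((K.map M.subtype : Subgroup G) : Set G) := by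
  intro x hx
  exact S3736.mem_normalizer_map_of_characteristic M K (le_normalizer hx)

/-! ### Components -/

theorem qs_subgroupOf_congr {X D K : Subgroup G} (hKX : K ≤ X) (hKD : K ≤ D)
    (h : IsQuasisimple (K.subgroupOf X)) : IsQuasisimple (K.subgroupOf D) :=
  qs_of_mulEquiv ((Subgroup.subgroupOfEquivOfLe hKX).trans (Subgroup.subgroupOfEquivOfLe hKD).symm) h

theorem comp_sub_of_le {X D K : Subgroup G} (hDX : D ≤ X) (hKD : K ≤ D)
    (hK : IsComponent (K.subgroupOf X)) : IsComponent (K.subgroupOf D) := by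
  refine ⟨?_, qs_subgroupOf_congr (hKD.trans hDX) hKD hK.2⟩
  have h1 := hK.1.comap (Subgroup.inclusion hDX)
  have h2 : (K.subgroupOf X).comap (Subgroup.inclusion hDX) = K.subgroupOf D := by
    ext x
    simp [Subgroup.mem_subgroupOf]
  rwa [h2] at h1

theorem map_subgroupOf_of_le {X K : Subgroup G} (h : K ≤ X) : (K.subgroupOf X).map X.subtype = K := by
  rw [Subgroup.subgroupOf_map_subtype, inf_eq_left]
  exact h

theorem subgroupOf_map_subtype' {X : Subgroup G} (L : Subgroup X) :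
    (L.map X.subtype).subgroupOf X = L :=
  Subgroup.comap_map_eq_self_of_injective X.subtype_injective L

/-- A component of `D ⊇ F*(X)` is a component of `X`. -/
theorem comp_up {X D K : Subgroup G} (hDX : D ≤ X) (hKD : K ≤ D)
    (hFD : (generalizedFittingSubgroup X).map X.subtype ≤ D)
    (hK : IsComponent (K.subgroupOf D)) : IsComponent (K.subgroupOf X) := by
  by_contra hnot
  have hLc : (layer X).map X.subtype ≤ centralizer (K : Set G) := by
    rw [Subgroup.map_le_iff_le_comap]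
    refine sSup_le fun L hL => ?_
    rw [← Subgroup.map_le_iff_le_comap]
    set L' := L.map X.subtype with hL'
    have hL'X : L'.subgroupOf X = L := subgroupOf_map_subtype' L
    have hL'D : L' ≤ D := by
      refine le_trans (Subgroup.map_mono ?_) hFD
      exact (comp_le_layer hL).trans le_sup_left
    have hcD : IsComponent (L'.subgroupOf D) :=
      comp_sub_of_le hDX hL'D (by rw [hL'X]; exact hL)
    have hne : K.subgroupOf D ≠ L'.subgroupOf D := by
      intro h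
      have h1 : K = L' := by
        rw [← map_subgroupOf_of_le hKD, h, map_subgroupOf_of_le hL'D]
      apply hnot
      rw [h1, hL'X]
      exact hL
    have hcomm := commutator_eq_bot_iff_elementwise.mp (comp_commute_of_ne hK hcD hne)
    intro l hl
    rw [mem_centralizer_iff]
    intro k hk
    have h1 := hcomm ⟨k, hKD hk⟩ (by simpa [Subgroup.mem_subgroupOf] using hk) ⟨l, hL'D hl⟩
      (by simpa [Subgroup.mem_subgroupOf] using hl)
    exact congrArg Subtype.val h1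
  have hFc : (fittingSubgroup X).map X.subtype ≤ centralizer (K : Set G) := by
    set F' := (fittingSubgroup X).map X.subtype with hF'
    have hF'D : F' ≤ D := by
      refine le_trans (Subgroup.map_mono ?_) hFD
      exact le_sup_right
    have hnorm : (F'.subgroupOf D).Normal := by
      apply Subgroup.normal_subgroupOf_of_le_normalizer
      intro x hx
      exact le_normalizer_map X (fittingSubgroup X) (hDX hx)
    have hnil : Group.IsNilpotent (F'.subgroupOf D) := by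
      have h0 : Group.IsNilpotent (fittingSubgroup X) := PCore.isNilpotent_fittingSubgroup
      have h1 : Group.IsNilpotent F' :=
        (Group.isNilpotent_congr (Subgroup.equivMapOfInjective _ _ X.subtype_injective)).mp h0
      exact (Group.isNilpotent_congr (Subgroup.subgroupOfEquivOfLe hF'D)).mpr h1
    have hle : F'.subgroupOf D ≤ fittingSubgroup D := PCore.le_fittingSubgroup hnorm hnil
    have hcomm := commutator_eq_bot_iff_elementwise.mp (comp_commute_fitting hK)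
    intro f hf
    rw [mem_centralizer_iff]
    intro k hk
    have h1 := hcomm ⟨k, hKD hk⟩ (by simpa [Subgroup.mem_subgroupOf] using hk) ⟨f, hF'D hf⟩
      (hle (by simpa [Subgroup.mem_subgroupOf] using hf))
    exact congrArg Subtype.val h1
  have hFs : (generalizedFittingSubgroup X).map X.subtype ≤ centralizer (K : Set G) := by
    unfold generalizedFittingSubgroup
    rw [Subgroup.map_sup]
    exact sup_le hLc hFc
  have hKF : K ≤ (generalizedFittingSubgroup X).map X.subtype := by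
    intro k hk
    have hkX := hDX (hKD hk)
    refine ⟨⟨k, hkX⟩, ?_, rfl⟩
    apply centralizer_generalizedFitting_le
    rw [mem_centralizer_iff]
    intro f hf
    apply Subtype.ext
    have h1 := mem_centralizer_iff.mp (hFs (Subgroup.mem_map_of_mem _ hf)) k hk
    exact h1.symm
  apply comp_not_comm hK
  refine ⟨⟨fun a b => ?_⟩⟩
  apply Subtype.ext
  apply Subtype.ext
  have ha : (a : D).1 ∈ K := a.2
  have hb : (b : D).1 ∈ K := b.2
  exact mem_centralizer_iff.mp (hFs (hKF hb)) _ ha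

theorem layer_le {M₁ M₂ : Subgroup G}
    (h₁ : (generalizedFittingSubgroup M₁).map M₁.subtype ≤ M₂)
    (h₂ : (generalizedFittingSubgroup M₂).map M₂.subtype ≤ M₁) :
    (layer M₁).map M₁.subtype ≤ (layer M₂).map M₂.subtype := by
  rw [Subgroup.map_le_iff_le_comap]
  refine sSup_le fun K hK => ?_
  rw [← Subgroup.map_le_iff_le_comap]
  set K' := K.map M₁.subtype with hK'
  have hK'1 : K'.subgroupOf M₁ = K := subgroupOf_map_subtype' K
  have hK'M₁ : K' ≤ M₁ := Subgroup.map_subtype_le K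
  have hK'M₂ : K' ≤ M₂ :=
    le_trans (Subgroup.map_mono ((comp_le_layer hK).trans le_sup_left)) h₁
  have hcD : IsComponent (K'.subgroupOf (M₁ ⊓ M₂)) :=
    comp_sub_of_le inf_le_left (le_inf hK'M₁ hK'M₂) (by rw [hK'1]; exact hK)
  have hc2 : IsComponent (K'.subgroupOf M₂) :=
    comp_up inf_le_right (le_inf hK'M₁ hK'M₂)
      (le_inf h₂ (Subgroup.map_subtype_le _)) hcD
  rw [← map_subgroupOf_of_le hK'M₂]
  exact Subgroup.map_mono (comp_le_layer hc2)

/-! ### The ambient versions of the Fitting subgroup -/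

/-- The Fitting subgroup as a subgroup of the ambient group. -/
def Fc (M : Subgroup G) : Subgroup G := (fittingSubgroup ↥M).map M.subtype

/-- The `p'`-part of the Fitting subgroup. -/
def Vc (s : ℕ) (M : Subgroup G) : Subgroup G := Fc M ⊓ (pPrimeCore s ↥M).map M.subtype

theorem Fc_le (M : Subgroup G) : Fc M ≤ M := Subgroup.map_subtype_le _

theorem Oc_le_Fc (r : ℕ) [Fact r.Prime] (M : Subgroup G) : Oc r M ≤ Fc M :=
  Subgroup.map_mono (PCore.pCore_le_fittingSubgroup r)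

theorem le_normalizer_Fc (M : Subgroup G) : M ≤ normalizer (Fc M : Set G) :=
  le_normalizer_map M (fittingSubgroup M)

theorem conj_mem_Vc {s : ℕ} {M : Subgroup G} {y b : G} (hy : y ∈ M) (hb : b ∈ Vc s M) :
    y * b * y⁻¹ ∈ Vc s M := by
  refine ⟨(mem_normalizer_iff.mp (le_normalizer_Fc M hy) b).mp hb.1, ?_⟩
  exact (mem_normalizer_iff.mp (le_normalizer_map M (pPrimeCore s M) hy) b).mp hb.2

theorem card_Vc_coprime (s : ℕ) (M : Subgroup G) : (Nat.card (Vc s M)).Coprime s := by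
  have h1 : Nat.card (Vc s M) ∣ Nat.card ((pPrimeCore s M).map M.subtype) :=
    Subgroup.card_dvd_of_le inf_le_right
  have h2 : Nat.card ((pPrimeCore s M).map M.subtype) = Nat.card (pPrimeCore s M) :=
    (Nat.card_congr (Subgroup.equivMapOfInjective _ _ M.subtype_injective).toEquiv).symm
  have h3 := PCore.card_pPrimeCore_coprime (G := M) s
  rw [h2] at h1
  exact Nat.Coprime.coprime_dvd_left h1 h3

theorem le_normalizer_Vc (s : ℕ) (M : Subgroup G) : M ≤ normalizer (Vc s M : Set G) := by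
  intro y hy
  refine mem_normalizer_of_forall (fun b hb => conj_mem_Vc hy hb) (fun b hb => ?_)
  simpa using conj_mem_Vc (M.inv_mem hy) hb

theorem le_normalizer_Oc' (r : ℕ) (M : Subgroup G) : M ≤ normalizer (Oc r M : Set G) :=
  le_normalizer_map M (pCore r M)

theorem Vc_le_Fc (s : ℕ) (M : Subgroup G) : Vc s M ≤ Fc M := inf_le_left

theorem exists_decomp (s : ℕ) [Fact s.Prime] (M : Subgroup G) {f : G} (hf : f ∈ Fc M) :
    ∃ a ∈ Oc s M, ∃ b ∈ Vc s M, f = a * b := by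
  obtain ⟨f', hf', rfl⟩ := hf
  have h1 := PCore.fittingSubgroup_le_sup (G := M) s hf'
  rw [← SetLike.mem_coe, Subgroup.mul_normal] at h1
  obtain ⟨a, ha, b, hb, hab⟩ := h1
  have haF : a ∈ fittingSubgroup M := PCore.pCore_le_fittingSubgroup s ha
  have hbF : b ∈ fittingSubgroup M := by
    have : b = a⁻¹ * f' := by
      rw [← hab]
      group
    rw [this]
    exact Subgroup.mul_mem _ (Subgroup.inv_mem _ haF) hf'
  refine ⟨a, ⟨a, ha, rfl⟩, b, ⟨⟨b, hbF, rfl⟩, ⟨b, hb, rfl⟩⟩, ?_⟩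
  rw [← hab]
  rfl

theorem eq_one_of_pow_of_coprime {V : Subgroup G} {s : ℕ} [Fact s.Prime]
    (hV : (Nat.card V).Coprime s) {b : G} (hb : b ∈ V) {N : ℕ} (h : b ^ (s ^ N) = 1) : b = 1 := by
  have h1 : orderOf (⟨b, hb⟩ : V) ∣ s ^ N :=
    orderOf_dvd_of_pow_eq_one (Subtype.ext (by simpa using h))
  have h2 : orderOf (⟨b, hb⟩ : V) ∣ Nat.card V := orderOf_dvd_natCard _
  have h3 : (Nat.card V).Coprime (s ^ N) := Nat.Coprime.pow_right N hV
  have h4 := Nat.eq_one_of_dvd_coprimes h3 h2 h1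
  have h5 := orderOf_eq_one_iff.mp h4
  exact congrArg Subtype.val h5

/-- The hypotheses at the level of Fitting subgroups. -/
structure Hyp (M₁ M₂ : Subgroup G) : Prop where
  hP : ∀ A : Subgroup G, A ≠ ⊥ → A ≤ M₁ ⊓ M₂ → M₁ ≤ normalizer (A : Set G) →
    M₂ ⊓ normalizer (A : Set G) = M₁ ⊓ M₂
  hF₁ : Fc M₁ ≤ M₂
  hF₂ : Fc M₂ ≤ M₁
  hC₂ : ∀ y ∈ M₂, (∀ f ∈ Fc M₂, y * f = f * y) → y ∈ Fc M₂

variable {M₁ M₂ : Subgroup G}

theorem Hyp.Oc_le (h : Hyp M₁ M₂) (r : ℕ) [Fact r.Prime] : Oc r M₁ ≤ M₁ ⊓ M₂ :=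
  le_inf (CharTwoLocal.Oc_le r M₁) ((Oc_le_Fc r M₁).trans h.hF₁)

theorem Hyp.Oc_le' (h : Hyp M₁ M₂) (r : ℕ) [Fact r.Prime] : Oc r M₂ ≤ M₁ ⊓ M₂ :=
  le_inf ((Oc_le_Fc r M₂).trans h.hF₂) (CharTwoLocal.Oc_le r M₂)

theorem Hyp.commute_Oc (h : Hyp M₁ M₂) {r s : ℕ} [Fact r.Prime] [Fact s.Prime] (hrs : r ≠ s) {a b : G}
    (ha : a ∈ Oc r M₁) (hb : b ∈ Oc s M₂) : a * b = b * a := by
  refine commute_of_coprime ?_ ?_ ?_ ha hb
  · exact ((h.Oc_le r).trans inf_le_right).trans (le_normalizer_Oc' s M₂)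
  · exact ((h.Oc_le' s).trans inf_le_left).trans (le_normalizer_Oc' r M₁)
  · exact IsPGroup.coprime_card_of_ne r s hrs _ _ (isPGroup_Oc r M₁) (isPGroup_Oc s M₂)

theorem Hyp.commute_Vc (h : Hyp M₁ M₂) {s : ℕ} [Fact s.Prime] {a b : G}
    (ha : a ∈ Oc s M₁) (hb : b ∈ Vc s M₂) : a * b = b * a := by
  refine commute_of_coprime ?_ ?_ ?_ ha hb
  · exact ((h.Oc_le s).trans inf_le_right).trans (le_normalizer_Vc s M₂)
  · exact ((Vc_le_Fc s M₂).trans h.hF₂).trans (le_normalizer_Oc' s M₁)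
  · have h1 : (Nat.card (Oc s M₁)).Coprime s ∨ IsPGroup s (Oc s M₁) := Or.inr (isPGroup_Oc s M₁)
    obtain ⟨k, hk⟩ := IsPGroup.iff_card.mp (isPGroup_Oc s M₁)
    rw [hk]
    exact (Nat.Coprime.pow_right k (card_Vc_coprime s M₂)).symm

theorem commute_Oc_Vc {s : ℕ} [Fact s.Prime] (M : Subgroup G) {a b : G}
    (ha : a ∈ Oc s M) (hb : b ∈ Vc s M) : a * b = b * a := by
  refine commute_of_coprime ?_ ?_ ?_ ha hb
  · exact (CharTwoLocal.Oc_le s M).trans (le_normalizer_Vc s M)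
  · exact ((Vc_le_Fc s M).trans (Fc_le M)).trans (le_normalizer_Oc' s M)
  · obtain ⟨k, hk⟩ := IsPGroup.iff_card.mp (isPGroup_Oc s M)
    rw [hk]
    exact (Nat.Coprime.pow_right k (card_Vc_coprime s M)).symm

/-- Key property (*). -/
theorem Hyp.star (h : Hyp M₁ M₂) {s : ℕ} [hs : Fact s.Prime] {x y : G} (hx : x ∈ Oc s M₁)
    (hy : y ∈ M₂) (hcop : (orderOf y).Coprime s) (hyc : ∀ a ∈ Oc s M₂, y * a = a * y) :
    y * x = x * y := by
  have hxD := h.Oc_le s hx
  set z := y * x * y⁻¹ * x⁻¹ with hz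
  have hzM : z ∈ M₂ := M₂.mul_mem (M₂.mul_mem (M₂.mul_mem hy hxD.2) (M₂.inv_mem hy)) (M₂.inv_mem hxD.2)
  -- `z` commutes with the `s'`-part
  have h1 : ∀ b ∈ Vc s M₂, z * b = b * z := by
    intro b hb
    have hb' : y⁻¹ * b * y ∈ Vc s M₂ := by simpa using conj_mem_Vc (M₂.inv_mem hy) hb
    have e1 : x * (y⁻¹ * b * y) = (y⁻¹ * b * y) * x := h.commute_Vc hx hb'
    have e2 := h.commute_Vc hx hb
    have e3 : (y * x * y⁻¹) * b = b * (y * x * y⁻¹) := by
      calc (y * x * y⁻¹) * b = y * (x * (y⁻¹ * b * y)) * y⁻¹ := by group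
        _ = y * ((y⁻¹ * b * y) * x) * y⁻¹ := by rw [e1]
        _ = b * (y * x * y⁻¹) := by group
    have e4 : x⁻¹ * b = b * x⁻¹ := by
      rw [inv_mul_eq_iff_eq_mul, ← mul_assoc, e2, mul_assoc, mul_inv_cancel, mul_one]
    calc z * b = (y * x * y⁻¹) * (x⁻¹ * b) := by rw [hz]; group
      _ = (y * x * y⁻¹) * b * x⁻¹ := by rw [e4]; group
      _ = b * (y * x * y⁻¹) * x⁻¹ := by rw [e3]
      _ = b * z := by rw [hz]; group
  -- `z` commutes with `Y_s`
  have h2 : ∀ a ∈ Oc s M₂, z * a = a * z := by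
    intro a ha
    have ha' : x⁻¹ * a * x ∈ Oc s M₂ := by
      simpa using conj_mem_Oc (M₂.inv_mem hxD.2) ha
    have e1 : y * (x⁻¹ * a * x) = (x⁻¹ * a * x) * y := hyc _ ha'
    have e1' : y⁻¹ * (x⁻¹ * a * x) = (x⁻¹ * a * x) * y⁻¹ :=
      (show Commute y (x⁻¹ * a * x) from e1).inv_left
    have e2 : y * a = a * y := hyc a ha
    calc z * a = y * x * (y⁻¹ * (x⁻¹ * a * x)) * x⁻¹ := by rw [hz]; group
      _ = y * x * ((x⁻¹ * a * x) * y⁻¹) * x⁻¹ := by rw [e1']
      _ = (y * a) * x * y⁻¹ * x⁻¹ := by group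
      _ = (a * y) * x * y⁻¹ * x⁻¹ := by rw [e2]
      _ = a * z := by rw [hz]; group
  have h3 : z ∈ Fc M₂ := by
    apply h.hC₂ z hzM
    intro f hf
    obtain ⟨a, ha, b, hb, rfl⟩ := exists_decomp s M₂ hf
    calc z * (a * b) = (z * a) * b := by group
      _ = (a * z) * b := by rw [h2 a ha]
      _ = a * (z * b) := by group
      _ = a * (b * z) := by rw [h1 b hb]
      _ = a * b * z := by group
  obtain ⟨a, ha, b, hb, hzab⟩ := exists_decomp s M₂ h3
  -- the `s'`-part vanishes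
  have hb1 : b = 1 := by
    have hab : a * b = b * a := commute_Oc_Vc M₂ ha hb
    have hxb : x * b = b * x := h.commute_Vc hx hb
    set u := a * x with hu
    have hub : u * b = b * u := by
      rw [hu]
      calc a * x * b = a * (x * b) := by group
        _ = a * (b * x) := by rw [hxb]
        _ = (a * b) * x := by group
        _ = (b * a) * x := by rw [hab]
        _ = b * (a * x) := by group
    set w := y * x * y⁻¹ with hw
    have hwu : w = u * b := by
      have e1 : w = z * x := by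
        rw [hz]
        group
      rw [e1, hzab, hu]
      calc a * b * x = a * (b * x) := by group
        _ = a * (x * b) := by rw [hxb]
        _ = a * x * b := by group
    have hbe : b = u⁻¹ * w := by
      rw [hwu]
      group
    have hcomm : Commute u⁻¹ w := by
      apply Commute.inv_left
      show u * w = w * u
      rw [hwu]
      calc u * (u * b) = u * (b * u) := by rw [hub]
        _ = u * b * u := by group
    -- orders
    have hUp : IsPGroup s ↥(Oc s M₂ ⊔ Oc s M₁) := by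
      apply (isPGroup_Oc s M₂).to_sup_of_normal_right' (isPGroup_Oc s M₁)
      exact ((h.Oc_le' s).trans inf_le_left).trans (le_normalizer_Oc' s M₁)
    have huU : u ∈ Oc s M₂ ⊔ Oc s M₁ :=
      Subgroup.mul_mem _ (mem_sup_left ha) (mem_sup_right hx)
    obtain ⟨k, hk⟩ := hUp ⟨u, huU⟩
    have hk' : u ^ (s ^ k) = 1 := by
      have := congrArg Subtype.val hk
      simpa using this
    obtain ⟨l, hl⟩ := isPGroup_Oc s M₁ ⟨x, hx⟩
    have hl' : x ^ (s ^ l) = 1 := by
      have := congrArg Subtype.val hl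
      simpa using this
    have hw' : w ^ (s ^ l) = 1 := by
      rw [hw, conj_pow, hl']
      group
    have hbpow : b ^ (s ^ (k + l)) = 1 := by
      rw [hbe, hcomm.mul_pow, inv_pow, pow_add, pow_mul, hk', pow_mul' w, hw']
      simp
    exact eq_one_of_pow_of_coprime (card_Vc_coprime s M₂) hb hbpow
  have hza : z ∈ Oc s M₂ := by
    rw [hzab, hb1, mul_one]
    exact ha
  -- conclude
  set c := x⁻¹ * z * x with hc
  have hcY : c ∈ Oc s M₂ := by
    simpa using conj_mem_Oc (M₂.inv_mem hxD.2) hza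
  refine commute_of_conj_eq_mul (isPGroup_Oc s M₂) hcY hcop ?_ (hyc c hcY)
  rw [hc, hz]
  group

/-- The main step. -/
theorem Hyp.key (h : Hyp M₁ M₂) {r s : ℕ} [hr : Fact r.Prime] [hs : Fact s.Prime] (hrs : r ≠ s)
    (hX : Oc s M₁ ≠ ⊥) : Oc r M₁ ≤ Oc r M₂ := by
  classical
  let gens : Set G := {t | t ∈ M₂ ∧ (∀ a ∈ Oc s M₂, t * a = a * t) ∧ ∃ k : ℕ, t ^ (r ^ k) = 1}
  let T : Subgroup G := closure gens
  have hTD : T ≤ M₁ ⊓ M₂ := by
    rw [closure_le]
    rintro t ⟨htM, htc, k, hk⟩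
    have hcop : (orderOf t).Coprime s := by
      have h1 : orderOf t ∣ r ^ k := orderOf_dvd_of_pow_eq_one hk
      have h2 : (r ^ k).Coprime s := Nat.Coprime.pow_left k ((Nat.coprime_primes hr.out hs.out).mpr hrs)
      exact Nat.Coprime.coprime_dvd_left h1 h2
    have h1 : t ∈ normalizer (Oc s M₁ : Set G) := by
      apply mem_normalizer_of_commute
      intro a ha
      exact (h.star ha htM hcop htc).symm
    have h2 := h.hP _ hX (h.Oc_le s) (le_normalizer_Oc' s M₁)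
    have h3 : t ∈ M₂ ⊓ normalizer (Oc s M₁ : Set G) := ⟨htM, h1⟩
    rw [h2] at h3
    exact h3
  have hXT : Oc r M₁ ≤ T := by
    intro x hx
    apply Subgroup.subset_closure
    refine ⟨(h.Oc_le r hx).2, fun a ha => h.commute_Oc hrs hx ha, ?_⟩
    obtain ⟨k, hk⟩ := isPGroup_Oc r M₁ ⟨x, hx⟩
    refine ⟨k, ?_⟩
    have := congrArg Subtype.val hk
    simpa using this
  have hXO : Oc r M₁ ≤ Oc r T :=
    le_Oc hXT (isPGroup_Oc r M₁) (fun t ht x hx => conj_mem_Oc (hTD ht).1 hx)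
  have hTM : T ≤ M₂ := hTD.trans inf_le_right
  have hconj : ∀ y ∈ M₂, ∀ t ∈ T, y * t * y⁻¹ ∈ T := by
    intro y hy t ht
    have hle : T ≤ T.comap (MulAut.conj y).toMonoidHom := by
      rw [closure_le]
      rintro t ⟨htM, htc, k, hk⟩
      apply Subgroup.subset_closure
      refine ⟨M₂.mul_mem (M₂.mul_mem hy htM) (M₂.inv_mem hy), fun a ha => ?_, k, ?_⟩
      · have ha' : y⁻¹ * a * y ∈ Oc s M₂ := by
          simpa using conj_mem_Oc (M₂.inv_mem hy) ha
        have e := htc _ ha'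
        show y * t * y⁻¹ * a = a * (y * t * y⁻¹)
        calc y * t * y⁻¹ * a = y * (t * (y⁻¹ * a * y)) * y⁻¹ := by group
          _ = y * ((y⁻¹ * a * y) * t) * y⁻¹ := by rw [e]
          _ = a * (y * t * y⁻¹) := by group
      · show (y * t * y⁻¹) ^ (r ^ k) = 1
        rw [conj_pow, hk]
        group
    exact hle ht
  have hTn : M₂ ≤ normalizer (T : Set G) := by
    intro y hy
    refine mem_normalizer_of_forall (fun t ht => hconj y hy t ht) (fun t ht => ?_)
    simpa using hconj y⁻¹ (M₂.inv_mem hy) t ht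
  exact hXO.trans (Oc_le_Oc_of_normal hTM hTn)

theorem Hyp.symm (h : Hyp M₁ M₂) (hC₁ : ∀ y ∈ M₁, (∀ f ∈ Fc M₁, y * f = f * y) → y ∈ Fc M₁)
    (hP' : ∀ A : Subgroup G, A ≠ ⊥ → A ≤ M₁ ⊓ M₂ → M₂ ≤ normalizer (A : Set G) →
      M₁ ⊓ normalizer (A : Set G) = M₁ ⊓ M₂) : Hyp M₂ M₁ where
  hP := by
    intro A hA hle hn
    rw [inf_comm M₂ M₁] at hle ⊢
    exact hP' A hA hle hn
  hF₁ := h.hF₂
  hF₂ := h.hF₁
  hC₂ := hC₁

/-- `F` is the only nontrivial `O_p`. -/
theorem Fc_eq (M : Subgroup G) (p : ℕ) [Fact p.Prime]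
    (hall : ∀ r : ℕ, r.Prime → r ≠ p → Oc r M = ⊥) : Fc M = Oc p M := by
  apply le_antisymm _ (Oc_le_Fc p M)
  unfold Fc
  rw [PCore.fittingSubgroup_eq_iSup_pCore, Subgroup.map_le_iff_le_comap]
  refine iSup_le fun r => ?_
  rw [← Subgroup.map_le_iff_le_comap]
  by_cases hr : (r : ℕ) = p
  · rw [hr]
    rfl
  · have : Oc (r : ℕ) M = ⊥ := hall r r.2 hr
    show Oc (r : ℕ) M ≤ _
    rw [this]
    exact bot_le

theorem Fc_eq_bot (M : Subgroup G) (hall : ∀ r : ℕ, r.Prime → Oc r M = ⊥) : Fc M = ⊥ := by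
  unfold Fc
  rw [PCore.fittingSubgroup_eq_iSup_pCore, Subgroup.map_iSup]
  rw [iSup_eq_bot]
  intro r
  exact hall r r.2

/-- Two different primes cannot occur. -/
theorem two_primes (h : Hyp M₁ M₂) (h' : Hyp M₂ M₁) (hne : M₁ ≠ M₂) {r s : ℕ} [Fact r.Prime]
    [Fact s.Prime] (hrs : r ≠ s) (hr : Oc r M₁ ≠ ⊥) (hs : Oc s M₁ ≠ ⊥) : False := by
  have h1 : Oc r M₁ ≤ Oc r M₂ := h.key hrs hs
  have h2 : Oc s M₁ ≤ Oc s M₂ := h.key hrs.symm hr
  have h3 : Oc s M₂ ≠ ⊥ := by
    intro h0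
    rw [h0] at h2
    exact hs (le_bot_iff.mp h2)
  have h4 : Oc r M₂ ≤ Oc r M₁ := h'.key hrs h3
  have h5 : Oc r M₁ = Oc r M₂ := le_antisymm h1 h4
  have h6 := h.hP _ hr (h.Oc_le r) (le_normalizer_Oc' r M₁)
  have h7 := h'.hP _ (by rw [← h5]; exact hr) (h'.Oc_le r) (le_normalizer_Oc' r M₂)
  have h8 : M₂ ≤ normalizer (Oc r M₁ : Set G) := by
    rw [h5]
    exact le_normalizer_Oc' r M₂
  have h9 : M₁ ≤ normalizer (Oc r M₂ : Set G) := by
    rw [← h5]
    exact le_normalizer_Oc' r M₁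
  rw [inf_eq_left.mpr h8] at h6
  rw [inf_eq_left.mpr h9] at h7
  exact hne (h7.trans ((inf_comm _ _).trans h6.symm))

theorem main (h : Hyp M₁ M₂) (h' : Hyp M₂ M₁) (hne : M₁ ≠ M₂) :
    ∃ p : ℕ, p.Prime ∧ Fc M₁ = Oc p M₁ ∧ Fc M₂ = Oc p M₂ := by
  -- some prime occurs for `M₁`
  have hex : ∀ {M₁ M₂ : Subgroup G}, Hyp M₁ M₂ → Hyp M₂ M₁ → M₁ ≠ M₂ →
      ∃ p : ℕ, p.Prime ∧ Oc p M₁ ≠ ⊥ := by
    intro M₁ M₂ h h' hne
    by_contra hall
    push Not at hall
    have h0 : Fc M₁ = ⊥ := Fc_eq_bot M₁ hall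
    have h1 : M₁ ≤ Fc M₁ := fun y hy => h'.hC₂ y hy (fun f hf => by
      rw [h0] at hf
      have : f = 1 := hf
      rw [this]
      group)
    rw [h0, le_bot_iff] at h1
    have h2 : Fc M₂ = ⊥ := by
      have := h.hF₂
      rw [h1, le_bot_iff] at this
      exact this
    have h3 : M₂ ≤ Fc M₂ := fun y hy => h.hC₂ y hy (fun f hf => by
      rw [h2] at hf
      have : f = 1 := hf
      rw [this]
      group)
    rw [h2, le_bot_iff] at h3
    exact hne (h1.trans h3.symm)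
  obtain ⟨p₁, hp₁, hX⟩ := hex h h' hne
  obtain ⟨p₂, hp₂, hY⟩ := hex h' h hne.symm
  have : Fact p₁.Prime := ⟨hp₁⟩
  have : Fact p₂.Prime := ⟨hp₂⟩
  have hall₁ : ∀ r : ℕ, r.Prime → r ≠ p₁ → Oc r M₁ = ⊥ := by
    intro r hr hne'
    by_contra h0
    have : Fact r.Prime := ⟨hr⟩
    exact two_primes h h' hne hne' h0 hX
  have hall₂ : ∀ r : ℕ, r.Prime → r ≠ p₂ → Oc r M₂ = ⊥ := by
    intro r hr hne'
    by_contra h0
    have : Fact r.Prime := ⟨hr⟩
    exact two_primes h' h hne.symm hne' h0 hY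
  have hF₁ := Fc_eq M₁ p₁ hall₁
  have hF₂ := Fc_eq M₂ p₂ hall₂
  have hpp : p₁ = p₂ := by
    by_contra hne12
    have h1 : Oc p₁ M₁ ≤ Fc M₂ := by
      intro x hx
      apply h.hC₂ x (h.Oc_le p₁ hx).2
      intro f hf
      rw [hF₂] at hf
      exact h.commute_Oc hne12 hx hf
    rw [hF₂] at h1
    apply hX
    have h2 : Oc p₁ M₁ ≤ Oc p₁ M₁ ⊓ Oc p₂ M₂ := le_inf le_rfl h1
    have h3 : Disjoint (Oc p₁ M₁) (Oc p₂ M₂) :=
      IsPGroup.disjoint_of_ne p₁ p₂ hne12 _ _ (isPGroup_Oc p₁ M₁) (isPGroup_Oc p₂ M₂)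
    rw [disjoint_iff.mp h3] at h2
    exact le_bot_iff.mp h2
  subst hpp
  exact ⟨p₁, hp₁, hF₁, hF₂⟩

/-- Bender's Theorem on primitive pairs. Two distinct subgroups M₁, M₂ of G form a primitive pair when, for {i, j} = {1, 2}, every non-trivial normal subgroup A of M_i contained in M₁ ∩ M₂ satisfies N_{M_j}(A) = M₁ ∩ M₂; the pair has characteristic p when moreover C_{M_i}(O_p(M_i)) ≤ O_p(M_i) for both i and O_p(M₁)O_p(M₂) ≤ M₁ ∩ M₂. If (M₁, M₂) is a primitive pair of the finite group G with F*(M₁) ≤ M₂ and F*(M₂) ≤ M₁, then for some prime p the pair has characteristic p. -/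
theorem result {G : Type*} [Group G] [Finite G] (M₁ M₂ : Subgroup G) (hne : M₁ ≠ M₂) (hP : ∀ A : Subgroup G, A ≠ ⊥ → A ≤ M₁ ⊓ M₂ → (M₁ ≤ Subgroup.normalizer (A : Set G) → M₂ ⊓ Subgroup.normalizer (A : Set G) = M₁ ⊓ M₂) ∧ (M₂ ≤ Subgroup.normalizer (A : Set G) → M₁ ⊓ Subgroup.normalizer (A : Set G) = M₁ ⊓ M₂)) (h₁ : (Cfsg.generalizedFittingSubgroup ↥M₁).map M₁.subtype ≤ M₂) (h₂ : (Cfsg.generalizedFittingSubgroup ↥M₂).map M₂.subtype ≤ M₁) : ∃ p : ℕ, p.Prime ∧ Subgroup.centralizer (Cfsg.pCore p ↥M₁ : Set ↥M₁) ≤ Cfsg.pCore p ↥M₁ ∧ Subgroup.centralizer (Cfsg.pCore p ↥M₂ : Set ↥M₂) ≤ Cfsg.pCore p ↥M₂ ∧ (Cfsg.pCore p ↥M₁).map M₁.subtype ⊔ (Cfsg.pCore p ↥M₂).map M₂.subtype ≤ M₁ ⊓ M₂ := by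
  have hE : (layer M₁).map M₁.subtype = (layer M₂).map M₂.subtype :=
    le_antisymm (layer_le h₁ h₂) (layer_le h₂ h₁)
  have hE1 : (layer M₁).map M₁.subtype = ⊥ := by
    by_contra hEne
    set E := (layer M₁).map M₁.subtype with hEdef
    have hEM₁ : E ≤ M₁ := Subgroup.map_subtype_le _
    have hEM₂ : E ≤ M₂ := by
      rw [hE]
      exact Subgroup.map_subtype_le _
    have hn₁ : M₁ ≤ normalizer (E : Set G) := le_normalizer_map M₁ (layer M₁)
    have hn₂ : M₂ ≤ normalizer (E : Set G) := by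
      rw [hE]
      exact le_normalizer_map M₂ (layer M₂)
    obtain ⟨h3, h4⟩ := hP E hEne (le_inf hEM₁ hEM₂)
    have h5 := h3 hn₁
    have h6 := h4 hn₂
    rw [inf_eq_left.mpr hn₂] at h5
    rw [inf_eq_left.mpr hn₁] at h6
    exact hne (h6.trans h5.symm)
  have hE2 : (layer M₂).map M₂.subtype = ⊥ := by rw [← hE, hE1]
  have hl1 : layer M₁ = ⊥ := (Subgroup.map_eq_bot_iff_of_injective _ M₁.subtype_injective).mp hE1
  have hl2 : layer M₂ = ⊥ := (Subgroup.map_eq_bot_iff_of_injective _ M₂.subtype_injective).mp hE2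
  have hF1 : generalizedFittingSubgroup M₁ = fittingSubgroup M₁ := by
    unfold generalizedFittingSubgroup
    rw [hl1, bot_sup_eq]
  have hF2 : generalizedFittingSubgroup M₂ = fittingSubgroup M₂ := by
    unfold generalizedFittingSubgroup
    rw [hl2, bot_sup_eq]
  rw [hF1] at h₁
  rw [hF2] at h₂
  have hCgen : ∀ M : Subgroup G, generalizedFittingSubgroup M = fittingSubgroup M →
      ∀ y ∈ M, (∀ f ∈ Fc M, y * f = f * y) → y ∈ Fc M := by
    intro M hM y hy hc
    have h1 : (⟨y, hy⟩ : M) ∈ centralizer (generalizedFittingSubgroup M : Set M) := by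
      rw [hM, mem_centralizer_iff]
      intro f hf
      apply Subtype.ext
      exact (hc f.1 ⟨f, hf, rfl⟩).symm
    have h2 := centralizer_generalizedFitting_le h1
    rw [hM] at h2
    exact ⟨_, h2, rfl⟩
  have hH : Hyp M₁ M₂ := ⟨fun A hA hle hn => (hP A hA hle).1 hn, h₁, h₂, hCgen M₂ hF2⟩
  have hH' : Hyp M₂ M₁ := hH.symm (hCgen M₁ hF1) (fun A hA hle hn => (hP A hA hle).2 hn)
  obtain ⟨p, hp, hFp₁, hFp₂⟩ := main hH hH' hne
  have : Fact p.Prime := ⟨hp⟩
  have hfin : ∀ M : Subgroup G, Fc M = Oc p M → generalizedFittingSubgroup M = fittingSubgroup M →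
      centralizer (pCore p ↥M : Set ↥M) ≤ pCore p ↥M := by
    intro M hM hMF y hy
    have h1 : y.1 ∈ Fc M := by
      apply hCgen M hMF y.1 y.2
      intro f hf
      rw [hM] at hf
      obtain ⟨f', hf', rfl⟩ := hf
      exact (congrArg Subtype.val (mem_centralizer_iff.mp hy f' hf')).symm
    rw [hM] at h1
    obtain ⟨w, hw, hwe⟩ := h1
    have : w = y := Subtype.ext hwe
    rwa [← this]
  refine ⟨p, hp, hfin M₁ hFp₁ hF1, hfin M₂ hFp₂ hF2, sup_le (hH.Oc_le p) (hH.Oc_le' p)⟩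

end Cfsg.Agent.S3752
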