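import Mathlib
import Cfsg.Statements.S3754
import Cfsg.Agent.Lib.CharTwoLocal
import Cfsg.Agent.Lib.CoprimeHyper
import Cfsg.Agent.Lib.PCore
import Cfsg.Agent.Lib.PSolv
import Cfsg.Agent.Lib.QuadAbs
import Cfsg.Agent.Lib.Frat
import Cfsg.Agent.Lib.PResid
import Cfsg.Agent.S3752
import Cfsg.Agent.S3736

set_option autoImplicit false
set_option linter.unusedSectionVars false
set_option linter.unusedVariables false
open Cfsg

namespace Cfsg.Agent.S3754

open Subgroup Cfsg.Agent.Lib Cfsg.Agent.Lib.CharTwoLocal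
open scoped commutatorElement

section general

variable {M : Type*} [Group M]

theorem exists_mul_pow {A T : Subgroup M} (hAT : A ≤ normalizer (T : Set M)) {a t : M} (ha : a ∈ A)
    (ht : t ∈ T) (n : ℕ) : ∃ t' ∈ T, (a * t) ^ n = a ^ n * t' := by
  induction n with
  | zero => exact ⟨1, T.one_mem, by simp⟩
  | succ n ih =>
    obtain ⟨t', ht', h⟩ := ih
    have h1 : a⁻¹ * t' * a ∈ T := by
      have := (mem_normalizer_iff.mp (hAT (A.inv_mem ha)) t').mp ht'
      simpa using this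
    refine ⟨(a⁻¹ * t' * a) * t, T.mul_mem h1 ht, ?_⟩
    rw [pow_succ, h, pow_succ]
    group

variable [Finite M]

theorem mem_of_mem_sup_of_coprime {p : ℕ} [Fact p.Prime] {A T : Subgroup M} (hA : IsPGroup p A)
    (hAT : A ≤ normalizer (T : Set M)) {g : M} (hg : g ∈ A ⊔ T) (hc : (orderOf g).Coprime p) :
    g ∈ T := by
  obtain ⟨a, ha, t, ht, rfl⟩ := exists_mul_of_mem_sup hAT hg
  obtain ⟨k, hk⟩ := hA ⟨a, ha⟩
  have hk' : a ^ (p ^ k) = 1 := by
    have := congrArg Subtype.val hk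
    simpa using this
  obtain ⟨t', ht', h⟩ := exists_mul_pow hAT ha ht (p ^ k)
  rw [hk', one_mul] at h
  exact mem_of_pow_mem_of_coprime (n := p ^ k) (by rw [h]; exact ht') (Nat.Coprime.pow_right _ hc)

variable {p : ℕ} [hp : Fact p.Prime]

theorem sup_zpowers_eq {B A : Subgroup M} (hB : B ≤ A) (hidx : B.relIndex A = p) {a : M}
    (ha : a ∈ A) (hnot : a ∉ B) : B ⊔ zpowers a = A := by
  set E := B ⊔ zpowers a with hE
  have hBE : B ≤ E := le_sup_left
  have hEA : E ≤ A := sup_le hB ((zpowers_le).mpr ha)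
  have hmul := Subgroup.relIndex_mul_relIndex B E A hBE hEA
  rw [hidx] at hmul
  have h1 : B.relIndex E ≠ 1 := by
    intro h
    have h2 := Subgroup.relIndex_eq_one.mp h
    exact hnot (h2 (mem_sup_right (mem_zpowers a)))
  have h2 : B.relIndex E ∣ p := ⟨_, hmul.symm⟩
  have h3 := (Nat.dvd_prime hp.out).mp h2
  have h4 : B.relIndex E = p := h3.resolve_left h1
  rw [h4] at hmul
  have h5 : E.relIndex A = 1 := by
    have := hp.out.pos
    nlinarith
  exact le_antisymm hEA (Subgroup.relIndex_eq_one.mp h5)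

/-- The construction in the quotient. -/
theorem stage1 {Gb : Type*} [Group Gb] [Finite Gb] (Xb Ab : Subgroup Gb) (hAbc : IsMulCommutative Ab)
    (hAbexp : ∀ a ∈ Ab, a ^ p = 1) (hAbp : IsPGroup p Ab) (hXcop : (Nat.card Xb).Coprime p)
    (hAbX : Ab ≤ normalizer (Xb : Set Gb)) (hnt : ¬ Ab ≤ centralizer (Xb : Set Gb)) :
    ∃ Bb : Subgroup Gb, Bb ≤ Ab ∧ Bb.relIndex Ab = p ∧ ∃ a ∈ Ab, ∃ Zb : Subgroup Gb,
      Zb ≤ Xb ∧ Zb ≤ centralizer (Bb : Set Gb) ∧ (∀ z ∈ Zb, a * z * a⁻¹ ∈ Zb) ∧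
      (∃ z ∈ Zb, a * z ≠ z * a) ∧
      (∀ Z₁ : Subgroup Gb, Z₁ ≤ Zb → (∀ z ∈ Z₁, a * z * a⁻¹ ∈ Z₁) → (∃ z ∈ Z₁, a * z ≠ z * a) → Z₁ = Zb) := by
  classical
  have hXp : ¬ p ∣ Nat.card Xb := by
    intro h
    have := Nat.Coprime.eq_one_of_dvd hXcop.symm h
    exact hp.out.one_lt.ne' this
  have hNsup := CoprimeHyper.eq_iSup_inf_centralizer (p := p) Ab Xb hAbc hAbexp hXp hAbX
  have hex : ∃ Bb : Subgroup Gb, Bb ≤ Ab ∧ Bb.relIndex Ab ≤ p ∧
      ∃ y ∈ Xb ⊓ centralizer (Bb : Set Gb), ∃ a ∈ Ab, a * y ≠ y * a := by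
    by_contra hall
    push Not at hall
    apply hnt
    intro b hb
    rw [mem_centralizer_iff]
    intro y hy
    have hle : Xb ≤ centralizer ({b} : Set Gb) := by
      rw [hNsup]
      refine iSup_le fun B₀ => ?_
      intro z hz
      rw [mem_centralizer_iff]
      intro w hw
      have hw' : w = b := hw
      rw [hw']
      exact hall B₀.1 B₀.2.1 B₀.2.2 z hz b hb
    exact (mem_centralizer_iff.mp (hle hy) b rfl).symm
  obtain ⟨Bb, hBA, hidx, y, hy, a, haA, hay⟩ := hex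
  have haB : a ∉ Bb := fun h => hay (mem_centralizer_iff.mp hy.2 a h)
  have hidx' : Bb.relIndex Ab = p := by
    obtain ⟨k, hk⟩ := IsPGroup.iff_card.mp hAbp
    have h1 : Bb.relIndex Ab ∣ p ^ k := by
      rw [← hk]
      exact Subgroup.relIndex_dvd_card _ _
    obtain ⟨j, -, hj⟩ := (Nat.dvd_prime_pow hp.out).mp h1
    have h2 : Bb.relIndex Ab ≠ 1 := by
      intro h
      exact haB (Subgroup.relIndex_eq_one.mp h haA)
    rw [hj] at hidx h2 ⊢
    have hj0 : j ≠ 0 := by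
      rintro rfl
      simp at h2
    have hj1 : j ≤ 1 := by
      by_contra h
      push Not at h
      have h3 := Nat.pow_le_pow_right hp.out.pos (show 2 ≤ j by omega)
      have := hp.out.two_le
      nlinarith
    have : j = 1 := by omega
    rw [this, pow_one]
  -- the family
  have hcommA : ∀ u ∈ Ab, ∀ v ∈ Ab, u * v = v * u := fun u hu v hv =>
    congrArg Subtype.val (hAbc.is_comm.comm ⟨u, hu⟩ ⟨v, hv⟩)
  let F : Set (Subgroup Gb) := {Z | Z ≤ Xb ∧ Z ≤ centralizer (Bb : Set Gb) ∧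
    (∀ z ∈ Z, a * z * a⁻¹ ∈ Z) ∧ (∃ z ∈ Z, a * z ≠ z * a)}
  have hFne : (Xb ⊓ centralizer (Bb : Set Gb)) ∈ F := by
    refine ⟨inf_le_left, inf_le_right, ?_, y, hy, hay⟩
    intro z hz
    refine ⟨(mem_normalizer_iff.mp (hAbX haA) z).mp hz.1, ?_⟩
    show a * z * a⁻¹ ∈ centralizer (Bb : Set Gb)
    rw [mem_centralizer_iff]
    intro b hb
    have h1 : b * z = z * b := mem_centralizer_iff.mp hz.2 b hb
    have h2 : b * a = a * b := hcommA b (hBA hb) a haA
    have h3 : b * a⁻¹ = a⁻¹ * b := by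
      rw [eq_inv_mul_iff_mul_eq, ← mul_assoc, ← h2, mul_assoc, mul_inv_cancel, mul_one]
    calc b * (a * z * a⁻¹) = a * (b * z) * a⁻¹ := by rw [← mul_assoc, ← mul_assoc, h2]; group
      _ = a * (z * b) * a⁻¹ := by rw [h1]
      _ = a * z * (b * a⁻¹) := by group
      _ = a * z * a⁻¹ * b := by rw [h3]; group
  obtain ⟨Zb, hZm⟩ := (Set.toFinite F).exists_minimal ⟨_, hFne⟩
  obtain ⟨hZX, hZC, hZinv, hZne⟩ := hZm.1
  refine ⟨Bb, hBA, hidx', a, haA, Zb, hZX, hZC, hZinv, hZne, ?_⟩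
  intro Z₁ hZ₁ hZ₁inv hZ₁ne
  have hZ₁F : Z₁ ∈ F := ⟨hZ₁.trans hZX, hZ₁.trans hZC, hZ₁inv, hZ₁ne⟩
  exact le_antisymm hZ₁ (hZm.2 hZ₁F hZ₁)

end general

/-- Let M be a finite p-soluble group and A a p-subgroup of M with Φ(A) ≤ O_p(M) but A ≰ O_p(M). Then there is x ∈ O_{p,p'}(M) such that L = ⟨A, xAx⁻¹⟩ satisfies: x ∈ O^p(L) and O^p(L) ≤ O_{p,p'}(M); [O^p(L), A] = O^p(L); A ∩ O_p(L) has index p in A; and [A ∩ O_p(L), L] ≤ O_p(M). Here O^p(L) is the subgroup generated by the p'-elements of L and O_{p,p'}(M) the preimage of O_{p'}(M/O_p(M)). -/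
theorem result {M : Type*} [Group M] [Finite M] {p : ℕ} [Fact p.Prime] (hM : Cfsg.IsPSolvable p M) (A : Subgroup M) (hA : IsPGroup p A) (hΦ : (frattini ↥A).map A.subtype ≤ Cfsg.pCore p M) (hnot : ¬ A ≤ Cfsg.pCore p M) : ∃ x ∈ (Cfsg.pPrimeCore p (M ⧸ Cfsg.pCore p M)).comap (QuotientGroup.mk' (Cfsg.pCore p M)), x ∈ (Cfsg.pResidual p ↥(A ⊔ A.map (MulAut.conj x).toMonoidHom)).map (A ⊔ A.map (MulAut.conj x).toMonoidHom).subtype ∧ (Cfsg.pResidual p ↥(A ⊔ A.map (MulAut.conj x).toMonoidHom)).map (A ⊔ A.map (MulAut.conj x).toMonoidHom).subtype ≤ (Cfsg.pPrimeCore p (M ⧸ Cfsg.pCore p M)).comap (QuotientGroup.mk' (Cfsg.pCore p M)) ∧ ⁅(Cfsg.pResidual p ↥(A ⊔ A.map (MulAut.conj x).toMonoidHom)).map (A ⊔ A.map (MulAut.conj x).toMonoidHom).subtype, A⁆ = (Cfsg.pResidual p ↥(A ⊔ A.map (MulAut.conj x).toMonoidHom)).map (A ⊔ A.map (MulAut.conj x).toMonoidHom).subtype ∧ (A ⊓ (Cfsg.pCore p ↥(A ⊔ A.map (MulAut.conj x).toMonoidHom)).map (A ⊔ A.map (MulAut.conj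 x).toMonoidHom).subtype).relIndex A = p ∧ ⁅A ⊓ (Cfsg.pCore p ↥(A ⊔ A.map (MulAut.conj x).toMonoidHom)).map (A ⊔ A.map (MulAut.conj x).toMonoidHom).subtype, A ⊔ A.map (MulAut.conj x).toMonoidHom⁆ ≤ Cfsg.pCore p M := by
  classical
  rename_i hpF
  have hpp : p.Prime := hpF.out
  set P := pCore p M with hPdef
  let π : M →* M ⧸ P := QuotientGroup.mk' P
  have hπs : Function.Surjective π := QuotientGroup.mk'_surjective P
  have hker : ∀ g, π g = 1 ↔ g ∈ P := fun g => QuotientGroup.eq_one_iff g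
  have hPp : IsPGroup p P := PCore.isPGroup_pCore p
  set Xb := pPrimeCore p (M ⧸ P) with hXb
  set Ab := A.map π with hAb
  have hAbp : IsPGroup p Ab := hA.map π
  have hAtype : IsPGroup p ↥A := hA
  -- elementary abelian modulo `P`
  have hAcomm : ∀ a ∈ A, ∀ b ∈ A, π a * π b = π b * π a := by
    intro a ha b hb
    have h1 : ⁅(⟨a, ha⟩ : A), (⟨b, hb⟩ : A)⁆ ∈ commutator A :=
      Subgroup.commutator_mem_commutator (mem_top _) (mem_top _)
    have h2 := Frat.commutator_le_frattini hAtype h1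
    have h3 : ⁅a, b⁆ ∈ P := hΦ ⟨_, h2, rfl⟩
    have h4 := (hker _).mpr h3
    rw [commutatorElement_def, map_mul, map_mul, map_mul, map_inv, map_inv] at h4
    calc π a * π b = (π a * π b * (π a)⁻¹ * (π b)⁻¹) * (π b * π a) := by group
      _ = π b * π a := by rw [h4, one_mul]
  have hApow : ∀ a ∈ A, (π a) ^ p = 1 := by
    intro a ha
    have h2 := Frat.pow_mem_frattini hAtype (⟨a, ha⟩ : A)
    have h3 : a ^ p ∈ P := hΦ ⟨_, h2, by simp⟩
    have h4 := (hker _).mpr h3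
    rwa [map_pow] at h4
  have hAbc : IsMulCommutative Ab := by
    refine ⟨⟨?_⟩⟩
    rintro ⟨_, a, ha, rfl⟩ ⟨_, b, hb, rfl⟩
    apply Subtype.ext
    exact hAcomm a ha b hb
  have hAbexp : ∀ a ∈ Ab, a ^ p = 1 := by
    rintro _ ⟨a, ha, rfl⟩
    exact hApow a ha
  have hXcop : (Nat.card Xb).Coprime p := PCore.card_pPrimeCore_coprime p
  have hOp : pCore p (M ⧸ P) = ⊥ := PCore.pCore_quotient_pCore p
  have hCX : centralizer (Xb : Set (M ⧸ P)) ≤ Xb :=
    QuadAbs.centralizer_pPrimeCore_le (PSolv.isPSolvable_quotient hM P) hOp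
  have hXnorm : Xb.Normal := PCore.pPrimeCore_normal p
  have hAbX : Ab ≤ normalizer (Xb : Set (M ⧸ P)) := by
    rw [normalizer_eq_top_iff.mpr hXnorm]
    exact le_top
  have hnt : ¬ Ab ≤ centralizer (Xb : Set (M ⧸ P)) := by
    intro h
    have h1 : Ab ≤ Xb := h.trans hCX
    have h2 : Ab = ⊥ := by
      rw [eq_bot_iff]
      rintro _ ⟨a, ha, rfl⟩
      have h3 : π a ∈ Xb := h1 ⟨a, ha, rfl⟩
      exact S3752.eq_one_of_pow_of_coprime (N := 1) hXcop h3 (by rw [pow_one]; exact hApow a ha)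
    apply hnot
    intro a ha
    have h3 : π a ∈ Ab := ⟨a, ha, rfl⟩
    rw [h2] at h3
    exact (hker a).mp h3
  obtain ⟨Bb, hBA, hidx, ab, habA, Zb, hZX, hZC, hZinv, hZne, hZmin⟩ :=
    stage1 (p := p) Xb Ab hAbc hAbexp hAbp hXcop hAbX hnt
  obtain ⟨a₀, ha₀, ha₀e⟩ := habA
  have hab : ab = π a₀ := ha₀e.symm
  have hBC : ∀ b ∈ Bb, ∀ z ∈ Zb, b * z = z * b := fun b hb z hz =>
    mem_centralizer_iff.mp (hZC hz) b hb
  have hcommAb : ∀ u ∈ Ab, ∀ v ∈ Ab, u * v = v * u := fun u hu v hv =>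
    congrArg Subtype.val (hAbc.is_comm.comm ⟨u, hu⟩ ⟨v, hv⟩)
  have habB : ab ∉ Bb := by
    intro h
    obtain ⟨z, hz, hne⟩ := hZne
    exact hne (hBC ab h z hz)
  -- `Ab` normalizes `Zb`
  have hSup : Bb ⊔ zpowers ab = Ab := sup_zpowers_eq hBA hidx ⟨a₀, ha₀, ha₀e⟩ habB
  have hAbZ : Ab ≤ normalizer (Zb : Set (M ⧸ P)) := by
    rw [← hSup]
    refine sup_le ?_ ((zpowers_le).mpr ?_)
    · intro b hb
      rw [mem_normalizer_iff]
      intro z
      have hbc : ∀ z ∈ Zb, b * z * b⁻¹ = z := by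
        intro z hz
        rw [hBC b hb z hz]
        group
      constructor
      · intro hz
        rw [hbc z hz]
        exact hz
      · intro hz
        have h3 : b * (b * z * b⁻¹) = (b * z * b⁻¹) * b := hBC b hb _ hz
        have h4 : z = b * z * b⁻¹ := by
          calc z = b⁻¹ * ((b * z * b⁻¹) * b) := by group
            _ = b⁻¹ * (b * (b * z * b⁻¹)) := by rw [h3]
            _ = b * z * b⁻¹ := by group
        rw [h4]
        exact hz
    · have hfin : Function.Injective (fun z : Zb => (⟨ab * z * ab⁻¹, hZinv z z.2⟩ : Zb)) := by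
        intro u v h
        have h1 : ab * (u : M ⧸ P) * ab⁻¹ = ab * v * ab⁻¹ := congrArg Subtype.val h
        exact Subtype.ext (mul_left_cancel (mul_right_cancel h1))
      have hsurj := Finite.surjective_of_injective hfin
      rw [mem_normalizer_iff]
      intro z
      constructor
      · exact hZinv z
      · intro hz
        obtain ⟨w, hw⟩ := hsurj ⟨_, hz⟩
        have h1 : ab * (w : M ⧸ P) * ab⁻¹ = ab * z * ab⁻¹ := congrArg Subtype.val hw
        have h2 : (w : M ⧸ P) = z := mul_left_cancel (mul_right_cancel h1)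
        rw [← h2]
        exact w.2
  -- the general fact on `Zb`
  have hZL : ∀ x : M, π x ∈ Zb → ab * π x ≠ π x * ab →
      Zb ≤ (A ⊔ A.map (MulAut.conj x).toMonoidHom).map π := by
    intro x hxZ hxne
    set L := A ⊔ A.map (MulAut.conj x).toMonoidHom with hL
    set Lb := L.map π with hLb
    have hAL : A ≤ L := le_sup_left
    have hab' : ab ∈ Lb := ⟨a₀, hAL ha₀, ha₀e⟩
    set xb := π x with hxb
    set c := ab * xb * ab⁻¹ * xb⁻¹ with hc
    have hcL : c ∈ Lb := by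
      refine ⟨a₀ * (x * a₀⁻¹ * x⁻¹), L.mul_mem (hAL ha₀) (mem_sup_right ⟨a₀⁻¹, A.inv_mem ha₀, rfl⟩), ?_⟩
      rw [map_mul, map_mul, map_mul, map_inv, map_inv, hc, hab]
      group
      rfl
    have hcZ : c ∈ Zb := Zb.mul_mem (hZinv _ hxZ) (Zb.inv_mem hxZ)
    have hcne : ab * c ≠ c * ab := by
      intro hcomm
      have h1 : ab * xb⁻¹ * ab⁻¹ = xb⁻¹ * c⁻¹ := by
        rw [hc]
        group
      have h2 : ab * c⁻¹ = c⁻¹ * ab := (show Commute ab c from hcomm).inv_right.eq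
      have h3 := CharTwoLocal.pow_orderOf_eq_one_of_conj h1 h2
      have h4 : orderOf ab ∣ p := orderOf_dvd_of_pow_eq_one (hAbexp ab ⟨a₀, ha₀, ha₀e⟩)
      have h5 : (c⁻¹) ^ p = 1 :=
        orderOf_dvd_iff_pow_eq_one.mp ((orderOf_dvd_of_pow_eq_one h3).trans h4)
      have h6 : c⁻¹ = 1 := S3752.eq_one_of_pow_of_coprime (N := 1) hXcop (Xb.inv_mem (hZX hcZ))
        (by rw [pow_one]; exact h5)
      have h7 : c = 1 := inv_eq_one.mp h6
      apply hxne
      calc ab * xb = c * (xb * ab) := by rw [hc]; group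
        _ = xb * ab := by rw [h7, one_mul]
    have h8 := hZmin (Lb ⊓ Zb) inf_le_right (fun z hz =>
      ⟨Lb.mul_mem (Lb.mul_mem hab' hz.1) (Lb.inv_mem hab'), hZinv z hz.2⟩) ⟨c, ⟨hcL, hcZ⟩, hcne⟩
    exact inf_eq_right.mp h8
  -- the choice of `x`
  obtain ⟨xb₀, hxb₀, hxb₀ne⟩ := hZne
  obtain ⟨x₀, hx₀⟩ := hπs xb₀
  let 𝒳 : Set M := {x | π x ∈ Zb ∧ ab * π x ≠ π x * ab}
  have h𝒳 : 𝒳.Nonempty := ⟨x₀, by
    show π x₀ ∈ Zb ∧ ab * π x₀ ≠ π x₀ * ab
    rw [hx₀]
    exact ⟨hxb₀, hxb₀ne⟩⟩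
  obtain ⟨x₁, hx₁, hmin⟩ := Set.exists_min_image 𝒳
    (fun x => Nat.card ↥(A ⊔ A.map (MulAut.conj x).toMonoidHom)) (Set.toFinite _) h𝒳
  obtain ⟨x, hx𝒳, hxL, hxord⟩ : ∃ x ∈ 𝒳, x ∈ A ⊔ A.map (MulAut.conj x).toMonoidHom ∧
      (orderOf x).Coprime p := by
    have h1 := hZL x₁ hx₁.1 hx₁.2 hx₁.1
    obtain ⟨z, hzL, hzx⟩ := h1
    set n := orderOf z with hn
    have hn0 : n ≠ 0 := (orderOf_pos z).ne'
    set e := n.factorization p with he
    set m := n / p ^ e with hm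
    have hnm : p ^ e * m = n := Nat.ordProj_mul_ordCompl_eq_self n p
    have hmcop : m.Coprime p := (Nat.coprime_ordCompl hpp hn0).symm
    have hxbord : (orderOf (π x₁)).Coprime p := by
      have h2 : orderOf (⟨π x₁, hZX hx₁.1⟩ : Xb) ∣ Nat.card Xb := orderOf_dvd_natCard _
      rw [Subgroup.orderOf_mk] at h2
      exact Nat.Coprime.coprime_dvd_left h2 hXcop
    have hcop : (p ^ e).Coprime (orderOf (π x₁)) := (Nat.Coprime.pow_right e hxbord).symm
    obtain ⟨v, hv⟩ := exists_pow_eq_self_of_coprime hcop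
    set y := z ^ (p ^ e * v) with hy
    have hπy : π y = π x₁ := by
      rw [hy, map_pow, hzx, pow_mul]
      exact hv
    have hyL : y ∈ A ⊔ A.map (MulAut.conj x₁).toMonoidHom := Subgroup.pow_mem _ hzL _
    have hyord : (orderOf y).Coprime p := by
      have h2 : orderOf y ∣ m := by
        apply orderOf_dvd_of_pow_eq_one
        rw [hy, ← pow_mul]
        have : p ^ e * v * m = n * v := by
          rw [← hnm]
          ring
        rw [this, pow_mul, hn, pow_orderOf_eq_one, one_pow]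
      exact Nat.Coprime.coprime_dvd_left h2 hmcop
    have hy𝒳 : y ∈ 𝒳 := by
      show π y ∈ Zb ∧ ab * π y ≠ π y * ab
      rw [hπy]
      exact hx₁
    have hLle : A ⊔ A.map (MulAut.conj y).toMonoidHom ≤ A ⊔ A.map (MulAut.conj x₁).toMonoidHom := by
      refine sup_le le_sup_left ?_
      rintro _ ⟨a, ha, rfl⟩
      simp only [MulEquiv.coe_toMonoidHom, MulAut.conj_apply]
      exact Subgroup.mul_mem _ (Subgroup.mul_mem _ hyL (mem_sup_left ha)) (Subgroup.inv_mem _ hyL)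
    have hcard := hmin y hy𝒳
    have hLeq := Subgroup.eq_of_le_of_card_ge hLle hcard
    refine ⟨y, hy𝒳, ?_, hyord⟩
    rw [hLeq]
    exact hyL
  refine ⟨x, hZX hx𝒳.1, ?_⟩
  have hxZ : π x ∈ Zb := hx𝒳.1
  have hxne : ab * π x ≠ π x * ab := hx𝒳.2
  have hZLb := hZL x hxZ hxne
  set L := A ⊔ A.map (MulAut.conj x).toMonoidHom with hL
  have hAL : A ≤ L := le_sup_left
  -- the image of `L`
  have hLsup : L.map π ≤ Ab ⊔ Zb := by
    rw [hL, Subgroup.map_sup]
    refine sup_le (le_sup_left) ?_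
    rintro _ ⟨_, ⟨a, ha, rfl⟩, rfl⟩
    simp only [MulEquiv.coe_toMonoidHom, MulAut.conj_apply, map_mul, map_inv]
    have h1 : π a ∈ Ab := ⟨a, ha, rfl⟩
    have h2 : π x * π a * (π x)⁻¹ * (π a)⁻¹ ∈ Zb := by
      have h3 : π a * (π x)⁻¹ * (π a)⁻¹ ∈ Zb :=
        (mem_normalizer_iff.mp (hAbZ h1) _).mp (Zb.inv_mem hxZ)
      have h4 : π x * π a * (π x)⁻¹ * (π a)⁻¹ = π x * (π a * (π x)⁻¹ * (π a)⁻¹) := by group
      rw [h4]
      exact Zb.mul_mem hxZ h3
    have h5 : π x * π a * (π x)⁻¹ = (π x * π a * (π x)⁻¹ * (π a)⁻¹) * π a := by group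
    rw [h5]
    exact Subgroup.mul_mem _ (mem_sup_right h2) (mem_sup_left h1)
  -- `L` centralizes `Bb` modulo `P`
  have hLC : L.map π ≤ centralizer (Bb : Set (M ⧸ P)) := by
    refine hLsup.trans (sup_le ?_ hZC)
    intro u hu
    rw [mem_centralizer_iff]
    intro b hb
    exact hcommAb b (hBA hb) u hu
  have hres_le : ∀ {K : Subgroup M}, (∀ g ∈ L, (orderOf g).Coprime p → g ∈ K) →
      (pResidual p ↥L).map L.subtype ≤ K := by
    intro K h
    rw [Subgroup.map_le_iff_le_comap]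
    unfold pResidual
    rw [Subgroup.closure_le]
    intro g hg
    apply h g.1 g.2
    have h1 : Nat.Coprime (orderOf g) p := hg
    rwa [Subgroup.orderOf_coe] 
  have hmem_res : ∀ {g : M}, g ∈ L → (orderOf g).Coprime p → g ∈ (pResidual p ↥L).map L.subtype := by
    intro g hg h
    refine ⟨⟨g, hg⟩, Subgroup.subset_closure ?_, rfl⟩
    show Nat.Coprime (orderOf (⟨g, hg⟩ : L)) p
    rw [Subgroup.orderOf_mk]
    exact h
  set Rp := (pResidual p ↥L).map L.subtype with hRp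
  have hRpL : Rp ≤ L := Subgroup.map_subtype_le _
  have hRpnorm : L ≤ normalizer (Rp : Set M) := by
    intro g hg
    exact S3736.mem_normalizer_map_of_characteristic L _ (le_normalizer hg) 
  have hEq : A ⊓ (pCore p ↥L).map L.subtype = A ⊓ Bb.comap π := by
    apply le_antisymm
    · rintro a ⟨ha, haO⟩
      refine ⟨ha, ?_⟩
      by_contra hnotB
      have hπa : π a ∉ Bb := hnotB
      have hsup2 := sup_zpowers_eq hBA hidx (show π a ∈ Ab from ⟨a, ha, rfl⟩) hπa
      -- `π a` centralizes `Zb`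
      set W := (Oc p L).map π with hW
      have hWp : IsPGroup p W := (isPGroup_Oc p L).map π
      have hπaW : π a ∈ W := ⟨a, haO, rfl⟩
      have hZWn : Zb ≤ normalizer (W : Set (M ⧸ P)) := by
        intro z hz
        obtain ⟨g, hg, rfl⟩ := hZLb hz
        refine mem_normalizer_of_forall ?_ ?_
        · rintro _ ⟨w, hw, rfl⟩
          refine ⟨g * w * g⁻¹, conj_mem_Oc hg hw, ?_⟩
          simp
        · rintro _ ⟨w, hw, rfl⟩
          refine ⟨g⁻¹ * w * g, ?_, ?_⟩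
          · have := conj_mem_Oc (L.inv_mem hg) hw
            simpa using this
          · simp
      have hWZn : W ≤ normalizer (Zb : Set (M ⧸ P)) := by
        have h1 : W ≤ L.map π := Subgroup.map_mono (CharTwoLocal.Oc_le p L)
        refine (h1.trans hLsup).trans (sup_le hAbZ le_normalizer)
      have hcop : (Nat.card W).Coprime (Nat.card Zb) := by
        obtain ⟨k, hk⟩ := IsPGroup.iff_card.mp hWp
        rw [hk]
        have h1 : Nat.card Zb ∣ Nat.card Xb := Subgroup.card_dvd_of_le hZX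
        exact (Nat.Coprime.pow_right k (Nat.Coprime.coprime_dvd_left h1 hXcop)).symm
      have hcz : ∀ z ∈ Zb, π a * z = z * π a := fun z hz =>
        S3752.commute_of_coprime hWZn hZWn hcop hπaW hz
      have hall : ab ∈ centralizer (Zb : Set (M ⧸ P)) := by
        have h1 : Ab ≤ centralizer (Zb : Set (M ⧸ P)) := by
          rw [← hsup2]
          refine sup_le ?_ ((zpowers_le).mpr ?_)
          · intro b hb
            rw [mem_centralizer_iff]
            intro z hz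
            exact (hBC b hb z hz).symm
          · rw [mem_centralizer_iff]
            intro z hz
            exact (hcz z hz).symm
        exact h1 ⟨a₀, ha₀, ha₀e⟩
      exact hxne (mem_centralizer_iff.mp hall _ hxZ).symm
    · rintro a ⟨ha, haB⟩
      refine ⟨ha, ?_⟩
      set N₁ := L ⊓ Bb.comap π with hN₁
      have hN₁p : IsPGroup p N₁ := by
        have h1 : IsPGroup p (Bb.comap π) := by
          apply IsPGroup.comap_of_ker_isPGroup (hAbp.to_le hBA)
          rw [QuotientGroup.ker_mk']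
          exact hPp
        exact h1.to_le inf_le_right
      have hN₁O : N₁ ≤ Oc p L := by
        apply le_Oc inf_le_left hN₁p
        rintro g hg n ⟨hnL, hnB⟩
        refine ⟨L.mul_mem (L.mul_mem hg hnL) (L.inv_mem hg), ?_⟩
        show π (g * n * g⁻¹) ∈ Bb
        have h1 : π g * π n = π n * π g :=
          (mem_centralizer_iff.mp (hLC ⟨g, hg, rfl⟩) (π n) hnB).symm
        rw [map_mul, map_mul, map_inv, h1, mul_inv_cancel_right]
        exact hnB
      exact hN₁O ⟨hAL ha, haB⟩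
  refine ⟨hmem_res hxL hxord, ?_, ?_, ?_, ?_⟩
  · -- `O^p(L) ≤ O_{p,p'}(M)`
    apply hres_le
    intro g hg hc
    show π g ∈ Xb
    apply hZX
    refine mem_of_mem_sup_of_coprime (p := p) hAbp hAbZ (hLsup ⟨g, hg, rfl⟩) ?_
    have h1 : orderOf (π g) ∣ orderOf g := orderOf_map_dvd π g
    exact Nat.Coprime.coprime_dvd_left h1 hc
  · -- `[O^p(L), A] = O^p(L)`
    set T := ⁅Rp, A⁆ with hT
    have hTle : T ≤ Rp := by
      rw [hT, Subgroup.commutator_le]
      intro r hr a ha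
      have h1 := (mem_normalizer_iff.mp (hRpnorm (hAL ha)) r⁻¹).mp (Rp.inv_mem hr)
      have h2 : ⁅r, a⁆ = r * (a * r⁻¹ * a⁻¹) := by
        rw [commutatorElement_def]
        group
      rw [h2]
      exact Rp.mul_mem hr h1
    have hAT : A ≤ normalizer (T : Set M) := by
      intro a ha
      rw [Subgroup.mem_normalizer_iff_map_conj_eq, hT, Subgroup.map_commutator]
      have h1 := Subgroup.mem_normalizer_iff_map_conj_eq.mp (hRpnorm (hAL ha))
      have h2 := Subgroup.mem_normalizer_iff_map_conj_eq.mp (Subgroup.le_normalizer ha)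
      rw [h1, h2]
    have hLT : L ≤ A ⊔ T := by
      refine sup_le le_sup_left ?_
      rintro _ ⟨a, ha, rfl⟩
      simp only [MulEquiv.coe_toMonoidHom, MulAut.conj_apply]
      have h1 : ⁅x, a⁆ ∈ T := Subgroup.commutator_mem_commutator (hmem_res hxL hxord) ha
      have h2 : x * a * x⁻¹ = ⁅x, a⁆ * a := by
        rw [commutatorElement_def]
        group
      rw [h2]
      exact Subgroup.mul_mem _ (mem_sup_right h1) (mem_sup_left ha)
    apply le_antisymm hTle
    apply hres_le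
    intro g hg hc
    exact mem_of_mem_sup_of_coprime (p := p) hA hAT (hLT hg) hc
  · -- the index
    rw [hEq, Subgroup.inf_relIndex_left, Subgroup.relIndex_comap]
    exact hidx
  · -- the commutator
    rw [Subgroup.commutator_le]
    rintro a ⟨ha, haO⟩ g hg
    have haB : π a ∈ Bb := by
      have h0 : a ∈ A ⊓ (pCore p ↥L).map L.subtype := ⟨ha, haO⟩
      rw [hEq] at h0
      exact h0.2
    rw [← hker, commutatorElement_def, map_mul, map_mul, map_mul, map_inv, map_inv]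
    have h1 : π a * π g = π g * π a :=
      mem_centralizer_iff.mp (hLC ⟨g, hg, rfl⟩) (π a) haB
    rw [h1]
    group

end Cfsg.Agent.S3754
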