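import Mathlib
import Cfsg.Statements.S3755
import Cfsg.Agent.Lib.CharTwoLocal
import Cfsg.Agent.Lib.CoprimeHyper
import Cfsg.Agent.Lib.ThreeTransS3
import Cfsg.Agent.Lib.PCore
import Cfsg.Agent.Lib.NormQuot
import Cfsg.Agent.S3736

set_option autoImplicit false
set_option linter.unusedSectionVars false
open Cfsg

namespace Cfsg.Agent.S3755

open Subgroup Cfsg.Agent.Lib Cfsg.Agent.Lib.CharTwoLocal
open scoped commutatorElement

variable {X : Type*} [Group X]

/-- An explicit `S₃`. -/
theorem involves_of_elements (M : Subgroup X) {t u : X} (ht : t ∈ M) (hu : u ∈ M) (ht2 : t * t = 1)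
    (hu3 : u ^ 3 = 1) (hu1 : u ≠ 1) (hinv : t * u * t⁻¹ = u⁻¹) :
    Involves (Equiv.Perm (Fin 3)) M := by
  have htinv : t⁻¹ = t := inv_eq_of_mul_eq_one_left ht2
  rw [htinv] at hinv
  have hu2 : u * u = u⁻¹ := by
    rw [eq_inv_iff_mul_eq_one, ← hu3, pow_succ, pow_two]
  have h1 : t * u⁻¹ = u * t := by
    calc t * u⁻¹ = t * (t * u * t) := by rw [hinv]
      _ = (t * t) * u * t := by group
      _ = u * t := by rw [ht2, one_mul]
  let d : M := ⟨t, ht⟩
  let e : M := ⟨u⁻¹ * t, M.mul_mem (M.inv_mem hu) ht⟩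
  have hd : d * d = 1 := Subtype.ext ht2
  have he : e * e = 1 := by
    apply Subtype.ext
    show u⁻¹ * t * (u⁻¹ * t) = 1
    calc u⁻¹ * t * (u⁻¹ * t) = u⁻¹ * (t * u⁻¹) * t := by group
      _ = u⁻¹ * (u * t) * t := by rw [h1]
      _ = t * t := by group
      _ = 1 := ht2
  have hb : d * e * d = e * d * e := by
    apply Subtype.ext
    show t * (u⁻¹ * t) * t = u⁻¹ * t * t * (u⁻¹ * t)
    calc t * (u⁻¹ * t) * t = (t * u⁻¹) * (t * t) := by group
      _ = u * t := by rw [ht2, mul_one, h1]
      _ = (u⁻¹ * u⁻¹) * t := by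
        rw [← mul_inv_rev, hu2, inv_inv]
      _ = u⁻¹ * (t * t) * (u⁻¹ * t) := by rw [ht2]; group
      _ = u⁻¹ * t * t * (u⁻¹ * t) := by group
  have hd1 : d ≠ 1 := by
    intro h
    have ht1 : t = 1 := congrArg Subtype.val h
    rw [ht1] at hinv
    have h2 : u = u⁻¹ := by simpa using hinv
    apply hu1
    have h3 : u * u = 1 := by
      nth_rw 2 [h2]
      exact mul_inv_cancel u
    rw [hu2] at h3
    exact inv_eq_one.mp h3
  have hne : d ≠ e := by
    intro h
    have h2 : t = u⁻¹ * t := congrArg Subtype.val h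
    apply hu1
    have h3 : u⁻¹ = 1 := by
      simpa using h2.symm
    exact inv_eq_one.mp h3
  obtain ⟨f⟩ := ThreeTransS3.nonempty_closure_equiv hd he hb hd1 hne
  refine ⟨Subgroup.closure ({d, e} : Set M), ⊥, ?_, ?_⟩
  · rw [Subgroup.bot_subgroupOf]
    exact normal_bot
  · exact ⟨(QuotientGroup.quotientMulEquivOfEq (Subgroup.bot_subgroupOf _)).trans
      ((QuotientGroup.quotientBot).trans f)⟩

variable [Finite X]

/-- Elementary abelian: the `2`-group property. -/
theorem isPGroup_of_ea {V : Subgroup X} (hV : IsElementaryAbelian 2 V) : IsPGroup 2 V := by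
  intro v
  refine ⟨1, ?_⟩
  apply Subtype.ext
  simpa using hV.2 v.1 v.2

theorem rel_pos (H K : Subgroup X) : 0 < H.relIndex K :=
  Nat.pos_of_ne_zero Subgroup.index_ne_zero_of_finite

theorem ea_of_le {B B₀ : Subgroup X} (hB : IsElementaryAbelian 2 B) (h : B₀ ≤ B) :
    IsElementaryAbelian 2 B₀ := by
  refine ⟨⟨⟨fun a b => Subtype.ext ?_⟩⟩, fun a ha => hB.2 a (h ha)⟩
  have h1 : (⟨a.1, h a.2⟩ : B) * ⟨b.1, h b.2⟩ = ⟨b.1, h b.2⟩ * ⟨a.1, h a.2⟩ := hB.1.is_comm.comm _ _
  have h2 := congrArg Subtype.val h1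
  exact h2

theorem conj_mem_of_normalizer {W : Subgroup X} {u w : X} (hu : u ∈ normalizer (W : Set X))
    (hw : w ∈ W) : u * w * u⁻¹ ∈ W := (mem_normalizer_iff.mp hu w).mp hw

theorem pow_mem_normalizer' {W : Subgroup X} {u : X} (hu : u ∈ normalizer (W : Set X)) (n : ℕ) :
    u ^ n ∈ normalizer (W : Set X) := Subgroup.pow_mem _ hu n

/-- Pigeonhole: an element of prime order at least `5` which acts with at most four cosets of the
fixed points acts trivially. -/
theorem centralizes_of_small (W : Subgroup X) (hW : IsElementaryAbelian 2 W) {u : X}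
    (huW : u ∈ normalizer (W : Set X)) {r : ℕ} (hr : r.Prime) (hr5 : 5 ≤ r) (huord : orderOf u = r)
    (hsmall : (W ⊓ centralizer ({u} : Set X)).relIndex W ≤ 4) : ∀ w ∈ W, u * w = w * u := by
  classical
  intro w hw
  set D := W ⊓ centralizer ({u} : Set X) with hD
  have hDcomm : ∀ c ∈ D, u * c = c * u := by
    intro c hc
    have := mem_centralizer_iff.mp hc.2 u rfl
    exact this
  let f : Fin 5 → ↥W ⧸ (D.subgroupOf W) := fun i =>
    QuotientGroup.mk ⟨u ^ (i : ℕ) * w * (u ^ (i : ℕ))⁻¹, conj_mem_of_normalizer (pow_mem_normalizer' huW _) hw⟩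
  have hcard : Nat.card (↥W ⧸ (D.subgroupOf W)) < Nat.card (Fin 5) := by
    rw [Nat.card_eq_fintype_card (α := Fin 5), Fintype.card_fin]
    have : Nat.card (↥W ⧸ (D.subgroupOf W)) = D.relIndex W := rfl
    omega
  have hninj : ¬ Function.Injective f := fun hinj => by
    have := Nat.card_le_card_of_injective f hinj
    omega
  simp only [Function.Injective, not_forall] at hninj
  obtain ⟨i, j, hfij, hij⟩ := hninj
  -- a power of `u` commutes with `w`
  have key : ∀ i j : Fin 5, (i : ℕ) < j → f i = f j → u * w = w * u := by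
    intro i j hlt hf
    set d := (j : ℕ) - i with hd
    have hd0 : 0 < d := Nat.sub_pos_of_lt hlt
    have hd4 : d < 5 := by have := j.2; omega
    have hji : (j : ℕ) = i + d := by omega
    have h1 := QuotientGroup.eq.mp hf
    rw [Subgroup.mem_subgroupOf] at h1
    set a := u ^ (i : ℕ) with ha
    set v := u ^ d with hv
    have hbj : u ^ (j : ℕ) = a * v := by rw [hji, pow_add]
    have h2 : ((u ^ (i : ℕ) * w * (u ^ (i : ℕ))⁻¹)⁻¹ * (u ^ (j : ℕ) * w * (u ^ (j : ℕ))⁻¹)) ∈ D := by
      simpa using h1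
    rw [hbj, ← ha] at h2
    -- conjugating by `a⁻¹`
    have hDconj : ∀ c ∈ D, a⁻¹ * c * a = c := by
      intro c hc
      have hcomm : Commute u c := hDcomm c hc
      have h3 : Commute a c := hcomm.pow_left _
      have h4 : c * a = a * c := h3.eq.symm
      rw [mul_assoc, h4]
      group
    set c := (a * w * a⁻¹)⁻¹ * (a * v * w * (a * v)⁻¹) with hc
    have hc' : a⁻¹ * c * a = w⁻¹ * (v * w * v⁻¹) := by
      rw [hc]
      group
    have hcval := hDconj c h2
    rw [hc'] at hcval
    have hc1 : w⁻¹ * (v * w * v⁻¹) ∈ D := by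
      rw [hcval]
      exact h2
    have hvc : v * (w⁻¹ * (v * w * v⁻¹)) = (w⁻¹ * (v * w * v⁻¹)) * v :=
      ((Commute.pow_left (hDcomm _ hc1 : Commute u _) d)).eq
    have hcop2 : (orderOf v).Coprime 2 := by
      have h3 : orderOf v ∣ r := by
        rw [← huord]
        exact orderOf_pow_dvd d
      have h4 : r.Coprime 2 := (Nat.coprime_primes hr Nat.prime_two).mpr (by omega)
      exact Nat.Coprime.coprime_dvd_left h3 h4
    have hvw : v * w = w * v :=
      commute_of_conj_eq_mul (isPGroup_of_ea hW) hc1.1 hcop2 (by group) hvc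
    -- `u` is a power of `v`
    have hcopd : Nat.Coprime d r := by
      apply Nat.Coprime.symm
      apply (Nat.Prime.coprime_iff_not_dvd hr).mpr
      intro hdvd
      have := Nat.le_of_dvd hd0 hdvd
      omega
    obtain ⟨m, hm⟩ : ∃ m : ℕ, v ^ m = u :=
      exists_pow_eq_self_of_coprime (by rw [huord]; exact hcopd)
    rw [← hm]
    exact ((Commute.pow_left (hvw : Commute v w) m)).eq
  rcases lt_or_gt_of_ne (fun h => hij (Fin.ext h) : (i : ℕ) ≠ j) with h | h
  · exact key i j h hfij
  · exact key j i h hfij.symm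

/-- The key estimate for one involution. -/
theorem four_le (W : Subgroup X) (hW : IsElementaryAbelian 2 W) {t u : X} (ht2 : t * t = 1)
    (huW : u ∈ normalizer (W : Set X))
    (hinv : t * u * t⁻¹ = u⁻¹) {r : ℕ} (hr : r.Prime) (hr5 : 5 ≤ r) (huord : orderOf u = r)
    (hcomm : ¬ ∀ w ∈ W, u * w = w * u) :
    4 ≤ (W ⊓ centralizer ({t} : Set X)).relIndex W := by
  classical
  by_contra hk
  push Not at hk
  apply hcomm
  set C := W ⊓ centralizer ({t} : Set X) with hC
  have htinv : t⁻¹ = t := inv_eq_of_mul_eq_one_left ht2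
  rw [htinv] at hinv
  -- the index is at most two
  obtain ⟨m, hm⟩ := IsPGroup.iff_card.mp (isPGroup_of_ea hW)
  have hk2 : C.relIndex W ≤ 2 := by
    have h1 : C.relIndex W ∣ 2 ^ m := by
      rw [← hm]
      exact Subgroup.relIndex_dvd_card _ _
    obtain ⟨a, -, ha⟩ := (Nat.dvd_prime_pow Nat.prime_two).mp h1
    rw [ha] at hk ⊢
    have h2 : a < 2 := by
      by_contra h
      push Not at h
      have := Nat.pow_le_pow_right (n := 2) (by norm_num) h
      omega
    have h3 : 2 ^ a ≤ 2 ^ 1 := Nat.pow_le_pow_right (by norm_num) (by omega)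
    simpa using h3
  set s := u * t * u⁻¹ with hs
  set C' := W ⊓ centralizer ({s} : Set X) with hC'
  have hC'eq : C' = C.map (MulAut.conj u).toMonoidHom := by
    ext x
    simp only [hC', hC, Subgroup.mem_inf, mem_centralizer_iff, Set.mem_singleton_iff, forall_eq,
      Subgroup.mem_map, MulEquiv.coe_toMonoidHom, MulAut.conj_apply]
    constructor
    · rintro ⟨hx, hxc⟩
      refine ⟨u⁻¹ * x * u, ⟨?_, ?_⟩, by group⟩
      · have := conj_mem_of_normalizer (Subgroup.inv_mem _ huW) hx
        simpa using this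
      · have : u * t * u⁻¹ * x = x * (u * t * u⁻¹) := hxc
        calc t * (u⁻¹ * x * u) = u⁻¹ * (u * t * u⁻¹ * x) * u := by group
          _ = u⁻¹ * (x * (u * t * u⁻¹)) * u := by rw [this]
          _ = u⁻¹ * x * u * t := by group
    · rintro ⟨y, ⟨hy, hyc⟩, rfl⟩
      refine ⟨conj_mem_of_normalizer huW hy, ?_⟩
      have : t * y = y * t := hyc
      calc s * (u * y * u⁻¹) = u * (t * y) * u⁻¹ := by rw [hs]; group
        _ = u * (y * t) * u⁻¹ := by rw [this]
        _ = u * y * u⁻¹ * s := by rw [hs]; group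
  have hWeq : W.map (MulAut.conj u).toMonoidHom = W := by
    ext x
    simp only [Subgroup.mem_map, MulEquiv.coe_toMonoidHom, MulAut.conj_apply]
    constructor
    · rintro ⟨y, hy, rfl⟩
      exact conj_mem_of_normalizer huW hy
    · intro hx
      refine ⟨u⁻¹ * x * u, ?_, by group⟩
      have := conj_mem_of_normalizer (Subgroup.inv_mem _ huW) hx
      simpa using this
  have hidx' : C'.relIndex W = C.relIndex W := by
    have := Subgroup.relIndex_map_map_of_injective (f := (MulAut.conj u).toMonoidHom) C W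
      (MulAut.conj u).injective
    rw [hWeq, ← hC'eq] at this
    exact this
  have hC0 : (C ⊓ C').relIndex W ≤ 4 := by
    have h1 := Subgroup.relIndex_inf_le (H := C) (K := C') (L := W)
    rw [hidx'] at h1
    nlinarith
  -- `C ⊓ C'` is centralized by `u`
  have hle : C ⊓ C' ≤ W ⊓ centralizer ({u} : Set X) := by
    intro x hx
    refine ⟨hx.1.1, ?_⟩
    have hxt : t * x = x * t := mem_centralizer_iff.mp hx.1.2 t rfl
    have hxs : s * x = x * s := mem_centralizer_iff.mp hx.2.2 s rfl
    have hts : t * s = (u⁻¹) ^ 2 := by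
      rw [hs, pow_two]
      calc t * (u * t * u⁻¹) = (t * u * t) * u⁻¹ := by group
        _ = u⁻¹ * u⁻¹ := by rw [hinv]
    have h1 : (u⁻¹) ^ 2 * x = x * (u⁻¹) ^ 2 := by
      rw [← hts]
      calc t * s * x = t * (s * x) := by group
        _ = t * (x * s) := by rw [hxs]
        _ = (t * x) * s := by group
        _ = (x * t) * s := by rw [hxt]
        _ = x * (t * s) := by group
    have hcop : Nat.Coprime 2 (orderOf u⁻¹) := by
      rw [orderOf_inv, huord]
      exact (Nat.coprime_primes Nat.prime_two hr).mpr (by omega)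
    obtain ⟨m, hm⟩ := exists_pow_eq_self_of_coprime hcop
    have h2 : Commute u⁻¹ x := by
      rw [← hm]
      exact (Commute.pow_left (h1 : Commute ((u⁻¹) ^ 2) x) m)
    show x ∈ centralizer ({u} : Set X)
    rw [mem_centralizer_iff]
    intro w hw
    have hw' : w = u := hw
    rw [hw']
    have h3 : Commute u⁻¹⁻¹ x := h2.inv_left
    rw [inv_inv] at h3
    exact h3.eq
  have hD : (W ⊓ centralizer ({u} : Set X)).relIndex W ≤ 4 := by
    have h1 := Subgroup.relIndex_dvd_of_le_left W hle
    have h2 : 0 < (C ⊓ C').relIndex W := rel_pos _ _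
    exact (Nat.le_of_dvd h2 h1).trans hC0
  exact centralizes_of_small W hW huW hr hr5 huord hD

/-- The main inequality. -/
theorem main_ineq (M V N : Subgroup X) (hV : IsElementaryAbelian 2 V)
    (hMV : M ≤ normalizer (V : Set X)) (hfaith : M ⊓ centralizer (V : Set X) = ⊥)
    (hNM : N ≤ M) (hMN : M ≤ normalizer (N : Set X)) (hNodd : (Nat.card N).Coprime 2)
    (hS : ¬ Involves (Equiv.Perm (Fin 3)) M) :
    ∀ (n : ℕ) (B : Subgroup X), Nat.card B = n → B ≤ M → IsElementaryAbelian 2 B →
      (∀ b ∈ B, (∀ y ∈ N, b * y = y * b) → b = 1) →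
      n ^ 2 ≤ (V ⊓ centralizer (B : Set X)).relIndex V := by
  classical
  intro n
  induction n using Nat.strong_induction_on with
  | _ n ih =>
  intro B hn hBM hB hBf
  by_cases hBbot : B = ⊥
  · subst hBbot
    have h1 : Nat.card (⊥ : Subgroup X) = 1 := Subgroup.card_bot
    rw [h1] at hn
    subst hn
    have h2 : 0 < (V ⊓ centralizer ((⊥ : Subgroup X) : Set X)).relIndex V := rel_pos _ _
    omega
  -- find the hyperplane
  have hex : ∃ B₀ : Subgroup X, B₀ ≤ B ∧ B₀.relIndex B ≤ 2 ∧
      ∃ y ∈ N ⊓ centralizer (B₀ : Set X), ∃ t ∈ B, t * y ≠ y * t := by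
    by_contra hall
    push Not at hall
    apply hBbot
    rw [eq_bot_iff]
    intro b hb
    refine hBf b hb ?_
    intro y hy
    have hNsup := CoprimeHyper.eq_iSup_inf_centralizer (p := 2) B N hB.1 hB.2
      (by
        intro h
        have := Nat.Coprime.eq_one_of_dvd hNodd.symm h
        omega)
      (hBM.trans hMN)
    have hle : N ≤ centralizer ({b} : Set X) := by
      rw [hNsup]
      refine iSup_le fun B₀ => ?_
      intro z hz
      rw [mem_centralizer_iff]
      intro w hw
      have hw' : w = b := hw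
      rw [hw']
      exact hall B₀.1 B₀.2.1 B₀.2.2 z hz b hb
    exact mem_centralizer_iff.mp (hle hy) b rfl
  obtain ⟨B₀, hB₀B, hidx, y, hy, t, htB, hty⟩ := hex
  have htB₀ : t ∉ B₀ := fun h => hty (mem_centralizer_iff.mp hy.2 t h)
  have hidx2 : B₀.relIndex B = 2 := by
    have h0 : 0 < B₀.relIndex B := rel_pos _ _
    have h1 : B₀.relIndex B ≠ 1 := by
      intro h
      exact htB₀ (Subgroup.relIndex_eq_one.mp h htB)
    omega
  have hcard : 2 * Nat.card B₀ = n := by
    rw [← hn, ← hidx2]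
    exact NormQuot.relIndex_mul_card' hB₀B
  have hB₀card : Nat.card B₀ < n := by
    have : 0 < Nat.card B₀ := Nat.card_pos
    omega
  have hIH := ih _ hB₀card B₀ rfl (hB₀B.trans hBM) (ea_of_le hB hB₀B)
    (fun b hb h => hBf b (hB₀B hb) h)
  -- the element inverted by `t`
  have htM := hBM htB
  have ht2 : t * t = 1 := by
    have := hB.2 t htB
    rwa [pow_two] at this
  have htinv : t⁻¹ = t := inv_eq_of_mul_eq_one_left ht2
  set u₁ := y⁻¹ * (t * y * t⁻¹) with hu₁
  have hcommB : ∀ a ∈ B, ∀ b ∈ B, a * b = b * a := fun a ha b hb =>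
    congrArg Subtype.val (hB.1.is_comm.comm ⟨a, ha⟩ ⟨b, hb⟩)
  have hu₁Y : u₁ ∈ N ⊓ centralizer (B₀ : Set X) := by
    refine ⟨N.mul_mem (N.inv_mem hy.1) (conj_mem_of_normalizer (hMN htM) hy.1), ?_⟩
    refine Subgroup.mul_mem _ (Subgroup.inv_mem _ hy.2) ?_
    rw [mem_centralizer_iff]
    intro b hb
    have h1 : b * y = y * b := mem_centralizer_iff.mp hy.2 b hb
    have h2 : b * t = t * b := hcommB b (hB₀B hb) t htB
    have h2' : b * t⁻¹ = t⁻¹ * b := by
      rw [htinv]
      exact h2
    calc b * (t * y * t⁻¹) = (b * t) * y * t⁻¹ := by group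
      _ = t * (b * y) * t⁻¹ := by rw [h2]; group
      _ = t * y * (b * t⁻¹) := by rw [h1]; group
      _ = t * y * t⁻¹ * b := by rw [h2']; group
  have hu₁1 : u₁ ≠ 1 := by
    intro h
    apply hty
    have h1 : t * y * t⁻¹ = y := by
      have : y⁻¹ * (t * y * t⁻¹) = 1 := h
      calc t * y * t⁻¹ = y * (y⁻¹ * (t * y * t⁻¹)) := by group
        _ = y := by rw [this, mul_one]
    calc t * y = t * y * t⁻¹ * t := by group
      _ = y * t := by rw [h1]
  have hu₁inv : t * u₁ * t⁻¹ = u₁⁻¹ := by
    rw [hu₁, htinv]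
    calc t * (y⁻¹ * (t * y * t)) * t = t * y⁻¹ * t * y * (t * t) := by group
      _ = t * y⁻¹ * t * y := by rw [ht2, mul_one]
      _ = (y⁻¹ * (t * y * t))⁻¹ := by
        simp only [mul_inv_rev, inv_inv, htinv]
        group
  -- pass to prime order
  have hord1 : orderOf u₁ ≠ 1 := fun h => hu₁1 (orderOf_eq_one_iff.mp h)
  obtain ⟨r, hr, hrdvd⟩ := Nat.exists_prime_and_dvd hord1
  have hr2 : r ≠ 2 := by
    rintro rfl
    have h1 : orderOf (⟨u₁, hu₁Y.1⟩ : N) ∣ Nat.card N := orderOf_dvd_natCard _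
    rw [Subgroup.orderOf_mk] at h1
    have h2 := Nat.Coprime.eq_one_of_dvd hNodd.symm (hrdvd.trans h1)
    omega
  have hord0 : orderOf u₁ ≠ 0 := by
    exact (orderOf_pos u₁).ne'
  set u := u₁ ^ (orderOf u₁ / r) with hu
  have huord : orderOf u = r := orderOf_pow_orderOf_div hord0 hrdvd
  have huY : u ∈ N ⊓ centralizer (B₀ : Set X) := Subgroup.pow_mem _ hu₁Y _
  have huinv : t * u * t⁻¹ = u⁻¹ := by
    rw [hu, ← conj_pow, hu₁inv, inv_pow]
  have hu1 : u ≠ 1 := by
    intro h
    rw [h, orderOf_one] at huord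
    exact hr.one_lt.ne huord
  have hr3 : r ≠ 3 := by
    rintro rfl
    apply hS
    have hu3 : u ^ 3 = 1 := by
      rw [← huord]
      exact pow_orderOf_eq_one u
    have hmem : ∀ {z : X}, z ∈ M → z ∈ M := id
    -- the section lives in `M`
    have hM : Involves (Equiv.Perm (Fin 3)) M := by
      have h0 := involves_of_elements M htM (hNM huY.1) ht2 hu3 hu1 huinv
      exact h0
    exact hM
  have hr5 : 5 ≤ r := by
    have := hr.two_le
    by_contra h
    push Not at h
    interval_cases r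
    · omega
    · omega
    · exact absurd hr (by norm_num)
  -- `W`
  set W := V ⊓ centralizer (B₀ : Set X) with hW
  have hWea : IsElementaryAbelian 2 W := ea_of_le hV inf_le_left
  have hnormW : ∀ z ∈ M, z ∈ centralizer (B₀ : Set X) → z ∈ normalizer (W : Set X) := by
    intro z hzM hzc
    have hconj : ∀ z ∈ M, z ∈ centralizer (B₀ : Set X) → ∀ w ∈ W, z * w * z⁻¹ ∈ W := by
      intro z hzM hzc w hw
      refine ⟨conj_mem_of_normalizer (hMV hzM) hw.1, ?_⟩
      exact Subgroup.mul_mem _ (Subgroup.mul_mem _ hzc hw.2) (Subgroup.inv_mem _ hzc)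
    refine mem_normalizer_of_forall (hconj z hzM hzc) ?_
    intro w hw
    have := hconj z⁻¹ (M.inv_mem hzM) (Subgroup.inv_mem _ hzc) w hw
    simpa using this
  have htc : t ∈ centralizer (B₀ : Set X) := by
    rw [mem_centralizer_iff]
    intro b hb
    exact hcommB b (hB₀B hb) t htB
  have hucomm : ¬ ∀ w ∈ W, u * w = w * u := by
    intro hw
    have h1 := thompson_AB_elem (p := 2) (P := V) (R := B₀) (y := u) (isPGroup_of_ea hV)
      (isPGroup_of_ea (ea_of_le hB hB₀B))
      ((hB₀B.trans hBM).trans hMV) (hMV (hNM huY.1))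
      (fun r hr => (mem_centralizer_iff.mp huY.2 r hr).symm)
      (by
        rw [huord]
        exact (Nat.coprime_primes hr Nat.prime_two).mpr hr2)
      (fun c hc hcb => hw c ⟨hc, by
        show c ∈ centralizer (B₀ : Set X)
        rw [mem_centralizer_iff]
        intro b hb
        exact (hcb b hb).symm⟩)
    have h2 : u ∈ M ⊓ centralizer (V : Set X) := by
      refine ⟨hNM huY.1, ?_⟩
      show u ∈ centralizer (V : Set X)
      rw [mem_centralizer_iff]
      intro v hv
      exact (h1 v hv).symm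
    rw [hfaith] at h2
    exact hu1 h2
  have h4 := four_le W hWea ht2 (hnormW u (hNM huY.1) huY.2) huinv hr hr5 huord hucomm
  -- finishing the count
  set E := W ⊓ centralizer ({t} : Set X) with hE
  have hEW : E ≤ W := inf_le_left
  have hWV : W ≤ V := inf_le_left
  have hmul : E.relIndex W * W.relIndex V = E.relIndex V := Subgroup.relIndex_mul_relIndex _ _ _ hEW hWV
  have hle : V ⊓ centralizer (B : Set X) ≤ E := by
    intro x hx
    refine ⟨⟨hx.1, ?_⟩, ?_⟩
    · show x ∈ centralizer (B₀ : Set X)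
      rw [mem_centralizer_iff]
      intro b hb
      exact mem_centralizer_iff.mp hx.2 b (hB₀B hb)
    · show x ∈ centralizer ({t} : Set X)
      rw [mem_centralizer_iff]
      intro w hw
      have hw' : w = t := hw
      rw [hw']
      exact mem_centralizer_iff.mp hx.2 t htB
  have hdvd : E.relIndex V ∣ (V ⊓ centralizer (B : Set X)).relIndex V :=
    Subgroup.relIndex_dvd_of_le_left V hle
  have hpos : 0 < (V ⊓ centralizer (B : Set X)).relIndex V := rel_pos _ _
  have h5 := Nat.le_of_dvd hpos hdvd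
  have h6 : 4 * (Nat.card B₀) ^ 2 ≤ E.relIndex V := by
    rw [← hmul]
    exact Nat.mul_le_mul h4 hIH
  rw [← hcard]
  nlinarith

/-- Let M and V be subgroups of a finite group with V an elementary abelian 2-group, M normalizing V and acting faithfully on it (M ∩ C(V) = 1), and C_M(O_{2'}(M)) ≤ O_{2'}(M). If some elementary abelian 2-subgroup A of M satisfies |V : C_V(A)| < |A|², then M has a section isomorphic to the symmetric group of degree 3. -/
theorem result {X : Type*} [Group X] [Finite X] (M V : Subgroup X) (hV : Cfsg.IsElementaryAbelian 2 V) (hMV : M ≤ Subgroup.normalizer (V : Set X)) (hfaith : M ⊓ Subgroup.centralizer (V : Set X) = ⊥) (hcon : Subgroup.centralizer (Cfsg.pPrimeCore 2 ↥M : Set ↥M) ≤ Cfsg.pPrimeCore 2 ↥M) (A : Subgroup X) (hAM : A ≤ M) (hA : Cfsg.IsElementaryAbelian 2 A) (hsmall : (V ⊓ Subgroup.centralizer (A : Set X)).relIndex V < Nat.card A ^ 2) : Cfsg.Involves (Equiv.Perm (Fin 3)) ↥M := by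
  by_contra hS
  set N := (pPrimeCore 2 ↥M).map M.subtype with hN
  have hNM : N ≤ M := Subgroup.map_subtype_le _
  have hMN : M ≤ normalizer (N : Set X) := by
    intro x hx
    exact Cfsg.Agent.S3736.mem_normalizer_map_of_characteristic M (pPrimeCore 2 ↥M) (le_normalizer hx)
  have hNodd : (Nat.card N).Coprime 2 := by
    have h2 : Nat.card N = Nat.card (pPrimeCore 2 M) :=
      (Nat.card_congr (Subgroup.equivMapOfInjective _ _ M.subtype_injective).toEquiv).symm
    rw [h2]
    exact PCore.card_pPrimeCore_coprime (G := M) 2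
  have hf : ∀ b ∈ A, (∀ y ∈ N, b * y = y * b) → b = 1 := by
    intro b hb hc
    have h1 : (⟨b, hAM hb⟩ : M) ∈ centralizer (pPrimeCore 2 ↥M : Set ↥M) := by
      rw [mem_centralizer_iff]
      intro y hy
      apply Subtype.ext
      exact (hc y.1 ⟨y, hy, rfl⟩).symm
    have h2 := hcon h1
    have h3 : b ∈ N := ⟨_, h2, rfl⟩
    have h4 : orderOf (⟨b, h3⟩ : N) ∣ Nat.card N := orderOf_dvd_natCard _
    have h5 : orderOf (⟨b, h3⟩ : N) ∣ 2 := by
      apply orderOf_dvd_of_pow_eq_one
      apply Subtype.ext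
      simpa using hA.2 b hb
    have h6 := Nat.eq_one_of_dvd_coprimes hNodd h4 h5
    have h7 := orderOf_eq_one_iff.mp h6
    exact congrArg Subtype.val h7
  have := main_ineq M V N hV hMV hfaith hNM hMN hNodd hS _ A rfl hAM hA hf
  omega

end Cfsg.Agent.S3755
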