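import Mathlib
import Cfsg.Statements.S3760

set_option autoImplicit false
open Cfsg

namespace Cfsg.Agent.S3760

theorem map_conj_mul {G : Type*} [Group G] (K : Subgroup G) (g n : G)
    (hn : n ∈ Subgroup.normalizer (K : Set G)) :
    K.map (MulAut.conj (g * n)).toMonoidHom = K.map (MulAut.conj g).toMonoidHom := by
  have hn' := Subgroup.mem_normalizer_iff.mp hn
  ext y
  simp only [Subgroup.mem_map, MulEquiv.coe_toMonoidHom, MulAut.conj_apply]
  constructor
  · rintro ⟨k, hk, rfl⟩
    exact ⟨n * k * n⁻¹, (hn' k).mp hk, by group⟩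
  · rintro ⟨k, hk, rfl⟩
    refine ⟨n⁻¹ * k * n, ?_, by group⟩
    apply (hn' _).mpr
    have : n * (n⁻¹ * k * n) * n⁻¹ = k := by group
    rwa [this]

/-- Let the group G act transitively on a set X, let x ∈ X with stabilizer H = G_x, and let K ≤ H. Then N_G(K) acts transitively on the set of fixed points of K if and only if every G-conjugate of K contained in H is already an H-conjugate of K. -/
theorem result {G : Type*} [Group G] {X : Type*} [MulAction G X] (htrans : ∀ a b : X, ∃ g : G, g • a = b) (x : X) (K : Subgroup G) (hK : K ≤ MulAction.stabilizer G x) : (∀ a b : X, (∀ k ∈ K, k • a = a) → (∀ k ∈ K, k • b = b) → ∃ g ∈ Subgroup.normalizer (K : Set G), g • a = b) ↔ ∀ g : G, K.map (MulAut.conj g).toMonoidHom ≤ MulAction.stabilizer G x → ∃ h ∈ MulAction.stabilizer G x, K.map (MulAut.conj g).toMonoidHom = K.map (MulAut.conj h).toMonoidHom := by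
  constructor
  · intro h g hg
    have hfix : ∀ k ∈ K, k • (g⁻¹ • x) = g⁻¹ • x := by
      intro k hk
      have h1 : g * k * g⁻¹ ∈ MulAction.stabilizer G x :=
        hg (Subgroup.mem_map.mpr ⟨k, hk, by simp⟩)
      have h2 : (g * k * g⁻¹) • x = x := h1
      calc k • (g⁻¹ • x) = g⁻¹ • ((g * k * g⁻¹) • x) := by simp [mul_smul]
        _ = g⁻¹ • x := by rw [h2]
    obtain ⟨n, hn, hnx⟩ := h x (g⁻¹ • x) (fun k hk => hK hk) hfix
    refine ⟨g * n, ?_, (map_conj_mul K g n hn).symm⟩
    show (g * n) • x = x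
    rw [mul_smul, hnx]; simp
  · intro h a b ha hb
    -- every fixed point can be moved to x by an element of the normalizer
    have key : ∀ c : X, (∀ k ∈ K, k • c = c) →
        ∃ n ∈ Subgroup.normalizer (K : Set G), n • c = x := by
      intro c hc
      obtain ⟨g, hg⟩ := htrans x c
      have hle : K.map (MulAut.conj g⁻¹).toMonoidHom ≤ MulAction.stabilizer G x := by
        rintro _ ⟨k, hk, rfl⟩
        show (g⁻¹ * k * g⁻¹⁻¹) • x = x
        have h3 := hc k hk
        rw [← hg] at h3
        simp only [inv_inv, mul_smul]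
        rw [h3]; simp
      obtain ⟨s, hs, hse⟩ := h g⁻¹ hle
      have hs' : s • x = x := hs
      refine ⟨s⁻¹ * g⁻¹, ?_, ?_⟩
      · rw [Subgroup.mem_normalizer_iff_map_conj_eq]
        have : (K.map (MulAut.conj (s⁻¹ * g⁻¹)).toMonoidHom) =
            (K.map (MulAut.conj g⁻¹).toMonoidHom).map (MulAut.conj s⁻¹).toMonoidHom := by
          rw [Subgroup.map_map]
          congr 1
          ext y
          simp [mul_assoc]
        have h5 : (K.map (MulAut.conj s).toMonoidHom).map (MulAut.conj s⁻¹).toMonoidHom = K := by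
          ext y
          simp only [Subgroup.mem_map, MulEquiv.coe_toMonoidHom, MulAut.conj_apply]
          constructor
          · rintro ⟨_, ⟨k, hk, rfl⟩, rfl⟩
            have : s⁻¹ * (s * k * s⁻¹) * s⁻¹⁻¹ = k := by group
            rwa [this]
          · intro hy
            exact ⟨s * y * s⁻¹, ⟨y, hy, rfl⟩, by group⟩
        show K.map (MulAut.conj (s⁻¹ * g⁻¹)).toMonoidHom = K
        rw [this, hse, h5]
      · rw [mul_smul, ← hg]
        simp only [inv_smul_smul]
        rw [inv_smul_eq_iff, hs']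
    obtain ⟨n₁, hn₁, h₁⟩ := key a ha
    obtain ⟨n₂, hn₂, h₂⟩ := key b hb
    refine ⟨n₂⁻¹ * n₁, mul_mem (inv_mem hn₂) hn₁, ?_⟩
    rw [mul_smul, h₁, ← h₂]; simp

end Cfsg.Agent.S3760
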