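import Mathlib
import Cfsg.Agent.Lib.ExtraES2
import Cfsg.Agent.Lib.ExtraBasics
import Cfsg.Agent.Lib.LocalCore
import Cfsg.Statements.S3763

set_option autoImplicit false
open Cfsg
open scoped commutatorElement

namespace Cfsg.Agent.S3763

open Cfsg.Agent.Lib.ExtraES Cfsg.Agent.Lib.ExtraES2

universe u v

section basic

variable {E : Type*} [Group E]

/-- Elementary abelian `2`-subgroups, elementwise. -/
def EA (A : Subgroup E) : Prop := (∀ a ∈ A, ∀ b ∈ A, a * b = b * a) ∧ ∀ a ∈ A, a ^ 2 = 1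

theorem prankLE_iff (k : ℕ) : PRankLE 2 k E ↔ ∀ A : Subgroup E, EA A → Nat.card A ≤ 2 ^ k := by
  constructor
  · intro h A hA
    exact h A ⟨⟨fun a b => Subtype.ext (hA.1 a a.2 b b.2)⟩⟩ hA.2
  · intro h A hc hp
    refine h A ⟨fun a ha b hb => ?_, hp⟩
    exact congrArg Subtype.val (hc.is_comm.comm ⟨a, ha⟩ ⟨b, hb⟩)

theorem EA.sup_zpowers {A : Subgroup E} (hA : EA A) {x : E} (hx : x ^ 2 = 1)
    (hc : ∀ a ∈ A, a * x = x * a) : EA (A ⊔ Subgroup.zpowers x) := by
  have hcz : ∀ a ∈ A, ∀ b ∈ Subgroup.zpowers x, a * b = b * a := by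
    intro a ha b hb
    obtain ⟨k, rfl⟩ := hb
    exact ((show Commute a x from hc a ha).zpow_right k)
  have hzz : ∀ b ∈ Subgroup.zpowers x, ∀ b' ∈ Subgroup.zpowers x, b * b' = b' * b := by
    intro b hb b' hb'
    obtain ⟨k, rfl⟩ := hb
    obtain ⟨l, rfl⟩ := hb'
    exact ((Commute.refl x).zpow_zpow k l)
  have hcomm : ⁅A, Subgroup.zpowers x⁆ = ⊥ :=
    Cfsg.Agent.Lib.LocalCore.commutator_eq_bot_iff_elementwise.mpr (fun a ha b hb => hcz a ha b hb)
  have hzsq : ∀ b ∈ Subgroup.zpowers x, b ^ 2 = 1 := by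
    intro b hb
    obtain ⟨k, rfl⟩ := hb
    simp only
    rw [← zpow_natCast, ← zpow_mul, mul_comm, zpow_mul, zpow_natCast, hx, one_zpow]
  constructor
  · intro a ha b hb
    obtain ⟨a₁, ha₁, a₂, ha₂, rfl⟩ := Cfsg.Agent.Lib.LocalCore.mem_sup_of_commute hcomm ha
    obtain ⟨b₁, hb₁, b₂, hb₂, rfl⟩ := Cfsg.Agent.Lib.LocalCore.mem_sup_of_commute hcomm hb
    have h1 : Commute a₁ b₁ := hA.1 a₁ ha₁ b₁ hb₁
    have h2 : Commute a₁ b₂ := hcz a₁ ha₁ b₂ hb₂
    have h3 : Commute a₂ b₁ := (hcz b₁ hb₁ a₂ ha₂).symm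
    have h4 : Commute a₂ b₂ := hzz a₂ ha₂ b₂ hb₂
    exact Commute.mul_left (Commute.mul_right h1 h2) (Commute.mul_right h3 h4)
  · intro a ha
    obtain ⟨a₁, ha₁, a₂, ha₂, rfl⟩ := Cfsg.Agent.Lib.LocalCore.mem_sup_of_commute hcomm ha
    have hcm : Commute a₁ a₂ := hcz a₁ ha₁ a₂ ha₂
    rw [hcm.mul_pow, hA.2 a₁ ha₁, hzsq a₂ ha₂, one_mul]

theorem two_mul_card_le [Finite E] {A : Subgroup E} {x : E} (hx : x ∉ A) :
    2 * Nat.card A ≤ Nat.card (A ⊔ Subgroup.zpowers x : Subgroup E) := by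
  have hle : A ≤ A ⊔ Subgroup.zpowers x := le_sup_left
  obtain ⟨t, ht⟩ := Subgroup.card_dvd_of_le hle
  have hpos : 0 < Nat.card (A ⊔ Subgroup.zpowers x : Subgroup E) := Nat.card_pos
  have ht0 : t ≠ 0 := by
    rintro rfl
    omega
  have ht1 : t ≠ 1 := by
    rintro rfl
    have := Subgroup.eq_of_le_of_card_ge hle (by rw [ht, mul_one])
    apply hx
    rw [this]
    exact Subgroup.mem_sup_right (Subgroup.mem_zpowers x)
  have h2 : 2 ≤ t := by omega
  rw [ht, mul_comm]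
  exact Nat.mul_le_mul_left _ h2

variable {z : E}

theorem card_le_two_mul [Finite E] (h : ES 2 E z) (w : E) (A : Subgroup E) :
    Nat.card A ≤ 2 * Nat.card (A ⊓ Subgroup.centralizer ({w} : Set E) : Subgroup E) := by
  let f : A →* Subgroup.zpowers z := (h.comHom w).comp A.subtype
  have h1 := Subgroup.card_mul_index f.ker
  rw [Subgroup.index_ker] at h1
  have hr : Nat.card f.range ≤ 2 := by
    have : Nat.card f.range ≤ Nat.card (Subgroup.zpowers z) := Subgroup.card_le_card_group _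
    rwa [Nat.card_zpowers, h.order] at this
  have hk : Nat.card f.ker = Nat.card (A ⊓ Subgroup.centralizer ({w} : Set E) : Subgroup E) := by
    have hmap : (f.ker).map A.subtype = A ⊓ Subgroup.centralizer ({w} : Set E) := by
      ext c
      constructor
      · rintro ⟨⟨c', hc'⟩, hk, rfl⟩
        refine ⟨hc', ?_⟩
        show c' ∈ Subgroup.centralizer ({w} : Set E)
        rw [Subgroup.mem_centralizer_singleton_iff]
        have : ⁅w, c'⁆ = 1 := congrArg Subtype.val hk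
        rw [commutatorElement_eq_one_iff_mul_comm] at this
        exact this.symm
      · rintro ⟨hcA, hcC⟩
        have hcC' : c ∈ Subgroup.centralizer ({w} : Set E) := hcC
        rw [Subgroup.mem_centralizer_singleton_iff] at hcC'
        refine ⟨⟨c, hcA⟩, ?_, rfl⟩
        show f ⟨c, hcA⟩ = 1
        apply Subtype.ext
        show ⁅w, c⁆ = 1
        rw [commutatorElement_eq_one_iff_mul_comm]
        exact hcC'.symm
    rw [← hmap]
    exact (Nat.card_congr (Subgroup.equivMapOfInjective _ _ A.subtype_injective).toEquiv)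
  rw [hk] at h1
  rw [← h1, mul_comm]
  exact Nat.mul_le_mul_right _ hr

theorem not_rank_zero [Finite E] (h : ES 2 E z) : ¬ PRankLE 2 0 E := by
  intro hr
  have hEA : EA (Subgroup.zpowers z) := by
    constructor
    · intro a ha b hb
      obtain ⟨k, rfl⟩ := ha
      obtain ⟨l, rfl⟩ := hb
      exact ((Commute.refl z).zpow_zpow k l)
    · intro a ha
      obtain ⟨k, rfl⟩ := ha
      simp only
      rw [← zpow_natCast, ← zpow_mul, mul_comm, zpow_mul, zpow_natCast, zsq h, one_zpow]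
  have := (prankLE_iff 0).1 hr _ hEA
  rw [Nat.card_zpowers, h.order] at this
  norm_num at this

/-- The rank drops by exactly one on passing to the centralizer of a hyperbolic pair. -/
theorem rank_rel [Finite E] (h : ES 2 E z) {x y : E} (hx : x ^ 2 = 1) (hy : y ^ 2 = 1)
    (hxy : ⁅x, y⁆ = z) (k : ℕ) : PRankLE 2 (k + 1) E ↔ PRankLE 2 k (Cn x y) := by
  have hxyne : y * x ≠ x * y := by
    intro he
    apply z_ne_one h
    rw [← hxy, commutatorElement_eq_one_iff_mul_comm]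
    exact he.symm
  rw [prankLE_iff, prankLE_iff]
  constructor
  · intro hr A₀ hA₀
    -- push into `E` and adjoin `x`
    set A' : Subgroup E := A₀.map (Cn x y).subtype with hA'
    have hcard : Nat.card A' = Nat.card A₀ :=
      (Nat.card_congr (Subgroup.equivMapOfInjective _ _ (Cn x y).subtype_injective).toEquiv).symm
    have hA'EA : EA A' := by
      constructor
      · rintro _ ⟨a, ha, rfl⟩ _ ⟨b, hb, rfl⟩
        exact congrArg Subtype.val (hA₀.1 a ha b hb)
      · rintro _ ⟨a, ha, rfl⟩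
        exact congrArg Subtype.val (hA₀.2 a ha)
    have hcA : ∀ a ∈ A', a * x = x * a := by
      rintro _ ⟨a, ha, rfl⟩
      exact (mem_Cn.1 a.2).1.symm
    have hxA : x ∉ A' := by
      rintro ⟨a, ha, hax⟩
      apply hxyne
      have := (mem_Cn.1 a.2).2
      simp only [Subgroup.subtype_apply] at hax
      rw [hax] at this
      exact this
    have h1 := hr _ (hA'EA.sup_zpowers hx hcA)
    have h2 := two_mul_card_le hxA
    rw [hcard] at h2
    rw [pow_succ] at h1
    omega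
  · intro hr A hA
    -- first step: pass to the part of `A` centralizing `x` and adjoin `x`
    set A₁ : Subgroup E := A ⊓ Subgroup.centralizer ({x} : Set E) with hA₁
    have hA₁EA : EA A₁ :=
      ⟨fun a ha b hb => hA.1 a ha.1 b hb.1, fun a ha => hA.2 a ha.1⟩
    have hcA₁ : ∀ a ∈ A₁, a * x = x * a := by
      intro a ha
      have : a ∈ Subgroup.centralizer ({x} : Set E) := ha.2
      rw [Subgroup.mem_centralizer_singleton_iff] at this
      exact this
    set A₂ : Subgroup E := A₁ ⊔ Subgroup.zpowers x with hA₂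
    have hA₂EA : EA A₂ := hA₁EA.sup_zpowers hx hcA₁
    have hAA₂ : Nat.card A ≤ Nat.card A₂ := by
      by_cases hxA : x ∈ A
      · have hle : A ≤ A₂ := by
          intro a ha
          refine Subgroup.mem_sup_left ⟨ha, ?_⟩
          show a ∈ Subgroup.centralizer ({x} : Set E)
          rw [Subgroup.mem_centralizer_singleton_iff]
          exact hA.1 a ha x hxA
        exact Subgroup.card_le_of_le hle
      · have hxA₁ : x ∉ A₁ := fun hh => hxA hh.1
        have h1 : 2 * Nat.card A₁ ≤ Nat.card A₂ := two_mul_card_le hxA₁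
        have h2 : Nat.card A ≤ 2 * Nat.card A₁ := card_le_two_mul h x A
        omega
    -- second step: the part of `A₂` centralizing `y`
    set A₀ : Subgroup E := A₂ ⊓ Subgroup.centralizer ({y} : Set E) with hA₀
    have hA₂A₀ : Nat.card A₂ ≤ 2 * Nat.card A₀ := card_le_two_mul h y A₂
    have hxA₂ : x ∈ A₂ := Subgroup.mem_sup_right (Subgroup.mem_zpowers x)
    have hA₀C : A₀ ≤ Cn x y := by
      intro a ha
      have hay : a ∈ Subgroup.centralizer ({y} : Set E) := ha.2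
      rw [Subgroup.mem_centralizer_singleton_iff] at hay
      exact mem_Cn.2 ⟨(hA₂EA.1 a ha.1 x hxA₂).symm, hay.symm⟩
    have hB : EA (A₀.subgroupOf (Cn x y)) := by
      constructor
      · intro a ha b hb
        apply Subtype.ext
        exact hA₂EA.1 a (Subgroup.mem_subgroupOf.1 ha).1 b (Subgroup.mem_subgroupOf.1 hb).1
      · intro a ha
        apply Subtype.ext
        exact hA₂EA.2 a (Subgroup.mem_subgroupOf.1 ha).1
    have h3 := hr _ hB
    have h4 : Nat.card (A₀.subgroupOf (Cn x y)) = Nat.card A₀ :=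
      Nat.card_congr (Subgroup.subgroupOfEquivOfLe hA₀C).toEquiv
    rw [h4] at h3
    rw [pow_succ]
    omega

theorem rank_one_of_not_typeD [Finite E] (h : ES 2 E z) (hD : ¬ TypeD E) : PRankLE 2 1 E := by
  rw [prankLE_iff]
  intro A hA
  have hle : A ≤ Subgroup.zpowers z := by
    intro a ha
    have hc : ∀ g : E, g * a = a * g := by
      intro g
      by_contra hne
      exact hD ⟨a, hA.2 a ha, g, hne⟩
    obtain ⟨k, rfl⟩ := h.center_le a hc
    exact pow_mem (Subgroup.mem_zpowers z) k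
  have := Subgroup.card_le_of_le hle
  rw [Nat.card_zpowers, h.order] at this
  simpa using this

theorem not_rank_one_of_typeD [Finite E] (h : ES 2 E z) (hD : TypeD E) : ¬ PRankLE 2 1 E := by
  obtain ⟨x, y, hx, hy, hxy⟩ := pair_D h hD
  obtain ⟨hz, hC⟩ := h.Cn_ES hxy
  intro hr
  exact not_rank_zero hC ((rank_rel h hx hy hxy 0).1 hr)

theorem typeD_iff [Finite E] (h : ES 2 E z) : TypeD E ↔ ¬ PRankLE 2 1 E :=
  ⟨not_rank_one_of_typeD h, fun hr => by
    by_contra hD
    exact hr (rank_one_of_not_typeD h hD)⟩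

theorem card_of_not_typeD [Finite E] (h : ES 2 E z) (n : ℕ) (c : Nat.card E = 2 ^ (2 * (n + 1) + 1))
    (hD : ¬ TypeD E) : Nat.card E = 8 := by
  have : Fact (Nat.Prime 2) := ⟨Nat.prime_two⟩
  have h8 : 8 ≤ Nat.card E := by
    rw [c]
    calc 8 = 2 ^ 3 := by norm_num
      _ ≤ 2 ^ (2 * (n + 1) + 1) := Nat.pow_le_pow_right (by norm_num) (by omega)
  by_contra hne
  exact hD (typeD_of_large h (by omega) (noncomm_of_card h (by omega)))

theorem card_Cn_eq [Finite E] (h : ES 2 E z) {x y : E} (hxy : ⁅x, y⁆ = z) (n : ℕ)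
    (c : Nat.card E = 2 ^ (2 * (n + 1) + 1)) : Nat.card (Cn x y) = 2 ^ (2 * n + 1) := by
  have := h.card_eq hxy
  rw [c] at this
  have e : 2 ^ (2 * (n + 1) + 1) = 2 ^ 2 * 2 ^ (2 * n + 1) := by ring
  rw [e] at this
  exact (Nat.eq_of_mul_eq_mul_left (by norm_num) this).symm

end basic

/-- The rank alternative. -/
theorem rank_disj : ∀ (n : ℕ) (E : Type u) [Group E] [Finite E] (z : E), ES 2 E z →
    Nat.card E = 2 ^ (2 * n + 1) →
    ((PRankLE 2 n E ∧ ¬ PRankLE 2 (n - 1) E) ∨ (PRankLE 2 (n + 1) E ∧ ¬ PRankLE 2 n E)) := by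
  intro n
  induction n with
  | zero =>
    intro E _ _ z h c
    right
    refine ⟨?_, not_rank_zero h⟩
    rw [prankLE_iff]
    intro A _
    have := Subgroup.card_le_card_group A
    rw [c] at this
    simpa using this
  | succ n ih =>
    intro E _ _ z h c
    by_cases hD : TypeD E
    · obtain ⟨x, y, hx, hy, hxy⟩ := pair_D h hD
      obtain ⟨hz, hC⟩ := h.Cn_ES hxy
      rcases ih (Cn x y) ⟨z, hz⟩ hC (card_Cn_eq h hxy n c) with ⟨h1, h2⟩ | ⟨h1, h2⟩
      · left
        refine ⟨(rank_rel h hx hy hxy n).2 h1, ?_⟩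
        rw [Nat.add_sub_cancel]
        cases n with
        | zero => exact not_rank_zero h
        | succ m =>
          intro hh
          exact h2 ((rank_rel h hx hy hxy m).1 hh)
      · right
        refine ⟨(rank_rel h hx hy hxy (n + 1)).2 h1, ?_⟩
        intro hh
        exact h2 ((rank_rel h hx hy hxy n).1 hh)
    · have h8 := card_of_not_typeD h n c hD
      have hn : n = 0 := by
        by_contra hn
        obtain ⟨m, rfl⟩ := Nat.exists_eq_succ_of_ne_zero hn
        rw [c] at h8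
        have : 2 ^ 4 ≤ 2 ^ (2 * (m + 1 + 1) + 1) := Nat.pow_le_pow_right (by norm_num) (by omega)
        rw [h8] at this
        norm_num at this
      subst hn
      left
      exact ⟨rank_one_of_not_typeD h hD, not_rank_zero h⟩

/-- Equal ranks and equal orders force isomorphism. -/
theorem iso_of_rank : ∀ (n : ℕ) (E₁ : Type u) (E₂ : Type v) [Group E₁] [Group E₂]
    [Finite E₁] [Finite E₂] (z₁ : E₁) (z₂ : E₂),
    ES 2 E₁ z₁ → ES 2 E₂ z₂ → Nat.card E₁ = 2 ^ (2 * n + 1) → Nat.card E₂ = 2 ^ (2 * n + 1) →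
    (∀ k : ℕ, PRankLE 2 k E₁ ↔ PRankLE 2 k E₂) → Nonempty (E₁ ≃* E₂) := by
  have : Fact (Nat.Prime 2) := ⟨Nat.prime_two⟩
  intro n
  induction n with
  | zero =>
    intro E₁ E₂ _ _ _ _ z₁ z₂ h₁ h₂ c₁ c₂ _
    exact ⟨mulEquivOfPrimeCardEq (p := 2) (by simpa using c₁) (by simpa using c₂)⟩
  | succ n ih =>
    intro E₁ E₂ _ _ _ _ z₁ z₂ h₁ h₂ c₁ c₂ hr
    have ht : TypeD E₁ ↔ TypeD E₂ := by
      rw [typeD_iff h₁, typeD_iff h₂, hr 1]
    by_cases hD : TypeD E₁
    · obtain ⟨x₁, y₁, hx₁, hy₁, hxy₁⟩ := pair_D h₁ hD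
      obtain ⟨x₂, y₂, hx₂, hy₂, hxy₂⟩ := pair_D h₂ (ht.1 hD)
      obtain ⟨hz₁, hC₁⟩ := h₁.Cn_ES hxy₁
      obtain ⟨hz₂, hC₂⟩ := h₂.Cn_ES hxy₂
      obtain ⟨ψ⟩ := ih (Cn x₁ y₁) (Cn x₂ y₂) ⟨z₁, hz₁⟩ ⟨z₂, hz₂⟩ hC₁ hC₂
        (card_Cn_eq h₁ hxy₁ n c₁) (card_Cn_eq h₂ hxy₂ n c₂) (fun k => by
          rw [← rank_rel h₁ hx₁ hy₁ hxy₁ k, ← rank_rel h₂ hx₂ hy₂ hxy₂ k, hr])
      exact glue2 h₁ h₂ hxy₁ hxy₂ (Or.inl ⟨hx₁, hx₂⟩) (Or.inl ⟨hy₁, hy₂⟩) ψ
    · have hD₂ : ¬ TypeD E₂ := fun h => hD (ht.2 h)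
      exact iso_of_same_type h₁ h₂ (card_of_not_typeD h₁ n c₁ hD) (card_of_not_typeD h₂ n c₂ hD₂) ht

/-- Let E be an extraspecial 2-group of order 2^(2n+1). Then the largest elementary abelian subgroups of E have order 2^n or 2^(n+1); and two extraspecial 2-groups of the same order whose largest elementary abelian subgroups have the same order are isomorphic. -/
theorem result {E : Type*} [Group E] [Finite E] (hE : Cfsg.IsExtraspecial 2 E) (n : ℕ) (hn : Nat.card E = 2 ^ (2 * n + 1)) : ((Cfsg.PRankLE 2 n E ∧ ¬ Cfsg.PRankLE 2 (n - 1) E) ∨ (Cfsg.PRankLE 2 (n + 1) E ∧ ¬ Cfsg.PRankLE 2 n E)) ∧ ∀ (E' : Type*) [Group E'] [Finite E'], Cfsg.IsExtraspecial 2 E' → Nat.card E' = Nat.card E → (∀ k : ℕ, Cfsg.PRankLE 2 k E ↔ Cfsg.PRankLE 2 k E') → Nonempty (E ≃* E') := by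
  have : Fact (Nat.Prime 2) := ⟨Nat.prime_two⟩
  obtain ⟨z, h⟩ := exists_ES hE
  refine ⟨rank_disj n E z h hn, ?_⟩
  intro E' _ _ hE' c hr
  obtain ⟨z', h'⟩ := exists_ES hE'
  exact iso_of_rank n E E' z z' h h' hn (by rw [c, hn]) hr

end Cfsg.Agent.S3763
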