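import Mathlib
import Cfsg.Statements.S3764
import Cfsg.Agent.Lib.HHFree
import Cfsg.Agent.Lib.FFBridge
import Cfsg.Agent.Lib.ExtraBasics
-- import your own Cfsg.Agent.* helpers here

set_option autoImplicit false
set_option linter.style.haveILetI false
set_option linter.unusedVariables false
open Cfsg

namespace Cfsg.Agent.S3764

open scoped commutatorElement

/-- Let p, q, r be distinct primes and let X, Q, V be subgroups of a finite group with X of order r, Q an extraspecial q-group normalized by X with C_Q(X) = Z(Q), and V an elementary abelian p-group normalized by X and Q on which XQ acts faithfully ((X ⊔ Q) ∩ C(V) = 1). If C_V(X) = 1, then q = 2, r = 2^n + 1 for some n, and Q has order 2^(2n+1). -/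
theorem result {G : Type*} [Group G] [Finite G] {p q r : ℕ} (hp : p.Prime) (hq : q.Prime) (hr : r.Prime) (hpq : p ≠ q) (hpr : p ≠ r) (hqr : q ≠ r) (X Q V : Subgroup G) (hX : Nat.card X = r) (hQ : Cfsg.IsExtraspecial q ↥Q) (hXQ : X ≤ Subgroup.normalizer (Q : Set G)) (hCQ : Q ⊓ Subgroup.centralizer (X : Set G) = (Subgroup.center ↥Q).map Q.subtype) (hV : Cfsg.IsElementaryAbelian p V) (hXV : X ≤ Subgroup.normalizer (V : Set G)) (hQV : Q ≤ Subgroup.normalizer (V : Set G)) (hfaith : (X ⊔ Q) ⊓ Subgroup.centralizer (V : Set G) = ⊥) (hCV : V ⊓ Subgroup.centralizer (X : Set G) = ⊥) : q = 2 ∧ ∃ n : ℕ, r = 2 ^ n + 1 ∧ Nat.card Q = 2 ^ (2 * n + 1) := by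
  classical
  haveI : Fact p.Prime := ⟨hp⟩
  haveI : Fact q.Prime := ⟨hq⟩
  haveI : Fact r.Prime := ⟨hr⟩
  set H : Subgroup G := X ⊔ Q with hH
  have hHV : H ≤ Subgroup.normalizer (V : Set G) := sup_le hXV hQV
  obtain ⟨E, _, _, _, ρ₀, ι, hm⟩ := Cfsg.Agent.Lib.FFBridge.exists_model hV hHV
  obtain ⟨U, _, _, _, ρ, h1, h2, -⟩ := Cfsg.Agent.Lib.HHFree.exists_closure_rep ρ₀
  have hXH : X ≤ H := le_sup_left
  have hQH : Q ≤ H := le_sup_right
  -- faithfulness
  have hρ : Function.Injective ρ := by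
    rw [injective_iff_map_eq_one]
    intro h hh
    have h3 := h1 h hh
    apply Subtype.ext
    have h4 : (h : G) ∈ H ⊓ Subgroup.centralizer (V : Set G) := by
      refine ⟨h.2, ?_⟩
      show (h : G) ∈ Subgroup.centralizer (V : Set G)
      rw [Subgroup.mem_centralizer_iff]
      intro v hv
      obtain ⟨e, rfl⟩ := hm.exists_of_mem hv
      have h5 := hm.act h e
      rw [h3] at h5
      have h6 : ι (Multiplicative.ofAdd e) = h * ι (Multiplicative.ofAdd e) * (h : G)⁻¹ := h5
      calc ι (Multiplicative.ofAdd e) * h = (h * ι (Multiplicative.ofAdd e) * (h : G)⁻¹) * h := by rw [← h6]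
        _ = h * ι (Multiplicative.ofAdd e) := by group
    rw [hfaith] at h4
    exact h4
  -- a generator
  haveI : IsCyclic X := isCyclic_of_prime_card hX
  obtain ⟨⟨x, hxX⟩, hgen⟩ := IsCyclic.exists_generator (α := X)
  have hord : orderOf x = r := by
    have := orderOf_eq_card_of_forall_mem_zpowers hgen
    rwa [Subgroup.orderOf_mk, hX] at this
  have hXz : X = Subgroup.zpowers x := by
    apply le_antisymm
    · intro g hg
      obtain ⟨k, hk⟩ := hgen ⟨g, hg⟩
      refine ⟨k, ?_⟩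
      exact congrArg Subtype.val hk
    · rw [Subgroup.zpowers_le]
      exact hxX
  have hxs : x ^ r = 1 := by rw [← hord]; exact pow_orderOf_eq_one x
  let x' : H := ⟨x, hXH hxX⟩
  have hxs' : x' ^ r = 1 := Subtype.ext hxs
  -- the extraspecial structure in `G`
  set Φ : Subgroup G := (Subgroup.center ↥Q).map Q.subtype with hΦ
  obtain ⟨⟨hpg, hfr, hcomm⟩, hZ⟩ := id hQ
  obtain ⟨n, hn1, hcard⟩ := Cfsg.Agent.Lib.ExtraBasics.card_of_isExtraspecial hQ
  have hΦQ : Φ ≤ Q := Subgroup.map_subtype_le _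
  have hCQ' : Q ⊓ Subgroup.centralizer (X : Set G) = Φ := hCQ
  have hΦcard : Nat.card Φ = q := by
    rw [hΦ, Subgroup.card_map_of_injective Q.subtype_injective, hZ]
  have hcomQ : ∀ g ∈ Q, ∀ h ∈ Q, ⁅g, h⁆ ∈ Φ := by
    intro g hg h hh
    have h3 : ⁅(⟨g, hg⟩ : Q), (⟨h, hh⟩ : Q)⁆ ∈ Subgroup.center ↥Q := by
      rw [← hcomm]
      exact Subgroup.commutator_mem_commutator (Subgroup.mem_top _) (Subgroup.mem_top _)
    exact ⟨_, h3, rfl⟩
  have hΦcen : ∀ f ∈ Φ, ∀ g ∈ Q, f * g = g * f := by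
    rintro _ ⟨f, hf, rfl⟩ g hg
    have := (Subgroup.mem_center_iff.1 hf) ⟨g, hg⟩
    exact (congrArg Subtype.val this).symm
  have hmemΦ : ∀ g ∈ Q, (∀ h ∈ Q, h * g = g * h) → g ∈ Φ := by
    intro g hg hc
    refine ⟨⟨g, hg⟩, ?_, rfl⟩
    show (⟨g, hg⟩ : Q) ∈ Subgroup.center ↥Q
    rw [Subgroup.mem_center_iff]
    intro h
    exact Subtype.ext (hc h h.2)
  have hΦx : ∀ f ∈ Φ, x * f = f * x := by
    intro f hf
    rw [← hCQ'] at hf
    have h3 : f ∈ Subgroup.centralizer (X : Set G) := hf.2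
    rw [Subgroup.mem_centralizer_iff] at h3
    exact h3 x hxX
  have hfix : ∀ g ∈ Q, x * g = g * x → g ∈ Φ := by
    intro g hg hgx
    rw [← hCQ']
    refine ⟨hg, ?_⟩
    show g ∈ Subgroup.centralizer (X : Set G)
    rw [Subgroup.mem_centralizer_iff, hXz]
    intro y hy
    obtain ⟨k, rfl⟩ := Subgroup.mem_zpowers_iff.1 hy
    have hc : Commute x g := hgx
    exact hc.zpow_left k
  let Q' : Subgroup H := Q.subgroupOf H
  let Φ' : Subgroup H := Φ.subgroupOf H
  have hQ' : IsPGroup q Q' := by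
    intro g
    obtain ⟨k, hk⟩ := hpg ⟨g.1.1, g.2⟩
    refine ⟨k, ?_⟩
    have h3 : (g.1.1 : G) ^ (q ^ k) = 1 := by
      have := congrArg Subtype.val hk
      simpa using this
    apply Subtype.ext
    apply Subtype.ext
    simpa using h3
  have hQcardH : Nat.card Q' = Nat.card Q :=
    Nat.card_congr (Subgroup.subgroupOfEquivOfLe hQH).toEquiv
  have hΦcardH : Nat.card Φ' = q := by
    rw [← hΦcard]
    exact Nat.card_congr (Subgroup.subgroupOfEquivOfLe (hΦQ.trans hQH)).toEquiv
  have hker := h2 x' (by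
    intro v hv
    have h3 := hm.act x' v
    rw [hv] at h3
    have h4 : ι (Multiplicative.ofAdd v) ∈ V ⊓ Subgroup.centralizer (X : Set G) := by
      refine ⟨hm.mem_V v, ?_⟩
      show ι (Multiplicative.ofAdd v) ∈ Subgroup.centralizer (X : Set G)
      rw [Subgroup.mem_centralizer_iff, hXz]
      intro y hy
      obtain ⟨k, rfl⟩ := Subgroup.mem_zpowers_iff.1 hy
      have h5 : Commute x (ι (Multiplicative.ofAdd v)) := by
        have h6 : ι (Multiplicative.ofAdd v) = x * ι (Multiplicative.ofAdd v) * x⁻¹ := h3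
        show x * ι (Multiplicative.ofAdd v) = ι (Multiplicative.ofAdd v) * x
        calc x * ι (Multiplicative.ofAdd v) = (x * ι (Multiplicative.ofAdd v) * x⁻¹) * x := by group
          _ = ι (Multiplicative.ofAdd v) * x := by rw [← h6]
      exact h5.zpow_left k
    rw [hCV] at h4
    have h5 : ι (Multiplicative.ofAdd v) = ι (Multiplicative.ofAdd 0) := by
      rw [h4, ofAdd_zero, map_one]
    exact Multiplicative.ofAdd.injective (hm.inj h5))
  have hK : ∀ {t : ℕ}, t.Prime → p ≠ t → (t : AlgebraicClosure (ZMod p)) ≠ 0 := by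
    intro t ht hpt h0
    rw [CharP.cast_eq_zero_iff (AlgebraicClosure (ZMod p)) p t] at h0
    exact hpt ((Nat.prime_dvd_prime_iff_eq hp ht).1 h0)
  have hΦ'ne : Φ' ≠ ⊥ := by
    intro h
    rw [h, Subgroup.card_bot] at hΦcardH
    exact hq.one_lt.ne hΦcardH
  have hnotle : ∃ g ∈ Q', g ∉ Φ' := by
    by_contra hall
    push Not at hall
    have hle : Nat.card Q ≤ Nat.card Φ := by
      rw [hΦcard, hcard]
      have h3 : Q ≤ Φ := fun g hg => hall ⟨g, hQH hg⟩ hg
      have h4 : Nat.card Q ≤ Nat.card Φ := Subgroup.card_le_of_le h3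
      rw [hΦcard, hcard] at h4
      exact h4
    rw [hΦcard, hcard] at hle
    have h5 : q ^ 1 < q ^ (1 + 2 * n) := Nat.pow_lt_pow_right hq.one_lt (by omega)
    rw [pow_one] at h5
    omega
  obtain ⟨N, hN1, hN2, hN3⟩ := Cfsg.Agent.Lib.HHFree.layer2 ρ hρ hq hr hqr (hK hq hpq) (hK hr hpr) x' hxs' Q' Φ' hQ'
    (fun g hg => hΦQ hg)
    (fun g hg => (Subgroup.mem_normalizer_iff.1 (hXQ hxX) g).1 hg)
    (fun f hf => Subtype.ext (hΦx f hf))
    (fun f hf g hg => Subtype.ext (hΦcen f hf g hg))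
    (fun g hg h hh => hcomQ g hg h hh)
    (fun g hg hgx => hfix g hg (congrArg Subtype.val hgx))
    hΦ'ne hnotle
    (by
      intro L hLΦ hLne g hg hgL
      have hLcard : Nat.card L ∣ q := by
        rw [← hΦcardH]
        exact Subgroup.card_dvd_of_le hLΦ
      rcases (Nat.dvd_prime hq).1 hLcard with h3 | h3
      · have hL : L = ⊥ := Subgroup.eq_bot_of_card_eq L h3
        refine hmemΦ g hg ?_
        intro h hh
        have h4 := hgL ⟨h, hQH hh⟩ hh
        rw [hL, Subgroup.mem_bot, commutatorElement_eq_one_iff_mul_comm] at h4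
        exact (congrArg Subtype.val h4).symm
      · exfalso
        apply hLne
        apply Subgroup.eq_of_le_of_card_ge hLΦ
        rw [h3, hΦcardH])
    hker
  -- the arithmetic
  have hrel : Φ'.relIndex Q' * q = q ^ (1 + 2 * n) := by
    have h3 := Cfsg.Agent.Lib.ExtraBasics.relIndex_mul_card (H := Φ') (K := Q') (fun g hg => hΦQ hg)
    rw [hΦcardH, hQcardH, hcard] at h3
    exact h3
  have hrel' : Φ'.relIndex Q' = (q ^ n) ^ 2 := by
    have h3 : q ^ (1 + 2 * n) = (q ^ n) ^ 2 * q := by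
      rw [← pow_mul]
      ring
    rw [h3] at hrel
    exact Nat.eq_of_mul_eq_mul_right hq.pos hrel
  have hNq : N = q ^ n := by
    rw [hrel'] at hN1
    exact Nat.pow_left_injective (n := 2) (by norm_num) hN1
  have hq2 : q = 2 := by
    by_contra hne
    have hodd : Odd q := hq.odd_of_ne_two hne
    have hNodd : Odd N := by rw [hNq]; exact hodd.pow
    have hseven : Even r := by rw [← hN3]; exact hNodd.add_one
    have hs2 : r = 2 := (hr.even_iff).1 hseven
    omega
  refine ⟨hq2, n, ?_, ?_⟩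
  · rw [← hN3, hNq, hq2]
  · rw [hcard, hq2]
    congr 1
    ring

end Cfsg.Agent.S3764
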