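import Mathlib
import Cfsg.Statements.S3765
import Cfsg.Agent.Lib.HHFree
import Cfsg.Agent.Lib.FFBridge
-- import your own Cfsg.Agent.* helpers here

set_option autoImplicit false
set_option linter.style.haveILetI false
open Cfsg

namespace Cfsg.Agent.S3765

/-- Let p, q, r be distinct primes and let X, Q, V be subgroups of a finite group with X of order r normalizing the q-group Q and acting faithfully on it (X ∩ C(Q) = 1), and V a nontrivial elementary abelian p-group normalized by X and Q on which XQ acts faithfully. If q = 2 and r has the form 2^n + 1, assume in addition that Q is abelian. Then C_V(X) ≠ 1. -/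
theorem result {G : Type*} [Group G] [Finite G] {p q r : ℕ} (hp : p.Prime) (hq : q.Prime) (hr : r.Prime) (hpq : p ≠ q) (hpr : p ≠ r) (hqr : q ≠ r) (X Q V : Subgroup G) (hX : Nat.card X = r) (hQ : IsPGroup q Q) (hXQ : X ≤ Subgroup.normalizer (Q : Set G)) (hXfaith : X ⊓ Subgroup.centralizer (Q : Set G) = ⊥) (hV : Cfsg.IsElementaryAbelian p V) (hV1 : V ≠ ⊥) (hXV : X ≤ Subgroup.normalizer (V : Set G)) (hQV : Q ≤ Subgroup.normalizer (V : Set G)) (hfaith : (X ⊔ Q) ⊓ Subgroup.centralizer (V : Set G) = ⊥) (hexc : q = 2 → (∃ n : ℕ, r = 2 ^ n + 1) → IsMulCommutative Q) : V ⊓ Subgroup.centralizer (X : Set G) ≠ ⊥ := by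
  classical
  intro hfix
  haveI : Fact p.Prime := ⟨hp⟩
  set H : Subgroup G := X ⊔ Q with hH
  have hHV : H ≤ Subgroup.normalizer (V : Set G) := sup_le hXV hQV
  obtain ⟨E, _, _, _, ρ₀, ι, hm⟩ := Cfsg.Agent.Lib.FFBridge.exists_model hV hHV
  obtain ⟨U, _, _, _, ρ, h1, h2, -⟩ := Cfsg.Agent.Lib.HHFree.exists_closure_rep ρ₀
  have hXH : X ≤ H := le_sup_left
  have hQH : Q ≤ H := le_sup_right
  -- faithfulness
  have hρ : Function.Injective ρ := by
    rw [injective_iff_map_eq_one]
    intro h hh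
    have h3 := h1 h hh
    apply Subtype.ext
    have h4 : (h : G) ∈ H ⊓ Subgroup.centralizer (V : Set G) := by
      refine ⟨h.2, ?_⟩
      show (h : G) ∈ Subgroup.centralizer (V : Set G)
      rw [Subgroup.mem_centralizer_iff]
      intro v hv
      obtain ⟨e, rfl⟩ := hm.exists_of_mem hv
      have h5 := hm.act h e
      rw [h3] at h5
      have h6 : ι (Multiplicative.ofAdd e) = h * ι (Multiplicative.ofAdd e) * (h : G)⁻¹ := h5
      calc ι (Multiplicative.ofAdd e) * h = (h * ι (Multiplicative.ofAdd e) * (h : G)⁻¹) * h := by rw [← h6]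
        _ = h * ι (Multiplicative.ofAdd e) := by group
    rw [hfaith] at h4
    exact h4
  -- a generator
  haveI : Fact r.Prime := ⟨hr⟩
  haveI : IsCyclic X := isCyclic_of_prime_card hX
  obtain ⟨⟨x, hxX⟩, hgen⟩ := IsCyclic.exists_generator (α := X)
  have hord : orderOf x = r := by
    have := orderOf_eq_card_of_forall_mem_zpowers hgen
    rwa [Subgroup.orderOf_mk, hX] at this
  have hXz : X = Subgroup.zpowers x := by
    apply le_antisymm
    · intro g hg
      obtain ⟨k, hk⟩ := hgen ⟨g, hg⟩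
      refine ⟨k, ?_⟩
      exact congrArg Subtype.val hk
    · rw [Subgroup.zpowers_le]
      exact hxX
  let x' : H := ⟨x, hXH hxX⟩
  have hord' : orderOf x' = r := by
    rw [Subgroup.orderOf_mk, hord]
  let Q' : Subgroup H := Q.subgroupOf H
  have hQ' : IsPGroup q Q' := by
    intro g
    obtain ⟨k, hk⟩ := hQ ⟨g.1.1, g.2⟩
    refine ⟨k, ?_⟩
    have h3 : (g.1.1 : G) ^ (q ^ k) = 1 := by
      have := congrArg Subtype.val hk
      simpa using this
    apply Subtype.ext
    apply Subtype.ext
    simpa using h3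
  have hxQ' : x' ∈ Subgroup.normalizer (Q' : Set H) := by
    rw [Subgroup.mem_normalizer_iff]
    intro g
    exact (Subgroup.mem_normalizer_iff.1 (hXQ hxX) g).trans Iff.rfl
  have hnt : ∃ g ∈ Q', x' * g ≠ g * x' := by
    by_contra hall
    push Not at hall
    have hx1 : x ≠ 1 := by
      rintro rfl
      rw [orderOf_one] at hord
      exact hr.one_lt.ne hord
    apply hx1
    have h3 : x ∈ X ⊓ Subgroup.centralizer (Q : Set G) := by
      refine ⟨hxX, ?_⟩
      show x ∈ Subgroup.centralizer (Q : Set G)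
      rw [Subgroup.mem_centralizer_iff]
      intro g hg
      have := hall ⟨g, hQH hg⟩ hg
      exact (congrArg Subtype.val this).symm
    rw [hXfaith] at h3
    exact h3
  have hker := h2 x' (by
    intro v hv
    have h3 := hm.act x' v
    rw [hv] at h3
    have h4 : ι (Multiplicative.ofAdd v) ∈ V ⊓ Subgroup.centralizer (X : Set G) := by
      refine ⟨hm.mem_V v, ?_⟩
      show ι (Multiplicative.ofAdd v) ∈ Subgroup.centralizer (X : Set G)
      rw [Subgroup.mem_centralizer_iff, hXz]
      intro y hy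
      obtain ⟨k, rfl⟩ := Subgroup.mem_zpowers_iff.1 hy
      have h5 : Commute x (ι (Multiplicative.ofAdd v)) := by
        have h6 : ι (Multiplicative.ofAdd v) = x * ι (Multiplicative.ofAdd v) * x⁻¹ := h3
        show x * ι (Multiplicative.ofAdd v) = ι (Multiplicative.ofAdd v) * x
        calc x * ι (Multiplicative.ofAdd v) = (x * ι (Multiplicative.ofAdd v) * x⁻¹) * x := by group
          _ = ι (Multiplicative.ofAdd v) * x := by rw [← h6]
      exact h5.zpow_left k
    rw [hfix] at h4
    have h5 : ι (Multiplicative.ofAdd v) = ι (Multiplicative.ofAdd 0) := by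
      rw [h4, ofAdd_zero, map_one]
    exact Multiplicative.ofAdd.injective (hm.inj h5))
  have hK : ∀ {t : ℕ}, t.Prime → p ≠ t → (t : AlgebraicClosure (ZMod p)) ≠ 0 := by
    intro t ht hpt h0
    rw [CharP.cast_eq_zero_iff (AlgebraicClosure (ZMod p)) p t] at h0
    exact hpt ((Nat.prime_dvd_prime_iff_eq hp ht).1 h0)
  obtain ⟨hq2, hf, hnc⟩ := Cfsg.Agent.Lib.HHFree.layer4 ρ hρ hq hr hqr (hK hq hpq) (hK hr hpr) x' hord' Q' hQ' hxQ' hnt hker
  apply hnc
  have hc := hexc hq2 hf
  refine ⟨⟨fun a b => ?_⟩⟩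
  have := hc.is_comm.comm ⟨a.1.1, a.2⟩ ⟨b.1.1, b.2⟩
  have h3 : (a.1.1 : G) * b.1.1 = b.1.1 * a.1.1 := by
    have h4 := congrArg Subtype.val this
    simpa using h4
  apply Subtype.ext
  apply Subtype.ext
  simpa using h3

end Cfsg.Agent.S3765
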