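import Mathlib
import Cfsg.Statements.S3766
import Cfsg.Agent.Lib.PCore

set_option autoImplicit false
set_option linter.unusedVariables false
set_option linter.style.haveILetI false
open Cfsg

namespace Cfsg.Agent.S3766

open Subgroup Cfsg.Agent.Lib Cfsg.Agent.Lib.PCore
open scoped commutatorElement

variable {G : Type*} [Group G]

/-- The three subgroups lemma modulo a normal subgroup. -/
theorem three_normal {H₁ H₂ H₃ K : Subgroup G} [K.Normal] (h1 : ⁅⁅H₂, H₃⁆, H₁⁆ ≤ K)
    (h2 : ⁅⁅H₃, H₁⁆, H₂⁆ ≤ K) : ⁅⁅H₁, H₂⁆, H₃⁆ ≤ K := by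
  let π := QuotientGroup.mk' K
  have hker : π.ker = K := QuotientGroup.ker_mk' K
  have e1 : ⁅⁅H₂.map π, H₃.map π⁆, H₁.map π⁆ = ⊥ := by
    rw [← map_commutator, ← map_commutator, Subgroup.map_eq_bot_iff, hker]
    exact h1
  have e2 : ⁅⁅H₃.map π, H₁.map π⁆, H₂.map π⁆ = ⊥ := by
    rw [← map_commutator, ← map_commutator, Subgroup.map_eq_bot_iff, hker]
    exact h2
  have e3 := commutator_commutator_eq_bot_of_rotate e1 e2
  rw [← map_commutator, ← map_commutator, Subgroup.map_eq_bot_iff, hker] at e3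
  exact e3

/-- Left-normed iterated commutators. -/
def iter (X Y : Subgroup G) : ℕ → Subgroup G
  | 0 => X
  | k + 1 => ⁅iter X Y k, Y⁆

theorem iter_normal {X Y : Subgroup G} [hX : X.Normal] [hY : Y.Normal] (k : ℕ) : (iter X Y k).Normal := by
  induction k with
  | zero => exact hX
  | succ k ih =>
    haveI := ih
    show (⁅iter X Y k, Y⁆ : Subgroup G).Normal
    infer_instance

theorem iter_succ' (X Y : Subgroup G) (k : ℕ) : iter X Y (k + 1) = iter ⁅X, Y⁆ Y k := by
  induction k with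
  | zero => rfl
  | succ k ih =>
    show ⁅iter X Y (k + 1), Y⁆ = ⁅iter ⁅X, Y⁆ Y k, Y⁆
    rw [ih]

theorem iter_le_lcs {X F : Subgroup G} (h : X ≤ F) (k : ℕ) : iter X F k ≤ F.lowerCentralSeries k := by
  induction k with
  | zero => exact h
  | succ k ih => exact commutator_mono ih le_rfl

/-- The chief factor predicate. -/
def Chief (U V : Subgroup G) : Prop :=
  U.Normal ∧ V.Normal ∧ V < U ∧ ∀ W : Subgroup G, W.Normal → V ≤ W → W ≤ U → W = V ∨ W = U

/-- Normal nilpotent subgroups centralize chief factors. -/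
theorem centralizes_of_nilpotent {F U V : Subgroup G} [hF : F.Normal] (hnil : Group.IsNilpotent F)
    (hc : Chief U V) {g u : G} (hg : g ∈ F) (hu : u ∈ U) : u * g * u⁻¹ * g⁻¹ ∈ V := by
  obtain ⟨hU, hV, hlt, hch⟩ := hc
  haveI := hU
  haveI := hV
  have hYn : (⁅U, F⁆ ⊔ V).Normal := Subgroup.sup_normal _ _
  have hYU : ⁅U, F⁆ ⊔ V ≤ U := sup_le (commutator_le_left U F) hlt.le
  rcases hch _ hYn le_sup_right hYU with h | h
  · have h1 : ⁅u, g⁆ ∈ ⁅U, F⁆ ⊔ V := le_sup_left (a := ⁅U, F⁆) (commutator_mem_commutator hu hg)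
    rw [h] at h1
    exact h1
  · exfalso
    have key : ∀ k, U ≤ iter U F k ⊔ V := by
      intro k
      induction k with
      | zero => exact le_sup_left
      | succ k ih =>
        haveI : (iter U F (k + 1)).Normal := iter_normal _
        haveI : (iter U F (k + 1) ⊔ V).Normal := Subgroup.sup_normal _ _
        conv_lhs => rw [← h]
        refine sup_le ?_ le_sup_right
        rw [commutator_le]
        intro x hx f hf
        obtain ⟨a, ha, b, hb, rfl⟩ := Subgroup.mem_sup_of_normal_right.mp (ih hx)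
        rw [commutatorElement_mul_left_eq_conj_mul]
        apply Subgroup.mul_mem
        · have h3 : ⁅b, f⁆ ∈ V := by
            have h4 : ⁅b, f⁆ = b * (f * b⁻¹ * f⁻¹) := by
              rw [commutatorElement_def]; group
            rw [h4]
            exact V.mul_mem hb (hV.conj_mem _ (V.inv_mem hb) f)
          exact (inferInstance : (iter U F (k + 1) ⊔ V).Normal).conj_mem _
            (le_sup_right (a := iter U F (k + 1)) h3) a
        · exact le_sup_left (a := iter U F (k + 1)) (commutator_mem_commutator ha hf)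
    obtain ⟨n, hn⟩ := (isNilpotent_iff_lowerCentralSeries F).mp hnil
    have h5 : iter U F (n + 1) = ⊥ := by
      rw [iter_succ', eq_bot_iff, ← hn]
      exact iter_le_lcs (commutator_le_right U F) n
    have h6 := key (n + 1)
    rw [h5, bot_sup_eq] at h6
    exact absurd h6 (not_le_of_gt hlt)

section partC

variable [Finite G]

/-- Elements of `N` centralizing all chief factors below `F`. -/
def D (N F : Subgroup G) : Subgroup G where
  carrier := {x | x ∈ N ∧ ∀ U V : Subgroup G, Chief U V → U ≤ F → ∀ u ∈ U, u * x * u⁻¹ * x⁻¹ ∈ V}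
  one_mem' := ⟨N.one_mem, fun U V _ _ u _ => by simp [V.one_mem]⟩
  mul_mem' := by
    rintro x y ⟨hx, hx'⟩ ⟨hy, hy'⟩
    refine ⟨N.mul_mem hx hy, fun U V hc hU u hu => ?_⟩
    have h1 := hx' U V hc hU u hu
    have h2 := hy' U V hc hU u hu
    have h3 : u * (x * y) * u⁻¹ * (x * y)⁻¹ = (u * x * u⁻¹ * x⁻¹) * (x * (u * y * u⁻¹ * y⁻¹) * x⁻¹) := by
      group
    rw [h3]
    exact V.mul_mem h1 (hc.2.1.conj_mem _ h2 x)
  inv_mem' := by
    rintro x ⟨hx, hx'⟩
    refine ⟨N.inv_mem hx, fun U V hc hU u hu => ?_⟩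
    have h1 := hx' U V hc hU u hu
    have h3 : u * x⁻¹ * u⁻¹ * x⁻¹⁻¹ = x⁻¹ * (u * x * u⁻¹ * x⁻¹)⁻¹ * x⁻¹⁻¹ := by
      group
    rw [h3]
    exact hc.2.1.conj_mem _ (V.inv_mem h1) x⁻¹

theorem mem_D {N F : Subgroup G} {x : G} : x ∈ D N F ↔
    x ∈ N ∧ ∀ U V : Subgroup G, Chief U V → U ≤ F → ∀ u ∈ U, u * x * u⁻¹ * x⁻¹ ∈ V := Iff.rfl

instance D_normal (N F : Subgroup G) [hN : N.Normal] : (D N F).Normal := by
  constructor
  rintro x ⟨hx, hx'⟩ t
  refine ⟨hN.conj_mem x hx t, fun U V hc hU u hu => ?_⟩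
  have hu' : t⁻¹ * u * t ∈ U := by
    have := hc.1.conj_mem u hu t⁻¹
    simpa using this
  have h1 := hx' U V hc hU _ hu'
  have h3 : u * (t * x * t⁻¹) * u⁻¹ * (t * x * t⁻¹)⁻¹ =
      t * ((t⁻¹ * u * t) * x * (t⁻¹ * u * t)⁻¹ * x⁻¹) * t⁻¹ := by
    group
  rw [h3]
  exact hc.2.1.conj_mem _ h1 t

theorem commutator_D_lt {N F W : Subgroup G} [hW : W.Normal] (hWF : W ≤ F) (hne : W ≠ ⊥) :
    ⁅W, D N F⁆ < W := by
  let S : Set (Subgroup G) := {V | V.Normal ∧ V < W}
  have hbot : (⊥ : Subgroup G) ∈ S := ⟨inferInstance, bot_lt_iff_ne_bot.mpr hne⟩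
  obtain ⟨V, hV⟩ : ∃ V, Maximal (· ∈ S) V := (Set.toFinite S).exists_maximal ⟨⊥, hbot⟩
  obtain ⟨hVn, hVW⟩ := hV.prop
  have hc : Chief W V := by
    refine ⟨hW, hVn, hVW, fun Z hZ hVZ hZW => ?_⟩
    by_cases h : Z = W
    · exact Or.inr h
    · left
      exact le_antisymm (hV.le_of_ge ⟨hZ, lt_of_le_of_ne hZW h⟩ hVZ) hVZ
  refine lt_of_le_of_lt ?_ hVW
  rw [commutator_le]
  rintro u hu x ⟨_, hx⟩
  exact hx W V hc hWF u hu

theorem exists_iter_eq_bot {N F : Subgroup G} [hN : N.Normal] : ∀ W : Subgroup G, W.Normal → W ≤ F →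
    ∃ m, iter W (D N F) m = ⊥ := by
  intro W
  induction W using WellFoundedLT.induction with
  | ind W ih =>
    intro hW hWF
    haveI := hW
    by_cases hne : W = ⊥
    · exact ⟨0, hne⟩
    · have hlt := commutator_D_lt (N := N) hWF hne
      obtain ⟨m, hm⟩ := ih _ hlt inferInstance (hlt.le.trans hWF)
      exact ⟨m + 1, by rw [iter_succ']; exact hm⟩

/-- `D` is nilpotent: the stability argument. -/
theorem D_nilpotent {N F : Subgroup G} [hN : N.Normal] [hF : F.Normal]
    (hC : N ⊓ centralizer (F : Set G) ≤ F) : Group.IsNilpotent (D N F) := by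
  obtain ⟨m, hm⟩ := exists_iter_eq_bot (N := N) (F := F) F hF le_rfl
  have hDN : D N F ≤ N := fun x hx => hx.1
  have hlcsD : ∀ k, (D N F).lowerCentralSeries k ≤ D N F := fun k =>
    (Subgroup.lowerCentralSeries_antitone (D N F) (Nat.zero_le k))
  -- step 1
  have step1 : ∀ k i, ⁅iter F (D N F) i, (D N F).lowerCentralSeries k⁆ ≤ iter F (D N F) (i + k + 1) := by
    intro k
    induction k with
    | zero =>
      intro i
      exact le_rfl
    | succ k ih =>
      intro i
      haveI : (iter F (D N F) (i + (k + 1) + 1)).Normal := iter_normal _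
      rw [commutator_comm, Subgroup.lowerCentralSeries_succ]
      apply three_normal
      · rw [commutator_comm (D N F)]
        have := ih (i + 1)
        rw [show i + 1 + k + 1 = i + (k + 1) + 1 by ring] at this
        exact this
      · have h1 := ih i
        exact (commutator_mono h1 le_rfl)
  -- step 2
  have step2 : (D N F).lowerCentralSeries m ≤ F := by
    refine le_trans (le_inf ((hlcsD m).trans hDN) ?_) hC
    rw [← Subgroup.commutator_eq_bot_iff_le_centralizer, commutator_comm, eq_bot_iff]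
    have h1 := step1 m 0
    have h2 : iter F (D N F) (0 + m + 1) = ⊥ := by
      rw [zero_add]
      show ⁅iter F (D N F) m, D N F⁆ = ⊥
      rw [hm]
      exact commutator_bot_left _
    rw [h2] at h1
    exact h1
  -- step 3
  have step3 : ∀ j, (D N F).lowerCentralSeries (m + j) ≤ iter F (D N F) j := by
    intro j
    induction j with
    | zero => exact step2
    | succ j ih => exact commutator_mono ih le_rfl
  refine (isNilpotent_iff_lowerCentralSeries (D N F)).mpr ⟨m + m, ?_⟩
  rw [eq_bot_iff, ← hm]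
  exact step3 m

end partC

theorem mem_of_forall_chief {G : Type*} [Group G] [Finite G] (hG : Group.IsSolvable G)
    (N : Subgroup G) [hN : N.Normal] {g : G}
    (h : g ∈ N ∧ ∀ U V : Subgroup G, Chief U V → U ≤ (fittingSubgroup ↥N).map N.subtype →
      ∀ u ∈ U, u * g * u⁻¹ * g⁻¹ ∈ V) :
    g ∈ (fittingSubgroup ↥N).map N.subtype := by
  set F : Subgroup G := (fittingSubgroup ↥N).map N.subtype with hFdef
  have hFn : F.Normal := ConjAct.normal_of_characteristic_of_normal
  haveI : Group.IsSolvable ↥N := Group.isSolvable_of_isSolvable_injective N.subtype_injective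
  have hC : N ⊓ centralizer (F : Set G) ≤ F := by
    rintro x ⟨hxN, hxC⟩
    refine ⟨⟨x, hxN⟩, centralizer_fittingSubgroup_le (G := ↥N) ?_, rfl⟩
    rw [Subgroup.mem_centralizer_iff]
    intro y hy
    exact Subtype.ext (Subgroup.mem_centralizer_iff.mp hxC (y : G) ⟨y, hy, rfl⟩)
  have hnil := D_nilpotent hC
  have hgD : g ∈ D N F := h
  have hD0 : ((D N F).subgroupOf N).Normal := inferInstance
  have hDN : D N F ≤ N := fun x hx => hx.1
  have hnil0 : Group.IsNilpotent ((D N F).subgroupOf N) :=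
    (Group.isNilpotent_congr (Subgroup.subgroupOfEquivOfLe hDN).symm).mp hnil
  have h1 := le_fittingSubgroup hD0 hnil0
  refine ⟨⟨g, h.1⟩, h1 ?_, rfl⟩
  rw [Subgroup.mem_subgroupOf]
  exact hgD

/-- Let G be a finite solvable group and N a normal subgroup of G. Call a pair V < U of normal subgroups of G a chief factor of G when no normal subgroup of G lies strictly between them; an element g centralizes the chief factor U/V when u g u⁻¹ g⁻¹ ∈ V for all u ∈ U. Then an element of G lies in the Fitting subgroup F(N) if and only if it lies in N and centralizes every chief factor of G; and also if and only if it lies in N and centralizes every chief factor U/V of G with U ≤ F(N). -/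
theorem result {G : Type*} [Group G] [Finite G] (hG : Group.IsSolvable G) (N : Subgroup G) [N.Normal] (g : G) : (g ∈ (Cfsg.fittingSubgroup ↥N).map N.subtype ↔ g ∈ N ∧ ∀ U V : Subgroup G, (U.Normal ∧ V.Normal ∧ V < U ∧ ∀ W : Subgroup G, W.Normal → V ≤ W → W ≤ U → W = V ∨ W = U) → ∀ u ∈ U, u * g * u⁻¹ * g⁻¹ ∈ V) ∧ (g ∈ (Cfsg.fittingSubgroup ↥N).map N.subtype ↔ g ∈ N ∧ ∀ U V : Subgroup G, (U.Normal ∧ V.Normal ∧ V < U ∧ ∀ W : Subgroup G, W.Normal → V ≤ W → W ≤ U → W = V ∨ W = U) → U ≤ (Cfsg.fittingSubgroup ↥N).map N.subtype → ∀ u ∈ U, u * g * u⁻¹ * g⁻¹ ∈ V) := by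
  have hFn : ((Cfsg.fittingSubgroup ↥N).map N.subtype).Normal :=
    ConjAct.normal_of_characteristic_of_normal
  have hnil : Group.IsNilpotent ((Cfsg.fittingSubgroup ↥N).map N.subtype) :=
    (Group.isNilpotent_congr
      ((fittingSubgroup ↥N).equivMapOfInjective N.subtype N.subtype_injective)).mp
      isNilpotent_fittingSubgroup
  have hA : g ∈ (Cfsg.fittingSubgroup ↥N).map N.subtype → g ∈ N ∧ ∀ U V : Subgroup G, Chief U V →
      ∀ u ∈ U, u * g * u⁻¹ * g⁻¹ ∈ V := by
    intro h
    refine ⟨Subgroup.map_subtype_le _ h, fun U V hc u hu => ?_⟩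
    haveI := hFn
    exact centralizes_of_nilpotent hnil hc h hu
  have hB := mem_of_forall_chief hG N (g := g)
  refine ⟨⟨hA, fun h => hB ⟨h.1, fun U V hc _ => h.2 U V hc⟩⟩, ⟨fun h => ?_, hB⟩⟩
  exact ⟨(hA h).1, fun U V hc _ => (hA h).2 U V hc⟩

end Cfsg.Agent.S3766
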