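import Mathlib
import Cfsg.Statements.S3767
import Cfsg.Agent.Lib.SympFree

set_option autoImplicit false
open Cfsg

namespace Cfsg.Agent.S3767

/-- Let P be an extraspecial p-group of order p^(2n+1) and H a cyclic group of order h prime to p acting on P (inside a common finite group: H normalizes P) so that C_P(x) = Z(P) for every non-identity x ∈ H. Then h divides p^n + 1 or h divides p^n − 1. -/
theorem result {G : Type*} [Group G] [Finite G] {p : ℕ} [Fact p.Prime] (P H : Subgroup G) (hP : Cfsg.IsExtraspecial p ↥P) (n : ℕ) (hn : Nat.card P = p ^ (2 * n + 1)) (hH : IsCyclic H) (hcop : (Nat.card H).Coprime p) (hHP : H ≤ Subgroup.normalizer (P : Set G)) (hfix : ∀ x ∈ H, x ≠ 1 → P ⊓ Subgroup.centralizer {x} = (Subgroup.center ↥P).map P.subtype) : Nat.card H ∣ p ^ n + 1 ∨ Nat.card H ∣ p ^ n - 1 := by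
  classical
  have hpos : 0 < Nat.card H := Nat.card_pos
  by_cases h3 : 3 ≤ Nat.card H
  · obtain ⟨⟨x, hxH⟩, hx⟩ := IsCyclic.exists_generator (α := H)
    have hord : orderOf x = Nat.card H := by
      have := orderOf_eq_card_of_forall_mem_zpowers hx
      rwa [Subgroup.orderOf_mk] at this
    have hnorm : ∀ y ∈ H, ∀ g ∈ P, y * g * y⁻¹ ∈ P := fun y hy g hg =>
      (Subgroup.mem_normalizer_iff.1 (hHP hy) g).1 hg
    have hxne : x ≠ 1 := by
      rintro rfl
      rw [orderOf_one] at hord
      omega
    let α : ↥P →* ↥P :=
      { toFun := fun g => ⟨x * g * x⁻¹, hnorm x hxH g g.2⟩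
        map_one' := by
          apply Subtype.ext
          simp
        map_mul' := by
          intro g k
          apply Subtype.ext
          simp only [Subgroup.coe_mul]
          group }
    have hα : ∀ g : P, ((α g : P) : G) = x * g * x⁻¹ := fun g => rfl
    have hαpow : ∀ (i : ℕ) (g : P), ((α^[i] g : P) : G) = x ^ i * g * (x ^ i)⁻¹ := by
      intro i
      induction i with
      | zero => intro g; simp
      | succ i ih =>
        intro g
        rw [Function.iterate_succ_apply', hα, ih, pow_succ']
        group
    have hmemC : ∀ y ∈ H, y ≠ 1 → ∀ g : P, (g ∈ Subgroup.center ↥P ↔ y * g * y⁻¹ = g) := by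
      intro y hy hy1 g
      have h1 := hfix y hy hy1
      constructor
      · intro hg
        have h2 : (g : G) ∈ (Subgroup.center ↥P).map P.subtype := ⟨g, hg, rfl⟩
        rw [← h1] at h2
        have h3 : (g : G) ∈ Subgroup.centralizer {y} := h2.2
        rw [Subgroup.mem_centralizer_singleton_iff] at h3
        rw [← h3]
        group
      · intro hg
        have h2 : (g : G) ∈ P ⊓ Subgroup.centralizer {y} := by
          refine ⟨g.2, ?_⟩
          show (g : G) ∈ Subgroup.centralizer {y}
          rw [Subgroup.mem_centralizer_singleton_iff]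
          calc (g : G) * y = (y * g * y⁻¹) * y := by rw [hg]
            _ = y * g := by group
        rw [h1] at h2
        obtain ⟨w, hw, e⟩ := h2
        have : w = g := Subtype.ext e
        rwa [← this]
    refine (Cfsg.Agent.Lib.SympFree.extraspecial_main hP hn h3 hcop α ?_ ?_ ?_)
    · intro g
      apply Subtype.ext
      rw [hαpow, ← hord, pow_orderOf_eq_one]
      simp
    · intro g hg
      apply Subtype.ext
      rw [hα]
      exact (hmemC x hxH hxne g).1 hg
    · intro i hi hih g hg
      refine (hmemC (x ^ i) (pow_mem hxH i) ?_ g).2 ?_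
      · exact pow_ne_one_of_lt_orderOf hi.ne' (by rw [hord]; exact hih)
      · rw [← hαpow, hg]
  · have h12 : Nat.card H = 1 ∨ Nat.card H = 2 := by omega
    rcases h12 with h1 | h2
    · left
      rw [h1]
      exact one_dvd _
    · right
      rw [h2] at hcop ⊢
      have hodd : Odd p := Nat.coprime_two_left.1 hcop
      exact even_iff_two_dvd.1 ((hodd.pow).tsub_odd odd_one)

end Cfsg.Agent.S3767
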