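import Mathlib
import Cfsg.Statements.S3768
import Cfsg.Agent.Lib.Frobenius

set_option autoImplicit false
open Cfsg
open scoped Pointwise

namespace Cfsg.Agent.S3768

open Cfsg.Agent.Lib.Frobenius

variable {G : Type*} [Group G]

/-- Count of the elements of a normal subgroup outside the kernel. -/
theorem card_normal [Finite G] {R : Subgroup G} (hH : IsFrobeniusComplement R) (N : Subgroup G)
    [hN : N.Normal] :
    Nat.card N = ((N : Set G) ∩ frobeniusKernel R).ncard + R.index * (Nat.card ↥(R ⊓ N) - 1) := by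
  classical
  letI : Fintype G := Fintype.ofFinite G
  letI : Fintype (G ⧸ R) := Fintype.ofFinite _
  let H1 : Finset G := (Set.toFinite (((R ⊓ N : Subgroup G) : Set G) \ {1})).toFinset
  have hH1 : ∀ x, x ∈ H1 ↔ x ∈ R ⊓ N ∧ x ≠ 1 := by
    intro x
    simp [H1]
  let S : G ⧸ R → Finset G := fun q => H1.image (fun h => q.out * h * q.out⁻¹)
  let U : Finset G := Finset.univ.biUnion S
  have hU : ((N : Set G) \ frobeniusKernel R) = (U : Set G) := by
    ext y
    simp only [Set.mem_diff, SetLike.mem_coe, not_mem_kernel_iff, ne_eq, Finset.mem_coe, U,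
      Finset.mem_biUnion, Finset.mem_univ, true_and, S, Finset.mem_image, hH1]
    constructor
    · rintro ⟨hyN, hy1, g, hg⟩
      let q : G ⧸ R := (g : G ⧸ R)
      obtain ⟨h₀, hh₀⟩ : ∃ h₀ : R, q.out = g * h₀ := QuotientGroup.mk_out_eq_mul R g
      refine ⟨q, (h₀ : G)⁻¹ * (g⁻¹ * y * g) * h₀, ⟨Subgroup.mem_inf.mpr ⟨?_, ?_⟩, ?_⟩, ?_⟩
      · exact R.mul_mem (R.mul_mem (R.inv_mem h₀.2) hg) h₀.2
      · have : (h₀ : G)⁻¹ * (g⁻¹ * y * g) * h₀ = (g * h₀)⁻¹ * y * (g * h₀)⁻¹⁻¹ := by group
        rw [this]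
        exact hN.conj_mem y hyN _
      · intro h
        apply hy1
        have h2 : g⁻¹ * y * g = 1 := by
          have : (h₀ : G) * ((h₀ : G)⁻¹ * (g⁻¹ * y * g) * h₀) * (h₀ : G)⁻¹ = 1 := by
            rw [h]; simp
          simpa [mul_assoc] using this
        have : y = g * (g⁻¹ * y * g) * g⁻¹ := by group
        rw [this, h2]; simp
      · rw [hh₀]; group
    · rintro ⟨q, h, ⟨hh, hh1⟩, rfl⟩
      have hhR : h ∈ R := (Subgroup.mem_inf.mp hh).1
      have hhN : h ∈ N := (Subgroup.mem_inf.mp hh).2
      refine ⟨hN.conj_mem h hhN _, ?_, ?_⟩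
      · intro h0
        apply hh1
        have : h = q.out⁻¹ * (q.out * h * q.out⁻¹) * q.out := by group
        rw [this, h0]; simp
      · refine ⟨q.out, ?_⟩
        have : (q.out)⁻¹ * (q.out * h * (q.out)⁻¹) * q.out = h := by group
        rw [this]; exact hhR
  have hdisj : ∀ q ∈ (Finset.univ : Finset (G ⧸ R)), ∀ q' ∈ (Finset.univ : Finset (G ⧸ R)),
      q ≠ q' → Disjoint (S q) (S q') := by
    intro q _ q' _ hne
    rw [Finset.disjoint_left]
    intro y hy hy'
    simp only [S, Finset.mem_image, hH1] at hy hy'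
    obtain ⟨h, ⟨hh, hh1⟩, rfl⟩ := hy
    obtain ⟨h', ⟨hh', hh1'⟩, heq⟩ := hy'
    apply hne
    have hhR : h ∈ R := (Subgroup.mem_inf.mp hh).1
    have hhR' : h' ∈ R := (Subgroup.mem_inf.mp hh').1
    have h1 : (q'.out)⁻¹ * q.out ∈ R := by
      apply mem_of_conj_mem' hH hhR hh1
      have : ((q'.out)⁻¹ * q.out) * h * ((q'.out)⁻¹ * q.out)⁻¹ = h' := by
        have h2 : q.out * h * (q.out)⁻¹ = q'.out * h' * (q'.out)⁻¹ := heq.symm
        calc ((q'.out)⁻¹ * q.out) * h * ((q'.out)⁻¹ * q.out)⁻¹
            = (q'.out)⁻¹ * (q.out * h * (q.out)⁻¹) * q'.out := by group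
          _ = (q'.out)⁻¹ * (q'.out * h' * (q'.out)⁻¹) * q'.out := by rw [h2]
          _ = h' := by group
      rw [this]; exact hhR'
    have h2 : ((q'.out : G) : G ⧸ R) = ((q.out : G) : G ⧸ R) := QuotientGroup.eq.mpr h1
    rw [QuotientGroup.out_eq', QuotientGroup.out_eq'] at h2
    exact h2.symm
  have hcardS : ∀ q : G ⧸ R, (S q).card = Nat.card ↥(R ⊓ N) - 1 := by
    intro q
    have h1 : (S q).card = H1.card := by
      apply Finset.card_image_of_injective
      intro a b hab
      simpa using hab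
    rw [h1]
    have h2 : H1 = ((R ⊓ N : Subgroup G) : Set G).toFinite.toFinset.erase 1 := by
      ext x
      simp [hH1, and_comm]
    rw [h2, Finset.card_erase_of_mem (by simp [R.one_mem, N.one_mem])]
    have h3 : ((R ⊓ N : Subgroup G) : Set G).toFinite.toFinset.card = Nat.card ↥(R ⊓ N) := by
      rw [← Set.ncard_eq_toFinset_card]
      exact (Nat.card_coe_set_eq _).symm
    rw [h3]
  have hUcard : U.card = R.index * (Nat.card ↥(R ⊓ N) - 1) := by
    simp only [U]
    rw [Finset.card_biUnion hdisj]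
    simp only [hcardS, Finset.sum_const, Finset.card_univ, smul_eq_mul]
    rw [Subgroup.index, Nat.card_eq_fintype_card (α := G ⧸ R)]
  have h1 := Set.ncard_inter_add_ncard_diff_eq_ncard (N : Set G) (frobeniusKernel R) (Set.toFinite _)
  rw [hU, Set.ncard_coe_finset, hUcard] at h1
  have h2 : Nat.card N = (N : Set G).ncard := Nat.card_coe_set_eq _
  rw [h2]
  exact h1.symm

/-- A normal subgroup meeting `R` nontrivially contains the kernel. -/
theorem kernel_subset_of_inf_ne_bot [Finite G] {R : Subgroup G} (hH : IsFrobeniusComplement R)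
    (N : Subgroup G) [hN : N.Normal] (hne : R ⊓ N ≠ ⊥) :
    frobeniusKernel R ⊆ (N : Set G) := by
  classical
  have hcount := card_normal hH N
  have hker := card_kernel hH
  set r := Nat.card ↥(R ⊓ N) with hr
  set m := R.index with hm
  have hr2 : 2 ≤ r := by
    have := (Subgroup.one_lt_card_iff_ne_bot (R ⊓ N)).mpr hne
    omega
  set c := ((N : Set G) ∩ frobeniusKernel R).ncard with hc
  have hc1 : 1 ≤ c := by
    have : (1 : G) ∈ (N : Set G) ∩ frobeniusKernel R := ⟨N.one_mem, one_mem_kernel⟩
    rw [hc]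
    exact (Set.ncard_pos (Set.toFinite _)).mpr ⟨1, this⟩
  -- index of N ⊔ R
  set i := N.relIndex R with hi
  have hRcard : Nat.card R = r * i := by
    have h1 : (R ⊓ N).relIndex R = i := Subgroup.inf_relIndex_left R N
    have h2 := Subgroup.relIndex_mul_relIndex (⊥ : Subgroup G) (R ⊓ N) R bot_le inf_le_left
    rw [Subgroup.relIndex_bot_left, Subgroup.relIndex_bot_left, h1] at h2
    exact h2.symm
  have hipos : 0 < i := by
    apply Nat.pos_of_ne_zero
    intro h0
    rw [h0, mul_zero] at hRcard
    exact (Nat.card_pos (α := R)).ne' hRcard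
  have hsupcard : Nat.card ↥(N ⊔ R) = Nat.card N * i := by
    have h1 : N.relIndex (N ⊔ R) = i := Subgroup.relIndex_sup_left R N
    have h2 := Subgroup.relIndex_mul_relIndex (⊥ : Subgroup G) N (N ⊔ R) bot_le le_sup_left
    rw [Subgroup.relIndex_bot_left, Subgroup.relIndex_bot_left, h1] at h2
    exact h2.symm
  set t := (N ⊔ R).index with ht
  have htpos : 0 < t := Nat.pos_of_ne_zero Subgroup.index_ne_zero_of_finite
  have hG1 : t * (Nat.card N * i) = Nat.card G := by
    rw [← hsupcard]; exact Subgroup.index_mul_card _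
  have hG2 : m * (r * i) = Nat.card G := by
    rw [← hRcard]; exact Subgroup.index_mul_card _
  have hmr : t * Nat.card N = m * r := by
    have : (t * Nat.card N) * i = (m * r) * i := by
      calc (t * Nat.card N) * i = t * (Nat.card N * i) := by ring
        _ = m * (r * i) := by rw [hG1, hG2]
        _ = (m * r) * i := by ring
    exact Nat.eq_of_mul_eq_mul_right hipos this
  obtain ⟨s, hs⟩ : ∃ s, r = s + 1 := ⟨r - 1, by omega⟩
  have hcount' : Nat.card N = c + m * s := by
    rw [hcount, hs]; simp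
  have hmpos : 0 < m := Nat.pos_of_ne_zero Subgroup.index_ne_zero_of_finite
  have ht1 : t = 1 := by
    by_contra htne
    have ht2 : 2 ≤ t := by omega
    have h1 : 2 * Nat.card N ≤ t * Nat.card N := Nat.mul_le_mul_right _ ht2
    rw [hmr, hcount', hs] at h1
    have hs1 : 1 ≤ s := by omega
    nlinarith
  have hNcard : Nat.card N = m * r := by
    rw [← hmr, ht1, one_mul]
  have hcm : c = m := by
    rw [hcount', hs] at hNcard
    nlinarith
  -- the intersection has the cardinality of the kernel
  have hsub : (N : Set G) ∩ frobeniusKernel R ⊆ frobeniusKernel R := Set.inter_subset_right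
  have hkercard : (frobeniusKernel R).ncard = m := by
    rw [← hker]; exact (Nat.card_coe_set_eq _).symm
  have heq : (N : Set G) ∩ frobeniusKernel R = frobeniusKernel R :=
    Set.eq_of_subset_of_ncard_le hsub (by rw [hkercard, ← hc, hcm]) (Set.toFinite _)
  intro x hx
  rw [← heq] at hx
  exact hx.1

/-- Elements of a coset `rN` are `N`-conjugates of `r`. -/
theorem exists_conj_of_mk_eq [Finite G] {R : Subgroup G} (hH : IsFrobeniusComplement R)
    (N : Subgroup G) [hN : N.Normal] (hRN : R ⊓ N = ⊥) {r : G} (hr : r ∈ R) (hr1 : r ≠ 1) {y : G}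
    (hy : QuotientGroup.mk' N y = QuotientGroup.mk' N r) : ∃ n ∈ N, y = n * r * n⁻¹ := by
  let f : N → N := fun n => ⟨n * (r * (n : G)⁻¹ * r⁻¹), N.mul_mem n.2 (hN.conj_mem _ (N.inv_mem n.2) r)⟩
  have hf : Function.Injective f := by
    intro a b hab
    have h1 : (a : G) * (r * (a : G)⁻¹ * r⁻¹) = b * (r * (b : G)⁻¹ * r⁻¹) := congrArg Subtype.val hab
    have h2 : ((a : G)⁻¹ * b) * r * ((a : G)⁻¹ * b)⁻¹ = r := by
      have h3 : (a : G) * r * (a : G)⁻¹ = b * r * (b : G)⁻¹ := by
        have := congrArg (· * r) h1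
        simpa [mul_assoc] using this
      calc ((a : G)⁻¹ * b) * r * ((a : G)⁻¹ * b)⁻¹
          = (a : G)⁻¹ * (b * r * (b : G)⁻¹) * a := by group
        _ = (a : G)⁻¹ * (a * r * (a : G)⁻¹) * a := by rw [h3]
        _ = r := by group
    have h4 : (a : G)⁻¹ * b ∈ R := mem_of_conj_mem' hH hr hr1 (by rw [h2]; exact hr)
    have h5 : (a : G)⁻¹ * b ∈ R ⊓ N :=
      Subgroup.mem_inf.mpr ⟨h4, N.mul_mem (N.inv_mem a.2) b.2⟩
    rw [hRN, Subgroup.mem_bot] at h5
    apply Subtype.ext
    exact eq_of_inv_mul_eq_one h5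
  have hsurj := Finite.injective_iff_surjective.mp hf
  have hmem : y * r⁻¹ ∈ N := by
    rw [← QuotientGroup.ker_mk' N, MonoidHom.mem_ker, map_mul, map_inv, hy]
    simp
  obtain ⟨n, hn⟩ := hsurj ⟨y * r⁻¹, hmem⟩
  refine ⟨n, n.2, ?_⟩
  have h1 : (n : G) * (r * (n : G)⁻¹ * r⁻¹) = y * r⁻¹ := congrArg Subtype.val hn
  have h2 := congrArg (· * r) h1
  simp only [inv_mul_cancel_right] at h2
  rw [← h2]
  group

/-- Let G be a finite Frobenius group with Frobenius complement R and Frobenius kernel K (the identity together with the elements in no conjugate of R), and let N be a normal subgroup of G not containing K. Then G/N is a Frobenius group with Frobenius complement RN/N whose Frobenius kernel is the image of K. -/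
theorem result {G : Type*} [Group G] [Finite G] (R : Subgroup G) (hR : Cfsg.IsFrobeniusComplement R) (N : Subgroup G) [N.Normal] (hKN : ¬ Cfsg.frobeniusKernel R ⊆ N) : Cfsg.IsFrobeniusComplement (R.map (QuotientGroup.mk' N)) ∧ Cfsg.frobeniusKernel (R.map (QuotientGroup.mk' N)) = QuotientGroup.mk' N '' Cfsg.frobeniusKernel R := by
  classical
  have hRN : R ⊓ N = ⊥ := by
    by_contra hne
    exact hKN (kernel_subset_of_inf_ne_bot hR N hne)
  have hNK : (N : Set G) ⊆ frobeniusKernel R := by
    intro x hx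
    rw [mem_kernel_iff]
    by_cases hx1 : x = 1
    · exact Or.inl hx1
    · right
      intro g hg
      have h1 : g⁻¹ * x * g ∈ R ⊓ N := by
        refine Subgroup.mem_inf.mpr ⟨hg, ?_⟩
        have := (inferInstance : N.Normal).conj_mem x hx g⁻¹
        simpa using this
      rw [hRN, Subgroup.mem_bot] at h1
      apply hx1
      have : x = g * (g⁻¹ * x * g) * g⁻¹ := by group
      rw [this, h1]; simp
  have hmk1 : ∀ x : G, QuotientGroup.mk' N x = 1 ↔ x ∈ N := by
    intro x
    rw [← MonoidHom.mem_ker, QuotientGroup.ker_mk']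
  have hRinj : ∀ r ∈ R, r ≠ 1 → QuotientGroup.mk' N r ≠ 1 := by
    intro r hr hr1 h
    have : r ∈ R ⊓ N := Subgroup.mem_inf.mpr ⟨hr, (hmk1 r).mp h⟩
    rw [hRN, Subgroup.mem_bot] at this
    exact hr1 this
  have hcompl : IsFrobeniusComplement (R.map (QuotientGroup.mk' N)) := by
    refine ⟨?_, ?_, ?_⟩
    · intro h
      apply hR.1
      rw [eq_bot_iff]
      intro x hx
      rw [Subgroup.mem_bot]
      by_contra hx1
      apply hRinj x hx hx1
      have : QuotientGroup.mk' N x ∈ R.map (QuotientGroup.mk' N) := Subgroup.mem_map_of_mem _ hx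
      rw [h, Subgroup.mem_bot] at this
      exact this
    · intro h
      -- R N = G
      have hsup : N ⊔ R = ⊤ := by
        have h1 := Subgroup.comap_map_eq (QuotientGroup.mk' N) R
        rw [h, Subgroup.comap_top, QuotientGroup.ker_mk'] at h1
        rw [sup_comm]
        exact h1.symm
      have h1 : N.relIndex (N ⊔ R) = N.relIndex R := Subgroup.relIndex_sup_left R N
      rw [hsup, Subgroup.relIndex_top_right] at h1
      have h2 : N.relIndex R = Nat.card R := by
        rw [← Subgroup.inf_relIndex_left R N, hRN, Subgroup.relIndex_bot_left]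
      have h3 : Nat.card R * Nat.card N = Nat.card G := by
        rw [← h2, ← h1]; exact Subgroup.index_mul_card N
      have h4 : R.index * Nat.card R = Nat.card G := Subgroup.index_mul_card R
      have h5 : R.index = Nat.card N := by
        have hpos : 0 < Nat.card R := Nat.card_pos
        apply Nat.eq_of_mul_eq_mul_right hpos
        rw [h4, ← h3, mul_comm]
      have hker := card_kernel hR
      have heq : (N : Set G) = frobeniusKernel R := by
        apply Set.eq_of_subset_of_ncard_le hNK _ (Set.toFinite _)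
        rw [← Nat.card_coe_set_eq (frobeniusKernel R), hker, h5]
        exact (Nat.card_coe_set_eq _).ge
      exact hKN heq.symm.subset
    · intro gb hgb
      obtain ⟨g, rfl⟩ := QuotientGroup.mk'_surjective N gb
      rw [eq_bot_iff]
      rintro xb hxb
      obtain ⟨hx1, hx2⟩ := Subgroup.mem_inf.mp hxb
      obtain ⟨r, hr, rfl⟩ := hx1
      rw [mem_conj_iff] at hx2
      obtain ⟨r', hr', hrr'⟩ := hx2
      rw [Subgroup.mem_bot]
      by_contra hne
      have hr1 : r ≠ 1 := by
        rintro rfl
        simp at hne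
      have hr'1 : r' ≠ 1 := by
        rintro rfl
        apply hne
        simp only [map_one] at hrr'
        have := hrr'.symm
        have h3 : QuotientGroup.mk' N g * (((QuotientGroup.mk' N g)⁻¹ * QuotientGroup.mk' N r) * QuotientGroup.mk' N g) * (QuotientGroup.mk' N g)⁻¹ = 1 := by
          rw [this]; simp
        simpa [mul_assoc] using h3
      have hy : QuotientGroup.mk' N (g⁻¹ * r * g) = QuotientGroup.mk' N r' := by
        rw [hrr']; simp
      obtain ⟨n, hn, hnr⟩ := exists_conj_of_mk_eq hR N hRN hr' hr'1 hy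
      have hgn : g * n ∈ R := by
        apply mem_of_conj_mem hR hr hr1
        have : (g * n)⁻¹ * r * (g * n) = r' := by
          have e : (g * n)⁻¹ * r * (g * n) = n⁻¹ * (g⁻¹ * r * g) * n := by group
          rw [e, hnr]; group
        rw [this]; exact hr'
      apply hgb
      refine ⟨g * n, hgn, ?_⟩
      rw [map_mul, (hmk1 n).mpr hn, mul_one]
  refine ⟨hcompl, ?_⟩
  ext xb
  constructor
  · intro hxb
    obtain ⟨x, rfl⟩ := QuotientGroup.mk'_surjective N xb
    rw [mem_kernel_iff] at hxb
    rcases hxb with h | h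
    · exact ⟨x, hNK ((hmk1 x).mp h), rfl⟩
    · refine ⟨x, ?_, rfl⟩
      rw [mem_kernel_iff]
      right
      intro g hg
      apply h (QuotientGroup.mk' N g)
      refine ⟨g⁻¹ * x * g, hg, ?_⟩
      simp
  · rintro ⟨x, hx, rfl⟩
    rw [mem_kernel_iff]
    by_cases hx1 : QuotientGroup.mk' N x = 1
    · exact Or.inl hx1
    right
    intro gb hgb
    obtain ⟨g, rfl⟩ := QuotientGroup.mk'_surjective N gb
    obtain ⟨r, hr, hrx⟩ := hgb
    have hr1 : r ≠ 1 := by
      rintro rfl
      apply hx1
      simp only [map_one] at hrx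
      have := hrx.symm
      have h3 : QuotientGroup.mk' N g * (((QuotientGroup.mk' N g)⁻¹ * QuotientGroup.mk' N x) * QuotientGroup.mk' N g) * (QuotientGroup.mk' N g)⁻¹ = 1 := by
        rw [this]; simp
      simpa [mul_assoc] using h3
    have hy : QuotientGroup.mk' N (g⁻¹ * x * g) = QuotientGroup.mk' N r := by
      rw [hrx]; simp
    obtain ⟨n, hn, hnr⟩ := exists_conj_of_mk_eq hR N hRN hr hr1 hy
    have hxne : x ≠ 1 := by
      rintro rfl
      simp at hx1
    rcases mem_kernel_iff.mp hx with h | h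
    · exact hxne h
    · apply h (g * n)
      have : (g * n)⁻¹ * x * (g * n) = r := by
        have e : (g * n)⁻¹ * x * (g * n) = n⁻¹ * (g⁻¹ * x * g) * n := by group
        rw [e, hnr]; group
      rw [this]; exact hr

end Cfsg.Agent.S3768
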