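import Mathlib
import Cfsg.Statements.S3769
import Cfsg.Agent.Lib.HHFree
import Cfsg.Agent.Lib.FFBridge
import Cfsg.Agent.Lib.Glauberman2
import Cfsg.Agent.Lib.PCore
-- import your own Cfsg.Agent.* helpers here

set_option autoImplicit false
set_option linter.style.haveILetI false
set_option linter.unusedVariables false
open Cfsg

namespace Cfsg.Agent.S3769

open scoped commutatorElement

/-- Let G and V be subgroups of a finite group with G solvable of odd order normalizing V, V an elementary abelian ℓ-group for a prime ℓ not dividing the order of G, and suppose G has a normal Hall subgroup K with a complement R of prime order. If C_V(R) = 1, then [R, K] centralizes V. -/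
theorem result {X : Type*} [Group X] [Finite X] (G : Subgroup X) (hsolv : Group.IsSolvable G) (hodd : Odd (Nat.card G)) (V : Subgroup X) {ℓ : ℕ} (hℓ : ℓ.Prime) (hV : Cfsg.IsElementaryAbelian ℓ V) (hℓG : ¬ ℓ ∣ Nat.card G) (hGV : G ≤ Subgroup.normalizer (V : Set X)) (K R : Subgroup X) (hKG : K ≤ G) (hKn : G ≤ Subgroup.normalizer (K : Set X)) (hHall : (Nat.card K).Coprime (K.relIndex G)) (hRG : R ≤ G) (hR : (Nat.card R).Prime) (hKR : K ⊓ R = ⊥) (hKRG : K ⊔ R = G) (hCV : V ⊓ Subgroup.centralizer (R : Set X) = ⊥) : ⁅R, K⁆ ≤ Subgroup.centralizer (V : Set X) := by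
  classical
  haveI : Fact ℓ.Prime := ⟨hℓ⟩
  obtain ⟨E, _, _, _, ρ₀, ι, hm⟩ := Cfsg.Agent.Lib.FFBridge.exists_model hV hGV
  obtain ⟨U, _, _, _, ρ, h1, h2, -⟩ := Cfsg.Agent.Lib.HHFree.exists_closure_rep ρ₀
  -- elements acting trivially centralize `V`
  have hcent : ∀ g : G, ρ g = 1 → (g : X) ∈ Subgroup.centralizer (V : Set X) := by
    intro h hh
    have h3 := h1 h hh
    rw [Subgroup.mem_centralizer_iff]
    intro v hv
    obtain ⟨e, rfl⟩ := hm.exists_of_mem hv
    have h5 := hm.act h e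
    rw [h3] at h5
    have h6 : ι (Multiplicative.ofAdd e) = h * ι (Multiplicative.ofAdd e) * (h : X)⁻¹ := h5
    calc ι (Multiplicative.ofAdd e) * h = (h * ι (Multiplicative.ofAdd e) * (h : X)⁻¹) * h := by rw [← h6]
      _ = h * ι (Multiplicative.ofAdd e) := by group
  -- a generator
  set s : ℕ := Nat.card R with hs
  haveI : Fact s.Prime := ⟨hR⟩
  haveI : IsCyclic R := isCyclic_of_prime_card rfl
  obtain ⟨⟨x, hxR⟩, hgen⟩ := IsCyclic.exists_generator (α := R)
  have hord : orderOf x = s := by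
    have := orderOf_eq_card_of_forall_mem_zpowers hgen
    rwa [Subgroup.orderOf_mk] at this
  have hRz : R = Subgroup.zpowers x := by
    apply le_antisymm
    · intro g hg
      obtain ⟨k, hk⟩ := hgen ⟨g, hg⟩
      refine ⟨k, ?_⟩
      exact congrArg Subtype.val hk
    · rw [Subgroup.zpowers_le]
      exact hxR
  have hxs : x ^ s = 1 := by rw [← hord]; exact pow_orderOf_eq_one x
  let x' : G := ⟨x, hRG hxR⟩
  have hxs' : x' ^ s = 1 := Subtype.ext hxs
  have hker := h2 x' (by
    intro v hv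
    have h3 := hm.act x' v
    rw [hv] at h3
    have h4 : ι (Multiplicative.ofAdd v) ∈ V ⊓ Subgroup.centralizer (R : Set X) := by
      refine ⟨hm.mem_V v, ?_⟩
      show ι (Multiplicative.ofAdd v) ∈ Subgroup.centralizer (R : Set X)
      rw [Subgroup.mem_centralizer_iff, hRz]
      intro y hy
      obtain ⟨k, rfl⟩ := Subgroup.mem_zpowers_iff.1 hy
      have h5 : Commute x (ι (Multiplicative.ofAdd v)) := by
        have h6 : ι (Multiplicative.ofAdd v) = x * ι (Multiplicative.ofAdd v) * x⁻¹ := h3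
        show x * ι (Multiplicative.ofAdd v) = ι (Multiplicative.ofAdd v) * x
        calc x * ι (Multiplicative.ofAdd v) = (x * ι (Multiplicative.ofAdd v) * x⁻¹) * x := by group
          _ = ι (Multiplicative.ofAdd v) * x := by rw [← h6]
      exact h5.zpow_left k
    rw [hCV] at h4
    have h5 : ι (Multiplicative.ofAdd v) = ι (Multiplicative.ofAdd 0) := by
      rw [h4, ofAdd_zero, map_one]
    exact Multiplicative.ofAdd.injective (hm.inj h5))
  -- arithmetic of the Hall decomposition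
  have hRK : R ≤ Subgroup.normalizer (K : Set X) := hRG.trans hKn
  have hdisj : Disjoint R K := by
    rw [disjoint_iff, inf_comm]
    exact hKR
  have hidx : (K.subgroupOf (K ⊔ R)).index = Nat.card R :=
    Cfsg.Agent.Lib.Glauberman.index_subgroupOf_sup hRK hdisj
  have hcopRK : (Nat.card R).Coprime (Nat.card K) := by
    have h3 : K.relIndex G = Nat.card R := by
      rw [← hKRG]
      exact hidx
    rw [← h3]
    exact hHall.symm
  have hsolvR : Group.IsSolvable R := by
    haveI : CommGroup R := IsCyclic.commGroup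
    infer_instance
  have hKcardG : Nat.card K ∣ Nat.card G := Subgroup.card_dvd_of_le hKG
  have hRcardG : Nat.card R ∣ Nat.card G := Subgroup.card_dvd_of_le hRG
  have hK : ∀ {t : ℕ}, t ∣ Nat.card G → (t : AlgebraicClosure (ZMod ℓ)) ≠ 0 := by
    intro t ht h0
    rw [CharP.cast_eq_zero_iff (AlgebraicClosure (ZMod ℓ)) ℓ t] at h0
    exact hℓG (h0.trans ht)
  -- the main step
  have hmain : ∀ (q : ℕ) [Fact q.Prime], ∃ P : Sylow q K, ∀ k ∈ ((P : Subgroup K).map K.subtype),
      ∀ (hk : k ∈ G), ρ x' * ρ ⟨k, hk⟩ = ρ ⟨k, hk⟩ * ρ x' := by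
    intro q _
    have hq : q.Prime := Fact.out
    obtain ⟨P, hP⟩ := Cfsg.Agent.Lib.Glauberman2.exists_invariant_sylow hRK hcopRK (Or.inl hsolvR) q
    refine ⟨P, ?_⟩
    set Q : Subgroup X := (P : Subgroup K).map K.subtype with hQ
    have hQp : IsPGroup q Q := P.isPGroup'.map _
    by_contra hcon
    push Not at hcon
    obtain ⟨k₀, hk₀Q, hk₀G, hne⟩ := hcon
    -- the image group
    let Γ : Subgroup (Module.End (AlgebraicClosure (ZMod ℓ)) U)ˣ := ρ.range
    haveI : Finite Γ := Finite.of_surjective ρ.rangeRestrict ρ.rangeRestrict_surjective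
    let x₁ : Γ := ρ.rangeRestrict x'
    have hx₁ : ((x₁ : Γ) : (Module.End (AlgebraicClosure (ZMod ℓ)) U)ˣ) = ρ x' := rfl
    have hx₁s : x₁ ^ s = 1 := by
      rw [← map_pow, hxs', map_one]
    have hx₁ne : x₁ ≠ 1 := by
      intro h
      apply hne
      have h3 : ρ x' = 1 := congrArg Subtype.val h
      rw [h3, one_mul, mul_one]
    have hordx₁ : orderOf x₁ = s := orderOf_eq_prime hx₁s hx₁ne
    let Q₀ : Subgroup G := Q.subgroupOf G
    have hQ₀ : IsPGroup q Q₀ := hQp.comap_of_injective G.subtype G.subtype_injective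
    let Q₁ : Subgroup Γ := Q₀.map ρ.rangeRestrict
    have hQ₁ : IsPGroup q Q₁ := hQ₀.map _
    have hx'Q₀ : x' ∈ Subgroup.normalizer (Q₀ : Set G) := by
      rw [Subgroup.mem_normalizer_iff]
      intro g
      exact (Subgroup.mem_normalizer_iff.1 (hP hxR) g).trans Iff.rfl
    have hx₁Q₁ : x₁ ∈ Subgroup.normalizer (Q₁ : Set Γ) :=
      Subgroup.le_normalizer_map _ ⟨x', hx'Q₀, rfl⟩
    have hnt : ∃ g ∈ Q₁, x₁ * g ≠ g * x₁ := by
      refine ⟨ρ.rangeRestrict ⟨k₀, hk₀G⟩, ⟨⟨k₀, hk₀G⟩, hk₀Q, rfl⟩, ?_⟩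
      intro h
      exact hne (congrArg Subtype.val h)
    have hker₁ : LinearMap.ker (((Γ.subtype x₁ : (Module.End (AlgebraicClosure (ZMod ℓ)) U)ˣ) :
        Module.End (AlgebraicClosure (ZMod ℓ)) U) - 1) = ⊥ := hker
    have hk₀ne : k₀ ≠ 1 := by
      rintro rfl
      apply hne
      have : (⟨1, hk₀G⟩ : G) = 1 := rfl
      rw [this, map_one, one_mul, mul_one]
    have hqG : q ∣ Nat.card G := by
      have hQne : Q ≠ ⊥ := by
        intro h
        rw [h, Subgroup.mem_bot] at hk₀Q
        exact hk₀ne hk₀Q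
      obtain ⟨m, hm'⟩ := IsPGroup.iff_card.mp hQp
      have hm0 : m ≠ 0 := by
        rintro rfl
        rw [pow_zero] at hm'
        exact hQne (Subgroup.card_eq_one.1 hm')
      have hQK : Q ≤ K := Subgroup.map_subtype_le _
      have h3 : q ∣ Nat.card Q := by
        rw [hm']
        exact dvd_pow_self q hm0
      exact h3.trans ((Subgroup.card_dvd_of_le hQK).trans hKcardG)
    have hqs : q ≠ s := by
      intro h
      have h3 : q ∣ Nat.card K := by
        obtain ⟨m, hm'⟩ := IsPGroup.iff_card.mp hQp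
        have hm0 : m ≠ 0 := by
          rintro rfl
          rw [pow_zero] at hm'
          have : Q = ⊥ := Subgroup.card_eq_one.1 hm'
          rw [this, Subgroup.mem_bot] at hk₀Q
          exact hk₀ne hk₀Q
        have hQK : Q ≤ K := Subgroup.map_subtype_le _
        have h4 : q ∣ Nat.card Q := by
          rw [hm']
          exact dvd_pow_self q hm0
        exact h4.trans (Subgroup.card_dvd_of_le hQK)
      have h4 : q ∣ Nat.card R := by rw [h]
      have h5 := Nat.Coprime.eq_one_of_dvd (hcopRK.coprime_dvd_left h4) h3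
      exact hq.one_lt.ne' h5
    obtain ⟨hq2, -, -⟩ := Cfsg.Agent.Lib.HHFree.layer4 Γ.subtype Γ.subtype_injective hq hR hqs (hK hqG)
      (hK hRcardG) x₁ hordx₁ Q₁ hQ₁ hx₁Q₁ hnt hker₁
    rw [hq2] at hqG
    obtain ⟨c, hc⟩ := hodd
    omega
  -- every element of `K`
  let CK : Subgroup K := (Subgroup.centralizer {ρ x'}).comap (ρ.comp (Subgroup.inclusion hKG))
  have hCK : CK = ⊤ := by
    apply Cfsg.Agent.Lib.PCore.eq_top_of_forall_sylow_le
    intro q _
    obtain ⟨P, hP⟩ := hmain q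
    refine ⟨P, ?_⟩
    intro k hk
    show ρ (Subgroup.inclusion hKG k) ∈ Subgroup.centralizer {ρ x'}
    rw [Subgroup.mem_centralizer_singleton_iff]
    exact (hP k ⟨k, hk, rfl⟩ (hKG k.2)).symm
  rw [Subgroup.commutator_le]
  intro r hr k hk
  have h3 : (⟨k, hk⟩ : K) ∈ CK := by
    rw [hCK]
    trivial
  have h4 : ρ (Subgroup.inclusion hKG ⟨k, hk⟩) ∈ Subgroup.centralizer {ρ x'} := h3
  rw [Subgroup.mem_centralizer_singleton_iff] at h4
  rw [hRz] at hr
  obtain ⟨i, rfl⟩ := Subgroup.mem_zpowers_iff.1 hr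
  have h5 : Commute (ρ x') (ρ ⟨k, hKG hk⟩) := h4.symm
  have h6 : ρ (x' ^ i) * ρ ⟨k, hKG hk⟩ = ρ ⟨k, hKG hk⟩ * ρ (x' ^ i) := by
    rw [map_zpow]
    exact h5.zpow_left i
  have h7 : ρ ⁅x' ^ i, (⟨k, hKG hk⟩ : G)⁆ = 1 := by
    rw [commutatorElement_def, map_mul, map_mul, map_mul, map_inv, map_inv, h6]
    group
  have h8 := hcent _ h7
  exact h8

end Cfsg.Agent.S3769
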