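import Mathlib
import Cfsg.Statements.S3771

set_option autoImplicit false
open Cfsg

namespace Cfsg.Agent.S3771

variable {R : Type*} [Group R] [Finite R] {p : ℕ} [Fact p.Prime]

theorem card_mul_le_of_lt (hR : IsPGroup p R) {K L : Subgroup R} (h : K < L) :
    p * Nat.card K ≤ Nat.card L := by
  obtain ⟨a, ha⟩ := IsPGroup.iff_card.mp (hR.to_subgroup K)
  obtain ⟨b, hb⟩ := IsPGroup.iff_card.mp (hR.to_subgroup L)
  have hpp : p.Prime := Fact.out
  have hdvd : Nat.card K ∣ Nat.card L := Subgroup.card_dvd_of_le h.le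
  rw [ha, hb] at hdvd
  have hle : a ≤ b := (Nat.pow_dvd_pow_iff_le_right hpp.one_lt).mp hdvd
  have hne : a ≠ b := by
    rintro rfl
    have hcard : Nat.card K = Nat.card L := by rw [ha, hb]
    exact h.ne (Subgroup.eq_of_le_of_card_ge h.le hcard.ge)
  rw [ha, hb, ← pow_succ']
  exact Nat.pow_le_pow_right hpp.pos (by omega)

/-- Let p be a prime and R a finite p-group of p-rank at most 2 (no elementary abelian subgroup of order p³) in which every element has order dividing p. Then R has order at most p³. -/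
theorem result {R : Type*} [Group R] [Finite R] {p : ℕ} [Fact p.Prime] (hR : IsPGroup p R) (hrank : Cfsg.PRankLE p 2 R) (hexp : ∀ x : R, x ^ p = 1) : Nat.card R ≤ p ^ 3 := by
  classical
  have hpp : p.Prime := Fact.out
  by_contra hcon
  push Not at hcon
  have hone : 1 < Nat.card R := lt_of_le_of_lt (Nat.one_le_pow _ _ hpp.pos) hcon
  haveI : Nontrivial R := Finite.one_lt_card_iff_nontrivial.mp hone
  -- a central element of order p
  haveI := hR.center_nontrivial
  obtain ⟨z₀, hz₀⟩ := exists_ne (1 : Subgroup.center R)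
  set z : R := (z₀ : R) with hz
  have hzc : z ∈ Subgroup.center R := z₀.2
  have hz1 : z ≠ 1 := fun h => hz₀ (Subtype.ext h)
  have hzord : orderOf z = p := orderOf_eq_prime (hexp z) hz1
  let Z : Subgroup R := Subgroup.zpowers z
  have hZle : Z ≤ Subgroup.center R := Subgroup.zpowers_le.mpr hzc
  haveI hZn : Z.Normal := by
    constructor
    intro n hn g
    have := Subgroup.mem_center_iff.mp (hZle hn) g
    rw [this]
    simpa using hn
  have hZcard : Nat.card Z = p := by
    rw [Nat.card_zpowers, hzord]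
  -- the quotient is nontrivial
  have hQone : 1 < Nat.card (R ⧸ Z) := by
    have h1 := Subgroup.card_eq_card_quotient_mul_card_subgroup Z
    rw [hZcard] at h1
    by_contra h2
    have h3 : Nat.card (R ⧸ Z) ≤ 1 := by omega
    have h4 : Nat.card R ≤ 1 * p := by
      rw [h1]; exact Nat.mul_le_mul_right _ h3
    have h5 : p ≤ p ^ 3 := Nat.le_self_pow (by norm_num) p
    omega
  haveI : Nontrivial (R ⧸ Z) := Finite.one_lt_card_iff_nontrivial.mp hQone
  have hQ : IsPGroup p (R ⧸ Z) := hR.to_quotient Z
  haveI := hQ.center_nontrivial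
  obtain ⟨yb, hyb⟩ := exists_ne (1 : Subgroup.center (R ⧸ Z))
  obtain ⟨y, hy⟩ := QuotientGroup.mk'_surjective Z (yb : R ⧸ Z)
  have hyZ : y ∉ Z := by
    intro hmem
    apply hyb
    apply Subtype.ext
    rw [← hy]
    simpa using (QuotientGroup.eq_one_iff y).mpr hmem
  have hcomm : ∀ r : R, r * y * r⁻¹ * y⁻¹ ∈ Z := by
    intro r
    rw [← QuotientGroup.eq_one_iff]
    have hc := Subgroup.mem_center_iff.mp yb.2 (r : R ⧸ Z)
    rw [← hy] at hc
    simp only [QuotientGroup.mk'_apply] at hc
    rw [QuotientGroup.mk_mul, QuotientGroup.mk_mul, QuotientGroup.mk_mul, QuotientGroup.mk_inv, QuotientGroup.mk_inv, hc]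
    group
  -- the commutator homomorphism
  have hZcomm : ∀ (w : R), w ∈ Z → ∀ g : R, g * w = w * g := fun w hw g =>
    Subgroup.mem_center_iff.mp (hZle hw) g
  let φ : R →* Z := MonoidHom.mk' (fun r => ⟨r * y * r⁻¹ * y⁻¹, hcomm r⟩) (by
    intro a b
    apply Subtype.ext
    show a * b * y * (a * b)⁻¹ * y⁻¹ = (a * y * a⁻¹ * y⁻¹) * (b * y * b⁻¹ * y⁻¹)
    have e : a * b * y * (a * b)⁻¹ * y⁻¹ = a * (b * y * b⁻¹ * y⁻¹) * y * a⁻¹ * y⁻¹ := by group
    rw [e, hZcomm _ (hcomm b) a]
    have e2 : (a * y * a⁻¹ * y⁻¹) * (b * y * b⁻¹ * y⁻¹) = (b * y * b⁻¹ * y⁻¹) * (a * y * a⁻¹ * y⁻¹) :=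
      hZcomm _ (hcomm b) _ 
    rw [e2]
    group)
  have hφker : ∀ x : R, x ∈ φ.ker ↔ x * y = y * x := by
    intro x
    rw [MonoidHom.mem_ker]
    constructor
    · intro h
      have h2 : x * y * x⁻¹ * y⁻¹ = 1 := congrArg Subtype.val h
      have h3 : x * y * x⁻¹ * y⁻¹ * (y * x) = 1 * (y * x) := by rw [h2]
      simpa [mul_assoc] using h3
    · intro h
      apply Subtype.ext
      show x * y * x⁻¹ * y⁻¹ = 1
      rw [h]
      group
  have hindex : φ.ker.index ≤ p := by
    rw [Subgroup.index_ker, ← hZcard]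
    exact Subgroup.card_le_card_group _
  -- the subgroups
  have hcommsz : ∀ g : R, g * z = z * g := fun g => Subgroup.mem_center_iff.mp hzc g
  let A : Subgroup R := Subgroup.closure {z, y}
  have hAab : IsMulCommutative A := by
    apply Subgroup.isMulCommutative_closure
    intro a ha b hb
    simp only [Set.mem_insert_iff, Set.mem_singleton_iff] at ha hb
    rcases ha with rfl | rfl <;> rcases hb with rfl | rfl
    · rfl
    · exact (hcommsz _).symm
    · exact hcommsz _
    · rfl
  have hAcard : Nat.card A ≤ p ^ 2 := hrank A hAab (fun a _ => hexp a)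
  have hZlt : Z < A := by
    refine lt_of_le_of_ne ?_ ?_
    · exact Subgroup.zpowers_le.mpr (Subgroup.subset_closure (by simp))
    · intro h
      apply hyZ
      show y ∈ Z
      rw [h]
      exact Subgroup.subset_closure (by simp)
  have hAp2 : p ^ 2 ≤ Nat.card A := by
    have := card_mul_le_of_lt hR hZlt
    rw [hZcard] at this
    rwa [sq]
  have hCA : φ.ker ≤ A := by
    intro x hx
    by_contra hxA
    have hxy : x * y = y * x := (hφker x).mp hx
    let B : Subgroup R := Subgroup.closure {z, y, x}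
    have hBab : IsMulCommutative B := by
      apply Subgroup.isMulCommutative_closure
      intro a ha b hb
      simp only [Set.mem_insert_iff, Set.mem_singleton_iff] at ha hb
      rcases ha with rfl | rfl | rfl <;> rcases hb with rfl | rfl | rfl
      · rfl
      · exact (hcommsz _).symm
      · exact (hcommsz _).symm
      · exact hcommsz _
      · rfl
      · exact hxy.symm
      · exact hcommsz _
      · exact hxy
      · rfl
    have hBcard : Nat.card B ≤ p ^ 2 := hrank B hBab (fun a _ => hexp a)
    have hAB : A < B := by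
      refine lt_of_le_of_ne ?_ ?_
      · apply Subgroup.closure_mono
        intro a ha
        simp only [Set.mem_insert_iff, Set.mem_singleton_iff] at ha ⊢
        rcases ha with rfl | rfl
        · exact Or.inl rfl
        · exact Or.inr (Or.inl rfl)
      · intro h
        apply hxA
        show x ∈ A
        rw [h]
        exact Subgroup.subset_closure (by simp)
    have h1 := card_mul_le_of_lt hR hAB
    have hp2 : 2 ≤ p := hpp.two_le
    have h2 : 0 < p ^ 2 := by positivity
    nlinarith
  have hCcard : Nat.card φ.ker ≤ p ^ 2 :=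
    (Nat.le_of_dvd (Nat.card_pos) (Subgroup.card_dvd_of_le hCA)).trans hAcard
  have h1 := Subgroup.index_mul_card φ.ker
  have h2 : Nat.card R ≤ p * p ^ 2 := by
    rw [← h1]
    exact Nat.mul_le_mul hindex hCcard
  have h3 : p * p ^ 2 = p ^ 3 := by ring
  omega

end Cfsg.Agent.S3771
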