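import Mathlib
import Cfsg.Statements.S3772
import Cfsg.Agent.Lib.Frat

set_option autoImplicit false
open Cfsg
open scoped commutatorElement

namespace Cfsg.Agent.S3772

section gauss

variable {G : Type*} [Group G] [Fintype G] [DecidableEq G]

/-- the sign of an element of `{1, z}` -/
def sg (w : G) : ℤ := if w = 1 then 1 else -1

variable (z : G) (hzc : ∀ g : G, g * z = z * g) (hz2 : z * z = 1) (hz1 : z ≠ 1)
  (hsq : ∀ x : G, x ^ 2 = 1 ∨ x ^ 2 = z)
  (hcm : ∀ x y : G, ⁅x, y⁆ = 1 ∨ ⁅x, y⁆ = z)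

include hz2 hz1 in
theorem sg_mul (a b : G) (ha : a = 1 ∨ a = z) (hb : b = 1 ∨ b = z) :
    sg (a * b) = sg a * sg b := by
  rcases ha with rfl | rfl <;> rcases hb with rfl | rfl <;> simp [sg, hz1, hz2]

theorem sg_sq (a : G) : sg a * sg a = 1 := by
  unfold sg; split_ifs <;> simp

include hzc hcm in
theorem comm_central (x y g : G) : g * ⁅x, y⁆ = ⁅x, y⁆ * g := by
  rcases hcm x y with h | h
  · rw [h]; simp
  · rw [h]; exact hzc g

include hzc hcm in
theorem mul_sq (x y : G) : (x * y) ^ 2 = ⁅y, x⁆ * (x ^ 2 * y ^ 2) := by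
  have hc := comm_central z hzc hcm y x
  have h1 : y * x = ⁅y, x⁆ * (x * y) := by
    rw [commutatorElement_def]; group
  calc (x * y) ^ 2 = x * (y * x) * y := by rw [sq]; group
    _ = x * (⁅y, x⁆ * (x * y)) * y := by rw [← h1]
    _ = (x * ⁅y, x⁆) * (x * y) * y := by group
    _ = (⁅y, x⁆ * x) * (x * y) * y := by rw [hc]
    _ = ⁅y, x⁆ * (x ^ 2 * y ^ 2) := by simp only [sq]; group

include hzc hz2 hz1 hsq hcm in
theorem f_mul (x y : G) : sg ((x * y) ^ 2) = sg ⁅y, x⁆ * (sg (x ^ 2) * sg (y ^ 2)) := by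
  rw [mul_sq z hzc hcm]
  rw [sg_mul z hz2 hz1 _ _ (hcm y x)]
  · rw [sg_mul z hz2 hz1 _ _ (hsq x) (hsq y)]
  · rcases hsq x with hx | hx <;> rcases hsq y with hy | hy <;> rw [hx, hy] <;> simp [hz2]

include hzc hz2 hz1 hcm in
theorem comm_mul_left (a b u : G) : sg ⁅a * b, u⁆ = sg ⁅a, u⁆ * sg ⁅b, u⁆ := by
  have h : ⁅a * b, u⁆ = ⁅b, u⁆ * ⁅a, u⁆ := by
    have hc := comm_central z hzc hcm b u
    simp only [commutatorElement_def] at hc ⊢
    have h2 : a * b * u * (a * b)⁻¹ * u⁻¹ = a * (b * u * b⁻¹ * u⁻¹) * u * a⁻¹ * u⁻¹ := by group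
    rw [h2, hc a]
    group
  rw [h, sg_mul z hz2 hz1 _ _ (hcm b u) (hcm a u), mul_comm]

/-- Sum over `y` of the commutator sign vanishes off the centre. -/
theorem sum_comm_noncentral (hzc : ∀ g : G, g * z = z * g) (hz2 : z * z = 1) (hz1 : z ≠ 1)
    (hcm : ∀ x y : G, ⁅x, y⁆ = 1 ∨ ⁅x, y⁆ = z) (u : G) (hu : ∃ y₀ : G, ⁅y₀, u⁆ ≠ 1) :
    ∑ y : G, sg ⁅y, u⁆ = 0 := by
  obtain ⟨y₀, hy₀⟩ := hu
  have h1 : ∑ y : G, sg ⁅y, u⁆ = ∑ y : G, sg ⁅y₀ * y, u⁆ :=
    (Fintype.sum_equiv (Equiv.mulLeft y₀) _ _ (fun _ => rfl)).symm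
  have h2 : ∑ y : G, sg ⁅y₀ * y, u⁆ = - ∑ y : G, sg ⁅y, u⁆ := by
    rw [← Finset.sum_neg_distrib]
    refine Finset.sum_congr rfl (fun y _ => ?_)
    rw [comm_mul_left z hzc hz2 hz1 hcm]
    simp [sg, hy₀]
    split_ifs <;> rfl
  omega

include hzc hz2 hz1 hsq hcm in
/-- the Gauss sum identity -/
theorem gauss :
    (∑ x : G, sg (x ^ 2)) ^ 2 =
      (Fintype.card G : ℤ) * ∑ u ∈ Finset.univ.filter (fun u : G => ∀ y : G, ⁅y, u⁆ = 1), sg (u ^ 2) := by
  have h1 : (∑ x : G, sg (x ^ 2)) ^ 2 = ∑ y : G, ∑ x : G, sg (x ^ 2) * sg (y ^ 2) := by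
    rw [sq, Finset.sum_mul_sum, Finset.sum_comm]
  have h2 : ∀ y : G, ∑ x : G, sg (x ^ 2) * sg (y ^ 2) = ∑ u : G, sg ⁅y, u⁆ * sg (u ^ 2) := by
    intro y
    rw [← Fintype.sum_equiv (Equiv.mulRight y) (fun u => sg ((u * y) ^ 2) * sg (y ^ 2))
      (fun x => sg (x ^ 2) * sg (y ^ 2)) (fun _ => rfl)]
    refine Finset.sum_congr rfl (fun u _ => ?_)
    rw [f_mul z hzc hz2 hz1 hsq hcm]
    have := sg_sq (y ^ 2)
    calc sg ⁅y, u⁆ * (sg (u ^ 2) * sg (y ^ 2)) * sg (y ^ 2)
        = sg ⁅y, u⁆ * sg (u ^ 2) * (sg (y ^ 2) * sg (y ^ 2)) := by ring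
      _ = _ := by rw [this, mul_one]
  rw [h1, Finset.sum_congr rfl (fun y _ => h2 y), Finset.sum_comm]
  have h3 : ∀ u : G, ∑ y : G, sg ⁅y, u⁆ * sg (u ^ 2) =
      if (∀ y : G, ⁅y, u⁆ = 1) then (Fintype.card G : ℤ) * sg (u ^ 2) else 0 := by
    intro u
    rw [← Finset.sum_mul]
    split_ifs with h
    · congr 1
      simp [h, sg]
    · push Not at h
      rw [sum_comm_noncentral z hzc hz2 hz1 hcm u h, zero_mul]
  rw [Finset.sum_congr rfl (fun u _ => h3 u), Finset.sum_ite, Finset.sum_const_zero, add_zero,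
    Finset.mul_sum]

include hzc hz2 hz1 hsq hcm in
/-- On the centre the sign is a homomorphism, so its sum is zero or the order of the centre. -/
theorem sum_center :
    (∑ u ∈ Finset.univ.filter (fun u : G => ∀ y : G, ⁅y, u⁆ = 1), sg (u ^ 2) = 0) ∨
    (∀ u : G, (∀ y : G, ⁅y, u⁆ = 1) → u ^ 2 = 1) := by
  by_cases h : ∀ u : G, (∀ y : G, ⁅y, u⁆ = 1) → u ^ 2 = 1
  · exact Or.inr h
  left
  push Not at h
  obtain ⟨u₀, hu₀, hu₀2⟩ := h
  set C := Finset.univ.filter (fun u : G => ∀ y : G, ⁅y, u⁆ = 1) with hC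
  have hcomm : ∀ u v : G, (∀ y : G, ⁅y, v⁆ = 1) → ∀ y : G, ⁅y, u * v⁆ = ⁅y, u⁆ := by
    intro u v hv y
    have hv' : ∀ g : G, g * v = v * g := by
      intro g
      have := hv g
      rw [commutatorElement_eq_one_iff_mul_comm] at this
      exact this
    rw [commutatorElement_def, commutatorElement_def]
    have e : y * (u * v) * y⁻¹ * (u * v)⁻¹ = y * u * (v * y⁻¹) * (v⁻¹ * u⁻¹) := by group
    rw [e, ← hv' y⁻¹]
    group
  have h1 : ∑ u ∈ C, sg (u ^ 2) = ∑ u ∈ C, sg ((u₀ * u) ^ 2) := by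
    refine (Finset.sum_bij (fun u _ => u₀ * u) ?_ ?_ ?_ ?_).symm
    · intro u hu
      simp only [hC, Finset.mem_filter, Finset.mem_univ, true_and] at hu ⊢
      intro y
      rw [hcomm u₀ u hu y, hu₀ y]
    · intro a _ b _ h
      exact mul_left_cancel h
    · intro b hb
      simp only [hC, Finset.mem_filter, Finset.mem_univ, true_and] at hb
      refine ⟨u₀⁻¹ * b, ?_, by group⟩
      simp only [hC, Finset.mem_filter, Finset.mem_univ, true_and]
      intro y
      rw [hcomm u₀⁻¹ b hb y]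
      have hv' : ∀ g : G, g * u₀ = u₀ * g := by
        intro g
        have := hu₀ g
        rw [commutatorElement_eq_one_iff_mul_comm] at this
        exact this
      rw [commutatorElement_eq_one_iff_mul_comm]
      have := hv' y
      have e2 : y * u₀⁻¹ = u₀⁻¹ * (u₀ * y * u₀⁻¹) := by group
      rw [e2, ← hv' y]
      group
    · intro u _
      rfl
  have h2 : ∑ u ∈ C, sg ((u₀ * u) ^ 2) = - ∑ u ∈ C, sg (u ^ 2) := by
    rw [← Finset.sum_neg_distrib]
    refine Finset.sum_congr rfl (fun u hu => ?_)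
    simp only [hC, Finset.mem_filter, Finset.mem_univ, true_and] at hu
    rw [f_mul z hzc hz2 hz1 hsq hcm, hu₀ u]
    simp [sg, hu₀2]
    split_ifs <;> rfl
  omega

end gauss

theorem arith (d t a : ℕ) (h : 2 * t = d + a - 1) (h2 : a + 1 ≤ d) (h3 : a ≠ 0) :
    1 ≤ d - t ∧ 2 * (d - t) ≤ d ∧ d - (d - t) = t := by
  omega

/-- Let G be a finite 2-group whose Frattini subgroup Φ(G) has order 2, with |G : Φ(G)| = 2^d, and let j be the number of elements x of G with x² = 1. Then j = 2^d, or j = 2^d + 2^(d−r) or j = 2^d − 2^(d−r) for some positive integer r with 2r ≤ d. Moreover if d = 2r and j is 2^d + 2^r or 2^d − 2^r, then G is extraspecial. -/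
theorem result {G : Type*} [Group G] [Finite G] (hG : IsPGroup 2 G) (hΦ : Nat.card (frattini G) = 2) (d : ℕ) (hd : (frattini G).index = 2 ^ d) : (Nat.card {x : G // x ^ 2 = 1} = 2 ^ d ∨ ∃ r : ℕ, 1 ≤ r ∧ 2 * r ≤ d ∧ (Nat.card {x : G // x ^ 2 = 1} = 2 ^ d + 2 ^ (d - r) ∨ Nat.card {x : G // x ^ 2 = 1} + 2 ^ (d - r) = 2 ^ d)) ∧ (∀ r : ℕ, d = 2 * r → (Nat.card {x : G // x ^ 2 = 1} = 2 ^ d + 2 ^ r ∨ Nat.card {x : G // x ^ 2 = 1} + 2 ^ r = 2 ^ d) → Cfsg.IsExtraspecial 2 G) := by
  classical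
  haveI := Fintype.ofFinite G
  haveI : Fact (Nat.Prime 2) := ⟨Nat.prime_two⟩
  -- the non-identity element of Φ
  obtain ⟨⟨z, hzΦ⟩, hz1', hzuniq⟩ := (Nat.card_eq_two_iff' (1 : frattini G)).mp hΦ
  have hz1 : z ≠ 1 := fun h => hz1' (Subtype.ext h)
  have hΦ2 : ∀ w ∈ frattini G, w = 1 ∨ w = z := by
    intro w hw
    by_cases hw1 : w = 1
    · exact Or.inl hw1
    · right
      have := hzuniq ⟨w, hw⟩ (fun h => hw1 (congrArg Subtype.val h))
      exact congrArg Subtype.val this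
  have hz2 : z * z = 1 := by
    rcases hΦ2 (z * z) (mul_mem hzΦ hzΦ) with h | h
    · exact h
    · exact absurd (by simpa using h) hz1
  have hzc : ∀ g : G, g * z = z * g := by
    intro g
    have hn : (frattini G).Normal := inferInstance
    rcases hΦ2 (g * z * g⁻¹) (hn.conj_mem z hzΦ g) with h | h
    · exfalso
      apply hz1
      have : g⁻¹ * (g * z * g⁻¹) * g = g⁻¹ * 1 * g := by rw [h]
      simpa [mul_assoc] using this
    · calc g * z = (g * z * g⁻¹) * g := by group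
        _ = z * g := by rw [h]
  have hsq : ∀ x : G, x ^ 2 = 1 ∨ x ^ 2 = z := fun x =>
    hΦ2 _ (Cfsg.Agent.Lib.Frat.pow_mem_frattini hG x)
  have hcm : ∀ x y : G, ⁅x, y⁆ = 1 ∨ ⁅x, y⁆ = z := by
    intro x y
    apply hΦ2
    apply Cfsg.Agent.Lib.Frat.commutator_le_frattini hG
    rw [commutator_def]
    exact Subgroup.commutator_mem_commutator (Subgroup.mem_top x) (Subgroup.mem_top y)
  -- cardinalities
  have hcardG : Fintype.card G = 2 ^ (d + 1) := by
    rw [← Nat.card_eq_fintype_card, ← Subgroup.index_mul_card (frattini G), hd, hΦ, pow_succ]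
  set j : ℕ := (Finset.univ.filter (fun x : G => x ^ 2 = 1)).card with hj
  have hjcard : Nat.card {x : G // x ^ 2 = 1} = j := by
    rw [Nat.card_eq_fintype_card, Fintype.card_subtype]
  rw [hjcard]
  set T : ℤ := ∑ x : G, sg (x ^ 2) with hT
  have hTj : T = 2 * (j : ℤ) - 2 ^ (d + 1) := by
    have h1 : ∀ x : G, sg (x ^ 2) = 2 * (if x ^ 2 = 1 then 1 else 0) - 1 := by
      intro x
      unfold sg
      split_ifs <;> norm_num
    have h2 : T = 2 * ∑ x : G, (if x ^ 2 = 1 then (1 : ℤ) else 0) - Fintype.card G := by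
      rw [hT, Finset.sum_congr rfl (fun x _ => h1 x), Finset.sum_sub_distrib, Finset.mul_sum]
      simp
    rw [h2, hcardG, hj, Finset.sum_boole]
    push_cast
    ring
  -- the centre
  set C := Finset.univ.filter (fun u : G => ∀ y : G, ⁅y, u⁆ = 1) with hC
  have hCmem : ∀ u : G, u ∈ C ↔ u ∈ Subgroup.center G := by
    intro u
    simp only [hC, Finset.mem_filter, Finset.mem_univ, true_and, Subgroup.mem_center_iff]
    constructor
    · intro h g
      have := h g
      rwa [commutatorElement_eq_one_iff_mul_comm] at this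
    · intro h y
      rw [commutatorElement_eq_one_iff_mul_comm]
      exact h y
  obtain ⟨a, ha⟩ := IsPGroup.iff_card.mp (hG.to_subgroup (Subgroup.center G))
  have hCcard : C.card = 2 ^ a := by
    rw [← ha, Nat.card_eq_fintype_card, Fintype.card_subtype]
    congr 1
    ext u
    simp [hCmem u]
  have hgauss := gauss z hzc hz2 hz1 hsq hcm
  rw [← hT, ← hC] at hgauss
  -- main alternative
  have hmain : T = 0 ∨ (T ^ 2 = 2 ^ (d + 1) * 2 ^ a ∧ ∀ u : G, u ∈ Subgroup.center G → u ^ 2 = 1) := by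
    rcases sum_center z hzc hz2 hz1 hsq hcm with h0 | h1
    · left
      rw [← hC] at h0
      rw [h0, mul_zero] at hgauss
      exact pow_eq_zero_iff (two_ne_zero) |>.mp hgauss
    · right
      have hu : ∀ u : G, u ∈ Subgroup.center G → u ^ 2 = 1 := by
        intro u hu
        apply h1 u
        have := (hCmem u).mpr hu
        simpa [hC] using this
      refine ⟨?_, hu⟩
      have hW : ∑ u ∈ C, sg (u ^ 2) = C.card := by
        rw [Finset.sum_congr rfl (g := fun _ => (1 : ℤ))]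
        · simp
        · intro u huC
          rw [hu u ((hCmem u).mp huC)]
          simp [sg]
      rw [hgauss, hW, hCcard, hcardG]
      push_cast
      ring
  have hzZ : z ∈ Subgroup.center G := by
    rw [Subgroup.mem_center_iff]
    exact hzc
  have ha0 : a ≠ 0 := by
    rintro rfl
    have h1 : Nat.card (Subgroup.center G) = 1 := by simpa using ha
    have : Subgroup.center G = ⊥ := Subgroup.eq_bot_of_card_eq _ h1
    rw [this] at hzZ
    exact hz1 (Subgroup.mem_bot.mp hzZ)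
  -- the case of nonzero sum
  have hnz : T ≠ 0 → ∃ t : ℕ, ((j : ℤ) - 2 ^ d = 2 ^ t ∨ (j : ℤ) - 2 ^ d = - 2 ^ t) ∧
      2 * t = d + a - 1 ∧ Subgroup.center G ≠ ⊤ ∧ a + 1 ≤ d := by
    intro hT0
    rcases hmain with h | ⟨h2, hu⟩
    · exact absurd h hT0
    have hntop : Subgroup.center G ≠ ⊤ := by
      intro htop
      have hcomm : commutator G ≤ ⊥ := by
        rw [le_bot_iff]
        exact (commutator_eq_bot_iff_center_eq_top G).mpr htop
      have hpow : ∀ x : G, x ^ 2 ∈ (⊥ : Subgroup G) := by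
        intro x
        rw [Subgroup.mem_bot]
        exact hu x (htop ▸ Subgroup.mem_top x)
      have hbot := Cfsg.Agent.Lib.Frat.frattini_le_of_commutator_pow (p := 2) ⊥ hcomm hpow
      exact hz1 (Subgroup.mem_bot.mp (hbot hzΦ))
    set D : ℤ := (j : ℤ) - 2 ^ d with hD
    have hTD : T = 2 * D := by rw [hTj, hD]; ring
    have hD2 : D ^ 2 = 2 ^ (d + a - 1) := by
      have e : (2 : ℤ) ^ (d + 1) * 2 ^ a = 4 * 2 ^ (d + a - 1) := by
        have : d + 1 + a = (d + a - 1) + 2 := by omega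
        rw [← pow_add, this, pow_add]
        ring
      rw [hTD, e] at h2
      have : (2 * D) ^ 2 = 4 * D ^ 2 := by ring
      rw [this] at h2
      exact mul_left_cancel₀ (by norm_num) h2
    have hnat : D.natAbs ^ 2 = 2 ^ (d + a - 1) := by
      have := congrArg Int.natAbs hD2
      simpa [Int.natAbs_pow] using this
    have hdvd : D.natAbs ∣ 2 ^ (d + a - 1) := by
      rw [← hnat]; exact dvd_pow_self _ two_ne_zero
    obtain ⟨t, _, ht⟩ := (Nat.dvd_prime_pow Nat.prime_two).mp hdvd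
    have h2t : 2 * t = d + a - 1 := by
      rw [ht, ← pow_mul, mul_comm] at hnat
      exact Nat.pow_right_injective (le_refl 2) hnat
    have hDt : D = 2 ^ t ∨ D = - 2 ^ t := by
      rcases Int.natAbs_eq D with h | h
      · left; rw [h, ht]; simp
      · right; rw [h, ht]; simp
    -- a ≤ d + 1, a ≠ d + 1, a ≠ d
    have hale : a ≤ d + 1 := by
      have h1 : Nat.card (Subgroup.center G) ∣ Nat.card G := Subgroup.card_subgroup_dvd_card _
      rw [ha, Nat.card_eq_fintype_card, hcardG] at h1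
      exact (Nat.pow_dvd_pow_iff_le_right (by norm_num)).mp h1
    have hane : a ≠ d + 1 := by
      rintro rfl
      apply hntop
      apply Subgroup.eq_top_of_card_eq
      rw [ha, Nat.card_eq_fintype_card, hcardG]
    refine ⟨t, hDt, h2t, hntop, ?_⟩
    omega
  have hTjD : T = 2 * ((j : ℤ) - 2 ^ d) := by rw [hTj]; ring
  constructor
  · by_cases hT0 : T = 0
    · left
      rw [hTjD] at hT0
      have : (j : ℤ) = 2 ^ d := by linarith
      exact_mod_cast this
    · right
      obtain ⟨t, hDt, h2t, _, hle⟩ := hnz hT0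
      obtain ⟨e1, e2, e⟩ := arith d t a h2t hle ha0
      refine ⟨d - t, e1, e2, ?_⟩
      rw [e]
      rcases hDt with h | h
      · left
        have : (j : ℤ) = 2 ^ d + 2 ^ t := by linarith
        exact_mod_cast this
      · right
        have : (j : ℤ) + 2 ^ t = 2 ^ d := by linarith
        exact_mod_cast this
  · intro r hdr hj2
    have hDr : (j : ℤ) - 2 ^ d = 2 ^ r ∨ (j : ℤ) - 2 ^ d = - 2 ^ r := by
      rcases hj2 with h | h
      · left
        have : (j : ℤ) = 2 ^ d + 2 ^ r := by exact_mod_cast h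
        linarith
      · right
        have : (j : ℤ) + 2 ^ r = 2 ^ d := by exact_mod_cast h
        linarith
    have hT0 : T ≠ 0 := by
      rw [hTjD]
      have hpos : (2 : ℤ) ^ r ≠ 0 := by positivity
      rcases hDr with h | h <;> rw [h] <;> simp
    obtain ⟨t, hDt, h2t, hntop, hle⟩ := hnz hT0
    -- t = r
    have htr : t = r := by
      have habs : ((j : ℤ) - 2 ^ d).natAbs = 2 ^ t := by
        rcases hDt with h | h <;> rw [h] <;> simp [Int.natAbs_pow]
      have habs2 : ((j : ℤ) - 2 ^ d).natAbs = 2 ^ r := by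
        rcases hDr with h | h <;> rw [h] <;> simp [Int.natAbs_pow]
      rw [habs] at habs2
      exact Nat.pow_right_injective (le_refl 2) habs2
    have ha1 : a = 1 := by omega
    rw [ha1, pow_one] at ha
    have hΦZ : frattini G ≤ Subgroup.center G := by
      intro w hw
      rcases hΦ2 w hw with h | h
      · rw [h]; exact one_mem _
      · rw [h]; exact hzZ
    have heq : frattini G = Subgroup.center G :=
      Subgroup.eq_of_le_of_card_ge hΦZ (by rw [ha, hΦ])
    have hcne : commutator G ≠ ⊥ := by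
      intro h
      exact hntop ((commutator_eq_bot_iff_center_eq_top G).mp h)
    have hcle : commutator G ≤ frattini G := Cfsg.Agent.Lib.Frat.commutator_le_frattini hG
    have hceq : commutator G = frattini G := by
      apply Subgroup.eq_of_le_of_card_ge hcle
      rw [hΦ]
      have := (Subgroup.one_lt_card_iff_ne_bot (commutator G)).mpr hcne
      omega
    exact ⟨⟨hG, heq, hceq.trans heq⟩, ha⟩

end Cfsg.Agent.S3772
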