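import Mathlib
import Cfsg.Statements.S3774

set_option autoImplicit false
open Cfsg

namespace Cfsg.Agent.S3774

/-- Number theory: `2^k - 1 ∣ 2^n - 1` forces `k ∣ n`. -/
theorem dvd_of_two_pow_dvd (k n : ℕ) (h : (2 ^ k - 1) ∣ (2 ^ n - 1)) : k ∣ n := by
  have := (Nat.pow_sub_one_gcd_pow_sub_one 2 k n)
  have h2 : Nat.gcd (2 ^ k - 1) (2 ^ n - 1) = 2 ^ k - 1 := Nat.gcd_eq_left h
  rw [h2] at this
  have h3 : 2 ^ k = 2 ^ Nat.gcd k n := by
    have hp : 0 < 2 ^ k := by positivity
    have hp' : 0 < 2 ^ Nat.gcd k n := by positivity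
    omega
  have h4 : k = Nat.gcd k n := Nat.pow_right_injective (le_refl 2) h3
  exact Nat.gcd_eq_left_iff_dvd.mp h4.symm

/-- Let G be a nontrivial finite 2-group whose automorphism group permutes the involutions of G transitively. Then every involution of G is central, so that the involutions together with 1 form the subgroup Ω₁(Z(G)), and if this subgroup has order q then |G| is a power of q. -/
theorem result {G : Type*} [Group G] [Finite G] [Nontrivial G] (hG : IsPGroup 2 G) (htrans : ∀ x y : G, x ≠ 1 → x ^ 2 = 1 → y ≠ 1 → y ^ 2 = 1 → ∃ a : MulAut G, a x = y) : (∀ x : G, x ^ 2 = 1 → x ∈ Subgroup.center G) ∧ ∃ m : ℕ, Nat.card G = Nat.card {z : G // z ^ 2 = 1} ^ m := by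
  classical
  haveI := Fintype.ofFinite G
  haveI : Fact (Nat.Prime 2) := ⟨Nat.prime_two⟩
  -- central involution
  haveI hnt : Nontrivial (Subgroup.center G) := hG.center_nontrivial
  obtain ⟨z0, hz0c, hz01, hz02⟩ : ∃ z : G, z ∈ Subgroup.center G ∧ z ≠ 1 ∧ z ^ 2 = 1 := by
    have hc : IsPGroup 2 (Subgroup.center G) := hG.to_subgroup _
    obtain ⟨n, hn⟩ := IsPGroup.iff_card.mp hc
    have hn0 : n ≠ 0 := by
      rintro rfl
      have : Nat.card (Subgroup.center G) = 1 := by simpa using hn
      exact (Finite.one_lt_card (α := Subgroup.center G)).ne' this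
    have h2 : 2 ∣ Nat.card (Subgroup.center G) := by
      rw [hn]; exact dvd_pow_self 2 hn0
    obtain ⟨x, hx⟩ := exists_prime_orderOf_dvd_card' (G := Subgroup.center G) 2 h2
    refine ⟨(x : G), x.2, ?_, ?_⟩
    · intro h
      have : x = 1 := Subtype.ext h
      rw [this, orderOf_one] at hx
      omega
    · have : x ^ 2 = 1 := by rw [← hx]; exact pow_orderOf_eq_one x
      exact_mod_cast congrArg Subtype.val this
  have hcentral : ∀ x : G, x ^ 2 = 1 → x ∈ Subgroup.center G := by
    intro x hx
    by_cases hx1 : x = 1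
    · rw [hx1]; exact one_mem _
    obtain ⟨a, ha⟩ := htrans z0 x hz01 hz02 hx1 hx
    rw [← ha]
    exact (Subgroup.characteristic_iff_map_eq.mp (inferInstance : (Subgroup.center G).Characteristic) a ▸
      Subgroup.mem_map_of_mem _ hz0c)
  refine ⟨hcentral, ?_⟩
  -- the subgroup of involutions
  let Ω : Subgroup G :=
    { carrier := {z | z ^ 2 = 1}
      one_mem' := by simp
      mul_mem' := by
        intro a b ha hb
        have hca : a ∈ Subgroup.center G := hcentral a ha
        have hab : Commute a b := (Subgroup.mem_center_iff.mp hca b).symm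
        simp only [Set.mem_setOf_eq] at ha hb ⊢
        rw [hab.mul_pow, ha, hb, one_mul]
      inv_mem' := by
        intro a ha
        simp only [Set.mem_setOf_eq] at ha ⊢
        rw [inv_pow, ha, inv_one] }
  have hΩcard : Nat.card {z : G // z ^ 2 = 1} = Nat.card Ω := rfl
  obtain ⟨k, hk⟩ := IsPGroup.iff_card.mp (hG.to_subgroup Ω)
  obtain ⟨n, hn⟩ := IsPGroup.iff_card.mp hG
  -- the map x ↦ the involution in ⟨x⟩
  let π : G → G := fun x => x ^ (orderOf x / 2)
  have horder : ∀ x : G, x ≠ 1 → 2 ∣ orderOf x := by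
    intro x hx
    obtain ⟨m, hm⟩ := (IsPGroup.iff_orderOf.mp hG) x
    have hm0 : m ≠ 0 := by
      rintro rfl
      simp only [pow_zero] at hm
      exact hx (orderOf_eq_one_iff.mp hm)
    rw [hm]; exact dvd_pow_self 2 hm0
  have hπ2 : ∀ x : G, x ≠ 1 → π x ^ 2 = 1 := by
    intro x hx
    show (x ^ (orderOf x / 2)) ^ 2 = 1
    rw [← pow_mul, Nat.div_mul_cancel (horder x hx), pow_orderOf_eq_one]
  have hπ1 : ∀ x : G, x ≠ 1 → π x ≠ 1 := by
    intro x hx
    apply pow_ne_one_of_lt_orderOf
    · have := Nat.le_of_dvd (orderOf_pos x) (horder x hx)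
      have h2 := horder x hx
      omega
    · have := orderOf_pos x
      omega
  have hπa : ∀ (a : MulAut G) (x : G), π (a x) = a (π x) := by
    intro a x
    show (a x) ^ (orderOf (a x) / 2) = a (x ^ (orderOf x / 2))
    rw [MulEquiv.orderOf_eq, map_pow]
  -- fibers
  let S : Finset G := (Finset.univ.filter (fun z : G => z ^ 2 = 1)).erase 1
  let fib : G → Finset G := fun z => Finset.univ.filter (fun x : G => x ≠ 1 ∧ π x = z)
  have hz0S : z0 ∈ S := by simp [S, hz01, hz02]
  have hfib : ∀ z ∈ S, (fib z).card = (fib z0).card := by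
    intro z hz
    simp only [S, Finset.mem_erase, Finset.mem_filter, Finset.mem_univ, true_and] at hz
    obtain ⟨a, ha⟩ := htrans z0 z hz01 hz02 hz.1 hz.2
    symm
    apply Finset.card_bij (fun x _ => a x)
    · intro x hx
      simp only [fib, Finset.mem_filter, Finset.mem_univ, true_and] at hx ⊢
      refine ⟨by simpa using hx.1, ?_⟩
      rw [hπa, hx.2, ha]
    · intro x _ y _ h
      exact a.injective h
    · intro y hy
      simp only [fib, Finset.mem_filter, Finset.mem_univ, true_and] at hy
      refine ⟨a.symm y, ?_, by simp⟩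
      simp only [fib, Finset.mem_filter, Finset.mem_univ, true_and]
      refine ⟨by simpa using hy.1, ?_⟩
      apply a.injective
      rw [← hπa]
      simpa [ha] using hy.2
  have hcount : (Finset.univ.erase (1 : G)).card = S.card * (fib z0).card := by
    have hmaps : ∀ x ∈ Finset.univ.erase (1 : G), π x ∈ S := by
      intro x hx
      have hx1 : x ≠ 1 := by simpa using hx
      simp [S, hπ1 x hx1, hπ2 x hx1]
    rw [Finset.card_eq_sum_card_fiberwise hmaps]
    have : ∀ z ∈ S, ((Finset.univ.erase (1 : G)).filter (fun x => π x = z)).card = (fib z0).card := by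
      intro z hz
      rw [← hfib z hz]
      congr 1
      ext x
      simp [fib]
    rw [Finset.sum_congr rfl this]
    simp
  have hScard : S.card + 1 = 2 ^ k := by
    have h1mem : (1 : G) ∈ Finset.univ.filter (fun z : G => z ^ 2 = 1) := by simp
    have : S.card + 1 = (Finset.univ.filter (fun z : G => z ^ 2 = 1)).card :=
      Finset.card_erase_add_one h1mem
    rw [this, ← hk]
    rw [Nat.card_eq_fintype_card (α := Ω), Fintype.card_subtype]
    rfl
  have hGcard : (Finset.univ.erase (1 : G)).card + 1 = 2 ^ n := by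
    have h1mem : (1 : G) ∈ (Finset.univ : Finset G) := by simp
    rw [Finset.card_erase_add_one h1mem, ← hn, Nat.card_eq_fintype_card]
    rfl
  have hdvd : (2 ^ k - 1) ∣ (2 ^ n - 1) := by
    refine ⟨(fib z0).card, ?_⟩
    have e1 : 2 ^ n - 1 = (Finset.univ.erase (1 : G)).card := by omega
    have e2 : 2 ^ k - 1 = S.card := by omega
    rw [e1, e2, hcount]
  obtain ⟨m, hm⟩ := dvd_of_two_pow_dvd k n hdvd
  refine ⟨m, ?_⟩
  rw [hΩcard, hk, hn, hm, pow_mul]

end Cfsg.Agent.S3774
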