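import Mathlib
import Cfsg.Statements.S3775

set_option autoImplicit false
open Cfsg

namespace Cfsg.Agent.S3775

section basics

variable {A : Type*} [CommGroup A]

/-- Invariant subgroups. -/
def Inv (X : Subgroup (MulAut A)) (B : Subgroup A) : Prop :=
  ∀ x ∈ X, B.map x.toMonoidHom = B

theorem Inv.apply_mem {X : Subgroup (MulAut A)} {B : Subgroup A} (h : Inv X B) {x : MulAut A}
    (hx : x ∈ X) {a : A} (ha : a ∈ B) : x a ∈ B := by
  rw [← h x hx]
  exact ⟨a, ha, rfl⟩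

theorem inv_of_forall {X : Subgroup (MulAut A)} {B : Subgroup A}
    (h : ∀ x ∈ X, ∀ a ∈ B, x a ∈ B) : Inv X B := by
  intro x hx
  apply le_antisymm
  · rintro _ ⟨a, ha, rfl⟩
    exact h x hx a ha
  · intro a ha
    refine ⟨x⁻¹ a, h x⁻¹ (X.inv_mem hx) a ha, ?_⟩
    show x (x⁻¹ a) = a
    rw [← MulAut.mul_apply, mul_inv_cancel, MulAut.one_apply]

end basics

section iii_ii

variable {A : Type*} [CommGroup A] [Finite A] {p : ℕ} [hp : Fact p.Prime]

/-- `Ω₁(A)`. -/
def Om (A : Type*) [CommGroup A] (p : ℕ) : Subgroup A := (powMonoidHom p : A →* A).ker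

theorem mem_Om {a : A} : a ∈ Om A p ↔ a ^ p = 1 := by
  rw [Om, MonoidHom.mem_ker]
  rfl

theorem inv_Om (X : Subgroup (MulAut A)) : Inv X (Om A p) := by
  apply inv_of_forall
  intro x _ a ha
  rw [mem_Om] at ha ⊢
  rw [← map_pow, ha, map_one]

/-- A nontrivial subgroup contains an element of order `p`. -/
theorem exists_order_p (hA : IsPGroup p A) (B : Subgroup A) (hne : B ≠ ⊥) :
    ∃ y ∈ B, y ≠ 1 ∧ y ^ p = 1 := by
  classical
  obtain ⟨⟨b, hb⟩, hb1⟩ := Subgroup.ne_bot_iff_exists_ne_one.mp hne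
  have hb1' : b ≠ 1 := fun h => hb1 (Subtype.ext h)
  obtain ⟨k, hk⟩ := hA b
  have hk0 : ∃ n, b ^ p ^ n = 1 := ⟨k, hk⟩
  have hspec : b ^ p ^ Nat.find hk0 = 1 := Nat.find_spec hk0
  have hn0 : Nat.find hk0 ≠ 0 := by
    intro h0
    rw [h0, pow_zero, pow_one] at hspec
    exact hb1' hspec
  obtain ⟨t, ht⟩ := Nat.exists_eq_succ_of_ne_zero hn0
  refine ⟨b ^ p ^ t, Subgroup.pow_mem _ hb _, Nat.find_min hk0 (by omega), ?_⟩
  rw [← pow_mul, ← pow_succ, ← Nat.succ_eq_add_one, ← ht]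
  exact hspec

/-- (iii) implies `Ω₁(A) ≤ B` for nontrivial invariant `B`. -/
theorem Om_le (hA : IsPGroup p A) (X : Subgroup (MulAut A))
    (h3 : ∀ B : Subgroup A, Inv X B → (∀ b ∈ B, b ^ p = 1) → B = ⊥ ∨ ∀ a : A, a ∈ B ↔ a ^ p = 1)
    (B : Subgroup A) (hB : Inv X B) (hne : B ≠ ⊥) : Om A p ≤ B := by
  have hinf : Inv X (B ⊓ Om A p) := by
    apply inv_of_forall
    rintro x hx a ⟨ha1, ha2⟩
    exact ⟨hB.apply_mem hx ha1, (inv_Om X).apply_mem hx ha2⟩
  rcases h3 _ hinf (fun b hb => mem_Om.mp hb.2) with h | h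
  · exfalso
    obtain ⟨y, hyB, hy1, hyp⟩ := exists_order_p hA B hne
    have h2 : y ∈ B ⊓ Om A p := ⟨hyB, mem_Om.mpr hyp⟩
    rw [h, Subgroup.mem_bot] at h2
    exact hy1 h2
  · intro a ha
    exact ((h a).mpr (mem_Om.mp ha)).1

/-- (iii) implies (ii) relative to an invariant subgroup `S`. -/
theorem ii_rel (hA : IsPGroup p A) (X : Subgroup (MulAut A))
    (h3 : ∀ B : Subgroup A, Inv X B → (∀ b ∈ B, b ^ p = 1) → B = ⊥ ∨ ∀ a : A, a ∈ B ↔ a ^ p = 1) :
    ∀ (n : ℕ) (S B : Subgroup A), Nat.card S = n → Inv X S → Inv X B → B ≤ S →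
      ∃ i : ℕ, ∀ a ∈ S, a ∈ B ↔ a ^ p ^ i = 1 := by
  intro n
  induction n using Nat.strong_induction_on with
  | _ n ih =>
  intro S B hcard hS hB hBS
  by_cases hbot : B = ⊥
  · refine ⟨0, fun a _ => ?_⟩
    rw [hbot, Subgroup.mem_bot, pow_zero, pow_one]
  have hOm := Om_le hA X h3 B hB hbot
  let P : A →* A := powMonoidHom p
  have hPinv : ∀ (K : Subgroup A), Inv X K → Inv X (K.map P) := by
    intro K hK
    apply inv_of_forall
    rintro x hx _ ⟨a, ha, rfl⟩
    refine ⟨x a, hK.apply_mem hx ha, ?_⟩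
    show (x a) ^ p = x (a ^ p)
    rw [map_pow]
  have hSP : S.map P ≤ S := by
    rintro _ ⟨a, ha, rfl⟩
    exact Subgroup.pow_mem _ ha p
  -- an element of order `p` in `B`
  have hex : ∃ y ∈ B, y ≠ 1 ∧ y ^ p = 1 := by
    exact exists_order_p hA B hbot
  obtain ⟨y, hyB, hy1, hyp⟩ := hex
  -- the `p`-th powers of `S` form a proper subgroup
  have hne : ¬ S ≤ S.map P := by
    intro hle
    let f : S →* S :=
      { toFun := fun s => ⟨s.1 ^ p, Subgroup.pow_mem _ s.2 p⟩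
        map_one' := by ext; simp
        map_mul' := fun a b => by ext; simp [mul_pow] }
    have hsurj : Function.Surjective f := by
      rintro ⟨s, hs⟩
      obtain ⟨a, ha, rfl⟩ := hle hs
      exact ⟨⟨a, ha⟩, rfl⟩
    have hinj : Function.Injective f := Finite.injective_iff_surjective.mpr hsurj
    have h1 : f ⟨y, hBS hyB⟩ = f 1 := by
      apply Subtype.ext
      show y ^ p = (1 : A) ^ p
      rw [hyp, one_pow]
    have h2 := hinj h1
    exact hy1 (congrArg Subtype.val h2)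
  have hlt : Nat.card (S.map P) < n := by
    rw [← hcard]
    have h1 : (S.map P).relIndex S * Nat.card (S.map P) = Nat.card S := by
      have := Subgroup.index_mul_card ((S.map P).subgroupOf S)
      rwa [show Nat.card ((S.map P).subgroupOf S) = Nat.card (S.map P) from
        Nat.card_congr (Subgroup.subgroupOfEquivOfLe hSP).toEquiv] at this
    have h2 : (S.map P).relIndex S ≠ 1 := fun h => hne (Subgroup.relIndex_eq_one.mp h)
    have h3 : (S.map P).relIndex S ≠ 0 := Subgroup.index_ne_zero_of_finite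
    have h4 : 2 ≤ (S.map P).relIndex S := by omega
    have h5 : 0 < Nat.card (S.map P) := Nat.card_pos
    nlinarith
  obtain ⟨i, hi⟩ := ih _ hlt (S.map P) (B.map P) rfl (hPinv S hS) (hPinv B hB)
    (Subgroup.map_mono hBS)
  refine ⟨i + 1, fun a ha => ?_⟩
  have hap : a ^ p ∈ S.map P := ⟨a, ha, rfl⟩
  have hpow : a ^ p ^ (i + 1) = (a ^ p) ^ p ^ i := by
    rw [← pow_mul, pow_succ']
  rw [hpow, ← hi _ hap]
  constructor
  · intro hab
    exact ⟨a, hab, rfl⟩
  · rintro ⟨b, hb, hbe⟩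
    have hbe' : b ^ p = a ^ p := hbe
    have h1 : a * b⁻¹ ∈ Om A p := by
      rw [mem_Om, mul_pow, inv_pow, hbe', mul_inv_cancel]
    have h2 := hOm h1
    have h3 : a = a * b⁻¹ * b := by group
    rw [h3]
    exact Subgroup.mul_mem _ h2 hb

theorem iii_imp_ii (hA : IsPGroup p A) (X : Subgroup (MulAut A))
    (h3 : ∀ B : Subgroup A, Inv X B → (∀ b ∈ B, b ^ p = 1) → B = ⊥ ∨ ∀ a : A, a ∈ B ↔ a ^ p = 1)
    (B : Subgroup A) (hB : Inv X B) : ∃ i : ℕ, ∀ a : A, a ∈ B ↔ a ^ p ^ i = 1 := by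
  have htop : Inv X (⊤ : Subgroup A) := inv_of_forall (fun _ _ _ _ => trivial)
  obtain ⟨i, hi⟩ := ii_rel hA X h3 _ ⊤ B rfl htop hB le_top
  exact ⟨i, fun a => hi a trivial⟩

end iii_ii

section main

variable {A : Type*} [CommGroup A] [Finite A] {p : ℕ} [hp : Fact p.Prime]

/-- Characters with values in roots of unity separate points. -/
theorem exists_character (n : ℕ) (hexp : ∀ a : A, a ^ p ^ n = 1) (T : Subgroup A) (t : A)
    (ht : t ∉ T) : ∃ f : A →* rootsOfUnity (p ^ n) ℂ, (∀ y ∈ T, f y = 1) ∧ f t ≠ 1 := by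
  have hne : (QuotientGroup.mk t : A ⧸ T) ≠ 1 := by
    rwa [Ne, QuotientGroup.eq_one_iff]
  have : NeZero (Monoid.exponent (A ⧸ T)) := ⟨Monoid.exponent_ne_zero_of_finite⟩
  obtain ⟨φ, hφ⟩ := CommGroup.exists_apply_ne_one_of_hasEnoughRootsOfUnity (A ⧸ T) ℂ hne
  let f₀ : A →* ℂˣ := φ.comp (QuotientGroup.mk' T)
  have hf₀ : ∀ a, f₀ a ∈ rootsOfUnity (p ^ n) ℂ := by
    intro a
    rw [mem_rootsOfUnity, ← map_pow, hexp, map_one]
  refine ⟨f₀.codRestrict _ hf₀, ?_, ?_⟩
  · intro y hy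
    apply Subtype.ext
    show φ (QuotientGroup.mk y) = 1
    rw [(QuotientGroup.eq_one_iff y).mpr hy, map_one]
  · intro h
    apply hφ
    have : f₀ t = 1 := congrArg Subtype.val h
    exact this

/-- Extending homomorphisms from the elements of order `p` of a cyclic group. -/
theorem exists_psi {C : Type*} [CommGroup C] [Finite C] [IsCyclic C] (e : ℕ)
    (hC : Nat.card C = p ^ (e + 1)) (hexp : ∀ a : A, a ^ p ^ (e + 1) = 1) (x : C) (hx1 : x ≠ 1)
    (hxp : x ^ p = 1) (b : A) :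
    ∃ ψ : C →* A, ψ x = b ^ p ^ e ∧ ∀ x' : C, x' ^ p = 1 → ∃ j : ℤ, ψ x' = (b ^ p ^ e) ^ j := by
  have hpp : p.Prime := hp.out
  have hp0 : (p : ℤ) ≠ 0 := by exact_mod_cast hpp.ne_zero
  obtain ⟨g, hg⟩ := IsCyclic.exists_generator (α := C)
  have hord : orderOf g = p ^ (e + 1) := by
    rw [← hC]
    exact orderOf_eq_card_of_forall_mem_zpowers hg
  have key : ∀ y : C, y ^ p = 1 → ∃ k : ℤ, y = g ^ ((p : ℤ) ^ e * k) := by
    intro y hy
    obtain ⟨n, hn⟩ := Subgroup.mem_zpowers_iff.mp (hg y)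
    have h1 : g ^ (n * (p : ℤ)) = 1 := by
      rw [zpow_mul, hn]
      exact_mod_cast hy
    have h2 := orderOf_dvd_iff_zpow_eq_one.mpr h1
    rw [hord] at h2
    push_cast at h2
    rw [pow_succ] at h2
    obtain ⟨k, hk⟩ := (mul_dvd_mul_iff_right hp0).mp h2
    exact ⟨k, by rw [← hn, hk]⟩
  obtain ⟨k, hk⟩ := key x hxp
  have hkp : ¬ (p : ℤ) ∣ k := by
    rintro ⟨k₂, rfl⟩
    apply hx1
    rw [hk, show (p : ℤ) ^ e * (p * k₂) = (orderOf g : ℤ) * k₂ by
      rw [hord]; push_cast; ring]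
    rw [zpow_mul, zpow_natCast, pow_orderOf_eq_one, one_zpow]
  have hcop : IsCoprime (k : ℤ) (p : ℤ) :=
    ((Nat.prime_iff_prime_int.mp hpp).coprime_iff_not_dvd.mpr hkp).symm
  obtain ⟨k', l, hkl⟩ := hcop
  set u := b ^ k' with hu
  have hw : (b ^ p ^ e) ^ p = 1 := by
    rw [← pow_mul, ← pow_succ, hexp]
  have hordu : orderOf u ∣ orderOf g := by
    rw [hord]
    apply orderOf_dvd_of_pow_eq_one
    rw [hu, ← zpow_natCast, ← zpow_mul, mul_comm, zpow_mul, zpow_natCast, hexp, one_zpow]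
  let ψ : C →* A := monoidHomOfForallMemZpowers hg hordu
  have hψg : ψ g = u := monoidHomOfForallMemZpowers_apply_gen hg hordu
  have hψ : ∀ k₂ : ℤ, ψ (g ^ ((p : ℤ) ^ e * k₂)) = (b ^ p ^ e) ^ (k' * k₂) := by
    intro k₂
    rw [map_zpow, hψg, hu, ← zpow_mul]
    rw [show k' * ((p : ℤ) ^ e * k₂) = ((p : ℤ) ^ e) * (k' * k₂) by ring, zpow_mul]
    congr 1
    rw [← zpow_natCast]
    push_cast
    rfl
  refine ⟨ψ, ?_, ?_⟩
  · rw [hk, hψ]
    have : k' * k = 1 - l * p := by linarith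
    rw [this, zpow_sub, zpow_one, mul_comm l, zpow_mul]
    have h1 : (b ^ p ^ e) ^ (p : ℤ) = 1 := by
      exact_mod_cast hw
    rw [h1, one_zpow, inv_one, mul_one]
  · intro x' hx'
    obtain ⟨k₂, hk₂⟩ := key x' hx'
    exact ⟨k' * k₂, by rw [hk₂, hψ]⟩

/-- Existence of an endomorphism which is the identity on `T ≤ ℧^e(A)` and maps `Ω₁(A)` to `T`. -/
theorem exists_retr (e : ℕ) (hexp : ∀ a : A, a ^ p ^ (e + 1) = 1) (s : Finset A)
    (hs : ∀ t ∈ s, t ∈ (powMonoidHom (p ^ e) : A →* A).range) :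
    ∃ r : A →* A, (∀ t ∈ Subgroup.closure (s : Set A), r t = t) ∧
      (∀ w : A, w ^ p = 1 → r w ∈ Subgroup.closure (s : Set A)) := by
  classical
  induction s using Finset.induction_on with
  | empty =>
    refine ⟨1, ?_, ?_⟩
    · intro t ht
      simp only [Finset.coe_empty, Subgroup.closure_empty, Subgroup.mem_bot] at ht
      rw [ht, map_one]
    · intro w _
      exact Subgroup.one_mem _
  | insert t s ht ih =>
    obtain ⟨r', hr1, hr2⟩ := ih (fun t' ht' => hs t' (Finset.mem_insert_of_mem ht'))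
    set T' := Subgroup.closure (s : Set A) with hT'
    set T := Subgroup.closure ((insert t s : Finset A) : Set A) with hT
    have hT'T : T' ≤ T := Subgroup.closure_mono (by simp)
    have htT : t ∈ T := Subgroup.subset_closure (by simp)
    by_cases htT' : t ∈ T'
    · have hTT' : T ≤ T' := by
        rw [hT, Subgroup.closure_le]
        intro y hy
        simp only [Finset.coe_insert, Set.mem_insert_iff] at hy
        rcases hy with rfl | hy
        · exact htT'
        · exact Subgroup.subset_closure hy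
      exact ⟨r', fun y hy => hr1 y (hTT' hy), fun w hw => hT'T (hr2 w hw)⟩
    · -- the new generator
      have hS : T' ≤ (powMonoidHom (p ^ e) : A →* A).range := by
        rw [hT', Subgroup.closure_le]
        intro y hy
        exact hs y (Finset.mem_insert_of_mem hy)
      obtain ⟨b₀, hb₀⟩ := hs t (Finset.mem_insert_self t s)
      have hb₀' : b₀ ^ p ^ e = t := hb₀
      have htp : t ^ p = 1 := by
        rw [← hb₀', ← pow_mul, ← pow_succ, hexp]
      have ht'mem : r' t ∈ T' := hr2 t htp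
      obtain ⟨c, hc⟩ := hS ht'mem
      have hc' : c ^ p ^ e = r' t := hc
      have hw : (b₀ * c⁻¹) ^ p ^ e = t * (r' t)⁻¹ := by
        rw [mul_pow, inv_pow, hb₀', hc']
      have : NeZero (p ^ (e + 1)) := ⟨pow_ne_zero _ hp.out.ne_zero⟩
      obtain ⟨f, hf1, hf2⟩ := exists_character (e + 1) hexp T' t htT'
      have hcard : Nat.card (rootsOfUnity (p ^ (e + 1)) ℂ) = p ^ (e + 1) :=
        Complex.card_rootsOfUnity _
      have : Finite (rootsOfUnity (p ^ (e + 1)) ℂ) :=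
        Nat.finite_of_card_ne_zero (by rw [hcard]; exact NeZero.ne _)
      have hfp : (f t) ^ p = 1 := by rw [← map_pow, htp, map_one]
      obtain ⟨ψ, hψ1, hψ2⟩ := exists_psi e hcard hexp (f t) hf2 hfp (b₀ * c⁻¹)
      rw [hw] at hψ1 hψ2
      refine ⟨r' * (ψ.comp f), ?_, ?_⟩
      · have hle : T ≤ (r' * (ψ.comp f)).eqLocus (MonoidHom.id A) := by
          rw [hT, Subgroup.closure_le]
          intro y hy
          simp only [Finset.coe_insert, Set.mem_insert_iff] at hy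
          show (r' * (ψ.comp f)) y = y
          rcases hy with rfl | hy
          · rw [MonoidHom.mul_apply, MonoidHom.comp_apply, hψ1, mul_comm y, mul_inv_cancel_left]
          · have hyT' : y ∈ T' := Subgroup.subset_closure hy
            rw [MonoidHom.mul_apply, MonoidHom.comp_apply, hf1 y hyT', map_one, mul_one,
              hr1 y hyT']
        intro y hy
        exact hle hy
      · intro w hw
        rw [MonoidHom.mul_apply, MonoidHom.comp_apply]
        refine Subgroup.mul_mem _ (hT'T (hr2 w hw)) ?_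
        obtain ⟨j, hj⟩ := hψ2 (f w) (by rw [← map_pow, hw, map_one])
        rw [hj]
        exact Subgroup.zpow_mem _ (Subgroup.mul_mem _ htT (Subgroup.inv_mem _ (hT'T ht'mem))) j

/-- Averaging over `X`. -/
theorem exists_average (X : Subgroup (MulAut A))
    (hX : (Nat.card X).Coprime p) (e : ℕ)
    (hexp : ∀ a : A, a ^ p ^ (e + 1) = 1) (T : Subgroup A) (hT : Inv X T) (r : A →* A)
    (hr1 : ∀ t ∈ T, r t = t) (hr2 : ∀ w : A, w ^ p = 1 → r w ∈ T) :
    ∃ R : A →* A, (∀ t ∈ T, R t = t) ∧ (∀ w : A, w ^ p = 1 → R w ∈ T) ∧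
      (∀ x ∈ X, ∀ a : A, R (x a) = x (R a)) := by
  classical
  have hpp : p.Prime := hp.out
  have : Finite (MulAut A) := Finite.of_injective (fun x : MulAut A => (x : A → A))
    (fun x y h => DFunLike.coe_injective h)
  have : Fintype X := Fintype.ofFinite X
  have hcop : (Nat.card X).Coprime (p ^ (e + 1)) := Nat.Coprime.pow_right _ hX
  have h1lt : 1 < p ^ (e + 1) := Nat.one_lt_pow (by omega) hpp.one_lt
  obtain ⟨m, hm⟩ := Nat.exists_mul_mod_eq_one_of_coprime hcop h1lt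
  let R : A →* A :=
    { toFun := fun a => (∏ x : X, (x.1)⁻¹ (r (x.1 a))) ^ m
      map_one' := by simp
      map_mul' := by
        intro a b
        simp only [map_mul, Finset.prod_mul_distrib, mul_pow] }
  have hRapp : ∀ a, R a = (∏ x : X, (x.1)⁻¹ (r (x.1 a))) ^ m := fun a => rfl
  have hinvx : ∀ (x : MulAut A) (a : A), x⁻¹ (x a) = a := fun x a => by
    rw [← MulAut.mul_apply, inv_mul_cancel, MulAut.one_apply]
  refine ⟨R, ?_, ?_, ?_⟩
  · intro t ht
    rw [hRapp]
    have h1 : ∀ x : X, (x.1)⁻¹ (r (x.1 t)) = t := by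
      intro x
      rw [hr1 _ (hT.apply_mem x.2 ht), hinvx]
    simp only [h1, Finset.prod_const, Finset.card_univ]
    rw [← pow_mul, ← Nat.card_eq_fintype_card]
    have h2 : Nat.card X * m = p ^ (e + 1) * (Nat.card X * m / p ^ (e + 1)) + 1 := by
      conv_lhs => rw [← Nat.div_add_mod (Nat.card X * m) (p ^ (e + 1)), hm.2]
    rw [h2, pow_succ, pow_mul, hexp, one_pow, one_mul]
  · intro w hw
    rw [hRapp]
    refine Subgroup.pow_mem _ (Subgroup.prod_mem _ fun x _ => ?_) _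
    have h1 : (x.1 w) ^ p = 1 := by rw [← map_pow, hw, map_one]
    exact hT.apply_mem (X.inv_mem x.2) (hr2 _ h1)
  · intro y hy a
    rw [hRapp, hRapp, map_pow]
    congr 1
    rw [map_prod]
    refine Fintype.prod_equiv (Equiv.mulRight (⟨y, hy⟩ : X)) _ _ (fun x => ?_)
    have h1 : ((Equiv.mulRight (⟨y, hy⟩ : X) x : X) : MulAut A) = x.1 * y := rfl
    rw [h1, mul_inv_rev, MulAut.mul_apply, MulAut.mul_apply]
    have h2 : ∀ z : A, y (y⁻¹ z) = z := fun z => by
      rw [← MulAut.mul_apply, mul_inv_cancel, MulAut.one_apply]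
    rw [h2]

/-- A finite monoid element has an idempotent power. -/
theorem exists_idem {M : Type*} [Monoid M] [Finite M] (f : M) :
    ∃ N : ℕ, 1 ≤ N ∧ f ^ N * f ^ N = f ^ N := by
  obtain ⟨i, j, hij, hf⟩ := Finite.exists_ne_map_eq_of_infinite (fun n : ℕ => f ^ n)
  wlog hlt : i < j generalizing i j
  · exact this j i hij.symm hf.symm (by omega)
  obtain ⟨b, hb, rfl⟩ : ∃ b, 0 < b ∧ j = i + b := ⟨j - i, by omega, by omega⟩
  have hk : ∀ k : ℕ, f ^ (i + k * b) = f ^ i := by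
    intro k
    induction k with
    | zero => simp
    | succ k ih =>
      rw [show i + (k + 1) * b = (i + k * b) + b by ring, pow_add, ih, ← pow_add]
      exact hf.symm
  refine ⟨(i + 1) * b, Nat.mul_pos (by omega) hb, ?_⟩
  obtain ⟨c, hc⟩ : ∃ c, (i + 1) * b = i + c := ⟨(i + 1) * b - i, by
    have : i + 1 ≤ (i + 1) * b := Nat.le_mul_of_pos_right _ hb
    omega⟩
  calc f ^ ((i + 1) * b) * f ^ ((i + 1) * b) = f ^ c * f ^ (i + (i + 1) * b) := by
        rw [← pow_add, ← pow_add]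
        congr 1
        omega
    _ = f ^ c * f ^ i := by rw [hk]
    _ = f ^ ((i + 1) * b) := by
        rw [← pow_add, hc, add_comm]

/-- The main step of (i) ⟹ (iii). -/
theorem main1 (hA : IsPGroup p A) (X : Subgroup (MulAut A)) (hX : (Nat.card X).Coprime p)
    (h1 : ¬ ∃ B C : Subgroup A, B ≠ ⊥ ∧ C ≠ ⊥ ∧ (∀ x ∈ X, B.map x.toMonoidHom = B) ∧
      (∀ x ∈ X, C.map x.toMonoidHom = C) ∧ B ⊓ C = ⊥ ∧ B ⊔ C = ⊤)
    (e : ℕ) (hexp : ∀ a : A, a ^ p ^ (e + 1) = 1) (T : Subgroup A) (hT : Inv X T) (hne : T ≠ ⊥)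
    (hTS : T ≤ (powMonoidHom (p ^ e) : A →* A).range) : Om A p ≤ T := by
  classical
  have : Fintype A := Fintype.ofFinite A
  -- `T` as the closure of a finset
  obtain ⟨r, hr1, hr2⟩ := exists_retr (p := p) e hexp (T : Set A).toFinset (by
    intro t ht
    exact hTS (by simpa using ht))
  have hcl : Subgroup.closure (((T : Set A).toFinset : Finset A) : Set A) = T := by
    simp
  rw [hcl] at hr1 hr2
  obtain ⟨R, hR1, hR2, hR3⟩ := exists_average X hX e hexp T hT r hr1 hr2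
  -- an idempotent power
  have : Finite (Function.End A) := inferInstanceAs (Finite (A → A))
  let f : Function.End A := (⇑R : A → A)
  obtain ⟨N, hN1, hN⟩ := exists_idem f
  have hpow : ∀ (k : ℕ) (a : A), (f ^ k) a = (⇑R)^[k] a := by
    intro k
    induction k with
    | zero => intro a; rfl
    | succ k ih =>
      intro a
      rw [pow_succ]
      show (f ^ k) (R a) = _
      rw [ih]
      rfl
  have hit : ∀ k : ℕ, ∃ F : A →* A, ∀ a, F a = (⇑R)^[k] a := by
    intro k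
    induction k with
    | zero => exact ⟨MonoidHom.id A, fun a => rfl⟩
    | succ k ih =>
      obtain ⟨F, hF⟩ := ih
      refine ⟨F.comp R, fun a => ?_⟩
      rw [MonoidHom.comp_apply, hF]
      rfl
  obtain ⟨e', he'⟩ := hit N
  have hE1 : ∀ t ∈ T, e' t = t := by
    intro t ht
    rw [he']
    exact Function.iterate_fixed (hR1 t ht) N
  have hE3 : ∀ x ∈ X, ∀ a, e' (x a) = x (e' a) := by
    intro x hx a
    rw [he', he']
    exact (Function.Semiconj.iterate_right (f := x) (ga := R) (gb := R)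
      (fun b => (hR3 x hx b).symm) N a).symm
  have hEE : ∀ a, e' (e' a) = e' a := by
    intro a
    have h2 := congrFun hN a
    have h3 : (f ^ N * f ^ N) a = (f ^ N) ((f ^ N) a) := rfl
    rw [h3, hpow, hpow] at h2
    rw [he', he', h2]
  have hBinv : Inv X e'.ker := by
    apply inv_of_forall
    intro x hx a ha
    rw [MonoidHom.mem_ker] at ha ⊢
    rw [hE3 x hx, ha, map_one]
  have hCinv : Inv X e'.range := by
    apply inv_of_forall
    rintro x hx _ ⟨a, rfl⟩
    exact ⟨x a, hE3 x hx a⟩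
  have hinf : e'.ker ⊓ e'.range = ⊥ := by
    rw [eq_bot_iff]
    rintro a ⟨ha, b, rfl⟩
    have ha' : e' (e' b) = 1 := ha
    rw [hEE b] at ha'
    exact Subgroup.mem_bot.mpr ha'
  have hsup : e'.ker ⊔ e'.range = ⊤ := by
    rw [eq_top_iff]
    intro a _
    have h2 : a = (a * (e' a)⁻¹) * e' a := by group
    rw [h2]
    refine Subgroup.mul_mem_sup ?_ ⟨a, rfl⟩
    rw [MonoidHom.mem_ker, map_mul, map_inv]
    have h3 : e' (e' a) = e' a := hEE a
    rw [h3, mul_inv_cancel]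
  -- indecomposability
  have hdec : e'.ker = ⊥ ∨ e'.range = ⊥ := by
    by_contra hcon
    push Not at hcon
    exact h1 ⟨_, _, hcon.1, hcon.2, hBinv, hCinv, hinf, hsup⟩
  have hRinj : ∀ a, R a = 1 → a = 1 := by
    rcases hdec with h | h
    · intro a ha
      have h2 : a ∈ e'.ker := by
        rw [MonoidHom.mem_ker, he']
        obtain ⟨M, rfl⟩ : ∃ M, N = M + 1 := ⟨N - 1, by omega⟩
        rw [Function.iterate_succ_apply, show (R : A → A) a = 1 from ha]
        exact iterate_map_one (R : A →* A) M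
      rw [h] at h2
      exact h2
    · exfalso
      apply hne
      rw [eq_bot_iff]
      intro t ht
      have h2 : t ∈ e'.range := ⟨t, hE1 t ht⟩
      rw [h] at h2
      exact h2
  -- counting
  have hcardle : Nat.card (Om A p) ≤ Nat.card T := by
    refine Nat.card_le_card_of_injective
      (fun w : Om A p => (⟨R w.1, hR2 w.1 (mem_Om.mp w.2)⟩ : T)) ?_
    intro a b hab
    have h2 : R a.1 = R b.1 := congrArg Subtype.val hab
    apply Subtype.ext
    have h3 : R (a.1 * b.1⁻¹) = 1 := by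
      rw [map_mul, map_inv, h2, mul_inv_cancel]
    have h4 := hRinj _ h3
    exact mul_inv_eq_one.mp h4
  have hTOm : T ≤ Om A p := by
    intro t ht
    obtain ⟨b, hb⟩ := hTS ht
    have hb' : b ^ p ^ e = t := hb
    rw [mem_Om, ← hb', ← pow_mul, ← pow_succ, hexp]
  have := Subgroup.eq_of_le_of_card_ge hTOm hcardle
  rw [this]

/-- (i) implies (iii). -/
theorem i_imp_iii (hA : IsPGroup p A) (X : Subgroup (MulAut A)) (hX : (Nat.card X).Coprime p)
    (h1 : ¬ ∃ B C : Subgroup A, B ≠ ⊥ ∧ C ≠ ⊥ ∧ (∀ x ∈ X, B.map x.toMonoidHom = B) ∧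
      (∀ x ∈ X, C.map x.toMonoidHom = C) ∧ B ⊓ C = ⊥ ∧ B ⊔ C = ⊤)
    (B : Subgroup A) (hB : Inv X B) (hBp : ∀ b ∈ B, b ^ p = 1) :
    B = ⊥ ∨ ∀ a : A, a ∈ B ↔ a ^ p = 1 := by
  classical
  by_cases hbot : B = ⊥
  · exact Or.inl hbot
  right
  -- the exponent
  obtain ⟨n, hn⟩ := IsPGroup.iff_card.mp hA
  have hex : ∃ n, ∀ a : A, a ^ p ^ n = 1 := ⟨n, fun a => by rw [← hn]; exact pow_card_eq_one'⟩
  have hspec := Nat.find_spec hex
  obtain ⟨y, hyB, hy1, -⟩ := exists_order_p hA B hbot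
  have hn0 : Nat.find hex ≠ 0 := by
    intro h0
    rw [h0] at hspec
    exact hy1 (by simpa using hspec y)
  obtain ⟨e, he⟩ := Nat.exists_eq_succ_of_ne_zero hn0
  have hexp : ∀ a : A, a ^ p ^ (e + 1) = 1 := by
    intro a
    have := hspec a
    rwa [he] at this
  have hmin : ¬ ∀ a : A, a ^ p ^ e = 1 := Nat.find_min hex (by omega)
  set S : Subgroup A := (powMonoidHom (p ^ e) : A →* A).range with hS
  have hSinv : Inv X S := by
    apply inv_of_forall
    rintro x _ _ ⟨a, rfl⟩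
    refine ⟨x a, ?_⟩
    show (x a) ^ p ^ e = x (a ^ p ^ e)
    rw [map_pow]
  have hSne : S ≠ ⊥ := by
    intro h
    apply hmin
    intro a
    have : a ^ p ^ e ∈ S := ⟨a, rfl⟩
    rw [h] at this
    exact this
  have hOmS := main1 hA X hX h1 e hexp S hSinv hSne le_rfl
  have hBOm : B ≤ Om A p := fun b hb => mem_Om.mpr (hBp b hb)
  have hOmB := main1 hA X hX h1 e hexp B hB hbot (hBOm.trans hOmS)
  intro a
  exact ⟨fun ha => hBp a ha, fun ha => hOmB (mem_Om.mpr ha)⟩

end main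

/-- Let A be a finite abelian p-group and X a group of automorphisms of A of order prime to p. Call a subgroup of A invariant when every element of X maps it onto itself. Then the following are equivalent: (i) A is not the direct product of two nontrivial invariant subgroups; (ii) every invariant subgroup of A is one of the subgroups Ω_i(A) = {a : a^(p^i) = 1}; (iii) the subgroup Ω₁(A) of elements of order dividing p has no invariant subgroups other than 1 and itself. -/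
theorem result {A : Type*} [CommGroup A] [Finite A] {p : ℕ} [Fact p.Prime] (hA : IsPGroup p A) (X : Subgroup (MulAut A)) (hX : (Nat.card X).Coprime p) : ((¬ ∃ B C : Subgroup A, B ≠ ⊥ ∧ C ≠ ⊥ ∧ (∀ x ∈ X, B.map x.toMonoidHom = B) ∧ (∀ x ∈ X, C.map x.toMonoidHom = C) ∧ B ⊓ C = ⊥ ∧ B ⊔ C = ⊤) ↔ (∀ B : Subgroup A, (∀ x ∈ X, B.map x.toMonoidHom = B) → ∃ i : ℕ, ∀ a : A, a ∈ B ↔ a ^ p ^ i = 1)) ∧ ((∀ B : Subgroup A, (∀ x ∈ X, B.map x.toMonoidHom = B) → ∃ i : ℕ, ∀ a : A, a ∈ B ↔ a ^ p ^ i = 1) ↔ (∀ B : Subgroup A, (∀ x ∈ X, B.map x.toMonoidHom = B) → (∀ b ∈ B, b ^ p = 1) → B = ⊥ ∨ ∀ a : A, a ∈ B ↔ a ^ p = 1)) := by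
  have h23 : (∀ B : Subgroup A, (∀ x ∈ X, B.map x.toMonoidHom = B) → ∃ i : ℕ, ∀ a : A, a ∈ B ↔ a ^ p ^ i = 1) → (∀ B : Subgroup A, (∀ x ∈ X, B.map x.toMonoidHom = B) → (∀ b ∈ B, b ^ p = 1) → B = ⊥ ∨ ∀ a : A, a ∈ B ↔ a ^ p = 1) := by
    intro h2 B hB hBp
    obtain ⟨i, hi⟩ := h2 B hB
    rcases Nat.eq_zero_or_pos i with rfl | hipos
    · left
      rw [eq_bot_iff]
      intro a ha
      have := (hi a).mp ha
      simpa using this
    · right
      intro a
      refine ⟨hBp a, fun ha => (hi a).mpr ?_⟩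
      obtain ⟨j, rfl⟩ : ∃ j, i = j + 1 := ⟨i - 1, by omega⟩
      rw [pow_succ', pow_mul, ha, one_pow]
  have h32 := fun h3 B hB => iii_imp_ii hA X h3 B hB
  refine ⟨⟨fun h1 => ?_, fun h2 => ?_⟩, h23, h32⟩
  · exact h32 (fun B hB hBp => i_imp_iii hA X hX h1 B hB hBp)
  · rintro ⟨B, C, hB, hC, hBi, hCi, hinf, -⟩
    obtain ⟨i, hi⟩ := h2 B hBi
    obtain ⟨j, hj⟩ := h2 C hCi
    have hmono : ∀ {a b : ℕ}, a ≤ b → ∀ x : A, x ^ p ^ a = 1 → x ^ p ^ b = 1 := by
      intro a b hab x hx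
      obtain ⟨c, rfl⟩ := Nat.exists_eq_add_of_le hab
      rw [pow_add, pow_mul, hx, one_pow]
    rcases le_total i j with hij | hij
    · have hle : B ≤ C := fun x hx => (hj x).mpr (hmono hij x ((hi x).mp hx))
      rw [inf_eq_left.mpr hle] at hinf
      exact hB hinf
    · have hle : C ≤ B := fun x hx => (hi x).mpr (hmono hij x ((hj x).mp hx))
      rw [inf_eq_right.mpr hle] at hinf
      exact hC hinf

end Cfsg.Agent.S3775
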