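import Mathlib
import Cfsg.Statements.S3776
import Cfsg.Agent.Lib.ShultF
import Cfsg.Agent.Lib.ShultG
import Cfsg.Agent.Lib.ShultArith
import Cfsg.Agent.Lib.Frat

set_option autoImplicit false
set_option linter.unusedSectionVars false
set_option linter.unusedVariables false
set_option linter.style.haveILetI false
open Cfsg

namespace Cfsg.Agent.S3776

open scoped commutatorElement
open Cfsg.Agent.Lib.ShultA Cfsg.Agent.Lib.ShultField Cfsg.Agent.Lib.ShultB Cfsg.Agent.Lib.ShultF
  Cfsg.Agent.Lib.ShultG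
open Cfsg.Agent.Lib.SuzTwo (exists_power_step)
open Cfsg.Agent.Lib.SuzT1 (central_comm)

section

universe u

variable {G : Type u} [Group G] [Finite G]

/-- The involutions are central. -/
lemma inv_cent (hG : IsPGroup 2 G) (Y : Subgroup (MulAut G))
    (htr : ∀ x y : G, x ≠ 1 → x ^ 2 = 1 → y ≠ 1 → y ^ 2 = 1 → ∃ a ∈ Y, a x = y) {x : G}
    (hx : x * x = 1) (g : G) : x * g = g * x := by
  classical
  by_cases hx1 : x = 1
  · simp [hx1]
  haveI : Nontrivial G := ⟨⟨x, 1, hx1⟩⟩
  haveI hf : Fact (Nat.Prime 2) := ⟨Nat.prime_two⟩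
  haveI : Nontrivial (Subgroup.center G) := hG.center_nontrivial
  obtain ⟨⟨z, hz⟩, hz1⟩ := exists_ne (1 : Subgroup.center G)
  have hz1' : z ≠ 1 := fun e => hz1 (Subtype.ext e)
  obtain ⟨r, hr1, hr2⟩ := exists_power_step hG ⊥ (x := z) (by simpa using hz1')
  have hr1' : z ^ 2 ^ r ≠ 1 := by simpa using hr1
  have hr2' : (z ^ 2 ^ r) ^ 2 = 1 := by
    rw [sq]
    simpa using hr2
  obtain ⟨a, ha, hax⟩ := htr _ x hr1' hr2' hx1 (by rw [sq]; exact hx)
  have hzc : z ^ 2 ^ r ∈ Subgroup.center G := Subgroup.pow_mem _ hz _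
  obtain ⟨g', rfl⟩ := a.surjective g
  rw [← hax, ← map_mul, ← map_mul, ← central_comm hzc g']

end

/-- Let G be a finite non-abelian 2-group with more than one involution admitting a solvable group of automorphisms that permutes its involutions transitively. Then the derived subgroup, the Frattini subgroup and the centre of G coincide and consist exactly of the elements x with x² = 1. -/
theorem result {G : Type*} [Group G] [Finite G] (hG : IsPGroup 2 G) (hna : ¬ IsMulCommutative G) (htwo : ∃ x y : G, x ≠ y ∧ x ≠ 1 ∧ x ^ 2 = 1 ∧ y ≠ 1 ∧ y ^ 2 = 1) (hY : ∃ Y : Subgroup (MulAut G), Group.IsSolvable Y ∧ ∀ x y : G, x ≠ 1 → x ^ 2 = 1 → y ≠ 1 → y ^ 2 = 1 → ∃ a ∈ Y, a x = y) : commutator G = frattini G ∧ frattini G = Subgroup.center G ∧ ∀ x : G, x ∈ Subgroup.center G ↔ x ^ 2 = 1 := by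
  classical
  haveI hf2 : Fact (Nat.Prime 2) := ⟨Nat.prime_two⟩
  obtain ⟨Y, hsol, htr⟩ := hY
  have hna' : ∃ a b : G, a * b ≠ b * a := by
    by_contra hall
    push Not at hall
    exact hna ⟨⟨hall⟩⟩
  have hcent : ∀ {x : G}, x * x = 1 → ∀ g, x * g = g * x := fun {x} hx g => inv_cent hG Y htr hx g
  -- the subgroup of involutions
  let E : Subgroup G :=
    { carrier := {x | x * x = 1}
      one_mem' := by simp
      mul_mem' := by
        rintro a b ha hb
        simp only [Set.mem_setOf_eq] at ha hb ⊢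
        calc a * b * (a * b) = a * (b * a) * b := by group
          _ = a * (a * b) * b := by rw [hcent hb a]
          _ = a * a * (b * b) := by group
          _ = 1 := by rw [ha, hb, mul_one]
      inv_mem' := by
        rintro a ha
        simp only [Set.mem_setOf_eq] at ha ⊢
        have : a⁻¹ * a⁻¹ = (a * a)⁻¹ := by group
        rw [this, ha, inv_one] }
  have hEm : ∀ x : G, x ∈ E ↔ x * x = 1 := fun _ => Iff.rfl
  letI cE : CommGroup E :=
    { (inferInstance : Group E) with
      mul_comm := fun a b => Subtype.ext (hcent a.2 b) }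
  letI mV : Module (ZMod 2) (Additive E) := AddCommGroup.zmodModule (n := 2) (by
    intro x
    rw [two_nsmul]
    show Additive.ofMul (Additive.toMul x * Additive.toMul x) = 0
    have h1 : Additive.toMul x * Additive.toMul x = 1 :=
      Subtype.ext (Additive.toMul x).2
    rw [h1]
    rfl)
  obtain ⟨x₁, x₂, hx₁₂, hx₁1, hx₁s, hx₂1, hx₂s⟩ := htwo
  have hx₁E : x₁ ∈ E := by
    rw [hEm, ← sq]
    exact hx₁s
  have hx₂E : x₂ ∈ E := by
    rw [hEm, ← sq]
    exact hx₂s
  haveI : Nontrivial (Additive E) :=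
    ⟨⟨Additive.ofMul ⟨x₁, hx₁E⟩, 0, fun e => hx₁1 (congrArg Subtype.val (Additive.ofMul.injective e))⟩⟩
  haveI : Finite (Additive E) := inferInstanceAs (Finite E)
  -- the action on `E`
  have hyE : ∀ (a : MulAut G) {x : G}, x ∈ E → a x ∈ E := by
    intro a x hx
    rw [hEm] at hx ⊢
    rw [← map_mul, hx, map_one]
  let act : MulAut G → (Additive E ≃+ Additive E) := fun a =>
    { toFun := fun v => Additive.ofMul ⟨a (Additive.toMul v : E), hyE a (Additive.toMul v).2⟩
      invFun := fun v => Additive.ofMul ⟨a⁻¹ (Additive.toMul v : E), hyE a⁻¹ (Additive.toMul v).2⟩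
      left_inv := fun v => by
        apply Additive.toMul.injective
        apply Subtype.ext
        simp
      right_inv := fun v => by
        apply Additive.toMul.injective
        apply Subtype.ext
        simp
      map_add' := fun v w => by
        apply Additive.toMul.injective
        apply Subtype.ext
        simp }
  have hact : ∀ (a : MulAut G) (x : E), act a (Additive.ofMul x) = Additive.ofMul ⟨a x, hyE a x.2⟩ :=
    fun _ _ => rfl
  let lin : MulAut G → (Additive E ≃ₗ[ZMod 2] Additive E) := fun a =>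
    (act a).toLinearEquiv (ZMod.map_smul (act a))
  have hlin : ∀ (a : MulAut G) (x : E), lin a (Additive.ofMul x) = Additive.ofMul ⟨a x, hyE a x.2⟩ :=
    fun _ _ => rfl
  let ρ₀ : Y →* (Additive E ≃ₗ[ZMod 2] Additive E) := MonoidHom.mk' (fun a => lin a) (by
    intro a b
    ext v
    rfl)
  have hρ₀ : ∀ (a : Y) (x : E), ρ₀ a (Additive.ofMul x) = Additive.ofMul ⟨(a : MulAut G) x, hyE _ x.2⟩ :=
    fun _ _ => rfl
  haveI hYfin : Finite Y := by
    haveI : Finite (MulAut G) := Finite.of_injective (fun a : MulAut G => (a : G → G))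
      (fun a b h => MulEquiv.ext (congrFun h))
    infer_instance
  let Γ := ρ₀.range
  haveI : Finite Γ := Finite.of_surjective ρ₀.rangeRestrict (MonoidHom.rangeRestrict_surjective _)
  have hsolΓ : Group.IsSolvable Γ := by
    haveI : Group.IsSolvable Y := hsol
    exact solvable_of_surjective (MonoidHom.rangeRestrict_surjective ρ₀)
  have htrΓ : ∀ v w : Additive E, v ≠ 0 → w ≠ 0 → ∃ g : Γ, Γ.subtype g v = w := by
    intro v w hv hw
    have hinv : ∀ v : Additive E, v ≠ 0 → ((Additive.toMul v : E) : G) ≠ 1 ∧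
        ((Additive.toMul v : E) : G) ^ 2 = 1 := by
      intro v hv
      refine ⟨fun e => hv ?_, ?_⟩
      · apply Additive.toMul.injective
        exact Subtype.ext e
      · rw [sq]
        exact (Additive.toMul v).2
    obtain ⟨a, ha, hax⟩ := htr _ _ (hinv v hv).1 (hinv v hv).2 (hinv w hw).1 (hinv w hw).2
    refine ⟨⟨ρ₀ ⟨a, ha⟩, ⟨a, ha⟩, rfl⟩, ?_⟩
    apply Additive.toMul.injective
    apply Subtype.ext
    exact hax
  obtain ⟨F, fF, fiF, hchar, e, n, ζ, hζ, m, d, hcardF, hsemi, ⟨g₀, hg₀⟩, hord, hmd, hdn⟩ :=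
    lin_data hsolΓ Γ.subtype Subtype.val_injective htrΓ
  -- the coordinates
  let io : G → F := fun x => if hx : x ∈ E then e (Additive.ofMul ⟨x, hx⟩) else 0
  have hio : ∀ {x : G} (hx : x ∈ E), io x = e (Additive.ofMul ⟨x, hx⟩) := fun {x} hx => by
    simp only [io, dif_pos hx]
  let Y' : Set (G →* G) := {f | ∃ a ∈ Y, f = (a : MulAut G).toMonoidHom}
  have hsemi' : ∀ a ∈ Y, ∃ (c : F) (σ : F ≃+* F), c ≠ 0 ∧ ∀ x, x * x = 1 → io (a x) = c * σ (io x) := by
    intro a ha
    obtain ⟨c, σ, hc, h1⟩ := hsemi ⟨ρ₀ ⟨a, ha⟩, ⟨a, ha⟩, rfl⟩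
    refine ⟨c, σ, hc, fun x hx => ?_⟩
    have hxE : x ∈ E := hx
    have h2 := h1 (Additive.ofMul ⟨x, hxE⟩)
    rw [hio hxE, hio (hyE a hxE)]
    exact h2
  have hdata : Data Y' io ζ := by
    refine ⟨hG, ?_, ?_, ?_, ?_, ?_, ?_, ?_⟩
    · rintro f ⟨a, -, rfl⟩
      exact a.injective
    · intro x x' hx hx2 hx' hx'2
      obtain ⟨a, ha, hax⟩ := htr x x' hx (by rw [sq]; exact hx2) hx' (by rw [sq]; exact hx'2)
      exact ⟨_, ⟨a, ha, rfl⟩, hax⟩
    · intro x x' hx hx'
      have hxE : x ∈ E := hx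
      have hxE' : x' ∈ E := hx'
      rw [hio (E.mul_mem hxE hxE'), hio hxE, hio hxE', ← map_add]
      rfl
    · intro x hx h0
      have hxE : x ∈ E := hx
      rw [hio hxE] at h0
      have h1 : Additive.ofMul (⟨x, hxE⟩ : E) = 0 := by
        apply e.injective
        rw [h0, map_zero]
      exact congrArg Subtype.val (Additive.ofMul.injective h1)
    · intro c
      refine ⟨(Additive.toMul (e.symm c) : E), (Additive.toMul (e.symm c)).2, ?_⟩
      rw [hio (Additive.toMul (e.symm c)).2]
      exact e.apply_symm_apply c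
    · rintro f ⟨a, ha, rfl⟩
      exact hsemi' a ha
    · obtain ⟨⟨_, ⟨a, ha⟩, rfl⟩, hg⟩ : ∃ g : Γ, g = g₀ := ⟨g₀, rfl⟩
      refine ⟨_, ⟨a, ha, rfl⟩, fun x hx => ?_⟩
      have hxE : x ∈ E := hx
      have h2 := hg₀ (Additive.ofMul ⟨x, hxE⟩)
      rw [← hg] at h2
      change io (a x) = ζ * io x
      rw [hio hxE, hio (hyE a hxE)]
      exact h2
  -- the size of the field
  have hn : 2 ≤ n := by
    by_contra hlt
    have h1 : Fintype.card F ≤ 2 := by
      rw [hcardF]
      calc 2 ^ n ≤ 2 ^ 1 := Nat.pow_le_pow_right (by norm_num) (by omega)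
        _ = 2 := by norm_num
    have hv : e (Additive.ofMul ⟨x₁, hx₁E⟩) ≠ 0 := by
      intro h0
      have h2 : Additive.ofMul (⟨x₁, hx₁E⟩ : E) = 0 := by
        apply e.injective
        rw [h0, map_zero]
      exact hx₁1 (congrArg Subtype.val (Additive.ofMul.injective h2))
    have hw : e (Additive.ofMul ⟨x₂, hx₂E⟩) ≠ 0 := by
      intro h0
      have h2 : Additive.ofMul (⟨x₂, hx₂E⟩ : E) = 0 := by
        apply e.injective
        rw [h0, map_zero]
      exact hx₂1 (congrArg Subtype.val (Additive.ofMul.injective h2))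
    have hvw : e (Additive.ofMul ⟨x₁, hx₁E⟩) ≠ e (Additive.ofMul ⟨x₂, hx₂E⟩) := by
      intro h0
      exact hx₁₂ (congrArg Subtype.val (Additive.ofMul.injective (e.injective h0)))
    have h3 : ({0, e (Additive.ofMul ⟨x₁, hx₁E⟩), e (Additive.ofMul ⟨x₂, hx₂E⟩)} : Finset F).card = 3 := by
      rw [Finset.card_insert_of_notMem, Finset.card_pair hvw]
      simp only [Finset.mem_insert, Finset.mem_singleton, not_or]
      exact ⟨hv.symm, hw.symm⟩
    have h4 := Finset.card_le_univ ({0, e (Additive.ofMul ⟨x₁, hx₁E⟩), e (Additive.ofMul ⟨x₂, hx₂E⟩)} : Finset F)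
    omega
  have hβ : ∀ s < n, ∀ s' < n, ∀ a < n, wt ζ s' ^ 2 ^ a = wt ζ s → s = s' :=
    wt_noncong hζ hord (fun a s s' ha hs hs' h =>
      Cfsg.Agent.Lib.ShultArith.beta hn hmd hdn ha hs hs' h)
  obtain ⟨hsq, hcomm⟩ := main hdata hcardF hn hζ hβ hna'
  have hcen := center_sq hdata hcardF hζ hβ hna'
  -- the conclusion
  have hOmE : ∀ x : G, x ∈ Om hdata ↔ x * x = 1 := fun _ => Iff.rfl
  have hcommE : commutator G = Om hdata := by
    apply le_antisymm
    · rw [commutator_def, Subgroup.commutator_le]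
      intro g _ k _
      exact hcomm g k
    · apply Om_le hdata
      · rintro f ⟨a, ha, rfl⟩ x hx
        have : Subgroup.Characteristic (commutator G) := inferInstance
        have h1 := (Subgroup.characteristic_iff_map_le.mp this) a
        exact h1 (Subgroup.mem_map_of_mem _ hx)
      · intro h0
        obtain ⟨a, b, hab⟩ := hna'
        apply hab
        have h1 : ⁅a, b⁆ ∈ commutator G := by
          rw [commutator_def]
          exact Subgroup.commutator_mem_commutator (Subgroup.mem_top a) (Subgroup.mem_top b)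
        rw [h0, Subgroup.mem_bot] at h1
        exact commutatorElement_eq_one_iff_mul_comm.mp h1
  have hfr1 : commutator G ≤ frattini G := Cfsg.Agent.Lib.Frat.commutator_le_frattini hG
  have hfr2 : frattini G ≤ Om hdata := by
    apply Cfsg.Agent.Lib.Frat.frattini_le_of_commutator_pow (p := 2)
    · rw [hcommE]
    · intro x
      rw [sq]
      exact hsq x
  have hfrat : frattini G = Om hdata := le_antisymm hfr2 (hcommE ▸ hfr1)
  have hcenE : Subgroup.center G = Om hdata :=
    le_antisymm (fun z hz => hcen z hz) (Om_le_center hdata)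
  refine ⟨by rw [hcommE, hfrat], by rw [hfrat, hcenE], fun x => ?_⟩
  rw [hcenE, hOmE, sq]

end Cfsg.Agent.S3776
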