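import Mathlib
import Cfsg.Statements.S3777
import Cfsg.Agent.Lib.Frat
import Cfsg.Agent.Lib.VLCount
import Cfsg.Agent.Lib.VLChain
import Cfsg.Agent.Lib.VLForm

set_option autoImplicit false
set_option linter.style.haveILetI false
open Cfsg

namespace Cfsg.Agent.S3777

open Subgroup
open scoped commutatorElement
open Cfsg.Agent.Lib.VLCount Cfsg.Agent.Lib.VLChain Cfsg.Agent.Lib.VLForm Cfsg.Agent.Lib.Frat

universe u

section caseB

variable {G : Type u} [Group G] [Finite G] {p : ℕ} [hp : Fact p.Prime]

/-- The index of the "centraliser modulo `[Φ,G]`" of a good element. -/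
theorem good_index (hG : IsPGroup p G) {m : G} (hm : m ∉ frattini G)
    (hT : ∀ v, ⁅m, v⁆ ∈ ⁅frattini G, (⊤ : Subgroup G)⁆ → v ∈ zpowers m ⊔ frattini G) {e : ℕ}
    (hd : (frattini G).index = p ^ (e + 1)) :
    (Tsub ⁅frattini G, (⊤ : Subgroup G)⁆ m).index = p ^ e := by
  set T := Tsub ⁅frattini G, (⊤ : Subgroup G)⁆ m with hTdef
  have hΦT : frattini G ≤ T := by
    intro x hx
    exact mem_Tsub.mpr (comm_inv_mem (commutator_mem_commutator hx (mem_top m)))
  have hmT : m ∈ T := by
    apply mem_Tsub.mpr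
    rw [commutatorElement_self]
    exact one_mem _
  have hTeq : T = zpowers m ⊔ frattini G := by
    apply le_antisymm
    · intro v hv
      exact hT v (mem_Tsub.mp hv)
    · exact sup_le (zpowers_le.mpr hmT) hΦT
  have h1 : (frattini G).relIndex T = p := by
    rw [hTeq, Subgroup.relIndex_sup_right, relIndex_eq_card_map, MonoidHom.map_zpowers,
      Nat.card_zpowers]
    apply orderOf_eq_prime
    · rw [QuotientGroup.mk'_apply, ← QuotientGroup.mk_pow, QuotientGroup.eq_one_iff]
      exact pow_mem_frattini hG m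
    · rw [QuotientGroup.mk'_apply, Ne, QuotientGroup.eq_one_iff]
      exact hm
  have h2 := Subgroup.relIndex_mul_index hΦT
  rw [h1, hd, pow_succ, mul_comm] at h2
  exact Nat.eq_of_mul_eq_mul_right hp.out.pos h2

theorem kill_frattini (u : G →* Cp p) {x : G} (hx : x ∈ frattini G) :
    u x = 1 := by
  have h1 : frattini G ≤ u.ker := by
    apply frattini_le_of_commutator_pow (p := p)
    · exact Abelianization.commutator_subset_ker u
    · intro y
      rw [MonoidHom.mem_ker, map_pow]
      have := pow_card_eq_one' (x := u y)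
      rwa [card_Cp] at this
  exact h1 hx

theorem arith_final {p e b : ℕ} (hp : 0 < p) (hp1 : 1 < p) (heb : e ≤ b) {c d r : ℕ}
    (hA : d * (p ^ e) ^ (e + 1) ≤ (p ^ b) ^ (e + 1))
    (hB : r ≤ p ^ ((e + 1) * (e + 1 - 1) / 2))
    (hC : c = r * d) : c ≤ p ^ (b * (b + 1) / 2) := by
  obtain ⟨t, rfl⟩ := Nat.exists_eq_add_of_le heb
  have h1 : d ≤ p ^ (t * (e + 1)) := by
    have h2 : (p ^ (e + t)) ^ (e + 1) = (p ^ e) ^ (e + 1) * p ^ (t * (e + 1)) := by
      rw [pow_add p e t, mul_pow, ← pow_mul p t]
    rw [h2, mul_comm] at hA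
    exact Nat.le_of_mul_le_mul_left hA (by positivity)
  rw [hC]
  simp only [Nat.add_sub_cancel] at hB
  calc r * d ≤ p ^ ((e + 1) * e / 2) * p ^ (t * (e + 1)) := Nat.mul_le_mul hB h1
    _ = p ^ ((e + 1) * e / 2 + t * (e + 1)) := by rw [pow_add]
    _ ≤ _ := by
      apply Nat.pow_le_pow_right hp
      have h3 : (e + 1) * e / 2 * 2 = (e + 1) * e := by
        apply Nat.div_mul_cancel
        have := Nat.even_mul_succ_self e
        rw [mul_comm] at this
        exact this.two_dvd
      rw [Nat.le_div_iff_mul_le (by norm_num)]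
      have h4 : t ≤ t * t := Nat.le_mul_self t
      nlinarith

theorem caseB (hG : IsPGroup p G) (b : ℕ)
    (hb : ∀ x : G, (Subgroup.centralizer ({x} : Set G)).index ≤ p ^ b)
    (hB : ∀ M : Subgroup G, IsCoatom M → (commutator M).map M.subtype ≠ commutator G)
    (hne : commutator G ≠ ⊥) :
    Nat.card (commutator G) ≤ p ^ (b * (b + 1) / 2) := by
  classical
  have hnil : Group.IsNilpotent G := hG.isNilpotent
  have hp1 : 1 < p := hp.out.one_lt
  have hform := form_lemma hG hB
  choose! w hw1 hw2 using hform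
  have hgood : ∀ u₀ : G →* Cp p, u₀ ≠ 1 → ∃ m, u₀ m ≠ 1 ∧
      ∀ v, ⁅m, v⁆ ∈ ⁅frattini G, (⊤ : Subgroup G)⁆ → ∀ u₁ : G →* Cp p, u₁ m = 1 → u₁ v = 1 :=
    fun u₀ hu₀ => exists_good (fun a b => ⁅a, b⁆ ∈ ⁅frattini G, (⊤ : Subgroup G)⁆) w hw1
      (fun u a b hu hab => hw2 u hu a b hab) u₀ hu₀
  let Good : Set G := {m | m ∉ frattini G ∧
    ∀ v, ⁅m, v⁆ ∈ ⁅frattini G, (⊤ : Subgroup G)⁆ → v ∈ zpowers m ⊔ frattini G}
  have hgen : closure Good = ⊤ := by
    by_contra h
    obtain ⟨K, hK, hle⟩ := (eq_top_or_exists_le_coatom (closure Good)).resolve_left h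
    haveI hKn : K.Normal := normal_of_commutator_le (commutator_and_pow_mem_of_isCoatom hG hK).1
    obtain ⟨u₀, hu₀⟩ := exists_char_of_index (p := p) (index_eq_of_isCoatom hG hK)
    have hu₀1 : u₀ ≠ 1 := by
      rintro rfl
      apply hK.1
      rw [← hu₀]
      exact MonoidHom.ker_one
    obtain ⟨m, hm1, hm2⟩ := hgood u₀ hu₀1
    have hmG : m ∈ Good := by
      refine ⟨fun hmΦ => hm1 (kill_frattini u₀ hmΦ), fun v hv => ?_⟩
      by_contra hvn
      obtain ⟨u₁, h1, h2⟩ := exists_char_sep hG (le_sup_right) hvn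
      exact h2 (hm2 v hv u₁ (h1 m (mem_sup_left (mem_zpowers m))))
    have h3 : m ∈ K := hle (subset_closure hmG)
    apply hm1
    have h4 : m ∈ u₀.ker := by
      rw [hu₀]
      exact h3
    exact h4
  obtain ⟨d, hd⟩ : ∃ d, (frattini G).index = p ^ d := by
    have := hG.index (frattini G)
    exact this
  obtain ⟨hbb, -⟩ := burnside_basis hG hd
  obtain ⟨B, hBS, hBc, hBg⟩ := hbb (Set.toFinite Good).toFinset (by simpa using hgen)
  let eB : B ≃ Fin d := B.equivFinOfCardEq hBc
  let x : Fin d → G := fun j => (eB.symm j : G)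
  have hrange : Set.range x = (B : Set G) := by
    ext y
    constructor
    · rintro ⟨j, rfl⟩
      exact (eB.symm j).2
    · intro hy
      exact ⟨eB ⟨y, hy⟩, by simp [x]⟩
  have hx : closure (Set.range x) = ⊤ := by rw [hrange, hBg]
  have hxgood : ∀ j, x j ∈ Good := by
    intro j
    have := hBS (eB.symm j).2
    simpa using this
  -- `d ≠ 0`
  obtain ⟨e, rfl⟩ : ∃ e, d = e + 1 := by
    rcases d with _ | e
    · exfalso
      apply hne
      have h1 : (⊤ : Subgroup G) = ⊥ := by
        rw [← hx]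
        have : Set.range x = ∅ := Set.range_eq_empty x
        rw [this, Subgroup.closure_empty]
      rw [eq_bot_iff, ← h1]
      exact le_top
    · exact ⟨e, rfl⟩
  have hTidx : ∀ j, (Tsub ⁅frattini G, (⊤ : Subgroup G)⁆ (x j)).index = p ^ e :=
    fun j => good_index hG (hxgood j).1 (hxgood j).2 hd
  have hChain := chain hnil x hx (frattini G)
  simp only [hTidx] at hChain
  rw [Finset.prod_const, Finset.card_univ, Fintype.card_fin] at hChain
  have hCprod : ∏ j, (Subgroup.centralizer ({x j} : Set G)).index ≤ (p ^ b) ^ (e + 1) := by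
    have := Finset.prod_le_pow_card (Finset.univ : Finset (Fin (e + 1)))
      (fun j => (Subgroup.centralizer ({x j} : Set G)).index) (p ^ b) (fun j _ => hb (x j))
    rwa [Finset.card_univ, Fintype.card_fin] at this
  -- `e ≤ b`
  have heb : e ≤ b := by
    have h1 : (Subgroup.centralizer ({x 0} : Set G)) ≤
        Tsub ⁅frattini G, (⊤ : Subgroup G)⁆ (x 0) := by
      intro g hg
      rw [Subgroup.mem_centralizer_singleton_iff] at hg
      apply mem_Tsub.mpr
      have h2 : ⁅x 0, g⁆ = 1 := commutatorElement_eq_one_iff_mul_comm.mpr hg.symm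
      rw [h2]
      exact one_mem _
    have h3 := Subgroup.index_dvd_of_le h1
    rw [hTidx] at h3
    have h4 : p ^ e ≤ p ^ b := (Nat.le_of_dvd (Nat.pos_of_ne_zero
      (Subgroup.index_ne_zero_of_finite)) h3).trans (hb (x 0))
    exact (Nat.pow_le_pow_iff_right hp1).mp h4
  -- the top layer
  have hc1 : ∀ g h k : G, ⁅⁅g, h⁆, k⁆ ∈ ⁅frattini G, (⊤ : Subgroup G)⁆ := fun g h k =>
    commutator_mem_commutator (commutator_le_frattini hG (comm_mem g h)) (mem_top k)
  have hc2 : ∀ g h : G, ⁅g, h⁆ ^ p ∈ ⁅frattini G, (⊤ : Subgroup G)⁆ := by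
    intro g h
    have hh : h ∈ Tsub (commutator G) g := mem_Tsub.mpr (comm_mem g h)
    have hc : ∀ d ∈ commutator G, ∀ k : G, ⁅d, k⁆ ∈ ⁅frattini G, (⊤ : Subgroup G)⁆ :=
      fun d hd k => commutator_mem_commutator (commutator_le_frattini hG hd) (mem_top k)
    have h1 := map_pow (phi hc g) ⟨h, hh⟩ p
    rw [phi_apply, phi_apply, ← QuotientGroup.mk_pow] at h1
    rw [← QuotientGroup.eq_one_iff, ← h1, QuotientGroup.eq_one_iff]
    apply comm_inv_mem
    exact commutator_mem_commutator (pow_mem_frattini hG h) (mem_top g)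
  have hTop := top_layer (p := p) hp.out.pos x hx ⁅frattini G, (⊤ : Subgroup G)⁆ hc1 hc2
  have hD₁le : ⁅frattini G, (⊤ : Subgroup G)⁆ ≤ commutator G :=
    commutator_mono le_top le_top
  have hCard : Nat.card (commutator G) =
      (⁅frattini G, (⊤ : Subgroup G)⁆).relIndex (commutator G) *
        Nat.card ↥⁅frattini G, (⊤ : Subgroup G)⁆ := by
    have h5 := Subgroup.card_mul_index ((⁅frattini G, (⊤ : Subgroup G)⁆).subgroupOf (commutator G))
    rw [Nat.card_congr (Subgroup.subgroupOfEquivOfLe hD₁le).toEquiv] at h5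
    rw [Subgroup.relIndex, mul_comm]
    exact h5.symm
  exact arith_final hp.out.pos hp1 heb (hChain.trans hCprod) hTop hCard

end caseB

theorem main {p : ℕ} [hp : Fact p.Prime] : ∀ n : ℕ, ∀ (G : Type u) [Group G] [Finite G],
    Nat.card G = n → IsPGroup p G → ∀ b : ℕ,
    (∀ x : G, (Subgroup.centralizer ({x} : Set G)).index ≤ p ^ b) →
    Nat.card (commutator G) ≤ p ^ (b * (b + 1) / 2) := by
  intro n
  induction n using Nat.strong_induction_on with
  | _ n ih =>
    intro G _ _ hn hG b hb
    by_cases hne : commutator G = ⊥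
    · rw [hne, Subgroup.card_bot]
      exact Nat.one_le_pow _ _ hp.out.pos
    by_cases hA : ∃ M : Subgroup G, IsCoatom M ∧ (commutator M).map M.subtype = commutator G
    · obtain ⟨M, hM, hMe⟩ := hA
      have h1 : Nat.card (commutator G) = Nat.card (commutator M) := by
        rw [← hMe]
        exact Subgroup.card_map_of_injective M.subtype_injective
      rw [h1]
      refine ih (Nat.card M) ?_ M rfl (hG.to_subgroup M) b ?_
      · rw [← hn, ← Subgroup.card_mul_index M, index_eq_of_isCoatom hG hM]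
        exact lt_mul_of_one_lt_right Nat.card_pos hp.out.one_lt
      · intro x
        have h2 : Subgroup.centralizer ({x} : Set M) =
            (Subgroup.centralizer ({(x : G)} : Set G)).subgroupOf M := by
          ext y
          rw [Subgroup.mem_centralizer_singleton_iff, Subgroup.mem_subgroupOf,
            Subgroup.mem_centralizer_singleton_iff]
          exact Subtype.ext_iff
        rw [h2]
        refine le_trans ?_ (hb x)
        rw [← Subgroup.relIndex_top_right (Subgroup.centralizer ({(x : G)} : Set G))]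
        apply Subgroup.relIndex_le_of_le_right le_top
        rw [Subgroup.relIndex_top_right]
        exact Subgroup.index_ne_zero_of_finite
    · push Not at hA
      exact caseB hG b hb hA hne

/-- Vaughan-Lee's Theorem: if G is a finite p-group in which every conjugacy class has at most p^b elements (every element has centralizer of index at most p^b), then the derived subgroup of G has order at most p^(b(b+1)/2). -/
theorem result {G : Type*} [Group G] [Finite G] {p : ℕ} [Fact p.Prime] (hG : IsPGroup p G) (b : ℕ) (hb : ∀ x : G, (Subgroup.centralizer ({x} : Set G)).index ≤ p ^ b) : Nat.card (commutator G) ≤ p ^ (b * (b + 1) / 2) :=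
  main _ G rfl hG b hb

end Cfsg.Agent.S3777
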