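import Mathlib
import Cfsg.Statements.S3778
import Cfsg.Agent.Lib.ExtraBasics
import Cfsg.Agent.Lib.Frat

set_option autoImplicit false
open Cfsg
open scoped commutatorElement

namespace Cfsg.Agent.S3778

open Cfsg.Agent.Lib.ExtraBasics

variable {G : Type*} [Group G]

theorem key_relIndex [Finite G] (C J K : Subgroup G) [J.Normal] (hJK : J ≤ K) :
    C.relIndex K = C.relIndex J * (J ⊔ (C ⊓ K)).relIndex K := by
  set H := C ⊓ K with hH
  have h1 : C.relIndex K = H.relIndex K := (Subgroup.inf_relIndex_right C K).symm
  have h2 : H.relIndex (J ⊔ H) * (J ⊔ H).relIndex K = H.relIndex K :=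
    Subgroup.relIndex_mul_relIndex H (J ⊔ H) K le_sup_right (sup_le hJK inf_le_right)
  have h3 : H.relIndex (J ⊔ H) = H.relIndex J := by
    rw [sup_comm]
    exact relIndex_sup_eq H J
  have h4 : H.relIndex J = C.relIndex J := by
    rw [← Subgroup.inf_relIndex_right H J, ← Subgroup.inf_relIndex_right C J]
    congr 1
    rw [hH, inf_assoc, inf_eq_right.mpr hJK]
  rw [h1, ← h2, h3, h4]

theorem comm_mem_iff (N : Subgroup G) [N.Normal] (x t : G) :
    ⁅x, t⁆ ∈ N ↔ (QuotientGroup.mk' N) x * (QuotientGroup.mk' N) t =
      (QuotientGroup.mk' N) t * (QuotientGroup.mk' N) x := by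
  rw [← commutatorElement_eq_one_iff_mul_comm, ← map_commutatorElement]
  exact (QuotientGroup.eq_one_iff _).symm

/-- The two-step centralizer: the elements `x` with `[x, Z_{j+2}] ≤ Z_j`. -/
def twoStep (G : Type*) [Group G] (j : ℕ) : Subgroup G :=
  (Subgroup.centralizer
    (((Subgroup.upperCentralSeries G (j + 2)).map (QuotientGroup.mk' (Subgroup.upperCentralSeries G j)) :
      Subgroup (G ⧸ Subgroup.upperCentralSeries G j)) : Set (G ⧸ Subgroup.upperCentralSeries G j))).comap
    (QuotientGroup.mk' (Subgroup.upperCentralSeries G j))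

theorem mem_twoStep {j : ℕ} {x : G} :
    x ∈ twoStep G j ↔ ∀ t ∈ Subgroup.upperCentralSeries G (j + 2), ⁅x, t⁆ ∈ Subgroup.upperCentralSeries G j := by
  rw [twoStep, Subgroup.mem_comap, Subgroup.mem_centralizer_iff]
  constructor
  · intro h t ht
    rw [comm_mem_iff]
    exact (h _ ⟨t, ht, rfl⟩).symm
  · rintro h _ ⟨t, ht, rfl⟩
    exact ((comm_mem_iff _ _ _).mp (h t ht)).symm

theorem twoStep_ne_top [Group.IsNilpotent G] {j : ℕ} (hj : Subgroup.upperCentralSeries G (j + 1) ≠ ⊤) :
    twoStep G j ≠ ⊤ := by
  intro htop
  have h1 : Subgroup.upperCentralSeries G (j + 2) ≤ Subgroup.upperCentralSeries G (j + 1) := by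
    intro t ht
    rw [Subgroup.mem_upperCentralSeries_succ_iff]
    intro y
    have hy : y ∈ twoStep G j := by rw [htop]; trivial
    have := (mem_twoStep.mp hy) t ht
    rw [← commutatorElement_inv] at this
    have h2 := Subgroup.inv_mem _ this
    rw [inv_inv] at h2
    exact h2
  have h2 : ∀ m, Subgroup.upperCentralSeries G (j + 1 + m) ≤ Subgroup.upperCentralSeries G (j + 1) := by
    intro m
    induction m with
    | zero => exact le_rfl
    | succ m ih =>
      refine le_trans ?_ h1
      intro t ht
      have ht' : t ∈ Subgroup.upperCentralSeries G ((j + 1 + m) + 1) := ht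
      rw [Subgroup.mem_upperCentralSeries_succ_iff] at ht'
      show t ∈ Subgroup.upperCentralSeries G ((j + 1) + 1)
      rw [Subgroup.mem_upperCentralSeries_succ_iff]
      exact fun y => ih (ht' y)
  apply hj
  rw [eq_top_iff, ← Subgroup.upperCentralSeries_nilpotencyClass (G := G)]
  by_cases hc : Group.nilpotencyClass G ≤ j + 1
  · exact Subgroup.upperCentralSeries_mono _ hc
  · have := h2 (Group.nilpotencyClass G - (j + 1))
    rwa [show j + 1 + (Group.nilpotencyClass G - (j + 1)) = Group.nilpotencyClass G by omega] at this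

theorem le_relIndex_of_ne [Finite G] {p : ℕ} [hp : Fact p.Prime] (hG : IsPGroup p G)
    {L K : Subgroup G} (hne : ¬ K ≤ L) : p ≤ L.relIndex K := by
  have hdvd : L.relIndex K ∣ Nat.card K := Subgroup.index_dvd_card _
  obtain ⟨m, hm⟩ := IsPGroup.iff_card.mp (hG.to_subgroup K)
  rw [hm] at hdvd
  obtain ⟨s, -, hs⟩ := (Nat.dvd_prime_pow hp.out).mp hdvd
  rw [hs]
  have hs0 : s ≠ 0 := by
    rintro rfl
    rw [pow_zero] at hs
    exact hne (Subgroup.relIndex_eq_one.mp hs)
  calc p = p ^ 1 := (pow_one p).symm
    _ ≤ p ^ s := Nat.pow_le_pow_right hp.out.pos (Nat.one_le_iff_ne_zero.mpr hs0)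

theorem relIndex_step_dvd [Finite G] (g : G) (j : ℕ) :
    (Subgroup.centralizer ({g} : Set G)).relIndex (Subgroup.upperCentralSeries G (j + 1)) ∣
      (Subgroup.centralizer ({g} : Set G)).relIndex (Subgroup.upperCentralSeries G (j + 2)) := by
  rw [key_relIndex (Subgroup.centralizer ({g} : Set G)) (Subgroup.upperCentralSeries G (j + 1))
    (Subgroup.upperCentralSeries G (j + 2)) (Subgroup.upperCentralSeries_mono _ (Nat.le_succ _))]
  exact Dvd.intro _ rfl

theorem relIndex_step [Finite G] {p : ℕ} [Fact p.Prime] (hG : IsPGroup p G) {g : G} {j : ℕ}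
    (hg : g ∉ twoStep G j) :
    p * (Subgroup.centralizer ({g} : Set G)).relIndex (Subgroup.upperCentralSeries G (j + 1)) ≤
      (Subgroup.centralizer ({g} : Set G)).relIndex (Subgroup.upperCentralSeries G (j + 2)) := by
  set C := Subgroup.centralizer ({g} : Set G) with hC
  rw [key_relIndex C (Subgroup.upperCentralSeries G (j + 1))
    (Subgroup.upperCentralSeries G (j + 2)) (Subgroup.upperCentralSeries_mono _ (Nat.le_succ _)), mul_comm]
  refine Nat.mul_le_mul_left _ (le_relIndex_of_ne hG ?_)
  intro hle
  rw [mem_twoStep] at hg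
  push Not at hg
  obtain ⟨t, ht, htn⟩ := hg
  apply htn
  -- everything in `L` commutes with `g` modulo `Z_j`
  let π := QuotientGroup.mk' (Subgroup.upperCentralSeries G j)
  have hT : Subgroup.upperCentralSeries G (j + 1) ⊔ (C ⊓ Subgroup.upperCentralSeries G (j + 2)) ≤
      (Subgroup.centralizer ({π g} : Set _)).comap π := by
    refine sup_le ?_ ?_
    · intro z hz
      rw [Subgroup.mem_comap, Subgroup.mem_centralizer_iff]
      rintro _ rfl
      rw [Subgroup.mem_upperCentralSeries_succ_iff] at hz
      exact ((comm_mem_iff _ _ _).mp (hz g)).symm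
    · rintro z ⟨hz, -⟩
      rw [Subgroup.mem_comap, Subgroup.mem_centralizer_iff]
      rintro _ rfl
      have h1 : g * z = z * g := (Subgroup.mem_centralizer_iff.mp hz) g rfl
      rw [← map_mul, ← map_mul, h1]
  have h2 := hT (hle ht)
  rw [Subgroup.mem_comap, Subgroup.mem_centralizer_iff] at h2
  rw [comm_mem_iff]
  exact h2 _ rfl

open scoped Classical in
/-- The chain estimate. -/
theorem chain_estimate [Finite G] {p : ℕ} [Fact p.Prime] (hG : IsPGroup p G)
    (M : ℕ → Subgroup G) (hM : ∀ j, twoStep G j ≤ M j) (g : G) (j : ℕ) :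
    p ^ ((Finset.range j).filter (fun k => g ∉ M k)).card ≤
      (Subgroup.centralizer ({g} : Set G)).relIndex (Subgroup.upperCentralSeries G (j + 1)) := by
  classical
  induction j with
  | zero =>
    simp only [Finset.range_zero, Finset.filter_empty, Finset.card_empty, pow_zero]
    exact Nat.pos_of_ne_zero Subgroup.index_ne_zero_of_finite
  | succ j ih =>
    rw [Finset.range_add_one, Finset.filter_insert]
    have hnot : j ∉ (Finset.range j).filter (fun k => g ∉ M k) := by simp
    split_ifs with hj
    · refine ih.trans (Nat.le_of_dvd ?_ (relIndex_step_dvd g j))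
      exact Nat.pos_of_ne_zero Subgroup.index_ne_zero_of_finite
    · rw [Finset.card_insert_of_notMem hnot, pow_succ, mul_comm]
      have hg : g ∉ twoStep G j := fun h => hj (hM j h)
      exact (Nat.mul_le_mul_left p ih).trans (relIndex_step hG hg)

open scoped Classical in
/-- The averaging argument. -/
theorem exists_many [Finite G] {p : ℕ} [hp : Fact p.Prime] (hG : IsPGroup p G) (m : ℕ)
    (hm : 1 ≤ m) (M : ℕ → Subgroup G) (hM : ∀ j < m, IsCoatom (M j)) :
    ∃ g : G, m * (p - 1) < p * ((Finset.range m).filter (fun k => g ∉ M k)).card := by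
  classical
  have hpp : p.Prime := hp.out
  have : Fintype G := Fintype.ofFinite G
  by_contra hcon
  push Not at hcon
  set K := m * (p - 1) with hK
  have hKpos : 0 < K := Nat.mul_pos hm (by have := hpp.two_le; omega)
  -- double counting
  have hsum : ∑ g : G, ((Finset.range m).filter (fun k => g ∉ M k)).card =
      ∑ j ∈ Finset.range m, (Finset.univ.filter (fun g : G => g ∉ M j)).card :=
    Finset.sum_card_bipartiteAbove_eq_sum_card_bipartiteBelow _
  have hcount : ∀ j ∈ Finset.range m,
      p * (Finset.univ.filter (fun g : G => g ∉ M j)).card = (p - 1) * Fintype.card G := by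
    intro j hj
    have hi := Cfsg.Agent.Lib.Frat.index_eq_of_isCoatom hG (hM j (Finset.mem_range.mp hj))
    have h1 := (M j).index_mul_card
    rw [hi, Nat.card_eq_fintype_card (α := G)] at h1
    have h2 : (Finset.univ.filter (fun g : G => g ∈ M j)).card = Nat.card (M j) := by
      rw [Nat.card_eq_fintype_card, Fintype.card_subtype]
    have h3 := Finset.card_filter_add_card_filter_not (s := (Finset.univ : Finset G))
      (fun g : G => g ∈ M j)
    rw [Finset.card_univ, h2] at h3
    have h4 : p - 1 + 1 = p := Nat.sub_add_cancel hpp.one_le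
    calc p * (Finset.univ.filter (fun g : G => g ∉ M j)).card
        = p * (Nat.card (M j) + (Finset.univ.filter (fun g : G => g ∉ M j)).card) -
            p * Nat.card (M j) := by rw [mul_add]; omega
      _ = p * Fintype.card G - Fintype.card G := by rw [h3, h1]
      _ = (p - 1) * Fintype.card G := by
          rw [Nat.sub_mul, one_mul]
  have htotal : p * ∑ g : G, ((Finset.range m).filter (fun k => g ∉ M k)).card =
      K * Fintype.card G := by
    rw [hsum, Finset.mul_sum, Finset.sum_congr rfl hcount, Finset.sum_const, Finset.card_range,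
      smul_eq_mul, hK, mul_assoc]
  have hlt : ∑ g : G, p * ((Finset.range m).filter (fun k => g ∉ M k)).card < ∑ _g : G, K := by
    apply Finset.sum_lt_sum
    · intro g _
      exact hcon g
    · refine ⟨1, Finset.mem_univ _, ?_⟩
      have : (Finset.range m).filter (fun k => (1 : G) ∉ M k) = ∅ := by
        apply Finset.filter_eq_empty_iff.mpr
        intro k _
        simp
      rw [this]
      simpa using hKpos
  rw [← Finset.mul_sum, htotal, Finset.sum_const, Finset.card_univ, smul_eq_mul, mul_comm] at hlt
  exact lt_irrefl _ hlt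

/-- If G is a finite p-group in which every conjugacy class has at most p^b elements (every element has centralizer of index at most p^b), then G is abelian when b = 0, and when b ≥ 1 its nilpotency class c satisfies (c − 1)(p − 1) < bp, that is c < bp/(p − 1) + 1, and hence c ≤ 2b. -/
theorem result {G : Type*} [Group G] [Finite G] {p : ℕ} [Fact p.Prime] (hG : IsPGroup p G) (b : ℕ) (hb : ∀ x : G, (Subgroup.centralizer ({x} : Set G)).index ≤ p ^ b) : ∃ c : ℕ, (⊤ : Subgroup G).lowerCentralSeries c = ⊥ ∧ (b ≠ 0 → (c - 1) * (p - 1) < b * p ∧ c ≤ 2 * b) ∧ (b = 0 → c ≤ 1) := by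
  classical
  have hpp : p.Prime := Fact.out
  have hnil : Group.IsNilpotent G := hG.isNilpotent
  set c := Group.nilpotencyClass G with hc
  refine ⟨c, Subgroup.lowerCentralSeries_nilpotencyClass, ?_, ?_⟩
  · intro hb0
    have hmain : (c - 1) * (p - 1) < b * p := by
      by_cases hc2 : c ≤ 1
      · have : c - 1 = 0 := by omega
        rw [this, zero_mul]
        exact Nat.mul_pos (Nat.pos_of_ne_zero hb0) hpp.pos
      · -- the coatoms
        have hex : ∀ j, ∃ M : Subgroup G, twoStep G j ≤ M ∧ (j + 1 < c → IsCoatom M) := by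
          intro j
          by_cases hj : j + 1 < c
          · have hne : Subgroup.upperCentralSeries G (j + 1) ≠ ⊤ := by
              intro h
              have := Subgroup.upperCentralSeries_eq_top_iff_nilpotencyClass_le.mp h
              omega
            have htop := twoStep_ne_top hne
            rcases eq_top_or_exists_le_coatom (twoStep G j) with h | ⟨M, hM, hle⟩
            · exact absurd h htop
            · exact ⟨M, hle, fun _ => hM⟩
          · exact ⟨⊤, le_top, fun h => absurd h hj⟩
        choose M hM1 hM2 using hex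
        obtain ⟨g, hg⟩ := exists_many hG (c - 1) (by omega) M
          (fun j hj => hM2 j (by omega))
        have hchain := chain_estimate hG M hM1 g (c - 1)
        have htop : Subgroup.upperCentralSeries G (c - 1 + 1) = ⊤ := by
          rw [show c - 1 + 1 = c by omega]
          exact Subgroup.upperCentralSeries_nilpotencyClass
        rw [htop, Subgroup.relIndex_top_right] at hchain
        have hle := (hchain.trans (hb g))
        have hle2 := (Nat.pow_le_pow_iff_right hpp.one_lt).mp hle
        calc (c - 1) * (p - 1) < p * _ := hg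
          _ ≤ p * b := Nat.mul_le_mul_left p hle2
          _ = b * p := mul_comm _ _
    refine ⟨hmain, ?_⟩
    -- `c ≤ 2 b`
    by_contra hcon
    push Not at hcon
    have h1 : 2 * b ≤ c - 1 := by omega
    have h2 : p ≤ 2 * (p - 1) := by
      have := hpp.two_le
      omega
    have h3 : b * p ≤ (c - 1) * (p - 1) := by
      calc b * p ≤ b * (2 * (p - 1)) := Nat.mul_le_mul_left b h2
        _ = (2 * b) * (p - 1) := by ring
        _ ≤ (c - 1) * (p - 1) := Nat.mul_le_mul_right _ h1
    omega
  · rintro rfl
    have htop : Subgroup.upperCentralSeries G 1 = ⊤ := by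
      rw [Subgroup.upperCentralSeries_one, eq_top_iff]
      intro x _
      have h1 := hb x
      rw [pow_zero] at h1
      have h2 : (Subgroup.centralizer ({x} : Set G)).index ≠ 0 := Subgroup.index_ne_zero_of_finite
      have h3 : (Subgroup.centralizer ({x} : Set G)).index = 1 := by omega
      have h4 := Subgroup.index_eq_one.mp h3
      rw [Subgroup.mem_center_iff]
      intro g
      have : g ∈ Subgroup.centralizer ({x} : Set G) := by rw [h4]; trivial
      exact ((Subgroup.mem_centralizer_iff.mp this) x rfl).symm
    exact Subgroup.upperCentralSeries_eq_top_iff_nilpotencyClass_le.mp htop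

end Cfsg.Agent.S3778
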