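import Mathlib
import Cfsg.Statements.S3780
import Cfsg.Agent.Lib.Frat

set_option autoImplicit false
open Cfsg

namespace Cfsg.Agent.S3780

section additive

variable {A : Type*} [AddCommGroup A]

/-- The part of `ker (N ^ k)` killed by `p`. -/
def K (p : ℕ) (N : AddMonoid.End A) (k : ℕ) : AddSubgroup A :=
  AddMonoidHom.ker (N ^ k : AddMonoid.End A) ⊓ AddMonoidHom.ker (nsmulAddMonoidHom p)

theorem mem_K {p : ℕ} {N : AddMonoid.End A} {k : ℕ} {v : A} :
    v ∈ K p N k ↔ (N ^ k : AddMonoid.End A) v = 0 ∧ p • v = 0 := by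
  rw [K, AddSubgroup.mem_inf]
  exact Iff.rfl

theorem card_K_succ [Finite A] (p : ℕ) (N : AddMonoid.End A) (k : ℕ) :
    Nat.card (K p N (k + 1)) ≤ Nat.card (K p N k) * Nat.card (K p N 1) := by
  have hmem : ∀ v : K p N (k + 1), (N ^ k : AddMonoid.End A) v.1 ∈ K p N 1 := by
    rintro ⟨v, hv⟩
    rw [mem_K] at hv ⊢
    refine ⟨?_, ?_⟩
    · rw [pow_one]
      have h := hv.1
      rw [pow_succ'] at h
      exact h
    · show p • (N ^ k : AddMonoid.End A) v = 0
      rw [← map_nsmul, hv.2, map_zero]
  let f : K p N (k + 1) →+ K p N 1 :=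
    { toFun := fun v => ⟨(N ^ k : AddMonoid.End A) v.1, hmem v⟩
      map_zero' := by
        ext
        simp
      map_add' := by
        intro a b
        ext
        simp }
  have h1 : Nat.card (K p N (k + 1)) = Nat.card f.ker * Nat.card f.range := by
    rw [← AddSubgroup.index_ker, AddSubgroup.card_mul_index]
  have h2 : Nat.card f.range ≤ Nat.card (K p N 1) := AddSubgroup.card_le_card_addGroup _
  have h3 : Nat.card f.ker ≤ Nat.card (K p N k) := by
    refine Nat.card_le_card_of_injective
      (fun v : f.ker => (⟨v.1.1, ?_⟩ : K p N k)) ?_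
    · rw [mem_K]
      have hv := v.2
      rw [AddMonoidHom.mem_ker] at hv
      have hv1 : (N ^ k : AddMonoid.End A) v.1.1 = 0 := congrArg Subtype.val hv
      exact ⟨hv1, (mem_K.mp v.1.2).2⟩
    · intro x y hxy
      apply Subtype.ext
      apply Subtype.ext
      exact congrArg (fun z : K p N k => z.1) hxy
  rw [h1]
  exact Nat.mul_le_mul h3 h2

theorem card_K_le [Finite A] (p : ℕ) (N : AddMonoid.End A) (k : ℕ) :
    Nat.card (K p N k) ≤ Nat.card (K p N 1) ^ k := by
  induction k with
  | zero =>
    have : K p N 0 ≤ ⊥ := by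
      intro v hv
      have := (mem_K.mp hv).1
      simpa using this
    rw [pow_zero, le_bot_iff.mp this]
    simp
  | succ k ih =>
    rw [pow_succ]
    exact (card_K_succ p N k).trans (Nat.mul_le_mul_right _ ih)

/-- The main counting statement. -/
theorem card_torsion_le [Finite A] {p : ℕ} (hp : p.Prime) (a : AddMonoid.End A)
    (ha : a ^ p = 1) (n : ℕ) (hfix : Nat.card {v : A // a v = v} = p ^ n) :
    Nat.card (AddMonoidHom.ker (nsmulAddMonoidHom p : A →+ A)) ≤ (p ^ n) ^ p := by
  set N : AddMonoid.End A := a - 1 with hN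
  have hK1 : Nat.card (K p N 1) ≤ p ^ n := by
    rw [← hfix]
    refine Nat.card_le_card_of_injective
      (fun v : K p N 1 => (⟨v.1, ?_⟩ : {v : A // a v = v})) ?_
    · have := (mem_K.mp v.2).1
      rw [pow_one] at this
      have h2 : a v.1 - v.1 = 0 := this
      exact sub_eq_zero.mp h2
    · intro x y hxy
      apply Subtype.ext
      exact congrArg (fun z : {v : A // a v = v} => z.1) hxy
  have hKp : AddMonoidHom.ker (nsmulAddMonoidHom p : A →+ A) ≤ K p N p := by
    intro v hv
    have hv' : p • v = 0 := hv
    rw [mem_K]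
    refine ⟨?_, hv'⟩
    have hc : Commute a (-1 : AddMonoid.End A) := (Commute.one_right a).neg_right
    obtain ⟨r, hr⟩ := hc.exists_add_pow_prime_eq hp
    have hNe : N = a + (-1) := by rw [hN, sub_eq_add_neg]
    rw [hNe, hr, ha]
    show (1 + (-1 : AddMonoid.End A) ^ p + p * a * (-1) * r) v = 0
    have h1 : ((p : AddMonoid.End A) * a * (-1) * r) v = 0 := by
      have : (p : AddMonoid.End A) * a * (-1) * r = a * (-1) * r * (p : AddMonoid.End A) := by
        have : Commute (p : AddMonoid.End A) (a * (-1) * r) := Nat.cast_commute p _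
        rw [← this.eq]
        simp only [mul_assoc]
      rw [this]
      show (a * (-1) * r) ((p : AddMonoid.End A) v) = 0
      have h3 : (p : AddMonoid.End A) v = p • v := by
        simp
      rw [h3, hv', map_zero]
    have h2 : ((1 : AddMonoid.End A) + (-1) ^ p) v = 0 := by
      rcases hp.eq_two_or_odd' with rfl | hodd
      · have : ((1 : AddMonoid.End A) + (-1) ^ 2) = (2 : AddMonoid.End A) := by
          rw [neg_one_sq]; norm_num
        rw [this]
        have h3 : (2 : AddMonoid.End A) v = 2 • v := by
          have : (2 : AddMonoid.End A) = ((2 : ℕ) : AddMonoid.End A) := by norm_num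
          rw [this]
          simp
        rw [h3, hv']
      · rw [hodd.neg_one_pow]
        simp
    have : (1 + (-1 : AddMonoid.End A) ^ p + p * a * (-1) * r) v =
        ((1 : AddMonoid.End A) + (-1) ^ p) v + ((p : AddMonoid.End A) * a * (-1) * r) v := rfl
    rw [this, h1, h2, add_zero]
  have h4 : Nat.card (AddMonoidHom.ker (nsmulAddMonoidHom p : A →+ A)) ≤ Nat.card (K p N p) :=
    AddSubgroup.card_le_of_le hKp
  exact h4.trans ((card_K_le p N p).trans (Nat.pow_le_pow_left hK1 p))

end additive

/-- Let V be a finite abelian p-group and α an automorphism of V of order p whose fixed-point subgroup has order p^n. Then V can be generated by pn elements: some subset of V with at most pn elements generates V. -/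
theorem result {V : Type*} [CommGroup V] [Finite V] {p : ℕ} [Fact p.Prime] (hV : IsPGroup p V) (α : MulAut V) (hα : orderOf α = p) (n : ℕ) (hfix : Nat.card {v : V // α v = v} = p ^ n) : ∃ S : Finset V, S.card ≤ p * n ∧ Subgroup.closure (S : Set V) = ⊤ := by
  classical
  have hpp : p.Prime := Fact.out
  have : Fintype V := Fintype.ofFinite V
  -- the additive version of `α`
  let a : AddMonoid.End (Additive V) := MonoidHom.toAdditive α.toMonoidHom
  have hapow : ∀ (k : ℕ) (v : V), (a ^ k) (Additive.ofMul v) = Additive.ofMul ((α ^ k) v) := by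
    intro k
    induction k with
    | zero => intro v; simp
    | succ k ih =>
      intro v
      rw [pow_succ', pow_succ']
      show a ((a ^ k) (Additive.ofMul v)) = _
      rw [ih]
      rfl
  have ha : a ^ p = 1 := by
    ext v
    have h := hapow p (Additive.toMul v)
    have hone : α ^ p = 1 := by
      rw [← hα]
      exact pow_orderOf_eq_one α
    rw [hone] at h
    simpa using h
  have hfix' : Nat.card {v : Additive V // a v = v} = p ^ n := by
    rw [← hfix]
    exact Nat.card_congr
      ⟨fun v => ⟨Additive.toMul v.1, v.2⟩, fun v => ⟨Additive.ofMul v.1, v.2⟩,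
        fun _ => rfl, fun _ => rfl⟩
  have hcard := card_torsion_le hpp a ha n hfix'
  -- translate back
  let P : V →* V := powMonoidHom p
  have hkercard : Nat.card P.ker ≤ (p ^ n) ^ p := by
    refine le_trans ?_ hcard
    refine Nat.card_le_card_of_injective
      (fun v : P.ker => (⟨Additive.ofMul v.1, ?_⟩ : AddMonoidHom.ker (nsmulAddMonoidHom p : Additive V →+ Additive V))) ?_
    · have : v.1 ^ p = 1 := v.2
      rw [AddMonoidHom.mem_ker]
      show p • Additive.ofMul v.1 = 0
      rw [← ofMul_pow, this]
      rfl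
    · intro x y hxy
      apply Subtype.ext
      exact congrArg (fun z => Additive.toMul z.1) hxy
  have hle : P.range ≤ frattini V := by
    rintro _ ⟨x, rfl⟩
    exact Cfsg.Agent.Lib.Frat.pow_mem_frattini hV x
  have hidx : (frattini V).index ∣ P.range.index := Subgroup.index_dvd_of_le hle
  have hrange : P.range.index = Nat.card P.ker := by
    have h1 := P.ker.card_mul_index
    rw [Subgroup.index_ker] at h1
    have h2 := P.range.index_mul_card
    have hpos : 0 < Nat.card P.range := Nat.card_pos
    apply Nat.eq_of_mul_eq_mul_right hpos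
    rw [h2, h1]
  obtain ⟨m, hm⟩ := IsPGroup.iff_card.mp hV
  have hdvd : (frattini V).index ∣ p ^ m := by
    rw [← hm]
    exact Subgroup.index_dvd_card _
  obtain ⟨d, hd, hd'⟩ := (Nat.dvd_prime_pow hpp).mp hdvd
  have hle2 : p ^ d ≤ p ^ (n * p) := by
    rw [pow_mul, ← hd']
    refine le_trans (Nat.le_of_dvd ?_ hidx) ?_
    · rw [Nat.pos_iff_ne_zero]
      exact Subgroup.index_ne_zero_of_finite
    · rw [hrange]
      exact hkercard
  have hdle : d ≤ n * p := (Nat.pow_le_pow_iff_right hpp.one_lt).mp hle2
  obtain ⟨T, -, hTc, hTg⟩ := (Cfsg.Agent.Lib.Frat.burnside_basis hV hd').1 Finset.univ (by simp)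
  refine ⟨T, ?_, hTg⟩
  rw [hTc, mul_comm]
  exact hdle

end Cfsg.Agent.S3780
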