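import Mathlib
import Cfsg.Statements.S3781
import Cfsg.Agent.Lib.PGrp

set_option autoImplicit false
open Cfsg
open scoped commutatorElement

namespace Cfsg.Agent.S3781

variable {G : Type*} [Group G]

/-- The three subgroups lemma modulo a normal subgroup. -/
theorem three_subgroups (A B C M : Subgroup G) [M.Normal]
    (h1 : ⁅⁅A, B⁆, C⁆ ≤ M) (h2 : ⁅⁅B, C⁆, A⁆ ≤ M) : ⁅⁅C, A⁆, B⁆ ≤ M := by
  let π := QuotientGroup.mk' M
  have hk : π.ker = M := QuotientGroup.ker_mk' M
  have e : ∀ X : Subgroup G, X ≤ M ↔ X.map π = ⊥ := by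
    intro X
    rw [Subgroup.map_eq_bot_iff, hk]
  rw [e] at h1 h2 ⊢
  simp only [Subgroup.map_commutator] at h1 h2 ⊢
  exact Subgroup.commutator_commutator_eq_bot_of_rotate h1 h2

/-- The commutator series of `K` with `G`: `K`, `[K, G]`, `[K, G, G]`, … -/
def Kc (K : Subgroup G) : ℕ → Subgroup G
  | 0 => K
  | m + 1 => ⁅Kc K m, ⊤⁆

theorem Kc_normal (K : Subgroup G) [K.Normal] (m : ℕ) : (Kc K m).Normal := by
  induction m with
  | zero => exact ‹K.Normal›
  | succ m ih =>
    have := ih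
    exact Subgroup.commutator_normal _ _

theorem Kc_succ_le (K : Subgroup G) [K.Normal] (m : ℕ) : Kc K (m + 1) ≤ Kc K m := by
  have := Kc_normal K m
  exact Subgroup.commutator_le_left _ _

theorem Kc_antitone (K : Subgroup G) [K.Normal] : Antitone (Kc K) :=
  antitone_nat_of_succ_le (Kc_succ_le K)

theorem Kc_mono {K L : Subgroup G} (h : K ≤ L) (m : ℕ) : Kc K m ≤ Kc L m := by
  induction m with
  | zero => exact h
  | succ m ih => exact Subgroup.commutator_mono ih le_rfl

theorem Kc_shift (K : Subgroup G) (m : ℕ) : Kc (Kc K 1) m = Kc K (m + 1) := by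
  induction m with
  | zero => rfl
  | succ m ih =>
    show ⁅Kc (Kc K 1) m, ⊤⁆ = ⁅Kc K (m + 1), ⊤⁆
    rw [ih]

/-- `[K, γ_{m+1}(G)] ≤ [K, G, …, G]` (`m + 1` copies of `G`). -/
theorem commutator_lcs_le (m : ℕ) : ∀ (K : Subgroup G) [K.Normal],
    ⁅K, (⊤ : Subgroup G).lowerCentralSeries m⁆ ≤ Kc K (m + 1) := by
  induction m with
  | zero =>
    intro K _
    exact le_rfl
  | succ m ih =>
    intro K hK
    have hnorm := Kc_normal K (m + 2)
    rw [Subgroup.lowerCentralSeries_succ, Subgroup.commutator_comm]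
    have h1 : ⁅⁅(⊤ : Subgroup G), K⁆, (⊤ : Subgroup G).lowerCentralSeries m⁆ ≤ Kc K (m + 2) := by
      rw [Subgroup.commutator_comm (⊤ : Subgroup G) K]
      have : (⁅K, (⊤ : Subgroup G)⁆ : Subgroup G).Normal := Subgroup.commutator_normal _ _
      have h := ih ⁅K, (⊤ : Subgroup G)⁆
      have e : Kc ⁅K, (⊤ : Subgroup G)⁆ (m + 1) = Kc K (m + 2) := Kc_shift K (m + 1)
      rw [e] at h
      exact h
    have h2 : ⁅⁅K, (⊤ : Subgroup G).lowerCentralSeries m⁆, ⊤⁆ ≤ Kc K (m + 2) :=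
      Subgroup.commutator_mono (ih K) le_rfl
    exact three_subgroups ⊤ K ((⊤ : Subgroup G).lowerCentralSeries m) (Kc K (m + 2)) h1 h2

theorem normal_sup_zpowers (Z : Subgroup G) [Z.Normal] (y : G) (hy : ∀ g : G, ⁅y, g⁆ ∈ Z) :
    (Z ⊔ Subgroup.zpowers y).Normal := by
  constructor
  intro x hx g
  have hle : Z ⊔ Subgroup.zpowers y ≤
      (Z ⊔ Subgroup.zpowers y).comap (MulAut.conj g).toMonoidHom := by
    refine sup_le ?_ ?_
    · intro z hz
      rw [Subgroup.mem_comap]
      show g * z * g⁻¹ ∈ _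
      exact (le_sup_left : Z ≤ Z ⊔ Subgroup.zpowers y) (‹Z.Normal›.conj_mem z hz g)
    · rw [Subgroup.zpowers_le]
      rw [Subgroup.mem_comap]
      show g * y * g⁻¹ ∈ _
      have h1 : g * y * g⁻¹ = ⁅y, g⁆⁻¹ * y := by
        simp only [commutatorElement_def]
        group
      rw [h1]
      exact Subgroup.mul_mem _ ((le_sup_left : Z ≤ Z ⊔ Subgroup.zpowers y) (Subgroup.inv_mem _ (hy g)))
        ((le_sup_right : Subgroup.zpowers y ≤ Z ⊔ Subgroup.zpowers y) (Subgroup.mem_zpowers y))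
  exact hle hx

theorem commutator_sup_zpowers_le (Z : Subgroup G) [Z.Normal] (y : G) (hy : ∀ g : G, ⁅y, g⁆ ∈ Z) :
    ⁅Z ⊔ Subgroup.zpowers y, ⊤⁆ ≤ Z := by
  let π := QuotientGroup.mk' Z
  have hsurj : Function.Surjective π := QuotientGroup.mk'_surjective Z
  have hle : Z ⊔ Subgroup.zpowers y ≤ (Subgroup.center (G ⧸ Z)).comap π := by
    refine sup_le ?_ ?_
    · intro z hz
      rw [Subgroup.mem_comap]
      have : π z = 1 := (QuotientGroup.eq_one_iff z).mpr hz
      rw [this]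
      exact Subgroup.one_mem _
    · rw [Subgroup.zpowers_le]
      rw [Subgroup.mem_comap]
      rw [Subgroup.mem_center_iff]
      intro g
      obtain ⟨g, rfl⟩ := hsurj g
      have h1 : π ⁅y, g⁆ = 1 := (QuotientGroup.eq_one_iff _).mpr (hy g)
      rw [map_commutatorElement, commutatorElement_eq_one_iff_mul_comm] at h1
      exact h1.symm
  rw [Subgroup.commutator_le]
  intro x hx g _
  rw [← QuotientGroup.eq_one_iff, ← QuotientGroup.mk'_apply]
  show π _ = 1
  rw [map_commutatorElement, commutatorElement_eq_one_iff_mul_comm]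
  exact (Subgroup.mem_center_iff.mp (hle hx) (π g)).symm

/-- In a `p`-group: if `Z ≤ K` are normal and `|K : Z| ≤ p ^ t` then `[K, G, …, G] ≤ Z`
(`t` copies of `G`). -/
theorem Kc_le_of_relIndex_le [Finite G] {p : ℕ} [hp : Fact p.Prime] (hG : IsPGroup p G)
    (t : ℕ) : ∀ (K Z : Subgroup G) [K.Normal] [Z.Normal], Z ≤ K → Z.relIndex K ≤ p ^ t →
    Kc K t ≤ Z := by
  induction t with
  | zero =>
    intro K Z _ _ hle hrel
    have h1 : Z.relIndex K = 1 := by
      have : 0 < Z.relIndex K := Nat.pos_of_ne_zero (Subgroup.index_ne_zero_of_finite)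
      simp at hrel
      omega
    exact Subgroup.relIndex_eq_one.mp h1
  | succ t ih =>
    intro K Z _ _ hle hrel
    by_cases hKZ : K ≤ Z
    · exact (Kc_antitone K (Nat.zero_le _)).trans hKZ
    · -- there is `y ∈ K ∖ Z` central modulo `Z`
      have hlt : Z < K := lt_of_le_of_ne hle (fun h => hKZ h.ge)
      obtain ⟨y, hyK, hyZ, hyc⟩ := Cfsg.Agent.Lib.PGrp.exists_central_mod hG Z K hlt
      -- the bigger subgroup
      set Z₁ : Subgroup G := Z ⊔ Subgroup.zpowers y with hZ₁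
      have hZ₁n : Z₁.Normal := normal_sup_zpowers Z y hyc
      have hZZ₁ : Z ≤ Z₁ := le_sup_left
      have hZ₁K : Z₁ ≤ K := sup_le hle (by rwa [Subgroup.zpowers_le])
      have hmul : Z.relIndex Z₁ * Z₁.relIndex K = Z.relIndex K :=
        Subgroup.relIndex_mul_relIndex Z Z₁ K hZZ₁ hZ₁K
      -- `|Z₁ : Z| ≥ p`
      have hge : p ≤ Z.relIndex Z₁ := by
        have hdvd : Z.relIndex Z₁ ∣ Nat.card Z₁ := Subgroup.index_dvd_card _
        obtain ⟨m, hm⟩ := IsPGroup.iff_card.mp (hG.to_subgroup Z₁)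
        rw [hm] at hdvd
        obtain ⟨s, -, hs⟩ := (Nat.dvd_prime_pow hp.out).mp hdvd
        rw [hs]
        have hs0 : s ≠ 0 := by
          rintro rfl
          rw [pow_zero] at hs
          have := Subgroup.relIndex_eq_one.mp hs
          exact hyZ (this ((le_sup_right : Subgroup.zpowers y ≤ Z₁) (Subgroup.mem_zpowers y)))
        calc p = p ^ 1 := (pow_one p).symm
          _ ≤ p ^ s := Nat.pow_le_pow_right hp.out.pos (Nat.one_le_iff_ne_zero.mpr hs0)
      have hrel' : Z₁.relIndex K ≤ p ^ t := by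
        have h2 : p * Z₁.relIndex K ≤ p * p ^ t := by
          calc p * Z₁.relIndex K ≤ Z.relIndex Z₁ * Z₁.relIndex K := Nat.mul_le_mul_right _ hge
            _ = Z.relIndex K := hmul
            _ ≤ p ^ (t + 1) := hrel
            _ = p * p ^ t := by ring
        exact Nat.le_of_mul_le_mul_left h2 hp.out.pos
      have h3 := ih K Z₁ hZ₁K hrel'
      exact (Subgroup.commutator_mono h3 le_rfl).trans (commutator_sup_zpowers_le Z y hyc)

theorem lcs_normal (N : Subgroup G) [N.Normal] (m : ℕ) : (N.lowerCentralSeries m).Normal := by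
  induction m with
  | zero => exact ‹N.Normal›
  | succ m ih =>
    have := ih
    exact Subgroup.commutator_normal _ _

/-- Let G be a finite p-group and n ≥ 1, and write γ_1(G) = G, γ_{k+1}(G) = [γ_k(G), G], and likewise γ_k(N) for a subgroup N. Let N be a normal subgroup of G contained in γ_n(G). If i > 1 and γ_{i+1}(N) ≠ 1, then |γ_i(N) : γ_{i+1}(N)| ≥ p^n. -/
theorem result {G : Type*} [Group G] [Finite G] {p : ℕ} [Fact p.Prime] (hG : IsPGroup p G) (n : ℕ) (hn : 1 ≤ n) (N : Subgroup G) [N.Normal] (hN : N ≤ (⊤ : Subgroup G).lowerCentralSeries (n - 1)) (i : ℕ) (hi : 1 < i) (hne : N.lowerCentralSeries i ≠ ⊥) : p ^ n ≤ (N.lowerCentralSeries i).relIndex (N.lowerCentralSeries (i - 1)) := by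
  have hpp : p.Prime := Fact.out
  obtain ⟨j, rfl⟩ : ∃ j, i = j + 1 := ⟨i - 1, by omega⟩
  obtain ⟨n, rfl⟩ : ∃ m, n = m + 1 := ⟨n - 1, by omega⟩
  simp only [Nat.add_sub_cancel] at hN ⊢
  set K : Subgroup G := N.lowerCentralSeries j with hK
  set Z : Subgroup G := N.lowerCentralSeries (j + 1) with hZ
  have hKn : K.Normal := lcs_normal N j
  have hZn : Z.Normal := lcs_normal N (j + 1)
  have hZK : Z ≤ K := Subgroup.lowerCentralSeries_antitone N (Nat.le_succ j)
  have hZe : Z = ⁅K, N⁆ := rfl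
  -- `|K : Z|` is a power of `p`
  have hdvd : Z.relIndex K ∣ Nat.card K := Subgroup.index_dvd_card _
  obtain ⟨m, hm⟩ := IsPGroup.iff_card.mp (hG.to_subgroup K)
  rw [hm] at hdvd
  obtain ⟨t, -, ht⟩ := (Nat.dvd_prime_pow hpp).mp hdvd
  by_contra hlt
  rw [not_le, ht] at hlt
  have htn : t < n + 1 := (Nat.pow_lt_pow_iff_right hpp.one_lt).mp hlt
  have h1 : Kc K t ≤ Z := Kc_le_of_relIndex_le hG t K Z hZK ht.le
  have h2 : Kc K (t + 1) ≤ ⁅Z, ⊤⁆ := Subgroup.commutator_mono h1 le_rfl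
  have h3 : Kc K (n + 1) ≤ Kc K (t + 1) := Kc_antitone K (by omega)
  have h4 : Z ≤ ⁅Z, ⊤⁆ := by
    rw [hZe]
    refine le_trans (Subgroup.commutator_mono le_rfl hN) ?_
    refine (commutator_lcs_le n K).trans ?_
    rw [← hZe]
    exact h3.trans h2
  -- a nontrivial normal subgroup of a `p`-group is not its own commutator with `G`
  obtain ⟨c, hc⟩ := IsPGroup.iff_card.mp (hG.to_subgroup Z)
  have h5 : Kc Z c ≤ ⊥ := by
    refine Kc_le_of_relIndex_le hG c Z ⊥ bot_le ?_
    rw [Subgroup.relIndex_bot_left, hc]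
  have h6 : ∀ m, Z ≤ Kc Z m := by
    intro m
    induction m with
    | zero => exact le_rfl
    | succ m ih => exact h4.trans (Subgroup.commutator_mono ih le_rfl)
  exact hne (le_bot_iff.mp ((h6 c).trans h5))

end Cfsg.Agent.S3781
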