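import Mathlib
import Cfsg.Statements.S3784

set_option autoImplicit false
open Cfsg

namespace Cfsg.Agent.S3784

/-- Geometric sum: odd number of odd terms is odd. -/
theorem odd_geom (x n : ℕ) (hx : Odd x) (hn : Odd n) : Odd (∑ i ∈ Finset.range n, x ^ i) := by
  rw [Finset.odd_sum_iff_odd_card_odd]
  have : (Finset.range n).filter (fun i => Odd (x ^ i)) = Finset.range n :=
    Finset.filter_true_of_mem (fun i _ => hx.pow)
  rw [this, Finset.card_range]
  exact hn

/-- The alternating geometric sum factorization: for odd `b`, `q^b + 1 = (q+1) * s` with `s` odd when `q` is odd;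
we express via integers. -/
theorem exists_factor_add_one (q b : ℕ) (hq : Odd q) (hb : Odd b) :
    ∃ s : ℕ, q ^ b + 1 = (q + 1) * s ∧ Odd s ∧ (1 < b → 1 < q → 1 < s) := by
  obtain ⟨k, rfl⟩ := hb
  induction k with
  | zero =>
    refine ⟨1, by simp, by simp, by simp⟩
  | succ k ih =>
    obtain ⟨s, hs, hodd, -⟩ := ih
    -- q^(2k+3) + 1 = q^2 * (q^(2k+1) + 1) - (q^2 - 1)  = (q+1) * (q^2 s - (q - 1))
    have hq1 : 1 ≤ q := hq.pos
    have hsp : 0 < s := hodd.pos
    have hle : q - 1 ≤ q ^ 2 * s := by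
      calc q - 1 ≤ q := Nat.sub_le _ _
        _ ≤ q ^ 2 * 1 := by nlinarith
        _ ≤ q ^ 2 * s := by exact Nat.mul_le_mul_left _ hsp
    refine ⟨q ^ 2 * s - (q - 1), ?_, ?_, ?_⟩
    · zify [hle, hq1]
      have h1 : ((q : ℤ) ^ (2 * k + 1) + 1) = (q + 1) * s := by exact_mod_cast hs
      have : (q : ℤ) ^ (2 * (k + 1) + 1) = (q : ℤ) ^ 2 * (q : ℤ) ^ (2 * k + 1) := by ring
      rw [this]
      have h2 : (q : ℤ) ^ (2 * k + 1) = (q + 1) * s - 1 := by linarith
      rw [h2]
      ring
    · have h3 : Even (q - 1) := by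
        obtain ⟨m, rfl⟩ := hq
        simp
      have h4 : Odd (q ^ 2 * s) := (hq.pow).mul hodd
      exact (Nat.Odd.sub_even hle h4 h3)
    · intro _ hq2
      have hq3 : 3 ≤ q := by
        obtain ⟨m, rfl⟩ := hq
        omega
      have : q ^ 2 * s ≥ q ^ 2 := Nat.le_mul_of_pos_right _ hsp
      have : q ^ 2 ≥ 3 * q := by nlinarith
      omega

/-- A divisor of a power of two that is odd equals one. -/
theorem eq_one_of_odd_of_dvd_two_pow (s a : ℕ) (hs : Odd s) (h : s ∣ 2 ^ a) : s = 1 := by
  obtain ⟨i, -, rfl⟩ := (Nat.dvd_prime_pow Nat.prime_two).mp h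
  cases i with
  | zero => simp
  | succ i => simp [pow_succ, Nat.odd_iff] at hs

/-- Two powers of two differing by two. -/
theorem two_pow_sub (x y : ℕ) (h : 2 ^ x = 2 ^ y + 2) : x = 2 ∧ y = 1 := by
  have hy : y ≠ 0 := by
    rintro rfl
    have : 2 ^ x = 3 := by simpa using h
    have h2 : (2:ℕ) ∣ 3 := by
      rcases x with _ | x
      · simp at this
      · rw [← this]; exact dvd_pow_self 2 (by omega)
    omega
  obtain ⟨y', rfl⟩ := Nat.exists_eq_succ_of_ne_zero hy
  have hx : x ≠ 0 := by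
    rintro rfl
    have : (2:ℕ) ^ (y' + 1) > 0 := by positivity
    simp at h
  obtain ⟨x', rfl⟩ := Nat.exists_eq_succ_of_ne_zero hx
  have h' : 2 ^ x' = 2 ^ y' + 1 := by
    simp only [Nat.succ_eq_add_one, pow_succ] at h
    omega
  have hy' : y' = 0 := by
    by_contra hne
    obtain ⟨y'', rfl⟩ := Nat.exists_eq_succ_of_ne_zero hne
    have hx' : x' ≠ 0 := by
      rintro rfl
      simp at h'
    obtain ⟨x'', rfl⟩ := Nat.exists_eq_succ_of_ne_zero hx'
    simp only [Nat.succ_eq_add_one, pow_succ] at h'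
    omega
  subst hy'
  have hx'' : x' = 1 := by
    have : 2 ^ x' = 2 ^ 1 := by simpa using h'
    exact Nat.pow_right_injective (le_refl 2) this
  subst hx''
  simp

theorem result (p q a b : ℕ) (hp : p.Prime) (hq : q.Prime) (ha : 1 ≤ a) (hb : 1 ≤ b) (h : p ^ a = q ^ b + 1) : (p = 2 ∧ b = 1 ∧ a.Prime ∧ q + 1 = 2 ^ a) ∨ (q = 2 ∧ a = 1 ∧ (∃ m : ℕ, b = 2 ^ m) ∧ p = 2 ^ b + 1) ∨ (p ^ a = 9 ∧ q ^ b = 8) := by
  -- parity
  have hcases : p = 2 ∨ q = 2 := by
    by_contra hne
    push Not at hne
    have hpo : Odd p := hp.odd_of_ne_two hne.1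
    have hqo : Odd q := hq.odd_of_ne_two hne.2
    have h1 : Odd (p ^ a) := hpo.pow
    have h2 : Even (q ^ b + 1) := (hqo.pow).add_one
    rw [h] at h1
    exact (Nat.not_even_iff_odd.mpr h1) h2
  rcases hcases with rfl | rfl
  · -- p = 2
    left
    have hq2 : q ≠ 2 := by
      rintro rfl
      have h1 : Even (2 ^ a) := (even_two).pow_of_ne_zero (by omega)
      have h2 : Odd (2 ^ b + 1) := ((even_two).pow_of_ne_zero (by omega)).add_one
      rw [h] at h1
      exact (Nat.not_even_iff_odd.mpr h2) h1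
    have hqo : Odd q := hq.odd_of_ne_two hq2
    have hq3 : 3 ≤ q := by
      obtain ⟨m, rfl⟩ := hqo
      have := hq.two_le
      omega
    -- b is odd
    have hbodd : Odd b := by
      by_contra hne
      rw [Nat.not_odd_iff_even] at hne
      obtain ⟨c, rfl⟩ := hne
      have h4 : q ^ (c + c) % 4 = 1 := by
        have : q ^ (c + c) = (q ^ 2) ^ c := by rw [← pow_mul]; ring_nf
        rw [this, Nat.pow_mod]
        have h5 : q ^ 2 % 4 = 1 := by
          obtain ⟨m, rfl⟩ := hqo
          have : (2 * m + 1) ^ 2 = 4 * (m * m + m) + 1 := by ring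
          rw [this]; omega
        rw [h5]; simp
      have h6 : 2 ^ a % 4 = 2 := by
        rw [h]; omega
      have ha' : a = 1 := by
        by_contra hne
        have : 2 ≤ a := by omega
        obtain ⟨d, rfl⟩ := Nat.exists_eq_add_of_le this
        rw [pow_add] at h6
        omega
      subst ha'
      have : q ^ (c + c) ≥ 1 := Nat.one_le_pow _ _ (by omega)
      simp at h
      omega
    obtain ⟨s, hs, hodd, hs1⟩ := exists_factor_add_one q b hqo hbodd
    have hsdvd : s ∣ 2 ^ a := by rw [h, hs]; exact dvd_mul_left _ _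
    have hs1' := eq_one_of_odd_of_dvd_two_pow s a hodd hsdvd
    have hb1 : b = 1 := by
      by_contra hne
      have : 1 < b := by omega
      have := hs1 this (by omega)
      omega
    subst hb1
    have hqa : q + 1 = 2 ^ a := by simpa using h.symm
    refine ⟨rfl, rfl, ?_, hqa⟩
    have : 2 ^ a - 1 = q := by omega
    refine (Nat.prime_of_pow_sub_one_prime (a := 2) ?_ (by rw [this]; exact hq)).2
    rintro rfl
    have : q = 1 := by omega
    omega
  · -- q = 2
    right
    have hp2 : p ≠ 2 := by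
      rintro rfl
      have h1 : Even (2 ^ a) := (even_two).pow_of_ne_zero (by omega)
      have h2 : Odd (2 ^ b + 1) := ((even_two).pow_of_ne_zero (by omega)).add_one
      rw [h] at h1
      exact (Nat.not_even_iff_odd.mpr h2) h1
    have hpo : Odd p := hp.odd_of_ne_two hp2
    have hp3 : 3 ≤ p := by
      obtain ⟨m, rfl⟩ := hpo
      have := hp.two_le
      omega
    by_cases haodd : Odd a
    · -- `a` odd: a = 1
      left
      have hgeom : (∑ i ∈ Finset.range a, p ^ i) * (p - 1) = 2 ^ b := by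
        have hp1 : 1 ≤ p := by omega
        zify [hp1]
        have := geom_sum_mul (p : ℤ) a
        have h' : ((p : ℤ) ^ a) = 2 ^ b + 1 := by exact_mod_cast h
        rw [h'] at this
        linarith
      have hdiv : (∑ i ∈ Finset.range a, p ^ i) ∣ 2 ^ b := ⟨_, hgeom.symm⟩
      have hs := eq_one_of_odd_of_dvd_two_pow _ b (odd_geom p a hpo haodd) hdiv
      have ha1 : a = 1 := by
        by_contra hne
        have h2 : 2 ≤ a := by omega
        have hle : (∑ i ∈ Finset.range 2, p ^ i) ≤ ∑ i ∈ Finset.range a, p ^ i :=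
          Finset.sum_le_sum_of_subset (Finset.range_mono h2)
        simp [Finset.sum_range_succ] at hle
        omega
      subst ha1
      have hpb : p = 2 ^ b + 1 := by simpa using h
      refine ⟨rfl, rfl, ?_, hpb⟩
      have : (2 ^ b + 1).Prime := hpb ▸ hp
      obtain ⟨m, hm⟩ := Nat.pow_of_pow_add_prime (by norm_num) (by omega) this
      exact ⟨m, hm⟩
    · -- `a` even
      rw [Nat.not_odd_iff_even] at haodd
      obtain ⟨c, rfl⟩ := haodd
      have hc : 1 ≤ c := by omega
      have hfac : (p ^ c - 1) * (p ^ c + 1) = 2 ^ b := by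
        have h1 : 1 ≤ p ^ c := Nat.one_le_pow _ _ (by omega)
        have h2 : p ^ (c + c) = p ^ c * p ^ c := by rw [pow_add]
        zify [h1]
        have h3 : ((p : ℤ) ^ (c + c)) = 2 ^ b + 1 := by exact_mod_cast h
        rw [pow_add] at h3
        linarith
      have h1 : (p ^ c - 1) ∣ 2 ^ b := ⟨_, hfac.symm⟩
      have h2 : (p ^ c + 1) ∣ 2 ^ b := ⟨_, by rw [← hfac, mul_comm]⟩
      obtain ⟨i, -, hi⟩ := (Nat.dvd_prime_pow Nat.prime_two).mp h1
      obtain ⟨j, -, hj⟩ := (Nat.dvd_prime_pow Nat.prime_two).mp h2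
      have hpc : 3 ≤ p ^ c := le_trans hp3 (Nat.le_self_pow (by omega) _)
      have hji : 2 ^ j = 2 ^ i + 2 := by omega
      obtain ⟨rfl, rfl⟩ := two_pow_sub j i hji
      have hpc3 : p ^ c = 3 := by omega
      right
      constructor
      · rw [pow_add, hpc3]
        norm_num
      · have : 2 ^ b = 8 := by rw [← hfac, hpc3]
        exact this

end Cfsg.Agent.S3784
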