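import Mathlib
import Cfsg.Statements.S3785
import Cfsg.Agent.Lib.OmegaAut
import Cfsg.Agent.Lib.PCore

set_option autoImplicit false
open Cfsg
open scoped commutatorElement

namespace Cfsg.Agent.S3785

open Cfsg.Agent.Lib.PCore Cfsg.Agent.Lib.OmegaAut

variable {G : Type*} [Group G]

theorem normal_centralizer_of_conj (T : Set G) (hT : ∀ y ∈ T, ∀ t : G, t * y * t⁻¹ ∈ T) :
    (Subgroup.centralizer T).Normal := by
  constructor
  intro y hy t
  rw [Subgroup.mem_centralizer_iff] at hy ⊢
  intro w hw
  have h1 : t⁻¹ * w * t ∈ T := by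
    have := hT w hw t⁻¹
    simpa using this
  have h2 := hy _ h1
  calc w * (t * y * t⁻¹) = t * ((t⁻¹ * w * t) * y) * t⁻¹ := by group
    _ = t * (y * (t⁻¹ * w * t)) * t⁻¹ := by rw [h2]
    _ = t * y * t⁻¹ * w := by group

/-- The elements of prime order of the Fitting subgroup. -/
def primeElts (G : Type*) [Group G] : Set G :=
  {x | x ∈ fittingSubgroup G ∧ (orderOf x).Prime}

theorem primeElts_conj (y : G) (hy : y ∈ primeElts G) (t : G) : t * y * t⁻¹ ∈ primeElts G := by
  obtain ⟨h1, h2⟩ := hy
  refine ⟨fittingSubgroup_normal.conj_mem y h1 t, ?_⟩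
  have : orderOf (t * y * t⁻¹) = orderOf y := by
    have := (MulAut.conj t).orderOf_eq y
    simpa [MulAut.conj_apply] using this
  rw [this]
  exact h2

/-- `p'`-elements of `K` centralize `O_p(G)`. -/
theorem mem_centralizer_pCore [Finite G] (hodd : Odd (Nat.card (fittingSubgroup G))) (r : ℕ)
    [hr : Fact r.Prime] (y : G) (hy : y ∈ Subgroup.centralizer (primeElts G))
    (hc : (orderOf y).Coprime r) : y ∈ Subgroup.centralizer (pCore r G : Set G) := by
  have hle : pCore r G ≤ fittingSubgroup G := pCore_le_fittingSubgroup r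
  by_cases hr2 : r = 2
  · subst hr2
    have h1 : pCore 2 G = ⊥ := by
      apply eq_bot_of_isPGroup_of_coprime (isPGroup_pCore 2)
      have h2 : Nat.card (pCore 2 G) ∣ Nat.card (fittingSubgroup G) := Subgroup.card_dvd_of_le hle
      exact Nat.Coprime.coprime_dvd_left h2 (Nat.coprime_two_right.mpr hodd)
    rw [h1, Subgroup.mem_centralizer_iff]
    intro x hx
    have hx1 : x = 1 := hx
    rw [hx1]
    simp
  · let α : MulAut (pCore r G) := MulAut.conjNormal y
    have hα : (orderOf α).Coprime r := by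
      have : orderOf α ∣ orderOf y := orderOf_map_dvd (MulAut.conjNormal (H := pCore r G)) y
      exact Nat.Coprime.coprime_dvd_left this hc
    have hfix : ∀ x : pCore r G, x ^ r = 1 → α x = x := by
      intro x hx
      by_cases hx1 : x = 1
      · rw [hx1, map_one]
      have hord : orderOf x = r := orderOf_eq_prime hx hx1
      have hxmem : (x : G) ∈ primeElts G := by
        refine ⟨hle x.2, ?_⟩
        rw [Subgroup.orderOf_coe, hord]
        exact hr.out
      have := (Subgroup.mem_centralizer_iff.mp hy) x hxmem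
      apply Subtype.ext
      show y * (x : G) * y⁻¹ = x
      rw [← this]
      group
    have hall := aut_trivial_of_omega _ (pCore r G) r hr2 (isPGroup_pCore r) rfl α hα hfix
    rw [Subgroup.mem_centralizer_iff]
    intro x hx
    have h1 := hall ⟨x, hx⟩
    have h2 : y * x * y⁻¹ = x := congrArg Subtype.val h1
    calc x * y = y * x * y⁻¹ * y := by rw [h2]
      _ = y * x := by group

theorem mem_fitting_of_q_element [Finite G] [Group.IsSolvable G]
    (hodd : Odd (Nat.card (fittingSubgroup G))) (q : ℕ) [hq : Fact q.Prime] (x : G)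
    (hxK : x ∈ Subgroup.centralizer (primeElts G)) (e : ℕ) (hx : x ^ q ^ e = 1) :
    x ∈ fittingSubgroup G := by
  classical
  set T' : Set G := {y | ∃ r : ℕ, r.Prime ∧ r ≠ q ∧ y ∈ pCore r G} with hT'
  set T : Set G := primeElts G ∪ T' with hT
  have hTconj : ∀ y ∈ T, ∀ t : G, t * y * t⁻¹ ∈ T := by
    rintro y (hy | ⟨r, hr, hrq, hy⟩) t
    · exact Or.inl (primeElts_conj y hy t)
    · exact Or.inr ⟨r, hr, hrq, (pCore_normal r G).conj_mem y hy t⟩
  set K₁ := Subgroup.centralizer T with hK₁
  have hK₁n : K₁.Normal := normal_centralizer_of_conj T hTconj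
  have hK₁K : K₁ ≤ Subgroup.centralizer (primeElts G) :=
    Subgroup.centralizer_le Set.subset_union_left
  have hxK₁ : x ∈ K₁ := by
    rw [hK₁, Subgroup.mem_centralizer_iff]
    rintro y (hy | ⟨r, hr, hrq, hy⟩)
    · exact (Subgroup.mem_centralizer_iff.mp hxK) y hy
    · have : Fact r.Prime := ⟨hr⟩
      refine (Subgroup.mem_centralizer_iff.mp (mem_centralizer_pCore hodd r x hxK ?_)) y hy
      have h1 : orderOf x ∣ q ^ e := orderOf_dvd_of_pow_eq_one hx
      refine Nat.Coprime.coprime_dvd_left h1 (Nat.Coprime.pow_left e ?_)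
      exact (Nat.coprime_primes hq.out hr).mpr (Ne.symm hrq)
  -- `q'`-elements of `K₁` are central in `K₁`
  have hcentral : ∀ z ∈ K₁, (orderOf z).Coprime q → ∀ w ∈ K₁, w * z = z * w := by
    intro z hzK₁ hzc w hwK₁
    have hzq := mem_centralizer_pCore hodd q z (hK₁K hzK₁) hzc
    -- `z` centralizes the Fitting subgroup
    have hzF : z ∈ Subgroup.centralizer (fittingSubgroup G : Set G) := by
      have hle : fittingSubgroup G ≤ Subgroup.centralizer ({z} : Set G) := by
        rw [fittingSubgroup_eq_iSup_pCore]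
        refine iSup_le fun r => ?_
        intro t ht
        rw [Subgroup.mem_centralizer_iff]
        rintro _ rfl
        by_cases hrq : (r : ℕ) = q
        · rw [hrq] at ht
          exact ((Subgroup.mem_centralizer_iff.mp hzq) t ht).symm
        · exact ((Subgroup.mem_centralizer_iff.mp hzK₁) t (Or.inr ⟨r, r.2, hrq, ht⟩)).symm
      rw [Subgroup.mem_centralizer_iff]
      intro t ht
      exact ((Subgroup.mem_centralizer_iff.mp (hle ht)) z rfl).symm
    have hzFit : z ∈ fittingSubgroup G := centralizer_fittingSubgroup_le hzF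
    -- decompose
    set E : Subgroup G := ⨆ (r : Nat.Primes) (_ : (r : ℕ) ≠ q), pCore (r : ℕ) G with hE
    have hFle : fittingSubgroup G ≤ pCore q G ⊔ E := by
      rw [fittingSubgroup_eq_iSup_pCore]
      refine iSup_le fun r => ?_
      by_cases hrq : (r : ℕ) = q
      · rw [hrq]
        exact le_sup_left
      · exact (le_iSup₂_of_le (f := fun (r : Nat.Primes) (_ : (r : ℕ) ≠ q) => pCore (r : ℕ) G)
          r hrq le_rfl).trans le_sup_right
    have hEle : E ≤ pPrimeCore q G := by
      refine iSup₂_le fun r hr => ?_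
      have : Fact (r : ℕ).Prime := ⟨r.2⟩
      exact pCore_le_pPrimeCore hr
    have hqn : (pCore q G).Normal := pCore_normal q G
    have hqpn : (pPrimeCore q G).Normal := pPrimeCore_normal q G
    have hinf : pCore q G ⊓ pPrimeCore q G = ⊥ := by
      apply disjoint_iff.mp
      apply Subgroup.disjoint_of_coprime_natCard
      obtain ⟨a, ha⟩ := IsPGroup.iff_card.mp (isPGroup_pCore (G := G) q)
      rw [ha]
      exact Nat.Coprime.pow_left a (card_pPrimeCore_coprime q).symm
    obtain ⟨u, hu, v, hv, huv⟩ := Subgroup.mem_sup_of_normal_left.mp (hFle hzFit)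
    have hcomm : Commute u v := by
      have h1 : ⁅u, v⁆ ∈ pCore q G ⊓ pPrimeCore q G :=
        Subgroup.commutator_le_inf _ _ (Subgroup.commutator_mem_commutator hu (hEle hv))
      rw [hinf, Subgroup.mem_bot, commutatorElement_eq_one_iff_mul_comm] at h1
      exact h1
    have hu1 : u = 1 := by
      have h2 : z ^ orderOf z = 1 := pow_orderOf_eq_one z
      nth_rewrite 1 [← huv] at h2
      rw [hcomm.mul_pow] at h2
      have h3 : u ^ orderOf z ∈ pCore q G ⊓ pPrimeCore q G := by
        refine ⟨Subgroup.pow_mem _ hu _, ?_⟩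
        rw [eq_inv_of_mul_eq_one_left h2]
        exact Subgroup.inv_mem _ (Subgroup.pow_mem _ (hEle hv) _)
      rw [hinf, Subgroup.mem_bot] at h3
      have h4 : orderOf u ∣ orderOf z := orderOf_dvd_of_pow_eq_one h3
      obtain ⟨a, ha⟩ := isPGroup_pCore (G := G) q ⟨u, hu⟩
      have ha' : u ^ q ^ a = 1 := congrArg Subtype.val ha
      have h5 : orderOf u ∣ q ^ a := orderOf_dvd_of_pow_eq_one ha'
      have h6 := Nat.eq_one_of_dvd_coprimes (Nat.Coprime.pow_right a hzc) h4 h5
      exact orderOf_eq_one_iff.mp h6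
    have hzE : z ∈ E := by
      rw [← huv, hu1, one_mul]
      exact hv
    have hEc : E ≤ Subgroup.centralizer ({w} : Set G) := by
      refine iSup₂_le fun r hr => ?_
      intro t ht
      rw [Subgroup.mem_centralizer_iff]
      rintro _ rfl
      exact ((Subgroup.mem_centralizer_iff.mp hwK₁) t (Or.inr ⟨r, r.2, hr, ht⟩)).symm
    exact (Subgroup.mem_centralizer_iff.mp (hEc hzE)) w rfl
  -- `K₁ / Z(K₁)` is a `q`-group
  have hQ : IsPGroup q (K₁ ⧸ Subgroup.center K₁) := by
    intro g
    obtain ⟨w, rfl⟩ := QuotientGroup.mk'_surjective (Subgroup.center K₁) g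
    have hne : orderOf w ≠ 0 := (orderOf_pos w).ne'
    obtain ⟨a, m, hm, hn⟩ := Nat.exists_eq_pow_mul_and_not_dvd hne q hq.out.ne_one
    refine ⟨a, ?_⟩
    rw [← map_pow]
    apply (QuotientGroup.eq_one_iff _).mpr
    rw [Subgroup.mem_center_iff]
    intro w'
    apply Subtype.ext
    have h1 : ((w ^ q ^ a : K₁) : G) ∈ K₁ := (w ^ q ^ a).2
    have h2 : (orderOf ((w ^ q ^ a : K₁) : G)).Coprime q := by
      have h3 : ((w ^ q ^ a : K₁) : G) ^ m = 1 := by
        have : (w ^ q ^ a) ^ m = 1 := by
          rw [← pow_mul, ← hn, pow_orderOf_eq_one]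
        exact congrArg Subtype.val this
      have h4 := orderOf_dvd_of_pow_eq_one h3
      refine Nat.Coprime.coprime_dvd_left h4 ?_
      exact ((Nat.Prime.coprime_iff_not_dvd hq.out).mpr hm).symm
    exact hcentral _ h1 h2 _ w'.2
  have hnil : Group.IsNilpotent K₁ := Group.of_quotient_center_nilpotent hQ.isNilpotent
  exact le_fittingSubgroup hK₁n hnil hxK₁

/-- Let G be a finite solvable group whose Fitting subgroup F(G) has odd order. If an element g of G commutes with every element of prime order of F(G), then g ∈ F(G). -/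
theorem result {G : Type*} [Group G] [Finite G] (hG : Group.IsSolvable G) (hodd : Odd (Nat.card (Cfsg.fittingSubgroup G))) (g : G) (hg : ∀ x ∈ Cfsg.fittingSubgroup G, (orderOf x).Prime → g * x = x * g) : g ∈ Cfsg.fittingSubgroup G := by
  have hgK : g ∈ Subgroup.centralizer (primeElts G) := by
    rw [Subgroup.mem_centralizer_iff]
    rintro x ⟨hx1, hx2⟩
    exact (hg x hx1 hx2).symm
  have hFn : (fittingSubgroup G).Normal := fittingSubgroup_normal
  by_contra hgF
  set π := QuotientGroup.mk' (fittingSubgroup G) with hπ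
  have hne : orderOf (π g) ≠ 1 := by
    intro h
    have h1 : π g = 1 := orderOf_eq_one_iff.mp h
    exact hgF ((QuotientGroup.eq_one_iff g).mp h1)
  obtain ⟨q, hq, hqd⟩ := Nat.exists_prime_and_dvd hne
  have : Fact q.Prime := ⟨hq⟩
  have hn0 : orderOf g ≠ 0 := (orderOf_pos g).ne'
  obtain ⟨e, m, hm, hn⟩ := Nat.exists_eq_pow_mul_and_not_dvd hn0 q hq.ne_one
  have hxK : g ^ m ∈ Subgroup.centralizer (primeElts G) := Subgroup.pow_mem _ hgK m
  have hx1 : (g ^ m) ^ q ^ e = 1 := by
    rw [← pow_mul, mul_comm, ← hn, pow_orderOf_eq_one]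
  have hxF := mem_fitting_of_q_element hodd q (g ^ m) hxK e hx1
  have h1 : π g ^ m = 1 := by
    rw [← map_pow]
    exact (QuotientGroup.eq_one_iff _).mpr hxF
  exact hm (hqd.trans (orderOf_dvd_of_pow_eq_one h1))

end Cfsg.Agent.S3785
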