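import Mathlib
import Cfsg.Statements.S3790
import Cfsg.Agent.Lib.PLengthSeries

set_option autoImplicit false
open Cfsg

namespace Cfsg.Agent.S3790

open Cfsg.Agent.Lib.PLengthSeries Cfsg.Agent.Lib.PSolv Cfsg.Agent.Lib.PCore

universe u

theorem coprime_of_isPGroup {Z : Type*} [Group Z] [Finite Z] {p q : ℕ} (hp : p.Prime) (hq : q.Prime)
    (hqp : q ≠ p) (h : IsPGroup q Z) : (Nat.card Z).Coprime p := by
  have : Fact q.Prime := ⟨hq⟩
  obtain ⟨e, he⟩ := IsPGroup.iff_card.mp h
  rw [he]
  exact Nat.Coprime.pow_left _ ((Nat.coprime_primes hq hp).mpr hqp)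

/-- Removing one prime `q`. -/
theorem inner (p q : ℕ) [hpf : Fact p.Prime] [hqf : Fact q.Prime] (hqp : q ≠ p) (L : ℕ)
    (P : ∀ (X : Type u) [Group X], Prop)
    (hPsub : ∀ (X : Type u) [Group X] [Finite X], P X → ∀ K : Subgroup X, P K)
    (hPsurj : ∀ (X Y : Type u) [Group X] [Group Y] [Finite X] (f : X →* Y),
      Function.Surjective f → P X → P Y)
    (hbase : ∀ (X : Type u) [Group X] [Finite X], P X → (Nat.card X).Coprime q → PLengthLE p L X) :
    ∀ (m : ℕ) (X : Type u) [Group X] [Finite X], P X → PLengthLE q m X →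
      PLengthLE p ((1 + m) * L) X := by
  intro m
  induction m with
  | zero =>
    intro X _ _ hP hlen
    rw [add_zero, one_mul]
    exact hbase X hP (coprime_of_pLengthLE_zero q hlen)
  | succ m ih =>
    intro X _ _ hP hlen
    set O₂ := (upperPSeries q X 2).1 with hO₂
    set O₁ := (upperPSeries q X 1).1 with hO₁
    have hO₂n : O₂.Normal := upperPSeries_normal q X 2
    have hO₁n : O₁.Normal := upperPSeries_normal q X 1
    have hbar : PLengthLE p ((1 + m) * L) (X ⧸ O₂) :=
      ih (X ⧸ O₂) (hPsurj X _ (QuotientGroup.mk' O₂) (QuotientGroup.mk'_surjective O₂) hP)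
        ((pLengthLE_succ_iff q m).mp hlen)
    -- the `p`-length of `O₂`
    let f : O₂ →* X ⧸ O₁ := (QuotientGroup.mk' O₁).comp O₂.subtype
    let f' : O₂ →* f.range := f.rangeRestrict
    have hf' : Function.Surjective f' := f.rangeRestrict_surjective
    have hkercoprime : (Nat.card f'.ker).Coprime q := by
      have h1 : (f'.ker.map O₂.subtype) ≤ O₁ := by
        rintro _ ⟨x, hx, rfl⟩
        have h2 : f x = 1 := by
          have h3 : f' x = 1 := hx
          exact congrArg Subtype.val h3
        exact (QuotientGroup.eq_one_iff _).mp h2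
      have h2 := Subgroup.card_dvd_of_le h1
      rw [Subgroup.card_map_of_injective O₂.subtype_injective] at h2
      refine Nat.Coprime.coprime_dvd_left h2 ?_
      have h3 := relIndex_upper_even (G := X) q (n := 0) (by simp)
      rwa [upperPSeries_zero, Subgroup.relIndex_bot_left] at h3
    have hkerlen : PLengthLE p L f'.ker := hbase _ (hPsub _ (hPsub X hP O₂) f'.ker) hkercoprime
    have hrange : PLengthLE p 0 f.range := by
      apply pLengthLE_zero_of_coprime
      refine coprime_of_isPGroup hpf.out hqf.out hqp ?_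
      have hle : f.range ≤ pCore q (X ⧸ O₁) := by
        rintro _ ⟨x, rfl⟩
        have hx2 : O₂ = (pCore q (X ⧸ O₁)).comap (QuotientGroup.mk' O₁) :=
          upperPSeries_succ_of_odd q X (n := 1) (by decide)
        have hx : (x : X) ∈ (pCore q (X ⧸ O₁)).comap (QuotientGroup.mk' O₁) := by
          rw [← hx2]
          exact x.2
        exact hx
      exact (isPGroup_pCore q).to_le hle
    have hO₂len : PLengthLE p (L + 0) O₂ := pLengthLE_of_ker L 0 p O₂ f.range f' hf' hkerlen hrange
    have hfin := pLengthLE_of_ker L ((1 + m) * L) p X (X ⧸ O₂) (QuotientGroup.mk' O₂)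
      (QuotientGroup.mk'_surjective O₂) (by
        rw [QuotientGroup.ker_mk']
        exact hO₂len) hbar
    rwa [show L + (1 + m) * L = (1 + (m + 1)) * L by ring] at hfin

theorem main (p : ℕ) [hpf : Fact p.Prime] (l : ℕ → ℕ) (Q : Finset ℕ) :
    (∀ q ∈ Q, q.Prime ∧ q ≠ p) → ∀ (X : Type u) [Group X] [Finite X],
    (∀ s : ℕ, s.Prime → s ∣ Nat.card X → s ≠ p → s ∈ Q) →
    (∀ q ∈ Q, PLengthLE q (l q) X) → PLengthLE p (∏ q ∈ Q, (1 + l q)) X := by
  classical
  induction Q using Finset.induction_on with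
  | empty =>
    intro _ X _ _ hcov _
    rw [Finset.prod_empty]
    apply pLengthLE_one_of_isPGroup
    apply IsPGroup.of_card (n := (Nat.card X).primeFactorsList.length)
    apply Nat.eq_prime_pow_of_unique_prime_dvd Nat.card_pos.ne'
    intro d hd hdd
    by_contra hne
    exact absurd (hcov d hd hdd hne) (by simp)
  | insert q Q' hq ih =>
    intro hQ X _ _ hcov hlen
    rw [Finset.prod_insert hq]
    have hQ' : ∀ r ∈ Q', r.Prime ∧ r ≠ p := fun r hr => hQ r (Finset.mem_insert_of_mem hr)
    have hqq := hQ q (Finset.mem_insert_self q Q')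
    have : Fact q.Prime := ⟨hqq.1⟩
    let P : ∀ (X : Type u) [Group X], Prop := fun X _ =>
      (∀ s : ℕ, s.Prime → s ∣ Nat.card X → s ≠ p → s ∈ insert q Q') ∧
        ∀ r ∈ Q', PLengthLE r (l r) X
    refine inner p q hqq.2 (∏ r ∈ Q', (1 + l r)) P ?_ ?_ ?_ (l q) X ⟨hcov, ?_⟩ ?_
    · intro X _ _ hP K
      refine ⟨fun s hs hsd hsp => hP.1 s hs (hsd.trans (Subgroup.card_subgroup_dvd_card K)) hsp, ?_⟩
      intro r hr
      have : Fact r.Prime := ⟨(hQ' r hr).1⟩
      exact pLengthLE_subgroup r (hP.2 r hr) K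
    · intro X Y _ _ _ f hf hP
      refine ⟨fun s hs hsd hsp => hP.1 s hs
        (hsd.trans (Subgroup.card_dvd_of_surjective f hf)) hsp, ?_⟩
      intro r hr
      have : Fact r.Prime := ⟨(hQ' r hr).1⟩
      exact pLengthLE_of_surjective r f hf (hP.2 r hr)
    · intro X _ _ hP hc
      refine ih hQ' X (fun s hs hsd hsp => ?_) hP.2
      have h1 := hP.1 s hs hsd hsp
      rcases Finset.mem_insert.mp h1 with rfl | h2
      · exact absurd (Nat.Coprime.eq_one_of_dvd hc.symm hsd) hs.one_lt.ne'
      · exact h2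
    · intro r hr
      exact hlen r (Finset.mem_insert_of_mem hr)
    · exact hlen q (Finset.mem_insert_self q Q')

/-- Let G be a finite solvable group and p a prime. Suppose p₁, …, p_r are distinct primes, all different from p, that include every prime dividing the order of G other than p, and that G has p_i-length at most l_i for each i. Then G has p-length at most the product of the numbers 1 + l_i. -/
theorem result {G : Type*} [Group G] [Finite G] (hG : Group.IsSolvable G) (p : ℕ) [Fact p.Prime] (r : ℕ) (q : Fin r → ℕ) (hq : ∀ i, (q i).Prime ∧ q i ≠ p) (hinj : Function.Injective q) (hcover : ∀ s : ℕ, s.Prime → s ∣ Nat.card G → s ≠ p → ∃ i, q i = s) (l : Fin r → ℕ) (hl : ∀ i, Cfsg.PLengthLE (q i) (l i) G) : Cfsg.PLengthLE p (Finset.univ.prod fun i => 1 + l i) G := by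
  classical
  set Q : Finset ℕ := Finset.univ.image q with hQdef
  let inv : ℕ → Fin r ⊕ Unit := fun s => if h : ∃ i, q i = s then Sum.inl h.choose else Sum.inr ()
  have hinv : ∀ i, inv (q i) = Sum.inl i := by
    intro i
    have h : ∃ j, q j = q i := ⟨i, rfl⟩
    simp only [inv, dif_pos h]
    congr 1
    exact hinj h.choose_spec
  let l' : ℕ → ℕ := fun s => match inv s with
    | Sum.inl i => l i
    | Sum.inr _ => 0
  have hl' : ∀ i, l' (q i) = l i := fun i => by simp only [l', hinv]
  have hprod : (Finset.univ.prod fun i => 1 + l i) = ∏ s ∈ Q, (1 + l' s) := by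
    rw [hQdef, Finset.prod_image (fun a _ b _ h => hinj h)]
    exact Finset.prod_congr rfl fun i _ => by rw [hl']
  rw [hprod]
  refine main p l' Q ?_ G ?_ ?_
  · intro s hs
    obtain ⟨i, -, rfl⟩ := Finset.mem_image.mp hs
    exact hq i
  · intro s hs hsd hsp
    obtain ⟨i, rfl⟩ := hcover s hs hsd hsp
    exact Finset.mem_image_of_mem _ (Finset.mem_univ _)
  · intro s hsQ
    obtain ⟨i, -, rfl⟩ := Finset.mem_image.mp hsQ
    rw [hl']
    exact hl i

end Cfsg.Agent.S3790
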