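import Mathlib
import Cfsg.Statements.S3791
import Cfsg.Agent.Lib.PLengthSeries
import Cfsg.Agent.Lib.ExtraBasics

set_option autoImplicit false
open Cfsg

namespace Cfsg.Agent.S3791

open Cfsg.Agent.Lib.PLengthSeries Cfsg.Agent.Lib.PSolv Cfsg.Agent.Lib.PCore

universe u

section dD

variable {G H : Type*} [Group G] [Group H]

/-- The derived series of a subgroup, computed in the ambient group. -/
def dD (S : Subgroup G) : ℕ → Subgroup G
  | 0 => S
  | k + 1 => ⁅dD S k, dD S k⁆

theorem dD_mono {S T : Subgroup G} (h : S ≤ T) (k : ℕ) : dD S k ≤ dD T k := by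
  induction k with
  | zero => exact h
  | succ k ih => exact Subgroup.commutator_mono ih ih

theorem map_dD (f : G →* H) (S : Subgroup G) (k : ℕ) : (dD S k).map f = dD (S.map f) k := by
  induction k with
  | zero => rfl
  | succ k ih =>
    show (⁅dD S k, dD S k⁆ : Subgroup G).map f = ⁅dD (S.map f) k, dD (S.map f) k⁆
    rw [Subgroup.map_commutator, ih]

theorem dD_eq_map (S : Subgroup G) (k : ℕ) : dD S k = (derivedSeries S k).map S.subtype := by
  induction k with
  | zero =>
    show S = (⊤ : Subgroup S).map S.subtype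
    rw [← MonoidHom.range_eq_map, Subgroup.range_subtype]
  | succ k ih =>
    show ⁅dD S k, dD S k⁆ = (⁅derivedSeries S k, derivedSeries S k⁆ : Subgroup S).map S.subtype
    rw [Subgroup.map_commutator, ih]

theorem derivedSeries_add (a b : ℕ) : derivedSeries G (a + b) = dD (derivedSeries G a) b := by
  induction b with
  | zero => rfl
  | succ b ih =>
    show ⁅derivedSeries G (a + b), derivedSeries G (a + b)⁆ = _
    rw [ih]
    rfl

/-- Hereditary property of the derived length bound of `q`-subgroups. -/
theorem hereditary [Finite G] (f : G →* H) (hf : Function.Surjective f) (q : ℕ) [Fact q.Prime]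
    (d : ℕ) (h : ∀ P : Subgroup G, IsPGroup q P → dD P d = ⊥) :
    ∀ P : Subgroup H, IsPGroup q P → dD P d = ⊥ := by
  intro P hP
  have : Finite H := Finite.of_surjective f hf
  obtain ⟨T, hT⟩ := hP.exists_le_sylow
  obtain ⟨S, rfl⟩ := Sylow.mapSurjective_surjective hf q T
  rw [Sylow.coe_mapSurjective] at hT
  have h1 := h S S.isPGroup'
  rw [eq_bot_iff]
  refine (dD_mono hT d).trans ?_
  rw [← map_dD, h1, Subgroup.map_bot]

end dD

theorem main (Q : Finset ℕ) (hQ : ∀ q ∈ Q, q.Prime) (d : ℕ → ℕ) : ∀ (t : ℕ) (l : ℕ → ℕ)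
    (G : Type u) [Group G] [Finite G], ∑ q ∈ Q, l q = t →
    (∀ s : ℕ, s.Prime → s ∣ Nat.card G → s ∈ Q) →
    (∀ q ∈ Q, ∀ P : Subgroup G, IsPGroup q P → dD P (d q) = ⊥) →
    (∀ q ∈ Q, PLengthLE q (l q) G) →
    derivedSeries G (∑ q ∈ Q, d q * l q) = ⊥ := by
  classical
  intro t
  induction t using Nat.strong_induction_on with
  | _ t ih =>
  intro l G _ _ ht hcover hder hlen
  set n := ∑ q ∈ Q, d q * l q with hn
  have key : ∀ q ∈ Q, derivedSeries G n ≤ pPrimeCore q G := by
    intro q hqQ
    have : Fact q.Prime := ⟨hQ q hqQ⟩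
    rcases hl : l q with _ | l'
    · have h0 := hlen q hqQ
      rw [hl] at h0
      unfold PLengthLE at h0
      have h1 := upper_one_eq (G := G) q
      rw [show 2 * 0 + 1 = 1 from rfl] at h0
      rw [h0] at h1
      rw [← h1]
      exact le_top
    · -- the quotient by `O_{q'}(G)`
      set N := pPrimeCore q G with hN
      have hNn : N.Normal := pPrimeCore_normal q G
      let π : G →* G ⧸ N := QuotientGroup.mk' N
      have hπ : Function.Surjective π := QuotientGroup.mk'_surjective N
      have hlenH : PLengthLE q (l' + 1) (G ⧸ N) := by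
        have := hlen q hqQ
        rw [hl] at this
        exact pLengthLE_of_surjective q π hπ this
      set U2 := (upperPSeries q (G ⧸ N) 2).1 with hU2
      have hU2n : U2.Normal := upperPSeries_normal q (G ⧸ N) 2
      have hlenH' : PLengthLE q l' ((G ⧸ N) ⧸ U2) := (pLengthLE_succ_iff q l').mp hlenH
      let π' : G →* (G ⧸ N) ⧸ U2 := (QuotientGroup.mk' U2).comp π
      have hπ' : Function.Surjective π' := (QuotientGroup.mk'_surjective U2).comp hπ
      set l2 : ℕ → ℕ := Function.update l q l' with hl2
      have hl2q : l2 q = l' := by simp [hl2]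
      have hl2o : ∀ r, r ≠ q → l2 r = l r := fun r hr => by simp [hl2, hr]
      have hsum1 : ∑ r ∈ Q, l r = ∑ r ∈ Q, l2 r + 1 := by
        rw [← Finset.add_sum_erase Q _ hqQ, ← Finset.add_sum_erase Q l2 hqQ, hl, hl2q]
        have : ∑ r ∈ Q.erase q, l r = ∑ r ∈ Q.erase q, l2 r :=
          Finset.sum_congr rfl fun r hr => (hl2o r (Finset.ne_of_mem_erase hr)).symm
        rw [this]
        ring
      have hsum2 : n = ∑ r ∈ Q, d r * l2 r + d q := by
        rw [hn, ← Finset.add_sum_erase Q _ hqQ, ← Finset.add_sum_erase Q (fun r => d r * l2 r) hqQ,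
          hl, hl2q]
        have : ∑ r ∈ Q.erase q, d r * l r = ∑ r ∈ Q.erase q, d r * l2 r :=
          Finset.sum_congr rfl fun r hr => by rw [hl2o r (Finset.ne_of_mem_erase hr)]
        rw [this]
        ring
      have hih := ih (∑ r ∈ Q, l2 r) (by omega) l2 ((G ⧸ N) ⧸ U2) rfl
        (fun s hs hsd => hcover s hs (hsd.trans (Subgroup.card_dvd_of_surjective π' hπ')))
        (fun r hr => by
          have : Fact r.Prime := ⟨hQ r hr⟩
          exact hereditary π' hπ' r (d r) (hder r hr))
        (fun r hr => by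
          have : Fact r.Prime := ⟨hQ r hr⟩
          by_cases hrq : r = q
          · subst hrq
            rw [hl2q]
            exact hlenH'
          · rw [hl2o r hrq]
            exact pLengthLE_of_surjective r π' hπ' (hlen r hr))
      -- the derived series of `G / N`
      have h1 : derivedSeries (G ⧸ N) (∑ r ∈ Q, d r * l2 r) ≤ U2 := by
        have h2 := map_derivedSeries_eq (QuotientGroup.mk'_surjective U2)
          (∑ r ∈ Q, d r * l2 r)
        rw [hih, Subgroup.map_eq_bot_iff, QuotientGroup.ker_mk'] at h2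
        exact h2
      -- `U2` is a `q`-group
      have hU2q : IsPGroup q U2 := by
        have hU1 : (upperPSeries q (G ⧸ N) 1).1 = ⊥ := by
          rw [upper_one_eq]
          exact pPrimeCore_quotient_pPrimeCore q
        obtain ⟨e, he⟩ := relIndex_upper_odd (G := G ⧸ N) q (n := 1) (by decide)
        rw [hU1, Subgroup.relIndex_bot_left] at he
        exact IsPGroup.iff_card.mpr ⟨e, he⟩
      have h3 : dD U2 (d q) = ⊥ := hereditary π hπ q (d q) (hder q hqQ) U2 hU2q
      have h4 : derivedSeries (G ⧸ N) n = ⊥ := by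
        rw [hsum2, derivedSeries_add, eq_bot_iff, ← h3]
        exact dD_mono h1 _
      have h5 := map_derivedSeries_eq hπ n
      rw [h4, Subgroup.map_eq_bot_iff] at h5
      have h6 : π.ker = N := QuotientGroup.ker_mk' N
      rw [h6] at h5
      exact h5
  -- conclusion
  by_contra hne
  set T := derivedSeries G n with hT
  have hcard : Nat.card T ≠ 1 := fun h => hne (Subgroup.card_eq_one.mp h)
  obtain ⟨s, hs, hsd⟩ := Nat.exists_prime_and_dvd hcard
  have hsG : s ∣ Nat.card G := hsd.trans (Subgroup.card_subgroup_dvd_card T)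
  have hsQ := hcover s hs hsG
  have h1 := key s hsQ
  have h2 : Nat.card T ∣ Nat.card (pPrimeCore s G) := Subgroup.card_dvd_of_le h1
  have h3 : (Nat.card (pPrimeCore s G)).Coprime s := card_pPrimeCore_coprime s
  have h4 : s ∣ Nat.card (pPrimeCore s G) := hsd.trans h2
  have h5 := Nat.Coprime.eq_one_of_dvd h3.symm h4
  exact hs.one_lt.ne' h5

/-- The Hall–Higman bound on derived length: let G be a finite solvable group, let p₁, …, p_r be distinct primes that include every prime dividing the order of G, and suppose that for each i the Sylow p_i-subgroups of G have derived length at most d_i and G has p_i-length at most l_i. Then G has derived length at most Σ d_i l_i. -/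
theorem result {G : Type*} [Group G] [Finite G] (hG : Group.IsSolvable G) (r : ℕ) (q : Fin r → ℕ) (hq : ∀ i, (q i).Prime) (hinj : Function.Injective q) (hcover : ∀ s : ℕ, s.Prime → s ∣ Nat.card G → ∃ i, q i = s) (d l : Fin r → ℕ) (hd : ∀ i, ∀ P : Subgroup G, (haveI := Fact.mk (hq i); ∃ S : Sylow (q i) G, (S : Subgroup G) = P) → derivedSeries ↥P (d i) = ⊥) (hl : ∀ i, Cfsg.PLengthLE (q i) (l i) G) : derivedSeries G (Finset.univ.sum fun i => d i * l i) = ⊥ := by
  classical
  -- transport to functions on `ℕ`
  set Q : Finset ℕ := Finset.univ.image q with hQdef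
  let inv : ℕ → Fin r ⊕ Unit := fun s => if h : ∃ i, q i = s then Sum.inl h.choose else Sum.inr ()
  have hinv : ∀ i, inv (q i) = Sum.inl i := by
    intro i
    have h : ∃ j, q j = q i := ⟨i, rfl⟩
    simp only [inv, dif_pos h]
    congr 1
    exact hinj h.choose_spec
  let d' : ℕ → ℕ := fun s => match inv s with
    | Sum.inl i => d i
    | Sum.inr _ => 0
  let l' : ℕ → ℕ := fun s => match inv s with
    | Sum.inl i => l i
    | Sum.inr _ => 0
  have hd' : ∀ i, d' (q i) = d i := fun i => by simp only [d', hinv]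
  have hl' : ∀ i, l' (q i) = l i := fun i => by simp only [l', hinv]
  have hsum : (Finset.univ.sum fun i => d i * l i) = ∑ s ∈ Q, d' s * l' s := by
    rw [hQdef, Finset.sum_image (fun a _ b _ h => hinj h)]
    exact Finset.sum_congr rfl fun i _ => by rw [hd', hl']
  rw [hsum]
  have hQp : ∀ s ∈ Q, s.Prime := by
    intro s hs
    obtain ⟨i, -, rfl⟩ := Finset.mem_image.mp hs
    exact hq i
  refine main Q hQp d' _ l' G rfl ?_ ?_ ?_
  · intro s hs hsd
    obtain ⟨i, rfl⟩ := hcover s hs hsd
    exact Finset.mem_image_of_mem _ (Finset.mem_univ _)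
  · intro s hsQ P hP
    obtain ⟨i, -, rfl⟩ := Finset.mem_image.mp hsQ
    have : Fact (q i).Prime := ⟨hq i⟩
    obtain ⟨S, hS⟩ := hP.exists_le_sylow
    have h1 := hd i S ⟨S, rfl⟩
    rw [hd', eq_bot_iff]
    refine (dD_mono hS _).trans ?_
    rw [dD_eq_map, h1, Subgroup.map_bot]
  · intro s hsQ
    obtain ⟨i, -, rfl⟩ := Finset.mem_image.mp hsQ
    rw [hl']
    exact hl i

end Cfsg.Agent.S3791
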