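import Mathlib
import Cfsg.Statements.S3798
import Cfsg.Agent.Lib.PCore
import Cfsg.Agent.Lib.PSolv
import Cfsg.Agent.Lib.SZConj
import Cfsg.Agent.Lib.OmegaAut
import Cfsg.Agent.Lib.PLengthSeries
import Cfsg.Agent.Lib.Coprime

set_option autoImplicit false
open Cfsg
open scoped commutatorElement

namespace Cfsg.Agent.S3798

open Cfsg.Agent.Lib.PCore Cfsg.Agent.Lib.PSolv Cfsg.Agent.Lib.PLengthSeries

universe u

section

variable {G : Type u} [Group G]

theorem mem_normalizer_of_conj [Finite G] {E : Subgroup G} {g : G}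
    (h : ∀ a ∈ E, g * a * g⁻¹ ∈ E) : g ∈ Subgroup.normalizer (E : Set G) := by
  have hinj : Function.Injective (fun a : E => (⟨g * a.1 * g⁻¹, h a.1 a.2⟩ : E)) := by
    intro a b hab
    have h1 : g * a.1 * g⁻¹ = g * b.1 * g⁻¹ := congrArg Subtype.val hab
    apply Subtype.ext
    exact mul_left_cancel (mul_right_cancel h1)
  have hsurj := Finite.injective_iff_surjective.mp hinj
  rw [Subgroup.mem_normalizer_iff]
  intro x
  refine ⟨h x, fun hx => ?_⟩
  obtain ⟨a, ha⟩ := hsurj ⟨g * x * g⁻¹, hx⟩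
  have h1 : g * a.1 * g⁻¹ = g * x * g⁻¹ := congrArg Subtype.val ha
  have h2 : a.1 = x := mul_left_cancel (mul_right_cancel h1)
  rw [← h2]
  exact a.2

/-- The Frattini argument for a normal solvable Hall subgroup of a normal subgroup. -/
theorem frattini_hall [Finite G] (A O : Subgroup G) [A.Normal] [hOn : O.Normal] (hAO : A ≤ O)
    (hs : Group.IsSolvable A) (hc : (Nat.card A).Coprime (A.relIndex O)) :
    ∃ Q : Subgroup G, Q ≤ O ∧ A ⊓ Q = ⊥ ∧ Nat.card Q = A.relIndex O ∧
      A ⊔ Subgroup.normalizer (Q : Set G) = ⊤ := by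
  classical
  have hcardN : Nat.card (A.subgroupOf O) = Nat.card A :=
    Nat.card_congr (Subgroup.subgroupOfEquivOfLe hAO).toEquiv
  have hidx : (A.subgroupOf O).index = A.relIndex O := rfl
  have hc' : (Nat.card (A.subgroupOf O)).Coprime (A.subgroupOf O).index := by
    rw [hcardN, hidx]
    exact hc
  obtain ⟨Q₀, hQ₀⟩ := Subgroup.exists_right_complement'_of_coprime hc'
  have hcQ₀ : Nat.card Q₀ = (A.subgroupOf O).index := by
    have h1 := hQ₀.card_mul_card
    have h2 := Subgroup.card_mul_index (A.subgroupOf O)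
    rw [← h2] at h1
    exact Nat.eq_of_mul_eq_mul_left Nat.card_pos h1
  have hsN : Group.IsSolvable (A.subgroupOf O) :=
    Group.isSolvable_of_isSolvable_injective
      (f := (Subgroup.subgroupOfEquivOfLe hAO).toMonoidHom) (MulEquiv.injective _)
  have hQO : Q₀.map O.subtype ≤ O := Subgroup.map_subtype_le Q₀
  have hcQ : Nat.card (Q₀.map O.subtype) = Nat.card Q₀ :=
    Subgroup.card_map_of_injective O.subtype_injective
  refine ⟨Q₀.map O.subtype, hQO, ?_, ?_, ?_⟩
  · rw [← disjoint_iff]
    apply Subgroup.disjoint_of_coprime_natCard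
    rw [hcQ, hcQ₀, hidx]
    exact hc
  · rw [hcQ, hcQ₀, hidx]
  · rw [eq_top_iff]
    intro g _
    have hle : (Q₀.map O.subtype).map (MulAut.conj g).toMonoidHom ≤ O := by
      rintro _ ⟨x, hx, rfl⟩
      exact hOn.conj_mem x (hQO hx) g
    have hK₂card : Nat.card (((Q₀.map O.subtype).map (MulAut.conj g).toMonoidHom).subgroupOf O) =
        Nat.card Q₀ := by
      rw [Nat.card_congr (Subgroup.subgroupOfEquivOfLe hle).toEquiv,
        Subgroup.card_map_of_injective (MulEquiv.injective _), hcQ]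
    have hK₂ : Subgroup.IsComplement' (A.subgroupOf O)
        (((Q₀.map O.subtype).map (MulAut.conj g).toMonoidHom).subgroupOf O) := by
      apply Subgroup.isComplement'_of_coprime
      · rw [hK₂card, hcQ₀]
        exact Subgroup.card_mul_index _
      · rw [hK₂card, hcQ₀]
        exact hc'
    obtain ⟨n, hn, hK⟩ := Cfsg.Agent.Lib.SZConj.exists_conj_of_isComplement' (A.subgroupOf O) hsN hc'
      hQ₀ hK₂
    have hmem : (n⁻¹ : O).1 * g ∈ Subgroup.normalizer ((Q₀.map O.subtype : Subgroup G) : Set G) := by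
      apply mem_normalizer_of_conj
      rintro _ ⟨a, ha, rfl⟩
      have h1 : g * (a : G) * g⁻¹ ∈ (Q₀.map O.subtype).map (MulAut.conj g).toMonoidHom :=
        ⟨_, ⟨a, ha, rfl⟩, rfl⟩
      have h2 : (⟨g * (a : G) * g⁻¹, hle h1⟩ : O) ∈
          ((Q₀.map O.subtype).map (MulAut.conj g).toMonoidHom).subgroupOf O := h1
      rw [hK] at h2
      obtain ⟨b, hb, hbe⟩ := h2
      have h3 : (n : G) * (b : G) * (n : G)⁻¹ = g * (a : G) * g⁻¹ :=
        congrArg Subtype.val hbe
      have h4 : (n⁻¹ : O).1 * g * ((Q₀.map O.subtype).subtype ⟨(a : G), ⟨a, ha, rfl⟩⟩) *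
          ((n⁻¹ : O).1 * g)⁻¹ = (b : G) := by
        show (n : G)⁻¹ * g * (a : G) * ((n : G)⁻¹ * g)⁻¹ = (b : G)
        calc (n : G)⁻¹ * g * (a : G) * ((n : G)⁻¹ * g)⁻¹
            = (n : G)⁻¹ * (g * (a : G) * g⁻¹) * (n : G) := by group
          _ = (n : G)⁻¹ * ((n : G) * (b : G) * (n : G)⁻¹) * (n : G) := by rw [h3]
          _ = (b : G) := by group
      show (n⁻¹ : O).1 * g * (O.subtype a) * ((n⁻¹ : O).1 * g)⁻¹ ∈ _
      have h5 : (n⁻¹ : O).1 * g * (O.subtype a) * ((n⁻¹ : O).1 * g)⁻¹ = (b : G) := h4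
      rw [h5]
      exact ⟨b, hb, rfl⟩
    have hnA : (n : G) ∈ A := hn
    have h6 : g = (n : G) * ((n⁻¹ : O).1 * g) := by
      show g = (n : G) * ((n : G)⁻¹ * g)
      group
    rw [h6]
    exact Subgroup.mul_mem_sup hnA hmem

theorem orderp_mem {p : ℕ} (htrans : ∀ U V : Subgroup G, Nat.card U = p → Nat.card V = p →
      ∃ a : MulAut G, U.map a.toMonoidHom = V)
    (X : Subgroup G) (hX : ∀ (α : MulAut G), ∀ x ∈ X, α x ∈ X) {u v : G}
    (hu : orderOf u = p) (hv : orderOf v = p) (huX : u ∈ X) : v ∈ X := by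
  have hU : Nat.card (Subgroup.zpowers u) = p := by rw [Nat.card_zpowers, hu]
  have hV : Nat.card (Subgroup.zpowers v) = p := by rw [Nat.card_zpowers, hv]
  obtain ⟨α, hα⟩ := htrans _ _ hU hV
  have h1 : v ∈ (Subgroup.zpowers u).map α.toMonoidHom := by
    rw [hα]
    exact Subgroup.mem_zpowers v
  obtain ⟨w, hw, rfl⟩ := h1
  exact hX α w ((Subgroup.zpowers_le.mpr huX) hw)

theorem char_mem (X : Subgroup G) [hX : X.Characteristic] (α : MulAut G) {x : G} (hx : x ∈ X) :
    α x ∈ X :=
  (Subgroup.characteristic_iff_le_comap.1 hX α) hx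

theorem coprime_quot {p : ℕ} [hp : Fact p.Prime] (hp2 : p ≠ 2) [Finite G] (hsol : IsPSolvable p G)
    (hpp : pPrimeCore p G = ⊥) (hdvd : p ∣ Nat.card G)
    (htrans : ∀ U V : Subgroup G, Nat.card U = p → Nat.card V = p →
      ∃ a : MulAut G, U.map a.toMonoidHom = V) :
    (Nat.card (G ⧸ pCore p G)).Coprime p := by
  classical
  have hpr : p.Prime := hp.out
  haveI hP₁c : (pCore p G).Characteristic := pCore_characteristic p
  haveI hP₁n : (pCore p G).Normal := inferInstance
  have hP₁p : IsPGroup p (pCore p G) := isPGroup_pCore p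
  have hcen : Subgroup.centralizer ((pCore p G : Subgroup G) : Set G) ≤ pCore p G :=
    centralizer_pCore_le_of_pSolvable hsol hpp
  have hP₁ne : pCore p G ≠ ⊥ := by
    intro h
    rw [h] at hcen
    have h1 : ∀ x : G, x = 1 := by
      intro x
      have h2 : x ∈ Subgroup.centralizer (((⊥ : Subgroup G) : Subgroup G) : Set G) := by
        rw [Subgroup.mem_centralizer_iff]
        intro y hy
        have : y = 1 := Subgroup.mem_bot.mp hy
        simp [this]
      exact Subgroup.mem_bot.mp (hcen h2)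
    have h3 : Nat.card G = 1 := Nat.card_eq_one_iff_unique.mpr ⟨⟨fun a b => by rw [h1 a, h1 b]⟩, ⟨1⟩⟩
    rw [h3] at hdvd
    exact hpr.one_lt.ne' (Nat.dvd_one.mp hdvd)
  -- an element of order `p` in the centre of `O_p(G)`
  obtain ⟨u₀, hu₀P, hu₀c, hu₀⟩ : ∃ u ∈ pCore p G, (∀ y ∈ pCore p G, u * y = y * u) ∧ orderOf u = p := by
    haveI : Nontrivial (pCore p G) := (Subgroup.nontrivial_iff_ne_bot _).mpr hP₁ne
    have hz := hP₁p.center_nontrivial
    have hzp : IsPGroup p (Subgroup.center (pCore p G)) := hP₁p.to_subgroup _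
    obtain ⟨k, hk⟩ := IsPGroup.iff_card.mp hzp
    have hk0 : k ≠ 0 := by
      rintro rfl
      rw [pow_zero] at hk
      have := Nat.card_eq_one_iff_unique.mp hk
      exact not_subsingleton _ this.1
    have hd : p ∣ Nat.card (Subgroup.center (pCore p G)) := by
      rw [hk]
      exact dvd_pow_self p hk0
    obtain ⟨z, hz'⟩ := exists_prime_orderOf_dvd_card' p hd
    refine ⟨((z : pCore p G) : G), (z : pCore p G).2, ?_, ?_⟩
    · intro y hy
      have h1 := (Subgroup.mem_center_iff.mp z.2) ⟨y, hy⟩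
      exact (congrArg Subtype.val h1).symm
    · have h1 : orderOf ((z : pCore p G) : G) = orderOf (z : pCore p G) := Subgroup.orderOf_coe _
      have h2 : orderOf (z : pCore p G) = orderOf z := Subgroup.orderOf_coe _
      rw [h1, h2, hz']
  have hX₁ : ∀ (α : MulAut G), ∀ x ∈ pCore p G ⊓ Subgroup.centralizer ((pCore p G : Subgroup G) : Set G),
      α x ∈ pCore p G ⊓ Subgroup.centralizer ((pCore p G : Subgroup G) : Set G) := by
    rintro α x ⟨hx1, hx2⟩
    refine ⟨char_mem _ α hx1, Subgroup.mem_centralizer_iff.mpr ?_⟩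
    intro y hy
    have h1 : α⁻¹ y ∈ pCore p G := char_mem _ α⁻¹ hy
    have h2 := (Subgroup.mem_centralizer_iff.mp hx2) _ h1
    have h3 := congrArg α h2
    rw [map_mul, map_mul] at h3
    have h4 : α (α⁻¹ y) = y := by
      rw [← MulAut.mul_apply, mul_inv_cancel, MulAut.one_apply]
    rwa [h4] at h3
  have hall : ∀ v : G, orderOf v = p →
      v ∈ pCore p G ⊓ Subgroup.centralizer ((pCore p G : Subgroup G) : Set G) := by
    intro v hv
    refine orderp_mem htrans _ hX₁ hu₀ hv ⟨hu₀P, Subgroup.mem_centralizer_iff.mpr ?_⟩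
    intro y hy
    exact (hu₀c y hy).symm
  by_cases hR : pPrimeCore p (G ⧸ pCore p G) = ⊥
  · -- the quotient is trivial
    have h1 := centralizer_pCore_le_of_pSolvable (isPSolvable_quotient hsol (pCore p G)) hR
    rw [pCore_quotient_pCore] at h1
    have h2 : ∀ x : G ⧸ pCore p G, x = 1 := by
      intro x
      have h3 : x ∈ Subgroup.centralizer (((⊥ : Subgroup (G ⧸ pCore p G)) : Subgroup _) : Set _) := by
        rw [Subgroup.mem_centralizer_iff]
        intro y hy
        have : y = 1 := Subgroup.mem_bot.mp hy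
        simp [this]
      exact Subgroup.mem_bot.mp (h1 h3)
    have h3 : Nat.card (G ⧸ pCore p G) = 1 :=
      Nat.card_eq_one_iff_unique.mpr ⟨⟨fun a b => by rw [h2 a, h2 b]⟩, ⟨1⟩⟩
    rw [h3]
    exact Nat.coprime_one_left p
  -- the preimage of `O_{p'}(G/O_p(G))`
  set O : Subgroup G := (pPrimeCore p (G ⧸ pCore p G)).comap (QuotientGroup.mk' (pCore p G)) with hO
  haveI hOn : O.Normal := inferInstance
  have hP₁O : pCore p G ≤ O := by
    intro x hx
    show ((x : G) : G ⧸ pCore p G) ∈ pPrimeCore p (G ⧸ pCore p G)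
    rw [(QuotientGroup.eq_one_iff x).mpr hx]
    exact Subgroup.one_mem _
  have hrel : (pCore p G).relIndex O = Nat.card (pPrimeCore p (G ⧸ pCore p G)) :=
    relIndex_comap_mk (pCore p G) _
  have hRcop : (Nat.card (pPrimeCore p (G ⧸ pCore p G))).Coprime p := card_pPrimeCore_coprime p
  have hcop : (Nat.card (pCore p G)).Coprime ((pCore p G).relIndex O) := by
    rw [hrel]
    obtain ⟨k, hk⟩ := IsPGroup.iff_card.mp hP₁p
    rw [hk]
    exact (Nat.Coprime.pow_left k hRcop.symm)
  have hP₁sol : Group.IsSolvable (pCore p G) := by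
    haveI := hP₁p.isNilpotent
    infer_instance
  obtain ⟨Q, hQO, hPQ, hcardQ, hN⟩ := frattini_hall (pCore p G) O hP₁O hP₁sol hcop
  have hQcop : (Nat.card Q).Coprime p := by
    rw [hcardQ, hrel]
    exact hRcop
  -- `O = O_p(G) Q`
  have hdisj : Disjoint Q (pCore p G) := by
    rw [disjoint_comm, disjoint_iff]
    exact hPQ
  have hsupO : pCore p G ⊔ Q = O := by
    apply Subgroup.eq_of_le_of_card_ge (sup_le hP₁O hQO)
    have h1 := Cfsg.Agent.Lib.Coprime.card_sup_eq Q (pCore p G)
    rw [Cfsg.Agent.Lib.Coprime.relIndex_eq_card_of_disjoint hdisj] at h1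
    have h2 := Cfsg.Agent.Lib.Coprime.relIndex_mul_card_of_le hP₁O
    rw [sup_comm, h1, mul_comm (Nat.card Q), hcardQ]
    rw [mul_comm]
    exact h2.ge
  have hDcomm : ∀ d ∈ pCore p G, d ∈ Subgroup.normalizer (Q : Set G) → ∀ q ∈ Q, d * q = q * d := by
    intro d hd hdN q hq
    have h1 : ⁅d, q⁆ ∈ Q := by
      have h2 : d * q * d⁻¹ ∈ Q := (Subgroup.mem_normalizer_iff.mp hdN q).mp hq
      rw [commutatorElement_def]
      exact Q.mul_mem h2 (Q.inv_mem hq)
    have h2 : ⁅d, q⁆ ∈ pCore p G := by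
      rw [commutatorElement_def]
      have h3 : q * d⁻¹ * q⁻¹ ∈ pCore p G := hP₁n.conj_mem _ (Subgroup.inv_mem _ hd) q
      have h4 : d * q * d⁻¹ * q⁻¹ = d * (q * d⁻¹ * q⁻¹) := by group
      rw [h4]
      exact Subgroup.mul_mem _ hd h3
    have h3 : ⁅d, q⁆ ∈ pCore p G ⊓ Q := ⟨h2, h1⟩
    rw [hPQ, Subgroup.mem_bot, commutatorElement_eq_one_iff_mul_comm] at h3
    exact h3
  by_cases hcase : ∃ u ∈ pCore p G, u ∈ Subgroup.normalizer (Q : Set G) ∧ orderOf u = p
  · -- Case 1: `Q` centralizes an element of order `p`; then `Q = 1`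
    exfalso
    obtain ⟨u, huP, huN, hu⟩ := hcase
    have hOchar : ∀ (α : MulAut G), ∀ x ∈ O, α x ∈ O := by
      intro α x hx
      have hmapP : (pCore p G).map α.toMonoidHom = pCore p G :=
        (Subgroup.characteristic_iff_map_eq.1 hP₁c) α
      let ᾱ : (G ⧸ pCore p G) ≃* (G ⧸ pCore p G) := QuotientGroup.congr _ _ α hmapP
      have h1 : ᾱ.toMonoidHom ((x : G) : G ⧸ pCore p G) ∈ (pPrimeCore p (G ⧸ pCore p G)).map ᾱ.toMonoidHom :=
        ⟨_, hx, rfl⟩
      rw [map_pPrimeCore_equiv] at h1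
      exact h1
    have hK : ∀ (α : MulAut G), ∀ x ∈ (pCore p G ⊓ Subgroup.centralizer ((pCore p G : Subgroup G) : Set G)) ⊓
        Subgroup.centralizer (O : Set G), α x ∈
        (pCore p G ⊓ Subgroup.centralizer ((pCore p G : Subgroup G) : Set G)) ⊓
        Subgroup.centralizer (O : Set G) := by
      rintro α x ⟨hx1, hx2⟩
      refine ⟨hX₁ α x hx1, Subgroup.mem_centralizer_iff.mpr ?_⟩
      intro y hy
      have h1 : α⁻¹ y ∈ O := hOchar α⁻¹ y hy
      have h2 := (Subgroup.mem_centralizer_iff.mp hx2) _ h1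
      have h3 := congrArg α h2
      rw [map_mul, map_mul] at h3
      have h4 : α (α⁻¹ y) = y := by
        rw [← MulAut.mul_apply, mul_inv_cancel, MulAut.one_apply]
      rwa [h4] at h3
    have huK : u ∈ (pCore p G ⊓ Subgroup.centralizer ((pCore p G : Subgroup G) : Set G)) ⊓
        Subgroup.centralizer (O : Set G) := by
      refine ⟨hall u hu, ?_⟩
      have hle : O ≤ Subgroup.centralizer ({u} : Set G) := by
        rw [← hsupO]
        refine sup_le ?_ ?_
        · intro y hy
          rw [Subgroup.mem_centralizer_iff]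
          intro h hh
          rw [Set.mem_singleton_iff] at hh
          rw [hh]
          have h1 := Subgroup.mem_centralizer_iff.mp (hall u hu).2
          exact (h1 y hy).symm
        · intro q hq
          rw [Subgroup.mem_centralizer_iff]
          intro h hh
          rw [Set.mem_singleton_iff] at hh
          rw [hh]
          exact hDcomm u huP huN q hq
      refine Subgroup.mem_centralizer_iff.mpr ?_
      intro y hy
      have h1 := Subgroup.mem_centralizer_iff.mp (hle hy)
      exact (h1 u rfl).symm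
    have hallK : ∀ v : G, orderOf v = p → v ∈ Subgroup.centralizer (O : Set G) := fun v hv =>
      (orderp_mem htrans _ hK hu hv huK).2
    -- `Q` centralizes `O_p(G)`
    have hQc : ∀ q ∈ Q, q ∈ pCore p G := by
      intro q hq
      apply hcen
      refine Subgroup.mem_centralizer_iff.mpr ?_
      intro y hy
      let α : MulAut (pCore p G) := MulAut.conjNormal q
      have hα : (orderOf α).Coprime p := by
        have h1 : orderOf α ∣ orderOf (⟨q, hq⟩ : Q) := by
          have h2 : orderOf α = orderOf (MulAut.conjNormal (H := pCore p G) ((Q.subtype) ⟨q, hq⟩)) := rfl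
          rw [h2]
          have h3 := orderOf_map_dvd ((MulAut.conjNormal (H := pCore p G)).comp Q.subtype) ⟨q, hq⟩
          exact h3
        have h2 : orderOf (⟨q, hq⟩ : Q) ∣ Nat.card Q := orderOf_dvd_natCard _
        exact Nat.Coprime.coprime_dvd_left (h1.trans h2) hQcop
      have hfix : ∀ x : pCore p G, x ^ p = 1 → α x = x := by
        intro x hx
        by_cases hx1 : x = 1
        · rw [hx1, map_one]
        have hord : orderOf x = p := orderOf_eq_prime hx hx1
        have hord' : orderOf (x : G) = p := by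
          rw [← Subgroup.orderOf_coe] at hord
          exact hord
        have h1 := Subgroup.mem_centralizer_iff.mp (hallK _ hord')
        have hqO : q ∈ O := hQO hq
        have h2 := h1 q hqO
        apply Subtype.ext
        show q * (x : G) * q⁻¹ = x
        rw [h2]
        group
      have h5 := Cfsg.Agent.Lib.OmegaAut.aut_trivial_of_omega _ (pCore p G) p hp2 hP₁p rfl α hα hfix ⟨y, hy⟩
      have h6 : q * y * q⁻¹ = y := congrArg Subtype.val h5
      rw [mul_inv_eq_iff_eq_mul] at h6
      exact h6.symm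
    have hQbot : Q = ⊥ := by
      rw [eq_bot_iff]
      intro q hq
      have h1 : q ∈ pCore p G ⊓ Q := ⟨hQc q hq, hq⟩
      rwa [hPQ] at h1
    apply hR
    rw [hQbot, Subgroup.card_bot, hrel] at hcardQ
    have h7 := Subgroup.card_eq_one.mp hcardQ.symm
    exact h7
  · -- Case 2: `N_G(Q)` meets `O_p(G)` trivially
    have hD : pCore p G ⊓ Subgroup.normalizer (Q : Set G) = ⊥ := by
      by_contra hne
      have hDp : IsPGroup p (pCore p G ⊓ Subgroup.normalizer (Q : Set G) : Subgroup G) :=
        hP₁p.to_le inf_le_left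
      haveI : Nontrivial (pCore p G ⊓ Subgroup.normalizer (Q : Set G) : Subgroup G) :=
        (Subgroup.nontrivial_iff_ne_bot _).mpr hne
      obtain ⟨k, hk⟩ := IsPGroup.iff_card.mp hDp
      have hk0 : k ≠ 0 := by
        rintro rfl
        rw [pow_zero] at hk
        have := Nat.card_eq_one_iff_unique.mp hk
        exact not_subsingleton _ this.1
      have hd : p ∣ Nat.card (pCore p G ⊓ Subgroup.normalizer (Q : Set G) : Subgroup G) := by
        rw [hk]
        exact dvd_pow_self p hk0
      obtain ⟨z, hz⟩ := exists_prime_orderOf_dvd_card' p hd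
      apply hcase
      exact ⟨z.1, z.2.1, z.2.2, (Subgroup.orderOf_coe z).trans hz⟩
    have hcard : Nat.card (G ⧸ pCore p G) = Nat.card (Subgroup.normalizer (Q : Set G)) := by
      have h1 : (pCore p G).relIndex (Subgroup.normalizer (Q : Set G) ⊔ pCore p G) =
          (pCore p G).relIndex (Subgroup.normalizer (Q : Set G)) :=
        Subgroup.relIndex_sup_right _ _
      rw [sup_comm, hN, Subgroup.relIndex_top_right] at h1
      rw [Cfsg.Agent.Lib.Coprime.relIndex_eq_card_of_disjoint] at h1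
      · rw [← h1]
        rfl
      · rw [disjoint_comm, disjoint_iff]
        exact hD
    rw [hcard]
    rw [Nat.coprime_comm, Nat.Prime.coprime_iff_not_dvd hpr]
    intro hd
    obtain ⟨z, hz⟩ := exists_prime_orderOf_dvd_card' p hd
    have hz' : orderOf (z : G) = p := (Subgroup.orderOf_coe z).trans hz
    have h1 : (z : G) ∈ pCore p G ⊓ Subgroup.normalizer (Q : Set G) := ⟨(hall _ hz').1, z.2⟩
    rw [hD, Subgroup.mem_bot] at h1
    rw [h1, orderOf_one] at hz'
    exact hpr.one_lt.ne hz'

end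

/-- The Gaschütz–Yen Theorem: let G be a finite p-soluble group, p an odd prime dividing its order, such that the automorphism group of G permutes the subgroups of G of order p transitively. Then G has p-length at most 1. -/
theorem result {G : Type*} [Group G] [Finite G] {p : ℕ} [Fact p.Prime] (hp : p ≠ 2) (hdvd : p ∣ Nat.card G) (hG : Cfsg.IsPSolvable p G) (htrans : ∀ U V : Subgroup G, Nat.card U = p → Nat.card V = p → ∃ a : MulAut G, U.map a.toMonoidHom = V) : Cfsg.PLengthLE p 1 G := by
  classical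
  have hpr : p.Prime := Fact.out
  have hNn : (pPrimeCore p G).Normal := inferInstance
  have hNcop : (Nat.card (pPrimeCore p G)).Coprime p := card_pPrimeCore_coprime p
  have hker : (QuotientGroup.mk' (pPrimeCore p G)).ker = pPrimeCore p G := QuotientGroup.ker_mk' _
  refine pLengthLE_of_ker_coprime p (QuotientGroup.mk' (pPrimeCore p G))
    (QuotientGroup.mk'_surjective _) (by rw [hker]; exact hNcop) ?_
  -- the quotient
  have hNnd : ¬ p ∣ Nat.card (pPrimeCore p G) := (Nat.Prime.coprime_iff_not_dvd hpr).mp hNcop.symm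
  have hdvd' : p ∣ Nat.card (G ⧸ pPrimeCore p G) := by
    have h1 := Subgroup.card_eq_card_quotient_mul_card_subgroup (pPrimeCore p G)
    rw [h1] at hdvd
    rcases (Nat.Prime.dvd_mul hpr).mp hdvd with h2 | h2
    · exact h2
    · exact absurd h2 hNnd
  have hmapN : ∀ α : MulAut G, (pPrimeCore p G).map α.toMonoidHom = pPrimeCore p G :=
    fun α => map_pPrimeCore_equiv p α
  have hlift : ∀ U : Subgroup (G ⧸ pPrimeCore p G), Nat.card U = p →
      ∃ x : G, orderOf x = p ∧ (Subgroup.zpowers x).map (QuotientGroup.mk' (pPrimeCore p G)) = U := by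
    intro U hU
    have h1 : p ∣ Nat.card (U.comap (QuotientGroup.mk' (pPrimeCore p G))) := by
      rw [card_comap_of_surjective _ (QuotientGroup.mk'_surjective _), hU]
      exact Dvd.intro _ rfl
    obtain ⟨z, hz⟩ := exists_prime_orderOf_dvd_card' p h1
    have hz' : orderOf (z : G) = p := (Subgroup.orderOf_coe z).trans hz
    refine ⟨z, hz', ?_⟩
    have hz1 : QuotientGroup.mk' (pPrimeCore p G) (z : G) ≠ 1 := by
      intro h
      have h2 : (z : G) ∈ pPrimeCore p G := (QuotientGroup.eq_one_iff _).mp h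
      have h3 : orderOf (⟨z, h2⟩ : pPrimeCore p G) ∣ Nat.card (pPrimeCore p G) := orderOf_dvd_natCard _
      rw [Subgroup.orderOf_mk, hz'] at h3
      exact hNnd h3
    have hord : orderOf (QuotientGroup.mk' (pPrimeCore p G) (z : G)) = p := by
      apply orderOf_eq_prime _ hz1
      have h2 : (z : G) ^ p = 1 := by
        have h3 := pow_orderOf_eq_one (z : G)
        rwa [hz'] at h3
      rw [← map_pow, h2, map_one]
    rw [MonoidHom.map_zpowers]
    apply Subgroup.eq_of_le_of_card_ge
    · rw [Subgroup.zpowers_le]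
      exact z.2
    · rw [Nat.card_zpowers, hord, hU]
  have htrans' : ∀ U V : Subgroup (G ⧸ pPrimeCore p G), Nat.card U = p → Nat.card V = p →
      ∃ a : MulAut (G ⧸ pPrimeCore p G), U.map a.toMonoidHom = V := by
    intro U V hU hV
    obtain ⟨x, hx, rfl⟩ := hlift U hU
    obtain ⟨y, hy, rfl⟩ := hlift V hV
    obtain ⟨α, hα⟩ := htrans (Subgroup.zpowers x) (Subgroup.zpowers y)
      (by rw [Nat.card_zpowers, hx]) (by rw [Nat.card_zpowers, hy])
    refine ⟨QuotientGroup.congr _ _ α (hmapN α), ?_⟩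
    rw [← hα, Subgroup.map_map, Subgroup.map_map]
    rfl
  have hcop := coprime_quot hp (isPSolvable_quotient hG _) (pPrimeCore_quotient_pPrimeCore p) hdvd' htrans'
  have hfin := pLengthLE_of_ker 1 0 p (G ⧸ pPrimeCore p G)
    ((G ⧸ pPrimeCore p G) ⧸ pCore p (G ⧸ pPrimeCore p G)) (QuotientGroup.mk' _)
    (QuotientGroup.mk'_surjective _)
    (pLengthLE_one_of_isPGroup p (by rw [QuotientGroup.ker_mk']; exact isPGroup_pCore p))
    (pLengthLE_zero_of_coprime p hcop)
  exact hfin

end Cfsg.Agent.S3798
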