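import Mathlib
import Cfsg.Statements.S3799
import Cfsg.Agent.Lib.Frat

set_option autoImplicit false
open Cfsg
open scoped commutatorElement

namespace Cfsg.Agent.S3799

section heis

variable (F : Type) [Field F] (n : ℕ)

/-- The Heisenberg group on `F^n × F^n × F`. -/
@[ext] structure Heis where
  /-- row -/
  a : Fin n → F
  /-- column -/
  b : Fin n → F
  /-- corner -/
  c : F

variable {F n}

instance : Mul (Heis F n) := ⟨fun x y => ⟨x.a + y.a, x.b + y.b, x.c + y.c + x.a ⬝ᵥ y.b⟩⟩
instance : One (Heis F n) := ⟨⟨0, 0, 0⟩⟩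
instance : Inv (Heis F n) := ⟨fun x => ⟨-x.a, -x.b, -x.c + x.a ⬝ᵥ x.b⟩⟩

@[simp] theorem mul_a (x y : Heis F n) : (x * y).a = x.a + y.a := rfl
@[simp] theorem mul_b (x y : Heis F n) : (x * y).b = x.b + y.b := rfl
@[simp] theorem mul_c (x y : Heis F n) : (x * y).c = x.c + y.c + x.a ⬝ᵥ y.b := rfl
@[simp] theorem one_a : (1 : Heis F n).a = 0 := rfl
@[simp] theorem one_b : (1 : Heis F n).b = 0 := rfl
@[simp] theorem one_c : (1 : Heis F n).c = 0 := rfl
@[simp] theorem inv_a (x : Heis F n) : (x⁻¹).a = -x.a := rfl
@[simp] theorem inv_b (x : Heis F n) : (x⁻¹).b = -x.b := rfl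
@[simp] theorem inv_c (x : Heis F n) : (x⁻¹).c = -x.c + x.a ⬝ᵥ x.b := rfl

instance : Group (Heis F n) :=
  Group.ofLeftAxioms
    (by
      intro x y z
      ext i
      · simp [add_assoc]
      · simp [add_assoc]
      · simp [dotProduct_add, add_dotProduct]
        ring)
    (by
      intro x
      ext i
      · simp
      · simp
      · simp)
    (by
      intro x
      ext i
      · simp
      · simp
      · simp [neg_dotProduct])

theorem pow_formula (x : Heis F n) (k : ℕ) :
    x ^ k = ⟨k • x.a, k • x.b, k • x.c + (k.choose 2) • (x.a ⬝ᵥ x.b)⟩ := by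
  induction k with
  | zero =>
    ext i
    · simp
    · simp
    · simp
  | succ k ih =>
    rw [pow_succ, ih]
    ext i
    · simp [add_smul]
    · simp [add_smul]
    · simp only [mul_c, smul_dotProduct, Nat.choose_succ_succ' k 1, Nat.choose_one_right, add_smul,
        one_smul]
      ring

/-- The image of the corner. -/
def corner : F →+ Additive (Heis F n) where
  toFun c := Additive.ofMul (⟨0, 0, c⟩ : Heis F n)
  map_zero' := rfl
  map_add' c d := by
    apply Additive.toMul.injective
    show (⟨0, 0, c + d⟩ : Heis F n) = ⟨0, 0, c⟩ * ⟨0, 0, d⟩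
    ext i
    · simp
    · simp
    · simp

/-- The subgroup of corner elements. -/
def Zc : Subgroup (Heis F n) where
  carrier := {x | x.a = 0 ∧ x.b = 0}
  mul_mem' := by
    rintro x y ⟨h1, h2⟩ ⟨h3, h4⟩
    exact ⟨by simp [h1, h3], by simp [h2, h4]⟩
  one_mem' := ⟨rfl, rfl⟩
  inv_mem' := by
    rintro x ⟨h1, h2⟩
    exact ⟨by simp [h1], by simp [h2]⟩

theorem mem_Zc {x : Heis F n} : x ∈ Zc ↔ x.a = 0 ∧ x.b = 0 := Iff.rfl

theorem center_eq : Subgroup.center (Heis F n) = Zc := by
  apply le_antisymm
  · intro x hx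
    rw [Subgroup.mem_center_iff] at hx
    refine ⟨?_, ?_⟩
    · funext i
      have h := hx ⟨0, Pi.single i 1, 0⟩
      have h1 := congrArg Heis.c h
      simp only [mul_c] at h1
      simpa [add_comm] using h1.symm
    · funext i
      have h := hx ⟨Pi.single i 1, 0, 0⟩
      have h1 := congrArg Heis.c h
      simp only [mul_c] at h1
      simpa [add_comm] using h1
  · rintro x ⟨h1, h2⟩
    rw [Subgroup.mem_center_iff]
    intro y
    ext i
    · simp [h1, add_comm]
    · simp [h2, add_comm]
    · simp [h1, h2, add_comm]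

theorem comm_mem_Zc (x y : Heis F n) : ⁅x, y⁆ ∈ Zc := by
  rw [commutatorElement_def]
  refine ⟨?_, ?_⟩ <;> simp

theorem commutator_eq (hn : 1 ≤ n) : commutator (Heis F n) = Zc := by
  apply le_antisymm
  · rw [commutator_def, Subgroup.commutator_le]
    intro x _ y _
    exact comm_mem_Zc x y
  · rintro x ⟨h1, h2⟩
    let i0 : Fin n := ⟨0, hn⟩
    have hx : x = ⁅(⟨Pi.single i0 x.c, 0, 0⟩ : Heis F n), (⟨0, Pi.single i0 1, 0⟩ : Heis F n)⁆ := by
      rw [commutatorElement_def]
      ext i
      · simp [h1]
      · simp [h2]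
      · simp
    rw [hx]
    exact Subgroup.commutator_mem_commutator (Subgroup.mem_top _) (Subgroup.mem_top _)

end heis

section main

variable {p : ℕ} [hp : Fact p.Prime] {n : ℕ}

instance : Finite (Heis (ZMod p) n) :=
  Finite.of_injective (fun x : Heis (ZMod p) n => (x.a, x.b, x.c)) (by
    intro x y h
    simp only [Prod.mk.injEq] at h
    exact Heis.ext h.1 h.2.1 h.2.2)

theorem card_heis : Nat.card (Heis (ZMod p) n) = p ^ (1 + 2 * n) := by
  let e : Heis (ZMod p) n ≃ (Fin n → ZMod p) × (Fin n → ZMod p) × ZMod p :=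
    { toFun := fun x => (x.a, x.b, x.c)
      invFun := fun x => ⟨x.1, x.2.1, x.2.2⟩
      left_inv := fun _ => rfl
      right_inv := fun _ => rfl }
  rw [Nat.card_congr e]
  simp only [Nat.card_prod, Nat.card_pi, Nat.card_zmod, Finset.prod_const, Finset.card_univ,
    Fintype.card_fin]
  ring

theorem isPGroup_heis : IsPGroup p (Heis (ZMod p) n) := IsPGroup.of_card card_heis

theorem frattini_le (x : Heis (ZMod p) n) (hx : x ∈ frattini (Heis (ZMod p) n)) :
    x ∈ (Zc : Subgroup (Heis (ZMod p) n)) := by
  have hcoat : IsCoatom (⊥ : Subgroup (Multiplicative (ZMod p))) := by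
    have : IsSimpleGroup (Multiplicative (ZMod p)) := by
      apply isSimpleGroup_of_prime_card (p := p)
      simp
    exact isCoatom_bot
  have hfr : frattini (Multiplicative (ZMod p)) ≤ ⊥ := frattini_le_coatom hcoat
  refine ⟨?_, ?_⟩
  · funext i
    let φ : Heis (ZMod p) n →* Multiplicative (ZMod p) :=
      { toFun := fun y => Multiplicative.ofAdd (y.a i)
        map_one' := rfl
        map_mul' := fun y z => rfl }
    have hφ : Function.Surjective φ := by
      intro z
      refine ⟨⟨(Pi.single i (Multiplicative.toAdd z) : Fin n → ZMod p), 0, 0⟩, ?_⟩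
      show Multiplicative.ofAdd ((Pi.single i (Multiplicative.toAdd z) : Fin n → ZMod p) i) = z
      simp
    have h1 := frattini_le_comap_frattini_of_surjective hφ hx
    have h2 := hfr h1
    rw [Subgroup.mem_bot] at h2
    exact h2
  · funext i
    let φ : Heis (ZMod p) n →* Multiplicative (ZMod p) :=
      { toFun := fun y => Multiplicative.ofAdd (y.b i)
        map_one' := rfl
        map_mul' := fun y z => rfl }
    have hφ : Function.Surjective φ := by
      intro z
      refine ⟨⟨0, (Pi.single i (Multiplicative.toAdd z) : Fin n → ZMod p), 0⟩, ?_⟩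
      show Multiplicative.ofAdd ((Pi.single i (Multiplicative.toAdd z) : Fin n → ZMod p) i) = z
      simp
    have h1 := frattini_le_comap_frattini_of_surjective hφ hx
    have h2 := hfr h1
    rw [Subgroup.mem_bot] at h2
    exact h2

theorem card_Zc : Nat.card (Zc : Subgroup (Heis (ZMod p) n)) = p := by
  let e : (Zc : Subgroup (Heis (ZMod p) n)) ≃ ZMod p :=
    { toFun := fun x => x.1.c
      invFun := fun c => ⟨⟨0, 0, c⟩, rfl, rfl⟩
      left_inv := by
        rintro ⟨x, h1, h2⟩
        apply Subtype.ext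
        exact Heis.ext h1.symm h2.symm rfl
      right_inv := fun _ => rfl }
  rw [Nat.card_congr e, Nat.card_zmod]

theorem extra_heis (hn : 1 ≤ n) : IsExtraspecial p (Heis (ZMod p) n) := by
  refine ⟨⟨isPGroup_heis, ?_, ?_⟩, ?_⟩
  · rw [center_eq]
    apply le_antisymm
    · exact frattini_le
    · rw [← commutator_eq hn]
      exact Cfsg.Agent.Lib.Frat.commutator_le_frattini isPGroup_heis
  · rw [center_eq, commutator_eq hn]
  · rw [center_eq]
    exact card_Zc

theorem pow_p (hp2 : p ≠ 2) (x : Heis (ZMod p) n) : x ^ p = 1 := by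
  rw [pow_formula]
  have hpp : p.Prime := hp.out
  have h1 : p ∣ p.choose 2 := hpp.dvd_choose_self (by norm_num) (by
    have := hpp.two_le
    omega)
  obtain ⟨m, hm⟩ := h1
  have hz : ((p : ℕ) : ZMod p) = 0 := ZMod.natCast_self p
  ext i
  · simp [nsmul_eq_mul, hz]
  · simp [nsmul_eq_mul, hz]
  · simp [nsmul_eq_mul, hz, hm]

end main

section rep

variable {F : Type} [Field F] {n : ℕ}

/-- The index type for the matrix representation. -/
abbrev Idx (n : ℕ) := Unit ⊕ (Fin n ⊕ Unit)

open Classical in
/-- The matrix of a Heisenberg element. -/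
noncomputable def mat (x : Heis F n) : Matrix (Idx n) (Idx n) F := fun i j =>
  match i, j with
  | .inl _, .inl _ => 1
  | .inl _, .inr (.inl l) => x.a l
  | .inl _, .inr (.inr _) => x.c
  | .inr (.inl k), .inr (.inl l) => if k = l then 1 else 0
  | .inr (.inl k), .inr (.inr _) => x.b k
  | .inr (.inr _), .inr (.inr _) => 1
  | _, _ => 0

theorem mat_one : mat (1 : Heis F n) = 1 := by
  ext i j
  rcases i with i | i | i <;> rcases j with j | j | j <;>
    simp [mat, Matrix.one_apply]

theorem mat_mul (x y : Heis F n) : mat (x * y) = mat x * mat y := by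
  ext i j
  rw [Matrix.mul_apply]
  rcases i with i | i | i <;> rcases j with j | j | j <;>
    simp [mat, Fintype.sum_sum_type, dotProduct, add_comm, add_left_comm, add_assoc]

end rep

theorem extra_of_equiv {A B : Type} [Group A] [Group B] (e : A ≃* B) {p : ℕ}
    (h : IsExtraspecial p A) : IsExtraspecial p B := by
  obtain ⟨⟨h1, h2, h3⟩, h4⟩ := h
  have hcen : (Subgroup.center A).map e.toMonoidHom = Subgroup.center B := by
    apply le_antisymm
    · rintro _ ⟨x, hx, rfl⟩
      rw [SetLike.mem_coe, Subgroup.mem_center_iff] at hx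
      rw [Subgroup.mem_center_iff]
      intro y
      obtain ⟨z, rfl⟩ := e.surjective y
      show e z * e x = e x * e z
      rw [← map_mul, ← map_mul, hx z]
    · intro y hy
      rw [Subgroup.mem_center_iff] at hy
      refine ⟨e.symm y, ?_, e.apply_symm_apply y⟩
      rw [SetLike.mem_coe, Subgroup.mem_center_iff]
      intro z
      apply e.injective
      rw [map_mul, map_mul, e.apply_symm_apply, hy]
  have hfr : (frattini A).map e.toMonoidHom = frattini B := by
    apply le_antisymm
    · rw [Subgroup.map_le_iff_le_comap]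
      exact frattini_le_comap_frattini_of_surjective e.surjective
    · intro y hy
      refine ⟨e.symm y, ?_, e.apply_symm_apply y⟩
      exact frattini_le_comap_frattini_of_surjective (φ := e.symm.toMonoidHom) e.symm.surjective hy
  have hcm : (commutator A).map e.toMonoidHom = commutator B := by
    rw [commutator_def, commutator_def, Subgroup.map_commutator, Subgroup.map_top_of_surjective _ e.surjective]
  refine ⟨⟨h1.of_surjective e.toMonoidHom e.surjective, ?_, ?_⟩, ?_⟩
  · rw [← hfr, ← hcen, h2]
  · rw [← hcm, ← hcen, h3]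
  · rw [← hcen, Subgroup.card_map_of_injective e.injective, h4]

/-- For every odd prime p and every n ≥ 1 there is an extraspecial p-group of order p^(1+2n) and exponent p; concretely, the general linear group of degree n + 2 over the field with p elements contains such a subgroup. -/
theorem result (p : ℕ) [Fact p.Prime] (hp : p ≠ 2) (n : ℕ) (hn : 1 ≤ n) : ∃ E : Subgroup (Matrix.GeneralLinearGroup (Fin (n + 2)) (ZMod p)), Cfsg.IsExtraspecial p ↥E ∧ Nat.card E = p ^ (1 + 2 * n) ∧ ∀ x ∈ E, x ^ p = 1 := by
  classical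
  have hcard : Fintype.card (Idx n) = Fintype.card (Fin (n + 2)) := by
    simp
    omega
  let e : Idx n ≃ Fin (n + 2) := Fintype.equivOfCardEq hcard
  let f₀ : Heis (ZMod p) n →* Matrix (Idx n) (Idx n) (ZMod p) :=
    { toFun := mat
      map_one' := mat_one
      map_mul' := mat_mul }
  let f₁ : Heis (ZMod p) n →* Matrix (Fin (n + 2)) (Fin (n + 2)) (ZMod p) :=
    ((Matrix.reindexAlgEquiv (ZMod p) (ZMod p) e : _ ≃ₐ[ZMod p] _) :
      Matrix (Idx n) (Idx n) (ZMod p) →* Matrix (Fin (n + 2)) (Fin (n + 2)) (ZMod p)).comp f₀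
  let f : Heis (ZMod p) n →* Matrix.GeneralLinearGroup (Fin (n + 2)) (ZMod p) := f₁.toHomUnits
  have hf : Function.Injective f := by
    intro x y hxy
    have h1 : f₁ x = f₁ y := congrArg Units.val hxy
    have h2 : mat x = mat y := (Matrix.reindexAlgEquiv (ZMod p) (ZMod p) e).injective h1
    apply Heis.ext
    · funext l
      exact congrFun (congrFun h2 (.inl ())) (.inr (.inl l))
    · funext l
      exact congrFun (congrFun h2 (.inr (.inl l))) (.inr (.inr ()))
    · exact congrFun (congrFun h2 (.inl ())) (.inr (.inr ()))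
  let E := f.range
  let eqv : Heis (ZMod p) n ≃* E := MonoidHom.ofInjective hf
  refine ⟨E, ?_, ?_, ?_⟩
  · exact extra_of_equiv eqv (extra_heis hn)
  · rw [← Nat.card_congr eqv.toEquiv]
    exact card_heis
  · rintro _ ⟨x, rfl⟩
    rw [← map_pow, pow_p hp, map_one]

end Cfsg.Agent.S3799
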