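import Mathlib
import Cfsg.Statements.S3800
import Cfsg.Agent.Lib.SylowConjLemmas

set_option autoImplicit false
open Cfsg

namespace Cfsg.Agent.S3800

variable {G : Type*} [Group G]

omit [Group G] in
theorem relIndex_mul_card {G : Type*} [Group G] {H K : Subgroup G} (h : H ≤ K) :
    H.relIndex K * Nat.card H = Nat.card K := by
  have := Subgroup.index_mul_card (H.subgroupOf K)
  rwa [show Nat.card (H.subgroupOf K) = Nat.card H from
    Nat.card_congr (Subgroup.subgroupOfEquivOfLe h).toEquiv] at this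

theorem relIndex_sup_eq [Finite G] (C N : Subgroup G) [N.Normal] :
    C.relIndex (C ⊔ N) = C.relIndex N := by
  have h1 : N.relIndex (C ⊔ N) = N.relIndex C := Subgroup.relIndex_sup_right C N
  have e1 : N.relIndex (C ⊔ N) * Nat.card N = Nat.card (C ⊔ N : Subgroup G) :=
    relIndex_mul_card le_sup_right
  have e2 : C.relIndex (C ⊔ N) * Nat.card C = Nat.card (C ⊔ N : Subgroup G) :=
    relIndex_mul_card le_sup_left
  have e3 : N.relIndex C * Nat.card (N ⊓ C : Subgroup G) = Nat.card C := by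
    have := relIndex_mul_card (H := N ⊓ C) (K := C) inf_le_right
    rwa [Subgroup.inf_relIndex_right] at this
  have e4 : C.relIndex N * Nat.card (N ⊓ C : Subgroup G) = Nat.card N := by
    have := relIndex_mul_card (H := N ⊓ C) (K := N) inf_le_left
    rwa [Subgroup.inf_relIndex_left] at this
  have hpos : 0 < Nat.card C := Nat.card_pos
  have : C.relIndex (C ⊔ N) * Nat.card C = C.relIndex N * Nat.card C := by
    rw [e2, ← e1, h1, ← e4, ← e3]
    ring
  exact Nat.eq_of_mul_eq_mul_right hpos this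

/-- A `p`-subgroup of `PN` can be conjugated into `P` by an element of `N`. -/
theorem conj_into [Finite G] {p : ℕ} [Fact p.Prime] (N : Subgroup G) [N.Normal]
    (hN : (Nat.card N).Coprime p) (P : Subgroup G) (hP : IsPGroup p P) (T : Subgroup G)
    (hT : IsPGroup p T) (hTK : T ≤ P ⊔ N) : ∃ n ∈ N, ∀ t ∈ T, n * t * n⁻¹ ∈ P := by
  set K : Subgroup G := P ⊔ N with hK
  have hPK : IsPGroup p (P.subgroupOf K) := hP.comap_of_injective K.subtype K.subtype_injective
  have hidx : ¬ p ∣ (P.subgroupOf K).index := by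
    intro h
    have h1 : (P.subgroupOf K).index = P.relIndex K := rfl
    rw [h1, hK, relIndex_sup_eq] at h
    have h2 : P.relIndex N ∣ Nat.card N := Subgroup.relIndex_dvd_card P N
    have h3 : p ∣ Nat.card N := h.trans h2
    have h4 : Nat.Coprime p (Nat.card N) := hN.symm
    exact (Nat.Prime.coprime_iff_not_dvd Fact.out).1 h4 h3
  let S : Sylow p K := hPK.toSylow hidx
  have hTK' : IsPGroup p (T.subgroupOf K) := hT.comap_of_injective K.subtype K.subtype_injective
  have htop : T.subgroupOf K ≤ (S : Subgroup K) ⊔ N.subgroupOf K := by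
    intro t _
    obtain ⟨s, hs, n, hn, hsn⟩ := Subgroup.mem_sup_of_normal_right.mp t.2
    have hs' : s ∈ K := Subgroup.mem_sup_left hs
    have hn' : n ∈ K := Subgroup.mem_sup_right hn
    have : t = (⟨s, hs'⟩ : K) * ⟨n, hn'⟩ := Subtype.ext hsn.symm
    rw [this]
    refine Subgroup.mul_mem _ (Subgroup.mem_sup_left ?_) (Subgroup.mem_sup_right ?_)
    · show (⟨s, hs'⟩ : K) ∈ hPK.toSylow hidx
      rw [IsPGroup.mem_toSylow]
      exact hs
    · exact hn
  obtain ⟨n, hn, hnT⟩ := Cfsg.Agent.Lib.SylowConjLemmas.exists_conj_mem_of_le_sup S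
    (N.subgroupOf K) (T.subgroupOf K) hTK' htop
  refine ⟨n, hn, fun t ht => ?_⟩
  have := hnT ⟨t, hTK ht⟩ ht
  have h2 : n * ⟨t, hTK ht⟩ * n⁻¹ ∈ P.subgroupOf K := by
    have : n * ⟨t, hTK ht⟩ * n⁻¹ ∈ hPK.toSylow hidx := this
    rwa [IsPGroup.mem_toSylow] at this
  exact h2

theorem disjoint_of_coprime [Finite G] {p : ℕ} [Fact p.Prime] (N : Subgroup G)
    (hN : (Nat.card N).Coprime p) (P : Subgroup G) (hP : IsPGroup p P) {x : G} (hxP : x ∈ P)
    (hxN : x ∈ N) : x = 1 := by
  obtain ⟨k, hk⟩ := hP ⟨x, hxP⟩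
  have hk' : x ^ p ^ k = 1 := by
    have := congrArg Subtype.val hk
    simpa using this
  have h1 : orderOf x ∣ p ^ k := orderOf_dvd_of_pow_eq_one hk'
  have h2 : orderOf x ∣ Nat.card N := by
    have := Subgroup.orderOf_dvd_natCard N hxN
    exact this
  have h3 : Nat.Coprime (Nat.card N) (p ^ k) := Nat.Coprime.pow_right _ hN
  have h4 : orderOf x = 1 := Nat.eq_one_of_dvd_coprimes h3 h2 h1
  exact orderOf_eq_one_iff.mp h4

/-- normalizing a finite subgroup from inside -/
theorem mem_normalizer_of_conj_le [Finite G] (P : Subgroup G) (g : G)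
    (h : ∀ x ∈ P, g * x * g⁻¹ ∈ P) : g ∈ Subgroup.normalizer (P : Set G) := by
  rw [Subgroup.mem_normalizer_iff]
  intro y
  refine ⟨fun hy => h y hy, fun hy => ?_⟩
  let f : P → P := fun x => ⟨g * x * g⁻¹, h x x.2⟩
  have hinj : Function.Injective f := by
    intro a b hab
    have : g * (a : G) * g⁻¹ = g * (b : G) * g⁻¹ := congrArg Subtype.val hab
    exact Subtype.ext (by simpa using this)
  have hsurj := Finite.injective_iff_surjective.mp hinj
  obtain ⟨x, hx⟩ := hsurj ⟨g * y * g⁻¹, hy⟩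
  have : g * (x : G) * g⁻¹ = g * y * g⁻¹ := congrArg Subtype.val hx
  have hxy : (x : G) = y := by simpa using this
  rw [← hxy]
  exact x.2

theorem result {G : Type*} [Group G] [Finite G] {p : ℕ} [Fact p.Prime] (N : Subgroup G) [N.Normal] (hN : (Nat.card N).Coprime p) (P : Subgroup G) (hP : IsPGroup p P) : Subgroup.normalizer ((P.map (QuotientGroup.mk' N)) : Set (G ⧸ N)) = (Subgroup.normalizer (P : Set G)).map (QuotientGroup.mk' N) ∧ Subgroup.centralizer ((P.map (QuotientGroup.mk' N)) : Set (G ⧸ N)) = (Subgroup.centralizer (P : Set G)).map (QuotientGroup.mk' N) := by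
  -- key step
  have key : ∀ g : G, (∀ x ∈ P, ((g * x * g⁻¹ : G) : G ⧸ N) ∈ P.map (QuotientGroup.mk' N)) →
      ∃ n ∈ N, n * g ∈ Subgroup.normalizer (P : Set G) := by
    intro g hg
    let T : Subgroup G := P.map (MulAut.conj g).toMonoidHom
    have hT : IsPGroup p T := hP.map _
    have hTK : T ≤ P ⊔ N := by
      rintro _ ⟨x, hx, rfl⟩
      obtain ⟨y, hy, hyx⟩ := hg x hx
      rw [Subgroup.mem_sup_of_normal_right]
      refine ⟨y, hy, y⁻¹ * (g * x * g⁻¹), ?_, by simp [MulAut.conj_apply]⟩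
      rw [← QuotientGroup.eq]
      exact hyx
    obtain ⟨n, hn, hnT⟩ := conj_into N hN P hP T hT hTK
    refine ⟨n, hn, mem_normalizer_of_conj_le P _ fun x hx => ?_⟩
    have := hnT (g * x * g⁻¹) ⟨x, hx, by simp [MulAut.conj_apply]⟩
    have h2 : n * g * x * (n * g)⁻¹ = n * (g * x * g⁻¹) * n⁻¹ := by group
    rwa [h2]
  constructor
  · apply le_antisymm
    · intro gb hgb
      obtain ⟨g, rfl⟩ := QuotientGroup.mk_surjective gb
      rw [Subgroup.mem_normalizer_iff] at hgb
      obtain ⟨n, hn, hng⟩ := key g (fun x hx => by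
        have h1 : ((x : G) : G ⧸ N) ∈ P.map (QuotientGroup.mk' N) := ⟨x, hx, rfl⟩
        have h2 := (hgb _).1 h1
        simpa [QuotientGroup.mk_mul, QuotientGroup.mk_inv] using h2)
      refine ⟨n * g, hng, ?_⟩
      show ((n * g : G) : G ⧸ N) = (g : G ⧸ N)
      rw [QuotientGroup.mk_mul]
      have : ((n : G) : G ⧸ N) = 1 := (QuotientGroup.eq_one_iff n).mpr hn
      rw [this, one_mul]
    · exact Subgroup.le_normalizer_map _
  · apply le_antisymm
    · intro gb hgb
      obtain ⟨g, rfl⟩ := QuotientGroup.mk_surjective gb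
      rw [Subgroup.mem_centralizer_iff] at hgb
      have hcomm : ∀ x ∈ P, ((x : G) : G ⧸ N) * (g : G ⧸ N) = (g : G ⧸ N) * (x : G) := by
        intro x hx
        exact hgb _ ⟨x, hx, rfl⟩
      obtain ⟨n, hn, hng⟩ := key g (fun x hx => by
        have h1 : ((x : G) : G ⧸ N) ∈ P.map (QuotientGroup.mk' N) := ⟨x, hx, rfl⟩
        have h2 : ((g * x * g⁻¹ : G) : G ⧸ N) = ((x : G) : G ⧸ N) := by
          simp only [QuotientGroup.mk_mul, QuotientGroup.mk_inv]
          rw [← hcomm x hx]
          group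
        rw [h2]
        exact h1)
      set h : G := n * g with hh
      have hnbar : ((n : G) : G ⧸ N) = 1 := (QuotientGroup.eq_one_iff n).mpr hn
      have himg : (h : G ⧸ N) = (g : G ⧸ N) := by
        rw [hh, QuotientGroup.mk_mul, hnbar, one_mul]
      refine ⟨h, ?_, himg⟩
      show h ∈ Subgroup.centralizer (P : Set G)
      rw [Subgroup.mem_centralizer_iff]
      intro x hx
      have hxP : x ∈ P := hx
      -- `[h,x]` lies in `P ∩ N`
      have h1 : h * x * h⁻¹ ∈ P := (Subgroup.mem_normalizer_iff.mp hng x).1 hxP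
      have h2 : (h * x * h⁻¹) * x⁻¹ ∈ P := P.mul_mem h1 (P.inv_mem hxP)
      have h3 : (h * x * h⁻¹) * x⁻¹ ∈ N := by
        rw [← QuotientGroup.eq_one_iff]
        simp only [QuotientGroup.mk_mul, QuotientGroup.mk_inv, himg]
        rw [← hcomm x hxP]
        group
      have h4 := disjoint_of_coprime N hN P hP h2 h3
      have h5 : h * x * h⁻¹ = x := by
        rwa [mul_inv_eq_one] at h4
      calc x * h = (h * x * h⁻¹) * h := by rw [h5]
        _ = h * x := by group
    · rintro _ ⟨g, hg, rfl⟩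
      have hg : g ∈ Subgroup.centralizer (P : Set G) := hg
      rw [Subgroup.mem_centralizer_iff] at hg ⊢
      rintro _ ⟨x, hx, rfl⟩
      have := hg x hx
      show ((x : G) : G ⧸ N) * (g : G ⧸ N) = (g : G ⧸ N) * (x : G)
      rw [← QuotientGroup.mk_mul, ← QuotientGroup.mk_mul, this]

end Cfsg.Agent.S3800
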