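import Mathlib
import Cfsg.Statements.S3951
import Cfsg.Agent.Lib.StemHeis
import Cfsg.Agent.Lib.SchurBasic
import Cfsg.Agent.Lib.StemSylow

set_option autoImplicit false
open Cfsg

namespace Cfsg.Agent.S3951

open Subgroup
open scoped commutatorElement

/-- For positive integers `m` and `n` with `n` dividing `m`, the Schur multiplier of the abelian group `ZMod m × ZMod n` (written multiplicatively) is cyclic of order `n`. In particular the elementary abelian group of order `p ^ 2` has multiplier of order `p`. -/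
theorem result (m n : ℕ) [NeZero m] [NeZero n] (hnm : n ∣ m) : Cfsg.HasCyclicSchurMultiplier (Multiplicative (ZMod m × ZMod n)) n := by
  classical
  let G := Multiplicative (ZMod m × ZMod n)
  let a : G := Multiplicative.ofAdd ((1, 0) : ZMod m × ZMod n)
  let b : G := Multiplicative.ofAdd ((0, 1) : ZMod m × ZMod n)
  have hform : ∀ g : G, ∃ i j : ℕ, g = a ^ i * b ^ j := by
    intro g
    refine ⟨(Multiplicative.toAdd g).1.val, (Multiplicative.toAdd g).2.val, ?_⟩
    apply Multiplicative.toAdd.injective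
    have e1 : Multiplicative.toAdd (a ^ (Multiplicative.toAdd g).1.val * b ^ (Multiplicative.toAdd g).2.val) =
        (Multiplicative.toAdd g).1.val • ((1, 0) : ZMod m × ZMod n) + (Multiplicative.toAdd g).2.val • ((0, 1) : ZMod m × ZMod n) := by
      rw [toAdd_mul, toAdd_pow, toAdd_pow]
      rfl
    rw [e1]
    apply Prod.ext
    · simp
    · simp
  let χ₁ : G →* Multiplicative (ZMod n) :=
    AddMonoidHom.toMultiplicative ((ZMod.castHom hnm (ZMod n)).toAddMonoidHom.comp (AddMonoidHom.fst (ZMod m) (ZMod n)))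
  let χ₂ : G →* Multiplicative (ZMod n) :=
    AddMonoidHom.toMultiplicative (AddMonoidHom.snd (ZMod m) (ZMod n))
  constructor
  · refine ⟨Cfsg.Agent.Lib.StemHeis.Tw χ₁ χ₂, inferInstance, inferInstance, Cfsg.Agent.Lib.StemHeis.twFst χ₁ χ₂,
      Cfsg.Agent.Lib.StemHeis.isStem χ₁ χ₂ a b ?_ ?_ ?_, ⟨Cfsg.Agent.Lib.StemHeis.kerEquiv χ₁ χ₂⟩⟩
    · exact map_one (ZMod.castHom hnm (ZMod n))
    · rfl
    · exact map_zero (ZMod.castHom hnm (ZMod n))
  · intro Δ _ _ τ hτ
    obtain ⟨x, hx⟩ := hτ.1 a
    obtain ⟨y, hy⟩ := hτ.1 b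
    have hab : a * b = b * a := mul_comm a b
    have hw : ⁅x, y⁆ ∈ τ.ker := by
      rw [MonoidHom.mem_ker, map_commutatorElement, hx, hy, commutatorElement_eq_one_iff_mul_comm]
      exact hab
    have hwc : ⁅x, y⁆ ∈ center Δ := hτ.2.1 hw
    set w₀ := ⁅x, y⁆ with hw₀
    have hn : w₀ ^ n = 1 := by
      have h1 : x * y * x⁻¹ = w₀ * y := by
        rw [hw₀, commutatorElement_def]; group
      have h2 : ∀ k : ℕ, x * y ^ k * x⁻¹ = w₀ ^ k * y ^ k := by
        intro k
        induction k with
        | zero => simp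
        | succ k ih =>
          calc x * y ^ (k + 1) * x⁻¹ = (x * y ^ k * x⁻¹) * (x * y * x⁻¹) := by group
            _ = w₀ ^ k * y ^ k * (w₀ * y) := by rw [ih, h1]
            _ = w₀ ^ k * (y ^ k * w₀) * y := by group
            _ = w₀ ^ k * (w₀ * y ^ k) * y := by rw [(Subgroup.mem_center_iff.mp hwc (y ^ k))]
            _ = w₀ ^ (k + 1) * y ^ (k + 1) := by group
      have h3 : τ (y ^ n) = 1 := by
        rw [map_pow, hy]
        apply Multiplicative.toAdd.injective
        apply Prod.ext <;> simp [b]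
      have h4 : y ^ n ∈ center Δ := hτ.2.1 h3
      have h5 := h2 n
      have h6 : x * y ^ n * x⁻¹ = y ^ n := by
        rw [Subgroup.mem_center_iff.mp h4 x]; group
      rw [h6] at h5
      have h7 : w₀ ^ n * y ^ n = y ^ n := h5.symm
      simpa using h7
    -- the derived subgroup is generated by `w₀`
    have hzcen : Subgroup.zpowers w₀ ≤ center Δ := by
      rw [Subgroup.zpowers_le]
      exact hwc
    haveI hnorm : (Subgroup.zpowers w₀).Normal := by
      constructor
      intro c hc g
      have := Subgroup.mem_center_iff.mp (hzcen hc) g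
      rw [this]
      simpa using hc
    let mk := QuotientGroup.mk' (Subgroup.zpowers w₀)
    have hcomm : ∀ s t : Δ ⧸ Subgroup.zpowers w₀, s * t = t * s := by
      have hK : (τ.ker).map mk ≤ center (Δ ⧸ Subgroup.zpowers w₀) := by
        rintro _ ⟨k, hk, rfl⟩
        rw [Subgroup.mem_center_iff]
        intro t
        obtain ⟨t, rfl⟩ := QuotientGroup.mk'_surjective _ t
        rw [← map_mul, ← map_mul, (Subgroup.mem_center_iff.mp (hτ.2.1 hk) t)]
      have hxy : mk x * mk y = mk y * mk x := by
        have h1 : mk w₀ = 1 := by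
          rw [← MonoidHom.mem_ker, QuotientGroup.ker_mk']
          exact Subgroup.mem_zpowers _
        have h2 : mk (x * y * x⁻¹ * y⁻¹) = 1 := h1
        rw [map_mul, map_mul, map_mul, map_inv, map_inv, mul_inv_eq_one,
          mul_inv_eq_iff_eq_mul] at h2
        exact h2
      intro s t
      refine Cfsg.Agent.Lib.StemSylow.comm_of_normal_form (P := ⊤) hK hxy ?_ s (Subgroup.mem_top _) t (Subgroup.mem_top _)
      intro s _
      obtain ⟨g, rfl⟩ := QuotientGroup.mk'_surjective _ s
      obtain ⟨i, j, hij⟩ := hform (τ g)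
      refine ⟨i, j, mk ((x ^ i * y ^ j)⁻¹ * g), ?_, ?_⟩
      · refine Subgroup.mem_map_of_mem _ ?_
        rw [MonoidHom.mem_ker, map_mul, map_inv, map_mul, map_pow, map_pow, hx, hy, ← hij]
        simp
      · rw [← map_pow, ← map_pow, ← map_mul, ← map_mul]
        congr 1
        group
    have hder : commutator Δ ≤ Subgroup.zpowers w₀ := by
      rw [_root_.commutator_def, Subgroup.commutator_le]
      intro g _ h _
      rw [← QuotientGroup.ker_mk' (Subgroup.zpowers w₀), MonoidHom.mem_ker, commutatorElement_def, map_mul,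
        map_mul, map_mul, map_inv, map_inv, mul_inv_eq_one, mul_inv_eq_iff_eq_mul]
      exact hcomm _ _
    let w : τ.ker := ⟨w₀, hw⟩
    refine Cfsg.Agent.Lib.SchurBasic.exists_surjective_zmod n w (Subtype.ext hn) ?_
    rw [eq_top_iff]
    rintro ⟨k, hk⟩ _
    have h1 := hder (hτ.2.2 hk)
    obtain ⟨z, hz⟩ := Subgroup.mem_zpowers_iff.mp h1
    refine Subgroup.mem_zpowers_iff.mpr ⟨z, Subtype.ext ?_⟩
    simpa [w] using hz

end Cfsg.Agent.S3951
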