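import Mathlib
import Cfsg.Statements.S3953
import Cfsg.Agent.Lib.SchurH2
import Cfsg.Agent.S3952

set_option autoImplicit false
open Cfsg

namespace Cfsg.Agent.S3953

open Cfsg.Agent.Lib.SchurH2

/-- Let `P` be a Sylow `p`-subgroup of the finite group `G`, let `A` be the Schur multiplier of `G` and `B` that of `P`. Then the `p`-primary component of `A` is isomorphic to a direct factor of `B`: there are subgroups `C` and `D` of `B` meeting trivially and generating `B`, with `C` isomorphic to the `p`-primary component of `A`. -/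
theorem result {G : Type*} [Group G] [Finite G] (p : ℕ) [Fact p.Prime] (P : Sylow p G) {A B : Type*} [CommGroup A] [CommGroup B] (hA : Cfsg.HasSchurMultiplier G A) (hB : Cfsg.HasSchurMultiplier P B) : ∃ C D : Subgroup B, C ⊓ D = ⊥ ∧ C ⊔ D = ⊤ ∧ Nonempty (CommGroup.primaryComponent A p ≃* C) := by
  classical
  let U : Subgroup G := (P : Subgroup G)
  have hB' : Cfsg.HasSchurMultiplier U B := hB
  letI : Fintype (G ⧸ U) := Fintype.ofFinite _
  obtain ⟨eX⟩ := nonempty_h2_equiv hA
  obtain ⟨eY⟩ := nonempty_h2_equiv hB'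
  haveI := Cfsg.Agent.Lib.StemCover.finite_of_multiplier hA
  haveI : Finite (H2 G) := Finite.of_equiv _ eX.symm.toEquiv
  have hm : Nat.Coprime U.index p := by
    rw [Nat.coprime_comm, Nat.Prime.coprime_iff_not_dvd Fact.out]
    exact P.not_dvd_index
  have hY : ∀ y : H2 U, ∃ k : ℕ, y ^ p ^ k = 1 := by
    intro y
    have h1 := Cfsg.Agent.S3952.result hB'
    obtain ⟨a, ha⟩ := IsPGroup.iff_card.mp P.isPGroup'
    have h2 : Monoid.exponent B ∣ p ^ a := by
      rw [← ha]
      exact (dvd_pow_self _ two_ne_zero).trans h1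
    refine ⟨a, ?_⟩
    apply eY.injective
    rw [map_pow, map_one]
    exact Monoid.exponent_dvd_iff_forall_pow_eq_one.mp h2 _
  exact split_transport eX eY (exists_split (X := H2 G) (Y := H2 U) hm (resH U) (corH U) (corH_resH U) hY)

end Cfsg.Agent.S3953
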