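import Mathlib
import Cfsg.Statements.S3954
import Cfsg.Agent.Lib.StemCover2
import Cfsg.Agent.Lib.SchurStem

set_option autoImplicit false
open Cfsg

namespace Cfsg.Agent.S3954

open Subgroup

/-- Let `U` be a subgroup of index `m` in the finite group `G`, let `A` be the Schur multiplier of `G` and `B` that of `U`. Then the subgroup of `m`-th powers of `A` is isomorphic to a subgroup of `B`. -/
theorem result {G : Type*} [Group G] [Finite G] (U : Subgroup G) {A B : Type*} [CommGroup A] [CommGroup B] (hA : Cfsg.HasSchurMultiplier G A) (hB : Cfsg.HasSchurMultiplier U B) : ∃ C : Subgroup B, Nonempty ((powMonoidHom U.index : A →* A).range ≃* C) := by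
  obtain ⟨⟨Γ, _, _, σ, hσ, ⟨e⟩⟩, _⟩ := id hA
  haveI := Cfsg.Agent.Lib.StemCover.finite_of_multiplier hB
  let V : Subgroup Γ := U.comap σ
  let ε : V →* U := σ.subgroupComap U
  have hε : Function.Surjective ε := σ.subgroupComap_surjective_of_surjective U hσ.1
  have hc : ε.ker ≤ center V := by
    intro x hx
    have h1 : σ (x : Γ) = 1 := congrArg Subtype.val hx
    rw [Subgroup.mem_center_iff]
    intro y
    exact Subtype.ext (Subgroup.mem_center_iff.mp (hσ.2.1 h1) y)
  obtain ⟨h, hh⟩ := Cfsg.Agent.Lib.StemCover.exists_surj_of_multiplier hB ε hε hc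
  have hind : V.index = U.index := Subgroup.index_comap_of_surjective U hσ.1
  -- the key: `k ^ m` lies in `V' ⊓ ker ε`
  have hkey : ∀ k : σ.ker, ∃ (hV : ((k : Γ) ^ U.index) ∈ V), (⟨(k : Γ) ^ U.index, hV⟩ : V) ∈ commutator V ⊓ ε.ker := by
    intro k
    obtain ⟨h1, h2⟩ := Cfsg.Agent.Lib.SchurStem.pow_index_mem_commutator V (hσ.2.1 k.2) (hσ.2.2 k.2)
    rw [hind] at h1
    refine ⟨by simpa using h1, ?_, ?_⟩
    · convert h2 using 2 <;> simp [hind]
    · apply Subtype.ext
      show σ ((k : Γ) ^ U.index) = 1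
      rw [map_pow, show σ (k : Γ) = 1 from k.2, one_pow]
  have hkey2 : ∀ x : (powMonoidHom U.index : A →* A).range, ∃ (hV : ((e.symm x : σ.ker) : Γ) ∈ V),
      (⟨((e.symm x : σ.ker) : Γ), hV⟩ : V) ∈ commutator V ⊓ ε.ker := by
    rintro ⟨_, a, rfl⟩
    have h1 : ((e.symm (powMonoidHom U.index a) : σ.ker) : Γ) = ((e.symm a : σ.ker) : Γ) ^ U.index := by
      simp
    obtain ⟨h2, h3⟩ := hkey (e.symm a)
    refine ⟨by rw [show ((⟨powMonoidHom U.index a, a, rfl⟩ : (powMonoidHom U.index : A →* A).range) : A) = powMonoidHom U.index a from rfl, h1]; exact h2, ?_⟩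
    convert h3 using 2
  let i : (powMonoidHom U.index : A →* A).range →* ↥(commutator V ⊓ ε.ker) :=
    { toFun := fun x => ⟨⟨_, (hkey2 x).choose⟩, (hkey2 x).choose_spec⟩
      map_one' := by
        apply Subtype.ext
        apply Subtype.ext
        simp
      map_mul' := fun a b => by
        apply Subtype.ext
        apply Subtype.ext
        simp }
  have hi : Function.Injective i := by
    intro a b hab
    have h1 := congrArg (fun x : ↥(commutator V ⊓ ε.ker) => ((x : V) : Γ)) hab
    have h2 : ((e.symm a : σ.ker) : Γ) = ((e.symm b : σ.ker) : Γ) := h1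
    exact Subtype.ext (e.symm.injective (Subtype.ext h2))
  obtain ⟨C, hC⟩ := Cfsg.Agent.Lib.StemCover2.exists_subgroup_of_section h hh i hi
  exact ⟨C, hC⟩

end Cfsg.Agent.S3954
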