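import Mathlib
import Cfsg.Statements.S3955
import Cfsg.Agent.Lib.StemCover

set_option autoImplicit false
open Cfsg

namespace Cfsg.Agent.S3955

/-- Let `Q` be a finite group with Schur multiplier `A`, and let `σ : Γ →* Q` be a finite stem extension whose kernel is isomorphic to `A` (a Schur covering group of `Q`). Then every homomorphism `γ` from `Q` to the quotient of `GL n ℂ` by its centre lifts along `σ`: there is a homomorphism `ρ : Γ →* GL n ℂ` which, followed by the quotient map, equals `γ ∘ σ`. -/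
theorem result {Q : Type*} [Group Q] [Finite Q] {A : Type*} [CommGroup A] (hA : Cfsg.HasSchurMultiplier Q A) {Γ : Type*} [Group Γ] [Finite Γ] (σ : Γ →* Q) (hσ : Cfsg.IsStemExtension σ) (hk : Nonempty (σ.ker ≃* A)) (n : ℕ) (γ : Q →* (GL (Fin n) ℂ ⧸ Subgroup.center (GL (Fin n) ℂ))) : ∃ ρ : Γ →* GL (Fin n) ℂ, (QuotientGroup.mk' (Subgroup.center (GL (Fin n) ℂ))).comp ρ = γ.comp σ := by
  let mk := QuotientGroup.mk' (Subgroup.center (GL (Fin n) ℂ))
  let E : Subgroup (Q × GL (Fin n) ℂ) :=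
    MonoidHom.eqLocus (γ.comp (MonoidHom.fst Q (GL (Fin n) ℂ))) (mk.comp (MonoidHom.snd Q (GL (Fin n) ℂ)))
  let ε : E →* Q := (MonoidHom.fst Q (GL (Fin n) ℂ)).comp E.subtype
  let p₂ : E →* GL (Fin n) ℂ := (MonoidHom.snd Q (GL (Fin n) ℂ)).comp E.subtype
  have hE : ∀ x : E, γ (x : Q × GL (Fin n) ℂ).1 = mk (x : Q × GL (Fin n) ℂ).2 := fun x => x.2
  have hε : Function.Surjective ε := by
    intro q
    obtain ⟨x, hx⟩ := QuotientGroup.mk'_surjective _ (γ q)
    exact ⟨⟨(q, x), hx.symm⟩, rfl⟩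
  have hkerc : ∀ z : E, ε z = 1 → (z : Q × GL (Fin n) ℂ).2 ∈ Subgroup.center (GL (Fin n) ℂ) := by
    intro z hz
    have h1 := hE z
    have h2 : (z : Q × GL (Fin n) ℂ).1 = 1 := hz
    rw [h2, map_one] at h1
    have h3 : mk (z : Q × GL (Fin n) ℂ).2 = 1 := h1.symm
    rwa [← MonoidHom.mem_ker, QuotientGroup.ker_mk'] at h3
  have hc : ε.ker ≤ Subgroup.center E := by
    intro z hz
    rw [Subgroup.mem_center_iff]
    intro y
    apply Subtype.ext
    apply Prod.ext
    · have h2 : (z : Q × GL (Fin n) ℂ).1 = 1 := hz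
      show (y : Q × GL (Fin n) ℂ).1 * (z : Q × GL (Fin n) ℂ).1 = (z : Q × GL (Fin n) ℂ).1 * (y : Q × GL (Fin n) ℂ).1
      rw [h2]; simp
    · exact Subgroup.mem_center_iff.mp (hkerc z hz) _
  have hdiv : ∀ z ∈ ε.ker, ∀ m : ℕ, 0 < m → ∃ w ∈ ε.ker, w ^ m = z := by
    intro z hz m hm
    have h1 := hkerc z hz
    rw [Matrix.GeneralLinearGroup.center_eq_range_scalar] at h1
    obtain ⟨c, hc'⟩ := h1
    obtain ⟨d, hd⟩ := IsAlgClosed.exists_pow_nat_eq (c : ℂ) hm
    have hd0 : d ≠ 0 := by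
      intro h
      rw [h, zero_pow hm.ne'] at hd
      exact c.ne_zero hd.symm
    let u : ℂˣ := Units.mk0 d hd0
    have hu : u ^ m = c := by
      apply Units.ext
      simpa [u] using hd
    let w : GL (Fin n) ℂ := Matrix.GeneralLinearGroup.scalar (Fin n) u
    have hw : w ∈ Subgroup.center (GL (Fin n) ℂ) := by
      rw [Matrix.GeneralLinearGroup.center_eq_range_scalar]
      exact ⟨u, rfl⟩
    have hwE : ((1 : Q), w) ∈ E := by
      show γ 1 = mk w
      rw [map_one]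
      symm
      rw [← MonoidHom.mem_ker, QuotientGroup.ker_mk']
      exact hw
    refine ⟨⟨(1, w), hwE⟩, rfl, ?_⟩
    apply Subtype.ext
    apply Prod.ext
    · have h2 : (z : Q × GL (Fin n) ℂ).1 = 1 := hz
      rw [h2]
      show (1 : Q) ^ m = 1
      simp
    · show w ^ m = (z : Q × GL (Fin n) ℂ).2
      rw [← hc', ← hu, map_pow]
  obtain ⟨β, hβ⟩ := Cfsg.Agent.Lib.StemCover.lift_of_divisible hA σ hσ hk ε hε hc hdiv
  refine ⟨p₂.comp β, ?_⟩
  refine MonoidHom.ext fun g => ?_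
  have h1 := hE (β g)
  have h2 : ((β g : E) : Q × GL (Fin n) ℂ).1 = σ g := congrArg (fun m => m g) hβ
  rw [h2] at h1
  exact h1.symm

end Cfsg.Agent.S3955
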