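import Mathlib
import Cfsg.Statements.S3958
import Cfsg.Agent.Lib.SchurHopf

set_option autoImplicit false
universe u v
open Cfsg

namespace Cfsg.Agent.S3958

open Subgroup Cfsg.Agent.Lib.SchurHopf

/-- Let `σ : Γ →* Q` be a finite stem extension of the finite group `Q` with `Γ` of trivial Schur multiplier. Then `σ` is a Schur covering group of `Q`: for every finite stem extension `τ : Δ →* Q` with `Δ` in the same universe as `Q`, the kernel of `τ` is a homomorphic image of the kernel of `σ`. -/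
theorem result {Q : Type u} [Group Q] [Finite Q] {Γ : Type v} [Group Γ] [Finite Γ] (σ : Γ →* Q) (hσ : Cfsg.IsStemExtension σ) (hΓ : Cfsg.HasCyclicSchurMultiplier Γ 1) (Δ : Type u) [Group Δ] [Finite Δ] (τ : Δ →* Q) (hτ : Cfsg.IsStemExtension τ) : ∃ π : σ.ker →* τ.ker, Function.Surjective π := by
  let ρ := defaultRho Q
  have hρ : Function.Surjective ρ := defaultRho_surjective Q
  have hps : Function.Surjective (proj ρ) := proj_surjective ρ hρ
  have hpc : (proj ρ).ker ≤ center (Cov ρ) := ker_proj_le_center ρ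
  obtain ⟨φ, hφ⟩ := exists_lift ρ σ hσ.1 hσ.2.1
  have hφs := surjective_of_stem (proj ρ) σ φ hφ hps hσ
  have hφ' : ∀ e, σ (φ e) = proj ρ e := fun e => DFunLike.congr_fun hφ e
  have hle : φ.ker ≤ (proj ρ).ker := by
    intro x hx
    have : φ x = 1 := hx
    rw [MonoidHom.mem_ker, ← hφ', this, map_one]
  obtain ⟨T, hT, hT1, hT2⟩ := exists_complement ρ φ.ker hle
  haveI : T.Normal := normal_of_le_center' ((hT.trans hle).trans hpc)
  obtain ⟨h1, h2, ⟨e⟩⟩ := stem_of_complement φ hφs (hle.trans hpc) T hT hT1 hT2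
  have hbot := ker_eq_bot_of_trivial hΓ _ h2
  have hsub : Subsingleton ↥(φ.ker ⊓ commutator (Cov ρ)) := by
    have : Subsingleton (QuotientGroup.lift T φ (fun _ hx => hT hx)).ker := by
      rw [hbot]; infer_instance
    exact e.symm.toEquiv.subsingleton
  obtain ⟨f, hfs, hf⟩ := exists_surj_of_stem (proj ρ) σ φ hφ hps hσ
  have hfi : Function.Injective f := by
    rw [injective_iff_map_eq_one]
    intro x hx
    have h3 : φ x = 1 := by
      rw [← hf, hx]; rfl
    have h4 : (x : Cov ρ) ∈ φ.ker ⊓ commutator (Cov ρ) := ⟨h3, x.2.2⟩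
    have h5 : (⟨x, h4⟩ : ↥(φ.ker ⊓ commutator (Cov ρ))) = 1 := Subsingleton.elim _ _
    have h6 : (x : Cov ρ) = 1 := congrArg Subtype.val h5
    exact Subtype.ext h6
  let E : ↥(Mbar ρ) ≃* σ.ker := MulEquiv.ofBijective f ⟨hfi, hfs⟩
  obtain ⟨g, hg⟩ := exists_surj_Mbar ρ hρ τ hτ
  exact ⟨g.comp E.symm.toMonoidHom, hg.comp E.symm.surjective⟩

end Cfsg.Agent.S3958
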