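import Mathlib
import Cfsg.Statements.S3959
import Cfsg.Agent.Lib.SchurHopf

set_option autoImplicit false
universe u v w
open Cfsg

namespace Cfsg.Agent.S3959

open Subgroup Cfsg.Agent.Lib.SchurHopf
open scoped commutatorElement TensorProduct

section tens

variable {Q₁ : Type u} {Q₂ : Type v} [Group Q₁] [Group Q₂]

/-- The tensor factor of the multiplier. -/
abbrev TT (Q₁ : Type u) (Q₂ : Type v) [Group Q₁] [Group Q₂] : Type (max u v) :=
  Multiplicative (TensorProduct ℤ (Additive (Abelianization Q₁)) (Additive (Abelianization Q₂)))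

/-- Pure tensors. -/
def tens (a : Q₁) (b : Q₂) : TT Q₁ Q₂ :=
  Multiplicative.ofAdd (Additive.ofMul (Abelianization.of a) ⊗ₜ[ℤ] Additive.ofMul (Abelianization.of b))

lemma tens_mul_left (a a' : Q₁) (b : Q₂) : tens (a * a') b = tens a b * tens a' b := by
  unfold tens
  rw [map_mul, ofMul_mul, TensorProduct.add_tmul, ofAdd_add]

lemma tens_mul_right (a : Q₁) (b b' : Q₂) : tens a (b * b') = tens a b * tens a b' := by
  unfold tens
  rw [map_mul, ofMul_mul, TensorProduct.tmul_add, ofAdd_add]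

lemma tens_one_left (b : Q₂) : tens (1 : Q₁) b = 1 := by
  unfold tens
  rw [map_one, ofMul_one, TensorProduct.zero_tmul, ofAdd_zero]

lemma tens_one_right (a : Q₁) : tens a (1 : Q₂) = 1 := by
  unfold tens
  rw [map_one, ofMul_one, TensorProduct.tmul_zero, ofAdd_zero]

/-- Induction on the multiplicative tensor group. -/
lemma tens_induction {P : TT Q₁ Q₂ → Prop} (h1 : P 1) (hp : ∀ a b, P (tens a b))
    (hm : ∀ x y, P x → P y → P (x * y)) (t : TT Q₁ Q₂) : P t := by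
  have key : ∀ s : TensorProduct ℤ (Additive (Abelianization Q₁)) (Additive (Abelianization Q₂)),
      P (Multiplicative.ofAdd s) := by
    intro s
    induction s using TensorProduct.induction_on with
    | zero => exact h1
    | tmul x y =>
      obtain ⟨a, ha⟩ := QuotientGroup.mk'_surjective _ (Additive.toMul x)
      obtain ⟨b, hb⟩ := QuotientGroup.mk'_surjective _ (Additive.toMul y)
      have := hp a b
      have ha' : Additive.ofMul (Abelianization.of a) = x := by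
        apply Additive.toMul.injective; exact ha
      have hb' : Additive.ofMul (Abelianization.of b) = y := by
        apply Additive.toMul.injective; exact hb
      unfold tens at this
      rwa [ha', hb'] at this
    | add x y hx hy =>
      rw [ofAdd_add]
      exact hm _ _ hx hy
  exact key (Multiplicative.toAdd t)

/-- The tensor group is finite. -/
instance finite_TT [Finite Q₁] [Finite Q₂] : Finite (TT Q₁ Q₂) := by
  classical
  have hf1 : Finite (Additive (Abelianization Q₁)) :=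
    inferInstanceAs (Finite (Abelianization Q₁))
  have hf2 : Finite (Additive (Abelianization Q₂)) :=
    inferInstanceAs (Finite (Abelianization Q₂))
  have h1 : Module.Finite ℤ (Additive (Abelianization Q₁)) := Module.Finite.of_finite
  have h2 : Module.Finite ℤ (Additive (Abelianization Q₂)) := Module.Finite.of_finite
  have h3 : Module.Finite ℤ (TensorProduct ℤ (Additive (Abelianization Q₁)) (Additive (Abelianization Q₂))) := by
    have h3' := Module.Finite.tensorProduct ℤ (Additive (Abelianization Q₁)) (Additive (Abelianization Q₂))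
    convert h3'
    · rfl
    · exact Subsingleton.elim (α := Module ℤ _) _ _
  have hn : (Nat.card (Additive (Abelianization Q₁)) : ℤ) ≠ 0 := by
    have : 0 < Nat.card (Additive (Abelianization Q₁)) := Nat.card_pos
    exact_mod_cast this.ne'
  have htors : ∀ s : TensorProduct ℤ (Additive (Abelianization Q₁)) (Additive (Abelianization Q₂)),
      (Nat.card (Additive (Abelianization Q₁)) : ℤ) • s = 0 := by
    intro s
    induction s using TensorProduct.induction_on with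
    | zero => simp
    | tmul x y =>
      rw [TensorProduct.smul_tmul']
      have : (Nat.card (Additive (Abelianization Q₁)) : ℤ) • x = 0 := by
        rw [natCast_zsmul]
        exact card_nsmul_eq_zero'
      rw [this, TensorProduct.zero_tmul]
    | add x y hx hy => rw [smul_add, hx, hy, add_zero]
  have : Finite (TensorProduct ℤ (Additive (Abelianization Q₁)) (Additive (Abelianization Q₂))) := by
    apply Module.finite_of_fg_torsion
    intro s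
    refine ⟨⟨_, mem_nonZeroDivisors_of_ne_zero hn⟩, htors s⟩
  exact inferInstanceAs (Finite (Multiplicative (TensorProduct ℤ _ _)))

end tens

section twist

variable {G₁ G₂ T : Type*} [Group G₁] [Group G₂] [CommGroup T]

/-- The twisted product with the cocycle `β`. -/
@[ext] structure Tw (β : G₂ →* (G₁ →* T)) where
  /-- first coordinate -/
  l : G₁
  /-- second coordinate -/
  r : G₂
  /-- central coordinate -/
  t : T

variable {β : G₂ →* (G₁ →* T)}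

instance : Mul (Tw β) := ⟨fun x y => ⟨x.l * y.l, x.r * y.r, x.t * y.t * β x.r y.l⟩⟩
instance : One (Tw β) := ⟨⟨1, 1, 1⟩⟩
instance : Inv (Tw β) := ⟨fun x => ⟨x.l⁻¹, x.r⁻¹, x.t⁻¹ * β x.r x.l⟩⟩

@[simp] lemma mul_l (x y : Tw β) : (x * y).l = x.l * y.l := rfl
@[simp] lemma mul_r (x y : Tw β) : (x * y).r = x.r * y.r := rfl
@[simp] lemma mul_t (x y : Tw β) : (x * y).t = x.t * y.t * β x.r y.l := rfl
@[simp] lemma one_l : (1 : Tw β).l = 1 := rfl
@[simp] lemma one_r : (1 : Tw β).r = 1 := rfl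
@[simp] lemma one_t : (1 : Tw β).t = 1 := rfl
@[simp] lemma inv_l (x : Tw β) : (x⁻¹).l = x.l⁻¹ := rfl
@[simp] lemma inv_r (x : Tw β) : (x⁻¹).r = x.r⁻¹ := rfl
@[simp] lemma inv_t (x : Tw β) : (x⁻¹).t = x.t⁻¹ * β x.r x.l := rfl

instance : Group (Tw β) :=
  Group.ofLeftAxioms
    (by
      intro x y z
      ext
      · simp [mul_assoc]
      · simp [mul_assoc]
      · simp only [mul_t, mul_l, mul_r, map_mul, MonoidHom.mul_apply]
        simp only [mul_assoc, mul_comm, mul_left_comm])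
    (by
      intro x
      ext <;> simp)
    (by
      intro x
      ext
      · simp
      · simp
      · simp)

/-- First inclusion. -/
def i₁ : G₁ →* Tw β where
  toFun g := ⟨g, 1, 1⟩
  map_one' := rfl
  map_mul' a b := by ext <;> simp

/-- Second inclusion. -/
def i₂ : G₂ →* Tw β where
  toFun g := ⟨1, g, 1⟩
  map_one' := rfl
  map_mul' a b := by ext <;> simp

/-- Central inclusion. -/
def i₃ : T →* Tw β where
  toFun g := ⟨1, 1, g⟩
  map_one' := rfl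
  map_mul' a b := by ext <;> simp

lemma comm_i₂_i₁ (g : G₂) (h : G₁) : ⁅(i₂ g : Tw β), (i₁ h : Tw β)⁆ = i₃ (β g h) := by
  have e : (i₂ g : Tw β) * i₁ h = i₃ (β g h) * (i₁ h * i₂ g) := by
    ext <;> simp [i₁, i₂, i₃]
  rw [commutatorElement_def, e]
  group

lemma eq_prod (x : Tw β) : x = i₁ x.l * i₂ x.r * i₃ x.t := by
  ext <;> simp [i₁, i₂, i₃]

/-- The projection onto `Q₁ × Q₂`. -/
def twMap {Q₁ Q₂ : Type*} [Group Q₁] [Group Q₂] (σ₁ : G₁ →* Q₁) (σ₂ : G₂ →* Q₂) : Tw β →* Q₁ × Q₂ where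
  toFun x := (σ₁ x.l, σ₂ x.r)
  map_one' := by simp
  map_mul' a b := by simp

/-- Equivalence with the product. -/
def twEquiv : Tw β ≃ G₁ × G₂ × T where
  toFun x := (x.l, x.r, x.t)
  invFun x := ⟨x.1, x.2.1, x.2.2⟩
  left_inv _ := rfl
  right_inv _ := rfl

instance [Finite G₁] [Finite G₂] [Finite T] : Finite (Tw β) := Finite.of_equiv _ twEquiv.symm

theorem tw_stem {Q₁ Q₂ : Type*} [Group Q₁] [Group Q₂] (σ₁ : G₁ →* Q₁) (σ₂ : G₂ →* Q₂)
    (h₁ : Cfsg.IsStemExtension σ₁) (h₂ : Cfsg.IsStemExtension σ₂)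
    (hβ₁ : ∀ g h, σ₁ h = 1 → β g h = 1) (hβ₂ : ∀ g h, σ₂ g = 1 → β g h = 1)
    (hgen : ∀ w : T, i₃ w ∈ commutator (Tw β)) :
    Cfsg.IsStemExtension (twMap σ₁ σ₂ : Tw β →* Q₁ × Q₂) ∧
      Nonempty ((twMap σ₁ σ₂ : Tw β →* Q₁ × Q₂).ker ≃* (σ₁.ker × σ₂.ker × T)) := by
  have hk : ∀ x : Tw β, x ∈ (twMap σ₁ σ₂ : Tw β →* Q₁ × Q₂).ker ↔ σ₁ x.l = 1 ∧ σ₂ x.r = 1 := by
    intro x
    rw [MonoidHom.mem_ker]
    show (σ₁ x.l, σ₂ x.r) = (1, 1) ↔ _
    simp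
  refine ⟨⟨?_, ?_, ?_⟩, ?_⟩
  · rintro ⟨a, b⟩
    obtain ⟨x, rfl⟩ := h₁.1 a
    obtain ⟨y, rfl⟩ := h₂.1 b
    exact ⟨⟨x, y, 1⟩, rfl⟩
  · intro x hx
    obtain ⟨h1, h2⟩ := (hk x).mp hx
    rw [mem_center_iff]
    intro y
    have c1 := mem_center_iff.mp (h₁.2.1 h1) y.l
    have c2 := mem_center_iff.mp (h₂.2.1 h2) y.r
    ext
    · simpa using c1
    · simpa using c2
    · simp [hβ₁ _ _ h1, hβ₂ _ _ h2, mul_comm]
  · intro x hx
    obtain ⟨h1, h2⟩ := (hk x).mp hx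
    rw [eq_prod x]
    have hm₁ : ∀ g ∈ commutator G₁, i₁ g ∈ commutator (Tw β) := by
      intro g hg
      have : g ∈ (commutator G₁) := hg
      have h3 := Subgroup.mem_map_of_mem (i₁ : G₁ →* Tw β) this
      have h4 : (commutator G₁).map (i₁ : G₁ →* Tw β) ≤ commutator (Tw β) := by
        rw [commutator_def, commutator_def, map_commutator]
        exact commutator_mono le_top le_top
      exact h4 h3
    have hm₂ : ∀ g ∈ commutator G₂, i₂ g ∈ commutator (Tw β) := by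
      intro g hg
      have h3 := Subgroup.mem_map_of_mem (i₂ : G₂ →* Tw β) hg
      have h4 : (commutator G₂).map (i₂ : G₂ →* Tw β) ≤ commutator (Tw β) := by
        rw [commutator_def, commutator_def, map_commutator]
        exact commutator_mono le_top le_top
      exact h4 h3
    exact mul_mem (mul_mem (hm₁ _ (h₁.2.2 h1)) (hm₂ _ (h₂.2.2 h2))) (hgen _)
  · let F : (twMap σ₁ σ₂ : Tw β →* Q₁ × Q₂).ker →* (σ₁.ker × σ₂.ker × T) :=
      { toFun := fun x => (⟨x.1.l, ((hk x.1).mp x.2).1⟩, ⟨x.1.r, ((hk x.1).mp x.2).2⟩, x.1.t)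
        map_one' := rfl
        map_mul' := by
          rintro ⟨x, hx⟩ ⟨y, hy⟩
          have h2 := ((hk x).mp hx).2
          apply Prod.ext
          · rfl
          · apply Prod.ext
            · rfl
            · show x.t * y.t * β x.r y.l = x.t * y.t
              rw [hβ₂ _ _ h2, mul_one] }
    have hFi : Function.Bijective F := by
      constructor
      · rintro ⟨x, hx⟩ ⟨y, hy⟩ h
        have h1 : x.l = y.l := congrArg (fun z => (z.1 : G₁)) h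
        have h2 : x.r = y.r := congrArg (fun z => (z.2.1 : G₂)) h
        have h3 : x.t = y.t := congrArg (fun z => z.2.2) h
        exact Subtype.ext (Tw.ext h1 h2 h3)
      · rintro ⟨⟨a, ha⟩, ⟨b, hb⟩, c⟩
        exact ⟨⟨⟨a, b, c⟩, (hk _).mpr ⟨ha, hb⟩⟩, rfl⟩
    exact ⟨MulEquiv.ofBijective F hFi⟩

end twist

section existence

variable {Q₁ : Type u} {Q₂ : Type v} [Group Q₁] [Group Q₂]

/-- The cocycle for two stem extensions. -/
def cocycle {Γ₁ Γ₂ : Type*} [Group Γ₁] [Group Γ₂] (σ₁ : Γ₁ →* Q₁) (σ₂ : Γ₂ →* Q₂) :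
    Γ₂ →* (Γ₁ →* TT Q₁ Q₂) where
  toFun g :=
    { toFun := fun h => tens (σ₁ h) (σ₂ g)
      map_one' := by simp [tens_one_left]
      map_mul' := fun a b => by simp [tens_mul_left] }
  map_one' := by
    ext h
    simp [tens_one_right]
  map_mul' a b := by
    ext h
    simp [tens_mul_right]

theorem exists_part {Γ₁ : Type u} {Γ₂ : Type v} [Group Γ₁] [Group Γ₂] [Finite Γ₁] [Finite Γ₂]
    [Finite Q₁] [Finite Q₂]
    (σ₁ : Γ₁ →* Q₁) (σ₂ : Γ₂ →* Q₂) (h₁ : Cfsg.IsStemExtension σ₁) (h₂ : Cfsg.IsStemExtension σ₂) :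
    ∃ (Γ : Type (max u v)) (_ : Group Γ) (_ : Finite Γ) (σ : Γ →* Q₁ × Q₂), Cfsg.IsStemExtension σ ∧
      Nonempty (σ.ker ≃* (σ₁.ker × σ₂.ker × TT Q₁ Q₂)) := by
  let β := cocycle σ₁ σ₂
  have hgen : ∀ w : TT Q₁ Q₂, i₃ w ∈ commutator (Tw β) := by
    intro w
    induction w using tens_induction with
    | h1 => simp
    | hp a b =>
      obtain ⟨h, rfl⟩ := h₁.1 a
      obtain ⟨g, rfl⟩ := h₂.1 b
      have : tens (σ₁ h) (σ₂ g) = β g h := rfl
      rw [this, ← comm_i₂_i₁]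
      exact commutator_mem_commutator (mem_top _) (mem_top _)
    | hm x y hx hy =>
      rw [map_mul]
      exact mul_mem hx hy
  have hβ₁ : ∀ g h, σ₁ h = 1 → β g h = 1 := by
    intro g h hh
    show tens (σ₁ h) (σ₂ g) = 1
    rw [hh, tens_one_left]
  have hβ₂ : ∀ g h, σ₂ g = 1 → β g h = 1 := by
    intro g h hh
    show tens (σ₁ h) (σ₂ g) = 1
    rw [hh, tens_one_right]
  obtain ⟨h3, h4⟩ := tw_stem (β := β) σ₁ σ₂ h₁ h₂ hβ₁ hβ₂ hgen
  exact ⟨Tw β, inferInstance, inferInstance, twMap σ₁ σ₂, h3, h4⟩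

end existence

section tensorLift

variable {Q₁ : Type u} {Q₂ : Type v} [Group Q₁] [Group Q₂]

/-- Bimultiplicative maps factor through the tensor group. -/
theorem tensor_lift {K : Type*} [CommGroup K] (c : Q₁ → Q₂ → K)
    (h1 : ∀ a a' b, c (a * a') b = c a b * c a' b) (h2 : ∀ a b b', c a (b * b') = c a b * c a b') :
    ∃ τ : TT Q₁ Q₂ →* K, ∀ a b, τ (tens a b) = c a b := by
  let ca : Q₁ → (Q₂ →* K) := fun a => MonoidHom.mk' (c a) (h2 a)
  let C : Q₁ →* (Abelianization Q₂ →* K) :=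
    MonoidHom.mk' (fun a => Abelianization.lift (ca a)) (by
      intro a a'
      apply Abelianization.hom_ext
      ext b
      simp [ca, h1])
  let C' : Abelianization Q₁ →* (Abelianization Q₂ →* K) := Abelianization.lift C
  let F : Additive (Abelianization Q₁) →+ Additive (Abelianization Q₂) →+ Additive K :=
    AddMonoidHom.mk' (fun x => MonoidHom.toAdditive (C' (Additive.toMul x))) (by
      intro x y
      ext z
      simp)
  have hF : ∀ a b, F (Additive.ofMul (Abelianization.of a)) (Additive.ofMul (Abelianization.of b))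
      = Additive.ofMul (c a b) := by
    intro a b
    simp [F, C', C, ca]
  have hf : ∀ (r : ℤ) (m : Additive (Abelianization Q₁)) (n : Additive (Abelianization Q₂)),
      F (r • m) n = F m (r • n) := by
    intro r m n
    rw [map_zsmul, map_zsmul, AddMonoidHom.zsmul_apply]
  let τ' := TensorProduct.liftAddHom F hf
  refine ⟨AddMonoidHom.toMultiplicativeLeft τ', ?_⟩
  intro a b
  show Additive.toMul (τ' _) = c a b
  unfold tens
  show Additive.toMul (τ' (Additive.ofMul (Abelianization.of a) ⊗ₜ[ℤ] Additive.ofMul (Abelianization.of b))) = c a b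
  rw [TensorProduct.liftAddHom_tmul, hF]
  rfl

end tensorLift

section surj

/-- Generation of a commutator subgroup. -/
lemma commutator_le_of_gens {Γ : Type*} [Group Γ] (H₁ H₂ N : Subgroup Γ) [N.Normal]
    (hg : ∀ x, ∃ x₁ ∈ H₁, ∃ x₂ ∈ H₂, x = x₁ * x₂)
    (h11 : ∀ x ∈ H₁, ∀ y ∈ H₁, ⁅x, y⁆ ∈ N) (h22 : ∀ x ∈ H₂, ∀ y ∈ H₂, ⁅x, y⁆ ∈ N)
    (h12 : ∀ x ∈ H₁, ∀ y ∈ H₂, ⁅x, y⁆ ∈ N) : commutator Γ ≤ N := by
  let q := QuotientGroup.mk' N
  have hc : ∀ x y : Γ, ⁅x, y⁆ ∈ N → Commute (q x) (q y) := by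
    intro x y h
    have h1 : q ⁅x, y⁆ = 1 := (QuotientGroup.eq_one_iff _).mpr h
    rw [map_commutatorElement] at h1
    exact commutatorElement_eq_one_iff_commute.mp h1
  have h21 : ∀ x ∈ H₂, ∀ y ∈ H₁, Commute (q x) (q y) := by
    intro x hx y hy
    exact (hc _ _ (h12 y hy x hx)).symm
  rw [commutator_def, Subgroup.commutator_le]
  intro x _ y _
  obtain ⟨x₁, hx₁, x₂, hx₂, rfl⟩ := hg x
  obtain ⟨y₁, hy₁, y₂, hy₂, rfl⟩ := hg y
  have h : Commute (q (x₁ * x₂)) (q (y₁ * y₂)) := by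
    rw [map_mul, map_mul]
    exact Commute.mul_left
      (Commute.mul_right (hc _ _ (h11 _ hx₁ _ hy₁)) (hc _ _ (h12 _ hx₁ _ hy₂)))
      (Commute.mul_right (h21 _ hx₂ _ hy₁) (hc _ _ (h22 _ hx₂ _ hy₂)))
  have h3 : q ⁅x₁ * x₂, y₁ * y₂⁆ = 1 := by
    rw [map_commutatorElement]
    exact commutatorElement_eq_one_iff_commute.mpr h
  exact (QuotientGroup.eq_one_iff _).mp h3

/-- The image of the multiplier in a central extension. -/
theorem mult_image {Q : Type u} [Group Q] {A : Type w} [Group A]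
    (eA : A ≃* Mbar (defaultRho Q)) {H : Type*} [Group H] (ξ : H →* Q)
    (hs : Function.Surjective ξ) (hc : ξ.ker ≤ center H) :
    ∃ f : A →* H, (∀ a, f a ∈ ξ.ker) ∧ ∀ x ∈ ξ.ker ⊓ commutator H, ∃ a, f a = x := by
  let ρ := defaultRho Q
  obtain ⟨φ, hφ⟩ := exists_lift ρ ξ hs hc
  have hm := map_ker_inf_commutator (proj ρ) ξ φ hφ (proj_surjective ρ (defaultRho_surjective Q)) hc
  refine ⟨φ.comp ((Mbar ρ).subtype.comp eA.toMonoidHom), ?_, ?_⟩
  · intro a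
    have h1 : φ (eA a).1 ∈ (Mbar ρ).map φ := ⟨_, (eA a).2, rfl⟩
    rw [hm] at h1
    exact h1.1
  · intro x hx
    rw [← hm] at hx
    obtain ⟨m, hm1, rfl⟩ := hx
    refine ⟨eA.symm ⟨m, hm1⟩, ?_⟩
    simp

theorem surj_part {Q₁ : Type u} {Q₂ : Type v} [Group Q₁] [Group Q₂] {A B : Type w} [CommGroup A]
    [CommGroup B] (eA : A ≃* Mbar (defaultRho Q₁)) (eB : B ≃* Mbar (defaultRho Q₂))
    {Γ : Type*} [Group Γ] (σ : Γ →* Q₁ × Q₂) (hσ : Cfsg.IsStemExtension σ) :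
    ∃ π : A × B × TT Q₁ Q₂ →* σ.ker, Function.Surjective π := by
  obtain ⟨hs, hc, hd⟩ := hσ
  let σ₁ : Γ →* Q₁ := (MonoidHom.fst _ _).comp σ
  let σ₂ : Γ →* Q₂ := (MonoidHom.snd _ _).comp σ
  have hker : ∀ x, x ∈ σ.ker ↔ σ₁ x = 1 ∧ σ₂ x = 1 := by
    intro x
    rw [MonoidHom.mem_ker, Prod.ext_iff]
    rfl
  let Γ₁ : Subgroup Γ := σ₂.ker
  let Γ₂ : Subgroup Γ := σ₁.ker
  choose s₁ hs₁ using fun a : Q₁ => hs (a, 1)
  choose s₂ hs₂ using fun b : Q₂ => hs (1, b)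
  have hs₁₁ : ∀ a, σ₁ (s₁ a) = a := fun a => by simp [σ₁, hs₁]
  have hs₁₂ : ∀ a, σ₂ (s₁ a) = 1 := fun a => by simp [σ₂, hs₁]
  have hs₂₁ : ∀ a, σ₁ (s₂ a) = 1 := fun a => by simp [σ₁, hs₂]
  have hs₂₂ : ∀ a, σ₂ (s₂ a) = a := fun a => by simp [σ₂, hs₂]
  -- the two restricted extensions
  let ξ₁ : Γ₁ →* Q₁ := σ₁.comp Γ₁.subtype
  let ξ₂ : Γ₂ →* Q₂ := σ₂.comp Γ₂.subtype
  have hξ₁s : Function.Surjective ξ₁ := fun a => ⟨⟨s₁ a, hs₁₂ a⟩, hs₁₁ a⟩
  have hξ₂s : Function.Surjective ξ₂ := fun a => ⟨⟨s₂ a, hs₂₁ a⟩, hs₂₂ a⟩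
  have hξ₁c : ξ₁.ker ≤ center Γ₁ := by
    rintro ⟨x, hx⟩ hk
    have : x ∈ σ.ker := (hker x).mpr ⟨hk, hx⟩
    rw [mem_center_iff]
    rintro ⟨y, hy⟩
    exact Subtype.ext (mem_center_iff.mp (hc this) y)
  have hξ₂c : ξ₂.ker ≤ center Γ₂ := by
    rintro ⟨x, hx⟩ hk
    have : x ∈ σ.ker := (hker x).mpr ⟨hx, hk⟩
    rw [mem_center_iff]
    rintro ⟨y, hy⟩
    exact Subtype.ext (mem_center_iff.mp (hc this) y)
  obtain ⟨f₁, hf₁, hf₁'⟩ := mult_image eA ξ₁ hξ₁s hξ₁c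
  obtain ⟨f₂, hf₂, hf₂'⟩ := mult_image eB ξ₂ hξ₂s hξ₂c
  letI : CommGroup σ.ker :=
    { (inferInstance : Group σ.ker) with
      mul_comm := fun a b => Subtype.ext (mem_center_iff.mp (hc b.2) a.1) }
  have hmem₁ : ∀ a, ((f₁ a : Γ₁) : Γ) ∈ σ.ker := fun a => (hker _).mpr ⟨hf₁ a, (f₁ a).2⟩
  have hmem₂ : ∀ a, ((f₂ a : Γ₂) : Γ) ∈ σ.ker := fun a => (hker _).mpr ⟨(f₂ a).2, hf₂ a⟩
  let F₁ : A →* σ.ker := (Γ₁.subtype.comp f₁).codRestrict σ.ker hmem₁
  let F₂ : B →* σ.ker := (Γ₂.subtype.comp f₂).codRestrict σ.ker hmem₂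
  -- the commutator pairing
  have hcomm : ∀ x ∈ Γ₁, ∀ y ∈ Γ₂, ⁅x, y⁆ ∈ σ.ker := by
    intro x hx y hy
    rw [hker, map_commutatorElement, map_commutatorElement]
    have h1 : σ₁ y = 1 := hy
    have h2 : σ₂ x = 1 := hx
    rw [h1, h2]
    simp
  let c : Q₁ → Q₂ → σ.ker := fun a b => ⟨⁅s₁ a, s₂ b⁆, hcomm _ (hs₁₂ a) _ (hs₂₁ b)⟩
  have hcentral : ∀ z, z ∈ σ.ker → ∀ g, g * z = z * g := fun z hz g => mem_center_iff.mp (hc hz) g
  -- general commutator identities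
  have hmulleft : ∀ x x' y : Γ, ⁅x', y⁆ ∈ σ.ker → ⁅x, y⁆ ∈ σ.ker → ⁅x * x', y⁆ = ⁅x, y⁆ * ⁅x', y⁆ := by
    intro x x' y h1 h2
    have e : ⁅x * x', y⁆ = x * ⁅x', y⁆ * x⁻¹ * ⁅x, y⁆ := by
      simp only [commutatorElement_def]; group
    rw [e, hcentral _ h1 x]
    have : ⁅x', y⁆ * x * x⁻¹ * ⁅x, y⁆ = ⁅x', y⁆ * ⁅x, y⁆ := by group
    rw [this]
    exact (hcentral _ h2 _)
  have hmulright : ∀ x y y' : Γ, ⁅x, y⁆ ∈ σ.ker → ⁅x, y'⁆ ∈ σ.ker → ⁅x, y * y'⁆ = ⁅x, y⁆ * ⁅x, y'⁆ := by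
    intro x y y' h1 h2
    have e : ⁅x, y * y'⁆ = ⁅x, y⁆ * (y * ⁅x, y'⁆ * y⁻¹) := by
      simp only [commutatorElement_def]; group
    rw [e, hcentral _ h2 y]
    have : ⁅x, y'⁆ * y * y⁻¹ = ⁅x, y'⁆ := by group
    rw [this]
  have hsk₁ : ∀ x ∈ Γ₁, ∃ z ∈ σ.ker, x = s₁ (σ₁ x) * z := by
    intro x hx
    refine ⟨(s₁ (σ₁ x))⁻¹ * x, ?_, by group⟩
    rw [hker]
    have hx' : σ₂ x = 1 := hx
    simp [hs₁₁, hs₁₂, hx']
  have hsk₂ : ∀ x ∈ Γ₂, ∃ z ∈ σ.ker, x = s₂ (σ₂ x) * z := by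
    intro x hx
    refine ⟨(s₂ (σ₂ x))⁻¹ * x, ?_, by group⟩
    rw [hker]
    have hx' : σ₁ x = 1 := hx
    simp [hs₂₁, hs₂₂, hx']
  have hc1 : ∀ a a' b, c (a * a') b = c a b * c a' b := by
    intro a a' b
    apply Subtype.ext
    show ⁅s₁ (a * a'), s₂ b⁆ = ⁅s₁ a, s₂ b⁆ * ⁅s₁ a', s₂ b⁆
    have hm : s₁ a * s₁ a' ∈ Γ₁ := mul_mem (hs₁₂ a) (hs₁₂ a')
    obtain ⟨z, hz, hze⟩ := hsk₁ _ (show s₁ (a * a') ∈ Γ₁ from hs₁₂ _)
    have e1 : σ₁ (s₁ (a * a')) = a * a' := hs₁₁ _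
    have h3 : s₁ (a * a') = s₁ a * s₁ a' * ((s₁ a * s₁ a')⁻¹ * s₁ (a * a')) := by group
    have hz' : (s₁ a * s₁ a')⁻¹ * s₁ (a * a') ∈ σ.ker := by
      rw [hker]
      simp [hs₁₁, hs₁₂]
    rw [h3]
    have h4 := commutatorElement_mul_central (s₁ a * s₁ a') (s₂ b) _ 1 (hc hz') (one_mem _)
    rw [mul_one] at h4
    rw [h4]
    exact hmulleft _ _ _ (hcomm _ (hs₁₂ a') _ (hs₂₁ b)) (hcomm _ (hs₁₂ a) _ (hs₂₁ b))
  have hc2 : ∀ a b b', c a (b * b') = c a b * c a b' := by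
    intro a b b'
    apply Subtype.ext
    show ⁅s₁ a, s₂ (b * b')⁆ = ⁅s₁ a, s₂ b⁆ * ⁅s₁ a, s₂ b'⁆
    have h3 : s₂ (b * b') = s₂ b * s₂ b' * ((s₂ b * s₂ b')⁻¹ * s₂ (b * b')) := by group
    have hz' : (s₂ b * s₂ b')⁻¹ * s₂ (b * b') ∈ σ.ker := by
      rw [hker]
      simp [hs₂₁, hs₂₂]
    rw [h3]
    have h4 := commutatorElement_mul_central (s₁ a) (s₂ b * s₂ b') 1 _ (one_mem _) (hc hz')
    rw [mul_one] at h4
    rw [h4]
    exact hmulright _ _ _ (hcomm _ (hs₁₂ a) _ (hs₂₁ b)) (hcomm _ (hs₁₂ a) _ (hs₂₁ b'))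
  obtain ⟨τ, hτ⟩ := tensor_lift c hc1 hc2
  -- generation
  let C : Subgroup Γ := (τ.range).map σ.ker.subtype
  have hCle : C ≤ center Γ := by
    rintro _ ⟨y, _, rfl⟩
    exact hc y.2
  haveI hCn : C.Normal := normal_of_le_center' hCle
  haveI hΓ₁n : Γ₁.Normal := MonoidHom.normal_ker _
  haveI hΓ₂n : Γ₂.Normal := MonoidHom.normal_ker _
  let N₂ : Subgroup Γ := ⁅Γ₂, Γ₂⁆ ⊔ C
  let N : Subgroup Γ := ⁅Γ₁, Γ₁⁆ ⊔ N₂
  haveI : N₂.Normal := Subgroup.sup_normal _ _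
  haveI : N.Normal := Subgroup.sup_normal _ _
  have hle : commutator Γ ≤ N := by
    apply commutator_le_of_gens Γ₁ Γ₂ N
    · intro x
      refine ⟨s₁ (σ₁ x), hs₁₂ _, (s₁ (σ₁ x))⁻¹ * x, ?_, by group⟩
      show σ₁ _ = 1
      simp [hs₁₁]
    · intro x hx y hy
      exact (le_sup_left : ⁅Γ₁, Γ₁⁆ ≤ N) (commutator_mem_commutator hx hy)
    · intro x hx y hy
      exact (le_sup_right : N₂ ≤ N) ((le_sup_left : ⁅Γ₂, Γ₂⁆ ≤ N₂) (commutator_mem_commutator hx hy))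
    · intro x hx y hy
      refine (le_sup_right : N₂ ≤ N) ((le_sup_right : C ≤ N₂) ?_)
      obtain ⟨z, hz, hzx⟩ := hsk₁ x hx
      obtain ⟨w, hw, hwy⟩ := hsk₂ y hy
      rw [hzx, hwy, commutatorElement_mul_central _ _ _ _ (hc hz) (hc hw)]
      exact ⟨c (σ₁ x) (σ₂ y), ⟨tens _ _, hτ _ _⟩, rfl⟩
  refine ⟨(F₁.coprod (F₂.coprod τ)), ?_⟩
  rintro ⟨k, hk⟩
  have hk1 := hle (hd hk)
  obtain ⟨c₁, hc₁, y, hy, hky⟩ := Subgroup.mem_sup_of_normal_right.mp hk1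
  obtain ⟨c₂, hc₂, d, hd', hyd⟩ := Subgroup.mem_sup_of_normal_right.mp hy
  obtain ⟨u, ⟨t, rfl⟩, hud⟩ := hd'
  have hdker : d ∈ σ.ker := by
    rw [← hud]; exact (τ t).2
  have hc₁Γ : c₁ ∈ Γ₁ := (Subgroup.commutator_le_left _ _) hc₁
  have hc₂Γ : c₂ ∈ Γ₂ := (Subgroup.commutator_le_left _ _) hc₂
  have hk' := (hker k).mp hk
  have hd'' := (hker d).mp hdker
  have hke : k = c₁ * (c₂ * d) := by rw [hyd, hky]
  have hc₁1 : σ₁ c₁ = 1 := by
    have h1 := hk'.1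
    have hc₂' : σ₁ c₂ = 1 := hc₂Γ
    rw [hke, map_mul, map_mul, hc₂', hd''.1] at h1
    simpa using h1
  have hc₂2 : σ₂ c₂ = 1 := by
    have h1 := hk'.2
    have hc₁' : σ₂ c₁ = 1 := hc₁Γ
    rw [hke, map_mul, map_mul, hc₁', hd''.2] at h1
    simpa using h1
  -- preimages in the commutator subgroups of the restricted groups
  have hx₁ : ∃ x : Γ₁, x ∈ ξ₁.ker ⊓ commutator Γ₁ ∧ (x : Γ) = c₁ := by
    rw [← Subgroup.map_subtype_commutator] at hc₁
    obtain ⟨x, hx, hxc⟩ := hc₁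
    have hxc' : (x : Γ) = c₁ := hxc
    refine ⟨x, ⟨?_, hx⟩, hxc'⟩
    show σ₁ (x : Γ) = 1
    rw [hxc', hc₁1]
  have hx₂ : ∃ x : Γ₂, x ∈ ξ₂.ker ⊓ commutator Γ₂ ∧ (x : Γ) = c₂ := by
    rw [← Subgroup.map_subtype_commutator] at hc₂
    obtain ⟨x, hx, hxc⟩ := hc₂
    have hxc' : (x : Γ) = c₂ := hxc
    refine ⟨x, ⟨?_, hx⟩, hxc'⟩
    show σ₂ (x : Γ) = 1
    rw [hxc', hc₂2]
  obtain ⟨x₁, hx₁, hxe₁⟩ := hx₁
  obtain ⟨x₂, hx₂, hxe₂⟩ := hx₂
  obtain ⟨a, ha⟩ := hf₁' x₁ hx₁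
  obtain ⟨b, hb⟩ := hf₂' x₂ hx₂
  refine ⟨(a, b, t), ?_⟩
  apply Subtype.ext
  show ((f₁ a : Γ₁) : Γ) * (((f₂ b : Γ₂) : Γ) * ((τ t : σ.ker) : Γ)) = k
  rw [ha, hb, hxe₁, hxe₂, hke]
  have : ((τ t : σ.ker) : Γ) = d := hud
  rw [this]

end surj

/-- Let `Q₁` and `Q₂` be finite groups with Schur multipliers `A` and `B`. Then the Schur multiplier of `Q₁ × Q₂` is isomorphic to `A × B × (Q₁ᵃᵇ ⊗ Q₂ᵃᵇ)`, the last factor being the tensor product over the integers of the commutator quotients, written multiplicatively. -/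
theorem result {Q₁ : Type u} {Q₂ : Type v} [Group Q₁] [Group Q₂] [Finite Q₁] [Finite Q₂] {A B : Type w} [CommGroup A] [CommGroup B] (hA : Cfsg.HasSchurMultiplier Q₁ A) (hB : Cfsg.HasSchurMultiplier Q₂ B) : Cfsg.HasSchurMultiplier (Q₁ × Q₂) (A × B × Multiplicative (TensorProduct ℤ (Additive (Abelianization Q₁)) (Additive (Abelianization Q₂)))) := by
  obtain ⟨eA⟩ := (hasSchurMultiplier_iff (defaultRho Q₁) (defaultRho_surjective Q₁)).mp hA
  obtain ⟨eB⟩ := (hasSchurMultiplier_iff (defaultRho Q₂) (defaultRho_surjective Q₂)).mp hB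
  constructor
  · obtain ⟨⟨Γ₁, i₁, i₂, σ₁, hσ₁, ⟨e₁⟩⟩, -⟩ := hA
    obtain ⟨⟨Γ₂, i₃, i₄, σ₂, hσ₂, ⟨e₂⟩⟩, -⟩ := hB
    obtain ⟨Γ, g, f, σ, hσ, ⟨e⟩⟩ := exists_part σ₁ σ₂ hσ₁ hσ₂
    exact ⟨Γ, g, f, σ, hσ, ⟨e.trans (e₁.prodCongr (e₂.prodCongr (MulEquiv.refl _)))⟩⟩
  · intro Γ _ _ σ hσ
    exact surj_part eA eB σ hσ

end Cfsg.Agent.S3959
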