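import Mathlib
import Cfsg.Statements.S3960
import Cfsg.Agent.Lib.SchurHopf

set_option autoImplicit false
universe u
open Cfsg

namespace Cfsg.Agent.S3960

open Subgroup Cfsg.Agent.Lib.SchurHopf

/-- A finite perfect group `Q` has a universal central extension: a finite perfect group `G` in the universe of `Q` and a surjective homomorphism `π : G →* Q` with central kernel such that for every group `X` in that universe and every surjective homomorphism `ξ : X →* Q` with central kernel there is exactly one homomorphism `η : G →* X` with `ξ ∘ η = π`. -/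
theorem result {Q : Type u} [Group Q] [Finite Q] (hQ : Group.IsPerfect Q) : ∃ (G : Type u) (_ : Group G) (_ : Finite G) (π : G →* Q), Group.IsPerfect G ∧ Function.Surjective π ∧ π.ker ≤ Subgroup.center G ∧ ∀ (X : Type u) [Group X] (ξ : X →* Q), Function.Surjective ξ → ξ.ker ≤ Subgroup.center X → ∃! η : G →* X, ξ.comp η = π := by
  let ρ := defaultRho Q
  have hρ : Function.Surjective ρ := defaultRho_surjective Q
  have hps : Function.Surjective (proj ρ) := proj_surjective ρ hρ
  have hpc : (proj ρ).ker ≤ center (Cov ρ) := ker_proj_le_center ρ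
  have hperf : Group.IsPerfect (commutator (Cov ρ)) := isPerfect_commutator_of_central hQ (proj ρ) hps hpc
  refine ⟨commutator (Cov ρ), inferInstance, inferInstance, (proj ρ).comp (commutator (Cov ρ)).subtype,
    hperf, ?_, ?_, ?_⟩
  · intro q
    have : q ∈ (commutator (Cov ρ)).map (proj ρ) := by
      rw [perfect_of_central_quotient hQ (proj ρ) hps hpc]; trivial
    obtain ⟨c, hc, rfl⟩ := this
    exact ⟨⟨c, hc⟩, rfl⟩
  · rintro ⟨c, hc⟩ hk
    have : c ∈ (proj ρ).ker := hk
    rw [mem_center_iff]
    rintro ⟨d, hd⟩
    exact Subtype.ext (mem_center_iff.mp (hpc this) d)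
  · intro X _ ξ hξs hξ
    obtain ⟨φ, hφ⟩ := exists_lift ρ ξ hξs hξ
    refine ⟨φ.comp (commutator (Cov ρ)).subtype, ?_, ?_⟩
    · show ξ.comp (φ.comp _) = _
      rw [← MonoidHom.comp_assoc, hφ]
    · intro η hη
      apply perfect_lift_unique hperf ξ hξ
      rw [hη, ← MonoidHom.comp_assoc, hφ]

end Cfsg.Agent.S3960
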