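import Mathlib
import Cfsg.Statements.S3961
import Cfsg.Agent.Lib.SchurHopf
import Cfsg.Agent.Lib.SchurBasic

set_option autoImplicit false
universe u v
open Cfsg

namespace Cfsg.Agent.S3961

open Subgroup Cfsg.Agent.Lib.SchurHopf
open scoped commutatorElement

theorem forward {G : Type u} {Q : Type v} [Group G] [Group Q] [Finite G] (hG : Group.IsPerfect G)
    (π : G →* Q) (hπ : Function.Surjective π) (hker : π.ker ≤ Subgroup.center G)
    (H : ∀ (X : Type u) [Group X] (ξ : X →* Q), Function.Surjective ξ → ξ.ker ≤ Subgroup.center X →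
      ∃ η : G →* X, ξ.comp η = π) : Cfsg.HasCyclicSchurMultiplier G 1 := by
  apply Cfsg.Agent.Lib.SchurBasic.hasCyclicSchurMultiplier_one
  intro Γ _ _ σ hσ
  obtain ⟨hσs, hσc, hσd⟩ := hσ
  -- Γ perfect
  have hΓ : Group.IsPerfect Γ := by
    rw [Group.isPerfect_def, eq_top_iff]
    intro x _
    have h1 : σ x ∈ (commutator Γ).map σ := by
      rw [perfect_of_central_quotient hG σ hσs hσc]; trivial
    obtain ⟨c, hc, hcx⟩ := h1
    have h2 : c⁻¹ * x ∈ σ.ker := by simp [MonoidHom.mem_ker, hcx]
    have h3 := mul_mem hc (hσd h2)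
    simpa using h3
  -- the composite is a central extension
  have hcomp : (π.comp σ).ker ≤ center Γ := by
    intro y hy
    have hy' : σ y ∈ π.ker := hy
    have hcent : ∀ x : Γ, ⁅x, y⁆ ∈ center Γ := by
      intro x
      apply hσc
      rw [MonoidHom.mem_ker, map_commutatorElement, commutatorElement_eq_one_iff_mul_comm]
      exact (mem_center_iff.mp (hker hy') _)
    let c : Γ →* Γ :=
      { toFun := fun x => ⁅x, y⁆
        map_one' := by simp
        map_mul' := by
          intro a b
          simp only [commutatorElement_def]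
          have h1 := mem_center_iff.mp (hcent b) a
          simp only [commutatorElement_def] at h1
          calc a * b * y * (a * b)⁻¹ * y⁻¹
              = a * (b * y * b⁻¹ * y⁻¹) * (y * a⁻¹ * y⁻¹) := by group
            _ = (b * y * b⁻¹ * y⁻¹) * a * (y * a⁻¹ * y⁻¹) := by rw [h1]
            _ = (b * y * b⁻¹ * y⁻¹) * (a * y * a⁻¹ * y⁻¹) := by group
            _ = (a * y * a⁻¹ * y⁻¹) * (b * y * b⁻¹ * y⁻¹) :=
                (mem_center_iff.mp (hcent a) _) }
    have hc1 : ∀ x, c x = 1 := perfect_hom_eq_one hΓ c (fun a b => (mem_center_iff.mp (hcent b) _))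
    rw [mem_center_iff]
    intro x
    have := hc1 x
    exact commutatorElement_eq_one_iff_mul_comm.mp this
  obtain ⟨η, hη⟩ := H Γ (π.comp σ) (hπ.comp hσs) hcomp
  have hση : σ.comp η = MonoidHom.id G := by
    apply perfect_lift_unique hG π hker
    rw [← MonoidHom.comp_assoc, hη]
    rfl
  have hση' : ∀ g, σ (η g) = g := fun g => DFunLike.congr_fun hση g
  have hmap : (commutator G).map η = commutator Γ := by
    apply map_commutator_eq_of_central
    intro x
    refine ⟨σ x, (η (σ x))⁻¹ * x, hσc ?_, by group⟩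
    simp [MonoidHom.mem_ker, hση']
  rw [eq_bot_iff]
  intro x hx
  have h1 : x ∈ (commutator G).map η := by
    rw [hmap, hΓ.commutator_eq_top]; trivial
  obtain ⟨g, _, rfl⟩ := h1
  have h2 : σ (η g) = 1 := hx
  rw [hση'] at h2
  simp [h2]

theorem backward {G : Type u} {Q : Type v} [Group G] [Group Q] [Finite G] (hG : Group.IsPerfect G)
    (π : G →* Q) (h : Cfsg.HasCyclicSchurMultiplier G 1)
    (X : Type u) [Group X] (ξ : X →* Q) (hξs : Function.Surjective ξ) (hξ : ξ.ker ≤ Subgroup.center X) :
    ∃ η : G →* X, ξ.comp η = π := by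
  let P : Subgroup (G × X) :=
    { carrier := {p | π p.1 = ξ p.2}
      one_mem' := by simp
      mul_mem' := by
        intro a b ha hb
        simp only [Set.mem_ofPred_eq] at ha hb ⊢
        simp [ha, hb]
      inv_mem' := by
        intro a ha
        simp only [Set.mem_ofPred_eq] at ha ⊢
        simp [ha] }
  let p₁ : P →* G := (MonoidHom.fst G X).comp P.subtype
  let p₂ : P →* X := (MonoidHom.snd G X).comp P.subtype
  have hP : ∀ p : P, π (p₁ p) = ξ (p₂ p) := fun p => p.2
  have hp₁s : Function.Surjective p₁ := by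
    intro g
    obtain ⟨x, hx⟩ := hξs (π g)
    exact ⟨⟨(g, x), hx.symm⟩, rfl⟩
  have hp₁c : p₁.ker ≤ center P := by
    rintro ⟨⟨g, x⟩, hp⟩ hk
    have hg : g = 1 := hk
    subst hg
    have hx : x ∈ ξ.ker := by
      have : π 1 = ξ x := hp
      rw [MonoidHom.mem_ker, ← this, map_one]
    rw [mem_center_iff]
    rintro ⟨⟨g', x'⟩, hp'⟩
    apply Subtype.ext
    apply Prod.ext
    · simp
    · exact mem_center_iff.mp (hξ hx) x'
  let C := commutator P
  haveI hFin : Finite C := finite_commutator p₁ hp₁c
  let q : C →* G := p₁.comp C.subtype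
  have hqs : Function.Surjective q := by
    intro g
    have : g ∈ C.map p₁ := by
      rw [perfect_of_central_quotient hG p₁ hp₁s hp₁c]; trivial
    obtain ⟨c, hc, rfl⟩ := this
    exact ⟨⟨c, hc⟩, rfl⟩
  have hqc : q.ker ≤ center C := by
    rintro ⟨c, hc⟩ hk
    have : c ∈ p₁.ker := hk
    rw [mem_center_iff]
    rintro ⟨d, hd⟩
    exact Subtype.ext (mem_center_iff.mp (hp₁c this) d)
  have hperf : Group.IsPerfect C := isPerfect_commutator_of_central hG p₁ hp₁s hp₁c
  have hstem : Cfsg.IsStemExtension q := ⟨hqs, hqc, by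
    rw [hperf.commutator_eq_top]; exact le_top⟩
  obtain ⟨f, hf⟩ := h.2 C q hstem
  have hqi : Function.Injective q := by
    rw [injective_iff_map_eq_one]
    intro a ha
    obtain ⟨z, hz⟩ := hf ⟨a, ha⟩
    have hz1 : z = 1 := Subsingleton.elim (α := Multiplicative (ZMod 1)) _ _
    rw [hz1, map_one] at hz
    exact (congrArg Subtype.val hz).symm
  let e : C ≃* G := MulEquiv.ofBijective q ⟨hqi, hqs⟩
  refine ⟨(p₂.comp C.subtype).comp e.symm.toMonoidHom, ?_⟩
  ext g
  simp only [MonoidHom.comp_apply]
  have h1 := hP (C.subtype (e.symm g))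
  show ξ (p₂ (C.subtype (e.symm g))) = π g
  rw [← h1]
  congr 1
  exact e.apply_symm_apply g

/-- Let `π : G →* Q` be a surjective homomorphism with central kernel from a finite perfect group `G` (a perfect cover of `Q`). Then `π` is universal, in the sense that every surjective homomorphism `ξ : X →* Q` with central kernel from a group `X` in the universe of `G` admits a homomorphism `η : G →* X` with `ξ ∘ η = π`, if and only if `G` has trivial Schur multiplier. -/
theorem result {G : Type u} {Q : Type v} [Group G] [Group Q] [Finite G] (hG : Group.IsPerfect G) (π : G →* Q) (hπ : Function.Surjective π) (hker : π.ker ≤ Subgroup.center G) : (∀ (X : Type u) [Group X] (ξ : X →* Q), Function.Surjective ξ → ξ.ker ≤ Subgroup.center X → ∃ η : G →* X, ξ.comp η = π) ↔ Cfsg.HasCyclicSchurMultiplier G 1 :=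
  ⟨forward hG π hπ hker, fun h X _ ξ hξs hξ => backward hG π h X ξ hξs hξ⟩

end Cfsg.Agent.S3961
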