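import Mathlib
import Cfsg.Statements.S3962

set_option autoImplicit false
open Cfsg
open scoped commutatorElement

namespace Cfsg.Agent.S3962

/-- Let `G` be a perfect group and `π : G →* Q` a surjective homomorphism whose kernel is central. Then `π` maps the centre of `G` onto the centre of `Q`. Taking `π` to be the map to `G ⧸ Z(G)` shows that the central quotient of a perfect group has trivial centre. -/
theorem result {G Q : Type*} [Group G] [Group Q] (hG : Group.IsPerfect G) (π : G →* Q) (hπ : Function.Surjective π) (hker : π.ker ≤ Subgroup.center G) : (Subgroup.center G).map π = Subgroup.center Q := by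
  apply le_antisymm
  · rintro _ ⟨z, hz, rfl⟩
    have hz' : z ∈ Subgroup.center G := hz
    rw [Subgroup.mem_center_iff] at hz' ⊢
    intro q
    obtain ⟨g, rfl⟩ := hπ q
    rw [← map_mul, ← map_mul, hz']
  · intro q hq
    obtain ⟨g, rfl⟩ := hπ q
    refine ⟨g, ?_, rfl⟩
    -- the commutator with g is central, so h ↦ g h g⁻¹ h⁻¹ is a hom to the centre
    have hcomm : ∀ h : G, g * h * g⁻¹ * h⁻¹ ∈ Subgroup.center G := by
      intro h
      apply hker
      rw [MonoidHom.mem_ker, map_mul, map_mul, map_mul, map_inv, map_inv]
      have := (Subgroup.mem_center_iff.mp hq) (π h)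
      rw [← this]
      group
    let f : G →* Subgroup.center G :=
      { toFun := fun h => ⟨g * h * g⁻¹ * h⁻¹, hcomm h⟩
        map_one' := by ext; simp
        map_mul' := by
          intro a b
          ext
          have hz := Subgroup.mem_center_iff.mp (hcomm b)
          simp only [Subgroup.coe_mul]
          have : g * (a * b) * g⁻¹ * (a * b)⁻¹ = g * a * g⁻¹ * (g * b * g⁻¹ * b⁻¹) * a⁻¹ := by group
          rw [this, mul_assoc (g * a * g⁻¹), ← hz (a⁻¹)]
          group }
    have hker_f : commutator G ≤ f.ker := by
      rw [commutator_def, Subgroup.commutator_le]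
      intro a _ b _
      rw [MonoidHom.mem_ker, map_commutatorElement]
      apply commutatorElement_eq_one_iff_mul_comm.mpr
      apply Subtype.ext
      exact (Subgroup.mem_center_iff.mp (f a).2 (f b : G)).symm
    show g ∈ Subgroup.center G
    rw [Subgroup.mem_center_iff]
    intro h
    have h1 : f h = 1 := by
      apply hker_f
      rw [hG.commutator_eq_top]; trivial
    have h2 : g * h * g⁻¹ * h⁻¹ = 1 := by simpa [f, Subtype.ext_iff] using h1
    have h3 : g * h = h * g := by
      have := mul_eq_one_iff_eq_inv.mp h2
      rw [mul_inv_eq_iff_eq_mul, inv_inv] at this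
      exact this
    exact h3.symm

end Cfsg.Agent.S3962
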