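import Mathlib
import Cfsg.Statements.S3963
import Cfsg.Agent.Lib.SchurBasic

set_option autoImplicit false
open Cfsg

namespace Cfsg.Agent.S3963

open Cfsg.Agent.Lib.SchurBasic

/-- For every `n ≥ 1` the dicyclic (generalized quaternion) group of order `4 n` has trivial Schur multiplier. -/
theorem result (n : ℕ) [NeZero n] : Cfsg.HasCyclicSchurMultiplier (QuaternionGroup n) 1 := by
  apply hasCyclicSchurMultiplier_one
  intro Γ _ _ σ hσ
  obtain ⟨hsurj, hcen, hcomm⟩ := hσ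
  obtain ⟨a, ha⟩ := hsurj (QuaternionGroup.a 1)
  obtain ⟨x, hx⟩ := hsurj (QuaternionGroup.xa 0)
  have hinvx : ((QuaternionGroup.xa 0 : QuaternionGroup n))⁻¹ = QuaternionGroup.xa ((n : ZMod (2 * n)) + 0) := rfl
  have hinva : ((QuaternionGroup.a 1 : QuaternionGroup n))⁻¹ = QuaternionGroup.a (-1) := rfl
  have h2n : ((n : ZMod (2 * n)) + n) = 0 := by
    rw [← Nat.cast_add, ← two_mul]
    exact ZMod.natCast_self _
  let k₁ := a * x * a * x⁻¹
  have hk₁ : k₁ ∈ σ.ker := by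
    rw [MonoidHom.mem_ker]
    simp only [k₁, map_mul, map_inv, ha, hx, hinvx]
    simp only [QuaternionGroup.a_mul_xa, QuaternionGroup.xa_mul_a, QuaternionGroup.xa_mul_xa]
    rw [QuaternionGroup.one_def]
    congr 1
    linear_combination h2n
  have hrel : x * a * x⁻¹ = a⁻¹ * k₁ := by
    simp only [k₁]; group
  have hgen : ∀ g : Γ, ∃ (e i : ℕ) (k : Γ), k ∈ σ.ker ∧ g = x ^ e * a ^ i * k := by
    intro g
    rcases hσg : σ g with i | i
    · refine ⟨0, ZMod.val i, (a ^ ZMod.val i)⁻¹ * g, ?_, by group⟩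
      rw [MonoidHom.mem_ker, map_mul, map_inv, map_pow, ha, QuaternionGroup.a_one_pow, hσg,
        ZMod.natCast_zmod_val, inv_mul_cancel]
    · refine ⟨1, ZMod.val i, (x * a ^ ZMod.val i)⁻¹ * g, ?_, by group⟩
      rw [MonoidHom.mem_ker, map_mul, map_inv, map_mul, map_pow, ha, hx, QuaternionGroup.a_one_pow, hσg,
        ZMod.natCast_zmod_val, QuaternionGroup.xa_mul_a, zero_add, inv_mul_cancel]
  obtain ⟨hle, hxu⟩ := commutator_le_zpowers σ.ker hcen a x k₁ hk₁ hrel hgen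
  set u := a * a * k₁⁻¹ with hu
  have hKu : σ.ker ≤ Subgroup.zpowers u := hcomm.trans hle
  have hsq := sq_eq_one_of_inverted σ.ker hcen u x hxu hKu
  have hcentral : ∀ k ∈ σ.ker, ∀ g : Γ, g * k = k * g := fun k hk g =>
    (Subgroup.mem_center_iff.mp (hcen hk)) g
  -- the extra relation
  let k₂ := (a ^ n)⁻¹ * (x * x)
  have hk₂ : k₂ ∈ σ.ker := by
    rw [MonoidHom.mem_ker]
    simp only [k₂, map_mul, map_inv, map_pow, ha, hx, QuaternionGroup.a_one_pow,
      QuaternionGroup.xa_mul_xa]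
    simp
  have hxx : x * x = a ^ n * k₂ := by simp only [k₂]; group
  have hcomm_k₁a : Commute a⁻¹ k₁ := hcentral k₁ hk₁ a⁻¹
  have h2a : a ^ n * a ^ n = k₁ ^ n := by
    have h1 : x * (x * x) * x⁻¹ = x * x := by group
    rw [hxx] at h1
    have h3 : x * (a ^ n * k₂) * x⁻¹ = (x * a * x⁻¹) ^ n * k₂ := by
      have e : x * k₂ * x⁻¹ = k₂ := by
        rw [hcentral k₂ hk₂ x]; group
      calc x * (a ^ n * k₂) * x⁻¹ = (x * a ^ n * x⁻¹) * (x * k₂ * x⁻¹) := by group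
        _ = (x * a * x⁻¹) ^ n * k₂ := by rw [conj_pow, e]
    rw [h3, hrel, hcomm_k₁a.mul_pow] at h1
    have h4 := mul_right_cancel h1
    rw [inv_pow] at h4
    calc a ^ n * a ^ n = a ^ n * ((a ^ n)⁻¹ * k₁ ^ n) := by rw [h4]
      _ = k₁ ^ n := by group
  have hun : u ^ n = 1 := by
    have hcomm2 : Commute (a * a) k₁⁻¹ := by
      show a * a * k₁⁻¹ = k₁⁻¹ * (a * a)
      exact hcentral _ (inv_mem hk₁) _
    rw [hu, hcomm2.mul_pow, ← pow_two, ← pow_mul, mul_comm 2 n, pow_mul, pow_two, h2a, inv_pow]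
    group
  apply (Subgroup.eq_bot_iff_forall _).mpr
  intro k hk
  obtain ⟨m, rfl⟩ := Subgroup.mem_zpowers_iff.mp (hKu hk)
  have hσk : σ u ^ m = 1 := by
    rw [← map_zpow]
    exact hk
  have hσu : σ u = (QuaternionGroup.a 1) ^ 2 := by
    rw [hu, map_mul, map_mul, map_inv, ha, (MonoidHom.mem_ker.mp hk₁), inv_one, mul_one, pow_two]
  rw [hσu, ← zpow_natCast, ← zpow_mul] at hσk
  have h1 : ((orderOf (QuaternionGroup.a 1 : QuaternionGroup n) : ℕ) : ℤ) ∣ ((2 : ℕ) : ℤ) * m :=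
    orderOf_dvd_iff_zpow_eq_one.mpr hσk
  rw [QuaternionGroup.orderOf_a_one] at h1
  have h3 : (n : ℤ) ∣ m := by
    push_cast at h1
    exact (mul_dvd_mul_iff_left (by norm_num)).mp h1
  obtain ⟨t, rfl⟩ := h3
  rw [zpow_mul, zpow_natCast, hun, one_zpow]

end Cfsg.Agent.S3963
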