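import Mathlib
import Cfsg.Statements.S3964
import Cfsg.Agent.Lib.SchurDih

set_option autoImplicit false
open Cfsg

namespace Cfsg.Agent.S3964

open Cfsg.Agent.Lib.SchurBasic Cfsg.Agent.Lib.SchurDih

/-- For odd `n` the dihedral group of order `2 n` has trivial Schur multiplier. -/
theorem result (n : ℕ) (hn : Odd n) : Cfsg.HasCyclicSchurMultiplier (DihedralGroup n) 1 := by
  haveI : NeZero n := ⟨by rintro rfl; simp at hn⟩
  apply hasCyclicSchurMultiplier_one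
  intro Γ _ _ σ hσ
  obtain ⟨a, ha⟩ := hσ.1 (DihedralGroup.r 1)
  obtain ⟨x, hx⟩ := hσ.1 (DihedralGroup.sr 0)
  obtain ⟨hk₁, hrel⟩ := dih_k₁ σ a x ha hx
  set k₁ := a * x * a * x⁻¹ with hk₁def
  obtain ⟨_, hsq⟩ := dih_struct σ hσ a x ha hx k₁ hk₁ hrel
  have hcentral : ∀ k ∈ σ.ker, ∀ g : Γ, g * k = k * g := fun k hk g =>
    (Subgroup.mem_center_iff.mp (hσ.2.1 hk)) g
  obtain ⟨t, ht⟩ := hn
  -- a lift of odd order
  let a₁ := a ^ (n + 1)
  have hev : n + 1 = 2 * (t + 1) := by omega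
  have han : a ^ n ∈ σ.ker := by
    rw [MonoidHom.mem_ker, map_pow, ha, DihedralGroup.r_one_pow_n]
  have ha2n : a ^ (2 * n) = 1 := by
    rw [two_mul, pow_add]
    exact hsq _ han
  have ha₁n : a₁ ^ n = 1 := by
    simp only [a₁]
    have e : (n + 1) * n = 2 * n * (t + 1) := by rw [hev]; ring
    rw [← pow_mul, e, pow_mul, ha2n, one_pow]
  have ha₁ : σ a₁ = DihedralGroup.r 1 := by
    simp only [a₁]
    rw [map_pow, ha, pow_succ, DihedralGroup.r_one_pow_n, one_mul]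
  have hrel₁ : x * a₁ * x⁻¹ = a₁⁻¹ * 1 := by
    simp only [a₁]
    rw [← conj_pow, hrel]
    have hc : Commute a⁻¹ k₁ := hcentral k₁ hk₁ a⁻¹
    rw [hc.mul_pow, hev, pow_mul k₁, pow_two, hsq k₁ hk₁, one_pow, mul_one, mul_one, inv_pow]
  obtain ⟨hle₁, _⟩ := dih_struct σ hσ a₁ x ha₁ hx 1 (Subgroup.one_mem _) hrel₁
  apply (Subgroup.eq_bot_iff_forall _).mpr
  intro k hk
  obtain ⟨m, hm⟩ := Subgroup.mem_zpowers_iff.mp (hle₁ hk)
  have hkn : k ^ n = 1 := by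
    rw [← hm, ← zpow_natCast, ← zpow_mul, mul_comm, zpow_mul, zpow_natCast]
    have e : (a₁ * a₁ * 1⁻¹) ^ n = (a₁ ^ n) ^ 2 := by
      rw [inv_one, mul_one, ← pow_two, pow_right_comm]
    rw [e, ha₁n, one_pow, one_zpow]
  have hk2 : k ^ 2 = 1 := by
    rw [pow_two]; exact hsq k hk
  rw [ht, pow_succ, pow_mul, hk2, one_pow, one_mul] at hkn
  exact hkn

end Cfsg.Agent.S3964
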