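import Mathlib
import Cfsg.Statements.S3966

set_option autoImplicit false
open Cfsg

namespace Cfsg.Agent.S3966

open QuaternionGroup DihedralGroup
open scoped commutatorElement

/-- The natural map from the dicyclic group to the dihedral group. -/
def phi (n : ℕ) : QuaternionGroup n → DihedralGroup n
  | .a i => .r (ZMod.castHom (Dvd.intro_left 2 rfl : n ∣ 2 * n) (ZMod n) i)
  | .xa i => .sr (ZMod.castHom (Dvd.intro_left 2 rfl : n ∣ 2 * n) (ZMod n) i)

lemma phi_mul (n : ℕ) (u v : QuaternionGroup n) : phi n (u * v) = phi n u * phi n v := by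
  rcases u with i | i <;> rcases v with j | j
  · simp [phi]
  · simp [phi]
  · simp [phi]
  · simp [phi]

/-- The natural homomorphism. -/
def sigma (n : ℕ) : QuaternionGroup n →* DihedralGroup n := MonoidHom.mk' (phi n) (phi_mul n)

lemma sigma_a (n : ℕ) (i : ZMod (2 * n)) :
    sigma n (.a i) = .r (ZMod.castHom (Dvd.intro_left 2 rfl : n ∣ 2 * n) (ZMod n) i) := rfl

lemma sigma_xa (n : ℕ) (i : ZMod (2 * n)) :
    sigma n (.xa i) = .sr (ZMod.castHom (Dvd.intro_left 2 rfl : n ∣ 2 * n) (ZMod n) i) := rfl

lemma sigma_surjective (n : ℕ) [NeZero n] : Function.Surjective (sigma n) := by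
  have hc := ZMod.castHom_surjective (Dvd.intro_left 2 rfl : n ∣ 2 * n)
  rintro (i | i)
  · obtain ⟨j, rfl⟩ := hc i
    exact ⟨.a j, rfl⟩
  · obtain ⟨j, rfl⟩ := hc i
    exact ⟨.xa j, rfl⟩

lemma mem_ker (n : ℕ) [NeZero n] (u : QuaternionGroup n) (hu : sigma n u = 1) :
    u = 1 ∨ u = .a (n : ZMod (2 * n)) := by
  rcases u with i | i
  · rw [sigma_a] at hu
    have h1 : ZMod.castHom (Dvd.intro_left 2 rfl : n ∣ 2 * n) (ZMod n) i = 0 := by
      have : (DihedralGroup.r (ZMod.castHom (Dvd.intro_left 2 rfl : n ∣ 2 * n) (ZMod n) i)) = DihedralGroup.r 0 := hu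
      exact DihedralGroup.r.inj this
    have h2 : i = ((ZMod.val i : ℕ) : ZMod (2 * n)) := (ZMod.natCast_zmod_val i).symm
    rw [h2, map_natCast, ZMod.natCast_eq_zero_iff] at h1
    obtain ⟨k, hk⟩ := h1
    have hlt : ZMod.val i < 2 * n := ZMod.val_lt i
    have hn : 0 < n := Nat.pos_of_ne_zero (NeZero.ne n)
    rw [hk] at hlt
    have hk2 : k < 2 := by
      rw [mul_comm] at hlt
      exact Nat.lt_of_mul_lt_mul_right hlt
    interval_cases k
    · left
      rw [mul_zero] at hk
      rw [h2, hk]
      simp
    · right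
      rw [mul_one] at hk
      rw [h2, hk]
  · exfalso
    rw [sigma_xa, DihedralGroup.one_def] at hu
    cases hu

/-- For even `n ≥ 2` the dicyclic group of order `4 n` is a stem extension of the dihedral group of order `2 n` with kernel of order `2`: there is a surjective homomorphism `QuaternionGroup n →* DihedralGroup n` whose kernel is central, lies in the commutator subgroup and has two elements. Together with the order of the multiplier this exhibits the dicyclic group as a Schur covering group of the dihedral group. -/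
theorem result (n : ℕ) [NeZero n] (hn : Even n) : ∃ σ : QuaternionGroup n →* DihedralGroup n, Cfsg.IsStemExtension σ ∧ Nat.card σ.ker = 2 := by
  have hn0 : 0 < n := Nat.pos_of_ne_zero (NeZero.ne n)
  have h2n : ((n : ZMod (2 * n)) + n) = 0 := by
    rw [← Nat.cast_add, ← two_mul]
    exact ZMod.natCast_self _
  have hsub : ∀ j : ZMod (2 * n), j - n = j + n := by
    intro j
    rw [sub_eq_add_neg]
    congr 1
    exact neg_eq_of_add_eq_zero_left h2n
  have hzcen : ((QuaternionGroup.a (n : ZMod (2 * n))) : QuaternionGroup n) ∈ Subgroup.center (QuaternionGroup n) := by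
    rw [Subgroup.mem_center_iff]
    rintro (j | j)
    · simp [add_comm]
    · simp [hsub]
  have hzcomm : ((QuaternionGroup.a (n : ZMod (2 * n))) : QuaternionGroup n) ∈ commutator (QuaternionGroup n) := by
    obtain ⟨m, hm⟩ := hn
    have h2 : ⁅(QuaternionGroup.a 1 : QuaternionGroup n), (QuaternionGroup.xa 0 : QuaternionGroup n)⁆ =
        (QuaternionGroup.a 1) ^ 2 := by
      have e1 : ((QuaternionGroup.xa 0 : QuaternionGroup n))⁻¹ = QuaternionGroup.xa ((n : ZMod (2 * n)) + 0) := rfl
      have e2 : ((QuaternionGroup.a 1 : QuaternionGroup n))⁻¹ = QuaternionGroup.a (-1) := rfl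
      rw [commutatorElement_def, e1, e2, QuaternionGroup.a_one_pow]
      simp only [QuaternionGroup.a_mul_xa, QuaternionGroup.xa_mul_a, QuaternionGroup.xa_mul_xa]
      congr 1
      have e3 : (((2 : ℕ)) : ZMod (2 * n)) = 2 := by norm_cast
      rw [e3]
      linear_combination h2n
    have h1 : (QuaternionGroup.a (n : ZMod (2 * n)) : QuaternionGroup n) =
        ⁅(QuaternionGroup.a 1 : QuaternionGroup n), (QuaternionGroup.xa 0 : QuaternionGroup n)⁆ ^ m := by
      rw [h2, ← pow_mul, QuaternionGroup.a_one_pow]
      congr 2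
      omega
    rw [h1]
    apply Subgroup.pow_mem
    exact Subgroup.commutator_mem_commutator (Subgroup.mem_top _) (Subgroup.mem_top _)
  refine ⟨sigma n, ⟨sigma_surjective n, ?_, ?_⟩, ?_⟩
  · intro u hu
    rcases mem_ker n u hu with rfl | rfl
    · exact Subgroup.one_mem _
    · exact hzcen
  · intro u hu
    rcases mem_ker n u hu with rfl | rfl
    · exact Subgroup.one_mem _
    · exact hzcomm
  · have h1 := Subgroup.card_mul_index (sigma n).ker
    have h2 : (sigma n).ker.index = Nat.card (DihedralGroup n) := by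
      rw [Subgroup.index_ker, MonoidHom.range_eq_top_of_surjective _ (sigma_surjective n), Subgroup.card_top]
    have h4 : Nat.card (QuaternionGroup n) = 4 * n := by
      rw [Nat.card_eq_fintype_card, QuaternionGroup.card]
    rw [h2, DihedralGroup.nat_card, h4] at h1
    have h3 : Nat.card (sigma n).ker * (2 * n) = 2 * (2 * n) := by
      rw [h1]; ring
    exact Nat.eq_of_mul_eq_mul_right (by omega) h3

end Cfsg.Agent.S3966
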