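import Mathlib
import Cfsg.Statements.S3965
import Cfsg.Agent.Lib.SchurDih
import Cfsg.Agent.S3966

set_option autoImplicit false
open Cfsg

namespace Cfsg.Agent.S3965

open Cfsg.Agent.Lib.SchurBasic Cfsg.Agent.Lib.SchurDih

/-- For even `n ≥ 2` the dihedral group of order `2 n` has Schur multiplier cyclic of order `2`. -/
theorem result (n : ℕ) [NeZero n] (hn : Even n) : Cfsg.HasCyclicSchurMultiplier (DihedralGroup n) 2 := by
  constructor
  · obtain ⟨σ, hσ, hcard⟩ := Cfsg.Agent.S3966.result n hn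
    refine ⟨QuaternionGroup n, inferInstance, inferInstance, σ, hσ, ?_⟩
    haveI : Fact (Nat.Prime 2) := ⟨Nat.prime_two⟩
    exact ⟨mulEquivOfPrimeCardEq hcard (by simp [Nat.card_eq_fintype_card, ZMod.card])⟩
  · intro Γ _ _ σ hσ
    obtain ⟨a, ha⟩ := hσ.1 (DihedralGroup.r 1)
    obtain ⟨x, hx⟩ := hσ.1 (DihedralGroup.sr 0)
    obtain ⟨hk₁, hrel⟩ := dih_k₁ σ a x ha hx
    obtain ⟨hle, hsq⟩ := dih_struct σ hσ a x ha hx _ hk₁ hrel
    set u := a * a * (a * x * a * x⁻¹)⁻¹
    -- the kernel is cyclic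
    have hcyc : IsCyclic σ.ker := by
      have h1 : IsCyclic (σ.ker.subgroupOf (Subgroup.zpowers u)) := inferInstance
      exact isCyclic_of_surjective (Subgroup.subgroupOfEquivOfLe hle).toMonoidHom
        (Subgroup.subgroupOfEquivOfLe hle).surjective
    obtain ⟨w, hw⟩ := isCyclic_iff_exists_zpowers_eq_top.mp hcyc
    refine exists_surjective_zmod 2 w ?_ hw
    apply Subtype.ext
    rw [pow_two]
    exact hsq _ w.2

end Cfsg.Agent.S3965
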