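import Mathlib
import Cfsg.Statements.S3967
import Cfsg.Agent.Lib.SchurHopf

set_option autoImplicit false
open Cfsg

namespace Cfsg.Agent.S3967

open Subgroup Cfsg.Agent.Lib.SchurHopf
open scoped commutatorElement

section relations

variable {G : Type*} [Group G]

lemma conj_pow_rel (a b z : G) (r : ℕ) (hz : z ∈ center G) (h : b * a * b⁻¹ = z * a ^ r) (k : ℕ) :
    b * a ^ k * b⁻¹ = z ^ k * a ^ (r * k) := by
  have h1 : b * a ^ k * b⁻¹ = (b * a * b⁻¹) ^ k := (conj_pow).symm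
  have h2 : Commute z (a ^ r) := (mem_center_iff.mp hz (a ^ r)).symm
  rw [h1, h, h2.mul_pow, pow_mul]

lemma iter_conj (a b z : G) (r : ℕ) (hz : z ∈ center G) (h : b * a * b⁻¹ = z * a ^ r) (j : ℕ) :
    b ^ j * a * (b ^ j)⁻¹ = z ^ (∑ i ∈ Finset.range j, r ^ i) * a ^ (r ^ j) := by
  induction j with
  | zero => simp
  | succ j ih =>
    have h1 : b ^ (j + 1) * a * (b ^ (j + 1))⁻¹ = b * (b ^ j * a * (b ^ j)⁻¹) * b⁻¹ := by
      rw [pow_succ']; group
    have hzs : z ^ (∑ i ∈ Finset.range j, r ^ i) ∈ center G := pow_mem hz _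
    have h2 : b * (z ^ (∑ i ∈ Finset.range j, r ^ i) * a ^ (r ^ j)) * b⁻¹
        = z ^ (∑ i ∈ Finset.range j, r ^ i) * (b * a ^ (r ^ j) * b⁻¹) := by
      have := mem_center_iff.mp hzs b
      rw [← mul_assoc b, this]
      group
    rw [h1, ih, h2, conj_pow_rel a b z r hz h, ← mul_assoc, ← pow_add, Finset.sum_range_succ, pow_succ']

/-- The three consequences of the relators. -/
theorem relations_w (a b : G) (m n r t d u₁ u₂ l f c : ℕ) (hr : 0 < r)
    (x y z : G) (hx : x = a ^ m) (hy : y = b ^ n * (a ^ t)⁻¹) (hz : z = b * a * b⁻¹ * (a ^ r)⁻¹)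
    (hxc : x ∈ center G) (hyc : y ∈ center G) (hzc : z ∈ center G)
    (h1 : r - 1 = d * u₁) (h2 : m = d * u₂) (ht : t = u₂ * l)
    (hσ : (∑ i ∈ Finset.range n, r ^ i) = u₂ * f) (hc : r ^ n = 1 + m * c) (hcu : c = u₁ * f) :
    (x ^ u₁ * z ^ u₂) ^ d = 1 ∧ (x ^ u₁ * z ^ u₂) ^ f = 1 ∧ (x ^ u₁ * z ^ u₂) ^ l = 1 := by
  have hcomm : Commute (x ^ u₁) (z ^ u₂) := by
    have := mem_center_iff.mp (pow_mem hzc u₂) (x ^ u₁)
    exact this
  have hw : ∀ k, (x ^ u₁ * z ^ u₂) ^ k = x ^ (u₁ * k) * z ^ (u₂ * k) := by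
    intro k
    rw [hcomm.mul_pow, ← pow_mul, ← pow_mul]
  have hconj : b * a * b⁻¹ = z * a ^ r := by
    rw [hz]; group
  have hcen : ∀ (e g : G), e ∈ center G → e * g = g * e := fun e g he => (mem_center_iff.mp he g).symm
  have hr' : r = (r - 1) + 1 := by omega
  refine ⟨?_, ?_, ?_⟩
  · -- first relation
    have h3 : b * a ^ m * b⁻¹ = z ^ m * a ^ (r * m) := conj_pow_rel a b z r hzc hconj m
    have h4 : b * a ^ m * b⁻¹ = a ^ m := by
      rw [← hx]
      have := hcen x b hxc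
      rw [← this]
      group
    have h5 : a ^ (r * m) = x ^ r := by rw [hx, ← pow_mul, mul_comm]
    rw [h4, h5, ← hx] at h3
    -- `x = z ^ m * x ^ r`
    have h6 : x ^ (r - 1) * z ^ m = 1 := by
      have h7 : x ^ r = x ^ (r - 1) * x := by
        rw [← pow_succ, ← hr']
      rw [h7] at h3
      have h8 : z ^ m * (x ^ (r - 1) * x) = (x ^ (r - 1) * z ^ m) * x := by
        have := hcen (x ^ (r - 1)) (z ^ m) (pow_mem hxc _)
        rw [← mul_assoc, ← this]
      rw [h8] at h3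
      exact (mul_eq_right.mp h3.symm)
    rw [hw, mul_comm u₁, mul_comm u₂, ← h1, ← h2]
    exact h6
  · -- second relation
    have h3 : b ^ n * a * (b ^ n)⁻¹ = z ^ (∑ i ∈ Finset.range n, r ^ i) * a ^ (r ^ n) :=
      iter_conj a b z r hzc hconj n
    have hbn : b ^ n = y * a ^ t := by rw [hy]; group
    have h4 : b ^ n * a * (b ^ n)⁻¹ = a := by
      rw [hbn]
      have h5 : y * a ^ t * a * (y * a ^ t)⁻¹ = y * (a ^ t * a * (a ^ t)⁻¹) * y⁻¹ := by group
      rw [h5]
      have h6 : a ^ t * a * (a ^ t)⁻¹ = a := by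
        have : a ^ t * a = a * a ^ t := (pow_succ a t).symm.trans (pow_succ' a t)
        rw [this]; group
      rw [h6, hcen y a hyc]
      group
    rw [h4, hσ, hc, pow_add, pow_one] at h3
    have h5 : a ^ (m * c) = x ^ c := by rw [hx, pow_mul]
    rw [h5] at h3
    -- `a = z ^ s * (a * x ^ c)`
    rw [hw, ← hcu]
    have h6 : x ^ c * z ^ (u₂ * f) = 1 := by
      have h7 : z ^ (u₂ * f) * (a * x ^ c) = a * (x ^ c * z ^ (u₂ * f)) := by
        have h8 := hcen (z ^ (u₂ * f)) a (pow_mem hzc _)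
        have h9 := hcen (z ^ (u₂ * f)) (x ^ c) (pow_mem hzc _)
        rw [← mul_assoc, h8, mul_assoc, h9]
      rw [h7] at h3
      exact mul_eq_left.mp h3.symm
    exact h6
  · -- third relation
    have hbn : b ^ n = y * a ^ t := by rw [hy]; group
    have hcb : b * a ^ t * b⁻¹ = a ^ t := by
      have h3 : b * (y * a ^ t) = (y * a ^ t) * b := by
        rw [← hbn]
        exact (pow_succ' b n).symm.trans (pow_succ b n)
      have h4 : b * (y * a ^ t) = y * (b * a ^ t) := by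
        rw [← mul_assoc, ← hcen y b hyc, mul_assoc]
      rw [h4, mul_assoc] at h3
      have h5 := mul_left_cancel h3
      rw [h5]; group
    have h3 : b * a ^ t * b⁻¹ = z ^ t * a ^ (r * t) := conj_pow_rel a b z r hzc hconj t
    rw [hcb] at h3
    have h5 : r * t = t + m * (u₁ * l) := by
      rw [ht, h2]
      have : r = d * u₁ + 1 := by omega
      rw [this]
      ring
    rw [h5, pow_add] at h3
    have h6 : a ^ (m * (u₁ * l)) = x ^ (u₁ * l) := by rw [hx, pow_mul]
    rw [h6] at h3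
    have h7 : x ^ (u₁ * l) * z ^ (u₂ * l) = 1 := by
      have h8 : z ^ t * (a ^ t * x ^ (u₁ * l)) = a ^ t * (x ^ (u₁ * l) * z ^ t) := by
        have h9 := hcen (z ^ t) (a ^ t) (pow_mem hzc _)
        have h10 := hcen (z ^ t) (x ^ (u₁ * l)) (pow_mem hzc _)
        rw [← mul_assoc, h9, mul_assoc, h10]
      rw [h8, ht] at h3
      exact mul_eq_left.mp h3.symm
    rw [hw]
    exact h7

end relations

section numbers

lemma exists_add_mul_coprime (x n m : ℕ) (hm : m ≠ 0) (hx : x.Coprime n) :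
    ∃ k : ℕ, (x + k * n).Coprime m := by
  let ps : Finset ℕ := {p ∈ m.primeFactors | ¬p ∣ x}
  use ps.prod id
  apply Nat.coprime_of_dvd
  intro p pp hp hpn
  by_cases hpx : p ∣ x
  · have h := Nat.dvd_sub hp hpx
    rw [add_comm, Nat.add_sub_cancel] at h
    rcases pp.dvd_mul.mp h with h | h
    · have ⟨q, hq, hq'⟩ := (pp.prime.dvd_finsetProd_iff id).mp h
      rw [Finset.mem_filter, Nat.mem_primeFactors,
        ← (Nat.prime_dvd_prime_iff_eq pp hq.1.1).mp hq'] at hq
      exact hq.2 hpx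
    · exact Nat.Prime.not_coprime_iff_dvd.mpr ⟨p, pp, hpx, h⟩ hx
  · have pps : p ∈ ps := Finset.mem_filter.mpr ⟨Nat.mem_primeFactors.mpr ⟨pp, hpn, hm⟩, hpx⟩
    have h := Nat.dvd_sub hp ((Finset.dvd_prod_of_mem id pps).mul_right n)
    rw [Nat.add_sub_cancel] at h
    exact hpx h

/-- The numerical data of the statement. -/
theorem numbers (m n r l : ℕ) (hm : 0 < m) (hn : 0 < n) (hr : 0 < r) (hrn : r ^ n ≡ 1 [MOD m]) :
    ∃ d u₁ u₂ f c : ℕ, d = Nat.gcd m (r - 1) ∧ 0 < d ∧ 0 < u₂ ∧ r - 1 = d * u₁ ∧ m = d * u₂ ∧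
      Nat.Coprime u₁ u₂ ∧ m * l / d = u₂ * l ∧ (∑ i ∈ Finset.range n, r ^ i) = u₂ * f ∧
      r ^ n = 1 + m * c ∧ c = u₁ * f ∧
      d * Nat.gcd m (∑ i ∈ Finset.range n, r ^ i) / m = Nat.gcd d f := by
  have hd : 0 < Nat.gcd m (r - 1) := Nat.gcd_pos_of_pos_left _ hm
  obtain ⟨u₂, hu₂⟩ := Nat.gcd_dvd_left m (r - 1)
  obtain ⟨u₁, hu₁⟩ := Nat.gcd_dvd_right m (r - 1)
  set d := Nat.gcd m (r - 1) with hddef
  have hu₂pos : 0 < u₂ := by
    apply Nat.pos_of_ne_zero
    rintro rfl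
    simp at hu₂
    omega
  have hcop : Nat.Coprime u₁ u₂ := by
    have h1 : Nat.gcd (d * u₂) (d * u₁) = d * 1 := by
      rw [← hu₂, ← hu₁, mul_one]
    rw [Nat.gcd_mul_left] at h1
    have h2 := Nat.eq_of_mul_eq_mul_left hd h1
    exact (Nat.coprime_comm.mp h2)
  have hpow : 1 ≤ r ^ n := Nat.one_le_pow _ _ hr
  obtain ⟨c, hc⟩ : m ∣ r ^ n - 1 := (Nat.modEq_iff_dvd' hpow).mp hrn.symm
  have hc' : r ^ n = 1 + m * c := by omega
  have hgeom : ((r - 1 : ℕ) : ℤ) * (∑ i ∈ Finset.range n, (r : ℤ) ^ i) = (r : ℤ) ^ n - 1 := by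
    have := mul_geom_sum (r : ℤ) n
    rw [← this]
    congr 1
    omega
  have hgeom' : (r - 1) * (∑ i ∈ Finset.range n, r ^ i) = m * c := by
    have h1 : (((r - 1) * (∑ i ∈ Finset.range n, r ^ i) : ℕ) : ℤ) = ((m * c : ℕ) : ℤ) := by
      push_cast
      push_cast at hgeom
      rw [hgeom]
      have : (r : ℤ) ^ n = 1 + (m : ℤ) * c := by exact_mod_cast hc'
      rw [this]
      ring
    exact_mod_cast h1
  rw [hu₁] at hgeom'
  have h2 : u₁ * (∑ i ∈ Finset.range n, r ^ i) = u₂ * c := by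
    have h3 : d * (u₁ * (∑ i ∈ Finset.range n, r ^ i)) = d * (u₂ * c) := by
      calc d * (u₁ * (∑ i ∈ Finset.range n, r ^ i)) = d * u₁ * (∑ i ∈ Finset.range n, r ^ i) := by ring
        _ = m * c := hgeom'
        _ = d * u₂ * c := by rw [← hu₂]
        _ = d * (u₂ * c) := by ring
    exact Nat.eq_of_mul_eq_mul_left hd h3
  have h3 : u₂ ∣ (∑ i ∈ Finset.range n, r ^ i) :=
    (Nat.Coprime.dvd_of_dvd_mul_left hcop.symm ⟨c, h2⟩)
  obtain ⟨f, hf⟩ := h3
  have h4 : c = u₁ * f := by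
    rw [hf] at h2
    have h5 : u₂ * (u₁ * f) = u₂ * c := by rw [← h2]; ring
    exact (Nat.eq_of_mul_eq_mul_left hu₂pos h5).symm
  refine ⟨d, u₁, u₂, f, c, rfl, hd, hu₂pos, hu₁, hu₂, hcop, ?_, hf, hc', h4, ?_⟩
  · conv_lhs => rw [hu₂]
    rw [mul_assoc, Nat.mul_div_cancel_left _ hd]
  · rw [hf]
    conv_lhs => rw [hu₂]
    have h5 : Nat.gcd (d * u₂) (u₂ * f) = u₂ * Nat.gcd d f := by
      rw [mul_comm d u₂, Nat.gcd_mul_left]
    rw [h5]
    have h6 : d * (u₂ * Nat.gcd d f) = (d * u₂) * Nat.gcd d f := by ring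
    rw [h6, Nat.mul_div_cancel_left _ (Nat.mul_pos hd hu₂pos)]

/-- The modulus for the lower bound. -/
theorem numbers_lower (m n r d u₁ u₂ f g k : ℕ) (hm : 0 < m) (hr : 0 < r) (h1 : r - 1 = d * u₁)
    (h2 : m = d * u₂) (hσ : (∑ i ∈ Finset.range n, r ^ i) = u₂ * f) (hgd : g ∣ d) (hgf : g ∣ f) :
    ((r + m * k : ℕ) : ZMod (m * g)) ^ n = 1 := by
  set R := r + m * k with hR
  have hR1 : ((R : ℤ) - 1) = d * ((u₁ + k * u₂ : ℕ) : ℤ) := by
    have : (r : ℤ) = 1 + d * u₁ := by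
      have : r = 1 + d * u₁ := by omega
      exact_mod_cast this
    rw [hR]
    push_cast
    rw [this, h2]
    push_cast
    ring
  have hdvd : ((m * g : ℕ) : ℤ) ∣ (R : ℤ) ^ n - 1 := by
    rw [← mul_geom_sum (R : ℤ) n, hR1]
    -- compare with the sum for `r`
    have h3 : (m : ℤ) ∣ (∑ i ∈ Finset.range n, (R : ℤ) ^ i) - (∑ i ∈ Finset.range n, (r : ℤ) ^ i) := by
      rw [← Finset.sum_sub_distrib]
      apply Finset.dvd_sum
      intro i _
      have h4 := sub_dvd_pow_sub_pow (R : ℤ) (r : ℤ) i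
      have h5 : (R : ℤ) - r = m * k := by
        rw [hR]; push_cast; ring
      rw [h5] at h4
      exact (Dvd.intro _ rfl).trans h4
    obtain ⟨e, he⟩ := h3
    have h6 : (∑ i ∈ Finset.range n, (r : ℤ) ^ i) = (u₂ : ℤ) * f := by
      exact_mod_cast hσ
    have h7 : (∑ i ∈ Finset.range n, (R : ℤ) ^ i) = (u₂ : ℤ) * (f + d * e) := by
      have : (∑ i ∈ Finset.range n, (R : ℤ) ^ i) = (∑ i ∈ Finset.range n, (r : ℤ) ^ i) + m * e := by
        rw [← he]; ring
      rw [this, h6, h2]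
      push_cast
      ring
    rw [h7]
    have h8 : ((g : ℕ) : ℤ) ∣ (f : ℤ) + d * e := by
      apply dvd_add
      · exact_mod_cast hgf
      · exact Dvd.dvd.mul_right (by exact_mod_cast hgd) e
    obtain ⟨w, hw⟩ := h8
    refine ⟨((u₁ + k * u₂ : ℕ) : ℤ) * w, ?_⟩
    rw [hw, h2]
    push_cast
    ring
  have h9 : (((R : ℤ) ^ n - 1 : ℤ) : ZMod (m * g)) = 0 := (ZMod.intCast_zmod_eq_zero_iff_dvd _ _).mpr hdvd
  push_cast at h9
  exact sub_eq_zero.mp h9

end numbers

section presented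

/-- The relators. -/
abbrev rels (m n r t : ℕ) : Set (FreeGroup Bool) :=
  {FreeGroup.of true ^ m, (FreeGroup.of false) ^ n * (FreeGroup.of true ^ t)⁻¹,
    FreeGroup.of false * FreeGroup.of true * (FreeGroup.of false)⁻¹ * (FreeGroup.of true ^ r)⁻¹}

/-- Presented groups of this shape are finite. -/
theorem finite_presented (m n r t : ℕ) (hm : 0 < m) (hn : 0 < n) :
    Finite (PresentedGroup (rels m n r t)) := by
  let Q := PresentedGroup (rels m n r t)
  let mk : FreeGroup Bool →* Q := PresentedGroup.mk _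
  let a : Q := mk (FreeGroup.of true)
  let b : Q := mk (FreeGroup.of false)
  have h1 : a ^ m = 1 := by
    have : mk (FreeGroup.of true ^ m) = 1 := PresentedGroup.one_of_mem (by simp [rels])
    rwa [map_pow] at this
  have h2 : b ^ n = a ^ t := by
    have : mk ((FreeGroup.of false) ^ n * (FreeGroup.of true ^ t)⁻¹) = 1 :=
      PresentedGroup.one_of_mem (by simp [rels])
    rw [map_mul, map_inv, map_pow, map_pow, mul_inv_eq_one] at this
    exact this
  have h3 : b * a * b⁻¹ = a ^ r := by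
    have : mk (FreeGroup.of false * FreeGroup.of true * (FreeGroup.of false)⁻¹ *
        (FreeGroup.of true ^ r)⁻¹) = 1 := PresentedGroup.one_of_mem (by simp [rels])
    rw [map_mul, map_mul, map_mul, map_inv, map_inv, map_pow, mul_inv_eq_one] at this
    exact this
  let T : Set Q := {x | ∃ i j : ℕ, x = a ^ i * b ^ j}
  have hta : ∀ x ∈ T, a * x ∈ T := by
    rintro _ ⟨i, j, rfl⟩
    exact ⟨i + 1, j, by rw [pow_succ', mul_assoc]⟩
  have htb : ∀ x ∈ T, b * x ∈ T := by
    rintro _ ⟨i, j, rfl⟩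
    refine ⟨r * i, j + 1, ?_⟩
    have h4 : b * a ^ i * b⁻¹ = (a ^ r) ^ i := by
      rw [← h3, conj_pow]
    rw [pow_mul, ← h4, pow_succ']
    group
  have htak : ∀ k : ℕ, ∀ x ∈ T, a ^ k * x ∈ T := by
    intro k
    induction k with
    | zero => simp
    | succ k ih =>
      intro x hx
      rw [pow_succ', mul_assoc]
      exact hta _ (ih x hx)
  have htbk : ∀ k : ℕ, ∀ x ∈ T, b ^ k * x ∈ T := by
    intro k
    induction k with
    | zero => simp
    | succ k ih =>
      intro x hx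
      rw [pow_succ', mul_assoc]
      exact htb _ (ih x hx)
  have hainv : a⁻¹ = a ^ (m - 1) := by
    apply inv_eq_of_mul_eq_one_left
    rw [← pow_succ, Nat.sub_add_cancel hm, h1]
  have hbinv : b⁻¹ = b ^ (n - 1) * (a ^ (m - 1)) ^ t := by
    apply inv_eq_of_mul_eq_one_left
    rw [← hainv, inv_pow]
    have h4 : b ^ (n - 1) * (a ^ t)⁻¹ * b = (b ^ (n - 1) * (a ^ t)⁻¹ * b) := rfl
    have h5 : (a ^ t)⁻¹ = (b ^ n)⁻¹ := by rw [h2]
    rw [h5]
    have h6 : b ^ n = b ^ (n - 1) * b := by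
      rw [← pow_succ, Nat.sub_add_cancel hn]
    rw [h6]
    group
  have hta' : ∀ x ∈ T, a⁻¹ * x ∈ T := by
    intro x hx
    rw [hainv]
    exact htak _ x hx
  have htb' : ∀ x ∈ T, b⁻¹ * x ∈ T := by
    intro x hx
    rw [hbinv, mul_assoc]
    apply htbk
    rw [← pow_mul]
    exact htak _ x hx
  have hall : ∀ w : FreeGroup Bool, ∀ x ∈ T, mk w * x ∈ T := by
    intro w
    induction w using FreeGroup.induction_on with
    | C1 => simp
    | of c =>
      intro x hx
      cases c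
      · exact htb x hx
      · exact hta x hx
    | inv_of c _ =>
      intro x hx
      rw [map_inv]
      cases c
      · exact htb' x hx
      · exact hta' x hx
    | mul u v hu hv =>
      intro x hx
      rw [map_mul, mul_assoc]
      exact hu _ (hv x hx)
  have hone : (1 : Q) ∈ T := ⟨0, 0, by simp⟩
  have htop : ∀ y : Q, y ∈ T := by
    intro y
    obtain ⟨w, rfl⟩ := PresentedGroup.mk_surjective _ y
    have := hall w 1 hone
    rwa [mul_one] at this
  haveI : NeZero m := ⟨hm.ne'⟩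
  haveI : NeZero n := ⟨hn.ne'⟩
  -- reduction of exponents
  apply Finite.of_surjective (fun p : Fin m × Fin n => a ^ (p.1 : ℕ) * b ^ (p.2 : ℕ))
  intro y
  obtain ⟨i, j, rfl⟩ := htop y
  have hb : b ^ j = a ^ (t * (j / n)) * b ^ (j % n) := by
    conv_lhs => rw [← Nat.div_add_mod j n, pow_add, pow_mul, h2]
    rw [pow_mul]
  have hia : ∀ s : ℕ, a ^ s = a ^ (s % m) := by
    intro s
    conv_lhs => rw [← Nat.div_add_mod s m, pow_add, pow_mul, h1, one_pow, one_mul]
  refine ⟨(⟨(i + t * (j / n)) % m, Nat.mod_lt _ hm⟩, ⟨j % n, Nat.mod_lt _ hn⟩), ?_⟩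
  show a ^ ((i + t * (j / n)) % m) * b ^ (j % n) = a ^ i * b ^ j
  rw [← hia, hb, pow_add, mul_assoc]

variable {α : Type} {Q : Type} [Group Q]

/-- Lifting a hom to the cover when the relators commute with the generators. -/
theorem lift_central (S : Set (FreeGroup α)) {X : Type*} [Group X] (φ₀ : FreeGroup α →* X)
    (h : ∀ r ∈ S, ∀ c : α, Commute (φ₀ r) (φ₀ (FreeGroup.of c))) :
    ∃ φ : Cov (PresentedGroup.mk S) →* X, ∀ x : FreeGroup α, φ (x : Cov (PresentedGroup.mk S)) = φ₀ x := by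
  have hall : ∀ r ∈ S, ∀ w : FreeGroup α, Commute (φ₀ r) (φ₀ w) := by
    intro r hr w
    induction w using FreeGroup.induction_on with
    | C1 => simp
    | of c => exact h r hr c
    | inv_of c hc =>
      rw [map_inv]
      exact (h r hr c).inv_right
    | mul u v hu hv =>
      rw [map_mul]
      exact hu.mul_right hv
  let H : Subgroup (FreeGroup α) :=
    { carrier := {r | ∀ w : FreeGroup α, Commute (φ₀ r) (φ₀ w)}
      one_mem' := fun w => by simp
      mul_mem' := by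
        intro a b ha hb w
        rw [map_mul]
        exact (ha w).mul_left (hb w)
      inv_mem' := by
        intro a ha w
        rw [map_inv]
        exact (ha w).inv_left }
  haveI hHn : H.Normal := by
    constructor
    intro r hr g w
    rw [map_mul, map_mul, map_inv]
    have h1 : Commute (φ₀ g) (φ₀ r) := (hr g).symm
    have h2 : φ₀ g * φ₀ r * (φ₀ g)⁻¹ = φ₀ r := by
      rw [h1.eq]
      group
    rw [h2]
    exact hr w
  have hle : Subgroup.normalClosure S ≤ H := Subgroup.normalClosure_le_normal (fun r hr => hall r hr)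
  have hk : brk (PresentedGroup.mk S) ≤ φ₀.ker := by
    unfold brk
    rw [Subgroup.commutator_le]
    intro g _ r hr
    rw [MonoidHom.mem_ker, map_commutatorElement, commutatorElement_eq_one_iff_commute]
    have hr' : r ∈ Subgroup.normalClosure S := PresentedGroup.mk_eq_one_iff.mp hr
    exact (hle hr' g).symm
  exact ⟨QuotientGroup.lift _ φ₀ (fun _ hx => hk hx), fun _ => rfl⟩

/-- The kernel of the cover is generated by the relators. -/
theorem ker_proj_mem_closure (S : Set (FreeGroup α)) (e : Cov (PresentedGroup.mk S))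
    (he : e ∈ (proj (PresentedGroup.mk S)).ker) :
    e ∈ closure ((fun r : FreeGroup α => (r : Cov (PresentedGroup.mk S))) '' S) := by
  let ρ : FreeGroup α →* PresentedGroup S := PresentedGroup.mk S
  have hcent : (proj ρ).ker ≤ center (Cov ρ) := ker_proj_le_center ρ
  let C : Subgroup (Cov ρ) := closure ((fun r : FreeGroup α => (r : Cov ρ)) '' S)
  have hC : C ≤ center (Cov ρ) := by
    apply (Subgroup.closure_le _).mpr
    rintro _ ⟨r, hr, rfl⟩
    apply hcent
    exact PresentedGroup.one_of_mem hr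
  haveI hCn : C.Normal := normal_of_le_center' hC
  let C' : Subgroup (FreeGroup α) := C.comap (QuotientGroup.mk' (brk ρ))
  haveI hC'n : C'.Normal := Subgroup.Normal.comap hCn _
  have h1 : Subgroup.normalClosure S ≤ C' := by
    apply Subgroup.normalClosure_le_normal
    intro r hr
    exact Subgroup.subset_closure ⟨r, hr, rfl⟩
  obtain ⟨x, hx⟩ := QuotientGroup.mk'_surjective (brk ρ) e
  have hxe : (x : Cov ρ) = e := hx
  have he' : (x : Cov ρ) ∈ (proj ρ).ker := by
    rw [hxe]; exact he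
  have h2 : ρ x = 1 := he'
  have h3 : x ∈ Subgroup.normalClosure S := PresentedGroup.mk_eq_one_iff.mp h2
  have h4 : (x : Cov ρ) ∈ C := h1 h3
  rw [hxe] at h4
  exact h4

end presented

section threeGen

/-- Elements of the subgroup generated by three central elements. -/
lemma closure_three {G : Type*} [Group G] (x y z : G) (hx : x ∈ center G) (hy : y ∈ center G)
    (hz : z ∈ center G) (e : G) (he : e ∈ closure ({x, y, z} : Set G)) :
    ∃ i j k : ℤ, e = x ^ i * y ^ j * z ^ k := by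
  have hxi : ∀ i : ℤ, x ^ i ∈ center G := fun i => zpow_mem hx i
  have hyi : ∀ i : ℤ, y ^ i ∈ center G := fun i => zpow_mem hy i
  have hzi : ∀ i : ℤ, z ^ i ∈ center G := fun i => zpow_mem hz i
  induction he using closure_induction with
  | mem e he =>
    rcases he with rfl | rfl | rfl
    · exact ⟨1, 0, 0, by simp⟩
    · exact ⟨0, 1, 0, by simp⟩
    · exact ⟨0, 0, 1, by simp⟩
  | one => exact ⟨0, 0, 0, by simp⟩
  | mul u v _ _ hu hv =>
    obtain ⟨i, j, k, rfl⟩ := hu
    obtain ⟨i', j', k', rfl⟩ := hv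
    refine ⟨i + i', j + j', k + k', ?_⟩
    have e1 : z ^ k * x ^ i' = x ^ i' * z ^ k := mem_center_iff.mp (hxi i') _
    have e2 : y ^ j * x ^ i' = x ^ i' * y ^ j := mem_center_iff.mp (hxi i') _
    have e3 : z ^ k * y ^ j' = y ^ j' * z ^ k := mem_center_iff.mp (hyi j') _
    rw [zpow_add, zpow_add, zpow_add]
    calc x ^ i * y ^ j * z ^ k * (x ^ i' * y ^ j' * z ^ k')
        = x ^ i * y ^ j * (z ^ k * x ^ i') * y ^ j' * z ^ k' := by simp only [mul_assoc]
      _ = x ^ i * (y ^ j * x ^ i') * (z ^ k * y ^ j') * z ^ k' := by rw [e1]; simp only [mul_assoc]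
      _ = x ^ i * x ^ i' * (y ^ j * y ^ j') * (z ^ k * z ^ k') := by rw [e2, e3]; simp only [mul_assoc]
  | inv u _ hu =>
    obtain ⟨i, j, k, rfl⟩ := hu
    refine ⟨-i, -j, -k, ?_⟩
    have e1 : (x ^ i)⁻¹ * (z ^ k)⁻¹ = (z ^ k)⁻¹ * (x ^ i)⁻¹ := mem_center_iff.mp (inv_mem (hxi i)) _ |>.symm
    have e2 : (x ^ i)⁻¹ * (y ^ j)⁻¹ = (y ^ j)⁻¹ * (x ^ i)⁻¹ := mem_center_iff.mp (inv_mem (hxi i)) _ |>.symm
    have e3 : (y ^ j)⁻¹ * (z ^ k)⁻¹ = (z ^ k)⁻¹ * (y ^ j)⁻¹ := mem_center_iff.mp (inv_mem (hyi j)) _ |>.symm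
    rw [zpow_neg, zpow_neg, zpow_neg, mul_inv_rev, mul_inv_rev]
    calc (z ^ k)⁻¹ * ((y ^ j)⁻¹ * (x ^ i)⁻¹) = ((z ^ k)⁻¹ * (y ^ j)⁻¹) * (x ^ i)⁻¹ := by
          rw [mul_assoc]
      _ = ((y ^ j)⁻¹ * (z ^ k)⁻¹) * (x ^ i)⁻¹ := by rw [e3]
      _ = (y ^ j)⁻¹ * ((z ^ k)⁻¹ * (x ^ i)⁻¹) := by rw [mul_assoc]
      _ = (y ^ j)⁻¹ * ((x ^ i)⁻¹ * (z ^ k)⁻¹) := by rw [e1]
      _ = ((y ^ j)⁻¹ * (x ^ i)⁻¹) * (z ^ k)⁻¹ := by rw [mul_assoc]
      _ = (x ^ i)⁻¹ * (y ^ j)⁻¹ * (z ^ k)⁻¹ := by rw [e2]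

end threeGen

section model

/-- Additive permutations of `ZMod M`. -/
def addP {M : ℕ} (c : ZMod M) : Equiv.Perm (ZMod M) := Equiv.addRight c

lemma addP_mul {M : ℕ} (c e : ZMod M) : addP c * addP e = addP (c + e) := by
  ext s
  simp only [addP, Equiv.Perm.mul_apply, Equiv.coe_addRight]
  ring

lemma addP_zero {M : ℕ} : addP (0 : ZMod M) = 1 := by
  ext s
  simp [addP]

lemma addP_pow {M : ℕ} (c : ZMod M) (j : ℕ) : addP c ^ j = addP ((j : ZMod M) * c) := by
  induction j with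
  | zero => simp [addP_zero]
  | succ j ih =>
    rw [pow_succ, ih, addP_mul]
    congr 1
    push_cast
    ring

lemma addP_inv {M : ℕ} (c : ZMod M) : (addP c)⁻¹ = addP (-c) := by
  apply inv_eq_of_mul_eq_one_left
  rw [addP_mul]
  simp [addP_zero]

lemma addP_eq_one {M : ℕ} (c : ZMod M) (h : addP c = 1) : c = 0 := by
  have := DFunLike.congr_fun h 0
  simpa [addP] using this

/-- The multiplication permutation. -/
theorem exists_mulP {M n : ℕ} (hn : 0 < n) (R : ZMod M) (hR : R ^ n = 1) :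
    ∃ B : Equiv.Perm (ZMod M), B ^ n = 1 ∧ ∀ c : ZMod M, B * addP c * B⁻¹ = addP (R * c) := by
  let u : (ZMod M)ˣ := Units.ofPowEqOne R n hR hn.ne'
  let B : Equiv.Perm (ZMod M) := Units.mulLeft u
  have hB : ∀ s, B s = R * s := fun s => rfl
  refine ⟨B, ?_, ?_⟩
  · have h1 : ∀ j : ℕ, ∀ s, (B ^ j) s = R ^ j * s := by
      intro j
      induction j with
      | zero => simp
      | succ j ih =>
        intro s
        rw [pow_succ, Equiv.Perm.mul_apply, ih, hB, pow_succ, mul_assoc]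
    ext s
    rw [h1, hR, one_mul]
    rfl
  · intro c
    have h1 : B * addP c = addP (R * c) * B := by
      ext s
      simp only [Equiv.Perm.mul_apply, hB, addP, Equiv.coe_addRight]
      ring_nf
    rw [h1]
    group

end model

/-- Let `m, n ≥ 1`, `r ≥ 1` with `r ^ n ≡ 1 (mod m)`, and `l` a natural number; put `d = gcd(m, r - 1)`, `t = m l / d` and `h = d · gcd(m, 1 + r + ⋯ + r^(n-1)) / m`. The group presented by generators `a, b` and relations `a ^ m = 1`, `b ^ n = a ^ t`, `b a b⁻¹ = a ^ r` (a metacyclic group of order `m n`) has Schur multiplier cyclic of order `gcd(l, h)`. -/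
theorem result (m n r l : ℕ) (hm : 0 < m) (hn : 0 < n) (hr : 0 < r) (hrn : r ^ n ≡ 1 [MOD m]) : Cfsg.HasCyclicSchurMultiplier (PresentedGroup ({FreeGroup.of true ^ m, (FreeGroup.of false) ^ n * (FreeGroup.of true ^ (m * l / Nat.gcd m (r - 1)))⁻¹, FreeGroup.of false * FreeGroup.of true * (FreeGroup.of false)⁻¹ * (FreeGroup.of true ^ r)⁻¹} : Set (FreeGroup Bool))) (Nat.gcd l (Nat.gcd m (r - 1) * Nat.gcd m (∑ i ∈ Finset.range n, r ^ i) / m)) := by
  obtain ⟨d, u₁, u₂, f, c, hd, hdpos, hu₂pos, h1, h2, hcop, ht, hσ, hc, hcu, hh⟩ :=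
    numbers m n r l hm hn hr hrn
  rw [← hd, hh]
  -- the relators with `t`
  rw [ht] at *
  set t := u₂ * l with htdef
  set g := Nat.gcd l (Nat.gcd d f) with hg
  have hgpos : 0 < g := Nat.gcd_pos_of_pos_right _ (Nat.gcd_pos_of_pos_left _ hdpos)
  have hgl : g ∣ l := Nat.gcd_dvd_left _ _
  have hgd : g ∣ d := (Nat.gcd_dvd_right _ _).trans (Nat.gcd_dvd_left _ _)
  have hgf : g ∣ f := (Nat.gcd_dvd_right _ _).trans (Nat.gcd_dvd_right _ _)
  let S : Set (FreeGroup Bool) := rels m n r t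
  haveI hfin : Finite (PresentedGroup S) := finite_presented m n r t hm hn
  let ρ : FreeGroup Bool →* PresentedGroup S := PresentedGroup.mk S
  have hρ : Function.Surjective ρ := PresentedGroup.mk_surjective S
  apply (hasSchurMultiplier_iff ρ hρ).mpr
  have hcent : (proj ρ).ker ≤ center (Cov ρ) := ker_proj_le_center ρ
  let q : FreeGroup Bool →* Cov ρ := QuotientGroup.mk' (brk ρ)
  let aF : FreeGroup Bool := FreeGroup.of true
  let bF : FreeGroup Bool := FreeGroup.of false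
  let r₁ : FreeGroup Bool := aF ^ m
  let r₂ : FreeGroup Bool := bF ^ n * (aF ^ t)⁻¹
  let r₃ : FreeGroup Bool := bF * aF * bF⁻¹ * (aF ^ r)⁻¹
  let a := q aF
  let b := q bF
  let x := q r₁
  let y := q r₂
  let z := q r₃
  have hx : x = a ^ m := map_pow q aF m
  have hy : y = b ^ n * (a ^ t)⁻¹ := by
    show q (bF ^ n * (aF ^ t)⁻¹) = _
    rw [map_mul, map_inv, map_pow, map_pow]
  have hz : z = b * a * b⁻¹ * (a ^ r)⁻¹ := by
    show q (bF * aF * bF⁻¹ * (aF ^ r)⁻¹) = _
    rw [map_mul, map_mul, map_mul, map_inv, map_inv, map_pow]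
  have hr₁ : r₁ ∈ S := by simp [S, r₁, aF, rels]
  have hr₂ : r₂ ∈ S := by simp [S, r₂, aF, bF, rels]
  have hr₃ : r₃ ∈ S := by simp [S, r₃, aF, bF, rels]
  have hmemker : ∀ s ∈ S, q s ∈ (proj ρ).ker := fun s hs => PresentedGroup.one_of_mem hs
  have hxc : x ∈ center (Cov ρ) := hcent (hmemker _ hr₁)
  have hyc : y ∈ center (Cov ρ) := hcent (hmemker _ hr₂)
  have hzc : z ∈ center (Cov ρ) := hcent (hmemker _ hr₃)
  obtain ⟨hwd, hwf, hwl⟩ := relations_w a b m n r t d u₁ u₂ l f c hr x y z hx hy hz hxc hyc hzc h1 h2 rfl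
    hσ hc hcu
  set w := x ^ u₁ * z ^ u₂ with hw
  have hordg : orderOf w ∣ g := by
    apply Nat.dvd_gcd (orderOf_dvd_of_pow_eq_one hwl)
    exact Nat.dvd_gcd (orderOf_dvd_of_pow_eq_one hwd) (orderOf_dvd_of_pow_eq_one hwf)
  -- lower bound
  obtain ⟨k, hk⟩ := exists_add_mul_coprime u₁ u₂ g hgpos.ne' hcop
  set v := u₁ + k * u₂ with hv
  let M := m * g
  haveI : NeZero M := ⟨(Nat.mul_pos hm hgpos).ne'⟩
  let R : ZMod M := ((r + m * k : ℕ) : ZMod M)
  have hRn : R ^ n = 1 := numbers_lower m n r d u₁ u₂ f g k hm hr h1 h2 hσ hgd hgf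
  obtain ⟨B, hBn, hBc⟩ := exists_mulP hn R hRn
  let φ₀ : FreeGroup Bool →* Equiv.Perm (ZMod M) := FreeGroup.lift (fun c => cond c (addP 1) B)
  have hφa : φ₀ aF = addP 1 := by simp [φ₀, aF]
  have hφb : φ₀ bF = B := by simp [φ₀, bF]
  have hRe : r + m * k = 1 + d * v := by
    have : r = d * u₁ + 1 := by omega
    rw [this, h2, hv]
    ring
  have hR' : R = 1 + (d : ZMod M) * (v : ZMod M) := by
    show ((r + m * k : ℕ) : ZMod M) = _
    rw [hRe]
    push_cast
    ring
  have hdm : (d : ZMod M) * (m : ZMod M) = 0 := by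
    obtain ⟨d', hd'⟩ := hgd
    have h3 : ((d * m : ℕ) : ZMod M) = 0 :=
      (ZMod.natCast_eq_zero_iff _ _).mpr ⟨d', by rw [hd']; simp only [M]; ring⟩
    exact_mod_cast h3
  have hlm : (l : ZMod M) * (m : ZMod M) = 0 := by
    obtain ⟨l', hl'⟩ := hgl
    have h3 : ((l * m : ℕ) : ZMod M) = 0 :=
      (ZMod.natCast_eq_zero_iff _ _).mpr ⟨l', by rw [hl']; simp only [M]; ring⟩
    exact_mod_cast h3
  have hm' : (m : ZMod M) = (d : ZMod M) * (u₂ : ZMod M) := by
    conv_lhs => rw [h2]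
    push_cast
    ring
  have hRm : R * (m : ZMod M) = m := by
    rw [hR']
    linear_combination (v : ZMod M) * hdm
  have hRt : R * (t : ZMod M) = t := by
    rw [hR', htdef]
    push_cast
    linear_combination (v : ZMod M) * hlm - (v : ZMod M) * (l : ZMod M) * hm'
  have hRr : R - (r : ZMod M) = (m : ZMod M) * (k : ZMod M) := by
    show ((r + m * k : ℕ) : ZMod M) - _ = _
    push_cast
    ring
  have hRz : R * (R - (r : ZMod M)) = R - (r : ZMod M) := by
    rw [hRr, ← mul_assoc, hRm]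
  have hcomB : ∀ c : ZMod M, R * c = c → Commute (addP c) B := by
    intro c hc
    have h3 := hBc c
    rw [hc] at h3
    have h4 : B * addP c = addP c * B := mul_inv_eq_iff_eq_mul.mp h3
    exact h4.symm
  have hcomA : ∀ c e : ZMod M, Commute (addP c) (addP e) := by
    intro c e
    show addP c * addP e = addP e * addP c
    rw [addP_mul, addP_mul, add_comm]
  have hφ₁ : φ₀ r₁ = addP (m : ZMod M) := by
    show φ₀ (aF ^ m) = _
    rw [map_pow, hφa, addP_pow, mul_one]
  have hφ₂ : φ₀ r₂ = addP (-(t : ZMod M)) := by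
    show φ₀ (bF ^ n * (aF ^ t)⁻¹) = _
    rw [map_mul, map_inv, map_pow, map_pow, hφa, hφb, hBn, one_mul, addP_pow, mul_one, addP_inv]
  have hφ₃ : φ₀ r₃ = addP (R - (r : ZMod M)) := by
    show φ₀ (bF * aF * bF⁻¹ * (aF ^ r)⁻¹) = _
    rw [map_mul, map_mul, map_mul, map_inv, map_inv, map_pow, hφa, hφb, hBc, addP_pow, mul_one, mul_one,
      addP_inv, addP_mul, sub_eq_add_neg]
  have hcomm : ∀ s ∈ S, ∀ c : Bool, Commute (φ₀ s) (φ₀ (FreeGroup.of c)) := by
    intro s hs c
    have hc : φ₀ (FreeGroup.of c) = cond c (addP 1) B := by simp [φ₀]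
    rw [hc]
    rcases hs with rfl | rfl | rfl
    · rw [show φ₀ (FreeGroup.of true ^ m) = _ from hφ₁]
      cases c
      · exact hcomB _ hRm
      · exact hcomA _ _
    · rw [show φ₀ (FreeGroup.of false ^ n * (FreeGroup.of true ^ t)⁻¹) = _ from hφ₂]
      cases c
      · apply hcomB
        rw [mul_neg, hRt]
      · exact hcomA _ _
    · rw [show φ₀ (FreeGroup.of false * FreeGroup.of true * (FreeGroup.of false)⁻¹ *
        (FreeGroup.of true ^ r)⁻¹) = _ from hφ₃]
      cases c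
      · exact hcomB _ hRz
      · exact hcomA _ _
  obtain ⟨φ, hφ⟩ := lift_central S φ₀ hcomm
  have hφw : φ w = addP ((m : ZMod M) * (v : ZMod M)) := by
    rw [hw, map_mul, map_pow, map_pow]
    have h3 : φ x = addP (m : ZMod M) := (hφ r₁).trans hφ₁
    have h4 : φ z = addP (R - (r : ZMod M)) := (hφ r₃).trans hφ₃
    rw [h3, h4, addP_pow, addP_pow, addP_mul, hRr, hv]
    congr 1
    push_cast
    ring
  have hgord : g ∣ orderOf w := by
    have h3 : φ (w ^ orderOf w) = 1 := by rw [pow_orderOf_eq_one, map_one]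
    rw [map_pow, hφw, addP_pow] at h3
    have h4 := addP_eq_one _ h3
    have h5 : ((orderOf w * (m * v) : ℕ) : ZMod M) = 0 := by
      push_cast
      exact h4
    have h6 := (ZMod.natCast_eq_zero_iff _ _).mp h5
    have h7 : g ∣ orderOf w * v := by
      have h8 : m * g ∣ m * (orderOf w * v) := by
        have : m * (orderOf w * v) = orderOf w * (m * v) := by ring
        rw [this]
        exact h6
      exact (Nat.mul_dvd_mul_iff_left hm).mp h8
    exact (Nat.Coprime.dvd_of_dvd_mul_right hk.symm h7)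
  have hord : orderOf w = g := Nat.dvd_antisymm hordg hgord
  -- the multiplier is generated by `w`
  have hwker : w ∈ (proj ρ).ker := by
    rw [hw]
    exact mul_mem (pow_mem (hmemker _ hr₁) _) (pow_mem (hmemker _ hr₃) _)
  have habq : ∀ s, ab ρ (q s) = Abelianization.of s := fun _ => rfl
  have hwE : w ∈ commutator (Cov ρ) := by
    rw [← ker_ab ρ, MonoidHom.mem_ker, hw, map_mul, map_pow, map_pow]
    show (ab ρ (q r₁)) ^ u₁ * (ab ρ (q r₃)) ^ u₂ = 1
    rw [habq, habq]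
    show (Abelianization.of (aF ^ m)) ^ u₁ * (Abelianization.of (bF * aF * bF⁻¹ * (aF ^ r)⁻¹)) ^ u₂ = 1
    rw [map_pow, map_mul, map_mul, map_mul, map_inv, map_inv, map_pow]
    set A₀ := Abelianization.of aF
    set B₀ := Abelianization.of bF
    have hr1 : r = d * u₁ + 1 := by omega
    have h3 : B₀ * A₀ * B₀⁻¹ * (A₀ ^ r)⁻¹ = (A₀ ^ (d * u₁))⁻¹ := by
      have h3' : B₀ * A₀ * B₀⁻¹ = A₀ := by
        rw [mul_comm B₀, mul_assoc, mul_inv_cancel, mul_one]
      rw [h3', hr1, pow_succ', mul_inv, mul_inv_cancel_left]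
    rw [h3, inv_pow, ← pow_mul, ← pow_mul, h2]
    have h4 : d * u₂ * u₁ = d * u₁ * u₂ := by ring
    rw [h4]
    group
  have hwM : w ∈ Mbar ρ := ⟨hwker, hwE⟩
  let χ₀ : FreeGroup Bool →* Multiplicative (ℤ × ℤ) :=
    FreeGroup.lift (fun c => cond c (Multiplicative.ofAdd ((1 : ℤ), (0 : ℤ))) (Multiplicative.ofAdd ((0 : ℤ), (1 : ℤ))))
  let χ : Cov ρ →* Multiplicative (ℤ × ℤ) := (Abelianization.lift χ₀).comp (ab ρ)
  have hχ : ∀ s, χ (q s) = χ₀ s := fun s => Abelianization.lift_apply_of χ₀ s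
  have hχa : χ₀ aF = Multiplicative.ofAdd ((1 : ℤ), (0 : ℤ)) := by simp [χ₀, aF]
  have hχb : χ₀ bF = Multiplicative.ofAdd ((0 : ℤ), (1 : ℤ)) := by simp [χ₀, bF]
  have hχx : Multiplicative.toAdd (χ x) = ((m : ℤ), (0 : ℤ)) := by
    show Multiplicative.toAdd (χ (q r₁)) = _
    rw [hχ]
    show Multiplicative.toAdd (χ₀ (aF ^ m)) = _
    rw [map_pow, hχa, toAdd_pow]
    simp
  have hχy : Multiplicative.toAdd (χ y) = (-(t : ℤ), (n : ℤ)) := by
    show Multiplicative.toAdd (χ (q r₂)) = _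
    rw [hχ]
    show Multiplicative.toAdd (χ₀ (bF ^ n * (aF ^ t)⁻¹)) = _
    rw [map_mul, map_inv, map_pow, map_pow, hχa, hχb, toAdd_mul, toAdd_inv, toAdd_pow, toAdd_pow]
    simp
  have hχz : Multiplicative.toAdd (χ z) = (1 - (r : ℤ), (0 : ℤ)) := by
    show Multiplicative.toAdd (χ (q r₃)) = _
    rw [hχ]
    show Multiplicative.toAdd (χ₀ (bF * aF * bF⁻¹ * (aF ^ r)⁻¹)) = _
    have e0 : χ₀ (bF * aF * bF⁻¹ * (aF ^ r)⁻¹) = χ₀ bF * χ₀ aF * (χ₀ bF)⁻¹ * ((χ₀ aF) ^ r)⁻¹ := by
      simp only [map_mul, map_inv, map_pow]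
    rw [e0, hχa, hχb, toAdd_mul, toAdd_mul, toAdd_mul, toAdd_inv, toAdd_inv, toAdd_pow]
    simp only [toAdd_ofAdd]
    ext
    · simp
      ring
    · simp
  have hMb : Mbar ρ = zpowers w := by
    apply le_antisymm
    · rintro e ⟨he1, he2⟩
      have he3 := ker_proj_mem_closure S e he1
      have hset : ((fun s : FreeGroup Bool => (s : Cov (PresentedGroup.mk S))) '' S) = {x, y, z} := by
        show (fun s : FreeGroup Bool => q s) '' {r₁, r₂, r₃} = _
        rw [Set.image_insert_eq, Set.image_insert_eq, Set.image_singleton]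
      rw [hset] at he3
      obtain ⟨i, j, o, heo⟩ := closure_three x y z hxc hyc hzc e he3
      have hχe : Multiplicative.toAdd (χ e) = 0 := by
        have h3 : ab ρ e = 1 := by
          have : e ∈ (ab ρ).ker := by
            rw [ker_ab]; exact he2
          exact this
        show Multiplicative.toAdd ((Abelianization.lift χ₀) (ab ρ e)) = 0
        rw [h3, map_one]
        rfl
      have e0 : χ e = (χ x) ^ i * (χ y) ^ j * (χ z) ^ o := by
        rw [heo]
        simp only [map_mul, map_zpow]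
      rw [e0, toAdd_mul, toAdd_mul, toAdd_zpow, toAdd_zpow, toAdd_zpow, hχx, hχy, hχz] at hχe
      have hc1 := congrArg Prod.fst hχe
      have hc2 := congrArg Prod.snd hχe
      simp at hc1 hc2
      have hj : j = 0 := by
        rcases hc2 with h | h
        · exact h
        · exact absurd h hn.ne'
      subst hj
      have hrz : (r : ℤ) - 1 = (d : ℤ) * u₁ := by
        have : r = d * u₁ + 1 := by omega
        rw [this]
        push_cast
        ring
      have hmz : (m : ℤ) = (d : ℤ) * u₂ := by exact_mod_cast h2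
      have hd0 : (d : ℤ) ≠ 0 := by exact_mod_cast hdpos.ne'
      have hu0 : (u₂ : ℤ) ≠ 0 := by exact_mod_cast hu₂pos.ne'
      have hcast : (i : ℤ) * u₂ = o * u₁ := by
        apply mul_left_cancel₀ hd0
        have h4 : (i : ℤ) * m + o * (1 - r) = 0 := by simpa using hc1
        rw [hmz] at h4
        have h5 : (1 : ℤ) - r = -((d : ℤ) * u₁) := by linarith
        rw [h5] at h4
        linarith
      have hcopz : IsCoprime (u₁ : ℤ) (u₂ : ℤ) := Nat.isCoprime_iff_coprime.mpr hcop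
      have hdv : (u₂ : ℤ) ∣ o := by
        have h4 : (u₂ : ℤ) ∣ o * u₁ := ⟨i, by linarith⟩
        exact hcopz.symm.dvd_of_dvd_mul_right h4
      obtain ⟨s', hs'⟩ := hdv
      have his : i = s' * u₁ := by
        apply mul_right_cancel₀ hu0
        rw [hcast, hs']
        ring
      refine ⟨s', ?_⟩
      show w ^ s' = e
      rw [heo, his, hs', hw]
      have hcommw : Commute (x ^ u₁) (z ^ u₂) := by
        have := mem_center_iff.mp (pow_mem hzc u₂) (x ^ u₁)
        exact this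
      rw [hcommw.mul_zpow]
      simp only [zpow_zero, mul_one, ← zpow_natCast, ← zpow_mul]
      congr 2 <;> ring
    · rw [zpowers_le]
      exact hwM
  have hcard : Nat.card (Mbar ρ) = g := by
    rw [hMb, Nat.card_zpowers, hord]
  have hcyc : IsCyclic (Mbar ρ) := by
    rw [hMb]
    infer_instance
  have hequiv := zmodCyclicMulEquiv hcyc
  rw [hcard] at hequiv
  exact ⟨hequiv⟩

end Cfsg.Agent.S3967
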