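import Mathlib
import Cfsg.Statements.S3969
import Cfsg.Agent.Lib.BurnsideAut
import Cfsg.Agent.Lib.Frat

set_option autoImplicit false
open Cfsg

namespace Cfsg.Agent.S3969

open Subgroup

/-- A prime-order automorphism of a finite `p`-group `Q` is trivial on `Q / Φ(Q)` or its order divides `p ^ k - 1` for
`k` at most the rank of `Q`. -/
lemma trivial_or_dvd {Q : Type*} [Group Q] [Finite Q] {p r : ℕ} [hp : Fact p.Prime]
    (hQ : IsPGroup p Q) (hr : r.Prime) (hrp : r ≠ p) (τ : MulAut Q) (hτ : τ ^ r = 1) :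
    τ = 1 ∨ ∃ k ∈ Finset.Icc 1 (Group.rank Q), r ∣ p ^ k - 1 := by
  classical
  by_cases htriv : ∀ q : Q, τ q * q⁻¹ ∈ frattini Q
  · left
    exact Cfsg.Agent.Lib.BurnsideAut.aut_eq_one_of_trivial_on_frattini hQ hr hrp τ hτ htriv
  right
  push Not at htriv
  obtain ⟨q0, hq0⟩ := htriv
  let Φ := frattini Q
  have hmap : Φ.map τ.toMonoidHom = Φ := (Subgroup.characteristic_iff_map_eq.mp inferInstance) τ
  let t : (Q ⧸ Φ) ≃* (Q ⧸ Φ) := QuotientGroup.congr Φ Φ τ hmap
  have htmk : ∀ q : Q, t (q : Q ⧸ Φ) = ((τ q : Q) : Q ⧸ Φ) := fun q => QuotientGroup.congr_mk _ _ _ _ _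
  let f : Function.End (Q ⧸ Φ) := fun v => t v
  have hf : ∀ (n : ℕ) (q : Q), (f ^ n) (q : Q ⧸ Φ) = (((τ ^ n) q : Q) : Q ⧸ Φ) := by
    intro n
    induction n with
    | zero => intro q; rfl
    | succ n ih =>
      intro q
      rw [pow_succ, pow_succ]
      change (f ^ n) (f (q : Q ⧸ Φ)) = _
      have : f (q : Q ⧸ Φ) = ((τ q : Q) : Q ⧸ Φ) := htmk q
      rw [this, ih]
      rfl
  have hfr : f ^ r ^ 1 = 1 := by
    rw [pow_one]
    funext v
    obtain ⟨q, rfl⟩ := QuotientGroup.mk_surjective v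
    have h1 := hf r q
    rw [hτ] at h1
    exact h1
  haveI hrf : Fact r.Prime := ⟨hr⟩
  haveI : Fintype (Q ⧸ Φ) := Fintype.ofFinite _
  have hmod := Equiv.Perm.card_fixedPoints_modEq (p := r) (n := 1) hfr
  -- the fixed subgroup of the quotient
  let F : Subgroup (Q ⧸ Φ) :=
    { carrier := {v | t v = v}
      mul_mem' := by
        intro a b ha hb
        change t a = a at ha
        change t b = b at hb
        change t (a * b) = a * b
        rw [map_mul, ha, hb]
      one_mem' := by
        change t 1 = 1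
        exact map_one t
      inv_mem' := by
        intro a ha
        change t a = a at ha
        change t a⁻¹ = a⁻¹
        rw [map_inv, ha] }
  have hFcard : Nat.card F = Fintype.card (Function.fixedPoints f) := by
    rw [← Nat.card_eq_fintype_card]
    apply Nat.card_congr
    exact Equiv.subtypeEquivRight (fun v => by
      change t v = v ↔ f v = v
      exact Iff.rfl)
  have hVp : IsPGroup p (Q ⧸ Φ) := hQ.to_quotient Φ
  obtain ⟨a, ha⟩ := IsPGroup.iff_card.mp hVp
  have hFdvd : Nat.card F ∣ p ^ a := ha ▸ Subgroup.card_subgroup_dvd_card F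
  obtain ⟨b, hb, hbF⟩ := (Nat.dvd_prime_pow hp.out).mp hFdvd
  have hblt : b < a := by
    refine lt_of_le_of_ne hb ?_
    rintro rfl
    have hFtop : F = ⊤ := by
      apply Subgroup.eq_top_of_card_eq
      rw [hbF, ha]
    have hmem : ((q0 : Q) : Q ⧸ Φ) ∈ F := by rw [hFtop]; trivial
    have h1 : t (q0 : Q ⧸ Φ) = (q0 : Q ⧸ Φ) := hmem
    rw [htmk] at h1
    apply hq0
    have h2 : (q0 : Q)⁻¹ * τ q0 ∈ Φ := QuotientGroup.eq.mp h1.symm
    have hN : Φ.Normal := inferInstance
    have h3 := hN.conj_mem _ h2 q0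
    have h4 : q0 * (q0⁻¹ * τ q0) * q0⁻¹ = τ q0 * q0⁻¹ := by group
    rwa [h4] at h3
  have haLe : a ≤ Group.rank Q := by
    obtain ⟨S, hS, hcl⟩ := Group.rank_spec Q
    have h1 := Cfsg.Agent.Lib.Frat.index_frattini_le hQ S
    have h2 : Cfsg.Agent.Lib.Frat.basisW Q S = ⊤ := by
      rw [Cfsg.Agent.Lib.Frat.basisW, hcl, top_sup_eq]
    rw [h2, Subgroup.index_top, one_mul, hS] at h1
    have h3 : (frattini Q).index = p ^ a := by
      rw [Subgroup.index, ← ha]
    rw [h3] at h1
    exact (Nat.pow_le_pow_iff_right hp.out.one_lt).mp h1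
  refine ⟨a - b, ?_, ?_⟩
  · rw [Finset.mem_Icc]
    omega
  · rw [← hFcard, hbF] at hmod
    rw [← Nat.card_eq_fintype_card, ha] at hmod
    have h1 : r ∣ p ^ a - p ^ b := (Nat.modEq_iff_dvd' (Nat.pow_le_pow_right hp.out.pos hb)).mp hmod.symm
    have h2 : p ^ a - p ^ b = p ^ b * (p ^ (a - b) - 1) := by
      rw [Nat.mul_sub, mul_one, ← pow_add]
      congr 2
      omega
    rw [h2] at h1
    rcases (Nat.Prime.dvd_mul hr).mp h1 with h3 | h3
    · exact absurd ((Nat.prime_dvd_prime_iff_eq hr hp.out).mp (hr.dvd_of_dvd_pow h3)) hrp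
    · exact h3

/-- Let `P` be an abelian Sylow `p`-subgroup of the finite group `G`, generated by `d` elements (`d` its minimal number of generators). If the order of `G` is coprime to `(p - 1)(p ^ 2 - 1) ⋯ (p ^ d - 1)`, then `G` has a normal `p`-complement. (The classical statement needs only the largest number of cyclic factors of `P` of equal order in place of `d`; the form here follows from it.) -/
theorem result {G : Type*} [Group G] [Finite G] (p : ℕ) [Fact p.Prime] (P : Sylow p G) (hab : IsMulCommutative (P : Subgroup G)) (hcop : Nat.Coprime (Nat.card G) (∏ i ∈ Finset.Icc 1 (Group.rank (P : Subgroup G)), (p ^ i - 1))) : Cfsg.HasNormalPComplement p G := by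
  classical
  let N : Subgroup G := normalizer (P : Set G)
  let φ := (P : Subgroup G).normalizerMonoidHom
  -- `P` lies in the kernel
  have hPker : ∀ x : G, ∀ hx : x ∈ (P : Subgroup G), ∀ hxN : x ∈ N, φ ⟨x, hxN⟩ = 1 := by
    intro x hx hxN
    have h1 : (⟨x, hxN⟩ : N) ∈ φ.ker := by
      rw [Subgroup.normalizerMonoidHom_ker, Subgroup.mem_subgroupOf]
      rw [Subgroup.mem_centralizer_iff]
      intro y hy
      have h2 : (⟨x, hx⟩ : (P : Subgroup G)) * ⟨y, hy⟩ = ⟨y, hy⟩ * ⟨x, hx⟩ := by
        exact hab.is_comm.comm _ _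
      exact (congrArg Subtype.val h2).symm
    exact h1
  -- the image has order prime to `p`
  have hpA : ¬ p ∣ Nat.card φ.range := by
    intro hdvd
    have hle : (P : Subgroup G).subgroupOf N ≤ φ.ker := by
      intro x hx
      have hx' : (x : G) ∈ (P : Subgroup G) := Subgroup.mem_subgroupOf.mp hx
      have := hPker (x : G) hx' x.2
      exact this
    have h1 : Nat.card φ.range = φ.ker.index := (Subgroup.index_ker φ).symm
    have h2 : φ.ker.index ∣ ((P : Subgroup G).subgroupOf N).index := Subgroup.index_dvd_of_le hle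
    have h3 : (P : Subgroup G).relIndex N * N.index = (P : Subgroup G).index :=
      Subgroup.relIndex_mul_index Subgroup.le_normalizer
    have h4 : ((P : Subgroup G).subgroupOf N).index ∣ (P : Subgroup G).index := by
      rw [← h3]
      exact Dvd.intro _ rfl
    apply P.not_dvd_index
    exact hdvd.trans (h1 ▸ (h2.trans h4))
  have hAtriv : φ.range = ⊥ := by
    by_contra hne
    have hne1 : Nat.card φ.range ≠ 1 := by
      intro h1
      exact hne (Subgroup.eq_bot_of_card_eq _ h1)
    obtain ⟨r, hr, hrd⟩ := Nat.exists_prime_and_dvd hne1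
    haveI : Fact r.Prime := ⟨hr⟩
    obtain ⟨τ, hτ⟩ := exists_prime_orderOf_dvd_card' (G := φ.range) r hrd
    have hτ1 : (τ : MulAut (P : Subgroup G)) ^ r = 1 := by
      have := pow_orderOf_eq_one τ
      rw [hτ] at this
      exact congrArg Subtype.val this
    have hrp : r ≠ p := by
      rintro rfl
      exact hpA hrd
    have hτne : (τ : MulAut (P : Subgroup G)) ≠ 1 := by
      intro h
      have : τ = 1 := Subtype.ext h
      rw [this, orderOf_one] at hτ
      exact hr.one_lt.ne hτ
    rcases trivial_or_dvd (P.isPGroup') hr hrp _ hτ1 with h | ⟨k, hk, hrk⟩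
    · exact hτne h
    · -- `r` divides `|G|`
      have hrG : r ∣ Nat.card G := by
        have h1 : Nat.card φ.range ∣ Nat.card N := Subgroup.card_range_dvd φ
        exact (hrd.trans h1).trans (Subgroup.card_subgroup_dvd_card N)
      have hrprod : r ∣ ∏ i ∈ Finset.Icc 1 (Group.rank (P : Subgroup G)), (p ^ i - 1) :=
        hrk.trans (Finset.dvd_prod_of_mem _ hk)
      have := Nat.dvd_gcd hrG hrprod
      rw [hcop] at this
      exact hr.one_lt.ne' (Nat.dvd_one.mp this)
  have key : (normalizer (P : Set G)) ≤ centralizer (P : Set G) := by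
    intro g hg
    have h1 : φ ⟨g, hg⟩ = 1 := by
      have h2 : φ ⟨g, hg⟩ ∈ φ.range := ⟨_, rfl⟩
      rw [hAtriv] at h2
      exact h2
    have h2 : (⟨g, hg⟩ : N) ∈ φ.ker := h1
    rw [Subgroup.normalizerMonoidHom_ker, Subgroup.mem_subgroupOf] at h2
    exact h2
  exact ⟨P, _, inferInstance, MonoidHom.ker_transferSylow_isComplement' P key⟩

end Cfsg.Agent.S3969
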