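import Mathlib
import Cfsg.Statements.S3970
import Cfsg.Agent.S3969

set_option autoImplicit false
open Cfsg

namespace Cfsg.Agent.S3970

universe u

lemma coprime_aux (n p i : ℕ) (hn : n ≠ 1) (hp : n.minFac = p) (hi : i = 1 ∨ i = 2)
    (h2 : i = 2 → ¬ (p = 2 ∧ 3 ∣ n)) : Nat.Coprime n (p ^ i - 1) := by
  have hpp : p.Prime := hp ▸ Nat.minFac_prime hn
  have hp2 := hpp.two_le
  apply Nat.coprime_of_dvd
  intro l hl hln hld
  have hle : p ≤ l := hp ▸ Nat.minFac_le_of_dvd hl.two_le hln
  have hlt : l ∣ p - 1 → False := by
    intro h
    have := Nat.le_of_dvd (by omega) h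
    omega
  rcases hi with rfl | rfl
  · rw [pow_one] at hld
    exact hlt hld
  · have h3 : p ^ 2 - 1 = (p + 1) * (p - 1) := by
      have : p ^ 2 - 1 ^ 2 = (p + 1) * (p - 1) := Nat.sq_sub_sq p 1
      simpa using this
    rw [h3] at hld
    rcases (Nat.Prime.dvd_mul hl).mp hld with h4 | h4
    · have h5 := Nat.le_of_dvd (by omega) h4
      apply h2 rfl
      have h6 : l ≠ p := by
        rintro rfl
        have : l ∣ 1 := (Nat.dvd_add_right (dvd_refl l)).mp h4
        exact hl.one_lt.ne' (Nat.dvd_one.mp this)
      have h7 : l = p + 1 := by omega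
      rcases hpp.eq_two_or_odd with h8 | h8
      · refine ⟨h8, ?_⟩
        rw [h8] at h7
        rw [h7] at hln
        exact hln
      · exfalso
        have h9 : 2 ∣ l := by omega
        have h10 := (Nat.prime_dvd_prime_iff_eq Nat.prime_two hl).mp h9
        omega
    · exact hlt h4

lemma solvable_aux : ∀ (n : ℕ) (G : Type u) [Group G] [Finite G], Nat.card G = n →
    (∀ p : ℕ, p.Prime → p ∣ Nat.card G → (∃ q : ℕ, q.Prime ∧ q ∣ Nat.card G ∧ p < q) →
      ∀ P : Sylow p G, IsMulCommutative (P : Subgroup G) ∧ Group.rank (P : Subgroup G) ≤ 2) →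
    ¬ 12 ∣ Nat.card G → Group.IsSolvable G := by
  intro n
  induction n using Nat.strong_induction_on with
  | _ n ih =>
    intro G _ _ hG h h12
    by_cases hn1 : Nat.card G = 1
    · have : Subsingleton G := (Nat.card_eq_one_iff_unique.mp hn1).1
      infer_instance
    set p := (Nat.card G).minFac with hpdef
    have hpp : p.Prime := Nat.minFac_prime hn1
    have hpG : p ∣ Nat.card G := Nat.minFac_dvd _
    haveI hfact : Fact p.Prime := ⟨hpp⟩
    by_cases hq : ∃ q : ℕ, q.Prime ∧ q ∣ Nat.card G ∧ p < q
    · obtain P : Sylow p G := Inhabited.default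
      obtain ⟨hab, hrk⟩ := h p hpp hpG hq P
      have hcop : Nat.Coprime (Nat.card G) (∏ i ∈ Finset.Icc 1 (Group.rank (P : Subgroup G)), (p ^ i - 1)) := by
        apply Nat.Coprime.prod_right
        intro i hi
        rw [Finset.mem_Icc] at hi
        apply coprime_aux _ _ _ hn1 hpdef.symm (by omega)
        rintro rfl ⟨hp2, h3⟩
        have h4 : ¬ 4 ∣ Nat.card G := by
          intro h4
          apply h12
          have : (12 : ℕ) = 3 * 4 := by norm_num
          rw [this]
          exact Nat.Coprime.mul_dvd_of_dvd_of_dvd (by norm_num) h3 h4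
        have hPcard : Nat.card (P : Subgroup G) ∣ Nat.card G := Subgroup.card_subgroup_dvd_card _
        obtain ⟨a, ha⟩ := IsPGroup.iff_card.mp P.isPGroup'
        rw [ha, hp2] at hPcard
        have ha1 : a ≤ 1 := by
          by_contra hcon
          apply h4
          have : (4 : ℕ) ∣ 2 ^ a := by
            have h5 : (4 : ℕ) = 2 ^ 2 := by norm_num
            rw [h5]
            exact pow_dvd_pow 2 (by omega)
          exact this.trans hPcard
        have hrk1 : Group.rank (P : Subgroup G) ≤ 1 := by
          have hcyc : IsCyclic (P : Subgroup G) := by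
            rcases (by omega : a = 0 ∨ a = 1) with rfl | rfl
            · rw [pow_zero] at ha
              have : Subsingleton (P : Subgroup G) := (Nat.card_eq_one_iff_unique.mp ha).1
              infer_instance
            · have ha2 : Nat.card (P : Subgroup G) = 2 := by rw [ha, pow_one]; exact hp2
              haveI : Fact (Nat.Prime 2) := ⟨Nat.prime_two⟩
              exact isCyclic_of_prime_card ha2
          obtain ⟨g, hg⟩ := isCyclic_iff_exists_zpowers_eq_top.mp hcyc
          have h5 : Subgroup.closure (({g} : Finset (P : Subgroup G)) : Set (P : Subgroup G)) = ⊤ := by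
            rw [Finset.coe_singleton, ← Subgroup.zpowers_eq_closure, hg]
          simpa using Group.rank_le h5
        omega
      obtain ⟨P', N, hN, hcompl⟩ := Cfsg.Agent.S3969.result p P hab hcop
      have hNcard : Nat.card N * Nat.card (P' : Subgroup G) = Nat.card G := hcompl.card_mul
      have hNidx : N.index = Nat.card (P' : Subgroup G) := hcompl.symm.index_eq_card
      have hPpos : 1 < Nat.card (P' : Subgroup G) := by
        have h3 : p ∣ Nat.card (P' : Subgroup G) := by
          have := Sylow.dvd_card_of_dvd_card P' hpG
          exact this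
        exact lt_of_lt_of_le hpp.one_lt (Nat.le_of_dvd Nat.card_pos h3)
      have hNlt : Nat.card N < n := by
        rw [← hG, ← hNcard]
        exact lt_mul_of_one_lt_right Nat.card_pos hPpos
      have hcopN : ¬ p ∣ Nat.card N := by
        rw [← hcompl.index_eq_card]
        exact P'.not_dvd_index
      have hNsolv : Group.IsSolvable N := by
        apply ih _ hNlt N rfl
        · intro l hl hlN hqN Q
          have hlG : l ∣ Nat.card G := hlN.trans (Subgroup.card_subgroup_dvd_card N)
          have hqG : ∃ q : ℕ, q.Prime ∧ q ∣ Nat.card G ∧ l < q := by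
            obtain ⟨q, hq1, hq2, hq3⟩ := hqN
            exact ⟨q, hq1, hq2.trans (Subgroup.card_subgroup_dvd_card N), hq3⟩
          haveI hfl : Fact l.Prime := ⟨hl⟩
          have hlp : l ≠ p := by
            rintro rfl
            exact hcopN hlN
          -- `Q` is a Sylow subgroup of `G`
          let Q' : Subgroup G := (Q : Subgroup N).map N.subtype
          have hQ'card : Nat.card Q' = Nat.card (Q : Subgroup N) :=
            Subgroup.card_map_of_injective N.subtype_injective
          have hfac : (Nat.card G).factorization l = (Nat.card N).factorization l := by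
            rw [← hNcard, Nat.factorization_mul Nat.card_pos.ne' Nat.card_pos.ne']
            obtain ⟨b, hb⟩ := IsPGroup.iff_card.mp P'.isPGroup'
            rw [hb, Nat.Prime.factorization_pow hpp]
            simp [Finsupp.single_apply, hlp.symm]
          let Q'' : Sylow l G := Sylow.ofCard Q' (by
            rw [hQ'card, hfac]
            exact Q.card_eq_multiplicity)
          obtain ⟨h1, h3⟩ := h l hl hlG hqG Q''
          let e : (Q : Subgroup N) ≃* Q' := (Q : Subgroup N).equivMapOfInjective N.subtype N.subtype_injective
          have h1' : IsMulCommutative Q' := h1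
          constructor
          · refine ⟨⟨fun a b => ?_⟩⟩
            apply e.injective
            rw [map_mul, map_mul]
            exact h1'.is_comm.comm _ _
          · have h4 : Group.rank (Q : Subgroup N) = Group.rank Q' := Group.rank_congr e
            rw [h4]
            exact h3
        · intro hd
          exact h12 (hd.trans (Subgroup.card_subgroup_dvd_card N))
      have hQuot : Group.IsSolvable (G ⧸ N) := by
        have h3 : Nat.card (G ⧸ N) = Nat.card (P' : Subgroup G) := hNidx
        obtain ⟨b, hb⟩ := IsPGroup.iff_card.mp P'.isPGroup'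
        have hP2 : IsPGroup p (G ⧸ N) := IsPGroup.of_card (h3.trans hb)
        have : Group.IsNilpotent (G ⧸ N) := hP2.isNilpotent
        exact IsNilpotent.to_isSolvable
      exact solvable_of_ker_le_range N.subtype (QuotientGroup.mk' N) (by
        rw [QuotientGroup.ker_mk', Subgroup.range_subtype])
    · -- `G` is a `p`-group
      push Not at hq
      have hall : ∀ {d : ℕ}, d.Prime → d ∣ Nat.card G → d = p := by
        intro d hd hdG
        have h1 := hq d hd hdG
        have h2 : p ≤ d := Nat.minFac_le_of_dvd hd.two_le hdG
        omega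
      have hcard := Nat.eq_prime_pow_of_unique_prime_dvd (Nat.card_pos.ne' : Nat.card G ≠ 0) hall
      have hP2 : IsPGroup p G := IsPGroup.of_card hcard
      have : Group.IsNilpotent G := hP2.isNilpotent
      exact IsNilpotent.to_isSolvable

/-- Let `G` be a finite group such that for every prime `p` dividing its order, other than the largest such prime, the Sylow `p`-subgroups are abelian and generated by at most two elements, and suppose `12` does not divide the order of `G`. Then `G` is solvable. In particular a group of cube-free order not divisible by `12` is solvable. -/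
theorem result {G : Type*} [Group G] [Finite G] (h : ∀ p : ℕ, p.Prime → p ∣ Nat.card G → (∃ q : ℕ, q.Prime ∧ q ∣ Nat.card G ∧ p < q) → ∀ P : Sylow p G, IsMulCommutative (P : Subgroup G) ∧ Group.rank (P : Subgroup G) ≤ 2) (h12 : ¬ 12 ∣ Nat.card G) : Group.IsSolvable G :=
  solvable_aux _ G rfl h h12

end Cfsg.Agent.S3970
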