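import Mathlib
import Cfsg.Statements.S3971
import Cfsg.Agent.S3969
import Cfsg.Agent.Lib.NPCBasic
import Cfsg.Agent.Lib.PComplement
import Cfsg.Agent.Lib.FrobCount

set_option autoImplicit false
open Cfsg

namespace Cfsg.Agent.S3971

open Subgroup

/-- A subgroup of a group with a cyclic subgroup of index at most `2` is generated by two elements. -/
lemma rank_le_two {S : Type*} [Group S] [Finite S] (C : Subgroup S) (hC : IsCyclic C)
    (hi : ∀ u v : S, u ∉ C → v ∉ C → u⁻¹ * v ∈ C) (Q : Subgroup S) : Group.rank Q ≤ 2 := by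
  classical
  have hD : IsCyclic (C.subgroupOf Q) := by
    let f : (C.subgroupOf Q) →* C := MonoidHom.mk' (fun x => ⟨((x : Q) : S), Subgroup.mem_subgroupOf.mp x.2⟩)
      (fun _ _ => rfl)
    refine isCyclic_of_injective f ?_
    intro a b hab
    have h1 : ((a : Q) : S) = ((b : Q) : S) := congrArg (fun z : C => (z : S)) hab
    exact Subtype.ext (Subtype.ext h1)
  obtain ⟨d, hd⟩ := isCyclic_iff_exists_zpowers_eq_top.mp hD
  have hmemD : ∀ q : Q, (q : S) ∈ C → q ∈ Subgroup.closure ({(d : Q)} : Set Q) := by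
    intro q hq
    have h1 : (⟨q, Subgroup.mem_subgroupOf.mpr hq⟩ : C.subgroupOf Q) ∈ Subgroup.zpowers d := by
      rw [hd]; trivial
    obtain ⟨k, hk⟩ := Subgroup.mem_zpowers_iff.mp h1
    have h2 : (d : Q) ^ k = q := by
      have := congrArg Subtype.val hk
      rwa [Subgroup.coe_zpow] at this
    have h3 : (d : Q) ^ k ∈ Subgroup.closure ({(d : Q)} : Set Q) :=
      Subgroup.zpow_mem _ (Subgroup.subset_closure (Set.mem_singleton _)) k
    exact h2 ▸ h3
  by_cases hQC : ∃ e : Q, (e : S) ∉ C
  · obtain ⟨e, he⟩ := hQC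
    let T : Finset Q := {(d : Q), e}
    have hT : Subgroup.closure (T : Set Q) = ⊤ := by
      rw [eq_top_iff]
      intro q _
      have hle : Subgroup.closure ({(d : Q)} : Set Q) ≤ Subgroup.closure (T : Set Q) := by
        apply Subgroup.closure_mono
        intro z hz
        rw [Set.mem_singleton_iff] at hz
        simp [T, hz]
      have heT : e ∈ Subgroup.closure (T : Set Q) := Subgroup.subset_closure (by simp [T])
      by_cases hq : (q : S) ∈ C
      · exact hle (hmemD q hq)
      · have h1 : (((e⁻¹ * q : Q)) : S) ∈ C := hi _ _ he hq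
        have h2 := hle (hmemD _ h1)
        have h3 : q = e * (e⁻¹ * q) := by group
        rw [h3]
        exact Subgroup.mul_mem _ heT h2
    calc Group.rank Q ≤ T.card := Group.rank_le hT
      _ ≤ 2 := Finset.card_le_two
  · push Not at hQC
    let T : Finset Q := {(d : Q)}
    have hT : Subgroup.closure (T : Set Q) = ⊤ := by
      rw [eq_top_iff]
      intro q _
      have := hmemD q (hQC q)
      simpa [T] using this
    calc Group.rank Q ≤ T.card := Group.rank_le hT
      _ ≤ 2 := by simp [T]

/-- Let `G` be a finite group of order `2 ^ a * n` with `n` odd and not divisible by `3`, and suppose `G` has an element of order `2 ^ (a - 1)` (so a Sylow `2`-subgroup has a cyclic subgroup of index at most `2`). Then `G` has a normal subgroup of order `n`. -/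
theorem result {G : Type*} [Group G] [Finite G] (a n : ℕ) (hG : Nat.card G = 2 ^ a * n) (hn : Odd n) (h3 : ¬ 3 ∣ n) (hx : ∃ x : G, orderOf x = 2 ^ (a - 1)) : ∃ N : Subgroup G, N.Normal ∧ Nat.card N = n := by
  classical
  haveI hf2 : Fact (Nat.Prime 2) := ⟨Nat.prime_two⟩
  obtain ⟨x, hx⟩ := hx
  have h3G : ¬ 3 ∣ Nat.card G := by
    rw [hG]
    intro h
    rcases (Nat.Prime.dvd_mul Nat.prime_three).mp h with h1 | h1
    · have := (Nat.prime_dvd_prime_iff_eq Nat.prime_three Nat.prime_two).mp (Nat.prime_three.dvd_of_dvd_pow h1)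
      omega
    · exact h3 h1
  -- the Sylow subgroups have order `2 ^ a`
  have hn0 : n ≠ 0 := by
    rintro rfl
    simp at hn
  have hnc : Nat.Coprime 2 n := (Nat.coprime_two_left).mpr hn
  have hsyl : ∀ P : Sylow 2 G, Nat.card (P : Subgroup G) = 2 ^ a := by
    intro P
    rw [Sylow.card_eq_multiplicity, hG, Nat.factorization_mul (pow_ne_zero _ two_ne_zero) hn0,
      Nat.Prime.factorization_pow Nat.prime_two]
    have : n.factorization 2 = 0 := Nat.factorization_eq_zero_of_not_dvd (by
      intro h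
      exact (Nat.not_even_iff_odd.mpr hn) (even_iff_two_dvd.mpr h))
    simp [this]
  have hrank : ∀ Q : Subgroup G, IsPGroup 2 Q → Group.rank Q ≤ 2 := by
    intro Q hQ
    obtain ⟨S, hS⟩ := hQ.exists_le_sylow
    have hxP : IsPGroup 2 (Subgroup.zpowers x) := by
      rw [IsPGroup.iff_card, Nat.card_zpowers, hx]
      exact ⟨_, rfl⟩
    obtain ⟨S1, hS1⟩ := hxP.exists_le_sylow
    obtain ⟨h, hh⟩ := MulAction.exists_smul_eq G S1 S
    have hx1 : h * x * h⁻¹ ∈ (S : Subgroup G) := by
      rw [← hh]
      exact Cfsg.Agent.Lib.TransferCore.mem_smul_sylow'.mpr (hS1 (Subgroup.mem_zpowers x))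
    -- the cyclic subgroup of index at most two
    let y : (S : Subgroup G) := ⟨h * x * h⁻¹, hx1⟩
    have hy : orderOf y = 2 ^ (a - 1) := by
      rw [← hx, ← Subgroup.orderOf_coe]
      exact Cfsg.Agent.Lib.FrobCount.orderOf_conj' h x
    let C : Subgroup (S : Subgroup G) := Subgroup.zpowers y
    have hCidx : C.index = 2 ∨ C.index = 1 := by
      have h1 := Subgroup.card_mul_index C
      rw [Nat.card_zpowers, hy, hsyl S] at h1
      rcases Nat.eq_zero_or_pos a with rfl | ha
      · right
        simpa using h1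
      · left
        have h2 : 2 ^ a = 2 ^ (a - 1) * 2 := by
          rw [← pow_succ]
          congr 1
          omega
        rw [h2] at h1
        exact Nat.eq_of_mul_eq_mul_left (pow_pos (by norm_num) _) h1
    have hi : ∀ u v : (S : Subgroup G), u ∉ C → v ∉ C → u⁻¹ * v ∈ C := by
      intro u v hu hv
      rcases hCidx with h2 | h1
      · have := Subgroup.mul_mem_iff_of_index_two h2 (a := u⁻¹) (b := v)
        rw [this]
        constructor
        · intro hh; exact absurd (by simpa using C.inv_mem hh) hu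
        · intro hh; exact absurd hh hv
      · exact absurd ((Subgroup.index_eq_one.mp h1) ▸ Subgroup.mem_top u) hu
    have h5 := rank_le_two C inferInstance hi (Q.subgroupOf (S : Subgroup G))
    rwa [Group.rank_congr (Subgroup.subgroupOfEquivOfLe hS)] at h5
  have hF : Cfsg.HasNormalPComplement 2 G := by
    rw [Cfsg.Agent.Lib.PComplement.hasNormalPComplement_iff_forall]
    intro Q hQ g hg hco
    by_contra hgC
    let φ := Q.normalizerMonoidHom
    let τ := φ ⟨g, hg⟩
    have hτ : τ ≠ 1 := by
      intro h1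
      apply hgC
      have h2 : (⟨g, hg⟩ : normalizer (Q : Set G)) ∈ φ.ker := h1
      rw [Subgroup.normalizerMonoidHom_ker, Subgroup.mem_subgroupOf] at h2
      exact h2
    have hord : orderOf τ ∣ orderOf g := by
      have := orderOf_map_dvd φ (⟨g, hg⟩ : normalizer (Q : Set G))
      rwa [Subgroup.orderOf_mk] at this
    have hne1 : orderOf τ ≠ 1 := fun h => hτ (orderOf_eq_one_iff.mp h)
    obtain ⟨r, hr, hrd⟩ := Nat.exists_prime_and_dvd hne1
    have hr2 : r ≠ 2 := by
      rintro rfl
      have := Nat.dvd_gcd (hrd.trans hord) (dvd_refl 2)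
      rw [hco] at this
      omega
    have hτ' : orderOf (τ ^ (orderOf τ / r)) = r :=
      orderOf_pow_orderOf_div (orderOf_pos τ).ne' hrd
    have hτ1 : (τ ^ (orderOf τ / r)) ^ r = 1 := by
      have h9 := pow_orderOf_eq_one (τ ^ (orderOf τ / r))
      rwa [hτ'] at h9
    rcases Cfsg.Agent.S3969.trivial_or_dvd hQ hr hr2 _ hτ1 with h1 | ⟨k, hk, hrk⟩
    · rw [h1, orderOf_one] at hτ'
      exact hr.one_lt.ne hτ'
    · rw [Finset.mem_Icc] at hk
      have hk2 := hrank Q hQ
      have hkc : k = 1 ∨ k = 2 := by omega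
      rcases hkc with rfl | rfl
      · norm_num at hrk
        exact hr.one_lt.ne' hrk
      · norm_num at hrk
        have hr3 : r = 3 := (Nat.prime_dvd_prime_iff_eq hr Nat.prime_three).mp hrk
        apply h3G
        rw [← hr3]
        exact (hrd.trans hord).trans (orderOf_dvd_natCard g)
  obtain ⟨N, hN, hco, k, hk⟩ := Cfsg.Agent.Lib.NPCBasic.hasNPC_iff.mp hF
  refine ⟨N, hN, ?_⟩
  have h1 : Nat.card N * 2 ^ k = 2 ^ a * n := by
    rw [← hk, Subgroup.card_mul_index, hG]
  apply Nat.dvd_antisymm
  · have : Nat.card N ∣ 2 ^ a * n := Dvd.intro _ h1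
    exact (Nat.Coprime.pow_right a hco).dvd_of_dvd_mul_left this
  · have : n ∣ Nat.card N * 2 ^ k := Dvd.intro_left _ h1.symm
    exact (Nat.Coprime.pow_right k hnc.symm).dvd_of_dvd_mul_right this

end Cfsg.Agent.S3971
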