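import Mathlib
import Cfsg.Statements.S3972
set_option autoImplicit false

namespace Cfsg.Agent.S3972

open Finset

/-- Schur-type relation on a finite abelian group: the orbits of a point stabilizer in a transitive
group containing the regular group `A`. -/
structure IsSch {A : Type*} [AddCommGroup A] (R : A → A → Prop) : Prop where
  refl : ∀ x, R x x
  symm : ∀ {x y}, R x y → R y x
  trans : ∀ {x y z}, R x y → R y z → R x z
  zero : ∀ {x}, R 0 x → x = 0
  shift : ∀ {x x'}, R x x' → ∃ σ : Equiv.Perm A, ∀ y, R y (σ y) ∧ R (y - x) (σ y - x')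

variable {A : Type*} [AddCommGroup A] {R : A → A → Prop}

namespace IsSch

variable (hR : IsSch R)
include hR

lemma neg {x x' : A} (h : R x x') : R (-x) (-x') := by
  obtain ⟨σ, hσ⟩ := hR.shift h
  have h0 := hR.zero (hσ 0).1
  have := (hσ 0).2
  simpa [h0] using this

lemma closure_closed (T : Set A) (hT : ∀ u ∈ T, ∀ x, R u x → x ∈ T) :
    ∀ u ∈ AddSubgroup.closure T, ∀ x, R u x → x ∈ AddSubgroup.closure T := by
  intro u hu
  induction hu using AddSubgroup.closure_induction with
  | mem u hu => exact fun x hx => AddSubgroup.subset_closure (hT u hu x hx)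
  | zero => intro x hx; rw [hR.zero hx]; exact zero_mem _
  | add u v _ _ ihu ihv =>
    intro x hx
    obtain ⟨σ, hσ⟩ := hR.shift hx
    have h1 := ihu _ (hσ u).1
    have h2 := hR.neg (hσ u).2
    have h3 : -(u - (u + v)) = v := by abel
    have h4 : -(σ u - x) = x - σ u := by abel
    rw [h3, h4] at h2
    have h5 := ihv _ h2
    have : x = σ u + (x - σ u) := by abel
    rw [this]; exact add_mem h1 h5
  | neg u _ ihu =>
    intro x hx
    have := hR.neg hx
    rw [neg_neg] at this
    simpa using ihu _ this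

variable [Fintype A]

lemma conv_inv {S : Type*} [CommSemiring S] {f g : A → S} (hf : ∀ x x', R x x' → f x = f x')
    (hg : ∀ x x', R x x' → g x = g x') {x x' : A} (h : R x x') :
    ∑ y, f y * g (y - x) = ∑ y, f y * g (y - x') := by
  obtain ⟨σ, hσ⟩ := hR.shift h
  rw [← Equiv.sum_comp σ (fun y => f y * g (y - x'))]
  exact Finset.sum_congr rfl fun y _ => by rw [hf _ _ (hσ y).1, hg _ _ (hσ y).2]

/-- Invariant elements of the group algebra. -/
def Inv' {q : ℕ} (R : A → A → Prop) (w : AddMonoidAlgebra (ZMod q) A) : Prop :=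
  ∀ x x', R x x' → w.coeff x = w.coeff x'

omit hR in
lemma coeff_mul_eq {q : ℕ} (w₁ w₂ : AddMonoidAlgebra (ZMod q) A) (x : A) :
    (w₁ * w₂).coeff x = ∑ y, w₁.coeff y * (fun z => w₂.coeff (-z)) (y - x) := by
  classical
  rw [AddMonoidAlgebra.coeff_mul_apply_left, Finsupp.sum_fintype _ _ (by simp)]
  refine Finset.sum_congr rfl fun y _ => ?_
  simp only [neg_sub]
  congr 2
  abel

lemma inv_mul {q : ℕ} {w₁ w₂ : AddMonoidAlgebra (ZMod q) A} (h₁ : Inv' R w₁) (h₂ : Inv' R w₂) :
    Inv' R (w₁ * w₂) := by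
  intro x x' h
  rw [coeff_mul_eq, coeff_mul_eq]
  refine hR.conv_inv (g := fun z => w₂.coeff (-z)) h₁ ?_ h
  intro a b hab
  exact h₂ _ _ (hR.neg hab)

lemma inv_one {q : ℕ} : Inv' R (1 : AddMonoidAlgebra (ZMod q) A) := by
  classical
  intro x x' h
  rw [AddMonoidAlgebra.one_def, AddMonoidAlgebra.coeff_single, Finsupp.single_apply,
    Finsupp.single_apply]
  have h1 : 0 = x ↔ 0 = x' := by
    constructor
    · rintro rfl
      exact (hR.zero h).symm
    · rintro rfl
      exact (hR.zero (hR.symm h)).symm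
  simp [h1]

lemma inv_pow {q : ℕ} {w : AddMonoidAlgebra (ZMod q) A} (h : Inv' R w) (n : ℕ) :
    Inv' R (w ^ n) := by
  induction n with
  | zero => simpa using hR.inv_one
  | succ n ih => rw [pow_succ]; exact hR.inv_mul ih h

end IsSch

section Frob

variable [Fintype A] {q : ℕ} [Fact q.Prime]

instance charPGA : CharP (AddMonoidAlgebra (ZMod q) A) q :=
  charP_of_injective_algebraMap (R := ZMod q)
    (by
      intro a b hab
      have := congrArg (fun w => AddMonoidAlgebra.coeff w 0) hab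
      simpa [AddMonoidAlgebra.coe_algebraMap] using this) q

open Classical in
/-- Frobenius: for a closed set, the number of `q`-th-multiple-preimages is `R`-invariant mod `q`. -/
lemma frob_inv (hR : IsSch R) (T : Finset A) (hT : ∀ u ∈ T, ∀ x, R u x → x ∈ T) {x x' : A}
    (h : R x x') :
    ((T.filter (fun y => q • y = x)).card : ZMod q) = ((T.filter (fun y => q • y = x')).card : ZMod q) := by
  set t : AddMonoidAlgebra (ZMod q) A := ∑ y ∈ T, AddMonoidAlgebra.single y 1 with ht
  have h1 : IsSch.Inv' R t := by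
    intro a b hab
    have key : ∀ c, t.coeff c = if c ∈ T then 1 else 0 := by
      intro c
      simp only [ht, AddMonoidAlgebra.coeff_sum, AddMonoidAlgebra.coeff_single, Finsupp.coe_finset_sum, Finset.sum_apply, Finsupp.single_apply]
      simp
    rw [key, key]
    have : a ∈ T ↔ b ∈ T := ⟨fun ha => hT a ha b hab, fun hb => hT b hb a (hR.symm hab)⟩
    simp [this]
  have h2 := hR.inv_pow h1 q x x' h
  have h3 : t ^ q = ∑ y ∈ T, AddMonoidAlgebra.single (q • y) 1 := by
    rw [ht, sum_pow_char]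
    refine Finset.sum_congr rfl fun y _ => ?_
    rw [AddMonoidAlgebra.single_pow]
    simp
  have key : ∀ c, (t ^ q).coeff c = ((T.filter (fun y => q • y = c)).card : ZMod q) := by
    intro c
    rw [h3]
    simp only [AddMonoidAlgebra.coeff_sum, AddMonoidAlgebra.coeff_single, Finsupp.coe_finset_sum, Finset.sum_apply, Finsupp.single_apply]
    rw [Finset.card_filter]
    push_cast
    rfl
  rw [← key, ← key, h2]

end Frob

section Core

variable [Fintype A] {q : ℕ} [Fact q.Prime]

lemma exists_not_mul (hR : IsSch R) (hK' : ∃ x : A, ∀ y : A, q • y ≠ x)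
    (hprim : ∀ U : AddSubgroup A, (∀ u ∈ U, ∀ x, R u x → x ∈ U) → U = ⊥ ∨ U = ⊤)
    (T : Set A) (hT : ∀ u ∈ T, ∀ x, R u x → x ∈ T) {x : A} (hx : x ∈ T) (hx0 : x ≠ 0) :
    ∃ w ∈ T, ∀ y : A, q • y ≠ w := by
  by_contra hcon
  push Not at hcon
  rcases hprim _ (hR.closure_closed T hT) with h | h
  · have : x ∈ AddSubgroup.closure T := AddSubgroup.subset_closure hx
    rw [h] at this
    exact hx0 (by simpa using this)
  · have hle : AddSubgroup.closure T ≤ (nsmulAddMonoidHom (α := A) q).range := by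
      rw [AddSubgroup.closure_le]
      intro w hw
      obtain ⟨y, hy⟩ := hcon w hw
      exact ⟨y, by simpa using hy⟩
    rw [h] at hle
    obtain ⟨z, hz⟩ := hK'
    obtain ⟨y, hy⟩ := hle (AddSubgroup.mem_top z)
    exact hz y (by simpa using hy)

open Classical in
lemma count_dvd (hR : IsSch R) (hK' : ∃ x : A, ∀ y : A, q • y ≠ x)
    (hprim : ∀ U : AddSubgroup A, (∀ u ∈ U, ∀ x, R u x → x ∈ U) → U = ⊥ ∨ U = ⊤)
    (T : Finset A) (hT : ∀ u ∈ T, ∀ x, R u x → x ∈ T) {x : A} (hx0 : x ≠ 0) :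
    q ∣ (T.filter (fun y => q • y = x)).card := by
  obtain ⟨w, hw, hw'⟩ := exists_not_mul (q := q) hR hK' hprim {w | R x w}
    (fun u hu z hz => hR.trans hu hz) (hR.refl x) hx0
  have h1 := frob_inv (q := q) hR T hT hw
  have h2 : T.filter (fun y => q • y = w) = ∅ := by
    rw [Finset.filter_eq_empty_iff]
    intro y _
    exact hw' y
  rw [h2] at h1
  simp only [card_empty, Nat.cast_zero] at h1
  exact (ZMod.natCast_eq_zero_iff _ _).1 h1

open Classical in
lemma add_mem_of (hR : IsSch R) (hK' : ∃ x : A, ∀ y : A, q • y ≠ x)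
    (hVc : (Finset.univ.filter (fun v : A => q • v = 0)).card ≤ q)
    (hprim : ∀ U : AddSubgroup A, (∀ u ∈ U, ∀ x, R u x → x ∈ U) → U = ⊥ ∨ U = ⊤)
    (T : Finset A) (hT : ∀ u ∈ T, ∀ x, R u x → x ∈ T) {y v : A} (hy : y ∈ T) (hy0 : q • y ≠ 0)
    (hv : q • v = 0) : y + v ∈ T := by
  set F := T.filter (fun w => q • w = q • y) with hF
  set G := (Finset.univ.filter (fun v : A => q • v = 0)).image (fun v => y + v) with hG
  have h1 : q ∣ F.card := count_dvd hR hK' hprim T hT hy0
  have h2 : 0 < F.card := Finset.card_pos.2 ⟨y, by simp [hF, hy]⟩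
  have h3 : q ≤ F.card := Nat.le_of_dvd h2 h1
  have h4 : G.card ≤ q := Finset.card_image_le.trans hVc
  have h5 : F ⊆ G := by
    intro w hw
    rw [hF, Finset.mem_filter] at hw
    rw [hG, Finset.mem_image]
    refine ⟨w - y, ?_, by abel⟩
    simp [smul_sub, hw.2]
  have h6 : F = G := Finset.eq_of_subset_of_card_le h5 (h4.trans h3)
  have h7 : y + v ∈ G := by
    rw [hG, Finset.mem_image]
    exact ⟨v, by simp [hv], rfl⟩
  rw [← h6, hF, Finset.mem_filter] at h7
  exact h7.1

open Classical in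
lemma meets (hR : IsSch R) (hK' : ∃ x : A, ∀ y : A, q • y ≠ x)
    (hVc : (Finset.univ.filter (fun v : A => q • v = 0)).card ≤ q)
    (hV₀ : ∃ v : A, v ≠ 0 ∧ q • v = 0)
    (hprim : ∀ U : AddSubgroup A, (∀ u ∈ U, ∀ x, R u x → x ∈ U) → U = ⊥ ∨ U = ⊤)
    (T : Finset A) (hT : ∀ u ∈ T, ∀ x, R u x → x ∈ T) (hne : T.Nonempty) (h0 : (0 : A) ∉ T) :
    ∃ v ∈ T, q • v = 0 := by
  by_contra hcon
  push Not at hcon
  let St : AddSubgroup A :=
    { carrier := {a | ∀ y, y ∈ T ↔ y - a ∈ T}
      zero_mem' := by intro y; simp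
      add_mem' := by
        intro a b ha hb y
        rw [ha y, hb (y - a)]
        have : y - a - b = y - (a + b) := by abel
        rw [this]
      neg_mem' := by
        intro a ha y
        have := ha (y - -a)
        simp only [sub_neg_eq_add, add_sub_cancel_right] at this ⊢
        exact this.symm }
  have hSt : ∀ a, a ∈ St ↔ ∀ y, y ∈ T ↔ y - a ∈ T := fun a => Iff.rfl
  have hclosed : ∀ u ∈ St, ∀ x, R u x → x ∈ St := by
    intro a ha a' h y
    obtain ⟨σ, hσ⟩ := hR.shift h
    have h1 := hσ (σ.symm y)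
    rw [Equiv.apply_symm_apply] at h1
    constructor
    · intro hy
      have h2 : σ.symm y ∈ T := hT _ hy _ (hR.symm h1.1)
      exact hT _ (((hSt a).1 ha _).1 h2) _ h1.2
    · intro hy
      have h2 : σ.symm y - a ∈ T := hT _ hy _ (hR.symm h1.2)
      exact hT _ (((hSt a).1 ha _).2 h2) _ h1.1
  rcases hprim St hclosed with h | h
  · obtain ⟨v, hv0, hv⟩ := hV₀
    have : v ∈ St := by
      intro y
      constructor
      · intro hy
        have := add_mem_of hR hK' hVc hprim T hT hy (hcon y hy) (v := -v) (by simp [hv])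
        simpa [sub_eq_add_neg] using this
      · intro hy
        have := add_mem_of hR hK' hVc hprim T hT hy (hcon _ hy) (v := v) hv
        simpa using this
    rw [h] at this
    exact hv0 (by simpa using this)
  · obtain ⟨y, hy⟩ := hne
    have : y ∈ St := by rw [h]; exact AddSubgroup.mem_top y
    have := ((hSt y).1 this y).1 hy
    rw [sub_self] at this
    exact h0 this

open Classical in
/-- The core theorem: a primitive Schur relation has only one non-trivial class. -/
theorem core (hR : IsSch R) (hK' : ∃ x : A, ∀ y : A, q • y ≠ x)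
    (hV : ∀ v : A, q • v = 0 → ∃ y : A, q • y = v)
    (hVc : (Finset.univ.filter (fun v : A => q • v = 0)).card ≤ q)
    (hV₀ : ∃ v : A, v ≠ 0 ∧ q • v = 0)
    (hprim : ∀ U : AddSubgroup A, (∀ u ∈ U, ∀ x, R u x → x ∈ U) → U = ⊥ ∨ U = ⊤)
    {x y : A} (hx : x ≠ 0) (hy : y ≠ 0) : R x y := by
  -- the class sizes
  let a : A → ℕ := fun x => (Finset.univ.filter (fun w => R x w ∧ q • w = 0)).card
  let b : A → ℕ := fun x => (Finset.univ.filter (fun w => R x w ∧ q • w ≠ 0)).card
  have hcl : ∀ x : A, ∀ u ∈ Finset.univ.filter (fun w => R x w), ∀ z, R u z →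
      z ∈ Finset.univ.filter (fun w => R x w) := by
    intro x u hu z hz
    simp only [Finset.mem_filter, Finset.mem_univ, true_and] at hu ⊢
    exact hR.trans hu hz
  have h0cl : ∀ x : A, x ≠ 0 → (0 : A) ∉ Finset.univ.filter (fun w => R x w) := by
    intro x hx h
    simp only [Finset.mem_filter, Finset.mem_univ, true_and] at h
    exact hx (hR.zero (hR.symm h))
  have ha : ∀ x : A, x ≠ 0 → 0 < a x := by
    intro x hx
    obtain ⟨v, hv, hv'⟩ := meets hR hK' hVc hV₀ hprim _ (hcl x) ⟨x, by simp [hR.refl]⟩ (h0cl x hx)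
    refine Finset.card_pos.2 ⟨v, ?_⟩
    simp only [Finset.mem_filter, Finset.mem_univ, true_and] at hv ⊢
    exact ⟨hv, hv'⟩
  have hb : ∀ x : A, x ≠ 0 → 0 < b x := by
    intro x hx
    obtain ⟨w, hw, hw'⟩ := exists_not_mul (q := q) hR hK' hprim {w | R x w}
      (fun u hu z hz => hR.trans hu hz) (hR.refl x) hx
    refine Finset.card_pos.2 ⟨w, ?_⟩
    simp only [Finset.mem_filter, Finset.mem_univ, true_and]
    refine ⟨hw, fun h => ?_⟩
    obtain ⟨z, hz⟩ := hV w h
    exact hw' z hz
  -- the class with the largest ratio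
  obtain ⟨x₁, hx₁, hmax⟩ := Finset.exists_max_image (Finset.univ.erase (0 : A))
    (fun x => (b x : ℚ) / (a x : ℚ)) ⟨x, by simp [hx]⟩
  have hx₁0 : x₁ ≠ 0 := by simpa using hx₁
  have hratio : ∀ x : A, x ≠ 0 → b x * a x₁ ≤ b x₁ * a x := by
    intro x hx
    have h1 := hmax x (by simp [hx])
    have h2 : (0 : ℚ) < a x := by exact_mod_cast ha x hx
    have h3 : (0 : ℚ) < a x₁ := by exact_mod_cast ha x₁ hx₁0
    rw [div_le_div_iff₀ h2 h3] at h1
    exact_mod_cast h1
  -- only one class
  have main : ∀ y : A, y ≠ 0 → R x₁ y := by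
    intro y₂ hy₂
    by_contra hne
    have hdisj : ∀ z, R x₁ z → R y₂ z → False := fun z h1 h2 =>
      hne (hR.trans h1 (hR.symm h2))
    let a₁ : ℤ := a x₁
    let b₁ : ℤ := b x₁
    let i₁ : A → ℤ := fun z => if R x₁ z then 1 else 0
    let i₂ : A → ℤ := fun z => if R y₂ z then 1 else 0
    let F : A → ℤ := fun x => ∑ y, i₁ y * i₂ (y - x)
    let h : A → ℤ := fun w => if q • w = 0 then - b₁ else a₁
    have hi₁ : ∀ x x', R x x' → i₁ x = i₁ x' := by
      intro x x' hxx
      have : R x₁ x ↔ R x₁ x' := ⟨fun h => hR.trans h hxx, fun h => hR.trans h (hR.symm hxx)⟩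
      simp [i₁, this]
    have hi₂ : ∀ x x', R x x' → i₂ x = i₂ x' := by
      intro x x' hxx
      have : R y₂ x ↔ R y₂ x' := ⟨fun h => hR.trans h hxx, fun h => hR.trans h (hR.symm hxx)⟩
      simp [i₂, this]
    have hF : ∀ x x', R x x' → F x = F x' := fun x x' hxx => hR.conv_inv hi₁ hi₂ hxx
    have hF0 : F 0 = 0 := by
      refine Finset.sum_eq_zero fun y _ => ?_
      simp only [sub_zero, i₁, i₂]
      by_cases h1 : R x₁ y
      · by_cases h2 : R y₂ y
        · exact (hdisj y h1 h2).elim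
        · simp [h2]
      · simp [h1]
    have hFnn : ∀ x, 0 ≤ F x := by
      intro x
      refine Finset.sum_nonneg fun y _ => ?_
      refine mul_nonneg ?_ ?_ <;> simp only [i₁, i₂] <;> split_ifs <;> simp
    have hclass : ∀ x : A, ∑ w ∈ Finset.univ.filter (fun w => R x w), h w
        = - b₁ * a x + a₁ * b x := by
      intro x
      simp only [h]
      rw [Finset.sum_ite, Finset.filter_filter, Finset.filter_filter, Finset.sum_const,
        Finset.sum_const]
      simp [a, b, mul_comm]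
    -- upper bound
    have hupper : ∑ x, F x * h x ≤ 0 := by
      let S : Setoid A :=
        { r := R
          iseqv := ⟨hR.refl, hR.symm, hR.trans⟩ }
      rw [Finset.sum_partition S]
      refine Finset.sum_nonpos fun xbar hxbar => ?_
      rw [Finset.mem_image] at hxbar
      obtain ⟨x, -, rfl⟩ := hxbar
      have hfilter : Finset.univ.filter (fun y => (Quotient.mk S y) = Quotient.mk S x)
          = Finset.univ.filter (fun w => R x w) := by
        ext w
        simp only [Finset.mem_filter, Finset.mem_univ, true_and, Quotient.eq]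
        exact ⟨fun h => hR.symm h, fun h => hR.symm h⟩
      rw [hfilter]
      by_cases hx0 : x = 0
      · subst hx0
        refine le_of_eq (Finset.sum_eq_zero fun w hw => ?_)
        simp only [Finset.mem_filter, Finset.mem_univ, true_and] at hw
        rw [hR.zero hw, hF0, zero_mul]
      · have : ∑ w ∈ Finset.univ.filter (fun w => R x w), F w * h w
            = F x * ∑ w ∈ Finset.univ.filter (fun w => R x w), h w := by
          rw [Finset.mul_sum]
          refine Finset.sum_congr rfl fun w hw => ?_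
          simp only [Finset.mem_filter, Finset.mem_univ, true_and] at hw
          rw [hF _ _ hw]
        rw [this, hclass]
        have h1 := hratio x hx0
        have h2 : (b x : ℤ) * a x₁ ≤ b x₁ * a x := by exact_mod_cast h1
        refine mul_nonpos_of_nonneg_of_nonpos (hFnn x) ?_
        simp only [a₁, b₁]
        nlinarith
    -- exact value
    have hsum2 : ∑ z, i₂ z = (a y₂ : ℤ) + b y₂ := by
      simp only [i₂]
      rw [Finset.sum_boole]
      have := Finset.card_filter_add_card_filter_not (s := Finset.univ.filter (fun w => R y₂ w))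
        (fun w : A => q • w = 0)
      rw [Finset.filter_filter, Finset.filter_filter] at this
      rw [← this]
      push_cast
      rfl
    have hJ1 : ∀ y, R x₁ y → q • y ≠ 0 → ∑ z, i₂ z * h (y - z) = a₁ * ((a y₂ : ℤ) + b y₂) := by
      intro y hy hy0
      rw [← hsum2, Finset.mul_sum]
      refine Finset.sum_congr rfl fun z _ => ?_
      by_cases hz : R y₂ z
      · have hne : q • (y - z) ≠ 0 := by
          intro h0
          have h1 := add_mem_of hR hK' hVc hprim (Finset.univ.filter (fun w => R x₁ w)) (hcl x₁)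
            (y := y) (v := z - y) (by simpa using hy) hy0 (by rw [smul_sub] at h0 ⊢; rw [sub_eq_zero] at h0 ⊢; exact h0.symm)
          simp only [Finset.mem_filter, Finset.mem_univ, true_and, add_sub_cancel] at h1
          exact hdisj z h1 hz
        simp [h, hne, i₂, hz]
      · simp [i₂, hz]
    have hJ2 : ∀ y, R x₁ y → q • y = 0 → ∑ z, i₂ z * h (y - z) = - b₁ * a y₂ + a₁ * b y₂ := by
      intro y _ hy0
      rw [← hclass y₂, Finset.sum_filter]
      refine Finset.sum_congr rfl fun z _ => ?_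
      by_cases hz : R y₂ z
      · have hiff : q • (y - z) = 0 ↔ q • z = 0 := by
          rw [smul_sub, hy0, zero_sub, neg_eq_zero]
        simp [h, hiff, i₂, hz]
      · simp [i₂, hz]
    have hexact : ∑ x, F x * h x = a₁ * b y₂ * (a₁ + b₁) := by
      have h1 : ∑ x, F x * h x = ∑ y, i₁ y * ∑ z, i₂ z * h (y - z) := by
        simp only [F, Finset.sum_mul]
        rw [Finset.sum_comm]
        refine Finset.sum_congr rfl fun y _ => ?_
        rw [← Equiv.sum_comp (Equiv.subLeft y) (fun z => i₂ z * h (y - z)), Finset.mul_sum]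
        refine Finset.sum_congr rfl fun x _ => ?_
        simp [mul_assoc]
      rw [h1]
      have h2 : ∀ y, i₁ y * ∑ z, i₂ z * h (y - z) =
          if R x₁ y then (if q • y = 0 then - b₁ * a y₂ + a₁ * b y₂ else a₁ * ((a y₂ : ℤ) + b y₂))
          else 0 := by
        intro y
        by_cases hy : R x₁ y
        · by_cases hy0 : q • y = 0
          · simp [i₁, hy, hy0, hJ2 y hy hy0]
          · simp [i₁, hy, hy0, hJ1 y hy hy0]
        · simp [i₁, hy]
      simp only [h2]
      rw [← Finset.sum_filter, Finset.sum_ite, Finset.filter_filter, Finset.filter_filter,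
        Finset.sum_const, Finset.sum_const]
      simp only [nsmul_eq_mul]
      change (a x₁ : ℤ) * _ + (b x₁ : ℤ) * _ = _
      simp only [a₁, b₁]
      ring
    rw [hexact] at hupper
    have h1 : (0 : ℤ) < a₁ := by simp only [a₁]; exact_mod_cast ha x₁ hx₁0
    have h2 : (0 : ℤ) < b y₂ := by exact_mod_cast hb y₂ hy₂
    have h3 : (0 : ℤ) ≤ b₁ := by simp [b₁]
    have : (0 : ℤ) < a₁ * b y₂ * (a₁ + b₁) := by positivity
    omega
  exact hR.trans (hR.symm (main x hx)) (main y hy)

end Core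

section ZModFacts

variable {p m : ℕ} [hp : Fact p.Prime]

lemma neZero_pow : NeZero (p ^ m) := ⟨pow_ne_zero _ hp.out.ne_zero⟩

lemma w_ne (hm : 1 ≤ m) : ((p ^ (m - 1) : ℕ) : ZMod (p ^ m)) ≠ 0 := by
  rw [Ne, ZMod.natCast_eq_zero_iff]
  intro h
  have := (Nat.pow_dvd_pow_iff_le_right hp.out.one_lt).1 h
  omega

lemma pow_split (hm : 1 ≤ m) : p ^ m = p * p ^ (m - 1) := by
  rw [← pow_succ', Nat.sub_add_cancel hm]

lemma smul_w (hm : 1 ≤ m) : p • ((p ^ (m - 1) : ℕ) : ZMod (p ^ m)) = 0 := by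
  rw [nsmul_eq_mul, ← Nat.cast_mul, ← pow_split hm]
  exact ZMod.natCast_self _

lemma not_mul (hm : 1 ≤ m) : ∃ x : ZMod (p ^ m), ∀ y : ZMod (p ^ m), p • y ≠ x := by
  refine ⟨1, fun y h => ?_⟩
  have h1 : ((p ^ (m - 1) : ℕ) : ZMod (p ^ m)) * (p • y) = ((p ^ (m - 1) : ℕ) : ZMod (p ^ m)) := by
    rw [h, mul_one]
  apply w_ne (p := p) hm
  rw [← h1, nsmul_eq_mul, ← mul_assoc, ← Nat.cast_mul, mul_comm (p ^ (m - 1)), ← pow_split hm,
    ZMod.natCast_self, zero_mul]

lemma div_of_smul (hm : 2 ≤ m) (v : ZMod (p ^ m)) (hv : p • v = 0) : ∃ y : ZMod (p ^ m), p • y = v := by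
  haveI : NeZero (p ^ m) := neZero_pow
  have h1 : v = (v.val : ZMod (p ^ m)) := (ZMod.natCast_zmod_val v).symm
  have h2 : ((p * v.val : ℕ) : ZMod (p ^ m)) = 0 := by
    rw [Nat.cast_mul, ZMod.natCast_zmod_val]
    simpa [nsmul_eq_mul] using hv
  rw [ZMod.natCast_eq_zero_iff] at h2
  have h2' : p * p ^ (m - 1) ∣ p * v.val := by rw [← pow_split (by omega)]; exact h2
  have h3 : p ^ (m - 1) ∣ v.val := Nat.dvd_of_mul_dvd_mul_left hp.out.pos h2'
  have h4 : p ∣ v.val := (dvd_pow_self p (by omega)).trans h3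
  obtain ⟨c, hc⟩ := h4
  refine ⟨c, ?_⟩
  rw [h1, hc]
  simp [nsmul_eq_mul]

lemma card_ker [NeZero (p ^ m)] [DecidablePred fun v : ZMod (p ^ m) => p • v = 0] :
    (Finset.univ.filter (fun v : ZMod (p ^ m) => p • v = 0)).card ≤ p := by
  classical
  convert IsAddCyclic.card_nsmul_eq_zero_le (α := ZMod (p ^ m)) hp.out.pos

lemma w_mem (hm : 1 ≤ m) (U : AddSubgroup (ZMod (p ^ m))) (hU : U ≠ ⊥) :
    ((p ^ (m - 1) : ℕ) : ZMod (p ^ m)) ∈ U := by
  haveI : NeZero (p ^ m) := neZero_pow
  obtain ⟨x, hx, hx0⟩ : ∃ x ∈ U, x ≠ 0 := by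
    rcases AddSubgroup.bot_or_exists_ne_zero U with h | h
    · exact (hU h).elim
    · exact h
  have hxv : x.val ≠ 0 := by
    rwa [Ne, ZMod.val_eq_zero]
  obtain ⟨j, c, hc, hj⟩ := Nat.exists_eq_pow_mul_and_not_dvd hxv p hp.out.ne_one
  have hjm : j < m := by
    have h1 : x.val < p ^ m := ZMod.val_lt x
    have h2 : p ^ j ≤ x.val := by
      rw [hj]
      exact Nat.le_mul_of_pos_right _ (Nat.pos_of_ne_zero (by rintro rfl; simp at hc))
    exact (Nat.pow_lt_pow_iff_right hp.out.one_lt).1 (lt_of_le_of_lt h2 h1)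
  have hcop : Nat.Coprime c (p ^ m) :=
    (Nat.Coprime.pow_right m ((Nat.Prime.coprime_iff_not_dvd hp.out).2 hc).symm)
  obtain ⟨d, hd⟩ := ((ZMod.isUnit_iff_coprime c (p ^ m)).2 hcop).exists_left_inv
  have h1 : x = ((p ^ j * c : ℕ) : ZMod (p ^ m)) := by
    rw [← hj, ZMod.natCast_zmod_val]
  have h2 : (p ^ (m - 1 - j)) • x = ((p ^ (m - 1) : ℕ) : ZMod (p ^ m)) * (c : ZMod (p ^ m)) := by
    rw [h1, nsmul_eq_mul, ← Nat.cast_mul, ← Nat.cast_mul, ← mul_assoc, ← pow_add]
    congr 3
    omega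
  have h3 : d.val • ((p ^ (m - 1 - j)) • x) = ((p ^ (m - 1) : ℕ) : ZMod (p ^ m)) := by
    rw [h2, nsmul_eq_mul, ZMod.natCast_zmod_val, mul_left_comm, hd, mul_one]
  rw [← h3]
  exact U.nsmul_mem (U.nsmul_mem hx _) _

end ZModFacts

section Action

open Pointwise

variable {G Ω A' : Type*} [Group G] [MulAction G Ω] [AddCommGroup A']

/-- The stabilizer-orbit relation transported to `A'`. -/
def RelOf (G : Type*) [Group G] [MulAction G Ω] (ι : A' ≃ Ω) (x x' : A') : Prop :=
  ∃ γ : G, γ • ι 0 = ι 0 ∧ γ • ι x = ι x'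

variable (t : A' → G) (ι : A' ≃ Ω) (hι : ∀ a b, t a • ι b = ι (a + b))

include hι in
lemma isSch_relOf : IsSch (RelOf G ι) where
  refl x := ⟨1, by simp, by simp⟩
  symm := by
    rintro x y ⟨γ, h1, h2⟩
    exact ⟨γ⁻¹, by rw [inv_smul_eq_iff, h1], by rw [inv_smul_eq_iff, h2]⟩
  trans := by
    rintro x y z ⟨γ, h1, h2⟩ ⟨δ, h3, h4⟩
    exact ⟨δ * γ, by rw [mul_smul, h1, h3], by rw [mul_smul, h2, h4]⟩
  zero := by
    rintro x ⟨γ, h1, h2⟩
    rw [h1] at h2
    exact (ι.injective h2).symm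
  shift := by
    rintro x x' ⟨γ, h1, h2⟩
    refine ⟨ι.trans ((MulAction.toPerm γ).trans ι.symm), fun y =>
      ⟨⟨γ, h1, by simp⟩, ⟨t (-x') * γ * t x, ?_, ?_⟩⟩⟩
    · rw [mul_smul, mul_smul, hι, add_zero, h2, hι, neg_add_cancel]
    · rw [mul_smul, mul_smul, hι, add_sub_cancel]
      have : γ • ι y = ι (ι.symm (γ • ι y)) := by simp
      rw [this, hι]
      congr 1
      simp [sub_eq_neg_add]

include hι in
lemma step (U : AddSubgroup A') (hU : ∀ u ∈ U, ∀ x, RelOf G ι u x → x ∈ U) {γ : G} {u u' : A'}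
    (hu : u ∈ U) (hu' : u' ∈ U) (h : γ • ι u = ι u') {w : A'} (hw : w ∈ U) :
    γ • ι w ∈ ι '' (U : Set A') := by
  refine ⟨ι.symm (γ • ι w), ?_, by simp⟩
  set w' := ι.symm (γ • ι w) with hw'
  have h1 : γ • ι w = ι w' := by simp [hw']
  have h2 : RelOf G ι (w - u) (-u' + w') := by
    refine ⟨t (-u') * γ * t u, ?_, ?_⟩
    · rw [mul_smul, mul_smul, hι, add_zero, h, hι, neg_add_cancel]
    · rw [mul_smul, mul_smul, hι, add_sub_cancel, h1, hι]
  have h3 := hU _ (U.sub_mem hw hu) _ h2
  have h4 : w' = u' + (-u' + w') := by abel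
  rw [h4]
  exact U.add_mem hu' h3

include hι in
lemma isBlock_of_closed (U : AddSubgroup A') (hU : ∀ u ∈ U, ∀ x, RelOf G ι u x → x ∈ U) :
    MulAction.IsBlock G (ι '' (U : Set A')) := by
  rw [MulAction.isBlock_iff_smul_eq_of_mem]
  rintro γ a ⟨u, hu, rfl⟩ ⟨u', hu', hγ⟩
  apply Set.Subset.antisymm
  · rintro _ ⟨_, ⟨w, hw, rfl⟩, rfl⟩
    exact step t ι hι U hU hu hu' hγ.symm hw
  · rintro _ ⟨w, hw, rfl⟩
    have h1 : γ⁻¹ • ι u' = ι u := by rw [inv_smul_eq_iff, hγ]
    have := step t ι hι U hU hu' hu h1 hw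
    refine Set.mem_smul_set.2 ⟨_, this, ?_⟩
    simp

end Action

open Pointwise in
/-- Let `p` be a prime, `m ≥ 2`, and `G` a transitive but not doubly transitive permutation group on `p ^ m` points containing a permutation of order `p ^ m` (necessarily a full cycle). Then `G` is imprimitive, and the normal closure in `G` of the `p ^ (m - 1)`-th power of that permutation is an intransitive normal subgroup. -/
theorem result {Ω : Type*} [Fintype Ω] [DecidableEq Ω] (p m : ℕ) (hp : p.Prime) (hm : 2 ≤ m) (hΩ : Fintype.card Ω = p ^ m) (G : Subgroup (Equiv.Perm Ω)) (htr : MulAction.IsPretransitive G Ω) (h2 : ¬ MulAction.IsMultiplyPretransitive G Ω 2) (g : G) (hg : orderOf g = p ^ m) : ¬ MulAction.IsPreprimitive G Ω ∧ ¬ MulAction.IsPretransitive (Subgroup.normalClosure ({g ^ (p ^ (m - 1))} : Set G)) Ω := by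
  classical
  haveI : Fact p.Prime := ⟨hp⟩
  haveI : NeZero (p ^ m) := neZero_pow
  have hm1 : 1 ≤ m := by omega
  -- the translations
  let t : ZMod (p ^ m) → G := fun a => g ^ a.val
  have hmod : ∀ k : ℕ, g ^ (k % p ^ m) = g ^ k := by
    intro k
    rw [← hg, pow_mod_orderOf]
  have ht : ∀ a b, t (a + b) = t a * t b := by
    intro a b
    simp only [t]
    rw [ZMod.val_add, hmod, pow_add]
  have ht0 : t 0 = 1 := by simp [t]
  have htw : t ((p ^ (m - 1) : ℕ) : ZMod (p ^ m)) = g ^ (p ^ (m - 1)) := by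
    simp only [t]
    rw [ZMod.val_natCast_of_lt]
    exact (Nat.pow_lt_pow_iff_right hp.one_lt).2 (by omega)
  have hcomm : ∀ a k, Commute (t a) (g ^ k) := fun a k => (Commute.refl g).pow_pow _ _
  -- a moved point
  have hz : g ^ (p ^ (m - 1)) ≠ 1 := by
    apply pow_ne_one_of_lt_orderOf (pow_ne_zero _ hp.ne_zero)
    rw [hg]
    exact (Nat.pow_lt_pow_iff_right hp.one_lt).2 (by omega)
  obtain ⟨ω₀, hω₀⟩ : ∃ ω : Ω, g ^ (p ^ (m - 1)) • ω ≠ ω := by
    by_contra hcon
    push Not at hcon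
    apply hz
    ext ω
    simpa [Subgroup.smul_def] using hcon ω
  -- regularity
  let U₀ : AddSubgroup (ZMod (p ^ m)) :=
    { carrier := {a | t a • ω₀ = ω₀}
      zero_mem' := by simp [ht0]
      add_mem' := by
        intro a b ha hb
        simp only [Set.mem_setOf_eq] at ha hb ⊢
        rw [ht, mul_smul, hb, ha]
      neg_mem' := by
        intro a ha
        simp only [Set.mem_setOf_eq] at ha ⊢
        have h1 : t (-a) * t a = 1 := by rw [← ht, neg_add_cancel, ht0]
        have h2 : t (-a) • t a • ω₀ = ω₀ := by rw [← mul_smul, h1, one_smul]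
        rwa [ha] at h2 }
  have hU₀ : U₀ = ⊥ := by
    by_contra hne
    have := w_mem hm1 U₀ hne
    apply hω₀
    rw [← htw]
    exact this
  have hfree : ∀ a, t a • ω₀ = ω₀ → a = 0 := by
    intro a ha
    have : a ∈ U₀ := ha
    rw [hU₀] at this
    simpa using this
  have hinv : ∀ a b, t (a - b) * t b = t a := by
    intro a b
    rw [← ht, sub_add_cancel]
  have hinj : Function.Injective (fun a : ZMod (p ^ m) => t a • ω₀) := by
    intro a b hab
    have h1 : t (a - b) • ω₀ = ω₀ := by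
      have h2 : t (a - b) • t b • ω₀ = t b • ω₀ := by
        rw [← mul_smul, hinv]; exact hab
      have h3 : t b⁻¹ = t b⁻¹ := rfl
      have h4 : Commute (t (a - b)) (t b) := hcomm _ _
      rw [← mul_smul, h4.eq, mul_smul] at h2
      exact smul_left_cancel _ h2
    exact sub_eq_zero.1 (hfree _ h1)
  have hbij : Function.Bijective (fun a : ZMod (p ^ m) => t a • ω₀) := by
    rw [Fintype.bijective_iff_injective_and_card]
    exact ⟨hinj, by rw [ZMod.card, hΩ]⟩
  let ι : ZMod (p ^ m) ≃ Ω := Equiv.ofBijective _ hbij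
  have hι' : ∀ a, ι a = t a • ω₀ := fun a => rfl
  have hι : ∀ a b, t a • ι b = ι (a + b) := by
    intro a b
    rw [hι', hι', ht, mul_smul]
  have hR : IsSch (RelOf G ι) := isSch_relOf t ι hι
  -- a closed proper nontrivial subgroup
  obtain ⟨U, hUc, hUb, hUt⟩ : ∃ U : AddSubgroup (ZMod (p ^ m)),
      (∀ u ∈ U, ∀ x, RelOf G ι u x → x ∈ U) ∧ U ≠ ⊥ ∧ U ≠ ⊤ := by
    by_contra hcon
    push Not at hcon
    have hprim : ∀ U : AddSubgroup (ZMod (p ^ m)), (∀ u ∈ U, ∀ x, RelOf G ι u x → x ∈ U) →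
        U = ⊥ ∨ U = ⊤ := by
      intro U hU
      by_cases hb : U = ⊥
      · exact Or.inl hb
      · exact Or.inr (hcon U hU hb)
    have hcore : ∀ x y : ZMod (p ^ m), x ≠ 0 → y ≠ 0 → RelOf G ι x y := fun x y hx hy =>
      core (q := p) hR (not_mul hm1) (div_of_smul hm) (by convert card_ker (p := p) (m := m))
        ⟨_, w_ne hm1, smul_w hm1⟩ hprim hx hy
    apply h2
    rw [MulAction.is_two_pretransitive_iff]
    intro a b c d hab hcd
    obtain ⟨γ₁, hγ₁⟩ := MulAction.exists_smul_eq G a (ι 0)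
    obtain ⟨γ₂, hγ₂⟩ := MulAction.exists_smul_eq G c (ι 0)
    have hx : ι.symm (γ₁ • b) ≠ 0 := by
      intro h
      have : γ₁ • b = ι 0 := by rw [← h]; simp
      rw [← hγ₁] at this
      exact hab (smul_left_cancel _ this).symm
    have hy : ι.symm (γ₂ • d) ≠ 0 := by
      intro h
      have : γ₂ • d = ι 0 := by rw [← h]; simp
      rw [← hγ₂] at this
      exact hcd (smul_left_cancel _ this).symm
    obtain ⟨δ, hδ1, hδ2⟩ := hcore _ _ hx hy
    refine ⟨γ₂⁻¹ * δ * γ₁, ?_, ?_⟩
    · rw [mul_smul, mul_smul, hγ₁, hδ1, inv_smul_eq_iff, hγ₂]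
    · rw [mul_smul, mul_smul]
      simp only [Equiv.apply_symm_apply] at hδ2
      rw [hδ2, inv_smul_smul]
  have hB : MulAction.IsBlock G (ι '' (U : Set (ZMod (p ^ m)))) := isBlock_of_closed t ι hι U hUc
  obtain ⟨x₀, hx₀⟩ : ∃ x, x ∉ U := by
    by_contra hcon
    push Not at hcon
    exact hUt (by rw [AddSubgroup.eq_top_iff']; exact hcon)
  refine ⟨?_, ?_⟩
  · intro hP
    rcases hP.isTrivialBlock_of_isBlock hB with h | h
    · obtain ⟨x, hx, hx0⟩ : ∃ x ∈ U, x ≠ 0 := by
        rcases AddSubgroup.bot_or_exists_ne_zero U with h' | h'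
        · exact (hUb h').elim
        · exact h'
      exact hx0 (ι.injective (h ⟨x, hx, rfl⟩ ⟨0, U.zero_mem, rfl⟩))
    · have : ι x₀ ∈ ι '' (U : Set (ZMod (p ^ m))) := by rw [h]; trivial
      obtain ⟨u, hu, huu⟩ := this
      exact hx₀ (ι.injective huu ▸ hu)
  · intro htrN
    set B := ι '' (U : Set (ZMod (p ^ m))) with hBdef
    have h0B : ι 0 ∈ B := ⟨0, U.zero_mem, rfl⟩
    have hwU := w_mem hm1 U hUb
    have hzB : g ^ (p ^ (m - 1)) • B = B := by
      rw [MulAction.isBlock_iff_smul_eq_of_mem] at hB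
      refine hB h0B ?_
      rw [← htw, hι]
      exact ⟨_, U.add_mem hwU U.zero_mem, rfl⟩
    have hstab : ∀ n ∈ Subgroup.normalClosure ({g ^ (p ^ (m - 1))} : Set G),
        n ∈ MulAction.stabilizer G B := by
      intro n hn
      have hle : Subgroup.normalClosure ({g ^ (p ^ (m - 1))} : Set G) ≤ MulAction.stabilizer G B := by
        rw [Subgroup.normalClosure, Subgroup.closure_le]
        intro c hc
        rw [Group.mem_conjugatesOfSet_iff] at hc
        obtain ⟨a, ha, hac⟩ := hc
        rw [Set.mem_singleton_iff] at ha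
        subst ha
        rw [isConj_iff] at hac
        obtain ⟨γ, rfl⟩ := hac
        rw [SetLike.mem_coe, MulAction.mem_stabilizer_iff]
        -- the translate of B containing γ⁻¹ ι 0
        set c := ι.symm (γ⁻¹ • ι 0) with hc
        have hc' : ι c = γ⁻¹ • ι 0 := by simp [hc]
        have h1 : γ⁻¹ • B = t c • B := by
          by_contra hne
          have hd := hB hne
          rw [Set.disjoint_left] at hd
          refine hd (a := ι c) ?_ ?_
          · rw [hc']; exact Set.smul_mem_smul_set h0B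
          · have : ι c = t c • ι 0 := by rw [hι, add_zero]
            rw [this]; exact Set.smul_mem_smul_set h0B
        have h2 : (γ * g ^ (p ^ (m - 1)) * γ⁻¹) • B = γ • g ^ (p ^ (m - 1)) • t c • B := by
          rw [mul_smul, mul_smul, h1]
        have h3 : g ^ (p ^ (m - 1)) • t c • B = t c • g ^ (p ^ (m - 1)) • B := by
          rw [smul_smul, smul_smul, (hcomm c _).eq]
        rw [h2, h3, hzB, ← h1, smul_inv_smul]
      exact hle hn
    obtain ⟨n, hn⟩ := htrN.exists_smul_eq (ι 0) (ι x₀)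
    have h1 := hstab n n.2
    rw [MulAction.mem_stabilizer_iff] at h1
    have h2' : (n : G) • ι 0 ∈ B := by
      rw [← h1]; exact Set.smul_mem_smul_set h0B
    have h3 : (n : G) • ι 0 = ι x₀ := hn
    rw [h3] at h2'
    obtain ⟨u, hu, huu⟩ := h2'
    exact hx₀ (ι.injective huu ▸ hu)

end Cfsg.Agent.S3972
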