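import Mathlib
import Cfsg.Statements.S3973
import Cfsg.Agent.Lib.SchurHopf

set_option autoImplicit false
open Cfsg

namespace Cfsg.Agent.S3973

open Subgroup Cfsg.Agent.Lib.SchurHopf

/-- Linear algebra of the presentation: the kernel of a map from a group with few generators onto a
subgroup of finite index of a free abelian group is generated by few elements. -/
theorem exists_gens_ker {G Z : Type*} [CommGroup G] [CommGroup Z] {ι κ : Type*} [Fintype ι] [Fintype κ]
    (b : Module.Basis κ ℤ (Additive Z)) (a : ι → G) (ha : closure (Set.range a) = ⊤) (ψ : G →* Z)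
    (m : ℕ) (hm : 0 < m) (hψ : ∀ z, z ^ m ∈ ψ.range) :
    ∃ S : Finset ψ.ker, closure (S : Set ψ.ker) = ⊤ ∧ S.card ≤ Fintype.card ι - Fintype.card κ := by
  classical
  let a' : ι → Additive G := fun i => Additive.ofMul (a i)
  let g : (ι → ℤ) →ₗ[ℤ] Additive G := Fintype.linearCombination ℤ a'
  have hg : Function.Surjective g := by
    rw [← LinearMap.range_eq_top, Fintype.range_linearCombination, eq_top_iff]
    intro x _
    have hx : (Additive.toMul x) ∈ closure (Set.range a) := by rw [ha]; trivial
    have key : ∀ y : G, y ∈ closure (Set.range a) → Additive.ofMul y ∈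
        Submodule.span ℤ (Set.range a') := by
      intro y hy
      induction hy using closure_induction with
      | mem y hy =>
        obtain ⟨i, rfl⟩ := hy
        exact Submodule.subset_span ⟨i, rfl⟩
      | one => exact Submodule.zero_mem _
      | mul u v _ _ hu hv =>
        rw [ofMul_mul]
        exact Submodule.add_mem _ hu hv
      | inv u _ hu =>
        rw [ofMul_inv]
        exact Submodule.neg_mem _ hu
    exact key _ hx
  let ψ' : Additive G →ₗ[ℤ] Additive Z := (MonoidHom.toAdditive ψ).toIntLinearMap
  let h : (ι → ℤ) →ₗ[ℤ] Additive Z := ψ' ∘ₗ g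
  let N := LinearMap.range h
  haveI : Module.Finite ℤ (Additive Z) := Module.Finite.of_basis b
  have htors : Module.IsTorsion ℤ (Additive Z ⧸ N) := by
    intro x
    obtain ⟨z, rfl⟩ := Submodule.Quotient.mk_surjective N x
    have hm' : (m : ℤ) ∈ nonZeroDivisors ℤ := mem_nonZeroDivisors_of_ne_zero (by exact_mod_cast hm.ne')
    refine ⟨⟨m, hm'⟩, ?_⟩
    show (m : ℤ) • (Submodule.Quotient.mk z : Additive Z ⧸ N) = 0
    rw [← Submodule.Quotient.mk_smul, Submodule.Quotient.mk_eq_zero]
    obtain ⟨y, hy⟩ := hψ (Additive.toMul z)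
    obtain ⟨w, hw⟩ := hg (Additive.ofMul y)
    refine ⟨w, ?_⟩
    show ψ' (g w) = _
    rw [hw]
    show Additive.ofMul (ψ y) = _
    rw [hy, natCast_zsmul]
    rfl
  have hNrank : Module.finrank ℤ N = Fintype.card κ := by
    have h1 := N.finrank_quotient_add_finrank
    rw [htors.finrank_eq_zero, zero_add, Module.finrank_eq_card_basis b] at h1
    exact h1
  have hrankker : Module.finrank ℤ (LinearMap.ker h) + Fintype.card κ = Fintype.card ι := by
    have h1 := (LinearMap.ker h).finrank_quotient_add_finrank
    rw [(LinearMap.quotKerEquivRange h).finrank_eq, hNrank, Module.finrank_fintype_fun_eq_card] at h1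
    omega
  obtain ⟨n', ⟨e⟩⟩ := Submodule.nonempty_basis_of_pid (Pi.basisFun ℤ ι) (LinearMap.ker h)
  haveI : Module.Free ℤ (LinearMap.ker h) := Module.Free.of_basis e
  let b' := Module.finBasis ℤ (LinearMap.ker h)
  have hmem : ∀ l : LinearMap.ker h, Additive.toMul (g l) ∈ ψ.ker := by
    intro l
    have h1 : h l = 0 := l.2
    exact h1
  let kmap : LinearMap.ker h → ψ.ker := fun l => ⟨Additive.toMul (g l), hmem l⟩
  let S : Finset ψ.ker := Finset.univ.image (fun i => kmap (b' i))
  refine ⟨S, ?_, ?_⟩
  · rw [eq_top_iff]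
    rintro ⟨y, hy⟩ -
    obtain ⟨w, hw⟩ := hg (Additive.ofMul y)
    have hw' : w ∈ LinearMap.ker h := by
      show ψ' (g w) = 0
      rw [hw]
      show Additive.ofMul (ψ y) = 0
      rw [MonoidHom.mem_ker.mp hy]
      rfl
    have key : ∀ l : LinearMap.ker h, kmap l ∈ closure (S : Set ψ.ker) := by
      intro l
      have hl : l ∈ Submodule.span ℤ (Set.range b') := by rw [b'.span_eq]; trivial
      induction hl using Submodule.span_induction with
      | mem x hx =>
        obtain ⟨i, rfl⟩ := hx
        apply Subgroup.subset_closure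
        exact Finset.mem_coe.mpr (Finset.mem_image_of_mem _ (Finset.mem_univ i))
      | zero =>
        have : kmap 0 = 1 := by
          apply Subtype.ext
          show Additive.toMul (g ((0 : LinearMap.ker h) : ι → ℤ)) = 1
          simp
        rw [this]
        exact one_mem _
      | add x y _ _ hx hy =>
        have : kmap (x + y) = kmap x * kmap y := by
          apply Subtype.ext
          show Additive.toMul (g ((x + y : LinearMap.ker h) : ι → ℤ)) =
            Additive.toMul (g (x : ι → ℤ)) * Additive.toMul (g (y : ι → ℤ))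
          simp
        rw [this]
        exact mul_mem hx hy
      | smul c x _ hx =>
        have : kmap (c • x) = kmap x ^ c := by
          apply Subtype.ext
          show Additive.toMul (g (c • (x : ι → ℤ))) =
            (Additive.toMul (g (x : ι → ℤ))) ^ c
          rw [map_smul]
          rfl
        rw [this]
        exact zpow_mem hx c
    have h3 := key ⟨w, hw'⟩
    have h4 : kmap ⟨w, hw'⟩ = ⟨y, hy⟩ := by
      apply Subtype.ext
      show Additive.toMul (g w) = y
      rw [hw]
      rfl
    rwa [h4] at h3
  · calc S.card ≤ (Finset.univ : Finset (Fin (Module.finrank ℤ (LinearMap.ker h)))).card :=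
          Finset.card_image_le
      _ = Module.finrank ℤ (LinearMap.ker h) := by simp
      _ = Fintype.card ι - Fintype.card κ := by omega

/-- If a finite group is presented by `n` generators and a finite set of `r` relators, then its Schur multiplier can be generated by `r - n` elements. In particular a finite group with a presentation having as many relators as generators has trivial Schur multiplier. -/
theorem result (n : ℕ) (rels : Finset (FreeGroup (Fin n))) [Finite (PresentedGroup (rels : Set (FreeGroup (Fin n))))] {A : Type*} [CommGroup A] [Finite A] (hA : Cfsg.HasSchurMultiplier (PresentedGroup (rels : Set (FreeGroup (Fin n)))) A) : Group.rank A ≤ rels.card - n := by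
  classical
  let Q := PresentedGroup (rels : Set (FreeGroup (Fin n)))
  let ρ : FreeGroup (Fin n) →* Q := PresentedGroup.mk _
  have hρ : Function.Surjective ρ := PresentedGroup.mk_surjective _
  obtain ⟨e⟩ := (hasSchurMultiplier_iff ρ hρ).mp hA
  have hcent : (proj ρ).ker ≤ center (Cov ρ) := ker_proj_le_center ρ
  letI : CommGroup (proj ρ).ker :=
    { (inferInstance : Group (proj ρ).ker) with
      mul_comm := fun a b => Subtype.ext (mem_center_iff.mp (hcent b.2) a.1) }
  let a : rels → (proj ρ).ker := fun r =>
    ⟨((r.1 : FreeGroup (Fin n)) : Cov ρ), PresentedGroup.one_of_mem (Finset.mem_coe.mpr r.2)⟩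
  have ha : closure (Set.range a) = ⊤ := by
    rw [eq_top_iff]
    -- the subgroup generated, viewed in the free group, is normal and contains the relators
    let C : Subgroup (Cov ρ) := (closure (Set.range a)).map (proj ρ).ker.subtype
    have hC : C ≤ center (Cov ρ) := by
      rintro _ ⟨y, _, rfl⟩
      exact hcent y.2
    haveI hCn : C.Normal := normal_of_le_center' hC
    let C' : Subgroup (FreeGroup (Fin n)) := C.comap (QuotientGroup.mk' (brk ρ))
    haveI hC'n : C'.Normal := Subgroup.Normal.comap hCn _
    have h1 : Subgroup.normalClosure (rels : Set (FreeGroup (Fin n))) ≤ C' := by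
      apply Subgroup.normalClosure_le_normal
      intro r hr
      show ((r : FreeGroup (Fin n)) : Cov ρ) ∈ C
      exact ⟨a ⟨r, Finset.mem_coe.mp hr⟩, Subgroup.subset_closure ⟨⟨r, Finset.mem_coe.mp hr⟩, rfl⟩, rfl⟩
    rintro ⟨x, hx⟩ -
    induction x using QuotientGroup.induction_on with
    | H x =>
      have h2 : ρ x = 1 := hx
      have h3 : x ∈ Subgroup.normalClosure (rels : Set (FreeGroup (Fin n))) :=
        PresentedGroup.mk_eq_one_iff.mp h2
      obtain ⟨y, hy, hyx⟩ := h1 h3
      have : y = ⟨(x : Cov ρ), hx⟩ := Subtype.ext hyx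
      rwa [this] at hy
  let ψ : (proj ρ).ker →* Abelianization (FreeGroup (Fin n)) := (ab ρ).comp (proj ρ).ker.subtype
  have hψ : ∀ z, z ^ (Nat.card Q) ∈ ψ.range := by
    intro z
    obtain ⟨x, hx⟩ := QuotientGroup.mk'_surjective _ z
    have h1 : ρ (x ^ Nat.card Q) = 1 := by
      rw [map_pow, pow_card_eq_one']
    refine ⟨⟨((x ^ Nat.card Q : FreeGroup (Fin n)) : Cov ρ), h1⟩, ?_⟩
    show Abelianization.of (x ^ Nat.card Q) = _
    rw [map_pow]
    congr 1
  obtain ⟨S, hS, hScard⟩ := exists_gens_ker (abBasis (Fin n)) a ha ψ (Nat.card Q) Nat.card_pos hψ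
  -- map onto `A`
  have hkm : ∀ x : ψ.ker, (x.1.1 : Cov ρ) ∈ Mbar ρ := by
    intro x
    refine ⟨x.1.2, ?_⟩
    rw [← ker_ab ρ]
    exact x.2
  let f : ψ.ker →* A :=
    { toFun := fun x => e.symm ⟨x.1.1, hkm x⟩
      map_one' := by
        have : (⟨((1 : ψ.ker) : (proj ρ).ker).1, hkm 1⟩ : Mbar ρ) = 1 := rfl
        rw [this, map_one]
      map_mul' := by
        intro x y
        rw [← map_mul]
        rfl }
  have hf : Function.Surjective f := by
    intro y
    have h1 : (⟨(e y).1, (e y).2.1⟩ : (proj ρ).ker) ∈ ψ.ker := by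
      show ab ρ (e y).1 = 1
      have : (e y).1 ∈ (ab ρ).ker := by rw [ker_ab]; exact (e y).2.2
      exact this
    refine ⟨⟨⟨(e y).1, (e y).2.1⟩, h1⟩, ?_⟩
    show e.symm ⟨(e y).1, _⟩ = y
    exact e.symm_apply_apply y
  have hcl : closure ((S.image f : Finset A) : Set A) = ⊤ := by
    rw [Finset.coe_image, ← MonoidHom.map_closure f, hS, ← MonoidHom.range_eq_map,
      MonoidHom.range_eq_top]
    exact hf
  have h := Group.rank_le hcl
  calc Group.rank A ≤ (S.image f).card := h
    _ ≤ S.card := Finset.card_image_le
    _ ≤ _ := hScard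
    _ = rels.card - n := by
      simp

end Cfsg.Agent.S3973
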