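import Mathlib
import Cfsg.Statements.S3974
import Cfsg.Agent.Lib.SchurHopf

set_option autoImplicit false
universe u v
open Cfsg

namespace Cfsg.Agent.S3974

open Subgroup Cfsg.Agent.Lib.SchurHopf

lemma card_of_stem {Γ Q : Type*} [Group Γ] [Group Q] (σ : Γ →* Q) (hs : Function.Surjective σ) :
    Nat.card Γ = Nat.card σ.ker * Nat.card Q := by
  have h1 := Subgroup.card_mul_index σ.ker
  rw [Subgroup.index_ker, MonoidHom.range_eq_top.mpr hs] at h1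
  rw [← h1]
  simp

lemma ab_surjective {α : Type u} {Q : Type v} [Group Q] (ρ : FreeGroup α →* Q) :
    Function.Surjective (ab ρ) := by
  intro z
  obtain ⟨x, hx⟩ := QuotientGroup.mk'_surjective _ z
  exact ⟨(x : Cov ρ), hx⟩

lemma exists_not_pow {M : Type*} [Group M] [Finite M] {p : ℕ} (hp : p.Prime) (hd : p ∣ Nat.card M) :
    ∃ m : M, ∀ y : M, y ^ p ≠ m := by
  haveI : Fact p.Prime := ⟨hp⟩
  obtain ⟨x, hx⟩ := exists_prime_orderOf_dvd_card' p hd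
  have hni : ¬ Function.Injective (fun y : M => y ^ p) := by
    intro hi
    have h1 : x ^ p = (1 : M) ^ p := by rw [← hx, pow_orderOf_eq_one, one_pow]
    have h2 : x = 1 := hi h1
    rw [h2, orderOf_one] at hx
    exact hp.one_lt.ne hx
  have hns : ¬ Function.Surjective (fun y : M => y ^ p) := by
    intro hs
    exact hni (Finite.injective_iff_surjective.mpr hs)
  simp only [Function.Surjective, not_forall, not_exists] at hns
  exact hns

lemma not_pow_of_coprime {M : Type*} [CommGroup M] {p : ℕ} (m : M) (hm : ∀ y : M, y ^ p ≠ m) (c : ℤ)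
    (hc : IsCoprime c (p : ℤ)) : ∀ y : M, y ^ p ≠ m ^ c := by
  intro y hy
  obtain ⟨u, v, huv⟩ := hc
  apply hm (y ^ u * m ^ v)
  rw [mul_pow, ← zpow_natCast, ← zpow_natCast, ← zpow_mul, ← zpow_mul]
  have h1 : y ^ (u * (p : ℤ)) = (y ^ (p : ℤ)) ^ u := by rw [← zpow_mul, mul_comm]
  have h2 : (y ^ (p : ℤ)) = m ^ c := by rw [zpow_natCast]; exact hy
  rw [h1, h2, ← zpow_mul, ← zpow_add]
  have h3 : c * u + v * (p : ℤ) = 1 := by linarith
  rw [h3, zpow_one]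

lemma basis_of_injective {T Z : Type*} [CommGroup T] [CommGroup Z] {ι : Type*} [Finite ι]
    (b : Module.Basis ι ℤ (Additive Z)) (ψ : T →* Z) (hψ : Function.Injective ψ) :
    ∃ n : ℕ, Nonempty (Module.Basis (Fin n) ℤ (Additive T)) := by
  let ψ' : Additive T →ₗ[ℤ] Additive Z := (MonoidHom.toAdditive ψ).toIntLinearMap
  have hi : Function.Injective ψ' := hψ
  obtain ⟨n, ⟨e⟩⟩ := Submodule.nonempty_basis_of_pid b (LinearMap.range ψ')
  exact ⟨n, ⟨e.map (LinearEquiv.ofInjective ψ' hi).symm⟩⟩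

lemma eq_of_pow_eq {Z : Type*} [CommGroup Z] {ι : Type*} (b : Module.Basis ι ℤ (Additive Z)) {p : ℕ}
    (hp : 0 < p) {a c : Z} (h : a ^ p = c ^ p) : a = c := by
  apply Additive.ofMul.injective
  apply b.repr.injective
  ext i
  have h1 : Additive.ofMul (a ^ p) = Additive.ofMul (c ^ p) := by rw [h]
  rw [ofMul_pow, ofMul_pow] at h1
  have h2 := congrArg (fun z => b.repr z i) h1
  simp only [map_nsmul, Finsupp.smul_apply, nsmul_eq_mul] at h2
  have hp' : (p : ℤ) ≠ 0 := by exact_mod_cast hp.ne'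
  exact mul_left_cancel₀ hp' h2

/-- Extension of a hom from a subgroup containing all `n`-th powers, in the coprime case. -/
lemma exists_extension {Z C : Type*} [CommGroup Z] [CommGroup C] (B : Subgroup Z) (μ : B →* C) (n : ℕ)
    (hB : ∀ z : Z, z ^ n ∈ B) (u v : ℤ) (hk : ∀ c : C, (c ^ n) ^ u = c) :
    ∃ l : Z →* C, ∀ b : B, l b = μ b := by
  let powHom : Z →* B :=
    { toFun := fun z => ⟨z ^ n, hB z⟩
      map_one' := by
        apply Subtype.ext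
        simp
      map_mul' := by
        intro a c
        apply Subtype.ext
        simp [mul_pow] }
  refine ⟨(zpowGroupHom u).comp (μ.comp powHom), ?_⟩
  intro b
  have h1 : powHom (b : Z) = b ^ n := Subtype.ext rfl
  simp only [MonoidHom.comp_apply, zpowGroupHom_apply]
  rw [h1, map_pow, hk]

theorem backward {Q : Type u} [Group Q] [Finite Q] {A : Type v} [CommGroup A]
    (hA : Cfsg.HasSchurMultiplier Q A)
    (hcop : Nat.Coprime (Nat.card (Abelianization Q)) (Nat.card A))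
    (Γ₁ Γ₂ : Type u) [Group Γ₁] [Finite Γ₁] [Group Γ₂] [Finite Γ₂] (σ₁ : Γ₁ →* Q) (σ₂ : Γ₂ →* Q)
    (h₁ : Cfsg.IsStemExtension σ₁) (h₂ : Cfsg.IsStemExtension σ₂)
    (hk₁ : Nonempty (σ₁.ker ≃* A)) (hk₂ : Nonempty (σ₂.ker ≃* A)) :
    ∃ e : Γ₁ ≃* Γ₂, σ₂.comp e.toMonoidHom = σ₁ := by
  let ρ := defaultRho Q
  have hρ : Function.Surjective ρ := defaultRho_surjective Q
  obtain ⟨eA⟩ := (hasSchurMultiplier_iff ρ hρ).mp hA
  obtain ⟨e₁⟩ := hk₁
  obtain ⟨e₂⟩ := hk₂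
  have hps : Function.Surjective (proj ρ) := proj_surjective ρ hρ
  have hpc : (proj ρ).ker ≤ center (Cov ρ) := ker_proj_le_center ρ
  obtain ⟨φ₁, hφ₁⟩ := exists_lift ρ σ₁ h₁.1 h₁.2.1
  obtain ⟨φ₂, hφ₂⟩ := exists_lift ρ σ₂ h₂.1 h₂.2.1
  have hφ₁' : ∀ x, σ₁ (φ₁ x) = proj ρ x := fun x => DFunLike.congr_fun hφ₁ x
  have hφ₂' : ∀ x, σ₂ (φ₂ x) = proj ρ x := fun x => DFunLike.congr_fun hφ₂ x
  have hφ₁s := surjective_of_stem (proj ρ) σ₁ φ₁ hφ₁ hps h₁
  obtain ⟨f₁, hf₁s, hf₁⟩ := exists_surj_of_stem (proj ρ) σ₁ φ₁ hφ₁ hps h₁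
  have hcard₁ : Nat.card σ₁.ker = Nat.card A := Nat.card_congr e₁.toEquiv
  have hcard₂ : Nat.card σ₂.ker = Nat.card A := Nat.card_congr e₂.toEquiv
  have hcardM : Nat.card (Mbar ρ) = Nat.card A := (Nat.card_congr eA.toEquiv).symm
  have hf₁i : Function.Injective f₁ :=
    (hf₁s.bijective_of_nat_card_le (by rw [hcard₁]; exact hcardM.le)).1
  let T₁ : Subgroup (Cov ρ) := φ₁.ker
  have hT₁le : T₁ ≤ (proj ρ).ker := by
    intro x hx
    have : φ₁ x = 1 := hx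
    rw [MonoidHom.mem_ker, ← hφ₁', this, map_one]
  have hT₁E : ∀ x ∈ T₁, x ∈ commutator (Cov ρ) → x = 1 := by
    intro x hx hxc
    have h1 : f₁ ⟨x, hT₁le hx, hxc⟩ = 1 := by
      apply Subtype.ext
      rw [hf₁]
      exact hx
    have h2 := hf₁i (h1.trans (map_one f₁).symm)
    exact congrArg Subtype.val h2
  have hT₁sp : ∀ r ∈ (proj ρ).ker, ∃ t ∈ T₁, ∃ m ∈ Mbar ρ, r = t * m := by
    intro r hr
    have h1 : φ₁ r ∈ σ₁.ker := by
      rw [MonoidHom.mem_ker, hφ₁']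
      exact hr
    obtain ⟨m, hm⟩ := hf₁s ⟨_, h1⟩
    have hm' : φ₁ (m : Cov ρ) = φ₁ r := by
      rw [← hf₁, hm]
    refine ⟨r * (m : Cov ρ)⁻¹, ?_, m, m.2, by group⟩
    show φ₁ _ = 1
    rw [map_mul, map_inv, hm']
    group
  letI : CommGroup σ₂.ker :=
    { (inferInstance : Group σ₂.ker) with
      mul_comm := fun a b => Subtype.ext (mem_center_iff.mp (h₂.2.1 b.2) a.1) }
  let ψ := ab ρ
  let i₀ : T₁ →* Abelianization (FreeGroup Q) := ψ.comp T₁.subtype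
  have hi₀ : Function.Injective i₀ := by
    rw [injective_iff_map_eq_one]
    rintro ⟨t, ht⟩ h1
    have h2 : t ∈ ψ.ker := h1
    rw [ker_ab] at h2
    exact Subtype.ext (hT₁E t ht h2)
  let B : Subgroup (Abelianization (FreeGroup Q)) := i₀.range
  let i : T₁ ≃* B := MonoidHom.ofInjective hi₀
  let φT : T₁ →* σ₂.ker := (φ₂.comp T₁.subtype).codRestrict σ₂.ker (by
    intro t
    show σ₂ (φ₂ t) = 1
    rw [hφ₂']
    exact hT₁le t.2)
  let μ : B →* σ₂.ker := φT.comp i.symm.toMonoidHom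
  let n := Nat.card (Abelianization Q)
  have hB : ∀ z : Abelianization (FreeGroup Q), z ^ n ∈ B := by
    intro z
    obtain ⟨x, rfl⟩ := ab_surjective ρ z
    -- `proj x ^ n` lies in the commutator subgroup
    have h1 : (proj ρ (x ^ n)) ∈ commutator Q := by
      have h2 : proj ρ (x ^ n) ∈ (Abelianization.of (G := Q)).ker := by
        rw [MonoidHom.mem_ker, map_pow, map_pow]
        exact pow_card_eq_one'
      rwa [Abelianization.ker_of] at h2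
    have hm := map_commutator_eq_of_central (proj ρ) (fun b => by
      obtain ⟨a, rfl⟩ := hps b
      exact ⟨a, 1, one_mem _, by simp⟩)
    rw [← hm] at h1
    obtain ⟨c, hc, hcx⟩ := h1
    have h3 : x ^ n * c⁻¹ ∈ (proj ρ).ker := by
      rw [MonoidHom.mem_ker, map_mul, map_inv, hcx]
      group
    obtain ⟨t, ht, m, hm1, hm2⟩ := hT₁sp _ h3
    refine ⟨⟨t, ht⟩, ?_⟩
    show ψ t = _
    have h4 : x ^ n = t * (m * c) := by
      have : x ^ n = (x ^ n * c⁻¹) * c := by group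
      rw [this, hm2]
      group
    have h5 : ψ m = 1 := by
      have : m ∈ ψ.ker := by
        rw [ker_ab]; exact hm1.2
      exact this
    have h6 : ψ c = 1 := by
      have : c ∈ ψ.ker := by
        rw [ker_ab]; exact hc
      exact this
    have h7 : ψ (x ^ n) = ψ t := by rw [h4, map_mul, map_mul, h5, h6, mul_one, mul_one]
    exact h7.symm.trans (map_pow ψ x n)
  -- Bezout
  obtain ⟨u, v, huv⟩ : ∃ u v : ℤ, (n : ℤ) * u + (Nat.card σ₂.ker : ℤ) * v = 1 := by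
    have h1 : IsCoprime (n : ℤ) (Nat.card σ₂.ker : ℤ) := by
      rw [hcard₂]
      exact Nat.isCoprime_iff_coprime.mpr hcop
    obtain ⟨a, b, hab⟩ := h1
    exact ⟨a, b, by linarith⟩
  have hk : ∀ c : σ₂.ker, (c ^ n) ^ u = c := by
    intro c
    have h1 : c ^ Nat.card σ₂.ker = 1 := pow_card_eq_one'
    have h2 : (c ^ n) ^ u * (c ^ Nat.card σ₂.ker) ^ v = c := by
      rw [← zpow_natCast c n, ← zpow_natCast c (Nat.card σ₂.ker), ← zpow_mul, ← zpow_mul, ← zpow_add, huv, zpow_one]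
    rw [h1, one_zpow, mul_one] at h2
    exact h2
  obtain ⟨l₀, hl₀⟩ := exists_extension B μ n hB u v hk
  have hl₀' : ∀ t : T₁, l₀ (ψ t) = φT t := by
    intro t
    have h1 := hl₀ (i t)
    have h2 : ((i t : B) : Abelianization (FreeGroup Q)) = ψ t := rfl
    rw [h2] at h1
    rw [h1]
    show φT (i.symm (i t)) = _
    rw [i.symm_apply_apply]
  -- the twisted lift
  have hcen : ∀ y : σ₂.ker, ∀ g : Γ₂, g * (y : Γ₂) = y * g := fun y g => mem_center_iff.mp (h₂.2.1 y.2) g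
  let φ₂'' : Cov ρ →* Γ₂ :=
    { toFun := fun x => φ₂ x * ((l₀ (ψ x))⁻¹ : σ₂.ker)
      map_one' := by simp
      map_mul' := by
        intro a b
        simp only [map_mul, mul_inv, Subgroup.coe_mul]
        have h1 := hcen ((l₀ (ψ a))⁻¹) (φ₂ b)
        calc φ₂ a * φ₂ b * (((l₀ (ψ a))⁻¹ : σ₂.ker) * ((l₀ (ψ b))⁻¹ : σ₂.ker))
            = φ₂ a * (φ₂ b * ((l₀ (ψ a))⁻¹ : σ₂.ker)) * ((l₀ (ψ b))⁻¹ : σ₂.ker) := by group
          _ = φ₂ a * (((l₀ (ψ a))⁻¹ : σ₂.ker) * φ₂ b) * ((l₀ (ψ b))⁻¹ : σ₂.ker) := by rw [h1]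
          _ = _ := by group }
  have hφ''₁ : σ₂.comp φ₂'' = proj ρ := by
    apply MonoidHom.ext
    intro a
    show σ₂ (φ₂ a * ((l₀ (ψ a))⁻¹ : σ₂.ker)) = proj ρ a
    rw [map_mul, hφ₂']
    have : σ₂ (((l₀ (ψ a))⁻¹ : σ₂.ker) : Γ₂) = 1 := ((l₀ (ψ a))⁻¹ : σ₂.ker).2
    rw [this, mul_one]
  have hφ''s := surjective_of_stem (proj ρ) σ₂ φ₂'' hφ''₁ hps h₂
  have hT₁ker : ∀ x ∈ φ₁.ker, x ∈ φ₂''.ker := by
    intro t ht
    show φ₂ t * ((l₀ (ψ t))⁻¹ : σ₂.ker) = 1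
    have h1 := hl₀' ⟨t, ht⟩
    have h2 : l₀ (ψ t) = φT ⟨t, ht⟩ := h1
    rw [h2]
    show φ₂ t * (φ₂ t)⁻¹ = 1
    group
  let e₀ : Γ₁ →* Γ₂ := (QuotientGroup.lift φ₁.ker φ₂'' hT₁ker).comp
    (QuotientGroup.quotientKerEquivOfSurjective φ₁ hφ₁s).symm.toMonoidHom
  have he₀ : ∀ x, e₀ (φ₁ x) = φ₂'' x := by
    intro x
    have h1 : (QuotientGroup.quotientKerEquivOfSurjective φ₁ hφ₁s).symm (φ₁ x) = (x : Cov ρ ⧸ φ₁.ker) := by
      rw [MulEquiv.symm_apply_eq]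
      rfl
    have h2 : e₀ (φ₁ x) = (QuotientGroup.lift φ₁.ker φ₂'' hT₁ker)
        ((QuotientGroup.quotientKerEquivOfSurjective φ₁ hφ₁s).symm (φ₁ x)) := rfl
    rw [h2, h1]
    rfl
  have he₀s : Function.Surjective e₀ := by
    intro y
    obtain ⟨x, rfl⟩ := hφ''s y
    exact ⟨φ₁ x, he₀ x⟩
  have hcΓ : Nat.card Γ₁ ≤ Nat.card Γ₂ := by
    rw [card_of_stem σ₁ h₁.1, card_of_stem σ₂ h₂.1, hcard₁, hcard₂]
  have he₀b : Function.Bijective e₀ := he₀s.bijective_of_nat_card_le hcΓ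
  refine ⟨MulEquiv.ofBijective e₀ he₀b, ?_⟩
  ext g
  obtain ⟨x, rfl⟩ := hφ₁s g
  show σ₂ (e₀ (φ₁ x)) = σ₁ (φ₁ x)
  rw [he₀, hφ₁']
  exact DFunLike.congr_fun hφ''₁ x

theorem forward {Q : Type u} [Group Q] [Finite Q] {A : Type v} [CommGroup A]
    (hA : Cfsg.HasSchurMultiplier Q A)
    (H : ∀ (Γ₁ Γ₂ : Type u) [Group Γ₁] [Finite Γ₁] [Group Γ₂] [Finite Γ₂] (σ₁ : Γ₁ →* Q) (σ₂ : Γ₂ →* Q),
      Cfsg.IsStemExtension σ₁ → Cfsg.IsStemExtension σ₂ → Nonempty (σ₁.ker ≃* A) →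
      Nonempty (σ₂.ker ≃* A) → ∃ e : Γ₁ ≃* Γ₂, σ₂.comp e.toMonoidHom = σ₁) :
    Nat.Coprime (Nat.card (Abelianization Q)) (Nat.card A) := by
  by_contra hnc
  obtain ⟨p, hp, hp1, hp2⟩ := Nat.Prime.not_coprime_iff_dvd.mp hnc
  haveI : Fact p.Prime := ⟨hp⟩
  let ρ := defaultRho Q
  have hρ : Function.Surjective ρ := defaultRho_surjective Q
  obtain ⟨eA⟩ := (hasSchurMultiplier_iff ρ hρ).mp hA
  have hps : Function.Surjective (proj ρ) := proj_surjective ρ hρ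
  have hpc : (proj ρ).ker ≤ center (Cov ρ) := ker_proj_le_center ρ
  have hmC : (commutator (Cov ρ)).map (proj ρ) = commutator Q :=
    map_commutator_eq_of_central (proj ρ) (fun b => by
      obtain ⟨a, rfl⟩ := hps b
      exact ⟨a, 1, one_mem _, by simp⟩)
  have hkE : ∀ y, ab ρ y = 1 ↔ y ∈ commutator (Cov ρ) := by
    intro y
    rw [← ker_ab]
    exact Iff.rfl
  -- the element of order `p` in the abelianization
  obtain ⟨qa, hqa⟩ := exists_prime_orderOf_dvd_card' p hp1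
  obtain ⟨q, hq⟩ := QuotientGroup.mk'_surjective _ qa
  have hq' : Abelianization.of q = qa := hq
  have hq1 : q ^ p ∈ commutator Q := by
    have h2 : q ^ p ∈ (Abelianization.of (G := Q)).ker := by
      rw [MonoidHom.mem_ker, map_pow, hq', ← hqa, pow_orderOf_eq_one]
    rwa [Abelianization.ker_of] at h2
  have hq2 : q ∉ commutator Q := by
    intro h
    have h2 : q ∈ (Abelianization.of (G := Q)).ker := by
      rwa [Abelianization.ker_of]
    have h3 : qa = 1 := by rw [← hq']; exact h2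
    rw [h3, orderOf_one] at hqa
    exact hp.one_lt.ne hqa
  obtain ⟨x, hx⟩ := hps q
  obtain ⟨T, hT, hT1, hT2⟩ := exists_complement ρ (proj ρ).ker le_rfl
  haveI hTn : T.Normal := normal_of_le_center' (hT.trans hpc)
  -- decomposition of `x ^ p`
  obtain ⟨t₀, ht₀, k, hk, hxp⟩ : ∃ t₀ ∈ T, ∃ k ∈ commutator (Cov ρ), x ^ p = t₀ * k := by
    have h1 : proj ρ (x ^ p) ∈ commutator Q := by
      rw [map_pow, hx]; exact hq1
    rw [← hmC] at h1
    obtain ⟨c, hc, hcx⟩ := h1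
    have h3 : x ^ p * c⁻¹ ∈ (proj ρ).ker := by
      rw [MonoidHom.mem_ker, map_mul, map_inv, hcx]
      group
    obtain ⟨t, ht, m, hm1, hm2⟩ := hT2 _ h3
    refine ⟨t, ht, m * c, mul_mem hm1.2 hc, ?_⟩
    have : x ^ p = (x ^ p * c⁻¹) * c := by group
    rw [this, hm2]
    group
  have hnotpow : ∀ s ∈ T, s ^ p ≠ t₀ := by
    intro s hs hst
    have h1 : ab ρ x ^ p = ab ρ s ^ p := by
      rw [← map_pow, hxp, map_mul, (hkE k).mpr hk, mul_one, ← hst, map_pow]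
    have h2 := eq_of_pow_eq (abBasis Q) hp.pos h1
    have h3 : ab ρ (x * s⁻¹) = 1 := by
      rw [map_mul, map_inv, h2]; group
    have h4 := (hkE _).mp h3
    have h5 : proj ρ (x * s⁻¹) ∈ commutator Q := by
      rw [← hmC]
      exact ⟨_, h4, rfl⟩
    rw [map_mul, map_inv, hx, MonoidHom.mem_ker.mp (hT hs)] at h5
    simp only [inv_one, mul_one] at h5
    exact hq2 h5
  -- free basis of `T`
  letI iT : CommGroup T :=
    { (inferInstance : Group T) with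
      mul_comm := fun a b => Subtype.ext (mem_center_iff.mp (hpc (hT b.2)) a.1) }
  have hψT : Function.Injective ((ab ρ).comp T.subtype) := by
    rw [injective_iff_map_eq_one]
    rintro ⟨t, ht⟩ h1
    have h2 : t ∈ T ⊓ commutator (Cov ρ) := ⟨ht, (hkE t).mp h1⟩
    rw [hT1] at h2
    exact Subtype.ext (Subgroup.mem_bot.mp h2)
  obtain ⟨n, ⟨b⟩⟩ := basis_of_injective (abBasis Q) ((ab ρ).comp T.subtype) hψT
  have hcoord : ∃ j, ¬ (p : ℤ) ∣ b.repr (Additive.ofMul (⟨t₀, ht₀⟩ : T)) j := by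
    by_contra hall
    push Not at hall
    choose d hd using hall
    let s : T := Additive.toMul (∑ j, d j • b j)
    apply hnotpow (s : Cov ρ) s.2
    have h1 : (s ^ p : T) = (⟨t₀, ht₀⟩ : T) := by
      apply Additive.ofMul.injective
      rw [ofMul_pow]
      have h2 : Additive.ofMul s = ∑ j, d j • b j := rfl
      rw [h2, ← natCast_zsmul, Finset.smul_sum]
      conv_rhs => rw [← b.sum_repr (Additive.ofMul (⟨t₀, ht₀⟩ : T))]
      apply Finset.sum_congr rfl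
      intro j _
      rw [smul_smul, hd j]
    exact congrArg Subtype.val h1
  obtain ⟨j, hj⟩ := hcoord
  -- a non-`p`-th power in the multiplier
  have hcardM : Nat.card (Mbar ρ) = Nat.card A := (Nat.card_congr eA.toEquiv).symm
  obtain ⟨m', hm'⟩ := exists_not_pow (M := Mbar ρ) hp (by rw [hcardM]; exact hp2)
  letI iM : CommGroup (Mbar ρ) :=
    { (inferInstance : Group (Mbar ρ)) with
      mul_comm := fun a b => Subtype.ext (mem_center_iff.mp (hpc b.2.1) a.1) }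
  let c : T → ℤ := fun t => b.repr (Additive.ofMul t) j
  have hcmul : ∀ s t : T, c (s * t) = c s + c t := by
    intro s t
    show b.repr (Additive.ofMul (s * t)) j = _
    rw [ofMul_mul, map_add]
    rfl
  let f : T →* Mbar ρ := MonoidHom.mk' (fun t => m' ^ c t) (by
    intro s t
    show m' ^ c (s * t) = _
    rw [hcmul, zpow_add])
  have hct₀ : IsCoprime (c ⟨t₀, ht₀⟩) (p : ℤ) := by
    have h1 : Prime (p : ℤ) := Nat.prime_iff_prime_int.mp hp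
    exact ((h1.coprime_iff_not_dvd).mpr hj).symm
  have hnp := not_pow_of_coprime m' hm' _ hct₀
  -- the twisted complement
  let g : T →* Cov ρ :=
    { toFun := fun t => (t : Cov ρ) * (f t : Cov ρ)
      map_one' := by simp
      map_mul' := by
        intro s t
        simp only [map_mul, Subgroup.coe_mul]
        have h1 := mem_center_iff.mp (hpc (f s).2.1) (t : Cov ρ)
        calc (s : Cov ρ) * t * ((f s : Cov ρ) * (f t : Cov ρ))
            = s * (t * (f s : Cov ρ)) * (f t : Cov ρ) := by group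
          _ = s * ((f s : Cov ρ) * t) * (f t : Cov ρ) := by rw [h1]
          _ = _ := by group }
  let T' : Subgroup (Cov ρ) := g.range
  have hT'le : T' ≤ (proj ρ).ker := by
    rintro _ ⟨t, rfl⟩
    exact mul_mem (hT t.2) (f t).2.1
  haveI hT'n : T'.Normal := normal_of_le_center' (hT'le.trans hpc)
  have hT'1 : T' ⊓ commutator (Cov ρ) = ⊥ := by
    rw [eq_bot_iff]
    rintro _ ⟨⟨t, rfl⟩, hc'⟩
    have h1 : (t : Cov ρ) ∈ commutator (Cov ρ) := by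
      have h2 : ((t : Cov ρ) * (f t : Cov ρ)) * (f t : Cov ρ)⁻¹ ∈ commutator (Cov ρ) :=
        mul_mem hc' (inv_mem (f t).2.2)
      simpa using h2
    have h2 : (t : Cov ρ) ∈ T ⊓ commutator (Cov ρ) := ⟨t.2, h1⟩
    rw [hT1] at h2
    have h3 : t = 1 := Subtype.ext (Subgroup.mem_bot.mp h2)
    rw [h3, map_one]
    exact one_mem _
  have hT'2 : ∀ r ∈ (proj ρ).ker, ∃ t ∈ T', ∃ m ∈ (proj ρ).ker ⊓ commutator (Cov ρ), r = t * m := by
    intro r hr
    obtain ⟨t, ht, m, hm, rfl⟩ := hT2 r hr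
    refine ⟨g ⟨t, ht⟩, ⟨_, rfl⟩, (f ⟨t, ht⟩ : Cov ρ)⁻¹ * m, mul_mem (inv_mem (f ⟨t, ht⟩).2) hm, ?_⟩
    show t * m = (t * (f ⟨t, ht⟩ : Cov ρ)) * ((f ⟨t, ht⟩ : Cov ρ)⁻¹ * m)
    group
  obtain ⟨h1, h2, ⟨e₁⟩⟩ := stem_of_complement (proj ρ) hps hpc T hT hT1 hT2
  obtain ⟨h1', h2', ⟨e₂⟩⟩ := stem_of_complement (proj ρ) hps hpc T' hT'le hT'1 hT'2
  obtain ⟨e, he⟩ := H _ _ _ _ h2 h2' ⟨e₁.trans eA.symm⟩ ⟨e₂.trans eA.symm⟩
  set σ₁ := QuotientGroup.lift T (proj ρ) (fun _ hx => hT hx) with hσ₁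
  set σ₂ := QuotientGroup.lift T' (proj ρ) (fun _ hx => hT'le hx) with hσ₂
  have he' : ∀ y : Cov ρ, σ₂ (e (y : Cov ρ ⧸ T)) = proj ρ y := fun y =>
    DFunLike.congr_fun he (y : Cov ρ ⧸ T)
  -- the difference hom
  have hlker : ∀ y : Cov ρ, ((y : Cov ρ ⧸ T') : Cov ρ ⧸ T')⁻¹ * e (y : Cov ρ ⧸ T) ∈ σ₂.ker := by
    intro y
    rw [MonoidHom.mem_ker, map_mul, map_inv, he']
    show (proj ρ y)⁻¹ * proj ρ y = 1
    group
  have hlc : ∀ y : Cov ρ, ((y : Cov ρ ⧸ T') : Cov ρ ⧸ T')⁻¹ * e (y : Cov ρ ⧸ T) ∈ center (Cov ρ ⧸ T') :=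
    fun y => h2'.2.1 (hlker y)
  let l : Cov ρ →* Cov ρ ⧸ T' :=
    { toFun := fun y => ((y : Cov ρ ⧸ T') : Cov ρ ⧸ T')⁻¹ * e (y : Cov ρ ⧸ T)
      map_one' := by
        rw [QuotientGroup.mk_one, QuotientGroup.mk_one, map_one]
        group
      map_mul' := by
        intro a b'
        rw [QuotientGroup.mk_mul, QuotientGroup.mk_mul, map_mul]
        have h3 := mem_center_iff.mp (hlc a) ((b' : Cov ρ ⧸ T'))⁻¹
        calc (↑a * ↑b')⁻¹ * (e ↑a * e ↑b')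
            = ((b' : Cov ρ ⧸ T'))⁻¹ * (((a : Cov ρ ⧸ T'))⁻¹ * e ↑a) * e ↑b' := by group
          _ = (((a : Cov ρ ⧸ T'))⁻¹ * e ↑a) * ((b' : Cov ρ ⧸ T'))⁻¹ * e ↑b' := by rw [h3]
          _ = _ := by group }
  have hl : ∀ y, l y = ((y : Cov ρ ⧸ T') : Cov ρ ⧸ T')⁻¹ * e (y : Cov ρ ⧸ T) := fun _ => rfl
  have hlcomm : ∀ y ∈ commutator (Cov ρ), l y = 1 := by
    have : commutator (Cov ρ) ≤ l.ker := by
      rw [commutator_def, Subgroup.commutator_le]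
      intro a _ b' _
      rw [MonoidHom.mem_ker, map_commutatorElement, commutatorElement_eq_one_iff_mul_comm]
      exact (mem_center_iff.mp (hlc b') _)
    exact fun y hy => this hy
  have hlt₀ : l t₀ = ((t₀ : Cov ρ ⧸ T') : Cov ρ ⧸ T')⁻¹ := by
    rw [hl, (QuotientGroup.eq_one_iff t₀).mpr ht₀, map_one, mul_one]
  have hgt₀ : ((t₀ * (f ⟨t₀, ht₀⟩ : Cov ρ) : Cov ρ) : Cov ρ ⧸ T') = 1 :=
    (QuotientGroup.eq_one_iff _).mpr ⟨⟨t₀, ht₀⟩, rfl⟩
  have hlt₀' : l t₀ = ((f ⟨t₀, ht₀⟩ : Cov ρ) : Cov ρ ⧸ T') := by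
    rw [hlt₀, QuotientGroup.mk_mul] at *
    exact inv_eq_of_mul_eq_one_right hgt₀
  have hlxp : l x ^ p = ((f ⟨t₀, ht₀⟩ : Cov ρ) : Cov ρ ⧸ T') := by
    rw [← map_pow, hxp, map_mul, hlcomm k hk, mul_one, hlt₀']
  -- `l x` is the image of an element of the multiplier
  obtain ⟨w, hw⟩ := QuotientGroup.mk'_surjective T' (l x)
  have hw' : w ∈ (proj ρ).ker := by
    have h3 : σ₂ (w : Cov ρ ⧸ T') = 1 := by
      have h4 : (w : Cov ρ ⧸ T') = l x := hw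
      rw [h4, hl]
      exact hlker x
    exact h3
  obtain ⟨t', ht', m₀, hm₀, hwe⟩ := hT'2 w hw'
  have hlx : l x = ((m₀ : Cov ρ) : Cov ρ ⧸ T') := by
    have h4 : (w : Cov ρ ⧸ T') = l x := hw
    rw [← h4, hwe, QuotientGroup.mk_mul, (QuotientGroup.eq_one_iff t').mpr ht', one_mul]
  have hfin : ((m₀ ^ p : Cov ρ) : Cov ρ ⧸ T') = ((f ⟨t₀, ht₀⟩ : Cov ρ) : Cov ρ ⧸ T') := by
    rw [QuotientGroup.mk_pow, ← hlx, hlxp]
  have hmem : (m₀ ^ p)⁻¹ * (f ⟨t₀, ht₀⟩ : Cov ρ) ∈ T' := QuotientGroup.eq.mp hfin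
  have hm₀2 : m₀ ∈ commutator (Cov ρ) := hm₀.2
  have hfc : (f ⟨t₀, ht₀⟩ : Cov ρ) ∈ commutator (Cov ρ) := (f ⟨t₀, ht₀⟩).2.2
  have hmemc : (m₀ ^ p)⁻¹ * (f ⟨t₀, ht₀⟩ : Cov ρ) ∈ commutator (Cov ρ) :=
    mul_mem (inv_mem (pow_mem hm₀2 p)) hfc
  have hmem2 : (m₀ ^ p)⁻¹ * (f ⟨t₀, ht₀⟩ : Cov ρ) ∈ T' ⊓ commutator (Cov ρ) :=
    Subgroup.mem_inf.mpr ⟨hmem, hmemc⟩
  rw [hT'1] at hmem2
  have heq : m₀ ^ p = (f ⟨t₀, ht₀⟩ : Cov ρ) := by
    have := Subgroup.mem_bot.mp hmem2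
    exact inv_mul_eq_one.mp this
  apply hnp ⟨m₀, hm₀⟩
  apply Subtype.ext
  exact heq

/-- Let `Q` be a finite group with Schur multiplier `A`. Any two Schur covering groups of `Q` (finite stem extensions `σ₁ : Γ₁ →* Q`, `σ₂ : Γ₂ →* Q` with kernels isomorphic to `A`, `Γ₁, Γ₂` in the universe of `Q`) are isomorphic over `Q` — there is a group isomorphism `e : Γ₁ ≃* Γ₂` with `σ₂ ∘ e = σ₁` — if and only if the order of the commutator quotient of `Q` is coprime to the order of `A`. In particular a finite perfect group has a unique Schur covering group up to isomorphism over it. -/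
theorem result {Q : Type u} [Group Q] [Finite Q] {A : Type v} [CommGroup A] (hA : Cfsg.HasSchurMultiplier Q A) : (∀ (Γ₁ Γ₂ : Type u) [Group Γ₁] [Finite Γ₁] [Group Γ₂] [Finite Γ₂] (σ₁ : Γ₁ →* Q) (σ₂ : Γ₂ →* Q), Cfsg.IsStemExtension σ₁ → Cfsg.IsStemExtension σ₂ → Nonempty (σ₁.ker ≃* A) → Nonempty (σ₂.ker ≃* A) → ∃ e : Γ₁ ≃* Γ₂, σ₂.comp e.toMonoidHom = σ₁) ↔ Nat.Coprime (Nat.card (Abelianization Q)) (Nat.card A) :=
  ⟨forward hA, fun hc Γ₁ Γ₂ _ _ _ _ σ₁ σ₂ h₁ h₂ hk₁ hk₂ => backward hA hc Γ₁ Γ₂ σ₁ σ₂ h₁ h₂ hk₁ hk₂⟩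

end Cfsg.Agent.S3974
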