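import Mathlib
import Cfsg.Statements.S3976
import Cfsg.Agent.S3975

set_option autoImplicit false
open Cfsg

namespace Cfsg.Agent.S3976

/-- Let `p` be a prime and `G` a group of order `p ^ m`. For every `s ≤ m` the number of normal subgroups of `G` of order `p ^ s` is congruent to `1` modulo `p`. -/
theorem result {G : Type*} [Group G] [Finite G] (p m s : ℕ) (hp : p.Prime) (hG : Nat.card G = p ^ m) (hs : s ≤ m) : Nat.card {H : Subgroup G // H.Normal ∧ Nat.card H = p ^ s} ≡ 1 [MOD p] := by
  classical
  haveI : Fact p.Prime := ⟨hp⟩
  have hP : IsPGroup p G := IsPGroup.of_card hG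
  have h1 := Cfsg.Agent.S3975.result (G := G) p s hp (hG ▸ pow_dvd_pow p hs)
  let T := {H : Subgroup G // Nat.card H = p ^ s}
  letI act : MulAction G T :=
    { smul := fun g H => ⟨H.1.map (MulAut.conj g).toMonoidHom, by
        rw [Subgroup.card_map_of_injective (MulEquiv.injective _)]
        exact H.2⟩
      one_smul := by
        intro H
        apply Subtype.ext
        ext x
        show x ∈ H.1.map (MulAut.conj (1 : G)).toMonoidHom ↔ x ∈ H.1
        simp
      mul_smul := by
        intro a b H
        apply Subtype.ext
        show H.1.map (MulAut.conj (a * b)).toMonoidHom =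
          (H.1.map (MulAut.conj b).toMonoidHom).map (MulAut.conj a).toMonoidHom
        rw [Subgroup.map_map]
        congr 1
        ext x
        simp [mul_assoc] }
  have hsm : ∀ (g : G) (H : T), ((g • H : T) : Subgroup G) = H.1.map (MulAut.conj g).toMonoidHom :=
    fun _ _ => rfl
  have h2 := hP.card_modEq_card_fixedPoints T
  have h3 : Nat.card (MulAction.fixedPoints G T) = Nat.card {H : Subgroup G // H.Normal ∧ Nat.card H = p ^ s} := by
    apply Nat.card_congr
    refine
      { toFun := fun H => ⟨H.1.1, ?_, H.1.2⟩
        invFun := fun H => ⟨⟨H.1, H.2.2⟩, ?_⟩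
        left_inv := fun _ => rfl
        right_inv := fun _ => rfl }
    · constructor
      intro x hx g
      have h4 : g • H.1 = H.1 := H.2 g
      have h5 := congrArg Subtype.val h4
      rw [hsm] at h5
      rw [← h5]
      exact ⟨x, hx, rfl⟩
    · intro g
      apply Subtype.ext
      rw [hsm]
      have hN := H.2.1
      ext x
      constructor
      · rintro ⟨y, hy, rfl⟩
        exact hN.conj_mem y hy g
      · intro hx
        refine ⟨g⁻¹ * x * g, ?_, ?_⟩
        · have := hN.conj_mem x hx g⁻¹
          simpa using this
        · simp [mul_assoc]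
  rw [h3] at h2
  exact h2.symm.trans h1

end Cfsg.Agent.S3976
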