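import Mathlib
import Cfsg.Statements.S3977

set_option autoImplicit false
open Cfsg

namespace Cfsg.Agent.S3977

lemma sq_dvd_pow (ρ : ℤ) (i : ℕ) : ρ ^ 2 ∣ (1 + ρ) ^ i - 1 - i * ρ := by
  induction i with
  | zero => simp
  | succ i ih =>
    have : (1 + ρ) ^ (i + 1) - 1 - ((i + 1 : ℕ) : ℤ) * ρ =
        (1 + ρ) * ((1 + ρ) ^ i - 1 - i * ρ) + i * ρ ^ 2 := by
      push_cast
      ring
    rw [this]
    exact dvd_add (Dvd.dvd.mul_left ih _) (Dvd.intro_left _ rfl)

lemma sum_id_odd (p q : ℕ) (hp : p = 2 * q + 1) : ∑ i ∈ Finset.range p, (i : ℤ) = q * p := by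
  have h := Finset.sum_range_id_mul_two p
  have h2 : (∑ i ∈ Finset.range p, i) = q * p := by
    have : p - 1 = 2 * q := by omega
    rw [this] at h
    have h3 : (∑ i ∈ Finset.range p, i) * 2 = (q * p) * 2 := by
      rw [h]; ring
    exact Nat.eq_of_mul_eq_mul_right (by norm_num) h3
  have h4 : ∑ i ∈ Finset.range p, (i : ℤ) = ((∑ i ∈ Finset.range p, i : ℕ) : ℤ) := by
    push_cast; rfl
  rw [h4, h2]
  push_cast
  ring

lemma key_odd (p : ℕ) (hp : p.Prime) (hodd : p ≠ 2) (ρ : ℤ) (hρ : (p : ℤ) ∣ ρ) :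
    (p : ℤ) * ρ ∣ (∑ i ∈ Finset.range p, (1 + ρ) ^ i) - p := by
  obtain ⟨q, hq⟩ := (hp.odd_of_ne_two hodd)
  have hdecomp : (∑ i ∈ Finset.range p, (1 + ρ) ^ i) - p =
      ∑ i ∈ Finset.range p, ((1 + ρ) ^ i - 1 - i * ρ) + ρ * (q * p) := by
    rw [← sum_id_odd p q hq, Finset.mul_sum, ← Finset.sum_add_distrib]
    have : (p : ℤ) = ∑ i ∈ Finset.range p, (1 : ℤ) := by simp
    rw [this, ← Finset.sum_sub_distrib]
    apply Finset.sum_congr rfl
    intro i _
    ring
  rw [hdecomp]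
  apply dvd_add
  · apply Finset.dvd_sum
    intro i _
    refine Dvd.dvd.trans ?_ (sq_dvd_pow ρ i)
    rw [pow_two]
    exact mul_dvd_mul_right hρ ρ
  · exact ⟨q, by ring⟩

lemma power_formula {G : Type*} [Group G] {w y : G} {r : ℤ} (h : y * w * y⁻¹ = w ^ r) (k : ℕ) :
    (w⁻¹ * y) ^ k = w ^ (-(∑ i ∈ Finset.range k, r ^ i)) * y ^ k := by
  induction k with
  | zero => simp
  | succ k ih =>
    rw [pow_succ', ih, Finset.sum_range_succ']
    have h2 : y * w ^ (-(∑ i ∈ Finset.range k, r ^ i)) * y⁻¹ =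
        w ^ (r * (-(∑ i ∈ Finset.range k, r ^ i))) := by
      rw [← conj_zpow, h, zpow_mul]
    have h3 : y * (w ^ (-(∑ i ∈ Finset.range k, r ^ i)) * y ^ k) =
        (y * w ^ (-(∑ i ∈ Finset.range k, r ^ i)) * y⁻¹) * y ^ (k + 1) := by
      rw [pow_succ']
      group
    rw [mul_assoc, h3, h2, ← mul_assoc]
    congr 1
    rw [← zpow_neg_one, ← zpow_add]
    congr 1
    simp only [pow_succ', pow_zero, ← Finset.mul_sum]
    ring

/-- Let `p` be a prime and `G` a group of order `p ^ m` which has exactly one subgroup of order `p ^ s`, where `1 ≤ s < m`, and where `s ≥ 2` if `p = 2`. Then `G` is cyclic. (For `p = 2` and `s = 1` the generalized quaternion groups also occur; that case is the classical criterion for a unique involution.) -/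
theorem result {G : Type*} [Group G] [Finite G] (p m s : ℕ) (hp : p.Prime) (hG : Nat.card G = p ^ m) (hs : 1 ≤ s) (hsm : s < m) (h2 : p ≠ 2 ∨ 2 ≤ s) (huniq : ∀ H K : Subgroup G, Nat.card H = p ^ s → Nat.card K = p ^ s → H = K) : IsCyclic G := by
  classical
  have hfact : Fact p.Prime := ⟨hp⟩
  have hP : IsPGroup p G := IsPGroup.of_card hG
  have hdvds : p ^ s ∣ Nat.card G := hG ▸ pow_dvd_pow p hsm.le
  obtain ⟨H, hH⟩ : ∃ H : Subgroup G, Nat.card H = p ^ s := Sylow.exists_subgroup_card_pow_prime p hdvds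
  have ha : ∀ u : G, u ^ (p ^ s) = 1 → u ∈ H := by
    intro u hu
    have h1 : orderOf u ∣ p ^ s := orderOf_dvd_of_pow_eq_one hu
    obtain ⟨j, hj, hju⟩ := (Nat.dvd_prime_pow hp).mp h1
    have hcard : Nat.card (Subgroup.zpowers u) = p ^ j := by rw [Nat.card_zpowers, hju]
    obtain ⟨K, hK, hle⟩ := Sylow.exists_subgroup_card_pow_prime_le p hdvds (Subgroup.zpowers u) hcard hj
    have := huniq K H hK hH
    rw [this] at hle
    exact hle (Subgroup.mem_zpowers u)
  obtain ⟨y0, hy0⟩ : ∃ y, y ∉ H := by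
    by_contra hcon
    push Not at hcon
    have : H = ⊤ := (Subgroup.eq_top_iff' H).mpr hcon
    rw [this, Subgroup.card_top, hG] at hH
    have := Nat.pow_right_injective hp.two_le hH
    omega
  obtain ⟨x, hx⟩ := Finite.exists_max (fun g : G => orderOf g)
  have hord : ∀ g : G, ∃ j, orderOf g = p ^ j := by
    intro g
    have h1 : orderOf g ∣ p ^ m := hG ▸ orderOf_dvd_natCard g
    obtain ⟨j, _, hj⟩ := (Nat.dvd_prime_pow hp).mp h1
    exact ⟨j, hj⟩
  obtain ⟨a, hxa⟩ := hord x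
  have hsa : s < a := by
    obtain ⟨j, hj⟩ := hord y0
    have h1 : s < j := by
      by_contra hcon
      apply hy0
      apply ha
      rw [← orderOf_dvd_iff_pow_eq_one, hj]
      exact pow_dvd_pow p (by omega)
    have h3 : orderOf y0 ≤ orderOf x := hx y0
    rw [hj, hxa] at h3
    have := (Nat.pow_le_pow_iff_right hp.one_lt).mp h3
    omega
  have hHA : H ≤ Subgroup.zpowers x := by
    have h1 : p ^ s ∣ orderOf x := by rw [hxa]; exact pow_dvd_pow p hsa.le
    have h3 : orderOf (x ^ (orderOf x / p ^ s)) = p ^ s :=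
      orderOf_pow_orderOf_div (orderOf_pos x).ne' h1
    have h4 : Subgroup.zpowers (x ^ (orderOf x / p ^ s)) = H :=
      huniq _ _ (by rw [Nat.card_zpowers, h3]) hH
    rw [← h4, Subgroup.zpowers_le]
    exact Subgroup.npow_mem_zpowers x _
  by_contra hcyc
  have hAtop : Subgroup.zpowers x < ⊤ := by
    rw [lt_top_iff_ne_top]
    intro htop
    exact hcyc (isCyclic_iff_exists_zpowers_eq_top.mpr ⟨x, htop⟩)
  have hnil : Group.IsNilpotent G := hP.isNilpotent
  have hnorm : Subgroup.zpowers x < Subgroup.normalizer (Subgroup.zpowers x : Set G) :=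
    normalizerCondition_of_isNilpotent _ hAtop
  obtain ⟨y', hy'N, hy'A⟩ := SetLike.exists_of_lt hnorm
  -- pass to a power whose `p`-th power lies in `⟨x⟩`
  have hex : ∃ k : ℕ, y' ^ (p ^ k) ∈ Subgroup.zpowers x := by
    refine ⟨m, ?_⟩
    rw [← hG, pow_card_eq_one']
    exact Subgroup.one_mem _
  let k := Nat.find hex
  have hk : y' ^ (p ^ k) ∈ Subgroup.zpowers x := Nat.find_spec hex
  have hk0 : k ≠ 0 := by
    intro h0
    rw [h0, pow_zero, pow_one] at hk
    exact hy'A hk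
  obtain ⟨k', hk'⟩ := Nat.exists_eq_succ_of_ne_zero hk0
  let y := y' ^ (p ^ k')
  have hyA : y ∉ Subgroup.zpowers x := Nat.find_min hex (by omega : k' < k)
  have hyN : y ∈ Subgroup.normalizer (Subgroup.zpowers x : Set G) := Subgroup.pow_mem _ hy'N _
  have hyp : y ^ p ∈ Subgroup.zpowers x := by
    have : y ^ p = y' ^ (p ^ k) := by
      rw [hk', pow_succ, pow_mul]
    rw [this]
    exact hk
  obtain ⟨c, hc⟩ := Subgroup.mem_zpowers_iff.mp hyp
  obtain ⟨r, hr⟩ : ∃ r : ℤ, y * x * y⁻¹ = x ^ r := by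
    have h1 := (Subgroup.mem_normalizer_iff.mp hyN x).mp (Subgroup.mem_zpowers x)
    obtain ⟨r, hr⟩ := Subgroup.mem_zpowers_iff.mp h1
    exact ⟨r, hr.symm⟩
  have hr_conj : ∀ e : ℤ, y * x ^ e * y⁻¹ = x ^ (r * e) := by
    intro e
    rw [← conj_zpow, hr, zpow_mul]
  have hr_pow : ∀ k : ℕ, y ^ k * x * (y ^ k)⁻¹ = x ^ (r ^ k) := by
    intro k
    induction k with
    | zero => simp
    | succ k ih =>
      have : y ^ (k + 1) * x * (y ^ (k + 1))⁻¹ = y * (y ^ k * x * (y ^ k)⁻¹) * y⁻¹ := by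
        rw [pow_succ']
        group
      rw [this, ih, hr_conj, pow_succ']
  have hxrp : x ^ (r ^ p - 1) = 1 := by
    have h1 := hr_pow p
    rw [← hc] at h1
    have h3 : x ^ c * x * (x ^ c)⁻¹ = x := by
      have : x ^ c * x = x * x ^ c := (Commute.refl x).zpow_left c
      rw [this]
      group
    rw [h3] at h1
    rw [zpow_sub, ← h1]
    simp
  have hpord : (p : ℤ) ∣ (orderOf x : ℤ) := by
    rw [hxa]
    push_cast
    exact dvd_pow_self _ (by omega)
  have hpr : (p : ℤ) ∣ r - 1 := by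
    have h1 : (orderOf x : ℤ) ∣ r ^ p - 1 := orderOf_dvd_iff_zpow_eq_one.mpr hxrp
    have h3 : (p : ℤ) ∣ r ^ p - 1 := hpord.trans h1
    rw [← ZMod.intCast_zmod_eq_zero_iff_dvd] at h3 ⊢
    push_cast at h3 ⊢
    rwa [ZMod.pow_card] at h3
  have hcr : x ^ (c * (r - 1)) = 1 := by
    have h1 := hr_conj c
    have h3 : y * x ^ c * y⁻¹ = x ^ c := by
      rw [hc]
      have : y * y ^ p = y ^ p * y := (Commute.refl y).pow_right p
      rw [this]
      group
    rw [h3] at h1
    have : c * (r - 1) = r * c - c := by ring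
    rw [this, zpow_sub, ← h1]
    simp
  have hpc : (p : ℤ) ∣ c := by
    by_contra hcon
    have hprime : Prime (p : ℤ) := Nat.prime_iff_prime_int.mp hp
    have hcop : IsCoprime (p : ℤ) c := (hprime.irreducible.coprime_iff_not_dvd).mpr hcon
    have hcop2 : IsCoprime c (orderOf x : ℤ) := by
      rw [hxa]
      push_cast
      exact hcop.symm.pow_right
    obtain ⟨e, f, hef⟩ := hcop2
    have hx1 : x = (x ^ c) ^ e := by
      have : x ^ (e * c + f * (orderOf x : ℤ)) = x := by rw [hef, zpow_one]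
      rw [zpow_add, zpow_mul' x f, zpow_natCast, pow_orderOf_eq_one, one_zpow, mul_one, mul_comm, zpow_mul] at this
      exact this.symm
    have hle : Subgroup.zpowers x ≤ Subgroup.zpowers y := by
      rw [Subgroup.zpowers_le, hx1, hc]
      exact Subgroup.zpow_mem _ (Subgroup.npow_mem_zpowers y p) e
    have h3 : Subgroup.zpowers x = Subgroup.zpowers y :=
      Subgroup.eq_of_le_of_card_ge hle (by rw [Nat.card_zpowers, Nat.card_zpowers]; exact hx y)
    exact hyA (h3 ▸ Subgroup.mem_zpowers y)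
  obtain ⟨c', hc'⟩ := hpc
  let w := x ^ c'
  have hwp : w ^ p = y ^ p := by
    rw [← hc, hc']
    show (x ^ c') ^ p = _
    rw [← zpow_natCast, ← zpow_mul, mul_comm]
  have hwr : y * w * y⁻¹ = w ^ r := by
    show y * x ^ c' * y⁻¹ = (x ^ c') ^ r
    rw [hr_conj, ← zpow_mul, mul_comm]
  have hw1 : w ^ ((p : ℤ) * (r - 1)) = 1 := by
    show (x ^ c') ^ ((p : ℤ) * (r - 1)) = 1
    rw [← zpow_mul, ← hcr, hc']
    congr 1
    ring
  have hF := power_formula hwr p
  rw [← hwp, ← zpow_natCast w p, ← zpow_add] at hF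
  have huH : (w⁻¹ * y) ^ (p ^ s) = 1 := by
    rcases eq_or_ne p 2 with hp2 | hp2
    · have hs2 : 2 ≤ s := h2.resolve_left (not_not.mpr hp2)
      subst hp2
      have h5 : (w⁻¹ * y) ^ 4 = 1 := by
        have h6 : (w⁻¹ * y) ^ 4 = ((w⁻¹ * y) ^ 2) ^ 2 := by rw [← pow_mul]
        rw [h6, hF, ← zpow_natCast _ 2, ← zpow_mul]
        have h7 : (-(∑ i ∈ Finset.range 2, r ^ i) + ((2 : ℕ) : ℤ)) * ((2 : ℕ) : ℤ) = ((2 : ℕ) : ℤ) * (r - 1) * (-1) := by
          simp [Finset.sum_range_succ]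
          ring
        rw [h7, zpow_mul, hw1, one_zpow]
      have h8 : (4 : ℕ) ∣ 2 ^ s := by
        have : (4 : ℕ) = 2 ^ 2 := by norm_num
        rw [this]
        exact pow_dvd_pow 2 hs2
      obtain ⟨t, ht⟩ := h8
      rw [ht, pow_mul, h5, one_pow]
    · have hk := key_odd p hp hp2 (r - 1) hpr
      have e1 : (1 + (r - 1)) = r := by ring
      rw [e1] at hk
      obtain ⟨t, ht⟩ := hk
      have h5 : (w⁻¹ * y) ^ p = 1 := by
        rw [hF]
        have : -(∑ i ∈ Finset.range p, r ^ i) + (p : ℤ) = ((p : ℤ) * (r - 1)) * (-t) := by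
          have h6 : (∑ i ∈ Finset.range p, r ^ i) = (p : ℤ) * (r - 1) * t + p := by
            rw [← ht]; ring
          rw [h6]; ring
        rw [this, zpow_mul, hw1, one_zpow]
      have h8 : p ∣ p ^ s := dvd_pow_self p (by omega)
      obtain ⟨t', ht'⟩ := h8
      rw [ht', pow_mul, h5, one_pow]
  have huA : w⁻¹ * y ∈ Subgroup.zpowers x := hHA (ha _ huH)
  apply hyA
  have hwA : w ∈ Subgroup.zpowers x := Subgroup.zpow_mem_zpowers x c'
  have : y = w * (w⁻¹ * y) := by group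
  rw [this]
  exact Subgroup.mul_mem _ hwA huA

end Cfsg.Agent.S3977
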