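import Mathlib
import Cfsg.Statements.S3978
import Cfsg.Agent.S3955
import Cfsg.Agent.S3956
import Cfsg.Agent.Lib.SchurBasic

set_option autoImplicit false
open Cfsg

namespace Cfsg.Agent.S3978

/-- A finite group `Q` has trivial Schur multiplier if and only if, for every `n`, every homomorphism from `Q` to the projective general linear group (the quotient of `GL n ℂ` by its centre) lifts to a homomorphism into `GL n ℂ`. -/
theorem result {Q : Type*} [Group Q] [Finite Q] : Cfsg.HasCyclicSchurMultiplier Q 1 ↔ ∀ (n : ℕ) (γ : Q →* (GL (Fin n) ℂ ⧸ Subgroup.center (GL (Fin n) ℂ))), ∃ ρ : Q →* GL (Fin n) ℂ, (QuotientGroup.mk' (Subgroup.center (GL (Fin n) ℂ))).comp ρ = γ := by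
  constructor
  · intro h n γ
    obtain ⟨ρ, hρ⟩ := Cfsg.Agent.S3955.result h (MonoidHom.id Q)
      (Cfsg.Agent.Lib.SchurBasic.isStemExtension_id Q)
      (Cfsg.Agent.Lib.SchurBasic.nonempty_mulEquiv_of_subsingleton _ _) n γ
    exact ⟨ρ, hρ⟩
  · intro h
    apply Cfsg.Agent.Lib.SchurBasic.hasCyclicSchurMultiplier_one
    intro Γ _ _ σ hσ
    obtain ⟨π, hπ⟩ := Cfsg.Agent.S3956.result (MonoidHom.id Q)
      (Cfsg.Agent.Lib.SchurBasic.isStemExtension_id Q) (fun n γ => by
        obtain ⟨ρ, hρ⟩ := h n γ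
        exact ⟨ρ, hρ⟩) Γ σ hσ
    rw [eq_bot_iff]
    intro x hx
    obtain ⟨y, hy⟩ := hπ ⟨x, hx⟩
    have hy1 : y = 1 := Subsingleton.elim _ _
    rw [hy1, map_one] at hy
    have := congrArg Subtype.val hy
    exact Subgroup.mem_bot.mpr this.symm

end Cfsg.Agent.S3978
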