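import Mathlib
import Cfsg.Statements.S3979
import Cfsg.Agent.Lib.SchurBasic

set_option autoImplicit false
open Cfsg

namespace Cfsg.Agent.S3979

/-- A finite cyclic group has trivial Schur multiplier: every finite stem extension of it is an isomorphism, said through `HasCyclicSchurMultiplier G 1`. -/
theorem result {G : Type*} [Group G] [Finite G] [IsCyclic G] : Cfsg.HasCyclicSchurMultiplier G 1 := by
  apply Cfsg.Agent.Lib.SchurBasic.hasCyclicSchurMultiplier_one
  intro Γ _ _ σ hσ
  have hcomm : IsMulCommutative Γ := σ.isMulCommutative_of_isCyclic_of_ker_le_center hσ.2.1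
  rw [eq_bot_iff]
  refine hσ.2.2.trans ?_
  rw [commutator_def, Subgroup.commutator_le]
  intro g _ h _
  rw [Subgroup.mem_bot, commutatorElement_eq_one_iff_mul_comm]
  exact hcomm.is_comm.comm g h

end Cfsg.Agent.S3979
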