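import Mathlib
import Cfsg.Statements.S3980
import Cfsg.Agent.S3959

set_option autoImplicit false
universe u v w
open Cfsg

namespace Cfsg.Agent.S3980

open Subgroup Cfsg.Agent.Lib.SchurHopf Cfsg.Agent.S3959

lemma tens_pow_left {Q₁ : Type u} {Q₂ : Type v} [Group Q₁] [Group Q₂] (a : Q₁) (b : Q₂) (k : ℕ) :
    tens a b ^ k = tens (a ^ k) b := by
  induction k with
  | zero => simp [tens_one_left]
  | succ k ih => rw [pow_succ, pow_succ, tens_mul_left, ih]

lemma tens_pow_right {Q₁ : Type u} {Q₂ : Type v} [Group Q₁] [Group Q₂] (a : Q₁) (b : Q₂) (k : ℕ) :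
    tens a b ^ k = tens a (b ^ k) := by
  induction k with
  | zero => simp [tens_one_right]
  | succ k ih => rw [pow_succ, pow_succ, tens_mul_right, ih]

lemma tens_eq_one_left {Q₁ : Type u} {Q₂ : Type v} [Group Q₁] [Group Q₂] (a : Q₁) (b : Q₂)
    (h : Abelianization.of a = 1) : tens a b = 1 := by
  unfold tens
  rw [h, ofMul_one, TensorProduct.zero_tmul, ofAdd_zero]

lemma tens_eq_one_right {Q₁ : Type u} {Q₂ : Type v} [Group Q₁] [Group Q₂] (a : Q₁) (b : Q₂)
    (h : Abelianization.of b = 1) : tens a b = 1 := by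
  unfold tens
  rw [h, ofMul_one, TensorProduct.tmul_zero, ofAdd_zero]

lemma subsingleton_TT {Q₁ : Type u} {Q₂ : Type v} [Group Q₁] [Group Q₂] [Finite Q₁] [Finite Q₂]
    (hcop : Nat.Coprime (Nat.card (Abelianization Q₁)) (Nat.card (Abelianization Q₂))) :
    Subsingleton (TT Q₁ Q₂) := by
  have key : ∀ t : TT Q₁ Q₂, t = 1 := by
    intro t
    induction t using tens_induction with
    | h1 => rfl
    | hp a b =>
      have h1 : tens a b ^ (Nat.card (Abelianization Q₁)) = 1 := by
        rw [tens_pow_left]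
        apply tens_eq_one_left
        rw [map_pow, pow_card_eq_one']
      have h2 : tens a b ^ (Nat.card (Abelianization Q₂)) = 1 := by
        rw [tens_pow_right]
        apply tens_eq_one_right
        rw [map_pow, pow_card_eq_one']
      have h3 := pow_gcd_eq_one.mpr ⟨h1, h2⟩
      rwa [hcop.gcd_eq_one, pow_one] at h3
    | hm x y hx hy => rw [hx, hy, one_mul]
  exact ⟨fun a b => (key a).trans (key b).symm⟩

/-- Let `Q₁` and `Q₂` be finite groups whose commutator quotients have coprime orders, with Schur multipliers `A` and `B`. Then the Schur multiplier of `Q₁ × Q₂` is isomorphic to `A × B`. -/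
theorem result {Q₁ : Type u} {Q₂ : Type v} [Group Q₁] [Group Q₂] [Finite Q₁] [Finite Q₂] {A B : Type w} [CommGroup A] [CommGroup B] (hA : Cfsg.HasSchurMultiplier Q₁ A) (hB : Cfsg.HasSchurMultiplier Q₂ B) (hcop : Nat.Coprime (Nat.card (Abelianization Q₁)) (Nat.card (Abelianization Q₂))) : Cfsg.HasSchurMultiplier (Q₁ × Q₂) (A × B) := by
  have h := Cfsg.Agent.S3959.result hA hB
  haveI := subsingleton_TT hcop
  let e : (A × B × Multiplicative (TensorProduct ℤ (Additive (Abelianization Q₁)) (Additive (Abelianization Q₂)))) ≃* (A × B) :=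
    { toFun := fun x => (x.1, x.2.1)
      invFun := fun x => (x.1, x.2, 1)
      left_inv := fun x => by
        refine Prod.ext rfl (Prod.ext rfl ?_)
        exact Subsingleton.elim (α := TT Q₁ Q₂) _ _
      right_inv := fun x => rfl
      map_mul' := fun x y => rfl }
  exact HasSchurMultiplier_congr e h

end Cfsg.Agent.S3980
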