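import Mathlib
import Cfsg.Statements.S3992
import Cfsg.Agent.Lib.CPGroups

set_option autoImplicit false
open Cfsg

namespace Cfsg.Agent.S3992

open Cfsg.Agent.Lib.CPGroups

/-- Let G be a finite non-solvable group in which every element has prime-power order, and let R be its largest solvable normal subgroup. Then R is a p-group for some prime p; G/R has a non-abelian simple normal subgroup contained in every nontrivial normal subgroup of G/R (its unique minimal normal subgroup); and the order of every solvable subgroup of G has at most two prime divisors. -/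
theorem result {G : Type*} [Group G] [Finite G] (hns : ¬ Group.IsSolvable G) (hpp : ∀ g : G, g ≠ 1 → IsPrimePow (orderOf g))
    (R : Subgroup G) [R.Normal] (hRs : Group.IsSolvable ↥R) (hRmax : ∀ N : Subgroup G, N.Normal → Group.IsSolvable ↥N → N ≤ R) :
    (∃ p : ℕ, p.Prime ∧ IsPGroup p ↥R) ∧
      (∃ M : Subgroup (G ⧸ R), M.Normal ∧ IsSimpleGroup ↥M ∧ ¬ IsMulCommutative ↥M ∧
        ∀ N : Subgroup (G ⧸ R), N.Normal → N ≠ ⊥ → M ≤ N) ∧
      ∀ H : Subgroup G, Group.IsSolvable ↥H → (Nat.card ↥H).primeFactors.card ≤ 2 := by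
  have hcp : CP G := hpp
  refine ⟨radical_isPGroup hcp hns R hRs, ?_, fun H hH => card_primeFactors_le_two H (hcp.of_subgroup H)⟩
  have hQnt : Nontrivial (G ⧸ R) := by
    by_contra hno
    rw [not_nontrivial_iff_subsingleton] at hno
    apply hns
    apply Group.isSolvable_of_surjective (f := R.subtype)
    intro g
    have : (g : G ⧸ R) = 1 := Subsingleton.elim _ _
    exact ⟨⟨g, (QuotientGroup.eq_one_iff g).mp this⟩, rfl⟩
  apply exists_simple_min_normal (hcp.of_surjective (QuotientGroup.mk' R) (QuotientGroup.mk'_surjective R))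
  intro Nbar hNbar hsolv
  let N : Subgroup G := Nbar.comap (QuotientGroup.mk' R)
  have hNnormal : N.Normal := Subgroup.Normal.comap hNbar _
  have hRN : R ≤ N := by
    intro x hx
    show (QuotientGroup.mk' R) x ∈ Nbar
    have h0 : (QuotientGroup.mk' R) x = 1 := (QuotientGroup.eq_one_iff x).mpr hx
    rw [h0]
    exact Nbar.one_mem
  have hNsolv : Group.IsSolvable N := by
    refine Group.isSolvable_of_ker_le_range (Subgroup.inclusion hRN)
      ((QuotientGroup.mk' R).subgroupComap Nbar) ?_
    rintro ⟨x, hx⟩ hker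
    have h1 : (QuotientGroup.mk' R) x = 1 := congrArg Subtype.val hker
    have h2 : x ∈ R := (QuotientGroup.eq_one_iff x).mp h1
    exact ⟨⟨x, h2⟩, rfl⟩
  have hNR := hRmax N hNnormal hNsolv
  rw [eq_bot_iff]
  intro q hq
  obtain ⟨x, rfl⟩ := QuotientGroup.mk_surjective q
  have hx : x ∈ N := hq
  rw [Subgroup.mem_bot]
  exact (QuotientGroup.eq_one_iff x).mpr (hNR hx)

end Cfsg.Agent.S3992
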