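import Mathlib
import Cfsg.Statements.S3994
import Cfsg.Agent.Lib.FrobCount

set_option autoImplicit false
open Cfsg

namespace Cfsg.Agent.S3994

open Cfsg.Agent.Lib.FrobCount

lemma hall_part_pi (M n : ℕ) (hM : 0 < M) (q : ℕ) (hq : q.Prime) (hqs : q ∣ M / Nat.gcd M (n ^ M)) :
    ¬ q ∣ n := by
  intro hqn
  set g := Nat.gcd M (n ^ M) with hg
  have hgM : g ∣ M := Nat.gcd_dvd_left _ _
  set v := M.factorization q with hv
  have hvlt : v < M := Nat.factorization_lt q hM.ne'
  have h1 : q ^ v ∣ M := Nat.ordProj_dvd M q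
  have h2 : q ^ v ∣ n ^ M := by
    calc q ^ v ∣ q ^ M := pow_dvd_pow q hvlt.le
      _ ∣ n ^ M := pow_dvd_pow_of_dvd hqn M
  have h3 : q ^ v ∣ g := Nat.dvd_gcd h1 h2
  have h4 : q ^ (v + 1) ∣ M := by
    rw [pow_succ, ← Nat.mul_div_cancel' hgM]
    exact Nat.mul_dvd_mul h3 hqs
  exact Nat.pow_succ_factorization_not_dvd hM.ne' hq h4

/-- Let G be a finite group and n a positive integer. The number of elements of G whose order is divisible by n is either 0 or divisible by the largest divisor of the order of G that is coprime to n. -/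
theorem result {G : Type*} [Group G] [Finite G] (n : ℕ) (hn : 0 < n) :
    Nat.card {g : G // n ∣ orderOf g} = 0 ∨
      (Nat.card G / Nat.gcd (Nat.card G) (n ^ Nat.card G)) ∣ Nat.card {g : G // n ∣ orderOf g} := by
  classical
  cases nonempty_fintype G
  right
  set s := Nat.card G / Nat.gcd (Nat.card G) (n ^ Nat.card G) with hs
  have hsdvd : s ∣ Nat.card G := Nat.div_dvd_of_dvd (Nat.gcd_dvd_left _ _)
  let P : ℕ → Prop := fun q => q ∣ n
  have hsP : ∀ q : ℕ, q.Prime → q ∣ s → ¬ P q := fun q hq h =>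
    hall_part_pi (Nat.card G) n Nat.card_pos q hq h
  -- characterize
  have hchar : ∀ u v : G, PiElt P u → PiElt (fun q => ¬ P q) v → Commute u v →
      (n ∣ orderOf (u * v) ↔ n ∣ orderOf u) := by
    intro u v hu hv huv
    have hcop : Nat.Coprime (orderOf u) (orderOf v) := coprime_of_pi hu hv
    rw [huv.orderOf_mul_eq_mul_orderOf_of_coprime hcop]
    constructor
    · intro h
      have hc : Nat.Coprime n (orderOf v) := by
        apply Nat.coprime_of_dvd
        intro q hq h1 h2
        exact hv q hq h2 h1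
      exact hc.dvd_of_dvd_mul_right h
    · intro h
      exact h.trans (dvd_mul_right _ _)
  let F : G → ℕ := fun u => Nat.card {v : G // PiElt (fun q => ¬ P q) v ∧ PiElt P u ∧ n ∣ orderOf u ∧ Commute v u}
  have hsum : Nat.card {g : G // n ∣ orderOf g} = ∑ u : G, F u := by
    have e1 : {g : G // n ∣ orderOf g} ≃
        {p' : G × G // PiElt P p'.1 ∧ PiElt (fun q => ¬ P q) p'.2 ∧ Commute p'.1 p'.2 ∧ n ∣ orderOf p'.1} :=
      { toFun := fun x =>
          let p' := decompEquiv (G := G) P x.1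
          ⟨p'.1, p'.2.1, p'.2.2.1, p'.2.2.2, by
            have h2 : p'.1.1 * p'.1.2 = x.1 := (decompEquiv (G := G) P).symm_apply_apply x.1
            have h1 := hchar p'.1.1 p'.1.2 p'.2.1 p'.2.2.1 p'.2.2.2
            rw [h2] at h1
            exact h1.mp x.2⟩
        invFun := fun s => ⟨s.1.1 * s.1.2, (hchar _ _ s.2.1 s.2.2.1 s.2.2.2.1).mpr s.2.2.2.2⟩
        left_inv := by
          rintro ⟨x, hx⟩
          apply Subtype.ext
          exact (decompEquiv (G := G) P).symm_apply_apply x
        right_inv := by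
          rintro ⟨⟨u, v⟩, hu, hv, huv, hn⟩
          apply Subtype.ext
          have h3 := (decompEquiv (G := G) P).apply_symm_apply ⟨(u, v), hu, hv, huv⟩
          exact congrArg (fun z => z.1) h3 }
    have e2 : {p' : G × G // PiElt P p'.1 ∧ PiElt (fun q => ¬ P q) p'.2 ∧ Commute p'.1 p'.2 ∧ n ∣ orderOf p'.1} ≃
        Σ u : G, {v : G // PiElt (fun q => ¬ P q) v ∧ PiElt P u ∧ n ∣ orderOf u ∧ Commute v u} :=
      { toFun := fun p => ⟨p.1.1, ⟨p.1.2, p.2.2.1, p.2.1, p.2.2.2.2, p.2.2.2.1.symm⟩⟩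
        invFun := fun s => ⟨(s.1, s.2.1), s.2.2.2.1, s.2.2.1, s.2.2.2.2.2.symm, s.2.2.2.2.1⟩
        left_inv := fun _ => rfl
        right_inv := fun _ => rfl }
    rw [Nat.card_congr e1, Nat.card_congr e2, Nat.card_sigma]
  rw [hsum]
  apply dvd_sum_of_class
  · intro g u
    apply Nat.card_congr
    refine Equiv.subtypeEquiv (MulAut.conj g⁻¹).toEquiv ?_
    intro v
    have e : (MulAut.conj g⁻¹).toEquiv v = g⁻¹ * v * g := by
      simp
    rw [e]
    have e2 : PiElt (fun q => ¬ P q) (g⁻¹ * v * g) ↔ PiElt (fun q => ¬ P q) v := by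
      have := PiElt.conj (P := fun q => ¬ P q) g⁻¹ (x := v)
      simpa using this
    rw [e2, PiElt.conj, orderOf_conj', commute_conj_iff]
  · intro u
    by_cases hu : PiElt P u ∧ n ∣ orderOf u
    · let C := Subgroup.centralizer ({u} : Set G)
      have hFu : F u = Nat.card {v : C // PiElt (fun q => ¬ P q) v} := by
        rw [Nat.card_congr (centralizerEquiv (fun q => ¬ P q) u)]
        apply Nat.card_congr
        apply Equiv.subtypeEquivRight
        intro v
        constructor
        · rintro ⟨h1, _, _, h3⟩; exact ⟨h1, h3⟩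
        · rintro ⟨h1, h3⟩; exact ⟨h1, hu.1, hu.2, h3⟩
      rw [hFu]
      have hgcd : Nat.gcd s (Nat.card C) ∣ Nat.card {v : C // PiElt (fun q => ¬ P q) v} := by
        apply dvd_card_piElt (fun q => ¬ P q) C _ (Nat.gcd_dvd_right _ _)
        intro q hq h
        exact hsP q hq (h.trans (Nat.gcd_dvd_left _ _))
      apply dvd_idx_mul_of_gcd_dvd _ hgcd Nat.card_pos
      rw [mul_comm, Subgroup.card_mul_index]
      exact hsdvd
    · have hFu : F u = 0 := by
        have : IsEmpty {v : G // PiElt (fun q => ¬ P q) v ∧ PiElt P u ∧ n ∣ orderOf u ∧ Commute v u} :=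
          ⟨fun v => hu ⟨v.2.2.1, v.2.2.2.1⟩⟩
        exact Nat.card_of_isEmpty
      rw [hFu]; simp

end Cfsg.Agent.S3994
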