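import Mathlib
import Cfsg.Statements.S3996
import Cfsg.Agent.Lib.FrobCount
import Cfsg.Agent.Lib.BurnsidePQ

set_option autoImplicit false
open Cfsg

namespace Cfsg.Agent.S3996

open Cfsg.Agent.Lib.FrobCount

lemma zmod_rel {p a b : ℕ} (h : p ∣ a + b) : ((a : ZMod p)) + (b : ZMod p) = 0 := by
  have := (ZMod.natCast_eq_zero_iff (a + b) p).mpr h
  push_cast at this
  exact this

/-- The case of different values. -/
theorem b1_core (N : ℕ → ℕ) (p q w α β : ℕ) (hp : p.Prime) (hq : q.Prime) (hp2 : p ≠ 2) (hq2 : q ≠ 2)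
    (hpq : p ≠ q) (hwp : ¬ p ∣ w) (hwq : ¬ q ∣ w) (hw : 3 ≤ w) (h1 : N 1 = 1)
    (Rp : ∀ u, 0 < u → ¬ p ∣ u → p ∣ N u + N (u * p)) (Rq : ∀ u, 0 < u → ¬ q ∣ u → q ∣ N u + N (u * q))
    (hval : ∀ m, 3 ≤ m → N m ≠ 0 → N m = α ∨ N m = β) (hNp : N p = α)
    (hNq : N q = β) (hNw : N w = α) : False := by
  have : Fact p.Prime := ⟨hp⟩
  have : Fact q.Prime := ⟨hq⟩
  have hp3 : 2 < p := by
    have := hp.two_le
    omega
  have hq3 : 2 < q := by
    have := hq.two_le
    omega
  have : Fact (2 < p) := ⟨hp3⟩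
  have : Fact (2 < q) := ⟨hq3⟩
  have hnp : (-1 : ZMod p) ≠ 1 := ZMod.neg_one_ne_one
  have hnq : (-1 : ZMod q) ≠ 1 := ZMod.neg_one_ne_one
  have h0p : (0 : ZMod p) ≠ 1 := zero_ne_one
  have h0q : (0 : ZMod q) ≠ 1 := zero_ne_one
  -- α ≡ -1 mod p
  have hαp : (α : ZMod p) = -1 := by
    have := zmod_rel (Rp 1 one_pos (by simpa using hp.one_lt.ne'))
    rw [h1, one_mul, hNp] at this
    push_cast at this
    linear_combination this
  have hβq : (β : ZMod q) = -1 := by
    have := zmod_rel (Rq 1 one_pos (by simpa using hq.one_lt.ne'))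
    rw [h1, one_mul, hNq] at this
    push_cast at this
    linear_combination this
  -- `w p`
  have hwp3 : 3 ≤ w * p := by nlinarith [hp.one_lt]
  have e1 := zmod_rel (Rp w (by omega) hwp)
  rw [hNw, hαp] at e1
  have hNwp : (N (w * p) : ZMod p) = 1 := by linear_combination e1
  have hwpne : N (w * p) ≠ 0 := by
    intro h
    rw [h] at hNwp
    simp at hNwp
  have hwpb : N (w * p) = β := by
    rcases hval _ hwp3 hwpne with h | h
    · exfalso
      rw [h, hαp] at hNwp
      exact hnp hNwp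
    · exact h
  have hβp : (β : ZMod p) = 1 := by rw [← hwpb]; exact hNwp
  -- `p q`
  have hqp : ¬ p ∣ q := fun h => hpq ((Nat.prime_dvd_prime_iff_eq hp hq).mp h)
  have hpq' : ¬ q ∣ p := fun h => hpq ((Nat.prime_dvd_prime_iff_eq hq hp).mp h).symm
  have e2 := zmod_rel (Rp q hq.pos hqp)
  rw [hNq, hβp] at e2
  have hNqp : (N (q * p) : ZMod p) = -1 := by linear_combination e2
  have hqpne : N (q * p) ≠ 0 := by
    intro h
    rw [h] at hNqp
    simp at hNqp
  have hqp3 : 3 ≤ q * p := by nlinarith [hq3, hp.one_lt]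
  have hqpa : N (q * p) = α := by
    rcases hval _ hqp3 hqpne with h | h
    · exact h
    · exfalso
      rw [h, hβp] at hNqp
      exact hnp hNqp.symm
  -- mod q
  have e3 := zmod_rel (Rq p hp.pos hpq')
  have hcomm : p * q = q * p := mul_comm p q
  rw [hNp, hcomm, hqpa] at e3
  have hαq : (α : ZMod q) = 0 := by
    have h2 : (2 : ZMod q) ≠ 0 := by
      intro h
      have : ((2 : ℕ) : ZMod q) = 0 := by exact_mod_cast h
      have := (ZMod.natCast_eq_zero_iff 2 q).mp this
      have := Nat.le_of_dvd (by norm_num) this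
      omega
    have h3 : (2 : ZMod q) * (α : ZMod q) = 0 := by linear_combination e3
    exact (mul_eq_zero.mp h3).resolve_left h2
  -- `w p q`
  have hqwp : ¬ q ∣ w * p := fun h => (hq.dvd_mul.mp h).elim hwq hpq'
  have e4 := zmod_rel (Rq (w * p) (by nlinarith [hp.pos]) hqwp)
  rw [hwpb, hβq] at e4
  have hN4 : (N (w * p * q) : ZMod q) = 1 := by linear_combination e4
  have hne4 : N (w * p * q) ≠ 0 := by
    intro h
    rw [h] at hN4
    simp at hN4
  have h34 : 3 ≤ w * p * q := by nlinarith [hq.pos, hwp3]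
  rcases hval _ h34 hne4 with h | h
  · rw [h, hαq] at hN4
    exact h0q hN4
  · rw [h, hβq] at hN4
    exact hnq hN4

/-- The `mod 4` contradiction when all odd primes have the same value. -/
theorem mod4_core (N : ℕ → ℕ) (p q a b K : ℕ) (hp : p.Prime) (hq : q.Prime) (hp2 : p ≠ 2) (hq2 : q ≠ 2)
    (hpq : p ≠ q) (h1 : N 1 = 1) (h2 : N 2 = 1) (hK : 2 ≤ K)
    (Rp : ∀ u, 0 < u → ¬ p ∣ u → p ∣ N u + N (u * p)) (Rq : ∀ u, 0 < u → ¬ q ∣ u → q ∣ N u + N (u * q))
    (hval : ∀ m, 3 ≤ m → N m ≠ 0 → N m = a ∨ N m = b) (hNp : N p = a) (hNq : N q = a)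
    (hpow : ∀ i, N (2 ^ i) = 0 → N (p * q * 2 ^ i) = 0)
    (heven : ∀ m, 3 ≤ m → Even (N m))
    (h4a : 4 ∣ ∑ i ∈ Finset.range K, N (2 ^ i))
    (h4b : 4 ∣ ∑ i ∈ Finset.range K, N (p * q * 2 ^ i)) : False := by
  have : Fact p.Prime := ⟨hp⟩
  have : Fact q.Prime := ⟨hq⟩
  have hp3 : 2 < p := by
    have := hp.two_le
    omega
  have hq3 : 2 < q := by
    have := hq.two_le
    omega
  have : Fact (2 < p) := ⟨hp3⟩
  have : Fact (2 < q) := ⟨hq3⟩
  have hnp : (-1 : ZMod p) ≠ 1 := ZMod.neg_one_ne_one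
  have hnq : (-1 : ZMod q) ≠ 1 := ZMod.neg_one_ne_one
  have hap : (a : ZMod p) = -1 := by
    have := zmod_rel (Rp 1 one_pos (by simpa using hp.one_lt.ne'))
    rw [h1, one_mul, hNp] at this
    push_cast at this
    linear_combination this
  have haq : (a : ZMod q) = -1 := by
    have := zmod_rel (Rq 1 one_pos (by simpa using hq.one_lt.ne'))
    rw [h1, one_mul, hNq] at this
    push_cast at this
    linear_combination this
  have hqp : ¬ p ∣ q := fun h => hpq ((Nat.prime_dvd_prime_iff_eq hp hq).mp h)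
  have hpq' : ¬ q ∣ p := fun h => hpq ((Nat.prime_dvd_prime_iff_eq hq hp).mp h).symm
  have hpq3 : 3 ≤ p * q := by nlinarith
  -- `p q`
  have hNpq : N (p * q) = b := by
    have e := zmod_rel (Rq p hp.pos hpq')
    rw [hNp, haq] at e
    have h3 : (N (p * q) : ZMod q) = 1 := by linear_combination e
    have hne : N (p * q) ≠ 0 := by
      intro h
      rw [h] at h3
      simp at h3
    rcases hval _ hpq3 hne with h | h
    · exfalso
      rw [h, haq] at h3
      exact hnq h3
    · exact h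
  have hbp : (b : ZMod p) = 1 := by
    have e := zmod_rel (Rp q hq.pos hqp)
    rw [hNq, hap, mul_comm q p, hNpq] at e
    linear_combination e
  have hbq : (b : ZMod q) = 1 := by
    have e := zmod_rel (Rq p hp.pos hpq')
    rw [hNp, haq, hNpq] at e
    linear_combination e
  -- the general step: for `u` coprime to `p q`, `N (u p q) = N u` when `N u` is `a` or `b`
  have hstep : ∀ u, 3 ≤ u → ¬ p ∣ u → ¬ q ∣ u → N u ≠ 0 → N (p * q * u) = N u := by
    intro u hu hup huq hne
    have hup3 : 3 ≤ u * p := by nlinarith [hp.pos]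
    have hqup : ¬ q ∣ u * p := fun h => (hq.dvd_mul.mp h).elim huq hpq'
    have hupq3 : 3 ≤ u * p * q := by nlinarith [hq.pos]
    have ecomm : p * q * u = u * p * q := by ring
    rw [ecomm]
    have e1 := zmod_rel (Rp u (by omega) hup)
    have e2 := zmod_rel (Rq (u * p) (by nlinarith [hp.pos]) hqup)
    rcases hval u hu hne with h | h
    · -- `N u = a`
      rw [h, hap] at e1
      have h3 : (N (u * p) : ZMod p) = 1 := by linear_combination e1
      have hne3 : N (u * p) ≠ 0 := by
        intro h0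
        rw [h0] at h3
        simp at h3
      have h4 : N (u * p) = b := by
        rcases hval _ hup3 hne3 with h' | h'
        · exfalso
          rw [h', hap] at h3
          exact hnp h3
        · exact h'
      rw [h4, hbq] at e2
      have h5 : (N (u * p * q) : ZMod q) = -1 := by linear_combination e2
      have hne5 : N (u * p * q) ≠ 0 := by
        intro h0
        rw [h0] at h5
        simp at h5
      rcases hval _ hupq3 hne5 with h' | h'
      · rw [h, h']
      · exfalso
        rw [h', hbq] at h5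
        exact hnq h5.symm
    · -- `N u = b`
      rw [h, hbp] at e1
      have h3 : (N (u * p) : ZMod p) = -1 := by linear_combination e1
      have hne3 : N (u * p) ≠ 0 := by
        intro h0
        rw [h0] at h3
        simp at h3
      have h4 : N (u * p) = a := by
        rcases hval _ hup3 hne3 with h' | h'
        · exact h'
        · exfalso
          rw [h', hbp] at h3
          exact hnp h3.symm
      rw [h4, haq] at e2
      have h5 : (N (u * p * q) : ZMod q) = 1 := by linear_combination e2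
      have hne5 : N (u * p * q) ≠ 0 := by
        intro h0
        rw [h0] at h5
        simp at h5
      rcases hval _ hupq3 hne5 with h' | h'
      · exfalso
        rw [h', haq] at h5
        exact hnq h5
      · rw [h, h']
  -- `2 p q`
  have hN2pq : N (p * q * 2) = b := by
    have e1 := zmod_rel (Rp 2 (by norm_num) (by
      intro h
      have := Nat.le_of_dvd (by norm_num) h
      omega))
    rw [h2] at e1
    push_cast at e1
    have h3 : (N (2 * p) : ZMod p) = -1 := by linear_combination e1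
    have hne3 : N (2 * p) ≠ 0 := by
      intro h0
      rw [h0] at h3
      simp at h3
    have h2p3 : 3 ≤ 2 * p := by omega
    have h4 : N (2 * p) = a := by
      rcases hval _ h2p3 hne3 with h' | h'
      · exact h'
      · exfalso
        rw [h', hbp] at h3
        exact hnp h3.symm
    have hq2p : ¬ q ∣ 2 * p := fun h => (hq.dvd_mul.mp h).elim (fun h' => by
      have := Nat.le_of_dvd (by norm_num) h'
      omega) hpq'
    have e2 := zmod_rel (Rq (2 * p) (by omega) hq2p)
    rw [h4, haq] at e2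
    have h5 : (N (2 * p * q) : ZMod q) = 1 := by linear_combination e2
    have hne5 : N (2 * p * q) ≠ 0 := by
      intro h0
      rw [h0] at h5
      simp at h5
    have h3' : 3 ≤ 2 * p * q := by nlinarith [hq.pos]
    have ecomm : p * q * 2 = 2 * p * q := by ring
    rw [ecomm]
    rcases hval _ h3' hne5 with h' | h'
    · exfalso
      rw [h', haq] at h5
      exact hnq h5
    · exact h'
  -- the sums
  have hterm : ∀ i, N (p * q * 2 ^ (i + 2)) = N (2 ^ (i + 2)) := by
    intro i
    by_cases h0 : N (2 ^ (i + 2)) = 0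
    · rw [h0]
      exact hpow _ h0
    · have h3 : 3 ≤ 2 ^ (i + 2) := by
        have : 2 ^ (i + 2) = 4 * 2 ^ i := by ring
        have h4 : 0 < 2 ^ i := by positivity
        omega
      apply hstep _ h3 _ _ h0
      · intro h
        have := (Nat.Prime.eq_one_or_self_of_dvd (Nat.prime_two)) p
        have h5 := hp.dvd_of_dvd_pow h
        have := Nat.le_of_dvd (by norm_num) h5
        omega
      · intro h
        have h5 := hq.dvd_of_dvd_pow h
        have := Nat.le_of_dvd (by norm_num) h5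
        omega
  obtain ⟨K', rfl⟩ : ∃ K', K = K' + 2 := ⟨K - 2, by omega⟩
  rw [Finset.sum_range_succ', Finset.sum_range_succ'] at h4a h4b
  simp only [pow_zero, pow_one, mul_one, zero_add] at h4a h4b
  have hsumeq : ∑ i ∈ Finset.range K', N (p * q * 2 ^ (i + 1 + 1)) = ∑ i ∈ Finset.range K', N (2 ^ (i + 1 + 1)) :=
    Finset.sum_congr rfl (fun i _ => hterm i)
  rw [hsumeq, hNpq, hN2pq] at h4b
  rw [h1, h2] at h4a
  have hbeven : Even b := by
    rw [← hNpq]
    exact heven _ hpq3
  obtain ⟨c, hc⟩ := hbeven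
  omega


/-- Divisibility of the number of elements whose `π`-part has a given property. -/
theorem dvd_card_of_part {G : Type*} [Group G] [Finite G] (P A : ℕ → Prop) (s : ℕ) (hsdvd : s ∣ Nat.card G)
    (hsP : ∀ q : ℕ, q.Prime → q ∣ s → ¬ P q) (X : G → Prop)
    (hchar : ∀ u v : G, PiElt P u → PiElt (fun q => ¬ P q) v → Commute u v →
      (X (u * v) ↔ A (orderOf u))) : s ∣ Nat.card {g : G // X g} := by
  classical
  cases nonempty_fintype G
  let F : G → ℕ := fun u => Nat.card {v : G // PiElt (fun q => ¬ P q) v ∧ PiElt P u ∧ A (orderOf u) ∧ Commute v u}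
  have hsum : Nat.card {g : G // X g} = ∑ u : G, F u := by
    have e1 : {g : G // X g} ≃
        {p' : G × G // PiElt P p'.1 ∧ PiElt (fun q => ¬ P q) p'.2 ∧ Commute p'.1 p'.2 ∧ A (orderOf p'.1)} :=
      { toFun := fun x =>
          let p' := decompEquiv (G := G) P x.1
          ⟨p'.1, p'.2.1, p'.2.2.1, p'.2.2.2, by
            have h2 : p'.1.1 * p'.1.2 = x.1 := (decompEquiv (G := G) P).symm_apply_apply x.1
            have h1 := hchar p'.1.1 p'.1.2 p'.2.1 p'.2.2.1 p'.2.2.2
            rw [h2] at h1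
            exact h1.mp x.2⟩
        invFun := fun s => ⟨s.1.1 * s.1.2, (hchar _ _ s.2.1 s.2.2.1 s.2.2.2.1).mpr s.2.2.2.2⟩
        left_inv := by
          rintro ⟨x, hx⟩
          apply Subtype.ext
          exact (decompEquiv (G := G) P).symm_apply_apply x
        right_inv := by
          rintro ⟨⟨u, v⟩, hu, hv, huv, hn⟩
          apply Subtype.ext
          have h3 := (decompEquiv (G := G) P).apply_symm_apply ⟨(u, v), hu, hv, huv⟩
          exact congrArg (fun z => z.1) h3 }
    have e2 : {p' : G × G // PiElt P p'.1 ∧ PiElt (fun q => ¬ P q) p'.2 ∧ Commute p'.1 p'.2 ∧ A (orderOf p'.1)} ≃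
        Σ u : G, {v : G // PiElt (fun q => ¬ P q) v ∧ PiElt P u ∧ A (orderOf u) ∧ Commute v u} :=
      { toFun := fun p => ⟨p.1.1, ⟨p.1.2, p.2.2.1, p.2.1, p.2.2.2.2, p.2.2.2.1.symm⟩⟩
        invFun := fun s => ⟨(s.1, s.2.1), s.2.2.2.1, s.2.2.1, s.2.2.2.2.2.symm, s.2.2.2.2.1⟩
        left_inv := fun _ => rfl
        right_inv := fun _ => rfl }
    rw [Nat.card_congr e1, Nat.card_congr e2, Nat.card_sigma]
  rw [hsum]
  apply dvd_sum_of_class
  · intro g u
    apply Nat.card_congr
    refine Equiv.subtypeEquiv (MulAut.conj g⁻¹).toEquiv ?_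
    intro v
    have e : (MulAut.conj g⁻¹).toEquiv v = g⁻¹ * v * g := by
      simp
    rw [e]
    have e2 : PiElt (fun q => ¬ P q) (g⁻¹ * v * g) ↔ PiElt (fun q => ¬ P q) v := by
      have := PiElt.conj (P := fun q => ¬ P q) g⁻¹ (x := v)
      simpa using this
    rw [e2, PiElt.conj, orderOf_conj', commute_conj_iff]
  · intro u
    by_cases hu : PiElt P u ∧ A (orderOf u)
    · let C := Subgroup.centralizer ({u} : Set G)
      have hFu : F u = Nat.card {v : C // PiElt (fun q => ¬ P q) v} := by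
        rw [Nat.card_congr (centralizerEquiv (fun q => ¬ P q) u)]
        apply Nat.card_congr
        apply Equiv.subtypeEquivRight
        intro v
        constructor
        · rintro ⟨h1, _, _, h3⟩; exact ⟨h1, h3⟩
        · rintro ⟨h1, h3⟩; exact ⟨h1, hu.1, hu.2, h3⟩
      rw [hFu]
      have hgcd : Nat.gcd s (Nat.card C) ∣ Nat.card {v : C // PiElt (fun q => ¬ P q) v} := by
        apply dvd_card_piElt (fun q => ¬ P q) C _ (Nat.gcd_dvd_right _ _)
        intro q hq h
        exact hsP q hq (h.trans (Nat.gcd_dvd_left _ _))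
      apply dvd_idx_mul_of_gcd_dvd _ hgcd Nat.card_pos
      rw [mul_comm, Subgroup.card_mul_index]
      exact hsdvd
    · have hFu : F u = 0 := by
        have : IsEmpty {v : G // PiElt (fun q => ¬ P q) v ∧ PiElt P u ∧ A (orderOf u) ∧ Commute v u} :=
          ⟨fun v => hu ⟨v.2.2.1, v.2.2.2.1⟩⟩
        exact Nat.card_of_isEmpty
      rw [hFu]; simp


section count

variable {G : Type*} [Group G] [Finite G]

/-- The number of elements of order `m`. -/
noncomputable abbrev N (G : Type*) [Group G] (m : ℕ) : ℕ := Nat.card {g : G // orderOf g = m}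

lemma N_ne_zero_iff (m : ℕ) : N G m ≠ 0 ↔ ∃ g : G, orderOf g = m := by
  haveI : Finite {g : G // orderOf g = m} := inferInstance
  rw [Ne, Nat.card_eq_zero]
  simp only [not_or, not_isEmpty_iff, not_infinite_iff_finite, Subtype.exists, exists_prop, exists_eq_right]
  constructor
  · rintro ⟨⟨g, hg⟩, _⟩
    exact ⟨g, hg⟩
  · rintro ⟨g, hg⟩
    exact ⟨⟨g, hg⟩, inferInstance⟩

lemma N_one : N G 1 = 1 := by
  have : Unique {g : G // orderOf g = 1} :=
    { default := ⟨1, orderOf_one⟩
      uniq := fun x => Subtype.ext (orderOf_eq_one_iff.mp x.2) }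
  exact Nat.card_unique

lemma N_even {m : ℕ} (hm : 3 ≤ m) : Even (N G m) := by
  have h1 : Even (Nat.totient m) := Nat.totient_even (by omega)
  exact even_iff_two_dvd.mpr ((even_iff_two_dvd.mp h1).trans (totient_dvd_card_orderOf m))

lemma N_dvd_zero {d m : ℕ} (hm : 0 < m) (hd : d ∣ m) (h : N G d = 0) : N G m = 0 := by
  by_contra hne
  obtain ⟨g, hg⟩ := (N_ne_zero_iff m).mp hne
  apply (N_ne_zero_iff d).mpr _ h
  refine ⟨g ^ (orderOf g / d), ?_⟩
  apply orderOf_pow_orderOf_div (by omega)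
  rw [hg]; exact hd

lemma N_prime_ne {p : ℕ} (hp : p.Prime) (hd : p ∣ Nat.card G) : N G p ≠ 0 := by
  haveI : Fact p.Prime := ⟨hp⟩
  obtain ⟨x, hx⟩ := exists_prime_orderOf_dvd_card' p hd
  exact (N_ne_zero_iff p).mpr ⟨x, hx⟩

/-- Divisibility for the fibres of the `p'`-part. -/
theorem card_dvd_part (p k d : ℕ) (hp : p.Prime) (hk : ¬ p ∣ k) (hd : d ∣ Nat.card G)
    (hdp : ∀ q : ℕ, q.Prime → q ∣ d → q = p) :
    d ∣ Nat.card {g : G // ∃ i, orderOf g = k * p ^ i} := by
  apply dvd_card_of_part (fun q => q ≠ p) (fun o => o = k) d hd (fun q hq h => by simpa using hdp q hq h)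
  intro u v hu hv huv
  have hcop : Nat.Coprime (orderOf u) (orderOf v) := coprime_of_pi hu hv
  rw [huv.orderOf_mul_eq_mul_orderOf_of_coprime hcop]
  have hvord : orderOf v ≠ 0 := (orderOf_pos v).ne'
  have hv2 : orderOf v = p ^ (orderOf v).primeFactorsList.length :=
    Nat.eq_prime_pow_of_unique_prime_dvd hvord (fun {q} hq hdq => by simpa using hv q hq hdq)
  set j := (orderOf v).primeFactorsList.length with hj
  have hpu : ¬ p ∣ orderOf u := fun h => hu p hp h rfl
  constructor
  · rintro ⟨i, hi⟩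
    rw [hv2] at hi
    have hc1 : Nat.Coprime (orderOf u) (p ^ i) := (Nat.Coprime.pow_right i ((Nat.Prime.coprime_iff_not_dvd hp).mpr hpu).symm)
    have hc2 : Nat.Coprime k (p ^ j) := (Nat.Coprime.pow_right j ((Nat.Prime.coprime_iff_not_dvd hp).mpr hk).symm)
    apply Nat.dvd_antisymm
    · exact hc1.dvd_of_dvd_mul_right ⟨p ^ j, hi.symm⟩
    · exact hc2.dvd_of_dvd_mul_right ⟨p ^ i, hi⟩
  · intro h
    exact ⟨j, by rw [h, hv2]⟩

lemma sum_N_le (T : Finset ℕ) : ∑ m ∈ T, N G m ≤ Nat.card G := by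
  classical
  cases nonempty_fintype G
  have h1 : ∑ m ∈ T, N G m = (T.biUnion (fun m => Finset.univ.filter (fun g : G => orderOf g = m))).card := by
    rw [Finset.card_biUnion]
    · apply Finset.sum_congr rfl
      intro m _
      show Nat.card _ = _
      rw [Nat.card_eq_fintype_card, Fintype.card_subtype]
    · intro a _ b _ hab
      show Disjoint _ _
      rw [Finset.disjoint_left]
      intro g hg hg'
      simp only [Finset.mem_filter, Finset.mem_univ, true_and] at hg hg'
      exact hab (hg.symm.trans hg')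
  rw [h1, Nat.card_eq_fintype_card]
  exact Finset.card_le_univ _

theorem card_part_eq_sum (p k : ℕ) (hp : p.Prime) (hk0 : 0 < k) :
    Nat.card {g : G // ∃ i, orderOf g = k * p ^ i} =
      ∑ i ∈ Finset.range (Nat.card G + 1), N G (k * p ^ i) := by
  classical
  cases nonempty_fintype G
  rw [Nat.card_eq_fintype_card, Fintype.card_subtype]
  have h1 : Finset.univ.filter (fun g : G => ∃ i, orderOf g = k * p ^ i) =
      (Finset.range (Nat.card G + 1)).biUnion
        (fun i => Finset.univ.filter (fun g : G => orderOf g = k * p ^ i)) := by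
    ext g
    simp only [Finset.mem_filter, Finset.mem_univ, true_and, Finset.mem_biUnion, Finset.mem_range]
    constructor
    · rintro ⟨i, hi⟩
      refine ⟨i, ?_, hi⟩
      have h2 : orderOf g ≤ Nat.card G := Nat.le_of_dvd Nat.card_pos (orderOf_dvd_natCard g)
      have h3 : i < p ^ i := Nat.lt_pow_self hp.one_lt
      have h4 : p ^ i ≤ k * p ^ i := Nat.le_mul_of_pos_left _ hk0
      omega
    · rintro ⟨i, _, hi⟩
      exact ⟨i, hi⟩
  rw [h1, Finset.card_biUnion]
  · apply Finset.sum_congr rfl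
    intro m _
    show _ = Nat.card _
    rw [Nat.card_eq_fintype_card, Fintype.card_subtype]
  · intro a _ b _ hab
    show Disjoint _ _
    rw [Finset.disjoint_left]
    intro g hg hg'
    simp only [Finset.mem_filter, Finset.mem_univ, true_and] at hg hg'
    apply hab
    have h2 := hg.symm.trans hg'
    have h3 := Nat.eq_of_mul_eq_mul_left hk0 h2
    exact Nat.pow_right_injective hp.two_le h3

/-- The main congruence. -/
theorem rel_mod (p u : ℕ) (hp : p.Prime) (hd : p ∣ Nat.card G) (hu0 : 0 < u) (hu : ¬ p ∣ u) :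
    p ∣ N G u + N G (u * p) := by
  have h1 := card_dvd_part (G := G) p u p hp hu hd (fun q hq h => (Nat.prime_dvd_prime_iff_eq hq hp).mp h)
  rw [card_part_eq_sum p u hp hu0] at h1
  have hK : 2 ≤ Nat.card G + 1 := by
    have : 0 < Nat.card G := Nat.card_pos
    omega
  obtain ⟨K', hK'⟩ : ∃ K', Nat.card G + 1 = K' + 2 := ⟨Nat.card G + 1 - 2, by omega⟩
  rw [hK', Finset.sum_range_succ', Finset.sum_range_succ'] at h1
  simp only [pow_zero, pow_one, mul_one, zero_add] at h1
  have h2 : p ∣ ∑ i ∈ Finset.range K', N G (u * p ^ (i + 1 + 1)) := by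
    apply Finset.dvd_sum
    intro i _
    refine Dvd.dvd.trans ?_ (totient_dvd_card_orderOf (G := G) (u * p ^ (i + 1 + 1)))
    have hc : Nat.Coprime u (p ^ (i + 1 + 1)) :=
      Nat.Coprime.pow_right _ ((Nat.Prime.coprime_iff_not_dvd hp).mpr hu).symm
    rw [Nat.totient_mul hc, Nat.totient_prime_pow_succ hp, pow_succ]
    exact Dvd.dvd.mul_left (Dvd.dvd.mul_right (dvd_mul_left _ _) _) _
  have h3 := (Nat.dvd_add_right h2).mp (by rwa [add_assoc] at h1)
  rwa [add_comm]

lemma exists_pow_mul_pow_of_primes (p q : ℕ) (n : ℕ) (hn : n ≠ 0)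
    (h : ∀ x : ℕ, x.Prime → x ∣ n → x = p ∨ x = q) : ∃ a b, n = p ^ a * q ^ b := by
  induction n using Nat.strong_induction_on with
  | _ n ih =>
    by_cases h1 : n = 1
    · exact ⟨0, 0, by simp [h1]⟩
    have hx := Nat.minFac_prime h1
    obtain ⟨m, hm⟩ := Nat.minFac_dvd n
    have hm0 : m ≠ 0 := by
      rintro rfl
      simp at hm
      exact hn hm
    have hlt : m < n := by
      rw [hm]
      have := hx.two_le
      have hpos : 0 < m := Nat.pos_of_ne_zero hm0
      nlinarith
    obtain ⟨a, b, hab⟩ := ih m hlt hm0 (fun x hx' hd => h x hx' (by rw [hm]; exact Dvd.dvd.mul_left hd _))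
    rcases h _ hx (Nat.minFac_dvd n) with h2 | h2
    · rw [h2] at hm
      exact ⟨a + 1, b, by rw [hm, hab]; ring⟩
    · rw [h2] at hm
      exact ⟨a, b + 1, by rw [hm, hab]; ring⟩

/-- Solvability if at most two primes divide the order. -/
lemma solvable_of_two_primes (p q : ℕ) (hp : p.Prime) (hq : q.Prime)
    (h : ∀ x : ℕ, x.Prime → x ∣ Nat.card G → x = p ∨ x = q) : Group.IsSolvable G :=
  Cfsg.Agent.Lib.BurnsidePQ.isSolvable_of_card_eq p q hp hq _ G rfl
    (exists_pow_mul_pow_of_primes p q _ Nat.card_pos.ne' h)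

/-- At most one odd prime. -/
lemma solvable_of_one_odd (h : ∀ x y : ℕ, x.Prime → y.Prime → x ≠ 2 → y ≠ 2 → x ∣ Nat.card G → y ∣ Nat.card G → x = y) :
    Group.IsSolvable G := by
  by_cases h1 : ∃ x : ℕ, x.Prime ∧ x ≠ 2 ∧ x ∣ Nat.card G
  · obtain ⟨x, hx, hx2, hxd⟩ := h1
    apply solvable_of_two_primes 2 x Nat.prime_two hx
    intro y hy hyd
    by_cases hy2 : y = 2
    · exact Or.inl hy2
    · exact Or.inr (h y x hy hx hy2 hx2 hyd hxd)
  · apply solvable_of_two_primes 2 2 Nat.prime_two Nat.prime_two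
    intro y hy hyd
    by_contra hcon
    exact h1 ⟨y, hy, fun h2 => hcon (Or.inl h2), hyd⟩

/-- Case A: the involutions are not unique. -/
theorem caseA_core (N : ℕ → ℕ) (p q c : ℕ) (hp : p.Prime) (hq : q.Prime) (hp2 : p ≠ 2) (hq2 : q ≠ 2)
    (hpq : p ≠ q) (h1 : N 1 = 1) (Rp : ∀ u, 0 < u → ¬ p ∣ u → p ∣ N u + N (u * p))
    (hc : ∀ m, 3 ≤ m → N m ≠ 0 → N m = c) (hNp : N p ≠ 0) (hNq : N q ≠ 0) : False := by
  have : Fact p.Prime := ⟨hp⟩
  have hp3 : 2 < p := by
    have := hp.two_le
    omega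
  have hq3 : 2 < q := by
    have := hq.two_le
    omega
  have : Fact (2 < p) := ⟨hp3⟩
  have hnp : (-1 : ZMod p) ≠ 1 := ZMod.neg_one_ne_one
  have hcp : (c : ZMod p) = -1 := by
    have := zmod_rel (Rp 1 one_pos (by simpa using hp.one_lt.ne'))
    rw [h1, one_mul, hc p (by omega) hNp] at this
    push_cast at this
    linear_combination this
  have hqp : ¬ p ∣ q := fun h => hpq ((Nat.prime_dvd_prime_iff_eq hp hq).mp h)
  have e2 := zmod_rel (Rp q hq.pos hqp)
  rw [hc q (by omega) hNq, hcp] at e2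
  have h3 : (N (q * p) : ZMod p) = 1 := by linear_combination e2
  have hne : N (q * p) ≠ 0 := by
    intro h
    rw [h] at h3
    simp at h3
  have hqp3 : 3 ≤ q * p := by nlinarith [hp.pos]
  rw [hc _ hqp3 hne, hcp] at h3
  exact hnp h3

/-- `N p = N q` for odd primes if there is some other order `w` prime to `p q`. -/
theorem same_value {a b p q w : ℕ} (hval : ∀ m, 3 ≤ m → N G m ≠ 0 → N G m = a ∨ N G m = b)
    (hp : p.Prime) (hq : q.Prime) (hp2 : p ≠ 2) (hq2 : q ≠ 2) (hpq : p ≠ q)
    (hpd : p ∣ Nat.card G) (hqd : q ∣ Nat.card G) (hw : 3 ≤ w) (hwp : ¬ p ∣ w) (hwq : ¬ q ∣ w)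
    (hNw : N G w ≠ 0) : N G p = N G q := by
  by_contra hne
  have hp3 : 3 ≤ p := by
    have := hp.two_le
    omega
  have hq3 : 3 ≤ q := by
    have := hq.two_le
    omega
  have hvp := hval p hp3 (N_prime_ne hp hpd)
  have hvq := hval q hq3 (N_prime_ne hq hqd)
  have key : ∀ m, 3 ≤ m → N G m ≠ 0 → N G m = N G p ∨ N G m = N G q := by
    intro m hm hm0
    have := hval m hm hm0
    omega
  have Rp : ∀ u, 0 < u → ¬ p ∣ u → p ∣ N G u + N G (u * p) := fun u h0 hu => rel_mod p u hp hpd h0 hu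
  have Rq : ∀ u, 0 < u → ¬ q ∣ u → q ∣ N G u + N G (u * q) := fun u h0 hu => rel_mod q u hq hqd h0 hu
  rcases key w hw hNw with h | h
  · exact b1_core (N G) p q w _ _ hp hq hp2 hq2 hpq hwp hwq hw N_one Rp Rq key rfl rfl h
  · exact b1_core (N G) q p w _ _ hq hp hq2 hp2 hpq.symm hwq hwp hw N_one Rq Rp
      (fun m hm hm0 => (key m hm hm0).symm) rfl rfl h

/-- Case B (i). -/
theorem caseB1 {a b : ℕ} (hval : ∀ m, 3 ≤ m → N G m ≠ 0 → N G m = a ∨ N G m = b)
    (h4 : 4 ∣ Nat.card G) (hN2 : N G 2 = 1) {p q : ℕ}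
    (hp : p.Prime) (hq : q.Prime) (hp2 : p ≠ 2) (hq2 : q ≠ 2)
    (hpd : p ∣ Nat.card G) (hqd : q ∣ Nat.card G) : p = q := by
  by_contra hpq
  have hp3 : 3 ≤ p := by
    have := hp.two_le
    omega
  have hq3 : 3 ≤ q := by
    have := hq.two_le
    omega
  have hpodd : ¬ 2 ∣ p := fun h => hp2 ((Nat.prime_dvd_prime_iff_eq Nat.prime_two hp).mp h).symm
  have hqodd : ¬ 2 ∣ q := fun h => hq2 ((Nat.prime_dvd_prime_iff_eq Nat.prime_two hq).mp h).symm
  have h4p : ∀ {x : ℕ}, x.Prime → x ≠ 2 → ¬ x ∣ 4 := by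
    intro x hx hx2 h
    have : (4 : ℕ) = 2 ^ 2 := by norm_num
    rw [this] at h
    exact hx2 ((Nat.prime_dvd_prime_iff_eq hx Nat.prime_two).mp (hx.dvd_of_dvd_pow h))
  have hdp4 : ∀ x : ℕ, x.Prime → x ∣ 4 → x = 2 := by
    intro x hx h
    by_contra hx2
    exact h4p hx hx2 h
  have hKK : 2 ≤ Nat.card G + 1 := by
    have : 0 < Nat.card G := Nat.card_pos
    omega
  have hkey : ∀ k, 0 < k → ¬ 2 ∣ k → 4 ∣ ∑ i ∈ Finset.range (Nat.card G + 1), N G (k * 2 ^ i) := by
    intro k hk0 hk
    have h1 := card_dvd_part (G := G) 2 k 4 Nat.prime_two hk h4 hdp4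
    rwa [card_part_eq_sum 2 k Nat.prime_two hk0] at h1
  have h4a : 4 ∣ ∑ i ∈ Finset.range (Nat.card G + 1), N G (2 ^ i) := by
    have := hkey 1 one_pos (by norm_num)
    simpa only [one_mul] using this
  have h4b : 4 ∣ ∑ i ∈ Finset.range (Nat.card G + 1), N G (p * q * 2 ^ i) :=
    hkey (p * q) (Nat.mul_pos hp.pos hq.pos) (fun h => (Nat.prime_two.dvd_mul.mp h).elim hpodd hqodd)
  -- `N 4 ≠ 0`
  have hN4 : N G 4 ≠ 0 := by
    intro h0
    obtain ⟨K', hK'⟩ : ∃ K', Nat.card G + 1 = K' + 2 := ⟨Nat.card G + 1 - 2, by omega⟩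
    rw [hK', Finset.sum_range_succ', Finset.sum_range_succ'] at h4a
    simp only [pow_zero, pow_one, zero_add] at h4a
    have : ∑ i ∈ Finset.range K', N G (2 ^ (i + 1 + 1)) = 0 := by
      apply Finset.sum_eq_zero
      intro i _
      apply N_dvd_zero (by positivity) _ h0
      exact ⟨2 ^ i, by ring⟩
    rw [this, N_one, hN2] at h4a
    omega
  have hsame : N G p = N G q := by
    refine same_value hval hp hq hp2 hq2 hpq hpd hqd (w := 4) (by norm_num) (h4p hp hp2) (h4p hq hq2) hN4
  have hvp := hval p hp3 (N_prime_ne hp hpd)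
  obtain ⟨β, hβ⟩ : ∃ β, ∀ m, 3 ≤ m → N G m ≠ 0 → N G m = N G p ∨ N G m = β := by
    rcases hvp with h | h
    · exact ⟨b, fun m hm hm0 => by rw [h]; exact hval m hm hm0⟩
    · exact ⟨a, fun m hm hm0 => by
        rw [h]
        exact (hval m hm hm0).symm⟩
  exact mod4_core (N G) p q _ β _ hp hq hp2 hq2 hpq N_one hN2 hKK
    (fun u h0 hu => rel_mod p u hp hpd h0 hu) (fun u h0 hu => rel_mod q u hq hqd h0 hu) hβ rfl hsame.symm
    (fun i h0 => N_dvd_zero (Nat.mul_pos (Nat.mul_pos hp.pos hq.pos) (by positivity)) (dvd_mul_left _ _) h0)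
    (fun m hm => N_even hm) h4a h4b

/-- Case B (ii): no three odd primes. -/
theorem caseB2 {a b : ℕ} (hval : ∀ m, 3 ≤ m → N G m ≠ 0 → N G m = a ∨ N G m = b)
    (h4 : ¬ 4 ∣ Nat.card G) {p q r : ℕ}
    (hp : p.Prime) (hq : q.Prime) (hr : r.Prime) (hp2 : p ≠ 2) (hq2 : q ≠ 2) (hr2 : r ≠ 2)
    (hpq : p ≠ q) (hpr : p ≠ r) (hqr : q ≠ r)
    (hpd : p ∣ Nat.card G) (hqd : q ∣ Nat.card G) (hrd : r ∣ Nat.card G) : False := by
  have h3 : ∀ {x : ℕ}, x.Prime → x ≠ 2 → 3 ≤ x := by
    intro x hx hx2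
    have := hx.two_le
    omega
  have hnd : ∀ {x y : ℕ}, x.Prime → y.Prime → x ≠ y → ¬ x ∣ y := fun hx hy hxy h =>
    hxy ((Nat.prime_dvd_prime_iff_eq hx hy).mp h)
  -- the values at odd primes are all equal
  have hA : ∀ x : ℕ, x.Prime → x ≠ 2 → x ∣ Nat.card G → N G x = N G p := by
    intro x hx hx2 hxd
    by_cases hxp : x = p
    · rw [hxp]
    by_cases hxq : x = q
    · subst hxq
      exact same_value hval hx hp hx2 hp2 hxp hxd hpd (h3 hr hr2) (hnd hx hr hqr) (hnd hp hr hpr) (N_prime_ne hr hrd)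
    · exact same_value hval hx hp hx2 hp2 hxp hxd hpd (h3 hq hq2) (hnd hx hq hxq) (hnd hp hq hpq) (N_prime_ne hq hqd)
  set A := N G p with hAdef
  have hA2 : 2 ≤ A := by
    have h1 : A ≠ 0 := N_prime_ne hp hpd
    obtain ⟨c, hc⟩ := N_even (G := G) (h3 hp hp2)
    have : A = c + c := hc
    omega
  -- the squares of odd primes give no elements
  have hS : ∀ x : ℕ, x.Prime → x ≠ 2 → x ∣ Nat.card G → ∀ i, N G (x ^ (i + 2)) = 0 := by
    intro x hx hx2 hxd i
    by_contra hne
    have : Fact x.Prime := ⟨hx⟩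
    have hx3 : 2 < x := h3 hx hx2
    have : Fact (2 < x) := ⟨hx3⟩
    have hnx : (-1 : ZMod x) ≠ 1 := ZMod.neg_one_ne_one
    have hAx : (A : ZMod x) = -1 := by
      have := zmod_rel (rel_mod (G := G) x 1 hx hxd one_pos (by simpa using hx.one_lt.ne'))
      rw [N_one, one_mul, hA x hx hx2 hxd] at this
      push_cast at this
      linear_combination this
    obtain ⟨y, hy, hy2, hyd, hyx⟩ : ∃ y : ℕ, y.Prime ∧ y ≠ 2 ∧ y ∣ Nat.card G ∧ y ≠ x := by
      by_cases hxp : x = p
      · exact ⟨q, hq, hq2, hqd, fun h => hpq (by rw [← hxp, h])⟩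
      · exact ⟨p, hp, hp2, hpd, fun h => hxp h.symm⟩
    have e := zmod_rel (rel_mod (G := G) x y hx hxd hy.pos (hnd hx hy hyx.symm))
    rw [hA y hy hy2 hyd, hAx] at e
    have h5 : (N G (y * x) : ZMod x) = 1 := by linear_combination e
    have hne5 : N G (y * x) ≠ 0 := by
      intro h0
      rw [h0] at h5
      simp at h5
    have h5A : N G (y * x) ≠ A := by
      intro h0
      rw [h0, hAx] at h5
      exact hnx h5
    have hvA := hval p (h3 hp hp2) (N_prime_ne hp hpd)
    have hv5 := hval _ (by nlinarith [hy.pos, h3 hx hx2]) hne5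
    have hvm := hval _ (by
      calc 3 ≤ x := h3 hx hx2
        _ = x ^ 1 := (pow_one x).symm
        _ ≤ x ^ (i + 2) := Nat.pow_le_pow_right hx.pos (by omega)) hne
    have hdvd : x ∣ N G (x ^ (i + 2)) := by
      refine Dvd.dvd.trans ?_ (totient_dvd_card_orderOf (G := G) (x ^ (i + 2)))
      rw [show i + 2 = (i + 1) + 1 from rfl, Nat.totient_prime_pow_succ hx, pow_succ]
      exact Dvd.dvd.mul_right (dvd_mul_left _ _) _
    have h0 : (N G (x ^ (i + 2)) : ZMod x) = 0 := (ZMod.natCast_eq_zero_iff _ _).mpr hdvd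
    have hcases : N G (x ^ (i + 2)) = A ∨ N G (x ^ (i + 2)) = N G (y * x) := by omega
    rcases hcases with h6 | h6
    · rw [h6, hAx] at h0
      simp at h0
    · rw [h6, h5] at h0
      simp at h0
  have hdiv : Nat.card G ∣ 2 * (1 + A) := by
    rw [Nat.dvd_iff_prime_pow_dvd_dvd]
    intro x k hx hk
    rcases Nat.eq_zero_or_pos k with rfl | hk0
    · simp
    by_cases hx2 : x = 2
    · subst hx2
      have hk1 : k = 1 := by
        by_contra hk2
        apply h4
        refine Dvd.dvd.trans ?_ hk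
        exact ⟨2 ^ (k - 2), by
          rw [show (4 : ℕ) = 2 ^ 2 by norm_num, ← pow_add]
          congr 1
          omega⟩
      rw [hk1, pow_one]
      exact dvd_mul_right _ _
    · have hxd : x ∣ Nat.card G := (dvd_pow_self x hk0.ne').trans hk
      apply Dvd.dvd.mul_left
      have h1 := card_dvd_part (G := G) x 1 (x ^ k) hx (by simpa using hx.one_lt.ne') hk
        (fun y hy h => (Nat.prime_dvd_prime_iff_eq hy hx).mp (hy.dvd_of_dvd_pow h))
      rw [card_part_eq_sum x 1 hx one_pos] at h1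
      have hK : 2 ≤ Nat.card G + 1 := by
        have : 0 < Nat.card G := Nat.card_pos
        omega
      obtain ⟨K', hK'⟩ : ∃ K', Nat.card G + 1 = K' + 2 := ⟨Nat.card G + 1 - 2, by omega⟩
      rw [hK', Finset.sum_range_succ', Finset.sum_range_succ'] at h1
      simp only [pow_zero, pow_one, mul_one, zero_add, one_mul] at h1
      have : ∑ i ∈ Finset.range K', N G (x ^ (i + 1 + 1)) = 0 :=
        Finset.sum_eq_zero (fun i _ => hS x hx hx2 hxd i)
      rw [this, N_one, hA x hx hx2 hxd, zero_add, add_comm] at h1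
      exact h1
  have hle1 : Nat.card G ≤ 2 * (1 + A) := Nat.le_of_dvd (by omega) hdiv
  have hsum := sum_N_le (G := G) ({1, p, q, r} : Finset ℕ)
  have hn1p : (1 : ℕ) ≠ p := hp.one_lt.ne
  have hn1q : (1 : ℕ) ≠ q := hq.one_lt.ne
  have hn1r : (1 : ℕ) ≠ r := hr.one_lt.ne
  rw [Finset.sum_insert (by simp [hn1p, hn1q, hn1r]), Finset.sum_insert (by simp [hpq, hpr]),
    Finset.sum_pair hqr, N_one, hA q hq hq2 hqd, hA r hr hr2 hrd] at hsum
  have hApp : N G p = A := rfl
  omega

/-- Unique involution: the group is an extension of `ℤ/2`. -/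
theorem solvable_of_unique_invol (hN2 : N G 2 = 1) (hd : 2 ∣ Nat.card G)
    (h4 : ¬ 4 ∣ Nat.card G) (p q : ℕ) (hp : p.Prime) (hq : q.Prime)
    (h : ∀ x : ℕ, x.Prime → x ≠ 2 → x ∣ Nat.card G → x = p ∨ x = q) : Group.IsSolvable G := by
  have : Fact (Nat.Prime 2) := ⟨Nat.prime_two⟩
  obtain ⟨t, ht⟩ := exists_prime_orderOf_dvd_card' 2 hd
  have huniq : ∀ s : G, orderOf s = 2 → s = t := by
    intro s hs
    have h1 : Nat.card {g : G // orderOf g = 2} = 1 := hN2
    have := Nat.card_eq_one_iff_unique.mp h1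
    have h2 := this.1.elim ⟨s, hs⟩ ⟨t, ht⟩
    exact congrArg Subtype.val h2
  have hcen : ∀ g : G, g * t * g⁻¹ = t := fun g => huniq _ (by rw [orderOf_conj']; exact ht)
  let Z := Subgroup.zpowers t
  have hZn : Z.Normal := by
    constructor
    intro n hn g
    obtain ⟨k, rfl⟩ := Subgroup.mem_zpowers_iff.mp hn
    refine Subgroup.mem_zpowers_iff.mpr ⟨k, ?_⟩
    have : g * t ^ k * g⁻¹ = (g * t * g⁻¹) ^ k := (conj_zpow).symm
    rw [this, hcen]
  have hZc : Nat.card Z = 2 := by
    rw [Nat.card_zpowers, ht]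
  have hcq : Nat.card G = 2 * Nat.card (G ⧸ Z) := by
    rw [← hZc, mul_comm]
    exact Subgroup.card_eq_card_quotient_mul_card_subgroup Z
  haveI : IsMulCommutative Z := by
    infer_instance
  haveI : Group.IsSolvable Z := by
    infer_instance
  haveI : Group.IsSolvable (G ⧸ Z) := by
    apply solvable_of_two_primes p q hp hq
    intro x hx hxd
    apply h x hx
    · rintro rfl
      apply h4
      rw [hcq]
      obtain ⟨c, hc⟩ := hxd
      exact ⟨c, by rw [hc]; ring⟩
    · rw [hcq]
      exact Dvd.dvd.mul_left hxd _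
  apply solvable_of_ker_le_range Z.subtype (QuotientGroup.mk' Z)
  rw [QuotientGroup.ker_mk', Subgroup.range_subtype]

end count

/-- A finite group in which the numbers of elements of each order that occurs (the numbers #{g : o(g) = m}, m ranging over the element orders) take exactly three different values is solvable. -/
theorem result {G : Type*} [Group G] [Finite G] (h : (((fun m : ℕ => Nat.card {g : G // orderOf g = m}) '' Set.range (orderOf : G → ℕ))).ncard = 3) : Group.IsSolvable G := by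
  classical
  obtain ⟨x, y, z, -, -, -, hV⟩ := Set.ncard_eq_three.mp h
  have hmem : ∀ m, N G m ≠ 0 → N G m ∈ ({x, y, z} : Set ℕ) := by
    intro m hm
    rw [← hV]
    obtain ⟨g, hg⟩ := (N_ne_zero_iff m).mp hm
    exact ⟨m, ⟨g, hg⟩, rfl⟩
  have h1mem : (1 : ℕ) ∈ ({x, y, z} : Set ℕ) := by
    have := hmem 1 (by rw [N_one]; norm_num)
    rwa [N_one] at this
  obtain ⟨a, b, hval0⟩ : ∃ a b, ∀ m, N G m ≠ 0 → N G m = 1 ∨ N G m = a ∨ N G m = b := by
    simp only [Set.mem_insert_iff, Set.mem_singleton_iff] at h1mem hmem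
    rcases h1mem with h1 | h1 | h1
    · exact ⟨y, z, fun m hm => by
        have := hmem m hm
        omega⟩
    · exact ⟨x, z, fun m hm => by
        have := hmem m hm
        omega⟩
    · exact ⟨x, y, fun m hm => by
        have := hmem m hm
        omega⟩
  have hval : ∀ m, 3 ≤ m → N G m ≠ 0 → N G m = a ∨ N G m = b := by
    intro m hm hm0
    obtain ⟨c, hc⟩ := N_even (G := G) hm
    have hc' : N G m = c + c := hc
    have := hval0 m hm0
    omega
  by_cases h2 : 2 ∣ Nat.card G
  · by_cases hN2 : N G 2 = 1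
    · by_cases h4 : 4 ∣ Nat.card G
      · exact solvable_of_one_odd (fun p q hp hq hp2 hq2 hpd hqd =>
          caseB1 hval h4 hN2 hp hq hp2 hq2 hpd hqd)
      · -- at most two odd primes
        by_cases hex : ∃ p : ℕ, p.Prime ∧ p ≠ 2 ∧ p ∣ Nat.card G
        · obtain ⟨p, hp, hp2, hpd⟩ := hex
          by_cases hex2 : ∃ q : ℕ, q.Prime ∧ q ≠ 2 ∧ q ≠ p ∧ q ∣ Nat.card G
          · obtain ⟨q, hq, hq2, hqp, hqd⟩ := hex2
            apply solvable_of_unique_invol hN2 h2 h4 p q hp hq
            intro r hr hr2 hrd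
            by_contra hcon
            push Not at hcon
            exact caseB2 hval h4 hp hq hr hp2 hq2 hr2 hqp.symm hcon.1.symm hcon.2.symm hpd hqd hrd
          · apply solvable_of_unique_invol hN2 h2 h4 p p hp hp
            intro r hr hr2 hrd
            by_contra hcon
            push Not at hcon
            exact hex2 ⟨r, hr, hr2, hcon.1, hrd⟩
        · apply solvable_of_unique_invol hN2 h2 h4 2 2 Nat.prime_two Nat.prime_two
          intro r hr hr2 hrd
          exact absurd ⟨r, hr, hr2, hrd⟩ hex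
    · -- Case A
      have hN2odd : ¬ Even (N G 2) := by
        intro he
        have h3 := rel_mod (G := G) 2 1 Nat.prime_two h2 one_pos (by norm_num)
        rw [N_one, one_mul] at h3
        obtain ⟨c, hc⟩ := he
        omega
      have hN2v : N G 2 = a ∨ N G 2 = b := by
        have := hval0 2 (N_prime_ne Nat.prime_two h2)
        omega
      obtain ⟨c, hc⟩ : ∃ c, ∀ m, 3 ≤ m → N G m ≠ 0 → N G m = c := by
        rcases hN2v with h3 | h3
        · refine ⟨b, fun m hm hm0 => ?_⟩
          rcases hval m hm hm0 with h4 | h4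
          · exfalso
            apply hN2odd
            rw [h3, ← h4]
            exact N_even hm
          · exact h4
        · refine ⟨a, fun m hm hm0 => ?_⟩
          rcases hval m hm hm0 with h4 | h4
          · exact h4
          · exfalso
            apply hN2odd
            rw [h3, ← h4]
            exact N_even hm
      apply solvable_of_one_odd
      intro p q hp hq hp2 hq2 hpd hqd
      by_contra hpq
      exact caseA_core (N G) p q c hp hq hp2 hq2 hpq N_one
        (fun u h0 hu => rel_mod p u hp hpd h0 hu) hc (N_prime_ne hp hpd) (N_prime_ne hq hqd)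
  · -- odd order
    by_cases hex : ∃ p : ℕ, p.Prime ∧ p ∣ Nat.card G
    · obtain ⟨p, hp, hpd⟩ := hex
      by_cases hex2 : ∃ q : ℕ, q.Prime ∧ q ≠ p ∧ q ∣ Nat.card G
      · obtain ⟨q, hq, hqp, hqd⟩ := hex2
        apply solvable_of_two_primes p q hp hq
        intro r hr hrd
        by_contra hcon
        push Not at hcon
        have h4 : ¬ 4 ∣ Nat.card G := fun h => h2 (Dvd.dvd.trans (by norm_num) h)
        have hno2 : ∀ {x : ℕ}, x ∣ Nat.card G → x.Prime → x ≠ 2 := by
          rintro x hx - rfl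
          exact h2 hx
        exact caseB2 hval h4 hp hq hr (hno2 hpd hp) (hno2 hqd hq) (hno2 hrd hr) hqp.symm hcon.1.symm hcon.2.symm hpd hqd hrd
      · apply solvable_of_two_primes p p hp hp
        intro r hr hrd
        by_contra hcon
        push Not at hcon
        exact hex2 ⟨r, hr, hcon.1, hrd⟩
    · apply solvable_of_two_primes 2 2 Nat.prime_two Nat.prime_two
      intro r hr hrd
      exact absurd ⟨r, hr, hrd⟩ hex

end Cfsg.Agent.S3996
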