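import Mathlib
import Cfsg.Statements.S3997
import Cfsg.Agent.Lib.OrderType72

set_option autoImplicit false
open Cfsg

namespace Cfsg.Agent.S3997

open Cfsg.Agent.Lib.OrderType72

/-- Let G and H be finite groups with the same order type: for every m they have the same number of elements of order m. If G is nilpotent then so is H. -/
theorem result {G H : Type*} [Group G] [Finite G] [Group H] [Finite H] (hT : (∀ m : ℕ, Nat.card {g : G // orderOf g = m} = Nat.card {h : H // orderOf h = m})) (hG : Group.IsNilpotent G) :
    Group.IsNilpotent H := by
  apply (Group.isNilpotent_of_finite_tfae (G := H)).out 3 0 |>.mp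
  intro p hp P
  obtain Q : Sylow p G := Inhabited.default
  have hQnormal : (Q : Subgroup G).Normal := inferInstance
  have hcardeq : Nat.card P = Nat.card Q := by
    rw [Sylow.card_eq_multiplicity, Sylow.card_eq_multiplicity, card_eq_of_same_type hT]
  have hcop : Nat.Coprime (Nat.card Q) (Q : Subgroup G).index := by
    rw [Sylow.card_eq_multiplicity]
    apply Nat.Coprime.pow_left
    rw [Nat.Prime.coprime_iff_not_dvd hp.out]
    exact Q.not_dvd_index
  have hcount := card_pow_eq_one_of_normal_hall (Q : Subgroup G) hcop
  apply normal_of_card_eq
  rw [hcardeq, ← card_pow_eq_one_eq hT]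
  exact hcount

end Cfsg.Agent.S3997
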