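import Mathlib
import Cfsg.Statements.S3998
import Cfsg.Agent.Lib.OrderType72

set_option autoImplicit false
open Cfsg

namespace Cfsg.Agent.S3998

open Cfsg.Agent.Lib.OrderType72

/-- Let G and H be finite groups with the same order type (for every m the same number of elements of order m). If G is supersolvable then H is solvable. -/
theorem result {G H : Type*} [Group G] [Finite G] [Group H] [Finite H] (hT : (∀ m : ℕ, Nat.card {g : G // orderOf g = m} = Nat.card {h : H // orderOf h = m})) (hG : Cfsg.IsSupersolvable G) :
    Group.IsSolvable H := by
  obtain ⟨l, hl, hprod⟩ := exists_chain_of_supersolvable G hG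
  refine solvable_of_chain l 1 (⊥ : Subgroup H) ?_ (by simp) (chain_transfer hT l 1 hl) ?_
  · exact inferInstance
  · rw [one_mul, hprod, card_eq_of_same_type hT]

end Cfsg.Agent.S3998
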