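import Mathlib
import Cfsg.Statements.S4002
import Cfsg.Agent.Lib.CPGroups
import Cfsg.Agent.Lib.HallExist

set_option autoImplicit false
open Cfsg

namespace Cfsg.Agent.S4002

open Cfsg.Agent.Lib.CPGroups Cfsg.Agent.Lib.HallExist

lemma exists_three_primes (n : ℕ) (hn : 7 ≤ n) :
    ∃ p q r : ℕ, p.Prime ∧ q.Prime ∧ r.Prime ∧ p ≠ q ∧ p ≠ r ∧ q ≠ r ∧ p ≤ n ∧ q ≤ n ∧ r ≤ n ∧
      n < p * q ∧ n < p * r ∧ n < q * r := by
  by_cases h1 : n ≤ 10
  · exact ⟨3, 5, 7, by norm_num, by norm_num, by norm_num, by norm_num, by norm_num, by norm_num,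
      by omega, by omega, by omega, by omega, by omega, by omega⟩
  by_cases h2 : n ≤ 34
  · exact ⟨5, 7, 11, by norm_num, by norm_num, by norm_num, by norm_num, by norm_num, by norm_num,
      by omega, by omega, by omega, by omega, by omega, by omega⟩
  obtain ⟨r, hr, hr1, hr2⟩ := Nat.exists_prime_lt_and_le_two_mul (n / 8) (by omega)
  obtain ⟨q, hq, hq1, hq2⟩ := Nat.exists_prime_lt_and_le_two_mul (n / 4) (by omega)
  obtain ⟨p, hp, hp1, hp2⟩ := Nat.exists_prime_lt_and_le_two_mul (n / 2) (by omega)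
  have hrq : r < q := by omega
  have hqp : q < p := by omega
  have hprod : n < r * q := by
    have h3 : n < 8 * r := by omega
    have h4 : n < 4 * q := by omega
    have h5 : 35 ≤ n := by omega
    nlinarith
  refine ⟨p, q, r, hp, hq, hr, by omega, by omega, by omega, by omega, by omega, by omega, ?_, ?_, ?_⟩
  · nlinarith
  · nlinarith
  · nlinarith

/-- If the set of element orders of a finite group G is {1, 2, …, n} with n ≥ 7, then G is not solvable. -/
theorem result {G : Type*} [Group G] [Finite G] (n : ℕ) (hn : 7 ≤ n) (h : Set.range (orderOf : G → ℕ) = {k : ℕ | 1 ≤ k ∧ k ≤ n}) : ¬ Group.IsSolvable G := by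
  intro hs
  obtain ⟨p, q, r, hp, hq, hr, hpq, hpr, hqr, hpn, hqn, hrn, h1, h2, h3⟩ := exists_three_primes n hn
  let π : ℕ → Prop := fun x => x = p ∨ x = q ∨ x = r
  obtain ⟨H, hH1, hH2⟩ := exists_hall π G
  have hord : ∀ x : G, orderOf x ≤ n := by
    intro x
    have : orderOf x ∈ Set.range (orderOf : G → ℕ) := ⟨x, rfl⟩
    rw [h] at this
    exact this.2
  have hmem : ∀ k : ℕ, 1 ≤ k → k ≤ n → k ∣ Nat.card G := by
    intro k hk1 hk2
    have : k ∈ Set.range (orderOf : G → ℕ) := by rw [h]; exact ⟨hk1, hk2⟩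
    obtain ⟨x, rfl⟩ := this
    exact orderOf_dvd_natCard x
  have hdvdH : ∀ s : ℕ, s.Prime → π s → s ≤ n → s ∣ Nat.card H := by
    intro s hs hπ hsn
    have h4 := hmem s hs.one_lt.le hsn
    rw [← Subgroup.card_mul_index H] at h4
    rcases (Nat.Prime.dvd_mul hs).mp h4 with h5 | h5
    · exact h5
    · exact absurd hπ (hH2 s hs h5)
  have hcp : CP H := by
    intro x hx
    have hx1 : orderOf x ≠ 1 := fun h' => hx (orderOf_eq_one_iff.mp h')
    obtain ⟨u, hu, hux⟩ := Nat.exists_prime_and_dvd hx1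
    have hle : orderOf x ≤ n := by
      rw [← Subgroup.orderOf_coe]
      exact hord _
    have hπall : ∀ d : ℕ, d.Prime → d ∣ orderOf x → π d := fun d hd hdx =>
      hH1 d hd (hdx.trans (orderOf_dvd_natCard x))
    have huniq : ∀ {d : ℕ}, d.Prime → d ∣ orderOf x → d = u := by
      intro d hd hdx
      by_contra hne
      have hc : Nat.Coprime d u := (Nat.coprime_primes hd hu).mpr hne
      have hmul : d * u ∣ orderOf x := hc.mul_dvd_of_dvd_of_dvd hdx hux
      have hle2 : d * u ≤ n := (Nat.le_of_dvd (orderOf_pos x) hmul).trans hle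
      have hdπ := hπall d hd hdx
      have huπ := hπall u hu hux
      rcases hdπ with rfl | rfl | rfl <;> rcases huπ with rfl | rfl | rfl <;>
        first
          | exact hne rfl
          | nlinarith
    have hpow := Nat.eq_prime_pow_of_unique_prime_dvd (orderOf_pos x).ne' huniq
    rw [hpow]
    have hlen : (orderOf x).primeFactorsList.length ≠ 0 := by
      intro h0
      rw [h0, pow_zero] at hpow
      exact hx1 hpow
    exact hu.isPrimePow.pow hlen
  have hHs : Group.IsSolvable H := inferInstance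
  have hle2 := card_primeFactors_le_two H hcp
  have hsub : ({p, q, r} : Finset ℕ) ⊆ (Nat.card H).primeFactors := by
    intro s hs'
    simp only [Finset.mem_insert, Finset.mem_singleton] at hs'
    rcases hs' with rfl | rfl | rfl
    · exact Nat.mem_primeFactors.mpr ⟨hp, hdvdH _ hp (Or.inl rfl) hpn, Nat.card_pos.ne'⟩
    · exact Nat.mem_primeFactors.mpr ⟨hq, hdvdH _ hq (Or.inr (Or.inl rfl)) hqn, Nat.card_pos.ne'⟩
    · exact Nat.mem_primeFactors.mpr ⟨hr, hdvdH _ hr (Or.inr (Or.inr rfl)) hrn, Nat.card_pos.ne'⟩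
  have hcard3 : ({p, q, r} : Finset ℕ).card = 3 := by
    rw [Finset.card_insert_of_notMem, Finset.card_insert_of_notMem, Finset.card_singleton]
    · simpa using hqr
    · simp [hpq, hpr]
  have := Finset.card_le_card hsub
  omega

end Cfsg.Agent.S4002
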