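import Mathlib
import Cfsg.Statements.S4003
import Cfsg.Agent.S0126
import Cfsg.Agent.Lib.OddPGroup
import Cfsg.Agent.Lib.FrobCount

set_option autoImplicit false
set_option linter.all false
open Cfsg

namespace Cfsg.Agent.S4003

section PGroup

variable {H : Type*} [Group H] [Finite H]

/-- Elements of a normal `E_{p^2}` of a `p`-group have commutators in a central subgroup. -/
theorem pow_mul_E {p : ℕ} [hp : Fact p.Prime] (hodd : p ≠ 2) (hH : IsPGroup p H) (E : Subgroup H)
    (hEn : E.Normal) (hEa : Cfsg.IsElementaryAbelian p E) (hEc : Nat.card E = p ^ 2) (x e : H)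
    (he : e ∈ E) : (x * e) ^ p = x ^ p := by
  classical
  have hpp : p.Prime := hp.out
  have hEne : E ≠ ⊥ := by
    intro h
    rw [h, Subgroup.card_bot] at hEc
    have : 1 < p ^ 2 := Nat.one_lt_pow (by norm_num) hpp.one_lt
    omega
  obtain ⟨z, hzE, hz1, hzc⟩ := Cfsg.Agent.Lib.OddPGroup.exists_central_of_normal hH E hEn hEne
  have hexp : ∀ a ∈ E, a ^ p = 1 := hEa.2
  let Z : Subgroup H := Subgroup.zpowers z
  have hZcenter : Z ≤ Subgroup.center H := by
    rw [Subgroup.zpowers_le]
    exact hzc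
  haveI hZn : Z.Normal := by
    refine ⟨fun n hn g => ?_⟩
    have := Subgroup.mem_center_iff.mp (hZcenter hn) g
    rw [this]
    simpa using hn
  have hZE : Z ≤ E := by
    rw [Subgroup.zpowers_le]
    exact hzE
  have hzord : orderOf z = p := orderOf_eq_prime (hexp z hzE) hz1
  have hZcard : Nat.card Z = p := by
    rw [Nat.card_zpowers, hzord]
  -- the quotient
  let Pb := H ⧸ Z
  let π : H →* Pb := QuotientGroup.mk' Z
  have hπ : Function.Surjective π := QuotientGroup.mk'_surjective Z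
  have hPb : IsPGroup p Pb := hH.of_surjective π hπ
  let Eb : Subgroup Pb := E.map π
  have hEbn : Eb.Normal := hEn.map π hπ
  have hEbne : Eb ≠ ⊥ := by
    intro h
    have hle : E ≤ Z := by
      intro a ha
      have h1 : π a ∈ Eb := ⟨a, ha, rfl⟩
      rw [h, Subgroup.mem_bot] at h1
      exact (QuotientGroup.eq_one_iff a).mp h1
    have h2 := Subgroup.card_le_of_le hle
    rw [hEc, hZcard] at h2
    have : p < p ^ 2 := by
      have := hpp.one_lt
      nlinarith
    omega
  obtain ⟨w, hwE, hw1, hwc⟩ := Cfsg.Agent.Lib.OddPGroup.exists_central_of_normal hPb Eb hEbn hEbne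
  obtain ⟨f, hfE, rfl⟩ := hwE
  -- the subgroup of elements of `E` with central image
  let K : Subgroup H := E ⊓ (Subgroup.center Pb).comap π
  have hZK : Z ≤ K := by
    intro a ha
    refine ⟨hZE ha, ?_⟩
    have : π a = 1 := (QuotientGroup.eq_one_iff a).mpr ha
    change π a ∈ Subgroup.center Pb
    rw [this]
    exact Subgroup.one_mem _
  have hfK : f ∈ K := ⟨hfE, hwc⟩
  have hfZ : f ∉ Z := fun h => hw1 ((QuotientGroup.eq_one_iff f).mpr h)
  have hKE : K = E := by
    have hKle : K ≤ E := inf_le_left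
    have hdvd : Nat.card K ∣ p ^ 2 := by
      rw [← hEc]
      exact Subgroup.card_dvd_of_le hKle
    obtain ⟨i, hi, hKc⟩ := (Nat.dvd_prime_pow hpp).mp hdvd
    have hne : ¬ Nat.card K ≤ Nat.card Z := fun h =>
      hfZ (by rw [Subgroup.eq_of_le_of_card_ge hZK h]; exact hfK)
    rw [hZcard] at hne
    have hi2 : i = 2 := by
      interval_cases i
      · rw [hKc, pow_zero] at hne
        have := hpp.pos
        omega
      · rw [hKc, pow_one] at hne
        omega
      · rfl
    apply Subgroup.eq_of_le_of_card_ge hKle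
    rw [hEc, hKc, hi2]
  -- the commutator
  have heK : e ∈ K := by rw [hKE]; exact he
  have hcen : π e ∈ Subgroup.center Pb := heK.2
  set c : H := e⁻¹ * x⁻¹ * e * x with hc
  have hcZ : c ∈ Z := by
    rw [← QuotientGroup.eq_one_iff]
    change π c = 1
    rw [hc]
    simp only [map_mul, map_inv]
    have := Subgroup.mem_center_iff.mp hcen (π x)
    have h2 : (π x)⁻¹ * π e * π x = π e := by
      rw [mul_assoc, ← this]
      group
    calc (π e)⁻¹ * (π x)⁻¹ * π e * π x = (π e)⁻¹ * ((π x)⁻¹ * π e * π x) := by group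
      _ = 1 := by rw [h2]; group
  have hcc : ∀ g : H, g * c = c * g := fun g => Subgroup.mem_center_iff.mp (hZcenter hcZ) g
  have hce : e * x = x * e * c := by
    rw [hc]
    group
  have h1 := Cfsg.Agent.Lib.OddPGroup.mul_pow_central hce hcc p
  rw [h1, hexp e he, mul_one]
  have hodd' : Odd p := hpp.odd_of_ne_two hodd
  obtain ⟨k, hk⟩ := hodd'
  have h5 : p.choose 2 = p * k := by
    rw [Nat.choose_two_right, hk]
    have : (2 * k + 1) * (2 * k + 1 - 1) = 2 * ((2 * k + 1) * k) := by
      simp only [Nat.add_sub_cancel]; ring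
    rw [this]
    simp
  have hcp : c ^ p = 1 := hexp c (hZE hcZ)
  rw [h5, pow_mul, hcp, one_pow, mul_one]

/-- A right `E`-invariant set has size divisible by `|E|`. -/
theorem dvd_card_of_mul_mem (E : Subgroup H) (S : Finset H) (hS : ∀ x ∈ S, ∀ e ∈ E, x * e ∈ S) :
    Nat.card E ∣ S.card := by
  classical
  haveI := Fintype.ofFinite (H ⧸ E)
  rw [Finset.card_eq_sum_card_fiberwise (f := fun x : H => (x : H ⧸ E)) (t := S.image (fun x : H => (x : H ⧸ E)))
    (fun x hx => Finset.mem_image_of_mem _ hx)]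
  apply Finset.dvd_sum
  intro c hc
  obtain ⟨x₀, hx₀, rfl⟩ := Finset.mem_image.mp hc
  apply dvd_of_eq
  let T := S.filter (fun x : H => (x : H ⧸ E) = (x₀ : H ⧸ E))
  have h1 : Nat.card E = Nat.card T := by
    refine Nat.card_congr (Equiv.ofBijective (fun e : E => (⟨x₀ * e, ?_⟩ : T)) ⟨?_, ?_⟩)
    · refine Finset.mem_filter.mpr ⟨hS x₀ hx₀ e e.2, ?_⟩
      rw [QuotientGroup.eq]
      simp
    · intro a b hab
      have := congrArg Subtype.val hab
      exact Subtype.ext (mul_left_cancel this)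
    · rintro ⟨y, hy⟩
      have hy2 := (Finset.mem_filter.mp hy).2
      rw [eq_comm, QuotientGroup.eq] at hy2
      refine ⟨⟨x₀⁻¹ * y, hy2⟩, ?_⟩
      apply Subtype.ext
      simp
  rw [h1, Nat.card_eq_fintype_card, Fintype.card_coe]

open scoped Classical in
/-- The generators of a cyclic subgroup of order `d`. -/
theorem card_gens [Fintype H] [DecidableEq H] (y₀ : H) :
    (Finset.univ.filter (fun y : H => orderOf y = orderOf y₀ ∧ Subgroup.zpowers y = Subgroup.zpowers y₀)).card =
      Nat.totient (orderOf y₀) := by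
  classical
  have hcardb : Fintype.card (Subgroup.zpowers y₀) = orderOf y₀ := by
    rw [← Nat.card_eq_fintype_card, Nat.card_zpowers]
  have hcyc := IsCyclic.card_orderOf_eq_totient (α := Subgroup.zpowers y₀) (d := orderOf y₀) (by rw [hcardb])
  rw [← hcyc]
  symm
  apply Finset.card_bij (fun (x : Subgroup.zpowers y₀) _ => (x : H))
  · intro x hx
    have hx' : orderOf x = orderOf y₀ := (Finset.mem_filter.mp hx).2
    have hx'' : orderOf (x : H) = orderOf y₀ := by rw [Subgroup.orderOf_coe]; exact hx'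
    refine Finset.mem_filter.mpr ⟨Finset.mem_univ _, hx'', ?_⟩
    apply Subgroup.eq_of_le_of_card_ge
    · exact (Subgroup.zpowers_le).mpr x.2
    · rw [Nat.card_zpowers, Nat.card_zpowers, hx'']
  · intro x _ y _ h
    exact Subtype.ext h
  · intro g hg
    have hg1 := (Finset.mem_filter.mp hg).2
    have hg3 : g ∈ Subgroup.zpowers y₀ := by
      rw [← hg1.2]; exact Subgroup.mem_zpowers g
    refine ⟨⟨g, hg3⟩, ?_, rfl⟩
    refine Finset.mem_filter.mpr ⟨Finset.mem_univ _, ?_⟩
    rw [← Subgroup.orderOf_coe]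
    exact hg1.1

/-- Summing a function of the cyclic subgroup over the elements of order `d`. -/
theorem totient_mul_dvd_sum [Fintype H] [DecidableEq H] (f : H → ℕ) (d D : ℕ)
    (hf : ∀ y y' : H, orderOf y = d → orderOf y' = d → Subgroup.zpowers y = Subgroup.zpowers y' → f y = f y')
    (hD : ∀ y : H, orderOf y = d → D ∣ f y) :
    Nat.totient d * D ∣ ∑ y ∈ Finset.univ.filter (fun y : H => orderOf y = d), f y := by
  classical
  set s := Finset.univ.filter (fun y : H => orderOf y = d) with hs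
  rw [← Finset.sum_fiberwise_of_maps_to (s := s) (t := s.image (fun y => Subgroup.zpowers y))
    (g := fun y => Subgroup.zpowers y) (fun x hx => Finset.mem_image_of_mem _ hx)]
  apply Finset.dvd_sum
  intro b hb
  obtain ⟨y₀, hy₀, rfl⟩ := Finset.mem_image.mp hb
  have hy₀d : orderOf y₀ = d := (Finset.mem_filter.mp hy₀).2
  have hsum : ∑ y ∈ s with Subgroup.zpowers y = Subgroup.zpowers y₀, f y =
      ∑ y ∈ s with Subgroup.zpowers y = Subgroup.zpowers y₀, f y₀ := by
    apply Finset.sum_congr rfl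
    intro y hy
    have h1 := Finset.mem_filter.mp hy
    exact hf y y₀ (Finset.mem_filter.mp h1.1).2 hy₀d h1.2
  rw [hsum, Finset.sum_const, smul_eq_mul]
  have hcard : (s.filter (fun y => Subgroup.zpowers y = Subgroup.zpowers y₀)).card = Nat.totient d := by
    rw [← hy₀d, ← card_gens y₀, hy₀d]
    congr 1
    ext y
    simp [hs, Finset.mem_filter]
  rw [hcard]
  exact Nat.mul_dvd_mul_left _ (hD y₀ hy₀d)

theorem card_Y_dvd {p : ℕ} [hp : Fact p.Prime] (hodd : p ≠ 2) (hH : IsPGroup p H) (hnc : ¬ IsCyclic H)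
    (s : ℕ) (hs : 2 ≤ s) : p ^ s ∣ Nat.card {x : H // orderOf x = p ^ s} := by
  classical
  haveI := Fintype.ofFinite H
  have hpp : p.Prime := hp.out
  obtain ⟨E, hEn, hEa, hEc⟩ := Cfsg.Agent.S0126.result hodd hH hnc
  rw [Nat.card_eq_fintype_card, Fintype.card_subtype]
  obtain ⟨r, rfl⟩ : ∃ r, s = r + 2 := ⟨s - 2, by omega⟩
  let F : H → Finset H := fun y => Finset.univ.filter (fun x : H => x ^ p = y)
  have hFdvd : ∀ y, p ^ 2 ∣ (F y).card := by
    intro y
    rw [← hEc]
    apply dvd_card_of_mul_mem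
    intro x hx e he
    have h1 : x ^ p = y := (Finset.mem_filter.mp hx).2
    refine Finset.mem_filter.mpr ⟨Finset.mem_univ _, ?_⟩
    rw [pow_mul_E hodd hH E hEn hEa hEc x e he, h1]
  -- order of a `p`-th root
  have hroot : ∀ x : H, orderOf (x ^ p) = p ^ (r + 1) → orderOf x = p ^ (r + 2) := by
    intro x hx
    obtain ⟨k, hk⟩ := (IsPGroup.iff_orderOf.mp hH x)
    rw [hk]
    have hk0 : k ≠ 0 := by
      rintro rfl
      have hx1 : x = 1 := orderOf_eq_one_iff.mp (by rw [hk, pow_zero])
      rw [hx1, one_pow, orderOf_one] at hx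
      have := Nat.one_lt_pow (n := r + 1) (by omega) hpp.one_lt
      omega
    obtain ⟨j, rfl⟩ : ∃ j, k = j + 1 := ⟨k - 1, by omega⟩
    have h2 : orderOf (x ^ p) = p ^ j := by
      have := orderOf_pow_orderOf_div (x := x) (n := p ^ j) (by rw [hk]; exact pow_ne_zero _ hpp.ne_zero)
        (by rw [hk]; exact pow_dvd_pow p (by omega))
      rw [hk] at this
      have h3 : p ^ (j + 1) / p ^ j = p := by
        rw [pow_succ]
        exact Nat.mul_div_cancel_left _ (pow_pos hpp.pos _)
      rwa [h3] at this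
    rw [h2] at hx
    have := Nat.pow_right_injective hpp.two_le hx
    rw [this]
  have hroot' : ∀ x : H, orderOf x = p ^ (r + 2) → orderOf (x ^ p) = p ^ (r + 1) := by
    intro x hx
    have := orderOf_pow_orderOf_div (x := x) (n := p ^ (r + 1)) (by rw [hx]; exact pow_ne_zero _ hpp.ne_zero)
      (by rw [hx]; exact pow_dvd_pow p (by omega))
    rw [hx] at this
    have h3 : p ^ (r + 2) / p ^ (r + 1) = p := by
      rw [pow_succ p (r + 1)]
      exact Nat.mul_div_cancel_left _ (pow_pos hpp.pos _)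
    rwa [h3] at this
  -- fibres
  have hfib : (Finset.univ.filter (fun x : H => orderOf x = p ^ (r + 2))).card =
      ∑ y ∈ Finset.univ.filter (fun y : H => orderOf y = p ^ (r + 1)), (F y).card := by
    rw [Finset.card_eq_sum_card_fiberwise (f := fun x : H => x ^ p)
      (t := Finset.univ.filter (fun y : H => orderOf y = p ^ (r + 1)))]
    · apply Finset.sum_congr rfl
      intro y hy
      congr 1
      ext x
      simp only [Finset.mem_filter, Finset.mem_univ, true_and, F]
      constructor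
      · exact fun h => h.2
      · intro h
        refine ⟨hroot x ?_, h⟩
        rw [h]
        exact (Finset.mem_filter.mp hy).2
    · intro x hx
      refine Finset.mem_filter.mpr ⟨Finset.mem_univ _, hroot' x (Finset.mem_filter.mp hx).2⟩
  rw [hfib]
  have hmain := totient_mul_dvd_sum (fun y => (F y).card) (p ^ (r + 1)) (p ^ 2) ?_ (fun y _ => hFdvd y)
  · refine dvd_trans ?_ hmain
    rw [Nat.totient_prime_pow_succ hpp]
    have hpos := hpp.pos
    obtain ⟨q, hq⟩ : ∃ q, p = q + 1 := ⟨p - 1, by omega⟩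
    refine ⟨p - 1, ?_⟩
    ring
  · intro y y' hy hy' hzp
    -- `y' = y ^ k` with `k` prime to `p`
    have hmem : y' ∈ Subgroup.zpowers y := by
      rw [hzp]
      exact Subgroup.mem_zpowers y'
    obtain ⟨k, hk⟩ := (mem_powers_iff_mem_zpowers.mpr hmem)
    have hkc : Nat.Coprime k p := by
      apply Nat.Coprime.symm
      apply (Nat.Prime.coprime_iff_not_dvd hpp).mpr
      rintro ⟨l, rfl⟩
      have h1 : y' ^ (p ^ r) = 1 := by
        simp only at hk
        rw [← hk, ← pow_mul]
        have : p * l * p ^ r = p ^ (r + 1) * l := by ring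
        rw [this, pow_mul, ← hy, pow_orderOf_eq_one, one_pow]
      have h2 := orderOf_dvd_of_pow_eq_one h1
      rw [hy'] at h2
      have h3 := Nat.le_of_dvd (pow_pos hpp.pos _) h2
      have h4 : p ^ r < p ^ (r + 1) := Nat.pow_lt_pow_right hpp.one_lt (by omega)
      omega
    obtain ⟨N, hN⟩ := IsPGroup.iff_card.mp hH
    have hcop : (Nat.card H).Coprime k := by
      rw [hN]
      exact (hkc.symm.pow_left N)
    let e : H ≃ H := powCoprime hcop
    have he : ∀ x, e x = x ^ k := fun x => rfl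
    show (F y).card = (F y').card
    apply Finset.card_bij (fun x _ => e x)
    · intro x hx
      have h1 : x ^ p = y := (Finset.mem_filter.mp hx).2
      refine Finset.mem_filter.mpr ⟨Finset.mem_univ _, ?_⟩
      rw [he, ← pow_mul, mul_comm, pow_mul, h1]
      exact hk
    · intro a _ b _ hab
      exact e.injective hab
    · intro x hx
      have h1 : x ^ p = y' := (Finset.mem_filter.mp hx).2
      refine ⟨e.symm x, ?_, by simp⟩
      refine Finset.mem_filter.mpr ⟨Finset.mem_univ _, ?_⟩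
      apply e.injective
      rw [he, ← pow_mul, mul_comm, pow_mul, ← he, e.apply_symm_apply, h1]
      exact hk.symm ▸ rfl

end PGroup

section Global

variable {G : Type*} [Group G] [Finite G]

/-- Pairs `(b, A)`. -/
abbrev WW (d m : ℕ) (K : G → Subgroup G) : Type _ :=
  {w : G × Subgroup G // orderOf w.1 = m ∧ IsCyclic w.2 ∧ Nat.card w.2 = d ∧ w.2 ≤ K w.1}

/-- Pairs `(a, b)`. -/
abbrev TT (d m : ℕ) (K : G → Subgroup G) : Type _ :=
  {t : G × G // orderOf t.2 = m ∧ orderOf t.1 = d ∧ t.1 ∈ K t.2}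

theorem card_gens' (A : Subgroup G) [IsCyclic A] (d : ℕ) (hd : Nat.card A = d) :
    Nat.card {a : A // orderOf a = d} = Nat.totient d := by
  classical
  haveI := Fintype.ofFinite A
  rw [Nat.card_eq_fintype_card, Fintype.card_subtype]
  exact IsCyclic.card_orderOf_eq_totient (by rw [← hd, Nat.card_eq_fintype_card])

theorem card_TT (d m : ℕ) (K : G → Subgroup G) :
    Nat.card (TT d m K) = Nat.totient d * Nat.card (WW d m K) := by
  classical
  let f : TT d m K → WW d m K := fun t =>
    ⟨(t.1.2, Subgroup.zpowers t.1.1), t.2.1, inferInstance, by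
      simp only [Nat.card_zpowers]; exact t.2.2.1, by
      simp only [Subgroup.zpowers_le]; exact t.2.2.2⟩
  have hfib : ∀ w, Nat.card {t // f t = w} = Nat.totient d := by
    rintro ⟨⟨b, A⟩, hb, hc, hd, hle⟩
    haveI : IsCyclic A := hc
    rw [← card_gens' A d hd]
    symm
    refine Nat.card_congr (Equiv.ofBijective (fun a : {a : A // orderOf a = d} =>
      (⟨⟨(((a.1 : A) : G), b), hb, ?_, ?_⟩, ?_⟩ : {t // f t = _})) ⟨?_, ?_⟩)
    · rw [Subgroup.orderOf_coe]
      exact a.2
    · exact hle a.1.2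
    · apply Subtype.ext
      refine Prod.ext rfl ?_
      apply Subgroup.eq_of_le_of_card_ge
      · exact (Subgroup.zpowers_le).mpr a.1.2
      · change Nat.card A ≤ Nat.card (Subgroup.zpowers ((a.1 : A) : G))
        rw [Nat.card_zpowers, Subgroup.orderOf_coe, a.2, hd]
    · intro a a' h
      have h1 := congrArg (fun t => t.1.1.1) h
      exact Subtype.ext (Subtype.ext h1)
    · rintro ⟨⟨⟨a, b'⟩, hb', ha, hak⟩, ht⟩
      have h1 : (b' , Subgroup.zpowers a) = (b, A) := congrArg Subtype.val ht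
      have h2 : b' = b := congrArg Prod.fst h1
      have h3 : Subgroup.zpowers a = A := congrArg Prod.snd h1
      have hmem : a ∈ A := by rw [← h3]; exact Subgroup.mem_zpowers a
      refine ⟨⟨⟨a, hmem⟩, ?_⟩, ?_⟩
      · rw [← Subgroup.orderOf_coe]
        exact ha
      · apply Subtype.ext
        apply Subtype.ext
        exact Prod.ext rfl h2.symm
  haveI := Fintype.ofFinite (WW d m K)
  rw [Nat.card_congr (Equiv.sigmaFiberEquiv f).symm, Nat.card_sigma]
  simp only [hfib, Finset.sum_const, smul_eq_mul, Finset.card_univ, ← Nat.card_eq_fintype_card]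
  rw [mul_comm]

/-- Conjugate of a subgroup. -/
def cjS (x : G) (A : Subgroup G) : Subgroup G := A.map (MulAut.conj x).toMonoidHom

theorem mem_cjS {x a : G} {A : Subgroup G} : a ∈ cjS x A ↔ x⁻¹ * a * x ∈ A := by
  constructor
  · rintro ⟨t, ht, rfl⟩
    simpa [MulAut.conj_apply, mul_assoc] using ht
  · intro h
    exact ⟨x⁻¹ * a * x, h, by simp [MulAut.conj_apply, mul_assoc]⟩

theorem cjS_one (A : Subgroup G) : cjS 1 A = A := by
  ext a
  simp [mem_cjS]

theorem cjS_mul (x y : G) (A : Subgroup G) : cjS (x * y) A = cjS x (cjS y A) := by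
  ext a
  simp only [mem_cjS]
  have : (x * y)⁻¹ * a * (x * y) = y⁻¹ * (x⁻¹ * a * x) * y := by group
  rw [this]

theorem card_cjS (x : G) (A : Subgroup G) : Nat.card (cjS x A) = Nat.card A :=
  Subgroup.card_map_of_injective (MulAut.conj x).injective

theorem cyclic_cjS (x : G) (A : Subgroup G) [IsCyclic A] : IsCyclic (cjS x A) :=
  isCyclic_of_surjective ((MulAut.conj x).toMonoidHom.subgroupMap A) (MonoidHom.subgroupMap_surjective _ _)

theorem orderOf_conj' (x b : G) : orderOf (x * b * x⁻¹) = orderOf b :=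
  orderOf_injective (MulAut.conj x).toMonoidHom (MulAut.conj x).injective b

/-- The mod `p` congruence. -/
theorem modEq_fixed {p : ℕ} [Fact p.Prime] (P : Subgroup G) (hP : IsPGroup p P) (d m : ℕ)
    (K : G → Subgroup G) (hK : ∀ x ∈ P, ∀ b, cjS x (K b) ≤ K (x * b * x⁻¹)) :
    Nat.card (WW d m K) ≡ Nat.card {w : WW d m K // ∀ x ∈ P, x * w.1.1 * x⁻¹ = w.1.1 ∧ cjS x w.1.2 = w.1.2} [MOD p] := by
  classical
  let act : P → WW d m K → WW d m K := fun x w =>
    ⟨((x : G) * w.1.1 * (x : G)⁻¹, cjS (x : G) w.1.2), by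
      rw [orderOf_conj']; exact w.2.1, by
      haveI := w.2.2.1
      exact cyclic_cjS _ _, by
      rw [card_cjS]; exact w.2.2.2.1, by
      refine le_trans ?_ (hK x x.2 w.1.1)
      intro a ha
      rw [mem_cjS] at ha ⊢
      exact w.2.2.2.2 ha⟩
  letI : MulAction P (WW d m K) :=
    { smul := act
      one_smul := fun w => by
        apply Subtype.ext
        refine Prod.ext ?_ ?_
        · change (1 : G) * w.1.1 * (1 : G)⁻¹ = _
          simp
        · change cjS (1 : G) w.1.2 = _
          exact cjS_one _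
      mul_smul := fun x y w => by
        apply Subtype.ext
        refine Prod.ext ?_ ?_
        · change ((x : G) * y) * w.1.1 * ((x : G) * y)⁻¹ = (x : G) * ((y : G) * w.1.1 * (y : G)⁻¹) * (x : G)⁻¹
          group
        · change cjS ((x : G) * y) w.1.2 = cjS (x : G) (cjS (y : G) w.1.2)
          exact cjS_mul _ _ _ }
  have h := hP.card_modEq_card_fixedPoints (WW d m K)
  have h2 : Nat.card (MulAction.fixedPoints P (WW d m K)) =
      Nat.card {w : WW d m K // ∀ x ∈ P, x * w.1.1 * x⁻¹ = w.1.1 ∧ cjS x w.1.2 = w.1.2} := by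
    apply Nat.card_congr
    apply Equiv.subtypeEquivRight
    intro w
    constructor
    · intro hw x hx
      have h3 := hw ⟨x, hx⟩
      have h4 := congrArg Subtype.val h3
      exact ⟨congrArg Prod.fst h4, congrArg Prod.snd h4⟩
    · intro hw x
      have h3 := hw x x.2
      apply Subtype.ext
      exact Prod.ext h3.1 h3.2
  rw [h2] at h
  exact h

end Global

theorem result {G : Type*} [Group G] [Finite G] (p : ℕ) [Fact p.Prime] (hodd : p ≠ 2) (hpG : p ∣ Nat.card G)
    (P : Sylow p G) (hP : ¬ IsCyclic ↥(P : Subgroup G)) (s m : ℕ) (hs : 1 < s) (hm : Nat.Coprime p m) :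
    p ^ s ∣ Nat.card {g : G // orderOf g = p ^ s * m} := by
  classical
  have hpp : p.Prime := Fact.out
  set d := p ^ s with hd
  set Q : Subgroup G := (P : Subgroup G) with hQ
  have hQp : IsPGroup p Q := P.2
  obtain ⟨r, hr⟩ : ∃ r, s = r + 1 := ⟨s - 1, by omega⟩
  have htot : Nat.totient d = p ^ r * (p - 1) := by
    rw [hd, hr, Nat.totient_prime_pow_succ hpp]
  have hcopp : Nat.Coprime p (p - 1) := by
    apply (Nat.Prime.coprime_iff_not_dvd hpp).mpr
    intro h
    have := Nat.le_of_dvd (by have := hpp.two_le; omega) h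
    have := hpp.two_le
    omega
  -- from `d ∣ |T|` to `p ∣ |W|` and back
  have hdown : ∀ W T : ℕ, T = Nat.totient d * W → d ∣ T → p ∣ W := by
    intro W T hT hdv
    rw [hT, htot, hd, hr, pow_succ, mul_assoc] at hdv
    have h1 := Nat.dvd_of_mul_dvd_mul_left (pow_pos hpp.pos r) hdv
    exact hcopp.dvd_of_dvd_mul_left h1
  have hup : ∀ W T : ℕ, T = Nat.totient d * W → p ∣ W → d ∣ T := by
    rintro W T hT ⟨c, rfl⟩
    rw [hT, htot, hd, hr, pow_succ]
    exact ⟨(p - 1) * c, by ring⟩
  -- step 1: the count in `P`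
  let K₁ : G → Subgroup G := fun _ => Q
  have h1 : p ∣ Nat.card (WW d 1 K₁) := by
    apply hdown _ _ (card_TT d 1 K₁)
    have h2 : d ∣ Nat.card {x : Q // orderOf x = d} := card_Y_dvd hodd hQp hP s (by omega)
    have h3 : Nat.card (TT d 1 K₁) = Nat.card {x : Q // orderOf x = d} := by
      symm
      refine Nat.card_congr (Equiv.ofBijective (fun x : {x : Q // orderOf x = d} =>
        (⟨(((x.1 : Q) : G), 1), by simp, ?_, x.1.2⟩ : TT d 1 K₁)) ⟨?_, ?_⟩)
      · rw [Subgroup.orderOf_coe]
        exact x.2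
      · intro x y h
        exact Subtype.ext (Subtype.ext (congrArg (fun t => t.1.1) h))
      · rintro ⟨⟨a, b⟩, hb, ha, haK⟩
        refine ⟨⟨⟨a, haK⟩, ?_⟩, ?_⟩
        · rw [← Subgroup.orderOf_coe]
          exact ha
        · apply Subtype.ext
          refine Prod.ext rfl ?_
          exact (orderOf_eq_one_iff.mp hb).symm
    rwa [h3]
  have hK₁ : ∀ x ∈ Q, ∀ b, cjS x (K₁ b) ≤ K₁ (x * b * x⁻¹) := by
    intro x hx b a ha
    rw [mem_cjS] at ha
    have h2 := Q.mul_mem (Q.mul_mem hx ha) (Q.inv_mem hx)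
    simpa [mul_assoc] using h2
  have h2 : p ∣ Nat.card {w : WW d 1 K₁ // ∀ x ∈ Q, x * w.1.1 * x⁻¹ = w.1.1 ∧ cjS x w.1.2 = w.1.2} := by
    have := modEq_fixed (p := p) Q hQp d 1 K₁ hK₁
    exact (Nat.modEq_zero_iff_dvd.mp (this.symm.trans (Nat.modEq_zero_iff_dvd.mpr h1)))
  -- step 2: the centralizer version
  let K₂ : G → Subgroup G := fun b => Subgroup.centralizer {b}
  have hK₂ : ∀ x ∈ Q, ∀ b, cjS x (K₂ b) ≤ K₂ (x * b * x⁻¹) := by
    intro x _ b a ha
    rw [mem_cjS] at ha
    rw [Subgroup.mem_centralizer_singleton_iff] at ha ⊢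
    have h3 : x * b * x⁻¹ * a = x * (b * (x⁻¹ * a * x)) * x⁻¹ := by group
    have h4 : a * (x * b * x⁻¹) = x * ((x⁻¹ * a * x) * b) * x⁻¹ := by group
    rw [h3, h4, ha]
  let B₀ : Type _ := {b : G // orderOf b = m ∧ ∀ x ∈ Q, x * b * x⁻¹ = b}
  have h3 : Nat.card {w : WW d m K₂ // ∀ x ∈ Q, x * w.1.1 * x⁻¹ = w.1.1 ∧ cjS x w.1.2 = w.1.2} =
      Nat.card B₀ * Nat.card {w : WW d 1 K₁ // ∀ x ∈ Q, x * w.1.1 * x⁻¹ = w.1.1 ∧ cjS x w.1.2 = w.1.2} := by
    rw [← Nat.card_prod]
    symm
    refine Nat.card_congr (Equiv.ofBijective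
      (fun y : B₀ × {w : WW d 1 K₁ // ∀ x ∈ Q, x * w.1.1 * x⁻¹ = w.1.1 ∧ cjS x w.1.2 = w.1.2} =>
        (⟨⟨(y.1.1, y.2.1.1.2), y.1.2.1, y.2.1.2.2.1, y.2.1.2.2.2.1, ?_⟩, ?_⟩ :
          {w : WW d m K₂ // ∀ x ∈ Q, x * w.1.1 * x⁻¹ = w.1.1 ∧ cjS x w.1.2 = w.1.2})) ⟨?_, ?_⟩)
    · intro a ha
      have haQ : a ∈ Q := y.2.1.2.2.2.2 ha
      have h4 := y.1.2.2 a haQ
      rw [Subgroup.mem_centralizer_singleton_iff]
      change a * y.1.1 = y.1.1 * a
      exact mul_inv_eq_iff_eq_mul.mp h4
    · intro x hx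
      exact ⟨y.1.2.2 x hx, (y.2.2 x hx).2⟩
    · rintro ⟨b, w⟩ ⟨b', w'⟩ h
      have h4 := congrArg (fun t => t.1.1) h
      have h5 : b.1 = b'.1 := congrArg Prod.fst h4
      have h6 : w.1.1.2 = w'.1.1.2 := by
        have h7 := congrArg Prod.snd h4
        exact h7
      refine Prod.ext (Subtype.ext h5) (Subtype.ext (Subtype.ext (Prod.ext ?_ h6)))
      rw [orderOf_eq_one_iff.mp w.1.2.1, orderOf_eq_one_iff.mp w'.1.2.1]
    · rintro ⟨⟨⟨b, A⟩, hb, hc, hcard, hle⟩, hfix⟩
      have hA : IsPGroup p A := by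
        apply IsPGroup.of_card (n := s)
        exact hcard
      have hnorm : Q ≤ Subgroup.normalizer (A : Set G) := by
        intro x hx
        rw [Subgroup.mem_normalizer_iff]
        intro h
        have h5 := (hfix x hx).2
        change cjS x A = A at h5
        constructor
        · intro hh
          rw [← h5, mem_cjS]
          simpa [mul_assoc] using hh
        · intro hh
          rw [← h5, mem_cjS] at hh
          simpa [mul_assoc] using hh
      have hsup : IsPGroup p (A ⊔ Q : Subgroup G) := hA.to_sup_of_normal_left' hQp hnorm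
      have hAQ : A ≤ Q := by
        have := P.is_maximal' hsup le_sup_right
        rw [← hQ] at this
        rw [← this]
        exact le_sup_left
      refine ⟨(⟨b, hb, fun x hx => (hfix x hx).1⟩, ⟨⟨(1, A), orderOf_one, hc, hcard, hAQ⟩, ?_⟩), ?_⟩
      · intro x hx
        exact ⟨by simp, (hfix x hx).2⟩
      · rfl
  have h4 : p ∣ Nat.card {w : WW d m K₂ // ∀ x ∈ Q, x * w.1.1 * x⁻¹ = w.1.1 ∧ cjS x w.1.2 = w.1.2} := by
    rw [h3]
    exact Dvd.dvd.mul_left h2 _
  have h5 : p ∣ Nat.card (WW d m K₂) := by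
    have := modEq_fixed (p := p) Q hQp d m K₂ hK₂
    exact Nat.modEq_zero_iff_dvd.mp (this.trans (Nat.modEq_zero_iff_dvd.mpr h4))
  have h6 : d ∣ Nat.card (TT d m K₂) := hup _ _ (card_TT d m K₂) h5
  -- step 3: decomposition of elements
  have hdm : Nat.Coprime d m := hm.pow_left s
  have hm0 : 0 < m := by
    rcases Nat.eq_zero_or_pos m with h | h
    · rw [h, Nat.coprime_zero_right] at hm
      exact absurd hm hpp.one_lt.ne'
    · exact h
  have hdpos : 0 < d := pow_pos hpp.pos s
  let Pr : ℕ → Prop := fun q => q = p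
  have hpi1 : ∀ a : G, orderOf a = d → Cfsg.Agent.Lib.FrobCount.PiElt Pr a := by
    intro a ha q hq hdvd
    rw [ha] at hdvd
    exact (Nat.prime_dvd_prime_iff_eq hq hpp).mp (hq.dvd_of_dvd_pow hdvd)
  have hpi2 : ∀ b : G, orderOf b = m → Cfsg.Agent.Lib.FrobCount.PiElt (fun q => ¬ Pr q) b := by
    intro b hb q hq hdvd hqp
    rw [hb] at hdvd
    rw [show q = p from hqp] at hdvd
    exact hpp.one_lt.ne' (Nat.Coprime.eq_one_of_dvd hm hdvd)
  have h7 : Nat.card {g : G // orderOf g = d * m} = Nat.card (TT d m K₂) := by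
    symm
    refine Nat.card_congr (Equiv.ofBijective (fun t : TT d m K₂ => (⟨t.1.1 * t.1.2, ?_⟩ : {g : G // orderOf g = d * m})) ⟨?_, ?_⟩)
    · have hcomm : Commute t.1.1 t.1.2 := by
        have := t.2.2.2
        rw [Subgroup.mem_centralizer_singleton_iff] at this
        exact this
      rw [hcomm.orderOf_mul_eq_mul_orderOf_of_coprime (by rw [t.2.1, t.2.2.1]; exact hdm), t.2.1, t.2.2.1]
    · rintro ⟨⟨a, b⟩, hb, ha, hab⟩ ⟨⟨a', b'⟩, hb', ha', hab'⟩ h
      have h8 : a * b = a' * b' := congrArg Subtype.val h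
      rw [Subgroup.mem_centralizer_singleton_iff] at hab hab'
      obtain ⟨e1, e2⟩ := Cfsg.Agent.Lib.FrobCount.decomp_unique Pr (hpi1 a ha) (hpi2 b hb)
        hab (hpi1 a' ha') (hpi2 b' hb') hab' h8
      apply Subtype.ext
      exact Prod.ext e1 e2
    · rintro ⟨g, hg⟩
      obtain ⟨u, v, hu, hv, huv, rfl⟩ := Cfsg.Agent.Lib.FrobCount.exists_decomp Pr g
      have hcop : Nat.Coprime (orderOf u) (orderOf v) :=
        Cfsg.Agent.Lib.FrobCount.coprime_of_pi (P := Pr) hu hv
      rw [huv.orderOf_mul_eq_mul_orderOf_of_coprime hcop] at hg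
      have hud : orderOf u ∣ d := by
        have h8 : orderOf u ∣ d * m := ⟨orderOf v, hg.symm⟩
        refine Nat.Coprime.dvd_of_dvd_mul_right ?_ h8
        apply Nat.Coprime.symm
        refine Cfsg.Agent.Lib.FrobCount.coprime_of_pi (P := fun q => ¬ Pr q) ?_ (fun q hq h => by
          simpa using hu q hq h)
        intro q hq h hqp
        rw [show q = p from hqp] at h
        exact hpp.one_lt.ne' (Nat.Coprime.eq_one_of_dvd hm h)
      have hvm : orderOf v ∣ m := by
        have h8 : orderOf v ∣ d * m := ⟨orderOf u, by rw [← hg, mul_comm]⟩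
        refine Nat.Coprime.dvd_of_dvd_mul_left ?_ h8
        apply Nat.Coprime.symm
        refine Cfsg.Agent.Lib.FrobCount.coprime_of_pi (P := Pr) ?_ hv
        intro q hq h
        exact (Nat.prime_dvd_prime_iff_eq hq hpp).mp (hq.dvd_of_dvd_pow h)
      have hle1 := Nat.le_of_dvd hdpos hud
      have hle2 := Nat.le_of_dvd hm0 hvm
      have hupos := orderOf_pos u
      have hvpos := orderOf_pos v
      have he1 : orderOf u = d := by
        by_contra hne
        have hlt : orderOf u < d := lt_of_le_of_ne hle1 hne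
        have : orderOf u * orderOf v < d * m := Nat.mul_lt_mul_of_lt_of_le hlt hle2 hm0
        omega
      have he2 : orderOf v = m := by
        rw [he1] at hg
        exact Nat.eq_of_mul_eq_mul_left hdpos hg
      refine ⟨⟨(u, v), he2, he1, ?_⟩, rfl⟩
      rw [Subgroup.mem_centralizer_singleton_iff]
      exact huv
  rw [h7]
  exact h6

end Cfsg.Agent.S4003
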