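import Mathlib
import Cfsg.Statements.S4005
import Cfsg.Agent.Lib.InvolutionIndexTwo

set_option autoImplicit false
set_option linter.unusedSectionVars false
set_option linter.style.haveILetI false
open Cfsg

namespace Cfsg.Agent.S4005

variable {G : Type*} [Group G]

/-- A word identity: three involutions with `a, b` commuting and `ac`, `bc`, `abc` of order dividing
three satisfy `c = a b`. -/
theorem coxeter_identity {a b c : G} (ha : a * a = 1) (hb : b * b = 1) (hc : c * c = 1)
    (hab : a * b = b * a) (h1 : (a * c) ^ 3 = 1) (h2 : (b * c) ^ 3 = 1)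
    (h3 : (a * b * c) ^ 3 = 1) : c = a * b := by
  -- braid relations
  have ha' : a⁻¹ = a := inv_eq_of_mul_eq_one_left ha
  have hb' : b⁻¹ = b := inv_eq_of_mul_eq_one_left hb
  have hc' : c⁻¹ = c := inv_eq_of_mul_eq_one_left hc
  have e1 : a * c * a = c * a * c := by
    have : (a * c * a) * (c * a * c) = 1 := by
      have e : (a * c * a) * (c * a * c) = (a * c) ^ 3 := by
        simp only [pow_succ, pow_zero, one_mul, mul_assoc]
      rw [e, h1]
    have h4 : (a * c * a) = (c * a * c)⁻¹ := eq_inv_of_mul_eq_one_left this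
    rw [h4]
    simp only [mul_inv_rev, ha', hc', mul_assoc]
  have e2 : b * c * b = c * b * c := by
    have : (b * c * b) * (c * b * c) = 1 := by
      have e : (b * c * b) * (c * b * c) = (b * c) ^ 3 := by
        simp only [pow_succ, pow_zero, one_mul, mul_assoc]
      rw [e, h2]
    have h4 : (b * c * b) = (c * b * c)⁻¹ := eq_inv_of_mul_eq_one_left this
    rw [h4]
    simp only [mul_inv_rev, hb', hc', mul_assoc]
  obtain ⟨d, hd⟩ : ∃ d, d = a * b := ⟨_, rfl⟩
  rw [← hd] at h3
  have hdd : d * d = 1 := by
    rw [hd]
    calc a * b * (a * b) = a * (b * a) * b := by group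
      _ = a * (a * b) * b := by rw [hab]
      _ = (a * a) * (b * b) := by group
      _ = 1 := by rw [ha, hb, one_mul]
  have hd' : d⁻¹ = d := inv_eq_of_mul_eq_one_left hdd
  have e3 : d * c * d = c * d * c := by
    have : (d * c * d) * (c * d * c) = 1 := by
      have e : (d * c * d) * (c * d * c) = (d * c) ^ 3 := by
        simp only [pow_succ, pow_zero, one_mul, mul_assoc]
      rw [e, h3]
    have h4 : (d * c * d) = (c * d * c)⁻¹ := eq_inv_of_mul_eq_one_left this
    rw [h4]
    simp only [mul_inv_rev, hd', hc', mul_assoc]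
  -- computing
  have e4 : d * c * d = a * (c * b * c) * a := by
    rw [← e2, hd]
    calc a * b * c * (a * b) = a * b * c * (b * a) := by rw [hab]
      _ = a * (b * c * b) * a := by group
  have e5 : c * d * c = (a * c * a) * (b * c * b) := by
    rw [e1, e2, hd]
    calc c * (a * b) * c = c * a * (c * c) * b * c := by rw [hc]; group
      _ = _ := by group
  have e6 : a * (c * b * c) * a = (a * c * a) * (b * c * b) := by rw [← e4, ← e5, e3]
  -- cancel
  have e7 : b * c * a = a * b * c * b := by
    have : a * c * (b * c * a) = a * c * (a * b * c * b) := by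
      calc a * c * (b * c * a) = a * (c * b * c) * a := by group
        _ = (a * c * a) * (b * c * b) := e6
        _ = a * c * (a * b * c * b) := by group
    exact mul_left_cancel this
  have e8 : c * a = a * c * b := by
    have : b * (c * a) = b * (a * c * b) := by
      calc b * (c * a) = b * c * a := by group
        _ = a * b * c * b := e7
        _ = b * a * c * b := by rw [hab]
        _ = b * (a * c * b) := by group
    exact mul_left_cancel this
  have e9 : b = c * a * c * a := by
    have : a * c * b = c * a := e8.symm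
    calc b = (a * c)⁻¹ * (a * c * b) := by group
      _ = (c⁻¹ * a⁻¹) * (c * a) := by rw [this, mul_inv_rev]
      _ = c * a * c * a := by rw [ha', hc']; group
  -- use the order of `c * a`
  have e10 : (c * a) ^ 3 = 1 := by
    have : (c * a) ^ 3 = c * (a * c) ^ 3 * c⁻¹ := by
      rw [hc']
      simp only [pow_succ, pow_zero, one_mul, mul_assoc]
      rw [hc, mul_one]
    rw [this, h1]
    simp [hc', hc]
  have e11 : b = a * c := by
    have : (c * a) * (c * a) * (c * a) = 1 := by
      simpa [pow_succ, mul_assoc] using e10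
    have h5 : c * a * c * a = (c * a)⁻¹ := by
      apply eq_inv_of_mul_eq_one_left
      calc c * a * c * a * (c * a) = (c * a) * (c * a) * (c * a) := by group
        _ = 1 := this
    rw [e9, h5, mul_inv_rev, ha', hc']
  calc c = a * (a * c) := by rw [← mul_assoc, ha, one_mul]
    _ = a * b := by rw [← e11]

section Main

variable [Finite G]

/-- Fixed-point-free action of commuting elements of order three on an elementary abelian normal
`2`-subgroup. -/
theorem trivial_of_commuting (T : Subgroup G) [hTn : T.Normal]
    (h2 : ∀ t ∈ T, t * t = 1) (hfix : ∀ g : G, orderOf g = 3 → ∀ t ∈ T, g * t * g⁻¹ = t → t = 1)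
    (y z : G) (hyz : y * z = z * y) (hy : orderOf y = 3) (hz : orderOf z = 3)
    (hyz1 : orderOf (y * z) = 3) (hyz2 : orderOf (y * z ^ 2) = 3) (t : G) (ht : t ∈ T) : t = 1 := by
  have hcomm : ∀ a ∈ T, ∀ b ∈ T, a * b = b * a := by
    intro a ha b hb
    have h1 := h2 _ (T.mul_mem ha hb)
    have h3 : a * b * (b * a) = 1 := by
      calc a * b * (b * a) = a * (b * b) * a := by group
        _ = 1 := by rw [h2 b hb, mul_one, h2 a ha]
    have h4 : a * b * (a * b) = a * b * (b * a) := by rw [h1, h3]
    exact mul_left_cancel h4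
  -- conjugation
  let c : G → G → G := fun g x => g * x * g⁻¹
  have hcT : ∀ g, ∀ x ∈ T, c g x ∈ T := fun g x hx => hTn.conj_mem x hx g
  have hcmul : ∀ g x w, c g (x * w) = c g x * c g w := by
    intro g x w
    simp only [c]
    group
  have hcc : ∀ g g' x, c g (c g' x) = c (g * g') x := by
    intro g g' x
    simp only [c]
    group
  -- the norm identity: `c (g^2) x = x * c g x`
  have hN : ∀ g : G, orderOf g = 3 → ∀ x ∈ T, c (g * g) x = x * c g x := by
    intro g hg x hx
    have hg3 : g * g * g = 1 := by
      have := pow_orderOf_eq_one g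
      rw [hg] at this
      simpa [pow_succ] using this
    set w := x * c g x * c (g * g) x with hw
    have hwT : w ∈ T := T.mul_mem (T.mul_mem hx (hcT g x hx)) (hcT _ x hx)
    have hfixw : c g w = w := by
      rw [hw, hcmul, hcmul, hcc g g x, hcc g (g * g) x]
      have e : c (g * (g * g)) x = x := by
        have : g * (g * g) = 1 := by rw [← mul_assoc, hg3]
        rw [this]
        simp [c]
      rw [e]
      have h4 : c g x * c (g * g) x * x = x * (c g x * c (g * g) x) :=
        hcomm _ (T.mul_mem (hcT g x hx) (hcT _ x hx)) _ hx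
      rw [h4]
      exact (mul_assoc _ _ _).symm
    have hw1 : w = 1 := hfix g hg w hwT hfixw
    -- rearrange
    have h5 : x * c g x * (x * c g x) = 1 := h2 _ (T.mul_mem hx (hcT g x hx))
    have h6 : (x * c g x) * c (g * g) x = (x * c g x) * (x * c g x) := by
      rw [h5]
      exact hw1
    exact mul_left_cancel h6
  -- the key relation
  have key : ∀ x ∈ T, c z x = x * c y x := by
    intro x hx
    have hzz : z ^ 2 = z * z := sq z
    have hA := hcT y x hx
    have hB := hcT z x hx
    have hC := hcT (y * z) x hx
    have e1 : c (y * z ^ 2) x = c y x * c (y * z) x := by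
      have : y * z ^ 2 = y * (z * z) := by rw [hzz]
      rw [this, ← hcc, hN z hz x hx, hcmul, hcc]
    have e2 : (y * z ^ 2) * (y * z ^ 2) = (y * y) * z := by
      have hz3 : z * z * z = 1 := by
        have := pow_orderOf_eq_one z
        rw [hz] at this
        simpa [pow_succ] using this
      have hcz : Commute y z := hyz
      calc (y * z ^ 2) * (y * z ^ 2) = y * (z ^ 2 * y) * z ^ 2 := by group
        _ = y * (y * z ^ 2) * z ^ 2 := by rw [((hcz.pow_right 2).eq).symm]
        _ = (y * y) * (z * z * z) * z := by rw [hzz]; group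
        _ = (y * y) * z := by rw [hz3, mul_one]
    have e3 : c ((y * y) * z) x = c z x * c (y * z) x := by
      have : (y * y) * z = z * (y * y) := by
        have h6 : Commute y z := hyz
        exact ((h6.mul_left h6).eq)
      rw [this, ← hcc, hN y hy x hx, hcmul, hcc]
      have : z * y = y * z := hyz.symm
      rw [this]
    have e4 := hN (y * z ^ 2) hyz2 x hx
    rw [e2, e3, e1] at e4
    -- c z x * C = x * (A * C)
    have e5 : c z x * c (y * z) x = (x * c y x) * c (y * z) x := by
      rw [e4]
      exact (mul_assoc _ _ _).symm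
    exact mul_right_cancel e5
  -- apply to `c y t`
  have h1 := key (c y t) (hcT y t ht)
  rw [hcc, hcc, hN y hy t ht] at h1
  have h2' : c (z * y) t = t := by
    rw [h1]
    have hA := hcT y t ht
    calc c y t * (t * c y t) = t * (c y t * c y t) := by
          rw [← mul_assoc, hcomm _ hA _ ht, mul_assoc]
      _ = t := by rw [h2 _ hA, mul_one]
  apply hfix (y * z) hyz1 t ht
  have e : z * y = y * z := hyz.symm
  rw [e] at h2'
  exact h2'

theorem main (h : Set.range (orderOf : G → ℕ) = {k : ℕ | 1 ≤ k ∧ k ≤ 3}) :
    (∃ N : Subgroup G, N.Normal ∧ Cfsg.IsElementaryAbelian 3 N ∧ N.index = 2) ∨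
      (∃ N : Subgroup G, N.Normal ∧ Cfsg.IsElementaryAbelian 2 N ∧ N.index = 3) := by
  haveI : Fact (Nat.Prime 2) := ⟨Nat.prime_two⟩
  haveI : Fact (Nat.Prime 3) := ⟨Nat.prime_three⟩
  have hord : ∀ g : G, orderOf g = 1 ∨ orderOf g = 2 ∨ orderOf g = 3 := by
    intro g
    have h1 : orderOf g ∈ {k : ℕ | 1 ≤ k ∧ k ≤ 3} := by rw [← h]; exact ⟨g, rfl⟩
    obtain ⟨h2, h3⟩ := h1
    omega
  obtain ⟨g2, hg2⟩ : ∃ g : G, orderOf g = 2 := by
    have : (2 : ℕ) ∈ Set.range (orderOf : G → ℕ) := by rw [h]; simp
    exact this
  obtain ⟨g3, hg3⟩ : ∃ g : G, orderOf g = 3 := by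
    have : (3 : ℕ) ∈ Set.range (orderOf : G → ℕ) := by rw [h]; simp
    exact this
  have hinv : ∀ {x : G}, orderOf x = 2 → x * x = 1 := by
    intro x hx
    have := pow_orderOf_eq_one x
    rwa [hx, sq] at this
  have hcub : ∀ {x : G}, orderOf x = 3 → x ^ 3 = 1 := by
    intro x hx
    have := pow_orderOf_eq_one x
    rwa [hx] at this
  -- no elements of order `6`
  have no6 : ∀ a y : G, orderOf a = 2 → a * y = y * a → orderOf y ≠ 3 := by
    intro a y ha hc hy
    have h1 : orderOf (a * y) = orderOf a * orderOf y :=
      (show Commute a y from hc).orderOf_mul_eq_mul_orderOf_of_coprime (by rw [ha, hy]; norm_num)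
    rw [ha, hy] at h1
    rcases hord (a * y) with h2 | h2 | h2 <;> omega
  let T : Sylow 2 G := default
  have htwo : ∀ t ∈ (T : Subgroup G), t * t = 1 := by
    intro t ht
    obtain ⟨k, hk⟩ := (IsPGroup.iff_orderOf.mp T.isPGroup') ⟨t, ht⟩
    rw [Subgroup.orderOf_mk] at hk
    rcases hord t with h1 | h1 | h1
    · rw [orderOf_eq_one_iff.mp h1, one_mul]
    · exact hinv h1
    · exfalso
      rw [h1] at hk
      have h2 : 3 ∣ 2 ^ k := ⟨1, by omega⟩
      have h3 := Nat.Prime.dvd_of_dvd_pow Nat.prime_three h2
      omega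
  have hinT : ∀ t ∈ (T : Subgroup G), t ≠ 1 → orderOf t = 2 := by
    intro t ht hne
    rcases hord t with h1 | h1 | h1
    · exact absurd (orderOf_eq_one_iff.mp h1) hne
    · exact h1
    · exfalso
      have h4 := htwo t ht
      have h5 : orderOf t ∣ 2 := orderOf_dvd_of_pow_eq_one (by rw [sq]; exact h4)
      rw [h1] at h5
      omega
  have hcomm : ∀ a ∈ (T : Subgroup G), ∀ b ∈ (T : Subgroup G), a * b = b * a := by
    intro a ha b hb
    have h1 := htwo _ ((T : Subgroup G).mul_mem ha hb)
    have h3 : a * b * (b * a) = 1 := by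
      calc a * b * (b * a) = a * (b * b) * a := by group
        _ = 1 := by rw [htwo b hb, mul_one, htwo a ha]
    have h4 : a * b * (a * b) = a * b * (b * a) := by rw [h1, h3]
    exact mul_left_cancel h4
  have hcentT : ∀ a ∈ (T : Subgroup G), a ≠ 1 → ∀ x : G, a * x = x * a → x ∈ (T : Subgroup G) := by
    intro a ha hne x hx
    set C := Subgroup.centralizer ({a} : Set G) with hC
    have hCp : IsPGroup 2 C := by
      rw [IsPGroup.iff_orderOf]
      rintro ⟨y, hy⟩
      rw [Subgroup.orderOf_mk]
      rw [hC, Subgroup.mem_centralizer_singleton_iff] at hy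
      rcases hord y with h1 | h1 | h1
      · exact ⟨0, by simpa using h1⟩
      · exact ⟨1, by simpa using h1⟩
      · exact absurd h1 (no6 a y (hinT a ha hne) hy.symm)
    have hle : (T : Subgroup G) ≤ C := by
      intro b hb
      rw [hC, Subgroup.mem_centralizer_singleton_iff]
      exact (hcomm a ha b hb).symm
    have hCT : C = T := T.3 hCp hle
    rw [← hCT, hC, Subgroup.mem_centralizer_singleton_iff]
    exact hx.symm
  have hTne : ∃ a ∈ (T : Subgroup G), a ≠ 1 := by
    have hd : 2 ∣ Nat.card G := by
      rw [← hg2]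
      exact orderOf_dvd_natCard g2
    have h1 : Nat.card (T : Subgroup G) = 2 ^ (Nat.card G).factorization 2 := T.card_eq_multiplicity
    have h2 : 0 < (Nat.card G).factorization 2 :=
      Nat.Prime.factorization_pos_of_dvd Nat.prime_two Nat.card_pos.ne' hd
    have h3 : 1 < Nat.card (T : Subgroup G) := by
      rw [h1]
      exact Nat.one_lt_pow h2.ne' (by norm_num)
    have h4 : (T : Subgroup G) ≠ ⊥ := (Subgroup.one_lt_card_iff_ne_bot _).mp h3
    exact (Subgroup.bot_or_exists_ne_one _).resolve_left h4
  by_cases hn : (T : Subgroup G).Normal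
  · right
    refine ⟨T, hn, ⟨⟨⟨fun a b => Subtype.ext (hcomm a a.2 b b.2)⟩⟩, fun a ha => by
      rw [sq]; exact htwo a ha⟩, ?_⟩
    have hcop : (Nat.card (T : Subgroup G)).Coprime (T : Subgroup G).index := by
      rw [T.card_eq_multiplicity]
      exact Nat.Coprime.pow_left _ ((Nat.Prime.coprime_iff_not_dvd Nat.prime_two).mpr T.not_dvd_index)
    obtain ⟨Q, hQ⟩ := Subgroup.exists_right_complement'_of_coprime hcop
    have hcardQ : Nat.card Q = (T : Subgroup G).index := by
      have h1 := hQ.card_mul_card
      have h2 := Subgroup.card_mul_index (T : Subgroup G)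
      exact Nat.eq_of_mul_eq_mul_left Nat.card_pos (h1.trans h2.symm)
    have hQord : ∀ q ∈ Q, q ≠ 1 → orderOf q = 3 := by
      intro q hq hne
      rcases hord q with h1 | h1 | h1
      · exact absurd (orderOf_eq_one_iff.mp h1) hne
      · exfalso
        have h2 : orderOf q ∣ Nat.card Q := Subgroup.orderOf_dvd_natCard Q hq
        rw [h1, hcardQ] at h2
        exact T.not_dvd_index h2
      · exact h1
    have hQp : IsPGroup 3 Q := by
      rw [IsPGroup.iff_orderOf]
      rintro ⟨q, hq⟩
      rw [Subgroup.orderOf_mk]
      by_cases hne : q = 1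
      · exact ⟨0, by simp [hne]⟩
      · exact ⟨1, by simpa using hQord q hq hne⟩
    obtain ⟨k, hk⟩ := IsPGroup.iff_card.mp hQp
    have hfix : ∀ g : G, orderOf g = 3 → ∀ t ∈ (T : Subgroup G), g * t * g⁻¹ = t → t = 1 := by
      intro g hg t ht hgt
      by_contra hne
      refine no6 t g (hinT t ht hne) ?_ hg
      have : g * t = t * g := by
        rw [mul_inv_eq_iff_eq_mul] at hgt
        exact hgt
      exact this.symm
    -- exclude `k = 0`
    have hk0 : k ≠ 0 := by
      rintro rfl
      have h1 : (T : Subgroup G).index = 1 := by rw [← hcardQ, hk, pow_zero]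
      have h2 : (T : Subgroup G) = ⊤ := Subgroup.index_eq_one.mp h1
      have h3 : g3 ∈ (T : Subgroup G) := by rw [h2]; trivial
      have h4 := htwo g3 h3
      have h5 : orderOf g3 ∣ 2 := orderOf_dvd_of_pow_eq_one (by rw [sq]; exact h4)
      rw [hg3] at h5
      omega
    -- exclude `k ≥ 2`
    have hk1 : k < 2 := by
      by_contra hk2
      push Not at hk2
      have hnt : Nontrivial Q := by
        rw [← Finite.one_lt_card_iff_nontrivial, hk]
        exact Nat.one_lt_pow (by omega) (by norm_num)
      obtain ⟨z, hz1⟩ : ∃ z : Subgroup.center Q, z ≠ 1 := by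
        have := hQp.center_nontrivial
        exact exists_ne 1
      have hzne : (z : Q) ≠ 1 := fun h => hz1 (Subtype.ext h)
      have hzne' : ((z : Q) : G) ≠ 1 := fun h => hzne (Subtype.ext h)
      obtain ⟨y, hy⟩ : ∃ y : Q, y ∉ Subgroup.zpowers (z : Q) := by
        by_contra hall
        push Not at hall
        have h1 : Subgroup.zpowers (z : Q) = ⊤ := by
          rw [eq_top_iff]
          intro y _
          exact hall y
        have h2 : Nat.card (Subgroup.zpowers (z : Q)) = Nat.card Q := by rw [h1]; exact Subgroup.card_top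
        have hzo : orderOf (z : Q) = 3 := by
          rw [← Subgroup.orderOf_coe]
          exact hQord _ (z : Q).2 hzne'
        rw [Nat.card_zpowers, hk, hzo] at h2
        have h3 : 3 ^ 2 ≤ 3 ^ k := Nat.pow_le_pow_right (by norm_num) hk2
        omega
      have hyz : y * (z : Q) = (z : Q) * y := (Subgroup.mem_center_iff.mp z.2) y
      have hy1 : (y : G) ≠ 1 := by
        intro h0
        apply hy
        have : y = 1 := Subtype.ext h0
        rw [this]
        exact Subgroup.one_mem _
      have hyz1 : ((y * (z : Q) : Q) : G) ≠ 1 := by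
        intro h0
        apply hy
        have h1 : y * (z : Q) = 1 := Subtype.ext h0
        have h2 : y = (z : Q)⁻¹ := eq_inv_of_mul_eq_one_left h1
        rw [h2]
        exact Subgroup.inv_mem _ (Subgroup.mem_zpowers _)
      have hyz2 : ((y * (z : Q) ^ 2 : Q) : G) ≠ 1 := by
        intro h0
        apply hy
        have h1 : y * (z : Q) ^ 2 = 1 := Subtype.ext h0
        have h2 : y = ((z : Q) ^ 2)⁻¹ := eq_inv_of_mul_eq_one_left h1
        rw [h2]
        exact Subgroup.inv_mem _ (Subgroup.npow_mem_zpowers _ 2)
      obtain ⟨a, ha, hane⟩ := hTne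
      apply hane
      have hyzG : (y : G) * ((z : Q) : G) = ((z : Q) : G) * y := congrArg Subtype.val hyz
      exact trivial_of_commuting (T : Subgroup G) htwo hfix y (z : Q) hyzG
        (hQord _ y.2 hy1) (hQord _ (z : Q).2 hzne') (hQord _ (y * (z : Q) : Q).2 hyz1)
        (hQord _ (y * (z : Q) ^ 2 : Q).2 hyz2) a ha
    have hk1' : k = 1 := by omega
    rw [← hcardQ, hk, hk1', pow_one]
  · left
    -- an involution outside `T`
    obtain ⟨c, hcc, hcT⟩ : ∃ c : G, c * c = 1 ∧ c ∉ (T : Subgroup G) := by
      by_contra hall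
      push Not at hall
      apply hn
      refine ⟨fun t ht g => hall _ ?_⟩
      have e : g * t * g⁻¹ * (g * t * g⁻¹) = g * (t * t) * g⁻¹ := by group
      rw [e, htwo t ht]
      group
    have hord3 : ∀ a ∈ (T : Subgroup G), a ≠ 1 → (a * c) ^ 3 = 1 := by
      intro a ha hne
      rcases hord (a * c) with h1 | h1 | h1
      · exfalso
        have h2 : a * c = 1 := orderOf_eq_one_iff.mp h1
        have h3 : c = a⁻¹ := eq_inv_of_mul_eq_one_right h2
        rw [h3] at hcT
        exact hcT ((T : Subgroup G).inv_mem ha)
      · exfalso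
        have h2 := hinv h1
        have ha2 := htwo a ha
        have h3 : a * c = c * a := by
          have h4 : (a * c) * (a * c) = (a * c) * (c * a) := by
            rw [h2]
            calc (1 : G) = a * a := ha2.symm
              _ = a * (c * c) * a := by rw [hcc, mul_one]
              _ = (a * c) * (c * a) := by group
          exact mul_left_cancel h4
        exact hcT (hcentT a ha hne c h3)
      · exact hcub h1
    have huniq : ∀ a ∈ (T : Subgroup G), ∀ b ∈ (T : Subgroup G), a ≠ 1 → b ≠ 1 → a = b := by
      intro a ha b hb ha1 hb1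
      by_contra hab
      have hab1 : a * b ≠ 1 := by
        intro h1
        apply hab
        have h2 : a = b⁻¹ := eq_inv_of_mul_eq_one_left h1
        rw [h2]
        exact inv_eq_of_mul_eq_one_left (htwo b hb)
      have h1 := coxeter_identity (htwo a ha) (htwo b hb) hcc (hcomm a ha b hb) (hord3 a ha ha1)
        (hord3 b hb hb1) (hord3 _ ((T : Subgroup G).mul_mem ha hb) hab1)
      apply hcT
      rw [h1]
      exact (T : Subgroup G).mul_mem ha hb
    obtain ⟨a, ha, hane⟩ := hTne
    have hcard : Nat.card (T : Subgroup G) = 2 := by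
      have : (T : Subgroup G) = Subgroup.zpowers a := by
        apply le_antisymm
        · intro b hb
          by_cases hb1 : b = 1
          · rw [hb1]; exact Subgroup.one_mem _
          · rw [huniq a ha b hb hane hb1]
            exact Subgroup.mem_zpowers b
        · rw [Subgroup.zpowers_le]
          exact ha
      rw [this, Nat.card_zpowers]
      exact hinT a ha hane
    have hcyc : IsCyclic (T : Subgroup G) := by
      have : Fact (Nat.card (T : Subgroup G)).Prime := ⟨by rw [hcard]; exact Nat.prime_two⟩
      exact isCyclic_of_prime_card rfl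
    have heven : Even (Nat.card G) := by
      rw [even_iff_two_dvd, ← hg2]
      exact orderOf_dvd_natCard g2
    obtain ⟨K, hK⟩ := Cfsg.Agent.Lib.InvolutionIndexTwo.exists_index_two_of_isCyclic_sylow heven T hcyc
    have hKn : K.Normal := Subgroup.normal_of_index_eq_two hK
    have hKodd : ¬ 2 ∣ Nat.card K := by
      intro hd
      have h1 := Subgroup.card_mul_index K
      rw [hK] at h1
      have h2 : 2 * 2 ∣ Nat.card G := by
        rw [← h1]
        exact mul_dvd_mul hd dvd_rfl
      have h3 : Nat.card (T : Subgroup G) = 2 ^ (Nat.card G).factorization 2 := T.card_eq_multiplicity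
      rw [hcard] at h3
      have h4 : (Nat.card G).factorization 2 = 1 := by
        have : (2 : ℕ) ^ 1 = 2 ^ (Nat.card G).factorization 2 := by simpa using h3
        exact (Nat.pow_right_injective (le_refl 2) this).symm
      have h5 : (2 : ℕ) ^ ((Nat.card G).factorization 2 + 1) ∣ Nat.card G := by
        rw [h4]
        simpa using h2
      exact Nat.pow_succ_factorization_not_dvd Nat.card_pos.ne' Nat.prime_two h5
    have hKcub : ∀ k ∈ K, k ^ 3 = 1 := by
      intro k hk
      rcases hord k with h1 | h1 | h1
      · rw [orderOf_eq_one_iff.mp h1, one_pow]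
      · exfalso
        apply hKodd
        rw [← h1]
        exact Subgroup.orderOf_dvd_natCard K hk
      · exact hcub h1
    have hout : ∀ g : G, g ∉ K → g * g = 1 := by
      intro g hg
      rcases hord g with h1 | h1 | h1
      · rw [orderOf_eq_one_iff.mp h1, one_mul]
      · exact hinv h1
      · exfalso
        apply hg
        have h2 : ((g : G) : G ⧸ K) ^ 3 = 1 := by
          rw [← QuotientGroup.mk_pow, hcub h1]
          rfl
        have h3 : ((g : G) : G ⧸ K) ^ 2 = 1 := by
          have h4 : Nat.card (G ⧸ K) = 2 := hK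
          have := pow_card_eq_one' (x := ((g : G) : G ⧸ K))
          rwa [h4] at this
        have h4 : ((g : G) : G ⧸ K) = 1 := by
          have e : ((g : G) : G ⧸ K) ^ 3 = ((g : G) : G ⧸ K) ^ 2 * (g : G ⧸ K) := pow_succ _ 2
          rw [h2, h3, one_mul] at e
          exact e.symm
        exact (QuotientGroup.eq_one_iff g).mp h4
    have hg2K : g2 ∉ K := by
      intro h1
      apply hKodd
      rw [← hg2]
      exact Subgroup.orderOf_dvd_natCard K h1
    have hg2g2 := hinv hg2
    have hinvert : ∀ k ∈ K, g2 * k * g2 = k⁻¹ := by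
      intro k hk
      have h1 : g2 * k ∉ K := by
        intro h2
        apply hg2K
        have h3 := K.mul_mem h2 (K.inv_mem hk)
        have e : g2 * k * k⁻¹ = g2 := by group
        rwa [e] at h3
      have h2 := hout _ h1
      apply eq_inv_of_mul_eq_one_left
      calc g2 * k * g2 * k = g2 * k * (g2 * k) := by group
        _ = 1 := h2
    refine ⟨K, hKn, ⟨⟨⟨fun a b => ?_⟩⟩, hKcub⟩, hK⟩
    apply Subtype.ext
    have h1 := hinvert _ (K.mul_mem a.2 b.2)
    have e : g2 * ((a : G) * b) * g2 = (g2 * a * g2) * (g2 * b * g2) := by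
      calc g2 * ((a : G) * b) * g2 = g2 * a * 1 * b * g2 := by group
        _ = g2 * a * (g2 * g2) * b * g2 := by rw [hg2g2]
        _ = _ := by group
    rw [e, hinvert _ a.2, hinvert _ b.2, mul_inv_rev] at h1
    have h2 : (a : G)⁻¹ * (b : G)⁻¹ = ((b : G) * a)⁻¹ := by group
    rw [h2] at h1
    have h3 : (b : G) * a = (a : G) * b := by
      have := congrArg (·⁻¹) h1
      simpa using this
    exact h3.symm

end Main

/-- A finite group whose set of element orders is exactly {1, 2, 3} has either a normal elementary abelian 3-subgroup of index 2 or a normal elementary abelian 2-subgroup of index 3. -/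
theorem result {G : Type*} [Group G] [Finite G] (h : Set.range (orderOf : G → ℕ) = {k : ℕ | 1 ≤ k ∧ k ≤ 3}) :
    (∃ N : Subgroup G, N.Normal ∧ Cfsg.IsElementaryAbelian 3 N ∧ N.index = 2) ∨
      (∃ N : Subgroup G, N.Normal ∧ Cfsg.IsElementaryAbelian 2 N ∧ N.index = 3) :=
  main h

end Cfsg.Agent.S4005
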