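import Mathlib
import Cfsg.Statements.S4198

set_option autoImplicit false
set_option linter.style.haveILetI false
open Cfsg

namespace Cfsg.Agent.S4198

open Equiv Equiv.Perm

/-- Possible cycle types on `n` points. -/
private def CT (n : ℕ) : Type := {m : Multiset ℕ // m.sum ≤ n ∧ ∀ a ∈ m, 2 ≤ a}

private noncomputable def tyPerm (n : ℕ) (κ : ConjClasses (Perm (Fin n))) : CT n :=
  ⟨(Function.surjInv (ConjClasses.mk_surjective (α := Perm (Fin n))) κ).cycleType,
    by simpa using sum_cycleType_le (Function.surjInv (ConjClasses.mk_surjective (α := Perm (Fin n))) κ),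
    fun _ h => two_le_of_mem_cycleType h⟩

private lemma tyPerm_mk (n : ℕ) (σ : Perm (Fin n)) : (tyPerm n (ConjClasses.mk σ)).1 = σ.cycleType := by
  have h := Function.surjInv_eq (ConjClasses.mk_surjective (α := Perm (Fin n))) (ConjClasses.mk σ)
  rw [ConjClasses.mk_eq_mk_iff_isConj, isConj_iff_cycleType_eq] at h
  exact h

private lemma tyPerm_bijective (n : ℕ) : Function.Bijective (tyPerm n) := by
  constructor
  · intro κ₁ κ₂ h
    obtain ⟨σ₁, rfl⟩ := ConjClasses.mk_surjective κ₁
    obtain ⟨σ₂, rfl⟩ := ConjClasses.mk_surjective κ₂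
    rw [ConjClasses.mk_eq_mk_iff_isConj, isConj_iff_cycleType_eq, ← tyPerm_mk, ← tyPerm_mk, h]
  · rintro ⟨m, hm1, hm2⟩
    obtain ⟨σ, hσ⟩ := (exists_with_cycleType_iff (Fin n)).mpr ⟨by simpa using hm1, hm2⟩
    refine ⟨ConjClasses.mk σ, Subtype.ext ?_⟩
    rw [tyPerm_mk, hσ]

private noncomputable def ctEquiv (n : ℕ) : ConjClasses (Perm (Fin n)) ≃ CT n :=
  Equiv.ofBijective _ (tyPerm_bijective n)

private instance (n : ℕ) : Finite (CT n) := Finite.of_equiv _ (ctEquiv n)

/-- A chosen element of a multiset. -/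
private noncomputable def pick (m : Multiset ℕ) : ℕ :=
  if h : m ≠ 0 then Classical.choose (Multiset.exists_mem_of_ne_zero h) else 0

private lemma pick_mem {m : Multiset ℕ} (h : m ≠ 0) : pick m ∈ m := by
  rw [pick, dif_pos h]
  exact Classical.choose_spec (Multiset.exists_mem_of_ne_zero h)

private lemma card_CT_succ_succ (n : ℕ) :
    Nat.card (CT (n + 2)) ≤ Nat.card (CT (n + 1)) + Nat.card (CT n) := by
  classical
  rw [← Nat.card_sum]
  let f : CT (n + 2) → CT (n + 1) ⊕ CT n := fun m =>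
    if h : m.1.sum ≤ n + 1 then Sum.inl ⟨m.1, h, m.2.2⟩ else
      Sum.inr ⟨m.1.erase (pick m.1), by
        have hm : m.1 ≠ 0 := by
          rintro h0
          rw [h0] at h
          simp at h
        have h1 := pick_mem hm
        have h2 := Multiset.cons_erase h1
        have h3 := congrArg Multiset.sum h2
        rw [Multiset.sum_cons] at h3
        have h4 := m.2.2 _ h1
        have h5 := m.2.1
        omega, fun a ha => m.2.2 a (Multiset.mem_of_mem_erase ha)⟩
  apply Nat.card_le_card_of_injective f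
  intro m₁ m₂ hf
  by_cases h₁ : m₁.1.sum ≤ n + 1 <;> by_cases h₂ : m₂.1.sum ≤ n + 1
  · simp only [f, h₁, h₂, dif_pos] at hf
    have h := Sum.inl.inj hf
    exact Subtype.ext (congrArg (fun z : CT (n + 1) => z.1) h)
  · simp [f, h₁, h₂] at hf
  · simp [f, h₁, h₂] at hf
  · simp only [f, h₁, h₂, dif_neg, not_false_eq_true] at hf
    have he : m₁.1.erase (pick m₁.1) = m₂.1.erase (pick m₂.1) := congrArg Subtype.val (Sum.inr.inj hf)
    have hm₁ : m₁.1 ≠ 0 := by
      rintro h0
      rw [h0] at h₁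
      simp at h₁
    have hm₂ : m₂.1 ≠ 0 := by
      rintro h0
      rw [h0] at h₂
      simp at h₂
    have c₁ := Multiset.cons_erase (pick_mem hm₁)
    have c₂ := Multiset.cons_erase (pick_mem hm₂)
    have s₁ := congrArg Multiset.sum c₁
    have s₂ := congrArg Multiset.sum c₂
    rw [Multiset.sum_cons] at s₁ s₂
    have h5 := m₁.2.1
    have h6 := m₂.2.1
    rw [he] at s₁
    have hp : pick m₁.1 = pick m₂.1 := by omega
    apply Subtype.ext
    rw [← c₁, ← c₂, he, hp]

private lemma card_CT_le_fib (n : ℕ) : Nat.card (CT n) ≤ Nat.fib (n + 1) ∧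
    Nat.card (CT (n + 1)) ≤ Nat.fib (n + 2) := by
  induction n with
  | zero =>
    have h : ∀ k, k ≤ 1 → Nat.card (CT k) ≤ 1 := by
      intro k hk
      rw [Finite.card_le_one_iff_subsingleton]
      constructor
      have hz : ∀ m : CT k, m.1 = 0 := by
        intro m
        by_contra hne
        obtain ⟨a, ha⟩ := Multiset.exists_mem_of_ne_zero hne
        have h1 := m.2.2 a ha
        have h2 := Multiset.single_le_sum (fun x _ => Nat.zero_le x) a ha
        have h3 := m.2.1
        omega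
      intro m₁ m₂
      apply Subtype.ext
      rw [hz, hz]
    exact ⟨by simpa using h 0 (by omega), by simpa using h 1 le_rfl⟩
  | succ n ih =>
    refine ⟨ih.2, ?_⟩
    have h1 := card_CT_succ_succ n
    have h2 : Nat.fib (n + 1 + 2) = Nat.fib (n + 1) + Nat.fib (n + 2) := Nat.fib_add_two
    have e : n + 1 + 1 = n + 2 := rfl
    rw [e]
    omega

private lemma fib_le_two_pow (n : ℕ) : Nat.fib (n + 6) ≤ 2 ^ (n + 3) ∧ Nat.fib (n + 7) ≤ 2 ^ (n + 4) := by
  induction n with
  | zero => decide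
  | succ n ih =>
    refine ⟨ih.2, ?_⟩
    have h2 : Nat.fib (n + 6 + 2) = Nat.fib (n + 6) + Nat.fib (n + 7) := Nat.fib_add_two
    have h3 : n + 1 + 7 = n + 6 + 2 := by ring
    rw [h3, h2]
    have h4 : 2 ^ (n + 1 + 4) = 2 * 2 ^ (n + 4) := by ring
    have h5 : 2 ^ (n + 4) = 2 * 2 ^ (n + 3) := by ring
    omega

/-! ### The alternating group -/

private abbrev An (n : ℕ) := alternatingGroup (Fin n)

private lemma isConj_of_perm {n : ℕ} (x y : An n) (g : Perm (Fin n)) (hg : sign g = 1)
    (h : g * (x : Perm (Fin n)) * g⁻¹ = y) : IsConj x y := by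
  rw [isConj_iff]
  refine ⟨⟨g, Equiv.Perm.mem_alternatingGroup.mpr hg⟩, Subtype.ext ?_⟩
  simpa using h

private lemma exists_perm_conj {n : ℕ} (x y : An n) (h : (x : Perm (Fin n)).cycleType = (y : Perm (Fin n)).cycleType) :
    ∃ g : Perm (Fin n), g * (x : Perm (Fin n)) * g⁻¹ = y := by
  have := isConj_iff_cycleType_eq.mpr h
  exact isConj_iff.mp this

private lemma isConj_of_odd_comm {n : ℕ} (x y : An n) (τ : Perm (Fin n)) (hτ : sign τ = -1)
    (hc : τ * (x : Perm (Fin n)) = x * τ)
    (h : (x : Perm (Fin n)).cycleType = (y : Perm (Fin n)).cycleType) : IsConj x y := by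
  obtain ⟨g, hg⟩ := exists_perm_conj x y h
  rcases Int.units_eq_one_or (sign g) with h1 | h1
  · exact isConj_of_perm x y g h1 hg
  · apply isConj_of_perm x y (g * τ) (by rw [map_mul, h1, hτ]; rfl)
    rw [← hg]
    calc g * τ * (x : Perm (Fin n)) * (g * τ)⁻¹ = g * (τ * x) * τ⁻¹ * g⁻¹ := by group
      _ = g * (x * τ) * τ⁻¹ * g⁻¹ := by rw [hc]
      _ = g * x * g⁻¹ := by group

private lemma isConj_two_classes {n : ℕ} (x y z : An n)
    (h1 : (x : Perm (Fin n)).cycleType = (y : Perm (Fin n)).cycleType)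
    (h2 : (x : Perm (Fin n)).cycleType = (z : Perm (Fin n)).cycleType)
    (hy : ¬ IsConj x y) (hz : ¬ IsConj x z) : IsConj y z := by
  obtain ⟨g, hg⟩ := exists_perm_conj x y h1
  obtain ⟨k, hk⟩ := exists_perm_conj x z h2
  have hg1 : sign g = -1 := by
    rcases Int.units_eq_one_or (sign g) with h | h
    · exact absurd (isConj_of_perm x y g h hg) hy
    · exact h
  have hk1 : sign k = -1 := by
    rcases Int.units_eq_one_or (sign k) with h | h
    · exact absurd (isConj_of_perm x z k h hk) hz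
    · exact h
  apply isConj_of_perm y z (k * g⁻¹) (by
    rw [map_mul, map_inv, hg1, hk1]; rfl)
  rw [← hg, ← hk]
  group

/-- The type of an `A_n` class. -/
private noncomputable def rep {n : ℕ} (κ : ConjClasses (An n)) : An n :=
  Function.surjInv (ConjClasses.mk_surjective (α := An n)) κ

private lemma mk_rep {n : ℕ} (κ : ConjClasses (An n)) : ConjClasses.mk (rep κ) = κ :=
  Function.surjInv_eq (ConjClasses.mk_surjective (α := An n)) κ

private noncomputable def ty {n : ℕ} (κ : ConjClasses (An n)) : Multiset ℕ :=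
  ((rep κ : An n) : Perm (Fin n)).cycleType

private lemma isConj_rep {n : ℕ} (x : An n) : IsConj x (rep (ConjClasses.mk x)) := by
  rw [← ConjClasses.mk_eq_mk_iff_isConj, mk_rep]

private lemma ty_mk {n : ℕ} (x : An n) : ty (ConjClasses.mk x) = (x : Perm (Fin n)).cycleType := by
  obtain ⟨g, hg⟩ := isConj_iff.mp (isConj_rep x)
  unfold ty
  rw [← hg]
  rw [← isConj_iff_cycleType_eq]
  apply IsConj.symm
  rw [isConj_iff]
  refine ⟨g, ?_⟩
  simp

private lemma ty_sum_le {n : ℕ} (κ : ConjClasses (An n)) : (ty κ).sum ≤ n := by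
  unfold ty
  simpa using sum_cycleType_le ((rep κ : An n) : Perm (Fin n))

private lemma ty_two_le {n : ℕ} (κ : ConjClasses (An n)) : ∀ a ∈ ty κ, 2 ≤ a :=
  fun _ h => two_le_of_mem_cycleType h

private lemma ty_even {n : ℕ} (κ : ConjClasses (An n)) : Even ((ty κ).sum + Multiset.card (ty κ)) := by
  have h1 := sign_of_cycleType ((rep κ : An n) : Perm (Fin n))
  have h2 : sign ((rep κ : An n) : Perm (Fin n)) = 1 :=
    Equiv.Perm.mem_alternatingGroup.mp (rep κ).2
  rw [h2] at h1
  have h3 := h1.symm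
  rwa [neg_one_pow_eq_one_iff_even (by decide)] at h3

/-- The cycle types of classes that may split. -/
private def Split (n : ℕ) (s : Multiset ℕ) : Prop :=
  s.Nodup ∧ (∀ a ∈ s, Odd a) ∧ n ≤ s.sum + 1

private lemma isConj_of_not_split {n : ℕ} (x y : An n)
    (hs : ¬ Split n (x : Perm (Fin n)).cycleType)
    (h : (x : Perm (Fin n)).cycleType = (y : Perm (Fin n)).cycleType) : IsConj x y := by
  have hnot : ¬ Subgroup.centralizer {(x : Perm (Fin n))} ≤ alternatingGroup (Fin n) := by
    intro hle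
    apply hs
    refine ⟨?_, OnCycleFactors.odd_of_centralizer_le_alternatingGroup hle, ?_⟩
    · rw [Multiset.nodup_iff_count_le_one]
      exact count_le_one_of_centralizer_le_alternating hle
    · simpa using card_le_of_centralizer_le_alternating hle
  rw [SetLike.not_le_iff_exists] at hnot
  obtain ⟨τ, hτ1, hτ2⟩ := hnot
  apply isConj_of_odd_comm x y τ _ _ h
  · rcases Int.units_eq_one_or (sign τ) with h1 | h1
    · exact absurd (Equiv.Perm.mem_alternatingGroup.mpr h1) hτ2
    · exact h1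
  · exact (Subgroup.mem_centralizer_singleton_iff.mp hτ1)

/-- Replace a chosen odd part `a` by `a - 1`. -/
private noncomputable def psi (s : Multiset ℕ) : Multiset ℕ :=
  (pick s - 1) ::ₘ s.erase (pick s)

private lemma psi_inj {n : ℕ} (hn : 5 ≤ n) {s₁ s₂ : Multiset ℕ} (h₁ : Split n s₁) (h₂ : Split n s₂)
    (h : psi s₁ = psi s₂) : s₁ = s₂ := by
  have hne : ∀ {s : Multiset ℕ}, Split n s → s ≠ 0 := by
    rintro s hs rfl
    have := hs.2.2
    simp at this
    omega
  have hp₁ := pick_mem (hne h₁)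
  have hp₂ := pick_mem (hne h₂)
  have ho₁ := h₁.2.1 _ hp₁
  have ho₂ := h₂.2.1 _ hp₂
  have hev : ∀ {a b : ℕ}, Odd a → Odd b → a - 1 ≠ b := by
    intro a b ha hb
    obtain ⟨k, rfl⟩ := ha
    obtain ⟨l, rfl⟩ := hb
    omega
  have hmem : pick s₁ - 1 ∈ psi s₂ := by
    rw [← h]
    exact Multiset.mem_cons_self _ _
  rw [psi, Multiset.mem_cons] at hmem
  have heq : pick s₁ - 1 = pick s₂ - 1 := by
    rcases hmem with h3 | h3
    · exact h3
    · exact absurd rfl (hev ho₁ (h₂.2.1 _ (Multiset.mem_of_mem_erase h3)))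
  have heq2 : pick s₁ = pick s₂ := by
    obtain ⟨k, hk⟩ := ho₁
    obtain ⟨l, hl⟩ := ho₂
    omega
  rw [psi, psi, heq, Multiset.cons_inj_right] at h
  rw [← Multiset.cons_erase hp₁, ← Multiset.cons_erase hp₂, h, heq2]

private lemma psi_sum {n : ℕ} (hn : 5 ≤ n) {s : Multiset ℕ} (hs : Split n s)
    (hs2 : ∀ a ∈ s, 2 ≤ a) : (psi s).sum + 1 = s.sum ∧ Multiset.card (psi s) = Multiset.card s := by
  have hne : s ≠ 0 := by
    rintro rfl
    have := hs.2.2
    simp at this
    omega
  have hp := pick_mem hne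
  have h2 := hs2 _ hp
  have c := Multiset.cons_erase hp
  constructor
  · have s₁ := congrArg Multiset.sum c
    rw [Multiset.sum_cons] at s₁
    rw [psi, Multiset.sum_cons]
    omega
  · have s₁ := congrArg Multiset.card c
    rw [Multiset.card_cons] at s₁
    rw [psi, Multiset.card_cons]
    omega

private lemma psi_two_le {n : ℕ} (hn : 5 ≤ n) {s : Multiset ℕ} (hs : Split n s)
    (hs2 : ∀ a ∈ s, 2 ≤ a) : ∀ a ∈ psi s, 2 ≤ a := by
  have hne : s ≠ 0 := by
    rintro rfl
    have := hs.2.2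
    simp at this
    omega
  have hp := pick_mem hne
  have h2 := hs2 _ hp
  have ho := hs.2.1 _ hp
  intro a ha
  rw [psi, Multiset.mem_cons] at ha
  rcases ha with rfl | ha
  · obtain ⟨k, hk⟩ := ho
    omega
  · exact hs2 a (Multiset.mem_of_mem_erase ha)

private theorem card_lt (n : ℕ) (hn : 5 ≤ n) :
    Nat.card (ConjClasses (An n)) < Nat.card (CT n) := by
  classical
  -- the base class of a type
  let base : Multiset ℕ → ConjClasses (An n) := Function.invFun ty
  let changed : ConjClasses (An n) → Prop := fun κ => Split n (ty κ) ∧ κ ≠ base (ty κ)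
  let Φ : ConjClasses (An n) → CT n := fun κ =>
    if h : changed κ then
      ⟨psi (ty κ), by
        have := psi_sum hn h.1 (ty_two_le κ)
        have := ty_sum_le κ
        omega, psi_two_le hn h.1 (ty_two_le κ)⟩
    else ⟨ty κ, ty_sum_le κ, ty_two_le κ⟩
  have hbase : ∀ κ, ty (base (ty κ)) = ty κ := fun κ => Function.invFun_eq ⟨κ, rfl⟩
  -- same type implies conjugate when not splitting
  have hsame : ∀ κ₁ κ₂ : ConjClasses (An n), ty κ₁ = ty κ₂ → ¬ Split n (ty κ₁) → κ₁ = κ₂ := by
    intro κ₁ κ₂ h hs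
    have := isConj_of_not_split (rep κ₁) (rep κ₂) hs h
    rw [← mk_rep κ₁, ← mk_rep κ₂]
    exact ConjClasses.mk_eq_mk_iff_isConj.mpr this
  have htwo : ∀ κ₀ κ₁ κ₂ : ConjClasses (An n), ty κ₀ = ty κ₁ → ty κ₀ = ty κ₂ → κ₁ ≠ κ₀ → κ₂ ≠ κ₀ →
      κ₁ = κ₂ := by
    intro κ₀ κ₁ κ₂ h1 h2 h3 h4
    have h5 : ¬ IsConj (rep κ₀) (rep κ₁) := by
      intro h
      apply h3
      rw [← mk_rep κ₀, ← mk_rep κ₁]
      exact (ConjClasses.mk_eq_mk_iff_isConj.mpr h).symm
    have h6 : ¬ IsConj (rep κ₀) (rep κ₂) := by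
      intro h
      apply h4
      rw [← mk_rep κ₀, ← mk_rep κ₂]
      exact (ConjClasses.mk_eq_mk_iff_isConj.mpr h).symm
    have := isConj_two_classes (rep κ₀) (rep κ₁) (rep κ₂) h1 h2 h5 h6
    rw [← mk_rep κ₁, ← mk_rep κ₂]
    exact ConjClasses.mk_eq_mk_iff_isConj.mpr this
  have hinj : Function.Injective Φ := by
    intro κ₁ κ₂ hΦ
    by_cases h₁ : changed κ₁ <;> by_cases h₂ : changed κ₂
    · have h3 : psi (ty κ₁) = psi (ty κ₂) := by
        simpa [Φ, h₁, h₂, Subtype.ext_iff] using congrArg Subtype.val hΦ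
      have h4 := psi_inj hn h₁.1 h₂.1 h3
      apply htwo (base (ty κ₁)) κ₁ κ₂ (hbase κ₁) ((hbase κ₁).trans h4) h₁.2
      rw [h4]
      exact h₂.2
    · have h3 : psi (ty κ₁) = ty κ₂ := by
        simpa [Φ, h₁, h₂, Subtype.ext_iff] using congrArg Subtype.val hΦ
      exfalso
      have e1 := ty_even κ₁
      have e2 := ty_even κ₂
      rw [← h3] at e2
      have e3 := psi_sum hn h₁.1 (ty_two_le κ₁)
      rw [e3.2] at e2
      rw [← e3.1] at e1
      rw [Nat.even_iff] at e1 e2
      omega
    · have h3 : ty κ₁ = psi (ty κ₂) := by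
        simpa [Φ, h₁, h₂, Subtype.ext_iff] using congrArg Subtype.val hΦ
      exfalso
      have e1 := ty_even κ₁
      have e2 := ty_even κ₂
      rw [h3] at e1
      have e3 := psi_sum hn h₂.1 (ty_two_le κ₂)
      rw [e3.2] at e1
      rw [← e3.1] at e2
      rw [Nat.even_iff] at e1 e2
      omega
    · have h3 : ty κ₁ = ty κ₂ := by
        simpa [Φ, h₁, h₂, Subtype.ext_iff] using congrArg Subtype.val hΦ
      by_cases hs : Split n (ty κ₁)
      · have h4 : κ₁ = base (ty κ₁) := by
          by_contra hne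
          exact h₁ ⟨hs, hne⟩
        have h5 : κ₂ = base (ty κ₂) := by
          by_contra hne
          exact h₂ ⟨h3 ▸ hs, hne⟩
        rw [h4, h5, h3]
      · exact hsame κ₁ κ₂ h3 hs
  let t₀ : CT n := ⟨{2}, by simp; omega, by simp⟩
  have hnot : t₀ ∉ Set.range Φ := by
    rintro ⟨κ, hκ⟩
    by_cases h : changed κ
    · have h3 : psi (ty κ) = {2} := by
        simpa [Φ, h, t₀, Subtype.ext_iff] using congrArg Subtype.val hκ
      have e3 := psi_sum hn h.1 (ty_two_le κ)
      rw [h3] at e3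
      have := h.1.2.2
      simp at e3
      omega
    · have h3 : ty κ = {2} := by
        simpa [Φ, h, t₀, Subtype.ext_iff] using congrArg Subtype.val hκ
      have e1 := ty_even κ
      rw [h3] at e1
      simp at e1
      exact absurd e1 (by decide)
  have hns : ¬ Function.Surjective Φ := fun h => hnot (h t₀)
  haveI : Fintype (ConjClasses (An n)) := Fintype.ofFinite _
  haveI : Fintype (CT n) := Fintype.ofFinite _
  rw [Nat.card_eq_fintype_card, Nat.card_eq_fintype_card]
  exact Fintype.card_lt_of_injective_not_surjective Φ hinj hns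

/-- For n ≥ 5 the alternating group of degree n has strictly fewer conjugacy classes than the symmetric group of degree n, and the symmetric group of degree n (whose classes correspond to the partitions of n) has at most 2^(n−2) conjugacy classes. -/
theorem result (n : ℕ) (hn : 5 ≤ n) : Nat.card (ConjClasses (alternatingGroup (Fin n))) < Nat.card (ConjClasses (Equiv.Perm (Fin n))) ∧ Nat.card (ConjClasses (Equiv.Perm (Fin n))) ≤ 2 ^ (n - 2) := by
  rw [Nat.card_congr (ctEquiv n)]
  refine ⟨card_lt n hn, ?_⟩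
  have h1 := (card_CT_le_fib n).1
  refine h1.trans ?_
  obtain ⟨k, rfl⟩ : ∃ k, n = k + 5 := ⟨n - 5, by omega⟩
  have h2 := (fib_le_two_pow k).1
  have e1 : k + 5 + 1 = k + 6 := rfl
  have e2 : k + 5 - 2 = k + 3 := by omega
  rw [e1, e2]
  exact h2

end Cfsg.Agent.S4198
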