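import Mathlib
import Cfsg.Statements.S4203
import Cfsg.Agent.Lib.BurnsidePQ
import Cfsg.Agent.Lib.MinNormalPrim

set_option autoImplicit false
open Cfsg

namespace Cfsg.Agent.S4203

universe u

/-- Sylow: if `H` contains the normalizer of a Sylow `p`-subgroup, then `|G : H| ≡ 1 (mod p)`. -/
lemma index_modEq_one {N : Type*} [Group N] [Finite N] {p : ℕ} [Fact p.Prime] (P : Sylow p N)
    (H : Subgroup N) (hH : Subgroup.normalizer ((P : Subgroup N) : Set N) ≤ H) :
    H.index ≡ 1 [MOD p] := by
  have hPH : (P : Subgroup N) ≤ H := Subgroup.le_normalizer.trans hH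
  have h1 : Nat.card (Sylow p N) ≡ 1 [MOD p] := card_sylow_modEq_one p N
  have h2 : Nat.card (Sylow p H) ≡ 1 [MOD p] := card_sylow_modEq_one p H
  have h3 : Nat.card (Sylow p N) = (Subgroup.normalizer ((P : Subgroup N) : Set N)).index :=
    Sylow.card_eq_index_normalizer P
  have h4 : Nat.card (Sylow p H) = (Subgroup.normalizer ((P.subtype hPH : Sylow p H) : Set H)).index :=
    Sylow.card_eq_index_normalizer (P.subtype hPH)
  have h5 : (Subgroup.normalizer ((P.subtype hPH : Sylow p H) : Set H)) =
      (Subgroup.normalizer ((P : Subgroup N) : Set N)).subgroupOf H := by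
    have := Subgroup.subgroupOf_normalizer_eq (H := (P : Subgroup N)) (N := H) hPH
    rw [this]
    rfl
  have h6 : (Subgroup.normalizer ((P : Subgroup N) : Set N)).index =
      Nat.card (Sylow p H) * H.index := by
    rw [h4, h5]
    exact (Subgroup.relIndex_mul_index hH).symm
  have h7 : Nat.card (Sylow p N) = Nat.card (Sylow p H) * H.index := by rw [h3, h6]
  have h8 : Nat.card (Sylow p H) * H.index ≡ 1 * H.index [MOD p] := Nat.ModEq.mul_right _ h2
  rw [one_mul, ← h7] at h8
  exact h8.symm.trans h1

/-- A perfect group has no subgroup of index `4`. -/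
lemma no_index_four {N : Type u} [Group N] [Finite N] (hperf : commutator N = ⊤) (H : Subgroup N)
    (h4 : H.index = 4) : False := by
  classical
  have hcardq : Nat.card (N ⧸ H) = 4 := h4
  let φ : N →* Equiv.Perm (N ⧸ H) := MulAction.toPermHom N (N ⧸ H)
  have hT : Nat.card φ.range ∣ 24 := by
    have h1 : Nat.card φ.range ∣ Nat.card (Equiv.Perm (N ⧸ H)) := Subgroup.card_subgroup_dvd_card _
    have h2 : Nat.card (Equiv.Perm (N ⧸ H)) = 24 := by
      have := Fintype.ofFinite (N ⧸ H)
      rw [Nat.card_eq_fintype_card, Fintype.card_perm, ← Nat.card_eq_fintype_card, hcardq]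
      rfl
    rwa [h2] at h1
  have hsolv : Group.IsSolvable φ.range := by
    have h24 : (24 : ℕ) = 2 ^ 3 * 3 ^ 1 := by norm_num
    rw [h24] at hT
    obtain ⟨a, b, hab⟩ := Cfsg.Agent.Lib.BurnsidePQ.exists_pow_mul_pow_of_dvd Nat.prime_two Nat.prime_three hT
    exact Cfsg.Agent.Lib.BurnsidePQ.isSolvable_of_card_eq 2 3 Nat.prime_two Nat.prime_three _ φ.range rfl ⟨a, b, hab⟩
  have hsub : Subsingleton φ.range := by
    by_contra hnt
    have hnt' : Nontrivial φ.range := not_subsingleton_iff_nontrivial.mp hnt
    have hlt := Group.IsSolvable.commutator_lt_top_of_nontrivial φ.range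
    apply ne_of_lt hlt
    have hsurj : Function.Surjective φ.rangeRestrict := φ.rangeRestrict_surjective
    have h := Subgroup.map_commutator (⊤ : Subgroup N) ⊤ φ.rangeRestrict
    rw [Subgroup.map_top_of_surjective _ hsurj] at h
    have h2 : ⁅(⊤ : Subgroup N), (⊤ : Subgroup N)⁆ = ⊤ := hperf
    rw [h2, Subgroup.map_top_of_surjective _ hsurj] at h
    exact h.symm
  have hHtop : H = ⊤ := by
    rw [eq_top_iff]
    intro g _
    have hg : φ g = 1 := by
      have h1 : φ.rangeRestrict g = 1 := Subsingleton.elim _ _
      exact congrArg Subtype.val h1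
    have h2 : (φ g) ((1 : N) : N ⧸ H) = ((1 : N) : N ⧸ H) := by
      rw [hg]; rfl
    have h3 : (g • ((1 : N) : N ⧸ H)) = ((1 : N) : N ⧸ H) := h2
    have h4 : ((g : N) : N ⧸ H) = ((1 : N) : N ⧸ H) := by
      rw [← h3, MulAction.Quotient.smul_mk]
      simp
    have h5 := QuotientGroup.eq.mp h4.symm
    simpa using h5
  rw [hHtop, Subgroup.index_top] at h4
  omega

/-- the hypothesis passes to quotients -/
lemma hyp_quotient {G : Type u} [Group G] (N : Subgroup G) [N.Normal]
    (h : ∀ M : Subgroup G, IsCoatom M → ∃ p : ℕ, p.Prime ∧ (M.index = p ∨ M.index = p ^ 2)) :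
    ∀ M : Subgroup (G ⧸ N), IsCoatom M → ∃ p : ℕ, p.Prime ∧ (M.index = p ∨ M.index = p ^ 2) := by
  intro M hM
  have hs : Function.Surjective (QuotientGroup.mk' N) := QuotientGroup.mk'_surjective N
  have := h (M.comap (QuotientGroup.mk' N)) (Subgroup.isCoatom_comap_of_surjective hs hM)
  rwa [Subgroup.index_comap_of_surjective _ hs] at this

/-- if `A` is normal then `B ⊔ A` has `|B ⊔ A : B| = |A : A ⊓ B|` -/
lemma relIndex_sup_eq {G : Type*} [Group G] [Finite G] (A B : Subgroup G) [A.Normal] :
    B.relIndex (B ⊔ A) = B.relIndex A := by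
  have h1 : A.relIndex (B ⊔ A) = A.relIndex B := Subgroup.relIndex_sup_right B A
  have c1 : A.relIndex (B ⊔ A) * Nat.card A = Nat.card (B ⊔ A : Subgroup G) := by
    have := Subgroup.relIndex_mul_relIndex (⊥ : Subgroup G) A (B ⊔ A) bot_le le_sup_right
    simp only [Subgroup.relIndex_bot_left] at this
    rw [mul_comm]; exact this
  have c2 : A.relIndex B * Nat.card (A ⊓ B : Subgroup G) = Nat.card B := by
    have := Subgroup.relIndex_mul_relIndex (⊥ : Subgroup G) (A ⊓ B) B bot_le inf_le_right
    simp only [Subgroup.relIndex_bot_left, Subgroup.inf_relIndex_right] at this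
    rw [mul_comm]; exact this
  have c3 : B.relIndex A * Nat.card (A ⊓ B : Subgroup G) = Nat.card A := by
    have := Subgroup.relIndex_mul_relIndex (⊥ : Subgroup G) (A ⊓ B) A bot_le inf_le_left
    simp only [Subgroup.relIndex_bot_left, Subgroup.inf_relIndex_left] at this
    rw [mul_comm]; exact this
  have c4 : B.relIndex (B ⊔ A) * Nat.card B = Nat.card (B ⊔ A : Subgroup G) := by
    have := Subgroup.relIndex_mul_relIndex (⊥ : Subgroup G) B (B ⊔ A) bot_le le_sup_left
    simp only [Subgroup.relIndex_bot_left] at this
    rw [mul_comm]; exact this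
  have hpos : 0 < Nat.card (A ⊓ B : Subgroup G) := Nat.card_pos
  have hposB : 0 < Nat.card B := Nat.card_pos
  apply Nat.eq_of_mul_eq_mul_right (Nat.mul_pos hpos hposB)
  calc B.relIndex (B ⊔ A) * (Nat.card (A ⊓ B : Subgroup G) * Nat.card B)
      = (B.relIndex (B ⊔ A) * Nat.card B) * Nat.card (A ⊓ B : Subgroup G) := by ring
    _ = Nat.card (B ⊔ A : Subgroup G) * Nat.card (A ⊓ B : Subgroup G) := by rw [c4]
    _ = (A.relIndex B * Nat.card A) * Nat.card (A ⊓ B : Subgroup G) := by rw [← c1, h1]
    _ = Nat.card A * (A.relIndex B * Nat.card (A ⊓ B : Subgroup G)) := by ring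
    _ = Nat.card A * Nat.card B := by rw [c2]
    _ = (B.relIndex A * Nat.card (A ⊓ B : Subgroup G)) * Nat.card B := by rw [c3]
    _ = B.relIndex A * (Nat.card (A ⊓ B : Subgroup G) * Nat.card B) := by ring

theorem main : ∀ (m : ℕ) (G : Type u) [Group G] [Finite G], Nat.card G = m →
    (∀ M : Subgroup G, IsCoatom M → ∃ p : ℕ, p.Prime ∧ (M.index = p ∨ M.index = p ^ 2)) →
    Group.IsSolvable G := by
  intro m
  induction m using Nat.strong_induction_on with
  | _ m ih =>
    intro G _ _ hm h
    by_cases htriv : Subsingleton G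
    · infer_instance
    have hnt : Nontrivial G := not_subsingleton_iff_nontrivial.mp htriv
    obtain ⟨N, hN0, hNbot, hNmin⟩ := Cfsg.Agent.Lib.MinNormalPrim.exists_minNormal (G := G)
    have hNorm : N.Normal := hN0
    -- the quotient is solvable
    have hQ : Group.IsSolvable (G ⧸ N) := by
      have hcard : Nat.card G = Nat.card N * Nat.card (G ⧸ N) := by
        rw [← Subgroup.index_eq_card]; exact N.card_mul_index.symm
      have hN1 : 1 < Nat.card N := by
        have := Subgroup.one_lt_card_iff_ne_bot N
        exact this.mpr hNbot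
      have hQpos : 0 < Nat.card (G ⧸ N) := Nat.card_pos
      refine ih (Nat.card (G ⧸ N)) ?_ (G ⧸ N) rfl (hyp_quotient N h)
      rw [← hm, hcard]
      nlinarith
    by_contra hns
    have hNns : ¬ Group.IsSolvable N := fun hs =>
      hns ((Group.isSolvable_iff_subgroup_quotient N).mpr ⟨hs, hQ⟩)
    -- `N` is perfect
    have hcommN : ⁅N, N⁆ = N := by
      rcases hNmin ⁅N, N⁆ inferInstance (Subgroup.commutator_le_self N) with h0 | h0
      · exfalso
        apply hNns
        apply Group.isSolvable_of_comm
        intro a b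
        have := Subgroup.commutator_mem_commutator a.2 b.2
        rw [h0, Subgroup.mem_bot, commutatorElement_eq_one_iff_mul_comm] at this
        exact Subtype.ext this
      · exact h0
    have hperf : commutator N = ⊤ := by
      have h1 := Subgroup.map_subtype_commutator N
      rw [hcommN] at h1
      rw [eq_top_iff]
      intro x _
      have : (x : G) ∈ (commutator N).map N.subtype := by
        rw [h1]; exact x.2
      obtain ⟨y, hy, hyx⟩ := this
      have : y = x := Subtype.ext hyx
      rwa [← this]
    -- the largest prime dividing `|N|`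
    have hN1 : Nat.card N ≠ 1 := by
      intro h1
      exact hNbot (Subgroup.card_eq_one.mp h1) 
    have hne : (Nat.card N).primeFactors.Nonempty := by
      rw [Nat.nonempty_primeFactors]
      exact lt_of_le_of_ne Nat.card_pos (Ne.symm hN1)
    let p := (Nat.card N).primeFactors.max' hne
    have hpmem : p ∈ (Nat.card N).primeFactors := Finset.max'_mem _ hne
    have hpp : p.Prime := Nat.prime_of_mem_primeFactors hpmem
    have hpd : p ∣ Nat.card N := Nat.dvd_of_mem_primeFactors hpmem
    have hmax : ∀ q : ℕ, q.Prime → q ∣ Nat.card N → q ≤ p := fun q hq hqd =>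
      Finset.le_max' _ q (Nat.mem_primeFactors.mpr ⟨hq, hqd, Nat.card_pos.ne'⟩)
    haveI : Fact p.Prime := ⟨hpp⟩
    obtain ⟨P⟩ : Nonempty (Sylow p N) := inferInstance
    let P0 : Subgroup G := (P : Subgroup N).map N.subtype
    have hsup : Subgroup.normalizer (P0 : Set G) ⊔ N = ⊤ := Sylow.normalizer_sup_eq_top P
    have hP0bot : P0 ≠ ⊥ := by
      intro h0
      have h1 : (P : Subgroup N) = ⊥ := by
        rw [Subgroup.map_eq_bot_iff_of_injective _ N.subtype_injective] at h0
        exact h0
      exact Sylow.ne_bot_of_dvd_card P hpd h1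
    have hP0N : P0 ≤ N := by
      rintro _ ⟨y, _, rfl⟩
      exact y.2
    have hLtop : Subgroup.normalizer (P0 : Set G) ≠ ⊤ := by
      intro h0
      have hP0normal : P0.Normal := Subgroup.normalizer_eq_top_iff.mp h0
      rcases hNmin P0 hP0normal hP0N with h1 | h1
      · exact hP0bot h1
      · apply hNns
        have hpg : IsPGroup p N := by
          have h2 : (P : Subgroup N) = ⊤ := by
            rw [eq_top_iff]
            intro x _
            have : (x : G) ∈ P0 := by rw [h1]; exact x.2
            obtain ⟨y, hy, hyx⟩ := this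
            have : y = x := Subtype.ext hyx
            rwa [← this]
          intro x
          obtain ⟨k, hk⟩ := P.isPGroup' ⟨x, by rw [h2]; trivial⟩
          exact ⟨k, by simpa [Subtype.ext_iff] using hk⟩
        haveI := hpg.isNilpotent
        infer_instance
    -- a maximal subgroup containing the normalizer
    obtain ⟨M, hMc, hLM⟩ := (eq_top_or_exists_le_coatom (Subgroup.normalizer (P0 : Set G))).resolve_left hLtop
    have hMN : M ⊔ N = ⊤ := by
      rw [eq_top_iff, ← hsup]
      exact sup_le_sup_right hLM N
    obtain ⟨r, hr, hidx⟩ := h M hMc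
    let H : Subgroup N := M.subgroupOf N
    have hHidx : H.index = M.index := by
      have h1 := relIndex_sup_eq N M
      rw [hMN, Subgroup.relIndex_top_right] at h1
      exact h1.symm
    have hnorm : Subgroup.normalizer ((P : Subgroup N) : Set N) ≤ H := by
      intro x hx
      show (x : G) ∈ M
      apply hLM
      rw [Subgroup.mem_normalizer_iff] at hx ⊢
      intro y
      constructor
      · rintro ⟨w, hw, rfl⟩
        exact ⟨x * w * x⁻¹, (hx w).mp hw, by simp⟩
      · rintro ⟨w, hw, hwy⟩
        have hwN : (x⁻¹ * w * x) ∈ (P : Subgroup N) := by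
          rw [hx (x⁻¹ * w * x)]
          have e : x * (x⁻¹ * w * x) * x⁻¹ = w := by group
          rw [e]
          exact hw
        refine ⟨x⁻¹ * w * x, hwN, ?_⟩
        simp only [Subgroup.subtype_apply, Subgroup.coe_mul, Subgroup.coe_inv]
        rw [show (w : G) = (x : G) * y * (x : G)⁻¹ from by simpa using hwy]
        group
    have hmod := index_modEq_one P H hnorm
    rw [hHidx] at hmod
    have hdvd : M.index ∣ Nat.card N := by
      rw [← hHidx]
      exact Subgroup.index_dvd_card H
    have hp2 := hpp.two_le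
    have hr2 := hr.two_le
    rcases hidx with h1 | h1
    · -- index `r`
      rw [h1] at hmod hdvd
      have hrp := hmax r hr hdvd
      have h1mod : 1 % p = 1 := Nat.mod_eq_of_lt (by omega)
      have hmod' : r % p = 1 := by rw [← h1mod]; exact hmod
      rcases eq_or_lt_of_le hrp with h2 | h2
      · rw [h2, Nat.mod_self] at hmod'
        omega
      · rw [Nat.mod_eq_of_lt h2] at hmod'
        omega
    · rw [h1] at hmod hdvd
      have hrd : r ∣ Nat.card N := (dvd_pow_self r (by norm_num)).trans hdvd
      have hrp := hmax r hr hrd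
      have h1mod : 1 % p = 1 := Nat.mod_eq_of_lt (by omega)
      have hrnep : r ≠ p := by
        intro h2
        have h3 : r ^ 2 % p = 1 := by rw [← h1mod]; exact hmod
        rw [h2, pow_two, Nat.mul_mod_left] at h3
        omega
      have hlt : r < p := lt_of_le_of_ne hrp hrnep
      have hdv : p ∣ (r - 1) * (r + 1) := by
        have h3 : p ∣ r ^ 2 - 1 := (Nat.modEq_iff_dvd' (Nat.one_le_pow _ _ (by omega))).mp hmod.symm
        have h4 : r ^ 2 - 1 = (r - 1) * (r + 1) := by
          obtain ⟨t, rfl⟩ : ∃ t, r = t + 1 := ⟨r - 1, by omega⟩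
          simp only [Nat.add_sub_cancel]
          have : (t + 1) ^ 2 = t * (t + 1 + 1) + 1 := by ring
          rw [this]; simp
        rwa [h4] at h3
      rcases (Nat.Prime.dvd_mul hpp).mp hdv with h3 | h3
      · have := Nat.le_of_dvd (by omega) h3
        omega
      · have h4 := Nat.le_of_dvd (by omega) h3
        have h5 : p = r + 1 := by omega
        have hr2' : r = 2 := by
          rcases hr.eq_two_or_odd with h6 | h6
          · exact h6
          · exfalso
            have h7 : 2 ∣ p := by
              rw [h5]; omega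
            have h8 := (Nat.prime_dvd_prime_iff_eq Nat.prime_two hpp).mp h7
            omega
        subst hr2'
        have h4idx : H.index = 4 := by rw [hHidx, h1]; norm_num
        exact no_index_four hperf H h4idx

/-- A finite group in which every maximal subgroup has index a prime or the square of a prime is solvable. -/
theorem result {G : Type*} [Group G] [Finite G] (h : ∀ M : Subgroup G, IsCoatom M → ∃ p : ℕ, p.Prime ∧ (M.index = p ∨ M.index = p ^ 2)) : Group.IsSolvable G :=
  main _ G rfl h

end Cfsg.Agent.S4203
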