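import Mathlib
import Cfsg.Statements.S4204

set_option autoImplicit false
open Cfsg
open scoped commutatorElement

namespace Cfsg.Agent.S4204

variable {G : Type*} [Group G]

/-- the lower central series of `S` with `⊤` prepended -/
def ext (S : Subgroup G) : ℕ → Subgroup G
  | 0 => ⊤
  | a + 1 => S.lowerCentralSeries a

lemma lcs_normal (S : Subgroup G) [S.Normal] (n : ℕ) : (S.lowerCentralSeries n).Normal := by
  induction n with
  | zero => simpa
  | succ n ih =>
    rw [Subgroup.lowerCentralSeries_succ]
    infer_instance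

lemma ext_normal (S : Subgroup G) [S.Normal] (n : ℕ) : (ext S n).Normal := by
  cases n with
  | zero => exact (inferInstance : (⊤ : Subgroup G).Normal)
  | succ n => exact lcs_normal S n

lemma comm_ext_le (S : Subgroup G) [S.Normal] (a : ℕ) : ⁅ext S a, S⁆ ≤ ext S (a + 1) := by
  cases a with
  | zero => exact Subgroup.commutator_le_right _ _
  | succ a => exact le_rfl

lemma ext_antitone (S : Subgroup G) [S.Normal] : Antitone (ext S) := by
  refine antitone_nat_of_succ_le fun n => ?_
  cases n with
  | zero => exact le_top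
  | succ n => exact S.lowerCentralSeries_antitone (Nat.le_succ n)

/-- the subgroup `⨆_{a+b=n+1} ext H a ⊓ ext K b` -/
def T (H K : Subgroup G) (n : ℕ) : Subgroup G :=
  ⨆ p : {p : ℕ × ℕ // p.1 + p.2 = n + 1}, ext H p.1.1 ⊓ ext K p.1.2

lemma T_normal (H K : Subgroup G) [H.Normal] [K.Normal] (n : ℕ) : (T H K n).Normal := by
  unfold T
  have : ∀ p : {p : ℕ × ℕ // p.1 + p.2 = n + 1}, (ext H p.1.1 ⊓ ext K p.1.2).Normal := fun p => by
    have := ext_normal H p.1.1
    have := ext_normal K p.1.2
    exact Subgroup.normal_inf_normal _ _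
  exact Subgroup.iSup_normal _

/-- those `y` whose commutator with `z` lies in the normal subgroup `N` -/
def Cn (N : Subgroup G) [N.Normal] (z : G) : Subgroup G :=
  (Subgroup.centralizer {(QuotientGroup.mk z : G ⧸ N)}).comap (QuotientGroup.mk' N)

lemma mem_Cn (N : Subgroup G) [N.Normal] (z y : G) : y ∈ Cn N z ↔ ⁅z, y⁆ ∈ N := by
  unfold Cn
  rw [Subgroup.mem_comap, Subgroup.mem_centralizer_iff, ← QuotientGroup.eq_one_iff, commutatorElement_def]
  simp only [Set.mem_singleton_iff, forall_eq, QuotientGroup.mk'_apply]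
  constructor
  · intro h
    simp only [QuotientGroup.mk_mul, QuotientGroup.mk_inv]
    rw [h]; group
  · intro h
    simp only [QuotientGroup.mk_mul, QuotientGroup.mk_inv] at h
    have h2 : (QuotientGroup.mk z : G ⧸ N) * QuotientGroup.mk y * (QuotientGroup.mk z)⁻¹ * (QuotientGroup.mk y)⁻¹ * (QuotientGroup.mk y * QuotientGroup.mk z) = 1 * (QuotientGroup.mk y * QuotientGroup.mk z) := by rw [h]
    simpa [mul_assoc] using h2

lemma step (H K : Subgroup G) [H.Normal] [K.Normal] (n : ℕ) :
    ⁅T H K n, H ⊔ K⁆ ≤ T H K (n + 1) := by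
  have := T_normal H K (n + 1)
  rw [Subgroup.commutator_le]
  intro x hx y hy
  have h1 : T H K n ≤ Cn (T H K (n + 1)) y := by
    refine (iSup_le ?_ : (⨆ p : {p : ℕ × ℕ // p.1 + p.2 = n + 1}, ext H p.1.1 ⊓ ext K p.1.2) ≤ _)
    rintro ⟨⟨a, b⟩, hab⟩ x' hx'
    have hxa : x' ∈ ext H a := hx'.1
    have hxb : x' ∈ ext K b := hx'.2
    simp only at hab
    rw [mem_Cn, ← commutatorElement_inv]
    apply Subgroup.inv_mem
    rw [← mem_Cn]
    have := ext_normal H a
    have := ext_normal H (a + 1)
    have := ext_normal K b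
    have := ext_normal K (b + 1)
    have hH : H ≤ Cn (T H K (n + 1)) x' := by
      intro h hh
      rw [mem_Cn]
      have h3 : ⁅x', h⁆ ∈ ext H (a + 1) ⊓ ext K b := by
        constructor
        · exact comm_ext_le H a (Subgroup.commutator_mem_commutator hxa hh)
        · exact Subgroup.commutator_le_left (ext K b) H (Subgroup.commutator_mem_commutator hxb hh)
      exact (le_iSup (fun p : {p : ℕ × ℕ // p.1 + p.2 = n + 1 + 1} => ext H p.1.1 ⊓ ext K p.1.2)
        ⟨(a + 1, b), by simp only; omega⟩) h3
    have hK : K ≤ Cn (T H K (n + 1)) x' := by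
      intro h hh
      rw [mem_Cn]
      have h3 : ⁅x', h⁆ ∈ ext H a ⊓ ext K (b + 1) := by
        constructor
        · exact Subgroup.commutator_le_left (ext H a) K (Subgroup.commutator_mem_commutator hxa hh)
        · exact comm_ext_le K b (Subgroup.commutator_mem_commutator hxb hh)
      exact (le_iSup (fun p : {p : ℕ × ℕ // p.1 + p.2 = n + 1 + 1} => ext H p.1.1 ⊓ ext K p.1.2)
        ⟨(a, b + 1), by simp only; omega⟩) h3
    exact (sup_le hH hK) hy
  have h2 := h1 hx
  rw [mem_Cn, ← commutatorElement_inv] at h2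
  simpa using Subgroup.inv_mem _ h2

lemma lcs_le (H K : Subgroup G) [H.Normal] [K.Normal] (n : ℕ) :
    (H ⊔ K).lowerCentralSeries n ≤ T H K n := by
  induction n with
  | zero =>
    rw [Subgroup.lowerCentralSeries_zero]
    refine sup_le ?_ ?_
    · have := le_iSup (fun p : {p : ℕ × ℕ // p.1 + p.2 = 0 + 1} => ext H p.1.1 ⊓ ext K p.1.2)
        ⟨(1, 0), by simp⟩
      refine le_trans ?_ this
      simp [ext]
    · have := le_iSup (fun p : {p : ℕ × ℕ // p.1 + p.2 = 0 + 1} => ext H p.1.1 ⊓ ext K p.1.2)
        ⟨(0, 1), by simp⟩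
      refine le_trans ?_ this
      simp [ext]
  | succ n ih =>
    rw [Subgroup.lowerCentralSeries_succ]
    exact (Subgroup.commutator_mono ih le_rfl).trans (step H K n)

/-- If `H` and `K` are normal subgroups of a finite group with `H` nilpotent of class at most `c` and `K` nilpotent of class at most `d` (the terms with index `c`, respectively `d`, of their lower central series are trivial, indices starting at `0`), then `HK` is nilpotent of class at most `c + d`. -/
theorem result {G : Type*} [Group G] [Finite G] (H K : Subgroup G) [H.Normal] [K.Normal] (c d : ℕ) (hH : H.lowerCentralSeries c = ⊥) (hK : K.lowerCentralSeries d = ⊥) : (H ⊔ K).lowerCentralSeries (c + d) = ⊥ := by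
  rw [eq_bot_iff]
  refine (lcs_le H K (c + d)).trans ?_
  unfold T
  refine iSup_le ?_
  rintro ⟨⟨a, b⟩, hab⟩
  simp only at hab ⊢
  by_cases hc : c + 1 ≤ a
  · refine inf_le_left.trans ((ext_antitone H hc).trans ?_)
    exact hH.le
  · have hd : d + 1 ≤ b := by omega
    refine inf_le_right.trans ((ext_antitone K hd).trans ?_)
    exact hK.le

end Cfsg.Agent.S4204
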