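import Mathlib
import Cfsg.Statements.S4205

set_option autoImplicit false
open Cfsg

namespace Cfsg.Agent.S4205

/-- In a finite group whose upper central series reaches the whole group at step `c` (nilpotent of class at most `c`), starting from any subgroup and taking normalizers `c` times reaches the whole group. -/
theorem result {G : Type*} [Group G] [Finite G] (c : ℕ) (hG : Subgroup.upperCentralSeries G c = ⊤) (H : Subgroup G) : (fun K : Subgroup G => Subgroup.normalizer (K : Set G))^[c] H = ⊤ := by
  have key : ∀ n : ℕ, Subgroup.upperCentralSeries G n ≤
      (fun K : Subgroup G => Subgroup.normalizer (K : Set G))^[n] H := by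
    intro n
    induction n with
    | zero =>
      rw [Subgroup.upperCentralSeries_zero]
      exact bot_le
    | succ n ih =>
      rw [Function.iterate_succ_apply']
      set K := (fun K : Subgroup G => Subgroup.normalizer (K : Set G))^[n] H with hK
      have hcomm : ∀ z ∈ Subgroup.upperCentralSeries G (n + 1), ∀ h : G, h ∈ K → z * h * z⁻¹ ∈ K := by
        intro z hz h hh
        rw [Subgroup.mem_upperCentralSeries_succ_iff] at hz
        have h1 := K.mul_mem (ih (hz h)) hh
        simpa [commutatorElement_def] using h1
      intro z hz
      show z ∈ Subgroup.normalizer (K : Set G)
      rw [Subgroup.mem_normalizer_iff]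
      intro h
      constructor
      · exact hcomm z hz h
      · intro hh
        have h2 := hcomm z⁻¹ (Subgroup.inv_mem _ hz) _ hh
        simpa [mul_assoc] using h2
  have := key c
  rw [hG] at this
  exact top_le_iff.mp this

end Cfsg.Agent.S4205
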