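import Mathlib
import Cfsg.Statements.S4207
import Cfsg.Agent.Lib.Frat
import Cfsg.Agent.Lib.SelfCent

set_option autoImplicit false
open Cfsg

namespace Cfsg.Agent.S4207

/-- Let `P` be a group of order `p^n` whose Frattini subgroup has index `p^r`. Then any group of automorphisms of `P` each of which induces the identity on the Frattini quotient has order dividing `p^(r(n-r))`; in particular it is a `p`-group. -/
theorem result {P : Type*} [Group P] [Finite P] {p n r : ℕ} [Fact p.Prime] (hP : Nat.card P = p ^ n) (hr : (frattini P).index = p ^ r) (A : Subgroup (MulAut P)) (hA : ∀ α ∈ A, ∀ x : P, α x * x⁻¹ ∈ frattini P) : Nat.card A ∣ p ^ (r * (n - r)) := by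
  classical
  have hG : IsPGroup p P := IsPGroup.of_card hP
  have := Fintype.ofFinite P
  obtain ⟨T, -, hTcard, hTgen⟩ := (Cfsg.Agent.Lib.Frat.burnside_basis hG hr).1 Finset.univ (by simp)
  -- the order of the Frattini subgroup
  have hΦ : Nat.card (frattini P) = p ^ (n - r) := by
    have h1 : Nat.card (frattini P) * p ^ r = p ^ n := by
      rw [← hr, ← hP]; exact (frattini P).card_mul_index
    have h2 : Nat.card (frattini P) ∣ p ^ n := ⟨_, h1.symm⟩
    obtain ⟨k, hk, hk2⟩ := (Nat.dvd_prime_pow (Fact.out : p.Prime)).mp h2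
    rw [hk2] at h1 ⊢
    rw [← pow_add] at h1
    have h3 : k + r = n := Nat.pow_right_injective (Fact.out : p.Prime).two_le h1
    congr 1
    omega
  have hchar : ∀ (α : MulAut P), ∀ x ∈ frattini P, α x ∈ frattini P := by
    intro α x hx
    have h := (inferInstance : (frattini P).Characteristic).fixed (MulEquiv.symm α)
    rw [← h, Subgroup.mem_comap]
    simpa using hx
  let X := {f : T → P // ∀ t : T, f t * (t : P)⁻¹ ∈ frattini P}
  have hXcard : Nat.card X = p ^ (r * (n - r)) := by
    have e : X ≃ (T → frattini P) :=
      { toFun := fun f t => ⟨f.1 t * (t : P)⁻¹, f.2 t⟩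
        invFun := fun g => ⟨fun t => (g t : P) * (t : P), fun t => by simpa using (g t).2⟩
        left_inv := fun f => by
          apply Subtype.ext
          funext t
          simp
        right_inv := fun g => by
          funext t
          apply Subtype.ext
          simp }
    rw [Nat.card_congr e, Nat.card_fun, hΦ, Nat.card_eq_fintype_card, Fintype.card_coe, hTcard, ← pow_mul, mul_comm]
  letI : MulAction A X :=
    { smul := fun α f => ⟨fun t => α.1 (f.1 t), fun t => by
        have h1 := hchar α.1 _ (f.2 t)
        have h2 := hA α.1 α.2 (t : P)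
        have h3 := (frattini P).mul_mem h1 h2
        have h4 : α.1 (f.1 t * (t : P)⁻¹) * (α.1 (t : P) * (t : P)⁻¹) = α.1 (f.1 t) * (t : P)⁻¹ := by
          rw [map_mul, map_inv]
          group
        rwa [h4] at h3⟩
      one_smul := fun f => by
        apply Subtype.ext
        funext t
        rfl
      mul_smul := fun a b f => by
        apply Subtype.ext
        funext t
        rfl }
  rw [← hXcard]
  apply Cfsg.Agent.Lib.SelfCent.card_dvd_of_free
  intro f α hα
  have hfix : ∀ t : T, α.1 (f.1 t) = f.1 t := by
    intro t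
    have := congrArg (fun g : X => g.1 t) hα
    exact this
  -- the values of `f` generate `P`
  have hgen : Subgroup.closure (Set.range f.1) = ⊤ := by
    apply frattini_nongenerating
    rw [eq_top_iff, ← hTgen, Subgroup.closure_le]
    intro t ht
    have h1 : t = (f.1 ⟨t, ht⟩ * t⁻¹)⁻¹ * f.1 ⟨t, ht⟩ := by group
    rw [h1]
    apply Subgroup.mul_mem
    · exact (le_sup_right : frattini P ≤ _) ((frattini P).inv_mem (f.2 ⟨t, ht⟩))
    · exact (le_sup_left : Subgroup.closure (Set.range f.1) ≤ _) (Subgroup.subset_closure ⟨_, rfl⟩)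
  apply Subtype.ext
  show α.1 = 1
  ext x
  have hx : x ∈ Subgroup.closure (Set.range f.1) := hgen ▸ Subgroup.mem_top x
  have h2 : Set.EqOn (α.1 : P →* P) (MonoidHom.id P) (Set.range f.1) := by
    rintro _ ⟨t, rfl⟩
    exact hfix t
  exact MonoidHom.eqOn_closure h2 hx

end Cfsg.Agent.S4207
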