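import Mathlib
import Cfsg.Statements.S4208
import Cfsg.Agent.S4207
import Cfsg.Agent.Lib.ExtPrim2

set_option autoImplicit false
open Cfsg
open scoped commutatorElement

namespace Cfsg.Agent.S4208

lemma exists_hom_aux {H Q : Type*} [Group H] [Group Q] [Finite Q] (p e : ℕ) [Fact p.Prime]
    (hcomm : ∀ a b : Q, a * b = b * a) (hexp : ∀ x : Q, x ^ p = 1) (hcard : Nat.card Q = p ^ e)
    (ρ : H →* MulAut Q) :
    ∃ φ : H →* Matrix.GeneralLinearGroup (Fin e) (ZMod p), ∀ h, φ h = 1 ↔ ∀ x, ρ h x = x := by
  let : CommGroup Q := { (inferInstance : Group Q) with mul_comm := hcomm }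
  exact Cfsg.Agent.Lib.ExtPrim2.exists_GL_hom p e hexp hcard ρ

/-- Let `P` be a group of order `p^n` whose Frattini subgroup has index `p^r`. Then the order of the automorphism group of `P` divides `p^(r(n-r)) · (p^r - 1)(p^r - p) ⋯ (p^r - p^(r-1))`. -/
theorem result {P : Type*} [Group P] [Finite P] {p n r : ℕ} [Fact p.Prime] (hP : Nat.card P = p ^ n) (hr : (frattini P).index = p ^ r) : Nat.card (MulAut P) ∣ p ^ (r * (n - r)) * ∏ i ∈ Finset.range r, (p ^ r - p ^ i) := by
  classical
  have hG : IsPGroup p P := IsPGroup.of_card hP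
  have hcomm' : commutator P ≤ frattini P := Cfsg.Agent.Lib.Frat.commutator_le_frattini hG
  have hcomm : ∀ a b : P ⧸ frattini P, a * b = b * a := by
    intro a b
    induction a using QuotientGroup.induction_on with | H a => ?_
    induction b using QuotientGroup.induction_on with | H b => ?_
    rw [← QuotientGroup.mk_mul, ← QuotientGroup.mk_mul, QuotientGroup.eq]
    apply hcomm'
    have : (a * b)⁻¹ * (b * a) = ⁅b⁻¹, a⁻¹⁆ := by
      simp [commutatorElement_def]
      group
    rw [this]
    exact Subgroup.commutator_mem_commutator (Subgroup.mem_top _) (Subgroup.mem_top _)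
  have hexp : ∀ x : P ⧸ frattini P, x ^ p = 1 := by
    intro x
    induction x using QuotientGroup.induction_on with | H x => ?_
    rw [← QuotientGroup.mk_pow, QuotientGroup.eq_one_iff]
    exact Cfsg.Agent.Lib.Frat.pow_mem_frattini hG x
  have hcard : Nat.card (P ⧸ frattini P) = p ^ r := hr
  have hchar : ∀ (α : MulAut P), (frattini P).map (α : P →* P) = frattini P := by
    intro α
    have h := (inferInstance : (frattini P).Characteristic).fixed (MulEquiv.symm α)
    conv_rhs => rw [← h]
    exact Subgroup.map_equiv_eq_comap_symm α (frattini P)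
  let ρ : MulAut P →* MulAut (P ⧸ frattini P) :=
    { toFun := fun α => QuotientGroup.congr (frattini P) (frattini P) α (hchar α)
      map_one' := by
        ext x
        induction x using QuotientGroup.induction_on with | H x => ?_
        rfl
      map_mul' := by
        intro a b
        ext x
        induction x using QuotientGroup.induction_on with | H x => ?_
        rfl }
  obtain ⟨φ, hφ⟩ := exists_hom_aux p r hcomm hexp hcard ρ
  have hker : Nat.card φ.ker ∣ p ^ (r * (n - r)) := by
    apply Cfsg.Agent.S4207.result hP hr φ.ker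
    intro α hα x
    have h1 := (hφ α).1 hα (x : P ⧸ frattini P)
    have h2 : ((α x : P) : P ⧸ frattini P) = (x : P ⧸ frattini P) := h1
    rw [QuotientGroup.eq] at h2
    have h3 := (inferInstance : (frattini P).Normal).conj_mem _ ((frattini P).inv_mem h2) (α x)
    have h4 : α x * ((α x)⁻¹ * x)⁻¹ * (α x)⁻¹ = α x * x⁻¹ := by group
    rwa [h4] at h3
  have hrange : Nat.card φ.range ∣ ∏ i ∈ Finset.range r, (p ^ r - p ^ i) := by
    have h1 := Subgroup.card_subgroup_dvd_card φ.range
    rw [Matrix.card_GL_field, Fintype.card_eq_nat_card, Nat.card_zmod,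
      Fin.prod_univ_eq_prod_range (fun i => p ^ r - p ^ i) r] at h1
    exact h1
  have hcardAut : Nat.card (MulAut P) = Nat.card φ.ker * Nat.card φ.range := by
    have h1 := Subgroup.card_eq_card_quotient_mul_card_subgroup φ.ker
    rw [h1, mul_comm, Nat.card_congr (QuotientGroup.quotientKerEquivRange φ).toEquiv]
  rw [hcardAut]
  exact Nat.mul_dvd_mul hker hrange

end Cfsg.Agent.S4208
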