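import Mathlib
import Cfsg.Statements.S4211
import Cfsg.Agent.Lib.OddLocalA
import Cfsg.Agent.Lib.QuatHom
import Cfsg.Agent.Lib.PComplement

set_option autoImplicit false
set_option linter.style.haveILetI false
open Cfsg

namespace Cfsg.Agent.S4211

variable {G : Type*} [Group G]

lemma commute_of_mem_zpowers {x y : G} (h : x ∈ Subgroup.zpowers y) : Commute x y := by
  obtain ⟨k, rfl⟩ := h
  exact (Commute.refl y).zpow_left k

lemma conj_mem (hn : ∀ H : Subgroup G, H.Normal) (x g : G) : g * x * g⁻¹ ∈ Subgroup.zpowers x :=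
  (hn _).conj_mem x (Subgroup.mem_zpowers x) g

/-- the commutator `u v u⁻¹ v⁻¹` lies in both cyclic groups -/
lemma comm_mem_left (hn : ∀ H : Subgroup G, H.Normal) (u v : G) :
    u * v * u⁻¹ * v⁻¹ ∈ Subgroup.zpowers v := by
  exact Subgroup.mul_mem _ (conj_mem hn v u) (Subgroup.inv_mem _ (Subgroup.mem_zpowers v))

lemma comm_mem_right (hn : ∀ H : Subgroup G, H.Normal) (u v : G) :
    u * v * u⁻¹ * v⁻¹ ∈ Subgroup.zpowers u := by
  have h2 : v * u⁻¹ * v⁻¹ ∈ Subgroup.zpowers u := by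
    have h3 := conj_mem hn u⁻¹ v
    rwa [Subgroup.zpowers_inv] at h3
  have e : u * v * u⁻¹ * v⁻¹ = u * (v * u⁻¹ * v⁻¹) := by group
  rw [e]
  exact Subgroup.mul_mem _ (Subgroup.mem_zpowers u) h2

/-- `a ^ k` commutes with `b` iff `c ^ k = 1`. -/
lemma commute_iff (hn : ∀ H : Subgroup G, H.Normal) (a b : G) (k : ℕ) :
    a ^ k * b = b * a ^ k ↔ (a * b * a⁻¹ * b⁻¹) ^ k = 1 := by
  set c : G := a * b * a⁻¹ * b⁻¹ with hc
  have hca : Commute c a := commute_of_mem_zpowers (comm_mem_right hn a b)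
  have h1 : b * a * b⁻¹ = c⁻¹ * a := by
    rw [hc]
    group
  have h2 : b * a ^ k * b⁻¹ = (c⁻¹) ^ k * a ^ k := by
    rw [← conj_pow, h1]
    exact (hca.inv_left).mul_pow k
  constructor
  · intro h
    have h3 : b * a ^ k * b⁻¹ = a ^ k := by
      rw [← h]
      group
    rw [h2] at h3
    have h4 : (c⁻¹) ^ k = 1 := by
      have := mul_right_cancel (b := a ^ k) (a := (c⁻¹) ^ k) (c := 1) (by rw [h3, one_mul])
      exact this
    rw [inv_pow] at h4
    exact inv_eq_one.1 h4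
  · intro h
    have h3 : b * a ^ k * b⁻¹ = a ^ k := by
      rw [h2, inv_pow, h, inv_one, one_mul]
    calc a ^ k * b = (b * a ^ k * b⁻¹) * b := by rw [h3]
      _ = b * a ^ k := by group

/-- The structure of an element of minimal order not commuting with `b`. -/
lemma facts [Finite G] (hn : ∀ H : Subgroup G, H.Normal) (a b : G) (hab : a * b ≠ b * a)
    (hminA : ∀ a' : G, a' * b ≠ b * a' → orderOf a ≤ orderOf a') :
    ∃ p i : ℕ, p.Prime ∧ orderOf a = p ^ i ∧ 0 < i ∧ (∀ k : ℕ, p ∣ k ↔ a ^ k * b = b * a ^ k) ∧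
      orderOf (a * b * a⁻¹ * b⁻¹) = p := by
  classical
  set c : G := a * b * a⁻¹ * b⁻¹ with hc
  have hc1 : c ≠ 1 := by
    intro h
    apply hab
    have h1 : a * b * a⁻¹ = b := mul_inv_eq_one.1 (by rw [hc] at h; exact h)
    calc a * b = (a * b * a⁻¹) * a := by group
      _ = b * a := by rw [h1]
  have ha1 : orderOf a ≠ 1 := by
    rw [Ne, orderOf_eq_one_iff]
    rintro rfl
    simp at hab
  have hapos : 0 < orderOf a := orderOf_pos a
  obtain ⟨p, hp, hpa⟩ := Nat.exists_prime_and_dvd ha1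
  haveI : Fact p.Prime := ⟨hp⟩
  -- smaller order commutes
  have hsmall : ∀ k : ℕ, k ≠ 0 → k ∣ orderOf a → 1 < k → c ^ k = 1 := by
    intro k hk0 hk hk1
    rw [← commute_iff hn a b k]
    by_contra hne
    have h1 := hminA _ hne
    rw [orderOf_pow_of_dvd hk0 hk] at h1
    have h2 : orderOf a / k < orderOf a := Nat.div_lt_self hapos hk1
    omega
  have hcp : c ^ p = 1 := hsmall p hp.ne_zero hpa hp.one_lt
  have hco : orderOf c = p := orderOf_eq_prime hcp hc1
  obtain ⟨i, m, hm, hi⟩ := Nat.exists_eq_pow_mul_and_not_dvd hapos.ne' p hp.ne_one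
  have hm1 : m = 1 := by
    by_contra hm1
    have hm0 : m ≠ 0 := by
      rintro rfl
      exact hm (dvd_zero p)
    have h1 := hsmall m hm0 ⟨p ^ i, by rw [hi, mul_comm]⟩ (by omega)
    apply hm
    rw [← hco]
    exact orderOf_dvd_of_pow_eq_one h1
  rw [hm1, mul_one] at hi
  refine ⟨p, i, hp, hi, ?_, ?_, hco⟩
  · rcases Nat.eq_zero_or_pos i with rfl | h
    · rw [pow_zero] at hi
      exact absurd hi ha1
    · exact h
  · intro k
    rw [commute_iff hn a b k, ← hco]
    exact orderOf_dvd_iff_pow_eq_one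

lemma exists_root {a c : G} {p i : ℕ} (hp : p.Prime) (hoa : orderOf a = p ^ i) (hi : 0 < i)
    (hc : c ∈ Subgroup.zpowers a) (hco : orderOf c = p) :
    ∃ r : ℕ, ¬ p ∣ r ∧ (a ^ r) ^ (p ^ (i - 1)) = c := by
  have hfin : IsOfFinOrder a := by
    rw [← orderOf_pos_iff, hoa]
    exact pow_pos hp.pos i
  obtain ⟨r, rfl⟩ : ∃ r : ℕ, a ^ r = c := by
    have h1 : c ∈ Submonoid.powers a := by
      rw [hfin.mem_powers_iff_mem_zpowers]
      exact hc
    exact (Submonoid.mem_powers_iff _ _).1 h1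
  obtain ⟨i', rfl⟩ : ∃ i', i = i' + 1 := ⟨i - 1, by omega⟩
  have h1 : (a ^ r) ^ p = 1 := by
    rw [← hco]
    exact pow_orderOf_eq_one _
  have h2 : p ^ i' * p ∣ r * p := by
    rw [← pow_succ, ← hoa, ← pow_mul] at *
    exact orderOf_dvd_of_pow_eq_one h1
  obtain ⟨t, rfl⟩ := Nat.dvd_of_mul_dvd_mul_right hp.pos h2
  refine ⟨t, ?_, ?_⟩
  · rintro ⟨u, rfl⟩
    have h3 : a ^ (p ^ i' * (p * u)) = 1 := by
      have : p ^ i' * (p * u) = p ^ (i' + 1) * u := by ring
      rw [this, ← hoa, pow_mul, pow_orderOf_eq_one, one_pow]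
    rw [h3, orderOf_one] at hco
    exact hp.one_lt.ne hco
  · simp only [Nat.add_sub_cancel]
    rw [← pow_mul, mul_comm]

lemma two_mul_choose (n : ℕ) : 2 * n.choose 2 = n * (n - 1) := by
  rw [Nat.choose_two_right]
  exact Nat.mul_div_cancel' (Nat.even_mul_pred_self n).two_dvd

lemma numeric {p j : ℕ} (hp : p.Prime) (hj : 0 < j) (h : ¬ p ∣ (p ^ (j - 1)).choose 2) :
    p = 2 ∧ j = 2 := by
  obtain ⟨j', rfl⟩ : ∃ j', j = j' + 1 := ⟨j - 1, by omega⟩
  simp only [Nat.add_sub_cancel] at h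
  rcases j' with _ | j'
  · simp at h
  have h1 := two_mul_choose (p ^ (j' + 1))
  have hp2 : p = 2 := by
    by_contra hne
    apply h
    have h2 : p ∣ 2 * (p ^ (j' + 1)).choose 2 := by
      rw [h1]
      exact Dvd.dvd.mul_right (dvd_pow_self p (by omega)) _
    have h3 : Nat.Coprime p 2 := (Nat.coprime_primes hp Nat.prime_two).2 hne
    exact h3.dvd_of_dvd_mul_left h2
  refine ⟨hp2, ?_⟩
  subst hp2
  rcases j' with _ | j'
  · rfl
  exfalso
  apply h
  have h2 : 2 * 2 ∣ 2 * (2 ^ (j' + 1 + 1)).choose 2 := by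
    rw [h1, pow_succ, pow_succ]
    have h4 : 2 ^ j' * 2 * 2 = 2 * 2 * 2 ^ j' := by ring
    rw [h4, mul_assoc (2 * 2)]
    exact Dvd.intro _ rfl
  exact Nat.dvd_of_mul_dvd_mul_left (by norm_num) h2

lemma core [Finite G] (hn : ∀ H : Subgroup G, H.Normal) (a b : G) {p i j : ℕ} (hp : p.Prime)
    (hoa : orderOf a = p ^ i) (hob : orderOf b = p ^ j) (hi : 0 < i) (hj : 0 < j) (hji : j ≤ i)
    (hA : ∀ k : ℕ, p ∣ k ↔ a ^ k * b = b * a ^ k) (hB : ∀ k : ℕ, p ∣ k ↔ b ^ k * a = a * b ^ k)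
    (hco : orderOf (a * b * a⁻¹ * b⁻¹) = p)
    (hminB : ∀ b' : G, b' * a ≠ a * b' → orderOf b ≤ orderOf b') : p = 2 ∧ i = 2 ∧ j = 2 := by
  classical
  set c : G := a * b * a⁻¹ * b⁻¹ with hc
  obtain ⟨r, hr, hrc⟩ := exists_root hp hoa hi (comm_mem_right hn a b) hco
  obtain ⟨s, hs, hsc⟩ := exists_root hp hob hj (comm_mem_left hn a b) hco
  set y : G := (a ^ r) ^ (p ^ (i - j)) with hy
  set b' : G := b ^ s with hb'
  have hyN : y ^ (p ^ (j - 1)) = c := by
    rw [hy, ← pow_mul, ← pow_add]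
    rw [show i - j + (j - 1) = i - 1 by omega]
    exact hrc
  have hya : Commute y a := by
    rw [hy, ← pow_mul]
    exact (Commute.refl a).pow_left _
  have hb'a : b' * a ≠ a * b' := by
    intro h
    exact hs ((hB s).2 h)
  set x : G := y * b'⁻¹ with hx
  have hxa : x * a ≠ a * x := by
    intro h
    apply hb'a
    have h1 : y * (b'⁻¹ * a) = y * (a * b'⁻¹) := by
      calc y * (b'⁻¹ * a) = x * a := by rw [hx]; group
        _ = a * x := h
        _ = (a * y) * b'⁻¹ := by rw [hx]; group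
        _ = (y * a) * b'⁻¹ := by rw [hya.eq]
        _ = y * (a * b'⁻¹) := by group
    have h2 := mul_left_cancel h1
    calc b' * a = b' * (a * b'⁻¹) * b' := by group
      _ = b' * (b'⁻¹ * a) * b' := by rw [h2]
      _ = a * b' := by group
  have hle := hminB x hxa
  rw [hob] at hle
  set w : G := b'⁻¹ * y * b'⁻¹⁻¹ * y⁻¹ with hw
  have hwy : Commute w y := commute_of_mem_zpowers (comm_mem_left hn b'⁻¹ y)
  have hwb : Commute w b'⁻¹ := commute_of_mem_zpowers (comm_mem_right hn b'⁻¹ y)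
  have hpow := Cfsg.Agent.Lib.OddLocalA.mul_pow_of_central_comm y b'⁻¹ w (by rw [hw]; group) hwy hwb
    (p ^ (j - 1))
  have hb'N : (b'⁻¹) ^ (p ^ (j - 1)) = c⁻¹ := by
    rw [inv_pow, hsc]
  rw [hyN, hb'N, mul_inv_cancel, one_mul] at hpow
  -- `x ^ N ≠ 1`
  have hxN : x ^ (p ^ (j - 1)) ≠ 1 := by
    intro h1
    have h2 := orderOf_dvd_of_pow_eq_one h1
    have h3 := Nat.le_of_dvd (pow_pos hp.pos _) h2
    have h4 : p ^ (j - 1) < p ^ j := Nat.pow_lt_pow_right hp.one_lt (by omega)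
    omega
  have hwk : w ^ (p ^ (j - 1)).choose 2 ≠ 1 := by
    rw [← hpow]
    exact hxN
  -- `w ^ p = 1`
  have hwp : w ^ p = 1 := by
    rw [hw, ← commute_iff hn b'⁻¹ y p]
    have h1 : Commute (b ^ p) a := (hB p).1 dvd_rfl
    have h2 : Commute (b ^ p) y := by
      rw [hy, ← pow_mul]
      exact h1.pow_right _
    have h3 : (b'⁻¹) ^ p = ((b ^ p) ^ s)⁻¹ := by
      rw [hb', inv_pow, ← pow_mul, ← pow_mul, mul_comm]
    rw [h3]
    exact ((h2.pow_left s).inv_left).eq
  have hpC : ¬ p ∣ (p ^ (j - 1)).choose 2 := by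
    rintro ⟨t, ht⟩
    apply hwk
    rw [ht, pow_mul, hwp, one_pow]
  obtain ⟨hp2, hj2⟩ := numeric hp hj hpC
  refine ⟨hp2, ?_, hj2⟩
  -- `i = j`
  by_contra hne
  have hlt : j < i := by omega
  apply hwk
  have h5 : Commute y b'⁻¹ := by
    have h6 : Commute (a ^ p) b := (hA p).1 dvd_rfl
    obtain ⟨e, he⟩ : ∃ e, i - j = e + 1 := ⟨i - j - 1, by omega⟩
    have h7 : y = (a ^ p) ^ (r * p ^ e) := by
      rw [hy, he, ← pow_mul, ← pow_mul, pow_succ]
      congr 1
      ring
    rw [h7]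
    exact ((h6.pow_left _).pow_right s).inv_right
  have h8 : w = 1 := by
    rw [hw, mul_assoc (b'⁻¹), inv_inv]
    have h9 : b'⁻¹ * y = y * b'⁻¹ := h5.eq.symm
    calc b'⁻¹ * (y * b') * y⁻¹ = (b'⁻¹ * y) * b' * y⁻¹ := by group
      _ = (y * b'⁻¹) * b' * y⁻¹ := by rw [h9]
      _ = 1 := by group
  rw [h8, one_pow]

lemma sq_of_order_two {a c : G} (hoa : orderOf a = 4) (hc : c ∈ Subgroup.zpowers a)
    (hco : orderOf c = 2) : c = a ^ 2 := by
  have hfin : IsOfFinOrder a := by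
    rw [← orderOf_pos_iff, hoa]
    norm_num
  have h1 : c ∈ Submonoid.powers a := by
    rw [hfin.mem_powers_iff_mem_zpowers]
    exact hc
  obtain ⟨k, rfl⟩ := (Submonoid.mem_powers_iff _ _).1 h1
  have hk : k % 4 = 0 ∨ k % 4 = 1 ∨ k % 4 = 2 ∨ k % 4 = 3 := by omega
  have h4 : a ^ 4 = 1 := by
    rw [← hoa]
    exact pow_orderOf_eq_one a
  have h2ne : a ^ 2 ≠ 1 := by
    intro h
    have := orderOf_dvd_of_pow_eq_one h
    rw [hoa] at this
    omega
  have hred : a ^ k = a ^ (k % 4) := by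
    conv_lhs => rw [← Nat.div_add_mod k 4, pow_add, pow_mul, h4, one_pow, one_mul]
  rw [hred] at hco ⊢
  have hsq : (a ^ (k % 4)) ^ 2 = 1 := by
    rw [← hco]
    exact pow_orderOf_eq_one _
  rcases hk with h | h | h | h <;> rw [h] at hco hsq ⊢
  · simp at hco
  · rw [pow_one] at hsq
    exact absurd hsq h2ne
  · have : (a ^ 3) ^ 2 = a ^ 4 * a ^ 2 := by group
    rw [this, h4, one_mul] at hsq
    exact absurd hsq h2ne

/-- A finite non-abelian group all of whose subgroups are normal contains `Q₈`. -/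
lemma exists_q8 [Finite G] (hn : ∀ H : Subgroup G, H.Normal) (hna : ∃ a b : G, a * b ≠ b * a) :
    ∃ a b : G, orderOf a = 4 ∧ b * b = a ^ 2 ∧ b * a * b⁻¹ = a⁻¹ := by
  classical
  haveI : Nonempty {x : G × G // x.1 * x.2 ≠ x.2 * x.1} := by
    obtain ⟨a, b, hab⟩ := hna
    exact ⟨⟨(a, b), hab⟩⟩
  obtain ⟨⟨⟨a, b⟩, hab⟩, hmin⟩ := Finite.exists_min
    (fun x : {x : G × G // x.1 * x.2 ≠ x.2 * x.1} => orderOf x.1.1 + orderOf x.1.2)
  simp only at hab hmin
  have hminA : ∀ a' : G, a' * b ≠ b * a' → orderOf a ≤ orderOf a' := by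
    intro a' h
    have := hmin ⟨(a', b), h⟩
    simp only at this
    omega
  have hminB : ∀ b' : G, b' * a ≠ a * b' → orderOf b ≤ orderOf b' := by
    intro b' h
    have := hmin ⟨(a, b'), fun h2 => h h2.symm⟩
    simp only at this
    omega
  obtain ⟨p, i, hp, hoa, hi, hA, hco⟩ := facts hn a b hab hminA
  obtain ⟨q, j, hq, hob, hj, hB, hco'⟩ := facts hn b a hab.symm hminB
  have hpq : p = q := by
    have h1 : p ∣ orderOf b := by
      rw [← hco]
      exact orderOf_dvd_of_mem_zpowers (comm_mem_left hn a b)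
    rw [hob] at h1
    exact (Nat.prime_dvd_prime_iff_eq hp hq).1 (hp.dvd_of_dvd_pow h1)
  subst hpq
  have hcases : p = 2 ∧ i = 2 ∧ j = 2 := by
    rcases le_total j i with h | h
    · exact core hn a b hp hoa hob hi hj h hA hB hco hminB
    · obtain ⟨h1, h2, h3⟩ := core hn b a hp hob hoa hj hi h hB hA hco' hminA
      exact ⟨h1, h3, h2⟩
  obtain ⟨rfl, rfl, rfl⟩ := hcases
  have ha4 : orderOf a = 4 := by rw [hoa]; norm_num
  have hb4 : orderOf b = 4 := by rw [hob]; norm_num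
  have h1 := sq_of_order_two ha4 (comm_mem_right hn a b) hco
  have h2 := sq_of_order_two hb4 (comm_mem_left hn a b) hco
  refine ⟨a, b, ha4, ?_, ?_⟩
  · rw [← sq, ← h2, h1]
  · have h3 : a * (b * a⁻¹ * b⁻¹) = a * a := by
      rw [← sq, ← h1]
      group
    have h4 := mul_left_cancel h3
    have h5 : (b * a⁻¹ * b⁻¹)⁻¹ = a⁻¹ := by rw [h4]
    have h6 : (b * a⁻¹ * b⁻¹)⁻¹ = b * a * b⁻¹ := by group
    rw [h6] at h5
    exact h5

/-- Conjugates of an element of order `4`. -/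
lemma conj_cases [Finite G] (hn : ∀ H : Subgroup G, H.Normal) {u x : G} (hu : orderOf u = 4) :
    x * u * x⁻¹ = u ∨ x * u * x⁻¹ = u⁻¹ := by
  have hfin : IsOfFinOrder u := isOfFinOrder_of_finite u
  have h1 : x * u * x⁻¹ ∈ Submonoid.powers u := by
    rw [hfin.mem_powers_iff_mem_zpowers]
    exact conj_mem hn u x
  obtain ⟨k, hk⟩ := (Submonoid.mem_powers_iff _ _).1 h1
  have ho : orderOf (x * u * x⁻¹) = 4 := by
    rw [← hu]
    have := MulEquiv.orderOf_eq (MulAut.conj x) u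
    simpa [MulAut.conj_apply] using this
  have h4 : u ^ 4 = 1 := by
    rw [← hu]
    exact pow_orderOf_eq_one u
  have hred : u ^ k = u ^ (k % 4) := by
    conv_lhs => rw [← Nat.div_add_mod k 4, pow_add, pow_mul, h4, one_pow, one_mul]
  rw [hred] at hk
  rw [← hk] at ho ⊢
  have hcases : k % 4 = 0 ∨ k % 4 = 1 ∨ k % 4 = 2 ∨ k % 4 = 3 := by omega
  rcases hcases with h | h | h | h <;> rw [h] at ho ⊢
  · simp at ho
  · left
    simp
  · exfalso
    have h2 : (u ^ 2) ^ 2 = 1 := by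
      rw [← pow_mul]
      exact h4
    have h3 := orderOf_dvd_of_pow_eq_one h2
    rw [ho] at h3
    omega
  · right
    rw [eq_inv_iff_mul_eq_one, ← pow_succ]
    exact h4

/-- Subgroups of Dedekind groups are Dedekind. -/
lemma dedekind_subgroup (hn : ∀ H : Subgroup G, H.Normal) (C : Subgroup G) (H : Subgroup C) :
    H.Normal := by
  constructor
  intro n hnH g
  have h1 := (hn (H.map C.subtype)).conj_mem (n : G) ⟨n, hnH, rfl⟩ (g : G)
  obtain ⟨m, hm, hm2⟩ := h1
  have : m = g * n * g⁻¹ := Subtype.ext hm2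
  rwa [← this]

/-- A finite non-abelian group in which every subgroup is normal is the internal direct product of a subgroup isomorphic to the quaternion group of order `8`, an elementary abelian `2`-subgroup and an abelian subgroup of odd order. -/
theorem result {G : Type*} [Group G] [Finite G] (hna : ¬ IsMulCommutative G) (hn : ∀ H : Subgroup G, H.Normal) : ∃ Q E A : Subgroup G, Nonempty (Q ≃* QuaternionGroup 2) ∧ Cfsg.IsElementaryAbelian 2 E ∧ IsMulCommutative A ∧ Odd (Nat.card A) ∧ E ⊓ A = ⊥ ∧ Q ⊓ (E ⊔ A) = ⊥ ∧ Q ⊔ (E ⊔ A) = ⊤ := by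
  classical
  have hna' : ∃ a b : G, a * b ≠ b * a := by
    by_contra hall
    push Not at hall
    exact hna ⟨⟨hall⟩⟩
  obtain ⟨a, b, ha4, hbb, hc⟩ := exists_q8 hn hna'
  have ha44 : a ^ 4 = 1 := by
    rw [← ha4]
    exact pow_orderOf_eq_one a
  have hA : a ^ (2 * 2) = 1 := ha44
  have h2ne : a ^ 2 ≠ 1 := by
    intro h
    have := orderOf_dvd_of_pow_eq_one h
    rw [ha4] at this
    omega
  have hb4 : orderOf b = 4 := by
    have h1 : b ^ 2 ≠ 1 := by
      rw [sq, hbb]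
      exact h2ne
    have h2 : b ^ 2 ^ (1 + 1) = 1 := by
      have : b ^ 2 ^ (1 + 1) = (b * b) * (b * b) := by
        rw [show (2 : ℕ) ^ (1 + 1) = 2 + 2 from rfl, pow_add, sq]
      rw [this, hbb, ← pow_add]
      exact ha44
    exact orderOf_eq_prime_pow (p := 2) (n := 1) h1 h2
  let φ : QuaternionGroup 2 →* G := Cfsg.Agent.Lib.QuatHom.lift hA hbb hc
  have hinj : Function.Injective φ :=
    Cfsg.Agent.Lib.QuatHom.lift_injective hA hbb hc h2ne ha4
  let Q : Subgroup G := φ.range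
  have hQa : a ∈ Q := ⟨QuaternionGroup.a 1, by
    show a ^ (1 : ZMod (2 * 2)).val = a
    have : (1 : ZMod (2 * 2)).val = 1 := rfl
    rw [this, pow_one]⟩
  have hQb : b ∈ Q := ⟨QuaternionGroup.xa 0, by
    show b * a ^ (0 : ZMod (2 * 2)).val = b
    have : (0 : ZMod (2 * 2)).val = 0 := rfl
    rw [this, pow_zero, mul_one]⟩
  have hQform : ∀ x ∈ Q, ∃ k : ℕ, x = a ^ k ∨ x = b * a ^ k := by
    rintro _ ⟨q, rfl⟩
    cases q with
    | a i => exact ⟨i.val, Or.inl rfl⟩
    | xa i => exact ⟨i.val, Or.inr rfl⟩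
  let C : Subgroup G := Subgroup.centralizer ({a, b} : Set G)
  have hCmem : ∀ x : G, x ∈ C ↔ x * a = a * x ∧ x * b = b * x := by
    intro x
    show x ∈ Subgroup.centralizer ({a, b} : Set G) ↔ _
    rw [Subgroup.mem_centralizer_iff]
    constructor
    · intro h
      exact ⟨(h a (by simp)).symm, (h b (by simp)).symm⟩
    · rintro ⟨h1, h2⟩ h hh
      rcases hh with rfl | rfl
      · exact h1.symm
      · exact h2.symm
  have hr1 : b⁻¹ * a⁻¹ * b = a := by
    rw [← hc]
    group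
  have hr2 : a⁻¹ * b⁻¹ * a = b := by
    have h1 : b * a * b = a := by
      have h2 : b * a * b = (b * a * b⁻¹) * (b * b) := by group
      rw [h2, hc, hbb, sq]
      group
    have h3 : a⁻¹ * b⁻¹ * a = a⁻¹ * b⁻¹ * (b * a * b) := by rw [h1]
    rw [h3]
    group
  -- `G = Q C`
  have hdec : ∀ x : G, ∃ q ∈ Q, ∃ y ∈ C, x = q * y := by
    intro x
    obtain ⟨q₁, hq₁, x₁, hx₁, hxeq⟩ : ∃ q₁ ∈ Q, ∃ x₁ : G, x₁ * a * x₁⁻¹ = a ∧ x = q₁ * x₁ := by
      rcases conj_cases (x := x) hn ha4 with h | h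
      · exact ⟨1, Q.one_mem, x, h, by simp⟩
      · refine ⟨b, hQb, b⁻¹ * x, ?_, by group⟩
        have e : b⁻¹ * x * a * (b⁻¹ * x)⁻¹ = b⁻¹ * (x * a * x⁻¹) * b := by group
        rw [e, h, hr1]
    have hcomma : ∀ y : G, y * a * y⁻¹ = a → y * a = a * y := by
      intro y hy
      calc y * a = (y * a * y⁻¹) * y := by group
        _ = a * y := by rw [hy]
    have hcommb : ∀ y : G, y * b * y⁻¹ = b → y * b = b * y := by
      intro y hy
      calc y * b = (y * b * y⁻¹) * y := by group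
        _ = b * y := by rw [hy]
    rcases conj_cases (x := x₁) hn hb4 with h | h
    · exact ⟨q₁, hq₁, x₁, (hCmem _).2 ⟨hcomma _ hx₁, hcommb _ h⟩, hxeq⟩
    · refine ⟨q₁ * a, Q.mul_mem hq₁ hQa, a⁻¹ * x₁, (hCmem _).2 ⟨hcomma _ ?_, hcommb _ ?_⟩, ?_⟩
      · have e : a⁻¹ * x₁ * a * (a⁻¹ * x₁)⁻¹ = a⁻¹ * (x₁ * a * x₁⁻¹) * a := by group
        rw [e, hx₁]
        group
      · have e : a⁻¹ * x₁ * b * (a⁻¹ * x₁)⁻¹ = a⁻¹ * (x₁ * b * x₁⁻¹) * a := by group
        rw [e, h, hr2]
      · rw [hxeq]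
        group
  have ha_notC : a ∉ C := by
    intro h
    have h1 := ((hCmem a).1 h).2
    apply h2ne
    have h3 : a⁻¹ * b = a * b := by
      rw [h1]
      calc a⁻¹ * b = (b * a * b⁻¹) * b := by rw [hc]
        _ = b * a := by group
    have h4 := mul_right_cancel h3
    rw [sq]
    calc a * a = a⁻¹ * a := by rw [h4]
      _ = 1 := by group
  -- `Q ∩ C`
  have hQC : ∀ x ∈ Q, x ∈ C → x = 1 ∨ x = a ^ 2 := by
    intro x hx hxC
    obtain ⟨k, rfl | rfl⟩ := hQform x hx
    · have h1 := ((hCmem _).1 hxC).2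
      have h2 : b * a ^ k * b⁻¹ = (a⁻¹) ^ k := by
        rw [← conj_pow, hc]
      have h3 : b * a ^ k * b⁻¹ = a ^ k := by
        rw [← h1]
        group
      rw [h3, inv_pow] at h2
      have h4 : a ^ (2 * k) = 1 := by
        rw [two_mul, pow_add]
        nth_rw 1 [h2]
        group
      have h5 := orderOf_dvd_of_pow_eq_one h4
      rw [ha4] at h5
      have h6 : k % 4 = 0 ∨ k % 4 = 2 := by omega
      have hred : a ^ k = a ^ (k % 4) := by
        conv_lhs => rw [← Nat.div_add_mod k 4, pow_add, pow_mul, ha44, one_pow, one_mul]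
      rw [hred]
      rcases h6 with h | h <;> rw [h]
      · left
        simp
      · right
        rfl
    · exfalso
      have h1 := ((hCmem _).1 hxC).1
      apply ha_notC
      have h3 : b * a = a * b := by
        have h4 : a ^ k * a = a * a ^ k := ((Commute.refl a).pow_left k).eq
        have h5 : (b * a) * a ^ k = (a * b) * a ^ k := by
          calc (b * a) * a ^ k = b * (a * a ^ k) := by group
            _ = b * (a ^ k * a) := by rw [h4]
            _ = b * a ^ k * a := by group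
            _ = a * (b * a ^ k) := h1
            _ = (a * b) * a ^ k := by group
        exact mul_right_cancel h5
      exact (hCmem a).2 ⟨rfl, h3.symm⟩
  -- no elements of order `4` in `C`
  have hC4 : ∀ y ∈ C, y ^ 4 = 1 → y ^ 2 = 1 := by
    intro y hy hy4
    obtain ⟨hya, hyb⟩ := (hCmem y).1 hy
    have hcay : Commute a y := (show Commute y a from hya).symm
    let z : G := a * y
    have hbz : b * z * b⁻¹ = a⁻¹ * y := by
      have e : b * (a * y) * b⁻¹ = (b * a * b⁻¹) * (b * y * b⁻¹) := by group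
      show b * (a * y) * b⁻¹ = _
      rw [e, hc, ← hyb]
      group
    have hcz : a ^ 2 ∈ Subgroup.zpowers z := by
      have h1 := conj_mem hn z b
      have h2 := Subgroup.mul_mem _ (Subgroup.inv_mem _ (Subgroup.mem_zpowers z)) h1
      rw [hbz] at h2
      have e : z⁻¹ * (a⁻¹ * y) = a ^ 2 := by
        show (a * y)⁻¹ * (a⁻¹ * y) = a ^ 2
        have h3 : (a * y)⁻¹ = y⁻¹ * a⁻¹ := by group
        rw [h3]
        have h4 : a⁻¹ * y = y * a⁻¹ := ((hcay.inv_left).eq)
        rw [h4]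
        have e2 : y⁻¹ * a⁻¹ * (y * a⁻¹) = y⁻¹ * (a⁻¹ * y) * a⁻¹ := by group
        rw [e2, h4]
        have e3 : y⁻¹ * (y * a⁻¹) * a⁻¹ = (a ^ 2)⁻¹ := by group
        rw [e3]
        rw [inv_eq_iff_mul_eq_one, ← pow_add]
        exact ha44
      rwa [e] at h2
    have hfin : IsOfFinOrder z := isOfFinOrder_of_finite z
    have h1 : a ^ 2 ∈ Submonoid.powers z := by
      rw [hfin.mem_powers_iff_mem_zpowers]
      exact hcz
    obtain ⟨k, hk⟩ := (Submonoid.mem_powers_iff _ _).1 h1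
    have hzk : ∀ m : ℕ, z ^ m = a ^ m * y ^ m := fun m => hcay.mul_pow m
    have hz4 : z ^ 4 = 1 := by
      rw [hzk, ha44, hy4, one_mul]
    have hred : z ^ k = z ^ (k % 4) := by
      conv_lhs => rw [← Nat.div_add_mod k 4, pow_add, pow_mul, hz4, one_pow, one_mul]
    rw [hred] at hk
    have hcases : k % 4 = 0 ∨ k % 4 = 1 ∨ k % 4 = 2 ∨ k % 4 = 3 := by omega
    rcases hcases with h | h | h | h <;> rw [h] at hk
    · exfalso
      apply h2ne
      rw [← hk]
      simp
    · exfalso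
      rw [pow_one] at hk
      have h3 : y = a := by
        have h4 : a * y = a * a := by
          show z = a * a
          rw [hk, sq]
        exact mul_left_cancel h4
      exact ha_notC (h3 ▸ hy)
    · rw [hzk] at hk
      have h3 : a ^ 2 * y ^ 2 = a ^ 2 * 1 := by rw [hk, mul_one]
      exact mul_left_cancel h3
    · exfalso
      rw [hzk] at hk
      have h3 : y = a := by
        have h4 : a ^ 3 * y ^ 4 = a ^ 3 * y ^ 3 * y := by
          rw [mul_assoc, ← pow_succ]
        rw [hy4, mul_one, hk] at h4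
        have h5 : a ^ 2 * a = a ^ 2 * y := by
          rw [← h4, ← pow_succ]
        exact (mul_left_cancel h5).symm
      exact ha_notC (h3 ▸ hy)
  -- `C` is abelian
  have hCab : ∀ y ∈ C, ∀ w ∈ C, y * w = w * y := by
    by_contra hcon
    push Not at hcon
    obtain ⟨y, hy, w, hw, hne⟩ := hcon
    obtain ⟨a', b', ha', -, -⟩ := exists_q8 (G := C) (dedekind_subgroup hn C)
      ⟨⟨y, hy⟩, ⟨w, hw⟩, fun h => hne (congrArg Subtype.val h)⟩
    have h1 : (a' : G) ^ 4 = 1 := by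
      rw [← ha', ← Subgroup.orderOf_coe]
      exact pow_orderOf_eq_one _
    have h2 := hC4 _ a'.2 h1
    have h3 := orderOf_dvd_of_pow_eq_one h2
    rw [Subgroup.orderOf_coe, ha'] at h3
    omega
  have hC2 : ∀ i : ℕ, ∀ y ∈ C, y ^ 2 ^ i = 1 → y ^ 2 = 1 := by
    intro i
    induction i with
    | zero =>
      intro y _ h
      rw [pow_zero, pow_one] at h
      rw [h, one_pow]
    | succ i ih =>
      intro y hy h
      rcases i with _ | i
      · simpa using h
      · apply ih y hy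
        have h1 : (y ^ 2 ^ i) ^ 4 = 1 := by
          rw [← pow_mul, ← h]
          congr 1
          ring
        have h2 := hC4 _ (C.pow_mem hy _) h1
        rw [← h2, ← pow_mul]
        congr 1
  -- the subgroups
  let E₀ : Subgroup G :=
    { carrier := {y | y ∈ C ∧ y * y = 1}
      one_mem' := ⟨C.one_mem, by simp⟩
      mul_mem' := by
        rintro x y ⟨hx, hx2⟩ ⟨hy, hy2⟩
        refine ⟨C.mul_mem hx hy, ?_⟩
        calc x * y * (x * y) = x * (y * x) * y := by group
          _ = x * (x * y) * y := by rw [hCab y hy x hx]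
          _ = (x * x) * (y * y) := by group
          _ = 1 := by rw [hx2, hy2, one_mul]
      inv_mem' := by
        rintro x ⟨hx, hx2⟩
        refine ⟨C.inv_mem hx, ?_⟩
        rw [← mul_inv_rev, hx2, inv_one] }
  let O : Subgroup G :=
    { carrier := {y | y ∈ C ∧ Odd (orderOf y)}
      one_mem' := ⟨C.one_mem, by simp⟩
      mul_mem' := by
        rintro x y ⟨hx, hx2⟩ ⟨hy, hy2⟩
        refine ⟨C.mul_mem hx hy, ?_⟩
        have h1 : Commute x y := hCab x hx y hy
        exact Odd.of_dvd_nat (hx2.mul hy2) h1.orderOf_mul_dvd_mul_orderOf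
      inv_mem' := by
        rintro x ⟨hx, hx2⟩
        refine ⟨C.inv_mem hx, ?_⟩
        rwa [orderOf_inv] }
  let c : G := a ^ 2
  have hcC : c ∈ C := by
    refine (hCmem c).2 ⟨((Commute.refl a).pow_left 2).eq, ?_⟩
    show a ^ 2 * b = b * a ^ 2
    rw [← hbb]
    group
  have hcE₀ : c ∈ E₀ := by
    refine ⟨hcC, ?_⟩
    show a ^ 2 * a ^ 2 = 1
    rw [← pow_add]
    exact ha44
  -- a maximal subgroup of `E₀` not containing `c`
  haveI : Nonempty {H : Subgroup G // H ≤ E₀ ∧ c ∉ H} :=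
    ⟨⟨⊥, bot_le, fun h => h2ne (Subgroup.mem_bot.1 h)⟩⟩
  obtain ⟨⟨E, hEE₀, hcE⟩, hEmax⟩ := Finite.exists_max
    (fun H : {H : Subgroup G // H ≤ E₀ ∧ c ∉ H} => Nat.card H.1)
  simp only at hEmax
  have hE₀dec : ∀ y ∈ E₀, y ∈ E ∨ ∃ e ∈ E, y = e * c := by
    intro y hy
    by_cases hyE : y ∈ E
    · exact Or.inl hyE
    right
    have hcsup : c ∈ E ⊔ Subgroup.zpowers y := by
      by_contra hcon
      have hle : E ⊔ Subgroup.zpowers y ≤ E₀ := sup_le hEE₀ ((Subgroup.zpowers_le).2 hy)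
      have h1 := hEmax ⟨_, hle, hcon⟩
      simp only at h1
      have h2 : E = E ⊔ Subgroup.zpowers y :=
        Subgroup.eq_of_le_of_card_ge le_sup_left h1
      apply hyE
      rw [h2]
      exact le_sup_right (a := E) (Subgroup.mem_zpowers y)
    obtain ⟨e, he, w, hw, hew⟩ := Subgroup.mem_sup_of_normal_right (ht := hn _).1 hcsup
    obtain ⟨k, rfl⟩ := hw
    have hyy : y ^ 2 = 1 := by
      rw [sq]
      exact hy.2
    have hcases : y ^ k = 1 ∨ y ^ k = y := by
      rcases Int.even_or_odd k with ⟨m, rfl⟩ | ⟨m, rfl⟩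
      · left
        rw [← two_mul, zpow_mul, zpow_two, ← sq, hyy, one_zpow]
      · right
        rw [zpow_add, zpow_mul, zpow_two, ← sq, hyy, one_zpow, one_mul, zpow_one]
    rcases hcases with h | h
    · exfalso
      simp only at hew
      rw [h, mul_one] at hew
      exact hcE (hew ▸ he)
    · simp only at hew
      rw [h] at hew
      refine ⟨e⁻¹, E.inv_mem he, ?_⟩
      rw [← hew]
      group
  -- the result
  have hEsq : ∀ x ∈ E, x * x = 1 := fun x hx => (hEE₀ hx).2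
  refine ⟨Q, E, O, ⟨(MonoidHom.ofInjective hinj).symm⟩, ⟨⟨⟨?_⟩⟩, ?_⟩, ⟨⟨?_⟩⟩, ?_, ?_, ?_, ?_⟩
  · intro x y
    exact Subtype.ext (hCab x (hEE₀ x.2).1 y (hEE₀ y.2).1)
  · intro x hx
    rw [sq]
    exact hEsq x hx
  · intro x y
    exact Subtype.ext (hCab x x.2.1 y y.2.1)
  · -- odd order
    by_contra hodd
    rw [Nat.not_odd_iff_even] at hodd
    haveI : Fact (Nat.Prime 2) := ⟨Nat.prime_two⟩
    obtain ⟨x, hx⟩ := exists_prime_orderOf_dvd_card' (G := O) 2 hodd.two_dvd
    have h1 := x.2.2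
    rw [Subgroup.orderOf_coe, hx] at h1
    exact absurd h1 (by decide)
  · -- `E ∩ O = 1`
    rw [eq_bot_iff]
    rintro x ⟨hx1, hx2⟩
    have h1 : x ^ 2 = 1 := by
      rw [sq]
      exact hEsq x hx1
    have h2 := orderOf_dvd_of_pow_eq_one h1
    have h3 : orderOf x = 1 := by
      rcases (Nat.dvd_prime Nat.prime_two).1 h2 with h | h
      · exact h
      · have := hx2.2
        rw [h] at this
        exact absurd this (by decide)
    exact Subgroup.mem_bot.2 (orderOf_eq_one_iff.1 h3)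
  · -- `Q ∩ EO = 1`
    rw [eq_bot_iff]
    rintro x ⟨hxQ, hx⟩
    obtain ⟨e, he, o, ho, rfl⟩ := Subgroup.mem_sup_of_normal_right (ht := hn _).1 hx
    have hxC : e * o ∈ C := C.mul_mem (hEE₀ he).1 ho.1
    rcases hQC _ hxQ hxC with h | h
    · exact Subgroup.mem_bot.2 h
    · exfalso
      -- `o = e⁻¹ c`
      have h1 : o = e⁻¹ * c := by
        rw [eq_inv_mul_iff_mul_eq]
        exact h
      have h2 : o * o = 1 := by
        have h3 : e⁻¹ * c ∈ E₀ := E₀.mul_mem (E₀.inv_mem (hEE₀ he)) hcE₀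
        rw [h1]
        exact h3.2
      have h3 : o ^ 2 = 1 := by
        rw [sq]
        exact h2
      have h4 := orderOf_dvd_of_pow_eq_one h3
      have h5 : orderOf o = 1 := by
        rcases (Nat.dvd_prime Nat.prime_two).1 h4 with h6 | h6
        · exact h6
        · have := ho.2
          rw [h6] at this
          exact absurd this (by decide)
      rw [orderOf_eq_one_iff] at h5
      rw [h5, mul_one] at h
      apply hcE
      show a ^ 2 ∈ E
      rw [← h]
      exact he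
  · -- `Q E O = G`
    rw [eq_top_iff]
    intro x _
    obtain ⟨q, hq, y, hy, rfl⟩ := hdec x
    haveI : Fact (Nat.Prime 2) := ⟨Nat.prime_two⟩
    obtain ⟨u, v, rfl, hu, hv, ⟨k, hk⟩, hvo⟩ := Cfsg.Agent.Lib.PComplement.exists_decomp 2 y
    have huC : u ∈ C := (Subgroup.zpowers_le.2 hy) hu
    have hvC : v ∈ C := (Subgroup.zpowers_le.2 hy) hv
    have huE₀ : u ∈ E₀ := by
      refine ⟨huC, ?_⟩
      rw [← sq]
      exact hC2 k u huC hk
    have hvO : v ∈ O := by
      refine ⟨hvC, ?_⟩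
      exact Nat.Coprime.odd_of_right hvo
    have hle : E ⊔ O ≤ Q ⊔ (E ⊔ O) := le_sup_right
    rcases hE₀dec u huE₀ with h | ⟨e, he, rfl⟩
    · apply Subgroup.mul_mem_sup hq
      exact Subgroup.mul_mem_sup h hvO
    · have e1 : q * (e * c * v) = (q * c) * (e * v) := by
        have h1 : e * c = c * e := hCab e (hEE₀ he).1 c hcC
        rw [h1]
        group
      rw [e1]
      apply Subgroup.mul_mem_sup (Q.mul_mem hq (Q.pow_mem hQa 2))
      exact Subgroup.mul_mem_sup he hvO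

end Cfsg.Agent.S4211
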