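import Mathlib
import Cfsg.Statements.S4212
import Cfsg.Agent.Lib.FrobCount

set_option autoImplicit false
open Cfsg

namespace Cfsg.Agent.S4212

open Cfsg.Agent.Lib.FrobCount

universe u

/-- Class size equals the index of the centralizer. -/
private lemma card_class_eq_index {G : Type*} [Group G] [Finite G] (c : G) :
    Nat.card {y : G // IsConj c y} = (Subgroup.centralizer ({c} : Set G)).index := by
  classical
  have h0 : (Subgroup.centralizer ({c} : Set G)).index =
      (MulAction.stabilizer (ConjAct G) c).index := by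
    have h1 := Subgroup.index_comap_of_surjective
      (f := (ConjAct.toConjAct (G := G)).toMonoidHom)
      (MulAction.stabilizer (ConjAct G) c) (ConjAct.toConjAct (G := G)).surjective
    exact (congrArg Subgroup.index (Subgroup.centralizer_eq_comap_stabilizer c)).trans h1
  rw [h0, MulAction.index_stabilizer, ConjAct.orbit_eq_carrier_conjClasses]
  rw [← Nat.card_coe_set_eq]
  apply Nat.card_congr
  apply Equiv.subtypeEquivRight
  intro y
  rw [ConjClasses.mem_carrier_iff_mk_eq, ConjClasses.mk_eq_mk_iff_isConj]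
  exact ⟨fun h => h.symm, fun h => h.symm⟩

/-- Counting over a class. -/
private lemma card_roots_class {G : Type*} [Group G] [Finite G] (c : G) (n : ℕ) :
    Nat.card {x : G // IsConj c (x ^ n)} =
      Nat.card {y : G // IsConj c y} * Nat.card {x : G // x ^ n = c} := by
  classical
  cases nonempty_fintype G
  have e : {x : G // IsConj c (x ^ n)} ≃ Σ y : {y : G // IsConj c y}, {x : G // x ^ n = y.1} :=
    { toFun := fun x => ⟨⟨x.1 ^ n, x.2⟩, ⟨x.1, rfl⟩⟩
      invFun := fun s => ⟨s.2.1, by rw [s.2.2]; exact s.1.2⟩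
      left_inv := fun _ => rfl
      right_inv := by
        rintro ⟨⟨y, hy⟩, ⟨x, hx⟩⟩
        have hx' : x ^ n = y := hx
        subst hx'
        rfl }
  rw [Nat.card_congr e, Nat.card_sigma]
  have h : ∀ y : {y : G // IsConj c y}, Nat.card {x : G // x ^ n = y.1} =
      Nat.card {x : G // x ^ n = c} := by
    rintro ⟨y, hy⟩
    obtain ⟨g, rfl⟩ := isConj_iff.mp hy
    apply Nat.card_congr
    refine Equiv.subtypeEquiv (MulAut.conj g⁻¹).toEquiv ?_
    intro x
    have e1 : (MulAut.conj g⁻¹).toEquiv x = g⁻¹ * x * g := by simp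
    rw [e1]
    have e2 : (g⁻¹ * x * g) ^ n = g⁻¹ * x ^ n * g := by
      have := conj_pow (a := g⁻¹) (b := x) (i := n)
      simpa using this
    rw [e2]
    show x ^ n = g * c * g⁻¹ ↔ _
    constructor
    · intro h; rw [h]; group
    · intro h; rw [← h]; group
  rw [Finset.sum_congr rfl (fun y _ => h y), Finset.sum_const, smul_eq_mul, Finset.card_univ,
    Nat.card_eq_fintype_card (α := {y : G // IsConj c y})]

/-- Roots of `c` live in the centralizer of `c`. -/
private lemma card_roots_centralizer {G : Type*} [Group G] (c : G) (n : ℕ) :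
    Nat.card {x : G // x ^ n = c} =
      Nat.card {x : Subgroup.centralizer ({c} : Set G) //
        x ^ n = (⟨c, Subgroup.mem_centralizer_singleton_iff.mpr rfl⟩ :
          Subgroup.centralizer ({c} : Set G))} := by
  apply Nat.card_congr
  exact
    { toFun := fun x => ⟨⟨x.1, Subgroup.mem_centralizer_singleton_iff.mpr (by
          have : Commute x.1 (x.1 ^ n) := (Commute.refl _).pow_right n
          rw [x.2] at this
          exact this)⟩, Subtype.ext (by simpa using x.2)⟩
      invFun := fun x => ⟨x.1.1, by simpa using congrArg Subtype.val x.2⟩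
      left_inv := fun _ => rfl
      right_inv := fun _ => rfl }

/-- A conjugation-invariant union of classes. -/
private lemma dvd_card_of_invariant {G : Type*} [Group G] [Finite G] (d n : ℕ) (S : Set G)
    (hS : ∀ g y : G, y ∈ S → g * y * g⁻¹ ∈ S)
    (h : ∀ c : G, d ∣ Nat.card {x : G // IsConj c (x ^ n)}) :
    d ∣ Nat.card {x : G // x ^ n ∈ S} := by
  classical
  cases nonempty_fintype G
  rw [Nat.card_eq_fintype_card, Fintype.card_subtype]
  rw [Finset.card_eq_sum_card_fiberwise (f := fun x : G => ConjClasses.mk (x ^ n))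
    (t := Finset.univ) (fun x _ => Finset.mem_coe.mpr (Finset.mem_univ _))]
  apply Finset.dvd_sum
  intro κ _
  obtain ⟨c, rfl⟩ := ConjClasses.mk_surjective κ
  by_cases hc : c ∈ S
  · have : (Finset.univ.filter (fun x : G => x ^ n ∈ S)).filter
        (fun x => ConjClasses.mk (x ^ n) = ConjClasses.mk c) =
        Finset.univ.filter (fun x : G => IsConj c (x ^ n)) := by
      ext x
      simp only [Finset.mem_filter, Finset.mem_univ, true_and]
      rw [ConjClasses.mk_eq_mk_iff_isConj]
      constructor
      · rintro ⟨_, h2⟩; exact h2.symm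
      · intro h2
        refine ⟨?_, h2.symm⟩
        obtain ⟨g, hg⟩ := isConj_iff.mp h2
        rw [← hg]
        exact hS g c hc
    rw [this, ← Fintype.card_subtype, ← Nat.card_eq_fintype_card]
    exact h c
  · have : (Finset.univ.filter (fun x : G => x ^ n ∈ S)).filter
        (fun x => ConjClasses.mk (x ^ n) = ConjClasses.mk c) = ∅ := by
      ext x
      simp only [Finset.mem_filter, Finset.mem_univ, true_and, Finset.notMem_empty, iff_false]
      rintro ⟨h1, h2⟩
      rw [ConjClasses.mk_eq_mk_iff_isConj] at h2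
      obtain ⟨g, hg⟩ := isConj_iff.mp h2
      apply hc
      have := hS g (x ^ n) h1
      rwa [hg] at this
    rw [this]
    simp

/-- Frobenius for `c = 1`, gcd form. -/
private lemma gcd_dvd_card_pow_eq_one (G : Type*) [Group G] [Finite G] (n : ℕ) :
    Nat.gcd n (Nat.card G) ∣ Nat.card {x : G // x ^ n = 1} := by
  have h1 : Nat.card {x : G // x ^ n = 1} = Nat.card {x : G // x ^ Nat.gcd n (Nat.card G) = 1} := by
    apply Nat.card_congr
    apply Equiv.subtypeEquivRight
    intro x
    exact pow_eq_one_iff_gcd n x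
  rw [h1]
  exact frobenius_dvd_card_pow_eq_one G _ (Nat.gcd_dvd_right _ _)

/-- Central `c` of order coprime to `n`. -/
private lemma card_roots_central_coprime {G : Type*} [Group G] [Finite G] (c : G)
    (hc : c ∈ Subgroup.center G) (n : ℕ) (hn : Nat.Coprime n (orderOf c)) :
    Nat.card {x : G // x ^ n = c} = Nat.card {x : G // x ^ n = 1} := by
  -- a central `n`-th root of `c`
  obtain ⟨w, hw, hwc⟩ : ∃ w : G, w ∈ Subgroup.center G ∧ w ^ n = c := by
    obtain ⟨m, hm⟩ := exists_pow_eq_self_of_coprime hn
    exact ⟨c ^ m, Subgroup.pow_mem _ hc m, by rw [← pow_mul, mul_comm, pow_mul]; exact hm⟩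
  apply Nat.card_congr
  refine Equiv.subtypeEquiv (Equiv.mulRight w⁻¹) ?_
  intro x
  have hcomm : Commute x w⁻¹ := (show x * w⁻¹ = w⁻¹ * x from
    (Subgroup.mem_center_iff.mp (Subgroup.inv_mem _ hw)) x)
  simp only [Equiv.coe_mulRight]
  rw [hcomm.mul_pow, inv_pow, hwc]
  constructor
  · intro h; rw [h]; group
  · intro h
    exact (mul_inv_eq_one.mp h)

/-- Central `c`, prime `p` dividing both `n` and the order of `c`. -/
private lemma card_roots_central_quot {G : Type*} [Group G] [Finite G] (c : G)
    (hc : c ∈ Subgroup.center G) (n p : ℕ) (_hp : p.Prime) (hpn : p ∣ n) (hpc : p ∣ orderOf c)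
    (IH : ∀ (Z : Subgroup G) [Z.Normal], Nat.card Z = p → ∀ (c' : G ⧸ Z) (n' : ℕ),
      Nat.gcd (Nat.card {y : G ⧸ Z // IsConj c' y} * n') (Nat.card (G ⧸ Z)) ∣
        Nat.card {x : G ⧸ Z // IsConj c' (x ^ n')}) :
    Nat.gcd n (Nat.card G) ∣ Nat.card {x : G // x ^ n = c} := by
  classical
  obtain ⟨n₁, rfl⟩ := hpn
  set z : G := c ^ (orderOf c / p) with hz
  have hzo : orderOf z = p := orderOf_pow_orderOf_div (orderOf_pos c).ne' hpc
  have hzc : z ∈ Subgroup.center G := Subgroup.pow_mem _ hc _
  let Z : Subgroup G := Subgroup.zpowers z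
  have hZc : Z ≤ Subgroup.center G := (Subgroup.zpowers_le).mpr hzc
  have hZn : Z.Normal := by
    constructor
    intro a ha g
    have := (Subgroup.mem_center_iff.mp (hZc ha)) g
    rw [this]
    simpa using ha
  have hZcard : Nat.card Z = p := by rw [Nat.card_zpowers, hzo]
  -- the set of images of the `p`-th roots
  let Y : Set (G ⧸ Z) := (QuotientGroup.mk : G → G ⧸ Z) '' {y : G | y ^ p = c}
  have hYinv : ∀ g y : G ⧸ Z, y ∈ Y → g * y * g⁻¹ ∈ Y := by
    rintro g _ ⟨y, hy, rfl⟩
    obtain ⟨g, rfl⟩ := QuotientGroup.mk_surjective g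
    refine ⟨g * y * g⁻¹, ?_, rfl⟩
    have hy' : y ^ p = c := hy
    show (g * y * g⁻¹) ^ p = c
    rw [conj_pow, hy']
    have := Subgroup.mem_center_iff.mp hc g
    rw [this]
    group
  have hmem : ∀ x : G, x ^ (p * n₁) = c ↔ ((x : G ⧸ Z) ^ n₁ ∈ Y) := by
    intro x
    constructor
    · intro h
      refine ⟨x ^ n₁, ?_, by rfl⟩
      show (x ^ n₁) ^ p = c
      rw [← pow_mul, mul_comm, h]
    · rintro ⟨y, hy, hyx⟩
      have hy' : y ^ p = c := hy
      have h1 : y⁻¹ * x ^ n₁ ∈ Z := by
        rw [← QuotientGroup.eq]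
        rw [hyx]
        rfl
      obtain ⟨i, hi⟩ := Subgroup.mem_zpowers_iff.mp h1
      have h2 : x ^ n₁ = y * z ^ i := by rw [hi]; group
      have hzcomm : Commute y (z ^ i) :=
        ((Subgroup.mem_center_iff.mp (Subgroup.zpow_mem _ hzc i)) y)
      rw [mul_comm, pow_mul, h2, hzcomm.mul_pow, hy']
      have h3 : (z ^ i) ^ p = 1 := by
        rw [← zpow_natCast, ← zpow_mul, mul_comm, zpow_mul, zpow_natCast, ← hzo, pow_orderOf_eq_one,
          one_zpow]
      rw [h3, mul_one]
  -- cardinality
  have hcard : Nat.card {x : G // x ^ (p * n₁) = c} =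
      p * Nat.card {x : G ⧸ Z // x ^ n₁ ∈ Y} := by
    have e1 : {x : G // x ^ (p * n₁) = c} ≃
        (QuotientGroup.mk : G → G ⧸ Z) ⁻¹' {x : G ⧸ Z | x ^ n₁ ∈ Y} :=
      Equiv.subtypeEquivRight (fun x => hmem x)
    rw [Nat.card_congr e1, Nat.card_congr (QuotientGroup.preimageMkEquivSubgroupProdSet Z _),
      Nat.card_prod, hZcard]
    rfl
  rw [hcard]
  have hGcard : Nat.card G = p * Nat.card (G ⧸ Z) := by
    rw [← hZcard, mul_comm, Subgroup.card_eq_card_quotient_mul_card_subgroup Z]
  rw [hGcard, Nat.gcd_mul_left]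
  apply Nat.mul_dvd_mul_left
  apply dvd_card_of_invariant _ _ _ hYinv
  intro c'
  refine dvd_trans ?_ (IH Z hZcard c' n₁)
  apply Nat.gcd_dvd_gcd_of_dvd_left
  exact dvd_mul_left _ _

/-- The main statement, by induction on the order. -/
private theorem main_aux : ∀ (m : ℕ) (G : Type u) [Group G] [Finite G], Nat.card G = m →
    ∀ (c : G) (n : ℕ),
      Nat.gcd (Nat.card {y : G // IsConj c y} * n) (Nat.card G) ∣
        Nat.card {x : G // IsConj c (x ^ n)} := by
  intro m
  induction m using Nat.strong_induction_on with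
  | _ m ih =>
  intro G _ _ hm c n
  rw [card_roots_class c n]
  by_cases hc : c ∈ Subgroup.center G
  · -- central case
    have h1 : Nat.card {y : G // IsConj c y} = 1 := by
      rw [card_class_eq_index, Subgroup.index_eq_one]
      rw [eq_top_iff]
      intro g _
      rw [Subgroup.mem_centralizer_singleton_iff]
      exact (Subgroup.mem_center_iff.mp hc g)
    rw [h1, one_mul, one_mul]
    by_cases hcop : Nat.Coprime n (orderOf c)
    · rw [card_roots_central_coprime c hc n hcop]
      exact gcd_dvd_card_pow_eq_one G n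
    · obtain ⟨p, hp, hpn, hpc⟩ := Nat.Prime.not_coprime_iff_dvd.mp hcop
      apply card_roots_central_quot c hc n p hp hpn hpc
      intro Z _ hZ c' n'
      refine ih (Nat.card (G ⧸ Z)) ?_ (G ⧸ Z) rfl c' n'
      rw [← hm]
      have h2 := Subgroup.card_eq_card_quotient_mul_card_subgroup Z
      have h3 : 0 < Nat.card (G ⧸ Z) := Nat.card_pos
      rw [h2, hZ]
      nlinarith [hp.two_le]
  · -- reduce to the centralizer
    let C := Subgroup.centralizer ({c} : Set G)
    have hCcard : Nat.card G = Nat.card C * C.index := (Subgroup.card_mul_index C).symm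
    have hidx : C.index ≠ 1 := by
      intro h
      rw [Subgroup.index_eq_one] at h
      apply hc
      rw [Subgroup.mem_center_iff]
      intro g
      have : g ∈ C := h ▸ Subgroup.mem_top g
      exact Subgroup.mem_centralizer_singleton_iff.mp this
    have hidx0 : C.index ≠ 0 := Subgroup.index_ne_zero_of_finite
    have hlt : Nat.card C < m := by
      rw [← hm, hCcard]
      have : 0 < Nat.card C := Nat.card_pos
      have : 2 ≤ C.index := by omega
      nlinarith
    have h2 := ih (Nat.card C) hlt C rfl ⟨c, Subgroup.mem_centralizer_singleton_iff.mpr rfl⟩ n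
    have hcentral : (⟨c, Subgroup.mem_centralizer_singleton_iff.mpr rfl⟩ : C) ∈ Subgroup.center C := by
      rw [Subgroup.mem_center_iff]
      intro g
      apply Subtype.ext
      exact Subgroup.mem_centralizer_singleton_iff.mp g.2
    rw [card_roots_class, show Nat.card {y : C // IsConj (⟨c, Subgroup.mem_centralizer_singleton_iff.mpr rfl⟩ : C) y} = 1 by
      rw [card_class_eq_index, Subgroup.index_eq_one]
      rw [eq_top_iff]
      intro g _
      rw [Subgroup.mem_centralizer_singleton_iff]
      exact (Subgroup.mem_center_iff.mp hcentral g), one_mul, one_mul, ← card_roots_centralizer] at h2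
    rw [card_class_eq_index]
    have e : Nat.card G = C.index * Nat.card C := by rw [hCcard, mul_comm]
    rw [e, Nat.gcd_mul_left]
    exact Nat.mul_dvd_mul_left _ h2

/-- Let `G` be a finite group of order `g`, `c` an element whose conjugacy class has `h` elements, and `n` a natural number. Then the number of elements `x` of `G` with `x^n` conjugate to `c` is a multiple of `gcd(hn, g)`. -/
theorem result {G : Type*} [Group G] [Finite G] (c : G) (n : ℕ) : Nat.gcd (Nat.card {y : G // IsConj c y} * n) (Nat.card G) ∣ Nat.card {x : G // IsConj c (x ^ n)} := by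
  exact main_aux _ G rfl c n

end Cfsg.Agent.S4212
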