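import Mathlib
import Cfsg.Statements.S4213
import Cfsg.Agent.Lib.FrobCount
import Cfsg.Agent.Lib.MinNorm

set_option autoImplicit false
set_option linter.style.haveILetI false
open Cfsg

namespace Cfsg.Agent.S4213

open Cfsg.Agent.Lib.FrobCount

universe u

private lemma gcd_dvd_card (G : Type*) [Group G] [Finite G] (n : ℕ) :
    Nat.gcd n (Nat.card G) ∣ Nat.card {x : G // x ^ n = 1} := by
  have h1 : Nat.card {x : G // x ^ n = 1} = Nat.card {x : G // x ^ Nat.gcd n (Nat.card G) = 1} := by
    apply Nat.card_congr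
    apply Equiv.subtypeEquivRight
    intro x
    exact pow_eq_one_iff_gcd n x
  rw [h1]
  exact frobenius_dvd_card_pow_eq_one G _ (Nat.gcd_dvd_right _ _)

private lemma card_preimage {G : Type*} [Group G] (A : Subgroup G) (S : Set (G ⧸ A)) :
    Nat.card ((QuotientGroup.mk : G → G ⧸ A) ⁻¹' S) = Nat.card A * Nat.card S := by
  rw [Nat.card_congr (QuotientGroup.preimageMkEquivSubgroupProdSet A S), Nat.card_prod]

private lemma set_eq_of_card {G : Type*} [Finite G] {s t : Set G} (h : s ⊆ t)
    (hc : Nat.card t ≤ Nat.card s) : s = t := by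
  apply Set.eq_of_subset_of_ncard_le h
  rwa [← Nat.card_coe_set_eq, ← Nat.card_coe_set_eq]

private lemma card_le_of_subset {G : Type*} [Finite G] {s t : Set G} (h : s ⊆ t) :
    Nat.card s ≤ Nat.card t := by
  rw [Nat.card_coe_set_eq, Nat.card_coe_set_eq]
  exact Set.ncard_le_ncard h

private theorem main_aux : ∀ (k : ℕ) (G : Type u) [Group G] [Finite G] [Group.IsSolvable G],
    Nat.card G = k → ∀ n : ℕ, n ∣ Nat.card G → Nat.card {x : G // x ^ n = 1} = n →
      ∃ H : Subgroup G, H.Normal ∧ (H : Set G) = {x : G | x ^ n = 1} := by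
  intro k
  induction k using Nat.strong_induction_on with
  | _ k ih =>
  intro G _ _ _ hk n hn hcount
  classical
  have hLn : Nat.card {x : G | x ^ n = 1} = n := hcount
  by_cases hG : (⊤ : Subgroup G) = ⊥
  · refine ⟨⊤, inferInstance, ?_⟩
    ext x
    have : x = 1 := by
      have : x ∈ (⊤ : Subgroup G) := Subgroup.mem_top x
      rw [hG] at this
      simpa using this
    simp [this]
  obtain ⟨r, A, hr, hAn, hA1, -, -, hAexp⟩ :=
    Cfsg.Agent.Lib.MinNorm.exists_abelian_exponent_normal_le (⊤ : Subgroup G) inferInstance hG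
  haveI := hAn
  haveI : Fact r.Prime := ⟨hr⟩
  have hApg : IsPGroup r A := by
    intro a
    exact ⟨1, Subtype.ext (by simpa using hAexp a.1 a.2)⟩
  obtain ⟨t, ht⟩ := IsPGroup.iff_card.mp hApg
  have ht0 : t ≠ 0 := by
    rintro rfl
    apply hA1
    rw [← Subgroup.card_eq_one]
    simpa using ht
  let Q := G ⧸ A
  have hGQ : Nat.card G = Nat.card A * Nat.card Q := by
    rw [Subgroup.card_eq_card_quotient_mul_card_subgroup A, mul_comm]
  have hAcard : 1 < Nat.card A := by
    rw [ht]; exact Nat.one_lt_pow ht0 hr.one_lt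
  have hQlt : Nat.card Q < k := by
    rw [← hk, hGQ]
    have : 0 < Nat.card Q := Nat.card_pos
    nlinarith
  have hn0 : 0 < n := by
    rcases Nat.eq_zero_or_pos n with h | h
    · subst h
      rw [zero_dvd_iff] at hn
      exact absurd hn Nat.card_pos.ne'
    · exact h
  -- lifts
  have hlift : ∀ (d : ℕ) (x : G), ((x : Q) ^ d = 1) → x ^ d ∈ A := by
    intro d x hx
    have : ((x ^ d : G) : Q) = 1 := by rw [QuotientGroup.mk_pow]; exact hx
    exact (QuotientGroup.eq_one_iff _).mp this
  have hmk : ∀ (d : ℕ) (x : G), x ^ d = 1 → (x : Q) ^ d = 1 := by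
    intro d x hx
    rw [← QuotientGroup.mk_pow, hx]; rfl
  by_cases hrn : r ∣ n
  · -- `r` divides `n`
    obtain ⟨b, m, hrm, hnm⟩ := Nat.exists_eq_pow_mul_and_not_dvd hn0.ne' r hr.ne_one
    have hb0 : b ≠ 0 := by
      rintro rfl
      apply hrm
      rw [hnm] at hrn
      simpa using hrn
    obtain ⟨b', rfl⟩ := Nat.exists_eq_succ_of_ne_zero hb0
    -- first `|A|` divides `n`
    have hAdvd : Nat.card A ∣ n := by
      set d := r ^ b' * m with hd
      have hnd : n = d * r := by rw [hnm, hd, pow_succ]; ring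
      let S : Set Q := {x : Q | x ^ d = 1}
      have hsub : (QuotientGroup.mk : G → Q) ⁻¹' S ⊆ {x : G | x ^ n = 1} := by
        intro x hx
        have h1 := hlift d x hx
        show x ^ n = 1
        rw [hnd, pow_mul]
        exact hAexp _ h1
      have h1 := card_le_of_subset hsub
      rw [card_preimage, hLn] at h1
      have hmQ : m ∣ Nat.card Q := by
        have h2 : m ∣ Nat.card A * Nat.card Q := by
          rw [← hGQ]
          exact (Dvd.intro_left _ hnm.symm).trans hn
        have hc : Nat.Coprime m (Nat.card A) := by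
          rw [ht]
          apply Nat.Coprime.pow_right
          rw [Nat.coprime_comm, Nat.Prime.coprime_iff_not_dvd hr]
          exact hrm
        exact hc.dvd_of_dvd_mul_left h2
      have hmS : m ∣ Nat.card S := by
        have h2 := gcd_dvd_card Q d
        exact (Nat.dvd_gcd (Dvd.intro_left _ hd.symm) hmQ).trans h2
      have hSpos : 0 < Nat.card S := by
        haveI : Nonempty S := ⟨⟨1, by simp [S]⟩⟩
        exact Nat.card_pos
      have hmle : m ≤ Nat.card S := Nat.le_of_dvd hSpos hmS
      have hm0 : 0 < m := by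
        rcases Nat.eq_zero_or_pos m with h | h
        · subst h; simp at hnm; omega
        · exact h
      have h3 : r ^ t * m ≤ r ^ (b' + 1) * m := by
        calc r ^ t * m ≤ r ^ t * Nat.card S := Nat.mul_le_mul_left _ hmle
          _ ≤ n := by rw [← ht]; exact h1
          _ = r ^ (b' + 1) * m := hnm
      have h4 : r ^ t ≤ r ^ (b' + 1) := Nat.le_of_mul_le_mul_right h3 hm0
      have h5 : t ≤ b' + 1 := (Nat.pow_le_pow_iff_right hr.one_lt).mp h4
      rw [ht, hnm]
      exact (pow_dvd_pow r h5).trans (dvd_mul_right _ _)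
    obtain ⟨d, hd⟩ := hAdvd
    have hdQ : d ∣ Nat.card Q := by
      have h2 : Nat.card A * d ∣ Nat.card A * Nat.card Q := by
        rw [← hGQ, ← hd]; exact hn
      exact Nat.dvd_of_mul_dvd_mul_left Nat.card_pos h2
    let S : Set Q := {x : Q | x ^ d = 1}
    have hsub : (QuotientGroup.mk : G → Q) ⁻¹' S ⊆ {x : G | x ^ n = 1} := by
      intro x hx
      have h1 := hlift d x hx
      show x ^ n = 1
      obtain ⟨t', rfl⟩ := Nat.exists_eq_succ_of_ne_zero ht0
      have : n = d * r * r ^ t' := by rw [hd, ht, pow_succ]; ring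
      rw [this, pow_mul, pow_mul, hAexp _ h1, one_pow]
    have h1 := card_le_of_subset hsub
    rw [card_preimage, hLn] at h1
    have hdS : d ∣ Nat.card S := frobenius_dvd_card_pow_eq_one Q d hdQ
    have hSpos : 0 < Nat.card S := by
      haveI : Nonempty S := ⟨⟨1, by simp [S]⟩⟩
      exact Nat.card_pos
    have hdle : d ≤ Nat.card S := Nat.le_of_dvd hSpos hdS
    have hSle : Nat.card S ≤ d := by
      have h2 : Nat.card A * Nat.card S ≤ Nat.card A * d := by rw [← hd]; exact h1
      exact Nat.le_of_mul_le_mul_left h2 Nat.card_pos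
    have hSd : Nat.card {x : Q // x ^ d = 1} = d := le_antisymm hSle hdle
    obtain ⟨Hb, hHbn, hHb⟩ := ih (Nat.card Q) hQlt Q rfl d hdQ hSd
    refine ⟨Hb.comap (QuotientGroup.mk' A), hHbn.comap _, ?_⟩
    have hset : ((Hb.comap (QuotientGroup.mk' A) : Subgroup G) : Set G) =
        (QuotientGroup.mk : G → Q) ⁻¹' S := by
      ext x
      show (x : Q) ∈ Hb ↔ (x : Q) ∈ S
      rw [← SetLike.mem_coe, hHb]
    rw [hset]
    apply set_eq_of_card hsub
    rw [card_preimage, hLn, le_antisymm hSle hdle, ← hd]
  · -- `r` does not divide `n`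
    have hcop : Nat.Coprime n (Nat.card A) := by
      rw [ht]
      apply Nat.Coprime.pow_right
      rw [Nat.coprime_comm, Nat.Prime.coprime_iff_not_dvd hr]
      exact hrn
    have hnQ : n ∣ Nat.card Q := by
      apply hcop.dvd_of_dvd_mul_left
      rw [← hGQ]; exact hn
    let S : Set Q := {x : Q | x ^ n = 1}
    -- surjectivity of `L_n(G) → L_n(Q)`
    have hsurj : ∀ y ∈ S, ∃ x : G, x ^ n = 1 ∧ (x : Q) = y := by
      intro y hy
      obtain ⟨x, rfl⟩ := QuotientGroup.mk_surjective y
      have h1 := hlift n x hy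
      have h2 : x ^ (n * r) = 1 := by rw [pow_mul]; exact hAexp _ h1
      have hbez : (n : ℤ) * Nat.gcdA n r + (r : ℤ) * Nat.gcdB n r = 1 := by
        have := Nat.gcd_eq_gcd_ab n r
        rw [(Nat.coprime_comm.mp ((Nat.Prime.coprime_iff_not_dvd hr).mpr hrn)).gcd_eq_one] at this
        exact_mod_cast this.symm
      refine ⟨x ^ ((r : ℤ) * Nat.gcdB n r), ?_, ?_⟩
      · rw [← zpow_natCast, ← zpow_mul]
        have : (r : ℤ) * Nat.gcdB n r * (n : ℤ) = ((n * r : ℕ) : ℤ) * Nat.gcdB n r := by
          push_cast; ring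
        rw [this, zpow_mul, zpow_natCast, h2, one_zpow]
      · have h3 : (r : ℤ) * Nat.gcdB n r = 1 - (n : ℤ) * Nat.gcdA n r := by linarith
        rw [h3, QuotientGroup.mk_zpow, zpow_sub, zpow_one, zpow_mul, zpow_natCast]
        have hy' : ((x : G) : Q) ^ n = 1 := hy
        rw [hy']
        simp
    have hSle : Nat.card S ≤ n := by
      rw [← hLn]
      let f : {x : G | x ^ n = 1} → S := fun x => ⟨(x.1 : Q), hmk n x.1 x.2⟩
      have hf : Function.Surjective f := by
        rintro ⟨y, hy⟩
        obtain ⟨x, hx, rfl⟩ := hsurj y hy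
        exact ⟨⟨x, hx⟩, rfl⟩
      exact Nat.card_le_card_of_surjective f hf
    have hSpos : 0 < Nat.card S := by
      haveI : Nonempty S := ⟨⟨1, by simp [S]⟩⟩
      exact Nat.card_pos
    have hnS : n ∣ Nat.card S := frobenius_dvd_card_pow_eq_one Q n hnQ
    have hSn : Nat.card S = n := le_antisymm hSle (Nat.le_of_dvd hSpos hnS)
    obtain ⟨Hb, hHbn, hHb⟩ := ih (Nat.card Q) hQlt Q rfl n hnQ hSn
    let H : Subgroup G := Hb.comap (QuotientGroup.mk' A)
    have hset : (H : Set G) = (QuotientGroup.mk : G → Q) ⁻¹' S := by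
      ext x
      show (x : Q) ∈ Hb ↔ (x : Q) ∈ S
      rw [← SetLike.mem_coe, hHb]
    have hHcard : Nat.card H = Nat.card A * n := by
      have : Nat.card H = Nat.card ((H : Set G)) := rfl
      rw [this, hset, card_preimage, hSn]
    have hAH : A ≤ H := by
      intro a ha
      show ((a : G) : Q) ∈ Hb
      rw [(QuotientGroup.eq_one_iff a).mpr ha]
      exact Hb.one_mem
    -- Schur-Zassenhaus in `H`
    let N : Subgroup H := A.subgroupOf H
    haveI hNn : N.Normal := inferInstance
    have hNcard : Nat.card N = Nat.card A := by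
      exact Nat.card_congr (Subgroup.subgroupOfEquivOfLe hAH).toEquiv
    have hNidx : N.index = n := by
      have h1 := Subgroup.card_mul_index N
      rw [hNcard, hHcard] at h1
      exact Nat.eq_of_mul_eq_mul_left Nat.card_pos h1
    obtain ⟨K, hK⟩ := Subgroup.exists_right_complement'_of_coprime (N := N)
      (by rw [hNcard, hNidx]; exact hcop.symm)
    have hKcard : Nat.card K = n := by
      have h1 := hK.card_mul_card
      rw [hNcard, hHcard] at h1
      exact Nat.eq_of_mul_eq_mul_left Nat.card_pos h1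
    let K' : Subgroup G := K.map H.subtype
    have hK'card : Nat.card K' = n := by
      rw [← hKcard]
      exact Nat.card_congr (Subgroup.equivMapOfInjective K H.subtype H.subtype_injective).toEquiv.symm
    have hK'sub : (K' : Set G) ⊆ {x : G | x ^ n = 1} := by
      intro x hx
      have := pow_card_eq_one' (x := (⟨x, hx⟩ : K'))
      rw [hK'card] at this
      simpa using congrArg Subtype.val this
    have hK'eq : (K' : Set G) = {x : G | x ^ n = 1} := by
      apply set_eq_of_card hK'sub
      rw [hLn]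
      exact hK'card.ge
    refine ⟨K', ?_, hK'eq⟩
    constructor
    intro x hx g
    have hx' : x ∈ (K' : Set G) := hx
    rw [hK'eq] at hx'
    have hx'' : x ^ n = 1 := hx'
    show _ ∈ (K' : Set G)
    rw [hK'eq]
    show (g * x * g⁻¹) ^ n = 1
    rw [conj_pow, hx'']
    simp

/-- If `G` is a finite solvable group and `n` divides the order of `G` and exactly `n` elements `x` of `G` satisfy `x^n = 1`, then these elements form a normal subgroup. -/
theorem result {G : Type*} [Group G] [Finite G] [Group.IsSolvable G] (n : ℕ) (hn : n ∣ Nat.card G) (hcount : Nat.card {x : G // x ^ n = 1} = n) : ∃ H : Subgroup G, H.Normal ∧ (H : Set G) = {x : G | x ^ n = 1} :=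
  main_aux _ G rfl n hn hcount

end Cfsg.Agent.S4213
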