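import Mathlib
-- Template for statement S4215 (row 4215; see /opt/grader/pristine/manifest.json for weights).
-- Copy to Cfsg/Agent/S4215.lean and replace the sorry. The statement below is byte-identical to the frozen
-- statement Cfsg.CfsgFrozen.S4215 (Cfsg/Statements/S4215.lean; the theorem Cfsg.fg14_weakly_closed_engel_controls_p_residual);
-- the grader kernel-checks Cfsg.Agent.S4215.result against that frozen type. Keep the theorem IN THIS FILE
-- (a `result` declared elsewhere and merely imported here is not credited); helpers may live anywhere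
-- under Cfsg/Agent/.
import Cfsg.Statements.S4215
import Cfsg.Agent.Lib.WYExt

set_option autoImplicit false
open Cfsg

namespace Cfsg.Agent.S4215

/-- Let `P` be a Sylow `p`-subgroup of the finite group `G`, `Q` a subgroup of `P` weakly closed in `P` with respect to `G`, and `H` the normalizer of `Q`. Suppose that for all `u ∈ P` and `z ∈ Q` the iterated commutator `[u, z, …, z]` with `p - 1` entries `z` is trivial, where `[x, z] = x⁻¹z⁻¹xz` and `[x, z, z] = [[x, z], z]`. Then `O^p(H) = O^p(G) ∩ H`, where `O^p` denotes the subgroup generated by the elements of order prime to `p`; so the largest `p`-factor groups of `G` and of `H` are isomorphic. -/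
theorem result {G : Type*} [Group G] [Finite G] {p : ℕ} [Fact p.Prime] (P : Sylow p G) (Q : Subgroup G) (hQ : Cfsg.IsWeaklyClosed Q (P : Subgroup G)) (h : ∀ u ∈ (P : Subgroup G), ∀ z ∈ Q, (fun y : G => y⁻¹ * z⁻¹ * y * z)^[p - 1] u = 1) : Cfsg.pResidualOf p (Subgroup.normalizer (Q : Set G)) = Cfsg.pResidual p G ⊓ Subgroup.normalizer (Q : Set G) := by
  apply Cfsg.Agent.Lib.WYExt.residual_eq (P : Subgroup G) Q P.isPGroup' P.not_dvd_index hQ.1 hQ.2
  apply Cfsg.Agent.Lib.WYExt.normHyp_of Cfsg.Agent.Lib.WYExt.Cp_exp
  intro U z hUS hWN hi hzW hzU ν r hr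
  rw [h r (hUS hr) z hzW, Cfsg.Agent.Lib.WYCoc.ext_one]

end Cfsg.Agent.S4215
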