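import Mathlib
import Cfsg.Statements.S4216
import Cfsg.Agent.Lib.TransferCore
import Cfsg.Agent.Lib.FusionAlperin

set_option autoImplicit false
open Cfsg
open scoped commutatorElement

namespace Cfsg.Agent.S4216

open Cfsg.Agent.Lib.TransferCore

lemma mem_S {G : Type*} [Group G] {p : ℕ} {P : Sylow p G} {z x : G} :
    x ∈ (z⁻¹ • P : Sylow p G) ↔ z * x * z⁻¹ ∈ P := by
  rw [mem_smul_sylow, inv_inv]

lemma key {G : Type*} [Group G] [Finite G] {p : ℕ} [Fact p.Prime] (P : Sylow p G) (F : Subgroup G)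
    (h1 : ∀ x ∈ (P : Subgroup G), ∀ n ∈ Subgroup.normalizer ((P : Subgroup G) : Set G), ⁅x, n⁆ ∈ F)
    (h2 : ∀ z : G, ∀ c ∈ ⁅(P : Subgroup G), (P : Subgroup G)⁆, z * c * z⁻¹ ∈ (P : Subgroup G) → z * c * z⁻¹ ∈ F)
    (m : ℕ) (z₁ z₂ : G)
    (hm : Nat.card P - Nat.card ↥(((z₁⁻¹ • P : Sylow p G) : Subgroup G) ⊓ ((z₂⁻¹ • P : Sylow p G) : Subgroup G)) ≤ m)
    (s : G) (hs₁ : s ∈ (z₁⁻¹ • P : Sylow p G)) (hs₂ : s ∈ (z₂⁻¹ • P : Sylow p G)) :
    (z₁ * s * z₁⁻¹)⁻¹ * (z₂ * s * z₂⁻¹) ∈ F := by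
  classical
  induction m using Nat.strong_induction_on generalizing z₁ z₂ s with
  | _ m ih =>
  by_cases heq : (z₁⁻¹ • P : Sylow p G) = z₂⁻¹ • P
  · have hx₁ : z₁ * s * z₁⁻¹ ∈ P := mem_S.1 hs₁
    have hn : z₂ * z₁⁻¹ ∈ Subgroup.normalizer ((P : Subgroup G) : Set G) := by
      exact Sylow.smul_eq_iff_mem_normalizer.1 (by rw [mul_smul, heq, smul_inv_smul])
    have h3 := h1 _ ((P : Subgroup G).inv_mem hx₁) _ hn
    convert h3 using 1
    simp only [commutatorElement_def]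
    group
  · -- the two Sylow subgroups are different
    set S₁ : Sylow p G := z₁⁻¹ • P with hS₁
    set S₂ : Sylow p G := z₂⁻¹ • P with hS₂
    set D : Subgroup G := (S₁ : Subgroup G) ⊓ (S₂ : Subgroup G) with hD
    have hne : ∀ (A B : Sylow p G), A ≠ B → (A : Subgroup G) ⊓ B < A := by
      intro A B hAB
      refine lt_of_le_of_ne inf_le_left (fun h => hAB ?_)
      have h4 : (A : Subgroup G) ≤ B := by
        rw [← h]; exact inf_le_right
      exact Sylow.ext (A.is_maximal' B.isPGroup' h4).symm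
    have hD₁ : D < (S₁ : Subgroup G) := hne _ _ heq
    have hD₂ : D < (S₂ : Subgroup G) := by
      have := hne S₂ S₁ (Ne.symm heq)
      rwa [inf_comm] at this
    -- normalizers grow
    obtain ⟨g₁, hg₁, hg₁D⟩ := SetLike.exists_of_lt
      (Cfsg.Agent.Lib.FusionAlperin.lt_normalizerIn S₁.isPGroup' hD₁)
    obtain ⟨g₂, hg₂, hg₂D⟩ := SetLike.exists_of_lt
      (Cfsg.Agent.Lib.FusionAlperin.lt_normalizerIn S₂.isPGroup' hD₂)
    set L : Subgroup G := Subgroup.normalizer (D : Set G) with hL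
    have hDL : D ≤ L := Subgroup.le_normalizer
    -- Sylow subgroups of `L`
    obtain ⟨T₁, hT₁⟩ := IsPGroup.exists_le_sylow
      (S₁.isPGroup'.comap_of_injective L.subtype L.subtype_injective)
    obtain ⟨T₂, hT₂⟩ := IsPGroup.exists_le_sylow
      (S₂.isPGroup'.comap_of_injective L.subtype L.subtype_injective)
    have hcomap₁ : ∀ x (hx : x ∈ L), x ∈ S₁ → (⟨x, hx⟩ : L) ∈ T₁ := fun x hx h => hT₁ h
    have hcomap₂ : ∀ x (hx : x ∈ L), x ∈ S₂ → (⟨x, hx⟩ : L) ∈ T₂ := fun x hx h => hT₂ h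
    -- a Sylow subgroup of `G` over `T₁`
    obtain ⟨S₃', hS₃'⟩ := IsPGroup.exists_le_sylow (T₁.isPGroup'.map L.subtype)
    obtain ⟨y, hy⟩ := MulAction.exists_smul_eq G P S₃'
    set z₃ : G := y⁻¹ with hz₃
    have hS₃ : (z₃⁻¹ • P : Sylow p G) = S₃' := by rw [hz₃, inv_inv, hy]
    have hT₁S₃ : ∀ x : L, x ∈ T₁ → z₃ * x * z₃⁻¹ ∈ P := by
      intro x hx
      rw [← mem_S, hS₃]
      exact hS₃' ⟨x, hx, rfl⟩
    -- conjugating `T₁` to `T₂` inside `T₁ ⊔ T₂`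
    obtain ⟨r, hrR, hr⟩ := exists_conj_in_subgroup ((T₁ : Subgroup L) ⊔ (T₂ : Subgroup L)) T₂ T₁
      le_sup_right le_sup_left
    set z₄ : G := z₃ * (r : G)⁻¹ with hz₄
    have hT₂S₄ : ∀ x : L, x ∈ T₂ → z₄ * x * z₄⁻¹ ∈ P := by
      intro x hx
      have h3 : r⁻¹ * x * r ∈ T₁ := by
        rw [← hr, mem_smul_sylow] at hx
        exact hx
      have h4 := hT₁S₃ _ h3
      convert h4 using 1
      simp only [hz₄, Subgroup.coe_mul, Subgroup.coe_inv]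
      group
    -- the step for elements of the Sylow subgroups
    have hDT₁ : ∀ x (hx : x ∈ D), (⟨x, hDL hx⟩ : L) ∈ T₁ := fun x hx => hcomap₁ x _ hx.1
    have hDT₂ : ∀ x (hx : x ∈ D), (⟨x, hDL hx⟩ : L) ∈ T₂ := fun x hx => hcomap₂ x _ hx.2
    have hDz₃ : ∀ x ∈ D, z₃ * x * z₃⁻¹ ∈ P := fun x hx => hT₁S₃ _ (hDT₁ x hx)
    have hLconj : ∀ (r : L) (u : G), u ∈ D → (r : G)⁻¹ * u * r ∈ D := by
      intro r u hu
      have h3 := (Subgroup.mem_normalizer_iff.1 (L.inv_mem r.2) u).1 hu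
      simpa using h3
    have hLconj' : ∀ (r : L) (u : G), u ∈ D → (r : G) * u * (r : G)⁻¹ ∈ D := by
      intro r u hu
      exact (Subgroup.mem_normalizer_iff.1 r.2 u).1 hu
    have hgen : ∀ (w : G) (g : L), w * g * w⁻¹ ∈ P → (∀ x ∈ D, w * x * w⁻¹ ∈ P) →
        ∀ u ∈ D, (z₃ * u * z₃⁻¹)⁻¹ * (z₃ * (g : G)⁻¹ * u * g * z₃⁻¹) ∈ F := by
      intro w g hg hw u hu
      have h3 : ⁅(w * u * w⁻¹)⁻¹, (w * g * w⁻¹)⁻¹⁆ ∈ ⁅(P : Subgroup G), (P : Subgroup G)⁆ :=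
        Subgroup.commutator_mem_commutator ((P : Subgroup G).inv_mem (hw u hu))
          ((P : Subgroup G).inv_mem hg)
      have h4 : u⁻¹ * ((g : G)⁻¹ * u * g) ∈ D := D.mul_mem (D.inv_mem hu) (hLconj g u hu)
      have e : z₃ * w⁻¹ * ⁅(w * u * w⁻¹)⁻¹, (w * g * w⁻¹)⁻¹⁆ * (z₃ * w⁻¹)⁻¹ =
          z₃ * (u⁻¹ * ((g : G)⁻¹ * u * g)) * z₃⁻¹ := by
        simp only [commutatorElement_def]
        group
      have h5 := h2 (z₃ * w⁻¹) _ h3 (by rw [e]; exact hDz₃ _ h4)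
      rw [e] at h5
      have e2 : (z₃ * u * z₃⁻¹)⁻¹ * (z₃ * (g : G)⁻¹ * u * g * z₃⁻¹) =
          z₃ * (u⁻¹ * ((g : G)⁻¹ * u * g)) * z₃⁻¹ := by group
      rw [e2]
      exact h5
    let M : Subgroup L :=
      { carrier := {r | ∀ u ∈ D, (z₃ * u * z₃⁻¹)⁻¹ * (z₃ * (r : G)⁻¹ * u * r * z₃⁻¹) ∈ F}
        one_mem' := by
          intro u hu
          have e : (z₃ * u * z₃⁻¹)⁻¹ * (z₃ * ((1 : L) : G)⁻¹ * u * ((1 : L) : G) * z₃⁻¹) = 1 := by
            simp only [Subgroup.coe_one, inv_one, mul_one]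
            group
          rw [e]
          exact F.one_mem
        mul_mem' := by
          intro a b ha hb u hu
          have h3 := ha u hu
          have h4 := hb _ (hLconj a u hu)
          have h5 := F.mul_mem h3 h4
          have e : (z₃ * u * z₃⁻¹)⁻¹ * (z₃ * ((a * b : L) : G)⁻¹ * u * ((a * b : L) : G) * z₃⁻¹) =
              (z₃ * u * z₃⁻¹)⁻¹ * (z₃ * (a : G)⁻¹ * u * a * z₃⁻¹) *
              ((z₃ * ((a : G)⁻¹ * u * a) * z₃⁻¹)⁻¹ * (z₃ * (b : G)⁻¹ * ((a : G)⁻¹ * u * a) * b * z₃⁻¹)) := by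
            simp only [Subgroup.coe_mul]
            group
          rw [e]
          exact h5
        inv_mem' := by
          intro a ha u hu
          have h3 := ha _ (hLconj' a u hu)
          have h4 := F.inv_mem h3
          have e : (z₃ * u * z₃⁻¹)⁻¹ * (z₃ * ((a⁻¹ : L) : G)⁻¹ * u * ((a⁻¹ : L) : G) * z₃⁻¹) =
              ((z₃ * ((a : G) * u * (a : G)⁻¹) * z₃⁻¹)⁻¹ * (z₃ * (a : G)⁻¹ * ((a : G) * u * (a : G)⁻¹) * a * z₃⁻¹))⁻¹ := by
            simp only [Subgroup.coe_inv]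
            group
          rw [e]
          exact h4 }
    have hT₁M : (T₁ : Subgroup L) ≤ M := fun x hx => hgen z₃ x (hT₁S₃ x hx) hDz₃
    have hT₂M : (T₂ : Subgroup L) ≤ M := fun x hx =>
      hgen z₄ x (hT₂S₄ x hx) (fun y hy => hT₂S₄ _ (hDT₂ y hy))
    have hrM : r ∈ M := (sup_le hT₁M hT₂M) hrR
    have hsD : s ∈ D := ⟨hs₁, hs₂⟩
    have hrs := hrM s hsD
    have hcardA : ∀ (A B : Sylow p G), Nat.card ↥((A : Subgroup G) ⊓ (B : Subgroup G)) ≤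
        Nat.card ↥(P : Subgroup G) := by
      intro A B
      have h3 : Nat.card ↥(A : Subgroup G) = Nat.card ↥(P : Subgroup G) := by
        rw [A.card_eq_multiplicity, P.card_eq_multiplicity]
      have h4 := Subgroup.card_le_of_le (inf_le_left : (A : Subgroup G) ⊓ (B : Subgroup G) ≤ A)
      omega
    -- first induction hypothesis
    have hs₃ : s ∈ (z₃⁻¹ • P : Sylow p G) := mem_S.2 (hDz₃ s hsD)
    have hs₄ : s ∈ (z₄⁻¹ • P : Sylow p G) := mem_S.2 (hT₂S₄ _ (hDT₂ s hsD))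
    have hlt₁ : Nat.card D < Nat.card ↥((S₁ : Subgroup G) ⊓ ((z₃⁻¹ • P : Sylow p G) : Subgroup G)) := by
      apply Cfsg.Agent.Lib.FusionAlperin.card_lt_of_lt
      refine lt_of_le_of_ne (le_inf inf_le_left (fun x hx => mem_S.2 (hDz₃ x hx))) (fun h => hg₁D ?_)
      rw [h]
      exact ⟨hg₁.1, mem_S.2 (hT₁S₃ ⟨g₁, hg₁.2⟩ (hcomap₁ g₁ hg₁.2 hg₁.1))⟩
    have hlt₂ : Nat.card D < Nat.card ↥((S₂ : Subgroup G) ⊓ ((z₄⁻¹ • P : Sylow p G) : Subgroup G)) := by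
      apply Cfsg.Agent.Lib.FusionAlperin.card_lt_of_lt
      refine lt_of_le_of_ne (le_inf inf_le_right (fun x hx => mem_S.2 (hT₂S₄ _ (hDT₂ x hx)))) (fun h => hg₂D ?_)
      rw [h]
      exact ⟨hg₂.1, mem_S.2 (hT₂S₄ ⟨g₂, hg₂.2⟩ (hcomap₂ g₂ hg₂.2 hg₂.1))⟩
    have hle₁ := hcardA S₁ (z₃⁻¹ • P)
    have hle₂ := hcardA S₂ (z₄⁻¹ • P)
    have hm₁ : Nat.card ↥(P : Subgroup G) - Nat.card ↥((S₁ : Subgroup G) ⊓ ((z₃⁻¹ • P : Sylow p G) : Subgroup G)) < m := by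
      omega
    have hm₂ : Nat.card ↥(P : Subgroup G) - Nat.card ↥((S₂ : Subgroup G) ⊓ ((z₄⁻¹ • P : Sylow p G) : Subgroup G)) < m := by
      omega
    have ih₁ := ih _ hm₁ z₁ z₃ le_rfl s hs₁ hs₃
    have ih₂ := ih _ hm₂ z₂ z₄ le_rfl s hs₂ hs₄
    have h6 := F.mul_mem (F.mul_mem ih₁ hrs) (F.inv_mem ih₂)
    have e : (z₁ * s * z₁⁻¹)⁻¹ * (z₂ * s * z₂⁻¹) =
        (z₁ * s * z₁⁻¹)⁻¹ * (z₃ * s * z₃⁻¹) * ((z₃ * s * z₃⁻¹)⁻¹ * (z₃ * (r : G)⁻¹ * s * r * z₃⁻¹)) *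
          ((z₂ * s * z₂⁻¹)⁻¹ * (z₄ * s * z₄⁻¹))⁻¹ := by
      simp only [hz₄]
      group
    rw [e]
    exact h6

/-- Grün's first Theorem: if `P` is a Sylow `p`-subgroup of the finite group `G`, then `P ∩ G'` is the subgroup generated by `P ∩ N_G(P)'` together with the subgroups `P ∩ z P' z⁻¹` for all `z ∈ G`, where `'` denotes the derived subgroup and `N_G(P)` the normalizer of `P`. -/
theorem result {G : Type*} [Group G] [Finite G] {p : ℕ} [Fact p.Prime] (P : Sylow p G) : (P : Subgroup G) ⊓ commutator G = ((P : Subgroup G) ⊓ ⁅Subgroup.normalizer ((P : Subgroup G) : Set G), Subgroup.normalizer ((P : Subgroup G) : Set G)⁆) ⊔ ⨆ z : G, (P : Subgroup G) ⊓ (⁅(P : Subgroup G), (P : Subgroup G)⁆).map (MulAut.conj z).toMonoidHom := by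
  set F : Subgroup G := ((P : Subgroup G) ⊓ ⁅Subgroup.normalizer ((P : Subgroup G) : Set G), Subgroup.normalizer ((P : Subgroup G) : Set G)⁆) ⊔ ⨆ z : G, (P : Subgroup G) ⊓ (⁅(P : Subgroup G), (P : Subgroup G)⁆).map (MulAut.conj z).toMonoidHom with hF
  apply le_antisymm
  · rw [inf_comm, Subgroup.commutator_inf_eq_focalSubgroup, Subgroup.focalSubgroup_def,
      Subgroup.closure_le]
    rintro g ⟨hgP, x, hx, u, rfl⟩
    have hPN : (P : Subgroup G) ≤ Subgroup.normalizer ((P : Subgroup G) : Set G) :=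
      Subgroup.le_normalizer
    have h1 : ∀ x ∈ (P : Subgroup G), ∀ n ∈ Subgroup.normalizer ((P : Subgroup G) : Set G), ⁅x, n⁆ ∈ F := by
      intro x hx n hn
      apply (le_sup_left : _ ≤ F)
      refine ⟨?_, Subgroup.commutator_mem_commutator (hPN hx) hn⟩
      have h3 := (Subgroup.mem_normalizer_iff.1 hn x⁻¹).1 ((P : Subgroup G).inv_mem hx)
      rw [commutatorElement_def]
      have h4 := (P : Subgroup G).mul_mem hx h3
      have e : x * n * x⁻¹ * n⁻¹ = x * (n * x⁻¹ * n⁻¹) := by group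
      rw [e]
      exact h4
    have h2 : ∀ z : G, ∀ c ∈ ⁅(P : Subgroup G), (P : Subgroup G)⁆, z * c * z⁻¹ ∈ (P : Subgroup G) → z * c * z⁻¹ ∈ F := by
      intro z c hc hzc
      apply (le_sup_right : _ ≤ F)
      apply (le_iSup (fun z : G => (P : Subgroup G) ⊓ (⁅(P : Subgroup G), (P : Subgroup G)⁆).map (MulAut.conj z).toMonoidHom) z)
      exact ⟨hzc, c, hc, rfl⟩
    have h3 := key P F h1 h2 _ 1 u le_rfl x⁻¹
      (by
        rw [Cfsg.Agent.S4216.mem_S]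
        have e : (1 : G) * x⁻¹ * (1 : G)⁻¹ = x⁻¹ := by group
        rw [e]
        exact (P : Subgroup G).inv_mem hx)
      (by
        rw [Cfsg.Agent.S4216.mem_S]
        have h4 := (P : Subgroup G).mul_mem ((P : Subgroup G).inv_mem hx) hgP
        have e : u * x⁻¹ * u⁻¹ = x⁻¹ * ⁅x, u⁆ := by
          simp only [commutatorElement_def]
          group
        rw [e]
        exact h4)
    have e : ⁅x, u⁆ = (1 * x⁻¹ * (1 : G)⁻¹)⁻¹ * (u * x⁻¹ * u⁻¹) := by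
      simp only [commutatorElement_def]
      group
    show ⁅x, u⁆ ∈ F
    rw [e]
    exact h3
  · apply sup_le
    · exact inf_le_inf_left _ (Subgroup.commutator_mono le_top le_top)
    · apply iSup_le
      intro z
      apply le_inf inf_le_left
      refine inf_le_right.trans ?_
      rintro _ ⟨c, hc, rfl⟩
      have h1 : c ∈ commutator G := Subgroup.commutator_mono le_top le_top hc
      exact (inferInstance : (commutator G).Normal).conj_mem c h1 z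

end Cfsg.Agent.S4216
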