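import Mathlib
import Cfsg.Statements.S4217

set_option autoImplicit false
open Cfsg

namespace Cfsg.Agent.S4217

section cocycle
variable {Q M : Type*} [Group Q] [CommGroup M] (ρ : Q →* MulAut M)

lemma cocycle_pow [Finite Q] (S : Subgroup Q) (f : Q → Q → M)
    (hf : ∀ x y z, ρ x (f y z) * f x (y * z) = f x y * f (x * y) z)
    (hS : ∀ s ∈ S, ∀ x, f s x = 1) :
    ∃ h : Q → M, ∀ a b, f a b ^ S.index * h (a * b) = h a * ρ a (h b) := by
  classical
  haveI : Fintype (Q ⧸ S) := Fintype.ofFinite _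
  refine ⟨fun a => ∏ c : Q ⧸ S, ρ c.out (f c.out⁻¹ a), fun a b => ?_⟩
  have key : ∀ c : Q ⧸ S, f a b * ρ c.out (f c.out⁻¹ (a * b)) =
      ρ c.out (f c.out⁻¹ a) * ρ a (ρ (a⁻¹ • c).out (f (a⁻¹ • c).out⁻¹ b)) := by
    intro c
    set c' : Q ⧸ S := a⁻¹ • c with hc'
    set r : Q := c.out⁻¹ with hr
    set r' : Q := c'.out⁻¹ with hr'
    set s : Q := r * a * r'⁻¹ with hs_def
    have hs : s ∈ S := by
      have h1 : ((a⁻¹ * c.out : Q) : Q ⧸ S) = c'.out := by
        have h0 : ((a⁻¹ * c.out : Q) : Q ⧸ S) = a⁻¹ • ((c.out : Q) : Q ⧸ S) := rfl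
        rw [h0, QuotientGroup.out_eq', QuotientGroup.out_eq', hc']
      have h2 := QuotientGroup.eq.1 h1
      have h3 : (a⁻¹ * c.out)⁻¹ * c'.out = s := by
        simp only [hs_def, hr, hr']
        group
      rwa [h3] at h2
    have h1 := hf r a b
    have h2 := hf s r' b
    have h3 : s * r' = r * a := by simp [hs_def]
    rw [hS s hs, hS s hs, one_mul, mul_one, h3] at h2
    have h4 : ρ c.out (ρ r (f a b)) = f a b := by
      simp only [hr]
      rw [← MulAut.mul_apply, ← map_mul]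
      simp
    have h5 := congrArg (ρ c.out) h1
    rw [map_mul, map_mul, h4, ← h2] at h5
    rw [h5]
    congr 1
    rw [← MulAut.mul_apply, ← map_mul, ← MulAut.mul_apply, ← map_mul]
    congr 2
    simp only [hs_def, hr, hr']
    group
  have hprod := Finset.prod_congr rfl (fun c _ => key c) (s₁ := (Finset.univ : Finset (Q ⧸ S)))
  rw [Finset.prod_mul_distrib, Finset.prod_mul_distrib, Finset.prod_const] at hprod
  have hcard : (Finset.univ : Finset (Q ⧸ S)).card = S.index := by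
    rw [Finset.card_univ, Subgroup.index, Nat.card_eq_fintype_card]
  rw [hcard] at hprod
  rw [hprod, map_prod]
  congr 1
  exact Equiv.prod_comp (MulAction.toPerm a⁻¹)
    (fun c : Q ⧸ S => ρ a (ρ c.out (f c.out⁻¹ b)))

/-- The functions `f ^ n` that are coboundaries. -/
def Split (f : Q → Q → M) (n : ℤ) : Prop :=
  ∃ h : Q → M, ∀ a b, f a b ^ n * h (a * b) = h a * ρ a (h b)

lemma split_zero (f : Q → Q → M) : Split ρ f 0 :=
  ⟨fun _ => 1, fun a b => by simp⟩

lemma split_add {f : Q → Q → M} {m n : ℤ} (h1 : Split ρ f m) (h2 : Split ρ f n) :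
    Split ρ f (m + n) := by
  obtain ⟨h, hh⟩ := h1
  obtain ⟨k, hk⟩ := h2
  refine ⟨fun a => h a * k a, fun a b => ?_⟩
  have h3 : (f a b ^ m * h (a * b)) * (f a b ^ n * k (a * b)) =
      (h a * ρ a (h b)) * (k a * ρ a (k b)) := by rw [hh, hk]
  rw [zpow_add, map_mul]
  calc f a b ^ m * f a b ^ n * (h (a * b) * k (a * b))
      = f a b ^ m * h (a * b) * (f a b ^ n * k (a * b)) := by ac_rfl
    _ = h a * ρ a (h b) * (k a * ρ a (k b)) := h3
    _ = h a * k a * (ρ a (h b) * ρ a (k b)) := by ac_rfl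

lemma split_neg {f : Q → Q → M} {n : ℤ} (h1 : Split ρ f n) : Split ρ f (-n) := by
  obtain ⟨h, hh⟩ := h1
  refine ⟨fun a => (h a)⁻¹, fun a b => ?_⟩
  have h3 := congrArg (·⁻¹) (hh a b)
  simp only [mul_inv] at h3
  rw [zpow_neg, map_inv]
  exact h3

/-- change of cocycle along a function -/
lemma split_transport {f f' : Q → Q → M} (u : Q → M)
    (hff' : ∀ a b, f' a b = u a * ρ a (u b) * f a b * (u (a * b))⁻¹) {n : ℤ} (h1 : Split ρ f n) :
    Split ρ f' n := by
  obtain ⟨h, hh⟩ := h1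
  refine ⟨fun a => h a * u a ^ n, fun a b => ?_⟩
  rw [hff', map_mul, map_zpow]
  simp only [mul_zpow, inv_zpow]
  have h3 := hh a b
  calc u a ^ n * ρ a (u b) ^ n * f a b ^ n * (u (a * b) ^ n)⁻¹ * (h (a * b) * u (a * b) ^ n)
      = u a ^ n * ρ a (u b) ^ n * (f a b ^ n * h (a * b)) := by
        have h4 : (u (a * b) ^ n)⁻¹ * (h (a * b) * u (a * b) ^ n) = h (a * b) := by
          rw [mul_comm (h (a * b)), inv_mul_cancel_left]
        rw [mul_assoc (u a ^ n * ρ a (u b) ^ n * f a b ^ n), h4]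
        ac_rfl
    _ = u a ^ n * ρ a (u b) ^ n * (h a * ρ a (h b)) := by rw [h3]
    _ = h a * u a ^ n * (ρ a (h b) * ρ a (u b) ^ n) := by ac_rfl

end cocycle

local instance commA {G : Type*} [Group G] (A : Subgroup G) [hA : IsMulCommutative A] : CommGroup A :=
  { (inferInstance : Group A) with
    mul_comm := fun a b => by
      apply Subtype.ext
      exact setLike_mul_comm a.2 b.2 }

section ext
variable {G : Type*} [Group G] (A : Subgroup G) [A.Normal]

/-- A section from a complement in a preimage. -/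
lemma exists_section (S : Subgroup (G ⧸ A)) (K : Subgroup G) (h1 : K ⊓ A = ⊥)
    (h2 : K ⊔ A = S.comap (QuotientGroup.mk' A)) :
    ∃ σ : G ⧸ A → G, (∀ x, (σ x : G ⧸ A) = x) ∧ ∀ s ∈ S, ∀ x, σ (s * x) = σ s * σ x := by
  classical
  have hτ : ∀ s : S, ∃ k ∈ K, (k : G ⧸ A) = s := by
    intro s
    obtain ⟨g, hg⟩ := QuotientGroup.mk_surjective (s : G ⧸ A)
    have hg2 : g ∈ K ⊔ A := by
      rw [h2]
      show (g : G ⧸ A) ∈ S
      rw [hg]
      exact s.2
    obtain ⟨y, hy, z, hz, rfl⟩ := Subgroup.mem_sup_of_normal_right.1 hg2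
    refine ⟨y, hy, ?_⟩
    rw [← hg, QuotientGroup.mk_mul, (QuotientGroup.eq_one_iff z).2 hz, mul_one]
  choose τ hτK hτπ using hτ
  have hτmul : ∀ s t : S, τ (s * t) = τ s * τ t := by
    intro s t
    have h3 : (τ s * τ t)⁻¹ * τ (s * t) ∈ K ⊓ A := by
      refine ⟨K.mul_mem (K.inv_mem (K.mul_mem (hτK s) (hτK t))) (hτK _), ?_⟩
      show _ ∈ A
      rw [← QuotientGroup.eq_one_iff, QuotientGroup.mk_mul, QuotientGroup.mk_inv,
        QuotientGroup.mk_mul, hτπ, hτπ, hτπ]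
      simp
    rw [h1, Subgroup.mem_bot] at h3
    exact (inv_mul_eq_one.1 h3).symm
  -- coset representatives
  let ρ : G ⧸ A → G ⧸ A := fun x => (((x⁻¹ : G ⧸ A) : (G ⧸ A) ⧸ S).out)⁻¹
  have hρS : ∀ x, x * (ρ x)⁻¹ ∈ S := by
    intro x
    have h3 : (((x⁻¹ : G ⧸ A) : (G ⧸ A) ⧸ S).out : (G ⧸ A) ⧸ S) = ((x⁻¹ : G ⧸ A) : (G ⧸ A) ⧸ S) :=
      QuotientGroup.out_eq' _
    have h4 := QuotientGroup.eq.1 h3.symm
    simpa [ρ] using h4
  have hρs : ∀ s ∈ S, ∀ x, ρ (s * x) = ρ x := by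
    intro s hs x
    have h3 : (((s * x)⁻¹ : G ⧸ A) : (G ⧸ A) ⧸ S) = ((x⁻¹ : G ⧸ A) : (G ⧸ A) ⧸ S) := by
      rw [QuotientGroup.eq]
      simpa using hs
    simp only [ρ]
    rw [h3]
  let σ₁ : G ⧸ A → G := fun x => τ ⟨x * (ρ x)⁻¹, hρS x⟩ * (ρ x).out
  have hσ₁ : ∀ x, (σ₁ x : G ⧸ A) = x := by
    intro x
    simp only [σ₁]
    rw [QuotientGroup.mk_mul, hτπ, QuotientGroup.out_eq']
    simp
  have hσ₁s : ∀ (s : S) x, σ₁ (s * x) = τ s * σ₁ x := by
    intro s x
    have h3 := hρs s s.2 x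
    have e : (⟨s * x * (ρ (s * x))⁻¹, hρS _⟩ : S) = s * ⟨x * (ρ x)⁻¹, hρS x⟩ :=
      Subtype.ext (by simp [h3, mul_assoc])
    simp only [σ₁]
    rw [e, h3, hτmul, mul_assoc]
  refine ⟨fun x => σ₁ x * (σ₁ 1)⁻¹, fun x => ?_, fun s hs x => ?_⟩
  · rw [QuotientGroup.mk_mul, QuotientGroup.mk_inv, hσ₁, hσ₁]
    simp
  · have h3 := hσ₁s ⟨s, hs⟩ x
    have h4 := hσ₁s ⟨s, hs⟩ 1
    simp only at h3 h4
    rw [mul_one] at h4
    simp only
    rw [h3, h4]
    group

variable [hA : IsMulCommutative A]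

/-- The action of the quotient on an abelian normal subgroup. -/
noncomputable def actHom : G ⧸ A →* MulAut A :=
  QuotientGroup.lift A (MulAut.conjNormal (H := A)) (fun a ha => by
    ext x
    simp only [MulAut.conjNormal_apply, MulAut.one_apply]
    rw [setLike_mul_comm ha x.2]
    simp)

lemma actHom_mk (g : G) (a : A) : ((actHom A (g : G ⧸ A) a : A) : G) = g * a * g⁻¹ := by
  simp only [actHom]
  exact MulAut.conjNormal_apply g a

variable {A}

/-- The cocycle of a section. -/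
def cocy (σ : G ⧸ A → G) (hσ : ∀ x, (σ x : G ⧸ A) = x) (x y : G ⧸ A) : A :=
  ⟨σ x * σ y * (σ (x * y))⁻¹, by
    rw [← QuotientGroup.eq_one_iff]
    simp [hσ]⟩

lemma act_section (σ : G ⧸ A → G) (hσ : ∀ x, (σ x : G ⧸ A) = x) (x : G ⧸ A) (a : A) :
    ((actHom A x a : A) : G) = σ x * a * (σ x)⁻¹ := by
  conv_lhs => rw [← hσ x]
  exact actHom_mk A _ a

lemma cocy_cocycle (σ : G ⧸ A → G) (hσ : ∀ x, (σ x : G ⧸ A) = x) (x y z : G ⧸ A) :
    actHom A x (cocy σ hσ y z) * cocy σ hσ x (y * z) = cocy σ hσ x y * cocy σ hσ (x * y) z := by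
  apply Subtype.ext
  simp only [Subgroup.coe_mul, act_section σ hσ, cocy, mul_assoc]
  group

lemma split_change (σ σ' : G ⧸ A → G) (hσ : ∀ x, (σ x : G ⧸ A) = x)
    (hσ' : ∀ x, (σ' x : G ⧸ A) = x) {n : ℤ} (h : Split (actHom A) (cocy σ hσ) n) :
    Split (actHom A) (cocy σ' hσ') n := by
  refine split_transport (actHom A) (fun x => (⟨σ' x * (σ x)⁻¹, by
    rw [← QuotientGroup.eq_one_iff]
    simp [hσ, hσ']⟩ : A)) (fun a b => ?_) h
  apply Subtype.ext
  simp only [Subgroup.coe_mul, Subgroup.coe_inv, act_section σ hσ, cocy]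
  group

lemma split_index [Finite G] (S : Subgroup (G ⧸ A)) (K : Subgroup G) (h1 : K ⊓ A = ⊥)
    (h2 : K ⊔ A = S.comap (QuotientGroup.mk' A))
    (σ : G ⧸ A → G) (hσ : ∀ x, (σ x : G ⧸ A) = x) :
    Split (actHom A) (cocy σ hσ) (S.index : ℤ) := by
  obtain ⟨σ', hσ', hmul⟩ := exists_section A S K h1 h2
  apply split_change σ' σ hσ'
  obtain ⟨h, hh⟩ := cocycle_pow (actHom A) S (cocy σ' hσ') (cocy_cocycle σ' hσ') (by
    intro s hs x
    apply Subtype.ext
    simp [cocy, hmul s hs x])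
  exact ⟨h, fun a b => by rw [zpow_natCast]; exact hh a b⟩

lemma complement_of_split (σ : G ⧸ A → G) (hσ : ∀ x, (σ x : G ⧸ A) = x)
    (h : Split (actHom A) (cocy σ hσ) 1) : ∃ K : Subgroup G, K.IsComplement' A := by
  obtain ⟨h, hh⟩ := h
  let ψ : G ⧸ A →* G := MonoidHom.mk' (fun x => ((h x : A) : G)⁻¹ * σ x) (by
    intro a b
    have h3 := hh a b
    rw [zpow_one] at h3
    have h4 : (h (a * b))⁻¹ * (cocy σ hσ a b)⁻¹ = (h a)⁻¹ * (actHom A a (h b))⁻¹ := by
      have h5 := congrArg (·⁻¹) h3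
      simp only [mul_inv] at h5
      rw [mul_comm, h5]
    have h6 := congrArg (Subtype.val) h4
    simp only [Subgroup.coe_mul, Subgroup.coe_inv, act_section σ hσ, cocy] at h6
    have h7 : ((h (a * b) : A) : G)⁻¹ * σ (a * b) =
        (((h (a * b) : A) : G)⁻¹ * (σ a * σ b * (σ (a * b))⁻¹)⁻¹) * (σ a * σ b) := by group
    rw [h7, h6]
    group)
  have hψ : ∀ x, (ψ x : G ⧸ A) = x := by
    intro x
    show ((((h x : A) : G)⁻¹ * σ x : G) : G ⧸ A) = x
    rw [QuotientGroup.mk_mul, hσ, QuotientGroup.mk_inv, (QuotientGroup.eq_one_iff _).2 (h x).2]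
    simp
  refine ⟨ψ.range, Subgroup.isComplement'_of_disjoint_and_mul_eq_univ ?_ ?_⟩
  · rw [Subgroup.disjoint_def]
    rintro _ ⟨x, rfl⟩ hx
    have h3 := hψ x
    rw [(QuotientGroup.eq_one_iff _).2 hx] at h3
    rw [← h3, map_one]
  · rw [Set.eq_univ_iff_forall]
    intro g
    refine Set.mem_mul.2 ⟨ψ (g : G ⧸ A), ⟨_, rfl⟩, (ψ (g : G ⧸ A))⁻¹ * g, ?_, by group⟩
    rw [SetLike.mem_coe, ← QuotientGroup.eq_one_iff, QuotientGroup.mk_mul, QuotientGroup.mk_inv, hψ]
    simp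

end ext

/-- Let `A` be an abelian normal subgroup of the finite group `G`. Then `A` has a complement in `G` if and only if, for every prime `p` dividing the index of `A`, there are a Sylow `p`-subgroup `S` of `G/A` and a subgroup `K` of `G` with `K ∩ A = 1` and `KA` equal to the preimage of `S` (that is, `A` has a complement in the preimage of a Sylow `p`-subgroup of `G/A`). -/
theorem result {G : Type*} [Group G] [Finite G] (A : Subgroup G) [A.Normal] (hA : IsMulCommutative A) : (∃ K : Subgroup G, K.IsComplement' A) ↔ ∀ p : ℕ, p.Prime → p ∣ A.index → ∃ (S : Sylow p (G ⧸ A)) (K : Subgroup G), K ⊓ A = ⊥ ∧ K ⊔ A = (S : Subgroup (G ⧸ A)).comap (QuotientGroup.mk' A) := by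
  classical
  haveI := hA
  constructor
  · rintro ⟨K, hK⟩ p hp hpA
    haveI : Fact p.Prime := ⟨hp⟩
    let S : Sylow p (G ⧸ A) := default
    refine ⟨S, K ⊓ (S : Subgroup (G ⧸ A)).comap (QuotientGroup.mk' A), ?_, ?_⟩
    · rw [eq_bot_iff]
      rintro x ⟨⟨hx1, -⟩, hx2⟩
      exact (Subgroup.disjoint_def.1 hK.disjoint hx1 hx2) ▸ Subgroup.one_mem _
    · apply le_antisymm
      · refine sup_le inf_le_right ?_
        intro x hx
        show (x : G ⧸ A) ∈ (S : Subgroup (G ⧸ A))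
        rw [(QuotientGroup.eq_one_iff x).2 hx]
        exact Subgroup.one_mem _
      · intro x hx
        have hx2 : x ∈ K ⊔ A := by
          rw [hK.sup_eq_top]
          trivial
        obtain ⟨y, hy, z, hz, rfl⟩ := Subgroup.mem_sup_of_normal_right.1 hx2
        apply Subgroup.mul_mem_sup _ hz
        refine ⟨hy, ?_⟩
        have h3 : (y : G ⧸ A) = ((y * z : G) : G ⧸ A) := by
          rw [QuotientGroup.mk_mul, (QuotientGroup.eq_one_iff z).2 hz, mul_one]
        show (y : G ⧸ A) ∈ (S : Subgroup (G ⧸ A))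
        rw [h3]
        exact hx
  · intro H
    by_cases hQ : A.index = 1
    · refine ⟨⊥, ?_⟩
      rw [Subgroup.index_eq_one] at hQ
      rw [hQ]
      exact Subgroup.isComplement'_bot_top
    let σ₀ : G ⧸ A → G := fun x => x.out
    have hσ₀ : ∀ x, (σ₀ x : G ⧸ A) = x := fun x => QuotientGroup.out_eq' x
    let B : AddSubgroup ℤ :=
      { carrier := {n | Split (actHom A) (cocy σ₀ hσ₀) n}
        zero_mem' := split_zero _ _
        add_mem' := fun h1 h2 => split_add _ h1 h2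
        neg_mem' := fun h1 => split_neg _ h1 }
    have hp : ∀ p : ℕ, p.Prime → p ∣ A.index → ∃ d : ℕ, d ∣ A.index ∧ (d : ℤ) ∈ B ∧ ¬ p ∣ d := by
      intro p hp hpA
      haveI : Fact p.Prime := ⟨hp⟩
      obtain ⟨S, K, h1, h2⟩ := H p hp hpA
      exact ⟨(S : Subgroup (G ⧸ A)).index, Subgroup.index_dvd_card _, split_index _ K h1 h2 σ₀ hσ₀,
        S.not_dvd_index⟩
    obtain ⟨a, ha⟩ := Int.subgroup_cyclic B
    have hmem : ∀ d : ℤ, d ∈ B → a ∣ d := by
      intro d hd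
      rw [ha, AddSubgroup.mem_closure_singleton] at hd
      obtain ⟨k, rfl⟩ := hd
      exact Dvd.intro_left k (by simp)
    have hA1 : a.natAbs = 1 := by
      by_contra hne
      obtain ⟨p, hp1, hp2⟩ := Nat.exists_prime_and_dvd hne
      have hpa : (p : ℤ) ∣ a := Int.natCast_dvd.2 hp2
      have hcard : A.index ≠ 0 := Subgroup.index_ne_zero_of_finite
      obtain ⟨l, hl1, hl2⟩ := Nat.exists_prime_and_dvd hQ
      obtain ⟨d, hd1, hd2, hd3⟩ := hp l hl1 hl2
      have hpd : p ∣ d := Int.natCast_dvd_natCast.1 (hpa.trans (hmem _ hd2))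
      have hpA : p ∣ A.index := hpd.trans hd1
      obtain ⟨d', hd1', hd2', hd3'⟩ := hp p hp1 hpA
      exact hd3' (Int.natCast_dvd_natCast.1 (hpa.trans (hmem _ hd2')))
    have hone : (1 : ℤ) ∈ B := by
      rw [ha, AddSubgroup.mem_closure_singleton]
      rcases Int.natAbs_eq a with h | h
      · exact ⟨1, by rw [h, hA1]; simp⟩
      · exact ⟨-1, by rw [h, hA1]; simp⟩
    exact complement_of_split σ₀ hσ₀ hone

end Cfsg.Agent.S4217
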