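import Mathlib
import Cfsg.Statements.S4218
import Cfsg.Agent.Lib.PSolv
import Cfsg.Agent.Lib.PPrimeP
import Cfsg.Agent.Lib.BurnsideAut
import Cfsg.Agent.Lib.Frat

set_option autoImplicit false
open Cfsg
open scoped commutatorElement

namespace Cfsg.Agent.S4218

open Cfsg.Agent.Lib.PCore Cfsg.Agent.Lib.PSolv Cfsg.Agent.Lib.PPrimeP

/-- Burnside: a `p'`-automorphism of a finite `p`-group trivial on the Frattini quotient is trivial. -/
lemma aut_eq_one {Q : Type*} [Group Q] [Finite Q] {p m : ℕ} [hp : Fact p.Prime] (hQ : IsPGroup p Q)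
    (hm : m.Coprime p) (τ : MulAut Q) (hτ : τ ^ m = 1) (h : ∀ q : Q, τ q * q⁻¹ ∈ frattini Q) :
    τ = 1 := by
  by_contra hne
  have hpow : ∀ (k : ℕ) (q : Q), (τ ^ k) q * q⁻¹ ∈ frattini Q := by
    intro k
    induction k with
    | zero => intro q; simp [frattini, one_mem]
    | succ k ih =>
      intro q
      have h1 := (frattini Q).mul_mem (ih (τ q)) (h q)
      have h2 : (τ ^ (k + 1)) q * q⁻¹ = (τ ^ k) (τ q) * (τ q)⁻¹ * (τ q * q⁻¹) := by
        rw [pow_succ]
        simp only [MulAut.mul_apply]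
        group
      rw [h2]
      exact h1
  have hs : orderOf τ ∣ m := orderOf_dvd_of_pow_eq_one hτ
  have hs1 : orderOf τ ≠ 1 := by
    rw [Ne, orderOf_eq_one_iff]
    exact hne
  obtain ⟨r, hr, hrs⟩ := Nat.exists_prime_and_dvd hs1
  have hrp : r ≠ p := by
    rintro rfl
    have h1 : r ∣ m := hrs.trans hs
    exact hr.one_lt.ne' (Nat.eq_one_of_dvd_coprimes hm h1 dvd_rfl)
  obtain ⟨t, ht⟩ := hrs
  have hm0 : m ≠ 0 := by
    rintro rfl
    have := (Nat.coprime_zero_left p).1 hm
    exact hp.out.one_lt.ne' this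
  have hspos : 0 < orderOf τ := Nat.pos_of_dvd_of_pos hs (Nat.pos_of_ne_zero hm0)
  have htpos : 0 < t := by
    rcases Nat.eq_zero_or_pos t with h0 | h0
    · rw [h0, mul_zero] at ht
      omega
    · exact h0
  have h1 : (τ ^ t) ^ r = 1 := by
    rw [← pow_mul, mul_comm, ← ht, pow_orderOf_eq_one]
  have h2 := Cfsg.Agent.Lib.BurnsideAut.aut_eq_one_of_trivial_on_frattini hQ hr hrp (τ ^ t) h1 (hpow t)
  have h3 := orderOf_le_of_pow_eq_one htpos h2
  have h4 : t < orderOf τ := by
    rw [ht]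
    have := hr.one_lt
    nlinarith
  omega

/-- The action on the Frattini quotient. -/
noncomputable def rhoF (Y : Type*) [Group Y] : MulAut Y →* MulAut (Y ⧸ frattini Y) where
  toFun := fun α => QuotientGroup.congr (frattini Y) (frattini Y) α (by
    have h := (inferInstance : (frattini Y).Characteristic).fixed (MulEquiv.symm α)
    conv_rhs => rw [← h]
    exact Subgroup.map_equiv_eq_comap_symm α (frattini Y))
  map_one' := by
    ext x
    induction x using QuotientGroup.induction_on with | H x => ?_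
    rfl
  map_mul' := by
    intro a b
    ext x
    induction x using QuotientGroup.induction_on with | H x => ?_
    rfl

lemma rhoF_eq_one_iff {Y : Type*} [Group Y] (τ : MulAut Y) :
    rhoF Y τ = 1 ↔ ∀ y, τ y * y⁻¹ ∈ frattini Y := by
  constructor
  · intro h y
    have h1 : ((τ y : Y) : Y ⧸ frattini Y) = (y : Y ⧸ frattini Y) := by
      have := congrArg (fun f : MulAut (Y ⧸ frattini Y) => f (y : Y ⧸ frattini Y)) h
      exact this
    rw [QuotientGroup.eq] at h1
    have h3 := (inferInstance : (frattini Y).Normal).conj_mem _ ((frattini Y).inv_mem h1) (τ y)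
    have h4 : τ y * ((τ y)⁻¹ * y)⁻¹ * (τ y)⁻¹ = τ y * y⁻¹ := by group
    rwa [h4] at h3
  · intro h
    ext x
    induction x using QuotientGroup.induction_on with | H x => ?_
    show ((τ x : Y) : Y ⧸ frattini Y) = (x : Y ⧸ frattini Y)
    rw [QuotientGroup.eq]
    have h3 := (inferInstance : (frattini Y).Normal).conj_mem _ ((frattini Y).inv_mem (h x)) (τ x)⁻¹
    have h4 : (τ x)⁻¹ * (τ x * x⁻¹)⁻¹ * (τ x)⁻¹⁻¹ = (τ x)⁻¹ * x := by group
    rwa [h4] at h3

/-- Let `G` be a finite `p`-solvable group, `N₀ = O_{p'}(G)`, `P₁ = O_{p',p}(G)`, and let `F ≤ P₁` be the preimage of the Frattini subgroup of `P₁/N₀`. Then an element `g` of `G` induces the identity on `P₁/F` by conjugation (that is, `g x g⁻¹ x⁻¹ ∈ F` for all `x ∈ P₁`) if and only if `g ∈ P₁`: the group `G/P₁` acts faithfully on `P₁/F`. -/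
theorem result {G : Type*} [Group G] [Finite G] {p : ℕ} [Fact p.Prime] (hG : Cfsg.IsPSolvable p G) (g : G) : (∀ x ∈ Cfsg.pPrimePCore p G, g * x * g⁻¹ * x⁻¹ ∈ ((frattini (↥(Cfsg.pPrimePCore p G) ⧸ (Cfsg.pPrimeCore p G).subgroupOf (Cfsg.pPrimePCore p G))).comap (QuotientGroup.mk' ((Cfsg.pPrimeCore p G).subgroupOf (Cfsg.pPrimePCore p G)))).map (Cfsg.pPrimePCore p G).subtype) ↔ g ∈ Cfsg.pPrimePCore p G := by
  classical
  have hp : p.Prime := Fact.out
  set N₀ := pPrimeCore p G with hN₀
  set K := pPrimePCore p G with hK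
  set L := N₀.subgroupOf K with hL
  -- `Y = K / N₀` is a `p`-group
  have hY : IsPGroup p (K ⧸ L) := by
    intro y
    induction y using QuotientGroup.induction_on with | H x => ?_
    have h1 : (x : G) ∈ K := x.2
    have h2 : ((x : G) : G ⧸ N₀) ∈ pCore p (G ⧸ N₀) := h1
    obtain ⟨k, hk⟩ := isPGroup_pCore (G := G ⧸ N₀) p ⟨_, h2⟩
    refine ⟨k, ?_⟩
    rw [← QuotientGroup.mk_pow, QuotientGroup.eq_one_iff]
    show ((x ^ p ^ k : K) : G) ∈ N₀
    have h3 := congrArg Subtype.val hk
    simp only [SubmonoidClass.coe_pow, OneMemClass.coe_one] at h3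
    rw [← QuotientGroup.mk_pow, QuotientGroup.eq_one_iff] at h3
    simpa using h3
  constructor
  · intro h
    have he : ∀ g : G, L.map ((MulAut.conjNormal g : MulAut K) : K →* K) = L := by
      intro g
      ext y
      constructor
      · rintro ⟨x, hx, rfl⟩
        show ((MulAut.conjNormal g x : K) : G) ∈ N₀
        rw [MulAut.conjNormal_apply]
        exact (inferInstance : N₀.Normal).conj_mem _ hx g
      · intro hy
        refine ⟨MulAut.conjNormal g⁻¹ y, ?_, ?_⟩
        · show ((MulAut.conjNormal g⁻¹ y : K) : G) ∈ N₀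
          rw [MulAut.conjNormal_apply]
          exact (inferInstance : N₀.Normal).conj_mem _ hy g⁻¹
        · show (MulAut.conjNormal g) (MulAut.conjNormal g⁻¹ y) = y
          apply Subtype.ext
          simp
    let α : G →* MulAut (K ⧸ L) :=
      { toFun := fun g => QuotientGroup.congr L L (MulAut.conjNormal g) (he g)
        map_one' := by
          ext y
          induction y using QuotientGroup.induction_on with | H x => ?_
          show ((MulAut.conjNormal (1 : G) x : K) : K ⧸ L) = (x : K ⧸ L)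
          simp
        map_mul' := by
          intro a b
          ext y
          induction y using QuotientGroup.induction_on with | H x => ?_
          show ((MulAut.conjNormal (a * b) x : K) : K ⧸ L) =
            ((MulAut.conjNormal a (MulAut.conjNormal b x) : K) : K ⧸ L)
          simp }
    have hαmk : ∀ (g : G) (x : K), α g (x : K ⧸ L) = ((MulAut.conjNormal g x : K) : K ⧸ L) :=
      fun _ _ => rfl
    let C : Subgroup G := ((rhoF (K ⧸ L)).comp α).ker
    have hC : ∀ c : G, c ∈ C ↔ ∀ y, α c y * y⁻¹ ∈ frattini (K ⧸ L) := by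
      intro c
      rw [← rhoF_eq_one_iff]
      rfl
    have hgC : g ∈ C := by
      rw [hC]
      intro y
      induction y using QuotientGroup.induction_on with | H x => ?_
      obtain ⟨x', hx', hx'2⟩ := h x x.2
      have h1 : α g (x : K ⧸ L) * (x : K ⧸ L)⁻¹ = (x' : K ⧸ L) := by
        rw [hαmk, ← QuotientGroup.mk_inv, ← QuotientGroup.mk_mul]
        congr 1
        apply Subtype.ext
        simp only [Subgroup.coe_mul, Subgroup.coe_inv, MulAut.conjNormal_apply]
        exact hx'2.symm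
      rw [h1]
      exact hx'
    have hkey : ∀ b ∈ C, ∀ m : ℕ, m.Coprime p → b ^ m = 1 → b ∈ N₀ := by
      intro b hb m hm hbm
      have h1 : α b = 1 := by
        apply aut_eq_one hY hm
        · rw [← map_pow, hbm, map_one]
        · exact (hC b).1 hb
      have hcent : (b : G ⧸ N₀) ∈ Subgroup.centralizer (pCore p (G ⧸ N₀) : Set (G ⧸ N₀)) := by
        rw [Subgroup.mem_centralizer_iff]
        intro q hq
        obtain ⟨x, rfl⟩ := QuotientGroup.mk_surjective q
        have hx : x ∈ K := hq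
        have h2 := hαmk b ⟨x, hx⟩
        rw [h1] at h2
        have h3 : ((⟨x, hx⟩ : K) : K ⧸ L) = ((MulAut.conjNormal b (⟨x, hx⟩ : K) : K) : K ⧸ L) := h2
        rw [QuotientGroup.eq] at h3
        have h4 : ((⟨x, hx⟩ : K)⁻¹ * MulAut.conjNormal b (⟨x, hx⟩ : K) : K).1 ∈ N₀ := h3
        simp only [Subgroup.coe_mul, Subgroup.coe_inv, MulAut.conjNormal_apply] at h4
        have h5 := (QuotientGroup.eq_one_iff _).2 h4
        rw [QuotientGroup.mk_mul, QuotientGroup.mk_inv, QuotientGroup.mk_mul, QuotientGroup.mk_mul,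
          QuotientGroup.mk_inv] at h5
        have h6 := inv_mul_eq_one.1 h5
        calc (x : G ⧸ N₀) * (b : G ⧸ N₀) = ((b : G ⧸ N₀) * (x : G ⧸ N₀) * (b : G ⧸ N₀)⁻¹) * (b : G ⧸ N₀) := by
              rw [← h6]
          _ = (b : G ⧸ N₀) * (x : G ⧸ N₀) := by group
      have hsol := isPSolvable_quotient hG N₀
      have hcore : pPrimeCore p (G ⧸ N₀) = ⊥ := pPrimeCore_quotient_pPrimeCore p
      have hbQ := centralizer_pCore_le_of_pSolvable hsol hcore hcent
      obtain ⟨k, hk⟩ := isPGroup_pCore (G := G ⧸ N₀) p ⟨_, hbQ⟩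
      have h2 : (b : G ⧸ N₀) ^ p ^ k = 1 := by
        have := congrArg Subtype.val hk
        simpa using this
      have h3 : (b : G ⧸ N₀) ^ m = 1 := by
        rw [← QuotientGroup.mk_pow, hbm]
        rfl
      have h4 : orderOf (b : G ⧸ N₀) = 1 :=
        Nat.eq_one_of_dvd_coprimes (hm.pow_right k) (orderOf_dvd_of_pow_eq_one h3)
          (orderOf_dvd_of_pow_eq_one h2)
      rw [orderOf_eq_one_iff] at h4
      exact (QuotientGroup.eq_one_iff b).1 h4
    have hCp : IsPGroup p (C.map (QuotientGroup.mk' N₀)) := by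
      rintro ⟨_, c, hc, rfl⟩
      have hn : orderOf c ≠ 0 := (orderOf_pos c).ne'
      obtain ⟨a, m, hm, hcm⟩ := Nat.exists_eq_pow_mul_and_not_dvd hn p hp.ne_one
      have h1 : c ^ p ^ a ∈ N₀ := by
        apply hkey _ (C.pow_mem hc _) m ((Nat.Prime.coprime_iff_not_dvd hp).2 hm).symm
        rw [← pow_mul, ← hcm, pow_orderOf_eq_one]
      refine ⟨a, ?_⟩
      apply Subtype.ext
      show ((c : G ⧸ N₀)) ^ p ^ a = 1
      rw [← QuotientGroup.mk_pow]
      exact (QuotientGroup.eq_one_iff _).2 h1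
    have hCn : (C.map (QuotientGroup.mk' N₀)).Normal :=
      Subgroup.Normal.map inferInstance _ (QuotientGroup.mk'_surjective _)
    exact le_pCore hCn hCp ⟨g, hgC, rfl⟩
  · intro hg x hx
    have h1 := Cfsg.Agent.Lib.Frat.commutator_le_frattini hY
    refine ⟨⁅(⟨g, hg⟩ : K), (⟨x, hx⟩ : K)⁆, ?_, ?_⟩
    · show (((⁅(⟨g, hg⟩ : K), (⟨x, hx⟩ : K)⁆ : K)) : K ⧸ L) ∈ frattini (K ⧸ L)
      apply h1
      have h2 : ((⁅(⟨g, hg⟩ : K), (⟨x, hx⟩ : K)⁆ : K) : K ⧸ L) =
          ⁅(((⟨g, hg⟩ : K)) : K ⧸ L), (((⟨x, hx⟩ : K)) : K ⧸ L)⁆ :=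
        map_commutatorElement (QuotientGroup.mk' L) _ _
      rw [h2]
      exact Subgroup.commutator_mem_commutator (Subgroup.mem_top _) (Subgroup.mem_top _)
    · simp [commutatorElement_def]

end Cfsg.Agent.S4218
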