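import Mathlib
import Cfsg.Statements.S4219

set_option autoImplicit false
open Cfsg

namespace Cfsg.Agent.S4219

/-- Let a finite group `G` act `t`-fold transitively on a finite set, let `H` be the stabilizer of `t` distinct points and `P` a Sylow `p`-subgroup of `H`. Then the normalizer of `P` in `G` is `t`-fold transitive on the fixed points of `P`: any `t` distinct fixed points of `P` can be carried to any other `t` distinct fixed points of `P` by an element normalizing `P`. -/
theorem result {G : Type*} [Group G] [Finite G] {α : Type*} [Fintype α] [MulAction G α] {t : ℕ} (hG : MulAction.IsMultiplyPretransitive G α t) (x : Fin t ↪ α) {p : ℕ} [Fact p.Prime] (P : Sylow p (MulAction.stabilizer G x)) (a b : Fin t ↪ α) (ha : ∀ i, a i ∈ MulAction.fixedPoints ((P : Subgroup (MulAction.stabilizer G x)).map (MulAction.stabilizer G x).subtype) α) (hb : ∀ i, b i ∈ MulAction.fixedPoints ((P : Subgroup (MulAction.stabilizer G x)).map (MulAction.stabilizer G x).subtype) α) : ∃ g ∈ Subgroup.normalizer ((((P : Subgroup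 (MulAction.stabilizer G x)).map (MulAction.stabilizer G x).subtype) : Subgroup G) : Set G), g • a = b := by
  classical
  set PG : Subgroup G := (P : Subgroup (MulAction.stabilizer G x)).map (MulAction.stabilizer G x).subtype with hPG
  obtain ⟨u, hu⟩ := hG.exists_smul_eq x a
  obtain ⟨v, hv⟩ := hG.exists_smul_eq x b
  -- elements of `PG` fix `a` and `b`
  have hfix : ∀ y ∈ PG, ∀ c : Fin t ↪ α, (∀ i, c i ∈ MulAction.fixedPoints PG α) → y • c = c := by
    intro y hy c hc
    ext i
    have := hc i (⟨y, hy⟩ : PG)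
    simpa using this
  have hcardP : Nat.card PG = Nat.card (P : Subgroup (MulAction.stabilizer G x)) :=
    Nat.card_congr (Subgroup.equivMapOfInjective _ _ (MulAction.stabilizer G x).subtype_injective).symm.toEquiv
  have hmem : ∀ (w : G) (c : Fin t ↪ α), w • x = c → (∀ i, c i ∈ MulAction.fixedPoints PG α) →
      ∀ y ∈ PG, w⁻¹ * y * w ∈ MulAction.stabilizer G x := by
    intro w c hw hc y hy
    rw [MulAction.mem_stabilizer_iff]
    have h1 : y • c = c := hfix y hy c hc
    rw [mul_smul, mul_smul, hw, h1, ← hw, inv_smul_smul]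
  -- the two conjugates of `P` inside `S`
  have key : ∀ (w : G) (c : Fin t ↪ α), w • x = c → (∀ i, c i ∈ MulAction.fixedPoints PG α) →
      ∃ Q : Sylow p (MulAction.stabilizer G x), ∀ z : (MulAction.stabilizer G x), z ∈ (Q : Subgroup (MulAction.stabilizer G x)) ↔ w * (z : G) * w⁻¹ ∈ PG := by
    intro w c hw hc
    let Q0 : Subgroup (MulAction.stabilizer G x) := (PG.map (MulAut.conj w⁻¹).toMonoidHom).subgroupOf (MulAction.stabilizer G x)
    have hle : PG.map (MulAut.conj w⁻¹).toMonoidHom ≤ (MulAction.stabilizer G x) := by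
      rintro _ ⟨y, hy, rfl⟩
      rw [MulAction.mem_stabilizer_iff]
      have h1 : y • c = c := hfix y hy c hc
      show (w⁻¹ * y * w⁻¹⁻¹) • x = x
      rw [inv_inv, mul_smul, mul_smul, hw, h1, ← hw, inv_smul_smul]
    have hcard : Nat.card Q0 = p ^ (Nat.card (MulAction.stabilizer G x)).factorization p := by
      have h1 : Nat.card Q0 = Nat.card (PG.map (MulAut.conj w⁻¹).toMonoidHom : Subgroup G) :=
        Nat.card_congr (Subgroup.subgroupOfEquivOfLe hle).toEquiv
      have h2 : Nat.card (PG.map (MulAut.conj w⁻¹).toMonoidHom : Subgroup G) = Nat.card PG :=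
        Nat.card_congr (Subgroup.equivMapOfInjective _ _ (MulAut.conj w⁻¹).injective).symm.toEquiv
      rw [h1, h2, hcardP]
      exact Sylow.card_eq_multiplicity P
    refine ⟨Sylow.ofCard Q0 hcard, ?_⟩
    intro z
    rw [Sylow.coe_ofCard]
    show (z : G) ∈ PG.map (MulAut.conj w⁻¹).toMonoidHom ↔ _
    constructor
    · rintro ⟨y, hy, hyz⟩
      have : (z : G) = w⁻¹ * y * w := by
        rw [← hyz]; simp
      rw [this]
      simpa [mul_assoc] using hy
    · intro h
      refine ⟨_, h, ?_⟩
      simp [mul_assoc]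
  obtain ⟨Q1, hQ1⟩ := key u a hu ha
  obtain ⟨Q2, hQ2⟩ := key v b hv hb
  obtain ⟨h, hh⟩ := MulAction.exists_smul_eq (MulAction.stabilizer G x) Q1 Q2
  have hconj : ∀ z : (MulAction.stabilizer G x), z ∈ (Q1 : Subgroup (MulAction.stabilizer G x)) ↔ h * z * h⁻¹ ∈ (Q2 : Subgroup (MulAction.stabilizer G x)) := by
    intro z
    rw [← hh, Sylow.coe_subgroup_smul, Subgroup.mem_pointwise_smul_iff_inv_smul_mem]
    have : (MulAut.conj h)⁻¹ • (h * z * h⁻¹) = z := by
      rw [MulAut.smul_def, MulAut.conj_inv_apply]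
      group
    rw [this]
  -- the element
  refine ⟨v * (h : G) * u⁻¹, ?_, ?_⟩
  · rw [Subgroup.mem_normalizer_iff]
    intro y
    constructor
    · intro hy
      have hz := hmem u a hu ha y hy
      have h1 : (⟨u⁻¹ * y * u, hz⟩ : MulAction.stabilizer G x) ∈ (Q1 : Subgroup (MulAction.stabilizer G x)) := by
        rw [hQ1]
        simpa [mul_assoc] using hy
      have h2 := (hQ2 _).1 ((hconj _).1 h1)
      have h3 : v * ((h * (⟨u⁻¹ * y * u, hz⟩ : MulAction.stabilizer G x) * h⁻¹ : MulAction.stabilizer G x) : G) * v⁻¹ =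
          v * (h : G) * u⁻¹ * y * (v * (h : G) * u⁻¹)⁻¹ := by
        simp only [Subgroup.coe_mul, Subgroup.coe_inv]
        group
      rwa [h3] at h2
    · intro hy
      have hz := hmem v b hv hb _ hy
      have h1 : (⟨_, hz⟩ : MulAction.stabilizer G x) ∈ (Q2 : Subgroup (MulAction.stabilizer G x)) := by
        rw [hQ2]
        simpa [mul_assoc] using hy
      have h2 : (h⁻¹ * (⟨_, hz⟩ : MulAction.stabilizer G x) * h : MulAction.stabilizer G x) ∈ (Q1 : Subgroup (MulAction.stabilizer G x)) := by
        rw [hconj]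
        have : h * (h⁻¹ * (⟨_, hz⟩ : MulAction.stabilizer G x) * h) * h⁻¹ = (⟨_, hz⟩ : MulAction.stabilizer G x) := by
          group
        rw [this]
        exact h1
      have h3 := (hQ1 _).1 h2
      have h4 : u * ((h⁻¹ * (⟨_, hz⟩ : MulAction.stabilizer G x) * h : MulAction.stabilizer G x) : G) * u⁻¹ = y := by
        simp only [Subgroup.coe_mul, Subgroup.coe_inv]
        group
      rwa [h4] at h3
  · have h1 : (u⁻¹ : G) • a = x := by rw [← hu, inv_smul_smul]
    have h2 : ((h : G)) • x = x := h.2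
    rw [mul_smul, mul_smul, h1, h2, hv]

end Cfsg.Agent.S4219
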