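import Mathlib
-- Template for statement S4221 (row 4221; see /opt/grader/pristine/manifest.json for weights).
-- Copy to Cfsg/Agent/S4221.lean and replace the sorry. The statement below is byte-identical to the frozen
-- statement Cfsg.CfsgFrozen.S4221 (Cfsg/Statements/S4221.lean; the theorem Cfsg.fg14_four_transitive_odd_four_point_stabilizer);
-- the grader kernel-checks Cfsg.Agent.S4221.result against that frozen type. Keep the theorem IN THIS FILE
-- (a `result` declared elsewhere and merely imported here is not credited); helpers may live anywhere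
-- under Cfsg/Agent/.
import Cfsg.Statements.S4221
import Cfsg.Agent.Lib.NagaoOdd5

set_option autoImplicit false
set_option linter.style.haveILetI false
open Cfsg

namespace Cfsg.Agent.S4221

open Equiv Finset
open Cfsg.Agent.Lib.LVBasic Cfsg.Agent.Lib.NagaoBase

/-- Let `G` be a `4`-fold transitive permutation group on a finite set of `n` points in which the pointwise stabilizer of some four distinct points has odd order. Then `n = 4` or `n = 5` with `G` the full symmetric group, or `n = 6` or `n = 7` with `G` the alternating group, or `n = 11` and `G` has order `7920`. -/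
theorem result {α : Type*} [Fintype α] [DecidableEq α] (G : Subgroup (Equiv.Perm α)) (hG : MulAction.IsMultiplyPretransitive G α 4) (x : Fin 4 ↪ α) (hodd : Odd (Nat.card (MulAction.stabilizer G x))) : ((Fintype.card α = 4 ∨ Fintype.card α = 5) ∧ G = ⊤) ∨ ((Fintype.card α = 6 ∨ Fintype.card α = 7) ∧ G = alternatingGroup α) ∨ (Fintype.card α = 11 ∧ Nat.card G = 7920) := by
  classical
  have hcard4 : 4 ≤ Fintype.card α := by
    have := Fintype.card_le_of_embedding x
    simpa using this
  have h4 : ∀ v w : Fin 4 ↪ α, ∃ g ∈ G, ∀ i, g (v i) = w i := by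
    intro v w
    obtain ⟨g, hg⟩ := MulAction.exists_smul_eq G v w
    refine ⟨g, g.2, fun i => ?_⟩
    have := congrArg (fun f : Fin 4 ↪ α => f i) hg
    exact this
  -- the stabiliser
  set D₀ : Finset α := Finset.univ.map x with hD₀def
  have hD₀ : D₀.card = 4 := by
    rw [hD₀def, Finset.card_map]
    simp
  have hmap : (MulAction.stabilizer G x).map G.subtype = fixS G D₀ := by
    ext g
    simp only [Subgroup.mem_map, MulAction.mem_stabilizer_iff, mem_fixS]
    constructor
    · rintro ⟨g', hg', rfl⟩
      refine ⟨g'.2, fun a ha => ?_⟩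
      obtain ⟨i, -, rfl⟩ := Finset.mem_map.1 ha
      have := congrArg (fun f : Fin 4 ↪ α => f i) hg'
      exact this
    · rintro ⟨hg, hfix⟩
      refine ⟨⟨g, hg⟩, ?_, rfl⟩
      ext i
      exact hfix (x i) (Finset.mem_map.2 ⟨i, Finset.mem_univ i, rfl⟩)
  have hcardstab : Nat.card (fixS G D₀) = Nat.card (MulAction.stabilizer G x) := by
    rw [← hmap]
    exact Subgroup.card_map_of_injective G.subtype_injective
  have C : Ctx G (Nat.card (fixS G D₀)) := ctx_of h4 hD₀ (by rw [hcardstab]; exact hodd)
  -- the order
  have hordG : Nat.card G = (Fintype.card α).descFactorial 4 * Nat.card (fixS G D₀) := by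
    have h1 : Nat.card (MulAction.orbit G x) * Nat.card (MulAction.stabilizer G x) = Nat.card G := by
      simp only [Nat.card_eq_fintype_card]
      exact MulAction.card_orbit_mul_card_stabilizer_eq_card_group G x
    have h2 : MulAction.orbit G x = Set.univ := Set.eq_univ_of_forall fun v => by
      obtain ⟨g, hg⟩ := MulAction.exists_smul_eq G x v
      exact ⟨g, hg⟩
    have h3 : Nat.card (MulAction.orbit G x) = (Fintype.card α).descFactorial 4 := by
      rw [h2, Nat.card_coe_set_eq, Set.ncard_univ, Nat.card_eq_fintype_card, Fintype.card_embedding_eq]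
      simp
    rw [hcardstab, ← h1, h3]
  have hfour : ∀ f : Perm α, Fintype.card α = 4 → f ∈ G := by
    intro f hf
    obtain ⟨g, hg, hgf⟩ := C.agree (D := univ) (by rw [Finset.card_univ]; exact hf) f
    have : g = f := Equiv.ext fun y => hgf y (Finset.mem_univ y)
    rwa [← this]
  have hfive : ∀ f : Perm α, Fintype.card α = 5 → f ∈ G := by
    intro f hf
    obtain ⟨y⟩ : Nonempty α := Fintype.card_pos_iff.1 (by omega)
    obtain ⟨g, hg, hgf⟩ := C.agree (D := univ.erase y) (by
      rw [Finset.card_erase_of_mem (Finset.mem_univ y), Finset.card_univ, hf]) f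
    have hy : g y = f y := by
      by_contra hne
      have h1 : f⁻¹ (g y) ≠ y := by
        intro he
        apply hne
        rw [Perm.inv_eq_iff_eq] at he
        exact he
      have h2 := hgf _ (Finset.mem_erase.2 ⟨h1, Finset.mem_univ _⟩)
      have h3 : f (f⁻¹ (g y)) = g y := by simp
      rw [h3] at h2
      exact h1 (g.injective h2)
    have : g = f := Equiv.ext fun z => by
      by_cases hz : z = y
      · rw [hz, hy]
      · exact hgf z (Finset.mem_erase.2 ⟨hz, Finset.mem_univ z⟩)
    rwa [← this]
  have halt : ∀ n : ℕ, Fintype.card α = n → Nat.card G * 2 = n.factorial → G = alternatingGroup α := by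
    intro n hn hc
    apply Equiv.Perm.eq_alternatingGroup_of_index_eq_two
    have h1 := G.card_mul_index
    have h2 : Nat.card (Perm α) = n.factorial := by
      rw [Nat.card_perm, Nat.card_eq_fintype_card, hn]
    rw [h2, ← hc] at h1
    have hpos : 0 < Nat.card G := Nat.card_pos
    exact Nat.eq_of_mul_eq_mul_left hpos h1
  by_cases h45 : Fintype.card α = 4 ∨ Fintype.card α = 5
  · left
    refine ⟨h45, ?_⟩
    rw [eq_top_iff]
    intro f _
    rcases h45 with h | h
    · exact hfour f h
    · exact hfive f h
  by_cases h6 : Fintype.card α = 6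
  · right; left
    refine ⟨Or.inl h6, halt 6 h6 ?_⟩
    have hd : Nat.card (fixS G D₀) = 1 := by
      have hbot : fixS G D₀ = ⊥ := by
        rw [eq_bot_iff]
        intro g hg
        rw [Subgroup.mem_bot]
        have hS2 : (D₀ᶜ).card = 2 := by
          rw [Finset.card_compl, hD₀, h6]
        have hfix := C.fix_on_two hD₀ hg hS2 (by
          intro y hy
          rw [Finset.mem_compl] at hy ⊢
          intro h
          have := hg.2 _ h
          exact hy (by rwa [g.injective this] at h))
        ext y
        rw [Perm.one_apply]
        by_cases hy : y ∈ D₀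
        · exact hg.2 y hy
        · exact hfix y (Finset.mem_compl.2 hy)
      rw [hbot, Subgroup.card_bot]
    rw [hordG, hd, h6]
    decide
  have h7 : 7 ≤ Fintype.card α := by omega
  by_cases hpar : Fintype.card α % 2 = 0
  · exact (C.even_kill (by omega) hpar).elim
  rcases C.odd_main h7 (by omega) with ⟨hn, hd⟩ | ⟨hn, hd⟩
  · right; left
    refine ⟨Or.inr hn, halt 7 hn ?_⟩
    rw [hordG, hd, hn]
    decide
  · right; right
    refine ⟨hn, ?_⟩
    rw [hordG, hd, hn]
    decide

end Cfsg.Agent.S4221
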