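import Mathlib
import Cfsg.Statements.S4222

set_option autoImplicit false
open Cfsg

namespace Cfsg.Agent.S4222

/-- If a normal subgroup `N` of a finite group is complete (its centre is trivial and every automorphism of `N` is inner), then the group is the internal direct product of `N` and the centralizer of `N`: the centralizer is a complement to `N`. -/
theorem result {T : Type*} [Group T] [Finite T] (N : Subgroup T) [N.Normal] (hz : Subgroup.center ↥N = ⊥) (ha : Function.Surjective (MulAut.conj : ↥N →* MulAut ↥N)) : (Subgroup.centralizer (N : Set T)).IsComplement' N := by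
  apply Subgroup.isComplement'_of_disjoint_and_mul_eq_univ
  · rw [Subgroup.disjoint_def]
    intro x hx hxN
    have : (⟨x, hxN⟩ : N) ∈ Subgroup.center ↥N := by
      rw [Subgroup.mem_center_iff]
      intro g
      apply Subtype.ext
      simp only [Subgroup.coe_mul]
      rw [Subgroup.mem_centralizer_iff] at hx
      exact (hx g g.2)
    rw [hz, Subgroup.mem_bot] at this
    exact congrArg Subtype.val this
  · ext t
    simp only [Set.mem_mul, Set.mem_univ, iff_true]
    -- conjugation by `t` is an automorphism of `N`
    let φ : MulAut N :=
      { toFun := fun n => ⟨t * n * t⁻¹, Subgroup.Normal.conj_mem (inferInstance : N.Normal) (n : T) n.2 t⟩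
        invFun := fun n => ⟨t⁻¹ * n * t, by
          have := Subgroup.Normal.conj_mem (inferInstance : N.Normal) (n : T) n.2 t⁻¹
          simpa using this⟩
        left_inv := fun n => by
          apply Subtype.ext
          simp [mul_assoc]
        right_inv := fun n => by
          apply Subtype.ext
          simp [mul_assoc]
        map_mul' := fun a b => by
          apply Subtype.ext
          simp [mul_assoc] }
    obtain ⟨n, hn⟩ := ha φ
    have hc : ∀ y : T, y ∈ N → y * ((n : T)⁻¹ * t) = ((n : T)⁻¹ * t) * y := by
      intro y hy
      have h := congrArg (fun f : MulAut N => (f ⟨y, hy⟩ : N)) hn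
      have h2 : (n : T) * y * (n : T)⁻¹ = t * y * t⁻¹ := congrArg Subtype.val h
      have h3 : (n : T)⁻¹ * (t * y * t⁻¹) * n = y := by
        rw [← h2]; group
      calc y * ((n : T)⁻¹ * t) = (n : T)⁻¹ * (t * y * t⁻¹) * n * ((n : T)⁻¹ * t) := by rw [h3]
        _ = ((n : T)⁻¹ * t) * y := by group
    refine ⟨(n : T)⁻¹ * t, ?_, n, n.2, ?_⟩
    · rw [SetLike.mem_coe, Subgroup.mem_centralizer_iff]
      exact hc
    · rw [← hc n n.2]
      group

end Cfsg.Agent.S4222
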