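import Mathlib
import Cfsg.Statements.S4223

set_option autoImplicit false
set_option linter.style.haveILetI false
open Cfsg

namespace Cfsg.Agent.S4223

universe u v

/-- Normal endomorphisms. -/
private def NormalEnd {H : Type*} [Group H] (f : H →* H) : Prop :=
  ∀ g x : H, f (g * x * g⁻¹) = g * f x * g⁻¹

/-- Directly indecomposable. -/
private def Indec (H : Type*) [Group H] : Prop :=
  ∀ K L : Subgroup H, K.Normal → L.Normal → K ⊓ L = ⊥ → K ⊔ L = ⊤ → K = ⊥ ∨ L = ⊥

private def iterHom {H : Type*} [Group H] (f : H →* H) : ℕ → (H →* H)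
  | 0 => MonoidHom.id H
  | n + 1 => f.comp (iterHom f n)

private lemma iterHom_apply {H : Type*} [Group H] (f : H →* H) (n : ℕ) (x : H) :
    iterHom f n x = f^[n] x := by
  induction n with
  | zero => rfl
  | succ n ih =>
    rw [Function.iterate_succ_apply']
    show f (iterHom f n x) = _
    rw [ih]

private lemma NormalEnd.iter {H : Type*} [Group H] {f : H →* H} (hf : NormalEnd f) (n : ℕ) :
    NormalEnd (iterHom f n) := by
  induction n with
  | zero => intro g x; rfl
  | succ n ih =>
    intro g x
    show f (iterHom f n (g * x * g⁻¹)) = g * f (iterHom f n x) * g⁻¹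
    rw [ih, hf]

/-- A power of an element of a finite monoid is idempotent. -/
private lemma exists_idem_pow {M : Type*} [Monoid M] [Finite M] (x : M) :
    ∃ n : ℕ, 0 < n ∧ x ^ n * x ^ n = x ^ n := by
  obtain ⟨a, b, hab, h⟩ := Finite.exists_ne_map_eq_of_infinite (fun k : ℕ => x ^ k)
  wlog hlt : a < b generalizing a b
  · exact this b a hab.symm h.symm (by omega)
  obtain ⟨c, rfl⟩ := Nat.exists_eq_add_of_lt hlt
  set d := c + 1 with hd
  have h' : x ^ a = x ^ (a + d) := by
    have : a + c + 1 = a + d := by omega
    simpa [this] using h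
  -- adding multiples of `d`
  have hstep : ∀ e k : ℕ, x ^ (a + e) = x ^ (a + e + k * d) := by
    intro e k
    induction k with
    | zero => simp
    | succ k ih =>
      have : a + e + (k + 1) * d = (a + d) + (e + k * d) := by ring
      rw [this, pow_add x (a + d), ← h', ← pow_add]
      have : a + (e + k * d) = a + e + k * d := by ring
      rw [this, ← ih]
  refine ⟨(a + 1) * d, by positivity, ?_⟩
  rw [← pow_add]
  have h1 : (a + 1) * d = a + ((a + 1) * d - a) := by
    have : a + 1 ≤ (a + 1) * d := Nat.le_mul_of_pos_right _ (by omega)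
    omega
  have := hstep ((a + 1) * d - a) (a + 1)
  rw [← h1] at this
  exact this.symm

/-- Fitting's lemma for normal endomorphisms of an indecomposable group. -/
private lemma fitting {H : Type*} [Group H] [Finite H] (hH : Indec H) (f : H →* H)
    (hf : NormalEnd f) : Function.Bijective f ∨ ∃ n : ℕ, ∀ x, f^[n] x = 1 := by
  classical
  haveI : Finite (Monoid.End H) := by
    haveI : Finite (H →* H) := Finite.of_injective (fun f : H →* H => (f : H → H))
      DFunLike.coe_injective
    exact this
  obtain ⟨n, hn, hidem⟩ := exists_idem_pow (M := Monoid.End H) f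
  set e : H →* H := iterHom f n with he
  have hen : NormalEnd e := NormalEnd.iter hf n
  have hecoe : ∀ x, e x = f^[n] x := fun x => iterHom_apply f n x
  have heidem : ∀ x, e (e x) = e x := fun x => by
    rw [hecoe, hecoe]
    exact congrArg (fun (φ : Monoid.End H) => φ x) hidem
  have hker : e.ker.Normal := inferInstance
  have hran : e.range.Normal := by
    constructor
    rintro _ ⟨y, rfl⟩ g
    exact ⟨g * y * g⁻¹, hen g y⟩
  have hinf : e.ker ⊓ e.range = ⊥ := by
    rw [eq_bot_iff]
    rintro x ⟨hx1, ⟨y, rfl⟩⟩
    have hx1' : e (e y) = 1 := hx1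
    rw [heidem] at hx1'
    exact hx1'
  have hsup : e.ker ⊔ e.range = ⊤ := by
    rw [eq_top_iff]
    intro x _
    have h1 : x * (e x)⁻¹ ∈ e.ker := by
      rw [MonoidHom.mem_ker, map_mul, map_inv, heidem, mul_inv_cancel]
    have h2 : e x ∈ e.range := ⟨x, rfl⟩
    have : x = x * (e x)⁻¹ * e x := by group
    rw [this]
    exact Subgroup.mul_mem_sup h1 h2
  rcases hH _ _ hker hran hinf hsup with h | h
  · left
    have hinj : Function.Injective f := by
      have h2 : Function.Injective f^[n] := by
        intro x y hxy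
        rw [← hecoe, ← hecoe] at hxy
        exact ((MonoidHom.ker_eq_bot_iff e).mp h) hxy
      obtain ⟨n', rfl⟩ := Nat.exists_eq_succ_of_ne_zero hn.ne'
      rw [Function.iterate_succ] at h2
      exact Function.Injective.of_comp h2
    exact ⟨hinj, Finite.surjective_of_injective hinj⟩
  · right
    refine ⟨n, fun x => ?_⟩
    rw [← hecoe]
    have : e x ∈ e.range := ⟨x, rfl⟩
    rw [h] at this
    exact this

/-- The sum lemma. -/
private lemma sum_lemma {H : Type*} [Group H] [Finite H] (hH : Indec H) (f g h : H →* H)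
    (hf : NormalEnd f) (hh : NormalEnd h) (hb : Function.Bijective h)
    (hsum : ∀ x, f x * g x = h x) : Function.Bijective f ∨ Function.Bijective g := by
  let hi : H ≃* H := MulEquiv.ofBijective h hb
  have hhi : ∀ x, h (hi.symm x) = x := fun x => hi.apply_symm_apply x
  let f' : H →* H := f.comp hi.symm.toMonoidHom
  let g' : H →* H := g.comp hi.symm.toMonoidHom
  have hf'eq : ∀ x, f' x = f (hi.symm x) := fun x => rfl
  have hg'eq : ∀ x, g' x = g (hi.symm x) := fun x => rfl
  have hinvn : ∀ a x : H, hi.symm (a * x * a⁻¹) = a * hi.symm x * a⁻¹ := by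
    intro a x
    apply hi.injective
    rw [hi.apply_symm_apply]
    show _ = h (a * hi.symm x * a⁻¹)
    rw [hh, hhi]
  have hf'n : NormalEnd f' := by
    intro a x
    rw [hf'eq, hf'eq, hinvn, hf]
  have hsum' : ∀ x, f' x * g' x = x := by
    intro x
    rw [hf'eq, hg'eq, hsum, hhi]
  rcases fitting hH f' hf'n with hb' | ⟨n, hn⟩
  · left
    have : (f : H → H) = f' ∘ hi := by
      funext x
      show f x = f (hi.symm (hi x))
      rw [hi.symm_apply_apply]
    rw [this]
    exact hb'.comp hi.bijective
  · right
    have hinj : Function.Injective g' := by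
      rw [injective_iff_map_eq_one]
      intro y hy
      have h1 : f' y = y := by
        have := hsum' y
        rwa [hy, mul_one] at this
      have h2 : f'^[n] y = y := Function.iterate_fixed h1 n
      rw [← h2, hn]
    have hb' : Function.Bijective g' := ⟨hinj, Finite.surjective_of_injective hinj⟩
    have : (g : H → H) = g' ∘ hi := by
      funext x
      show g x = g (hi.symm (hi x))
      rw [hi.symm_apply_apply]
    rw [this]
    exact hb'.comp hi.bijective

/-- The coordinate projection onto `S`. -/
private def proj {ι : Type*} [DecidableEq ι] {B : ι → Type*} [∀ j, Group (B j)] (S : Finset ι) :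
    (∀ j, B j) →* (∀ j, B j) where
  toFun x j := if j ∈ S then x j else 1
  map_one' := by
    funext j; simp
  map_mul' x y := by
    funext j
    by_cases h : j ∈ S <;> simp [h]

private lemma proj_apply {ι : Type*} [DecidableEq ι] {B : ι → Type*} [∀ j, Group (B j)] (S : Finset ι)
    (x : ∀ j, B j) (j : ι) : proj S x j = if j ∈ S then x j else 1 := rfl

private lemma proj_normal {ι : Type*} [DecidableEq ι] {B : ι → Type*} [∀ j, Group (B j)]
    (S : Finset ι) : NormalEnd (proj (B := B) S) := by
  intro g x
  funext j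
  by_cases h : j ∈ S <;> simp [proj_apply, h]

private lemma proj_insert {ι : Type*} [DecidableEq ι] {B : ι → Type*} [∀ j, Group (B j)]
    (a : ι) (S : Finset ι) (ha : a ∉ S) (x : ∀ j, B j) :
    proj (insert a S) x = proj {a} x * proj S x := by
  funext j
  by_cases h : j = a
  · subst h
    simp [proj_apply, ha]
  · simp [proj_apply, h]

/-- Splitting a product over `Fin (n+1)`. -/
private def piSplit {n : ℕ} (B : Fin (n + 1) → Type*) [∀ j, Group (B j)] (j₀ : Fin (n + 1)) :
    (∀ j, B j) ≃* (B j₀ × ∀ k, B (j₀.succAbove k)) where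
  toFun x := (x j₀, fun k => x (j₀.succAbove k))
  invFun p := Fin.insertNth j₀ p.1 p.2
  left_inv x := Fin.insertNth_self_removeNth j₀ x
  right_inv p := by
    simp
  map_mul' _ _ := rfl

/-- Cancellation. -/
private lemma cancellation {H U B R : Type*} [Group H] [Group U] [Group B] [Group R] [Finite H]
    [Finite U] [Finite B] [Finite R]
    (ξ : H × U ≃* B × R) (hu : Function.Bijective (fun h : H => (ξ (h, 1)).1)) :
    Nonempty (U ≃* R) := by
  let v : R →* U :=
    { toFun := fun r => (ξ.symm (1, r)).2
      map_one' := by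
        have : ((1 : B), (1 : R)) = 1 := rfl
        rw [this, map_one]; rfl
      map_mul' := fun a b => by
        have : ((1 : B), a * b) = (1, a) * (1, b) := by simp
        rw [this, map_mul]; rfl }
  have hvinj : Function.Injective v := by
    rw [injective_iff_map_eq_one]
    intro r hr
    have hr' : (ξ.symm (1, r)).2 = 1 := hr
    set h := (ξ.symm (1, r)).1 with hh
    have e1 : ξ.symm (1, r) = (h, 1) := Prod.ext rfl hr'
    have e2 : ξ (h, 1) = (1, r) := by rw [← e1]; simp
    have e3 : (ξ (h, 1)).1 = 1 := by rw [e2]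
    have e4 : (ξ ((1 : H), (1 : U))).1 = 1 := by
      have : ((1 : H), (1 : U)) = 1 := rfl
      rw [this, map_one]; rfl
    have e5 : h = 1 := hu.1 (e3.trans e4.symm)
    rw [e5] at e2
    have : ξ ((1 : H), (1 : U)) = 1 := by
      have : ((1 : H), (1 : U)) = 1 := rfl
      rw [this, map_one]
    rw [this] at e2
    exact (congrArg Prod.snd e2).symm
  have hcard : Nat.card U = Nat.card R := by
    have h1 := Nat.card_congr ξ.toEquiv
    rw [Nat.card_prod, Nat.card_prod] at h1
    have h2 : Nat.card H = Nat.card B := Nat.card_congr (Equiv.ofBijective _ hu)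
    rw [h2] at h1
    exact Nat.eq_of_mul_eq_mul_left Nat.card_pos h1
  have hvsurj : Function.Surjective v := by
    have := (Nat.bijective_iff_injective_and_card v).mpr ⟨hvinj, hcard.symm⟩
    exact this.2
  exact ⟨(MulEquiv.ofBijective v ⟨hvinj, hvsurj⟩).symm⟩

/-- Exchange. -/
private lemma exchange {n : ℕ} {H U : Type u} {B : Fin n → Type v} [Group H] [Group U]
    [Finite H] [Finite U] [∀ j, Group (B j)] [∀ j, Finite (B j)] [Nontrivial H]
    (hH : Indec H) (hB : ∀ j, Indec (B j)) (φ : H × U ≃* ∀ j, B j) :
    ∃ j₀ : Fin n, Function.Bijective (fun h : H => φ (h, 1) j₀) := by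
  classical
  let ι' : H →* ∀ j, B j := φ.toMonoidHom.comp (MonoidHom.inl H U)
  let ρ : (∀ j, B j) →* H := (MonoidHom.fst H U).comp φ.symm.toMonoidHom
  have hρι : ∀ x, ρ (ι' x) = x := by
    intro x
    simp [ρ, ι']
  let τ : (∀ j, B j) →* (∀ j, B j) := ι'.comp ρ
  have hτ : NormalEnd τ := by
    intro g x
    apply φ.symm.injective
    have key : ∀ y : ∀ j, B j, φ.symm (τ y) = ((φ.symm y).1, 1) := by
      intro y
      simp [τ, ι', ρ]
    have e1 : g * τ x * g⁻¹ = φ (φ.symm g * ((φ.symm x).1, 1) * (φ.symm g)⁻¹) := by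
      rw [map_mul, map_mul, map_inv, φ.apply_symm_apply, ← key, φ.apply_symm_apply]
    rw [key, e1, φ.symm_apply_apply, map_mul, map_mul, map_inv]
    apply Prod.ext
    · simp
    · simp
  let α : Finset (Fin n) → H →* H := fun S => (ρ.comp (proj S)).comp ι'
  have hαn : ∀ S, NormalEnd (α S) := by
    intro S a x
    show ρ (proj S (ι' (a * x * a⁻¹))) = a * ρ (proj S (ι' x)) * a⁻¹
    have e1 : ι' (a * x * a⁻¹) = ι' a * ι' x * (ι' a)⁻¹ := by
      rw [map_mul, map_mul, map_inv]
    rw [e1, proj_normal, map_mul, map_mul, map_inv, hρι]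
  have hαins : ∀ a S, a ∉ S → ∀ x, α {a} x * α S x = α (insert a S) x := by
    intro a S ha x
    show ρ (proj {a} (ι' x)) * ρ (proj S (ι' x)) = ρ (proj (insert a S) (ι' x))
    rw [proj_insert a S ha, map_mul]
  have hdesc : ∀ S : Finset (Fin n), Function.Bijective (α S) → ∃ j ∈ S, Function.Bijective (α {j}) := by
    intro S
    induction S using Finset.induction_on with
    | empty =>
      intro hb
      exfalso
      obtain ⟨x, hx⟩ := exists_ne (1 : H)
      apply hx
      apply hb.1
      have h0 : ∀ y, α ∅ y = 1 := by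
        intro y
        have : proj (B := B) ∅ (ι' y) = 1 := by
          funext j; simp [proj_apply]
        show ρ (proj ∅ (ι' y)) = 1
        rw [this, map_one]
      rw [h0, h0]
    | insert a S ha ih =>
      intro hb
      rcases sum_lemma hH (α {a}) (α S) (α (insert a S)) (hαn _) (hαn _) hb (hαins a S ha) with h | h
      · exact ⟨a, Finset.mem_insert_self _ _, h⟩
      · obtain ⟨j, hj, hj2⟩ := ih h
        exact ⟨j, Finset.mem_insert_of_mem hj, hj2⟩
  have huniv : Function.Bijective (α Finset.univ) := by
    have : ∀ x, α Finset.univ x = x := by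
      intro x
      show ρ (proj Finset.univ (ι' x)) = x
      have h2 : proj Finset.univ (ι' x) = ι' x := by
        funext j; simp [proj_apply]
      rw [h2, hρι]
    constructor
    · intro x y hxy
      rwa [this, this] at hxy
    · intro x
      exact ⟨x, this x⟩
  obtain ⟨j, -, hj⟩ := hdesc _ huniv
  refine ⟨j, ?_⟩
  -- the two maps
  let u : H →* B j := (Pi.evalMonoidHom B j).comp ι'
  let w : B j →* H := ρ.comp (MonoidHom.mulSingle B j)
  have hαj : ∀ x, α {j} x = w (u x) := by
    intro x
    show ρ (proj {j} (ι' x)) = ρ (MonoidHom.mulSingle B j (ι' x j))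
    congr 1
    funext i
    by_cases h : i = j
    · subst h; simp [proj_apply]
    · simp [proj_apply, h]
  have huinj : Function.Injective u := by
    have h1 : Function.Injective (w ∘ u) := by
      have : (w ∘ u : H → H) = α {j} := by
        funext x; exact (hαj x).symm
      rw [this]; exact hj.1
    exact Function.Injective.of_comp h1
  let β : B j →* B j := u.comp w
  have hβ : NormalEnd β := by
    intro g x
    show (τ (MonoidHom.mulSingle B j (g * x * g⁻¹))) j =
      g * (τ (MonoidHom.mulSingle B j x)) j * g⁻¹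
    have e1 : MonoidHom.mulSingle B j (g * x * g⁻¹) =
        MonoidHom.mulSingle B j g * MonoidHom.mulSingle B j x * (MonoidHom.mulSingle B j g)⁻¹ := by
      rw [map_mul, map_mul, map_inv]
    rw [e1, hτ]
    simp
  have hβsurj : Function.Surjective β := by
    rcases fitting (hB j) β hβ with h | ⟨k, hk⟩
    · exact h.2
    · exfalso
      -- `α {j}` would be nilpotent
      have hiter : ∀ (k : ℕ) (z : B j), (w ∘ u)^[k] (w z) = w (β^[k] z) := by
        intro k
        induction k with
        | zero => intro z; rfl
        | succ k ih =>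
          intro z
          rw [Function.iterate_succ_apply, Function.iterate_succ_apply]
          have : (w ∘ u) (w z) = w (β z) := rfl
          rw [this, ih]
      have hbij : Function.Bijective (w ∘ u) := by
        have : (w ∘ u : H → H) = α {j} := by
          funext x; exact (hαj x).symm
        rw [this]; exact hj
      have hall : ∀ x : H, (w ∘ u)^[k + 1] x = 1 := by
        intro x
        rw [Function.iterate_succ_apply]
        have : (w ∘ u) x = w (u x) := rfl
        rw [this, hiter, hk, map_one]
      have hinj2 : Function.Injective (w ∘ u)^[k + 1] := hbij.1.iterate _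
      obtain ⟨x, hx⟩ := exists_ne (1 : H)
      apply hx
      apply hinj2
      rw [hall, hall]
  have husurj : Function.Surjective u := by
    intro y
    obtain ⟨z, hz⟩ := hβsurj y
    exact ⟨w z, hz⟩
  exact ⟨huinj, husurj⟩

/-- The main induction. -/
private theorem main_aux : ∀ (m n : ℕ) (A : Fin m → Type u) (B : Fin n → Type v)
    [∀ i, Group (A i)] [∀ j, Group (B j)] [∀ i, Finite (A i)] [∀ j, Finite (B j)]
    (_ : ∀ i, Nontrivial (A i) ∧ Indec (A i)) (_ : ∀ j, Nontrivial (B j) ∧ Indec (B j))
    (_ : ((i : Fin m) → A i) ≃* ((j : Fin n) → B j)),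
    ∃ σ : Fin m ≃ Fin n, ∀ i, Nonempty (A i ≃* B (σ i)) := by
  intro m
  induction m with
  | zero =>
    intro n A B _ _ _ _ hA hB e
    have hn : n = 0 := by
      by_contra hn
      obtain ⟨n', rfl⟩ := Nat.exists_eq_succ_of_ne_zero hn
      haveI := (hB 0).1
      obtain ⟨y, hy⟩ := exists_ne (1 : B 0)
      have h1 : ∀ x : (i : Fin 0) → A i, x = 1 := fun x => by
        funext i; exact i.elim0
      let x' : (j : Fin (n' + 1)) → B j := Function.update 1 0 y
      have h2 := h1 (e.symm x')
      have h3 : x' = 1 := by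
        have := congrArg e h2
        simpa using this
      have h4 := congrFun h3 0
      simp [x'] at h4
      exact hy h4
    subst hn
    exact ⟨Equiv.equivOfIsEmpty _ _, fun i => i.elim0⟩
  | succ m ih =>
    intro n A B _ _ _ _ hA hB e
    let H := A 0
    let U := ∀ k : Fin m, A ((0 : Fin (m + 1)).succAbove k)
    haveI : Nontrivial H := (hA 0).1
    let φ : H × U ≃* ∀ j, B j := (piSplit A 0).symm.trans e
    obtain ⟨j₀, hj₀⟩ := exchange (hA 0).2 (fun j => (hB j).2) φ
    obtain ⟨n', rfl⟩ : ∃ n', n = n' + 1 := by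
      cases n with
      | zero => exact j₀.elim0
      | succ n' => exact ⟨n', rfl⟩
    let ξ : H × U ≃* B j₀ × ∀ k, B (j₀.succAbove k) := φ.trans (piSplit B j₀)
    obtain ⟨eU⟩ := cancellation ξ hj₀
    obtain ⟨σ', hσ'⟩ := ih n' (fun k => A ((0 : Fin (m + 1)).succAbove k))
      (fun k => B (j₀.succAbove k)) (fun k => hA _) (fun k => hB _) eU
    refine ⟨(finSuccEquiv' 0).trans ((Equiv.optionCongr σ').trans (finSuccEquiv' j₀).symm), ?_⟩
    intro i
    refine Fin.succAboveCases (0 : Fin (m + 1)) ?_ ?_ i
    · simp only [Equiv.trans_apply, finSuccEquiv'_at]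
      exact ⟨MulEquiv.ofBijective (MonoidHom.mk' (fun h : H => φ (h, 1) j₀) (by
        intro a b
        have : ((a * b, 1) : H × U) = (a, 1) * (b, 1) := by simp
        rw [this, map_mul]
        rfl)) hj₀⟩
    · intro k
      simp only [Equiv.trans_apply, finSuccEquiv'_succAbove, Equiv.optionCongr_apply, Option.map_some,
        finSuccEquiv'_symm_some]
      exact hσ' k

/-- If a finite group is isomorphic both to a direct product of `m` directly indecomposable nontrivial groups and to a direct product of `n` such groups (a group is directly indecomposable when it is not the internal direct product of two nontrivial normal subgroups), then `m = n` and the factors are isomorphic in pairs after a suitable matching. -/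
theorem result {m n : ℕ} {A : Fin m → Type*} {B : Fin n → Type*} [∀ i, Group (A i)] [∀ j, Group (B j)] [∀ i, Finite (A i)] [∀ j, Finite (B j)] (hA : ∀ i, Nontrivial (A i) ∧ ∀ H K : Subgroup (A i), H.Normal → K.Normal → H ⊓ K = ⊥ → H ⊔ K = ⊤ → H = ⊥ ∨ K = ⊥) (hB : ∀ j, Nontrivial (B j) ∧ ∀ H K : Subgroup (B j), H.Normal → K.Normal → H ⊓ K = ⊥ → H ⊔ K = ⊤ → H = ⊥ ∨ K = ⊥) (e : ((i : Fin m) → A i) ≃* ((j : Fin n) → B j)) : ∃ σ : Fin m ≃ Fin n, ∀ i, Nonempty (A i ≃* B (σ i)) :=
  main_aux m n A B hA hB e

end Cfsg.Agent.S4223
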