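import Mathlib
-- Template for statement S4226 (row 4226; see /opt/grader/pristine/manifest.json for weights).
-- Copy to Cfsg/Agent/S4226.lean and replace the sorry. The statement below is byte-identical to the frozen
-- statement Cfsg.CfsgFrozen.S4226 (Cfsg/Statements/S4226.lean; the theorem Cfsg.fg14_sylow_normalizer_controls_p_residual_of_class_lt_p);
-- the grader kernel-checks Cfsg.Agent.S4226.result against that frozen type. Keep the theorem IN THIS FILE
-- (a `result` declared elsewhere and merely imported here is not credited); helpers may live anywhere
-- under Cfsg/Agent/.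
import Cfsg.Statements.S4226
import Cfsg.Agent.S4215

set_option autoImplicit false
open Cfsg

open scoped commutatorElement

namespace Cfsg.Agent.S4226

/-- Let `P` be a Sylow `p`-subgroup of the finite group `G` with nilpotency class less than `p` (the term of index `p - 1` of the lower central series of `P`, indexed from `0`, is trivial), and let `N` be its normalizer. Then `O^p(N) = O^p(G) ∩ N`, where `O^p` denotes the subgroup generated by the elements of order prime to `p`; so the largest `p`-factor groups of `G` and of `N` are isomorphic. -/
theorem result {G : Type*} [Group G] [Finite G] {p : ℕ} [Fact p.Prime] (P : Sylow p G) (hcl : (P : Subgroup G).lowerCentralSeries (p - 1) = ⊥) : Cfsg.pResidualOf p (Subgroup.normalizer ((P : Subgroup G) : Set G)) = Cfsg.pResidual p G ⊓ Subgroup.normalizer ((P : Subgroup G) : Set G) := by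
  apply Cfsg.Agent.S4215.result P (P : Subgroup G)
  · refine ⟨le_rfl, fun g hg => ?_⟩
    apply Subgroup.eq_of_le_of_card_ge hg
    have h1 : Nat.card ((P : Subgroup G).map (MulAut.conj g).toMonoidHom) = Nat.card (P : Subgroup G) :=
      Subgroup.card_map_of_injective (MulAut.conj g).injective
    rw [h1]
  · intro u hu z hz
    have key : ∀ k : ℕ, ∀ x ∈ (P : Subgroup G).lowerCentralSeries 0,
        (fun y : G => y⁻¹ * z⁻¹ * y * z)^[k] x ∈ (P : Subgroup G).lowerCentralSeries k := by
      intro k x hx
      induction k with
      | zero => exact hx
      | succ k ih =>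
        rw [Function.iterate_succ_apply']
        have h1 := Subgroup.commutator_mem_commutator (Subgroup.inv_mem _ ih)
          ((P : Subgroup G).inv_mem hz)
        have e : ⁅((fun y : G => y⁻¹ * z⁻¹ * y * z)^[k] x)⁻¹, z⁻¹⁆ =
            ((fun y : G => y⁻¹ * z⁻¹ * y * z)^[k] x)⁻¹ * z⁻¹ *
              (fun y : G => y⁻¹ * z⁻¹ * y * z)^[k] x * z := by
          simp [commutatorElement_def]
        rw [e] at h1
        exact h1
    have h2 := key (p - 1) u hu
    rw [hcl] at h2
    exact h2

end Cfsg.Agent.S4226
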