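import Mathlib
import Cfsg.Statements.S4275

set_option autoImplicit false
open Cfsg

namespace Cfsg.Agent.S4275

/-- Let G be a transitive group of permutations of a finite set Ω, let o ∈ Ω, and let α be an automorphism of G. Then α is induced by conjugation by a permutation of Ω normalizing G if and only if the image under α of the stabilizer of o fixes some point of Ω. -/
theorem result {Ω : Type*} [Fintype Ω] (G : Subgroup (Equiv.Perm Ω)) (htr : MulAction.IsPretransitive G Ω) (o : Ω) (α : G ≃* G) : (∃ σ : Equiv.Perm Ω, σ ∈ Subgroup.normalizer (G : Set (Equiv.Perm Ω)) ∧ ∀ g : G, ((α g : G) : Equiv.Perm Ω) = σ * (g : Equiv.Perm Ω) * σ⁻¹) ↔ ∃ ω : Ω, ∀ g ∈ (MulAction.stabilizer G o).map α.toMonoidHom, g • ω = ω := by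
  classical
  constructor
  · rintro ⟨σ, -, hσ⟩
    refine ⟨σ o, ?_⟩
    rintro _ ⟨h, hh, rfl⟩
    have hh' : (h : Equiv.Perm Ω) o = o := hh
    show ((α h : G) : Equiv.Perm Ω) (σ o) = σ o
    rw [hσ h]
    simp [hh']
  · rintro ⟨ω, hω⟩
    -- choose group elements
    have hex : ∀ x : Ω, ∃ g : G, g • o = x := fun x => htr.exists_smul_eq o x
    choose c hc using hex
    let f : Ω → Ω := fun x => α (c x) • ω
    have hf : ∀ g : G, f (g • o) = α g • ω := by
      intro g
      have h1 : (c (g • o))⁻¹ * g ∈ MulAction.stabilizer G o := by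
        rw [MulAction.mem_stabilizer_iff, mul_smul, inv_smul_eq_iff, hc]
      have h2 : α ((c (g • o))⁻¹ * g) • ω = ω :=
        hω _ ⟨_, h1, rfl⟩
      rw [map_mul, map_inv, mul_smul, inv_smul_eq_iff] at h2
      exact h2.symm
    have hsurj : Function.Surjective f := by
      intro y
      obtain ⟨g', hg'⟩ := htr.exists_smul_eq ω y
      refine ⟨(α.symm g') • o, ?_⟩
      rw [hf, MulEquiv.apply_symm_apply, hg']
    have hinj : Function.Injective f := Finite.injective_iff_surjective.mpr hsurj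
    let σ : Equiv.Perm Ω := Equiv.ofBijective f ⟨hinj, hsurj⟩
    have hσ' : ∀ (g : G) (x : Ω), σ (g • x) = α g • σ x := by
      intro g x
      obtain ⟨h, rfl⟩ := htr.exists_smul_eq o x
      show f (g • h • o) = α g • f (h • o)
      rw [← mul_smul, hf, hf, map_mul, mul_smul]
    have hσ : ∀ g : G, ((α g : G) : Equiv.Perm Ω) = σ * (g : Equiv.Perm Ω) * σ⁻¹ := by
      intro g
      ext x
      obtain ⟨y, rfl⟩ := σ.surjective x
      have h3 := hσ' g y
      have h8 : σ⁻¹ (σ y) = y := by simp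
      simp only [Equiv.Perm.coe_mul, Function.comp_apply, h8]
      exact h3.symm
    refine ⟨σ, ?_, hσ⟩
    rw [Subgroup.mem_normalizer_iff]
    intro h
    constructor
    · intro hh
      have := hσ ⟨h, hh⟩
      show σ * h * σ⁻¹ ∈ G
      have h4 : σ * h * σ⁻¹ = ((α ⟨h, hh⟩ : G) : Equiv.Perm Ω) := this.symm
      rw [h4]
      exact (α ⟨h, hh⟩).2
    · intro hh
      have hh' : σ * h * σ⁻¹ ∈ G := hh
      have h5 := hσ (α.symm ⟨_, hh'⟩)
      rw [MulEquiv.apply_symm_apply] at h5
      have h6 : σ * h * σ⁻¹ = σ * ((α.symm ⟨_, hh'⟩ : G) : Equiv.Perm Ω) * σ⁻¹ := h5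
      have h7 : h = ((α.symm ⟨_, hh'⟩ : G) : Equiv.Perm Ω) := by
        have := mul_right_cancel h6
        exact mul_left_cancel this
      rw [h7]
      exact (α.symm ⟨_, hh'⟩).2

end Cfsg.Agent.S4275
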