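import Mathlib
import Cfsg.Statements.S4276
import Cfsg.Agent.S4275

set_option autoImplicit false
open Cfsg

namespace Cfsg.Agent.S4276

/-- Arithmetic core. -/
theorem arith (n k lam mu a b : ℤ) (N : ℕ) (hN : Odd N) (hn : 2 ≤ n) (hk1 : 1 ≤ k) (hkn : k ≤ n)
    (hmu : mu = k - lam) (hk2 : k ^ 2 = mu + lam * n) (ha : a ^ 2 = mu ^ N)
    (hkN : k ^ N = a + b * n) (hcop : IsCoprime k n) : k = 1 ∨ k = n - 1 := by
  by_cases hk : k = 1
  · exact Or.inl hk
  right
  have hk2' : 2 ≤ k := by omega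
  have h0 : k * (k - 1) = lam * (n - 1) := by
    subst hmu; linear_combination hk2
  have hkne : k ≠ n := by
    rintro rfl
    have hu : IsUnit k := (isCoprime_self.mp hcop)
    rcases Int.isUnit_iff.mp hu with h | h <;> omega
  have hklt : k < n := lt_of_le_of_ne hkn hkne
  have hlam : 0 < lam := by
    by_contra hl
    push Not at hl
    have h1 : lam * (n - 1) ≤ 0 := mul_nonpos_of_nonpos_of_nonneg hl (by omega)
    have h2 : 0 < k * (k - 1) := mul_pos (by omega) (by omega)
    omega
  have hmu1 : mu * (n - 1) = k * (n - k) := by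
    subst hmu; linear_combination h0
  have hmupos : 0 < mu := by
    by_contra hl
    push Not at hl
    have h1 : mu * (n - 1) ≤ 0 := mul_nonpos_of_nonpos_of_nonneg hl (by omega)
    have h2 : 0 < k * (n - k) := mul_pos (by omega) (by omega)
    omega
  have hmulk : mu < k := by omega
  obtain ⟨r, rfl⟩ := hN
  -- mu is a square
  have hsq : IsSquare mu := by
    have hq : IsSquare ((mu : ℤ) : ℚ) := by
      refine ⟨(a : ℚ) / ((mu : ℚ) ^ r), ?_⟩
      have hmuq : (mu : ℚ) ≠ 0 := by exact_mod_cast hmupos.ne'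
      have h3 : ((a : ℚ)) ^ 2 = (mu : ℚ) ^ (2 * r + 1) := by exact_mod_cast ha
      field_simp
      rw [h3]; ring
    exact Rat.isSquare_intCast_iff.mp hq
  obtain ⟨s0, hs0⟩ := hsq
  set s : ℤ := |s0| with hs
  have hss : mu = s ^ 2 := by rw [hs, sq_abs, hs0]; ring
  have hspos : 0 < s := by
    rw [hs, abs_pos]
    rintro rfl
    simp at hs0; omega
  have hslt : s < k := by
    by_contra hc
    push Not at hc
    nlinarith
  have hcops : IsCoprime s n := by
    have h1 : IsCoprime (k ^ 2) n := hcop.pow_left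
    have h2 : k ^ 2 = s ^ 2 + n * lam := by rw [hk2, hss]; ring
    rw [h2] at h1
    have h3 : IsCoprime (s ^ 2) n := by
      exact (IsCoprime.add_mul_left_left_iff).mp h1
    exact (IsCoprime.pow_left_iff (by norm_num)).mp h3
  have hdiv : n ∣ (k ^ 2) ^ r - (s ^ 2) ^ r := by
    have h1 : k ^ 2 - s ^ 2 ∣ (k ^ 2) ^ r - (s ^ 2) ^ r := sub_dvd_pow_sub_pow _ _ _
    have h2 : n ∣ k ^ 2 - s ^ 2 := ⟨lam, by rw [hk2, hss]; ring⟩
    exact h2.trans h1
  have hpowN : a ^ 2 = (s ^ (2 * r + 1)) ^ 2 := by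
    rw [ha, hss]; ring
  have hk3 : n ∣ k ^ (2 * r + 1) - a := ⟨b, by rw [hkN]; ring⟩
  have hcopp : IsCoprime ((s ^ 2) ^ r) n := (hcops.pow_left).pow_left
  rcases sq_eq_sq_iff_eq_or_eq_neg.mp hpowN with h1 | h1
  · -- n ∣ k - s
    exfalso
    have h2 : n ∣ (k - s) * (s ^ 2) ^ r := by
      have h3 : (k - s) * (s ^ 2) ^ r = (k ^ (2 * r + 1) - a) - k * ((k ^ 2) ^ r - (s ^ 2) ^ r) := by
        rw [h1]; ring
      rw [h3]
      exact dvd_sub hk3 (hdiv.mul_left k)
    have h4 : n ∣ k - s := hcopp.symm.dvd_of_dvd_mul_right h2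
    have h5 := Int.le_of_dvd (by omega) h4
    omega
  · have h2 : n ∣ (k + s) * (s ^ 2) ^ r := by
      have h3 : (k + s) * (s ^ 2) ^ r = (k ^ (2 * r + 1) - a) - k * ((k ^ 2) ^ r - (s ^ 2) ^ r) := by
        rw [h1]; ring
      rw [h3]
      exact dvd_sub hk3 (hdiv.mul_left k)
    have h4 : n ∣ k + s := hcopp.symm.dvd_of_dvd_mul_right h2
    obtain ⟨t, ht⟩ := h4
    have ht1 : t = 1 := by
      have h5 : 0 < n * t := by omega
      have h6 : 0 < t := by
        by_contra hc
        push Not at hc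
        have : n * t ≤ 0 := mul_nonpos_of_nonneg_of_nonpos (by omega) hc
        omega
      have h7 : n * t < n * 2 := by omega
      have h8 : t < 2 := lt_of_mul_lt_mul_left h7 (by omega)
      omega
    rw [ht1, mul_one] at ht
    have hsk : s = n - k := by omega
    have h9 : s * (n - 1) = k := by
      have h10 : s * (s * (n - 1)) = s * k := by
        have : s ^ 2 * (n - 1) = k * (n - k) := by rw [← hss]; exact hmu1
        rw [← hsk] at this
        linear_combination this
      exact mul_left_cancel₀ hspos.ne' h10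
    by_cases hs1 : s = 1
    · rw [hs1] at h9; omega
    · exfalso
      have hs2 : 2 ≤ s := by omega
      nlinarith

open Matrix

section MatrixPart

variable {Ω : Type*}

/-- The all-ones matrix. -/
def allOnes (Ω : Type*) : Matrix Ω Ω ℤ := Matrix.of fun _ _ => 1

@[simp] theorem allOnes_apply (x y : Ω) : allOnes Ω x y = 1 := rfl

theorem allOnes_transpose : (allOnes Ω)ᵀ = allOnes Ω := by
  ext x y; simp

variable [Fintype Ω]

theorem allOnes_mul_self :
    allOnes Ω * allOnes Ω = (Fintype.card Ω : ℤ) • allOnes Ω := by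
  ext x y
  simp [Matrix.mul_apply]

variable [DecidableEq Ω]

theorem pow_mul_allOnes (T : Matrix Ω Ω ℤ) (k : ℤ) (hTJ : T * allOnes Ω = k • allOnes Ω) (m : ℕ) :
    T ^ m * allOnes Ω = k ^ m • allOnes Ω := by
  induction m with
  | zero => simp
  | succ m ih =>
    rw [pow_succ, Matrix.mul_assoc, hTJ, Matrix.mul_smul, ih, smul_smul, pow_succ, mul_comm]

theorem allOnes_mul_transpose_pow (T : Matrix Ω Ω ℤ) (k : ℤ) (hTJ : T * allOnes Ω = k • allOnes Ω)
    (m : ℕ) : allOnes Ω * (Tᵀ) ^ m = k ^ m • allOnes Ω := by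
  have h := pow_mul_allOnes T k hTJ m
  have h2 := congrArg Matrix.transpose h
  rw [Matrix.transpose_mul, allOnes_transpose, Matrix.transpose_smul, allOnes_transpose,
    Matrix.transpose_pow] at h2
  exact h2

theorem pow_mul_transpose_pow (T : Matrix Ω Ω ℤ) (k μ lam : ℤ)
    (hTJ : T * allOnes Ω = k • allOnes Ω)
    (hTT : T * Tᵀ = μ • (1 : Matrix Ω Ω ℤ) + lam • allOnes Ω) (m : ℕ) :
    ∃ c : ℤ, T ^ m * (Tᵀ) ^ m = μ ^ m • (1 : Matrix Ω Ω ℤ) + c • allOnes Ω := by
  induction m with
  | zero => exact ⟨0, by simp⟩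
  | succ m ih =>
    obtain ⟨c, hc⟩ := ih
    refine ⟨μ * c + lam * k ^ m * k ^ m, ?_⟩
    have h1 : T ^ (m + 1) * (Tᵀ) ^ (m + 1) = T ^ m * (T * Tᵀ) * (Tᵀ) ^ m := by
      rw [pow_succ, pow_succ']
      simp only [Matrix.mul_assoc]
    rw [h1, hTT, Matrix.mul_add, Matrix.add_mul, Matrix.mul_smul, Matrix.mul_smul, Matrix.mul_one,
      Matrix.smul_mul, Matrix.smul_mul, hc, pow_mul_allOnes T k hTJ, Matrix.smul_mul,
      allOnes_mul_transpose_pow T k hTJ]
    ext x y
    simp only [Matrix.add_apply, Matrix.smul_apply, smul_eq_mul, allOnes_apply, pow_succ]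
    ring

theorem matrix_part (T : Matrix Ω Ω ℤ) (k μ lam a b : ℤ) (N : ℕ) (x0 x1 : Ω) (hne : x0 ≠ x1)
    (hTJ : T * allOnes Ω = k • allOnes Ω)
    (hJT : allOnes Ω * T = k • allOnes Ω)
    (hTT : T * Tᵀ = μ • (1 : Matrix Ω Ω ℤ) + lam • allOnes Ω)
    (hTN : T ^ N = a • (1 : Matrix Ω Ω ℤ) + b • allOnes Ω) :
    a ^ 2 = μ ^ N ∧ k ^ N = a + b * (Fintype.card Ω : ℤ) ∧
      k ^ 2 = μ + lam * (Fintype.card Ω : ℤ) := by
  refine ⟨?_, ?_, ?_⟩
  · obtain ⟨c, hc⟩ := pow_mul_transpose_pow T k μ lam hTJ hTT N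
    have h1 : (Tᵀ) ^ N = a • (1 : Matrix Ω Ω ℤ) + b • allOnes Ω := by
      rw [← Matrix.transpose_pow, hTN, Matrix.transpose_add, Matrix.transpose_smul,
        Matrix.transpose_smul, Matrix.transpose_one, allOnes_transpose]
    rw [h1, hTN] at hc
    have h2 : (a • (1 : Matrix Ω Ω ℤ) + b • allOnes Ω) * (a • (1 : Matrix Ω Ω ℤ) + b • allOnes Ω)
        = (a ^ 2) • (1 : Matrix Ω Ω ℤ) +
          (2 * a * b + b ^ 2 * (Fintype.card Ω : ℤ)) • allOnes Ω := by
      simp only [Matrix.mul_add, Matrix.add_mul, Matrix.smul_mul, Matrix.mul_smul, Matrix.mul_one,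
        Matrix.one_mul, allOnes_mul_self, smul_add, smul_smul, add_smul]
      ext x y
      simp only [Matrix.add_apply, Matrix.smul_apply, smul_eq_mul]
      ring
    rw [h2] at hc
    have h3 := congrFun (congrFun hc x0) x1
    have h4 := congrFun (congrFun hc x0) x0
    simp only [Matrix.add_apply, Matrix.smul_apply, smul_eq_mul, allOnes_apply, Matrix.one_apply,
      if_neg hne, if_true, mul_one, mul_zero, zero_add] at h3 h4
    linarith
  · have h1 := pow_mul_allOnes T k hTJ N
    rw [hTN, Matrix.add_mul, Matrix.smul_mul, Matrix.smul_mul, Matrix.one_mul, allOnes_mul_self]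
      at h1
    have h2 := congrFun (congrFun h1 x0) x0
    simp only [Matrix.add_apply, Matrix.smul_apply, smul_eq_mul, allOnes_apply, mul_one] at h2
    linarith
  · have h1 : T * Tᵀ * allOnes Ω = (k ^ 2) • allOnes Ω := by
      have h5 : Tᵀ * allOnes Ω = k • allOnes Ω := by
        have h6 := congrArg Matrix.transpose hJT
        rw [Matrix.transpose_mul, allOnes_transpose, Matrix.transpose_smul, allOnes_transpose] at h6
        exact h6
      rw [Matrix.mul_assoc, h5, Matrix.mul_smul, hTJ, smul_smul, sq]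
    rw [hTT, Matrix.add_mul, Matrix.smul_mul, Matrix.smul_mul, Matrix.one_mul, allOnes_mul_self]
      at h1
    have h2 := congrFun (congrFun h1 x0) x0
    simp only [Matrix.add_apply, Matrix.smul_apply, smul_eq_mul, allOnes_apply, mul_one] at h2
    linarith

end MatrixPart


section GroupPart

variable {Ω : Type*} [Fintype Ω] [DecidableEq Ω] (G : Subgroup (Equiv.Perm Ω)) (α : MulAut G)
  (o ω : Ω)

/-- The `G`-orbit of `(o, ω)` under the `α`-twisted action on pairs. -/
def rel (x y : Ω) : Prop := ∃ g : G, g • o = x ∧ (α g) • ω = y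

omit [Fintype Ω] [DecidableEq Ω] in
theorem rel_smul {x y : Ω} (h : G) (hr : rel G α o ω x y) : rel G α o ω (h • x) (α h • y) := by
  obtain ⟨g, rfl, rfl⟩ := hr
  exact ⟨h * g, mul_smul _ _ _, by rw [map_mul, mul_smul]⟩

omit [Fintype Ω] [DecidableEq Ω] in
theorem rel_smul_iff {x y : Ω} (h : G) : rel G α o ω (h • x) (α h • y) ↔ rel G α o ω x y := by
  refine ⟨fun hr => ?_, rel_smul G α o ω h⟩
  have := rel_smul G α o ω h⁻¹ hr
  simpa using this

open Classical in
/-- The incidence matrix of `rel`. -/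
noncomputable def incT : Matrix Ω Ω ℤ := Matrix.of fun x y => if rel G α o ω x y then 1 else 0

omit [Fintype Ω] [DecidableEq Ω] in
open Classical in
theorem incT_apply (x y : Ω) : incT G α o ω x y = if rel G α o ω x y then 1 else 0 := rfl

omit [Fintype Ω] [DecidableEq Ω] in
theorem incT_smul (h : G) (x y : Ω) : incT G α o ω (h • x) (α h • y) = incT G α o ω x y := by
  classical
  simp only [incT_apply, rel_smul_iff]

omit [Fintype Ω] [DecidableEq Ω] in
theorem incT_sq (x y : Ω) : incT G α o ω x y * incT G α o ω x y = incT G α o ω x y := by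
  classical
  rw [incT_apply]
  split_ifs <;> simp

theorem pow_incT_smul (m : ℕ) (h : G) (x y : Ω) :
    (incT G α o ω ^ m) (h • x) ((α ^ m) h • y) = (incT G α o ω ^ m) x y := by
  induction m generalizing x y with
  | zero =>
    simp [Matrix.one_apply, smul_left_cancel_iff]
  | succ m ih =>
    have hpow : (α ^ (m + 1)) h = α ((α ^ m) h) := by rw [pow_succ']; rfl
    rw [pow_succ, Matrix.mul_apply, Matrix.mul_apply, hpow]
    rw [← Equiv.sum_comp (MulAction.toPerm ((α ^ m) h))]
    refine Finset.sum_congr rfl fun z _ => ?_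
    simp only [MulAction.toPerm_apply]
    rw [ih, incT_smul]

/-- A `G`-invariant matrix on a 2-transitive set is a combination of `1` and `J`. -/
theorem scalar_form (h2 : MulAction.IsMultiplyPretransitive G Ω 2) (f : Matrix Ω Ω ℤ)
    (hinv : ∀ (g : G) (x y : Ω), f (g • x) (g • y) = f x y) (x0 x1 : Ω) (hne : x0 ≠ x1) :
    f = (f x0 x0 - f x0 x1) • (1 : Matrix Ω Ω ℤ) + (f x0 x1) • allOnes Ω := by
  have htr : MulAction.IsPretransitive G Ω := MulAction.isPretransitive_of_is_two_pretransitive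
  have h2' : ∀ a b c d : Ω, a ≠ b → c ≠ d → ∃ g : G, g • a = c ∧ g • b = d :=
    fun a b c d h h' => MulAction.is_two_pretransitive_iff.mp h2 h h'
  ext x y
  simp only [Matrix.add_apply, Matrix.smul_apply, smul_eq_mul, allOnes_apply, Matrix.one_apply,
    mul_one]
  by_cases hxy : x = y
  · subst hxy
    obtain ⟨g, rfl⟩ := htr.exists_smul_eq x0 x
    simp [hinv]
  · obtain ⟨g, rfl, rfl⟩ := h2' _ _ _ _ hne hxy
    simp [hinv, hxy]

/-- Row and column sums, and the product formula. -/
theorem main_arith (h2 : MulAction.IsMultiplyPretransitive G Ω 2) (hα : Odd (orderOf α))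
    (x0 x1 : Ω) (hne : x0 ≠ x1) (k : ℤ) (hk : k = ∑ y, incT G α o ω o y) (hk1 : 1 ≤ k)
    (hkn : k ≤ Fintype.card Ω) (hcop : IsCoprime k (Fintype.card Ω : ℤ)) :
    k = 1 ∨ k = (Fintype.card Ω : ℤ) - 1 := by
  classical
  have htr : MulAction.IsPretransitive G Ω := MulAction.isPretransitive_of_is_two_pretransitive
  set T := incT G α o ω with hT
  have hn0 : (Fintype.card Ω : ℤ) ≠ 0 := by
    have : 0 < Fintype.card Ω := Fintype.card_pos_iff.mpr ⟨o⟩
    exact_mod_cast this.ne'
  -- row sums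
  have hrow : ∀ x, ∑ y, T x y = k := by
    intro x
    obtain ⟨g, rfl⟩ := htr.exists_smul_eq o x
    rw [hk, ← Equiv.sum_comp (MulAction.toPerm (α g))]
    refine Finset.sum_congr rfl fun z _ => ?_
    simp only [MulAction.toPerm_apply]
    exact incT_smul G α o ω g o z
  -- column sums
  have hcol0 : ∀ y, ∑ x, T x y = ∑ x, T x o := by
    intro y
    obtain ⟨g, rfl⟩ := htr.exists_smul_eq o y
    obtain ⟨h, rfl⟩ := α.surjective g
    rw [← Equiv.sum_comp (MulAction.toPerm h)]
    refine Finset.sum_congr rfl fun z _ => ?_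
    simp only [MulAction.toPerm_apply]
    exact incT_smul G α o ω h z o
  have hcol : ∀ y, ∑ x, T x y = k := by
    intro y
    rw [hcol0 y]
    have h1 : ∑ x, ∑ y, T x y = ∑ y, ∑ x, T x y := Finset.sum_comm
    simp only [hrow, hcol0 _, Finset.sum_const, Finset.card_univ, nsmul_eq_mul] at h1
    exact (mul_left_cancel₀ hn0 h1).symm
  have hTJ : T * allOnes Ω = k • allOnes Ω := by
    ext x y
    simp [Matrix.mul_apply, hrow]
  have hJT : allOnes Ω * T = k • allOnes Ω := by
    ext x y
    simp [Matrix.mul_apply, hcol]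
  -- T Tᵀ
  have hTTinv : ∀ (g : G) (x y : Ω), (T * T.transpose) (g • x) (g • y) = (T * T.transpose) x y := by
    intro g x y
    simp only [Matrix.mul_apply, Matrix.transpose_apply]
    rw [← Equiv.sum_comp (MulAction.toPerm (α g))]
    refine Finset.sum_congr rfl fun z _ => ?_
    simp only [MulAction.toPerm_apply]
    rw [hT, incT_smul, incT_smul]
  set lam := (T * T.transpose) x0 x1 with hlam
  have hdiag : (T * T.transpose) x0 x0 = k := by
    simp only [Matrix.mul_apply, Matrix.transpose_apply]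
    rw [← hrow x0]
    refine Finset.sum_congr rfl fun z _ => ?_
    exact incT_sq G α o ω x0 z
  have hTT := scalar_form G h2 (T * T.transpose) hTTinv x0 x1 hne
  rw [hdiag, ← hlam] at hTT
  -- T ^ N
  have hTNinv : ∀ (g : G) (x y : Ω),
      (T ^ orderOf α) (g • x) (g • y) = (T ^ orderOf α) x y := by
    intro g x y
    have := pow_incT_smul G α o ω (orderOf α) g x y
    rw [pow_orderOf_eq_one] at this
    exact this
  have hTN := scalar_form G h2 (T ^ orderOf α) hTNinv x0 x1 hne
  obtain ⟨ha, hkN, hk2⟩ := matrix_part T k (k - lam) lam _ _ (orderOf α) x0 x1 hne hTJ hJT hTT hTN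
  exact arith (Fintype.card Ω) k lam (k - lam) _ _ (orderOf α) hα
    (by
      have : 1 < Fintype.card Ω := Fintype.one_lt_card_iff.mpr ⟨x0, x1, hne⟩
      omega) hk1 hkn rfl hk2 ha hkN hcop

end GroupPart


section Final

/-- Let G be a doubly transitive group of permutations of a finite set Ω of size n, let o ∈ Ω, and let α be an automorphism of G of odd order. Suppose that the image under α of the stabilizer of o has an orbit on Ω whose length k is coprime to n. Then α is induced by conjugation by a permutation of Ω normalizing G, and k = 1 or k = n − 1. -/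
theorem result {Ω : Type*} [Fintype Ω] (G : Subgroup (Equiv.Perm Ω)) (h2 : MulAction.IsMultiplyPretransitive G Ω 2) (o : Ω) (α : MulAut G) (hα : Odd (orderOf α)) (ω : Ω) (hk : (Nat.card (MulAction.orbit ((MulAction.stabilizer G o).map α.toMonoidHom) ω)).Coprime (Fintype.card Ω)) : (∃ σ : Equiv.Perm Ω, σ ∈ Subgroup.normalizer (G : Set (Equiv.Perm Ω)) ∧ ∀ g : G, ((α g : G) : Equiv.Perm Ω) = σ * (g : Equiv.Perm Ω) * σ⁻¹) ∧ (Nat.card (MulAction.orbit ((MulAction.stabilizer G o).map α.toMonoidHom) ω) = 1 ∨ Nat.card (MulAction.orbit ((MulAction.stabilizer G o).map α.toMonoidHom) ω) = Fintype.card Ω - 1) := by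
  classical
  set H' : Subgroup G := (MulAction.stabilizer G o).map α.toMonoidHom with hH'
  set S : Set Ω := MulAction.orbit H' ω with hS
  have htr : MulAction.IsPretransitive G Ω := MulAction.isPretransitive_of_is_two_pretransitive
  have hωS : ω ∈ S := MulAction.mem_orbit_self ω
  have hk0 : 0 < Nat.card S := by
    have : Nonempty S := ⟨⟨ω, hωS⟩⟩
    exact Nat.card_pos
  have hkn : Nat.card S ≤ Fintype.card Ω := by
    have := Finite.card_subtype_le (fun x => x ∈ S)
    simpa [Nat.card_eq_fintype_card] using this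
  have hnpos : 0 < Fintype.card Ω := Fintype.card_pos_iff.mpr ⟨o⟩
  have hrel : ∀ y, rel G α o ω o y ↔ y ∈ S := by
    intro y
    constructor
    · rintro ⟨g, hg, rfl⟩
      refine ⟨⟨α g, ⟨g, hg, rfl⟩⟩, rfl⟩
    · rintro ⟨⟨_, ⟨g, hg, rfl⟩⟩, rfl⟩
      exact ⟨g, hg, rfl⟩
  have hsum : ((Nat.card S : ℕ) : ℤ) = ∑ y, incT G α o ω o y := by
    simp only [incT_apply]
    rw [Finset.sum_boole]
    congr 1
    rw [Nat.card_eq_fintype_card]
    apply Fintype.card_of_subtype
    intro y
    simp [hrel]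
  have hkcases : Nat.card S = 1 ∨ Nat.card S = Fintype.card Ω - 1 := by
    by_cases hn : 1 < Fintype.card Ω
    · obtain ⟨x0, x1, hne⟩ := Fintype.one_lt_card_iff.mp hn
      have hcop : IsCoprime ((Nat.card S : ℕ) : ℤ) (Fintype.card Ω : ℤ) :=
        Nat.isCoprime_iff_coprime.mpr hk
      have := main_arith G α o ω h2 hα x0 x1 hne _ hsum (by exact_mod_cast hk0)
        (by exact_mod_cast hkn) hcop
      omega
    · left
      omega
  refine ⟨?_, hkcases⟩
  apply (Cfsg.Agent.S4275.result G htr o α).mpr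
  have hinv : ∀ g ∈ H', ∀ x, x ∈ S → g • x ∈ S := by
    intro g hg x hx
    obtain ⟨h, rfl⟩ := hx
    exact ⟨⟨g, hg⟩ * h, mul_smul _ _ _⟩
  rcases hkcases with h1 | h1
  · refine ⟨ω, fun g hg => ?_⟩
    have hss : Subsingleton S := (Nat.card_eq_one_iff_unique.mp h1).1
    have h3 : (⟨g • ω, hinv g hg ω hωS⟩ : S) = ⟨ω, hωS⟩ := Subsingleton.elim _ _
    exact congrArg Subtype.val h3
  · by_cases hn : Fintype.card Ω = 1
    · refine ⟨ω, fun g hg => ?_⟩
      have := Fintype.card_le_one_iff.mp hn.le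
      exact this _ _
    · have hcardS : S.toFinset.card = Fintype.card Ω - 1 := by
        rw [← h1, Nat.card_eq_fintype_card, Set.toFinset_card]
      have hcompl : (S.toFinsetᶜ).card = 1 := by
        rw [Finset.card_compl, hcardS]
        omega
      obtain ⟨ω', hω'⟩ := Finset.card_eq_one.mp hcompl
      have hω'S : ω' ∉ S := by
        have : ω' ∈ S.toFinsetᶜ := by rw [hω']; exact Finset.mem_singleton_self _
        simpa using this
      refine ⟨ω', fun g hg => ?_⟩
      have h4 : g • ω' ∉ S := by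
        intro h5
        apply hω'S
        have h6 := hinv g⁻¹ (H'.inv_mem hg) _ h5
        simpa using h6
      have h7 : g • ω' ∈ S.toFinsetᶜ := by simpa using h4
      rw [hω'] at h7
      exact Finset.mem_singleton.mp h7

end Final

end Cfsg.Agent.S4276
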