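import Cfsg.Statements.S4278
import Cfsg.Agent.Lib.ChevIO.TabG2
import Cfsg.Agent.Lib.Chev.RelG2
import Cfsg.Agent.Lib.Chev.RootG2

set_option autoImplicit false
open Cfsg

namespace Cfsg.Agent.S4278

open Cfsg.Agent.Lib.Chev Cfsg.Lie

/-- In the Chevalley group of type G₂ over a finite field of odd order, any two involutions are conjugate. -/
theorem result {F : Type*} [Field F] [Fintype F] (hF : Odd (Fintype.card F)) (s t : ↥(Cfsg.Lie.chevG2.group F)) (hs : orderOf s = 2) (ht : orderOf t = 2) : IsConj s t := by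
  have hFull : Full TabG2.T TabG2.X RootG2T.R chevG2 := ⟨RelG2.checks, RootG2.checks⟩
  have htor := hFull.htor_of_smith (F := F) smithG2 (by decide +kernel)
  have hpair : ∀ a b : Fin chevG2.rank, a ≠ b →
      Odd (chevG2.cartan a (chevG2.simple b)) ∨ Odd (chevG2.cartan b (chevG2.simple a)) ∨ OrthP TabG2.X chevG2 a b := by
    unfold OrthP OrthS
    decide +kernel
  have key : ∀ x : ↥(chevG2.group F), orderOf x = 2 →
      ∃ g : ↥(chevG2.group F), g.1 * x.1 * g.1⁻¹ = tor RootG2T.R chevG2 (cM chevG2 F 1) := by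
    intro x hx
    obtain ⟨h1, h2⟩ := mul_self_of_orderOf hx
    obtain ⟨r, hr, g, hg, e⟩ := hFull.inv_conj_rep hF htor hpair TabG2Inv.hW x.2 h1 h2
    have hr1 : r = 1 := by simpa using hr
    subst hr1
    exact ⟨⟨g, hg⟩, e⟩
  obtain ⟨g₁, e₁⟩ := key s hs
  obtain ⟨g₂, e₂⟩ := key t ht
  rw [isConj_iff]
  refine ⟨g₂⁻¹ * g₁, Subtype.ext ?_⟩
  show (g₂.1⁻¹ * g₁.1) * s.1 * (g₂.1⁻¹ * g₁.1)⁻¹ = t.1
  have h3 : t.1 = g₂.1⁻¹ * (g₂.1 * t.1 * g₂.1⁻¹) * g₂.1 := by group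
  rw [h3, e₂, ← e₁]
  group

end Cfsg.Agent.S4278
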