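import Cfsg.Statements.S4279
import Cfsg.Agent.Lib.ChevIO.TabG2
import Cfsg.Agent.Lib.ChevIO.Pair
import Cfsg.Agent.Lib.Chev.RelG2
import Cfsg.Agent.Lib.Chev.RootG2

set_option autoImplicit false
open Cfsg

namespace Cfsg.Agent.S4279

open Cfsg.Agent.Lib.Chev Cfsg.Lie Matrix
open Cfsg.Agent.Lib.Chev.SL2 (x0 y0 D0)

theorem ct : chevG2.commTerms 4 0 = [] ∧ chevG2.commTerms 7 0 = [] ∧ chevG2.commTerms 4 11 = [] ∧ chevG2.commTerms 7 11 = [] := by
  decide +kernel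

theorem cvals : (chevG2.coroot.getD 7 #[]).getD 0 0 = 1 ∧ (chevG2.coroot.getD 7 #[]).getD 1 0 = 0 ∧
    (chevG2.coroot.getD 11 #[]).getD 0 0 = 1 ∧ (chevG2.coroot.getD 11 #[]).getD 1 0 = 2 := by
  decide +kernel

theorem nvals : chevG2.neg 7 = 4 ∧ chevG2.neg 11 = 0 := by decide +kernel

variable {F : Type*} [Field F]

theorem comm_roots (hF : Full TabG2.T TabG2.X RootG2T.R chevG2) (s t : F) :
    Commute (hF.c.xG 11 s) (hF.c.xG 7 t) ∧ Commute (hF.c.xG 0 s) (hF.c.xG 4 t) ∧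
    Commute (hF.c.xG 11 s) (hF.c.xG 4 t) ∧ Commute (hF.c.xG 0 s) (hF.c.xG 7 t) := by
  obtain ⟨h1, h2, h3, h4⟩ := ct
  refine ⟨?_, ?_, ?_, ?_⟩
  · refine hF.xG_commuteP (by decide) (by decide) (by decide) (by decide) ?_ t s
    rw [h4]
    simp
  · refine hF.xG_commuteP (by decide) (by decide) (by decide) (by decide) ?_ t s
    rw [h1]
    simp
  · refine hF.xG_commuteP (by decide) (by decide) (by decide) (by decide) ?_ t s
    rw [h3]
    simp
  · refine hF.xG_commuteP (by decide) (by decide) (by decide) (by decide) ?_ t s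
    rw [h2]
    simp

/-- The two `SL₂`s. -/
theorem exists_pair [Fintype F] (hF : Full TabG2.T TabG2.X RootG2T.R chevG2)
    (htor : ∀ c : Fin chevG2.rank → Fˣ, (∀ j < chevG2.rank, cartanMap chevG2 c j = 1) → c = 1) :
    ∃ ψ₁ ψ₂ : SpecialLinearGroup (Fin 2) F →* ↥(chevG2.group F), Function.Injective ψ₁ ∧ Function.Injective ψ₂ ∧
      (∀ a b, ψ₁ a * ψ₂ b = ψ₂ b * ψ₁ a) ∧ (ψ₁ (D0 (-1 : Fˣ))).1 = tor RootG2T.R chevG2 (cM chevG2 F 1) ∧
      (ψ₂ (D0 (-1 : Fˣ))).1 = tor RootG2T.R chevG2 (cM chevG2 F 1) := by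
  obtain ⟨c1, c2, c3, c4⟩ := cvals
  obtain ⟨n1, n2⟩ := nvals
  obtain ⟨φ₁, x1, y1⟩ := hF.exists_phi (F := F) (r := 7) (by decide)
  obtain ⟨φ₂, x2, y2⟩ := hF.exists_phi (F := F) (r := 11) (by decide)
  have hh : ∀ {r : ℕ}, r < chevG2.nroots → (chevG2.coroot.getD r #[]).getD 0 0 = 1 →
      ∀ a : Fˣ, hF.c.hG r (a : F) = 1 → a = 1 := by
    intro r hr hc a h
    rw [hF.hG_eq_tor hr] at h
    have h1 := htor _ (hF.cartanMap_of_tor_eq_one h)
    have h2 := congrFun h1 (⟨0, by decide⟩ : Fin chevG2.rank)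
    simp only [Pi.one_apply, hc, zpow_one] at h2
    exact h2
  have i₁ : Function.Injective φ₁ := hF.phi_inj (by decide) (by decide) x1 y1 (hh (by decide) c1)
  have i₂ : Function.Injective φ₂ := hF.phi_inj (by decide) (by decide) x2 y2 (hh (by decide) c3)
  have hcomm : ∀ g g', Commute (φ₁ g) (φ₂ g') := by
    intro g g'
    refine commP_of_gens φ₁ _ (fun t => ?_) (fun t => ?_) g
    · rw [x1]
      refine (commP_of_gens φ₂ _ (fun s => ?_) (fun s => ?_) g').symm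
      · rw [x2]
        exact (comm_roots hF s t).1
      · rw [y2, n2]
        exact (comm_roots hF s t).2.2.2
    · rw [y1, n1]
      refine (commP_of_gens φ₂ _ (fun s => ?_) (fun s => ?_) g').symm
      · rw [x2]
        exact (comm_roots hF s t).2.2.1
      · rw [y2, n2]
        exact (comm_roots hF s t).2.1
  have hm₁ : ∀ g, φ₁ g ∈ chevG2.group F := memP_of_gens φ₁ _
    (fun t => by rw [x1]; exact hF.c.xG_mem_group (by decide) t)
    (fun t => by rw [y1]; exact hF.c.xG_mem_group (hF.neg_lt (by decide)) t)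
  have hm₂ : ∀ g, φ₂ g ∈ chevG2.group F := memP_of_gens φ₂ _
    (fun t => by rw [x2]; exact hF.c.xG_mem_group (by decide) t)
    (fun t => by rw [y2]; exact hF.c.xG_mem_group (hF.neg_lt (by decide)) t)
  have e₁ : φ₁ (D0 (-1 : Fˣ)) = tor RootG2T.R chevG2 (cM chevG2 F 1) := by
    rw [hF.phi_D0 (by decide) x1 y1, hF.hG_eq_tor (by decide)]
    congr 1
    funext i
    obtain ⟨i, hi⟩ := i
    have hi2 : i < 2 := hi
    interval_cases i
    · show (-1 : Fˣ) ^ (chevG2.coroot.getD 7 #[]).getD 0 0 = cM chevG2 F 1 ⟨0, hi⟩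
      rw [c1, zpow_one]
      exact (if_pos (show Nat.testBit 1 0 = true by decide)).symm
    · show (-1 : Fˣ) ^ (chevG2.coroot.getD 7 #[]).getD 1 0 = cM chevG2 F 1 ⟨1, hi⟩
      rw [c2, zpow_zero]
      exact (if_neg (show ¬ Nat.testBit 1 1 = true by decide)).symm
  have e₂ : φ₂ (D0 (-1 : Fˣ)) = tor RootG2T.R chevG2 (cM chevG2 F 1) := by
    rw [hF.phi_D0 (by decide) x2 y2, hF.hG_eq_tor (by decide)]
    congr 1
    funext i
    obtain ⟨i, hi⟩ := i
    have hi2 : i < 2 := hi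
    interval_cases i
    · show (-1 : Fˣ) ^ (chevG2.coroot.getD 11 #[]).getD 0 0 = cM chevG2 F 1 ⟨0, hi⟩
      rw [c3, zpow_one]
      exact (if_pos (show Nat.testBit 1 0 = true by decide)).symm
    · show (-1 : Fˣ) ^ (chevG2.coroot.getD 11 #[]).getD 1 0 = cM chevG2 F 1 ⟨1, hi⟩
      rw [c4, show ((2 : ℤ)) = ((2 : ℕ) : ℤ) from rfl, zpow_natCast]
      have h5 : (-1 : Fˣ) ^ 2 = 1 := by simp
      rw [h5]
      exact (if_neg (show ¬ Nat.testBit 1 1 = true by decide)).symm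
  refine ⟨φ₁.codRestrict _ hm₁, φ₂.codRestrict _ hm₂, ?_, ?_, ?_, e₁, e₂⟩
  · intro a b e
    exact i₁ (congrArg Subtype.val e)
  · intro a b e
    exact i₂ (congrArg Subtype.val e)
  · intro a b
    apply Subtype.ext
    exact (hcomm a b).eq

/-- In the Chevalley group G of type G₂ over a finite field F of odd order q, the centralizer of an involution t has order q²(q² − 1)² and contains two elementwise commuting subgroups, each isomorphic to SL(2, F), which meet exactly in the subgroup generated by t and whose join has index 2 in the centralizer. -/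
theorem result {F : Type*} [Field F] [Fintype F] (hF : Odd (Fintype.card F)) (t : ↥(Cfsg.Lie.chevG2.group F)) (ht : orderOf t = 2) : Nat.card (Subgroup.centralizer ({t} : Set ↥(Cfsg.Lie.chevG2.group F))) = Fintype.card F ^ 2 * (Fintype.card F ^ 2 - 1) ^ 2 ∧ ∃ L₁ L₂ : Subgroup ↥(Cfsg.Lie.chevG2.group F), Nonempty (L₁ ≃* Matrix.SpecialLinearGroup (Fin 2) F) ∧ Nonempty (L₂ ≃* Matrix.SpecialLinearGroup (Fin 2) F) ∧ (∀ x ∈ L₁, ∀ y ∈ L₂, x * y = y * x) ∧ L₁ ⊓ L₂ = Subgroup.zpowers t ∧ L₁ ⊔ L₂ ≤ Subgroup.centralizer ({t} : Set ↥(Cfsg.Lie.chevG2.group F)) ∧ (L₁ ⊔ L₂).relIndex (Subgroup.centralizer ({t} : Set ↥(Cfsg.Lie.chevG2.group F))) = 2 := by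
  have hFull : Full TabG2.T TabG2.X RootG2T.R chevG2 := ⟨RelG2.checks, RootG2.checks⟩
  have htor := hFull.htor_of_smith (F := F) smithG2 (by decide +kernel)
  have hpair : ∀ a b : Fin chevG2.rank, a ≠ b →
      Odd (chevG2.cartan a (chevG2.simple b)) ∨ Odd (chevG2.cartan b (chevG2.simple a)) ∨ OrthP TabG2.X chevG2 a b := by
    unfold OrthP OrthS
    decide +kernel
  obtain ⟨h1, h2⟩ := mul_self_of_orderOf ht
  obtain ⟨r, hr, g, hg, e⟩ := hFull.inv_conj_rep hF htor hpair TabG2Inv.hW t.2 h1 h2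
  have hr1 : r = 1 := by simpa using hr
  subst hr1
  have hr3 := hFull.cartanMap_cM_of_par (F := F) TabG2Inv.hrep1
  have hq : 1 ≤ Fintype.card F := Fintype.card_pos
  set q := Fintype.card F with hqdef
  have hT : Nat.card (chevG2.diagonalSubgroup F) = (q - 1) ^ 2 := by
    have := Full.torus_card_G2 (F := F) hFull
    rw [one_mul] at this
    exact this
  have hc : ∀ d : ℕ, ((q ^ d - 1 : ℕ) : ℤ) = (q : ℤ) ^ d - 1 := by
    intro d
    rw [Nat.cast_sub (Nat.one_le_pow _ _ hq)]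
    push_cast
    rfl
  have hc1 : ((q - 1 : ℕ) : ℤ) = (q : ℤ) - 1 := by
    rw [Nat.cast_sub hq]
    rfl
  have hcard : Nat.card (Subgroup.centralizer ({t} : Set ↥(chevG2.group F))) = q ^ 2 * (q ^ 2 - 1) ^ 2 := by
    rw [card_centralizer_conj t hg e, hFull.card_cent_tab hF (j := 1) (Ls := [0]) (by decide) (by decide)
      (by decide) OrbG2.cm_ok OrbG2.ok1 TabG2Inv.okE1 hr3, TabG2Inv.nE1, hT]
    rw [hFull.poin_of_orb (j := 0) (Ls := []) (by decide) (by simp) OrbG2.cm_ok OrbG2.ok0 q]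
    rw [hFull.poin_nil, mul_one]
    simp only [TabG2Inv.dsE1, OrbG2.ds0, List.map_cons, List.map_nil, List.sum_cons, List.sum_nil]
    zify
    rw [hc1]
    simp only [hc]
    ring
  refine ⟨hcard, ?_⟩
  obtain ⟨ψ₁, ψ₂, i₁, i₂, hcomm, e₁, e₂⟩ := exists_pair (F := F) hFull htor
  let g' : ↥(chevG2.group F) := ⟨g, hg⟩
  let conj' : ↥(chevG2.group F) →* ↥(chevG2.group F) := (MulAut.conj g'⁻¹).toMonoidHom
  have hconj : Function.Injective conj' := (MulAut.conj g'⁻¹).injective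
  have ecj : ∀ x : ↥(chevG2.group F), x.1 = tor RootG2T.R chevG2 (cM chevG2 F 1) → conj' x = t := by
    intro x hx
    apply Subtype.ext
    show g⁻¹ * x.1 * g⁻¹⁻¹ = t.1
    rw [hx, ← e]
    group
  refine pair_lemma hF (conj'.comp ψ₁) (conj'.comp ψ₂) (hconj.comp i₁) (hconj.comp i₂) ?_ (ecj _ e₁) (ecj _ e₂) hcard
  intro a b
  show conj' (ψ₁ a) * conj' (ψ₂ b) = conj' (ψ₂ b) * conj' (ψ₁ a)
  rw [← map_mul, ← map_mul, hcomm]

end Cfsg.Agent.S4279
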