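import Cfsg.Statements.S4280
import Cfsg.Agent.Lib.ChevIO.TabF4
import Cfsg.Agent.Lib.Chev.RelF4
import Cfsg.Agent.Lib.Chev.RootF4

set_option autoImplicit false
open Cfsg

namespace Cfsg.Agent.S4280

open Cfsg.Agent.Lib.Chev Cfsg.Lie

set_option maxRecDepth 100000 in
/-- In the Chevalley group of type F₄ over a finite field of odd order q there are exactly two conjugacy classes of involutions; the centralizer of an involution in one class has order q¹⁶(q² − 1)(q⁴ − 1)(q⁶ − 1)(q⁸ − 1), and in the other class q¹⁰(q² − 1)²(q⁴ − 1)(q⁶ − 1). -/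
theorem result {F : Type*} [Field F] [Fintype F] (hF : Odd (Fintype.card F)) : ∃ s t : ↥(Cfsg.Lie.chevF4.group F), orderOf s = 2 ∧ orderOf t = 2 ∧ ¬ IsConj s t ∧ (∀ u : ↥(Cfsg.Lie.chevF4.group F), orderOf u = 2 → IsConj u s ∨ IsConj u t) ∧ Nat.card (Subgroup.centralizer ({s} : Set ↥(Cfsg.Lie.chevF4.group F))) = Fintype.card F ^ 16 * (Fintype.card F ^ 2 - 1) * (Fintype.card F ^ 4 - 1) * (Fintype.card F ^ 6 - 1) * (Fintype.card F ^ 8 - 1) ∧ Nat.card (Subgroup.centralizer ({t} : Set ↥(Cfsg.Lie.chevF4.group F))) = Fintype.card F ^ 10 * (Fintype.card F ^ 2 - 1) ^ 2 * (Fintype.card F ^ 4 - 1) * (Fintype.card F ^ 6 - 1) := by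
  have hFull : Full TabF4.T TabF4.X RootF4T.R chevF4 := ⟨RelF4.checks, RootF4.checks⟩
  have htor := hFull.htor_of_smith (F := F) smithF4 (by decide +kernel)
  have hpair : ∀ a b : Fin chevF4.rank, a ≠ b →
      Odd (chevF4.cartan a (chevF4.simple b)) ∨ Odd (chevF4.cartan b (chevF4.simple a)) ∨ OrthP TabF4.X chevF4 a b := by
    unfold OrthP OrthS
    decide +kernel
  have hr0 := hFull.cartanMap_cM_of_par (F := F) TabF4Inv.hrep0
  have hr3 := hFull.cartanMap_cM_of_par (F := F) TabF4Inv.hrep3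
  obtain ⟨s, t, hs, ht, hu, es, et⟩ := hFull.two_classes hF htor hpair TabF4Inv.hW (j₁ := 0) (j₂ := 3)
    (by decide) (by decide) hr0 hr3
  have hq : 1 ≤ Fintype.card F := Fintype.card_pos
  have hq3 : 3 ≤ Fintype.card F := by
    obtain ⟨k, hk⟩ := hF
    have := Fintype.one_lt_card (α := F)
    omega
  set q := Fintype.card F with hqdef
  have hT : Nat.card (chevF4.diagonalSubgroup F) = (q - 1) ^ 4 := by
    have := Full.torus_card_F4 (F := F) hFull
    rw [one_mul] at this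
    exact this
  have hc : ∀ d : ℕ, ((q ^ d - 1 : ℕ) : ℤ) = (q : ℤ) ^ d - 1 := by
    intro d
    rw [Nat.cast_sub (Nat.one_le_pow _ _ hq)]
    push_cast
    rfl
  have hc1 : ((q - 1 : ℕ) : ℤ) = (q : ℤ) - 1 := by
    rw [Nat.cast_sub hq]
    rfl
  have hcs : Nat.card (Subgroup.centralizer ({s} : Set ↥(chevF4.group F))) =
      q ^ 16 * (q ^ 2 - 1) * (q ^ 4 - 1) * (q ^ 6 - 1) * (q ^ 8 - 1) := by
    rw [card_centralizer_self s, es, hFull.card_cent_tab hF (j := 0) (Ls := [3, 2, 1]) (by decide) (by decide)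
      (by decide) OrbF4.cm_ok TabF4Inv.ok0b TabF4Inv.okE0b hr0, TabF4Inv.nE0, hT]
    rw [hFull.poin_of_orb (j := 3) (Ls := [2, 1]) (by decide) (by simp) OrbF4.cm_ok TabF4Inv.ok3b q]
    rw [hFull.poin_of_orb (j := 2) (Ls := [1]) (by decide) (by simp) OrbF4.cm_ok TabF4Inv.ok2b q]
    rw [hFull.poin_of_orb (j := 1) (Ls := []) (by decide) (by simp) OrbF4.cm_ok TabF4Inv.ok1b q]
    rw [hFull.poin_nil, mul_one]
    simp only [TabF4Inv.dsE0b, TabF4Inv.ds3b, TabF4Inv.ds2b, TabF4Inv.ds1b, List.map_cons, List.map_nil, List.sum_cons, List.sum_nil]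
    zify
    rw [hc1]
    simp only [hc]
    ring
  have hct : Nat.card (Subgroup.centralizer ({t} : Set ↥(chevF4.group F))) =
      q ^ 10 * (q ^ 2 - 1) ^ 2 * (q ^ 4 - 1) * (q ^ 6 - 1) := by
    rw [card_centralizer_self t, et, hFull.card_cent_tab hF (j := 3) (Ls := [2, 1, 0]) (by decide) (by decide)
      (by decide) OrbF4.cm_ok OrbF4.ok3 TabF4Inv.okE3 hr3, TabF4Inv.nE3, hT]
    rw [hFull.poin_of_orb (j := 2) (Ls := [1, 0]) (by decide) (by simp) OrbF4.cm_ok OrbF4.ok2 q]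
    rw [hFull.poin_of_orb (j := 1) (Ls := [0]) (by decide) (by simp) OrbF4.cm_ok OrbF4.ok1 q]
    rw [hFull.poin_of_orb (j := 0) (Ls := []) (by decide) (by simp) OrbF4.cm_ok OrbF4.ok0 q]
    rw [hFull.poin_nil, mul_one]
    simp only [TabF4Inv.dsE3, OrbF4.ds2, OrbF4.ds1, OrbF4.ds0, List.map_cons, List.map_nil, List.sum_cons, List.sum_nil]
    zify
    rw [hc1]
    simp only [hc]
    ring
  refine ⟨s, t, hs, ht, ?_, hu, hcs, hct⟩
  intro hconj
  have h1 := card_centralizer_of_isConj hconj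
  rw [hcs, hct] at h1
  -- compare
  have ha : 0 < q ^ 2 - 1 := Nat.sub_pos_of_lt (Nat.one_lt_pow (by norm_num) (by omega))
  have hb : 0 < q ^ 4 - 1 := Nat.sub_pos_of_lt (Nat.one_lt_pow (by norm_num) (by omega))
  have hd : 0 < q ^ 6 - 1 := Nat.sub_pos_of_lt (Nat.one_lt_pow (by norm_num) (by omega))
  have he : q ^ 2 - 1 < q ^ 8 - 1 := by
    have h2 : q ^ 2 < q ^ 8 := Nat.pow_lt_pow_right (by omega) (by norm_num)
    have h3 : 1 ≤ q ^ 2 := Nat.one_le_pow _ _ hq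
    omega
  have hp : 0 < q ^ 10 := Nat.pow_pos hq
  have h2 : q ^ 6 * (q ^ 8 - 1) = q ^ 2 - 1 := by
    have h3 : (q ^ 10 * (q ^ 2 - 1) * (q ^ 4 - 1) * (q ^ 6 - 1)) * (q ^ 6 * (q ^ 8 - 1)) =
        (q ^ 10 * (q ^ 2 - 1) * (q ^ 4 - 1) * (q ^ 6 - 1)) * (q ^ 2 - 1) := by
      calc _ = q ^ 16 * (q ^ 2 - 1) * (q ^ 4 - 1) * (q ^ 6 - 1) * (q ^ 8 - 1) := by ring
        _ = _ := h1
        _ = _ := by ring
    exact Nat.eq_of_mul_eq_mul_left (by positivity) h3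
  have h4 : q ^ 8 - 1 ≤ q ^ 6 * (q ^ 8 - 1) := Nat.le_mul_of_pos_left _ (Nat.pow_pos hq)
  omega

end Cfsg.Agent.S4280
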