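import Cfsg.Statements.S4281
import Cfsg.Agent.Lib.ChevIO.TabE8
import Cfsg.Agent.Lib.ChevIO.TabE8Big
import Cfsg.Agent.Lib.Chev.RelE8
import Cfsg.Agent.Lib.Chev.RootE8

set_option autoImplicit false
open Cfsg

namespace Cfsg.Agent.S4281

open Cfsg.Agent.Lib.Chev Cfsg.Lie

set_option maxRecDepth 100000 in
/-- In the Chevalley group of type E₈ over a finite field of odd order q there are exactly two conjugacy classes of involutions; the centralizer of an involution in one class has order q⁵⁶(q⁸ − 1)·∏_{i=1}^{7}(q^{2i} − 1), and in the other class q⁶⁴(q² − 1)²(q⁶ − 1)(q⁸ − 1)(q¹⁰ − 1)(q¹² − 1)(q¹⁴ − 1)(q¹⁸ − 1). -/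
theorem result {F : Type*} [Field F] [Fintype F] (hF : Odd (Fintype.card F)) : ∃ s t : ↥(Cfsg.Lie.chevE8.group F), orderOf s = 2 ∧ orderOf t = 2 ∧ ¬ IsConj s t ∧ (∀ u : ↥(Cfsg.Lie.chevE8.group F), orderOf u = 2 → IsConj u s ∨ IsConj u t) ∧ Nat.card (Subgroup.centralizer ({s} : Set ↥(Cfsg.Lie.chevE8.group F))) = Fintype.card F ^ 56 * (Fintype.card F ^ 8 - 1) * ∏ i ∈ Finset.Icc 1 7, (Fintype.card F ^ (2 * i) - 1) ∧ Nat.card (Subgroup.centralizer ({t} : Set ↥(Cfsg.Lie.chevE8.group F))) = Fintype.card F ^ 64 * (Fintype.card F ^ 2 - 1) ^ 2 * (Fintype.card F ^ 6 - 1) * (Fintype.card F ^ 8 - 1) * (Fintype.card F ^ 10 - 1) * (Fintype.card F ^ 12 - 1) * (Fintype.card F ^ 14 - 1) * (Fintype.card F ^ 18 - 1) := by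
  have hFull : Full TabE8.T TabE8.X RootE8T.R chevE8 := ⟨RelE8.checks, RootE8.checks⟩
  have htor := hFull.htor_of_smith (F := F) smithE8 (by decide +kernel)
  have hpair : ∀ a b : Fin chevE8.rank, a ≠ b →
      Odd (chevE8.cartan a (chevE8.simple b)) ∨ Odd (chevE8.cartan b (chevE8.simple a)) ∨ OrthP TabE8.X chevE8 a b := by
    unfold OrthP OrthS
    decide +kernel
  have hr0 := hFull.cartanMap_cM_of_par (F := F) TabE8Inv.hrep0
  have hr7 := hFull.cartanMap_cM_of_par (F := F) TabE8Inv.hrep7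
  obtain ⟨s, t, hs, ht, hu, es, et⟩ := hFull.two_classes hF htor hpair TabE8Inv.hW (j₁ := 0) (j₂ := 7)
    (by decide) (by decide) hr0 hr7
  have hq : 1 ≤ Fintype.card F := Fintype.card_pos
  have hq3 : 3 ≤ Fintype.card F := by
    obtain ⟨k, hk⟩ := hF
    have := Fintype.one_lt_card (α := F)
    omega
  set q := Fintype.card F with hqdef
  have hT : Nat.card (chevE8.diagonalSubgroup F) = (q - 1) ^ 8 := by
    have := Full.torus_card_E8 (F := F) hFull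
    rw [one_mul] at this
    exact this
  have hc : ∀ d : ℕ, ((q ^ d - 1 : ℕ) : ℤ) = (q : ℤ) ^ d - 1 := by
    intro d
    rw [Nat.cast_sub (Nat.one_le_pow _ _ hq)]
    push_cast
    rfl
  have hc1 : ((q - 1 : ℕ) : ℤ) = (q : ℤ) - 1 := by
    rw [Nat.cast_sub hq]
    rfl
  have hcs : Nat.card (Subgroup.centralizer ({s} : Set ↥(chevE8.group F))) =
      q ^ 56 * (q ^ 8 - 1) * ∏ i ∈ Finset.Icc 1 7, (q ^ (2 * i) - 1) := by
    rw [card_centralizer_self s, es, hFull.card_cent_sumE hF (j := 0) (Ls := [7, 6, 5, 4, 2, 3, 1]) (by decide)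
      (by decide) hr0, hFull.sumE_of_trie (by decide) (by decide) OrbE8.cm_ok TabE8Big.okb, TabE8Inv.nE0, hT]
    rw [hFull.poin_of_orb (j := 7) (Ls := [6, 5, 4, 2, 3, 1]) (by decide) (by simp) OrbE8.cm_ok TabE8Inv.ok7b q]
    rw [hFull.poin_of_orb (j := 6) (Ls := [5, 4, 2, 3, 1]) (by decide) (by simp) OrbE8.cm_ok TabE8Inv.ok6b q]
    rw [hFull.poin_of_orb (j := 5) (Ls := [4, 2, 3, 1]) (by decide) (by simp) OrbE8.cm_ok TabE8Inv.ok5b q]
    rw [hFull.poin_of_orb (j := 4) (Ls := [2, 3, 1]) (by decide) (by simp) OrbE8.cm_ok TabE8Inv.ok4b q]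
    rw [hFull.poin_of_orb (j := 2) (Ls := [3, 1]) (by decide) (by simp) OrbE8.cm_ok TabE8Inv.ok2b q]
    rw [hFull.poin_of_orb (j := 3) (Ls := [1]) (by decide) (by simp) OrbE8.cm_ok TabE8Inv.ok3b q]
    rw [hFull.poin_of_orb (j := 1) (Ls := []) (by decide) (by simp) OrbE8.cm_ok TabE8Inv.ok1b q]
    rw [hFull.poin_nil, mul_one]
    simp only [TabE8Big.dsEb, TabE8Inv.ds7b, TabE8Inv.ds6b, TabE8Inv.ds5b, TabE8Inv.ds4b, TabE8Inv.ds2b, TabE8Inv.ds3b, TabE8Inv.ds1b, List.map_cons, List.map_nil, List.sum_cons, List.sum_nil]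
    have hprod : ∏ i ∈ Finset.Icc 1 7, (q ^ (2 * i) - 1) =
        (q ^ 2 - 1) * (q ^ 4 - 1) * (q ^ 6 - 1) * (q ^ 8 - 1) * (q ^ 10 - 1) * (q ^ 12 - 1) * (q ^ 14 - 1) := by
      have : Finset.Icc 1 7 = {1, 2, 3, 4, 5, 6, 7} := by decide
      rw [this]
      simp only [Finset.prod_insert, Finset.mem_insert, Finset.mem_singleton, Finset.prod_singleton, Nat.reduceMul, Nat.reduceEqDiff, or_self, not_false_eq_true, OfNat.ofNat_ne_one, OfNat.one_ne_ofNat]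
      ring
    rw [hprod]
    zify
    rw [hc1]
    simp only [hc]
    ring
  have hct : Nat.card (Subgroup.centralizer ({t} : Set ↥(chevE8.group F))) =
      q ^ 64 * (q ^ 2 - 1) ^ 2 * (q ^ 6 - 1) * (q ^ 8 - 1) * (q ^ 10 - 1) * (q ^ 12 - 1) * (q ^ 14 - 1) * (q ^ 18 - 1) := by
    rw [card_centralizer_self t, et, hFull.card_cent_tab hF (j := 7) (Ls := [6, 5, 4, 1, 3, 2, 0]) (by decide) (by decide)
      (by decide) OrbE8.cm_ok OrbE8.ok7 TabE8Inv.okE7 hr7, TabE8Inv.nE7, hT]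
    rw [hFull.poin_of_orb (j := 6) (Ls := [5, 4, 1, 3, 2, 0]) (by decide) (by simp) OrbE8.cm_ok OrbE8.ok6 q]
    rw [hFull.poin_of_orb (j := 5) (Ls := [4, 1, 3, 2, 0]) (by decide) (by simp) OrbE8.cm_ok OrbE8.ok5 q]
    rw [hFull.poin_of_orb (j := 4) (Ls := [1, 3, 2, 0]) (by decide) (by simp) OrbE8.cm_ok OrbE8.ok4 q]
    rw [hFull.poin_of_orb (j := 1) (Ls := [3, 2, 0]) (by decide) (by simp) OrbE8.cm_ok OrbE8.ok3 q]
    rw [hFull.poin_of_orb (j := 3) (Ls := [2, 0]) (by decide) (by simp) OrbE8.cm_ok OrbE8.ok2 q]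
    rw [hFull.poin_of_orb (j := 2) (Ls := [0]) (by decide) (by simp) OrbE8.cm_ok OrbE8.ok1 q]
    rw [hFull.poin_of_orb (j := 0) (Ls := []) (by decide) (by simp) OrbE8.cm_ok OrbE8.ok0 q]
    rw [hFull.poin_nil, mul_one]
    simp only [TabE8Inv.dsE7, OrbE8.ds6, OrbE8.ds5, OrbE8.ds4, OrbE8.ds3, OrbE8.ds2, OrbE8.ds1, OrbE8.ds0, List.map_cons, List.map_nil, List.sum_cons, List.sum_nil]
    zify
    rw [hc1]
    simp only [hc]
    ring
  refine ⟨s, t, hs, ht, ?_, hu, hcs, hct⟩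
  intro hconj
  have h1 := card_centralizer_of_isConj hconj
  rw [hcs, hct] at h1
  have hprod : ∏ i ∈ Finset.Icc 1 7, (q ^ (2 * i) - 1) =
      (q ^ 2 - 1) * (q ^ 4 - 1) * (q ^ 6 - 1) * (q ^ 8 - 1) * (q ^ 10 - 1) * (q ^ 12 - 1) * (q ^ 14 - 1) := by
    have : Finset.Icc 1 7 = {1, 2, 3, 4, 5, 6, 7} := by decide
    rw [this]
    simp only [Finset.prod_insert, Finset.mem_insert, Finset.mem_singleton, Finset.prod_singleton, Nat.reduceMul, Nat.reduceEqDiff, or_self, not_false_eq_true, OfNat.ofNat_ne_one, OfNat.one_ne_ofNat]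
    ring
  rw [hprod] at h1
  have hpos : ∀ d : ℕ, 0 < d → 0 < q ^ d - 1 := fun d hd => Nat.sub_pos_of_lt (Nat.one_lt_pow (by omega) (by omega))
  have h2 : (q ^ 8 - 1) * (q ^ 4 - 1) = q ^ 8 * ((q ^ 2 - 1) * (q ^ 18 - 1)) := by
    have h3 : (q ^ 56 * (q ^ 2 - 1) * (q ^ 6 - 1) * (q ^ 8 - 1) * (q ^ 10 - 1) * (q ^ 12 - 1) * (q ^ 14 - 1)) * ((q ^ 8 - 1) * (q ^ 4 - 1)) =
        (q ^ 56 * (q ^ 2 - 1) * (q ^ 6 - 1) * (q ^ 8 - 1) * (q ^ 10 - 1) * (q ^ 12 - 1) * (q ^ 14 - 1)) * (q ^ 8 * ((q ^ 2 - 1) * (q ^ 18 - 1))) := by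
      calc _ = q ^ 56 * (q ^ 8 - 1) * ((q ^ 2 - 1) * (q ^ 4 - 1) * (q ^ 6 - 1) * (q ^ 8 - 1) * (q ^ 10 - 1) * (q ^ 12 - 1) * (q ^ 14 - 1)) := by ring
        _ = _ := h1
        _ = _ := by ring
    have h4 : 0 < q ^ 56 * (q ^ 2 - 1) * (q ^ 6 - 1) * (q ^ 8 - 1) * (q ^ 10 - 1) * (q ^ 12 - 1) * (q ^ 14 - 1) := by
      have := hpos 2 (by norm_num)
      have := hpos 6 (by norm_num)
      have := hpos 8 (by norm_num)
      have := hpos 10 (by norm_num)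
      have := hpos 12 (by norm_num)
      have := hpos 14 (by norm_num)
      positivity
    exact Nat.eq_of_mul_eq_mul_left h4 h3
  -- sizes
  have h5 : (q ^ 8 - 1) * (q ^ 4 - 1) < q ^ 8 * q ^ 4 := by
    have h6 : q ^ 8 - 1 < q ^ 8 := Nat.sub_lt (Nat.pow_pos hq) (by norm_num)
    have h7 : q ^ 4 - 1 ≤ q ^ 4 := Nat.sub_le _ _
    exact Nat.mul_lt_mul_of_lt_of_le h6 h7 (Nat.pow_pos hq)
  have h6 : q ^ 4 ≤ (q ^ 2 - 1) * (q ^ 18 - 1) := by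
    have h7 : 1 ≤ q ^ 2 - 1 := hpos 2 (by norm_num)
    have h8 : q ^ 4 ≤ q ^ 18 - 1 := by
      have h9 : q ^ 4 < q ^ 18 := Nat.pow_lt_pow_right (by omega) (by norm_num)
      omega
    calc q ^ 4 ≤ q ^ 18 - 1 := h8
      _ = 1 * (q ^ 18 - 1) := (one_mul _).symm
      _ ≤ _ := Nat.mul_le_mul_right _ h7
  have h7 : q ^ 8 * q ^ 4 ≤ q ^ 8 * ((q ^ 2 - 1) * (q ^ 18 - 1)) := Nat.mul_le_mul_left _ h6
  omega

end Cfsg.Agent.S4281
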