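import Mathlib
import Cfsg.Statements.S4282
import Cfsg.Agent.Lib.HHCrit

set_option autoImplicit false
open Cfsg

namespace Cfsg.Agent.S4282

open Cfsg.Agent.Lib.HHCrit Module

/-- A critical case behind the Hall–Higman theorem. Let p ≠ q be primes and G a finite group generated by a normal q-subgroup Q and a cyclic p-subgroup generated by x, such that the centralizer of every non-identity element of that cyclic subgroup is its product with the centre of G. Let K be an algebraically closed field of characteristic p and ρ a faithful representation of G on a nonzero finite-dimensional K-space whose restriction to Q is irreducible. If s is the least exponent with (ρ(x) − 1)^s = 0, then |⟨x⟩| − 1 ≤ s ≤ |⟨x⟩|; and if s = |⟨x⟩| − 1 then |⟨x⟩| − 1 is a power of q and Q is non-abelian. -/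
theorem result {G : Type*} [Group G] [Finite G] (p q : ℕ) [Fact p.Prime] [Fact q.Prime] (hpq : p ≠ q) (Q : Subgroup G) [Q.Normal] (hQ : IsPGroup q Q) (x : G) (hx : IsPGroup p (Subgroup.zpowers x)) (hgen : Q ⊔ Subgroup.zpowers x = ⊤) (hC : ∀ y ∈ Subgroup.zpowers x, y ≠ 1 → Subgroup.centralizer ({y} : Set G) = Subgroup.zpowers x ⊔ Subgroup.center G) {K : Type*} [Field K] [IsAlgClosed K] [CharP K p] {V : Type*} [AddCommGroup V] [Module K V] [FiniteDimensional K V] [Nontrivial V] (ρ : Representation K G V) (hfaith : Function.Injective ρ) (hirr : ∀ W : Submodule K V, (∀ g ∈ Q, Submodule.map (ρ g) W ≤ W) → W = ⊥ ∨ W = ⊤) (s : ℕ) (hs : (ρ x - 1) ^ s = 0) (hmin : ∀ k < s, (ρ x - 1) ^ k ≠ 0) : Nat.card (Subgroup.zpowers x) - 1 ≤ s ∧ s ≤ Nat.card (Subgroup.zpowers x) ∧ (s = Nat.card (Subgroup.zpowers x) - 1 → (∃ b : ℕ, Nat.card (Subgroup.zpowers x) - 1 = q ^ b) ∧ ¬ IsMulCommutative Q) := by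
  classical
  have hp : p.Prime := Fact.out
  have hq : q.Prime := Fact.out
  have hone : (1 : End K V) ≠ 0 := one_ne_zero
  rw [Nat.card_zpowers]
  by_cases hx1 : x = 1
  · subst hx1
    simp only [orderOf_one, Nat.sub_self, zero_le, true_and]
    refine ⟨?_, ?_⟩
    · by_contra hlt
      apply hmin 1 (by omega)
      simp
    · intro h0
      rw [h0, pow_zero] at hs
      exact absurd hs hone
  obtain ⟨n, hn⟩ : ∃ n, orderOf x = p ^ n := by
    obtain ⟨n, hn⟩ := IsPGroup.iff_card.mp hx
    exact ⟨n, by rwa [Nat.card_zpowers] at hn⟩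
  rw [hn]
  have hxN : x ^ p ^ n = 1 := by rw [← hn]; exact pow_orderOf_eq_one x
  let _ : Fintype Q := Fintype.ofFinite Q
  let ρ' : Q →* End K V := (ρ : G →* End K V).comp Q.subtype
  have hirr' : Irr ρ' := by
    intro W hW
    refine hirr W ?_
    intro g hg
    rintro _ ⟨w, hw, rfl⟩
    exact hW ⟨g, hg⟩ w hw
  have hqK : (q : K) ≠ 0 := by
    intro h
    have := (CharP.cast_eq_zero_iff K p q).mp h
    exact hpq ((Nat.prime_dvd_prime_iff_eq hp hq).mp this)
  have hcard : (Fintype.card Q : K) ≠ 0 := by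
    obtain ⟨k, hk⟩ := IsPGroup.iff_card.mp hQ
    rw [← Nat.card_eq_fintype_card, hk, Nat.cast_pow]
    exact pow_ne_zero _ hqK
  let σ : MulAut Q := MulAut.conjNormal x
  have hσ : ∀ g, ρ x * ρ' g * ρ x⁻¹ = ρ' (σ g) := by
    intro g
    simp only [ρ', MonoidHom.comp_apply, Subgroup.coe_subtype, σ, MulAut.conjNormal_apply, map_mul]
  have hσpow : ∀ (i : ℕ) (g : Q), (((σ ^ i) g : Q) : G) = x ^ i * g * (x ^ i)⁻¹ := by
    intro i g
    have : σ ^ i = MulAut.conjNormal (x ^ i) := by simp [σ]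
    rw [this, MulAut.conjNormal_apply]
  have hσN : σ ^ (p ^ n) = 1 := by
    have : σ ^ (p ^ n) = MulAut.conjNormal (x ^ p ^ n) := by simp [σ]
    rw [this, hxN, map_one]
  have hzcen : ∀ g : Q, (g : G) ∈ Subgroup.center G → ∃ c : K, ρ' g = c • 1 := by
    intro g hg
    refine schur hirr' _ ?_
    intro h
    simp only [ρ', MonoidHom.comp_apply, Subgroup.coe_subtype]
    rw [← map_mul, ← map_mul, (Subgroup.mem_center_iff.mp hg (h : G)).symm]
  have hfree : ∀ g, (¬ ∃ c : K, ρ' g = c • 1) → ∀ i, 0 < i → i < p ^ n → (σ ^ i) g ≠ g := by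
    intro g hg i hi hiN he
    apply hg
    apply hzcen
    have hyne : x ^ i ≠ 1 := pow_ne_one_of_lt_orderOf hi.ne' (by rwa [hn])
    have hmem : (g : G) ∈ Subgroup.centralizer ({x ^ i} : Set G) := by
      rw [Subgroup.mem_centralizer_singleton_iff]
      have h1 := congrArg (Subtype.val) he
      rw [hσpow] at h1
      rw [eq_mul_inv_iff_mul_eq.mp h1.symm]
    rw [hC _ (Subgroup.npow_mem_zpowers x i) hyne] at hmem
    have hmem2 : (g : G) ∈ ((Subgroup.zpowers x ⊔ Subgroup.center G : Subgroup G) : Set G) := hmem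
    rw [Subgroup.mul_normal] at hmem2
    obtain ⟨a, ha, z, hz, hgaz⟩ := Set.mem_mul.mp hmem2
    have hz' : z ∈ Subgroup.center G := hz
    have hcomm : Commute a z := (Subgroup.mem_center_iff.mp hz' a)
    obtain ⟨k, hk⟩ := hQ g
    have hk' : (g : G) ^ q ^ k = 1 := by
      have := congrArg Subtype.val hk
      simpa using this
    obtain ⟨m, hm⟩ := hx ⟨a, ha⟩
    have hm' : a ^ p ^ m = 1 := by
      have := congrArg Subtype.val hm
      simpa using this
    have hcop : (q ^ k).Coprime (orderOf a) := by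
      have hd : orderOf a ∣ p ^ m := orderOf_dvd_of_pow_eq_one hm'
      refine Nat.Coprime.coprime_dvd_right hd ?_
      exact Nat.Coprime.pow _ _ ((Nat.coprime_primes hq hp).mpr (Ne.symm hpq))
    obtain ⟨t, ht⟩ := exists_pow_eq_self_of_coprime hcop
    have h2 : a ^ q ^ k * z ^ q ^ k = 1 := by
      rw [← hcomm.mul_pow, hgaz, hk']
    have h3 : a ^ q ^ k ∈ Subgroup.center G := by
      rw [eq_inv_of_mul_eq_one_left h2]
      exact inv_mem (pow_mem hz' _)
    have h4 : a ∈ Subgroup.center G := by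
      rw [← ht]
      exact pow_mem h3 _
    rw [← hgaz]
    exact mul_mem h4 hz'
  have hX1 : ρ x ≠ 1 := by
    intro h
    apply hx1
    apply hfaith
    rw [h, map_one]
  have hXY : ρ x * ρ x⁻¹ = 1 := by rw [← map_mul]; simp
  have hYX : ρ x⁻¹ * ρ x = 1 := by rw [← map_mul]; simp
  obtain ⟨h1, h2⟩ := core p hirr' hcard hXY hYX n hσ hσN hfree hX1 s hs hmin
  refine ⟨h1, ?_, ?_⟩
  · by_contra hlt
    push Not at hlt
    apply hmin _ hlt
    rw [sub_one_pow_char_pow (K := K) p n, ← map_pow, hxN, map_one, sub_self]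
  · intro hsN
    have hfr := h2 hsN
    obtain ⟨b, hb⟩ := finrank_irr_prime_pow (K := K) q (p ^ n - 1) V Q hQ ρ' hirr' hfr
    refine ⟨⟨b, hb⟩, ?_⟩
    intro hab
    have hscal : ∀ g, ∃ c : K, ρ' g = c • 1 := by
      intro g
      refine schur hirr' _ ?_
      intro h
      simp only [ρ', MonoidHom.comp_apply, Subgroup.coe_subtype]
      rw [← map_mul, ← map_mul]
      have e : g * h = h * g := hab.is_comm.comm g h
      exact congrArg (fun t : Q => ρ (t : G)) e
    have hf1 := finrank_one_of_scal hirr' hscal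
    have hs1 : s = 1 := by omega
    rw [hs1, pow_one] at hs
    exact hX1 (sub_eq_zero.mp hs)

end Cfsg.Agent.S4282
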