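import Mathlib
import Cfsg.Statements.S4283
import Cfsg.Agent.Lib.Frobenius
import Cfsg.Agent.Lib.FpfGeneral

set_option autoImplicit false
open Cfsg
open scoped Pointwise

namespace Cfsg.Agent.S4283

open Cfsg.Agent.Lib.Frobenius

section quot
variable {Q : Type*} [Group Q] {H K : Subgroup Q}

theorem mem_H_of_comm (hF : IsFrobeniusComplement H) {x q : Q} (hx : x ∈ H) (hx1 : x ≠ 1)
    (hc : q * x = x * q) : q ∈ H := by
  refine mem_of_conj_mem hF hx hx1 (g := q) ?_
  have : q⁻¹ * x * q = x := by rw [mul_assoc, ← hc]; group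
  rw [this]; exact hx

theorem mem_K_of_comm (hF : IsFrobeniusComplement H)
    (hker : frobeniusKernel H = (K : Set Q)) {x q : Q} (hx : x ∈ K) (hx1 : x ≠ 1)
    (hc : q * x = x * q) : q ∈ K := by
  by_contra hq
  have hq' : q ∉ frobeniusKernel H := by
    rw [hker]; exact hq
  obtain ⟨hq1, g, hg⟩ := not_mem_kernel_iff.mp hq'
  have hx' : x ∈ frobeniusKernel H := by rw [hker]; exact hx
  have h1 : g⁻¹ * x * g ∈ frobeniusKernel H := by
    have := conj_mem_kernel hx' g⁻¹
    simpa using this
  have h2 : g⁻¹ * x * g ∈ H := by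
    refine mem_H_of_comm hF hg ?_ ?_
    · intro h
      apply hq1
      have : q = g * (g⁻¹ * q * g) * g⁻¹ := by group
      rw [this, h]; group
    · have : g⁻¹ * x * g * (g⁻¹ * q * g) = g⁻¹ * (x * q) * g := by group
      rw [this, ← hc]; group
  have h3 := eq_one_of_mem_kernel_of_mem h1 h2
  apply hx1
  have : x = g * (g⁻¹ * x * g) * g⁻¹ := by group
  rw [this, h3]; group

theorem index_K_eq [Finite Q] (hF : IsFrobeniusComplement H)
    (hker : frobeniusKernel H = (K : Set Q)) : K.index = Nat.card H ∧ Nat.card K = H.index := by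
  have h1 : Nat.card K = H.index := by
    rw [← card_kernel hF, hker]; rfl
  have h2 := K.card_mul_index
  have h3 := H.card_mul_index
  refine ⟨?_, h1⟩
  have h4 : Nat.card K * K.index = Nat.card K * Nat.card H := by
    rw [h2, h1, mul_comm, h3]
  exact Nat.eq_of_mul_eq_mul_left Nat.card_pos h4

theorem coprime_HK [Finite Q] (hF : IsFrobeniusComplement H)
    (hker : frobeniusKernel H = (K : Set Q)) : (Nat.card H).Coprime (Nat.card K) := by
  apply Cfsg.Agent.Lib.FpfGeneral.coprime_of_fpf
  · intro a _
    rw [Subgroup.mem_normalizer_iff]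
    intro k
    constructor
    · intro hk
      have hk' : (k : Q) ∈ frobeniusKernel H := by rw [hker]; exact hk
      have := conj_mem_kernel hk' a
      rw [hker] at this
      exact this
    · intro hk
      have hk' : a * k * a⁻¹ ∈ frobeniusKernel H := by rw [hker]; exact hk
      have := conj_mem_kernel hk' a⁻¹
      rw [hker] at this
      simpa [mul_assoc] using this
  · intro a ha ha1
    rw [eq_bot_iff]
    intro k hk
    rw [Subgroup.mem_bot]
    obtain ⟨hk1, hk2⟩ := Subgroup.mem_inf.mp hk
    rw [Subgroup.mem_centralizer_singleton_iff] at hk2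
    have h3 : k ∈ H := mem_H_of_comm hF ha ha1 hk2
    have hk' : k ∈ frobeniusKernel H := by rw [hker]; exact hk1
    exact eq_one_of_mem_kernel_of_mem hk' h3

end quot

theorem index_centralizer_conj {G : Type*} [Group G] [Finite G] (g x : G) :
    (Subgroup.centralizer ({g⁻¹ * x * g} : Set G)).index =
      (Subgroup.centralizer ({x} : Set G)).index := by
  have : Subgroup.centralizer ({g⁻¹ * x * g} : Set G) =
      (Subgroup.centralizer ({x} : Set G)).map (MulAut.conj g⁻¹).toMonoidHom := by
    ext y
    simp only [Subgroup.mem_map, Subgroup.mem_centralizer_singleton_iff]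
    constructor
    · intro hy
      refine ⟨g * y * g⁻¹, ?_, ?_⟩
      · have : g * y * g⁻¹ * x = g * (y * (g⁻¹ * x * g)) * g⁻¹ := by group
        rw [this, hy]; group
      · simp; group
    · rintro ⟨z, hz, rfl⟩
      simp only [MulEquiv.coe_toMonoidHom, MulAut.conj_apply, inv_inv]
      have : g⁻¹ * z * g * (g⁻¹ * x * g) = g⁻¹ * (z * x) * g := by group
      rw [this, hz]; group
  rw [this]
  exact Subgroup.index_map_equiv _ (MulAut.conj g⁻¹)

/-- see statement. -/
theorem result {G : Type*} [Group G] [Finite G] (K H : Subgroup G) (hZK : Subgroup.center G ≤ K) (hZH : Subgroup.center G ≤ H) (hK : IsMulCommutative K) (hH : IsMulCommutative H) (hFrob : Cfsg.IsFrobeniusComplement (H.map (QuotientGroup.mk' (Subgroup.center G)))) (hker : Cfsg.frobeniusKernel (H.map (QuotientGroup.mk' (Subgroup.center G))) = (K.map (QuotientGroup.mk' (Subgroup.center G)) : Set (G ⧸ Subgroup.center G))) : Set.range (fun x : G => (Subgroup.centralizer ({x} : Set G)).index) = ({1, K.index, H.index} : Set ℕ) ∧ K.index.Coprime H.index := by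
  set Z := Subgroup.center G with hZdef
  set π := QuotientGroup.mk' Z with hπ
  have hsurj : Function.Surjective π := QuotientGroup.mk'_surjective Z
  have hkerπ : π.ker = Z := QuotientGroup.ker_mk' Z
  have hmemO : ∀ {L : Subgroup G}, Z ≤ L → ∀ x, π x ∈ L.map π → x ∈ L := by
    intro L hL x hx
    obtain ⟨y, hy, hyx⟩ := Subgroup.mem_map.mp hx
    have h1 : y⁻¹ * x ∈ π.ker := by
      rw [MonoidHom.mem_ker, map_mul, map_inv, hyx]; group
    rw [hkerπ] at h1
    have h2 := L.mul_mem hy (hL h1)
    simpa using h2
  have hone : ∀ {x : G}, π x = 1 → x ∈ Z := by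
    intro x hx
    rw [← hkerπ]; exact hx
  have hCK : ∀ x ∈ K, π x ≠ 1 → Subgroup.centralizer ({x} : Set G) = K := by
    intro x hx hx1
    apply le_antisymm
    · intro y hy
      rw [Subgroup.mem_centralizer_singleton_iff] at hy
      apply hmemO hZK
      refine mem_K_of_comm hFrob hker (Subgroup.mem_map_of_mem π hx) hx1 ?_
      rw [← map_mul, ← map_mul, hy]
    · intro y hy
      rw [Subgroup.mem_centralizer_singleton_iff]
      have := hK.is_comm.comm ⟨y, hy⟩ ⟨x, hx⟩
      exact congrArg Subtype.val this
  have hCH : ∀ x ∈ H, π x ≠ 1 → Subgroup.centralizer ({x} : Set G) = H := by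
    intro x hx hx1
    apply le_antisymm
    · intro y hy
      rw [Subgroup.mem_centralizer_singleton_iff] at hy
      apply hmemO hZH
      refine mem_H_of_comm hFrob (Subgroup.mem_map_of_mem π hx) hx1 ?_
      rw [← map_mul, ← map_mul, hy]
    · intro y hy
      rw [Subgroup.mem_centralizer_singleton_iff]
      have := hH.is_comm.comm ⟨y, hy⟩ ⟨x, hx⟩
      exact congrArg Subtype.val this
  obtain ⟨hi1, hi2⟩ := index_K_eq hFrob hker
  have hKidx : K.index = (K.map π).index := (Subgroup.index_map_eq K hsurj (by rw [hkerπ]; exact hZK)).symm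
  have hHidx : H.index = (H.map π).index := (Subgroup.index_map_eq H hsurj (by rw [hkerπ]; exact hZH)).symm
  constructor
  · ext n
    simp only [Set.mem_range, Set.mem_insert_iff, Set.mem_singleton_iff]
    constructor
    · rintro ⟨x, rfl⟩
      by_cases hx1 : π x = 1
      · left
        have hxZ := hone hx1
        have : Subgroup.centralizer ({x} : Set G) = ⊤ := by
          rw [eq_top_iff]
          intro y _
          rw [Subgroup.mem_centralizer_singleton_iff]
          exact (Subgroup.mem_center_iff.mp hxZ) y
        simp [this]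
      by_cases hxK : x ∈ K
      · right; left
        show (Subgroup.centralizer ({x} : Set G)).index = K.index
        rw [hCK x hxK hx1]
      · right; right
        have hx' : π x ∉ frobeniusKernel (H.map π) := by
          rw [hker]
          intro h
          exact hxK (hmemO hZK x h)
        obtain ⟨_, gb, hgb⟩ := not_mem_kernel_iff.mp hx'
        obtain ⟨g, rfl⟩ := hsurj gb
        have hy : g⁻¹ * x * g ∈ H := by
          apply hmemO hZH
          rw [map_mul, map_mul, map_inv]; exact hgb
        have hy1 : π (g⁻¹ * x * g) ≠ 1 := by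
          intro h
          apply hx1
          rw [map_mul, map_mul, map_inv] at h
          have : π x = π g * (π g⁻¹ * π x * π g) * (π g)⁻¹ := by
            rw [map_inv]; group
          rw [this, map_inv, h]; group
        show (Subgroup.centralizer ({x} : Set G)).index = H.index
        rw [← index_centralizer_conj g x, hCH _ hy hy1]
    · rintro (rfl | rfl | rfl)
      · refine ⟨1, ?_⟩
        have : Subgroup.centralizer ({(1 : G)} : Set G) = ⊤ := by
          rw [eq_top_iff]
          intro y _
          rw [Subgroup.mem_centralizer_singleton_iff]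
          group
        simp [this]
      · have hne : K.map π ≠ ⊥ := by
          intro hbot
          have : (H.map π).index = 1 := by
            rw [← hi2, hbot]; simp
          exact hFrob.2.1 (Subgroup.index_eq_one.mp this)
        obtain ⟨⟨xb, hxb⟩, hxb1'⟩ := Subgroup.ne_bot_iff_exists_ne_one.mp hne
        have hxb1 : xb ≠ 1 := fun h => hxb1' (Subtype.ext h)
        obtain ⟨x, hx, rfl⟩ := Subgroup.mem_map.mp hxb
        exact ⟨x, by show (Subgroup.centralizer ({x} : Set G)).index = K.index; rw [hCK x hx hxb1]⟩
      · have hne : H.map π ≠ ⊥ := hFrob.1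
        obtain ⟨⟨xb, hxb⟩, hxb1'⟩ := Subgroup.ne_bot_iff_exists_ne_one.mp hne
        have hxb1 : xb ≠ 1 := fun h => hxb1' (Subtype.ext h)
        obtain ⟨x, hx, rfl⟩ := Subgroup.mem_map.mp hxb
        exact ⟨x, by show (Subgroup.centralizer ({x} : Set G)).index = H.index; rw [hCH x hx hxb1]⟩
  · have := coprime_HK hFrob hker
    rw [hKidx, hHidx, hi1, ← hi2]
    exact this

end Cfsg.Agent.S4283
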