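import Mathlib
import Cfsg.Statements.S4292
import Cfsg.Agent.Lib.FpfChar
import Cfsg.Agent.Lib.FrobConj
import Cfsg.Agent.Lib.FrobConstruct

set_option autoImplicit false
open Cfsg

namespace Cfsg.Agent.S4292

open Cfsg.Agent.Lib.FpfNorm Cfsg.Agent.Lib.FrobCompl Cfsg.Agent.Lib.FrobConj
open Cfsg.Agent.Lib.FpfChar Cfsg.Agent.Lib.FrobConstruct

universe u v w x

/-- There is a nonzero additive map between nontrivial vector spaces over a prime field. -/
theorem exists_ne_zero_hom {W₁ W₂ : Type*} [AddCommGroup W₁] [AddCommGroup W₂] [Nontrivial W₁]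
    [Nontrivial W₂] {s : ℕ} [Fact s.Prime] [Module (ZMod s) W₁] [Module (ZMod s) W₂] :
    ∃ g : W₂ →+ W₁, g ≠ 0 := by
  obtain ⟨v, hv⟩ := exists_ne (0 : W₂)
  obtain ⟨x, hx⟩ := exists_ne (0 : W₁)
  obtain ⟨φ, hφ⟩ : ∃ φ : Module.Dual (ZMod s) W₂, φ v ≠ 0 := by
    by_contra h
    push Not at h
    exact hv ((Module.forall_dual_apply_eq_zero_iff (ZMod s) v).mp h)
  refine ⟨((LinearMap.toSpanSingleton (ZMod s) W₁ x).comp φ).toAddMonoidHom, ?_⟩
  intro h
  have h1 := DFunLike.congr_fun h v
  have h2 : (φ v) • x = 0 := h1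
  exact (smul_ne_zero hφ hx) h2

/-- The action on additive maps of a product of groups acting on source and target. -/
theorem exists_fpf_prod {A : Type u} {B : Type v} [Group A] [Group B] [Finite A] [Finite B]
    [Nontrivial A] (hAB : (Nat.card A).Coprime (Nat.card B))
    {W₁ : Type w} {W₂ : Type x} [AddCommGroup W₁] [Finite W₁] [Nontrivial W₁]
    [AddCommGroup W₂] [Finite W₂] [Nontrivial W₂] {s : ℕ} [Fact s.Prime]
    (hs₁ : ∀ x : W₁, s • x = 0) (hs₂ : ∀ x : W₂, s • x = 0)
    (F₁ : A → W₁ →+ W₁) (hF₁1 : ∀ x, F₁ 1 x = x) (hF₁m : ∀ a b x, F₁ (a * b) x = F₁ a (F₁ b x))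
    (hF₁f : ∀ a, a ≠ 1 → ∀ v, F₁ a v = v → v = 0)
    (F₂ : B → W₂ →+ W₂) (hF₂1 : ∀ x, F₂ 1 x = x) (hF₂m : ∀ a b x, F₂ (a * b) x = F₂ a (F₂ b x))
    (hF₂f : ∀ a, a ≠ 1 → ∀ v, F₂ a v = v → v = 0) :
    ∃ (L : Type) (_ : Group L) (_ : Finite L) (C : Subgroup L), Cfsg.IsFrobeniusComplement C ∧
      Nonempty ((A × B) ≃* C) := by
  classical
  haveI : Finite (W₂ →+ W₁) :=
    Finite.of_injective (fun f : W₂ →+ W₁ => (f : W₂ → W₁)) DFunLike.coe_injective
  haveI : Nontrivial (W₂ →+ W₁) := by
    letI : Module (ZMod s) W₁ := AddCommGroup.zmodModule hs₁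
    letI : Module (ZMod s) W₂ := AddCommGroup.zmodModule hs₂
    obtain ⟨g, hg⟩ := exists_ne_zero_hom (W₁ := W₁) (W₂ := W₂) (s := s)
    exact ⟨⟨g, 0, hg⟩⟩
  let f : A × B → (W₂ →+ W₁) → (W₂ →+ W₁) := fun z g => (F₁ z.1).comp (g.comp (F₂ z.2⁻¹))
  have hfa : ∀ z g x, f z g x = F₁ z.1 (g (F₂ z.2⁻¹ x)) := fun _ _ _ => rfl
  have f_one : ∀ g, f 1 g = g := by
    intro g
    ext x
    rw [hfa]
    simp [hF₁1, hF₂1]
  have f_mul : ∀ z z' g, f (z * z') g = f z (f z' g) := by
    intro z z' g
    ext x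
    simp only [hfa, Prod.fst_mul, Prod.snd_mul, mul_inv_rev, hF₁m, hF₂m]
  have f_add : ∀ z g g', f z (g + g') = f z g + f z g' := by
    intro z g g'
    ext x
    simp [hfa]
  have f_pow : ∀ (z : A × B) (g : W₂ →+ W₁), f z g = g → ∀ n : ℕ, f (z ^ n) g = g := by
    intro z g hg n
    induction n with
    | zero => rw [pow_zero, f_one]
    | succ n ih => rw [pow_succ, f_mul, hg, ih]
  obtain ⟨L, hL, hL', C, hC, hC', -⟩ := exists_of_action f f_one f_mul f_add (by
    rintro ⟨a, b⟩ hz g hg
    by_cases ha : a = 1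
    · subst ha
      have hb : b ≠ 1 := by
        rintro rfl
        exact hz rfl
      have hb' : b⁻¹ ≠ 1 := inv_ne_one.mpr hb
      have h1 : ∀ x, g (F₂ b⁻¹ x - x) = 0 := by
        intro x
        have h2 := DFunLike.congr_fun hg x
        rw [hfa] at h2
        simp only [hF₁1] at h2
        rw [map_sub, h2, sub_self]
      have hinj : Function.Injective (fun x : W₂ => F₂ b⁻¹ x - x) := by
        intro x y hxy
        have h2 : F₂ b⁻¹ (x - y) = x - y := by
          simp only at hxy
          rw [map_sub]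
          have := sub_eq_sub_iff_sub_eq_sub.mp hxy
          exact this
        exact sub_eq_zero.mp (hF₂f _ hb' _ h2)
      have hsurj := Finite.surjective_of_injective hinj
      ext x
      obtain ⟨y, rfl⟩ := hsurj x
      exact h1 y
    · have h1 := f_pow (a, b) g hg (orderOf b)
      have h2 : ((a, b) : A × B) ^ orderOf b = (a ^ orderOf b, 1) := by
        rw [Prod.pow_mk, pow_orderOf_eq_one]
      rw [h2] at h1
      have h3 : a ^ orderOf b ≠ 1 := by
        intro h4
        have h5 : orderOf a ∣ orderOf b := orderOf_dvd_of_pow_eq_one h4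
        have h6 : orderOf a ∣ Nat.card A := orderOf_dvd_natCard a
        have h7 : orderOf b ∣ Nat.card B := orderOf_dvd_natCard b
        have h8 : orderOf a = 1 := Nat.eq_one_of_dvd_coprimes hAB h6 (h5.trans h7)
        exact ha (orderOf_eq_one_iff.mp h8)
      ext x
      have h4 := DFunLike.congr_fun h1 x
      rw [hfa] at h4
      simp only [inv_one, hF₂1] at h4
      exact hF₁f _ h3 _ h4)
  exact ⟨L, hL, hL', C, hC, hC'⟩

/-- The additive version of fixed-point-freeness in some characteristic prime to the order. -/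
theorem exists_fpf_of_complement {A : Type u} [Group A] [Finite A]
    (h : ∃ (L : Type) (_ : Group L) (_ : Finite L) (H : Subgroup L),
      Cfsg.IsFrobeniusComplement H ∧ Nonempty (A ≃* H))
    (s : ℕ) [Fact s.Prime] (hsA : (Nat.card A).Coprime s) :
    ∃ (W : Type u) (_ : AddCommGroup W) (_ : Finite W) (_ : Nontrivial W)
      (F : A → W →+ W), (∀ x, F 1 x = x) ∧ (∀ a b x, F (a * b) x = F a (F b x)) ∧
        (∀ x : W, s • x = 0) ∧ ∀ a, a ≠ 1 → ∀ v, F a v = v → v = 0 := by
  obtain ⟨L, _, _, H, hF, ⟨e⟩⟩ := h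
  obtain ⟨V, hVc, φ, hV, hf⟩ := exists_fpf_of_isFrobeniusComplement hF
  haveI : Nontrivial V := (Subgroup.nontrivial_iff_ne_bot V).mpr hV
  letI : CommGroup V := { (inferInstance : Group V) with mul_comm := fun a b => hVc.is_comm.comm a b }
  exact exists_fpf_mod_prime (φ := φ.comp e.toMonoidHom)
    (hf.comp _ e.injective) s hsA

/-- Let A and B be nontrivial finite groups. Then the direct product A × B occurs as a Frobenius complement if and only if A and B both occur as Frobenius complements and the orders of A and B are coprime. -/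
theorem result {A B : Type*} [Group A] [Finite A] [Nontrivial A] [Group B] [Finite B] [Nontrivial B] :
    (∃ (L : Type) (_ : Group L) (_ : Finite L) (H : Subgroup L), Cfsg.IsFrobeniusComplement H ∧ Nonempty ((A × B) ≃* H)) ↔
    ((∃ (L : Type) (_ : Group L) (_ : Finite L) (H : Subgroup L), Cfsg.IsFrobeniusComplement H ∧ Nonempty (A ≃* H)) ∧
     (∃ (L : Type) (_ : Group L) (_ : Finite L) (H : Subgroup L), Cfsg.IsFrobeniusComplement H ∧ Nonempty (B ≃* H)) ∧
     (Nat.card A).Coprime (Nat.card B)) := by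
  classical
  constructor
  · rintro ⟨L, _, _, H, hF, ⟨e⟩⟩
    obtain ⟨V, hVc, φ, hV, hf⟩ := exists_fpf_of_isFrobeniusComplement hF
    haveI : Nontrivial V := (Subgroup.nontrivial_iff_ne_bot V).mpr hV
    letI : CommGroup V :=
      { (inferInstance : Group V) with mul_comm := fun a b => hVc.is_comm.comm a b }
    have hinl0 : Function.Injective (MonoidHom.inl A B) := fun a b h => congrArg Prod.fst h
    have hinr0 : Function.Injective (MonoidHom.inr A B) := fun a b h => congrArg Prod.snd h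
    have hinl : Function.Injective (e.toMonoidHom.comp (MonoidHom.inl A B)) :=
      e.injective.comp hinl0
    have hinr : Function.Injective (e.toMonoidHom.comp (MonoidHom.inr A B)) :=
      e.injective.comp hinr0
    have hfA : IsFpf (φ.comp (e.toMonoidHom.comp (MonoidHom.inl A B))) := hf.comp _ hinl
    have hfB : IsFpf (φ.comp (e.toMonoidHom.comp (MonoidHom.inr A B))) := hf.comp _ hinr
    refine ⟨?_, ?_, ?_⟩
    · obtain ⟨L', h1, h2, C, hC, hC', -⟩ := exists_of_mulAut _ hfA
      exact ⟨L', h1, h2, C, hC, hC'⟩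
    · obtain ⟨L', h1, h2, C, hC, hC', -⟩ := exists_of_mulAut _ hfB
      exact ⟨L', h1, h2, C, hC, hC'⟩
    · by_contra hne
      obtain ⟨p, hp, hpA, hpB⟩ := Nat.Prime.not_coprime_iff_dvd.mp hne
      haveI : Fact p.Prime := ⟨hp⟩
      obtain ⟨x, hx⟩ := exists_prime_orderOf_dvd_card' p hpA
      obtain ⟨y, hy⟩ := exists_prime_orderOf_dvd_card' p hpB
      let S : Subgroup (A × B) := (Subgroup.zpowers x).prod (Subgroup.zpowers y)
      have hS : IsPGroup p S := by
        rintro ⟨⟨u, v⟩, huv⟩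
        refine ⟨1, ?_⟩
        obtain ⟨hu, hv⟩ := Subgroup.mem_prod.mp huv
        obtain ⟨i, rfl⟩ := Subgroup.mem_zpowers_iff.mp hu
        obtain ⟨j, rfl⟩ := Subgroup.mem_zpowers_iff.mp hv
        apply Subtype.ext
        apply Prod.ext
        · change (x ^ i) ^ p ^ 1 = 1
          rw [pow_one, ← zpow_natCast, ← zpow_mul, mul_comm, zpow_mul, zpow_natCast, ← hx,
            pow_orderOf_eq_one, one_zpow]
        · change (y ^ j) ^ p ^ 1 = 1
          rw [pow_one, ← zpow_natCast, ← zpow_mul, mul_comm, zpow_mul, zpow_natCast, ← hy,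
            pow_orderOf_eq_one, one_zpow]
      have hfS : IsFpf (φ.comp (e.toMonoidHom.comp S.subtype)) :=
        hf.comp _ (e.injective.comp S.subtype_injective)
      let u : S := ⟨(x, 1), Subgroup.mem_prod.mpr ⟨Subgroup.mem_zpowers _, one_mem _⟩⟩
      let v : S := ⟨(1, y), Subgroup.mem_prod.mpr ⟨one_mem _, Subgroup.mem_zpowers _⟩⟩
      have hu : orderOf u = p := by
        rw [← Subgroup.orderOf_coe, ← hx]
        exact orderOf_injective (MonoidHom.inl A B) hinl0 x
      have hv : orderOf v = p := by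
        rw [← Subgroup.orderOf_coe, ← hy]
        exact orderOf_injective (MonoidHom.inr A B) hinr0 y
      have heq := unique_subgroup_of_fpf hS hfS (Subgroup.zpowers u) (Subgroup.zpowers v)
        (by rw [Nat.card_zpowers, hu]) (by rw [Nat.card_zpowers, hv])
      have hmem : u ∈ Subgroup.zpowers v := by
        rw [← heq]
        exact Subgroup.mem_zpowers u
      obtain ⟨i, hi⟩ := Subgroup.mem_zpowers_iff.mp hmem
      have h1 : ((v ^ i : S) : A × B).1 = (u : A × B).1 := by rw [hi]
      have h2 : ((v ^ i : S) : A × B).1 = 1 := by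
        have : (v ^ i : S) = ⟨(1, y ^ i), Subgroup.mem_prod.mpr ⟨one_mem _, Subgroup.zpow_mem _ (Subgroup.mem_zpowers _) _⟩⟩ := by
          apply Subtype.ext
          apply Prod.ext
          · change ((1 : A × B).1, y).1 ^ i = 1
            simp
          · rfl
        rw [this]
      have h3 : x = 1 := by
        rw [h2] at h1
        exact h1.symm
      rw [h3, orderOf_one] at hx
      exact hp.one_lt.ne hx
  · rintro ⟨hA, hB, hAB⟩
    obtain ⟨s, hs1, hs⟩ := Nat.exists_infinite_primes (Nat.card A + Nat.card B + 1)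
    haveI : Fact s.Prime := ⟨hs⟩
    have hcop : ∀ n : ℕ, 0 < n → n < s → n.Coprime s := by
      intro n h0 h1
      rw [Nat.coprime_comm, Nat.Prime.coprime_iff_not_dvd hs]
      intro h2
      exact absurd (Nat.le_of_dvd h0 h2) (by omega)
    have hApos : 0 < Nat.card A := Nat.card_pos
    have hBpos : 0 < Nat.card B := Nat.card_pos
    obtain ⟨W₁, _, _, _, F₁, h11, h12, h13, h14⟩ :=
      exists_fpf_of_complement hA s (hcop _ hApos (by omega))
    obtain ⟨W₂, _, _, _, F₂, h21, h22, h23, h24⟩ :=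
      exists_fpf_of_complement hB s (hcop _ hBpos (by omega))
    exact exists_fpf_prod hAB h13 h23 F₁ h11 h12 h14 F₂ h21 h22 h24

end Cfsg.Agent.S4292
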