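import Mathlib
import Cfsg.Statements.S4293
import Cfsg.Agent.Lib.FrobConstruct

set_option autoImplicit false
set_option linter.style.haveILetI false
open Cfsg
open scoped Pointwise

namespace Cfsg.Agent.S4293

variable {D : Type*} [DivisionRing D]

/-- The `ℤ`-span of the group `H` inside `D`. -/
def lat (H : Subgroup Dˣ) : Submodule ℤ D :=
  Submodule.span ℤ (Set.range (fun g : H => (((g : Dˣ) : D))))

theorem mul_mem_lat (H : Subgroup Dˣ) (g : H) {v : D} (hv : v ∈ lat H) :
    ((g : Dˣ) : D) * v ∈ lat H := by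
  induction hv using Submodule.span_induction with
  | mem x hx =>
    obtain ⟨h, rfl⟩ := hx
    apply Submodule.subset_span
    exact ⟨g * h, by simp⟩
  | zero => simp
  | add x y _ _ hx hy =>
    rw [mul_add]
    exact Submodule.add_mem _ hx hy
  | smul a x _ hx =>
    rw [mul_smul_comm]
    exact Submodule.smul_mem _ a hx

theorem one_mem_lat (H : Subgroup Dˣ) : (1 : D) ∈ lat H := by
  apply Submodule.subset_span
  exact ⟨1, by simp⟩

/-- Left multiplication by `g` on the lattice. -/
def leftMul (H : Subgroup Dˣ) (g : H) : lat H →ₗ[ℤ] lat H where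
  toFun v := ⟨((g : Dˣ) : D) * v, mul_mem_lat H g v.2⟩
  map_add' := by
    intro x y
    apply Subtype.ext
    simp [mul_add]
  map_smul' := by
    intro a x
    apply Subtype.ext
    exact mul_smul_comm a _ _

@[simp] theorem leftMul_val (H : Subgroup Dˣ) (g : H) (v : lat H) :
    ((leftMul H g v : lat H) : D) = ((g : Dˣ) : D) * v := rfl

/-- Multiples of `ℓ` in the lattice. -/
def latN (H : Subgroup Dˣ) (ℓ : ℕ) : Submodule ℤ (lat H) := (ℓ : ℤ) • ⊤

theorem mem_latN {H : Subgroup Dˣ} {ℓ : ℕ} {x : lat H} :
    x ∈ latN H ℓ ↔ ∃ y : lat H, (ℓ : ℤ) • y = x := by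
  unfold latN
  rw [Submodule.mem_smul_pointwise_iff_exists]
  simp

theorem leftMul_mem_latN (H : Subgroup Dˣ) (ℓ : ℕ) (g : H) {x : lat H} (hx : x ∈ latN H ℓ) :
    leftMul H g x ∈ latN H ℓ := by
  obtain ⟨y, rfl⟩ := mem_latN.mp hx
  exact mem_latN.mpr ⟨leftMul H g y, by rw [map_smul]⟩

theorem core (H : Subgroup Dˣ) [Finite H] [Nontrivial H] (ℓ : ℕ) (hℓ : ℓ.Prime)
    (hchar : ∀ r : ℤ, (r : D) = 0 → (r - 1) ∈ Ideal.span ({(ℓ : ℤ)} : Set ℤ) → False)
    (hfp : ∀ g : H, g ≠ 1 → ∀ v : lat H, leftMul H g v - v ∈ latN H ℓ → v ∈ latN H ℓ) :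
    ∃ (L : Type) (_ : Group L) (_ : Finite L) (C : Subgroup L),
      IsFrobeniusComplement C ∧ Nonempty (H ≃* C) := by
  classical
  haveI hMfin : Module.Finite ℤ (lat H) := Module.Finite.span_of_finite ℤ (Set.finite_range _)
  let N := latN H ℓ
  let V := (lat H) ⧸ N
  have hℓ0 : (ℓ : ℤ) ≠ 0 := by exact_mod_cast hℓ.ne_zero
  haveI hVfin : Finite V := by
    apply Module.finite_of_fg_torsion
    intro x
    obtain ⟨v, rfl⟩ := Submodule.Quotient.mk_surjective _ x
    refine ⟨⟨(ℓ : ℤ), ?_⟩, ?_⟩
    · exact mem_nonZeroDivisors_of_ne_zero hℓ0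
    · show (ℓ : ℤ) • (Submodule.Quotient.mk v : V) = 0
      rw [← Submodule.Quotient.mk_smul, Submodule.Quotient.mk_eq_zero]
      exact mem_latN.mpr ⟨v, rfl⟩
  haveI hVnt : Nontrivial V := by
    apply Submodule.Quotient.nontrivial_iff.mpr
    intro htop
    have hle : (⊤ : Submodule ℤ (lat H)) ≤ Ideal.span ({(ℓ : ℤ)} : Set ℤ) • ⊤ := by
      intro x _
      have hx : x ∈ N := by rw [show N = ⊤ from htop]; trivial
      obtain ⟨y, rfl⟩ := mem_latN.mp hx
      exact Submodule.smul_mem_smul (Ideal.mem_span_singleton_self _) trivial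
    obtain ⟨r, hr1, hr2⟩ := Submodule.exists_sub_one_mem_and_smul_eq_zero_of_fg_of_le_smul
      (Ideal.span ({(ℓ : ℤ)} : Set ℤ)) (⊤ : Submodule ℤ (lat H)) Module.Finite.fg_top hle
    have h1 := hr2 ⟨1, one_mem_lat H⟩ trivial
    have h2 : (r : D) = 0 := by
      have := congrArg Subtype.val h1
      simpa using this
    exact hchar r h2 hr1
  let f : H → V → V := fun g => Submodule.mapQ N N (leftMul H g) (by
    intro x hx
    exact leftMul_mem_latN H ℓ g hx)
  have hf : ∀ g v, f g (Submodule.Quotient.mk v) = Submodule.Quotient.mk (leftMul H g v) :=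
    fun g v => rfl
  obtain ⟨L, i1, i2, C, h1, h2, -⟩ := Cfsg.Agent.Lib.FrobConstruct.exists_of_action f
    (by
      intro x
      obtain ⟨v, rfl⟩ := Submodule.Quotient.mk_surjective _ x
      rw [hf]
      congr 1
      apply Subtype.ext
      simp)
    (by
      intro g h x
      obtain ⟨v, rfl⟩ := Submodule.Quotient.mk_surjective _ x
      rw [hf, hf, hf]
      congr 1
      apply Subtype.ext
      simp [mul_assoc])
    (by
      intro g x y
      exact map_add (Submodule.mapQ N N (leftMul H g) _) x y)
    (by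
      intro g hg x hx
      obtain ⟨v, rfl⟩ := Submodule.Quotient.mk_surjective _ x
      rw [hf] at hx
      have h3 := (Submodule.Quotient.eq N).mp hx
      rw [Submodule.Quotient.mk_eq_zero]
      exact hfp g hg v h3)
  exact ⟨L, i1, i2, C, h1, h2⟩

theorem sub_one_ne_zero' {H : Subgroup Dˣ} {g : H} (hg : g ≠ 1) : ((g : Dˣ) : D) - 1 ≠ 0 := by
  intro h
  apply hg
  apply Subtype.ext
  apply Units.ext
  simpa using sub_eq_zero.mp h

/-- A nontrivial finite subgroup of the multiplicative group of a division ring occurs as a Frobenius complement of some finite Frobenius group. -/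
theorem result {D : Type*} [DivisionRing D] (H : Subgroup Dˣ) [Finite H] (hH : H ≠ ⊥) :
    ∃ (L : Type) (_ : Group L) (_ : Finite L) (C : Subgroup L), Cfsg.IsFrobeniusComplement C ∧ Nonempty (H ≃* C) := by
  haveI : Nontrivial H := (Subgroup.nontrivial_iff_ne_bot H).mpr hH
  obtain ⟨p, hp⟩ := CharP.exists D
  rcases CharP.char_is_prime_or_zero D p with hpp | hp0
  · -- characteristic `p`
    apply core H p hpp
    · intro r hr hr1
      have h1 : (p : ℤ) ∣ r := by
        rw [CharP.intCast_eq_zero_iff D p] at hr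
        exact hr
      have h2 : (p : ℤ) ∣ r - 1 := Ideal.mem_span_singleton.mp hr1
      have h3 : (p : ℤ) ∣ 1 := by
        have := dvd_sub h1 h2
        simpa using this
      have h4 : p ∣ 1 := by exact_mod_cast h3
      exact hpp.one_lt.ne' (Nat.dvd_one.mp h4)
    · intro g hg v hv
      obtain ⟨y, hy⟩ := mem_latN.mp hv
      have h1 : ((g : Dˣ) : D) * v - v = (p : ℤ) • (y : D) := by
        have := congrArg Subtype.val hy
        simpa using this.symm
      have h2 : (p : ℤ) • (y : D) = 0 := by
        rw [zsmul_eq_mul]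
        simp
      rw [h2] at h1
      have h3 : (((g : Dˣ) : D) - 1) * v = 0 := by
        rw [sub_mul, one_mul, h1]
      have h4 : (v : D) = 0 := by
        rcases mul_eq_zero.mp h3 with h5 | h5
        · exact absurd h5 (sub_one_ne_zero' hg)
        · exact h5
      have h5 : v = 0 := Subtype.ext h4
      rw [h5]
      exact Submodule.zero_mem _
  · -- characteristic zero
    subst hp0
    haveI : CharZero D := CharP.charP_to_charZero D
    obtain ⟨ℓ, hℓ1, hℓ⟩ := Nat.exists_infinite_primes (Nat.card H + 1)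
    apply core H ℓ hℓ
    · intro r hr hr1
      have h0 : r = 0 := by exact_mod_cast hr
      subst h0
      have h2 : (ℓ : ℤ) ∣ 0 - 1 := Ideal.mem_span_singleton.mp hr1
      have h3 : (ℓ : ℤ) ∣ 1 := by simpa using h2
      have h4 : ℓ ∣ 1 := by exact_mod_cast h3
      exact hℓ.one_lt.ne' (Nat.dvd_one.mp h4)
    · intro g hg v hv
      classical
      set N := latN H ℓ with hN
      have hpow : ∀ i : ℕ, leftMul H (g ^ i) v - v ∈ N := by
        intro i
        induction i with
        | zero =>
          have : leftMul H (g ^ 0) v - v = 0 := by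
            apply Subtype.ext
            simp
          rw [this]
          exact Submodule.zero_mem _
        | succ i ih =>
          have h1 : leftMul H (g ^ (i + 1)) v - v =
              leftMul H g (leftMul H (g ^ i) v - v) + (leftMul H g v - v) := by
            apply Subtype.ext
            simp [pow_succ', mul_assoc]
          rw [h1]
          exact Submodule.add_mem _ (leftMul_mem_latN H ℓ g ih) hv
      let o := orderOf g
      have ho : g ^ o = 1 := pow_orderOf_eq_one g
      have hsum0 : ∑ i ∈ Finset.range o, ((g : Dˣ) : D) ^ i = 0 := by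
        have h1 := mul_geom_sum (((g : Dˣ) : D)) o
        have h2 : ((g : Dˣ) : D) ^ o = 1 := by
          have := congrArg (fun x : H => ((x : Dˣ) : D)) ho
          simpa using this
        rw [h2, sub_self] at h1
        rcases mul_eq_zero.mp h1 with h3 | h3
        · exact absurd h3 (sub_one_ne_zero' hg)
        · exact h3
      have hsum : ∑ i ∈ Finset.range o, (leftMul H (g ^ i) v - v) = -((o : ℤ) • v) := by
        apply Subtype.ext
        have h1 : ((∑ i ∈ Finset.range o, (leftMul H (g ^ i) v - v) : lat H) : D) =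
            ∑ i ∈ Finset.range o, ((((g : Dˣ) : D) ^ i) * (v : D) - (v : D)) := by
          rw [AddSubmonoidClass.coe_finsetSum]
          apply Finset.sum_congr rfl
          intro i _
          simp
        rw [h1, Finset.sum_sub_distrib, ← Finset.sum_mul, hsum0]
        simp
      have hmem : (o : ℤ) • v ∈ N := by
        have h1 : ∑ i ∈ Finset.range o, (leftMul H (g ^ i) v - v) ∈ N :=
          Submodule.sum_mem _ (fun i _ => hpow i)
        rw [hsum] at h1
        simpa using h1
      have hcop : Nat.Coprime o ℓ := by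
        rw [Nat.coprime_comm, Nat.Prime.coprime_iff_not_dvd hℓ]
        intro hdvd
        have h1 : o ∣ Nat.card H := orderOf_dvd_natCard g
        have h2 := Nat.le_of_dvd Nat.card_pos (dvd_trans hdvd h1)
        omega
      have hbez := Nat.isCoprime_iff_coprime.mpr hcop
      obtain ⟨a, b, hab⟩ := hbez
      have hv' : v = a • ((o : ℤ) • v) + b • ((ℓ : ℤ) • v) := by
        rw [smul_smul, smul_smul, ← add_smul, hab, one_smul]
      rw [hv']
      refine Submodule.add_mem _ (Submodule.smul_mem _ _ hmem) (Submodule.smul_mem _ _ ?_)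
      exact mem_latN.mpr ⟨v, rfl⟩

end Cfsg.Agent.S4293
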