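import Mathlib
import Cfsg.Statements.S4295
import Cfsg.Agent.Lib.FrobConstruct
import Cfsg.Agent.Lib.QuatSquare
import Cfsg.Agent.Lib.FrobConj
import Cfsg.Agent.Lib.FrobeniusThm

set_option autoImplicit false
set_option linter.style.haveILetI false
open Cfsg

namespace Cfsg.Agent.S4295

open Cfsg.Agent.Lib.Frobenius

/-- Existence of an abelian group of order `m` with a quaternion structure. -/
def QM (m : ℕ) : Prop :=
  ∃ (V : Type) (_ : AddCommGroup V) (_ : Finite V) (I J : V →+ V), Nat.card V = m ∧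
    (∀ v, I (I v) = -v) ∧ (∀ v, J (J v) = -v) ∧ (∀ v, I (J v) = -J (I v))

theorem qm_one : QM 1 := by
  refine ⟨PUnit, inferInstance, inferInstance, 0, 0, by simp, ?_, ?_, ?_⟩ <;> intro v <;> rfl

theorem qm_mul {m n : ℕ} (hm : QM m) (hn : QM n) : QM (m * n) := by
  obtain ⟨V, i1, i2, I, J, h0, h1, h2, h3⟩ := hm
  obtain ⟨W, j1, j2, I', J', h0', h1', h2', h3'⟩ := hn
  refine ⟨V × W, inferInstance, inferInstance, I.prodMap I', J.prodMap J', ?_, ?_, ?_, ?_⟩
  · rw [Nat.card_prod, h0, h0']
  · rintro ⟨x, y⟩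
    simp [h1, h1']
  · rintro ⟨x, y⟩
    simp [h2, h2']
  · rintro ⟨x, y⟩
    simp [h3, h3']

theorem qm_prime {p : ℕ} (hp : p.Prime) : QM (p * p) := by
  haveI : Fact p.Prime := ⟨hp⟩
  obtain ⟨a, b, hab⟩ := ZMod.sq_add_sq p (-1 : ZMod p)
  let I : ZMod p × ZMod p →+ ZMod p × ZMod p :=
    { toFun := fun v => (-v.2, v.1)
      map_zero' := by simp
      map_add' := by
        intro v w
        ext <;> simp [add_comm] }
  let J : ZMod p × ZMod p →+ ZMod p × ZMod p :=
    { toFun := fun v => (a * v.1 + b * v.2, b * v.1 - a * v.2)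
      map_zero' := by simp
      map_add' := by
        intro v w
        ext <;> simp <;> ring }
  have hI' : ∀ v, I v = (-v.2, v.1) := fun v => rfl
  have hJ' : ∀ v, J v = (a * v.1 + b * v.2, b * v.1 - a * v.2) := fun v => rfl
  refine ⟨ZMod p × ZMod p, inferInstance, inferInstance, I, J, ?_, ?_, ?_, ?_⟩
  · rw [Nat.card_prod, Nat.card_zmod]
  · rintro ⟨x, y⟩
    simp [hI']
  · rintro ⟨x, y⟩
    simp only [hJ', Prod.neg_mk, Prod.mk.injEq]
    constructor
    · linear_combination x * hab
    · linear_combination y * hab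
  · rintro ⟨x, y⟩
    simp only [hI', hJ', Prod.neg_mk, Prod.mk.injEq]
    constructor <;> ring

theorem qm_sq (k : ℕ) (hk : k ≠ 0) : QM (k * k) := by
  induction k using Nat.strong_induction_on with
  | _ k ih =>
    by_cases hk1 : k = 1
    · subst hk1
      exact qm_one
    · have hp := Nat.minFac_prime hk1
      obtain ⟨k', hk'⟩ := Nat.minFac_dvd k
      have hk'0 : k' ≠ 0 := by
        rintro rfl
        simp at hk'
        exact hk hk'
      have hlt : k' < k := by
        have h2 := hp.two_le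
        nlinarith [Nat.pos_of_ne_zero hk'0]
      have h := qm_mul (qm_prime hp) (ih k' hlt hk'0)
      have e : k * k = k.minFac * k.minFac * (k' * k') := by
        nth_rewrite 1 2 [hk']
        ring
      rw [e]
      exact h

/-- A quaternion structure gives a Frobenius complement isomorphic to `Q₈`. -/
theorem exists_of_qm {m : ℕ} (hm : QM m) (hm1 : 1 < m) (hodd : Odd m) :
    ∃ (L : Type) (_ : Group L) (_ : Finite L) (H : Subgroup L), Cfsg.IsFrobeniusComplement H ∧
        Nonempty (H ≃* QuaternionGroup 2) ∧ Nat.card (Cfsg.frobeniusKernel H) = m := by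
  obtain ⟨V, i1, i2, I, J, h0, hI, hJ, hIJ⟩ := hm
  haveI : Nontrivial V := by
    rw [← Finite.one_lt_card_iff_nontrivial, h0]
    exact hm1
  let Ie : AddMonoid.End V := I
  let Je : AddMonoid.End V := J
  have hIa : ∀ v, Ie v = I v := fun v => rfl
  have hJa : ∀ v, Je v = J v := fun v => rfl
  have hmul : ∀ (x y : AddMonoid.End V) (v : V), (x * y) v = x (y v) := fun x y v => rfl
  have h4 : Ie ^ 4 = 1 := by
    ext v
    simp only [pow_succ, pow_zero, one_mul, hmul, hIa, hI, map_neg, neg_neg]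
    rfl
  let φ : ZMod (2 * 2) → AddMonoid.End V := fun i => Ie ^ i.val
  have hφadd : ∀ i j, φ (i + j) = φ i * φ j := by
    intro i j
    show Ie ^ (i + j).val = Ie ^ i.val * Ie ^ j.val
    rw [ZMod.val_add, ← pow_add]
    exact (pow_eq_pow_mod _ h4).symm
  have hφ0 : φ 0 = 1 := by
    show Ie ^ (0 : ZMod (2 * 2)).val = 1
    simp
  have hφ1 : φ 1 = Ie := by
    show Ie ^ (1 : ZMod (2 * 2)).val = Ie
    rw [show (1 : ZMod (2 * 2)).val = 1 from rfl, pow_one]
  have hφ2 : ∀ v, φ 2 v = -v := by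
    intro v
    show (Ie ^ (2 : ZMod (2 * 2)).val) v = -v
    rw [show (2 : ZMod (2 * 2)).val = 2 from rfl, pow_two, hmul, hIa, hIa, hI]
  have hφ3 : φ 3 = Ie ^ 3 := by
    show Ie ^ (3 : ZMod (2 * 2)).val = _
    rw [show (3 : ZMod (2 * 2)).val = 3 from rfl]
  have hcase : ∀ i : ZMod (2 * 2), i = 0 ∨ i = 1 ∨ i = 2 ∨ i = 3 := by decide
  have hIJ' : ∀ w, I (J w) = J (I (I (I w))) := by
    intro w
    rw [hIJ, hI, map_neg]
  have hφJ : ∀ i w, φ i (J w) = J (φ (-i) w) := by
    intro i w
    rcases hcase i with rfl | rfl | rfl | rfl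
    · rw [neg_zero, hφ0]; rfl
    · rw [show (-1 : ZMod (2 * 2)) = 3 from rfl, hφ1, hφ3]
      rw [hIa, hIJ']
      simp only [pow_succ, pow_zero, one_mul, hmul, hIa]
    · rw [show (-2 : ZMod (2 * 2)) = 2 from rfl, hφ2, hφ2, map_neg]
    · rw [show (-3 : ZMod (2 * 2)) = 1 from rfl, hφ1, hφ3]
      simp only [pow_succ, pow_zero, one_mul, hmul, hIa, hIJ, map_neg, hI, neg_neg]
  let f : QuaternionGroup 2 → V → V := fun g v =>
    match g with
    | QuaternionGroup.a i => φ i v
    | QuaternionGroup.xa i => J (φ i v)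
  haveI : Nontrivial (QuaternionGroup 2) := ⟨⟨QuaternionGroup.a 0, QuaternionGroup.xa 0, by
    intro h; cases h⟩⟩
  have hfa : ∀ i v, f (QuaternionGroup.a i) v = φ i v := fun i v => rfl
  have hfx : ∀ i v, f (QuaternionGroup.xa i) v = J (φ i v) := fun i v => rfl
  have f_one : ∀ v, f 1 v = v := by
    intro v
    show φ 0 v = v
    rw [hφ0]
    rfl
  have f_mul : ∀ g h v, f (g * h) v = f g (f h v) := by
    rintro (i | i) (j | j) v
    · rw [QuaternionGroup.a_mul_a, hfa, hfa, hfa, hφadd, hmul]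
    · rw [QuaternionGroup.a_mul_xa, hfx, hfa, hfx, hφJ, sub_eq_neg_add, hφadd, hmul]
    · rw [QuaternionGroup.xa_mul_a, hfx, hfx, hfa, hφadd, hmul]
    · rw [QuaternionGroup.xa_mul_xa, hfa, hfx, hfx, hφJ, hJ]
      have e1 : ((2 : ℕ) : ZMod (2 * 2)) + j - i = 2 + (-i + j) := by
        push_cast
        ring
      rw [e1, hφadd, hφadd, hmul, hmul, hφ2]
  have f_add : ∀ g v w, f g (v + w) = f g v + f g w := by
    rintro (i | i) v w
    · simp only [hfa, map_add]
    · simp only [hfx, map_add]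
  have hq : ∀ g : QuaternionGroup 2, g ≠ 1 → g * g = QuaternionGroup.a 2 ∨ g = QuaternionGroup.a 2 := by
    decide
  have hoddV : Odd (Nat.card V) := by rw [h0]; exact hodd
  obtain ⟨L, j1, j2, C, h1, h2, h3⟩ := Cfsg.Agent.Lib.FrobConstruct.exists_of_action (H := QuaternionGroup 2) f (by intro v; exact f_one v) f_mul
    f_add (by
      intro g hg v hv
      have h5 : f (QuaternionGroup.a 2) v = v := by
        rcases hq g hg with h6 | h6
        · rw [← h6, f_mul, hv, hv]
        · rw [← h6]; exact hv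
      rw [hfa, hφ2] at h5
      apply Cfsg.Agent.Lib.QuatSquare.eq_zero_of_double hoddV
      nth_rewrite 1 [← h5]
      simp)
  obtain ⟨e⟩ := h2
  exact ⟨L, j1, j2, C, h1, ⟨e.symm⟩, by rw [h3, h0]⟩

/-- For a natural number m the following are equivalent: (a) some finite group has a Frobenius complement isomorphic to the quaternion group of order 8 whose Frobenius kernel (the identity together with the elements lying in no conjugate of the complement) has exactly m elements; (b) m is an odd perfect square greater than 1. -/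
theorem result (m : ℕ) :
    (∃ (L : Type) (_ : Group L) (_ : Finite L) (H : Subgroup L), Cfsg.IsFrobeniusComplement H ∧
        Nonempty (H ≃* QuaternionGroup 2) ∧ Nat.card (Cfsg.frobeniusKernel H) = m) ↔
    (Odd m ∧ IsSquare m ∧ 1 < m) := by
  constructor
  · rintro ⟨L, i1, i2, H, hF, ⟨e⟩, rfl⟩
    obtain ⟨N, hNset, hNn, hNc⟩ := Cfsg.Agent.Lib.FrobeniusThm.exists_kernel_subgroup hF
    let q : QuaternionGroup 2 → L := fun x => (e.symm x : H)
    have hq : ∀ x y, q (x * y) = q x * q y := by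
      intro x y
      simp [q]
    have hq1 : ∀ x, q x = 1 → x = 1 := by
      intro x hx
      have h1 : e.symm x = 1 := Subtype.ext hx
      simpa using h1
    have hqH : ∀ x, q x ∈ H := fun x => (e.symm x).2
    let i := q (QuaternionGroup.a 1)
    let j := q (QuaternionGroup.xa 0)
    let t := q (QuaternionGroup.a 2)
    have htt : t * t = q 1 := by rw [← hq]; rfl
    have hq_one : q 1 = 1 := by simp [q]
    have ht1 : t ≠ 1 := by
      intro h
      have := hq1 _ h
      revert this
      decide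
    have hfpf := Cfsg.Agent.Lib.FrobConj.kernel_fpf hF hNset t (hqH _) ht1
    have hcard : Nat.card (Cfsg.frobeniusKernel H) = Nat.card N := by
      rw [← hNset]; rfl
    obtain ⟨h1, h2, h3⟩ := Cfsg.Agent.Lib.QuatSquare.subgroup_of_quat N i j t
      (fun x hx => hNn.conj_mem x hx i) (fun x hx => hNn.conj_mem x hx j)
      (by rw [htt, hq_one])
      (by rw [← hq]; rfl)
      (by rw [← hq]; rfl)
      (by rw [← hq, ← hq, ← hq]; rfl)
      (by
        intro x hx hc
        have h4 : x ∈ N ⊓ Subgroup.centralizer {t} :=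
          ⟨hx, Subgroup.mem_centralizer_singleton_iff.mpr hc.symm⟩
        rw [hfpf, Subgroup.mem_bot] at h4
        exact h4)
    rw [hcard]
    refine ⟨h2, h3, ?_⟩
    rw [← hcard, card_kernel hF]
    have h0 : H.index ≠ 0 := Subgroup.index_ne_zero_of_finite
    have h1' : H.index ≠ 1 := fun h => hF.2.1 (Subgroup.index_eq_one.mp h)
    omega
  · rintro ⟨hodd, ⟨k, rfl⟩, hm⟩
    have hk : k ≠ 0 := by
      rintro rfl
      simp at hm
    exact exists_of_qm (qm_sq k hk) hm hodd

end Cfsg.Agent.S4295
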