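import Mathlib
import Cfsg.Statements.S4296
import Cfsg.Agent.Lib.FrobConj

set_option autoImplicit false
open Cfsg

namespace Cfsg.Agent.S4296

open Cfsg.Agent.Lib.FpfNorm Cfsg.Agent.Lib.FrobCompl Cfsg.Agent.Lib.FrobConj

section Module

universe u

variable {M : Type u} [CommGroup M] [Finite M]

omit [Finite M] in
/-- Rank-nullity for a homomorphism restricted to a subgroup. -/
theorem card_eq_inf_ker_mul_map [Finite M] {M' : Type*} [Group M'] (f : M →* M') (T : Subgroup M) :
    Nat.card T = Nat.card (T ⊓ f.ker : Subgroup M) * Nat.card (T.map f) := by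
  rw [← Subgroup.relIndex_ker]
  have h1 := Subgroup.card_mul_index (f.ker.subgroupOf T)
  have h2 : Nat.card (f.ker.subgroupOf T) = Nat.card (T ⊓ f.ker : Subgroup M) := by
    rw [← Subgroup.card_map_of_injective (f := T.subtype) T.subtype_injective,
      Subgroup.subgroupOf_map_subtype, inf_comm]
  rw [h2] at h1
  exact h1.symm

/-- The elementary abelian case: a quaternion module killed by an odd prime has square order. -/
theorem isSquare_card_of_elementary (X Y : M →* M) (hXX : ∀ m, X (X m) = m⁻¹)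
    (hYY : ∀ m, Y (Y m) = m⁻¹) (hXY : ∀ m, X (Y m) = (Y (X m))⁻¹) (T : Subgroup M)
    (hTX : ∀ t ∈ T, X t ∈ T) (hTY : ∀ t ∈ T, Y t ∈ T) {r : ℕ} (hr : r.Prime) (hr2 : r ≠ 2)
    (hT : ∀ t ∈ T, t ^ r = 1) : IsSquare (Nat.card T) := by
  haveI : Fact r.Prime := ⟨hr⟩
  obtain ⟨a, b, k, -, -, hab⟩ := Int.exists_sq_add_sq_add_one_eq_mul r
  set J : M →* M := (powMonoidHom a).comp X * (powMonoidHom b).comp Y with hJ
  have hJa : ∀ m, J m = X m ^ a * Y m ^ b := fun m => rfl
  have hJJ : ∀ m, J (J m) * m ^ (a ^ 2 + b ^ 2) = 1 := by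
    intro m
    rw [hJa, hJa m, map_mul, map_mul, map_pow, map_pow, map_pow, map_pow, hXX, hYY, hXY]
    have : ((m⁻¹) ^ a * (Y (X m))⁻¹ ^ b) ^ a * ((Y (X m)) ^ a * (m⁻¹) ^ b) ^ b * m ^ (a ^ 2 + b ^ 2)
        = 1 := by
      simp only [mul_pow, inv_pow, ← pow_mul]
      have h1 : (Y (X m)) ^ (b * a) = (Y (X m)) ^ (a * b) := by rw [mul_comm]
      rw [h1, pow_add, sq, sq]
      simp only [mul_comm, mul_left_comm, mul_assoc]
      simp
    exact this
  have hJJT : ∀ t ∈ T, J (J t) = t := by
    intro t ht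
    have h1 := hJJ t
    have h2 : t * t ^ (a ^ 2 + b ^ 2) = 1 := by
      have h3 : t ^ (a ^ 2 + b ^ 2 + 1) = 1 := by
        rw [hab, mul_comm, pow_mul, hT t ht, one_pow]
      rw [← pow_succ']
      exact h3
    exact mul_right_cancel (h1.trans h2.symm)
  have hJT : ∀ t ∈ T, J t ∈ T := fun t ht =>
    T.mul_mem (T.pow_mem (hTX t ht) a) (T.pow_mem (hTY t ht) b)
  -- the two eigenspaces
  set u : M →* M := J * MonoidHom.id M with hu
  set v : M →* M := J / MonoidHom.id M with hv
  have hua : ∀ m, u m = J m * m := fun m => rfl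
  have hva : ∀ m, v m = J m / m := fun m => rfl
  set Ep : Subgroup M := T ⊓ v.ker with hEp
  set Em : Subgroup M := T ⊓ u.ker with hEm
  have hEpmem : ∀ m, m ∈ Ep ↔ m ∈ T ∧ J m = m := by
    intro m
    rw [hEp, Subgroup.mem_inf, MonoidHom.mem_ker, hva, div_eq_one]
  have hEmmem : ∀ m, m ∈ Em ↔ m ∈ T ∧ J m = m⁻¹ := by
    intro m
    rw [hEm, Subgroup.mem_inf, MonoidHom.mem_ker, hua, mul_eq_one_iff_eq_inv]
  have hmap : T.map u = Ep := by
    apply le_antisymm
    · rintro _ ⟨t, ht, rfl⟩
      rw [hEpmem]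
      refine ⟨T.mul_mem (hJT t ht) ht, ?_⟩
      rw [hua, map_mul, hJJT t ht, mul_comm]
    · intro e he
      obtain ⟨heT, heJ⟩ := (hEpmem e).mp he
      obtain ⟨l, hl⟩ := hr.odd_of_ne_two hr2
      refine ⟨e ^ (l + 1), T.pow_mem heT _, ?_⟩
      change u (e ^ (l + 1)) = e
      rw [hua, map_pow, heJ, ← pow_add]
      have : l + 1 + (l + 1) = r + 1 := by omega
      rw [this, pow_succ, hT e heT, one_mul]
  have hcard : Nat.card T = Nat.card Em * Nat.card Ep := by
    have := card_eq_inf_ker_mul_map u T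
    rwa [hmap] at this
  -- the swap
  set K : M →* M := X.comp Y with hK
  have hKa : ∀ m, K m = X (Y m) := fun m => rfl
  have hKinj : Function.Injective K := by
    rw [injective_iff_map_eq_one]
    intro m hm
    have h1 : K (K m) = m⁻¹ := by
      rw [hKa, hKa, hXY, hXX, map_inv, hYY, inv_inv]
    rw [hm, map_one] at h1
    exact inv_eq_one.mp h1.symm
  have hJK : ∀ m, J (K m) = (K (J m))⁻¹ := by
    intro m
    have h1 : X (K m) = (Y m)⁻¹ := hXX _
    have h2 : Y (K m) = X m := by
      have h5 := hXY (Y m)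
      rw [hYY, map_inv] at h5
      exact inv_injective h5.symm
    have h3 : X (Y (X m)) = Y m := by
      rw [hXY, hXX, map_inv, inv_inv]
    have h4 : X (Y (Y m)) = (X m)⁻¹ := by
      rw [hYY, map_inv]
    rw [hJa, h1, h2, hKa, hJa, map_mul, map_pow, map_pow, map_mul, map_pow, map_pow, h3, h4]
    simp only [mul_inv_rev, inv_pow, inv_inv, mul_comm]
  have hKT : ∀ t ∈ T, K t ∈ T := fun t ht => hTX _ (hTY t ht)
  have h1 : Nat.card Ep ≤ Nat.card Em := by
    rw [← Subgroup.card_map_of_injective (K := Ep) hKinj]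
    apply Subgroup.card_le_of_le
    rintro _ ⟨e, he, rfl⟩
    obtain ⟨heT, heJ⟩ := (hEpmem e).mp he
    rw [hEmmem]
    exact ⟨hKT e heT, by rw [hJK, heJ]⟩
  have h2 : Nat.card Em ≤ Nat.card Ep := by
    rw [← Subgroup.card_map_of_injective (K := Em) hKinj]
    apply Subgroup.card_le_of_le
    rintro _ ⟨e, he, rfl⟩
    obtain ⟨heT, heJ⟩ := (hEmmem e).mp he
    rw [hEpmem]
    exact ⟨hKT e heT, by rw [hJK, heJ, map_inv, inv_inv]⟩
  have h3 : Nat.card Em = Nat.card Ep := le_antisymm h2 h1
  exact ⟨Nat.card Ep, by rw [hcard, h3]⟩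

/-- A quaternion module of odd order has square order. -/
theorem isSquare_card_aux (X Y : M →* M) (hXX : ∀ m, X (X m) = m⁻¹)
    (hYY : ∀ m, Y (Y m) = m⁻¹) (hXY : ∀ m, X (Y m) = (Y (X m))⁻¹) (hodd : Odd (Nat.card M))
    (n : ℕ) (T : Subgroup M) (hn : Nat.card T = n)
    (hTX : ∀ t ∈ T, X t ∈ T) (hTY : ∀ t ∈ T, Y t ∈ T) : IsSquare (Nat.card T) := by
  induction n using Nat.strong_induction_on generalizing T with
  | _ n ih =>
    by_cases hbot : Nat.card T = 1
    · rw [hbot]; exact ⟨1, rfl⟩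
    obtain ⟨r, hr, hrT⟩ := Nat.exists_prime_and_dvd hbot
    haveI : Fact r.Prime := ⟨hr⟩
    have hr2 : r ≠ 2 := by
      rintro rfl
      have h1 : 2 ∣ Nat.card M := hrT.trans (Subgroup.card_subgroup_dvd_card T)
      exact (Nat.not_even_iff_odd.mpr hodd) (even_iff_two_dvd.mpr h1)
    set u : M →* M := powMonoidHom r with hu
    have hcard := card_eq_inf_ker_mul_map u T
    have hsq1 : IsSquare (Nat.card (T ⊓ u.ker : Subgroup M)) := by
      apply isSquare_card_of_elementary X Y hXX hYY hXY _ _ _ hr hr2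
      · intro t ht
        exact (MonoidHom.mem_ker.mp (Subgroup.mem_inf.mp ht).2)
      · intro t ht
        obtain ⟨h1, h2⟩ := Subgroup.mem_inf.mp ht
        refine Subgroup.mem_inf.mpr ⟨hTX t h1, MonoidHom.mem_ker.mpr ?_⟩
        have h3 : t ^ r = 1 := MonoidHom.mem_ker.mp h2
        change X t ^ r = 1
        rw [← map_pow, h3, map_one]
      · intro t ht
        obtain ⟨h1, h2⟩ := Subgroup.mem_inf.mp ht
        refine Subgroup.mem_inf.mpr ⟨hTY t h1, MonoidHom.mem_ker.mpr ?_⟩
        have h3 : t ^ r = 1 := MonoidHom.mem_ker.mp h2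
        change Y t ^ r = 1
        rw [← map_pow, h3, map_one]
    have hgt : 1 < Nat.card (T ⊓ u.ker : Subgroup M) := by
      obtain ⟨t, ht⟩ := exists_prime_orderOf_dvd_card' r hrT
      have h1 : (t : M) ∈ (T ⊓ u.ker : Subgroup M) := by
        refine Subgroup.mem_inf.mpr ⟨t.2, MonoidHom.mem_ker.mpr ?_⟩
        change (t : M) ^ r = 1
        rw [← ht, ← Subgroup.orderOf_coe, pow_orderOf_eq_one]
      have h2 : (t : M) ≠ 1 := by
        intro h3
        have h4 : orderOf (t : M) = r := by rw [Subgroup.orderOf_coe]; exact ht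
        rw [h3, orderOf_one] at h4
        exact hr.one_lt.ne h4
      have h3 : Nontrivial (T ⊓ u.ker : Subgroup M) := by
        rw [Subgroup.nontrivial_iff_ne_bot]
        intro h4
        rw [h4] at h1
        exact h2 (Subgroup.mem_bot.mp h1)
      exact Finite.one_lt_card
    have hpos : 0 < Nat.card (T.map u) := Nat.card_pos
    have hlt : Nat.card (T.map u) < n := by
      rw [← hn, hcard]
      nlinarith
    have hsq2 : IsSquare (Nat.card (T.map u)) := by
      apply ih _ hlt _ rfl
      · rintro _ ⟨t, ht, rfl⟩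
        exact ⟨X t, hTX t ht, by change X t ^ r = X (t ^ r); rw [map_pow]⟩
      · rintro _ ⟨t, ht, rfl⟩
        exact ⟨Y t, hTY t ht, by change Y t ^ r = Y (t ^ r); rw [map_pow]⟩
    rw [hcard]
    exact hsq1.mul hsq2

end Module

/-- A generalized quaternion group acting fixed-point-freely on a finite group forces the group
to have odd square order. -/
theorem quaternion_fpf {m : ℕ} [NeZero m] (hm : Even m) {N : Type*} [Group N] [Finite N]
    (φ : QuaternionGroup m →* MulAut N) (hf : IsFpf φ) :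
    Odd (Nat.card N) ∧ IsSquare (Nat.card N) := by
  classical
  have hodd : Odd (Nat.card N) := by
    rw [← Nat.not_even_iff_odd, even_iff_two_dvd]
    haveI : Fact (Nat.Prime 2) := ⟨Nat.prime_two⟩
    apply not_dvd_card_of_fpf hf
    rw [Nat.card_eq_fintype_card, QuaternionGroup.card]
    exact ⟨2 * m, by ring⟩
  refine ⟨hodd, ?_⟩
  obtain ⟨k, hk⟩ := hm
  set z : QuaternionGroup m := QuaternionGroup.a (m : ZMod (2 * m)) with hz
  set x : QuaternionGroup m := QuaternionGroup.a (k : ZMod (2 * m)) with hx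
  set y : QuaternionGroup m := QuaternionGroup.xa (0 : ZMod (2 * m)) with hy
  have hxx : x * x = z := by
    rw [hx, hz, QuaternionGroup.a_mul_a, hk]
    push_cast
    rfl
  have hyy : y * y = z := by
    rw [hy, hz, QuaternionGroup.xa_mul_xa]
    simp
  have hzz : z * z = 1 := by
    rw [hz, QuaternionGroup.a_mul_a, ← two_mul, QuaternionGroup.one_def]
    congr 1
    have : ((2 * m : ℕ) : ZMod (2 * m)) = 0 := ZMod.natCast_self _
    push_cast at this
    exact this
  have hxy : x * y = z * y * x := by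
    rw [hx, hy, hz, QuaternionGroup.a_mul_xa, QuaternionGroup.a_mul_xa,
      QuaternionGroup.xa_mul_a]
    congr 1
    rw [hk]
    push_cast
    ring
  have hz1 : z ≠ 1 := by
    rw [hz, QuaternionGroup.one_def]
    intro h
    have h1 : (m : ZMod (2 * m)) = 0 := QuaternionGroup.a.inj h
    rw [ZMod.natCast_eq_zero_iff] at h1
    have hm0 : m ≠ 0 := NeZero.ne m
    have := Nat.le_of_dvd (Nat.pos_of_ne_zero hm0) h1
    omega
  -- `z` acts by inversion
  set σ : MulAut N := φ z with hσ
  have hσσ : ∀ v, σ (σ v) = v := by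
    intro v
    have : (σ * σ) v = v := by
      rw [hσ, ← map_mul, hzz, map_one]; rfl
    exact this
  have hσfix : ∀ v, σ v = v → v = 1 := fun v hv => hf z hz1 v hv
  have hinv : ∀ v, σ v = v⁻¹ := by
    have hinj : Function.Injective (fun v : N => v⁻¹ * σ v) := by
      intro v w hvw
      simp only at hvw
      have h1 : σ (w * v⁻¹) = w * v⁻¹ := by
        rw [map_mul, map_inv]
        have h2 : σ w = w * (v⁻¹ * σ v) := by rw [hvw]; group
        rw [h2]
        group
      have h3 := hσfix _ h1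
      exact (mul_inv_eq_one.mp h3).symm
    have hsurj := Finite.surjective_of_injective hinj
    intro v
    obtain ⟨w, rfl⟩ := hsurj v
    simp only [map_mul, map_inv, hσσ]
    group
  have hcomm : ∀ u v : N, u * v = v * u := by
    intro u v
    have h1 := map_mul σ u⁻¹ v⁻¹
    rw [hinv, hinv, hinv, mul_inv_rev, inv_inv, inv_inv] at h1
    exact h1.symm
  letI : CommGroup N := { (inferInstance : Group N) with mul_comm := hcomm }
  set X : N →* N := (φ x).toMonoidHom with hX
  set Y : N →* N := (φ y).toMonoidHom with hY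
  have hXa : ∀ v, X v = φ x v := fun _ => rfl
  have hYa : ∀ v, Y v = φ y v := fun _ => rfl
  have hXX : ∀ v, X (X v) = v⁻¹ := by
    intro v
    rw [hXa, hXa, ← MulAut.mul_apply, ← map_mul, hxx]
    exact hinv v
  have hYY : ∀ v, Y (Y v) = v⁻¹ := by
    intro v
    rw [hYa, hYa, ← MulAut.mul_apply, ← map_mul, hyy]
    exact hinv v
  have hXY : ∀ v, X (Y v) = (Y (X v))⁻¹ := by
    intro v
    rw [hXa, hYa, hYa, hXa, ← MulAut.mul_apply, ← MulAut.mul_apply, ← map_mul, ← map_mul, hxy,
      mul_assoc, map_mul, MulAut.mul_apply]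
    exact hinv _
  have := isSquare_card_aux X Y hXX hYY hXY hodd _ (⊤ : Subgroup N) rfl (fun _ _ => trivial)
    (fun _ _ => trivial)
  rwa [Subgroup.card_top] at this

/-- Let H be a Frobenius complement in a finite group, and suppose some Sylow subgroup of H is not cyclic. Then the number of elements of the Frobenius kernel (the identity together with the elements lying in no conjugate of H) is an odd perfect square. -/

theorem result {L : Type*} [Group L] [Finite L] (H : Subgroup L) (hF : Cfsg.IsFrobeniusComplement H)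
    (hZ : ∃ (p : ℕ) (_ : Fact p.Prime) (P : Sylow p H), ¬ IsCyclic P) :
    Odd (Nat.card (Cfsg.frobeniusKernel H)) ∧ IsSquare (Nat.card (Cfsg.frobeniusKernel H)) := by
  obtain ⟨p, hp, P, hPc⟩ := hZ
  obtain ⟨N, hNset, hNn, hNc⟩ := Cfsg.Agent.Lib.FrobeniusThm.exists_kernel_subgroup hF
  have hcard : Nat.card (Cfsg.frobeniusKernel H) = Nat.card N := by
    rw [← hNset]; rfl
  rw [hcard]
  obtain ⟨V, hVc, φ, hV, hf⟩ := exists_fpf_of_isFrobeniusComplement hF
  haveI : Nontrivial V := (Subgroup.nontrivial_iff_ne_bot V).mpr hV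
  letI : CommGroup V := { (inferInstance : Group V) with mul_comm := fun a b => hVc.is_comm.comm a b }
  have hP : IsPGroup p P := P.isPGroup'
  have hfP : IsFpf (φ.comp (P : Subgroup H).subtype) := hf.comp _ Subtype.val_injective
  rcases cyclic_or_quaternion_of_fpf (V := V) hP hfP with h | ⟨rfl, n, ⟨e⟩⟩
  · exact absurd h hPc
  have hn : n ≠ 0 := by
    rintro rfl
    apply hPc
    haveI : IsCyclic (QuaternionGroup (2 ^ 0)) := QuaternionGroup.quaternionGroup_one_isCyclic
    exact isCyclic_of_surjective e.symm e.symm.surjective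
  have hle : H ≤ Subgroup.normalizer (N : Set L) := by
    rw [Subgroup.normalizer_eq_top_iff.mpr hNn]
    exact le_top
  have hfN := conjHom_fpf H N hle (kernel_fpf hF hNset)
  let ι : QuaternionGroup (2 ^ n) →* H := (P : Subgroup H).subtype.comp e.symm.toMonoidHom
  have hι : Function.Injective ι :=
    Subtype.val_injective.comp e.symm.injective
  haveI : NeZero (2 ^ n) := ⟨by positivity⟩
  exact quaternion_fpf (by exact (Nat.even_pow.mpr ⟨even_two, hn⟩)) _ (hfN.comp ι hι)

end Cfsg.Agent.S4296
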