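import Mathlib
import Cfsg.Statements.S4297
import Cfsg.Agent.Lib.FrobConstruct

set_option autoImplicit false
set_option linter.style.haveILetI false
open Cfsg

namespace Cfsg.Agent.S4297

/-- existence of an element of given order in `F_p` for suitable `p`. -/
theorem exists_prime_elt (m : ℕ) (hm : m ≠ 0) :
    ∃ p : ℕ, p.Prime ∧ 2 < p ∧ ∃ ζ : (ZMod p)ˣ, orderOf ζ = m := by
  obtain ⟨p, hp, hgt, hmod⟩ := Nat.exists_prime_gt_modEq_one (k := m) 2 hm
  refine ⟨p, hp, hgt, ?_⟩
  haveI : Fact p.Prime := ⟨hp⟩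
  have hdvd : m ∣ p - 1 := (Nat.modEq_iff_dvd' hp.one_lt.le).mp hmod.symm
  obtain ⟨z, hz⟩ := IsCyclic.exists_ofOrder_eq_natCard (α := (ZMod p)ˣ)
  have hcard : Nat.card (ZMod p)ˣ = p - 1 := by
    rw [Nat.card_eq_fintype_card, ZMod.card_units]
  obtain ⟨d, hd⟩ := hdvd
  have hp1 : p - 1 ≠ 0 := by have := hp.one_lt; omega
  have hd0 : d ≠ 0 := by rintro rfl; simp at hd; omega
  refine ⟨z ^ d, ?_⟩
  rw [orderOf_pow_of_dvd hd0 (by rw [hz, hcard, hd]; exact dvd_mul_left _ _), hz, hcard, hd]
  exact Nat.mul_div_cancel _ (Nat.pos_of_ne_zero hd0)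

theorem core {F : Type} [Field F] [Finite F] (h2F : (2 : F) ≠ 0) (n : ℕ) (hn : 2 ≤ n)
    [NeZero (2 * n)] (z : F) (hz0 : z ≠ 0) (hzpow : ∀ k : ℕ, z ^ k = 1 → 2 * n ∣ k)
    (hz2n : z ^ (2 * n) = 1) (hzn : z ^ n = -1) :
    ∃ (L : Type) (_ : Group L) (_ : Finite L) (H : Subgroup L), Cfsg.IsFrobeniusComplement H ∧ Nonempty (H ≃* QuaternionGroup n) := by
  let u : ZMod (2 * n) → F := fun i => z ^ i.val
  have hu0 : ∀ i, u i ≠ 0 := fun i => pow_ne_zero _ hz0
  have hu_add : ∀ i j, u (i + j) = u i * u j := by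
    intro i j
    show z ^ (i + j).val = z ^ i.val * z ^ j.val
    rw [ZMod.val_add, ← pow_add]
    exact (pow_eq_pow_mod _ hz2n).symm
  have hu_zero : u 0 = 1 := by
    show z ^ (0 : ZMod (2 * n)).val = 1
    simp
  have hu_sub : ∀ i j, u (j - i) = u j * (u i)⁻¹ := by
    intro i j
    have : u j = u (j - i) * u i := by rw [← hu_add]; simp
    rw [this, mul_assoc, mul_inv_cancel₀ (hu0 i), mul_one]
  have hu_n : u (n : ZMod (2 * n)) = -1 := by
    show z ^ ((n : ZMod (2 * n)).val) = -1
    rw [ZMod.val_natCast, Nat.mod_eq_of_lt (by omega), hzn]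
  have hu_one : ∀ i, u i = 1 → i = 0 := by
    intro i hi
    have h1 := hzpow _ hi
    have h2 : i.val = 0 := Nat.eq_zero_of_dvd_of_lt h1 (ZMod.val_lt i)
    exact (ZMod.val_eq_zero i).mp h2
  let f : QuaternionGroup n → F × F → F × F := fun g v =>
    match g with
    | QuaternionGroup.a i => (u i * v.1, (u i)⁻¹ * v.2)
    | QuaternionGroup.xa i => (-(u i)⁻¹ * v.2, u i * v.1)
  haveI : Nontrivial (QuaternionGroup n) := ⟨⟨QuaternionGroup.a 0, QuaternionGroup.xa 0, by
    intro h; cases h⟩⟩
  have h1F : (1 : F) ≠ 0 := one_ne_zero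
  obtain ⟨L, i1, i2, H, h1, h2, -⟩ := Cfsg.Agent.Lib.FrobConstruct.exists_of_action f
    (by
      rintro ⟨x, y⟩
      show (u 0 * x, (u 0)⁻¹ * y) = (x, y)
      simp [hu_zero])
    (by
      rintro (i | i) (j | j) ⟨x, y⟩
      · rw [QuaternionGroup.a_mul_a]
        simp only [f, hu_add, Prod.mk.injEq]
        constructor
        · ring
        · field_simp [hu0 i, hu0 j]
      · rw [QuaternionGroup.a_mul_xa]
        simp only [f, hu_sub, Prod.mk.injEq]
        have := hu0 i
        have := hu0 j
        constructor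
        · field_simp
        · field_simp
      · rw [QuaternionGroup.xa_mul_a]
        simp only [f, hu_add, Prod.mk.injEq]
        have := hu0 i
        have := hu0 j
        constructor
        · field_simp
        · ring
      · rw [QuaternionGroup.xa_mul_xa]
        have hw : u ((n : ZMod (2 * n)) + j - i) = - (u j * (u i)⁻¹) := by
          rw [hu_sub, hu_add, hu_n]; ring
        simp only [f, hw, Prod.mk.injEq]
        have := hu0 i
        have := hu0 j
        constructor
        · field_simp
        · field_simp)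
    (by
      rintro (i | i) ⟨x, y⟩ ⟨x', y'⟩
      · simp only [f, Prod.mk_add_mk, Prod.mk.injEq]
        constructor <;> ring
      · simp only [f, Prod.mk_add_mk, Prod.mk.injEq]
        constructor <;> ring)
    (by
      rintro (i | i) hg ⟨x, y⟩ hv
      · have hi : i ≠ 0 := by
          rintro rfl
          exact hg rfl
        have hu1 : u i ≠ 1 := fun h => hi (hu_one i h)
        simp only [f, Prod.mk.injEq] at hv
        obtain ⟨e1, e2⟩ := hv
        have hx : x = 0 := by
          have : (u i - 1) * x = 0 := by linear_combination e1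
          rcases mul_eq_zero.mp this with h | h
          · exact absurd (sub_eq_zero.mp h) hu1
          · exact h
        have hy : y = 0 := by
          have e3 : y = u i * y := by
            have := congrArg (fun t => u i * t) e2
            rw [← this, ← mul_assoc, mul_inv_cancel₀ (hu0 i), one_mul]
          have : (u i - 1) * y = 0 := by linear_combination -e3
          rcases mul_eq_zero.mp this with h | h
          · exact absurd (sub_eq_zero.mp h) hu1
          · exact h
        simp [hx, hy]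
      · simp only [f, Prod.mk.injEq] at hv
        obtain ⟨e1, e2⟩ := hv
        rw [← e2] at e1
        have hx : x = 0 := by
          have h3 : -(u i)⁻¹ * (u i * x) = -x := by
            rw [neg_mul, ← mul_assoc, inv_mul_cancel₀ (hu0 i), one_mul]
          rw [h3] at e1
          have : 2 * x = 0 := by linear_combination -e1
          rcases mul_eq_zero.mp this with h | h
          · exact absurd h h2F
          · exact h
        have hy : y = 0 := by rw [← e2, hx, mul_zero]
        simp [hx, hy])
  exact ⟨L, i1, i2, H, h1, h2.map MulEquiv.symm⟩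

/-- For every n ≥ 2 the dicyclic group of order 4n (generated by an element a of order 2n and an element x with x² = aⁿ and x a x⁻¹ = a⁻¹) occurs as a Frobenius complement of some finite Frobenius group. -/
theorem result (n : ℕ) (hn : 2 ≤ n) :
    ∃ (L : Type) (_ : Group L) (_ : Finite L) (H : Subgroup L), Cfsg.IsFrobeniusComplement H ∧ Nonempty (H ≃* QuaternionGroup n) := by
  classical
  have hm : 2 * n ≠ 0 := by omega
  obtain ⟨p, hp, hp2, ζ, hζ⟩ := exists_prime_elt (2 * n) hm
  haveI : Fact p.Prime := ⟨hp⟩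
  haveI : NeZero (2 * n) := ⟨hm⟩
  have h2F : (2 : ZMod p) ≠ 0 := by
    intro h
    have h3 : ((2 : ℕ) : ZMod p) = 0 := by exact_mod_cast h
    rw [ZMod.natCast_eq_zero_iff] at h3
    have := Nat.le_of_dvd (by omega) h3
    omega
  have hz0 : (ζ : ZMod p) ≠ 0 := ζ.ne_zero
  have hzpow : ∀ k : ℕ, (ζ : ZMod p) ^ k = 1 → 2 * n ∣ k := by
    intro k hk
    rw [← hζ]
    apply orderOf_dvd_of_pow_eq_one
    apply Units.ext
    simpa using hk
  have hz2n : (ζ : ZMod p) ^ (2 * n) = 1 := by
    have : ζ ^ (2 * n) = 1 := by rw [← hζ]; exact pow_orderOf_eq_one ζ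
    have h2 := congrArg (fun x : (ZMod p)ˣ => (x : ZMod p)) this
    simpa using h2
  have hzn : (ζ : ZMod p) ^ n = -1 := by
    have h1 : ((ζ : ZMod p) ^ n) * ((ζ : ZMod p) ^ n) = 1 := by rw [← pow_add, ← two_mul, hz2n]
    have h2 : ((ζ : ZMod p) ^ n - 1) * ((ζ : ZMod p) ^ n + 1) = 0 := by
      linear_combination h1
    rcases mul_eq_zero.mp h2 with h3 | h3
    · exfalso
      have h4 := hzpow n (sub_eq_zero.mp h3)
      have := Nat.le_of_dvd (by omega) h4
      omega
    · exact eq_neg_of_add_eq_zero_left h3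
  exact core h2F n hn _ hz0 hzpow hz2n hzn

end Cfsg.Agent.S4297
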