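import Mathlib
import Cfsg.Statements.S4298
import Cfsg.Agent.Lib.FrobConstruct

set_option autoImplicit false
set_option linter.style.haveILetI false
open Cfsg

namespace Cfsg.Agent.S4298

/-- Table of an embedding `SL(2,3) → SL(2,5)`, coded by `a + 3 b + 9 c + 27 d`. -/
def tbl : List (ZMod 5 × ZMod 5 × ZMod 5 × ZMod 5) :=
  [(1,0,0,1),(1,0,0,1),(1,0,0,1),(1,0,0,1),(1,0,0,1),(1,0,0,1),(1,0,0,1),(1,0,0,1),(1,0,0,1),(1,0,0,1),(1,0,0,1),(1,0,0,1),(1,0,0,1),(1,0,0,1),(1,0,0,1),(0,1,4,0),(4,1,2,2),(1,3,4,3),(1,0,0,1),(1,0,0,1),(1,0,0,1),(0,4,1,0),(4,2,1,2),(1,4,3,3),(1,0,0,1),(1,0,0,1),(1,0,0,1),(1,0,0,1),(1,0,0,1),(1,0,0,1),(1,0,0,1),(1,1,2,3),(1,0,0,1),(1,0,0,1),(3,4,3,1),(1,0,0,1),(1,0,0,1),(1,2,1,3),(1,0,0,1),(1,0,0,1),(1,0,0,1),(2,0,0,3),(2,3,4,4),(1,0,0,1),(1,0,0,1),(1,0,0,1),(3,3,4,1),(1,0,0,1),(2,4,3,4),(1,0,0,1),(1,0,0,1),(1,0,0,1),(1,0,0,1),(0,3,3,0),(1,0,0,1),(1,0,0,1),(4,0,0,4),(1,0,0,1),(1,0,0,1),(2,1,2,4),(1,0,0,1),(1,0,0,1),(4,4,3,2),(1,0,0,1),(1,0,0,1),(2,2,1,4),(1,0,0,1),(0,2,2,0),(1,0,0,1),(3,1,2,1),(1,0,0,1),(1,0,0,1),(1,0,0,1),(1,0,0,1),(4,3,4,2),(3,2,1,1),(1,0,0,1),(1,0,0,1),(1,0,0,1),(3,0,0,2),(1,0,0,1)]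

/-- the embedding on entries -/
def psi (a b c d : ZMod 3) : ZMod 5 × ZMod 5 × ZMod 5 × ZMod 5 :=
  tbl.getD (a.val + 3 * b.val + 9 * c.val + 27 * d.val) (1, 0, 0, 1)

/-- product of matrices as tuples -/
def mul4 (A B : ZMod 5 × ZMod 5 × ZMod 5 × ZMod 5) : ZMod 5 × ZMod 5 × ZMod 5 × ZMod 5 :=
  (A.1 * B.1 + A.2.1 * B.2.2.1, A.1 * B.2.1 + A.2.1 * B.2.2.2,
    A.2.2.1 * B.1 + A.2.2.2 * B.2.2.1, A.2.2.1 * B.2.1 + A.2.2.2 * B.2.2.2)

theorem psi_one : psi 1 0 0 1 = (1, 0, 0, 1) := by decide +kernel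

theorem psi_mul : ∀ a b c d a' b' c' d' : ZMod 3, a * d - b * c = 1 → a' * d' - b' * c' = 1 →
    psi (a * a' + b * c') (a * b' + b * d') (c * a' + d * c') (c * b' + d * d') =
      mul4 (psi a b c d) (psi a' b' c' d') := by decide +kernel

theorem psi_fpf : ∀ a b c d : ZMod 3, a * d - b * c = 1 → ¬ (a = 1 ∧ b = 0 ∧ c = 0 ∧ d = 1) →
    ∀ x y : ZMod 5, (psi a b c d).1 * x + (psi a b c d).2.1 * y = x →
      (psi a b c d).2.2.1 * x + (psi a b c d).2.2.2 * y = y → x = 0 ∧ y = 0 := by decide +kernel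

/-- The group SL(2,3) of order 24 (the binary tetrahedral group) occurs as a Frobenius complement of some finite Frobenius group. -/
theorem result :
    ∃ (L : Type) (_ : Group L) (_ : Finite L) (H : Subgroup L), Cfsg.IsFrobeniusComplement H ∧ Nonempty (H ≃* Matrix.SpecialLinearGroup (Fin 2) (ZMod 3)) := by
  let S := Matrix.SpecialLinearGroup (Fin 2) (ZMod 3)
  let P : S → ZMod 5 × ZMod 5 × ZMod 5 × ZMod 5 := fun g =>
    psi (g.1 0 0) (g.1 0 1) (g.1 1 0) (g.1 1 1)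
  let f : S → ZMod 5 × ZMod 5 → ZMod 5 × ZMod 5 := fun g v =>
    ((P g).1 * v.1 + (P g).2.1 * v.2, (P g).2.2.1 * v.1 + (P g).2.2.2 * v.2)
  have hdet : ∀ g : S, g.1 0 0 * g.1 1 1 - g.1 0 1 * g.1 1 0 = 1 := by
    intro g
    have := g.2
    rwa [Matrix.det_fin_two] at this
  have hPone : P 1 = (1, 0, 0, 1) := by
    show psi ((1 : S).1 0 0) ((1 : S).1 0 1) ((1 : S).1 1 0) ((1 : S).1 1 1) = _
    have e1 : (1 : S).1 = 1 := rfl
    rw [e1]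
    simpa using psi_one
  have hPmul : ∀ g h : S, P (g * h) = mul4 (P g) (P h) := by
    intro g h
    have := psi_mul _ _ _ _ _ _ _ _ (hdet g) (hdet h)
    rw [← this]
    show psi ((g * h).1 0 0) ((g * h).1 0 1) ((g * h).1 1 0) ((g * h).1 1 1) = _
    have e1 : (g * h).1 = g.1 * h.1 := rfl
    rw [e1]
    simp only [Matrix.mul_apply, Fin.sum_univ_two]
  haveI : Nontrivial S := by
    refine ⟨⟨1, ⟨!![1, 1; 0, 1], by simp [Matrix.det_fin_two]⟩, ?_⟩⟩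
    intro h
    have := congrArg (fun g : S => g.1 0 1) h
    simp at this
  haveI : Nontrivial (ZMod 5 × ZMod 5) := ⟨⟨(0, 0), (1, 0), by decide⟩⟩
  obtain ⟨L, i1, i2, H, h1, h2, -⟩ := Cfsg.Agent.Lib.FrobConstruct.exists_of_action f
    (by
      rintro ⟨x, y⟩
      simp [f, hPone])
    (by
      rintro g h ⟨x, y⟩
      simp only [f, hPmul, mul4, Prod.mk.injEq]
      constructor <;> ring)
    (by
      rintro g ⟨x, y⟩ ⟨x', y'⟩
      simp only [f, Prod.mk_add_mk, Prod.mk.injEq]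
      constructor <;> ring)
    (by
      rintro g hg ⟨x, y⟩ hv
      simp only [f, Prod.mk.injEq] at hv
      have := psi_fpf _ _ _ _ (hdet g) (by
        rintro ⟨e1, e2, e3, e4⟩
        apply hg
        apply Subtype.ext
        ext i j
        fin_cases i <;> fin_cases j
        · simpa using e1
        · simpa using e2
        · simpa using e3
        · simpa using e4) x y hv.1 hv.2
      simp [this.1, this.2])
  exact ⟨L, i1, i2, H, h1, h2.map MulEquiv.symm⟩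

end Cfsg.Agent.S4298
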