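import Mathlib
import Cfsg.Statements.S4299
import Cfsg.Agent.Lib.FrobConstruct

set_option autoImplicit false
set_option linter.style.haveILetI false
open Cfsg

namespace Cfsg.Agent.S4299

/-- Every nontrivial finite cyclic group occurs as a Frobenius complement of some finite Frobenius group. -/
theorem result {C : Type*} [Group C] [Finite C] [IsCyclic C] [Nontrivial C] :
    ∃ (L : Type) (_ : Group L) (_ : Finite L) (H : Subgroup L), Cfsg.IsFrobeniusComplement H ∧ Nonempty (C ≃* H) := by
  have hn : Nat.card C ≠ 0 := Nat.card_pos.ne'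
  obtain ⟨p, hp, hgt, hmod⟩ := Nat.exists_prime_gt_modEq_one (k := Nat.card C) 2 hn
  haveI : Fact p.Prime := ⟨hp⟩
  have hdvd : Nat.card C ∣ p - 1 := (Nat.modEq_iff_dvd' hp.one_lt.le).mp hmod.symm
  obtain ⟨z, hz⟩ := IsCyclic.exists_ofOrder_eq_natCard (α := (ZMod p)ˣ)
  have hcard : Nat.card (ZMod p)ˣ = p - 1 := by
    rw [Nat.card_eq_fintype_card, ZMod.card_units]
  obtain ⟨d, hd⟩ := hdvd
  have hp1 : p - 1 ≠ 0 := by have := hp.one_lt; omega
  have hd0 : d ≠ 0 := by rintro rfl; simp at hd; omega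
  let ζ := z ^ d
  have hord : orderOf ζ = Nat.card C := by
    rw [orderOf_pow_of_dvd hd0 (by rw [hz, hcard, hd]; exact dvd_mul_left _ _), hz, hcard, hd]
    exact Nat.mul_div_cancel _ (Nat.pos_of_ne_zero hd0)
  let U := Subgroup.zpowers ζ
  have hU : Nat.card C = Nat.card U := by rw [Nat.card_zpowers, hord]
  let e : C ≃* U := mulEquivOfCyclicCardEq hU
  let f : C → ZMod p → ZMod p := fun c v => (((e c : U) : (ZMod p)ˣ) : ZMod p) * v
  obtain ⟨L, i1, i2, H, h1, h2, -⟩ := Cfsg.Agent.Lib.FrobConstruct.exists_of_action f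
    (by intro v; simp [f])
    (by intro g h v; simp [f, mul_assoc])
    (by intro g v w; simp [f, mul_add])
    (by
      intro g hg v hv
      by_contra hv0
      apply hg
      have h3 : (((e g : U) : (ZMod p)ˣ) : ZMod p) = 1 := by
        have : (((e g : U) : (ZMod p)ˣ) : ZMod p) * v = 1 * v := by rw [one_mul]; exact hv
        exact mul_right_cancel₀ hv0 this
      have h4 : ((e g : U) : (ZMod p)ˣ) = 1 := Units.ext h3
      have h5 : e g = 1 := Subtype.ext h4
      simpa using h5)
  exact ⟨L, i1, i2, H, h1, h2⟩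

end Cfsg.Agent.S4299
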