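import Mathlib
import Cfsg.Statements.S4300

set_option autoImplicit false
open Cfsg

namespace Cfsg.Agent.S4300

/-- Let G act faithfully and primitively on a set X, and suppose the stabilizer of some point is a simple group. Then either G is simple, or G has a normal subgroup, neither trivial nor the whole group, that acts regularly on X (transitively with trivial point stabilizers). -/
theorem result {G : Type*} [Group G] {X : Type*} [MulAction G X] [FaithfulSMul G X]
    (hprim : MulAction.IsPreprimitive G X) (x : X) (hsimple : IsSimpleGroup (MulAction.stabilizer G x)) :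
    IsSimpleGroup G ∨ ∃ N : Subgroup G, N.Normal ∧ N ≠ ⊥ ∧ N ≠ ⊤ ∧
      MulAction.IsPretransitive N X ∧ ∀ y : X, MulAction.stabilizer N y = ⊥ := by
  classical
  by_cases h : ∀ N : Subgroup G, N.Normal → N = ⊥ ∨ N = ⊤
  · left
    have hnt : Nontrivial G := by
      obtain ⟨a, b, hab⟩ := hsimple.toNontrivial
      exact ⟨a.1, b.1, fun h => hab (Subtype.ext h)⟩
    exact { eq_bot_or_eq_top_of_normal := h }
  · right
    push Not at h
    obtain ⟨N, hN, hbot, htop⟩ := h
    have htr : MulAction.IsPretransitive N X := by
      apply MulAction.IsQuasiPreprimitive.isPretransitive_of_normal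
      intro hfix
      apply hbot
      rw [eq_bot_iff]
      intro n hn
      rw [Subgroup.mem_bot]
      apply eq_of_smul_eq_smul (α := X)
      intro z
      have hz : z ∈ MulAction.fixedPoints N X := by rw [hfix]; trivial
      have := hz ⟨n, hn⟩
      rw [one_smul]
      exact this
    refine ⟨N, hN, hbot, htop, htr, ?_⟩
    have hnorm : (N.subgroupOf (MulAction.stabilizer G x)).Normal := Subgroup.normal_subgroupOf
    have hinf : ∀ n ∈ N, n • x = x → n = 1 := by
      rcases hsimple.eq_bot_or_eq_top_of_normal _ hnorm with hb | ht
      · intro n hn hnx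
        have hmem : (⟨n, hnx⟩ : MulAction.stabilizer G x) ∈ N.subgroupOf (MulAction.stabilizer G x) :=
          Subgroup.mem_subgroupOf.mpr hn
        rw [hb, Subgroup.mem_bot] at hmem
        exact congrArg Subtype.val hmem
      · exfalso
        apply htop
        rw [eq_top_iff]
        intro g _
        obtain ⟨n, hn⟩ := htr.exists_smul_eq x (g • x)
        have hn' : (n : G) • x = g • x := hn
        have hmem : (⟨(n : G)⁻¹ * g, by
            rw [MulAction.mem_stabilizer_iff, mul_smul, ← hn', inv_smul_smul]⟩ :
            MulAction.stabilizer G x) ∈ N.subgroupOf (MulAction.stabilizer G x) := by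
          rw [ht]; trivial
        have hmem' : (n : G)⁻¹ * g ∈ N := Subgroup.mem_subgroupOf.mp hmem
        have := N.mul_mem n.2 hmem'
        simpa using this
    intro y
    rw [eq_bot_iff]
    intro h hh
    rw [Subgroup.mem_bot]
    have hh' : (h : G) • y = y := hh
    obtain ⟨g, rfl⟩ := hprim.exists_smul_eq x y
    have h1 : g⁻¹ * (h : G) * g ∈ N := by
      have := hN.conj_mem h h.2 g⁻¹
      simpa using this
    have h2 : (g⁻¹ * (h : G) * g) • x = x := by
      rw [mul_smul, mul_smul, hh', inv_smul_smul]
    have h3 := hinf _ h1 h2
    apply Subtype.ext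
    show (h : G) = 1
    have h4 : (h : G) = g * (g⁻¹ * (h : G) * g) * g⁻¹ := by group
    rw [h4, h3]; group

end Cfsg.Agent.S4300
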