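import Mathlib
import Cfsg.Statements.S4301

set_option autoImplicit false
open Cfsg

namespace Cfsg.Agent.S4301

variable {X : Type*}

/-- Two distinct points can be placed at the first two places of an embedding of `Fin k`. -/
theorem exists_embedding_pair {k : ℕ} (hk : 2 ≤ k) (hkX : Nonempty (Fin k ↪ X)) {p q : X}
    (hpq : p ≠ q) : ∃ e : Fin k ↪ X, e ⟨0, by omega⟩ = p ∧ e ⟨1, by omega⟩ = q := by
  classical
  obtain ⟨e⟩ := hkX
  let i0 : Fin k := ⟨0, by omega⟩
  let i1 : Fin k := ⟨1, by omega⟩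
  have hi : i0 ≠ i1 := by simp [i0, i1, Fin.ext_iff]
  let σ1 : Equiv.Perm X := Equiv.swap (e i0) p
  have h10 : σ1 (e i0) = p := Equiv.swap_apply_left _ _
  have h11 : σ1 (e i1) ≠ p := by
    intro h
    rw [← h10] at h
    exact hi (e.injective (σ1.injective h)).symm
  let σ2 : Equiv.Perm X := Equiv.swap (σ1 (e i1)) q
  have h20 : σ2 p = p := Equiv.swap_apply_of_ne_of_ne h11.symm hpq
  have h21 : σ2 (σ1 (e i1)) = q := Equiv.swap_apply_left _ _
  refine ⟨e.trans (σ1.toEmbedding.trans σ2.toEmbedding), ?_, ?_⟩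
  · show σ2 (σ1 (e i0)) = p
    rw [h10, h20]
  · exact h21

section main

variable (G : Subgroup (Equiv.Perm (Option X))) (hfix : ∀ f ∈ G, f none = none)
    (k : ℕ) (hk : 2 ≤ k) (hkX : Nonempty (Fin k ↪ X))
    (htrans : ∀ a b : Fin k ↪ X, ∃ f ∈ G, ∀ i, f (some (a i)) = some (b i))
    (h g : Equiv.Perm (Option X)) (hg : g ∈ G) (x y : X)
    (h1 : h none = some x) (h2 : h (some x) = none) (h3 : h (some y) = some y)
    (h4 : g (some x) = some y) (h5 : g (some y) = some x)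
    (h6 : (g * h) ^ 3 ∈ G) (h7 : h ^ 2 ∈ G)
    (h8 : ∀ f ∈ G, f (some x) = some x → h * f * h ∈ G ∧ (h * f * h) (some x) = some x)

include hk hkX htrans in
/-- 2-transitivity in the form needed. -/
theorem exists_two {p q p' q' : X} (hpq : p ≠ q) (hpq' : p' ≠ q') :
    ∃ f ∈ G, f (some p) = some p' ∧ f (some q) = some q' := by
  obtain ⟨a, ha0, ha1⟩ := exists_embedding_pair hk hkX hpq
  obtain ⟨b, hb0, hb1⟩ := exists_embedding_pair hk hkX hpq'
  obtain ⟨f, hf, hfi⟩ := htrans a b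
  refine ⟨f, hf, ?_, ?_⟩
  · have := hfi ⟨0, by omega⟩
    rwa [ha0, hb0] at this
  · have := hfi ⟨1, by omega⟩
    rwa [ha1, hb1] at this

include hk hkX htrans hfix hg h3 h2 h4 in
/-- The double coset decomposition `G = G_x ∪ G_x g G_x`. -/
theorem double_coset (b : Equiv.Perm (Option X)) (hb : b ∈ G) :
    b (some x) = some x ∨ ∃ f₁ ∈ G, f₁ (some x) = some x ∧ ∃ f₂ ∈ G, f₂ (some x) = some x ∧
      b = f₁ * g * f₂ := by
  by_cases hbx : b (some x) = some x
  · exact Or.inl hbx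
  right
  have hxy : x ≠ y := by
    rintro rfl
    rw [h3] at h2
    simp at h2
  obtain ⟨z, hz⟩ : ∃ z, b (some x) = some z := by
    cases hw : b (some x) with
    | none =>
      have : b (some x) = b none := by rw [hw, hfix b hb]
      simpa using b.injective this
    | some z => exact ⟨z, rfl⟩
  have hzx : x ≠ z := by
    rintro rfl
    exact hbx hz
  obtain ⟨f₁, hf₁, hf₁x, hf₁y⟩ := exists_two G k hk hkX htrans hxy hzx
  refine ⟨f₁, hf₁, hf₁x, (f₁ * g)⁻¹ * b, G.mul_mem (G.inv_mem (G.mul_mem hf₁ hg)) hb, ?_, by group⟩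
  show (f₁ * g)⁻¹ (b (some x)) = some x
  rw [hz, Equiv.Perm.inv_eq_iff_eq]
  show some z = f₁ (g (some x))
  rw [h4, hf₁y]

include hk hkX htrans hfix hg h3 h2 h4 h1 h6 h7 h8 in
theorem hbh (b : Equiv.Perm (Option X)) (hb : b ∈ G) :
    h * b * h ∈ G ∨ ∃ c ∈ G, ∃ d ∈ G, h * b * h = c * h * d := by
  rcases double_coset G hfix k hk hkX htrans h g hg x y h2 h3 h4 b hb with hbx | ⟨f₁, hf₁, hf₁x, f₂, hf₂, hf₂x, rfl⟩
  · exact Or.inl (h8 b hb hbx).1
  right
  have hf₁' := (h8 f₁ hf₁ hf₁x).1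
  have hf₂' := (h8 f₂ hf₂ hf₂x).1
  refine ⟨(h * f₁ * h) * (h ^ 2)⁻¹ * g⁻¹ * (g * h) ^ 3 * (h ^ 2)⁻¹, ?_, g⁻¹ * (h ^ 2)⁻¹ * (h * f₂ * h), ?_, ?_⟩
  · exact G.mul_mem (G.mul_mem (G.mul_mem (G.mul_mem hf₁' (G.inv_mem h7)) (G.inv_mem hg)) h6) (G.inv_mem h7)
  · exact G.mul_mem (G.mul_mem (G.inv_mem hg) (G.inv_mem h7)) hf₂'
  · rw [show (g * h) ^ 3 = g * h * (g * h) * (g * h) by simp [pow_succ], pow_two h]
    group

/-- `G ∪ G h G` as a subgroup. -/
def extS (hh : ∀ b ∈ G, h * b * h ∈ G ∨ ∃ c ∈ G, ∃ d ∈ G, h * b * h = c * h * d)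
    (h7 : h ^ 2 ∈ G) : Subgroup (Equiv.Perm (Option X)) where
  carrier := {f | f ∈ G ∨ ∃ a ∈ G, ∃ b ∈ G, f = a * h * b}
  one_mem' := Or.inl G.one_mem
  mul_mem' := by
    rintro f₁ f₂ (hf₁ | ⟨a, ha, b, hb, rfl⟩) (hf₂ | ⟨c, hc, d, hd, rfl⟩)
    · exact Or.inl (G.mul_mem hf₁ hf₂)
    · exact Or.inr ⟨f₁ * c, G.mul_mem hf₁ hc, d, hd, by group⟩
    · exact Or.inr ⟨a, ha, b * f₂, G.mul_mem hb hf₂, by group⟩
    · rcases hh (b * c) (G.mul_mem hb hc) with h9 | ⟨u, hu, v, hv, h9⟩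
      · left
        have : a * h * b * (c * h * d) = a * (h * (b * c) * h) * d := by group
        rw [this]
        exact G.mul_mem (G.mul_mem ha h9) hd
      · right
        refine ⟨a * u, G.mul_mem ha hu, v * d, G.mul_mem hv hd, ?_⟩
        have : a * h * b * (c * h * d) = a * (h * (b * c) * h) * d := by group
        rw [this, h9]; group
  inv_mem' := by
    rintro f (hf | ⟨a, ha, b, hb, rfl⟩)
    · exact Or.inl (G.inv_mem hf)
    · refine Or.inr ⟨b⁻¹ * (h ^ 2)⁻¹, G.mul_mem (G.inv_mem hb) (G.inv_mem h7), a⁻¹, G.inv_mem ha, ?_⟩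
      group

end main

/-- see statement. -/
theorem result {X : Type*} (G : Subgroup (Equiv.Perm (Option X))) (hfix : ∀ f ∈ G, f none = none)
    (k : ℕ) (hk : 2 ≤ k) (hkX : Nonempty (Fin k ↪ X))
    (htrans : ∀ a b : Fin k ↪ X, ∃ f ∈ G, ∀ i, f (some (a i)) = some (b i))
    (h g : Equiv.Perm (Option X)) (hg : g ∈ G) (x y : X)
    (h1 : h none = some x) (h2 : h (some x) = none) (h3 : h (some y) = some y)
    (h4 : g (some x) = some y) (h5 : g (some y) = some x)
    (h6 : (g * h) ^ 3 ∈ G) (h7 : h ^ 2 ∈ G)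
    (h8 : ∀ f ∈ G, f (some x) = some x → h * f * h ∈ G ∧ (h * f * h) (some x) = some x) :
    (∀ f ∈ Subgroup.closure ((G : Set (Equiv.Perm (Option X))) ∪ {h}), f none = none ↔ f ∈ G) ∧
      MulAction.IsMultiplyPretransitive (Subgroup.closure ((G : Set (Equiv.Perm (Option X))) ∪ {h})) (Option X) (k + 1) := by
  classical
  set H := Subgroup.closure ((G : Set (Equiv.Perm (Option X))) ∪ {h}) with hH
  have hhb := hbh G hfix k hk hkX htrans h g hg x y h1 h2 h3 h4 h6 h7 h8
  have hGH : G ≤ H := fun f hf => Subgroup.subset_closure (Or.inl hf)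
  have hhH : h ∈ H := Subgroup.subset_closure (Or.inr rfl)
  have hHS : H ≤ extS G h hhb h7 := by
    rw [hH, Subgroup.closure_le]
    rintro f (hf | hf)
    · exact Or.inl hf
    · rw [Set.mem_singleton_iff] at hf
      subst hf
      exact Or.inr ⟨1, G.one_mem, 1, G.one_mem, by group⟩
  constructor
  · intro f hf
    refine ⟨fun hf0 => ?_, hfix f⟩
    rcases hHS hf with hfG | ⟨a, ha, b, hb, rfl⟩
    · exact hfG
    · exfalso
      have e1 : (a * h * b) none = a (some x) := by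
        show a (h (b none)) = _
        rw [hfix b hb, h1]
      rw [e1] at hf0
      have e2 : a (some x) = a none := by rw [hf0, hfix a ha]
      simpa using a.injective e2
  · have hxy : x ≠ y := by
      rintro rfl
      rw [h3] at h2
      simp at h2
    -- move any point to `none`
    have hA : ∀ z : Option X, ∃ f ∈ H, f z = none := by
      intro z
      cases z with
      | none => exact ⟨1, H.one_mem, rfl⟩
      | some w =>
        by_cases hw : w = x
        · subst hw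
          exact ⟨h, hhH, h2⟩
        · obtain ⟨u, hu, hu1, _⟩ := exists_two G k hk hkX htrans hw (Ne.symm hw)
          exact ⟨h * u, H.mul_mem hhH (hGH hu), by
            show h (u (some w)) = none
            rw [hu1, h2]⟩
    have hB : ∀ (a : Fin (k + 1) ↪ Option X) (f : Equiv.Perm (Option X)), f (a 0) = none →
        ∃ a' : Fin k ↪ X, ∀ i : Fin k, f (a i.succ) = some (a' i) := by
      intro a f hf
      have : ∀ i : Fin k, ∃ w : X, f (a i.succ) = some w := by
        intro i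
        cases hw : f (a i.succ) with
        | none =>
          exfalso
          have : a i.succ = a 0 := f.injective (by rw [hw, hf])
          exact Fin.succ_ne_zero i (a.injective this)
        | some z => exact ⟨z, rfl⟩
      choose w hw using this
      refine ⟨⟨w, ?_⟩, hw⟩
      intro i j hij
      have : f (a i.succ) = f (a j.succ) := by
        rw [hw, hw, hij]
      have := a.injective (f.injective this)
      exact Fin.succ_injective _ this
    refine ⟨fun a b => ?_⟩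
    obtain ⟨fa, hfa, hfa0⟩ := hA (a 0)
    obtain ⟨fb, hfb, hfb0⟩ := hA (b 0)
    obtain ⟨a', ha'⟩ := hB a fa hfa0
    obtain ⟨b', hb'⟩ := hB b fb hfb0
    obtain ⟨u, hu, hui⟩ := htrans a' b'
    refine ⟨⟨fb⁻¹ * u * fa, H.mul_mem (H.mul_mem (H.inv_mem hfb) (hGH hu)) hfa⟩, ?_⟩
    apply Function.Embedding.ext
    intro i
    show fb⁻¹ (u (fa (a i))) = b i
    rw [Equiv.Perm.inv_eq_iff_eq]
    refine Fin.cases ?_ (fun j => ?_) i
    · rw [hfa0, hfix u hu, hfb0]
    · rw [ha', hui, hb']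

end Cfsg.Agent.S4301
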