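import Mathlib
import Cfsg.Statements.S4304
import Cfsg.Agent.S4303
import Cfsg.Agent.Lib.SmallGroups3
import Cfsg.Agent.Lib.InvolutionIndexTwo

set_option autoImplicit false
open Cfsg
open scoped Pointwise

namespace Cfsg.Agent.S4304

open Cfsg.Agent.Lib.PCore (mem_conj_smul_iff)

section Core

variable {S : Type*} [Group S] [Finite S] [hp7 : Fact (Nat.Prime 7)]

theorem smul_self_of_mem (R : Sylow 7 S) {a : S} (ha : a ∈ (R : Subgroup S)) : a • R = R := by
  rw [Sylow.smul_eq_iff_mem_normalizer]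
  exact Subgroup.le_normalizer ha

theorem mem_of_smul_eq (R x : Sylow 7 S) {a : S} (ha : a ∈ (R : Subgroup S)) (h : a • x = x) :
    a ∈ (x : Subgroup S) := by
  rw [Sylow.smul_eq_iff_mem_normalizer] at h
  have h1 := R.isPGroup'.inf_normalizer_sylow x
  have h2 : a ∈ (R : Subgroup S) ⊓ Subgroup.normalizer ((x : Subgroup S) : Set S) :=
    Subgroup.mem_inf.mpr ⟨ha, h⟩
  have h3 := h1.le h2
  exact (Subgroup.mem_inf.mp h3).2

theorem stabilizer_eq (R x : Sylow 7 S) :
    MulAction.stabilizer (R : Subgroup S) x = (x : Subgroup S).subgroupOf R := by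
  ext a
  rw [MulAction.mem_stabilizer_iff, Subgroup.mem_subgroupOf]
  constructor
  · intro h
    exact mem_of_smul_eq R x a.2 h
  · intro h
    exact smul_self_of_mem x h

theorem card_orbit_eq (R x : Sylow 7 S) :
    Nat.card (MulAction.orbit (R : Subgroup S) x) = (x : Subgroup S).relIndex R := by
  rw [Nat.card_coe_set_eq, ← MulAction.index_stabilizer, stabilizer_eq]
  rfl

theorem orbit_ne (R x : Sylow 7 S) (hne : x ≠ R) {y : Sylow 7 S}
    (hy : y ∈ MulAction.orbit (R : Subgroup S) x) : y ≠ R := by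
  obtain ⟨a, rfl⟩ := hy
  intro h
  apply hne
  have h1 : (a : S) • x = R := h
  have h2 : (a : S)⁻¹ • R = R := smul_self_of_mem R (inv_mem a.2)
  have h3 : x = (a : S)⁻¹ • ((a : S) • x) := (inv_smul_smul _ _).symm
  rw [h1] at h3
  exact h3.trans h2

theorem ncard_ne (h15 : Nat.card (Sylow 7 S) = 15) (R : Sylow 7 S) :
    ({y : Sylow 7 S | y ≠ R} : Set _).ncard = 14 := by
  have h1 : ({y : Sylow 7 S | y ≠ R} : Set _) = ({R} : Set _)ᶜ := by
    ext y; simp
  rw [h1, Set.ncard_compl, Set.ncard_singleton, h15]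

theorem relIndex_eq_seven (h15 : Nat.card (Sylow 7 S) = 15) (R x : Sylow 7 S) (hne : x ≠ R) :
    (x : Subgroup S).relIndex R = 7 := by
  have h1 : (x : Subgroup S).relIndex R ≤ 14 := by
    rw [← card_orbit_eq, Nat.card_coe_set_eq, ← ncard_ne h15 R]
    apply Set.ncard_le_ncard _ (Set.toFinite _)
    intro y hy
    exact orbit_ne R x hne hy
  obtain ⟨k, hk⟩ := IsPGroup.iff_card.mp R.isPGroup'
  have h2 : (x : Subgroup S).relIndex R ∣ 7 ^ k := by
    rw [← hk]; exact Subgroup.relIndex_dvd_card _ _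
  obtain ⟨b, -, hb⟩ := (Nat.dvd_prime_pow (by norm_num : Nat.Prime 7)).mp h2
  have hb0 : b ≠ 0 := by
    rintro rfl
    rw [pow_zero] at hb
    have h3 : (R : Subgroup S) ≤ x := Subgroup.relIndex_eq_one.mp hb
    exact hne (Sylow.ext (R.is_maximal' x.isPGroup' h3))
  have hb1 : b = 1 := by
    by_contra hb2
    have h4 : 2 ≤ b := by omega
    have h5 : 7 ^ 2 ≤ 7 ^ b := Nat.pow_le_pow_right (by norm_num) h4
    rw [hb] at h1
    omega
  rw [hb, hb1]; norm_num

theorem card_orbit_seven (h15 : Nat.card (Sylow 7 S) = 15) (R x : Sylow 7 S) (hne : x ≠ R) :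
    (MulAction.orbit (R : Subgroup S) x).ncard = 7 := by
  rw [← Nat.card_coe_set_eq, card_orbit_eq, relIndex_eq_seven h15 R x hne]

/-- Three points off `R` : two are in the same `R`-orbit. -/
theorem two_in_same_orbit (h15 : Nat.card (Sylow 7 S) = 15) (R x₁ x₂ x₃ : Sylow 7 S)
    (h₁ : x₁ ≠ R) (h₂ : x₂ ≠ R) (h₃ : x₃ ≠ R) :
    (∃ a ∈ (R : Subgroup S), a • x₁ = x₂) ∨ (∃ a ∈ (R : Subgroup S), a • x₁ = x₃) ∨
      (∃ a ∈ (R : Subgroup S), a • x₂ = x₃) := by
  classical
  by_contra hcon
  push Not at hcon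
  obtain ⟨h12, h13, h23⟩ := hcon
  set O₁ := MulAction.orbit (R : Subgroup S) x₁
  set O₂ := MulAction.orbit (R : Subgroup S) x₂
  set O₃ := MulAction.orbit (R : Subgroup S) x₃
  have disj : ∀ {u v : Sylow 7 S},
      (∀ a ∈ (R : Subgroup S), a • u ≠ v) →
        Disjoint (MulAction.orbit (R : Subgroup S) u) (MulAction.orbit (R : Subgroup S) v) := by
    intro u v huv
    rcases MulAction.orbit.eq_or_disjoint (G := (R : Subgroup S)) u v with h | h
    · exfalso
      have hv : v ∈ MulAction.orbit (R : Subgroup S) u := by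
        rw [h]; exact MulAction.mem_orbit_self v
      obtain ⟨a, ha⟩ := hv
      exact huv a a.2 ha
    · exact h
  have d12 : Disjoint O₁ O₂ := disj h12
  have d13 : Disjoint O₁ O₃ := disj h13
  have d23 : Disjoint O₂ O₃ := disj h23
  have c1 : O₁.ncard = 7 := card_orbit_seven h15 R x₁ h₁
  have c2 : O₂.ncard = 7 := card_orbit_seven h15 R x₂ h₂
  have c3 : O₃.ncard = 7 := card_orbit_seven h15 R x₃ h₃
  have hU : (O₁ ∪ O₂ ∪ O₃).ncard = 21 := by
    rw [Set.ncard_union_eq (by
      rw [Set.disjoint_union_left]; exact ⟨d13, d23⟩) (Set.toFinite _) (Set.toFinite _),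
      Set.ncard_union_eq d12 (Set.toFinite _) (Set.toFinite _), c1, c2, c3]
  have hsub : O₁ ∪ O₂ ∪ O₃ ⊆ {y : Sylow 7 S | y ≠ R} := by
    rintro y ((hy | hy) | hy)
    · exact orbit_ne R x₁ h₁ hy
    · exact orbit_ne R x₂ h₂ hy
    · exact orbit_ne R x₃ h₃ hy
  have := Set.ncard_le_ncard hsub (Set.toFinite _)
  rw [hU, ncard_ne h15 R] at this
  omega

theorem card_inf_mul_seven (h15 : Nat.card (Sylow 7 S) = 15) (A B : Sylow 7 S) (hne : B ≠ A) :
    Nat.card ((A : Subgroup S) ⊓ (B : Subgroup S) : Subgroup S) * 7 = Nat.card (A : Subgroup S) := by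
  have h1 := Cfsg.Agent.Lib.SylowNum.card_mul_relIndex ((A : Subgroup S) ⊓ (B : Subgroup S))
    (A : Subgroup S) inf_le_left
  rw [Subgroup.inf_relIndex_left, relIndex_eq_seven h15 A B hne] at h1
  exact h1

theorem seven_dvd_card (h15 : Nat.card (Sylow 7 S) = 15) (A B : Sylow 7 S) (hne : B ≠ A) :
    7 ∣ Nat.card (A : Subgroup S) := by
  rw [← card_inf_mul_seven h15 A B hne]
  exact Dvd.intro_left _ rfl

/-- Conjugation within `R` fixes `R ⊓ x`. -/
theorem inf_smul_eq (h15 : Nat.card (Sylow 7 S) = 15) (R x : Sylow 7 S) (hne : x ≠ R)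
    {a : S} (ha : a ∈ (R : Subgroup S)) :
    (R : Subgroup S) ⊓ ((a • x : Sylow 7 S) : Subgroup S) = (R : Subgroup S) ⊓ (x : Subgroup S) := by
  have hnorm : ((x : Subgroup S).subgroupOf (R : Subgroup S)).Normal := by
    apply Subgroup.normal_of_index_eq_minFac_card
    have h1 : ((x : Subgroup S).subgroupOf (R : Subgroup S)).index = 7 := relIndex_eq_seven h15 R x hne
    rw [h1]
    obtain ⟨k, hk⟩ := IsPGroup.iff_card.mp R.isPGroup'
    have h2 : 7 ∣ Nat.card (R : Subgroup S) := seven_dvd_card h15 R x hne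
    rw [hk] at h2 ⊢
    have hk0 : k ≠ 0 := by
      rintro rfl
      norm_num at h2
    rw [Nat.Prime.pow_minFac (by norm_num : Nat.Prime 7) hk0]
  have hconj : ∀ (c : S), c ∈ (R : Subgroup S) → ∀ y ∈ (R : Subgroup S) ⊓ (x : Subgroup S),
      c * y * c⁻¹ ∈ (x : Subgroup S) := by
    intro c hc y hy
    have hyR := (Subgroup.mem_inf.mp hy).1
    have hyx := (Subgroup.mem_inf.mp hy).2
    have h3 : (⟨y, hyR⟩ : (R : Subgroup S)) ∈ (x : Subgroup S).subgroupOf (R : Subgroup S) :=
      Subgroup.mem_subgroupOf.mpr hyx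
    have h4 := hnorm.conj_mem _ h3 ⟨c, hc⟩
    exact Subgroup.mem_subgroupOf.mp h4
  ext y
  rw [Subgroup.mem_inf, Subgroup.mem_inf, Sylow.coe_subgroup_smul, mem_conj_smul_iff]
  constructor
  · rintro ⟨h1, h2⟩
    refine ⟨h1, ?_⟩
    have h3 : a⁻¹ * y * a ∈ (R : Subgroup S) ⊓ (x : Subgroup S) :=
      Subgroup.mem_inf.mpr ⟨(R : Subgroup S).mul_mem ((R : Subgroup S).mul_mem (inv_mem ha) h1) ha, h2⟩
    have h4 := hconj a ha _ h3
    have e : a * (a⁻¹ * y * a) * a⁻¹ = y := by group
    rwa [e] at h4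
  · rintro ⟨h1, h2⟩
    refine ⟨h1, ?_⟩
    have h4 := hconj a⁻¹ (inv_mem ha) y (Subgroup.mem_inf.mpr ⟨h1, h2⟩)
    simpa using h4

/-- The action on the Sylow subgroups is faithful in a simple group. -/
theorem faithful_of_simple [IsSimpleGroup S] (h15 : Nat.card (Sylow 7 S) = 15) (g : S)
    (hg : ∀ x : Sylow 7 S, g • x = x) : g = 1 := by
  let φ : S →* Equiv.Perm (Sylow 7 S) := MulAction.toPermHom S (Sylow 7 S)
  have hker : φ.ker ≠ ⊤ := by
    intro htop
    obtain ⟨R⟩ : Nonempty (Sylow 7 S) := inferInstance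
    have hall : ∀ x : Sylow 7 S, x = R := by
      intro x
      obtain ⟨c, rfl⟩ := MulAction.exists_smul_eq S R x
      have : c ∈ φ.ker := by rw [htop]; trivial
      have h1 : φ c = 1 := this
      have h2 : φ c R = R := by rw [h1]; rfl
      exact h2
    have hss : Subsingleton (Sylow 7 S) := ⟨fun a b => (hall a).trans (hall b).symm⟩
    have : Nat.card (Sylow 7 S) = 1 := Nat.card_of_subsingleton R
    omega
  have hbot : φ.ker = ⊥ := by
    rcases (inferInstance : φ.ker.Normal).eq_bot_or_eq_top with h | h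
    · exact h
    · exact absurd h hker
  have hmem : g ∈ φ.ker := by
    show φ g = 1
    ext x : 1
    exact hg x
  rw [hbot] at hmem
  exact Subgroup.mem_bot.mp hmem

theorem aux_le (h15 : Nat.card (Sylow 7 S) = 15) (R₂ x y : Sylow 7 S) (K₁ : Subgroup S)
    (hxy : y ≠ x) (hx : x ≠ R₂) (hKx : K₁ ≤ x) (hKy : K₁ ≤ y)
    (hcK : Nat.card K₁ * 7 = Nat.card (x : Subgroup S))
    {b : S} (hb : b ∈ (R₂ : Subgroup S)) (hbxy : b • x = y) : K₁ ≤ R₂ := by
  have h1 : (R₂ : Subgroup S) ⊓ (y : Subgroup S) = (R₂ : Subgroup S) ⊓ (x : Subgroup S) := by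
    rw [← hbxy]; exact inf_smul_eq h15 R₂ x hx hb
  have c1 := card_inf_mul_seven h15 x y hxy
  have c2 := card_inf_mul_seven h15 R₂ x hx
  have c3 : Nat.card (R₂ : Subgroup S) = Nat.card (x : Subgroup S) := Nat.card_congr (Sylow.equiv R₂ x).toEquiv
  have e1 : K₁ = (x : Subgroup S) ⊓ (y : Subgroup S) :=
    Subgroup.eq_of_le_of_card_ge (le_inf hKx hKy) (by omega)
  have e2 : (R₂ : Subgroup S) ⊓ (x : Subgroup S) = (x : Subgroup S) ⊓ (y : Subgroup S) :=
    Subgroup.eq_of_le_of_card_ge (le_inf inf_le_right (h1 ▸ inf_le_right)) (by omega)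
  rw [e1, ← e2]
  exact inf_le_left

/-- No two Sylows with index-`7` intersections when Sylow has order at least `49`. -/
theorem card_sylow_eq_seven [IsSimpleGroup S] (h15 : Nat.card (Sylow 7 S) = 15) (P : Sylow 7 S) :
    Nat.card (P : Subgroup S) = 7 := by
  classical
  -- R₁ ≠ P
  have hexR : ∃ R₁ : Sylow 7 S, R₁ ≠ P := by
    by_contra hc
    push Not at hc
    have hss : Subsingleton (Sylow 7 S) := ⟨fun a b => (hc a).trans (hc b).symm⟩
    have : Nat.card (Sylow 7 S) = 1 := Nat.card_of_subsingleton P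
    omega
  obtain ⟨R₁, hR₁⟩ := hexR
  obtain ⟨k, hk⟩ := IsPGroup.iff_card.mp P.isPGroup'
  have h7 : 7 ∣ Nat.card (P : Subgroup S) := seven_dvd_card h15 P R₁ hR₁
  by_contra hne7
  -- |P| ≥ 49
  have hk2 : 2 ≤ k := by
    by_contra hk2
    have : k = 0 ∨ k = 1 := by omega
    rcases this with rfl | rfl
    · rw [hk] at h7; norm_num at h7
    · rw [hk] at hne7; norm_num at hne7
  set K₁ : Subgroup S := (P : Subgroup S) ⊓ (R₁ : Subgroup S) with hK₁
  have hcK : Nat.card K₁ * 7 = Nat.card (P : Subgroup S) := card_inf_mul_seven h15 P R₁ hR₁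
  have hKne : K₁ ≠ ⊥ := by
    intro h
    rw [h, Subgroup.card_bot, hk] at hcK
    have : 7 ^ 2 ∣ 7 ^ k := pow_dvd_pow 7 hk2
    rw [← hcK] at this
    norm_num at this
  obtain ⟨u, huK, hu1⟩ := (Subgroup.bot_or_exists_ne_one K₁).resolve_left hKne
  have hexR₂ : ∃ R₂ : Sylow 7 S, u • R₂ ≠ R₂ := by
    by_contra hc
    push Not at hc
    exact hu1 (faithful_of_simple h15 u hc)
  obtain ⟨R₂, hR₂⟩ := hexR₂
  have huR₂ : u ∉ (R₂ : Subgroup S) := fun h => hR₂ (smul_self_of_mem R₂ h)
  have hKR₂ : ¬ K₁ ≤ (R₂ : Subgroup S) := fun h => huR₂ (h huK)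
  have hexa : ∃ a ∈ (P : Subgroup S), a • R₁ ≠ R₁ := by
    by_contra hc
    push Not at hc
    have hP_le : (P : Subgroup S) ≤ R₁ := fun a ha => mem_of_smul_eq P R₁ ha (hc a ha)
    exact hR₁ (Sylow.ext (P.is_maximal' R₁.isPGroup' hP_le))
  obtain ⟨a, haP, haR⟩ := hexa
  set R₃ : Sylow 7 S := a • R₁ with hR₃
  have hKR₃ : K₁ ≤ (R₃ : Subgroup S) := by
    have h1 := inf_smul_eq h15 P R₁ hR₁ haP
    have h2 : K₁ = (P : Subgroup S) ⊓ (R₃ : Subgroup S) := h1.symm
    rw [h2]
    exact inf_le_right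
  have hR₃P : R₃ ≠ P := by
    intro h
    apply hR₁
    have h3 : R₁ = a⁻¹ • (a • R₁) := (inv_smul_smul _ _).symm
    rw [← hR₃, h] at h3
    exact h3.trans (smul_self_of_mem P (inv_mem haP))
  have ne1 : P ≠ R₂ := fun h => hKR₂ (h ▸ inf_le_left)
  have ne2 : R₁ ≠ R₂ := fun h => hKR₂ (h ▸ inf_le_right)
  have ne3 : R₃ ≠ R₂ := fun h => hKR₂ (h ▸ hKR₃)
  rcases two_in_same_orbit h15 R₂ P R₁ R₃ ne1 ne2 ne3 with ⟨b, hb, hbx⟩ | ⟨b, hb, hbx⟩ | ⟨b, hb, hbx⟩
  · exact hKR₂ (aux_le h15 R₂ P R₁ K₁ hR₁ ne1 inf_le_left inf_le_right hcK hb hbx)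
  · exact hKR₂ (aux_le h15 R₂ P R₃ K₁ hR₃P ne1 inf_le_left hKR₃ hcK hb hbx)
  · exact hKR₂ (aux_le h15 R₂ R₁ R₃ K₁ haR ne2 inf_le_right hKR₃
      (by rw [hcK]; exact Nat.card_congr (Sylow.equiv P R₁).toEquiv) hb hbx)

theorem inf_eq_bot [IsSimpleGroup S] (h15 : Nat.card (Sylow 7 S) = 15) (A B : Sylow 7 S)
    (hne : B ≠ A) : (A : Subgroup S) ⊓ (B : Subgroup S) = ⊥ := by
  have h1 := card_inf_mul_seven h15 A B hne
  rw [card_sylow_eq_seven h15 A] at h1
  have h2 : Nat.card ((A : Subgroup S) ⊓ (B : Subgroup S) : Subgroup S) = 1 := by omega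
  exact Subgroup.eq_bot_of_card_eq _ h2

theorem eq_one_of_centralizer_fix [IsSimpleGroup S] (h15 : Nat.card (Sylow 7 S) = 15)
    (P R : Sylow 7 S) (hne : R ≠ P) {c : S}
    (hc : c ∈ Subgroup.centralizer ((P : Subgroup S) : Set S)) (hcR : c • R = R) : c = 1 := by
  classical
  have hcP : c • P = P := by
    rw [Sylow.smul_eq_iff_mem_normalizer]
    exact Subgroup.centralizer_le_normalizer _ hc
  have hcN : c ∈ Subgroup.normalizer ((P : Subgroup S) : Set S) :=
    Subgroup.centralizer_le_normalizer _ hc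
  have hcN' : c ∈ Subgroup.normalizer ((R : Subgroup S) : Set S) :=
    (Sylow.smul_eq_iff_mem_normalizer).mp hcR
  set o := orderOf c with ho
  have hopos : 0 < o := orderOf_pos c
  by_cases h7 : 7 ∣ o
  · exfalso
    obtain ⟨m, hm⟩ := h7
    have hm0 : 0 < m := by
      rcases Nat.eq_zero_or_pos m with h | h
      · subst h; omega
      · exact h
    have hd : orderOf (c ^ m) = 7 := by
      rw [orderOf_pow_of_dvd (by omega : m ≠ 0) (by rw [← ho, hm]; exact Dvd.intro_left _ rfl), ← ho, hm]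
      exact Nat.mul_div_cancel _ hm0
    have h1 := Cfsg.Agent.Lib.SmallGroups3.mem_of_orderOf_of_mem_normalizer P hd (pow_mem hcN m)
    have h2 := Cfsg.Agent.Lib.SmallGroups3.mem_of_orderOf_of_mem_normalizer R hd (pow_mem hcN' m)
    have h3 : c ^ m ∈ (P : Subgroup S) ⊓ (R : Subgroup S) := Subgroup.mem_inf.mpr ⟨h1, h2⟩
    rw [inf_eq_bot h15 P R hne, Subgroup.mem_bot] at h3
    rw [h3, orderOf_one] at hd
    omega
  · apply faithful_of_simple h15
    intro x
    by_cases hxP : x = P
    · subst hxP; exact hcP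
    have hcomm : ∀ a ∈ (P : Subgroup S), a * c = c * a := fun a ha =>
      Subgroup.mem_centralizer_iff.mp hc a ha
    by_cases horb : ∃ a ∈ (P : Subgroup S), a • R = x
    · obtain ⟨a, ha, rfl⟩ := horb
      rw [smul_smul, ← hcomm a ha, mul_smul, hcR]
    push Not at horb
    have hcx : c • x ≠ P := by
      intro h
      apply hxP
      have h3 : x = c⁻¹ • (c • x) := (inv_smul_smul _ _).symm
      rw [h] at h3
      rw [h3]
      rw [inv_smul_eq_iff]
      exact hcP.symm
    rcases two_in_same_orbit h15 P R x (c • x) hne hxP hcx with ⟨a, ha, hax⟩ | ⟨a, ha, hax⟩ | ⟨a, ha, hax⟩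
    · exact absurd hax (horb a ha)
    · exfalso
      apply horb a ha
      have h3 : x = c⁻¹ • (c • x) := (inv_smul_smul _ _).symm
      rw [← hax, smul_smul] at h3
      have hinv : c⁻¹ * a = a * c⁻¹ := by
        have h4 := hcomm a ha
        calc c⁻¹ * a = c⁻¹ * (a * c) * c⁻¹ := by group
          _ = c⁻¹ * (c * a) * c⁻¹ := by rw [h4]
          _ = a * c⁻¹ := by group
      rw [hinv, mul_smul] at h3
      have h5 : c⁻¹ • R = R := by rw [inv_smul_eq_iff]; exact hcR.symm
      rw [h5] at h3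
      exact h3.symm
    · have hk : ∀ n : ℕ, a ^ n • x = c ^ n • x := by
        intro n
        induction n with
        | zero => simp
        | succ n ih =>
          have h1 : a ^ n * c = c * a ^ n := by
            have : a ^ n ∈ (P : Subgroup S) := pow_mem ha n
            exact hcomm _ this
          calc a ^ (n + 1) • x = a ^ n • (a • x) := by rw [pow_succ, mul_smul]
            _ = a ^ n • (c • x) := by rw [hax]
            _ = c • (a ^ n • x) := by rw [smul_smul, h1, mul_smul]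
            _ = c • (c ^ n • x) := by rw [ih]
            _ = c ^ (n + 1) • x := by rw [pow_succ', mul_smul]
      have hao := hk o
      rw [ho, pow_orderOf_eq_one, one_smul, ← ho] at hao
      have hm : a ^ o ∈ (x : Subgroup S) := mem_of_smul_eq P x (pow_mem ha o) hao
      have hmem : a ^ o ∈ (P : Subgroup S) ⊓ (x : Subgroup S) :=
        Subgroup.mem_inf.mpr ⟨pow_mem ha o, hm⟩
      rw [inf_eq_bot h15 P x hxP, Subgroup.mem_bot] at hmem
      have h1 : orderOf a ∣ o := orderOf_dvd_of_pow_eq_one hmem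
      have h2 : orderOf a ∣ 7 := by
        have := Subgroup.orderOf_dvd_natCard (P : Subgroup S) ha
        rwa [card_sylow_eq_seven h15 P] at this
      rcases (Nat.dvd_prime (by norm_num : Nat.Prime 7)).mp h2 with h | h
      · have ha1 : a = 1 := orderOf_eq_one_iff.mp h
        rw [ha1, one_smul] at hax
        exact hax.symm
      · rw [h] at h1
        exact absurd h1 h7

theorem card_centralizer_le [IsSimpleGroup S] (h15 : Nat.card (Sylow 7 S) = 15)
    (P R : Sylow 7 S) (hne : R ≠ P) :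
    Nat.card (Subgroup.centralizer ((P : Subgroup S) : Set S)) ≤ 14 := by
  have hcP : ∀ c : Subgroup.centralizer ((P : Subgroup S) : Set S), (c : S) • P = P := by
    intro c
    rw [Sylow.smul_eq_iff_mem_normalizer]
    exact Subgroup.centralizer_le_normalizer _ c.2
  let f : Subgroup.centralizer ((P : Subgroup S) : Set S) → ({y : Sylow 7 S | y ≠ P} : Set _) :=
    fun c => ⟨(c : S) • R, by
      intro h
      apply hne
      have h3 : R = (c : S)⁻¹ • ((c : S) • R) := (inv_smul_smul _ _).symm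
      rw [h] at h3
      rw [h3, inv_smul_eq_iff]
      exact (hcP c).symm⟩
  have hf : Function.Injective f := by
    intro c₁ c₂ h
    have h1 : (c₁ : S) • R = (c₂ : S) • R := congrArg Subtype.val h
    have h2 : ((c₂ : S)⁻¹ * (c₁ : S)) • R = R := by
      rw [mul_smul, h1, inv_smul_smul]
    have h3 : (c₂ : S)⁻¹ * (c₁ : S) ∈ Subgroup.centralizer ((P : Subgroup S) : Set S) :=
      mul_mem (inv_mem c₂.2) c₁.2
    have h4 := eq_one_of_centralizer_fix h15 P R hne h3 h2
    apply Subtype.ext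
    rw [inv_mul_eq_one] at h4
    exact h4.symm
  have h1 := Nat.card_le_card_of_injective f hf
  rwa [Nat.card_coe_set_eq, ncard_ne h15 P] at h1

theorem no_simple [IsSimpleGroup S] (h15 : Nat.card (Sylow 7 S) = 15) : False := by
  classical
  obtain ⟨P⟩ : Nonempty (Sylow 7 S) := inferInstance
  have hexR : ∃ R₁ : Sylow 7 S, R₁ ≠ P := by
    by_contra hc
    push Not at hc
    have hss : Subsingleton (Sylow 7 S) := ⟨fun a b => (hc a).trans (hc b).symm⟩
    have : Nat.card (Sylow 7 S) = 1 := Nat.card_of_subsingleton P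
    omega
  obtain ⟨R, hR⟩ := hexR
  have hP7 := card_sylow_eq_seven h15 P
  have hdvd7 : 7 ∣ Nat.card S := hP7 ▸ Subgroup.card_subgroup_dvd_card _
  have hG : ¬ IsMulCommutative S := by
    intro hc
    have hn : (P : Subgroup S).Normal := by
      constructor
      intro n hn g
      have : g * n * g⁻¹ = n := by
        have h1 : g * n = n * g := hc.is_comm.comm g n
        rw [h1]; group
      rwa [this]
    haveI := Sylow.unique_of_normal P hn
    have : Nat.card (Sylow 7 S) = 1 := Nat.card_unique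
    omega
  set C := Subgroup.centralizer ((P : Subgroup S) : Set S) with hC
  haveI hPc : IsCyclic (P : Subgroup S) := isCyclic_of_prime_card hP7
  have hPC : (P : Subgroup S) ≤ C := by
    intro a ha
    rw [hC, Subgroup.mem_centralizer_iff]
    intro b hb
    have := (IsCyclic.commGroup (α := (P : Subgroup S))).mul_comm ⟨b, hb⟩ ⟨a, ha⟩
    exact congrArg Subtype.val this
  have hcC : Nat.card C = 7 := by
    have h1 : 7 ∣ Nat.card C := hP7 ▸ Subgroup.card_dvd_of_le hPC
    have h2 : Nat.card C ≤ 14 := card_centralizer_le h15 P R hR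
    have h0 : Nat.card C ≠ 0 := Nat.card_pos.ne'
    obtain ⟨k, hk⟩ := h1
    have hk' : k = 1 ∨ k = 2 := by omega
    rcases hk' with rfl | rfl
    · omega
    · exfalso
      haveI : Fact (Nat.Prime 2) := ⟨Nat.prime_two⟩
      obtain ⟨t, ht⟩ := exists_prime_orderOf_dvd_card' (G := C) 2 (by rw [hk]; exact Dvd.intro_left _ rfl)
      have ht2 : ((t : S)) ^ 2 = 1 := by
        have : t ^ 2 = 1 := by rw [← ht, pow_orderOf_eq_one]
        exact congrArg Subtype.val this
      have ht1 : (t : S) ≠ 1 := by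
        intro h
        have : t = 1 := Subtype.ext h
        rw [this, orderOf_one] at ht
        omega
      have hfix : MulAction.fixedBy (Sylow 7 S) (t : S) = {P} := by
        ext x
        rw [MulAction.mem_fixedBy, Set.mem_singleton_iff]
        constructor
        · intro hx
          by_contra hxP
          exact ht1 (eq_one_of_centralizer_fix h15 P x hxP t.2 hx)
        · rintro rfl
          rw [Sylow.smul_eq_iff_mem_normalizer]
          exact Subgroup.centralizer_le_normalizer _ t.2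
      have h4 := Cfsg.Agent.Lib.SmallGroups3.card_modEq_fixedBy_four hG (X := Sylow 7 S) (t : S) ht2
      rw [hfix, h15, Nat.card_coe_set_eq, Set.ncard_singleton] at h4
      exact absurd h4 (by decide)
  set T := Subgroup.normalizer ((P : Subgroup S) : Set S) with hT
  have hCT : C ≤ T := Subgroup.centralizer_le_normalizer _
  have ha6 : C.relIndex T ∣ 6 := Cfsg.Agent.Lib.SmallGroups2.relIndex_dvd_of_prime_card P hP7
  have ha1 : C.relIndex T ≠ 1 := by
    intro h
    exact Cfsg.Agent.Lib.SmallGroups2.not_normalizer_le_centralizer hG hdvd7 P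
      (Subgroup.relIndex_eq_one.mp h)
  have hT7 := Cfsg.Agent.Lib.SylowNum.card_mul_relIndex C T hCT
  have hS := Cfsg.Agent.Lib.SmallGroups2.card_normalizer_mul_card_sylow P
  rw [h15] at hS
  have hcS : Nat.card S = 105 * C.relIndex T := by
    rw [← hS, hT, ← hT, ← hT7, hcC]; ring
  set a := C.relIndex T with ha
  have ha' : a = 2 ∨ a = 3 ∨ a = 6 := by
    have hmem : a ∈ Nat.divisors 6 := Nat.mem_divisors.mpr ⟨ha6, by norm_num⟩
    have : Nat.divisors 6 = {1, 2, 3, 6} := by decide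
    rw [this] at hmem
    simp only [Finset.mem_insert, Finset.mem_singleton] at hmem
    omega
  -- order with a single factor of two
  have key2 : ∀ m : ℕ, Nat.card S = 2 ^ 1 * m → ¬ 2 ∣ m → 1 < m → False := by
    intro m hm hm2 hm1
    haveI : Fact (Nat.Prime 2) := ⟨Nat.prime_two⟩
    obtain ⟨T2⟩ : Nonempty (Sylow 2 S) := inferInstance
    have hc2 := Cfsg.Agent.Lib.SmallGroups2.sylow_card_of_card_eq hm hm2 T2
    rw [pow_one] at hc2
    have hcyc : IsCyclic (T2 : Subgroup S) := isCyclic_of_prime_card hc2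
    have heven : Even (Nat.card S) := by
      rw [hm, pow_one]; exact even_two_mul m
    obtain ⟨H, hH⟩ := Cfsg.Agent.Lib.InvolutionIndexTwo.exists_index_two_of_isCyclic_sylow heven T2 hcyc
    have hHn : H.Normal := Subgroup.normal_of_index_eq_two hH
    rcases hHn.eq_bot_or_eq_top with h | h
    · rw [h, Subgroup.index_bot] at hH
      rw [hH] at hm
      omega
    · rw [h, Subgroup.index_top] at hH
      omega
  rcases ha' with h | h | h
  · rw [h] at hcS
    exact key2 105 (by rw [hcS]; norm_num) (by norm_num) (by norm_num)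
  · rw [h] at hcS
    haveI : Fact (Nat.Prime 5) := ⟨by norm_num⟩
    refine Cfsg.Agent.Lib.SmallGroups2.card_ne_of_candidates_empty (G := S) (p := 5) (m := 63)
      (by norm_num) (by norm_num) (by decide) ?_
    rw [hcS]
  · rw [h] at hcS
    exact key2 315 (by rw [hcS]; norm_num) (by norm_num) (by norm_num)

end Core

/-- No finite group has exactly 15 Sylow 7-subgroups. -/
theorem result {G : Type*} [Group G] [Finite G] : Nat.card (Sylow 7 G) ≠ 15 := by
  intro h15
  haveI hp7 : Fact (Nat.Prime 7) := ⟨by norm_num⟩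
  obtain ⟨l, hprod, hl⟩ := Cfsg.Agent.S4303.result (G := G) 7
  have hall : ∀ m ∈ l, m = 1 := by
    intro m hm
    have hdvd : m ∣ 15 := by
      rw [← h15, ← hprod]; exact List.dvd_prod hm
    have hmem : m ∈ Nat.divisors 15 := Nat.mem_divisors.mpr ⟨hdvd, by norm_num⟩
    have hd : Nat.divisors 15 = {1, 3, 5, 15} := by decide
    rw [hd] at hmem
    simp only [Finset.mem_insert, Finset.mem_singleton] at hmem
    rcases hl m hm with ⟨hpp, hmod⟩ | ⟨S, _, _, hS, hc⟩
    · rcases hmem with rfl | rfl | rfl | rfl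
      · rfl
      · norm_num at hmod
      · norm_num at hmod
      · exfalso
        have : ¬ IsPrimePow 15 := by
          rw [isPrimePow_nat_iff_bounded]
          decide
        exact this hpp
    · have hmod : m % 7 = 1 := by
        rw [hc]
        have := Cfsg.Agent.Lib.SmallGroups2.card_sylow_mod (G := S) (p := 7)
        rw [this]
      rcases hmem with rfl | rfl | rfl | rfl
      · rfl
      · norm_num at hmod
      · norm_num at hmod
      · exact (no_simple (S := S) hc.symm).elim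
  have h1 : l.prod = 1 := List.prod_eq_one hall
  rw [h1] at hprod
  omega

end Cfsg.Agent.S4304
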