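import Mathlib
import Cfsg.Statements.S4305
import Cfsg.Agent.Lib.S3Top

set_option autoImplicit false
set_option maxRecDepth 4000

open Cfsg

namespace Cfsg.Agent.S4305

open Cfsg.Agent.Lib.S3Fpf Cfsg.Agent.Lib.S3Rep Cfsg.Agent.Lib.S3Top Cfsg.Agent.Lib.CoprimeAct
open scoped commutatorElement

universe u

theorem step {G : Type u} [Group G] [Finite G] [Group.IsSolvable G] [MulDistribMulAction S3 G]
    (hG6 : (Nat.card G).Coprime 6) (hfix : ∀ x : G, (∀ g : S3, g • x = x) → x = 1)
    (V : Subgroup G) [hVn : V.Normal] (hVinv : ∀ a : S3, ∀ v ∈ V, a • v ∈ V) (hVne : V ≠ ⊥)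
    (hVmin : ∀ W : Subgroup G, W.Normal → (∀ a : S3, ∀ v ∈ W, a • v ∈ W) → W ≠ ⊥ → W ≤ V → W = V)
    (x : G) (hx : x ∈ commutator G) (v : G) (hv : v ∈ V) : x * v * x⁻¹ = v := by
  classical
  -- `V` is abelian
  have hVcomm : ∀ a ∈ V, ∀ b ∈ V, a * b = b * a := by
    let W : Subgroup G := ⁅V, V⁆
    have hWn : W.Normal := inferInstance
    have hWinv : ∀ a : S3, ∀ v ∈ W, a • v ∈ W := by
      intro a v hv
      have hle : W ≤ W.comap (MulDistribMulAction.toMonoidHom G a) := by
        show ⁅V, V⁆ ≤ _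
        rw [Subgroup.commutator_le]
        intro y hy z hz
        show a • ⁅y, z⁆ ∈ W
        have : a • ⁅y, z⁆ = ⁅a • y, a • z⁆ :=
          map_commutatorElement (MulDistribMulAction.toMonoidHom G a) y z
        rw [this]
        exact Subgroup.commutator_mem_commutator (hVinv a y hy) (hVinv a z hz)
      exact hle hv
    have hWle : W ≤ V := Subgroup.commutator_le_left V V
    by_cases hW : W = ⊥
    · intro a ha b hb
      have : ⁅a, b⁆ ∈ W := Subgroup.commutator_mem_commutator ha hb
      rw [hW] at this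
      exact commutatorElement_eq_one_iff_mul_comm.1 this
    · exfalso
      have hEq : W = V := hVmin W hWn hWinv hW hWle
      have hder : ∀ n, V ≤ derivedSeries G n := by
        intro n
        induction n with
        | zero => exact le_top
        | succ n ih =>
          rw [derivedSeries_succ]
          calc V = ⁅V, V⁆ := hEq.symm
            _ ≤ _ := Subgroup.commutator_mono ih ih
      obtain ⟨n, hn⟩ := (inferInstance : Group.IsSolvable G).solvable
      apply hVne
      rw [eq_bot_iff, ← hn]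
      exact hder n
  -- a prime
  have hcardne : Nat.card V ≠ 1 := fun h => hVne (Subgroup.eq_bot_of_card_eq V h)
  obtain ⟨p, hp, hpd⟩ := Nat.exists_prime_and_dvd hcardne
  haveI hpF : Fact p.Prime := ⟨hp⟩
  have hVp : ∀ v ∈ V, v ^ p = 1 := by
    let Ω : Subgroup G :=
      { carrier := {v | v ∈ V ∧ v ^ p = 1}
        mul_mem' := fun {a b} ha hb => ⟨V.mul_mem ha.1 hb.1, by
          rw [(show Commute a b from hVcomm a ha.1 b hb.1).mul_pow, ha.2, hb.2, one_mul]⟩
        one_mem' := ⟨V.one_mem, one_pow _⟩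
        inv_mem' := fun {a} ha => ⟨V.inv_mem ha.1, by rw [inv_pow, ha.2, inv_one]⟩ }
    have hΩn : Ω.Normal := by
      refine ⟨fun n hn g => ⟨hVn.conj_mem n hn.1 g, ?_⟩⟩
      rw [conj_pow, hn.2]
      group
    have hΩinv : ∀ a : S3, ∀ v ∈ Ω, a • v ∈ Ω := by
      intro a v hv
      refine ⟨hVinv a v hv.1, ?_⟩
      rw [← smul_pow', hv.2, smul_one]
    have hΩle : Ω ≤ V := fun v hv => hv.1
    have hΩne : Ω ≠ ⊥ := by
      intro h
      obtain ⟨w, hw⟩ := exists_prime_orderOf_dvd_card' p hpd
      have hw1 : (w : G) ^ p = 1 := by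
        have := pow_orderOf_eq_one w
        rw [hw] at this
        exact congrArg Subtype.val this
      have hwΩ : (w : G) ∈ Ω := ⟨w.2, hw1⟩
      rw [h] at hwΩ
      have hw2 : w = 1 := Subtype.ext hwΩ
      rw [hw2, orderOf_one] at hw
      exact hp.one_lt.ne hw
    have hEq := hVmin Ω hΩn hΩinv hΩne hΩle
    intro v hv
    rw [← hEq] at hv
    exact hv.2
  -- the instances on `V`
  letI vcg : CommGroup V :=
    { (inferInstance : Group V) with mul_comm := fun a b => Subtype.ext (hVcomm a a.2 b b.2) }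
  letI sact : MulDistribMulAction S3 V := subAct V hVinv
  letI gact : MulDistribMulAction G V :=
    { smul := fun x s => ⟨x * s.1 * x⁻¹, hVn.conj_mem s.1 s.2 x⟩
      one_smul := fun s => Subtype.ext (by
        show 1 * s.1 * 1⁻¹ = s.1
        simp)
      mul_smul := fun a b s => Subtype.ext (by
        show (a * b) * s.1 * (a * b)⁻¹ = a * (b * s.1 * b⁻¹) * a⁻¹
        group)
      smul_mul := fun a s t => Subtype.ext (by
        show a * (s.1 * t.1) * a⁻¹ = (a * s.1 * a⁻¹) * (a * t.1 * a⁻¹)
        group)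
      smul_one := fun a => Subtype.ext (by
        show a * 1 * a⁻¹ = 1
        simp) }
  have hgact : ∀ (x : G) (s : V), ((x • s : V) : G) = x * s.1 * x⁻¹ := fun _ _ => rfl
  have hsact : ∀ (a : S3) (s : V), ((a • s : V) : G) = a • s.1 := fun _ _ => rfl
  have hact : ∀ (g : S3) (x : G) (v : V), g • (x • v) = (g • x) • (g • v) := by
    intro g x v
    apply Subtype.ext
    show g • (x * v.1 * x⁻¹) = (g • x) * (g • v.1) * (g • x)⁻¹
    rw [smul_mul', smul_mul', smul_inv']
  have hfixA : ∀ v : V, (∀ g : S3, g • v = v) → v = 1 := fun s hs =>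
    Subtype.ext (hfix s.1 (fun g => congrArg Subtype.val (hs g)))
  have hAp : ∀ v : V, v ^ p = 1 := fun v => Subtype.ext (hVp v.1 v.2)
  have hAne : Nontrivial V := (Subgroup.bot_or_nontrivial V).resolve_left hVne
  have hAmin : ∀ B : Subgroup V, (∀ x : G, ∀ v ∈ B, x • v ∈ B) → (∀ a : S3, ∀ v ∈ B, a • v ∈ B) →
      B ≠ ⊥ → B = ⊤ := by
    intro B hBG hBS hBne
    let W : Subgroup G := B.map V.subtype
    have hWn : W.Normal := by
      refine ⟨?_⟩
      rintro _ ⟨y, hy, rfl⟩ g
      exact ⟨g • y, hBG g y hy, rfl⟩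
    have hWinv : ∀ a : S3, ∀ v ∈ W, a • v ∈ W := by
      rintro a _ ⟨y, hy, rfl⟩
      exact ⟨a • y, hBS a y hy, rfl⟩
    have hWle : W ≤ V := by
      rintro _ ⟨y, _, rfl⟩
      exact y.2
    have hWne : W ≠ ⊥ := by
      intro h
      apply hBne
      rw [eq_bot_iff]
      intro y hy
      have : (y : G) ∈ W := ⟨y, hy, rfl⟩
      rw [h] at this
      exact Subtype.ext this
    have hEq := hVmin W hWn hWinv hWne hWle
    rw [eq_top_iff]
    intro y _
    have : (y : G) ∈ W := by rw [hEq]; exact y.2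
    obtain ⟨z, hz, hzy⟩ := this
    have : z = y := Subtype.ext hzy
    rw [← this]
    exact hz
  have hcen : ∀ (a b : G) (w : V), ⁅a, b⁆ • w = w := fun a b w =>
    centralizes_abs (K := AlgebraicClosure (ZMod p)) hact hG6 hfix hfixA p hAp hAne hAmin a b w
  let H : Subgroup G :=
    { carrier := {x | ∀ w : V, x • w = w}
      mul_mem' := fun {a b} ha hb w => by rw [mul_smul, hb w, ha w]
      one_mem' := fun w => one_smul _ w
      inv_mem' := fun {a} ha w => inv_smul_eq_iff.2 (ha w).symm }
  have hle : commutator G ≤ H := by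
    rw [commutator_def, Subgroup.commutator_le]
    intro a _ b _
    exact hcen a b
  exact congrArg Subtype.val (hle hx ⟨v, hv⟩)

theorem main : ∀ (n : ℕ) (G : Type u) [Group G] [Finite G] [Group.IsSolvable G]
    [MulDistribMulAction S3 G], Nat.card G = n → (Nat.card G).Coprime 6 →
    (∀ g : G, (∀ a : S3, a • g = g) → g = 1) → Group.IsNilpotent ↥(commutator G) := by
  intro n
  induction n using Nat.strong_induction_on with
  | _ n ih =>
    intro G _ _ _ _ hn hG6 hfix
    classical
    by_cases htriv : Subsingleton G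
    · exact Group.isNilpotent_of_subsingleton
    rw [not_subsingleton_iff_nontrivial] at htriv
    -- a minimal invariant normal subgroup
    let T : Set (Subgroup G) := {W | W.Normal ∧ (∀ a : S3, ∀ v ∈ W, a • v ∈ W) ∧ W ≠ ⊥}
    have hTop : (⊤ : Subgroup G) ∈ T :=
      ⟨inferInstance, fun _ _ _ => Subgroup.mem_top _, top_ne_bot⟩
    obtain ⟨V, hV⟩ := (Set.toFinite T).exists_minimal ⟨⊤, hTop⟩
    obtain ⟨hVn, hVinv, hVne⟩ := hV.prop
    haveI := hVn
    have hVmin : ∀ W : Subgroup G, W.Normal → (∀ a : S3, ∀ v ∈ W, a • v ∈ W) → W ≠ ⊥ → W ≤ V →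
        W = V := fun W h1 h2 h3 hle => hV.eq_of_le ⟨h1, h2, h3⟩ hle
    letI qa : MulDistribMulAction S3 (G ⧸ V) := quotAct V hVinv
    have hqa : ∀ (a : S3) (x : G), a • (x : G ⧸ V) = ((a • x : G) : G ⧸ V) := fun _ _ => rfl
    have hlt : Nat.card (G ⧸ V) < n := by
      have h1 := Subgroup.card_eq_card_quotient_mul_card_subgroup V
      have h2 : Nat.card V ≠ 1 := fun h => hVne (Subgroup.eq_bot_of_card_eq V h)
      have h3 : 0 < Nat.card V := Nat.card_pos
      have h4 : 0 < Nat.card (G ⧸ V) := Nat.card_pos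
      rw [← hn, h1]
      nlinarith [show 2 ≤ Nat.card V by omega]
    have hX6 : (Nat.card (G ⧸ V)).Coprime 6 :=
      Nat.Coprime.coprime_dvd_left (Subgroup.card_quotient_dvd_card _) hG6
    have hfix' : ∀ q : G ⧸ V, (∀ g : S3, g • q = q) → q = 1 := by
      intro q hq
      obtain ⟨a, rfl⟩ := QuotientGroup.mk_surjective q
      have hmem : ∀ g : S3, a⁻¹ * (g • a) ∈ V := fun g => by
        have := hq g
        rw [hqa] at this
        exact QuotientGroup.eq.1 this.symm
      obtain ⟨z, hz1, hz2, hz3⟩ := lift_fixed hG6 V (hVinv sa) (hVinv sb) a (hmem sa) (hmem sb)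
      have hz : z = 1 := hfix z (fixed_of_sa_inv inv3_sb hz2 hz3)
      rw [hz, mul_one] at hz1
      refine (QuotientGroup.eq_one_iff _).2 ?_
      simpa using V.inv_mem hz1
    haveI hnil : Group.IsNilpotent ↥(commutator (G ⧸ V)) := ih _ hlt (G ⧸ V) rfl hX6 hfix'
    -- the map to the quotient
    have hmap : ∀ h : commutator G, (QuotientGroup.mk' V) h.1 ∈ commutator (G ⧸ V) := by
      have hle : commutator G ≤ (commutator (G ⧸ V)).comap (QuotientGroup.mk' V) := by
        rw [commutator_def, Subgroup.commutator_le]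
        intro a _ b _
        show (QuotientGroup.mk' V) ⁅a, b⁆ ∈ commutator (G ⧸ V)
        rw [map_commutatorElement]
        exact Subgroup.commutator_mem_commutator (Subgroup.mem_top _) (Subgroup.mem_top _)
      exact fun h => hle h.2
    let f : commutator G →* commutator (G ⧸ V) :=
      ((QuotientGroup.mk' V).comp (commutator G).subtype).codRestrict _ hmap
    refine Subgroup.isNilpotent_of_ker_le_center f ?_
    intro h hh
    rw [Subgroup.mem_center_iff]
    intro k
    have h1 : (QuotientGroup.mk' V) h.1 = 1 := by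
      have := congrArg Subtype.val hh
      exact this
    have h2 : h.1 ∈ V := (QuotientGroup.eq_one_iff _).1 h1
    have h3 := step hG6 hfix V hVinv hVne hVmin k.1 k.2 h.1 h2
    apply Subtype.ext
    show k.1 * h.1 = h.1 * k.1
    calc k.1 * h.1 = (k.1 * h.1 * k.1⁻¹) * k.1 := by group
      _ = h.1 * k.1 := by rw [h3]

/-- Let the symmetric group of degree 3 act by automorphisms on a finite solvable group `G` of order prime to 6, so that only the identity of `G` is fixed by all of it. Then the derived subgroup of `G` is nilpotent. -/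
theorem result {G : Type*} [Group G] [Finite G] [Group.IsSolvable G]
    [MulDistribMulAction (Equiv.Perm (Fin 3)) G] (hcop : (Nat.card G).Coprime 6)
    (hfpf : ∀ g : G, (∀ a : Equiv.Perm (Fin 3), a • g = g) → g = 1) :
    Group.IsNilpotent ↥(commutator G) := by

  exact main _ G rfl hcop hfpf

end Cfsg.Agent.S4305
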