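import Mathlib
import Cfsg.Statements.S4306
import Cfsg.Agent.Lib.PQTop
import Cfsg.Agent.Lib.PQLC

set_option autoImplicit false

open Cfsg

namespace Cfsg.Agent.S4306

/-- Let `A` be a non-abelian group of order `pq` with `p, q` distinct primes, acting by automorphisms on a finite solvable group `G` of order prime to `pq`, so that only the identity of `G` is fixed by all of `A`. Then `G` has Fitting height at most 2: there is a normal nilpotent subgroup `F` of `G` with `G/F` nilpotent. -/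
theorem result {G A : Type*} [Group G] [Finite G]
    [Group.IsSolvable G] [Group A] [Finite A] [MulDistribMulAction A G] (p q : ℕ) (hp : p.Prime) (hq : q.Prime) (hpq : p ≠ q)
    (hA : Nat.card A = p * q) (hAna : ¬ IsMulCommutative A) (hcop : (Nat.card G).Coprime (p * q))
    (hfpf : ∀ g : G, (∀ a : A, a • g = g) → g = 1) :
    ∃ F : Subgroup G, ∃ hF : F.Normal, Group.IsNilpotent ↥F ∧ Group.IsNilpotent (G ⧸ F) := by
  classical
  obtain ⟨P, Q, a, hstr, hPQ⟩ := Cfsg.Agent.Lib.PQA.exists_str hp hq hpq hA hAna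
  letI : Fintype A := Fintype.ofFinite A
  rw [← hPQ] at hcop
  have hLC : Cfsg.Agent.Lib.PQTop.LCHyp A P Q :=
    fun X _ _ _ h1 h2 K _ _ U _ _ h0 ρ hρ σ hσ hsum _ _ ht hr htr htK S hSn hSt hSA Y hYr hYA =>
      Cfsg.Agent.Lib.PQLC.LC hstr h1 h2 h0 ρ hρ σ hσ hsum ht hr htr htK S hSn hSt hSA Y hYr hYA
  exact Cfsg.Agent.Lib.PQTop.main hstr hLC _ G rfl hcop hfpf

end Cfsg.Agent.S4306
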