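import Mathlib
import Cfsg.Statements.S4309
import Cfsg.Agent.Lib.SylowNum
-- import your own Cfsg.Agent.* helpers here

set_option autoImplicit false
open Cfsg

namespace Cfsg.Agent.S4309


/-- Let `π` be a set of primes, `G` a finite group with a Hall `π`-subgroup `H` (every prime divisor of the order of `H` lies in `π` and no prime of `π` divides its index), and `A` a normal subgroup of `G`. Then `H ∩ A` is a Hall `π`-subgroup of `A` and the image of `H` in `G/A` is a Hall `π`-subgroup of `G/A`. -/
theorem result {G : Type*} [Group G] [Finite G] (π : Set ℕ)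
    (H A : Subgroup G) [A.Normal] (hH : Cfsg.IsPiHall π H) :
    Cfsg.IsPiHall π ((H ⊓ A).subgroupOf A) ∧ Cfsg.IsPiHall π (H.map (QuotientGroup.mk' A)) := by
  obtain ⟨h1, h2⟩ := hH
  constructor
  · constructor
    · intro q hq hd
      apply h1 q hq
      have hcard : Nat.card ((H ⊓ A).subgroupOf A) = Nat.card (H ⊓ A : Subgroup G) :=
        Nat.card_congr (Subgroup.subgroupOfEquivOfLe (G := G) (H := H ⊓ A) (K := A) inf_le_right).toEquiv
      rw [hcard] at hd
      exact dvd_trans hd (Subgroup.card_dvd_of_le inf_le_left)
    · intro q hq hqπ hd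
      apply h2 q hq hqπ
      have : ((H ⊓ A).subgroupOf A).index = H.relIndex A := by
        show (H ⊓ A).relIndex A = _
        exact Subgroup.inf_relIndex_right H A
      rw [this] at hd
      exact dvd_trans hd (Cfsg.Agent.Lib.SylowNum.relIndex_normal_dvd_index H A)
  · constructor
    · intro q hq hd
      apply h1 q hq
      exact dvd_trans hd (H.card_map_dvd (QuotientGroup.mk' A))
    · intro q hq hqπ hd
      apply h2 q hq hqπ
      exact dvd_trans hd (H.index_map_dvd (QuotientGroup.mk'_surjective A))

end Cfsg.Agent.S4309
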