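import Mathlib
import Cfsg.Statements.S4314
-- import your own Cfsg.Agent.* helpers here

set_option autoImplicit false
open Cfsg

namespace Cfsg.Agent.S4314


universe u

/-- Hypothesis on class sizes. -/
def Hyp (G : Type u) [Group G] : Prop :=
  ∀ x : G, (Subgroup.centralizer ({x} : Set G)).index = 1 ∨
    ((Subgroup.centralizer ({x} : Set G)).index).Prime

section basic

variable {G : Type u} [Group G]

theorem mem_C {x g : G} : g ∈ Subgroup.centralizer ({x} : Set G) ↔ g * x = x * g :=
  Subgroup.mem_centralizer_singleton_iff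

theorem C_eq_top_iff {x : G} : Subgroup.centralizer ({x} : Set G) = ⊤ ↔ x ∈ Subgroup.center G := by
  rw [Subgroup.mem_center_iff, eq_top_iff]
  constructor
  · intro h g
    exact mem_C.mp (h (Subgroup.mem_top g))
  · intro h g _
    exact mem_C.mpr (h g)

theorem isCoatom_of_prime_index [Finite G] (H : Subgroup G) (h : H.index.Prime) : IsCoatom H := by
  constructor
  · intro htop
    rw [htop, Subgroup.index_top] at h
    exact Nat.not_prime_one h
  · intro K hK
    have h1 : H.relIndex K * K.index = H.index := Subgroup.relIndex_mul_index hK.le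
    have h2 : K.index ∣ H.index := Subgroup.index_dvd_of_le hK.le
    rcases (Nat.dvd_prime h).mp h2 with h3 | h3
    · exact Subgroup.index_eq_one.mp h3
    · exfalso
      rw [h3] at h1
      have h4 : H.relIndex K = 1 := by
        have := h.pos
        exact Nat.eq_of_mul_eq_mul_right this (by rw [h1, one_mul])
      exact hK.not_ge (Subgroup.relIndex_eq_one.mp h4)

theorem coatom_C [Finite G] (hH : Hyp G) {x : G} (hx : x ∉ Subgroup.center G) :
    IsCoatom (Subgroup.centralizer ({x} : Set G)) := by
  rcases hH x with h | h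
  · exact absurd (C_eq_top_iff.mp (Subgroup.index_eq_one.mp h)) hx
  · exact isCoatom_of_prime_index _ h

theorem C_eq_of_le [Finite G] (hH : Hyp G) {x y : G} (hx : x ∉ Subgroup.center G)
    (hy : y ∉ Subgroup.center G)
    (h : Subgroup.centralizer ({x} : Set G) ≤ Subgroup.centralizer ({y} : Set G)) :
    Subgroup.centralizer ({x} : Set G) = Subgroup.centralizer ({y} : Set G) := by
  rcases (coatom_C hH hx).le_iff.mp h with h1 | h1
  · exact absurd (C_eq_top_iff.mp h1) hy
  · exact h1.symm

theorem C_pow_le (x : G) (k : ℕ) :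
    Subgroup.centralizer ({x} : Set G) ≤ Subgroup.centralizer ({x ^ k} : Set G) := by
  intro g hg
  rw [mem_C] at hg ⊢
  exact (Commute.pow_right hg k)

theorem exists_pow_eq_left {u v : G} (hc : Commute u v) (h : Nat.Coprime (orderOf u) (orderOf v)) :
    ∃ k : ℕ, (u * v) ^ k = u := by
  obtain ⟨k, hk1, hk2⟩ := Nat.chineseRemainder h 1 0
  refine ⟨k, ?_⟩
  rw [hc.mul_pow]
  have h1 : u ^ k = u ^ 1 := pow_eq_pow_iff_modEq.mpr hk1
  have h2 : v ^ k = v ^ 0 := pow_eq_pow_iff_modEq.mpr hk2
  rw [h1, h2, pow_one, pow_zero, mul_one]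

end basic

section centerfree

variable {G : Type u} [Group G] [Finite G]

theorem not_mem_center (hZ : Subgroup.center G = ⊥) {x : G} (hx : x ≠ 1) :
    x ∉ Subgroup.center G := by
  rw [hZ, Subgroup.mem_bot]
  exact hx

theorem C_eq_of_coprime (hH : Hyp G) (hZ : Subgroup.center G = ⊥) {u v : G} (hu : u ≠ 1) (hv : v ≠ 1)
    (hc : Commute u v) (h : Nat.Coprime (orderOf u) (orderOf v)) :
    Subgroup.centralizer ({u} : Set G) = Subgroup.centralizer ({v} : Set G) := by
  obtain ⟨k, hk⟩ := exists_pow_eq_left hc h
  obtain ⟨l, hl⟩ := exists_pow_eq_left hc.symm h.symm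
  have hw : u * v ≠ 1 := by
    intro h0
    rw [← hk, h0, one_pow] at hu
    exact hu rfl
  have h1 : Subgroup.centralizer ({u * v} : Set G) ≤ Subgroup.centralizer ({u} : Set G) := by
    have := C_pow_le (u * v) k
    rwa [hk] at this
  have h2 : Subgroup.centralizer ({u * v} : Set G) ≤ Subgroup.centralizer ({v} : Set G) := by
    have hl' : (u * v) ^ l = v := by
      rw [hc.eq]
      exact hl
    have := C_pow_le (u * v) l
    rwa [hl'] at this
  have h3 := C_eq_of_le hH (not_mem_center hZ hw) (not_mem_center hZ hu) h1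
  have h4 := C_eq_of_le hH (not_mem_center hZ hw) (not_mem_center hZ hv) h2
  rw [← h3, h4]

/-- Elements non-central in `C x` are `s`-elements, `x` of prime order `s`. -/
theorem pow_eq_one_of_not_central (hH : Hyp G) (hZ : Subgroup.center G = ⊥) {x : G} {s : ℕ}
    (hs : s.Prime) (hxs : orderOf x = s) {w b : G} (hw : w ∈ Subgroup.centralizer ({x} : Set G))
    (hb : b ∈ Subgroup.centralizer ({x} : Set G)) (hwb : w * b ≠ b * w) :
    ∃ k : ℕ, w ^ s ^ k = 1 := by
  have hn : orderOf w ≠ 0 := (orderOf_pos w).ne'
  obtain ⟨k, m, hm, hmeq⟩ := Nat.exists_eq_pow_mul_and_not_dvd hn s hs.ne_one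
  refine ⟨k, ?_⟩
  by_contra hne
  set w' := w ^ s ^ k with hw'
  have hw'm : orderOf w' ∣ m := by
    apply orderOf_dvd_of_pow_eq_one
    rw [hw', ← pow_mul, ← hmeq, pow_orderOf_eq_one]
  have hx1 : x ≠ 1 := by
    intro h
    rw [h, orderOf_one] at hxs
    exact hs.ne_one hxs.symm
  have hcomm : Commute x w' := by
    have : Commute w x := mem_C.mp hw
    exact (this.pow_left _).symm
  have hcop : Nat.Coprime (orderOf x) (orderOf w') := by
    rw [hxs]
    exact Nat.Coprime.coprime_dvd_right hw'm ((Nat.Prime.coprime_iff_not_dvd hs).mpr hm)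
  have h1 := C_eq_of_coprime hH hZ hx1 hne hcomm hcop
  have h2 : Subgroup.centralizer ({w} : Set G) = Subgroup.centralizer ({w'} : Set G) := by
    have hw1 : w ≠ 1 := by
      intro h
      apply hne
      rw [hw', h, one_pow]
    exact C_eq_of_le hH (not_mem_center hZ hw1) (not_mem_center hZ hne) (C_pow_le w _)
  have hb' : b ∈ Subgroup.centralizer ({w} : Set G) := by
    rw [h2, ← h1]
    exact hb
  exact hwb (mem_C.mp hb').symm

/-- If `C x` is non-abelian with `x` of prime order `s`, it is an `s`-group. -/
theorem card_eq_pow_of_nonabelian (hH : Hyp G) (hZ : Subgroup.center G = ⊥) {x : G} {s : ℕ}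
    (hs : s.Prime) (hxs : orderOf x = s) {a b : G} (ha : a ∈ Subgroup.centralizer ({x} : Set G))
    (hb : b ∈ Subgroup.centralizer ({x} : Set G)) (hab : a * b ≠ b * a) :
    ∃ k : ℕ, Nat.card (Subgroup.centralizer ({x} : Set G)) = s ^ k := by
  refine ⟨_, Nat.eq_prime_pow_of_unique_prime_dvd Nat.card_pos.ne' ?_⟩
  intro t ht hdvd
  by_contra hts
  have : Fact t.Prime := ⟨ht⟩
  obtain ⟨⟨y, hy⟩, hyo⟩ := exists_prime_orderOf_dvd_card' t hdvd
  have hyo' : orderOf y = t := by
    rw [← hyo]
    exact (Subgroup.orderOf_mk y hy).symm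
  have hx1 : x ≠ 1 := by
    intro h
    rw [h, orderOf_one] at hxs
    exact hs.ne_one hxs.symm
  have hy1 : y ≠ 1 := by
    intro h
    rw [h, orderOf_one] at hyo'
    exact ht.ne_one hyo'.symm
  have hcomm : Commute x y := (mem_C.mp hy).symm
  have hcop : Nat.Coprime (orderOf x) (orderOf y) := by
    rw [hxs, hyo']
    exact (Nat.coprime_primes hs ht).mpr (Ne.symm hts)
  have h1 := C_eq_of_coprime hH hZ hx1 hy1 hcomm hcop
  obtain ⟨k, hk⟩ := pow_eq_one_of_not_central hH hZ hs hxs ha hb hab
  obtain ⟨l, hl⟩ := pow_eq_one_of_not_central hH hZ ht hyo' (h1 ▸ ha) (h1 ▸ hb) hab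
  have h2 : orderOf a ∣ s ^ k := orderOf_dvd_of_pow_eq_one hk
  have h3 : orderOf a ∣ t ^ l := orderOf_dvd_of_pow_eq_one hl
  have h4 : Nat.Coprime (s ^ k) (t ^ l) :=
    Nat.Coprime.pow _ _ ((Nat.coprime_primes hs ht).mpr (Ne.symm hts))
  have h5 : orderOf a = 1 := Nat.eq_one_of_dvd_coprimes h4 h2 h3
  rw [orderOf_eq_one_iff] at h5
  apply hab
  rw [h5, one_mul, mul_one]

/-- The centre-free case. -/
theorem centerfree_main [Nontrivial G] (hH : Hyp G) (hZ : Subgroup.center G = ⊥) :
    ∃ p q : ℕ, p.Prime ∧ q.Prime ∧ p ≠ q ∧ Nat.card G = p * q := by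
  have hprime : ∀ {x : G}, x ≠ 1 → (Subgroup.centralizer ({x} : Set G)).index.Prime := by
    intro x hx
    refine (hH x).resolve_left fun h => not_mem_center hZ hx ?_
    exact C_eq_top_iff.mp (Subgroup.index_eq_one.mp h)
  by_cases hab : ∃ x : G, x ≠ 1 ∧ ∀ a ∈ Subgroup.centralizer ({x} : Set G),
      ∀ b ∈ Subgroup.centralizer ({x} : Set G), a * b = b * a
  · obtain ⟨x, hx, hab⟩ := hab
    set M := Subgroup.centralizer ({x} : Set G) with hM
    have hr : M.index.Prime := hprime hx
    set r := M.index with hrdef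
    have : Fact r.Prime := ⟨hr⟩
    have hrdvd : r ∣ Nat.card G := Subgroup.index_dvd_card M
    let R : Sylow r G := default
    have hRcard : r ∣ Nat.card R := by
      have := R.pow_dvd_card_of_pow_dvd_card (n := 1) (by simpa using hrdvd)
      simpa using this
    have hRnt : Nontrivial R := by
      rw [← Finite.one_lt_card_iff_nontrivial]
      exact lt_of_lt_of_le hr.one_lt (Nat.le_of_dvd Nat.card_pos hRcard)
    have hcn := R.isPGroup'.center_nontrivial
    obtain ⟨⟨⟨z, hzR⟩, hzc⟩, hz1⟩ := exists_ne (1 : Subgroup.center (R : Subgroup G))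
    have hz : z ≠ 1 := by
      intro h
      apply hz1
      apply Subtype.ext
      apply Subtype.ext
      exact h
    have hRz : (R : Subgroup G) ≤ Subgroup.centralizer ({z} : Set G) := by
      intro y hy
      rw [mem_C]
      have := (Subgroup.mem_center_iff.mp hzc) ⟨y, hy⟩
      exact congrArg Subtype.val this
    have hl := hprime hz
    have hnd : ¬ r ∣ (Subgroup.centralizer ({z} : Set G)).index := fun h =>
      R.not_dvd_index (h.trans (Subgroup.index_dvd_of_le hRz))
    have hle_abel : ∀ {y : G}, y ≠ 1 → y ∈ M → Subgroup.centralizer ({y} : Set G) = M := by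
      intro y hy hyM
      symm
      apply C_eq_of_le hH (not_mem_center hZ hx) (not_mem_center hZ hy)
      intro g hg
      rw [mem_C]
      exact hab g hg y hyM
    have hzM : z ∉ M := by
      intro h
      apply hnd
      rw [hle_abel hz h]
    have hdisj : ∀ y ∈ Subgroup.centralizer ({z} : Set G), y ∈ M → y = 1 := by
      intro y hyz hyM
      by_contra hy
      have h1 := hle_abel hy hyM
      apply hzM
      rw [← h1, mem_C]
      exact (mem_C.mp hyz).symm
    have hle : Nat.card (Subgroup.centralizer ({z} : Set G)) ≤ r := by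
      rw [hrdef, Subgroup.index_eq_card]
      let ι : Subgroup.centralizer ({z} : Set G) → G ⧸ M := fun y => QuotientGroup.mk (y : G)
      apply Nat.card_le_card_of_injective ι
      intro a b hab'
      have h1 : (a : G)⁻¹ * b ∈ M := QuotientGroup.eq.mp hab'
      have h2 : (a : G)⁻¹ * b ∈ Subgroup.centralizer ({z} : Set G) :=
        Subgroup.mul_mem _ (Subgroup.inv_mem _ a.2) b.2
      have h3 := hdisj _ h2 h1
      apply Subtype.ext
      exact inv_mul_eq_one.mp h3
    have hge : r ∣ Nat.card (Subgroup.centralizer ({z} : Set G)) :=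
      hRcard.trans (Subgroup.card_dvd_of_le hRz)
    have hcard : Nat.card (Subgroup.centralizer ({z} : Set G)) = r :=
      le_antisymm hle (Nat.le_of_dvd Nat.card_pos hge)
    refine ⟨r, _, hr, hl, ?_, ?_⟩
    · intro h
      apply hnd
      rw [← h]
    · rw [← hcard]
      exact (Subgroup.card_mul_index _).symm
  · exfalso
    push Not at hab
    obtain ⟨s, hs, hsdvd⟩ := Nat.exists_prime_and_dvd ((Finite.one_lt_card_iff_nontrivial (α := G)).mpr inferInstance).ne'
    have : Fact s.Prime := ⟨hs⟩
    obtain ⟨x, hxs⟩ := exists_prime_orderOf_dvd_card' s hsdvd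
    have hx1 : x ≠ 1 := by
      intro h
      rw [h, orderOf_one] at hxs
      exact hs.ne_one hxs.symm
    obtain ⟨a, ha, b, hb, hab1⟩ := hab x hx1
    obtain ⟨k, hk⟩ := card_eq_pow_of_nonabelian hH hZ hs hxs ha hb hab1
    have hr := hprime hx1
    set r := (Subgroup.centralizer ({x} : Set G)).index with hrdef
    have hcardG : s ^ k * r = Nat.card G := by
      rw [← hk]
      exact Subgroup.card_mul_index _
    have hrs : r ≠ s := by
      intro h
      have hp : IsPGroup s G := by
        apply IsPGroup.of_card (n := k + 1)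
        rw [← hcardG, h, pow_succ]
      have hcn := hp.center_nontrivial
      rw [hZ] at hcn
      exact not_nontrivial _ hcn
    have : Fact r.Prime := ⟨hr⟩
    have hrdvd : r ∣ Nat.card G := Subgroup.index_dvd_card _
    obtain ⟨y, hyo⟩ := exists_prime_orderOf_dvd_card' r hrdvd
    have hy1 : y ≠ 1 := by
      intro h
      rw [h, orderOf_one] at hyo
      exact hr.ne_one hyo.symm
    obtain ⟨a', ha', b', hb', hab2⟩ := hab y hy1
    obtain ⟨l, hl⟩ := card_eq_pow_of_nonabelian hH hZ hr hyo ha' hb' hab2
    have hdvd : r ^ l ∣ s ^ k * r := by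
      rw [← hl, hcardG]
      exact Subgroup.card_subgroup_dvd_card _
    have hcop : Nat.Coprime (r ^ l) (s ^ k) :=
      Nat.Coprime.pow _ _ ((Nat.coprime_primes hr hs).mpr hrs)
    have hdvd2 : r ^ l ∣ r := hcop.dvd_of_dvd_mul_left hdvd
    have hdvd3 : Nat.card (Subgroup.centralizer ({y} : Set G)) ∣ r := by
      rwa [hl]
    have hyin : y ∈ Subgroup.centralizer ({y} : Set G) := by
      rw [mem_C]
    have hrc : r ∣ Nat.card (Subgroup.centralizer ({y} : Set G)) := by
      have h1 : orderOf (⟨y, hyin⟩ : Subgroup.centralizer ({y} : Set G)) = r := by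
        rw [Subgroup.orderOf_mk, hyo]
      rw [← h1]
      exact orderOf_dvd_natCard _
    have hcard : Nat.card (Subgroup.centralizer ({y} : Set G)) = r := Nat.dvd_antisymm hdvd3 hrc
    have hcyc : IsCyclic (Subgroup.centralizer ({y} : Set G)) := isCyclic_of_prime_card hcard
    obtain ⟨g, hg⟩ := hcyc.exists_generator
    obtain ⟨i, hi⟩ := Subgroup.mem_zpowers_iff.mp (hg ⟨a', ha'⟩)
    obtain ⟨j, hj⟩ := Subgroup.mem_zpowers_iff.mp (hg ⟨b', hb'⟩)
    apply hab2
    have h1 : a' = ((g ^ i : Subgroup.centralizer ({y} : Set G)) : G) := by rw [hi]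
    have h2 : b' = ((g ^ j : Subgroup.centralizer ({y} : Set G)) : G) := by rw [hj]
    rw [h1, h2, ← Subgroup.coe_mul, ← Subgroup.coe_mul, ← zpow_add, ← zpow_add, add_comm]

end centerfree

section nilpotent

variable {G : Type u} [Group G] [Finite G]

/-- Nilpotent case: class at most two. -/
theorem nilpotent_case (hH : Hyp G) (hn : Group.IsNilpotent G) :
    Subgroup.upperCentralSeries G 2 = ⊤ := by
  rw [eq_top_iff]
  intro x _
  rw [show (2 : ℕ) = 1 + 1 from rfl, Subgroup.mem_upperCentralSeries_succ_iff,
    Subgroup.upperCentralSeries_one]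
  intro y
  rw [commutatorElement_def]
  by_cases hx : x ∈ Subgroup.center G
  · have : x * y * x⁻¹ * y⁻¹ = 1 := by
      rw [← Subgroup.mem_center_iff.mp hx y]
      group
    rw [this]
    exact Subgroup.one_mem _
  by_cases hy : y ∈ Subgroup.center G
  · have : x * y * x⁻¹ * y⁻¹ = 1 := by
      rw [Subgroup.mem_center_iff.mp hy x]
      group
    rw [this]
    exact Subgroup.one_mem _
  have hnorm : ∀ H : Subgroup G, IsCoatom H → H.Normal := by
    have := (Group.isNilpotent_of_finite_tfae (G := G)).out 0 2
    exact this.mp hn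
  have hcx := coatom_C hH hx
  have hcy := coatom_C hH hy
  have hnx := hnorm _ hcx
  have hny := hnorm _ hcy
  by_cases hxy : y ∈ Subgroup.centralizer ({x} : Set G)
  · have : x * y * x⁻¹ * y⁻¹ = 1 := by
      rw [← mem_C.mp hxy]
      group
    rw [this]
    exact Subgroup.one_mem _
  have hsup : Subgroup.centralizer ({x} : Set G) ⊔ Subgroup.centralizer ({y} : Set G) = ⊤ := by
    apply hcx.2
    refine lt_of_le_of_ne le_sup_left fun h => hxy ?_
    rw [h]
    exact Subgroup.mem_sup_right (by rw [mem_C])
  rw [← C_eq_top_iff, eq_top_iff, ← hsup]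
  refine sup_le ?_ ?_
  · intro c hc
    rw [mem_C]
    have h1 : Commute c x := mem_C.mp hc
    have h2 : y⁻¹ * c * y ∈ Subgroup.centralizer ({x} : Set G) := by
      have := hnx.conj_mem c hc y⁻¹
      simpa using this
    have h3 : Commute (y⁻¹ * c * y) x := mem_C.mp h2
    have h4 : Commute c (y * x * y⁻¹) := by
      show c * (y * x * y⁻¹) = y * x * y⁻¹ * c
      have h5 := h3.eq
      calc c * (y * x * y⁻¹) = y * ((y⁻¹ * c * y) * x) * y⁻¹ := by group
        _ = y * (x * (y⁻¹ * c * y)) * y⁻¹ := by rw [h5]
        _ = y * x * y⁻¹ * c := by group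
    have h6 : x * y * x⁻¹ * y⁻¹ = x * (y * x * y⁻¹)⁻¹ := by group
    rw [h6]
    exact (h1.mul_right h4.inv_right).eq
  · intro c hc
    rw [mem_C]
    have h1 : Commute c y := mem_C.mp hc
    have h2 : x * c * x⁻¹ ∈ Subgroup.centralizer ({y} : Set G) := hny.conj_mem c hc x
    have h2' : x⁻¹ * c * x ∈ Subgroup.centralizer ({y} : Set G) := by
      have := hny.conj_mem c hc x⁻¹
      simpa using this
    have h3 : Commute (x⁻¹ * c * x) y := mem_C.mp h2'
    have h4 : Commute c (x * y * x⁻¹) := by
      show c * (x * y * x⁻¹) = x * y * x⁻¹ * c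
      have h5 := h3.eq
      calc c * (x * y * x⁻¹) = x * ((x⁻¹ * c * x) * y) * x⁻¹ := by group
        _ = x * (y * (x⁻¹ * c * x)) * x⁻¹ := by rw [h5]
        _ = x * y * x⁻¹ * c := by group
    exact (h4.mul_right h1.inv_right).eq

end nilpotent

section quotient

variable {G : Type u} [Group G] [Finite G]

/-- The hypothesis passes to homomorphic images. -/
theorem hyp_of_surjective {Q : Type u} [Group Q] [Finite Q] (hH : Hyp G) (f : G →* Q)
    (hf : Function.Surjective f) : Hyp Q := by
  intro y
  obtain ⟨x, rfl⟩ := hf y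
  have h1 : (Subgroup.centralizer ({x} : Set G)).map f ≤ Subgroup.centralizer ({f x} : Set Q) := by
    rintro _ ⟨g, hg, rfl⟩
    rw [mem_C, ← map_mul, mem_C.mp hg, map_mul]
  have h2 : (Subgroup.centralizer ({f x} : Set Q)).index ∣ (Subgroup.centralizer ({x} : Set G)).index :=
    (Subgroup.index_dvd_of_le h1).trans (Subgroup.index_map_dvd _ hf)
  rcases hH x with h | h
  · left
    rw [h] at h2
    exact Nat.dvd_one.mp h2
  · rcases (Nat.dvd_prime h).mp h2 with h3 | h3
    · exact Or.inl h3
    · exact Or.inr (h3 ▸ h)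

/-- Kernels of maps onto centre-free nontrivial groups are central. -/
theorem ker_le_center {Q : Type u} [Group Q] [Nontrivial Q] (hH : Hyp G) (f : G →* Q)
    (hf : Function.Surjective f) (hQ : Subgroup.center Q = ⊥) : f.ker ≤ Subgroup.center G := by
  have key : ∀ x : G, f x ≠ 1 → ∀ l ∈ f.ker, Commute l x := by
    intro x hx l hl
    have hxc : x ∉ Subgroup.center G := by
      intro h
      apply hx
      have : f x ∈ Subgroup.center Q := by
        rw [Subgroup.mem_center_iff]
        intro y
        obtain ⟨g, rfl⟩ := hf y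
        rw [← map_mul, ← map_mul, (Subgroup.mem_center_iff.mp h g)]
      rw [hQ] at this
      exact Subgroup.mem_bot.mp this
    have hD : Subgroup.centralizer ({x} : Set G) ≤ (Subgroup.centralizer ({f x} : Set Q)).comap f := by
      intro g hg
      rw [Subgroup.mem_comap, mem_C, ← map_mul, mem_C.mp hg, map_mul]
    have hne : (Subgroup.centralizer ({f x} : Set Q)).comap f ≠ ⊤ := by
      intro h
      have : f x ∈ Subgroup.center Q := by
        rw [← C_eq_top_iff, eq_top_iff]
        intro y _
        obtain ⟨g, rfl⟩ := hf y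
        have : g ∈ (Subgroup.centralizer ({f x} : Set Q)).comap f := by rw [h]; trivial
        exact this
      rw [hQ] at this
      exact hx (Subgroup.mem_bot.mp this)
    rcases (coatom_C hH hxc).le_iff.mp hD with h1 | h1
    · exact absurd h1 hne
    · have : l ∈ (Subgroup.centralizer ({f x} : Set Q)).comap f := by
        rw [Subgroup.mem_comap, (MonoidHom.mem_ker).mp hl, mem_C, one_mul, mul_one]
      rw [h1] at this
      exact mem_C.mp this
  intro l hl
  rw [Subgroup.mem_center_iff]
  intro g
  by_cases hg : f g = 1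
  · obtain ⟨q, hq⟩ := exists_ne (1 : Q)
    obtain ⟨x, rfl⟩ := hf q
    have h1 := key x hq l hl
    have h2 : f (g * x) ≠ 1 := by
      rw [map_mul, hg, one_mul]
      exact hq
    have h3 := key (g * x) h2 l hl
    have h4 : Commute l g := by
      have h5 := h3.eq
      have h6 := h1.eq
      show l * g = g * l
      have : l * g * x = g * l * x := by
        rw [mul_assoc, h5, mul_assoc, mul_assoc, h6]
      exact mul_right_cancel this
    exact h4.eq.symm
  · exact (key g hg l hl).eq.symm

/-- The centre of a non-abelian group of order `pq` is trivial. -/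
theorem center_eq_bot_of_card {Q : Type u} [Group Q] [Finite Q] {p q : ℕ} (hp : p.Prime) (hq : q.Prime)
    (hcard : Nat.card Q = p * q) (hnc : ¬ IsMulCommutative Q) : Subgroup.center Q = ⊥ := by
  by_contra hne
  apply hnc
  have hcyc : IsCyclic (Q ⧸ Subgroup.center Q) := by
    have h1 : Nat.card (Q ⧸ Subgroup.center Q) * Nat.card (Subgroup.center Q) = p * q := by
      rw [← hcard]
      exact (Subgroup.card_eq_card_quotient_mul_card_subgroup _).symm.trans (by rfl)
    have h2 : Nat.card (Subgroup.center Q) ≠ 1 := by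
      intro h
      exact hne ((Subgroup.card_eq_one).mp h)
    obtain ⟨r, hr, hrc⟩ := Nat.exists_prime_and_dvd h2
    have hrpq : r ∣ p * q := by
      rw [← h1]
      exact Dvd.dvd.mul_left hrc _
    have hdvd : Nat.card (Q ⧸ Subgroup.center Q) ∣ p ∨ Nat.card (Q ⧸ Subgroup.center Q) ∣ q := by
      rcases (Nat.Prime.dvd_mul hr).mp hrpq with h3 | h3
      · have h4 : r = p := (Nat.prime_dvd_prime_iff_eq hr hp).mp h3
        subst h4
        right
        have h5 : Nat.card (Q ⧸ Subgroup.center Q) * r ∣ r * q := by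
          rw [← h1]
          exact Nat.mul_dvd_mul_left _ hrc
        rw [mul_comm] at h5
        exact Nat.dvd_of_mul_dvd_mul_left hr.pos h5
      · have h4 : r = q := (Nat.prime_dvd_prime_iff_eq hr hq).mp h3
        subst h4
        left
        have h5 : Nat.card (Q ⧸ Subgroup.center Q) * r ∣ p * r := by
          rw [← h1]
          exact Nat.mul_dvd_mul_left _ hrc
        exact Nat.dvd_of_mul_dvd_mul_right hr.pos h5
    have hcases : Nat.card (Q ⧸ Subgroup.center Q) = 1 ∨ (Nat.card (Q ⧸ Subgroup.center Q)).Prime := by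
      rcases hdvd with h | h
      · rcases (Nat.dvd_prime hp).mp h with h3 | h3
        · exact Or.inl h3
        · exact Or.inr (h3 ▸ hp)
      · rcases (Nat.dvd_prime hq).mp h with h3 | h3
        · exact Or.inl h3
        · exact Or.inr (h3 ▸ hq)
    rcases hcases with h | h
    · have : Subsingleton (Q ⧸ Subgroup.center Q) := (Nat.card_eq_one_iff_unique.mp h).1
      infer_instance
    · have : Fact (Nat.card (Q ⧸ Subgroup.center Q)).Prime := ⟨h⟩
      exact isCyclic_of_prime_card rfl
  exact ⟨⟨commutative_of_cyclic_center_quotient (QuotientGroup.mk' (Subgroup.center Q))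
    (by rw [QuotientGroup.ker_mk'])⟩⟩

theorem card_quot_center_of_bot {Q : Type u} [Group Q] [Finite Q] (h : Subgroup.center Q = ⊥) :
    Nat.card (Q ⧸ Subgroup.center Q) = Nat.card Q := by
  rw [← Subgroup.index_eq_card, h, Subgroup.index_bot]

/-- The induction. -/
theorem main_ind (n : ℕ) : ∀ (G : Type u) [Group G] [Finite G], Nat.card G = n → Hyp G →
    Group.IsNilpotent G ∨ ∃ p q : ℕ, p.Prime ∧ q.Prime ∧ p ≠ q ∧
      Nat.card (G ⧸ Subgroup.center G) = p * q ∧ ¬ IsMulCommutative (G ⧸ Subgroup.center G) := by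
  induction n using Nat.strong_induction_on with
  | _ n ih =>
    intro G _ _ hn hH
    by_cases hZ : Subgroup.center G = ⊥
    · rcases subsingleton_or_nontrivial G with hs | hnt
      · left
        infer_instance
      · right
        obtain ⟨p, q, hp, hq, hpq, hcard⟩ := centerfree_main hH hZ
        refine ⟨p, q, hp, hq, hpq, ?_, ?_⟩
        · rw [card_quot_center_of_bot hZ, hcard]
        · intro hc
          have hcomm : ∀ a b : G, a * b = b * a := by
            intro a b
            have h1 : (QuotientGroup.mk a : G ⧸ Subgroup.center G) * QuotientGroup.mk b =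
                QuotientGroup.mk b * QuotientGroup.mk a := hc.is_comm.comm _ _
            rw [← QuotientGroup.mk_mul, ← QuotientGroup.mk_mul, QuotientGroup.eq, hZ,
              Subgroup.mem_bot] at h1
            have h2 : (a * b)⁻¹ * (b * a) = 1 := h1
            exact (inv_mul_eq_one.mp h2)
          obtain ⟨x, hx⟩ := exists_ne (1 : G)
          have : x ∈ Subgroup.center G := by
            rw [Subgroup.mem_center_iff]
            exact fun g => hcomm g x
          rw [hZ] at this
          exact hx (Subgroup.mem_bot.mp this)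
    · have hlt : Nat.card (G ⧸ Subgroup.center G) < n := by
        rw [← hn]
        have h1 := Subgroup.card_eq_card_quotient_mul_card_subgroup (Subgroup.center G)
        have h2 : 1 < Nat.card (Subgroup.center G) := by
          have : Nat.card (Subgroup.center G) ≠ 1 := fun h => hZ (Subgroup.card_eq_one.mp h)
          have h3 : 0 < Nat.card (Subgroup.center G) := Nat.card_pos
          omega
        have h4 : 0 < Nat.card (G ⧸ Subgroup.center G) := Nat.card_pos
        rw [h1]
        exact lt_mul_of_one_lt_right h4 h2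
      have hHq : Hyp (G ⧸ Subgroup.center G) :=
        hyp_of_surjective hH (QuotientGroup.mk' _) (QuotientGroup.mk'_surjective _)
      rcases ih _ hlt (G ⧸ Subgroup.center G) rfl hHq with h | ⟨p, q, hp, hq, hpq, hcard, hnc⟩
      · exact Or.inl (of_quotient_center_nilpotent h)
      · right
        have hQ := center_eq_bot_of_card hp hq hcard hnc
        have hntQ : Nontrivial ((G ⧸ Subgroup.center G) ⧸ Subgroup.center (G ⧸ Subgroup.center G)) := by
          rw [← Finite.one_lt_card_iff_nontrivial, hcard]
          exact Nat.one_lt_mul_iff.mpr ⟨hp.pos, hq.pos, Or.inl hp.one_lt⟩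
        let f : G →* (G ⧸ Subgroup.center G) ⧸ Subgroup.center (G ⧸ Subgroup.center G) :=
          (QuotientGroup.mk' _).comp (QuotientGroup.mk' _)
        have hf : Function.Surjective f :=
          (QuotientGroup.mk'_surjective _).comp (QuotientGroup.mk'_surjective _)
        have hker := ker_le_center hH f hf hQ
        have hZ2 : Subgroup.center (G ⧸ Subgroup.center G) = ⊥ := by
          rw [eq_bot_iff]
          intro zb hzb
          induction zb using QuotientGroup.induction_on with
          | H z =>
            have h1 : z ∈ f.ker := by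
              rw [MonoidHom.mem_ker]
              exact (QuotientGroup.eq_one_iff _).mpr hzb
            have h2 := hker h1
            rw [Subgroup.mem_bot]
            exact (QuotientGroup.eq_one_iff _).mpr h2
        refine ⟨p, q, hp, hq, hpq, ?_, ?_⟩
        · rw [← card_quot_center_of_bot hZ2, hcard]
        · intro hc
          apply hnc
          refine ⟨⟨?_⟩⟩
          intro a b
          induction a using QuotientGroup.induction_on with
          | H a =>
            induction b using QuotientGroup.induction_on with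
            | H b =>
              rw [← QuotientGroup.mk_mul, ← QuotientGroup.mk_mul, hc.is_comm.comm]

end quotient

/-- Let `G` be a finite group every conjugacy class of which has size 1 or a prime. Then either `G` is nilpotent of class at most 2, or `G/Z(G)` is a non-abelian group of order `pq` for distinct primes `p, q` (a Frobenius group of order `pq`). -/
theorem result {G : Type*} [Group G] [Finite G]
    (h : ∀ x : G, (Subgroup.centralizer ({x} : Set G)).index = 1 ∨ ((Subgroup.centralizer ({x} : Set G)).index).Prime) :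
    Subgroup.upperCentralSeries G 2 = ⊤ ∨
      ∃ p q : ℕ, p.Prime ∧ q.Prime ∧ p ≠ q ∧ Nat.card (G ⧸ Subgroup.center G) = p * q ∧ ¬ IsMulCommutative (G ⧸ Subgroup.center G) := by
  rcases main_ind _ G rfl h with hn | ⟨p, q, hp, hq, hpq, hcard, hnc⟩
  · exact Or.inl (nilpotent_case h hn)
  · exact Or.inr ⟨p, q, hp, hq, hpq, hcard, hnc⟩

end Cfsg.Agent.S4314
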