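import Mathlib
import Cfsg.Statements.S4316
import Cfsg.Agent.Lib.CopBdC

set_option autoImplicit false
universe u
open Cfsg

namespace Cfsg.Agent.S4316

open Subgroup Cfsg.Agent.Lib.CopBdC Cfsg.Agent.Lib.NeumannBFC SemidirectProduct

theorem card_commutator_congr {X Y : Type*} [Group X] [Group Y] (e : X ≃* Y) :
    Nat.card (_root_.commutator X) = Nat.card (_root_.commutator Y) := by
  have h : (_root_.commutator X).map e.toMonoidHom = _root_.commutator Y := by
    rw [commutator_def, commutator_def, Subgroup.map_commutator,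
      Subgroup.map_top_of_surjective _ e.surjective]
  rw [← h]
  exact (Subgroup.card_map_of_injective e.injective).symm

section

variable {A G : Type u} [Group A] [Finite A] [Group G] [Finite G] [MulDistribMulAction A G]

/-- The action as a homomorphism. -/
noncomputable abbrev phi (A G : Type u) [Group A] [Group G] [MulDistribMulAction A G] : A →* MulAut G :=
  MulDistribMulAction.toMulAut A G

theorem phi_apply (a : A) (x : G) : (phi A G a) x = a • x := rfl

instance finH : Finite (G ⋊[phi A G] A) := Finite.of_equiv _ SemidirectProduct.equivProd.symm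

theorem comm_iff (a : A) (x : G) :
    (inr a : G ⋊[phi A G] A) * inl x = inl x * inr a ↔ a • x = x := by
  have h1 : (inl (phi A G a x) : G ⋊[phi A G] A) = inr a * inl x * (inr a)⁻¹ := by
    rw [← map_inv]
    exact inl_aut _ _
  constructor
  · intro h
    have h2 : (inl (a • x) : G ⋊[phi A G] A) = inl x := by
      rw [← phi_apply, h1, h]
      group
    exact inl_injective h2
  · intro h
    have h2 : (inl x : G ⋊[phi A G] A) = inr a * inl x * (inr a)⁻¹ := by
      rw [← h1, phi_apply, h]
    calc (inr a : G ⋊[phi A G] A) * inl x = (inr a * inl x * (inr a)⁻¹) * inr a := by group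
      _ = inl x * inr a := by rw [← h2]

/-- The fixed points as an intersection with a centralizer. -/
noncomputable def fixEquiv (a : A) :
    ↥(FixedPoints.subgroup (zpowers a) G) ≃*
      ↥((inl : G →* G ⋊[phi A G] A).range ⊓
        Subgroup.centralizer ((zpowers (inr a : G ⋊[phi A G] A) : Subgroup (G ⋊[phi A G] A)) :
          Set (G ⋊[phi A G] A))) := by
  refine MulEquiv.ofBijective
    (((inl : G →* G ⋊[phi A G] A).comp (FixedPoints.subgroup (zpowers a) G).subtype).codRestrict _ ?_) ?_
  · intro x
    refine ⟨⟨x.1, rfl⟩, ?_⟩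
    have hx : a • x.1 = x.1 := x.2 ⟨a, mem_zpowers a⟩
    exact Cfsg.Agent.Lib.BrauerWielandt.mem_centralizer_zpowers.2 ((comm_iff a x.1).2 hx)
  · constructor
    · intro x y h
      have h1 := congrArg Subtype.val h
      exact Subtype.ext (inl_injective h1)
    · rintro ⟨y, ⟨x, rfl⟩, hy⟩
      have hy' := (comm_iff a x).1 (Cfsg.Agent.Lib.BrauerWielandt.mem_centralizer_zpowers.1 hy)
      have hx : x ∈ FixedPoints.subgroup (zpowers a) G := by
        rintro ⟨c, hc⟩
        have hle : zpowers a ≤ MulAction.stabilizer A x := by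
          rw [zpowers_le]
          exact hy'
        exact hle hc
      exact ⟨⟨x, hx⟩, Subtype.ext rfl⟩

end

/-- There is a function `f` of two natural-number arguments with the following property. Let `q` be a prime and `A` an elementary abelian group of order `q³` acting by automorphisms on a finite group `G` of order prime to `q`, and suppose that for every non-identity `a ∈ A` the derived subgroup of the fixed-point subgroup `C_G(a)` has order at most `m`. Then the derived subgroup of `G` has order at most `f(q, m)`. -/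
theorem result :
    ∃ f : ℕ → ℕ → ℕ, ∀ (q m : ℕ) (A G : Type u) [Group A] [Finite A] [Group G] [Finite G] [MulDistribMulAction A G],
      q.Prime → Nat.card A = q ^ 3 → (∀ a b : A, a * b = b * a) → (∀ a : A, a ^ q = 1) → ¬ q ∣ Nat.card G →
      (∀ a : A, a ≠ 1 → Nat.card ↥(commutator ↥(FixedPoints.subgroup (Subgroup.zpowers a) G)) ≤ m) →
      Nat.card ↥(commutator G) ≤ f q m := by
  refine ⟨fun q m => cardCommutatorBound (commBound
    ((((m ^ (q + 1)) ^ (q + 1)) ^ (q + 1)) ^ (((m ^ (q + 1)) ^ (q + 1)) ^ (q + 1)))), ?_⟩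
  intro q m A G _ _ _ _ _ hq hA hcomm hexp hG hm
  classical
  haveI : Fact q.Prime := ⟨hq⟩
  set T : Subgroup (G ⋊[phi A G] A) := (inl : G →* G ⋊[phi A G] A).range with hTdef
  set E : Subgroup (G ⋊[phi A G] A) := (inr : A →* G ⋊[phi A G] A).range with hEdef
  have hGT : G ≃* T := MonoidHom.ofInjective inl_injective
  have h3 : Rank3 q E := by
    refine ⟨?_, ?_, ?_⟩
    · rintro _ ⟨a, rfl⟩ _ ⟨b, rfl⟩
      rw [← map_mul, ← map_mul, hcomm]
    · rintro _ ⟨a, rfl⟩
      rw [← map_pow, hexp, map_one]
    · rw [← hA]
      exact Nat.card_congr (MonoidHom.ofInjective inr_injective).toEquiv.symm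
  have hT : ¬ q ∣ Nat.card T := by
    rw [← Nat.card_congr hGT.toEquiv]
    exact hG
  have hTn : T.Normal := by
    rw [hTdef, range_inl_eq_ker_rightHom]
    infer_instance
  have hET : E ≤ Subgroup.normalizer ((T : Subgroup (G ⋊[phi A G] A)) : Set (G ⋊[phi A G] A)) := by
    rw [Subgroup.normalizer_eq_top_iff.2 hTn]
    exact le_top
  have hm' : ∀ e ∈ E, e ≠ 1 → Nat.card (_root_.commutator
      ↥(T ⊓ Subgroup.centralizer ((zpowers e : Subgroup (G ⋊[phi A G] A)) : Set (G ⋊[phi A G] A)))) ≤ m := by
    rintro _ ⟨a, rfl⟩ he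
    have ha : a ≠ 1 := fun h => he (by rw [h, map_one])
    rw [← card_commutator_congr (fixEquiv a)]
    exact hm a ha
  have hfin := card_commutator_le h3 T hT hET hm'
  rw [card_commutator_congr hGT]
  exact hfin

end Cfsg.Agent.S4316
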