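import Mathlib
import Cfsg.Statements.S4320
import Cfsg.Agent.Lib.PITCore
-- import your own Cfsg.Agent.* helpers here

set_option autoImplicit false
open Cfsg

namespace Cfsg.Agent.S4320


open Cfsg.Agent.Lib.PITCore

set_option linter.style.haveILetI false

section transl

variable {A : Type*} [CommGroup A] {M : Type*} [AddCommGroup M]

/-- Left translation on functions. -/
def transl (A : Type*) [CommGroup A] (M : Type*) [AddCommGroup M] : A →* Module.End ℤ (A → M) where
  toFun b :=
    { toFun := fun φ q => φ (b⁻¹ * q)
      map_add' := fun _ _ => rfl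
      map_smul' := fun _ _ => rfl }
  map_one' := by
    ext φ q
    simp
  map_mul' a b := by
    ext φ q
    simp only [Module.End.mul_apply]
    show φ ((a * b)⁻¹ * q) = φ (b⁻¹ * (a⁻¹ * q))
    congr 1
    rw [mul_inv_rev, mul_assoc]

/-- The group ring acts on functions by translations. -/
@[reducible] noncomputable def translModule (A : Type*) [CommGroup A] (M : Type*) [AddCommGroup M] :
    Module (MonoidAlgebra ℤ A) (A → M) :=
  Module.compHom (A → M) (MonoidAlgebra.lift ℤ (Module.End ℤ (A → M)) A (transl A M)).toRingHom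

theorem of_smul_apply (a : A) (φ : A → M) (q : A) :
    (translModule A M).toSMul.smul (MonoidAlgebra.of ℤ A a) φ q = φ (a⁻¹ * q) := by
  show (MonoidAlgebra.lift ℤ (Module.End ℤ (A → M)) A (transl A M)) (MonoidAlgebra.of ℤ A a) φ q = _
  rw [MonoidAlgebra.lift_of]
  rfl

end transl


section main

variable {G : Type*} [Group G] [Finite G]

omit [Finite G] in
theorem mem_comm_of (x : G) (h : Abelianization.of x = 1) : x ∈ commutator G := by
  rwa [← Abelianization.ker_of, MonoidHom.mem_ker]

theorem exists_section : ∃ t : Abelianization G → G, (∀ q, Abelianization.of (t q) = q) ∧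
    ∀ (g : G) (_ : Fintype (Abelianization G))
      (pf : ∀ q, (t q)⁻¹ * (g * t ((Abelianization.of g)⁻¹ * q)) ∈ commutator G),
      MonoidHom.transfer (Abelianization.of : ↥(commutator G) →* Abelianization ↥(commutator G)) g =
        ∏ q : Abelianization G, Abelianization.of (⟨_, pf q⟩ : ↥(commutator G)) := by
  let T : (commutator G).LeftTransversal := default
  refine ⟨fun q => (T.2.leftQuotientEquiv q : G), ?_, ?_⟩
  · intro q
    exact Subgroup.IsComplement.quotientGroupMk_leftQuotientEquiv T.2 q
  · intro g inst pf
    rw [MonoidHom.transfer_def _ T g]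
    unfold Subgroup.leftTransversals.diff
    simp only
    have h : (commutator G).fintypeQuotientOfFiniteIndex = inst := Subsingleton.elim _ _
    rw [h]
    apply Finset.prod_congr rfl
    intro q _
    congr 2
    congr 1
    have hq : ∀ q' : G ⧸ commutator G, (g⁻¹ • q') = (show G ⧸ commutator G from
        ((Abelianization.of g)⁻¹ * (show Abelianization G from q') : Abelianization G)) := by
      intro q'
      induction q' using QuotientGroup.induction_on with
      | H x => rfl
    have h5 := Subgroup.smul_apply_eq_smul_apply_inv_smul g T q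
    rw [h5, hq]
    rfl

/-- The product of the geometric sums is the norm. -/
theorem prod_geom_eq_norm {A : Type*} [CommGroup A] [Fintype A] {J : Type*} [Fintype J] [DecidableEq J]
    (n : J → ℕ) (hn : ∀ i, 1 < n i) (e : A ≃* ((i : J) → Multiplicative (ZMod (n i))))
    (a : J → A) (ha : ∀ i, a i = e.symm (Pi.mulSingle i (Multiplicative.ofAdd 1))) :
    ∏ i, ∑ k ∈ Finset.range (n i), (MonoidAlgebra.of ℤ A (a i)) ^ k
      = ∑ b : A, MonoidAlgebra.of ℤ A b := by
  classical
  haveI : ∀ i, NeZero (n i) := fun i => ⟨by have := hn i; omega⟩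
  rw [Finset.prod_univ_sum]
  have hprod : ∀ x : (i : J) → ℕ, ∏ i, (MonoidAlgebra.of ℤ A (a i)) ^ (x i)
      = MonoidAlgebra.of ℤ A (e.symm fun i => Multiplicative.ofAdd ((x i : ℕ) : ZMod (n i))) := by
    intro x
    have h1 : (fun i => Multiplicative.ofAdd ((x i : ℕ) : ZMod (n i)))
        = ∏ i, Pi.mulSingle i (Multiplicative.ofAdd ((x i : ℕ) : ZMod (n i))) :=
      (Finset.univ_prod_mulSingle _).symm
    rw [h1, map_prod, map_prod]
    apply Finset.prod_congr rfl
    intro i _
    rw [← map_pow, ha, ← map_pow]
    congr 2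
    rw [← Pi.mulSingle_pow, ← ofAdd_nsmul]
    simp
  simp only [hprod]
  refine Finset.sum_bij (fun x _ => e.symm fun i => Multiplicative.ofAdd ((x i : ℕ) : ZMod (n i)))
    (fun _ _ => Finset.mem_univ _) ?_ ?_ (fun _ _ => rfl)
  · intro x hx y hy hxy
    have h2 := e.symm.injective hxy
    funext i
    have h3 := congrFun h2 i
    have h4 : ((x i : ℕ) : ZMod (n i)) = ((y i : ℕ) : ZMod (n i)) := Multiplicative.ofAdd.injective h3
    rw [Fintype.mem_piFinset] at hx hy
    have hx' := Finset.mem_range.1 (hx i)
    have hy' := Finset.mem_range.1 (hy i)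
    rw [ZMod.natCast_eq_natCast_iff'] at h4
    rwa [Nat.mod_eq_of_lt hx', Nat.mod_eq_of_lt hy'] at h4
  · intro b _
    refine ⟨fun i => (Multiplicative.toAdd (e b i)).val, ?_, ?_⟩
    · rw [Fintype.mem_piFinset]
      intro i
      exact Finset.mem_range.2 (ZMod.val_lt _)
    · apply e.injective
      rw [e.apply_symm_apply]
      funext i
      simp

end main


/-- The Principal Ideal Theorem of class field theory in its group-theoretic form: for every finite group `G`, the transfer homomorphism from `G` into the abelianization `G'/G''` of its derived subgroup `G'` is the trivial homomorphism. -/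
theorem result {G : Type*} [Group G] [Finite G] :
    MonoidHom.transfer (Abelianization.of : ↥(commutator G) →* Abelianization ↥(commutator G)) =
      (1 : G →* Abelianization ↥(commutator G)) := by
  classical
  haveI hAf : Finite (Abelianization G) :=
    Finite.of_surjective (Abelianization.of : G →* Abelianization G) (QuotientGroup.mk'_surjective _)
  haveI : Fintype (Abelianization G) := Fintype.ofFinite _
  obtain ⟨t, ht, hV⟩ := exists_section (G := G)
  letI mod := translModule (Abelianization G) (Additive (Abelianization (commutator G)))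
  have hpf : ∀ (g : G) (q : Abelianization G),
      (t q)⁻¹ * (g * t ((Abelianization.of g)⁻¹ * q)) ∈ commutator G := by
    intro g q
    apply mem_comm_of
    simp [ht]
  let D : G → (Abelianization G → Additive (Abelianization (commutator G))) := fun g q =>
    Additive.ofMul (Abelianization.of (⟨_, hpf g q⟩ : ↥(commutator G)))
  let c : G →* MonoidAlgebra ℤ (Abelianization G) :=
    (MonoidAlgebra.of ℤ (Abelianization G)).comp Abelianization.of
  have hD : ∀ x y, D (x * y) = D x + c x • D y := by
    intro x y
    funext q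
    show D (x * y) q = D x q + mod.toSMul.smul (MonoidAlgebra.of ℤ (Abelianization G) (Abelianization.of x)) (D y) q
    rw [of_smul_apply]
    have h3 : ∀ (u v w : ↥(commutator G)), u = v * w →
        (Additive.ofMul (Abelianization.of u) : Additive (Abelianization (commutator G))) =
          Additive.ofMul (Abelianization.of v) + Additive.ofMul (Abelianization.of w) := by
      rintro u v w rfl
      rw [map_mul, ofMul_mul]
    refine h3 _ _ _ (Subtype.ext ?_)
    show (t q)⁻¹ * (x * y * t ((Abelianization.of (x * y))⁻¹ * q)) =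
      (t q)⁻¹ * (x * t ((Abelianization.of x)⁻¹ * q)) *
        ((t ((Abelianization.of x)⁻¹ * q))⁻¹ * (y * t ((Abelianization.of y)⁻¹ * ((Abelianization.of x)⁻¹ * q))))
    have h1 : (Abelianization.of (x * y))⁻¹ * q =
        (Abelianization.of y)⁻¹ * ((Abelianization.of x)⁻¹ * q) := by
      rw [map_mul, mul_inv_rev, mul_assoc]
    rw [h1]
    group
  obtain ⟨J, _, n, hn, ⟨e⟩⟩ := CommGroup.equiv_prod_multiplicative_zmod_of_finite (Abelianization G)
  let a : J → Abelianization G := fun i => e.symm (Pi.mulSingle i (Multiplicative.ofAdd 1))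
  have han : ∀ i, a i ^ n i = 1 := by
    intro i
    show (e.symm (Pi.mulSingle i (Multiplicative.ofAdd 1))) ^ n i = 1
    rw [← map_pow, ← Pi.mulSingle_pow, ← ofAdd_nsmul]
    simp
  choose g₀ hg₀ using fun i => QuotientGroup.mk'_surjective (commutator G) (a i)
  have hg₀' : ∀ i, Abelianization.of (g₀ i) = a i := hg₀
  haveI : Fintype ↥(commutator G) := Fintype.ofFinite _
  let γ : J ⊕ ↥(commutator G) → G := Sum.elim g₀ (fun h => (h : G))
  have hγ : Subgroup.closure (Set.range γ) = ⊤ := by
    set S := Subgroup.closure (Set.range γ) with hS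
    have hcS : ∀ h ∈ commutator G, h ∈ S := fun h hh =>
      Subgroup.subset_closure ⟨Sum.inr ⟨h, hh⟩, rfl⟩
    have haS : ∀ i, a i ∈ S.map (Abelianization.of : G →* Abelianization G) := fun i =>
      ⟨g₀ i, Subgroup.subset_closure ⟨Sum.inl i, rfl⟩, hg₀' i⟩
    have hq : ∀ q : Abelianization G, q ∈ S.map (Abelianization.of : G →* Abelianization G) := by
      intro q
      have h1 : e q = ∏ i, Pi.mulSingle i (e q i) := (Finset.univ_prod_mulSingle _).symm
      have h2 : q = ∏ i, e.symm (Pi.mulSingle i (e q i)) := by
        rw [← map_prod, ← h1, e.symm_apply_apply]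
      rw [h2]
      apply Subgroup.prod_mem
      intro i _
      haveI : NeZero (n i) := ⟨by have := hn i; omega⟩
      have h3 : (Pi.mulSingle i (e q i) : (i : J) → Multiplicative (ZMod (n i))) =
          (Pi.mulSingle i (Multiplicative.ofAdd 1)) ^ (Multiplicative.toAdd (e q i)).val := by
        rw [← Pi.mulSingle_pow, ← ofAdd_nsmul]
        simp
      rw [h3, map_pow]
      exact pow_mem (haS i) _
    rw [eq_top_iff]
    intro x _
    obtain ⟨y, hy, hyx⟩ := hq (Abelianization.of x)
    have h4 : y⁻¹ * x ∈ commutator G := by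
      apply mem_comm_of
      rw [map_mul, map_inv, hyx, inv_mul_cancel]
    have h5 := S.mul_mem hy (hcS _ h4)
    simpa using h5
  let N : J ⊕ ↥(commutator G) → MonoidAlgebra ℤ (Abelianization G) :=
    Sum.elim (fun i => ∑ k ∈ Finset.range (n i), (MonoidAlgebra.of ℤ (Abelianization G) (a i)) ^ k) (fun _ => 1)
  have hcg : ∀ i, c (g₀ i) = MonoidAlgebra.of ℤ (Abelianization G) (a i) := by
    intro i
    show MonoidAlgebra.of ℤ (Abelianization G) (Abelianization.of (g₀ i)) = _
    rw [hg₀']
  have hN : ∀ i, N i * (c (γ i) - 1) = 0 := by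
    rintro (i | h)
    · show (∑ k ∈ Finset.range (n i), (MonoidAlgebra.of ℤ (Abelianization G) (a i)) ^ k) * (c (g₀ i) - 1) = 0
      rw [hcg, geom_sum_mul, ← map_pow, han, map_one, sub_self]
    · show 1 * (c (h : G) - 1) = 0
      rw [c_commutator c h h.2, sub_self, mul_zero]
  have hrel : ∀ i, ∃ h ∈ commutator G, N i • D (γ i) = D h := by
    rintro (i | h)
    · refine ⟨g₀ i ^ n i, mem_comm_of _ ?_, ?_⟩
      · rw [map_pow, hg₀', han]
      · rw [D_pow c D hD, hcg]
        rfl
    · exact ⟨h, h.2, one_smul _ _⟩
  have hprod : ∏ i, N i = ∑ b : Abelianization G, MonoidAlgebra.of ℤ (Abelianization G) b := by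
    rw [Fintype.prod_sum_type]
    simp only [N, Sum.elim_inl, Sum.elim_inr, Finset.prod_const_one, mul_one]
    exact prod_geom_eq_norm n hn e a (fun _ => rfl)
  have hcore := fun j => pit_core c D hD γ hγ N hN hrel j
  have hev : ∀ φ : Abelianization G → Additive (Abelianization (commutator G)),
      ((∑ b : Abelianization G, MonoidAlgebra.of ℤ (Abelianization G) b) • φ) 1 = ∑ q, φ q := by
    intro φ
    rw [Finset.sum_smul, Finset.sum_apply]
    have h1 : ∀ b : Abelianization G, (MonoidAlgebra.of ℤ (Abelianization G) b • φ) 1 = φ b⁻¹ := by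
      intro b
      have := of_smul_apply b φ 1
      rw [mul_one] at this
      exact this
    simp only [h1]
    exact Equiv.sum_comp (Equiv.inv _) φ
  have hVj : ∀ j, MonoidHom.transfer (Abelianization.of : ↥(commutator G) →* Abelianization ↥(commutator G)) (γ j) = 1 := by
    intro j
    have h1 := congrFun (hcore j) 1
    rw [hprod, hev] at h1
    rw [hV (γ j) _ (hpf (γ j))]
    apply Additive.ofMul.injective
    rw [ofMul_prod]
    exact h1
  have hker : (⊤ : Subgroup G) ≤ (MonoidHom.transfer (Abelianization.of : ↥(commutator G) →* Abelianization ↥(commutator G))).ker := by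
    rw [← hγ, Subgroup.closure_le]
    rintro _ ⟨j, rfl⟩
    exact (MonoidHom.mem_ker).2 (hVj j)
  exact MonoidHom.ext fun g => hker (Subgroup.mem_top g)

end Cfsg.Agent.S4320
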