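import Mathlib
import Cfsg.Statements.S4321
import Cfsg.Agent.Lib.SingGraph

set_option autoImplicit false
open Cfsg

namespace Cfsg.Agent.S4321

/-- Let `G` be a finite group and `p` a prime not dividing the order of the centre of `G`. Consider the primes dividing the size of some conjugacy class of a `p`-singular element (an element of order divisible by `p`), two of them adjacent when their product divides such a class size. Then any two distinct such primes are joined by a path with at most 3 edges (the graph is connected of diameter at most 3). -/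
theorem result {G : Type*} [Group G] [Finite G] (p : ℕ) [Fact p.Prime]
    (hZ : ¬ p ∣ Nat.card ↥(Subgroup.center G)) (r s : ℕ) (hr : (r.Prime ∧ ∃ x : G, p ∣ orderOf x ∧ r ∣ (Subgroup.centralizer ({x} : Set G)).index)) (hs : (s.Prime ∧ ∃ x : G, p ∣ orderOf x ∧ s ∣ (Subgroup.centralizer ({x} : Set G)).index)) (hrs : r ≠ s) :
    (∃ x : G, p ∣ orderOf x ∧ r * s ∣ (Subgroup.centralizer ({x} : Set G)).index) ∨ (∃ t : ℕ, (t.Prime ∧ ∃ x : G, p ∣ orderOf x ∧ t ∣ (Subgroup.centralizer ({x} : Set G)).index) ∧ t ≠ r ∧ t ≠ s ∧ (∃ x : G, p ∣ orderOf x ∧ r * t ∣ (Subgroup.centralizer ({x} : Set G)).index) ∧ (∃ x : G, p ∣ orderOf x ∧ t * s ∣ (Subgroup.centralizer ({x} : Set G)).index)) ∨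
      (∃ t u : ℕ, (t.Prime ∧ ∃ x : G, p ∣ orderOf x ∧ t ∣ (Subgroup.centralizer ({x} : Set G)).index) ∧ (u.Prime ∧ ∃ x : G, p ∣ orderOf x ∧ u ∣ (Subgroup.centralizer ({x} : Set G)).index) ∧ t ≠ r ∧ u ≠ s ∧ t ≠ u ∧ (∃ x : G, p ∣ orderOf x ∧ r * t ∣ (Subgroup.centralizer ({x} : Set G)).index) ∧ (∃ x : G, p ∣ orderOf x ∧ t * u ∣ (Subgroup.centralizer ({x} : Set G)).index) ∧ (∃ x : G, p ∣ orderOf x ∧ u * s ∣ (Subgroup.centralizer ({x} : Set G)).index)) := by
  classical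
  obtain ⟨hrp, x, hx, hrx⟩ := hr
  obtain ⟨hsp, y, hy, hsy⟩ := hs
  have hp : p.Prime := Fact.out
  obtain ⟨a, k, ha, hma, hax⟩ := Cfsg.Agent.Lib.SingGraph.exists_ppart hp hZ hx
  obtain ⟨b, l, hb, hmb, hby⟩ := Cfsg.Agent.Lib.SingGraph.exists_ppart hp hZ hy
  have hprod : ∀ {c d : ℕ} {w : G}, c.Prime → d.Prime → c ≠ d → c ∣ (Subgroup.centralizer ({w} : Set G)).index →
      d ∣ (Subgroup.centralizer ({w} : Set G)).index → c * d ∣ (Subgroup.centralizer ({w} : Set G)).index := by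
    intro c d w hc hd hcd h1 h2
    exact Nat.Coprime.mul_dvd_of_dvd_of_dvd ((Nat.coprime_primes hc hd).2 hcd) h1 h2
  by_cases hcop : Nat.Coprime (Cfsg.Agent.Lib.CoprimeClass.cs a) (Cfsg.Agent.Lib.CoprimeClass.cs b)
  · obtain ⟨t, u, w, ht, hu, hta, hub, hw, htu⟩ := Cfsg.Agent.Lib.SingGraph.exists_edge hp ha hb hcop hma hmb
    have htx := hta.trans hax
    have huy := hub.trans hby
    have htneu : t ≠ u := by
      rintro rfl
      exact ht.one_lt.ne' (Nat.eq_one_of_dvd_coprimes hcop hta hub)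
    have htw : t ∣ (Subgroup.centralizer ({w} : Set G)).index := (Nat.dvd_mul_right t u).trans htu
    have huw : u ∣ (Subgroup.centralizer ({w} : Set G)).index := (Nat.dvd_mul_left u t).trans htu
    by_cases htr : t = r
    · subst htr
      by_cases hus : u = s
      · subst hus
        exact Or.inl ⟨w, hw, htu⟩
      · refine Or.inr (Or.inl ⟨u, ⟨hu, w, hw, huw⟩, htneu.symm, hus, ⟨w, hw, htu⟩, ⟨y, hy, hprod hu hsp hus huy hsy⟩⟩)
    · by_cases hus : u = s
      · subst hus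
        refine Or.inr (Or.inl ⟨t, ⟨ht, w, hw, htw⟩, htr, htneu, ⟨x, hx, hprod hrp ht (Ne.symm htr) hrx htx⟩, ⟨w, hw, htu⟩⟩)
      · refine Or.inr (Or.inr ⟨t, u, ⟨ht, w, hw, htw⟩, ⟨hu, w, hw, huw⟩, htr, hus, htneu,
          ⟨x, hx, hprod hrp ht (Ne.symm htr) hrx htx⟩, ⟨w, hw, htu⟩, ⟨y, hy, hprod hu hsp hus huy hsy⟩⟩)
  · obtain ⟨t, ht, hta, htb⟩ := Nat.Prime.not_coprime_iff_dvd.1 hcop
    have htx := hta.trans hax
    have hty := htb.trans hby
    by_cases htr : t = r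
    · subst htr
      exact Or.inl ⟨y, hy, hprod hrp hsp hrs hty hsy⟩
    · by_cases hts : t = s
      · subst hts
        exact Or.inl ⟨x, hx, hprod hrp hsp hrs hrx htx⟩
      · exact Or.inr (Or.inl ⟨t, ⟨ht, x, hx, htx⟩, htr, hts, ⟨x, hx, hprod hrp ht (Ne.symm htr) hrx htx⟩,
          ⟨y, hy, hprod ht hsp hts hty hsy⟩⟩)

end Cfsg.Agent.S4321
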