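import Mathlib
import Cfsg.Statements.S4416
import Cfsg.Agent.Lib.ExtraES2
import Cfsg.Agent.Lib.ExtraBasics

set_option autoImplicit false
set_option linter.all false

open Cfsg
open scoped commutatorElement
open Cfsg.Agent.Lib.ExtraES Cfsg.Agent.Lib.ExtraES2

namespace Cfsg.Agent.S4416

universe u v

section count

variable {E : Type u} [Group E] [Finite E] {z : E}

/-- the four coset representatives -/
def reps (x y : E) : Fin 4 → E := ![1, x, y, x * y]

theorem comm_yx (h : ES 2 E z) {x y : E} (hxy : ⁅x, y⁆ = z) : ⁅y, x⁆ = z := by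
  have e : ⁅y, x⁆ = ⁅x, y⁆⁻¹ := by rw [commutatorElement_inv]
  rw [e, hxy, inv_eq_iff_mul_eq_one, ← pow_two]
  exact zsq h

theorem comm_x_reps (h : ES 2 E z) {x y : E} (hxy : ⁅x, y⁆ = z) (i : Fin 4) :
    ⁅x, reps x y i⁆ = (![1, 1, z, z] : Fin 4 → E) i := by
  fin_cases i
  · simp [reps]
  · simp [reps]
  · simpa [reps] using hxy
  · show ⁅x, x * y⁆ = z
    rw [h.comm_mul_right, commutatorElement_self, one_mul, hxy]

theorem comm_y_reps (h : ES 2 E z) {x y : E} (hxy : ⁅x, y⁆ = z) (i : Fin 4) :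
    ⁅y, reps x y i⁆ = (![1, z, 1, z] : Fin 4 → E) i := by
  fin_cases i
  · simp [reps]
  · simpa [reps] using comm_yx h hxy
  · simp [reps]
  · show ⁅y, x * y⁆ = z
    rw [h.comm_mul_right, commutatorElement_self, mul_one, comm_yx h hxy]

theorem comm_of_mem {x y c : E} (hc : c ∈ Cn x y) : ⁅x, c⁆ = 1 ∧ ⁅y, c⁆ = 1 := by
  obtain ⟨h1, h2⟩ := mem_Cn.1 hc
  exact ⟨commutatorElement_eq_one_iff_mul_comm.2 h1, commutatorElement_eq_one_iff_mul_comm.2 h2⟩

theorem reps_commute {x y c : E} (hc : c ∈ Cn x y) (i : Fin 4) : Commute c (reps x y i) := by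
  obtain ⟨h1, h2⟩ := mem_Cn.1 hc
  have hx : Commute c x := h1.symm
  have hy : Commute c y := h2.symm
  fin_cases i
  · exact Commute.one_right c
  · exact hx
  · exact hy
  · exact hx.mul_right hy

/-- The map `Cn × Fin 4 → E` is bijective. -/
theorem bij (h : ES 2 E z) {x y : E} (hxy : ⁅x, y⁆ = z) :
    Function.Bijective (fun p : Cn x y × Fin 4 => (p.1 : E) * reps x y p.2) := by
  have hz := z_ne_one h
  have hinj : Function.Injective (fun p : Cn x y × Fin 4 => (p.1 : E) * reps x y p.2) := by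
    rintro ⟨c₁, i⟩ ⟨c₂, j⟩ he
    simp only at he
    have h1 : ⁅x, (c₁ : E) * reps x y i⁆ = ⁅x, (c₂ : E) * reps x y j⁆ := by rw [he]
    have h2 : ⁅y, (c₁ : E) * reps x y i⁆ = ⁅y, (c₂ : E) * reps x y j⁆ := by rw [he]
    rw [h.comm_mul_right, h.comm_mul_right, (comm_of_mem c₁.2).1, (comm_of_mem c₂.2).1, one_mul, one_mul,
      comm_x_reps h hxy, comm_x_reps h hxy] at h1
    rw [h.comm_mul_right, h.comm_mul_right, (comm_of_mem c₁.2).2, (comm_of_mem c₂.2).2, one_mul, one_mul,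
      comm_y_reps h hxy, comm_y_reps h hxy] at h2
    have hij : i = j := by
      fin_cases i <;> fin_cases j <;> first
        | rfl
        | (exfalso; simp at h1 h2; first | exact hz h1 | exact hz h1.symm | exact hz h2 | exact hz h2.symm)
    subst hij
    have : (c₁ : E) = c₂ := mul_right_cancel he
    rw [Subtype.ext this]
  refine ⟨hinj, ?_⟩
  haveI : Fact (Nat.Prime 2) := ⟨Nat.prime_two⟩
  have hc : Nat.card (Cn x y × Fin 4) = Nat.card E := by
    rw [h.card_eq hxy, Nat.card_prod, Nat.card_eq_fintype_card (α := Fin 4), Fintype.card_fin]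
    ring
  exact (Nat.bijective_iff_injective_and_card _).2 ⟨hinj, hc⟩ |>.2

/-- number of square roots of 1 -/
noncomputable abbrev ff (E : Type*) [Group E] : ℕ := Nat.card {x : E // x ^ 2 = 1}

/-- number of square roots of w -/
noncomputable abbrev gg {E : Type*} [Group E] (w : E) : ℕ := Nat.card {x : E // x ^ 2 = w}

theorem ff_add_gg (h : ES 2 E z) : ff E + gg z = Nat.card E := by
  classical
  have e : {x : E // ¬ x ^ 2 = 1} ≃ {x : E // x ^ 2 = z} := by
    apply Equiv.subtypeEquivRight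
    intro x
    constructor
    · intro hx
      rcases sq_cases h x with h1 | h1
      · exact absurd h1 hx
      · exact h1
    · intro hx h1
      exact z_ne_one h (hx.symm.trans h1)
  have := Nat.card_congr (Equiv.sumCompl (fun x : E => x ^ 2 = 1))
  rw [Nat.card_sum, Nat.card_congr e] at this
  exact this

theorem count_eq (h : ES 2 E z) {x y : E} (hxy : ⁅x, y⁆ = z) :
    ff E = ∑ i : Fin 4, Nat.card {c : Cn x y // ((c : E) ^ 2 * reps x y i ^ 2 = 1)} := by
  classical
  have hsq : ∀ (c : Cn x y) (i : Fin 4), ((c : E) * reps x y i) ^ 2 = (c : E) ^ 2 * reps x y i ^ 2 :=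
    fun c i => (reps_commute c.2 i).mul_pow 2
  let φ : (Σ i : Fin 4, {c : Cn x y // ((c : E) ^ 2 * reps x y i ^ 2 = 1)}) → {g : E // g ^ 2 = 1} :=
    fun p => ⟨((p.2.1 : Cn x y) : E) * reps x y p.1, by rw [hsq]; exact p.2.2⟩
  have hφ : Function.Bijective φ := by
    constructor
    · rintro ⟨i, c, hc⟩ ⟨j, d, hd⟩ he
      have he' : (c : E) * reps x y i = (d : E) * reps x y j := congrArg Subtype.val he
      have := (bij h hxy).1 (a₁ := (c, i)) (a₂ := (d, j)) he'
      simp only [Prod.mk.injEq] at this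
      obtain ⟨rfl, rfl⟩ := this
      rfl
    · rintro ⟨g, hg⟩
      obtain ⟨⟨c, i⟩, hp⟩ := (bij h hxy).2 g
      simp only at hp
      refine ⟨⟨i, c, ?_⟩, Subtype.ext hp⟩
      rw [← hsq, hp, hg]
  rw [ff, ← Nat.card_congr (Equiv.ofBijective φ hφ), Nat.card_sigma]

theorem count_one (x y : E) : Nat.card {c : Cn x y // ((c : E) ^ 2 * 1 = 1)} = ff (Cn x y) := by
  apply Nat.card_congr
  apply Equiv.subtypeEquivRight
  intro c
  rw [mul_one]
  constructor
  · intro hc
    exact Subtype.ext hc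
  · intro hc
    exact congrArg Subtype.val hc

theorem count_z (h : ES 2 E z) {x y : E} (hz : z ∈ Cn x y) :
    Nat.card {c : Cn x y // ((c : E) ^ 2 * z = 1)} = gg (⟨z, hz⟩ : Cn x y) := by
  apply Nat.card_congr
  apply Equiv.subtypeEquivRight
  intro c
  have hzz : z * z = 1 := by rw [← pow_two]; exact zsq h
  constructor
  · intro hc
    apply Subtype.ext
    show (c : E) ^ 2 = z
    calc (c : E) ^ 2 = (c : E) ^ 2 * z * z := by rw [mul_assoc, hzz, mul_one]
      _ = z := by rw [hc, one_mul]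
  · intro hc
    have : (c : E) ^ 2 = z := congrArg Subtype.val hc
    rw [this]
    exact hzz

theorem square_xy (h : ES 2 E z) {x y : E} (hxy : ⁅x, y⁆ = z) : (x * y) ^ 2 = z * (x ^ 2 * y ^ 2) := by
  have e : x * y = z * (y * x) := by
    rw [← hxy, commutatorElement_def]
    group
  have hxc : ∀ g : E, g * x ^ 2 = x ^ 2 * g := by
    intro g
    rcases sq_cases h x with h1 | h1
    · rw [h1, mul_one, one_mul]
    · rw [h1]; exact h.central g
  calc (x * y) ^ 2 = x * y * (x * y) := pow_two _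
    _ = z * (y * x) * (x * y) := by nth_rewrite 1 [e]; rfl
    _ = z * (y * (x * x) * y) := by group
    _ = z * (y * x ^ 2 * y) := by rw [pow_two]
    _ = z * (x ^ 2 * y * y) := by rw [hxc y]
    _ = z * (x ^ 2 * y ^ 2) := by rw [pow_two y]; group

/-- A pair of involutions: `f(E) = 3 f(C) + g(C)`. -/
theorem count_D (h : ES 2 E z) {x y : E} (hxy : ⁅x, y⁆ = z) (hx : x ^ 2 = 1) (hy : y ^ 2 = 1)
    (hz : z ∈ Cn x y) : ff E = 3 * ff (Cn x y) + gg (⟨z, hz⟩ : Cn x y) := by
  rw [count_eq h hxy, Fin.sum_univ_four]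
  have h0 : reps x y 0 ^ 2 = 1 := by simp [reps]
  have h1 : reps x y 1 ^ 2 = 1 := by simpa [reps] using hx
  have h2 : reps x y 2 ^ 2 = 1 := by simpa [reps] using hy
  have h3 : reps x y 3 ^ 2 = z := by
    show (x * y) ^ 2 = z
    rw [square_xy h hxy, hx, hy, mul_one, mul_one]
  rw [h0, h1, h2, h3, count_one, count_z h hz]
  ring

/-- A pair of elements squaring to `z`: `f(E) = f(C) + 3 g(C)`. -/
theorem count_Q (h : ES 2 E z) {x y : E} (hxy : ⁅x, y⁆ = z) (hx : x ^ 2 = z) (hy : y ^ 2 = z)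
    (hz : z ∈ Cn x y) : ff E = ff (Cn x y) + 3 * gg (⟨z, hz⟩ : Cn x y) := by
  rw [count_eq h hxy, Fin.sum_univ_four]
  have hzz : z ^ 2 = 1 := zsq h
  have h0 : reps x y 0 ^ 2 = 1 := by simp [reps]
  have h1 : reps x y 1 ^ 2 = z := by simpa [reps] using hx
  have h2 : reps x y 2 ^ 2 = z := by simpa [reps] using hy
  have h3 : reps x y 3 ^ 2 = z := by
    show (x * y) ^ 2 = z
    rw [square_xy h hxy, hx, hy, ← pow_two, hzz, mul_one]
  rw [h0, h1, h2, h3, count_one, count_z h hz]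
  ring

theorem count_base (h : ES 2 E z) (c : Nat.card E = 2) : ff E = 2 ∧ gg z = 0 := by
  have hs : ∀ g : E, g ^ 2 = 1 := by
    intro g
    rw [← c]
    exact pow_card_eq_one'
  have h1 : ff E = 2 := by
    rw [← c]
    apply Nat.card_congr
    exact Equiv.subtypeUnivEquiv hs
  have := ff_add_gg h
  omega

end count

theorem values : ∀ (n : ℕ) (E : Type u) [Group E] [Finite E] (z : E), ES 2 E z →
    Nat.card E = 2 ^ (2 * n + 1) → ff E = 2 ^ (2 * n) + 2 ^ n ∨ ff E + 2 ^ n = 2 ^ (2 * n) := by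
  intro n
  induction n with
  | zero =>
    intro E _ _ z h c
    left
    have := (count_base h (by simpa using c)).1
    simpa using this
  | succ n ih =>
    intro E _ _ z h c
    by_cases hn : n = 0
    · subst hn
      have c' : Nat.card E = 8 := by simpa using c
      by_cases hD : TypeD E
      · obtain ⟨x, y, hx, hy, hxy⟩ := pair_D h hD
        obtain ⟨hz, hC⟩ := h.Cn_ES hxy
        have hc2 := card_cn h hxy c'
        have := count_base hC hc2
        have e := count_D h hxy hx hy hz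
        left
        have hv := this.1
        have hw := this.2
        norm_num
        omega
      · obtain ⟨x, y, hx, hy, hxy⟩ := pair_Q h hD (noncomm_of_card h (by omega))
        obtain ⟨hz, hC⟩ := h.Cn_ES hxy
        have hc2 := card_cn h hxy c'
        have := count_base hC hc2
        have e := count_Q h hxy hx hy hz
        right
        have hv := this.1
        have hw := this.2
        norm_num
        omega
    · obtain ⟨x, y, hx, hy, hxy, hc⟩ := pair_large n hn h c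
      obtain ⟨hz, hC⟩ := h.Cn_ES hxy
      have e := count_D h hxy hx hy hz
      have a := ff_add_gg hC
      rw [hc] at a
      have e2 : 2 ^ (2 * (n + 1)) = 4 * 2 ^ (2 * n) := by ring
      have e3 : 2 ^ (2 * n + 1) = 2 * 2 ^ (2 * n) := by ring
      have e4 : 2 ^ (n + 1) = 2 * 2 ^ n := by ring
      rcases ih _ _ hC hc with i | i
      · left
        rw [e2, e4]
        omega
      · right
        rw [e2, e4]
        omega

theorem key {E : Type*} [Group E] [Finite E] {z : E} (h : ES 2 E z) (c' : Nat.card E = 8) :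
    TypeD E ↔ ff E = 6 := by
  by_cases hD : TypeD E
  · obtain ⟨x, y, hx, hy, hxy⟩ := pair_D h hD
    obtain ⟨hz, hC⟩ := h.Cn_ES hxy
    have hc2 := card_cn h hxy c'
    have := count_base hC hc2
    have e := count_D h hxy hx hy hz
    have hv := this.1
    have hw := this.2
    simp only [hD, true_iff]
    omega
  · obtain ⟨x, y, hx, hy, hxy⟩ := pair_Q h hD (noncomm_of_card h (by omega))
    obtain ⟨hz, hC⟩ := h.Cn_ES hxy
    have hc2 := card_cn h hxy c'
    have := count_base hC hc2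
    have e := count_Q h hxy hx hy hz
    have hv := this.1
    have hw := this.2
    simp only [hD, false_iff]
    omega

theorem unique : ∀ (n : ℕ) (E₁ : Type u) (E₂ : Type v) [Group E₁] [Group E₂] [Finite E₁] [Finite E₂]
    (z₁ : E₁) (z₂ : E₂), ES 2 E₁ z₁ → ES 2 E₂ z₂ → Nat.card E₁ = 2 ^ (2 * n + 1) →
    Nat.card E₂ = 2 ^ (2 * n + 1) → ff E₁ = ff E₂ → Nonempty (E₁ ≃* E₂) := by
  haveI : Fact (Nat.Prime 2) := ⟨Nat.prime_two⟩
  intro n
  induction n with
  | zero =>
    intro E₁ E₂ _ _ _ _ z₁ z₂ h₁ h₂ c₁ c₂ _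
    exact ⟨mulEquivOfPrimeCardEq (p := 2) (by simpa using c₁) (by simpa using c₂)⟩
  | succ n ih =>
    intro E₁ E₂ _ _ _ _ z₁ z₂ h₁ h₂ c₁ c₂ he
    by_cases hn : n = 0
    · subst hn
      have c₁' : Nat.card E₁ = 8 := by simpa using c₁
      have c₂' : Nat.card E₂ = 8 := by simpa using c₂
      apply iso_of_same_type h₁ h₂ c₁' c₂'
      rw [key h₁ c₁', key h₂ c₂', he]
    · obtain ⟨x₁, y₁, hx₁, hy₁, hxy₁, hc₁⟩ := pair_large n hn h₁ c₁
      obtain ⟨x₂, y₂, hx₂, hy₂, hxy₂, hc₂⟩ := pair_large n hn h₂ c₂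
      obtain ⟨hz₁, hC₁⟩ := h₁.Cn_ES hxy₁
      obtain ⟨hz₂, hC₂⟩ := h₂.Cn_ES hxy₂
      have e₁ := count_D h₁ hxy₁ hx₁ hy₁ hz₁
      have e₂ := count_D h₂ hxy₂ hx₂ hy₂ hz₂
      have a₁ := ff_add_gg hC₁
      have a₂ := ff_add_gg hC₂
      rw [hc₁] at a₁
      rw [hc₂] at a₂
      have hff : ff (Cn x₁ y₁) = ff (Cn x₂ y₂) := by omega
      obtain ⟨ψ⟩ := ih _ _ _ _ hC₁ hC₂ hc₁ hc₂ hff
      exact glue2 h₁ h₂ hxy₁ hxy₂ (Or.inl ⟨hx₁, hx₂⟩) (Or.inl ⟨hy₁, hy₂⟩) ψ

theorem result (E : Type*) [Group E] [Finite E] (hE : Cfsg.IsExtraspecial 2 E) :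
    (∃ m : ℕ, 1 ≤ m ∧ Nat.card E = 2 ^ (2 * m + 1) ∧
      (Nat.card {x : E // x ^ 2 = 1} = 2 ^ (2 * m) + 2 ^ m ∨ Nat.card {x : E // x ^ 2 = 1} = 2 ^ (2 * m) - 2 ^ m)) ∧
    ∀ (E' : Type*) [Group E'] [Finite E'], Cfsg.IsExtraspecial 2 E' → Nat.card E' = Nat.card E →
      Nat.card {x : E' // x ^ 2 = 1} = Nat.card {x : E // x ^ 2 = 1} → Nonempty (E ≃* E') := by
  haveI : Fact (Nat.Prime 2) := ⟨Nat.prime_two⟩
  obtain ⟨m, hm, c⟩ := Cfsg.Agent.Lib.ExtraBasics.card_of_isExtraspecial hE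
  have c' : Nat.card E = 2 ^ (2 * m + 1) := by rw [c]; congr 1; ring
  obtain ⟨z, h⟩ := exists_ES hE
  refine ⟨⟨m, hm, c', ?_⟩, ?_⟩
  · rcases values m E z h c' with i | i
    · exact Or.inl i
    · right
      show ff E = _
      omega
  · intro E' _ _ hE' hc hf
    obtain ⟨z', h'⟩ := exists_ES hE'
    exact unique m E E' z z' h h' c' (hc.trans c') hf.symm

end Cfsg.Agent.S4416
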