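import Mathlib
import Cfsg.Statements.S4421

set_option autoImplicit false
open Cfsg

namespace Cfsg.Agent.S4421

/-- Membership in a conjugate subgroup. -/
private lemma mem_conj_map {G : Type*} [Group G] (A : Subgroup G) (g x : G) :
    x ∈ A.map (MulAut.conj g).toMonoidHom ↔ g⁻¹ * x * g ∈ A := by
  constructor
  · rintro ⟨a, ha, rfl⟩
    simpa [mul_assoc] using ha
  · intro h
    exact ⟨g⁻¹ * x * g, h, by simp [mul_assoc]⟩

/-- A factorization of a normalizer from two-step control of fusion. Let `G` be a finite group and `A ≤ S ≤ H` subgroups of `G` such that: (i) `S` controls the `G`-fusion of `A` in the sense that every `G`-conjugate of `A` lying in `S` is an `S`-conjugate of `A`; (ii) `H` controls the `G`-fusion of `S` in the same sense; (iii) every conjugate of `S` by an element of the normalizer of `A` lies in `H`. Then `N_G(A) = N_H(A) · (N_G(S) ∩ N_G(A))`: every element of the normalizer of `A` is a product of an element of `H` normalizing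 `A` and an element normalizing both `S` and `A`. -/
theorem result {G : Type*} [Group G] [Finite G] (A S H : Subgroup G)
    (hAS : A ≤ S) (hSH : S ≤ H)
    (h1 : ∀ g : G, A.map (MulAut.conj g).toMonoidHom ≤ S → ∃ s ∈ S, A.map (MulAut.conj g).toMonoidHom = A.map (MulAut.conj s).toMonoidHom)
    (h2 : ∀ g : G, S.map (MulAut.conj g).toMonoidHom ≤ H → ∃ y ∈ H, S.map (MulAut.conj g).toMonoidHom = S.map (MulAut.conj y).toMonoidHom)
    (h3 : ∀ x ∈ Subgroup.normalizer (A : Set G), S.map (MulAut.conj x).toMonoidHom ≤ H) :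
    ∀ x ∈ Subgroup.normalizer (A : Set G), ∃ y ∈ H ⊓ Subgroup.normalizer (A : Set G),
      ∃ z ∈ Subgroup.normalizer (S : Set G) ⊓ Subgroup.normalizer (A : Set G), x = y * z := by
  intro x hx
  obtain ⟨y, hyH, hy⟩ := h2 x (h3 x hx)
  have hx2 : ∀ a, a ∈ A ↔ x⁻¹ * a * x ∈ A := Subgroup.mem_normalizer_iff''.1 hx
  -- membership translation for `hy`
  have hyS : ∀ b, x⁻¹ * b * x ∈ S ↔ y⁻¹ * b * y ∈ S := by
    intro b
    rw [← mem_conj_map, ← mem_conj_map, hy]
  -- `y⁻¹ A y ≤ S`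
  have hAy : A.map (MulAut.conj y⁻¹).toMonoidHom ≤ S := by
    intro a ha
    rw [mem_conj_map] at ha
    simp only [inv_inv] at ha
    have ha' : y * a * y⁻¹ ∈ A := ha
    have h4 : x⁻¹ * (y * a * y⁻¹) * x ∈ S := hAS ((hx2 _).1 ha')
    have h5 := (hyS _).1 h4
    have : y⁻¹ * (y * a * y⁻¹) * y = a := by group
    rwa [this] at h5
  obtain ⟨s, hsS, hs⟩ := h1 y⁻¹ hAy
  -- `u = y * s` normalizes `A`
  have hu : y * s ∈ Subgroup.normalizer (A : Set G) := by
    rw [Subgroup.mem_normalizer_iff'']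
    intro a
    have h6 : ∀ b, y * b * y⁻¹ ∈ A ↔ s⁻¹ * b * s ∈ A := by
      intro b
      have := Set.ext_iff.1 (congrArg (fun K : Subgroup G => (K : Set G)) hs) b
      simp only [SetLike.mem_coe, mem_conj_map, inv_inv] at this
      exact this
    have h7 := h6 (y⁻¹ * a * y)
    have e1 : y * (y⁻¹ * a * y) * y⁻¹ = a := by group
    have e2 : s⁻¹ * (y⁻¹ * a * y) * s = (y * s)⁻¹ * a * (y * s) := by group
    rw [e1, e2] at h7
    exact h7
  refine ⟨y * s, Subgroup.mem_inf.2 ⟨H.mul_mem hyH (hSH hsS), hu⟩, (y * s)⁻¹ * x, Subgroup.mem_inf.2 ⟨?_, ?_⟩, by group⟩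
  · rw [Subgroup.mem_normalizer_iff'']
    intro b
    have hsb : ∀ c, c ∈ S ↔ s⁻¹ * c * s ∈ S := by
      intro c
      constructor
      · intro hc; exact S.mul_mem (S.mul_mem (S.inv_mem hsS) hc) hsS
      · intro hc
        have := S.mul_mem (S.mul_mem hsS hc) (S.inv_mem hsS)
        have e : s * (s⁻¹ * c * s) * s⁻¹ = c := by group
        rwa [e] at this
    have h8 := hyS (y * b * y⁻¹)
    have e3 : y⁻¹ * (y * b * y⁻¹) * y = b := by group
    rw [e3] at h8
    -- `(u⁻¹ x)⁻¹ b (u⁻¹ x) = x⁻¹ y s b s⁻¹ y⁻¹ x`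
    have e4 : ((y * s)⁻¹ * x)⁻¹ * b * ((y * s)⁻¹ * x) = x⁻¹ * (y * (s * b * s⁻¹) * y⁻¹) * x := by
      group
    rw [e4]
    have h9 := hyS (y * (s * b * s⁻¹) * y⁻¹)
    have e5 : y⁻¹ * (y * (s * b * s⁻¹) * y⁻¹) * y = s * b * s⁻¹ := by group
    rw [e5] at h9
    rw [h9]
    have h10 := hsb (s * b * s⁻¹)
    have e6 : s⁻¹ * (s * b * s⁻¹) * s = b := by group
    rw [e6] at h10
    exact h10.symm
  · exact Subgroup.mul_mem _ (Subgroup.inv_mem _ hu) hx

end Cfsg.Agent.S4421
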