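import Mathlib
import Cfsg.Statements.S4422

set_option autoImplicit false
open Cfsg

namespace Cfsg.Agent.S4422

private lemma prime_dvd_pow_sub_one_iff (ℓ : ℕ) [Fact ℓ.Prime] (q n : ℕ) (hq : 1 ≤ q) :
    ℓ ∣ q ^ n - 1 ↔ (q : ZMod ℓ) ^ n = 1 := by
  have h1 : 1 ≤ q ^ n := Nat.one_le_pow _ _ hq
  rw [← ZMod.natCast_eq_zero_iff, Nat.cast_sub h1, sub_eq_zero]
  simp

private lemma mod_of_primes (e : ℕ) (m : ℕ) (hm : m ≠ 0)
    (h : ∀ ℓ : ℕ, ℓ.Prime → ℓ ∣ m → ℓ % e = 1 % e) : m % e = 1 % e := by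
  induction m using Nat.strong_induction_on with
  | _ m ih =>
    by_cases h1 : m = 1
    · subst h1; rfl
    · have hp := Nat.minFac_prime h1
      have hd := Nat.minFac_dvd m
      obtain ⟨k, hk⟩ := hd
      have hk0 : k ≠ 0 := by
        rintro rfl
        simp at hk
        exact hm hk
      have hlt : k < m := by
        have := hp.two_le
        nlinarith [Nat.pos_of_ne_zero hk0]
      have h2 := ih k hlt hk0 (fun ℓ hℓ hd => h ℓ hℓ (by rw [hk]; exact Dvd.dvd.mul_left hd _))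
      have h3 := h _ hp (Nat.minFac_dvd m)
      rw [hk, Nat.mul_mod, h3, h2, ← Nat.mul_mod]

/-- Primitive divisors of `q^e - 1` are congruent to 1 modulo `e`. Let `q ≥ 2` and `e ≥ 1` be natural numbers and let `m` be a divisor of `q^e - 1` that is coprime to `q^i - 1` for every `1 ≤ i < e` (so `m` divides the primitive part of `q^e - 1`, the largest such divisor). Then `m ≡ 1 (mod e)`. -/
theorem result (q e m : ℕ) (hq : 2 ≤ q) (he : 1 ≤ e)
    (hm : m ∣ q ^ e - 1) (hcop : ∀ i : ℕ, 1 ≤ i → i < e → Nat.Coprime m (q ^ i - 1)) :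
    m % e = 1 % e := by
  have hq1 : 1 ≤ q := by omega
  have hpos : 0 < q ^ e - 1 := by
    have : 2 ^ e ≤ q ^ e := Nat.pow_le_pow_left hq e
    have : 2 ^ 1 ≤ 2 ^ e := Nat.pow_le_pow_right (by norm_num) he
    omega
  have hm0 : m ≠ 0 := by
    rintro rfl
    simp at hm
    omega
  apply mod_of_primes e m hm0
  intro ℓ hℓ hd
  have : Fact ℓ.Prime := ⟨hℓ⟩
  have h1 : (q : ZMod ℓ) ^ e = 1 := (prime_dvd_pow_sub_one_iff ℓ q e hq1).1 (hd.trans hm)
  have hq0 : (q : ZMod ℓ) ≠ 0 := by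
    intro h0
    rw [h0, zero_pow (by omega)] at h1
    exact zero_ne_one h1
  have hord : orderOf (q : ZMod ℓ) ∣ e := orderOf_dvd_of_pow_eq_one h1
  have hordpos : 0 < orderOf (q : ZMod ℓ) := Nat.pos_of_dvd_of_pos hord (by omega)
  have hordeq : orderOf (q : ZMod ℓ) = e := by
    by_contra hne
    have hlt : orderOf (q : ZMod ℓ) < e := lt_of_le_of_ne (Nat.le_of_dvd (by omega) hord) hne
    have h2 := hcop _ hordpos hlt
    have h3 : ℓ ∣ q ^ orderOf (q : ZMod ℓ) - 1 :=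
      (prime_dvd_pow_sub_one_iff ℓ q _ hq1).2 (pow_orderOf_eq_one _)
    exact hℓ.one_lt.ne' (Nat.eq_one_of_dvd_coprimes h2 hd h3)
  have h4 : e ∣ ℓ - 1 := by
    rw [← hordeq]
    exact ZMod.orderOf_dvd_card_sub_one hq0
  have h5 : ℓ % e = 1 % e := by
    have := (Nat.modEq_iff_dvd' hℓ.one_lt.le).2 h4
    exact this.symm
  exact h5

end Cfsg.Agent.S4422
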