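import Mathlib
import Cfsg.Statements.S4423

set_option autoImplicit false
open Cfsg
open Polynomial

namespace Cfsg.Agent.S4423

/-- Value of the cyclotomic polynomial, as a natural number. -/
noncomputable def Phi (e q : ℕ) : ℕ := ((cyclotomic e ℤ).eval (q : ℤ)).toNat

lemma eval_pos (e q : ℕ) (hq : 2 ≤ q) : 0 < (cyclotomic e ℤ).eval (q : ℤ) :=
  cyclotomic_pos' e (by exact_mod_cast hq)

lemma Phi_cast (e q : ℕ) (hq : 2 ≤ q) : ((Phi e q : ℕ) : ℤ) = (cyclotomic e ℤ).eval (q : ℤ) :=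
  Int.toNat_of_nonneg (eval_pos e q hq).le

lemma Phi_pos (e q : ℕ) (hq : 2 ≤ q) : 0 < Phi e q := by
  have := eval_pos e q hq
  rw [← Phi_cast e q hq] at this
  exact_mod_cast this

lemma one_le_pow' {q : ℕ} (hq : 2 ≤ q) (d : ℕ) : 1 ≤ q ^ d := Nat.one_le_pow _ _ (by omega)

lemma cast_pow_sub (q d : ℕ) (hq : 2 ≤ q) : ((q ^ d - 1 : ℕ) : ℤ) = (q : ℤ) ^ d - 1 := by
  rw [Nat.cast_sub (one_le_pow' hq d)]
  simp

lemma Phi_dvd (e q : ℕ) (hq : 2 ≤ q) : Phi e q ∣ q ^ e - 1 := by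
  have h := eval_dvd (x := (q : ℤ)) (cyclotomic.dvd_X_pow_sub_one e ℤ)
  simp only [eval_sub, eval_pow, eval_X, eval_one] at h
  rw [← Phi_cast e q hq, ← cast_pow_sub q e hq] at h
  exact_mod_cast h

lemma Phi_mul_dvd (e q d : ℕ) (hq : 2 ≤ q) (he : 0 < e) (hd : d ∣ e) (hde : d < e) (hd0 : 0 < d) :
    Phi e q * (q ^ d - 1) ∣ q ^ e - 1 := by
  have hpoly : cyclotomic e ℤ * (X ^ d - 1) ∣ X ^ e - 1 := by
    rw [← prod_cyclotomic_eq_X_pow_sub_one hd0 ℤ, ← prod_cyclotomic_eq_X_pow_sub_one he ℤ]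
    have hnot : e ∉ d.divisors := fun h => by
      have := Nat.divisor_le h
      omega
    rw [← Finset.prod_insert (f := fun i => cyclotomic i ℤ) hnot]
    apply Finset.prod_dvd_prod_of_subset
    intro c hc
    rw [Finset.mem_insert] at hc
    rcases hc with rfl | hc
    · exact Nat.mem_divisors_self _ he.ne'
    · exact Nat.mem_divisors.2 ⟨(Nat.dvd_of_mem_divisors hc).trans hd, he.ne'⟩
  have h := eval_dvd (x := (q : ℤ)) hpoly
  simp only [eval_mul, eval_sub, eval_pow, eval_X, eval_one] at h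
  rw [← Phi_cast e q hq, ← cast_pow_sub q e hq, ← cast_pow_sub q d hq] at h
  exact_mod_cast h

lemma isRoot_of_dvd (e q t : ℕ) (hq : 2 ≤ q) (ht : t ∣ Phi e q) :
    IsRoot (cyclotomic e (ZMod t)) (q : ZMod t) := by
  rw [IsRoot.def, ← map_cyclotomic_int e (ZMod t)]
  have h1 : ((q : ℕ) : ZMod t) = (((q : ℤ)) : ZMod t) := by simp
  rw [h1, eval_intCast_map]
  have h2 : ((t : ℕ) : ℤ) ∣ (cyclotomic e ℤ).eval (q : ℤ) := by
    rw [← Phi_cast e q hq]
    exact_mod_cast ht
  exact (ZMod.intCast_zmod_eq_zero_iff_dvd _ _).2 h2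

/-- A prime divisor of `Φ_e(q)` not dividing `e` is primitive. -/
lemma prime_primitive (e q t i : ℕ) (hq : 2 ≤ q) (ht : t.Prime) (hdvd : t ∣ Phi e q) (hte : ¬ t ∣ e)
    (hi : 0 < i) (hie : i < e) : ¬ t ∣ q ^ i - 1 := by
  intro hti
  have : Fact t.Prime := ⟨ht⟩
  have hne : NeZero ((e : ℕ) : ZMod t) := ⟨by
    intro h
    exact hte ((ZMod.natCast_eq_zero_iff _ _).1 h)⟩
  have hprim := (isRoot_cyclotomic_iff.1 (isRoot_of_dvd e q t hq hdvd))
  have h1 : ((q : ZMod t)) ^ i = 1 := by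
    have h2 : ((q ^ i - 1 : ℕ) : ZMod t) = 0 := (ZMod.natCast_eq_zero_iff _ _).2 hti
    rw [Nat.cast_sub (one_le_pow' hq i)] at h2
    simp only [Nat.cast_pow, Nat.cast_one] at h2
    exact sub_eq_zero.1 h2
  have := hprim.dvd_of_pow_eq_one i h1
  have := Nat.le_of_dvd hi this
  omega

/-- Odd primes dividing `e` divide `Φ_e(q)` at most once. -/
lemma not_sq_dvd_odd (e q t : ℕ) (hq : 2 ≤ q) (he : 0 < e) (ht : t.Prime) (ht2 : Odd t)
    (hdvd : t ∣ Phi e q) (hte : t ∣ e) : ¬ t * t ∣ Phi e q := by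
  have : Fact t.Prime := ⟨ht⟩
  intro hsq
  obtain ⟨d, rfl⟩ := hte
  have hd0 : 0 < d := Nat.pos_of_mul_pos_left he |> fun _ => by
    rcases Nat.eq_zero_or_pos d with h | h
    · subst h; simp at he
    · exact h
  have hdt : d < t * d := by
    have := ht.two_le
    nlinarith
  have hmul := Phi_mul_dvd (t * d) q d hq he (Dvd.intro_left t rfl) hdt hd0
  set A := q ^ d with hA
  have hA2 : 1 < A := by
    calc 1 < q := by omega
      _ ≤ q ^ d := Nat.le_self_pow hd0.ne' q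
  have hAt : q ^ (t * d) = A ^ t := by rw [hA, ← pow_mul, mul_comm]
  rw [hAt] at hmul
  have htA : t ∣ A - 1 := by
    have h1 : t ∣ A ^ t - 1 := by
      rw [← hAt]
      exact hdvd.trans (Phi_dvd _ q hq)
    have h2 : ((A ^ t - 1 : ℕ) : ZMod t) = 0 := (ZMod.natCast_eq_zero_iff _ _).2 h1
    rw [Nat.cast_sub (Nat.one_le_pow _ _ (by omega))] at h2
    simp only [Nat.cast_pow, Nat.cast_one, ZMod.pow_card] at h2
    rw [← ZMod.natCast_eq_zero_iff, Nat.cast_sub (by omega)]
    simpa using h2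
  have htnA : ¬ t ∣ A := by
    intro h
    have := (Nat.dvd_sub h htA)
    rw [show A - (A - 1) = 1 by omega] at this
    exact ht.one_lt.ne' (Nat.dvd_one.1 this)
  have hlte := padicValNat.pow_sub_pow ht2 hA2 (by simpa using htA) htnA ht.ne_zero
  rw [one_pow, padicValNat_self, ] at hlte
  set v := padicValNat t (A - 1) with hv
  have h3 : t ^ v ∣ A - 1 := pow_padicValNat_dvd
  have h4 : t ^ (v + 2) ∣ A ^ t - 1 := by
    have : t ^ (v + 2) = (t * t) * t ^ v := by ring
    rw [this]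
    exact (Nat.mul_dvd_mul hsq h3).trans hmul
  have hne : A ^ t - 1 ≠ 0 := by
    have : 1 < A ^ t := Nat.one_lt_pow ht.ne_zero hA2
    omega
  have h5 := (padicValNat_dvd_iff_le hne).1 h4
  omega

/-- The prime two. -/
lemma not_sq_dvd_two (e q : ℕ) (hq : 2 ≤ q) (he : 3 ≤ e)
    (hdvd : 2 ∣ Phi e q) (hte : 2 ∣ e) : ¬ 2 * 2 ∣ Phi e q := by
  have f2 : Fact (Nat.Prime 2) := ⟨Nat.prime_two⟩
  intro hsq
  obtain ⟨d, rfl⟩ := hte
  have hd0 : 2 ≤ d := by omega
  have hmul := Phi_mul_dvd (2 * d) q d hq (by omega) (Dvd.intro_left 2 rfl) (by omega) (by omega)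
  have hqodd : Odd q := by
    have h1 : 2 ∣ q ^ (2 * d) - 1 := hdvd.trans (Phi_dvd _ q hq)
    by_contra hodd
    rw [Nat.not_odd_iff_even] at hodd
    have h2 : 2 ∣ q ^ (2 * d) := (even_iff_two_dvd.1 hodd).trans (dvd_pow_self _ (by omega))
    have h3 := one_le_pow' hq (2 * d)
    omega
  rcases Nat.even_or_odd d with hd | hd
  · -- `q ^ d` is an odd square
    obtain ⟨c, rfl⟩ := hd
    set B := q ^ c with hB
    have hBodd : Odd B := hqodd.pow
    have hB1 : 1 < B := by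
      calc 1 < q := by omega
        _ ≤ q ^ c := Nat.le_self_pow (by omega) q
    have e1 : q ^ (c + c) = B * B := by rw [hB, pow_add]
    have e2 : q ^ (2 * (c + c)) = (B * B) * (B * B) := by rw [two_mul, pow_add, e1]
    rw [e1, e2] at hmul
    have hBB : 1 ≤ B * B := by nlinarith
    have e3 : B * B * (B * B) - 1 = (B * B - 1) * (B * B + 1) := by
      obtain ⟨y, hy⟩ := Nat.exists_eq_add_of_le hBB
      rw [hy]
      simp only [Nat.add_sub_cancel_left]
      have : (1 + y) * (1 + y) - 1 = y * (y + 2) := by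
        have : (1 + y) * (1 + y) = y * (y + 2) + 1 := by ring
        omega
      rw [this]
      ring
    rw [e3, mul_comm (Phi _ _)] at hmul
    have hBBpos : 0 < B * B - 1 := by nlinarith [hB1, Nat.sub_pos_of_lt (by nlinarith : 1 < B * B)]
    have h6 : Phi (2 * (c + c)) q ∣ B * B + 1 := Nat.dvd_of_mul_dvd_mul_left hBBpos hmul
    have h7 : 4 ∣ B * B + 1 := (by simpa using hsq : 4 ∣ Phi (2 * (c + c)) q).trans h6
    obtain ⟨b, hb⟩ := hBodd
    have h8 : (B * B + 1) % 4 = 2 := by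
      rw [hb]
      have : (2 * b + 1) * (2 * b + 1) + 1 = 4 * (b * b + b) + 2 := by ring
      rw [this]
      omega
    omega
  · -- `d` is odd: Φ is odd
    have hne : NeZero ((d : ℕ) : ZMod 2) := ⟨by
      intro h
      have := (ZMod.natCast_eq_zero_iff _ _).1 h
      rcases hd with ⟨b, rfl⟩
      omega⟩
    have hroot := isRoot_of_dvd (2 * d) q 2 hq hdvd
    have e1 : 2 * d = 2 ^ 1 * d := by ring
    rw [e1, isRoot_cyclotomic_prime_pow_mul_iff_of_charP] at hroot
    have hq1 : ((q : ℕ) : ZMod 2) = 1 := by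
      rcases hqodd with ⟨b, rfl⟩
      simp only [Nat.cast_add, Nat.cast_mul, Nat.cast_one]
      have : ((2 : ℕ) : ZMod 2) = 0 := ZMod.natCast_self 2
      rw [this]
      simp
    rw [hq1] at hroot
    have := hroot.dvd_of_pow_eq_one 1 (by simp)
    have := Nat.dvd_one.1 this
    omega

lemma not_sq_dvd (e q t : ℕ) (hq : 2 ≤ q) (he : 3 ≤ e) (ht : t.Prime)
    (hdvd : t ∣ Phi e q) (hte : t ∣ e) : ¬ t * t ∣ Phi e q := by
  rcases ht.eq_two_or_odd' with rfl | h
  · exact not_sq_dvd_two e q hq he hdvd hte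
  · exact not_sq_dvd_odd e q t hq (by omega) ht h hdvd hte

/-- Existence of a big primitive divisor from a big value of the cyclotomic polynomial. -/
lemma exists_prim (e q : ℕ) (hq : 2 ≤ q) (he : 3 ≤ e) (hbig : e * (3 * e + 1) ≤ Phi e q) :
    ∃ m : ℕ, m ∣ q ^ e - 1 ∧ (∀ i : ℕ, 1 ≤ i → i < e → Nat.Coprime m (q ^ i - 1)) ∧ 3 * e + 1 ≤ m := by
  set g := Nat.gcd (Phi e q) e with hg
  have hgdvd : g ∣ Phi e q := Nat.gcd_dvd_left _ _
  obtain ⟨m, hm⟩ := hgdvd
  have hPpos := Phi_pos e q hq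
  have hmdvd : m ∣ Phi e q := ⟨g, by rw [hm, mul_comm]⟩
  have hgpos : 0 < g := Nat.gcd_pos_of_pos_right _ (by omega)
  have hmcop : Nat.Coprime m e := by
    apply Nat.coprime_of_dvd
    intro t ht htm hte
    have h1 : t ∣ Phi e q := htm.trans hmdvd
    have h2 : t ∣ g := Nat.dvd_gcd h1 hte
    apply not_sq_dvd e q t hq he ht h1 hte
    rw [hm, mul_comm]
    exact Nat.mul_dvd_mul h2 htm
  refine ⟨m, hmdvd.trans (Phi_dvd e q hq), ?_, ?_⟩
  · intro i hi hie
    apply Nat.coprime_of_dvd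
    intro t ht htm hti
    have h1 : t ∣ Phi e q := htm.trans hmdvd
    have h2 : ¬ t ∣ e := fun h => by
      have := Nat.dvd_gcd htm h
      rw [hmcop] at this
      exact ht.one_lt.ne' (Nat.dvd_one.1 this)
    exact prime_primitive e q t i hq ht h1 h2 (by omega) hie hti
  · have hge : g ≤ e := Nat.le_of_dvd (by omega) (Nat.gcd_dvd_right _ _)
    by_contra hlt
    have h3 : m ≤ 3 * e := by omega
    have : g * m ≤ e * (3 * e) := Nat.mul_le_mul hge h3
    rw [← hm] at this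
    have h4 : e * (3 * e + 1) = e * (3 * e) + e := by ring
    omega

/-- The infinite product bound. -/
lemma prod_bound (n : ℕ) (hn : 1 ≤ n) :
    (1 : ℝ) / 4 + 1 / 2 ^ (n + 1) ≤ ∏ b ∈ Finset.Icc 1 n, (1 - 1 / (2 : ℝ) ^ b) := by
  induction n, hn using Nat.le_induction with
  | base => norm_num
  | succ n hn ih =>
    rw [Finset.prod_Icc_succ_top (by omega)]
    have hx : (1 : ℝ) / 2 ^ (n + 1) ≤ 1 / 4 := by
      have : (2 : ℝ) ^ 2 ≤ 2 ^ (n + 1) := pow_le_pow_right₀ (by norm_num) (by omega)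
      rw [div_le_div_iff₀ (by positivity) (by norm_num)]
      norm_num at this ⊢
      linarith
    have hx0 : (0 : ℝ) < 1 / 2 ^ (n + 1) := by positivity
    have e1 : (1 : ℝ) / 2 ^ (n + 1 + 1) = (1 / 2 ^ (n + 1)) / 2 := by
      rw [pow_succ _ (n + 1)]; field_simp
    set y : ℝ := 1 / 2 ^ (n + 1) with hy
    rw [e1]
    have h1 : 0 ≤ 1 - y := by linarith
    calc (1 : ℝ) / 4 + y / 2 ≤ (1 / 4 + y) * (1 - y) := by nlinarith
      _ ≤ _ := mul_le_mul_of_nonneg_right ih h1

/-- Lower bound for the value of a cyclotomic polynomial. -/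
lemma Phi_lower (e q : ℕ) (hq : 2 ≤ q) (he : 0 < e) : q ^ e.totient ≤ 4 * Phi e q := by
  set x : ℝ := (q : ℝ) with hx
  have hx2 : (2 : ℝ) ≤ x := by rw [hx]; exact_mod_cast hq
  have hx0 : 0 < x := by linarith
  let F : ℕ → ℝ := fun n => (cyclotomic n ℝ).eval x
  have hFpos : ∀ n, 0 < F n := fun n => cyclotomic_pos' n (by linarith)
  let f : ℕ → ℝ := fun n => F n / x ^ n.totient
  let g : ℕ → ℝ := fun n => (x ^ n - 1) / x ^ n
  have hgx : ∀ n, 0 < n → 1 < x ^ n := fun n hn => one_lt_pow₀ (by linarith) hn.ne'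
  have hgpos : ∀ n, 0 < n → 0 < g n := fun n hn => div_pos (by linarith [hgx n hn]) (by positivity)
  have hgle : ∀ n, g n ≤ 1 := fun n => by
    apply div_le_one_of_le₀ (by linarith) (by positivity)
  have hgeq : ∀ n, g n = 1 - 1 / x ^ n := fun n => by
    have : x ^ n ≠ 0 := by positivity
    simp only [g]
    field_simp
  have hg2 : ∀ n, 1 - 1 / (2 : ℝ) ^ n ≤ g n := fun n => by
    rw [hgeq]
    have : 1 / x ^ n ≤ 1 / (2 : ℝ) ^ n :=
      one_div_le_one_div_of_le (by positivity) (pow_le_pow_left₀ (by norm_num) hx2 n)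
    linarith
  have h1 : ∀ n > 0, ∏ i ∈ n.divisors, f i = g n := by
    intro n hn
    simp only [f, g]
    rw [Finset.prod_div_distrib, Finset.prod_pow_eq_pow_sum, Nat.sum_totient]
    congr 1
    have := congrArg (eval x) (prod_cyclotomic_eq_X_pow_sub_one hn ℝ)
    rw [eval_prod] at this
    simpa using this
  have h2 := (ArithmeticFunction.prod_eq_iff_prod_pow_moebius_eq_of_nonzero
    (fun n _ => (div_pos (hFpos n) (by positivity)).ne') (fun n hn => (hgpos n hn).ne')).1 h1 e he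
  have h3 : ∏ b ∈ Finset.Icc 1 e, g b ≤ f e := by
    have h2' : ∏ x_1 ∈ e.divisorsAntidiagonal, g x_1.2 ^ ArithmeticFunction.moebius x_1.1 = f e := h2
    rw [← h2']
    have step1 : ∏ x_1 ∈ e.divisorsAntidiagonal, g x_1.2 ≤
        ∏ x_1 ∈ e.divisorsAntidiagonal, g x_1.2 ^ ArithmeticFunction.moebius x_1.1 := by
      apply Finset.prod_le_prod
      · intro i hi
        exact (hgpos _ (Nat.pos_of_mem_divisors (Nat.snd_mem_divisors_of_mem_antidiagonal hi))).le
      · intro i hi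
        have hb := hgpos _ (Nat.pos_of_mem_divisors (Nat.snd_mem_divisors_of_mem_antidiagonal hi))
        have hb1 := hgle i.2
        rcases ArithmeticFunction.moebius_eq_or i.1 with h | h | h
        · rw [h, zpow_zero]; exact hb1
        · rw [h, zpow_one]
        · rw [h, zpow_neg_one]
          exact hb1.trans ((one_le_inv₀ hb).2 hb1)
    refine le_trans ?_ step1
    rw [Nat.prod_divisorsAntidiagonal' (fun _ b => g b)]
    have hsub : e.divisors ⊆ Finset.Icc 1 e := fun b hb =>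
      Finset.mem_Icc.2 ⟨Nat.pos_of_mem_divisors hb, Nat.divisor_le hb⟩
    rw [← Finset.prod_sdiff hsub]
    apply mul_le_of_le_one_left
    · apply Finset.prod_nonneg
      intro b hb
      exact (hgpos _ (Nat.pos_of_mem_divisors hb)).le
    · apply Finset.prod_le_one
      · intro b hb
        exact (hgpos _ (Finset.mem_Icc.1 (Finset.mem_sdiff.1 hb).1).1).le
      · intro b _
        exact hgle b
  have h4 : (1 : ℝ) / 4 ≤ ∏ b ∈ Finset.Icc 1 e, g b := by
    have h5 := prod_bound e he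
    have h6 : ∏ b ∈ Finset.Icc 1 e, (1 - 1 / (2 : ℝ) ^ b) ≤ ∏ b ∈ Finset.Icc 1 e, g b := by
      apply Finset.prod_le_prod
      · intro b hb
        have hb1 := (Finset.mem_Icc.1 hb).1
        have : (1 : ℝ) / 2 ^ b ≤ 1 / 2 ^ 1 :=
          one_div_le_one_div_of_le (by positivity) (pow_le_pow_right₀ (by norm_num) hb1)
        norm_num at this ⊢
        linarith
      · intro b _
        exact hg2 b
    have h7 : (0 : ℝ) < 1 / 2 ^ (e + 1) := by positivity
    linarith
  have h5 : (1 : ℝ) / 4 ≤ F e / x ^ e.totient := h4.trans h3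
  have hFe : F e = ((Phi e q : ℕ) : ℝ) := by
    have h6 := congrArg (fun t : ℤ => (t : ℝ)) (Phi_cast e q hq)
    simp only [Int.cast_natCast] at h6
    rw [h6]
    simp only [F]
    rw [← map_cyclotomic_int e ℝ, hx]
    have h8 : ((q : ℕ) : ℝ) = (((q : ℤ)) : ℝ) := by simp
    rw [h8, eval_intCast_map]
    simp
  have h6 : x ^ e.totient ≤ 4 * F e := by
    have hpos : 0 < x ^ e.totient := by positivity
    rw [le_div_iff₀ hpos] at h5
    linarith
  rw [hFe, hx] at h6
  exact_mod_cast h6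

/-- The totient is not too small. -/
lemma totient_aux (n : ℕ) : (Odd n → n ≤ n.totient ^ 2) ∧ (n ≤ 2 * n.totient ^ 2) := by
  induction n using Nat.recOnPosPrimePosCoprime with
  | prime_pow p k hp hk =>
    rw [Nat.totient_prime_pow hp hk]
    obtain ⟨j, rfl⟩ : ∃ j, k = j + 1 := ⟨k - 1, by omega⟩
    simp only [Nat.add_sub_cancel]
    rcases hp.eq_two_or_odd' with rfl | hodd
    · constructor
      · intro h
        exfalso
        rw [Nat.odd_iff] at h
        rw [pow_succ] at h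
        omega
      · have : 2 ^ (j + 1) ≤ 2 * (2 ^ j * (2 - 1)) ^ 2 := by
          simp only [Nat.add_one_sub_one, mul_one]
          rw [pow_succ, ← pow_mul]
          have : 2 ^ j ≤ 2 ^ (j * 2) := Nat.pow_le_pow_right (by norm_num) (by omega)
          omega
        exact this
    · have hp3 : 3 ≤ p := by
        have := hp.two_le
        rcases hodd with ⟨b, rfl⟩
        omega
      have h1 : p ≤ (p - 1) ^ 2 := by
        obtain ⟨c, rfl⟩ : ∃ c, p = c + 3 := ⟨p - 3, by omega⟩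
        simp only [show c + 3 - 1 = c + 2 by omega]
        nlinarith
      have h2 : p ^ j ≤ (p ^ j) ^ 2 := by nlinarith [Nat.one_le_pow j p (by omega)]
      have h3 : p ^ (j + 1) ≤ (p ^ j * (p - 1)) ^ 2 := by
        rw [pow_succ, mul_pow]
        exact Nat.mul_le_mul h2 h1
      exact ⟨fun _ => h3, by omega⟩
  | zero => simp
  | one => simp
  | coprime a b ha hb hab iha ihb =>
    rw [Nat.totient_mul hab, mul_pow]
    constructor
    · intro h
      have h1 := Nat.odd_mul.1 h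
      exact Nat.mul_le_mul (iha.1 h1.1) (ihb.1 h1.2)
    · rcases Nat.even_or_odd a with hae | hao
      · have hbo : Odd b := by
          rcases Nat.even_or_odd b with hbe | hbo
          · exfalso
            have := Nat.dvd_gcd (even_iff_two_dvd.1 hae) (even_iff_two_dvd.1 hbe)
            rw [hab] at this
            omega
          · exact hbo
        have := Nat.mul_le_mul iha.2 (ihb.1 hbo)
        calc a * b ≤ 2 * a.totient ^ 2 * b.totient ^ 2 := this
          _ = _ := by ring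
      · have := Nat.mul_le_mul (iha.1 hao) ihb.2
        calc a * b ≤ a.totient ^ 2 * (2 * b.totient ^ 2) := this
          _ = _ := by ring

lemma pow_bound (n : ℕ) (hn : 24 ≤ n) : 48 * n ^ 4 + 8 * n ^ 2 ≤ 2 ^ n := by
  induction n, hn using Nat.le_induction with
  | base => norm_num
  | succ n hn ih =>
    obtain ⟨k, rfl⟩ : ∃ k, n = k + 24 := ⟨n - 24, by omega⟩
    rw [pow_succ 2]
    calc 48 * (k + 24 + 1) ^ 4 + 8 * (k + 24 + 1) ^ 2
        ≤ 48 * (k + 24 + 1) ^ 4 + 8 * (k + 24 + 1) ^ 2 +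
          (48 * k ^ 4 + 4416 * k ^ 3 + 151784 * k ^ 2 + 2308784 * k + 13104712) := Nat.le_add_right _ _
      _ = 2 * (48 * (k + 24) ^ 4 + 8 * (k + 24) ^ 2) := by ring
      _ ≤ 2 * 2 ^ (k + 24) := Nat.mul_le_mul_left 2 ih
      _ = 2 ^ (k + 24) * 2 := mul_comm _ _

/-- The exceptional pairs. -/
def exc : List (ℕ × ℕ) :=
  [(2, 6), (2, 4), (2, 10), (2, 12), (2, 18), (3, 4), (3, 6), (5, 6), (2, 3), (2, 8), (2, 20),
    (4, 3), (4, 6)]

/-- Removing from `N` its common part with `x`. -/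
def strip (x : ℕ) : ℕ → ℕ → ℕ
  | 0, N => N
  | k + 1, N => strip x k (N / Nat.gcd N x)

/-- The primitive part. -/
def primPart (q e : ℕ) : ℕ :=
  (List.range' 1 (e - 1)).foldl (fun N i => strip (q ^ i - 1) 8 N) (q ^ e - 1)

lemma strip_dvd {m x : ℕ} (hc : Nat.Coprime m x) : ∀ k N, m ∣ N → m ∣ strip x k N := by
  intro k
  induction k with
  | zero => intro N h; exact h
  | succ k ih =>
    intro N h
    apply ih
    have h1 : Nat.gcd N x ∣ N := Nat.gcd_dvd_left _ _
    have h2 : Nat.Coprime m (Nat.gcd N x) := Nat.Coprime.coprime_dvd_right (Nat.gcd_dvd_right _ _) hc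
    have h3 : m ∣ Nat.gcd N x * (N / Nat.gcd N x) := by
      rw [Nat.mul_div_cancel' h1]; exact h
    exact h2.dvd_of_dvd_mul_left h3

lemma dvd_primPart (q e m : ℕ) (h1 : m ∣ q ^ e - 1)
    (h2 : ∀ i : ℕ, 1 ≤ i → i < e → Nat.Coprime m (q ^ i - 1)) : m ∣ primPart q e := by
  have key : ∀ (L : List ℕ), (∀ i ∈ L, Nat.Coprime m (q ^ i - 1)) → ∀ N, m ∣ N →
      m ∣ L.foldl (fun N i => strip (q ^ i - 1) 8 N) N := by
    intro L
    induction L with
    | nil => intro _ N h; exact h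
    | cons a L ih =>
      intro hL N h
      rw [List.foldl_cons]
      exact ih (fun i hi => hL i (List.mem_cons_of_mem _ hi)) _
        (strip_dvd (hL a List.mem_cons_self) _ _ h)
  apply key _ _ _ h1
  intro i hi
  rw [List.mem_range'_1] at hi
  exact h2 i hi.1 (by omega)

/-- What the finite check verifies. -/
def chk (q e m : ℕ) : Prop :=
  m ∣ q ^ e - 1 ∧ (∀ i ∈ Finset.Ico 1 e, Nat.Coprime m (q ^ i - 1)) ∧ 3 * e + 1 ≤ m

instance (q e m : ℕ) : Decidable (chk q e m) := by unfold chk; infer_instance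

theorem region_large : ∀ e ∈ Finset.Icc 43 1058, 4 * e * (3 * e + 1) ≤ 2 ^ e.totient := by
  decide +kernel

theorem region_small : ∀ e ∈ Finset.Icc 3 42, ∀ q ∈ Finset.Icc 2 146,
    q ^ e.totient < 4 * e * (3 * e + 1) → (q, e) ∉ exc → chk q e (primPart q e) := by
  decide +kernel

theorem exc_bound : ∀ p ∈ exc, 0 < primPart p.1 p.2 ∧ primPart p.1 p.2 ≤ 2 * p.2 + 1 := by
  decide +kernel


/-- For large `e`, the region is empty. -/
lemma e_le_of_small (e q : ℕ) (hq : 2 ≤ q) (he : 3 ≤ e) (h : q ^ e.totient < 4 * e * (3 * e + 1)) :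
    e ≤ 42 := by
  have h2 : 2 ^ e.totient ≤ q ^ e.totient := Nat.pow_le_pow_left hq _
  have h3 := (totient_aux e).2
  set f := e.totient with hf
  have hf23 : f ≤ 23 := by
    by_contra hcon
    have h4 := pow_bound f (by omega)
    have h5 : 4 * e * (3 * e + 1) ≤ 48 * f ^ 4 + 8 * f ^ 2 := by
      have h6 : e * e ≤ (2 * f ^ 2) * (2 * f ^ 2) := Nat.mul_le_mul h3 h3
      have e1 : 4 * e * (3 * e + 1) = 12 * (e * e) + 4 * e := by ring
      have e2 : (2 * f ^ 2) * (2 * f ^ 2) = 4 * f ^ 4 := by ring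
      rw [e1]
      rw [e2] at h6
      omega
    omega
  by_contra hcon
  have hle : e ≤ 1058 := by
    have : f ^ 2 ≤ 23 ^ 2 := Nat.pow_le_pow_left hf23 2
    omega
  have : 4 * e * (3 * e + 1) ≤ 2 ^ f := region_large e (Finset.mem_Icc.2 ⟨by omega, hle⟩)
  omega

theorem result (q e : ℕ) (hq : IsPrimePow q) (he : 3 ≤ e) :
    ((q, e) ∉ [(2, 6), (2, 4), (2, 10), (2, 12), (2, 18), (3, 4), (3, 6), (5, 6), (2, 3), (2, 8), (2, 20), (4, 3), (4, 6)] →
      ∃ m : ℕ, m ∣ q ^ e - 1 ∧ (∀ i : ℕ, 1 ≤ i → i < e → Nat.Coprime m (q ^ i - 1)) ∧ 3 * e + 1 ≤ m) ∧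
    ((q, e) ∈ [(2, 6), (2, 4), (2, 10), (2, 12), (2, 18), (3, 4), (3, 6), (5, 6), (2, 3), (2, 8), (2, 20), (4, 3), (4, 6)] →
      ∀ m : ℕ, m ∣ q ^ e - 1 → (∀ i : ℕ, 1 ≤ i → i < e → Nat.Coprime m (q ^ i - 1)) → m ≤ 2 * e + 1) := by
  have hq2 : 2 ≤ q := hq.two_le
  constructor
  · intro hne
    by_cases hbig : 4 * e * (3 * e + 1) ≤ q ^ e.totient
    · apply exists_prim e q hq2 he
      have h1 := Phi_lower e q hq2 (by omega)
      have h2 : 4 * (e * (3 * e + 1)) ≤ 4 * Phi e q := by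
        calc 4 * (e * (3 * e + 1)) = 4 * e * (3 * e + 1) := by ring
          _ ≤ _ := hbig.trans h1
      omega
    · push Not at hbig
      have he42 := e_le_of_small e q hq2 he hbig
      have hphi : 2 ≤ e.totient := by
        have h1 : Even e.totient := Nat.totient_even (by omega)
        have h2 : 0 < e.totient := Nat.totient_pos.2 (by omega)
        rcases h1 with ⟨c, hc⟩
        omega
      have hq146 : q ≤ 146 := by
        by_contra hcon
        have h1 : q ^ 2 ≤ q ^ e.totient := Nat.pow_le_pow_right (by omega) hphi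
        have h2 : 147 ^ 2 ≤ q ^ 2 := Nat.pow_le_pow_left (by omega) 2
        have h3 : 4 * e * (3 * e + 1) ≤ 4 * 42 * (3 * 42 + 1) :=
          Nat.mul_le_mul (Nat.mul_le_mul_left 4 he42) (by omega)
        omega
      obtain ⟨h1, h2, h3⟩ := region_small e (Finset.mem_Icc.2 ⟨he, he42⟩) q
        (Finset.mem_Icc.2 ⟨hq2, hq146⟩) hbig hne
      exact ⟨primPart q e, h1, fun i hi hie => h2 i (Finset.mem_Ico.2 ⟨hi, hie⟩), h3⟩
  · intro hmem m hm hcop
    obtain ⟨h1, h2⟩ := exc_bound (q, e) hmem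
    exact (Nat.le_of_dvd h1 (dvd_primPart q e m hm hcop)).trans h2

end Cfsg.Agent.S4423
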