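import Mathlib
import Cfsg.Statements.S4424
import Cfsg.Agent.Lib.BlockHeightQ

set_option autoImplicit false
set_option linter.unusedSectionVars false
set_option linter.unusedVariables false
open Cfsg
open scoped Pointwise

namespace Cfsg.Agent.S4424

open Cfsg.Agent.Lib.BlockQ Cfsg.Agent.Lib.BlockIdem Cfsg.Agent.Lib.BlockOsima Cfsg.Agent.Lib.BlockOrtho Cfsg.Agent.Lib.BlockDefect

theorem result {G : Type*} [Group G] [Finite G] (p : ℕ) [Fact p.Prime] (M : Ideal Cfsg.AlgInt) (hM : Cfsg.IsPModular p M) (B : Set (Cfsg.IrrCharacter G)) (hB : Cfsg.IsPBlock M B) (χ : Cfsg.IrrCharacter G) (hχ : χ ∈ B) : ∃ a : Cfsg.IrrCharacter G → ℤ, (∀ ψ, ψ ∉ B → a ψ = 0) ∧ (fun x : G => if p ∣ orderOf x then (0 : ℂ) else ((p ^ (Nat.card G).factorization p : ℕ) : ℂ) * (χ : G → ℂ) x) = fun x => ∑ᶠ ψ : Cfsg.IrrCharacter G, (a ψ : ℂ) * (ψ : G → ℂ) x := by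
  classical
  letI := Fintype.ofFinite G
  have hMp := hM.2.1.isPrime
  have hcard := card_factorization_eq (M := M) (p := p) hB
  set a₀ := minExp p B with ha₀
  refine ⟨fun ψ => if ψ ∈ B then (p : ℤ) ^ a₀ * Q p B χ ψ else 0, ?_, ?_⟩
  · intro ψ hψ
    simp [hψ]
  · funext x
    have h1 := pow_mul_pRegularPart hM hB hχ x
    rw [finsum_eq_sum_of_fintype]
    have h2 : ∑ ψ : IrrCharacter G, (((if ψ ∈ B then (p : ℤ) ^ a₀ * Q p B χ ψ else 0 : ℤ)) : ℂ) *
        (ψ : G → ℂ) x = ∑ ψ ∈ bF B, ((p : ℂ) ^ a₀) * ((Q p B χ ψ : ℂ) * (ψ : G → ℂ) x) := by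
      rw [← Finset.sum_subset (Finset.subset_univ (bF B))]
      · refine Finset.sum_congr rfl fun ψ hψ => ?_
        rw [if_pos (mem_bF.mp hψ)]
        push_cast
        ring
      · intro ψ _ hψ
        rw [if_neg (fun h => hψ (mem_bF.mpr h))]
        simp
    rw [h2, ← Finset.mul_sum, ← h1]
    by_cases hx : p ∣ orderOf x
    · rw [if_pos hx, pRegularPart_of_sing _ hx]
      simp
    · rw [if_neg hx, pRegularPart_of_reg _ hx, hcard]
      push_cast
      ring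

end Cfsg.Agent.S4424
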