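import Mathlib
import Cfsg.Statements.S4425
import Cfsg.Agent.Lib.BlockHeightQ
import Cfsg.Agent.Lib.GenChar

set_option autoImplicit false
set_option linter.unusedSectionVars false
set_option linter.unusedVariables false
open Cfsg
open scoped Pointwise

namespace Cfsg.Agent.S4425

open Cfsg.Agent.Lib.BlockQ Cfsg.Agent.Lib.BlockIdem Cfsg.Agent.Lib.BlockOsima
open Cfsg.Agent.Lib.BlockOrtho Cfsg.Agent.Lib.BlockDefect Cfsg.Agent.Lib.GenChar Cfsg.Agent.Lib.CharBasic

theorem isGen_sum_zsmul {G : Type*} [Group G] (s : Finset (IrrCharacter G))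
    (n : IrrCharacter G → ℤ) :
    IsGeneralizedCharacter G (∑ ψ ∈ s, (n ψ) • (ψ : G → ℂ)) :=
  Finset.sum_induction _ (IsGeneralizedCharacter G) (fun _ _ h1 h2 => isGen_add h1 h2) isGen_zero
    (fun ψ _ => isGen_zsmul (isGen_of_isIrr ψ.2) _)

theorem result {G : Type*} [Group G] [Finite G] (p : ℕ) [Fact p.Prime] (χ : Cfsg.IrrCharacter G) : Cfsg.IsGeneralizedCharacter G (fun x : G => if p ∣ orderOf x then (0 : ℂ) else ((p ^ ((Nat.card G).factorization p - (Cfsg.charDegree (χ : G → ℂ)).factorization p) : ℕ) : ℂ) * (χ : G → ℂ) x) ∧ ¬ Cfsg.IsGeneralizedCharacter G (fun x : G => if p ∣ orderOf x then (0 : ℂ) else ((p ^ (Nat.card G).factorization p : ℕ) : ℂ) / ((p ^ ((Cfsg.charDegree (χ : G → ℂ)).factorization p + 1) : ℕ) : ℂ) * (χ : G → ℂ) x) := by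
  classical
  letI := Fintype.ofFinite G
  have hp : p.Prime := Fact.out
  have hpC : (p : ℂ) ≠ 0 := by exact_mod_cast hp.ne_zero
  constructor
  · obtain ⟨M, hM⟩ := Cfsg.Agent.Lib.BlockVal.exists_isPModular hp
    have hMp := hM.2.1.isPrime
    set B := blockOf M (χ : G → ℂ) with hBdef
    have hB : IsPBlock M B := ⟨χ, rfl⟩
    have hχ : χ ∈ B := mem_blockOf_self χ
    have hcard := card_factorization_eq (M := M) (p := p) hB
    have hdeg := charDegree_factorization_eq (p := p) hχ
    set h := blockHeight p B (χ : G → ℂ) with hh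
    set d := blockDefect p B with hd
    have hdvd : ∀ ψ ∈ B, (p : ℤ) ^ h ∣ Q p B χ ψ := by
      intro ψ hψ
      rw [Q_symm hM hB hχ hψ]
      exact pow_height_dvd_Q hM hB ψ hχ
    choose! n hn using hdvd
    have hle : (charDegree (χ : G → ℂ)).factorization p ≤ (Nat.card G).factorization p :=
      (Nat.factorization_le_iff_dvd (Cfsg.Agent.Lib.CharKernel.charDegree_ne_zero χ.2)
        Nat.card_pos.ne').mpr (Cfsg.Agent.Lib.CharKernel.charDegree_dvd_card χ.2) p
    have hexp : (Nat.card G).factorization p - (charDegree (χ : G → ℂ)).factorization p + h = d := by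
      omega
    have hf : (fun x : G => if p ∣ orderOf x then (0 : ℂ) else ((p ^ ((Nat.card G).factorization p - (charDegree (χ : G → ℂ)).factorization p) : ℕ) : ℂ) * (χ : G → ℂ) x) =
        ∑ ψ ∈ bF B, (n ψ) • (ψ : G → ℂ) := by
      funext x
      have h1 := pow_mul_pRegularPart hM hB hχ x
      have h2 : ∑ ψ ∈ bF B, (Q p B χ ψ : ℂ) * (ψ : G → ℂ) x =
          (p : ℂ) ^ h * (∑ ψ ∈ bF B, (n ψ) • (ψ : G → ℂ)) x := by
        rw [Finset.sum_apply, Finset.mul_sum]
        refine Finset.sum_congr rfl fun ψ hψ => ?_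
        rw [hn ψ (mem_bF.mp hψ)]
        simp only [Pi.smul_apply, zsmul_eq_mul]
        push_cast
        ring
      rw [h2] at h1
      have h3 : (p : ℂ) ^ h ≠ 0 := pow_ne_zero _ hpC
      apply mul_left_cancel₀ h3
      rw [← h1]
      by_cases hx : p ∣ orderOf x
      · rw [if_pos hx, pRegularPart_of_sing _ hx]
        simp
      · rw [if_neg hx, pRegularPart_of_reg _ hx, ← hd, ← hexp, pow_add]
        push_cast
        ring
    rw [hf]
    exact isGen_sum_zsmul _ _
  · intro hgen
    obtain ⟨m, hm⟩ := exists_int_decomp hgen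
    set F : G → ℂ := fun x : G => if p ∣ orderOf x then (0 : ℂ) else ((p ^ (Nat.card G).factorization p : ℕ) : ℂ) / ((p ^ ((charDegree (χ : G → ℂ)).factorization p + 1) : ℕ) : ℂ) * (χ : G → ℂ) x with hF
    have hval : ∀ x : G, F x = ∑ i, (m i : ℂ) * (i : G → ℂ) x := by
      intro x
      rw [hm, Finset.sum_apply]
      refine Finset.sum_congr rfl fun i _ => ?_
      simp
    have hdvd := pow_dvd_sum_of_vanish (G := G) hp Finset.univ m (by
      intro g hg
      rw [← hval, hF]
      simp [hg])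
    obtain ⟨t, ht⟩ := hdvd
    set b := (charDegree (χ : G → ℂ)).factorization p with hb
    set u := ordCompl[p] (charDegree (χ : G → ℂ)) with hu
    have hdeg0 : charDegree (χ : G → ℂ) ≠ 0 := Cfsg.Agent.Lib.CharKernel.charDegree_ne_zero χ.2
    have hu1 : p ^ b * u = charDegree (χ : G → ℂ) := Nat.ordProj_mul_ordCompl_eq_self _ _
    have hu2 : ¬ p ∣ u := Nat.not_dvd_ordCompl hp hdeg0
    have h1 : F 1 = ((p : ℂ) ^ (Nat.card G).factorization p) * ((u : ℂ) / (p : ℂ)) := by
      rw [hF]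
      simp only [orderOf_one]
      rw [if_neg (by simp [hp.one_lt.ne'] ), Cfsg.Agent.Lib.CharKernel.one_eq_charDegree (IsIrrCharacter.isCharacter χ.2), ← hu1]
      push_cast
      rw [pow_succ]
      field_simp
    have h2 : F 1 = (((p : ℤ) ^ (Nat.card G).factorization p * t : ℤ) : ℂ) := by
      rw [hval, ← ht]
      push_cast
      refine Finset.sum_congr rfl fun i _ => ?_
      rw [Cfsg.Agent.Lib.CharKernel.one_eq_charDegree (IsIrrCharacter.isCharacter i.2)]
    rw [h1] at h2
    have h3 : (p : ℂ) ^ (Nat.card G).factorization p ≠ 0 := pow_ne_zero _ hpC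
    push_cast at h2
    have h4 := mul_left_cancel₀ h3 h2
    have h5 : (u : ℂ) = (p : ℂ) * (t : ℂ) := by
      rw [← h4]
      field_simp
    have h6 : (u : ℤ) = (p : ℤ) * t := by exact_mod_cast h5
    apply hu2
    have h7 : (p : ℤ) ∣ (u : ℤ) := ⟨t, h6⟩
    exact_mod_cast h7

end Cfsg.Agent.S4425
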