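import Mathlib
import Cfsg.Statements.S4426
import Cfsg.Agent.Lib.BlockHeightQ

set_option autoImplicit false
set_option linter.unusedSectionVars false
set_option linter.unusedVariables false
open Cfsg
open scoped Pointwise

namespace Cfsg.Agent.S4426

open Cfsg.Agent.Lib.BlockQ Cfsg.Agent.Lib.BlockIdem Cfsg.Agent.Lib.BlockOsima
open Cfsg.Agent.Lib.BlockOrtho Cfsg.Agent.Lib.BlockDefect Cfsg.Agent.Lib.CharBasic
open Cfsg.Agent.Lib.BlockHeightQ Cfsg.Agent.Lib.BlockLocal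

universe u

variable {G : Type u} [Group G] [Fintype G] {p : ℕ} {M : Ideal AlgInt}

theorem key (hM : IsPModular p M) {B : Set (IrrCharacter G)} (hB : IsPBlock M B)
    (χ : IrrCharacter G) {ξ : IrrCharacter G} (hξ : ξ ∈ B) :
    (∃ n : ℤ, classInner (fun x : G => if p ∣ orderOf x then (0 : ℂ) else ((p ^ (Nat.card G).factorization p : ℕ) : ℂ) * (χ : G → ℂ) x) (ξ : G → ℂ) = (n : ℂ) ∧ n ≠ 0 ∧ padicValInt p n = (charDegree (ξ : G → ℂ)).factorization p) ↔
      ¬ MemLocalIdeal M (omega (ξ : G → ℂ) (regInv p (χ : G → ℂ))) := by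
  classical
  have hMp := hM.2.1.isPrime
  have hp := hM.1
  have hcard := card_factorization_eq (M := M) (p := p) hB
  have hdeg := charDegree_factorization_eq (p := p) hξ
  obtain ⟨m, hm⟩ := pow_height_dvd_Q hM hB χ hξ
  have hiff := not_memLocalIdeal_iff hM hB χ hξ hm
  rw [hiff]
  have hinner : classInner (fun x : G => if p ∣ orderOf x then (0 : ℂ) else ((p ^ (Nat.card G).factorization p : ℕ) : ℂ) * (χ : G → ℂ) x) (ξ : G → ℂ) =
      ((((p : ℤ) ^ (minExp p B + blockHeight p B (ξ : G → ℂ))) * m : ℤ) : ℂ) := by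
    have h1 : (fun x : G => if p ∣ orderOf x then (0 : ℂ) else ((p ^ (Nat.card G).factorization p : ℕ) : ℂ) * (χ : G → ℂ) x) =
        ((p : ℂ) ^ (Nat.card G).factorization p) • pRegularPart p (χ : G → ℂ) := by
      funext x
      by_cases hx : p ∣ orderOf x
      · simp [hx, pRegularPart_of_sing _ hx]
      · simp [hx, pRegularPart_of_reg _ hx]
    rw [h1, classInner_smul_left, hcard, pow_add]
    have h2 := Q_spec hM hB χ hξ
    rw [hm] at h2
    push_cast at h2 ⊢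
    calc (p : ℂ) ^ blockDefect p B * (p : ℂ) ^ minExp p B * classInner (pRegularPart p (χ : G → ℂ)) (ξ : G → ℂ)
        = (p : ℂ) ^ minExp p B * ((p : ℂ) ^ blockDefect p B * classInner (pRegularPart p (χ : G → ℂ)) (ξ : G → ℂ)) := by ring
      _ = _ := by rw [h2, pow_add]; ring
  rw [hinner, hdeg]
  constructor
  · rintro ⟨n, hn, hn0, hnv⟩
    have h1 : n = (p : ℤ) ^ (minExp p B + blockHeight p B (ξ : G → ℂ)) * m := by
      exact_mod_cast hn.symm
    subst h1
    have hm0 : m ≠ 0 := by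
      rintro rfl
      simp at hn0
    exact not_dvd_of_padicValInt_eq hp _ hm0 hnv
  · intro h
    refine ⟨_, rfl, ?_, padicValInt_pow_mul hp _ h⟩
    have hm0 : m ≠ 0 := fun h0 => h (h0 ▸ dvd_zero _)
    exact mul_ne_zero (pow_ne_zero _ (by exact_mod_cast hp.ne_zero)) hm0

theorem result {G : Type*} [Group G] [Fintype G] (p : ℕ) [Fact p.Prime] (M : Ideal Cfsg.AlgInt) (hM : Cfsg.IsPModular p M) (B : Set (Cfsg.IrrCharacter G)) (hB : Cfsg.IsPBlock M B) (χ : Cfsg.IrrCharacter G) (hχ : χ ∈ B) : (Cfsg.blockHeight p B (χ : G → ℂ) = 0 ↔ ∃ ξ ∈ B, ∃ n : ℤ, Cfsg.classInner (fun x : G => if p ∣ orderOf x then (0 : ℂ) else ((p ^ (Nat.card G).factorization p : ℕ) : ℂ) * (χ : G → ℂ) x) (ξ : G → ℂ) = (n : ℂ) ∧ n ≠ 0 ∧ padicValInt p n = (Cfsg.charDegree (ξ : G → ℂ)).factorization p) ∧ (Cfsg.blockHeight p B (χ : G → ℂ) = 0 ↔ ∀ ξ ∈ B, ∃ n : ℤ, Cfsg.classInner (fun x : G => if p ∣ orderOf x then (0 : ℂ) else ((p ^ (Nat.card G).factorization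 p : ℕ) : ℂ) * (χ : G → ℂ) x) (ξ : G → ℂ) = (n : ℂ) ∧ n ≠ 0 ∧ padicValInt p n = (Cfsg.charDegree (ξ : G → ℂ)).factorization p) := by
  classical
  have hMp := hM.2.1.isPrime
  have hW := height_zero_iff_omega hM hB hχ
  have hc := omega_regInv_mem_Zc (M := M) (p := p) (IsIrrCharacter.isCharacter χ.2)
  have hall : ∀ ξ ∈ B, (¬ MemLocalIdeal M (omega (ξ : G → ℂ) (regInv p (χ : G → ℂ))) ↔
      ¬ MemLocalIdeal M (omega (χ : G → ℂ) (regInv p (χ : G → ℂ)))) := by
    intro ξ hξ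
    rw [not_iff_not]
    have h3 := memLocalIdeal_sub_of_mem_Zc hc (Cfsg.Agent.Lib.BlockDefect.sameBlock_of_mem hB hχ hξ)
    constructor
    · intro h2
      have h4 := memLocalIdeal_add h3 h2
      simpa using h4
    · intro h2
      have h4 := memLocalIdeal_sub h2 h3
      simpa using h4
  constructor
  · constructor
    · intro h
      exact ⟨χ, hχ, (key hM hB χ hχ).mpr (hW.mp h)⟩
    · rintro ⟨ξ, hξ, h⟩
      exact hW.mpr ((hall ξ hξ).mp ((key hM hB χ hξ).mp h))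
  · constructor
    · intro h ξ hξ
      exact (key hM hB χ hξ).mpr ((hall ξ hξ).mpr (hW.mp h))
    · intro h
      exact hW.mpr ((key hM hB χ hχ).mp (h χ hχ))

end Cfsg.Agent.S4426
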