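import Mathlib
import Cfsg.Statements.S4428
import Cfsg.Agent.Lib.BlockHeightQ
import Cfsg.Agent.Lib.BrauerMap
import Cfsg.Agent.Lib.BlockInduced
import Cfsg.Agent.Lib.BlkDefect

set_option autoImplicit false
open Cfsg

namespace Cfsg.Agent.S4428

open Cfsg.Agent.Lib.CharBasic Cfsg.Agent.Lib.BlockLocal Cfsg.Agent.Lib.BlockIdem
open Cfsg.Agent.Lib.BlockQ Cfsg.Agent.Lib.BlockOrtho Cfsg.Agent.Lib.BlockHeightQ
open Cfsg.Agent.Lib.BlockOsima Cfsg.Agent.Lib.BlkBasic Cfsg.Agent.Lib.BlkOrth
open scoped ComplexConjugate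

universe u

/-- Orthogonality on regular elements. -/
theorem sum_reg_zero {C : Type u} [Group C] [Fintype C] (p : ℕ) [Fact p.Prime]
    (M : Ideal Cfsg.AlgInt) (hM : Cfsg.IsPModular p M) (b : Set (Cfsg.IrrCharacter C))
    (hb : Cfsg.IsPBlock M b) (ξ : Cfsg.IrrCharacter C) (hξ : ξ ∈ b) {θ : C → ℂ}
    (hθ : IsClassFunction C θ) (hcon : ∀ y : C, ¬ p ∣ orderOf y → Cfsg.blockPart b θ y = 0) :
    ∑ c : C, (if p ∣ orderOf c then 0 else θ c * conj ((ξ : C → ℂ) c)) = 0 := by
  classical
  haveI hMp := hM.2.1.isPrime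
  let ind : C → ℂ := fun c => if p ∣ orderOf c then 0 else 1
  let S : IrrCharacter C → ℂ := fun ψ => ∑ c : C, ind c * ((ψ : C → ℂ) c * conj ((ξ : C → ℂ) c))
  have hS : ∀ ψ, blkInd b ψ * S ψ = S ψ := by
    intro ψ
    by_cases hψ : ψ ∈ b
    · rw [blkInd, if_pos hψ, one_mul]
    · have hnot : ¬ SameBlock M (ψ : C → ℂ) (ξ : C → ℂ) := by
        intro h
        apply hψ
        obtain ⟨χ₀, rfl⟩ := hb
        have h1 : SameBlock M (χ₀ : C → ℂ) (ξ : C → ℂ) := hξ
        exact sameBlock_trans h1 (sameBlock_symm h)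
      have h0 := sum_regular_eq_zero hM ψ ξ hnot
      have h1 : S ψ = 0 := by
        rw [← h0]
        refine Finset.sum_congr rfl fun c _ => ?_
        by_cases h2 : p ∣ orderOf c
        · simp [ind, h2]
        · simp [ind, h2]
      rw [h1, mul_zero]
  have h5 := classFunction_eq_sum hθ
  have h6 : ∀ c : C, θ c = ∑ ψ : IrrCharacter C, classInner θ (ψ : C → ℂ) * (ψ : C → ℂ) c := by
    intro c
    have := congrFun h5 c
    rw [Finset.sum_apply] at this
    simpa using this
  have h7 : ∑ c : C, (if p ∣ orderOf c then 0 else θ c * conj ((ξ : C → ℂ) c)) =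
      ∑ ψ : IrrCharacter C, classInner θ (ψ : C → ℂ) * S ψ := by
    simp only [S, Finset.mul_sum]
    rw [Finset.sum_comm]
    refine Finset.sum_congr rfl fun c _ => ?_
    rw [h6 c, Finset.sum_mul]
    by_cases h2 : p ∣ orderOf c
    · simp [ind, h2]
    · simp only [ind, h2, if_false, one_mul]
      refine Finset.sum_congr rfl fun ψ _ => ?_
      ring
  rw [h7]
  have h8 : ∑ ψ : IrrCharacter C, classInner θ (ψ : C → ℂ) * S ψ =
      ∑ c : C, ind c * (blockPart b θ c * conj ((ξ : C → ℂ) c)) := by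
    simp only [blockPart_eq', Finset.sum_mul, Finset.mul_sum]
    rw [Finset.sum_comm]
    refine Finset.sum_congr rfl fun ψ _ => ?_
    have h9 := hS ψ
    rw [← h9]
    simp only [S, Finset.mul_sum]
    refine Finset.sum_congr rfl fun c _ => ?_
    ring
  rw [h8]
  refine Finset.sum_eq_zero fun c _ => ?_
  by_cases h2 : p ∣ orderOf c
  · simp [ind, h2]
  · rw [hcon c h2]
    simp

/-- The main argument, for a subgroup `C` centralizing `x`. -/
theorem aux {G : Type u} [Group G] [Fintype G] (p : ℕ) [Fact p.Prime] (M : Ideal Cfsg.AlgInt)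
    (hM : Cfsg.IsPModular p M) (B : Set (Cfsg.IrrCharacter G)) (hB : Cfsg.IsPBlock M B)
    (χ : Cfsg.IrrCharacter G) (hχ : χ ∈ B) (h0 : Cfsg.blockHeight p B (χ : G → ℂ) = 0) (x : G)
    (k : ℕ) (hxk : x ^ p ^ k = 1) (C : Subgroup G) [Fintype C] (hcomm : ∀ c : C, Commute x (c : G))
    (b : Set (Cfsg.IrrCharacter C)) (hb : Cfsg.IsInducedBlock M C b B)
    (hcon : ∀ y : C, ¬ p ∣ orderOf y →
      Cfsg.blockPart b (fun c : C => (χ : G → ℂ) (x * (c : G))) y = 0) : False := by
  classical
  haveI hMp := hM.2.1.isPrime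
  have hχc := IsIrrCharacter.isCharacter χ.2
  obtain ⟨ξ, hξ⟩ : b.Nonempty := Cfsg.Agent.Lib.BlockQ.isPBlock_nonempty hb.1
  have hξc := IsIrrCharacter.isCharacter ξ.2
  let β : G → ℂ := regInv p (χ : G → ℂ)
  have hβcl : IsClassFunction G β := regInv_isClassFunction (isClassFunction_of_isCharacter hχc)
  have hβR : ∀ g, MemLocalRing M (β g) := memLocalRing_regInv hχc
  have hu : ¬ MemLocalIdeal M (omega (χ : G → ℂ) β) := (height_zero_iff_omega hM hB hχ).mp h0
  have h1 := Cfsg.Agent.Lib.BlockInduced.memLocalIdeal_trunc_sub (M := M) C (ξ : C → ℂ) χ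
    (hb.2.2 ξ hξ χ hχ) hβcl hβR
  -- the shifted function
  let θ : C → ℂ := fun c => (χ : G → ℂ) (x * (c : G))
  have hθcl : IsClassFunction C θ := by
    intro c a
    show (χ : G → ℂ) (x * ((a * c * a⁻¹ : C) : G)) = _
    have h2 : x * ((a * c * a⁻¹ : C) : G) = (a : G) * (x * (c : G)) * (a : G)⁻¹ := by
      have h3 := (hcomm a).eq
      push_cast
      rw [← mul_assoc, ← mul_assoc, h3]
      group
    rw [h2]
    exact isClassFunction_of_isCharacter hχc _ _
  let v : C → ℂ := fun c => if p ∣ orderOf c then 0 else conj (θ c)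
  have hvcl : IsClassFunction C v := by
    intro c a
    have h2 : orderOf (a * c * a⁻¹) = orderOf c := by
      simpa using orderOf_injective (MulAut.conj a).toMonoidHom (MulAut.conj a).injective c
    simp only [v]
    rw [h2]
    by_cases h3 : p ∣ orderOf c
    · rw [if_pos h3, if_pos h3]
    · rw [if_neg h3, if_neg h3, hθcl c a]
  have hβ'cl : IsClassFunction C (fun c : C => β c) := by
    intro c a
    exact hβcl _ _
  have hdiff : ∀ c : C, MemLocalIdeal M (β c - v c) := by
    intro c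
    by_cases h3 : p ∣ orderOf c
    · have h4 : p ∣ orderOf (c : G)⁻¹ := by
        rwa [orderOf_inv, Subgroup.orderOf_coe]
      have h5 : β c = 0 := pRegularPart_of_sing _ h4
      have h6 : v c = 0 := if_pos h3
      rw [h5, h6, sub_zero]
      exact memLocalIdeal_zero
    · have h4 : ¬ p ∣ orderOf (c : G)⁻¹ := by
        rwa [orderOf_inv, Subgroup.orderOf_coe]
      have h5 : β c = (χ : G → ℂ) (c : G)⁻¹ := pRegularPart_of_reg _ h4
      have h6 : v c = conj (θ c) := if_neg h3
      have h7 : conj (θ c) = (χ : G → ℂ) (x⁻¹ * (c : G)⁻¹) := by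
        show conj ((χ : G → ℂ) (x * (c : G))) = _
        rw [char_conj_eq_inv hχc, mul_inv_rev, ((hcomm c).inv_inv).eq]
      rw [h5, h6, h7]
      have h8 := Cfsg.Agent.Lib.BlkDefect.char_mul_congr hM hχc
        (x := x⁻¹) (y := (c : G)⁻¹) (hcomm c).inv_inv (k := k) (by
          rw [inv_pow, hxk, inv_one])
      exact memLocalIdeal_sub_comm h8
  have h2 := Cfsg.Agent.Lib.BrauerMap.memLocalIdeal_omega_sub C hβ'cl hvcl hdiff ξ
  -- `ω_ξ(v) = 0`
  have hv0 : omega (ξ : C → ℂ) v = 0 := by
    have h4 : (∑ c : C, if p ∣ orderOf c then 0 else θ c * conj ((ξ : C → ℂ) c)) = 0 := by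
      convert sum_reg_zero p M hM b hb.1 ξ hξ hθcl hcon
    have h3 : ∑ c : C, v c * (ξ : C → ℂ) c = 0 := by
      have h5 := congrArg (starRingEnd ℂ) h4
      rw [map_sum, map_zero] at h5
      rw [← h5]
      refine Finset.sum_congr rfl fun c _ => ?_
      by_cases h6 : p ∣ orderOf c
      · have h7 : v c = 0 := if_pos h6
        rw [h7, if_pos h6]
        simp
      · have h7 : v c = conj (θ c) := if_neg h6
        rw [h7, if_neg h6, map_mul, Complex.conj_conj]
    unfold omega
    rw [h3]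
    simp
  rw [hv0, sub_zero] at h2
  apply hu
  have h5 := memLocalIdeal_sub_comm h1
  have h6 := memLocalIdeal_add h5 h2
  have h7 : omega (χ : G → ℂ) β - ∑ h : C, β (h : G) * (ξ : C → ℂ) h / (ξ : C → ℂ) 1 +
      omega (ξ : C → ℂ) (fun c : C => β c) = omega (χ : G → ℂ) β := by
    have h8 : omega (ξ : C → ℂ) (fun c : C => β c) =
        ∑ h : C, β (h : G) * (ξ : C → ℂ) h / (ξ : C → ℂ) 1 := by
      unfold omega
      rw [Finset.sum_div]
    rw [h8]
    ring
  rwa [h7] at h6

/-- Let χ be an irreducible character of height zero in the p-block B of the finite group G (relative to a maximal ideal M of the algebraic integers containing p). Let x be a p-element of G with centralizer C, and let b be a block of C that induces B. Form the class function ϑ(c) = χ(x c) on C and its b-part (the sum over ψ ∈ b of the inner product of ϑ with ψ, times ψ). Then the b-part of ϑ does not vanish identically on the p-regular elements of C. (Compare the second main Theorem, which gives vanishing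 when b does not induce B.) -/
theorem result {G : Type*} [Group G] [Finite G] (p : ℕ) [Fact p.Prime] (M : Ideal Cfsg.AlgInt) (hM : Cfsg.IsPModular p M) (B : Set (Cfsg.IrrCharacter G)) (hB : Cfsg.IsPBlock M B) (χ : Cfsg.IrrCharacter G) (hχ : χ ∈ B) (h0 : Cfsg.blockHeight p B (χ : G → ℂ) = 0) (x : G) (hx : ∃ k : ℕ, orderOf x = p ^ k) (b : Set (Cfsg.IrrCharacter (Subgroup.centralizer ({x} : Set G)))) (hb : Cfsg.IsInducedBlock M (Subgroup.centralizer ({x} : Set G)) b B) : ∃ y : Subgroup.centralizer ({x} : Set G), ¬ p ∣ orderOf y ∧ Cfsg.blockPart b (fun c : Subgroup.centralizer ({x} : Set G) => (χ : G → ℂ) (x * (c : G))) y ≠ 0 := by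
  classical
  letI : Fintype G := Fintype.ofFinite G
  letI : Fintype (Subgroup.centralizer ({x} : Set G)) := Fintype.ofFinite _
  by_contra hcon
  push Not at hcon
  obtain ⟨k, hk⟩ := hx
  have hxk : x ^ p ^ k = 1 := by
    rw [← hk]
    exact pow_orderOf_eq_one x
  exact aux p M hM B hB χ hχ h0 x k hxk (Subgroup.centralizer ({x} : Set G))
    (fun c => Subgroup.mem_centralizer_iff.mp c.2 x rfl) b hb hcon

end Cfsg.Agent.S4428
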