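import Mathlib
import Cfsg.Statements.S4429
import Cfsg.Agent.Lib.M11TabIrr
import Cfsg.Agent.Lib.Ord7920Q
import Cfsg.Agent.S0411

set_option autoImplicit false
open Cfsg

namespace Cfsg.Agent.S4429

/-- Let G be a simple group of order 7920. Then G has exactly ten irreducible complex characters, and their degrees, listed with multiplicity, are 1, 10, 10, 10, 11, 16, 16, 44, 45, 55: for every natural number n, the number of irreducible characters of degree n is 1 if n ∈ {1, 11, 44, 45, 55}, 3 if n = 10, 2 if n = 16, and 0 otherwise. -/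
theorem result {G : Type*} [Group G] [Finite G] [IsSimpleGroup G] (hG : Nat.card G = 7920) : Nat.card (Cfsg.IrrCharacter G) = 10 ∧ ∀ n : ℕ, Nat.card {χ : Cfsg.IrrCharacter G // Cfsg.charDegree (χ : G → ℂ) = n} = (if n = 1 ∨ n = 11 ∨ n = 44 ∨ n = 45 ∨ n = 55 then 1 else if n = 10 then 3 else if n = 16 then 2 else 0) := by
  classical
  have hM11 : Cfsg.IsM11 G := ⟨inferInstance, hG⟩
  obtain ⟨α, _, _, B, hα, hB, ⟨e⟩⟩ := Cfsg.Agent.Lib.Ord7920.exists_steiner hM11
  obtain ⟨f, hf⟩ := Cfsg.Agent.S0411.result hα Cfsg.Agent.Lib.M11TabModel.card_fin11 hB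
    Cfsg.Agent.Lib.M11TabModel.steiner
  let φ : G ≃* Cfsg.Agent.Lib.M11TabModel.M := e.trans (Cfsg.Agent.Lib.SteinerAut.autEquiv f hf)
  let E : Cfsg.IrrCharacter G ≃ Cfsg.IrrCharacter Cfsg.Agent.Lib.M11TabModel.M :=
    { toFun := fun χ => ⟨χ.1 ∘ φ.symm.toMonoidHom,
        Cfsg.Agent.Lib.CharBasic.isIrrCharacter_comp_of_surjective _ φ.symm.surjective χ.2⟩
      invFun := fun ψ => ⟨ψ.1 ∘ φ.toMonoidHom,
        Cfsg.Agent.Lib.CharBasic.isIrrCharacter_comp_of_surjective _ φ.surjective ψ.2⟩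
      left_inv := fun χ => by
        apply Subtype.ext
        funext g
        simp
      right_inv := fun ψ => by
        apply Subtype.ext
        funext g
        simp }
  refine ⟨?_, fun n => ?_⟩
  · rw [Nat.card_congr E, Cfsg.Agent.Lib.M11TabIrr.card_irr]
  · rw [← Cfsg.Agent.Lib.M11TabIrr.count_M]
    refine Nat.card_congr (Equiv.subtypeEquiv E ?_)
    intro χ
    have h1 : Cfsg.charDegree ((E χ : Cfsg.IrrCharacter Cfsg.Agent.Lib.M11TabModel.M) :
        Cfsg.Agent.Lib.M11TabModel.M → ℂ) = Cfsg.charDegree (χ : G → ℂ) := by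
      show ⌊(χ.1 (φ.symm 1)).re⌋₊ = ⌊(χ.1 1).re⌋₊
      rw [map_one]
    rw [h1]

end Cfsg.Agent.S4429
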