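import Mathlib
import Cfsg.Statements.S4430
import Cfsg.Agent.Lib.BlockHeightQ
import Cfsg.Agent.Lib.BlockInduced
import Cfsg.Agent.Lib.BlkBasic
import Cfsg.Agent.Lib.BlkOrth
import Cfsg.Agent.Lib.BlockNormal

set_option autoImplicit false
open Cfsg

namespace Cfsg.Agent.S4430

open Cfsg.Agent.Lib.CharBasic Cfsg.Agent.Lib.BlockLocal Cfsg.Agent.Lib.BlockIdem
open Cfsg.Agent.Lib.BlockQ Cfsg.Agent.Lib.BlockOrtho Cfsg.Agent.Lib.BlkBasic
open Cfsg.Agent.Lib.BlkOrth Cfsg.Agent.Lib.CharInd Cfsg.Agent.Lib.CharKernel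
open scoped ComplexConjugate

universe u

/-- Valuations from a unit ratio. -/
theorem factorization_eq_of_unit {p : ℕ} {M : Ideal AlgInt} (hM : IsPModular p M) {n d : ℕ}
    (hn : n ≠ 0) (hd : d ≠ 0) {W : ℂ} (hW : (n : ℂ) = (d : ℂ) * W) (h1 : MemLocalRing M W)
    (h2 : ¬ MemLocalIdeal M W) : n.factorization p = d.factorization p := by
  have hMp := hM.2.1.isPrime
  have hp := hM.1
  by_contra hne
  have hd' : (d : ℂ) ≠ 0 := by exact_mod_cast hd
  have hn' : (n : ℂ) ≠ 0 := by exact_mod_cast hn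
  obtain ⟨n', hn1, hn2⟩ : ∃ n' : ℕ, n = p ^ n.factorization p * n' ∧ ¬ p ∣ n' :=
    ⟨n / p ^ n.factorization p, (Nat.mul_div_cancel' (Nat.ordProj_dvd _ _)).symm,
      Nat.not_dvd_ordCompl hp hn⟩
  obtain ⟨d', hd1, hd2⟩ : ∃ d' : ℕ, d = p ^ d.factorization p * d' ∧ ¬ p ∣ d' :=
    ⟨d / p ^ d.factorization p, (Nat.mul_div_cancel' (Nat.ordProj_dvd _ _)).symm,
      Nat.not_dvd_ordCompl hp hd⟩
  set a := n.factorization p with ha
  set b := d.factorization p with hb
  have hp0 : (p : ℂ) ≠ 0 := by exact_mod_cast hp.ne_zero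
  have hn'0 : (n' : ℂ) ≠ 0 := by
    have : n' ≠ 0 := fun h => hn2 (h ▸ dvd_zero _)
    exact_mod_cast this
  have hd'0 : (d' : ℂ) ≠ 0 := by
    have : d' ≠ 0 := fun h => hd2 (h ▸ dvd_zero _)
    exact_mod_cast this
  have hnC : (n : ℂ) = (p : ℂ) ^ a * (n' : ℂ) := by exact_mod_cast hn1
  have hdC : (d : ℂ) = (p : ℂ) ^ b * (d' : ℂ) := by exact_mod_cast hd1
  have hpI : MemLocalIdeal M (p : ℂ) := memLocalIdeal_natCast_of_dvd hM (dvd_refl p)
  rcases Nat.lt_or_gt_of_ne hne with hlt | hgt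
  · -- `a < b`: `1 = W * (d / n)` with `d / n` in the ideal
    obtain ⟨c, hc⟩ : ∃ c, b = a + c + 1 := ⟨b - a - 1, by omega⟩
    have h3 : (1 : ℂ) = W * ((p : ℂ) * ((p : ℂ) ^ c * ((d' : ℂ) * (n' : ℂ)⁻¹))) := by
      have h4 : (p : ℂ) ^ a * (n' : ℂ) = (p : ℂ) ^ b * (d' : ℂ) * W := by
        rw [← hnC, ← hdC, hW]
      rw [hc, pow_succ, pow_add] at h4
      have h5 : (p : ℂ) ^ a ≠ 0 := pow_ne_zero _ hp0
      have h6 : (n' : ℂ) = (p : ℂ) ^ c * (p : ℂ) * (d' : ℂ) * W := by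
        apply mul_left_cancel₀ h5
        rw [h4]
        ring
      field_simp
      rw [h6]
      ring
    have h7 : MemLocalIdeal M ((p : ℂ) * ((p : ℂ) ^ c * ((d' : ℂ) * (n' : ℂ)⁻¹))) :=
      memLocalIdeal_mul_right hpI (memLocalRing_mul (memLocalRing_pow (memLocalRing_natCast _) _)
        (memLocalRing_mul (memLocalRing_natCast _) (memLocalRing_inv_natCast hM hn2)))
    have h8 := memLocalIdeal_mul_left h1 h7
    rw [← h3] at h8
    exact not_memLocalIdeal_one h8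
  · -- `b < a`
    obtain ⟨c, hc⟩ : ∃ c, a = b + c + 1 := ⟨a - b - 1, by omega⟩
    have h3 : W = (p : ℂ) * ((p : ℂ) ^ c * ((n' : ℂ) * (d' : ℂ)⁻¹)) := by
      have h4 : (p : ℂ) ^ a * (n' : ℂ) = (p : ℂ) ^ b * (d' : ℂ) * W := by
        rw [← hnC, ← hdC, hW]
      rw [hc, pow_succ, pow_add] at h4
      have h5 : (p : ℂ) ^ b ≠ 0 := pow_ne_zero _ hp0
      have h6 : (d' : ℂ) * W = (p : ℂ) ^ c * (p : ℂ) * (n' : ℂ) := by
        apply mul_left_cancel₀ h5
        rw [← mul_assoc, ← h4]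
        ring
      field_simp
      rw [mul_comm, h6]
      ring
    apply h2
    rw [h3]
    exact memLocalIdeal_mul_right hpI (memLocalRing_mul (memLocalRing_pow (memLocalRing_natCast _) _)
        (memLocalRing_mul (memLocalRing_natCast _) (memLocalRing_inv_natCast hM hd2)))

/-- Valuations from a ratio in the ideal. -/
theorem factorization_lt_of_mem {p : ℕ} {M : Ideal AlgInt} (hM : IsPModular p M) {n d : ℕ}
    (hn : n ≠ 0) (hd : d ≠ 0) {W : ℂ} (hW : (n : ℂ) = (d : ℂ) * W) (h2 : MemLocalIdeal M W) :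
    d.factorization p < n.factorization p := by
  have hMp := hM.2.1.isPrime
  have hp := hM.1
  by_contra hle
  push Not at hle
  have hd' : (d : ℂ) ≠ 0 := by exact_mod_cast hd
  have hn' : (n : ℂ) ≠ 0 := by exact_mod_cast hn
  obtain ⟨n', hn1, hn2⟩ : ∃ n' : ℕ, n = p ^ n.factorization p * n' ∧ ¬ p ∣ n' :=
    ⟨n / p ^ n.factorization p, (Nat.mul_div_cancel' (Nat.ordProj_dvd _ _)).symm,
      Nat.not_dvd_ordCompl hp hn⟩
  obtain ⟨d', hd1, hd2⟩ : ∃ d' : ℕ, d = p ^ d.factorization p * d' ∧ ¬ p ∣ d' :=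
    ⟨d / p ^ d.factorization p, (Nat.mul_div_cancel' (Nat.ordProj_dvd _ _)).symm,
      Nat.not_dvd_ordCompl hp hd⟩
  set a := n.factorization p with ha
  set b := d.factorization p with hb
  have hp0 : (p : ℂ) ≠ 0 := by exact_mod_cast hp.ne_zero
  have hn'0 : (n' : ℂ) ≠ 0 := by
    have : n' ≠ 0 := fun h => hn2 (h ▸ dvd_zero _)
    exact_mod_cast this
  have hnC : (n : ℂ) = (p : ℂ) ^ a * (n' : ℂ) := by exact_mod_cast hn1
  have hdC : (d : ℂ) = (p : ℂ) ^ b * (d' : ℂ) := by exact_mod_cast hd1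
  obtain ⟨c, hc⟩ : ∃ c, b = a + c := ⟨b - a, by omega⟩
  have h3 : (1 : ℂ) = W * ((p : ℂ) ^ c * ((d' : ℂ) * (n' : ℂ)⁻¹)) := by
    have h4 : (p : ℂ) ^ a * (n' : ℂ) = (p : ℂ) ^ b * (d' : ℂ) * W := by
      rw [← hnC, ← hdC, hW]
    rw [hc, pow_add] at h4
    have h5 : (p : ℂ) ^ a ≠ 0 := pow_ne_zero _ hp0
    have h6 : (n' : ℂ) = (p : ℂ) ^ c * (d' : ℂ) * W := by
      apply mul_left_cancel₀ h5
      rw [h4]
      ring
    field_simp
    rw [h6]
    ring
  have h7 : MemLocalRing M ((p : ℂ) ^ c * ((d' : ℂ) * (n' : ℂ)⁻¹)) :=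
    memLocalRing_mul (memLocalRing_pow (memLocalRing_natCast _) _)
      (memLocalRing_mul (memLocalRing_natCast _) (memLocalRing_inv_natCast hM hn2))
  have h8 := memLocalIdeal_mul_right h2 h7
  rw [← h3] at h8
  exact not_memLocalIdeal_one h8

variable {G : Type u} [Group G] [Fintype G]

/-- The block part of an induced character at `1`. -/
theorem blockPart_indFun_one (H : Subgroup G) [Fintype H] (ξ : IrrCharacter H)
    (B : Set (IrrCharacter G)) :
    ∃ n : ℕ, Cfsg.blockPart B (Cfsg.indFun H (ξ : H → ℂ)) 1 = (n : ℂ) ∧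
      (n : ℂ) = (Cfsg.charDegree (Cfsg.indFun H (ξ : H → ℂ)) : ℂ) *
        ∑ h : H, blockCoeff B (h : G) * (ξ : H → ℂ) h / (ξ : H → ℂ) 1 := by
  classical
  have hξc := IsIrrCharacter.isCharacter ξ.2
  have hΦ : IsCharacter G (indFun H (ξ : H → ℂ)) := indFun_isCharacter H hξc
  have hi : ∀ χ : IrrCharacter G, ∃ a : ℕ, classInner (indFun H (ξ : H → ℂ)) (χ : G → ℂ) = a :=
    fun χ => classInner_char_irr hΦ χ.2
  choose a ha using hi
  refine ⟨∑ χ : IrrCharacter G, if χ ∈ B then a χ * charDegree (χ : G → ℂ) else 0, ?_, ?_⟩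
  · rw [blockPart_eq']
    push_cast
    refine Finset.sum_congr rfl fun χ _ => ?_
    rw [ha, one_eq_charDegree (IsIrrCharacter.isCharacter χ.2)]
    by_cases h : χ ∈ B
    · rw [blkInd_of_mem h, if_pos h]
      ring
    · rw [blkInd_of_not_mem h, if_neg h]
      simp
  · have hd : (charDegree (indFun H (ξ : H → ℂ)) : ℂ) = (H.index : ℂ) * (ξ : H → ℂ) 1 := by
      rw [← one_eq_charDegree hΦ, indFun_one]
    have hξ1 := irr_one_ne_zero' ξ.2
    have hG : (Nat.card G : ℂ) ≠ 0 := by exact_mod_cast Nat.card_pos.ne'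
    have hH : (Nat.card H : ℂ) ≠ 0 := by exact_mod_cast Nat.card_pos.ne'
    have hidx : (Nat.card H : ℂ) * (H.index : ℂ) = (Nat.card G : ℂ) := by
      exact_mod_cast Subgroup.card_mul_index H
    have h1 : ∀ h : H, blockCoeff B (h : G) * (ξ : H → ℂ) h =
        (Nat.card G : ℂ)⁻¹ * ∑ χ : IrrCharacter G, blkInd B χ * ((χ : G → ℂ) 1 *
          ((ξ : H → ℂ) h * conj ((χ : G → ℂ) h))) := by
      intro h
      unfold blockCoeff
      rw [finsum_mem_eq_sum_blkInd, mul_assoc, Finset.sum_mul]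
      congr 1
      refine Finset.sum_congr rfl fun χ _ => ?_
      ring
    have h2 : ∑ h : H, blockCoeff B (h : G) * (ξ : H → ℂ) h =
        (Nat.card G : ℂ)⁻¹ * (Nat.card H : ℂ) * ∑ χ : IrrCharacter G, blkInd B χ *
          ((χ : G → ℂ) 1 * a χ) := by
      simp_rw [h1]
      rw [← Finset.mul_sum, Finset.sum_comm, mul_assoc, Finset.mul_sum (a := (Nat.card H : ℂ))]
      congr 1
      refine Finset.sum_congr rfl fun χ _ => ?_
      rw [← Finset.mul_sum, ← Finset.mul_sum]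
      have h3 : (a χ : ℂ) = (Nat.card H : ℂ)⁻¹ * ∑ x : H, (ξ : H → ℂ) x * conj ((χ : G → ℂ) x) := by
        rw [← ha, frobenius H (ξ : H → ℂ) (isClassFunction_of_isCharacter
          (IsIrrCharacter.isCharacter χ.2))]
        rfl
      rw [h3]
      field_simp
    have h3 : ∑ h : H, blockCoeff B (h : G) * (ξ : H → ℂ) h / (ξ : H → ℂ) 1 =
        (∑ h : H, blockCoeff B (h : G) * (ξ : H → ℂ) h) / (ξ : H → ℂ) 1 := by
      rw [Finset.sum_div]
    rw [h3, h2, hd]
    push_cast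
    have h4 : ∀ χ : IrrCharacter G, ((if χ ∈ B then ((a χ : ℂ) * (charDegree (χ : G → ℂ) : ℂ)) else 0) : ℂ) =
        blkInd B χ * ((χ : G → ℂ) 1 * a χ) := by
      intro χ
      rw [one_eq_charDegree (IsIrrCharacter.isCharacter χ.2)]
      by_cases h : χ ∈ B
      · rw [blkInd_of_mem h, if_pos h]
        ring
      · rw [blkInd_of_not_mem h, if_neg h]
        simp
    rw [Finset.sum_congr rfl (fun χ _ => h4 χ)]
    have hI : (H.index : ℂ) ≠ 0 := by exact_mod_cast Subgroup.index_ne_zero_of_finite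
    rw [← hidx]
    field_simp

/-- Let H be a subgroup of the finite group G, b a block of H whose induced block B₀ in G is defined (relative to a maximal ideal M of the algebraic integers containing p), and ξ ∈ b. For a block B of G let n_B be the value at 1 of the B-part of the induced character ξ^G (a natural number: the sum over χ ∈ B of the multiplicity of χ in ξ^G times χ(1)). Then for B = B₀ the exact power of p dividing n_B equals the exact power of p dividing ξ^G(1), while for every other block B either n_B = 0 or n_B is divisible by a strictly higher power of p than ξ^G(1). -/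
theorem result {G : Type*} [Group G] [Fintype G] (p : ℕ) [Fact p.Prime] (M : Ideal Cfsg.AlgInt) (hM : Cfsg.IsPModular p M) (H : Subgroup G) [Fintype H] (b : Set (Cfsg.IrrCharacter H)) (B₀ : Set (Cfsg.IrrCharacter G)) (hind : Cfsg.IsInducedBlock M H b B₀) (ξ : Cfsg.IrrCharacter H) (hξ : ξ ∈ b) : (∃ n : ℕ, Cfsg.blockPart B₀ (Cfsg.indFun H (ξ : H → ℂ)) 1 = (n : ℂ) ∧ n ≠ 0 ∧ n.factorization p = (Cfsg.charDegree (Cfsg.indFun H (ξ : H → ℂ))).factorization p) ∧ ∀ B : Set (Cfsg.IrrCharacter G), Cfsg.IsPBlock M B → B ≠ B₀ → ∃ n : ℕ, Cfsg.blockPart B (Cfsg.indFun H (ξ : H → ℂ)) 1 = (n : ℂ) ∧ (n = 0 ∨ (Cfsg.charDegree (Cfsg.indFun H (ξ : H → ℂ))).factorization p < n.factorization p) := by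
  classical
  have hMp := hM.2.1.isPrime
  have hp := hM.1
  have hξc := IsIrrCharacter.isCharacter ξ.2
  have hΦ : IsCharacter G (indFun H (ξ : H → ℂ)) := indFun_isCharacter H hξc
  have hd0 : Cfsg.charDegree (indFun H (ξ : H → ℂ)) ≠ 0 := by
    intro h
    have h1 := one_eq_charDegree hΦ
    rw [h, indFun_one] at h1
    have h2 : (H.index : ℂ) ≠ 0 := by exact_mod_cast Subgroup.index_ne_zero_of_finite
    simp only [Nat.cast_zero] at h1
    exact (mul_ne_zero h2 (irr_one_ne_zero' ξ.2)) h1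
  obtain ⟨χ₀, hχ₀⟩ : B₀.Nonempty := Cfsg.Agent.Lib.BlockQ.isPBlock_nonempty hind.2.1
  have hW : ∀ B : Set (IrrCharacter G), IsPBlock M B →
      MemLocalIdeal M (∑ h : H, blockCoeff B (h : G) * (ξ : H → ℂ) h / (ξ : H → ℂ) 1 - blkInd B χ₀) := by
    intro B hB
    have h1 := Cfsg.Agent.Lib.BlockInduced.memLocalIdeal_trunc_sub (M := M) H (ξ : H → ℂ) χ₀
      (hind.2.2 ξ hξ χ₀ hχ₀) (Cfsg.Agent.Lib.BlockNormal.blockCoeff_isClassFunction B)
      (memLocalRing_blockCoeff hB)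
    rwa [omega_blockCoeff] at h1
  refine ⟨?_, fun B hB hne => ?_⟩
  · obtain ⟨n, hn1, hn2⟩ := blockPart_indFun_one H ξ B₀
    have h1 := hW B₀ hind.2.1
    rw [blkInd_of_mem hχ₀] at h1
    have hU : ¬ MemLocalIdeal M (∑ h : H, blockCoeff B₀ (h : G) * (ξ : H → ℂ) h / (ξ : H → ℂ) 1) := by
      intro h2
      have h3 := memLocalIdeal_sub h2 h1
      apply not_memLocalIdeal_one (M := M)
      convert h3 using 1
      ring
    have hR : MemLocalRing M (∑ h : H, blockCoeff B₀ (h : G) * (ξ : H → ℂ) h / (ξ : H → ℂ) 1) := by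
      have h3 := memLocalRing_of_memLocalIdeal h1
      have h4 := memLocalRing_add h3 (memLocalRing_one (M := M))
      convert h4 using 1
      ring
    have hn0 : n ≠ 0 := by
      intro h
      rw [h, Nat.cast_zero] at hn2
      have hd' : (Cfsg.charDegree (indFun H (ξ : H → ℂ)) : ℂ) ≠ 0 := by exact_mod_cast hd0
      have h3 := (mul_eq_zero.mp hn2.symm).resolve_left hd'
      exact hU (by rw [h3]; exact memLocalIdeal_zero)
    exact ⟨n, hn1, hn0, factorization_eq_of_unit hM hn0 hd0 hn2 hR hU⟩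
  · obtain ⟨n, hn1, hn2⟩ := blockPart_indFun_one H ξ B
    refine ⟨n, hn1, ?_⟩
    by_cases hn0 : n = 0
    · exact Or.inl hn0
    right
    have h1 := hW B hB
    have hχ₀B : χ₀ ∉ B := by
      intro h
      rcases eq_or_disjoint_of_isPBlock hB hind.2.1 with h2 | h2
      · exact hne h2
      · exact Set.disjoint_left.mp h2 h hχ₀
    rw [blkInd_of_not_mem hχ₀B, sub_zero] at h1
    exact factorization_lt_of_mem hM hn0 hd0 hn2 h1

end Cfsg.Agent.S4430
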