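import Mathlib
import Cfsg.Statements.S4431
import Cfsg.Agent.Lib.BlockHeightQ
import Cfsg.Agent.Lib.BlockInduced

set_option autoImplicit false
open Cfsg

namespace Cfsg.Agent.S4431

open Cfsg.Agent.Lib.CharBasic Cfsg.Agent.Lib.BlockLocal Cfsg.Agent.Lib.BlockIdem
open Cfsg.Agent.Lib.BlockQ Cfsg.Agent.Lib.BlockOrtho Cfsg.Agent.Lib.BlockHeightQ
open Cfsg.Agent.Lib.BlockOsima
open scoped ComplexConjugate

/-- Let H be a subgroup of the finite group G and b a block of H whose induced block B₀ in G is defined (relative to a maximal ideal M of the algebraic integers containing p). Let χ be an irreducible character of G, ψ ∈ b, and let η be the class function on H equal to p^a · χ on the p-regular elements of H and zero elsewhere, p^a being the p-part of the order of H. Then (a) if χ ∉ B₀, the number [η, ψ]/ψ(1) lies in the local ideal at M; (b) if χ ∈ B₀ has height zero, it does not. -/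
theorem result {G : Type*} [Group G] [Fintype G] (p : ℕ) [Fact p.Prime] (M : Ideal Cfsg.AlgInt) (hM : Cfsg.IsPModular p M) (H : Subgroup G) [Fintype H] (b : Set (Cfsg.IrrCharacter H)) (B₀ : Set (Cfsg.IrrCharacter G)) (hind : Cfsg.IsInducedBlock M H b B₀) (χ : Cfsg.IrrCharacter G) (ψ : Cfsg.IrrCharacter H) (hψ : ψ ∈ b) : (χ ∉ B₀ → Cfsg.MemLocalIdeal M (Cfsg.classInner (fun h : H => if p ∣ orderOf h then (0 : ℂ) else ((p ^ (Nat.card H).factorization p : ℕ) : ℂ) * (χ : G → ℂ) h) (ψ : H → ℂ) / (ψ : H → ℂ) 1)) ∧ (χ ∈ B₀ → Cfsg.blockHeight p B₀ (χ : G → ℂ) = 0 → ¬ Cfsg.MemLocalIdeal M (Cfsg.classInner (fun h : H => if p ∣ orderOf h then (0 : ℂ) else ((p ^ (Nat.card H).factorization p : ℕ) : ℂ) * (χ : G → ℂ) h) (ψ : H → ℂ) / (ψ : H → ℂ) 1)) := by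
  classical
  have hMp := hM.2.1.isPrime
  have hp := hM.1
  have hχc := IsIrrCharacter.isCharacter χ.2
  let β : G → ℂ := regInv p (χ : G → ℂ)
  have hβcl : IsClassFunction G β := regInv_isClassFunction (isClassFunction_of_isCharacter hχc)
  have hβR : ∀ g, MemLocalRing M (β g) := memLocalRing_regInv hχc
  let W : ℂ := ∑ h : H, β (h : G) * (ψ : H → ℂ) h / (ψ : H → ℂ) 1
  have hW : ∀ χ' ∈ B₀, MemLocalIdeal M (W - omega (χ' : G → ℂ) β) := fun χ' hχ' =>
    Cfsg.Agent.Lib.BlockInduced.memLocalIdeal_trunc_sub (M := M) H (ψ : H → ℂ) χ'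
      (hind.2.2 ψ hψ χ' hχ') hβcl hβR
  -- the index
  obtain ⟨m, hm, hmp⟩ : ∃ m : ℕ, Nat.card H = p ^ (Nat.card H).factorization p * m ∧ ¬ p ∣ m := by
    refine ⟨(Nat.card H) / p ^ (Nat.card H).factorization p, ?_, ?_⟩
    · exact (Nat.mul_div_cancel' (Nat.ordProj_dvd _ _)).symm
    · exact Nat.not_dvd_ordCompl hp Nat.card_pos.ne'
  have hm0 : (m : ℂ) ≠ 0 := by
    have : m ≠ 0 := fun h => hmp (h ▸ dvd_zero _)
    exact_mod_cast this
  have hpow0 : ((p ^ (Nat.card H).factorization p : ℕ) : ℂ) ≠ 0 := by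
    exact_mod_cast (pow_ne_zero _ hp.ne_zero)
  have hψ1 := irr_one_ne_zero' ψ.2
  have hEq : Cfsg.classInner (fun h : H => if p ∣ orderOf h then (0 : ℂ) else ((p ^ (Nat.card H).factorization p : ℕ) : ℂ) * (χ : G → ℂ) h) (ψ : H → ℂ) / (ψ : H → ℂ) 1 = (m : ℂ)⁻¹ * W := by
    unfold Cfsg.classInner
    have h1 : ∑ x : H, (if p ∣ orderOf x then (0 : ℂ) else ((p ^ (Nat.card H).factorization p : ℕ) : ℂ) * (χ : G → ℂ) x) * conj ((ψ : H → ℂ) x) =
        ((p ^ (Nat.card H).factorization p : ℕ) : ℂ) * ∑ h : H, β (h : G) * (ψ : H → ℂ) h := by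
      rw [Finset.mul_sum, ← Equiv.sum_comp (Equiv.inv H)]
      refine Finset.sum_congr rfl fun h _ => ?_
      have h2 : conj ((ψ : H → ℂ) h⁻¹) = (ψ : H → ℂ) h := by
        rw [char_conj_eq_inv (IsIrrCharacter.isCharacter ψ.2), inv_inv]
      show (if p ∣ orderOf h⁻¹ then (0 : ℂ) else _) * conj ((ψ : H → ℂ) h⁻¹) = _
      rw [h2]
      have h3 : orderOf h⁻¹ = orderOf (h : G)⁻¹ := by
        rw [orderOf_inv, orderOf_inv, Subgroup.orderOf_coe]
      by_cases h4 : p ∣ orderOf h⁻¹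
      · rw [if_pos h4]
        have h5 : β (h : G) = 0 := pRegularPart_of_sing _ (h3 ▸ h4)
        rw [h5]
        simp
      · rw [if_neg h4]
        have h5 : β (h : G) = (χ : G → ℂ) (h : G)⁻¹ := pRegularPart_of_reg _ (h3 ▸ h4)
        rw [h5]
        show ((p ^ (Nat.card H).factorization p : ℕ) : ℂ) * (χ : G → ℂ) (h : G)⁻¹ * (ψ : H → ℂ) h = _
        ring
    rw [h1]
    have h2 : W = (∑ h : H, β (h : G) * (ψ : H → ℂ) h) / (ψ : H → ℂ) 1 := by
      simp only [W]
      rw [Finset.sum_div]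
    have hc : ((Nat.card H : ℕ) : ℂ) = ((p ^ (Nat.card H).factorization p : ℕ) : ℂ) * (m : ℂ) := by
      exact_mod_cast hm
    rw [h2, hc]
    field_simp
  rw [hEq]
  constructor
  · intro hχB
    obtain ⟨χ', hχ'⟩ : B₀.Nonempty := Cfsg.Agent.Lib.BlockQ.isPBlock_nonempty hind.2.1
    have h1 := hW χ' hχ'
    have h2 : omega (χ' : G → ℂ) β = 0 := by
      have h3 : (χ' : G → ℂ) ∉ {f | f = f} ∨ True := Or.inr trivial
      have hnot : χ' ∉ blockOf M (χ : G → ℂ) := by
        intro h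
        apply hχB
        obtain ⟨χ'', rfl⟩ := hind.2.1
        have h4 : SameBlock M (χ'' : G → ℂ) (χ' : G → ℂ) := hχ'
        have h5 : SameBlock M (χ : G → ℂ) (χ' : G → ℂ) := h
        exact sameBlock_trans h4 (sameBlock_symm h5)
      have h4 := classInner_pRegularPart_eq_zero hM (B := blockOf M (χ : G → ℂ)) ⟨χ, rfl⟩
        (mem_blockOf_self χ) hnot
      rw [classInner_eq_omega] at h4
      have h5 := irr_one_ne_zero' χ'.2
      have h6 : (Nat.card G : ℂ) ≠ 0 := by exact_mod_cast Nat.card_pos.ne'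
      field_simp at h4
      simpa [h5] using h4
    rw [h2, sub_zero] at h1
    exact memLocalIdeal_mul_left (memLocalRing_inv_natCast hM hmp) h1
  · intro hχB h0 hmem
    have h1 := hW χ hχB
    have hu : ¬ MemLocalIdeal M (omega (χ : G → ℂ) β) :=
      (height_zero_iff_omega hM hind.2.1 hχB).mp h0
    apply hu
    have h2 : W = (m : ℂ) * ((m : ℂ)⁻¹ * W) := by
      field_simp
    have h3 : MemLocalIdeal M W := by
      rw [h2]
      exact memLocalIdeal_mul_left (memLocalRing_natCast _) hmem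
    have h4 := memLocalIdeal_sub h3 h1
    have h5 : W - (W - omega (χ : G → ℂ) β) = omega (χ : G → ℂ) β := by ring
    rwa [h5] at h4

end Cfsg.Agent.S4431
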