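import Mathlib
import Cfsg.Statements.S4432
import Cfsg.Agent.Lib.BlockCover

set_option autoImplicit false

open Cfsg

namespace Cfsg.Agent.S4432

theorem result {G : Type*} [Group G] [Fintype G] (p : ℕ) [Fact p.Prime] (M : Ideal Cfsg.AlgInt) (hM : Cfsg.IsPModular p M) (N : Subgroup G) [hN : N.Normal] [Fintype N] (B : Set (Cfsg.IrrCharacter G)) (hB : Cfsg.IsPBlock M B) (b : Set (Cfsg.IrrCharacter N)) (hb : Cfsg.IsPBlock M b) (hcov : (∃ χ ∈ B, ∃ θ ∈ b, Cfsg.classInner (fun n : N => (χ : G → ℂ) n) (θ : N → ℂ) ≠ 0)) (θ : Cfsg.IrrCharacter N) (hθ : θ ∈ b) : ∃ χ ∈ B, Cfsg.classInner (fun n : N => (χ : G → ℂ) n) (θ : N → ℂ) ≠ 0 := by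
  haveI := Cfsg.Agent.Lib.BlockLocal.isPrime_of_isPModular hM
  exact Cfsg.Agent.Lib.BlockCover.exists_constituent_of_cover hB hb hcov hθ

end Cfsg.Agent.S4432
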