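import Mathlib
import Cfsg.Statements.S4435
import Cfsg.Agent.Lib.FongReynolds

set_option autoImplicit false

open Cfsg

namespace Cfsg.Agent.S4435

theorem result {G : Type*} [Group G] [Fintype G] (p : ℕ) [Fact p.Prime] (M : Ideal Cfsg.AlgInt) (hM : Cfsg.IsPModular p M) (N : Subgroup G) [hN : N.Normal] [Fintype N] (b : Set (Cfsg.IrrCharacter N)) (hb : Cfsg.IsPBlock M b) (T : Subgroup G) [Fintype T] (hT : ∀ g : G, g ∈ T ↔ ∀ θ ∈ b, ∀ θ' : Cfsg.IrrCharacter N, (∀ n : N, (θ' : N → ℂ) n = (θ : N → ℂ) ⟨g * n * g⁻¹, hN.conj_mem n n.2 g⟩) → θ' ∈ b) (hNT : N ≤ T) : (∀ B' : Set (Cfsg.IrrCharacter T), Cfsg.IsPBlock M B' → (∃ ψ ∈ B', ∃ θ ∈ b, Cfsg.classInner (fun n : N => (ψ : T → ℂ) ⟨(n : G), hNT n.2⟩) (θ : N → ℂ) ≠ 0) → ∃ B : Set (Cfsg.IrrCharacter G), Cfsg.IsInducedBlock M T B' B ∧ (∃ χ ∈ B, ∃ θ ∈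 b, Cfsg.classInner (fun n : N => (χ : G → ℂ) n) (θ : N → ℂ) ≠ 0) ∧ (∀ ψ ∈ B', Cfsg.IsIrrCharacter G (Cfsg.indFun T (ψ : T → ℂ))) ∧ ∀ χ : Cfsg.IrrCharacter G, χ ∈ B ↔ ∃ ψ ∈ B', (χ : G → ℂ) = Cfsg.indFun T (ψ : T → ℂ)) ∧ (∀ B'₁ B'₂ : Set (Cfsg.IrrCharacter T), Cfsg.IsPBlock M B'₁ → Cfsg.IsPBlock M B'₂ → (∃ ψ ∈ B'₁, ∃ θ ∈ b, Cfsg.classInner (fun n : N => (ψ : T → ℂ) ⟨(n : G), hNT n.2⟩) (θ : N → ℂ) ≠ 0) → (∃ ψ ∈ B'₂, ∃ θ ∈ b, Cfsg.classInner (fun n : N => (ψ : T → ℂ) ⟨(n : G), hNT n.2⟩) (θ : N → ℂ) ≠ 0) → ∀ B : Set (Cfsg.IrrCharacter G), Cfsg.IsInducedBlock M T B'₁ B → Cfsg.IsInducedBlock M T B'₂ B → B'₁ = B'₂) ∧ (∀ B : Set (Cfsg.IrrCharacter G), Cfsg.IsPBlock M B → (∃ χ ∈ B, ∃ θ ∈ b, Cfsg.classInner (fun n : N => (χ : G → ℂ) n) (θ : N → ℂ) ≠ 0) → ∃ B' : Set (Cfsg.IrrCharacter T), Cfsg.IsPBlock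 M B' ∧ (∃ ψ ∈ B', ∃ θ ∈ b, Cfsg.classInner (fun n : N => (ψ : T → ℂ) ⟨(n : G), hNT n.2⟩) (θ : N → ℂ) ≠ 0) ∧ Cfsg.IsInducedBlock M T B' B) := by
  classical
  haveI := Cfsg.Agent.Lib.BlockLocal.isPrime_of_isPModular hM
  have hS : Cfsg.Agent.Lib.FongReynolds.IsStab b T := by
    intro g
    constructor
    · intro hg θ hθ
      exact (hT g).mp hg θ hθ _ (fun n => rfl)
    · intro h
      refine (hT g).mpr fun θ hθ θ' hθ' => ?_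
      have h1 : θ' = Cfsg.Agent.Lib.FongReynolds.cjE N g θ := Subtype.ext (funext hθ')
      rw [h1]
      exact h θ hθ
  refine ⟨?_, ?_, ?_⟩
  · intro B' hB' hcov
    exact Cfsg.Agent.Lib.FongReynolds.exists_induced hNT hS hb hB' hcov
  · intro B₁ B₂ _ _ hc₁ hc₂ B h₁ h₂
    exact Cfsg.Agent.Lib.FongReynolds.eq_of_induced_eq hNT hS hb hc₁ hc₂ h₁ h₂
  · intro B hB hcov
    exact Cfsg.Agent.Lib.FongReynolds.exists_induced_of_cover hNT hS hb hB hcov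

end Cfsg.Agent.S4435
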