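import Mathlib
import Cfsg.Statements.S4436
import Cfsg.Agent.Lib.FongReynoldsDefect

set_option autoImplicit false

open Cfsg

namespace Cfsg.Agent.S4436

theorem result {G : Type*} [Group G] [Fintype G] (p : ℕ) [Fact p.Prime] (M : Ideal Cfsg.AlgInt) (hM : Cfsg.IsPModular p M) (N : Subgroup G) [hN : N.Normal] [Fintype N] (b : Set (Cfsg.IrrCharacter N)) (hb : Cfsg.IsPBlock M b) (T : Subgroup G) [Fintype T] (hT : ∀ g : G, g ∈ T ↔ ∀ θ ∈ b, ∀ θ' : Cfsg.IrrCharacter N, (∀ n : N, (θ' : N → ℂ) n = (θ : N → ℂ) ⟨g * n * g⁻¹, hN.conj_mem n n.2 g⟩) → θ' ∈ b) (hNT : N ≤ T) (B' : Set (Cfsg.IrrCharacter T)) (hB' : Cfsg.IsPBlock M B') (hcov : (∃ ψ ∈ B', ∃ θ ∈ b, Cfsg.classInner (fun n : N => (ψ : T → ℂ) ⟨(n : G), hNT n.2⟩) (θ : N → ℂ) ≠ 0)) (B : Set (Cfsg.IrrCharacter G)) (hind : Cfsg.IsInducedBlock M T B' B) : (∀ D : Subgroup T, Cfsg.IsDefectGroup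 p M B' D → Cfsg.IsDefectGroup p M B (D.map T.subtype)) ∧ ∀ ψ ∈ B', ∃ χ ∈ B, (χ : G → ℂ) = Cfsg.indFun T (ψ : T → ℂ) ∧ Cfsg.blockHeight p B (χ : G → ℂ) = Cfsg.blockHeight p B' (ψ : T → ℂ) := by
  classical
  haveI := Cfsg.Agent.Lib.BlockLocal.isPrime_of_isPModular hM
  have hS : Cfsg.Agent.Lib.FongReynolds.IsStab b T := by
    intro g
    constructor
    · intro hg θ hθ
      exact (hT g).mp hg θ hθ _ (fun n => rfl)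
    · intro h
      refine (hT g).mpr fun θ hθ θ' hθ' => ?_
      have h1 : θ' = Cfsg.Agent.Lib.FongReynolds.cjE N g θ := Subtype.ext (funext hθ')
      rw [h1]
      exact h θ hθ
  obtain ⟨B₁, h1, -, h3, h4⟩ := Cfsg.Agent.Lib.FongReynolds.exists_induced hNT hS hb hB' hcov
  have hB₁ : B₁ = B := Cfsg.Agent.Lib.BlockDefectInd.isInducedBlock_unique h1 hind
  subst hB₁
  obtain ⟨ψ₀, hψ₀, -⟩ := id hcov
  have hne : B'.Nonempty := ⟨ψ₀, hψ₀⟩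
  refine ⟨?_, ?_⟩
  · intro D hD
    exact Cfsg.Agent.Lib.FongReynoldsDefect.isDefectGroup_map_of_induced hM hB' h1.2.1
      (Cfsg.Agent.Lib.FongReynoldsDefect.blockDefect_eq hne h3 h4) hψ₀
      ((h4 ⟨_, h3 ψ₀ hψ₀⟩).mpr ⟨ψ₀, hψ₀, rfl⟩) rfl hD
  · intro ψ hψ
    refine ⟨⟨_, h3 ψ hψ⟩, (h4 _).mpr ⟨ψ, hψ, rfl⟩, rfl, ?_⟩
    exact Cfsg.Agent.Lib.FongReynoldsDefect.blockHeight_eq hne h3 h4 ψ.2

end Cfsg.Agent.S4436
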