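import Mathlib
import Cfsg.Statements.S4437
import Cfsg.Agent.Lib.CentricInd

set_option autoImplicit false
set_option linter.style.haveILetI false
open Cfsg

namespace Cfsg.Agent.S4437

/-- Let P be a p-subgroup of the finite group G, H = P·C_G(P), and b a block of H (relative to a maximal ideal M of the algebraic integers containing p) having P as a defect group; let B be the block of G induced by b. Let T be the stabilizer of b in N_G(P): the elements g of N_G(P) such that the g-conjugate of every member of b is again a member of b. Then B has defect group P if and only if p does not divide the index of H in T. -/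
theorem result {G : Type*} [Group G] [Fintype G] (p : ℕ) [Fact p.Prime] (M : Ideal Cfsg.AlgInt) (hM : Cfsg.IsPModular p M) (P : Subgroup G) (hP : IsPGroup p P) (H : Subgroup G) [Fintype H] (hH : H = P ⊔ Subgroup.centralizer (P : Set G)) (b : Set (Cfsg.IrrCharacter H)) (hb : Cfsg.IsPBlock M b) (hbP : Cfsg.IsDefectGroup p M b (P.subgroupOf H)) (B : Set (Cfsg.IrrCharacter G)) (hind : Cfsg.IsInducedBlock M H b B) (T : Subgroup G) (hT : ∀ g : G, g ∈ T ↔ (g ∈ Subgroup.normalizer (P : Set G) ∧ ∀ θ ∈ b, ∀ θ' : Cfsg.IrrCharacter H, (∀ h h' : H, (h' : G) = g * h * g⁻¹ → (θ' : H → ℂ) h' = (θ : H → ℂ) h) → θ' ∈ b)) : Cfsg.IsDefectGroup p M B P ↔ ¬ p ∣ H.relIndex T := by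
  classical
  letI : Fintype (Subgroup.centralizer (P : Set G)) := Fintype.ofFinite _
  haveI := Cfsg.Agent.Lib.BlockLocal.isPrime_of_isPModular hM
  have hT' : ∀ g : G, g ∈ T ↔ g ∈ Subgroup.normalizer (P : Set G) ∧ StabilizesBlock H b g := by
    intro g
    rw [hT]
    refine and_congr_right fun hg => ?_
    have hgH := Cfsg.Agent.Lib.CentricInd.normalizer_le_normalizer_of_eq_sup hH hg
    constructor
    · intro h
      refine ⟨hgH, fun θ hθ => ⟨Cfsg.Agent.Lib.BrauerPair.twist (Cfsg.Agent.Lib.BrauerPair.conjAut H g hgH) θ, ?_, ?_⟩⟩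
      · apply h θ hθ
        intro k k' hk
        rw [Cfsg.Agent.Lib.BrauerPair.twist_apply]
        have e : (Cfsg.Agent.Lib.BrauerPair.conjAut H g hgH).symm k' = k := by
          apply Subtype.ext
          rw [Cfsg.Agent.Lib.BrauerPair.coe_conjAut_symm, hk]
          group
        rw [e]
      · intro k k' hk
        rw [Cfsg.Agent.Lib.BrauerPair.twist_apply]
        have e : (Cfsg.Agent.Lib.BrauerPair.conjAut H g hgH).symm k' = k := by
          apply Subtype.ext
          rw [Cfsg.Agent.Lib.BrauerPair.coe_conjAut_symm, hk]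
          group
        rw [e]
    · rintro ⟨-, h⟩ θ hθ θ' hθ'
      obtain ⟨χ', hχ', hc⟩ := h θ hθ
      have : θ' = χ' := by
        apply Subtype.ext
        funext k'
        obtain ⟨k, hk⟩ := (Cfsg.Agent.Lib.BrauerPair.conjAut H g hgH).surjective k'
        have hk2 : (k' : G) = g * (k : G) * g⁻¹ := by
          rw [← hk]
          rfl
        rw [hθ' k k' hk2, hc k k' hk2]
      rw [this]
      exact hχ'
  exact Cfsg.Agent.Lib.CentricInd.isDefectGroup_iff_of_match hM hP hH hb hbP hind hT'

end Cfsg.Agent.S4437
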