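import Mathlib
import Cfsg.Statements.S4438
import Cfsg.Agent.Lib.BlockKnorr

set_option autoImplicit false

open Cfsg

namespace Cfsg.Agent.S4438

theorem result {G : Type*} [Group G] [Fintype G] (p : ℕ) [Fact p.Prime] (M : Ideal Cfsg.AlgInt) (hM : Cfsg.IsPModular p M) (N : Subgroup G) [hN : N.Normal] [Fintype N] (b : Set (Cfsg.IrrCharacter N)) (hb : Cfsg.IsPBlock M b) (Q : Subgroup G) (hQN : Q ≤ N) (hQ : Cfsg.IsDefectGroup p M b (Q.subgroupOf N)) (B : Set (Cfsg.IrrCharacter G)) (hB : Cfsg.IsPBlock M B) (hcov : (∃ χ ∈ B, ∃ θ ∈ b, Cfsg.classInner (fun n : N => (χ : G → ℂ) n) (θ : N → ℂ) ≠ 0)) : ∃ P : Subgroup G, Cfsg.IsDefectGroup p M B P ∧ P ⊓ N = Q := by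
  classical
  haveI : Fact p.Prime := ⟨hM.1⟩
  exact Cfsg.Agent.Lib.BlockKnorr.exists_defect_inf_eq hM hb hQN hQ hB hcov

end Cfsg.Agent.S4438
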