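import Mathlib
-- Template for statement S4439 (row 4439; see /opt/grader/pristine/manifest.json for weights).
-- Copy to Cfsg/Agent/S4439.lean and replace the sorry. The statement below is byte-identical to the frozen
-- statement Cfsg.CfsgFrozen.S4439 (Cfsg/Statements/S4439.lean; the theorem Cfsg.blk_p_solvable_height_le_defect_group_central_quotient);
-- the grader kernel-checks Cfsg.Agent.S4439.result against that frozen type. Keep the theorem IN THIS FILE
-- (a `result` declared elsewhere and merely imported here is not credited); helpers may live anywhere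
-- under Cfsg/Agent/.
import Cfsg.Statements.S4439
import Cfsg.Agent.Lib.BlkPSolvHt
import Cfsg.Agent.Lib.BlockCoverDefect
import Cfsg.Agent.Lib.FongReynoldsDefect
import Cfsg.Agent.Lib.BlockDefectInd

set_option autoImplicit false
open Cfsg

namespace Cfsg.Agent.S4439

namespace Aux

open Cfsg.Agent.Lib.BlkPSolvHt Cfsg.Agent.Lib.BlockIdem Cfsg.Agent.Lib.BlockDefect
  Cfsg.Agent.Lib.BlockLocal Cfsg.Agent.Lib.CharBasic Cfsg.Agent.Lib.CharInd Cfsg.Agent.Lib.BlockCoverDefect

universe u

theorem index_center_congr {A B : Type*} [Group A] [Group B] [Finite A] [Finite B] (e : A ≃* B) :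
    (Subgroup.center A).index = (Subgroup.center B).index := by
  have h1 := Subgroup.card_mul_index (Subgroup.center A)
  have h2 := Subgroup.card_mul_index (Subgroup.center B)
  rw [Nat.card_congr e.toEquiv] at h1
  have h3 : Nat.card (Subgroup.center A) = Nat.card (Subgroup.center B) :=
    Nat.card_congr (Subgroup.centerCongr e).toEquiv
  rw [h3, ← h2] at h1
  exact Nat.eq_of_mul_eq_mul_left Nat.card_pos h1

theorem main : ∀ (n : ℕ) (G : Type u) [Group G] [Fintype G], Nat.card G = n → ∀ (p : ℕ) [Fact p.Prime]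
    (M : Ideal Cfsg.AlgInt), Cfsg.IsPModular p M → Cfsg.IsPSolvable p G →
    ∀ (χ : Cfsg.IrrCharacter G) (P : Subgroup G), Cfsg.IsDefectGroup p M (Cfsg.blockOf M (χ : G → ℂ)) P →
    Cfsg.blockHeight p (Cfsg.blockOf M (χ : G → ℂ)) (χ : G → ℂ) ≤
      ((Subgroup.center P).index).factorization p := by
  intro n
  induction n using Nat.strong_induction_on with
  | _ n ih =>
  intro G _ _ hn p _ M hM hsol χ P hP
  classical
  haveI := hM.2.1.isPrime
  have hNn : (Cfsg.pPrimeCore p G).Normal := inferInstance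
  letI : Fintype (Cfsg.pPrimeCore p G) := Fintype.ofFinite _
  obtain ⟨θ, hθ⟩ := Cfsg.Agent.Lib.BlkNormalSub.exists_constituent (N := Cfsg.pPrimeCore p G) χ
  have hb : Cfsg.IsPBlock M (Cfsg.blockOf M (θ : Cfsg.pPrimeCore p G → ℂ)) := ⟨θ, rfl⟩
  have hsingle : ∀ θ' ∈ Cfsg.blockOf M (θ : Cfsg.pPrimeCore p G → ℂ), θ' = θ := by
    intro θ' hθ'
    refine Cfsg.Agent.Lib.BlockOrtho.eq_of_mem_blockOf_of_dvd hM ?_ hθ'
    have : (Nat.card (Cfsg.pPrimeCore p G)).factorization p = 0 :=
      Nat.factorization_eq_zero_of_not_dvd (Cfsg.Agent.Lib.PCore.not_dvd_card_pPrimeCore p)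
    rw [this]
    simp
  set T := stabSub hb with hTdef
  have hT : Cfsg.Agent.Lib.FongReynolds.IsStab _ T := isStab_stabSub hb
  have hNT : Cfsg.pPrimeCore p G ≤ T := le_stabSub hb
  have hBb : Cfsg.IsPBlock M (Cfsg.blockOf M (χ : G → ℂ)) := ⟨χ, rfl⟩
  have hχB : χ ∈ Cfsg.blockOf M (χ : G → ℂ) := mem_blockOf_self χ
  by_cases htop : T = ⊤
  · -- the invariant case
    have hinv : ∀ (g : G) (n : Cfsg.pPrimeCore p G),
        (θ : Cfsg.pPrimeCore p G → ℂ) (Cfsg.Agent.Lib.CharInduction.conjAut _ hNn g n) =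
          (θ : Cfsg.pPrimeCore p G → ℂ) n := by
      intro g m
      have hg : g ∈ T := by
        rw [htop]
        exact Subgroup.mem_top g
      have h1 := (hT g).mp hg θ (mem_blockOf_self θ)
      have h2 := hsingle _ h1
      have h3 := congrFun (congrArg Subtype.val h2) m
      exact h3
    obtain ⟨h0, h2⟩ := invariant_case hM hsol χ θ hθ hinv
    have h3 := h2 P hP
    have h4 : Cfsg.blockHeight p (Cfsg.blockOf M (χ : G → ℂ)) (χ : G → ℂ) ≤
        (Cfsg.charDegree (χ : G → ℂ)).factorization p := Nat.sub_le _ _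
    exact h4.trans h3
  · -- induction
    letI : Fintype T := Fintype.ofFinite _
    have hlt : Nat.card T < n := by
      rw [← hn]
      have h1 := Subgroup.card_mul_index T
      have h2 : T.index ≠ 1 := fun h => htop (Subgroup.index_eq_one.mp h)
      have h3 : T.index ≠ 0 := Subgroup.index_ne_zero_of_finite
      have h4 : 2 ≤ T.index := by omega
      have h5 : 0 < Nat.card T := Nat.card_pos
      nlinarith
    obtain ⟨B', hB', hcov', hind⟩ := Cfsg.Agent.Lib.FongReynolds.exists_induced_of_cover hNT hT hb hBb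
      ⟨χ, hχB, θ, mem_blockOf_self θ, hθ⟩
    obtain ⟨B₁, h1, -, h3, h4⟩ := Cfsg.Agent.Lib.FongReynolds.exists_induced hNT hT hb hB' hcov'
    have hB₁ : B₁ = Cfsg.blockOf M (χ : G → ℂ) := Cfsg.Agent.Lib.BlockDefectInd.isInducedBlock_unique h1 hind
    subst hB₁
    obtain ⟨ψ, hψ, hχψ⟩ := (h4 χ).mp hχB
    have hne : B'.Nonempty := ⟨ψ, hψ⟩
    have hBe : B' = Cfsg.blockOf M (ψ : T → ℂ) := by
      obtain ⟨ξ, rfl⟩ := hB'
      exact (blockOf_eq_of_mem hψ).symm
    obtain ⟨D', hD'⟩ := exists_isDefectGroup hM hB'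
    have hD₁ : Cfsg.IsDefectGroup p M (Cfsg.blockOf M (χ : G → ℂ)) (D'.map T.subtype) :=
      Cfsg.Agent.Lib.FongReynoldsDefect.isDefectGroup_map_of_induced hM hB' hBb
        (Cfsg.Agent.Lib.FongReynoldsDefect.blockDefect_eq hne h3 h4) hψ hχB hχψ hD'
    have hsolT : Cfsg.IsPSolvable p T := Cfsg.Agent.Lib.PSolv.isPSolvable_subgroup hsol T
    have hi := ih _ hlt T rfl p M hM hsolT ψ D' (by rw [← hBe]; exact hD')
    rw [← hBe] at hi
    have hh : Cfsg.blockHeight p (Cfsg.blockOf M (χ : G → ℂ)) (χ : G → ℂ) = Cfsg.blockHeight p B' (ψ : T → ℂ) := by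
      have h5 := Cfsg.Agent.Lib.FongReynoldsDefect.blockHeight_eq (p := p) hne h3 h4 ψ.2
      rwa [← hχψ] at h5
    obtain ⟨t, ht⟩ := Cfsg.Agent.Lib.BlockQuotDefect.IsDefectGroup_exists_conj_eq hM hBb hP hD₁
    let e₁ : P ≃* (P.map (MulAut.conj t).toMonoidHom : Subgroup G) :=
      P.equivMapOfInjective _ (MulAut.conj t).injective
    let e₂ : D' ≃* (D'.map T.subtype : Subgroup G) :=
      D'.equivMapOfInjective _ Subtype.val_injective
    let e₃ : (P.map (MulAut.conj t).toMonoidHom : Subgroup G) ≃* (D'.map T.subtype : Subgroup G) :=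
      MulEquiv.subgroupCongr ht
    have hidx : (Subgroup.center P).index = (Subgroup.center D').index :=
      index_center_congr (e₁.trans (e₃.trans e₂.symm))
    rw [hh, hidx]
    exact hi

end Aux

/-- Let G be a finite p-solvable group and B a p-block of G with defect group P (relative to a maximal ideal M of the algebraic integers containing p). Then the height of every irreducible character in B is at most the exponent of p in the index of the centre of P in P. -/
theorem result {G : Type*} [Group G] [Finite G] (p : ℕ) [Fact p.Prime] (M : Ideal Cfsg.AlgInt) (hM : Cfsg.IsPModular p M) (hsolv : Cfsg.IsPSolvable p G) (B : Set (Cfsg.IrrCharacter G)) (hB : Cfsg.IsPBlock M B) (P : Subgroup G) (hP : Cfsg.IsDefectGroup p M B P) (χ : Cfsg.IrrCharacter G) (hχ : χ ∈ B) : Cfsg.blockHeight p B (χ : G → ℂ) ≤ ((Subgroup.center P).index).factorization p := by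
  classical
  letI := Fintype.ofFinite G
  haveI := hM.2.1.isPrime
  have h1 : B = Cfsg.blockOf M (χ : G → ℂ) := by
    obtain ⟨ξ, rfl⟩ := hB
    exact (Cfsg.Agent.Lib.BlockIdem.blockOf_eq_of_mem hχ).symm
  subst h1
  exact Aux.main _ G rfl p M hM hsolv χ P hP

end Cfsg.Agent.S4439
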