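import Mathlib
import Cfsg.Statements.S4442
import Cfsg.Agent.Lib.DefOneH
import Cfsg.Agent.Lib.RangeP0
-- import your own Cfsg.Agent.* helpers here

set_option autoImplicit false
open Cfsg

namespace Cfsg.Agent.S4442

open Cfsg.Agent.Lib.DefOneH
open Cfsg.Agent.Lib.RangeP0

/-- Blocks of defect one. Let p be an odd prime and G a finite group whose Sylow p-subgroup P has order p; let C = C_G(P) and N = N_G(P), and fix a maximal ideal M of the algebraic integers containing p. Let B be a block of G with defect group P, b a block of C inducing B, and θ the member of b having P in its kernel (there is exactly one). Let T be the stabilizer of θ in N (the elements g ∈ N with θ(g c g⁻¹) = θ(c) for all c ∈ C) and e the index of C in T. Then e divides p − 1 and B contains exactly e + (p − 1)/e irreducible characters. Moreover B is the disjoint union of a set X of e characters and a set Y of (p − 1)/e characters such that, with f the index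 of C in N: every χ ∈ X has χ(1) ≡ ±(f/e)·θ(1) (mod p), there is one sign ε with ψ(1) ≡ ε f θ(1) (mod p) for all ψ ∈ Y, and all members of Y agree on the p-regular elements of G. -/
theorem result {G : Type*} [Group G] [Finite G] (p : ℕ) [Fact p.Prime] (M : Ideal Cfsg.AlgInt) (hM : Cfsg.IsPModular p M) (hodd : p ≠ 2) (P : Sylow p G) (hP : Nat.card P = p) (B : Set (Cfsg.IrrCharacter G)) (hB : Cfsg.IsPBlock M B) (hBP : Cfsg.IsDefectGroup p M B P) (b : Set (Cfsg.IrrCharacter (Subgroup.centralizer ((P : Subgroup G) : Set G)))) (hind : Cfsg.IsInducedBlock M (Subgroup.centralizer ((P : Subgroup G) : Set G)) b B) (θ : Cfsg.IrrCharacter (Subgroup.centralizer ((P : Subgroup G) : Set G))) (hθ : θ ∈ b) (hθP : ∀ x : Subgroup.centralizer ((P : Subgroup G) : Set G), (x : G) ∈ (P : Subgroup G) → (θ : Subgroup.centralizer ((P : Subgroup G) : Set G) → ℂ) x = (θ : Subgroup.centralizer ((P : Subgroup G) : Set G) → ℂ) 1) (T : Subgroup G) (hT : ∀ g :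 G, g ∈ T ↔ (g ∈ Subgroup.normalizer ((P : Subgroup G) : Set G) ∧ ∀ c c' : Subgroup.centralizer ((P : Subgroup G) : Set G), (c' : G) = g * c * g⁻¹ → (θ : Subgroup.centralizer ((P : Subgroup G) : Set G) → ℂ) c' = (θ : Subgroup.centralizer ((P : Subgroup G) : Set G) → ℂ) c)) (e f : ℕ) (he : (Subgroup.centralizer ((P : Subgroup G) : Set G)).relIndex T = e) (hf : (Subgroup.centralizer ((P : Subgroup G) : Set G)).relIndex (Subgroup.normalizer ((P : Subgroup G) : Set G)) = f) : e ∣ p - 1 ∧ Nat.card B = e + (p - 1) / e ∧ ∃ X Y : Set (Cfsg.IrrCharacter G), B = X ∪ Y ∧ Disjoint X Y ∧ Nat.card X = e ∧ Nat.card Y = (p - 1) / e ∧ (∀ χ ∈ X, (Cfsg.charDegree (χ : G → ℂ) : ℤ) ≡ ((f / e * Cfsg.charDegree (θ : Subgroup.centralizer ((P : Subgroup G) : Set G) → ℂ) : ℕ) : ℤ) [ZMOD p] ∨ (Cfsg.charDegree (χ : G → ℂ) : ℤ) ≡ -((f / e * Cfsg.charDegree (θ : Subgroup.centralizer ((P : Subgroup G) : Set G) → ℂ) : ℕ) : ℤ) [ZMOD p]) ∧ (∃ ε : ℤ, (ε = 1 ∨ ε = -1)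 ∧ ∀ ψ ∈ Y, (Cfsg.charDegree (ψ : G → ℂ) : ℤ) ≡ ε * ((f * Cfsg.charDegree (θ : Subgroup.centralizer ((P : Subgroup G) : Set G) → ℂ) : ℕ) : ℤ) [ZMOD p]) ∧ ∀ ψ ∈ Y, ∀ ψ' ∈ Y, ∀ g : G, ¬ p ∣ orderOf g → (ψ : G → ℂ) g = (ψ' : G → ℂ) g := by
  classical
  haveI : Fintype G := Fintype.ofFinite G
  have hp : p.Prime := Fact.out
  have hP1 : 1 < Nat.card (P : Subgroup G) := by
    rw [hP]
    exact hp.one_lt
  obtain ⟨r, e₀, H⟩ := Cfsg.Agent.Lib.TICent.exists_hyp p hp P
    (fun x hx hx1 => Cfsg.Agent.Lib.RangeP0.star_of_prime hp hP x hx hx1) hP1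
  letI : Fintype (Subgroup.centralizer ((P : Subgroup G) : Set G)) := Fintype.ofFinite _
  have hprime := Cfsg.Agent.Lib.BlockLocal.isPrime_of_isPModular hM
  have hb : b = Cfsg.blockOf M (θ : Subgroup.centralizer ((P : Subgroup G) : Set G) → ℂ) := by
    obtain ⟨τ, rfl⟩ := hind.1
    exact (Cfsg.Agent.Lib.BlockIdem.blockOf_eq_of_mem hθ).symm
  subst hb
  have hcl : Cfsg.IsClassFunction (Subgroup.centralizer ((P : Subgroup G) : Set G)) (θ : Subgroup.centralizer ((P : Subgroup G) : Set G) → ℂ) :=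
    Cfsg.Agent.Lib.CharBasic.isClassFunction_of_isCharacter (Cfsg.Agent.Lib.CharBasic.IsIrrCharacter.isCharacter θ.2)
  have hCT : Subgroup.centralizer ((P : Subgroup G) : Set G) ≤ T := by
    intro c hc
    rw [hT]
    refine ⟨H.le_normalizer hc, fun c₁ c₂ h12 => ?_⟩
    have h1 := hcl c₁ ⟨c, hc⟩
    have h2 : c₂ = (⟨c, hc⟩ : Subgroup.centralizer ((P : Subgroup G) : Set G)) * c₁ * (⟨c, hc⟩ : Subgroup.centralizer ((P : Subgroup G) : Set G))⁻¹ :=
      Subtype.ext h12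
    rw [h2, h1]
  have hTcard : Nat.card T = Nat.card (Cfsg.Agent.Lib.DefOneC.stabT H (θ : Subgroup.centralizer ((P : Subgroup G) : Set G) → ℂ)) := by
    apply Nat.card_congr
    refine ⟨fun g => ⟨⟨g.1, ((hT g.1).1 g.2).1⟩, ?_⟩, fun x => ⟨x.1.1, (hT _).2 ⟨x.1.2, fun c c' hc' => ?_⟩⟩, fun _ => rfl, fun _ => rfl⟩
    · rw [Cfsg.Agent.Lib.DefOneC.mem_stabT]
      funext c
      have h1 := ((hT g.1).1 g.2).2 (H.cjC ⟨g.1, ((hT g.1).1 g.2).1⟩ c) c (by simp [mul_assoc])
      exact h1.symm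
    · have hx := x.2
      rw [Cfsg.Agent.Lib.DefOneC.mem_stabT] at hx
      have h1 := congrFun hx c'
      have h2 : H.cjC x.1 c' = c := by
        apply Subtype.ext
        rw [H.cjC_coe, hc']
        group
      show (θ : Subgroup.centralizer ((P : Subgroup G) : Set G) → ℂ) c' = _
      rw [← h1]
      show (θ : Subgroup.centralizer ((P : Subgroup G) : Set G) → ℂ) (H.cjC x.1 c') = _
      rw [h2]
  have hT' : Nat.card (Cfsg.Agent.Lib.DefOneC.stabT H (θ : Subgroup.centralizer ((P : Subgroup G) : Set G) → ℂ)) = Nat.card (Subgroup.centralizer ((P : Subgroup G) : Set G)) * e := by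
    rw [← hTcard]
    exact Cfsg.Agent.Lib.RangeP0.card_normalizer_eq hCT he
  have hN := Cfsg.Agent.Lib.RangeP0.card_normalizer_eq H.le_normalizer hf
  have hex : ∀ (τ : Cfsg.IrrCharacter (Subgroup.centralizer ((P : Subgroup G) : Set G))) (g : ↥(P : Subgroup G) →* ℂˣ) (χ : Cfsg.IrrCharacter G),
      ∃ n : ℕ, Cfsg.classInner (Cfsg.Agent.Lib.DefOneC.tw r g τ) (fun c : Subgroup.centralizer ((P : Subgroup G) : Set G) => (χ : G → ℂ) c) = n :=
    fun τ g χ => Cfsg.Agent.Lib.CharBasic.classInner_char_char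
      (Cfsg.Agent.Lib.CharBasic.IsIrrCharacter.isCharacter (Cfsg.Agent.Lib.DefOneC.isIrr_tw g τ.2))
      (Cfsg.Agent.Lib.CharBasic.isCharacter_restrict _ (Cfsg.Agent.Lib.CharBasic.IsIrrCharacter.isCharacter χ.2))
  choose a ha using hex
  letI : Fintype (Cfsg.Agent.Lib.DefectOne.NT (P : Subgroup G)) := Fintype.ofFinite _
  obtain ⟨w, σ, ξ, n, hσ, hrel, hw0, hξ, hsum, hval, hreg, hcd, hmem, hne, hdX, hdY⟩ :=
    Cfsg.Agent.Lib.DefOneH.block_struct H hP P.not_dvd_index hM hB hBP ⟨θ, hθP⟩ hind hT' hN ha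
  have hp1 : 0 < p - 1 := Nat.sub_pos_of_lt hp.one_lt
  have he0 : 0 < e := by
    rcases Nat.eq_zero_or_pos e with h | h
    · rw [h, mul_zero] at hcd
      omega
    · exact h
  have hdiv : (p - 1) / e = Nat.card (Set.range ξ) := Nat.div_eq_of_eq_mul_left he0 hcd.symm
  have hfe : f / e = n := by
    rw [← hne]
    exact Nat.mul_div_cancel _ he0
  have hBeq : B = {χ | w χ ≠ 0} ∪ Set.range ξ := by
    ext χ
    exact hmem χ
  have hdisj : Disjoint {χ | w χ ≠ 0} (Set.range ξ) := by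
    rw [Set.disjoint_left]
    rintro χ hχ ⟨g, rfl⟩
    exact hχ (hw0 g)
  have hcX : Nat.card ({χ | w χ ≠ 0} : Set (Cfsg.IrrCharacter G)) = e := by
    have h1 : ∀ χ, (w χ) ^ 2 = if w χ ≠ 0 then 1 else 0 := by
      intro χ
      rcases hval χ with h | h | h <;> simp [h]
    simp_rw [h1] at hsum
    rw [Finset.sum_boole] at hsum
    have h2 : (Finset.univ.filter fun χ => w χ ≠ 0).card = e := by exact_mod_cast hsum
    rw [← h2, Nat.card_eq_fintype_card]
    exact Fintype.card_subtype _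
  have hcB : Nat.card B = e + Nat.card (Set.range ξ) := by
    rw [hBeq, Nat.card_coe_set_eq, Set.ncard_union_eq hdisj (Set.toFinite _) (Set.toFinite _),
      ← Nat.card_coe_set_eq, ← Nat.card_coe_set_eq, hcX]
  have hσ0 : (σ : ℂ) ≠ 0 := by
    rcases hσ with rfl | rfl <;> norm_num
  rw [hdiv]
  refine ⟨⟨Nat.card (Set.range ξ), by rw [← hcd, mul_comm]⟩, hcB, {χ | w χ ≠ 0}, Set.range ξ, hBeq, hdisj, hcX, rfl, ?_, ⟨σ, hσ, ?_⟩, ?_⟩
  · intro χ hχ
    have h1 := hdX χ hχ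
    rw [hfe]
    rcases hval χ with h | h | h
    · exact absurd h hχ
    · right
      rw [h] at h1
      push_cast
      refine h1.trans ?_
      have h6 : (-1 : ℤ) * ((n : ℤ) * (Cfsg.charDegree (θ : Subgroup.centralizer ((P : Subgroup G) : Set G) → ℂ) : ℤ)) = -((n : ℤ) * (Cfsg.charDegree (θ : Subgroup.centralizer ((P : Subgroup G) : Set G) → ℂ) : ℤ)) := by ring
      rw [h6]
    · left
      rw [h] at h1
      push_cast
      refine h1.trans ?_
      have h6 : (- -1 : ℤ) * ((n : ℤ) * (Cfsg.charDegree (θ : Subgroup.centralizer ((P : Subgroup G) : Set G) → ℂ) : ℤ)) = ((n : ℤ) * (Cfsg.charDegree (θ : Subgroup.centralizer ((P : Subgroup G) : Set G) → ℂ) : ℤ)) := by ring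
      rw [h6]
  · intro ψ hψ
    have h1 := hdY ψ hψ
    rw [← hne]
    push_cast
    refine h1.trans ?_
    have h6 : σ * ((e : ℤ) * ((n : ℤ) * (Cfsg.charDegree (θ : Subgroup.centralizer ((P : Subgroup G) : Set G) → ℂ) : ℤ))) = σ * ((n : ℤ) * (e : ℤ) * (Cfsg.charDegree (θ : Subgroup.centralizer ((P : Subgroup G) : Set G) → ℂ) : ℤ)) := by ring
    rw [h6]
  · rintro ψ ⟨f₁, rfl⟩ ψ' ⟨f₂, rfl⟩ g hg
    have h1 := hreg f₁ g hg
    have h2 := hreg f₂ g hg
    have h3 : (σ : ℂ) * ((ξ f₁ : Cfsg.IrrCharacter G) : G → ℂ) g = (σ : ℂ) * ((ξ f₂ : Cfsg.IrrCharacter G) : G → ℂ) g := by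
      linear_combination h1 - h2
    exact mul_left_cancel₀ hσ0 h3

end Cfsg.Agent.S4442
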