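import Mathlib
-- Template for statement S4443 (row 4443; see /opt/grader/pristine/manifest.json for weights).
-- Copy to Cfsg/Agent/S4443.lean and replace the sorry. The statement below is byte-identical to the frozen
-- statement Cfsg.CfsgFrozen.S4443 (Cfsg/Statements/S4443.lean; the theorem Cfsg.blk_count_blocks_with_normal_defect_group_eq_matrix_rank);
-- the grader kernel-checks Cfsg.Agent.S4443.result against that frozen type. Keep the theorem IN THIS FILE
-- (a `result` declared elsewhere and merely imported here is not credited); helpers may live anywhere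
-- under Cfsg/Agent/.
import Cfsg.Statements.S4443
import Cfsg.Agent.Lib.BlkRobinson

set_option autoImplicit false
open Cfsg

namespace Cfsg.Agent.S4443

open Cfsg.Agent.Lib.BlkRobinson in
theorem isGood_iff {G : Type*} [Group G] [Fintype G] (p : ℕ) [Fact p.Prime] (D : Subgroup G) [D.Normal]
    {ι : Type*} (K : ι → ConjClasses G)
    (hK : ∀ C : ConjClasses G, (∃ i, K i = C) ↔ ∃ x ∈ C.carrier, ¬ p ∣ orderOf x ∧ ∃ Q : Sylow p (Subgroup.centralizer ({x} : Set G)), (Q : Subgroup (Subgroup.centralizer ({x} : Set G))).map (Subgroup.centralizer ({x} : Set G)).subtype = D)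
    (g : G) : (∃ i, K i = ConjClasses.mk g) ↔ IsGood p D g := by
  rw [hK]
  constructor
  · rintro ⟨x, hx, hreg, Q, hQ⟩
    have hgx : IsConj x g := by
      have : ConjClasses.mk x = ConjClasses.mk g := ConjClasses.mem_carrier_iff_mk_eq.mp hx
      exact ConjClasses.mk_eq_mk_iff_isConj.mp this
    have hxgood : IsGood p D x := by
      refine ⟨hreg, ?_, ?_⟩
      · rw [← hQ]
        exact Subgroup.map_subtype_le _
      · rw [← hQ, Subgroup.card_map_of_injective Subtype.val_injective]
        exact Sylow.card_eq_multiplicity Q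
    obtain ⟨c, rfl⟩ := isConj_iff.mp hgx
    exact hxgood.conj c
  · rintro ⟨h1, h2, h3⟩
    refine ⟨g, ConjClasses.mem_carrier_mk, h1, Sylow.ofCard (D.subgroupOf (Subgroup.centralizer ({g} : Set G))) ?_, ?_⟩
    · rw [Nat.card_congr (Subgroup.subgroupOfEquivOfLe h2).toEquiv]
      exact h3
    · rw [Sylow.coe_ofCard]
      exact Subgroup.map_subgroupOf_eq_of_le h2

open Cfsg.Agent.Lib.BlkRobinson in
theorem card_eq_wCount {G : Type*} [Group G] [Fintype G] (S : Subgroup G) (c d : ConjClasses G) :
    Nat.card {yz : G × G // yz.1 ∈ c.carrier ∧ yz.2 ∈ d.carrier ∧ yz.2 * yz.1⁻¹ ∈ S} =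
      wCount S (Quotient.out c) (Quotient.out d) := by
  unfold wCount
  have key : ∀ (e : ConjClasses G) (y : G), y ∈ e.carrier ↔ IsConj (Quotient.out e) y := by
    intro e y
    rw [ConjClasses.mem_carrier_iff_mk_eq]
    constructor
    · intro h
      have h1 : ConjClasses.mk (Quotient.out e) = ConjClasses.mk y := by
        rw [h]
        exact Quotient.out_eq e
      exact ConjClasses.mk_eq_mk_iff_isConj.mp h1
    · intro h
      have h1 : ConjClasses.mk (Quotient.out e) = ConjClasses.mk y := ConjClasses.mk_eq_mk_iff_isConj.mpr h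
      rw [← h1]
      exact Quotient.out_eq e
  apply Nat.card_congr
  apply Equiv.subtypeEquivRight
  intro yz
  rw [key, key]


/-- Let D be a normal p-subgroup of the finite group G, of order p^d, let p^a be the p-part of the order of G, and fix a Sylow p-subgroup S and a maximal ideal M of the algebraic integers containing p. Index by a finite type ι (via an injective map K) exactly the conjugacy classes of p-regular elements x of G for which D is a Sylow p-subgroup of C_G(x). For classes K_i, K_j let ω(i, j) be the number of pairs (y, z) ∈ K_i × K_j with z y⁻¹ ∈ S; this number is divisible by p^(a−d). Then the number of p-blocks of G having D as a defect group equals the rank over ℤ/pℤ of the matrix with (i, j) entry ω(i, j)/p^(a−d) reduced modulo p. -/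
theorem result {G : Type*} [Group G] [Finite G] (p : ℕ) [Fact p.Prime] (M : Ideal Cfsg.AlgInt) (hM : Cfsg.IsPModular p M) (D : Subgroup G) [D.Normal] (hD : IsPGroup p D) (S : Sylow p G) {ι : Type*} [Fintype ι] [DecidableEq ι] (K : ι → ConjClasses G) (hKinj : Function.Injective K) (hK : ∀ C : ConjClasses G, (∃ i, K i = C) ↔ ∃ x ∈ C.carrier, ¬ p ∣ orderOf x ∧ ∃ Q : Sylow p (Subgroup.centralizer ({x} : Set G)), (Q : Subgroup (Subgroup.centralizer ({x} : Set G))).map (Subgroup.centralizer ({x} : Set G)).subtype = D) : Nat.card {B : Set (Cfsg.IrrCharacter G) // Cfsg.IsPBlock M B ∧ Cfsg.IsDefectGroup p M B D} = (Matrix.of fun i j : ι => ((Nat.card {yz : G × G // yz.1 ∈ (K i).carrier ∧ yz.2 ∈ (K j).carrier ∧ yz.2 * yz.1⁻¹ ∈ (S : Subgroup G)} / p ^ ((Nat.card G).factorization p - (Nat.card D).factorization p) : ℕ) : ZMod p)).rank := by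
  classical
  letI : Fintype G := Fintype.ofFinite G
  have h := Cfsg.Agent.Lib.BlkRobinson.main_rank hM D hD S K hKinj (isGood_iff p D K hK)
  rw [h]
  simp_rw [card_eq_wCount]

end Cfsg.Agent.S4443
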