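import Mathlib
import Cfsg.Statements.S4444
import Cfsg.Agent.Lib.GlaubCorr

set_option autoImplicit false
open Cfsg

namespace Cfsg.Agent.S4444

open Cfsg.Agent.Lib.GlaubCorr in
/-- The Glauberman correspondence for a p-group of operators. Inside a finite group Γ let S normalise G with the orders of G and S coprime, S a p-group, and let C = G ⊓ C(S) be the fixed points. Call an irreducible character χ of G S-invariant when χ(s g s⁻¹) = χ(g) for s ∈ S, g ∈ G. Then: (i) for every S-invariant χ there is exactly one irreducible character β of C whose multiplicity [χ_C, β] in the restriction of χ is not divisible by p; (ii) that multiplicity is ≡ 1 or ≡ −1 (mod p); (iii) distinct S-invariant χ give distinct β; (iv) every irreducible character of C arises in this way. So χ ↦ β is a bijection from the S-invariant irreducible characters of G onto the irreducible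 characters of C. -/
theorem result {Γ : Type*} [Group Γ] [Fintype Γ] (G S : Subgroup Γ) [Fintype G] (hnorm : ∀ s ∈ S, ∀ g ∈ G, s * g * s⁻¹ ∈ G) (hcop : (Nat.card G).Coprime (Nat.card S)) (p : ℕ) (hp : p.Prime) (hS : IsPGroup p S) (C : Subgroup Γ) [Fintype C] (hC : C = G ⊓ Subgroup.centralizer (S : Set Γ)) (hCG : C ≤ G) : (∀ χ : Cfsg.IrrCharacter G, (∀ s ∈ S, ∀ g g' : G, (g' : Γ) = s * g * s⁻¹ → (χ : G → ℂ) g' = (χ : G → ℂ) g) → ∃! β : Cfsg.IrrCharacter C, ∃ m : ℕ, Cfsg.classInner (fun c : C => (χ : G → ℂ) ⟨c, hCG c.2⟩) (β : C → ℂ) = (m : ℂ) ∧ ¬ p ∣ m) ∧ (∀ χ : Cfsg.IrrCharacter G, (∀ s ∈ S, ∀ g g' : G, (g' : Γ) = s * g * s⁻¹ → (χ : G → ℂ) g' = (χ : G → ℂ) g) → ∀ β : Cfsg.IrrCharacter C, ∀ m : ℕ, Cfsg.classInner (fun c : C => (χ : G → ℂ) ⟨c, hCG c.2⟩) (β : C → ℂ) = (m : ℂ) → ¬ p ∣ m → ((m : ℤ) ≡ 1 [ZMOD p] ∨ (m : ℤ) ≡ -1 [ZMOD p])) ∧ (∀ χ χ' : Cfsg.IrrCharacter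 G, (∀ s ∈ S, ∀ g g' : G, (g' : Γ) = s * g * s⁻¹ → (χ : G → ℂ) g' = (χ : G → ℂ) g) → (∀ s ∈ S, ∀ g g' : G, (g' : Γ) = s * g * s⁻¹ → (χ' : G → ℂ) g' = (χ' : G → ℂ) g) → ∀ β : Cfsg.IrrCharacter C, ∀ m m' : ℕ, Cfsg.classInner (fun c : C => (χ : G → ℂ) ⟨c, hCG c.2⟩) (β : C → ℂ) = (m : ℂ) → ¬ p ∣ m → Cfsg.classInner (fun c : C => (χ' : G → ℂ) ⟨c, hCG c.2⟩) (β : C → ℂ) = (m' : ℂ) → ¬ p ∣ m' → χ = χ') ∧ (∀ β : Cfsg.IrrCharacter C, ∃ χ : Cfsg.IrrCharacter G, (∀ s ∈ S, ∀ g g' : G, (g' : Γ) = s * g * s⁻¹ → (χ : G → ℂ) g' = (χ : G → ℂ) g) ∧ ∃ m : ℕ, Cfsg.classInner (fun c : C => (χ : G → ℂ) ⟨c, hCG c.2⟩) (β : C → ℂ) = (m : ℂ) ∧ ¬ p ∣ m) := by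
  haveI : Fact p.Prime := ⟨hp⟩
  let A := (conjHom G S hnorm).range
  have hA : IsPGroup p A :=
    hS.of_surjective (conjHom G S hnorm).rangeRestrict (conjHom G S hnorm).rangeRestrict_surjective
  have hcopA : (Nat.card G).Coprime (Nat.card A) :=
    Nat.Coprime.coprime_dvd_right (card_range_conjHom_dvd G S hnorm) hcop
  have hmodel := fixModel_inclusion G S C hnorm hC hCG
  obtain ⟨π, hb, hs⟩ := corr_pgroup p (Nat.card A) G A rfl hA hcopA C _ hmodel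
  have hinv := fun χ : G → ℂ => invA_conjHom_iff G S hnorm χ
  have hpm : ∀ χ : XA A, ∃ m : ℕ, Cfsg.classInner (fun c : C => (χ.1 : G → ℂ) ⟨c, hCG c.2⟩)
      (π χ : C → ℂ) = (m : ℂ) ∧ ¬ p ∣ m ∧ ((m : ℤ) ≡ 1 [ZMOD p] ∨ (m : ℤ) ≡ -1 [ZMOD p]) := by
    intro χ
    obtain ⟨m, h1, h2⟩ := (hs χ).1
    exact ⟨m, h1, not_dvd_of_modEq_pm hp h2, h2⟩
  have huniq : ∀ (χ : XA A) (β : Cfsg.IrrCharacter C) (m : ℕ),
      Cfsg.classInner (fun c : C => (χ.1 : G → ℂ) ⟨c, hCG c.2⟩) (β : C → ℂ) = (m : ℂ) → ¬ p ∣ m →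
        β = π χ := fun χ β m h1 h2 => (hs.not_dvd_iff hp χ β m h1).mp h2
  refine ⟨?_, ?_, ?_, ?_⟩
  · intro χ hχ
    let χ' : XA A := ⟨χ, (hinv _).mpr hχ⟩
    obtain ⟨m, h1, h2, -⟩ := hpm χ'
    refine ⟨π χ', ⟨m, h1, h2⟩, ?_⟩
    rintro β ⟨m', h3, h4⟩
    exact huniq χ' β m' h3 h4
  · intro χ hχ β m h1 h2
    let χ' : XA A := ⟨χ, (hinv _).mpr hχ⟩
    have h3 := huniq χ' β m h1 h2
    obtain ⟨m₀, h4, -, h5⟩ := hpm χ'
    rw [← h3] at h4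
    have h6 : m = m₀ := by
      have h7 := h1.symm.trans h4
      exact_mod_cast h7
    rwa [h6]
  · intro χ χ' hχ hχ' β m m' h1 h2 h3 h4
    have h5 := huniq ⟨χ, (hinv _).mpr hχ⟩ β m h1 h2
    have h6 := huniq ⟨χ', (hinv _).mpr hχ'⟩ β m' h3 h4
    have h7 := hb.1 (h5.symm.trans h6)
    exact congrArg Subtype.val h7
  · intro β
    obtain ⟨χ, rfl⟩ := hb.2 β
    obtain ⟨m, h1, h2, -⟩ := hpm χ
    exact ⟨χ.1, (hinv _).mp χ.2, m, h1, h2⟩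

end Cfsg.Agent.S4444
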