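-- Statement S4445
import Mathlib
import Cfsg.Statements.S4445
import Cfsg.Agent.Lib.GlaubCount

set_option autoImplicit false
open Cfsg

namespace Cfsg.Agent.S4445

open Cfsg.Agent.Lib.GlaubCorr Cfsg.Agent.Lib.GlaubCount in
/-- Inside a finite group Γ let the solvable subgroup S normalise G with the orders of G and S coprime. Then the number of S-invariant irreducible characters of G (χ(s g s⁻¹) = χ(g) for all s ∈ S, g ∈ G) equals the number of conjugacy classes of G mapped to themselves by conjugation by every element of S. -/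
theorem result {Γ : Type*} [Group Γ] [Fintype Γ] (G S : Subgroup Γ) [Fintype G] (hnorm : ∀ s ∈ S, ∀ g ∈ G, s * g * s⁻¹ ∈ G) (hcop : (Nat.card G).Coprime (Nat.card S)) (hsolv : Group.IsSolvable S) : Nat.card {χ : Cfsg.IrrCharacter G // (∀ s ∈ S, ∀ g g' : G, (g' : Γ) = s * g * s⁻¹ → (χ : G → ℂ) g' = (χ : G → ℂ) g)} = Nat.card {K : ConjClasses G // ∀ s ∈ S, ∀ g g' : G, (g' : Γ) = s * g * s⁻¹ → ConjClasses.mk g = K → ConjClasses.mk g' = K} := by
  let A := (conjHom G S hnorm).range
  have hA : Group.IsSolvable A :=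
    Group.isSolvable_of_surjective (conjHom G S hnorm).rangeRestrict_surjective
  have hcopA : (Nat.card G).Coprime (Nat.card A) :=
    Nat.Coprime.coprime_dvd_right (card_range_conjHom_dvd G S hnorm) hcop
  have h1 := card_XA_eq_card_ClA (Nat.card A) G A rfl hA hcopA
  have h2 : Nat.card {χ : Cfsg.IrrCharacter G // (∀ s ∈ S, ∀ g g' : G, (g' : Γ) = s * g * s⁻¹ → (χ : G → ℂ) g' = (χ : G → ℂ) g)} = Nat.card (XA A) := by
    apply Nat.card_congr
    exact Equiv.subtypeEquivRight fun χ => (invA_conjHom_iff G S hnorm (χ : G → ℂ)).symm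
  have h3 : Nat.card {K : ConjClasses G // ∀ s ∈ S, ∀ g g' : G, (g' : Γ) = s * g * s⁻¹ → ConjClasses.mk g = K → ConjClasses.mk g' = K} = Nat.card (ClA A) := by
    apply Nat.card_congr
    refine Equiv.subtypeEquivRight fun K => ⟨?_, ?_⟩
    · rintro h _ ⟨s, rfl⟩ g hg
      exact h s s.2 g _ rfl hg
    · intro h s hs g g' hg' hgK
      have h4 : g' = conjHom G S hnorm ⟨s, hs⟩ g := Subtype.ext hg'
      rw [h4]
      exact h _ ⟨⟨s, hs⟩, rfl⟩ g hgK
  rw [h2, h3, h1]

end Cfsg.Agent.S4445
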