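import Mathlib
import Cfsg.Statements.S4446
import Cfsg.Agent.Lib.GlaubCycVal

set_option autoImplicit false
open Cfsg

namespace Cfsg.Agent.S4446

open Cfsg.Agent.Lib.GlaubCyc Cfsg.Agent.Lib.GlaubCycVal

/-- Let the finite group Γ be generated by a normal subgroup G and a cyclic subgroup S of coprime orders, C = G ⊓ C(S), and let χ be an S-invariant irreducible character of G with canonical extension χ̂ to Γ (the extension whose determinantal order is coprime to the order of S). Then there are exactly one irreducible character β of C and one sign ε such that χ̂(c s) = ε β(c) for every c ∈ C and every generator s of S; this β is a constituent of the restriction of χ to C; distinct S-invariant χ give distinct β; and every irreducible character of C arises in this way. -/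
theorem result {Γ : Type*} [Group Γ] [Fintype Γ] (G S : Subgroup Γ) [Fintype G] (hnorm : ∀ s ∈ S, ∀ g ∈ G, s * g * s⁻¹ ∈ G) (hcop : (Nat.card G).Coprime (Nat.card S)) (htop : G ⊔ S = ⊤) (hcyc : IsCyclic S) (C : Subgroup Γ) [Fintype C] (hC : C = G ⊓ Subgroup.centralizer (S : Set Γ)) (hCG : C ≤ G) : (∀ (χ : Cfsg.IrrCharacter G) (χh : Cfsg.IrrCharacter Γ), (∀ s ∈ S, ∀ g g' : G, (g' : Γ) = s * g * s⁻¹ → (χ : G → ℂ) g' = (χ : G → ℂ) g) → (∀ g : G, (χh : Γ → ℂ) g = (χ : G → ℂ) g) → (Cfsg.detOrder (χh : Γ → ℂ)).Coprime (Nat.card S) → (∃! βε : Cfsg.IrrCharacter C × ℤ, (βε.2 = 1 ∨ βε.2 = -1) ∧ ∀ c : C, ∀ s : Γ, Subgroup.zpowers s = S → (χh : Γ → ℂ) ((c : Γ) * s) = (βε.2 : ℂ) * (βε.1 : C → ℂ) c) ∧ ∀ β : Cfsg.IrrCharacter C, ∀ ε : ℤ, (ε = 1 ∨ ε = -1) → (∀ c : C, ∀ s : Γ, Subgroup.zpowers s = S → (χh : Γ → ℂ) ((c : Γ) * s) = (ε : ℂ) * (β : C → ℂ) c) → Cfsg.classInner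 (fun c : C => (χ : G → ℂ) ⟨c, hCG c.2⟩) (β : C → ℂ) ≠ 0) ∧ (∀ (χ χ' : Cfsg.IrrCharacter G) (χh χh' : Cfsg.IrrCharacter Γ), (∀ s ∈ S, ∀ g g' : G, (g' : Γ) = s * g * s⁻¹ → (χ : G → ℂ) g' = (χ : G → ℂ) g) → (∀ s ∈ S, ∀ g g' : G, (g' : Γ) = s * g * s⁻¹ → (χ' : G → ℂ) g' = (χ' : G → ℂ) g) → (∀ g : G, (χh : Γ → ℂ) g = (χ : G → ℂ) g) → (∀ g : G, (χh' : Γ → ℂ) g = (χ' : G → ℂ) g) → (Cfsg.detOrder (χh : Γ → ℂ)).Coprime (Nat.card S) → (Cfsg.detOrder (χh' : Γ → ℂ)).Coprime (Nat.card S) → ∀ β : Cfsg.IrrCharacter C, ∀ ε ε' : ℤ, (ε = 1 ∨ ε = -1) → (ε' = 1 ∨ ε' = -1) → (∀ c : C, ∀ s : Γ, Subgroup.zpowers s = S → (χh : Γ → ℂ) ((c : Γ) * s) = (ε : ℂ) * (β : C → ℂ) c) → (∀ c : C, ∀ s : Γ, Subgroup.zpowers s = S → (χh' : Γ → ℂ) ((c : Γ) * s) = (ε' : ℂ) * (β : C → ℂ) c) → χ = χ') ∧ (∀ β : Cfsg.IrrCharacter C, ∃ (χ : Cfsg.IrrCharacter G) (χh : Cfsg.IrrCharacter Γ) (ε : ℤ),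 (∀ s ∈ S, ∀ g g' : G, (g' : Γ) = s * g * s⁻¹ → (χ : G → ℂ) g' = (χ : G → ℂ) g) ∧ (∀ g : G, (χh : Γ → ℂ) g = (χ : G → ℂ) g) ∧ (Cfsg.detOrder (χh : Γ → ℂ)).Coprime (Nat.card S) ∧ (ε = 1 ∨ ε = -1) ∧ ∀ c : C, ∀ s : Γ, Subgroup.zpowers s = S → (χh : Γ → ℂ) ((c : Γ) * s) = (ε : ℂ) * (β : C → ℂ) c) := by
  classical
  let _ : Fintype S := Fintype.ofFinite _
  have hN : G.Normal := normal_of_top hnorm htop
  have hs : Setup G S C := ⟨hcop, htop, hcyc, hC⟩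
  obtain ⟨t₀, ht₀⟩ := hs.cyc.exists_generator
  have hs₀ : Subgroup.zpowers (t₀ : Γ) = S := zpowers_coe_eq ht₀
  have hcanon : ∀ (χ : XS G S) (χh : Cfsg.IrrCharacter Γ), (∀ g : G, (χh : Γ → ℂ) g = (χ.1 : G → ℂ) g) →
      (Cfsg.detOrder (χh : Γ → ℂ)).Coprime (Nat.card S) → χh = canon hs χ := by
    intro χ χh hext hdet
    exact Subtype.ext (eq_canon hs χ χh.2 (funext hext) hdet)
  refine ⟨?_, ?_, ?_⟩
  · intro χ χh hinv hext hdet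
    obtain rfl := hcanon ⟨χ, hinv⟩ χh hext hdet
    obtain ⟨β₀, ε, hε, hval⟩ := exists_val hs (⟨χ, hinv⟩ : XS G S)
    refine ⟨?_, ?_⟩
    · refine ⟨(β₀, ε), ⟨hε, ?_⟩, ?_⟩
      · intro c s hsS
        obtain ⟨t, rfl, ht⟩ := gen_of_zpowers_eq hsS
        exact (hval t ht).1 c
      · rintro ⟨β, ε'⟩ ⟨hε', hv⟩
        have h1 : ∀ c : C, (ε' : ℂ) * (β : C → ℂ) c = (ε : ℂ) * (β₀ : C → ℂ) c := by
          intro c
          rw [← hv c _ hs₀]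
          exact (hval t₀ ht₀).1 c
        obtain ⟨h2, h3⟩ := sign_unique hε' hε h1
        exact Prod.ext h3 h2
    · intro β ε' hε' hv
      exact constituent hs (⟨χ, hinv⟩ : XS G S) t₀ hε' (fun c => hv c _ hs₀)
  · intro χ χ' χh χh' hinv hinv' hext hext' hdet hdet' β ε ε' hε hε' hv hv'
    obtain rfl := hcanon ⟨χ, hinv⟩ χh hext hdet
    obtain rfl := hcanon ⟨χ', hinv'⟩ χh' hext' hdet'
    have h1 := val_injective hs ht₀ hε hε' (fun c => hv c _ hs₀) (fun c => hv' c _ hs₀)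
    exact congrArg Subtype.val h1
  · intro β
    obtain ⟨χ, ε, hε, hv⟩ := val_surjective hs β
    refine ⟨χ.1, canon hs χ, ε, χ.2, canon_apply hs χ, canon_det hs χ, hε, ?_⟩
    intro c s hsS
    obtain ⟨t, rfl, ht⟩ := gen_of_zpowers_eq hsS
    exact hv t ht c

end Cfsg.Agent.S4446
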