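import Mathlib
import Cfsg.Statements.S4448
import Cfsg.Agent.Lib.GlaubFixInd

set_option autoImplicit false
open Cfsg

namespace Cfsg.Agent.S4448

/-- Inside a finite group Γ let S normalise G and also normalise a normal subgroup N of G, with the order of S coprime to the index of N in G and G/N solvable. Then for every S-invariant irreducible character ϑ of N, the induced character ϑ^G has an S-invariant irreducible constituent. -/
theorem result {Γ : Type*} [Group Γ] [Fintype Γ] (G S N : Subgroup Γ) [Fintype G] [Fintype N] (hnorm : ∀ s ∈ S, ∀ g ∈ G, s * g * s⁻¹ ∈ G) (hNG : N ≤ G) [hNn : (N.subgroupOf G).Normal] (hNS : ∀ s ∈ S, ∀ n ∈ N, s * n * s⁻¹ ∈ N) (hcop : (N.relIndex G).Coprime (Nat.card S)) (hsolv : Group.IsSolvable (G ⧸ N.subgroupOf G)) (θ : Cfsg.IrrCharacter N) (hinv : (∀ s ∈ S, ∀ g g' : N, (g' : Γ) = s * g * s⁻¹ → (θ : N → ℂ) g' = (θ : N → ℂ) g)) : ∃ χ : Cfsg.IrrCharacter G, Cfsg.classInner (fun n : N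 => (χ : G → ℂ) ⟨n, hNG n.2⟩) (θ : N → ℂ) ≠ 0 ∧ (∀ s ∈ S, ∀ g g' : G, (g' : Γ) = s * g * s⁻¹ → (χ : G → ℂ) g' = (χ : G → ℂ) g) := by
  classical
  letI : Fintype (N.subgroupOf G) := Fintype.ofFinite _
  let a := Cfsg.Agent.Lib.GlaubCorr.conjHom G S hnorm
  have hNa : ∀ s, ∀ n ∈ N.subgroupOf G, a s n ∈ N.subgroupOf G := by
    intro s n hn
    exact hNS s s.2 n (Subgroup.mem_subgroupOf.mp hn)
  let e : N.subgroupOf G ≃* N := Subgroup.subgroupOfEquivOfLe hNG
  have hcop' : (N.subgroupOf G).index.Coprime (⊥ : Subgroup S).index := by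
    rw [Subgroup.index_bot]
    exact hcop
  obtain ⟨χ, h1, h2⟩ := Cfsg.Agent.Lib.GlaubFixInd.exists_inv_above (⊥ : Subgroup S) _ G
    (N.subgroupOf G) a hNa (fun s hs => ⟨1, Subgroup.one_mem _, fun g => by
      rw [Subgroup.mem_bot] at hs
      subst hs
      simp⟩) hcop' hsolv rfl
    ⟨(θ : N → ℂ) ∘ e, Cfsg.Agent.Lib.CharBasic.isIrrCharacter_comp_of_surjective e.toMonoidHom
      e.surjective θ.2⟩
    (fun s x => hinv s s.2 _ _ rfl)
  refine ⟨χ, ?_, fun s hs g g' hg' => ?_⟩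
  · have h3 := Cfsg.Agent.Lib.Clifford.classInner_comp_mulEquiv e
      (fun n : N => (χ : G → ℂ) ⟨n, hNG n.2⟩) (θ : N → ℂ)
    rw [← h3]
    exact h1
  · have h4 := h2 ⟨s, hs⟩ g
    rw [← h4]
    refine congrArg (χ : G → ℂ) (Subtype.ext ?_)
    exact hg'

end Cfsg.Agent.S4448
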