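-- Statement S4449
import Mathlib
import Cfsg.Statements.S4449
import Cfsg.Agent.Lib.GlaubAbove

set_option autoImplicit false
open Cfsg

namespace Cfsg.Agent.S4449

open Cfsg.Agent.Lib.GlaubCorr Cfsg.Agent.Lib.GlaubAbove Cfsg.Agent.Lib.CharBasic in
/-- Inside a finite group Γ let the solvable subgroup S normalise G with the orders of G and S coprime, and let N be a normal subgroup of G normalised by S. Then for every S-invariant irreducible character ϑ of N, the induced character ϑ^G has an S-invariant irreducible constituent. -/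
theorem result {Γ : Type*} [Group Γ] [Fintype Γ] (G S N : Subgroup Γ) [Fintype G] [Fintype N] (hnorm : ∀ s ∈ S, ∀ g ∈ G, s * g * s⁻¹ ∈ G) (hNG : N ≤ G) (hNnormal : ∀ g ∈ G, ∀ n ∈ N, g * n * g⁻¹ ∈ N) (hNS : ∀ s ∈ S, ∀ n ∈ N, s * n * s⁻¹ ∈ N) (hcop : (Nat.card G).Coprime (Nat.card S)) (hsolv : Group.IsSolvable S) (θ : Cfsg.IrrCharacter N) (hinv : (∀ s ∈ S, ∀ g g' : N, (g' : Γ) = s * g * s⁻¹ → (θ : N → ℂ) g' = (θ : N → ℂ) g)) : ∃ χ : Cfsg.IrrCharacter G, Cfsg.classInner (fun n : N => (χ : G → ℂ) ⟨n, hNG n.2⟩) (θ : N → ℂ) ≠ 0 ∧ (∀ s ∈ S, ∀ g g' : G, (g' : Γ) = s * g * s⁻¹ → (χ : G → ℂ) g' = (χ : G → ℂ) g) := by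
  let A := (conjHom G S hnorm).range
  have hA : Group.IsSolvable A :=
    Group.isSolvable_of_surjective (conjHom G S hnorm).rangeRestrict_surjective
  have hcopA : (Nat.card G).Coprime (Nat.card A) :=
    Nat.Coprime.coprime_dvd_right (card_range_conjHom_dvd G S hnorm) hcop
  let N' : Subgroup G := N.subgroupOf G
  letI : Fintype N' := Fintype.ofFinite _
  have hN' : N'.Normal := ⟨fun n hn g => hNnormal g g.2 n hn⟩
  let e : N' ≃* N := Subgroup.subgroupOfEquivOfLe hNG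
  have he : ∀ x : N', ((e x : N) : Γ) = ((x : G) : Γ) := fun x => rfl
  let θ' : IrrCharacter N' := ⟨(θ : N → ℂ) ∘ e,
    isIrrCharacter_comp_of_surjective e.toMonoidHom e.surjective θ.2⟩
  have hst : ∀ b ∈ A, ∀ x ∈ N', b x ∈ N' := by
    rintro _ ⟨s, rfl⟩ x hx
    exact hNS s s.2 x hx
  have hθ' : ∀ b ∈ A, ∀ x x' : N', (x' : G) = b x → (θ' : N' → ℂ) x' = (θ' : N' → ℂ) x := by
    rintro _ ⟨s, rfl⟩ x x' hx'
    apply hinv s s.2
    rw [he, he, hx']
    rfl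
  obtain ⟨χ, hχ⟩ := exists_inv_over (Nat.card A) G A N' rfl hA hcopA hN' hst θ' hθ'
  refine ⟨χ.1, ?_, (invA_conjHom_iff G S hnorm _).mp χ.2⟩
  intro h0
  apply hχ
  have h1 := Cfsg.Agent.Lib.Clifford.classInner_comp_mulEquiv e
    (fun n : N => (χ.1 : G → ℂ) ⟨n, hNG n.2⟩) (θ : N → ℂ)
  have h2 : (fun n : N => (χ.1 : G → ℂ) ⟨n, hNG n.2⟩) ∘ e = fun x : N' => (χ.1 : G → ℂ) x :=
    funext fun x => congrArg (χ.1 : G → ℂ) (Subtype.ext (he x))
  rw [h2, h0] at h1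
  exact h1

end Cfsg.Agent.S4449
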