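import Mathlib
import Cfsg.Statements.S4450
import Cfsg.Agent.Lib.GlaubFixLift

set_option autoImplicit false
open Cfsg

namespace Cfsg.Agent.S4450

/-- Let N ≤ G be normal subgroups of the finite group Γ with the index of G in Γ coprime to the index of N in G, and Γ/G or G/N solvable. Then for every irreducible character ϑ of N invariant under conjugation by Γ, the induced character ϑ^G has an irreducible constituent invariant under conjugation by Γ. -/
theorem result {Γ : Type*} [Group Γ] [Fintype Γ] (G N : Subgroup Γ) [hG : G.Normal] [hN : N.Normal] [Fintype G] [Fintype N] (hNG : N ≤ G) (hcop : (G.index).Coprime (N.relIndex G)) (hsolv : Group.IsSolvable (Γ ⧸ G) ∨ Group.IsSolvable (G ⧸ N.subgroupOf G)) (θ : Cfsg.IrrCharacter N) (hinv : ∀ (x : Γ) (n : N), (θ : N → ℂ) ⟨x * n * x⁻¹, hN.conj_mem n n.2 x⟩ = (θ : N → ℂ) n) : ∃ χ : Cfsg.IrrCharacter G, Cfsg.classInner (fun n : N => (χ : G → ℂ) ⟨n, hNG n.2⟩) (θ : N → ℂ) ≠ 0 ∧ ∀ (x : Γ) (g : G), (χ :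 G → ℂ) ⟨x * g * x⁻¹, hG.conj_mem g g.2 x⟩ = (χ : G → ℂ) g := by
  classical
  rcases hsolv with hsolv | hsolv
  · exact Cfsg.Agent.Lib.GlaubFixLift.exists_inv_above_solvable G N hNG hcop hsolv θ hinv
  let f : Γ →* Γ ⧸ N := QuotientGroup.mk' N
  have hf : Function.Surjective f := QuotientGroup.mk'_surjective N
  have hfker : f.ker = N := QuotientGroup.ker_mk' N
  let G' : Subgroup (Γ ⧸ N) := G.map f
  have hG'n : G'.Normal := hG.map f hf
  have hG'idx : G'.index = G.index := by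
    show (G.map f).index = _
    rw [Subgroup.index_map, hfker, sup_eq_left.mpr hNG, MonoidHom.range_eq_top.mpr hf,
      Subgroup.index_top, mul_one]
  have hG'card : Nat.card G' = N.relIndex G := by
    have h0 := Subgroup.relIndex_ker (K := G) f
    rw [hfker] at h0
    exact h0.symm
  obtain ⟨C, hC⟩ := Subgroup.exists_right_complement'_of_coprime (N := G') (by
    rw [hG'idx, hG'card]
    exact hcop.symm)
  let K : Subgroup Γ := C.comap f
  have hNK : N ≤ K := by
    intro n hn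
    show f n ∈ C
    have h0 : f n = 1 := (QuotientGroup.eq_one_iff n).mpr hn
    rw [h0]
    exact C.one_mem
  have hS₀idx : (N.subgroupOf K).index = G.index := by
    have h1 : N.relIndex K = Nat.card C := by
      have h0 := Subgroup.relIndex_ker (K := K) f
      rw [hfker, Subgroup.map_comap_eq_self_of_surjective hf] at h0
      exact h0
    show N.relIndex K = _
    rw [h1, ← hG'idx]
    exact hC.symm.index_eq_card.symm
  let _ : Fintype (N.subgroupOf G) := Fintype.ofFinite _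
  have hnorm : ∀ s ∈ K, ∀ g ∈ G, s * g * s⁻¹ ∈ G := fun s _ g hg => hG.conj_mem g hg s
  let a := Cfsg.Agent.Lib.GlaubCorr.conjHom G K hnorm
  have hNa : ∀ s, ∀ n ∈ N.subgroupOf G, a s n ∈ N.subgroupOf G := by
    intro s n hn
    exact hN.conj_mem _ (Subgroup.mem_subgroupOf.mp hn) s
  let e : N.subgroupOf G ≃* N := Subgroup.subgroupOfEquivOfLe hNG
  obtain ⟨χ, h1, h2⟩ := Cfsg.Agent.Lib.GlaubFixInd.exists_inv_above (N.subgroupOf K) _ G
    (N.subgroupOf G) a hNa (fun s hs => by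
      refine ⟨⟨s, hNG (Subgroup.mem_subgroupOf.mp hs)⟩, Subgroup.mem_subgroupOf.mpr
        (Subgroup.mem_subgroupOf.mp hs), fun g => Subtype.ext ?_⟩
      rfl) (by
      rw [hS₀idx]
      exact hcop.symm) hsolv rfl
    ⟨(θ : N → ℂ) ∘ e, Cfsg.Agent.Lib.CharBasic.isIrrCharacter_comp_of_surjective e.toMonoidHom
      e.surjective θ.2⟩
    (fun s x => hinv s (e x))
  refine ⟨χ, ?_, fun x g => ?_⟩
  · have h3 := Cfsg.Agent.Lib.Clifford.classInner_comp_mulEquiv e
      (fun n : N => (χ : G → ℂ) ⟨n, hNG n.2⟩) (θ : N → ℂ)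
    rw [← h3]
    exact h1
  · -- decompose `x`
    have htop : C ⊔ G' = ⊤ := by
      rw [sup_comm]
      exact hC.sup_eq_top
    have hx : f x ∈ C ⊔ G' := by
      rw [htop]
      trivial
    rw [Subgroup.mem_sup_of_normal_right] at hx
    obtain ⟨s', hs', _, ⟨h, hh, rfl⟩, hx⟩ := hx
    obtain ⟨s, rfl⟩ := hf s'
    have hmem : (s * h)⁻¹ * x ∈ N := by
      rw [← hfker, MonoidHom.mem_ker, map_mul, map_inv, map_mul, hx, inv_mul_cancel]
    have hhn : h * ((s * h)⁻¹ * x) ∈ G := G.mul_mem hh (hNG hmem)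
    have hxs : x = s * (h * ((s * h)⁻¹ * x)) := by group
    set h' := h * ((s * h)⁻¹ * x) with hh'
    have h3 := h2 ⟨s, hs'⟩ ⟨h' * g * h'⁻¹, hG.conj_mem _ g.2 h'⟩
    have h4 : (χ : G → ℂ) ⟨h' * g * h'⁻¹, hG.conj_mem _ g.2 h'⟩ = (χ : G → ℂ) g :=
      Cfsg.Agent.Lib.CharBasic.isClassFunction_of_isCharacter
        (Cfsg.Agent.Lib.CharBasic.IsIrrCharacter.isCharacter χ.2) g ⟨h', hhn⟩
    rw [← h4, ← h3]
    refine congrArg (χ : G → ℂ) (Subtype.ext ?_)
    show x * g * x⁻¹ = s * (h' * g * h'⁻¹) * s⁻¹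
    conv_lhs => rw [hxs]
    group

end Cfsg.Agent.S4450
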