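import Mathlib
import Cfsg.Statements.S4451
import Cfsg.Agent.Lib.GlaubCycSub

set_option autoImplicit false
open Cfsg

namespace Cfsg.Agent.S4451

open Cfsg.Agent.Lib.GlaubCyc Cfsg.Agent.Lib.GlaubCycVal Cfsg.Agent.Lib.GlaubCycSub
open Cfsg.Agent.Lib.CharBasic Cfsg.Agent.Lib.GlaubDual Cfsg.Agent.Lib.Clifford

/-- Let the finite group Γ be generated by a normal subgroup G and a cyclic subgroup S of coprime orders such that every non-identity element of S has the same centraliser C = G ⊓ C(S) in G. Let χ be an S-invariant irreducible character of G, χ̂ its canonical extension to Γ (determinantal order coprime to the order of S), and β the irreducible character of C with χ̂(c s) = ε₀ β(c) for c ∈ C and generators s of S (ε₀ = ±1). Then there are a sign ε = ±1, which may differ from ε₀, and a linear character μ of S with μ² = 1, such that: (a) χ̂(c x) = ε β(c) μ(x) for all c ∈ C and all x ∈ S other than 1; (b) the restriction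 of χ to C equals |S|·ϑ + ε β for some character ϑ of C or ϑ = 0; (c) |S| divides χ(1) − ε β(1). -/
theorem result {Γ : Type*} [Group Γ] [Fintype Γ] (G S : Subgroup Γ) [Fintype G] (hnorm : ∀ s ∈ S, ∀ g ∈ G, s * g * s⁻¹ ∈ G) (hcop : (Nat.card G).Coprime (Nat.card S)) (htop : G ⊔ S = ⊤) (hcyc : IsCyclic S) (C : Subgroup Γ) [Fintype C] (hC : C = G ⊓ Subgroup.centralizer (S : Set Γ)) (hCG : C ≤ G) (hfpf : ∀ x ∈ S, x ≠ 1 → G ⊓ Subgroup.centralizer ({x} : Set Γ) = C) (χ : Cfsg.IrrCharacter G) (hinv : (∀ s ∈ S, ∀ g g' : G, (g' : Γ) = s * g * s⁻¹ → (χ : G → ℂ) g' = (χ : G → ℂ) g)) (χh : Cfsg.IrrCharacter Γ) (hext : (∀ g : G, (χh : Γ → ℂ) g = (χ : G → ℂ) g)) (hdet : (Cfsg.detOrder (χh : Γ → ℂ)).Coprime (Nat.card S)) (β : Cfsg.IrrCharacter C) (ε₀ : ℤ) (hε₀ : ε₀ = 1 ∨ ε₀ = -1) (hβ : ∀ c : C, ∀ s : Γ, Subgroup.zpowers s = S → (χh : Γ → ℂ) ((c : Γ) * s) = (ε₀ : ℂ) * (β : C → ℂ) c) : ∃ ε : ℤ, (ε = 1 ∨ ε = -1) ∧ (∃ μ : S → ℂ, Cfsg.IsCharacter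 S μ ∧ μ 1 = 1 ∧ (∀ x : S, μ x * μ x = 1) ∧ ∀ c : C, ∀ x : S, x ≠ 1 → (χh : Γ → ℂ) ((c : Γ) * x) = (ε : ℂ) * (β : C → ℂ) c * μ x) ∧ (∃ ϑ : C → ℂ, Cfsg.IsCharacter C ϑ ∧ (fun c : C => (χ : G → ℂ) ⟨c, hCG c.2⟩) = fun c => (Nat.card S : ℂ) * ϑ c + (ε : ℂ) * (β : C → ℂ) c) ∧ (Nat.card S : ℤ) ∣ (Cfsg.charDegree (χ : G → ℂ) : ℤ) - ε * (Cfsg.charDegree (β : C → ℂ) : ℤ) := by
  classical
  let _ : Fintype S := Fintype.ofFinite _
  have hN : G.Normal := normal_of_top hnorm htop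
  have hs : Setup G S C := ⟨hcop, htop, hcyc, hC⟩
  let X : XS G S := ⟨χ, hinv⟩
  obtain rfl : χh = canon hs X := Subtype.ext (eq_canon hs X χh.2 (funext hext) hdet)
  obtain ⟨t₀, ht₀⟩ := hs.cyc.exists_generator
  have hs₀ : Subgroup.zpowers (t₀ : Γ) = S := zpowers_coe_eq ht₀
  by_cases hn : Nat.card S = 1
  · have hsub : Subsingleton S := (Nat.card_eq_one_iff_unique.mp hn).1
    refine ⟨ε₀, hε₀, ⟨fun _ => 1, isCharacter_one, rfl, by simp, ?_⟩, ⟨0, isCharacter_zero, ?_⟩, ?_⟩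
    · intro c x hx
      exact absurd (Subsingleton.elim x 1) hx
    · funext c
      have h1 := hβ c _ hs₀
      have h2 : t₀ = 1 := Subsingleton.elim _ _
      rw [h2] at h1
      simp only [OneMemClass.coe_one, mul_one] at h1
      rw [canon_apply hs X ⟨c, hCG c.2⟩] at h1
      simp
      exact h1
    · rw [hn]
      simp
  · have hn2 : 2 ≤ Nat.card S := by
      have : 0 < Nat.card S := Nat.card_pos
      omega
    have hfpf' : ∀ x : S, x ≠ 1 → G ⊓ Subgroup.centralizer ({(x : Γ)} : Set Γ) = C :=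
      fun x hx => hfpf x x.2 (fun h => hx (Subtype.ext h))
    obtain ⟨β₀, q, ε, l₀, b, hε, hval, hb, hβ₀⟩ := main_fpf hs hfpf' hn2 X
    have hcomm := S_comm hs
    have ht₀1 : t₀ ≠ 1 := by
      intro h
      apply hn
      rw [Nat.card_eq_one_iff_unique]
      refine ⟨⟨fun x y => ?_⟩, inferInstance⟩
      obtain ⟨i, rfl⟩ := ht₀ x
      obtain ⟨j, rfl⟩ := ht₀ y
      simp [h]
    have h1 : ∀ c : C, (ε₀ : ℂ) * (β : C → ℂ) c =
        ((ε : ℂ) * (l₀ : S → ℂ) t₀) * (β₀ : C → ℂ) c := by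
      intro c
      rw [← hβ c _ hs₀]
      exact hval t₀ ht₀1 c
    have hl0 : (l₀ : S → ℂ) t₀ ≠ 0 := dual_ne_zero hcomm l₀ t₀
    have hε0 : (ε : ℂ) ≠ 0 := by
      rcases hε with rfl | rfl <;> norm_num
    have hε₀0 : (ε₀ : ℂ) ≠ 0 := by
      rcases hε₀ with rfl | rfl <;> norm_num
    have h2 : β = β₀ := by
      by_contra hne
      have h3 := classInner_irr_ne β.2 β₀.2 (fun h => hne (Subtype.ext h))
      have h4 : (fun c => (ε₀ : ℂ) * (β : C → ℂ) c) =
          fun c => ((ε : ℂ) * (l₀ : S → ℂ) t₀) * (β₀ : C → ℂ) c := funext h1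
      have h5 : classInner (fun c => (ε₀ : ℂ) * (β : C → ℂ) c) (β₀ : C → ℂ) =
          classInner (fun c => ((ε : ℂ) * (l₀ : S → ℂ) t₀) * (β₀ : C → ℂ) c) (β₀ : C → ℂ) := by
        rw [h4]
      have h6 : ∀ (a : ℂ) (f : C → ℂ), (fun c => a * f c) = a • f := fun a f => rfl
      rw [h6, h6, classInner_smul_left, classInner_smul_left, h3, classInner_irr_self β₀.2] at h5
      simp at h5
      rcases h5 with h7 | h7
      · rcases hε with rfl | rfl <;> simp at h7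
      · exact hl0 h7
    subst h2
    obtain ⟨d₁, hd₁, hd₁'⟩ := irr_degree_pos β.2
    have h3 : (ε₀ : ℂ) = (ε : ℂ) * (l₀ : S → ℂ) t₀ := by
      have h4 := h1 1
      have h5 : (β : C → ℂ) 1 ≠ 0 := by
        rw [hd₁']
        exact_mod_cast hd₁.ne'
      exact mul_right_cancel₀ h5 h4
    have hsq : ∀ e : ℤ, (e = 1 ∨ e = -1) → (e : ℂ) * (e : ℂ) = 1 := by
      rintro e (rfl | rfl) <;> norm_num
    have h4 : (l₀ : S → ℂ) t₀ * (l₀ : S → ℂ) t₀ = 1 := by
      have h5 := hsq ε₀ hε₀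
      have h6 := hsq ε hε
      rw [h3] at h5
      calc (l₀ : S → ℂ) t₀ * (l₀ : S → ℂ) t₀
          = ((ε : ℂ) * (ε : ℂ)) * ((l₀ : S → ℂ) t₀ * (l₀ : S → ℂ) t₀) := by rw [h6, one_mul]
        _ = _ := by rw [← h5]; ring
    obtain ⟨f, hf⟩ := exists_dual_hom hcomm l₀
    have hf2 : ∀ x : S, (l₀ : S → ℂ) x * (l₀ : S → ℂ) x = 1 := by
      intro x
      have h5 : (f t₀) ^ 2 = 1 := by
        apply Units.ext
        rw [hf] at h4
        simpa [sq] using h4
      have h6 : (f x) ^ 2 = 1 := by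
        obtain ⟨k, rfl⟩ := ht₀ x
        simp only [map_zpow]
        rw [← zpow_natCast, ← zpow_mul, mul_comm, zpow_mul, zpow_natCast, h5, one_zpow]
      have h7 := congrArg (fun u : ℂˣ => (u : ℂ)) h6
      simpa [sq, hf] using h7
    -- the character `ϑ`
    set f₀ : C → ℂ := fun c : C => (χ : G → ℂ) ⟨c, hCG c.2⟩ with hf₀
    have hf₀c : IsCharacter C f₀ :=
      isCharacter_comp (Subgroup.inclusion hCG) (IsIrrCharacter.isCharacter χ.2)
    let m : IrrCharacter C → ℕ := fun γ => if γ = β then q else b γ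
    let ϑ : C → ℂ := ∑ γ : IrrCharacter C, m γ • (γ : C → ℂ)
    have hϑ : IsCharacter C ϑ := isCharacter_of_nat_decomp m
    have hf₀eq : f₀ = fun c => (Nat.card S : ℂ) * ϑ c + (ε : ℂ) * (β : C → ℂ) c := by
      funext c
      have h5 := congrFun (classFunction_eq_sum (isClassFunction_of_isCharacter hf₀c)) c
      rw [h5]
      simp only [Finset.sum_apply, Pi.smul_apply, smul_eq_mul, ϑ, nsmul_eq_mul]
      have h6 : ∀ γ : IrrCharacter C, classInner f₀ (γ : C → ℂ) * (γ : C → ℂ) c =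
          (Nat.card S : ℂ) * ((m γ : ℂ) * (γ : C → ℂ) c) +
            if γ = β then (ε : ℂ) * (β : C → ℂ) c else 0 := by
        intro γ
        by_cases hγ : γ = β
        · subst hγ
          simp only [m, if_true]
          rw [hβ₀]
          ring
        · simp only [m, if_neg hγ]
          rw [hb γ hγ]
          ring
      simp only [h6, Finset.sum_add_distrib, ← Finset.mul_sum]
      simp
    refine ⟨ε, hε, ⟨(l₀ : S → ℂ), IsIrrCharacter.isCharacter l₀.2, dual_one hcomm l₀, hf2, ?_⟩,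
      ⟨ϑ, hϑ, hf₀eq⟩, ?_⟩
    · intro c x hx
      rw [hval x hx c]
      ring
    · obtain ⟨d, hd⟩ := isCharacter_one_eq hϑ
      have h5 := congrFun hf₀eq 1
      simp only [hd] at h5
      have h6 : f₀ 1 = (Cfsg.charDegree (χ : G → ℂ) : ℂ) :=
        Cfsg.Agent.Lib.CharKernel.one_eq_charDegree (G := G) (χ := (χ : G → ℂ))
          (IsIrrCharacter.isCharacter χ.2)
      rw [h6, Cfsg.Agent.Lib.CharKernel.one_eq_charDegree (IsIrrCharacter.isCharacter β.2)] at h5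
      have h7 : (Cfsg.charDegree (χ : G → ℂ) : ℤ) = (Nat.card S : ℤ) * d +
          ε * (Cfsg.charDegree (β : C → ℂ) : ℤ) := by exact_mod_cast h5
      exact ⟨d, by rw [h7]; ring⟩

end Cfsg.Agent.S4451
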