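import Mathlib
import Cfsg.Agent.Lib.IsaZero
import Cfsg.Statements.S4453

set_option autoImplicit false
open Cfsg

namespace Cfsg.Agent.S4453

/-- Inside a finite group Γ let S normalise the solvable subgroup G of odd order with the orders of G and S coprime, let C = G ⊓ C(S), and let L ≤ K be S-invariant normal subgroups of G with K/L abelian, G = KC and H = LC (so C ≤ H ≤ G). Then for each S-invariant irreducible character χ of G there is exactly one S-invariant irreducible character ψ of H whose multiplicity in the restriction of χ to H is odd, and χ ↦ ψ is a bijection from the S-invariant irreducible characters of G onto those of H (distinct χ give distinct ψ, and every S-invariant ψ arises). -/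
theorem result {Γ : Type*} [Group Γ] [Fintype Γ] (G S : Subgroup Γ) [Fintype G] (hnorm : ∀ s ∈ S, ∀ g ∈ G, s * g * s⁻¹ ∈ G) (hcop : (Nat.card G).Coprime (Nat.card S)) (hGsolv : Group.IsSolvable G) (hodd : Odd (Nat.card G)) (C : Subgroup Γ) [Fintype C] (hC : C = G ⊓ Subgroup.centralizer (S : Set Γ)) (hCG : C ≤ G) (K L H : Subgroup Γ) [Fintype H] (hLK : L ≤ K) (hKG : K ≤ G) (hKn : ∀ g ∈ G, ∀ k ∈ K, g * k * g⁻¹ ∈ K) (hLn : ∀ g ∈ G, ∀ l ∈ L, g * l * g⁻¹ ∈ L) (hKS : ∀ s ∈ S, ∀ k ∈ K, s * k * s⁻¹ ∈ K) (hLS : ∀ s ∈ S, ∀ l ∈ L, s * l * s⁻¹ ∈ L) (hab : ∀ a ∈ K, ∀ b ∈ K, a * b * a⁻¹ * b⁻¹ ∈ L) (hGKC : K ⊔ C = G) (hH : H = L ⊔ C) (hHG : H ≤ G) : (∀ χ : Cfsg.IrrCharacter G, (∀ s ∈ S, ∀ g g' : G, (g' : Γ) = s * g * s⁻¹ → (χ : G → ℂ) g' = (χ : G → ℂ) g) → ∃! ψ : Cfsg.IrrCharacter H, (∀ s ∈ S, ∀ g g' : H, (g' : Γ) = s * g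 * s⁻¹ → (ψ : H → ℂ) g' = (ψ : H → ℂ) g) ∧ ∃ m : ℕ, Cfsg.classInner (fun h : H => (χ : G → ℂ) ⟨h, hHG h.2⟩) (ψ : H → ℂ) = (m : ℂ) ∧ Odd m) ∧ (∀ χ χ' : Cfsg.IrrCharacter G, (∀ s ∈ S, ∀ g g' : G, (g' : Γ) = s * g * s⁻¹ → (χ : G → ℂ) g' = (χ : G → ℂ) g) → (∀ s ∈ S, ∀ g g' : G, (g' : Γ) = s * g * s⁻¹ → (χ' : G → ℂ) g' = (χ' : G → ℂ) g) → ∀ ψ : Cfsg.IrrCharacter H, (∀ s ∈ S, ∀ g g' : H, (g' : Γ) = s * g * s⁻¹ → (ψ : H → ℂ) g' = (ψ : H → ℂ) g) → ∀ m m' : ℕ, Cfsg.classInner (fun h : H => (χ : G → ℂ) ⟨h, hHG h.2⟩) (ψ : H → ℂ) = (m : ℂ) → Odd m → Cfsg.classInner (fun h : H => (χ' : G → ℂ) ⟨h, hHG h.2⟩) (ψ : H → ℂ) = (m' : ℂ) → Odd m' → χ = χ') ∧ (∀ ψ : Cfsg.IrrCharacter H, (∀ s ∈ S, ∀ g g' : H, (g' : Γ) = s * g * s⁻¹ → (ψ : H → ℂ) g' = (ψ : H → ℂ) g) → ∃ χ : Cfsg.IrrCharacter G, (∀ s ∈ S, ∀ g g' : G, (g' : Γ) = s * g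 * s⁻¹ → (χ : G → ℂ) g' = (χ : G → ℂ) g) ∧ ∃ m : ℕ, Cfsg.classInner (fun h : H => (χ : G → ℂ) ⟨h, hHG h.2⟩) (ψ : H → ℂ) = (m : ℂ) ∧ Odd m) := by
  
  classical
  letI fX : ∀ X : Subgroup Γ, Fintype X := fun X => Fintype.ofFinite _
  obtain ⟨A, D⟩ := Cfsg.Agent.Lib.IsaCliff.exists_A G S C K L H hnorm hcop hGsolv hodd hC hCG hLK hKG
    hKn hLn hKS hLS hab hGKC hH hHG
  obtain ⟨m1, m2, m3⟩ := Cfsg.Agent.Lib.IsaCliff.main_ambient D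
  refine ⟨?_, ?_, ?_⟩
  · intro χ hχ
    obtain ⟨ψ, ⟨hψ, m, hm, hodd'⟩, huniq⟩ := m1 χ hχ
    refine ⟨ψ, ⟨hψ, m, (Cfsg.Agent.Lib.IsaCover.classInner_inst _ _ _ _).trans hm, hodd'⟩, ?_⟩
    rintro ψ' ⟨hψ', m', hm', hodd''⟩
    exact huniq ψ' ⟨hψ', m', (Cfsg.Agent.Lib.IsaCover.classInner_inst _ _ _ _).trans hm', hodd''⟩
  · intro χ χ' hχ hχ' ψ hψ m m' hm hodd' hm' hodd''
    exact m2 χ χ' hχ hχ' ψ hψ m m' ((Cfsg.Agent.Lib.IsaCover.classInner_inst _ _ _ _).trans hm) hodd'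
      ((Cfsg.Agent.Lib.IsaCover.classInner_inst _ _ _ _).trans hm') hodd''
  · intro ψ hψ
    obtain ⟨χ, hχ, m, hm, hodd'⟩ := m3 ψ hψ
    exact ⟨χ, hχ, m, (Cfsg.Agent.Lib.IsaCover.classInner_inst _ _ _ _).trans hm, hodd'⟩


end Cfsg.Agent.S4453
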