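import Mathlib
import Cfsg.Statements.S4454
import Cfsg.Agent.Lib.GlaubCycSub
import Cfsg.Agent.Lib.ImplGroup
import Cfsg.Agent.Lib.CosetAvg

set_option autoImplicit false
set_option linter.style.haveILetI false
set_option linter.unusedVariables false
set_option linter.unusedSectionVars false
open Cfsg

namespace Cfsg.Agent.S4454

open Cfsg.Agent.Lib.CharBasic Cfsg.Agent.Lib.CharInd Cfsg.Agent.Lib.GlaubDual
open Cfsg.Agent.Lib.GlaubCyc Cfsg.Agent.Lib.GlaubCycSub Cfsg.Agent.Lib.CosetAvg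
open Cfsg.Agent.Lib.Clifford Cfsg.Agent.Lib.ImplGroup
open scoped ComplexConjugate

universe u v w

section Abstract

variable {Γ : Type u} [Group Γ] [Fintype Γ] {Q : Type v} [Group Q] [Fintype Q]
  {G : Type w} [Group G] [Fintype G]
  (κ : Γ →* Q) (hc : ∀ x y : Q, x * y = y * x) (j : G →* Γ) (hj : Function.Injective j)
  (hker : ∀ x, κ x = 1 ↔ ∃ g, j g = x) (hsurj : Function.Surjective κ)

include hc hj hker hsurj

theorem inner_comp_ne {A : Γ → ℂ} (hA : IsCharacter Γ A) {ψ : Γ → ℂ} (hψ : IsIrrCharacter Γ ψ)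
    (h : classInner A ψ ≠ 0) : classInner (A ∘ j) (ψ ∘ j) ≠ 0 := by
  classical
  rw [classInner_restrict_eq_sum κ hc j hj hker hsurj]
  have hn : ∀ l : IrrCharacter Q, ∃ n : ℕ, classInner A (tw κ ψ l) = n := fun l =>
    classInner_char_irr hA (tw_isIrr κ hc hψ l)
  choose n hn using hn
  simp only [hn]
  rw [← Nat.cast_sum]
  have h1 : n (triv Q) ≠ 0 := by
    intro h0
    apply h
    have := hn (triv Q)
    rw [tw_triv, h0] at this
    simpa using this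
  have h2 : 0 < ∑ l, n l :=
    Finset.sum_pos' (fun _ _ => Nat.zero_le _) ⟨triv Q, Finset.mem_univ _, Nat.pos_of_ne_zero h1⟩
  exact_mod_cast h2.ne'

theorem exists_tw_of_inner_ne {A ψ₀ : Γ → ℂ} (hA : IsCharacter Γ A)
    (hψ₀ : IsIrrCharacter Γ ψ₀) {e : ℂ}
    (hAe : ∀ g, A (j g) = e * ψ₀ (j g)) {ψ : Γ → ℂ} (hψ : IsIrrCharacter Γ ψ)
    (h : classInner A ψ ≠ 0) :
    ∃ l : IrrCharacter Q, ψ = tw κ ψ₀ l := by
  classical
  have h1 := inner_comp_ne κ hc j hj hker hsurj hA hψ h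
  have h2 : A ∘ j = e • (ψ₀ ∘ j) := by
    funext g
    simp [hAe]
  rw [h2, classInner_smul_left] at h1
  have h3 : classInner (ψ₀ ∘ j) (ψ ∘ j) ≠ 0 := right_ne_zero_of_mul h1
  have h4 : classInner (ψ ∘ j) (ψ₀ ∘ j) ≠ 0 := by
    rw [← classInner_conj_symm]
    exact (map_ne_zero _).mpr h3
  rw [classInner_restrict_eq_sum κ hc j hj hker hsurj] at h4
  obtain ⟨l, -, hl⟩ := Finset.exists_ne_zero_of_sum_ne_zero h4
  refine ⟨l, ?_⟩
  by_contra hne
  exact hl (classInner_irr_ne hψ (tw_isIrr κ hc hψ₀ l) hne)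

theorem sum_inner_tw {A ψ₀ : Γ → ℂ} {e : ℂ}
    (hAe : ∀ g, A (j g) = e * ψ₀ (j g)) (h1 : classInner (ψ₀ ∘ j) (ψ₀ ∘ j) = 1) :
    ∑ l : IrrCharacter Q, classInner A (tw κ ψ₀ l) = e := by
  rw [← classInner_restrict_eq_sum κ hc j hj hker hsurj]
  have h2 : A ∘ j = e • (ψ₀ ∘ j) := by
    funext g
    simp [hAe]
  rw [h2, classInner_smul_left, h1, mul_one]

theorem inner_self_eq_sum {A ψ₀ : Γ → ℂ} (hA : IsCharacter Γ A)
    (hψ₀ : IsIrrCharacter Γ ψ₀) {e : ℂ}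
    (hAe : ∀ g, A (j g) = e * ψ₀ (j g)) (h1 : classInner (ψ₀ ∘ j) (ψ₀ ∘ j) = 1) :
    classInner A A = ∑ l : IrrCharacter Q, classInner A (tw κ ψ₀ l) *
      conj (classInner A (tw κ ψ₀ l)) := by
  classical
  have hcl := isClassFunction_of_isCharacter hA
  have hsum := classFunction_eq_sum hcl
  have h2 : classInner A A = ∑ χ : IrrCharacter Γ, classInner A χ * conj (classInner A χ) := by
    nth_rewrite 2 [hsum]
    rw [classInner_sum_right]
    refine Finset.sum_congr rfl fun χ _ => ?_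
    rw [classInner_smul_right]
    ring
  rw [h2]
  symm
  refine Fintype.sum_of_injective
    (fun l : IrrCharacter Q => (⟨tw κ ψ₀ l, tw_isIrr κ hc hψ₀ l⟩ : IrrCharacter Γ)) ?_ _ _ ?_ ?_
  · intro l l' hl
    exact tw_injective κ hc j hj hker hsurj hψ₀ h1 (congrArg Subtype.val hl)
  · intro ψ hψ
    by_contra hne
    apply hψ
    have h3 : classInner A ψ ≠ 0 := by
      intro h0
      apply hne
      rw [h0]
      simp
    obtain ⟨l, hl⟩ := exists_tw_of_inner_ne κ hc j hj hker hsurj hA hψ₀ hAe ψ.2 h3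
    exact ⟨l, Subtype.ext hl.symm⟩
  · intro l
    rfl

theorem dvd_of_inner (hn : 2 ≤ Nat.card Q) {A ψ₀ : Γ → ℂ} (hA : IsCharacter Γ A)
    (hψ₀ : IsIrrCharacter Γ ψ₀) {e : ℕ}
    (hAe : ∀ g, A (j g) = e * ψ₀ (j g)) (h1 : classInner (ψ₀ ∘ j) (ψ₀ ∘ j) = 1)
    (hAA : (Nat.card Q : ℂ) * classInner A A = (Nat.card Q : ℂ) - 1 + (e : ℂ) ^ 2) :
    ((Nat.card Q : ℕ) : ℤ) ∣ (e : ℤ) - 1 ∨ ((Nat.card Q : ℕ) : ℤ) ∣ (e : ℤ) + 1 := by
  classical
  have hn' : ∀ l : IrrCharacter Q, ∃ n : ℕ, classInner A (tw κ ψ₀ l) = n := fun l =>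
    classInner_char_irr hA (tw_isIrr κ hc hψ₀ l)
  choose a ha using hn'
  have hsum : (∑ l, (a l : ℤ)) = e := by
    have h2 := sum_inner_tw κ hc j hj hker hsurj (e := (e : ℂ)) hAe h1
    simp only [ha] at h2
    exact_mod_cast h2
  have hsq : classInner A A = ((∑ l, (a l : ℤ) ^ 2 : ℤ) : ℂ) := by
    rw [inner_self_eq_sum κ hc j hj hker hsurj hA hψ₀ hAe h1]
    simp only [ha]
    push_cast
    refine Finset.sum_congr rfl fun l _ => ?_
    rw [Complex.conj_natCast]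
    ring
  have hD : ((Nat.card Q : ℕ) : ℤ) * ∑ l, (a l : ℤ) ^ 2 - (∑ l, (a l : ℤ)) ^ 2 =
      (Nat.card Q : ℤ) - 1 := by
    rw [hsq] at hAA
    rw [hsum]
    have h3 : (((Nat.card Q : ℕ) : ℤ) * ∑ l, (a l : ℤ) ^ 2 : ℤ) =
        ((Nat.card Q : ℤ) - 1 + (e : ℤ) ^ 2) := by
      have h4 : ((((Nat.card Q : ℕ) : ℤ) * ∑ l, (a l : ℤ) ^ 2 : ℤ) : ℂ) =
          (((Nat.card Q : ℤ) - 1 + (e : ℤ) ^ 2 : ℤ) : ℂ) := by
        push_cast
        push_cast at hAA
        exact hAA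
      exact_mod_cast h4
    rw [h3]
    ring
  have hcard : Fintype.card (IrrCharacter Q) = Nat.card Q := by
    rw [← Nat.card_eq_fintype_card]
    exact card_dual hc
  obtain ⟨q, ε, l₀, hε, hl⟩ := var_two (Nat.card Q) hn hcard a hD
  have h3 : (e : ℤ) = (Nat.card Q : ℤ) * q + ε := by
    rw [← hsum]
    simp only [hl]
    rw [Finset.sum_add_distrib, Finset.sum_const, Finset.card_univ, hcard, nsmul_eq_mul]
    have h5 : (∑ x : IrrCharacter Q, if x = l₀ then ε else 0) = ε := by simp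
    congr 1
    convert h5
  rcases hε with rfl | rfl
  · left
    exact ⟨q, by rw [h3]; ring⟩
  · right
    exact ⟨q, by rw [h3]; ring⟩

end Abstract

section Count

variable {Γ : Type u} [Group Γ] [Fintype Γ]

open scoped Classical in
theorem count_conj (G N T : Subgroup Γ) [hG : G.Normal] [hN : N.Normal] (hNG : N ≤ G)
    (hfrob : ∀ x : Γ, x ∉ G → ∀ g : Γ, g ∈ G → x * g * x⁻¹ * g⁻¹ ∈ N → g ∈ N)
    (hNT : N ≤ T) (hTG : ∀ t, t ∈ T → t ∈ G → t ∈ N)
    (hex : ∀ y, y ∉ G → ∃ g ∈ G, g⁻¹ * y * g ∈ T)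
    (F : Γ → ℝ) (hF : ∀ g y, F (g * y * g⁻¹) = F y) :
    (Nat.card G : ℝ) * ∑ t ∈ Finset.univ.filter (fun t => t ∈ T ∧ t ∉ N), F t =
      (Nat.card N : ℝ) * ∑ y ∈ Finset.univ.filter (fun y => y ∉ G), F y := by
  classical
  set D := Finset.univ.filter (fun t : Γ => t ∈ T ∧ t ∉ N) with hD
  set Y := Finset.univ.filter (fun y : Γ => y ∉ G) with hY
  set B := Finset.univ.filter (fun g : Γ => g ∈ G) with hB
  set P := B ×ˢ D with hP
  have hcardG : B.card = Nat.card G := by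
    rw [Nat.card_eq_fintype_card, Fintype.card_subtype]
  have hcardN : (Finset.univ.filter (fun g : Γ => g ∈ N)).card = Nat.card N := by
    rw [Nat.card_eq_fintype_card, Fintype.card_subtype]
  let φ : Γ × Γ → Γ := fun p => p.1 * p.2 * p.1⁻¹
  have h1 : ∑ p ∈ P, F (φ p) = (Nat.card G : ℝ) * ∑ t ∈ D, F t := by
    rw [hP, Finset.sum_product]
    simp only [φ, hF]
    rw [Finset.sum_const, hcardG, nsmul_eq_mul]
  have hnotG : ∀ t, t ∈ D → t ∉ G := by
    intro t ht htG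
    have ht' := (Finset.mem_filter.mp ht).2
    exact ht'.2 (hTG t ht'.1 htG)
  have hmaps : ∀ p ∈ P, φ p ∈ Y := by
    intro p hp
    have hp' := Finset.mem_product.mp hp
    have hp1 : p.1 ∈ G := (Finset.mem_filter.mp hp'.1).2
    have hp2 := hnotG _ hp'.2
    refine Finset.mem_filter.mpr ⟨Finset.mem_univ _, fun h => hp2 ?_⟩
    have h3 := hG.conj_mem _ h (p.1⁻¹)
    simpa [φ, mul_assoc] using h3
  have h2 : ∑ y ∈ Y, ∑ p ∈ P with φ p = y, F (φ p) = ∑ p ∈ P, F (φ p) :=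
    Finset.sum_fiberwise_of_maps_to hmaps _
  have hfib : ∀ y ∈ Y, (P.filter (fun p => φ p = y)).card = Nat.card N := by
    intro y hy
    have hyG : y ∉ G := (Finset.mem_filter.mp hy).2
    obtain ⟨g₀, hg₀, ht₀⟩ := hex y hyG
    set t₀ := g₀⁻¹ * y * g₀ with ht₀def
    have hyt₀ : y = g₀ * t₀ * g₀⁻¹ := by
      rw [ht₀def]
      group
    have ht₀G : t₀ ∉ G := fun h => hyG (by
      rw [hyt₀]
      exact G.mul_mem (G.mul_mem hg₀ h) (G.inv_mem hg₀))
    rw [← hcardN]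
    symm
    refine Finset.card_bij (fun n _ => (g₀ * n⁻¹, n * t₀ * n⁻¹)) ?_ ?_ ?_
    · intro n hn
      have hn' : n ∈ N := (Finset.mem_filter.mp hn).2
      refine Finset.mem_filter.mpr ⟨Finset.mem_product.mpr ⟨?_, ?_⟩, ?_⟩
      · exact Finset.mem_filter.mpr ⟨Finset.mem_univ _, G.mul_mem hg₀ (G.inv_mem (hNG hn'))⟩
      · refine Finset.mem_filter.mpr ⟨Finset.mem_univ _, T.mul_mem (T.mul_mem (hNT hn') ht₀)
          (T.inv_mem (hNT hn')), fun h => ht₀G (hNG ?_)⟩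
        have h3 := N.mul_mem (N.mul_mem (N.inv_mem hn') h) hn'
        simpa [mul_assoc] using h3
      · show g₀ * n⁻¹ * (n * t₀ * n⁻¹) * (g₀ * n⁻¹)⁻¹ = y
        rw [hyt₀]
        group
    · intro a _ b _ hab
      have h3 := congrArg Prod.fst hab
      simpa using h3
    · rintro ⟨g, t⟩ hp
      have hp' := Finset.mem_filter.mp hp
      have hp1 := Finset.mem_product.mp hp'.1
      have hg : g ∈ G := (Finset.mem_filter.mp hp1.1).2
      have ht : t ∈ T := (Finset.mem_filter.mp hp1.2).2.1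
      have hφ : g * t * g⁻¹ = y := hp'.2
      set n := g⁻¹ * g₀ with hn
      have hnG : n ∈ G := G.mul_mem (G.inv_mem hg) hg₀
      have htn : t = n * t₀ * n⁻¹ := by
        rw [hn, ht₀def, ← hφ]
        group
      have hnN : n ∈ N := by
        apply hfrob t₀ ht₀G n hnG
        apply hTG
        · have h4 : t₀ * n * t₀⁻¹ * n⁻¹ = t₀ * t⁻¹ := by
            rw [htn]
            group
          rw [h4]
          exact T.mul_mem ht₀ (T.inv_mem ht)
        · exact G.mul_mem (hG.conj_mem _ hnG t₀) (G.inv_mem hnG)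
      refine ⟨n, Finset.mem_filter.mpr ⟨Finset.mem_univ _, hnN⟩, ?_⟩
      ext
      · show g₀ * n⁻¹ = g
        rw [hn]
        group
      · exact htn.symm
  rw [← h1, ← h2, Finset.mul_sum]
  refine Finset.sum_congr rfl fun y hy => ?_
  rw [Finset.sum_congr rfl (fun p hp => by rw [(Finset.mem_filter.mp hp).2]),
    Finset.sum_const, hfib y hy, nsmul_eq_mul]

theorem exists_conj_mem (G N : Subgroup Γ) [hG : G.Normal] [hN : N.Normal] (hNG : N ≤ G)
    (hfrob : ∀ x : Γ, x ∉ G → ∀ g : Γ, g ∈ G → x * g * x⁻¹ * g⁻¹ ∈ N → g ∈ N)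
    (t₁ y : Γ) (ht₁ : t₁ ∉ G) (hy : y * t₁⁻¹ ∈ G) :
    ∃ g ∈ G, (QuotientGroup.mk (g⁻¹ * y * g) : Γ ⧸ N) = QuotientGroup.mk t₁ := by
  classical
  let π : Γ →* Γ ⧸ N := QuotientGroup.mk' N
  have hπ : Function.Surjective π := QuotientGroup.mk'_surjective N
  let B : Subgroup (Γ ⧸ N) := G.map π
  have hBn : B.Normal := hG.map π hπ
  let t := π t₁
  let f : B → B := fun z => ⟨(z : Γ ⧸ N) * t * (z : Γ ⧸ N)⁻¹ * t⁻¹, by
    have h1 : (z : Γ ⧸ N) * t * (z : Γ ⧸ N)⁻¹ * t⁻¹ = z * (t * (z : Γ ⧸ N)⁻¹ * t⁻¹) := by group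
    rw [h1]
    exact B.mul_mem z.2 (hBn.conj_mem _ (B.inv_mem z.2) t)⟩
  have hinj : Function.Injective f := by
    intro z w hzw
    have h1 : (z : Γ ⧸ N) * t * (z : Γ ⧸ N)⁻¹ * t⁻¹ = w * t * (w : Γ ⧸ N)⁻¹ * t⁻¹ :=
      congrArg Subtype.val hzw
    obtain ⟨g, hg, hgz⟩ := Subgroup.mem_map.mp (B.mul_mem (B.inv_mem w.2) z.2)
    have h2 : π (t₁ * g * t₁⁻¹ * g⁻¹) = 1 := by
      have h3 : π g = (w : Γ ⧸ N)⁻¹ * z := hgz
      rw [map_mul, map_mul, map_mul, map_inv, map_inv, h3]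
      show t * _ * t⁻¹ * _ = 1
      have h4 : (z : Γ ⧸ N) * t * (z : Γ ⧸ N)⁻¹ = w * t * (w : Γ ⧸ N)⁻¹ :=
        mul_right_cancel h1
      have hcomm : ((w : Γ ⧸ N)⁻¹ * z) * t = t * ((w : Γ ⧸ N)⁻¹ * z) := by
        have h5 : (w : Γ ⧸ N)⁻¹ * ((z : Γ ⧸ N) * t * (z : Γ ⧸ N)⁻¹) * z =
            (w : Γ ⧸ N)⁻¹ * ((w : Γ ⧸ N) * t * (w : Γ ⧸ N)⁻¹) * z := by rw [h4]
        simpa [mul_assoc] using h5
      rw [← hcomm]
      group
    have h8 : t₁ * g * t₁⁻¹ * g⁻¹ ∈ N := (QuotientGroup.eq_one_iff _).mp h2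
    have h9 : g ∈ N := hfrob t₁ ht₁ g hg h8
    have h10 : π g = 1 := (QuotientGroup.eq_one_iff _).mpr h9
    have h11 : (w : Γ ⧸ N)⁻¹ * z = 1 := by
      rw [← h10]
      exact hgz.symm
    apply Subtype.ext
    exact (inv_mul_eq_one.mp h11).symm
  have hsurj : Function.Surjective f := Finite.injective_iff_surjective.mp hinj
  obtain ⟨z, hz⟩ := hsurj ⟨π (y * t₁⁻¹), Subgroup.mem_map_of_mem π hy⟩
  obtain ⟨g, hg, hgz⟩ := Subgroup.mem_map.mp z.2
  refine ⟨g, hg, ?_⟩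
  have h1 : (z : Γ ⧸ N) * t * (z : Γ ⧸ N)⁻¹ * t⁻¹ = π y * t⁻¹ := by
    have h2 := congrArg Subtype.val hz
    have h3 : π (y * t₁⁻¹) = π y * t⁻¹ := by
      rw [map_mul, map_inv]
    rw [← h3]
    exact h2
  have h2 : (z : Γ ⧸ N) * t * (z : Γ ⧸ N)⁻¹ = π y := mul_right_cancel h1
  show π (g⁻¹ * y * g) = t
  rw [map_mul, map_mul, map_inv, hgz, ← h2]
  group

open scoped Classical in
theorem sum_subgroup_eq (H : Subgroup Γ) [Fintype H] (F : Γ → ℝ) :
    ∑ h : H, F h = ∑ y ∈ Finset.univ.filter (· ∈ H), F y :=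
  (Finset.sum_subtype (Finset.univ.filter (· ∈ H)) (p := (· ∈ H)) (fun x => by simp)
    (fun g => F g)).symm

end Count

section Ram

variable {G : Type u} [Group G] [Fintype G] (M : Subgroup G) [hM : M.Normal] [Fintype M]

/-- The consequences of full ramification. -/
theorem ram_restrict {θ : M → ℂ} (hθ : IsIrrCharacter M θ)
    (hinv : ∀ (g : G) (n : M), θ ⟨g * n * g⁻¹, hM.conj_mem n n.2 g⟩ = θ n)
    {χ : G → ℂ} (hχ : IsIrrCharacter G χ) {e : ℕ}
    (hram : indFun M θ = fun g => (e : ℂ) * χ g) :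
    (∀ n : M, χ n = e * θ n) ∧ (∀ g, g ∉ M → χ g = 0) := by
  classical
  have hidx : ∀ n : M, (e : ℂ) * χ n = (M.index : ℂ) * θ n := by
    intro n
    have h1 := indFun_of_invariant M hM hinv n
    rw [hram] at h1
    exact h1
  have hidx0 : (M.index : ℂ) ≠ 0 := by
    exact_mod_cast Subgroup.index_ne_zero_of_finite
  have hθ1 : θ 1 ≠ 0 := irr_degree_ne_zero hθ
  have he0 : (e : ℂ) ≠ 0 := by
    intro h0
    have h1 := hidx 1
    rw [h0, zero_mul] at h1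
    exact (mul_ne_zero hidx0 hθ1) h1.symm
  have hzero : ∀ g, g ∉ M → χ g = 0 := by
    intro g hg
    have h1 := indFun_eq_zero_of_not_mem M hM θ hg
    rw [hram] at h1
    exact (mul_eq_zero.mp h1).resolve_left he0
  refine ⟨?_, hzero⟩
  have hfrob := frobenius M θ (ψ := χ) (isClassFunction_of_isCharacter (IsIrrCharacter.isCharacter hχ))
  rw [hram] at hfrob
  have h1 : (fun g => (e : ℂ) * χ g) = (e : ℂ) • χ := by
    funext g
    simp
  rw [h1, classInner_smul_left, classInner_irr_self hχ, mul_one] at hfrob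
  have h2 : (fun h : M => χ h) = ((M.index : ℂ) / e) • θ := by
    funext n
    simp only [Pi.smul_apply, smul_eq_mul]
    field_simp
    rw [mul_comm]
    exact hidx n
  rw [h2, classInner_smul_right, classInner_irr_self hθ, mul_one, map_div₀, Complex.conj_natCast,
    Complex.conj_natCast] at hfrob
  intro n
  have h3 : (M.index : ℂ) = e * e := by
    field_simp at hfrob
    rw [← hfrob]
    ring
  have h4 := hidx n
  rw [h3, mul_assoc] at h4
  exact mul_left_cancel₀ he0 h4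

end Ram

/-- Let N ≤ G be normal subgroups of the finite group Γ with Γ/G cyclic and Γ/N a Frobenius group with kernel G/N: G ≠ Γ, N ≠ G, and no element of Γ outside G fixes a non-identity coset of N in G under conjugation. Let ϑ be an irreducible character of N invariant under conjugation by Γ and suppose ϑ is fully ramified in G: the character of G induced from ϑ equals e·χ for an irreducible character χ of G and a natural number e. Then the index of G in Γ divides e − 1 or e + 1. -/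
theorem result {Γ : Type*} [Group Γ] [Fintype Γ] (G N : Subgroup Γ) [hG : G.Normal] [hN : N.Normal] [Fintype G] [Fintype N] (hNG : N ≤ G) (hGlt : G ≠ ⊤) (hNlt : N ≠ G) (hcyc : IsCyclic (Γ ⧸ G)) (hfrob : ∀ x : Γ, x ∉ G → ∀ g : Γ, g ∈ G → x * g * x⁻¹ * g⁻¹ ∈ N → g ∈ N) (θ : Cfsg.IrrCharacter N) (hinv : ∀ (x : Γ) (n : N), (θ : N → ℂ) ⟨x * n * x⁻¹, hN.conj_mem n n.2 x⟩ = (θ : N → ℂ) n) (χ : Cfsg.IrrCharacter G) (e : ℕ) (hram : Cfsg.indFun (N.subgroupOf G) (fun n : N.subgroupOf G => (θ : N → ℂ) ⟨(n : G), n.2⟩) = fun g => (e : ℂ) * (χ : G → ℂ) g) : (G.index : ℤ) ∣ (e : ℤ) - 1 ∨ (G.index : ℤ) ∣ (e : ℤ) + 1 := by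
  classical
  obtain ⟨θ, hθ⟩ := θ
  obtain ⟨χ, hχ⟩ := χ
  change N → ℂ at θ
  change G → ℂ at χ
  change IsIrrCharacter N θ at hθ
  change IsIrrCharacter G χ at hχ
  have hinv' : ∀ (x : Γ) (n : N), θ ⟨x * n * x⁻¹, hN.conj_mem n n.2 x⟩ = θ n := hinv
  have hram' : Cfsg.indFun (N.subgroupOf G) (fun n : N.subgroupOf G => θ ⟨(n : G), n.2⟩) =
      fun g => (e : ℂ) * χ g := hram
  clear hinv hram
  -- the generator
  obtain ⟨xq, hxq⟩ := hcyc.exists_generator
  obtain ⟨x, rfl⟩ := QuotientGroup.mk_surjective xq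
  have hxG : x ∉ G := by
    intro hx
    apply hGlt
    rw [eq_top_iff]
    intro y _
    have h1 := hxq (QuotientGroup.mk y)
    rw [(QuotientGroup.eq_one_iff x).mpr hx, Subgroup.zpowers_one_eq_bot, Subgroup.mem_bot] at h1
    exact (QuotientGroup.eq_one_iff y).mp h1
  -- the subgroup `T`
  let T : Subgroup Γ := (Subgroup.zpowers (QuotientGroup.mk x : Γ ⧸ N)).comap (QuotientGroup.mk' N)
  have hmemT : ∀ t, t ∈ T ↔ (QuotientGroup.mk t : Γ ⧸ N) ∈ Subgroup.zpowers (QuotientGroup.mk x : Γ ⧸ N) :=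
    fun t => Iff.rfl
  have hNT : N ≤ T := by
    intro n hn
    rw [hmemT, (QuotientGroup.eq_one_iff n).mpr hn]
    exact Subgroup.one_mem _
  have hxT : x ∈ T := by
    rw [hmemT]
    exact Subgroup.mem_zpowers _
  have hTG : ∀ t, t ∈ T → t ∈ G → t ∈ N := by
    intro t ht htG
    rw [hmemT] at ht
    obtain ⟨k, hk⟩ := Subgroup.mem_zpowers_iff.mp ht
    apply hfrob x hxG t htG
    rw [← QuotientGroup.eq_one_iff]
    simp only [QuotientGroup.mk_mul, QuotientGroup.mk_inv]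
    rw [← hk]
    group
  have hpowT : ∀ k : ℤ, x ^ k ∈ T := fun k => T.zpow_mem hxT k
  have hmkG : ∀ y : Γ, ∃ k : ℤ, y * (x ^ k)⁻¹ ∈ G := by
    intro y
    obtain ⟨k, hk⟩ := Subgroup.mem_zpowers_iff.mp (hxq (QuotientGroup.mk y))
    refine ⟨k, ?_⟩
    rw [← QuotientGroup.eq_one_iff]
    simp only [QuotientGroup.mk_mul, QuotientGroup.mk_inv, QuotientGroup.mk_zpow]
    rw [hk, mul_inv_cancel]
  have hex : ∀ y, y ∉ G → ∃ g ∈ G, g⁻¹ * y * g ∈ T := by
    intro y hy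
    obtain ⟨k, hk⟩ := hmkG y
    have hx1 : x ^ k ∉ G := by
      intro h
      apply hy
      have := G.mul_mem hk h
      simpa using this
    obtain ⟨g, hg, hgy⟩ := exists_conj_mem G N hNG hfrob (x ^ k) y hx1 hk
    refine ⟨g, hg, ?_⟩
    rw [hmemT, hgy]
    have := hpowT k
    rwa [hmemT] at this
  -- the character theory in `G`
  haveI : Fintype T := Fintype.ofFinite _
  haveI hM : (N.subgroupOf G).Normal := Subgroup.Normal.subgroupOf hN G
  haveI : Fintype (N.subgroupOf G) := Fintype.ofFinite _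
  let θ' : N.subgroupOf G → ℂ := fun n => θ ⟨(n : G), n.2⟩
  have hθ' : IsIrrCharacter (N.subgroupOf G) θ' :=
    isIrrCharacter_comp_of_surjective (Subgroup.subgroupOfEquivOfLe hNG).toMonoidHom
      (Subgroup.subgroupOfEquivOfLe hNG).surjective hθ
  have hinvθ' : ∀ (g : G) (n : N.subgroupOf G),
      θ' ⟨g * n * g⁻¹, hM.conj_mem n n.2 g⟩ = θ' n := fun g n => hinv' g ⟨_, n.2⟩
  obtain ⟨hχN, hχ0⟩ := ram_restrict (N.subgroupOf G) hθ' hinvθ' hχ hram'
  -- the invariance of `χ`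
  have hχinv : ∀ (y : Γ) (g : G), χ ⟨y * g * y⁻¹, hG.conj_mem g g.2 y⟩ = χ g := by
    intro y g
    by_cases hg : (g : Γ) ∈ N
    · have h1 := hχN ⟨g, hg⟩
      have h2 := hχN ⟨⟨y * g * y⁻¹, hG.conj_mem g g.2 y⟩, hN.conj_mem g hg y⟩
      have h3 : θ' ⟨⟨y * g * y⁻¹, hG.conj_mem g g.2 y⟩, hN.conj_mem g hg y⟩ = θ' ⟨g, hg⟩ :=
        hinv' y ⟨g, hg⟩
      rw [h3] at h2
      exact h2.trans h1.symm
    · have h1 := hχ0 g (by simpa [Subgroup.mem_subgroupOf] using hg)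
      have h2 := hχ0 ⟨y * g * y⁻¹, hG.conj_mem g g.2 y⟩ (by
        rw [Subgroup.mem_subgroupOf]
        intro h
        apply hg
        have := hN.conj_mem _ h (y⁻¹)
        simpa [mul_assoc] using this)
      rw [h1, h2]
  obtain ⟨χh, hχh, hχhG⟩ := exists_ext_of_cyclic G hcyc hχ hχinv
  have hχhc := IsIrrCharacter.isCharacter hχh
  have hχhcl := isClassFunction_of_isCharacter hχhc
  -- the extension of `θ`
  haveI hM2 : (N.subgroupOf T).Normal := Subgroup.Normal.subgroupOf hN T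
  let x' : T := ⟨x, hxT⟩
  have hcycT : IsCyclic (T ⧸ N.subgroupOf T) := by
    refine ⟨⟨QuotientGroup.mk x', fun q => ?_⟩⟩
    obtain ⟨t, rfl⟩ := QuotientGroup.mk_surjective q
    have ht := t.2
    rw [hmemT] at ht
    obtain ⟨k, hk⟩ := Subgroup.mem_zpowers_iff.mp ht
    refine Subgroup.mem_zpowers_iff.mpr ⟨k, ?_⟩
    rw [← QuotientGroup.mk_zpow, QuotientGroup.eq, Subgroup.mem_subgroupOf]
    have h1 : (((x' ^ k)⁻¹ * t : T) : Γ) = (x ^ k)⁻¹ * t := by
      simp [x']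
    rw [h1, ← QuotientGroup.eq, QuotientGroup.mk_zpow]
    exact hk
  let θ₂ : N.subgroupOf T → ℂ := fun n => θ ⟨(n : T), n.2⟩
  have hθ₂ : IsIrrCharacter (N.subgroupOf T) θ₂ :=
    isIrrCharacter_comp_of_surjective (Subgroup.subgroupOfEquivOfLe hNT).toMonoidHom
      (Subgroup.subgroupOfEquivOfLe hNT).surjective hθ
  have hinvθ₂ : ∀ (g : T) (n : N.subgroupOf T),
      θ₂ ⟨g * n * g⁻¹, hM2.conj_mem n n.2 g⟩ = θ₂ n := fun g n => hinv' g ⟨_, n.2⟩
  obtain ⟨θh, hθh, hθhN⟩ := exists_ext_of_cyclic (N.subgroupOf T) hcycT hθ₂ hinvθ₂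
  -- the set-up
  let κ : T →* Γ ⧸ G := (QuotientGroup.mk' G).comp T.subtype
  let ι : N →* T := Subgroup.inclusion hNT
  have hι : Function.Injective ι := Subgroup.inclusion_injective hNT
  have hkerκ : ∀ t, κ t = 1 ↔ ∃ n, ι n = t := by
    intro t
    constructor
    · intro h
      have h1 : (t : Γ) ∈ G := (QuotientGroup.eq_one_iff _).mp h
      exact ⟨⟨t, hTG t t.2 h1⟩, rfl⟩
    · rintro ⟨n, rfl⟩
      exact (QuotientGroup.eq_one_iff _).mpr (hNG n.2)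
  have hsurjκ : Function.Surjective κ := by
    intro q
    obtain ⟨k, hk⟩ := Subgroup.mem_zpowers_iff.mp (hxq q)
    refine ⟨x' ^ k, ?_⟩
    rw [← hk, map_zpow]
    rfl
  have hcomm : ∀ a b : Γ ⧸ G, a * b = b * a := fun a b => by
    have := (IsCyclic.commGroup (α := Γ ⧸ G)).mul_comm a b
    exact this
  haveI : Fintype (Γ ⧸ G) := Fintype.ofFinite _
  -- the functions
  let A : T → ℂ := fun t => χh t
  have hA : IsCharacter T A := isCharacter_restrict T hχhc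
  have hθhι : ∀ n : N, θh (ι n) = θ n := fun n => hθhN ⟨ι n, n.2⟩
  have hAe : ∀ n : N, A (ι n) = e * θh (ι n) := by
    intro n
    rw [hθhι]
    have h1 := hχhG ⟨n, hNG n.2⟩
    have h2 := hχN ⟨⟨n, hNG n.2⟩, n.2⟩
    exact h1.trans h2
  have hcomp : θh ∘ ι = θ := funext hθhι
  have h1 : classInner (θh ∘ ι) (θh ∘ ι) = 1 := by
    rw [hcomp]
    exact classInner_irr_self hθ
  have hcardQ : Nat.card (Γ ⧸ G) = G.index := rfl
  have hidx2 : 2 ≤ G.index := by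
    have h0 : G.index ≠ 0 := Subgroup.index_ne_zero_of_finite
    have h2 : G.index ≠ 1 := fun h => hGlt (Subgroup.index_eq_one.mp h)
    omega
  rw [← hcardQ] at hidx2 ⊢
  refine dvd_of_inner κ hcomm ι hι hkerκ hsurjκ hidx2 hA hθh hAe h1 ?_
  -- the norm of `A`
  let F : Γ → ℝ := fun y => Complex.normSq (χh y)
  have hF : ∀ g y, F (g * y * g⁻¹) = F y := fun g y => by
    show Complex.normSq (χh (g * y * g⁻¹)) = Complex.normSq (χh y)
    rw [hχhcl]
  have hcnt := count_conj G N T hNG hfrob hNT hTG hex F hF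
  have hΓ : ∑ y, F y = (Nat.card Γ : ℝ) := sum_normSq_eq hχh
  have hGs : ∑ g : G, F g = (Nat.card G : ℝ) := by
    rw [← sum_normSq_eq hχ]
    refine Finset.sum_congr rfl fun g _ => ?_
    show Complex.normSq (χh g) = Complex.normSq (χ g)
    rw [hχhG]
  have hNs : ∑ n : N, F n = (e : ℝ) ^ 2 * (Nat.card N : ℝ) := by
    rw [← sum_normSq_eq hθ, Finset.mul_sum]
    refine Finset.sum_congr rfl fun n _ => ?_
    have h2 : χh n = (e : ℂ) * θ n := hAe n |>.trans (by rw [hθhι])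
    show Complex.normSq (χh n) = _
    rw [h2, map_mul, Complex.normSq_natCast]
    ring
  have hsplitG : ∑ y ∈ Finset.univ.filter (fun y : Γ => y ∉ G), F y = ∑ y, F y - ∑ g : G, F g := by
    rw [sum_subgroup_eq G F, ← Finset.sum_filter_add_sum_filter_not Finset.univ (· ∈ G)]
    ring
  have hsplitT : ∑ t : T, F t = ∑ n : N, F n +
      ∑ t ∈ Finset.univ.filter (fun t => t ∈ T ∧ t ∉ N), F t := by
    rw [sum_subgroup_eq T F, sum_subgroup_eq N F,
      ← Finset.sum_filter_add_sum_filter_not (Finset.univ.filter (· ∈ T)) (· ∈ N),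
      Finset.filter_filter, Finset.filter_filter]
    congr 2
    ext y
    simp only [Finset.mem_filter, Finset.mem_univ, true_and]
    exact ⟨fun h => h.2, fun h => ⟨hNT h, h⟩⟩
  have hcT : Nat.card T = Nat.card N * Nat.card (Γ ⧸ G) := card_eq_mul κ ι hι hkerκ hsurjκ
  have hcΓ : Nat.card G * Nat.card (Γ ⧸ G) = Nat.card Γ := Subgroup.card_mul_index G
  have hG0 : (Nat.card G : ℝ) ≠ 0 := by exact_mod_cast Nat.card_pos.ne'
  have hN0 : (Nat.card N : ℝ) ≠ 0 := by exact_mod_cast Nat.card_pos.ne'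
  have hQ0 : (Nat.card (Γ ⧸ G) : ℝ) ≠ 0 := by exact_mod_cast Nat.card_pos.ne'
  have hcΓ' : (Nat.card Γ : ℝ) = (Nat.card G : ℝ) * (Nat.card (Γ ⧸ G) : ℝ) := by
    rw [← hcΓ]
    push_cast
    ring
  rw [hsplitG, hΓ, hGs, hcΓ'] at hcnt
  have hD : ∑ t ∈ Finset.univ.filter (fun t => t ∈ T ∧ t ∉ N), F t =
      (Nat.card N : ℝ) * ((Nat.card (Γ ⧸ G) : ℝ) - 1) := by
    apply mul_left_cancel₀ hG0
    rw [hcnt]
    ring
  have hinner : classInner A A = (((Nat.card T : ℝ)⁻¹ * ∑ t : T, F t : ℝ) : ℂ) := by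
    unfold classInner
    push_cast
    congr 1
    refine Finset.sum_congr rfl fun t _ => ?_
    exact Complex.mul_conj _
  rw [hinner, hsplitT, hNs, hD, hcT]
  have h2 : ((Nat.card (Γ ⧸ G) : ℝ) * ((((Nat.card N * Nat.card (Γ ⧸ G) : ℕ) : ℝ))⁻¹ *
      ((e : ℝ) ^ 2 * (Nat.card N : ℝ) + (Nat.card N : ℝ) * ((Nat.card (Γ ⧸ G) : ℝ) - 1)))) =
      (Nat.card (Γ ⧸ G) : ℝ) - 1 + (e : ℝ) ^ 2 := by
    push_cast
    field_simp
    ring
  exact_mod_cast h2

end Cfsg.Agent.S4454
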