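import Cfsg.Statements.S4460
import Cfsg.Agent.Lib.ThreeDeg31S

set_option autoImplicit false
open Cfsg

namespace Cfsg.Agent.S4460

open Cfsg.Agent.Lib.ThreeDeg31

/-- A finite group with exactly three distinct irreducible character degrees is solvable of derived length at most 3: its third derived subgroup is trivial. -/
theorem result {G : Type*} [Group G] [Finite G] (hcd : Nat.card {n : ℕ // ∃ χ : Cfsg.IrrCharacter G, Cfsg.charDegree (χ : G → ℂ) = n} = 3) : derivedSeries G 3 = ⊥ := by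
  have h1 : ({n : ℕ | ∃ χ : Cfsg.IrrCharacter G, Cfsg.charDegree (χ : G → ℂ) = n}).ncard = 3 := by
    rw [← Nat.card_coe_set_eq]
    exact hcd
  obtain ⟨x, y, z, -, -, -, hS⟩ := Set.ncard_eq_three.mp h1
  have hmem : ∀ χ : Cfsg.IrrCharacter G, Cfsg.charDegree (χ : G → ℂ) = x ∨
      Cfsg.charDegree (χ : G → ℂ) = y ∨ Cfsg.charDegree (χ : G → ℂ) = z := by
    intro χ
    have h2 : Cfsg.charDegree (χ : G → ℂ) ∈
        {n : ℕ | ∃ χ : Cfsg.IrrCharacter G, Cfsg.charDegree (χ : G → ℂ) = n} := ⟨χ, rfl⟩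
    rw [hS] at h2
    simpa using h2
  have hone : Cfsg.charDegree (fun _ : G => (1 : ℂ)) = 1 :=
    Cfsg.Agent.Lib.TwoDeg.charDegree_of_one (by simp)
  have h3 := hmem ⟨fun _ => 1, Cfsg.Agent.Lib.CharBasic.isIrrCharacter_one⟩
  change Cfsg.charDegree (fun _ : G => (1 : ℂ)) = x ∨ Cfsg.charDegree (fun _ : G => (1 : ℂ)) = y ∨
    Cfsg.charDegree (fun _ : G => (1 : ℂ)) = z at h3
  rw [hone] at h3
  rcases h3 with h3 | h3 | h3
  · subst h3
    exact derived_three (a := y) (b := z) hmem
  · subst h3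
    refine derived_three (a := x) (b := z) fun χ => ?_
    rcases hmem χ with h | h | h
    · exact Or.inr (Or.inl h)
    · exact Or.inl h
    · exact Or.inr (Or.inr h)
  · subst h3
    refine derived_three (a := x) (b := y) fun χ => ?_
    rcases hmem χ with h | h | h
    · exact Or.inr (Or.inl h)
    · exact Or.inr (Or.inr h)
    · exact Or.inl h

end Cfsg.Agent.S4460
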