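import Mathlib
import Cfsg.Statements.S4461
import Cfsg.Agent.Lib.BrolineCases

set_option autoImplicit false
set_option linter.style.haveILetI false
open Cfsg

namespace Cfsg.Agent.S4461

open Cfsg.Agent.Lib.CharBasic Cfsg.Agent.Lib.CharKernel Cfsg.Agent.Lib.BrolineCases
  Cfsg.Agent.Lib.BrolineGT Cfsg.Agent.Lib.PCore

universe u

/-- The quotient of an irreducible character by a subgroup of its kernel. -/
theorem exists_quot {G : Type u} [Group G] [Finite G] (χ : IrrCharacter G) (K : Subgroup G)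
    (hK : ∀ g : G, g ∈ K ↔ (χ : G → ℂ) g = (χ : G → ℂ) 1) (U : Subgroup G) [U.Normal] (hUK : U ≤ K) :
    ∃ χ' : IrrCharacter (G ⧸ U), (∀ g : G, (χ' : G ⧸ U → ℂ) (g : G ⧸ U) = (χ : G → ℂ) g) ∧
      ∀ x, x ∈ K.map (QuotientGroup.mk' U) ↔ (χ' : G ⧸ U → ℂ) x = (χ' : G ⧸ U → ℂ) 1 := by
  obtain ⟨χ', hχ', he⟩ := exists_quotient_irr U χ.2 (fun x hx => (hK x).mp (hUK hx))
  refine ⟨⟨χ', hχ'⟩, he, fun x => ?_⟩
  obtain ⟨g, rfl⟩ := QuotientGroup.mk_surjective x
  have h1 : χ' (1 : G ⧸ U) = (χ : G → ℂ) 1 := he 1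
  show _ ↔ χ' _ = χ' 1
  rw [he, h1, ← hK]
  constructor
  · rintro ⟨k, hk, hkg⟩
    have h2 : k⁻¹ * g ∈ U := QuotientGroup.eq.mp hkg
    have h3 := K.mul_mem hk (hUK h2)
    simpa using h3
  · intro hg
    exact Subgroup.mem_map_of_mem _ hg

/-- Lifting the conclusion from a quotient. -/
theorem lift_result {G : Type u} [Group G] [Finite G] (χ : IrrCharacter G) (K : Subgroup G)
    (U : Subgroup G) [U.Normal] (hUK : U ≤ K) (χ' : IrrCharacter (G ⧸ U))
    (hχ' : ∀ g : G, (χ' : G ⧸ U → ℂ) (g : G ⧸ U) = (χ : G → ℂ) g) (ψ' : IrrCharacter (G ⧸ U))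
    (hdeg : charDegree (χ' : G ⧸ U → ℂ) < charDegree (ψ' : G ⧸ U → ℂ)) (L' : Subgroup (G ⧸ U))
    (hL' : ∀ g, g ∈ L' ↔ (ψ' : G ⧸ U → ℂ) g = (ψ' : G ⧸ U → ℂ) 1)
    (hlt : L' < K.map (QuotientGroup.mk' U)) :
    ∃ ψ : IrrCharacter G, charDegree (χ : G → ℂ) < charDegree (ψ : G → ℂ) ∧
      ∃ L : Subgroup G, (∀ g : G, g ∈ L ↔ (ψ : G → ℂ) g = (ψ : G → ℂ) 1) ∧ L < K := by
  have hs : Function.Surjective (QuotientGroup.mk' U) := QuotientGroup.mk'_surjective U
  refine ⟨⟨(ψ' : G ⧸ U → ℂ) ∘ QuotientGroup.mk' U, isIrrCharacter_comp_of_surjective _ hs ψ'.2⟩, ?_,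
    L'.comap (QuotientGroup.mk' U), ?_, ?_⟩
  · have h1 : charDegree (χ : G → ℂ) = charDegree (χ' : G ⧸ U → ℂ) := by
      unfold charDegree
      rw [← hχ' 1]
      rfl
    have h2 : charDegree ((ψ' : G ⧸ U → ℂ) ∘ QuotientGroup.mk' U) = charDegree (ψ' : G ⧸ U → ℂ) := by
      unfold charDegree
      simp
    rw [h1]
    exact hdeg.trans_eq h2.symm
  · intro g
    rw [Subgroup.mem_comap, hL']
    simp
  · refine lt_of_le_of_ne ?_ ?_
    · intro g hg
      obtain ⟨k, hk, hkg⟩ := hlt.le hg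
      have h2 : k⁻¹ * g ∈ U := QuotientGroup.eq.mp hkg
      have h3 := K.mul_mem hk (hUK h2)
      simpa using h3
    · intro heq
      obtain ⟨y, hy, hy'⟩ := SetLike.exists_of_lt hlt
      obtain ⟨k, hk, rfl⟩ := hy
      apply hy'
      rw [← heq] at hk
      exact hk

/-- The main induction. -/
theorem main (n : ℕ) : ∀ (G : Type u) [Group G] [Finite G] (χ : IrrCharacter G) (K : Subgroup G)
    [K.Normal], Nat.card G = n → (∀ g : G, g ∈ K ↔ (χ : G → ℂ) g = (χ : G → ℂ) 1) →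
    (¬ K ≤ Cfsg.fittingSubgroup G ∨
      (K = Cfsg.fittingSubgroup G ∧ Group.IsSolvable (G ⧸ K) ∧ K ≠ ⊤)) →
    ∃ ψ : IrrCharacter G, charDegree (χ : G → ℂ) < charDegree (ψ : G → ℂ) ∧
      ∃ L : Subgroup G, (∀ g : G, g ∈ L ↔ (ψ : G → ℂ) g = (ψ : G → ℂ) 1) ∧ L < K := by
  induction n using Nat.strong_induction_on with
  | _ n ih =>
  intro G _ _ χ K hKn hcard hK h
  classical
  haveI : Fintype G := Fintype.ofFinite G
  have hcardlt : ∀ U : Subgroup G, ∀ _ : U.Normal, U ≠ ⊥ → Nat.card (G ⧸ U) < n := by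
    intro U _ hb
    rw [← hcard, Subgroup.card_eq_card_quotient_mul_card_subgroup U]
    have h1 : 1 < Nat.card U := (Subgroup.one_lt_card_iff_ne_bot U).mpr hb
    have h2 : 0 < Nat.card (G ⧸ U) := Nat.card_pos
    nlinarith
  rcases h with hnot | ⟨hF, hsol, hne⟩
  · have hKnil : ¬ Group.IsNilpotent K := fun hn => hnot (le_fittingSubgroup hKn hn)
    by_cases hU : ∀ U : Subgroup G, ∀ _ : U.Normal, U ≤ K → U ≠ ⊥ →
        Group.IsNilpotent (K.map (QuotientGroup.mk' U))
    · obtain ⟨ψ, hψ, hdeg, hker⟩ := case1 χ.2 K hK hKnil hU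
      refine ⟨⟨ψ, hψ⟩, hdeg, ⊥, fun g => ?_, bot_lt_iff_ne_bot.mpr ?_⟩
      · rw [Subgroup.mem_bot]
        constructor
        · rintro rfl
          rfl
        · exact hker g
      · intro hb
        exact hnot (hb ▸ bot_le)
    · push Not at hU
      obtain ⟨U, hUn, hUK, hUb, hUnil⟩ := hU
      haveI := hUn
      obtain ⟨χ', hχ', hker'⟩ := exists_quot χ K hK U hUK
      haveI : (K.map (QuotientGroup.mk' U)).Normal :=
        Subgroup.Normal.map hKn _ (QuotientGroup.mk'_surjective U)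
      have hnotb : ¬ K.map (QuotientGroup.mk' U) ≤ fittingSubgroup (G ⧸ U) := by
        intro hle
        apply hUnil
        have h1 : Group.IsNilpotent (fittingSubgroup (G ⧸ U)) := isNilpotent_fittingSubgroup
        exact Group.nilpotent_of_mulEquiv (Subgroup.subgroupOfEquivOfLe hle)
      obtain ⟨ψ', hdeg, L', hL', hlt⟩ := ih _ (hcardlt U hUn hUb) (G ⧸ U) χ' (K.map (QuotientGroup.mk' U))
        rfl hker' (Or.inl hnotb)
      exact lift_result χ K U hUK χ' hχ' ψ' hdeg L' hL' hlt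
  · have hKb : K ≠ ⊥ := by
      intro hb
      have hsolG : Group.IsSolvable G := by
        subst hb
        exact Group.isSolvable_of_surjective (f := (QuotientGroup.quotientBot (G := G)).toMonoidHom)
          (QuotientGroup.quotientBot (G := G)).surjective
      have hnt : Nontrivial G := by
        by_contra hnt
        rw [not_nontrivial_iff_subsingleton] at hnt
        exact hne (Subsingleton.elim _ _)
      obtain ⟨p, hp, hpc⟩ := exists_pCore_ne_bot (G := G)
      haveI : Fact p.Prime := ⟨hp⟩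
      apply hpc
      rw [eq_bot_iff, ← hb, hF]
      exact pCore_le_fittingSubgroup p
    obtain ⟨L, hLn, hLb, hLK, hmin⟩ := Cfsg.Agent.Lib.MinNorm.exists_minimal_normal_le K hKn hKb
    haveI := hLn
    by_cases hJ : fittingSubgroup (G ⧸ L) ≤ K.map (QuotientGroup.mk' L)
    · obtain ⟨χ', hχ', hker'⟩ := exists_quot χ K hK L hLK
      haveI hKbn : (K.map (QuotientGroup.mk' L)).Normal :=
        Subgroup.Normal.map hKn _ (QuotientGroup.mk'_surjective L)
      have hKnil : Group.IsNilpotent K := by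
        rw [hF]
        exact isNilpotent_fittingSubgroup
      have hKbnil : Group.IsNilpotent (K.map (QuotientGroup.mk' L)) :=
        Group.nilpotent_of_surjective ((QuotientGroup.mk' L).subgroupMap K)
          ((QuotientGroup.mk' L).subgroupMap_surjective K)
      have hKbF := le_antisymm (le_fittingSubgroup hKbn hKbnil) hJ
      have hsolb : Group.IsSolvable ((G ⧸ L) ⧸ K.map (QuotientGroup.mk' L)) := by
        have hle : K ≤ (K.map (QuotientGroup.mk' L)).comap (QuotientGroup.mk' L) :=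
          Subgroup.le_comap_map _ _
        let f := QuotientGroup.map K (K.map (QuotientGroup.mk' L)) (QuotientGroup.mk' L) hle
        apply Group.isSolvable_of_surjective (f := f)
        intro q
        obtain ⟨y, rfl⟩ := QuotientGroup.mk_surjective q
        obtain ⟨g, rfl⟩ := QuotientGroup.mk_surjective y
        exact ⟨((g : G) : G ⧸ K), rfl⟩
      have hneb : K.map (QuotientGroup.mk' L) ≠ ⊤ := by
        intro htop
        apply hne
        rw [eq_top_iff]
        intro g _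
        have h1 : ((g : G ⧸ L)) ∈ K.map (QuotientGroup.mk' L) := by rw [htop]; trivial
        rw [hker', hχ'] at h1
        rw [hK, h1, ← hχ' 1]
        rfl
      obtain ⟨ψ', hdeg, L', hL', hlt⟩ := ih _ (hcardlt L hLn hLb) (G ⧸ L) χ' (K.map (QuotientGroup.mk' L))
        rfl hker' (Or.inr ⟨hKbF, hsolb, hneb⟩)
      exact lift_result χ K L hLK χ' hχ' ψ' hdeg L' hL' hlt
    · obtain ⟨R, H, hRinf, hRL, hT, hHn, hKH, hneH, hcomm, hcop, hstab, hKL⟩ :=
        exists_complement K L hF hLK hLb hmin hJ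
      obtain ⟨ψ, hψ, hdeg, L', hL', hlt⟩ :=
        case2 χ.2 K L R H hK hLK hLb hmin hRinf hRL hT hHn hKH hneH hcomm hcop hstab hKL
      exact ⟨⟨ψ, hψ⟩, hdeg, L', hL', hlt⟩

/-- Let χ be an irreducible character of the finite group G and K its kernel (the elements where χ takes the value χ(1)). Suppose either that K is not contained in the Fitting subgroup F(G), or that K = F(G) with G/K solvable and K ≠ G. Then there is an irreducible character ψ of G with ψ(1) > χ(1) whose kernel is properly contained in K. -/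
theorem result {G : Type*} [Group G] [Finite G] (χ : Cfsg.IrrCharacter G) (K : Subgroup G) [K.Normal] (hK : (∀ g : G, g ∈ K ↔ (χ : G → ℂ) g = (χ : G → ℂ) 1)) (h : ¬ K ≤ Cfsg.fittingSubgroup G ∨ (K = Cfsg.fittingSubgroup G ∧ Group.IsSolvable (G ⧸ K) ∧ K ≠ ⊤)) : ∃ ψ : Cfsg.IrrCharacter G, Cfsg.charDegree (χ : G → ℂ) < Cfsg.charDegree (ψ : G → ℂ) ∧ ∃ L : Subgroup G, (∀ g : G, g ∈ L ↔ (ψ : G → ℂ) g = (ψ : G → ℂ) 1) ∧ L < K :=
  main _ G χ K rfl hK h

end Cfsg.Agent.S4461
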