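import Mathlib
import Cfsg.Statements.S4462
import Cfsg.Agent.S4461

set_option autoImplicit false
set_option linter.style.haveILetI false
open Cfsg

namespace Cfsg.Agent.S4462

open Cfsg.Agent.Lib.CharBasic Cfsg.Agent.Lib.CharKernel Cfsg.Agent.Lib.PCore

universe u

/-- The upper Fitting series. -/
noncomputable def fit (G : Type u) [Group G] : ℕ → {N : Subgroup G // N.Normal}
  | 0 => ⟨⊥, inferInstance⟩
  | i + 1 =>
    haveI := (fit G i).2
    ⟨(fittingSubgroup (G ⧸ (fit G i).1)).comap (QuotientGroup.mk' (fit G i).1),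
      Subgroup.Normal.comap inferInstance _⟩

instance fit_normal (G : Type u) [Group G] (i : ℕ) : (fit G i).1.Normal := (fit G i).2

theorem mem_fit_succ {G : Type u} [Group G] (i : ℕ) (x : G) :
    x ∈ (fit G (i + 1)).1 ↔ QuotientGroup.mk' (fit G i).1 x ∈ fittingSubgroup (G ⧸ (fit G i).1) :=
  Iff.rfl

theorem fit_le_succ {G : Type u} [Group G] (i : ℕ) : (fit G i).1 ≤ (fit G (i + 1)).1 := by
  intro x hx
  rw [mem_fit_succ]
  have h1 : QuotientGroup.mk' (fit G i).1 x = 1 := (QuotientGroup.eq_one_iff x).mpr hx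
  rw [h1]
  exact Subgroup.one_mem _

theorem fit_mono {G : Type u} [Group G] : Monotone fun i => (fit G i).1 :=
  monotone_nat_of_le_succ fit_le_succ

/-- The quotients of consecutive terms are nilpotent. -/
theorem fit_nil {G : Type u} [Group G] [Finite G] (i : ℕ)
    (h : ((fit G i).1.subgroupOf (fit G (i + 1)).1).Normal) :
    Group.IsNilpotent (↥(fit G (i + 1)).1 ⧸ (fit G i).1.subgroupOf (fit G (i + 1)).1) := by
  have hnil : Group.IsNilpotent (fittingSubgroup (G ⧸ (fit G i).1)) := isNilpotent_fittingSubgroup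
  let f : ↥(fit G (i + 1)).1 →* fittingSubgroup (G ⧸ (fit G i).1) :=
    { toFun := fun y => ⟨QuotientGroup.mk' (fit G i).1 y, (mem_fit_succ i _).mp y.2⟩
      map_one' := by ext; simp
      map_mul' := fun a b => by ext; simp }
  have hker : (fit G i).1.subgroupOf (fit G (i + 1)).1 ≤ f.ker := by
    intro y hy
    rw [MonoidHom.mem_ker]
    apply Subtype.ext
    exact (QuotientGroup.eq_one_iff _).mpr (Subgroup.mem_subgroupOf.mp hy)
  let g := QuotientGroup.lift ((fit G i).1.subgroupOf (fit G (i + 1)).1) f (fun y hy => hker hy)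
  apply Subgroup.isNilpotent_of_ker_le_center g
  intro y hy
  obtain ⟨x, rfl⟩ := QuotientGroup.mk_surjective y
  have h1 : f x = 1 := hy
  have h2 : QuotientGroup.mk' (fit G i).1 (x : G) = 1 := congrArg Subtype.val h1
  have h3 : (x : G) ∈ (fit G i).1 := (QuotientGroup.eq_one_iff _).mp h2
  have h4 : ((x : ↥(fit G (i + 1)).1 ⧸ (fit G i).1.subgroupOf (fit G (i + 1)).1)) = 1 :=
    (QuotientGroup.eq_one_iff x).mpr (Subgroup.mem_subgroupOf.mpr h3)
  rw [h4]
  exact Subgroup.one_mem _

/-- Descending the series, the degrees increase. -/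
theorem key {G : Type u} [Group G] [Finite G] (hsolv : Group.IsSolvable G) (m : ℕ)
    (hm : (fit G m).1 ≠ ⊤) : ∀ k, k ≤ m → ∃ χ : IrrCharacter G,
      (∀ x ∈ (fit G (m - k)).1, (χ : G → ℂ) x = (χ : G → ℂ) 1) ∧
      ∃ s : Finset ℕ, (∀ d ∈ s, (∃ χ' : IrrCharacter G, charDegree (χ' : G → ℂ) = d) ∧
        d ≤ charDegree (χ : G → ℂ)) ∧ s.card = k + 1 := by
  intro k
  induction k with
  | zero =>
    intro _
    refine ⟨⟨fun _ => 1, isIrrCharacter_one⟩, fun _ _ => rfl, {1}, ?_, by simp⟩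
    intro d hd
    rw [Finset.mem_singleton] at hd
    subst hd
    have h1 : charDegree (fun _ : G => (1 : ℂ)) = 1 := by simp [charDegree]
    exact ⟨⟨⟨fun _ => 1, isIrrCharacter_one⟩, h1⟩, h1.ge⟩
  | succ k ih =>
    intro hk
    obtain ⟨χ, hχ, s, hs, hcard⟩ := ih (by omega)
    set j := m - (k + 1) with hj
    have hjk : m - k = j + 1 := by omega
    rw [hjk] at hχ
    have hχc := IsIrrCharacter.isCharacter χ.2
    set K : Subgroup G := charKer hχc with hK
    haveI hKn : K.Normal := charKer_normal hχc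
    have hFK : (fit G (j + 1)).1 ≤ K := fun x hx => hχ x hx
    have hUK : (fit G j).1 ≤ K := (fit_le_succ j).trans hFK
    obtain ⟨χ', hχ', hker'⟩ := Cfsg.Agent.S4461.exists_quot χ K (fun g => mem_charKer hχc) (fit G j).1 hUK
    haveI hKb : (K.map (QuotientGroup.mk' (fit G j).1)).Normal :=
      Subgroup.Normal.map hKn _ (QuotientGroup.mk'_surjective _)
    have hmap : fittingSubgroup (G ⧸ (fit G j).1) ≤ K.map (QuotientGroup.mk' (fit G j).1) := by
      intro y hy
      obtain ⟨x, rfl⟩ := QuotientGroup.mk_surjective y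
      exact Subgroup.mem_map_of_mem _ (hFK ((mem_fit_succ j x).mpr hy))
    have hhyp : ¬ K.map (QuotientGroup.mk' (fit G j).1) ≤ fittingSubgroup (G ⧸ (fit G j).1) ∨
        (K.map (QuotientGroup.mk' (fit G j).1) = fittingSubgroup (G ⧸ (fit G j).1) ∧
          Group.IsSolvable ((G ⧸ (fit G j).1) ⧸ K.map (QuotientGroup.mk' (fit G j).1)) ∧
          K.map (QuotientGroup.mk' (fit G j).1) ≠ ⊤) := by
      by_cases hle : K.map (QuotientGroup.mk' (fit G j).1) ≤ fittingSubgroup (G ⧸ (fit G j).1)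
      · refine Or.inr ⟨le_antisymm hle hmap, inferInstance, ?_⟩
        intro htop
        apply hm
        rw [eq_top_iff]
        intro x _
        have h1 : j + 1 ≤ m := by omega
        apply fit_mono h1
        rw [mem_fit_succ]
        apply hle
        rw [htop]
        trivial
      · exact Or.inl hle
    obtain ⟨ψ', hdeg, -⟩ := Cfsg.Agent.S4461.result χ' (K.map (QuotientGroup.mk' (fit G j).1)) hker' hhyp
    have hs' : Function.Surjective (QuotientGroup.mk' (fit G j).1) := QuotientGroup.mk'_surjective _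
    let ψ : IrrCharacter G := ⟨(ψ' : G ⧸ (fit G j).1 → ℂ) ∘ QuotientGroup.mk' (fit G j).1,
      isIrrCharacter_comp_of_surjective _ hs' ψ'.2⟩
    have hd1 : charDegree (χ : G → ℂ) = charDegree (χ' : G ⧸ (fit G j).1 → ℂ) := by
      unfold charDegree
      rw [← hχ' 1]
      rfl
    have hd2 : charDegree (ψ : G → ℂ) = charDegree (ψ' : G ⧸ (fit G j).1 → ℂ) := by
      unfold charDegree
      simp [ψ]
    have hlt : charDegree (χ : G → ℂ) < charDegree (ψ : G → ℂ) := by
      rw [hd1, hd2]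
      exact hdeg
    refine ⟨ψ, ?_, insert (charDegree (ψ : G → ℂ)) s, ?_, ?_⟩
    · intro x hx
      have h1 : QuotientGroup.mk' (fit G j).1 x = 1 := (QuotientGroup.eq_one_iff x).mpr hx
      show (ψ' : G ⧸ (fit G j).1 → ℂ) (QuotientGroup.mk' (fit G j).1 x) = _
      rw [h1]
      simp [ψ]
    · intro d hd
      rw [Finset.mem_insert] at hd
      rcases hd with rfl | hd
      · exact ⟨⟨ψ, rfl⟩, le_rfl⟩
      · exact ⟨(hs d hd).1, (hs d hd).2.trans hlt.le⟩
    · rw [Finset.card_insert_of_notMem, hcard]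
      intro hmem
      exact absurd (hs _ hmem).2 (not_le.mpr hlt)

/-- Let G be a finite solvable group with exactly n distinct irreducible character degrees. Then G has normal subgroups 1 = N₀ ≤ N₁ ≤ ⋯ ≤ Nₙ = G with every quotient N_{i+1}/N_i nilpotent (the nilpotent length of G is at most n). -/
theorem result {G : Type*} [Group G] [Finite G] (hsolv : Group.IsSolvable G) (n : ℕ) (hcd : Nat.card {d : ℕ // ∃ χ : Cfsg.IrrCharacter G, Cfsg.charDegree (χ : G → ℂ) = d} = n) : ∃ N : Fin (n + 1) → Subgroup G, N 0 = ⊥ ∧ N (Fin.last n) = ⊤ ∧ Monotone N ∧ (∀ i, (N i).Normal) ∧ ∀ i : Fin n, ∀ h : (N i.castSucc).subgroupOf (N i.succ) |>.Normal, Group.IsNilpotent (↥(N i.succ) ⧸ (N i.castSucc).subgroupOf (N i.succ)) := by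
  classical
  have hfin : Finite {d : ℕ // ∃ χ : Cfsg.IrrCharacter G, Cfsg.charDegree (χ : G → ℂ) = d} := by
    haveI : Finite (IrrCharacter G) := inferInstance
    exact Finite.of_surjective (fun χ : IrrCharacter G => (⟨charDegree (χ : G → ℂ), χ, rfl⟩ :
      {d : ℕ // ∃ χ : Cfsg.IrrCharacter G, Cfsg.charDegree (χ : G → ℂ) = d}))
      (fun ⟨d, χ, hd⟩ => ⟨χ, Subtype.ext hd⟩)
  have htop : (fit G n).1 = ⊤ := by
    by_contra hne
    obtain ⟨χ, -, s, hs, hcard⟩ := key hsolv n hne n le_rfl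
    have h1 : s.card ≤ n := by
      rw [← hcd]
      haveI := Fintype.ofFinite {d : ℕ // ∃ χ : Cfsg.IrrCharacter G, Cfsg.charDegree (χ : G → ℂ) = d}
      rw [Nat.card_eq_fintype_card, ← Finset.card_attach (s := s)]
      apply Finset.card_le_card_of_injOn (fun d => ⟨d.1, (hs d.1 d.2).1⟩)
      · intro _ _
        exact Finset.mem_univ _
      · intro a _ b _ hab
        exact Subtype.ext (by simpa using hab)
    omega
  refine ⟨fun i => (fit G i).1, rfl, htop, fun a b hab => fit_mono (Fin.le_def.mp hab), fun i => fit_normal G i, ?_⟩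
  rintro ⟨i, hi⟩ h
  exact fit_nil i h

end Cfsg.Agent.S4462
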