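import Mathlib
import Cfsg.Statements.S4465
import Cfsg.Agent.Lib.FTBlichMain
import Cfsg.Agent.Lib.McKayTools
import Cfsg.Agent.Lib.CharPow
import Cfsg.Agent.Lib.CharGalois
import Cfsg.Agent.Lib.Hall
import Cfsg.Agent.S0581
import Cfsg.Agent.S0088

set_option autoImplicit false
set_option linter.unusedSectionVars false
set_option linter.unusedVariables false
set_option linter.style.haveILetI false

open Cfsg Cfsg.Agent.Lib.CharBasic Cfsg.Agent.Lib.CharKernel Cfsg.Agent.Lib.FTBlichMain
open scoped ComplexConjugate Pointwise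

namespace Cfsg.Agent.S4465

universe u

section Basic

variable {G : Type u} [Group G] [Finite G]

/-- A `q`-element centralizes an abelian normal subgroup when the degree is below `q`. -/
theorem comm_of_normal {m : ℕ} (ρ : Representation ℂ G (Fin m → ℂ)) (hρ : Function.Injective ρ)
    {q : ℕ} (hq : q.Prime) (hlt : m < q) (B : Subgroup G) [hBn : B.Normal]
    (hB : ∀ a ∈ B, ∀ b ∈ B, a * b = b * a) (x : G) (k : ℕ) (hx : x ^ (q ^ k) = 1) :
    ∀ b ∈ B, x * b = b * x := by
  classical
  let U : Subgroup G := B ⊔ Subgroup.zpowers x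
  letI : Fintype U := Fintype.ofFinite U
  have hχ : IsCharacter U (fun s : U => ρ.character s) := isCharacter_restrict U ⟨m, ρ, rfl⟩
  obtain ⟨m', hm⟩ := exists_nat_decomp hχ
  have hn : (∑ i, m' i • (i : U → ℂ)) 1 = (m : ℂ) := by
    rw [← hm]
    exact char_one_eq_rep ρ
  have hcomm : ∀ a b : B.subgroupOf U, a * b = b * a := by
    rintro ⟨a, ha⟩ ⟨b, hb⟩
    apply Subtype.ext
    apply Subtype.ext
    exact hB _ (Subgroup.mem_subgroupOf.mp ha) _ (Subgroup.mem_subgroupOf.mp hb)
  have hidx : (B.subgroupOf U).index ∣ q ^ k := by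
    have h1 : (B.subgroupOf U).index = B.relIndex (Subgroup.zpowers x) := by
      show B.relIndex (B ⊔ Subgroup.zpowers x) = _
      rw [Subgroup.relIndex_sup_left]
    rw [h1]
    have h2 : B.relIndex (Subgroup.zpowers x) ∣ Nat.card (Subgroup.zpowers x) :=
      Subgroup.index_dvd_card _
    rw [Nat.card_zpowers] at h2
    exact h2.trans (orderOf_dvd_of_pow_eq_one hx)
  have hlin : ∀ θ : IrrCharacter U, m' θ ≠ 0 → (θ : U → ℂ) 1 = 1 := by
    intro θ hθ
    have h1 := degree_le_of_constituent m' hn θ hθ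
    have h2 := Cfsg.Agent.Lib.McKayTools.ito_dvd (B.subgroupOf U) hcomm θ.2
    obtain ⟨j, -, hj⟩ := (Nat.dvd_prime_pow hq).mp (h2.trans hidx)
    have h3 : j = 0 := by
      by_contra h0
      have h4 : q ≤ q ^ j := Nat.le_self_pow h0 q
      omega
    rw [one_eq_charDegree (IsIrrCharacter.isCharacter θ.2), hj, h3]
    simp
  intro b hb
  have hxU : x ∈ U := (le_sup_right : Subgroup.zpowers x ≤ U) (Subgroup.mem_zpowers x)
  have hbU : b ∈ U := (le_sup_left : B ≤ U) hb
  have h1 := commutator_of_linear m' hlin (⟨x, hxU⟩ : U) ⟨b, hbU⟩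
  rw [← hm] at h1
  have h2 := eq_one_of_char_eq ρ hρ _ h1
  have h3 : x * b * x⁻¹ = b := eq_of_mul_inv_eq_one h2
  rw [mul_inv_eq_iff_eq_mul] at h3
  exact h3

/-- A non-trivial element of prime order has a non-rational character value when the degree is
small. -/
theorem exists_pow_ne {d : ℕ} (ρ : Representation ℂ G (Fin d → ℂ)) (hρ : Function.Injective ρ)
    {q : ℕ} (hq : q.Prime) (hlt : d + 1 < q) (x : G) (hx : orderOf x = q) :
    ∃ c : ℕ, c.Coprime q ∧ ρ.character (x ^ c) ≠ ρ.character x := by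
  classical
  by_contra hcon
  push Not at hcon
  obtain ⟨b, μ, h1, h2, h3, h4⟩ := Cfsg.Agent.Lib.CharValues.exists_eigenbasis_rep ρ x
  have hk : ∀ (k : ℕ) i, ρ (x ^ k) (b i) = μ i ^ k • b i := by
    intro k i
    rw [map_pow]
    induction k with
    | zero => simp
    | succ k ih =>
      rw [pow_succ, Module.End.mul_apply, h1, map_smul, ih, smul_smul, pow_succ]
      ring_nf
  have htr : ∀ k : ℕ, ρ.character (x ^ k) = ∑ i, μ i ^ k := fun k =>
    Cfsg.Agent.Lib.CharValues.trace_eq_sum_of_eigenbasis (ρ (x ^ k)) b (fun i => μ i ^ k) (hk k)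
  have hxq : x ^ q = 1 := by
    rw [← hx]
    exact pow_orderOf_eq_one x
  have hμq : ∀ i, μ i ^ q = 1 := by
    intro i
    have h5 := hk q i
    rw [hxq, map_one, Module.End.one_apply] at h5
    have h6 : (μ i ^ q - 1) • b i = 0 := by
      rw [sub_smul, one_smul, ← h5, sub_self]
    rcases smul_eq_zero.mp h6 with h7 | h7
    · exact sub_eq_zero.mp h7
    · exact absurd h7 (b.ne_zero i)
  set v := ρ.character x with hv
  obtain ⟨q', rfl⟩ : ∃ q', q = q' + 1 := ⟨q - 1, by have := hq.one_lt; omega⟩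
  have hq'pos : 0 < q' := by have := hq.one_lt; omega
  set m₀ : ℕ := (Finset.univ.filter (fun i => μ i = 1)).card with hm₀
  -- the sum computed by eigenvalues
  have hsum1 : ∑ k ∈ Finset.range (q' + 1), ρ.character (x ^ k) = ((q' + 1 : ℕ) : ℂ) * m₀ := by
    simp_rw [htr]
    rw [Finset.sum_comm]
    have h5 : ∀ i, ∑ k ∈ Finset.range (q' + 1), μ i ^ k =
        if μ i = 1 then ((q' + 1 : ℕ) : ℂ) else 0 := by
      intro i
      split_ifs with h6
      · rw [h6]
        simp
      · have h7 : (∑ k ∈ Finset.range (q' + 1), μ i ^ k) * (μ i - 1) = μ i ^ (q' + 1) - 1 :=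
          geom_sum_mul _ _
        rw [hμq i, sub_self] at h7
        rcases mul_eq_zero.mp h7 with h8 | h8
        · exact h8
        · exact absurd (sub_eq_zero.mp h8) h6
    simp_rw [h5]
    rw [Finset.sum_ite, Finset.sum_const_zero, add_zero, Finset.sum_const, nsmul_eq_mul, mul_comm]
  -- the sum computed by the hypothesis
  have hsum2 : ∑ k ∈ Finset.range (q' + 1), ρ.character (x ^ k) = (q' : ℂ) * v + d := by
    rw [Finset.sum_range_succ', pow_zero, char_one_eq_rep ρ]
    congr 1
    have h5 : ∀ k ∈ Finset.range q', ρ.character (x ^ (k + 1)) = v := by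
      intro k hk'
      apply hcon
      rw [Nat.coprime_comm]
      apply (Nat.Prime.coprime_iff_not_dvd hq).mpr
      exact Nat.not_dvd_of_pos_of_lt (Nat.succ_pos k) (by have := Finset.mem_range.mp hk'; omega)
    rw [Finset.sum_congr rfl h5, Finset.sum_const, Finset.card_range, nsmul_eq_mul]
  have hmain : (q' : ℂ) * v + d = ((q' + 1 : ℕ) : ℂ) * m₀ := by rw [← hsum2, hsum1]
  have hq'C : (q' : ℂ) ≠ 0 := by exact_mod_cast hq'pos.ne'
  have hq'Q : (q' : ℚ) ≠ 0 := by exact_mod_cast hq'pos.ne'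
  let r : ℚ := (((q' + 1 : ℕ) : ℚ) * m₀ - d) / q'
  have hvr : v = algebraMap ℚ ℂ r := by
    simp only [r, eq_ratCast]
    push_cast
    field_simp
    push_cast at hmain
    linear_combination hmain
  have hint : IsIntegral ℤ (algebraMap ℚ ℂ r) := by
    rw [← hvr]
    exact Cfsg.Agent.Lib.CharValues.isIntegral_character ρ x
  have hint' : IsIntegral ℤ r :=
    (isIntegral_algebraMap_iff (algebraMap ℚ ℂ).injective).mp hint
  obtain ⟨w, hw⟩ := IsIntegrallyClosed.isIntegral_iff.mp hint'
  have hwr : (q' : ℤ) * w = ((q' + 1 : ℕ) : ℤ) * m₀ - d := by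
    have h5 : ((q' : ℤ) * w : ℚ) = ((q' + 1 : ℕ) : ℚ) * m₀ - d := by
      have h6 : (w : ℚ) = r := hw
      rw [h6]
      simp only [r]
      field_simp
      push_cast
      ring
    exact_mod_cast h5
  have hm₀le : m₀ ≤ d := by
    have h5 : m₀ ≤ (Finset.univ : Finset (Fin (Module.finrank ℂ (Fin d → ℂ)))).card :=
      Finset.card_filter_le _ _
    rw [Finset.card_univ, Fintype.card_fin, Module.finrank_fin_fun] at h5
    exact h5
  have hdvd : q' ∣ d - m₀ := by
    have h5 : (q' : ℤ) ∣ ((d - m₀ : ℕ) : ℤ) := by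
      refine ⟨(m₀ : ℤ) - w, ?_⟩
      push_cast [Nat.cast_sub hm₀le]
      push_cast at hwr
      linear_combination hwr
    exact_mod_cast h5
  have hdm : d = m₀ := by
    have h5 := Nat.eq_zero_of_dvd_of_lt hdvd (by omega)
    omega
  have hall : ∀ i, μ i = 1 := by
    have h5 : (Finset.univ.filter (fun i => μ i = 1)).card =
        (Finset.univ : Finset (Fin (Module.finrank ℂ (Fin d → ℂ)))).card := by
      rw [Finset.card_univ, Fintype.card_fin]
      show m₀ = _
      rw [← hdm]
      exact (Module.finrank_fin_fun ℂ).symm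
    intro i
    exact Finset.filter_card_eq h5 i (Finset.mem_univ i)
  have hid : ρ x = 1 := by
    apply b.ext
    intro i
    rw [h1, hall i, one_smul, Module.End.one_apply]
  have hx1 : x = 1 := hρ (by rw [hid, map_one])
  rw [hx1, orderOf_one] at hx
  omega

/-- Choice of a Galois exponent acting on the `q`-part only. -/
theorem exists_exponent {q : ℕ} (hq : q.Prime) (hqd : q ∣ Nat.card G) (x : G)
    (hx : orderOf x = q) (c : ℕ) (hc : c.Coprime q) :
    ∃ k : ℕ, (Nat.card G).Coprime k ∧ x ^ k = x ^ c ∧ ∀ g : G, ¬ q ∣ orderOf g → g ^ k = g := by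
  classical
  have hM : Nat.card G ≠ 0 := Nat.card_pos.ne'
  obtain ⟨a, m', hm', hMe⟩ := Nat.exists_eq_pow_mul_and_not_dvd hM q hq.ne_one
  have ha : a ≠ 0 := by
    rintro rfl
    rw [pow_zero, one_mul] at hMe
    rw [hMe] at hqd
    exact hm' hqd
  have hcop : Nat.Coprime (q ^ a) m' :=
    Nat.Coprime.pow_left a ((Nat.Prime.coprime_iff_not_dvd hq).mpr hm')
  let k₀ := Nat.chineseRemainder hcop c 1
  have hk1 : (k₀ : ℕ) ≡ c [MOD q ^ a] := k₀.2.1
  have hk2 : (k₀ : ℕ) ≡ 1 [MOD m'] := k₀.2.2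
  have hk3 : (k₀ : ℕ) ≡ c [MOD q] := hk1.of_dvd (dvd_pow_self q ha)
  refine ⟨k₀, ?_, ?_, ?_⟩
  · rw [hMe, Nat.coprime_comm]
    apply Nat.Coprime.mul_right
    · apply Nat.Coprime.pow_right
      have h1 := hk3.gcd_eq
      rw [Nat.gcd_comm c q] at h1
      have h2 : Nat.gcd q c = 1 := hc.symm
      show Nat.gcd (k₀ : ℕ) q = 1
      rw [h1]
      exact h2
    · have h1 := hk2.gcd_eq
      show Nat.gcd (k₀ : ℕ) m' = 1
      rw [h1]
      exact Nat.gcd_one_left _
  · rw [pow_eq_pow_iff_modEq, hx]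
    exact hk3
  · intro g hg
    have h1 : orderOf g ∣ Nat.card G := orderOf_dvd_natCard g
    rw [hMe] at h1
    have h2 : Nat.Coprime (orderOf g) (q ^ a) :=
      Nat.Coprime.pow_right a (Nat.Coprime.symm ((Nat.Prime.coprime_iff_not_dvd hq).mpr hg))
    have h3 : orderOf g ∣ m' := h2.dvd_of_dvd_mul_left h1
    have h4 : (k₀ : ℕ) ≡ 1 [MOD orderOf g] := hk2.of_dvd h3
    have h5 := (pow_eq_pow_iff_modEq (x := g)).mpr h4
    rwa [pow_one] at h5

/-- Commuting elements of orders `q`, `t`. -/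
theorem pair {d : ℕ} (ρ : Representation ℂ G (Fin d → ℂ)) (hirr : ρ.IsIrreducible)
    (hρ : Function.Injective ρ) {q t : ℕ} (hq : q.Prime) (ht : t.Prime) (hqt : q ≠ t)
    (hdq : d + 1 < q) (hdt : d + 1 < t) (hqG : q ∣ Nat.card G) (htG : t ∣ Nat.card G) :
    ∃ x y : G, orderOf x = q ∧ orderOf y = t ∧ Commute x y := by
  classical
  letI := Fintype.ofFinite G
  haveI := Fact.mk hq
  haveI := Fact.mk ht
  have hχ : IsIrrCharacter G ρ.character := ⟨d, ρ, hirr, rfl⟩
  obtain ⟨x₀, hx₀⟩ := exists_prime_orderOf_dvd_card' q hqG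
  obtain ⟨y₀, hy₀⟩ := exists_prime_orderOf_dvd_card' t htG
  obtain ⟨c, hc, hcne⟩ := exists_pow_ne ρ hρ hq hdq x₀ hx₀
  obtain ⟨c', hc', hcne'⟩ := exists_pow_ne ρ hρ ht hdt y₀ hy₀
  obtain ⟨k, hk, hk1, hk2⟩ := exists_exponent hq hqG x₀ hx₀ c hc
  obtain ⟨l, hl, hl1, hl2⟩ := exists_exponent ht htG y₀ hy₀ c' hc'
  set χ := ρ.character with hχdef
  let χk : G → ℂ := fun g => χ (g ^ k)
  let χl : G → ℂ := fun g => χ (g ^ l)
  have hχk : IsIrrCharacter G χk := Cfsg.Agent.Lib.CharPow.isIrr_pow hχ hk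
  have hχl : IsIrrCharacter G χl := Cfsg.Agent.Lib.CharPow.isIrr_pow hχ hl
  have hne1 : χ ≠ χk := by
    intro h
    apply hcne
    have h1 := congrFun h x₀
    show χ (x₀ ^ c) = χ x₀
    rw [← hk1]
    exact h1.symm
  have hne2 : χ ≠ χl := by
    intro h
    apply hcne'
    have h1 := congrFun h y₀
    show χ (y₀ ^ c') = χ y₀
    rw [← hl1]
    exact h1.symm
  have hinner : classInner (χ - χk) (χ - χl) ≠ 0 := by
    rw [classInner_sub_left, classInner_sub_right, classInner_sub_right,
      classInner_irr_self hχ, classInner_irr_ne hχ hχl hne2, classInner_irr_ne hχk hχ hne1.symm,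
      classInner_irr hχk hχl]
    split_ifs <;> norm_num
  obtain ⟨g, hg⟩ : ∃ g : G, (χ - χk) g * conj ((χ - χl) g) ≠ 0 := by
    by_contra hcon
    push Not at hcon
    apply hinner
    unfold classInner
    rw [Finset.sum_eq_zero fun g _ => hcon g, mul_zero]
  have hg1 : χ g ≠ χk g := by
    intro h
    apply hg
    simp [h]
  have hg2 : χ g ≠ χl g := by
    intro h
    apply hg
    simp [h]
  have hqg : q ∣ orderOf g := by
    by_contra h
    apply hg1
    show χ g = χ (g ^ k)
    rw [hk2 g h]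
  have htg : t ∣ orderOf g := by
    by_contra h
    apply hg2
    show χ g = χ (g ^ l)
    rw [hl2 g h]
  refine ⟨g ^ (orderOf g / q), g ^ (orderOf g / t), ?_, ?_, ?_⟩
  · exact orderOf_pow_orderOf_div (orderOf_pos g).ne' hqg
  · exact orderOf_pow_orderOf_div (orderOf_pos g).ne' htg
  · exact Commute.pow_pow_self g _ _

/-- A central element of the derived subgroup of order a large prime is trivial. -/
theorem central_false {m : ℕ} (ρ : Representation ℂ G (Fin m → ℂ)) (hρ : Function.Injective ρ)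
    {q : ℕ} (hq : q.Prime) (hlt : m < q) (z : G) (hzc : z ∈ commutator G)
    (hzZ : z ∈ Subgroup.center G) (hz : orderOf z = q) : False := by
  haveI := Fact.mk hq
  have h1 : IsPGroup q (Subgroup.zpowers z) := by
    rw [IsPGroup.iff_card, Nat.card_zpowers, hz]
    exact ⟨1, (pow_one q).symm⟩
  obtain ⟨Q, hQ⟩ := h1.exists_le_sylow
  have hQc := pgroup_comm ρ hρ q hq hlt Q Q.isPGroup'
  have hcomm : IsMulCommutative (Q : Subgroup G) :=
    ⟨⟨fun a b => Subtype.ext (hQc a a.2 b b.2)⟩⟩
  have h2 := Cfsg.Agent.S0088.result (Q : Subgroup G) hcomm Q.card_coprime_index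
  have h3 : z ∈ (Q : Subgroup G) ⊓ commutator G ⊓ Subgroup.center G :=
    ⟨⟨hQ (Subgroup.mem_zpowers z), hzc⟩, hzZ⟩
  rw [h2, Subgroup.mem_bot] at h3
  rw [h3, orderOf_one] at hz
  exact hq.ne_one hz.symm

end Basic

section Main

/-- `G` has a faithful representation of degree at most `n`. -/
def LinDeg (n : ℕ) (G : Type u) [Group G] : Prop :=
  ∃ (m : ℕ) (ρ : Representation ℂ G (Fin m → ℂ)), m ≤ n ∧ Function.Injective ρ

/-- Abelian Hall subgroup for the primes above `n + 1`. -/
structure IsHall' (n : ℕ) {G : Type u} [Group G] (A : Subgroup G) : Prop where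
  comm : ∀ x ∈ A, ∀ y ∈ A, x * y = y * x
  primes : ∀ q : ℕ, q.Prime → q ∣ Nat.card A → n + 1 < q
  index : ∀ q : ℕ, q.Prime → q ∣ A.index → q ≤ n + 1

variable {G : Type u} [Group G] [Finite G] {n : ℕ}

theorem card_map_sub {L : Subgroup G} (A : Subgroup L) : Nat.card (A.map L.subtype) = Nat.card A :=
  Nat.card_congr (A.equivMapOfInjective L.subtype L.subtype_injective).symm.toEquiv

theorem isHall_map (L : Subgroup G) (A : Subgroup L) (hA : IsHall' n A)
    (hL : ∀ q : ℕ, q.Prime → n + 1 < q → ¬ q ∣ L.index) : IsHall' n (A.map L.subtype) := by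
  refine ⟨?_, ?_, ?_⟩
  · rintro _ ⟨a, ha, rfl⟩ _ ⟨b, hb, rfl⟩
    exact congrArg Subtype.val (hA.comm a ha b hb)
  · intro q hq hd
    rw [card_map_sub] at hd
    exact hA.primes q hq hd
  · intro q hq hd
    rw [Subgroup.index_map_subtype] at hd
    rcases hq.dvd_mul.mp hd with h | h
    · exact hA.index q hq h
    · by_contra h1
      exact hL q hq (by omega) h

theorem hall_coprime {H : Type u} [Group H] [Finite H] {A : Subgroup H} (hA : IsHall' n A) :
    Nat.Coprime (Nat.card A) A.index := by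
  apply Nat.coprime_of_dvd
  intro k hk h1 h2
  have h3 := hA.primes k hk h1
  have h4 := hA.index k hk h2
  omega

theorem nilp_of_comm {H : Type u} [Group H] (A : Subgroup H)
    (hA : ∀ x ∈ A, ∀ y ∈ A, x * y = y * x) : Group.IsNilpotent A := by
  letI : CommGroup A :=
    { (inferInstance : Group A) with mul_comm := fun a b => Subtype.ext (hA a a.2 b b.2) }
  infer_instance

/-- A maximal abelian subgroup is Hall in subgroups having such a Hall subgroup. -/
theorem not_dvd_index_of_max (A : Subgroup G) (hAc : ∀ x ∈ A, ∀ y ∈ A, x * y = y * x)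
    (hAp : ∀ q : ℕ, q.Prime → q ∣ Nat.card A → n + 1 < q)
    (hmax : ∀ B : Subgroup G, (∀ x ∈ B, ∀ y ∈ B, x * y = y * x) →
      (∀ q : ℕ, q.Prime → q ∣ Nat.card B → n + 1 < q) → Nat.card B ≤ Nat.card A)
    (C : Subgroup G) (hAC : A ≤ C) (H : Subgroup C) (hH : IsHall' n H) :
    ∀ p : ℕ, p.Prime → n + 1 < p → ¬ p ∣ (A.subgroupOf C).index := by
  intro p hp hpn
  have hcardK : Nat.card (A.subgroupOf C) = Nat.card A :=
    Nat.card_congr (Subgroup.subgroupOfEquivOfLe hAC).toEquiv
  have hcardC := Subgroup.card_mul_index H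
  have hK : ∀ p : ℕ, p.Prime → p ∣ Nat.card (A.subgroupOf C) → p ∣ Nat.card H := by
    intro r hr hd
    have h1 : r ∣ Nat.card C := hd.trans (Subgroup.card_subgroup_dvd_card _)
    rw [← hcardC] at h1
    rcases hr.dvd_mul.mp h1 with h2 | h2
    · exact h2
    · rw [hcardK] at hd
      have h3 := hAp r hr hd
      have h4 := hH.index r hr h2
      omega
  obtain ⟨c, hc⟩ := Cfsg.Agent.S0581.result H (A.subgroupOf C) (nilp_of_comm H hH.comm)
    (hall_coprime hH) hK
  have h1 : Nat.card (A.subgroupOf C) ≤ Nat.card H := by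
    have h2 := Subgroup.card_le_of_le hc
    have h3 : Nat.card (MulAut.conj c • H : Subgroup C) = Nat.card H :=
      Nat.card_congr (Subgroup.equivSMul (MulAut.conj c) H).symm.toEquiv
    rwa [h3] at h2
  have h2 : Nat.card H ≤ Nat.card A := by
    rw [← card_map_sub H]
    apply hmax
    · rintro _ ⟨a, ha, rfl⟩ _ ⟨b, hb, rfl⟩
      exact congrArg Subtype.val (hH.comm a ha b hb)
    · intro q hq hd
      rw [card_map_sub] at hd
      exact hH.primes q hq hd
  have h3 : Nat.card (A.subgroupOf C) = Nat.card H := by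
    rw [hcardK] at h1 ⊢
    omega
  have h4 : (A.subgroupOf C).index = H.index := by
    have h5 := Subgroup.card_mul_index (A.subgroupOf C)
    rw [h3, ← hcardC] at h5
    exact Nat.eq_of_mul_eq_mul_left Nat.card_pos h5
  rw [h4]
  intro h5
  have h6 := hH.index p hp h5
  omega

theorem mem_normalizer_of_conj_mem (B : Subgroup G) (u : G) (h : ∀ b ∈ B, u * b * u⁻¹ ∈ B) :
    u ∈ Subgroup.normalizer (B : Set G) := by
  rw [Subgroup.mem_normalizer_iff]
  intro x
  refine ⟨h x, fun hx => ?_⟩
  -- injective on a finite set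
  let f : B → B := fun b => ⟨u * b * u⁻¹, h b b.2⟩
  have hf : Function.Injective f := by
    intro a b hab
    have h1 : u * (a : G) * u⁻¹ = u * b * u⁻¹ := congrArg Subtype.val hab
    apply Subtype.ext
    simpa using h1
  obtain ⟨b, hb⟩ := (Finite.injective_iff_surjective.mp hf) ⟨_, hx⟩
  have h1 : u * (b : G) * u⁻¹ = u * x * u⁻¹ := congrArg Subtype.val hb
  have h2 : (b : G) = x := by simpa using h1
  rw [← h2]
  exact b.2

/-- Frattini argument for an abelian Hall subgroup of a normal subgroup. -/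
theorem normalizer_index_dvd (N : Subgroup G) [hN : N.Normal] (A₀ : Subgroup N)
    (hA₀ : IsHall' n A₀) :
    (Subgroup.normalizer ((A₀.map N.subtype : Subgroup G) : Set G)).index ∣ A₀.index := by
  classical
  set B : Subgroup G := A₀.map N.subtype with hB
  set M := Subgroup.normalizer (B : Set G) with hM
  have hBN : B ≤ N := by
    rintro _ ⟨a, _, rfl⟩
    exact a.2
  have hcardB : Nat.card B = Nat.card A₀ := card_map_sub A₀
  -- Frattini
  have hfrat : ∀ g : G, ∃ c ∈ N, c⁻¹ * g ∈ M := by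
    intro g
    have hle : MulAut.conj g • B ≤ N := by
      intro y hy
      rw [Subgroup.mem_pointwise_smul_iff_inv_smul_mem] at hy
      have h1 := hBN hy
      have h2 := hN.conj_mem _ h1 g
      have h3 : g * ((MulAut.conj g)⁻¹ • y) * g⁻¹ = y := by
        show g * ((MulAut.conj g)⁻¹ y) * g⁻¹ = y
        rw [MulAut.conj_inv_apply]
        group
      rwa [h3] at h2
    let K : Subgroup N := (MulAut.conj g • B).subgroupOf N
    have hcardK : Nat.card K = Nat.card A₀ := by
      have h1 : Nat.card K = Nat.card (MulAut.conj g • B : Subgroup G) :=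
        Nat.card_congr (Subgroup.subgroupOfEquivOfLe hle).toEquiv
      have h2 : Nat.card (MulAut.conj g • B : Subgroup G) = Nat.card B :=
        Nat.card_congr (Subgroup.equivSMul (MulAut.conj g) B).symm.toEquiv
      rw [h1, h2, hcardB]
    obtain ⟨c, hc⟩ := Cfsg.Agent.S0581.result A₀ K (nilp_of_comm A₀ hA₀.comm) (hall_coprime hA₀)
      (fun p _ h => by rwa [hcardK] at h)
    refine ⟨c, c.2, ?_⟩
    apply mem_normalizer_of_conj_mem
    intro b hb
    have h1 : g * b * g⁻¹ ∈ MulAut.conj g • B := by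
      rw [Subgroup.mem_pointwise_smul_iff_inv_smul_mem]
      have h2 : (MulAut.conj g)⁻¹ • (g * b * g⁻¹) = b := by
        show (MulAut.conj g)⁻¹ (g * b * g⁻¹) = b
        rw [MulAut.conj_inv_apply]
        group
      rwa [h2]
    have h2 : (⟨g * b * g⁻¹, hle h1⟩ : N) ∈ K := h1
    have h3 := hc h2
    rw [Subgroup.mem_pointwise_smul_iff_inv_smul_mem] at h3
    have h4 : (c : G)⁻¹ * g * b * (((c : G)⁻¹ * g)⁻¹) =
        (((MulAut.conj c)⁻¹ • (⟨g * b * g⁻¹, hle h1⟩ : N) : N) : G) := by
      show _ = (((MulAut.conj c)⁻¹ (⟨g * b * g⁻¹, hle h1⟩ : N) : N) : G)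
      rw [MulAut.conj_inv_apply]
      simp only [Subgroup.coe_mul, InvMemClass.coe_inv]
      group
    have h5 : ((c : G)⁻¹ * g) * b * ((c : G)⁻¹ * g)⁻¹ = (c : G)⁻¹ * g * b * (((c : G)⁻¹ * g)⁻¹) := rfl
    rw [h5, h4]
    exact ⟨_, h3, rfl⟩
  have hsup : M ⊔ N = ⊤ := by
    rw [eq_top_iff]
    intro g _
    obtain ⟨c, hc, hcg⟩ := hfrat g
    have h4 := mul_mem ((le_sup_right : N ≤ M ⊔ N) hc) ((le_sup_left : M ≤ M ⊔ N) hcg)
    have h3 : c * (c⁻¹ * g) = g := by group
    rwa [h3] at h4
  have h1 : (M ⊓ N).relIndex M = N.index := by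
    rw [Subgroup.inf_relIndex_left, ← Subgroup.relIndex_sup_right, hsup, Subgroup.relIndex_top_right]
  set I := M ⊓ N with hI
  have hIM : I ≤ M := inf_le_left
  have hcardM : Nat.card I * I.relIndex M = Nat.card M := by
    have h2 := Subgroup.card_mul_index (I.subgroupOf M)
    have h3 : Nat.card (I.subgroupOf M) = Nat.card I :=
      Nat.card_congr (Subgroup.subgroupOfEquivOfLe hIM).toEquiv
    rw [h3] at h2
    exact h2
  have h2 := Subgroup.card_mul_index N
  have h3 := Subgroup.card_mul_index M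
  have h4 : Nat.card N = Nat.card I * M.index := by
    rw [← hcardM, h1] at h3
    rw [← h3] at h2
    have h5 : 0 < N.index := Nat.pos_of_ne_zero (Subgroup.index_ne_zero_of_finite)
    apply Nat.eq_of_mul_eq_mul_right h5
    rw [h2]
    ring
  have hBI : B ≤ I := le_inf Subgroup.le_normalizer hBN
  have h5 : Nat.card B * B.relIndex I = Nat.card I := by
    have h6 := Subgroup.card_mul_index (B.subgroupOf I)
    have h7 : Nat.card (B.subgroupOf I) = Nat.card B :=
      Nat.card_congr (Subgroup.subgroupOfEquivOfLe hBI).toEquiv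
    rw [h7] at h6
    exact h6
  have h6 := Subgroup.card_mul_index A₀
  have h7 : A₀.index = B.relIndex I * M.index := by
    rw [h4, ← h5, hcardB, mul_assoc] at h6
    exact (Nat.eq_of_mul_eq_mul_left Nat.card_pos h6).symm ▸ rfl
  rw [h7]
  exact dvd_mul_left _ _

/-- The non-perfect case. -/
theorem nonperfect_case {m : ℕ} (ρ : Representation ℂ G (Fin m → ℂ)) (hmn : m ≤ n)
    (hρ : Function.Injective ρ)
    (IHsub : ∀ L : Subgroup G, L ≠ ⊤ → ∃ A : Subgroup L, IsHall' n A)
    (hidx : ∀ L : Subgroup G, L ≠ ⊤ → ∃ q : ℕ, q.Prime ∧ n + 1 < q ∧ q ∣ L.index)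
    (hperf : commutator G ≠ ⊤) : ∃ A : Subgroup G, IsHall' n A := by
  classical
  set N := commutator G with hNdef
  haveI hNn : N.Normal := by rw [hNdef]; infer_instance
  obtain ⟨A₀, hA₀⟩ := IHsub N hperf
  set B : Subgroup G := A₀.map N.subtype with hB
  have hBN : B ≤ N := by
    rintro _ ⟨a, _, rfl⟩
    exact a.2
  have hcardB : Nat.card B = Nat.card A₀ := card_map_sub A₀
  have hBc : ∀ a ∈ B, ∀ b ∈ B, a * b = b * a := by
    rintro _ ⟨a, ha, rfl⟩ _ ⟨b, hb, rfl⟩
    exact congrArg Subtype.val (hA₀.comm a ha b hb)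
  -- `B` is normal
  have hMtop : Subgroup.normalizer (B : Set G) = ⊤ := by
    by_contra hne
    obtain ⟨q, hq, hqn, hd⟩ := hidx _ hne
    have h1 := hA₀.index q hq (hd.trans (normalizer_index_dvd N A₀ hA₀))
    omega
  haveI hBn : B.Normal := Subgroup.normalizer_eq_top_iff.mp hMtop
  -- `B` is central
  have hCtop : Subgroup.centralizer (B : Set G) = ⊤ := by
    by_contra hne
    obtain ⟨q, hq, hqn, hd⟩ := hidx _ hne
    haveI := Fact.mk hq
    obtain ⟨Q⟩ : Nonempty (Sylow q G) := Sylow.nonempty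
    have hQC : (Q : Subgroup G) ≤ Subgroup.centralizer (B : Set G) := by
      intro x hx
      obtain ⟨k, hk⟩ := Q.isPGroup' ⟨x, hx⟩
      have hk' : x ^ (q ^ k) = 1 := congrArg Subtype.val hk
      rw [Subgroup.mem_centralizer_iff]
      intro b hb
      exact (comm_of_normal ρ hρ hq (by omega) B hBc x k hk' b hb).symm
    have h1 := Subgroup.index_dvd_of_le hQC
    exact Q.not_dvd_index (hd.trans h1)
  have hBcentral : ∀ b ∈ B, b ∈ Subgroup.center G := by
    intro b hb
    rw [Subgroup.mem_center_iff]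
    intro g
    have h1 : g ∈ Subgroup.centralizer (B : Set G) := by rw [hCtop]; trivial
    rw [Subgroup.mem_centralizer_iff] at h1
    exact (h1 b hb).symm
  -- `B` is trivial
  have hA₀1 : Nat.card A₀ = 1 := by
    by_contra hne
    obtain ⟨t, ht, htd⟩ := Nat.exists_prime_and_dvd hne
    have htn := hA₀.primes t ht htd
    rw [← hcardB] at htd
    haveI := Fact.mk ht
    obtain ⟨z, hz⟩ := exists_prime_orderOf_dvd_card' t htd
    have hz' : orderOf (z : G) = t := by rw [Subgroup.orderOf_coe, hz]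
    exact central_false ρ hρ ht (by omega) (z : G) (hBN z.2) (hBcentral z z.2) hz'
  have hNp : ∀ q : ℕ, q.Prime → q ∣ Nat.card N → q ≤ n + 1 := by
    intro q hq hd
    have h1 := Subgroup.card_mul_index A₀
    rw [hA₀1, one_mul] at h1
    rw [← h1] at hd
    exact hA₀.index q hq hd
  -- the quotient is a `π`-group
  have hGp : ∀ p : ℕ, p.Prime → p ∣ N.index → n + 1 < p := by
    intro p hp hd
    by_contra hcon
    haveI := Fact.mk hp
    have hcardQ : Nat.card (Abelianization G) = N.index := rfl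
    rw [← hcardQ] at hd
    let f : Abelianization G →* Abelianization G := powMonoidHom p
    have hkerp : IsPGroup p f.ker := by
      rintro ⟨y, hy⟩
      refine ⟨1, Subtype.ext ?_⟩
      have h1 : y ^ p = 1 := hy
      simpa using h1
    let R : Subgroup (Abelianization G) := f.range
    have hRidx : R.index = Nat.card f.ker := by
      have h1 := Subgroup.card_mul_index R
      have h2 := Subgroup.card_mul_index f.ker
      have h3 : f.ker.index = Nat.card f.range := Subgroup.index_ker f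
      rw [h3] at h2
      have h4 : Nat.card R = Nat.card f.range := rfl
      rw [← h4, ← h1, mul_comm] at h2
      exact (Nat.eq_of_mul_eq_mul_left Nat.card_pos h2).symm
    let L : Subgroup G := R.comap (Abelianization.of)
    have hLidx : L.index = R.index :=
      Subgroup.index_comap_of_surjective _ (QuotientGroup.mk'_surjective (commutator G))
    obtain ⟨y, hy⟩ := exists_prime_orderOf_dvd_card' p hd
    have hyker : y ∈ f.ker := by
      show y ^ p = 1
      rw [← hy]
      exact pow_orderOf_eq_one y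
    have hkerne : Nat.card f.ker ≠ 1 := by
      intro h1
      have h2 := (Subgroup.card_eq_one).mp h1
      rw [h2, Subgroup.mem_bot] at hyker
      rw [hyker, orderOf_one] at hy
      exact hp.ne_one hy.symm
    have hLne : L ≠ ⊤ := by
      intro h1
      rw [h1, Subgroup.index_top, hRidx] at hLidx
      exact hkerne hLidx.symm
    obtain ⟨q, hq, hqn, hqd⟩ := hidx L hLne
    rw [hLidx, hRidx] at hqd
    obtain ⟨j, hj⟩ := IsPGroup.iff_card.mp hkerp
    rw [hj] at hqd
    have h1 := (Nat.prime_dvd_prime_iff_eq hq hp).mp (hq.dvd_of_dvd_pow hqd)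
    omega
  have hcop : Nat.Coprime (Nat.card N) N.index := by
    apply Nat.coprime_of_dvd
    intro k hk h1 h2
    have h3 := hNp k hk h1
    have h4 := hGp k hk h2
    omega
  obtain ⟨H, hH⟩ := Subgroup.exists_right_complement'_of_coprime hcop
  have hc1 : Nat.card N * Nat.card H = Nat.card G := hH.card_mul_card
  have hc2 := Subgroup.card_mul_index N
  have hc3 := Subgroup.card_mul_index H
  have hcH : Nat.card H = N.index := by
    rw [← hc2] at hc1
    exact Nat.eq_of_mul_eq_mul_left Nat.card_pos hc1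
  have hiH : H.index = Nat.card N := by
    rw [← hc1, mul_comm (Nat.card H) H.index] at hc3
    exact Nat.eq_of_mul_eq_mul_right Nat.card_pos hc3
  refine ⟨H, ?_, ?_, ?_⟩
  · intro a ha b hb
    have h1 : a * b * a⁻¹ * b⁻¹ ∈ N := Subgroup.commutator_mem_commutator (Subgroup.mem_top a) (Subgroup.mem_top b)
    have h2 : a * b * a⁻¹ * b⁻¹ ∈ H := mul_mem (mul_mem (mul_mem ha hb) (inv_mem ha)) (inv_mem hb)
    have h3 := Subgroup.disjoint_def.mp hH.disjoint h1 h2
    have h4 : a * b * a⁻¹ = b := eq_of_mul_inv_eq_one h3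
    rw [mul_inv_eq_iff_eq_mul] at h4
    exact h4
  · intro q hq hd
    rw [hcH] at hd
    exact hGp q hq hd
  · intro q hq hd
    rw [hiH] at hd
    exact hNp q hq hd

/-- Kernel dichotomy for the constituents of a faithful representation of a perfect group. -/
theorem ker_dichotomy {m : ℕ} (ρ : Representation ℂ G (Fin m → ℂ)) (hmn : m ≤ n)
    (IHtype : ∀ (H : Type u) [Group H] [Finite H], Nat.card H < Nat.card G → LinDeg n H →
      ∃ A : Subgroup H, IsHall' n A)
    (hidx : ∀ L : Subgroup G, L ≠ ⊤ → ∃ q : ℕ, q.Prime ∧ n + 1 < q ∧ q ∣ L.index)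
    (hperf : commutator G = ⊤) {θ : G → ℂ} (hθ : IsIrrCharacter G θ)
    (hdeg : charDegree θ ≤ m) :
    (∀ g, θ g = θ 1 → g = 1) ∨ ∀ g, θ g = θ 1 := by
  classical
  have hθc := IsIrrCharacter.isCharacter hθ
  by_cases hf : ∀ g, θ g = θ 1 → g = 1
  · exact Or.inl hf
  right
  let K : Subgroup G := charKer hθc
  haveI hKn : K.Normal := charKer_normal hθc
  have hKne : K ≠ ⊥ := by
    intro h0
    apply hf
    intro g hg
    have h1 : g ∈ K := (mem_charKer hθc).mpr hg
    rw [h0, Subgroup.mem_bot] at h1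
    exact h1
  have hcardlt : Nat.card (G ⧸ K) < Nat.card G := by
    have h1 := Subgroup.card_mul_index K
    have h2 : 1 < Nat.card K := by
      rw [Finite.one_lt_card_iff_nontrivial]
      exact (Subgroup.nontrivial_iff_ne_bot K).mpr hKne
    have h3 : Nat.card (G ⧸ K) = K.index := rfl
    have h4 : 0 < K.index := Nat.pos_of_ne_zero Subgroup.index_ne_zero_of_finite
    rw [h3]
    nlinarith
  obtain ⟨χ', hχ', hθθ'⟩ := exists_quotient_irr K hθ (fun x hx => (mem_charKer hθc).mp hx)
  have hL : LinDeg n (G ⧸ K) := by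
    obtain ⟨d, ρ', hirr', rfl⟩ := hχ'
    refine ⟨d, ρ', ?_, ?_⟩
    · have h1 : ρ'.character 1 = d := char_one_eq_rep ρ'
      have h2 := hθθ' 1
      rw [QuotientGroup.mk_one, h1] at h2
      have h3 : charDegree θ = d := by
        unfold charDegree
        rw [← h2]
        simp
      omega
    · rw [injective_iff_map_eq_one]
      intro y hy
      induction y using QuotientGroup.induction_on with
      | H y =>
        have h1 : ρ'.character (y : G ⧸ K) = ρ'.character 1 := by
          simp [Representation.character, hy]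
        rw [hθθ', ← QuotientGroup.mk_one, hθθ'] at h1
        rw [QuotientGroup.eq_one_iff]
        exact (mem_charKer hθc).mpr h1
  obtain ⟨Ā, hĀ⟩ := IHtype _ hcardlt hL
  let L : Subgroup G := Ā.comap (QuotientGroup.mk' K)
  have hLidx : L.index = Ā.index :=
    Subgroup.index_comap_of_surjective _ (QuotientGroup.mk'_surjective K)
  have hLtop : L = ⊤ := by
    by_contra hne
    obtain ⟨q, hq, hqn, hd⟩ := hidx L hne
    rw [hLidx] at hd
    have := hĀ.index q hq hd
    omega
  have hKtop : K = ⊤ := by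
    rw [eq_top_iff, ← hperf, commutator_def, Subgroup.commutator_le]
    intro a _ b _
    have ha : (a : G ⧸ K) ∈ Ā := by
      have : a ∈ L := by rw [hLtop]; trivial
      exact this
    have hb : (b : G ⧸ K) ∈ Ā := by
      have : b ∈ L := by rw [hLtop]; trivial
      exact this
    have h1 := hĀ.comm _ ha _ hb
    rw [commutatorElement_def, ← QuotientGroup.eq_one_iff]
    rw [QuotientGroup.mk_mul, QuotientGroup.mk_mul, QuotientGroup.mk_mul, h1, QuotientGroup.mk_inv,
      QuotientGroup.mk_inv]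
    group
  intro g
  have h1 : g ∈ K := by rw [hKtop]; trivial
  exact (mem_charKer hθc).mp h1

/-- The perfect case. -/
theorem perfect_case {m : ℕ} (ρ : Representation ℂ G (Fin m → ℂ)) (hmn : m ≤ n)
    (hρ : Function.Injective ρ)
    (IHsub : ∀ L : Subgroup G, L ≠ ⊤ → ∃ A : Subgroup L, IsHall' n A)
    (IHtype : ∀ (H : Type u) [Group H] [Finite H], Nat.card H < Nat.card G → LinDeg n H →
      ∃ A : Subgroup H, IsHall' n A)
    (hidx : ∀ L : Subgroup G, L ≠ ⊤ → ∃ q : ℕ, q.Prime ∧ n + 1 < q ∧ q ∣ L.index)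
    (hperf : commutator G = ⊤) : ∃ A : Subgroup G, IsHall' n A := by
  classical
  letI := Fintype.ofFinite G
  have hcentral : ∀ (z : G) (q : ℕ), q.Prime → m < q → z ∈ Subgroup.center G → orderOf z = q → False := by
    intro z q hq hlt hz hzq
    exact central_false ρ hρ hq hlt z (by rw [hperf]; trivial) hz hzq
  have hχ : IsCharacter G ρ.character := ⟨m, ρ, rfl⟩
  obtain ⟨mm, hmm⟩ := exists_nat_decomp hχ
  have hnn : (∑ i, mm i • (i : G → ℂ)) 1 = (m : ℂ) := by
    rw [← hmm]
    exact char_one_eq_rep ρ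
  by_cases htriv : ∀ θ : IrrCharacter G, mm θ ≠ 0 → ∀ g, (θ : G → ℂ) g = (θ : G → ℂ) 1
  · -- the group is trivial
    have hall : ∀ g : G, g = 1 := by
      intro g
      apply eq_one_of_char_eq ρ hρ
      rw [hmm]
      simp only [Finset.sum_apply, Pi.smul_apply]
      refine Finset.sum_congr rfl fun i _ => ?_
      by_cases hi : mm i = 0
      · simp [hi]
      · rw [htriv i hi g]
    refine ⟨⊤, ?_, ?_, ?_⟩
    · intro x _ y _
      rw [hall x, hall y]
    · intro q hq hd
      have h1 : Nat.card (⊤ : Subgroup G) = 1 := by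
        rw [Nat.card_eq_one_iff_unique]
        exact ⟨⟨fun a b => Subtype.ext (by rw [hall a, hall b])⟩, ⟨1⟩⟩
      rw [h1] at hd
      exact absurd (Nat.dvd_one.mp hd) hq.ne_one
    · intro q hq hd
      rw [Subgroup.index_top] at hd
      exact absurd (Nat.dvd_one.mp hd) hq.ne_one
  push Not at htriv
  obtain ⟨θ, hθm, g₀, hg₀⟩ := htriv
  have hdeg : charDegree (θ : G → ℂ) ≤ m := degree_le_of_constituent mm hnn θ hθm
  have hfaith : ∀ g, (θ : G → ℂ) g = (θ : G → ℂ) 1 → g = 1 := by
    rcases ker_dichotomy ρ hmn IHtype hidx hperf θ.2 hdeg with h | h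
    · exact h
    · exact absurd (h g₀) hg₀
  obtain ⟨d, ρ₁, hirr₁, hθ₁⟩ := θ.2
  have hρ₁ : Function.Injective ρ₁ := by
    rw [injective_iff_map_eq_one]
    intro y hy
    apply hfaith
    rw [← hθ₁]
    simp [Representation.character, hy]
  have hdm : d ≤ m := by
    have h1 : ρ₁.character 1 = d := char_one_eq_rep ρ₁
    have h3 : charDegree (θ : G → ℂ) = d := by
      unfold charDegree
      rw [← hθ₁, h1]
      simp
    omega
  -- a largest abelian `π`-subgroup
  obtain ⟨A, ⟨hAc, hAp⟩, hAmax⟩ := Set.exists_max_image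
    {A : Subgroup G | (∀ x ∈ A, ∀ y ∈ A, x * y = y * x) ∧
      ∀ q : ℕ, q.Prime → q ∣ Nat.card A → n + 1 < q}
    (fun A => Nat.card A) (Set.toFinite _)
    ⟨⊥, by
      constructor
      · intro x hx y hy
        rw [Subgroup.mem_bot] at hx hy
        rw [hx, hy]
      · intro q hq hd
        rw [Subgroup.card_bot] at hd
        exact absurd (Nat.dvd_one.mp hd) hq.ne_one⟩
  have hmax : ∀ B : Subgroup G, (∀ x ∈ B, ∀ y ∈ B, x * y = y * x) →
      (∀ q : ℕ, q.Prime → q ∣ Nat.card B → n + 1 < q) → Nat.card B ≤ Nat.card A :=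
    fun B h1 h2 => hAmax B ⟨h1, h2⟩
  -- Step F2
  have hF2 : ∀ (y : G) (t : ℕ), y ∈ A → t.Prime → n + 1 < t → orderOf y = t →
      (A ≤ Subgroup.centralizer ({y} : Set G)) ∧ ∀ p : ℕ, p.Prime → n + 1 < p →
        ¬ p ∣ (A.subgroupOf (Subgroup.centralizer ({y} : Set G))).index := by
    intro y t hy ht htn hyt
    have hAC : A ≤ Subgroup.centralizer ({y} : Set G) := by
      intro a ha
      rw [Subgroup.mem_centralizer_singleton_iff]
      exact hAc a ha y hy
    refine ⟨hAC, ?_⟩
    have hCne : Subgroup.centralizer ({y} : Set G) ≠ ⊤ := by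
      intro h1
      apply hcentral y t ht (by omega) _ hyt
      rw [Subgroup.mem_center_iff]
      intro g
      have h2 : g ∈ Subgroup.centralizer ({y} : Set G) := by rw [h1]; trivial
      rw [Subgroup.mem_centralizer_singleton_iff] at h2
      exact h2
    obtain ⟨H, hH⟩ := IHsub _ hCne
    exact not_dvd_index_of_max A hAc hAp hmax _ hAC H hH
  -- Step F3
  have hF3 : ∀ t : ℕ, t.Prime → t ∣ Nat.card A → ¬ t ∣ A.index := by
    intro t ht htd
    have htn := hAp t ht htd
    haveI := Fact.mk ht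
    obtain ⟨z, hz⟩ := exists_prime_orderOf_dvd_card' t htd
    have hz' : orderOf (z : G) = t := by rw [Subgroup.orderOf_coe, hz]
    obtain ⟨hAC, hF⟩ := hF2 (z : G) t z.2 ht htn hz'
    have h1 : IsPGroup t (Subgroup.zpowers (z : G)) := by
      rw [IsPGroup.iff_card, Nat.card_zpowers, hz']
      exact ⟨1, (pow_one t).symm⟩
    obtain ⟨Q, hQ⟩ := h1.exists_le_sylow
    have hQc := pgroup_comm ρ hρ t ht (by omega) Q Q.isPGroup'
    have hQC : (Q : Subgroup G) ≤ Subgroup.centralizer ({(z : G)} : Set G) := by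
      intro a ha
      rw [Subgroup.mem_centralizer_singleton_iff]
      exact hQc a ha _ (hQ (Subgroup.mem_zpowers _))
    have h2 := Subgroup.relIndex_mul_index hAC
    rw [← h2]
    intro h3
    rcases ht.dvd_mul.mp h3 with h4 | h4
    · exact hF t ht htn h4
    · exact Q.not_dvd_index (h4.trans (Subgroup.index_dvd_of_le hQC))
  refine ⟨A, hAc, hAp, ?_⟩
  intro q hq hqd
  by_contra hqn
  have hqn' : n + 1 < q := by omega
  have hqnA : ¬ q ∣ Nat.card A := fun h => hF3 q hq h hqd
  have hqG : q ∣ Nat.card G := by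
    rw [← Subgroup.card_mul_index A]
    exact Dvd.dvd.mul_left hqd _
  haveI := Fact.mk hq
  -- `A` is not trivial
  have hA1 : Nat.card A ≠ 1 := by
    intro h1
    obtain ⟨x, hx⟩ := exists_prime_orderOf_dvd_card' q hqG
    have h2 := hmax (Subgroup.zpowers x)
      (fun a ha b hb => by
        haveI : IsCyclic (Subgroup.zpowers x) := inferInstance
        obtain ⟨i, rfl⟩ := Subgroup.mem_zpowers_iff.mp ha
        obtain ⟨j, rfl⟩ := Subgroup.mem_zpowers_iff.mp hb
        exact (Commute.zpow_zpow_self x i j).eq)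
      (fun r hr hd => by
        rw [Nat.card_zpowers, hx] at hd
        have := (Nat.prime_dvd_prime_iff_eq hr hq).mp hd
        omega)
    rw [Nat.card_zpowers, hx, h1] at h2
    have := hq.one_lt
    omega
  obtain ⟨t, ht, htd⟩ := Nat.exists_prime_and_dvd hA1
  have htn := hAp t ht htd
  have hqt : q ≠ t := by
    rintro rfl
    exact hqnA htd
  have htG : t ∣ Nat.card G := htd.trans (Subgroup.card_subgroup_dvd_card A)
  obtain ⟨x, y, hx, hy, hxy⟩ := pair ρ₁ hirr₁ hρ₁ hq ht hqt (by omega) (by omega) hqG htG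
  haveI := Fact.mk ht
  have hyp : IsPGroup t (Subgroup.zpowers y) := by
    rw [IsPGroup.iff_card, Nat.card_zpowers, hy]
    exact ⟨1, (pow_one t).symm⟩
  obtain ⟨g, hg⟩ := Cfsg.Agent.Lib.Hall.exists_conj_le_of_not_dvd_index hyp (hF3 t ht htd)
  have hy1 := hg (Subgroup.mem_zpowers y)
  rw [Subgroup.mem_pointwise_smul_iff_inv_smul_mem] at hy1
  set y' : G := (MulAut.conj g)⁻¹ y with hy'
  have hy'A : y' ∈ A := hy1
  set x' : G := (MulAut.conj g)⁻¹ x with hx'
  have hoy : orderOf y' = t := by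
    rw [hy', MulEquiv.orderOf_eq, hy]
  have hox : orderOf x' = q := by
    rw [hx', MulEquiv.orderOf_eq, hx]
  have hcomm : x' * y' = y' * x' := by
    rw [hx', hy', ← map_mul, ← map_mul, hxy.eq]
  obtain ⟨hAC, hF⟩ := hF2 y' t hy'A ht htn hoy
  set C := Subgroup.centralizer ({y'} : Set G) with hC
  have hx'C : x' ∈ C := by
    rw [hC, Subgroup.mem_centralizer_singleton_iff]
    exact hcomm
  have hqC : q ∣ Nat.card C := by
    have h1 : orderOf (⟨x', hx'C⟩ : C) = q := by
      rw [← hox]
      exact Subgroup.orderOf_mk x' hx'C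
    rw [← h1]
    exact orderOf_dvd_natCard _
  rw [← Subgroup.card_mul_index (A.subgroupOf C)] at hqC
  rcases hq.dvd_mul.mp hqC with h1 | h1
  · apply hqnA
    have h2 : Nat.card (A.subgroupOf C) = Nat.card A :=
      Nat.card_congr (Subgroup.subgroupOfEquivOfLe hAC).toEquiv
    rwa [h2] at h1
  · exact hF q hq hqn' h1

/-- The main theorem. -/
theorem main (n : ℕ) (N : ℕ) : ∀ (G : Type u) [Group G] [Finite G], Nat.card G = N → LinDeg n G →
    ∃ A : Subgroup G, IsHall' n A := by
  induction N using Nat.strong_induction_on with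
  | _ N ih =>
    intro G _ _ hcard hL
    classical
    obtain ⟨m, ρ, hmn, hρ⟩ := hL
    have IHtype : ∀ (H : Type u) [Group H] [Finite H], Nat.card H < Nat.card G → LinDeg n H →
        ∃ A : Subgroup H, IsHall' n A := by
      intro H _ _ hH hLH
      exact ih _ (by omega) H rfl hLH
    have IHsub : ∀ L : Subgroup G, L ≠ ⊤ → ∃ A : Subgroup L, IsHall' n A := by
      intro L hL
      have hlt' : Nat.card L < Nat.card G := by
        rw [← Subgroup.card_mul_index L]
        have h1 := Subgroup.one_lt_index_of_ne_top hL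
        have h2 : 0 < Nat.card L := Nat.card_pos
        nlinarith
      exact IHtype L hlt' ⟨m, ρ.comp L.subtype, hmn, hρ.comp L.subtype_injective⟩
    by_cases hidx : ∃ L : Subgroup G, L ≠ ⊤ ∧ ∀ q : ℕ, q.Prime → n + 1 < q → ¬ q ∣ L.index
    · obtain ⟨L, hL, hq⟩ := hidx
      obtain ⟨A, hA⟩ := IHsub L hL
      exact ⟨A.map L.subtype, isHall_map L A hA hq⟩
    · push Not at hidx
      have hidx' : ∀ L : Subgroup G, L ≠ ⊤ → ∃ q : ℕ, q.Prime ∧ n + 1 < q ∧ q ∣ L.index := by
        intro L hL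
        obtain ⟨q, hq, h1, h2⟩ := hidx L hL
        exact ⟨q, hq, h1, h2⟩
      by_cases hperf : commutator G = ⊤
      · exact perfect_case ρ hmn hρ IHsub IHtype hidx' hperf
      · exact nonperfect_case ρ hmn hρ IHsub hidx' hperf

end Main

theorem result {G : Type*} [Group G] [Finite G] (χ : G → ℂ) (hχ : Cfsg.IsCharacter G χ) (hfaith : ∀ g : G, χ g = χ 1 → g = 1) (n : ℕ) (hn : Cfsg.charDegree χ = n) : ∃ A : Subgroup G, (∀ x ∈ A, ∀ y ∈ A, x * y = y * x) ∧ (∀ q : ℕ, q.Prime → q ∣ Nat.card A → n + 1 < q) ∧ ∀ q : ℕ, q.Prime → q ∣ A.index → q ≤ n + 1 := by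
  obtain ⟨m, ρ, rfl⟩ := hχ
  have hm : m = n := by
    rw [← hn]
    unfold charDegree
    rw [char_one_eq_rep ρ]
    simp
  have hρ : Function.Injective ρ := by
    rw [injective_iff_map_eq_one]
    intro y hy
    apply hfaith
    simp [Representation.character, hy]
  obtain ⟨A, hA⟩ := main n _ G rfl ⟨m, ρ, hm.le, hρ⟩
  exact ⟨A, hA.comm, hA.primes, hA.index⟩

end Cfsg.Agent.S4465
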