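-- Statement S4470: Jordan's theorem with the bound 12 ^ n on abelian subgroups.
import Mathlib
import Cfsg.Statements.S4470
import Cfsg.Agent.Lib.Blichfeldt

set_option autoImplicit false
open Cfsg

namespace Cfsg.Agent.S4470

/-- Let the finite group G have a faithful character of degree n. Then G has an abelian normal subgroup A such that every abelian subgroup H of G satisfies [H : H ⊓ A] ≤ 12^n. -/
theorem result {G : Type*} [Group G] [Finite G] (χ : G → ℂ) (hχ : Cfsg.IsCharacter G χ) (hfaith : ∀ g : G, χ g = χ 1 → g = 1) (n : ℕ) (hn : Cfsg.charDegree χ = n) : ∃ A : Subgroup G, A.Normal ∧ (∀ x ∈ A, ∀ y ∈ A, x * y = y * x) ∧ ∀ H : Subgroup G, (∀ x ∈ H, ∀ y ∈ H, x * y = y * x) → (A.subgroupOf H).index ≤ 12 ^ n := by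
  obtain ⟨m, ρ, rfl⟩ := hχ
  have hm : Module.finrank ℂ (Fin m → ℂ) = n := by
    have h1 : ρ.character 1 = (m : ℂ) := by
      rw [Representation.char_one]
      simp
    have h2 : Cfsg.charDegree ρ.character = m := by
      unfold Cfsg.charDegree
      rw [h1]
      simp
    rw [h2] at hn
    simp [hn]
  have hinj : ∀ a b : G, ρ a = ρ b → a = b := by
    intro a b hab
    have h1 : ρ (a⁻¹ * b) = 1 := by
      rw [map_mul, ← hab, ← map_mul]
      simp
    have h2 : ρ.character (a⁻¹ * b) = ρ.character 1 := by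
      show LinearMap.trace ℂ _ (ρ (a⁻¹ * b)) = LinearMap.trace ℂ _ (ρ 1)
      rw [h1, map_one ρ]
    have h3 := hfaith _ h2
    rw [inv_mul_eq_one] at h3
    exact h3
  obtain ⟨A, hA, -, hc, hb⟩ := Cfsg.Agent.Lib.Blichfeldt.jordan_main n G (Fin m → ℂ) ρ hm
  refine ⟨A, hA, ?_, ?_⟩
  · intro x hx y hy
    apply hinj
    rw [map_mul, map_mul]
    exact hc x hx y hy
  · intro H hH
    exact hb H H.subtype (fun a b => by
      have h1 : (a : G) * b = b * a := hH a a.2 b b.2
      show ρ (a : G) * ρ (b : G) = ρ (b : G) * ρ (a : G)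
      rw [← map_mul, ← map_mul, h1])

end Cfsg.Agent.S4470
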