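import Mathlib
import Cfsg.Statements.S4469
import Cfsg.Agent.S4465
import Cfsg.Agent.S4470
import Cfsg.Agent.Lib.MonoAbel

set_option autoImplicit false

open Cfsg

namespace Cfsg.Agent.S4469

/-- A product of prime powers dividing `z` divides `z`. -/
theorem prod_ppow_dvd (s : Finset ℕ) (hs : ∀ p ∈ s, p.Prime) (e : ℕ → ℕ) (z : ℕ)
    (h : ∀ p ∈ s, p ^ e p ∣ z) : ∏ p ∈ s, p ^ e p ∣ z := by
  classical
  induction s using Finset.induction_on with
  | empty => simp
  | insert a s ha ih =>
    rw [Finset.prod_insert ha]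
    refine Nat.Coprime.mul_dvd_of_dvd_of_dvd ?_ (h a (Finset.mem_insert_self a s))
      (ih (fun p hp => hs p (Finset.mem_insert_of_mem hp))
        (fun p hp => h p (Finset.mem_insert_of_mem hp)))
    refine Nat.Coprime.prod_right fun p hp => ?_
    refine Nat.Coprime.pow _ _ ?_
    refine (Nat.coprime_primes (hs a (Finset.mem_insert_self a s))
      (hs p (Finset.mem_insert_of_mem hp))).mpr ?_
    rintro rfl
    exact ha hp

/-- The classical bound for finite linear groups, in explicit form. Let the finite group G have a faithful character of degree n. Then G has an abelian normal subgroup whose index is at most n! · 12^(n·(π(n+1)+1)), π(k) denoting the number of primes not exceeding k. -/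
theorem result {G : Type*} [Group G] [Finite G] (χ : G → ℂ) (hχ : Cfsg.IsCharacter G χ) (hfaith : ∀ g : G, χ g = χ 1 → g = 1) (n : ℕ) (hn : Cfsg.charDegree χ = n) : ∃ A : Subgroup G, A.Normal ∧ (∀ x ∈ A, ∀ y ∈ A, x * y = y * x) ∧ A.index ≤ Nat.factorial n * 12 ^ (n * (Nat.primeCounting (n + 1) + 1)) := by
  classical
  obtain ⟨A, hAn, hAc, hAb⟩ := Cfsg.Agent.S4470.result χ hχ hfaith n hn
  obtain ⟨H, hHc, hHp, hHi⟩ := Cfsg.Agent.S4465.result χ hχ hfaith n hn
  refine ⟨A, hAn, hAc, ?_⟩
  haveI := hAn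
  set I := A.index with hI
  have hI0 : I ≠ 0 := Subgroup.index_ne_zero_of_finite
  have hpart : ∀ (K : Subgroup G) (p : ℕ), p.Prime → ¬ p ∣ K.index →
      p ^ (I.factorization p) ∣ A.relIndex K := by
    intro K p hp hpK
    have h1 : I = A.relIndex K * (K ⊔ A).index := by
      rw [← Subgroup.relIndex_sup_right (H := K) (K := A),
        Subgroup.relIndex_mul_index (le_sup_right : A ≤ K ⊔ A)]
    have h2 : (K ⊔ A).index ∣ K.index := Subgroup.index_dvd_of_le le_sup_left
    have h3 : ¬ p ∣ (K ⊔ A).index := fun h => hpK (h.trans h2)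
    have h4 : p ^ (I.factorization p) ∣ I := Nat.ordProj_dvd I p
    have h5 : p ^ (I.factorization p) ∣ A.relIndex K * (K ⊔ A).index := by
      rw [← h1]
      exact h4
    exact (Nat.Coprime.pow_left _ ((Nat.Prime.coprime_iff_not_dvd hp).mpr h3)).dvd_of_dvd_mul_right h5
  -- small primes
  have hsmall : ∀ p ∈ I.primeFactors, ∃ c : ℕ, p ^ c ∣ n.factorial ∧
      p ^ (I.factorization p) ≤ p ^ c * 12 ^ n := by
    intro p hpI
    have hp : p.Prime := Nat.prime_of_mem_primeFactors hpI
    haveI : Fact p.Prime := ⟨hp⟩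
    let P : Sylow p G := default
    have hPn : Group.IsNilpotent (P : Subgroup G) := P.isPGroup'.isNilpotent
    have hχP : IsCharacter (P : Subgroup G) (fun h : (P : Subgroup G) => χ h) :=
      Cfsg.Agent.Lib.CharBasic.isCharacter_restrict _ hχ
    obtain ⟨D, hDc, hDi⟩ := Cfsg.Agent.Lib.MonoAbel.exists_abelian_sub hχP
      (fun g hg => Subtype.ext (hfaith _ hg))
    have hdeg : Cfsg.charDegree (fun h : (P : Subgroup G) => χ h) = n := hn
    rw [hdeg] at hDi
    have hDcard : D.index ∣ p ^ (Nat.card G).factorization p := by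
      have h1 : D.index ∣ Nat.card (P : Subgroup G) := Subgroup.index_dvd_card D
      rwa [Sylow.card_eq_multiplicity] at h1
    obtain ⟨c, -, hc⟩ := (Nat.dvd_prime_pow hp).mp hDcard
    refine ⟨c, by rw [← hc]; exact hDi, ?_⟩
    let D' : Subgroup G := D.map (P : Subgroup G).subtype
    have hD'c : ∀ x ∈ D', ∀ y ∈ D', x * y = y * x := by
      rintro _ ⟨a, ha, rfl⟩ _ ⟨b, hb, rfl⟩
      exact congrArg Subtype.val (hDc a ha b hb)
    have hD'P : D' ≤ (P : Subgroup G) := by
      rintro _ ⟨a, -, rfl⟩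
      exact a.2
    have hb1 : A.relIndex D' ≤ 12 ^ n := hAb D' hD'c
    have hD'i : D'.relIndex (P : Subgroup G) = D.index := by
      show (D'.subgroupOf (P : Subgroup G)).index = _
      have h0 : D'.subgroupOf (P : Subgroup G) = D :=
        Subgroup.comap_map_eq_self_of_injective (P : Subgroup G).subtype_injective D
      rw [h0]
    have hY : A ⊓ D' ≤ A ⊓ (P : Subgroup G) := inf_le_inf_left _ hD'P
    have h1 : (A ⊓ D').relIndex D' * D'.relIndex (P : Subgroup G) =
        (A ⊓ D').relIndex (P : Subgroup G) := Subgroup.relIndex_mul_relIndex _ _ _ inf_le_right hD'P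
    have h2 : (A ⊓ D').relIndex (A ⊓ (P : Subgroup G)) *
        (A ⊓ (P : Subgroup G)).relIndex (P : Subgroup G) = (A ⊓ D').relIndex (P : Subgroup G) :=
      Subgroup.relIndex_mul_relIndex _ _ _ hY inf_le_right
    rw [Subgroup.inf_relIndex_right] at h1 h2
    have h3 : A.relIndex (P : Subgroup G) ∣ A.relIndex D' * D.index := by
      rw [← hD'i, h1, ← h2]
      exact dvd_mul_left _ _
    have h4 : 0 < A.relIndex D' * D.index :=
      Nat.mul_pos (Nat.pos_of_ne_zero (Subgroup.index_ne_zero_of_finite))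
        (Nat.pos_of_ne_zero (Subgroup.index_ne_zero_of_finite))
    have h5 : A.relIndex (P : Subgroup G) ≤ A.relIndex D' * D.index := Nat.le_of_dvd h4 h3
    have h6 := hpart (P : Subgroup G) p hp P.not_dvd_index
    have h7 : p ^ (I.factorization p) ≤ A.relIndex (P : Subgroup G) :=
      Nat.le_of_dvd (Nat.pos_of_ne_zero (Subgroup.index_ne_zero_of_finite)) h6
    calc p ^ (I.factorization p) ≤ A.relIndex D' * D.index := h7.trans h5
      _ = D.index * A.relIndex D' := mul_comm _ _
      _ ≤ p ^ c * 12 ^ n := by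
        rw [hc]
        exact Nat.mul_le_mul_left _ hb1
  choose! c hc1 hc2 using hsmall
  -- decomposition
  have hprod : I = ∏ p ∈ I.primeFactors, p ^ I.factorization p := by
    conv_lhs => rw [← Nat.factorization_prod_pow_eq_self hI0]
    rfl
  let T₁ : Finset ℕ := I.primeFactors.filter (fun p => p ≤ n + 1)
  let T₂ : Finset ℕ := I.primeFactors.filter (fun p => ¬ p ≤ n + 1)
  have hsplit : I = (∏ p ∈ T₁, p ^ I.factorization p) * (∏ p ∈ T₂, p ^ I.factorization p) := by
    conv_lhs => rw [hprod]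
    exact (Finset.prod_filter_mul_prod_filter_not _ _ _).symm
  have hT₂ : ∏ p ∈ T₂, p ^ I.factorization p ≤ 12 ^ n := by
    have h1 : ∏ p ∈ T₂, p ^ I.factorization p ∣ A.relIndex H := by
      refine prod_ppow_dvd T₂ (fun p hp => Nat.prime_of_mem_primeFactors (Finset.mem_filter.mp hp).1)
        _ _ fun p hp => ?_
      have hpI := Finset.mem_filter.mp hp
      have hpp := Nat.prime_of_mem_primeFactors hpI.1
      refine hpart H p hpp fun hd => hpI.2 (hHi p hpp hd)
    have h2 := Nat.le_of_dvd (Nat.pos_of_ne_zero (Subgroup.index_ne_zero_of_finite)) h1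
    exact h2.trans (hAb H hHc)
  have hT₁c : ∏ p ∈ T₁, p ^ c p ∣ n.factorial :=
    prod_ppow_dvd T₁ (fun p hp => Nat.prime_of_mem_primeFactors (Finset.mem_filter.mp hp).1) _ _
      fun p hp => hc1 p (Finset.mem_filter.mp hp).1
  have hT₁card : T₁.card ≤ Nat.primeCounting (n + 1) := by
    rw [Nat.primeCounting, Nat.primeCounting', Nat.count_eq_card_filter_range]
    refine Finset.card_le_card ?_
    intro p hp
    have hpI := Finset.mem_filter.mp hp
    rw [Finset.mem_filter, Finset.mem_range]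
    exact ⟨by omega, Nat.prime_of_mem_primeFactors hpI.1⟩
  have hT₁ : ∏ p ∈ T₁, p ^ I.factorization p ≤
      n.factorial * 12 ^ (n * Nat.primeCounting (n + 1)) := by
    calc ∏ p ∈ T₁, p ^ I.factorization p ≤ ∏ p ∈ T₁, (p ^ c p * 12 ^ n) :=
          Finset.prod_le_prod' fun p hp => hc2 p (Finset.mem_filter.mp hp).1
      _ = (∏ p ∈ T₁, p ^ c p) * (12 ^ n) ^ T₁.card := by
          rw [Finset.prod_mul_distrib, Finset.prod_const]
      _ ≤ n.factorial * (12 ^ n) ^ Nat.primeCounting (n + 1) := by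
          refine Nat.mul_le_mul (Nat.le_of_dvd (Nat.factorial_pos n) hT₁c) ?_
          exact Nat.pow_le_pow_right (by positivity) hT₁card
      _ = _ := by rw [pow_mul]
  calc I = (∏ p ∈ T₁, p ^ I.factorization p) * (∏ p ∈ T₂, p ^ I.factorization p) := hsplit
    _ ≤ (n.factorial * 12 ^ (n * Nat.primeCounting (n + 1))) * 12 ^ n := Nat.mul_le_mul hT₁ hT₂
    _ = _ := by
      rw [mul_assoc, ← pow_add, Nat.mul_add, mul_one]

end Cfsg.Agent.S4469
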