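import Cfsg.Statements.S4472
import Mathlib
import Cfsg.Agent.Lib.PSolvFaith
import Cfsg.Agent.Lib.PSolvFaith2
import Cfsg.Agent.Lib.FieldDegP2

set_option autoImplicit false
set_option linter.style.haveILetI false
open Cfsg

namespace Cfsg.Agent.S4472

open Cfsg.Agent.Lib.CharBasic Cfsg.Agent.Lib.CharKernel Cfsg.Agent.Lib.CharAut
open Cfsg.Agent.Lib.PSolvFaith Cfsg.Agent.Lib.PSolvFaith2 Cfsg.Agent.Lib.FieldDegP2
open scoped ComplexConjugate

/-- Conjugation of `H` by a subgroup of its normalizer. -/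
noncomputable def conjOn {G : Type*} [Group G] (H P : Subgroup G)
    (hP : P ≤ Subgroup.normalizer (H : Set G)) : P →* MulAut H where
  toFun y :=
    { toFun := fun h => ⟨y * h * y⁻¹, (Subgroup.mem_normalizer_iff.mp (hP y.2) h).mp h.2⟩
      invFun := fun h => ⟨y⁻¹ * h * y, by
        have := (Subgroup.mem_normalizer_iff.mp (hP (P.inv_mem y.2)) h).mp h.2
        simpa using this⟩
      left_inv := fun h => Subtype.ext (by simp [mul_assoc])
      right_inv := fun h => Subtype.ext (by simp [mul_assoc])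
      map_mul' := fun a b => Subtype.ext (by simp [mul_assoc]) }
  map_one' := by
    ext h
    simp
  map_mul' := fun a b => by
    ext h
    simp [mul_assoc]

/-- Let the finite p-solvable group G have a faithful character of degree n, and let p^a be the index of O_p(G) in a Sylow p-subgroup of G (the p-part of [G : O_p(G)]). Then a ≤ Σ_{i ≥ 0} ⌊n / ((p − 1) p^i)⌋ (a finite sum; the terms vanish for p^i > n). -/
theorem result {G : Type*} [Group G] [Finite G] (χ : G → ℂ) (hχ : Cfsg.IsCharacter G χ) (hfaith : ∀ g : G, χ g = χ 1 → g = 1) (n : ℕ) (hn : Cfsg.charDegree χ = n) (p : ℕ) (hp : p.Prime) (hsolv : Cfsg.IsPSolvable p G) : ((Cfsg.pCore p G).index).factorization p ≤ ∑ i ∈ Finset.range (n + 1), n / ((p - 1) * p ^ i) := by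
  classical
  haveI : Fact p.Prime := ⟨hp⟩
  obtain ⟨H, P, hHp, hPN, hPp, hcent, hidx⟩ := exists_complement_data (p := p) hsolv
  let φ : P →* MulAut H := conjOn H P hPN
  have hφ : ∀ (y : P) (h : H), ((φ y h : H) : G) = y * h * y⁻¹ := fun _ _ => rfl
  let χH : H → ℂ := fun h => χ h
  have hχH : IsCharacter H χH := isCharacter_restrict H hχ
  letI : Fintype H := Fintype.ofFinite H
  letI : Fintype (IrrCharacter H) := Fintype.ofFinite _
  obtain ⟨m, hm⟩ := exists_nat_decomp hχH
  have hmm : ∀ i : IrrCharacter H, classInner χH i.1 = m i := by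
    intro i
    rw [hm]
    exact classInner_nat_decomp m i.1 i.2
  let Ω : Finset (IrrCharacter H) := Finset.univ.filter fun i => classInner χH i.1 ≠ 0
  have hmemΩ : ∀ i : IrrCharacter H, i ∈ Ω ↔ m i ≠ 0 := by
    intro i
    simp only [Ω, Finset.mem_filter, Finset.mem_univ, true_and, hmm]
    exact_mod_cast Iff.rfl
  have hχcl := isClassFunction_of_isCharacter hχ
  have hinvχ : ∀ (y : P) (h : H), χH (φ y h) = χH h := by
    intro y h
    show χ ((φ y h : H) : G) = χ h
    rw [hφ]
    exact hχcl _ _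
  have hΩ : ∀ y : P, ∀ θ ∈ Ω, irrAut (φ y) θ ∈ Ω := by
    intro y θ hθ
    simp only [Ω, Finset.mem_filter, Finset.mem_univ, true_and] at hθ ⊢
    have h1 : classInner χH (irrAut (φ y) θ).1 = classInner χH θ.1 := by
      unfold classInner
      congr 1
      rw [← Equiv.sum_comp (φ y).toEquiv]
      refine Finset.sum_congr rfl fun h _ => ?_
      have h2 : (irrAut (φ y) θ).1 ((φ y).toEquiv h) = θ.1 h := by
        show (irrAut (φ y) θ : H → ℂ) (φ y h) = _
        rw [irrAut_apply, MulEquiv.symm_apply_apply]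
      rw [h2]
      congr 1
      exact hinvχ y h
    rwa [h1]
  obtain ⟨τ, hτ, hτ1, hτk, hτker⟩ := exists_invariant_tau (p := p) φ hPp hHp Ω hΩ
  -- degrees
  have hdegτ : charDegree τ = ∑ θ ∈ Ω, charDegree θ.1 := by
    have h1 : ((charDegree τ : ℕ) : ℂ) = ((∑ θ ∈ Ω, charDegree θ.1 : ℕ) : ℂ) := by
      rw [← one_eq_charDegree hτ, hτ1]
      push_cast
      refine Finset.sum_congr rfl fun θ _ => ?_
      exact one_eq_charDegree (IsIrrCharacter.isCharacter θ.2)
    exact_mod_cast h1
  have hdegχ : n = ∑ i, m i * charDegree (i : H → ℂ) := by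
    rw [← Cfsg.Agent.Lib.PDegKernel71.charDegree_nat_decomp m hχH hm, ← hn]
    rfl
  have hle : charDegree τ ≤ n := by
    rw [hdegτ, hdegχ]
    calc ∑ i ∈ Ω, charDegree i.1
        ≤ ∑ i ∈ Ω, m i * charDegree i.1 := by
          refine Finset.sum_le_sum fun i hi => ?_
          have hmi : 1 ≤ m i := Nat.one_le_iff_ne_zero.mpr ((hmemΩ i).mp hi)
          exact Nat.le_mul_of_pos_left _ hmi
      _ ≤ ∑ i, m i * charDegree i.1 :=
          Finset.sum_le_sum_of_subset (Finset.subset_univ _)
  -- the kernel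
  let K : Subgroup P := charKer hτ
  have hKU : K ≤ (pCore p G).subgroupOf P := by
    intro y hy
    rw [Subgroup.mem_subgroupOf]
    apply hcent y y.2
    intro h hh
    have h1 : ∀ z : H, (∀ θ ∈ Ω, (θ : H → ℂ) z = (θ : H → ℂ) 1) → χH z = χH 1 := by
      intro z hz
      rw [hm, Finset.sum_apply, Finset.sum_apply]
      refine Finset.sum_congr rfl fun i _ => ?_
      by_cases hi : m i = 0
      · simp [hi]
      · simp only [Pi.smul_apply]
        rw [hz i ((hmemΩ i).mpr hi)]
    have h2 := h1 _ (fun θ hθ => hτker y ((mem_charKer hτ).mp hy) θ hθ ⟨h, hh⟩)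
    have h3 : ((φ y ⟨h, hh⟩ * (⟨h, hh⟩ : H)⁻¹ : H) : G) = 1 := hfaith _ h2
    have h4 : (y : G) * h * (y : G)⁻¹ * h⁻¹ = 1 := h3
    have h5 : (y : G) * h * (y : G)⁻¹ = h := by
      rwa [mul_inv_eq_one] at h4
    rw [mul_inv_eq_iff_eq_mul] at h5
    exact h5
  -- the quotient
  obtain ⟨τ', hτ', hτ'l⟩ := exists_quotient_char K hτ (fun x hx => hx)
  have hfaith' : ∀ z, τ' z = τ' 1 → z = 1 := by
    intro z hz
    obtain ⟨y, rfl⟩ := QuotientGroup.mk_surjective z
    rw [← QuotientGroup.mk_one, hτ'l, hτ'l] at hz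
    exact (QuotientGroup.eq_one_iff y).mpr hz
  obtain ⟨a, ha⟩ := IsPGroup.iff_card.mp hPp
  obtain ⟨b, -, hb⟩ := (Nat.dvd_prime_pow hp).mp (ha ▸ Subgroup.index_dvd_card K)
  have hcardQ : Nat.card (P ⧸ K) = p ^ b := hb
  have hdeg' : charDegree τ' = charDegree τ := by
    simp only [charDegree]
    have := hτ'l 1
    rw [QuotientGroup.mk_one] at this
    rw [this]
  have hbF : b ≤ bigF p (charDegree τ') := by
    rcases Nat.eq_zero_or_pos b with rfl | hb0
    · exact Nat.zero_le _
    · letI : Fintype (P ⧸ K) := Fintype.ofFinite _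
      refine main_pgroup hp hcardQ hτ' hfaith' ?_
      intro k hk z
      obtain ⟨y, rfl⟩ := QuotientGroup.mk_surjective z
      have hkp : k.Coprime p := by
        rw [hcardQ] at hk
        exact Nat.Coprime.coprime_dvd_right (dvd_pow_self p hb0.ne') hk
      have hkP : k.Coprime (Nat.card P) := by
        rw [ha]
        exact Nat.Coprime.pow_right _ hkp
      rw [← QuotientGroup.mk_pow, hτ'l, hτ'l]
      exact hτk k hkP y
  have hdvd : ((pCore p G).subgroupOf P).index ∣ K.index := Subgroup.index_dvd_of_le hKU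
  have hfac : (((pCore p G).subgroupOf P).index).factorization p ≤ K.index.factorization p :=
    (Nat.factorization_le_iff_dvd Subgroup.index_ne_zero_of_finite
      Subgroup.index_ne_zero_of_finite).mpr hdvd p
  have hKb : K.index.factorization p = b := by
    rw [hb, hp.factorization_pow]
    simp
  have hmono : bigF p (charDegree τ') ≤ bigF p n := bigF_mono hp.two_le (by rw [hdeg']; exact hle)
  rw [hidx]
  calc _ ≤ K.index.factorization p := hfac
    _ = b := hKb
    _ ≤ bigF p (charDegree τ') := hbF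
    _ ≤ bigF p n := hmono

end Cfsg.Agent.S4472
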