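import Mathlib
-- Template for statement S4473 (row 4473; see /opt/grader/pristine/manifest.json for weights).
-- Copy to Cfsg/Agent/S4473.lean and replace the sorry. The statement below is byte-identical to the frozen
-- statement Cfsg.CfsgFrozen.S4473 (Cfsg/Statements/S4473.lean; the theorem Cfsg.chr_primitive_linear_group_degree_two_central_index);
-- the grader kernel-checks Cfsg.Agent.S4473.result against that frozen type. Keep the theorem IN THIS FILE
-- (a `result` declared elsewhere and merely imported here is not credited); helpers may live anywhere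
-- under Cfsg/Agent/.
import Cfsg.Statements.S4473
import Cfsg.Agent.Lib.Deg2Prim

set_option autoImplicit false
open Cfsg

namespace Cfsg.Agent.S4473

open Cfsg.Agent.Lib.Deg2Prim Cfsg.Agent.Lib.CharBasic Cfsg.Agent.Lib.CharKernel

/-- Let the finite group G have a faithful irreducible character χ of degree 2 that is primitive: χ is not induced from a character of any proper subgroup. Then the centre of G has index 12, 24 or 60. -/
theorem result {G : Type*} [Group G] [Fintype G] (χ : Cfsg.IrrCharacter G) (hfaith : ∀ g : G, (χ : G → ℂ) g = (χ : G → ℂ) 1 → g = 1) (h2 : Cfsg.charDegree (χ : G → ℂ) = 2) (hprim : ∀ H : Subgroup G, H ≠ ⊤ → ∀ θ : H → ℂ, Cfsg.IsCharacter H θ → (χ : G → ℂ) ≠ Cfsg.indFun H θ) : (Subgroup.center G).index = 12 ∨ (Subgroup.center G).index = 24 ∨ (Subgroup.center G).index = 60 := by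
  obtain ⟨n, ρ, hρ, hch⟩ := χ.2
  have hχ1 : (χ : G → ℂ) 1 = 2 := by
    rw [one_eq_charDegree (IsIrrCharacter.isCharacter χ.2), h2]
    norm_num
  have hn : n = 2 := by
    have h1 := char_one_eq_rep ρ
    rw [hch, hχ1] at h1
    exact_mod_cast h1.symm
  subst hn
  have hdim : Module.finrank ℂ (Fin 2 → ℂ) = 2 := by simp
  refine index_of_primitive ρ hdim hρ ?_ ?_
  · intro g hg
    apply hfaith
    rw [← hch]
    have h3 : ρ g = ρ 1 := by rw [hg, (map_one ρ)]
    simp only [Representation.character]
    rw [h3]
  · intro H hH θ hθ
    rw [hch]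
    exact hprim H hH θ hθ

end Cfsg.Agent.S4473
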