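import Mathlib
import Cfsg.Statements.S4474
import Cfsg.Agent.Lib.FrobeniusSchur

set_option autoImplicit false
set_option linter.unusedSectionVars false
set_option linter.unusedVariables false
set_option linter.style.haveILetI false

open Cfsg Cfsg.Agent.Lib.CharBasic Cfsg.Agent.Lib.FrobeniusSchur Matrix Module
open scoped ComplexConjugate ComplexOrder

namespace Cfsg.Agent.S4474

universe u

section Abstract

variable {M : Type*} [AddCommGroup M] [Module ℂ M] [FiniteDimensional ℂ M]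

theorem half_fixed (P T : M →ₗ[ℂ] M) (hP : IsIdempotentElem P)
    (hT : T ∘ₗ T = LinearMap.id) (hc : T ∘ₗ P = P ∘ₗ T) (x : M) :
    P (((1 / 2 : ℂ) • (P + T ∘ₗ P)) x) = ((1 / 2 : ℂ) • (P + T ∘ₗ P)) x ∧
      T (((1 / 2 : ℂ) • (P + T ∘ₗ P)) x) = ((1 / 2 : ℂ) • (P + T ∘ₗ P)) x := by
  have hP' : ∀ x, P (P x) = P x := fun x => LinearMap.congr_fun hP x
  have hT' : ∀ x, T (T x) = x := fun x => LinearMap.congr_fun hT x
  have hc' : ∀ x, T (P x) = P (T x) := fun x => LinearMap.congr_fun hc x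
  simp only [LinearMap.comp_apply, LinearMap.smul_apply, LinearMap.add_apply, map_add, map_smul]
  constructor
  · rw [hP', hc' x, hP', ]
  · rw [hT', add_comm]

theorem half_idem (P T : M →ₗ[ℂ] M) (hP : IsIdempotentElem P)
    (hT : T ∘ₗ T = LinearMap.id) (hc : T ∘ₗ P = P ∘ₗ T) :
    IsIdempotentElem ((1 / 2 : ℂ) • (P + T ∘ₗ P)) := by
  show ((1 / 2 : ℂ) • (P + T ∘ₗ P)) ∘ₗ ((1 / 2 : ℂ) • (P + T ∘ₗ P)) = _
  apply LinearMap.ext
  intro x
  obtain ⟨h1, h2⟩ := half_fixed P T hP hT hc x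
  rw [LinearMap.comp_apply]
  set y := ((1 / 2 : ℂ) • (P + T ∘ₗ P)) x with hy
  simp only [LinearMap.comp_apply, LinearMap.smul_apply, LinearMap.add_apply]
  rw [h1, h2, ← two_smul ℂ y, smul_smul]
  norm_num

theorem trace_half (P T : M →ₗ[ℂ] M) :
    LinearMap.trace ℂ M ((1 / 2 : ℂ) • (P + T ∘ₗ P)) =
      (1 / 2) * (LinearMap.trace ℂ M P + LinearMap.trace ℂ M (T ∘ₗ P)) := by
  rw [map_smul, map_add, smul_eq_mul]

/-- A common fixed vector when the traces are both one. -/
theorem exists_fixed (P T : M →ₗ[ℂ] M) (hP : IsIdempotentElem P)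
    (hT : T ∘ₗ T = LinearMap.id) (hc : T ∘ₗ P = P ∘ₗ T) (h1 : LinearMap.trace ℂ M P = 1)
    (h2 : LinearMap.trace ℂ M (T ∘ₗ P) = 1) : ∃ y : M, y ≠ 0 ∧ P y = y ∧ T y = y := by
  have hQ : (1 / 2 : ℂ) • (P + T ∘ₗ P) ≠ 0 := by
    intro h
    have h3 := trace_half P T
    rw [h, map_zero, h1, h2] at h3
    norm_num at h3
  obtain ⟨x, hx⟩ : ∃ x, ((1 / 2 : ℂ) • (P + T ∘ₗ P)) x ≠ 0 := by
    by_contra hall
    push Not at hall
    exact hQ (LinearMap.ext hall)
  obtain ⟨h3, h4⟩ := half_fixed P T hP hT hc x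
  exact ⟨_, hx, h3, h4⟩

/-- A common fixed vector forces the trace to be one. -/
theorem trace_eq_one_of_fixed (P T : M →ₗ[ℂ] M) (hP : IsIdempotentElem P)
    (hT : T ∘ₗ T = LinearMap.id) (hc : T ∘ₗ P = P ∘ₗ T) (h1 : LinearMap.trace ℂ M P = 1)
    {y : M} (hy : y ≠ 0) (hPy : P y = y) (hTy : T y = y) : LinearMap.trace ℂ M (T ∘ₗ P) = 1 := by
  rcases (trace_comp_of_idempotent P T hP hT hc).2 h1 with h | h
  · exact h
  · exfalso
    have h3 := trace_half P T
    rw [h1, h] at h3
    have h4 : (1 / 2 : ℂ) • (P + T ∘ₗ P) = 0 :=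
      (LinearMap.IsIdempotentElem.trace_eq_zero_iff (half_idem P T hP hT hc)).mp (by
        rw [h3]; norm_num)
    have h5 := LinearMap.congr_fun h4 y
    simp only [LinearMap.smul_apply, LinearMap.add_apply, LinearMap.comp_apply, hPy, hTy,
      LinearMap.zero_apply] at h5
    rw [← two_smul ℂ y, smul_smul] at h5
    norm_num at h5
    exact hy h5

end Abstract

section Avg

variable {G : Type u} [Group G] [Fintype G] {ι : Type*} [Fintype ι] [DecidableEq ι]

/-- The averaging operator of a matrix representation. -/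
noncomputable def avgA (A : G →* Matrix ι ι ℂ) : Matrix ι ι ℂ →ₗ[ℂ] Matrix ι ι ℂ :=
  (Nat.card G : ℂ)⁻¹ • ∑ g : G, sand (A g)

theorem avgA_apply (A : G →* Matrix ι ι ℂ) (X : Matrix ι ι ℂ) :
    avgA A X = (Nat.card G : ℂ)⁻¹ • ∑ g : G, A g * X * (A g)ᵀ := by
  simp [avgA, LinearMap.sum_apply, sand_apply]

theorem avgA_comp_sand (A : G →* Matrix ι ι ℂ) (h : G) : avgA A ∘ₗ sand (A h) = avgA A := by
  unfold avgA
  rw [LinearMap.smul_comp, sum_comp']
  congr 1
  refine Fintype.sum_equiv (Equiv.mulRight h) _ _ fun g => ?_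
  simp only [Equiv.coe_mulRight, map_mul, sand_mul]

theorem sand_comp_avgA (A : G →* Matrix ι ι ℂ) (h : G) : sand (A h) ∘ₗ avgA A = avgA A := by
  unfold avgA
  rw [LinearMap.comp_smul, comp_sum']
  congr 1
  refine Fintype.sum_equiv (Equiv.mulLeft h) _ _ fun g => ?_
  simp only [Equiv.coe_mulLeft, map_mul, sand_mul]

theorem avgA_idem (A : G →* Matrix ι ι ℂ) : IsIdempotentElem (avgA A) := by
  have hG : (Nat.card G : ℂ) ≠ 0 := natCard_ne_zero'
  show avgA A ∘ₗ avgA A = avgA A
  nth_rewrite 2 [avgA]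
  rw [LinearMap.comp_smul, comp_sum']
  simp_rw [avgA_comp_sand]
  rw [Finset.sum_const, Finset.card_univ, Fintype.card_eq_nat_card, ← Nat.cast_smul_eq_nsmul ℂ,
    smul_smul, inv_mul_cancel₀ hG, one_smul]

theorem swapT_comp_avgA (A : G →* Matrix ι ι ℂ) : swapT ∘ₗ avgA A = avgA A ∘ₗ swapT := by
  unfold avgA
  rw [LinearMap.comp_smul, LinearMap.smul_comp, comp_sum', sum_comp']
  congr 1
  exact Finset.sum_congr rfl fun g _ => swapT_comm _

theorem trace_avgA (A : G →* Matrix ι ι ℂ) : LinearMap.trace ℂ _ (avgA A) =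
    (Nat.card G : ℂ)⁻¹ * ∑ g : G, (A g).trace ^ 2 := by
  unfold avgA
  rw [map_smul, map_sum, smul_eq_mul]
  congr 1
  exact Finset.sum_congr rfl fun g _ => trace_sand _

theorem trace_swapT_avgA (A : G →* Matrix ι ι ℂ) : LinearMap.trace ℂ _ (swapT ∘ₗ avgA A) =
    (Nat.card G : ℂ)⁻¹ * ∑ s : G, (A (s * s)).trace := by
  unfold avgA
  rw [LinearMap.comp_smul, map_smul, comp_sum', map_sum, smul_eq_mul]
  congr 1
  refine Finset.sum_congr rfl fun g _ => ?_
  rw [trace_swapT_sand, map_mul]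

end Avg

section Core

variable {G : Type u} [Group G] [Fintype G] {ι : Type*} [Fintype ι] [DecidableEq ι]

/-- Entrywise conjugation. -/
noncomputable abbrev cj (X : Matrix ι ι ℂ) : Matrix ι ι ℂ := X.map (starRingEnd ℂ)

theorem cj_mul (X Z : Matrix ι ι ℂ) : cj (X * Z) = cj X * cj Z := Matrix.map_mul

theorem cj_cj (X : Matrix ι ι ℂ) : cj (cj X) = X := by
  ext i j
  simp [cj]

theorem cj_one : cj (1 : Matrix ι ι ℂ) = 1 := by
  exact Matrix.map_one _ (map_zero _) (map_one _)

theorem cj_eq_conjTranspose_transpose (X : Matrix ι ι ℂ) : cj X = Xᴴᵀ := by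
  ext i j
  simp [cj]

theorem star_mulVec' (N : Matrix ι ι ℂ) (w : ι → ℂ) : star (N *ᵥ w) = cj N *ᵥ star w := by
  ext i
  simp [Matrix.mulVec, dotProduct, map_sum]

/-- The invariant positive definite Hermitian matrix. -/
noncomputable def LL (A : G →* Matrix ι ι ℂ) : Matrix ι ι ℂ := ∑ g : G, (A g)ᴴ * A g

theorem A_mul_inv (A : G →* Matrix ι ι ℂ) (g : G) : A g * A g⁻¹ = 1 := by
  rw [← map_mul, mul_inv_cancel, map_one]

theorem A_inv_mul (A : G →* Matrix ι ι ℂ) (g : G) : A g⁻¹ * A g = 1 := by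
  rw [← map_mul, inv_mul_cancel, map_one]

theorem LL_posDef (A : G →* Matrix ι ι ℂ) : (LL A).PosDef := by
  unfold LL
  refine Matrix.posDef_sum Finset.univ_nonempty fun g _ => ?_
  refine Matrix.PosDef.conjTranspose_mul_self _ ?_
  intro x y h
  have h1 := congrArg (fun v => A g⁻¹ *ᵥ v) h
  simpa [Matrix.mulVec_mulVec, A_inv_mul] using h1

theorem LL_inv (A : G →* Matrix ι ι ℂ) (h : G) : (A h)ᴴ * LL A * A h = LL A := by
  unfold LL
  rw [Finset.mul_sum, Finset.sum_mul]
  refine Fintype.sum_equiv (Equiv.mulRight h) _ _ fun g => ?_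
  simp only [Equiv.coe_mulRight, map_mul, Matrix.conjTranspose_mul, Matrix.mul_assoc]

theorem M_comm (A : G →* Matrix ι ι ℂ) {Y : Matrix ι ι ℂ}
    (hYinv : ∀ g, A g * Y * (A g)ᵀ = Y) (g : G) :
    A g * (Y * (LL A)ᵀ) = (Y * (LL A)ᵀ) * cj (A g) := by
  set a := A g with ha
  set a' := A g⁻¹ with ha'
  set L := LL A with hL
  have h1 : a * a' = 1 := A_mul_inv A g
  have h2 : a' * a = 1 := A_inv_mul A g
  -- `a Y = Y a'ᵀ`
  have h3 : a * Y = Y * a'ᵀ := by
    have h4 : aᵀ * a'ᵀ = 1 := by rw [← Matrix.transpose_mul, h2, Matrix.transpose_one]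
    calc a * Y = a * Y * (aᵀ * a'ᵀ) := by rw [h4, Matrix.mul_one]
      _ = (a * Y * aᵀ) * a'ᵀ := by simp only [Matrix.mul_assoc]
      _ = Y * a'ᵀ := by rw [hYinv g]
  -- `aᴴ L = L a'`
  have h5 : aᴴ * L = L * a' := by
    calc aᴴ * L = aᴴ * L * (a * a') := by rw [h1, Matrix.mul_one]
      _ = (aᴴ * L * a) * a' := by simp only [Matrix.mul_assoc]
      _ = L * a' := by rw [LL_inv A g]
  have h6 : a'ᵀ * Lᵀ = Lᵀ * cj a := by
    have h7 := congrArg Matrix.transpose h5
    rw [Matrix.transpose_mul, Matrix.transpose_mul] at h7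
    rw [← h7, cj_eq_conjTranspose_transpose]
  calc a * (Y * Lᵀ) = (a * Y) * Lᵀ := by rw [Matrix.mul_assoc]
    _ = Y * (a'ᵀ * Lᵀ) := by rw [h3, Matrix.mul_assoc]
    _ = (Y * Lᵀ) * cj a := by rw [h6, Matrix.mul_assoc]

/-- The scalar is a positive real. -/
theorem scalar_pos (A : G →* Matrix ι ι ℂ) {Y : Matrix ι ι ℂ} (hY0 : Y ≠ 0) (hYs : Yᵀ = Y)
    {c : ℂ} (hc : (Y * (LL A)ᵀ) * cj (Y * (LL A)ᵀ) = c • 1) :
    ∃ r : ℝ, 0 < r ∧ c = r := by
  classical
  set L := LL A with hL
  have hLp : L.PosDef := LL_posDef A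
  have hLh : Lᴴ = L := hLp.isHermitian
  have hcjL : cj Lᵀ = L := by
    ext i j
    have := congrFun (congrFun hLh i) j
    simpa [cj, Matrix.conjTranspose_apply] using this
  have hcjY : cj Y = Yᴴ := by
    ext i j
    have := congrFun (congrFun hYs j) i
    simp only [Matrix.transpose_apply] at this
    simp [cj, Matrix.conjTranspose_apply, this]
  set D := Y * Lᵀ * Yᴴ with hD
  have h1 : D * L = c • 1 := by
    rw [← hc, cj_mul, hcjL, hcjY, hD]
    simp only [Matrix.mul_assoc]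
  have hLu : IsUnit L.det := (Matrix.isUnit_iff_isUnit_det L).mp hLp.isUnit
  have h2 : D = c • L⁻¹ := by
    calc D = D * (L * L⁻¹) := by rw [Matrix.mul_nonsing_inv L hLu, Matrix.mul_one]
      _ = (D * L) * L⁻¹ := (Matrix.mul_assoc D L L⁻¹).symm
      _ = c • L⁻¹ := by rw [h1, Matrix.smul_mul, Matrix.one_mul]
  have hne : Nonempty ι := by
    by_contra hcon
    rw [not_nonempty_iff] at hcon
    exact hY0 (Subsingleton.elim _ _)
  have ht : 0 < (L⁻¹).trace := hLp.inv.trace_pos
  have hDp : D.PosSemidef := hLp.transpose.posSemidef.mul_mul_conjTranspose_same Y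
  have hd : 0 ≤ D.trace := hDp.trace_nonneg
  have h3 : D.trace = c * (L⁻¹).trace := by rw [h2, Matrix.trace_smul, smul_eq_mul]
  rw [Complex.pos_iff] at ht
  rw [Complex.nonneg_iff] at hd
  have hc0 : c ≠ 0 := by
    intro h0
    have h4 : D = 0 := by rw [h2, h0, zero_smul]
    apply hY0
    have h5 : Yᴴ = 0 := by
      ext i j
      by_contra hne'
      have h6 : Yᴴ *ᵥ Pi.single j 1 ≠ 0 := by
        intro h7
        have := congrFun h7 i
        simp only [Matrix.mulVec_single_one, Matrix.col_apply, Pi.zero_apply] at this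
        exact hne' this
      have h7 := hLp.transpose.dotProduct_mulVec_pos h6
      have h8 : star (Yᴴ *ᵥ Pi.single j (1 : ℂ)) ⬝ᵥ Lᵀ *ᵥ (Yᴴ *ᵥ Pi.single j 1) =
          star (Pi.single j (1 : ℂ)) ⬝ᵥ D *ᵥ (Pi.single j 1) := by
        rw [Matrix.star_mulVec, Matrix.conjTranspose_conjTranspose, hD, ← Matrix.mulVec_mulVec,
          ← Matrix.mulVec_mulVec]
        exact (Matrix.dotProduct_mulVec _ _ _).symm
      rw [h8, h4] at h7
      simp at h7
    have := congrArg Matrix.conjTranspose h5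
    simpa using this
  have h4 : c = ((D.trace.re / (L⁻¹).trace.re : ℝ) : ℂ) := by
    have h5 : (L⁻¹).trace = (((L⁻¹).trace.re : ℝ) : ℂ) := by
      apply Complex.ext <;> simp [ht.2]
    have h6 : D.trace = ((D.trace.re : ℝ) : ℂ) := by
      apply Complex.ext <;> simp [hd.2.symm]
    have h7 : ((L⁻¹).trace.re : ℂ) ≠ 0 := by exact_mod_cast ht.1.ne'
    push_cast
    rw [eq_div_iff h7, ← h5, ← h6, h3]
  refine ⟨_, ?_, h4⟩
  have h5 : 0 ≤ D.trace.re / (L⁻¹).trace.re := div_nonneg hd.1 ht.1.le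
  refine lt_of_le_of_ne h5 fun h6 => hc0 ?_
  rw [h4, ← h6]
  simp

/-- A basis of vectors fixed by the antilinear involution `v ↦ N (conj v)`. -/
theorem exists_fixed_basis {N : Matrix ι ι ℂ} (hN : N * cj N = 1) :
    ∃ b : Basis ι ℂ (ι → ℂ), ∀ j, N *ᵥ star (b j) = b j := by
  classical
  let J : (ι → ℂ) → (ι → ℂ) := fun v => N *ᵥ star v
  have hJJ : ∀ v, J (J v) = v := by
    intro v
    show N *ᵥ star (N *ᵥ star v) = v
    rw [star_mulVec', star_star, Matrix.mulVec_mulVec, hN, Matrix.one_mulVec]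
  have hJadd : ∀ v w, J (v + w) = J v + J w := by
    intro v w
    show N *ᵥ star (v + w) = N *ᵥ star v + N *ᵥ star w
    rw [star_add, Matrix.mulVec_add]
  have hJsub : ∀ v w, J (v - w) = J v - J w := by
    intro v w
    show N *ᵥ star (v - w) = N *ᵥ star v - N *ᵥ star w
    rw [star_sub, Matrix.mulVec_sub]
  have hJI : ∀ v, J (Complex.I • v) = -(Complex.I • J v) := by
    intro v
    show N *ᵥ star (Complex.I • v) = -(Complex.I • (N *ᵥ star v))
    rw [star_smul, Matrix.mulVec_smul]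
    simp
  let S : Set (ι → ℂ) := {v | J v = v}
  have hS : Submodule.span ℂ S = ⊤ := by
    rw [eq_top_iff]
    intro v _
    have h1 : v + J v ∈ S := by
      show J (v + J v) = v + J v
      rw [hJadd, hJJ, add_comm]
    have h2 : Complex.I • (v - J v) ∈ S := by
      show J (Complex.I • (v - J v)) = Complex.I • (v - J v)
      rw [hJI, hJsub, hJJ, ← smul_neg, neg_sub]
    have h3 : v = (1 / 2 : ℂ) • (v + J v) + (-(Complex.I) / 2) • (Complex.I • (v - J v)) := by
      rw [smul_smul]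
      have : -Complex.I / 2 * Complex.I = 1 / 2 := by
        rw [div_mul_eq_mul_div, neg_mul, Complex.I_mul_I]
        norm_num
      rw [this, ← smul_add]
      have h4 : v + J v + (v - J v) = (2 : ℂ) • v := by
        rw [two_smul]
        abel
      rw [h4, smul_smul]
      norm_num
    rw [h3]
    exact Submodule.add_mem _ (Submodule.smul_mem _ _ (Submodule.subset_span h1))
      (Submodule.smul_mem _ _ (Submodule.subset_span h2))
  obtain ⟨b, hbS, hbsp, hbli⟩ := exists_linearIndependent ℂ S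
  rw [hS] at hbsp
  let B₀ : Basis b ℂ (ι → ℂ) := Basis.mk hbli (by
    rw [Subtype.range_coe, hbsp])
  haveI : Fintype b := by
    haveI := Module.Finite.finite_basis B₀
    exact Fintype.ofFinite _
  have hcard : Fintype.card ι = Fintype.card b := by
    have h1 := Module.finrank_eq_card_basis B₀
    rw [Module.finrank_pi] at h1
    exact h1
  let e : b ≃ ι := Fintype.equivOfCardEq hcard.symm
  refine ⟨B₀.reindex e, fun j => ?_⟩
  rw [Basis.reindex_apply, Basis.mk_apply]
  exact hbS (e.symm j).2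

/-- The real form. -/
theorem core (A : G →* Matrix ι ι ℂ) {Y : Matrix ι ι ℂ} (hY0 : Y ≠ 0) (hYs : Yᵀ = Y)
    (hYinv : ∀ g, A g * Y * (A g)ᵀ = Y)
    (hschur : ∀ C : Matrix ι ι ℂ, (∀ g, C * A g = A g * C) → ∃ c : ℂ, C = c • 1) :
    ∃ B : G →* Matrix ι ι ℝ, ∀ g, (((B g).trace : ℝ) : ℂ) = (A g).trace := by
  classical
  set M := Y * (LL A)ᵀ with hM
  have hAM : ∀ g, A g * M = M * cj (A g) := M_comm A hYinv
  have hAMc : ∀ g, cj (A g) * cj M = cj M * A g := by
    intro g
    have h1 : cj (A g * M) = cj (M * cj (A g)) := by rw [hAM]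
    rw [cj_mul (A g) M, cj_mul M (cj (A g)), cj_cj] at h1
    exact h1
  obtain ⟨c, hc⟩ := hschur (M * cj M) (fun g => by
    rw [Matrix.mul_assoc, ← hAMc, ← Matrix.mul_assoc, ← hAM, Matrix.mul_assoc])
  obtain ⟨r, hr, rfl⟩ := scalar_pos A hY0 hYs hc
  -- normalize
  set s : ℂ := (((Real.sqrt r)⁻¹ : ℝ) : ℂ) with hs
  have hsreal : (starRingEnd ℂ) s = s := Complex.conj_ofReal _
  have hss : s * s * (r : ℂ) = 1 := by
    have h1 : (Real.sqrt r)⁻¹ * (Real.sqrt r)⁻¹ * r = 1 := by
      have h2 : Real.sqrt r * Real.sqrt r = r := Real.mul_self_sqrt hr.le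
      have h3 : Real.sqrt r ≠ 0 := (Real.sqrt_pos.mpr hr).ne'
      field_simp
      rw [sq, h2]
    rw [hs]
    exact_mod_cast h1
  set N := s • M with hNdef
  have hcjN : cj N = s • cj M := by
    ext i j
    simp [hNdef, cj, hsreal]
  have hN : N * cj N = 1 := by
    rw [hcjN, hNdef, Matrix.smul_mul, Matrix.mul_smul, hc, smul_smul, smul_smul, hss, one_smul]
  have hAN : ∀ g, A g * N = N * cj (A g) := by
    intro g
    rw [hNdef, Matrix.mul_smul, Matrix.smul_mul, hAM]
  obtain ⟨b, hb⟩ := exists_fixed_basis hN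
  -- the base change
  set P := (Pi.basisFun ℂ ι).toMatrix b with hPdef
  set Q := b.toMatrix (Pi.basisFun ℂ ι) with hQdef
  have hPQ : P * Q = 1 := Basis.toMatrix_mul_toMatrix_flip _ _
  have hQP : Q * P = 1 := Basis.toMatrix_mul_toMatrix_flip _ _
  have hNP : N * cj P = P := by
    ext i j
    have h1 := congrFun (hb j) i
    have h2 : (N * cj P) i j = (N *ᵥ star (b j)) i := by
      simp [Matrix.mul_apply, Matrix.mulVec, dotProduct, hPdef, Basis.toMatrix_apply]
    rw [h2, h1]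
    simp [hPdef, Basis.toMatrix_apply]
  have hcN : cj N * N = 1 := by
    have h1 := congrArg cj hN
    rw [cj_mul, cj_cj, cj_one] at h1
    exact h1
  have hcP : cj P = cj N * P := by
    calc cj P = (cj N * N) * cj P := by rw [hcN, Matrix.one_mul]
      _ = cj N * (N * cj P) := by rw [Matrix.mul_assoc]
      _ = cj N * P := by rw [hNP]
  have hcQ : cj Q = Q * N := by
    have h1 : cj Q * cj P = 1 := by rw [← cj_mul, hQP, cj_one]
    have h2 : cj P * cj Q = 1 := by rw [← cj_mul, hPQ, cj_one]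
    calc cj Q = (Q * P) * cj Q := by rw [hQP, Matrix.one_mul]
      _ = (Q * (N * cj P)) * cj Q := by rw [hNP]
      _ = (Q * N) * (cj P * cj Q) := by simp only [Matrix.mul_assoc]
      _ = Q * N := by rw [h2, Matrix.mul_one]
  have hcB : ∀ g, cj (Q * A g * P) = Q * A g * P := by
    intro g
    rw [cj_mul, cj_mul, hcQ, hcP]
    calc Q * N * cj (A g) * (cj N * P) = Q * (N * cj (A g)) * (cj N * P) := by
          simp only [Matrix.mul_assoc]
      _ = Q * (A g * N) * (cj N * P) := by rw [hAN]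
      _ = Q * A g * ((N * cj N) * P) := by simp only [Matrix.mul_assoc]
      _ = Q * A g * P := by rw [hN, Matrix.one_mul]
  -- the real matrices
  have hreal : ∀ g, ((Q * A g * P).map Complex.re).map Complex.ofRealHom = Q * A g * P := by
    intro g
    ext i j
    have h1 := congrFun (congrFun (hcB g) i) j
    have h2 : (starRingEnd ℂ) ((Q * A g * P) i j) = (Q * A g * P) i j := h1
    have h3 := Complex.conj_eq_iff_real.mp h2
    obtain ⟨x, hx⟩ := h3
    simp [hx]
  have hinj : Function.Injective (fun X : Matrix ι ι ℝ => X.map Complex.ofRealHom) := by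
    intro X Z h
    ext i j
    have := congrFun (congrFun h i) j
    simpa using this
  let R : G →* Matrix ι ι ℝ :=
    { toFun := fun g => (Q * A g * P).map Complex.re
      map_one' := by
        apply hinj
        show ((Q * A 1 * P).map Complex.re).map Complex.ofRealHom = _
        rw [hreal, map_one, Matrix.mul_one, hQP]
        exact (Matrix.map_one _ (map_zero _) (map_one _)).symm
      map_mul' := by
        intro g h
        apply hinj
        show ((Q * A (g * h) * P).map Complex.re).map Complex.ofRealHom =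
          ((Q * A g * P).map Complex.re * (Q * A h * P).map Complex.re).map Complex.ofRealHom
        rw [Matrix.map_mul, hreal, hreal, hreal, map_mul]
        calc Q * (A g * A h) * P = Q * A g * (P * Q) * A h * P := by
              rw [hPQ, Matrix.mul_one]
              simp only [Matrix.mul_assoc]
          _ = Q * A g * P * (Q * A h * P) := by simp only [Matrix.mul_assoc] }
  refine ⟨R, fun g => ?_⟩
  have h1 : (((R g).trace : ℝ) : ℂ) = ((R g).map Complex.ofRealHom).trace := by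
    simp [Matrix.trace, Complex.ofReal_sum]
  rw [h1]
  have h2 : (R g).map Complex.ofRealHom = Q * A g * P := hreal g
  rw [h2, Matrix.trace_mul_comm, ← Matrix.mul_assoc, hPQ, Matrix.one_mul]

end Core

section Final

variable {G : Type u} [Group G] [Fintype G]

/-- The coordinate matrix representation. -/
noncomputable def homOf {n : ℕ} (ρ : Representation ℂ G (Fin n → ℂ)) :
    G →* Matrix (Fin n) (Fin n) ℂ where
  toFun g := LinearMap.toMatrix' (ρ g)
  map_one' := by
    rw [map_one, Module.End.one_eq_id, LinearMap.toMatrix'_id]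
  map_mul' g h := by
    rw [map_mul, Module.End.mul_eq_comp, LinearMap.toMatrix'_comp]

theorem trace_homOf {n : ℕ} (ρ : Representation ℂ G (Fin n → ℂ)) (g : G) :
    (homOf ρ g).trace = ρ.character g := by
  show (LinearMap.toMatrix' (ρ g)).trace = LinearMap.trace ℂ _ (ρ g)
  rw [LinearMap.trace_eq_matrix_trace ℂ (Pi.basisFun ℂ (Fin n)) (ρ g),
    LinearMap.toMatrix_eq_toMatrix']

theorem forward {n : ℕ} (ρ : Representation ℂ G (Fin n → ℂ)) (hρ : ρ.IsIrreducible)
    (h : (Nat.card G : ℂ)⁻¹ * ∑ s : G, ρ.character (s * s) = 1) :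
    ∃ (m : ℕ) (R : Representation ℝ G (Fin m → ℝ)), ∀ g : G,
      ((LinearMap.trace ℝ (Fin m → ℝ) (R g) : ℝ) : ℂ) = ρ.character g := by
  classical
  have hr : ∀ s : G, (ρ.character s).im = 0 := by
    intro s
    by_contra hs
    have h0 := (frobeniusSchur ρ hρ).2.2 ⟨s, hs⟩
    rw [h0] at h
    exact zero_ne_one h
  have h1 : LinearMap.trace ℂ _ (avgA (homOf ρ)) = 1 := by
    rw [trace_avgA]
    simp_rw [trace_homOf]
    rw [average_sq_eq ρ hρ, if_pos hr]
  have h2 : LinearMap.trace ℂ _ (swapT ∘ₗ avgA (homOf ρ)) = 1 := by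
    rw [trace_swapT_avgA]
    simp_rw [trace_homOf]
    exact h
  obtain ⟨Y, hY0, hY1, hY2⟩ := exists_fixed (avgA (homOf ρ)) swapT (avgA_idem _) swapT_swapT
    (swapT_comp_avgA _) h1 h2
  have hYinv : ∀ g, homOf ρ g * Y * (homOf ρ g)ᵀ = Y := by
    intro g
    have h3 := LinearMap.congr_fun (sand_comp_avgA (homOf ρ) g) Y
    rw [LinearMap.comp_apply, hY1, sand_apply] at h3
    exact h3
  have hschur : ∀ C : Matrix (Fin n) (Fin n) ℂ, (∀ g, C * homOf ρ g = homOf ρ g * C) →
      ∃ c : ℂ, C = c • 1 := by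
    intro C hC
    obtain ⟨c, hc⟩ := schur_scalar hρ (Matrix.toLin' C) (fun g => by
      apply LinearMap.toMatrix'.injective
      rw [LinearMap.toMatrix'_comp, LinearMap.toMatrix'_comp, LinearMap.toMatrix'_toLin']
      exact hC g)
    refine ⟨c, ?_⟩
    have h3 := congrArg LinearMap.toMatrix' hc
    rw [LinearMap.toMatrix'_toLin', map_smul, LinearMap.toMatrix'_id] at h3
    exact h3
  obtain ⟨B, hB⟩ := core (homOf ρ) hY0 hY2 hYinv hschur
  let R : Representation ℝ G (Fin n → ℝ) :=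
    { toFun := fun g => Matrix.toLin' (B g)
      map_one' := by rw [map_one, Matrix.toLin'_one]; rfl
      map_mul' := fun g h => by rw [map_mul, Matrix.toLin'_mul]; rfl }
  refine ⟨n, R, fun g => ?_⟩
  show ((LinearMap.trace ℝ (Fin n → ℝ) (Matrix.toLin' (B g)) : ℝ) : ℂ) = _
  rw [Matrix.trace_toLin'_eq, hB, trace_homOf]

/-- The complexified matrix representation of a real representation. -/
noncomputable def homReal {n : ℕ} (R : Representation ℝ G (Fin n → ℝ)) :
    G →* Matrix (Fin n) (Fin n) ℂ where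
  toFun g := (LinearMap.toMatrix' (R g)).map Complex.ofRealHom
  map_one' := by
    rw [map_one, Module.End.one_eq_id, LinearMap.toMatrix'_id]
    exact Matrix.map_one _ (map_zero _) (map_one _)
  map_mul' g h := by
    rw [map_mul, Module.End.mul_eq_comp, LinearMap.toMatrix'_comp, Matrix.map_mul]

theorem homReal_apply {n : ℕ} (R : Representation ℝ G (Fin n → ℝ)) (g : G) (i j : Fin n) :
    homReal R g i j = ((LinearMap.toMatrix' (R g) i j : ℝ) : ℂ) := rfl

theorem trace_homReal {n : ℕ} (R : Representation ℝ G (Fin n → ℝ)) (g : G) :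
    (homReal R g).trace = ((LinearMap.trace ℝ (Fin n → ℝ) (R g) : ℝ) : ℂ) := by
  rw [LinearMap.trace_eq_matrix_trace ℝ (Pi.basisFun ℝ (Fin n)) (R g),
    LinearMap.toMatrix_eq_toMatrix']
  simp [Matrix.trace, homReal_apply, Complex.ofReal_sum]

theorem backward {n : ℕ} (R : Representation ℝ G (Fin n → ℝ)) {χ : G → ℂ}
    (hχ : IsIrrCharacter G χ)
    (hR : ∀ g : G, ((LinearMap.trace ℝ (Fin n → ℝ) (R g) : ℝ) : ℂ) = χ g) :
    (Nat.card G : ℂ)⁻¹ * ∑ s : G, χ (s * s) = 1 := by
  classical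
  have hG : (Nat.card G : ℂ) ≠ 0 := natCard_ne_zero'
  set A := homReal R with hA
  have h1 : LinearMap.trace ℂ _ (avgA A) = 1 := by
    rw [trace_avgA, ← classInner_irr_self hχ]
    unfold classInner
    congr 1
    refine Finset.sum_congr rfl fun g _ => ?_
    rw [trace_homReal, hR, sq, ← hR g, Complex.conj_ofReal]
  have hn : n ≠ 0 := by
    rintro rfl
    have h3 := classInner_irr_self hχ
    unfold classInner at h3
    have h4 : ∀ g, χ g = 0 := by
      intro g
      rw [← hR g]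
      simp [LinearMap.trace_eq_matrix_trace ℝ (Pi.basisFun ℝ (Fin 0)) (R g), Matrix.trace]
    simp [h4] at h3
  set Y := avgA A 1 with hY
  have hY1 : avgA A Y = Y := LinearMap.congr_fun (avgA_idem A) 1
  have hY2 : swapT Y = Y := by
    have h3 := LinearMap.congr_fun (swapT_comp_avgA A) 1
    rw [LinearMap.comp_apply, LinearMap.comp_apply] at h3
    have h4 : swapT (1 : Matrix (Fin n) (Fin n) ℂ) = 1 := Matrix.transpose_one
    rw [h4] at h3
    exact h3
  have hY0 : Y ≠ 0 := by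
    intro h0
    have h3 : Y.trace = 0 := by rw [h0, Matrix.trace_zero]
    rw [hY, avgA_apply, Matrix.trace_smul, smul_eq_mul, Matrix.trace_sum] at h3
    have h4 : ∑ g : G, (A g * 1 * (A g)ᵀ).trace = 0 := by
      rcases mul_eq_zero.mp h3 with h5 | h5
      · exact absurd (inv_eq_zero.mp h5) hG
      · exact h5
    have h5 : ∀ g : G, (A g * 1 * (A g)ᵀ).trace =
        ((∑ i, ∑ j, (LinearMap.toMatrix' (R g) i j) ^ 2 : ℝ) : ℂ) := by
      intro g
      simp only [Matrix.mul_one, Matrix.trace, Matrix.diag_apply, Matrix.mul_apply,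
        Matrix.transpose_apply, hA, homReal_apply]
      push_cast
      refine Finset.sum_congr rfl fun i _ => Finset.sum_congr rfl fun j _ => ?_
      rw [sq]
    simp_rw [h5] at h4
    rw [← Complex.ofReal_sum, Complex.ofReal_eq_zero] at h4
    have h6 := (Finset.sum_eq_zero_iff_of_nonneg (fun g _ => Finset.sum_nonneg
      fun i _ => Finset.sum_nonneg fun j _ => sq_nonneg _)).mp h4 1 (Finset.mem_univ _)
    have i₀ : Fin n := ⟨0, Nat.pos_of_ne_zero hn⟩
    have h7 := (Finset.sum_eq_zero_iff_of_nonneg (fun i _ => Finset.sum_nonneg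
      fun j _ => sq_nonneg _)).mp h6 i₀ (Finset.mem_univ _)
    have h8 := (Finset.sum_eq_zero_iff_of_nonneg (fun j _ => sq_nonneg _)).mp h7 i₀
      (Finset.mem_univ _)
    rw [map_one, Module.End.one_eq_id, LinearMap.toMatrix'_id, Matrix.one_apply_eq] at h8
    norm_num at h8
  have h2 := trace_eq_one_of_fixed (avgA A) swapT (avgA_idem A) swapT_swapT (swapT_comp_avgA A)
    h1 hY0 hY1 hY2
  rw [trace_swapT_avgA] at h2
  rw [← h2]
  congr 1
  refine Finset.sum_congr rfl fun s _ => ?_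
  rw [hA, trace_homReal, hR]

end Final

theorem result {G : Type*} [Group G] [Fintype G] (χ : Cfsg.IrrCharacter G) : ((Nat.card G : ℂ)⁻¹ * ∑ s : G, (χ : G → ℂ) (s * s)) = 1 ↔ ∃ (n : ℕ) (ρ : Representation ℝ G (Fin n → ℝ)), ∀ g : G, ((LinearMap.trace ℝ (Fin n → ℝ) (ρ g) : ℝ) : ℂ) = (χ : G → ℂ) g := by
  constructor
  · intro h
    obtain ⟨n, ρ, hρ, hχ⟩ := χ.2
    rw [← hχ] at h ⊢
    exact forward ρ hρ h
  · rintro ⟨n, R, hR⟩
    exact backward R χ.2 hR

end Cfsg.Agent.S4474
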