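import Mathlib
import Cfsg.Statements.S4475
import Cfsg.Agent.Lib.FrobeniusSchur

set_option autoImplicit false
open Cfsg

namespace Cfsg.Agent.S4475

open Cfsg.Agent.Lib.FrobeniusSchur
open Module Matrix

variable {G : Type*} [Group G] [Fintype G] {n : ℕ} (ρ : Representation ℂ G (Fin n → ℂ))

/-- The matrix of `ρ g`. -/
noncomputable def X (g : G) : Matrix (Fin n) (Fin n) ℂ := LinearMap.toMatrix' (ρ g)

omit [Fintype G] in
theorem X_mul (g h : G) : X ρ (g * h) = X ρ g * X ρ h := by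
  unfold X
  rw [map_mul, Module.End.mul_eq_comp, LinearMap.toMatrix'_comp]

omit [Fintype G] in
theorem trace_X (g : G) : (X ρ g).trace = ρ.character g := by
  unfold X Representation.character
  rw [LinearMap.trace_eq_matrix_trace ℂ (Pi.basisFun ℂ (Fin n)), LinearMap.toMatrix_eq_toMatrix']

/-- The averaging operator `Y ↦ |G|⁻¹ Σ X(g)ᵀ Y X(g)`. -/
noncomputable def P : Matrix (Fin n) (Fin n) ℂ →ₗ[ℂ] Matrix (Fin n) (Fin n) ℂ :=
  (Nat.card G : ℂ)⁻¹ • ∑ g : G, sand (X ρ g)ᵀ

theorem sand_comp_P (h : G) : sand (X ρ h)ᵀ ∘ₗ P ρ = P ρ := by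
  unfold P
  rw [LinearMap.comp_smul, comp_sum']
  congr 1
  refine Fintype.sum_equiv (Equiv.mulRight h) _ _ fun g => ?_
  simp only [Equiv.coe_mulRight, X_mul, Matrix.transpose_mul, sand_mul]

theorem P_idempotent : IsIdempotentElem (P ρ) := by
  have hG : (Nat.card G : ℂ) ≠ 0 := Nat.cast_ne_zero.2 Nat.card_pos.ne'
  show P ρ ∘ₗ P ρ = P ρ
  nth_rewrite 1 [P]
  rw [LinearMap.smul_comp, sum_comp']
  simp_rw [sand_comp_P]
  rw [Finset.sum_const, Finset.card_univ, Fintype.card_eq_nat_card, ← Nat.cast_smul_eq_nsmul ℂ,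
    smul_smul, inv_mul_cancel₀ hG, one_smul]

theorem swapT_comp_P : swapT ∘ₗ P ρ = P ρ ∘ₗ swapT := by
  unfold P
  rw [LinearMap.comp_smul, LinearMap.smul_comp, comp_sum', sum_comp']
  congr 1
  exact Finset.sum_congr rfl fun g _ => swapT_comm _

theorem trace_P : LinearMap.trace ℂ _ (P ρ) =
    (Nat.card G : ℂ)⁻¹ * ∑ g : G, ρ.character g ^ 2 := by
  unfold P
  rw [map_smul, map_sum, smul_eq_mul]
  congr 1
  refine Finset.sum_congr rfl fun g _ => ?_
  rw [trace_sand, Matrix.trace_transpose, trace_X]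

theorem trace_swapT_P : LinearMap.trace ℂ _ (swapT ∘ₗ P ρ) =
    (Nat.card G : ℂ)⁻¹ * ∑ s : G, ρ.character (s * s) := by
  unfold P
  rw [LinearMap.comp_smul, map_smul, comp_sum', map_sum, smul_eq_mul]
  congr 1
  refine Finset.sum_congr rfl fun g _ => ?_
  rw [trace_swapT_sand, ← Matrix.transpose_mul, Matrix.trace_transpose, ← X_mul, trace_X]

theorem P_of_invariant {M : Matrix (Fin n) (Fin n) ℂ} (hM : ∀ g : G, (X ρ g)ᵀ * M * X ρ g = M) :
    P ρ M = M := by
  have hG : (Nat.card G : ℂ) ≠ 0 := Nat.cast_ne_zero.2 Nat.card_pos.ne'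
  unfold P
  rw [LinearMap.smul_apply, LinearMap.sum_apply]
  have : ∀ g : G, sand (X ρ g)ᵀ M = M := by
    intro g
    rw [sand_apply, Matrix.transpose_transpose, hM]
  simp only [this, Finset.sum_const, Finset.card_univ, Fintype.card_eq_nat_card]
  rw [← Nat.cast_smul_eq_nsmul ℂ, smul_smul, inv_mul_cancel₀ hG, one_smul]

/-- Let ρ be an irreducible representation of the finite group G on the coordinate space Fin n → ℂ whose character χ is real-valued, and let ν be the Frobenius–Schur indicator of χ (the average of χ(s²)). Writing X(g) for the matrix of ρ(g), there is a nonzero matrix M with X(g)ᵀ M X(g) = M for all g ∈ G; and every such M (zero or not) satisfies Mᵀ = ν·M. -/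
theorem result {G : Type*} [Group G] [Fintype G] (n : ℕ) (ρ : Representation ℂ G (Fin n → ℂ)) (hirr : ρ.IsIrreducible) (hreal : ∀ g : G, (ρ.character g).im = 0) : (∃ M : Matrix (Fin n) (Fin n) ℂ, M ≠ 0 ∧ ∀ g : G, (LinearMap.toMatrix' (ρ g)).transpose * M * LinearMap.toMatrix' (ρ g) = M) ∧ ∀ M : Matrix (Fin n) (Fin n) ℂ, (∀ g : G, (LinearMap.toMatrix' (ρ g)).transpose * M * LinearMap.toMatrix' (ρ g) = M) → M.transpose = ((Nat.card G : ℂ)⁻¹ * ∑ s : G, ρ.character (s * s)) • M := by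
  classical
  have htr : LinearMap.trace ℂ _ (P ρ) = 1 := by
    rw [trace_P, average_sq_eq ρ hirr, if_pos hreal]
  have hidem := P_idempotent ρ
  have hproj := LinearMap.IsIdempotentElem.isProj_range (P ρ) hidem
  rw [hproj.trace] at htr
  have h1 : finrank ℂ (LinearMap.range (P ρ)) = 1 := by exact_mod_cast htr
  obtain ⟨v, hv0, hv⟩ := finrank_eq_one_iff'.mp h1
  have hv0' : (v : Matrix (Fin n) (Fin n) ℂ) ≠ 0 := fun h => hv0 (Subtype.ext h)
  have hPv : P ρ (v : Matrix (Fin n) (Fin n) ℂ) = v := hproj.map_id _ v.2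
  constructor
  · refine ⟨v, hv0', fun g => ?_⟩
    have h2 := LinearMap.congr_fun (sand_comp_P ρ g) (v : Matrix (Fin n) (Fin n) ℂ)
    rw [LinearMap.comp_apply, hPv, sand_apply, Matrix.transpose_transpose] at h2
    exact h2
  · intro M hM
    have hM' := P_of_invariant ρ hM
    -- `swapT v` lies in the range
    have hTv : swapT (v : Matrix (Fin n) (Fin n) ℂ) ∈ LinearMap.range (P ρ) := by
      refine ⟨swapT (v : Matrix (Fin n) (Fin n) ℂ), ?_⟩
      have h2 := LinearMap.congr_fun (swapT_comp_P ρ) (v : Matrix (Fin n) (Fin n) ℂ)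
      rw [LinearMap.comp_apply, LinearMap.comp_apply, hPv] at h2
      exact h2.symm
    obtain ⟨c, hc⟩ := hv ⟨_, hTv⟩
    have hc' : c • (v : Matrix (Fin n) (Fin n) ℂ) = swapT (v : Matrix (Fin n) (Fin n) ℂ) :=
      congrArg Subtype.val hc
    have hTP : swapT ∘ₗ P ρ = c • P ρ := by
      apply LinearMap.ext
      intro u
      obtain ⟨b, hb⟩ := hv ⟨P ρ u, ⟨u, rfl⟩⟩
      have hb' : b • (v : Matrix (Fin n) (Fin n) ℂ) = P ρ u := congrArg Subtype.val hb
      rw [LinearMap.comp_apply, LinearMap.smul_apply, ← hb', map_smul, ← hc', smul_comm]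
    have hc2 : c = (Nat.card G : ℂ)⁻¹ * ∑ s : G, ρ.character (s * s) := by
      rw [← trace_swapT_P, hTP, map_smul, smul_eq_mul, hproj.trace, h1]
      simp
    rw [← hc2]
    have h3 := LinearMap.congr_fun hTP M
    rw [LinearMap.comp_apply, LinearMap.smul_apply, hM'] at h3
    exact h3

end Cfsg.Agent.S4475
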