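import Mathlib
import Cfsg.Statements.S4476
import Cfsg.Agent.S0159
import Cfsg.Agent.S0160
import Cfsg.Agent.Lib.CharKernel
import Cfsg.Agent.Lib.FrobeniusSchur

set_option autoImplicit false
set_option linter.style.haveILetI false
set_option linter.unusedSectionVars false
open Cfsg

namespace Cfsg.Agent.S4476

open Cfsg.Agent.Lib.CharBasic
open Cfsg.Agent.Lib.CharInd
open Cfsg.Agent.Lib.CharKernel

variable {G : Type*} [Group G] [Fintype G]

/-- The trivial character as a member of `IrrCharacter`. -/
noncomputable def triv : IrrCharacter G := ⟨fun _ => 1, isIrrCharacter_one⟩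

theorem charDegree_triv : charDegree ((triv : IrrCharacter G) : G → ℂ) = 1 := by
  have h := one_eq_charDegree (IsIrrCharacter.isCharacter (triv : IrrCharacter G).2)
  have h1 : ((charDegree ((triv : IrrCharacter G) : G → ℂ) : ℕ) : ℂ) = ((1 : ℕ) : ℂ) := by
    rw [← h]
    simp [triv]
  exact_mod_cast h1

/-- The Frobenius-Schur value. -/
noncomputable def nu (χ : IrrCharacter G) : ℂ :=
  (Nat.card G : ℂ)⁻¹ * ∑ s : G, (χ : G → ℂ) (s * s)

theorem nu_cases (χ : IrrCharacter G) : nu χ = 0 ∨ nu χ = 1 ∨ nu χ = -1 := by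
  obtain ⟨χ, n, ρ, hρ, rfl⟩ := χ
  exact (Cfsg.Agent.Lib.FrobeniusSchur.frobeniusSchur ρ hρ).1

theorem nu_eq_zero_iff (χ : IrrCharacter G) : nu χ = 0 ↔ ∃ s : G, ((χ : G → ℂ) s).im ≠ 0 := by
  obtain ⟨χ, n, ρ, hρ, rfl⟩ := χ
  exact (Cfsg.Agent.Lib.FrobeniusSchur.frobeniusSchur ρ hρ).2

theorem nu_triv : nu (triv : IrrCharacter G) = 1 := by
  unfold nu
  simp only [triv]
  have hG : (Nat.card G : ℂ) ≠ 0 := by exact_mod_cast Nat.card_pos.ne'
  simp [Nat.card_eq_fintype_card] at hG ⊢

open scoped Classical in
/-- The number of solutions of `s * s = 1`. -/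
theorem card_sq_eq (t : ℕ) (ht : Nat.card {x : G // orderOf x = 2} = t) :
    Nat.card {s : G // s * s = 1} = t + 1 := by
  classical
  have e : {s : G // s * s = 1} ≃ Option {x : G // orderOf x = 2} :=
    { toFun := fun s => if h : (s : G) = 1 then none else
        some ⟨s, by
          apply orderOf_eq_prime (p := 2) _ h
          rw [pow_two]
          exact s.2⟩
      invFun := fun o => match o with
        | none => ⟨1, by simp⟩
        | some x => ⟨x, by
            have := pow_orderOf_eq_one (x : G)
            rw [x.2, pow_two] at this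
            exact this⟩
      left_inv := by
        intro s
        by_cases h : (s : G) = 1
        · simp only [h, dif_pos]
          exact Subtype.ext h.symm
        · simp only [h, dif_neg, not_false_eq_true]
      right_inv := by
        intro o
        cases o with
        | none => simp
        | some x =>
          have hx : (x : G) ≠ 1 := by
            intro h
            have := x.2
            rw [h, orderOf_one] at this
            exact absurd this (by norm_num)
          simp [hx] }
  rw [Nat.card_congr e, ← ht]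
  simp [Nat.card_eq_fintype_card]

open scoped Classical in
/-- The real nonprincipal irreducible characters. -/
noncomputable def R (G : Type*) [Group G] [Fintype G] : Finset (IrrCharacter G) :=
  (Finset.univ.erase triv).filter fun χ => ∀ g : G, ((χ : G → ℂ) g).im = 0

open scoped Classical in
/-- The real nonidentity classes. -/
noncomputable def Cl (G : Type*) [Group G] [Fintype G] [Fintype (ConjClasses G)] :
    Finset (ConjClasses G) :=
  (Finset.univ.filter fun C => ∀ g : G, ConjClasses.mk g = C → IsConj g g⁻¹).erase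
    (ConjClasses.mk 1)

theorem mem_R {χ : IrrCharacter G} :
    χ ∈ R G ↔ χ ≠ triv ∧ ∀ g : G, ((χ : G → ℂ) g).im = 0 := by
  simp [R]

/-- Degree sum estimate. -/
theorem t_le_sum (t : ℕ) (ht : Nat.card {x : G // orderOf x = 2} = t) :
    (t : ℝ) ≤ ∑ χ ∈ R G, (charDegree (χ : G → ℂ) : ℝ) := by
  classical
  have h1 := Cfsg.Agent.S0159.result (G := G)
  rw [card_sq_eq t ht, finsum_eq_sum_of_fintype] at h1
  have h2 := congrArg Complex.re h1
  simp only [Complex.re_sum] at h2
  have h3 : ∀ χ : IrrCharacter G, (((Nat.card G : ℂ)⁻¹ * ∑ s : G, (χ : G → ℂ) (s * s)) * (χ : G → ℂ) 1).re =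
      (nu χ).re * (charDegree (χ : G → ℂ) : ℝ) := by
    intro χ
    rw [one_eq_charDegree (IsIrrCharacter.isCharacter χ.2)]
    change (nu χ * ((charDegree (χ : G → ℂ) : ℕ) : ℂ)).re = _
    simp
  simp only [h3] at h2
  rw [← Finset.add_sum_erase Finset.univ _ (Finset.mem_univ (triv : IrrCharacter G)), nu_triv,
    charDegree_triv] at h2
  have h4 : (t : ℝ) = ∑ χ ∈ Finset.univ.erase (triv : IrrCharacter G),
      (nu χ).re * (charDegree (χ : G → ℂ) : ℝ) := by
    have h5 : (((t + 1 : ℕ) : ℂ)).re = (t : ℝ) + 1 := by simp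
    have h6 : ((1 : ℂ)).re * ((1 : ℕ) : ℝ) = 1 := by simp
    rw [h5, h6] at h2
    linarith
  rw [h4]
  unfold R
  rw [Finset.sum_filter]
  refine Finset.sum_le_sum fun χ _ => ?_
  have hd : (0 : ℝ) ≤ (charDegree (χ : G → ℂ) : ℝ) := by positivity
  rcases nu_cases χ with h | h | h
  · rw [h]
    split_ifs <;> simp [hd]
  · have hr : ∀ g : G, ((χ : G → ℂ) g).im = 0 := by
      by_contra hc
      push Not at hc
      have := (nu_eq_zero_iff χ).mpr hc
      rw [h] at this
      exact one_ne_zero this
    rw [if_pos hr, h]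
    simp
  · have hr : ∀ g : G, ((χ : G → ℂ) g).im = 0 := by
      by_contra hc
      push Not at hc
      have := (nu_eq_zero_iff χ).mpr hc
      rw [h] at this
      simp at this
    rw [if_pos hr, h]
    simp

/-- Sum of squares estimate. -/
theorem sum_sq_le :
    ∑ χ ∈ R G, ((charDegree (χ : G → ℂ) : ℝ)) ^ 2 ≤ (Nat.card G : ℝ) - 1 := by
  classical
  have h1 := sum_charDegree_sq (G := G)
  have h2 : (∑ χ : IrrCharacter G, ((charDegree (χ : G → ℂ) : ℝ)) ^ 2) = (Nat.card G : ℝ) := by
    exact_mod_cast h1
  rw [← Finset.add_sum_erase Finset.univ _ (Finset.mem_univ (triv : IrrCharacter G)),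
    charDegree_triv] at h2
  have h3 : ∑ χ ∈ R G, ((charDegree (χ : G → ℂ) : ℝ)) ^ 2 ≤
      ∑ χ ∈ Finset.univ.erase (triv : IrrCharacter G), ((charDegree (χ : G → ℂ) : ℝ)) ^ 2 := by
    apply Finset.sum_le_sum_of_subset_of_nonneg
    · exact Finset.filter_subset _ _
    · intro i _ _
      positivity
  have h6 : (((1 : ℕ) : ℝ)) ^ 2 = 1 := by simp
  rw [h6] at h2
  linarith

/-- The count of real classes. -/
theorem card_R_eq [Fintype (ConjClasses G)] : (R G).card = (Cl G).card := by
  classical
  have h := Cfsg.Agent.S0160.result (G := G)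
  rw [Nat.card_eq_fintype_card, Nat.card_eq_fintype_card, Fintype.card_subtype,
    Fintype.card_subtype] at h
  unfold R Cl
  rw [Finset.card_erase_of_mem, ← h]
  · have : (Finset.univ.erase (triv : IrrCharacter G)).filter
          (fun χ : IrrCharacter G => ∀ g : G, ((χ : G → ℂ) g).im = 0)
        = (Finset.univ.filter (fun χ : IrrCharacter G => ∀ g : G, ((χ : G → ℂ) g).im = 0)).erase triv := by
      ext χ
      simp only [Finset.mem_filter, Finset.mem_erase, Finset.mem_univ, and_true, true_and]
    rw [this, Finset.card_erase_of_mem]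
    simp [triv]
  · simp only [Finset.mem_filter, Finset.mem_univ, true_and]
    intro g hg
    have : g = 1 := by
      have h1 := ConjClasses.mk_eq_mk_iff_isConj.mp hg
      exact isConj_one_left.mp h1
    simp [this]

open scoped Classical in
/-- Size of a class as an index. -/
theorem card_fiber_eq [Fintype (ConjClasses G)] (x : G) :
    (Finset.univ.filter fun y : G => ConjClasses.mk y = ConjClasses.mk x).card =
      (Subgroup.centralizer ({x} : Set G)).index := by
  classical
  have h1 := card_conj_mul_card_centralizer x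
  have h2 := (Subgroup.centralizer ({x} : Set G)).card_mul_index
  have h3 : Nat.card {y : G // IsConj x y} =
      (Finset.univ.filter fun y : G => ConjClasses.mk y = ConjClasses.mk x).card := by
    rw [Nat.card_eq_fintype_card, Fintype.card_subtype]
    congr 1
    ext y
    simp only [Finset.mem_filter, Finset.mem_univ, true_and]
    rw [ConjClasses.mk_eq_mk_iff_isConj]
    exact ⟨fun h => h.symm, fun h => h.symm⟩
  rw [← h3]
  have h4 : 0 < Nat.card (Subgroup.centralizer ({x} : Set G)) := Nat.card_pos
  apply Nat.eq_of_mul_eq_mul_right h4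
  rw [h1, mul_comm, h2]

open scoped Classical in
/-- Sum of sizes of real nonidentity classes. -/
theorem sum_fibers_le [Fintype (ConjClasses G)] :
    ∑ c ∈ Cl G, ((Finset.univ.filter fun y : G => ConjClasses.mk y = c).card) ≤ Nat.card G - 1 := by
  classical
  have h1 : ((Finset.univ.erase (1 : G)).filter fun y => ConjClasses.mk y ∈ Cl G).card =
      ∑ c ∈ Cl G, (((Finset.univ.erase (1 : G)).filter fun y => ConjClasses.mk y ∈ Cl G).filter
        fun y => ConjClasses.mk y = c).card := by
    apply Finset.card_eq_sum_card_fiberwise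
    intro y hy
    exact (Finset.mem_filter.mp hy).2
  have h2 : ∀ c ∈ Cl G, (((Finset.univ.erase (1 : G)).filter fun y => ConjClasses.mk y ∈ Cl G).filter
        fun y => ConjClasses.mk y = c) = Finset.univ.filter fun y : G => ConjClasses.mk y = c := by
    intro c hc
    ext y
    simp only [Finset.mem_filter, Finset.mem_erase, Finset.mem_univ, and_true, true_and]
    constructor
    · exact fun h => h.2
    · intro h
      refine ⟨⟨?_, h ▸ hc⟩, h⟩
      rintro rfl
      have := (Finset.mem_erase.mp hc).1
      exact this h.symm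
  rw [Finset.sum_congr rfl (fun c hc => by rw [← h2 c hc]), ← h1]
  calc _ ≤ (Finset.univ.erase (1 : G)).card := Finset.card_filter_le _ _
    _ = _ := by
      rw [Finset.card_erase_of_mem (Finset.mem_univ _), Finset.card_univ, Nat.card_eq_fintype_card]

/-- Let G be a finite group of even order g with exactly t involutions, and put α = (g − 1)/t (a rational number). Then (a) some non-identity element x of G has at most α² conjugates; and (b) some non-principal real-valued irreducible character of G has degree at most α. -/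
theorem result {G : Type*} [Group G] [Fintype G] (heven : Even (Nat.card G)) (t : ℕ) (ht : Nat.card {x : G // orderOf x = 2} = t) : (∃ x : G, x ≠ 1 ∧ ((Subgroup.centralizer ({x} : Set G)).index : ℚ) ≤ (((Nat.card G : ℚ) - 1) / t) ^ 2) ∧ ∃ χ : Cfsg.IrrCharacter G, (χ : G → ℂ) ≠ (fun _ => 1) ∧ (∀ g : G, ((χ : G → ℂ) g).im = 0) ∧ (Cfsg.charDegree (χ : G → ℂ) : ℚ) ≤ ((Nat.card G : ℚ) - 1) / t := by
  classical
  haveI : Fintype (ConjClasses G) := Fintype.ofFinite _
  -- positivity of `t`
  have ht0 : 0 < t := by
    have h2 : 2 ∣ Nat.card G := heven.two_dvd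
    haveI : Fact (Nat.Prime 2) := ⟨Nat.prime_two⟩
    obtain ⟨x, hx⟩ := exists_prime_orderOf_dvd_card' 2 h2
    rw [← ht]
    haveI : Nonempty {x : G // orderOf x = 2} := ⟨⟨x, hx⟩⟩
    exact Nat.card_pos
  have hg1 : 2 ≤ Nat.card G := Nat.le_of_dvd Nat.card_pos heven.two_dvd
  have hH1 := t_le_sum t ht
  have hH2 := sum_sq_le (G := G)
  have hH1q : (t : ℚ) ≤ ∑ χ ∈ R G, (charDegree (χ : G → ℂ) : ℚ) := by
    exact_mod_cast hH1
  have hH2q : ∑ χ ∈ R G, ((charDegree (χ : G → ℂ) : ℚ)) ^ 2 ≤ (Nat.card G : ℚ) - 1 := by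
    have h : ((∑ χ ∈ R G, ((charDegree (χ : G → ℂ) : ℚ)) ^ 2 : ℚ) : ℝ) ≤ (((Nat.card G : ℚ) - 1 : ℚ) : ℝ) := by
      push_cast
      exact hH2
    exact_mod_cast h
  have htq : (0 : ℚ) < t := by exact_mod_cast ht0
  have hgq : (0 : ℚ) < (Nat.card G : ℚ) - 1 := by
    have : (2 : ℚ) ≤ Nat.card G := by exact_mod_cast hg1
    linarith
  set g1 := (Nat.card G : ℚ) - 1 with hg1def
  constructor
  · -- part (a)
    by_contra hcon
    push Not at hcon
    have hCS : (∑ χ ∈ R G, (charDegree (χ : G → ℂ) : ℚ)) ^ 2 ≤
        ((R G).card : ℚ) * ∑ χ ∈ R G, ((charDegree (χ : G → ℂ) : ℚ)) ^ 2 :=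
      sq_sum_le_card_mul_sum_sq
    have ht2 : (t : ℚ) ^ 2 ≤ ((R G).card : ℚ) * g1 := by
      calc (t : ℚ) ^ 2 ≤ (∑ χ ∈ R G, (charDegree (χ : G → ℂ) : ℚ)) ^ 2 := by
            exact pow_le_pow_left₀ htq.le hH1q 2
        _ ≤ _ := hCS
        _ ≤ _ := by
            exact mul_le_mul_of_nonneg_left hH2q (by positivity)
    have hr : 0 < (R G).card := by
      by_contra h
      have h0 : (R G).card = 0 := by omega
      rw [h0] at ht2
      simp only [Nat.cast_zero, zero_mul] at ht2
      have : (0 : ℚ) < (t : ℚ) ^ 2 := by positivity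
      linarith
    -- each real class has size larger than `α ^ 2`
    have hfib : ∀ c ∈ Cl G, (g1 / t) ^ 2 <
        ((Finset.univ.filter fun y : G => ConjClasses.mk y = c).card : ℚ) := by
      intro c hc
      obtain ⟨x, rfl⟩ := ConjClasses.mk_surjective c
      rw [card_fiber_eq]
      apply hcon
      rintro rfl
      exact (Finset.mem_erase.mp hc).1 rfl
    have hsum : ((Cl G).card : ℚ) * (g1 / t) ^ 2 <
        ∑ c ∈ Cl G, ((Finset.univ.filter fun y : G => ConjClasses.mk y = c).card : ℚ) := by
      rw [← nsmul_eq_mul, ← Finset.sum_const]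
      exact Finset.sum_lt_sum_of_nonempty
        (Finset.card_pos.mp (by rw [← card_R_eq (G := G)]; exact hr)) hfib
    have hsum2 : ∑ c ∈ Cl G, ((Finset.univ.filter fun y : G => ConjClasses.mk y = c).card : ℚ) ≤ g1 := by
      have := sum_fibers_le (G := G)
      have h2 : ((∑ c ∈ Cl G, ((Finset.univ.filter fun y : G => ConjClasses.mk y = c).card) : ℕ) : ℚ) ≤
          ((Nat.card G - 1 : ℕ) : ℚ) := by exact_mod_cast this
      rw [Nat.cast_sub (by omega)] at h2
      push_cast at h2
      exact h2
    have hfin : ((R G).card : ℚ) * (g1 / t) ^ 2 < g1 := by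
      rw [card_R_eq (G := G)]
      linarith
    have h5 : ((R G).card : ℚ) * g1 < t ^ 2 := by
      have h6 : ((R G).card : ℚ) * (g1 / t) ^ 2 = ((R G).card : ℚ) * g1 / t ^ 2 * g1 := by
        field_simp
      rw [h6] at hfin
      have h7 : ((R G).card : ℚ) * g1 / t ^ 2 < 1 := by
        by_contra h
        push Not at h
        nlinarith
      rwa [div_lt_one (by positivity)] at h7
    linarith
  · -- part (b)
    by_contra hcon
    push Not at hcon
    have hall : ∀ χ ∈ R G, g1 / t < (charDegree (χ : G → ℂ) : ℚ) := by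
      intro χ hχ
      obtain ⟨h1, h2⟩ := mem_R.mp hχ
      apply hcon χ _ h2
      intro h3
      apply h1
      apply Subtype.ext
      exact h3
    have hne : (R G).Nonempty := by
      by_contra h
      rw [Finset.not_nonempty_iff_eq_empty] at h
      rw [h] at hH1q
      simp only [Finset.sum_empty] at hH1q
      linarith
    have h1 : (g1 / t) * ∑ χ ∈ R G, (charDegree (χ : G → ℂ) : ℚ) <
        ∑ χ ∈ R G, ((charDegree (χ : G → ℂ) : ℚ)) ^ 2 := by
      rw [Finset.mul_sum]
      apply Finset.sum_lt_sum_of_nonempty hne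
      intro χ hχ
      have h2 := hall χ hχ
      have h3 : (0 : ℚ) < g1 / t := by positivity
      rw [pow_two]
      exact mul_lt_mul_of_pos_right h2 (lt_trans h3 h2)
    have h2 : g1 ≤ (g1 / t) * ∑ χ ∈ R G, (charDegree (χ : G → ℂ) : ℚ) := by
      have h3 : (0 : ℚ) < g1 / t := by positivity
      calc g1 = (g1 / t) * t := by field_simp
        _ ≤ _ := mul_le_mul_of_nonneg_left hH1q h3.le
    linarith

end Cfsg.Agent.S4476
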