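import Mathlib
import Cfsg.Statements.S4477
import Cfsg.Agent.S4476
import Cfsg.Agent.S0159
import Cfsg.Agent.Lib.CharTwist
import Cfsg.Agent.Lib.GenChar
import Cfsg.Agent.Lib.NilpAbel
import Cfsg.Agent.Lib.LinTwist

set_option autoImplicit false
set_option linter.style.haveILetI false
set_option linter.unusedSectionVars false
open Cfsg

namespace Cfsg.Agent.S4477

open Cfsg.Agent.Lib.CharBasic Cfsg.Agent.Lib.CharKernel Cfsg.Agent.Lib.CharTwist
open scoped ComplexConjugate

section Abelian

variable {A : Type*} [CommGroup A] [Finite A]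

/-- A finite abelian `2`-group in which every element is a square is trivial. -/
theorem eq_one_of_sq_surj (h2 : IsPGroup 2 A) (hs : ∀ a : A, ∃ b : A, b ^ 2 = a) (a : A) : a = 1 := by
  have hinj : Function.Injective (powMonoidHom 2 : A →* A) :=
    Finite.injective_iff_surjective.mpr (fun a => by
      obtain ⟨b, hb⟩ := hs a
      exact ⟨b, hb⟩)
  obtain ⟨k, hk⟩ := h2 a
  induction k generalizing a with
  | zero => simpa using hk
  | succ k ih =>
    have h1 : a ^ 2 = 1 := by
      apply ih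
      rw [← pow_mul, ← pow_succ']
      exact hk
    apply hinj
    simpa using h1

/-- `A / A^k`. -/
abbrev BB (A : Type*) [CommGroup A] (k : ℕ) : Type _ := A ⧸ (powMonoidHom k : A →* A).range

theorem pow_mem_range (k : ℕ) (a : A) : a ^ k ∈ (powMonoidHom k : A →* A).range := ⟨a, rfl⟩

theorem mk_pow_eq_one (k : ℕ) (x : BB A k) : x ^ k = 1 := by
  obtain ⟨a, rfl⟩ := QuotientGroup.mk_surjective x
  rw [← QuotientGroup.mk_pow]
  exact (QuotientGroup.eq_one_iff _).mpr (pow_mem_range k a)

theorem isCyclic_of_card_le (h2 : IsPGroup 2 A) (h : Nat.card (BB A 2) ≤ 2) : IsCyclic A := by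
  have hc : IsCyclic (BB A 2) := by
    have h0 : 0 < Nat.card (BB A 2) := Nat.card_pos
    interval_cases hn : Nat.card (BB A 2)
    · haveI : Subsingleton (BB A 2) := (Nat.card_eq_one_iff_unique.mp hn).1
      infer_instance
    · haveI : Fact (Nat.Prime 2) := ⟨Nat.prime_two⟩
      exact isCyclic_of_prime_card hn
  obtain ⟨g, hg⟩ := hc.exists_generator
  obtain ⟨x, rfl⟩ := QuotientGroup.mk_surjective g
  have hH : IsPGroup 2 (A ⧸ Subgroup.zpowers x) := h2.to_quotient _
  have hs : ∀ h : A ⧸ Subgroup.zpowers x, ∃ b, b ^ 2 = h := by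
    intro h
    obtain ⟨y, rfl⟩ := QuotientGroup.mk_surjective h
    obtain ⟨n, hn⟩ := hg (y : BB A 2)
    have h3 : ((x ^ n : A) : BB A 2) = (y : BB A 2) := by
      rw [QuotientGroup.mk_zpow]
      exact hn
    rw [QuotientGroup.eq] at h3
    obtain ⟨z, hz⟩ := h3
    refine ⟨(z : A ⧸ Subgroup.zpowers x), ?_⟩
    rw [← QuotientGroup.mk_pow, QuotientGroup.eq]
    have hz' : z ^ 2 = (x ^ n)⁻¹ * y := hz
    rw [hz']
    refine Subgroup.mem_zpowers_iff.mpr ⟨n, ?_⟩
    rw [mul_inv_rev, inv_inv, mul_comm (y⁻¹), mul_assoc, inv_mul_cancel, mul_one]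
  have htriv := eq_one_of_sq_surj hH hs
  refine ⟨x, fun y => ?_⟩
  have := htriv (y : A ⧸ Subgroup.zpowers x)
  exact (QuotientGroup.eq_one_iff _).mp this

end Abelian

section Twist

variable {G : Type*} [Group G] [Fintype G]

theorem isIrr_tw (l : G →* ℂˣ) (χ : IrrCharacter G) :
    IsIrrCharacter G (fun g => (χ : G → ℂ) g * ((l g : ℂˣ) : ℂ)) := by
  apply isIrrCharacter_of_norm_one
    (isCharacter_mul (IsIrrCharacter.isCharacter χ.2) (IsIrrCharacter.isCharacter (isIrrCharacter_of_hom l)))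
  have h1 := classInner_irr_self χ.2
  rw [← h1]
  unfold classInner
  congr 1
  refine Finset.sum_congr rfl fun g _ => ?_
  have h := hom_mul_conj l g
  simp only [Pi.mul_apply]
  rw [map_mul]
  linear_combination ((χ : G → ℂ) g * conj ((χ : G → ℂ) g)) * h

/-- Twisting an irreducible character by a linear character. -/
noncomputable def tw (l : G →* ℂˣ) (χ : IrrCharacter G) : IrrCharacter G :=
  ⟨fun g => (χ : G → ℂ) g * ((l g : ℂˣ) : ℂ), isIrr_tw l χ⟩

theorem tw_apply (l : G →* ℂˣ) (χ : IrrCharacter G) (g : G) :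
    ((tw l χ : IrrCharacter G) : G → ℂ) g = (χ : G → ℂ) g * ((l g : ℂˣ) : ℂ) := rfl

noncomputable instance actI : MulAction (G →* ℂˣ) (IrrCharacter G) where
  smul := tw
  one_smul χ := by
    apply Subtype.ext
    funext g
    show (χ : G → ℂ) g * (((1 : G →* ℂˣ) g : ℂˣ) : ℂ) = _
    simp
  mul_smul a b χ := by
    apply Subtype.ext
    funext g
    show (χ : G → ℂ) g * (((a * b : G →* ℂˣ) g : ℂˣ) : ℂ) =
      ((χ : G → ℂ) g * ((b g : ℂˣ) : ℂ)) * ((a g : ℂˣ) : ℂ)
    simp only [MonoidHom.mul_apply, Units.val_mul]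
    ring

theorem smul_apply (l : G →* ℂˣ) (χ : IrrCharacter G) (g : G) :
    ((l • χ : IrrCharacter G) : G → ℂ) g = (χ : G → ℂ) g * ((l g : ℂˣ) : ℂ) := rfl

/-- The `k`-torsion of the group of linear characters. -/
abbrev DD (G : Type*) [Group G] (k : ℕ) : Subgroup (G →* ℂˣ) :=
  (powMonoidHom k : (G →* ℂˣ) →* (G →* ℂˣ)).ker

theorem mem_DD {k : ℕ} {l : G →* ℂˣ} : l ∈ DD G k ↔ l ^ k = 1 := by
  simp [DD, MonoidHom.mem_ker]

theorem isP_DD (k : ℕ) : IsPGroup 2 (DD G (2 ^ k)) := by
  rintro ⟨l, hl⟩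
  refine ⟨k, Subtype.ext ?_⟩
  simpa using (mem_DD.mp hl)

def RealP (χ : IrrCharacter G) : Prop := ∀ g, ((χ : G → ℂ) g).im = 0

theorem charDegree_smul (l : G →* ℂˣ) (χ : IrrCharacter G) :
    charDegree ((l • χ : IrrCharacter G) : G → ℂ) = charDegree (χ : G → ℂ) := by
  unfold charDegree
  rw [smul_apply]
  simp

theorem val_real_of_sq {u : ℂˣ} (h : u ^ 2 = 1) : ((u : ℂˣ) : ℂ).im = 0 := by
  have h1 : ((u : ℂˣ) : ℂ) ^ 2 = 1 := by
    rw [← Units.val_pow_eq_pow_val, h, Units.val_one]
  have h2 : (((u : ℂˣ) : ℂ) - 1) * (((u : ℂˣ) : ℂ) + 1) = 0 := by linear_combination h1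
  rcases mul_eq_zero.mp h2 with h2 | h2
  · rw [sub_eq_zero.mp h2]
    simp
  · rw [eq_neg_of_add_eq_zero_left h2]
    simp

instance : SMulCommClass (G →* ℂˣ) (G →* ℂˣ) (IrrCharacter G) := ⟨fun a b χ => by
  rw [← mul_smul, mul_comm a b, mul_smul]⟩

/-- The real characters of degree two, with the action of the real linear characters. -/
def RR (G : Type*) [Group G] [Fintype G] : SubMulAction (DD G (2 ^ 1)) (IrrCharacter G) where
  carrier := {χ | charDegree (χ : G → ℂ) = 2 ∧ RealP χ}
  smul_mem' := by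
    rintro ⟨l, hl⟩ χ ⟨h1, h2⟩
    refine ⟨?_, fun g => ?_⟩
    · exact (charDegree_smul l χ).trans h1
    · show (((χ : G → ℂ) g) * ((l g : ℂˣ) : ℂ)).im = 0
      have h3 : (l g) ^ 2 = 1 := by
        have := congrArg (fun m : G →* ℂˣ => m g) (mem_DD.mp hl)
        simpa using this
      rw [Complex.mul_im, h2 g, val_real_of_sq h3]
      simp

/-- Those fixed by all real linear characters, with the action of the order-dividing-four ones. -/
def FF (G : Type*) [Group G] [Fintype G] : SubMulAction (DD G (2 ^ 2)) (IrrCharacter G) where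
  carrier := {χ | charDegree (χ : G → ℂ) = 2 ∧ RealP χ ∧ ∀ l ∈ DD G (2 ^ 1), l • χ = χ}
  smul_mem' := by
    rintro ⟨l, hl⟩ χ ⟨h1, h2, h3⟩
    refine ⟨?_, fun g => ?_, fun m hm => ?_⟩
    · exact (charDegree_smul l χ).trans h1
    · show (((χ : G → ℂ) g) * ((l g : ℂˣ) : ℂ)).im = 0
      have h4 : l ^ 2 ∈ DD G (2 ^ 1) := by
        rw [mem_DD, ← pow_mul]
        exact mem_DD.mp hl
      have h5 := h3 _ h4
      have h6 : (χ : G → ℂ) g * (((l ^ 2) g : ℂˣ) : ℂ) = (χ : G → ℂ) g := by
        have := congrFun (congrArg Subtype.val h5) g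
        exact this
      by_cases h0 : (χ : G → ℂ) g = 0
      · simp [h0]
      · have h7 : (((l ^ 2) g : ℂˣ) : ℂ) = 1 := by
          apply mul_left_cancel₀ h0
          rw [h6, mul_one]
        have h8 : (l g) ^ 2 = 1 := by
          apply Units.ext
          rw [Units.val_one, ← h7]
          simp
        rw [Complex.mul_im, h2 g, val_real_of_sq h8]
        simp
    · show m • ((l : G →* ℂˣ) • χ) = (l : G →* ℂˣ) • χ
      rw [smul_comm, h3 m hm]

end Twist

section Count

variable {G : Type*} [Group G] [Fintype G]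

/-- The parity transfer. -/
theorem exists_fixed (hr : Nat.card (RR G) % 2 = 1) :
    ∃ χ : IrrCharacter G, charDegree (χ : G → ℂ) = 2 ∧ ∀ l ∈ DD G (2 ^ 2), l • χ = χ := by
  classical
  haveI : Fact (Nat.Prime 2) := ⟨Nat.prime_two⟩
  have h1 := (isP_DD (G := G) 1).card_modEq_card_fixedPoints (RR G)
  have h2 := (isP_DD (G := G) 2).card_modEq_card_fixedPoints (FF G)
  have e : MulAction.fixedPoints (DD G (2 ^ 1)) (RR G) ≃ FF G :=
    { toFun := fun x => ⟨x.1.1, x.1.2.1, x.1.2.2, fun l hl => by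
        have := x.2 ⟨l, hl⟩
        exact congrArg Subtype.val this⟩
      invFun := fun x => ⟨⟨x.1, x.2.1, x.2.2.1⟩, fun l => Subtype.ext (x.2.2.2 l.1 l.2)⟩
      left_inv := fun _ => rfl
      right_inv := fun _ => rfl }
  rw [Nat.card_congr e] at h1
  have h3 : Nat.card (MulAction.fixedPoints (DD G (2 ^ 2)) (FF G)) % 2 = 1 := by
    have h4 := h1.trans h2
    unfold Nat.ModEq at h4
    omega
  have h5 : Nonempty (MulAction.fixedPoints (DD G (2 ^ 2)) (FF G)) := by
    by_contra hne
    rw [not_nonempty_iff] at hne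
    rw [Nat.card_of_isEmpty] at h3
    omega
  obtain ⟨⟨⟨χ, hχ⟩, hfix⟩⟩ := h5
  refine ⟨χ, hχ.1, fun l hl => ?_⟩
  have := hfix ⟨l, hl⟩
  exact congrArg Subtype.val this

/-- The real linear characters. -/
abbrev LL (G : Type*) [Group G] : Type _ := {χ : IrrCharacter G // charDegree (χ : G → ℂ) = 1 ∧ RealP χ}

theorem nu_of_linear (f : G →* ℂˣ) (h : ∀ g, ((f g : ℂˣ) : ℂ).im = 0) :
    (Nat.card G : ℂ)⁻¹ * ∑ s : G, ((f (s * s) : ℂˣ) : ℂ) = 1 := by
  have hG : (Nat.card G : ℂ) ≠ 0 := by exact_mod_cast Nat.card_pos.ne'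
  have h1 : ∀ s : G, ((f (s * s) : ℂˣ) : ℂ) = 1 := by
    intro s
    rw [map_mul, Units.val_mul]
    exact Cfsg.Agent.Lib.LinTwist.sq_eq_one_of_real f s (h s)
  simp only [h1]
  rw [Finset.sum_const, Finset.card_univ, ← Nat.card_eq_fintype_card]
  simp

/-- Real linear characters correspond to `2`-torsion. -/
theorem card_LL : Nat.card (LL G) = Nat.card (DD G (2 ^ 1)) := by
  classical
  symm
  refine Nat.card_congr (Equiv.ofBijective (fun l => (⟨⟨fun g => ((l.1 g : ℂˣ) : ℂ),
    isIrrCharacter_of_hom l.1⟩, ?_, ?_⟩ : LL G)) ⟨?_, ?_⟩)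
  · apply Cfsg.Agent.Lib.LinTwist.charDegree_eq_of_one
    simp
  · intro g
    have h3 : (l.1 g) ^ 2 = 1 := by
      have := congrArg (fun m : G →* ℂˣ => m g) (mem_DD.mp l.2)
      simpa using this
    exact val_real_of_sq h3
  · intro a b hab
    apply Subtype.ext
    ext g
    exact congrFun (congrArg Subtype.val (congrArg Subtype.val hab)) g
  · rintro ⟨χ, h1, h2⟩
    have h3 : (χ : G → ℂ) 1 = 1 := by
      have := one_eq_charDegree (IsIrrCharacter.isCharacter χ.2)
      rw [h1] at this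
      simpa using this
    obtain ⟨f, hf⟩ := exists_hom_of_degree_one (IsIrrCharacter.isCharacter χ.2) h3
    have hf2 : ∀ g, ((f g : ℂˣ) : ℂ).im = 0 := by
      intro g
      rw [← hf]
      exact h2 g
    refine ⟨⟨f, mem_DD.mpr ?_⟩, ?_⟩
    · ext g
      have := Cfsg.Agent.Lib.LinTwist.sq_eq_one_of_real f g (hf2 g)
      simp only [pow_one, MonoidHom.pow_apply, Units.val_pow_eq_pow_val, MonoidHom.one_apply, Units.val_one]
      rw [pow_two]
      exact this
    · apply Subtype.ext
      apply Subtype.ext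
      funext g
      exact (hf g).symm

open Cfsg.Agent.S4476 in
theorem sum_mod (hG : IsPGroup 2 G) (t : ℕ) (ht : Nat.card {x : G // orderOf x = 2} = t) :
    ((t + 1 : ℕ) : ZMod 4) = (Nat.card (LL G) : ZMod 4) + 2 * (Nat.card (RR G) : ZMod 4) := by
  classical
  have h1 := Cfsg.Agent.S0159.result (G := G)
  rw [card_sq_eq t ht, finsum_eq_sum_of_fintype] at h1
  have hnu : ∀ χ : IrrCharacter G, ∃ e : ℤ, nu χ = e ∧ (e = 0 ∨ e = 1 ∨ e = -1) := by
    intro χ
    rcases nu_cases χ with h | h | h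
    · exact ⟨0, by simp [h], by simp⟩
    · exact ⟨1, by simp [h], by simp⟩
    · exact ⟨-1, by simp [h], by simp⟩
  choose e he1 he2 using hnu
  have h2 : ((t + 1 : ℕ) : ℤ) = ∑ χ : IrrCharacter G, e χ * (charDegree (χ : G → ℂ) : ℤ) := by
    have h3 : (((t + 1 : ℕ) : ℤ) : ℂ) = ((∑ χ : IrrCharacter G, e χ * (charDegree (χ : G → ℂ) : ℤ) : ℤ) : ℂ) := by
      push_cast
      have h4 := h1
      push_cast at h4
      rw [h4]
      refine Finset.sum_congr rfl fun χ _ => ?_
      rw [one_eq_charDegree (IsIrrCharacter.isCharacter χ.2), ← he1 χ]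
      rfl
    exact_mod_cast h3
  have h3 : ((t + 1 : ℕ) : ZMod 4) =
      ∑ χ : IrrCharacter G, ((e χ : ZMod 4) * ((charDegree (χ : G → ℂ) : ℕ) : ZMod 4)) := by
    have := congrArg (Int.cast : ℤ → ZMod 4) h2
    push_cast at this ⊢
    exact this
  obtain ⟨n, hn⟩ := IsPGroup.iff_card.mp hG
  have hterm : ∀ χ : IrrCharacter G, (e χ : ZMod 4) * ((charDegree (χ : G → ℂ) : ℕ) : ZMod 4) =
      (if charDegree (χ : G → ℂ) = 1 ∧ RealP χ then 1 else 0) +
        2 * (if charDegree (χ : G → ℂ) = 2 ∧ RealP χ then 1 else 0) := by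
    intro χ
    by_cases hr : RealP χ
    · have hne : e χ ≠ 0 := by
        intro h0
        have h5 : nu χ = 0 := by rw [he1 χ, h0]; simp
        obtain ⟨s, hs⟩ := (nu_eq_zero_iff χ).mp h5
        exact hs (hr s)
      by_cases h11 : charDegree (χ : G → ℂ) = 1
      · have h12 : (χ : G → ℂ) 1 = 1 := by
          have := one_eq_charDegree (IsIrrCharacter.isCharacter χ.2)
          rw [h11] at this
          simpa using this
        obtain ⟨f, hf⟩ := exists_hom_of_degree_one (IsIrrCharacter.isCharacter χ.2) h12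
        have h13 : nu χ = 1 := by
          unfold nu
          simp only [hf]
          apply nu_of_linear
          intro g
          rw [← hf]
          exact hr g
        have h14 : e χ = 1 := by
          have h15 : ((e χ : ℤ) : ℂ) = ((1 : ℤ) : ℂ) := by
            rw [← he1 χ, h13]
            simp
          exact_mod_cast h15
        rw [h14, h11, if_pos ⟨rfl, hr⟩, if_neg (by simp)]
        simp
      · by_cases h21 : charDegree (χ : G → ℂ) = 2
        · rw [h21, if_neg (by simp), if_pos ⟨rfl, hr⟩]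
          rcases he2 χ with h | h | h
          · exact absurd h hne
          · rw [h]
            simp
          · rw [h]
            decide
        · rw [if_neg (fun h => h11 h.1), if_neg (fun h => h21 h.1)]
          have hd := charDegree_dvd_card (χ : IrrCharacter G).2
          rw [hn] at hd
          obtain ⟨k, _, hk⟩ := (Nat.dvd_prime_pow Nat.prime_two).mp hd
          have hk2 : 2 ≤ k := by
            by_contra hlt
            have : k = 0 ∨ k = 1 := by omega
            rcases this with rfl | rfl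
            · exact h11 (by simpa using hk)
            · exact h21 (by simpa using hk)
          have h4d : 4 ∣ charDegree (χ : G → ℂ) := by
            rw [hk]
            exact (by norm_num : (4 : ℕ) = 2 ^ 2) ▸ pow_dvd_pow 2 hk2
          have h0 : ((charDegree (χ : G → ℂ) : ℕ) : ZMod 4) = 0 :=
            (ZMod.natCast_eq_zero_iff _ _).mpr h4d
          rw [h0]
          simp
    · have h0 : e χ = 0 := by
        have h5 : nu χ = 0 := by
          apply (nu_eq_zero_iff χ).mpr
          by_contra hc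
          push Not at hc
          exact hr hc
        have h6 : ((e χ : ℤ) : ℂ) = ((0 : ℤ) : ℂ) := by
          rw [← he1 χ, h5]
          simp
        exact_mod_cast h6
      rw [h0, if_neg (fun h => hr h.2), if_neg (fun h => hr h.2)]
      simp
  rw [h3]
  simp_rw [hterm]
  rw [Finset.sum_add_distrib, ← Finset.mul_sum, Finset.sum_boole, Finset.sum_boole]
  have hL : Nat.card (LL G) = (Finset.univ.filter
      (fun χ : IrrCharacter G => charDegree (χ : G → ℂ) = 1 ∧ RealP χ)).card := by
    rw [← Fintype.card_subtype, ← Nat.card_eq_fintype_card]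
  have hR : Nat.card (RR G) = (Finset.univ.filter
      (fun χ : IrrCharacter G => charDegree (χ : G → ℂ) = 2 ∧ RealP χ)).card := by
    rw [← Fintype.card_subtype, ← Nat.card_eq_fintype_card]
    exact Nat.card_congr (Equiv.subtypeEquivRight (fun χ => Iff.rfl))
  rw [hL, hR]

instance finite_hom (G : Type*) [Group G] [Finite G] : Finite (G →* ℂˣ) := by
  haveI : Finite (Abelianization G →* ℂˣ) :=
    Nat.finite_of_card_ne_zero (by rw [card_hom]; exact Nat.card_pos.ne')
  exact Finite.of_equiv _ Abelianization.lift.symm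

/-- A degree `2` character vanishing off the kernel of a map to an abelian group bounds the image. -/
theorem card_le_of_fixed {Q : Type*} [CommGroup Q] [Finite Q] (π : G →* Q)
    (hπ : Function.Surjective π) (χ : IrrCharacter G) (h2 : charDegree (χ : G → ℂ) = 2)
    (hfix : ∀ l : Q →* ℂˣ, (l.comp π) • χ = χ) : Nat.card Q ≤ 4 := by
  classical
  have h1 := card_twistStab π hπ π.ker (fun g => (MonoidHom.mem_ker).symm) χ.2
  have htop : twistStab π (χ : G → ℂ) = ⊤ := by
    rw [eq_top_iff]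
    intro l _
    rw [mem_twistStab]
    exact congrArg Subtype.val (hfix l)
  rw [htop] at h1
  have hcard : Nat.card (⊤ : Subgroup (Q →* ℂˣ)) = Nat.card Q := by
    rw [Subgroup.card_top, card_hom]
  rw [hcard] at h1
  have h3 : ‖(χ : G → ℂ) 1‖ = 2 := by
    rw [one_eq_charDegree (IsIrrCharacter.isCharacter χ.2), h2]
    simp
  have hb : ∀ g, ‖(χ : G → ℂ) g‖ ≤ 2 := fun g => by
    rw [← h3]
    exact Cfsg.Agent.Lib.GenChar.char_norm_le (IsIrrCharacter.isCharacter χ.2) g
  have h4 : ‖classInner (fun n : π.ker => (χ : G → ℂ) n) (fun n : π.ker => (χ : G → ℂ) n)‖ ≤ 4 := by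
    unfold classInner
    rw [norm_mul, norm_inv, Complex.norm_natCast]
    have hN : (0 : ℝ) < (Nat.card π.ker : ℝ) := by exact_mod_cast Nat.card_pos
    have h5 : ‖∑ n : π.ker, (χ : G → ℂ) n * conj ((χ : G → ℂ) n)‖ ≤ (Nat.card π.ker : ℝ) * 4 := by
      calc _ ≤ ∑ n : π.ker, ‖(χ : G → ℂ) n * conj ((χ : G → ℂ) n)‖ := norm_sum_le _ _
        _ ≤ ∑ _n : π.ker, (4 : ℝ) := by
          refine Finset.sum_le_sum fun n _ => ?_
          rw [norm_mul, RCLike.norm_conj]
          nlinarith [hb (n : G), norm_nonneg ((χ : G → ℂ) n)]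
        _ = _ := by
          rw [Finset.sum_const, Finset.card_univ, ← Nat.card_eq_fintype_card]
          simp
    rw [inv_mul_le_iff₀ hN]
    exact h5
  rw [← h1, Complex.norm_natCast] at h4
  exact_mod_cast h4

end Count

section Final

/-- The arithmetic of the abelianization. -/
theorem card_eq_four {A : Type*} [CommGroup A] [Finite A] (h2 : IsPGroup 2 A)
    (hB2 : 2 < Nat.card (BB A (2 ^ 1))) (hB4 : Nat.card (BB A (2 ^ 2)) ≤ 4) : Nat.card A = 4 := by
  classical
  have hle : (powMonoidHom (2 ^ 2) : A →* A).range ≤ (powMonoidHom (2 ^ 1) : A →* A).range := by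
    rintro _ ⟨a, rfl⟩
    exact ⟨a ^ 2, by simp [powMonoidHom_apply, ← pow_mul]⟩
  let f : BB A (2 ^ 2) →* BB A (2 ^ 1) := QuotientGroup.map _ _ (MonoidHom.id A) hle
  have hf : Function.Surjective f := by
    intro x
    obtain ⟨a, rfl⟩ := QuotientGroup.mk_surjective x
    exact ⟨(a : BB A (2 ^ 2)), rfl⟩
  have hle2 : Nat.card (BB A (2 ^ 1)) ≤ Nat.card (BB A (2 ^ 2)) := Nat.card_le_card_of_surjective f hf
  have hP : IsPGroup 2 (BB A (2 ^ 1)) := h2.to_quotient _
  obtain ⟨k, hk⟩ := IsPGroup.iff_card.mp hP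
  have h4 : Nat.card (BB A (2 ^ 1)) = 4 := by
    rw [hk] at hB2 hle2 ⊢
    have hk2 : k = 2 := by
      have hk1 : 2 ≤ k := by
        by_contra hlt
        have : k = 0 ∨ k = 1 := by omega
        rcases this with rfl | rfl <;> simp at hB2
      have hk3 : k ≤ 2 := by
        by_contra hlt
        have h5 : (2 : ℕ) ^ 3 ≤ 2 ^ k := Nat.pow_le_pow_right (by norm_num) (by omega)
        omega
      omega
    rw [hk2]
    norm_num
  have hbij : Function.Bijective f := hf.bijective_of_nat_card_le (by omega)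
  have hsq : ∀ a : A, ∃ b : A, a ^ 2 = b ^ 4 := by
    intro a
    have h5 : f ((a ^ 2 : A) : BB A (2 ^ 2)) = 1 := by
      show (((a ^ 2 : A)) : BB A (2 ^ 1)) = 1
      apply (QuotientGroup.eq_one_iff _).mpr
      exact ⟨a, by simp [powMonoidHom_apply]⟩
    have h6 : ((a ^ 2 : A) : BB A (2 ^ 2)) = 1 := hbij.1 (by rw [h5, map_one])
    obtain ⟨b, hb⟩ := (QuotientGroup.eq_one_iff _).mp h6
    exact ⟨b, hb.symm⟩
  let S : Subgroup A := (powMonoidHom (2 ^ 1) : A →* A).range
  have hS : ∀ s : S, s = 1 := by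
    apply eq_one_of_sq_surj (h2.to_subgroup S)
    rintro ⟨_, a, rfl⟩
    obtain ⟨b, hb⟩ := hsq a
    refine ⟨⟨b ^ 2, b, by simp [powMonoidHom_apply]⟩, Subtype.ext ?_⟩
    show (b ^ 2) ^ 2 = a ^ 2 ^ 1
    rw [← pow_mul, pow_one, hb]
  have hS2 : Nat.card S = 1 := Nat.card_eq_one_iff_unique.mpr ⟨⟨fun a b => by rw [hS a, hS b]⟩, ⟨1⟩⟩
  have h7 := Subgroup.card_eq_card_quotient_mul_card_subgroup S
  rw [hS2, mul_one] at h7
  rw [h7]
  exact h4

end Final



open Cfsg.Agent.S4476

/-- Let G be a finite 2-group whose number of involutions is congruent to 1 modulo 4. Then G is cyclic or its commutator subgroup has index 4. -/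
theorem result {G : Type*} [Group G] [Finite G] (hG : IsPGroup 2 G) (ht : Nat.card {x : G // orderOf x = 2} % 4 = 1) : IsCyclic G ∨ (commutator G).index = 4 := by
  classical
  letI := Fintype.ofFinite G
  haveI : Group.IsNilpotent G := hG.isNilpotent
  by_cases hcyc : IsCyclic G
  · exact Or.inl hcyc
  right
  have hA2 : IsPGroup 2 (Abelianization G) :=
    hG.of_surjective Abelianization.of (QuotientGroup.mk_surjective)
  have hAn : ¬ IsCyclic (Abelianization G) := by
    intro h
    apply hcyc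
    have h0 := Cfsg.Agent.Lib.NilpAbel.comm_of_isCyclic_abelianization (Q := G) h
    have hinj : Function.Injective (Abelianization.of : G →* Abelianization G) := by
      rw [injective_iff_map_eq_one]
      intro g hg
      have h1 : g ∈ commutator G := (QuotientGroup.eq_one_iff g).mp hg
      rw [h0] at h1
      exact (Subgroup.mem_bot).mp h1
    exact isCyclic_of_injective _ hinj
  have hB2 : 2 < Nat.card (BB (Abelianization G) (2 ^ 1)) := by
    by_contra hle
    exact hAn (isCyclic_of_card_le hA2 (by simpa using hle))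
  let π₂ : G →* BB (Abelianization G) (2 ^ 1) := (QuotientGroup.mk' _).comp Abelianization.of
  let π₄ : G →* BB (Abelianization G) (2 ^ 2) := (QuotientGroup.mk' _).comp Abelianization.of
  have hπ₄ : Function.Surjective π₄ :=
    (QuotientGroup.mk'_surjective _).comp QuotientGroup.mk_surjective
  have hπ₂ : Function.Surjective π₂ :=
    (QuotientGroup.mk'_surjective _).comp QuotientGroup.mk_surjective
  have hD : 4 ∣ Nat.card (DD G (2 ^ 1)) := by
    have hinj : Nat.card (BB (Abelianization G) (2 ^ 1) →* ℂˣ) ≤ Nat.card (DD G (2 ^ 1)) := by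
      refine Nat.card_le_card_of_injective (fun l => (⟨l.comp π₂, mem_DD.mpr ?_⟩ : DD G (2 ^ 1))) ?_
      · ext g
        have := mk_pow_eq_one (2 ^ 1) (π₂ g)
        have h5 : (l (π₂ g)) ^ (2 ^ 1) = 1 := by rw [← map_pow, this, map_one]
        simpa using congrArg Units.val h5
      · intro a b hab
        refine MonoidHom.ext fun x => ?_
        obtain ⟨g, rfl⟩ := hπ₂ x
        exact congrArg (fun m : G →* ℂˣ => m g) (congrArg Subtype.val hab)
    rw [card_hom] at hinj
    obtain ⟨k, hk⟩ := IsPGroup.iff_card.mp (isP_DD (G := G) 1)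
    rw [hk] at hinj ⊢
    have h9 : 2 < 2 ^ k := lt_of_lt_of_le hB2 hinj
    have hk1 : 2 ≤ k := by
      by_contra hlt
      have : k = 0 ∨ k = 1 := by omega
      rcases this with rfl | rfl <;> norm_num at h9
    exact (by norm_num : (4 : ℕ) = 2 ^ 2) ▸ pow_dvd_pow 2 hk1
  have hRodd : Nat.card (RR G) % 2 = 1 := by
    have h1 := sum_mod hG _ rfl
    rw [card_LL] at h1
    have h2 : ((Nat.card {x : G // orderOf x = 2} + 1 : ℕ) : ZMod 4) =
      ((Nat.card (DD G (2 ^ 1)) + 2 * Nat.card (RR G) : ℕ) : ZMod 4) := by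
      rw [h1]
      push_cast
      rfl
    rw [ZMod.natCast_eq_natCast_iff] at h2
    unfold Nat.ModEq at h2
    omega
  obtain ⟨χ, hχ2, hχfix⟩ := exists_fixed hRodd
  have hB4 : Nat.card (BB (Abelianization G) (2 ^ 2)) ≤ 4 := by
    apply card_le_of_fixed π₄ hπ₄ χ hχ2
    intro l
    apply hχfix
    apply mem_DD.mpr
    ext g
    have := mk_pow_eq_one (2 ^ 2) (π₄ g)
    have h5 : (l (π₄ g)) ^ (2 ^ 2) = 1 := by rw [← map_pow, this, map_one]
    simpa using congrArg Units.val h5
  show Nat.card (Abelianization G) = 4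
  exact card_eq_four hA2 hB2 hB4

end Cfsg.Agent.S4477
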