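import Mathlib
import Cfsg.Statements.S4478
import Cfsg.Agent.Lib.FrobeniusSchur
import Cfsg.Agent.Lib.DefectZero
import Cfsg.Agent.Lib.CharKernel
import Cfsg.Agent.Lib.CharInd
import Cfsg.Agent.Lib.Clifford

set_option autoImplicit false
open Cfsg

namespace Cfsg.Agent.S4478

open Cfsg.Agent.Lib.CharBasic Cfsg.Agent.Lib.CharKernel Cfsg.Agent.Lib.CharInd
open scoped ComplexConjugate

universe u

variable {G : Type u} [Group G] [Fintype G]

theorem order_conj {a b : G} (h : IsConj a b) : orderOf a = orderOf b := by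
  obtain ⟨c, rfl⟩ := isConj_iff.mp h
  exact (orderOf_injective (MulAut.conj c).toMonoidHom (MulAut.conj c).injective a).symm

/-- Squaring is a bijection on elements of odd order. -/
theorem sum_sq_odd (f : G → ℂ) :
    ∑ g : G, (if 2 ∣ orderOf g then 0 else f (g * g)) = ∑ g : G, (if 2 ∣ orderOf g then 0 else f g) := by
  classical
  have e : ∀ h : G → ℂ, ∑ g : G, (if 2 ∣ orderOf g then 0 else h g) =
      ∑ g ∈ Finset.univ.filter (fun g : G => ¬ 2 ∣ orderOf g), h g := by
    intro h
    rw [Finset.sum_filter]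
    exact Finset.sum_congr rfl fun g _ => by split_ifs <;> simp_all
  rw [e (fun g => f (g * g)), e f]
  have hord : ∀ g : G, ¬ 2 ∣ orderOf g → orderOf (g * g) = orderOf g := by
    intro g hg
    rw [← pow_two]
    exact (Nat.Coprime.orderOf_pow (Nat.Coprime.symm
      ((Nat.Prime.coprime_iff_not_dvd Nat.prime_two).mpr hg)))
  refine Finset.sum_nbij' (fun g => g * g) (fun g => g ^ ((orderOf g + 1) / 2)) ?_ ?_ ?_ ?_ ?_
  · intro g hg
    simp only [Finset.mem_filter, Finset.mem_univ, true_and] at hg ⊢
    rwa [hord g hg]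
  · intro g hg
    simp only [Finset.mem_filter, Finset.mem_univ, true_and] at hg ⊢
    have h1 : Odd (orderOf g) := Nat.not_even_iff_odd.mp (fun h => hg h.two_dvd)
    have h2 : 2 * ((orderOf g + 1) / 2) = orderOf g + 1 := Nat.mul_div_cancel' h1.add_one.two_dvd
    have hc : Nat.Coprime ((orderOf g + 1) / 2) (orderOf g) := by
      have h3 := Nat.gcd_dvd_left ((orderOf g + 1) / 2) (orderOf g)
      have h4 := Nat.gcd_dvd_right ((orderOf g + 1) / 2) (orderOf g)
      have h5 : Nat.gcd ((orderOf g + 1) / 2) (orderOf g) ∣ orderOf g + 1 := by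
        have h6 := Dvd.dvd.mul_left h3 2
        rwa [h2] at h6
      exact Nat.dvd_one.mp ((Nat.dvd_add_right h4).mp h5)
    rwa [Nat.Coprime.orderOf_pow hc.symm]
  · intro g hg
    simp only [Finset.mem_filter, Finset.mem_univ, true_and] at hg
    have h1 : Odd (orderOf g) := Nat.not_even_iff_odd.mp (fun h => hg h.two_dvd)
    show (g * g) ^ ((orderOf (g * g) + 1) / 2) = g
    rw [hord g hg, ← pow_two, ← pow_mul]
    have h2 : 2 * ((orderOf g + 1) / 2) = orderOf g + 1 := Nat.mul_div_cancel' h1.add_one.two_dvd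
    rw [h2, pow_succ, pow_orderOf_eq_one, one_mul]
  · intro g hg
    simp only [Finset.mem_filter, Finset.mem_univ, true_and] at hg
    have h1 : Odd (orderOf g) := Nat.not_even_iff_odd.mp (fun h => hg h.two_dvd)
    show g ^ ((orderOf g + 1) / 2) * g ^ ((orderOf g + 1) / 2) = g
    rw [← pow_add, ← two_mul]
    have h2 : 2 * ((orderOf g + 1) / 2) = orderOf g + 1 := Nat.mul_div_cancel' h1.add_one.two_dvd
    rw [h2, pow_succ, pow_orderOf_eq_one, one_mul]
  · intro g hg
    rfl

/-- Let G be a finite group of even order and χ an irreducible character of G whose degree x is divisible by the full power of 2 dividing the order of G and, for every odd prime p such that G has an element of order 2p, by the full power of p dividing the order of G. Then all involutions of G are conjugate, the centralizer of every involution has order exactly x with x coprime to its index, and the Frobenius–Schur indicator of χ equals 1. -/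
theorem result {G : Type*} [Group G] [Fintype G] (heven : Even (Nat.card G)) (χ : Cfsg.IrrCharacter G) (h2 : 2 ^ (Nat.card G).factorization 2 ∣ Cfsg.charDegree (χ : G → ℂ)) (hp : ∀ p : ℕ, p.Prime → p ≠ 2 → (∃ g : G, orderOf g = 2 * p) → p ^ (Nat.card G).factorization p ∣ Cfsg.charDegree (χ : G → ℂ)) : (∀ s t : G, orderOf s = 2 → orderOf t = 2 → IsConj s t) ∧ (∀ s : G, orderOf s = 2 → Nat.card (Subgroup.centralizer ({s} : Set G)) = Cfsg.charDegree (χ : G → ℂ) ∧ (Nat.card (Subgroup.centralizer ({s} : Set G))).Coprime (Subgroup.centralizer ({s} : Set G)).index) ∧ (Nat.card G : ℂ)⁻¹ * ∑ g : G, (χ : G → ℂ) (g * g) = 1 := by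
  classical
  obtain ⟨χ₀, hχ₀⟩ := χ
  obtain ⟨n, ρ, hρ, rfl⟩ := id hχ₀
  set χ : G → ℂ := ρ.character with hχdef
  have hχc : IsCharacter G χ := IsIrrCharacter.isCharacter hχ₀
  have hdeg : Cfsg.charDegree χ = n := by
    have h1 := one_eq_charDegree hχc
    have h2 : χ 1 = (n : ℂ) := by
      rw [hχdef, char_one_eq_rep]
    rw [h2] at h1
    exact_mod_cast h1.symm
  have hG0 : Nat.card G ≠ 0 := Nat.card_pos.ne'
  have h1C : χ 1 = (n : ℂ) := by
    rw [hχdef, char_one_eq_rep]
  replace h2 : 2 ^ (Nat.card G).factorization 2 ∣ n := by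
    rw [← hdeg]
    exact h2
  replace hp : ∀ p : ℕ, p.Prime → p ≠ 2 → (∃ g : G, orderOf g = 2 * p) →
      p ^ (Nat.card G).factorization p ∣ n := by
    intro p hp1 hp2 hp3
    rw [← hdeg]
    exact hp p hp1 hp2 hp3
  change (∀ s t : G, orderOf s = 2 → orderOf t = 2 → IsConj s t) ∧ (∀ s : G, orderOf s = 2 →
    Nat.card (Subgroup.centralizer ({s} : Set G)) = Cfsg.charDegree χ ∧
    (Nat.card (Subgroup.centralizer ({s} : Set G))).Coprime (Subgroup.centralizer ({s} : Set G)).index) ∧
    (Nat.card G : ℂ)⁻¹ * ∑ g : G, χ (g * g) = 1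
  rw [hdeg]
  -- vanishing
  have hv : ∀ r : ℕ, r.Prime → r ^ (Nat.card G).factorization r ∣ n → ∀ g : G, r ∣ orderOf g → χ g = 0 := by
    intro r hr hd g hg
    refine Cfsg.Agent.Lib.DefectZero.character_eq_zero_of_defect_zero ρ hρ hr
      (Nat.ordProj_dvd _ _) (Nat.pow_succ_factorization_not_dvd hG0 hr) ?_ g hg
    simpa using hd
  have h2p : Nat.Prime 2 := Nat.prime_two
  have hv2 : ∀ g : G, 2 ∣ orderOf g → χ g = 0 := hv 2 h2p h2
  -- elements of order `2 r`
  have hvr : ∀ (r : ℕ), r.Prime → r ≠ 2 → (∃ g : G, orderOf g = 2 * r) →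
      ∀ g : G, r ∣ orderOf g → χ g = 0 := fun r hr h2r hex => hv r hr (hp r hr h2r hex)
  -- squares of even order elements
  have hsq : ∀ g : G, 2 ∣ orderOf g → g * g ≠ 1 → χ (g * g) = 0 := by
    intro g hg hne
    have hpos : 0 < orderOf g := orderOf_pos g
    have h3 : orderOf (g * g) = orderOf g / 2 := by
      rw [← pow_two, orderOf_pow' g (by norm_num), Nat.gcd_eq_right hg]
    obtain ⟨a, ha⟩ := hg
    have ha' : orderOf (g * g) = a := by
      rw [h3, ha]
      simp
    have ha1 : a ≠ 1 := by
      intro h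
      apply hne
      rw [← orderOf_eq_one_iff, ha', h]
    by_cases h4 : 2 ∣ a
    · apply hv2
      rwa [ha']
    · obtain ⟨r, hr, hra⟩ := Nat.exists_prime_and_dvd ha1
      have hr2 : r ≠ 2 := by
        rintro rfl
        exact h4 hra
      apply hvr r hr hr2 ⟨g ^ (orderOf g / (2 * r)), ?_⟩
      · rw [ha']
        exact hra
      · apply orderOf_pow_orderOf_div hpos.ne'
        rw [ha]
        exact Nat.mul_dvd_mul_left 2 hra
  have heven2 : 2 ∣ Nat.card G := heven.two_dvd
  have hnpos : 0 < n := by
    have : 2 ∣ n := by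
      refine dvd_trans ?_ h2
      exact dvd_pow_self 2 (by
        have := (Nat.Prime.dvd_iff_one_le_factorization h2p hG0).mp heven2
        omega)
    by_contra h
    have h0 : n = 0 := by omega
    have := Cfsg.Agent.Lib.Clifford.irr_degree_ne_zero hχ₀
    rw [h1C, h0] at this
    simp at this
  have hn2 : 2 ∣ n := by
    refine dvd_trans ?_ h2
    exact dvd_pow_self 2 (by
      have := (Nat.Prime.dvd_iff_one_le_factorization h2p hG0).mp heven2
      omega)
  -- the sum of `χ`
  have hsum0 : ∑ g : G, χ g = 0 := by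
    have hne : χ ≠ fun _ => 1 := by
      intro h
      have h5 : χ 1 = 1 := by rw [h]
      rw [h1C] at h5
      have h6 : n = 1 := by exact_mod_cast h5
      omega
    have h5 := classInner_irr_ne hχ₀ isIrrCharacter_one hne
    unfold classInner at h5
    have hGC : (Nat.card G : ℂ) ≠ 0 := by exact_mod_cast hG0
    have h6 := (mul_eq_zero.mp h5).resolve_left (inv_ne_zero hGC)
    simpa using h6
  let t : ℕ := (Finset.univ.filter fun g : G => orderOf g = 2).card
  have htcard : Nat.card {x : G // orderOf x = 2} = t := by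
    rw [Nat.card_eq_fintype_card, Fintype.card_subtype]
  have hsumsq : ∑ g : G, χ (g * g) = (t : ℂ) * (n : ℂ) := by
    have h5 : ∀ g : G, χ (g * g) = (if orderOf g = 2 then (n : ℂ) else 0) +
        (if 2 ∣ orderOf g then 0 else χ (g * g)) := by
      intro g
      by_cases hg : 2 ∣ orderOf g
      · rw [if_pos hg, add_zero]
        by_cases h6 : orderOf g = 2
        · rw [if_pos h6]
          have h7 : g * g = 1 := by
            rw [← pow_two, ← h6, pow_orderOf_eq_one]
          rw [h7, h1C]
        · rw [if_neg h6]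
          apply hsq g hg
          intro h7
          apply h6
          have h8 : orderOf g ∣ 2 := orderOf_dvd_of_pow_eq_one (by rwa [pow_two])
          exact Nat.dvd_antisymm h8 hg
      · have h6 : orderOf g ≠ 2 := fun h => hg (by rw [h])
        rw [if_neg h6, if_neg hg, zero_add]
    rw [Finset.sum_congr rfl (fun g _ => h5 g), Finset.sum_add_distrib, sum_sq_odd]
    have h6 : ∑ g : G, (if 2 ∣ orderOf g then (0 : ℂ) else χ g) = 0 := by
      refine Eq.trans (Finset.sum_congr rfl fun g _ => ?_) hsum0
      by_cases hg : 2 ∣ orderOf g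
      · rw [if_pos hg, hv2 g hg]
      · rw [if_neg hg]
    rw [h6, add_zero, ← Finset.sum_filter, Finset.sum_const, nsmul_eq_mul]
  -- involutions exist
  have htpos : 0 < t := by
    haveI : Fact (Nat.Prime 2) := ⟨h2p⟩
    obtain ⟨x, hx⟩ := exists_prime_orderOf_dvd_card' 2 heven2
    exact Finset.card_pos.mpr ⟨x, by simpa using hx⟩
  -- the indicator
  have hGC : (Nat.card G : ℂ) ≠ 0 := by exact_mod_cast hG0
  have hfs := (Cfsg.Agent.Lib.FrobeniusSchur.frobeniusSchur ρ hρ).1
  have hnu : (Nat.card G : ℂ)⁻¹ * ∑ s : G, χ (s * s) = 1 := by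
    rw [hsumsq] at hfs ⊢
    have hre : (0 : ℝ) < (t : ℝ) * (n : ℝ) / (Nat.card G : ℝ) := by
      have : (0 : ℝ) < (Nat.card G : ℝ) := by exact_mod_cast Nat.pos_of_ne_zero hG0
      positivity
    have hval : (Nat.card G : ℂ)⁻¹ * ((t : ℂ) * (n : ℂ)) =
        (((t : ℝ) * (n : ℝ) / (Nat.card G : ℝ) : ℝ) : ℂ) := by
      push_cast
      field_simp
    rw [hval] at hfs ⊢
    rcases hfs with h | h | h
    · exfalso
      have := Complex.ofReal_eq_zero.mp h
      linarith
    · exact h
    · exfalso
      have h8 : (((t : ℝ) * (n : ℝ) / (Nat.card G : ℝ) : ℝ) : ℂ) = ((-1 : ℝ) : ℂ) := by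
        rw [h]
        simp
      have h9 := Complex.ofReal_injective h8
      linarith
  have htn : t * n = Nat.card G := by
    rw [hsumsq] at hnu
    have h5 : (t : ℂ) * (n : ℂ) = (Nat.card G : ℂ) := by
      field_simp at hnu
      exact hnu
    exact_mod_cast h5
  -- the centralizers
  have hcdvd : ∀ s : G, orderOf s = 2 → ∀ r : ℕ, r.Prime →
      r ∣ Nat.card (Subgroup.centralizer ({s} : Set G)) → r ^ (Nat.card G).factorization r ∣ n := by
    intro s hs r hr hrc
    by_cases hr2 : r = 2
    · subst hr2
      exact h2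
    · apply hp r hr hr2
      haveI : Fact r.Prime := ⟨hr⟩
      obtain ⟨y, hy⟩ := exists_prime_orderOf_dvd_card' r hrc
      have hys : Commute (y : G) s := by
        have h5 := Subgroup.mem_centralizer_iff.mp y.2 s rfl
        exact h5.symm
      refine ⟨(y : G) * s, ?_⟩
      have hyo : orderOf (y : G) = r := by rw [Subgroup.orderOf_coe, hy]
      rw [hys.orderOf_mul_eq_mul_orderOf_of_coprime (by
        rw [hyo, hs]
        exact (Nat.coprime_primes hr h2p).mpr hr2), hyo, hs, mul_comm]
  have hcard_dvd : ∀ s : G, orderOf s = 2 → Nat.card (Subgroup.centralizer ({s} : Set G)) ∣ n := by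
    intro s hs
    have hc0 : Nat.card (Subgroup.centralizer ({s} : Set G)) ≠ 0 := Nat.card_pos.ne'
    rw [← Nat.factorization_le_iff_dvd hc0 hnpos.ne']
    intro r
    by_cases hr : r.Prime
    · by_cases hrc : r ∣ Nat.card (Subgroup.centralizer ({s} : Set G))
      · have h5 := hcdvd s hs r hr hrc
        have h6 := (hr.pow_dvd_iff_le_factorization hnpos.ne').mp h5
        have h7 : Nat.card (Subgroup.centralizer ({s} : Set G)) ∣ Nat.card G :=
          Subgroup.card_subgroup_dvd_card _
        have h8 := (Nat.factorization_le_iff_dvd hc0 hG0).mpr h7 r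
        exact h8.trans h6
      · rw [Nat.factorization_eq_zero_of_not_dvd hrc]
        exact Nat.zero_le _
    · rw [Nat.factorization_eq_zero_of_not_prime _ hr]
      exact Nat.zero_le _
  have hmain : ∀ s : G, orderOf s = 2 →
      Nat.card (Subgroup.centralizer ({s} : Set G)) = n ∧ ∀ u : G, orderOf u = 2 → IsConj s u := by
    intro s hs
    have h5 := Cfsg.Agent.Lib.CharInd.card_conj_mul_card_centralizer s
    set c := Nat.card (Subgroup.centralizer ({s} : Set G)) with hc
    set i := Nat.card {x : G // IsConj s x} with hi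
    have hcn : c ≤ n := Nat.le_of_dvd hnpos (hcard_dvd s hs)
    have hit : i ≤ t := by
      rw [hi, ← htcard]
      refine Nat.card_le_card_of_injective (fun x => ⟨x.1, ?_⟩) ?_
      · rw [← order_conj x.2]
        exact hs
      · intro a b hab
        apply Subtype.ext
        have h6 := congrArg Subtype.val hab
        exact h6
    have hc0 : 0 < c := Nat.card_pos
    haveI : Nonempty {x : G // IsConj s x} := ⟨⟨s, IsConj.refl s⟩⟩
    have hi0 : 0 < i := Nat.card_pos
    have heq : i * c = t * n := by rw [h5, htn]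
    have hcn' : c = n := by
      by_contra hne
      have h6 : c < n := lt_of_le_of_ne hcn hne
      have h7 : i * c < t * n := by
        calc i * c < i * n := Nat.mul_lt_mul_of_pos_left h6 hi0
          _ ≤ t * n := Nat.mul_le_mul_right _ hit
      omega
    have hit' : i = t := by
      rw [hcn'] at heq
      exact Nat.eq_of_mul_eq_mul_right hnpos heq
    refine ⟨hcn', fun u hu => ?_⟩
    -- a counting argument
    by_contra hnc
    have h8 : Nat.card {x : G // IsConj s x} < Nat.card {x : G // orderOf x = 2} := by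
      rw [Nat.card_eq_fintype_card, Nat.card_eq_fintype_card, Fintype.card_subtype,
        Fintype.card_subtype]
      apply Finset.card_lt_card
      refine ⟨fun x hx => ?_, fun hsub => ?_⟩
      · simp only [Finset.mem_filter, Finset.mem_univ, true_and] at hx ⊢
        rw [← order_conj hx]
        exact hs
      · have h9 := hsub (Finset.mem_filter.mpr ⟨Finset.mem_univ u, hu⟩)
        simp only [Finset.mem_filter, Finset.mem_univ, true_and] at h9
        exact hnc h9
    rw [htcard] at h8
    omega
  refine ⟨fun s u hs hu => (hmain s hs).2 u hu, fun s hs => ⟨(hmain s hs).1, ?_⟩, hnu⟩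
  have h5 := (hmain s hs).1
  refine Nat.coprime_of_dvd fun r hr h6 h7 => ?_
  have h8 := hcdvd s hs r hr h6
  rw [← h5] at h8
  have h9 := Subgroup.card_mul_index (Subgroup.centralizer ({s} : Set G))
  have hc0 : Nat.card (Subgroup.centralizer ({s} : Set G)) ≠ 0 := Nat.card_pos.ne'
  have hi0 : (Subgroup.centralizer ({s} : Set G)).index ≠ 0 := Subgroup.index_ne_zero_of_finite
  have h10 := (hr.pow_dvd_iff_le_factorization hc0).mp h8
  have h11 : (Nat.card G).factorization r = (Nat.card (Subgroup.centralizer ({s} : Set G))).factorization r +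
      (Subgroup.centralizer ({s} : Set G)).index.factorization r := by
    rw [← h9, Nat.factorization_mul hc0 hi0]
    rfl
  have h12 := (Nat.Prime.dvd_iff_one_le_factorization hr hi0).mp h7
  omega

end Cfsg.Agent.S4478
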