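import Mathlib
import Cfsg.Statements.S4480
import Cfsg.Agent.Lib.KleinOrderBlock

set_option autoImplicit false
set_option linter.style.haveILetI false
set_option linter.unusedSectionVars false
set_option linter.unusedVariables false
open Cfsg

namespace Cfsg.Agent.S4480

open Cfsg.Agent.Lib.KleinOrderBlock Cfsg.Agent.Lib.KleinPrincipal Cfsg.Agent.Lib.KleinPrincipalChar
open Cfsg.Agent.Lib.CharBasic Cfsg.Agent.Lib.BlockQ Cfsg.Agent.Lib.BlockNormal Cfsg.Agent.Lib.BlkOrth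
open Cfsg.Agent.Lib.RealChars
open scoped ComplexConjugate

universe u

section

variable {G : Type u} [Group G] [Fintype G] {P : Sylow 2 G}

theorem centralizer_inv (g : G) :
    Subgroup.centralizer ({g⁻¹} : Set G) = Subgroup.centralizer ({g} : Set G) := by
  ext x
  rw [Subgroup.mem_centralizer_singleton_iff, Subgroup.mem_centralizer_singleton_iff]
  constructor
  · intro h
    have h1 : Commute x g⁻¹ := h
    exact (Commute.inv_right_iff.1 h1)
  · intro h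
    have h1 : Commute x g := h
    exact h1.inv_right

/-- The conjugate of a member of the principal block lies in the principal block. -/
theorem conjIrr_mem_principalBlock {M : Ideal AlgInt} {χ : IrrCharacter G}
    (hχ : χ ∈ principalBlock M G) : conjIrr χ ∈ principalBlock M G := by
  intro g
  have h1 := hχ g⁻¹
  have hc := IsIrrCharacter.isCharacter χ.2
  have e1 : centralChar (fun _ : G => (1 : ℂ)) g = centralChar (fun _ : G => (1 : ℂ)) g⁻¹ := by
    unfold centralChar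
    rw [centralizer_inv]
  have e2 : centralChar (conjIrr χ : G → ℂ) g = centralChar (χ : G → ℂ) g⁻¹ := by
    unfold centralChar
    rw [centralizer_inv]
    show _ * conj ((χ : G → ℂ) g) / conj ((χ : G → ℂ) 1) = _
    rw [char_conj_eq_inv hc, char_conj_eq_inv hc, inv_one]
  rw [e1, e2]
  exact h1

theorem regular_mul_self (h : KSet P) (s : G) : ¬ 2 ∣ orderOf (s * s) := by
  obtain ⟨x, y, hxy, hcomm, hx2, hy⟩ := exists_isPPart Nat.prime_two s
  have hxx := h.mul_self_of_two_element hx2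
  have h1 : s * s = y ^ 2 := by
    rw [← hxy]
    calc x * y * (x * y) = x * (y * x) * y := by group
      _ = x * (x * y) * y := by rw [hcomm.eq]
      _ = (x * x) * (y * y) := by group
      _ = y ^ 2 := by rw [hxx, one_mul, sq]
  rw [h1]
  intro h2
  exact hy (h2.trans (orderOf_pow_dvd 2))

theorem sum_nu (h : KSet P) (M : Ideal AlgInt) (hM : IsPModular 2 M) {J : G} (hJ : orderOf J = 2) :
    ∑ χ ∈ bF (principalBlock M G), (∑ s : G, (χ : G → ℂ) (s * s)) * conj ((χ : G → ℂ) J) = 0 := by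
  simp_rw [Finset.sum_mul]
  rw [Finset.sum_comm]
  refine Finset.sum_eq_zero fun s _ => ?_
  exact sum_reg_sing M hM (regular_mul_self h s) (by rw [hJ])

theorem nu_cases {χ : G → ℂ} (hχ : IsIrrCharacter G χ) :
    ((Nat.card G : ℂ)⁻¹ * ∑ s : G, χ (s * s) = 0 ∨ (Nat.card G : ℂ)⁻¹ * ∑ s : G, χ (s * s) = 1 ∨
      (Nat.card G : ℂ)⁻¹ * ∑ s : G, χ (s * s) = -1) ∧
    ((Nat.card G : ℂ)⁻¹ * ∑ s : G, χ (s * s) = 0 ↔ ∃ s : G, (χ s).im ≠ 0) := by
  obtain ⟨n, ρ, hρ, rfl⟩ := hχ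
  exact Cfsg.Agent.Lib.FrobeniusSchur.frobeniusSchur ρ hρ

theorem charDegree_conjIrr (χ : IrrCharacter G) :
    charDegree (conjIrr χ : G → ℂ) = charDegree (χ : G → ℂ) := by
  unfold charDegree
  show ⌊(conj ((χ : G → ℂ) 1)).re⌋₊ = _
  rw [Complex.conj_re]

/-- The degrees in the block with values `± 1` at an involution are odd. -/
theorem odd_degree (h : KSet P) {J : G} (hJ : orderOf J = 2) (χ : IrrCharacter G) {ε : ℤ}
    (hε : ε = 1 ∨ ε = -1) (hval : (χ : G → ℂ) J = ε) : ¬ 2 ∣ charDegree (χ : G → ℂ) := by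
  obtain ⟨t, ht, ht'⟩ := Cfsg.Agent.S0948.exists_int_value (P : Subgroup G) h.card_four
    (fun x hx => h.mul_self_of_mem hx) hJ h.one χ
  have h1 : (t : ℂ) = ε := by rw [← ht, hval]
  have h2 : t = ε := by exact_mod_cast h1
  rw [h2] at ht'
  obtain ⟨c, hc⟩ := ht'
  intro h3
  have h4 : (2 : ℤ) ∣ (charDegree (χ : G → ℂ) : ℤ) := by exact_mod_cast h3
  obtain ⟨d, hd⟩ := h4
  rcases hε with rfl | rfl <;> omega

end

/-- The arithmetic at the end. -/
theorem arith {g i cJ cP x q : ℕ} (hx : 0 < x) (hcP : 0 < cP) (hq : q = 2 * x + 1) (hdvd : cP ∣ cJ)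
    (hcJ : 0 < cJ) (hI : i * cJ = g)
    (hrel : g * ((x + 1) * (x + 1) * (2 * x)) * cP ^ 2 = 8 * (x * x * q) * cJ ^ 3) :
    ∃ m : ℕ, 4 * cJ = m * cP * (q + 1) ∧ 8 * g = m ^ 3 * cP * (q ^ 3 - q) := by
  obtain ⟨s, rfl⟩ := hdvd
  have hs : 0 < s := Nat.pos_of_mul_pos_left hcJ
  subst hI
  have key : i * (x + 1) ^ 2 = 4 * x * q * s ^ 2 := by
    apply Nat.eq_of_mul_eq_mul_left (show 0 < 2 * x * s * cP ^ 3 by positivity)
    calc 2 * x * s * cP ^ 3 * (i * (x + 1) ^ 2)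
        = i * (cP * s) * ((x + 1) * (x + 1) * (2 * x)) * cP ^ 2 := by ring
      _ = 8 * (x * x * q) * (cP * s) ^ 3 := hrel
      _ = _ := by ring
  have hc1 : Nat.Coprime ((x + 1) ^ 2) x := by
    apply Nat.Coprime.pow_left
    simp
  have hc2 : Nat.Coprime ((x + 1) ^ 2) q := by
    apply Nat.Coprime.pow_left
    rw [hq]
    have h1 : 2 * x + 1 + 1 = 2 * (x + 1) := by ring
    rw [Nat.coprime_comm]
    have h2 : Nat.Coprime (2 * x + 1) (2 * x + 1 + 1) := by simp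
    rw [h1] at h2
    exact Nat.Coprime.coprime_mul_left_right h2
  have hd : (x + 1) ^ 2 ∣ (2 * s) ^ 2 := by
    have h1 : (x + 1) ^ 2 ∣ 4 * x * q * s ^ 2 := ⟨i, by rw [← key]; ring⟩
    have h2 : 4 * x * q * s ^ 2 = x * (q * (2 * s) ^ 2) := by ring
    rw [h2] at h1
    exact hc2.dvd_of_dvd_mul_left (hc1.dvd_of_dvd_mul_left h1)
  have hd' : x + 1 ∣ 2 * s := (Nat.pow_dvd_pow_iff (by norm_num)).1 hd
  obtain ⟨m, hm⟩ := hd'
  refine ⟨m, ?_, ?_⟩
  · calc 4 * (cP * s) = 2 * cP * (2 * s) := by ring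
      _ = 2 * cP * ((x + 1) * m) := by rw [hm]
      _ = m * cP * (q + 1) := by rw [hq]; ring
  · have hq3 : q ^ 3 - q = 4 * x * (x + 1) * q := by
      apply Nat.sub_eq_of_eq_add
      rw [hq]
      ring
    rw [hq3]
    have h3 : 8 * i * s = m ^ 3 * (4 * x * (x + 1) * q) := by
      apply Nat.eq_of_mul_eq_mul_left (show 0 < (x + 1) ^ 2 by positivity)
      calc (x + 1) ^ 2 * (8 * i * s) = 8 * s * (i * (x + 1) ^ 2) := by ring
        _ = 8 * s * (4 * x * q * s ^ 2) := by rw [key]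
        _ = 4 * x * q * (2 * s) ^ 3 := by ring
        _ = 4 * x * q * ((x + 1) * m) ^ 3 := by rw [hm]
        _ = _ := by ring
    calc 8 * (i * (cP * s)) = cP * (8 * i * s) := by ring
      _ = cP * (m ^ 3 * (4 * x * (x + 1) * q)) := by rw [h3]
      _ = _ := by ring

/-- Same setting as the Klein-four order formula: G of order 4·g₀ (g₀ odd) with no normal 2-complement, P a Sylow 2-subgroup, J an involution of P, M over 2, principal 2-block {1, χ₁, χ₂, χ₃} with χ_i(J) = ε_i = ±1. Suppose ε₁ε₂ε₃ = −1 and ε₃ = −1, and put q = x₃ = χ₃(1). Then there is a natural number m with 4·c(J) = m·c(P)·(q + 1), and the order of G equals (m³·c(P)/4)·(q³ − q)/2, that is 8·#G = m³·c(P)·(q³ − q). -/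
theorem result {G : Type*} [Group G] [Finite G] (M : Ideal Cfsg.AlgInt) (hM : Cfsg.IsPModular 2 M) (g₀ : ℕ) (hg₀ : Odd g₀) (hG : Nat.card G = 4 * g₀) (hnc : ¬ ∃ N : Subgroup G, N.Normal ∧ Nat.card N = g₀) (P : Sylow 2 G) (J : G) (hJ : J ∈ (P : Subgroup G)) (hJ2 : orderOf J = 2) (χ₁ χ₂ χ₃ : Cfsg.IrrCharacter G) (ε₁ ε₂ ε₃ : ℤ) (hB : Cfsg.principalBlock M G = {χ : Cfsg.IrrCharacter G | (χ : G → ℂ) = (fun _ => 1) ∨ χ = χ₁ ∨ χ = χ₂ ∨ χ = χ₃}) (hdist : (χ₁ : G → ℂ) ≠ (fun _ => 1) ∧ (χ₂ : G → ℂ) ≠ (fun _ => 1) ∧ (χ₃ : G → ℂ) ≠ (fun _ => 1) ∧ χ₁ ≠ χ₂ ∧ χ₁ ≠ χ₃ ∧ χ₂ ≠ χ₃) (hε : (ε₁ = 1 ∨ ε₁ = -1) ∧ (ε₂ = 1 ∨ ε₂ = -1) ∧ (ε₃ = 1 ∨ ε₃ = -1)) (hval : (χ₁ : G → ℂ) J = ε₁ ∧ (χ₂ : G → ℂ) J = ε₂ ∧ (χ₃ : G → ℂ) J = ε₃) (hprod : ε₁ * ε₂ * ε₃ = -1) (hε₃ : ε₃ = -1) : ∃ m : ℕ, 4 * Nat.card (Subgroup.centralizer ({J} : Set G)) = m * Nat.card (Subgroup.centralizer ((P : Subgroup G) : Set G)) * (Cfsg.charDegree (χ₃ : G → ℂ) + 1) ∧ 8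 * Nat.card G = m ^ 3 * Nat.card (Subgroup.centralizer ((P : Subgroup G) : Set G)) * (Cfsg.charDegree (χ₃ : G → ℂ) ^ 3 - Cfsg.charDegree (χ₃ : G → ℂ)) := by
  classical
  letI : Fintype G := Fintype.ofFinite G
  have h := kset_of_hyps g₀ hg₀ hG hnc P
  obtain ⟨hR, hrel⟩ := rel_main h hM hJ2 hB hdist hε hval
  have hpos : ∀ ζ : IrrCharacter G, (1 : ℤ) ≤ (charDegree (ζ : G → ℂ) : ℤ) := by
    intro ζ
    have := Nat.pos_of_ne_zero (Cfsg.Agent.Lib.CharKernel.charDegree_ne_zero ζ.2)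
    exact_mod_cast this
  have hp1 := hpos χ₁
  have hp2 := hpos χ₂
  have hp3 := hpos χ₃
  -- the signs
  subst hε₃
  obtain ⟨he1, he2, -⟩ := hε
  have hε12 : ε₁ = 1 ∧ ε₂ = 1 := by
    rcases he1 with rfl | rfl <;> rcases he2 with rfl | rfl
    · exact ⟨rfl, rfl⟩
    · norm_num at hprod
    · norm_num at hprod
    · exfalso
      nlinarith
  obtain ⟨rfl, rfl⟩ := hε12
  obtain ⟨v1, v2, v3⟩ := hval
  have v1' : (χ₁ : G → ℂ) J = 1 := by rw [v1]; norm_num
  have v2' : (χ₂ : G → ℂ) J = 1 := by rw [v2]; norm_num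
  have v3' : (χ₃ : G → ℂ) J = -1 := by rw [v3]; norm_num
  have he : (irrOne G : G → ℂ) J = 1 := rfl
  -- membership in the block
  have hmemB : ∀ χ : IrrCharacter G, χ ∈ principalBlock M G →
      χ = irrOne G ∨ χ = χ₁ ∨ χ = χ₂ ∨ χ = χ₃ := by
    intro χ hχ
    rw [hB] at hχ
    rcases hχ with h1 | h1 | h1 | h1
    · exact Or.inl (Subtype.ext h1)
    · exact Or.inr (Or.inl h1)
    · exact Or.inr (Or.inr (Or.inl h1))
    · exact Or.inr (Or.inr (Or.inr h1))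
  have hm1 : χ₁ ∈ principalBlock M G := by
    rw [hB]
    exact Or.inr (Or.inl rfl)
  have hm3 : χ₃ ∈ principalBlock M G := by
    rw [hB]
    exact Or.inr (Or.inr (Or.inr rfl))
  have hconjv : ∀ χ : IrrCharacter G, (conjIrr χ : G → ℂ) J = conj ((χ : G → ℂ) J) := fun _ => rfl
  -- `χ₃` is real
  have hreal3 : ∀ s : G, ((χ₃ : G → ℂ) s).im = 0 := by
    rw [← conjIrr_eq_iff]
    have hv : (conjIrr χ₃ : G → ℂ) J = -1 := by
      rw [hconjv, v3']
      simp
    rcases hmemB _ (conjIrr_mem_principalBlock hm3) with h1 | h1 | h1 | h1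
    · exfalso
      rw [h1, he] at hv
      norm_num at hv
    · exfalso
      rw [h1, v1'] at hv
      norm_num at hv
    · exfalso
      rw [h1, v2'] at hv
      norm_num at hv
    · exact h1
  -- the indicators
  have hGne : (Nat.card G : ℂ) ≠ 0 := natCard_ne_zero'
  set ν : IrrCharacter G → ℂ := fun χ => (Nat.card G : ℂ)⁻¹ * ∑ s : G, (χ : G → ℂ) (s * s) with hν
  have hnumain : 1 + ν χ₁ + ν χ₂ - ν χ₃ = 0 := by
    have h1 := sum_nu h M hM hJ2
    rw [sum_bF hB hdist] at h1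
    simp only [v1', v2', v3', he, map_one, map_neg, mul_one] at h1
    have h2 : ∑ s : G, (irrOne G : G → ℂ) (s * s) = (Nat.card G : ℂ) := by
      show ∑ s : G, (1 : ℂ) = _
      simp
    rw [h2] at h1
    have h3 : (Nat.card G : ℂ)⁻¹ * ((Nat.card G : ℂ) + ∑ s : G, (χ₁ : G → ℂ) (s * s) +
        ∑ s : G, (χ₂ : G → ℂ) (s * s) + (∑ s : G, (χ₃ : G → ℂ) (s * s)) * -1) = 0 := by
      rw [h1, mul_zero]
    simp only [hν]
    rw [← h3]
    field_simp
    ring
  have hnoneg : ∀ (χ : IrrCharacter G) (ε : ℤ), (ε = 1 ∨ ε = -1) → (χ : G → ℂ) J = ε → ν χ ≠ -1 := by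
    intro χ ε hε hv hn
    exact odd_degree h hJ2 χ hε hv (Cfsg.Agent.Lib.FSSkew.two_dvd_charDegree χ.2 hn)
  have hn1 := hnoneg χ₁ 1 (Or.inl rfl) (by rw [v1']; norm_num)
  have hn2 := hnoneg χ₂ 1 (Or.inl rfl) (by rw [v2']; norm_num)
  have hn3 := hnoneg χ₃ (-1) (Or.inr rfl) (by rw [v3']; norm_num)
  obtain ⟨hc1, hi1⟩ := nu_cases χ₁.2
  obtain ⟨hc2, -⟩ := nu_cases χ₂.2
  obtain ⟨hc3, hi3⟩ := nu_cases χ₃.2
  have hν3 : ν χ₃ = 1 := by
    rcases hc3 with h1 | h1 | h1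
    · exfalso
      obtain ⟨s, hs⟩ := hi3.1 h1
      exact hs (hreal3 s)
    · exact h1
    · exact absurd h1 hn3
  have hν1 : ν χ₁ = 0 := by
    rcases hc1 with h1 | h1 | h1
    · exact h1
    · exfalso
      rcases hc2 with h2 | h2 | h2
      · simp only [hν] at hν3 hnumain
        rw [h1, h2, hν3] at hnumain
        norm_num at hnumain
      · simp only [hν] at hν3 hnumain
        rw [h1, h2, hν3] at hnumain
        norm_num at hnumain
      · exact hn2 h2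
    · exact absurd h1 hn1
  -- so `χ₁` is not real, and `χ₂` is its conjugate
  obtain ⟨s, hs⟩ := hi1.1 hν1
  have hconj12 : conjIrr χ₁ = χ₂ := by
    have hv : (conjIrr χ₁ : G → ℂ) J = 1 := by
      rw [hconjv, v1']
      simp
    rcases hmemB _ (conjIrr_mem_principalBlock hm1) with h1 | h1 | h1 | h1
    · exfalso
      apply hdist.1
      have h2 := conjIrr_conjIrr χ₁
      rw [h1] at h2
      rw [← h2]
      funext g
      show conj (1 : ℂ) = 1
      simp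
    · exact absurd (((conjIrr_eq_iff χ₁).1 h1) s) hs
    · exact h1
    · exfalso
      rw [h1, v3'] at hv
      norm_num at hv
  have hdeg12 : charDegree (χ₂ : G → ℂ) = charDegree (χ₁ : G → ℂ) := by
    rw [← hconj12, charDegree_conjIrr]
  -- the arithmetic
  rw [hdeg12] at hR hrel
  set x := charDegree (χ₁ : G → ℂ) with hx
  set q := charDegree (χ₃ : G → ℂ) with hq
  have hxpos : 0 < x := Nat.pos_of_ne_zero (Cfsg.Agent.Lib.CharKernel.charDegree_ne_zero χ₁.2)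
  have hqx : q = 2 * x + 1 := by
    have : (q : ℤ) = 2 * x + 1 := by linarith
    exact_mod_cast this
  have hI := card_Inv_mul h hJ2
  have hle : Subgroup.centralizer ((P : Subgroup G) : Set G) ≤ Subgroup.centralizer ({J} : Set G) := by
    apply Subgroup.centralizer_le
    rintro y rfl
    exact hJ
  refine arith hxpos Nat.card_pos hqx (Subgroup.card_dvd_of_le hle) Nat.card_pos hI ?_
  have hrel' : ((Nat.card G * ((x + 1) * (x + 1) * (2 * x)) *
      Nat.card (Subgroup.centralizer ((P : Subgroup G) : Set G)) ^ 2 : ℕ) : ℤ) =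
      ((8 * (x * x * q) * Nat.card (Subgroup.centralizer ({J} : Set G)) ^ 3 : ℕ) : ℤ) := by
    push_cast
    rw [← hrel, hqx]
    push_cast
    ring
  exact_mod_cast hrel'

end Cfsg.Agent.S4480
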