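import Mathlib
import Cfsg.Statements.S4483
import Cfsg.Agent.S4676
import Cfsg.Agent.Lib.BlkBasic
import Cfsg.Agent.Lib.BlockNormal
import Cfsg.Agent.Lib.CharAvg
import Cfsg.Agent.Lib.GenChar
import Cfsg.Agent.Lib.CharKernel
import Cfsg.Agent.Lib.CharTable

set_option autoImplicit false
set_option linter.style.haveILetI false
set_option linter.unusedSectionVars false
open Cfsg

namespace Cfsg.Agent.S4483

open Cfsg.Agent.Lib.CharBasic Cfsg.Agent.Lib.CharInd Cfsg.Agent.Lib.CharAvg
  Cfsg.Agent.Lib.GenChar Cfsg.Agent.Lib.CharKernel Cfsg.Agent.Lib.BlockLocal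
open scoped ComplexConjugate

/-- A symmetric double sum of algebraic integers is congruent to its diagonal modulo `2`. -/
theorem sym_sum {ι : Type*} [DecidableEq ι] (s : Finset ι) (A : ι → ι → ℂ)
    (hs : ∀ i j, A i j = A j i) (hi : ∀ i j, IsIntegral ℤ (A i j)) :
    ∃ c : ℂ, IsIntegral ℤ c ∧ ∑ i ∈ s, ∑ j ∈ s, A i j = ∑ i ∈ s, A i i + 2 * c := by
  induction s using Finset.induction_on with
  | empty => exact ⟨0, isIntegral_zero, by simp⟩
  | insert a s ha ih =>
    obtain ⟨c, hc, h⟩ := ih
    refine ⟨c + ∑ j ∈ s, A a j, hc.add (IsIntegral.sum _ fun j _ => hi a j), ?_⟩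
    rw [Finset.sum_insert ha, Finset.sum_insert ha]
    simp only [Finset.sum_insert ha]
    have h1 : ∑ i ∈ s, (A i a + ∑ j ∈ s, A i j) = ∑ j ∈ s, A a j + ∑ i ∈ s, ∑ j ∈ s, A i j := by
      rw [Finset.sum_add_distrib]
      congr 1
      exact Finset.sum_congr rfl fun i _ => hs i a
    rw [h1, h]
    ring

variable {G : Type*} [Group G] [Fintype G]

theorem mem_blockOf_self_aux (M : Ideal AlgInt) [M.IsPrime] :
    (⟨fun _ => 1, isIrrCharacter_one⟩ : IrrCharacter G) ∈ principalBlock M G :=
  Cfsg.Agent.Lib.BlockIdem.mem_blockOf_self (⟨fun _ => 1, isIrrCharacter_one⟩ : IrrCharacter G)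

/-- The identity `(|K| χ(g))² ≡ |K| χ(1)² (mod 2)` for real `χ`. -/
theorem key_identity (χ : IrrCharacter G) (hr : ∀ g : G, ((χ : G → ℂ) g).im = 0) (g : G) :
    ∃ c : ℂ, IsIntegral ℤ c ∧
      (((Subgroup.centralizer ({g} : Set G)).index : ℂ) * (χ : G → ℂ) g) ^ 2 =
        (χ : G → ℂ) 1 * (((Subgroup.centralizer ({g} : Set G)).index : ℂ) * (χ : G → ℂ) 1 + 2 * c) := by
  classical
  have hχc := IsIrrCharacter.isCharacter χ.2
  have hcl := isClassFunction_of_isCharacter hχc
  set X : G → ℂ := (χ : G → ℂ) with hX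
  set i := (Subgroup.centralizer ({g} : Set G)).index with hi
  set ind : G → ℂ := fun y => (Cfsg.Agent.Lib.CharIntegrality.classIndicator g y : ℂ) with hind
  have hCard : (Nat.card (Subgroup.centralizer ({g} : Set G)) : ℂ) * (i : ℂ) = (Nat.card G : ℂ) := by
    rw [hi]
    have := Subgroup.card_mul_index (Subgroup.centralizer ({g} : Set G))
    exact_mod_cast this
  have hC0 : (Nat.card (Subgroup.centralizer ({g} : Set G)) : ℂ) ≠ 0 := by
    exact_mod_cast Nat.card_pos.ne'
  have hreal : ∀ y : G, X y⁻¹ = X y := by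
    intro y
    rw [← char_conj_eq_inv hχc]
    exact Complex.conj_eq_iff_im.mpr (hr y)
  -- the sum of the indicator
  have hsum1 : ∑ y : G, ind y = (i : ℂ) := by
    have h1 := Cfsg.Agent.Lib.BlkBasic.sum_conj_eq_card_mul (fun _ => (1 : ℂ)) g
    simp only [mul_one, Finset.sum_const, Finset.card_univ, nsmul_eq_mul] at h1
    rw [Fintype.card_eq_nat_card, ← hCard] at h1
    exact (mul_left_cancel₀ hC0 h1).symm
  -- the average over the class
  have hz : ∀ z : G, X 1 * ((Nat.card (Subgroup.centralizer ({g} : Set G)) : ℂ) *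
      ∑ y : G, ind y * X (z * y⁻¹)) = (Nat.card G : ℂ) * X z * X g := by
    intro z
    have h1 := Cfsg.Agent.Lib.BlkBasic.sum_conj_eq_card_mul (fun y => X (z * y⁻¹)) g
    rw [← h1]
    have h2 : X 1 * ∑ b : G, X (z * (b * g⁻¹ * b⁻¹)) = (Nat.card G : ℂ) * X z * X g⁻¹ :=
      irr_avg χ.2 z g⁻¹
    rw [hreal g] at h2
    rw [← h2]
    congr 1
    refine (Equiv.sum_comp (Equiv.inv G) _).symm.trans ?_
    refine Finset.sum_congr rfl fun x _ => ?_
    simp only [Equiv.inv_apply]
    congr 2
    group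
  have hindX : ∀ z : G, ind z * X z = ind z * X g := by
    intro z
    by_cases h : IsConj g z
    · rw [Cfsg.Agent.Lib.CharTable.char_eq_of_isConj hχc h]
    · simp [hind, Cfsg.Agent.Lib.BlkBasic.classIndicator_of_not_conj h]
  have hindsq : ∀ z : G, ind z * ind z = ind z := by
    intro z
    by_cases h : IsConj g z
    · simp [hind, Cfsg.Agent.Lib.BlkBasic.classIndicator_of_conj h]
    · simp [hind, Cfsg.Agent.Lib.BlkBasic.classIndicator_of_not_conj h]
  -- the double sum
  set A : G → G → ℂ := fun z y => ind z * ind y * X (z * y⁻¹) with hA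
  have hsym : ∀ z y, A z y = A y z := by
    intro z y
    simp only [hA]
    have : X (z * y⁻¹) = X (y * z⁻¹) := by
      rw [← hreal (z * y⁻¹)]
      congr 1
      group
    rw [this]
    ring
  have hint : ∀ z y, IsIntegral ℤ (A z y) := by
    intro z y
    refine IsIntegral.mul (IsIntegral.mul ?_ ?_) (char_isIntegral hχc _)
    · exact (isIntegral_algebraMap (R := ℤ) (A := ℂ) (x := Cfsg.Agent.Lib.CharIntegrality.classIndicator g z))
    · exact (isIntegral_algebraMap (R := ℤ) (A := ℂ) (x := Cfsg.Agent.Lib.CharIntegrality.classIndicator g y))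
  obtain ⟨c, hc, hS⟩ := sym_sum Finset.univ A hsym hint
  refine ⟨c, hc, ?_⟩
  have hdiag : ∑ z : G, A z z = (i : ℂ) * X 1 := by
    rw [← hsum1, Finset.sum_mul]
    refine Finset.sum_congr rfl fun z _ => ?_
    simp only [hA, hindsq, mul_inv_cancel]
  have hS2 : X 1 * ∑ z : G, ∑ y : G, A z y = ((i : ℂ) * X g) ^ 2 := by
    have h1 : (Nat.card (Subgroup.centralizer ({g} : Set G)) : ℂ) * (X 1 * ∑ z : G, ∑ y : G, A z y) =
        (Nat.card (Subgroup.centralizer ({g} : Set G)) : ℂ) * ((i : ℂ) * X g) ^ 2 := by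
      have h2 : ∀ z : G, (Nat.card (Subgroup.centralizer ({g} : Set G)) : ℂ) * (X 1 * ∑ y : G, A z y) =
          (Nat.card G : ℂ) * X g * (ind z * X g) := by
        intro z
        have h3 : ∑ y : G, A z y = ind z * ∑ y : G, ind y * X (z * y⁻¹) := by
          rw [Finset.mul_sum]
          refine Finset.sum_congr rfl fun y _ => ?_
          simp only [hA]
          ring
        rw [h3, ← hindX z]
        have h4 := hz z
        linear_combination (ind z) * h4
      rw [Finset.mul_sum, Finset.mul_sum]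
      rw [Finset.sum_congr rfl fun z _ => h2 z, ← Finset.mul_sum, ← Finset.sum_mul, hsum1, ← hCard]
      ring
    exact mul_left_cancel₀ hC0 h1
  rw [← hS2, hS, hdiag]

/-- A real character of odd degree lies in the principal 2-block. -/
theorem mem_principal (M : Ideal AlgInt) (hM : IsPModular 2 M) (χ : IrrCharacter G)
    (hr : ∀ g : G, ((χ : G → ℂ) g).im = 0) (hodd : Odd (charDegree (χ : G → ℂ))) :
    χ ∈ principalBlock M G := by
  classical
  haveI hMp : M.IsPrime := hM.2.1.isPrime
  have hχc := IsIrrCharacter.isCharacter χ.2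
  intro g
  obtain ⟨c, hc, hid⟩ := key_identity χ hr g
  set i := (Subgroup.centralizer ({g} : Set G)).index with hi
  set X : G → ℂ := (χ : G → ℂ) with hX
  set d := charDegree X with hd
  have hX1 : X 1 = (d : ℂ) := one_eq_charDegree hχc
  have hnd : ¬ 2 ∣ d := by
    rw [← even_iff_two_dvd]
    exact Nat.not_even_iff_odd.mpr hodd
  have hd0 : (d : ℂ) ≠ 0 := by
    have : d ≠ 0 := charDegree_ne_zero χ.2
    exact_mod_cast this
  -- the element `z`
  set z : ℂ := (i : ℂ) * X 1 - (i : ℂ) * X g with hz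
  have hXg : MemLocalRing M (X g) := memLocalRing_of_isIntegral (char_isIntegral hχc g)
  have hX1' : MemLocalRing M (X 1) := memLocalRing_of_isIntegral (char_isIntegral hχc 1)
  have hcl : MemLocalRing M c := memLocalRing_of_isIntegral hc
  have hzl : MemLocalRing M z :=
    memLocalRing_sub (memLocalRing_mul (memLocalRing_natCast i) hX1')
      (memLocalRing_mul (memLocalRing_natCast i) hXg)
  have h2z : MemLocalIdeal M (z ^ 2) := by
    have h1 : z ^ 2 = ((i * (i + 1) : ℕ) : ℂ) * X 1 ^ 2 +
        ((2 : ℕ) : ℂ) * (X 1 * c - (i : ℂ) ^ 2 * X 1 * X g) := by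
      simp only [hz]
      push_cast
      linear_combination hid
    rw [h1]
    refine memLocalIdeal_add ?_ ?_
    · refine memLocalIdeal_mul_right (memLocalIdeal_natCast_of_dvd hM ?_)
        (memLocalRing_pow hX1' 2)
      exact even_iff_two_dvd.mp (Nat.even_mul_succ_self i)
    · refine memLocalIdeal_mul_right (memLocalIdeal_natCast_of_dvd hM dvd_rfl) ?_
      exact memLocalRing_sub (memLocalRing_mul hX1' hcl)
        (memLocalRing_mul (memLocalRing_mul (memLocalRing_pow (memLocalRing_natCast i) 2) hX1') hXg)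
  have hz1 : MemLocalIdeal M z := (memLocalIdeal_pow_iff hzl (by norm_num)).mp h2z
  have hdiff : centralChar (fun _ : G => (1 : ℂ)) g - centralChar X g = z * (d : ℂ)⁻¹ := by
    simp only [centralChar, hz, hX1]
    field_simp
    try ring
  show MemLocalIdeal M (centralChar (fun _ : G => (1 : ℂ)) g - centralChar X g)
  rw [hdiff]
  exact memLocalIdeal_mul_right hz1 (memLocalRing_inv_natCast hM hnd)

/-- The count. -/
theorem card_le (M : Ideal AlgInt) (hM : IsPModular 2 M) :
    Nat.card {χ : IrrCharacter G // (∀ g : G, ((χ : G → ℂ) g).im = 0) ∧ Odd (charDegree (χ : G → ℂ))} ≤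
      2 ^ (2 * (Nat.card G).factorization 2) := by
  classical
  haveI hMp : M.IsPrime := hM.2.1.isPrime
  have hB : IsPBlock M (principalBlock M G) := Cfsg.Agent.Lib.BlockNormal.isPBlock_principalBlock M
  have hmain := Cfsg.Agent.S4676.main hM hB
  set B := principalBlock M G with hBdef
  -- the defect is the full exponent
  have hone : (⟨fun _ => 1, isIrrCharacter_one⟩ : IrrCharacter G) ∈ B :=
    mem_blockOf_self_aux M
  have hmin : Cfsg.Agent.Lib.BlockQ.minExp 2 B = 0 := by
    have h1 := Cfsg.Agent.Lib.BlockQ.minExp_le (p := 2) hone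
    have h2 : charDegree (fun _ : G => (1 : ℂ)) = 1 := by
      simp [charDegree]
    simp only at h1
    rw [h2] at h1
    simpa using h1
  have hdef : blockDefect 2 B = (Nat.card G).factorization 2 := by
    have := Cfsg.Agent.Lib.BlockQ.card_factorization_eq (p := 2) hB
    omega
  rw [hdef] at hmain
  set a := (Nat.card G).factorization 2 with ha
  have hc1 : (Cfsg.Agent.Lib.BlockQ.bF B).card ≤ ∑ χ ∈ Cfsg.Agent.Lib.BlockQ.bF B,
      2 ^ (2 * blockHeight 2 B (χ : G → ℂ)) := by
    rw [Finset.card_eq_sum_ones]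
    exact Finset.sum_le_sum fun χ _ => Nat.one_le_two_pow
  have hc2 : Nat.card {χ : IrrCharacter G // (∀ g : G, ((χ : G → ℂ) g).im = 0) ∧
      Odd (charDegree (χ : G → ℂ))} ≤ (Cfsg.Agent.Lib.BlockQ.bF B).card := by
    rw [Nat.card_eq_fintype_card, Fintype.card_subtype]
    apply Finset.card_le_card
    intro χ hχ
    obtain ⟨h1, h2⟩ := (Finset.mem_filter.mp hχ).2
    exact Cfsg.Agent.Lib.BlockQ.mem_bF.mpr (mem_principal M hM χ h1 h2)
  have hc3 : (2 ^ a) ^ 2 / 4 + 1 ≤ 2 ^ (2 * a) := by
    rcases a with _ | n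
    · norm_num
    · have e : (2 ^ (n + 1)) ^ 2 = 4 * 4 ^ n := by
        rw [← pow_mul, mul_comm (n + 1) 2, pow_mul]
        norm_num
        ring
      have e2 : 2 ^ (2 * (n + 1)) = 4 * 4 ^ n := by
        rw [pow_mul]
        norm_num
        ring
      rw [e, e2, Nat.mul_div_cancel_left _ (by norm_num)]
      have : 1 ≤ 4 ^ n := Nat.one_le_pow _ _ (by norm_num)
      omega
  omega

/-- Let G be a finite group of order 2^n·g₀ with g₀ odd, and M a maximal ideal of the algebraic integers containing 2. Every real-valued irreducible character of G of odd degree lies in the principal 2-block; consequently G has at most 2^(2n) real-valued irreducible characters of odd degree. -/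
theorem result {G : Type*} [Group G] [Finite G] (M : Ideal Cfsg.AlgInt) (hM : Cfsg.IsPModular 2 M) : (∀ χ : Cfsg.IrrCharacter G, (∀ g : G, ((χ : G → ℂ) g).im = 0) → Odd (Cfsg.charDegree (χ : G → ℂ)) → χ ∈ Cfsg.principalBlock M G) ∧ Nat.card {χ : Cfsg.IrrCharacter G // (∀ g : G, ((χ : G → ℂ) g).im = 0) ∧ Odd (Cfsg.charDegree (χ : G → ℂ))} ≤ 2 ^ (2 * (Nat.card G).factorization 2) := by
  letI := Fintype.ofFinite G
  exact ⟨fun χ h1 h2 => mem_principal M hM χ h1 h2, card_le M hM⟩

end Cfsg.Agent.S4483
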