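import Mathlib
import Cfsg.Statements.S4486
import Cfsg.Agent.Lib.TICentMain

set_option autoImplicit false
open Cfsg

namespace Cfsg.Agent.S4486

/-- Let G be a finite group and p a prime dividing its order such that every non-identity element of a Sylow p-subgroup P has the same centralizer as P; let p^n be the order of P. If G has a non-principal irreducible character χ of degree x with x² < p^n − 1, then either G has a proper normal subgroup containing P, or G has a normal subgroup of index p^n and x = 1. -/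
theorem result {G : Type*} [Group G] [Finite G] (p : ℕ) (hp : p.Prime) (hpG : p ∣ Nat.card G) (P : Sylow p G) (hstar : ∀ x ∈ (P : Subgroup G), x ≠ 1 → Subgroup.centralizer ({x} : Set G) = Subgroup.centralizer ((P : Subgroup G) : Set G)) (n : ℕ) (hn : Nat.card P = p ^ n) (χ : Cfsg.IrrCharacter G) (h1 : (χ : G → ℂ) ≠ fun _ => 1) (hdeg : Cfsg.charDegree (χ : G → ℂ) ^ 2 + 1 < p ^ n) : (∃ K : Subgroup G, K.Normal ∧ K ≠ ⊤ ∧ (P : Subgroup G) ≤ K) ∨ ((∃ N : Subgroup G, N.Normal ∧ N.index = p ^ n) ∧ Cfsg.charDegree (χ : G → ℂ) = 1) := by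
  classical
  letI : Fintype G := Fintype.ofFinite G
  by_cases hex : ∃ K : Subgroup G, K.Normal ∧ K ≠ ⊤ ∧ (P : Subgroup G) ≤ K
  · exact Or.inl hex
  right
  have hnorm : ∀ K : Subgroup G, K.Normal → (P : Subgroup G) ≤ K → K = ⊤ := by
    intro K hK hPK
    by_contra h
    exact hex ⟨K, hK, h, hPK⟩
  have hn' : Nat.card (P : Subgroup G) = p ^ n := hn
  have hP1 : 1 < Nat.card (P : Subgroup G) := by
    rw [hn']
    have : 0 ≤ Cfsg.charDegree (χ : G → ℂ) ^ 2 := Nat.zero_le _
    omega
  obtain ⟨r, e, H⟩ := Cfsg.Agent.Lib.TICent.exists_hyp p hp P hstar hP1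
  letI : Fintype ↥(Subgroup.centralizer ((P : Subgroup G) : Set G)) := Fintype.ofFinite _
  letI : Fintype ↥(P : Subgroup G) := Fintype.ofFinite _
  letI : Fintype r.ker := Fintype.ofFinite _
  have hχ1 : χ ≠ Cfsg.Agent.Lib.DefectOne.oneIrr G := fun h => h1 (congrArg Subtype.val h)
  have hx := H.main hnorm χ hχ1 (by rw [hn']; exact hdeg)
  have hle := H.normalizer_le hnorm χ hχ1 hx
  refine ⟨?_, hx⟩
  haveI : Fact p.Prime := ⟨hp⟩
  have hcomp := MonoidHom.ker_transferSylow_isComplement' P hle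
  refine ⟨(MonoidHom.transferSylow P hle).ker, inferInstance, ?_⟩
  rw [hcomp.symm.index_eq_card]
  exact hn

end Cfsg.Agent.S4486
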