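import Mathlib
import Cfsg.Statements.S4485
import Cfsg.Agent.S4486

set_option autoImplicit false
open Cfsg

namespace Cfsg.Agent.S4485

open Cfsg.Agent.Lib.CharBasic Cfsg.Agent.Lib.CharKernel Subgroup

universe u

theorem aux : ∀ (N : ℕ) {G : Type u} [Group G] [Finite G] (_ : Nat.card G ≤ N) (p : ℕ) (_ : p.Prime) (P : Sylow p G)
    (_ : ∀ x ∈ (P : Subgroup G), x ≠ 1 → Subgroup.centralizer ({x} : Set G) = Subgroup.centralizer ((P : Subgroup G) : Set G))
    (n : ℕ) (_ : Nat.card P = p ^ n) (χ : G → ℂ) (_ : Cfsg.IsCharacter G χ) (_ : ∀ g : G, χ g = χ 1 → g = 1)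
    (_ : Cfsg.charDegree χ ^ 2 + 1 < p ^ n), (P : Subgroup G).Normal := by
  intro N
  induction N with
  | zero =>
    intro G _ _ hN
    exact absurd hN (by have := Nat.card_pos (α := G); omega)
  | succ N IH =>
    intro G _ _ hN p hp P hstar n hn χ hχ hfaith hdeg
    classical
    letI : Fintype G := Fintype.ofFinite G
    haveI : Fact p.Prime := ⟨hp⟩
    by_cases hex : ∃ K : Subgroup G, K.Normal ∧ K ≠ ⊤ ∧ (P : Subgroup G) ≤ K
    · obtain ⟨K, hKn, hKt, hPK⟩ := hex
      have hcardK : Nat.card K ≤ N := by
        have h1 : Nat.card K < Nat.card G := by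
          have h2 := Subgroup.card_mul_index K
          have h3 : K.index ≠ 1 := fun h => hKt (Subgroup.index_eq_one.1 h)
          have h4 : K.index ≠ 0 := Subgroup.index_ne_zero_of_finite
          have h5 : 2 ≤ K.index := by omega
          have h6 : 0 < Nat.card K := Nat.card_pos
          nlinarith
        omega
      have hQ := IH hcardK p hp (P.subtype hPK) (by
        intro x hx hx1
        have hx' : (x : G) ∈ (P : Subgroup G) := by
          rw [Sylow.coe_subtype] at hx
          exact Subgroup.mem_subgroupOf.1 hx
        have hx1' : (x : G) ≠ 1 := fun h => hx1 (Subtype.ext h)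
        have h0 := hstar x hx' hx1'
        ext y
        constructor
        · intro hy
          rw [Subgroup.mem_centralizer_iff]
          intro w hw
          have hw' : (w : G) ∈ (P : Subgroup G) := by
            have : w ∈ ((P.subtype hPK : Sylow p K) : Subgroup K) := hw
            rw [Sylow.coe_subtype] at this
            exact Subgroup.mem_subgroupOf.1 this
          have h1 : (y : G) ∈ Subgroup.centralizer ({(x : G)} : Set G) := by
            rw [Subgroup.mem_centralizer_singleton_iff]
            have h2 := Subgroup.mem_centralizer_singleton_iff.1 hy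
            exact congrArg Subtype.val h2
          rw [h0, Subgroup.mem_centralizer_iff] at h1
          exact Subtype.ext (h1 w hw')
        · intro hy
          rw [Subgroup.mem_centralizer_singleton_iff]
          have hxm : x ∈ ((P.subtype hPK : Sylow p K) : Subgroup K) := hx
          have := (Subgroup.mem_centralizer_iff.1 hy) x hxm
          exact this.symm) n (by
          rw [← hn]
          have h1 : ((P.subtype hPK : Sylow p K) : Subgroup K) = (P : Subgroup G).subgroupOf K := Sylow.coe_subtype _ _
          have h2 : Nat.card ↥((P.subtype hPK : Sylow p K) : Subgroup K) = Nat.card ↥((P : Subgroup G).subgroupOf K) := by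
            rw [h1]
          have h3 := Nat.card_congr (Subgroup.subgroupOfEquivOfLe hPK).toEquiv
          exact h2.trans h3) (fun k : K => χ k)
        (isCharacter_restrict K hχ) (fun g hg => Subtype.ext (hfaith g (by simpa using hg))) (by
          have h1 : Cfsg.charDegree (fun k : K => χ k) = Cfsg.charDegree χ := by
            unfold Cfsg.charDegree
            simp
          rw [h1]
          exact hdeg)
      -- characteristic
      haveI hQn : (((P.subtype hPK : Sylow p K)) : Subgroup K).Normal := hQ
      haveI : ((P.subtype hPK : Sylow p K) : Subgroup K).Characteristic := Sylow.characteristic_of_normal _ hQn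
      have h5 : (((P.subtype hPK : Sylow p K) : Subgroup K).map K.subtype).Normal := inferInstance
      have h6 : (((P.subtype hPK : Sylow p K) : Subgroup K)).map K.subtype = (P : Subgroup G) := by
        rw [Sylow.coe_subtype, Subgroup.subgroupOf_map_subtype]
        exact inf_eq_left.2 hPK
      rwa [h6] at h5
    · have hnorm : ∀ K : Subgroup G, K.Normal → (P : Subgroup G) ≤ K → K = ⊤ := by
        intro K hK hPK
        by_contra h
        exact hex ⟨K, hK, h, hPK⟩
      have hpG : p ∣ Nat.card G := by
        have h1 : n ≠ 0 := by
          rintro rfl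
          simp at hdeg
        have h2 : p ∣ Nat.card P := by
          rw [hn]
          exact dvd_pow_self p h1
        exact dvd_trans h2 (Subgroup.card_subgroup_dvd_card _)
      obtain ⟨m, hm⟩ := exists_nat_decomp hχ
      have hval : ∀ g, χ g = ∑ i, (m i : ℂ) * (i : G → ℂ) g := by
        intro g
        rw [hm, Finset.sum_apply]
        simp
      have hdegsum : Cfsg.charDegree χ = ∑ i, m i * Cfsg.charDegree (i : G → ℂ) := by
        have h1 := hval 1
        rw [one_eq_charDegree hχ] at h1
        have h2 : ((Cfsg.charDegree χ : ℕ) : ℂ) = ((∑ i, m i * Cfsg.charDegree (i : G → ℂ) : ℕ) : ℂ) := by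
          rw [h1]
          push_cast
          refine Finset.sum_congr rfl fun i _ => ?_
          rw [one_eq_charDegree (IsIrrCharacter.isCharacter i.2)]
        exact_mod_cast h2
      have hlin : ∀ i, m i ≠ 0 → Cfsg.charDegree (i : G → ℂ) = 1 := by
        intro i hi
        by_cases hi1 : (i : G → ℂ) = fun _ => 1
        · unfold Cfsg.charDegree
          rw [hi1]
          simp
        · have hle : Cfsg.charDegree (i : G → ℂ) ≤ Cfsg.charDegree χ := by
            rw [hdegsum]
            have h1 : m i * Cfsg.charDegree (i : G → ℂ) ≤ ∑ i, m i * Cfsg.charDegree (i : G → ℂ) :=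
              Finset.single_le_sum (f := fun i => m i * Cfsg.charDegree (i : G → ℂ)) (fun _ _ => Nat.zero_le _)
                (Finset.mem_univ i)
            exact le_trans (Nat.le_mul_of_pos_left _ (Nat.pos_of_ne_zero hi)) h1
          have h2 : Cfsg.charDegree (i : G → ℂ) ^ 2 + 1 < p ^ n := by
            have := Nat.pow_le_pow_left hle 2
            omega
          rcases Cfsg.Agent.S4486.result p hp hpG P hstar n hn i hi1 h2 with h3 | h3
          · exfalso
            obtain ⟨K, hK1, hK2, hK3⟩ := h3
            exact hK2 (hnorm K hK1 hK3)
          · exact h3.2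
      have hcomm : ∀ a b : G, a * b = b * a := by
        intro a b
        have h1 : χ (a * b * a⁻¹ * b⁻¹) = χ 1 := by
          rw [hval, hval]
          refine Finset.sum_congr rfl fun i _ => ?_
          by_cases hi : m i = 0
          · simp [hi]
          · have hd := hlin i hi
            have h2 : (i : G → ℂ) 1 = 1 := by
              rw [one_eq_charDegree (IsIrrCharacter.isCharacter i.2), hd]
              simp
            obtain ⟨f, hf⟩ := exists_hom_of_degree_one (IsIrrCharacter.isCharacter i.2) h2
            rw [hf, hf]
            congr 2
            simp only [map_mul, map_inv, map_one]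
            rw [mul_comm (f a) (f b)]
            group
        have h2 := hfaith _ h1
        have h3 : a * b = b * a := by
          have h4 : a * b * a⁻¹ = b := by
            rw [mul_inv_eq_one] at h2
            exact h2
          rw [mul_inv_eq_iff_eq_mul] at h4
          exact h4
        exact h3
      constructor
      intro x hx g
      have h1 : g * x * g⁻¹ = x := by
        rw [hcomm g x]
        group
      rw [h1]
      exact hx

/-- Let G be a finite group and p a prime dividing its order such that every non-identity element of a Sylow p-subgroup P has the same centralizer as P itself (so P is abelian); let p^n be the order of P. If G has a faithful character of degree x with x² < p^n − 1, then P is normal in G. -/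
theorem result {G : Type*} [Group G] [Finite G] (p : ℕ) (hp : p.Prime) (hpG : p ∣ Nat.card G) (P : Sylow p G) (hstar : ∀ x ∈ (P : Subgroup G), x ≠ 1 → Subgroup.centralizer ({x} : Set G) = Subgroup.centralizer ((P : Subgroup G) : Set G)) (n : ℕ) (hn : Nat.card P = p ^ n) (χ : G → ℂ) (hχ : Cfsg.IsCharacter G χ) (hfaith : ∀ g : G, χ g = χ 1 → g = 1) (hdeg : Cfsg.charDegree χ ^ 2 + 1 < p ^ n) : (P : Subgroup G).Normal := by
  exact aux (Nat.card G) le_rfl p hp P hstar n hn χ hχ hfaith hdeg

end Cfsg.Agent.S4485
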