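import Mathlib
import Cfsg.Statements.S4487
import Cfsg.Agent.Lib.BlockNormal

set_option autoImplicit false
open Cfsg

namespace Cfsg.Agent.S4487

open Cfsg.Agent.Lib Cfsg.Agent.Lib.BlockNormal Cfsg.Agent.Lib.BlockIdem Cfsg.Agent.Lib.BlockLocal

theorem result {G : Type*} [Group G] [Finite G] (p : ℕ) [Fact p.Prime] (M : Ideal Cfsg.AlgInt) (hM : Cfsg.IsPModular p M) (hcore : Cfsg.pPrimeCore p G = ⊥) (hconstr : Subgroup.centralizer ((Cfsg.pCore p G) : Set G) ≤ Cfsg.pCore p G) (χ ψ : Cfsg.IrrCharacter G) : Cfsg.SameBlock M (χ : G → ℂ) (ψ : G → ℂ) := by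
  classical
  letI := Fintype.ofFinite G
  haveI := isPrime_of_isPModular hM
  have h1 := mem_principalBlock_of_centralizer_le hM (pCore p G) (PCore.isPGroup_pCore p) hconstr χ
  have h2 := mem_principalBlock_of_centralizer_le hM (pCore p G) (PCore.isPGroup_pCore p) hconstr ψ
  exact sameBlock_trans (sameBlock_symm h1) h2

end Cfsg.Agent.S4487
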