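import Mathlib
-- Template for statement S4488 (row 4488; see /opt/grader/pristine/manifest.json for weights).
-- Copy to Cfsg/Agent/S4488.lean and replace the sorry. The statement below is byte-identical to the frozen
-- statement Cfsg.CfsgFrozen.S4488 (Cfsg/Statements/S4488.lean; the theorem Cfsg.chr_faithful_p_rational_character_sylow_exponent_bound);
-- the grader kernel-checks Cfsg.Agent.S4488.result against that frozen type. Keep the theorem IN THIS FILE
-- (a `result` declared elsewhere and merely imported here is not credited); helpers may live anywhere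
-- under Cfsg/Agent/.
import Cfsg.Statements.S4488
import Cfsg.Agent.Lib.FieldDegP2

set_option autoImplicit false
open Cfsg

namespace Cfsg.Agent.S4488

open Cfsg.Agent.Lib.FieldDegP2 Cfsg.Agent.Lib.CharBasic

/-- Let the finite group G have a faithful p-rational character χ of degree n (all values of χ lie in the field generated over ℚ by a root of unity of order prime to p), and let p^a be the order of a Sylow p-subgroup of G. Then a ≤ Σ_{i ≥ 0} ⌊n / ((p − 1)·p^i)⌋ (a finite sum; the terms vanish once (p − 1)p^i > n). -/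
theorem result {G : Type*} [Group G] [Finite G] (p : ℕ) (hp : p.Prime) (χ : G → ℂ) (hχ : Cfsg.IsCharacter G χ) (hfaith : ∀ g : G, χ g = χ 1 → g = 1) (hrat : (∃ r : ℕ, 0 < r ∧ ¬ p ∣ r ∧ ∀ g : G, χ g ∈ IntermediateField.adjoin ℚ ({Complex.exp (2 * Real.pi * Complex.I / r)} : Set ℂ))) (n : ℕ) (hn : Cfsg.charDegree χ = n) : (Nat.card G).factorization p ≤ ∑ i ∈ Finset.range (n + 1), n / ((p - 1) * p ^ i) := by
  classical
  letI : Fintype G := Fintype.ofFinite _
  haveI : Fact p.Prime := ⟨hp⟩
  obtain ⟨r, hr0, hrp, hrat⟩ := hrat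
  let S : Sylow p G := default
  have hcard : Nat.card S = p ^ (Nat.card G).factorization p := S.card_eq_multiplicity
  let τ : S → ℂ := fun g => χ g
  have hτ : Cfsg.IsCharacter S τ := isCharacter_restrict (S : Subgroup G) hχ
  have hfaith' : ∀ g : S, τ g = τ 1 → g = 1 := by
    intro g hg
    apply Subtype.ext
    exact hfaith _ hg
  have hinv : ∀ k : ℕ, k.Coprime (Nat.card S) → ∀ g : S, τ (g ^ k) = τ g := by
    intro k hk g
    obtain ⟨m, μ, h1, h2⟩ := Cfsg.Agent.Lib.CharGalois.exists_roots hτ g
    have h3 : τ g = ∑ i, μ i := by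
      have := h2 1
      simpa using this
    rw [h2 k, h3]
    refine Cfsg.Agent.Lib.PRational.sum_pow_eq_of_mem_adjoin μ (Nat.card_pos.ne') hr0.ne' h1 hk ?_ ?_
    · have hg : Nat.gcd (Nat.card S) r = 1 := by
        rw [hcard]
        exact Nat.Coprime.pow_left _ ((Nat.Prime.coprime_iff_not_dvd hp).mpr hrp)
      rw [hg]
      exact Nat.modEq_one
    · rw [← h3]
      exact hrat g
  have hdeg : Cfsg.charDegree τ = n := by
    rw [← hn]
    rfl
  have h := main_pgroup hp hcard hτ hfaith' hinv
  rw [hdeg] at h
  exact h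

end Cfsg.Agent.S4488
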