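import Mathlib
-- Template for statement S4489 (row 4489; see /opt/grader/pristine/manifest.json for weights).
-- Copy to Cfsg/Agent/S4489.lean and replace the sorry. The statement below is byte-identical to the frozen
-- statement Cfsg.CfsgFrozen.S4489 (Cfsg/Statements/S4489.lean; the theorem Cfsg.chr_faithful_character_of_p_group_order_bound_by_degree_and_field);
-- the grader kernel-checks Cfsg.Agent.S4489.result against that frozen type. Keep the theorem IN THIS FILE
-- (a `result` declared elsewhere and merely imported here is not credited); helpers may live anywhere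
-- under Cfsg/Agent/.
import Cfsg.Statements.S4489
import Cfsg.Agent.Lib.FieldDegP

set_option autoImplicit false
open Cfsg

namespace Cfsg.Agent.S4489

open Cfsg.Agent.Lib.FieldDegP

/-- Let P be a finite p-group of order p^a with a > 0, and χ a faithful irreducible character of P of degree f whose field of values ℚ(χ) has degree (p − 1)·p^t over ℚ. Then a ≤ (f − 1)/(p − 1) + (t + 1)·f; in integer form, (p − 1)·a ≤ (f − 1) + (p − 1)(t + 1)·f. -/
theorem result {P : Type*} [Group P] [Finite P] (p a : ℕ) (hp : p.Prime) (ha : 0 < a) (hP : Nat.card P = p ^ a) (χ : Cfsg.IrrCharacter P) (hfaith : ∀ g : P, (χ : P → ℂ) g = (χ : P → ℂ) 1 → g = 1) (f t : ℕ) (hf : Cfsg.charDegree (χ : P → ℂ) = f) (hfield : Module.finrank ℚ (IntermediateField.adjoin ℚ (Set.range (χ : P → ℂ))) = (p - 1) * p ^ t) : (p - 1) * a ≤ (f - 1) + (p - 1) * (t + 1) * f := by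
  have h := main_bound hp _ P a rfl hP (χ : P → ℂ) χ.2 hfaith t (le_of_eq hfield)
  rw [hf] at h
  exact h

end Cfsg.Agent.S4489
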