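import Mathlib
import Cfsg.Statements.S4491
import Cfsg.Agent.Lib.DefectCount
import Cfsg.Agent.Lib.RealChars

set_option autoImplicit false
set_option linter.style.haveILetI false
set_option linter.unusedVariables false
set_option linter.unusedSectionVars false
open Cfsg

namespace Cfsg.Agent.S4491

open Cfsg.Agent.Lib.CharBasic Cfsg.Agent.Lib.BlockLocal Cfsg.Agent.Lib.BlockIdem
open Cfsg.Agent.Lib.DefectCount Cfsg.Agent.Lib.BlockOrtho Cfsg.Agent.Lib.BlockQ
open Cfsg.Agent.Lib.BlockVal Cfsg.Agent.Lib.BlockDefect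
open scoped ComplexConjugate

universe u

/-- A combination of irreducible characters vanishing on the non-identity elements of `P` has
degree divisible by `|P|`, with the quotient given by the multiplicities of the trivial character. -/
theorem sum_syl {G : Type u} [Group G] [Fintype G] (P : Subgroup G) [Fintype P]
    (t : IrrCharacter G → ℕ)
    (ht : ∀ χ : IrrCharacter G, classInner (fun h : P => (χ : G → ℂ) h) (fun _ => 1) = t χ)
    (n : IrrCharacter G → ℂ) (hn : ∀ g : P, (g : G) ≠ 1 → ∑ χ, n χ * (χ : G → ℂ) g = 0) :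
    ∑ χ, n χ * (χ : G → ℂ) 1 = (Nat.card P : ℂ) * ∑ χ, n χ * t χ := by
  classical
  have hne : (Nat.card P : ℂ) ≠ 0 := by exact_mod_cast Nat.card_pos.ne'
  have h1 : ∀ χ : IrrCharacter G, (t χ : ℂ) = (Nat.card P : ℂ)⁻¹ * ∑ h : P, (χ : G → ℂ) h := by
    intro χ
    rw [← ht]
    unfold classInner
    simp
  have h2 : ∑ χ, n χ * (t χ : ℂ) = (Nat.card P : ℂ)⁻¹ * ∑ h : P, ∑ χ, n χ * (χ : G → ℂ) h := by
    simp_rw [h1]
    rw [Finset.sum_comm, Finset.mul_sum]
    refine Finset.sum_congr rfl fun χ _ => ?_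
    rw [Finset.mul_sum, Finset.mul_sum, Finset.mul_sum]
    refine Finset.sum_congr rfl fun h _ => ?_
    ring
  rw [h2, Finset.sum_eq_single (1 : P)]
  · rw [mul_inv_cancel_left₀ hne]
    rfl
  · intro g _ hg
    exact hn g (fun h => hg (Subtype.ext h))
  · intro h
    exact absurd (Finset.mem_univ _) h

/-- Let B be a p-block of defect d of the finite group G (relative to a maximal ideal M of the algebraic integers containing p), and let p^a be the p-part of the order of G. Then the exact power of p dividing the sum of the squares of the degrees of the irreducible characters in B is p^(2a − d). -/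
theorem result {G : Type*} [Group G] [Finite G] (p : ℕ) [Fact p.Prime] (M : Ideal Cfsg.AlgInt) (hM : Cfsg.IsPModular p M) (B : Set (Cfsg.IrrCharacter G)) (hB : Cfsg.IsPBlock M B) : (∑ᶠ χ ∈ B, Cfsg.charDegree (χ : G → ℂ) ^ 2).factorization p = 2 * (Nat.card G).factorization p - Cfsg.blockDefect p B := by
  classical
  haveI : Fintype G := Fintype.ofFinite G
  haveI := hM.2.1.isPrime
  have hpp : p.Prime := Fact.out
  set a := (Nat.card G).factorization p with ha
  set d := blockDefect p B with hd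
  set e := minExp p B with he
  have hae : a = d + e := card_factorization_eq hB
  have hdeg : ∀ χ ∈ B, p ^ e ∣ charDegree (χ : G → ℂ) := by
    intro χ hχ
    rw [hpp.pow_dvd_iff_le_factorization (Cfsg.Agent.Lib.CharKernel.charDegree_ne_zero χ.2)]
    exact minExp_le hχ
  let f : IrrCharacter G → ℕ := fun χ => charDegree (χ : G → ℂ) / p ^ e
  have hf : ∀ χ ∈ B, charDegree (χ : G → ℂ) = p ^ e * f χ := fun χ hχ =>
    (Nat.mul_div_cancel' (hdeg χ hχ)).symm
  have hfC : ∀ χ ∈ B, (χ : G → ℂ) 1 = (p : ℂ) ^ e * f χ := by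
    intro χ hχ
    rw [Cfsg.Agent.Lib.CharKernel.one_eq_charDegree (IsIrrCharacter.isCharacter χ.2), hf χ hχ]
    push_cast
    rfl
  have hp0 : (p : ℂ) ≠ 0 := by exact_mod_cast hpp.ne_zero
  have hf0 : ∀ χ ∈ B, (f χ : ℂ) ≠ 0 := by
    intro χ hχ h0
    have h1 := irr_one_ne_zero' χ.2
    rw [hfC χ hχ, h0, mul_zero] at h1
    exact h1 rfl
  -- the Sylow subgroup
  let P : Sylow p G := default
  haveI : Fintype (P : Subgroup G) := Fintype.ofFinite _
  have hPcard : Nat.card (P : Subgroup G) = p ^ a := Sylow.card_eq_multiplicity P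
  have ht : ∀ χ : IrrCharacter G, ∃ t : ℕ,
      classInner (fun h : (P : Subgroup G) => (χ : G → ℂ) h) (fun _ => 1) = t := fun χ =>
    classInner_char_irr (isCharacter_restrict _ (IsIrrCharacter.isCharacter χ.2)) isIrrCharacter_one
  choose t ht using ht
  have hsing : ∀ g : (P : Subgroup G), (g : G) ≠ 1 → p ∣ orderOf (g : G) := by
    intro g hg
    obtain ⟨k, hk⟩ := (IsPGroup.iff_orderOf.mp P.isPGroup') g
    rw [Subgroup.orderOf_coe, hk]
    apply dvd_pow_self
    rintro rfl
    rw [pow_zero, orderOf_eq_one_iff] at hk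
    exact hg (by rw [hk]; rfl)
  have h1reg : ¬ p ∣ orderOf (1 : G) := by
    rw [orderOf_one]
    exact hpp.one_lt.ne' ∘ Nat.dvd_one.mp
  -- the vanishing of `Θ'`
  let n₁ : IrrCharacter G → ℂ := fun χ => indB B χ * f χ
  have hn₁ : ∀ g : (P : Subgroup G), (g : G) ≠ 1 → ∑ χ, n₁ χ * (χ : G → ℂ) g = 0 := by
    intro g hg
    have h1 := sum_block_sing_reg hM hB h1reg (hsing g hg)
    have h2 : ∑ χ : IrrCharacter G, indB B χ * ((χ : G → ℂ) g * conj ((χ : G → ℂ) 1)) =
        (p : ℂ) ^ e * ∑ χ, n₁ χ * (χ : G → ℂ) g := by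
      rw [Finset.mul_sum]
      refine Finset.sum_congr rfl fun χ _ => ?_
      by_cases hχ : χ ∈ B
      · simp only [n₁]
        rw [hfC χ hχ]
        simp only [map_mul, map_pow, map_natCast]
        ring
      · simp only [n₁]
        rw [indB_of_not_mem hχ]
        ring
    rw [h2] at h1
    exact (mul_eq_zero.mp h1).resolve_left (pow_ne_zero _ hp0)
  have hsyl₁ := sum_syl (P : Subgroup G) t ht n₁ hn₁
  let F : ℕ := ∑ χ ∈ bF B, f χ * f χ
  let T : ℕ := ∑ χ ∈ bF B, f χ * t χ
  have hsumbF : ∀ g : IrrCharacter G → ℂ, ∑ χ, indB B χ * g χ = ∑ χ ∈ bF B, g χ := by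
    intro g
    rw [← finsum_mem_eq_sum_indB, finsum_mem_eq_sum_bF]
  have hL₁ : ∑ χ, n₁ χ * (χ : G → ℂ) 1 = (p : ℂ) ^ e * F := by
    have h1 : ∀ χ : IrrCharacter G, n₁ χ * (χ : G → ℂ) 1 =
        indB B χ * ((p : ℂ) ^ e * ((f χ * f χ : ℕ) : ℂ)) := by
      intro χ
      simp only [n₁]
      by_cases hχ : χ ∈ B
      · rw [hfC χ hχ]
        push_cast
        ring
      · rw [indB_of_not_mem hχ]
        ring
    simp_rw [h1]
    rw [hsumbF, ← Finset.mul_sum]
    simp only [F]
    push_cast
    rfl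
  have hR₁ : ∑ χ, n₁ χ * (t χ : ℂ) = (T : ℂ) := by
    have h1 : ∀ χ : IrrCharacter G, n₁ χ * (t χ : ℂ) = indB B χ * ((f χ * t χ : ℕ) : ℂ) := by
      intro χ
      simp only [n₁]
      push_cast
      ring
    simp_rw [h1]
    rw [hsumbF]
    simp only [T]
    push_cast
    rfl
  rw [hL₁, hR₁, hPcard] at hsyl₁
  have hFT : F = p ^ d * T := by
    have h1 : (p : ℂ) ^ e * F = (p : ℂ) ^ e * ((p ^ d * T : ℕ) : ℂ) := by
      rw [hsyl₁, hae]
      push_cast
      ring
    have h2 := mul_left_cancel₀ (pow_ne_zero e hp0) h1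
    exact_mod_cast h2
  -- the sum of squares
  have hS : (∑ᶠ χ ∈ B, charDegree (χ : G → ℂ) ^ 2) = p ^ (2 * e + d) * T := by
    rw [finsum_mem_eq_sum_bF]
    have h1 : ∀ χ ∈ bF B, charDegree (χ : G → ℂ) ^ 2 = p ^ (2 * e) * (f χ * f χ) := by
      intro χ hχ
      rw [hf χ (mem_bF.mp hχ)]
      ring
    rw [Finset.sum_congr rfl h1, ← Finset.mul_sum, pow_add, mul_assoc]
    congr 1
  -- `T` is prime to `p`
  have hT : ¬ p ∣ T := by
    intro hdvd
    obtain ⟨y, hy1, hy2, hy3⟩ := exists_isDefectClass hM hB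
    obtain ⟨hyreg, hycd⟩ := of_blockCoeff_unit hM hB hy2
    obtain ⟨χ₀, hχ₀⟩ := isPBlock_nonempty hB
    have hycd' : cd p y = d := by
      by_contra hne
      have hlt : cd p y < blockDefect p B := by omega
      exact hy3 χ₀ hχ₀ (centralChar_mem_of_lt hM hB hχ₀ hlt)
    -- the index
    set idx := (Subgroup.centralizer ({y} : Set G)).index with hidx
    have hcard := Subgroup.card_mul_index (Subgroup.centralizer ({y} : Set G))
    have hC0 : Nat.card (Subgroup.centralizer ({y} : Set G)) ≠ 0 := Nat.card_pos.ne'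
    have hi0 : idx ≠ 0 := by
      intro h0
      rw [← hidx, h0, mul_zero] at hcard
      exact Nat.card_pos.ne' hcard.symm
    have hfac : idx.factorization p = e := by
      have h1 : a = cd p y + idx.factorization p := by
        rw [ha, ← hcard, Nat.factorization_mul hC0 hi0]
        rfl
      omega
    let u := ordCompl[p] idx
    have hu : p ^ e * u = idx := by
      rw [← hfac]
      exact Nat.ordProj_mul_ordCompl_eq_self _ _
    have hu2 : ¬ p ∣ u := Nat.not_dvd_ordCompl hpp hi0
    have hu0 : (u : ℂ) ≠ 0 := by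
      intro h
      have : u = 0 := by exact_mod_cast h
      exact hu2 (this ▸ dvd_zero p)
    have hinvC : (Subgroup.centralizer ({y⁻¹} : Set G)).index = idx := by
      rw [Cfsg.Agent.Lib.RealChars.centralizer_inv_eq]
    -- the central character at the inverse
    have hω : ∀ χ ∈ B, (u : ℂ) * (χ : G → ℂ) y⁻¹ = centralChar (χ : G → ℂ) y⁻¹ * f χ := by
      intro χ hχ
      unfold centralChar
      rw [hinvC, ← hu, hfC χ hχ]
      have := hf0 χ hχ
      push_cast
      field_simp
    set w := centralChar (χ₀ : G → ℂ) y⁻¹ with hw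
    have hwR : MemLocalRing M w := memLocalRing_of_isIntegral (isIntegral_centralChar χ₀ _)
    set c := w * (u : ℂ)⁻¹ with hc
    have hcR : MemLocalRing M c := memLocalRing_mul hwR (memLocalRing_inv_natCast hM hu2)
    let n₂ : IrrCharacter G → ℂ := fun χ => indB B χ * ((χ : G → ℂ) y⁻¹ - c * f χ)
    have hn₂ : ∀ g : (P : Subgroup G), (g : G) ≠ 1 → ∑ χ, n₂ χ * (χ : G → ℂ) g = 0 := by
      intro g hg
      have h1 := sum_block_sing_reg hM hB hyreg (hsing g hg)
      have h2 : ∑ χ, n₂ χ * (χ : G → ℂ) g =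
          ∑ χ : IrrCharacter G, indB B χ * ((χ : G → ℂ) g * conj ((χ : G → ℂ) y)) -
            c * ∑ χ, n₁ χ * (χ : G → ℂ) g := by
        rw [Finset.mul_sum, ← Finset.sum_sub_distrib]
        refine Finset.sum_congr rfl fun χ _ => ?_
        simp only [n₂, n₁]
        rw [char_conj_eq_inv (IsIrrCharacter.isCharacter χ.2)]
        ring
      rw [h2, h1, hn₁ g hg, mul_zero, sub_zero]
    have hsyl₂ := sum_syl (P : Subgroup G) t ht n₂ hn₂
    -- the left side
    have hL₂ : ∑ χ, n₂ χ * (χ : G → ℂ) 1 =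
        (Nat.card G : ℂ) * blockCoeff B y - c * ((p : ℂ) ^ e * F) := by
      have h1 : (Nat.card G : ℂ) * blockCoeff B y =
          ∑ χ, indB B χ * ((χ : G → ℂ) 1 * conj ((χ : G → ℂ) y)) := by
        unfold blockCoeff
        rw [finsum_mem_eq_sum_indB, mul_inv_cancel_left₀ natCard_ne_zero']
      rw [h1, ← hL₁, Finset.mul_sum, ← Finset.sum_sub_distrib]
      refine Finset.sum_congr rfl fun χ _ => ?_
      simp only [n₂, n₁]
      rw [char_conj_eq_inv (IsIrrCharacter.isCharacter χ.2)]
      ring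
    rw [hL₂, hPcard] at hsyl₂
    -- cancel
    let m := ordCompl[p] (Nat.card G)
    have hm : p ^ a * m = Nat.card G := Nat.ordProj_mul_ordCompl_eq_self _ _
    have hm2 : ¬ p ∣ m := Nat.not_dvd_ordCompl hpp Nat.card_pos.ne'
    have hkey : (m : ℂ) * blockCoeff B y - c * T = ∑ χ, n₂ χ * (t χ : ℂ) := by
      have hpa : (p : ℂ) ^ a ≠ 0 := pow_ne_zero _ hp0
      apply mul_left_cancel₀ hpa
      push_cast at hsyl₁ hsyl₂
      rw [← hsyl₂, hsyl₁, ← hm]
      push_cast
      ring
    -- everything is in the ideal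
    have hRideal : MemLocalIdeal M (∑ χ, n₂ χ * (t χ : ℂ)) := by
      refine memLocalIdeal_sum _ _ fun χ _ => ?_
      apply memLocalIdeal_mul_right _ (memLocalRing_natCast _)
      simp only [n₂]
      by_cases hχ : χ ∈ B
      · rw [indB_of_mem hχ, one_mul]
        have h1 : (χ : G → ℂ) y⁻¹ - c * f χ =
            (centralChar (χ : G → ℂ) y⁻¹ - w) * f χ * (u : ℂ)⁻¹ := by
          have h2 := hω χ hχ
          rw [hc]
          field_simp
          linear_combination h2
        rw [h1]
        apply memLocalIdeal_mul_right _ (memLocalRing_inv_natCast hM hu2)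
        apply memLocalIdeal_mul_right _ (memLocalRing_natCast _)
        have h3 := sameBlock_of_mem hB hχ₀ hχ y⁻¹
        exact memLocalIdeal_sub_comm h3
      · rw [indB_of_not_mem hχ, zero_mul]
        exact memLocalIdeal_zero
    have hcT : MemLocalIdeal M (c * T) :=
      memLocalIdeal_mul_left hcR (memLocalIdeal_natCast_of_dvd hM hdvd)
    have hprod : MemLocalIdeal M ((m : ℂ) * blockCoeff B y) := by
      have h1 := memLocalIdeal_add (by rw [← hkey] at hRideal; exact hRideal) hcT
      simpa using h1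
    rcases (memLocalIdeal_mul_iff (memLocalRing_natCast _) hy1).mp hprod with h1 | h1
    · exact not_memLocalIdeal_natCast hM hm2 h1
    · exact hy2 h1
  have hT0 : T ≠ 0 := fun h => hT (h ▸ dvd_zero p)
  rw [hS, Nat.factorization_mul (pow_ne_zero _ hpp.ne_zero) hT0, Finsupp.add_apply,
    hpp.factorization_pow, Finsupp.single_eq_same, Nat.factorization_eq_zero_of_not_dvd hT]
  omega

end Cfsg.Agent.S4491
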