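import Mathlib
import Cfsg.Statements.S4494
import Cfsg.Agent.S4676

set_option autoImplicit false
open Cfsg

namespace Cfsg.Agent.S4494

/-- The Brauer–Feit bound. Let B be a p-block of the finite group G (relative to a maximal ideal M of the algebraic integers containing p) and let d be its defect. Then the number k(B) of irreducible characters in B satisfies k(B) ≤ p^(2d)/4 + 1, stated here as 4·k(B) ≤ p^(2d) + 4. -/
theorem result {G : Type*} [Group G] [Finite G] (p : ℕ) [Fact p.Prime] (M : Ideal Cfsg.AlgInt) (hM : Cfsg.IsPModular p M) (B : Set (Cfsg.IrrCharacter G)) (hB : Cfsg.IsPBlock M B) : 4 * Nat.card B ≤ p ^ (2 * Cfsg.blockDefect p B) + 4 := by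
  classical
  letI := Fintype.ofFinite G
  have hmain := Cfsg.Agent.S4676.main hM hB
  have hp : p.Prime := Fact.out
  have hc1 : (Cfsg.Agent.Lib.BlockQ.bF B).card ≤ ∑ χ ∈ Cfsg.Agent.Lib.BlockQ.bF B,
      p ^ (2 * blockHeight p B (χ : G → ℂ)) := by
    rw [Finset.card_eq_sum_ones]
    exact Finset.sum_le_sum fun χ _ => Nat.one_le_pow _ _ hp.pos
  have hc2 : Nat.card B = (Cfsg.Agent.Lib.BlockQ.bF B).card := by
    rw [Nat.card_eq_card_toFinset]
    simp [Cfsg.Agent.Lib.BlockQ.bF]
  have hc3 : ((p ^ blockDefect p B) ^ 2 / 4) * 4 ≤ (p ^ blockDefect p B) ^ 2 := Nat.div_mul_le_self _ _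
  have hc4 : (p ^ blockDefect p B) ^ 2 = p ^ (2 * blockDefect p B) := by
    rw [← pow_mul, mul_comm]
  rw [hc2]
  omega

end Cfsg.Agent.S4494
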