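import Mathlib
import Cfsg.Statements.S4498
import Cfsg.Agent.Lib.BlockOrth
import Cfsg.Agent.Lib.BlkBasic
import Cfsg.Agent.Lib.BlockNormal

set_option autoImplicit false
set_option linter.style.haveILetI false
open Cfsg

namespace Cfsg.Agent.S4498

open Cfsg.Agent.Lib.CharBasic Cfsg.Agent.Lib.BlkBasic Cfsg.Agent.Lib.BlockOrth Cfsg.Agent.Lib.BlockNormal
open scoped ComplexConjugate

universe u

/-- The function `w ↦ ∑_{χ ∈ B} χ(w) χ(x⁻¹)`. -/
noncomputable def sumFun {G : Type u} [Group G] [Finite G] (B : Set (IrrCharacter G)) (x : G) : G → ℂ :=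
  ∑ χ : IrrCharacter G, (blkInd B χ * (χ : G → ℂ) x⁻¹) • (χ : G → ℂ)

theorem sumFun_apply {G : Type u} [Group G] [Fintype G] (B : Set (IrrCharacter G)) (x w : G) :
    sumFun B x w = ∑ᶠ χ ∈ B, (χ : G → ℂ) w * (χ : G → ℂ) x⁻¹ := by
  rw [finsum_mem_eq_sum_blkInd]
  unfold sumFun
  rw [Finset.sum_apply]
  refine Finset.sum_congr rfl fun χ _ => ?_
  simp only [Pi.smul_apply, smul_eq_mul]
  ring

theorem classInner_sumFun {G : Type u} [Group G] [Fintype G] (B C : Set (IrrCharacter G)) (x y : G) :
    classInner (sumFun B x) (sumFun C y) =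
      ∑ χ : IrrCharacter G, blkInd B χ * (χ : G → ℂ) x⁻¹ *
        conj (blkInd C χ * (χ : G → ℂ) y⁻¹) := by
  classical
  unfold sumFun
  rw [classInner_sum_left]
  refine Finset.sum_congr rfl fun χ _ => ?_
  rw [classInner_smul_left, classInner_sum_right]
  congr 1
  rw [Finset.sum_eq_single χ]
  · rw [classInner_smul_right, classInner_irr_self χ.2, mul_one]
  · intro ψ _ hne
    rw [classInner_smul_right, classInner_irr_ne χ.2 ψ.2 (fun h => hne (Subtype.ext h).symm), mul_zero]
  · intro h
    exact absurd (Finset.mem_univ _) h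

/-- Let p and q be distinct primes dividing the order of the finite group G, and suppose G has no element of order p·q. Fix maximal ideals M_p over p and M_q over q of the algebraic integers. Then the principal p-block and the principal q-block of G have a non-principal irreducible character in common. -/
theorem result {G : Type*} [Group G] [Finite G] (p q : ℕ) [Fact p.Prime] [Fact q.Prime] (hpq : p ≠ q) (hp : p ∣ Nat.card G) (hq : q ∣ Nat.card G) (hno : ∀ g : G, orderOf g ≠ p * q) (Mp Mq : Ideal Cfsg.AlgInt) (hMp : Cfsg.IsPModular p Mp) (hMq : Cfsg.IsPModular q Mq) : ∃ χ : Cfsg.IrrCharacter G, (χ : G → ℂ) ≠ (fun _ => 1) ∧ χ ∈ Cfsg.principalBlock Mp G ∧ χ ∈ Cfsg.principalBlock Mq G := by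
  classical
  haveI : Fintype G := Fintype.ofFinite G
  haveI := hMp.2.1.isPrime
  haveI := hMq.2.1.isPrime
  obtain ⟨x, hx⟩ := exists_prime_orderOf_dvd_card' p hp
  obtain ⟨y, hy⟩ := exists_prime_orderOf_dvd_card' q hq
  set Bp := principalBlock Mp G with hBp
  set Bq := principalBlock Mq G with hBq
  have hBpb : IsPBlock Mp Bp := isPBlock_principalBlock Mp
  have hBqb : IsPBlock Mq Bq := isPBlock_principalBlock Mq
  have hvanish : ∀ w : G, sumFun Bp x w * conj (sumFun Bq y w) = 0 := by
    intro w
    by_cases h1 : p ∣ orderOf w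
    · by_cases h2 : q ∣ orderOf w
      · exfalso
        have hcop : Nat.Coprime p q := (Nat.coprime_primes Fact.out Fact.out).mpr hpq
        have h3 : p * q ∣ orderOf w := hcop.mul_dvd_of_dvd_of_dvd h1 h2
        obtain ⟨t, ht⟩ := h3
        have hpos : 0 < orderOf w := orderOf_pos w
        have htpos : 0 < t := by
          rcases Nat.eq_zero_or_pos t with h | h
          · rw [h, mul_zero] at ht
            omega
          · exact h
        apply hno (w ^ t)
        rw [orderOf_pow' w htpos.ne', ht, Nat.gcd_mul_left_left]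
        rw [mul_comm (p * q) t, Nat.mul_div_cancel_left _ htpos]
      · have h3 : sumFun Bq y w = 0 := by
          rw [sumFun_apply]
          exact weak_block_orthogonality hMq hBqb h2 (by rw [hy])
        rw [h3, map_zero, mul_zero]
    · have h3 : sumFun Bp x w = 0 := by
        rw [sumFun_apply]
        exact weak_block_orthogonality hMp hBpb h1 (by rw [hx])
      rw [h3, zero_mul]
  have h0 : classInner (sumFun Bp x) (sumFun Bq y) = 0 := by
    unfold classInner
    rw [Finset.sum_eq_zero (fun w _ => hvanish w), mul_zero]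
  rw [classInner_sumFun] at h0
  by_contra hcon
  push Not at hcon
  have hone1 : irrOne G ∈ Bp := irrOne_mem_principalBlock Mp
  have hone2 : irrOne G ∈ Bq := irrOne_mem_principalBlock Mq
  rw [Finset.sum_eq_single (irrOne G)] at h0
  · rw [blkInd_of_mem hone1, blkInd_of_mem hone2] at h0
    simp [irrOne] at h0
  · intro χ _ hne
    by_cases h1 : χ ∈ Bp
    · by_cases h2 : χ ∈ Bq
      · exfalso
        have h3 : (χ : G → ℂ) ≠ (fun _ => 1) := fun h => hne (Subtype.ext h)
        exact hcon χ h3 h1 h2
      · rw [blkInd_of_not_mem h2]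
        simp
    · rw [blkInd_of_not_mem h1]
      simp
  · intro h
    exact absurd (Finset.mem_univ _) h

end Cfsg.Agent.S4498
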