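import Mathlib
import Cfsg.Statements.S4499
import Cfsg.Agent.S4710

set_option autoImplicit false
set_option linter.unusedSectionVars false
set_option linter.unusedVariables false
open Cfsg

namespace Cfsg.Agent.S4499

open Cfsg.Agent.Lib.BlockQ

/-- Let G be a finite group whose order has p-part p^a (a ≥ 1), and fix a maximal ideal M of the algebraic integers containing p. If the degree of one irreducible character of a p-block B is divisible by p^(a−1), then the degree of every irreducible character in B is divisible by p^(a−1) (so B has defect at most 1). -/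
theorem result {G : Type*} [Group G] [Finite G] (p : ℕ) [Fact p.Prime] (M : Ideal Cfsg.AlgInt) (hM : Cfsg.IsPModular p M) (hpa : p ∣ Nat.card G) (B : Set (Cfsg.IrrCharacter G)) (hB : Cfsg.IsPBlock M B) (χ : Cfsg.IrrCharacter G) (hχ : χ ∈ B) (hdiv : p ^ ((Nat.card G).factorization p - 1) ∣ Cfsg.charDegree (χ : G → ℂ)) (ψ : Cfsg.IrrCharacter G) (hψ : ψ ∈ B) : p ^ ((Nat.card G).factorization p - 1) ∣ Cfsg.charDegree (ψ : G → ℂ) := by
  classical
  letI := Fintype.ofFinite G
  have hp := hM.1
  have hMp := hM.2.1.isPrime
  have hχ0 := Cfsg.Agent.Lib.CharKernel.charDegree_ne_zero χ.2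
  have hψ0 := Cfsg.Agent.Lib.CharKernel.charDegree_ne_zero ψ.2
  have h1 := (hp.pow_dvd_iff_le_factorization hχ0).mp hdiv
  have h2 := card_factorization_eq (M := M) (p := p) hB
  have h3 := charDegree_factorization_eq (p := p) hχ
  have h4 := charDegree_factorization_eq (p := p) hψ
  have h5 : Cfsg.blockHeight p B (χ : G → ℂ) = 0 := by
    by_contra hne
    have h6 := Cfsg.Agent.S4710.height_add_two_le hM hB hχ (Nat.pos_of_ne_zero hne)
    omega
  rw [hp.pow_dvd_iff_le_factorization hψ0]
  omega

end Cfsg.Agent.S4499
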