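import Mathlib
import Cfsg.Statements.S4500
import Cfsg.Agent.S4710
import Cfsg.Agent.Lib.BurnsidePQ
import Cfsg.Agent.Lib.InducedIrr
import Cfsg.Agent.Lib.BlockVal
import Cfsg.Agent.Lib.BlkOrth
import Cfsg.Agent.Lib.BlockNormal

set_option autoImplicit false
set_option linter.unusedSectionVars false
set_option linter.unusedVariables false
open Cfsg

namespace Cfsg.Agent.S4500

open Cfsg.Agent.Lib.BlockQ

universe u

/-- Every character in the principal block has degree prime to `p` if `|G|_p ≤ p^2`. -/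
theorem not_dvd_of_mem_principal {G : Type u} [Group G] [Fintype G] {p : ℕ} {M : Ideal AlgInt}
    (hM : IsPModular p M) (ha : (Nat.card G).factorization p ≤ 2)
    {χ : IrrCharacter G} (hχ : χ ∈ principalBlock M G) : ¬ p ∣ charDegree (χ : G → ℂ) := by
  classical
  have hp := hM.1
  have hMp := hM.2.1.isPrime
  have hB : IsPBlock M (principalBlock M G) := ⟨Cfsg.Agent.Lib.BlockNormal.irrOne G, rfl⟩
  have h1 := Cfsg.Agent.Lib.BlockNormal.irrOne_mem_principalBlock (G := G) M
  have hdeg1 : charDegree ((Cfsg.Agent.Lib.BlockNormal.irrOne G : IrrCharacter G) : G → ℂ) = 1 := by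
    have := Cfsg.Agent.Lib.BlockNormal.irrOne G
    simp [charDegree, Cfsg.Agent.Lib.BlockNormal.irrOne]
  have h0 : minExp p (principalBlock M G) = 0 := by
    have := charDegree_factorization_eq (p := p) h1
    rw [hdeg1] at this
    simp at this
    omega
  have h2 := charDegree_factorization_eq (p := p) hχ
  have h3 := card_factorization_eq (p := p) hB
  have hχ0 := Cfsg.Agent.Lib.CharKernel.charDegree_ne_zero χ.2
  intro hdvd
  have h4 : 1 ≤ (charDegree (χ : G → ℂ)).factorization p :=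
    (hp.dvd_iff_one_le_factorization hχ0).mp hdvd
  have hpos : 0 < blockHeight p (principalBlock M G) (χ : G → ℂ) := by omega
  have h5 := Cfsg.Agent.S4710.height_add_two_le hM hB hχ hpos
  omega

/-- The block-theoretic key step. -/
theorem exists_of_dvd {G : Type u} [Group G] [Fintype G] {p q : ℕ} (hp : p.Prime) (hq : q.Prime)
    (hpG : p ∣ Nat.card G) (ha : (Nat.card G).factorization p ≤ 2) :
    ∃ χ : IrrCharacter G, (χ : G → ℂ) ≠ (fun _ => 1) ∧ ¬ p ∣ charDegree (χ : G → ℂ) ∧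
      ¬ q ∣ charDegree (χ : G → ℂ) := by
  classical
  haveI : Fact p.Prime := ⟨hp⟩
  obtain ⟨M, hM⟩ := Cfsg.Agent.Lib.BlockVal.exists_isPModular hp
  have hMp := hM.2.1.isPrime
  have hB : IsPBlock M (principalBlock M G) := ⟨Cfsg.Agent.Lib.BlockNormal.irrOne G, rfl⟩
  obtain ⟨g, hg⟩ := exists_prime_orderOf_dvd_card' p hpG
  have hsum := Cfsg.Agent.Lib.BlkOrth.block_orth_weak hM hB (x := (1 : G)) (y := g)
    (by simpa using hp.one_lt.ne') (by rw [hg])
  by_contra hcon
  push Not at hcon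
  have hqC : (q : ℂ) ≠ 0 := by exact_mod_cast hq.ne_zero
  set one : IrrCharacter G := Cfsg.Agent.Lib.BlockNormal.irrOne G with hone
  have h1 : one ∈ principalBlock M G :=
    Cfsg.Agent.Lib.BlockNormal.irrOne_mem_principalBlock (G := G) M
  rw [Cfsg.Agent.Lib.BlkBasic.finsum_mem_eq_sum_blkInd] at hsum
  rw [← Finset.add_sum_erase _ _ (Finset.mem_univ one), Cfsg.Agent.Lib.BlkBasic.blkInd_of_mem h1] at hsum
  have hone' : (one : G → ℂ) 1 * (starRingEnd ℂ) ((one : G → ℂ) g) = 1 := by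
    simp [one, Cfsg.Agent.Lib.BlockNormal.irrOne]
  rw [hone', one_mul] at hsum
  have hint : IsIntegral ℤ (∑ χ ∈ Finset.univ.erase one,
      Cfsg.Agent.Lib.BlkBasic.blkInd (principalBlock M G) χ *
        ((χ : G → ℂ) 1 * (starRingEnd ℂ) ((χ : G → ℂ) g)) / (q : ℂ)) := by
    refine IsIntegral.sum _ fun χ hχ => ?_
    have hne : (χ : G → ℂ) ≠ (fun _ => 1) := fun h => (Finset.mem_erase.mp hχ).1 (Subtype.ext h)
    by_cases hχB : χ ∈ principalBlock M G
    · rw [Cfsg.Agent.Lib.BlkBasic.blkInd_of_mem hχB, one_mul]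
      have hd := hcon χ hne (not_dvd_of_mem_principal hM ha hχB)
      obtain ⟨c, hc⟩ := hd
      obtain ⟨d, hdd⟩ := Cfsg.Agent.Lib.BurnsidePQ.exists_degree χ
      have hdeg : charDegree (χ : G → ℂ) = d := by
        simp [charDegree, hdd]
      rw [hdd]
      rw [hdeg] at hc
      subst hc
      have h2 : ((q * c : ℕ) : ℂ) * (starRingEnd ℂ) ((χ : G → ℂ) g) / (q : ℂ) =
          (c : ℂ) * (χ : G → ℂ) g⁻¹ := by
        rw [Cfsg.Agent.Lib.CharBasic.char_conj_eq_inv (Cfsg.Agent.Lib.CharBasic.IsIrrCharacter.isCharacter χ.2)]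
        push_cast
        field_simp
      rw [h2]
      obtain ⟨n, ρ, _, hρ⟩ := χ.2
      have h3 : IsIntegral ℤ ((χ : G → ℂ) g⁻¹) := by
        rw [← hρ]
        exact Cfsg.Agent.Lib.CharValues.isIntegral_character ρ g⁻¹
      exact (isIntegral_natCast (a := c) : IsIntegral ℤ (c : ℂ)).mul h3
    · rw [Cfsg.Agent.Lib.BlkBasic.blkInd_of_not_mem hχB]
      simp [isIntegral_zero]
  have h3 : ∑ χ ∈ Finset.univ.erase one,
      Cfsg.Agent.Lib.BlkBasic.blkInd (principalBlock M G) χ *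
        ((χ : G → ℂ) 1 * (starRingEnd ℂ) ((χ : G → ℂ) g)) / (q : ℂ) = -((1 : ℕ) : ℂ) / (q : ℂ) := by
    rw [← Finset.sum_div]
    congr 1
    push_cast
    linear_combination hsum
  rw [h3, neg_div] at hint
  have hint2 := hint.neg
  rw [neg_neg] at hint2
  have h4 := Cfsg.Agent.Lib.CharIntegrality.dvd_of_isIntegral_div hq.ne_zero hint2
  exact hq.one_lt.ne' (Nat.dvd_one.mp h4)

/-- One half of the statement. -/
theorem half {G : Type u} [Group G] [Finite G] [Nontrivial G] (p q r a b c : ℕ) (hp : p.Prime)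
    (hq : q.Prime) (hr : r.Prime) (hpq : p ≠ q) (hpr : p ≠ r) (hqr : q ≠ r) (ha : a ≤ 2)
    (hG : Nat.card G = p ^ a * q ^ b * r ^ c) :
    ∃ χ : IrrCharacter G, (χ : G → ℂ) ≠ (fun _ => 1) ∧ ∃ k : ℕ, charDegree (χ : G → ℂ) = r ^ k := by
  classical
  letI := Fintype.ofFinite G
  rcases Nat.eq_zero_or_pos a with rfl | ha0
  · -- Burnside
    have hs : Group.IsSolvable G := by
      refine Cfsg.Agent.Lib.BurnsidePQ.isSolvable_of_card_eq q r hq hr _ G rfl ⟨b, c, ?_⟩
      simpa using hG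
    obtain ⟨ℓ, hℓ, hne, -, h1⟩ :=
      Cfsg.Agent.Lib.InducedIrr.exists_linear_above hs (⊥ : Subgroup G) (by simp)
    refine ⟨⟨ℓ, hℓ⟩, hne, 0, ?_⟩
    simp [charDegree, h1]
  · have hq' : ¬ p ∣ q ^ b * r ^ c := by
      intro h
      rcases (Nat.Prime.dvd_mul hp).mp h with h | h
      · exact hpq ((Nat.prime_dvd_prime_iff_eq hp hq).mp (hp.dvd_of_dvd_pow h))
      · exact hpr ((Nat.prime_dvd_prime_iff_eq hp hr).mp (hp.dvd_of_dvd_pow h))
    have hpG : p ∣ Nat.card G := by
      rw [hG, mul_assoc]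
      exact Dvd.dvd.mul_right (dvd_pow_self p ha0.ne') _
    have hfac : (Nat.card G).factorization p = a := by
      rw [hG, mul_assoc, Nat.factorization_mul (pow_ne_zero _ hp.ne_zero)
        (mul_ne_zero (pow_ne_zero _ hq.ne_zero) (pow_ne_zero _ hr.ne_zero))]
      simp only [Nat.factorization_pow, Finsupp.add_apply, Finsupp.smul_apply, hp.factorization_self, smul_eq_mul, mul_one]
      rw [Nat.factorization_eq_zero_of_not_dvd hq']
      rfl
    obtain ⟨χ, hne, hpχ, hqχ⟩ := exists_of_dvd (q := q) hp hq hpG (by omega)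
    refine ⟨χ, hne, ?_⟩
    have hd := Cfsg.Agent.Lib.CharKernel.charDegree_dvd_card χ.2
    rw [hG, mul_assoc] at hd
    have h1 : charDegree (χ : G → ℂ) ∣ q ^ b * r ^ c :=
      (((Nat.Prime.coprime_iff_not_dvd hp).mpr hpχ).symm.pow_right a).dvd_of_dvd_mul_left hd
    have h2 : charDegree (χ : G → ℂ) ∣ r ^ c :=
      (((Nat.Prime.coprime_iff_not_dvd hq).mpr hqχ).symm.pow_right b).dvd_of_dvd_mul_left h1
    obtain ⟨k, -, hk⟩ := (Nat.dvd_prime_pow hr).mp h2
    exact ⟨k, hk⟩

/-- Let G be a non-trivial finite group of order p^a · q^b · r^c with p, q, r distinct primes and a ≤ 2. Then G has a non-principal irreducible character whose degree is a power of q, and a non-principal irreducible character whose degree is a power of r; the power may be the zeroth, so a non-principal linear character serves for both. -/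
theorem result {G : Type*} [Group G] [Finite G] [Nontrivial G] (p q r a b c : ℕ) (hp : p.Prime) (hq : q.Prime) (hr : r.Prime) (hpq : p ≠ q) (hpr : p ≠ r) (hqr : q ≠ r) (ha : a ≤ 2) (hG : Nat.card G = p ^ a * q ^ b * r ^ c) : (∃ χ : Cfsg.IrrCharacter G, (χ : G → ℂ) ≠ (fun _ => 1) ∧ ∃ k : ℕ, Cfsg.charDegree (χ : G → ℂ) = q ^ k) ∧ ∃ χ : Cfsg.IrrCharacter G, (χ : G → ℂ) ≠ (fun _ => 1) ∧ ∃ k : ℕ, Cfsg.charDegree (χ : G → ℂ) = r ^ k := by
  refine ⟨half p r q a c b hp hr hq hpr hpq hqr.symm ha ?_, half p q r a b c hp hq hr hpq hpr hqr ha hG⟩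
  rw [hG]; ring

end Cfsg.Agent.S4500
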