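import Mathlib
import Cfsg.Statements.S4502
import Cfsg.Agent.Lib.DefOneJ
-- import your own Cfsg.Agent.* helpers here

set_option autoImplicit false
open Cfsg

namespace Cfsg.Agent.S4502

open Cfsg.Agent.Lib.DefOneJ

/-- Let G be a finite group whose order is divisible by the prime p exactly once, and let P be a Sylow p-subgroup. Then the number of irreducible characters of G of degree not divisible by p equals the number of conjugacy classes of the normalizer of P. -/
theorem result {G : Type*} [Group G] [Finite G] (p : ℕ) [Fact p.Prime] (hdiv : p ∣ Nat.card G) (hsq : ¬ p ^ 2 ∣ Nat.card G) (P : Sylow p G) : Nat.card {χ : Cfsg.IrrCharacter G // ¬ p ∣ Cfsg.charDegree (χ : G → ℂ)} = Nat.card (ConjClasses (Subgroup.normalizer ((P : Subgroup G) : Set G))) := by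
  classical
  haveI : Fintype G := Fintype.ofFinite G
  have hp : p.Prime := Fact.out
  obtain ⟨hv, -, -⟩ := Cfsg.Agent.Lib.DefOneI.arith hp hdiv hsq Nat.card_pos
  have hP : Nat.card (P : Subgroup G) = p := by
    rw [P.card_eq_multiplicity, hv, pow_one]
  have hP1 : 1 < Nat.card (P : Subgroup G) := by
    rw [hP]
    exact hp.one_lt
  obtain ⟨r, e₀, H⟩ := Cfsg.Agent.Lib.TICent.exists_hyp p hp P
    (fun x hx hx1 => Cfsg.Agent.Lib.RangeP0.star_of_prime hp hP x hx hx1) hP1
  exact Cfsg.Agent.Lib.DefOneJ.main_count H hP P.not_dvd_index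

end Cfsg.Agent.S4502
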