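import Mathlib
import Cfsg.Statements.S4505
import Cfsg.Agent.Lib.DefectCount

set_option autoImplicit false
set_option linter.style.haveILetI false
open Cfsg

namespace Cfsg.Agent.S4505

open Cfsg.Agent.Lib.CharBasic Cfsg.Agent.Lib.BlockLocal Cfsg.Agent.Lib.BlockIdem
open Cfsg.Agent.Lib.DefectCount

/-- Let G be a finite group, p a prime and M a maximal ideal of the algebraic integers containing p. For every σ, the number of p-blocks of defect exactly σ is at most the number of conjugacy classes of p-regular elements whose centralizer has order divisible by p^σ but not by p^(σ+1). -/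
theorem result {G : Type*} [Group G] [Finite G] (p : ℕ) [Fact p.Prime] (M : Ideal Cfsg.AlgInt) (hM : Cfsg.IsPModular p M) (σ : ℕ) : Nat.card {B : Set (Cfsg.IrrCharacter G) // Cfsg.IsPBlock M B ∧ Cfsg.blockDefect p B = σ} ≤ Nat.card {C : ConjClasses G // ∃ g : G, ConjClasses.mk g = C ∧ ¬ p ∣ orderOf g ∧ (Nat.card (Subgroup.centralizer ({g} : Set G))).factorization p = σ} := by
  classical
  haveI : Fintype G := Fintype.ofFinite G
  haveI := hM.2.1.isPrime
  letI : Fintype (ConjClasses G) := Fintype.ofFinite _
  let T := {B : Set (IrrCharacter G) // IsPBlock M B ∧ blockDefect p B = σ}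
  let C := {C : ConjClasses G // ∃ g : G, ConjClasses.mk g = C ∧ ¬ p ∣ orderOf g ∧
    (Nat.card (Subgroup.centralizer ({g} : Set G))).factorization p = σ}
  letI : Fintype T := Fintype.ofFinite _
  letI : Fintype C := Fintype.ofFinite _
  have hrep : ∀ B : T, ∃ ψ : IrrCharacter G, ψ ∈ B.1 := by
    intro B
    obtain ⟨χ, hχ⟩ := B.2.1
    exact ⟨χ, hχ ▸ mem_blockOf_self χ⟩
  choose rep hrep using hrep
  have hCgood : ∀ K : ConjClasses G, (∃ g : G, ConjClasses.mk g = K ∧ ¬ p ∣ orderOf g ∧
      (Nat.card (Subgroup.centralizer ({g} : Set G))).factorization p = σ) ↔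
      (¬ p ∣ orderOf (Quotient.out K) ∧ cd p (Quotient.out K) = σ) := by
    intro K
    constructor
    · rintro ⟨g, hg, h1, h2⟩
      have h3 : ConjClasses.mk (Quotient.out K) = ConjClasses.mk g := by
        rw [hg]
        exact Quotient.out_eq K
      obtain ⟨c, hc⟩ := isConj_iff.mp (ConjClasses.mk_eq_mk_iff_isConj.mp h3)
      rw [← hc] at h1 h2
      rw [Cfsg.Agent.Lib.BlockDefect.card_centralizer_conj] at h2
      have h4 : orderOf (c * Quotient.out K * c⁻¹) = orderOf (Quotient.out K) := by
        have := orderOf_injective (MulAut.conj c).toMonoidHom (MulAut.conj c).injective (Quotient.out K)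
        exact this
      rw [h4] at h1
      exact ⟨h1, h2⟩
    · intro h
      exact ⟨Quotient.out K, Quotient.out_eq K, h.1, h.2⟩
  let a : T → C → ℂ := fun B K => blockCoeff B.1 (Quotient.out K.1)
  let w : T → C → ℂ := fun B K => centralChar (rep B : G → ℂ) (Quotient.out K.1)
  have key := card_le_of_pairing (M := M) a w
    (fun B K => memLocalRing_blockCoeff B.2.1 _)
    (fun B K => memLocalRing_of_isIntegral (isIntegral_centralChar _ _))
    (fun B B' => by
      have h1 := sum_classes B.1 (rep B')
      have h2 : (∑ K : C, a B K * w B' K) =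
          ∑ K : ConjClasses G, if (¬ p ∣ orderOf (Quotient.out K) ∧ cd p (Quotient.out K) = σ) then
            blockCoeff B.1 (Quotient.out K) * centralChar (rep B' : G → ℂ) (Quotient.out K) else 0 := by
        rw [← Finset.sum_filter]
        have h4 := Finset.sum_subtype (F := inferInstanceAs (Fintype C))
          (p := fun C : ConjClasses G => ∃ g : G, ConjClasses.mk g = C ∧
          ¬ p ∣ orderOf g ∧ (Nat.card (Subgroup.centralizer ({g} : Set G))).factorization p = σ)
          (Finset.univ.filter fun K : ConjClasses G =>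
            ¬ p ∣ orderOf (Quotient.out K) ∧ cd p (Quotient.out K) = σ)
          (fun K => by
            rw [Finset.mem_filter, hCgood K]
            simp)
          (fun K : ConjClasses G => blockCoeff B.1 (Quotient.out K) *
            centralChar (rep B' : G → ℂ) (Quotient.out K))
        exact h4.symm
      have h3 : Cfsg.Agent.Lib.BlockOrtho.indB B.1 (rep B') = if B = B' then 1 else 0 := by
        split_ifs with hBB
        · rw [hBB]
          exact Cfsg.Agent.Lib.BlockOrtho.indB_of_mem (hrep B')
        · apply Cfsg.Agent.Lib.BlockOrtho.indB_of_not_mem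
          intro hmem
          rcases eq_or_disjoint_of_isPBlock B.2.1 B'.2.1 with h4 | h4
          · exact hBB (Subtype.ext h4)
          · exact Set.disjoint_left.mp h4 hmem (hrep B')
      rw [h2, ← h3, ← h1, ← Finset.sum_sub_distrib]
      refine memLocalIdeal_sum _ _ fun K _ => ?_
      by_cases hK : ¬ p ∣ orderOf (Quotient.out K) ∧ cd p (Quotient.out K) = σ
      · rw [if_pos hK, sub_self]
        exact memLocalIdeal_zero
      · rw [if_neg hK, zero_sub]
        exact memLocalIdeal_neg (term_mem hM B.2.1 B'.2.1 B.2.2 B'.2.2 (hrep B') hK))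
  rw [Nat.card_eq_fintype_card, Nat.card_eq_fintype_card]
  exact key

end Cfsg.Agent.S4505
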