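import Mathlib
import Cfsg.Statements.S4506
import Cfsg.Agent.Lib.ComplexAut
import Cfsg.Agent.Lib.CharPow
import Cfsg.Agent.Lib.CharGalois
import Cfsg.Agent.Lib.CharKernel
import Cfsg.Agent.Lib.BlockOsima
import Cfsg.Agent.Lib.BlockVal

set_option autoImplicit false
set_option linter.unusedSectionVars false
set_option linter.unusedVariables false
set_option linter.style.haveILetI false

open Cfsg Cfsg.Agent.Lib.CharBasic Cfsg.Agent.Lib.BlockLocal Cfsg.Agent.Lib.BlockIdem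
open Cfsg.Agent.Lib.BlockOsima Cfsg.Agent.Lib.CharKernel

namespace Cfsg.Agent.S4506

section Numbers

theorem geom_eq_zero {z : ℂ} {n : ℕ} (hz : z ^ n = 1) (hne : z ≠ 1) :
    ∑ i ∈ Finset.range n, z ^ i = 0 := by
  have := geom_sum_mul z n
  rw [hz, sub_self] at this
  exact (mul_eq_zero.mp this).resolve_right (sub_ne_zero.mpr hne)

theorem pow_eq_of_modEq {A : Type*} [Monoid A] {x : A} {n a b : ℕ} (h : x ^ n = 1)
    (hab : a ≡ b [MOD n]) : x ^ a = x ^ b := by
  have h1 : ∀ c : ℕ, x ^ c = x ^ (c % n) := by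
    intro c
    conv_lhs => rw [← Nat.mod_add_div c n, pow_add, pow_mul, h, one_pow, mul_one]
  rw [h1 a, h1 b, hab]

/-- Units as the residues prime to `p`. -/
theorem sum_units_eq (f : ℕ → ℂ) {p b : ℕ} (hp : p.Prime) :
    haveI : NeZero (p ^ (b + 1)) := ⟨pow_ne_zero _ hp.ne_zero⟩
    ∑ s : (ZMod (p ^ (b + 1)))ˣ, f (s : ZMod (p ^ (b + 1))).val =
      ∑ i ∈ Finset.range (p ^ (b + 1)), f i - ∑ j ∈ Finset.range (p ^ b), f (p * j) := by
  classical
  haveI : NeZero (p ^ (b + 1)) := ⟨pow_ne_zero _ hp.ne_zero⟩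
  have h1 : ∑ s : (ZMod (p ^ (b + 1)))ˣ, f (s : ZMod (p ^ (b + 1))).val =
      ∑ i ∈ (Finset.range (p ^ (b + 1))).filter (fun i => ¬ p ∣ i), f i := by
    refine Finset.sum_bij (fun s _ => (s : ZMod (p ^ (b + 1))).val) ?_ ?_ ?_ ?_
    · intro s _
      rw [Finset.mem_filter, Finset.mem_range]
      refine ⟨ZMod.val_lt _, fun hd => ?_⟩
      have h2 := ZMod.val_coe_unit_coprime s
      have h3 : p ∣ Nat.gcd (s : ZMod (p ^ (b + 1))).val (p ^ (b + 1)) :=
        Nat.dvd_gcd hd (dvd_pow_self p (Nat.succ_ne_zero b))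
      rw [h2] at h3
      exact hp.one_lt.ne' (Nat.dvd_one.mp h3)
    · intro s _ t _ h
      exact Units.ext (ZMod.val_injective _ h)
    · intro i hi
      rw [Finset.mem_filter, Finset.mem_range] at hi
      have hco : i.Coprime (p ^ (b + 1)) :=
        Nat.Coprime.pow_right _ ((Nat.Prime.coprime_iff_not_dvd hp).mpr hi.2).symm
      refine ⟨ZMod.unitOfCoprime i hco, Finset.mem_univ _, ?_⟩
      rw [ZMod.coe_unitOfCoprime, ZMod.val_cast_of_lt hi.1]
    · intro s _
      rfl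
  have h2 : ∑ i ∈ (Finset.range (p ^ (b + 1))).filter (fun i => p ∣ i), f i =
      ∑ j ∈ Finset.range (p ^ b), f (p * j) := by
    refine (Finset.sum_nbij' (fun i => i / p) (fun j => p * j) ?_ ?_ ?_ ?_ ?_).trans rfl
    · intro i hi
      rw [Finset.mem_filter, Finset.mem_range] at hi
      rw [Finset.mem_range]
      obtain ⟨hlt, c, rfl⟩ := hi
      rw [Nat.mul_div_cancel_left _ hp.pos]
      rw [pow_succ'] at hlt
      exact Nat.lt_of_mul_lt_mul_left hlt
    · intro j hj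
      rw [Finset.mem_range] at hj
      rw [Finset.mem_filter, Finset.mem_range]
      refine ⟨?_, dvd_mul_right _ _⟩
      rw [pow_succ']
      exact Nat.mul_lt_mul_of_pos_left hj hp.pos
    · intro i hi
      rw [Finset.mem_filter] at hi
      exact Nat.mul_div_cancel' hi.2
    · intro j _
      exact Nat.mul_div_cancel_left _ hp.pos
    · intro i hi
      rw [Finset.mem_filter] at hi
      rw [Nat.mul_div_cancel' hi.2]
  rw [h1, ← h2, ← Finset.sum_filter_add_sum_filter_not (Finset.range (p ^ (b + 1))) (fun i => p ∣ i)]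
  ring

variable {I : Ideal AlgInt} {p : ℕ}

/-- The average of `β ^ s` over the units `s` modulo `p ^ a` is a local integer. -/
theorem local_avg (hI : IsPModular p I) {a : ℕ} [NeZero (p ^ a)] {β : ℂ} (hβ : β ^ p ^ a = 1) :
    haveI := hI.2.1.isPrime
    MemLocalRing I ((∑ s : (ZMod (p ^ a))ˣ, β ^ (s : ZMod (p ^ a)).val) /
      (Fintype.card (ZMod (p ^ a))ˣ : ℂ)) := by
  haveI := hI.2.1.isPrime
  have hp := hI.1
  by_cases hβ1 : β = 1
  · subst hβ1
    have hne : (Fintype.card (ZMod (p ^ a))ˣ : ℂ) ≠ 0 := by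
      exact_mod_cast Fintype.card_ne_zero
    simp only [one_pow, Finset.sum_const, Finset.card_univ, nsmul_eq_mul, mul_one]
    rw [div_self hne]
    exact memLocalRing_one
  have ha : a ≠ 0 := by
    rintro rfl
    apply hβ1
    simpa using hβ
  obtain ⟨b, rfl⟩ := Nat.exists_eq_succ_of_ne_zero ha
  have hcard : (Fintype.card (ZMod (p ^ (b + 1)))ˣ : ℂ) = (p : ℂ) ^ b * ((p - 1 : ℕ) : ℂ) := by
    rw [ZMod.card_units_eq_totient, Nat.totient_prime_pow_succ hp]
    push_cast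
    ring
  have h1 := sum_units_eq (fun i => β ^ i) hp (b := b)
  rw [h1, geom_eq_zero hβ hβ1, zero_sub, hcard]
  have hpne : (p : ℂ) ≠ 0 := by exact_mod_cast hp.ne_zero
  have hp1 : ¬ p ∣ p - 1 := by
    intro hd
    have := Nat.le_of_dvd (Nat.sub_pos_of_lt hp.one_lt) hd
    have := hp.one_lt
    omega
  have hinv := memLocalRing_inv_natCast hI hp1
  by_cases hβp : β ^ p = 1
  · have h2 : ∑ j ∈ Finset.range (p ^ b), β ^ (p * j) = ((p : ℂ) ^ b) := by
      simp [pow_mul, hβp]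
    rw [h2, neg_div, div_mul_eq_div_div, div_self (pow_ne_zero _ hpne), one_div]
    exact memLocalRing_neg hinv
  · have h2 : ∑ j ∈ Finset.range (p ^ b), β ^ (p * j) = 0 := by
      simp only [pow_mul]
      refine geom_eq_zero ?_ hβp
      rw [← pow_mul, ← pow_succ']
      exact hβ
    rw [h2]
    simpa using memLocalRing_zero

theorem exists_split {P m : ℕ} (co : P.Coprime m) {z : ℂ} (hz : z ^ (P * m) = 1) :
    ∃ α β : ℂ, α ^ m = 1 ∧ β ^ P = 1 ∧ z = α * β := by
  obtain ⟨w, hw1, hw2⟩ := Nat.chineseRemainder co 1 0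
  obtain ⟨w', hw1', hw2'⟩ := Nat.chineseRemainder co 0 1
  refine ⟨z ^ w', z ^ w, ?_, ?_, ?_⟩
  · have h : P ∣ w' := (Nat.modEq_zero_iff_dvd).mp hw1'
    obtain ⟨c, rfl⟩ := h
    rw [← pow_mul]
    have : P * c * m = P * m * c := by ring
    rw [this, pow_mul, hz, one_pow]
  · have h : m ∣ w := (Nat.modEq_zero_iff_dvd).mp hw2
    obtain ⟨c, rfl⟩ := h
    rw [← pow_mul]
    have : m * c * P = P * m * c := by ring
    rw [this, pow_mul, hz, one_pow]
  · rw [← pow_add]
    have h : w' + w ≡ 1 [MOD P * m] := by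
      refine (Nat.modEq_and_modEq_iff_modEq_mul co).mp ⟨?_, ?_⟩
      · simpa using hw1'.add hw1
      · simpa using hw2'.add hw2
    rw [pow_eq_of_modEq hz h, pow_one]

end Numbers

section KK

variable {P m : ℕ} [NeZero P]

/-- The exponent congruent to `s` modulo `P` and to `1` modulo `m`. -/
noncomputable def kk (co : P.Coprime m) (s : (ZMod P)ˣ) : ℕ :=
  (Nat.chineseRemainder co (s : ZMod P).val 1 : ℕ)

theorem kk_modP (co : P.Coprime m) (s : (ZMod P)ˣ) : kk co s ≡ (s : ZMod P).val [MOD P] :=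
  (Nat.chineseRemainder co (s : ZMod P).val 1).2.1

theorem kk_modm (co : P.Coprime m) (s : (ZMod P)ˣ) : kk co s ≡ 1 [MOD m] :=
  (Nat.chineseRemainder co (s : ZMod P).val 1).2.2

theorem kk_cast (co : P.Coprime m) (s : (ZMod P)ˣ) : ((kk co s : ℕ) : ZMod P) = s := by
  rw [(ZMod.natCast_eq_natCast_iff _ _ _).mpr (kk_modP co s), ZMod.natCast_zmod_val]

theorem kk_coprime (co : P.Coprime m) (s : (ZMod P)ˣ) : (kk co s).Coprime (P * m) := by
  refine Nat.Coprime.mul_right ?_ ?_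
  · rw [← ZMod.isUnit_iff_coprime, kk_cast]
    exact s.isUnit
  · have h := (kk_modm co s).gcd_eq
    rw [Nat.Coprime, h]
    simp

theorem kk_mul (co : P.Coprime m) (s t : (ZMod P)ˣ) :
    kk co (s * t) ≡ kk co s * kk co t [MOD P * m] := by
  refine (Nat.modEq_and_modEq_iff_modEq_mul co).mp ⟨?_, ?_⟩
  · rw [← ZMod.natCast_eq_natCast_iff]
    push_cast
    rw [kk_cast, kk_cast, kk_cast]
    simp
  · have h := (kk_modm co s).mul (kk_modm co t)
    rw [one_mul] at h
    exact (kk_modm co (s * t)).trans h.symm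

theorem kk_one (co : P.Coprime m) : kk co (1 : (ZMod P)ˣ) ≡ 1 [MOD P * m] := by
  refine (Nat.modEq_and_modEq_iff_modEq_mul co).mp ⟨?_, kk_modm co 1⟩
  rw [← ZMod.natCast_eq_natCast_iff]
  push_cast
  rw [kk_cast]
  simp

variable {I : Ideal AlgInt} {p a : ℕ}

theorem avg_pow (hI : IsPModular p I) [NeZero (p ^ a)] {m : ℕ} (hm : 0 < m)
    (co : (p ^ a).Coprime m) {z : ℂ} (hz : z ^ (p ^ a * m) = 1) :
    haveI := hI.2.1.isPrime
    MemLocalRing I ((∑ s : (ZMod (p ^ a))ˣ, z ^ kk co s) / (Fintype.card (ZMod (p ^ a))ˣ : ℂ)) := by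
  haveI := hI.2.1.isPrime
  obtain ⟨α, β, hα, hβ, rfl⟩ := exists_split co hz
  have h : ∀ s : (ZMod (p ^ a))ˣ, (α * β) ^ kk co s = α * β ^ (s : ZMod (p ^ a)).val := by
    intro s
    rw [mul_pow, pow_eq_of_modEq hα (kk_modm co s), pow_one, pow_eq_of_modEq hβ (kk_modP co s)]
  simp_rw [h]
  rw [← Finset.mul_sum, mul_div_assoc]
  exact memLocalRing_mul (memLocalRing_of_pow_eq_one hm hα) (local_avg hI hβ)

end KK

section Twist

universe u

variable {G : Type u} [Group G] [Fintype G] {P m : ℕ} [NeZero P]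

theorem pow_N (hN : Nat.card G = P * m) (g : G) : g ^ (P * m) = 1 := by
  rw [← hN]
  exact pow_card_eq_one'

/-- The twist of an irreducible character by a unit modulo `P`. -/
noncomputable def tw (hN : Nat.card G = P * m) (co : P.Coprime m) (s : (ZMod P)ˣ)
    (ψ : IrrCharacter G) : IrrCharacter G :=
  ⟨fun g => (ψ : G → ℂ) (g ^ kk co s), Cfsg.Agent.Lib.CharPow.isIrr_pow ψ.2 (by
    rw [hN]; exact (kk_coprime co s).symm)⟩

theorem tw_apply (hN : Nat.card G = P * m) (co : P.Coprime m) (s : (ZMod P)ˣ)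
    (ψ : IrrCharacter G) (g : G) : (tw hN co s ψ : G → ℂ) g = (ψ : G → ℂ) (g ^ kk co s) := rfl

theorem tw_one (hN : Nat.card G = P * m) (co : P.Coprime m) (ψ : IrrCharacter G) :
    tw hN co 1 ψ = ψ := by
  refine Subtype.ext (funext fun g => ?_)
  rw [tw_apply, pow_eq_of_modEq (pow_N hN g) (kk_one co), pow_one]

theorem tw_mul (hN : Nat.card G = P * m) (co : P.Coprime m) (s t : (ZMod P)ˣ)
    (ψ : IrrCharacter G) : tw hN co (s * t) ψ = tw hN co t (tw hN co s ψ) := by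
  refine Subtype.ext (funext fun g => ?_)
  rw [tw_apply, tw_apply, tw_apply, pow_eq_of_modEq (pow_N hN g) (kk_mul co s t), ← pow_mul,
    mul_comm]

theorem tw_apply_one (hN : Nat.card G = P * m) (co : P.Coprime m) (s : (ZMod P)ˣ)
    (ψ : IrrCharacter G) : (tw hN co s ψ : G → ℂ) 1 = (ψ : G → ℂ) 1 := by
  rw [tw_apply, one_pow]

open Classical in
/-- The number of units taking `χ` to `ψ`. -/
noncomputable def nn (hN : Nat.card G = P * m) (co : P.Coprime m) (χ ψ : IrrCharacter G) : ℕ :=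
  (Finset.univ.filter fun s : (ZMod P)ˣ => tw hN co s χ = ψ).card

open Classical in
/-- The orbit of `χ`. -/
noncomputable def OO (hN : Nat.card G = P * m) (co : P.Coprime m) (χ : IrrCharacter G) :
    Finset (IrrCharacter G) :=
  Finset.univ.filter fun ψ => ∃ s : (ZMod P)ˣ, tw hN co s χ = ψ

theorem mem_OO (hN : Nat.card G = P * m) (co : P.Coprime m) (χ ψ : IrrCharacter G) :
    ψ ∈ OO hN co χ ↔ ∃ s : (ZMod P)ˣ, tw hN co s χ = ψ := by
  classical
  simp [OO]

theorem self_mem_OO (hN : Nat.card G = P * m) (co : P.Coprime m) (χ : IrrCharacter G) :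
    χ ∈ OO hN co χ := (mem_OO hN co χ χ).mpr ⟨1, tw_one hN co χ⟩

theorem nn_eq (hN : Nat.card G = P * m) (co : P.Coprime m) (χ ψ : IrrCharacter G)
    (hψ : ψ ∈ OO hN co χ) : nn hN co χ ψ = nn hN co χ χ := by
  classical
  obtain ⟨s₀, rfl⟩ := (mem_OO hN co χ ψ).mp hψ
  unfold nn
  refine Finset.card_bij' (fun s _ => s₀⁻¹ * s) (fun s _ => s₀ * s) ?_ ?_ ?_ ?_
  · intro s hs
    rw [Finset.mem_filter] at hs ⊢
    refine ⟨Finset.mem_univ _, ?_⟩
    rw [mul_comm, tw_mul, hs.2, ← tw_mul, mul_inv_cancel, tw_one]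
  · intro s hs
    rw [Finset.mem_filter] at hs ⊢
    refine ⟨Finset.mem_univ _, ?_⟩
    rw [mul_comm, tw_mul, hs.2]
  · intro s _
    group
  · intro s _
    group

theorem card_eq_mul (hN : Nat.card G = P * m) (co : P.Coprime m) (χ : IrrCharacter G) :
    Fintype.card (ZMod P)ˣ = (OO hN co χ).card * nn hN co χ χ := by
  classical
  have h := Finset.card_eq_sum_card_fiberwise (s := (Finset.univ : Finset (ZMod P)ˣ))
    (t := OO hN co χ) (f := fun s => tw hN co s χ)
    (fun s _ => (mem_OO hN co χ _).mpr ⟨s, rfl⟩)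
  rw [Finset.card_univ] at h
  rw [h, Finset.sum_congr rfl (g := fun _ => nn hN co χ χ), Finset.sum_const, smul_eq_mul]
  intro ψ hψ
  rw [← nn_eq hN co χ ψ hψ]
  unfold nn
  congr

theorem nn_eq_zero (hN : Nat.card G = P * m) (co : P.Coprime m) (χ ψ : IrrCharacter G)
    (hψ : ψ ∉ OO hN co χ) : nn hN co χ ψ = 0 := by
  classical
  unfold nn
  rw [Finset.card_eq_zero, Finset.filter_eq_empty_iff]
  intro s _ h
  exact hψ ((mem_OO hN co χ ψ).mpr ⟨s, h⟩)

/-- The averaged class function. -/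
noncomputable def ff (hN : Nat.card G = P * m) (co : P.Coprime m) (χ : IrrCharacter G) (g : G) : ℂ :=
  (∑ s : (ZMod P)ˣ, (tw hN co s χ : G → ℂ) g⁻¹) / (Fintype.card (ZMod P)ˣ : ℂ)

theorem ff_isClassFunction (hN : Nat.card G = P * m) (co : P.Coprime m) (χ : IrrCharacter G) :
    IsClassFunction G (ff hN co χ) := by
  intro g h
  unfold ff
  congr 1
  refine Finset.sum_congr rfl fun s _ => ?_
  have : (h * g * h⁻¹)⁻¹ = h * g⁻¹ * h⁻¹ := by group
  rw [this, isClassFunction_of_isCharacter (IsIrrCharacter.isCharacter (tw hN co s χ).2) g⁻¹ h]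

theorem ff_local {I : Ideal AlgInt} {p a : ℕ} (hI : IsPModular p I) [NeZero (p ^ a)]
    {m : ℕ} (hm : 0 < m) (hN : Nat.card G = p ^ a * m)
    (co : (p ^ a).Coprime m) (χ : IrrCharacter G) (g : G) :
    haveI := hI.2.1.isPrime
    MemLocalRing I (ff hN co χ g) := by
  haveI := hI.2.1.isPrime
  obtain ⟨n, μ, h1, h2⟩ := Cfsg.Agent.Lib.CharGalois.exists_roots
    (IsIrrCharacter.isCharacter χ.2) g⁻¹
  unfold ff
  simp_rw [tw_apply, h2]
  rw [Finset.sum_comm, Finset.sum_div]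
  refine memLocalRing_sum _ _ fun i _ => ?_
  refine avg_pow hI hm co ?_
  rw [← hN]
  exact h1 i

theorem omega_ff (hN : Nat.card G = P * m) (co : P.Coprime m) (χ ψ : IrrCharacter G) :
    omega (ψ : G → ℂ) (ff hN co χ) =
      ((Nat.card G : ℂ) / (χ : G → ℂ) 1 / (Fintype.card (ZMod P)ˣ : ℂ)) * (nn hN co χ ψ : ℂ) := by
  classical
  have hne := irr_one_ne_zero' χ.2
  have hN0 : (Nat.card G : ℂ) ≠ 0 := natCard_ne_zero'
  have h1 : ff hN co χ = ∑ s : (ZMod P)ˣ, ((Nat.card G : ℂ) / (χ : G → ℂ) 1 /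
      (Fintype.card (ZMod P)ˣ : ℂ)) • ec (tw hN co s χ : G → ℂ) := by
    funext g
    simp only [Finset.sum_apply, Pi.smul_apply, smul_eq_mul]
    unfold ff ec
    rw [Finset.sum_div]
    refine Finset.sum_congr rfl fun s _ => ?_
    rw [tw_apply_one]
    field_simp
  rw [h1, omega_sum]
  simp_rw [omega_smul]
  rw [← Finset.mul_sum]
  congr 1
  have h2 : ∀ s : (ZMod P)ˣ, omega (ψ : G → ℂ) (ec (tw hN co s χ : G → ℂ)) =
      if tw hN co s χ = ψ then 1 else 0 := by
    intro s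
    rw [omega_ec (tw hN co s χ).2 ψ.2]
    by_cases h : tw hN co s χ = ψ
    · rw [if_pos h, if_pos]
      rw [h]
    · rw [if_neg h, if_neg]
      intro h'
      exact h (Subtype.ext h'.symm)
  simp_rw [h2]
  rw [Finset.sum_boole]
  rfl

/-- Values of a `σ`-conjugate of a character. -/
theorem sigma_char (hN : Nat.card G = P * m) (χ : IrrCharacter G) (σ : ℂ ≃+* ℂ) {k : ℕ}
    (hσ : ∀ z : ℂ, z ^ (P * m) = 1 → σ z = z ^ k) (g : G) :
    σ ((χ : G → ℂ) g) = (χ : G → ℂ) (g ^ k) := by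
  obtain ⟨n, μ, h1, h2⟩ := Cfsg.Agent.Lib.CharGalois.exists_roots
    (IsIrrCharacter.isCharacter χ.2) g
  have h3 := h2 1
  rw [pow_one] at h3
  rw [h3, h2 k, map_sum]
  refine Finset.sum_congr rfl fun i _ => ?_
  rw [pow_one, hσ _ (by rw [← hN]; exact h1 i)]

theorem orbit_iff (hm : 0 < m) (hN : Nat.card G = P * m) (co : P.Coprime m) (χ ψ : IrrCharacter G) :
    (∃ σ : ℂ ≃+* ℂ, σ (Complex.exp (2 * Real.pi * Complex.I / (m : ℕ))) =
        Complex.exp (2 * Real.pi * Complex.I / (m : ℕ)) ∧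
      (ψ : G → ℂ) = fun g => σ ((χ : G → ℂ) g)) ↔ ψ ∈ OO hN co χ := by
  have hP : 0 < P := Nat.pos_of_ne_zero (NeZero.ne P)
  have hPm : 0 < P * m := Nat.mul_pos hP hm
  have hω := Complex.isPrimitiveRoot_exp m hm.ne'
  set ω := Complex.exp (2 * Real.pi * Complex.I / (m : ℕ)) with hωdef
  have hωN : ω ^ (P * m) = 1 := by rw [mul_comm, pow_mul, hω.pow_eq_one, one_pow]
  rw [mem_OO]
  constructor
  · rintro ⟨σ, hσω, hψ⟩
    have hζ := Complex.isPrimitiveRoot_exp (P * m) hPm.ne'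
    set ζ := Complex.exp (2 * Real.pi * Complex.I / ((P * m : ℕ))) with hζdef
    have hσζ : IsPrimitiveRoot (σ ζ) (P * m) := hζ.map_of_injective σ.injective
    haveI : NeZero (P * m) := ⟨hPm.ne'⟩
    obtain ⟨t, -, ht⟩ := hζ.eq_pow_of_pow_eq_one hσζ.pow_eq_one
    have htco : t.Coprime (P * m) := (hζ.pow_iff_coprime hPm t).mp (ht ▸ hσζ)
    have hσ : ∀ z : ℂ, z ^ (P * m) = 1 → σ z = z ^ t := by
      intro z hz
      obtain ⟨i, -, rfl⟩ := hζ.eq_pow_of_pow_eq_one hz
      rw [map_pow, ← ht, ← pow_mul, ← pow_mul, mul_comm]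
    have htm : t ≡ 1 [MOD m] := by
      have h1 := hσ ω hωN
      rw [hσω] at h1
      rcases Nat.eq_zero_or_pos t with rfl | htpos
      · have h2 : ω = 1 := by simpa using h1
        have h3 : m = 1 := by
          have := hω.dvd_of_pow_eq_one 1 (by rw [pow_one]; exact h2)
          exact Nat.dvd_one.mp this
        rw [h3]
        exact Nat.modEq_one
      · refine (Nat.modEq_iff_dvd' htpos).mpr ?_ |>.symm
        apply hω.dvd_of_pow_eq_one
        have hω0 : ω ≠ 0 := hω.ne_zero hm.ne'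
        have h2 : ω * ω ^ (t - 1) = ω * 1 := by
          rw [← pow_succ', Nat.sub_add_cancel htpos, mul_one]
          exact h1.symm
        exact mul_left_cancel₀ hω0 h2
    refine ⟨ZMod.unitOfCoprime t (Nat.Coprime.coprime_mul_right_right htco), ?_⟩
    have hk : kk co (ZMod.unitOfCoprime t (Nat.Coprime.coprime_mul_right_right htco)) ≡ t
        [MOD P * m] := by
      refine (Nat.modEq_and_modEq_iff_modEq_mul co).mp ⟨?_, ?_⟩
      · rw [← ZMod.natCast_eq_natCast_iff, kk_cast, ZMod.coe_unitOfCoprime]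
      · exact (kk_modm co _).trans htm.symm
    refine Subtype.ext (funext fun g => ?_)
    rw [tw_apply, pow_eq_of_modEq (pow_N hN g) hk, ← sigma_char hN χ σ hσ g, hψ]
  · rintro ⟨s, rfl⟩
    obtain ⟨σ, hσ⟩ := Cfsg.Agent.Lib.ComplexAut.exists_ringEquiv_pow hPm (kk_coprime co s)
    refine ⟨σ, ?_, ?_⟩
    · rw [hσ ω hωN, pow_eq_of_modEq hω.pow_eq_one (kk_modm co s), pow_one]
    · funext g
      rw [tw_apply, sigma_char hN χ σ hσ g]

theorem sum_restrict_eq (Q : Subgroup G) [Fintype Q] {χ : G → ℂ} (hχ : IsCharacter G χ) :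
    ∃ t : ℕ, ∑ x : Q, χ x = (Nat.card Q : ℂ) * t := by
  obtain ⟨t, ht⟩ := classInner_char_char (isCharacter_restrict Q hχ) (isCharacter_one (G := Q))
  refine ⟨t, ?_⟩
  rw [← ht, classInner]
  have hne : (Nat.card Q : ℂ) ≠ 0 := natCard_ne_zero'
  simp only [map_one, mul_one]
  field_simp

theorem main_first {I : Ideal AlgInt} {p a : ℕ} (hI : IsPModular p I) [NeZero (p ^ a)]
    {m : ℕ} (hm : 0 < m) (hpm : ¬ p ∣ m) (hN : Nat.card G = p ^ a * m)
    (co : (p ^ a).Coprime m) (χ : IrrCharacter G) :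
    (omega (χ : G → ℂ) (ff hN co χ)) =
      (Nat.card G : ℂ) / (((OO hN co χ).card * charDegree (χ : G → ℂ) : ℕ) : ℂ) := by
  classical
  have hd := one_eq_charDegree (IsIrrCharacter.isCharacter χ.2)
  have hne := irr_one_ne_zero' χ.2
  rw [omega_ff]
  have h1 := card_eq_mul hN co χ
  have h2 : nn hN co χ χ ≠ 0 := by
    intro h
    rw [h, mul_zero] at h1
    exact Fintype.card_ne_zero h1
  have h3 : (OO hN co χ).card ≠ 0 := Finset.card_ne_zero_of_mem (self_mem_OO hN co χ)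
  rw [h1]
  push_cast
  rw [← hd]
  have h2' : (nn hN co χ χ : ℂ) ≠ 0 := by exact_mod_cast h2
  have h3' : ((OO hN co χ).card : ℂ) ≠ 0 := by exact_mod_cast h3
  field_simp

theorem claim_one {I : Ideal AlgInt} {p a : ℕ} (hI : IsPModular p I) [NeZero (p ^ a)]
    {m : ℕ} (hm : 0 < m) (hpm : ¬ p ∣ m) (hN : Nat.card G = p ^ a * m)
    (co : (p ^ a).Coprime m) (χ : IrrCharacter G) :
    ¬ p ^ (a + 1) ∣ (OO hN co χ).card * charDegree (χ : G → ℂ) := by
  haveI := hI.2.1.isPrime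
  have hp := hI.1
  rintro ⟨c, hc⟩
  have hω : MemLocalRing I (omega (χ : G → ℂ) (ff hN co χ)) :=
    memLocalRing_of_mem_Zc (mem_Zc_of_classFunction (ff_isClassFunction hN co χ)
      (ff_local hI hm hN co χ)) χ
  rw [main_first hI hm hpm hN co χ, hc, hN] at hω
  have hc0 : c ≠ 0 := by
    rintro rfl
    rw [mul_zero] at hc
    have h3 : (OO hN co χ).card ≠ 0 := Finset.card_ne_zero_of_mem (self_mem_OO hN co χ)
    have h4 := charDegree_ne_zero χ.2
    exact (mul_ne_zero h3 h4) hc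
  have hp0 : (p : ℂ) ≠ 0 := by exact_mod_cast hp.ne_zero
  have hc0' : (c : ℂ) ≠ 0 := by exact_mod_cast hc0
  have h1 : (m : ℂ) = ((p ^ a * m : ℕ) : ℂ) / ((p ^ (a + 1) * c : ℕ) : ℂ) * ((p * c : ℕ) : ℂ) := by
    push_cast
    field_simp
    ring
  have h2 : MemLocalIdeal I (m : ℂ) := by
    rw [h1]
    exact memLocalIdeal_mul_left hω
      ((memLocalIdeal_natCast_iff hI).mpr (dvd_mul_right _ _))
  exact hpm ((memLocalIdeal_natCast_iff hI).mp h2)

theorem claim_two {I : Ideal AlgInt} {p a : ℕ} (hI : IsPModular p I) [NeZero (p ^ a)]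
    {m : ℕ} (hm : 0 < m) (hpm : ¬ p ∣ m) (hN : Nat.card G = p ^ a * m)
    (co : (p ^ a).Coprime m) (χ : IrrCharacter G) (Q : Subgroup G) [Fintype Q]
    (hQ : Nat.card Q = p ^ a)
    (hd : p ^ a ∣ (OO hN co χ).card * charDegree (χ : G → ℂ)) :
    p ^ a ∣ charDegree (χ : G → ℂ) := by
  classical
  haveI := hI.2.1.isPrime
  have hp := hI.1
  obtain ⟨c, hc⟩ := hd
  have h3 : (OO hN co χ).card ≠ 0 := Finset.card_ne_zero_of_mem (self_mem_OO hN co χ)
  have h4 := charDegree_ne_zero χ.2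
  have hdeg := one_eq_charDegree (IsIrrCharacter.isCharacter χ.2)
  set ω := omega (χ : G → ℂ) (ff hN co χ) with hω
  have hωeq : ω = (m : ℂ) / (c : ℂ) := by
    rw [hω, main_first hI hm hpm hN co χ, hc, hN]
    have hpa : ((p ^ a : ℕ) : ℂ) ≠ 0 := by
      exact_mod_cast NeZero.ne (p ^ a)
    have hc0 : (c : ℂ) ≠ 0 := by
      have : c ≠ 0 := by
        rintro rfl
        rw [mul_zero] at hc
        exact (mul_ne_zero h3 h4) hc
      exact_mod_cast this
    push_cast at hpa ⊢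
    field_simp
  have hc0 : c ≠ 0 := by
    rintro rfl
    rw [mul_zero] at hc
    exact (mul_ne_zero h3 h4) hc
  have hm0 : (m : ℂ) ≠ 0 := by exact_mod_cast hm.ne'
  have hc0' : (c : ℂ) ≠ 0 := by exact_mod_cast hc0
  have hω0 : ω ≠ 0 := by
    rw [hωeq]
    exact div_ne_zero hm0 hc0'
  have hωinv : MemLocalRing I ω⁻¹ := by
    rw [hωeq, inv_div, div_eq_mul_inv]
    exact memLocalRing_mul (memLocalRing_natCast c) (memLocalRing_inv_natCast hI hpm)
  -- the indicator of the orbit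
  let c' : IrrCharacter G → ℂ := ω⁻¹ • fun ψ : IrrCharacter G => omega (ψ : G → ℂ) (ff hN co χ)
  have hc'Z : c' ∈ Zc I := smul_mem_Zc hωinv (mem_Zc_of_classFunction
    (ff_isClassFunction hN co χ) (ff_local hI hm hN co χ))
  have hc'val : ∀ ψ, c' ψ = if ψ ∈ OO hN co χ then 1 else 0 := by
    intro ψ
    show ω⁻¹ * omega (ψ : G → ℂ) (ff hN co χ) = _
    by_cases hψ : ψ ∈ OO hN co χ
    · rw [if_pos hψ, omega_ff, nn_eq hN co χ ψ hψ, ← omega_ff, ← hω, inv_mul_cancel₀ hω0]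
    · rw [if_neg hψ, omega_ff, nn_eq_zero hN co χ ψ hψ]
      simp
  have hcc : c' * c' = c' := by
    funext ψ
    rw [Pi.mul_apply, hc'val]
    by_cases hψ : ψ ∈ OO hN co χ <;> simp [hψ]
  have hvan : ∀ h : G, p ∣ orderOf h → ∑ ψ ∈ OO hN co χ, (ψ : G → ℂ) h = 0 := by
    intro h hh
    have h5 := sum_idem_zero hI hc'Z hcc (x := 1) (h := h) (by
      rw [orderOf_one]
      exact hp.one_lt.ne' ∘ Nat.dvd_one.mp) hh
    simp_rw [hc'val, ite_mul, zero_mul, one_mul, inv_one] at h5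
    rw [Finset.sum_ite_mem, Finset.univ_inter] at h5
    have h6 : ∀ ψ ∈ OO hN co χ, (ψ : G → ℂ) h * (ψ : G → ℂ) 1 = (ψ : G → ℂ) h * (χ : G → ℂ) 1 := by
      intro ψ hψ
      obtain ⟨s, rfl⟩ := (mem_OO hN co χ ψ).mp hψ
      rw [tw_apply_one]
    rw [Finset.sum_congr rfl h6, ← Finset.sum_mul] at h5
    exact (mul_eq_zero.mp h5).resolve_right (irr_one_ne_zero' χ.2)
  -- restriction to `Q`
  have hQs : ∀ x : Q, x ≠ 1 → p ∣ orderOf (x : G) := by
    intro x hx
    have h5 : orderOf (x : G) ∣ p ^ a := by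
      rw [← hQ, Subgroup.orderOf_coe]
      exact orderOf_dvd_natCard x
    obtain ⟨i, -, hi⟩ := (Nat.dvd_prime_pow hp).mp h5
    rw [hi]
    have hi0 : i ≠ 0 := by
      rintro rfl
      rw [pow_zero, orderOf_eq_one_iff] at hi
      exact hx (Subtype.ext hi)
    exact dvd_pow_self p hi0
  have hsum1 : ∑ x : Q, ∑ ψ ∈ OO hN co χ, (ψ : G → ℂ) x =
      ((OO hN co χ).card : ℂ) * (χ : G → ℂ) 1 := by
    rw [Finset.sum_eq_single (1 : Q)]
    · simp only [Subgroup.coe_one]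
      rw [Finset.sum_congr rfl (g := fun _ => (χ : G → ℂ) 1), Finset.sum_const, nsmul_eq_mul]
      intro ψ hψ
      obtain ⟨s, rfl⟩ := (mem_OO hN co χ ψ).mp hψ
      rw [tw_apply_one]
    · intro x _ hx
      exact hvan x (hQs x hx)
    · intro h
      exact absurd (Finset.mem_univ _) h
  have hsum2 : ∀ ψ ∈ OO hN co χ, ∑ x : Q, (ψ : G → ℂ) x = ∑ x : Q, (χ : G → ℂ) x := by
    intro ψ hψ
    obtain ⟨s, rfl⟩ := (mem_OO hN co χ ψ).mp hψ
    have hco : (Nat.card Q).Coprime (kk co s) := by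
      rw [hQ]
      exact (Nat.Coprime.coprime_mul_right_right (kk_coprime co s)).symm
    refine Fintype.sum_equiv (powCoprime hco) _ _ fun x => ?_
    rw [tw_apply, powCoprime_apply]
    rfl
  obtain ⟨t, ht⟩ := sum_restrict_eq Q (IsIrrCharacter.isCharacter χ.2)
  rw [Finset.sum_comm, Finset.sum_congr rfl hsum2, Finset.sum_const, nsmul_eq_mul, ht, hQ, hdeg] at hsum1
  have h3' : ((OO hN co χ).card : ℂ) ≠ 0 := by exact_mod_cast h3
  have h5 := mul_left_cancel₀ h3' hsum1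
  have h6 : p ^ a * t = charDegree (χ : G → ℂ) := by exact_mod_cast h5
  exact ⟨t, h6.symm⟩

end Twist

theorem result {G : Type*} [Group G] [Finite G] (p : ℕ) (hp : p.Prime) (χ : Cfsg.IrrCharacter G) (r : ℕ) (hr : Nat.card {ψ : Cfsg.IrrCharacter G // ∃ σ : ℂ ≃+* ℂ, σ (Complex.exp (2 * Real.pi * Complex.I / ((Nat.card G / p ^ (Nat.card G).factorization p) : ℕ))) = Complex.exp (2 * Real.pi * Complex.I / ((Nat.card G / p ^ (Nat.card G).factorization p) : ℕ)) ∧ (ψ : G → ℂ) = fun g => σ ((χ : G → ℂ) g)} = r) : (r * Cfsg.charDegree (χ : G → ℂ)).factorization p ≤ (Nat.card G).factorization p ∧ (p ^ (Nat.card G).factorization p ∣ r * Cfsg.charDegree (χ : G → ℂ) → p ^ (Nat.card G).factorization p ∣ Cfsg.charDegree (χ : G → ℂ)) := by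
  classical
  letI : Fintype G := Fintype.ofFinite G
  obtain ⟨I, hI⟩ := Cfsg.Agent.Lib.BlockVal.exists_isPModular hp
  set a := (Nat.card G).factorization p with ha
  set m := Nat.card G / p ^ a with hmdef
  have hcard : Nat.card G ≠ 0 := Nat.card_pos.ne'
  have hN : Nat.card G = p ^ a * m := (Nat.ordProj_mul_ordCompl_eq_self (Nat.card G) p).symm
  have hm : 0 < m := by
    rcases Nat.eq_zero_or_pos m with h | h
    · rw [h, mul_zero] at hN
      exact absurd hN hcard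
    · exact h
  have hpm : ¬ p ∣ m := Nat.not_dvd_ordCompl hp hcard
  have co : (p ^ a).Coprime m := Nat.Coprime.pow_left _ ((Nat.Prime.coprime_iff_not_dvd hp).mpr hpm)
  haveI : NeZero (p ^ a) := ⟨pow_ne_zero _ hp.ne_zero⟩
  have hr' : (OO hN co χ).card = r := by
    rw [← hr, Nat.card_congr (Equiv.subtypeEquivRight (orbit_iff hm hN co χ)),
      Nat.card_eq_fintype_card, Fintype.card_coe]
  subst hr'
  constructor
  · by_contra hlt
    rw [not_le] at hlt
    have hne : (OO hN co χ).card * charDegree (χ : G → ℂ) ≠ 0 :=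
      mul_ne_zero (Finset.card_ne_zero_of_mem (self_mem_OO hN co χ)) (charDegree_ne_zero χ.2)
    exact claim_one hI hm hpm hN co χ ((hp.pow_dvd_iff_le_factorization hne).mpr hlt)
  · intro hd
    haveI : Fact p.Prime := ⟨hp⟩
    let Q : Sylow p G := default
    letI : Fintype (Q : Subgroup G) := Fintype.ofFinite _
    exact claim_two hI hm hpm hN co χ (Q : Subgroup G) (Sylow.card_eq_multiplicity Q) hd

end Cfsg.Agent.S4506
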