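import Mathlib
import Cfsg.Statements.S4507
import Cfsg.Agent.Lib.DefOneI
import Cfsg.Agent.Lib.RangeP0
-- import your own Cfsg.Agent.* helpers here

set_option autoImplicit false
open Cfsg

namespace Cfsg.Agent.S4507

open Cfsg.Agent.Lib.DefOneI
open Cfsg.Agent.Lib.RangeP0

/-- Let G be a finite group whose order g is divisible by the prime p exactly once, g′ = g/p, and fix a maximal ideal M of the algebraic integers containing p. Call two irreducible characters p-conjugate when a field automorphism of ℂ fixing the g′-th roots of unity carries one to the other. Let B be a p-block of positive defect (its defect group is a Sylow p-subgroup). Then B contains a subset Y (the exceptional family) such that: Y is a full p-conjugacy class (its members are pairwise p-conjugate and every p-conjugate of a member of Y lies in Y); every member of B outside Y is p-conjugate only to itself; the size t of Y divides p − 1 and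 B has exactly t + (p − 1)/t members; and there are signs δ_χ = ±1 (χ ∈ B) such that for every p-regular element x and every θ ∈ Y, Σ_{χ ∈ B ∖ Y} δ_χ χ(x) + δ_θ θ(x) = 0. -/
theorem result {G : Type*} [Group G] [Finite G] (p : ℕ) [Fact p.Prime] (M : Ideal Cfsg.AlgInt) (hM : Cfsg.IsPModular p M) (hdiv : p ∣ Nat.card G) (hsq : ¬ p ^ 2 ∣ Nat.card G) (B : Set (Cfsg.IrrCharacter G)) (hB : Cfsg.IsPBlock M B) (hd : 0 < Cfsg.blockDefect p B) : ∃ Y : Set (Cfsg.IrrCharacter G), Y ⊆ B ∧ Y.Nonempty ∧ (∀ θ ∈ Y, ∀ ψ : Cfsg.IrrCharacter G, (∃ σ : ℂ ≃+* ℂ, σ (Complex.exp (2 * Real.pi * Complex.I / ((Nat.card G / p ^ (Nat.card G).factorization p) : ℕ))) = Complex.exp (2 * Real.pi * Complex.I / ((Nat.card G / p ^ (Nat.card G).factorization p) : ℕ)) ∧ (ψ : G → ℂ) = fun g => σ ((θ : G → ℂ) g)) ↔ ψ ∈ Y) ∧ (∀ χ ∈ B, χ ∉ Y → ∀ ψ : Cfsg.IrrCharacter G, (∃ σ : ℂ ≃+* ℂ, σ (Complex.exp (2 * Real.pi * Complex.I / ((Nat.card G / p ^ (Nat.card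 G).factorization p) : ℕ))) = Complex.exp (2 * Real.pi * Complex.I / ((Nat.card G / p ^ (Nat.card G).factorization p) : ℕ)) ∧ (ψ : G → ℂ) = fun g => σ ((χ : G → ℂ) g)) → ψ = χ) ∧ Nat.card Y ∣ p - 1 ∧ Nat.card B = Nat.card Y + (p - 1) / Nat.card Y ∧ ∃ δ : Cfsg.IrrCharacter G → ℤ, (∀ χ ∈ B, δ χ = 1 ∨ δ χ = -1) ∧ ∀ x : G, ¬ p ∣ orderOf x → ∀ θ ∈ Y, (∑ᶠ χ ∈ B \ Y, (δ χ : ℂ) * (χ : G → ℂ) x) + (δ θ : ℂ) * (θ : G → ℂ) x = 0 := by
  classical
  haveI : Fintype G := Fintype.ofFinite G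
  have hp : p.Prime := Fact.out
  obtain ⟨P, hP, hBP⟩ := Cfsg.Agent.Lib.DefOneI.exists_sylow_defect hM hsq hB hd
  have hP1 : 1 < Nat.card (P : Subgroup G) := by
    rw [hP]
    exact hp.one_lt
  obtain ⟨r, e₀, H⟩ := Cfsg.Agent.Lib.TICent.exists_hyp p hp P
    (fun x hx hx1 => Cfsg.Agent.Lib.RangeP0.star_of_prime hp hP x hx hx1) hP1
  letI : Fintype (Subgroup.centralizer ((P : Subgroup G) : Set G)) := Fintype.ofFinite _
  have hprime := Cfsg.Agent.Lib.BlockLocal.isPrime_of_isPModular hM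
  obtain ⟨b, hindb, -⟩ := Cfsg.Agent.Lib.BlockDefectInd.exists_isInducedBlock_defect hM P.isPGroup' H.le rfl hB hBP H.le le_rfl
  obtain ⟨θ, hk, rfl⟩ := Cfsg.Agent.Lib.DefOneF.exists_kerP_of_isPBlock H hM hindb.1
  have hcl : Cfsg.IsClassFunction (Subgroup.centralizer ((P : Subgroup G) : Set G)) (θ : Subgroup.centralizer ((P : Subgroup G) : Set G) → ℂ) :=
    Cfsg.Agent.Lib.CharBasic.isClassFunction_of_isCharacter (Cfsg.Agent.Lib.CharBasic.IsIrrCharacter.isCharacter θ.2)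
  obtain ⟨e, hT⟩ := Cfsg.Agent.Lib.DefOneI.exists_e H hcl
  obtain ⟨f₀', hN⟩ := Cfsg.Agent.Lib.DefOneI.exists_f H
  have hex : ∀ (τ : Cfsg.IrrCharacter (Subgroup.centralizer ((P : Subgroup G) : Set G))) (g : ↥(P : Subgroup G) →* ℂˣ) (χ : Cfsg.IrrCharacter G),
      ∃ n : ℕ, Cfsg.classInner (Cfsg.Agent.Lib.DefOneC.tw r g τ) (fun c : Subgroup.centralizer ((P : Subgroup G) : Set G) => (χ : G → ℂ) c) = n :=
    fun τ g χ => Cfsg.Agent.Lib.CharBasic.classInner_char_char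
      (Cfsg.Agent.Lib.CharBasic.IsIrrCharacter.isCharacter (Cfsg.Agent.Lib.DefOneC.isIrr_tw g τ.2))
      (Cfsg.Agent.Lib.CharBasic.isCharacter_restrict _ (Cfsg.Agent.Lib.CharBasic.IsIrrCharacter.isCharacter χ.2))
  choose a ha using hex
  letI : Fintype (Cfsg.Agent.Lib.DefectOne.NT (P : Subgroup G)) := Fintype.ofFinite _
  obtain ⟨w, σ, ξ, n, hσ, hrel, hw0, hξ, hsum, hval, hreg, hcd, hmem, hne, hdX, hdY⟩ :=
    Cfsg.Agent.Lib.DefOneH.block_struct H hP P.not_dvd_index hM hB hBP ⟨θ, hk⟩ hindb hT hN ha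
  simp only at hrel hξ hsum
  have hG0 : 0 < Nat.card G := Nat.card_pos
  obtain ⟨hv, hGg, hcop⟩ := Cfsg.Agent.Lib.DefOneI.arith hp hdiv hsq hG0
  set g' := Nat.card G / p ^ (Nat.card G).factorization p with hg'
  have hc : ∀ u ∈ (P : Subgroup G), ∀ v ∈ (P : Subgroup G), u * v = v * u := fun u hu v hv => (H.comm_P hu hv).symm
  haveI hfin : Finite (↥(P : Subgroup G) →* ℂˣ) := Cfsg.Agent.Lib.TICent.dual_finite hc
  have hcardD : Nat.card (↥(P : Subgroup G) →* ℂˣ) = p := by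
    rw [Cfsg.Agent.Lib.TICent.card_dual hc, hP]
  have hone : ∀ k : ℕ, (1 : ↥(P : Subgroup G) →* ℂˣ) ^ k = 1 := by
    intro k
    ext z
    simp
  obtain ⟨f₁⟩ : Nonempty (Cfsg.Agent.Lib.DefectOne.NT (P : Subgroup G)) := by
    have h2 : Nontrivial (↥(P : Subgroup G) →* ℂˣ) := by
      rw [← Finite.one_lt_card_iff_nontrivial, hcardD]
      exact hp.one_lt
    obtain ⟨f, hf⟩ := exists_ne (1 : ↥(P : Subgroup G) →* ℂˣ)
    exact ⟨⟨f, hf⟩⟩
  have hσ0 : σ ≠ 0 := by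
    rcases hσ with rfl | rfl <;> norm_num
  -- the power maps on the multiplicities
  have hap : ∀ (k : ℕ) (hkG : (Nat.card G).Coprime k), k ≡ 1 [MOD g'] → ∀ (f : ↥(P : Subgroup G) →* ℂˣ) (χ : Cfsg.IrrCharacter G),
      a θ (f ^ k) (Cfsg.Agent.Lib.BlockGal.powIrr hkG χ) = a θ f χ := by
    intro k hkG hk1 f χ
    have h1 := Cfsg.Agent.Lib.DefOneI.inner_pow H hkG (fun y hy => Cfsg.Agent.Lib.DefOneI.pow_of_modEq hp hGg hk1 hy) θ.2 hk f χ
    rw [ha, ha] at h1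
    exact_mod_cast h1
  have hpow_ne : ∀ (k : ℕ) (hkG : (Nat.card G).Coprime k) (f : ↥(P : Subgroup G) →* ℂˣ), f ≠ 1 → f ^ k ≠ 1 := by
    intro k hkG f hf h0
    have hkD : (Nat.card (↥(P : Subgroup G) →* ℂˣ)).Coprime k := by
      rw [Cfsg.Agent.Lib.TICent.card_dual hc]
      exact Nat.Coprime.coprime_dvd_left (Subgroup.card_subgroup_dvd_card _) hkG
    apply hf
    apply (powCoprime hkD).injective
    have e1 : powCoprime hkD f = 1 := h0
    have e2 : powCoprime hkD (1 : ↥(P : Subgroup G) →* ℂˣ) = 1 := hone k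
    rw [e1, e2]
  -- the constancy lemma
  have hfix : ∀ χ ∈ B, (∀ f₁ f₂ : Cfsg.Agent.Lib.DefectOne.NT (P : Subgroup G), a θ f₁.1 χ = a θ f₂.1 χ) →
      ∀ (k : ℕ) (hkG : (Nat.card G).Coprime k), k ≡ 1 [MOD g'] → Cfsg.Agent.Lib.BlockGal.powIrr hkG χ = χ := by
    intro χ hχ hconst k hkG hk1
    apply Cfsg.Agent.Lib.DefOneI.powIrr_eq_of_const H hP P.not_dvd_index hkG (fun y hy => Cfsg.Agent.Lib.DefOneI.pow_of_modEq hp hGg hk1 hy)
    apply Cfsg.Agent.Lib.DefOneI.const_all H hM hB hBP ⟨θ, hk⟩ hindb hχ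
    intro f₁ f₂
    show Cfsg.classInner (Cfsg.Agent.Lib.DefOneC.tw r f₁.1 θ) _ = Cfsg.classInner (Cfsg.Agent.Lib.DefOneC.tw r f₂.1 θ) _
    rw [ha, ha, hconst f₁ f₂]
  have hfixX : ∀ χ, w χ ≠ 0 → ∀ (k : ℕ) (hkG : (Nat.card G).Coprime k), k ≡ 1 [MOD g'] → Cfsg.Agent.Lib.BlockGal.powIrr hkG χ = χ := by
    intro χ hχ
    apply hfix χ ((hmem χ).2 (Or.inl hχ))
    intro f₁ f₂
    have h1 := hrel f₁ χ
    have h2 := hrel f₂ χ
    have h3 : χ ≠ ξ f₁ := by
      rintro rfl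
      exact hχ (hw0 f₁)
    have h4 : χ ≠ ξ f₂ := by
      rintro rfl
      exact hχ (hw0 f₂)
    rw [if_neg h3] at h1
    rw [if_neg h4] at h2
    have h5 : (a θ f₁.1 χ : ℤ) = a θ f₂.1 χ := by linarith
    exact_mod_cast h5
  -- the family is closed under the power maps
  have hclosed : ∀ (k : ℕ) (hkG : (Nat.card G).Coprime k), k ≡ 1 [MOD g'] → ∀ f : Cfsg.Agent.Lib.DefectOne.NT (P : Subgroup G),
      Cfsg.Agent.Lib.BlockGal.powIrr hkG (ξ f) ∈ Set.range ξ := by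
    intro k hkG hk1 f
    by_contra hψ
    have hψ' := hfix (ξ f) ((hmem _).2 (Or.inr ⟨f, rfl⟩)) ?_ k hkG hk1
    · rw [hψ'] at hψ
      exact hψ ⟨f, rfl⟩
    · have key : ∀ g : Cfsg.Agent.Lib.DefectOne.NT (P : Subgroup G), (a θ g.1 (ξ f) : ℤ) - a θ 1 (ξ f) = w (Cfsg.Agent.Lib.BlockGal.powIrr hkG (ξ f)) := by
        intro g
        have h1 := hrel ⟨g.1 ^ k, hpow_ne k hkG g.1 g.2⟩ (Cfsg.Agent.Lib.BlockGal.powIrr hkG (ξ f))
        have h2 : Cfsg.Agent.Lib.BlockGal.powIrr hkG (ξ f) ≠ ξ ⟨g.1 ^ k, hpow_ne k hkG g.1 g.2⟩ := fun h3 => hψ ⟨_, h3.symm⟩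
        rw [if_neg h2, mul_zero, add_zero] at h1
        simp only at h1
        rw [hap k hkG hk1] at h1
        have h3 := hap k hkG hk1 1 (ξ f)
        rw [hone k] at h3
        rw [h3] at h1
        exact h1
      intro f₁ f₂
      have h1 := key f₁
      have h2 := key f₂
      have h3 : (a θ f₁.1 (ξ f) : ℤ) = a θ f₂.1 (ξ f) := by linarith
      exact_mod_cast h3
  have hYne : (Set.range ξ).Nonempty := ⟨ξ f₁, f₁, rfl⟩
  have hp1 : 0 < p - 1 := Nat.sub_pos_of_lt hp.one_lt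
  have he0 : 0 < e := by
    rcases Nat.eq_zero_or_pos e with h | h
    · rw [h, mul_zero] at hcd
      omega
    · exact h
  have hY0 : 0 < Nat.card (Set.range ξ) := by
    rcases Nat.eq_zero_or_pos (Nat.card (Set.range ξ)) with h | h
    · rw [h, zero_mul] at hcd
      omega
    · exact h
  have hdiv' : (p - 1) / Nat.card (Set.range ξ) = e := Nat.div_eq_of_eq_mul_left hY0 (by rw [← hcd, mul_comm])
  have hBeq : B = {χ | w χ ≠ 0} ∪ Set.range ξ := by
    ext χ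
    exact hmem χ
  have hdisj : Disjoint {χ | w χ ≠ 0} (Set.range ξ) := by
    rw [Set.disjoint_left]
    rintro χ hχ ⟨g, rfl⟩
    exact hχ (hw0 g)
  have hcX : Nat.card ({χ | w χ ≠ 0} : Set (Cfsg.IrrCharacter G)) = e := by
    have h1 : ∀ χ, (w χ) ^ 2 = if w χ ≠ 0 then 1 else 0 := by
      intro χ
      rcases hval χ with h | h | h <;> simp [h]
    simp_rw [h1] at hsum
    rw [Finset.sum_boole] at hsum
    have h2 : (Finset.univ.filter fun χ => w χ ≠ 0).card = e := by exact_mod_cast hsum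
    rw [← h2, Nat.card_eq_fintype_card]
    exact Fintype.card_subtype _
  have hcB : Nat.card B = e + Nat.card (Set.range ξ) := by
    rw [hBeq, Nat.card_coe_set_eq, Set.ncard_union_eq hdisj (Set.toFinite _) (Set.toFinite _),
      ← Nat.card_coe_set_eq, ← Nat.card_coe_set_eq, hcX]
  have hforward : ∀ θ₀ ∈ Set.range ξ, ∀ ψ : Cfsg.IrrCharacter G, (∃ σ' : ℂ ≃+* ℂ, σ' (Complex.exp (2 * Real.pi * Complex.I / (g' : ℕ))) = Complex.exp (2 * Real.pi * Complex.I / (g' : ℕ)) ∧ (ψ : G → ℂ) = fun g => σ' ((θ₀ : G → ℂ) g)) → ψ ∈ Set.range ξ := by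
    rintro θ₀ ⟨f, rfl⟩ ψ ⟨σ', hσ', hψ⟩
    obtain ⟨k, hkG, hk1, hk2⟩ := Cfsg.Agent.Lib.DefOneI.from_ringEquiv hp hGg σ' hσ'
    have h1 : ψ = Cfsg.Agent.Lib.BlockGal.powIrr hkG (ξ f) := by
      apply Subtype.ext
      rw [hψ]
      exact hk2 _
    rw [h1]
    exact hclosed k hkG hk1 f
  have hback : ∀ θ₀ ∈ Set.range ξ, ∀ ψ ∈ Set.range ξ, ∃ σ' : ℂ ≃+* ℂ, σ' (Complex.exp (2 * Real.pi * Complex.I / (g' : ℕ))) = Complex.exp (2 * Real.pi * Complex.I / (g' : ℕ)) ∧ (ψ : G → ℂ) = fun g => σ' ((θ₀ : G → ℂ) g) := by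
    rintro θ₀ ⟨f₀, rfl⟩ ψ ⟨f₂, rfl⟩
    letI : Fintype (↥(P : Subgroup G) →* ℂˣ) := Fintype.ofFinite _
    have hcF : Fintype.card (↥(P : Subgroup G) →* ℂˣ) = p := by
      rw [← Nat.card_eq_fintype_card, hcardD]
    obtain ⟨c, hc'⟩ := mem_powers_of_prime_card hcardD (g := f₀.1) (g' := f₂.1) f₀.2
    have hc2 : f₀.1 ^ c = f₂.1 := hc'
    let k : ℕ := Nat.chineseRemainder hcop c 1
    have hk3 : k ≡ c [MOD p] := (Nat.chineseRemainder hcop c 1).2.1
    have hk1 : k ≡ 1 [MOD g'] := (Nat.chineseRemainder hcop c 1).2.2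
    have hpowk : f₀.1 ^ k = f₂.1 := by
      rw [← hc2]
      ext z
      simp only [MonoidHom.pow_apply, Units.val_pow_eq_pow_val]
      rw [← Units.val_pow_eq_pow_val, ← Units.val_pow_eq_pow_val, ← map_pow, ← map_pow]
      have h5 : z ^ p = 1 := by
        have := pow_card_eq_one' (x := z)
        rwa [hP] at this
      have h6 : orderOf z ∣ p := orderOf_dvd_of_pow_eq_one h5
      have h7 : z ^ k = z ^ c := pow_eq_pow_iff_modEq.2 (hk3.of_dvd h6)
      rw [h7]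
    have hkp : ¬ p ∣ k := by
      intro h8
      have h9 : p ∣ c := (Nat.modEq_zero_iff_dvd.1 (hk3.symm.trans (Nat.modEq_zero_iff_dvd.2 h8)))
      obtain ⟨m, hm⟩ := h9
      have h10 : f₂.1 = 1 := by
        rw [← hc2, hm]
        ext z
        have h5 : z ^ (p * m) = 1 := by
          have := pow_card_eq_one' (x := z)
          rw [hP] at this
          rw [pow_mul, this, one_pow]
        simp only [MonoidHom.pow_apply, MonoidHom.one_apply, Units.val_one]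
        rw [← map_pow, h5, map_one, Units.val_one]
      exact f₂.2 h10
    have hkG : (Nat.card G).Coprime k := by
      rw [hGg]
      apply Nat.Coprime.mul_left
      · exact hp.coprime_iff_not_dvd.2 hkp
      · have h11 := hk1.gcd_eq
        rw [Nat.coprime_comm]
        show Nat.gcd k g' = 1
        rw [h11]
        simp
    obtain ⟨σ', hσ', hσ''⟩ := Cfsg.Agent.Lib.DefOneI.to_ringEquiv hp hGg hkG hk1
    refine ⟨σ', hσ', ?_⟩
    rw [hσ'' (ξ f₀)]
    obtain ⟨f₃, hf₃⟩ := hclosed k hkG hk1 f₀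
    -- compare the multiplicities at `f₂`
    have h12 := hrel f₂ (Cfsg.Agent.Lib.BlockGal.powIrr hkG (ξ f₀))
    have h13 := hap k hkG hk1 f₀.1 (ξ f₀)
    rw [hpowk] at h13
    have h14 := hap k hkG hk1 1 (ξ f₀)
    rw [hone k] at h14
    rw [h13, h14] at h12
    have h15 := hrel f₀ (ξ f₀)
    rw [if_pos rfl, hw0 f₀, zero_add] at h15
    rw [← hf₃, hw0 f₃, zero_add, h15] at h12
    by_cases h16 : ξ f₃ = ξ f₂
    · rw [← hf₃, h16]
    · rw [if_neg h16] at h12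
      exact absurd (by linarith) hσ0
  refine ⟨Set.range ξ, fun χ hχ => (hmem χ).2 (Or.inr hχ), hYne, ?_, ?_, ⟨e, hcd.symm⟩, ?_, ?_⟩
  · intro θ₀ hθ₀ ψ
    exact ⟨hforward θ₀ hθ₀ ψ, hback θ₀ hθ₀ ψ⟩
  · rintro χ hχ hχY ψ ⟨σ', hσ', hψ⟩
    have hwχ : w χ ≠ 0 := ((hmem χ).1 hχ).resolve_right hχY
    obtain ⟨k, hkG, hk1, hk2⟩ := Cfsg.Agent.Lib.DefOneI.from_ringEquiv hp hGg σ' hσ'
    apply Subtype.ext
    rw [hψ, hk2, hfixX χ hwχ k hkG hk1]
  · rw [hdiv', hcB, add_comm]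
  · refine ⟨fun χ => if w χ ≠ 0 then w χ else σ, ?_, ?_⟩
    · intro χ _
      by_cases h : w χ = 0
      · simp only [h, ne_eq, not_true_eq_false, if_false]
        exact hσ
      · simp only [h, ne_eq, not_false_eq_true, if_true]
        rcases hval χ with h2 | h2 | h2
        · exact absurd h2 h
        · exact Or.inl h2
        · exact Or.inr h2
    · rintro x hx θ₀ ⟨f, rfl⟩
      have h1 := hreg f x hx
      have h2 : (∑ᶠ χ ∈ B \ Set.range ξ, (((if w χ ≠ 0 then w χ else σ : ℤ)) : ℂ) * (χ : G → ℂ) x) =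
          ∑ χ : Cfsg.IrrCharacter G, (w χ : ℂ) * (χ : G → ℂ) x := by
        rw [finsum_mem_def, finsum_eq_sum_of_fintype]
        refine Finset.sum_congr rfl fun χ _ => ?_
        by_cases h3 : χ ∈ B \ Set.range ξ
        · rw [Set.indicator_of_mem h3]
          have h4 : w χ ≠ 0 := ((hmem χ).1 h3.1).resolve_right h3.2
          rw [if_pos h4]
        · rw [Set.indicator_of_notMem h3]
          have h4 : w χ = 0 := by
            by_contra h5
            apply h3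
            refine ⟨(hmem χ).2 (Or.inl h5), ?_⟩
            rintro ⟨g, rfl⟩
            exact h5 (hw0 g)
          rw [h4]
          simp
      rw [h2]
      simp only [hw0 f, ne_eq, not_true_eq_false, if_false]
      exact h1

end Cfsg.Agent.S4507
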