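import Mathlib
import Cfsg.Statements.S4508
import Cfsg.Agent.Lib.SelfCent
import Cfsg.Agent.Lib.SelfCent2
import Cfsg.Agent.Lib.CharBasic
import Cfsg.Agent.Lib.CharInd
import Cfsg.Agent.Lib.CharValues
import Cfsg.Agent.Lib.CharIntegrality

set_option autoImplicit false
open Cfsg

namespace Cfsg.Agent.S4508

open Subgroup Module Cfsg.Agent.Lib.SelfCent Cfsg.Agent.Lib.SelfCent.Hyp Cfsg.Agent.Lib.SelfCent2 Cfsg.Agent.Lib.SelfCent2.Hyp'
open scoped ComplexConjugate

universe u

section Rep

variable {G : Type u} [Group G] {V : Type*} [AddCommGroup V] [Module ℂ V] [FiniteDimensional ℂ V]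

/-- The determinant of an element `y` of order dividing `e` all of whose proper powers have zero
trace. -/
theorem det_eq_of_trace_zero [Finite G] (ρ : Representation ℂ G V) (y : G) (e t : ℕ) (he : 0 < e)
    (hy : y ^ e = 1) (hdim : finrank ℂ V = e * t)
    (htr : ∀ k, 0 < k → k < e → LinearMap.trace ℂ V (ρ (y ^ k)) = 0) :
    LinearMap.det (ρ y) = (-1) ^ ((e - 1) * t) := by
  classical
  obtain ⟨b, μ, h1, -, -, -⟩ := Cfsg.Agent.Lib.CharValues.exists_eigenbasis_rep ρ y
  have hpow : ∀ k i, ρ (y ^ k) (b i) = μ i ^ k • b i := by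
    intro k i
    rw [map_pow]
    induction k with
    | zero => simp
    | succ k ih =>
      rw [pow_succ, Module.End.mul_apply, h1, map_smul, ih, smul_smul, pow_succ, mul_comm]
  have hroot : ∀ i, μ i ^ e = 1 := by
    intro i
    have h2 := hpow e i
    rw [hy, map_one, Module.End.one_apply] at h2
    have h3 : (μ i ^ e - 1) • b i = 0 := by
      rw [sub_smul, one_smul, ← h2, sub_self]
    exact sub_eq_zero.mp ((smul_eq_zero.mp h3).resolve_right (b.ne_zero i))
  have hμne : ∀ i, μ i ≠ 0 := by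
    intro i h0
    have := hroot i
    rw [h0, zero_pow he.ne'] at this
    exact zero_ne_one this
  have htrace : ∀ k, LinearMap.trace ℂ V (ρ (y ^ k)) = ∑ i, μ i ^ k := by
    intro k
    exact Cfsg.Agent.Lib.CharValues.trace_eq_sum_of_eigenbasis (ρ (y ^ k)) b (fun i => μ i ^ k)
      (hpow k)
  -- the count of each root of unity
  have hgeom : ∀ z : ℂ, z ^ e = 1 → ∑ k ∈ Finset.range e, z ^ k = if z = 1 then (e : ℂ) else 0 := by
    intro z hz
    split_ifs with h
    · subst h; simp
    · have h4 := geom_sum_mul z e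
      rw [hz, sub_self] at h4
      exact (mul_eq_zero.mp h4).resolve_right (sub_ne_zero.mpr h)
  have hcount : ∀ ν : ℂ, ν ^ e = 1 → (Finset.univ.filter (fun i => μ i = ν)).card = t := by
    intro ν hν
    have hν0 : ν ≠ 0 := by
      rintro rfl
      rw [zero_pow he.ne'] at hν
      exact zero_ne_one hν
    have h5 : ∑ i, ∑ k ∈ Finset.range e, (μ i * ν⁻¹) ^ k
        = (e : ℂ) * ((Finset.univ.filter (fun i => μ i = ν)).card : ℂ) := by
      have : ∀ i, ∑ k ∈ Finset.range e, (μ i * ν⁻¹) ^ k = if μ i = ν then (e : ℂ) else 0 := by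
        intro i
        rw [hgeom _ (by rw [mul_pow, hroot, inv_pow, hν, inv_one, mul_one])]
        by_cases h : μ i = ν
        · simp [h, hν0]
        · rw [if_neg h, if_neg]
          intro h6
          apply h
          field_simp at h6
          exact h6
      simp only [this]
      rw [Finset.sum_ite, Finset.sum_const_zero, add_zero, Finset.sum_const, nsmul_eq_mul]
      ring
    have h6 : ∑ i, ∑ k ∈ Finset.range e, (μ i * ν⁻¹) ^ k = (e : ℂ) * t := by
      rw [Finset.sum_comm]
      have h7 : ∀ k ∈ Finset.range e, ∑ i, (μ i * ν⁻¹) ^ k =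
          if k = 0 then (e : ℂ) * t else 0 := by
        intro k hk
        have hk' := Finset.mem_range.mp hk
        simp only [mul_pow]
        rw [← Finset.sum_mul, ← htrace]
        by_cases h0 : k = 0
        · subst h0
          simp only [pow_zero, map_one, LinearMap.trace_one, mul_one, if_true]
          rw [hdim]; push_cast; ring
        · rw [if_neg h0, htr k (Nat.pos_of_ne_zero h0) hk', zero_mul]
      rw [Finset.sum_congr rfl h7, Finset.sum_ite_eq']
      simp [he]
    rw [h5] at h6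
    have hene : (e : ℂ) ≠ 0 := by exact_mod_cast he.ne'
    exact_mod_cast mul_left_cancel₀ hene h6
  -- the determinant is a product
  have hdet : LinearMap.det (ρ y) = ∏ i, μ i := by
    rw [← LinearMap.det_toMatrix b]
    have : LinearMap.toMatrix b b (ρ y) = Matrix.diagonal μ := by
      ext i j
      rw [LinearMap.toMatrix_apply, h1, map_smul, Basis.repr_self, Matrix.diagonal_apply]
      by_cases hij : i = j
      · subst hij; simp
      · simp [hij, Ne.symm hij]
    rw [this, Matrix.det_diagonal]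
  rw [hdet]
  -- the product over all roots
  have hprim : IsPrimitiveRoot (Complex.exp (2 * Real.pi * Complex.I / e)) e :=
    Complex.isPrimitiveRoot_exp e he.ne'
  set R := Polynomial.nthRootsFinset e (1 : ℂ) with hR
  have hmem : ∀ ν, ν ∈ R ↔ ν ^ e = 1 := by
    intro ν
    rw [hR, Polynomial.mem_nthRootsFinset he]
  have hfib : ∏ i, μ i = ∏ ν ∈ R, ν ^ t := by
    rw [← Finset.prod_fiberwise_of_maps_to (s := Finset.univ) (t := R) (g := μ)
      (fun i _ => (hmem _).mpr (hroot i))]
    refine Finset.prod_congr rfl fun ν hν => ?_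
    rw [Finset.prod_congr rfl (g := fun _ => ν), Finset.prod_const, hcount ν ((hmem ν).mp hν)]
    intro i hi
    exact (Finset.mem_filter.mp hi).2
  rw [hfib, Finset.prod_pow]
  have hall : ∏ ν ∈ R, ν = (-1) ^ (e - 1) := by
    have h8 := congrArg (Polynomial.eval 0) (Polynomial.X_pow_sub_one_eq_prod he hprim)
    simp only [Polynomial.eval_sub, Polynomial.eval_pow, Polynomial.eval_X, Polynomial.eval_one,
      Polynomial.eval_prod, Polynomial.eval_C, zero_sub, zero_pow he.ne'] at h8
    rw [Finset.prod_neg, IsPrimitiveRoot.card_nthRootsFinset hprim] at h8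
    obtain ⟨e', rfl⟩ : ∃ e', e = e' + 1 := ⟨e - 1, by omega⟩
    simp only [Nat.add_sub_cancel]
    have h9 : ((-1 : ℂ)) ^ e' * (-1) ^ e' = 1 := by
      rw [← mul_pow]; simp
    rw [pow_succ] at h8
    have h10 : (∏ ν ∈ Polynomial.nthRootsFinset (e' + 1) (1 : ℂ), ν) =
        ((-1 : ℂ)) ^ e' * (-1) ^ e' * (∏ ν ∈ Polynomial.nthRootsFinset (e' + 1) (1 : ℂ), ν) := by
      rw [h9, one_mul]
    rw [h10]
    linear_combination ((-1 : ℂ) ^ e') * h8
  rw [hall, ← pow_mul]


omit [Group G] [FiniteDimensional ℂ V] in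
/-- If a sum of representation operators over a subgroup has trace zero, it vanishes. -/
theorem sum_rep_eq_zero [Group G] [FiniteDimensional ℂ V] (ρ : Representation ℂ G V) (H : Subgroup G) [Fintype H]
    (h0 : ∑ h : H, LinearMap.trace ℂ V (ρ (h : G)) = 0) : ∑ h : H, ρ (h : G) = 0 := by
  classical
  set P : Module.End ℂ V := ∑ h : H, ρ (h : G) with hPdef
  have hPa : ∀ a : H, ρ (a : G) * P = P := by
    intro a
    rw [hPdef, Finset.mul_sum]
    exact Fintype.sum_equiv (Equiv.mulLeft a) _ _ (fun h => by simp [map_mul])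
  have hPP : P * P = (Fintype.card H : ℂ) • P := by
    have h1 : P * P = ∑ h : H, ρ (h : G) * P := by
      rw [← Finset.sum_mul]
    rw [h1]
    simp only [hPa]
    rw [Finset.sum_const, Finset.card_univ, Nat.cast_smul_eq_nsmul]
  have hcard : (Fintype.card H : ℂ) ≠ 0 := by
    exact_mod_cast Fintype.card_ne_zero
  let Q : Module.End ℂ V := (Fintype.card H : ℂ)⁻¹ • P
  have hQ : IsIdempotentElem Q := by
    change Q * Q = Q
    simp only [Q, smul_mul_assoc, mul_smul_comm, hPP, smul_smul]
    congr 1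
    field_simp
  have htr : LinearMap.trace ℂ V Q = 0 := by
    simp only [Q, map_smul, hPdef, map_sum, h0, smul_zero]
  have hQ0 : Q = 0 := (LinearMap.IsIdempotentElem.trace_eq_zero_iff hQ).mp htr
  have : P = (Fintype.card H : ℂ) • Q := by
    simp only [Q, smul_smul]
    rw [mul_inv_cancel₀ hcard, one_smul]
  rw [this, hQ0, smul_zero]

end Rep

section Main

variable {G : Type u} [Group G] [Finite G] {p : ℕ} {x : G}

/-- For `g` normalizing `⟨x⟩` but outside it, all elements of the coset `g⟨x⟩` are conjugate to `g`. -/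
theorem sum_coset (h : Hyp p x) {g : G} (hgN : g ∈ normalizer (zpowers x : Set G))
    (hgH : g ∉ zpowers x) {f : G → ℂ} (hf : IsClassFunction G f) [Fintype (zpowers x)] :
    ∑ a : zpowers x, f (g * a) = (Fintype.card (zpowers x) : ℂ) * f g := by
  classical
  have hconj : ∀ a : zpowers x, g⁻¹ * (a : G) * g * (a : G)⁻¹ ∈ zpowers x := by
    intro a
    have h1 : g⁻¹ * (a : G) * g ∈ zpowers x := by
      have := (mem_normalizer_iff.mp hgN (a : G)).mp a.2
      have h2 := (mem_normalizer_iff.mp (inv_mem hgN) (a : G)).mp a.2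
      simpa using h2
    exact mul_mem h1 (inv_mem a.2)
  let φ : zpowers x → zpowers x := fun a => ⟨g⁻¹ * (a : G) * g * (a : G)⁻¹, hconj a⟩
  have hcomm : ∀ a b : G, a ∈ zpowers x → b ∈ zpowers x → a * b = b * a := by
    intro a b ha hb
    obtain ⟨i, rfl⟩ := mem_zpowers_iff.mp ha
    obtain ⟨j, rfl⟩ := mem_zpowers_iff.mp hb
    exact (Commute.refl x).zpow_zpow i j
  have hinj : Function.Injective φ := by
    intro a b hab
    have hab' : g⁻¹ * (a : G) * g * (a : G)⁻¹ = g⁻¹ * (b : G) * g * (b : G)⁻¹ :=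
      congrArg Subtype.val hab
    by_contra hne
    set w : G := (b : G)⁻¹ * a with hw
    have hwm : w ∈ zpowers x := mul_mem (inv_mem b.2) a.2
    have hw1 : w ≠ 1 := by
      intro h1
      apply hne
      apply Subtype.ext
      have : (b : G)⁻¹ * a = 1 := h1
      rw [inv_mul_eq_one] at this
      exact this.symm
    have hu1 : g⁻¹ * (a : G) * g ∈ zpowers x := by
      have h2 := (mem_normalizer_iff.mp (inv_mem hgN) (a : G)).mp a.2
      simpa using h2
    have hu2 : g⁻¹ * (b : G) * g ∈ zpowers x := by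
      have h2 := (mem_normalizer_iff.mp (inv_mem hgN) (b : G)).mp b.2
      simpa using h2
    have hcw : g⁻¹ * w * g = w := by
      have e1 : g⁻¹ * w * g = (g⁻¹ * (b : G) * g)⁻¹ * (g⁻¹ * (a : G) * g) := by
        rw [hw]; group
      rw [e1, hw]
      have e2 : (g⁻¹ * (a : G) * g) * (a : G)⁻¹ = (g⁻¹ * (b : G) * g) * (b : G)⁻¹ := hab'
      have e3 : (g⁻¹ * (a : G) * g) = (g⁻¹ * (b : G) * g) * (b : G)⁻¹ * a := by
        rw [← e2]; group
      rw [e3]
      have e4 := hcomm _ _ hu2 (inv_mem b.2)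
      group
    have hgc : g * w = w * g := by
      have : g * (g⁻¹ * w * g) = g * w := by rw [hcw]
      rw [← this]; group
    have hY : Hyp p w := h.of_mem hwm hw1
    have hgz : g ∈ zpowers w := hY.mem_zpowers_of_commute hgc
    rw [h.zpowers_eq_of_mem hwm hw1] at hgz
    exact hgH hgz
  have hbij : Function.Bijective φ := Finite.injective_iff_bijective.mp hinj
  rw [← Function.Bijective.sum_comp hbij]
  have : ∀ a : zpowers x, f (g * (φ a : G)) = f g := by
    intro a
    have e : g * (φ a : G) = (a : G) * g * (a : G)⁻¹ := by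
      simp only [φ]; group
    rw [e, hf]
  simp only [this, Finset.sum_const, Finset.card_univ, nsmul_eq_mul]

/-- the existence of a generator of `N/⟨x⟩` of order `e`. -/
theorem exists_generator (h : Hyp p x) (he : eIdx x ≠ 1) :
    ∃ y : G, y ∈ normalizer (zpowers x : Set G) ∧ y ^ eIdx x = 1 ∧
      ∀ k, 0 < k → k < eIdx x → y ^ k ∉ zpowers x := by
  classical
  let H : Subgroup G := zpowers x
  haveI : Fact p.Prime := ⟨h.hp⟩
  haveI hcy : IsCyclic (MulAut H) := by
    have e := IsCyclic.mulAutMulEquiv H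
    have hc : Nat.card H = p := h.card_zpowers
    rw [hc] at e
    exact isCyclic_of_surjective e.symm e.symm.surjective
  let φ := H.normalizerMonoidHom
  have hker : φ.ker = (zpowers x).subgroupOf (normalizer (zpowers x : Set G)) := by
    rw [normalizerMonoidHom_ker]
    congr 1
    ext g
    rw [mem_centralizer_iff]
    constructor
    · intro hg
      apply h.mem_zpowers_of_commute
      exact (hg x (mem_zpowers x)).symm
    · intro hg a ha
      obtain ⟨k, rfl⟩ := mem_zpowers_iff.mp ha
      have hc : Commute g x := commute_of_mem hg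
      exact (hc.zpow_right k).symm.eq
  haveI : IsCyclic φ.range := inferInstance
  obtain ⟨z, hz⟩ := IsCyclic.exists_generator (α := φ.range)
  obtain ⟨⟨y, hyN⟩, hyz⟩ := z.2
  have hord : orderOf (φ ⟨y, hyN⟩) = eIdx x := by
    have h1 : orderOf z = Nat.card φ.range := orderOf_eq_card_of_forall_mem_zpowers hz
    have h2 : orderOf (φ ⟨y, hyN⟩) = orderOf z := by
      rw [hyz]
      exact (Subgroup.orderOf_coe z)
    rw [h2, h1, eIdx, ← hker, Subgroup.index_ker]
  have hmem : ∀ k : ℕ, y ^ k ∈ zpowers x ↔ eIdx x ∣ k := by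
    intro k
    rw [← hord, orderOf_dvd_iff_pow_eq_one, ← map_pow, ← MonoidHom.mem_ker, hker,
      Subgroup.mem_subgroupOf]
    simp
  refine ⟨y, hyN, ?_, ?_⟩
  · by_contra hne
    have h1 : y ^ eIdx x ∈ zpowers x := (hmem _).mpr dvd_rfl
    have hY := h.of_mem h1 hne
    have h2 : y ∈ zpowers (y ^ eIdx x) := by
      apply hY.mem_zpowers_of_commute
      exact ((Commute.refl y).pow_right _).eq
    rw [h.zpowers_eq_of_mem h1 hne] at h2
    have h3 := (hmem 1).mp (by simpa using h2)
    exact he (Nat.dvd_one.mp h3)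
  · intro k hk hk2 hm
    have := Nat.le_of_dvd hk ((hmem k).mp hm)
    omega


/-- The non-identity elements of `⟨x⟩`. -/
def AA (x : G) : Set G := (zpowers x : Set G) \ {1}

/-- The classes of elements of order `p`. -/
abbrev Cls (G : Type u) [Group G] (p : ℕ) := {C : ConjClasses G // ∃ g ∈ C.carrier, orderOf g = p}

theorem AA_order (h : Hyp p x) (a : AA x) : orderOf (a : G) = p := by
  rw [← Nat.card_zpowers, h.zpowers_eq_of_mem a.2.1 a.2.2, h.card_zpowers]

/-- The map sending a non-identity element of `⟨x⟩` to its class. -/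
noncomputable def Phi (h : Hyp p x) (a : AA x) : Cls G p :=
  ⟨ConjClasses.mk (a : G), (a : G), ConjClasses.mem_carrier_mk, AA_order h a⟩

theorem Phi_surj (h : Hyp p x) : Function.Surjective (Phi h) := by
  rintro ⟨C, g, hg, hgo⟩
  obtain ⟨y, hy⟩ := h.exists_conj_mem hgo
  have hne : y * g * y⁻¹ ≠ 1 := by
    intro e
    have h1 : g = 1 := by
      have := congrArg (fun t => y⁻¹ * t * y) e
      simpa [mul_assoc] using this
    rw [h1, orderOf_one] at hgo
    exact h.hp.one_lt.ne hgo
  refine ⟨⟨y * g * y⁻¹, hy, hne⟩, ?_⟩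
  apply Subtype.ext
  change ConjClasses.mk (y * g * y⁻¹) = C
  rw [← ConjClasses.mem_carrier_iff_mk_eq.mp hg]
  rw [ConjClasses.mk_eq_mk_iff_isConj]
  exact (isConj_iff.mpr ⟨y, rfl⟩).symm

theorem Phi_fib (h : Hyp p x) (C : Cls G p) :
    Nat.card {a : AA x // Phi h a = C} = eIdx x := by
  classical
  have hAne : ∀ a : AA x, (a : G) ∈ zpowers x ∧ (a : G) ≠ 1 := fun a => ⟨a.2.1, a.2.2⟩
  obtain ⟨g₀, hg₀⟩ := Phi_surj h C
  have hg₀m := (hAne g₀).1
  have hg₀1 := (hAne g₀).2
  have hY : Hyp p (g₀ : G) := h.of_mem hg₀m hg₀1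
  let ψ : (normalizer (zpowers x : Set G)) → {a : AA x // Phi h a = C} := fun n =>
    ⟨⟨(n : G) * g₀ * (n : G)⁻¹, (mem_normalizer_iff.mp n.2 g₀).mp hg₀m, by
      intro e
      apply hg₀1
      have := congrArg (fun t => (n : G)⁻¹ * t * n) e
      simpa [mul_assoc] using this⟩, by
      rw [← hg₀]
      apply Subtype.ext
      change ConjClasses.mk ((n : G) * g₀ * (n : G)⁻¹) = ConjClasses.mk (g₀ : G)
      rw [ConjClasses.mk_eq_mk_iff_isConj]
      exact (isConj_iff.mpr ⟨(n : G), rfl⟩).symm⟩
  apply card_eq_index _ ψ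
  · rintro ⟨a, ha⟩
    have hc : ConjClasses.mk (g₀ : G) = ConjClasses.mk (a : G) := by
      have := hg₀.trans ha.symm
      exact congrArg Subtype.val this
    rw [ConjClasses.mk_eq_mk_iff_isConj] at hc
    obtain ⟨y, hy⟩ := isConj_iff.mp hc
    have hyN := mem_normalizer_of_conj_eq h hg₀m hg₀1 (hAne a).1 (hAne a).2 hy
    refine ⟨⟨y, hyN⟩, ?_⟩
    apply Subtype.ext
    apply Subtype.ext
    exact hy
  · intro n n'
    rw [Subgroup.mem_subgroupOf]
    constructor
    · intro hn
      have e : (n : G) * g₀ * (n : G)⁻¹ = (n' : G) * g₀ * (n' : G)⁻¹ :=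
        congrArg (fun z : {a : AA x // Phi h a = C} => ((z.1 : AA x) : G)) hn
      have hmem : (n : G)⁻¹ * n' ∈ zpowers (g₀ : G) := by
        apply hY.mem_zpowers_of_commute
        calc (n : G)⁻¹ * n' * g₀ = (n : G)⁻¹ * ((n' : G) * g₀ * (n' : G)⁻¹) * n' := by group
          _ = (n : G)⁻¹ * ((n : G) * g₀ * (n : G)⁻¹) * n' := by rw [e]
          _ = g₀ * ((n : G)⁻¹ * n') := by group
      exact (h.zpowers_eq_of_mem hg₀m hg₀1).le hmem
    · intro hn
      have hn0 : (n : G)⁻¹ * n' ∈ zpowers (g₀ : G) := by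
        rw [h.zpowers_eq_of_mem hg₀m hg₀1]
        exact hn
      have hn' : ((n : G)⁻¹ * n') * g₀ = g₀ * ((n : G)⁻¹ * n') := commute_of_mem hn0
      apply Subtype.ext
      apply Subtype.ext
      change (n : G) * g₀ * (n : G)⁻¹ = (n' : G) * g₀ * (n' : G)⁻¹
      have hn2 : (n : G)⁻¹ * n' * g₀ = g₀ * ((n : G)⁻¹ * n') := hn'
      calc (n : G) * g₀ * (n : G)⁻¹ = (n : G) * (g₀ * ((n : G)⁻¹ * n')) * (n' : G)⁻¹ := by group
        _ = (n : G) * ((n : G)⁻¹ * n' * g₀) * (n' : G)⁻¹ := by rw [hn2]
        _ = (n' : G) * g₀ * (n' : G)⁻¹ := by group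

theorem eq_of_isConj {f : G → ℂ} (hf : IsClassFunction G f) {a b : G} (hab : IsConj a b) :
    f a = f b := by
  obtain ⟨c, hc⟩ := isConj_iff.mp hab
  rw [← hc, hf]

/-- Representatives of classes. -/
noncomputable def rep (C : Cls G p) : G := Quotient.out C.1

theorem mk_rep (C : Cls G p) : ConjClasses.mk (rep C) = C.1 := Quotient.out_eq C.1

theorem rep_order (C : Cls G p) : orderOf (rep C) = p := by
  obtain ⟨g, hg, hgo⟩ := C.2
  have h1 : ConjClasses.mk g = C.1 := ConjClasses.mem_carrier_iff_mk_eq.mp hg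
  have h2 : ConjClasses.mk (rep C) = ConjClasses.mk g := by rw [mk_rep, h1]
  rw [ConjClasses.mk_eq_mk_iff_isConj] at h2
  obtain ⟨c, hc⟩ := isConj_iff.mp h2
  have h3 := (MulAut.conj c).orderOf_eq (rep C)
  rw [MulAut.conj_apply, hc, hgo] at h3
  exact h3.symm

noncomputable instance : Fintype (Cls G p) := Fintype.ofFinite _

/-- The sum over non-identity elements in terms of class representatives. -/
theorem sum_AA (h : Hyp p x) {f : G → ℂ} (hf : IsClassFunction G f) [Fintype (AA x)] :
    ∑ a : AA x, f a = (eIdx x : ℂ) * ∑ C : Cls G p, f (rep C) := by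
  classical
  rw [← Finset.sum_fiberwise Finset.univ (Phi h) (fun a : AA x => f a), Finset.mul_sum]
  refine Finset.sum_congr rfl fun C _ => ?_
  have h1 : ∀ a ∈ Finset.univ.filter (fun a : AA x => Phi h a = C), f a = f (rep C) := by
    intro a ha
    have ha' : Phi h a = C := (Finset.mem_filter.mp ha).2
    apply eq_of_isConj hf
    rw [← ConjClasses.mk_eq_mk_iff_isConj, mk_rep]
    exact congrArg Subtype.val ha'
  rw [Finset.sum_congr rfl h1, Finset.sum_const, nsmul_eq_mul]
  congr 2
  rw [← Phi_fib h C, Nat.card_eq_fintype_card, Fintype.card_subtype]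

theorem sum_zpowers_eq (f : G → ℂ) [Fintype (zpowers x)] [Fintype (AA x)] :
    ∑ a : zpowers x, f a = f 1 + ∑ a : AA x, f a := by
  classical
  haveI := Fintype.ofFinite G
  have h1 : ∑ a : zpowers x, f a = ∑ g ∈ Finset.univ.filter (· ∈ zpowers x), f g :=
    (Finset.sum_subtype _ (by simp) f).symm
  have h2 : ∑ a : AA x, f a = ∑ g ∈ Finset.univ.filter (· ∈ AA x), f g := by
    exact (Finset.sum_subtype _ (by simp) f).symm
  have h3 : Finset.univ.filter (· ∈ zpowers x) = insert (1 : G) (Finset.univ.filter (· ∈ AA x)) := by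
    ext g
    simp only [Finset.mem_filter, Finset.mem_univ, true_and, Finset.mem_insert, AA, Set.mem_diff,
      SetLike.mem_coe, Set.mem_singleton_iff]
    constructor
    · intro hg
      by_cases hg1 : g = 1
      · exact Or.inl hg1
      · exact Or.inr ⟨hg, hg1⟩
    · rintro (rfl | ⟨hg, -⟩)
      · exact one_mem _
      · exact hg
  rw [h1, h2, h3, Finset.sum_insert]
  simp [AA]

/-- Centralizers of elements of order `p`. -/
theorem card_centralizer_rep (h : Hyp p x) {g : G} (hg : orderOf g = p) :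
    Nat.card (centralizer ({g} : Set G)) = p := by
  obtain ⟨y, hy⟩ := h.exists_conj_mem hg
  have hne : y * g * y⁻¹ ≠ 1 := by
    intro e
    have h1 : g = 1 := by
      have := congrArg (fun t => y⁻¹ * t * y) e
      simpa [mul_assoc] using this
    rw [h1, orderOf_one] at hg
    exact h.hp.one_lt.ne hg
  have h1 := (h.of_mem hy hne).conj y⁻¹
  have h2 : y⁻¹ * (y * g * y⁻¹) * y⁻¹⁻¹ = g := by group
  rw [h2] at h1
  rw [h1.hC]
  exact h1.card_zpowers

/-- Column orthogonality applied to the sum over representatives. -/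
theorem sum_irr_F (h : Hyp p x) :
    ∑ χ : IrrCharacter G, (∑ C : Cls G p, (χ : G → ℂ) (rep C)) * conj (∑ C : Cls G p, (χ : G → ℂ) (rep C))
      = (tCount G p : ℂ) * p := by
  classical
  haveI := Fintype.ofFinite G
  simp_rw [map_sum, Finset.sum_mul_sum]
  rw [Finset.sum_comm]
  have h1 : ∀ C : Cls G p, ∑ χ : IrrCharacter G, ∑ D : Cls G p, (χ : G → ℂ) (rep C) * conj ((χ : G → ℂ) (rep D))
      = p := by
    intro C
    rw [Finset.sum_comm]
    simp_rw [Cfsg.Agent.Lib.CharInd.sum_irr_mul_conj]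
    rw [Finset.sum_eq_single C]
    · rw [if_pos (IsConj.refl _), card_centralizer_rep h (rep_order C)]
    · intro D _ hD
      rw [if_neg]
      intro hc
      apply hD
      apply Subtype.ext
      rw [← ConjClasses.mk_eq_mk_iff_isConj, mk_rep, mk_rep] at hc
      exact hc.symm
    · intro hc; exact absurd (Finset.mem_univ _) hc
  simp_rw [h1]
  rw [Finset.sum_const, Finset.card_univ, nsmul_eq_mul, tCount]
  simp [Nat.card_eq_fintype_card]


theorem pow_index_eq_one {M : Type*} [CommMonoid M] (δ : G →* M) (y : G) :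
    δ y ^ (commutator G).index = 1 := by
  have h1 : y ^ (commutator G).index ∈ commutator G := Subgroup.pow_index_mem _ y
  have hle : commutator G ≤ δ.ker := by
    rw [commutator_def, Subgroup.commutator_le]
    intro g₁ _ g₂ _
    rw [MonoidHom.mem_ker, commutatorElement_def, map_mul, map_mul, map_mul]
    have e1 : δ g₁ * δ g₁⁻¹ = 1 := by rw [← map_mul]; simp
    have e2 : δ g₂ * δ g₂⁻¹ = 1 := by rw [← map_mul]; simp
    calc δ g₁ * δ g₂ * δ g₁⁻¹ * δ g₂⁻¹ = (δ g₁ * δ g₁⁻¹) * (δ g₂ * δ g₂⁻¹) := by ac_rfl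
      _ = 1 := by rw [e1, e2, one_mul]
  have h2 := hle h1
  rwa [MonoidHom.mem_ker, map_pow] at h2

theorem even_index_two (h : Hyp 2 x) : Even (commutator G).index := by
  classical
  haveI := Fintype.ofFinite G
  let δ : G →* ℤˣ := (Equiv.Perm.sign).comp (MulAction.toPermHom G G)
  have hδ : δ x = -1 := by
    have hσ1 : (MulAction.toPermHom G G x) ≠ 1 := by
      intro h1
      have := congrArg (fun s : Equiv.Perm G => s 1) h1
      simp at this
      exact h.x_ne_one this
    have hord : orderOf (MulAction.toPermHom G G x) = 2 := by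
      apply orderOf_eq_prime
      · rw [← map_pow, ← h.hx, pow_orderOf_eq_one, map_one]
      · exact hσ1
    obtain ⟨n, hn⟩ := Equiv.Perm.cycleType_prime_order (σ := MulAction.toPermHom G G x)
      (by rw [hord]; exact Nat.prime_two)
    have hsupp : (MulAction.toPermHom G G x).support = Finset.univ := by
      ext g
      simp only [Equiv.Perm.mem_support, Finset.mem_univ, iff_true]
      intro h1
      have h2 : x * g = g := h1
      exact h.x_ne_one (by simpa using h2)
    have hsum := Equiv.Perm.sum_cycleType (MulAction.toPermHom G G x)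
    rw [hn, hsupp, hord, Multiset.sum_replicate, Finset.card_univ, smul_eq_mul] at hsum
    have hcard : Nat.card G = 2 * (zpowers x).index := by
      rw [← Subgroup.card_mul_index (zpowers x), h.card_zpowers]
    rw [Nat.card_eq_fintype_card] at hcard
    have hidx : n + 1 = (zpowers x).index := by omega
    have hodd : ¬ 2 ∣ (n + 1) := by
      rw [hidx]; exact h.not_dvd_index
    change Equiv.Perm.sign (MulAction.toPermHom G G x) = -1
    rw [Equiv.Perm.sign_of_cycleType, hn, hord, Multiset.sum_replicate, Multiset.card_replicate,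
      smul_eq_mul]
    apply Odd.neg_one_pow
    rw [Nat.odd_iff]
    omega
  have h1 := pow_index_eq_one δ x
  rw [hδ] at h1
  exact (neg_one_pow_eq_one_iff_even (by decide)).mp h1

/-- The key vanishing. -/
theorem sum_zero (h : Hyp p x) {χ : G → ℂ} (hχ : IsIrrCharacter G χ)
    (hdeg : χ 1 = ((p - 1 : ℕ) : ℂ)) (he : 2 ≤ eIdx x) [Fintype (zpowers x)] :
    ∑ a : zpowers x, χ a = 0 := by
  classical
  haveI := Fintype.ofFinite G
  haveI : Fintype (AA x) := Fintype.ofFinite _
  have hcl : IsClassFunction G χ :=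
    Cfsg.Agent.Lib.CharBasic.isClassFunction_of_isCharacter
      (Cfsg.Agent.Lib.CharBasic.IsIrrCharacter.isCharacter hχ)
  set e := eIdx x with he_def
  set t := tCount G p with ht_def
  have hte : t * e = p - 1 := tCount_mul_eIdx h
  have hp2 := h.hp.two_le
  set F : ℂ := ∑ C : Cls G p, χ (rep C) with hF
  -- (1)
  have h1 : ∑ a : zpowers x, χ a = ((p - 1 : ℕ) : ℂ) + (e : ℂ) * F := by
    rw [sum_zpowers_eq, hdeg, sum_AA h hcl]
  -- (2)
  obtain ⟨m, hm⟩ : ∃ m : ℕ, ∑ a : zpowers x, χ a = (p : ℂ) * m := by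
    obtain ⟨m, hm⟩ := Cfsg.Agent.Lib.CharBasic.classInner_char_irr
      (Cfsg.Agent.Lib.CharBasic.isCharacter_restrict (zpowers x)
        (Cfsg.Agent.Lib.CharBasic.IsIrrCharacter.isCharacter hχ))
      (Cfsg.Agent.Lib.CharBasic.isIrrCharacter_one (G := zpowers x))
    refine ⟨m, ?_⟩
    rw [classInner, h.card_zpowers] at hm
    have hpne : (p : ℂ) ≠ 0 := by exact_mod_cast h.hp.ne_zero
    simp only [map_one, mul_one] at hm
    rw [← hm]
    field_simp
  by_contra hne
  have hm0 : m ≠ 0 := by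
    rintro rfl
    apply hne
    rw [hm]; simp
  have hFint : IsIntegral ℤ F := by
    obtain ⟨n, ρ, -, hρ⟩ := hχ
    apply IsIntegral.sum
    intro C _
    rw [← hρ]
    exact Cfsg.Agent.Lib.CharValues.isIntegral_character ρ _
  have hle1 : p - 1 ≤ p * m := by
    have : p * 1 ≤ p * m := Nat.mul_le_mul_left p (Nat.pos_of_ne_zero hm0)
    omega
  set s : ℕ := p * m - (p - 1) with hs
  have hs_add : s + (p - 1) = p * m := Nat.sub_add_cancel hle1
  have hsF : (e : ℂ) * F = (s : ℂ) := by
    have h2 : ((s + (p - 1) : ℕ) : ℂ) = ((p * m : ℕ) : ℂ) := by rw [hs_add]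
    push_cast at h2
    have h3 : ((p - 1 : ℕ) : ℂ) + (e : ℂ) * F = (p : ℂ) * m := by rw [← h1, hm]
    linear_combination h3 - h2
  have he0 : (e : ℂ) ≠ 0 := by
    have : e ≠ 0 := by omega
    exact_mod_cast this
  have hFs : F = (s : ℂ) / (e : ℂ) := by
    rw [← hsF]; field_simp
  have hdvd : e ∣ s := by
    apply Cfsg.Agent.Lib.CharIntegrality.dvd_of_isIntegral_div (by omega)
    rw [← hFs]; exact hFint
  have hdvd2 : e ∣ p * m := by
    rw [← hs_add, ← hte]
    exact dvd_add hdvd (dvd_mul_left _ _)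
  have hcop : Nat.Coprime e p := by
    rw [Nat.coprime_comm, Nat.Prime.coprime_iff_not_dvd h.hp]
    intro hd
    have h5 : e ∣ p - 1 := by rw [← hte]; exact dvd_mul_left _ _
    have h6 : e ≤ p - 1 := Nat.le_of_dvd (by omega) h5
    have h7 := Nat.le_of_dvd (by omega) hd
    omega
  have hem : e ∣ m := hcop.dvd_of_dvd_mul_left hdvd2
  have hele : e ≤ m := Nat.le_of_dvd (Nat.pos_of_ne_zero hm0) hem
  -- the norm bound
  have hbound : ((t : ℝ)) ^ 2 + Complex.normSq F ≤ (t : ℝ) * p := by
    let Gf : IrrCharacter G → ℝ := fun c => Complex.normSq (∑ C : Cls G p, (c : G → ℂ) (rep C))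
    have hsum : ∑ c, Gf c = (t : ℝ) * p := by
      have h2 := sum_irr_F h
      apply Complex.ofReal_injective
      push_cast
      rw [← h2]
      refine Finset.sum_congr rfl fun c _ => ?_
      rw [Complex.mul_conj]
    let triv : IrrCharacter G := ⟨fun _ => 1, Cfsg.Agent.Lib.CharBasic.isIrrCharacter_one⟩
    let χ' : IrrCharacter G := ⟨χ, hχ⟩
    have hne' : triv ≠ χ' := by
      intro he'
      have h2 : (1 : ℂ) = χ 1 := congrFun (congrArg Subtype.val he') 1
      rw [hdeg] at h2
      have h3 : p - 1 = 1 := by exact_mod_cast h2.symm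
      rw [← hte] at h3
      have h4 : 0 < t := by
        rcases Nat.eq_zero_or_pos t with h0 | h0
        · rw [h0] at h3; omega
        · exact h0
      have h5 : 2 ≤ t * e := by nlinarith
      omega
    have hle := Finset.sum_le_sum_of_subset_of_nonneg (f := Gf)
      (Finset.subset_univ ({triv, χ'} : Finset (IrrCharacter G)))
      (fun i _ _ => Complex.normSq_nonneg _)
    rw [Finset.sum_pair hne', hsum] at hle
    have h2 : Gf triv = (t : ℝ) ^ 2 := by
      have : (∑ C : Cls G p, (triv : G → ℂ) (rep C)) = (t : ℂ) := by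
        simp [triv, ht_def, tCount, Nat.card_eq_fintype_card]
      simp only [Gf]
      rw [this, Complex.normSq_natCast]
      ring
    have h3 : Gf χ' = Complex.normSq F := rfl
    rw [h2, h3] at hle
    exact hle
  -- arithmetic
  have hFr : Complex.normSq F = ((s : ℝ) / (e : ℝ)) ^ 2 := by
    rw [hFs]
    have : ((s : ℂ) / (e : ℂ)) = (((s : ℝ) / (e : ℝ) : ℝ) : ℂ) := by push_cast; rfl
    rw [this, Complex.normSq_ofReal]
    ring
  rw [hFr] at hbound
  have hpq : p = t * e + 1 := by omega
  have he' : (2 : ℝ) ≤ (e : ℝ) := by exact_mod_cast he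
  have ht0 : (0 : ℝ) ≤ (t : ℝ) := Nat.cast_nonneg _
  have hepos : (0 : ℝ) < (e : ℝ) := by linarith
  have hsge : (e : ℝ) * ((p : ℝ) - t) ≤ (s : ℝ) := by
    have h2 : ((s : ℝ)) + ((t : ℝ) * e) = (p : ℝ) * m := by
      have := hs_add
      rw [← hte] at this
      exact_mod_cast this
    have h3 : (e : ℝ) ≤ (m : ℝ) := by exact_mod_cast hele
    have hppos : (0 : ℝ) ≤ (p : ℝ) := Nat.cast_nonneg _
    nlinarith
  have hdiv : (p : ℝ) - t ≤ (s : ℝ) / (e : ℝ) := by
    rw [le_div_iff₀ hepos]
    linarith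
  have hpr : (p : ℝ) = (t : ℝ) * e + 1 := by exact_mod_cast hpq
  have hqt : (t : ℝ) + 1 ≤ (p : ℝ) - t := by
    rw [hpr]
    nlinarith
  have hsq : ((p : ℝ) - t) ^ 2 ≤ ((s : ℝ) / (e : ℝ)) ^ 2 := by
    apply pow_le_pow_left₀ _ hdiv
    linarith
  nlinarith

/-- Vanishing of `χ` on `N \ ⟨x⟩`. -/
theorem char_vanish (h : Hyp p x) {n : ℕ} (ρ : Representation ℂ G (Fin n → ℂ))
    (hsum : ∀ [Fintype (zpowers x)], ∑ a : zpowers x, ρ.character a = 0) {g : G}
    (hgN : g ∈ normalizer (zpowers x : Set G)) (hgH : g ∉ zpowers x) : ρ.character g = 0 := by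
  classical
  haveI : Fintype (zpowers x) := Fintype.ofFinite _
  have hcl : IsClassFunction G ρ.character :=
    Cfsg.Agent.Lib.CharBasic.isClassFunction_of_isCharacter ⟨n, ρ, rfl⟩
  have h1 := sum_coset h hgN hgH hcl
  have h2 : ∑ a : zpowers x, ρ (a : G) = 0 := sum_rep_eq_zero ρ (zpowers x) hsum
  have h3 : ∑ a : zpowers x, ρ.character (g * a) = 0 := by
    have h4 : ∀ a : zpowers x, ρ.character (g * a) = LinearMap.trace ℂ _ (ρ g * ρ (a : G)) := by
      intro a
      rw [← map_mul]; rfl
    simp_rw [h4]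
    rw [← map_sum, ← Finset.mul_sum, h2, mul_zero, map_zero]
  rw [h3] at h1
  have hne : (Fintype.card (zpowers x) : ℂ) ≠ 0 := by
    exact_mod_cast Fintype.card_ne_zero
  exact ((mul_eq_zero.mp h1.symm).resolve_left hne)

end Main

/-- Let the finite group G contain an element x of prime order p with C_G(x) = ⟨x⟩, and let t be the number of conjugacy classes of elements of order p. If G has an irreducible character of degree p − 1, then t is even or the commutator subgroup has even index. -/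
theorem result {G : Type*} [Group G] [Finite G] (p : ℕ) (hp : p.Prime) (x : G) (hx : orderOf x = p) (hC : Subgroup.centralizer ({x} : Set G) = Subgroup.zpowers x) (t : ℕ) (ht : Nat.card {C : ConjClasses G // ∃ g ∈ C.carrier, orderOf g = p} = t) (χ : Cfsg.IrrCharacter G) (hχ : Cfsg.charDegree (χ : G → ℂ) + 1 = p) : Even t ∨ Even (commutator G).index := by
  classical
  have h : Hyp p x := ⟨hp, hx, hC⟩
  by_cases hp2 : p = 2
  · subst hp2
    exact Or.inr (even_index_two h)
  by_cases ht2 : Even t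
  · exact Or.inl ht2
  right
  have hte : t * eIdx x = p - 1 := by rw [← ht]; exact tCount_mul_eIdx h
  have hpodd : Odd p := hp.odd_of_ne_two hp2
  have hp2' := hp.two_le
  have hp3 : 3 ≤ p := by omega
  have heven : Even (eIdx x) := by
    have h1 : Even (t * eIdx x) := by
      rw [hte]
      obtain ⟨k, hk⟩ := hpodd
      exact ⟨k, by omega⟩
    rcases Nat.even_mul.mp h1 with h2 | h2
    · exact absurd h2 ht2
    · exact h2
  have he0 : eIdx x ≠ 0 := by
    intro h0
    rw [h0, mul_zero] at hte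
    omega
  have he2 : 2 ≤ eIdx x := by
    obtain ⟨k, hk⟩ := heven
    omega
  obtain ⟨y, hyN, hye, hyk⟩ := exists_generator h (by omega)
  obtain ⟨n, ρ, hρ, hρχ⟩ := χ.2
  have hχ1 : (χ : G → ℂ) 1 = (n : ℂ) := by
    rw [← hρχ]
    exact Cfsg.Agent.Lib.CharBasic.char_one_eq_rep ρ
  have hn : n = p - 1 := by
    have h1 : Cfsg.charDegree (χ : G → ℂ) = n := by
      rw [Cfsg.charDegree, hχ1]
      simp
    omega
  have hsum0 : ∀ [Fintype (zpowers x)], ∑ a : zpowers x, ρ.character a = 0 := by
    intro _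
    rw [hρχ]
    apply sum_zero h χ.2 _ he2
    rw [hχ1, hn]
  have hdet : LinearMap.det (ρ y) = (-1) ^ ((eIdx x - 1) * t) := by
    apply det_eq_of_trace_zero ρ y (eIdx x) t (by omega) hye
    · rw [finrank_fin_fun, hn, ← hte, mul_comm]
    · intro k hk hk2
      have hm : y ^ k ∈ normalizer (zpowers x : Set G) := pow_mem hyN k
      exact char_vanish h ρ hsum0 hm (hyk k hk hk2)
  have hodd : Odd ((eIdx x - 1) * t) := by
    rw [Nat.odd_mul]
    refine ⟨?_, Nat.not_even_iff_odd.mp ht2⟩
    obtain ⟨k, hk⟩ := heven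
    exact ⟨k - 1, by omega⟩
  rw [hodd.neg_one_pow] at hdet
  have h1 := pow_index_eq_one ((LinearMap.det).comp ρ) y
  rw [MonoidHom.comp_apply, hdet] at h1
  exact (neg_one_pow_eq_one_iff_even (by norm_num)).mp h1

end Cfsg.Agent.S4508
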