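import Mathlib
import Cfsg.Statements.S4510
import Cfsg.Agent.Lib.DefectCount

set_option autoImplicit false
set_option linter.style.haveILetI false
open Cfsg

namespace Cfsg.Agent.S4510

open Cfsg.Agent.Lib.CharBasic Cfsg.Agent.Lib.BlockLocal Cfsg.Agent.Lib.BlockIdem
open Cfsg.Agent.Lib.DefectCount

/-- Let G be a finite group, p a prime, M a maximal ideal of the algebraic integers containing p, and call the defect of a conjugacy class the exponent of p in the order of the centralizer of its elements. Two irreducible characters lying in p-blocks of defect exactly d lie in the same block if and only if their central characters (class size times χ(x)/χ(1)) agree modulo the local ideal at M at every p-regular element x whose class has defect exactly d. -/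
theorem result {G : Type*} [Group G] [Finite G] (p : ℕ) [Fact p.Prime] (M : Ideal Cfsg.AlgInt) (hM : Cfsg.IsPModular p M) (d : ℕ) (χ ψ : Cfsg.IrrCharacter G) (hχ : Cfsg.blockDefect p (Cfsg.blockOf M (χ : G → ℂ)) = d) (hψ : Cfsg.blockDefect p (Cfsg.blockOf M (ψ : G → ℂ)) = d) : Cfsg.SameBlock M (χ : G → ℂ) (ψ : G → ℂ) ↔ ∀ x : G, ¬ p ∣ orderOf x → (Nat.card (Subgroup.centralizer ({x} : Set G))).factorization p = d → Cfsg.MemLocalIdeal M (Cfsg.centralChar (χ : G → ℂ) x - Cfsg.centralChar (ψ : G → ℂ) x) := by
  classical
  haveI : Fintype G := Fintype.ofFinite G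
  haveI := hM.2.1.isPrime
  letI : Fintype (ConjClasses G) := Fintype.ofFinite _
  constructor
  · intro h x _ _
    exact h x
  · intro hagree
    by_contra hne
    set B := blockOf M (χ : G → ℂ) with hB
    set B' := blockOf M (ψ : G → ℂ) with hB'
    have hBb : IsPBlock M B := ⟨χ, rfl⟩
    have hBb' : IsPBlock M B' := ⟨ψ, rfl⟩
    have hχB : χ ∈ B := mem_blockOf_self χ
    have hψB' : ψ ∈ B' := mem_blockOf_self ψ
    have hψB : ψ ∉ B := hne
    have h1 := sum_classes B χ
    have h2 := sum_classes B ψ
    rw [Cfsg.Agent.Lib.BlockOrtho.indB_of_mem hχB] at h1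
    rw [Cfsg.Agent.Lib.BlockOrtho.indB_of_not_mem hψB] at h2
    apply not_memLocalIdeal_one (M := M)
    have h3 : (1 : ℂ) = ∑ K : ConjClasses G, (blockCoeff B (Quotient.out K) *
        centralChar (χ : G → ℂ) (Quotient.out K) - blockCoeff B (Quotient.out K) *
        centralChar (ψ : G → ℂ) (Quotient.out K)) := by
      rw [Finset.sum_sub_distrib, h1, h2, sub_zero]
    rw [h3]
    refine memLocalIdeal_sum _ _ fun K _ => ?_
    set x := Quotient.out K with hx
    by_cases hgood : ¬ p ∣ orderOf x ∧ cd p x = d
    · rw [← mul_sub]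
      exact memLocalIdeal_mul_left (memLocalRing_blockCoeff hBb x) (hagree x hgood.1 hgood.2)
    · exact memLocalIdeal_sub (term_mem hM hBb hBb hχ hχ hχB hgood) (term_mem hM hBb hBb' hχ hψ hψB' hgood)

end Cfsg.Agent.S4510
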