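import Mathlib
import Cfsg.Statements.S4511
import Cfsg.Agent.Lib.BlockSubsection
import Cfsg.Agent.Lib.BlkOrth
import Cfsg.Agent.Lib.BlockQ

set_option autoImplicit false
set_option linter.unusedSectionVars false
set_option linter.unusedVariables false
open Cfsg

namespace Cfsg.Agent.S4511

open Cfsg.Agent.Lib.CharBasic Cfsg.Agent.Lib.BlockLocal Cfsg.Agent.Lib.BlockIdem
open Cfsg.Agent.Lib.BrauerPair Cfsg.Agent.Lib.BlockSubsection Cfsg.Agent.Lib.BlkOrth
open scoped ComplexConjugate Matrix ComplexOrder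

section Linear

variable {n : Type*} [Fintype n]

/-- Orthogonality on spanning sets. -/
theorem dot_span_eq_zero {A C : Set (n → ℂ)} (h : ∀ a ∈ A, ∀ b ∈ C, a ⬝ᵥ star b = 0)
    {u v : n → ℂ} (hu : u ∈ Submodule.span ℂ A) (hv : v ∈ Submodule.span ℂ C) :
    u ⬝ᵥ star v = 0 := by
  induction hu using Submodule.span_induction with
  | mem a ha =>
    induction hv using Submodule.span_induction with
    | mem b hb => exact h a ha b hb
    | zero => simp
    | add x y _ _ hx hy => rw [star_add, dotProduct_add, hx, hy, add_zero]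
    | smul c x _ hx => rw [star_smul, dotProduct_smul, hx, smul_zero]
  | zero => simp
  | add x y _ _ hx hy => rw [add_dotProduct, hx, hy, add_zero]
  | smul c x _ hx => rw [smul_dotProduct, hx, smul_zero]

/-- Mutually orthogonal submodules: the dimension of the supremum is additive. -/
theorem finrank_iSup_of_orth {ι : Type*} [DecidableEq ι] (U : ι → Submodule ℂ (n → ℂ)) (s : Finset ι)
    (h : ∀ i ∈ s, ∀ j ∈ s, i ≠ j → ∀ u ∈ U i, ∀ v ∈ U j, u ⬝ᵥ star v = 0) :
    Module.finrank ℂ ↥(⨆ i ∈ s, U i) = ∑ i ∈ s, Module.finrank ℂ ↥(U i) := by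
  induction s using Finset.induction_on with
  | empty => simp
  | insert a s ha ih =>
    have h1 := ih (fun i hi j hj => h i (Finset.mem_insert_of_mem hi) j (Finset.mem_insert_of_mem hj))
    rw [Finset.sum_insert ha, ← h1, Finset.iSup_insert]
    have h2 : U a ⊓ (⨆ i ∈ s, U i) = ⊥ := by
      rw [eq_bot_iff]
      rintro v ⟨hv1, hv2⟩
      -- the orthogonal complement of `U a`
      let W : Submodule ℂ (n → ℂ) :=
        { carrier := {w | ∀ u ∈ U a, w ⬝ᵥ star u = 0}
          add_mem' := fun {x y} hx hy u hu => by rw [add_dotProduct, hx u hu, hy u hu, add_zero]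
          zero_mem' := fun u _ => by simp
          smul_mem' := fun c x hx u hu => by rw [smul_dotProduct, hx u hu, smul_zero] }
      have h3 : (⨆ i ∈ s, U i) ≤ W := by
        refine iSup₂_le fun i hi w hw u hu => ?_
        exact h i (Finset.mem_insert_of_mem hi) a (Finset.mem_insert_self _ _)
          (fun h4 => ha (h4 ▸ hi)) w hw u hu
      have h4 := h3 hv2 v hv1
      exact (Submodule.mem_bot ℂ).mpr (dotProduct_self_star_eq_zero.mp h4)
    have h3 := Submodule.finrank_sup_add_finrank_inf_eq (U a) (⨆ i ∈ s, U i)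
    rw [h2, finrank_bot, add_zero] at h3
    exact h3

end Linear


universe u

variable {G : Type u} [Group G] [Fintype G] {p : ℕ} {M : Ideal AlgInt}

section Rows

variable {z : G} {H : Subgroup G} [Fintype H]

/-- The matrix of values `ζ (z y)`. -/
noncomputable def matR (p : ℕ) (B : Set (IrrCharacter G)) (z : G) (H : Subgroup G) :
    Matrix H ↥B ℂ :=
  fun y ζ => @ite ℂ (p ∣ orderOf y) (Classical.propDecidable _) 0 ((ζ.1 : G → ℂ) (z * (y : G)))

/-- The index set of the blocks of `H` inducing `B`. -/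
abbrev BlocksOver (M : Ideal AlgInt) (B : Set (IrrCharacter G)) (H : Subgroup G) : Type u :=
  {F : BlockT M H // IsInducedBlock M H F.1 B}

/-- The matrix of regular parts of the characters in the blocks of `H` inducing `B`. -/
noncomputable def matP (p : ℕ) (M : Ideal AlgInt) (B : Set (IrrCharacter G)) (H : Subgroup G) :
    Matrix H (Σ F : BlocksOver M B H, ↥F.1.1) ℂ :=
  fun y i => pRegularPart p (i.2.1 : H → ℂ) y

theorem finsum_mem_eq_sum_coe {α : Type*} (s : Set α) [Fintype ↥s] (f : α → ℂ) :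
    ∑ᶠ a ∈ s, f a = ∑ a : ↥s, f a := by
  rw [← finsum_eq_sum_of_fintype]
  exact Eq.symm (finsum_set_coe_eq_finsum_mem s)

theorem matR_mul_eq [hp : Fact p.Prime] (hM : IsPModular p M) (hz : ∃ k : ℕ, orderOf z = p ^ k)
    (hH : H = Subgroup.centralizer ({z} : Set G)) {B : Set (IrrCharacter G)} (hB : IsPBlock M B)
    [Fintype ↥B] [Fintype (BlocksOver M B H)] [∀ F : BlocksOver M B H, Fintype ↥F.1.1] :
    matR p B z H * (matR p B z H)ᴴ = matP p M B H * (matP p M B H)ᴴ := by
  classical
  ext y y'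
  simp only [Matrix.mul_apply, Matrix.conjTranspose_apply, matR, matP]
  rw [Fintype.sum_sigma]
  by_cases hy : p ∣ orderOf y
  · simp [hy, Cfsg.Agent.Lib.BlockOrtho.pRegularPart_of_sing _ hy]
  by_cases hy' : p ∣ orderOf y'
  · simp [hy', Cfsg.Agent.Lib.BlockOrtho.pRegularPart_of_sing _ hy']
  simp only [hy, hy', if_false, Cfsg.Agent.Lib.BlockOrtho.pRegularPart_of_reg _ hy,
    Cfsg.Agent.Lib.BlockOrtho.pRegularPart_of_reg _ hy']
  have h1 := sum_block_mul_conj hM hz hH hB hy hy'
  rw [finsum_mem_eq_sum_coe B] at h1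
  simp only [Complex.star_def]
  rw [h1, ← Finset.sum_filter]
  rw [Finset.sum_subtype (p := fun F : BlockT M H => IsInducedBlock M H F.1 B)
    (Finset.univ.filter fun F : BlockT M H => IsInducedBlock M H F.1 B) (by simp)]
  refine Finset.sum_congr rfl fun F _ => ?_
  rw [finsum_mem_eq_sum_coe F.1.1]

/-- The columns of `matP` are mutually orthogonal for different blocks. -/
theorem dot_pRegularPart_eq_zero (hM : IsPModular p M) {F F' : Set (IrrCharacter H)}
    (hF : IsPBlock M F) (hF' : IsPBlock M F') (hne : F ≠ F') {ψ ψ' : IrrCharacter H} (hψ : ψ ∈ F)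
    (hψ' : ψ' ∈ F') : pRegularPart p (ψ : H → ℂ) ⬝ᵥ star (pRegularPart p (ψ' : H → ℂ)) = 0 := by
  classical
  haveI := isPrime_of_isPModular hM
  have hψ'' : ψ' ∉ F := by
    rcases eq_or_disjoint_of_isPBlock hF hF' with h | h
    · exact absurd h hne
    · exact fun h1 => Set.disjoint_left.1 h h1 hψ'
  have h1 := Cfsg.Agent.Lib.BlockOrtho.classInner_pRegularPart_eq_zero hM hF hψ hψ''
  rw [Cfsg.Agent.Lib.BlockQ.classInner_pRegularPart_eq] at h1
  unfold classInner at h1
  have h2 : (Nat.card H : ℂ) ≠ 0 := by exact_mod_cast Nat.card_pos.ne'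
  have h3 := (mul_eq_zero.mp h1).resolve_left (inv_ne_zero h2)
  simp only [dotProduct, Pi.star_apply, Complex.star_def]
  exact h3

theorem rank_matP (hM : IsPModular p M) {B : Set (IrrCharacter G)}
    [Fintype (BlocksOver M B H)] [∀ F : BlocksOver M B H, Fintype ↥F.1.1] :
    (matP p M B H).rank = ∑ F : BlocksOver M B H, blockRank p F.1.1 := by
  classical
  let U : BlocksOver M B H → Submodule ℂ (H → ℂ) := fun F =>
    Submodule.span ℂ ((fun χ : IrrCharacter H => pRegularPart p (χ : H → ℂ)) '' F.1.1)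
  have h1 : Submodule.span ℂ (Set.range (matP p M B H).col) = ⨆ F ∈ (Finset.univ : Finset (BlocksOver M B H)), U F := by
    apply le_antisymm
    · rw [Submodule.span_le]
      rintro _ ⟨⟨F, ψ⟩, rfl⟩
      have h2 : U F ≤ ⨆ F ∈ (Finset.univ : Finset (BlocksOver M B H)), U F :=
        le_iSup₂_of_le F (Finset.mem_univ _) le_rfl
      apply h2
      apply Submodule.subset_span
      exact ⟨ψ.1, ψ.2, rfl⟩
    · refine iSup₂_le fun F _ => ?_
      apply Submodule.span_mono
      rintro _ ⟨ψ, hψ, rfl⟩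
      exact ⟨⟨F, ⟨ψ, hψ⟩⟩, rfl⟩
  rw [Matrix.rank_eq_finrank_span_cols, h1, finrank_iSup_of_orth]
  · rfl
  · intro F _ F' _ hne u hu v hv
    refine dot_span_eq_zero ?_ hu hv
    rintro _ ⟨ψ, hψ, rfl⟩ _ ⟨ψ', hψ', rfl⟩
    have hne' : F.1.1 ≠ F'.1.1 := fun h => hne (Subtype.ext (Subtype.ext h))
    exact dot_pRegularPart_eq_zero hM F.1.2 F'.1.2 hne' hψ hψ'

/-- The finsum over the blocks inducing `B`. -/
theorem finsum_blocksOver {B : Set (IrrCharacter G)} [Fintype (BlocksOver M B H)] (f : Set (IrrCharacter H) → ℕ) :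
    ∑ᶠ b ∈ {b : Set (IrrCharacter H) | IsInducedBlock M H b B}, f b =
      ∑ F : BlocksOver M B H, f F.1.1 := by
  have h1 : {b : Set (IrrCharacter H) | IsInducedBlock M H b B} =
      Set.range (fun F : BlocksOver M B H => F.1.1) := by
    ext b
    constructor
    · intro hb
      exact ⟨⟨⟨b, hb.1⟩, hb⟩, rfl⟩
    · rintro ⟨F, rfl⟩
      exact F.2
  rw [h1, finsum_mem_range (g := fun F : BlocksOver M B H => F.1.1)
    (fun F F' h => Subtype.ext (Subtype.ext h)), finsum_eq_sum_of_fintype]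

theorem rank_matR [hp : Fact p.Prime] (hM : IsPModular p M) (hz : ∃ k : ℕ, orderOf z = p ^ k)
    (hH : H = Subgroup.centralizer ({z} : Set G)) {B : Set (IrrCharacter G)} (hB : IsPBlock M B)
    [Fintype ↥B] :
    (matR p B z H).rank = ∑ᶠ b ∈ {b : Set (IrrCharacter H) | IsInducedBlock M H b B}, blockRank p b := by
  classical
  letI : Fintype (BlocksOver M B H) := Fintype.ofFinite _
  letI : ∀ F : BlocksOver M B H, Fintype ↥F.1.1 := fun F => Fintype.ofFinite _
  rw [finsum_blocksOver, ← rank_matP hM, ← Matrix.rank_self_mul_conjTranspose (matR p B z H),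
    ← Matrix.rank_self_mul_conjTranspose (matP p M B H), matR_mul_eq hM hz hH hB]

end Rows

theorem result {G : Type*} [Group G] [Finite G] (p : ℕ) (M : Ideal Cfsg.AlgInt) (hM : Cfsg.IsPModular p M)
    (B : Set (Cfsg.IrrCharacter G)) (hB : Cfsg.IsPBlock M B) (X : Finset G)
    (hX : ∀ x ∈ X, ∃ k : ℕ, orderOf x = p ^ k)
    (hXrep : ∀ g : G, (∃ k : ℕ, orderOf g = p ^ k) → ∃! x, x ∈ X ∧ IsConj g x) :
    Nat.card B = ∑ x ∈ X, ∑ᶠ b ∈ {b : Set (Cfsg.IrrCharacter ↥(Subgroup.centralizer ({x} : Set G))) | Cfsg.IsInducedBlock M (Subgroup.centralizer ({x} : Set G)) b B},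
      Cfsg.blockRank p b := by
  classical
  letI := Fintype.ofFinite G
  have hp : p.Prime := hM.1
  haveI : Fact p.Prime := ⟨hp⟩
  haveI := isPrime_of_isPModular hM
  letI : ∀ x : G, Fintype (Subgroup.centralizer ({x} : Set G)) := fun x => Fintype.ofFinite _
  letI : Fintype ↥B := Fintype.ofFinite _
  let U : G → Submodule ℂ (↥B → ℂ) := fun x =>
    Submodule.span ℂ (Set.range (matR p B x (Subgroup.centralizer ({x} : Set G))).row)
  have hrank : ∀ x ∈ X, Module.finrank ℂ ↥(U x) =
      ∑ᶠ b ∈ {b : Set (Cfsg.IrrCharacter ↥(Subgroup.centralizer ({x} : Set G))) | Cfsg.IsInducedBlock M (Subgroup.centralizer ({x} : Set G)) b B},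
      Cfsg.blockRank p b := by
    intro x hx
    rw [← rank_matR hM (hX x hx) rfl hB, Matrix.rank_eq_finrank_span_row]
  have horth : ∀ x ∈ X, ∀ x' ∈ X, x ≠ x' → ∀ u ∈ U x, ∀ v ∈ U x', u ⬝ᵥ star v = 0 := by
    intro x hx x' hx' hne u hu v hv
    refine dot_span_eq_zero ?_ hu hv
    rintro _ ⟨y, rfl⟩ _ ⟨y', rfl⟩
    have hnc : ¬ IsConj x x' := by
      intro hc
      exact hne ((hXrep x (hX x hx)).unique ⟨hx, IsConj.refl _⟩ ⟨hx', hc⟩)
    simp only [dotProduct, Matrix.row, Pi.star_apply, matR]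
    by_cases hy : p ∣ orderOf y
    · simp [hy]
    by_cases hy' : p ∣ orderOf y'
    · simp [hy']
    simp only [hy, hy', if_false, Complex.star_def]
    rw [← finsum_mem_eq_sum_coe B (fun ζ => (ζ : G → ℂ) (x * (y : G)) * conj ((ζ : G → ℂ) (x' * (y' : G))))]
    refine block_orth_conj hM hB (x := x) (y := x') ?_ ?_ hnc
    · exact pPart_of_mul (Subgroup.mem_centralizer_singleton_iff.1 y.2).symm (hX x hx)
        (by rwa [Subgroup.orderOf_coe])
    · exact pPart_of_mul (Subgroup.mem_centralizer_singleton_iff.1 y'.2).symm (hX x' hx')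
        (by rwa [Subgroup.orderOf_coe])
  have htop : (⨆ x ∈ X, U x) = ⊤ := by
    by_contra hne
    obtain ⟨f, hf0, hf⟩ := Submodule.exists_le_ker_of_lt_top _ (lt_top_iff_ne_top.mpr hne)
    apply hf0
    set c : ↥B → ℂ := fun ζ => f fun j => if ζ = j then 1 else 0 with hc
    have hf1 : ∀ e : ↥B → ℂ, f e = ∑ ζ, e ζ * c ζ := by
      intro e
      rw [LinearMap.pi_apply_eq_sum_univ f e]
      rfl
    have h1 : ∀ g : G, ∑ ζ : ↥B, c ζ * (ζ.1 : G → ℂ) g = 0 := by
      intro g
      obtain ⟨w, hw⟩ := exists_isPPart hp g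
      obtain ⟨y, hgy, hcomm, hwk, hy⟩ := hw
      obtain ⟨x, ⟨hxX, hconj⟩, -⟩ := hXrep w hwk
      obtain ⟨t, ht⟩ := isConj_iff.mp hconj
      have hy1 : Commute (t * y * t⁻¹) x := by
        rw [← ht]
        have : Commute (t * y * t⁻¹) (t * w * t⁻¹) := by
          show (t * y * t⁻¹) * (t * w * t⁻¹) = (t * w * t⁻¹) * (t * y * t⁻¹)
          have e := hcomm.eq
          calc (t * y * t⁻¹) * (t * w * t⁻¹) = t * (y * w) * t⁻¹ := by group
            _ = t * (w * y) * t⁻¹ := by rw [e]
            _ = _ := by group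
        exact this
      let y' : Subgroup.centralizer ({x} : Set G) :=
        ⟨t * y * t⁻¹, Subgroup.mem_centralizer_singleton_iff.2 hy1.eq⟩
      have hy2 : ¬ p ∣ orderOf y' := by
        rw [← Subgroup.orderOf_coe]
        show ¬ p ∣ orderOf (t * y * t⁻¹)
        rwa [show t * y * t⁻¹ = MulAut.conj t y from rfl, MulEquiv.orderOf_eq]
      have h2 : (matR p B x (Subgroup.centralizer ({x} : Set G))).row y' ∈ ⨆ x ∈ X, U x := by
        have h3 : U x ≤ ⨆ x ∈ X, U x := le_iSup₂_of_le x hxX le_rfl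
        exact h3 (Submodule.subset_span ⟨y', rfl⟩)
      have h3 := hf h2
      rw [LinearMap.mem_ker, hf1] at h3
      rw [← h3]
      refine Finset.sum_congr rfl fun ζ _ => ?_
      simp only [Matrix.row, matR, hy2, if_false]
      rw [mul_comm]
      congr 1
      have h4 := isClassFunction_of_isCharacter (IsIrrCharacter.isCharacter ζ.1.2) g t
      have e : t * g * t⁻¹ = x * (t * y * t⁻¹) := by
        rw [← hgy, ← ht]
        group
      rw [← h4, e]
    have hli : LinearIndependent ℂ (fun ζ : ↥B => (ζ.1 : G → ℂ)) :=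
      (linearIndependent_irr (G := G)).comp _ Subtype.val_injective
    have h2 := Fintype.linearIndependent_iff.mp hli c (by
      funext g
      rw [Finset.sum_apply]
      simpa using h1 g)
    ext e
    rw [LinearMap.comp_apply, hf1]
    simp [h2]
  have hfin := finrank_iSup_of_orth U X horth
  rw [htop, finrank_top, Module.finrank_fintype_fun_eq_card] at hfin
  rw [Nat.card_eq_fintype_card, hfin]
  exact Finset.sum_congr rfl hrank

end Cfsg.Agent.S4511
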