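import Mathlib
import Cfsg.Statements.S4633
import Cfsg.Agent.Lib.CycPAut
import Cfsg.Agent.Lib.GreenDefect
import Cfsg.Agent.Lib.BlockSection
import Cfsg.Agent.Lib.BrauerLift

set_option autoImplicit false
set_option linter.style.haveILetI false
open Cfsg

namespace Cfsg.Agent.S4633

/-- Let B be a block of the finite group G relative to a maximal ideal M of the algebraic integers containing the prime p, with a nontrivial cyclic defect group P. Let c be a block of C_G(P) inducing B and T the stabilizer of c in N_G(P) (the elements of N_G(P) conjugating c to itself); T contains C_G(P). Then T/C_G(P) is cyclic of order dividing p − 1, and it acts freely on the non-identity elements of P: an element of T fixing some non-identity element of P under conjugation lies in C_G(P). -/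
theorem result {G : Type*} [Group G] [Finite G] (p : ℕ) [Fact p.Prime] (M : Ideal Cfsg.AlgInt) (hM : Cfsg.IsPModular p M) (B : Set (Cfsg.IrrCharacter G)) (hB : Cfsg.IsPBlock M B) (P : Subgroup G) (hPD : Cfsg.IsDefectGroup p M B P) (hP1 : P ≠ ⊥) (hcyc : IsCyclic P) (c : Set (Cfsg.IrrCharacter (Subgroup.centralizer (P : Set G)))) (hc : Cfsg.IsInducedBlock M (Subgroup.centralizer (P : Set G)) c B) (T : Subgroup G) (hT : ∀ g : G, g ∈ T ↔ (g ∈ Subgroup.normalizer (P : Set G) ∧ Cfsg.StabilizesBlock (Subgroup.centralizer (P : Set G)) c g)) [hn : ((Subgroup.centralizer (P : Set G)).subgroupOf T).Normal] : IsCyclic (T ⧸ (Subgroup.centralizer (P : Set G)).subgroupOf T) ∧ (Subgroup.centralizer (P : Set G)).relIndex T ∣ p - 1 ∧ ∀ g ∈ T, ∀ x ∈ P, x ≠ 1 → g * x * g⁻¹ = x → g ∈ Subgroup.centralizer (P : Set G) := by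
  classical
  cases nonempty_fintype G
  letI : Fintype (Subgroup.centralizer (P : Set G)) := Fintype.ofFinite _
  have hPp : IsPGroup p P := by
    obtain ⟨g, -, S, hS⟩ := hPD
    rw [hS]
    exact S.isPGroup'.map _
  have hpair := Cfsg.Agent.Lib.BlockSection.isBrauerPairOf_of_isInducedBlock hM hPp hc
  have hmax := Cfsg.Agent.Lib.BrauerLift.isMaximal_of_isDefectGroup hM hpair hPD
  have hTN : T ≤ Subgroup.normalizer (P : Set G) := fun g hg => ((hT g).1 hg).1
  let θ : T →* MulAut P := Cfsg.Agent.Lib.BrauerSat.theta hTN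
  have hker : θ.ker = (Subgroup.centralizer (P : Set G)).subgroupOf T := by
    ext t
    rw [Cfsg.Agent.Lib.BrauerSat.mem_ker_theta, Subgroup.mem_subgroupOf]
  haveI : Nontrivial P := (Subgroup.nontrivial_iff_ne_bot P).2 hP1
  have hcomm : ∀ a b : P, a * b = b * a := by
    intro a b
    obtain ⟨y, hy⟩ := IsCyclic.exists_generator (α := P)
    obtain ⟨i, hi⟩ := Subgroup.mem_zpowers_iff.1 (hy a)
    obtain ⟨j, hj⟩ := Subgroup.mem_zpowers_iff.1 (hy b)
    rw [← hi, ← hj, ← zpow_add, ← zpow_add, add_comm]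
  have hPC : P ≤ Subgroup.centralizer (P : Set G) := by
    intro a ha
    rw [Subgroup.mem_centralizer_iff]
    intro b hb
    exact congrArg Subtype.val (hcomm ⟨b, hb⟩ ⟨a, ha⟩)
  have hA : ¬ p ∣ Nat.card θ.range := by
    rw [← Subgroup.index_ker, hker]
    obtain ⟨S⟩ : Nonempty (Sylow p T) := inferInstance
    intro hdvd
    apply S.not_dvd_index
    refine hdvd.trans (Subgroup.index_dvd_of_le ?_)
    intro s hs
    rw [Subgroup.mem_subgroupOf]
    have hYp : IsPGroup p ((S : Subgroup T).map T.subtype) := S.isPGroup'.map _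
    have hYN : (S : Subgroup T).map T.subtype ≤ Subgroup.normalizer (P : Set G) := by
      rintro _ ⟨r, -, rfl⟩
      exact hTN r.2
    have hYst : ∀ r ∈ (S : Subgroup T).map T.subtype,
        Cfsg.StabilizesBlock (Subgroup.centralizer (P : Set G)) c r := by
      rintro _ ⟨r, -, rfl⟩
      exact ((hT _).1 r.2).2
    have h1 := Cfsg.Agent.Lib.GreenDefect.le_prodSub_of_stab hM hmax hYp hYN hYst
    have h2 := h1 (Subgroup.mem_map_of_mem T.subtype hs)
    obtain ⟨d, hd, h3⟩ := h2
    have h4 := Subgroup.mul_mem _ (hPC hd) h3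
    simpa using h4
  obtain ⟨h1, h2⟩ := Cfsg.Agent.Lib.CycPAut.card_dvd_of_not_dvd hPp ‹_› θ.range hA
  refine ⟨?_, ?_, ?_⟩
  · have e1 : T ⧸ (Subgroup.centralizer (P : Set G)).subgroupOf T ≃* θ.range :=
      (QuotientGroup.quotientMulEquivOfEq hker.symm).trans (QuotientGroup.quotientKerEquivRange θ)
    exact isCyclic_of_surjective _ e1.symm.surjective
  · rw [Subgroup.relIndex, ← hker, Subgroup.index_ker]
    exact h2
  · intro g hg x hx hx1 hfix
    have h3 : θ ⟨g, hg⟩ = 1 := by
      apply Cfsg.Agent.Lib.CycPAut.eq_one_of_fixes hPp (θ ⟨g, hg⟩) (x := ⟨x, hx⟩)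
      · intro hdvd
        apply hA
        refine hdvd.trans ?_
        exact Subgroup.orderOf_dvd_natCard θ.range ⟨⟨g, hg⟩, rfl⟩
      · intro h
        exact hx1 (congrArg Subtype.val h)
      · apply Subtype.ext
        exact hfix
    have h4 : (⟨g, hg⟩ : T) ∈ θ.ker := h3
    rw [hker, Subgroup.mem_subgroupOf] at h4
    exact h4

end Cfsg.Agent.S4633
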