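import Mathlib
import Cfsg.Statements.S4634
import Cfsg.Agent.Lib.DcPerf

set_option autoImplicit false
open Cfsg

namespace Cfsg.Agent.S4634

/-- Let B be a block of the finite group G relative to a maximal ideal M of the algebraic integers containing the prime p, with a nontrivial cyclic defect group P, let c be a block of C_G(P) inducing B, T the stabilizer of c in N_G(P) and e the index of C_G(P) in T. Let F be any finite group of order #P · e having a cyclic subgroup Q of order #P that is its own centralizer (F is then the semidirect product of Q by a cyclic group of order e acting faithfully). Then there is a perfect isometry from the set of all irreducible characters of F onto B whose signs agree on all the characters of F that do not contain Q in their kernel. -/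
theorem result {G : Type*} [Group G] [Finite G] (p : ℕ) [Fact p.Prime] (M : Ideal Cfsg.AlgInt) (hM : Cfsg.IsPModular p M) (B : Set (Cfsg.IrrCharacter G)) (hB : Cfsg.IsPBlock M B) (P : Subgroup G) (hPD : Cfsg.IsDefectGroup p M B P) (hP1 : P ≠ ⊥) (hcyc : IsCyclic P) (c : Set (Cfsg.IrrCharacter (Subgroup.centralizer (P : Set G)))) (hc : Cfsg.IsInducedBlock M (Subgroup.centralizer (P : Set G)) c B) (T : Subgroup G) (hT : ∀ g : G, g ∈ T ↔ (g ∈ Subgroup.normalizer (P : Set G) ∧ Cfsg.StabilizesBlock (Subgroup.centralizer (P : Set G)) c g)) (e : ℕ) (he : (Subgroup.centralizer (P : Set G)).relIndex T = e) (F : Type*) [Group F] [Finite F] (hF : Nat.card F = Nat.card P * e) (Q : Subgroup F) (hQ : IsCyclic Q) (hQcard : Nat.card Q = Nat.card P) (hQC : Subgroup.centralizer (Q : Set F) = Q) : ∃ (I : Cfsg.IrrCharacter F → Cfsg.IrrCharacter G) (ε : Cfsg.IrrCharacter F → ℤ), Cfsg.IsPerfectIsometry p M (Set.univ : Set (Cfsg.IrrCharacter F)) B I ε ∧ ∀ η η' : Cfsg.IrrCharacter F, (∃ x ∈ Q, (η : F → ℂ) x ≠ (η : F → ℂ) 1) →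 (∃ x ∈ Q, (η' : F → ℂ) x ≠ (η' : F → ℂ) 1) → ε η = ε η' := by
  classical
  letI : Fintype G := Fintype.ofFinite G
  letI : Fintype F := Fintype.ofFinite F
  have hcard := Cfsg.Agent.Lib.BlockDefect.card_isDefectGroup hM hB hPD
  have ha : 1 ≤ Cfsg.blockDefect p B := by
    by_contra h
    have h0 : Cfsg.blockDefect p B = 0 := by omega
    rw [h0, pow_zero] at hcard
    exact hP1 ((Subgroup.card_eq_one).1 hcard)
  obtain ⟨hdvd, ⟨d⟩⟩ := Cfsg.Agent.Lib.DcData.dade_data hM hcyc ha hcard hB hPD hc hT he
  have hd : Cfsg.Agent.Lib.DcFrob.FD p (Cfsg.blockDefect p B) e Q :=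
    ⟨hQ, hQcard.trans hcard, ha, by rw [hF, hcard], hQC, hdvd⟩
  let β : P ≃* Q := mulEquivOfCyclicCardEq hQcard.symm
  have hT' : T ≤ Subgroup.normalizer (P : Set G) := fun t ht => ((hT t).1 ht).1
  obtain ⟨hm1, hm2⟩ := Cfsg.Agent.Lib.DcPerf.match_core hd hcyc hcard hT' he β
  exact Cfsg.Agent.Lib.DcPerf.main_core hM d hd hcyc hcard hT hc.1 β hm1 hm2

end Cfsg.Agent.S4634
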