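import Mathlib
import Cfsg.Statements.S4635
import Cfsg.Agent.S4634
import Cfsg.Agent.S4683
import Cfsg.Agent.Lib.DcComp
import Cfsg.Agent.Lib.DcSetup
import Cfsg.Agent.Lib.PiKernel

set_option autoImplicit false
open Cfsg

namespace Cfsg.Agent.S4635

open Cfsg.Agent.Lib.BrauerCorr Cfsg.Agent.Lib.BrauerStab Cfsg.Agent.Lib.BrauerLift Cfsg.Agent.Lib.BrauerConj
open Cfsg.Agent.Lib.PiKernel Cfsg.Agent.Lib.DcComp Cfsg.Agent.Lib.BrauerCen

set_option linter.style.haveILetI false

set_option maxHeartbeats 2000000 in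
/-- The comparison for a subgroup `H` containing the normalizer and the centralizer of `P`. -/
theorem main_comp {G : Type*} [Group G] [Finite G] (p : ℕ) [Fact p.Prime] (M : Ideal Cfsg.AlgInt) (hM : Cfsg.IsPModular p M)
    (B : Set (Cfsg.IrrCharacter G)) (hB : Cfsg.IsPBlock M B) (P : Subgroup G) (hPD : Cfsg.IsDefectGroup p M B P)
    (hP1 : P ≠ ⊥) (hcyc : IsCyclic P) (H : Subgroup G) (hPH : P ≤ H)
    (hCH : Subgroup.centralizer (P : Set G) ≤ H) (hNH : Subgroup.normalizer (P : Set G) ≤ H)
    (c : Set (Cfsg.IrrCharacter H)) (hcD : Cfsg.IsDefectGroup p M c (P.subgroupOf H)) (hc : Cfsg.IsInducedBlock M H c B) :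
    Nat.card c = Nat.card B ∧ Cfsg.blockRank p c = Cfsg.blockRank p B ∧
      ∃ (I : Cfsg.IrrCharacter H → Cfsg.IrrCharacter G) (ε : Cfsg.IrrCharacter H → ℤ), Cfsg.IsPerfectIsometry p M c B I ε := by
  classical
  letI : Fintype G := Fintype.ofFinite G
  letI : Fintype H := Fintype.ofFinite H
  haveI hMp := Cfsg.Agent.Lib.BlockLocal.isPrime_of_isPModular hM
  have hcard := Cfsg.Agent.Lib.BlockDefect.card_isDefectGroup hM hB hPD
  have ha : 1 ≤ Cfsg.blockDefect p B := by
    by_contra h
    have h0 : Cfsg.blockDefect p B = 0 := by omega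
    rw [h0, pow_zero] at hcard
    exact hP1 ((Subgroup.card_eq_one).1 hcard)
  have hpP : IsPGroup p P := IsPGroup.of_card hcard
  have m : CenMatch (P.subgroupOf H) P := cenMatch_of_le (Q := P) hCH hPH le_rfl
  obtain ⟨gh, hgh⟩ := exists_maximal_of_isDefectGroup hM hc.1 hcD
  have hpair := lift_pair hM hc hgh.1 hpP m
  have hindG := Cfsg.Agent.S4683.isInducedBlock_of_isBrauerPairOf hM hpair
  have hindH := Cfsg.Agent.S4683.isInducedBlock_of_isBrauerPairOf hM hgh.1
  let TG : Subgroup G := Subgroup.normalizer (P : Set G) ⊓ stabSub (Subgroup.centralizer (P : Set G)) (twistSetE m.iso gh) hindG.1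
  have hTG : ∀ g : G, g ∈ TG ↔ (g ∈ Subgroup.normalizer (P : Set G) ∧
      Cfsg.StabilizesBlock (Subgroup.centralizer (P : Set G)) (twistSetE m.iso gh) g) := fun g => Iff.rfl
  let TH : Subgroup H := Subgroup.normalizer ((P.subgroupOf H : Subgroup H) : Set H) ⊓
    stabSub (Subgroup.centralizer ((P.subgroupOf H : Subgroup H) : Set H)) gh hindH.1
  have hTH : ∀ g : H, g ∈ TH ↔ (g ∈ Subgroup.normalizer ((P.subgroupOf H : Subgroup H) : Set H) ∧
      Cfsg.StabilizesBlock (Subgroup.centralizer ((P.subgroupOf H : Subgroup H) : Set H)) gh g) := fun g => Iff.rfl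
  have hinv : twistSetE m.iso.symm (twistSetE m.iso gh) = gh := by
    unfold twistSetE
    rw [Set.image_image]
    have e : ∀ x, twistE m.iso.symm (twistE m.iso x) = x := fun x => twistE_twistE_symm m.iso x
    simp only [e, Set.image_id']
  have hN1 : ∀ h : H, h ∈ Subgroup.normalizer ((P.subgroupOf H : Subgroup H) : Set H) → (h : G) ∈ Subgroup.normalizer (P : Set G) := by
    intro h hh
    rw [Subgroup.mem_normalizer_iff]
    intro x
    have key := fun y : H => Subgroup.mem_normalizer_iff.1 hh y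
    constructor
    · intro hx
      have h1 := (key ⟨x, hPH hx⟩).1 (Subgroup.mem_subgroupOf.2 hx)
      exact Subgroup.mem_subgroupOf.1 h1
    · intro hx
      have hxH : x ∈ H := by
        have h2 : (h : G) * x * (h : G)⁻¹ ∈ H := hPH hx
        have h3 : x = (h : G)⁻¹ * ((h : G) * x * (h : G)⁻¹) * (h : G) := by group
        rw [h3]
        exact H.mul_mem (H.mul_mem (H.inv_mem h.2) h2) h.2
      have h1 := (key ⟨x, hxH⟩).2 (Subgroup.mem_subgroupOf.2 hx)
      exact Subgroup.mem_subgroupOf.1 h1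
  have hN2 : ∀ h : H, (h : G) ∈ Subgroup.normalizer (P : Set G) → h ∈ Subgroup.normalizer ((P.subgroupOf H : Subgroup H) : Set H) := by
    intro h hh
    rw [Subgroup.mem_normalizer_iff]
    intro y
    have key := Subgroup.mem_normalizer_iff.1 hh (y : G)
    simpa [Subgroup.mem_subgroupOf] using key
  have hTHG : TH = TG.subgroupOf H := by
    ext h
    rw [Subgroup.mem_subgroupOf, hTH, hTG]
    constructor
    · rintro ⟨h1, h2⟩
      exact ⟨hN1 h h1, m.stabilizes_of_hat h2⟩
    · rintro ⟨h1, h2⟩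
      refine ⟨hN2 h h1, ?_⟩
      have h3 := m.stabilizes_hat (u := h) h2
      rwa [hinv] at h3
  have hCHG : Subgroup.centralizer ((P.subgroupOf H : Subgroup H) : Set H) = (Subgroup.centralizer (P : Set G)).subgroupOf H := by
    ext t
    rw [Subgroup.mem_subgroupOf]
    exact m.iff t
  have hTGH : TG ≤ H := fun t ht => hNH ((hTG t).1 ht).1
  have he' : (Subgroup.centralizer ((P.subgroupOf H : Subgroup H) : Set H)).relIndex TH =
      (Subgroup.centralizer (P : Set G)).relIndex TG := by
    rw [hTHG, hCHG]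
    exact Subgroup.relIndex_subgroupOf hTGH
  have hT' : TG ≤ Subgroup.normalizer (P : Set G) := fun t ht => ((hTG t).1 ht).1
  obtain ⟨U, hU⟩ := exists_aut_range hT'
  let eP : P.subgroupOf H ≃* P := Subgroup.subgroupOfEquivOfLe hPH
  have hcardPh : Nat.card (P.subgroupOf H) = Nat.card P := Nat.card_congr eP.toEquiv
  have hPhcyc : IsCyclic (P.subgroupOf H) := isCyclic_of_surjective eP.symm.toMonoidHom eP.symm.surjective
  have hPh1 : P.subgroupOf H ≠ ⊥ := by
    intro h
    apply hP1
    have h1 : Nat.card (P.subgroupOf H) = 1 := by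
      rw [h]
      exact Subgroup.card_bot
    rw [hcardPh] at h1
    exact (Subgroup.card_eq_one).1 h1
  haveI := hcyc
  obtain ⟨F, iF, fF, QF, hQ, hQcard, hFcard, hQC⟩ := exists_frob U
  rw [hU] at hFcard
  obtain ⟨I₁, ε₁, h₁, -⟩ := Cfsg.Agent.S4634.result p M hM B hB P hPD hP1 hcyc _ hindG TG hTG _ rfl F hFcard QF hQ hQcard hQC
  obtain ⟨I₂, ε₂, h₂, -⟩ := Cfsg.Agent.S4634.result p M hM c hc.1 (P.subgroupOf H) hcD hPh1 hPhcyc gh hindH TH hTH _ he' F
    (by rw [hFcard, hcardPh]) QF hQ (hQcard.trans hcardPh.symm) hQC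
  letI : Fintype F := Fintype.ofFinite F
  obtain ⟨I, ε, hI⟩ := perf_comp hM h₁ h₂
  refine ⟨?_, ?_, I, ε, hI⟩
  · exact Nat.card_congr (hI.1.equiv I)
  · have h3 := (Cfsg.Agent.Lib.DcSetup.dade_main hM hcyc ha hcard hB hPD hindG hTG rfl).2.1
    have h4 := (Cfsg.Agent.Lib.DcSetup.dade_main hM hPhcyc ha (hcardPh.trans hcard) hc.1 hcD hindH hTH he').2.1
    rw [h3, h4]

/-- Let B be a block of the finite group G relative to a maximal ideal M of the algebraic integers containing the prime p, with a nontrivial cyclic defect group P; let Z be the subgroup of order p of P and H = N_G(Z), which contains N_G(P). Let c be the block of H with defect group P that induces B. Then B and c contain the same number of irreducible characters, have the same p-regular rank, and there is a perfect isometry from c onto B. -/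
theorem result {G : Type*} [Group G] [Finite G] (p : ℕ) [Fact p.Prime] (M : Ideal Cfsg.AlgInt) (hM : Cfsg.IsPModular p M) (B : Set (Cfsg.IrrCharacter G)) (hB : Cfsg.IsPBlock M B) (P : Subgroup G) (hPD : Cfsg.IsDefectGroup p M B P) (hP1 : P ≠ ⊥) (hcyc : IsCyclic P) (Z : Subgroup G) (hZ : Z ≤ P) (hZcard : Nat.card Z = p) (H : Subgroup G) (hH : H = Subgroup.normalizer (Z : Set G)) (c : Set (Cfsg.IrrCharacter H)) (hcD : Cfsg.IsDefectGroup p M c (P.subgroupOf H)) (hc : Cfsg.IsInducedBlock M H c B) : Nat.card c = Nat.card B ∧ Cfsg.blockRank p c = Cfsg.blockRank p B ∧ ∃ (I : Cfsg.IrrCharacter H → Cfsg.IrrCharacter G) (ε : Cfsg.IrrCharacter H → ℤ), Cfsg.IsPerfectIsometry p M c B I ε := by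
  classical
  letI : Fintype G := Fintype.ofFinite G
  have hcard := Cfsg.Agent.Lib.BlockDefect.card_isDefectGroup hM hB hPD
  have hab : ∀ x ∈ P, ∀ y ∈ P, x * y = y * x := by
    intro x hx y hy
    exact congrArg Subtype.val ((IsCyclic.commGroup (α := P)).mul_comm ⟨x, hx⟩ ⟨y, hy⟩)
  have hPC : P ≤ Subgroup.centralizer (Z : Set G) := by
    intro x hx
    rw [Subgroup.mem_centralizer_iff]
    intro z hz
    exact hab z (hZ hz) x hx
  have hPH : P ≤ H := by
    rw [hH]
    exact hPC.trans (Subgroup.centralizer_le_normalizer _)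
  have hCH : Subgroup.centralizer (P : Set G) ≤ H := by
    rw [hH]
    exact (Subgroup.centralizer_le hZ).trans (Subgroup.centralizer_le_normalizer _)
  have hNH : Subgroup.normalizer (P : Set G) ≤ H := by
    rw [hH]
    intro x hx
    set Z' : Subgroup G := Subgroup.map (MulEquiv.toMonoidHom (MulAut.conj x)) Z with hZ'
    have h1 : Z' ≤ P := by
      rintro _ ⟨z, hz, rfl⟩
      exact (Subgroup.mem_normalizer_iff.1 hx z).1 (hZ hz)
    have h2 : Nat.card Z' = p := by
      rw [hZ', Subgroup.card_map_of_injective (MulAut.conj x).injective, hZcard]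
    have h3 : Z.subgroupOf P = Z'.subgroupOf P :=
      Cfsg.Agent.Lib.DcInd.subgroup_eq_of_card (e := p)
        (by rw [← hZcard]; exact Nat.card_congr (Subgroup.subgroupOfEquivOfLe hZ).toEquiv)
        (by rw [← h2]; exact Nat.card_congr (Subgroup.subgroupOfEquivOfLe h1).toEquiv)
    have h4 := Subgroup.subgroupOf_inj.1 h3
    rw [inf_eq_left.2 hZ, inf_eq_left.2 h1] at h4
    rw [Subgroup.mem_normalizer_iff]
    intro y
    constructor
    · intro hy
      have h5 : x * y * x⁻¹ ∈ Z' := ⟨y, hy, rfl⟩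
      rw [← h4] at h5
      exact h5
    · intro hy
      rw [h4] at hy
      obtain ⟨z, hz, hzy⟩ := hy
      have h6 : x * z * x⁻¹ = x * y * x⁻¹ := hzy
      have h7 : z = y := mul_left_cancel (mul_right_cancel h6)
      rwa [← h7]
  exact main_comp p M hM B hB P hPD hP1 hcyc H hPH hCH hNH c hcD hc

end Cfsg.Agent.S4635
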