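import Mathlib
import Cfsg.Statements.S4636

set_option autoImplicit false
open scoped Pointwise
open Cfsg

namespace Cfsg.Agent.S4636

variable {G : Type*} [Group G] [Finite G]

set_option linter.unusedSectionVars false
set_option linter.style.haveILetI false

theorem mem_of_pow_eq_one (p : ℕ) [Fact p.Prime] (P : Subgroup G) (hcyc : IsCyclic P)
    (Z : Subgroup G) (hZ : Z ≤ P) (hZcard : Nat.card Z = p) (y : G) (hy : y ∈ P) (hyp : y ^ p = 1) :
    y ∈ Z := by
  classical
  have : Fintype P := Fintype.ofFinite P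
  have : Fintype (Z.subgroupOf P) := Fintype.ofFinite _
  have hle := IsCyclic.card_pow_eq_one_le (α := P) (n := p) (Fact.out : p.Prime).pos
  have hcard : Nat.card (Z.subgroupOf P) = p := by
    rw [← hZcard]
    exact Nat.card_congr (Subgroup.subgroupOfEquivOfLe hZ).toEquiv
  set S : Finset P := (Finset.univ.filter (fun a : P => a ^ p = 1)) with hS
  set T : Finset P := (Finset.univ.filter (fun a : P => a ∈ Z.subgroupOf P)) with hT
  have hTS : T ⊆ S := by
    intro a ha
    simp only [hT, Finset.mem_filter, Finset.mem_univ, true_and] at ha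
    simp only [hS, Finset.mem_filter, Finset.mem_univ, true_and]
    have := pow_card_eq_one' (x := (⟨a, ha⟩ : Z.subgroupOf P))
    rw [hcard] at this
    have h2 := congrArg Subtype.val this
    simpa using h2
  have hTcard : T.card = p := by
    have : T.card = Nat.card (Z.subgroupOf P) := by
      rw [Nat.card_eq_fintype_card]
      exact (Fintype.card_subtype _).symm
    rw [this, hcard]
  have hEq : T = S := Finset.eq_of_subset_of_card_le hTS (by rw [hTcard]; exact hle)
  have hmem : (⟨y, hy⟩ : P) ∈ S := by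
    simp only [hS, Finset.mem_filter, Finset.mem_univ, true_and]
    exact Subtype.ext hyp
  rw [← hEq] at hmem
  simp only [hT, Finset.mem_filter, Finset.mem_univ, true_and] at hmem
  exact Subgroup.mem_subgroupOf.1 hmem

theorem uniq (p : ℕ) [Fact p.Prime] (P : Subgroup G) (hcyc : IsCyclic P)
    (Z : Subgroup G) (hZ : Z ≤ P) (hZcard : Nat.card Z = p)
    (Z' : Subgroup G) (hZ' : Z' ≤ P) (hZ'card : Nat.card Z' = p) : Z' = Z := by
  apply Subgroup.eq_of_le_of_card_ge
  · intro y hy
    apply mem_of_pow_eq_one p P hcyc Z hZ hZcard y (hZ' hy)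
    have := pow_card_eq_one' (x := (⟨y, hy⟩ : Z'))
    rw [hZ'card] at this
    simpa using congrArg Subtype.val this
  · rw [hZcard, hZ'card]

theorem le_of_ne_bot (p : ℕ) [Fact p.Prime] (P : Subgroup G) (hP : IsPGroup p P) (hcyc : IsCyclic P)
    (Z : Subgroup G) (hZ : Z ≤ P) (hZcard : Nat.card Z = p)
    (R : Subgroup G) (hR : R ≤ P) (hR1 : R ≠ ⊥) : Z ≤ R := by
  have hRp : IsPGroup p R := hP.to_le hR
  have hcard : p ∣ Nat.card R := by
    obtain ⟨k, hk⟩ := hRp.exists_card_eq
    rw [hk]
    have hk0 : k ≠ 0 := by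
      rintro rfl
      apply hR1
      rw [pow_zero] at hk
      exact (Subgroup.card_eq_one).1 hk
    exact dvd_pow_self p hk0
  obtain ⟨x, hx⟩ := exists_prime_orderOf_dvd_card' p hcard
  let Z' : Subgroup G := (Subgroup.zpowers x).map R.subtype
  have hZ'R : Z' ≤ R := by
    rintro _ ⟨y, -, rfl⟩
    exact y.2
  have hZ'card : Nat.card Z' = p := by
    have h1 : Nat.card Z' = Nat.card (Subgroup.zpowers x) :=
      Nat.card_congr (Subgroup.equivMapOfInjective _ _ R.subtype_injective).symm.toEquiv
    rw [h1, Nat.card_zpowers, hx]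
  have := uniq p P hcyc Z hZ hZcard Z' (hZ'R.trans hR) hZ'card
  rw [← this]
  exact hZ'R

theorem mem_normalizer_of_smul_eq (g : G) (Z : Subgroup G) (h : MulAut.conj g • Z = Z) :
    g ∈ Subgroup.normalizer (Z : Set G) := by
  rw [Subgroup.mem_normalizer_iff]
  intro z
  constructor
  · intro hz
    have : MulAut.conj g • z ∈ MulAut.conj g • Z := Subgroup.smul_mem_pointwise_smul _ _ _ hz
    rw [h] at this
    simpa [MulAut.smul_def] using this
  · intro hz
    have h1 : g * z * g⁻¹ ∈ MulAut.conj g • Z := by rw [h]; exact hz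
    have h2 := Subgroup.mem_pointwise_smul_iff_inv_smul_mem.1 h1
    have h3 : (MulAut.conj g)⁻¹ • (g * z * g⁻¹) = z := by
      rw [inv_smul_eq_iff]; simp [MulAut.smul_def]
    rwa [h3] at h2

theorem card_conj_smul (g : G) (Z : Subgroup G) : Nat.card (MulAut.conj g • Z : Subgroup G) = Nat.card Z := by
  exact Nat.card_congr (Subgroup.equivSMul (MulAut.conj g) Z).symm.toEquiv

/-- Let P be a nontrivial cyclic p-subgroup of the finite group G and Z its subgroup of order p. For every x outside N_G(Z), P meets its conjugate xPx⁻¹ trivially; consequently N_G(Q) ≤ N_G(Z) for every nontrivial subgroup Q of P. -/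
theorem result {G : Type*} [Group G] [Finite G] (p : ℕ) [Fact p.Prime] (P : Subgroup G) (hP : IsPGroup p P) (hP1 : P ≠ ⊥) (hcyc : IsCyclic P) (Z : Subgroup G) (hZ : Z ≤ P) (hZcard : Nat.card Z = p) : (∀ x : G, x ∉ Subgroup.normalizer (Z : Set G) → P ⊓ MulAut.conj x • P = ⊥) ∧ ∀ Q : Subgroup G, Q ≤ P → Q ≠ ⊥ → Subgroup.normalizer (Q : Set G) ≤ Subgroup.normalizer (Z : Set G) := by
  constructor
  · intro x hx
    by_contra hne
    apply hx
    apply mem_normalizer_of_smul_eq
    -- R = P ⊓ x P x⁻¹ contains Z; also x⁻¹ R x contains Z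
    have hZR : Z ≤ P ⊓ MulAut.conj x • P :=
      le_of_ne_bot p P hP hcyc Z hZ hZcard _ inf_le_left hne
    set R' : Subgroup G := (MulAut.conj x)⁻¹ • (P ⊓ MulAut.conj x • P) with hR'
    have hR'P : R' ≤ P := by
      intro y hy
      have h1 := Subgroup.mem_pointwise_smul_iff_inv_smul_mem.1 hy
      rw [inv_inv] at h1
      have h2 := (Subgroup.mem_inf.1 h1).2
      exact (Subgroup.smul_mem_pointwise_smul_iff).1 h2
    have hR'1 : R' ≠ ⊥ := by
      intro h
      apply hne
      have : MulAut.conj x • R' = ⊥ := by rw [h]; exact Subgroup.smul_bot _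
      rw [hR', smul_inv_smul] at this
      exact this
    have hZR' : Z ≤ R' := le_of_ne_bot p P hP hcyc Z hZ hZcard _ hR'P hR'1
    have h1 : MulAut.conj x • Z ≤ P ⊓ MulAut.conj x • P := by
      have : MulAut.conj x • Z ≤ MulAut.conj x • R' := Subgroup.pointwise_smul_le_pointwise_smul_iff.2 hZR'
      rwa [hR', smul_inv_smul] at this
    exact uniq p P hcyc Z hZ hZcard _ (h1.trans inf_le_left) ((card_conj_smul x Z).trans hZcard)
  · intro Q hQP hQ1 g hg
    apply mem_normalizer_of_smul_eq
    have hZQ : Z ≤ Q := le_of_ne_bot p P hP hcyc Z hZ hZcard Q hQP hQ1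
    have h1 : MulAut.conj g • Z ≤ Q := by
      intro y hy
      have h2 := Subgroup.mem_pointwise_smul_iff_inv_smul_mem.1 hy
      have h3 := hZQ h2
      have h4 := (Subgroup.mem_normalizer_iff.1 hg _).1 h3
      have h5 : g * ((MulAut.conj g)⁻¹ • y) * g⁻¹ = y := by
        have : MulAut.conj g • ((MulAut.conj g)⁻¹ • y) = y := smul_inv_smul _ _
        rw [MulAut.smul_def, MulAut.conj_apply] at this
        exact this
      rwa [h5] at h4
    exact uniq p P hcyc Z hZ hZcard _ (h1.trans hQP) ((card_conj_smul g Z).trans hZcard)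

end Cfsg.Agent.S4636
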