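import Mathlib
import Cfsg.Statements.S4638
import Cfsg.Agent.Lib.KlSide
import Cfsg.Agent.Lib.PiKernel

set_option autoImplicit false
set_option linter.style.haveILetI false
open Cfsg

namespace Cfsg.Agent.S4638

open Cfsg.Agent.Lib.KlSide Cfsg.Agent.Lib.KlPerf Cfsg.Agent.Lib.KleinDefect
open Cfsg.Agent.Lib.BrauerCorr Cfsg.Agent.Lib.BrauerStab Cfsg.Agent.Lib.BrauerLift
open Cfsg.Agent.Lib.BlockQ Cfsg.Agent.Lib.BrauerConj Cfsg.Agent.Lib.PiKernel

/-- Let B be a block of the finite group G relative to a maximal ideal M of the algebraic integers containing 2, with a Klein four defect group P, and let c be its Brauer correspondent: the block of N_G(P) with defect group P that induces B. Then there is a perfect isometry from c onto B. -/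
theorem result {G : Type*} [Group G] [Finite G] (M : Ideal Cfsg.AlgInt) (hM : Cfsg.IsPModular 2 M) (B : Set (Cfsg.IrrCharacter G)) (hB : Cfsg.IsPBlock M B) (P : Subgroup G) (hPD : Cfsg.IsDefectGroup 2 M B P) (hV : IsKleinFour P) (c : Set (Cfsg.IrrCharacter (Subgroup.normalizer (P : Set G)))) (hcD : Cfsg.IsDefectGroup 2 M c (P.subgroupOf (Subgroup.normalizer (P : Set G)))) (hc : Cfsg.IsInducedBlock M (Subgroup.normalizer (P : Set G)) c B) : ∃ (I : Cfsg.IrrCharacter (Subgroup.normalizer (P : Set G)) → Cfsg.IrrCharacter G) (ε : Cfsg.IrrCharacter (Subgroup.normalizer (P : Set G)) → ℤ), Cfsg.IsPerfectIsometry 2 M c B I ε := by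
  classical
  letI : Fintype G := Fintype.ofFinite G
  letI fN : Fintype (Subgroup.normalizer (P : Set G)) := Fintype.ofFinite _
  haveI : Fact (Nat.Prime 2) := ⟨Nat.prime_two⟩
  haveI := Cfsg.Agent.Lib.BlockLocal.isPrime_of_isPModular hM
  have hpD : IsPGroup 2 P := isPGroup_P hV
  obtain ⟨gh, hgh⟩ := exists_maximal_of_isDefectGroup hM hc.1 hcD
  have m : CenMatch (P.subgroupOf (Subgroup.normalizer (P : Set G))) P := cenMatch_of_le (Q := P)
    (Subgroup.centralizer_le_normalizer _) (Subgroup.le_normalizer) le_rfl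
  have hmax := Cfsg.Agent.Lib.PiKernel.isMaximal_of_isDefectGroup hM hB hPD (lift_pair hM hc hgh.1 hpD m)
  haveI hV' : IsKleinFour (P.subgroupOf (Subgroup.normalizer (P : Set G))) :=
    isKleinFour_of_equiv (Subgroup.subgroupOfEquivOfLe Subgroup.le_normalizer)
  have hcardB := card_bF_eq hV hM hmax hPD
  have hcardc := card_bF_eq hV' hM hgh hcD
  obtain ⟨I, hI⟩ := exists_bijOn (c := c) (B := B) (by rw [hcardB, hcardc]) (isPBlock_nonempty hB)
  -- the two stabilizers
  have hinv : Cfsg.Agent.Lib.BrauerConj.twistSetE m.iso.symm (Cfsg.Agent.Lib.BrauerConj.twistSetE m.iso gh) = gh := by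
    unfold Cfsg.Agent.Lib.BrauerConj.twistSetE
    rw [Set.image_image]
    have e : ∀ x, Cfsg.Agent.Lib.BrauerConj.twistE m.iso.symm (Cfsg.Agent.Lib.BrauerConj.twistE m.iso x) = x := fun x => by
      apply Subtype.ext
      funext k
      simp [Cfsg.Agent.Lib.BrauerConj.twistE_apply]
    simp only [e, Set.image_id']
  have hiff : (∀ t ∈ Subgroup.normalizer (P : Set G), StabilizesBlock (Subgroup.centralizer (P : Set G))
        (Cfsg.Agent.Lib.BrauerConj.twistSetE m.iso gh) t → t ∈ Subgroup.centralizer (P : Set G)) ↔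
      (∀ t ∈ Subgroup.normalizer ((P.subgroupOf (Subgroup.normalizer (P : Set G)) : Subgroup _) : Set (Subgroup.normalizer (P : Set G))),
        StabilizesBlock (Subgroup.centralizer ((P.subgroupOf (Subgroup.normalizer (P : Set G)) : Subgroup _) : Set (Subgroup.normalizer (P : Set G)))) gh t →
        t ∈ Subgroup.centralizer ((P.subgroupOf (Subgroup.normalizer (P : Set G)) : Subgroup _) : Set (Subgroup.normalizer (P : Set G)))) := by
    constructor
    · intro h t ht hts
      apply (m.iff t).2
      exact h _ t.2 (m.stabilizes_of_hat hts)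
    · intro h t ht hts
      have h1 := m.stabilizes_hat (u := ⟨t, ht⟩) hts
      rw [hinv] at h1
      have h2 : (⟨t, ht⟩ : Subgroup.normalizer (P : Set G)) ∈
          Subgroup.normalizer ((P.subgroupOf (Subgroup.normalizer (P : Set G)) : Subgroup _) : Set (Subgroup.normalizer (P : Set G))) := by
        rw [Subgroup.mem_normalizer_iff]
        intro y
        have key := Subgroup.mem_normalizer_iff.1 ht (y : G)
        simpa [Subgroup.mem_subgroupOf] using key
      exact (m.iff ⟨t, ht⟩).1 (h _ h2 h1)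
  by_cases htriv : ∀ t ∈ Subgroup.normalizer (P : Set G), StabilizesBlock (Subgroup.centralizer (P : Set G))
        (Cfsg.Agent.Lib.BrauerConj.twistSetE m.iso gh) t → t ∈ Subgroup.centralizer (P : Set G)
  · obtain ⟨χ₀, -, h1⟩ := agree_of_triv hV hM hmax htriv
    obtain ⟨ψ₀, -, h2⟩ := agree_of_triv hV' hM hgh (hiff.1 htriv)
    exact ⟨I, fun _ => 1, perf_agree hM hI hcardc h1 h2 (klSections hV hM hmax) (klSections hV' hM hgh)⟩
  · have h1 := trans_of_not_triv hV hM hmax htriv
    have h2 := trans_of_not_triv hV' hM hgh (fun h => htriv (hiff.2 h))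
    obtain ⟨n₀, hn₀⟩ := klRow hV hM hmax h1
    obtain ⟨n₁, hn₁⟩ := klRow hV' hM hgh h2
    exact ⟨I, _, perf_row hM hI hcardc hn₀ hn₁⟩

end Cfsg.Agent.S4638
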