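import Cfsg.Statements.S4640
import Cfsg.Agent.S0970
import Cfsg.Agent.Lib.BlockAbelIndex
import Cfsg.Agent.Lib.BlockCover

set_option autoImplicit false
set_option linter.style.haveILetI false
set_option linter.unusedVariables false
set_option linter.unusedSectionVars false
set_option maxHeartbeats 1000000

open Cfsg

namespace Cfsg.Agent.S4640

open Cfsg.Agent.Lib.CharBasic Cfsg.Agent.Lib.CharInd
open Cfsg.Agent.Lib.BlockLocal Cfsg.Agent.Lib.BlockIdem Cfsg.Agent.Lib.BlkNormalSub
open Cfsg.Agent.Lib.BlkDefect Cfsg.Agent.Lib.BlockDefect Cfsg.Agent.Lib.BlockAbelIndex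
open Cfsg.Agent.Lib.BlkSylow
open scoped ComplexConjugate

universe u

/-- Let N be a normal subgroup of the finite group G of index a power of the prime p, M a maximal ideal of the algebraic integers containing p, b a block of N stabilized by every element of G, and B a block of G covering b (some member of B has a member of b as a constituent of its restriction to N). Suppose that B has a commutative defect group P. Then G = NP and P ∩ N is a defect group of b; every member of B restricts to a member of b; every member of b is the restriction of exactly [G : N] members of B; B contains exactly [G : N] times as many irreducible characters as b; and B and b have the same p-regular rank. -/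
theorem result {G : Type*} [Group G] [Fintype G] (p : ℕ) [Fact p.Prime] (M : Ideal Cfsg.AlgInt) (hM : Cfsg.IsPModular p M) (N : Subgroup G) [N.Normal] [Fintype N] (hNi : ∃ k : ℕ, N.index = p ^ k) (b : Set (Cfsg.IrrCharacter N)) (hb : Cfsg.IsPBlock M b) (hstab : ∀ g : G, Cfsg.StabilizesBlock N b g) (B : Set (Cfsg.IrrCharacter G)) (hB : Cfsg.IsPBlock M B) (hcov : ∃ χ ∈ B, ∃ θ ∈ b, Cfsg.classInner (fun n : N => (χ : G → ℂ) n) (θ : N → ℂ) ≠ 0) (P : Subgroup G) (hPD : Cfsg.IsDefectGroup p M B P) (hPab : ∀ x ∈ P, ∀ y ∈ P, x * y = y * x) : N ⊔ P = ⊤ ∧ Cfsg.IsDefectGroup p M b ((P ⊓ N).subgroupOf N) ∧ (∀ χ ∈ B, ∃ θ ∈ b, ∀ n : N, (χ : G → ℂ) n = (θ : N → ℂ) n) ∧ (∀ θ ∈ b, Nat.card {χ : Cfsg.IrrCharacter G // χ ∈ B ∧ ∀ n : N, (χ : G → ℂ) n = (θ : N → ℂ) n} = N.index) ∧ Nat.card B = N.index * Nat.card b ∧ Cfsg.blockRank p B = Cfsg.blockRank p b := by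
  classical
  haveI hMp : M.IsPrime := hM.2.1.isPrime
  have hN : N.Normal := inferInstance
  have hcov' := hcov
  obtain ⟨χ₀, hχ₀, θ₀, hθ₀, hc₀⟩ := hcov
  -- stability
  have hinv : ∀ g : G, ∀ θ ∈ b, ∀ θ' : IrrCharacter N,
      (∀ n : N, (θ' : N → ℂ) n = (θ : N → ℂ) ⟨g * n * g⁻¹, hN.conj_mem n n.2 g⟩) → θ' ∈ b := by
    intro g θ hθ θ' hθ'
    obtain ⟨-, h⟩ := hstab g⁻¹
    obtain ⟨χ', hχ', hconj⟩ := h θ hθ
    have h1 : θ' = χ' := by
      refine Subtype.ext (funext fun n => ?_)
      rw [hθ' n]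
      exact (hconj ⟨g * n * g⁻¹, hN.conj_mem n n.2 g⟩ n (by simp [mul_assoc])).symm
    rw [h1]
    exact hχ'
  have hstable : ∀ (g : G), ∀ ψ ∈ b, conjIrr N hN g ψ ∈ b := fun g ψ hψ =>
    hinv g ψ hψ _ fun n => rfl
  have horbit : ∀ ψ ∈ orbitSet N hN b, ψ ∈ b := by
    rintro ψ ⟨g, hg⟩
    have h1 := hstable g⁻¹ _ hg
    rwa [conjIrr_inv_conjIrr] at h1
  -- covering determines the block
  have hF1 : ∀ χ : IrrCharacter G, ∀ θ ∈ b,
      classInner (fun n : N => (χ : G → ℂ) n) (θ : N → ℂ) ≠ 0 → χ ∈ B := by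
    intro χ θ hθ hc
    have h1 := sameBlock_of_covers_of_index hM hN hNi (sameBlock_of_mem hb hθ₀ hθ) hc₀ hc
    obtain ⟨ξ, rfl⟩ := hB
    exact sameBlock_trans hχ₀ h1
  have hbcl : BlockClosed M b := blockClosed_of_isPBlock hb
  -- Fong
  have hmax : ∀ B' : Set (IrrCharacter G), IsPBlock M B' →
      (∃ χ ∈ B', ∃ θ ∈ b, classInner (fun n : N => (χ : G → ℂ) n) (θ : N → ℂ) ≠ 0) →
      blockDefect p B' ≤ blockDefect p B := by
    rintro B' hB' ⟨χ', hχ', θ', hθ', hc'⟩
    have h1 := hF1 χ' θ' hθ' hc'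
    have h2 : B' = B := by
      ext ψ
      constructor
      · intro hψ
        have h3 := sameBlock_of_mem hB' hψ hχ'
        obtain ⟨ξ, rfl⟩ := hB
        exact sameBlock_trans h1 (sameBlock_symm h3)
      · intro hψ
        have h3 := sameBlock_of_mem hB hψ h1
        obtain ⟨ξ, rfl⟩ := hB'
        exact sameBlock_trans hχ' (sameBlock_symm h3)
    rw [h2]
  obtain ⟨hidxP, hdefect, -⟩ := Cfsg.Agent.S0970.result p M hM N b hb hinv B hB hcov' hmax P hPD
  obtain ⟨k₀, hk₀⟩ := hNi
  have hTop : N ⊔ P = ⊤ := by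
    have h1 : (P ⊔ N).index ∣ N.index := Subgroup.index_dvd_of_le le_sup_right
    rw [hk₀] at h1
    obtain ⟨j, -, hj⟩ := (Nat.dvd_prime_pow (Fact.out : p.Prime)).mp h1
    rcases Nat.eq_zero_or_pos j with rfl | hj0
    · rw [pow_zero, Subgroup.index_eq_one] at hj
      rwa [sup_comm]
    · exact absurd (by rw [hj]; exact dvd_pow_self p hj0.ne') hidxP
  have hNi : ∃ k, N.index = p ^ k := ⟨k₀, hk₀⟩
  -- the defect class
  obtain ⟨y, hy, P₁, hP₁⟩ := hPD
  have hSyl : IsSylowIn p P (Subgroup.centralizer ({y} : Set G)) := by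
    rw [hP₁]
    exact isSylowIn_of_sylow P₁
  have hyreg := regular_of_isDefectClass hM hB hy
  have hyN : y ∈ N := mem_of_regular_of_index hNi hN hyreg
  have hyP : ∀ u ∈ P, Commute u y := fun u hu =>
    Subgroup.mem_centralizer_singleton_iff.mp (hSyl.2.1 hu)
  -- restriction is irreducible
  have hres : ∀ χ : IrrCharacter G, χ ∈ B → IsIrrCharacter N (fun n : N => (χ : G → ℂ) n) := by
    intro χ hχ
    obtain ⟨k, ρ, hρ, hχρ⟩ := χ.2
    have hne : ∀ u ∈ P, ρ.character (u * y) ≠ 0 := by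
      intro u hu h0
      apply centralChar_not_mem_of_center hM hB hy hSyl hu (fun w hw => hPab u hu w hw) hχ
      unfold centralChar
      rw [← hχρ, h0, mul_zero, zero_div]
      exact memLocalIdeal_zero
    have h1 := isIrrCharacter_restrict N P ρ hTop hyN hyP hPab hρ hne
    rwa [hχρ] at h1
  -- restriction lands in `b`
  have hresb : ∀ (χ : IrrCharacter G) (hχ : χ ∈ B), (⟨_, hres χ hχ⟩ : IrrCharacter N) ∈ b := by
    intro χ hχ
    apply horbit
    refine mem_orbitSet_of_congr (χ := χ) hN hbcl hθ₀ (fun n => ?_) ?_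
    · exact memLocalIdeal_of_covers hN (sameBlock_of_mem hB hχ₀ hχ) (sameBlock_refl _) hc₀ n
    · show classInner (fun n : N => (χ : G → ℂ) n) (fun n : N => (χ : G → ℂ) n) ≠ 0
      rw [classInner_irr_self (hres χ hχ)]
      exact one_ne_zero
  -- constituents of the restriction
  have hover : ∀ (χ : IrrCharacter G), ∀ θ ∈ b,
      classInner (fun n : N => (χ : G → ℂ) n) (θ : N → ℂ) ≠ 0 →
      χ ∈ B ∧ ∀ n : N, (χ : G → ℂ) n = (θ : N → ℂ) n := by
    intro χ θ hθ hc
    have h1 := hF1 χ θ hθ hc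
    refine ⟨h1, fun n => ?_⟩
    by_contra hne
    apply hc
    refine classInner_irr_ne (hres χ h1) θ.2 ?_
    intro h2
    exact hne (congrFun h2 n)
  -- the fibres
  have hfib : ∀ θ ∈ b, Nat.card {χ : IrrCharacter G // χ ∈ B ∧ ∀ n : N, (χ : G → ℂ) n = (θ : N → ℂ) n} =
      N.index := by
    intro θ hθ
    have hθ1 : (θ : N → ℂ) 1 ≠ 0 := irr_one_ne_zero' θ.2
    have h1 := classFunction_eq_sum (indFun_isClassFunction N (θ : N → ℂ))
    have h2 := congrFun h1 1
    rw [indFun_one, Finset.sum_apply] at h2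
    have h3 : ∀ χ : IrrCharacter G, (classInner (indFun N (θ : N → ℂ)) (χ : G → ℂ) • (χ : G → ℂ)) 1 =
        if (χ ∈ B ∧ ∀ n : N, (χ : G → ℂ) n = (θ : N → ℂ) n) then (θ : N → ℂ) 1 else 0 := by
      intro χ
      rw [Pi.smul_apply, smul_eq_mul, frobenius N _ (isClassFunction_of_isCharacter
        (IsIrrCharacter.isCharacter χ.2))]
      split_ifs with hE
      · have h4 : (fun h : N => (χ : G → ℂ) h) = (θ : N → ℂ) := funext hE.2
        rw [h4, classInner_irr_self θ.2, one_mul]
        have h5 := hE.2 1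
        simpa using h5
      · have h4 : classInner (fun n : N => (χ : G → ℂ) n) (θ : N → ℂ) = 0 := by
          by_contra hc
          exact hE (hover χ θ hθ hc)
        have h5 : classInner (θ : N → ℂ) (fun h : N => (χ : G → ℂ) h) = 0 := by
          rw [← classInner_conj_symm, h4, map_zero]
        rw [h5, zero_mul]
    simp only [h3] at h2
    rw [Finset.sum_ite, Finset.sum_const_zero, add_zero, Finset.sum_const, nsmul_eq_mul] at h2
    have h6 := mul_right_cancel₀ hθ1 h2
    rw [Nat.card_eq_fintype_card, Fintype.card_subtype]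
    exact_mod_cast h6.symm
  -- every member of `b` is a restriction
  have hsurj : ∀ θ ∈ b, ∃ χ : IrrCharacter G, χ ∈ B ∧ ∀ n : N, (χ : G → ℂ) n = (θ : N → ℂ) n := by
    intro θ hθ
    obtain ⟨χ, -, hc⟩ := Cfsg.Agent.Lib.BlockCover.exists_constituent_of_cover hB hb hcov' hθ
    exact ⟨χ, hover χ θ hθ hc⟩
  refine ⟨hTop, hdefect, ?_, hfib, ?_, ?_⟩
  · intro χ hχ
    exact ⟨_, hresb χ hχ, fun n => rfl⟩
  · -- counting
    let r : B → b := fun χ => ⟨⟨_, hres χ.1 χ.2⟩, hresb χ.1 χ.2⟩
    have h1 : Nat.card B = ∑ θ : b, Nat.card {χ : B // r χ = θ} := by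
      rw [← Nat.card_congr (Equiv.sigmaFiberEquiv r), Nat.card_sigma]
    have h2 : ∀ θ : b, Nat.card {χ : B // r χ = θ} = N.index := by
      intro θ
      rw [← hfib θ.1 θ.2]
      refine Nat.card_congr
        { toFun := fun χ => ⟨χ.1.1, χ.1.2, fun n => ?_⟩
          invFun := fun χ => ⟨⟨χ.1, χ.2.1⟩, ?_⟩
          left_inv := fun χ => rfl
          right_inv := fun χ => rfl }
      · exact congrFun (congrArg (fun t : b => ((t.1 : IrrCharacter N) : N → ℂ)) χ.2) n
      · refine Subtype.ext (Subtype.ext (funext fun n => ?_))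
        exact χ.2.2 n
    rw [h1]
    simp only [h2, Finset.sum_const, Finset.card_univ, smul_eq_mul]
    rw [Nat.card_eq_fintype_card, mul_comm]
  · -- the `p`-regular rank
    let L : (N → ℂ) →ₗ[ℂ] (G → ℂ) :=
      { toFun := fun f g => if h : g ∈ N then f ⟨g, h⟩ else 0
        map_add' := fun f₁ f₂ => by
          funext g
          by_cases h : g ∈ N <;> simp [h]
        map_smul' := fun c f => by
          funext g
          by_cases h : g ∈ N <;> simp [h] }
    have hLinj : Function.Injective L := by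
      intro f₁ f₂ h
      funext n
      have h1 := congrFun h (n : G)
      simpa [L, n.2] using h1
    have hreg : ∀ n : N, IsPRegular p n ↔ IsPRegular p (n : G) := by
      intro n
      unfold IsPRegular
      rw [Subgroup.orderOf_coe]
    have hL : ∀ (χ : IrrCharacter G) (hχ : χ ∈ B),
        pRegularPart p (χ : G → ℂ) = L (pRegularPart p (fun n : N => (χ : G → ℂ) n)) := by
      intro χ hχ
      funext g
      unfold pRegularPart
      by_cases hg : IsPRegular p g
      · have hgN : g ∈ N := mem_of_regular_of_index hNi hN hg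
        have h2 : IsPRegular p (⟨g, hgN⟩ : N) := (hreg ⟨g, hgN⟩).mpr hg
        simp [L, hg, hgN, h2]
      · by_cases hgN : g ∈ N
        · have h2 : ¬ IsPRegular p (⟨g, hgN⟩ : N) := fun h => hg ((hreg ⟨g, hgN⟩).mp h)
          simp [L, hg, hgN, h2]
        · simp [L, hg, hgN]
    have himg : ((fun χ : IrrCharacter G => pRegularPart p (χ : G → ℂ)) '' B) =
        L '' ((fun θ : IrrCharacter N => pRegularPart p (θ : N → ℂ)) '' b) := by
      ext f
      constructor
      · rintro ⟨χ, hχ, rfl⟩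
        exact ⟨_, ⟨⟨_, hres χ hχ⟩, hresb χ hχ, rfl⟩, (hL χ hχ).symm⟩
      · rintro ⟨_, ⟨θ, hθ, rfl⟩, rfl⟩
        obtain ⟨χ, hχ, hχθ⟩ := hsurj θ hθ
        refine ⟨χ, hχ, ?_⟩
        show pRegularPart p (χ : G → ℂ) = _
        rw [hL χ hχ]
        have h2 : (fun n : N => (χ : G → ℂ) n) = (θ : N → ℂ) := funext hχθ
        rw [h2]
    unfold blockRank
    rw [himg, ← Submodule.map_span]
    exact (LinearEquiv.finrank_eq (Submodule.equivMapOfInjective L hLinj _)).symm

end Cfsg.Agent.S4640
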