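import Mathlib
import Cfsg.Statements.S4642
import Cfsg.Agent.Lib.FongPrincipal

set_option autoImplicit false
set_option linter.style.haveILetI false
open Cfsg

namespace Cfsg.Agent.S4642

open Cfsg.Agent.Lib.FongPrincipal Cfsg.Agent.Lib.BlkFong Cfsg.Agent.Lib.BlkNormalSub Cfsg.Agent.Lib.CharInduction Cfsg.Agent.Lib.BrauerPair Cfsg.Agent.Lib.CharBasic

/-- Let G be a finite group, p a prime, M a maximal ideal of the algebraic integers containing p, K the largest normal subgroup of G of order prime to p, and L the preimage in G of the largest normal p-subgroup of G/K. Let Q be a Sylow p-subgroup of L and suppose C_G(Q) ≤ L. Let θ be an irreducible character of K invariant under conjugation by every element of G, and let B be the set of irreducible characters of G whose restriction to K contains θ. Then B is a block of G, every Sylow p-subgroup of G is a defect group of B, and B is of principal type: for every p-subgroup R of G exactly one block of C_G(R) induces B. -/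
theorem result {G : Type*} [Group G] [Fintype G] (p : ℕ) [Fact p.Prime] (M : Ideal Cfsg.AlgInt) (hM : Cfsg.IsPModular p M) (K : Subgroup G) (hK : K = Cfsg.pPrimeCore p G) [Fintype K] (L : Subgroup G) (hL : L = Cfsg.pPrimePCore p G) (Q : Subgroup G) (hQL : Q ≤ L) (hQp : IsPGroup p Q) (hQS : ¬ p ∣ Q.relIndex L) (hCQ : Subgroup.centralizer (Q : Set G) ≤ L) (θ : Cfsg.IrrCharacter K) (hθ : ∀ g : G, Cfsg.IsConjCharOf K g (θ : K → ℂ) (θ : K → ℂ)) (B : Set (Cfsg.IrrCharacter G)) (hBdef : ∀ χ : Cfsg.IrrCharacter G, χ ∈ B ↔ Cfsg.classInner (fun k : K => (χ : G → ℂ) k) (θ : K → ℂ) ≠ 0) : Cfsg.IsPBlock M B ∧ (∀ S : Sylow p G, Cfsg.IsDefectGroup p M B S) ∧ ∀ R : Subgroup G, IsPGroup p R → ∃! f : Set (Cfsg.IrrCharacter (Subgroup.centralizer (R : Set G))), Cfsg.IsInducedBlock M (Subgroup.centralizer (R : Set G)) f B := by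
    classical
    subst hK hL
    haveI hMp := hM.2.1.isPrime
    have hKn : (pPrimeCore p G).Normal := inferInstance
    have hKp : ¬ p ∣ Nat.card (pPrimeCore p G) := Cfsg.Agent.Lib.PCore.not_dvd_card_pPrimeCore p
    -- `G` is `p`-constrained
    have hG : IsPConstrained p G := by
      intro P y hy
      have hQ₁p : IsPGroup p (Q.subgroupOf (pPrimePCore p G)) :=
        hQp.comap_of_injective (pPrimePCore p G).subtype (pPrimePCore p G).subtype_injective
      let Q₁ : Sylow p (pPrimePCore p G) := IsPGroup.toSylow hQ₁p (by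
        show ¬ p ∣ Q.relIndex (pPrimePCore p G)
        exact hQS)
      obtain ⟨g, hg⟩ := MulAction.exists_smul_eq (pPrimePCore p G) Q₁ P
      have hconj : ∀ q ∈ Q, (g : G) * q * (g : G)⁻¹ ∈
          (P : Subgroup (pPrimePCore p G)).map (pPrimePCore p G).subtype := by
        intro q hq
        have hq' : q ∈ pPrimePCore p G := hQL hq
        have h1 : (⟨q, hq'⟩ : pPrimePCore p G) ∈ (Q₁ : Subgroup (pPrimePCore p G)) :=
          Subgroup.mem_subgroupOf.mpr hq
        have h2 : g * ⟨q, hq'⟩ * g⁻¹ ∈ (P : Subgroup (pPrimePCore p G)) := by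
          rw [← hg, Sylow.coe_subgroup_smul]
          exact ⟨⟨q, hq'⟩, h1, rfl⟩
        exact ⟨_, h2, rfl⟩
      have h3 : (g : G)⁻¹ * y * g ∈ Subgroup.centralizer (Q : Set G) := by
        rw [Subgroup.mem_centralizer_iff]
        intro q hq
        have h4 := Subgroup.mem_centralizer_iff.mp hy _ (hconj q hq)
        have e : q * ((g : G)⁻¹ * y * g) = (g : G)⁻¹ * (((g : G) * q * (g : G)⁻¹) * y) * g := by group
        have e' : (g : G)⁻¹ * y * g * q = (g : G)⁻¹ * (y * ((g : G) * q * (g : G)⁻¹)) * g := by group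
        rw [e, e', h4]
      have h5 := hCQ h3
      have h6 := (inferInstance : (pPrimePCore p G).Normal).conj_mem _ h5 g
      have e : (g : G) * ((g : G)⁻¹ * y * g) * (g : G)⁻¹ = y := by group
      rwa [e] at h6
    have hθ' : ∀ g : G, conjIrr (pPrimeCore p G) inferInstance g θ = θ := by
      intro g
      apply Subtype.ext
      funext n
      rw [conjIrr_coe, conjBy_apply]
      exact hθ g n _ rfl
    have hBeq : B = Cov (G := G) ({θ} : Set (IrrCharacter (pPrimeCore p G))) := by
      ext χ
      rw [hBdef χ]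
      constructor
      · intro h
        exact ⟨θ, rfl, h⟩
      · rintro ⟨θ₁, hθ₁, h⟩
        rw [Set.mem_singleton_iff] at hθ₁
        rw [← hθ₁]
        exact h
    rw [hBeq]
    have hBb := isPBlock_cov (M := M) hM hG θ hθ'
    have hKst : Stable (pPrimeCore p G) hKn ({θ} : Set (IrrCharacter (pPrimeCore p G))) := by
      intro g ψ hψ
      rw [Set.mem_singleton_iff] at hψ ⊢
      rw [hψ]
      exact hθ' g
    refine ⟨hBb, fun S => ?_, fun R hR => existsUnique_induced hM hG θ hθ' hR⟩
    apply isDefectGroup_of_coeff_one hM hBb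
    · rw [blockCoeff_cov hKst, ext0_of_mem (pPrimeCore p G) _ (Subgroup.one_mem _)]
      exact not_memLocalIdeal_coeff_one hM hKp θ
    · exact Sylow.card_eq_multiplicity S

end Cfsg.Agent.S4642
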