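import Mathlib
import Cfsg.Statements.S4644
import Cfsg.Agent.Lib.WaMain

set_option autoImplicit false
open Cfsg

namespace Cfsg.Agent.S4644

open Cfsg.Agent.Lib.WaMain Cfsg.Agent.Lib.WaTr Cfsg.Agent.Lib.BlockSection Cfsg.Agent.Lib.BrauerLift
open Cfsg.Agent.Lib.BlockSecond

/-- Let B be a block of the finite group G relative to a maximal ideal M of the algebraic integers containing the prime p, with a commutative defect group P; let c be a block of C_G(P) inducing B and T the stabilizer of c in N_G(P). Let u be an element of P fixed under conjugation by every element of T, H = C_G(u) (so C_G(P) ≤ H), and f the block of H induced by c inside H. Then B and f have the same p-regular rank and the same number of irreducible characters. -/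
theorem result {G : Type*} [Group G] [Finite G] (p : ℕ) [Fact p.Prime] (M : Ideal Cfsg.AlgInt) (hM : Cfsg.IsPModular p M) (B : Set (Cfsg.IrrCharacter G)) (hB : Cfsg.IsPBlock M B) (P : Subgroup G) (hPD : Cfsg.IsDefectGroup p M B P) (hPab : ∀ x ∈ P, ∀ y ∈ P, x * y = y * x) (c : Set (Cfsg.IrrCharacter (Subgroup.centralizer (P : Set G)))) (hc : Cfsg.IsInducedBlock M (Subgroup.centralizer (P : Set G)) c B) (T : Subgroup G) (hT : ∀ g : G, g ∈ T ↔ (g ∈ Subgroup.normalizer (P : Set G) ∧ Cfsg.StabilizesBlock (Subgroup.centralizer (P : Set G)) c g)) (u : G) (hu : u ∈ P) (huT : ∀ g ∈ T, g * u * g⁻¹ = u) (H : Subgroup G) (hH : H = Subgroup.centralizer ({u} : Set G)) (f : Set (Cfsg.IrrCharacter H)) (hf : Cfsg.IsInducedBlockIn M H (Subgroup.centralizer (P : Set G)) c f) : Cfsg.blockRank p B = Cfsg.blockRank p f ∧ Nat.card B = Nat.card f := by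
  classical
  letI : Fintype G := Fintype.ofFinite G
  haveI := Cfsg.Agent.Lib.BlockLocal.isPrime_of_isPModular hM
  obtain rfl : H = Subgroup.centralizer ((Subgroup.zpowers u : Subgroup G) : Set G) :=
    hH.trans (centralizer_zpowers_eq u).symm
  have hPp : IsPGroup p P := by
    obtain ⟨g, -, P', hP'⟩ := hPD
    rw [hP']
    exact P'.isPGroup'.map _
  have h1 := isBrauerPairOf_of_isInducedBlock hM hPp hc
  have hmax := isMaximal_of_isDefectGroup hM h1 hPD
  have hfix : ∀ t, t ∈ Subgroup.normalizer (P : Set G) →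
      Cfsg.StabilizesBlock (Subgroup.centralizer (P : Set G)) c t → t * u * t⁻¹ = u :=
    fun t ht hts => huT t ((hT t).2 ⟨ht, hts⟩)
  have hle := (isInducedBlockIn_iff_subpairLE hM hmax.1.1 hPab (Subgroup.zpowers_le.2 hu)).1 hf
  exact ⟨mainFor hM _ G rfl B P c hmax hPab u hu hfix f hle, card_eq hM hmax hPab hu hfix hle⟩

end Cfsg.Agent.S4644
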