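import Mathlib
import Cfsg.Statements.S4650
import Cfsg.Agent.Lib.BrauerIn

set_option autoImplicit false
open Cfsg

namespace Cfsg.Agent.S4650

open Cfsg.Agent.Lib.BrauerIn Cfsg.Agent.Lib.BlockSection Cfsg.Agent.Lib.BrauerSat Cfsg.Agent.Lib.BrauerNil Cfsg.Agent.Lib.BrauerLift Cfsg.Agent.Lib.BlockLocal Cfsg.Agent.Lib.BrauerCen Cfsg.Agent.Lib.BrauerStab
set_option linter.unusedVariables false
set_option linter.style.haveILetI false

/-- Let B be a block of the finite group G relative to a maximal ideal M of the algebraic integers containing the prime p, with a nontrivial commutative defect group P; let c be a block of C_G(P) inducing B and T the stabilizer of c in N_G(P). Then T/C_G(P) acts freely on the non-identity elements of P (an element of T fixing a non-identity element of P under conjugation lies in C_G(P)) if and only if, for every nontrivial subgroup Q of P, the block of C_G(Q) induced by c inside C_G(Q) is a nilpotent block of C_G(Q). -/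
theorem result {G : Type*} [Group G] [Finite G] (p : ℕ) [Fact p.Prime] (M : Ideal Cfsg.AlgInt) (hM : Cfsg.IsPModular p M) (B : Set (Cfsg.IrrCharacter G)) (hB : Cfsg.IsPBlock M B) (P : Subgroup G) (hPD : Cfsg.IsDefectGroup p M B P) (hPab : ∀ x ∈ P, ∀ y ∈ P, x * y = y * x) (hP1 : P ≠ ⊥) (c : Set (Cfsg.IrrCharacter (Subgroup.centralizer (P : Set G)))) (hc : Cfsg.IsInducedBlock M (Subgroup.centralizer (P : Set G)) c B) (T : Subgroup G) (hT : ∀ g : G, g ∈ T ↔ (g ∈ Subgroup.normalizer (P : Set G) ∧ Cfsg.StabilizesBlock (Subgroup.centralizer (P : Set G)) c g)) : (∀ g ∈ T, ∀ x ∈ P, x ≠ 1 → g * x * g⁻¹ = x → g ∈ Subgroup.centralizer (P : Set G)) ↔ ∀ Q : Subgroup G, Q ≤ P → Q ≠ ⊥ → ∀ f : Set (Cfsg.IrrCharacter (Subgroup.centralizer (Q : Set G))), Cfsg.IsInducedBlockIn M (Subgroup.centralizer (Q : Set G)) (Subgroup.centralizer (P : Set G)) c f → Cfsg.IsNilpotentBlock p M f := by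
  classical
  letI := Fintype.ofFinite G
  haveI := isPrime_of_isPModular hM
  have hPp : IsPGroup p P := by
    obtain ⟨g, -, S, rfl⟩ := hPD
    exact S.isPGroup'.map _
  have hE : IsBrauerPairOf p M B P c := isBrauerPairOf_of_isInducedBlock hM hPp hc
  have hmax := isMaximal_of_isDefectGroup hM hE hPD
  have hPC : ∀ Q : Subgroup G, Q ≤ P → P ≤ Subgroup.centralizer (Q : Set G) := by
    intro Q hQ x hx
    rw [Subgroup.mem_centralizer_iff]
    intro q hq
    exact hPab q (hQ hq) x hx
  have hconv : ∀ (Q : Subgroup G) (hQ : Q ≤ P) (x : Subgroup.centralizer (Q : Set G)),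
      x ∈ Subgroup.normalizer ((P.subgroupOf (Subgroup.centralizer (Q : Set G)) : Subgroup _) : Set (Subgroup.centralizer (Q : Set G))) →
      (x : G) ∈ Subgroup.normalizer (P : Set G) := by
    intro Q hQ x hx
    have h1 := mem_normalizer_map hx
    have h2 : (P.subgroupOf (Subgroup.centralizer (Q : Set G))).map (Subgroup.centralizer (Q : Set G)).subtype = P := by
      rw [Subgroup.subgroupOf_map_subtype]
      exact inf_eq_left.2 (hPC Q hQ)
    rwa [h2] at h1
  constructor
  · intro hfree Q hQ hQ1 f hf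
    have hQP := hPC Q hQ
    have hpair := isBrauerPairOf_in hM hPp hQ hQP hf
    have hm := isMaximal_in hM hPD hQ hQP hE hpair hf.2.1
    have hab : ∀ x ∈ P.subgroupOf (Subgroup.centralizer (Q : Set G)),
        ∀ y ∈ P.subgroupOf (Subgroup.centralizer (Q : Set G)), x * y = y * x := by
      intro x hx y hy
      exact Subtype.ext (hPab _ hx _ hy)
    refine (isNilpotentBlock_iff_of_abelian hM hm hab).2 fun x hxN hxs => ?_
    have m := cenMatch_in hQ hQP
    have hxs' := m.stabilizes_of_hat hxs
    rw [m.twistSetE_symm] at hxs'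
    have hxT : (x : G) ∈ T := (hT _).2 ⟨hconv Q hQ x hxN, hxs'⟩
    rcases Q.bot_or_exists_ne_one with h0 | ⟨q, hq, hq1⟩
    · exact absurd h0 hQ1
    have h1 := hfree _ hxT q (hQ hq) hq1
      (by
        have := (Subgroup.mem_centralizer_iff.1 x.2) q hq
        rw [← this, mul_inv_cancel_right])
    exact (m.iff x).2 h1
  · intro hnil g hg x hx hx1 hgx
    set Q : Subgroup G := Subgroup.zpowers x with hQdef
    have hQ : Q ≤ P := (Subgroup.zpowers_le).2 hx
    have hQ1 : Q ≠ ⊥ := by
      intro h0
      exact hx1 (Subgroup.zpowers_eq_bot.1 h0)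
    have hQP := hPC Q hQ
    obtain ⟨f, hf⟩ := exists_isInducedBlockIn hM hPp hQ hQP hE.1.2
    have hnf := hnil Q hQ hQ1 f hf
    have hpair := isBrauerPairOf_in hM hPp hQ hQP hf
    have m := cenMatch_in hQ hQP
    have hgQ : g ∈ Subgroup.centralizer (Q : Set G) := by
      rw [Subgroup.mem_centralizer_iff]
      rintro _ ⟨j, rfl⟩
      have h1 : Commute g x := mul_inv_eq_iff_eq_mul.1 hgx
      exact (h1.zpow_right j).eq.symm
    set gh : Subgroup.centralizer (Q : Set G) := ⟨g, hgQ⟩ with hgh
    obtain ⟨k, hk⟩ := exists_pow_isPRegular (p := p) gh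
    have hgN : ((g : G)) ∈ Subgroup.normalizer (P : Set G) := ((hT g).1 hg).1
    have h2 : gh ∈ Subgroup.normalizer ((P.subgroupOf (Subgroup.centralizer (Q : Set G)) : Subgroup _) : Set (Subgroup.centralizer (Q : Set G))) := by
      rw [Subgroup.mem_normalizer_iff]
      intro a
      have := Subgroup.mem_normalizer_iff.1 hgN (a : G)
      simpa [Subgroup.mem_subgroupOf, hgh] using this
    have h3 : ((gh ^ p ^ k : Subgroup.centralizer (Q : Set G)) : G) ∈ T := by
      rw [Subgroup.coe_pow]
      exact T.pow_mem hg _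
    have h4 := hnf.2 _ _ hpair (gh ^ p ^ k) (Subgroup.pow_mem _ h2 _)
      (m.stabilizes_hat ((hT _).1 h3).2) hk
    have h5 := (m.iff _).1 h4
    -- now the `p'`-index
    have hTN : T ≤ Subgroup.normalizer (P : Set G) := fun t ht => ((hT t).1 ht).1
    have hidx := not_dvd_index_stab hM hmax hE.1.2 Relation.ReflTransGen.refl hT hTN
      (fun y hy => by
        apply Subgroup.card_le_of_le
        intro a ha
        exact ⟨ha.1, Subgroup.le_normalizer ha.1⟩)
    have hsup : ((P ⊓ Subgroup.normalizer (P : Set G)).subgroupOf T) ⊔ (theta hTN).ker = (theta hTN).ker := by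
      apply sup_eq_right.2
      intro t ht
      rw [mem_ker_theta]
      rw [Subgroup.mem_centralizer_iff]
      intro q hq
      exact hPab q hq t ht.1
    rw [hsup] at hidx
    set t : T := ⟨g, hg⟩ with ht
    have h6 : (theta hTN t) ^ (p ^ k) = 1 := by
      rw [← map_pow, ← MonoidHom.mem_ker, mem_ker_theta]
      simpa [ht, hgh] using h5
    have h7 : (theta hTN t) ^ ((theta hTN).ker.index) = 1 := by
      rw [← map_pow, ← MonoidHom.mem_ker]
      exact Subgroup.pow_index_mem _ _
    have hcop : Nat.Coprime (p ^ k) (theta hTN).ker.index :=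
      Nat.Coprime.pow_left _ ((Nat.Prime.coprime_iff_not_dvd Fact.out).2 hidx)
    have h8 : orderOf (theta hTN t) = 1 :=
      Nat.eq_one_of_dvd_coprimes hcop (orderOf_dvd_of_pow_eq_one h6) (orderOf_dvd_of_pow_eq_one h7)
    have h9 : t ∈ (theta hTN).ker := by
      rw [MonoidHom.mem_ker]
      exact orderOf_eq_one_iff.1 h8
    exact (mem_ker_theta hTN t).1 h9

end Cfsg.Agent.S4650
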