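import Mathlib
import Cfsg.Statements.S4652
import Cfsg.Agent.Lib.BlockNormal
import Cfsg.Agent.Lib.SylowNum

set_option autoImplicit false
open Cfsg

namespace Cfsg.Agent.S4652

open Cfsg.Agent.Lib Cfsg.Agent.Lib.BlockIdem Cfsg.Agent.Lib.BlockLocal Cfsg.Agent.Lib.BlockNormal

/-- Fix a prime p and a maximal ideal M of the algebraic integers containing p. The defect groups of the principal p-block of a finite group G are exactly the Sylow p-subgroups of G: a subgroup D is a defect group of the principal block if and only if D is a Sylow p-subgroup. -/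
theorem result {G : Type*} [Group G] [Fintype G] (p : ℕ) [Fact p.Prime] (M : Ideal Cfsg.AlgInt) (hM : Cfsg.IsPModular p M) (D : Subgroup G) : Cfsg.IsDefectGroup p M (Cfsg.principalBlock M G) D ↔ ∃ S : Sylow p G, (S : Subgroup G) = D := by
  classical
  haveI := isPrime_of_isPModular hM
  have hp : p.Prime := Fact.out
  let χ₁ : IrrCharacter G := ⟨fun _ => 1, CharBasic.isIrrCharacter_one⟩
  have hχ₁ : ∀ g : G, centralChar (χ₁ : G → ℂ) g = ((Subgroup.centralizer ({g} : Set G)).index : ℂ) := by
    intro g
    simp [centralChar, χ₁]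
  have hmem : χ₁ ∈ principalBlock M G := sameBlock_refl (M := M) _
  constructor
  · rintro ⟨g, hdc, P, rfl⟩
    have h1 := hdc.2.2 χ₁ hmem
    rw [hχ₁] at h1
    have h2 : ¬ p ∣ (Subgroup.centralizer ({g} : Set G)).index := fun h =>
      h1 (memLocalIdeal_natCast_of_dvd hM h)
    have hpg : IsPGroup p ((P : Subgroup (Subgroup.centralizer ({g} : Set G))).map (Subgroup.centralizer ({g} : Set G)).subtype) :=
      P.isPGroup'.map _
    have hidx : ¬ p ∣ ((P : Subgroup (Subgroup.centralizer ({g} : Set G))).map (Subgroup.centralizer ({g} : Set G)).subtype).index := by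
      rw [Subgroup.index_map_subtype]
      intro hd
      rcases (Nat.Prime.dvd_mul hp).1 hd with h | h
      · exact P.not_dvd_index h
      · exact h2 h
    exact ⟨hpg.toSylow hidx, rfl⟩
  · rintro ⟨S, rfl⟩
    set B := principalBlock M G with hB
    have hBlock : IsPBlock M B := ⟨χ₁, rfl⟩
    set f := blockCoeff B with hf
    have hfcl : IsClassFunction G f := blockCoeff_isClassFunction B
    letI : Fintype (ConjClasses G) := Fintype.ofFinite _
    -- a class on which the coefficient and the size are units
    have hex : ∃ K : ConjClasses G, ¬ MemLocalIdeal M (f (Quotient.out K) *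
        centralChar (χ₁ : G → ℂ) (Quotient.out K)) := by
      by_contra hcon
      push Not at hcon
      have h1 := indicator_apply_eq_omega B χ₁
      rw [if_pos hmem, omega_eq_sum_classes χ₁ hfcl] at h1
      apply not_memLocalIdeal_one (M := M)
      rw [← h1]
      exact memLocalIdeal_sum _ _ fun K _ => hcon K
    obtain ⟨K, hK⟩ := hex
    set g₀ := Quotient.out K with hg₀
    have hfu : ¬ MemLocalIdeal M (f g₀) := fun h =>
      hK (memLocalIdeal_mul_right h (memLocalRing_of_isIntegral (isIntegral_centralChar χ₁ g₀)))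
    have hidxu : ¬ p ∣ (Subgroup.centralizer ({g₀} : Set G)).index := by
      intro h
      apply hK
      rw [hχ₁]
      exact memLocalIdeal_mul_left (memLocalRing_blockCoeff hBlock g₀) (memLocalIdeal_natCast_of_dvd hM h)
    obtain ⟨Q, hQ⟩ := SylowNum.exists_sylow_le _ hidxu
    obtain ⟨x, hx⟩ := MulAction.exists_smul_eq G Q S
    set g := x * g₀ * x⁻¹ with hg
    have hS : (S : Subgroup G) ≤ Subgroup.centralizer ({g} : Set G) := by
      intro w hw
      have h1 : x⁻¹ * w * x ∈ Q := by
        rw [← SylowNum.mem_smul_sylow, hx]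
        exact hw
      have h2 := hQ h1
      rw [Subgroup.mem_centralizer_iff] at h2 ⊢
      intro z hz
      rw [Set.mem_singleton_iff] at hz
      subst hz
      have h3 := h2 g₀ (Set.mem_singleton _)
      have e : x * (g₀ * (x⁻¹ * w * x)) * x⁻¹ = g * w := by rw [hg]; group
      have e2 : x * ((x⁻¹ * w * x) * g₀) * x⁻¹ = w * g := by rw [hg]; group
      rw [← e, ← e2, h3]
    have hidx2 : ¬ p ∣ (Subgroup.centralizer ({g} : Set G)).index :=
      fun h => S.not_dvd_index (h.trans (Subgroup.index_dvd_of_le hS))
    refine ⟨g, ⟨memLocalRing_blockCoeff hBlock g, ?_, ?_⟩, S.subtype hS, ?_⟩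
    · have : blockCoeff B g = f g₀ := hfcl g₀ x
      rwa [this]
    · intro χ hχ hmemχ
      have h1 : MemLocalIdeal M (centralChar (χ₁ : G → ℂ) g - centralChar (χ : G → ℂ) g) := hχ g
      have h2 := memLocalIdeal_add h1 hmemχ
      rw [sub_add_cancel, hχ₁] at h2
      exact hidx2 ((memLocalIdeal_natCast_iff hM).1 h2)
    · rw [Sylow.coe_subtype, Subgroup.map_subgroupOf_eq_of_le hS]

end Cfsg.Agent.S4652
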