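import Mathlib
import Cfsg.Statements.S4654
import Cfsg.Agent.Lib.BrauerStab

set_option autoImplicit false
open Cfsg

namespace Cfsg.Agent.S4654

/-- Fix a prime p and a maximal ideal M of the algebraic integers containing p. Let P be a normal p-subgroup of the finite group G, B a p-block of G and e a p-block of C_G(P) such that (P, e) is a Brauer pair of B (as P is normal, this says that e occurs in the idempotent of B, which is supported on C_G(P)). Let T be the stabilizer of e in G under conjugation. Then the idempotent of e is a block idempotent of T: some block E of T has, at every element of T, the same idempotent coefficient as e (zero off C_G(P)); and the idempotent of B is the sum of the distinct G-conjugates of the idempotent of e: its coefficient at g is the sum over all x in G of the coefficient of e at x⁻¹ g x, divided by the order of T. -/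
theorem result {G : Type*} [Group G] [Fintype G] (p : ℕ) [Fact p.Prime] (M : Ideal Cfsg.AlgInt) (hM : Cfsg.IsPModular p M) (P : Subgroup G) [P.Normal] (hP : IsPGroup p P) (B : Set (Cfsg.IrrCharacter G)) (e : Set (Cfsg.IrrCharacter (Subgroup.centralizer (P : Set G)))) (hBe : Cfsg.IsBrauerPairOf p M B P e) (T : Subgroup G) (hT : ∀ x : G, x ∈ T ↔ Cfsg.StabilizesBlock (Subgroup.centralizer (P : Set G)) e x) : (∃ E : Set (Cfsg.IrrCharacter T), Cfsg.IsPBlock M E ∧ ∀ t : T, Cfsg.blockCoeff E t = Cfsg.subgroupBlockCoeff (Subgroup.centralizer (P : Set G)) e (t : G)) ∧ ∀ g : G, Cfsg.blockCoeff B g = (Nat.card T : ℂ)⁻¹ * ∑ x : G, Cfsg.subgroupBlockCoeff (Subgroup.centralizer (P : Set G)) e (x⁻¹ * g * x) := by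
  classical
  have hM' := Cfsg.Agent.Lib.BlockLocal.isPrime_of_isPModular hM
  haveI := hM'
  have hPT : P ≤ T := fun u hu => (hT u).2 (Cfsg.Agent.Lib.BrauerStab.stabilizes_of_centralizes (fun k hk => by
    rw [(Subgroup.mem_centralizer_iff.1 hk) u hu]
    group) _)
  have hCT : Subgroup.centralizer (P : Set G) ≤ T := fun u hu =>
    (hT u).2 (Cfsg.Agent.Lib.BrauerStab.stabilizes_of_mem_centralizer hu _)
  have hTn : T ≤ Subgroup.normalizer (P : Set G) := fun x _ =>
    Subgroup.le_normalizer_of_normal (H := P) (K := ⊤) (Subgroup.mem_top x)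
  refine ⟨Cfsg.Agent.Lib.BrauerStab.exists_block_of_stabilizer hM hP hPT hCT hTn hBe.1.2
    (fun x hx => (hT x).1 hx), fun g => ?_⟩
  rw [← Cfsg.Agent.Lib.BrauerStab.card_mul_eps hBe.1.2 hT g,
    Cfsg.Agent.Lib.BrauerStab.eps_eq_blockCoeff hM hP hBe, inv_mul_cancel_left₀]
  exact_mod_cast Nat.card_pos.ne'

end Cfsg.Agent.S4654
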