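import Mathlib
import Cfsg.Statements.S4657
import Cfsg.Agent.Lib.BrauerPair

set_option autoImplicit false

open Cfsg

namespace Cfsg.Agent.S4657

theorem result {G : Type*} [Group G] [Fintype G] (p : ℕ) [Fact p.Prime] (M : Ideal Cfsg.AlgInt) (hM : Cfsg.IsPModular p M) (P : Subgroup G) (e : Set (Cfsg.IrrCharacter (Subgroup.centralizer (P : Set G)))) (hPe : Cfsg.IsBrauerPair p M P e) : ∃! B : Set (Cfsg.IrrCharacter G), Cfsg.IsBrauerPairOf p M B P e :=
  Cfsg.Agent.Lib.BrauerPair.existsUnique_isBrauerPairOf hM hPe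

end Cfsg.Agent.S4657
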