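import Mathlib
import Cfsg.Statements.S4664
import Cfsg.Agent.Lib.BlockOrtho

set_option autoImplicit false
set_option linter.unusedVariables false

namespace Cfsg.Agent.S4664

open Cfsg Cfsg.Agent.Lib.BlockOrtho Cfsg.Agent.Lib.CharBasic Cfsg.Agent.Lib.CharKernel

theorem result {G : Type*} [Group G] [Fintype G] (p : ℕ) [Fact p.Prime] (M : Ideal Cfsg.AlgInt) (hM : Cfsg.IsPModular p M) (B : Set (Cfsg.IrrCharacter G)) (hB : Cfsg.IsPBlock M B) (g : G) : Cfsg.blockCoeff B g ∈ IntermediateField.adjoin ℚ ({Complex.exp (2 * Real.pi * Complex.I / ((Nat.card G / p ^ (Nat.card G).factorization p : ℕ) : ℂ))} : Set ℂ) := by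
  classical
  have hp : p.Prime := Fact.out
  set m := Nat.card G / p ^ (Nat.card G).factorization p with hm
  set K := IntermediateField.adjoin ℚ ({Complex.exp (2 * Real.pi * Complex.I / ((m : ℕ) : ℂ))} : Set ℂ) with hK
  by_cases hg : p ∣ orderOf g
  · rw [blockCoeff_eq_zero hM hB hg]
    exact K.zero_mem
  have hm0 : m ≠ 0 := by
    have h1 : Nat.card G = p ^ (Nat.card G).factorization p * m :=
      (Nat.ordProj_mul_ordCompl_eq_self (Nat.card G) p).symm
    intro h
    rw [h, mul_zero] at h1
    exact Nat.card_pos.ne' h1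
  have hprim := Complex.isPrimitiveRoot_exp m hm0
  haveI : NeZero m := ⟨hm0⟩
  have hordm : orderOf g ∣ m := by
    have h1 : orderOf g ∣ Nat.card G := orderOf_dvd_natCard g
    have h2 : Nat.card G = p ^ (Nat.card G).factorization p * m :=
      (Nat.ordProj_mul_ordCompl_eq_self (Nat.card G) p).symm
    rw [h2] at h1
    have h3 : Nat.Coprime (orderOf g) (p ^ (Nat.card G).factorization p) :=
      Nat.Coprime.pow_right _ ((Nat.Prime.coprime_iff_not_dvd hp).mpr hg).symm
    exact h3.dvd_of_dvd_mul_left h1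
  -- character values at elements of order dividing `m` lie in `K`
  have hval : ∀ (χ : IrrCharacter G) (x : G), orderOf x ∣ m → (χ : G → ℂ) x ∈ K := by
    intro χ x hx
    obtain ⟨χ, n, ρ, hρ, rfl⟩ := χ
    obtain ⟨b, μ, h1, h2, h3, h4⟩ := Cfsg.Agent.Lib.CharValues.exists_eigenbasis_rep ρ x
    simp only
    rw [h4]
    refine K.sum_mem fun i _ => ?_
    have hμ : μ i ^ m = 1 := by
      have h5 : x ^ m = 1 := orderOf_dvd_iff_pow_eq_one.mp hx
      have h6 : ∀ t : ℕ, ρ (x ^ t) (b i) = μ i ^ t • b i := by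
        intro t
        induction t with
        | zero => simp
        | succ t ih =>
          rw [pow_succ, map_mul, Module.End.mul_apply, h1, map_smul, ih, smul_smul, pow_succ, mul_comm]
      have h7 := h6 m
      rw [h5, map_one, Module.End.one_apply] at h7
      have hb := b.ne_zero i
      have h8 : (μ i ^ m - 1) • b i = 0 := by
        rw [sub_smul, one_smul, ← h7, sub_self]
      rcases smul_eq_zero.mp h8 with h9 | h9
      · exact sub_eq_zero.mp h9
      · exact absurd h9 hb
    obtain ⟨j, _, hj⟩ := hprim.eq_pow_of_pow_eq_one hμ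
    rw [← hj]
    exact K.pow_mem (IntermediateField.mem_adjoin_simple_self ℚ _) j
  unfold blockCoeff
  refine K.mul_mem ?_ ?_
  · exact K.inv_mem (by
      have := K.natCast_mem (Nat.card G)
      exact this)
  rw [finsum_mem_eq_sum_indB]
  refine K.sum_mem fun χ _ => K.mul_mem ?_ (K.mul_mem ?_ ?_)
  · by_cases h : χ ∈ B
    · rw [indB_of_mem h]
      exact K.one_mem
    · rw [indB_of_not_mem h]
      exact K.zero_mem
  · rw [one_eq_charDegree (IsIrrCharacter.isCharacter χ.2)]
    exact K.natCast_mem _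
  · rw [char_conj_eq_inv (IsIrrCharacter.isCharacter χ.2)]
    apply hval
    rwa [orderOf_inv]

end Cfsg.Agent.S4664
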