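import Mathlib
import Cfsg.Statements.S4665
import Cfsg.Agent.Lib.CharBasic

set_option autoImplicit false
set_option linter.unusedVariables false
set_option linter.style.haveILetI false

namespace Cfsg.Agent.S4665

open Cfsg Cfsg.Agent.Lib.CharBasic
open scoped ComplexConjugate

theorem result {G : Type*} [Group G] [Fintype G] (p : ℕ) [Fact p.Prime] (M : Ideal Cfsg.AlgInt) (hM : Cfsg.IsPModular p M) (B : Set (Cfsg.IrrCharacter G)) (hB : Cfsg.IsPBlock M B) (χ : G → ℂ) (hχ : (∃ n : Cfsg.IrrCharacter G → ℤ, ∀ g : G, χ g = ∑ᶠ ψ ∈ B, (n ψ : ℂ) * (ψ : G → ℂ) g)) (h0 : (∃ n : Cfsg.IrrCharacter G → ℤ, ∀ g : G, Cfsg.pRegularPart p χ g = ∑ᶠ ψ ∈ B, (n ψ : ℂ) * (ψ : G → ℂ) g)) : ∃ k : ℤ, χ 1 = (p ^ (Nat.card G).factorization p : ℂ) * k := by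
  classical
  have hp : p.Prime := Fact.out
  obtain ⟨n, hn⟩ := h0
  obtain ⟨P', hP'⟩ : ∃ P' : Subgroup G, IsPGroup p P' ∧ Nat.card P' = p ^ (Nat.card G).factorization p := by
    obtain ⟨P⟩ : Nonempty (Sylow p G) := inferInstance
    exact ⟨P, P.isPGroup', Sylow.card_eq_multiplicity P⟩
  obtain ⟨hP2, hP⟩ := hP'
  generalize P' = P at hP2 hP
  letI : Fintype P := Fintype.ofFinite P
  have hreg1 : pRegularPart p χ 1 = χ 1 := by
    unfold pRegularPart
    rw [if_pos]
    unfold IsPRegular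
    rw [orderOf_one]
    exact hp.one_lt.ne' ∘ Nat.dvd_one.mp
  -- multiplicities
  have key3 : ∀ ψ : IrrCharacter G, ∃ m : ℕ,
      ∑ z : P, (ψ : G → ℂ) z = (Nat.card P : ℂ) * m := by
    intro ψ
    obtain ⟨m, hm⟩ := classInner_char_char (G := P)
      (isCharacter_restrict P (IsIrrCharacter.isCharacter ψ.2)) isCharacter_one
    refine ⟨m, ?_⟩
    rw [← hm]
    unfold classInner
    have : (Nat.card P : ℂ) ≠ 0 := natCard_ne_zero'
    rw [mul_inv_cancel_left₀ this]
    simp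
  choose m hm using key3
  have h1 : ∑ z : P, pRegularPart p χ (z : G) = χ 1 := by
    rw [Finset.sum_eq_single (1 : P)]
    · simpa using hreg1
    · intro z _ hz
      unfold pRegularPart
      rw [if_neg]
      unfold IsPRegular
      push Not
      have hz1 : (z : G) ≠ 1 := fun h => hz (Subtype.ext h)
      obtain ⟨k, hk⟩ := (IsPGroup.iff_orderOf.mp hP2) z
      rw [Subgroup.orderOf_coe, hk]
      have hk0 : k ≠ 0 := by
        rintro rfl
        apply hz1
        have : orderOf z = 1 := by simpa using hk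
        rw [orderOf_eq_one_iff] at this
        rw [this]
        rfl
      exact dvd_pow_self p hk0
    · intro h
      exact absurd (Finset.mem_univ _) h
  refine ⟨∑ ψ ∈ (Set.toFinite B).toFinset, n ψ * (m ψ : ℤ), ?_⟩
  rw [← h1]
  simp_rw [hn]
  have h2 : ∀ z : P, ∑ᶠ ψ ∈ B, (n ψ : ℂ) * (ψ : G → ℂ) (z : G) =
      ∑ ψ ∈ (Set.toFinite B).toFinset, (n ψ : ℂ) * (ψ : G → ℂ) (z : G) := fun z =>
    finsum_mem_eq_finite_toFinset_sum _ (Set.toFinite B)
  simp_rw [h2]
  rw [Finset.sum_comm]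
  push_cast
  rw [Finset.mul_sum]
  refine Finset.sum_congr rfl fun ψ _ => ?_
  rw [← Finset.mul_sum, hm ψ, hP]
  push_cast
  ring

end Cfsg.Agent.S4665
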