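import Mathlib
import Cfsg.Statements.S4666
import Cfsg.Agent.Lib.BlockQ

set_option autoImplicit false

namespace Cfsg.Agent.S4666

open Cfsg Cfsg.Agent.Lib.BlockQ

theorem result {G : Type*} [Group G] [Fintype G] (p : ℕ) [Fact p.Prime] (M : Ideal Cfsg.AlgInt) (hM : Cfsg.IsPModular p M) (B : Set (Cfsg.IrrCharacter G)) (hB : Cfsg.IsPBlock M B) (χ : G → ℂ) (hχ : (∃ n : Cfsg.IrrCharacter G → ℤ, ∀ g : G, χ g = ∑ᶠ ψ ∈ B, (n ψ : ℂ) * (ψ : G → ℂ) g)) : (∃ n : Cfsg.IrrCharacter G → ℤ, ∀ g : G, (p ^ Cfsg.blockDefect p B : ℂ) * Cfsg.pRegularPart p χ g = ∑ᶠ ψ ∈ B, (n ψ : ℂ) * (ψ : G → ℂ) g) := by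
  obtain ⟨n, hn⟩ := hχ
  refine ⟨fun τ => ∑ ψ ∈ bF B, n ψ * Q p B ψ τ, fun g => ?_⟩
  rw [finsum_mem_eq_sum_bF]
  exact pow_mul_pRegularPart_comb hM hB n (fun g => by rw [hn g, finsum_mem_eq_sum_bF]) g

end Cfsg.Agent.S4666
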