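import Mathlib
import Cfsg.Statements.S4667
import Cfsg.Agent.Lib.BlockOrtho

set_option autoImplicit false

namespace Cfsg.Agent.S4667

open Cfsg Cfsg.Agent.Lib.BlockOrtho Cfsg.Agent.Lib.CharBasic

theorem result {G : Type*} [Group G] [Fintype G] (p : ℕ) [Fact p.Prime] (M : Ideal Cfsg.AlgInt) (hM : Cfsg.IsPModular p M) (B : Set (Cfsg.IrrCharacter G)) (hB : Cfsg.IsPBlock M B) : (Nat.card G : ℂ) * (Cfsg.blockRank p B : ℂ) = ∑ x : G, ∑ᶠ χ ∈ B, Cfsg.pRegularPart p (χ : G → ℂ) x * (χ : G → ℂ) x⁻¹ := by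
  rw [card_mul_blockRank hM hB]
  refine Finset.sum_congr rfl fun x _ => ?_
  rw [finsum_mem_eq_sum_indB]
  refine Finset.sum_congr rfl fun χ _ => ?_
  rw [char_conj_eq_inv (IsIrrCharacter.isCharacter χ.2)]

end Cfsg.Agent.S4667
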