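import Mathlib
import Cfsg.Statements.S4668
import Cfsg.Agent.Lib.BlockNormal
import Cfsg.Agent.Lib.BlockOrth
import Cfsg.Agent.Lib.CharTwoLocal

set_option autoImplicit false
open Cfsg

namespace Cfsg.Agent.S4668

/-- Fix a prime p and a maximal ideal M of the algebraic integers containing p. Let Q₀ < Q₁ < ⋯ < Q_m be a strictly increasing chain of p-subgroups of the finite group G and N the intersection of their normalizers. Then every block idempotent of N is supported on C_G(Q_m): for every p-block E of N, the idempotent coefficient of E vanishes at every element of N outside C_G(Q_m). -/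
theorem result {G : Type*} [Group G] [Fintype G] (p : ℕ) [Fact p.Prime] (M : Ideal Cfsg.AlgInt) (hM : Cfsg.IsPModular p M) (m : ℕ) (Q : Fin (m + 1) → Subgroup G) (hQ : StrictMono Q) (hQp : ∀ i, IsPGroup p (Q i)) (N : Subgroup G) (hN : ∀ g : G, g ∈ N ↔ ∀ i, g ∈ Subgroup.normalizer (Q i : Set G)) (E : Set (Cfsg.IrrCharacter N)) (hE : Cfsg.IsPBlock M E) (n : N) (hn : (n : G) ∉ Subgroup.centralizer (Q (Fin.last m) : Set G)) : Cfsg.blockCoeff E n = 0 := by
  classical
  by_contra hne
  have hreg : ¬ p ∣ orderOf n := fun h => hne (Cfsg.Agent.Lib.BlockOrth.blockCoeff_eq_zero hM hE h)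
  set L := Q (Fin.last m) with hL
  have hLp : IsPGroup p L := hQp _
  have hcop : (orderOf (n : G)).Coprime p := by
    rw [Subgroup.orderOf_coe]
    exact (Nat.Prime.coprime_iff_not_dvd (Fact.out)).2 hreg |>.symm
  have hnN : ∀ i, (n : G) ∈ Subgroup.normalizer (Q i : Set G) := (hN n).1 n.2
  -- the normal `p`-subgroup `L ∩ N` of `N`
  haveI hnormal : (L.subgroupOf N).Normal := by
    constructor
    intro a ha b
    rw [Subgroup.mem_subgroupOf] at ha ⊢
    exact (Subgroup.mem_normalizer_iff.1 ((hN b).1 b.2 (Fin.last m)) _).1 ha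
  have hLh : IsPGroup p (L.subgroupOf N) := IsPGroup.comap_of_injective hLp _ Subtype.val_injective
  have hcen : n ∈ Subgroup.centralizer ((L.subgroupOf N : Subgroup N) : Set N) := by
    by_contra hc
    exact hne (Cfsg.Agent.Lib.BlockNormal.blockCoeff_eq_zero_of_not_mem_centralizer _ hLh hM E hE n hc)
  -- descending induction
  let W : ℕ → Subgroup G := fun j => L ⊓ ⨅ (i : Fin (m + 1)) (_ : j ≤ i.val),
    Subgroup.normalizer (Q i : Set G)
  have hWmem : ∀ j x, x ∈ W j ↔ x ∈ L ∧ ∀ i : Fin (m + 1), j ≤ i.val →
      x ∈ Subgroup.normalizer (Q i : Set G) := by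
    intro j x
    simp [W, Subgroup.mem_inf, Subgroup.mem_iInf]
  have hQle : ∀ i j : Fin (m + 1), i ≤ j → Q i ≤ Q j := fun i j h => hQ.monotone h
  have hQL : ∀ i, Q i ≤ L := fun i => hQle i _ (Fin.le_last i)
  have hself : ∀ (i j : Fin (m + 1)), i ≤ j → Q i ≤ Subgroup.normalizer (Q j : Set G) := by
    intro i j hij x hx
    have hx' := hQle i j hij hx
    rw [Subgroup.mem_normalizer_iff]
    intro a
    constructor
    · intro ha
      exact (Q j).mul_mem ((Q j).mul_mem hx' ha) ((Q j).inv_mem hx')
    · intro ha
      have := (Q j).mul_mem ((Q j).mul_mem ((Q j).inv_mem hx') ha) hx'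
      simpa [mul_assoc] using this
  have hcomm : ∀ j : ℕ, j ≤ m + 1 → ∀ x ∈ W j, (n : G) * x = x * (n : G) := by
    intro j
    induction j with
    | zero =>
      intro _ x hx
      have h1 := (hWmem 0 x).1 hx
      have hxN : x ∈ N := (hN x).2 fun i => h1.2 i (Nat.zero_le _)
      have h2 := (Subgroup.mem_centralizer_iff.1 hcen) ⟨x, hxN⟩ (Subgroup.mem_subgroupOf.2 h1.1)
      exact (congrArg Subtype.val h2).symm
    | succ j ih =>
      intro hj
      have ihj := ih (by omega)
      let jf : Fin (m + 1) := ⟨j, by omega⟩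
      have hnW : (n : G) ∈ Subgroup.normalizer ((W (j + 1) : Subgroup G) : Set G) := by
        rw [Subgroup.mem_normalizer_iff]
        intro a
        rw [hWmem, hWmem]
        constructor
        · rintro ⟨ha1, ha2⟩
          refine ⟨(Subgroup.mem_normalizer_iff.1 (hnN _) a).1 ha1, fun i hi => ?_⟩
          exact Subgroup.mul_mem _ (Subgroup.mul_mem _ (hnN i) (ha2 i hi)) (Subgroup.inv_mem _ (hnN i))
        · rintro ⟨ha1, ha2⟩
          refine ⟨(Subgroup.mem_normalizer_iff.1 (hnN _) a).2 ha1, fun i hi => ?_⟩
          have := Subgroup.mul_mem _ (Subgroup.mul_mem _ (Subgroup.inv_mem _ (hnN i)) (ha2 i hi)) (hnN i)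
          simpa [mul_assoc] using this
      have hQW : Q jf ≤ W j := by
        intro x hx
        exact (hWmem j x).2 ⟨hQL _ hx, fun i hi => hself jf i hi hx⟩
      have hQW' : Q jf ≤ W (j + 1) := by
        intro x hx
        exact (hWmem (j + 1) x).2 ⟨hQL _ hx, fun i hi => hself jf i (by
          change j ≤ i.val
          omega) hx⟩
      have hRN : Q jf ≤ Subgroup.normalizer ((W (j + 1) : Subgroup G) : Set G) := by
        intro x hx
        have hx' := hQW' hx
        rw [Subgroup.mem_normalizer_iff]
        intro a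
        constructor
        · intro ha
          exact Subgroup.mul_mem _ (Subgroup.mul_mem _ hx' ha) (Subgroup.inv_mem _ hx')
        · intro ha
          have := Subgroup.mul_mem _ (Subgroup.mul_mem _ (Subgroup.inv_mem _ hx') ha) hx'
          simpa [mul_assoc] using this
      refine Cfsg.Agent.Lib.CharTwoLocal.thompson_AB_elem (p := p) (P := W (j + 1)) (R := Q jf) ?_ (hQp _)
        hRN hnW (fun r hr => ihj r (hQW hr)) hcop ?_
      · exact hLp.to_le inf_le_left
      · intro c hc hcr
        apply ihj
        have h1 := (hWmem (j + 1) c).1 hc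
        refine (hWmem j c).2 ⟨h1.1, fun i hi => ?_⟩
        rcases Nat.lt_or_ge j i.val with h2 | h2
        · exact h1.2 i h2
        · have hi' : i = jf := Fin.ext (le_antisymm h2 hi)
          rw [hi', Subgroup.mem_normalizer_iff]
          intro a
          constructor
          · intro ha
            rw [hcr a ha]
            simpa using ha
          · intro ha
            have h3 := hcr _ ha
            have h4 : c * a * c⁻¹ = a := by
              calc c * a * c⁻¹ = c⁻¹ * (c * (c * a * c⁻¹)) := by group
                _ = c⁻¹ * (c * a * c⁻¹ * c) := by rw [h3]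
                _ = a := by group
            rwa [h4] at ha
  apply hn
  rw [Subgroup.mem_centralizer_iff]
  intro x hx
  have := hcomm (m + 1) le_rfl x ((hWmem _ x).2 ⟨hx, fun i hi => by
    have := i.isLt
    omega⟩)
  exact this.symm

end Cfsg.Agent.S4668
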