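import Mathlib
import Cfsg.Statements.S4669
import Cfsg.Agent.Lib.BlockCentral

set_option autoImplicit false

namespace Cfsg.Agent.S4669

theorem result {G : Type*} [Group G] [Fintype G] (p : ℕ) [Fact p.Prime] (M : Ideal Cfsg.AlgInt) (hM : Cfsg.IsPModular p M) (B : Set (Cfsg.IrrCharacter G)) (hB : Cfsg.IsPBlock M B) (P : Subgroup G) (hD : Cfsg.IsDefectGroup p M B P) (hPZ : P ≤ Subgroup.center G) : Cfsg.blockRank p B = 1 :=
  Cfsg.Agent.Lib.BlockCentral.blockRank_eq_one_of_central hM hB hD hPZ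

end Cfsg.Agent.S4669
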