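import Mathlib
import Cfsg.Statements.S4675
import Cfsg.Agent.Lib.BlockQ
import Cfsg.Agent.Lib.BlockDefect

set_option autoImplicit false
set_option linter.unusedSectionVars false
set_option linter.unusedVariables false
set_option linter.style.haveILetI false

namespace Cfsg.Agent.S4675

open Cfsg Cfsg.Agent.Lib.BlockQ Cfsg.Agent.Lib.BlockLocal Cfsg.Agent.Lib.BlockIdem
open Cfsg.Agent.Lib.BlockOrtho Cfsg.Agent.Lib.BlockDefect Cfsg.Agent.Lib.CharBasic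

universe u

/-- Bezout over a finset. -/
theorem exists_bezout {ι : Type*} [DecidableEq ι] (T : Finset ι) (f : ι → ℕ) :
    ∃ (g : ℕ) (n : ι → ℤ), ∑ i ∈ T, n i * (f i : ℤ) = g ∧ ∀ i ∈ T, g ∣ f i := by
  induction T using Finset.induction_on with
  | empty => exact ⟨0, 0, by simp, by simp⟩
  | insert a S ha ih =>
    obtain ⟨g, n, h1, h2⟩ := ih
    refine ⟨Nat.gcd (f a) g, fun i => if i = a then Nat.gcdA (f a) g else Nat.gcdB (f a) g * n i, ?_, ?_⟩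
    · rw [Finset.sum_insert ha]
      beta_reduce
      rw [if_pos rfl]
      have h3 : ∀ i ∈ S, (if i = a then Nat.gcdA (f a) g else Nat.gcdB (f a) g * n i) * (f i : ℤ) =
          Nat.gcdB (f a) g * (n i * (f i : ℤ)) := by
        intro i hi
        have hne : i ≠ a := fun h => ha (by rw [← h]; exact hi)
        rw [if_neg hne]
        ring
      rw [Finset.sum_congr rfl h3, ← Finset.mul_sum, h1, Nat.gcd_eq_gcd_ab]
      ring
    · intro i hi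
      rcases Finset.mem_insert.mp hi with rfl | hi
      · exact Nat.gcd_dvd_left _ _
      · exact (Nat.gcd_dvd_right _ _).trans (h2 i hi)

variable {G : Type u} [Group G] [Fintype G] {p : ℕ} {M : Ideal AlgInt}

/-- In rank one all regular parts are proportional. -/
theorem pRegularPart_eq_smul {B : Set (IrrCharacter G)} (hl : blockRank p B = 1)
    (hp : p.Prime) {χ₁ χ : IrrCharacter G} (h1 : χ₁ ∈ B) (h : χ ∈ B) :
    ∃ c : ℂ, c * (χ₁ : G → ℂ) 1 = (χ : G → ℂ) 1 ∧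
      ∀ x, pRegularPart p (χ : G → ℂ) x = c * pRegularPart p (χ₁ : G → ℂ) x := by
  classical
  set W := Submodule.span ℂ ((fun χ : IrrCharacter G => pRegularPart p (χ : G → ℂ)) '' B) with hW
  have hmem : ∀ {ξ : IrrCharacter G}, ξ ∈ B → pRegularPart p (ξ : G → ℂ) ∈ W := fun {ξ} hξ =>
    Submodule.subset_span ⟨ξ, hξ, rfl⟩
  have h1ne : ¬ p ∣ orderOf (1 : G) := by simp [hp.one_lt.ne']
  have hnz : (⟨_, hmem h1⟩ : W) ≠ 0 := by
    intro h0
    have h2 := congrArg Subtype.val h0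
    have h3 := congrFun h2 1
    simp only [ZeroMemClass.coe_zero, Pi.zero_apply] at h3
    rw [pRegularPart_of_reg _ h1ne] at h3
    exact irr_one_ne_zero' χ₁.2 h3
  have h2 := (finrank_eq_one_iff_of_nonzero' _ hnz).mp hl ⟨_, hmem h⟩
  obtain ⟨c, hc⟩ := h2
  have hc' := congrArg Subtype.val hc
  refine ⟨c, ?_, ?_⟩
  · have h3 := congrFun hc' 1
    simp only [SetLike.mk_smul_mk, Pi.smul_apply, smul_eq_mul] at h3
    rwa [pRegularPart_of_reg _ h1ne, pRegularPart_of_reg _ h1ne] at h3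
  · intro x
    have h3 := congrFun hc' x
    simp only [SetLike.mk_smul_mk, Pi.smul_apply, smul_eq_mul] at h3
    exact h3.symm

theorem main (hM : IsPModular p M) {B : Set (IrrCharacter G)} (hB : IsPBlock M B)
    (hl : blockRank p B = 1) :
    ∃ φ : G → ℂ, ∃ d : IrrCharacter G → ℕ, (∃ n : IrrCharacter G → ℤ, ∀ x : G, IsPRegular p x →
      φ x = ∑ ψ ∈ bF B, (n ψ : ℂ) * (ψ : G → ℂ) x) ∧
      (∀ χ ∈ B, ∀ x : G, IsPRegular p x → (χ : G → ℂ) x = (d χ : ℂ) * φ x) ∧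
      ∑ χ ∈ bF B, d χ ^ 2 = p ^ blockDefect p B := by
  classical
  have hMp := hM.2.1.isPrime
  have hp := hM.1
  set T := bF B with hT
  set deg : IrrCharacter G → ℕ := fun χ => charDegree (χ : G → ℂ) with hdeg
  have hdeg1 : ∀ χ : IrrCharacter G, (χ : G → ℂ) 1 = (deg χ : ℂ) := fun χ =>
    Cfsg.Agent.Lib.CharKernel.one_eq_charDegree (IsIrrCharacter.isCharacter χ.2)
  have hdeg0 : ∀ χ : IrrCharacter G, deg χ ≠ 0 := fun χ =>
    Cfsg.Agent.Lib.CharKernel.charDegree_ne_zero χ.2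
  obtain ⟨g, n, hg1, hg2⟩ := exists_bezout T deg
  obtain ⟨χ₀, hχ₀, h0⟩ := exists_minExp (p := p) hB
  have hχ₀T : χ₀ ∈ T := mem_bF.mpr hχ₀
  have hg0 : g ≠ 0 := by
    rintro rfl
    exact hdeg0 χ₀ (Nat.eq_zero_of_zero_dvd (hg2 χ₀ hχ₀T))
  set d : IrrCharacter G → ℕ := fun χ => deg χ / g with hd
  have hdg : ∀ χ ∈ T, d χ * g = deg χ := fun χ hχ => Nat.div_mul_cancel (hg2 χ hχ)
  have hdne : ∀ χ ∈ T, d χ ≠ 0 := by
    intro χ hχ h
    have := hdg χ hχ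
    rw [h, zero_mul] at this
    exact hdeg0 χ this.symm
  have hgC : (g : ℂ) ≠ 0 := by exact_mod_cast hg0
  have hχ₀C : (χ₀ : G → ℂ) 1 ≠ 0 := irr_one_ne_zero' χ₀.2
  -- proportionality
  have hprop : ∀ χ ∈ T, ∀ x, pRegularPart p (χ : G → ℂ) x =
      ((deg χ : ℂ) / (deg χ₀ : ℂ)) * pRegularPart p (χ₀ : G → ℂ) x := by
    intro χ hχ x
    obtain ⟨c, hc1, hc2⟩ := pRegularPart_eq_smul hl hp hχ₀ (mem_bF.mp hχ)
    have hc : c = (deg χ : ℂ) / (deg χ₀ : ℂ) := by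
      rw [← hdeg1, ← hdeg1, ← hc1]
      field_simp
    rw [hc2 x, hc]
  set φ : G → ℂ := fun x => ∑ ψ ∈ T, (n ψ : ℂ) * (ψ : G → ℂ) x with hφ
  have hφreg : ∀ x, IsPRegular p x → φ x = ((g : ℂ) / (deg χ₀ : ℂ)) *
      pRegularPart p (χ₀ : G → ℂ) x := by
    intro x hx
    have h1 : ∀ ψ ∈ T, (n ψ : ℂ) * (ψ : G → ℂ) x = (n ψ : ℂ) * (((deg ψ : ℂ) / (deg χ₀ : ℂ)) *
        pRegularPart p (χ₀ : G → ℂ) x) := by
      intro ψ hψ
      rw [← hprop ψ hψ x, pRegularPart_of_reg _ hx]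
    rw [hφ]
    simp only
    rw [Finset.sum_congr rfl h1]
    have h2 : ((g : ℤ) : ℂ) = ∑ i ∈ T, (n i : ℂ) * (deg i : ℂ) := by
      rw [← hg1]
      push_cast
      rfl
    have h3 : ((g : ℂ) / (deg χ₀ : ℂ)) * pRegularPart p (χ₀ : G → ℂ) x =
        ((∑ i ∈ T, (n i : ℂ) * (deg i : ℂ)) / (deg χ₀ : ℂ)) * pRegularPart p (χ₀ : G → ℂ) x := by
      rw [← h2]
      push_cast
      rfl
    rw [h3, Finset.sum_div, Finset.sum_mul]
    refine Finset.sum_congr rfl fun ψ _ => ?_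
    ring
  have hreg : ∀ χ ∈ T, ∀ x, IsPRegular p x → (χ : G → ℂ) x = (d χ : ℂ) * φ x := by
    intro χ hχ x hx
    rw [hφreg x hx]
    have h1 := hprop χ hχ x
    rw [pRegularPart_of_reg _ hx] at h1
    rw [h1]
    have h2 : (deg χ : ℂ) = (d χ : ℂ) * (g : ℂ) := by exact_mod_cast (hdg χ hχ).symm
    rw [h2]
    have : (deg χ₀ : ℂ) ≠ 0 := by exact_mod_cast hdeg0 χ₀
    field_simp
  -- proportional rows
  have hsing : ∀ χ ∈ T, ∀ x, pRegularPart p (χ : G → ℂ) x =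
      (d χ : ℂ) * pRegularPart p φ x := by
    intro χ hχ x
    by_cases hx : p ∣ orderOf x
    · rw [pRegularPart_of_sing _ hx, pRegularPart_of_sing _ hx, mul_zero]
    · rw [pRegularPart_of_reg _ hx, pRegularPart_of_reg _ hx]
      exact hreg χ hχ x hx
  have hrow : ∀ χ ∈ T, ∀ τ ∈ T, ∀ ψ ∈ T, (d τ : ℤ) * Q p B χ ψ = (d χ : ℤ) * Q p B τ ψ := by
    intro χ hχ τ hτ ψ hψ
    have h1 : (d τ : ℂ) • pRegularPart p (χ : G → ℂ) = (d χ : ℂ) • pRegularPart p (τ : G → ℂ) := by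
      funext x
      simp only [Pi.smul_apply, smul_eq_mul]
      rw [hsing χ hχ x, hsing τ hτ x]
      ring
    have h2 := congrArg (fun f => classInner f (ψ : G → ℂ)) h1
    simp only [classInner_smul_left] at h2
    have h3 : (((d τ : ℤ) * Q p B χ ψ : ℤ) : ℂ) = (((d χ : ℤ) * Q p B τ ψ : ℤ) : ℂ) := by
      push_cast
      rw [← Q_spec hM hB χ (mem_bF.mp hψ), ← Q_spec hM hB τ (mem_bF.mp hψ)]
      linear_combination ((p : ℂ) ^ blockDefect p B) * h2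
    exact_mod_cast h3
  -- evaluating at 1
  have heval : ∀ χ ∈ T, ∑ ψ ∈ T, Q p B χ ψ * (d ψ : ℤ) = (p : ℤ) ^ blockDefect p B * (d χ : ℤ) := by
    intro χ hχ
    have h1 := pow_mul_pRegularPart hM hB (mem_bF.mp hχ) (1 : G)
    rw [pRegularPart_of_reg _ (by simp [hp.one_lt.ne'])] at h1
    have h2 : (((∑ ψ ∈ T, Q p B χ ψ * (d ψ : ℤ) : ℤ) : ℂ)) * (g : ℂ) =
        (((p : ℤ) ^ blockDefect p B * (d χ : ℤ) : ℤ) : ℂ) * (g : ℂ) := by
      push_cast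
      rw [Finset.sum_mul]
      have h3 : (p : ℂ) ^ blockDefect p B * (d χ : ℂ) * (g : ℂ) =
          (p : ℂ) ^ blockDefect p B * (χ : G → ℂ) 1 := by
        rw [hdeg1]
        have : (deg χ : ℂ) = (d χ : ℂ) * (g : ℂ) := by exact_mod_cast (hdg χ hχ).symm
        rw [this]
        ring
      rw [h3, h1]
      refine Finset.sum_congr rfl fun ψ hψ => ?_
      rw [hdeg1]
      have : (deg ψ : ℂ) = (d ψ : ℂ) * (g : ℂ) := by exact_mod_cast (hdg ψ hψ).symm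
      rw [this]
      ring
    have h4 := mul_right_cancel₀ hgC h2
    exact_mod_cast h4
  set D : ℕ := ∑ χ ∈ T, d χ ^ 2 with hD
  have hstar : ∀ χ ∈ T, ∀ ψ ∈ T, (D : ℤ) * Q p B χ ψ =
      (p : ℤ) ^ blockDefect p B * ((d χ : ℤ) * (d ψ : ℤ)) := by
    intro χ hχ ψ hψ
    have h1 : (D : ℤ) * Q p B χ ψ = ∑ τ ∈ T, (d τ : ℤ) * ((d τ : ℤ) * Q p B χ ψ) := by
      rw [hD]
      push_cast
      rw [Finset.sum_mul]
      refine Finset.sum_congr rfl fun τ _ => ?_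
      ring
    rw [h1]
    have h2 : ∀ τ ∈ T, (d τ : ℤ) * ((d τ : ℤ) * Q p B χ ψ) =
        (d χ : ℤ) * (Q p B ψ τ * (d τ : ℤ)) := by
      intro τ hτ
      rw [hrow χ hχ τ hτ ψ hψ, Q_symm hM hB (mem_bF.mp hτ) (mem_bF.mp hψ)]
      ring
    rw [Finset.sum_congr rfl h2, ← Finset.mul_sum, heval ψ hψ]
    ring
  -- D divides p^d
  have hbez : ∑ τ ∈ T, n τ * (d τ : ℤ) = 1 := by
    have h1 : (∑ τ ∈ T, n τ * (d τ : ℤ)) * (g : ℤ) = 1 * (g : ℤ) := by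
      rw [one_mul, Finset.sum_mul]
      conv_rhs => rw [← hg1]
      refine Finset.sum_congr rfl fun τ hτ => ?_
      rw [mul_assoc]
      have : (d τ : ℤ) * (g : ℤ) = (deg τ : ℤ) := by exact_mod_cast hdg τ hτ
      rw [this]
    exact mul_right_cancel₀ (by exact_mod_cast hg0) h1
  have hDdvd : (D : ℤ) ∣ (p : ℤ) ^ blockDefect p B := by
    refine ⟨∑ χ ∈ T, ∑ ψ ∈ T, n χ * n ψ * Q p B χ ψ, ?_⟩
    rw [Finset.mul_sum]
    have h1 : ∀ χ ∈ T, (D : ℤ) * ∑ ψ ∈ T, n χ * n ψ * Q p B χ ψ =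
        ∑ ψ ∈ T, (p : ℤ) ^ blockDefect p B * ((n χ * (d χ : ℤ)) * (n ψ * (d ψ : ℤ))) := by
      intro χ hχ
      rw [Finset.mul_sum]
      refine Finset.sum_congr rfl fun ψ hψ => ?_
      have := hstar χ hχ ψ hψ
      linear_combination (n χ * n ψ) * this
    rw [Finset.sum_congr rfl h1]
    have h2 : ∑ χ ∈ T, ∑ ψ ∈ T, (p : ℤ) ^ blockDefect p B * ((n χ * (d χ : ℤ)) * (n ψ * (d ψ : ℤ))) =
        (p : ℤ) ^ blockDefect p B * ((∑ τ ∈ T, n τ * (d τ : ℤ)) * (∑ τ ∈ T, n τ * (d τ : ℤ))) := by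
      rw [Finset.sum_mul_sum, Finset.mul_sum]
      refine Finset.sum_congr rfl fun χ _ => ?_
      rw [Finset.mul_sum]
    rw [h2, hbez]
    ring
  -- `p ^ d` divides `D`
  have hvan : ∀ x : G, p ∣ orderOf x → ∑ τ ∈ T, ((d τ : ℤ) : ℂ) * (τ : G → ℂ) x = 0 := by
    intro x hx
    have h1 := pow_mul_pRegularPart hM hB hχ₀ x
    rw [pRegularPart_of_sing _ hx, mul_zero] at h1
    have h2 : (p : ℂ) ^ blockDefect p B * (d χ₀ : ℂ) * ∑ τ ∈ T, ((d τ : ℤ) : ℂ) * (τ : G → ℂ) x =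
        (D : ℂ) * ∑ ψ ∈ T, (Q p B χ₀ ψ : ℂ) * (ψ : G → ℂ) x := by
      rw [Finset.mul_sum, Finset.mul_sum]
      refine Finset.sum_congr rfl fun ψ hψ => ?_
      have h3 := hstar χ₀ hχ₀T ψ hψ
      have h4 : (D : ℂ) * (Q p B χ₀ ψ : ℂ) = (p : ℂ) ^ blockDefect p B * ((d χ₀ : ℂ) * (d ψ : ℂ)) := by
        exact_mod_cast h3
      push_cast
      linear_combination (-(ψ : G → ℂ) x) * h4
    rw [← h1, mul_zero] at h2
    have hp0 : (p : ℂ) ≠ 0 := by exact_mod_cast hp.ne_zero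
    have hd0 : (d χ₀ : ℂ) ≠ 0 := by exact_mod_cast hdne χ₀ hχ₀T
    exact (mul_eq_zero.mp h2).resolve_left (mul_ne_zero (pow_ne_zero _ hp0) hd0)
  have hdv := pow_dvd_sum_of_vanish (G := G) hp T (fun τ => (d τ : ℤ)) hvan
  have hsum : ∑ τ ∈ T, (d τ : ℤ) * (charDegree (τ : G → ℂ) : ℤ) = ((D * g : ℕ) : ℤ) := by
    rw [hD]
    push_cast
    rw [Finset.sum_mul]
    refine Finset.sum_congr rfl fun τ hτ => ?_
    have : (charDegree (τ : G → ℂ) : ℤ) = (d τ : ℤ) * (g : ℤ) := by exact_mod_cast (hdg τ hτ).symm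
    rw [this]
    ring
  rw [hsum] at hdv
  have hDne : D ≠ 0 := by
    intro h
    rw [h] at hDdvd
    simp only [Nat.cast_zero, zero_dvd_iff] at hDdvd
    have hp1 : (p : ℤ) ≠ 0 := by exact_mod_cast hp.ne_zero
    exact pow_ne_zero _ hp1 hDdvd
  have hdv2 : p ^ (Nat.card G).factorization p ∣ D * g := by exact_mod_cast hdv
  have h5 := (hp.pow_dvd_iff_le_factorization (mul_ne_zero hDne hg0)).mp hdv2
  rw [Nat.factorization_mul hDne hg0] at h5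
  simp only [Finsupp.add_apply] at h5
  have h6 := card_factorization_eq (M := M) (p := p) hB
  have h7 : g.factorization p ≤ minExp p B := by
    rw [← h0]
    exact (Nat.factorization_le_iff_dvd hg0 (hdeg0 χ₀)).mpr (hg2 χ₀ hχ₀T) p
  have h8 : blockDefect p B ≤ D.factorization p := by omega
  have h9 : p ^ blockDefect p B ∣ D := (hp.pow_dvd_iff_le_factorization hDne).mpr h8
  have h10 : D ∣ p ^ blockDefect p B := by exact_mod_cast hDdvd
  refine ⟨φ, d, ⟨n, fun x _ => rfl⟩, ?_, Nat.dvd_antisymm h10 h9⟩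
  intro χ hχ x hx
  exact hreg χ (mem_bF.mpr hχ) x hx

theorem result {G : Type*} [Group G] [Fintype G] (p : ℕ) [Fact p.Prime] (M : Ideal Cfsg.AlgInt) (hM : Cfsg.IsPModular p M) (B : Set (Cfsg.IrrCharacter G)) (hB : Cfsg.IsPBlock M B) (P : Subgroup G) (hP : Cfsg.IsDefectGroup p M B P) (hl : Cfsg.blockRank p B = 1) : ∃ φ : G → ℂ, ∃ d : Cfsg.IrrCharacter G → ℕ, (∃ n : Cfsg.IrrCharacter G → ℤ, ∀ x : G, Cfsg.IsPRegular p x → φ x = ∑ᶠ ψ ∈ B, (n ψ : ℂ) * (ψ : G → ℂ) x) ∧ (∀ χ ∈ B, ∀ x : G, Cfsg.IsPRegular p x → (χ : G → ℂ) x = (d χ : ℂ) * φ x) ∧ ∑ᶠ χ ∈ B, d χ ^ 2 = Nat.card P := by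
  obtain ⟨φ, d, ⟨n, hn⟩, h2, h3⟩ := main hM hB hl
  refine ⟨φ, d, ⟨n, fun x hx => ?_⟩, h2, ?_⟩
  · rw [finsum_mem_eq_sum_bF]
    exact hn x hx
  · rw [card_isDefectGroup hM hB hP, finsum_mem_eq_sum_bF]
    exact h3

end Cfsg.Agent.S4675
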