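import Mathlib
import Cfsg.Statements.S4690
import Cfsg.Agent.Lib.StarNil

set_option autoImplicit false
open Cfsg

namespace Cfsg.Agent.S4690

/-- Fix a prime p and a maximal ideal M of the algebraic integers containing p, and a nilpotent p-block B of the finite group G with defect group P. Then there is a bijection from B onto the irreducible characters of P carrying the height of each χ ∈ B to the exponent of p in the degree of its image. -/
theorem result {G : Type*} [Group G] [Fintype G] (p : ℕ) [Fact p.Prime] (M : Ideal Cfsg.AlgInt) (hM : Cfsg.IsPModular p M) (B : Set (Cfsg.IrrCharacter G)) (hnil : Cfsg.IsNilpotentBlock p M B) (P : Subgroup G) (hP : Cfsg.IsDefectGroup p M B P) : ∃ Φ : B ≃ Cfsg.IrrCharacter P, ∀ χ : B, Cfsg.blockHeight p B ((χ : Cfsg.IrrCharacter G) : G → ℂ) = (Cfsg.charDegree ((Φ χ : Cfsg.IrrCharacter P) : P → ℂ)).factorization p := by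
  classical
  have hMp := hM.2.1.isPrime
  have hB := hnil.1
  obtain ⟨e, hmax⟩ := Cfsg.Agent.Lib.BrauerCorr.exists_maximal_of_isDefectGroup hM hB hP
  obtain ⟨χ₀, hχ₀, h0, Φ, hΦ⟩ := Cfsg.Agent.Lib.StarNil.nil_structure hM hmax hnil
  refine ⟨Φ.symm, fun χ => ?_⟩
  obtain ⟨d₁, hd₁, hd₁'⟩ := Cfsg.Agent.Lib.GenChar.isIrr_one_pos (Φ.symm χ).2
  obtain ⟨d₂, hd₂, hd₂'⟩ := Cfsg.Agent.Lib.GenChar.isIrr_one_pos χ₀.2
  have hv : ¬ p ∣ orderOf (1 : G) := by simp [hM.1.one_lt.ne']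
  have h1 := hΦ (Φ.symm χ) 1 hv
  rw [Equiv.apply_symm_apply, hd₁', hd₂'] at h1
  have hdeg : ∀ {H : Type _} [Group H] (f : H → ℂ) (d : ℕ), f 1 = (d : ℂ) → Cfsg.charDegree f = d := by
    intro H _ f d hf
    unfold Cfsg.charDegree
    rw [hf]
    simp
  have h2 : Cfsg.charDegree ((χ : Cfsg.IrrCharacter G) : G → ℂ) = d₁ * d₂ := hdeg _ _ (by rw [h1]; push_cast; ring)
  have h3 : Cfsg.charDegree ((Φ.symm χ : Cfsg.IrrCharacter P) : P → ℂ) = d₁ := hdeg _ _ hd₁'
  have h4 : Cfsg.charDegree ((χ₀ : Cfsg.IrrCharacter G) : G → ℂ) = d₂ := hdeg _ _ hd₂'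
  have h5 := Cfsg.Agent.Lib.BlockQ.charDegree_factorization_eq (p := p) χ.2
  rw [h2, Nat.factorization_mul hd₁.ne' hd₂.ne'] at h5
  rw [h4] at h0
  simp only [Finsupp.coe_add, Pi.add_apply] at h5
  rw [h3]
  omega

end Cfsg.Agent.S4690
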