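import Mathlib
import Cfsg.Statements.S4691
import Cfsg.Agent.S4646

set_option autoImplicit false
open Cfsg

namespace Cfsg.Agent.S4691

open Cfsg.Agent.Lib Cfsg.Agent.Lib.BlockLocal Cfsg.Agent.S4646

set_option linter.style.haveILetI false

/-- Fix a prime p and a maximal ideal M of the algebraic integers containing p. A finite group G has a normal p-complement if and only if its principal p-block is nilpotent. -/
theorem result {G : Type*} [Group G] [Fintype G] (p : ℕ) [Fact p.Prime] (M : Ideal Cfsg.AlgInt) (hM : Cfsg.IsPModular p M) : Cfsg.HasNormalPComplement p G ↔ Cfsg.IsNilpotentBlock p M (Cfsg.principalBlock M G) := by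
  have hp : p.Prime := Fact.out
  constructor
  · rintro ⟨P, N, hNn, hc⟩
    apply isNilpotentBlock_of_pNil
    have h1 : Nat.card N * Nat.card (P : Subgroup G) = Nat.card G := hc.card_mul_card
    have h2 : N.index = Nat.card (P : Subgroup G) := by
      have h3 := Subgroup.card_mul_index N
      rw [← h1] at h3
      exact Nat.eq_of_mul_eq_mul_left Nat.card_pos h3
    have h4 : P.index = Nat.card N := by
      have h3 := Subgroup.card_mul_index (P : Subgroup G)
      rw [← h1, mul_comm] at h3
      exact Nat.eq_of_mul_eq_mul_right Nat.card_pos h3.symm |>.symm ▸ rfl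
    obtain ⟨k, hk⟩ := IsPGroup.iff_card.1 P.isPGroup'
    refine ⟨N, hNn, ?_, k, by rw [h2, hk]⟩
    rw [← h4]
    exact ((Nat.Prime.coprime_iff_not_dvd hp).2 P.not_dvd_index).symm
  · intro h
    haveI := isPrime_of_isPModular hM
    have hF : FrobNPC.FrobHyp p G := by
      intro Q hQ g hg hco
      apply h.2 Q _ (isBrauerPairOf_principal hM Q hQ) g hg (stabilizes_principal Q g hg)
      intro hd
      have h1 := Nat.dvd_gcd hd (dvd_refl p)
      rw [hco] at h1
      exact hp.one_lt.ne' (Nat.dvd_one.1 h1)
    obtain ⟨P⟩ : Nonempty (Sylow p G) := inferInstance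
    obtain ⟨N, hN, hc⟩ := FrobNPC.exists_complement_of_sylow P hF
    exact ⟨P, N, hN, hc⟩

end Cfsg.Agent.S4691
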