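import Mathlib
import Cfsg.Statements.S4694
import Cfsg.Agent.Lib.WeightPair
import Cfsg.Agent.Lib.BrauerCen

set_option autoImplicit false
set_option linter.style.haveILetI false
open Cfsg

namespace Cfsg.Agent.S4694

/-- Fix a prime p and a maximal ideal M of the algebraic integers containing p, a p-block B of the finite group G and a Brauer pair (Q, e) of B. Let T be the stabilizer of e in N_G(Q) and suppose that (Q, e) carries a weight: the block of T whose idempotent is that of e contains an irreducible character χ that is constant on the cosets of Q and whose degree has p-part equal to the p-part of the index of Q in T. Then Z(Q) is a defect group of e as a block of C_G(Q), and Q is the largest normal p-subgroup of T: every p-subgroup of T normalized by T lies in Q. -/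
theorem result {G : Type*} [Group G] [Fintype G] (p : ℕ) [Fact p.Prime] (M : Ideal Cfsg.AlgInt) (hM : Cfsg.IsPModular p M) (B : Set (Cfsg.IrrCharacter G)) (Q : Subgroup G) (e : Set (Cfsg.IrrCharacter (Subgroup.centralizer (Q : Set G)))) (hQe : Cfsg.IsBrauerPairOf p M B Q e) (T : Subgroup G) (hT : ∀ y : G, y ∈ T ↔ y ∈ Subgroup.normalizer (Q : Set G) ∧ Cfsg.StabilizesBlock (Subgroup.centralizer (Q : Set G)) e y) (F' : Set (Cfsg.IrrCharacter T)) (hF' : Cfsg.IsPBlock M F') (hF'e : ∀ t : T, Cfsg.blockCoeff F' t = Cfsg.subgroupBlockCoeff (Subgroup.centralizer (Q : Set G)) e (t : G)) (χ : Cfsg.IrrCharacter T) (hχ : χ ∈ F') (hχQ : ∀ q : G, q ∈ Q → ∀ t : T, ∀ t' : T, (t' : G) = q * (t : G) → (χ : T → ℂ) t' = (χ : T → ℂ) t) (hdeg : (Cfsg.charDegree (χ : T → ℂ)).factorization p + (Nat.card Q).factorization p = (Nat.card T).factorization p) : Cfsg.IsDefectGroup p M e ((Q ⊓ Subgroup.centralizer (Q : Set G)).subgroupOf (Subgroup.centralizer (Q : Set G))) ∧ ∀ R : Subgroup G, R ≤ T → IsPGroup p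 R → (∀ t ∈ T, t ∈ Subgroup.normalizer (R : Set G)) → R ≤ Q := by
  classical
  haveI := Cfsg.Agent.Lib.BlockLocal.isPrime_of_isPModular hM
  letI inst1 : ∀ K : Subgroup G, Fintype K := fun K => Fintype.ofFinite K
  have he : Cfsg.IsPBlock M e := hQe.1.2
  have hQp : IsPGroup p Q := hQe.1.1
  have hCT : Subgroup.centralizer (Q : Set G) ≤ T := fun c hc =>
    (hT c).2 ⟨Subgroup.centralizer_le_normalizer _ hc,
      Cfsg.Agent.Lib.BrauerStab.stabilizes_of_mem_centralizer hc e⟩
  have hQT : Q ≤ T := fun q hq => (hT q).2 ⟨Cfsg.Agent.Lib.BrauerCen.le_normalizer_self Q hq,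
      Cfsg.Agent.Lib.BrauerStab.stabilizes_of_centralizes (fun k hk => by
        have h1 := Subgroup.mem_centralizer_iff.1 hk q hq
        rw [h1]
        simp) e⟩
  have hTN : T ≤ Subgroup.normalizer (Q : Set G) := fun t ht => ((hT t).1 ht).1
  haveI hZn : (Q.subgroupOf T).Normal := (Subgroup.normal_subgroupOf_iff_le_normalizer hQT).2 hTN
  have hNn : ((Subgroup.centralizer (Q : Set G)).subgroupOf T).Normal :=
    (Subgroup.normal_subgroupOf_iff_le_normalizer hCT).2
      (hTN.trans (Cfsg.Agent.Lib.BrauerMax.normalizer_le_normalizer_centralizer Q))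
  have hχZ : ∀ z ∈ Q.subgroupOf T, (χ : T → ℂ) z = (χ : T → ℂ) 1 := by
    intro z hz
    exact hχQ z (Subgroup.mem_subgroupOf.1 hz) 1 z (by simp)
  have hcardZ : Nat.card (Q.subgroupOf T) = Nat.card Q :=
    Nat.card_congr (Subgroup.subgroupOfEquivOfLe hQT).toEquiv
  have hdeg' : (Cfsg.charDegree (χ : T → ℂ)).factorization p +
      (Nat.card (Q.subgroupOf T)).factorization p = (Nat.card T).factorization p := by
    rw [hcardZ]; exact hdeg
  refine ⟨?_, ?_⟩
  · obtain ⟨ψ, hcon, hker, hψdeg⟩ := Cfsg.Agent.Lib.WeightPair.exists_constituent_rel (p := p)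
      (Q.subgroupOf T) ((Subgroup.centralizer (Q : Set G)).subgroupOf T) hNn χ hχZ hdeg'
    let iso : ((Subgroup.centralizer (Q : Set G)).subgroupOf T) ≃* Subgroup.centralizer (Q : Set G) :=
      Subgroup.subgroupOfEquivOfLe hCT
    let θ : Cfsg.IrrCharacter (Subgroup.centralizer (Q : Set G)) := Cfsg.Agent.Lib.BrauerConj.twistE iso ψ
    have hθv : ∀ c : Subgroup.centralizer (Q : Set G), θ.1 c = ψ.1 (iso.symm c) := fun c => rfl
    -- the block
    let f : ((Subgroup.centralizer (Q : Set G)).subgroupOf T) → ℂ := fun n => Cfsg.blockCoeff F' n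
    have hclass := Cfsg.Agent.Lib.BlockNormal.blockCoeff_isClassFunction F'
    have hf : Cfsg.Agent.Lib.BlkNormalSub.GInv _ hNn f := by
      intro g n
      exact hclass n g
    have hext : Cfsg.Agent.Lib.BrauerPair.ext0 ((Subgroup.centralizer (Q : Set G)).subgroupOf T) f =
        Cfsg.blockCoeff F' := by
      funext t
      by_cases ht : t ∈ (Subgroup.centralizer (Q : Set G)).subgroupOf T
      · rw [Cfsg.Agent.Lib.BrauerPair.ext0_of_mem _ _ ht]
      · rw [Cfsg.Agent.Lib.BrauerPair.ext0_of_not_mem _ _ ht, hF'e t,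
          Cfsg.Agent.Lib.BrauerPair.subgroupBlockCoeff_eq_ext0, Cfsg.Agent.Lib.BrauerPair.ext0_of_not_mem]
        exact fun h => ht (Subgroup.mem_subgroupOf.2 h)
    have hω := Cfsg.Agent.Lib.BlkNormalSub.omega_eq_of_constituent χ ψ hcon hf
    rw [hext, Cfsg.Agent.Lib.BrauerPair.omega_blockCoeff, Cfsg.Agent.Lib.BrauerPair.ind_of_mem hχ] at hω
    have hfv : ∀ c : Subgroup.centralizer (Q : Set G), Cfsg.blockCoeff e c = f (iso.symm c) := by
      intro c
      have h2 := hF'e ⟨c, hCT c.2⟩
      rw [Cfsg.Agent.Lib.BrauerPair.subgroupBlockCoeff_eq_ext0] at h2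
      have h3 := Cfsg.Agent.Lib.BrauerPair.ext0_coe _ (Cfsg.blockCoeff e) c
      have h4 : f (iso.symm c) = Cfsg.blockCoeff F' ⟨c, hCT c.2⟩ := rfl
      rw [h4, h2]
      exact h3.symm
    have hωθ : Cfsg.Agent.Lib.BlockIdem.omega θ.1 (Cfsg.blockCoeff e) =
        Cfsg.Agent.Lib.BlockIdem.omega ψ.1 f := by
      unfold Cfsg.Agent.Lib.BlockIdem.omega
      have e1 : θ.1 1 = ψ.1 1 := by
        rw [hθv, map_one]
      rw [e1]
      congr 1
      refine Fintype.sum_equiv iso.symm.toEquiv _ _ fun c => ?_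
      rw [hfv, hθv]
      rfl
    have hθe : θ ∈ e := by
      by_contra hn
      rw [hω, Cfsg.Agent.Lib.BrauerPair.omega_blockCoeff, Cfsg.Agent.Lib.BrauerPair.ind_of_not_mem hn] at hωθ
      exact zero_ne_one hωθ
    have heθ : e = Cfsg.blockOf M θ.1 := by
      obtain ⟨ξ₀, rfl⟩ := he
      exact (Cfsg.Agent.Lib.BlockIdem.blockOf_eq_of_mem hθe).symm
    rw [heθ]
    have hDp : IsPGroup p ((Q ⊓ Subgroup.centralizer (Q : Set G)).subgroupOf (Subgroup.centralizer (Q : Set G))) :=
      (hQp.to_le inf_le_left).comap_of_injective _ Subtype.val_injective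
    have hDZ : (Q ⊓ Subgroup.centralizer (Q : Set G)).subgroupOf (Subgroup.centralizer (Q : Set G)) ≤
        Subgroup.center (Subgroup.centralizer (Q : Set G)) := by
      intro z hz
      rw [Subgroup.mem_center_iff]
      intro c
      apply Subtype.ext
      have h2 := (Subgroup.mem_subgroupOf.1 hz).1
      exact (Subgroup.mem_centralizer_iff.1 c.2 _ h2).symm
    refine Cfsg.Agent.Lib.BlkCentralD.isDefectGroup_of_central hM _ hDp hDZ θ ?_
    have hθdeg : Cfsg.charDegree θ.1 = Cfsg.charDegree ψ.1 := by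
      unfold Cfsg.charDegree
      rw [hθv, map_one]
    rw [hθdeg]
    have hcardN : Nat.card ((Subgroup.centralizer (Q : Set G)).subgroupOf T) =
        Nat.card (Subgroup.centralizer (Q : Set G)) := Nat.card_congr iso.toEquiv
    have hmap : ((Subgroup.centralizer (Q : Set G)).subgroupOf T ⊓ Q.subgroupOf T).map T.subtype =
        Q ⊓ Subgroup.centralizer (Q : Set G) := by
      ext x
      constructor
      · rintro ⟨t, ⟨h1, h2⟩, rfl⟩
        exact ⟨Subgroup.mem_subgroupOf.1 h2, Subgroup.mem_subgroupOf.1 h1⟩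
      · rintro ⟨h1, h2⟩
        exact ⟨⟨x, hCT h2⟩, ⟨Subgroup.mem_subgroupOf.2 h2, Subgroup.mem_subgroupOf.2 h1⟩, rfl⟩
    have hcardI : Nat.card ((Subgroup.centralizer (Q : Set G)).subgroupOf T ⊓ Q.subgroupOf T : Subgroup T) =
        Nat.card (Q ⊓ Subgroup.centralizer (Q : Set G) : Subgroup G) := by
      rw [← hmap, Subgroup.card_map_of_injective Subtype.val_injective]
    have hcardD : Nat.card ((Q ⊓ Subgroup.centralizer (Q : Set G)).subgroupOf (Subgroup.centralizer (Q : Set G))) =
        Nat.card (Q ⊓ Subgroup.centralizer (Q : Set G) : Subgroup G) :=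
      Nat.card_congr (Subgroup.subgroupOfEquivOfLe inf_le_right).toEquiv
    have hmul := Subgroup.card_mul_index ((Q ⊓ Subgroup.centralizer (Q : Set G)).subgroupOf (Subgroup.centralizer (Q : Set G)))
    rw [hcardI, hcardN, ← hcardD] at hψdeg
    rw [← hmul, Nat.factorization_mul Nat.card_pos.ne' Subgroup.index_ne_zero_of_finite] at hψdeg
    simp only [Finsupp.add_apply] at hψdeg
    omega
  · intro R hRT hRp hRN
    have hRn : (R.subgroupOf T).Normal := (Subgroup.normal_subgroupOf_iff_le_normalizer hRT).2 hRN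
    have h1 := Cfsg.Agent.Lib.WeightPair.le_of_normal_pgroup hM (Q.subgroupOf T) χ hχZ hdeg'
      (R.subgroupOf T) hRn (hRp.comap_of_injective _ Subtype.val_injective)
    intro r hr
    have h2 := h1 (Subgroup.mem_subgroupOf.2 hr : (⟨r, hRT hr⟩ : T) ∈ R.subgroupOf T)
    exact Subgroup.mem_subgroupOf.1 h2

end Cfsg.Agent.S4694
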