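import Mathlib
import Cfsg.Statements.S4697
import Cfsg.Agent.Lib.BFMajor2

set_option autoImplicit false
set_option linter.style.haveILetI false
open Cfsg

namespace Cfsg.Agent.S4697

open Cfsg.Agent.Lib.BlockQ

/-- Let p be a prime, M a maximal ideal of the algebraic integers containing p, and B a p-block of the finite group G with an abelian defect group D of order p^d. If D has rank 2 (its least number of generators is 2) then B contains at most p^d irreducible characters; if D has rank 3 then the number k of irreducible characters in B satisfies k^3 ≤ p^(5d). -/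
theorem result {G : Type*} [Group G] [Finite G] (p : ℕ) [Fact p.Prime] (M : Ideal Cfsg.AlgInt) (hM : Cfsg.IsPModular p M) (B : Set (Cfsg.IrrCharacter G)) (hB : Cfsg.IsPBlock M B) (D : Subgroup G) (hBD : Cfsg.IsDefectGroup p M B D) (hab : IsMulCommutative D) (d : ℕ) (hDd : Nat.card D = p ^ d) : (Group.rank D = 2 → Nat.card B ≤ p ^ d) ∧ (Group.rank D = 3 → Nat.card B ^ 3 ≤ p ^ (5 * d)) := by
  classical
  letI : Fintype G := Fintype.ofFinite G
  have hp : p.Prime := Fact.out
  have hcomm : ∀ a b : D, a * b = b * a := fun a b => mul_comm' a b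
  have hab' : ∀ x ∈ D, ∀ z ∈ D, x * z = z * x := fun x hx z hz =>
    congrArg Subtype.val (hcomm ⟨x, hx⟩ ⟨z, hz⟩)
  have hcard := Cfsg.Agent.Lib.BlockDefect.card_isDefectGroup hM hB hBD
  have hdd : Cfsg.blockDefect p B = d := Nat.pow_right_injective hp.two_le (hcard.symm.trans hDd)
  have hDp : IsPGroup p D := IsPGroup.of_card hcard
  have hNat : Nat.card B = (bF B).card := by
    rw [Nat.card_coe_set_eq, Set.ncard_eq_toFinset_card B (Set.toFinite B)]
    rfl
  constructor
  · intro h2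
    obtain ⟨x, y, hgen, hnc⟩ := Cfsg.Agent.Lib.BFMajor2.two_gen_of_rank hcomm h2
    have hgen' : ∀ t ∈ D, ∃ i j : ℤ, t = (x : G) ^ i * (y : G) ^ j := by
      intro t ht
      obtain ⟨i, j, hij⟩ := hgen ⟨t, ht⟩
      refine ⟨i, j, ?_⟩
      have := congrArg Subtype.val hij
      simpa using this
    have hxy : (x : G) ∉ Subgroup.zpowers (y : G) := by
      intro hmem
      obtain ⟨n, hn⟩ := Subgroup.mem_zpowers_iff.mp hmem
      apply hnc
      refine ⟨y, fun t => ?_⟩
      obtain ⟨i, j, hij⟩ := hgen t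
      refine ⟨n * i + j, ?_⟩
      have hxn : x = y ^ n := by
        apply Subtype.ext
        simpa using hn.symm
      rw [hij, hxn, ← zpow_mul, ← zpow_add]
    have h := Cfsg.Agent.Lib.BFMajor2.card_le_of_two_gen hM hB hBD hab' x.2 y.2 hgen' hxy
    rw [hNat, ← hdd]
    exact h
  · intro h3
    obtain ⟨u, z₁, z₂, hgen, hcardu, hnc⟩ := Cfsg.Agent.Lib.BFMajor2.three_gen_of_rank hcomm hDp h3
    have hgen' : ∀ t ∈ D, ∃ r s w : ℤ, t = (u : G) ^ r * (z₁ : G) ^ s * (z₂ : G) ^ w := by
      intro t ht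
      obtain ⟨r, s, w, hrsw⟩ := hgen ⟨t, ht⟩
      refine ⟨r, s, w, ?_⟩
      have := congrArg Subtype.val hrsw
      simpa using this
    have hnc' : ¬ ∃ v ∈ D, ∀ t ∈ D, ∃ i j : ℤ, t = (u : G) ^ i * v ^ j := by
      rintro ⟨v, hv, hvg⟩
      apply hnc
      refine ⟨⟨v, hv⟩, fun t => ?_⟩
      obtain ⟨i, j, hij⟩ := hvg t t.2
      refine ⟨i, j, ?_⟩
      apply Subtype.ext
      simpa using hij
    have h := Cfsg.Agent.Lib.BFMajor2.card_mul_le_of_three_gen hM hB hBD hab' u.2 z₁.2 z₂.2 hgen' hnc'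
    rw [hNat, ← hdd]
    rw [hDd] at hcardu
    rw [Subgroup.orderOf_mk] at hcardu
    set k := (bF B).card with hk
    set q := p ^ Cfsg.blockDefect p B with hq
    set o := orderOf (u : G) with ho
    have hq' : p ^ d = q := by rw [hq, hdd]
    rw [hq'] at hcardu
    have hq5 : p ^ (5 * Cfsg.blockDefect p B) = q ^ 5 := by
      rw [hq, ← pow_mul, mul_comm]
    rw [hq5]
    have hq0 : 0 < q := pow_pos hp.pos _
    have h1 : (k * o) ^ 3 ≤ (q * q) ^ 3 := Nat.pow_le_pow_left h 3
    have h2 : k ^ 3 * q ≤ k ^ 3 * o ^ 3 := Nat.mul_le_mul_left _ hcardu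
    have h3' : k ^ 3 * q ≤ q ^ 5 * q := by
      calc k ^ 3 * q ≤ k ^ 3 * o ^ 3 := h2
        _ = (k * o) ^ 3 := by ring
        _ ≤ (q * q) ^ 3 := h1
        _ = q ^ 5 * q := by ring
    exact Nat.le_of_mul_le_mul_right h3' hq0

end Cfsg.Agent.S4697
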