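import Cfsg.Statements.S4699
import Cfsg.Agent.Lib.CycTI
import Cfsg.Agent.Lib.DicksonRed

set_option autoImplicit false
open Cfsg

namespace Cfsg.Agent.S4699

/-- Let p be a prime and G a finite group whose Sylow p-subgroup P is cyclic of order p^n with n ≥ 2 and meets every other Sylow p-subgroup trivially. Then every faithful irreducible representation of G on a finite-dimensional space over a finite field of characteristic p has dimension at least p^n − (p − 1). -/
theorem result {G : Type*} [Group G] [Finite G] (p : ℕ) [Fact p.Prime] (P : Sylow p G) (hcyc : IsCyclic P) (n : ℕ) (hn : 2 ≤ n) (hPn : Nat.card P = p ^ n) (hTI : ∀ Q : Sylow p G, Q ≠ P → (P : Subgroup G) ⊓ (Q : Subgroup G) = ⊥) (F : Type*) [Field F] [Finite F] [CharP F p] (V : Type*) [AddCommGroup V] [Module F V] [FiniteDimensional F V] (ρ : Representation F G V) (hfaith : Function.Injective ρ) (hirr : ρ.IsIrreducible) : p ^ n - (p - 1) ≤ Module.finrank F V := by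
  classical
  haveI : Fintype G := Fintype.ofFinite G
  obtain ⟨⟨x, hxP⟩, hgen⟩ := hcyc.exists_generator
  have hPx : (P : Subgroup G) = Subgroup.zpowers x := by
    apply le_antisymm
    · intro y hy
      obtain ⟨i, hi⟩ := Subgroup.mem_zpowers_iff.1 (hgen ⟨y, hy⟩)
      refine Subgroup.mem_zpowers_iff.2 ⟨i, ?_⟩
      exact congrArg Subtype.val hi
    · rw [Subgroup.zpowers_le]
      exact hxP
  have hxo : orderOf x = p ^ n := by
    rw [← Nat.card_zpowers, ← hPx]
    exact hPn
  have hidx : ¬ p ∣ (Subgroup.zpowers x).index := by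
    rw [← hPx]
    exact P.not_dvd_index
  have hTI' : ∀ g u : G, u ∈ Subgroup.zpowers x → u ≠ 1 → g * u * g⁻¹ ∈ Subgroup.zpowers x → g ∈ Subgroup.normalizer (Subgroup.zpowers x : Set G) := by
    intro g u hu hu1 hg
    rw [← hPx]
    rw [← hPx] at hu hg
    have h1 : g • P = P := by
      by_contra hne
      have h2 := hTI (g • P) hne
      have h3 : g * u * g⁻¹ ∈ ((g • P : Sylow p G) : Subgroup G) := Cfsg.Agent.Lib.DicksonRed.conj_mem_smul g P hu
      have h4 : g * u * g⁻¹ ∈ (P : Subgroup G) ⊓ ((g • P : Sylow p G) : Subgroup G) := ⟨hg, h3⟩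
      rw [h2, Subgroup.mem_bot] at h4
      apply hu1
      have h5 : u = g⁻¹ * (g * u * g⁻¹) * g := by group
      rw [h5, h4]
      group
    exact Sylow.smul_eq_iff_mem_normalizer.1 h1
  have hirr' : ∀ U : Submodule F V, (∀ g, ∀ v ∈ U, ρ g v ∈ U) → U = ⊥ ∨ U = ⊤ := by
    intro U hU
    let S : Subrepresentation ρ := ⟨U, fun g v hv => hU g v hv⟩
    rcases hirr.eq_bot_or_eq_top S with h | h
    · exact Or.inl (congrArg Subrepresentation.toSubmodule h)
    · exact Or.inr (congrArg Subrepresentation.toSubmodule h)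
  exact Cfsg.Agent.Lib.CycTI.main ρ hfaith hirr' P hPx hn hxo hidx hTI'

end Cfsg.Agent.S4699
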