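import Mathlib
import Cfsg.Statements.S4701
import Cfsg.Agent.Lib.RigR
import Cfsg.Agent.Lib.PrimeGraphSL2
-- import your own Cfsg.Agent.* helpers here

set_option autoImplicit false
open Cfsg

namespace Cfsg.Agent.S4701

open Cfsg.Agent.Lib.RigR
open Cfsg.Agent.Lib.PrimeGraphSL2

/-- Let G be a finite perfect group and p a prime dividing the order of G with p^3 larger than the order of G. Suppose a Sylow p-subgroup of G is not normal and G has no normal subgroup of order 2. Then p > 3 and G is isomorphic to PSL(2, p), or to SL(2, 2^m) with p = 2^m + 1. -/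
theorem result {G : Type*} [Group G] [Finite G] (hperf : commutator G = ⊤) (p : ℕ) [Fact p.Prime] (hdvd : p ∣ Nat.card G) (hbig : Nat.card G < p ^ 3) (P : Sylow p G) (hP : ¬ (P : Subgroup G).Normal) (h2 : ∀ N : Subgroup G, N.Normal → Nat.card N ≠ 2) : (∃ (F : Type) (_ : Field F) (_ : Fintype F), Fintype.card F = p ∧ 3 < p ∧ Nonempty (G ≃* Matrix.ProjectiveSpecialLinearGroup (Fin 2) F)) ∨ (∃ (m : ℕ) (F : Type) (_ : Field F) (_ : Fintype F), Fintype.card F = 2 ^ m ∧ p = 2 ^ m + 1 ∧ 3 < p ∧ Nonempty (G ≃* Matrix.SpecialLinearGroup (Fin 2) F)) := by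
  classical
  rcases Cfsg.Agent.Lib.RigR.big_main hperf p hdvd hbig P hP h2 with h | ⟨m, F, i1, i2, hF, hpm, hp3, ⟨e⟩⟩
  · exact Or.inl h
  · right
    refine ⟨m, F, i1, i2, hF, hpm, hp3, ?_⟩
    have hm0 : m ≠ 0 := by
      rintro rfl
      simp at hpm
      omega
    obtain ⟨r, hr⟩ := CharP.exists F
    have hrp : r.Prime := by
      have := CharP.char_is_prime_or_zero F r
      rcases this with h | h
      · exact h
      · exfalso
        subst h
        haveI := CharP.charP_to_charZero F
        exact not_finite F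
    haveI : Fact r.Prime := ⟨hrp⟩
    obtain ⟨k, -, hk⟩ := FiniteField.card F r
    have hr2 : r = 2 := by
      have h3 : r ∣ 2 ^ m := by
        rw [← hF, hk]
        exact dvd_pow_self r k.2.ne'
      exact (Nat.prime_dvd_prime_iff_eq hrp Nat.prime_two).1 (hrp.dvd_of_dvd_pow h3)
    subst hr2
    exact ⟨e.trans Cfsg.Agent.Lib.PrimeGraphSL2.pslEquivSl⟩

end Cfsg.Agent.S4701
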