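import Mathlib
import Cfsg.Statements.S4702
import Cfsg.Agent.Lib.Sharp3Even

set_option autoImplicit false
set_option linter.all false
open Cfsg

namespace Cfsg.Agent.S4702

open Cfsg.Agent.Lib.Sharp3Even

/-- Let G be a triply transitive permutation group on a finite set of odd size m ≥ 3 in which only the identity fixes three or more points. Then m = 2^a + 1 for some a ≥ 1 and G is isomorphic to SL(2, 2^a). -/
theorem result {α : Type*} [Fintype α] [DecidableEq α] (hm : 3 ≤ Fintype.card α) (hodd : Odd (Fintype.card α)) (G : Subgroup (Equiv.Perm α)) (h3 : MulAction.IsMultiplyPretransitive G α 3) (hfix : ∀ g : G, 3 ≤ Nat.card (MulAction.fixedBy α g) → g = 1) : ∃ a : ℕ, 1 ≤ a ∧ Fintype.card α = 2 ^ a + 1 ∧ ∃ (F : Type) (_ : Field F) (_ : Fintype F), Fintype.card F = 2 ^ a ∧ Nonempty (G ≃* Matrix.SpecialLinearGroup (Fin 2) F) := by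
  classical
  have hG : Sharp3 G := by
    refine ⟨tr_of_pretransitive h3, ?_⟩
    intro g hg a b c hab hac hbc h1 h2 h3'
    have hsub : (({a, b, c} : Finset α) : Set α) ⊆ MulAction.fixedBy α (⟨g, hg⟩ : G) := by
      intro x hx
      simp only [Finset.coe_insert, Finset.coe_singleton, Set.mem_insert_iff,
        Set.mem_singleton_iff] at hx
      rcases hx with rfl | rfl | rfl
      · exact h1
      · exact h2
      · exact h3'
    have hcard : 3 ≤ Nat.card (MulAction.fixedBy α (⟨g, hg⟩ : G)) := by
      have h4 := Nat.card_le_card_of_injective (Set.inclusion hsub) (Set.inclusion_injective hsub)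
      have h5 : Nat.card (({a, b, c} : Finset α) : Set α) = 3 := by
        rw [Nat.card_coe_set_eq, Set.ncard_coe_finset]
        rw [Finset.card_insert_of_notMem (by simp [hab, hac]),
          Finset.card_insert_of_notMem (by simp [hbc]), Finset.card_singleton]
      omega
    exact congrArg Subtype.val (hfix ⟨g, hg⟩ hcard)
  obtain ⟨a, ha, hc, F, i1, i2, hF, -, hsl⟩ := main hG hodd hm
  exact ⟨a, ha, hc, F, i1, i2, hF, hsl⟩

end Cfsg.Agent.S4702
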