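import Mathlib
import Cfsg.Agent.Lib.NormTwoPB
import Cfsg.Agent.S4702
import Cfsg.Statements.S4706

set_option autoImplicit false
set_option linter.all false
set_option linter.style.haveILetI false
open Cfsg

namespace Cfsg.Agent.S4706

open Cfsg.Agent.Lib.NormTwoP

/-- Let p > 2 be a prime and G a permutation group on p letters whose Sylow p-subgroup P has normalizer of order 2p. Then either P is normal in G, or p − 1 = 2^a for some a and G is isomorphic to SL(2, 2^a). -/
theorem result {α : Type*} [Fintype α] [DecidableEq α] {p : ℕ} [Fact p.Prime] (hp : 2 < p) (hα : Fintype.card α = p) (G : Subgroup (Equiv.Perm α)) (P : Sylow p G) (hN : Nat.card (Subgroup.normalizer ((P : Subgroup G) : Set G)) = 2 * p) : (P : Subgroup G).Normal ∨ ∃ (a : ℕ) (F : Type) (_ : Field F) (_ : Fintype F), p = 2 ^ a + 1 ∧ Fintype.card F = 2 ^ a ∧ Nonempty (G ≃* Matrix.SpecialLinearGroup (Fin 2) F) := by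
  classical
  have hpp : p.Prime := Fact.out
  letI : Fintype G := Fintype.ofFinite G
  have hα' : Nat.card α = p := by rw [Nat.card_eq_fintype_card, hα]
  have hGd : Nat.card G ∣ p.factorial := by
    have h1 := Subgroup.card_subgroup_dvd_card G
    rwa [Nat.card_perm, hα'] at h1
  have hNd : Nat.card (Subgroup.normalizer ((P : Subgroup G) : Set G)) ∣ Nat.card G :=
    Subgroup.card_subgroup_dvd_card _
  have hpG : p ∣ Nat.card G := by
    rw [hN] at hNd
    exact (dvd_mul_left p 2).trans hNd
  have hpP : p ∣ Nat.card (P : Subgroup G) := by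
    have := P.pow_dvd_card_of_pow_dvd_card (n := 1) (by simpa using hpG)
    simpa using this
  have hp2 : ¬ p ^ 2 ∣ Nat.card G := by
    intro h
    have h1 := h.trans hGd
    rw [← Nat.mul_factorial_pred hpp.ne_zero, pow_two] at h1
    have h2 := Nat.dvd_of_mul_dvd_mul_left hpp.pos h1
    have h3 := hpp.dvd_factorial.1 h2
    have := hpp.pos
    omega
  have hPc : Nat.card (P : Subgroup G) = p := by
    obtain ⟨k, hk⟩ := IsPGroup.iff_card.1 P.isPGroup'
    rw [hk] at hpP ⊢
    rcases k with _ | _ | k
    · simp at hpP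
      exact absurd hpP hpp.ne_one
    · simp
    · exfalso
      apply hp2
      have h1 : p ^ 2 ∣ Nat.card (P : Subgroup G) := by
        rw [hk]
        exact pow_dvd_pow _ (by omega)
      exact h1.trans (Subgroup.card_subgroup_dvd_card _)
  have hord : ∀ y : G, y ∈ (P : Subgroup G) → y ≠ 1 → orderOf y = p := by
    intro y hy h1
    have h2 : orderOf y ∣ p := by
      rw [← hPc]
      exact Subgroup.orderOf_dvd_natCard _ hy
    rcases (Nat.dvd_prime hpp).1 h2 with h | h
    · exact absurd (orderOf_eq_one_iff.1 h) h1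
    · exact h
  have hzp : ∀ y : G, y ∈ (P : Subgroup G) → y ≠ 1 → Subgroup.zpowers y = (P : Subgroup G) := by
    intro y hy h1
    refine Subgroup.eq_of_le_of_card_ge ?_ ?_
    · rwa [Subgroup.zpowers_le]
    · rw [Nat.card_zpowers, hord y hy h1, hPc]
  obtain ⟨y₀', hy₀'⟩ := exists_prime_orderOf_dvd_card' p hpP
  set y₀ : G := (y₀' : G) with hy₀def
  have hy₀o : orderOf y₀ = p := by
    rw [hy₀def, Subgroup.orderOf_coe, hy₀']
  have hy₀m : y₀ ∈ (P : Subgroup G) := y₀'.2
  have hy₀1 : y₀ ≠ 1 := by
    intro h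
    rw [h, orderOf_one] at hy₀o
    exact hpp.ne_one hy₀o.symm
  haveI htrans : MulAction.IsPretransitive G α := pretransitive_of_order hα' hy₀o
  have hcenter : ∀ y : G, y ∈ (P : Subgroup G) → y ≠ 1 →
      Subgroup.centralizer ({y} : Set G) = (P : Subgroup G) := by
    intro y hy h1
    rw [centralizer_eq_zpowers hα' (hord y hy h1), hzp y hy h1]
  have hcomm : ∀ a ∈ (P : Subgroup G), ∀ b ∈ (P : Subgroup G), a * b = b * a := by
    intro a ha b hb
    rw [← hzp y₀ hy₀m hy₀1] at ha hb
    obtain ⟨i, rfl⟩ := Subgroup.mem_zpowers_iff.1 ha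
    obtain ⟨j, rfl⟩ := Subgroup.mem_zpowers_iff.1 hb
    exact (Commute.refl y₀).zpow_zpow i j
  have hCP : Subgroup.centralizer ((P : Subgroup G) : Set G) = (P : Subgroup G) := by
    apply le_antisymm
    · calc Subgroup.centralizer ((P : Subgroup G) : Set G) ≤ Subgroup.centralizer ({y₀} : Set G) :=
            Subgroup.centralizer_le (Set.singleton_subset_iff.2 hy₀m)
        _ = (P : Subgroup G) := hcenter y₀ hy₀m hy₀1
    · intro a ha
      rw [Subgroup.mem_centralizer_iff]
      intro b hb
      exact hcomm b hb a ha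
  have H : Cfsg.Agent.Lib.FrobBlock.Hyp P := by
    refine ⟨hcomm, fun y hy h1 => ?_⟩
    rw [hcenter y hy h1, hCP]
    exact inf_eq_left.2 Subgroup.le_normalizer
  by_cases hp5 : 5 ≤ p
  · obtain ⟨M, hM⟩ := Cfsg.Agent.Lib.BlockVal.exists_isPModular hpp
    letI : Fintype (P : Subgroup G) := Fintype.ofFinite _
    letI : Fintype (Subgroup.normalizer ((P : Subgroup G) : Set G)) := Fintype.ofFinite _
    haveI : Finite (↥(P : Subgroup G) →* ℂˣ) := Cfsg.Agent.Lib.FrobBlock.finite_dual H.commA
    letI : Fintype (↥(P : Subgroup G) →* ℂˣ) := Fintype.ofFinite _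
    have hf0 : ∀ Q : Sylow p G, ∀ g ∈ (Q : Subgroup G), g ≠ 1 → Cfsg.Agent.Lib.TwoTrans.fix α g = 0 := by
      intro Q g hg h1
      have hQc : Nat.card (Q : Subgroup G) = p := (Nat.card_congr (Q.equiv P).toEquiv).trans hPc
      have h2 : orderOf g ∣ p := by
        rw [← hQc]
        exact Subgroup.orderOf_dvd_natCard _ hg
      rcases (Nat.dvd_prime hpp).1 h2 with h | h
      · exact absurd (orderOf_eq_one_iff.1 h) h1
      · exact fix_zero_of_order hα' h
    rcases main_abs (α := α) H hM hPc hp5 hα' hN (by rw [hCP]; exact hPc) (fun y hy => by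
        rw [hcenter y y.2 (fun h => hy (Subtype.ext h))]
        exact hPc) hf0 with h | ⟨hle, hcard⟩
    · exact Or.inl h
    · right
      have hfix : ∀ g : G, 3 ≤ Nat.card (MulAction.fixedBy α g) → g = 1 := by
        intro g h3
        by_contra h1
        have := hle g h1
        unfold Cfsg.Agent.Lib.TwoTrans.fix at this
        omega
      have hm : 3 ≤ Fintype.card α := by omega
      have hodd : Odd (Fintype.card α) := by
        rw [hα]
        exact hpp.odd_of_ne_two (by omega)
      have hemb : Nat.card G = Nat.card (Fin 3 ↪ α) := by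
        rw [hcard, Nat.card_eq_fintype_card (α := Fin 3 ↪ α), Fintype.card_embedding_eq, Fintype.card_fin, hα]
        rw [Nat.descFactorial_succ, Nat.descFactorial_succ, Nat.descFactorial_succ, Nat.descFactorial_zero]
        simp only [mul_one, Nat.sub_zero]
        ring
      haveI : Nonempty (Fin 3 ↪ α) := Function.Embedding.nonempty_of_card_le (by
        rw [Fintype.card_fin]
        exact hm)
      obtain ⟨x₀⟩ := ‹Nonempty (Fin 3 ↪ α)›
      have hinj : Function.Injective (fun g : G => g • x₀) := by
        intro g g' h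
        have h1 : (g'⁻¹ * g) • x₀ = x₀ := by
          have h2 : g • x₀ = g' • x₀ := h
          calc (g'⁻¹ * g) • x₀ = g'⁻¹ • (g • x₀) := mul_smul _ _ _
            _ = x₀ := by
              rw [h2]
              exact inv_smul_smul g' x₀
        have h2 : ∀ i : Fin 3, (g'⁻¹ * g) • x₀ i = x₀ i := fun i => by
          have h3 := DFunLike.congr_fun h1 i
          exact h3
        have h3 : 3 ≤ Nat.card (MulAction.fixedBy α (g'⁻¹ * g)) := by
          have h4 : Function.Injective (fun i : Fin 3 => (⟨x₀ i, h2 i⟩ : MulAction.fixedBy α (g'⁻¹ * g))) :=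
            fun i j hij => x₀.injective (congrArg Subtype.val hij)
          have h5 := Nat.card_le_card_of_injective _ h4
          rwa [Nat.card_fin] at h5
        have h4 := hfix _ h3
        exact (inv_mul_eq_one.1 h4).symm
      have hbij : Function.Bijective (fun g : G => g • x₀) :=
        (Nat.bijective_iff_injective_and_card _).2 ⟨hinj, hemb⟩
      have h3 : MulAction.IsMultiplyPretransitive G α 3 := by
        refine ⟨fun x y => ?_⟩
        obtain ⟨g₁, hg₁⟩ := hbij.2 x
        obtain ⟨g₂, hg₂⟩ := hbij.2 y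
        refine ⟨g₂ * g₁⁻¹, ?_⟩
        have hg₁' : g₁ • x₀ = x := hg₁
        have hg₂' : g₂ • x₀ = y := hg₂
        calc (g₂ * g₁⁻¹) • x = g₂ • (g₁⁻¹ • x) := mul_smul _ _ _
          _ = g₂ • x₀ := by
            congr 1
            rw [← hg₁']
            exact inv_smul_smul g₁ x₀
          _ = y := hg₂'
      obtain ⟨a, -, ha, F, hF, hF2, hFc, hiso⟩ := Cfsg.Agent.S4702.result hm hodd G h3 hfix
      exact ⟨a, F, hF, hF2, by rw [← hα, ha], hFc, hiso⟩
  · left
    have hp3 : p = 3 := by
      have h1 : p = 3 ∨ p = 4 := by omega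
      rcases h1 with h | h
      · exact h
      · rw [h] at hpp
        exact absurd hpp (by norm_num)
    have h1 : Nat.card G = 2 * p := by
      apply le_antisymm
      · have h2 := Nat.le_of_dvd (Nat.factorial_pos p) hGd
        rw [hp3] at h2 ⊢
        simpa [Nat.factorial] using h2
      · rw [← hN]
        exact Subgroup.card_le_card_group _
    have h2 : Subgroup.normalizer ((P : Subgroup G) : Set G) = ⊤ := by
      apply Subgroup.eq_top_of_card_eq
      rw [hN, h1]
    exact Subgroup.normalizer_eq_top_iff.1 h2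


end Cfsg.Agent.S4706
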