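import Mathlib
import Cfsg.Statements.S4707
import Cfsg.Agent.Lib.Deg2pSetup
import Cfsg.Agent.Lib.Deg2pEnd
import Cfsg.Agent.Lib.TwoTrans
import Cfsg.Agent.Lib.PermChar
import Cfsg.Agent.S0494

set_option autoImplicit false
set_option linter.style.haveILetI false
set_option linter.unusedSectionVars false
set_option linter.unusedVariables false

namespace Cfsg.Agent.S4707

open Cfsg Cfsg.Agent.Lib.CharBasic Cfsg.Agent.Lib.DefectOne Cfsg.Agent.Lib.DefectTwo Cfsg.Agent.Lib.Deg2pData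
  Cfsg.Agent.Lib.Deg2pSetup Subgroup MulAction

universe u v

/-- An involution of `N(P)` has at most two fixed points. -/
theorem fix_le_two {Γ : Type u} [Group Γ] [Finite Γ] {Ω : Type v} [Fintype Ω] [MulAction Γ Ω] {P : Subgroup Γ} {p : ℕ}
    (hPc : Nat.card P = p) (hp : p.Prime) (hp2 : p ≠ 2) (hp0 : 0 < p) (hΩ : Fintype.card Ω = 2 * p)
    (hfree : ∀ w ∈ P, w ≠ 1 → ∀ a : Ω, w • a ≠ a) {t : Γ} (hinv : ∀ u ∈ P, t * u * t⁻¹ = u⁻¹)
    {a b c : Ω} (ha : t • a = a) (hb : t • b = b) (hc : t • c = c) : a = b ∨ a = c ∨ b = c := by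
  classical
  by_contra hcon
  push Not at hcon
  obtain ⟨hab, hac, hbc⟩ := hcon
  -- two fixed points in an orbit coincide
  have key : ∀ x y : Ω, t • x = x → t • y = y → ∀ u ∈ P, u • x = y → u = 1 := by
    intro x y hx hy u hu huxy
    by_contra hu1
    have h1 : u⁻¹ • x = y := by
      have h2 : t • (u • x) = y := by rw [huxy, hy]
      have h3 : t • (u • x) = (t * u * t⁻¹) • (t • x) := by
        rw [← mul_smul, ← mul_smul]
        group
      rw [h3, hinv u hu, hx] at h2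
      exact h2
    have h4 : (u * u) • x = x := by
      rw [mul_smul, huxy, ← h1, ← mul_smul, mul_inv_cancel, one_smul]
    have h5 : u * u ≠ 1 := by
      intro h6
      have h7 : u ^ 2 = 1 := by rw [pow_two, h6]
      have ho := Cfsg.Agent.Lib.SmallGroups2.orderOf_eq_of_mem_of_ne_one hp hPc hu hu1
      have h8 := orderOf_dvd_of_pow_eq_one h7
      rw [ho] at h8
      exact hp2 ((Nat.prime_dvd_prime_iff_eq hp Nat.prime_two).1 h8)
    exact hfree _ (P.mul_mem hu hu) h5 x h4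
  let x : Fin 3 → Ω := ![a, b, c]
  have hxfix : ∀ i, t • x i = x i := by
    intro i
    fin_cases i
    · exact ha
    · exact hb
    · exact hc
  have hxinj : Function.Injective x := by
    intro i j hij
    fin_cases i <;> fin_cases j <;> first
      | rfl
      | (exfalso; simp [x] at hij; first | exact hab hij | exact hac hij | exact hbc hij | exact hab hij.symm | exact hac hij.symm | exact hbc hij.symm)
  let φ : ↥P × Fin 3 → Ω := fun q => (q.1 : Γ) • x q.2
  have hφ : Function.Injective φ := by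
    rintro ⟨w, i⟩ ⟨w', j⟩ h
    have h1 : (w : Γ) • x i = (w' : Γ) • x j := h
    have h2 : ((w' : Γ)⁻¹ * w) • x i = x j := by
      rw [mul_smul, h1, ← mul_smul, inv_mul_cancel, one_smul]
    have h3 := key (x i) (x j) (hxfix i) (hxfix j) _ (P.mul_mem (P.inv_mem w'.2) w.2) h2
    have h4 : (w : Γ) = w' := by
      have := inv_mul_eq_one.1 h3
      exact this.symm
    rw [h3, one_smul] at h2
    have h5 := hxinj h2
    rw [h5]
    congr 1
    exact Subtype.ext h4
  have hle := Nat.card_le_card_of_injective φ hφ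
  rw [Nat.card_prod, hPc, Nat.card_eq_fintype_card (α := Fin 3), Fintype.card_fin, Nat.card_eq_fintype_card, hΩ] at hle
  omega

/-- The main theorem, for a faithful action. -/
theorem main_abstract {Γ : Type u} [Group Γ] [Finite Γ] {Ω : Type v} [Fintype Ω] [MulAction Γ Ω] [FaithfulSMul Γ Ω]
    {p : ℕ} [Fact p.Prime] (hp : 3 < p) (hΩ : Fintype.card Ω = 2 * p) (hprim : IsPreprimitive Γ Ω)
    (hnot2 : ¬ IsMultiplyPretransitive Γ Ω 2) (P : Sylow p Γ)
    (hN : Nat.card (normalizer ((P : Subgroup Γ) : Set Γ)) = 2 * p) :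
    p = 5 ∧ Nonempty (Γ ≃* alternatingGroup (Fin 5)) := by
  classical
  letI : Fintype Γ := Fintype.ofFinite Γ
  have hpp : p.Prime := Fact.out
  have hp2 : p ≠ 2 := by omega
  have hp5 : 5 ≤ p := by
    by_contra h
    have h4 : p = 4 := by omega
    rw [h4] at hpp
    norm_num at hpp
  haveI := hprim
  haveI hsimple : IsSimpleGroup Γ := isSimple_of hp2 hΩ hprim P hN
  obtain ⟨a₀⟩ : Nonempty Ω := by
    apply Fintype.card_pos_iff.1
    omega
  have hΩn : Nat.card Ω = 2 * p := by rw [Nat.card_eq_fintype_card, hΩ]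
  have hstab : ∀ a : Ω, Nat.card (stabilizer Γ a) * (2 * p) = Nat.card Γ := by
    intro a
    have h1 := Subgroup.card_mul_index (stabilizer Γ a)
    rw [index_stabilizer_of_transitive Γ a, hΩn] at h1
    exact h1
  have h2p : 2 * p ∣ Nat.card Γ := by
    rw [← hstab a₀]
    exact dvd_mul_left _ _
  have hPc := card_sylow_eq P hN (dvd_of_mul_left_dvd h2p) hp2
  have hG := not_comm_of hp2 P hPc h2p
  obtain ⟨m, hm⟩ : ∃ m, m = (P : Subgroup Γ).index := ⟨_, rfl⟩
  have hcard : Nat.card Γ = p * m := by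
    rw [hm]
    exact card_eq_mul_index P hPc
  have hmnd : ¬ p ∣ m := by
    rw [hm]
    exact P.not_dvd_index
  have hm0 : m ≠ 0 := by
    rintro rfl
    exact hmnd (dvd_zero _)
  have hn : Nat.card (Sylow p Γ) * 2 = m := by
    have h1 := Cfsg.Agent.Lib.SmallGroups2.card_normalizer_mul_card_sylow P
    rw [hN, hcard] at h1
    apply Nat.eq_of_mul_eq_mul_left hpp.pos
    rw [← h1]
    ring
  obtain ⟨H, hN'⟩ := hyp_of_sylow hG Nat.prime_two hcard hmnd hn P
  obtain ⟨D⟩ := exists_exData H hN' hp5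
  -- `P` acts freely
  have hfree : ∀ w ∈ (P : Subgroup Γ), w ≠ 1 → ∀ a : Ω, w • a ≠ a := by
    intro w hw hw1 a ha
    have hs : w ∈ stabilizer Γ a := ha
    have ho := Cfsg.Agent.Lib.SmallGroups2.orderOf_eq_of_mem_of_ne_one hpp hPc hw hw1
    have h1 : p ∣ Nat.card (stabilizer Γ a) := by
      rw [← ho]
      exact Subgroup.orderOf_dvd_natCard _ hs
    obtain ⟨c, hc⟩ := h1
    have h2 := hstab a
    rw [hc, hcard] at h2
    apply hmnd
    refine ⟨c * 2 * p / p * 1, ?_⟩
    have h3 : m = p * (c * 2) := by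
      apply Nat.eq_of_mul_eq_mul_left hpp.pos
      rw [← h2]
      ring
    rw [h3]
    simp [Nat.mul_div_cancel _ hpp.pos]
  -- the permutation character
  let π : Γ → ℂ := fun g => ((Cfsg.Agent.Lib.TwoTrans.fix Ω g : ℕ) : ℂ)
  have hπchar : IsCharacter Γ π := Cfsg.Agent.Lib.TwoTrans.isCharacter_fix Ω
  obtain ⟨μ, hπ⟩ := exists_nat_decomp hπchar
  have hμ1 : μ (oneIrr Γ) = 1 := by
    obtain ⟨m', hm', hm'1, -, -⟩ := Cfsg.Agent.Lib.PermChar.mult_data (G := Γ) (Ω := Ω) a₀
    have h1 := hm' (oneIrr Γ)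
    have h2 : classInner π ((oneIrr Γ : IrrCharacter Γ) : Γ → ℂ) = μ (oneIrr Γ) := by
      rw [hπ]
      exact classInner_nat_decomp μ _ (oneIrr Γ).2
    have h3 : m' (oneIrr Γ) = 1 := hm'1
    have h4 : ((μ (oneIrr Γ) : ℕ) : ℂ) = ((m' (oneIrr Γ) : ℕ) : ℂ) := by
      rw [← h2, ← h1]
      rfl
    rw [h3] at h4
    exact_mod_cast h4
  have hπ1 : π 1 = ((2 * p : ℕ) : ℂ) := by
    have h1 : fixedBy Ω (1 : Γ) = Set.univ := by
      ext x
      simp
    show ((Nat.card (fixedBy Ω (1 : Γ)) : ℕ) : ℂ) = _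
    rw [h1, Nat.card_coe_set_eq, Set.ncard_univ, hΩn]
  have hπ0 : ∀ w ∈ (P : Subgroup Γ), w ≠ 1 → π w = 0 := by
    intro w hw hw1
    have h1 : fixedBy Ω w = ∅ := by
      ext x
      simp only [mem_fixedBy, Set.mem_empty_iff_false, iff_false]
      exact hfree w hw hw1 x
    show ((Nat.card (fixedBy Ω w) : ℕ) : ℂ) = _
    rw [h1]
    simp
  have hnot : ¬ IsIrrCharacter Γ (fun g => π g - 1) := fun h =>
    hnot2 ((Cfsg.Agent.Lib.TwoTrans.isIrrCharacter_fix_sub_one_iff Ω (by omega)).1 h)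
  obtain ⟨hw, hσ, hx₁, hx₀, hm₁, hb⟩ := pi_decomp H hG hp5 D μ hπ hπ1 hπ0 hμ1 hnot
  have hgood : D.Good := ⟨hw, hσ, hx₁, hx₀⟩
  have hπpow : ∀ k, (Nat.card Γ).Coprime k → ∀ g, π (g ^ k) = π g := by
    intro k hk g
    show ((Nat.card (fixedBy Ω (g ^ k)) : ℕ) : ℂ) = ((Nat.card (fixedBy Ω g) : ℕ) : ℂ)
    rw [card_fixedBy_pow hk g]
  have hpow : ∀ k, (Nat.card Γ).Coprime k → ∀ g, (D.i₁ : Γ → ℂ) (g ^ k) = (D.i₁ : Γ → ℂ) g :=
    fun k hk g => D.chi1_pow μ hπ hπpow hm₁ hb hx₁ hp5 hk g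
  have hint : ∀ g, ∃ z : ℤ, (D.i₁ : Γ → ℂ) g = z := fun g =>
    Cfsg.Agent.Lib.BlockGal.exists_int_of_pow_eq (IsIrrCharacter.isCharacter D.i₁.2) g (fun k hk => hpow k hk g)
  obtain ⟨j₀⟩ : Nonempty D.J := by
    apply Fintype.card_pos_iff.1
    have := D.hJ
    have hpz : (5 : ℤ) ≤ p := by exact_mod_cast hp5
    have h3 : (0 : ℤ) < Fintype.card D.J := by omega
    exact_mod_cast h3
  have hc₁1 : (D.i₁ : Γ → ℂ) 1 = (p : ℂ) - 1 := by
    rw [(D.hd _).2]
    have h1 : ((D.d D.i₁ + 1 : ℕ) : ℂ) = p := by rw [hx₁]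
    push_cast at h1
    rw [← h1]
    ring
  have hχ1 : (D.e j₀ : Γ → ℂ) 1 = (p : ℂ) - 2 := by
    rw [(D.hd _).2, D.hx₀ j₀]
    have h1 : ((D.x₀ + 2 : ℕ) : ℂ) = p := by rw [hx₀]
    push_cast at h1
    rw [← h1]
    ring
  have hker : ∀ g : Γ, ¬ p ∣ orderOf g → (D.i₁ : Γ → ℂ) g - 1 = (p : ℂ) - 2 → g = 1 := by
    intro g hr h
    apply eq_one_of_char_eq_degree hG (D.he1 j₀)
    rw [D.chi_regular hgood H j₀ hr, h, hχ1]
  -- elements of odd order
  have hodd : ∀ g : Γ, g ≠ 1 → Odd (orderOf g) → ¬ p ∣ orderOf g → (D.i₁ : Γ → ℂ) g = 1 := by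
    intro g hg1 ho hr
    obtain ⟨k, hk, hgk⟩ := exists_pow_eq_sq ho
    have h1 := D.func_eq hgood H hN' hp5 hr
    rw [← hgk, hpow k hk g] at h1
    have h2 : ((D.i₁ : Γ → ℂ) g - 1) * (((D.i₁ : Γ → ℂ) g - 1) - ((p : ℂ) - 2)) = 0 := by
      linear_combination -h1
    rcases mul_eq_zero.1 h2 with h3 | h3
    · linear_combination h3
    · exact absurd (hker g hr (sub_eq_zero.1 h3)) hg1
  -- involutions
  have hinv : ∀ z : Γ, z ^ 2 = 1 → z ≠ 1 → (D.i₁ : Γ → ℂ) z = 0 := by
    intro z hz2 hz1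
    have hr : ¬ p ∣ orderOf z := by
      intro h
      have h1 := h.trans (orderOf_dvd_of_pow_eq_one hz2)
      exact hp2 ((Nat.prime_dvd_prime_iff_eq hpp Nat.prime_two).1 h1)
    have h1 := D.func_eq hgood H hN' hp5 hr
    rw [← pow_two, hz2, hc₁1] at h1
    have h2 : ((D.i₁ : Γ → ℂ) z) * (((D.i₁ : Γ → ℂ) z - 1) - ((p : ℂ) - 2)) = 0 := by
      linear_combination -h1
    rcases mul_eq_zero.1 h2 with h3 | h3
    · exact h3
    · exact absurd (hker z hr (sub_eq_zero.1 h3)) hz1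
  have hχchar : IsCharacter Γ (D.e j₀ : Γ → ℂ) := IsIrrCharacter.isCharacter (D.e j₀).2
  have hx₀pos : 0 < D.x₀ := by omega
  have hx₀odd : ¬ 2 ∣ D.x₀ := by
    intro h
    have h1 : 2 ∣ p := by
      rw [← hx₀]
      exact Dvd.dvd.add h (dvd_refl 2)
    exact hp2 ((Nat.prime_dvd_prime_iff_eq Nat.prime_two hpp).1 h1).symm
  -- the odd part of `m`
  have hdegχ : (D.e j₀ : Γ → ℂ) 1 = (D.x₀ : ℕ) := by rw [(D.hd _).2, D.hx₀ j₀]
  obtain ⟨a, n, hnodd, hmeq⟩ := Nat.exists_eq_two_pow_mul_odd hm0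
  have hn0 : n ≠ 0 := by
    rintro rfl
    simp at hnodd
  have hndvd2 : ¬ 2 ∣ n := by
    rw [← even_iff_two_dvd, Nat.not_even_iff_odd]
    exact hnodd
  have hn_m : n ∣ m := by
    rw [hmeq]
    exact dvd_mul_left _ _
  have hGn : n ∣ Nat.card Γ := by
    rw [hcard]
    exact Dvd.dvd.mul_left hn_m _
  have hn_dvd : n ∣ D.x₀ := by
    rw [← Nat.factorization_prime_le_iff_dvd hn0 hx₀pos.ne']
    intro r hr
    by_cases hr2 : r = 2
    · subst hr2
      rw [Nat.factorization_eq_zero_of_not_dvd hndvd2]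
      exact Nat.zero_le _
    by_cases hrp : r = p
    · subst hrp
      rw [Nat.factorization_eq_zero_of_not_dvd (fun h => hmnd (h.trans hn_m))]
      exact Nat.zero_le _
    haveI : Fact r.Prime := ⟨hr⟩
    obtain ⟨R⟩ : Nonempty (Sylow r Γ) := inferInstance
    have hRv : ∀ s ∈ (R : Subgroup Γ), s ≠ 1 → (D.e j₀ : Γ → ℂ) s = 0 := by
      intro s hs hs1
      obtain ⟨k, hk⟩ := IsPGroup.iff_orderOf.1 R.isPGroup' ⟨s, hs⟩
      have hk' : orderOf s = r ^ k := by
        rw [← hk]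
        exact (Subgroup.orderOf_mk s hs).symm
      have hodd' : Odd (orderOf s) := by
        rw [hk']
        exact (hr.odd_of_ne_two hr2).pow
      have hpnd : ¬ p ∣ orderOf s := by
        rw [hk']
        intro h
        exact hrp ((Nat.prime_dvd_prime_iff_eq hpp hr).1 (hpp.dvd_of_dvd_pow h)).symm
      rw [D.chi_regular hgood H j₀ hpnd, hodd s hs1 hodd' hpnd, sub_self]
    have h1 := dvd_of_vanish hχchar (R : Subgroup Γ) hdegχ hRv
    rw [R.card_eq_multiplicity] at h1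
    have h2 := (hr.pow_dvd_iff_le_factorization hx₀pos.ne').1 h1
    refine le_trans ?_ h2
    exact (Nat.factorization_le_iff_dvd hn0 Nat.card_pos.ne').2 hGn r
  have hx_dvd : D.x₀ ∣ n := by
    have h1 : D.x₀ ∣ Nat.card Γ := degree_dvd (D.e j₀) hdegχ
    rw [hcard, hmeq] at h1
    have hc1 : Nat.Coprime D.x₀ p := by
      rw [Nat.coprime_comm, Nat.Prime.coprime_iff_not_dvd hpp]
      intro h
      have := Nat.le_of_dvd hx₀pos h
      omega
    have hc2 : Nat.Coprime D.x₀ (2 ^ a) := by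
      apply Nat.Coprime.pow_right
      rw [Nat.coprime_comm, Nat.Prime.coprime_iff_not_dvd Nat.prime_two]
      exact hx₀odd
    exact hc2.dvd_of_dvd_mul_left (hc1.dvd_of_dvd_mul_left h1)
  have hnx : n = D.x₀ := Nat.dvd_antisymm hn_dvd hx_dvd
  rw [hnx] at hmeq
  have ha1 : 1 ≤ a := by
    by_contra h
    have h0 : a = 0 := by omega
    rw [h0, pow_zero, one_mul] at hmeq
    apply hx₀odd
    rw [← hmeq, ← hn]
    exact dvd_mul_left _ _
  obtain ⟨a', rfl⟩ : ∃ a', a = a' + 1 := ⟨a - 1, by omega⟩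
  have hSyl : Nat.card (Sylow p Γ) = 2 ^ a' * D.x₀ := by
    have h1 : Nat.card (Sylow p Γ) * 2 = (2 ^ a' * D.x₀) * 2 := by
      rw [hn, hmeq, pow_succ]
      ring
    exact Nat.eq_of_mul_eq_mul_right (by norm_num) h1
  -- the Sylow congruence
  have hcong : p ∣ 2 ^ (a' + 1) + 1 := by
    have h1 := (card_sylow_modEq_one p Γ).symm
    rw [hSyl] at h1
    have h2 := (Nat.modEq_iff_dvd.1 h1)
    have h3 : ((2 ^ a' * D.x₀ : ℕ) : ℤ) - ((1 : ℕ) : ℤ) = (2 ^ a' * D.x₀ : ℤ) - 1 := by push_cast; ring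
    rw [h3] at h2
    have hxz : (D.x₀ : ℤ) = p - 2 := by
      have : ((D.x₀ + 2 : ℕ) : ℤ) = p := by rw [hx₀]
      push_cast at this
      linarith
    rw [hxz] at h2
    have h4 : (p : ℤ) ∣ 2 * (2 ^ (a' + 1) + 1) := by
      have h5 : 2 * ((2 : ℤ) ^ (a' + 1) + 1) = p * 2 ^ (a' + 1) - 2 * (2 ^ a' * ((p : ℤ) - 2) - 1) := by
        rw [pow_succ]
        ring
      rw [h5]
      exact dvd_sub (dvd_mul_right _ _) (Dvd.dvd.mul_left h2 _)
    have h6 : p ∣ 2 * (2 ^ (a' + 1) + 1) := by exact_mod_cast h4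
    have hc : Nat.Coprime p 2 := by
      rw [Nat.Prime.coprime_iff_not_dvd hpp]
      intro h
      exact hp2 ((Nat.prime_dvd_prime_iff_eq hpp Nat.prime_two).1 h)
    exact hc.dvd_of_dvd_mul_left h6
  -- the Sylow `2`-subgroup
  have hcardT : Nat.card Γ = 2 ^ (a' + 1) * (p * D.x₀) := by
    rw [hcard, hmeq]
    ring
  have hnd2 : ¬ 2 ∣ p * D.x₀ := by
    intro h
    rcases (Nat.Prime.dvd_mul Nat.prime_two).1 h with h1 | h1
    · exact hp2 ((Nat.prime_dvd_prime_iff_eq Nat.prime_two hpp).1 h1).symm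
    · exact hx₀odd h1
  obtain ⟨T⟩ : Nonempty (Sylow 2 Γ) := inferInstance
  have hT : Nat.card (T : Subgroup Γ) = 2 ^ (a' + 1) :=
    Cfsg.Agent.Lib.SmallGroups2.sylow_card_of_card_eq hcardT hnd2 T
  by_cases hp5eq : p = 5
  · -- the case `p = 5`: the master formula
    refine ⟨hp5eq, ?_⟩
    have hT2 : 2 ∣ Nat.card (T : Subgroup Γ) := by
      rw [hT, pow_succ]
      exact dvd_mul_left _ _
    obtain ⟨z, hz2, hz1, hTz⟩ := exists_central_involution T hT2
    have h₁ := hinv z hz2 hz1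
    have hr : ¬ p ∣ orderOf z := by
      intro h
      have h1 := h.trans (orderOf_dvd_of_pow_eq_one hz2)
      exact hp2 ((Nat.prime_dvd_prime_iff_eq hpp Nat.prime_two).1 h1)
    have h₀ : (D.e j₀ : Γ → ℂ) z = -1 := by
      rw [D.chi_regular hgood H j₀ hr, h₁]
      ring
    have hmaster := D.master hgood H hp5 j₀ hz2 hz1 h₁ h₀
    have hfil := card_filter_conj_mem H (normalizer ((P : Subgroup Γ) : Set Γ) : Set Γ) z
    set A := (Finset.univ.filter fun x : Γ => x * z * x⁻¹ ∈ normalizer ((P : Subgroup Γ) : Set Γ)).card with hA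
    set c := Nat.card (centralizer ({z} : Set Γ)) with hc
    have hx₀3 : D.x₀ = 3 := by omega
    rw [hcardT, hx₀3, hp5eq] at hmaster
    have hcA : c * A = 20 * 2 ^ (a' + 1) := by
      have : 3 * (c * A) = 3 * (20 * 2 ^ (a' + 1)) := by
        have h5 : 5 - 2 = 3 := rfl
        have h6 : 5 - 1 = 4 := rfl
        rw [h5, h6] at hmaster
        rw [hmaster]
        ring
      exact Nat.eq_of_mul_eq_mul_left (by norm_num) this
    have hTc : 2 ^ (a' + 1) ∣ c := by
      rw [← hT]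
      exact Subgroup.card_dvd_of_le hTz
    have hcpos : 0 < c := Nat.card_pos
    have hTle : 2 ^ (a' + 1) ≤ c := Nat.le_of_dvd hcpos hTc
    have hApos : A ≠ 0 := by
      intro h0
      rw [h0, mul_zero] at hcA
      have : 0 < 2 ^ (a' + 1) := by positivity
      omega
    have hcleA : c ≤ A := by
      rcases hfil with h | h
      · exact absurd h hApos
      · exact h
    have hbound : 2 ^ (a' + 1) ≤ 20 := by
      have h1 : 2 ^ (a' + 1) * 2 ^ (a' + 1) ≤ c * A := Nat.mul_le_mul hTle (hTle.trans hcleA)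
      rw [hcA] at h1
      exact Nat.le_of_mul_le_mul_right h1 (by positivity)
    have ha'le : a' + 1 ≤ 4 := by
      by_contra hlt
      have h1 : 2 ^ 5 ≤ 2 ^ (a' + 1) := Nat.pow_le_pow_right (by norm_num) (by omega)
      omega
    rw [hp5eq] at hcong
    have ha'eq : a' = 1 := by
      have h0 : a' ≤ 3 := by omega
      interval_cases a' <;> first | rfl | (exfalso; revert hcong; decide)
    have h60 : Nat.card Γ = 60 := by
      rw [hcardT, hx₀3, hp5eq, ha'eq]
      norm_num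
    exact Cfsg.Agent.S0494.result h60
  · -- the case `p ≠ 5`: a contradiction
    exfalso
    have hp7 : 7 ≤ p := by
      by_contra h
      have h6 : p = 6 := by omega
      rw [h6] at hpp
      norm_num at hpp
    -- no elements of order four
    have hexp : ∀ g ∈ (T : Subgroup Γ), g ^ 2 = 1 := by
      intro g hg
      by_contra hg2
      obtain ⟨k, hk⟩ := IsPGroup.iff_orderOf.1 T.isPGroup' ⟨g, hg⟩
      have hk' : orderOf g = 2 ^ k := by
        rw [← hk]
        exact (Subgroup.orderOf_mk g hg).symm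
      have hk2 : 2 ≤ k := by
        by_contra hlt
        apply hg2
        have h1 : orderOf g ∣ 2 := by
          rw [hk']
          exact pow_dvd_pow 2 (by omega : k ≤ 1) |>.trans (by norm_num)
        exact orderOf_dvd_iff_pow_eq_one.1 h1
      obtain ⟨k', rfl⟩ : ∃ k', k = k' + 2 := ⟨k - 2, by omega⟩
      set h := g ^ (2 ^ k') with hh
      have hh4 : h ^ 4 = 1 := by
        rw [hh, ← pow_mul]
        have : 2 ^ k' * 4 = 2 ^ (k' + 2) := by rw [pow_add]; norm_num
        rw [this, ← hk']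
        exact pow_orderOf_eq_one g
      have hhh : h * h ≠ 1 := by
        intro h0
        have h1 : g ^ (2 ^ (k' + 1)) = 1 := by
          have : 2 ^ (k' + 1) = 2 ^ k' + 2 ^ k' := by rw [pow_succ]; ring
          rw [this, pow_add]
          exact h0
        have h2 := orderOf_dvd_of_pow_eq_one h1
        rw [hk'] at h2
        have h3 := (Nat.pow_dvd_pow_iff_le_right (by norm_num : 1 < 2)).1 h2
        omega
      have hhh2 : (h * h) ^ 2 = 1 := by
        rw [← pow_two, ← pow_mul]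
        exact hh4
      have hr : ¬ p ∣ orderOf h := by
        intro h1
        have h2 := h1.trans (orderOf_dvd_of_pow_eq_one hh4)
        have h3 := Nat.le_of_dvd (by norm_num) h2
        omega
      have h1 := D.func_eq hgood H hN' hp5 hr
      rw [hinv _ hhh2 hhh] at h1
      obtain ⟨y, hy⟩ := hint h
      rw [hy] at h1
      have h2 : (y - 1) * ((y - 1) - ((p : ℤ) - 3)) = -1 := by
        have h3 : (((y - 1) * ((y - 1) - ((p : ℤ) - 3)) : ℤ) : ℂ) = ((-1 : ℤ) : ℂ) := by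
          push_cast
          linear_combination -h1
        exact_mod_cast h3
      have hpz : (7 : ℤ) ≤ p := by exact_mod_cast hp7
      rcases Int.eq_one_or_neg_one_of_mul_eq_neg_one h2 with h3 | h3
      · rw [h3] at h2
        omega
      · rw [h3] at h2
        omega
    have hTcomm : ∀ x ∈ (T : Subgroup Γ), ∀ y ∈ (T : Subgroup Γ), x * y = y * x := by
      intro x hx y hy
      have h1 := hexp x hx
      have h2 := hexp y hy
      have h3 := hexp (x * y) (T.mul_mem hx hy)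
      have hxi : x⁻¹ = x := by rw [inv_eq_iff_mul_eq_one, ← pow_two, h1]
      have hyi : y⁻¹ = y := by rw [inv_eq_iff_mul_eq_one, ← pow_two, h2]
      have h4 : (x * y)⁻¹ = x * y := by rw [inv_eq_iff_mul_eq_one, ← pow_two, h3]
      rw [mul_inv_rev, hxi, hyi] at h4
      exact h4.symm
    -- `|T|` divides `p - 1`
    have hdegχ₁ : (D.i₁ : Γ → ℂ) 1 = (D.d D.i₁ : ℕ) := (D.hd _).2
    have hTdvd : 2 ^ (a' + 1) ∣ D.d D.i₁ := by
      rw [← hT]
      apply dvd_of_vanish (IsIrrCharacter.isCharacter D.i₁.2) (T : Subgroup Γ) hdegχ₁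
      intro s hs hs1
      exact hinv s (hexp s hs) hs1
    have hTle : 2 ^ (a' + 1) ≤ D.d D.i₁ := Nat.le_of_dvd (D.hd _).1 hTdvd
    have hple : p ≤ 2 ^ (a' + 1) + 1 := Nat.le_of_dvd (by positivity) hcong
    have hTeq : 2 ^ (a' + 1) = D.d D.i₁ := by omega
    have hT8 : 8 ≤ 2 ^ (a' + 1) := by
      have h6 : 6 ≤ 2 ^ (a' + 1) := by omega
      by_contra hlt
      have ha2 : a' + 1 ≤ 2 := by
        by_contra hge
        have h1 : 2 ^ 3 ≤ 2 ^ (a' + 1) := Nat.pow_le_pow_right (by norm_num) (by omega)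
        omega
      have h1 : 2 ^ (a' + 1) ≤ 2 ^ 2 := Nat.pow_le_pow_right (by norm_num) ha2
      omega
    -- the point stabilizer
    have hstabc : ∀ b : Ω, Nat.card (stabilizer Γ b) = 2 ^ a' * D.x₀ := by
      intro b
      have h1 := hstab b
      rw [hcardT] at h1
      have h2 : Nat.card (stabilizer Γ b) * (2 * p) = (2 ^ a' * D.x₀) * (2 * p) := by
        rw [h1, pow_succ]
        ring
      exact Nat.eq_of_mul_eq_mul_right (by omega) h2
    have ha'1 : 1 ≤ a' := by
      by_contra h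
      have h0 : a' = 0 := by omega
      rw [h0] at hT8
      norm_num at hT8
    haveI : Fact (Nat.Prime 2) := ⟨Nat.prime_two⟩
    obtain ⟨z₀', hz₀'⟩ := exists_prime_orderOf_dvd_card' (G := stabilizer Γ a₀) 2 (by
      rw [hstabc a₀]
      exact Dvd.dvd.mul_right (dvd_pow_self 2 (by omega)) _)
    have hz₀2 : (z₀' : Γ) ^ 2 = 1 := by
      have h1 : z₀' ^ 2 = 1 := by rw [← hz₀']; exact pow_orderOf_eq_one z₀'
      have := congrArg Subtype.val h1
      simpa using this
    have hz₀1 : (z₀' : Γ) ≠ 1 := by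
      intro h
      have h1 : z₀' = 1 := Subtype.ext h
      rw [h1, orderOf_one] at hz₀'
      omega
    have hz₀fix : (z₀' : Γ) • a₀ = a₀ := z₀'.2
    obtain ⟨t, htN, ht2, ht1⟩ := exists_invol hN'
    have htinv : ∀ {u : Γ}, u ∈ (P : Subgroup Γ) → t * u * t⁻¹ = u⁻¹ := fun hu => hyp_inverts H hp2 htN ht2 ht1 hu
    have hconj : ∀ z z' : Γ, z ^ 2 = 1 → z ≠ 1 → z' ^ 2 = 1 → z' ≠ 1 → IsConj z z' := fun z z' h1 h2 h3 h4 =>
      Cfsg.Agent.Lib.DefectTwo2.isConj_of_involutions hG hcard hmnd hp5 hn h1 h2 h3 h4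
    have hle4 : Nat.card (T : Subgroup Γ) ≤ 4 := by
      apply Cfsg.Agent.Lib.Deg2pData.card_le_four_of_fix (Ω := Ω) (T : Subgroup Γ) hTcomm
      rotate_left 2
      · intro b
        by_contra hcon
        push Not at hcon
        have hle : (T : Subgroup Γ) ≤ stabilizer Γ b := fun τ hτ => hcon τ hτ
        have h1 := Subgroup.card_dvd_of_le hle
        rw [hT, hstabc b, pow_succ] at h1
        have h2 : 2 ∣ D.x₀ := by
          have hpos : 0 < 2 ^ a' := by positivity
          exact Nat.dvd_of_mul_dvd_mul_left hpos h1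
        exact hx₀odd h2
      · intro z hz hz1
        obtain ⟨g, hg⟩ := isConj_iff.1 (hconj _ _ hz₀2 hz₀1 (hexp z hz) hz1)
        refine ⟨g • a₀, ?_⟩
        rw [← hg, ← mul_smul]
        have : g * (z₀' : Γ) * g⁻¹ * g = g * (z₀' : Γ) := by group
        rw [this, mul_smul, hz₀fix]
      · intro z hz hz1 a b c ha hb hc
        obtain ⟨g, hg⟩ := isConj_iff.1 (hconj _ _ (hexp z hz) hz1 ht2 ht1)
        have hfixg : ∀ x : Ω, z • x = x → t • (g • x) = g • x := by
          intro x hx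
          rw [← hg, ← mul_smul]
          have : g * z * g⁻¹ * g = g * z := by group
          rw [this, mul_smul, hx]
        have h1 := fix_le_two hPc hpp hp2 hpp.pos hΩ hfree (fun u hu => htinv hu) (hfixg a ha) (hfixg b hb) (hfixg c hc)
        rcases h1 with h1 | h1 | h1
        · left; exact smul_left_cancel g h1
        · right; left; exact smul_left_cancel g h1
        · right; right; exact smul_left_cancel g h1
    rw [hT] at hle4
    omega

/-- **The statement.** -/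
theorem result {α : Type*} [Fintype α] [DecidableEq α] {p : ℕ} [Fact p.Prime] (hp : 3 < p)
    (hα : Fintype.card α = 2 * p) (G : Subgroup (Equiv.Perm α)) (hprim : MulAction.IsPreprimitive G α)
    (hnot2 : ¬ MulAction.IsMultiplyPretransitive G α 2) (P : Sylow p G)
    (hN : Nat.card (Subgroup.normalizer ((P : Subgroup G) : Set G)) = 2 * p) :
    p = 5 ∧ Nonempty (G ≃* alternatingGroup (Fin 5)) :=
  main_abstract hp hα hprim hnot2 P hN

end Cfsg.Agent.S4707
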