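import Mathlib
import Cfsg.Agent.Lib.FrobBlock
import Cfsg.Statements.S4709

set_option autoImplicit false
open Cfsg

namespace Cfsg.Agent.S4709

/-- Let p be a prime, M a maximal ideal of the algebraic integers containing p, and G a finite group with a nontrivial abelian Sylow p-subgroup P; put N = N_G(P), C = C_G(P). Suppose N/C is cyclic of order m with 1 < m < #P − 1 (C has index m in N and N is generated by C and one element), and C_G(y) ∩ N = C for every non-identity y ∈ P. Put r = (#P − 1)/m. Then there is s ≤ m such that the principal p-block is the disjoint union of a set X of s characters containing the principal character and a set Y of r characters, with integers a_χ ≠ 0 (χ ∈ X), d and a sign δ = ±1, such that: every χ ∈ X takes the value a_χ at every element whose p-part is a non-identity element of P; there is a map ζ from the non-principal linear characters ψ of P onto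 Y, constant on N-conjugacy classes, with ζ_ψ(z) = d + δ·Σ ψ'(y) for every z whose p-part y is a non-identity element of P, the sum running over the N-conjugates ψ' of ψ; (d − δ)^2 + (r − 1) d^2 + Σ_{χ ∈ X} a_χ^2 = m + 1; all members of Y agree on p-regular elements; and (r d − δ) η(g) + Σ_{χ ∈ X} a_χ χ(g) = 0 for every η ∈ Y and every p-regular g. -/
theorem result {G : Type*} [Group G] [Finite G] (p : ℕ) [Fact p.Prime] (M : Ideal Cfsg.AlgInt) (hM : Cfsg.IsPModular p M) (P : Sylow p G) (hab : IsMulCommutative P) (hP1 : Nat.card P ≠ 1) (m : ℕ) (hm1 : 1 < m) (hm2 : m + 1 < Nat.card P) (hCN : (Subgroup.centralizer ((P : Subgroup G) : Set G)).relIndex (Subgroup.normalizer ((P : Subgroup G) : Set G)) = m) (hcyc : ∃ g : G, g ∈ Subgroup.normalizer ((P : Subgroup G) : Set G) ∧ Subgroup.centralizer ((P : Subgroup G) : Set G) ⊔ Subgroup.zpowers g = Subgroup.normalizer ((P : Subgroup G) : Set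 G)) (hfrob : ∀ y : G, y ∈ (P : Subgroup G) → y ≠ 1 → Subgroup.centralizer ({y} : Set G) ⊓ Subgroup.normalizer ((P : Subgroup G) : Set G) = Subgroup.centralizer ((P : Subgroup G) : Set G)) : ∃ (s : ℕ) (X Y : Set (Cfsg.IrrCharacter G)), s ≤ m ∧ Cfsg.principalBlock M G = X ∪ Y ∧ Disjoint X Y ∧ Nat.card X = s ∧ Nat.card Y = (Nat.card P - 1) / m ∧ (∃ χ₁ ∈ X, (χ₁ : G → ℂ) = fun _ => 1) ∧ ∃ (a : Cfsg.IrrCharacter G → ℤ) (d δ : ℤ) (ζ : (↥(P : Subgroup G) →* ℂˣ) → Cfsg.IrrCharacter G), (δ = 1 ∨ δ = -1) ∧ (∀ χ ∈ X, a χ ≠ 0 ∧ ∀ z y : G, Cfsg.IsPPart p z y → y ∈ (P : Subgroup G) → y ≠ 1 → (χ : G → ℂ) z = (a χ : ℂ)) ∧ (∀ ψ : ↥(P : Subgroup G) →* ℂˣ, ψ ≠ 1 → ζ ψ ∈ Y) ∧ (∀ η ∈ Y, ∃ ψ : ↥(P : Subgroup G) →* ℂˣ, ψ ≠ 1 ∧ ζ ψ = η) ∧ (∀ ψ ψ' : ↥(P : Subgroup G) →* ℂˣ, ψ ≠ 1 → (∃ n : G, n ∈ Subgroup.normalizer ((P : Subgroup G) : Set G) ∧ ∀ w w' : ↥(P : Subgroup G), (w' : G) = n * w * n⁻¹ → ψ' w' = ψ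 w) → ζ ψ' = ζ ψ) ∧ (∀ ψ : ↥(P : Subgroup G) →* ℂˣ, ψ ≠ 1 → ∀ (z : G) (y : ↥(P : Subgroup G)), Cfsg.IsPPart p z (y : G) → (y : G) ≠ 1 → (ζ ψ : G → ℂ) z = (d : ℂ) + (δ : ℂ) * ∑ᶠ ψ' ∈ {ψ' : ↥(P : Subgroup G) →* ℂˣ | ∃ n : G, n ∈ Subgroup.normalizer ((P : Subgroup G) : Set G) ∧ ∀ w w' : ↥(P : Subgroup G), (w' : G) = n * w * n⁻¹ → ψ' w' = ψ w}, ((ψ' y : ℂˣ) : ℂ)) ∧ ((d - δ) ^ 2 + ((Nat.card P - 1) / m - 1 : ℤ) * d ^ 2 + ∑ᶠ χ ∈ X, a χ ^ 2 = (m : ℤ) + 1) ∧ (∀ η ∈ Y, ∀ η' ∈ Y, ∀ g : G, ¬ p ∣ orderOf g → (η : G → ℂ) g = (η' : G → ℂ) g) ∧ (∀ η ∈ Y, ∀ g : G, ¬ p ∣ orderOf g → ((((Nat.card P - 1) / m : ℕ) : ℂ) * d - δ) * (η : G → ℂ) g + ∑ᶠ χ ∈ X, (a χ : ℂ) * (χ : G → ℂ) g = 0) := by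
    classical
  letI : Fintype G := Fintype.ofFinite G
  have hcomm : ∀ a ∈ (P : Subgroup G), ∀ b ∈ (P : Subgroup G), a * b = b * a := fun a ha b hb =>
    congrArg Subtype.val (hab.is_comm.comm (⟨a, ha⟩ : (P : Subgroup G)) ⟨b, hb⟩)
  have H : Cfsg.Agent.Lib.FrobBlock.Hyp P := ⟨hcomm, hfrob⟩
  letI : Fintype (P : Subgroup G) := Fintype.ofFinite _
  letI : Fintype (Subgroup.normalizer ((P : Subgroup G) : Set G)) := Fintype.ofFinite _
  haveI : Finite (↥(P : Subgroup G) →* ℂˣ) := Cfsg.Agent.Lib.FrobBlock.finite_dual H.commA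
  letI : Fintype (↥(P : Subgroup G) →* ℂˣ) := Fintype.ofFinite _
  have hN : Nat.card (Subgroup.normalizer ((P : Subgroup G) : Set G)) =
      m * Nat.card (Subgroup.centralizer ((P : Subgroup G) : Set G)) := by
    have h1 := ((Subgroup.centralizer ((P : Subgroup G) : Set G)).subgroupOf
      (Subgroup.normalizer ((P : Subgroup G) : Set G))).card_mul_index
    rw [Cfsg.Agent.Lib.FrobBlock.card_sub_eq] at h1
    rw [← h1, mul_comm]
    congr 1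
  obtain ⟨Xf, Yf, a, d, σ, ζ, r, hr, hr2, hU, hD, hYc, h1X, ha1, hσ, hnz, hvX, hζY, hYζ, hiff, hvY, hnorm, hagree, hlin⟩ :=
    H.main2 hM m (by omega) hN hm2
  have hrd : (Nat.card P - 1) / m = r := Nat.div_eq_of_eq_mul_left (by omega) hr.symm
  have hrdZ : (((Nat.card P : ℤ) - 1) / (m : ℤ) : ℤ) = r := by
    have h1 : ((Nat.card P : ℤ) - 1) = (r : ℤ) * m := by
      have h2 : ((r * m : ℕ) : ℤ) = ((Nat.card (P : Subgroup G) - 1 : ℕ) : ℤ) := by rw [hr]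
      rw [Nat.cast_sub Nat.card_pos] at h2
      push_cast at h2
      exact h2.symm
    rw [h1, Int.mul_ediv_cancel _ (by exact_mod_cast (by omega : m ≠ 0))]
  have hB : ∀ χ, χ ∈ Cfsg.principalBlock M G ↔ χ ∈ Xf ∨ χ ∈ Yf := by
    intro χ
    rw [← Cfsg.Agent.Lib.SingConst.mem_B₀, ← hU, Finset.mem_union]
  have hsum1 : (Xf.card : ℤ) ≤ ∑ χ ∈ Xf, a χ ^ 2 := by
    have h1 : ∑ χ ∈ Xf, (1 : ℤ) ≤ ∑ χ ∈ Xf, a χ ^ 2 := by
      apply Finset.sum_le_sum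
      intro χ hχ
      have h2 := hnz χ hχ
      have h3 : 0 < a χ ^ 2 := by positivity
      omega
    simpa using h1
  have hconj : ∀ ψ ψ' : ↥(P : Subgroup G) →* ℂˣ, (∃ n : G, n ∈ Subgroup.normalizer ((P : Subgroup G) : Set G) ∧
      ∀ w w' : ↥(P : Subgroup G), (w' : G) = n * w * n⁻¹ → ψ' w' = ψ w) ↔
      ∃ n : Subgroup.normalizer ((P : Subgroup G) : Set G), n • ψ = ψ' := by
    intro ψ ψ'
    constructor
    · rintro ⟨n, hn, h⟩
      refine ⟨⟨n, hn⟩, ?_⟩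
      ext w'
      rw [Cfsg.Agent.Lib.DefectOne.smul_apply, h (Cfsg.Agent.Lib.DefectOne.cj (P : Subgroup G) ⟨n, hn⟩ w') w']
      simp only [Cfsg.Agent.Lib.DefectOne.cj_coe]
      group
    · rintro ⟨n, rfl⟩
      refine ⟨n, n.2, fun w w' h => ?_⟩
      rw [Cfsg.Agent.Lib.DefectOne.smul_apply]
      congr 1
      apply Subtype.ext
      simp only [Cfsg.Agent.Lib.DefectOne.cj_coe]
      rw [h]
      group
  refine ⟨Xf.card, (Xf : Set _), (Yf : Set _), ?_, ?_, ?_, ?_, ?_, ?_, a, d, σ, ζ, hσ, ?_, ?_, ?_, ?_, ?_, ?_, ?_, ?_⟩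
  · have h1 : 0 ≤ (r : ℤ) * d ^ 2 - 2 * σ * d := by
      have hr2' : (2 : ℤ) ≤ r := by exact_mod_cast hr2
      have h2 : (r : ℤ) * d ^ 2 ≥ 2 * d ^ 2 := by nlinarith [sq_nonneg d]
      have h3 : 0 ≤ d * (d - σ) := by
        rcases hσ with rfl | rfl <;> rcases lt_trichotomy d 0 with h | h | h <;> nlinarith
      nlinarith
    have h2 : (Xf.card : ℤ) ≤ m := by linarith
    exact_mod_cast h2
  · ext χ
    rw [hB]
    simp
  · exact Finset.disjoint_coe.2 hD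
  · simp
  · rw [hrd]
    simpa using hYc
  · exact ⟨_, h1X, rfl⟩
  · intro χ hχ
    refine ⟨hnz χ hχ, fun z y hzy hy hy1 => ?_⟩
    rw [H.value_eq hM ((hB χ).2 (Or.inl hχ)) hzy hy hy1]
    exact hvX χ hχ ⟨y, hy⟩ (fun h => hy1 (congrArg Subtype.val h))
  · exact fun ψ hψ => hζY ψ hψ
  · exact fun η hη => hYζ η hη
  · intro ψ ψ' hψ h
    have h1 := (hconj ψ ψ').1 h
    obtain ⟨n, rfl⟩ := h1
    exact ((hiff ψ _ hψ (Cfsg.Agent.Lib.DefectOne.smul_ne_one _ n hψ)).2 ⟨n, rfl⟩).symm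
  · intro ψ hψ z y hzy hy1
    rw [H.value_eq hM ((hB _).2 (Or.inr (hζY ψ hψ))) hzy y.2 hy1]
    rw [hvY ψ hψ y (fun h => hy1 (congrArg Subtype.val h))]
    congr 2
    have hset : {ψ' : ↥(P : Subgroup G) →* ℂˣ | ∃ n : G, n ∈ Subgroup.normalizer ((P : Subgroup G) : Set G) ∧
        ∀ w w' : ↥(P : Subgroup G), (w' : G) = n * w * n⁻¹ → ψ' w' = ψ w} =
        ((Finset.univ.filter fun ψ' : ↥(P : Subgroup G) →* ℂˣ => ∃ n : Subgroup.normalizer ((P : Subgroup G) : Set G), n • ψ = ψ') : Finset _) := by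
      ext ψ'
      simp only [Set.mem_setOf_eq, Finset.coe_filter, Finset.mem_univ, true_and]
      exact hconj ψ ψ'
    rw [hset, finsum_mem_coe_finset, Finset.sum_filter]
  · rw [finsum_mem_coe_finset, hrdZ]
    have h1 : σ ^ 2 = 1 := by rcases hσ with rfl | rfl <;> norm_num
    have h2 : ((r : ℤ) - 1) * d ^ 2 + (d - σ) ^ 2 = (r : ℤ) * d ^ 2 - 2 * σ * d + σ ^ 2 := by ring
    linarith
  · intro η hη η' hη' g hg
    exact hagree η hη η' hη' g hg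
  · intro η hη g hg
    rw [finsum_mem_coe_finset, hrd]
    exact hlin η hη g hg


end Cfsg.Agent.S4709
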