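import Mathlib
import Cfsg.Statements.S4711
import Cfsg.Agent.Lib.BlockSection
import Cfsg.Agent.Lib.BlockQ
import Cfsg.Agent.Lib.BlockNormal
import Cfsg.Agent.Lib.PLengthOne
import Cfsg.Agent.Lib.PLengthSeries
import Cfsg.Agent.Lib.CharKernel
import Cfsg.Agent.Lib.BlkNormalSub
import Cfsg.Agent.Lib.BlkOrth
import Cfsg.Agent.Lib.CharValues
import Cfsg.Agent.Lib.CharLattice

set_option autoImplicit false
set_option linter.style.haveILetI false
set_option linter.unusedVariables false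
set_option linter.unusedSectionVars false
open Cfsg

namespace Cfsg.Agent.S4711

open Cfsg.Agent.Lib.BlkNormalSub Cfsg.Agent.Lib.BlockIdem Cfsg.Agent.Lib.BlockNormal
open Cfsg.Agent.Lib.BlockLocal Cfsg.Agent.Lib.CharBasic Cfsg.Agent.Lib.CharKernel
open Cfsg.Agent.Lib.PCore Cfsg.Agent.Lib.BlockQ
open scoped ComplexConjugate

universe u

section Forward

variable {G : Type*} [Group G] [Finite G] {p : ℕ} [Fact p.Prime] {M : Ideal Cfsg.AlgInt}

theorem forward (hM : IsPModular p M) (P : Sylow p G) (h : PLengthLE p 1 G) (χ : IrrCharacter G)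
    (hχ : χ ∈ principalBlock M G) :
    IsIrrCharacter ↥(Subgroup.normalizer ((P : Subgroup G) : Set G))
      (fun n : ↥(Subgroup.normalizer ((P : Subgroup G) : Set G)) => (χ : G → ℂ) n) := by
  classical
  letI := Fintype.ofFinite G
  set K := pPrimeCore p G with hK
  haveI hKn : K.Normal := inferInstance
  have hKc : ¬ p ∣ Nat.card K := not_dvd_card_pPrimeCore p
  have hker := eq_of_mem_principalBlock hM K hKc χ hχ
  obtain ⟨χ', h1, h2⟩ := exists_quotient_irr K χ.2 hker
  set N := Subgroup.normalizer ((P : Subgroup G) : Set G) with hN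
  let f : N →* G ⧸ K := (QuotientGroup.mk' K).comp N.subtype
  have hf : Function.Surjective f := by
    intro y
    obtain ⟨g, rfl⟩ := QuotientGroup.mk_surjective y
    have hg : g ∈ K ⊔ N := by
      rw [Cfsg.Agent.Lib.PLengthOne.sup_normalizer_eq_top h P]
      trivial
    have hg' : g ∈ ((K ⊔ N : Subgroup G) : Set G) := hg
    rw [Subgroup.normal_mul K N] at hg'
    obtain ⟨k, hk, n, hn, rfl⟩ := Set.mem_mul.mp hg'
    refine ⟨⟨n, hn⟩, ?_⟩
    show ((n : G) : G ⧸ K) = ((k * n : G) : G ⧸ K)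
    rw [QuotientGroup.eq]
    have : (n : G)⁻¹ * (k * n) = n⁻¹ * k * n := by group
    rw [this]
    simpa using hKn.conj_mem k hk n⁻¹
  have h3 := isIrrCharacter_comp_of_surjective f hf h1
  convert h3 using 1
  funext n
  exact (h2 n).symm

end Forward

section Backward

variable {G : Type u} [Group G] [Fintype G] {p : ℕ} [Fact p.Prime] {M : Ideal Cfsg.AlgInt}

/-- A subgroup all of whose `p`-regular elements lie in a normal `p'`-subgroup has `p`-length one. -/
theorem pLength_one_of_reg {K₀ K' : Subgroup G} (hK' : ¬ p ∣ Nat.card K')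
    (h : ∀ x ∈ K₀, ¬ p ∣ orderOf x → x ∈ K') [K'.Normal] : PLengthLE p 1 K₀ := by
  classical
  have hp : p.Prime := Fact.out
  let T : Subgroup K₀ := K'.subgroupOf K₀
  haveI : T.Normal := Subgroup.normal_subgroupOf
  let g : K₀ →* K₀ ⧸ T := QuotientGroup.mk' T
  have hg : Function.Surjective g := QuotientGroup.mk'_surjective T
  have hker : g.ker = T := QuotientGroup.ker_mk' T
  have hcop : (Nat.card g.ker).Coprime p := by
    rw [hker]
    have h1 : Nat.card T ∣ Nat.card K' := by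
      have h2 : T.map K₀.subtype ≤ K' := by
        rintro _ ⟨t, ht, rfl⟩
        exact ht
      have h3 := Subgroup.card_dvd_of_le h2
      rwa [Subgroup.card_map_of_injective K₀.subtype_injective] at h3
    have h4 : ¬ p ∣ Nat.card T := fun h5 => hK' (h5.trans h1)
    exact ((Nat.Prime.coprime_iff_not_dvd hp).mpr h4).symm
  refine Cfsg.Agent.Lib.PLengthSeries.pLengthLE_of_ker_coprime p g hg hcop
    (Cfsg.Agent.Lib.PLengthSeries.pLengthLE_one_of_isPGroup p ?_)
  intro q
  obtain ⟨l, rfl⟩ := QuotientGroup.mk_surjective q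
  obtain ⟨a, m, hm, hn⟩ := Nat.exists_eq_pow_mul_and_not_dvd (orderOf_pos (l : G)).ne' p hp.ne_one
  refine ⟨a, ?_⟩
  have h1 : orderOf ((l : G) ^ (p ^ a)) = m := by
    rw [orderOf_pow' _ (pow_ne_zero _ hp.ne_zero), hn, Nat.gcd_eq_right (Dvd.intro _ rfl)]
    exact Nat.mul_div_cancel_left _ (pow_pos hp.pos _)
  have h2 : (l : G) ^ (p ^ a) ∈ K₀ := K₀.pow_mem l.2 _
  have h3 : (l : G) ^ (p ^ a) ∈ K' := h _ h2 (by rw [h1]; exact hm)
  have h4 : (l ^ (p ^ a) : K₀) ∈ T := by
    show ((l ^ (p ^ a) : K₀) : G) ∈ K'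
    simpa using h3
  rw [← QuotientGroup.mk_pow]
  exact (QuotientGroup.eq_one_iff _).mpr h4

/-- Orthogonality of a `p`-singular element with a `p`-regular element. -/
theorem sum_orth (hM : IsPModular p M) {y x : G} (hy : ∃ k : ℕ, orderOf y = p ^ k) (hy1 : y ≠ 1)
    (hx : ¬ p ∣ orderOf x) :
    ∑ χ ∈ bF (principalBlock M G), (χ : G → ℂ) y * conj ((χ : G → ℂ) x) = 0 := by
  classical
  have hp : p.Prime := Fact.out
  letI : Fintype (Subgroup.centralizer ({y} : Set G)) := Fintype.ofFinite _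
  have hv : ∀ c : Subgroup.centralizer ({y} : Set G), ¬ p ∣ orderOf c →
      ¬ IsConj (y * (c : G)) x := by
    intro c hc hcj
    obtain ⟨g, hg⟩ := isConj_iff.mp hcj
    have hc' : ¬ p ∣ orderOf (c : G) := by
      rw [Subgroup.orderOf_coe]
      exact hc
    have hcomm : Commute y (c : G) := Subgroup.mem_centralizer_iff.mp c.2 y rfl
    have h1 := Cfsg.Agent.Lib.BlkOrth.pPart_of_mul hcomm hy hc'
    have h2 := Cfsg.Agent.Lib.BlkOrth.pPart_conj h1 g
    rw [hg] at h2
    have h3 : IsPPart p x 1 := ⟨x, one_mul _, Commute.one_left _, ⟨0, by simp⟩, hx⟩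
    have h4 := Cfsg.Agent.Lib.BlkOrth.pPart_unique hp h2 h3
    have h5 : g * y * g⁻¹ = g * 1 * g⁻¹ := by simpa using h4
    exact hy1 (by simpa using h5)
  have h1 := Cfsg.Agent.Lib.BlockSection.sum_block_mul_conj_eq_zero hM hy rfl
    (isPBlock_principalBlock M) (y := 1) (by
      rw [orderOf_one]
      intro h
      exact hp.one_lt.ne' (Nat.dvd_one.mp h)) hv
  rw [finsum_mem_eq_sum_bF] at h1
  simpa using h1

theorem char_norm_le (χ : IrrCharacter G) (x : G) : ‖(χ : G → ℂ) x‖ ≤ ((χ : G → ℂ) 1).re := by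
  obtain ⟨χ, n, ρ, hρ, rfl⟩ := χ
  have h1 := Cfsg.Agent.Lib.CharValues.norm_character_le ρ x
  have h2 : ρ.character 1 = (Module.finrank ℂ (Fin n → ℂ) : ℂ) := Representation.char_one ρ
  show ‖ρ.character x‖ ≤ (ρ.character 1).re
  rw [h2]
  simpa using h1

theorem conj_one (χ : IrrCharacter G) : conj ((χ : G → ℂ) 1) = (χ : G → ℂ) 1 := by
  obtain ⟨n, hn, hn'⟩ := Cfsg.Agent.Lib.CharLattice.exists_degree_pos χ.2
  rw [hn']
  simp

/-- The equality case. -/
theorem eq_one_of_sum (F : Finset (IrrCharacter G)) (x : G)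
    (h : ∑ χ ∈ F, conj ((χ : G → ℂ) x) * (χ : G → ℂ) 1 =
      ∑ χ ∈ F, conj ((χ : G → ℂ) 1) * (χ : G → ℂ) 1) {χ : IrrCharacter G} (hχ : χ ∈ F) :
    (χ : G → ℂ) x = (χ : G → ℂ) 1 := by
  classical
  have hdeg : ∀ ψ : IrrCharacter G, ∃ d : ℕ, 0 < d ∧ (ψ : G → ℂ) 1 = d := fun ψ =>
    Cfsg.Agent.Lib.CharLattice.exists_degree_pos ψ.2
  have hre : ∀ ψ : IrrCharacter G, ((conj ((ψ : G → ℂ) x) * (ψ : G → ℂ) 1).re) ≤
      (conj ((ψ : G → ℂ) 1) * (ψ : G → ℂ) 1).re := by
    intro ψ
    obtain ⟨d, hd, hd'⟩ := hdeg ψ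
    have h1 := char_norm_le ψ x
    rw [hd'] at h1 ⊢
    simp only [map_natCast, Complex.mul_re, Complex.conj_re, Complex.conj_im, Complex.natCast_re,
      Complex.natCast_im, mul_zero, sub_zero] at h1 ⊢
    have h2 : ((ψ : G → ℂ) x).re ≤ ‖(ψ : G → ℂ) x‖ := Complex.re_le_norm _
    have h3 : (0 : ℝ) ≤ d := by positivity
    nlinarith
  have hsum := congrArg Complex.re h
  rw [Complex.re_sum, Complex.re_sum] at hsum
  have h1 := (Finset.sum_eq_sum_iff_of_le (fun ψ _ => hre ψ)).mp hsum χ hχ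
  obtain ⟨d, hd, hd'⟩ := hdeg χ
  have hd0 : (0 : ℝ) < d := by exact_mod_cast hd
  rw [hd'] at h1
  simp only [map_natCast, Complex.mul_re, Complex.conj_re, Complex.conj_im, Complex.natCast_re,
    Complex.natCast_im, mul_zero, sub_zero] at h1
  have h2 : ((χ : G → ℂ) x).re = d := by
    have : ((χ : G → ℂ) x).re * d = d * d := h1
    exact mul_right_cancel₀ hd0.ne' this
  have h3 := char_norm_le χ x
  rw [hd'] at h3 ⊢
  simp only [Complex.natCast_re] at h3
  have h4 : ‖(χ : G → ℂ) x‖ ^ 2 = ((χ : G → ℂ) x).re ^ 2 + ((χ : G → ℂ) x).im ^ 2 := by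
    rw [← Complex.normSq_eq_norm_sq, Complex.normSq_apply]
    ring
  have h5 : ((χ : G → ℂ) x).im = 0 := by
    have h6 : 0 ≤ ‖(χ : G → ℂ) x‖ := norm_nonneg _
    have h7 : ((χ : G → ℂ) x).im ^ 2 ≤ 0 := by
      rw [h2] at h4
      nlinarith
    nlinarith [sq_nonneg ((χ : G → ℂ) x).im]
  apply Complex.ext
  · simpa using h2
  · simpa using h5


theorem dichotomy (P : Sylow p G) [Fintype (P : Subgroup G)] (χ : IrrCharacter G)
    (h : IsIrrCharacter ↥(Subgroup.normalizer ((P : Subgroup G) : Set G))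
      (fun n : ↥(Subgroup.normalizer ((P : Subgroup G) : Set G)) => (χ : G → ℂ) n)) :
    (∀ y ∈ (P : Subgroup G), (χ : G → ℂ) y = (χ : G → ℂ) 1) ∨
      ∑ y : (P : Subgroup G), (χ : G → ℂ) y = 0 := by
  classical
  set N := Subgroup.normalizer ((P : Subgroup G) : Set G) with hN
  letI : Fintype N := Fintype.ofFinite N
  let ψ : IrrCharacter N := ⟨_, h⟩
  let P' : Subgroup N := (P : Subgroup G).subgroupOf N
  haveI hP' : P'.Normal := Subgroup.normal_in_normalizer
  letI : Fintype P' := Fintype.ofFinite P'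
  have hle : (P : Subgroup G) ≤ N := Subgroup.le_normalizer
  by_cases hc : classInner (fun n : P' => (ψ : N → ℂ) n) (oneIrr P' : P' → ℂ) ≠ 0
  · left
    intro y hy
    have h1 := eq_of_constituent_one hP' ψ hc ⟨⟨y, hle hy⟩, hy⟩
    exact h1
  · right
    push Not at hc
    unfold classInner at hc
    have hne : ((Nat.card P' : ℂ))⁻¹ ≠ 0 := by
      apply inv_ne_zero
      exact_mod_cast (Nat.card_pos (α := P')).ne'
    have h2 := (mul_eq_zero.mp hc).resolve_left hne
    simp only [oneIrr, map_one, mul_one] at h2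
    rw [← h2]
    exact Fintype.sum_equiv (Subgroup.subgroupOfEquivOfLe hle).toEquiv.symm _ _ (fun y => rfl)

theorem backward (hM : IsPModular p M) (P : Sylow p G)
    (hirr : ∀ χ ∈ principalBlock M G,
      IsIrrCharacter ↥(Subgroup.normalizer ((P : Subgroup G) : Set G))
        (fun n : ↥(Subgroup.normalizer ((P : Subgroup G) : Set G)) => (χ : G → ℂ) n)) :
    PLengthLE p 1 G := by
  classical
  have hp : p.Prime := Fact.out
  letI : Fintype (P : Subgroup G) := Fintype.ofFinite _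
  set F := bF (principalBlock M G) with hF
  have hone : ¬ p ∣ orderOf (1 : G) := by
    rw [orderOf_one]
    intro h
    exact hp.one_lt.ne' (Nat.dvd_one.mp h)
  set c : IrrCharacter G → ℂ := fun χ => ∑ y : (P : Subgroup G), (χ : G → ℂ) y with hc
  have hord : ∀ y : (P : Subgroup G), ∃ k : ℕ, orderOf (y : G) = p ^ k := by
    intro y
    rw [Subgroup.orderOf_coe]
    exact IsPGroup.iff_orderOf.mp P.isPGroup' y
  have hE : ∀ x : G, ¬ p ∣ orderOf x →
      ∑ χ ∈ F, conj ((χ : G → ℂ) x) * c χ = ∑ χ ∈ F, conj ((χ : G → ℂ) x) * (χ : G → ℂ) 1 := by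
    intro x hx
    simp only [hc, Finset.mul_sum]
    rw [Finset.sum_comm, Finset.sum_eq_single (1 : (P : Subgroup G))]
    · simp
    · intro y _ hy
      have h1 := sum_orth hM (hord y) (fun h => hy (Subtype.ext h)) hx
      rw [← h1]
      refine Finset.sum_congr rfl fun χ _ => ?_
      ring
    · intro h
      exact absurd (Finset.mem_univ _) h
  set L : Subgroup G := Subgroup.normalClosure ((P : Subgroup G) : Set G) with hL
  have hPL : (P : Subgroup G) ≤ L := Subgroup.subset_normalClosure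
  have hkey : ∀ x ∈ L, ¬ p ∣ orderOf x → ∀ χ ∈ F, (χ : G → ℂ) x = (χ : G → ℂ) 1 := by
    intro x hxL hx χ hχ
    refine eq_one_of_sum F x ?_ hχ
    rw [← hE x hx, ← hE 1 hone]
    refine Finset.sum_congr rfl fun ψ hψ => ?_
    rcases dichotomy P ψ (hirr ψ (mem_bF.mp hψ)) with h | h
    · have h1 : L ≤ charKer (IsIrrCharacter.isCharacter ψ.2) := by
        apply Subgroup.normalClosure_le_normal
        intro y hy
        exact h y hy
      rw [show (ψ : G → ℂ) x = (ψ : G → ℂ) 1 from h1 hxL]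
    · have h2 : c ψ = 0 := h
      rw [h2, mul_zero, mul_zero]
  let K' : Subgroup G :=
    { carrier := {g | ∀ χ ∈ F, (χ : G → ℂ) g = (χ : G → ℂ) 1}
      one_mem' := fun χ _ => rfl
      mul_mem' := by
        intro a b ha hb χ hχ
        exact (charKer (IsIrrCharacter.isCharacter χ.2)).mul_mem (ha χ hχ) (hb χ hχ)
      inv_mem' := by
        intro a ha χ hχ
        exact (charKer (IsIrrCharacter.isCharacter χ.2)).inv_mem (ha χ hχ) }
  haveI hK'n : K'.Normal := by
    constructor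
    intro n hn g χ hχ
    have h1 := isClassFunction_of_isCharacter (IsIrrCharacter.isCharacter χ.2) n g
    show (χ : G → ℂ) (g * n * g⁻¹) = _
    rw [h1]
    exact hn χ hχ
  have hK'c : ¬ p ∣ Nat.card K' := by
    intro h
    obtain ⟨y, hy⟩ := exists_prime_orderOf_dvd_card' p h
    have hy' : orderOf (y : G) = p := by
      rw [Subgroup.orderOf_coe]
      exact hy
    have hy1 : (y : G) ≠ 1 := by
      intro h1
      rw [h1, orderOf_one] at hy'
      exact hp.one_lt.ne hy'
    have h1 := sum_orth hM (M := M) (y := (y : G)) (x := 1) ⟨1, by simpa using hy'⟩ hy1 hone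
    have h2 : ∑ χ ∈ F, (χ : G → ℂ) (y : G) * conj ((χ : G → ℂ) 1) =
        ∑ χ ∈ F, (χ : G → ℂ) 1 * conj ((χ : G → ℂ) 1) :=
      Finset.sum_congr rfl fun χ hχ => by rw [y.2 χ hχ]
    rw [h2] at h1
    have h3 : ∑ χ ∈ F, (charDegree (χ : G → ℂ) : ℂ) ^ 2 = 0 := by
      rw [← h1]
      refine Finset.sum_congr rfl fun χ _ => ?_
      rw [one_eq_charDegree (IsIrrCharacter.isCharacter χ.2)]
      simp [pow_two]
    have h4 : ((∑ χ ∈ F, charDegree (χ : G → ℂ) ^ 2 : ℕ) : ℂ) = 0 := by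
      push_cast
      exact h3
    have h5 : ∑ χ ∈ F, charDegree (χ : G → ℂ) ^ 2 = 0 := by exact_mod_cast h4
    haveI hMp : M.IsPrime := hM.2.1.isPrime
    have hmem : irrOne G ∈ F := mem_bF.mpr (irrOne_mem_principalBlock M)
    have h6 := (Finset.sum_eq_zero_iff.mp h5) (irrOne G) hmem
    have h7 : charDegree ((irrOne G : IrrCharacter G) : G → ℂ) = 0 :=
      (pow_eq_zero_iff (two_ne_zero)).mp h6
    exact (charDegree_pos (irrOne G).2).ne' h7
  let f : G →* G ⧸ L := QuotientGroup.mk' L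
  have hf : Function.Surjective f := QuotientGroup.mk'_surjective L
  have hker : f.ker = L := QuotientGroup.ker_mk' L
  have h1 : PLengthLE p 1 f.ker := by
    refine pLength_one_of_reg hK'c ?_
    intro x hx hreg χ hχ
    rw [hker] at hx
    exact hkey x hx hreg χ hχ
  have h2 : PLengthLE p 0 (G ⧸ L) := by
    apply Cfsg.Agent.Lib.PLengthSeries.pLengthLE_zero_of_coprime
    have h3 : L.index ∣ (P : Subgroup G).index := Subgroup.index_dvd_of_le hPL
    have h4 : ¬ p ∣ L.index := fun h5 => P.not_dvd_index (h5.trans h3)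
    rw [← Subgroup.index_eq_card]
    exact ((Nat.Prime.coprime_iff_not_dvd hp).mpr h4).symm
  exact Cfsg.Agent.Lib.PLengthSeries.pLengthLE_of_ker 1 0 p G (G ⧸ L) f hf h1 h2

end Backward


theorem result {G : Type*} [Group G] [Finite G] (p : ℕ) [Fact p.Prime] (M : Ideal Cfsg.AlgInt) (hM : Cfsg.IsPModular p M) (P : Sylow p G) : Cfsg.PLengthLE p 1 G ↔ ∀ χ ∈ Cfsg.principalBlock M G, Cfsg.IsIrrCharacter ↥(Subgroup.normalizer ((P : Subgroup G) : Set G)) (fun n : ↥(Subgroup.normalizer ((P : Subgroup G) : Set G)) => (χ : G → ℂ) n) := by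
  classical
  letI := Fintype.ofFinite G
  exact ⟨fun h χ hχ => forward hM P h χ hχ, fun h => backward hM P h⟩

end Cfsg.Agent.S4711
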