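import Mathlib
import Cfsg.Statements.S4714
import Cfsg.Agent.Lib.BlkCentralProd
import Cfsg.Agent.Lib.BlockSection
import Cfsg.Agent.Lib.BlockQ
import Cfsg.Agent.Lib.CharLattice

set_option autoImplicit false
set_option linter.style.haveILetI false
set_option linter.unusedVariables false
set_option linter.unusedSectionVars false
open Cfsg

namespace Cfsg.Agent.S4714

open Cfsg.Agent.Lib.BlkCentralProd Cfsg.Agent.Lib.BlkNormalSub Cfsg.Agent.Lib.BlockIdem
open Cfsg.Agent.Lib.BlockLocal Cfsg.Agent.Lib.CharBasic Cfsg.Agent.Lib.BlockDefect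
open scoped ComplexConjugate

universe u

section Fourier

variable {D : Type*} [Group D] [Fintype D]

theorem sum_irr_mul_conj_eq (μ ν : IrrCharacter D) [Decidable (μ = ν)] :
    ∑ y : D, (μ : D → ℂ) y * conj ((ν : D → ℂ) y) = if μ = ν then (Nat.card D : ℂ) else 0 := by
  classical
  have h1 := classInner_irr μ.2 ν.2
  unfold classInner at h1
  have hne : (Fintype.card D : ℂ) ≠ 0 := by
    exact_mod_cast Fintype.card_ne_zero
  by_cases h : μ = ν
  · rw [if_pos h]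
    rw [if_pos (congrArg Subtype.val h)] at h1
    field_simp at h1
    exact h1
  · rw [if_neg h]
    rw [if_neg (fun h2 => h (Subtype.ext h2))] at h1
    field_simp at h1
    simpa using h1

/-- Coefficients vanish. -/
theorem coeff_eq_zero (c : IrrCharacter D → ℂ)
    (h : ∀ y : D, ∑ μ : IrrCharacter D, c μ * conj ((μ : D → ℂ) y) = 0) (ν : IrrCharacter D) :
    c ν = 0 := by
  classical
  have h1 : ∑ y : D, (∑ μ : IrrCharacter D, c μ * conj ((μ : D → ℂ) y)) * (ν : D → ℂ) y = 0 := by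
    simp [h]
  simp_rw [Finset.sum_mul] at h1
  rw [Finset.sum_comm] at h1
  have h2 : ∀ μ : IrrCharacter D, ∑ y : D, c μ * conj ((μ : D → ℂ) y) * (ν : D → ℂ) y =
      c μ * (if ν = μ then (Nat.card D : ℂ) else 0) := by
    intro μ
    rw [← sum_irr_mul_conj_eq ν μ, Finset.mul_sum]
    refine Finset.sum_congr rfl fun y _ => ?_
    ring
  simp_rw [h2] at h1
  rw [Finset.sum_eq_single ν (fun μ _ hμ => by rw [if_neg (Ne.symm hμ), mul_zero])
    (fun h3 => absurd (Finset.mem_univ _) h3), if_pos rfl] at h1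
  have hne : (Nat.card D : ℂ) ≠ 0 := by
    exact_mod_cast (Nat.card_pos (α := D)).ne'
  exact (mul_eq_zero.mp h1).resolve_right hne

theorem conj_one_eq (μ : IrrCharacter D) : conj ((μ : D → ℂ) 1) = (μ : D → ℂ) 1 := by
  obtain ⟨n, hn, hn'⟩ := Cfsg.Agent.Lib.CharLattice.exists_degree_pos μ.2
  rw [hn']
  simp

/-- The coefficients are constant. -/
theorem coeff_const (A : IrrCharacter D → ℂ)
    (h : ∀ y : D, y ≠ 1 → ∑ μ : IrrCharacter D, (μ : D → ℂ) y * ((μ : D → ℂ) 1 * A μ) = 0)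
    (μ ν : IrrCharacter D) : A μ = A ν := by
  classical
  set F : D → ℂ := fun y => ∑ μ : IrrCharacter D, (μ : D → ℂ) y * ((μ : D → ℂ) 1 * A μ) with hF
  have key : ∀ ν : IrrCharacter D, (ν : D → ℂ) 1 * (Nat.card D * A ν) = F 1 * (ν : D → ℂ) 1 := by
    intro ν
    have h1 : ∑ y : D, F y * conj ((ν : D → ℂ) y) = F 1 * conj ((ν : D → ℂ) 1) := by
      rw [Finset.sum_eq_single (1 : D) (fun y _ hy => by rw [show F y = 0 from h y hy, zero_mul])
        (fun h3 => absurd (Finset.mem_univ _) h3)]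
    rw [conj_one_eq] at h1
    rw [← h1]
    simp only [hF, Finset.sum_mul]
    rw [Finset.sum_comm]
    have h2 : ∀ μ : IrrCharacter D, ∑ y : D, (μ : D → ℂ) y * ((μ : D → ℂ) 1 * A μ) * conj ((ν : D → ℂ) y) =
        ((μ : D → ℂ) 1 * A μ) * (if μ = ν then (Nat.card D : ℂ) else 0) := by
      intro μ
      rw [← sum_irr_mul_conj_eq μ ν, Finset.mul_sum]
      refine Finset.sum_congr rfl fun y _ => ?_
      ring
    simp_rw [h2]
    rw [Finset.sum_eq_single ν (fun μ _ hμ => by rw [if_neg hμ, mul_zero])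
      (fun h3 => absurd (Finset.mem_univ _) h3), if_pos rfl]
    ring
  have hne : (Nat.card D : ℂ) ≠ 0 := by
    exact_mod_cast (Nat.card_pos (α := D)).ne'
  have h1 : ∀ ν : IrrCharacter D, (Nat.card D : ℂ) * A ν = F 1 := by
    intro ν
    have h2 := key ν
    have h3 : (ν : D → ℂ) 1 ≠ 0 := irr_one_ne_zero' ν.2
    apply mul_left_cancel₀ h3
    rw [h2]
    ring
  apply mul_left_cancel₀ hne
  rw [h1, h1]

end Fourier


section Main

variable {G : Type*} [Group G] [Fintype G] {p : ℕ} [Fact p.Prime] {M : Ideal Cfsg.AlgInt}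

/-- A `p`-regular element lies in any normal subgroup of `p`-power index. -/
theorem regular_mem {C : Subgroup G} (hCn : C.Normal) {k : ℕ} (hk : C.index = p ^ k) {x : G}
    (hx : ¬ p ∣ orderOf x) : x ∈ C := by
  have hp : p.Prime := Fact.out
  have h1 : x ^ (p ^ k) ∈ C := by
    rw [← hk]
    exact Subgroup.pow_index_mem C x
  have hcop : Nat.Coprime (orderOf x) (p ^ k) :=
    ((Nat.Prime.coprime_iff_not_dvd hp).mpr hx).symm.pow_right k
  obtain ⟨n, hn⟩ := exists_pow_eq_self_of_coprime hcop.symm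
  rw [← hn, ← pow_mul] at *
  have : x ^ (p ^ k * n) = (x ^ (p ^ k)) ^ n := pow_mul _ _ _
  rw [this]
  exact C.pow_mem h1 n

theorem deg_pos {H : Type*} [Group H] [Fintype H] (μ : IrrCharacter H) :
    ∃ n : ℕ, 0 < n ∧ (μ : H → ℂ) 1 = (n : ℂ) := by
  exact Cfsg.Agent.Lib.CharLattice.exists_degree_pos μ.2


theorem main_core (hM : IsPModular p M) (D : Subgroup G) [Fintype D] (hD : IsPGroup p D)
    (hG : D ⊔ Subgroup.centralizer (D : Set G) = ⊤) (B : Set (IrrCharacter G)) (hB : IsPBlock M B)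
    (hBD : IsDefectGroup p M B D) (χ : IrrCharacter G) (hχ : χ ∈ B)
    (hχD : ∀ y ∈ D, (χ : G → ℂ) y = (χ : G → ℂ) 1) :
    ∃ Φ : IrrCharacter D → IrrCharacter G, (∀ μ, Φ μ ∈ B) ∧ (∀ θ ∈ B, ∃ μ, Φ μ = θ) ∧
      (∀ (μ : IrrCharacter D) (y : D) (x : G), ¬ p ∣ orderOf x →
        (Φ μ : G → ℂ) ((y : G) * x) = (μ : D → ℂ) y * (χ : G → ℂ) x) ∧
      (∀ (μ : IrrCharacter D) (z u : G), IsPPart p z u → u ∉ D → (Φ μ : G → ℂ) z = 0) := by
  classical
  have hp : p.Prime := Fact.out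
  set C := Subgroup.centralizer (D : Set G) with hC
  have hPC : ∀ a ∈ D, ∀ c ∈ C, a * c = c * a := fun a ha c hc =>
    (Subgroup.mem_centralizer_iff.mp hc a ha)
  have hCP : ∀ a ∈ C, ∀ c ∈ D, a * c = c * a := fun a ha c hc => (hPC c hc a ha).symm
  have hsup' : C ⊔ D = ⊤ := by rw [sup_comm]; exact hG
  have hPn : D.Normal := normal_of_commute_sup hPC hG
  have hCn : C.Normal := normal_of_commute_sup hCP hsup'
  obtain ⟨k, hk⟩ := exists_index_eq hp hD hG hCn
  have hreg : ∀ {x : G}, ¬ p ∣ orderOf x → x ∈ C := fun hx => regular_mem hCn hk hx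
  choose Φ hΦB hΦc using exists_mem_constituent hM hD hB
  have hinj : Function.Injective Φ := by
    intro μ ν h
    have h1 := hΦc μ
    have h2 := hΦc ν
    rw [← h] at h2
    exact Subtype.ext (constituent_unique hPC hG hPn (Φ μ).2 ν.2 μ.2 h2 h1)
  have hsurj : ∀ θ ∈ B, ∃ μ, Φ μ = θ := by
    intro θ hθ
    obtain ⟨ν, hν⟩ := exists_constituent (N := D) θ
    exact ⟨ν, eq_of_constituent hM hD hPC hG hPn hCn hB hBD (hΦB ν) hθ (hΦc ν) hν⟩
  have hsum : ∀ f : IrrCharacter G → ℂ, ∑ᶠ ζ ∈ B, f ζ = ∑ μ, f (Φ μ) := by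
    intro f
    rw [Cfsg.Agent.Lib.BlockQ.finsum_mem_eq_sum_bF]
    have h1 : Cfsg.Agent.Lib.BlockQ.bF B = Finset.univ.image Φ := by
      ext θ
      simp only [Cfsg.Agent.Lib.BlockQ.mem_bF, Finset.mem_image, Finset.mem_univ, true_and]
      constructor
      · exact hsurj θ
      · rintro ⟨μ, rfl⟩
        exact hΦB μ
    rw [h1, Finset.sum_image (fun a _ b _ h => hinj h)]
  have hres : ∀ (μ : IrrCharacter D) (n : D), (Φ μ : G → ℂ) n =
      classInner (fun n : D => (Φ μ : G → ℂ) n) (μ : D → ℂ) * (μ : D → ℂ) n := fun μ n =>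
    restrict_eq hPC hG hPn (Φ μ).2 μ.2 (hΦc μ) n
  have hmul : ∀ (μ : IrrCharacter D) (y : D) (c : G), c ∈ C →
      (μ : D → ℂ) 1 * (Φ μ : G → ℂ) ((y : G) * c) = (μ : D → ℂ) y * (Φ μ : G → ℂ) c := by
    intro μ y c hc
    have h1 := irr_mul_of_commute hPC hG hPn (Φ μ).2 y.2 hc
    have h2 := hres μ y
    have h3 := hres μ 1
    simp only [OneMemClass.coe_one] at h3
    rw [h2, h3] at h1
    have h4 := hΦc μ
    apply mul_left_cancel₀ h4
    linear_combination h1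
  have hdeg : ∀ μ : IrrCharacter D, (μ : D → ℂ) 1 ≠ 0 := fun μ => irr_one_ne_zero' μ.2
  let W : IrrCharacter D → G → ℂ := fun μ c => (Φ μ : G → ℂ) c / (μ : D → ℂ) 1
  have hW : ∀ (μ : IrrCharacter D) (y : D) (c : G), c ∈ C →
      (Φ μ : G → ℂ) ((y : G) * c) = (μ : D → ℂ) y * W μ c := by
    intro μ y c hc
    have h1 := hmul μ y c hc
    have h2 := hdeg μ
    simp only [W]
    field_simp
    linear_combination h1
  have hW1 : ∀ (μ : IrrCharacter D) (c : G), (Φ μ : G → ℂ) c = (μ : D → ℂ) 1 * W μ c := by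
    intro μ c
    have h2 := hdeg μ
    simp only [W]
    field_simp
  have hord : ∀ y : D, ∃ k : ℕ, orderOf (y : G) = p ^ k := by
    intro y
    rw [Subgroup.orderOf_coe]
    exact IsPGroup.iff_orderOf.mp hD y
  have hconst : ∀ (x x' : G), ¬ p ∣ orderOf x → ¬ p ∣ orderOf x' → ∀ μ ν : IrrCharacter D,
      W μ x * conj (W μ x') = W ν x * conj (W ν x') := by
    intro x x' hx hx'
    apply coeff_const
    intro y hy
    letI : Fintype (Subgroup.centralizer ({(y : G)} : Set G)) := Fintype.ofFinite _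
    have hxc : x ∈ Subgroup.centralizer ({(y : G)} : Set G) := by
      rw [Subgroup.mem_centralizer_iff]
      rintro g (rfl : g = (y : G))
      exact hPC _ y.2 _ (hreg hx)
    have hxo : ¬ p ∣ orderOf (⟨x, hxc⟩ : Subgroup.centralizer ({(y : G)} : Set G)) := by
      rw [Subgroup.orderOf_mk]
      exact hx
    have hv : ∀ c : Subgroup.centralizer ({(y : G)} : Set G), ¬ p ∣ orderOf c →
        ¬ IsConj ((y : G) * (c : G)) x' := by
      intro c hc hcj
      obtain ⟨g, hg⟩ := isConj_iff.mp hcj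
      have hc' : ¬ p ∣ orderOf (c : G) := by
        rw [Subgroup.orderOf_coe]
        exact hc
      have hcomm : Commute (y : G) (c : G) :=
        (Subgroup.mem_centralizer_iff.mp c.2 (y : G) rfl)
      have h1 := Cfsg.Agent.Lib.BlkOrth.pPart_of_mul hcomm (hord y) hc'
      have h2 := Cfsg.Agent.Lib.BlkOrth.pPart_conj h1 g
      rw [hg] at h2
      have h3 : IsPPart p x' 1 :=
        ⟨x', one_mul _, Commute.one_left _, ⟨0, by simp⟩, hx'⟩
      have h4 := Cfsg.Agent.Lib.BlkOrth.pPart_unique hp h2 h3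
      have h5 : (y : G) = 1 := by
        have : g * (y : G) * g⁻¹ = g * 1 * g⁻¹ := by simpa using h4
        simpa using this
      exact hy (Subtype.ext h5)
    have h1 := Cfsg.Agent.Lib.BlockSection.sum_block_mul_conj_eq_zero hM (hord y) rfl hB hxo hv
    rw [hsum] at h1
    rw [← h1]
    refine Finset.sum_congr rfl fun μ _ => ?_
    simp only
    rw [hW μ y x (hreg hx), hW1 μ x', map_mul, conj_one_eq]
    ring
  let μ₀ : IrrCharacter D := oneIrr D
  have hμ₀ : Φ μ₀ = χ :=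
    eq_of_constituent hM hD hPC hG hPn hCn hB hBD (hΦB μ₀) hχ (hΦc μ₀)
      (constituent_one_of_forall χ (fun n => hχD n n.2))
  have hW₀ : ∀ c : G, W μ₀ c = (χ : G → ℂ) c := by
    intro c
    simp only [W, hμ₀]
    simp [μ₀, oneIrr]
  have hone : ¬ p ∣ orderOf (1 : G) := by
    rw [orderOf_one]
    intro h
    exact hp.one_lt.ne' (Nat.dvd_one.mp h)
  have hχ1 : (χ : G → ℂ) 1 ≠ 0 := irr_one_ne_zero' χ.2
  have hW11 : ∀ μ : IrrCharacter D, W μ 1 = (χ : G → ℂ) 1 := by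
    intro μ
    have h1 := hconst 1 1 hone hone μ μ₀
    rw [hW₀] at h1
    obtain ⟨a, ha, ha'⟩ := deg_pos (Φ μ)
    obtain ⟨b, hb, hb'⟩ := deg_pos μ
    obtain ⟨c, hc, hc'⟩ := deg_pos χ
    have e : W μ 1 = (a : ℂ) / b := by
      simp only [W]
      rw [ha', hb']
    rw [e, hc'] at h1
    rw [e, hc']
    simp only [map_div₀, map_natCast] at h1
    have hb0 : (b : ℂ) ≠ 0 := by exact_mod_cast hb.ne'
    have h2 : (a : ℂ) * a = c * c * (b * b) := by
      field_simp at h1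
      linear_combination h1
    have h3 : a * a = c * c * (b * b) := by exact_mod_cast h2
    have h4 : a ^ 2 = (c * b) ^ 2 := by
      nlinarith
    have h5 : a = c * b := Nat.pow_left_injective (n := 2) (by norm_num) h4
    rw [h5]
    push_cast
    field_simp
  have hWx : ∀ (μ : IrrCharacter D) (x : G), ¬ p ∣ orderOf x → W μ x = (χ : G → ℂ) x := by
    intro μ x hx
    have h1 := hconst x 1 hx hone μ μ₀
    rw [hW₀, hW₀, hW11] at h1
    have h2 : conj ((χ : G → ℂ) 1) ≠ 0 := by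
      rw [Ne, map_eq_zero]
      exact hχ1
    exact mul_right_cancel₀ h2 h1
  have hvalue : ∀ (μ : IrrCharacter D) (y : D) (x : G), ¬ p ∣ orderOf x →
      (Φ μ : G → ℂ) ((y : G) * x) = (μ : D → ℂ) y * (χ : G → ℂ) x := by
    intro μ y x hx
    rw [hW μ y x (hreg hx), hWx μ x hx]
  refine ⟨Φ, hΦB, hsurj, hvalue, ?_⟩
  rintro μ z u ⟨w, rfl, hcomm, hu, hw⟩ hu'
  have hwc : w ∈ Subgroup.centralizer ({u} : Set G) := by
    rw [Subgroup.mem_centralizer_iff]
    rintro g (rfl : g = u)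
    exact hcomm
  letI : Fintype (Subgroup.centralizer ({u} : Set G)) := Fintype.ofFinite _
  have hwo : ¬ p ∣ orderOf (⟨w, hwc⟩ : Subgroup.centralizer ({u} : Set G)) := by
    rw [Subgroup.orderOf_mk]
    exact hw
  have hfin : ∀ μ : IrrCharacter D, (Φ μ : G → ℂ) (u * w) * (χ : G → ℂ) 1 = 0 := by
    apply coeff_eq_zero (fun μ => (Φ μ : G → ℂ) (u * w) * (χ : G → ℂ) 1)
    intro y₀
    have hv : ∀ c : Subgroup.centralizer ({u} : Set G), ¬ p ∣ orderOf c →
        ¬ IsConj (u * (c : G)) (y₀ : G) := by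
      intro c hc hcj
      obtain ⟨g, hg⟩ := isConj_iff.mp hcj
      have hc' : ¬ p ∣ orderOf (c : G) := by
        rw [Subgroup.orderOf_coe]
        exact hc
      have hcomm' : Commute u (c : G) :=
        (Subgroup.mem_centralizer_iff.mp c.2 u rfl)
      have h1 := Cfsg.Agent.Lib.BlkOrth.pPart_of_mul hcomm' hu hc'
      have h2 := Cfsg.Agent.Lib.BlkOrth.pPart_conj h1 g
      rw [hg] at h2
      have h3 := Cfsg.Agent.Lib.BlkOrth.isPPart_self (hord y₀) hp
      have h4 := Cfsg.Agent.Lib.BlkOrth.pPart_unique hp h2 h3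
      apply hu'
      have h5 : g * u * g⁻¹ ∈ D := by
        rw [h4]
        exact y₀.2
      have h6 := hPn.conj_mem _ h5 g⁻¹
      simpa [mul_assoc] using h6
    have h1 := Cfsg.Agent.Lib.BlockSection.sum_block_mul_conj_eq_zero hM hu rfl hB hwo hv
    rw [hsum] at h1
    rw [← h1]
    refine Finset.sum_congr rfl fun μ _ => ?_
    simp only
    have h2 := hvalue μ y₀ 1 hone
    rw [mul_one] at h2
    rw [h2, map_mul, conj_one_eq χ]
    ring
  exact (mul_eq_zero.mp (hfin μ)).resolve_right hχ1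

end Main


theorem result {G : Type*} [Group G] [Finite G] (p : ℕ) [Fact p.Prime] (M : Ideal Cfsg.AlgInt) (hM : Cfsg.IsPModular p M) (D : Subgroup G) (hD : IsPGroup p D) (hG : D ⊔ Subgroup.centralizer (D : Set G) = ⊤) (B : Set (Cfsg.IrrCharacter G)) (hB : Cfsg.IsPBlock M B) (hBD : Cfsg.IsDefectGroup p M B D) (χ : Cfsg.IrrCharacter G) (hχ : χ ∈ B) (hχD : ∀ y ∈ D, (χ : G → ℂ) y = (χ : G → ℂ) 1) : (∀ θ : Cfsg.IrrCharacter G, θ ∈ B ↔ ∃ ζ : Cfsg.IrrCharacter D, (∀ (y : D) (x : G), ¬ p ∣ orderOf x → Commute (y : G) x → (θ : G → ℂ) ((y : G) * x) = (ζ : D → ℂ) y * (χ : G → ℂ) x) ∧ (∀ z : G, (∀ y : G, Cfsg.IsPPart p z y → y ∉ D) → (θ : G → ℂ) z = 0)) ∧ ∀ ζ : Cfsg.IrrCharacter D, ∃ θ ∈ B, (∀ (y : D) (x : G), ¬ p ∣ orderOf x → Commute (y : G) x → (θ : G → ℂ) ((y : G) * x) = (ζ : D → ℂ) y * (χ : G → ℂ) x) ∧ (∀ z : G, (∀ y : G, Cfsg.IsPPart p z y → y ∉ D) → (θ : G → ℂ) z = 0) := by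
  classical
  letI := Fintype.ofFinite G
  letI : Fintype D := Fintype.ofFinite _
  have hp : p.Prime := Fact.out
  obtain ⟨Φ, hΦB, hsurj, hvalue, hzero⟩ := main_core hM D hD hG B hB hBD χ hχ hχD
  have hprops : ∀ μ : IrrCharacter D, (∀ (y : D) (x : G), ¬ p ∣ orderOf x → Commute (y : G) x →
      (Φ μ : G → ℂ) ((y : G) * x) = (μ : D → ℂ) y * (χ : G → ℂ) x) ∧
      (∀ z : G, (∀ y : G, Cfsg.IsPPart p z y → y ∉ D) → (Φ μ : G → ℂ) z = 0) := by
    intro μ
    refine ⟨fun y x hx _ => hvalue μ y x hx, fun z hz => ?_⟩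
    obtain ⟨u, hu⟩ := Cfsg.Agent.Lib.BlkOrth.exists_isPPart hp z
    exact hzero μ z u hu (hz u hu)
  refine ⟨fun θ => ⟨fun hθ => ?_, ?_⟩, fun ζ => ⟨Φ ζ, hΦB ζ, hprops ζ⟩⟩
  · obtain ⟨μ, rfl⟩ := hsurj θ hθ
    exact ⟨μ, hprops μ⟩
  · rintro ⟨ζ, h1, h2⟩
    have h3 : θ = Φ ζ := by
      apply Subtype.ext
      funext z
      obtain ⟨u, hu⟩ := Cfsg.Agent.Lib.BlkOrth.exists_isPPart hp z
      by_cases hu' : u ∈ D
      · obtain ⟨w, rfl, hcomm, -, hw⟩ := id hu
        rw [h1 ⟨u, hu'⟩ w hw hcomm, (hprops ζ).1 ⟨u, hu'⟩ w hw hcomm]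
      · have h4 : ∀ y : G, IsPPart p z y → y ∉ D := by
          intro y hy
          rw [Cfsg.Agent.Lib.BlkOrth.pPart_unique hp hy hu]
          exact hu'
        rw [h2 z h4, (hprops ζ).2 z h4]
    rw [h3]
    exact hΦB ζ

end Cfsg.Agent.S4714
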