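import Mathlib
import Cfsg.Statements.S4715
import Cfsg.Agent.Lib.CentralSub
import Cfsg.Agent.Lib.BlkExtFMT

set_option autoImplicit false
set_option linter.unusedSectionVars false
set_option linter.unusedVariables false
set_option linter.style.haveILetI false
open Cfsg

namespace Cfsg.Agent.S4715

open Cfsg.Agent.Lib.CharBasic Cfsg.Agent.Lib.CharInd Cfsg.Agent.Lib.CharIntegrality
open Cfsg.Agent.Lib.BlockLocal Cfsg.Agent.Lib.BlockIdem Cfsg.Agent.Lib.BlockNormal
open Cfsg.Agent.Lib.BlockQ Cfsg.Agent.Lib.BlockDefect Cfsg.Agent.Lib.BlkBrauer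
open Cfsg.Agent.Lib.BrauerConj Cfsg.Agent.Lib.BrauerMax Cfsg.Agent.Lib.BrauerSub
open Cfsg.Agent.Lib.BlockSection Cfsg.Agent.Lib.BlkExtFMT Cfsg.Agent.Lib.CentralSub
open scoped ComplexConjugate

universe u

section

variable {G : Type u} [Group G] [Fintype G] {p : ℕ} [hpF : Fact p.Prime] {M : Ideal AlgInt}

local notation "𝐂[" R "]" => Subgroup.centralizer ((R : Subgroup G) : Set G)
local notation "𝐍[" R "]" => Subgroup.normalizer ((R : Subgroup G) : Set G)

noncomputable local instance fintypeSubT (K : Subgroup G) : Fintype K := Fintype.ofFinite K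

/-- A constituent of a restriction. -/
theorem exists_constituent {X : Type u} [Group X] [Fintype X] (L : Subgroup X) [Fintype L]
    (θ : IrrCharacter X) : ∃ τ : IrrCharacter L, classInner (fun n : L => (θ : X → ℂ) n) (τ : L → ℂ) ≠ 0 := by
  classical
  by_contra hcon
  push Not at hcon
  have hc := isCharacter_restrict L (IsIrrCharacter.isCharacter θ.2)
  have h1 := congrFun (classFunction_eq_sum (isClassFunction_of_isCharacter hc)) (1 : L)
  simp only [hcon, zero_smul, Finset.sum_const_zero] at h1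
  exact irr_one_ne_zero' θ.2 (by simpa using h1)

/-- Conjugation by a normalizing element. -/
def conjSelf (H : Subgroup G) (t : G) (ht : t ∈ Subgroup.normalizer (H : Set G)) : H ≃* H where
  toFun c := ⟨t * c * t⁻¹, (Subgroup.mem_normalizer_iff.mp ht c).mp c.2⟩
  invFun c := ⟨t⁻¹ * c * t, by
    have := (Subgroup.mem_normalizer_iff.mp ht (t⁻¹ * c * t)).mpr (by
      have e1 : t * (t⁻¹ * (c : G) * t) * t⁻¹ = c := by group
      rw [e1]
      exact c.2)
    exact this⟩
  left_inv c := by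
    apply Subtype.ext
    simp [mul_assoc]
  right_inv c := by
    apply Subtype.ext
    simp [mul_assoc]
  map_mul' a b := by
    apply Subtype.ext
    simp only [Subgroup.coe_mul]
    group

@[simp] theorem coe_conjSelf (H : Subgroup G) (t : G) (ht : t ∈ Subgroup.normalizer (H : Set G)) (c : H) :
    ((conjSelf H t ht c : H) : G) = t * c * t⁻¹ := rfl

@[simp] theorem coe_conjSelf_symm (H : Subgroup G) (t : G) (ht : t ∈ Subgroup.normalizer (H : Set G)) (c : H) :
    (((conjSelf H t ht).symm c : H) : G) = t⁻¹ * c * t := rfl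

/-- A maximal pair covered by `b`, whose stabilizer stabilizes `b`. -/
theorem exists_pair (hM : IsPModular p M) {B : Set (IrrCharacter G)} (hB : IsPBlock M B) {D : Subgroup G}
    (hD : IsDefectGroup p M B D) {H : Subgroup G} (hH : H = D ⊔ 𝐂[D]) {b : Set (IrrCharacter H)}
    (hind : IsInducedBlock M H b B) :
    ∃ e₀ : Set (IrrCharacter 𝐂[D]), IsMaximalBrauerPair p M B D e₀ ∧
      ∀ t : G, t ∈ 𝐍[D] → StabilizesBlock 𝐂[D] e₀ t → ∀ θ ∈ b, ∀ θ' : IrrCharacter H,
        (∀ h h' : H, (h' : G) = t * (h : G) * t⁻¹ → (θ' : H → ℂ) h' = (θ : H → ℂ) h) → θ' ∈ b := by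
  classical
  haveI := isPrime_of_isPModular hM
  have hDp : IsPGroup p D := by
    obtain ⟨g, -, S, rfl⟩ := hD
    exact S.isPGroup'.map _
  have hDH : D ≤ H := hH ▸ le_sup_left
  have hCH : 𝐂[D] ≤ H := hH ▸ le_sup_right
  have hHN : H ≤ 𝐍[D] := hH ▸ le_normalizer_sup
  have hHNC : H ≤ 𝐍[𝐂[D]] := hHN.trans (normalizer_le_normalizer_centralizer D)
  haveI hQn : (D.subgroupOf H).Normal := normal_subgroupOf hDH hHN
  haveI hLn : (𝐂[D].subgroupOf H).Normal := normal_subgroupOf hCH hHNC
  have hQp : IsPGroup p (D.subgroupOf H) :=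
    IsPGroup.comap_of_injective hDp (Subgroup.subtype _) (Subgroup.subtype_injective _)
  set L := 𝐂[D].subgroupOf H with hL
  set eL := Subgroup.subgroupOfEquivOfLe hCH with heL
  have hCL : Subgroup.centralizer ((D.subgroupOf H : Subgroup H) : Set H) ≤ L := by
    intro x hx
    rw [hL, Subgroup.mem_subgroupOf]
    exact (centralizer_subgroupOf_iff hDH x).mp hx
  have hL1 : ∀ (θ : IrrCharacter H) (ξ : IrrCharacter 𝐂[D]),
      classInner (fun n : L => (θ : H → ℂ) n) (pull eL ξ : L → ℂ) ≠ 0 → ∀ x : H,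
      MemLocalIdeal M (inducedCentralChar L (pull eL ξ : L → ℂ) x - centralChar (θ : H → ℂ) x) :=
    fun θ ξ hc x => induced_sub_central_of_covers hM hQp hLn hCL θ (pull eL ξ) hc x
  obtain ⟨θ₀, rfl⟩ := hind.1
  obtain ⟨τ, hτ⟩ := exists_constituent L θ₀
  set ξ₀ : IrrCharacter 𝐂[D] := pull eL.symm τ with hξ₀
  have hpull : pull eL ξ₀ = τ := by
    apply Subtype.ext
    funext x
    simp [hξ₀]
  have hθ₀ : θ₀ ∈ blockOf M (θ₀ : H → ℂ) := mem_blockOf_self θ₀
  have hc₀ : classInner (fun n : L => (θ₀ : H → ℂ) n) (pull eL ξ₀ : L → ℂ) ≠ 0 := by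
    rw [hpull]
    exact hτ
  have hind₀ : IsInducedBlock M 𝐂[D] (blockOf M (ξ₀ : 𝐂[D] → ℂ)) B := by
    refine ⟨⟨ξ₀, rfl⟩, hB, fun ξ hξ χ hχ g => ?_⟩
    have h1 := inducedCentralChar_sub_of_sameBlock (M := M) 𝐂[D] hξ g
    have h2 := induced_sub_induced hCH ξ₀ θ₀ (hL1 θ₀ ξ₀ hc₀) g
    have h3 := hind.2.2 θ₀ hθ₀ χ hχ g
    have h4 := memLocalIdeal_add (memLocalIdeal_add (memLocalIdeal_neg h1) h2) h3
    convert h4 using 1
    ring
  refine ⟨blockOf M (ξ₀ : 𝐂[D] → ℂ), ⟨isBrauerPairOf_of_isInducedBlock hM hDp hind₀, fun R g hRg hle => ?_⟩, ?_⟩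
  · obtain ⟨P, e', hmax', hle'⟩ := exists_maximal_above hM hRg
    have hDR : D ≤ R := le_of_subpairLE hle
    have hRP : R ≤ P := le_of_subpairLE hle'
    have h1 := card_isDefectGroup hM hB (isDefectGroup_of_maximal hM hmax')
    have h2 := card_isDefectGroup hM hB hD
    have h3 : D = P := Subgroup.eq_of_le_of_card_ge (hDR.trans hRP) (by rw [h1, h2])
    exact le_antisymm (hRP.trans (le_of_eq h3.symm)) hDR
  · intro t ht hst θ hθ θ' hθ'
    have htH : t ∈ 𝐍[H] := by
      have h1 := normalizer_le_normalizer_centralizer D ht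
      rw [hH]
      exact Cfsg.Agent.Lib.BrauerCen.normalizer_sup_of ht h1
    set σ := conjSelf H t htH with hσ
    have hθ'eq : θ' = twistE σ θ := by
      apply Subtype.ext
      funext x
      rw [twistE_apply]
      apply hθ' (σ.symm x) x
      rw [hσ, coe_conjSelf_symm]
      group
    set θ₁ := twistE σ θ₀ with hθ₁
    obtain ⟨ξ₁, hξ₁, hξ₁c⟩ := hst.2 ξ₀ (mem_blockOf_self ξ₀)
    -- the conjugate covers
    have htL : ∀ n : L, t * ((n : H) : G) * t⁻¹ ∈ 𝐂[D] := by
      intro n
      have h1 : ((n : H) : G) ∈ 𝐂[D] := n.2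
      exact (Subgroup.mem_normalizer_iff.mp (normalizer_le_normalizer_centralizer D ht) _).mp h1
    have htL' : ∀ n : L, t⁻¹ * ((n : H) : G) * t ∈ 𝐂[D] := by
      intro n
      have h1 : ((n : H) : G) ∈ 𝐂[D] := n.2
      have h2 := (Subgroup.mem_normalizer_iff.mp
        ((𝐍[𝐂[D]]).inv_mem (normalizer_le_normalizer_centralizer D ht)) ((n : H) : G)).mp h1
      simpa using h2
    let τe : L ≃ L :=
      { toFun := fun n => ⟨σ (n : H), Subgroup.mem_subgroupOf.mpr (htL n)⟩
        invFun := fun n => ⟨σ.symm (n : H), Subgroup.mem_subgroupOf.mpr (htL' n)⟩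
        left_inv := fun n => by
          apply Subtype.ext
          simp
        right_inv := fun n => by
          apply Subtype.ext
          simp }
    have hc₁ : classInner (fun n : L => (θ₁ : H → ℂ) n) (pull eL ξ₁ : L → ℂ) ≠ 0 := by
      have h1 : classInner (fun n : L => (θ₁ : H → ℂ) n) (pull eL ξ₁ : L → ℂ) =
          classInner (fun n : L => (θ₀ : H → ℂ) n) (pull eL ξ₀ : L → ℂ) := by
        unfold classInner
        congr 1
        rw [← Equiv.sum_comp τe]
        refine Finset.sum_congr rfl fun n _ => ?_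
        have h2 : (θ₁ : H → ℂ) ((τe n : L) : H) = (θ₀ : H → ℂ) (n : H) := by
          rw [hθ₁, twistE_apply]
          simp [τe]
        have h3 : (pull eL ξ₁ : L → ℂ) (τe n) = (pull eL ξ₀ : L → ℂ) n := by
          rw [pull_apply, pull_apply]
          exact hξ₁c _ _ rfl
        show (θ₁ : H → ℂ) ((τe n : L) : H) * conj ((pull eL ξ₁ : L → ℂ) (τe n)) =
          (θ₀ : H → ℂ) (n : H) * conj ((pull eL ξ₀ : L → ℂ) n)
        rw [h2, h3]
      rw [h1]
      exact hc₀
    -- comparison of central characters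
    have hsame : SameBlock M (θ₀ : H → ℂ) (θ₁ : H → ℂ) := by
      intro x
      have h1 := hL1 θ₀ ξ₀ hc₀ x
      have h2 := hL1 θ₁ ξ₁ hc₁ x
      have h3 := inducedCentralChar_sub_of_sameBlock (M := M) L (sameBlock_pull eL hξ₁) (x : H)
      have h4 := memLocalIdeal_add (memLocalIdeal_add (memLocalIdeal_neg h1) h3) h2
      convert h4 using 1
      ring
    show SameBlock M (θ₀ : H → ℂ) (θ' : H → ℂ)
    rw [hθ'eq]
    exact sameBlock_trans hsame (sameBlock_twistE σ hθ)

end

/-- Let p be a prime, M a maximal ideal of the algebraic integers containing p, B a p-block of the finite group G with defect group D of order p^d, H = D·C_G(D), b a block of H inducing B, T the stabilizer of b in N_G(D) and e = [T : H] the inertial index of B; let n be the integer with p^n ≤ e < p^(n+1) and p^c the order of the centre of D. Then every irreducible character in B has height h with h + c ≤ n + d. -/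
theorem result {G : Type*} [Group G] [Finite G] (p : ℕ) [Fact p.Prime] (M : Ideal Cfsg.AlgInt) (hM : Cfsg.IsPModular p M) (B : Set (Cfsg.IrrCharacter G)) (hB : Cfsg.IsPBlock M B) (D : Subgroup G) (hBD : Cfsg.IsDefectGroup p M B D) (d : ℕ) (hDd : Nat.card D = p ^ d) (H : Subgroup G) (hH : H = D ⊔ Subgroup.centralizer (D : Set G)) (b : Set (Cfsg.IrrCharacter H)) (hind : Cfsg.IsInducedBlock M H b B) (T : Subgroup G) (hT : ∀ g : G, g ∈ T ↔ (g ∈ Subgroup.normalizer (D : Set G) ∧ ∀ θ ∈ b, ∀ θ' : Cfsg.IrrCharacter H, (∀ h h' : H, (h' : G) = g * h * g⁻¹ → (θ' : H → ℂ) h' = (θ : H → ℂ) h) → θ' ∈ b)) (e : ℕ) (he : H.relIndex T = e) (n : ℕ) (hn : p ^ n ≤ e ∧ e < p ^ (n + 1)) (c : ℕ) (hc : Nat.card (Subgroup.center D) = p ^ c) : ∀ χ ∈ B, Cfsg.blockHeight p B (χ : G → ℂ) + c ≤ n + d := by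
  classical
  letI : Fintype G := Fintype.ofFinite G
  intro χ hχ
  have hp : p.Prime := Fact.out
  obtain ⟨e₀, hmax, hstab⟩ := exists_pair hM hB hBD hH hind
  have hcent : ∀ z, (z ∈ D ∧ ∀ d ∈ D, z * d = d * z) → H ≤ Subgroup.centralizer ({z} : Set G) := by
    rintro z ⟨hzD, hzc⟩
    rw [hH]
    refine sup_le (fun x hx => ?_) (fun x hx => ?_)
    · rw [Subgroup.mem_centralizer_singleton_iff]
      exact (hzc x hx).symm
    · rw [Subgroup.mem_centralizer_singleton_iff]
      exact ((Subgroup.mem_centralizer_iff.mp hx) z hzD).symm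
  set Z : Finset G := Finset.univ.filter (fun z : G => z ∈ D ∧ ∀ d ∈ D, z * d = d * z) with hZdef
  have hZ : ∀ z, z ∈ Z ↔ z ∈ D ∧ ∀ d ∈ D, z * d = d * z := by
    intro z
    simp [hZdef]
  have hcard : Z.card = p ^ c := by
    have e' : (Subgroup.center D) ≃ {z // z ∈ Z} :=
      { toFun := fun x => ⟨((x : D) : G), (hZ _).mpr ⟨(x : D).2, fun d hd => by
          have := Subgroup.mem_center_iff.mp x.2 ⟨d, hd⟩
          exact (congrArg Subtype.val this).symm⟩⟩
        invFun := fun z => ⟨⟨z.1, ((hZ _).mp z.2).1⟩, Subgroup.mem_center_iff.mpr fun g =>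
          Subtype.ext (((hZ _).mp z.2).2 g g.2).symm⟩
        left_inv := fun x => rfl
        right_inv := fun z => rfl }
    rw [← hc, Nat.card_congr e', Nat.card_eq_fintype_card, Fintype.card_coe]
  have hmain := card_center_mul_le hM hmax T (fun t ht hs => (hT t).mpr ⟨ht, hstab t ht hs⟩) e Z hZ
    (fun z hz W hW => by
      classical
      choose! f hf using fun z' (hz' : z' ∈ W) => (hW z' hz').2
      have hH' := hcent z ((hZ z).mp hz)
      letI : Fintype (T ⧸ H.subgroupOf T) := Fintype.ofFinite _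
      have : W.card ≤ Fintype.card (T ⧸ H.subgroupOf T) := by
        let φ : {x // x ∈ W} → T ⧸ H.subgroupOf T := fun x => QuotientGroup.mk ⟨f x, (hf x x.2).1⟩
        have hφ : Function.Injective φ := by
          intro x y hxy
          have h1 := QuotientGroup.eq.mp hxy
          have h2 : (f x)⁻¹ * f y ∈ H := Subgroup.mem_subgroupOf.mp h1
          have h3 := Subgroup.mem_centralizer_singleton_iff.mp (hH' h2)
          apply Subtype.ext
          rw [← (hf x x.2).2, ← (hf y y.2).2]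
          have key : ∀ a b c : G, (a⁻¹ * b) * c = c * (a⁻¹ * b) → a * c * a⁻¹ = b * c * b⁻¹ := by
            intro a b c h
            calc a * c * a⁻¹ = a * (c * (a⁻¹ * b)) * (b⁻¹ * a) * a⁻¹ := by group
              _ = a * ((a⁻¹ * b) * c) * (b⁻¹ * a) * a⁻¹ := by rw [h]
              _ = b * c * b⁻¹ := by group
          exact key _ _ _ h3
        simpa using Fintype.card_le_of_injective φ hφ
      rw [← he, Subgroup.relIndex, Subgroup.index, Nat.card_eq_fintype_card]
      exact this) hχ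
  have hd : Cfsg.blockDefect p B = d := by
    have h1 := card_isDefectGroup hM hB hBD
    rw [hDd] at h1
    exact (Nat.pow_right_injective hp.two_le h1).symm
  rw [hd, hcard] at hmain
  have hpos : (0 : ℝ) < (p : ℝ) ^ (n + 1 + d) := by
    have : (0 : ℝ) < p := by exact_mod_cast hp.pos
    positivity
  have h1 : p ^ c * p ^ Cfsg.blockHeight p B (χ : G → ℂ) ≤ e * p ^ d := by
    exact_mod_cast hmain
  have h2 : e * p ^ d < p ^ (n + 1) * p ^ d :=
    Nat.mul_lt_mul_of_pos_right hn.2 (pow_pos hp.pos d)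
  have h3 : p ^ (c + Cfsg.blockHeight p B (χ : G → ℂ)) < p ^ (n + 1 + d) := by
    rw [pow_add, pow_add p (n + 1)]
    exact lt_of_le_of_lt h1 h2
  have h4 := (Nat.pow_lt_pow_iff_right hp.one_lt).mp h3
  omega

end Cfsg.Agent.S4715
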