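import Mathlib
import Cfsg.Statements.S4716
import Cfsg.Agent.Lib.BlockMajor

set_option autoImplicit false
set_option linter.unusedSectionVars false
set_option linter.unusedVariables false
set_option linter.style.haveILetI false
open Cfsg

namespace Cfsg.Agent.S4716

open Cfsg.Agent.Lib.BlockMajor Cfsg.Agent.Lib.BlockQ Cfsg.Agent.Lib.GalAmgm
open Cfsg.Agent.Lib.BlockLocal
open scoped ComplexConjugate

universe u

section
variable {G : Type u} [Group G] [Fintype G] {p : ℕ} [hpF : Fact p.Prime] {M : Ideal AlgInt}
variable {y : G} {H : Subgroup G} [Fintype H]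

theorem card_eq_bF {X : Type u} [Group X] [Fintype X] {B : Set (IrrCharacter X)} :
    Nat.card B = (bF B).card := by
  classical
  rw [Nat.card_eq_fintype_card, ← Finset.card_univ]
  rw [← Finset.card_map (Function.Embedding.subtype _)]
  congr 1
  ext χ
  simp

theorem main (hM : IsPModular p M) (hy : ∃ k : ℕ, orderOf y = p ^ k)
    (hH : H = Subgroup.centralizer ({y} : Set G)) {b : Set (IrrCharacter H)}
    {B : Set (IrrCharacter G)} (hind : IsInducedBlock M H b B)
    (hh : ∀ χ ∈ B, blockHeight p B (χ : G → ℂ) = 0) :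
    (bF B).card ^ 2 ≤ p ^ (2 * blockDefect p b) * blockRank p b := by
  classical
  have hMp := hM.2.1.isPrime
  have hp := hpF.out
  obtain ⟨k, hk⟩ := id hy
  have hn : y ^ (p ^ k) = 1 := by rw [← hk]; exact pow_orderOf_eq_one y
  haveI : NeZero (p ^ k) := ⟨pow_ne_zero _ hp.ne_zero⟩
  have h0 : ∀ χ ∈ B, (charDegree (χ : G → ℂ)).factorization p = minExp p B := by
    intro χ hχ
    have := charDegree_factorization_eq (p := p) hχ
    have h2 := hh χ hχ
    omega
  set N : ℕ := p ^ (2 * blockDefect p b) * blockRank p b with hN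
  have key := card_le_of_sum_mul_conj (p ^ k) (bF B ×ˢ bF B)
    (fun x => RR p hH b x.1 x.2)
    (fun x _ => RR_mem_cycF hM hH hind.1 x.1 x.2 hn)
    (fun x _ => isIntegral_RR hM hH hind.1 x.1 x.2 (pow_ne_zero _ hp.ne_zero) hn)
    (fun x hx => by
      have hx' := Finset.mem_product.mp hx
      exact ne_zero_of_not_memLocalIdeal (not_memLocalIdeal_RR hM hH hy hind (mem_bF.mp hx'.1)
        (mem_bF.mp hx'.2) (h0 _ (mem_bF.mp hx'.1)) (h0 _ (mem_bF.mp hx'.2))))
    (N : ℚ) (by
      rw [Finset.sum_product]
      have h1 : ∀ χ ψ : IrrCharacter G, RR p hH b χ ψ * conj (RR p hH b χ ψ) =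
          (p : ℂ) ^ (2 * blockDefect p b) *
            (Cfsg.classInner (pRegularPart p (th hH b χ)) (th hH b ψ) *
              conj (Cfsg.classInner (pRegularPart p (th hH b χ)) (th hH b ψ))) := by
        intro χ ψ
        unfold RR
        rw [map_mul, map_pow, Complex.conj_natCast, two_mul, pow_add]
        ring
      simp_rw [h1, ← Finset.mul_sum]
      rw [sum_AA hM hy hH hind, hN]
      push_cast
      rfl)
  rw [Finset.card_product] at key
  have h2 : (((bF B).card * (bF B).card : ℕ) : ℝ) ≤ (N : ℝ) := by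
    have h3 : (((N : ℕ) : ℚ) : ℝ) = (N : ℝ) := by push_cast; rfl
    rw [h3] at key
    exact_mod_cast key
  rw [sq]
  exact_mod_cast h2

end

/-- Let p be a prime, M a maximal ideal of the algebraic integers containing p, and B a p-block of defect d of the finite group G all of whose irreducible characters have height zero. Let y be a p-element, C = C_G(y), and b a block of C inducing B and having the same defect d (a major subsection). Then k(B)^2 ≤ p^(2d)·l(b), where k(B) is the number of irreducible characters in B and l(b) the p-regular rank of b (its number of irreducible Brauer characters); in particular (y = 1) k(B)^2 ≤ p^(2d)·l(B). -/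
theorem result {G : Type*} [Group G] [Finite G] (p : ℕ) [Fact p.Prime] (M : Ideal Cfsg.AlgInt) (hM : Cfsg.IsPModular p M) (B : Set (Cfsg.IrrCharacter G)) (hB : Cfsg.IsPBlock M B) (d : ℕ) (hd : Cfsg.blockDefect p B = d) (hh : ∀ χ ∈ B, Cfsg.blockHeight p B (χ : G → ℂ) = 0) (y : G) (hy : ∃ k : ℕ, orderOf y = p ^ k) (b : Set (Cfsg.IrrCharacter ↥(Subgroup.centralizer ({y} : Set G)))) (hind : Cfsg.IsInducedBlock M (Subgroup.centralizer ({y} : Set G)) b B) (hbd : Cfsg.blockDefect p b = d) : Nat.card B ^ 2 ≤ p ^ (2 * d) * Cfsg.blockRank p b := by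
  classical
  letI := Fintype.ofFinite G
  letI : Fintype (Subgroup.centralizer ({y} : Set G)) := Fintype.ofFinite _
  rw [card_eq_bF, ← hbd]
  exact main hM hy rfl hind hh

end Cfsg.Agent.S4716
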