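import Mathlib
import Cfsg.Statements.S4717
import Cfsg.Agent.Lib.BlockDefectInd

set_option autoImplicit false
set_option linter.unusedSectionVars false
set_option linter.unusedVariables false
set_option linter.style.haveILetI false
open Cfsg

namespace Cfsg.Agent.S4717

open Cfsg.Agent.Lib.BlockDefectInd Cfsg.Agent.Lib.BlockDefect Cfsg.Agent.Lib.BlockSection
open Cfsg.Agent.Lib.BlockSecond Cfsg.Agent.Lib.BlockLocal

universe u

theorem zpowers_le_centralizer {G : Type u} [Group G] (y : G) :
    Subgroup.zpowers y ≤ Subgroup.centralizer ((Subgroup.zpowers y : Subgroup G) : Set G) := by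
  rintro _ ⟨i, rfl⟩
  rw [Subgroup.mem_centralizer_iff]
  rintro _ ⟨j, rfl⟩
  simp only
  exact (zpow_mul_comm y j i)

theorem isPGroup_zpowers {G : Type u} [Group G] [Finite G] {p : ℕ} [Fact p.Prime] {y : G}
    (hy : ∃ k : ℕ, orderOf y = p ^ k) : IsPGroup p (Subgroup.zpowers y) := by
  obtain ⟨k, hk⟩ := hy
  apply IsPGroup.of_card (n := k)
  rw [Nat.card_zpowers, hk]

theorem main {G : Type u} [Group G] [Fintype G] (p : ℕ) [Fact p.Prime] (M : Ideal Cfsg.AlgInt) (hM : Cfsg.IsPModular p M) (r : ℕ) : ((∀ B' : Set (Cfsg.IrrCharacter G), Cfsg.IsPBlock M B' → B' ≠ Cfsg.principalBlock M G → Cfsg.blockDefect p B' < r) → ∀ y : G, (∃ k : ℕ, orderOf y = p ^ k) → (∀ B' : Set (Cfsg.IrrCharacter ↥(Subgroup.centralizer ({y} : Set G))), Cfsg.IsPBlock M B' → B' ≠ Cfsg.principalBlock M ↥(Subgroup.centralizer ({y} : Set G)) → Cfsg.blockDefect p B' < r)) ∧ (0 < r → (∀ y : G, orderOf y = p → (∀ B' : Set (Cfsg.IrrCharacter ↥(Subgroup.centralizer ({y} : Set G))), Cfsg.IsPBlock M B' → B' ≠ Cfsg.principalBlock M ↥(Subgroup.centralizer ({y} :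 Set G)) → Cfsg.blockDefect p B' < r)) → (∀ B' : Set (Cfsg.IrrCharacter G), Cfsg.IsPBlock M B' → B' ≠ Cfsg.principalBlock M G → Cfsg.blockDefect p B' < r)) := by
  classical
  have hMp := hM.2.1.isPrime
  have hp := hM.1
  constructor
  · intro h y hy b hb hne
    letI : Fintype (Subgroup.centralizer ({y} : Set G)) := Fintype.ofFinite _
    have hH' : Subgroup.centralizer ({y} : Set G) =
        Subgroup.centralizer ((Subgroup.zpowers y : Subgroup G) : Set G) :=
      (centralizer_zpowers_eq y).symm
    have hP := isPGroup_zpowers hy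
    obtain ⟨B, hB⟩ := exists_isInducedBlock_centralizer hM hP hH' hb
    have hBne : B ≠ principalBlock M G := by
      rintro rfl
      exact hne (eq_principal_of_isInducedBlock hM hy rfl hB)
    have h1 := h B hB.2.1 hBne
    have h2 := blockDefect_le_of_isInducedBlock hM hP (zpowers_le_centralizer y) hH' hB
    omega
  · intro hr h B hB hne
    by_contra hcon
    push Not at hcon
    obtain ⟨D, hD⟩ := exists_isDefectGroup hM hB
    have hDcard := card_isDefectGroup hM hB hD
    have hd : 0 < blockDefect p B := by omega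
    have hDp : IsPGroup p D := IsPGroup.of_card hDcard
    haveI hDnt : Nontrivial D := by
      rw [hDp.nontrivial_iff_card]
      exact ⟨_, hd, hDcard⟩
    have hZ := hDp.center_nontrivial
    have hZp : IsPGroup p (Subgroup.center D) := hDp.to_subgroup _
    obtain ⟨n, hn, hcard⟩ := hZp.nontrivial_iff_card.mp hZ
    obtain ⟨u, hu⟩ := exists_prime_orderOf_dvd_card' (G := Subgroup.center D) p (by
      rw [hcard]
      exact dvd_pow_self p hn.ne')
    set y : G := ((u : D) : G) with hy
    have hyo : orderOf y = p := by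
      rw [hy, Subgroup.orderOf_coe, Subgroup.orderOf_coe, hu]
    have hyp : ∃ k : ℕ, orderOf y = p ^ k := ⟨1, by rw [hyo, pow_one]⟩
    letI : Fintype (Subgroup.centralizer ({y} : Set G)) := Fintype.ofFinite _
    have hH' : Subgroup.centralizer ({y} : Set G) =
        Subgroup.centralizer ((Subgroup.zpowers y : Subgroup G) : Set G) :=
      (centralizer_zpowers_eq y).symm
    have hP := isPGroup_zpowers hyp
    have hDH : D ≤ Subgroup.centralizer ({y} : Set G) := by
      intro d hd
      rw [Subgroup.mem_centralizer_singleton_iff]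
      have h1 : (⟨d, hd⟩ : D) * (u : D) = (u : D) * ⟨d, hd⟩ :=
        ((Subgroup.mem_center_iff.mp u.2) ⟨d, hd⟩)
      exact congrArg Subtype.val h1
    have hPD : Subgroup.zpowers y ≤ D := by
      rw [Subgroup.zpowers_le]
      exact (u : D).2
    obtain ⟨b, hb1, hb2⟩ := exists_isInducedBlock_defect hM hP (zpowers_le_centralizer y) hH' hB hD
      hDH hPD
    have hbne : b ≠ principalBlock M (Subgroup.centralizer ({y} : Set G)) := by
      rintro rfl
      exact hne (isInducedBlock_unique hb1 (isInducedBlock_principal hM hyp rfl))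
    have h1 := h y hyo b hb1.1 hbne
    omega

/-- Let p be a prime, M a maximal ideal of the algebraic integers containing p, and r a natural number; say that a finite group X has deficiency class r when X has no non-principal p-block of defect ≥ r. If G has deficiency class r then so does the centralizer of every p-element of G; conversely, if r > 0 and the centralizer of every element of order p has deficiency class r, then G has deficiency class r. -/
theorem result {G : Type*} [Group G] [Finite G] (p : ℕ) [Fact p.Prime] (M : Ideal Cfsg.AlgInt) (hM : Cfsg.IsPModular p M) (r : ℕ) : ((∀ B' : Set (Cfsg.IrrCharacter G), Cfsg.IsPBlock M B' → B' ≠ Cfsg.principalBlock M G → Cfsg.blockDefect p B' < r) → ∀ y : G, (∃ k : ℕ, orderOf y = p ^ k) → (∀ B' : Set (Cfsg.IrrCharacter ↥(Subgroup.centralizer ({y} : Set G))), Cfsg.IsPBlock M B' → B' ≠ Cfsg.principalBlock M ↥(Subgroup.centralizer ({y} : Set G)) → Cfsg.blockDefect p B' < r)) ∧ (0 < r → (∀ y : G, orderOf y = p → (∀ B' : Set (Cfsg.IrrCharacter ↥(Subgroup.centralizer ({y} : Set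 G))), Cfsg.IsPBlock M B' → B' ≠ Cfsg.principalBlock M ↥(Subgroup.centralizer ({y} : Set G)) → Cfsg.blockDefect p B' < r)) → (∀ B' : Set (Cfsg.IrrCharacter G), Cfsg.IsPBlock M B' → B' ≠ Cfsg.principalBlock M G → Cfsg.blockDefect p B' < r)) := by
  letI := Fintype.ofFinite G
  exact main p M hM r

end Cfsg.Agent.S4717
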