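import Mathlib
import Cfsg.Statements.S4718
import Cfsg.Agent.S4676
import Cfsg.Agent.Lib.LandauBound
import Cfsg.Agent.Lib.BlockNormal

set_option autoImplicit false
set_option linter.style.haveILetI false
open Cfsg

namespace Cfsg.Agent.S4718

open Cfsg.Agent.Lib.BlockNormal Cfsg.Agent.Lib.BlockIdem Cfsg.Agent.Lib.BlockQ
open Cfsg.Agent.Lib.BlockLocal Cfsg.Agent.Lib.CharKernel Cfsg.Agent.Lib.CharBasic

universe u

theorem result (p : ℕ) [Fact p.Prime] (a : ℕ) : ∃ N : ℕ, ∀ (G : Type u) [Group G] [Finite G] (M : Ideal Cfsg.AlgInt), Cfsg.IsPModular p M → (Nat.card G).factorization p = a → (∀ B : Set (Cfsg.IrrCharacter G), Cfsg.IsPBlock M B → B = Cfsg.principalBlock M G) → Nat.card G ≤ N := by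
  obtain ⟨N, hN⟩ := Cfsg.Agent.Lib.LandauBound.exists_bound_group.{u} ((p ^ a) ^ 2 / 4 + 1)
  refine ⟨N, ?_⟩
  intro G _ _ M hM ha hB
  classical
  letI : Fintype G := Fintype.ofFinite G
  haveI := isPrime_of_isPModular hM
  apply hN
  rw [← Cfsg.Agent.Lib.CharInd.card_irr_eq_card_conjClasses]
  have hB₀ : IsPBlock M (principalBlock M G) := isPBlock_principalBlock M
  have hmain := Cfsg.Agent.S4676.main hM hB₀
  have hall : ∀ χ : IrrCharacter G, χ ∈ bF (principalBlock M G) := by
    intro χ
    apply mem_bF.mpr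
    rw [← hB (blockOf M (χ : G → ℂ)) ⟨χ, rfl⟩]
    exact mem_blockOf_self χ
  have hdef : blockDefect p (principalBlock M G) = a := by
    have h1 := card_factorization_eq (p := p) hB₀
    have h2 : minExp p (principalBlock M G) = 0 := by
      apply Nat.eq_zero_of_le_zero
      refine Nat.sInf_le ⟨irrOne G, irrOne_mem_principalBlock M, ?_⟩
      have h3 : charDegree ((irrOne G : IrrCharacter G) : G → ℂ) = 1 := by
        have h4 := one_eq_charDegree (IsIrrCharacter.isCharacter (irrOne G).2)
        have h5 : ((irrOne G : IrrCharacter G) : G → ℂ) 1 = 1 := rfl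
        rw [h5] at h4
        exact_mod_cast h4.symm
      show (charDegree ((irrOne G : IrrCharacter G) : G → ℂ)).factorization p = 0
      rw [h3]
      simp
    omega
  rw [hdef] at hmain
  have hpp : p.Prime := Fact.out
  have h1 : (bF (principalBlock M G)).card ≤
      ∑ χ ∈ bF (principalBlock M G), p ^ (2 * blockHeight p (principalBlock M G) (χ : G → ℂ)) := by
    rw [Finset.card_eq_sum_ones]
    exact Finset.sum_le_sum fun χ _ => Nat.one_le_pow _ _ hpp.pos
  have h2 : Nat.card (IrrCharacter G) = (bF (principalBlock M G)).card := by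
    rw [Nat.card_eq_fintype_card, ← Finset.card_univ]
    congr 1
    exact (Finset.eq_univ_of_forall hall).symm
  rw [h2]
  exact h1.trans hmain

end Cfsg.Agent.S4718
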