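import Mathlib
import Cfsg.Statements.S4719
import Cfsg.Agent.S4718
import Cfsg.Agent.Lib.FourGroupBound
import Cfsg.Agent.Lib.BlockDefectInd
import Cfsg.Agent.Lib.BlockSecond
import Cfsg.Agent.Lib.BlockSection
import Cfsg.Agent.Lib.BrauerThird
import Cfsg.Agent.Lib.CharIto

set_option autoImplicit false
set_option linter.style.haveILetI false
set_option linter.unusedVariables false
open Cfsg

namespace Cfsg.Agent.S4719

open Subgroup Cfsg.Agent.Lib.BlockIdem Cfsg.Agent.Lib.BlockLocal Cfsg.Agent.Lib.FourGroupBound

universe u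

/-- A central `p`-subgroup is contained in each defect group, numerically. -/
theorem le_blockDefect_of_central {K : Type*} [Group K] [Finite K] {p : ℕ} (hp : p.Prime)
    {M : Ideal Cfsg.AlgInt} [M.IsPrime] (Z : Subgroup K) (hZ : Z ≤ center K) {r : ℕ}
    (hcard : Nat.card Z = p ^ r) {b : Set (IrrCharacter K)} (hb : IsPBlock M b) :
    r ≤ blockDefect p b := by
  classical
  letI : Fintype K := Fintype.ofFinite K
  obtain ⟨χ, rfl⟩ := hb
  obtain ⟨n, ρ, hρ, hχ⟩ := χ.2
  have h1 : n ∣ (center K).index := by
    have := Cfsg.Agent.Lib.CharIto.finrank_dvd_index_center ρ hρ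
    simpa using this
  have h2 : charDegree (χ : K → ℂ) = n := by
    unfold charDegree
    rw [← hχ, Representation.char_one]
    simp
  have h3 : (center K).index ∣ Z.index := Subgroup.index_dvd_of_le hZ
  have hidx : Z.index ≠ 0 := Subgroup.index_ne_zero_of_finite
  have hcardK : Nat.card K = Z.index * p ^ r := by
    rw [← hcard, mul_comm, Subgroup.card_mul_index]
  have hKne : Nat.card K ≠ 0 := Nat.card_pos.ne'
  have h4 : (charDegree (χ : K → ℂ)).factorization p ≤ Z.index.factorization p := by
    rw [h2]
    exact (Nat.factorization_le_iff_dvd (by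
      rintro rfl
      simp at h1
      exact (Subgroup.index_ne_zero_of_finite (H := center K)) h1) hidx).mpr (h1.trans h3) p
  have h5 : (Nat.card K).factorization p = Z.index.factorization p + r := by
    rw [hcardK, Nat.factorization_mul hidx (pow_ne_zero _ hp.ne_zero), hp.factorization_pow]
    simp
  unfold blockDefect
  have h6 : sInf ((fun ψ : IrrCharacter K => (charDegree (ψ : K → ℂ)).factorization p) ''
      blockOf M (χ : K → ℂ)) ≤ (charDegree (χ : K → ℂ)).factorization p :=
    Nat.sInf_le ⟨χ, mem_blockOf_self χ, rfl⟩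
  omega

/-- The base: the centralizer of a large abelian `2`-subgroup has only the principal block. -/
theorem all_principal {G : Type u} [Group G] [Finite G] {M : Ideal Cfsg.AlgInt} {r : ℕ}
    (hM : IsPModular 2 M)
    (hB : ∀ B : Set (IrrCharacter G), IsPBlock M B → B ≠ principalBlock M G → blockDefect 2 B < r)
    (A : Subgroup G) (hAc : A ≤ centralizer (A : Set G)) (hA : Nat.card A = 2 ^ r)
    (b : Set (IrrCharacter (centralizer (A : Set G)))) (hb : IsPBlock M b) :
    b = principalBlock M (centralizer (A : Set G)) := by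
  classical
  letI : Fact (Nat.Prime 2) := ⟨Nat.prime_two⟩
  letI : Fintype G := Fintype.ofFinite G
  haveI := isPrime_of_isPModular hM
  letI : Fintype (centralizer (A : Set G)) := Fintype.ofFinite _
  have hAp : IsPGroup 2 A := IsPGroup.of_card hA
  obtain ⟨F, hF⟩ := Cfsg.Agent.Lib.BlockSecond.exists_isInducedBlock_centralizer hM hAp rfl hb
  have h1 := Cfsg.Agent.Lib.BlockDefectInd.blockDefect_le_of_isInducedBlock hM hAp hAc rfl hF
  -- the central copy of `A`
  let Z : Subgroup (centralizer (A : Set G)) := A.subgroupOf (centralizer (A : Set G))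
  have hZc : Z ≤ center (centralizer (A : Set G)) := by
    intro z hz
    rw [Subgroup.mem_center_iff]
    intro g
    apply Subtype.ext
    have h2 : (z : G) ∈ A := hz
    exact (Subgroup.mem_centralizer_iff.mp g.2 z h2).symm
  have hZcard : Nat.card Z = 2 ^ r := by
    rw [← hA]
    exact Nat.card_congr (Subgroup.subgroupOfEquivOfLe hAc).toEquiv
  have h2 := le_blockDefect_of_central Nat.prime_two Z hZc hZcard hb
  have h3 : F = principalBlock M G := by
    by_contra hne
    have := hB F hF.2.1 hne
    omega
  subst h3
  have h4 := Cfsg.Agent.Lib.BlockSection.isBrauerPairOf_of_isInducedBlock hM hAp hF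
  exact (Cfsg.Agent.Lib.BrauerThird.isBrauerPairOf_principal_iff hM hAp hb).mp h4

/-- The subgroup generated by `A` and a commuting involution has at most twice the order. -/
theorem card_sup_zpowers_le {G : Type*} [Group G] [Finite G] {A : Subgroup G} {u : G}
    (hu : u * u = 1) (hc : ∀ a ∈ A, a * u = u * a) :
    Nat.card ↥(A ⊔ zpowers u) ≤ 2 * Nat.card A := by
  classical
  let K : Subgroup G :=
    { carrier := {x | x ∈ A ∨ u * x ∈ A}
      mul_mem' := by
        rintro x y (hx | hx) (hy | hy)
        · exact Or.inl (A.mul_mem hx hy)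
        · right
          have : u * (x * y) = x * (u * y) := by
            rw [← mul_assoc, ← mul_assoc, hc x hx]
          rw [this]
          exact A.mul_mem hx hy
        · right
          rw [← mul_assoc]
          exact A.mul_mem hx hy
        · left
          have : x * y = (u * x) * (u * y) := by
            have h1 := hc _ hx
            calc x * y = (u * u) * x * y := by rw [hu, one_mul]
              _ = u * (u * x) * y := by group
              _ = (u * x) * u * y := by rw [h1]
              _ = _ := by group
          rw [this]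
          exact A.mul_mem hx hy
      one_mem' := Or.inl A.one_mem
      inv_mem' := by
        rintro x (hx | hx)
        · exact Or.inl (A.inv_mem hx)
        · right
          have h1 := hc _ hx
          have huinv : u⁻¹ = u := inv_eq_of_mul_eq_one_left hu
          have hcx : x * u = u * x := by
            calc x * u = (u * u) * x * u := by rw [hu, one_mul]
              _ = u * (u * x) * u := by group
              _ = u * ((u * x) * u) := by group
              _ = u * (u * (u * x)) := by rw [h1]
              _ = (u * u) * (u * x) := by group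
              _ = u * x := by rw [hu, one_mul]
          have : u * x⁻¹ = (u * x)⁻¹ := by
            have h2 : Commute x u := hcx
            rw [mul_inv_rev, huinv]
            exact ((h2.inv_left).eq).symm
          rw [this]
          exact A.inv_mem hx }
  have hK : A ⊔ zpowers u ≤ K := by
    apply sup_le
    · exact fun x hx => Or.inl hx
    · rw [Subgroup.zpowers_le]
      right
      rw [hu]
      exact A.one_mem
  refine (Subgroup.card_le_of_le hK).trans ?_
  let φ : K → Fin 2 × A := fun x => if hx : (x : G) ∈ A then (0, ⟨x, hx⟩) else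
    (1, ⟨u * x, x.2.resolve_left hx⟩)
  have hφ : Function.Injective φ := by
    intro x y hxy
    apply Subtype.ext
    by_cases hx : (x : G) ∈ A <;> by_cases hy : (y : G) ∈ A
    · simp only [φ, hx, hy, dif_pos, Prod.mk.injEq] at hxy
      exact congrArg (fun w : A => (w : G)) hxy.2
    · simp [φ, hx, hy] at hxy
    · simp [φ, hx, hy] at hxy
    · simp only [φ, hx, hy, dif_neg, not_false_iff, Prod.mk.injEq] at hxy
      exact mul_left_cancel (congrArg (fun w : A => (w : G)) hxy.2)
  have := Nat.card_le_card_of_injective φ hφ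
  rwa [Nat.card_prod, Nat.card_eq_fintype_card (α := Fin 2), Fintype.card_fin] at this

/-- A proper overgroup has at least twice the order. -/
theorem two_mul_le_card_of_lt {G : Type*} [Group G] [Finite G] {A B : Subgroup G} (h : A < B) :
    2 * Nat.card A ≤ Nat.card B := by
  obtain ⟨k, hk⟩ := Subgroup.card_dvd_of_le h.le
  have hB : 0 < Nat.card B := Nat.card_pos
  have hA : 0 < Nat.card A := Nat.card_pos
  have hk0 : k ≠ 0 := by
    rintro rfl
    omega
  have hk1 : k ≠ 1 := by
    rintro rfl
    rw [mul_one] at hk
    exact h.ne (Subgroup.eq_of_le_of_card_ge h.le hk.le)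
  have : 2 ≤ k := by omega
  rw [hk, mul_comm]
  exact Nat.mul_le_mul_left _ this

/-- The recursive bound. -/
noncomputable def Nrec (N₀ a : ℕ) : ℕ → ℕ
  | 0 => N₀
  | i + 1 => bound (Nrec N₀ a i) a

/-- The inductive step of the bound. -/
theorem card_centralizer_le {G : Type u} [Group G] [Finite G] {N₀ a r : ℕ}
    (hGa : (Nat.card G).factorization 2 ≤ a) (E : Subgroup G)
    (hEc : ∀ x ∈ E, ∀ y ∈ E, x * y = y * x) (hEi : ∀ x ∈ E, x * x = 1)
    (hE : Nat.card E = 2 ^ (r + 1))
    (h0 : ∀ A : Subgroup G, A ≤ E → Nat.card A = 2 ^ r →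
      Nat.card (centralizer (A : Set G)) ≤ N₀) (i : ℕ) :
    ∀ A : Subgroup G, A ≤ E → Nat.card A * 2 ^ i = 2 ^ r →
      Nat.card (centralizer (A : Set G)) ≤ Nrec N₀ a i := by
  induction i with
  | zero =>
    intro A hA hcard
    exact h0 A hA (by simpa using hcard)
  | succ i ih =>
    intro A hA hcard
    -- the bigger subgroups
    have hsup : ∀ w ∈ E, w ∉ A → A ⊔ zpowers w ≤ E ∧ Nat.card ↥(A ⊔ zpowers w) * 2 ^ i = 2 ^ r := by
      intro w hw hwA
      have h1 : A ⊔ zpowers w ≤ E := sup_le hA (by rwa [Subgroup.zpowers_le])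
      refine ⟨h1, ?_⟩
      have h2 := card_sup_zpowers_le (A := A) (hEi w hw) (fun a ha => hEc a (hA ha) w hw)
      have h3 : 2 * Nat.card A ≤ Nat.card ↥(A ⊔ zpowers w) := by
        apply two_mul_le_card_of_lt
        refine lt_of_le_of_ne le_sup_left ?_
        intro h
        apply hwA
        rw [h]
        exact (le_sup_right : zpowers w ≤ A ⊔ zpowers w) (Subgroup.mem_zpowers w)
      have h4 : Nat.card ↥(A ⊔ zpowers w) = 2 * Nat.card A := le_antisymm h2 h3
      rw [h4, ← hcard, pow_succ]
      ring
    have hAE : Nat.card A * 2 < Nat.card E := by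
      have h5 : 0 < 2 ^ i := by positivity
      have h6 : Nat.card A * 2 ≤ Nat.card A * 2 ^ (i + 1) := by
        apply Nat.mul_le_mul_left
        rw [pow_succ]
        omega
      rw [hE, pow_succ, ← hcard]
      have h7 : 0 < Nat.card A := Nat.card_pos
      omega
    obtain ⟨u, huE, huA⟩ : ∃ u ∈ E, u ∉ A := by
      by_contra hcon
      push Not at hcon
      have : E ≤ A := hcon
      have h8 := Subgroup.card_le_of_le this
      omega
    obtain ⟨h1, h2⟩ := hsup u huE huA
    obtain ⟨v, hvE, hvA⟩ : ∃ v ∈ E, v ∉ A ⊔ zpowers u := by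
      by_contra hcon
      push Not at hcon
      have : E ≤ A ⊔ zpowers u := hcon
      have h8 := Subgroup.card_le_of_le this
      have h9 := card_sup_zpowers_le (A := A) (hEi u huE) (fun a ha => hEc a (hA ha) u huE)
      omega
    have hvA' : v ∉ A := fun h => hvA ((le_sup_left : A ≤ A ⊔ zpowers u) h)
    have huvE : u * v ∈ E := E.mul_mem huE hvE
    have huvA : u * v ∉ A := by
      intro h
      apply hvA
      have huinv : u⁻¹ = u := inv_eq_of_mul_eq_one_left (hEi u huE)
      have h10 : v = u * (u * v) := by rw [← mul_assoc, hEi u huE, one_mul]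
      rw [h10]
      exact Subgroup.mul_mem _ ((le_sup_right : zpowers u ≤ A ⊔ zpowers u) (Subgroup.mem_zpowers u))
        ((le_sup_left : A ≤ A ⊔ zpowers u) h)
    obtain ⟨h3, h4⟩ := hsup v hvE hvA'
    obtain ⟨h5, h6⟩ := hsup (u * v) huvE huvA
    -- in the centralizer of `A`
    let X : Subgroup G := centralizer (A : Set G)
    have hEX : ∀ w ∈ E, w ∈ X := fun w hw =>
      Subgroup.mem_centralizer_iff.mpr fun a ha => hEc a (hA ha) w hw
    let u' : X := ⟨u, hEX u huE⟩
    let v' : X := ⟨v, hEX v hvE⟩
    have hord : ∀ w ∈ E, w ∉ A → ∀ hwX : w ∈ X, orderOf (⟨w, hwX⟩ : X) = 2 := by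
      intro w hw hwA hwX
      haveI : Fact (Nat.Prime 2) := ⟨Nat.prime_two⟩
      apply orderOf_eq_prime
      · apply Subtype.ext
        show w ^ 2 = 1
        rw [pow_two]
        exact hEi w hw
      · intro h1
        apply hwA
        have : w = 1 := congrArg (fun z : X => (z : G)) h1
        rw [this]
        exact A.one_mem
    have hcent : ∀ w ∈ E, ∀ hwX : w ∈ X, Nat.card (centralizer ({(⟨w, hwX⟩ : X)} : Set X)) ≤
        Nat.card (centralizer ((A ⊔ zpowers w : Subgroup G) : Set G)) := by
      intro w hw hwX
      apply Nat.card_le_card_of_injective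
        (fun c : centralizer ({(⟨w, hwX⟩ : X)} : Set X) =>
          (⟨c.1.1, by
            rw [Subgroup.mem_centralizer_iff]
            intro h hh
            have h11 : A ⊔ zpowers w ≤ centralizer ({c.1.1} : Set G) := by
              apply sup_le
              · intro a ha
                rw [Subgroup.mem_centralizer_iff]
                rintro z rfl
                exact (Subgroup.mem_centralizer_iff.mp c.1.2 a ha).symm
              · rw [Subgroup.zpowers_le, Subgroup.mem_centralizer_iff]
                rintro z rfl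
                have h12 := Subgroup.mem_centralizer_iff.mp c.2 ⟨w, hwX⟩ rfl
                exact (congrArg (fun z : X => (z : G)) h12).symm
            have h13 := Subgroup.mem_centralizer_iff.mp (h11 hh) c.1.1 rfl
            exact h13.symm⟩ : centralizer ((A ⊔ zpowers w : Subgroup G) : Set G)))
      intro c d hcd
      apply Subtype.ext
      apply Subtype.ext
      exact congrArg (fun z : centralizer ((A ⊔ zpowers w : Subgroup G) : Set G) => (z : G)) hcd
    have hXa : (Nat.card X).factorization 2 ≤ a := by
      refine le_trans ?_ hGa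
      exact (Nat.factorization_le_iff_dvd Nat.card_pos.ne' Nat.card_pos.ne').mpr
        (Subgroup.card_subgroup_dvd_card X) 2
    have hb := card_le_of_four_group u' v'
      (hord u huE huA _) (hord v hvE hvA' _)
      (Subtype.ext (hEc u huE v hvE))
      (by
        intro h
        apply hvA
        have : v = u := congrArg (fun z : X => (z : G)) h
        rw [this]
        exact (le_sup_right : zpowers u ≤ A ⊔ zpowers u) (Subgroup.mem_zpowers u))
      ((hcent u huE _).trans (ih _ h1 h2))
      ((hcent v hvE _).trans (ih _ h3 h4))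
      ((hcent (u * v) huvE (hEX _ huvE)).trans (ih _ h5 h6))
      hXa
    exact hb

theorem result (a : ℕ) : ∃ N : ℕ, ∀ (G : Type u) [Group G] [Finite G] (M : Ideal Cfsg.AlgInt) (r : ℕ) (P : Sylow 2 G), Cfsg.IsPModular 2 M → Nat.card P = 2 ^ a → (∀ B : Set (Cfsg.IrrCharacter G), Cfsg.IsPBlock M B → B ≠ Cfsg.principalBlock M G → Cfsg.blockDefect 2 B < r) → (∃ E : Subgroup G, E ≤ (P : Subgroup G) ∧ IsMulCommutative E ∧ (∀ x ∈ E, x * x = 1) ∧ Nat.card E = 2 ^ (r + 1)) → Nat.card G ≤ N := by
  classical
  letI : Fact (Nat.Prime 2) := ⟨Nat.prime_two⟩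
  -- the bound for groups with only the principal block
  choose Nb hNb using fun a' : ℕ => Cfsg.Agent.S4718.result.{u} 2 a'
  let N₀ : ℕ := ∑ a' ∈ Finset.range (a + 1), Nb a'
  have hN₀ : ∀ (H : Type u) [Group H] [Finite H] (M : Ideal Cfsg.AlgInt), IsPModular 2 M →
      (Nat.card H).factorization 2 ≤ a →
      (∀ B : Set (IrrCharacter H), IsPBlock M B → B = principalBlock M H) → Nat.card H ≤ N₀ := by
    intro H _ _ M hM ha hB
    have h1 := hNb _ H M hM rfl hB
    refine h1.trans ?_
    exact Finset.single_le_sum (f := Nb) (fun _ _ => Nat.zero_le _)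
      (Finset.mem_range.mpr (by omega))
  refine ⟨∑ i ∈ Finset.range (a + 1), Nrec N₀ a i, ?_⟩
  intro G _ _ M r P hM hP hB ⟨E, hEP, hEcomm, hEi, hE⟩
  have hGa : (Nat.card G).factorization 2 = a := by
    have h1 := P.card_eq_multiplicity
    rw [hP] at h1
    exact (Nat.pow_right_injective (le_refl 2) h1).symm
  have hEc : ∀ x ∈ E, ∀ y ∈ E, x * y = y * x := by
    intro x hx y hy
    have := mul_comm' (⟨x, hx⟩ : E) ⟨y, hy⟩
    exact congrArg (fun z : E => (z : G)) this
  have h0 : ∀ A : Subgroup G, A ≤ E → Nat.card A = 2 ^ r →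
      Nat.card (centralizer (A : Set G)) ≤ N₀ := by
    intro A hA hAcard
    apply hN₀ _ M hM
    · rw [← hGa]
      exact (Nat.factorization_le_iff_dvd Nat.card_pos.ne' Nat.card_pos.ne').mpr
        (Subgroup.card_subgroup_dvd_card _) 2
    · intro B hBb
      refine all_principal hM hB A ?_ hAcard B hBb
      intro x hx
      rw [Subgroup.mem_centralizer_iff]
      intro y hy
      exact hEc y (hA hy) x (hA hx)
  have h1 := card_centralizer_le (N₀ := N₀) (a := a) hGa.le E hEc hEi hE h0 r ⊥ bot_le (by simp)
  have h2 : Nat.card G = Nat.card (centralizer (((⊥ : Subgroup G)) : Set G)) := by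
    have h3 : centralizer (((⊥ : Subgroup G)) : Set G) = ⊤ := by
      ext x
      simp [Subgroup.mem_centralizer_iff]
    rw [h3]
    exact (Nat.card_congr Subgroup.topEquiv.toEquiv).symm
  rw [h2]
  have hr : r + 1 ≤ a := by
    have h3 : Nat.card E ∣ Nat.card P := Subgroup.card_dvd_of_le hEP
    rw [hE, hP] at h3
    exact (Nat.pow_dvd_pow_iff_le_right (by norm_num)).mp h3
  refine h1.trans ?_
  exact Finset.single_le_sum (f := Nrec N₀ a) (fun _ _ => Nat.zero_le _)
    (Finset.mem_range.mpr (by omega))

end Cfsg.Agent.S4719
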