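import Mathlib
import Cfsg.Statements.S4720
import Cfsg.Agent.Lib.BlockSection
import Cfsg.Agent.Lib.BlockQ

set_option autoImplicit false
set_option linter.unusedSectionVars false
set_option linter.unusedVariables false
set_option linter.style.haveILetI false
open Cfsg

namespace Cfsg.Agent.S4720

open Cfsg.Agent.Lib.CharBasic Cfsg.Agent.Lib.CharInd Cfsg.Agent.Lib.CharIntegrality
open Cfsg.Agent.Lib.BlockSection Cfsg.Agent.Lib.BlockQ Cfsg.Agent.Lib.BlkBasic
open scoped ComplexConjugate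

universe u

theorem extendByZero_coe {G : Type u} [Group G] (H : Subgroup G) (θ : H → ℂ) (h : H) :
    extendByZero H θ (h : G) = θ h :=
  Subtype.val_injective.extend_apply θ 0 h

theorem sum_inv_mul {G : Type u} [Group G] [Fintype G] {P : Subgroup G} [Fintype P]
    (χ : IrrCharacter G) (θ : P → ℂ) :
    ∑ y : P, (χ : G → ℂ) (y : G) * θ y⁻¹ = ∑ y : P, conj ((χ : G → ℂ) (y : G)) * θ y := by
  rw [← Equiv.sum_comp (Equiv.inv P)]
  refine Finset.sum_congr rfl fun y _ => ?_
  simp only [Equiv.inv_apply, inv_inv, Subgroup.coe_inv]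
  rw [char_conj_eq_inv (IsIrrCharacter.isCharacter χ.2)]

theorem conj_sum_inv_mul {G : Type u} [Group G] [Fintype G] {P : Subgroup G} [Fintype P]
    (χ : IrrCharacter G) (θ : P → ℂ) :
    conj (∑ y : P, (χ : G → ℂ) (y : G) * θ y⁻¹) = ∑ y : P, (χ : G → ℂ) (y : G) * conj (θ y) := by
  rw [sum_inv_mul, map_sum]
  refine Finset.sum_congr rfl fun y _ => ?_
  simp

section
variable {G : Type u} [Group G] [Fintype G] {p : ℕ} [Fact p.Prime] {M : Ideal AlgInt}

open Classical in
/-- Orbit counting: the `N`-conjugates of `y` in `P`. -/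
theorem sum_conj_orbit {P N : Subgroup G} [Fintype P] [Fintype N] (hPN : P ≤ N)
    (hNN : N ≤ Subgroup.normalizer (P : Set G)) (y : P)
    (hfus : ∀ g : G, g * (y : G) * g⁻¹ ∈ (P : Set G) →
      ∃ n ∈ N, n * (y : G) * n⁻¹ = g * (y : G) * g⁻¹) (F : P → ℂ) :
    ∑ x : N, conj (extendByZero P F ((x : G) * (y : G) * (x : G)⁻¹)) =
      (Nat.card ↥(N ⊓ Subgroup.centralizer ({(y : G)} : Set G)) : ℂ) *
        ∑ y' : P, if IsConj (y : G) (y' : G) then conj (F y') else 0 := by
  classical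
  set Y : N := ⟨y, hPN y.2⟩ with hY
  set E : N → ℂ := fun c => conj (extendByZero P F (c : G)) with hE
  have h1 : ∑ x : N, conj (extendByZero P F ((x : G) * (y : G) * (x : G)⁻¹)) =
      ∑ x : N, E (x⁻¹ * Y * x) := by
    rw [← Equiv.sum_comp (Equiv.inv N)]
    refine Finset.sum_congr rfl fun x _ => ?_
    simp [hE, hY]
  rw [h1, sum_conj_eq_card_mul]
  congr 1
  · -- the centralizers
    have h2 : (Subgroup.centralizer ({Y} : Set N)).map N.subtype =
        N ⊓ Subgroup.centralizer ({(y : G)} : Set G) := by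
      ext u
      constructor
      · rintro ⟨v, hv, rfl⟩
        have hv' : v ∈ Subgroup.centralizer ({Y} : Set N) := hv
        rw [Subgroup.mem_centralizer_singleton_iff] at hv'
        refine ⟨v.2, ?_⟩
        show (v : G) ∈ Subgroup.centralizer ({(y : G)} : Set G)
        rw [Subgroup.mem_centralizer_singleton_iff]
        exact congrArg Subtype.val hv'
      · rintro ⟨hu1, hu2⟩
        refine ⟨⟨u, hu1⟩, ?_, rfl⟩
        show (⟨u, hu1⟩ : N) ∈ Subgroup.centralizer ({Y} : Set N)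
        rw [Subgroup.mem_centralizer_singleton_iff]
        apply Subtype.ext
        have hu3 : u ∈ Subgroup.centralizer ({(y : G)} : Set G) := hu2
        rw [Subgroup.mem_centralizer_singleton_iff] at hu3
        exact hu3
    rw [← h2]
    congr 1
    exact Subgroup.card_map_of_injective N.subtype_injective |>.symm
  · symm
    refine Finset.sum_of_injOn (fun y' : P => (⟨y', hPN y'.2⟩ : N)) ?_ (fun _ _ => Finset.mem_univ _)
      ?_ ?_
    · intro a _ b _ hab
      have := congrArg Subtype.val hab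
      exact Subtype.ext this
    · intro c _ hc
      have h3 : ¬ IsConj Y c := by
        intro h4
        obtain ⟨n, hn⟩ := isConj_iff.1 h4
        apply hc
        have h5 : (c : G) = (n : G) * (y : G) * (n : G)⁻¹ := by
          rw [← hn]
          rfl
        have h6 : (c : G) ∈ P := by
          rw [h5]
          exact (Subgroup.mem_normalizer_iff.1 (hNN n.2) _).1 y.2
        exact ⟨⟨c, h6⟩, by simp, Subtype.ext rfl⟩
      rw [classIndicator_of_not_conj h3]
      simp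
    · intro y' _
      by_cases h3 : IsConj (y : G) (y' : G)
      · rw [if_pos h3]
        have h4 : IsConj Y (⟨y', hPN y'.2⟩ : N) := by
          obtain ⟨g, hg⟩ := isConj_iff.1 h3
          obtain ⟨n, hn, hn2⟩ := hfus g (by rw [hg]; exact y'.2)
          refine isConj_iff.2 ⟨⟨n, hn⟩, Subtype.ext ?_⟩
          show (n : G) * y * n⁻¹ = y'
          rw [hn2, hg]
        rw [classIndicator_of_conj h4]
        simp only [hE, Int.cast_one, one_mul]
        rw [extendByZero_coe]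
      · rw [if_neg h3]
        have h4 : ¬ IsConj Y (⟨y', hPN y'.2⟩ : N) := by
          intro h5
          obtain ⟨n, hn⟩ := isConj_iff.1 h5
          apply h3
          refine isConj_iff.2 ⟨n, ?_⟩
          exact congrArg Subtype.val hn
        rw [classIndicator_of_not_conj h4]
        simp

theorem main {P N : Subgroup G} [Fintype P] [Fintype N] (hM : IsPModular p M) (hP : IsPGroup p P)
    (hPN : P ≤ N) (hNN : N ≤ Subgroup.normalizer (P : Set G)) {U : Set G}
    (hfus : ∀ u ∈ U, ∀ g : G, g * u * g⁻¹ ∈ (P : Set G) → ∃ n ∈ N, n * u * n⁻¹ = g * u * g⁻¹)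
    (w : ℚ)
    (hw : ∀ y ∈ U, ((∑ᶠ ψ ∈ principalBlock M ↥(Subgroup.centralizer ({y} : Set G)), charDegree (ψ : ↥(Subgroup.centralizer ({y} : Set G)) → ℂ) ^ 2) : ℚ) = w * Nat.card ↥(N ⊓ Subgroup.centralizer ({y} : Set G)))
    (θ η : ↥P → ℂ) (hθU : ∀ y : ↥P, (y : G) ∉ U → θ y = 0) :
    ∑ᶠ χ ∈ principalBlock M G, ((Nat.card ↥P : ℂ)⁻¹ * ∑ y : ↥P, (χ : G → ℂ) (y : G) * θ y⁻¹) * conj ((Nat.card ↥P : ℂ)⁻¹ * ∑ y : ↥P, (χ : G → ℂ) (y : G) * η y⁻¹) = ((w : ℂ) / ((Nat.card ↥P : ℂ) ^ 2)) * ∑ y : ↥P, θ y * conj (∑ x : ↥N, extendByZero P η ((x : G) * (y : G) * (x : G)⁻¹)) := by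
  classical
  haveI := hM.2.1.isPrime
  have hpel : ∀ y : P, ∃ k : ℕ, orderOf (y : G) = p ^ k := by
    intro y
    obtain ⟨k, hk⟩ := IsPGroup.iff_orderOf.mp hP y
    exact ⟨k, by rw [Subgroup.orderOf_coe, hk]⟩
  set c : ℂ := (Nat.card ↥P : ℂ)⁻¹ with hc
  have h1 : ∀ χ : IrrCharacter G, (c * ∑ y : ↥P, (χ : G → ℂ) (y : G) * θ y⁻¹) *
      conj (c * ∑ y : ↥P, (χ : G → ℂ) (y : G) * η y⁻¹) =
      c ^ 2 * ∑ y : P, θ y * ∑ y' : P, conj (η y') * ((χ : G → ℂ) (y' : G) * conj ((χ : G → ℂ) (y : G))) := by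
    intro χ
    rw [sum_inv_mul, map_mul, conj_sum_inv_mul, hc, map_inv₀, map_natCast]
    rw [mul_mul_mul_comm, sq, Finset.sum_mul_sum]
    congr 1
    refine Finset.sum_congr rfl fun y _ => ?_
    rw [Finset.mul_sum]
    refine Finset.sum_congr rfl fun y' _ => ?_
    ring
  simp_rw [h1]
  rw [finsum_mem_eq_sum_bF]
  rw [← Finset.mul_sum]
  have h2 : ∑ χ ∈ bF (principalBlock M G), ∑ y : P, θ y * ∑ y' : P, conj (η y') *
      ((χ : G → ℂ) (y' : G) * conj ((χ : G → ℂ) (y : G))) =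
      ∑ y : P, θ y * ∑ y' : P, conj (η y') * ∑ χ ∈ bF (principalBlock M G),
      ((χ : G → ℂ) (y' : G) * conj ((χ : G → ℂ) (y : G))) := by
    rw [Finset.sum_comm]
    refine Finset.sum_congr rfl fun y _ => ?_
    rw [← Finset.mul_sum, Finset.sum_comm]
    congr 1
    refine Finset.sum_congr rfl fun y' _ => ?_
    rw [← Finset.mul_sum]
  rw [h2]
  have h3 : c ^ 2 = ((Nat.card ↥P : ℂ) ^ 2)⁻¹ := by
    rw [hc, inv_pow]
  rw [h3, div_eq_mul_inv, mul_comm (w : ℂ), mul_assoc, Finset.mul_sum (a := (w : ℂ))]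
  congr 1
  refine Finset.sum_congr rfl fun y _ => ?_
  by_cases hy : (y : G) ∈ U
  · rw [mul_left_comm]
    congr 1
    -- fix `y ∈ U`
    letI : Fintype (Subgroup.centralizer ({(y : G)} : Set G)) := Fintype.ofFinite _
    have h4 : ∀ y' : P, ∑ χ ∈ bF (principalBlock M G),
        ((χ : G → ℂ) (y' : G) * conj ((χ : G → ℂ) (y : G))) =
        if IsConj (y : G) (y' : G) then
          (w : ℂ) * (Nat.card ↥(N ⊓ Subgroup.centralizer ({(y : G)} : Set G)) : ℂ) else 0 := by
      intro y'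
      by_cases h5 : IsConj (y : G) (y' : G)
      · rw [if_pos h5]
        have h6 : ∀ χ : IrrCharacter G, (χ : G → ℂ) (y' : G) = (χ : G → ℂ) (y : G) := by
          intro χ
          obtain ⟨g, hg⟩ := isConj_iff.1 h5
          rw [← hg]
          exact isClassFunction_of_isCharacter (IsIrrCharacter.isCharacter χ.2) _ _
        simp_rw [h6]
        rw [← finsum_mem_eq_sum_bF, sum_principal_norm hM (hpel y) (H := Subgroup.centralizer ({(y : G)} : Set G)) rfl]
        have h7 := hw y hy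
        rw [finsum_mem_eq_sum_bF] at h7 ⊢
        have h8 : ((∑ ψ ∈ bF (principalBlock M (Subgroup.centralizer ({(y : G)} : Set G))), ((charDegree (ψ : ↥(Subgroup.centralizer ({(y : G)} : Set G)) → ℂ) : ℚ) ^ 2) : ℚ) : ℂ) =
            ((w * (Nat.card ↥(N ⊓ Subgroup.centralizer ({(y : G)} : Set G)) : ℚ) : ℚ) : ℂ) := by
          rw [h7]
        push_cast at h8
        exact h8
      · rw [if_neg h5]
        rw [← finsum_mem_eq_sum_bF]
        exact sum_block_pelement_eq_zero hM (hpel y') (hpel y) (fun h => h5 h.symm)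
          (Cfsg.Agent.Lib.BlockNormal.isPBlock_principalBlock M)
    simp_rw [h4]
    rw [map_sum]
    rw [sum_conj_orbit hPN hNN y (hfus y hy) η]
    rw [Finset.mul_sum, Finset.mul_sum]
    refine Finset.sum_congr rfl fun y' _ => ?_
    split_ifs <;> ring
  · rw [hθU y hy]
    simp

end

/-- Let p be a prime, M a maximal ideal of the algebraic integers containing p, P a p-subgroup of the finite group G, N a subgroup with P ≤ N ≤ N_G(P), and U a nonempty subset of P normalized by N such that an element of U and an element of P that are conjugate in G are already conjugate in N, and such that λ(C_G(y)) = w·#C_N(y) for every y ∈ U with one rational number w, where λ(X) denotes the sum of the squares of the degrees of the irreducible characters in the principal p-block of X. For a complex function θ on P and χ in the principal block of G put a_χ(θ) = #P⁻¹ Σ_{y ∈ P} χ(y) θ(y⁻¹). Then for generalized characters θ, η of P with θ vanishing outside U,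 Σ_χ a_χ(θ)·conj(a_χ(η)) = (w/#P²)·Σ_{y ∈ P} θ(y)·conj(Σ_{x ∈ N} η(x y x⁻¹)) (η extended by zero off P; the conjugates lie in P), the first sum over the principal p-block of G. -/
theorem result {G : Type*} [Group G] [Finite G] (p : ℕ) [Fact p.Prime] (M : Ideal Cfsg.AlgInt) (hM : Cfsg.IsPModular p M) (P : Subgroup G) (hP : IsPGroup p P) (N : Subgroup G) (hPN : P ≤ N) (hNN : N ≤ Subgroup.normalizer (P : Set G)) (U : Set G) (hUne : U.Nonempty) (hUP : U ⊆ (P : Set G)) (hUN : ∀ n ∈ N, ∀ u ∈ U, n * u * n⁻¹ ∈ U) (hfus : ∀ u ∈ U, ∀ g : G, g * u * g⁻¹ ∈ (P : Set G) → ∃ n ∈ N, n * u * n⁻¹ = g * u * g⁻¹) (w : ℚ) (hw : ∀ y ∈ U, ((∑ᶠ ψ ∈ Cfsg.principalBlock M ↥(Subgroup.centralizer ({y} : Set G)), Cfsg.charDegree (ψ : ↥(Subgroup.centralizer ({y} : Set G)) → ℂ) ^ 2) : ℚ) = w * Nat.card ↥(N ⊓ Subgroup.centralizer ({y} : Set G))) (θ η : ↥P → ℂ) (hθ : Cfsg.IsGeneralizedCharacter ↥P θ) (hη : Cfsg.IsGeneralizedCharacter ↥P η) (hθU : ∀ y : ↥P, (y : G) ∉ U → θ y =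 0) : ∑ᶠ χ ∈ Cfsg.principalBlock M G, ((Nat.card ↥P : ℂ)⁻¹ * ∑ᶠ y : ↥P, (χ : G → ℂ) (y : G) * θ y⁻¹) * (starRingEnd ℂ) ((Nat.card ↥P : ℂ)⁻¹ * ∑ᶠ y : ↥P, (χ : G → ℂ) (y : G) * η y⁻¹) = ((w : ℂ) / ((Nat.card ↥P : ℂ) ^ 2)) * ∑ᶠ y : ↥P, θ y * (starRingEnd ℂ) (∑ᶠ x : ↥N, Cfsg.extendByZero P η ((x : G) * (y : G) * (x : G)⁻¹)) := by
  classical
  letI := Fintype.ofFinite G
  letI : Fintype P := Fintype.ofFinite _
  letI : Fintype N := Fintype.ofFinite _
  have e1 : ∀ f : P → ℂ, ∑ᶠ y : P, f y = ∑ y : P, f y := fun f => finsum_eq_sum_of_fintype f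
  have e2 : ∀ f : N → ℂ, ∑ᶠ y : N, f y = ∑ y : N, f y := fun f => finsum_eq_sum_of_fintype f
  simp only [e1, e2]
  exact main hM hP hPN hNN hfus w hw θ η hθU

end Cfsg.Agent.S4720
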