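import Mathlib
import Cfsg.Agent.Lib.FrobThreeE
import Cfsg.Statements.S4721

set_option autoImplicit false
open Cfsg

namespace Cfsg.Agent.S4721

/-- Let p be a prime, M a maximal ideal of the algebraic integers containing p, and G a finite group with a nontrivial abelian Sylow p-subgroup P, N = N_G(P), C = C_G(P), such that N/C is cyclic of order 3, #P > 4, and C_G(y) ∩ N = C for every non-identity y ∈ P. Then the principal p-block is the disjoint union of a set X of exactly 3 characters containing the principal character and a set Y of (#P − 1)/3 characters, with signs a_χ = ±1 (χ ∈ X, a = 1 at the principal character) and δ = ±1 such that every χ ∈ X takes the value a_χ at every element whose p-part is a non-identity element of P, and there is a map ζ from the non-principal linear characters of P onto Y, constant on N-conjugacy classes, with ζ_ψ(z) = δ·Σ ψ'(y) over the N-orbit of ψ, for z with p-part y ≠ 1 in P. If moreover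 G has an involution lying in no proper normal subgroup of G, then exactly two of the three numbers −δ and a_χ (χ ∈ X non-principal) equal −1, and the product of the degrees of the two non-principal members of X and of any member of Y is a perfect square. -/
theorem result {G : Type*} [Group G] [Finite G] (p : ℕ) [Fact p.Prime] (M : Ideal Cfsg.AlgInt) (hM : Cfsg.IsPModular p M) (P : Sylow p G) (hab : IsMulCommutative P) (hP1 : Nat.card P ≠ 1) (hCN : (Subgroup.centralizer ((P : Subgroup G) : Set G)).relIndex (Subgroup.normalizer ((P : Subgroup G) : Set G)) = 3) (hcyc : ∃ g : G, g ∈ Subgroup.normalizer ((P : Subgroup G) : Set G) ∧ Subgroup.centralizer ((P : Subgroup G) : Set G) ⊔ Subgroup.zpowers g = Subgroup.normalizer ((P : Subgroup G) : Set G)) (hm2 : 3 + 1 < Nat.card P) (hfrob : ∀ y : G, y ∈ (P : Subgroup G) → y ≠ 1 → Subgroup.centralizer ({y} : Set G) ⊓ Subgroup.normalizer ((P : Subgroup G) : Set G) = Subgroup.centralizer ((P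 : Subgroup G) : Set G)) : ∃ (X Y : Set (Cfsg.IrrCharacter G)), Cfsg.principalBlock M G = X ∪ Y ∧ Disjoint X Y ∧ Nat.card X = 3 ∧ Nat.card Y = (Nat.card P - 1) / 3 ∧ (∃ χ₁ ∈ X, (χ₁ : G → ℂ) = fun _ => 1) ∧ ∃ (a : Cfsg.IrrCharacter G → ℤ) (δ : ℤ) (ζ : (↥(P : Subgroup G) →* ℂˣ) → Cfsg.IrrCharacter G), (δ = 1 ∨ δ = -1) ∧ (∀ χ ∈ X, (a χ = 1 ∨ a χ = -1) ∧ ∀ z y : G, Cfsg.IsPPart p z y → y ∈ (P : Subgroup G) → y ≠ 1 → (χ : G → ℂ) z = (a χ : ℂ)) ∧ (∀ ψ : ↥(P : Subgroup G) →* ℂˣ, ψ ≠ 1 → ζ ψ ∈ Y) ∧ (∀ η ∈ Y, ∃ ψ : ↥(P : Subgroup G) →* ℂˣ, ψ ≠ 1 ∧ ζ ψ = η) ∧ (∀ ψ ψ' : ↥(P : Subgroup G) →* ℂˣ, ψ ≠ 1 → (∃ n : G, n ∈ Subgroup.normalizer ((P : Subgroup G) : Set G) ∧ ∀ w w' : ↥(P : Subgroup G), (w' : G) = n * w * n⁻¹ → ψ' w' = ψ w) → ζ ψ' = ζ ψ) ∧ (∀ ψ : ↥(P : Subgroup G) →* ℂˣ, ψ ≠ 1 → ∀ (z : G) (y : ↥(P : Subgroup G)), Cfsg.IsPPart p z (y : G) → (y : G) ≠ 1 → (ζ ψ : G → ℂ) z = (δ : ℂ) * ∑ᶠ ψ' ∈ {ψ' : ↥(P : Subgroup G) →* ℂˣ | ∃ n : G, n ∈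 Subgroup.normalizer ((P : Subgroup G) : Set G) ∧ ∀ w w' : ↥(P : Subgroup G), (w' : G) = n * w * n⁻¹ → ψ' w' = ψ w}, ((ψ' y : ℂˣ) : ℂ)) ∧ ((∃ t : G, orderOf t = 2 ∧ ∀ K : Subgroup G, K.Normal → t ∈ K → K = ⊤) → Nat.card {χ : Cfsg.IrrCharacter G // χ ∈ X ∧ (χ : G → ℂ) ≠ (fun _ => 1) ∧ a χ = -1} + (if δ = 1 then 1 else 0) = 2 ∧ ∀ η ∈ Y, IsSquare (Cfsg.charDegree (η : G → ℂ) * ∏ᶠ χ ∈ {χ : Cfsg.IrrCharacter G | χ ∈ X ∧ (χ : G → ℂ) ≠ fun _ => 1}, Cfsg.charDegree (χ : G → ℂ))) := by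
  classical
  letI : Fintype G := Fintype.ofFinite G
  have hcomm : ∀ a ∈ (P : Subgroup G), ∀ b ∈ (P : Subgroup G), a * b = b * a := fun a ha b hb =>
    congrArg Subtype.val (hab.is_comm.comm (⟨a, ha⟩ : (P : Subgroup G)) ⟨b, hb⟩)
  have H : Cfsg.Agent.Lib.FrobBlock.Hyp P := ⟨hcomm, hfrob⟩
  letI : Fintype (P : Subgroup G) := Fintype.ofFinite _
  letI : Fintype (Subgroup.normalizer ((P : Subgroup G) : Set G)) := Fintype.ofFinite _
  haveI : Finite (↥(P : Subgroup G) →* ℂˣ) := Cfsg.Agent.Lib.FrobBlock.finite_dual H.commA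
  letI : Fintype (↥(P : Subgroup G) →* ℂˣ) := Fintype.ofFinite _
  have hidx : ((Subgroup.centralizer ((P : Subgroup G) : Set G)).subgroupOf (Subgroup.normalizer ((P : Subgroup G) : Set G))).index = 3 := hCN
  have hN : Nat.card (Subgroup.normalizer ((P : Subgroup G) : Set G)) =
      3 * Nat.card (Subgroup.centralizer ((P : Subgroup G) : Set G)) := by
    have h1 := ((Subgroup.centralizer ((P : Subgroup G) : Set G)).subgroupOf
      (Subgroup.normalizer ((P : Subgroup G) : Set G))).card_mul_index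
    rw [Cfsg.Agent.Lib.FrobBlock.card_sub_eq, hidx] at h1
    rw [← h1, mul_comm]
  obtain ⟨Xf, Yf, a, δ, ζ, r, hr, hU, hD, hXc, hYc, h1X, ha1, hδ, hXs, hvX, hζY, hYζ, hiff, hvY, hagree, hlin⟩ :=
    Cfsg.Agent.Lib.FrobThree.main3 (M := M) H hM hN hm2
  have Dt : Cfsg.Agent.Lib.FrobThreeB.Dat M P Xf Yf a δ ζ r :=
    ⟨hr, hU, hD, hXc, hYc, h1X, ha1, hδ, hXs, hvX, hζY, hYζ, hiff, hvY, hagree, hlin⟩
  have hrd : (Nat.card P - 1) / 3 = r := Nat.div_eq_of_eq_mul_left (by omega) hr.symm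
  have hB : ∀ χ, χ ∈ Cfsg.principalBlock M G ↔ χ ∈ Xf ∨ χ ∈ Yf := by
    intro χ
    rw [← Cfsg.Agent.Lib.SingConst.mem_B₀, ← hU, Finset.mem_union]
  have hconj : ∀ ψ ψ' : ↥(P : Subgroup G) →* ℂˣ, (∃ n : G, n ∈ Subgroup.normalizer ((P : Subgroup G) : Set G) ∧
      ∀ w w' : ↥(P : Subgroup G), (w' : G) = n * w * n⁻¹ → ψ' w' = ψ w) ↔
      ∃ n : Subgroup.normalizer ((P : Subgroup G) : Set G), n • ψ = ψ' := by
    intro ψ ψ'
    constructor
    · rintro ⟨n, hn, h⟩
      refine ⟨⟨n, hn⟩, ?_⟩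
      ext w'
      rw [Cfsg.Agent.Lib.DefectOne.smul_apply, h (Cfsg.Agent.Lib.DefectOne.cj (P : Subgroup G) ⟨n, hn⟩ w') w']
      simp only [Cfsg.Agent.Lib.DefectOne.cj_coe]
      group
    · rintro ⟨n, rfl⟩
      refine ⟨n, n.2, fun w w' h => ?_⟩
      rw [Cfsg.Agent.Lib.DefectOne.smul_apply]
      congr 1
      apply Subtype.ext
      simp only [Cfsg.Agent.Lib.DefectOne.cj_coe]
      rw [h]
      group
  refine ⟨(Xf : Set _), (Yf : Set _), ?_, ?_, ?_, ?_, ?_, a, δ, ζ, hδ, ?_, ?_, ?_, ?_, ?_, ?_⟩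
  · ext χ
    rw [hB]
    simp
  · exact Finset.disjoint_coe.2 hD
  · simpa using hXc
  · rw [hrd]
    simpa using hYc
  · exact ⟨_, h1X, rfl⟩
  · intro χ hχ
    refine ⟨hXs χ hχ, fun z y hzy hy hy1 => ?_⟩
    rw [H.value_eq hM ((hB χ).2 (Or.inl hχ)) hzy hy hy1]
    exact hvX χ hχ ⟨y, hy⟩ (fun h => hy1 (congrArg Subtype.val h))
  · exact fun ψ hψ => hζY ψ hψ
  · exact fun η hη => hYζ η hη
  · intro ψ ψ' hψ h
    have h1 := (hconj ψ ψ').1 h
    obtain ⟨n, rfl⟩ := h1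
    exact ((hiff ψ _ hψ (Cfsg.Agent.Lib.DefectOne.smul_ne_one _ n hψ)).2 ⟨n, rfl⟩).symm
  · intro ψ hψ z y hzy hy1
    rw [H.value_eq hM ((hB _).2 (Or.inr (hζY ψ hψ))) hzy y.2 hy1]
    rw [hvY ψ hψ y (fun h => hy1 (congrArg Subtype.val h))]
    congr 1
    have hset : {ψ' : ↥(P : Subgroup G) →* ℂˣ | ∃ n : G, n ∈ Subgroup.normalizer ((P : Subgroup G) : Set G) ∧
        ∀ w w' : ↥(P : Subgroup G), (w' : G) = n * w * n⁻¹ → ψ' w' = ψ w} =
        ((Finset.univ.filter fun ψ' : ↥(P : Subgroup G) →* ℂˣ => ∃ n : Subgroup.normalizer ((P : Subgroup G) : Set G), n • ψ = ψ') : Finset _) := by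
      ext ψ'
      simp only [Set.mem_setOf_eq, Finset.coe_filter, Finset.mem_univ, true_and]
      exact hconj ψ ψ'
    rw [hset, finsum_mem_coe_finset, Finset.sum_filter]
    exact (Cfsg.Agent.Lib.FrobThree.orb_eq ψ y _).symm
  · rintro ⟨t, ht, hn⟩
    have htt : t * t = 1 := by
      rw [← sq, ← ht]
      exact pow_orderOf_eq_one t
    have ht1 : t ≠ 1 := by
      rintro rfl
      simp at ht
    -- the case `p = 2`
    by_cases hp2 : p = 2
    · exfalso
      have hord : ∃ k : ℕ, orderOf t = p ^ k := ⟨1, by rw [ht, hp2, pow_one]⟩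
      obtain ⟨c, hc⟩ := Cfsg.Agent.Lib.FrobThreeB.exists_conj_mem_sylow P hord
      refine Cfsg.Agent.Lib.FrobThreeD.two_false (t := ⟨c * t * c⁻¹, hc⟩) H hM hp2 hidx hN Dt hm2 ?_ ?_ ?_
      · intro h
        have h1 := congrArg Subtype.val h
        simp only [Subgroup.coe_one, conj_eq_one_iff] at h1
        exact ht1 h1
      · show c * t * c⁻¹ * (c * t * c⁻¹) = 1
        calc c * t * c⁻¹ * (c * t * c⁻¹) = c * (t * t) * c⁻¹ := by group
          _ = 1 := by rw [htt]; group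
      · intro K hK h
        apply hn K hK
        have h2 := hK.conj_mem _ h c⁻¹
        simpa [mul_assoc] using h2
    obtain ⟨u, v, hu, hv, huv, hX⟩ := Dt.exists_uv
    have hu1 : u ∈ Xf := by rw [hX]; simp
    have hv1 : v ∈ Xf := by rw [hX]; simp
    have hYne : Yf.Nonempty := by
      rw [← Finset.card_pos, hYc]
      omega
    obtain ⟨η₀, hη₀⟩ := hYne
    obtain ⟨hsign, hnot, -⟩ := Cfsg.Agent.Lib.FrobThreeE.odd_clause H hM hp2 hidx Dt hm2 htt ht1 hn hu hv huv hX hη₀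
    have hmem : ∀ χ : Cfsg.IrrCharacter G, (χ ∈ (Xf : Set (Cfsg.IrrCharacter G)) ∧ (χ : G → ℂ) ≠ fun _ => 1) ↔ χ = u ∨ χ = v := by
      intro χ
      have h1 : (χ : G → ℂ) ≠ (fun _ => 1) ↔ χ ≠ Cfsg.Agent.Lib.BlockNormal.irrOne G := by
        constructor
        · rintro h rfl
          exact h rfl
        · intro h h2
          exact h (Subtype.ext h2)
      rw [h1, Finset.mem_coe, hX]
      simp only [Finset.mem_insert, Finset.mem_singleton]
      constructor
      · rintro ⟨h2 | h2 | h2, h3⟩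
        · exact absurd h2 h3
        · exact Or.inl h2
        · exact Or.inr h2
      · rintro (rfl | rfl)
        · exact ⟨Or.inr (Or.inl rfl), hu⟩
        · exact ⟨Or.inr (Or.inr rfl), hv⟩
    constructor
    · have hcard : Nat.card {χ : Cfsg.IrrCharacter G // χ ∈ (Xf : Set (Cfsg.IrrCharacter G)) ∧ (χ : G → ℂ) ≠ (fun _ => 1) ∧ a χ = -1} =
          (({u, v} : Finset (Cfsg.IrrCharacter G)).filter (fun χ => a χ = -1)).card := by
        rw [← Fintype.card_coe, ← Nat.card_eq_fintype_card]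
        refine Nat.card_congr (Equiv.subtypeEquivRight fun χ => ?_)
        simp only [Finset.mem_filter, Finset.mem_insert, Finset.mem_singleton]
        rw [← hmem χ]
        tauto
      rw [hcard]
      rcases hXs u hu1 with h1 | h1 <;> rcases hXs v hv1 with h2 | h2 <;> rcases hδ with h3 | h3
      · exact absurd (by rw [h1, h2, h3] at hsign; exact hsign) (by norm_num)
      · exact absurd ⟨h1, h2, h3⟩ hnot
      · rw [h3, Finset.filter_insert, Finset.filter_singleton, if_neg (by rw [h1]; norm_num), if_pos h2, Finset.card_singleton, if_pos rfl]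
      · exact absurd (by rw [h1, h2, h3] at hsign; exact hsign) (by norm_num)
      · rw [h3, Finset.filter_insert, Finset.filter_singleton, if_pos h1, if_neg (by rw [h2]; norm_num), insert_empty_eq, Finset.card_singleton, if_pos rfl]
      · exact absurd (by rw [h1, h2, h3] at hsign; exact hsign) (by norm_num)
      · exact absurd (by rw [h1, h2, h3] at hsign; exact hsign) (by norm_num)
      · rw [h3, Finset.filter_insert, Finset.filter_singleton, if_pos h1, if_pos h2, Finset.card_pair huv, if_neg (by norm_num)]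
    · intro η hη
      have hset : {χ : Cfsg.IrrCharacter G | χ ∈ (Xf : Set (Cfsg.IrrCharacter G)) ∧ (χ : G → ℂ) ≠ fun _ => 1} =
          (({u, v} : Finset (Cfsg.IrrCharacter G)) : Set _) := by
        ext χ
        simp only [Set.mem_setOf_eq, Finset.coe_insert, Finset.coe_singleton, Set.mem_insert_iff, Set.mem_singleton_iff]
        exact hmem χ
      rw [hset, finprod_mem_coe_finset, Finset.prod_pair huv, mul_comm]
      exact (Cfsg.Agent.Lib.FrobThreeE.odd_clause H hM hp2 hidx Dt hm2 htt ht1 hn hu hv huv hX hη).2.2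


end Cfsg.Agent.S4721
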