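import Mathlib
import Cfsg.Statements.S4725
import Cfsg.Agent.Lib.BlockOrtho
import Cfsg.Agent.Lib.BlockInduced

set_option autoImplicit false
set_option linter.unusedVariables false
set_option linter.style.haveILetI false

namespace Cfsg.Agent.S4725

open Cfsg Cfsg.Agent.Lib.BlockOrtho Cfsg.Agent.Lib.CharBasic Cfsg.Agent.Lib.CharKernel
open Cfsg.Agent.Lib.BlockLocal Cfsg.Agent.Lib.BlockVal Cfsg.Agent.Lib.BlockIdem
open Cfsg.Agent.Lib.BlockInduced Cfsg.Agent.Lib.CharInd
open scoped ComplexConjugate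

theorem result {G : Type*} [Group G] [Fintype G] (p : ℕ) [Fact p.Prime] (M : Ideal Cfsg.AlgInt) (hM : Cfsg.IsPModular p M) (H : Subgroup G) (b : Set (Cfsg.IrrCharacter ↥H)) (B : Set (Cfsg.IrrCharacter G)) (hind : Cfsg.IsInducedBlock M H b B) (hdef : Cfsg.blockDefect p b = Cfsg.blockDefect p B) (ζ : Cfsg.IrrCharacter ↥H) (hζ : ζ ∈ b) (hζ0 : Cfsg.blockHeight p b (ζ : ↥H → ℂ) = 0) : ∃ χ ∈ B, Cfsg.blockHeight p B (χ : G → ℂ) = 0 ∧ ∃ a : ℕ, Cfsg.classInner (Cfsg.indFun H (ζ : ↥H → ℂ)) (χ : G → ℂ) = (a : ℂ) ∧ ¬ p ∣ a := by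
  classical
  letI : Fintype H := Fintype.ofFinite H
  have hp : p.Prime := Fact.out
  have hMp := hM.2.1.isPrime
  obtain ⟨hb, hB, hcong⟩ := hind
  obtain ⟨χ₁, hχ₁B⟩ := hB
  have hχ₁ : χ₁ ∈ B := by
    rw [hχ₁B]
    exact mem_blockOf_self χ₁
  have hB' : IsPBlock M B := ⟨χ₁, hχ₁B⟩
  -- multiplicities
  have hζc : IsCharacter H (ζ : H → ℂ) := IsIrrCharacter.isCharacter ζ.2
  have hind_c : IsCharacter G (indFun H (ζ : H → ℂ)) := indFun_isCharacter H hζc
  have hmult : ∀ χ : IrrCharacter G, ∃ a : ℕ, classInner (indFun H (ζ : H → ℂ)) (χ : G → ℂ) = a :=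
    fun χ => classInner_char_irr hind_c χ.2
  choose a ha using hmult
  -- the idempotent
  set e := blockCoeff B with he
  have heq : e = invF (indB B) := blockCoeff_eq_invF B
  have heC : IsClassFunction G e := by
    rw [heq]
    exact invF_isClassFunction _
  have heR : ∀ g, MemLocalRing M (e g) := memLocalRing_blockCoeff hB'
  have h1 := memLocalIdeal_trunc_sub (M := M) H (ζ : H → ℂ) χ₁ (hcong ζ hζ χ₁ hχ₁) heC heR
  have hom1 : omega (χ₁ : G → ℂ) e = 1 := by
    rw [heq, omega_invF, indB_of_mem hχ₁]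
  rw [hom1] at h1
  set n := H.index * charDegree (ζ : H → ℂ) with hn
  have hdegζ : charDegree (ζ : H → ℂ) ≠ 0 := charDegree_ne_zero ζ.2
  have hidx : H.index ≠ 0 := Subgroup.index_ne_zero_of_finite
  have hn0 : n ≠ 0 := mul_ne_zero hidx hdegζ
  -- the sum
  have h2 : ∑ h : H, e (h : G) * (ζ : H → ℂ) h / (ζ : H → ℂ) 1 =
      ∑ χ : IrrCharacter G, indB B χ * (((charDegree (χ : G → ℂ) * a χ : ℕ) : ℂ) / (n : ℂ)) := by
    have h3 : ∀ g : G, e g = (Nat.card G : ℂ)⁻¹ * ∑ χ : IrrCharacter G,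
        indB B χ * ((χ : G → ℂ) 1 * conj ((χ : G → ℂ) g)) := by
      intro g
      rw [he]
      unfold blockCoeff
      rw [finsum_mem_eq_sum_indB]
    have h4 : ∀ χ : IrrCharacter G, ∑ h : H, (ζ : H → ℂ) h * conj ((χ : G → ℂ) h) =
        (Nat.card H : ℂ) * a χ := by
      intro χ
      have h5 := frobenius H (ζ : H → ℂ) (ψ := (χ : G → ℂ))
        (isClassFunction_of_isCharacter (IsIrrCharacter.isCharacter χ.2))
      rw [ha χ] at h5
      rw [h5]
      unfold classInner
      have : (Nat.card H : ℂ) ≠ 0 := natCard_ne_zero'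
      rw [mul_inv_cancel_left₀ this]
    have hG : (Nat.card G : ℂ) = (Nat.card H : ℂ) * (H.index : ℂ) := by
      exact_mod_cast (Subgroup.card_mul_index H).symm
    have hHne : (Nat.card H : ℂ) ≠ 0 := natCard_ne_zero'
    have hine : (H.index : ℂ) ≠ 0 := by exact_mod_cast hidx
    have hζne : (charDegree (ζ : H → ℂ) : ℂ) ≠ 0 := by exact_mod_cast hdegζ
    have h6 : ∀ χ : IrrCharacter G, indB B χ * (((charDegree (χ : G → ℂ) * a χ : ℕ) : ℂ) / (n : ℂ)) =
        ∑ h : H, (Nat.card G : ℂ)⁻¹ * (indB B χ * ((χ : G → ℂ) 1 * conj ((χ : G → ℂ) h))) *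
          (ζ : H → ℂ) h / (ζ : H → ℂ) 1 := by
      intro χ
      have h7 : ∑ h : H, (Nat.card G : ℂ)⁻¹ * (indB B χ * ((χ : G → ℂ) 1 * conj ((χ : G → ℂ) h))) *
          (ζ : H → ℂ) h / (ζ : H → ℂ) 1 = (Nat.card G : ℂ)⁻¹ * (indB B χ * (χ : G → ℂ) 1) *
            (∑ h : H, (ζ : H → ℂ) h * conj ((χ : G → ℂ) h)) / (ζ : H → ℂ) 1 := by
        rw [Finset.mul_sum, Finset.sum_div]
        refine Finset.sum_congr rfl fun h _ => ?_
        ring
      rw [h7, h4 χ, hG, one_eq_charDegree (IsIrrCharacter.isCharacter χ.2),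
        one_eq_charDegree (IsIrrCharacter.isCharacter ζ.2), hn]
      push_cast
      field_simp
    simp_rw [h6, h3]
    rw [Finset.sum_comm]
    refine Finset.sum_congr rfl fun h _ => ?_
    rw [Finset.mul_sum, Finset.sum_mul, Finset.sum_div]
  rw [h2] at h1
  -- valuations
  set sB := sInf ((fun χ : IrrCharacter G => (charDegree (χ : G → ℂ)).factorization p) '' B) with hsB
  set sb := sInf ((fun χ : IrrCharacter H => (charDegree (χ : H → ℂ)).factorization p) '' b) with hsb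
  have hsbζ : sb ≤ (charDegree (ζ : H → ℂ)).factorization p := Nat.sInf_le ⟨ζ, hζ, rfl⟩
  have hvζ : (charDegree (ζ : H → ℂ)).factorization p = sb := by
    unfold blockHeight at hζ0
    omega
  have hζH : (charDegree (ζ : H → ℂ)).factorization p ≤ (Nat.card H).factorization p :=
    (Nat.factorization_le_iff_dvd hdegζ Nat.card_pos.ne').mpr (charDegree_dvd_card ζ.2) p
  have hsBχ : ∀ χ ∈ B, sB ≤ (charDegree (χ : G → ℂ)).factorization p :=
    fun χ hχ => Nat.sInf_le ⟨χ, hχ, rfl⟩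
  have hχ₁G : (charDegree (χ₁ : G → ℂ)).factorization p ≤ (Nat.card G).factorization p :=
    (Nat.factorization_le_iff_dvd (charDegree_ne_zero χ₁.2) Nat.card_pos.ne').mpr
      (charDegree_dvd_card χ₁.2) p
  have hGH : (Nat.card G).factorization p = (Nat.card H).factorization p + H.index.factorization p := by
    have h3 : Nat.card G = Nat.card H * H.index := (Subgroup.card_mul_index H).symm
    rw [h3, Nat.factorization_mul Nat.card_pos.ne' hidx, Finsupp.add_apply]
  have hvn : n.factorization p = sB := by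
    rw [hn, Nat.factorization_mul hidx hdegζ, Finsupp.add_apply, hvζ]
    unfold blockDefect at hdef
    rw [← hsb, ← hsB] at hdef
    have := hsBχ χ₁ hχ₁
    omega
  -- the conclusion
  by_contra hcon
  push Not at hcon
  apply not_memLocalIdeal_one (M := M)
  have h3 : MemLocalIdeal M (∑ χ : IrrCharacter G, indB B χ *
      (((charDegree (χ : G → ℂ) * a χ : ℕ) : ℂ) / (n : ℂ))) := by
    refine memLocalIdeal_sum _ _ fun χ _ => ?_
    by_cases hχ : χ ∈ B
    · rw [indB_of_mem hχ, one_mul]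
      apply memLocalIdeal_natCast_div_of_dvd hM hn0
      rw [hvn]
      have hdeg0 := charDegree_ne_zero χ.2
      by_cases h4 : blockHeight p B (χ : G → ℂ) = 0
      · have h5 := hcon χ hχ h4 (a χ) (ha χ)
        have h6 : p ^ sB ∣ charDegree (χ : G → ℂ) :=
          (hp.pow_dvd_iff_le_factorization hdeg0).mpr (hsBχ χ hχ)
        rw [pow_succ]
        exact mul_dvd_mul h6 h5
      · have h6 : sB + 1 ≤ (charDegree (χ : G → ℂ)).factorization p := by
          unfold blockHeight at h4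
          rw [← hsB] at h4
          omega
        exact ((hp.pow_dvd_iff_le_factorization hdeg0).mpr h6).trans (Dvd.intro _ rfl)
    · rw [indB_of_not_mem hχ, zero_mul]
      exact memLocalIdeal_zero
  have h4 := memLocalIdeal_sub h3 h1
  rwa [sub_sub_cancel] at h4

end Cfsg.Agent.S4725
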