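import Mathlib
import Cfsg.Statements.S4729
import Cfsg.Agent.Lib.BlockVal
import Cfsg.Agent.Lib.BlockNormal
import Cfsg.Agent.Lib.DetChar
import Cfsg.Agent.Lib.CharValues
import Cfsg.Agent.Lib.CharKernel

set_option autoImplicit false
set_option linter.style.haveILetI false
set_option linter.unusedVariables false
open Cfsg

namespace Cfsg.Agent.S4729

open Cfsg.Agent.Lib.BlockLocal Cfsg.Agent.Lib.BlockIdem Cfsg.Agent.Lib.BlockVal
open Cfsg.Agent.Lib.CharKernel

universe u

variable {G : Type u} [Group G] [Finite G]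

/-- The values at elements centralizing a Sylow subgroup are congruent to the degree. -/
theorem value_congr {p : ℕ} [Fact p.Prime] {M : Ideal AlgInt} (hM : IsPModular p M) (P : Sylow p G)
    {χ : IrrCharacter G} (hχ : χ ∈ principalBlock M G) {x : G}
    (hx : x ∈ Subgroup.centralizer ((P : Subgroup G) : Set G)) :
    MemLocalIdeal M ((χ : G → ℂ) 1 - (χ : G → ℂ) x) := by
  classical
  letI : Fintype G := Fintype.ofFinite G
  haveI := isPrime_of_isPModular hM
  have h1 : (P : Subgroup G) ≤ Subgroup.centralizer ({x} : Set G) := by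
    intro y hy
    rw [Subgroup.mem_centralizer_singleton_iff]
    exact Subgroup.mem_centralizer_iff.mp hx y hy
  have h2 : ¬ p ∣ (Subgroup.centralizer ({x} : Set G)).index := fun h =>
    P.not_dvd_index (h.trans (Subgroup.index_dvd_of_le h1))
  have h3 := hχ x
  have h0 := irr_one_ne_zero' χ.2
  have h4 : centralChar (fun _ : G => (1 : ℂ)) x = ((Subgroup.centralizer ({x} : Set G)).index : ℂ) := by
    simp [centralChar]
  rw [h4] at h3
  have hidx : ¬ MemLocalIdeal M ((Subgroup.centralizer ({x} : Set G)).index : ℂ) :=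
    not_memLocalIdeal_natCast hM h2
  have h5 : ((Subgroup.centralizer ({x} : Set G)).index : ℂ) - centralChar (χ : G → ℂ) x =
      (((χ : G → ℂ) 1 - (χ : G → ℂ) x) * ((χ : G → ℂ) 1)⁻¹) *
        ((Subgroup.centralizer ({x} : Set G)).index : ℂ) := by
    unfold centralChar
    field_simp
  rw [h5] at h3
  have h6 := memLocalIdeal_of_mul_right_unit h3 (memLocalRing_natCast _) hidx
  have h7 := memLocalIdeal_mul_right h6 (memLocalRing_of_isIntegral (isIntegral_irr χ 1))
  rwa [mul_assoc, inv_mul_cancel₀ h0, mul_one] at h7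

/-- **The key step**: a `p'`-element of prime order centralizing a Sylow subgroup acts trivially. -/
theorem false_of_prime_order {p : ℕ} [Fact p.Prime] {M : Ideal AlgInt} (hM : IsPModular p M)
    (hperf : commutator G = ⊤) (P : Sylow p G) {χ : IrrCharacter G} (hχ : χ ∈ principalBlock M G)
    (hfaith : ∀ g : G, (χ : G → ℂ) g = (χ : G → ℂ) 1 → g = 1)
    (hdeg : charDegree (χ : G → ℂ) < 2 * p) {x : G}
    (hx : x ∈ Subgroup.centralizer ((P : Subgroup G) : Set G)) {q : ℕ} (hq : q.Prime) (hqp : q ≠ p)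
    (hord : orderOf x = q) : False := by
  classical
  letI : Fintype G := Fintype.ofFinite G
  haveI := isPrime_of_isPModular hM
  have hpp : p.Prime := Fact.out
  obtain ⟨n, ρ, hρ, hρχ⟩ := χ.2
  have hcar : (χ : G → ℂ) = ρ.character := hρχ.symm
  obtain ⟨b, μ, h1, h2, h3, h4⟩ := Cfsg.Agent.Lib.CharValues.exists_eigenbasis_rep ρ x
  have hone : (χ : G → ℂ) 1 = (Module.finrank ℂ (Fin n → ℂ) : ℂ) := by
    rw [hcar, Representation.char_one]
  have hdeg' : Module.finrank ℂ (Fin n → ℂ) < 2 * p := by
    have h5 := one_eq_charDegree (Cfsg.Agent.Lib.CharBasic.IsIrrCharacter.isCharacter χ.2)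
    rw [hone] at h5
    have h6 : Module.finrank ℂ (Fin n → ℂ) = charDegree (χ : G → ℂ) := by exact_mod_cast h5
    omega
  -- powers
  have hpow : ∀ (k : ℕ) (i : Fin (Module.finrank ℂ (Fin n → ℂ))), ρ (x ^ k) (b i) = μ i ^ k • b i := by
    intro k i
    rw [map_pow]
    induction k with
    | zero => simp
    | succ k ih =>
      rw [pow_succ, Module.End.mul_apply, h1, map_smul, ih, smul_smul, pow_succ]
      rw [mul_comm]
  have hμq : ∀ i, μ i ^ q = 1 := by
    intro i
    have h5 := hpow q i
    have h6 : x ^ q = 1 := by rw [← hord]; exact pow_orderOf_eq_one x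
    rw [h6, map_one, Module.End.one_apply] at h5
    have h7 : (μ i ^ q - 1) • b i = 0 := by
      rw [sub_smul, one_smul, ← h5, sub_self]
    exact sub_eq_zero.mp ((smul_eq_zero.mp h7).resolve_right (b.ne_zero i))
  have hval : ∀ k : ℕ, (χ : G → ℂ) (x ^ k) = ∑ i, μ i ^ k := by
    intro k
    rw [hcar]
    exact Cfsg.Agent.Lib.CharValues.trace_eq_sum_of_eigenbasis (ρ (x ^ k)) b _ (hpow k)
  -- multiplicities
  have hmult : ∀ ζ : ℂ, ζ ^ q = 1 → ζ ≠ 1 → p ∣ (Finset.univ.filter fun i => μ i = ζ).card := by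
    intro ζ hζ hζ1
    have hζ0 : ζ ≠ 0 := by
      rintro rfl
      rw [zero_pow hq.ne_zero] at hζ
      exact zero_ne_one hζ
    have hgeom : ∀ w : ℂ, w ^ q = 1 → w ≠ 1 → ∑ k ∈ Finset.range q, w ^ k = 0 := by
      intro w hw hw1
      have h5 := geom_sum_mul w q
      rw [hw, sub_self] at h5
      exact (mul_eq_zero.mp h5).resolve_right (sub_ne_zero.mpr hw1)
    have h5 : ∑ k ∈ Finset.range q, ζ⁻¹ ^ k * (χ : G → ℂ) (x ^ k) =
        (q : ℂ) * ((Finset.univ.filter fun i => μ i = ζ).card : ℂ) := by
      simp_rw [hval, Finset.mul_sum]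
      rw [Finset.sum_comm]
      have h6 : ∀ i : Fin (Module.finrank ℂ (Fin n → ℂ)), ∑ k ∈ Finset.range q, ζ⁻¹ ^ k * μ i ^ k =
          if μ i = ζ then (q : ℂ) else 0 := by
        intro i
        simp_rw [← mul_pow]
        split_ifs with h7
        · rw [h7, inv_mul_cancel₀ hζ0]
          simp
        · apply hgeom
          · rw [mul_pow, hμq, inv_pow, hζ, inv_one, one_mul]
          · intro h8
            apply h7
            field_simp at h8
            exact h8
      simp_rw [h6]
      rw [Finset.sum_ite, Finset.sum_const_zero, add_zero, Finset.sum_const, nsmul_eq_mul, mul_comm]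
    have h6 : ∑ k ∈ Finset.range q, ζ⁻¹ ^ k * ((χ : G → ℂ) 1) = 0 := by
      rw [← Finset.sum_mul, hgeom _ (by rw [inv_pow, hζ, inv_one]) (by
        intro h7
        apply hζ1
        rw [inv_eq_one] at h7
        exact h7), zero_mul]
    have hζint : IsIntegral ℤ ζ⁻¹ := by
      refine IsIntegral.of_pow hq.pos ?_
      rw [inv_pow, hζ, inv_one]
      exact isIntegral_one
    have h7 : MemLocalIdeal M (∑ k ∈ Finset.range q, ζ⁻¹ ^ k * ((χ : G → ℂ) (x ^ k) - (χ : G → ℂ) 1)) := by
      apply memLocalIdeal_sum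
      intro k _
      apply memLocalIdeal_mul_left (memLocalRing_of_isIntegral (hζint.pow k))
      have h8 := value_congr hM P hχ (Subgroup.pow_mem _ hx k)
      have := memLocalIdeal_neg h8
      rwa [neg_sub] at this
    simp_rw [mul_sub] at h7
    rw [Finset.sum_sub_distrib, h5, h6, sub_zero] at h7
    have h8 : MemLocalIdeal M ((q * (Finset.univ.filter fun i => μ i = ζ).card : ℕ) : ℂ) := by
      push_cast
      exact h7
    have h9 := (memLocalIdeal_natCast_iff hM).mp h8
    exact (hpp.dvd_mul.mp h9).resolve_left (fun h10 => hqp ((Nat.prime_dvd_prime_iff_eq hpp hq).mp h10).symm)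
  -- all eigenvalues are `1`
  have hall : ∀ i, μ i = 1 := by
    by_contra hcon
    push Not at hcon
    obtain ⟨i, hi⟩ := hcon
    set ζ₀ := μ i with hζ₀
    set S₀ := Finset.univ.filter fun j => μ j = ζ₀ with hS₀
    have hS₀ne : 0 < S₀.card := Finset.card_pos.mpr ⟨i, by simp [hS₀, hζ₀]⟩
    obtain ⟨t, ht0⟩ := hmult ζ₀ (hμq i) hi
    have ht : S₀.card = p * t := ht0
    have hcardle : S₀.card ≤ Module.finrank ℂ (Fin n → ℂ) := by
      have := Finset.card_le_univ S₀
      simpa using this
    have ht1 : t = 1 := by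
      have h5 : t ≠ 0 := by
        rintro rfl
        rw [mul_zero] at ht
        omega
      have h6 : p * t < p * 2 := by
        rw [← ht]
        omega
      have h7 : t < 2 := Nat.lt_of_mul_lt_mul_left h6
      omega
    have hcardp : S₀.card = p := by
      rw [ht, ht1, mul_one]
    have htwo : ∀ j, μ j = 1 ∨ μ j = ζ₀ := by
      intro j
      by_contra hj
      push Not at hj
      obtain ⟨t', ht'⟩ := hmult (μ j) (hμq j) hj.1
      have hS₁ne : 0 < (Finset.univ.filter fun l => μ l = μ j).card :=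
        Finset.card_pos.mpr ⟨j, by simp⟩
      have hp1 : p ≤ (Finset.univ.filter fun l => μ l = μ j).card :=
        Nat.le_of_dvd hS₁ne ⟨t', ht'⟩
      have hdisj : Disjoint S₀ (Finset.univ.filter fun l => μ l = μ j) := by
        rw [Finset.disjoint_left]
        intro l hl hl'
        simp only [hS₀, Finset.mem_filter, Finset.mem_univ, true_and] at hl hl'
        exact hj.2 (hl'.symm.trans hl)
      have h5 := Finset.card_union_of_disjoint hdisj
      have h6 : (S₀ ∪ Finset.univ.filter fun l => μ l = μ j).card ≤ Module.finrank ℂ (Fin n → ℂ) := by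
        have := Finset.card_le_univ (S₀ ∪ Finset.univ.filter fun l => μ l = μ j)
        simpa using this
      omega
    -- the determinant
    have hdet1 : LinearMap.det (ρ x) = ∏ j, μ j := by
      rw [← LinearMap.det_toMatrix b]
      have h5 : LinearMap.toMatrix b b (ρ x) = Matrix.diagonal μ := by
        ext j l
        rw [LinearMap.toMatrix_apply, h1, map_smul, Module.Basis.repr_self, Matrix.diagonal_apply]
        by_cases h6 : l = j
        · subst h6
          simp
        · have h7 : j ≠ l := fun h => h6 h.symm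
          simp [h6, h7, Finsupp.single_apply]
      rw [h5, Matrix.det_diagonal]
    have hdet2 : ∏ j, μ j = ζ₀ ^ p := by
      have h5 : ∀ j, μ j = if μ j = ζ₀ then ζ₀ else 1 := by
        intro j
        split_ifs with h6
        · exact h6
        · exact (htwo j).resolve_right h6
      rw [Finset.prod_congr rfl (fun j _ => h5 j), Finset.prod_ite, Finset.prod_const_one, mul_one,
        Finset.prod_const, ← hcardp]
    have hdet3 : LinearMap.det (ρ x) = 1 := by
      have h5 : commutator G ≤ (Cfsg.Agent.Lib.DetChar.detHom ρ).ker := by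
        rw [commutator_def, Subgroup.commutator_le]
        intro g₁ _ g₂ _
        rw [MonoidHom.mem_ker, commutatorElement_def]
        simp only [map_mul, map_inv]
        rw [mul_comm ((Cfsg.Agent.Lib.DetChar.detHom ρ) g₁)]
        simp
      have h6 : x ∈ (Cfsg.Agent.Lib.DetChar.detHom ρ).ker := h5 (by rw [hperf]; trivial)
      rw [MonoidHom.mem_ker] at h6
      rw [← Cfsg.Agent.Lib.DetChar.detHom_val, h6]
      rfl
    have h5 : ζ₀ ^ p = 1 := by rw [← hdet2, ← hdet1, hdet3]
    have h6 : orderOf ζ₀ ∣ Nat.gcd p q :=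
      Nat.dvd_gcd (orderOf_dvd_of_pow_eq_one h5) (orderOf_dvd_of_pow_eq_one (hμq i))
    have h7 : Nat.gcd p q = 1 := (Nat.coprime_primes hpp hq).mpr hqp.symm
    rw [h7, Nat.dvd_one, orderOf_eq_one_iff] at h6
    exact hi h6
  have h5 : (χ : G → ℂ) x = (χ : G → ℂ) 1 := by
    rw [hone, hcar, h4]
    simp [hall]
  have h6 := hfaith x h5
  rw [h6, orderOf_one] at hord
  exact hq.one_lt.ne hord

theorem result {G : Type*} [Group G] [Finite G] (p : ℕ) [Fact p.Prime] (M : Ideal Cfsg.AlgInt) (hM : Cfsg.IsPModular p M) (hperf : commutator G = ⊤) (P : Sylow p G) (χ : Cfsg.IrrCharacter G) (hχ : χ ∈ Cfsg.principalBlock M G) (hfaith : ∀ g : G, (χ : G → ℂ) g = (χ : G → ℂ) 1 → g = 1) (hdeg : Cfsg.charDegree (χ : G → ℂ) < 2 * p) : IsPGroup p ↥(Subgroup.centralizer ((P : Subgroup G) : Set G)) := by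
  classical
  have h1 : ∀ {d : ℕ}, d.Prime → d ∣ Nat.card (Subgroup.centralizer ((P : Subgroup G) : Set G)) → d = p := by
    intro q hq hd
    by_contra hqp
    haveI : Fact q.Prime := ⟨hq⟩
    obtain ⟨x, hx⟩ := exists_prime_orderOf_dvd_card' q hd
    refine false_of_prime_order hM hperf P hχ hfaith hdeg x.2 hq hqp ?_
    rwa [Subgroup.orderOf_coe]
  have h2 := Nat.eq_prime_pow_of_unique_prime_dvd Nat.card_pos.ne' h1
  exact IsPGroup.of_card h2

end Cfsg.Agent.S4729
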