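import Mathlib
import Cfsg.Statements.S4730
import Cfsg.Agent.Lib.BlockIdem
import Cfsg.Agent.Lib.BlockVal
import Cfsg.Agent.Lib.CharKernel

set_option autoImplicit false
set_option linter.unusedVariables false
set_option linter.style.haveILetI false

namespace Cfsg.Agent.S4730

open Cfsg Cfsg.Agent.Lib.CharBasic Cfsg.Agent.Lib.CharIntegrality
open Cfsg.Agent.Lib.BlockLocal Cfsg.Agent.Lib.BlockVal Cfsg.Agent.Lib.CharKernel
open Cfsg.Agent.Lib.BlockIdem

/-- The vanishing on the centre of a Sylow subgroup. -/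
theorem vanish_aux {G : Type*} [Group G] [Finite G] (p : ℕ) (hp : p.Prime)
    (hZ : Subgroup.center G = ⊥) (χ : Cfsg.IrrCharacter G)
    (hfaith : ∀ g : G, (χ : G → ℂ) g = (χ : G → ℂ) 1 → g = 1) (n : ℕ)
    (hdeg : Cfsg.charDegree (χ : G → ℂ) = p ^ n) (z : G) (hz1 : z ≠ 1)
    (hzi : ¬ p ∣ (Subgroup.centralizer ({z} : Set G)).index) : (χ : G → ℂ) z = 0 := by
  classical
  letI := Fintype.ofFinite G
  obtain ⟨χ, m, ρ, hρ, rfl⟩ := χ
  simp only at hfaith hdeg ⊢
  have hfr : Module.finrank ℂ (Fin m → ℂ) = charDegree ρ.character := by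
    have h1 := char_one_eq_rep ρ
    unfold charDegree
    rw [h1]
    simp
  have hcop : Nat.Coprime (Module.finrank ℂ (Fin m → ℂ)) (Subgroup.centralizer ({z} : Set G)).index := by
    rw [hfr, hdeg]
    exact Nat.Coprime.pow_left _ ((Nat.Prime.coprime_iff_not_dvd hp).mpr hzi)
  rcases character_eq_zero_or_norm_eq ρ hρ z hcop with h | h
  · exact h
  · exfalso
    obtain ⟨ω, hω⟩ := (Cfsg.Agent.Lib.CharValues.norm_character_eq_iff ρ z).mp h
    apply hz1
    have : z ∈ Subgroup.center G := by
      rw [Subgroup.mem_center_iff]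
      intro g
      have h2 : ρ (g * z * g⁻¹ * z⁻¹) = 1 := by
        have h3 : ρ (g * z * g⁻¹ * z⁻¹) = ρ g * ρ z * ρ g⁻¹ * ρ z⁻¹ := by
          rw [map_mul, map_mul, map_mul]
        rw [h3]
        have h4 : ρ g * ρ z * ρ g⁻¹ = ρ z := by
          rw [hω]
          have h5 : ρ g * ρ g⁻¹ = 1 := by rw [← map_mul, mul_inv_cancel, map_one]
          have h6 : (LinearMap.id : (Fin m → ℂ) →ₗ[ℂ] (Fin m → ℂ)) = 1 := rfl
          rw [h6, mul_smul_comm, smul_mul_assoc, mul_one, h5]
        rw [h4, ← map_mul, mul_inv_cancel, map_one]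
      have h3 : g * z * g⁻¹ * z⁻¹ = 1 := by
        apply hfaith
        unfold Representation.character
        rw [h2, map_one ρ]
      have h4 : g * z * g⁻¹ = z := by
        rwa [mul_inv_eq_one] at h3
      have h5 : g * z = z * g := by
        calc g * z = (g * z * g⁻¹) * g := by group
          _ = z * g := by rw [h4]
      exact h5
    rw [hZ] at this
    exact Subgroup.mem_bot.mp this

theorem result {G : Type*} [Group G] [Finite G] (p : ℕ) [Fact p.Prime] (M : Ideal Cfsg.AlgInt) (hM : Cfsg.IsPModular p M) (hZ : Subgroup.center G = ⊥) (P : Sylow p G) (a b : ℕ) (ha : Nat.card P = p ^ a) (hb : Nat.card (Subgroup.center ↥(P : Subgroup G)) = p ^ b) (χ : Cfsg.IrrCharacter G) (hfaith : ∀ g : G, (χ : G → ℂ) g = (χ : G → ℂ) 1 → g = 1) (n : ℕ) (hdeg : Cfsg.charDegree (χ : G → ℂ) = p ^ n) : Cfsg.blockDefect p (Cfsg.blockOf M (χ : G → ℂ)) ≤ a - b ∧ (IsMulCommutative ↥(P : Subgroup G) → Cfsg.blockDefect p (Cfsg.blockOf M (χ : G → ℂ)) = 0) := by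
  classical
  letI := Fintype.ofFinite G
  have hp : p.Prime := Fact.out
  have hMp := hM.2.1.isPrime
  -- indices are units
  have hidx : ∀ z : Subgroup.center ↥(P : Subgroup G),
      ¬ p ∣ (Subgroup.centralizer ({((z : ↥(P : Subgroup G)) : G)} : Set G)).index := by
    intro z hdvd
    have hle : (P : Subgroup G) ≤ Subgroup.centralizer ({((z : ↥(P : Subgroup G)) : G)} : Set G) := by
      intro x hx
      rw [Subgroup.mem_centralizer_singleton_iff]
      have h1 := Subgroup.mem_center_iff.mp z.2 ⟨x, hx⟩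
      have h2 := congrArg Subtype.val h1
      simpa using h2
    exact P.not_dvd_index (hdvd.trans (Subgroup.index_dvd_of_le hle))
  -- the key divisibility
  have key : ∀ ψ ∈ blockOf M (χ : G → ℂ), p ^ b ∣ charDegree (ψ : G → ℂ) := by
    intro ψ hψ
    have h1 : ∀ z : Subgroup.center ↥(P : Subgroup G), z ≠ 1 →
        MemLocalIdeal M ((ψ : G → ℂ) ((z : ↥(P : Subgroup G)) : G) / (ψ : G → ℂ) 1) := by
      intro z hz
      have hz1 : ((z : ↥(P : Subgroup G)) : G) ≠ 1 := by
        intro h
        apply hz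
        apply Subtype.ext
        apply Subtype.ext
        exact h
      have h2 := vanish_aux p hp hZ χ hfaith n hdeg _ hz1 (hidx z)
      have h3 := hψ ((z : ↥(P : Subgroup G)) : G)
      unfold centralChar at h3
      rw [h2, mul_zero, zero_div, zero_sub] at h3
      have h4 := memLocalIdeal_neg h3
      rw [neg_neg] at h4
      have h5 := memLocalIdeal_mul_left (memLocalRing_inv_natCast hM (hidx z)) h4
      have hne : (((Subgroup.centralizer ({((z : ↥(P : Subgroup G)) : G)} : Set G)).index : ℕ) : ℂ) ≠ 0 := by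
        exact_mod_cast Subgroup.index_ne_zero_of_finite
      rw [mul_div_assoc, inv_mul_cancel_left₀ hne] at h5
      exact h5
    letI : Fintype (Subgroup.center ↥(P : Subgroup G)) := Fintype.ofFinite _
    set f : Subgroup.center ↥(P : Subgroup G) →* G :=
      (P : Subgroup G).subtype.comp (Subgroup.center ↥(P : Subgroup G)).subtype with hf
    obtain ⟨m, hm⟩ := classInner_char_char (G := Subgroup.center ↥(P : Subgroup G))
      (isCharacter_comp f (IsIrrCharacter.isCharacter ψ.2)) isCharacter_one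
    have hne0 := irr_one_ne_zero' ψ.2
    have hS : ∑ z : Subgroup.center ↥(P : Subgroup G), (ψ : G → ℂ) (f z) =
        (Nat.card (Subgroup.center ↥(P : Subgroup G)) : ℂ) * m := by
      rw [← hm]
      unfold classInner
      have : (Nat.card (Subgroup.center ↥(P : Subgroup G)) : ℂ) ≠ 0 := natCard_ne_zero'
      rw [mul_inv_cancel_left₀ this]
      simp
    set S : ℂ := ∑ z : Subgroup.center ↥(P : Subgroup G), (ψ : G → ℂ) (f z) / (ψ : G → ℂ) 1 with hSdef
    have hS1 : (ψ : G → ℂ) 1 * S = (p : ℂ) ^ b * m := by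
      rw [hSdef, Finset.mul_sum]
      have : ∀ z : Subgroup.center ↥(P : Subgroup G), (ψ : G → ℂ) 1 * ((ψ : G → ℂ) (f z) / (ψ : G → ℂ) 1) =
          (ψ : G → ℂ) (f z) := fun z => mul_div_cancel₀ _ hne0
      simp_rw [this]
      rw [hS, hb]
      push_cast
      rfl
    have hS2 : MemLocalIdeal M (S - 1) := by
      have h5 : S - 1 = ∑ z ∈ Finset.univ.erase (1 : Subgroup.center ↥(P : Subgroup G)),
          (ψ : G → ℂ) (f z) / (ψ : G → ℂ) 1 := by
        rw [hSdef, ← Finset.add_sum_erase _ _ (Finset.mem_univ (1 : Subgroup.center ↥(P : Subgroup G)))]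
        rw [map_one, div_self hne0]
        ring
      rw [h5]
      refine memLocalIdeal_sum _ _ fun z hz => ?_
      exact h1 z (Finset.ne_of_mem_erase hz)
    have hS3 : ¬ MemLocalIdeal M S := by
      intro h
      apply not_memLocalIdeal_one (M := M)
      have := memLocalIdeal_sub h hS2
      rwa [sub_sub_cancel] at this
    have hS4 : MemLocalRing M S := by
      have := memLocalRing_add (memLocalRing_of_memLocalIdeal hS2) (memLocalRing_one (M := M))
      rwa [sub_add_cancel] at this
    have hS5 : S ≠ 0 := ne_zero_of_not_memLocalIdeal hS3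
    have h6 : ((charDegree (ψ : G → ℂ) : ℕ) : ℂ) / (p : ℂ) ^ b = (m : ℂ) * S⁻¹ := by
      have hp0 : ((p : ℂ) ^ b) ≠ 0 := pow_ne_zero _ (by exact_mod_cast hp.ne_zero)
      rw [← one_eq_charDegree (IsIrrCharacter.isCharacter ψ.2)]
      field_simp
      linear_combination hS1
    apply pow_dvd_of_memLocalRing_natCast_div hM
    rw [h6]
    exact memLocalRing_mul (memLocalRing_natCast m) (memLocalRing_inv hS4 hS3)
  have hv : (Nat.card G).factorization p = a := by
    have h1 : Nat.card P = p ^ (Nat.card G).factorization p := Sylow.card_eq_multiplicity P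
    rw [ha] at h1
    exact (Nat.pow_right_injective hp.two_le h1).symm
  have hinf : b ≤ sInf ((fun ψ : IrrCharacter G => (charDegree (ψ : G → ℂ)).factorization p) ''
      (blockOf M (χ : G → ℂ))) := by
    apply le_csInf
    · exact ⟨_, χ, mem_blockOf_self χ, rfl⟩
    · rintro _ ⟨ψ, hψ, rfl⟩
      exact (hp.pow_dvd_iff_le_factorization (charDegree_ne_zero ψ.2)).mp (key ψ hψ)
  have hdef : blockDefect p (blockOf M (χ : G → ℂ)) ≤ a - b := by
    unfold blockDefect
    rw [hv]
    omega
  refine ⟨hdef, fun hab => ?_⟩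
  have hc : Subgroup.center ↥(P : Subgroup G) = ⊤ := by
    rw [eq_top_iff]
    intro x _
    rw [Subgroup.mem_center_iff]
    intro y
    exact IsMulCommutative.is_comm.comm y x
  rw [hc, Nat.card_congr Subgroup.topEquiv.toEquiv, ha] at hb
  have hab2 : a = b := Nat.pow_right_injective hp.two_le hb
  rw [hab2, Nat.sub_self] at hdef
  omega

end Cfsg.Agent.S4730
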