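import Mathlib
import Cfsg.Statements.S4731
import Cfsg.Agent.Lib.BlockSection
import Cfsg.Agent.Lib.BlkLink
import Cfsg.Agent.Lib.BlockVal
import Cfsg.Agent.Lib.BlockQ

set_option autoImplicit false
set_option linter.unusedSectionVars false
set_option linter.unusedVariables false
set_option linter.style.haveILetI false
open Cfsg

namespace Cfsg.Agent.S4731

open Cfsg.Agent.Lib.CharBasic Cfsg.Agent.Lib.CharInd Cfsg.Agent.Lib.CharIntegrality
open Cfsg.Agent.Lib.BlockSection Cfsg.Agent.Lib.BlkBasic Cfsg.Agent.Lib.BlockLocal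
open Cfsg.Agent.Lib.BlockIdem Cfsg.Agent.Lib.BrauerPair
open Cfsg.Agent.Lib.BlockSubsection
open scoped ComplexConjugate

universe u

/-- A complex number which is locally integral at all maximal ideals is an algebraic integer. -/
theorem isIntegral_of_forall_local {x : ℂ}
    (h : ∀ M : Ideal AlgInt, M.IsMaximal → MemLocalRing M x) : IsIntegral ℤ x := by
  classical
  let J : Ideal AlgInt :=
    { carrier := {a | IsIntegral ℤ ((a : ℂ) * x)}
      add_mem' := by
        intro a b ha hb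
        show IsIntegral ℤ (((a + b : AlgInt) : ℂ) * x)
        push_cast
        rw [add_mul]
        exact IsIntegral.add ha hb
      zero_mem' := by
        show IsIntegral ℤ (((0 : AlgInt) : ℂ) * x)
        simp [isIntegral_zero]
      smul_mem' := by
        intro c a ha
        show IsIntegral ℤ (((c • a : AlgInt) : ℂ) * x)
        rw [smul_eq_mul]
        push_cast
        rw [mul_assoc]
        exact IsIntegral.mul c.2 ha }
  by_cases hJ : J = ⊤
  · have h1 : (1 : AlgInt) ∈ J := by rw [hJ]; trivial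
    have h2 : IsIntegral ℤ (((1 : AlgInt) : ℂ) * x) := h1
    simpa using h2
  · exfalso
    obtain ⟨M, hM, hJM⟩ := Ideal.exists_le_maximal J hJ
    obtain ⟨a, b, hb, hab⟩ := h M hM
    apply hb
    apply hJM
    show IsIntegral ℤ ((b : ℂ) * x)
    have hb0 : (b : ℂ) ≠ 0 := by
      haveI := hM
      exact coe_ne_zero_of_not_mem hb
    rw [← hab, mul_div_cancel₀ _ hb0]
    exact a.2

section
variable {G : Type u} [Group G] [Fintype G] {p q : ℕ} [hpF : Fact p.Prime] [hqF : Fact q.Prime]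

/-- The centralizer of a non-trivial `p`-element is a `q'`-group. -/
theorem not_dvd_card_centralizer (hpq : p ≠ q) (hno : ∀ g : G, orderOf g ≠ p * q) {z : G}
    (hz : ∃ k : ℕ, orderOf z = p ^ k) (hz1 : z ≠ 1) {H : Subgroup G}
    (hH : H = Subgroup.centralizer ({z} : Set G)) : ¬ q ∣ Nat.card H := by
  intro hd
  letI : Fintype H := Fintype.ofFinite _
  obtain ⟨k, hk⟩ := hz
  have hk0 : k ≠ 0 := by
    rintro rfl
    apply hz1
    rw [pow_zero] at hk
    exact orderOf_eq_one_iff.mp hk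
  obtain ⟨w, hw⟩ := exists_prime_orderOf_dvd_card' (G := H) q hd
  set z' : G := z ^ (p ^ (k - 1)) with hz'
  have hz'o : orderOf z' = p := by
    rw [hz', orderOf_pow_of_dvd, hk]
    · obtain ⟨j, rfl⟩ := Nat.exists_eq_succ_of_ne_zero hk0
      simp [pow_succ, hpF.out.ne_zero]
    · exact pow_ne_zero _ hpF.out.ne_zero
    · rw [hk]
      exact pow_dvd_pow _ (Nat.sub_le _ _)
  have hwo : orderOf (w : G) = q := by rw [Subgroup.orderOf_coe, hw]
  have hc : Commute z (w : G) := commute_of_mem hH w.2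
  have hc' : Commute z' (w : G) := hc.pow_left _
  have hcop : Nat.Coprime (orderOf z') (orderOf (w : G)) := by
    rw [hz'o, hwo]
    exact (Nat.coprime_primes hpF.out hqF.out).mpr hpq
  apply hno (z' * w)
  rw [hc'.orderOf_mul_eq_mul_orderOf_of_coprime hcop, hz'o, hwo]

/-- The main computation. -/
theorem main_local {Mp Mq : Ideal AlgInt} (hpq : p ≠ q) (hMp : IsPModular p Mp)
    (hMq : IsPModular q Mq) (hno : ∀ g : G, orderOf g ≠ p * q) {Bp Bq : Set (IrrCharacter G)}
    (hBp : IsPBlock Mp Bp) (hBq : IsPBlock Mq Bq) {y : G} (hy : p ∣ orderOf y) :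
    MemLocalRing Mq ((Nat.card G : ℂ)⁻¹ *
      ∑ᶠ χ ∈ Bp ∩ Bq, (charDegree (χ : G → ℂ) : ℂ) * (χ : G → ℂ) y) := by
  classical
  haveI := hMp.2.1.isPrime
  haveI := hMq.2.1.isPrime
  have hp := hMp.1
  obtain ⟨z, c', hzc, hcomm, hz, hc'⟩ := Cfsg.Agent.Lib.BlkOrth.exists_isPPart hp y
  have hz1 : z ≠ 1 := by
    rintro rfl
    rw [one_mul] at hzc
    rw [← hzc] at hy
    exact hc' hy
  letI : Fintype (Subgroup.centralizer ({z} : Set G)) := Fintype.ofFinite _
  set H := Subgroup.centralizer ({z} : Set G) with hHdef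
  have hH : H = Subgroup.centralizer ({z} : Set G) := rfl
  have hq : ¬ q ∣ Nat.card H := not_dvd_card_centralizer hpq hno hz hz1 hH
  set c : H := ⟨c', mem_of_commute hH hcomm.eq⟩ with hc
  have hcreg : ¬ p ∣ orderOf c := by
    rwa [hc, ← Subgroup.orderOf_coe]
  have hGne : (Nat.card G : ℂ) ≠ 0 := by exact_mod_cast Nat.card_pos.ne'
  -- the coefficients of the blocks of `H` are `q`-local
  have hcoef : ∀ (e : Set (IrrCharacter H)) (k : H), MemLocalRing Mq (blockCoeff e k) := by
    intro e k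
    unfold blockCoeff
    refine memLocalRing_mul (memLocalRing_inv_natCast hMq hq) ?_
    rw [Cfsg.Agent.Lib.BlockQ.finsum_mem_eq_sum_bF]
    refine memLocalRing_sum _ _ fun ψ _ => memLocalRing_mul (memLocalRing_of_isIntegral
      (Cfsg.Agent.Lib.BlockVal.isIntegral_irr ψ 1)) (memLocalRing_of_isIntegral ?_)
    rw [char_conj_eq_inv (IsIrrCharacter.isCharacter ψ.2)]
    exact Cfsg.Agent.Lib.BlockVal.isIntegral_irr ψ _
  -- reduce
  have hE : ∀ w : G, (Nat.card G : ℂ)⁻¹ * ∑ χ : IrrCharacter G, blkInd Bq χ *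
      ((charDegree (χ : G → ℂ) : ℂ) * (χ : G → ℂ) w) = blockCoeff Bq w⁻¹ := by
    intro w
    unfold blockCoeff
    congr 1
    rw [finsum_mem_eq_sum_blkInd]
    refine Finset.sum_congr rfl fun χ _ => ?_
    rw [char_conj_eq_inv (IsIrrCharacter.isCharacter χ.2), inv_inv,
      Cfsg.Agent.Lib.CharKernel.one_eq_charDegree (IsIrrCharacter.isCharacter χ.2)]
  have h1 : ∑ᶠ χ ∈ Bp ∩ Bq, (charDegree (χ : G → ℂ) : ℂ) * (χ : G → ℂ) y =
      ∑ χ : IrrCharacter G, blkInd Bq χ * ((charDegree (χ : G → ℂ) : ℂ) *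
        (blkInd Bp χ * (χ : G → ℂ) (z * (c : G)))) := by
    rw [finsum_mem_eq_sum_blkInd]
    refine Finset.sum_congr rfl fun χ _ => ?_
    have h2 : z * (c : G) = y := hzc
    rw [h2]
    by_cases h3 : χ ∈ Bp <;> by_cases h4 : χ ∈ Bq
    · rw [blkInd_of_mem (Set.mem_inter h3 h4), blkInd_of_mem h3, blkInd_of_mem h4]
      ring
    · rw [blkInd_of_not_mem (fun h => h4 h.2), blkInd_of_not_mem h4]
      ring
    · rw [blkInd_of_not_mem (fun h => h3 h.1), blkInd_of_not_mem h3]
      ring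
    · rw [blkInd_of_not_mem (fun h => h3 h.1), blkInd_of_not_mem h3]
      ring
  rw [h1]
  have h5 : ∑ χ : IrrCharacter G, blkInd Bq χ * ((charDegree (χ : G → ℂ) : ℂ) *
        (blkInd Bp χ * (χ : G → ℂ) (z * (c : G)))) =
      ∑ F : BlockT Mp H, @ite ℂ (IsInducedBlock Mp H F.1 Bp) (Classical.propDecidable _)
        (∑ k : H, blockCoeff F.1 k * ∑ χ : IrrCharacter G, blkInd Bq χ *
          ((charDegree (χ : G → ℂ) : ℂ) * (χ : G → ℂ) (z * ((k * c : H) : G)))) 0 := by
    simp_rw [blkInd_mul_eq_sum hMp hz hH hBp hcreg, Finset.mul_sum]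
    rw [Finset.sum_comm]
    refine Finset.sum_congr rfl fun F _ => ?_
    by_cases hF : IsInducedBlock Mp H F.1 Bp
    · simp only [if_pos hF]
      simp_rw [Finset.mul_sum]
      rw [Finset.sum_comm]
      refine Finset.sum_congr rfl fun k _ => Finset.sum_congr rfl fun χ _ => ?_
      simp only [thetaZ]
      ring
    · simp [if_neg hF]
  rw [h5, Finset.mul_sum]
  refine memLocalRing_sum _ _ fun F _ => ?_
  by_cases hF : IsInducedBlock Mp H F.1 Bp
  · rw [if_pos hF, Finset.mul_sum]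
    refine memLocalRing_sum _ _ fun k _ => ?_
    rw [mul_left_comm, hE]
    exact memLocalRing_mul (hcoef _ _) (memLocalRing_blockCoeff hBq _)
  · rw [if_neg hF, mul_zero]
    exact memLocalRing_zero

end

/-- Let p ≠ q be primes, M_p and M_q maximal ideals of the algebraic integers containing p and q respectively, and G a finite group with no element of order pq; let q^b be the q-part of the order of G. For a p-block B_p (relative to M_p), a q-block B_q (relative to M_q) and a p-singular element y, the sum of χ(1)χ(y) over the irreducible characters χ lying in both B_p and B_q is q^b times an algebraic integer. -/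
theorem result {G : Type*} [Group G] [Finite G] (p q : ℕ) [Fact p.Prime] [Fact q.Prime] (hpq : p ≠ q) (Mp Mq : Ideal Cfsg.AlgInt) (hMp : Cfsg.IsPModular p Mp) (hMq : Cfsg.IsPModular q Mq) (hno : ∀ g : G, orderOf g ≠ p * q) (b : ℕ) (hb : (Nat.card G).factorization q = b) (Bp : Set (Cfsg.IrrCharacter G)) (hBp : Cfsg.IsPBlock Mp Bp) (Bq : Set (Cfsg.IrrCharacter G)) (hBq : Cfsg.IsPBlock Mq Bq) (y : G) (hy : p ∣ orderOf y) : ∃ ω : Cfsg.AlgInt, ∑ᶠ χ ∈ Bp ∩ Bq, (Cfsg.charDegree (χ : G → ℂ) : ℂ) * (χ : G → ℂ) y = (q : ℂ) ^ b * (ω : ℂ) := by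
  classical
  letI := Fintype.ofFinite G
  have hqp := hMq.1
  set S : ℂ := ∑ᶠ χ ∈ Bp ∩ Bq, (charDegree (χ : G → ℂ) : ℂ) * (χ : G → ℂ) y with hS
  have hq0 : (q : ℂ) ^ b ≠ 0 := pow_ne_zero _ (by exact_mod_cast hqp.ne_zero)
  have hSint : IsIntegral ℤ S := by
    rw [hS, Cfsg.Agent.Lib.BlockQ.finsum_mem_eq_sum_bF]
    refine IsIntegral.sum _ fun χ _ => IsIntegral.mul (isIntegral_natCast _) ?_
    exact Cfsg.Agent.Lib.BlockVal.isIntegral_irr χ y
  -- `|G| = q ^ b * m`
  obtain ⟨m, hm, hmq⟩ : ∃ m : ℕ, Nat.card G = q ^ b * m ∧ ¬ q ∣ m := by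
    refine ⟨Nat.card G / q ^ b, ?_, ?_⟩
    · rw [← hb, Nat.mul_div_cancel' (Nat.ordProj_dvd _ _)]
    · rw [← hb]
      exact Nat.not_dvd_ordCompl hqp Nat.card_pos.ne'
  have hint : IsIntegral ℤ (S / (q : ℂ) ^ b) := by
    apply isIntegral_of_forall_local
    intro M' hM'
    by_cases hq : (q : AlgInt) ∈ M'
    · -- `q`-local case
      have hM'' : IsPModular q M' := ⟨hqp, hM', hq⟩
      haveI := hM'.isPrime
      have hB' : IsPBlock M' Bq := by
        obtain ⟨ξ, rfl⟩ := id hBq
        refine ⟨ξ, ?_⟩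
        ext ψ
        exact ⟨fun h => Cfsg.Agent.Lib.BlkLink.sameBlock_of_sameBlock hMq hM'' h,
          fun h => Cfsg.Agent.Lib.BlkLink.sameBlock_of_sameBlock hM'' hMq h⟩
      have h1 := main_local hpq hMp hM'' hno hBp hB' hy
      have h2 : S / (q : ℂ) ^ b = (m : ℂ) * ((Nat.card G : ℂ)⁻¹ * S) := by
        have hm0 : (m : ℂ) ≠ 0 := by
          intro h
          have : m = 0 := by exact_mod_cast h
          exact hmq (this ▸ dvd_zero q)
        rw [hm]
        push_cast
        field_simp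
      rw [h2]
      exact memLocalRing_mul (memLocalRing_natCast _) h1
    · -- other primes
      refine ⟨⟨S, hSint⟩, (q : AlgInt) ^ b, ?_, ?_⟩
      · intro h
        exact hq (hM'.isPrime.mem_of_pow_mem _ h)
      · push_cast
        rfl
  refine ⟨⟨S / (q : ℂ) ^ b, hint⟩, ?_⟩
  show S = (q : ℂ) ^ b * (S / (q : ℂ) ^ b)
  field_simp

end Cfsg.Agent.S4731
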