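import Mathlib
import Cfsg.Statements.S4733
import Cfsg.Agent.Lib.BlockOrtho

set_option autoImplicit false
set_option linter.unusedVariables false
set_option linter.style.haveILetI false

namespace Cfsg.Agent.S4733

open Cfsg Cfsg.Agent.Lib.BlockOrtho Cfsg.Agent.Lib.CharBasic Cfsg.Agent.Lib.CharKernel
open Cfsg.Agent.Lib.BlockIdem

theorem result {G : Type*} [Group G] [Finite G] (p : ℕ) [Fact p.Prime] (M : Ideal Cfsg.AlgInt) (hM : Cfsg.IsPModular p M) (B : Set (Cfsg.IrrCharacter G)) (hB : Cfsg.IsPBlock M B) : Cfsg.blockRank p B ≤ Nat.card B ∧ (Cfsg.blockDefect p B = 0 ↔ (Nat.card B = 1 ∧ Cfsg.blockRank p B = 1)) ∧ (Cfsg.blockDefect p B = 0 ↔ Nat.card B = Cfsg.blockRank p B) := by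
  classical
  letI := Fintype.ofFinite G
  have hp : p.Prime := Fact.out
  have hMp := hM.2.1.isPrime
  letI : Fintype B := Fintype.ofFinite B
  set φ : IrrCharacter G → (G → ℂ) := fun χ => pRegularPart p (χ : G → ℂ) with hφ
  have himg : φ '' B = Set.range (fun ξ : B => φ ξ) := by
    rw [Set.image_eq_range]
  have hrank : blockRank p B = (Set.range (fun ξ : B => φ ξ)).finrank ℂ := by
    unfold blockRank
    rw [← himg]
    rfl
  have hle : blockRank p B ≤ Nat.card B := by
    rw [hrank, Nat.card_eq_fintype_card]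
    exact finrank_range_le_card _
  -- nonempty
  obtain ⟨χ₀, rfl⟩ := hB
  have hB' : IsPBlock M (blockOf M (χ₀ : G → ℂ)) := ⟨χ₀, rfl⟩
  set B := blockOf M (χ₀ : G → ℂ) with hBdef
  have hχ₀ : χ₀ ∈ B := mem_blockOf_self χ₀
  have hnonempty : ((fun χ : IrrCharacter G => (charDegree (χ : G → ℂ)).factorization p) '' B).Nonempty :=
    ⟨_, χ₀, hχ₀, rfl⟩
  -- defect zero gives singleton
  have hA : blockDefect p B = 0 → Nat.card B = 1 ∧ blockRank p B = 1 := by
    intro hd
    unfold blockDefect at hd
    have h1 : (Nat.card G).factorization p ≤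
        sInf ((fun χ : IrrCharacter G => (charDegree (χ : G → ℂ)).factorization p) '' B) := by
      omega
    have h2 : p ^ (Nat.card G).factorization p ∣ charDegree (χ₀ : G → ℂ) := by
      rw [hp.pow_dvd_iff_le_factorization (charDegree_ne_zero χ₀.2)]
      exact h1.trans (Nat.sInf_le ⟨χ₀, hχ₀, rfl⟩)
    have h3 : B = {χ₀} := by
      ext ψ
      constructor
      · intro hψ
        exact eq_of_mem_blockOf_of_dvd hM h2 hψ
      · rintro rfl
        exact hχ₀
    constructor
    · rw [h3]
      simp
    · unfold blockRank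
      rw [h3, Set.image_singleton]
      apply finrank_span_singleton
      intro h0
      have h4 := congrFun h0 1
      simp only [Pi.zero_apply] at h4
      rw [pRegularPart_of_reg (p := p) _ (by
        rw [orderOf_one]
        exact fun h1 => hp.one_lt.ne' (Nat.dvd_one.mp h1))] at h4
      exact irr_one_ne_zero' χ₀.2 h4
  have hC : Nat.card B = blockRank p B → blockDefect p B = 0 := by
    intro hk
    -- linear independence
    have hli : LinearIndependent ℂ (fun ξ : B => φ ξ) := by
      rw [linearIndependent_iff_card_eq_finrank_span, ← hrank, ← hk, Nat.card_eq_fintype_card]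
    have hfix : ∀ χ ∈ B, pRegularPart p (χ : G → ℂ) = (χ : G → ℂ) := by
      intro χ hχ
      have h1 : blockProj B (pRegularPart p (χ : G → ℂ)) = pRegularPart p (χ : G → ℂ) :=
        blockProj_pRegularPart hM hB' (blockProj_of_mem hχ)
      set q : IrrCharacter G → ℂ := fun ξ => classInner (pRegularPart p (χ : G → ℂ)) (ξ : G → ℂ) with hq
      have h2 : pRegularPart p (χ : G → ℂ) = ∑ ξ : IrrCharacter G, (indB B ξ * q ξ) • (ξ : G → ℂ) := by
        conv_lhs => rw [← h1, blockProj_eq_sum]
      have h3 : pRegularPart p (χ : G → ℂ) = ∑ ξ : IrrCharacter G, (indB B ξ * q ξ) • φ ξ := by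
        have := congrArg (pRegularPart p) h2
        rw [pRegularPart_idem, pRegularPart_sum] at this
        simp_rw [pRegularPart_smul] at this
        exact this
      have h4 : ∀ F : IrrCharacter G → (G → ℂ), ∑ ξ : IrrCharacter G, (indB B ξ * q ξ) • F ξ =
          ∑ ξ : B, (q ξ) • F ξ := by
        intro F
        have h40 := @Finset.sum_subtype _ _ _ (fun x => x ∈ B) ‹Fintype B›
          (Finset.univ.filter (· ∈ B)) (by simp) (fun ξ => q ξ • F ξ)
        refine Eq.trans ?_ h40
        rw [Finset.sum_filter]
        refine Finset.sum_congr rfl fun ξ _ => ?_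
        by_cases h : ξ ∈ B
        · rw [if_pos h, indB_of_mem h, one_mul]
        · rw [if_neg h, indB_of_not_mem h, zero_mul, zero_smul]
      have h5 := (Fintype.linearIndependent_iff.mp hli)
        (fun ξ => q ξ - if (ξ : IrrCharacter G) = χ then 1 else 0) (by
          simp only [sub_smul, Finset.sum_sub_distrib]
          have h6 := h4 φ
          rw [← h3] at h6
          rw [← h6]
          rw [sub_eq_zero]
          rw [Finset.sum_eq_single (⟨χ, hχ⟩ : B)]
          · simp [hφ]
          · intro ξ _ hξ
            rw [if_neg (fun h => hξ (Subtype.ext h)), zero_smul]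
          · intro h
            exact absurd (Finset.mem_univ _) h)
      have h7 : pRegularPart p (χ : G → ℂ) = ∑ ξ : B, (q ξ) • (ξ : G → ℂ) := by
        rw [h2, h4]
      rw [h7]
      rw [Finset.sum_eq_single (⟨χ, hχ⟩ : B)]
      · have h8 := h5 ⟨χ, hχ⟩
        simp only [if_true, sub_eq_zero] at h8
        rw [h8, one_smul]
      · intro ξ _ hξ
        have h8 := h5 ξ
        rw [if_neg (fun h => hξ (Subtype.ext h)), sub_zero] at h8
        rw [h8, zero_smul]
      · intro h
        exact absurd (Finset.mem_univ _) h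
    unfold blockDefect
    have h1 : ∀ χ ∈ B, (Nat.card G).factorization p ≤ (charDegree (χ : G → ℂ)).factorization p := by
      intro χ hχ
      rw [← hp.pow_dvd_iff_le_factorization (charDegree_ne_zero χ.2)]
      apply dvd_charDegree_of_vanish hp (IsIrrCharacter.isCharacter χ.2)
      intro g hg
      rw [← hfix χ hχ]
      exact pRegularPart_of_sing _ hg
    have h2 : (Nat.card G).factorization p ≤
        sInf ((fun χ : IrrCharacter G => (charDegree (χ : G → ℂ)).factorization p) '' B) := by
      apply le_csInf hnonempty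
      rintro _ ⟨χ, hχ, rfl⟩
      exact h1 χ hχ
    omega
  refine ⟨hle, ⟨hA, fun h => hC (by rw [h.1, h.2])⟩, ⟨fun h => ?_, hC⟩⟩
  have := hA h
  rw [this.1, this.2]

end Cfsg.Agent.S4733
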