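import Mathlib
import Cfsg.Statements.S4735
import Cfsg.Agent.Lib.BlockGal
import Cfsg.Agent.Lib.BlkQuot
import Cfsg.Agent.Lib.BlockQ
import Cfsg.Agent.Lib.GenChar

set_option autoImplicit false
set_option linter.unusedSectionVars false
set_option linter.style.haveILetI false
open Cfsg

namespace Cfsg.Agent.S4735

open Cfsg.Agent.Lib.BlockGal Cfsg.Agent.Lib.BlockNormal Cfsg.Agent.Lib.BlockIdem
open Cfsg.Agent.Lib.BlockLocal Cfsg.Agent.Lib.CharBasic Cfsg.Agent.Lib.CharKernel
open Cfsg.Agent.Lib.BlockQ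
open scoped ComplexConjugate

open Cfsg.Agent.Lib.BlkQuot in
/-- Inflation is a bijection from the principal block of `G / N` onto that of `G`. -/
theorem infl_mem {G : Type*} [Group G] [Finite G] {p : ℕ} {M : Ideal AlgInt}
    (hM : IsPModular p M) (N : Subgroup G)
    [N.Normal] {ψ : IrrCharacter (G ⧸ N)} (hψ : ψ ∈ principalBlock M (G ⧸ N)) :
    infl N ψ ∈ principalBlock M G := by
  haveI := isPrime_of_isPModular hM
  intro g
  have h1 := centralChar_infl N (irrOne (G ⧸ N)) g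
  have h2 := centralChar_infl N ψ g
  have h3 : ((infl N (irrOne (G ⧸ N)) : IrrCharacter G) : G → ℂ) = fun _ => (1 : ℂ) := rfl
  rw [h3] at h1
  rw [h1, h2, ← mul_sub]
  exact memLocalIdeal_mul_left (memLocalRing_natCast _) (hψ _)

open Cfsg.Agent.Lib.BlkQuot in
theorem mem_of_infl {G : Type*} [Group G] [Finite G] {p : ℕ} {M : Ideal AlgInt}
    (hM : IsPModular p M) (N : Subgroup G) [N.Normal] (hN : ¬ p ∣ Nat.card N)
    {ψ : IrrCharacter (G ⧸ N)} (hψ : infl N ψ ∈ principalBlock M G) :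
    ψ ∈ principalBlock M (G ⧸ N) := by
  have := sameBlock_of_infl_coprime N hM hN (χ := irrOne (G ⧸ N)) (ψ := ψ) hψ
  exact this

open Cfsg.Agent.Lib.BlkQuot in
theorem sum_eq {G : Type*} [Group G] [Finite G] {p : ℕ} [Fact p.Prime] {M : Ideal AlgInt}
    (hM : IsPModular p M) (N : Subgroup G) [N.Normal] (hN : ¬ p ∣ Nat.card N)
    {A : Type*} [AddCommMonoid A] (f : IrrCharacter G → A) :
    ∑ᶠ χ ∈ principalBlock M G, f χ = ∑ᶠ ψ ∈ principalBlock M (G ⧸ N), f (infl N ψ) := by
  classical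
  letI : Fintype G := Fintype.ofFinite G
  letI : Fintype (G ⧸ N) := Fintype.ofFinite _
  rw [finsum_mem_eq_sum_bF, finsum_mem_eq_sum_bF]
  refine (Finset.sum_bij (fun ψ _ => infl N ψ) ?_ ?_ ?_ ?_).symm
  · intro ψ hψ
    exact mem_bF.mpr (infl_mem hM N (mem_bF.mp hψ))
  · intro ψ _ ψ' _ h
    apply Subtype.ext
    funext y
    obtain ⟨g, rfl⟩ := QuotientGroup.mk_surjective y
    exact congrFun (congrArg Subtype.val h) g
  · intro χ hχ
    have hχ' := mem_bF.mp hχ
    have hker := eq_of_mem_principalBlock hM N hN χ hχ'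
    obtain ⟨χ', h1, h2⟩ := exists_quotient_irr N χ.2 hker
    have hinf : infl N ⟨χ', h1⟩ = χ := by
      apply Subtype.ext
      funext g
      exact h2 g
    refine ⟨⟨χ', h1⟩, mem_bF.mpr (mem_of_infl hM N hN ?_), hinf⟩
    rw [hinf]
    exact hχ'
  · intro ψ _
    rfl

/-- The sum of the squares of the degrees in the principal block is the group order iff there is
just one block. -/
theorem sum_deg_iff {X : Type*} [Group X] [Finite X] {p : ℕ} {M : Ideal AlgInt}
    (hM : IsPModular p M) :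
    (∑ᶠ ψ ∈ principalBlock M X, charDegree (ψ : X → ℂ) ^ 2) = Nat.card X ↔
      ∀ B : Set (IrrCharacter X), IsPBlock M B → B = principalBlock M X := by
  classical
  letI : Fintype X := Fintype.ofFinite X
  haveI := isPrime_of_isPModular hM
  have htot : ∑ ψ : IrrCharacter X, charDegree (ψ : X → ℂ) ^ 2 = Nat.card X := by
    have h := Cfsg.Agent.Lib.CharInd.sum_irr_degree_sq (G := X)
    have h3 : ((∑ ψ : IrrCharacter X, charDegree (ψ : X → ℂ) ^ 2 : ℕ) : ℂ) =
        (Nat.card X : ℂ) := by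
      rw [← h]
      push_cast
      refine Finset.sum_congr rfl fun ψ _ => ?_
      have h4 := one_eq_charDegree (IsIrrCharacter.isCharacter ψ.2)
      rw [h4, Complex.conj_natCast, pow_two]
    exact_mod_cast h3
  rw [finsum_mem_eq_sum_bF, ← htot]
  constructor
  · intro h B hB
    have hall : ∀ ψ : IrrCharacter X, ψ ∈ bF (principalBlock M X) := by
      by_contra hne
      push Not at hne
      obtain ⟨ψ, hψ⟩ := hne
      have hlt : ∑ ψ ∈ bF (principalBlock M X), charDegree (ψ : X → ℂ) ^ 2 <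
          ∑ ψ : IrrCharacter X, charDegree (ψ : X → ℂ) ^ 2 := by
        apply Finset.sum_lt_sum_of_subset (Finset.subset_univ _) (Finset.mem_univ ψ) hψ
        · exact pow_pos (charDegree_pos ψ.2) 2
        · intro _ _ _
          exact Nat.zero_le _
      exact absurd h (ne_of_lt hlt)
    obtain ⟨ξ, rfl⟩ := hB
    exact blockOf_eq_of_mem (χ := irrOne X) (ψ := ξ) (mem_bF.mp (hall ξ))
  · intro h
    have huniv : bF (principalBlock M X) = Finset.univ := by
      apply Finset.eq_univ_of_forall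
      intro ψ
      apply mem_bF.mpr
      have := h (blockOf M (ψ : X → ℂ)) ⟨ψ, rfl⟩
      rw [← this]
      exact mem_blockOf_self ψ
    rw [huniv]

theorem result {G : Type*} [Group G] [Finite G] (p : ℕ) [Fact p.Prime] (M : Ideal Cfsg.AlgInt) (hM : Cfsg.IsPModular p M) (x : G) : (∃ n : ℕ, 0 < n ∧ ∑ᶠ χ ∈ Cfsg.principalBlock M G, Complex.normSq ((χ : G → ℂ) x) = n) ∧ ∑ᶠ χ ∈ Cfsg.principalBlock M G, Complex.normSq ((χ : G → ℂ) x) = ∑ᶠ ψ ∈ Cfsg.principalBlock M (G ⧸ Cfsg.pPrimeCore p G), Complex.normSq ((ψ : G ⧸ Cfsg.pPrimeCore p G → ℂ) (QuotientGroup.mk x)) ∧ ∑ᶠ χ ∈ Cfsg.principalBlock M G, Complex.normSq ((χ : G → ℂ) x) ≤ (Nat.card ↥(Subgroup.centralizer ({(QuotientGroup.mk x : G ⧸ Cfsg.pPrimeCore p G)} : Set (G ⧸ Cfsg.pPrimeCore p G))) : ℝ) ∧ ((∑ᶠ χ ∈ Cfsg.principalBlock M G, Cfsg.charDegree (χ : G → ℂ) ^ 2) = (Cfsg.pPrimeCore p G).index ↔ ∀ B : Set (Cfsg.IrrCharacter (G ⧸ Cfsg.pPrimeCore p G)), Cfsg.IsPBlock M B → B = Cfsg.principalBlock M (G ⧸ Cfsg.pPrimeCore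 p G)) := by
  classical
  letI : Fintype G := Fintype.ofFinite G
  haveI := isPrime_of_isPModular hM
  set K := pPrimeCore p G with hK
  haveI hKn : K.Normal := inferInstance
  letI : Fintype (G ⧸ K) := Fintype.ofFinite _
  have hKp : ¬ p ∣ Nat.card K := Cfsg.Agent.Lib.PCore.not_dvd_card_pPrimeCore p
  -- the second claim
  have h2 : ∑ᶠ χ ∈ principalBlock M G, Complex.normSq ((χ : G → ℂ) x) =
      ∑ᶠ ψ ∈ principalBlock M (G ⧸ K), Complex.normSq ((ψ : G ⧸ K → ℂ) (QuotientGroup.mk x)) :=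
    sum_eq hM K hKp (fun χ => Complex.normSq ((χ : G → ℂ) x))
  -- the first claim
  have h1 : ∃ n : ℕ, 0 < n ∧ ∑ᶠ χ ∈ principalBlock M G, Complex.normSq ((χ : G → ℂ) x) = n := by
    rw [finsum_mem_eq_sum_bF]
    set A := bF (principalBlock M G) with hA
    let ρ : G → ℂ := fun g => ∑ χ ∈ A, ((χ : G → ℂ) * conjFun (χ : G → ℂ)) g
    have hρ : IsCharacter G ρ := by
      have := isCharacter_sum A (fun χ : IrrCharacter G =>
        (χ : G → ℂ) * conjFun (χ : G → ℂ)) (fun χ _ =>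
          isCharacter_mul (IsIrrCharacter.isCharacter χ.2)
            (Cfsg.Agent.Lib.GenChar.isCharacter_conjFun (IsIrrCharacter.isCharacter χ.2)))
      convert this using 1
      funext g
      simp [ρ, Finset.sum_apply]
    have hρx : ∀ g, ρ g = ((∑ χ ∈ A, Complex.normSq ((χ : G → ℂ) g) : ℝ) : ℂ) := by
      intro g
      simp only [ρ, Pi.mul_apply, Cfsg.conjFun]
      push_cast
      refine Finset.sum_congr rfl fun χ _ => ?_
      rw [Complex.mul_conj]
    have hfix : ∀ k : ℕ, (Nat.card G).Coprime k → ρ (x ^ k) = ρ x := by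
      intro k hk
      rw [hρx, hρx]
      congr 1
      have himg : A.image (powIrr hk) = A := by
        apply Finset.eq_of_subset_of_card_le
        · intro χ hχ
          obtain ⟨ψ, hψ, rfl⟩ := Finset.mem_image.mp hχ
          exact mem_bF.mpr (powIrr_mem_principalBlock hk (mem_bF.mp hψ))
        · rw [Finset.card_image_of_injective _ (powIrr_injective hk)]
      conv_rhs => rw [← himg]
      rw [Finset.sum_image (fun a _ b _ h => powIrr_injective hk h)]
      rfl
    obtain ⟨z, hz⟩ := exists_int_of_pow_eq hρ x hfix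
    have hz' : ∑ χ ∈ A, Complex.normSq ((χ : G → ℂ) x) = z := by
      have := hρx x
      rw [hz] at this
      exact_mod_cast this.symm
    have hge : (1 : ℝ) ≤ ∑ χ ∈ A, Complex.normSq ((χ : G → ℂ) x) := by
      have hone : irrOne G ∈ A := mem_bF.mpr (irrOne_mem_principalBlock M)
      have := Finset.single_le_sum (f := fun χ : IrrCharacter G => Complex.normSq ((χ : G → ℂ) x))
        (fun χ _ => Complex.normSq_nonneg _) hone
      have h3 : Complex.normSq (((irrOne G : IrrCharacter G) : G → ℂ) x) = 1 := by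
        show Complex.normSq 1 = 1
        simp
      rwa [h3] at this
    rw [hz'] at hge
    have hz1 : 1 ≤ z := by exact_mod_cast hge
    refine ⟨z.toNat, by omega, ?_⟩
    rw [hz']
    have : ((z.toNat : ℤ) : ℝ) = (z : ℝ) := by rw [Int.toNat_of_nonneg (by omega)]
    exact_mod_cast this.symm
  -- the total sum on the quotient
  have htotal : ∀ y : G ⧸ K, ∑ ψ : IrrCharacter (G ⧸ K), Complex.normSq ((ψ : G ⧸ K → ℂ) y) =
      (Nat.card ↥(Subgroup.centralizer ({y} : Set (G ⧸ K))) : ℝ) := by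
    intro y
    have h := Cfsg.Agent.Lib.CharInd.sum_irr_mul_conj y y
    rw [if_pos (IsConj.refl _)] at h
    apply Complex.ofReal_injective
    push_cast
    rw [← h]
    refine Finset.sum_congr rfl fun ψ _ => ?_
    rw [Complex.mul_conj]
  refine ⟨h1, h2, ?_, ?_⟩
  · rw [h2, finsum_mem_eq_sum_bF, ← htotal]
    exact Finset.sum_le_sum_of_subset_of_nonneg (Finset.subset_univ _)
      (fun ψ _ _ => Complex.normSq_nonneg _)
  · have hdeg : ∑ᶠ χ ∈ principalBlock M G, charDegree (χ : G → ℂ) ^ 2 =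
        ∑ᶠ ψ ∈ principalBlock M (G ⧸ K), charDegree (ψ : G ⧸ K → ℂ) ^ 2 :=
      sum_eq hM K hKp (fun χ => charDegree (χ : G → ℂ) ^ 2)
    rw [hdeg]
    exact sum_deg_iff hM

end Cfsg.Agent.S4735
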