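import Mathlib
import Cfsg.Statements.S4736
import Cfsg.Agent.Lib.BlockNormal
import Cfsg.Agent.S4713

set_option autoImplicit false
set_option linter.unusedSectionVars false
set_option linter.unusedVariables false
open Cfsg

namespace Cfsg.Agent.S4736

open Cfsg.Agent.Lib Cfsg.Agent.Lib.BlockNormal Cfsg.Agent.Lib.BlockIdem Cfsg.Agent.Lib.BlockLocal
open Cfsg.Agent.Lib.CharBasic Cfsg.Agent.Lib.CharKernel

theorem result {G : Type*} [Group G] [Finite G] (p : ℕ) [Fact p.Prime] (M : Ideal Cfsg.AlgInt) (hM : Cfsg.IsPModular p M) (hsolv : Cfsg.IsPSolvable p G) (P : Sylow p G) : IsMulCommutative P ↔ ∀ χ ∈ Cfsg.principalBlock M G, Cfsg.blockHeight p (Cfsg.principalBlock M G) (χ : G → ℂ) = 0 := by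
  classical
  letI := Fintype.ofFinite G
  have hp : p.Prime := Fact.out
  haveI := isPrime_of_isPModular hM
  set K := pPrimeCore p G with hK
  haveI hKn : K.Normal := inferInstance
  letI : Fintype (G ⧸ K) := Fintype.ofFinite _
  let π := QuotientGroup.mk' K
  have hπ : Function.Surjective π := QuotientGroup.mk'_surjective K
  have h0 : pPrimeCore p (G ⧸ K) = ⊥ :=
    PSolv.pPrimeCore_eq_bot_of_surjective p π hπ (QuotientGroup.ker_mk' K)
  have hsolvQ : IsPSolvable p (G ⧸ K) := PSolv.isPSolvable_quotient hsolv K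
  have hC := PSolv.centralizer_pCore_le_of_pSolvable hsolvQ h0
  let Pbar : Sylow p (G ⧸ K) := P.mapSurjective hπ
  have hPbar : (Pbar : Subgroup (G ⧸ K)) = (P : Subgroup G).map π := rfl
  have hKp : ¬ p ∣ Nat.card K := PCore.not_dvd_card_pPrimeCore p
  have hinf : ∀ x ∈ (P : Subgroup G), x ∈ K → x = 1 := by
    intro x hx hxK
    obtain ⟨m, hm⟩ := P.isPGroup'.exists_card_eq
    have hcop : Nat.Coprime (Nat.card (P : Subgroup G)) (Nat.card K) := by
      rw [hm]
      exact Nat.Coprime.pow_left _ ((Nat.Prime.coprime_iff_not_dvd hp).mpr hKp)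
    have h1 := Subgroup.orderOf_dvd_natCard (P : Subgroup G) hx
    have h2 := Subgroup.orderOf_dvd_natCard K hxK
    have h3 := Nat.dvd_gcd h1 h2
    rw [hcop.gcd_eq_one, Nat.dvd_one, orderOf_eq_one_iff] at h3
    exact h3
  have hone : ∀ (χ : IrrCharacter G), sInf ((fun ψ : IrrCharacter G =>
      (charDegree (ψ : G → ℂ)).factorization p) '' principalBlock M G) = 0 := by
    intro χ
    apply Nat.eq_zero_of_le_zero
    refine Nat.sInf_le ⟨irrOne G, irrOne_mem_principalBlock M, ?_⟩
    have h1 : charDegree ((irrOne G : IrrCharacter G) : G → ℂ) = 1 := by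
      have h2 := one_eq_charDegree (IsIrrCharacter.isCharacter (irrOne G).2)
      have h3 : ((irrOne G : IrrCharacter G) : G → ℂ) 1 = 1 := rfl
      rw [h3] at h2
      exact_mod_cast h2.symm
    show (charDegree ((irrOne G : IrrCharacter G) : G → ℂ)).factorization p = 0
    rw [h1]
    simp
  have hheight : ∀ χ : IrrCharacter G, (blockHeight p (principalBlock M G) (χ : G → ℂ) = 0 ↔
      ¬ p ∣ charDegree (χ : G → ℂ)) := by
    intro χ
    unfold blockHeight
    rw [hone χ, Nat.sub_zero]
    have hd0 := charDegree_ne_zero χ.2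
    constructor
    · intro h hd
      have := (hp.dvd_iff_one_le_factorization hd0).mp hd
      omega
    · intro h
      exact Nat.factorization_eq_zero_of_not_dvd h
  constructor
  · intro hcomm χ hχ
    rw [hheight]
    -- the Sylow subgroup of the quotient is normal and abelian
    have hker := eq_of_mem_principalBlock hM K hKp χ hχ
    obtain ⟨χ', hirr, hval⟩ := exists_quotient_irr K χ.2 hker
    have hcommQ : IsMulCommutative Pbar := by
      refine ⟨⟨?_⟩⟩
      rintro ⟨_, x, hx, rfl⟩ ⟨_, y, hy, rfl⟩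
      apply Subtype.ext
      show π x * π y = π y * π x
      rw [← map_mul, ← map_mul]
      congr 1
      have := (IsMulCommutative.is_comm (M := (P : Subgroup G))).comm ⟨x, hx⟩ ⟨y, hy⟩
      exact congrArg Subtype.val this
    have hnorm : (Pbar : Subgroup (G ⧸ K)).Normal := by
      have h1 : pCore p (G ⧸ K) ≤ Pbar := PCore.pCore_le_sylow p Pbar
      have h2 : (Pbar : Subgroup (G ⧸ K)) ≤ Subgroup.centralizer ((pCore p (G ⧸ K)) : Set (G ⧸ K)) := by
        intro x hx
        rw [Subgroup.mem_centralizer_iff]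
        intro y hy
        have := (IsMulCommutative.is_comm (M := (Pbar : Subgroup (G ⧸ K)))).comm ⟨y, h1 hy⟩ ⟨x, hx⟩
        exact congrArg Subtype.val this
      have h3 : (Pbar : Subgroup (G ⧸ K)) = pCore p (G ⧸ K) := le_antisymm (h2.trans hC) h1
      rw [h3]
      infer_instance
    have h1 := (Cfsg.Agent.S4713.result p hsolvQ Pbar).mp ⟨hnorm, hcommQ⟩ ⟨χ', hirr⟩
    have h2 : charDegree χ' = charDegree (χ : G → ℂ) := by
      have h3 := one_eq_charDegree (IsIrrCharacter.isCharacter hirr)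
      have h4 := one_eq_charDegree (IsIrrCharacter.isCharacter χ.2)
      have h5 := hval 1
      have h6 : ((1 : G) : G ⧸ K) = 1 := rfl
      rw [h6] at h5
      rw [h3, h4] at h5
      exact_mod_cast h5
    simpa [h2] using h1
  · intro hall
    have h1 : ∀ ξ : IrrCharacter (G ⧸ K), ¬ p ∣ charDegree (ξ : G ⧸ K → ℂ) := by
      intro ξ
      have hi : IsIrrCharacter G ((ξ : G ⧸ K → ℂ) ∘ π) :=
        isIrrCharacter_comp_of_surjective π hπ ξ.2
      have hmem := mem_principalBlock_of_pSolvable hM hsolv ⟨_, hi⟩ (by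
        intro x hx
        show (ξ : G ⧸ K → ℂ) (π x) = (ξ : G ⧸ K → ℂ) (π 1)
        rw [show π x = π 1 from by
          rw [map_one]
          exact (QuotientGroup.eq_one_iff x).mpr hx])
      have h2 := (hheight ⟨_, hi⟩).mp (hall _ hmem)
      have h3 : charDegree ((ξ : G ⧸ K → ℂ) ∘ π) = charDegree (ξ : G ⧸ K → ℂ) := by
        have h4 := one_eq_charDegree (IsIrrCharacter.isCharacter ξ.2)
        have h5 := one_eq_charDegree (IsIrrCharacter.isCharacter hi)
        have h6 : ((ξ : G ⧸ K → ℂ) ∘ π) 1 = (ξ : G ⧸ K → ℂ) 1 := by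
          simp
        rw [h4, h5] at h6
        exact_mod_cast h6
      simpa [h3] using h2
    have h2 := ((Cfsg.Agent.S4713.result p hsolvQ Pbar).mpr h1).2
    refine ⟨⟨?_⟩⟩
    rintro ⟨x, hx⟩ ⟨y, hy⟩
    apply Subtype.ext
    show x * y = y * x
    have h3 : π x ∈ (Pbar : Subgroup (G ⧸ K)) := ⟨x, hx, rfl⟩
    have h4 : π y ∈ (Pbar : Subgroup (G ⧸ K)) := ⟨y, hy, rfl⟩
    have h5 := (IsMulCommutative.is_comm (M := (Pbar : Subgroup (G ⧸ K)))).comm ⟨_, h3⟩ ⟨_, h4⟩
    have h6 : π x * π y = π y * π x := congrArg Subtype.val h5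
    have h7 : (y * x)⁻¹ * (x * y) ∈ K := by
      have h8 : π ((y * x)⁻¹ * (x * y)) = 1 := by
        rw [map_mul, map_inv, map_mul, map_mul, h6, inv_mul_cancel]
      exact (QuotientGroup.eq_one_iff _).mp h8
    have h8 := hinf _ ((P : Subgroup G).mul_mem ((P : Subgroup G).inv_mem
      ((P : Subgroup G).mul_mem hy hx)) ((P : Subgroup G).mul_mem hx hy)) h7
    exact (inv_mul_eq_one.mp h8).symm

end Cfsg.Agent.S4736
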