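import Cfsg.Statements.S4955
import Mathlib
import Cfsg.Agent.Lib.CharKernel
import Cfsg.Agent.Lib.CharGalois
import Cfsg.Agent.Lib.CharInd
import Cfsg.Agent.Lib.CharWeight

set_option autoImplicit false
open Cfsg

namespace Cfsg.Agent.S4955

open Cfsg.Agent.Lib.CharBasic Cfsg.Agent.Lib.CharInd Cfsg.Agent.Lib.CharKernel
  Cfsg.Agent.Lib.CharGalois
open scoped ComplexConjugate

/-- Frobenius in a commutative ring, on a finite sum, modulo `p`. -/
lemma exists_sum_pow {R : Type*} [CommRing R] {p : ℕ} (hp : p.Prime) {ι : Type*} (s : Finset ι)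
    (f : ι → R) (a : ℕ) :
    ∃ r : R, (∑ i ∈ s, f i) ^ (p ^ a) = ∑ i ∈ s, f i ^ (p ^ a) + p * r := by
  classical
  induction s using Finset.induction_on with
  | empty =>
    refine ⟨0, ?_⟩
    simp only [Finset.sum_empty, mul_zero, add_zero]
    exact zero_pow (pow_pos hp.pos a).ne'
  | insert i s hi ih =>
    obtain ⟨r, hr⟩ := ih
    obtain ⟨r', hr'⟩ := exists_add_pow_prime_pow_eq hp (f i) (∑ i ∈ s, f i) a
    refine ⟨r + f i * (∑ i ∈ s, f i) * r', ?_⟩
    rw [Finset.sum_insert hi, Finset.sum_insert hi, hr', hr]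
    ring

/-- A rational integral over `ℤ`. -/
lemma dvd_of_integral {p m : ℕ} (hp : p.Prime) {r : ℂ} (hr : IsIntegral ℤ r)
    (h : (m : ℂ) = p * r) : p ∣ m := by
  have hp0 : (p : ℂ) ≠ 0 := by exact_mod_cast hp.ne_zero
  have hr' : r = (((m : ℚ) / (p : ℚ) : ℚ) : ℂ) := by
    push_cast
    rw [h]
    field_simp
  rw [hr'] at hr
  have h1 : IsIntegral ℤ ((m : ℚ) / (p : ℚ) : ℚ) := by
    have := (isIntegral_algebraMap_iff (R := ℤ) (A := ℚ) (B := ℂ)
      (x := (m : ℚ) / (p : ℚ)) (algebraMap ℚ ℂ).injective).1 (by simpa using hr)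
    exact this
  obtain ⟨z, hz⟩ := IsIntegrallyClosed.isIntegral_iff.1 h1
  have hp0' : (p : ℚ) ≠ 0 := by exact_mod_cast hp.ne_zero
  have h2 : (m : ℚ) = (p : ℚ) * z := by
    have : ((z : ℤ) : ℚ) = (m : ℚ) / (p : ℚ) := by simpa using hz
    rw [this]
    field_simp
  have h3 : (m : ℤ) = (p : ℤ) * z := by exact_mod_cast h2
  have : (p : ℤ) ∣ (m : ℤ) := ⟨z, h3⟩
  exact Int.natCast_dvd_natCast.1 this

variable {X : Type*} [Group X] [Fintype X]

/-- A character of degree prime to `p` doesn't vanish on `p`-elements. -/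
lemma char_ne_zero {p : ℕ} (hp : p.Prime) {χ : X → ℂ} (hχ : IsCharacter X χ) {v : X} {a : ℕ}
    (hv : v ^ (p ^ a) = 1) (hdeg : ¬ p ∣ charDegree χ) : χ v ≠ 0 := by
  intro h0
  obtain ⟨m, μ, h1, h2⟩ := exists_roots hχ v
  have hint : ∀ i, IsIntegral ℤ (μ i) := fun i => by
    refine IsIntegral.of_pow (n := Nat.card X) Nat.card_pos ?_
    rw [h1 i]
    exact isIntegral_one
  let μ' : Fin m → AlgInt := fun i => ⟨μ i, hint i⟩
  obtain ⟨r, hr⟩ := exists_sum_pow hp Finset.univ μ' a
  have hr' := congrArg (fun z : AlgInt => (z : ℂ)) hr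
  simp only [μ'] at hr'
  push_cast at hr'
  have h3 : ∑ i, μ i = 0 := by
    have := h2 1
    simp only [pow_one] at this
    rw [← this, h0]
  have h4 : ∑ i, μ i ^ (p ^ a) = χ 1 := by
    rw [← h2, hv]
  rw [h3, h4, zero_pow (pow_pos hp.pos a).ne', one_eq_charDegree hχ] at hr'
  have h5 : (charDegree χ : ℂ) = p * (-(r : ℂ)) := by
    linear_combination -hr'
  exact hdeg (dvd_of_integral hp (r.2.neg) h5)

/-- Main count, given the degree information. -/
lemma main_count (V : Subgroup X) [V.Normal] (hab : ∀ a ∈ V, ∀ b ∈ V, a * b = b * a)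
    (G : Subgroup X) (hGV : Subgroup.IsComplement' V G) (v : X) (hv : v ∈ V)
    (hne : ∀ χ : IrrCharacter X, (χ : X → ℂ) v ≠ 0) :
    Nat.card (ConjClasses X) + Nat.card G ≤
      Nat.card ↥(G ⊓ Subgroup.centralizer ({v} : Set X)) * Nat.card V +
        Nat.card (ConjClasses G) := by
  classical
  have hXcard : Nat.card V * Nat.card G = Nat.card X := hGV.card_mul_card
  let e : V × G ≃ X := Equiv.ofBijective (fun x : V × G => (x.1 : X) * (x.2 : X)) hGV
  have he : ∀ x : V × G, e x = (x.1 : X) * (x.2 : X) := fun x => rfl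
  letI : Fintype V := Fintype.ofFinite V
  letI : Fintype G := Fintype.ofFinite G
  -- the kernel predicate
  let K : IrrCharacter X → Prop := fun χ => ∀ n ∈ V, (χ : X → ℂ) n = (χ : X → ℂ) 1
  have hKmul : ∀ χ : IrrCharacter X, K χ → ∀ (w : V) (g : X),
      (χ : X → ℂ) ((w : X) * g) = (χ : X → ℂ) g := fun χ hχ w g =>
    char_mul_of_mem_ker' (IsIrrCharacter.isCharacter χ.2) (hχ w w.2)
  -- Step 1 : restriction to `G`
  have hres : ∀ χ : IrrCharacter X, K χ → IsIrrCharacter G (fun g : G => (χ : X → ℂ) g) := by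
    intro χ hχ
    apply isIrrCharacter_of_norm_one (isCharacter_restrict G (IsIrrCharacter.isCharacter χ.2))
    have h1 := classInner_irr_self χ.2
    unfold classInner at h1 ⊢
    have hsum : ∑ x : X, (χ : X → ℂ) x * conj ((χ : X → ℂ) x) =
        (Nat.card V : ℂ) * ∑ g : G, (χ : X → ℂ) g * conj ((χ : X → ℂ) g) := by
      rw [← e.sum_comp, Fintype.sum_prod_type, Finset.mul_sum]
      rw [Finset.sum_comm]
      refine Finset.sum_congr rfl fun g _ => ?_
      have : ∀ w : V, (χ : X → ℂ) (e (w, g)) * conj ((χ : X → ℂ) (e (w, g))) =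
          (χ : X → ℂ) g * conj ((χ : X → ℂ) g) := fun w => by
        rw [he]
        simp only
        rw [hKmul χ hχ w g]
      simp only [this, Finset.sum_const, Finset.card_univ, nsmul_eq_mul, Nat.card_eq_fintype_card]
    rw [hsum, ← hXcard] at h1
    have hV0 : (Nat.card V : ℂ) ≠ 0 := by exact_mod_cast Nat.card_pos.ne'
    have hG0 : (Nat.card G : ℂ) ≠ 0 := by exact_mod_cast Nat.card_pos.ne'
    push_cast at h1
    rw [← h1]
    field_simp
  have hA₀ : (Finset.univ.filter K).card ≤ Nat.card (ConjClasses G) := by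
    rw [← card_irr_eq_card_conjClasses, Nat.card_eq_fintype_card, ← Finset.card_univ]
    refine Finset.card_le_card_of_injOn
      (fun χ => if hχ : K χ then ⟨_, hres χ hχ⟩ else Classical.choice ?_) (fun _ _ => Finset.mem_univ _) ?_
    · exact ⟨⟨_, isIrrCharacter_one⟩⟩
    · intro χ hχ ψ hψ h
      have hχ' : K χ := (Finset.mem_filter.1 hχ).2
      have hψ' : K ψ := (Finset.mem_filter.1 hψ).2
      simp only [dif_pos hχ', dif_pos hψ'] at h
      have h2 : (fun g : G => (χ : X → ℂ) g) = fun g : G => (ψ : X → ℂ) g :=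
        congrArg Subtype.val h
      apply Subtype.ext
      funext x
      obtain ⟨⟨w, g⟩, rfl⟩ := e.surjective x
      rw [he]
      simp only
      rw [hKmul χ hχ' w g, hKmul ψ hψ' w g]
      exact congrFun h2 g
  -- Step 2 : squares of degrees with `V` in the kernel
  have hdegsq : ∑ χ ∈ Finset.univ.filter K, ‖(χ : X → ℂ) 1‖ ^ 2 = (Nat.card G : ℝ) := by
    have h := sum_ker_deg_sq (G := X) V
    rw [← hXcard] at h
    have h2 := Nat.eq_of_mul_eq_mul_left Nat.card_pos h
    have h3 : ((∑ χ : IrrCharacter X, (if ∀ n ∈ V, (χ : X → ℂ) n = (χ : X → ℂ) 1 then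
        (charDegree (χ : X → ℂ)) ^ 2 else 0) : ℕ) : ℝ) = (Nat.card G : ℝ) := by
      rw [h2]
    rw [← h3, Finset.sum_filter]
    push_cast
    refine Finset.sum_congr rfl fun χ _ => ?_
    by_cases hχ : K χ
    · rw [if_pos hχ, if_pos hχ, one_eq_charDegree (IsIrrCharacter.isCharacter χ.2)]
      simp
    · rw [if_neg hχ, if_neg hχ]
  -- Step 3 : centralizers
  have hcent : Nat.card (Subgroup.centralizer ({v} : Set X)) =
      Nat.card ↥(G ⊓ Subgroup.centralizer ({v} : Set X)) * Nat.card V := by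
    have hVc : ∀ w ∈ V, w ∈ Subgroup.centralizer ({v} : Set X) := fun w hw =>
      Subgroup.mem_centralizer_singleton_iff.2 (hab w hw v hv)
    let φ : V × ↥(G ⊓ Subgroup.centralizer ({v} : Set X)) → Subgroup.centralizer ({v} : Set X) :=
      fun x => ⟨(x.1 : X) * (x.2 : X), Subgroup.mul_mem _ (hVc _ x.1.2) x.2.2.2⟩
    have hφ : Function.Bijective φ := by
      constructor
      · rintro ⟨a, b⟩ ⟨c, d⟩ h
        have h1 : (a : X) * (b : X) = (c : X) * (d : X) := congrArg Subtype.val h
        have h2 : ((a, ⟨b.1, b.2.1⟩) : V × G) = (c, ⟨d.1, d.2.1⟩) := e.injective h1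
        have h3 := congrArg Prod.fst h2
        have h4 := congrArg (fun x : V × G => (x.2 : X)) h2
        simp only at h3 h4
        rw [h3]
        congr 1
        exact Subtype.ext h4
      · rintro ⟨x, hx⟩
        obtain ⟨⟨w, g⟩, rfl⟩ := e.surjective x
        rw [he] at hx
        simp only at hx
        have hg : (g : X) ∈ Subgroup.centralizer ({v} : Set X) := by
          have := Subgroup.mul_mem _ (Subgroup.inv_mem _ (hVc _ w.2)) hx
          rwa [inv_mul_cancel_left] at this
        exact ⟨(w, ⟨g, g.2, hg⟩), Subtype.ext rfl⟩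
    rw [← Nat.card_congr (Equiv.ofBijective φ hφ), Nat.card_prod, mul_comm]
  -- Step 4 : second orthogonality
  have hsecond : ∀ k : ℕ, k.Coprime (Nat.card X) →
      ∑ χ : IrrCharacter X, ‖(χ : X → ℂ) (v ^ k)‖ ^ 2 =
        (Nat.card (Subgroup.centralizer ({v} : Set X)) : ℝ) := by
    intro k hk
    have hcentk : Subgroup.centralizer ({v ^ k} : Set X) = Subgroup.centralizer ({v} : Set X) := by
      ext x
      rw [Subgroup.mem_centralizer_singleton_iff, Subgroup.mem_centralizer_singleton_iff]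
      constructor
      · intro h
        have hmem : v ^ k ∈ Subgroup.centralizer ({x} : Set X) :=
          Subgroup.mem_centralizer_singleton_iff.2 h.symm
        exact (Subgroup.mem_centralizer_singleton_iff.1 (mem_of_pow_mem _ hk hmem)).symm
      · intro h
        exact ((Commute.pow_right (show Commute x v from h) k))
    have h := sum_irr_mul_conj (v ^ k) (v ^ k)
    rw [if_pos (IsConj.refl _), hcentk] at h
    have h2 : ∀ z : ℂ, z * conj z = ((‖z‖ ^ 2 : ℝ) : ℂ) := fun z => by
      rw [Complex.mul_conj, Complex.normSq_eq_norm_sq]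
    simp only [h2] at h
    exact_mod_cast h
  -- Step 5 : the count
  have := neZero_card (G := X)
  set φn := Fintype.card (ZMod (Nat.card X))ˣ with hφn
  have hφpos : (0 : ℝ) < φn := by exact_mod_cast Fintype.card_pos
  let T := Finset.univ.filter (fun χ : IrrCharacter X => ¬ K χ)
  have hunit : ∀ u : (ZMod (Nat.card X))ˣ, ((u : ZMod (Nat.card X)).val).Coprime (Nat.card X) :=
    fun u => (ZMod.isUnit_iff_coprime _ _).1 (by
      rw [ZMod.natCast_zmod_val]
      exact u.isUnit)
  have hT : ∀ k : ℕ, k.Coprime (Nat.card X) →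
      ∑ χ ∈ T, ‖(χ : X → ℂ) (v ^ k)‖ ^ 2 =
        (Nat.card ↥(G ⊓ Subgroup.centralizer ({v} : Set X)) * Nat.card V : ℝ) - Nat.card G := by
    intro k hk
    have h1 := hsecond k hk
    rw [hcent] at h1
    rw [← Finset.sum_filter_add_sum_filter_not Finset.univ K] at h1
    have h2 : ∑ χ ∈ Finset.univ.filter K, ‖(χ : X → ℂ) (v ^ k)‖ ^ 2 = Nat.card G := by
      rw [← hdegsq]
      refine Finset.sum_congr rfl fun χ hχ => ?_
      rw [(Finset.mem_filter.1 hχ).2 _ (V.pow_mem hv k)]
    rw [h2] at h1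
    push_cast at h1
    simp only [T]
    linarith
  have hmain : ((T.card : ℝ) * φn) ≤
      ((Nat.card ↥(G ⊓ Subgroup.centralizer ({v} : Set X)) * Nat.card V : ℝ) - Nat.card G) * φn := by
    calc (T.card : ℝ) * φn = ∑ χ ∈ T, (φn : ℝ) := by simp
      _ ≤ ∑ χ ∈ T, ∑ u : (ZMod (Nat.card X))ˣ, ‖(χ : X → ℂ) (v ^ (u : ZMod (Nat.card X)).val)‖ ^ 2 :=
          Finset.sum_le_sum fun χ _ =>
            card_units_le_sum_norm_sq (IsIrrCharacter.isCharacter χ.2) (hne χ)
      _ = ∑ u : (ZMod (Nat.card X))ˣ, ∑ χ ∈ T, ‖(χ : X → ℂ) (v ^ (u : ZMod (Nat.card X)).val)‖ ^ 2 :=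
          Finset.sum_comm
      _ = _ := by
          simp only [fun u : (ZMod (Nat.card X))ˣ => hT _ (hunit u)]
          simp only [Finset.sum_const, Finset.card_univ, nsmul_eq_mul]
          rw [mul_comm]
  have hfinal : (T.card : ℝ) ≤
      (Nat.card ↥(G ⊓ Subgroup.centralizer ({v} : Set X)) * Nat.card V : ℝ) - Nat.card G :=
    le_of_mul_le_mul_right hmain hφpos
  have hfinal' : T.card + Nat.card G ≤
      Nat.card ↥(G ⊓ Subgroup.centralizer ({v} : Set X)) * Nat.card V := by
    have : ((T.card + Nat.card G : ℕ) : ℝ) ≤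
        ((Nat.card ↥(G ⊓ Subgroup.centralizer ({v} : Set X)) * Nat.card V : ℕ) : ℝ) := by
      push_cast
      linarith
    exact_mod_cast this
  have hsplit : Nat.card (ConjClasses X) = (Finset.univ.filter K).card + T.card := by
    rw [← card_irr_eq_card_conjClasses, Nat.card_eq_fintype_card, ← Finset.card_univ]
    exact (Finset.card_filter_add_card_filter_not K).symm
  omega

/-- Let X be a finite group with an abelian normal Sylow p-subgroup V (a normal p-subgroup of index prime to p in which any two elements commute), and let G be a complement to V in X. Then for every v in V, writing C for the centralizer of v in G, the number k(X) of conjugacy classes of X satisfies k(X) ≤ (order of C)·(order of V) − ((order of G) − k(G)); the statement is written with the subtracted term moved to the left. In particular, if some v in V is centralized by no nonidentity element of G, then k(X) is at most the order of V. -/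
theorem result {X : Type*} [Group X] [Finite X] (p : ℕ) [Fact p.Prime] (V : Subgroup X) [V.Normal] (hVp : IsPGroup p V) (hidx : ¬ p ∣ V.index) (hab : ∀ a ∈ V, ∀ b ∈ V, a * b = b * a) (G : Subgroup X) (hGV : Subgroup.IsComplement' V G) (v : X) (hv : v ∈ V) : Nat.card (ConjClasses X) + Nat.card G ≤ Nat.card ↥(G ⊓ Subgroup.centralizer ({v} : Set X)) * Nat.card V + Nat.card (ConjClasses G) := by
  classical
  letI : Fintype X := Fintype.ofFinite X
  have hp := Fact.out (p := p.Prime)
  obtain ⟨a, ha⟩ := hVp ⟨v, hv⟩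
  have hva : v ^ (p ^ a) = 1 := by
    have := congrArg Subtype.val ha
    simpa using this
  refine main_count V hab G hGV v hv fun χ => char_ne_zero hp (IsIrrCharacter.isCharacter χ.2) hva ?_
  intro hdvd
  obtain ⟨n, ρ, hρ, hχ⟩ := χ.2
  have h1 : Module.finrank ℂ (Fin n → ℂ) ∣ V.index :=
    Cfsg.Agent.Lib.CharWeight.finrank_dvd_index ρ hρ inferInstance hab
  have h2 : charDegree (χ : X → ℂ) = Module.finrank ℂ (Fin n → ℂ) := by
    have h3 := one_eq_charDegree (IsIrrCharacter.isCharacter χ.2)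
    rw [← hχ, Representation.char_one] at h3
    have h4 : (Module.finrank ℂ (Fin n → ℂ) : ℂ) = (charDegree ρ.character : ℂ) := h3
    rw [← hχ]
    exact_mod_cast h4.symm
  rw [h2] at hdvd
  exact hidx (hdvd.trans h1)

end Cfsg.Agent.S4955
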