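import Mathlib
import Cfsg.Statements.S4956
import Cfsg.Agent.Lib.CoprimeCount

set_option autoImplicit false
open Cfsg

namespace Cfsg.Agent.S4956

open Cfsg.Agent.Lib.CoprimeCount

variable {X : Type*} [Group X]

/-- Conjugation by `g ∈ G` identifies the centralizers in `G`. -/
noncomputable def conjEquiv (G : Subgroup X) (g : X) (hg : g ∈ G) (c s : X) (hs : g * c * g⁻¹ = s) :
    ↥(G ⊓ Subgroup.centralizer ({c} : Set X)) ≃* ↥(G ⊓ Subgroup.centralizer ({s} : Set X)) where
  toFun x := ⟨g * x.1 * g⁻¹, by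
    refine ⟨G.mul_mem (G.mul_mem hg x.2.1) (G.inv_mem hg), ?_⟩
    refine Subgroup.mem_centralizer_singleton_iff.mpr ?_
    have h1 : x.1 * c = c * x.1 := Subgroup.mem_centralizer_singleton_iff.mp x.2.2
    subst hs
    calc g * x.1 * g⁻¹ * (g * c * g⁻¹) = g * (x.1 * c) * g⁻¹ := by group
      _ = g * (c * x.1) * g⁻¹ := by rw [h1]
      _ = g * c * g⁻¹ * (g * x.1 * g⁻¹) := by group⟩
  invFun y := ⟨g⁻¹ * y.1 * g, by
    refine ⟨G.mul_mem (G.mul_mem (G.inv_mem hg) y.2.1) hg, ?_⟩
    refine Subgroup.mem_centralizer_singleton_iff.mpr ?_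
    have h1 : y.1 * s = s * y.1 := Subgroup.mem_centralizer_singleton_iff.mp y.2.2
    subst hs
    have h2 : y.1 * (g * c * g⁻¹) = g * c * g⁻¹ * y.1 := h1
    calc g⁻¹ * y.1 * g * c = g⁻¹ * (y.1 * (g * c * g⁻¹)) * g := by group
      _ = g⁻¹ * (g * c * g⁻¹ * y.1) * g := by rw [h2]
      _ = c * (g⁻¹ * y.1 * g) := by group⟩
  left_inv x := by
    apply Subtype.ext
    show g⁻¹ * (g * x.1 * g⁻¹) * g = x.1
    group
  right_inv y := by
    apply Subtype.ext
    show g * (g⁻¹ * y.1 * g) * g⁻¹ = y.1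
    group
  map_mul' x y := by
    apply Subtype.ext
    show g * (x.1 * y.1) * g⁻¹ = g * x.1 * g⁻¹ * (g * y.1 * g⁻¹)
    group

/-- Let X be a finite group, V an abelian normal subgroup of X (any two elements of V commute) and G a complement to V in X whose order is coprime to that of V. Let S be a set of representatives of the orbits of G on V under conjugation: S lies in V and every element of V is conjugate under G to exactly one member of S. Then the number of conjugacy classes of X equals the sum, over s in S, of the number of conjugacy classes of the centralizer of s in G. -/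
theorem result {X : Type*} [Group X] [Finite X] (V : Subgroup X) [V.Normal] (hab : ∀ a ∈ V, ∀ b ∈ V, a * b = b * a) (G : Subgroup X) (hGV : Subgroup.IsComplement' V G) (hcop : (Nat.card V).Coprime (Nat.card G)) (S : Finset X) (hSV : ∀ s ∈ S, s ∈ V) (hrep : ∀ v ∈ V, ∃! s, s ∈ S ∧ ∃ g ∈ G, g * v * g⁻¹ = s) : Nat.card (ConjClasses X) = ∑ s ∈ S, Nat.card (ConjClasses ↥(G ⊓ Subgroup.centralizer ({s} : Set X))) := by
  classical
  let φ : G →* MulAut V := (V.normalizerMonoidHom).comp (Subgroup.inclusion (V.normalizer_eq_top ▸ le_top))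
  have hφ : ∀ (q : G) (w : V), ((φ q w : V) : X) = (q : X) * w * (q : X)⁻¹ := fun q w => rfl
  let e : V ⋊[φ] G ≃* X := SemidirectProduct.mulEquivSubgroup hGV
  have : Finite (V ⋊[φ] G) := Finite.of_equiv X e.symm.toEquiv
  have hk : Nat.card (ConjClasses X) = Nat.card (ConjClasses (V ⋊[φ] G)) :=
    card_conjClasses_congr e.symm
  let instV : CommGroup V := { (inferInstance : Group V) with
    mul_comm := fun a b => Subtype.ext (hab a a.2 b b.2) }
  -- commuting pairs in the semidirect product
  let Sg := V ⋊[φ] G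
  have hcomS : Nat.card {p : Sg × Sg // Commute p.1 p.2} =
      Nat.card (Σ pr : {p : G × G // Commute p.1 p.2},
        {p : V × V // p.1 * φ pr.1.1 p.2 = p.2 * φ pr.1.2 p.1}) := by
    apply Nat.card_congr
    refine
      { toFun := fun p => ⟨⟨(p.1.1.right, p.1.2.right), ?_⟩, ⟨(p.1.1.left, p.1.2.left), ?_⟩⟩
        invFun := fun x => ⟨(⟨x.2.1.1, x.1.1.1⟩, ⟨x.2.1.2, x.1.1.2⟩), ?_⟩
        left_inv := ?_
        right_inv := ?_ }
    · have h := p.2.eq
      exact congrArg SemidirectProduct.right h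
    · have h := p.2.eq
      exact congrArg SemidirectProduct.left h
    · rw [Commute, SemiconjBy, SemidirectProduct.ext_iff]
      exact ⟨x.2.2, x.1.2.eq⟩
    · intro p
      rfl
    · intro x
      rfl
  have hn : ∀ q : G, (φ q) ^ Nat.card G = 1 := by
    intro q
    rw [← map_pow, pow_card_eq_one', map_one]
  have hsum1 : Nat.card {p : Sg × Sg // Commute p.1 p.2} =
      Nat.card V * Nat.card (Σ pr : {p : G × G // Commute p.1 p.2},
        {c : V // φ pr.1.1 c = c ∧ φ pr.1.2 c = c}) := by
    have := Fintype.ofFinite {p : G × G // Commute p.1 p.2}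
    rw [hcomS, Nat.card_sigma, Nat.card_sigma, Finset.mul_sum]
    refine Finset.sum_congr rfl fun pr _ => ?_
    apply card_solutions (φ pr.1.1) (φ pr.1.2) _ (Nat.card G) (hn _) hcop.symm
    rw [← map_mul, ← map_mul, pr.2.eq]
  -- swap
  let C : V → Subgroup X := fun c => G ⊓ Subgroup.centralizer ({(c : X)} : Set X)
  have hmemC : ∀ (c : V) (q : G), φ q c = c ↔ (q : X) ∈ C c := by
    intro c q
    constructor
    · intro h
      refine ⟨q.2, ?_⟩
      refine Subgroup.mem_centralizer_singleton_iff.mpr ?_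
      have h1 := congrArg (Subtype.val) h
      rw [hφ] at h1
      calc (q : X) * c = ((q : X) * c * (q : X)⁻¹) * q := by group
        _ = c * q := by rw [h1]
    · rintro ⟨-, h⟩
      have h := Subgroup.mem_centralizer_singleton_iff.mp h
      apply Subtype.ext
      rw [hφ, h]
      group
  have hswap : Nat.card (Σ pr : {p : G × G // Commute p.1 p.2},
        {c : V // φ pr.1.1 c = c ∧ φ pr.1.2 c = c}) =
      Nat.card (Σ c : V, {p : ↥(C c) × ↥(C c) // Commute p.1 p.2}) := by
    apply Nat.card_congr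
    refine
      { toFun := fun x => ⟨x.2.1, ⟨(⟨x.1.1.1, (hmemC _ _).1 x.2.2.1⟩, ⟨x.1.1.2, (hmemC _ _).1 x.2.2.2⟩), ?_⟩⟩
        invFun := fun y => ⟨⟨(⟨y.2.1.1.1, y.2.1.1.2.1⟩, ⟨y.2.1.2.1, y.2.1.2.2.1⟩), ?_⟩,
          ⟨y.1, (hmemC _ _).2 y.2.1.1.2, (hmemC _ _).2 y.2.1.2.2⟩⟩
        left_inv := ?_
        right_inv := ?_ }
    · have h := x.1.2.eq
      have h1 := congrArg Subtype.val h
      apply Subtype.ext
      exact h1
    · have h := y.2.2.eq
      have h1 := congrArg Subtype.val h
      apply Subtype.ext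
      exact h1
    · intro x
      rfl
    · intro y
      rfl
  have := Fintype.ofFinite V
  have hcp : ∀ c : V, Nat.card {p : ↥(C c) × ↥(C c) // Commute p.1 p.2} =
      Nat.card (ConjClasses ↥(C c)) * Nat.card (C c) := fun c =>
    card_comm_eq_card_conjClasses_mul_card _
  -- the orbits
  choose! rep hrep1 hrep2 using fun v (hv : v ∈ V) => (hrep v hv)
  let r : V → X := fun c => rep (c : X)
  have hr1 : ∀ c : V, r c ∈ S := fun c => (hrep1 c c.2).1
  have hr2 : ∀ c : V, ∃ g ∈ G, g * (c : X) * g⁻¹ = r c := fun c => (hrep1 c c.2).2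
  have hr3 : ∀ (c : V) (s : X), s ∈ S → (∃ g ∈ G, g * (c : X) * g⁻¹ = s) → r c = s := by
    intro c s hs hg
    exact (hrep2 c c.2 s ⟨hs, hg⟩).symm
  -- orbit-stabilizer
  let act : MulAction G V := MulAction.compHom V φ
  have hact : ∀ (q : G) (w : V), q • w = φ q w := fun _ _ => rfl
  have horb : ∀ (s : X) (hs : s ∈ V), s ∈ S →
      Nat.card {c : V // r c = s} * Nat.card ↥(G ⊓ Subgroup.centralizer ({s} : Set X)) = Nat.card G := by
    intro s hsV hsS
    let s' : V := ⟨s, hsV⟩
    have h1 : Nat.card {c : V // r c = s} = Nat.card (MulAction.orbit G s') := by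
      apply Nat.card_congr
      refine Equiv.subtypeEquivRight ?_
      intro c
      constructor
      · intro h
        obtain ⟨g, hg, hgc⟩ := hr2 c
        rw [h] at hgc
        refine ⟨⟨g, hg⟩⁻¹, ?_⟩
        apply Subtype.ext
        show ((⟨g, hg⟩ : G)⁻¹ : G).1 * s * ((⟨g, hg⟩ : G)⁻¹ : G).1⁻¹ = c
        rw [← hgc]
        show g⁻¹ * (g * c * g⁻¹) * g⁻¹⁻¹ = c
        group
      · rintro ⟨g, hg⟩
        have hg' : ((g • s' : V) : X) = c := congrArg Subtype.val hg
        have hg'' : (g : X) * s * (g : X)⁻¹ = c := hg'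
        apply hr3 c s hsS
        refine ⟨(g : X)⁻¹, G.inv_mem g.2, ?_⟩
        rw [← hg'']
        group
    have h2 : Nat.card ↥(G ⊓ Subgroup.centralizer ({s} : Set X)) = Nat.card (MulAction.stabilizer G s') := by
      apply Nat.card_congr
      refine
        { toFun := fun x => ⟨⟨x.1, x.2.1⟩, ?_⟩
          invFun := fun y => ⟨y.1.1, y.1.2, ?_⟩
          left_inv := fun x => rfl
          right_inv := fun y => rfl }
      · rw [MulAction.mem_stabilizer_iff, hact]
        exact (hmemC s' ⟨x.1, x.2.1⟩).2 x.2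
      · have : φ y.1 s' = s' := y.2
        exact ((hmemC s' y.1).1 this).2
    rw [h1, h2]
    have h3 := Subgroup.card_mul_index (MulAction.stabilizer G s')
    rw [MulAction.index_stabilizer] at h3
    rw [mul_comm, h3.symm]
    rfl
  have hconstC : ∀ c : V, Nat.card (ConjClasses ↥(C c)) * Nat.card (C c) =
      Nat.card (ConjClasses ↥(G ⊓ Subgroup.centralizer ({r c} : Set X))) *
        Nat.card ↥(G ⊓ Subgroup.centralizer ({r c} : Set X)) := by
    intro c
    obtain ⟨g, hg, hgc⟩ := hr2 c
    let e' := conjEquiv G g hg (c : X) (r c) hgc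
    rw [card_conjClasses_congr e', Nat.card_congr e'.toEquiv]
  have hSsum : ∑ c : V, Nat.card (ConjClasses ↥(C c)) * Nat.card (C c) =
      Nat.card G * ∑ s ∈ S, Nat.card (ConjClasses ↥(G ⊓ Subgroup.centralizer ({s} : Set X))) := by
    simp only [hconstC]
    have h := Finset.sum_fiberwise_of_maps_to (s := (Finset.univ : Finset V)) (t := S) (g := r)
      (fun c _ => hr1 c)
      (fun c => Nat.card (ConjClasses ↥(G ⊓ Subgroup.centralizer ({r c} : Set X))) *
        Nat.card ↥(G ⊓ Subgroup.centralizer ({r c} : Set X)))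
    rw [← h, Finset.mul_sum]
    refine Finset.sum_congr rfl fun s hs => ?_
    have h1 : ∀ c ∈ (Finset.univ : Finset V).filter (fun c => r c = s),
        Nat.card (ConjClasses ↥(G ⊓ Subgroup.centralizer ({r c} : Set X))) *
          Nat.card ↥(G ⊓ Subgroup.centralizer ({r c} : Set X)) =
        Nat.card (ConjClasses ↥(G ⊓ Subgroup.centralizer ({s} : Set X))) *
          Nat.card ↥(G ⊓ Subgroup.centralizer ({s} : Set X)) := by
      intro c hc
      rw [(Finset.mem_filter.mp hc).2]
    rw [Finset.sum_congr rfl h1, Finset.sum_const, smul_eq_mul]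
    have h2 : ((Finset.univ : Finset V).filter (fun c => r c = s)).card = Nat.card {c : V // r c = s} := by
      rw [Nat.card_eq_fintype_card, Fintype.card_subtype]
    rw [h2, ← horb s (hSV s hs) hs]
    ring
  have hcardS : Nat.card Sg = Nat.card V * Nat.card G := by
    rw [Nat.card_congr (SemidirectProduct.equivProd (N := ↥V) (G := ↥G) (φ := φ)), Nat.card_prod]
  have hfinal : Nat.card (ConjClasses Sg) * (Nat.card V * Nat.card G) =
      (∑ s ∈ S, Nat.card (ConjClasses ↥(G ⊓ Subgroup.centralizer ({s} : Set X)))) * (Nat.card V * Nat.card G) := by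
    rw [← hcardS, ← card_comm_eq_card_conjClasses_mul_card, hsum1, hswap, Nat.card_sigma, hcardS]
    simp only [hcp]
    rw [hSsum]
    ring
  rw [hk]
  exact Nat.eq_of_mul_eq_mul_right (Nat.mul_pos Nat.card_pos Nat.card_pos) hfinal

end Cfsg.Agent.S4956
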