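import Mathlib
import Cfsg.Agent.Lib.KGauss
import Cfsg.Agent.Lib.KMain
import Cfsg.Statements.S4958
-- import your own Cfsg.Agent.* helpers here

set_option autoImplicit false
open Cfsg

namespace Cfsg.Agent.S4958

open Cfsg.Agent.Lib.KGauss Cfsg.Agent.Lib.KMain Cfsg.Agent.Lib.CharBasic

universe u

variable {X : Type u} [Group X] [Finite X] {p : ℕ}

/-- The conjugation action on `Additive V`. -/
noncomputable def conjAct (V : Subgroup X) [V.Normal] (A : Subgroup X) [CommGroup V] :
    A →* AddMonoid.End (Additive V) where
  toFun a :=
    { toFun := fun m => Additive.ofMul ⟨(a : X) * (Additive.toMul m : V) * (a : X)⁻¹,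
        ‹V.Normal›.conj_mem _ (Additive.toMul m).2 _⟩
      map_zero' := by
        apply Additive.toMul.injective
        apply Subtype.ext
        simp
      map_add' := fun x y => by
        apply Additive.toMul.injective
        apply Subtype.ext
        simp only [toMul_add, toMul_ofMul, MulMemClass.coe_mul]
        group }
  map_one' := by
    refine AddMonoidHom.ext fun m => ?_
    apply Additive.toMul.injective
    apply Subtype.ext
    show ((1 : A) : X) * _ * ((1 : A) : X)⁻¹ = _
    simp
    rfl
  map_mul' a b := by
    refine AddMonoidHom.ext fun m => ?_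
    apply Additive.toMul.injective
    apply Subtype.ext
    show ((a * b : A) : X) * _ * ((a * b : A) : X)⁻¹ = (a : X) * ((b : X) * _ * (b : X)⁻¹) * (a : X)⁻¹
    simp only [Subgroup.coe_mul]
    group

theorem exists_y (hp : p.Prime) (V : Subgroup X) [V.Normal] (hVexp : ∀ v ∈ V, v ^ p = 1)
    (hab : ∀ a ∈ V, ∀ b ∈ V, a * b = b * a) (A : Subgroup X)
    (hA : ∀ a ∈ A, ∀ b ∈ A, a * b = b * a) (hco : Nat.Coprime (Nat.card A) p) :
    ∃ y : A → ℂ, GaussFn.{u, u} p A y (fun a => ∀ w ∈ V, (a : X) * w * (a : X)⁻¹ = w) ∧
      ∀ a : A, ‖y a‖ ^ 2 * (Nat.card {w : V // (a : X) * w * (a : X)⁻¹ = w} : ℝ) = Nat.card V := by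
  classical
  letI iV : CommGroup V := { (inferInstance : Group V) with
    mul_comm := fun a b => Subtype.ext (hab a a.2 b b.2) }
  letI iA : CommGroup A := { (inferInstance : Group A) with
    mul_comm := fun a b => Subtype.ext (hA a a.2 b b.2) }
  letI : Fintype A := Fintype.ofFinite A
  have hM : ∀ m : Additive V, p • m = 0 := by
    intro m
    apply Additive.toMul.injective
    apply Subtype.ext
    simpa using hVexp _ (Additive.toMul m).2
  obtain ⟨y, h1, h2⟩ := exists_gauss (A := A) hp (by rwa [← Nat.card_eq_fintype_card]) (Nat.card (Additive V))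
    (Additive V) rfl hM (conjAct V A)
  have hiff : ∀ (a : A) (w : V), (conjAct V A a (Additive.ofMul w) = Additive.ofMul w) ↔
      (a : X) * w * (a : X)⁻¹ = w := by
    intro a w
    constructor
    · intro h
      have := congrArg (fun m : Additive V => ((Additive.toMul m : V) : X)) h
      exact this
    · intro h
      apply Additive.toMul.injective
      apply Subtype.ext
      exact h
  refine ⟨y, h1.congr fun a => ⟨fun h w hw => (hiff a ⟨w, hw⟩).1 (h _), fun h m => (hiff a _).2 (h _ (Additive.toMul m).2)⟩, fun a => ?_⟩
  have h3 : Nat.card {w : V // (a : X) * w * (a : X)⁻¹ = w} =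
      Nat.card {m : Additive V // conjAct V A a m = m} :=
    Nat.card_congr (Equiv.subtypeEquiv Additive.ofMul fun w => (hiff a w).symm)
  have h4 := h2 a
  have h5 : Nat.card (Additive V) = Nat.card V := Nat.card_congr Additive.toMul
  rw [h3, ← h5]
  exact h4



/-- Let X be a finite group and V a normal subgroup of X in which every element has order dividing the prime p, whose index in X is prime to p and which is its own centralizer in X; so V is an elementary abelian normal Sylow p-subgroup, and any complement G to V in X is a group of order prime to p acting faithfully on the vector space V by conjugation (the coprime linear setting of the k(GV) problem). Let G be a complement to V in X and suppose that for some v in V the centralizer of v in G is abelian. Then the number of conjugacy classes of X is at most the order of V (the abelian-stabilizer criterion for the k(GV) problem). -/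
theorem result {X : Type*} [Group X] [Finite X] (p : ℕ) [Fact p.Prime] (V : Subgroup X) [V.Normal] (hVexp : ∀ v ∈ V, v ^ p = 1) (hidx : ¬ p ∣ V.index) (hself : Subgroup.centralizer (V : Set X) = V) (G : Subgroup X) (hGV : Subgroup.IsComplement' V G) (v : X) (hv : v ∈ V) (hab : ∀ a ∈ G ⊓ Subgroup.centralizer ({v} : Set X), ∀ b ∈ G ⊓ Subgroup.centralizer ({v} : Set X), a * b = b * a) : Nat.card (ConjClasses X) ≤ Nat.card V := by
  classical
  have hp : p.Prime := Fact.out
  have hab' : ∀ a ∈ V, ∀ b ∈ V, a * b = b * a := by
    intro a ha b hb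
    have : a ∈ Subgroup.centralizer (V : Set X) := by rw [hself]; exact ha
    exact (Subgroup.mem_centralizer_iff.1 this b hb).symm
  have hco : Nat.Coprime (Nat.card ↥(G ⊓ Subgroup.centralizer ({v} : Set X))) p := by
    have h1 : Nat.card ↥(G ⊓ Subgroup.centralizer ({v} : Set X)) ∣ Nat.card G :=
      Subgroup.card_dvd_of_le inf_le_left
    have h2 : V.index = Nat.card G := hGV.symm.index_eq_card
    rw [Nat.coprime_comm, hp.coprime_iff_not_dvd]
    intro h
    exact hidx (h2 ▸ h.trans h1)
  obtain ⟨y, ⟨ι, i1, ε, z, lam, w, h1, h2, h3, h4, h5⟩, h6⟩ := exists_y hp V hVexp hab' _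
    (fun a ha b hb => hab a ha b hb) hco
  refine main hVexp hidx hab' hGV hv ε z h1 (fun i a => (lam i a : ℂ))
    (fun i => IsIrrCharacter.isCharacter (isIrrCharacter_of_hom (lam i))) w h2 y h3 ?_ ?_
    (fun _ => Nat.card V) h6 (fun _ => le_rfl)
  · apply h4
    intro x _
    simp
  · intro a ha
    apply h5
    intro h
    apply ha
    apply Subtype.ext
    have h7 : (a : X) ∈ Subgroup.centralizer (V : Set X) := by
      rw [Subgroup.mem_centralizer_iff]
      intro x hx
      have := h x hx
      calc x * (a : X) = (a : X) * x * (a : X)⁻¹ * a := by rw [this]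
        _ = (a : X) * x := by group
    rw [hself] at h7
    exact eq_one_of_mem_both hGV h7 a.2.1

end Cfsg.Agent.S4958
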