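import Mathlib
import Cfsg.Agent.Lib.KRVInd
import Cfsg.Agent.Lib.BlockVal
import Cfsg.Statements.S4959
-- import your own Cfsg.Agent.* helpers here

set_option autoImplicit false
open Cfsg

namespace Cfsg.Agent.S4959

open Cfsg.Agent.Lib.KRVMain Cfsg.Agent.Lib.KRVInd

section helpers

/-- Packaging additive actions. -/
noncomputable def mkAct {A S : Type*} [Group A] [AddCommGroup S] (p : ℕ) [Module (ZMod p) S]
    (c : A → (S →+ S)) (h1 : ∀ m, c 1 m = m) (h2 : ∀ a b m, c (a * b) m = c a (c b m)) :
    A →* Module.End (ZMod p) S where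
  toFun a := (c a).toZModLinearMap p
  map_one' := by
    apply LinearMap.ext
    intro m
    simpa using h1 m
  map_mul' a b := by
    apply LinearMap.ext
    intro m
    simpa using h2 a b m

/-- Packaging biadditive forms. -/
noncomputable def mkForm {S : Type*} [AddCommGroup S] (p : ℕ) [Module (ZMod p) S]
    (b : S → S → ZMod p) (hl : ∀ x y z, b (x + y) z = b x z + b y z)
    (hr : ∀ x y z, b x (y + z) = b x y + b x z) : S →ₗ[ZMod p] S →ₗ[ZMod p] ZMod p :=
  LinearMap.mk₂ (ZMod p) b hl
    (fun c x y => ((AddMonoidHom.mk' (fun x => b x y) (fun u v => hl u v y)).toZModLinearMap p).map_smul c x)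
    hr
    (fun c x y => ((AddMonoidHom.mk' (fun y => b x y) (fun u v => hr x u v)).toZModLinearMap p).map_smul c y)

/-- The theorem with the module presented abstractly. -/
theorem core {X S : Type*} [Group X] [Finite X] (p : ℕ) [Fact p.Prime] (V : Subgroup X) [V.Normal]
    (hVexp : ∀ v ∈ V, v ^ p = 1) (hidx : ¬ p ∣ V.index)
    (hab : ∀ a ∈ V, ∀ b ∈ V, a * b = b * a) (G : Subgroup X)
    (hGV : Subgroup.IsComplement' V G) (v : X) (hv : v ∈ V) (U : Subgroup X) (hUV : U ≤ V)
    (hUinv : ∀ h ∈ G, h * v * h⁻¹ = v → ∀ u ∈ U, h * u * h⁻¹ ∈ U)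
    (hUfaith : ∀ h ∈ G, h * v * h⁻¹ = v → (∀ u ∈ U, h * u * h⁻¹ = u) → h = 1)
    (β : X → X → ZMod p) (hβl : ∀ u ∈ U, ∀ u' ∈ U, ∀ w ∈ U, β (u * u') w = β u w + β u' w)
    (hβr : ∀ u ∈ U, ∀ w ∈ U, ∀ w' ∈ U, β u (w * w') = β u w + β u w')
    (hβinv : ∀ h ∈ G, h * v * h⁻¹ = v → ∀ u ∈ U, ∀ w ∈ U, β (h * u * h⁻¹) (h * w * h⁻¹) = β u w)
    (hβnd : ∀ u ∈ U, (∀ w ∈ U, β u w = 0) → u = 1)
    [AddCommGroup S] [Module (ZMod p) S] [Finite S] (e : S → X)
    (he : ∀ x y, e (x + y) = e x * e y) (hei : Function.Injective e)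
    (hem : ∀ x, e x ∈ U) (her : ∀ x ∈ U, ∃ s, e s = x) :
    Nat.card (ConjClasses X) ≤ Nat.card V := by
  classical
  have hp : p.Prime := Fact.out
  have he0 : e 0 = 1 := by
    have h1 := he 0 0
    rw [add_zero] at h1
    exact left_eq_mul.1 h1
  let A : Subgroup X := G ⊓ Subgroup.centralizer ({v} : Set X)
  have hAG : ∀ a : A, (a : X) ∈ G := fun a => a.2.1
  have hAv : ∀ a : A, (a : X) * v * (a : X)⁻¹ = v := by
    intro a
    have := Subgroup.mem_centralizer_singleton_iff.1 a.2.2
    rw [this, mul_inv_cancel_right]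
  have hco : Nat.Coprime (Nat.card A) p := by
    have h1 : Nat.card A ∣ Nat.card G := Subgroup.card_dvd_of_le inf_le_left
    have h2 : V.index = Nat.card G := hGV.symm.index_eq_card
    rw [Nat.coprime_comm, hp.coprime_iff_not_dvd]
    intro h
    exact hidx (h2 ▸ h.trans h1)
  have hex : ∀ (a : A) (s : S), ∃ s' : S, e s' = (a : X) * e s * (a : X)⁻¹ := fun a s =>
    her _ (hUinv _ (hAG a) (hAv a) _ (hem s))
  choose c₀ hc₀ using hex
  let c : A → (S →+ S) := fun a =>
    { toFun := c₀ a
      map_zero' := by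
        apply hei
        rw [hc₀, he0]
        group
      map_add' := fun x y => by
        apply hei
        rw [hc₀, he, he, hc₀, hc₀]
        group }
  have hc : ∀ (a : A) (s : S), e (c a s) = (a : X) * e s * (a : X)⁻¹ := hc₀
  have hc1 : ∀ m, c 1 m = m := by
    intro m
    apply hei
    rw [hc]
    simp
  have hc2 : ∀ a b m, c (a * b) m = c a (c b m) := by
    intro a b m
    apply hei
    rw [hc, hc, hc]
    simp only [Subgroup.coe_mul]
    group
  let act : A →* Module.End (ZMod p) S := mkAct p c hc1 hc2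
  have hact : ∀ (a : A) (s : S), e (act a s) = (a : X) * e s * (a : X)⁻¹ := hc₀
  let B : S →ₗ[ZMod p] S →ₗ[ZMod p] ZMod p :=
    mkForm p (fun x y => β (e x) (e y))
      (fun x y z => by
        show β (e (x + y)) (e z) = _
        rw [he]
        exact hβl _ (hem x) _ (hem y) _ (hem z))
      (fun x y z => by
        show β (e x) (e (y + z)) = _
        rw [he]
        exact hβr _ (hem x) _ (hem y) _ (hem z))
  have hB : ∀ x y, B x y = β (e x) (e y) := fun _ _ => rfl
  have hBnd : ∀ x, (∀ y, B x y = 0) → x = 0 := by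
    intro x hx
    apply hei
    rw [he0]
    refine hβnd _ (hem x) fun w hw => ?_
    obtain ⟨s, rfl⟩ := her w hw
    exact hx s
  have hBinv : ∀ a x y, B (act a x) (act a y) = B x y := by
    intro a x y
    rw [hB, hB, hact, hact]
    exact hβinv _ (hAG a) (hAv a) _ (hem x) _ (hem y)
  obtain ⟨M, hM⟩ := Cfsg.Agent.Lib.BlockVal.exists_isPModular hp
  obtain ⟨f, hf⟩ := exists_good act hco hM B hBnd hBinv
  have hfaith : ∀ a, a ≠ 1 → ∃ s, act a s ≠ s := by
    intro a ha
    by_contra hcon
    push Not at hcon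
    apply ha
    apply Subtype.ext
    refine hUfaith _ (hAG a) (hAv a) fun u hu => ?_
    obtain ⟨s, rfl⟩ := her u hu
    rw [← hact, hcon s]
  let CV : A → Subgroup X := fun a => V ⊓ Subgroup.centralizer ({(a : X)} : Set X)
  have hCVm : ∀ (a : A) (w : X), w ∈ CV a ↔ w ∈ V ∧ (a : X) * w * (a : X)⁻¹ = w := by
    intro a w
    constructor
    · rintro ⟨h1, h2⟩
      refine ⟨h1, ?_⟩
      have := Subgroup.mem_centralizer_singleton_iff.1 h2
      rw [← this, mul_inv_cancel_right]
    · rintro ⟨h1, h2⟩
      refine ⟨h1, Subgroup.mem_centralizer_singleton_iff.2 ?_⟩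
      conv_lhs => rw [← h2]
      group
  have hUcard : Nat.card S = Nat.card U := by
    refine Nat.card_eq_of_bijective (fun s => (⟨e s, hem s⟩ : U)) ⟨?_, ?_⟩
    · intro x y h
      exact hei (congrArg Subtype.val h)
    · rintro ⟨u, hu⟩
      obtain ⟨s, rfl⟩ := her u hu
      exact ⟨s, rfl⟩
  refine main_good (V := V) (G := G) (v := v) hVexp hidx hab hGV hv A rfl act hM f hf hfaith
    (fun a => U.relIndex (CV a)) ?_ ?_
  · intro a
    have h1 : Nat.card {w : V // (a : X) * w * (a : X)⁻¹ = w} = Nat.card (CV a) := by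
      refine Nat.card_congr ⟨fun w => ⟨w.1, (hCVm a _).2 ⟨w.1.2, w.2⟩⟩,
        fun w => ⟨⟨w.1, ((hCVm a _).1 w.2).1⟩, ((hCVm a _).1 w.2).2⟩, fun _ => rfl, fun _ => rfl⟩
    have h2 : PP act a = Nat.card (U.subgroupOf (CV a)) := by
      unfold PP
      refine Nat.card_eq_of_bijective (fun s => (⟨⟨e s.1, (hCVm a _).2 ⟨hUV (hem _), ?_⟩⟩, hem s.1⟩ :
        U.subgroupOf (CV a))) ⟨?_, ?_⟩
      · rw [← hact, s.2]
      · intro x y h
        have h3 : e x.1 = e y.1 := congrArg (fun t : CV a => (t : X)) (congrArg Subtype.val h)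
        exact Subtype.ext (hei h3)
      · rintro ⟨⟨w, hw⟩, hw2⟩
        have hw3 : w ∈ U := hw2
        obtain ⟨s, rfl⟩ := her w hw3
        refine ⟨⟨s, ?_⟩, rfl⟩
        apply hei
        rw [hact]
        exact ((hCVm a _).1 hw).2
    rw [h1, h2]
    exact (Subgroup.card_mul_index (U.subgroupOf (CV a))).symm
  · intro a
    have h4 : U.relIndex (CV a) ≤ U.relIndex V :=
      Subgroup.relIndex_le_of_le_right inf_le_left (Subgroup.index_ne_zero_of_finite (H := U.subgroupOf V))
    have h5 : Nat.card (U.subgroupOf V) * U.relIndex V = Nat.card V :=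
      Subgroup.card_mul_index (U.subgroupOf V)
    have h6 : Nat.card (U.subgroupOf V) = Nat.card U :=
      Nat.card_congr (Subgroup.subgroupOfEquivOfLe hUV).toEquiv
    rw [h6] at h5
    rw [hUcard, ← h5]
    exact Nat.mul_le_mul_left _ h4

end helpers

/-- Let X be a finite group and V a normal subgroup of X in which every element has order dividing the prime p, whose index in X is prime to p and which is its own centralizer in X; so V is an elementary abelian normal Sylow p-subgroup, and any complement G to V in X is a group of order prime to p acting faithfully on the vector space V by conjugation (the coprime linear setting of the k(GV) problem). Let G be a complement to V in X, let v be in V and let H be the centralizer of v in G. Suppose there is a subgroup U of V normalized by H, on which H acts faithfully, and carrying an H-invariant bi-additive pairing β with values in the integers modulo p that is nondegenerate on U (equivalently: the restriction of the module V to H has a faithful self-dual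 submodule; such a v is called a real vector for G). Then the number of conjugacy classes of X is at most the order of V (the real-vector criterion for the k(GV) problem). The pairing is given as a function on X whose relevant values are those on pairs from U. -/
theorem result {X : Type*} [Group X] [Finite X] (p : ℕ) [Fact p.Prime] (V : Subgroup X) [V.Normal] (hVexp : ∀ v ∈ V, v ^ p = 1) (hidx : ¬ p ∣ V.index) (hself : Subgroup.centralizer (V : Set X) = V) (G : Subgroup X) (hGV : Subgroup.IsComplement' V G) (v : X) (hv : v ∈ V) (U : Subgroup X) (hUV : U ≤ V) (hUinv : ∀ h ∈ G, h * v * h⁻¹ = v → ∀ u ∈ U, h * u * h⁻¹ ∈ U) (hUfaith : ∀ h ∈ G, h * v * h⁻¹ = v → (∀ u ∈ U, h * u * h⁻¹ = u) → h = 1) (β : X → X → ZMod p) (hβl : ∀ u ∈ U, ∀ u' ∈ U, ∀ w ∈ U, β (u * u') w = β u w + β u' w) (hβr : ∀ u ∈ U, ∀ w ∈ U, ∀ w' ∈ U, β u (w * w') = β u w + β u w') (hβinv : ∀ h ∈ G, h * v * h⁻¹ = v → ∀ u ∈ U, ∀ w ∈ U, β (h * u * h⁻¹) (h * w * h⁻¹) = β u w) (hβnd : ∀ u ∈ U, (∀ w ∈ U, β u w = 0) → u = 1) : Nat.card (ConjClasses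 X) ≤ Nat.card V := by
  classical
  have hab : ∀ a ∈ V, ∀ b ∈ V, a * b = b * a := by
    intro a ha b hb
    have : a ∈ Subgroup.centralizer (V : Set X) := by rw [hself]; exact ha
    exact (Subgroup.mem_centralizer_iff.1 this b hb).symm
  letI iU : CommGroup U := { (inferInstance : Group U) with
    mul_comm := fun a b => Subtype.ext (hab a (hUV a.2) b (hUV b.2)) }
  have hSp : ∀ m : Additive U, p • m = 0 := by
    intro m
    apply Additive.toMul.injective
    apply Subtype.ext
    simpa using hVexp _ (hUV (Additive.toMul m).2)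
  letI iM : Module (ZMod p) (Additive U) := AddCommGroup.zmodModule hSp
  haveI iF : Finite (Additive U) := Finite.of_equiv U Additive.ofMul
  exact core p V hVexp hidx hab G hGV v hv U hUV hUinv hUfaith β hβl hβr hβinv hβnd
    (S := Additive U) (fun s => ((Additive.toMul s : U) : X)) (fun _ _ => rfl)
    (fun x y h => Additive.toMul.injective (Subtype.ext h)) (fun s => (Additive.toMul s : U).2)
    (fun x hx => ⟨Additive.ofMul ⟨x, hx⟩, rfl⟩)

end Cfsg.Agent.S4959
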