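import Mathlib
import Cfsg.Statements.S4964
import Cfsg.Agent.Lib.BlockIdem
import Cfsg.Agent.Lib.BlockLocal
import Cfsg.Agent.Lib.BlockNormal
import Cfsg.Agent.Lib.BlockOrth
import Cfsg.Agent.Lib.CharBasic
import Cfsg.Agent.Lib.CharIntegrality
import Cfsg.Agent.Lib.CharKernel
import Cfsg.Agent.Lib.CharNormal
import Cfsg.Agent.Lib.Frat
import Cfsg.Agent.Lib.Glauberman

set_option autoImplicit false
set_option linter.style.haveILetI false
open Cfsg

namespace Cfsg.Agent.S4964

open Cfsg.Agent.Lib.BlockLocal Cfsg.Agent.Lib.BlockIdem Cfsg.Agent.Lib.BlockNormal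
open Cfsg.Agent.Lib.BlockOrth Cfsg.Agent.Lib.CharBasic Cfsg.Agent.Lib.CharIntegrality
open Cfsg.Agent.Lib.CharKernel Cfsg.Agent.Lib.CharNormal
open scoped ComplexConjugate

universe u

variable {G : Type u} [Group G]

/-- A `p`-element commuting with a `p`-regular element `y` with `n y` also `p`-regular is trivial. -/
theorem eq_one_of_commute_regular [Finite G] {p : ℕ} (hp : p.Prime) {n y : G}
    (hn : ∃ k : ℕ, n ^ p ^ k = 1) (hc : Commute n y) (hy : ¬ p ∣ orderOf y)
    (hy' : ¬ p ∣ orderOf (n * y)) : n = 1 := by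
  obtain ⟨k, hk⟩ := hn
  set K := orderOf y * orderOf (n * y) with hK
  have h1 : n ^ K = 1 := by
    have h2 := hc.mul_pow K
    have h3 : (n * y) ^ K = 1 := by
      rw [hK, mul_comm, pow_mul, pow_orderOf_eq_one, one_pow]
    have h4 : y ^ K = 1 := by
      rw [hK, pow_mul, pow_orderOf_eq_one, one_pow]
    rw [h3, h4, mul_one] at h2
    exact h2.symm
  have h5 : orderOf n ∣ p ^ k := orderOf_dvd_of_pow_eq_one hk
  have h6 : orderOf n ∣ K := orderOf_dvd_of_pow_eq_one h1
  have h7 : Nat.Coprime (p ^ k) K := by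
    apply Nat.Coprime.pow_left
    rw [Nat.Prime.coprime_iff_not_dvd hp, hK, hp.dvd_mul]
    tauto
  have h8 : orderOf n = 1 := Nat.eq_one_of_dvd_coprimes h7 h5 h6
  exact orderOf_eq_one_iff.1 h8

/-- Inflation multiplies central characters by a natural number. -/
theorem exists_centralChar_comp_mk (N : Subgroup G) [N.Normal] (g : G) :
    ∃ m : ℕ, ∀ χ : G ⧸ N → ℂ,
      centralChar (χ ∘ (QuotientGroup.mk : G → G ⧸ N)) g = m * centralChar χ (g : G ⧸ N) := by
  set C := (Subgroup.centralizer ({(g : G ⧸ N)} : Set (G ⧸ N))).comap (QuotientGroup.mk' N) with hC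
  have hle : Subgroup.centralizer ({g} : Set G) ≤ C := by
    intro x hx
    rw [Subgroup.mem_centralizer_singleton_iff] at hx
    rw [hC, Subgroup.mem_comap, Subgroup.mem_centralizer_singleton_iff]
    change (x : G ⧸ N) * (g : G ⧸ N) = (g : G ⧸ N) * (x : G ⧸ N)
    rw [← QuotientGroup.mk_mul, ← QuotientGroup.mk_mul, hx]
  have h1 : (Subgroup.centralizer ({g} : Set G)).relIndex C * C.index =
      (Subgroup.centralizer ({g} : Set G)).index := Subgroup.relIndex_mul_index hle
  have h2 : C.index = (Subgroup.centralizer ({(g : G ⧸ N)} : Set (G ⧸ N))).index :=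
    Subgroup.index_comap_of_surjective _ (QuotientGroup.mk'_surjective N)
  refine ⟨(Subgroup.centralizer ({g} : Set G)).relIndex C, fun χ => ?_⟩
  unfold centralChar
  rw [← h1, h2]
  simp only [Function.comp, QuotientGroup.mk_one]
  push_cast
  ring

/-- For a `p`-regular `r` centralizing the `p`-group `D ≥ N`, conjugacy classes of `r` in `G` and `G/N`
have equal size. -/
theorem index_centralizer_eq [Finite G] {p : ℕ} (hp : p.Prime) {D N : Subgroup G} [N.Normal]
    (hD : IsPGroup p D) (hND : N ≤ D) {r : G} (hr : ¬ p ∣ orderOf r)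
    (hrD : r ∈ Subgroup.centralizer (D : Set G)) :
    (Subgroup.centralizer ({r} : Set G)).index =
      (Subgroup.centralizer ({(r : G ⧸ N)} : Set (G ⧸ N))).index := by
  set C := (Subgroup.centralizer ({(r : G ⧸ N)} : Set (G ⧸ N))).comap (QuotientGroup.mk' N) with hC
  have h2 : C.index = (Subgroup.centralizer ({(r : G ⧸ N)} : Set (G ⧸ N))).index :=
    Subgroup.index_comap_of_surjective _ (QuotientGroup.mk'_surjective N)
  rw [← h2]
  congr 1
  apply le_antisymm
  · intro x hx
    rw [Subgroup.mem_centralizer_singleton_iff] at hx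
    rw [hC, Subgroup.mem_comap, Subgroup.mem_centralizer_singleton_iff]
    change (x : G ⧸ N) * (r : G ⧸ N) = (r : G ⧸ N) * (x : G ⧸ N)
    rw [← QuotientGroup.mk_mul, ← QuotientGroup.mk_mul, hx]
  · intro x hx
    rw [hC, Subgroup.mem_comap, Subgroup.mem_centralizer_singleton_iff] at hx
    change (x : G ⧸ N) * (r : G ⧸ N) = (r : G ⧸ N) * (x : G ⧸ N) at hx
    rw [← QuotientGroup.mk_mul, ← QuotientGroup.mk_mul] at hx
    -- `x r = r x n`
    set n : G := x * r * x⁻¹ * r⁻¹ with hn
    have hnN : n ∈ N := by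
      have h3 : (x * r)⁻¹ * (r * x) ∈ N := QuotientGroup.eq.1 hx
      have h4 : r * x * (x * r)⁻¹ ∈ N := by
        have := (inferInstance : N.Normal).conj_mem _ h3 (r * x)
        convert this using 1
        group
      have h5 := N.inv_mem h4
      have h5' : n = (r * x * (x * r)⁻¹)⁻¹ := by rw [hn]; group
      rw [h5']
      exact h5
    have hnD : n ∈ D := hND hnN
    have hcomm : Commute n r := by
      exact (Subgroup.mem_centralizer_iff.1 hrD) n hnD
    have hnr : n * r = x * r * x⁻¹ := by rw [hn]; group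
    have hord : orderOf (n * r) = orderOf r := by
      rw [hnr, ← MulAut.conj_apply]
      exact (MulAut.conj x).orderOf_eq r
    have hn1 : n = 1 := by
      refine eq_one_of_commute_regular hp ?_ hcomm hr (by rwa [hord])
      obtain ⟨k, hk⟩ := hD ⟨n, hnD⟩
      refine ⟨k, ?_⟩
      have := congrArg Subtype.val hk
      simpa using this
    rw [Subgroup.mem_centralizer_singleton_iff]
    have h6 : x * r * x⁻¹ = r := by rw [← hnr, hn1, one_mul]
    have h7 : x * r = r * x := by
      calc x * r = x * r * x⁻¹ * x := by group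
        _ = r * x := by rw [h6]
    exact h7

/-- Every `p`-regular element of `G/N` lifts to a `p`-regular element of `G`. -/
theorem exists_regular_lift [Finite G] {p : ℕ} (hp : p.Prime) (N : Subgroup G) [N.Normal]
    (g : G ⧸ N) (hg : ¬ p ∣ orderOf g) : ∃ r : G, (r : G ⧸ N) = g ∧ ¬ p ∣ orderOf r := by
  letI : Fintype G := Fintype.ofFinite G
  obtain ⟨g₀, rfl⟩ := QuotientGroup.mk_surjective g
  obtain ⟨x, y, hxy, hc, ⟨k, hk⟩, hy⟩ := exists_isPPart hp g₀
  refine ⟨y, ?_, hy⟩
  have h1 : ((x : G ⧸ N)) * (y : G ⧸ N) = (g₀ : G ⧸ N) := by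
    rw [← QuotientGroup.mk_mul, hxy]
  have hc' : Commute (x : G ⧸ N) (y : G ⧸ N) := by
    change (x : G ⧸ N) * (y : G ⧸ N) = (y : G ⧸ N) * (x : G ⧸ N)
    rw [← QuotientGroup.mk_mul, ← QuotientGroup.mk_mul, hc.eq]
  have hy' : ¬ p ∣ orderOf (y : G ⧸ N) := by
    intro h
    apply hy
    exact h.trans (orderOf_map_dvd (QuotientGroup.mk' N) y)
  have hx1 : (x : G ⧸ N) = 1 := by
    refine eq_one_of_commute_regular hp ⟨k, ?_⟩ hc' hy' (by rwa [h1])
    have h2 : x ^ p ^ k = 1 := by rw [← hk, pow_orderOf_eq_one]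
    rw [← QuotientGroup.mk_pow, h2, QuotientGroup.mk_one]
  rw [← h1, hx1, one_mul]

/-- A `p`-regular element centralizing `D/D'` centralizes the `p`-group `D`. -/
theorem mem_centralizer_of_regular [Finite G] {p : ℕ} [hpf : Fact p.Prime] {D : Subgroup G} [D.Normal]
    (hD : IsPGroup p D) {r : G} (hr : ¬ p ∣ orderOf r)
    (hrD : (r : G ⧸ ⁅D, D⁆) ∈ Subgroup.centralizer
      ((D.map (QuotientGroup.mk' ⁅D, D⁆) : Subgroup (G ⧸ ⁅D, D⁆)) : Set (G ⧸ ⁅D, D⁆))) :
    r ∈ Subgroup.centralizer (D : Set G) := by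
  have hp := hpf.out
  have hA : Subgroup.zpowers r ≤ Subgroup.normalizer (D : Set G) := by
    rw [Subgroup.normalizer_eq_top_iff.2 inferInstance]
    exact le_top
  have hcop : (Nat.card (Subgroup.zpowers r)).Coprime (Nat.card (frattini D)) := by
    rw [Nat.card_zpowers]
    have hF : IsPGroup p (frattini D) := by
      have hD' : IsPGroup p D := hD
      exact IsPGroup.to_subgroup hD' _
    obtain ⟨b, hb⟩ := IsPGroup.iff_card.1 hF
    rw [hb]
    apply Nat.Coprime.pow_right
    exact ((Nat.Prime.coprime_iff_not_dvd hp).2 hr).symm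
  have htriv : ∀ a ∈ Subgroup.zpowers r, ∀ k ∈ D,
      a * k * a⁻¹ * k⁻¹ ∈ (frattini D).map D.subtype := by
    intro a ha k hk
    have h1 : (commutator D).map D.subtype = ⁅D, D⁆ := by
      rw [commutator_def, Subgroup.map_commutator, ← MonoidHom.range_eq_map, Subgroup.range_subtype]
    have h2 : (commutator D) ≤ frattini D := Cfsg.Agent.Lib.Frat.commutator_le_frattini hD
    have h3 : ⁅D, D⁆ ≤ (frattini D).map D.subtype := by
      rw [← h1]
      exact Subgroup.map_mono h2
    apply h3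
    -- the image of `a` centralizes the image of `D`
    obtain ⟨j, rfl⟩ := Subgroup.mem_zpowers_iff.1 ha
    have h4 : ((r ^ j : G) : G ⧸ ⁅D, D⁆) ∈ Subgroup.centralizer
      ((D.map (QuotientGroup.mk' ⁅D, D⁆) : Subgroup (G ⧸ ⁅D, D⁆)) : Set (G ⧸ ⁅D, D⁆)) := by
      rw [QuotientGroup.mk_zpow]
      exact Subgroup.zpow_mem _ hrD j
    have h5 := Subgroup.mem_centralizer_iff.1 h4 (k : G ⧸ ⁅D, D⁆) ⟨k, hk, rfl⟩
    have h6 : (((r ^ j * k * (r ^ j)⁻¹ * k⁻¹ : G)) : G ⧸ ⁅D, D⁆) = 1 := by
      have : ((k : G ⧸ ⁅D, D⁆)) * ((r ^ j : G) : G ⧸ ⁅D, D⁆) =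
          ((r ^ j : G) : G ⧸ ⁅D, D⁆) * (k : G ⧸ ⁅D, D⁆) := h5
      rw [QuotientGroup.mk_mul, QuotientGroup.mk_mul, QuotientGroup.mk_mul,
        QuotientGroup.mk_inv, QuotientGroup.mk_inv, ← this]
      group
    exact (QuotientGroup.eq_one_iff _).1 h6
  exact (Cfsg.Agent.Lib.Glauberman.le_centralizer_of_frattini hA hcop htriv)
    (Subgroup.mem_zpowers r)

section Main

variable [Fintype G] {p : ℕ} [hpf : Fact p.Prime] {M : Ideal AlgInt}

/-- The support of block idempotents of `G/D'`. -/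
theorem exists_lift_of_blockCoeff_ne_zero (hM : IsPModular p M) {D : Subgroup G} [D.Normal]
    (hD : IsPGroup p D) [Fintype (G ⧸ ⁅D, D⁆)] {B : Set (IrrCharacter (G ⧸ ⁅D, D⁆))} (hB : IsPBlock M B)
    (g : G ⧸ ⁅D, D⁆) (hg : blockCoeff B g ≠ 0) :
    ∃ r : G, (r : G ⧸ ⁅D, D⁆) = g ∧ ¬ p ∣ orderOf r ∧ r ∈ Subgroup.centralizer (D : Set G) := by
  have hp := hpf.out
  have h1 : ¬ p ∣ orderOf g := fun h => hg (blockCoeff_eq_zero hM hB h)
  obtain ⟨r, rfl, hr⟩ := exists_regular_lift hp _ g h1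
  refine ⟨r, rfl, hr, mem_centralizer_of_regular hD hr ?_⟩
  by_contra h
  haveI : (D.map (QuotientGroup.mk' ⁅D, D⁆)).Normal :=
    Subgroup.Normal.map inferInstance _ (QuotientGroup.mk'_surjective _)
  exact hg (blockCoeff_eq_zero_of_not_mem_centralizer (D.map (QuotientGroup.mk' ⁅D, D⁆))
    (hD.map _) hM B hB _ h)

end Main

/-- Let D be a normal p-subgroup of the finite group G, let D′ be its commutator subgroup (normal in G), and fix a maximal ideal M of the algebraic integers containing p. Then (i) two irreducible characters of G ⧸ D′ lie in the same p-block if and only if their inflations to G do, and (ii) every p-block of G contains the inflation of some irreducible character of G ⧸ D′; so inflation induces a bijection between the p-blocks of G ⧸ D′ and the p-blocks of G. -/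
theorem result {G : Type*} [Group G] [Finite G] (p : ℕ) [Fact p.Prime] (M : Ideal Cfsg.AlgInt) (hM : Cfsg.IsPModular p M) (D : Subgroup G) [D.Normal] (hD : IsPGroup p D) : (∀ χ ψ : Cfsg.IrrCharacter (G ⧸ ⁅D, D⁆), Cfsg.SameBlock M (χ : G ⧸ ⁅D, D⁆ → ℂ) (ψ : G ⧸ ⁅D, D⁆ → ℂ) ↔ Cfsg.SameBlock M ((χ : G ⧸ ⁅D, D⁆ → ℂ) ∘ QuotientGroup.mk) ((ψ : G ⧸ ⁅D, D⁆ → ℂ) ∘ QuotientGroup.mk)) ∧ ∀ B : Set (Cfsg.IrrCharacter G), Cfsg.IsPBlock M B → ∃ χ : Cfsg.IrrCharacter (G ⧸ ⁅D, D⁆), ∃ θ ∈ B, (θ : G → ℂ) = (χ : G ⧸ ⁅D, D⁆ → ℂ) ∘ QuotientGroup.mk := by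
  classical
  have hp : p.Prime := Fact.out
  haveI hMprime := isPrime_of_isPModular hM
  letI : Fintype G := Fintype.ofFinite G
  letI : Fintype (G ⧸ ⁅D, D⁆) := Fintype.ofFinite _
  letI : Fintype (ConjClasses (G ⧸ ⁅D, D⁆)) := Fintype.ofFinite _
  have hND : ⁅D, D⁆ ≤ D := Subgroup.commutator_le_left D D
  refine ⟨fun χ ψ => ⟨fun h g => ?_, fun h => ?_⟩, fun B hB => ?_⟩
  · -- inflation preserves same block
    obtain ⟨m, hm⟩ := exists_centralChar_comp_mk ⁅D, D⁆ g
    rw [hm, hm, ← mul_sub]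
    exact memLocalIdeal_mul_left (memLocalRing_natCast m) (h (g : G ⧸ ⁅D, D⁆))
  · -- the converse, through the block idempotent
    set B := blockOf M (χ : G ⧸ ⁅D, D⁆ → ℂ) with hBdef
    have hB : IsPBlock M B := ⟨χ, rfl⟩
    by_contra hne
    have hψ : ψ ∉ B := hne
    have hχ : χ ∈ B := mem_blockOf_self χ
    have h1 := indicator_apply_eq_omega B χ
    have h2 := indicator_apply_eq_omega B ψ
    rw [if_pos hχ] at h1
    rw [if_neg hψ] at h2
    rw [omega_eq_sum_classes χ (Cfsg.Agent.Lib.BlockNormal.blockCoeff_isClassFunction B)] at h1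
    rw [omega_eq_sum_classes ψ (Cfsg.Agent.Lib.BlockNormal.blockCoeff_isClassFunction B)] at h2
    have h3 : (1 : ℂ) = ∑ K : ConjClasses (G ⧸ ⁅D, D⁆), blockCoeff B (Quotient.out K) *
        (centralChar (χ : G ⧸ ⁅D, D⁆ → ℂ) (Quotient.out K) -
          centralChar (ψ : G ⧸ ⁅D, D⁆ → ℂ) (Quotient.out K)) := by
      simp_rw [mul_sub]
      rw [Finset.sum_sub_distrib, h1, h2, sub_zero]
    have h4 : MemLocalIdeal M (1 : ℂ) := by
      rw [h3]
      refine memLocalIdeal_sum _ _ fun K _ => ?_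
      by_cases h0 : blockCoeff B (Quotient.out K) = 0
      · rw [h0, zero_mul]
        exact memLocalIdeal_zero
      · refine memLocalIdeal_mul_left (memLocalRing_blockCoeff hB _) ?_
        obtain ⟨r, hr, hreg, hcen⟩ := exists_lift_of_blockCoeff_ne_zero hM hD hB _ h0
        have hidx := index_centralizer_eq (N := ⁅D, D⁆) hp hD hND hreg hcen
        have h5 := h r
        have h6 : ∀ θ : G ⧸ ⁅D, D⁆ → ℂ,
            centralChar (θ ∘ (QuotientGroup.mk : G → G ⧸ ⁅D, D⁆)) r = centralChar θ (Quotient.out K) := by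
          intro θ
          unfold centralChar
          rw [← hr, hidx]
          simp only [Function.comp, QuotientGroup.mk_one]
        rw [h6, h6] at h5
        exact h5
    exact not_memLocalIdeal_one h4
  · -- every block contains an inflation
    by_contra hcon
    push Not at hcon
    letI : Fintype (⁅D, D⁆ : Subgroup G) := Fintype.ofFinite _
    -- no member of `B` has `D'` in its kernel
    have hker : ∀ θ ∈ B, ∃ x ∈ (⁅D, D⁆ : Subgroup G), (θ : G → ℂ) x ≠ (θ : G → ℂ) 1 := by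
      intro θ hθ
      by_contra hall
      push Not at hall
      obtain ⟨χ', h1, h2⟩ := exists_quotient_irr (⁅D, D⁆ : Subgroup G) θ.2 hall
      refine hcon ⟨χ', h1⟩ θ hθ ?_
      funext g
      exact (h2 g).symm
    have hsum : ∀ y : G, ∑ n : (⁅D, D⁆ : Subgroup G), blockCoeff B (y * n) = 0 := by
      intro y
      unfold blockCoeff
      simp_rw [finsum_mem_eq_finite_toFinset_sum _ (Set.toFinite B)]
      rw [← Finset.mul_sum]
      rw [Finset.sum_comm]
      have : ∀ θ ∈ (Set.toFinite B).toFinset,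
          ∑ n : (⁅D, D⁆ : Subgroup G), (θ : G → ℂ) 1 * conj ((θ : G → ℂ) (y * n)) = 0 := by
        intro θ hθ
        rw [← Finset.mul_sum, ← map_sum,
          sum_mul_normal_eq_zero θ.2 (⁅D, D⁆ : Subgroup G) (hker θ (by simpa using hθ)) y]
        simp
      rw [Finset.sum_eq_zero this, mul_zero]
    obtain ⟨χ₀, rfl⟩ := hB
    set B := blockOf M (χ₀ : G → ℂ) with hBdef
    have hB : IsPBlock M B := ⟨χ₀, rfl⟩
    have hχ : χ₀ ∈ B := mem_blockOf_self χ₀
    have h1 := indicator_apply_eq_omega B χ₀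
    rw [if_pos hχ] at h1
    have hy : ∃ y : G, blockCoeff B y ≠ 0 := by
      by_contra hall
      push Not at hall
      unfold omega at h1
      simp [hall] at h1
    obtain ⟨y, hy⟩ := hy
    have hyreg : ¬ p ∣ orderOf y := fun h => hy (blockCoeff_eq_zero hM hB h)
    have hycen : y ∈ Subgroup.centralizer (D : Set G) := by
      by_contra h
      exact hy (blockCoeff_eq_zero_of_not_mem_centralizer D hD hM B hB y h)
    have h2 := hsum y
    rw [Finset.sum_eq_single (⟨1, Subgroup.one_mem _⟩ : (⁅D, D⁆ : Subgroup G))] at h2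
    · simp only [mul_one] at h2
      exact hy h2
    · intro n _ hn
      by_contra hne
      have h3 : ¬ p ∣ orderOf (y * n) := fun h => hne (blockCoeff_eq_zero hM hB h)
      have hnD : (n : G) ∈ D := hND n.2
      have hc : Commute (n : G) y := by
        exact (Subgroup.mem_centralizer_iff.1 hycen) n hnD
      have h4 : (n : G) = 1 := by
        refine eq_one_of_commute_regular hp ?_ hc hyreg (by rwa [hc.eq])
        obtain ⟨k, hk⟩ := hD ⟨n, hnD⟩
        refine ⟨k, ?_⟩
        have := congrArg Subtype.val hk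
        simpa using this
      exact hn (Subtype.ext h4)
    · intro h
      exact absurd (Finset.mem_univ _) h

end Cfsg.Agent.S4964
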