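import Mathlib
import Cfsg.Statements.S4965

set_option autoImplicit false
open Cfsg

namespace Cfsg.Agent.S4965

lemma card_le_of_fiber {A B C : Type*} [Finite A] [Finite B] [Finite C] (f : A → C) (g : B → C)
    (h : ∀ c, Nat.card {a // f a = c} ≤ Nat.card {b // g b = c}) : Nat.card A ≤ Nat.card B := by
  classical
  haveI := Fintype.ofFinite C
  rw [Nat.card_congr (Equiv.sigmaFiberEquiv f).symm, Nat.card_congr (Equiv.sigmaFiberEquiv g).symm,
    Nat.card_sigma, Nat.card_sigma]
  exact Finset.sum_le_sum fun c _ => h c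

/-- Let X be a finite group with an abelian normal subgroup V (any two elements of V commute), and let φ be the action of X ⧸ V on V induced by conjugation (well defined because V is abelian; the hypothesis hφ says that the class of x acts as conjugation by x). Then X has at most as many conjugacy classes as the semidirect product of V by X ⧸ V formed with this action: the split extension has the largest class number among extensions with the given action. -/
theorem result {X : Type*} [Group X] [Finite X] (V : Subgroup X) [V.Normal] (hab : ∀ a ∈ V, ∀ b ∈ V, a * b = b * a) (φ : X ⧸ V →* MulAut ↥V) (hφ : ∀ (x : X) (v : ↥V), ((φ (QuotientGroup.mk x) v : ↥V) : X) = x * v * x⁻¹) : Nat.card (ConjClasses X) ≤ Nat.card (ConjClasses (SemidirectProduct ↥V (X ⧸ V) φ)) := by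
  classical
  set Q := X ⧸ V with hQ
  set S := SemidirectProduct ↥V Q φ with hS
  haveI : Finite Q := inferInstance
  haveI : Finite S := Finite.of_equiv _ (SemidirectProduct.equivProd (N := ↥V) (G := Q) (φ := φ)).symm
  have hcardS : Nat.card S = Nat.card X := by
    rw [Nat.card_congr (SemidirectProduct.equivProd (N := ↥V) (G := Q) (φ := φ)), Nat.card_prod,
      Subgroup.card_eq_card_quotient_mul_card_subgroup V, mul_comm]
  have hpos : 0 < Nat.card X := Nat.card_pos
  have key : Nat.card { p : X × X // Commute p.1 p.2 } ≤ Nat.card { p : S × S // Commute p.1 p.2 } := by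
    apply card_le_of_fiber (C := Q × Q)
      (fun a => ((a.1.1 : Q), (a.1.2 : Q))) (fun b => (b.1.1.right, b.1.2.right))
    rintro ⟨q, r⟩
    by_cases hne : Nonempty {a : { p : X × X // Commute p.1 p.2 } // ((a.1.1 : Q), (a.1.2 : Q)) = (q, r)}
    · obtain ⟨⟨⟨⟨x, y⟩, hxy⟩, hqr⟩⟩ := hne
      simp only [Prod.mk.injEq] at hqr
      obtain ⟨hxq, hyr⟩ := hqr
      have memu : ∀ a : {a : { p : X × X // Commute p.1 p.2 } // ((a.1.1 : Q), (a.1.2 : Q)) = (q, r)},
          a.1.1.1 * x⁻¹ ∈ V := by
        intro a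
        have h := a.2
        simp only [Prod.mk.injEq] at h
        have : ((a.1.1.1 : X) : Q) = (x : Q) := h.1.trans hxq.symm
        rw [QuotientGroup.eq] at this
        have h2 : a.1.1.1 * x⁻¹ = a.1.1.1 * (x⁻¹ * a.1.1.1) * a.1.1.1⁻¹ := by group
        rw [h2]
        exact Subgroup.Normal.conj_mem inferInstance _ (by simpa using V.inv_mem this) _
      have memw : ∀ a : {a : { p : X × X // Commute p.1 p.2 } // ((a.1.1 : Q), (a.1.2 : Q)) = (q, r)},
          a.1.1.2 * y⁻¹ ∈ V := by
        intro a
        have h := a.2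
        simp only [Prod.mk.injEq] at h
        have : ((a.1.1.2 : X) : Q) = (y : Q) := h.2.trans hyr.symm
        rw [QuotientGroup.eq] at this
        have h2 : a.1.1.2 * y⁻¹ = a.1.1.2 * (y⁻¹ * a.1.1.2) * a.1.1.2⁻¹ := by group
        rw [h2]
        exact Subgroup.Normal.conj_mem inferInstance _ (by simpa using V.inv_mem this) _
      -- central computation
      have hqr' : q * r = r * q := by
        have : ((x * y : X) : Q) = ((y * x : X) : Q) := by rw [hxy.eq]
        rwa [QuotientGroup.mk_mul, QuotientGroup.mk_mul, hxq, hyr] at this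
      have hcomm : ∀ (u w : X), u ∈ V → w ∈ V → ∀ (hu : u ∈ V) (hw : w ∈ V),
          (u * x) * (w * y) = (w * y) * (u * x) ↔
            (⟨⟨u, hu⟩, q⟩ : S) * ⟨⟨w, hw⟩, r⟩ = (⟨⟨w, hw⟩, r⟩ : S) * ⟨⟨u, hu⟩, q⟩ := by
        intro u w _ _ hu hw
        have hφq : ∀ v : ↥V, ((φ q v : ↥V) : X) = x * v * x⁻¹ := by
          intro v; rw [← hxq]; exact hφ x v
        have hφr : ∀ v : ↥V, ((φ r v : ↥V) : X) = y * v * y⁻¹ := by
          intro v; rw [← hyr]; exact hφ y v
        rw [SemidirectProduct.ext_iff]
        simp only [SemidirectProduct.mul_left, SemidirectProduct.mul_right, Subtype.ext_iff,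
          Subgroup.coe_mul, hφq, hφr]
        have h1 : (u * x) * (w * y) = (u * (x * w * x⁻¹)) * (x * y) := by group
        have h2 : (w * y) * (u * x) = (w * (y * u * y⁻¹)) * (y * x) := by group
        rw [h1, h2, hxy.eq, mul_left_inj]
        constructor
        · intro h; exact ⟨h, hqr'⟩
        · intro h; exact h.1
      let F : {a : { p : X × X // Commute p.1 p.2 } // ((a.1.1 : Q), (a.1.2 : Q)) = (q, r)} →
          {b : { p : S × S // Commute p.1 p.2 } // (b.1.1.right, b.1.2.right) = (q, r)} :=
        fun a => ⟨⟨(⟨⟨a.1.1.1 * x⁻¹, memu a⟩, q⟩, ⟨⟨a.1.1.2 * y⁻¹, memw a⟩, r⟩), by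
          show (_ : S) * _ = _ * _
          have ha : (a.1.1.1) * (a.1.1.2) = (a.1.1.2) * (a.1.1.1) := a.1.2.eq
          refine (hcomm _ _ (memu a) (memw a) (memu a) (memw a)).1 ?_
          simpa using ha⟩, rfl⟩
      apply Nat.card_le_card_of_injective F
      rintro ⟨⟨⟨a1, a2⟩, ha⟩, ha'⟩ ⟨⟨⟨b1, b2⟩, hb⟩, hb'⟩ hFF
      have h1 := congrArg (fun z => (((z.1.1.1.left : ↥V) : X))) hFF
      have h2 := congrArg (fun z => (((z.1.1.2.left : ↥V) : X))) hFF
      simp only [F] at h1 h2
      have h3 : a1 = b1 := mul_right_cancel h1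
      have h4 : a2 = b2 := mul_right_cancel h2
      subst h3 h4
      rfl
    · have : IsEmpty {a : { p : X × X // Commute p.1 p.2 } // ((a.1.1 : Q), (a.1.2 : Q)) = (q, r)} :=
        not_nonempty_iff.mp hne
      rw [Nat.card_of_isEmpty]
      exact Nat.zero_le _
  rw [card_comm_eq_card_conjClasses_mul_card, card_comm_eq_card_conjClasses_mul_card, hcardS] at key
  exact Nat.le_of_mul_le_mul_right key hpos

end Cfsg.Agent.S4965
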