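import Cfsg.Statements.S4966
import Mathlib

set_option autoImplicit false
open Cfsg

namespace Cfsg.Agent.S4966

section Core

variable {F : Type*} [Field F] {G : Type*} [Group G] {V : Type*} [AddCommGroup V] [Module F V]

/-- invariant subspaces -/
def Inv (ρ : Representation F G V) (N : Submodule F V) : Prop := ∀ g : G, ∀ u ∈ N, ρ g u ∈ N

/-- left nondegeneracy of a form on a subspace -/
def NdL (B : LinearMap.BilinForm F V) (N : Submodule F V) : Prop :=
  ∀ x ∈ N, (∀ y ∈ N, B x y = 0) → x = 0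

/-- the subspace carries an invariant alternating form -/
def HasAlt (ρ : Representation F G V) (U : Submodule F V) : Prop :=
  ∃ A : LinearMap.BilinForm F V, (∀ x, A x x = 0) ∧
    (∀ g : G, ∀ x ∈ U, ∀ y ∈ U, A (ρ g x) (ρ g y) = A x y) ∧
    (∀ x ∈ U, (∀ y ∈ U, A x y = 0) → x = 0)

/-- radical of `B + Bᵀ` on `N` -/
def radS (B : LinearMap.BilinForm F V) (N : Submodule F V) : Submodule F V where
  carrier := {x | x ∈ N ∧ ∀ y ∈ N, B x y + B y x = 0}
  add_mem' := by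
    rintro a b ⟨ha, ha'⟩ ⟨hb, hb'⟩
    refine ⟨N.add_mem ha hb, fun y hy => ?_⟩
    have h1 := ha' y hy
    have h2 := hb' y hy
    simp only [map_add, LinearMap.add_apply]
    linear_combination h1 + h2
  zero_mem' := ⟨N.zero_mem, fun y _ => by simp⟩
  smul_mem' := by
    rintro c a ⟨ha, ha'⟩
    refine ⟨N.smul_mem c ha, fun y hy => ?_⟩
    have h1 := ha' y hy
    simp only [map_smul, LinearMap.smul_apply, smul_eq_mul]
    linear_combination c * h1

/-- right perp of `X` inside `Y` -/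
def perpR (B : LinearMap.BilinForm F V) (X Y : Submodule F V) : Submodule F V where
  carrier := {y | y ∈ Y ∧ ∀ x ∈ X, B x y = 0}
  add_mem' := by
    rintro a b ⟨ha, ha'⟩ ⟨hb, hb'⟩
    refine ⟨Y.add_mem ha hb, fun y hy => ?_⟩
    simp [ha' y hy, hb' y hy]
  zero_mem' := ⟨Y.zero_mem, fun y _ => by simp⟩
  smul_mem' := by
    rintro c a ⟨ha, ha'⟩
    refine ⟨Y.smul_mem c ha, fun y hy => ?_⟩
    simp [ha' y hy]

variable {ρ : Representation F G V} {B : LinearMap.BilinForm F V}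

lemma mem_radS {N : Submodule F V} {x : V} :
    x ∈ radS B N ↔ x ∈ N ∧ ∀ y ∈ N, B x y + B y x = 0 := Iff.rfl

lemma mem_perpR {X Y : Submodule F V} {y : V} :
    y ∈ perpR B X Y ↔ y ∈ Y ∧ ∀ x ∈ X, B x y = 0 := Iff.rfl

lemma inv_iff (hB : ∀ g : G, ∀ x y : V, B (ρ g x) (ρ g y) = B x y) (g : G) (x y : V) :
    B (ρ g⁻¹ x) y = B x (ρ g y) := by
  rw [← hB g (ρ g⁻¹ x) y]
  congr 2
  rw [← Module.End.mul_apply, ← map_mul, mul_inv_cancel, map_one, Module.End.one_apply]

lemma inv_iff' (hB : ∀ g : G, ∀ x y : V, B (ρ g x) (ρ g y) = B x y) (g : G) (x y : V) :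
    B x (ρ g⁻¹ y) = B (ρ g x) y := by
  rw [← hB g x (ρ g⁻¹ y)]
  congr 2
  rw [← Module.End.mul_apply, ← map_mul, mul_inv_cancel, map_one, Module.End.one_apply]

lemma inv_radS (hB : ∀ g : G, ∀ x y : V, B (ρ g x) (ρ g y) = B x y) {N : Submodule F V}
    (hN : Inv ρ N) : Inv ρ (radS B N) := by
  rintro g x ⟨hx, hx'⟩
  refine ⟨hN g x hx, fun y hy => ?_⟩
  have := hx' (ρ g⁻¹ y) (hN _ y hy)
  rwa [inv_iff hB, inv_iff' hB] at this

lemma inv_perpR (hB : ∀ g : G, ∀ x y : V, B (ρ g x) (ρ g y) = B x y) {X Y : Submodule F V}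
    (hX : Inv ρ X) (hY : Inv ρ Y) : Inv ρ (perpR B X Y) := by
  rintro g x ⟨hx, hx'⟩
  refine ⟨hY g x hx, fun y hy => ?_⟩
  have := hx' (ρ g⁻¹ y) (hX _ y hy)
  rwa [inv_iff hB] at this

variable [FiniteDimensional F V]

/-- A pairing, injective on both sides, is perfect. -/
lemma pair_surj (X Y : Submodule F V) (B : LinearMap.BilinForm F V)
    (hX : ∀ x ∈ X, (∀ y ∈ Y, B x y = 0) → x = 0)
    (hY : ∀ y ∈ Y, (∀ x ∈ X, B x y = 0) → y = 0) (f : Y →ₗ[F] F) :
    ∃ x ∈ X, ∀ y ∈ Y, ∀ hy : y ∈ Y, B x y = f ⟨y, hy⟩ := by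
  let φ : X →ₗ[F] Module.Dual F Y := B.domRestrict₁₂ X Y
  let ψ : Y →ₗ[F] Module.Dual F X := (B.flip).domRestrict₁₂ Y X
  have hφ : Function.Injective φ := by
    rw [injective_iff_map_eq_zero]
    rintro ⟨x, hx⟩ h0
    apply Subtype.ext
    apply hX x hx
    intro y hy
    have := congrArg (fun f : Module.Dual F Y => f ⟨y, hy⟩) h0
    exact this
  have hψ : Function.Injective ψ := by
    rw [injective_iff_map_eq_zero]
    rintro ⟨y, hy⟩ h0
    apply Subtype.ext
    apply hY y hy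
    intro x hx
    have := congrArg (fun f : Module.Dual F X => f ⟨x, hx⟩) h0
    exact this
  have h1 := LinearMap.finrank_le_finrank_of_injective hφ
  have h2 := LinearMap.finrank_le_finrank_of_injective hψ
  rw [Subspace.dual_finrank_eq] at h1 h2
  have h3 : Module.finrank F X = Module.finrank F (Module.Dual F Y) := by
    rw [Subspace.dual_finrank_eq]; omega
  have hφs : Function.Surjective φ :=
    (LinearMap.injective_iff_surjective_of_finrank_eq_finrank h3).1 hφ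
  obtain ⟨⟨x, hx⟩, hxf⟩ := hφs f
  refine ⟨x, hx, fun y _ hy => ?_⟩
  rw [← hxf]
  rfl

/-- A subspace with a left-nondegenerate form is also right-nondegenerate. -/
lemma ndR_of_ndL {B : LinearMap.BilinForm F V} {N : Submodule F V} (h : NdL B N) :
    ∀ y ∈ N, (∀ x ∈ N, B x y = 0) → y = 0 := by
  intro y hy hy0
  by_contra hne
  -- all functionals on `N` are represented
  let φ : N →ₗ[F] Module.Dual F N := B.domRestrict₁₂ N N
  have hφ : Function.Injective φ := by
    rw [injective_iff_map_eq_zero]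
    rintro ⟨x, hx⟩ h0
    apply Subtype.ext
    apply h x hx
    intro y hy
    have := congrArg (fun f : Module.Dual F N => f ⟨y, hy⟩) h0
    exact this
  have h3 : Module.finrank F N = Module.finrank F (Module.Dual F N) := by
    rw [Subspace.dual_finrank_eq]
  have hφs : Function.Surjective φ :=
    (LinearMap.injective_iff_surjective_of_finrank_eq_finrank h3).1 hφ
  have hy' : (⟨y, hy⟩ : N) ≠ 0 := fun h0 => hne (congrArg Subtype.val h0)
  obtain ⟨f, hf⟩ := Module.Projective.exists_dual_ne_zero F hy'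
  obtain ⟨⟨x, hx⟩, hxf⟩ := hφs f
  apply hf
  rw [← hxf]
  exact hy0 x hx

omit [FiniteDimensional F V] in
lemma exists_proj [FiniteDimensional F V] (X Y : Submodule F V) (h : Disjoint Y X) :
    ∃ π : V →ₗ[F] V, (∀ v, π v ∈ X) ∧ (∀ x ∈ X, π x = x) ∧ ∀ y ∈ Y, π y = 0 := by
  obtain ⟨c, hYc, hc⟩ := h.exists_isCompl
  refine ⟨X.projection c hc.symm, fun v => Submodule.projection_apply_mem _ v,
    fun x hx => Submodule.projection_apply_of_mem_left _ hx,
    fun y hy => Submodule.projection_apply_of_mem_right _ (hYc hy)⟩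

/-- Maschke's theorem for subspaces -/
lemma maschke [Finite G] (hcard : (Nat.card G : F) ≠ 0) (X Y : Submodule F V) (hXY : X ≤ Y)
    (hX : Inv ρ X) (hY : Inv ρ Y) :
    ∃ Z : Submodule F V, Inv ρ Z ∧ Z ≤ Y ∧ Disjoint X Z ∧ X ⊔ Z = Y := by
  classical
  letI : Fintype G := Fintype.ofFinite G
  obtain ⟨π, hπ1, hπ2, -⟩ := exists_proj X ⊥ disjoint_bot_left
  let π' : V →ₗ[F] V := (Nat.card G : F)⁻¹ • ∑ g : G, (ρ g⁻¹) ∘ₗ π ∘ₗ (ρ g)
  have hπ' : ∀ v, π' v = (Nat.card G : F)⁻¹ • ∑ g : G, ρ g⁻¹ (π (ρ g v)) := fun v => by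
    simp [π', LinearMap.sum_apply]
  have hmem : ∀ v, π' v ∈ X := fun v => by
    rw [hπ']
    exact X.smul_mem _ (X.sum_mem fun g _ => hX _ _ (hπ1 _))
  have hid : ∀ x ∈ X, π' x = x := fun x hx => by
    rw [hπ']
    have : ∀ g : G, ρ g⁻¹ (π (ρ g x)) = x := fun g => by
      rw [hπ2 _ (hX g x hx), ← Module.End.mul_apply, ← map_mul, inv_mul_cancel, map_one,
        Module.End.one_apply]
    simp only [this, Finset.sum_const, Finset.card_univ, ← Nat.card_eq_fintype_card]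
    rw [← Nat.cast_smul_eq_nsmul F, smul_smul, inv_mul_cancel₀ hcard, one_smul]
  have hequiv : ∀ h v, π' (ρ h v) = ρ h (π' v) := fun h v => by
    rw [hπ', hπ', map_smul, map_sum]
    congr 1
    apply Fintype.sum_equiv (Equiv.mulRight h)
    intro g
    simp only [Equiv.coe_mulRight]
    rw [map_mul, Module.End.mul_apply, ← Module.End.mul_apply (ρ h), ← map_mul,
      mul_inv_rev, map_mul]
    simp [Module.End.mul_apply]
  refine ⟨Y ⊓ LinearMap.ker π', ?_, inf_le_left, ?_, ?_⟩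
  · rintro g u ⟨hu1, hu2⟩
    refine ⟨hY g u hu1, ?_⟩
    rw [SetLike.mem_coe, LinearMap.mem_ker] at hu2 ⊢
    rw [hequiv, hu2, map_zero]
  · rw [Submodule.disjoint_def]
    rintro x hx ⟨-, hx2⟩
    rw [SetLike.mem_coe, LinearMap.mem_ker] at hx2
    rw [← hid x hx, hx2]
  · apply le_antisymm (sup_le hXY inf_le_left)
    intro x hx
    have : x = π' x + (x - π' x) := by abel
    rw [this]
    refine Submodule.add_mem_sup (hmem x) ⟨Y.sub_mem hx (hXY (hmem x)), ?_⟩
    rw [SetLike.mem_coe, LinearMap.mem_ker, map_sub, hid _ (hmem x), sub_self]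

lemma inv_sup {X Y : Submodule F V} (hX : Inv ρ X) (hY : Inv ρ Y) : Inv ρ (X ⊔ Y) := by
  intro g u hu
  obtain ⟨a, ha, b, hb, rfl⟩ := Submodule.mem_sup.1 hu
  rw [map_add]
  exact Submodule.add_mem_sup (hX g a ha) (hY g b hb)

/-- Gluing alternating forms. -/
lemma glue {U₁ U₂ : Submodule F V} (hd : Disjoint U₁ U₂) (h₁ : Inv ρ U₁) (h₂ : Inv ρ U₂)
    (hA₁ : HasAlt ρ U₁) (hA₂ : HasAlt ρ U₂) : HasAlt ρ (U₁ ⊔ U₂) := by
  obtain ⟨A₁, ha1, hb1, hc1⟩ := hA₁
  obtain ⟨A₂, ha2, hb2, hc2⟩ := hA₂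
  obtain ⟨π₁, hp1, hq1, hr1⟩ := exists_proj U₁ U₂ hd.symm
  obtain ⟨π₂, hp2, hq2, hr2⟩ := exists_proj U₂ U₁ hd
  let A : LinearMap.BilinForm F V := A₁.comp π₁ π₁ + A₂.comp π₂ π₂
  have hA : ∀ x y, A x y = A₁ (π₁ x) (π₁ y) + A₂ (π₂ x) (π₂ y) := fun x y => rfl
  have hform : ∀ x₁ ∈ U₁, ∀ x₂ ∈ U₂, ∀ y₁ ∈ U₁, ∀ y₂ ∈ U₂,
      A (x₁ + x₂) (y₁ + y₂) = A₁ x₁ y₁ + A₂ x₂ y₂ := fun x₁ hx₁ x₂ hx₂ y₁ hy₁ y₂ hy₂ => by
    rw [hA, map_add π₁, map_add π₁, map_add π₂, map_add π₂, hq1 _ hx₁, hq1 _ hy₁, hr1 _ hx₂,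
      hr1 _ hy₂, hq2 _ hx₂, hq2 _ hy₂, hr2 _ hx₁, hr2 _ hy₁]
    simp
  refine ⟨A, fun x => ?_, ?_, ?_⟩
  · rw [hA, ha1, ha2, add_zero]
  · intro g x hx y hy
    obtain ⟨x₁, hx₁, x₂, hx₂, rfl⟩ := Submodule.mem_sup.1 hx
    obtain ⟨y₁, hy₁, y₂, hy₂, rfl⟩ := Submodule.mem_sup.1 hy
    rw [hform x₁ hx₁ x₂ hx₂ y₁ hy₁ y₂ hy₂, map_add (ρ g) x₁ x₂, map_add (ρ g) y₁ y₂,
      hform _ (h₁ g _ hx₁) _ (h₂ g _ hx₂) _ (h₁ g _ hy₁) _ (h₂ g _ hy₂),
      hb1 g _ hx₁ _ hy₁, hb2 g _ hx₂ _ hy₂]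
  · intro x hx hx0
    obtain ⟨x₁, hx₁, x₂, hx₂, rfl⟩ := Submodule.mem_sup.1 hx
    have e1 : x₁ = 0 := hc1 x₁ hx₁ fun y hy => by
      have := hx0 (y + 0) (Submodule.add_mem_sup hy U₂.zero_mem)
      rw [hform x₁ hx₁ x₂ hx₂ y hy 0 U₂.zero_mem] at this
      simpa using this
    have e2 : x₂ = 0 := hc2 x₂ hx₂ fun y hy => by
      have := hx0 (0 + y) (Submodule.add_mem_sup U₁.zero_mem hy)
      rw [hform x₁ hx₁ x₂ hx₂ 0 U₁.zero_mem y hy] at this
      simpa using this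
    rw [e1, e2, add_zero]

/-- Peeling off a nondegenerate piece of the radical. -/
lemma peel_case1 (hB : ∀ g : G, ∀ x y : V, B (ρ g x) (ρ g y) = B x y) {N R : Submodule F V}
    (hN : Inv ρ N) (hNd : NdL B N) (hRN : R ≤ N) (hRinv : Inv ρ R) (hR0 : R ≠ ⊥)
    (hR1 : ∀ t ∈ R, ∀ x ∈ N, B t x + B x t = 0) (hR2 : ∀ x ∈ R, B x x = 0) (hR3 : NdL B R) :
    ∃ P N' : Submodule F V, Inv ρ P ∧ Inv ρ N' ∧ P ≠ ⊥ ∧ Disjoint P N' ∧ P ⊔ N' = N ∧
      NdL B N' ∧ HasAlt ρ P := by
  have hper : ∀ x ∈ perpR B R N, ∀ r ∈ R, B x r = 0 := fun x hx r hr => by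
    have h1 := hR1 r hr x hx.1
    rw [hx.2 r hr, zero_add] at h1
    exact h1
  have hsup : R ⊔ perpR B R N = N := by
    apply le_antisymm (sup_le hRN fun x hx => (mem_perpR.1 hx).1)
    intro x hx
    have hX : ∀ a ∈ R, (∀ y ∈ R, B.flip a y = 0) → a = 0 := fun a ha h0 => by
      apply hR3 a ha
      intro y hy
      have h1 := hR1 a ha y (hRN hy)
      have h2 : B y a = 0 := h0 y hy
      rw [h2, add_zero] at h1
      exact h1
    have hY : ∀ a ∈ R, (∀ y ∈ R, B.flip y a = 0) → a = 0 := fun a ha h0 => by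
      apply hR3 a ha
      intro y hy
      exact h0 y hy
    obtain ⟨r, hr, hf⟩ := pair_surj R R B.flip hX hY ((B.flip x).domRestrict R)
    have h2 : x - r ∈ perpR B R N := by
      refine ⟨N.sub_mem hx (hRN hr), fun y hy => ?_⟩
      have h3 : B y r = B y x := hf y hy hy
      rw [map_sub, h3, sub_self]
    have : x = r + (x - r) := by abel
    rw [this]
    exact Submodule.add_mem_sup hr h2
  refine ⟨R, perpR B R N, hRinv, inv_perpR hB hRinv hN, hR0, ?_, hsup, ?_, ?_⟩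
  · rw [Submodule.disjoint_def]
    intro x hx hx2
    exact hR3 x hx fun y hy => hper x hx2 y hy
  · intro x hx h0
    apply hNd x hx.1
    intro z hz
    rw [← hsup] at hz
    obtain ⟨r, hr, n, hn, rfl⟩ := Submodule.mem_sup.1 hz
    rw [map_add, hper x hx r hr, h0 n hn, add_zero]
  · obtain ⟨π, hp, hq, -⟩ := exists_proj R ⊥ disjoint_bot_left
    refine ⟨B.comp π π, fun x => hR2 _ (hp x), ?_, ?_⟩
    · intro g x hx y hy
      simp only [LinearMap.BilinForm.comp_apply]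
      rw [hq _ (hRinv g x hx), hq _ (hRinv g y hy), hq _ hx, hq _ hy, hB]
    · intro x hx h0
      apply hR3 x hx
      intro y hy
      have := h0 y hy
      simp only [LinearMap.BilinForm.comp_apply] at this
      rwa [hq _ hx, hq _ hy] at this

/-- Peeling off a hyperbolic piece. -/
lemma peel_case2 [Finite G] (hcard : (Nat.card G : F) ≠ 0)
    (hB : ∀ g : G, ∀ x y : V, B (ρ g x) (ρ g y) = B x y) {N T : Submodule F V}
    (hN : Inv ρ N) (hNd : NdL B N) (hTN : T ≤ N) (hTinv : Inv ρ T) (hT0 : T ≠ ⊥)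
    (hT1 : ∀ t ∈ T, ∀ x ∈ N, B t x + B x t = 0) (hT2 : ∀ t ∈ T, ∀ s ∈ T, B t s = 0) :
    ∃ P N' : Submodule F V, Inv ρ P ∧ Inv ρ N' ∧ P ≠ ⊥ ∧ Disjoint P N' ∧ P ⊔ N' = N ∧
      NdL B N' ∧ HasAlt ρ P := by
  set M := perpR B T N with hM
  have hTM : T ≤ M := fun t ht => ⟨hTN ht, fun s hs => hT2 s hs t ht⟩
  have hMN : M ≤ N := fun x hx => hx.1
  have hMinv : Inv ρ M := inv_perpR hB hTinv hN
  obtain ⟨T₂, hT₂inv, hT₂N, hd₁, hs₁⟩ := maschke hcard M N hMN hMinv hN
  obtain ⟨N', hN'inv, hN'M, hd₂, hs₂⟩ := maschke hcard T M hTM hTinv hMinv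
  have hB1 : ∀ t ∈ T, ∀ m ∈ M, B t m = 0 := fun t ht m hm => hm.2 t ht
  have hdecomp : ∀ z ∈ N, ∃ m ∈ M, ∃ s ∈ T₂, m + s = z := fun z hz => by
    rw [← hs₁] at hz
    exact Submodule.mem_sup.1 hz
  have h_t : ∀ t ∈ T, (∀ y ∈ T₂, B t y = 0) → t = 0 := fun t ht h0 => by
    apply hNd t (hTN ht)
    intro z hz
    obtain ⟨m, hm, s, hs, rfl⟩ := hdecomp z hz
    rw [map_add, hB1 t ht m hm, h0 s hs, add_zero]
  have h_s : ∀ s ∈ T₂, (∀ t ∈ T, B t s = 0) → s = 0 := fun s hs h0 => by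
    have : s ∈ M := ⟨hT₂N hs, h0⟩
    exact (Submodule.disjoint_def.1 hd₁) s this hs
  have hdTT : Disjoint T T₂ := hd₁.mono_left hTM
  refine ⟨T ⊔ T₂, N', inv_sup hTinv hT₂inv, hN'inv, ?_, ?_, ?_, ?_, ?_⟩
  · intro h
    apply hT0
    rw [eq_bot_iff, ← h]
    exact le_sup_left
  · rw [Submodule.disjoint_def]
    intro x hx hx2
    obtain ⟨t, ht, s, hs, rfl⟩ := Submodule.mem_sup.1 hx
    have hsM : s ∈ M := by
      have : s = (t + s) - t := by abel
      rw [this]
      exact M.sub_mem (hN'M hx2) (hTM ht)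
    have hs0 : s = 0 := (Submodule.disjoint_def.1 hd₁) s hsM hs
    subst hs0
    rw [add_zero] at hx2 ⊢
    exact (Submodule.disjoint_def.1 hd₂) t ht hx2
  · rw [sup_right_comm, hs₂, hs₁]
  · intro x hx h0
    have hxM : x ∈ M := hN'M hx
    have hxN : x ∈ N := hxM.1
    have hxT : ∀ t ∈ T, B x t = 0 := fun t ht => by
      have h1 := hT1 t ht x hxN
      rw [hB1 t ht x hxM, zero_add] at h1
      exact h1
    have hxMall : ∀ m ∈ M, B x m = 0 := fun m hm => by
      rw [← hs₂] at hm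
      obtain ⟨t, ht, n, hn, rfl⟩ := Submodule.mem_sup.1 hm
      rw [map_add, hxT t ht, h0 n hn, add_zero]
    obtain ⟨t₀, ht₀, hf⟩ := pair_surj T T₂ B h_t h_s ((B x).domRestrict T₂)
    have hx0 : x - t₀ = 0 := by
      apply hNd _ (N.sub_mem hxN (hTN ht₀))
      intro z hz
      obtain ⟨m, hm, s, hs, rfl⟩ := hdecomp z hz
      have h3 : B t₀ s = B x s := hf s hs hs
      simp only [map_sub, map_add, LinearMap.sub_apply]
      rw [hxMall m hm, hB1 t₀ ht₀ m hm, h3]
      ring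
    have hxt : x = t₀ := sub_eq_zero.1 hx0
    rw [← hxt] at ht₀
    exact (Submodule.disjoint_def.1 hd₂) x ht₀ hx
  · obtain ⟨π₁, hp1, hq1, hr1⟩ := exists_proj T T₂ hdTT.symm
    obtain ⟨π₂, hp2, hq2, hr2⟩ := exists_proj T₂ T hdTT
    let A : LinearMap.BilinForm F V := B.comp π₁ π₂ - (B.comp π₁ π₂).flip
    have hA : ∀ x y, A x y = B (π₁ x) (π₂ y) - B (π₁ y) (π₂ x) := fun x y => rfl
    have hform : ∀ x₁ ∈ T, ∀ x₂ ∈ T₂, ∀ y₁ ∈ T, ∀ y₂ ∈ T₂,
        A (x₁ + x₂) (y₁ + y₂) = B x₁ y₂ - B y₁ x₂ := fun x₁ hx₁ x₂ hx₂ y₁ hy₁ y₂ hy₂ => by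
      rw [hA, map_add π₁, map_add π₁, map_add π₂, map_add π₂, hq1 _ hx₁, hq1 _ hy₁, hr1 _ hx₂,
        hr1 _ hy₂, hq2 _ hx₂, hq2 _ hy₂, hr2 _ hx₁, hr2 _ hy₁]
      simp
    refine ⟨A, fun x => ?_, ?_, ?_⟩
    · rw [hA, sub_self]
    · intro g x hx y hy
      obtain ⟨x₁, hx₁, x₂, hx₂, rfl⟩ := Submodule.mem_sup.1 hx
      obtain ⟨y₁, hy₁, y₂, hy₂, rfl⟩ := Submodule.mem_sup.1 hy
      rw [hform x₁ hx₁ x₂ hx₂ y₁ hy₁ y₂ hy₂, map_add (ρ g) x₁ x₂, map_add (ρ g) y₁ y₂,
        hform _ (hTinv g _ hx₁) _ (hT₂inv g _ hx₂) _ (hTinv g _ hy₁) _ (hT₂inv g _ hy₂),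
        hB, hB]
    · intro x hx hx0
      obtain ⟨x₁, hx₁, x₂, hx₂, rfl⟩ := Submodule.mem_sup.1 hx
      have e2 : x₂ = 0 := h_s x₂ hx₂ fun t ht => by
        have := hx0 (t + 0) (Submodule.add_mem_sup ht T₂.zero_mem)
        rw [hform x₁ hx₁ x₂ hx₂ t ht 0 T₂.zero_mem] at this
        simpa using this
      have e1 : x₁ = 0 := h_t x₁ hx₁ fun y hy => by
        have := hx0 (0 + y) (Submodule.add_mem_sup T.zero_mem hy)
        rw [hform x₁ hx₁ x₂ hx₂ 0 T.zero_mem y hy] at this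
        simpa using this
      rw [e1, e2, add_zero]

lemma peel [Finite G] (hcard : (Nat.card G : F) ≠ 0)
    (hB : ∀ g : G, ∀ x y : V, B (ρ g x) (ρ g y) = B x y) {N : Submodule F V}
    (hN : Inv ρ N) (hNd : NdL B N) (hR0 : radS B N ≠ ⊥) (hq : ∀ x ∈ radS B N, B x x = 0) :
    ∃ P N' : Submodule F V, Inv ρ P ∧ Inv ρ N' ∧ P ≠ ⊥ ∧ Disjoint P N' ∧ P ⊔ N' = N ∧
      NdL B N' ∧ HasAlt ρ P := by
  have hRN : radS B N ≤ N := fun x hx => hx.1
  have hRinv := inv_radS hB hN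
  by_cases hnd : NdL B (radS B N)
  · exact peel_case1 hB hN hNd hRN hRinv hR0 (fun t ht x hx => ht.2 x hx) hq hnd
  · -- a nonzero radical of the form on the radical
    let T := perpR B (radS B N) (radS B N)
    have hT0 : T ≠ ⊥ := by
      intro h
      apply hnd
      intro x hx h0
      have : x ∈ T := ⟨hx, fun y hy => by
        have h1 := hx.2 y (hRN hy)
        rw [h0 y hy, zero_add] at h1
        exact h1⟩
      rw [h] at this
      exact (Submodule.mem_bot F).1 this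
    exact peel_case2 hcard hB hN hNd (fun t ht => hRN (mem_perpR.1 ht).1) (inv_perpR hB hRinv hRinv) hT0
      (fun t ht x hx => (mem_perpR.1 ht).1.2 x hx) (fun t ht s hs => (mem_perpR.1 hs).2 t (mem_perpR.1 ht).1)

/-- The recursion. -/
lemma core [Finite G] (hcard : (Nat.card G : F) ≠ 0)
    (hB : ∀ g : G, ∀ x y : V, B (ρ g x) (ρ g y) = B x y) (N₀ : Submodule F V)
    (hq : ∀ N ≤ N₀, Inv ρ N → ∀ x ∈ radS B N, B x x = 0) (n : ℕ) :
    ∀ N ≤ N₀, Module.finrank F N = n → Inv ρ N → NdL B N →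
    ∃ U W : Submodule F V, Inv ρ U ∧ Inv ρ W ∧ Disjoint U W ∧ U ⊔ W = N ∧ HasAlt ρ U ∧
      ∀ x ∈ W, (∀ y ∈ W, B x y + B y x = 0) → x = 0 := by
  induction n using Nat.strong_induction_on with
  | _ n ih =>
    intro N hN₀ hn hN hNd
    by_cases hR0 : radS B N = ⊥
    · refine ⟨⊥, N, fun g u hu => ?_, hN, disjoint_bot_left, bot_sup_eq N, ?_, ?_⟩
      · rw [(Submodule.mem_bot F).1 hu, map_zero]; exact Submodule.zero_mem _
      · refine ⟨0, fun x => rfl, fun g x hx y hy => rfl, fun x hx _ => (Submodule.mem_bot F).1 hx⟩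
      · intro x hx h0
        have : x ∈ radS B N := ⟨hx, h0⟩
        rw [hR0] at this
        exact (Submodule.mem_bot F).1 this
    · obtain ⟨P, N', hP, hN', hP0, hd, hs, hNd', hAlt⟩ := peel hcard hB hN hNd hR0 (hq N hN₀ hN)
      have hN'N : N' ≤ N := by rw [← hs]; exact le_sup_right
      have hlt : N' < N := by
        refine lt_of_le_of_ne hN'N fun h => hP0 ?_
        have hPN' : P ≤ N' := by rw [h, ← hs]; exact le_sup_left
        have hd' : Disjoint P P := hd.mono_right hPN'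
        exact disjoint_self.1 hd'
      have hfr : Module.finrank F N' < n := by
        rw [← hn]; exact Submodule.finrank_lt_finrank_of_lt hlt
      obtain ⟨U, W, hU, hW, hdUW, hsUW, hAU, hrad⟩ :=
        ih _ hfr N' (hN'N.trans hN₀) rfl hN' hNd'
      have hUN' : U ≤ N' := by rw [← hsUW]; exact le_sup_left
      have hWN' : W ≤ N' := by rw [← hsUW]; exact le_sup_right
      refine ⟨P ⊔ U, W, inv_sup hP hU, hW, ?_, ?_, glue (hd.mono_right hUN') hP hU hAlt hAU, hrad⟩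
      · rw [Submodule.disjoint_def]
        intro x hx hx2
        obtain ⟨a, ha, u, hu, rfl⟩ := Submodule.mem_sup.1 hx
        have haN' : a ∈ N' := by
          have : a = (a + u) - u := by abel
          rw [this]
          exact N'.sub_mem (hWN' hx2) (hUN' hu)
        have ha0 : a = 0 := (Submodule.disjoint_def.1 hd) a ha haN'
        subst ha0
        rw [zero_add] at hx2 ⊢
        exact (Submodule.disjoint_def.1 hdUW) u hu hx2
      · rw [sup_assoc, hsUW, hs]

/-- In characteristic two: no fixed vectors implies `q = 0` on the radical. -/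
lemma q_zero_char_two [CharP F 2] [Finite G] (hcard : (Nat.card G : F) ≠ 0)
    (hB : ∀ g : G, ∀ x y : V, B (ρ g x) (ρ g y) = B x y) {N : Submodule F V} (hN : Inv ρ N)
    (hfix : ∀ x ∈ N, (∀ g : G, ρ g x = x) → x = 0) : ∀ x ∈ radS B N, B x x = 0 := by
  have h2 : (2 : F) = 0 := by
    have := CharP.cast_eq_zero F 2
    exact_mod_cast this
  have hadd : ∀ a : F, a + a = 0 := fun a => by
    rw [← two_mul, h2, zero_mul]
  set R := radS B N with hR
  have hRinv : Inv ρ R := inv_radS hB hN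
  let R₁ : Submodule F V :=
    { carrier := {x | x ∈ R ∧ B x x = 0}
      add_mem' := by
        rintro a b ⟨ha, ha'⟩ ⟨hb, hb'⟩
        refine ⟨R.add_mem ha hb, ?_⟩
        have := ha.2 b hb.1
        simp only [map_add, LinearMap.add_apply]
        linear_combination ha' + hb' + this
      zero_mem' := ⟨R.zero_mem, by simp⟩
      smul_mem' := by
        rintro c a ⟨ha, ha'⟩
        refine ⟨R.smul_mem c ha, ?_⟩
        simp [ha'] }
  have hR₁R : R₁ ≤ R := fun x hx => hx.1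
  have hR₁inv : Inv ρ R₁ := by
    rintro g x ⟨hx, hx'⟩
    exact ⟨hRinv g x hx, by rw [hB, hx']⟩
  obtain ⟨L, hLinv, hLR, hd, hs⟩ := maschke hcard R₁ R hR₁R hR₁inv hRinv
  have hL0 : ∀ x ∈ L, x = 0 := fun x hx => by
    apply hfix x (hLR hx).1
    intro g
    have h1 : ρ g x - x ∈ L := L.sub_mem (hLinv g x hx) hx
    have h3 : ρ g x - x ∈ R₁ := by
      refine ⟨hLR h1, ?_⟩
      have h4 := (hRinv g x (hLR hx)).2 x (hLR hx).1
      simp only [map_sub, LinearMap.sub_apply, hB]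
      linear_combination (-1 : F) * h4 + hadd (B x x)
    have := (Submodule.disjoint_def.1 hd) _ h3 h1
    exact sub_eq_zero.1 this
  intro x hx
  rw [← hs] at hx
  obtain ⟨a, ha, l, hl, rfl⟩ := Submodule.mem_sup.1 hx
  rw [hL0 l hl, add_zero]
  exact ha.2

omit [FiniteDimensional F V] in
/-- Any subspace carries a nondegenerate symmetric form. -/
lemma exists_sym_form [FiniteDimensional F V] (C : Submodule F V) :
    ∃ S : LinearMap.BilinForm F V, (∀ x y, S x y = S y x) ∧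
      ∀ x ∈ C, (∀ y ∈ C, S x y = 0) → x = 0 := by
  classical
  obtain ⟨c, hc⟩ := Submodule.exists_isCompl C
  let π : V →ₗ[F] C := C.projectionOnto c hc
  let b := Module.finBasis F C
  let f : Fin (Module.finrank F C) → V →ₗ[F] F := fun i => (b.coord i) ∘ₗ π
  let S : LinearMap.BilinForm F V := ∑ i, LinearMap.BilinForm.linMulLin (f i) (f i)
  have hS : ∀ x y, S x y = ∑ i, f i x * f i y := fun x y => by
    simp [S, LinearMap.sum_apply, LinearMap.BilinForm.linMulLin]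
  refine ⟨S, fun x y => ?_, fun x hx h0 => ?_⟩
  · rw [hS, hS]
    exact Finset.sum_congr rfl fun i _ => mul_comm _ _
  · have hπx : π x = ⟨x, hx⟩ := Submodule.projectionOnto_apply_of_mem_left hc hx
    have hcoord : ∀ j, b.coord j ⟨x, hx⟩ = 0 := fun j => by
      have h1 := h0 (b j : V) (b j).2
      rw [hS] at h1
      have h2 : ∀ i, f i (b j : V) = if i = j then 1 else 0 := fun i => by
        simp only [f, LinearMap.comp_apply]
        have h3 : π (b j : V) = b j := Submodule.projectionOnto_apply_left hc (b j)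
        rw [h3, Module.Basis.coord_apply, Module.Basis.repr_self,
          Finsupp.single_apply]
        simp [eq_comm]
      simp only [h2, mul_ite, mul_one, mul_zero, Finset.sum_ite_eq', Finset.mem_univ, if_true] at h1
      simpa [f, hπx] using h1
    have : (⟨x, hx⟩ : C) = 0 := by
      apply b.ext_elem
      intro i
      simpa using hcoord i
    exact congrArg Subtype.val this

end Core

/-- Let F be a finite field of characteristic p, G a finite group of order prime to p, and V a finite-dimensional representation of G over F carrying a nondegenerate G-invariant bilinear form (equivalently, V is self-dual). Then V is the direct sum of two G-invariant subspaces U and W such that U carries a G-invariant alternating bilinear form that is nondegenerate on U and W carries a G-invariant symmetric bilinear form that is nondegenerate on W; moreover when p = 2 the decomposition can be chosen with G acting trivially on W. -/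
theorem result {F : Type*} [Field F] [Fintype F] (p : ℕ) [Fact p.Prime] [CharP F p] {G : Type*} [Group G] [Finite G] (hcop : ¬ p ∣ Nat.card G) {V : Type*} [AddCommGroup V] [Module F V] [FiniteDimensional F V] (ρ : Representation F G V) (B : LinearMap.BilinForm F V) (hB : B.Nondegenerate) (hBinv : ∀ g : G, ∀ x y : V, B (ρ g x) (ρ g y) = B x y) : ∃ U W : Submodule F V, IsCompl U W ∧ (∀ g : G, ∀ u ∈ U, ρ g u ∈ U) ∧ (∀ g : G, ∀ w ∈ W, ρ g w ∈ W) ∧ (∃ A : LinearMap.BilinForm F V, (∀ x : V, A x x = 0) ∧ (∀ g : G, ∀ x ∈ U, ∀ y ∈ U, A (ρ g x) (ρ g y) = A x y) ∧ (∀ x ∈ U, (∀ y ∈ U, A x y = 0) → x = 0)) ∧ (∃ S : LinearMap.BilinForm F V, (∀ x y : V, S x y = S y x) ∧ (∀ g : G, ∀ x ∈ W, ∀ y ∈ W, S (ρ g x) (ρ g y) = S x y) ∧ (∀ x ∈ W, (∀ y ∈ W, S x y = 0) → x = 0)) ∧ (p = 2 → ∀ g : G, ∀ w ∈ W, ρ g w = w) := by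
  classical
  have hcard : (Nat.card G : F) ≠ 0 := fun h => hcop ((CharP.cast_eq_zero_iff F p _).1 h)
  have hNdtop : NdL B ⊤ := fun x _ h0 => hB.1 x fun y => h0 y trivial
  have hinvtop : Inv ρ (⊤ : Submodule F V) := fun _ _ _ => trivial
  by_cases hp : p = 2
  · subst hp
    -- fixed vectors
    let C : Submodule F V :=
      { carrier := {x | ∀ g : G, ρ g x = x}
        add_mem' := fun {a b} ha hb g => by rw [map_add, ha g, hb g]
        zero_mem' := fun g => map_zero _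
        smul_mem' := fun c a ha g => by rw [map_smul, ha g] }
    have hCinv : Inv ρ C := fun g u hu h => by
      rw [hu g]; exact hu h
    obtain ⟨V₀, hV₀, -, hd, hs⟩ := maschke hcard C ⊤ le_top hCinv hinvtop
    have hfix : ∀ x ∈ V₀, (∀ g : G, ρ g x = x) → x = 0 := fun x hx h0 =>
      (Submodule.disjoint_def.1 hd) x h0 hx
    have hNd₀ : NdL B V₀ := by
      intro x hx h0
      apply hB.1 x
      intro z
      have hz : z ∈ C ⊔ V₀ := by rw [hs]; trivial
      obtain ⟨c, hc, v, hv, rfl⟩ := Submodule.mem_sup.1 hz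
      rw [map_add, h0 v hv, add_zero]
      letI : Fintype G := Fintype.ofFinite G
      have ha0 : ∑ g : G, ρ g x = 0 := by
        apply (Submodule.disjoint_def.1 hd)
        · intro h
          rw [map_sum]
          apply Fintype.sum_equiv (Equiv.mulLeft h)
          intro g
          simp
        · exact V₀.sum_mem fun g _ => hV₀ g x hx
      have h1 : ∑ g : G, B (ρ g x) c = (Nat.card G : F) * B x c := by
        have : ∀ g : G, B (ρ g x) c = B x c := fun g => by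
          have := hBinv g x c
          rwa [hc g] at this
        simp only [this, Finset.sum_const, Finset.card_univ, Nat.card_eq_fintype_card, nsmul_eq_mul]
      have h2 : ∑ g : G, B (ρ g x) c = 0 := by
        rw [← LinearMap.sum_apply, ← map_sum, ha0]
        simp
      rw [h2] at h1
      exact (mul_eq_zero.1 h1.symm).resolve_left hcard
    have hq : ∀ N ≤ V₀, Inv ρ N → ∀ x ∈ radS B N, B x x = 0 := fun N hN hNinv =>
      q_zero_char_two hcard hBinv hNinv fun x hx => hfix x (hN hx)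
    obtain ⟨U', W', hU', hW', hdUW, hsUW, hAU, hrad⟩ :=
      core hcard hBinv V₀ hq _ V₀ le_rfl rfl hV₀ hNd₀
    have h2 : (2 : F) = 0 := by
      have := CharP.cast_eq_zero F 2
      exact_mod_cast this
    have hAW : HasAlt ρ W' := by
      refine ⟨B + B.flip, fun x => ?_, fun g x _ y _ => ?_, hrad⟩
      · show B x x + B x x = 0
        rw [← two_mul, h2, zero_mul]
      · show B _ _ + B _ _ = B x y + B y x
        rw [hBinv, hBinv]
    have hAall := glue hdUW hU' hW' hAU hAW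
    rw [hsUW] at hAall
    obtain ⟨S, hSsym, hSnd⟩ := exists_sym_form C
    refine ⟨V₀, C, ?_, hV₀, hCinv, hAall, ⟨S, hSsym, ?_, hSnd⟩, fun _ g w hw => hw g⟩
    · exact ⟨hd.symm, codisjoint_iff.2 (by rw [sup_comm, hs])⟩
    · intro g x hx y hy
      rw [hx g, hy g]
  · have h2 : (2 : F) ≠ 0 := fun h => by
      have h3 : ((2 : ℕ) : F) = 0 := by exact_mod_cast h
      have h4 := (CharP.cast_eq_zero_iff F p 2).1 h3
      have hpp := Fact.out (p := p.Prime)
      exact hp ((Nat.prime_dvd_prime_iff_eq hpp Nat.prime_two).1 h4)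
    have hq : ∀ N ≤ (⊤ : Submodule F V), Inv ρ N → ∀ x ∈ radS B N, B x x = 0 := fun N _ _ x hx => by
      have h1 := hx.2 x hx.1
      rw [← two_mul] at h1
      exact (mul_eq_zero.1 h1).resolve_left h2
    obtain ⟨U', W', hU', hW', hdUW, hsUW, hAU, hrad⟩ :=
      core hcard hBinv ⊤ hq _ ⊤ le_rfl rfl hinvtop hNdtop
    refine ⟨U', W', ⟨hdUW, codisjoint_iff.2 hsUW⟩, hU', hW', hAU, ⟨B + B.flip, ?_, ?_, hrad⟩,
      fun h => absurd h hp⟩
    · intro x y
      show B x y + B y x = B y x + B x y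
      rw [add_comm]
    · intro g x _ y _
      show B _ _ + B _ _ = B x y + B y x
      rw [hBinv, hBinv]

end Cfsg.Agent.S4966
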