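import Cfsg.Statements.S4967
import Mathlib

set_option autoImplicit false
open Cfsg

namespace Cfsg.Agent.S4967

universe u v w

section FieldCase

variable {F : Type*} [Field F] [Fintype F] {H : Type*} [CommGroup H] [Finite H]
  {K : Type*} [Field K] [Finite K] [Algebra F K]

omit [Fintype F] in
lemma finiteDim : FiniteDimensional F K := Module.Finite.of_finite

/-- The forward direction in the field model. -/
lemma forward (ι : H →* K) (hι : Function.Injective ι)
    (hspan : Submodule.span F (Set.range ι) = ⊤)
    (B : LinearMap.BilinForm F K) (hB : B.Nondegenerate)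
    (hinv : ∀ h x y, B (ι h * x) (ι h * y) = B x y) (hn : 2 ≤ Module.finrank F K) :
    Even (Module.finrank F K) ∧
      Nat.card H ∣ Fintype.card F ^ (Module.finrank F K / 2) + 1 := by
  classical
  have : FiniteDimensional F K := finiteDim
  have hιne : ∀ h, ι h ≠ 0 := fun h hh => by
    have h1 : ι h * ι h⁻¹ = 1 := by rw [← map_mul, mul_inv_cancel, map_one]
    rw [hh, zero_mul] at h1
    exact zero_ne_one h1
  -- the trace form
  set T := Algebra.traceForm F K with hT
  have hTnd : T.Nondegenerate := traceForm_nondegenerate F K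
  let σ : K →ₗ[F] K := (T.toDual hTnd).symm.toLinearMap ∘ₗ B.flip
  have hσ : ∀ x y, T (σ y) x = B x y := fun x y => by
    have := LinearMap.BilinForm.apply_toDual_symm_apply (B := T) (hB := hTnd) (B.flip y) x
    simpa [σ] using this
  have hTmul : ∀ a b c : K, T (a * b) c = T b (a * c) := fun a b c => by
    simp only [hT, Algebra.traceForm_apply]
    congr 1; ring
  have hσmul : ∀ h y, σ (ι h * y) = (ι h)⁻¹ * σ y := fun h y => by
    rw [← sub_eq_zero]
    apply hTnd.1
    intro x
    rw [map_sub, LinearMap.sub_apply, hσ, hTmul, hσ, sub_eq_zero]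
    have := hinv h ((ι h)⁻¹ * x) y
    rwa [mul_inv_cancel_left₀ (hιne h)] at this
  have hσinj : ∀ y, σ y = 0 → y = 0 := fun y hy => by
    apply hB.2
    intro x
    rw [← hσ, hy]; simp
  have hc : σ 1 ≠ 0 := fun h0 => one_ne_zero (hσinj 1 h0)
  let τ : K →ₗ[F] K := LinearMap.mulLeft F (σ 1)⁻¹ ∘ₗ σ
  have hτ : ∀ y, τ y = (σ 1)⁻¹ * σ y := fun y => rfl
  have hτ1 : τ 1 = 1 := by rw [hτ, inv_mul_cancel₀ hc]
  have hτmul : ∀ h y, τ (ι h * y) = (ι h)⁻¹ * τ y := fun h y => by
    rw [hτ, hτ, hσmul]; ring
  have hτι : ∀ h, τ (ι h) = (ι h)⁻¹ := fun h => by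
    have := hτmul h 1
    rwa [mul_one, hτ1, mul_one] at this
  have hmul : ∀ a y, τ (a * y) = τ a * τ y := fun a y => by
    have ha : a ∈ Submodule.span F (Set.range ι) := by rw [hspan]; trivial
    induction ha using Submodule.span_induction with
    | mem x hx =>
      obtain ⟨h, rfl⟩ := hx
      rw [hτmul, hτι]
    | zero => simp
    | add x y _ _ hx hy => simp only [add_mul, map_add, hx, hy]
    | smul c x _ hx => simp only [smul_mul_assoc, map_smul, hx]
  let τA : K →ₐ[F] K := AlgHom.ofLinearMap τ hτ1 hmul
  have hτA : ∀ x, τA x = τ x := fun x => rfl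
  let e : K ≃ₐ[F] K := AlgEquiv.ofBijective τA (Algebra.IsAlgebraic.algHom_bijective τA)
  have he : ∀ x, e x = τ x := fun x => rfl
  obtain ⟨⟨j, hj⟩, hje⟩ := (FiniteField.bijective_frobeniusAlgEquivOfAlgebraic_pow F K).2 e
  simp only at hje
  have hepow : ∀ x, e x = x ^ (Fintype.card F ^ j) := fun x => by
    rw [← hje, AlgEquiv.coe_pow, FiniteField.coe_frobeniusAlgEquivOfAlgebraic_iterate]
  have hee : e * e = 1 := by
    ext x
    have hx : x ∈ Submodule.span F (Set.range ι) := by rw [hspan]; trivial
    induction hx using Submodule.span_induction with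
    | mem x hx =>
      obtain ⟨h, rfl⟩ := hx
      rw [AlgEquiv.mul_apply, AlgEquiv.one_apply, he (ι h), hτι, map_inv₀, he, hτι, inv_inv]
    | zero => simp
    | add x y _ _ hx hy => simp only [map_add, hx, hy]
    | smul c x _ hx => simp only [map_smul, hx]
  have hdvd : Module.finrank F K ∣ 2 * j := by
    rw [← FiniteField.orderOf_frobeniusAlgEquivOfAlgebraic F K]
    apply orderOf_dvd_of_pow_eq_one
    rw [two_mul, pow_add, hje, hee]
  obtain ⟨d, hd⟩ := hdvd
  have hd' : d < 2 := by
    by_contra hcon
    push Not at hcon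
    have : Module.finrank F K * 2 ≤ Module.finrank F K * d := Nat.mul_le_mul_left _ hcon
    omega
  have hj0 : j ≠ 0 := by
    rintro rfl
    have hall : ∀ h, ι h ∈ (⊥ : Subalgebra F K) := fun h => by
      have h1 : (ι h)⁻¹ = ι h := by
        rw [← hτι, ← he, hepow]; simp
      have h2 : ι h * ι h = 1 := by
        nth_rw 1 [← h1]; exact inv_mul_cancel₀ (hιne h)
      have h3 : (ι h - 1) * (ι h + 1) = 0 := by ring_nf; rw [pow_two, h2]; ring
      rcases mul_eq_zero.1 h3 with h4 | h4
      · rw [sub_eq_zero.1 h4]; exact one_mem _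
      · rw [eq_neg_of_add_eq_zero_left h4]; exact neg_mem (one_mem _)
    have hbot : (⊥ : Subalgebra F K) = ⊤ := by
      rw [eq_top_iff]
      intro x _
      have hx : x ∈ Submodule.span F (Set.range ι) := by rw [hspan]; trivial
      have hle : Submodule.span F (Set.range ι) ≤ Subalgebra.toSubmodule (⊥ : Subalgebra F K) := by
        rw [Submodule.span_le]
        rintro _ ⟨h, rfl⟩
        exact hall h
      exact hle hx
    have := Subalgebra.bot_eq_top_iff_finrank_eq_one.1 hbot
    omega
  have hd1 : d = 1 := by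
    interval_cases d
    · simp at hd; omega
    · rfl
  subst hd1
  have hfr : Module.finrank F K = 2 * j := by omega
  refine ⟨⟨j, by omega⟩, ?_⟩
  have hdiv : Module.finrank F K / 2 = j := by omega
  rw [hdiv]
  have : IsCyclic H := isCyclic_of_subgroup_isDomain ι hι
  rw [← IsCyclic.exponent_eq_card]
  apply Monoid.exponent_dvd_of_forall_pow_eq_one
  intro h
  apply hι
  rw [map_one, map_pow, pow_succ, ← map_pow, map_pow, ← hepow, he, hτι, inv_mul_cancel₀ (hιne h)]

/-- The backward direction in the field model. -/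
lemma backward (ι : H →* K) (m : ℕ) (hdvd : Nat.card H ∣ Fintype.card F ^ m + 1) :
    ∃ B : LinearMap.BilinForm F K, B.Nondegenerate ∧
      ∀ h x y, B (ι h * x) (ι h * y) = B x y := by
  classical
  have : FiniteDimensional F K := finiteDim
  set T := Algebra.traceForm F K with hT
  have hTnd : T.Nondegenerate := traceForm_nondegenerate F K
  let f : K ≃ₐ[F] K := FiniteField.frobeniusAlgEquivOfAlgebraic F K ^ m
  have hf : ∀ x, f x = x ^ (Fintype.card F ^ m) := fun x => by
    simp only [f]
    rw [AlgEquiv.coe_pow, FiniteField.coe_frobeniusAlgEquivOfAlgebraic_iterate]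
  let B : LinearMap.BilinForm F K := T.compRight f.toLinearMap
  have hB : ∀ x y, B x y = T x (f y) := fun x y => rfl
  refine ⟨B, ⟨?_, ?_⟩, ?_⟩
  · intro x hx
    apply hTnd.1
    intro z
    have := hx (f.symm z)
    rwa [hB, AlgEquiv.apply_symm_apply] at this
  · intro y hy
    have : f y = 0 := by
      apply hTnd.2
      intro x
      rw [← hB]; exact hy x
    simpa using this
  · intro h x y
    rw [hB, hB, map_mul f, hf (ι h)]
    simp only [hT, Algebra.traceForm_apply]
    congr 1
    have h1 : ι h * ι h ^ (Fintype.card F ^ m) = 1 := by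
      rw [← pow_succ', ← map_pow]
      obtain ⟨c, hc⟩ := hdvd
      rw [hc, pow_mul, pow_card_eq_one', one_pow, map_one]
    calc ι h * x * (ι h ^ (Fintype.card F ^ m) * f y)
        = (ι h * ι h ^ (Fintype.card F ^ m)) * (x * f y) := by ring
      _ = x * f y := by rw [h1, one_mul]

/-- Degree one. -/
lemma degree_one (ι : H →* K) (hι : Function.Injective ι)
    (hn : Module.finrank F K = 1)
    (B : LinearMap.BilinForm F K) (hB : B.Nondegenerate)
    (hinv : ∀ h x y, B (ι h * x) (ι h * y) = B x y) : Nat.card H ≤ 2 := by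
  classical
  have hbot : (⊥ : Subalgebra F K) = ⊤ := Subalgebra.bot_eq_top_iff_finrank_eq_one.2 hn
  have hall : ∀ x : K, ∃ a : F, algebraMap F K a = x := fun x => by
    have hx : x ∈ (⊤ : Subalgebra F K) := trivial
    rw [← hbot] at hx
    exact Algebra.mem_bot.1 hx
  have hone : B 1 1 ≠ 0 := fun h0 => by
    have : (1 : K) = 0 := by
      apply hB.1
      intro y
      obtain ⟨a, rfl⟩ := hall y
      rw [← mul_one (algebraMap F K a), ← Algebra.smul_def, map_smul, h0, smul_zero]
    exact one_ne_zero this
  have hι2 : ∀ h, ι h = 1 ∨ ι h = -1 := fun h => by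
    obtain ⟨a, ha⟩ := hall (ι h)
    have h1 := hinv h 1 1
    rw [mul_one, ← ha, ← mul_one (algebraMap F K a), ← Algebra.smul_def, map_smul,
      map_smul, LinearMap.smul_apply, smul_eq_mul, smul_eq_mul] at h1
    have h2 : a * a = 1 := by
      apply mul_right_cancel₀ hone
      rw [mul_assoc, h1, one_mul]
    have h3 : (a - 1) * (a + 1) = 0 := by ring_nf; rw [pow_two, h2]; ring
    rcases mul_eq_zero.1 h3 with h4 | h4
    · left; rw [← ha, sub_eq_zero.1 h4, map_one]
    · right; rw [← ha, eq_neg_of_add_eq_zero_left h4, map_neg, map_one]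
  have : Fintype H := Fintype.ofFinite H
  rw [Nat.card_eq_fintype_card]
  calc Fintype.card H = (Finset.univ.image ι).card := by
        rw [Finset.card_image_of_injective _ hι]; rfl
    _ ≤ ({1, -1} : Finset K).card := by
        apply Finset.card_le_card
        intro x hx
        obtain ⟨h, _, rfl⟩ := Finset.mem_image.1 hx
        simpa using hι2 h
    _ ≤ 2 := Finset.card_le_two

end FieldCase

/-- Build the field model. -/
lemma exists_model {F : Type u} [Field F] [Fintype F] {H : Type v} [CommGroup H] [Finite H]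
    {V : Type w} [AddCommGroup V] [Module F V] [FiniteDimensional F V]
    (ρ : Representation F H V) (hfaith : Function.Injective ρ)
    (hirr : ∀ U : Submodule F V, (∀ h : H, ∀ u ∈ U, ρ h u ∈ U) → U = ⊥ ∨ U = ⊤)
    (v₀ : V) (hv₀ : v₀ ≠ 0) :
    ∃ (K : Type w) (_ : Field K) (_ : Finite K) (_ : Algebra F K) (ι : H →* K)
      (e : V ≃ₗ[F] K), Function.Injective ι ∧ Submodule.span F (Set.range ι) = ⊤ ∧
        ∀ h v, e (ρ h v) = ι h * e v := by
  classical
  let A : Subalgebra F (Module.End F V) := Algebra.adjoin F (Set.range ρ)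
  have hcomm : ∀ a ∈ Set.range ρ, ∀ b ∈ Set.range ρ, a * b = b * a := by
    rintro _ ⟨g, rfl⟩ _ ⟨h, rfl⟩
    rw [← map_mul, ← map_mul, mul_comm]
  letI iCR : CommRing A := Algebra.adjoinCommRingOfComm F hcomm
  have hρA : ∀ h, ρ h ∈ A := fun h => Algebra.subset_adjoin ⟨h, rfl⟩
  have hcommA : ∀ (a : A) h, (a : Module.End F V) * ρ h = ρ h * a := fun a h => by
    have := mul_comm a ⟨ρ h, hρA h⟩
    exact congrArg Subtype.val this
  have hinj : ∀ a : A, a ≠ 0 → Function.Injective (a : Module.End F V) := fun a ha => by
    have hk := hirr (LinearMap.ker (a : Module.End F V)) (fun h u hu => by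
      rw [LinearMap.mem_ker] at hu ⊢
      have := congrArg (fun f : Module.End F V => f u) (hcommA a h)
      simp only [Module.End.mul_apply] at this
      rw [this, hu, map_zero])
    rcases hk with hk | hk
    · exact LinearMap.ker_eq_bot.1 hk
    · exfalso
      apply ha
      apply Subtype.ext
      exact LinearMap.ker_eq_top.1 hk
  have hzero : ∀ a : A, (a : Module.End F V) v₀ = 0 → a = 0 := fun a h => by
    by_contra hne
    exact hv₀ (hinj a hne (by rw [h, map_zero]))
  haveI iDom : IsDomain A := by
    have : NoZeroDivisors A := ⟨fun {a b} hab => by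
      by_contra hcon
      push Not at hcon
      apply hcon.2
      apply Subtype.ext
      ext v
      apply hinj a hcon.1
      have := congrArg (fun f : A => (f : Module.End F V) v) hab
      simpa using this⟩
    have : Nontrivial A := ⟨⟨1, 0, fun h => by
      have := congrArg (fun f : A => (f : Module.End F V) v₀) h
      exact hv₀ (by simpa using this)⟩⟩
    exact NoZeroDivisors.to_isDomain A
  haveI iFinV : Finite V := Module.finite_of_finite F
  haveI iFinE : Finite (Module.End F V) := Module.finite_of_finite F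
  haveI iFinA : Finite A := inferInstance
  letI iFT : Fintype A := Fintype.ofFinite A
  letI iF : Field A := Fintype.fieldOfDomain A
  let ι : H →* A :=
    { toFun := fun h => ⟨ρ h, hρA h⟩
      map_one' := by apply Subtype.ext; exact map_one ρ
      map_mul' := fun a b => by apply Subtype.ext; exact map_mul ρ a b }
  let e₀ : A →ₗ[F] V :=
    { toFun := fun a => (a : Module.End F V) v₀
      map_add' := fun a b => rfl
      map_smul' := fun c a => rfl }
  have he₀bij : Function.Bijective e₀ := by
    constructor
    · rw [injective_iff_map_eq_zero]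
      exact hzero
    · have hr := hirr (LinearMap.range e₀) (by
        rintro h _ ⟨a, rfl⟩
        refine ⟨⟨ρ h, hρA h⟩ * a, ?_⟩
        show (ρ h * (a : Module.End F V)) v₀ = _
        rfl)
      rcases hr with hr | hr
      · exfalso
        have : e₀ 1 = 0 := by
          have hmem : e₀ 1 ∈ LinearMap.range e₀ := ⟨1, rfl⟩
          rw [hr] at hmem
          simpa using hmem
        exact hv₀ this
      · exact LinearMap.range_eq_top.1 hr
  let e : V ≃ₗ[F] A := (LinearEquiv.ofBijective e₀ he₀bij).symm
  have heq : ∀ a : A, e ((a : Module.End F V) v₀) = a := fun a =>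
    (LinearEquiv.ofBijective e₀ he₀bij).symm_apply_apply a
  refine ⟨A, iF, iFinA, inferInstance, ι, e, ?_, ?_, ?_⟩
  · intro a b hab
    apply hfaith
    exact congrArg Subtype.val hab
  · have h1 : Algebra.adjoin F (Set.range ι) = ⊤ := by
      have h2 := Algebra.adjoin_adjoin_coe_preimage (R := F) (A := Module.End F V) (s := Set.range ρ)
      have h3 : Set.range ι = ((↑) : A → Module.End F V) ⁻¹' (Set.range ρ) := by
        ext a
        constructor
        · rintro ⟨h, rfl⟩
          exact ⟨h, rfl⟩
        · rintro ⟨h, hh⟩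
          exact ⟨h, Subtype.ext hh⟩
      rw [h3]; exact h2
    have h4 := Algebra.adjoin_eq_span F (Set.range ι)
    have h5 : ((Submonoid.closure (Set.range ι) : Submonoid A) : Set A) = Set.range ι := by
      have : Set.range ι = (MonoidHom.mrange ι : Set A) := by
        ext; simp
      rw [this, Submonoid.closure_eq]
    rw [h5, h1] at h4
    rw [← h4]; rfl
  · intro h v
    obtain ⟨a, rfl⟩ := he₀bij.2 v
    have h1 : ρ h (e₀ a) = (((ι h * a : A)) : Module.End F V) v₀ := rfl
    rw [h1, heq]
    have h2 : e (e₀ a) = a := heq a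
    rw [h2]

/-- Let F be a finite field with r elements and of characteristic p, H a finite abelian group of order prime to p, and V a faithful irreducible representation of H over F of dimension n (faithful: distinct elements act differently; irreducible: the only H-invariant subspaces are 0 and V). Call V self-dual when it carries a nondegenerate H-invariant bilinear form. If n = 1 and V is self-dual then H has order at most 2. If n ≥ 2 then V is self-dual if and only if n is even and the order of H divides r^(n/2) + 1. -/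
theorem result {F : Type*} [Field F] [Fintype F] (p : ℕ) [Fact p.Prime] [CharP F p] {H : Type*} [CommGroup H] [Finite H] (hcop : ¬ p ∣ Nat.card H) {V : Type*} [AddCommGroup V] [Module F V] [FiniteDimensional F V] (ρ : Representation F H V) (hfaith : Function.Injective ρ) (hirr : ∀ U : Submodule F V, (∀ h : H, ∀ u ∈ U, ρ h u ∈ U) → U = ⊥ ∨ U = ⊤) : (Module.finrank F V = 1 → (∃ B : LinearMap.BilinForm F V, B.Nondegenerate ∧ ∀ h : H, ∀ x y : V, B (ρ h x) (ρ h y) = B x y) → Nat.card H ≤ 2) ∧ (2 ≤ Module.finrank F V → ((∃ B : LinearMap.BilinForm F V, B.Nondegenerate ∧ ∀ h : H, ∀ x y : V, B (ρ h x) (ρ h y) = B x y) ↔ (Even (Module.finrank F V) ∧ Nat.card H ∣ Fintype.card F ^ (Module.finrank F V / 2) + 1))) := by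
  by_cases hV : Module.finrank F V = 0
  · constructor
    · intro h; omega
    · intro h; omega
  have hnt : Nontrivial V := Module.nontrivial_of_finrank_pos (R := F) (Nat.pos_of_ne_zero hV)
  obtain ⟨v₀, hv₀⟩ := exists_ne (0 : V)
  obtain ⟨K, iF, iFin, iA, ι, e, hι, hspan, he⟩ := exists_model ρ hfaith hirr v₀ hv₀
  have hfr : Module.finrank F V = Module.finrank F K := e.finrank_eq
  -- transport of forms
  have hto : ∀ B : LinearMap.BilinForm F V, B.Nondegenerate →
      (∀ h : H, ∀ x y : V, B (ρ h x) (ρ h y) = B x y) →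
      ∃ B' : LinearMap.BilinForm F K, B'.Nondegenerate ∧
        ∀ h x y, B' (ι h * x) (ι h * y) = B' x y := fun B hB hinv => by
    refine ⟨LinearMap.BilinForm.congr e B, hB.congr e, fun h x y => ?_⟩
    simp only [LinearMap.BilinForm.congr_apply]
    have hx : e.symm (ι h * x) = ρ h (e.symm x) := by
      apply e.injective
      rw [LinearEquiv.apply_symm_apply, he, LinearEquiv.apply_symm_apply]
    have hy : e.symm (ι h * y) = ρ h (e.symm y) := by
      apply e.injective
      rw [LinearEquiv.apply_symm_apply, he, LinearEquiv.apply_symm_apply]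
    rw [hx, hy, hinv]
  constructor
  · rintro h1 ⟨B, hB, hinv⟩
    obtain ⟨B', hB', hinv'⟩ := hto B hB hinv
    exact degree_one ι hι (by rw [← hfr, h1]) B' hB' hinv'
  · intro h2
    constructor
    · rintro ⟨B, hB, hinv⟩
      obtain ⟨B', hB', hinv'⟩ := hto B hB hinv
      rw [hfr]
      exact forward ι hι hspan B' hB' hinv' (by rw [← hfr]; exact h2)
    · rintro ⟨-, hdvd⟩
      obtain ⟨B', hB', hinv'⟩ := backward (F := F) ι (Module.finrank F V / 2) hdvd
      refine ⟨LinearMap.BilinForm.congr e.symm B', hB'.congr e.symm, fun h x y => ?_⟩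
      simp only [LinearMap.BilinForm.congr_apply, LinearEquiv.symm_symm]
      rw [he, he, hinv']

end Cfsg.Agent.S4967
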