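import Mathlib
import Cfsg.Statements.S5005
import Cfsg.Agent.Lib.M22Chars

set_option autoImplicit false
open Cfsg

namespace Cfsg.Agent.S5005

open Cfsg.Agent.Lib.Golay in
theorem M22_eq : Cfsg.Spor.M22 = G [0, 23] := by
  ext g
  have h1 : pt 23 = (none : GolayPt) := rfl
  have h2 : pt 0 = (some 0 : GolayPt) := by
    simp [pt]
  simp only [Cfsg.Spor.M22, Cfsg.Spor.M23, Subgroup.mem_inf, MulAction.mem_stabilizer_iff, mem_G,
    List.mem_cons, List.not_mem_nil, or_false, forall_eq_or_imp, forall_eq, h1, h2,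
    Equiv.Perm.smul_def]
  tauto

open Cfsg.Agent.Lib.Golay Cfsg.Agent.Lib.M22Chars in
theorem key {M : Ideal Cfsg.AlgInt} (hM : Cfsg.IsPModular 2 M) (H : Subgroup (Equiv.Perm GolayPt))
    (hH : H = G [0, 23]) (χ ψ : Cfsg.IrrCharacter ↥H) : Cfsg.SameBlock M (χ : ↥H → ℂ) (ψ : ↥H → ℂ) := by
  subst hH
  exact sameBlock hM χ ψ

/-- All irreducible complex characters of the Mathieu group `M₂₂` lie in a single 2-block: any two of them lie in the same block relative to every maximal ideal of the algebraic integers containing 2. -/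
theorem result (M : Ideal Cfsg.AlgInt) (hM : Cfsg.IsPModular 2 M)
    (χ ψ : Cfsg.IrrCharacter ↥Cfsg.Spor.M22) : Cfsg.SameBlock M (χ : ↥Cfsg.Spor.M22 → ℂ) (ψ : ↥Cfsg.Spor.M22 → ℂ) := by
  exact key hM _ M22_eq χ ψ

end Cfsg.Agent.S5005
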