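import Cfsg.Statements.S5018
import Cfsg.Agent.RootSub.Normal

set_option autoImplicit false
open Cfsg

namespace Cfsg.Agent.S5018

/-- A rank one group is not nilpotent, and its second centre equals its centre. -/
theorem result {X : Type*} [Group X] {A B : Subgroup X} (h : Cfsg.IsRankOneGroup X A B) :
    Subgroup.upperCentralSeries X 2 = Subgroup.center X ∧ ¬ Group.IsNilpotent X := by
  refine ⟨le_antisymm (Cfsg.Agent.RootSub.upper2_le_center h) ?_, ?_⟩
  · rw [← Subgroup.upperCentralSeries_one]
    exact Subgroup.upperCentralSeries_mono _ (by norm_num)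
  · intro hn
    obtain ⟨n, hn⟩ := hn.nilpotent
    apply Cfsg.Agent.RootSub.center_ne_top h
    rw [eq_top_iff, ← hn]
    exact Cfsg.Agent.RootSub.upper_le_center h n

end Cfsg.Agent.S5018
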