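import Cfsg.Statements.S5058
import Cfsg.Agent.RootSub.TvInv

set_option autoImplicit false
open Matrix
open Cfsg

namespace Cfsg.Agent.S5058

/-- Let F be a finite field of characteristic 2 and n a natural number. Then the transvections of SL_{n+3}(F) (so in every dimension at least 3) (the conjugates of the elementary matrices 1 + c E₁₂, c ≠ 0) form a class of root involutions of SL_{n+3}(F); when F has two elements they form a class of {3,4}⁺-transpositions (every product of odd order has order 1 or 3). -/
theorem result (F : Type*) [Field F] [Fintype F] [CharP F 2] (n : ℕ) :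
    Cfsg.IsRootInvolutionClass {t : Matrix.SpecialLinearGroup (Fin (n + 3)) F | ∃ c : F, c ≠ 0 ∧
        ∃ g : Matrix.SpecialLinearGroup (Fin (n + 3)) F, ((g⁻¹ * t * g : Matrix.SpecialLinearGroup (Fin (n + 3)) F) :
          Matrix (Fin (n + 3)) (Fin (n + 3)) F) = Matrix.transvection 0 1 c} ∧
    (Fintype.card F = 2 → Cfsg.IsThreeFourPlusTranspositionSet {t : Matrix.SpecialLinearGroup (Fin (n + 3)) F | ∃ c : F, c ≠ 0 ∧
        ∃ g : Matrix.SpecialLinearGroup (Fin (n + 3)) F, ((g⁻¹ * t * g : Matrix.SpecialLinearGroup (Fin (n + 3)) F) :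
          Matrix (Fin (n + 3)) (Fin (n + 3)) F) = Matrix.transvection 0 1 c}) := by
  classical
  have hN : 2 < Fintype.card (Fin (n + 3)) := by simp
  have h01 : (0 : Fin (n + 3)) ≠ 1 := by simp
  refine ⟨RootSub.Tv.clsD_class (F := F) hN h01, fun hcard => RootSub.Tv.clsD_34 (F := F) hN h01 ?_⟩
  intro a ha
  have hc' : (Finset.univ : Finset F).card = 2 := by rw [Finset.card_univ]; exact hcard
  obtain ⟨x, y, hxy, hu⟩ := Finset.card_eq_two.mp hc'
  have m : ∀ z : F, z = x ∨ z = y := by
    intro z
    have : z ∈ ({x, y} : Finset F) := by rw [← hu]; exact Finset.mem_univ z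
    simpa using this
  rcases m a with rfl | rfl <;> rcases m 0 with h0 | h0 <;> rcases m 1 with h1 | h1
  all_goals first
    | exact absurd h0.symm ha
    | exact h1.symm
    | exact absurd (h0.trans h1.symm) zero_ne_one

end Cfsg.Agent.S5058
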