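import Mathlib
import Cfsg.Statements.S5079
import Cfsg.Agent.Lib.FusionCore

set_option autoImplicit false
open Cfsg
open Cfsg.Agent.Lib.FusionCore

namespace Cfsg.Agent.S5079

/-- In any fusion system over a finite p-group S: if P is fully automized and receptive and Q is conjugate to P in the system, then there is a map of the system with source N_S(Q) and values in N_S(P) carrying Q onto P. -/
theorem result {Ω : Type*} [Group Ω] {S : Subgroup Ω} [Finite S] (p : ℕ) [Fact p.Prime] (hS : IsPGroup p S) (F : Cfsg.FusionSystem S) (P Q : Subgroup Ω) (h₁ : F.IsFullyAutomized p P) (h₂ : F.IsReceptive P) (hQ : F.IsConj Q P) : ∃ φ ∈ F.Hom (Cfsg.FusionSystem.normalizerIn S Q), (∀ x, φ x ∈ Cfsg.FusionSystem.normalizerIn S P) ∧ (Q.subgroupOf (Cfsg.FusionSystem.normalizerIn S Q)).map φ = P := by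
  obtain ⟨f, hf, h1, h2⟩ := exists_normalizer_map hS h₁ h₂ hQ
  refine ⟨hf.hom, hf.hom_mem, fun x => ?_, ?_⟩
  · rw [hf.hom_apply]
    exact h1 x x.2
  · have hQS : Q ≤ S := IsConj_le hQ
    rw [map_subgroupOf_eq_img (le_normalizerIn hQS)]
    have e : img (fn hf.hom) Q = img f Q := by
      apply img_congr
      intro x hx
      rw [fn_of_mem _ (le_normalizerIn hQS hx), hf.hom_apply]
    rw [e, h2]

end Cfsg.Agent.S5079
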