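import Mathlib
import Cfsg.Statements.S5105
import Cfsg.Agent.Lib.PCore
import Cfsg.Agent.Lib.CocycleAvg

set_option autoImplicit false
open Cfsg


namespace Cfsg.Agent.S5105

/-- Model Theorem, rigidity: if G is a model of a constrained fusion system over a finite p-group S (through ι : S → G), then every automorphism of G fixing ι(S) elementwise is conjugation by ι(z) for some z in the centre of S. -/
theorem result {Ω : Type*} [Group Ω] {S : Subgroup Ω} [Finite S] (p : ℕ) [Fact p.Prime] (hS : IsPGroup p S) (F : Cfsg.FusionSystem S) (hF : F.IsConstrained p) {G : Type*} [Group G] (ι : S →* G) (hG : F.IsModel p G ι) (ψ : G ≃* G) (hψ : ∀ x : S, ψ (ι x) = ι x) : ∃ z : S, z ∈ Subgroup.center S ∧ ∀ g : G, ψ g = ι z * g * (ι z)⁻¹ := by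
  classical
  obtain ⟨hfin, ⟨hinj, -⟩, ⟨T, hT⟩, hC⟩ := hG
  have hQT : Cfsg.pCore p G ≤ (T : Subgroup G) := Cfsg.Agent.Lib.PCore.pCore_le_sylow p T
  have hQn : (Cfsg.pCore p G).Normal := by
    haveI := Cfsg.Agent.Lib.PCore.pCore_characteristic (G := G) p
    infer_instance
  have hψQ : ∀ x ∈ Cfsg.pCore p G, ψ x = x := by
    intro x hx
    have h1 : x ∈ ι.range := hT ▸ hQT hx
    obtain ⟨y, rfl⟩ := h1
    exact hψ y
  let A : Subgroup G := Cfsg.pCore p G ⊓ Subgroup.centralizer ((Cfsg.pCore p G : Subgroup G) : Set G)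
  have hcomm : ∀ {a : G}, a ∈ Subgroup.centralizer ((Cfsg.pCore p G : Subgroup G) : Set G) →
      ∀ y ∈ Cfsg.pCore p G, y * a = a * y := fun ha y hy => ha y hy
  have hAn : A.Normal := by
    refine ⟨fun a ha g => ⟨hQn.conj_mem a ha.1 g, ?_⟩⟩
    intro y hy
    have hy2 : g⁻¹ * y * g ∈ Cfsg.pCore p G := by
      have := hQn.conj_mem y hy g⁻¹
      rwa [inv_inv] at this
    have h1 := hcomm ha.2 _ hy2
    calc y * (g * a * g⁻¹) = g * ((g⁻¹ * y * g) * a) * g⁻¹ := by group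
      _ = g * (a * (g⁻¹ * y * g)) * g⁻¹ := by rw [h1]
      _ = _ := by group
  have hAc : ∀ a ∈ A, ∀ b ∈ A, a * b = b * a := fun a ha b hb => hcomm hb.2 a ha.1
  have hcA : ∀ g : G, ψ g * g⁻¹ ∈ A := by
    intro g
    have hcen : ψ g * g⁻¹ ∈ Subgroup.centralizer ((Cfsg.pCore p G : Subgroup G) : Set G) := by
      intro y hy
      have hy2 : g⁻¹ * y * g ∈ Cfsg.pCore p G := by
        have := hQn.conj_mem y hy g⁻¹
        rwa [inv_inv] at this
      have h1 := hψQ _ hy2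
      rw [map_mul, map_mul, map_inv, hψQ y hy] at h1
      have h2 : y * g = g * (g⁻¹ * y * g) := by group
      have h3 : (ψ g)⁻¹ * y * ψ g = g⁻¹ * y * g := h1
      have h4 : y * ψ g = ψ g * (g⁻¹ * y * g) := by
        rw [← h3]
        group
      calc y * (ψ g * g⁻¹) = (y * ψ g) * g⁻¹ := by group
        _ = ψ g * (g⁻¹ * y * g) * g⁻¹ := by rw [h4]
        _ = _ := by group
    exact ⟨hC hcen, hcen⟩
  have hcT : ∀ t ∈ (T : Subgroup G), ψ t * t⁻¹ = 1 := by
    intro t ht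
    have h1 : t ∈ ι.range := hT ▸ ht
    obtain ⟨y, rfl⟩ := h1
    rw [hψ y]
    group
  have hAp : IsPGroup p A :=
    (Cfsg.Agent.Lib.PCore.isPGroup_pCore p).to_le inf_le_left
  have hcop : (T : Subgroup G).index.Coprime (Nat.card A) := by
    obtain ⟨n, hn⟩ := IsPGroup.iff_card.1 hAp
    rw [hn]
    exact Nat.Coprime.pow_right _ (((Fact.out : p.Prime).coprime_iff_not_dvd.2 T.not_dvd_index).symm)
  obtain ⟨b, hb, hb2⟩ := Cfsg.Agent.Lib.CocycleAvg.exists_coboundary (T : Subgroup G) A hAc hcop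
    (fun g => ψ g * g⁻¹) hcA (fun g h => by
      show ψ (g * h) * (g * h)⁻¹ = ψ g * g⁻¹ * (g * (ψ h * h⁻¹) * g⁻¹)
      rw [map_mul]
      group) hcT
  have hψb : ∀ h : G, ψ h = b * h * b⁻¹ := by
    intro h
    have h1 : ψ h * h⁻¹ = b * (h * b⁻¹ * h⁻¹) := hb2 h
    calc ψ h = (ψ h * h⁻¹) * h := by group
      _ = b * (h * b⁻¹ * h⁻¹) * h := by rw [h1]
      _ = _ := by group
  have hbr : b ∈ ι.range := hT ▸ hQT hb.1
  obtain ⟨z, rfl⟩ := hbr
  refine ⟨z, ?_, hψb⟩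
  rw [Subgroup.mem_center_iff]
  intro x
  apply hinj
  have h1 := hψb (ι x)
  rw [hψ x] at h1
  rw [map_mul, map_mul]
  calc ι x * ι z = (ι z * ι x * (ι z)⁻¹) * ι z := by rw [← h1]
    _ = ι z * ι x := by group

end Cfsg.Agent.S5105
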