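import Mathlib
import Cfsg.Statements.S5107
import Cfsg.Agent.Lib.FusionCore3
import Cfsg.Agent.S5076

set_option autoImplicit false
open Cfsg
open Cfsg.Agent.Lib.FusionCore

namespace Cfsg.Agent.S5107

/-- If a Sylow p-subgroup S of a finite group G has nilpotency class at most two and its centre is strongly closed in S with respect to G, then every map of the fusion system of G on S is conjugation by an element of N_G(S), and S is the largest subgroup normal in that fusion system. -/
theorem result {G : Type*} [Group G] [Finite G] (p : ℕ) [Fact p.Prime] (S : Sylow p G) (hcl : ⁅(S : Subgroup G), (S : Subgroup G)⁆ ≤ (S : Subgroup G) ⊓ Subgroup.centralizer ((S : Subgroup G) : Set G)) (hZ : Cfsg.IsStronglyClosed ((S : Subgroup G) ⊓ Subgroup.centralizer ((S : Subgroup G) : Set G)) (S : Subgroup G)) : (∀ (P : Subgroup G) (φ : P →* G), φ ∈ (Cfsg.groupFusionSystem (S : Subgroup G)).Hom P → ∃ g ∈ Subgroup.normalizer ((S : Subgroup G) : Set G), ∀ x : P, φ x = g * (x : G) * g⁻¹) ∧ (Cfsg.groupFusionSystem (S : Subgroup G)).core = S := by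
  classical
  have hF : (groupFusionSystem (S : Subgroup G)).IsSaturated p := Cfsg.Agent.S5076.result p S
  have hS : IsPGroup p (S : Subgroup G) := S.isPGroup'
  have hZS : (groupFusionSystem (S : Subgroup G)).StronglyClosed
      ((S : Subgroup G) ⊓ Subgroup.centralizer ((S : Subgroup G) : Set G)) := by
    refine ⟨inf_le_left, fun R hR φ hφ x => ?_⟩
    obtain ⟨hRS, hφS, g, hg⟩ := hφ
    have h1 := hZ.2 x (hR x.2) g (by rw [← hg x]; exact hφS x)
    rw [hg x]
    exact h1
  have hSS : (groupFusionSystem (S : Subgroup G)).StronglyClosed (S : Subgroup G) :=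
    ⟨le_rfl, fun R hR φ hφ x => ((groupFusionSystem (S : Subgroup G)).le_of_mem hφ).2 x⟩
  have hN : (groupFusionSystem (S : Subgroup G)).IsNormal (S : Subgroup G) := by
    refine Cfsg.Agent.Lib.FusionCore3.isNormal_of_chain hS hF 2
      (fun i => if i = 0 then ⊥ else if i = 1 then
        (S : Subgroup G) ⊓ Subgroup.centralizer ((S : Subgroup G) : Set G) else (S : Subgroup G))
      rfl rfl ?_ ?_ ?_
    · intro i hi
      match i, hi with
      | 0, _ => simp
      | 1, _ => simp
    · intro i hi
      match i, hi with
      | 0, _ => simpa using hZS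
      | 1, _ => simpa using hSS
    · intro i hi
      match i, hi with
      | 0, _ =>
        simp only [if_true, zero_add, if_pos, one_ne_zero, if_false]
        rw [Subgroup.commutator_le]
        intro a ha b hb
        have h1 : a * b = b * a := hb.2 a ha
        rw [Subgroup.mem_bot, commutatorElement_def, mul_inv_eq_one, mul_inv_eq_iff_eq_mul, h1]
      | 1, _ =>
        simpa using hcl
  constructor
  · intro P φ hφ
    obtain ⟨-, h⟩ := hN
    obtain ⟨ψ, hψ, h1, h2⟩ := h P φ hφ
    obtain ⟨hA, hB, g, hg⟩ := hψ
    refine ⟨g, ?_, fun x => ?_⟩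
    · refine mem_normalizer_of_conj_mem (fun y hy => ?_)
      have := hB ⟨y, Subgroup.mem_sup_right hy⟩
      rwa [hg] at this
    · rw [← h1 x, hg]
      rfl
  · apply le_antisymm
    · exact sSup_le (fun Q hQ => hQ.1)
    · exact le_sSup hN

end Cfsg.Agent.S5107
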