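import Mathlib
import Cfsg.Statements.S5111
import Cfsg.Agent.Lib.FusionStancu

set_option autoImplicit false
open Cfsg


namespace Cfsg.Agent.S5111

/-- A fusion system over a finite p-group S is saturated if and only if the inner automorphisms of S form a Sylow p-subgroup of Aut_F(S) and every fully normalized subgroup of S is receptive. -/
theorem result {Ω : Type*} [Group Ω] {S : Subgroup Ω} [Finite S] (p : ℕ) [Fact p.Prime] (hS : IsPGroup p S) (F : Cfsg.FusionSystem S) : F.IsSaturated p ↔ (F.IsFullyAutomized p S ∧ ∀ P : Subgroup Ω, F.IsFullyNormalized P → F.IsReceptive P) := by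
  exact Cfsg.Agent.Lib.FusionStancu.isSaturated_iff_stancu hS

end Cfsg.Agent.S5111
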