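import Mathlib
import Cfsg.Statements.S5139
import Cfsg.Agent.Lib.FusionFocal
import Cfsg.Agent.Lib.FusionResidual
import Cfsg.Agent.S5118

set_option autoImplicit false
open Cfsg

namespace Cfsg.Agent.S5139

open Cfsg.FusionSystem Cfsg.Agent.Lib.FusionSatBasic Cfsg.Agent.Lib.FusionResidual Cfsg.Agent.Lib.FusionFocal
open Cfsg.Agent.Lib.FusionCore

theorem aux {G : Type*} [Group G] [Finite G] {p : ℕ} [Fact p.Prime] (S : Sylow p G) {T : Subgroup G}
    (hT : T = (S : Subgroup G) ⊓ Cfsg.pResidual p G) (E : Cfsg.FusionSystem T) (hsat : E.IsSaturated p)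
    (hsub : E.IsSubsystemOf (Cfsg.groupFusionSystem (S : Subgroup G)))
    (hO : ∀ P : Subgroup G, P ≤ T → (Cfsg.pResidual p ((Cfsg.groupFusionSystem (S : Subgroup G)).autGroup P)).map
      ((Cfsg.groupFusionSystem (S : Subgroup G)).autGroup P).subtype ≤ E.autGroup P) (P : Subgroup G) :
    E.Hom P = (Cfsg.fusionSystemOfSubgroup (Cfsg.pResidual p G) ((S : Subgroup G) ⊓ Cfsg.pResidual p G)
      inf_le_right).Hom P := by
  classical
  subst hT
  have hSp : IsPGroup p (S : Subgroup G) := S.isPGroup'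
  have hH : IsPGroup p ((S : Subgroup G) ⊓ Cfsg.pResidual p G : Subgroup G) :=
    hSp.to_le inf_le_left
  have hN := Cfsg.Agent.S5118.result p S (Cfsg.pResidual p G)
  have hKn : (Cfsg.pResidual p G).Normal := Cfsg.Agent.Lib.PResid.pResidual_normal p
  have hE₀ : ∀ R : Subgroup G, R ≤ (S : Subgroup G) ⊓ Cfsg.pResidual p G →
      (Cfsg.pResidual p ((Cfsg.groupFusionSystem (S : Subgroup G)).autGroup R)).map
      ((Cfsg.groupFusionSystem (S : Subgroup G)).autGroup R).subtype ≤
      (Cfsg.fusionSystemOfSubgroup (Cfsg.pResidual p G) ((S : Subgroup G) ⊓ Cfsg.pResidual p G)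
        inf_le_right).autGroup R := by
    intro R hR
    have hRS : R ≤ (S : Subgroup G) := hR.trans inf_le_left
    have hA : (groupFusionSystem (S : Subgroup G)).autGroup R = autInducedBy ⊤ R :=
      Cfsg.Agent.S5076.autGroup_groupFusionSystem _ R hRS
    have hπ : ∀ n, conjN (⊤ : Subgroup G) R n ∈ (groupFusionSystem (S : Subgroup G)).autGroup R := by
      intro n
      rw [hA, ← conjN_range]
      exact ⟨n, rfl⟩
    let π : normalizerIn (⊤ : Subgroup G) R →* (groupFusionSystem (S : Subgroup G)).autGroup R :=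
      (conjN (⊤ : Subgroup G) R).codRestrict _ hπ
    have hsurj : Function.Surjective π := by
      rintro ⟨β, hβ⟩
      rw [hA, ← conjN_range] at hβ
      obtain ⟨n, rfl⟩ := hβ
      exact ⟨n, rfl⟩
    have h1 := Cfsg.Agent.Lib.PResid.map_pResidual_of_surjective π hsurj p
    rintro α ⟨α', hα', rfl⟩
    rw [← h1] at hα'
    obtain ⟨n, hn, rfl⟩ := hα'
    have hnK : (n : G) ∈ Cfsg.pResidual p G :=
      Cfsg.Agent.Lib.PResid.map_pResidual_le p (normalizerIn (⊤ : Subgroup G) R) ⟨n, hn, rfl⟩
    rw [Cfsg.Agent.Lib.FusionSatBasic.mem_autGroup _ hR]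
    refine ⟨hR, fun x => hR ((conjN (⊤ : Subgroup G) R n) x).2, n, hnK, fun x => ?_⟩
    show (((conjN (⊤ : Subgroup G) R n) x : R) : G) = n * x * (n : G)⁻¹
    rw [← afn_coe]
    exact afn_conjN n x.2
  apply Set.Subset.antisymm
  · exact le_of_pPowerIndex hH hsat hsub hE₀ P
  · exact le_of_pPowerIndex hH hN.1.1 hN.1.2.2.1 hO P


/-- Let G be a finite group with Sylow p-subgroup S and O^p(G) the subgroup generated by the elements of order prime to p. Then the p-residual subsystem of the fusion system of G on S — the saturated subsystem of p-power index over the hyperfocal subgroup — is the fusion system of O^p(G) on S ∩ O^p(G): its maps are exactly the conjugation maps by elements of O^p(G) between subgroups of S ∩ O^p(G). -/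
theorem result {G : Type*} [Group G] [Finite G] (p : ℕ) [Fact p.Prime] (S : Sylow p G) (E : Cfsg.FusionSystem ((Cfsg.groupFusionSystem (S : Subgroup G)).hyperfocalSubgroup p)) (hE : (Cfsg.groupFusionSystem (S : Subgroup G)).IsPResidual p E) : ∃ h : (S : Subgroup G) ⊓ Cfsg.pResidual p G ≤ Cfsg.pResidual p G, ∀ P : Subgroup G, E.Hom P = (Cfsg.fusionSystemOfSubgroup (Cfsg.pResidual p G) ((S : Subgroup G) ⊓ Cfsg.pResidual p G) h).Hom P := by
  exact ⟨inf_le_right, fun P => aux S (Cfsg.Agent.Lib.FusionFocal.hyperfocal_eq S) E hE.1 hE.2.1 hE.2.2.2 P⟩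

end Cfsg.Agent.S5139
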