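import Mathlib
import Cfsg.Statements.S5159
import Cfsg.Agent.Lib.FusionSolvable

set_option autoImplicit false
open Cfsg

namespace Cfsg.Agent.S5159

open Cfsg.FusionSystem Cfsg.Agent.Lib.FusionSatBasic Cfsg.Agent.Lib.FusionFactor
open Cfsg.Agent.Lib.FusionSolvable
open scoped commutatorElement

variable {Ω : Type*} [Group Ω] {S : Subgroup Ω}

/-- The intersection of the images of `U` under `Aut_F(T)`. -/
def invCore (F : Cfsg.FusionSystem S) (T U : Subgroup Ω) : Subgroup Ω :=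
  ⨅ α : F.autGroup T, (U.subgroupOf T).map (T.subtype.comp (α : MulAut T).toMonoidHom)

theorem mem_invCore {F : Cfsg.FusionSystem S} {T U : Subgroup Ω} {y : Ω} :
    y ∈ invCore F T U ↔ ∀ α : F.autGroup T, ∃ u : T, (u : Ω) ∈ U ∧ (((α : MulAut T) u : T) : Ω) = y := by
  rw [invCore, Subgroup.mem_iInf]
  refine forall_congr' fun α => ?_
  constructor
  · rintro ⟨u, hu, rfl⟩
    exact ⟨u, Subgroup.mem_subgroupOf.mp hu, rfl⟩
  · rintro ⟨u, hu, rfl⟩
    exact ⟨u, Subgroup.mem_subgroupOf.mpr hu, rfl⟩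

theorem invCore_le {F : Cfsg.FusionSystem S} {T U : Subgroup Ω} : invCore F T U ≤ U := by
  intro y hy
  obtain ⟨u, hu, rfl⟩ := mem_invCore.mp hy 1
  exact hu

theorem invCore_mono {F : Cfsg.FusionSystem S} {T U V : Subgroup Ω} (h : U ≤ V) :
    invCore F T U ≤ invCore F T V := by
  intro y hy
  rw [mem_invCore] at hy ⊢
  intro α
  obtain ⟨u, hu, rfl⟩ := hy α
  exact ⟨u, h hu, rfl⟩

theorem invCore_top {F : Cfsg.FusionSystem S} {T : Subgroup Ω} : invCore F T T = T := by
  apply le_antisymm invCore_le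
  intro y hy
  rw [mem_invCore]
  intro α
  refine ⟨(α : MulAut T)⁻¹ ⟨y, hy⟩, ((α : MulAut T)⁻¹ ⟨y, hy⟩).2, ?_⟩
  simp

theorem invCore_comm {F : Cfsg.FusionSystem S} {T U V : Subgroup Ω} (h : ⁅U, U⁆ ≤ V) :
    ⁅invCore F T U, invCore F T U⁆ ≤ invCore F T V := by
  rw [Subgroup.commutator_le]
  intro a ha b hb
  rw [mem_invCore]
  intro α
  obtain ⟨u, hu, rfl⟩ := mem_invCore.mp ha α
  obtain ⟨v, hv, rfl⟩ := mem_invCore.mp hb α
  refine ⟨⁅u, v⁆, ?_, ?_⟩
  · have := h (Subgroup.commutator_mem_commutator hu hv)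
    exact this
  · rw [map_commutatorElement]
    rfl

theorem invCore_stronglyClosed {F : Cfsg.FusionSystem S} {T U : Subgroup Ω} {E : Cfsg.FusionSystem T}
    (hinv : E.IsInvariantIn F) (hU : E.StronglyClosed U) : F.StronglyClosed (invCore F T U) := by
  obtain ⟨hsub, hTsc, hconj, hfrat⟩ := hinv
  have hUT : U ≤ T := hU.1
  have hle : invCore F T U ≤ T := invCore_le.trans hUT
  refine ⟨hle.trans hTsc.1, fun W hW φ hφ x => ?_⟩
  have hWT : W ≤ T := hW.trans hle
  obtain ⟨α₀, hα₀, φ₀, hφ₀, hfr⟩ := hfrat W hWT φ hφ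
  rw [mem_invCore]
  intro β
  -- `γ = β⁻¹ α₀`
  let γ : F.autGroup T := β⁻¹ * ⟨α₀, hα₀⟩
  obtain ⟨χ, hχ, hχe⟩ := hconj W hWT φ₀ hφ₀ γ γ.2
  have hW' : (W.subgroupOf T).map (T.subtype.comp (γ : MulAut T).toMonoidHom) ≤ U := by
    rintro _ ⟨w, hw, rfl⟩
    have h1 := hW (Subgroup.mem_subgroupOf.mp hw)
    obtain ⟨u, hu, huw⟩ := mem_invCore.mp h1 γ⁻¹
    have h2 : w = ((γ⁻¹ : F.autGroup T) : MulAut T) u := Subtype.ext huw.symm
    have h3 : (γ : MulAut T) w = u := by
      rw [h2]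
      show (γ : MulAut T) ((γ : MulAut T)⁻¹ u) = u
      simp
    show (((γ : MulAut T) w : T) : Ω) ∈ U
    rw [h3]
    exact hu
  have hφ₀T : φ₀ x ∈ T := val_mem E hφ₀ x
  have hαx : (((γ : MulAut T) ⟨x, hWT x.2⟩ : T) : Ω) ∈
      (W.subgroupOf T).map (T.subtype.comp (γ : MulAut T).toMonoidHom) :=
    ⟨⟨x, hWT x.2⟩, Subgroup.mem_subgroupOf.mpr x.2, rfl⟩
  have h1 := hχe x hφ₀T hαx
  have h2 := hU.2 _ hW' χ hχ ⟨_, hαx⟩
  rw [h1] at h2
  refine ⟨_, h2, ?_⟩
  rw [hfr x hφ₀T]
  show (((β : MulAut T) ((β : MulAut T)⁻¹ (α₀ ⟨φ₀ x, hφ₀T⟩)) : T) : Ω) = _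
  simp

theorem comm_image {Ω' : Type*} [Group Ω'] {θ : S →* Ω'} {T₁ T₀ : Subgroup Ω} (h : ⁅T₁, T₁⁆ ≤ T₀) :
    ⁅imageAlong θ T₁, imageAlong θ T₁⁆ ≤ imageAlong θ T₀ := by
  rw [Subgroup.commutator_le]
  rintro _ ⟨s, hs, rfl⟩ _ ⟨t, ht, rfl⟩
  refine ⟨⁅s, t⁆, Subgroup.mem_subgroupOf.mpr ?_, map_commutatorElement _ _ _⟩
  exact h (Subgroup.commutator_mem_commutator (Subgroup.mem_subgroupOf.mp hs) (Subgroup.mem_subgroupOf.mp ht))

theorem comm_preimage {Ω' : Type*} [Group Ω'] {θ : S →* Ω'} {V₁ V₀ : Subgroup Ω'} (h : ⁅V₁, V₁⁆ ≤ V₀) :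
    ⁅preimageAlong θ V₁, preimageAlong θ V₁⁆ ≤ preimageAlong θ V₀ := by
  rw [Subgroup.commutator_le]
  rintro _ ⟨s, hs, rfl⟩ _ ⟨t, ht, rfl⟩
  refine ⟨⁅s, t⁆, ?_, rfl⟩
  show θ ⁅s, t⁆ ∈ V₀
  rw [map_commutatorElement]
  exact h (Subgroup.commutator_mem_commutator hs ht)

end Cfsg.Agent.S5159

namespace Cfsg.Agent.S5159

open Cfsg.FusionSystem Cfsg.Agent.Lib.FusionSatBasic Cfsg.Agent.Lib.FusionFactor
open Cfsg.Agent.Lib.FusionSolvable

/-- Let F be a saturated fusion system over a finite p-group S, E a normal subsystem over T, and D the factor system of F modulo T (read through any homomorphism on S with kernel T). Then F is solvable if and only if E and D are solvable (solvable, for a system over a subgroup S: for every subgroup R other than S that is strongly closed in F, the factor system of F modulo R has a nontrivial subgroup normal in it). -/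
theorem result {Ω : Type*} [Group Ω] {S : Subgroup Ω} [Finite S] (p : ℕ) [Fact p.Prime] (hS : IsPGroup p S) (F : Cfsg.FusionSystem S) (hF : F.IsSaturated p) {T : Subgroup Ω} (E : Cfsg.FusionSystem T) (hE : E.IsNormalIn F p) {Ω' : Type*} [Group Ω'] {S' : Subgroup Ω'} (θ : S →* Ω') (D : Cfsg.FusionSystem S') (hD : F.IsFactorSystem T θ D) : F.IsSolvableSystem ↔ (E.IsSolvableSystem ∧ D.IsSolvableSystem) := by
  obtain ⟨⟨hEsat, -, hinv⟩, -⟩ := hE
  obtain ⟨hsub, hT, hconj, hfrat⟩ := id hinv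
  obtain ⟨hTS, hk, hr, hiff⟩ := id hD
  have hm := Cfsg.Agent.Lib.FusionStrongClosed.isSurjectiveMorphism_of_isFactorSystem hS hF hT hD
  have hker : Cfsg.Agent.Lib.FusionQuotSat.kerAlong θ = T := by
    ext y
    constructor
    · rintro ⟨s, hs, rfl⟩
      exact (hk s).mp hs
    · intro hy
      exact ⟨⟨y, hTS hy⟩, (hk _).mpr hy, rfl⟩
  have hDsat : D.IsSaturated p :=
    Cfsg.Agent.Lib.FusionQuotSat.isSaturated_of_surjective hS hF hm (by rw [hker]; exact hT)
  have : Finite T := Cfsg.Agent.Lib.FusionSat.finite_of_le hTS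
  have hfinS' : Finite S' := by
    rw [← hr]
    exact Finite.of_surjective θ.rangeRestrict θ.rangeRestrict_surjective
  have hpS' : IsPGroup p S' := by
    rw [← hr]
    exact hS.of_surjective θ.rangeRestrict θ.rangeRestrict_surjective
  have hpT : IsPGroup p T := hS.to_le hTS
  rw [isSolvableSystem_iff_chain hS hF, isSolvableSystem_iff_chain hpT hEsat,
    isSolvableSystem_iff_chain hpS' hDsat]
  constructor
  · rintro ⟨n, U, h0, hl, hmono, hs, hc⟩
    refine ⟨⟨n, fun i => U i ⊓ T, ?_, ?_, ?_, ?_, ?_⟩, ⟨n, fun i => imageAlong θ (U i), ?_, ?_, ?_, ?_, ?_⟩⟩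
    · show U 0 ⊓ T = ⊥
      rw [h0, bot_inf_eq]
    · show U (Fin.last n) ⊓ T = T
      rw [hl]
      exact inf_eq_right.mpr hTS
    · exact fun a b hab => inf_le_inf_right T (hmono hab)
    · intro i
      exact ⟨inf_le_right, fun R hR φ hφ x =>
        ⟨(hs i).2 R (hR.trans inf_le_left) φ (hsub R hφ) x, val_mem E hφ x⟩⟩
    · intro i
      show ⁅U i.succ ⊓ T, U i.succ ⊓ T⁆ ≤ U (Fin.castSucc i) ⊓ T
      refine le_inf ((Subgroup.commutator_mono inf_le_left inf_le_left).trans (hc i)) ?_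
      rw [Subgroup.commutator_le]
      intro a ha b hb
      rw [commutatorElement_def]
      exact T.mul_mem (T.mul_mem (T.mul_mem ha.2 hb.2) (T.inv_mem ha.2)) (T.inv_mem hb.2)
    · show imageAlong θ (U 0) = ⊥
      rw [h0, eq_bot_iff]
      rintro _ ⟨s, hs, rfl⟩
      have h1 : (s : Ω) = 1 := Subgroup.mem_bot.mp (Subgroup.mem_subgroupOf.mp hs)
      have h2 : s = 1 := Subtype.ext h1
      rw [h2, map_one]
      exact Subgroup.one_mem _
    · show imageAlong θ (U (Fin.last n)) = S'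
      rw [hl, ← hr]
      ext y
      constructor
      · rintro ⟨s, -, rfl⟩
        exact ⟨s, rfl⟩
      · rintro ⟨s, rfl⟩
        exact ⟨s, Subgroup.mem_subgroupOf.mpr s.2, rfl⟩
    · intro a b hab
      exact Subgroup.map_mono (fun x hx => Subgroup.mem_subgroupOf.mpr (hmono hab (Subgroup.mem_subgroupOf.mp hx)))
    · intro i
      exact stronglyClosed_image hS hF hm hT hk (hs i)
    · intro i
      exact comm_image (hc i)
  · rintro ⟨⟨m, U, h0, hl, hmono, hs, hc⟩, ⟨l, V, h0', hl', hmono', hs', hc'⟩⟩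
    have hup : ChainFrom F T := by
      have h1 := chainFrom_of_family (F := F) (fun i => preimageAlong θ (V i))
        (fun a b hab y hy => by
          obtain ⟨hyS, h⟩ := (mem_preimageAlong θ _ _).mp hy
          exact (mem_preimageAlong θ _ _).mpr ⟨hyS, hmono' hab h⟩)
        (fun i => stronglyClosed_preimage hm.1 (hs' i))
        (fun i => comm_preimage (hc' i))
        (by
          have e : preimageAlong θ (V (Fin.last l)) = S := by
            rw [hl']
            apply le_antisymm (preimageAlong_le θ _)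
            intro y hy
            exact (mem_preimageAlong θ _ _).mpr ⟨hy, by rw [← hr]; exact ⟨_, rfl⟩⟩
          show ChainFrom F (preimageAlong θ (V (Fin.last l)))
          rw [e]
          exact ⟨0, fun _ => S, rfl, rfl, fun _ _ _ => le_rfl,
            fun _ => ⟨le_rfl, fun _ _ _ hφ x => val_mem F hφ x⟩, fun i => i.elim0⟩)
      have e : preimageAlong θ (V 0) = T := by
        rw [h0']
        ext y
        rw [mem_preimageAlong]
        constructor
        · rintro ⟨hyS, h⟩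
          exact (hk _).mp (Subgroup.mem_bot.mp h)
        · intro hy
          exact ⟨hTS hy, Subgroup.mem_bot.mpr ((hk _).mpr hy)⟩
      rw [e] at h1
      exact h1
    have hdown := chainFrom_of_family (F := F) (fun i => invCore F T (U i))
      (fun a b hab => invCore_mono (hmono hab))
      (fun i => invCore_stronglyClosed hinv (hs i))
      (fun i => invCore_comm (hc i))
      (by
        show ChainFrom F (invCore F T (U (Fin.last m)))
        rw [hl, invCore_top]
        exact hup)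
    have e : invCore F T (U 0) = ⊥ := by
      rw [h0]
      exact le_bot_iff.mp invCore_le
    change ChainFrom F (invCore F T (U 0)) at hdown
    rw [e] at hdown
    exact hdown

end Cfsg.Agent.S5159
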