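import Mathlib
import Cfsg.Agent.S5076
import Cfsg.Agent.Lib.FusionPrimeIndex
import Cfsg.Statements.S5160
-- import your own Cfsg.Agent.* helpers here

set_option autoImplicit false
open Cfsg

namespace Cfsg.Agent.S5160

open Cfsg.FusionSystem Cfsg.Agent.Lib.FusionSatBasic Cfsg.Agent.Lib.FusionSat Cfsg.Agent.Lib.FusionPrimeIndex

/-- Let G be a finite group with nontrivial Sylow p-subgroup S and F its fusion system on S. Suppose (a) no nontrivial proper subgroup of S is strongly closed in F, and (b) the automorphisms of S induced by G are generated by those induced, for R running over the fully normalized radical centric subgroups of F, by the subgroup of N_G(R) generated by its elements of p-power order. Then F is simple. -/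
theorem result {G : Type*} [Group G] [Finite G] (p : ℕ) [Fact p.Prime] (S : Sylow p G) (hS1 : (S : Subgroup G) ≠ ⊥) (ha : ∀ T : Subgroup G, (Cfsg.groupFusionSystem (S : Subgroup G)).StronglyClosed T → T = ⊥ ∨ T = (S : Subgroup G)) (hb : Cfsg.autInducedBy ⊤ (S : Subgroup G) = ⨆ (R : Subgroup G) (_ : (Cfsg.groupFusionSystem (S : Subgroup G)).IsFullyNormalized R ∧ (Cfsg.groupFusionSystem (S : Subgroup G)).IsRadical p R ∧ (Cfsg.groupFusionSystem (S : Subgroup G)).IsCentric R), Cfsg.autInducedBy (Subgroup.closure {g : G | g ∈ Subgroup.normalizer (R : Set G) ∧ ∃ k : ℕ, orderOf g = p ^ k}) (S : Subgroup G)) : (Cfsg.groupFusionSystem (S : Subgroup G)).IsSimple p := by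
  classical
  have hF := Cfsg.Agent.S5076.result p S
  have hSp : IsPGroup p (S : Subgroup G) := S.isPGroup'
  refine ⟨hF, hS1, fun T E hE => ?_⟩
  obtain ⟨⟨hEsat, -, hinv⟩, -⟩ := hE
  rcases ha T hinv.2.1 with rfl | hTS
  · left; rfl
  subst hTS
  right
  refine ⟨rfl, fun P => Set.Subset.antisymm (hinv.1 P) ?_⟩
  have hpow : ∀ (P : Subgroup G), P ≤ (S : Subgroup G) → ∀ θ : MulAut P,
      θ ∈ (Cfsg.groupFusionSystem (S : Subgroup G)).autGroup P → ∀ k : ℕ, θ ^ p ^ k = 1 → IsFIso E θ :=
    fun P hP θ hθ k hk => isFIso_of_pow_eq_one hSp hF hinv hP hθ k hk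
  have hAut : Cfsg.autInducedBy ⊤ (S : Subgroup G) ≤ E.autGroup (S : Subgroup G) := by
    rw [hb]
    refine iSup₂_le fun R hR => ?_
    obtain ⟨hRn, -, hRc⟩ := hR
    have hRS : R ≤ (S : Subgroup G) := hRc.1
    intro α hα
    obtain ⟨g, hg, hgα⟩ := (mem_autInducedBy _ _ _).mp hα
    have hαF : IsFIso (Cfsg.groupFusionSystem (S : Subgroup G)) α :=
      ⟨le_rfl, fun x => (α x).2, g, hgα⟩
    -- the elements of the closure
    have hkey : ∀ g' ∈ Subgroup.closure {g : G | g ∈ Subgroup.normalizer (R : Set G) ∧ ∃ k : ℕ, orderOf g = p ^ k},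
        ∃ hgN : g' ∈ Subgroup.normalizer (R : Set G), IsFIso E (R.normalizerMonoidHom ⟨g', hgN⟩) := by
      intro g' hg'
      induction hg' using Subgroup.closure_induction with
      | mem x hx =>
        obtain ⟨hxN, k, hk⟩ := hx
        refine ⟨hxN, hpow R hRS _ ?_ k ?_⟩
        · rw [mem_autGroup _ hRS]
          refine ⟨hRS, fun y => hRS (R.normalizerMonoidHom ⟨x, hxN⟩ y).2, x, fun y => rfl⟩
        · rw [← map_pow]
          have : (⟨x, hxN⟩ : Subgroup.normalizer (R : Set G)) ^ p ^ k = 1 := by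
            apply Subtype.ext
            show x ^ p ^ k = 1
            rw [← hk]
            exact pow_orderOf_eq_one x
          rw [this, map_one]
      | one =>
        refine ⟨Subgroup.one_mem _, ?_⟩
        have : R.normalizerMonoidHom ⟨1, Subgroup.one_mem _⟩ = 1 := map_one _
        rw [this]
        exact isFIso_refl hRS
      | mul x y _ _ hx hy =>
        obtain ⟨hxN, hxE⟩ := hx
        obtain ⟨hyN, hyE⟩ := hy
        refine ⟨Subgroup.mul_mem _ hxN hyN, ?_⟩
        have : R.normalizerMonoidHom ⟨x * y, Subgroup.mul_mem _ hxN hyN⟩ =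
            R.normalizerMonoidHom ⟨x, hxN⟩ * R.normalizerMonoidHom ⟨y, hyN⟩ := by
          rw [← map_mul]; rfl
        rw [this]
        exact hom_congr E (hyE.trans hxE) (fun z => rfl)
      | inv x _ hx =>
        obtain ⟨hxN, hxE⟩ := hx
        refine ⟨Subgroup.inv_mem _ hxN, ?_⟩
        have : R.normalizerMonoidHom ⟨x⁻¹, Subgroup.inv_mem _ hxN⟩ =
            (R.normalizerMonoidHom ⟨x, hxN⟩)⁻¹ := by
          rw [← map_inv]; rfl
        rw [this]
        exact hom_congr E hxE.symm (fun z => rfl)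
    obtain ⟨hgN, hgE⟩ := hkey g hg
    rw [mem_autGroup E le_rfl]
    have hres : (((S : Subgroup G).subtype.comp α.toMonoidHom).comp (Subgroup.inclusion hRS)) ∈ E.Hom R := by
      refine hom_congr E hgE (fun x => ?_)
      exact hgα ⟨x, hRS x.2⟩
    have hrr : (((S : Subgroup G).subtype.comp α.toMonoidHom).comp (Subgroup.inclusion hRS)).range = R := by
      have h1 : ((S : Subgroup G).subtype.comp α.toMonoidHom).comp (Subgroup.inclusion hRS) =
          R.subtype.comp (R.normalizerMonoidHom ⟨g, hgN⟩).toMonoidHom := by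
        ext x
        exact hgα ⟨x, hRS x.2⟩
      rw [h1]
      exact range_subtype_comp_aut _
    exact aut_of_restrict hSp hEsat hinv.1 hpow hαF _ R hRS rfl hRc hrr hres
  intro φ hφ
  obtain ⟨α, hα, φ₀, hφ₀, hfac⟩ := hinv.2.2.2 P (le_of_hom _ hφ) φ hφ
  have hαmem : α ∈ Cfsg.autInducedBy ⊤ (S : Subgroup G) := by
    rwa [← Cfsg.Agent.S5076.autGroup_groupFusionSystem (S : Subgroup G) (S : Subgroup G) le_rfl]
  have hαE : IsFIso E α := (mem_autGroup_iff_isFIso le_rfl α).mp (hAut hαmem)
  have h1 := E.comp_mem hφ₀ hαE (fun x => val_mem E hφ₀ x)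
  exact hom_congr E h1 (fun x => hfac x (val_mem E hφ₀ x))

end Cfsg.Agent.S5160
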