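import Mathlib
import Cfsg.Statements.S5164
import Cfsg.Agent.Lib.SylowConjLemmas

set_option autoImplicit false
open Cfsg

namespace Cfsg.Agent.S5164

open Equiv Equiv.Perm

/-- A `p`-group acting on a set of size less than `p²` acts through a commutative group. -/
theorem comm_of_card_lt {X : Type*} [Fintype X] {p : ℕ} [hp : Fact p.Prime] {G : Type*} [Group G]
    [MulAction G X] (hG : IsPGroup p G) (hX : Fintype.card X < p ^ 2) (a b : G) (x : X) :
    a • b • x = b • a • x := by
  classical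
  have hpp := hp.out
  obtain ⟨k, hk⟩ := hG.card_orbit x
  have hle : Nat.card (MulAction.orbit G x) ≤ Fintype.card X := by
    rw [Nat.card_eq_fintype_card]
    exact set_fintype_card_le_univ _
  have hk2 : k < 2 := by
    have h1 : p ^ k < p ^ 2 := by
      rw [← hk]
      exact lt_of_le_of_lt hle hX
    exact (Nat.pow_lt_pow_iff_right hpp.one_lt).mp h1
  let φ : G →* Perm (MulAction.orbit G x) := MulAction.toPermHom G (MulAction.orbit G x)
  have hHp : IsPGroup p φ.range := hG.of_surjective φ.rangeRestrict φ.rangeRestrict_surjective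
  obtain ⟨c, hc⟩ := IsPGroup.iff_card.mp hHp
  have hdvd : Nat.card φ.range ∣ (p ^ k).factorial := by
    have h1 := Subgroup.card_subgroup_dvd_card φ.range
    rw [Nat.card_perm] at h1
    rwa [hk] at h1
  have hc1 : c ≤ 1 := by
    rw [hc] at hdvd
    by_contra hcon
    have h2 : p ^ 2 ∣ (p ^ k).factorial := (pow_dvd_pow p (by omega : 2 ≤ c)).trans hdvd
    interval_cases k
    · simp only [pow_zero, Nat.factorial_one] at h2
      have := Nat.le_of_dvd one_pos h2
      have h3 : 1 < p ^ 2 := Nat.one_lt_pow (by omega) hpp.one_lt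
      omega
    · rw [pow_one] at h2
      obtain ⟨q, hq⟩ : ∃ q, p = q + 1 := ⟨p - 1, (Nat.succ_pred_eq_of_pos hpp.pos).symm⟩
      have h3 : p * p ∣ p * q.factorial := by
        have e : p.factorial = p * q.factorial := by
          conv_lhs => rw [hq, Nat.factorial_succ]
          rw [← hq]
        rw [← e, ← sq]
        exact h2
      have h4 : p ∣ q.factorial := Nat.dvd_of_mul_dvd_mul_left hpp.pos h3
      have h5 := (Nat.Prime.dvd_factorial hpp).mp h4
      omega
  have hcomm : ∀ u v : φ.range, u * v = v * u := by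
    intro u v
    interval_cases c
    · rw [pow_zero] at hc
      have : Subsingleton φ.range := (Nat.card_eq_one_iff_unique.mp hc).1
      exact Subsingleton.elim _ _
    · rw [pow_one] at hc
      have : IsCyclic φ.range := isCyclic_of_prime_card hc
      exact (IsCyclic.commGroup (α := φ.range)).mul_comm u v
  have h1 := hcomm ⟨φ a, ⟨a, rfl⟩⟩ ⟨φ b, ⟨b, rfl⟩⟩
  have h2 : φ a * φ b = φ b * φ a := congrArg Subtype.val h1
  have h3 := congrArg (fun f : Perm (MulAction.orbit G x) => ((f ⟨x, MulAction.mem_orbit_self x⟩ : MulAction.orbit G x) : X)) h2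
  exact h3

/-- A noncommuting pair in a `p`-subgroup of even permutations excludes commutative Sylow subgroups. -/
theorem not_comm_of_subgroup {n p : ℕ} [Fact p.Prime] (S : Sylow p (alternatingGroup (Fin n)))
    (H : Subgroup (Perm (Fin n))) (hH : IsPGroup p H) (heven : H ≤ alternatingGroup (Fin n))
    {a b : Perm (Fin n)} (ha : a ∈ H) (hb : b ∈ H) (hab : a * b ≠ b * a) : ¬ IsMulCommutative S := by
  intro hc
  have hT : IsPGroup p (H.subgroupOf (alternatingGroup (Fin n))) :=
    hH.comap_of_injective _ (Subgroup.subtype_injective _)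
  obtain ⟨g, hg⟩ := Cfsg.Agent.Lib.SylowConjLemmas.exists_conj_mem S _ hT
  let a' : alternatingGroup (Fin n) := ⟨a, heven ha⟩
  let b' : alternatingGroup (Fin n) := ⟨b, heven hb⟩
  have h1 := hg a' (Subgroup.mem_subgroupOf.mpr ha)
  have h2 := hg b' (Subgroup.mem_subgroupOf.mpr hb)
  have h3 := hc.is_comm.comm (⟨_, h1⟩ : S) ⟨_, h2⟩
  have h4 : g * a' * g⁻¹ * (g * b' * g⁻¹) = g * b' * g⁻¹ * (g * a' * g⁻¹) := congrArg Subtype.val h3
  have h5 : a' * b' = b' * a' := by
    have h6 : g * (a' * b') * g⁻¹ = g * (b' * a') * g⁻¹ := by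
      calc g * (a' * b') * g⁻¹ = g * a' * g⁻¹ * (g * b' * g⁻¹) := by group
        _ = g * b' * g⁻¹ * (g * a' * g⁻¹) := h4
        _ = g * (b' * a') * g⁻¹ := by group
    exact mul_left_cancel (mul_right_cancel h6)
  exact hab (congrArg Subtype.val h5)

section Wreath

variable (p : ℕ)

/-- The wreath product elements. -/
def wr (f : ZMod p → ZMod p) (k : ZMod p) : Perm (ZMod p × ZMod p) where
  toFun x := (x.1 + f x.2, x.2 + k)
  invFun x := (x.1 - f (x.2 - k), x.2 - k)
  left_inv x := by simp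
  right_inv x := by simp

variable {p}

theorem wr_apply (f : ZMod p → ZMod p) (k : ZMod p) (x : ZMod p × ZMod p) :
    wr p f k x = (x.1 + f x.2, x.2 + k) := rfl

theorem wr_mul (f g : ZMod p → ZMod p) (k l : ZMod p) :
    wr p f k * wr p g l = wr p (fun j => g j + f (j + l)) (l + k) := by
  ext x
  · show x.1 + g x.2 + f (x.2 + l) = x.1 + (g x.2 + f (x.2 + l))
    ring
  · show x.2 + l + k = x.2 + (l + k)
    ring

theorem wr_zero : wr p (fun _ => 0) 0 = 1 := by
  ext x <;> simp [wr_apply]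

theorem wr_inv (f : ZMod p → ZMod p) (k : ZMod p) : (wr p f k)⁻¹ = wr p (fun j => - f (j - k)) (-k) := by
  ext x
  · show x.1 - f (x.2 - k) = x.1 + - f (x.2 - k)
    ring
  · show x.2 - k = x.2 + -k
    ring

theorem wr_pow (f : ZMod p → ZMod p) (k : ZMod p) (m : ℕ) :
    wr p f k ^ m = wr p (fun j => ∑ t ∈ Finset.range m, f (j + t * k)) (m * k) := by
  induction m with
  | zero =>
    simp only [pow_zero, Finset.range_zero, Finset.sum_empty, Nat.cast_zero, zero_mul]
    exact wr_zero.symm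
  | succ m ih =>
    rw [pow_succ, ih, wr_mul]
    congr 1
    · funext j
      rw [Finset.sum_range_succ']
      simp only [Nat.cast_add, Nat.cast_one, Nat.cast_zero, zero_mul, add_zero]
      rw [add_comm]
      congr 1
      apply Finset.sum_congr rfl
      intro t _
      congr 1
      ring
    · push_cast
      ring

/-- The wreath product, as a subgroup of the permutations of the square. -/
def wrSubgroup (p : ℕ) : Subgroup (Perm (ZMod p × ZMod p)) where
  carrier := {σ | ∃ f k, σ = wr p f k}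
  mul_mem' := by
    rintro _ _ ⟨f, k, rfl⟩ ⟨g, l, rfl⟩
    exact ⟨_, _, wr_mul f g k l⟩
  one_mem' := ⟨_, _, wr_zero.symm⟩
  inv_mem' := by
    rintro _ ⟨f, k, rfl⟩
    exact ⟨_, _, wr_inv f k⟩

theorem wrSubgroup_isPGroup [Fact p.Prime] : IsPGroup p (wrSubgroup p) := by
  rintro ⟨_, f, k, rfl⟩
  refine ⟨2, Subtype.ext ?_⟩
  show wr p f k ^ p ^ 2 = 1
  rw [sq, pow_mul, wr_pow, wr_pow]
  have h1 : ((p : ℕ) : ZMod p) = 0 := ZMod.natCast_self p
  simp only [h1, zero_mul, mul_zero, add_zero, Finset.sum_const, Finset.card_range]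
  rw [← wr_zero (p := p)]
  congr 1
  funext j
  simp

theorem wr_not_comm [Fact p.Prime] :
    wr p (fun j => if j = 0 then 1 else 0) 0 * wr p (fun _ => 0) 1 ≠
      wr p (fun _ => 0) 1 * wr p (fun j => if j = 0 then 1 else 0) 0 := by
  intro h
  have h1 := congrArg (fun σ : Perm (ZMod p × ZMod p) => (σ ((0 : ZMod p), (0 : ZMod p))).1) h
  simp only [wr_mul, wr_apply] at h1
  simp at h1

end Wreath

/-- For odd `p`, there is a noncommuting pair in a `p`-subgroup of `A_n`, `p² ≤ n`. -/
theorem not_comm_odd {p : ℕ} [hp : Fact p.Prime] {n : ℕ} (hn : p ^ 2 ≤ n) (hodd : p ≠ 2)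
    (S : Sylow p (alternatingGroup (Fin n))) : ¬ IsMulCommutative S := by
  have hpp := hp.out
  have hcard : Fintype.card (ZMod p × ZMod p) ≤ Fintype.card (Fin n) := by
    rw [Fintype.card_prod, ZMod.card, Fintype.card_fin, ← sq]
    exact hn
  obtain ⟨ι⟩ := Function.Embedding.nonempty_of_card_le hcard
  let H : Subgroup (Perm (Fin n)) := (wrSubgroup p).map (viaEmbeddingHom ι)
  have hH : IsPGroup p H := (wrSubgroup_isPGroup).map _
  have heven : H ≤ alternatingGroup (Fin n) := by
    intro x hx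
    rw [Equiv.Perm.mem_alternatingGroup]
    obtain ⟨k, hk⟩ := hH ⟨x, hx⟩
    have hk' : x ^ p ^ k = 1 := congrArg Subtype.val hk
    have h1 : Equiv.Perm.sign x ^ p ^ k = 1 := by
      rw [← map_pow, hk', map_one]
    have h2 : Odd (p ^ k) := (hpp.odd_of_ne_two hodd).pow
    rcases Int.units_eq_one_or (Equiv.Perm.sign x) with h | h
    · exact h
    · rw [h, h2.neg_one_pow] at h1
      exact absurd h1 (by decide)
  refine not_comm_of_subgroup S H hH heven
    (a := viaEmbeddingHom ι (wr p (fun j => if j = 0 then 1 else 0) 0))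
    (b := viaEmbeddingHom ι (wr p (fun _ => 0) 1))
    ⟨_, ⟨_, _, rfl⟩, rfl⟩ ⟨_, ⟨_, _, rfl⟩, rfl⟩ ?_
  rw [← map_mul, ← map_mul]
  exact fun h => wr_not_comm (viaEmbeddingHom_injective ι h)

/-- An element of order `4`. -/
def a6 : Perm (Fin 6) := (swap 0 1 * swap 1 2 * swap 2 3) * swap 4 5
/-- An involution inverting `a6`. -/
def b6 : Perm (Fin 6) := swap 1 3 * swap 4 5

theorem a6_pow : a6 ^ 4 = 1 := by decide
theorem b6_pow : b6 ^ 2 = 1 := by decide
theorem b6_a6 : b6 * a6 * b6⁻¹ = a6⁻¹ := by decide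
theorem a6_b6 : a6 * b6 ≠ b6 * a6 := by decide
theorem a6_sign : Equiv.Perm.sign a6 = 1 := by simp [a6]
theorem b6_sign : Equiv.Perm.sign b6 = 1 := by simp [b6]

theorem isPGroup_zpowers_of_pow {G : Type*} [Group G] {p k : ℕ} {a : G} (h : a ^ p ^ k = 1) :
    IsPGroup p (Subgroup.zpowers a) := by
  rintro ⟨_, m, rfl⟩
  refine ⟨k, Subtype.ext ?_⟩
  show ((a ^ m) ^ p ^ k) = 1
  rw [← zpow_natCast, ← zpow_mul, mul_comm, zpow_mul, zpow_natCast, h, one_zpow]

theorem not_comm_two [Fact (Nat.Prime 2)] {n : ℕ} (hn : 6 ≤ n)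
    (S : Sylow 2 (alternatingGroup (Fin n))) : ¬ IsMulCommutative S := by
  have hA : IsPGroup 2 (Subgroup.zpowers a6) := isPGroup_zpowers_of_pow (k := 2) a6_pow
  have hB : IsPGroup 2 (Subgroup.zpowers b6) := isPGroup_zpowers_of_pow (k := 1) (by simpa using b6_pow)
  have hN : Subgroup.zpowers b6 ≤ Subgroup.normalizer (Subgroup.zpowers a6 : Set (Perm (Fin 6))) := by
    rw [Subgroup.zpowers_le]
    have hb' : b6⁻¹ = b6 := by decide
    have key : ∀ y ∈ Subgroup.zpowers a6, b6 * y * b6⁻¹ ∈ Subgroup.zpowers a6 := by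
      rintro _ ⟨m, rfl⟩
      refine ⟨-m, ?_⟩
      show a6 ^ (-m) = b6 * a6 ^ m * b6⁻¹
      have h1 : b6 * a6 ^ m * b6⁻¹ = (b6 * a6 * b6⁻¹) ^ m := conj_zpow.symm
      rw [h1, b6_a6, inv_zpow']
    rw [Subgroup.mem_normalizer_iff]
    intro y
    refine ⟨key y, fun h => ?_⟩
    have := key _ h
    have e : b6 * (b6 * y * b6⁻¹) * b6⁻¹ = y := by
      have h2 : b6 * b6 = 1 := by decide
      have h3 : b6⁻¹ * b6⁻¹ = 1 := by decide
      calc b6 * (b6 * y * b6⁻¹) * b6⁻¹ = (b6 * b6) * y * (b6⁻¹ * b6⁻¹) := by group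
        _ = y := by rw [h2, h3]; group
    rwa [e] at this
  have hK : IsPGroup 2 ((Subgroup.zpowers a6 ⊔ Subgroup.zpowers b6 : Subgroup (Perm (Fin 6)))) :=
    hA.to_sup_of_normal_left' hB hN
  have hKe : (Subgroup.zpowers a6 ⊔ Subgroup.zpowers b6 : Subgroup (Perm (Fin 6))) ≤ alternatingGroup (Fin 6) := by
    refine sup_le ?_ ?_
    · rw [Subgroup.zpowers_le, Equiv.Perm.mem_alternatingGroup]
      exact a6_sign
    · rw [Subgroup.zpowers_le, Equiv.Perm.mem_alternatingGroup]
      exact b6_sign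
  let ι : Fin 6 ↪ Fin n := Fin.castLEEmb hn
  let H : Subgroup (Perm (Fin n)) :=
    (Subgroup.zpowers a6 ⊔ Subgroup.zpowers b6 : Subgroup (Perm (Fin 6))).map (viaEmbeddingHom ι)
  have hH : IsPGroup 2 H := hK.map _
  have heven : H ≤ alternatingGroup (Fin n) := by
    rintro _ ⟨x, hx, rfl⟩
    rw [Equiv.Perm.mem_alternatingGroup, viaEmbeddingHom_apply, viaEmbedding]
    rw [Equiv.Perm.sign_extendDomain]
    exact Equiv.Perm.mem_alternatingGroup.mp (hKe hx)
  refine not_comm_of_subgroup S H hH heven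
    (a := viaEmbeddingHom ι a6) (b := viaEmbeddingHom ι b6)
    ⟨_, Subgroup.mem_sup_left (Subgroup.mem_zpowers _), rfl⟩
    ⟨_, Subgroup.mem_sup_right (Subgroup.mem_zpowers _), rfl⟩ ?_
  rw [← map_mul, ← map_mul]
  exact fun h => a6_b6 (viaEmbeddingHom_injective ι h)

end Cfsg.Agent.S5164

namespace Cfsg.Agent.S5164

/-- For n ≥ 6 and a prime p, a nontrivial Sylow p-subgroup of the alternating group of degree n is abelian if and only if n < p². -/
theorem result (n p : ℕ) (hn : 6 ≤ n) [Fact p.Prime] (S : Sylow p (alternatingGroup (Fin n))) (hS : (S : Subgroup (alternatingGroup (Fin n))) ≠ ⊥) : IsMulCommutative S ↔ n < p ^ 2 := by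
  constructor
  · intro hc
    by_contra hlt
    have hle : p ^ 2 ≤ n := not_lt.mp hlt
    rcases eq_or_ne p 2 with rfl | hodd
    · exact not_comm_two hn S hc
    · exact not_comm_odd hle hodd S hc
  · intro hlt
    refine ⟨⟨fun a b => ?_⟩⟩
    apply Subtype.ext
    apply Subtype.ext
    ext x
    have h1 := comm_of_card_lt (G := S) (X := Fin n) (p := p) S.isPGroup' (by simpa using hlt) a b x
    exact congrArg Fin.val h1

end Cfsg.Agent.S5164
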