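import Mathlib
import Cfsg.Statements.S5166
import Cfsg.Agent.Lib.MathieuFusionData
import Cfsg.Agent.Lib.M11Chain

set_option autoImplicit false
open Cfsg

namespace Cfsg.Agent.S5166

open Cfsg.Agent.Lib.Golay Cfsg.Agent.Lib.MathieuFusion Cfsg.Agent.Lib.MathieuFusionData Cfsg.Agent.Lib.M11Chain Cfsg.Agent.Lib.M11Data Cfsg.Spor
open scoped Pointwise

set_option maxRecDepth 100000

theorem base_ok : baseChk gens11 = true := by decide +kernel
theorem gens_ok : gens11.all isM11 = true := by decide +kernel
theorem clos_ok : closChk gens11 isM11 z11 ins11 = true := by decide +kernel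
theorem desc_ok : descChk (prods gens11) [dod] [0] [1,2,3,4] = true := by decide +kernel

/-- The 2-fusion system of the Mathieu group M₁₁ (as the explicit permutation group carved out of the automorphism group of the binary Golay code) on a Sylow 2-subgroup is simple: saturated, over a nontrivial 2-group, with no normal subsystem other than the trivial one and itself. -/
theorem result (S : Sylow 2 Cfsg.Spor.M11) : (Cfsg.groupFusionSystem (S : Subgroup Cfsg.Spor.M11)).IsSimple 2 := by
  refine isSimple_of_cert M11 gens11 z11 ins11 isM11 [dod] [1,2,3,4] [0] 495 (fun c hc => decode_mem_M11 hc)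
    ?_ base_ok gens_ok (by decide) clos_ok desc_ok (by simp) ?_ ?_ (by norm_num) ?_ S
  · intro g hg m hm i hi
    rw [List.mem_singleton] at hm
    subst hm
    exact testBit_of_smul_eq ((mem_M11_iff g).1 hg).2.1 hi
  · intro g hg i hi
    rw [List.mem_singleton] at hi
    subst hi
    exact ((mem_M11_iff g).1 hg).2.2
  · rw [card_M11]; rfl
  · intro h hh _ hfix
    have h1 := eq_one_of_fix hh (hfix 1 (by simp)) (hfix 2 (by simp)) (hfix 3 (by simp)) (hfix 4 (by simp))
    rw [h1]
    exact Subgroup.one_mem _

end Cfsg.Agent.S5166
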