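import Mathlib
import Cfsg.Statements.S5167
import Cfsg.Agent.Lib.MathieuFusionData
import Cfsg.Agent.Lib.M11Chain

set_option autoImplicit false
open Cfsg

namespace Cfsg.Agent.S5167

open Cfsg.Agent.Lib.Golay Cfsg.Agent.Lib.MathieuFusion Cfsg.Agent.Lib.MathieuFusionData
open Cfsg.Agent.Lib.M11Chain Cfsg.Agent.Lib.M11Data Cfsg.Spor
open scoped Pointwise

set_option maxRecDepth 100000

/-- the membership test for `M12` -/
def isM12 (c : ℕ) : Bool := isM24 c && Nat.beq (img c dod) dod

theorem mem_M12_iff {g : Equiv.Perm GolayPt} : g ∈ M12 ↔ g ∈ M24 ∧ g • ofMask dod = ofMask dod := by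
  rw [← squareDodecad_eq]
  simp only [M12, Subgroup.mem_inf, MulAction.mem_stabilizer_iff]

theorem isM12_mem {c : ℕ} (hc : isM12 c = true) : decode c ∈ M12 := by
  simp only [isM12, Bool.and_eq_true] at hc
  obtain ⟨h1, h2⟩ := hc
  rw [mem_M12_iff]
  refine ⟨decode_mem_M24 h1, ?_⟩
  rw [decode_smul_ofMask (isM24_valid h1), Nat.eq_of_beq_eq_true h2]

def t12 : List ℕ := [984818244535754528103549039458486304,237080259574089407624992431830741569,440873276312625882582557900952482082,859902666452701335721440913285198883,735122752797455956932410137814376484,897677503266098832721646587509738790,606423372741331468040054102279405864,648207717757601875404422499055782025,236725638884464380216748213318731820,481896994981394185503472244347830573,319957048813673911761798223320193072,648685592595220994202522868798001458]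

/-- the points of the dodecad -/
def dL : List ℕ := [0,1,2,3,4,6,8,9,12,13,16,18]

theorem t12_ok : ∀ q ∈ dL, ∃ c ∈ t12, isM12 c = true ∧ ap c 0 = q := by decide +kernel

theorem dL_cover : ∀ i < 24, dod.testBit i = true → i ∈ dL := by decide +kernel

theorem card_M12 : Nat.card M12 = 95040 := by
  have h1 := Cfsg.Agent.Lib.Golay.card_eq_orbit_mul M12 (pt 0)
  have h2 : M12 ⊓ MulAction.stabilizer (Equiv.Perm GolayPt) (pt 0) = M11 := by
    rw [pt_zero]
    rfl
  rw [h2, card_M11] at h1
  have h3 : MulAction.orbit M12 (pt 0) = pt '' {q | q ∈ dL} := by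
    apply orbit_eq_image
    · intro g hg
      refine ⟨idx (g (pt 0)), ?_, ?_⟩
      · apply dL_cover _ (idx_lt _)
        rw [testBit_of_smul_eq (mem_M12_iff.mp hg).2 (by norm_num)]
        decide +kernel
      · rw [Equiv.Perm.smul_def, pt_idx]
    · intro q hq
      obtain ⟨c, -, hc, hcq⟩ := t12_ok q hq
      refine ⟨decode c, isM12_mem hc, ?_⟩
      simp only [isM12, Bool.and_eq_true] at hc
      rw [Equiv.Perm.smul_def, decode_pt (isM24_valid hc.1) (by norm_num), hcq]
  have h4 : (pt '' {q | q ∈ dL}).ncard = 12 := by
    apply ncard_image_list _ _ (by decide)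
    intro a ha c hc hac
    have hlt : ∀ x ∈ dL, x < 24 := by decide
    exact pt_injOn (hlt a ha) (hlt c hc) hac
  rw [h3, h4] at h1
  exact h1

theorem base_ok : baseChk gens12 = true := by decide +kernel
theorem gens_ok : gens12.all isM12 = true := by decide +kernel
theorem clos_ok : closChk gens12 isM12 z12 ins12 = true := by decide +kernel
theorem desc_ok : descChk (prods gens12) [dod] [] [0,1,2,3,4] = true := by decide +kernel

/-- The 2-fusion system of the Mathieu group M₁₂ (as the explicit permutation group carved out of the automorphism group of the binary Golay code) on a Sylow 2-subgroup is simple: saturated, over a nontrivial 2-group, with no normal subsystem other than the trivial one and itself. -/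
theorem result (S : Sylow 2 Cfsg.Spor.M12) : (Cfsg.groupFusionSystem (S : Subgroup Cfsg.Spor.M12)).IsSimple 2 := by
  refine isSimple_of_cert M12 gens12 z12 ins12 isM12 [dod] [0,1,2,3,4] [] 1485 (fun c hc => isM12_mem hc)
    ?_ base_ok gens_ok (by decide) clos_ok desc_ok (by simp) (by simp) ?_ (by norm_num) ?_ S
  · intro g hg m hm i hi
    rw [List.mem_singleton] at hm
    subst hm
    exact testBit_of_smul_eq (mem_M12_iff.mp hg).2 hi
  · rw [card_M12]; rfl
  · intro h hh _ hfix
    have hh' : h ∈ M11 := by
      rw [mem_M11_iff]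
      exact ⟨(mem_M12_iff.mp hh).1, (mem_M12_iff.mp hh).2, hfix 0 (by simp)⟩
    have h1 := eq_one_of_fix hh' (hfix 1 (by simp)) (hfix 2 (by simp)) (hfix 3 (by simp)) (hfix 4 (by simp))
    rw [h1]
    exact Subgroup.one_mem _

end Cfsg.Agent.S5167
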