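import Mathlib
import Cfsg.Statements.S5168
import Cfsg.Agent.Lib.MathieuFusionData

set_option autoImplicit false
open Cfsg

namespace Cfsg.Agent.S5168

open Cfsg.Agent.Lib.Golay Cfsg.Agent.Lib.MathieuFusion Cfsg.Agent.Lib.MathieuFusionData Cfsg.Spor

set_option maxRecDepth 100000

/-- the membership test for `M22` -/
def isM22 (c : ℕ) : Bool := isM24 c && Nat.beq (ap c 23) 23 && Nat.beq (ap c 0) 0

theorem mem_M22_iff {g : Equiv.Perm GolayPt} : g ∈ M22 ↔ g ∈ G [0,23] := by
  have h0 : pt 0 = some 0 := by simp [pt]
  have h23 : pt 23 = none := by simp [pt]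
  simp only [M22, M23, Subgroup.mem_inf, MulAction.mem_stabilizer_iff, Equiv.Perm.smul_def, mem_G,
    List.mem_cons, List.not_mem_nil, or_false, forall_eq_or_imp, forall_eq, h0, h23]
  tauto

theorem isM22_mem {c : ℕ} (hc : isM22 c = true) : decode c ∈ M22 := by
  simp only [isM22, Bool.and_eq_true] at hc
  obtain ⟨⟨h1, h2⟩, h3⟩ := hc
  have hv := isM24_valid h1
  rw [mem_M22_iff]
  refine ⟨decode_mem_M24 h1, ?_⟩
  intro i hi
  simp only [List.mem_cons, List.not_mem_nil, or_false] at hi
  rcases hi with rfl | rfl
  · rw [decode_pt hv (by norm_num), Nat.eq_of_beq_eq_true h3]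
  · rw [decode_pt hv (by norm_num), Nat.eq_of_beq_eq_true h2]

theorem base_ok : baseChk gens22 = true := by decide +kernel
theorem gens_ok : gens22.all isM22 = true := by decide +kernel
theorem clos_ok : closChk gens22 isM22 z22 ins22 = true := by decide +kernel
theorem desc_ok : descChk (prods gens22) [] [0,23] [1,2,3] = true := by decide +kernel
theorem leaf_ok : leafChk gens22 = true := by decide +kernel

/-- The 2-fusion system of the Mathieu group M₂₂ (as the explicit permutation group carved out of the automorphism group of the binary Golay code) on a Sylow 2-subgroup is simple: saturated, over a nontrivial 2-group, with no normal subsystem other than the trivial one and itself. -/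
theorem result (S : Sylow 2 Cfsg.Spor.M22) : (Cfsg.groupFusionSystem (S : Subgroup Cfsg.Spor.M22)).IsSimple 2 := by
  refine isSimple_of_cert M22 gens22 z22 ins22 isM22 [] [1,2,3] [0,23] 3465 (fun c hc => isM22_mem hc)
    ?_ base_ok gens_ok (by decide) clos_ok desc_ok ?_ ?_ ?_ (by norm_num) ?_ S
  · simp
  · decide
  · intro g hg i hi
    exact (mem_M22_iff.mp hg).2 i hi
  · have : M22 = G [0,23] := Subgroup.ext fun g => mem_M22_iff
    rw [this, card_G2]
    rfl
  · intro h hh hN hfix
    have hh' := mem_M22_iff.mp hh
    refine leaf_spec base_ok leaf_ok ⟨hh'.1, fun i hi => hfix i ?_⟩ hN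
    revert i
    decide

end Cfsg.Agent.S5168
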