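import Mathlib
import Cfsg.Statements.S5171
import Cfsg.Agent.Lib.SpFusion6

set_option autoImplicit false
open Cfsg

namespace Cfsg.Agent.S5171

/-- For a finite field K of characteristic p and m ≥ 2, excluding the case m = 2 with K of two elements, the p-fusion system of the projective symplectic group PSp_{2m}(K) on a Sylow p-subgroup is simple. -/
theorem result {K : Type*} [Field K] [Fintype K] (p : ℕ) [Fact p.Prime] [CharP K p] (m : ℕ) (hm : 2 ≤ m) (hex : m = 2 → 3 ≤ Fintype.card K) (S : Sylow p (Cfsg.PSp m K)) : (Cfsg.groupFusionSystem (S : Subgroup (Cfsg.PSp m K))).IsSimple p := by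
  classical
  refine Cfsg.Agent.Lib.SpFusion6.main p hm (fun h => ?_) S
  have h3 := hex h
  obtain ⟨x, -, hx⟩ := Finset.exists_mem_notMem_of_card_lt_card (s := ({0, 1} : Finset K)) (t := Finset.univ)
    (by
      have : ({0, 1} : Finset K).card ≤ 2 := Finset.card_le_two
      rw [Finset.card_univ]
      omega)
  refine ⟨x, fun h0 => hx (by simp [h0]), fun h1 => hx (by simp [h1])⟩

end Cfsg.Agent.S5171
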