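import Mathlib
import Cfsg.Statements.S5344
import Cfsg.Agent.Lib.ThreeTransCore

set_option autoImplicit false
open Cfsg

namespace Cfsg.Agent.S5344

theorem result {G : Type*} [Group G] {D : Set G} (hD : Cfsg.IsThreeTranspositionSet D) {a b c : G} (ha : a ∈ D) (hb : b ∈ D) (hc : c ∈ D) (hac : a ≠ c) (hac' : Commute a c) (hab : ¬ Commute a b) (hbc : ¬ Commute b c) : ∃ φ : Equiv.Perm (Fin 4) →* G, Function.Injective φ ∧ φ (Equiv.swap 0 1) = a ∧ φ (Equiv.swap 1 2) = b ∧ φ (Equiv.swap 2 3) = c :=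
  Cfsg.Agent.Lib.ThreeTransCore.exists_sym4 hD ha hb hc hac hac' hab hbc

end Cfsg.Agent.S5344
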