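import Mathlib
import Cfsg.Statements.S5345
import Cfsg.Agent.Lib.ThreeTransCore

set_option autoImplicit false
open Cfsg

namespace Cfsg.Agent.S5345

open Cfsg.Agent.Lib.ThreeTransCore
open scoped Pointwise

theorem result {G : Type*} [Group G] [Finite G] {D : Set G} (hD : Cfsg.IsThreeTranspositionGroup D) (T : Sylow 2 G) : IsMulCommutative (Subgroup.closure {d : G | d ∈ D ∧ d ∈ T}) ∧ {d : G | d ∈ D ∧ d ∈ T}.ncard = Cfsg.commutingWidth D := by
  obtain ⟨hD1, hconj, hgen⟩ := hD
  -- pairwise commuting
  have hpair : ∀ (P : Sylow 2 G), ∀ a ∈ D, a ∈ P → ∀ b ∈ D, b ∈ P → Commute a b := by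
    intro P a ha haT b hb hbT
    by_contra hne
    have h3 := cube_of_not_commute hD1 ha hb hne
    have hab : a * b ∈ (P : Subgroup G) := P.1.mul_mem haT hbT
    obtain ⟨k, hk⟩ := (IsPGroup.iff_orderOf.mp P.2) ⟨a * b, hab⟩
    have hk' : orderOf (a * b) = 2 ^ k := by
      rw [← hk]
      exact (Subgroup.orderOf_mk (a * b) hab).symm
    have hdvd := orderOf_dvd_of_pow_eq_one h3
    rw [hk'] at hdvd
    have h1 : 2 ^ k = 1 := by
      have hcop : Nat.Coprime (2 ^ k) 3 := Nat.Coprime.pow_left k (by norm_num)
      exact Nat.Coprime.eq_one_of_dvd hcop hdvd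
    rw [h1, orderOf_eq_one_iff] at hk'
    have : a = b⁻¹ := eq_inv_of_mul_eq_one_left hk'
    rw [inv_of_mem hD1 hb] at this
    apply hne
    rw [this]
  constructor
  · haveI : IsMulCommutative (Subgroup.closure {d : G | d ∈ D ∧ d ∈ T}) := by
      constructor
      constructor
      rintro ⟨x, hx⟩ ⟨y, hy⟩
      ext
      simp only [Subgroup.coe_mul]
      have hle : Subgroup.closure {d : G | d ∈ D ∧ d ∈ T} ≤
          Subgroup.centralizer (Subgroup.closure {d : G | d ∈ D ∧ d ∈ T} : Set G) := by
        rw [Subgroup.closure_le]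
        intro a ha
        rw [SetLike.mem_coe, Subgroup.mem_centralizer_iff]
        intro y hy
        induction hy using Subgroup.closure_induction with
        | mem z hz => exact (hpair T a ha.1 ha.2 z hz.1 hz.2).symm.eq
        | one => simp
        | mul u v _ _ hu hv =>
          calc u * v * a = u * (v * a) := by group
            _ = u * (a * v) := by rw [hv]
            _ = (u * a) * v := by group
            _ = (a * u) * v := by rw [hu]
            _ = a * (u * v) := by group
        | inv u _ hu =>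
          calc u⁻¹ * a = u⁻¹ * (a * u) * u⁻¹ := by group
            _ = u⁻¹ * (u * a) * u⁻¹ := by rw [hu]
            _ = a * u⁻¹ := by group
      exact ((Subgroup.mem_centralizer_iff.mp (hle hx)) y hy).symm
    infer_instance
  · symm
    unfold Cfsg.commutingWidth
    apply IsGreatest.csSup_eq
    constructor
    · exact ⟨{d : G | d ∈ D ∧ d ∈ T}, fun x hx => hx.1, Set.toFinite _,
        fun a ha b hb => hpair T a ha.1 ha.2 b hb.1 hb.2, rfl⟩
    · rintro n ⟨E, hED, hEf, hEc, rfl⟩
      have hP := closure_isPGroup (E := E) (fun a ha => mul_self_of_mem hD1 (hED ha)) hEc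
      obtain ⟨Q, hQ⟩ := hP.exists_le_sylow
      haveI : Fact (Nat.Prime 2) := ⟨Nat.prime_two⟩
      obtain ⟨g, hg⟩ := MulAction.exists_smul_eq G Q T
      -- map x ↦ g x g⁻¹ sends E into D ∩ T
      have hmem : ∀ x ∈ E, x ∈ (Q : Subgroup G) := fun x hx => hQ (Subgroup.subset_closure hx)
      refine Set.ncard_le_ncard_of_injOn (fun x => g * x * g⁻¹) ?_ ?_ (Set.toFinite _)
      · intro x hx
        refine ⟨hconj g x (hED hx), ?_⟩
        have h1 : g * x * g⁻¹ ∈ (g • Q : Sylow 2 G) := by
          rw [Sylow.smul_def]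
          show g * x * g⁻¹ ∈ ((MulAut.conj g • (Q : Subgroup G)) : Subgroup G)
          rw [Subgroup.mem_pointwise_smul_iff_inv_smul_mem]
          have : (MulAut.conj g)⁻¹ • (g * x * g⁻¹) = x := by
            simp [MulAut.smul_def]
            group
          rw [this]
          exact hmem x hx
        rw [hg] at h1
        exact h1
      · intro x _ y _ hxy
        simpa using hxy

end Cfsg.Agent.S5345
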