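import Cfsg.Statements.S5355
import Cfsg.Agent.Lib.FischerRel

set_option autoImplicit false
open Cfsg
open Cfsg.Agent.Lib.ThreeTransCore Cfsg.Agent.Lib.FischerRel

namespace Cfsg.Agent.S5355

abbrev s02 : Equiv.Perm (Fin 4) := Equiv.swap 0 2
abbrev s03 : Equiv.Perm (Fin 4) := Equiv.swap 0 3
abbrev s13 : Equiv.Perm (Fin 4) := Equiv.swap 1 3

theorem conj_ne {G : Type*} [Group G] {D : Set G} (h3 : IsThreeTranspositionSet D) {x x' w : G}
    (hx : x ∈ D) (hx' : x' ∈ D) (hw : w ∈ D) (hne : x ≠ x') (hc : Commute x x') (h1 : ¬ Commute x w)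
    (h2 : ¬ Commute w x') : (x * x') * w * (x * x')⁻¹ ≠ w := by
  obtain ⟨φ, hinj, e1, e2, e3⟩ := exists_sym4 h3 hx hw hx' hne hc h1 h2
  intro h
  have e : (s01 * s23) * s12 * (s01 * s23)⁻¹ ≠ s12 := by decide
  apply e
  apply hinj
  simpa only [map_mul, map_inv, e1, e2, e3] using h

/-- Let D be a conjugacy class of 3-transpositions generating the finite group G, with at least two members, and d a member of D. Suppose that every member of D commuting with d commutes with exactly the same members of D as d does, and that exactly one member of D other than d commutes with d. Then G is isomorphic to the symmetric group of degree 4. -/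
theorem result {G : Type*} [Group G] [Finite G] {D : Set G} (hD : Cfsg.IsThreeTranspositionClass D) (hD2 : ∃ a ∈ D, ∃ b ∈ D, a ≠ b) {d : G} (hd : d ∈ D) (hV : {y : G | y ∈ D ∧ Commute d y} = {v : G | v ∈ D ∧ ∀ e ∈ D, Commute v e ↔ Commute d e}) (hm : {y : G | y ∈ D ∧ Commute d y}.ncard = 2) : Nonempty (G ≃* Equiv.Perm (Fin 4)) := by
  have h3 : IsThreeTranspositionSet D := hD.1
  -- the partner of `d`
  obtain ⟨d', hd'ne, hset⟩ : ∃ d', d' ≠ d ∧ {y : G | y ∈ D ∧ Commute d y} = {d, d'} := by
    obtain ⟨x, y, hxy, hs⟩ := Set.ncard_eq_two.mp hm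
    have hdm : d ∈ ({x, y} : Set G) := by
      rw [← hs]
      exact ⟨hd, Commute.refl d⟩
    rcases hdm with rfl | hdy
    · exact ⟨y, hxy.symm, hs⟩
    · rw [Set.mem_singleton_iff] at hdy
      subst hdy
      refine ⟨x, hxy, ?_⟩
      rw [hs, Set.pair_comm]
  have hd'm : d' ∈ {y : G | y ∈ D ∧ Commute d y} := by rw [hset]; simp
  have hd'V : d' ∈ {v : G | v ∈ D ∧ ∀ e ∈ D, Commute v e ↔ Commute d e} := by rw [← hV]; exact hd'm
  have hd'D : d' ∈ D := hd'm.1
  have hdrel : VRel D d d' := fun e he => (hd'V.2 e he).symm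
  have hdC : ∀ y ∈ D, Commute d y ↔ y = d ∨ y = d' := by
    intro y hy
    have : y ∈ {y : G | y ∈ D ∧ Commute d y} ↔ y ∈ ({d, d'} : Set G) := by rw [hset]
    simpa [hy] using this
  -- transport to every member
  have hpartner : ∀ u ∈ D, ∃ u' ∈ D, u' ≠ u ∧ VRel D u u' ∧ ∀ y ∈ D, Commute u y ↔ y = u ∨ y = u' := by
    intro u hu
    obtain ⟨g, rfl⟩ := exists_conj hD hd hu
    refine ⟨g * d' * g⁻¹, conj_mem hD g hd'D, ?_, hdrel.conj hD g, ?_⟩
    · intro h
      apply hd'ne
      simpa using h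
    · intro y hy
      rw [commute_conj_iff]
      have hy' : g⁻¹ * y * g ∈ D := by
        have := conj_mem hD g⁻¹ hy
        rwa [inv_inv] at this
      rw [hdC _ hy']
      constructor
      · rintro (h | h)
        · left; rw [← h]; group
        · right; rw [← h]; group
      · rintro (h | h)
        · left; rw [h]; group
        · right; rw [h]; group
  -- a commuting pair of distinct members are partners
  have hpair : ∀ x ∈ D, ∀ x' ∈ D, x ≠ x' → Commute x x' → VRel D x x' ∧ ∀ y ∈ D, Commute x y ↔ y = x ∨ y = x' := by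
    intro x hx x' hx' hne hc
    obtain ⟨u', hu', hne', hr, hC⟩ := hpartner x hx
    have : x' = u' := by
      rcases (hC x' hx').mp hc with h | h
      · exact absurd h.symm hne
      · exact h
    subst this
    exact ⟨hr, hC⟩
  obtain ⟨b, hb, hdb⟩ := exists_not_commute hD hD2 hd
  have hbd' : ¬ Commute b d' := fun h => hdb ((hdrel b hb).mpr h.symm)
  obtain ⟨φ, hinj, e1, e2, e3⟩ := exists_sym4 h3 hd hb hd'D hd'ne.symm hd'm.2 hdb hbd'
  -- the six transpositions
  have hconjmem : ∀ x ∈ D, ∀ g : Equiv.Perm (Fin 4), φ g * x * (φ g)⁻¹ ∈ D := fun x hx g => conj_mem hD _ hx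
  have m01 : φ s01 ∈ D := by rw [e1]; exact hd
  have m12 : φ s12 ∈ D := by rw [e2]; exact hb
  have m23 : φ s23 ∈ D := by rw [e3]; exact hd'D
  have m02 : φ s02 ∈ D := by
    have := hconjmem _ m01 s12
    have e : s12 * s01 * s12⁻¹ = s02 := by decide
    rwa [← map_inv, ← map_mul, ← map_mul, e] at this
  have m13 : φ s13 ∈ D := by
    have := hconjmem _ m23 s12
    have e : s12 * s23 * s12⁻¹ = s13 := by decide
    rwa [← map_inv, ← map_mul, ← map_mul, e] at this
  have m03 : φ s03 ∈ D := by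
    have := hconjmem _ m01 s13
    have e : s13 * s01 * s13⁻¹ = s03 := by decide
    rwa [← map_inv, ← map_mul, ← map_mul, e] at this
  have pc : ∀ {s t : Equiv.Perm (Fin 4)}, s * t = t * s → Commute (φ s) (φ t) := by
    intro s t h
    show φ s * φ t = φ t * φ s
    rw [← map_mul, ← map_mul, h]
  have pn : ∀ {s t : Equiv.Perm (Fin 4)}, s ≠ t → φ s ≠ φ t := fun h h' => h (hinj h')
  have P1 := hpair _ m01 _ m23 (pn (by decide)) (pc (by decide))
  have P2 := hpair _ m02 _ m13 (pn (by decide)) (pc (by decide))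
  have P3 := hpair _ m03 _ m12 (pn (by decide)) (pc (by decide))
  have hsub : D ⊆ Set.range φ := by
    intro u hu
    by_contra hnot
    have hne : ∀ t, φ t ≠ u := fun t h => hnot ⟨t, h⟩
    obtain ⟨u', hu'D, hu'ne, hur, huC⟩ := hpartner u hu
    obtain ⟨u'', hu''D, hu''ne, hur', huC'⟩ := hpartner u' hu'D
    have hpp : u = u'' := by
      have : Commute u' u := ((hur u hu).mp (Commute.refl u)).symm.symm
      rcases (huC' u hu).mp this with h | h
      · exact absurd h.symm hu'ne
      · exact h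
    subst hpp
    -- the action of a pair
    have act : ∀ x ∈ D, ∀ x' ∈ D, x ≠ x' → Commute x x' → VRel D x x' → ¬ Commute x u →
        (x * x') * u * (x * x')⁻¹ = u' ∧ (x * x') * u' * (x * x')⁻¹ = u := by
      intro x hx x' hx' hne' hc hr hxu
      have hxu' : ¬ Commute x u' := fun h => hxu (((hur x hx).mpr h.symm)).symm
      have hx'u : ¬ Commute u x' := fun h => hxu ((hr u hu).mpr h.symm)
      have hx'u' : ¬ Commute u' x' := fun h => hxu' ((hr u' hu'D).mpr h.symm)
      constructor
      · have h1 := conj_ne h3 hx hx' hu hne' hc hxu hx'u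
        have h2 := vrel_conj_mul hD hx hx' hu hr
        have h4 : Commute u ((x * x') * u * (x * x')⁻¹) := h2.commute hu
        rcases (huC _ (conj_mem hD _ hu)).mp h4 with h | h
        · exact absurd h h1
        · exact h
      · have h1 := conj_ne h3 hx hx' hu'D hne' hc hxu' hx'u'
        have h2 := vrel_conj_mul hD hx hx' hu'D hr
        have h4 : Commute u' ((x * x') * u' * (x * x')⁻¹) := h2.commute hu'D
        rcases (huC' _ (conj_mem hD _ hu'D)).mp h4 with h | h
        · exact absurd h h1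
        · exact h
    have nc : ∀ (t t' : Equiv.Perm (Fin 4)), (∀ y ∈ D, Commute (φ t) y ↔ y = φ t ∨ y = φ t') → ¬ Commute (φ t) u := by
      intro t t' hC hh
      rcases (hC u hu).mp hh with h | h
      · exact hne t h.symm
      · exact hne t' h.symm
    obtain ⟨a1, a2⟩ := act _ m01 _ m23 (pn (by decide)) (pc (by decide)) P1.1 (nc _ _ P1.2)
    obtain ⟨b1, b2⟩ := act _ m02 _ m13 (pn (by decide)) (pc (by decide)) P2.1 (nc _ _ P2.2)
    obtain ⟨c1, c2⟩ := act _ m03 _ m12 (pn (by decide)) (pc (by decide)) P3.1 (nc _ _ P3.2)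
    have hprod : (φ s01 * φ s23) * ((φ s02 * φ s13) * (φ s03 * φ s12)) = 1 := by
      have e : (s01 * s23) * ((s02 * s13) * (s03 * s12)) = 1 := by decide
      have := congrArg φ e
      simpa only [map_mul, map_one] using this
    set σ1 := φ s01 * φ s23 with hσ1
    set σ2 := φ s02 * φ s13 with hσ2
    set σ3 := φ s03 * φ s12 with hσ3
    have hu1 : (σ1 * (σ2 * σ3)) * u * (σ1 * (σ2 * σ3))⁻¹ = u := by
      rw [hprod]; simp
    have hu2 : (σ1 * (σ2 * σ3)) * u * (σ1 * (σ2 * σ3))⁻¹ = σ1 * (σ2 * (σ3 * u * σ3⁻¹) * σ2⁻¹) * σ1⁻¹ := by group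
    rw [hu2, c1, b2, a1] at hu1
    exact hu'ne hu1
  have hsurj : Function.Surjective φ := by
    have h1 : Subgroup.closure D ≤ φ.range := by
      rw [Subgroup.closure_le]
      intro x hx
      obtain ⟨t, rfl⟩ := hsub hx
      exact ⟨t, rfl⟩
    rw [hD.2.2, top_le_iff] at h1
    exact MonoidHom.range_eq_top.mp h1
  exact ⟨(MulEquiv.ofBijective φ ⟨hinj, hsurj⟩).symm⟩

end Cfsg.Agent.S5355
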