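import Mathlib
import Cfsg.Statements.S5358
import Cfsg.Agent.Lib.ReflectionBasic

set_option autoImplicit false
open Cfsg
open scoped MatrixGroups Matrix

namespace Cfsg.Agent.S5358

open Cfsg.Agent.Lib.ReflectionBasic

theorem result (n : ℕ) (Q : QuadraticForm (ZMod 3) (Fin n → ZMod 3)) (hQ : (QuadraticMap.polarBilin Q).Nondegenerate) (u v : Fin n → ZMod 3) (hu : Q u ≠ 0) (huv : Q u = Q v) (h1 : v ≠ u) (h2 : v ≠ -u) : Commute (Cfsg.reflectionMatrix (⇑Q) u) (Cfsg.reflectionMatrix (⇑Q) v) ↔ QuadraticMap.polar (⇑Q) u v = 0 := by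
  have hsym : QuadraticMap.polar (⇑Q) v u = QuadraticMap.polar (⇑Q) u v := polar_symm Q v u
  have hv : Q v ≠ 0 := by rwa [← huv]
  unfold Commute SemiconjBy
  rw [reflectionMatrix_mul, reflectionMatrix_mul, hsym, ← huv]
  set a := (Q u)⁻¹ with ha
  set B := QuadraticMap.polar (⇑Q) u v with hB
  have ha0 : a ≠ 0 := inv_ne_zero hu
  constructor
  · intro h
    by_contra hB0
    -- u ⊗ v* = v ⊗ u*
    have hmat : Matrix.vecMulVec u (polarVec (⇑Q) v) = Matrix.vecMulVec v (polarVec (⇑Q) u) := by
      have h3 : (a * a * B) • Matrix.vecMulVec u (polarVec (⇑Q) v) =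
          (a * a * B) • Matrix.vecMulVec v (polarVec (⇑Q) u) := by
        have h4 := h
        simp only [sub_eq_add_neg] at h4
        have h5 : ∀ X Y Z W : Matrix (Fin n) (Fin n) (ZMod 3),
            1 + -X + -Y + Z = 1 + -Y + -X + W → Z = W := by
          intro X Y Z W hh
          have : 1 + -X + -Y + Z = (1 + -X + -Y) + W := by
            rw [hh]; abel
          exact add_left_cancel this
        exact h5 _ _ _ _ h4
      exact smul_right_injective _ (mul_ne_zero (mul_ne_zero ha0 ha0) hB0) h3
    -- v* is nonzero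
    have hvne : v ≠ 0 := by
      rintro rfl
      exact hv (map_zero Q)
    have hvs : ∃ j, polarVec (⇑Q) v j ≠ 0 := by
      by_contra hno
      push Not at hno
      apply hvne
      apply hQ.1
      intro y
      have := polarVec_dotProduct Q v y
      have h0 : polarVec (⇑Q) v = 0 := funext hno
      rw [h0, zero_dotProduct] at this
      simpa using this.symm
    obtain ⟨j, hj⟩ := hvs
    -- u = λ v
    set l : ZMod 3 := polarVec (⇑Q) u j * (polarVec (⇑Q) v j)⁻¹ with hl
    have hlu : u = l • v := by
      ext i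
      have := congrFun (congrFun hmat i) j
      simp only [Matrix.vecMulVec_apply] at this
      simp only [Pi.smul_apply, smul_eq_mul, hl]
      field_simp
      rw [this]
      ring
    have hl3 : l = 0 ∨ l = 1 ∨ l = 2 := by
      have hall : ∀ x : ZMod 3, x = 0 ∨ x = 1 ∨ x = 2 := by decide
      exact hall l
    rcases hl3 with h0 | h0 | h0
    · apply hu
      rw [hlu, h0, zero_smul, map_zero]
    · apply h1
      rw [hlu, h0, one_smul]
    · apply h2
      rw [hlu, h0]
      have : (2 : ZMod 3) = -1 := by decide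
      rw [this]
      simp
  · intro h
    rw [h]
    simp only [mul_zero, zero_smul, add_zero]
    abel

end Cfsg.Agent.S5358
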