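import Mathlib
import Cfsg.Statements.S5359
import Cfsg.Agent.Lib.OrthAcOdd
import Cfsg.Agent.Lib.OrthMatrix

set_option autoImplicit false
open scoped MatrixGroups
open Cfsg

namespace Cfsg.Agent.S5359

open Module Matrix
open Cfsg.Agent.Lib.OrthGroup Cfsg.Agent.Lib.OrthOmega Cfsg.Agent.Lib.OrthMatrix Cfsg.Agent.Lib.OrthSiegel2 Cfsg.Agent.Lib.OrthSpin Cfsg.Agent.Lib.OrthAc Cfsg.Agent.Lib.OrthAcOdd

theorem sq_one_of_ne {t : ZMod 3} (ht : t ≠ 0) : t ^ 2 = 1 := by
  revert t
  decide

theorem char_neg_ne {c : ZMod 3} (hc : c ≠ 0) : quadraticChar (ZMod 3) (-c) ≠ quadraticChar (ZMod 3) c := by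
  revert c
  decide

/-- Let Q be a non-degenerate quadratic form on the n-dimensional coordinate space over the field with three elements, n odd and at least 5, and c a non-zero scalar. Then the subgroup of the isometry group of Q generated by the reflections in vectors of norm c has index 2 in the isometry group. -/
theorem result (n : ℕ) (hn : 5 ≤ n) (hodd : Odd n) (Q : QuadraticForm (ZMod 3) (Fin n → ZMod 3)) (hQ : (QuadraticMap.polarBilin Q).Nondegenerate) (c : ZMod 3) (hc : c ≠ 0) : (Cfsg.reflectionSubgroup (⇑Q) c).index = 2 := by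
  classical
  have hrank : finrank (ZMod 3) (Fin n → ZMod 3) = n := finrank_fin_fun _
  have h2 : (2 : ZMod 3) ≠ 0 := by decide
  have hm1 : (-1 : ZMod 3) ≠ 1 := by decide
  have hOG : O Q ≤ G Q := O_le_G hQ (Or.inl ⟨-1, neg_ne_zero.mpr one_ne_zero, hm1⟩)
  obtain ⟨b, hb, -, -⟩ := exists_norm_perp (s := 0) hQ h2 (k := 0) Fin.elim0 (fun i => i.elim0) (fun i => i.elim0) (by simp) (fun i => i.elim0)
    (Or.inr ⟨rfl, by rw [hrank]; omega⟩) (-c)
  have hb0 : Q b ≠ 0 := by rw [hb]; exact neg_ne_zero.mpr hc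
  have hbc : quadraticChar (ZMod 3) (Q b) ≠ quadraticChar (ZMod 3) c := by
    rw [hb]
    exact char_neg_ne hc
  have hidx := Ac_index' hQ h2 hOG hc (fun _ => by rw [hrank]; exact hn) hb0 hbc
  have hcomap : Cfsg.reflectionSubgroup (⇑Q) c = (Ac Q c).comap (toO Q).toMonoidHom := by
    apply le_antisymm
    · rw [Cfsg.reflectionSubgroup, Subgroup.closure_le]
      rintro g ⟨v, hv, hg⟩
      show toO Q g ∈ Ac Q c
      rw [(toO_eq_reflO_iff Q g v).1 hg]
      exact Subgroup.subset_closure ⟨v, 1, one_ne_zero, by rw [hv]; ring, rfl⟩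
    · intro g hg
      have hg' : toO Q g ∈ Ac Q c := hg
      have main : ∀ h ∈ Ac Q c, (toO Q).symm h ∈ Cfsg.reflectionSubgroup (⇑Q) c := by
        intro h hh
        induction hh using Subgroup.closure_induction with
        | mem x hx =>
          obtain ⟨v, t, ht, hv, rfl⟩ := hx
          apply Subgroup.subset_closure
          refine ⟨v, by rw [hv, sq_one_of_ne ht, mul_one], ?_⟩
          rw [toO_eq_reflO_iff]
          simp
        | one => simp
        | mul x y _ _ hx hy => rw [map_mul]; exact mul_mem hx hy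
        | inv x _ hx => rw [map_inv]; exact inv_mem hx
      simpa using main _ hg'
  rw [hcomap, Subgroup.index_comap_of_surjective _ (toO Q).surjective]
  exact hidx

end Cfsg.Agent.S5359
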