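import Mathlib
import Cfsg.Statements.S5363

set_option autoImplicit false
open Cfsg

namespace Cfsg.Agent.S5363

private lemma inv_of_ord {G : Type*} [Group G] {d : G} (h : orderOf d = 2) : d * d = 1 := by
  rw [← pow_two, ← h, pow_orderOf_eq_one]

/-- If `u` has odd order then `u` is a power of `u ^ 2`, with exponent depending only on `orderOf (u^2)`. -/
private lemma odd_order_sq {G : Type*} [Group G] [Finite G] {u : G} (h : Odd (orderOf u)) :
    orderOf (u ^ 2) = orderOf u ∧ (u ^ 2) ^ ((orderOf u + 1) / 2) = u := by
  have hcop : Nat.Coprime (orderOf u) 2 := (Nat.coprime_two_right).2 h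
  constructor
  · rw [orderOf_pow' u (by norm_num)]
    have : (orderOf u).gcd 2 = 1 := hcop
    rw [this]; simp
  · rw [← pow_mul]
    obtain ⟨k, hk⟩ := h
    have h1 : (orderOf u + 1) / 2 = k + 1 := by omega
    rw [h1]
    have h2 : 2 * (k + 1) = orderOf u + 1 := by omega
    rw [h2, pow_succ, pow_orderOf_eq_one, one_mul]

theorem result {G : Type*} [Group G] [Finite G] {D : Set G} (hinv : ∀ d ∈ D, orderOf d = 2) (hconj : ∀ g : G, ∀ d ∈ D, g * d * g⁻¹ ∈ D) : (∀ a ∈ D, ∀ b ∈ D, Odd (orderOf (a * b)) ∨ orderOf (a * b) = 2) ↔ ∀ a ∈ D, ∀ b ∈ D, b ≠ a → Commute a b → {y : G | y ∈ D ∧ Commute (a * b) y} = {y : G | y ∈ D ∧ Commute a y} ∩ {y : G | y ∈ D ∧ Commute b y} := by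
  constructor
  · intro hodd a ha b hb hba hab
    ext y
    simp only [Set.mem_setOf_eq, Set.mem_inter_iff]
    constructor
    · rintro ⟨hy, hyc⟩
      have haa := inv_of_ord (hinv a ha)
      have hbb := inv_of_ord (hinv b hb)
      have hyy := inv_of_ord (hinv y hy)
      -- main claim: y commutes with a
      have key : Commute a y := by
        by_contra hay
        -- (a y)^2 = (b y)^2
        have hsq : (a * y) ^ 2 = (b * y) ^ 2 := by
          have h1 : a * b * y = y * (a * b) := hyc.eq
          have h2 : a * b = b * a := hab.eq
          -- a y a y = b y b y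
          have : a * y * (a * y) = b * y * (b * y) := by
            have hb' : b * b = 1 := hbb
            calc a * y * (a * y) = b * (b * a) * y * (a * y) := by
                    rw [← mul_assoc b b a, hb', one_mul]
              _ = b * (a * b * y) * (a * y) := by
                    rw [h2]; group
              _ = b * (y * (a * b)) * (a * y) := by rw [h1]
              _ = b * y * (a * (b * a)) * y := by group
              _ = b * y * (a * (a * b)) * y := by rw [h2]
              _ = b * y * ((a * a) * b) * y := by group
              _ = b * y * (b * y) := by rw [haa]; group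
          simpa [pow_two] using this
        have hay' : Odd (orderOf (a * y)) := by
          rcases hodd a ha y hy with h | h
          · exact h
          · exfalso
            apply hay
            have h3 : (a * y) ^ 2 = 1 := by rw [← h, pow_orderOf_eq_one]
            have h4 : a * y * (a * y) = 1 := by rw [← pow_two]; exact h3
            -- so a y a y = 1, i.e. a y = y a
            show a * y = y * a
            calc a * y = a * y * (a * y) * (y * a) := by
                    have : a * y * (y * a) = 1 := by
                      calc a * y * (y * a) = a * (y * y) * a := by group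
                        _ = 1 := by rw [hyy]; simp [haa]
                    calc a * y = a * y * 1 := by simp
                      _ = a * y * ((a * y) * (y * a)) := by
                          rw [show (a * y) * (y * a) = 1 from this]
                      _ = a * y * (a * y) * (y * a) := by group
              _ = y * a := by rw [h4, one_mul]
        have hne1 : (a * y) ^ 2 ≠ 1 := by
          intro h
          have := orderOf_dvd_of_pow_eq_one h
          obtain ⟨k, hk⟩ := hay'
          have h5 : orderOf (a * y) = 1 := by
            have h6 : orderOf (a * y) ≤ 2 := Nat.le_of_dvd (by norm_num) this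
            omega
          rw [orderOf_eq_one_iff] at h5
          apply hay
          have ha' : a = y := by
            have := eq_inv_of_mul_eq_one_left h5
            rw [this]
            rw [inv_eq_iff_mul_eq_one]; exact hyy
          rw [ha']
        have hby' : Odd (orderOf (b * y)) := by
          rcases hodd b hb y hy with h | h
          · exact h
          · exfalso
            apply hne1
            rw [hsq, ← h, pow_orderOf_eq_one]
        obtain ⟨h1o, h1p⟩ := odd_order_sq hay'
        obtain ⟨h2o, h2p⟩ := odd_order_sq hby'
        have hord : orderOf (a * y) = orderOf (b * y) := by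
          rw [← h1o, ← h2o, hsq]
        have heq : a * y = b * y := by
          rw [← h1p, ← h2p, hsq, hord]
        exact hba (mul_right_cancel heq).symm
      refine ⟨⟨hy, key⟩, hy, ?_⟩
      -- b = a * (a b)
      have hb_eq : b = a * (a * b) := by rw [← mul_assoc, haa, one_mul]
      rw [hb_eq]
      exact key.mul_left hyc
    · rintro ⟨⟨hy, h1⟩, -, h2⟩
      exact ⟨hy, h1.mul_left h2⟩
  · intro hcomm a ha b hb
    by_contra hcon
    push Not at hcon
    obtain ⟨h1, h2⟩ := hcon
    have haa := inv_of_ord (hinv a ha)
    have hbb := inv_of_ord (hinv b hb)
    have hainv : a⁻¹ = a := by rw [inv_eq_iff_mul_eq_one]; exact haa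
    have hbinv : b⁻¹ = b := by rw [inv_eq_iff_mul_eq_one]; exact hbb
    have hev : Even (orderOf (a * b)) := by
      rwa [Nat.not_odd_iff_even] at h1
    obtain ⟨m, hm⟩ := hev
    set t := a * b with ht
    have hm' : orderOf t = 2 * m := by omega
    have hmpos : 0 < m := by
      have := orderOf_pos t
      omega
    have hm2 : m ≠ 1 := by
      intro h; apply h2; omega
    -- a inverts t
    have hat : a * t * a = t⁻¹ := by
      rw [ht, mul_inv_rev, hainv, hbinv]
      calc a * (a * b) * a = (a * a) * b * a := by group
        _ = b * a := by rw [haa, one_mul]
    have hbt : b * t * b = t⁻¹ := by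
      rw [ht, mul_inv_rev, hainv, hbinv]
      calc b * (a * b) * b = b * a * (b * b) := by group
        _ = b * a := by rw [hbb, mul_one]
    set z := t ^ m with hz
    have hzz : z * z = 1 := by
      rw [hz, ← pow_add, ← two_mul, ← hm', pow_orderOf_eq_one]
    have hz1 : z ≠ 1 := by
      intro h
      have := orderOf_dvd_of_pow_eq_one h
      rw [hm'] at this
      have := Nat.le_of_dvd hmpos this
      omega
    have hzinv : z⁻¹ = z := by rw [inv_eq_iff_mul_eq_one]; exact hzz
    -- a conj t^k = t^(-k)
    have hat_pow : ∀ k : ℕ, a * t ^ k * a = (t⁻¹) ^ k := by
      intro k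
      induction k with
      | zero => simp [haa]
      | succ k ih =>
        rw [pow_succ, pow_succ]
        calc a * (t ^ k * t) * a = (a * t ^ k * a) * (a * t * a) := by
              calc a * (t ^ k * t) * a = a * t ^ k * 1 * t * a := by group
                _ = a * t ^ k * (a * a) * t * a := by rw [haa]
                _ = _ := by group
          _ = _ := by rw [ih, hat]
    have hbt_pow : ∀ k : ℕ, b * t ^ k * b = (t⁻¹) ^ k := by
      intro k
      induction k with
      | zero => simp [hbb]
      | succ k ih =>
        rw [pow_succ, pow_succ]
        calc b * (t ^ k * t) * b = (b * t ^ k * b) * (b * t * b) := by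
              calc b * (t ^ k * t) * b = b * t ^ k * 1 * t * b := by group
                _ = b * t ^ k * (b * b) * t * b := by rw [hbb]
                _ = _ := by group
          _ = _ := by rw [ih, hbt]
    have haz : Commute a z := by
      show a * z = z * a
      have h3 := hat_pow m
      rw [inv_pow, ← hz, hzinv] at h3
      calc a * z = a * z * (a * a) := by rw [haa, mul_one]
        _ = (a * z * a) * a := by group
        _ = z * a := by rw [h3]
    have hbz : Commute b z := by
      show b * z = z * b
      have h3 := hbt_pow m
      rw [inv_pow, ← hz, hzinv] at h3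
      calc b * z = b * z * (b * b) := by rw [hbb, mul_one]
        _ = (b * z * b) * b := by group
        _ = z * b := by rw [h3]
    -- a * z ∈ D : reflection in dihedral group
    have hconjpow : ∀ k : ℕ, a * t ^ (2 * k) ∈ D ∧ a * t ^ (2 * k + 1) ∈ D := by
      intro k
      have h_even : ∀ c ∈ D, ∀ k : ℕ, c * t ^ (2*k) ∈ D → True := fun _ _ _ _ => trivial
      have hstep : ∀ k : ℕ, a * t ^ (2 * k) ∈ D := by
        intro k
        induction k with
        | zero => simpa using ha
        | succ k ih =>
          -- conjugate by b * a: (b a) (a t^{2k}) (b a)⁻¹ ... use reflection through t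
          -- t⁻¹ (a t^{2k}) t = a t^{2k+2}
          have h4 := hconj (t⁻¹) (a * t ^ (2 * k)) ih
          have h5 : t⁻¹ * (a * t ^ (2 * k)) * (t⁻¹)⁻¹ = a * t ^ (2 * (k + 1)) := by
            have h6 : t⁻¹ * a = a * t := by
              have : a * t * a = t⁻¹ := hat
              rw [← this]
              calc a * t * a * a = a * t * (a * a) := by group
                _ = a * t := by rw [haa, mul_one]
            rw [← mul_assoc, h6, inv_inv]
            calc a * t * t ^ (2 * k) * t = a * (t * t ^ (2 * k) * t) := by group
              _ = a * t ^ (2 * (k + 1)) := by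
                congr 1
                rw [← pow_succ', ← pow_succ]
                ring_nf
          rwa [h5] at h4
      have hstep2 : ∀ k : ℕ, a * t ^ (2 * k + 1) ∈ D := by
        intro k
        induction k with
        | zero =>
          have : a * t ^ (2 * 0 + 1) = b := by
            simp only [mul_zero, zero_add, pow_one, ht]
            rw [← mul_assoc, haa, one_mul]
          rw [this]; exact hb
        | succ k ih =>
          have h4 := hconj (t⁻¹) (a * t ^ (2 * k + 1)) ih
          have h5 : t⁻¹ * (a * t ^ (2 * k + 1)) * (t⁻¹)⁻¹ = a * t ^ (2 * (k + 1) + 1) := by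
            have h6 : t⁻¹ * a = a * t := by
              have : a * t * a = t⁻¹ := hat
              rw [← this]
              calc a * t * a * a = a * t * (a * a) := by group
                _ = a * t := by rw [haa, mul_one]
            rw [← mul_assoc, h6, inv_inv]
            calc a * t * t ^ (2 * k + 1) * t = a * (t * t ^ (2 * k + 1) * t) := by group
              _ = a * t ^ (2 * (k + 1) + 1) := by
                congr 1
                rw [← pow_succ', ← pow_succ]
                ring_nf
          rwa [h5] at h4
      exact ⟨hstep k, hstep2 k⟩
    have haz_mem : a * z ∈ D := by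
      rcases Nat.even_or_odd' m with ⟨k, hk | hk⟩
      · rw [hz, hk]; exact (hconjpow k).1
      · rw [hz, hk]; exact (hconjpow k).2
    -- apply hypothesis with a, a z
    have hne : a * z ≠ a := by
      intro h
      apply hz1
      exact mul_left_cancel (a := a) (by rw [h, mul_one])
    have hcom : Commute a (a * z) := (Commute.refl a).mul_right haz
    have hset := hcomm a ha (a * z) haz_mem hne hcom
    have hazz : a * (a * z) = z := by rw [← mul_assoc, haa, one_mul]
    have hbmem : b ∈ {y : G | y ∈ D ∧ Commute (a * (a * z)) y} := by
      refine ⟨hb, ?_⟩
      rw [hazz]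
      exact hbz.symm
    rw [hset] at hbmem
    have hab : Commute a b := hbmem.1.2
    -- (a b)^2 = 1
    have : orderOf t ∣ 2 := by
      apply orderOf_dvd_of_pow_eq_one
      rw [ht, pow_two]
      calc a * b * (a * b) = a * (b * a) * b := by group
        _ = a * (a * b) * b := by rw [hab.symm.eq]
        _ = (a * a) * (b * b) := by group
        _ = 1 := by rw [haa, hbb, one_mul]
    have hle := Nat.le_of_dvd (by norm_num) this
    have : m = 1 := by omega
    exact hm2 this

end Cfsg.Agent.S5363
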