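import Mathlib
import Cfsg.Statements.S5364

set_option autoImplicit false
open Cfsg

namespace Cfsg.Agent.S5364

theorem result {G : Type*} [Group G] [Finite G] {D : Set G} (hinv : ∀ d ∈ D, orderOf d = 2) (hconj : ∀ g : G, ∀ d ∈ D, g * d * g⁻¹ ∈ D) (t : G) (ht : orderOf t = 2) (htZ : t ∈ Subgroup.center G) (hDt : ∀ d ∈ D, d * t ∉ D) [(Subgroup.zpowers t).Normal] (himg : Cfsg.IsThreeTranspositionSet ((QuotientGroup.mk : G → G ⧸ Subgroup.zpowers t) '' D)) : Cfsg.IsThreeTranspositionSet D := by
  refine ⟨hinv, ?_⟩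
  intro d hd e he
  have hdd : d * d = 1 := by
    have := hinv d hd
    rw [← pow_two, ← this, pow_orderOf_eq_one]
  have hee : e * e = 1 := by
    have := hinv e he
    rw [← pow_two, ← this, pow_orderOf_eq_one]
  have htt : t * t = 1 := by
    rw [← pow_two, ← ht, pow_orderOf_eq_one]
  have hdinv : d⁻¹ = d := by
    rw [inv_eq_iff_mul_eq_one]; exact hdd
  have heinv : e⁻¹ = e := by
    rw [inv_eq_iff_mul_eq_one]; exact hee
  have hzp : ∀ x : G, x ∈ Subgroup.zpowers t → x = 1 ∨ x = t := by
    intro x hx
    rw [Subgroup.mem_zpowers_iff] at hx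
    obtain ⟨k, rfl⟩ := hx
    rcases Int.even_or_odd' k with ⟨m, rfl | rfl⟩
    · left
      rw [zpow_mul, zpow_two, htt, one_zpow]
    · right
      rw [zpow_add, zpow_mul, zpow_two, htt, one_zpow]
      simp
  have hcases := himg.2 (QuotientGroup.mk d) ⟨d, hd, rfl⟩ (QuotientGroup.mk e) ⟨e, he, rfl⟩
  rcases hcases with h | h
  · -- (d e)^2 ∈ ⟨t⟩
    have h' : (d * e) ^ 2 ∈ Subgroup.zpowers t := by
      rw [← QuotientGroup.eq_one_iff]
      simpa using h
    rcases hzp _ h' with h1 | h1
    · exact Or.inl h1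
    · exfalso
      -- d * t = e d e⁻¹
      apply hDt d hd
      have : d * t = e * d * e⁻¹ := by
        rw [← h1, heinv, pow_two]
        calc d * (d * e * (d * e)) = (d * d) * e * d * e := by group
          _ = e * d * e := by rw [hdd]; group
      rw [this]
      exact hconj e d hd
  · have h' : (d * e) ^ 3 ∈ Subgroup.zpowers t := by
      rw [← QuotientGroup.eq_one_iff]
      simpa using h
    rcases hzp _ h' with h1 | h1
    · exact Or.inr h1
    · exfalso
      apply hDt d hd
      have : d * t = (e * d) * e * (e * d)⁻¹ := by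
        rw [← h1]
        have : (e * d)⁻¹ = d * e := by
          rw [mul_inv_rev, hdinv, heinv]
        rw [this]
        calc d * (d * e) ^ 3 = (d * d) * e * (d * e) * (d * e) := by
              simp only [pow_succ, pow_zero, one_mul]; group
          _ = e * d * e * (d * e) := by rw [hdd]; group
      rw [this]
      exact hconj (e * d) e he

end Cfsg.Agent.S5364
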