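import Mathlib
import Cfsg.Statements.S5365
import Cfsg.Agent.Lib.PetMain3

set_option autoImplicit false
open Cfsg

namespace Cfsg.Agent.S5365

open Cfsg.Agent.Lib.ThreeTransCore Cfsg.Agent.Lib.PetLine Cfsg.Agent.Lib.PetCtx Cfsg.Agent.Lib.PetMain
  Cfsg.Agent.Lib.PetMain2 Cfsg.Agent.Lib.PetMain3
open Cfsg.Agent.Lib.FischerW (RSet)


/-- Let D be a non-empty conjugation-invariant set of involutions of a finite group G satisfying the 3-transposition order conditions, and suppose that for every d in D the members of D other than d commuting with d generate a subgroup isomorphic to the symmetric group of degree 3, and the largest normal 3-subgroup of the centralizer of d has order 3. Then the subgroup generated by D is isomorphic to the symmetric group of degree 5 or to the direct product of two symmetric groups of degree 3. -/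
theorem result {G : Type*} [Group G] [Finite G] {D : Set G} (hD : Cfsg.IsThreeTranspositionSet D) (hconj : ∀ g : G, ∀ d ∈ D, g * d * g⁻¹ ∈ D) (hne : D.Nonempty) (hloc : ∀ d ∈ D, Nonempty (↥(Subgroup.closure {y : G | y ∈ D ∧ y ≠ d ∧ Commute d y}) ≃* Equiv.Perm (Fin 3)) ∧ Nat.card (Cfsg.pCore 3 ↥(Subgroup.centralizer ({d} : Set G))) = 3) : Nonempty (↥(Subgroup.closure D) ≃* Equiv.Perm (Fin 5)) ∨ Nonempty (↥(Subgroup.closure D) ≃* Equiv.Perm (Fin 3) × Equiv.Perm (Fin 3)) := by
  classical
  have h3 := hD
  have hlocS : ∀ d ∈ D, Nonempty (↥(Subgroup.closure (RSet D d)) ≃* Equiv.Perm (Fin 3)) :=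
    fun d hd => (hloc d hd).1
  have hO3 : ∀ d ∈ D, Nat.card (Cfsg.pCore 3 ↥(Subgroup.centralizer ({d} : Set G))) = 3 :=
    fun d hd => (hloc d hd).2
  have C : Ctx D := ctx_of_loc hD hconj hlocS
  by_cases hI : ∃ e ∈ D, ∀ e' ∈ D, e' ≠ e → RSet D e' ≠ RSet D e
  · obtain ⟨e, he, hI'⟩ := hI
    exact Or.inl (petersen C he hI')
  · right
    push Not at hI
    obtain ⟨a, ha⟩ := hne
    obtain ⟨b, hb, hba, heq⟩ := hI a ha
    have hab : ¬ Commute a b := by
      intro hc
      have h1 : b ∈ RSet D a := ⟨hb, hba, hc⟩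
      rw [← heq] at h1
      exact h1.2.1 rfl
    have hla := isLine_of_not_commute h3 ha hb hab
    obtain ⟨d, d', d'', hld, hs⟩ := C.line a ha
    have hd₁ : d ∈ RSet D a := by rw [hs]; simp
    have hd₂ : d' ∈ RSet D a := by rw [hs]; simp
    have hd₃ : d'' ∈ RSet D a := by rw [hs]; simp
    have hsb : RSet D b = {d, d', d''} := heq.trans hs
    have hcD : a * b * a ∈ D := C.conj' ha hb
    have mc : ∀ r ∈ RSet D a, r ∈ RSet D (a * b * a) := by
      intro r hr
      have hrb : r ∈ RSet D b := by rw [heq]; exact hr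
      refine ⟨hr.1, ?_, ?_⟩
      · rintro rfl
        exact hab (commute_mul_self_conj hla.uu hr.2.2)
      · exact ((hr.2.2.mul_left hrb.2.2).mul_left hr.2.2)
    have hsc : RSet D (a * b * a) = {d, d', d''} :=
      (C.rset_eq_of_two hcD ha (mc d hd₁) (mc d' hd₂) hd₁ hd₂ hld.u_ne_v).trans hs
    have hback : ∀ r ∈ RSet D a, RSet D r = {a, b, a * b * a} := by
      intro r hr
      have hrb : r ∈ RSet D b := by rw [heq]; exact hr
      obtain ⟨w, hl, hsr⟩ := C.line_of_two hr.1 (C.mem_symm ha hr) (C.mem_symm hb hrb) hla.u_ne_v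
      rw [hsr, hl.uvu.symm]
    have hsd := hback d hd₁
    have hsd' := hback d' hd₂
    have hsd'' := hback d'' hd₃
    by_cases hex : ∃ e ∈ D, e ∉ ({a, b, a * b * a, d, d', d''} : Set G)
    · obtain ⟨e, he, hexc⟩ := hex
      exact (no_extra C hO3 hla hld ha hb hcD hd₁.1 hd₂.1 hd₃.1 hs hsb hsc hsd hsd' hsd'' he hexc).elim
    · push Not at hex
      obtain ⟨e₁⟩ := hlocS d hd₁.1
      obtain ⟨e₂⟩ := hlocS a ha
      refine product (S := RSet D d) (T := RSet D a) (fun x hx => hx.1) (fun x hx => hx.1) ?_ ?_ e₁ e₂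
      · intro y hy
        have := hex y hy
        rw [hsd, hs]
        rcases this with rfl | rfl | rfl | rfl | rfl | h
        · left; simp
        · left; simp
        · left; simp
        · right; simp
        · right; simp
        · right
          rw [Set.mem_singleton_iff] at h
          subst h
          simp
      · intro x hx y hy
        rw [hsd] at hx
        rw [hs] at hy
        have hyx : y ∈ RSet D x := by
          rcases hx with rfl | rfl | hx
          · rw [hs]; exact hy
          · rw [hsb]; exact hy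
          · rw [Set.mem_singleton_iff] at hx
            subst hx
            rw [hsc]; exact hy
        exact hyx.2.2

end Cfsg.Agent.S5365
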