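import Mathlib
import Cfsg.Statements.S5366

set_option autoImplicit false
set_option linter.all false

open Cfsg

namespace Cfsg.Agent.S5366

open Cfsg.LineSystem

section basic

variable {X : Type*} {L : Set (Set X)}

theorem line_triple (hL : IsFischerSpace L) {l : Set X} (hl : l ∈ L) {x y : X} (hx : x ∈ l) (hy : y ∈ l)
    (hxy : x ≠ y) : ∃ z, z ≠ x ∧ z ≠ y ∧ l = {x, y, z} := by
  have h3 := hL.2.1 l hl
  have hfin : l.Finite := Set.finite_of_ncard_ne_zero (by omega)
  have hex : ∃ z ∈ l, z ≠ x ∧ z ≠ y := by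
    by_contra hcon
    push Not at hcon
    have hsub : l ⊆ {x, y} := by
      intro z hz
      by_cases hzx : z = x
      · exact Or.inl hzx
      · exact Or.inr (hcon z hz hzx)
    have h1 := Set.ncard_le_ncard hsub (Set.toFinite _)
    rw [Set.ncard_pair hxy] at h1
    omega
  obtain ⟨z, hz, hzx, hzy⟩ := hex
  refine ⟨z, hzx, hzy, ?_⟩
  symm
  apply Set.eq_of_subset_of_ncard_le
  · rintro w (rfl | rfl | rfl)
    · exact hx
    · exact hy
    · exact hz
  · rw [h3]
    have : ({x, y, z} : Set X).ncard = 3 :=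
      Set.ncard_eq_three.2 ⟨x, y, z, hxy, hzx.symm, hzy.symm, rfl⟩
    omega
  · exact hfin

theorem lineMap_of_line (hL : IsFischerSpace L) {x y z : X} (hxy : x ≠ y) (hxz : x ≠ z) (hyz : y ≠ z)
    (h : ({x, y, z} : Set X) ∈ L) : lineMap L x y = z := by
  unfold lineMap
  have hex : ∃ z : X, z ≠ x ∧ z ≠ y ∧ x ≠ y ∧ ({x, y, z} : Set X) ∈ L :=
    ⟨z, hxz.symm, hyz.symm, hxy, h⟩
  rw [dif_pos hex]
  obtain ⟨h1, h2, -, h3⟩ := hex.choose_spec
  have e := hL.1 _ h _ h3 x y hxy (by simp) (by simp) (by simp) (by simp)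
  have h4 : hex.choose ∈ ({x, y, z} : Set X) := by
    rw [e]
    simp
  simp only [Set.mem_insert_iff, Set.mem_singleton_iff] at h4
  tauto

theorem lineMap_of_no_line {x y : X} (h : ¬ ∃ l ∈ L, x ∈ l ∧ y ∈ l ∧ x ≠ y) : lineMap L x y = y := by
  unfold lineMap
  rw [dif_neg]
  rintro ⟨z, -, -, hxy, hl⟩
  exact h ⟨_, hl, by simp, by simp, hxy⟩

theorem lineMap_self (x : X) : lineMap L x x = x :=
  lineMap_of_no_line (fun ⟨_, _, _, _, h⟩ => h rfl)

theorem lineMap_cases (hL : IsFischerSpace L) (x y : X) :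
    ((¬ ∃ l ∈ L, x ∈ l ∧ y ∈ l ∧ x ≠ y) ∧ lineMap L x y = y) ∨
    ∃ z, x ≠ y ∧ x ≠ z ∧ y ≠ z ∧ ({x, y, z} : Set X) ∈ L ∧ lineMap L x y = z := by
  by_cases h : ∃ l ∈ L, x ∈ l ∧ y ∈ l ∧ x ≠ y
  · right
    obtain ⟨l, hl, hx, hy, hxy⟩ := h
    obtain ⟨z, hzx, hzy, rfl⟩ := line_triple hL hl hx hy hxy
    exact ⟨z, hxy, hzx.symm, hzy.symm, hl, lineMap_of_line hL hxy hzx.symm hzy.symm hl⟩
  · left
    exact ⟨h, lineMap_of_no_line h⟩

theorem lineMap_invol (hL : IsFischerSpace L) (x : X) : Function.Involutive (lineMap L x) := by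
  intro y
  rcases lineMap_cases hL x y with ⟨h, e⟩ | ⟨z, h1, h2, h3, h4, e⟩
  · rw [e, e]
  · rw [e]
    apply lineMap_of_line hL h2 h1 h3.symm
    rwa [Set.pair_comm z y]

theorem span_isSubspace (S : Set X) : IsSubspace L (span L S) := by
  intro l hl x hx y hy hxy hxl hyl z hz T hT
  exact hT.2 l hl x (hx T hT) y (hy T hT) hxy hxl hyl hz

theorem subset_span (S : Set X) : S ⊆ span L S := fun _ hx _ hT => hT.1 hx

end basic

/-- model data -/
structure Model {M : Type*} (Lines : Set (Set M)) (τ : M → M → M) : Prop where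
  line : ∀ x y : M, ∀ ℓ ∈ Lines, x ≠ y → x ∈ ℓ → y ∈ ℓ → τ x y ≠ x ∧ τ x y ≠ y ∧ ℓ = {x, y, τ x y}
  fix : ∀ x y : M, (¬ ∃ ℓ ∈ Lines, x ∈ ℓ ∧ y ∈ ℓ ∧ x ≠ y) → τ x y = y
  img : ∀ x : M, ∀ ℓ ∈ Lines, τ x '' ℓ ∈ Lines

section transport

variable {X : Type*} {L : Set (Set X)}

theorem transport (hL : IsFischerSpace L) {P : Set X} (hP : IsSubspace L P) {M : Type*}
    {Lines : Set (Set M)} {τ : M → M → M} (hm : Model Lines τ) (e : P ≃ M)
    (he : IsIso (restrict L P) Lines e) {x : X} (hx : x ∈ P) {l : Set X} (hl : l ∈ L) (hlP : l ⊆ P) :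
    lineMap L x '' l ∈ L := by
  let x' : P := ⟨x, hx⟩
  have hsurj : ∀ ℓ ∈ Lines, ∃ l₀ ∈ L, l₀ ⊆ P ∧ e '' {p : P | (p : X) ∈ l₀} = ℓ := by
    intro ℓ hℓ
    have h1 : e.symm '' ℓ ∈ restrict L P := by
      apply (he _).2
      rwa [Equiv.image_symm_image]
    obtain ⟨l₀, hl₀, hsub, hl₀e⟩ := h1
    refine ⟨l₀, hl₀, hsub, ?_⟩
    rw [← hl₀e, Equiv.image_symm_image]
  have himg : ∀ l₀ ∈ L, l₀ ⊆ P → e '' {p : P | (p : X) ∈ l₀} ∈ Lines := by
    intro l₀ hl₀ hsub
    exact (he _).1 ⟨l₀, hl₀, hsub, rfl⟩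
  have mem : ∀ q : P, lineMap L x q ∈ P := by
    intro q
    rcases lineMap_cases hL x q with ⟨_, eq⟩ | ⟨z, h1, h2, h3, h4, eq⟩
    · rw [eq]
      exact q.2
    · rw [eq]
      exact hP _ h4 x hx q q.2 h1 (by simp) (by simp) (by simp)
  have key : ∀ q r : P, lineMap L x q = r → e r = τ (e x') (e q) := by
    intro q r hqr
    rcases lineMap_cases hL x q with ⟨hno, eq⟩ | ⟨z, h1, h2, h3, h4, eq⟩
    · have hr : r = q := Subtype.ext (hqr.symm.trans eq)
      rw [hr]
      symm
      apply hm.fix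
      rintro ⟨ℓ, hℓ, a1, a2, a3⟩
      obtain ⟨l₀, hl₀, hsub, rfl⟩ := hsurj ℓ hℓ
      apply hno
      obtain ⟨u, hu, hue⟩ := a1
      obtain ⟨v, hv, hve⟩ := a2
      have hu' := e.injective hue
      have hv' := e.injective hve
      subst hu'
      subst hv'
      exact ⟨l₀, hl₀, hu, hv, fun h => a3 (congrArg e (Subtype.ext h))⟩
    · have hsub : ({x, (q : X), z} : Set X) ⊆ P := hP _ h4 x hx q q.2 h1 (by simp) (by simp)
      have hL' := himg _ h4 hsub
      have hx'q : e x' ≠ e q := fun h => h1 (congrArg Subtype.val (e.injective h))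
      obtain ⟨h5, h6, h7⟩ := hm.line (e x') (e q) _ hL' hx'q
        ⟨x', by simp [x'], rfl⟩ ⟨q, by simp, rfl⟩
      have hr : (r : X) = z := hqr.symm.trans eq
      have h8 : e r ∈ e '' {p : P | (p : X) ∈ ({x, (q : X), z} : Set X)} :=
        ⟨r, by simp [hr], rfl⟩
      rw [h7] at h8
      rcases h8 with h8 | h8 | h8
      · exfalso
        apply h2
        rw [← hr]
        exact (congrArg Subtype.val (e.injective h8)).symm
      · exfalso
        apply h3
        rw [← hr]
        exact (congrArg Subtype.val (e.injective h8)).symm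
      · exact h8
  have hL1 := himg l hl hlP
  have hL2 := hm.img (e x') _ hL1
  obtain ⟨l', hl', hl'P, hl'e⟩ := hsurj _ hL2
  convert hl' using 1
  ext w
  constructor
  · rintro ⟨u, hu, rfl⟩
    have h1 := key ⟨u, hlP hu⟩ ⟨lineMap L x u, mem ⟨u, hlP hu⟩⟩ rfl
    have h2 : e ⟨lineMap L x u, mem ⟨u, hlP hu⟩⟩ ∈ e '' {p : P | (p : X) ∈ l'} := by
      rw [hl'e, h1]
      exact ⟨_, ⟨⟨u, hlP hu⟩, hu, rfl⟩, rfl⟩
    obtain ⟨p, hp, hpe⟩ := h2
    have := e.injective hpe
    subst this
    exact hp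
  · intro hw
    have h2 : e ⟨w, hl'P hw⟩ ∈ τ (e x') '' (e '' {p : P | (p : X) ∈ l}) := by
      rw [← hl'e]
      exact ⟨_, hw, rfl⟩
    obtain ⟨_, ⟨q, hq, rfl⟩, hqe⟩ := h2
    have h1 := key q ⟨lineMap L x q, mem q⟩ rfl
    rw [← h1] at hqe
    have := e.injective hqe
    refine ⟨q, hq, ?_⟩
    exact congrArg Subtype.val this

end transport

section affine

abbrev V3 : Type := Fin 2 → ZMod 3

def τa (x y : V3) : V3 := x + x - y

theorem z3cases (i : ZMod 3) : i = 0 ∨ i = 1 ∨ i = 2 := by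
  revert i
  decide

theorem vec_two : ∀ d : V3, d + d = 0 → d = 0 := by decide

theorem z3sq : ∀ t : ZMod 3, t ≠ 0 → t * t = 1 := by decide

theorem aff_line (s t : V3) :
    ({x : V3 | ∃ c : ZMod 3, x = s + c • (t - s)} : Set V3) = {s, t, t + t - s} := by
  ext x
  simp only [Set.mem_setOf_eq, Set.mem_insert_iff, Set.mem_singleton_iff]
  constructor
  · rintro ⟨c, rfl⟩
    rcases z3cases c with rfl | rfl | rfl
    · left
      simp
    · right; left
      simp
    · right; right
      rw [two_smul]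
      abel
  · rintro (rfl | rfl | rfl)
    · exact ⟨0, by simp⟩
    · exact ⟨1, by simp⟩
    · refine ⟨2, ?_⟩
      rw [two_smul]
      abel

theorem aff_line' (v w : V3) {a b : ZMod 3} (hab : a ≠ b) :
    ({z : V3 | ∃ c : ZMod 3, z = v + c • w} : Set V3) =
      {z : V3 | ∃ c : ZMod 3, z = (v + a • w) + c • ((v + b • w) - (v + a • w))} := by
  have ht : b - a ≠ 0 := fun h => hab (sub_eq_zero.1 h).symm
  have htt := z3sq _ ht
  have hd : (v + b • w) - (v + a • w) = (b - a) • w := by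
    rw [sub_smul]
    abel
  ext z
  simp only [Set.mem_setOf_eq]
  rw [hd]
  constructor
  · rintro ⟨c, rfl⟩
    refine ⟨(c - a) * (b - a), ?_⟩
    rw [smul_smul, mul_assoc, htt, mul_one, sub_smul]
    abel
  · rintro ⟨c, rfl⟩
    refine ⟨a + c * (b - a), ?_⟩
    rw [smul_smul, add_smul]
    abel

theorem modelA : Model affinePlaneThree τa := by
  refine ⟨?_, ?_, ?_⟩
  · rintro x y ℓ ⟨v, w, hw, rfl⟩ hxy ⟨a, rfl⟩ ⟨b, rfl⟩
    have hab : a ≠ b := by
      rintro rfl
      exact hxy rfl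
    refine ⟨?_, ?_, ?_⟩
    · intro h
      apply hxy
      have h' : (v + a • w) + (v + a • w) - (v + b • w) = (v + a • w) := h
      have : (v + a • w) - (v + b • w) = 0 := by
        rw [← sub_eq_zero] at h'
        rw [← h']
        abel
      exact sub_eq_zero.1 this
    · intro h
      apply hxy
      have h' : (v + a • w) + (v + a • w) - (v + b • w) = (v + b • w) := h
      have : ((v + a • w) - (v + b • w)) + ((v + a • w) - (v + b • w)) = 0 := by
        rw [← sub_eq_zero] at h'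
        rw [← h']
        abel
      exact sub_eq_zero.1 (vec_two _ this)
    · rw [aff_line' v w hab.symm, aff_line, Set.insert_comm]
      rfl
  · intro x y h
    by_cases hxy : x = y
    · subst hxy
      show x + x - x = x
      abel
    · exfalso
      apply h
      refine ⟨{z : V3 | ∃ c : ZMod 3, z = x + c • (y - x)}, ⟨x, y - x, ?_, rfl⟩, ⟨0, by simp⟩, ⟨1, by simp⟩, hxy⟩
      intro h0
      exact hxy (sub_eq_zero.1 h0).symm
  · rintro x ℓ ⟨v, w, hw, rfl⟩
    refine ⟨x + x - v, -w, neg_ne_zero.2 hw, ?_⟩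
    ext z
    constructor
    · rintro ⟨_, ⟨c, rfl⟩, rfl⟩
      refine ⟨c, ?_⟩
      show x + x - (v + c • w) = _
      rw [smul_neg]
      abel
    · rintro ⟨c, rfl⟩
      refine ⟨v + c • w, ⟨c, rfl⟩, ?_⟩
      show x + x - (v + c • w) = _
      rw [smul_neg]
      abel

end affine

section dual

/-- the transposition of a pair -/
def sg (s : DualAffinePoint) : Equiv.Perm (Fin 4) :=
  if (0 : Fin 4) ∈ s.1 ∧ (1 : Fin 4) ∈ s.1 then Equiv.swap 0 1
  else if (0 : Fin 4) ∈ s.1 ∧ (2 : Fin 4) ∈ s.1 then Equiv.swap 0 2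
  else if (0 : Fin 4) ∈ s.1 ∧ (3 : Fin 4) ∈ s.1 then Equiv.swap 0 3
  else if (1 : Fin 4) ∈ s.1 ∧ (2 : Fin 4) ∈ s.1 then Equiv.swap 1 2
  else if (1 : Fin 4) ∈ s.1 ∧ (3 : Fin 4) ∈ s.1 then Equiv.swap 1 3
  else Equiv.swap 2 3

def τd (x y : DualAffinePoint) : DualAffinePoint :=
  ⟨y.1.map (sg x).toEmbedding, by rw [Finset.card_map]; exact y.2⟩

set_option maxRecDepth 100000 in
theorem d1 : ∀ (x y : DualAffinePoint) (i : Fin 4), x ≠ y → i ∉ x.1 → i ∉ y.1 →
    τd x y ≠ x ∧ τd x y ≠ y ∧ i ∉ (τd x y).1 ∧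
      ∀ z : DualAffinePoint, i ∉ z.1 → z = x ∨ z = y ∨ z = τd x y := by
  decide +kernel

theorem d2 : ∀ x y : DualAffinePoint, (x = y ∨ ¬ ∃ i : Fin 4, i ∉ x.1 ∧ i ∉ y.1) → τd x y = y := by
  decide +kernel

theorem d3 : ∀ (x : DualAffinePoint) (i : Fin 4), ∃ j : Fin 4,
    (∀ s : DualAffinePoint, i ∉ s.1 → j ∉ (τd x s).1) ∧
    ∀ s : DualAffinePoint, j ∉ s.1 → ∃ s' : DualAffinePoint, i ∉ s'.1 ∧ τd x s' = s := by
  decide +kernel

theorem modelD : Model dualAffinePlaneTwo τd := by
  refine ⟨?_, ?_, ?_⟩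
  · rintro x y ℓ ⟨i, rfl⟩ hxy hx hy
    obtain ⟨h1, h2, h3, h4⟩ := d1 x y i hxy hx hy
    refine ⟨h1, h2, ?_⟩
    ext z
    constructor
    · intro hz
      exact h4 z hz
    · rintro (rfl | rfl | rfl)
      · exact hx
      · exact hy
      · exact h3
  · intro x y h
    apply d2
    by_cases hxy : x = y
    · exact Or.inl hxy
    · right
      rintro ⟨i, hi, hi'⟩
      exact h ⟨{s | i ∉ s.val}, ⟨i, rfl⟩, hi, hi', hxy⟩
  · rintro x ℓ ⟨i, rfl⟩
    obtain ⟨j, h1, h2⟩ := d3 x i
    refine ⟨j, ?_⟩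
    ext z
    constructor
    · rintro ⟨s, hs, rfl⟩
      exact h1 s hs
    · intro hz
      obtain ⟨s', hs', e⟩ := h2 z hz
      exact ⟨s', hs', e⟩

end dual

section crux

variable {X : Type*} {L : Set (Set X)}

theorem image_line (hL : IsFischerSpace L) (x : X) {l : Set X} (hl : l ∈ L) : lineMap L x '' l ∈ L := by
  by_cases hx : x ∈ l
  · obtain ⟨y, hy, hyx⟩ : ∃ y ∈ l, y ≠ x := by
      by_contra hcon
      push Not at hcon
      have hsub : l ⊆ {x} := fun z hz => hcon z hz
      have h1 := Set.ncard_le_ncard hsub (Set.toFinite _)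
      rw [Set.ncard_singleton, hL.2.1 l hl] at h1
      omega
    obtain ⟨z, hzx, hzy, rfl⟩ := line_triple hL hl hx hy hyx.symm
    have e1 := lineMap_of_line hL hyx.symm hzx.symm hzy.symm hl
    have e2 : lineMap L x z = y := lineMap_of_line hL hzx.symm hyx.symm hzy (by rwa [Set.pair_comm z y])
    convert hl using 1
    rw [Set.image_insert_eq, Set.image_insert_eq, Set.image_singleton, lineMap_self, e1, e2,
      Set.pair_comm z y]
  by_cases hcol : ∃ y ∈ l, ∃ m ∈ L, x ∈ m ∧ y ∈ m ∧ x ≠ y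
  · obtain ⟨y, hy, m, hm, hxm, hym, hxy⟩ := hcol
    have hne : l ≠ m := by
      rintro rfl
      exact hx hxm
    have h := hL.2.2 l hl m hm hne ⟨y, hy, hym⟩
    have hPs : IsSubspace L (span L (l ∪ m)) := span_isSubspace _
    have hlP : l ⊆ span L (l ∪ m) := fun z hz => subset_span _ (Or.inl hz)
    have hxP : x ∈ span L (l ∪ m) := subset_span _ (Or.inr hxm)
    rcases h with ⟨e, he⟩ | ⟨e, he⟩
    · exact transport hL hPs modelD e he hxP hl hlP
    · exact transport hL hPs modelA e he hxP hl hlP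
  · convert hl using 1
    ext w
    have hfix : ∀ u ∈ l, lineMap L x u = u := by
      intro u hu
      apply lineMap_of_no_line
      rintro ⟨m, hm, h1, h2, h3⟩
      exact hcol ⟨u, hu, m, hm, h1, h2, h3⟩
    constructor
    · rintro ⟨u, hu, rfl⟩
      rw [hfix u hu]
      exact hu
    · intro hw
      exact ⟨w, hw, hfix w hw⟩

theorem conj_lineMap (hL : IsFischerSpace L) (σ : Equiv.Perm X) (hσ : IsIso L L σ) (x y : X) :
    σ (lineMap L x y) = lineMap L (σ x) (σ y) := by
  rcases lineMap_cases hL x y with ⟨hno, e⟩ | ⟨z, h1, h2, h3, h4, e⟩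
  · rw [e]
    symm
    apply lineMap_of_no_line
    rintro ⟨l, hl, a1, a2, a3⟩
    apply hno
    refine ⟨σ.symm '' l, (hσ _).2 (by rwa [Equiv.image_symm_image]), ⟨_, a1, σ.symm_apply_apply x⟩,
      ⟨_, a2, σ.symm_apply_apply y⟩, fun h => a3 (congrArg σ h)⟩
  · rw [e]
    symm
    apply lineMap_of_line hL (fun h => h1 (σ.injective h)) (fun h => h2 (σ.injective h))
      (fun h => h3 (σ.injective h))
    have := (hσ _).1 h4
    rwa [Set.image_insert_eq, Set.image_insert_eq, Set.image_singleton] at this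

end crux

/-- Let L be a nondegenerate Fischer space on the point type X (every point on a line). Then for every point x the map t(x) — sending a point collinear with x to the third point of their common line and fixing every other point — is a permutation of X of order 2 and an automorphism of the line system; and the set of all t(x) satisfies the 3-transposition order conditions in the permutation group of X (any two have product of order at most 3). -/
theorem result {X : Type*} (L : Set (Set X)) (hL : Cfsg.IsFischerSpace L) (hnd : Cfsg.LineSystem.IsNondegenerate L) : (∀ x : X, ∃ σ : Equiv.Perm X, ⇑σ = Cfsg.LineSystem.lineMap L x ∧ orderOf σ = 2 ∧ Cfsg.LineSystem.IsIso L L σ) ∧ Cfsg.IsThreeTranspositionSet {σ : Equiv.Perm X | ∃ x : X, ⇑σ = Cfsg.LineSystem.lineMap L x} := by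
  have hinv := lineMap_invol hL
  let T : X → Equiv.Perm X := fun x => (hinv x).toPerm
  have hT : ∀ x y, T x y = lineMap L x y := fun x y => rfl
  have hsq : ∀ x, T x * T x = 1 := by
    intro x
    ext y
    exact hinv x y
  have hiso : ∀ x, IsIso L L (T x) := by
    intro x l
    constructor
    · exact image_line hL x
    · intro h
      have h2 := image_line hL x h
      have e : lineMap L x '' ((T x) '' l) = l := by
        ext w
        constructor
        · rintro ⟨_, ⟨u, hu, rfl⟩, rfl⟩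
          have : lineMap L x (T x u) = u := hinv x u
          rw [this]
          exact hu
        · intro hw
          exact ⟨T x w, ⟨w, hw, rfl⟩, hinv x w⟩
      rwa [e] at h2
  have hord : ∀ x, orderOf (T x) = 2 := by
    intro x
    apply orderOf_eq_prime
    · rw [sq, hsq]
    · intro h1
      obtain ⟨l, hl, hx⟩ := hnd x
      obtain ⟨y, hy, hyx⟩ : ∃ y ∈ l, y ≠ x := by
        by_contra hcon
        push Not at hcon
        have hsub : l ⊆ {x} := fun z hz => hcon z hz
        have h2 := Set.ncard_le_ncard hsub (Set.toFinite _)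
        rw [Set.ncard_singleton, hL.2.1 l hl] at h2
        omega
      obtain ⟨z, hzx, hzy, rfl⟩ := line_triple hL hl hx hy hyx.symm
      have e1 := lineMap_of_line hL hyx.symm hzx.symm hzy.symm hl
      apply hzy
      rw [← e1, ← hT, h1]
      rfl
  have hconj : ∀ x y, T y * T x * T y = T (T y x) := by
    intro x y
    ext w
    show T y (T x (T y w)) = lineMap L (T y x) w
    have h1 := conj_lineMap hL (T y) (hiso y) x (T y w)
    have h2 : T y (T y w) = w := hinv y w
    rw [h2] at h1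
    exact h1
  refine ⟨fun x => ⟨T x, rfl, hord x, hiso x⟩, ?_, ?_⟩
  · rintro σ ⟨x, hx⟩
    have : σ = T x := Equiv.coe_fn_injective hx
    rw [this]
    exact hord x
  · rintro σ ⟨x, hx⟩ ρ ⟨y, hy⟩
    have h1 : σ = T x := Equiv.coe_fn_injective hx
    have h2 : ρ = T y := Equiv.coe_fn_injective hy
    rw [h1, h2]
    rcases lineMap_cases hL y x with ⟨_, e⟩ | ⟨z, a1, a2, a3, a4, e⟩
    · left
      have h3 := hconj x y
      have h4 : T y x = x := e
      rw [h4] at h3
      calc (T x * T y) ^ 2 = T x * (T y * T x * T y) := by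
            rw [sq]
            group
        _ = 1 := by rw [h3, hsq]
    · right
      have e' : lineMap L x y = z := by
        apply lineMap_of_line hL a1.symm a3 a2
        rwa [Set.insert_comm]
      have h3 := hconj x y
      have h4 := hconj y x
      have e1 : T y x = z := e
      have e2 : T x y = z := e'
      rw [e1] at h3
      rw [e2] at h4
      calc (T x * T y) ^ 3 = (T x * T y * T x) * (T y * T x * T y) := by
            simp only [pow_succ, pow_zero, one_mul, mul_assoc]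
        _ = 1 := by rw [h3, h4, hsq]

end Cfsg.Agent.S5366
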