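import Mathlib
import Cfsg.Statements.S5367
import Cfsg.Agent.Lib.ThreeTransCore

set_option autoImplicit false
set_option linter.all false

open Cfsg

namespace Cfsg.Agent.S5367

section tri

variable {G : Type*} [Group G]

/-- three involutions forming a line -/
structure Tri (x y z : G) : Prop where
  xx : x * x = 1
  yy : y * y = 1
  zz : z * z = 1
  yxy : y * x * y = z
  xyx : x * y * x = z
  zxz : z * x * z = y
  xzx : x * z * x = y
  zyz : z * y * z = x
  yzy : y * z * y = x

theorem Tri.swap12 {x y z : G} (h : Tri x y z) : Tri y x z :=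
  ⟨h.yy, h.xx, h.zz, h.xyx, h.yxy, h.zyz, h.yzy, h.zxz, h.xzx⟩

theorem Tri.swap23 {x y z : G} (h : Tri x y z) : Tri x z y :=
  ⟨h.xx, h.zz, h.yy, h.zxz, h.xzx, h.yxy, h.xyx, h.yzy, h.zyz⟩

theorem tri_of_braid {x y : G} (hx : x * x = 1) (hy : y * y = 1) (hb : x * y * x = y * x * y) :
    Tri x y (y * x * y) := by
  have c1 : ∀ g : G, x * (x * g) = g := fun g => by rw [← mul_assoc, hx, one_mul]
  have c2 : ∀ g : G, y * (y * g) = g := fun g => by rw [← mul_assoc, hy, one_mul]
  have hb' : x * (y * x) = y * (x * y) := by simpa [mul_assoc] using hb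
  have e1 : y * x * y * x = x * y := by
    calc y * x * y * x = (y * x * y) * x := rfl
      _ = (x * y * x) * x := by rw [hb]
      _ = x * y * (x * x) := by group
      _ = x * y := by rw [hx, mul_one]
  have zz : (y * x * y) * (y * x * y) = 1 := by
    calc (y * x * y) * (y * x * y) = y * x * (y * y) * x * y := by group
      _ = y * (x * x) * y := by rw [hy, mul_one]; group
      _ = 1 := by rw [hx, mul_one, hy]
  refine ⟨hx, hy, zz, rfl, hb, ?_, ?_, ?_, ?_⟩
  · calc (y * x * y) * x * (y * x * y) = (y * x * y * x) * (y * x * y) := by group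
      _ = x * y * (y * x * y) := by rw [e1]
      _ = x * (y * y) * (x * y) := by group
      _ = x * (x * y) := by rw [hy, mul_one]
      _ = y := c1 y
  · calc x * (y * x * y) * x = (x * y * x) * (y * x) := by group
      _ = (y * x * y) * (y * x) := by rw [hb]
      _ = y * x * (y * y) * x := by group
      _ = y * (x * x) := by rw [hy, mul_one]; group
      _ = y := by rw [hx, mul_one]
  · calc (y * x * y) * y * (y * x * y) = y * x * (y * y) * (y * x * y) := by group
      _ = y * x * (y * x * y) := by rw [hy, mul_one]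
      _ = (y * x * y * x) * y := by group
      _ = x * y * y := by rw [e1]
      _ = x * (y * y) := by group
      _ = x := by rw [hy, mul_one]
  · calc y * (y * x * y) * y = (y * y) * x * (y * y) := by group
      _ = x := by rw [hy, one_mul, mul_one]

end tri

section lines

variable {G : Type*} [Group G] {D : Set G}

theorem tri_of_mem (hS : Cfsg.IsThreeTranspositionSet D) {x y : G} (hx : x ∈ D) (hy : y ∈ D)
    (hc : ¬ Commute x y) : Tri x y (y * x * y⁻¹) := by
  rw [Cfsg.Agent.Lib.ThreeTransCore.inv_of_mem hS hy]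
  exact tri_of_braid (Cfsg.Agent.Lib.ThreeTransCore.mul_self_of_mem hS hx)
    (Cfsg.Agent.Lib.ThreeTransCore.mul_self_of_mem hS hy)
    (Cfsg.Agent.Lib.ThreeTransCore.braid_of_not_commute hS hx hy hc)

/-- the line through two points -/
def lineSet (x y : D) : Set D :=
  {z : D | (z : G) = x ∨ (z : G) = y ∨ (z : G) = (y : G) * (x : G) * (y : G)⁻¹}

theorem mem_lines {l : Set D} :
    l ∈ Cfsg.threeTranspositionLines D ↔ ∃ x y : D, ¬ Commute (x : G) (y : G) ∧ l = lineSet x y := Iff.rfl

theorem tri_not_commute {x y z : G} (h : Tri x y z) (hne : x ≠ y) : ¬ Commute x y := by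
  intro hc
  apply hne
  have h1 : z = x := by
    rw [← h.yxy, show y * x = x * y from hc.eq.symm, mul_assoc, h.yy, mul_one]
  have h2 : z = y := by
    rw [← h.xyx, hc.eq, mul_assoc, h.xx, mul_one]
  rw [← h1, h2]

theorem lineSet_eq_of_tri {x y z : D} (h : Tri (x : G) (y : G) (z : G))
    (hne : x ≠ y) {a b : D} (hab : a ≠ b)
    (ha : a = x ∨ a = y ∨ a = z) (hb : b = x ∨ b = y ∨ b = z) :
    ¬ Commute (a : G) (b : G) ∧ lineSet a b = {u : D | u = x ∨ u = y ∨ u = z} := by
  have hval : ∀ {u v : D}, u = v ↔ (u : G) = v := fun {u v} => Subtype.ext_iff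
  -- the statement for a triple in a given order
  have key : ∀ {a b c : D}, Tri (a : G) (b : G) (c : G) → a ≠ b →
      (∀ u : D, (u = a ∨ u = b ∨ u = c) ↔ (u = x ∨ u = y ∨ u = z)) →
      ¬ Commute (a : G) (b : G) ∧ lineSet a b = {u : D | u = x ∨ u = y ∨ u = z} := by
    intro a b c ht hne hiff
    have hne' : (a : G) ≠ b := fun h => hne (Subtype.ext h)
    refine ⟨tri_not_commute ht hne', ?_⟩
    ext u
    have hinv : (b : G)⁻¹ = b := inv_eq_of_mul_eq_one_left ht.yy
    show ((u : G) = a ∨ (u : G) = b ∨ (u : G) = (b : G) * a * (b : G)⁻¹) ↔ _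
    rw [hinv, ht.yxy]
    simp only [Set.mem_setOf_eq]
    rw [← hiff u, hval, hval, hval]
  have hx2 := h.swap12
  have h23 := h.swap23
  rcases ha with rfl | rfl | rfl <;> rcases hb with rfl | rfl | rfl
  · exact absurd rfl hab
  · exact key h hab (fun u => by tauto)
  · exact key h.swap23 hab (fun u => by tauto)
  · exact key h.swap12 hab (fun u => by tauto)
  · exact absurd rfl hab
  · exact key h.swap12.swap23 hab (fun u => by tauto)
  · exact key h.swap23.swap12 hab (fun u => by tauto)
  · exact key h.swap12.swap23.swap12 hab (fun u => by tauto)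
  · exact absurd rfl hab

/-- any two distinct points of a line determine it -/
theorem eq_lineSet (hS : Cfsg.IsThreeTranspositionSet D) (hc : ∀ g : G, ∀ d ∈ D, g * d * g⁻¹ ∈ D)
    {x y a b : D} (hxy : ¬ Commute (x : G) (y : G)) (ha : a ∈ lineSet x y) (hb : b ∈ lineSet x y)
    (hab : a ≠ b) : ¬ Commute (a : G) (b : G) ∧ lineSet x y = lineSet a b := by
  have ht := tri_of_mem hS x.2 y.2 hxy
  let z : D := ⟨(y : G) * x * (y : G)⁻¹, hc _ _ x.2⟩
  have hne : x ≠ y := by
    rintro rfl
    exact hxy (Commute.refl _)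
  have hmem : ∀ u : D, u ∈ lineSet x y ↔ (u = x ∨ u = y ∨ u = z) := by
    intro u
    show ((u : G) = x ∨ (u : G) = y ∨ (u : G) = (y : G) * x * (y : G)⁻¹) ↔ _
    rw [Subtype.ext_iff, Subtype.ext_iff, Subtype.ext_iff]
  obtain ⟨h1, h2⟩ := lineSet_eq_of_tri (z := z) ht hne hab ((hmem a).1 ha) ((hmem b).1 hb)
  refine ⟨h1, ?_⟩
  rw [h2]
  ext u
  exact hmem u

theorem left_mem_lineSet (x y : D) : x ∈ lineSet x y := Or.inl rfl
theorem right_mem_lineSet (x y : D) : y ∈ lineSet x y := Or.inr (Or.inl rfl)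

/-- partial linear -/
theorem partialLinear (hS : Cfsg.IsThreeTranspositionSet D) (hc : ∀ g : G, ∀ d ∈ D, g * d * g⁻¹ ∈ D) :
    LineSystem.IsPartialLinear (Cfsg.threeTranspositionLines D) := by
  rintro l ⟨x, y, hxy, rfl⟩ m ⟨x', y', hxy', rfl⟩ a b hab ha hb ha' hb'
  have e1 : lineSet x y = lineSet a b := (eq_lineSet hS hc hxy ha hb hab).2
  have e2 : lineSet x' y' = lineSet a b := (eq_lineSet hS hc hxy' ha' hb' hab).2
  exact e1.trans e2.symm

/-- lines have three points -/
theorem ncard_line (hS : Cfsg.IsThreeTranspositionSet D) (hc : ∀ g : G, ∀ d ∈ D, g * d * g⁻¹ ∈ D) :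
    ∀ l ∈ Cfsg.threeTranspositionLines D, l.ncard = 3 := by
  rintro l ⟨x, y, hxy, rfl⟩
  have ht := tri_of_mem hS x.2 y.2 hxy
  let z : D := ⟨(y : G) * x * (y : G)⁻¹, hc _ _ x.2⟩
  have hne : x ≠ y := by
    rintro rfl
    exact hxy (Commute.refl _)
  have hxz : x ≠ z := by
    intro h
    have h1 : (x : G) = (y : G) * x * (y : G)⁻¹ := congrArg Subtype.val h
    apply hxy
    have : (x : G) * y = y * x := by
      calc (x : G) * y = ((y : G) * x * (y : G)⁻¹) * y := by rw [← h1]
        _ = y * x := by group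
    exact this
  have hyz : y ≠ z := by
    intro h
    have h1 : (y : G) = (y : G) * x * (y : G)⁻¹ := congrArg Subtype.val h
    apply hne
    apply Subtype.ext
    have h2 : (y : G) * y = (y : G) * x := by
      calc (y : G) * y = ((y : G) * x * (y : G)⁻¹) * y := by rw [← h1]
        _ = y * x := by group
    exact (mul_left_cancel h2).symm
  rw [Set.ncard_eq_three]
  refine ⟨x, y, z, hne, hxz, hyz, ?_⟩
  ext u
  show ((u : G) = x ∨ (u : G) = y ∨ (u : G) = (y : G) * x * (y : G)⁻¹) ↔ _
  simp only [Set.mem_insert_iff, Set.mem_singleton_iff]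
  rw [Subtype.ext_iff, Subtype.ext_iff, Subtype.ext_iff]

section plane

variable {M : Type*} (p : M → D)

/-- The generic plane lemma -/
theorem plane_subspace (hS : Cfsg.IsThreeTranspositionSet D) (hc : ∀ g : G, ∀ d ∈ D, g * d * g⁻¹ ∈ D)
    (hinj : Function.Injective p)
    (H1 : ∀ s t : M, s ≠ t → ¬ Commute (p s : G) (p t : G) →
      ∃ u : M, (p t : G) * (p s : G) * (p t : G)⁻¹ = p u) :
    LineSystem.IsSubspace (Cfsg.threeTranspositionLines D) (Set.range p) := by
  rintro l ⟨x, y, hxy, rfl⟩ a ⟨s, rfl⟩ b ⟨t, rfl⟩ hab ha hb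
  obtain ⟨h1, h2⟩ := eq_lineSet hS hc hxy ha hb hab
  show lineSet x y ⊆ _
  rw [h2]
  have hst : s ≠ t := fun h => hab (by rw [h])
  obtain ⟨u, hu⟩ := H1 s t hst h1
  rintro z (hz | hz | hz)
  · exact ⟨s, (Subtype.ext hz).symm⟩
  · exact ⟨t, (Subtype.ext hz).symm⟩
  · exact ⟨u, Subtype.ext (hu.symm.trans hz.symm)⟩

theorem plane_iso (hS : Cfsg.IsThreeTranspositionSet D) (hc : ∀ g : G, ∀ d ∈ D, g * d * g⁻¹ ∈ D)
    (hinj : Function.Injective p) (Lines : Set (Set M))
    (H1 : ∀ s t : M, s ≠ t → ¬ Commute (p s : G) (p t : G) →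
      ∃ u : M, (p t : G) * (p s : G) * (p t : G)⁻¹ = p u ∧ ({s, t, u} : Set M) ∈ Lines)
    (H2 : ∀ ℓ ∈ Lines, ∃ s t u : M, s ≠ t ∧ ¬ Commute (p s : G) (p t : G) ∧
      (p t : G) * (p s : G) * (p t : G)⁻¹ = p u ∧ ℓ = {s, t, u}) :
    LineSystem.Isomorphic (LineSystem.restrict (Cfsg.threeTranspositionLines D) (Set.range p)) Lines := by
  classical
  let e : ↥(Set.range p) ≃ M := (Equiv.ofInjective p hinj).symm
  have he : ∀ x : ↥(Set.range p), ((p (e x) : D)) = x.1 := by
    intro x
    have := (Equiv.ofInjective p hinj).apply_symm_apply x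
    exact congrArg Subtype.val this
  refine ⟨e, ?_⟩
  intro ℓ'
  constructor
  · rintro ⟨l, ⟨x, y, hxy, rfl⟩, hsub, rfl⟩
    obtain ⟨s, hs⟩ := hsub (left_mem_lineSet x y)
    obtain ⟨t, ht⟩ := hsub (right_mem_lineSet x y)
    subst hs
    subst ht
    have hst : s ≠ t := by
      rintro rfl
      exact hxy (Commute.refl _)
    obtain ⟨u, hu, hL⟩ := H1 s t hst hxy
    have hset : e '' {x_1 : ↥(Set.range p) | (x_1 : D) ∈ lineSet (p s) (p t)} = {s, t, u} := by
      ext r
      constructor
      · rintro ⟨w, hw, rfl⟩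
        have h1 := he w
        have hw' : ((w : D) : G) = p s ∨ ((w : D) : G) = p t ∨ ((w : D) : G) = (p t : G) * p s * (p t : G)⁻¹ := hw
        rw [hu, ← h1] at hw'
        rcases hw' with h | h | h
        · exact Or.inl (hinj (Subtype.ext h))
        · exact Or.inr (Or.inl (hinj (Subtype.ext h)))
        · exact Or.inr (Or.inr (hinj (Subtype.ext h)))
      · intro hr
        refine ⟨⟨p r, r, rfl⟩, ?_, ?_⟩
        · show ((p r : D) : G) = p s ∨ ((p r : D) : G) = p t ∨ ((p r : D) : G) = (p t : G) * p s * (p t : G)⁻¹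
          rw [hu]
          rcases hr with rfl | rfl | hr
          · exact Or.inl rfl
          · exact Or.inr (Or.inl rfl)
          · rw [Set.mem_singleton_iff] at hr
            rw [hr]
            exact Or.inr (Or.inr rfl)
        · exact (Equiv.ofInjective p hinj).symm_apply_apply r
    show e '' {x_1 : ↥(Set.range p) | (x_1 : D) ∈ lineSet (p s) (p t)} ∈ Lines
    rw [hset]
    exact hL
  · intro hℓ
    obtain ⟨s, t, u, hst, hnc, hu, hℓe⟩ := H2 _ hℓ
    refine ⟨lineSet (p s) (p t), ⟨p s, p t, hnc, rfl⟩, ?_, ?_⟩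
    · rintro z (hz | hz | hz)
      · exact ⟨s, (Subtype.ext hz).symm⟩
      · exact ⟨t, (Subtype.ext hz).symm⟩
      · exact ⟨u, Subtype.ext (hu.symm.trans hz.symm)⟩
    · ext x
      have hx : x ∈ ℓ' ↔ e x ∈ e '' ℓ' := by
        constructor
        · exact fun h => ⟨x, h, rfl⟩
        · rintro ⟨w, hw, hew⟩
          rw [e.injective hew] at hw
          exact hw
      rw [hx, hℓe]
      show _ ↔ (((x : D) : G) = p s ∨ ((x : D) : G) = p t ∨ ((x : D) : G) = (p t : G) * p s * (p t : G)⁻¹)
      rw [hu, ← he x]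
      simp only [Set.mem_insert_iff, Set.mem_singleton_iff]
      rw [← Subtype.ext_iff, ← Subtype.ext_iff, ← Subtype.ext_iff, hinj.eq_iff, hinj.eq_iff, hinj.eq_iff]

end plane

/-- Transfer to the span. -/
theorem span_eq {X : Type*} (L : Set (Set X)) (A P : Set X) (hA : A ⊆ P) (hP : LineSystem.IsSubspace L P)
    (hmin : ∀ T : Set X, A ⊆ T → LineSystem.IsSubspace L T → P ⊆ T) : LineSystem.span L A = P := by
  apply Set.Subset.antisymm
  · intro x hx
    exact hx P ⟨hA, hP⟩
  · intro x hx T hT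
    exact hmin T hT.1 hT.2 hx

end lines

section dualModel

/-- the transposition of a pair -/
def sig (s : DualAffinePoint) : Equiv.Perm (Fin 4) :=
  if (0 : Fin 4) ∈ s.1 ∧ (1 : Fin 4) ∈ s.1 then Equiv.swap 0 1
  else if (0 : Fin 4) ∈ s.1 ∧ (2 : Fin 4) ∈ s.1 then Equiv.swap 0 2
  else if (0 : Fin 4) ∈ s.1 ∧ (3 : Fin 4) ∈ s.1 then Equiv.swap 0 3
  else if (1 : Fin 4) ∈ s.1 ∧ (2 : Fin 4) ∈ s.1 then Equiv.swap 1 2
  else if (1 : Fin 4) ∈ s.1 ∧ (3 : Fin 4) ∈ s.1 then Equiv.swap 1 3
  else Equiv.swap 2 3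

theorem sig_inj : Function.Injective sig := by decide

theorem sig_conj : ∀ s : DualAffinePoint, ∃ g : Equiv.Perm (Fin 4), sig s = g * Equiv.swap 0 1 * g⁻¹ := by
  decide

theorem sig_H1 : ∀ s t : DualAffinePoint, s ≠ t → sig s * sig t ≠ sig t * sig s →
    ∃ u : DualAffinePoint, sig t * sig s * (sig t)⁻¹ = sig u ∧
      ∃ i : Fin 4, ∀ x : DualAffinePoint, (x = s ∨ x = t ∨ x = u) ↔ i ∉ x.1 := by
  decide

theorem sig_H2 : ∀ i : Fin 4, ∃ s t u : DualAffinePoint, s ≠ t ∧ sig s * sig t ≠ sig t * sig s ∧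
    sig t * sig s * (sig t)⁻¹ = sig u ∧ ∀ x : DualAffinePoint, (x = s ∨ x = t ∨ x = u) ↔ i ∉ x.1 := by
  decide

theorem sig_cases : ∀ s : DualAffinePoint, sig s = Equiv.swap 0 1 ∨ sig s = Equiv.swap 0 2 ∨
    sig s = Equiv.swap 0 3 ∨ sig s = Equiv.swap 1 2 ∨ sig s = Equiv.swap 1 3 ∨ sig s = Equiv.swap 2 3 := by
  decide

theorem sig_surj : ∀ σ : Equiv.Perm (Fin 4), (σ = Equiv.swap 0 1 ∨ σ = Equiv.swap 0 2 ∨
    σ = Equiv.swap 0 3 ∨ σ = Equiv.swap 1 2 ∨ σ = Equiv.swap 1 3 ∨ σ = Equiv.swap 2 3) →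
    ∃ s : DualAffinePoint, sig s = σ := by
  decide

variable {G : Type*} [Group G] {D : Set G}

theorem caseA (hS : Cfsg.IsThreeTranspositionSet D) (hc : ∀ g : G, ∀ d ∈ D, g * d * g⁻¹ ∈ D)
    (a b c : D) (hab : ¬ Commute (a : G) (b : G)) (hac : ¬ Commute (a : G) (c : G))
    (hbc : Commute (b : G) (c : G)) (hne : b ≠ c) :
    LineSystem.Isomorphic (LineSystem.restrict (Cfsg.threeTranspositionLines D)
      (LineSystem.span (Cfsg.threeTranspositionLines D) (lineSet a b ∪ lineSet a c))) dualAffinePlaneTwo := by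
  classical
  obtain ⟨φ, hφ, h01, h12, h23⟩ := Cfsg.Agent.Lib.ThreeTransCore.exists_sym4 hS b.2 a.2 c.2
    (fun h => hne (Subtype.ext h)) hbc (fun h => hab h.symm) hac
  have hmemD : ∀ s : DualAffinePoint, φ (sig s) ∈ D := by
    intro s
    obtain ⟨g, hg⟩ := sig_conj s
    rw [hg, map_mul, map_mul, map_inv, h01]
    exact hc _ _ b.2
  let p : DualAffinePoint → D := fun s => ⟨φ (sig s), hmemD s⟩
  have hpv : ∀ s, ((p s : D) : G) = φ (sig s) := fun s => rfl
  have hinj : Function.Injective p := by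
    intro s t h
    exact sig_inj (hφ (congrArg Subtype.val h))
  have hnc : ∀ s t : DualAffinePoint, ¬ Commute ((p s : D) : G) ((p t : D) : G) → sig s * sig t ≠ sig t * sig s := by
    intro s t h he
    apply h
    show φ (sig s) * φ (sig t) = φ (sig t) * φ (sig s)
    rw [← map_mul, ← map_mul, he]
  have hnc' : ∀ s t : DualAffinePoint, sig s * sig t ≠ sig t * sig s → ¬ Commute ((p s : D) : G) ((p t : D) : G) := by
    intro s t h he
    apply h
    apply hφ
    rw [map_mul, map_mul]
    exact he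
  have H1 : ∀ s t : DualAffinePoint, s ≠ t → ¬ Commute ((p s : D) : G) ((p t : D) : G) →
      ∃ u : DualAffinePoint, ((p t : D) : G) * (p s : D) * ((p t : D) : G)⁻¹ = p u ∧
        ({s, t, u} : Set DualAffinePoint) ∈ dualAffinePlaneTwo := by
    intro s t hst hn
    obtain ⟨u, hu, i, hi⟩ := sig_H1 s t hst (hnc s t hn)
    refine ⟨u, ?_, i, ?_⟩
    · show φ (sig t) * φ (sig s) * (φ (sig t))⁻¹ = φ (sig u)
      rw [← hu, map_mul, map_mul, map_inv]
    · ext x
      simp only [Set.mem_insert_iff, Set.mem_singleton_iff, Set.mem_setOf_eq]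
      exact hi x
  have H2 : ∀ ℓ ∈ dualAffinePlaneTwo, ∃ s t u : DualAffinePoint, s ≠ t ∧ ¬ Commute ((p s : D) : G) ((p t : D) : G) ∧
      ((p t : D) : G) * (p s : D) * ((p t : D) : G)⁻¹ = p u ∧ ℓ = {s, t, u} := by
    rintro ℓ ⟨i, rfl⟩
    obtain ⟨s, t, u, hst, hn, hu, hi⟩ := sig_H2 i
    refine ⟨s, t, u, hst, hnc' s t hn, ?_, ?_⟩
    · show φ (sig t) * φ (sig s) * (φ (sig t))⁻¹ = φ (sig u)
      rw [← hu, map_mul, map_mul, map_inv]
    · ext x
      simp only [Set.mem_insert_iff, Set.mem_singleton_iff, Set.mem_setOf_eq]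
      exact (hi x).symm
  have hsub := plane_subspace p hS hc hinj (fun s t hst hn => (H1 s t hst hn).imp fun u hu => hu.1)
  have hiso := plane_iso p hS hc hinj dualAffinePlaneTwo H1 H2
  -- the six transpositions
  have hperm : ∀ σ : Equiv.Perm (Fin 4), (σ = Equiv.swap 0 1 ∨ σ = Equiv.swap 0 2 ∨
      σ = Equiv.swap 0 3 ∨ σ = Equiv.swap 1 2 ∨ σ = Equiv.swap 1 3 ∨ σ = Equiv.swap 2 3) →
      ∃ s : DualAffinePoint, ((p s : D) : G) = φ σ := by
    intro σ hσ
    obtain ⟨s, hs⟩ := sig_surj σ hσ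
    exact ⟨s, by rw [hpv, hs]⟩
  have e02 : (b : G) * a * (b : G)⁻¹ = φ (Equiv.swap 0 2) := by
    rw [← h01, ← h12, ← map_inv, ← map_mul, ← map_mul]
    congr 1
    decide
  have e13 : (c : G) * a * (c : G)⁻¹ = φ (Equiv.swap 1 3) := by
    rw [← h23, ← h12, ← map_inv, ← map_mul, ← map_mul]
    congr 1
    decide
  have hA : lineSet a b ∪ lineSet a c ⊆ Set.range p := by
    have key : ∀ z : D, ∀ σ : Equiv.Perm (Fin 4), (σ = Equiv.swap 0 1 ∨ σ = Equiv.swap 0 2 ∨
      σ = Equiv.swap 0 3 ∨ σ = Equiv.swap 1 2 ∨ σ = Equiv.swap 1 3 ∨ σ = Equiv.swap 2 3) →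
      (z : G) = φ σ → z ∈ Set.range p := by
      intro z σ hσ hz
      obtain ⟨s, hs⟩ := hperm σ hσ
      exact ⟨s, Subtype.ext (hs.trans hz.symm)⟩
    rintro z ((hz | hz | hz) | (hz | hz | hz))
    · exact key z _ (by simp) (hz.trans h12.symm)
    · exact key z _ (by simp) (hz.trans h01.symm)
    · exact key z _ (by simp) (hz.trans e02)
    · exact key z _ (by simp) (hz.trans h12.symm)
    · exact key z _ (by simp) (hz.trans h23.symm)
    · exact key z _ (by simp) (hz.trans e13)
  have hmin : ∀ T : Set D, lineSet a b ∪ lineSet a c ⊆ T →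
      LineSystem.IsSubspace (Cfsg.threeTranspositionLines D) T → Set.range p ⊆ T := by
    intro T hT hTs
    have ha : a ∈ T := hT (Or.inl (left_mem_lineSet a b))
    have hb : b ∈ T := hT (Or.inl (right_mem_lineSet a b))
    have hc' : c ∈ T := hT (Or.inr (right_mem_lineSet a c))
    have hD02 : φ (Equiv.swap 0 2) ∈ D := by
      rw [← e02]
      exact hc _ _ a.2
    have hD13 : φ (Equiv.swap 1 3) ∈ D := by
      rw [← e13]
      exact hc _ _ a.2
    have hb' : (⟨φ (Equiv.swap 0 2), hD02⟩ : D) ∈ T :=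
      hT (Or.inl (Or.inr (Or.inr e02.symm)))
    have hc'' : (⟨φ (Equiv.swap 1 3), hD13⟩ : D) ∈ T :=
      hT (Or.inr (Or.inr (Or.inr e13.symm)))
    have hnc2 : ¬ Commute (φ (Equiv.swap 0 2)) (c : G) := by
      rw [← h23]
      intro he
      have : Equiv.swap (0 : Fin 4) 2 * Equiv.swap 2 3 = Equiv.swap 2 3 * Equiv.swap 0 2 := by
        apply hφ
        rw [map_mul, map_mul]
        exact he
      exact absurd this (by decide)
    have hD03 : φ (Equiv.swap 0 3) ∈ D := by
      have : φ (Equiv.swap 0 3) = (c : G) * φ (Equiv.swap 0 2) * (c : G)⁻¹ := by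
        rw [← h23, ← map_inv, ← map_mul, ← map_mul]
        congr 1
        decide
      rw [this]
      exact hc _ _ hD02
    have h03 : (⟨φ (Equiv.swap 0 3), hD03⟩ : D) ∈ T := by
      have hne2 : (⟨φ (Equiv.swap 0 2), hD02⟩ : D) ≠ c := by
        intro h
        apply hnc2
        rw [← h]
      have hl := hTs (lineSet ⟨φ (Equiv.swap 0 2), hD02⟩ c) ⟨_, _, hnc2, rfl⟩ _ hb' _ hc' hne2
        (left_mem_lineSet _ _) (right_mem_lineSet _ _)
      apply hl
      refine Or.inr (Or.inr ?_)
      show φ (Equiv.swap 0 3) = (c : G) * φ (Equiv.swap 0 2) * (c : G)⁻¹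
      rw [← h23, ← map_inv, ← map_mul, ← map_mul]
      congr 1
      decide
    rintro _ ⟨s, rfl⟩
    have hval : ∀ z : D, z ∈ T → ((p s : D) : G) = z → p s ∈ T := by
      intro z hz h
      rw [Subtype.ext h]
      exact hz
    rcases sig_cases s with h | h | h | h | h | h
    · exact hval b hb (by rw [hpv, h, h01])
    · exact hval _ hb' (by rw [hpv, h])
    · exact hval _ h03 (by rw [hpv, h])
    · exact hval a ha (by rw [hpv, h, h12])
    · exact hval _ hc'' (by rw [hpv, h])
    · exact hval c hc' (by rw [hpv, h, h23])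
  rw [span_eq _ _ _ hA hsub hmin]
  exact hiso

end dualModel

section affineModel

variable {G : Type*} [Group G]

/-- the table of the nine points -/
def q (A B C : G) (i j : ZMod 3) : G :=
  if i = 0 then (if j = 0 then A else if j = 1 then C else A * C * A)
  else if i = 1 then
    (if j = 0 then B else if j = 1 then A * (B * C * B) * A else A * (B * (A * C * A) * B) * A)
  else (if j = 0 then A * B * A else if j = 1 then B * (A * C * A) * B else B * C * B)

section eval
variable (A B C : G)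
theorem q00 : q A B C 0 0 = A := rfl
theorem q01 : q A B C 0 1 = C := rfl
theorem q02 : q A B C 0 2 = A * C * A := rfl
theorem q10 : q A B C 1 0 = B := rfl
theorem q11 : q A B C 1 1 = A * (B * C * B) * A := rfl
theorem q12 : q A B C 1 2 = A * (B * (A * C * A) * B) * A := rfl
theorem q20 : q A B C 2 0 = A * B * A := rfl
theorem q21 : q A B C 2 1 = B * (A * C * A) * B := rfl
theorem q22 : q A B C 2 2 = B * C * B := rfl
end eval

theorem z3cases (i : ZMod 3) : i = 0 ∨ i = 1 ∨ i = 2 := by
  revert i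
  decide

theorem forall9 {P : ZMod 3 → ZMod 3 → Prop} (h00 : P 0 0) (h01 : P 0 1) (h02 : P 0 2)
    (h10 : P 1 0) (h11 : P 1 1) (h12 : P 1 2) (h20 : P 2 0) (h21 : P 2 1) (h22 : P 2 2) :
    ∀ i j, P i j := by
  intro i j
  rcases z3cases i with rfl | rfl | rfl <;> rcases z3cases j with rfl | rfl | rfl <;> assumption

/-- the relations -/
structure Rel (A B C : G) : Prop where
  aa : A * A = 1
  bb : B * B = 1
  cc : C * C = 1
  ab : A * B * A = B * A * B
  ac : A * C * A = C * A * C
  bc : B * C * B = C * B * C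
  bc' : B * (A * C * A) * B = (A * C * A) * B * (A * C * A)
  b'c : (A * B * A) * C * (A * B * A) = C * (A * B * A) * C

theorem cancel_conj {g x : G} (hg : g * g = 1) : g * (g * x * g) * g = x := by
  calc g * (g * x * g) * g = (g * g) * x * (g * g) := by group
    _ = x := by rw [hg, one_mul, mul_one]

theorem conj_swap {g x y : G} (hg : g * g = 1) (h : g * x * g = y) : g * y * g = x := by
  rw [← h]
  exact cancel_conj hg

variable {A B C : G}

theorem act_a (h : Rel A B C) (i j : ZMod 3) : A * q A B C i j * A = q A B C (-i) (-j) := by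
  have e1 : (-1 : ZMod 3) = 2 := by decide
  have e2 : (-2 : ZMod 3) = 1 := by decide
  have hA : A * A * A = A := by rw [h.aa, one_mul]
  revert i j
  apply forall9
  · simp only [neg_zero, q00]; exact hA
  · simp only [neg_zero, e1, q01, q02]
  · simp only [neg_zero, e2, q01, q02]; exact cancel_conj h.aa
  · simp only [neg_zero, e1, q10, q20]
  · simp only [e1, q11, q22]; exact cancel_conj h.aa
  · simp only [e1, e2, q12, q21]; exact cancel_conj h.aa
  · simp only [neg_zero, e2, q10, q20]; exact cancel_conj h.aa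
  · simp only [e1, e2, q21, q12]
  · simp only [e2, q22, q11]

theorem i1 (h : Rel A B C) : B * (A * (B * C * B) * A) * B = A * (B * (A * C * A) * B) * A := by
  calc B * (A * (B * C * B) * A) * B = (B * A * B) * C * (B * A * B) := by group
    _ = (A * B * A) * C * (A * B * A) := by rw [h.ab]
    _ = A * (B * (A * C * A) * B) * A := by group

theorem i2 (h : Rel A B C) : C * (A * (B * C * B) * A) * C = B * (A * C * A) * B := by
  calc C * (A * (B * C * B) * A) * C = C * (A * (C * B * C) * A) * C := by rw [h.bc]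
    _ = (C * A * C) * B * (C * A * C) := by group
    _ = (A * C * A) * B * (A * C * A) := by rw [h.ac]
    _ = B * (A * C * A) * B := h.bc'.symm

theorem i4 (h : Rel A B C) : C * (A * B * A) * C = A * (B * (A * C * A) * B) * A := by
  calc C * (A * B * A) * C = (A * B * A) * C * (A * B * A) := h.b'c.symm
    _ = A * (B * (A * C * A) * B) * A := by group

theorem act_b (h : Rel A B C) (i j : ZMod 3) : B * q A B C i j * B = q A B C (2 - i) (-j) := by
  have e1 : (-1 : ZMod 3) = 2 := by decide
  have e2 : (-2 : ZMod 3) = 1 := by decide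
  have f0 : (2 - 0 : ZMod 3) = 2 := by decide
  have f1 : (2 - 1 : ZMod 3) = 1 := by decide
  have f2 : (2 - 2 : ZMod 3) = 0 := by decide
  have hB : B * B * B = B := by rw [h.bb, one_mul]
  revert i j
  apply forall9
  · simp only [neg_zero, f0, q00, q20]; exact h.ab.symm
  · simp only [e1, f0, q01, q22]
  · simp only [e2, f0, q02, q21]
  · simp only [neg_zero, f1, q10]; exact hB
  · simp only [e1, f1, q11, q12]; exact i1 h
  · simp only [e2, f1, q12, q11]; exact conj_swap h.bb (i1 h)
  · simp only [neg_zero, f2, q20, q00]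
    rw [h.ab]
    exact cancel_conj h.bb
  · simp only [e1, f2, q21, q02]; exact cancel_conj h.bb
  · simp only [e2, f2, q22, q01]; exact cancel_conj h.bb

theorem act_c (h : Rel A B C) (i j : ZMod 3) : C * q A B C i j * C = q A B C (-i) (2 - j) := by
  have e1 : (-1 : ZMod 3) = 2 := by decide
  have e2 : (-2 : ZMod 3) = 1 := by decide
  have f0 : (2 - 0 : ZMod 3) = 2 := by decide
  have f1 : (2 - 1 : ZMod 3) = 1 := by decide
  have f2 : (2 - 2 : ZMod 3) = 0 := by decide
  have hC : C * C * C = C := by rw [h.cc, one_mul]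
  revert i j
  apply forall9
  · simp only [neg_zero, f0, q00, q02]; exact h.ac.symm
  · simp only [neg_zero, f1, q01]; exact hC
  · simp only [neg_zero, f2, q02, q00]
    rw [h.ac]
    exact cancel_conj h.cc
  · simp only [e1, f0, q10, q22]; exact h.bc.symm
  · simp only [e1, f1, q11, q21]; exact i2 h
  · simp only [e1, f2, q12, q20]; exact conj_swap h.cc (i4 h)
  · simp only [e2, f0, q20, q12]; exact i4 h
  · simp only [e2, f1, q21, q11]; exact conj_swap h.cc (i2 h)
  · simp only [e2, f2, q22, q10]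
    rw [h.bc]
    exact cancel_conj h.cc

/-- points of the affine plane -/
abbrev V3 : Type := Fin 2 → ZMod 3

/-- the map on the plane -/
def pp (A B C : G) (v : V3) : G := q A B C (v 0) (v 1)

/-- the action of an involution as a point reflection -/
def Act (A B C g : G) (w : V3) : Prop := g * g = 1 ∧ ∀ v : V3, g * pp A B C v * g = pp A B C (w + w - v)

theorem Act.conj {g h : G} {w₁ w₂ : V3} (h₁ : Act A B C g w₁) (h₂ : Act A B C h w₂) :
    Act A B C (g * h * g) (w₁ + w₁ - w₂) := by
  refine ⟨?_, ?_⟩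
  · calc g * h * g * (g * h * g) = g * h * (g * g) * h * g := by group
      _ = g * (h * h) * g := by rw [h₁.1, mul_one]; group
      _ = 1 := by rw [h₂.1, mul_one, h₁.1]
  · intro v
    calc g * h * g * pp A B C v * (g * h * g) = g * (h * (g * pp A B C v * g) * h) * g := by group
      _ = g * pp A B C (w₂ + w₂ - (w₁ + w₁ - v)) * g := by rw [h₁.2, h₂.2]
      _ = pp A B C (w₁ + w₁ - (w₂ + w₂ - (w₁ + w₁ - v))) := by rw [h₁.2]
      _ = pp A B C ((w₁ + w₁ - w₂) + (w₁ + w₁ - w₂) - v) := by
        congr 1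
        abel

theorem act_A (h : Rel A B C) : Act A B C A ![0, 0] := by
  refine ⟨h.aa, fun v => ?_⟩
  have e : (![0, 0] + ![0, 0] - v : V3) = -v := by
    ext i
    fin_cases i <;> simp
  rw [e]
  exact act_a h (v 0) (v 1)

theorem act_B (h : Rel A B C) : Act A B C B ![1, 0] := by
  refine ⟨h.bb, fun v => ?_⟩
  have e0 : ((![1, 0] + ![1, 0] - v : V3)) 0 = 2 - v 0 := by
    have : (1 + 1 : ZMod 3) = 2 := by decide
    simp [this]
  have e1 : ((![1, 0] + ![1, 0] - v : V3)) 1 = - v 1 := by
    simp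
  show _ = q A B C _ _
  rw [e0, e1]
  exact act_b h (v 0) (v 1)

theorem act_C (h : Rel A B C) : Act A B C C ![0, 1] := by
  refine ⟨h.cc, fun v => ?_⟩
  have e0 : ((![0, 1] + ![0, 1] - v : V3)) 1 = 2 - v 1 := by
    have : (1 + 1 : ZMod 3) = 2 := by decide
    simp [this]
  have e1 : ((![0, 1] + ![0, 1] - v : V3)) 0 = - v 0 := by
    simp
  show _ = q A B C _ _
  rw [e0, e1]
  exact act_c h (v 0) (v 1)

theorem act_all (h : Rel A B C) (i j : ZMod 3) : Act A B C (q A B C i j) ![i, j] := by
  have a00 := act_A h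
  have a10 := act_B h
  have a01 := act_C h
  have a20 : Act A B C (A * B * A) ![2, 0] := by
    have := a00.conj a10
    have e : (![0, 0] + ![0, 0] - ![1, 0] : V3) = ![2, 0] := by decide
    rwa [e] at this
  have a02 : Act A B C (A * C * A) ![0, 2] := by
    have := a00.conj a01
    have e : (![0, 0] + ![0, 0] - ![0, 1] : V3) = ![0, 2] := by decide
    rwa [e] at this
  have a22 : Act A B C (B * C * B) ![2, 2] := by
    have := a10.conj a01
    have e : (![1, 0] + ![1, 0] - ![0, 1] : V3) = ![2, 2] := by decide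
    rwa [e] at this
  have a11 : Act A B C (A * (B * C * B) * A) ![1, 1] := by
    have := a00.conj a22
    have e : (![0, 0] + ![0, 0] - ![2, 2] : V3) = ![1, 1] := by decide
    rwa [e] at this
  have a21 : Act A B C (B * (A * C * A) * B) ![2, 1] := by
    have := a10.conj a02
    have e : (![1, 0] + ![1, 0] - ![0, 2] : V3) = ![2, 1] := by decide
    rwa [e] at this
  have a12 : Act A B C (A * (B * (A * C * A) * B) * A) ![1, 2] := by
    have := a00.conj a21
    have e : (![0, 0] + ![0, 0] - ![2, 1] : V3) = ![1, 2] := by decide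
    rwa [e] at this
  revert i j
  apply forall9
  · exact a00
  · exact a01
  · exact a02
  · exact a10
  · exact a11
  · exact a12
  · exact a20
  · exact a21
  · exact a22

theorem vec_eta (u : V3) : u = ![u 0, u 1] := by
  ext i
  fin_cases i <;> rfl

theorem pp_rel (h : Rel A B C) (u v : V3) :
    pp A B C u * pp A B C v * pp A B C u = pp A B C (u + u - v) := by
  have := (act_all h (u 0) (u 1)).2 v
  rw [← vec_eta u] at this
  exact this

theorem pp_sq (h : Rel A B C) (u : V3) : pp A B C u * pp A B C u = 1 := by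
  have := (act_all h (u 0) (u 1)).1
  exact this

theorem vec_cases : ∀ e : V3, e ≠ 0 → (e = ![1, 0] ∨ e + e = ![1, 0]) ∨ (e = ![0, 1] ∨ e + e = ![0, 1]) ∨
    (e = ![1, 1] ∨ e + e = ![1, 1]) ∨ (e = ![1, 2] ∨ e + e = ![1, 2]) := by
  decide

theorem vec_two : ∀ d : V3, d + d = 0 → d = 0 := by decide

theorem pp_inj (h : Rel A B C) (hab : A ≠ B) (hac : A ≠ C) (hbc : B ≠ C) (hbc' : B ≠ A * C * A) :
    Function.Injective (pp A B C) := by
  intro u v huv
  by_contra hne
  -- periodicity
  have per : ∀ z : V3, pp A B C z = pp A B C (z + (v + v - u - u)) := by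
    intro z
    have h1 := pp_rel h u (u + u - z)
    have h2 := pp_rel h v (u + u - z)
    rw [huv, h2] at h1
    have e1 : u + u - (u + u - z) = z := by abel
    have e2 : v + v - (u + u - z) = z + (v + v - u - u) := by abel
    rw [e1, e2] at h1
    exact h1.symm
  have hene : v + v - u - u ≠ 0 := by
    intro h0
    apply hne
    have : (v - u) + (v - u) = 0 := by
      rw [← h0]
      abel
    have := vec_two _ this
    exact (sub_eq_zero.1 this).symm
  set e : V3 := v + v - u - u with he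
  have per2 : ∀ z : V3, pp A B C z = pp A B C (z + (e + e)) := by
    intro z
    rw [per z, per (z + e), add_assoc]
  have per' : ∀ f : V3, (f = e ∨ e + e = f) → ∀ z : V3, pp A B C z = pp A B C (z + f) := by
    rintro f (rfl | rfl) z
    · exact per z
    · exact per2 z
  rcases vec_cases e hene with h1 | h1 | h1 | h1
  · have h2 := per' ![1, 0] (by
      rcases h1 with h1 | h1
      · exact Or.inl h1.symm
      · exact Or.inr h1) ![0, 0]
    apply hab
    have e' : (![0, 0] + ![1, 0] : V3) = ![1, 0] := by decide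
    rw [e'] at h2
    exact h2
  · have h2 := per' ![0, 1] (by
      rcases h1 with h1 | h1
      · exact Or.inl h1.symm
      · exact Or.inr h1) ![0, 0]
    apply hac
    have e' : (![0, 0] + ![0, 1] : V3) = ![0, 1] := by decide
    rw [e'] at h2
    exact h2
  · have hf := per' ![1, 1] (by
      rcases h1 with h1 | h1
      · exact Or.inl h1.symm
      · exact Or.inr h1)
    have h2 := hf ![1, 0]
    have h3 := hf ![2, 1]
    apply hbc'
    have e' : (![1, 0] + ![1, 1] : V3) = ![2, 1] := by decide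
    have e'' : (![2, 1] + ![1, 1] : V3) = ![0, 2] := by decide
    rw [e'] at h2
    rw [e''] at h3
    exact h2.trans h3
  · have hf := per' ![1, 2] (by
      rcases h1 with h1 | h1
      · exact Or.inl h1.symm
      · exact Or.inr h1)
    have h2 := hf ![1, 0]
    have h3 := hf ![2, 2]
    apply hbc
    have e' : (![1, 0] + ![1, 2] : V3) = ![2, 2] := by decide
    have e'' : (![2, 2] + ![1, 2] : V3) = ![0, 1] := by decide
    rw [e'] at h2
    rw [e''] at h3
    exact h2.trans h3

theorem pp_noncomm (h : Rel A B C) (hinj : Function.Injective (pp A B C)) {s t : V3} (hst : s ≠ t) :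
    ¬ Commute (pp A B C s) (pp A B C t) := by
  intro hc
  have h1 := pp_rel h t s
  have h2 : pp A B C t * pp A B C s * pp A B C t = pp A B C s := by
    rw [← hc.eq, mul_assoc, pp_sq h, mul_one]
  rw [h2] at h1
  have h3 := hinj h1
  apply hst
  have h4 : (t - s) + (t - s) = 0 := by
    have : t + t - s - s = 0 := by
      rw [sub_eq_zero]
      exact h3.symm
    rw [← this]
    abel
  exact (sub_eq_zero.1 (vec_two _ h4)).symm

end affineModel


section caseBsec

/-- the affine line through two distinct points -/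
theorem aff_line (s t : V3) :
    ({x : V3 | ∃ c : ZMod 3, x = s + c • (t - s)} : Set V3) = {s, t, t + t - s} := by
  ext x
  simp only [Set.mem_setOf_eq, Set.mem_insert_iff, Set.mem_singleton_iff]
  constructor
  · rintro ⟨c, rfl⟩
    rcases z3cases c with rfl | rfl | rfl
    · left
      simp
    · right; left
      simp
    · right; right
      rw [two_smul]
      abel
  · rintro (rfl | rfl | rfl)
    · exact ⟨0, by simp⟩
    · exact ⟨1, by simp⟩
    · refine ⟨2, ?_⟩
      rw [two_smul]
      abel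

variable {G : Type*} [Group G] {D : Set G}

theorem caseB (hS : Cfsg.IsThreeTranspositionSet D) (hc : ∀ g : G, ∀ d ∈ D, g * d * g⁻¹ ∈ D)
    (a b c : D) (hab : ¬ Commute (a : G) (b : G)) (hac : ¬ Commute (a : G) (c : G))
    (hbc : ¬ Commute (b : G) (c : G))
    (hbc' : ¬ Commute (b : G) ((a : G) * c * (a : G)⁻¹))
    (hb'c : ¬ Commute ((a : G) * b * (a : G)⁻¹) (c : G)) :
    LineSystem.Isomorphic (LineSystem.restrict (Cfsg.threeTranspositionLines D)
      (LineSystem.span (Cfsg.threeTranspositionLines D) (lineSet a b ∪ lineSet a c))) affinePlaneThree := by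
  classical
  have inva : (a : G)⁻¹ = a := Cfsg.Agent.Lib.ThreeTransCore.inv_of_mem hS a.2
  have hmem2 : ∀ g ∈ D, ∀ x ∈ D, g * x * g ∈ D := by
    intro g hg x hx
    have := hc g x hx
    rwa [Cfsg.Agent.Lib.ThreeTransCore.inv_of_mem hS hg] at this
  rw [inva] at hbc' hb'c
  have haca : (a : G) * c * a ∈ D := hmem2 _ a.2 _ c.2
  have haba : (a : G) * b * a ∈ D := hmem2 _ a.2 _ b.2
  have hrel : Rel (a : G) (b : G) (c : G) :=
    { aa := Cfsg.Agent.Lib.ThreeTransCore.mul_self_of_mem hS a.2
      bb := Cfsg.Agent.Lib.ThreeTransCore.mul_self_of_mem hS b.2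
      cc := Cfsg.Agent.Lib.ThreeTransCore.mul_self_of_mem hS c.2
      ab := Cfsg.Agent.Lib.ThreeTransCore.braid_of_not_commute hS a.2 b.2 hab
      ac := Cfsg.Agent.Lib.ThreeTransCore.braid_of_not_commute hS a.2 c.2 hac
      bc := Cfsg.Agent.Lib.ThreeTransCore.braid_of_not_commute hS b.2 c.2 hbc
      bc' := Cfsg.Agent.Lib.ThreeTransCore.braid_of_not_commute hS b.2 haca hbc'
      b'c := Cfsg.Agent.Lib.ThreeTransCore.braid_of_not_commute hS haba c.2 hb'c }
  have hq : ∀ i j : ZMod 3, q (a : G) b c i j ∈ D := by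
    apply forall9
    · exact a.2
    · exact c.2
    · exact haca
    · exact b.2
    · exact hmem2 _ a.2 _ (hmem2 _ b.2 _ c.2)
    · exact hmem2 _ a.2 _ (hmem2 _ b.2 _ haca)
    · exact haba
    · exact hmem2 _ b.2 _ haca
    · exact hmem2 _ b.2 _ c.2
  let p : V3 → D := fun v => ⟨pp (a : G) b c v, hq _ _⟩
  have hpv : ∀ v, ((p v : D) : G) = pp (a : G) b c v := fun v => rfl
  have hne1 : (a : G) ≠ b := fun h => hab (by rw [h])
  have hne2 : (a : G) ≠ c := fun h => hac (by rw [h])
  have hne3 : (b : G) ≠ c := fun h => hbc (by rw [h])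
  have hne4 : (b : G) ≠ a * c * a := fun h => hbc' (by rw [← h])
  have hinj' := pp_inj hrel hne1 hne2 hne3 hne4
  have hinj : Function.Injective p := fun s t h => hinj' (congrArg Subtype.val h)
  have hinv : ∀ v, ((p v : D) : G)⁻¹ = p v := fun v =>
    Cfsg.Agent.Lib.ThreeTransCore.inv_of_mem hS (p v).2
  have hthird : ∀ s t : V3, ((p t : D) : G) * (p s : D) * ((p t : D) : G)⁻¹ = p (t + t - s) := by
    intro s t
    rw [hinv, hpv, hpv, hpv, pp_rel hrel]
  have H1 : ∀ s t : V3, s ≠ t → ¬ Commute ((p s : D) : G) ((p t : D) : G) →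
      ∃ u : V3, ((p t : D) : G) * (p s : D) * ((p t : D) : G)⁻¹ = p u ∧
        ({s, t, u} : Set V3) ∈ affinePlaneThree := by
    intro s t hst _
    refine ⟨t + t - s, hthird s t, s, t - s, ?_, (aff_line s t).symm⟩
    intro h
    exact hst (sub_eq_zero.1 h).symm
  have H2 : ∀ ℓ ∈ affinePlaneThree, ∃ s t u : V3, s ≠ t ∧ ¬ Commute ((p s : D) : G) ((p t : D) : G) ∧
      ((p t : D) : G) * (p s : D) * ((p t : D) : G)⁻¹ = p u ∧ ℓ = {s, t, u} := by
    rintro ℓ ⟨v, w, hw, rfl⟩
    have hst : v ≠ v + w := by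
      intro h
      apply hw
      have : v + 0 = v + w := by rw [add_zero]; exact h
      exact (add_left_cancel this).symm
    refine ⟨v, v + w, v + w + (v + w) - v, hst, pp_noncomm hrel hinj' hst, hthird _ _, ?_⟩
    rw [← aff_line]
    simp
  have hsub := plane_subspace p hS hc hinj (fun s t hst hn => (H1 s t hst hn).imp fun u hu => hu.1)
  have hiso := plane_iso p hS hc hinj affinePlaneThree H1 H2
  -- the named points
  have e00 : p ![0, 0] = a := Subtype.ext rfl
  have e10 : p ![1, 0] = b := Subtype.ext rfl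
  have e01 : p ![0, 1] = c := Subtype.ext rfl
  have e20 : ((p ![2, 0] : D) : G) = (b : G) * a * (b : G)⁻¹ := by
    rw [Cfsg.Agent.Lib.ThreeTransCore.inv_of_mem hS b.2]
    exact hrel.ab
  have e02 : ((p ![0, 2] : D) : G) = (c : G) * a * (c : G)⁻¹ := by
    rw [Cfsg.Agent.Lib.ThreeTransCore.inv_of_mem hS c.2]
    exact hrel.ac
  have hA : lineSet a b ∪ lineSet a c ⊆ Set.range p := by
    rintro z ((hz | hz | hz) | (hz | hz | hz))
    · exact ⟨![0, 0], by rw [e00]; exact (Subtype.ext hz).symm⟩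
    · exact ⟨![1, 0], by rw [e10]; exact (Subtype.ext hz).symm⟩
    · exact ⟨![2, 0], Subtype.ext (e20.trans hz.symm)⟩
    · exact ⟨![0, 0], by rw [e00]; exact (Subtype.ext hz).symm⟩
    · exact ⟨![0, 1], by rw [e01]; exact (Subtype.ext hz).symm⟩
    · exact ⟨![0, 2], Subtype.ext (e02.trans hz.symm)⟩
  have hmin : ∀ T : Set D, lineSet a b ∪ lineSet a c ⊆ T →
      LineSystem.IsSubspace (Cfsg.threeTranspositionLines D) T → Set.range p ⊆ T := by
    intro T hT hTs
    have step : ∀ s t : V3, s ≠ t → p s ∈ T → p t ∈ T → p (t + t - s) ∈ T := by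
      intro s t hst hs ht
      have hn : ¬ Commute ((p s : D) : G) ((p t : D) : G) := pp_noncomm hrel hinj' hst
      have hl := hTs (lineSet (p s) (p t)) ⟨_, _, hn, rfl⟩ _ hs _ ht (fun h => hst (hinj h))
        (left_mem_lineSet _ _) (right_mem_lineSet _ _)
      apply hl
      exact Or.inr (Or.inr (hthird s t).symm)
    have t00 : p ![0, 0] ∈ T := by rw [e00]; exact hT (Or.inl (left_mem_lineSet a b))
    have t10 : p ![1, 0] ∈ T := by rw [e10]; exact hT (Or.inl (right_mem_lineSet a b))
    have t01 : p ![0, 1] ∈ T := by rw [e01]; exact hT (Or.inr (right_mem_lineSet a c))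
    have t20 : p ![2, 0] ∈ T := hT (Or.inl (Or.inr (Or.inr e20)))
    have t02 : p ![0, 2] ∈ T := hT (Or.inr (Or.inr (Or.inr e02)))
    have t22 : p ![2, 2] ∈ T := by
      have := step ![1, 0] ![0, 1] (by decide) t10 t01
      have e : (![0, 1] + ![0, 1] - ![1, 0] : V3) = ![2, 2] := by decide
      rwa [e] at this
    have t11 : p ![1, 1] ∈ T := by
      have := step ![2, 0] ![0, 2] (by decide) t20 t02
      have e : (![0, 2] + ![0, 2] - ![2, 0] : V3) = ![1, 1] := by decide
      rwa [e] at this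
    have t21 : p ![2, 1] ∈ T := by
      have := step ![1, 0] ![0, 2] (by decide) t10 t02
      have e : (![0, 2] + ![0, 2] - ![1, 0] : V3) = ![2, 1] := by decide
      rwa [e] at this
    have t12 : p ![1, 2] ∈ T := by
      have := step ![2, 0] ![0, 1] (by decide) t20 t01
      have e : (![0, 1] + ![0, 1] - ![2, 0] : V3) = ![1, 2] := by decide
      rwa [e] at this
    have hall : ∀ i j : ZMod 3, p ![i, j] ∈ T := by
      apply forall9 <;> assumption
    rintro _ ⟨v, rfl⟩
    have := hall (v 0) (v 1)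
    rwa [← vec_eta v] at this
  rw [span_eq _ _ _ hA hsub hmin]
  exact hiso

end caseBsec

section final

variable {G : Type*} [Group G] {D : Set G}

theorem exists_partner (hS : Cfsg.IsThreeTranspositionSet D) (hc : ∀ g : G, ∀ d ∈ D, g * d * g⁻¹ ∈ D)
    {l : Set D} (hl : l ∈ Cfsg.threeTranspositionLines D) {w : D} (hw : w ∈ l) :
    ∃ b : D, ¬ Commute (w : G) (b : G) ∧ l = lineSet w b := by
  obtain ⟨x, y, hxy, rfl⟩ := mem_lines.1 hl
  by_cases h : w = x
  · subst h
    exact ⟨y, hxy, rfl⟩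
  · obtain ⟨h1, h2⟩ := eq_lineSet hS hc hxy hw (left_mem_lineSet x y) h
    exact ⟨x, h1, h2⟩

/-- changing the second point of a line to the third one -/
theorem line_third (hS : Cfsg.IsThreeTranspositionSet D) (hc : ∀ g : G, ∀ d ∈ D, g * d * g⁻¹ ∈ D)
    {a b : D} (hab : ¬ Commute (a : G) (b : G)) :
    ∃ b' : D, (b' : G) = (a : G) * b * (a : G)⁻¹ ∧ ¬ Commute (a : G) (b' : G) ∧ lineSet a b = lineSet a b' := by
  have ht := tri_of_mem hS a.2 b.2 hab
  have hinv := Cfsg.Agent.Lib.ThreeTransCore.inv_of_mem hS a.2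
  have hinvb := Cfsg.Agent.Lib.ThreeTransCore.inv_of_mem hS b.2
  have e : (a : G) * b * (a : G)⁻¹ = (b : G) * a * (b : G)⁻¹ := by
    rw [hinv, hinvb]
    exact Cfsg.Agent.Lib.ThreeTransCore.braid_of_not_commute hS a.2 b.2 hab
  refine ⟨⟨(a : G) * b * (a : G)⁻¹, hc _ _ b.2⟩, rfl, ?_⟩
  have hmem : (⟨(a : G) * b * (a : G)⁻¹, hc _ _ b.2⟩ : D) ∈ lineSet a b := Or.inr (Or.inr e)
  have hne : a ≠ ⟨(a : G) * b * (a : G)⁻¹, hc _ _ b.2⟩ := by
    intro h
    have h1 : (a : G) = (b : G) * a * (b : G)⁻¹ := by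
      rw [← e]
      exact congrArg Subtype.val h
    apply hab
    show (a : G) * b = b * a
    calc (a : G) * b = ((b : G) * a * (b : G)⁻¹) * b := by rw [← h1]
      _ = b * a := by group
  exact eq_lineSet hS hc hab (left_mem_lineSet a b) hmem hne

end final

/-- Let D be a conjugation-invariant generating set of 3-transpositions of a finite group G. Then the line system on D whose lines are the triples {x, y, y x y⁻¹} for non-commuting members x, y of D is a Fischer space: two points lie on at most one line, lines have three points, and two different meeting lines generate a subspace isomorphic to the dual affine plane of order two or to the affine plane of order three. -/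
theorem result {G : Type*} [Group G] [Finite G] {D : Set G} (hD : Cfsg.IsThreeTranspositionGroup D) : Cfsg.IsFischerSpace (Cfsg.threeTranspositionLines D) := by
  have hS := hD.1
  have hc := hD.2.1
  refine ⟨partialLinear hS hc, ncard_line hS hc, ?_⟩
  rintro l hl m hm hlm ⟨w, hwl, hwm⟩
  obtain ⟨b, hb, rfl⟩ := exists_partner hS hc hl hwl
  obtain ⟨c, hc1, rfl⟩ := exists_partner hS hc hm hwm
  have hinvw := Cfsg.Agent.Lib.ThreeTransCore.inv_of_mem hS w.2
  obtain ⟨b', hb'v, hb', eb⟩ := line_third hS hc hb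
  obtain ⟨c', hc'v, hc', ec⟩ := line_third hS hc hc1
  -- distinctness: two different lines through w have no second common point
  have hdist : ∀ {x y : D}, lineSet w x = lineSet w b → lineSet w y = lineSet w c →
      ¬ Commute (w : G) (x : G) → x ≠ y := by
    intro x y h1 h2 h3 hxy
    subst hxy
    exact hlm (h1.symm.trans h2)
  -- the four commuting cases
  by_cases h1 : Commute (b : G) (c : G)
  · left
    exact caseA hS hc w b c hb hc1 h1 (hdist rfl rfl hb)
  by_cases h2 : Commute (b : G) (c' : G)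
  · left
    rw [ec]
    exact caseA hS hc w b c' hb hc' h2 (hdist rfl ec.symm hb)
  by_cases h3 : Commute (b' : G) (c : G)
  · left
    rw [eb]
    exact caseA hS hc w b' c hb' hc1 h3 (hdist eb.symm rfl hb')
  by_cases h4 : Commute (b' : G) (c' : G)
  · left
    rw [eb, ec]
    exact caseA hS hc w b' c' hb' hc' h4 (hdist eb.symm ec.symm hb')
  right
  apply caseB hS hc w b c hb hc1 h1
  · rw [← hc'v]
    exact h2
  · rw [← hb'v]
    exact h3

end Cfsg.Agent.S5367
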