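import Mathlib
import Cfsg.Statements.S5387
import Cfsg.Agent.Lib.L34Group
import Cfsg.Agent.Lib.SLTransfer

set_option autoImplicit false
set_option linter.unusedSectionVars false
set_option linter.unusedVariables false
open scoped MatrixGroups
open Cfsg

namespace Cfsg.Agent.S5387

open Cfsg.Agent.Lib.L34Cert Cfsg.Agent.Lib.L34Group Cfsg.Agent.Lib.F4Mat
open scoped commutatorElement

section fibre

variable {L₁ L₂ S : Type*} [Group L₁] [Group L₂] [Group S] (π₁ : L₁ →* S) (π₂ : L₂ →* S)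

/-- The fibre product. -/
def fib : Subgroup (L₁ × L₂) := MonoidHom.eqLocus (π₁.comp (MonoidHom.fst L₁ L₂)) (π₂.comp (MonoidHom.snd L₁ L₂))

theorem mem_fib {x : L₁ × L₂} : x ∈ fib π₁ π₂ ↔ π₁ x.1 = π₂ x.2 := Iff.rfl

/-- First projection. -/
def p₁ : ↥(fib π₁ π₂) →* L₁ := (MonoidHom.fst L₁ L₂).comp (fib π₁ π₂).subtype

/-- Second projection. -/
def p₂ : ↥(fib π₁ π₂) →* L₂ := (MonoidHom.snd L₁ L₂).comp (fib π₁ π₂).subtype

/-- The map to the base. -/
def Ψ : ↥(fib π₁ π₂) →* S := π₁.comp (p₁ π₁ π₂)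

theorem Ψ_eq (x : ↥(fib π₁ π₂)) : Ψ π₁ π₂ x = π₂ (p₂ π₁ π₂ x) := x.2

variable {π₁ π₂} (hs₁ : Function.Surjective π₁) (hs₂ : Function.Surjective π₂)

include hs₂ in
theorem p₁_surj : Function.Surjective (p₁ π₁ π₂) := by
  intro x
  obtain ⟨y, hy⟩ := hs₂ (π₁ x)
  exact ⟨⟨(x, y), hy.symm⟩, rfl⟩

include hs₁ in
theorem p₂_surj : Function.Surjective (p₂ π₁ π₂) := by
  intro y
  obtain ⟨x, hx⟩ := hs₁ (π₂ y)
  exact ⟨⟨(x, y), hx⟩, rfl⟩

include hs₁ hs₂ in
theorem Ψ_surj : Function.Surjective (Ψ π₁ π₂) := by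
  intro s
  obtain ⟨x, hx⟩ := hs₁ s
  obtain ⟨y, hy⟩ := hs₂ s
  exact ⟨⟨(x, y), hx.trans hy.symm⟩, hx⟩

/-- Surjections carry derived subgroups onto derived subgroups. -/
theorem map_commutator_top {G H : Type*} [Group G] [Group H] (f : G →* H) (hf : Function.Surjective f) :
    (commutator G).map f = commutator H := by
  rw [commutator_def, commutator_def, Subgroup.map_commutator, ← MonoidHom.range_eq_map,
    MonoidHom.range_eq_top.mpr hf]

/-- The derived subgroup of the fibre product. -/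
abbrev Yf (π₁ : L₁ →* S) (π₂ : L₂ →* S) : Subgroup ↥(fib π₁ π₂) := commutator ↥(fib π₁ π₂)

/-- The map from it to the base. -/
def ψf (π₁ : L₁ →* S) (π₂ : L₂ →* S) : ↥(Yf π₁ π₂) →* S := (Ψ π₁ π₂).comp (Yf π₁ π₂).subtype

theorem surj_of_map_top {G H : Type*} [Group G] [Group H] (f : G →* H) (Y : Subgroup G) (h : Y.map f = ⊤) :
    Function.Surjective (f.comp Y.subtype) := by
  intro s
  have hs : s ∈ Y.map f := by rw [h]; trivial
  obtain ⟨y, hy, rfl⟩ := hs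
  exact ⟨⟨y, hy⟩, rfl⟩

variable (hk₁ : π₁.ker ≤ Subgroup.center L₁) (hk₂ : π₂.ker ≤ Subgroup.center L₂)

include hk₁ hk₂ in
theorem ker_central : (Ψ π₁ π₂).ker ≤ Subgroup.center ↥(fib π₁ π₂) := by
  intro z hz
  have h1 : π₁ (z : L₁ × L₂).1 = 1 := hz
  have h2 : π₂ (z : L₁ × L₂).2 = 1 := by
    have := Ψ_eq π₁ π₂ z
    rw [MonoidHom.mem_ker.mp hz] at this
    exact this.symm
  rw [Subgroup.mem_center_iff]
  intro g
  apply Subtype.ext
  apply Prod.ext
  · exact Subgroup.mem_center_iff.mp (hk₁ (MonoidHom.mem_ker.mpr h1)) g.1.1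
  · exact Subgroup.mem_center_iff.mp (hk₂ (MonoidHom.mem_ker.mpr h2)) g.1.2

include hs₁ hs₂ hk₁ hk₂ in
theorem Yf_perfect (hS : commutator S = ⊤) : commutator ↥(Yf π₁ π₂) = ⊤ := by
  set Y := Yf π₁ π₂ with hY
  have hmap : Y.map (Ψ π₁ π₂) = ⊤ := by
    rw [hY, map_commutator_top _ (Ψ_surj hs₁ hs₂), hS]
  have hdec : ∀ u : ↥(fib π₁ π₂), ∃ v ∈ Y, ∃ z ∈ Subgroup.center ↥(fib π₁ π₂), u = v * z := by
    intro u
    have : Ψ π₁ π₂ u ∈ Y.map (Ψ π₁ π₂) := by rw [hmap]; trivial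
    obtain ⟨v, hv, hvu⟩ := this
    refine ⟨v, hv, v⁻¹ * u, ker_central hk₁ hk₂ ?_, by group⟩
    rw [MonoidHom.mem_ker, map_mul, map_inv, hvu, inv_mul_cancel]
  have hle : Y ≤ (commutator ↥Y).map Y.subtype := by
    show commutator ↥(fib π₁ π₂) ≤ _
    rw [commutator_def, Subgroup.commutator_le]
    intro u _ u' _
    obtain ⟨v, hv, z, hz, rfl⟩ := hdec u
    obtain ⟨v', hv', z', hz', rfl⟩ := hdec u'
    rw [commutator_mul_central hz hz']
    refine ⟨⁅(⟨v, hv⟩ : ↥Y), (⟨v', hv'⟩ : ↥Y)⁆, ?_, rfl⟩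
    exact Subgroup.commutator_mem_commutator (Subgroup.mem_top _) (Subgroup.mem_top _)
  rw [eq_top_iff]
  rintro y -
  obtain ⟨y', hy', he⟩ := hle y.2
  have : y' = y := Subtype.ext he
  rw [← this]
  exact hy'

end fibre

section main

variable {L₁ L₂ : Type*} [Group L₁] [Group L₂] [Finite L₁] [Finite L₂]

theorem card_le_of_bound {L : Type*} [Group L] [Finite L] {π : L →* PS} (hs : Function.Surjective π)
    (hk : Nat.card π.ker = 4) : Nat.card L = 4 * Nat.card PS := by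
  have h1 := Subgroup.card_mul_index π.ker
  rw [Subgroup.index_ker, MonoidHom.range_eq_top.mpr hs, hk] at h1
  simpa using h1.symm

theorem covers_iso {π₁ : L₁ →* PS} {π₂ : L₂ →* PS} (hs₁ : Function.Surjective π₁) (hs₂ : Function.Surjective π₂)
    (hk₁ : π₁.ker ≤ Subgroup.center L₁) (hk₂ : π₂.ker ≤ Subgroup.center L₂)
    (he₁ : ∀ z ∈ π₁.ker, z * z = 1) (he₂ : ∀ z ∈ π₂.ker, z * z = 1)
    (hc₁ : Nat.card π₁.ker = 4) (hc₂ : Nat.card π₂.ker = 4)
    (hp₁ : commutator L₁ = ⊤) (hp₂ : commutator L₂ = ⊤) : Nonempty (L₁ ≃* L₂) := by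
  have hS : commutator PS = ⊤ := by
    rw [← map_commutator_top π₁ hs₁, hp₁, ← MonoidHom.range_eq_map, MonoidHom.range_eq_top.mpr hs₁]
  have hψs : Function.Surjective (ψf π₁ π₂) :=
    surj_of_map_top _ _ (by
      rw [map_commutator_top _ (Ψ_surj hs₁ hs₂), hS])
  have hψk : (ψf π₁ π₂).ker ≤ Subgroup.center ↥(Yf π₁ π₂) := by
    intro z hz
    have h1 : (z : ↥(fib π₁ π₂)) ∈ (Ψ π₁ π₂).ker := hz
    have h2 := ker_central hk₁ hk₂ h1
    rw [Subgroup.mem_center_iff] at h2 ⊢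
    intro g
    exact Subtype.ext (h2 g.1)
  have hψe : ∀ z ∈ (ψf π₁ π₂).ker, z * z = 1 := by
    intro z hz
    have h1 : π₁ (z : L₁ × L₂).1 = 1 := hz
    have h2 : π₂ (z : L₁ × L₂).2 = 1 := by
      have := Ψ_eq π₁ π₂ z.1
      have h3 : Ψ π₁ π₂ z.1 = 1 := hz
      rw [h3] at this
      exact this.symm
    apply Subtype.ext
    apply Subtype.ext
    apply Prod.ext
    · exact he₁ _ (MonoidHom.mem_ker.mpr h1)
    · exact he₂ _ (MonoidHom.mem_ker.mpr h2)
  have hb := bound (ψf π₁ π₂) hψs hψk hψe (Yf_perfect hs₁ hs₂ hk₁ hk₂ hS)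
  have hY : Nat.card ↥(Yf π₁ π₂) ≤ 4 * Nat.card PS := by
    have h1 := Subgroup.card_mul_index (ψf π₁ π₂).ker
    rw [Subgroup.index_ker, MonoidHom.range_eq_top.mpr hψs] at h1
    rw [← h1, Subgroup.card_top]
    exact Nat.mul_le_mul_right _ hb
  have hq₁ : Function.Surjective ((p₁ π₁ π₂).comp (Yf π₁ π₂).subtype) :=
    surj_of_map_top _ _ (by
      rw [map_commutator_top _ (p₁_surj hs₂), hp₁])
  have hq₂ : Function.Surjective ((p₂ π₁ π₂).comp (Yf π₁ π₂).subtype) :=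
    surj_of_map_top _ _ (by
      rw [map_commutator_top _ (p₂_surj hs₁), hp₂])
  have hb₁ := hq₁.bijective_of_nat_card_le (by rw [card_le_of_bound hs₁ hc₁]; exact hY)
  have hb₂ := hq₂.bijective_of_nat_card_le (by rw [card_le_of_bound hs₂ hc₂]; exact hY)
  exact ⟨(MulEquiv.ofBijective _ hb₁).symm.trans (MulEquiv.ofBijective _ hb₂)⟩

end main

/-- Up to isomorphism there is at most one quasisimple group whose centre is elementary abelian of order 4 and whose central quotient is isomorphic to the projective special linear group of dimension 3 over the field with four elements: any two such groups are isomorphic. -/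
theorem result {L₁ L₂ : Type*} [Group L₁] [Finite L₁] [Group L₂] [Finite L₂] (F : Type) [Field F] [Fintype F] (hF : Fintype.card F = 4) (h₁ : Cfsg.IsQuasisimple L₁) (h₂ : Cfsg.IsQuasisimple L₂) (hc₁ : Nat.card (Subgroup.center L₁) = 4) (hc₂ : Nat.card (Subgroup.center L₂) = 4) (he₁ : ∀ x ∈ Subgroup.center L₁, x * x = 1) (he₂ : ∀ x ∈ Subgroup.center L₂, x * x = 1) (e₁ : L₁ ⧸ Subgroup.center L₁ ≃* Matrix.ProjectiveSpecialLinearGroup (Fin 3) F) (e₂ : L₂ ⧸ Subgroup.center L₂ ≃* Matrix.ProjectiveSpecialLinearGroup (Fin 3) F) : Nonempty (L₁ ≃* L₂) := by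
  classical
  let φ : F ≃+* K4 := FiniteField.ringEquivOfCardEq (hF.trans K4.card_eq.symm)
  let E : Matrix.ProjectiveSpecialLinearGroup (Fin 3) F ≃* PS := Cfsg.Agent.Lib.SLTransfer.pslEquiv φ
  let π₁ : L₁ →* PS := (E.trans (MulEquiv.refl _)).toMonoidHom.comp (e₁.toMonoidHom.comp (QuotientGroup.mk' (Subgroup.center L₁)))
  let π₂ : L₂ →* PS := (E.trans (MulEquiv.refl _)).toMonoidHom.comp (e₂.toMonoidHom.comp (QuotientGroup.mk' (Subgroup.center L₂)))
  have hs₁ : Function.Surjective π₁ := by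
    intro s
    obtain ⟨x, hx⟩ := QuotientGroup.mk'_surjective (Subgroup.center L₁) (e₁.symm (E.symm s))
    refine ⟨x, ?_⟩
    show E (e₁ (QuotientGroup.mk' _ x)) = s
    rw [hx]
    simp
  have hs₂ : Function.Surjective π₂ := by
    intro s
    obtain ⟨x, hx⟩ := QuotientGroup.mk'_surjective (Subgroup.center L₂) (e₂.symm (E.symm s))
    refine ⟨x, ?_⟩
    show E (e₂ (QuotientGroup.mk' _ x)) = s
    rw [hx]
    simp
  have hker₁ : π₁.ker = Subgroup.center L₁ := by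
    ext x
    rw [MonoidHom.mem_ker]
    show E (e₁ (QuotientGroup.mk' _ x)) = 1 ↔ _
    rw [EmbeddingLike.map_eq_one_iff, EmbeddingLike.map_eq_one_iff]
    exact QuotientGroup.eq_one_iff x
  have hker₂ : π₂.ker = Subgroup.center L₂ := by
    ext x
    rw [MonoidHom.mem_ker]
    show E (e₂ (QuotientGroup.mk' _ x)) = 1 ↔ _
    rw [EmbeddingLike.map_eq_one_iff, EmbeddingLike.map_eq_one_iff]
    exact QuotientGroup.eq_one_iff x
  exact covers_iso hs₁ hs₂ hker₁.le hker₂.le (by rw [hker₁]; exact he₁) (by rw [hker₂]; exact he₂)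
    (by rw [hker₁]; exact hc₁) (by rw [hker₂]; exact hc₂) h₁.1.commutator_eq_top h₂.1.commutator_eq_top

end Cfsg.Agent.S5387
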