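import Cfsg.Statements.S5389
import Cfsg.Agent.Lib.SuzSec20Fin
import Cfsg.Agent.Lib.SuzSec20Scan

set_option autoImplicit false
open Cfsg

namespace Cfsg.Agent.S5389

/-- A simple section of the automorphism group of the Leech lattice satisfying the Suzuki-sporadic-type hypothesis (the group so obtained is the sporadic Suzuki group; that identification is not part of this statement): there is a subgroup A of order 3 of that automorphism group such that the centralizer of A modulo the subgroup generated by A and the centre of the automorphism group is a non-abelian simple group satisfying the large extraspecial hypothesis of minus type in dimension 6 — an involution whose centralizer has extraspecial generalized Fitting subgroup of order 2^7 with quotient the commutator subgroup of the isometry group of the elliptic quadratic form in dimension 6 over the field with two elements, the involution not weakly closed in that extraspecial group. -/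
theorem result : ∃ A : Subgroup ↥Cfsg.Co0, Nat.card A = 3 ∧ ∃ (hn : ((A ⊔ Subgroup.center ↥Cfsg.Co0).subgroupOf (Subgroup.centralizer (A : Set ↥Cfsg.Co0))).Normal), ∃ (S : Type) (_ : Group S) (_ : Finite S), Nonempty (S ≃* ↥(Subgroup.centralizer (A : Set ↥Cfsg.Co0)) ⧸ (A ⊔ Subgroup.center ↥Cfsg.Co0).subgroupOf (Subgroup.centralizer (A : Set ↥Cfsg.Co0))) ∧ IsSimpleGroup S ∧ ¬ IsMulCommutative S ∧ ∃ z : S, orderOf z = 2 ∧ ∃ (Q : Subgroup (Subgroup.centralizer ({z} : Set S))) (_ : Q.Normal), Cfsg.generalizedFittingSubgroup (Subgroup.centralizer ({z} : Set S)) = Q ∧ Cfsg.IsExtraspecial 2 Q ∧ Nat.card Q = 2 ^ 7 ∧ Nonempty ((Subgroup.centralizer ({z} : Set S)) ⧸ Q ≃* Cfsg.Omega (ZMod 2) (Cfsg.quadFormMinus 2 (ZMod 2) 1 1)) ∧ ∃ g : S, (∃ hq : g * z * g⁻¹ ∈ Subgroup.centralizer ({z} : Set S), (⟨g * z * g⁻¹, hq⟩ : Subgroup.centralizer ({z} : Set S)) ∈ Q) ∧ g * z * g⁻¹ ≠ z := by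
  open Cfsg.Agent.Lib.SuzSec20 in
  haveI : Finite ↥Cfsg.Co0 := Cfsg.Agent.Lib.Co0Frame.finite_Co0
  obtain ⟨z, h1, Q, hQ, h2, h3, h4, h5, h6⟩ := Cfsg.Agent.Lib.SuzSec20.sec_main
  exact ⟨Cfsg.Agent.Lib.SuzSec20.AA, Cfsg.Agent.Lib.SuzSec20.card_AA, Cfsg.Agent.Lib.SuzSec20.NN_normal,
    Cfsg.Agent.Lib.SuzSec20.SS, inferInstance, inferInstance, ⟨MulEquiv.refl _⟩,
    Cfsg.Agent.Lib.SuzSec20.SS_simple Cfsg.Agent.Lib.SuzSec20.card_CC_le', Cfsg.Agent.Lib.SuzSec20.SS_noncomm,
    z, h1, Q, hQ, h2, h3, h4, h5, h6⟩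

end Cfsg.Agent.S5389
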