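import Mathlib
import Cfsg.Statements.S5393
import Cfsg.Agent.Lib.GolayMod
import Cfsg.Agent.Lib.DodecadFacts
import Cfsg.Agent.Lib.GolayBits

set_option autoImplicit false
open Cfsg

namespace Cfsg.Agent.S5393

open Cfsg.Agent.Lib.Golay Cfsg.Agent.Lib.M24Facts Cfsg.Agent.Lib.GolayMod
  Cfsg.Agent.Lib.DodecadFacts
open scoped Pointwise

/-- A second dodecad meeting the standard one in eight points. -/
theorem d1_mem : ofMask 28637 ∈ dodecads := ofMask_mem_dodecads (by decide +kernel)

theorem symm_oct : (ofMask 28637 ∩ dod0).card = 8 := by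
  rw [dod0, d0Mask, ← ofMask_land, card_ofMask]
  decide +kernel

theorem ind_add_ind_oct {A B : Finset GolayPt} (hA : A ∈ dodecads) (hB : B ∈ dodecads)
    (h : (A ∩ B).card = 8) : symmDiff A B ∈ octads := by
  have h1 : ind' A + ind' B ∈ golayCode :=
    golayCode.add_mem (ind'_mem_iff.2 hA.1) (ind'_mem_iff.2 hB.1)
  rw [ind'_add] at h1
  refine ⟨ind'_mem_iff.1 h1, ?_⟩
  have h2 := Finset.card_sdiff_add_card_inter A B
  have h3 := Finset.card_sdiff_add_card_inter B A
  rw [Finset.inter_comm] at h3
  rw [hA.2, h] at h2
  rw [hB.2, h] at h3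
  rw [symmDiff_def, Finset.sup_eq_union, Finset.card_union_of_disjoint]
  · show (A \ B).card + (B \ A).card = 8
    omega
  · rw [Finset.disjoint_left]
    intro x hx hx'
    exact (Finset.mem_sdiff.mp hx).2 (Finset.mem_sdiff.mp hx').1

/-- The main step. -/
theorem main (W : Submodule (ZMod 2) (GolayPt → ZMod 2)) (h1 : (fun _ => (1 : ZMod 2)) ∈ W)
    (hle : W ≤ golayCode) (hW : ∀ σ ∈ M24, ∀ w ∈ W, (fun p => w (σ.symm p)) ∈ W) :
    W = Submodule.span (ZMod 2) {fun _ => (1 : ZMod 2)} ∨ W = golayCode := by
  by_cases h : ∃ w ∈ W, w ≠ 0 ∧ w ≠ fun _ => (1 : ZMod 2)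
  · right
    obtain ⟨w, hw, hw0, hw1⟩ := h
    -- an octad in W
    have hact : ∀ g ∈ M24, ∀ S : Finset GolayPt, ind' S ∈ W → ind' (g • S) ∈ W := by
      intro g hg S hS
      rw [← act_ind']
      exact hW g hg _ hS
    have hS0 : support₂ w ∈ supports (golayCode : Set (GolayPt → ZMod 2)) := ⟨w, hle hw, rfl⟩
    have hoct : ∃ O ∈ octads, ind' O ∈ W := by
      have hwind : ind' (support₂ w) = w := ind'_support₂ w
      rcases Cfsg.Agent.Lib.GolayBits.card_of_mem_supports hS0 with h0 | h8 | h12 | h16 | h24
      · exfalso
        apply hw0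
        rw [← hwind, Finset.card_eq_zero.mp h0]
        funext p
        simp [ind']
      · exact ⟨_, ⟨hS0, h8⟩, by rw [hwind]; exact hw⟩
      · -- a dodecad
        have hd : support₂ w ∈ dodecads := ⟨hS0, h12⟩
        obtain ⟨a, ha, had⟩ := exists_smul_dod0 hd
        obtain ⟨b, hb, hbd⟩ := exists_smul_dodecad dod0_mem d1_mem
        set g := a * b * a⁻¹ with hg
        have hgM : g ∈ M24 := M24.mul_mem (M24.mul_mem ha hb) (M24.inv_mem ha)
        have hgS : g • support₂ w = a • ofMask 28637 := by
          rw [← had, hg, mul_smul, mul_smul, inv_smul_smul, hbd]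
        have hmem : ind' (g • support₂ w) ∈ W := hact g hgM _ (by rw [hwind]; exact hw)
        have hsum : ind' (support₂ w) + ind' (g • support₂ w) ∈ W :=
          W.add_mem (by rw [hwind]; exact hw) hmem
        rw [ind'_add] at hsum
        refine ⟨_, ?_, hsum⟩
        apply ind_add_ind_oct hd (smul_mem_dodecads hgM hd)
        rw [hgS, ← had, ← Finset.smul_finset_inter, Finset.card_smul_finset, Finset.inter_comm,
          symm_oct]
      · -- complement of an octad
        refine ⟨(support₂ w)ᶜ, ⟨?_, ?_⟩, ?_⟩
        · have h2 : ind' (support₂ w)ᶜ ∈ golayCode := by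
            rw [ind'_compl, hwind]
            exact golayCode.add_mem (hle hw) (hle h1)
          exact ind'_mem_iff.1 h2
        · rw [Finset.card_compl, h16, Fintype.card_option, ZMod.card]
        · rw [ind'_compl, hwind]
          exact W.add_mem hw h1
      · exfalso
        apply hw1
        have h3 : support₂ w = Finset.univ := by
          apply Finset.eq_univ_of_card
          rw [h24, Fintype.card_option, ZMod.card]
        funext p
        have h4 : p ∈ support₂ w := by rw [h3]; exact Finset.mem_univ _
        have h5 : w p ≠ 0 := by simpa [support₂] using h4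
        have : ∀ x : ZMod 2, x ≠ 0 → x = 1 := by decide
        exact this _ h5
    obtain ⟨O, hO, hOW⟩ := hoct
    -- all octads in W
    have hall : ∀ O' ∈ octads, ind' O' ∈ W := by
      intro O' hO'
      obtain ⟨g, hg, hgO⟩ := exists_smul_octad hO hO'
      rw [← hgO]
      exact hact g hg _ hOW
    apply le_antisymm hle
    have hspan := Cfsg.Agent.Lib.AbstractGolay.span_octads isAbstractGolay card_pt
    rw [← hspan, Submodule.span_le]
    rintro v ⟨hv, hv8⟩
    have := hall _ (mem_octads_of_norm hv hv8)
    rwa [ind'_support₂] at this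
  · left
    push Not at h
    apply le_antisymm
    · intro w hw
      by_cases h0 : w = 0
      · rw [h0]; exact Submodule.zero_mem _
      · rw [h w hw h0]
        exact Submodule.subset_span rfl
    · rw [Submodule.span_le, Set.singleton_subset_iff]
      exact h1

/-- The length-24 code built from the squares modulo 23 contains the all-ones word, and the code modulo the all-ones word is an irreducible module over the field with two elements for the code's automorphism group: a subspace of the code that contains the all-ones word and is invariant under every coordinate permutation preserving the code is either the span of the all-ones word or the whole code. -/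
theorem result : (fun _ : Cfsg.GolayPt => (1 : ZMod 2)) ∈ Cfsg.golayCode ∧ ∀ W : Submodule (ZMod 2) (Cfsg.GolayPt → ZMod 2), (fun _ => (1 : ZMod 2)) ∈ W → W ≤ Cfsg.golayCode → (∀ σ ∈ Cfsg.M24, ∀ w ∈ W, (fun p => w (σ.symm p)) ∈ W) → W = Submodule.span (ZMod 2) {fun _ => (1 : ZMod 2)} ∨ W = Cfsg.golayCode :=
  ⟨one_mem_code, main⟩

end Cfsg.Agent.S5393
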