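import Cfsg.Statements.S5394
import Mathlib
import Cfsg.Agent.Lib.GolayClasses
import Cfsg.Agent.Lib.GolaySubChain

set_option autoImplicit false
open Cfsg

namespace Cfsg.Agent.S5394

open Cfsg.Agent.Lib.Golay Finset
open scoped Pointwise

theorem fix_Y2A : (Finset.univ.filter fun p => decode Y2A p = p) = ofMask 8536111 := by
  have hv := isM24_valid Y2A_isM24
  have key : ∀ i ∈ idxL, (Nat.beq (ap Y2A i) i = true ↔ (8536111 : ℕ).testBit i = true) := by
    decide +kernel
  ext p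
  simp only [Finset.mem_filter, Finset.mem_univ, true_and, mem_ofMask]
  rw [decode_apply hv, ← key (idx p) (mem_idxL.2 (idx_lt p)), Nat.beq_eq]
  constructor
  · intro h
    have := congrArg idx h
    rwa [idx_pt (valid_ap_lt hv (idx_lt p))] at this
  · intro h
    rw [h, pt_idx]

theorem fix_conj (k g : Equiv.Perm GolayPt) :
    (Finset.univ.filter fun p => (k * g * k⁻¹) p = p) = k • (Finset.univ.filter fun p => g p = p) := by
  ext p
  rw [Finset.mem_smul_finset, Finset.mem_filter]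
  constructor
  · rintro ⟨-, h⟩
    refine ⟨k⁻¹ p, Finset.mem_filter.2 ⟨Finset.mem_univ _, ?_⟩, by simp⟩
    rw [Equiv.Perm.eq_inv_iff_eq]
    exact h
  · rintro ⟨q, hq, rfl⟩
    refine ⟨Finset.mem_univ _, ?_⟩
    have hq' := (Finset.mem_filter.1 hq).2
    simp [hq']

theorem Y2A_ne : decode Y2A ≠ 1 := by
  intro h
  have := Y2A_fix
  rw [h] at this
  simp at this

theorem order_two_iff {g : Equiv.Perm GolayPt} (h : orderOf g = 2) : g ^ 2 = 1 ∧ g ≠ 1 := by
  refine ⟨by rw [← h]; exact pow_orderOf_eq_one g, ?_⟩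
  rintro rfl
  simp at h

theorem Y2A_sq : decode Y2A ^ 2 = 1 := by
  have hv := isM24_valid Y2A_isM24
  have h := repBy_decode hv
  have key : ∀ i ∈ idxL, Nat.beq (ap Y2A (ap Y2A i)) i = true := by decide +kernel
  apply Equiv.ext
  intro p
  simp only [pow_two, Equiv.Perm.mul_apply, Equiv.Perm.one_apply]
  apply idx_injective
  rw [h, h]
  have := key (idx p) (mem_idxL.2 (idx_lt p))
  exact Nat.eq_of_beq_eq_true this

theorem Z2B_sq : decode Z2B ^ 2 = 1 := by
  have hv := isM24_valid Z2B_isM24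
  have h := repBy_decode hv
  have key : ∀ i ∈ idxL, Nat.beq (ap Z2B (ap Z2B i)) i = true := by decide +kernel
  apply Equiv.ext
  intro p
  simp only [pow_two, Equiv.Perm.mul_apply, Equiv.Perm.one_apply]
  apply idx_injective
  rw [h, h]
  have := key (idx p) (mem_idxL.2 (idx_lt p))
  exact Nat.eq_of_beq_eq_true this

theorem Z2B_fpf : ∀ p, decode Z2B p ≠ p := by
  intro p hp
  have h := Z2B_fix
  rw [Finset.card_eq_zero, Finset.filter_eq_empty_iff] at h
  exact h (Finset.mem_univ p) hp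

theorem Z2B_ne : decode Z2B ≠ 1 := by
  intro h
  exact Z2B_fpf (pt 0) (by rw [h]; rfl)

/-- fixed points exist ⇒ eight -/
theorem fix_or {g : Equiv.Perm GolayPt} (hg : g ∈ M24) (h2 : g ^ 2 = 1) (h1 : g ≠ 1) :
    (∃ k ∈ M24, g = k * decode Y2A * k⁻¹) ∨ ∀ p, g p ≠ p := by
  rcases order2_fix hg h2 h1 with h | h
  · left
    exact class2A hg h2 h1 (by omega)
  · right
    intro p hp
    rw [Finset.card_eq_zero, Finset.filter_eq_empty_iff] at h
    exact h (Finset.mem_univ p) hp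

theorem conj_trans {g h : Equiv.Perm GolayPt} {y : Equiv.Perm GolayPt} {k l : Equiv.Perm GolayPt}
    (hk : k ∈ M24) (hl : l ∈ M24) (e1 : g = k * y * k⁻¹) (e2 : h = l * y * l⁻¹) :
    ∃ m ∈ M24, m * g * m⁻¹ = h := by
  refine ⟨l * k⁻¹, M24.mul_mem hl (M24.inv_mem hk), ?_⟩
  rw [e1, e2]
  group


/-- The automorphism group of the length-24 code built from the squares modulo 23 has exactly two conjugacy classes of involutions: an involution either fixes exactly the eight points of an octad or has no fixed points, both kinds occur, and any two involutions of the same kind are conjugate in the group. -/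
theorem result : (∀ g ∈ Cfsg.M24, orderOf g = 2 → (Finset.univ.filter fun p => g p = p) ∈ Cfsg.octads ∨ ∀ p, g p ≠ p) ∧ (∃ g ∈ Cfsg.M24, orderOf g = 2 ∧ (Finset.univ.filter fun p => g p = p) ∈ Cfsg.octads) ∧ (∃ g ∈ Cfsg.M24, orderOf g = 2 ∧ ∀ p, g p ≠ p) ∧ ∀ g ∈ Cfsg.M24, ∀ h ∈ Cfsg.M24, orderOf g = 2 → orderOf h = 2 → ((∀ p, g p ≠ p) ↔ (∀ p, h p ≠ p)) → ∃ k ∈ Cfsg.M24, k * g * k⁻¹ = h := by
  have fixOct : (Finset.univ.filter fun p => decode Y2A p = p) ∈ octads := by
    rw [fix_Y2A]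
    exact ofMask_mem_octads (by decide +kernel)
  have orderY : orderOf (decode Y2A) = 2 := orderOf_eq_prime Y2A_sq Y2A_ne
  have orderZ : orderOf (decode Z2B) = 2 := orderOf_eq_prime Z2B_sq Z2B_ne
  refine ⟨?_, ⟨decode Y2A, decode_mem_M24 Y2A_isM24, orderY, fixOct⟩,
    ⟨decode Z2B, decode_mem_M24 Z2B_isM24, orderZ, Z2B_fpf⟩, ?_⟩
  · intro g hg ho
    obtain ⟨h2, h1⟩ := order_two_iff ho
    rcases fix_or hg h2 h1 with ⟨k, hk, e⟩ | h
    · left
      rw [e, fix_conj]
      exact smul_mem_octads hk fixOct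
    · exact Or.inr h
  · intro g hg h hh og oh hiff
    obtain ⟨g2, g1⟩ := order_two_iff og
    obtain ⟨h2, h1⟩ := order_two_iff oh
    by_cases hf : ∀ p, g p ≠ p
    · obtain ⟨k, hk, e1⟩ := class2B hg g2 hf
      obtain ⟨l, hl, e2⟩ := class2B hh h2 (hiff.1 hf)
      exact conj_trans hk hl e1 e2
    · have hf' : ¬ ∀ p, h p ≠ p := fun x => hf (hiff.2 x)
      obtain ⟨k, hk, e1⟩ := (fix_or hg g2 g1).resolve_right hf
      obtain ⟨l, hl, e2⟩ := (fix_or hh h2 h1).resolve_right hf'
      exact conj_trans hk hl e1 e2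

end Cfsg.Agent.S5394
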