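import Mathlib
import Cfsg.Statements.S5395

set_option autoImplicit false
open Cfsg

namespace Cfsg.Agent.S5395

section
variable {E : Type*} [Group E]

/-- An injective homomorphism from a group of order two to the units of the complex numbers. -/
private theorem exists_inj_units {Z : Type*} [Group Z] (hZ : Nat.card Z = 2) :
    ∃ ι : Z →* ℂˣ, Function.Injective ι := by
  classical
  have huniq : ∀ x y : Z, x ≠ 1 → y ≠ 1 → x = y := by
    intro x y hx hy
    by_contra hxy
    have hfin : Finite Z := Nat.finite_of_card_ne_zero (by omega)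
    have h3 : ({1, x, y} : Finset Z).card = 3 := by
      rw [Finset.card_insert_of_notMem, Finset.card_insert_of_notMem, Finset.card_singleton]
      · simpa using hxy
      · simp [Ne.symm hx, Ne.symm hy]
    have := Fintype.ofFinite Z
    have h4 := Finset.card_le_univ ({1, x, y} : Finset Z)
    rw [h3, ← Nat.card_eq_fintype_card, hZ] at h4
    omega
  have hsq : ∀ x : Z, x * x = 1 := by
    intro x
    by_cases hx : x = 1
    · simp [hx]
    · by_contra hxx
      have h1 : x = x * x := huniq x (x * x) hx hxx
      have : x = 1 := by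
        have h2 : x * 1 = x * x := by rw [mul_one]; exact h1
        exact (mul_left_cancel h2).symm
      exact hx this
  let f : Z → ℂˣ := fun z => if z = 1 then 1 else -1
  have hf : ∀ x y : Z, f (x * y) = f x * f y := by
    intro x y
    by_cases hx : x = 1
    · simp [f, hx]
    · by_cases hy : y = 1
      · simp [f, hy]
      · have hxy : x = y := huniq x y hx hy
        have h1 : x * y = 1 := by rw [← hxy]; exact hsq x
        simp [f, h1, hx, hy]
  refine ⟨MonoidHom.mk' f hf, ?_⟩
  intro x y hxy
  have hxy' : f x = f y := hxy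
  by_cases hx : x = 1
  · by_cases hy : y = 1
    · rw [hx, hy]
    · exfalso
      simp only [f, hx, hy, if_true, if_false] at hxy'
      have := congrArg Units.val hxy'
      rw [Units.val_neg, Units.val_one] at this
      norm_num at this
  · by_cases hy : y = 1
    · exfalso
      simp only [f, hx, hy, if_true, if_false] at hxy'
      have := congrArg Units.val hxy'
      rw [Units.val_neg, Units.val_one] at this
      norm_num at this
    · exact huniq x y hx hy

/-- The number of homomorphisms from a finite group to a group of order two is at most the order of the abelianization. -/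
private theorem card_hom_le [Finite E] {Z : Type*} [CommGroup Z] (hZ : Nat.card Z = 2) :
    Nat.card (E →* Z) ≤ Nat.card (Abelianization E) := by
  obtain ⟨ι, hι⟩ := exists_inj_units hZ
  have hcard : Nat.card (Abelianization E →* ℂˣ) = Nat.card (Abelianization E) :=
    CommGroup.card_monoidHom_of_hasEnoughRootsOfUnity (Abelianization E) ℂ
  rw [← hcard]
  have hfin : Finite (Abelianization E →* ℂˣ) := by
    apply Nat.finite_of_card_ne_zero
    rw [hcard]
    exact Nat.card_pos.ne'
  refine Nat.card_le_card_of_injective (fun f => (ι.comp f : E →* ℂˣ) |> Abelianization.lift) ?_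
  intro f g hfg
  ext x
  apply hι
  have := DFunLike.congr_fun hfg (Abelianization.of x)
  simpa using this

end

theorem result {E : Type*} [Group E] [Finite E] (hE : Cfsg.IsExtraspecial 2 E) (φ : E ≃* E) (hφ : ∀ x : E, φ x * x⁻¹ ∈ Subgroup.center E) : ∃ g : E, ∀ x : E, φ x = g * x * g⁻¹ := by
  obtain ⟨⟨-, -, hcomm⟩, hZ⟩ := hE
  letI instZ : CommGroup (Subgroup.center E) :=
    { (inferInstance : Group (Subgroup.center E)) with
      mul_comm := fun a b => by
        ext
        exact (Subgroup.mem_center_iff.mp a.2 (b : E)).symm }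
  -- commutators lie in the centre
  have hcm : ∀ g x : E, g * x * g⁻¹ * x⁻¹ ∈ Subgroup.center E := by
    intro g x
    rw [← hcomm]
    exact Subgroup.commutator_mem_commutator (Subgroup.mem_top g) (Subgroup.mem_top x)
  -- commutator map
  let cf : E → (E →* Subgroup.center E) := fun g => MonoidHom.mk' (fun x => ⟨g * x * g⁻¹ * x⁻¹, hcm g x⟩) (by
    intro x y
    ext
    simp only [Subgroup.coe_mul]
    have h1 := (Subgroup.mem_center_iff.mp (hcm g y)) x
    calc g * (x * y) * g⁻¹ * (x * y)⁻¹ = (g * x * g⁻¹) * (g * y * g⁻¹ * y⁻¹) * x⁻¹ := by group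
      _ = (g * x * g⁻¹) * x⁻¹ * (x * (g * y * g⁻¹ * y⁻¹)) * x⁻¹ := by group
      _ = (g * x * g⁻¹) * x⁻¹ * ((g * y * g⁻¹ * y⁻¹) * x) * x⁻¹ := by rw [h1]
      _ = g * x * g⁻¹ * x⁻¹ * (g * y * g⁻¹ * y⁻¹) := by group)
  have hcf : ∀ g h : E, cf (g * h) = cf g * cf h := by
    intro g h
    ext x
    simp only [cf, MonoidHom.mk'_apply, MonoidHom.mul_apply, Subgroup.coe_mul]
    have hK := Subgroup.mem_center_iff.mp (hcm h x)
    calc g * h * x * (g * h)⁻¹ * x⁻¹ = (g * (h * x * h⁻¹ * x⁻¹)) * x * g⁻¹ * x⁻¹ := by group
      _ = ((h * x * h⁻¹ * x⁻¹) * g) * x * g⁻¹ * x⁻¹ := by rw [hK g]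
      _ = (h * x * h⁻¹ * x⁻¹) * (g * x * g⁻¹ * x⁻¹) := by group
      _ = (g * x * g⁻¹ * x⁻¹) * (h * x * h⁻¹ * x⁻¹) := (hK _).symm
  let c : E →* (E →* Subgroup.center E) := MonoidHom.mk' cf hcf
  have hker : c.ker = Subgroup.center E := by
    ext g
    rw [MonoidHom.mem_ker, Subgroup.mem_center_iff]
    constructor
    · intro h x
      have := DFunLike.congr_fun h x
      have h2 : g * x * g⁻¹ * x⁻¹ = 1 := by
        have h3 := congrArg Subtype.val this
        simpa [c, cf] using h3
      have h4 : g * x * g⁻¹ = x := by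
        rwa [mul_inv_eq_one] at h2
      have h5 : g * x = x * g := by
        rwa [mul_inv_eq_iff_eq_mul] at h4
      exact h5.symm
    · intro h
      ext x
      have h1 := h x
      simp only [c, cf, MonoidHom.mk'_apply, MonoidHom.one_apply, OneMemClass.coe_one]
      rw [← h1]
      group
  -- c is surjective by counting
  have hcard : Nat.card (E →* Subgroup.center E) ≤ Nat.card (E ⧸ c.ker) := by
    have h1 := card_hom_le (E := E) (Z := Subgroup.center E) hZ
    have h2 : Nat.card (Abelianization E) = Nat.card (E ⧸ c.ker) := by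
      rw [hker, ← hcomm]
      rfl
    rw [← h2]
    exact h1
  have hfin : Finite (E →* Subgroup.center E) :=
    Finite.of_injective (fun f => (f : E → Subgroup.center E)) DFunLike.coe_injective
  have hbij := Function.Injective.bijective_of_nat_card_le (QuotientGroup.kerLift_injective c) hcard
  -- the central automorphism gives a homomorphism
  let lam : E →* Subgroup.center E := MonoidHom.mk' (fun x => ⟨φ x * x⁻¹, hφ x⟩) (by
    intro x y
    ext
    simp only [Subgroup.coe_mul, map_mul]
    have h1 := (Subgroup.mem_center_iff.mp (hφ y)) x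
    calc φ x * φ y * (x * y)⁻¹ = φ x * (φ y * y⁻¹) * x⁻¹ := by group
      _ = φ x * x⁻¹ * (x * (φ y * y⁻¹)) * x⁻¹ := by group
      _ = φ x * x⁻¹ * ((φ y * y⁻¹) * x) * x⁻¹ := by rw [h1]
      _ = φ x * x⁻¹ * (φ y * y⁻¹) := by group)
  obtain ⟨q, hq⟩ := hbij.2 lam
  obtain ⟨g, rfl⟩ := QuotientGroup.mk_surjective q
  refine ⟨g, fun x => ?_⟩
  have h1 : c g = lam := hq
  have h2 := congrArg Subtype.val (DFunLike.congr_fun h1 x)
  have h3 : g * x * g⁻¹ * x⁻¹ = φ x * x⁻¹ := h2
  exact (mul_right_cancel h3).symm

end Cfsg.Agent.S5395
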