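import Mathlib
import Cfsg.Statements.S5396
import Cfsg.Agent.Lib.Frat

set_option autoImplicit false
open Cfsg
open scoped commutatorElement

namespace Cfsg.Agent.S5396

/-! ### The group attached to a biadditive form with values in `ZMod 2` -/

structure Form (V : Type) [AddCommGroup V] where
  β : V → V → ZMod 2
  add_l : ∀ u v w, β (u + v) w = β u w + β v w
  add_r : ∀ u v w, β u (v + w) = β u v + β u w

def Ex {V : Type} [AddCommGroup V] (_ : Form V) : Type := V × ZMod 2

section Group

variable {V : Type} [AddCommGroup V] (F : Form V)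

theorem Form.zero_l (w : V) : F.β 0 w = 0 := by
  have := F.add_l 0 0 w
  rw [add_zero] at this
  simpa using this

theorem Form.zero_r (w : V) : F.β w 0 = 0 := by
  have := F.add_r w 0 0
  rw [add_zero] at this
  simpa using this

theorem two_z (a : ZMod 2) : a + a = 0 := by
  revert a; decide

theorem neg_z (a : ZMod 2) : -a = a := by
  revert a; decide

theorem Form.neg_l (v w : V) : F.β (-v) w = F.β v w := by
  have := F.add_l v (-v) w
  rw [add_neg_cancel, F.zero_l] at this
  have h2 := two_z (F.β v w)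
  have h3 : F.β v w + F.β (-v) w = F.β v w + F.β v w := by rw [← this, h2]
  exact add_left_cancel h3

instance : Mul (Ex F) := ⟨fun x y => (x.1 + y.1, x.2 + y.2 + F.β x.1 y.1)⟩
instance : One (Ex F) := ⟨((0 : V), (0 : ZMod 2))⟩
instance : Inv (Ex F) := ⟨fun x => (-x.1, x.2 + F.β x.1 x.1)⟩

variable {F}

@[simp] theorem mul_fst (x y : Ex F) : (x * y).1 = x.1 + y.1 := rfl
@[simp] theorem mul_snd (x y : Ex F) : (x * y).2 = x.2 + y.2 + F.β x.1 y.1 := rfl
@[simp] theorem one_fst : (1 : Ex F).1 = 0 := rfl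
@[simp] theorem one_snd : (1 : Ex F).2 = 0 := rfl
@[simp] theorem inv_fst (x : Ex F) : (x⁻¹).1 = -x.1 := rfl
@[simp] theorem inv_snd (x : Ex F) : (x⁻¹).2 = x.2 + F.β x.1 x.1 := rfl

theorem ex_ext {x y : Ex F} (h1 : x.1 = y.1) (h2 : x.2 = y.2) : x = y := Prod.ext h1 h2

/-- The element with given coordinates. -/
def mkE (F : Form V) (v : V) (a : ZMod 2) : Ex F := (v, a)

@[simp] theorem mkE_fst (v : V) (a : ZMod 2) : (mkE F v a).1 = v := rfl
@[simp] theorem mkE_snd (v : V) (a : ZMod 2) : (mkE F v a).2 = a := rfl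

instance : Group (Ex F) := Group.ofLeftAxioms
  (fun x y z => by
    apply ex_ext
    · simp [add_assoc]
    · simp only [mul_fst, mul_snd, F.add_l, F.add_r]; ring)
  (fun x => by
    apply ex_ext
    · simp
    · simp [F.zero_l])
  (fun x => by
    apply ex_ext
    · simp
    · simp only [mul_snd, inv_fst, inv_snd, F.neg_l, one_snd]
      have h1 := two_z x.2
      have h2 := two_z (F.β x.1 x.1)
      calc x.2 + F.β x.1 x.1 + x.2 + F.β x.1 x.1
          = (x.2 + x.2) + (F.β x.1 x.1 + F.β x.1 x.1) := by ring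
        _ = 0 := by rw [h1, h2, add_zero])

instance [Finite V] : Finite (Ex F) := inferInstanceAs (Finite (V × ZMod 2))

theorem card_ex [Finite V] : Nat.card (Ex F) = Nat.card V * 2 := by
  have : Nat.card (Ex F) = Nat.card (V × ZMod 2) := rfl
  rw [this, Nat.card_prod]
  simp

variable (F)

/-- The polarization. -/
def Form.B (v w : V) : ZMod 2 := F.β v w + F.β w v

theorem Form.B_add_r (u v w : V) : F.B u (v + w) = F.B u v + F.B u w := by
  unfold Form.B; rw [F.add_l, F.add_r]; ring

theorem Form.B_add_l (u v w : V) : F.B (u + v) w = F.B u w + F.B v w := by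
  unfold Form.B; rw [F.add_l, F.add_r]; ring

theorem Form.B_zero_l (w : V) : F.B 0 w = 0 := by
  unfold Form.B; rw [F.zero_l, F.zero_r, add_zero]

theorem Form.B_self (v : V) : F.B v v = 0 := two_z _

theorem Form.B_comm (v w : V) : F.B v w = F.B w v := by
  unfold Form.B; ring

/-- The quadratic form. -/
def Form.Q (v : V) : ZMod 2 := F.β v v

theorem Form.Q_add (v w : V) : F.Q (v + w) = F.Q v + F.Q w + F.B v w := by
  unfold Form.Q Form.B; rw [F.add_l, F.add_r, F.add_r]; ring

variable {F}

theorem comm_eq (x y : Ex F) : x * y = mkE F 0 (F.B x.1 y.1) * (y * x) := by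
  apply ex_ext
  · change x.1 + y.1 = 0 + (y.1 + x.1)
    rw [zero_add, add_comm]
  · change x.2 + y.2 + F.β x.1 y.1 = (F.B x.1 y.1) + (y.2 + x.2 + F.β y.1 x.1) + F.β 0 (y.1 + x.1)
    rw [F.zero_l]
    unfold Form.B
    have := two_z (F.β y.1 x.1)
    calc x.2 + y.2 + F.β x.1 y.1
        = x.2 + y.2 + F.β x.1 y.1 + (F.β y.1 x.1 + F.β y.1 x.1) := by rw [this, add_zero]
      _ = _ := by ring

theorem mem_center_iff (hV : ∀ v : V, v ≠ 0 → ∃ w, F.B v w = 1) (x : Ex F) :
    x ∈ Subgroup.center (Ex F) ↔ x.1 = 0 := by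
  rw [Subgroup.mem_center_iff]
  constructor
  · intro h
    by_contra hx
    obtain ⟨w, hw⟩ := hV x.1 hx
    let y : Ex F := mkE F w 0
    have h1 := comm_eq x y
    rw [← h y] at h1
    have h2 : mkE F 0 (F.B x.1 y.1) = 1 := mul_eq_right.mp h1.symm
    have h3 : F.B x.1 y.1 = 0 := congrArg Prod.snd h2
    have : F.B x.1 w = 0 := h3
    rw [hw] at this
    exact one_ne_zero this
  · intro h y
    have h1 := comm_eq y x
    rw [h] at h1
    have : F.B y.1 0 = 0 := by rw [F.B_comm, F.B_zero_l]
    rw [this] at h1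
    have h2 : mkE F 0 0 = 1 := rfl
    rw [h2, one_mul] at h1
    exact h1

theorem isExtraspecial_ex [Finite V] {m : ℕ} (hcard : Nat.card V = 2 ^ m)
    (hV : ∀ v : V, v ≠ 0 → ∃ w, F.B v w = 1) (hne : ∃ v : V, v ≠ 0) :
    Cfsg.IsExtraspecial 2 (Ex F) := by
  classical
  have hp : IsPGroup 2 (Ex F) := by
    apply IsPGroup.of_card (n := m + 1)
    rw [card_ex, hcard, pow_succ]
  have hcomm : commutator (Ex F) = Subgroup.center (Ex F) := by
    apply le_antisymm
    · rw [commutator_def, Subgroup.commutator_le]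
      intro g₁ _ g₂ _
      rw [mem_center_iff hV]
      simp [commutatorElement_def]
    · intro x hx
      rw [mem_center_iff hV] at hx
      have hx2 : x.2 = 0 ∨ x.2 = 1 := by
        generalize x.2 = a
        revert a; decide
      rcases hx2 with hx2 | hx2
      · have : x = 1 := ex_ext (by simpa using hx) (by simpa using hx2)
        rw [this]; exact one_mem _
      · obtain ⟨v, hv⟩ := hne
        obtain ⟨w, hw⟩ := hV v hv
        let a : Ex F := mkE F v 0
        let b : Ex F := mkE F w 0
        have h1 := comm_eq a b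
        have h2 : x = ⁅a, b⁆ := by
          rw [commutatorElement_def, h1]
          have h3 : mkE F 0 (F.B a.1 b.1) * (b * a) * a⁻¹ * b⁻¹ = mkE F 0 (F.B a.1 b.1) := by
            group
          rw [h3]
          have hw' : F.B a.1 b.1 = 1 := hw
          rw [hw']
          exact ex_ext hx hx2
        rw [h2]
        exact Subgroup.commutator_mem_commutator (Subgroup.mem_top _) (Subgroup.mem_top _)
  have hfrat : frattini (Ex F) = Subgroup.center (Ex F) := by
    apply le_antisymm
    · intro x hx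
      rw [mem_center_iff hV]
      by_contra hx0
      obtain ⟨w, hw⟩ := hV x.1 hx0
      let M : Subgroup (Ex F) :=
        { carrier := {y | F.B y.1 w = 0}
          mul_mem' := by
            intro a b ha hb
            simp only [Set.mem_ofPred_eq, mul_fst, F.B_add_l] at *
            rw [ha, hb, add_zero]
          one_mem' := by
            simp only [Set.mem_ofPred_eq, one_fst]
            exact F.B_zero_l w
          inv_mem' := by
            intro a ha
            simp only [Set.mem_ofPred_eq, inv_fst] at *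
            have : F.B (-a.1) w = F.B a.1 w := by
              unfold Form.B
              rw [F.neg_l]
              have h := F.add_r w a.1 (-a.1)
              rw [add_neg_cancel, F.zero_r] at h
              have h2 := two_z (F.β w a.1)
              have h3 : F.β w a.1 + F.β w (-a.1) = F.β w a.1 + F.β w a.1 := by rw [← h, h2]
              rw [add_left_cancel h3]
            rw [this]; exact ha }
      have hM : M ⊔ frattini (Ex F) = ⊤ := by
        rw [eq_top_iff]
        intro y _
        by_cases hy : y ∈ M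
        · exact Subgroup.mem_sup_left hy
        · have h1 : y * x⁻¹ ∈ M := by
            have hy1 : F.B y.1 w = 1 := by
              have : ¬ F.B y.1 w = 0 := hy
              generalize F.B y.1 w = a at this
              revert a; decide
            change F.B (y * x⁻¹).1 w = 0
            have : F.B (-x.1) w = F.B x.1 w := by
              unfold Form.B
              rw [F.neg_l]
              have h := F.add_r w x.1 (-x.1)
              rw [add_neg_cancel, F.zero_r] at h
              have h2 := two_z (F.β w x.1)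
              have h3 : F.β w x.1 + F.β w (-x.1) = F.β w x.1 + F.β w x.1 := by rw [← h, h2]
              rw [add_left_cancel h3]
            simp only [mul_fst, inv_fst, F.B_add_l]
            rw [this, hy1, hw]; decide
          have h2 : y = (y * x⁻¹) * x := by group
          rw [h2]
          exact Subgroup.mul_mem_sup h1 hx
      have hM2 := frattini_nongenerating hM
      have hxM : x ∈ M := by rw [hM2]; exact Subgroup.mem_top _
      have : F.B x.1 w = 0 := hxM
      rw [hw] at this
      exact one_ne_zero this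
    · rw [← hcomm]
      exact Cfsg.Agent.Lib.Frat.commutator_le_frattini hp
  refine ⟨⟨hp, hfrat, hcomm⟩, ?_⟩
  -- the centre has order two
  have hc : Nat.card (Subgroup.center (Ex F)) = Nat.card (ZMod 2) := by
    apply Nat.card_congr
    refine ⟨fun x => x.1.2, fun a => ⟨mkE F 0 a, (mem_center_iff hV _).mpr rfl⟩, ?_, ?_⟩
    · rintro ⟨x, hx⟩
      apply Subtype.ext
      exact ex_ext ((mem_center_iff hV x).mp hx).symm rfl
    · intro a; rfl
  rw [hc]; simp

/-! ### Counting -/

/-- The sign character of `ZMod 2`. -/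
def chi (a : ZMod 2) : ℤ := if a = 0 then 1 else -1

theorem chi_add (a b : ZMod 2) : chi (a + b) = chi a * chi b := by
  revert a b; decide

theorem chi_zero : chi 0 = 1 := rfl
theorem chi_one : chi 1 = -1 := rfl

theorem chi_B_neg {a : ZMod 2} (h : a = 1) (b : ZMod 2) : chi (b + a) = - chi b := by
  subst h; revert b; decide

variable [Fintype V] [DecidableEq V]

/-- Elements orthogonal to `W`. -/
noncomputable def perp (F : Form V) (W : AddSubgroup V) : Finset V := by
  classical exact Finset.univ.filter (fun v => ∀ w ∈ W, F.B v w = 0)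

theorem mem_perp (W : AddSubgroup V) (v : V) : v ∈ perp F W ↔ ∀ w ∈ W, F.B v w = 0 := by
  classical
  unfold perp
  simp

theorem sum_eq_zero_of_neg {α : Type} [Fintype α] (e : α ≃ α) (f : α → ℤ)
    (h : ∀ a, f (e a) = - f a) : ∑ a, f a = 0 := by
  have h1 : ∑ a, f (e a) = ∑ a, f a := Equiv.sum_comp e f
  simp only [h, Finset.sum_neg_distrib] at h1
  omega

theorem sum_W (W : AddSubgroup V) [Fintype W] (v : V) :
    ∑ w : W, chi (F.B v w) = if v ∈ perp F W then (Nat.card W : ℤ) else 0 := by
  classical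
  split_ifs with h
  · rw [mem_perp] at h
    have : ∀ w : W, chi (F.B v w) = 1 := fun w => by rw [h w w.2]; rfl
    simp [this, Nat.card_eq_fintype_card]
  · rw [mem_perp] at h
    push Not at h
    obtain ⟨w0, hw0, h0⟩ := h
    have h1 : F.B v w0 = 1 := by
      generalize F.B v w0 = a at h0
      revert a; decide
    apply sum_eq_zero_of_neg (Equiv.addRight (⟨w0, hw0⟩ : W))
    intro w
    simp only [Equiv.coe_addRight, AddSubgroup.coe_add]
    rw [F.B_add_r, h1, chi_add, chi_one, mul_neg, mul_one]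

theorem sum_V (hV : ∀ v : V, v ≠ 0 → ∃ w, F.B v w = 1) (w : V) :
    ∑ v : V, chi (F.B v w) = if w = 0 then (Fintype.card V : ℤ) else 0 := by
  classical
  split_ifs with h
  · subst h
    have : ∀ v : V, chi (F.B v 0) = 1 := fun v => by rw [F.B_comm, F.B_zero_l]; rfl
    simp [this]
  · obtain ⟨v0, hv0⟩ := hV w h
    rw [F.B_comm] at hv0
    apply sum_eq_zero_of_neg (Equiv.addRight v0)
    intro v
    simp only [Equiv.coe_addRight]
    rw [F.B_add_l, hv0, chi_add, chi_one, mul_neg, mul_one]

/-- `|W| |W^⊥| = |V|`. -/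
theorem card_mul_perp (hV : ∀ v : V, v ≠ 0 → ∃ w, F.B v w = 1) (W : AddSubgroup V) [Fintype W] :
    Nat.card W * (perp F W).card = Fintype.card V := by
  classical
  have h1 : ∑ v : V, ∑ w : W, chi (F.B v w) = ∑ w : W, ∑ v : V, chi (F.B v w) :=
    Finset.sum_comm
  have h2 : ∑ v : V, ∑ w : W, chi (F.B v w) = (Nat.card W * (perp F W).card : ℕ) := by
    simp only [sum_W]
    rw [Finset.sum_ite_mem]
    simp [Finset.inter_eq_right.mpr (Finset.subset_univ _), mul_comm]
  have h3 : ∑ w : W, ∑ v : V, chi (F.B v w) = (Fintype.card V : ℤ) := by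
    simp only [sum_V hV]
    rw [Finset.sum_eq_single (0 : W)]
    · simp
    · intro b _ hb
      have : (b : V) ≠ 0 := fun h => hb (Subtype.ext h)
      simp [this]
    · simp
  rw [h2, h3] at h1
  exact_mod_cast h1

/-- A totally isotropic subgroup has order at most the square root of `|V|`. -/
theorem card_sq_le (hV : ∀ v : V, v ≠ 0 → ∃ w, F.B v w = 1) (W : AddSubgroup V) [Fintype W]
    (hW : ∀ v ∈ W, ∀ w ∈ W, F.B v w = 0) :
    Nat.card W * Nat.card W ≤ Fintype.card V := by
  classical
  rw [← card_mul_perp hV W]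
  apply Nat.mul_le_mul_left
  rw [Nat.card_eq_fintype_card, ← Finset.card_univ,
    ← Finset.card_map (Function.Embedding.subtype (· ∈ W))]
  apply Finset.card_le_card
  intro v hv
  rw [mem_perp]
  have : v ∈ W := by
    obtain ⟨u, -, rfl⟩ := Finset.mem_map.mp hv
    exact u.2
  exact hW v this

/-- If `Q` vanishes on `W` and `|W|² = |V|` then the Gauss sum of `Q` is `|W|`. -/
theorem gauss_eq (hV : ∀ v : V, v ≠ 0 → ∃ w, F.B v w = 1) (W : AddSubgroup V) [Fintype W]
    (hW : ∀ v ∈ W, ∀ w ∈ W, F.B v w = 0) (hQ : ∀ v ∈ W, F.Q v = 0)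
    (hc : Nat.card W * Nat.card W = Fintype.card V) (hpos : 0 < Nat.card W) :
    ∑ v : V, chi (F.Q v) = Nat.card W := by
  classical
  have hperp : perp F W = (Finset.univ : Finset W).map (Function.Embedding.subtype (· ∈ W)) := by
    symm
    apply Finset.eq_of_subset_of_card_le
    · intro v hv
      rw [mem_perp]
      have : v ∈ W := by
        obtain ⟨u, -, rfl⟩ := Finset.mem_map.mp hv
        exact u.2
      exact hW v this
    · have h1 := card_mul_perp hV W
      rw [← hc] at h1
      have h2 := Nat.eq_of_mul_eq_mul_left hpos h1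
      rw [h2, Finset.card_map, Finset.card_univ, Nat.card_eq_fintype_card]
  have h1 : ∀ w : W, ∑ v : V, chi (F.Q v) * chi (F.B v w) = ∑ v : V, chi (F.Q v) := by
    intro w
    apply Fintype.sum_equiv (Equiv.addRight (w : V))
    intro v
    simp only [Equiv.coe_addRight]
    rw [F.Q_add, hQ w w.2, add_zero, chi_add]
  have h2 : ∑ w : W, ∑ v : V, chi (F.Q v) * chi (F.B v w) =
      (Nat.card W : ℤ) * ∑ v : V, chi (F.Q v) := by
    simp only [h1]
    simp [Nat.card_eq_fintype_card]
  have h3 : ∑ w : W, ∑ v : V, chi (F.Q v) * chi (F.B v w) =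
      ∑ v : V, chi (F.Q v) * ∑ w : W, chi (F.B v w) := by
    rw [Finset.sum_comm]
    simp only [Finset.mul_sum]
  have h4 : ∑ v : V, chi (F.Q v) * ∑ w : W, chi (F.B v w) =
      (Nat.card W : ℤ) * Nat.card W := by
    simp only [sum_W]
    have h5 : ∀ v : V, chi (F.Q v) * (if v ∈ perp F W then (Nat.card W : ℤ) else 0) =
        if v ∈ perp F W then (Nat.card W : ℤ) else 0 := by
      intro v
      split_ifs with hv
      · rw [hperp] at hv
        have : v ∈ W := by
          obtain ⟨u, -, rfl⟩ := Finset.mem_map.mp hv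
          exact u.2
        rw [hQ v this, chi_zero, one_mul]
      · simp
    simp only [h5]
    rw [Finset.sum_ite_mem]
    simp only [Finset.univ_inter, Finset.sum_const, nsmul_eq_mul]
    rw [hperp, Finset.card_map, Finset.card_univ, Nat.card_eq_fintype_card]
  rw [h3, h4] at h2
  have hne : (Nat.card W : ℤ) ≠ 0 := by exact_mod_cast hpos.ne'
  exact (mul_left_cancel₀ hne h2).symm

end Group

/-! ### The image of an elementary abelian subgroup -/

section Image

variable {V : Type} [AddCommGroup V] {F : Form V}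

/-- The image of `A` in `V`. -/
def imgA (A : Subgroup (Ex F)) : AddSubgroup V where
  carrier := {v | ∃ x ∈ A, x.1 = v}
  add_mem' := by
    rintro _ _ ⟨x, hx, rfl⟩ ⟨y, hy, rfl⟩
    exact ⟨x * y, A.mul_mem hx hy, rfl⟩
  zero_mem' := ⟨1, A.one_mem, rfl⟩
  neg_mem' := by
    rintro _ ⟨x, hx, rfl⟩
    exact ⟨x⁻¹, A.inv_mem hx, rfl⟩

theorem mem_imgA {A : Subgroup (Ex F)} {v : V} : v ∈ imgA A ↔ ∃ x ∈ A, x.1 = v := Iff.rfl

theorem card_le_imgA [Finite V] (A : Subgroup (Ex F)) :
    Nat.card A ≤ Nat.card (imgA A) * 2 := by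
  classical
  have hinj : Function.Injective (fun x : A => ((⟨x.1.1, x.1, x.2, rfl⟩ : imgA A), x.1.2)) := by
    intro x y h
    have h1 := congrArg (fun p => (p.1 : V)) h
    have h2 := congrArg Prod.snd h
    exact Subtype.ext (ex_ext h1 h2)
  have := Nat.card_le_card_of_injective _ hinj
  rw [Nat.card_prod] at this
  simpa using this

theorem isotropic_of_elem (A : Subgroup (Ex F)) (hA : Cfsg.IsElementaryAbelian 2 A) :
    (∀ v ∈ imgA A, ∀ w ∈ imgA A, F.B v w = 0) ∧ ∀ v ∈ imgA A, F.Q v = 0 := by
  constructor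
  · rintro _ ⟨x, hx, rfl⟩ _ ⟨y, hy, rfl⟩
    have h1 := comm_eq x y
    have h2 : x * y = y * x := by
      have := hA.1.is_comm.comm (⟨x, hx⟩ : A) ⟨y, hy⟩
      exact congrArg Subtype.val this
    rw [h2] at h1
    have h3 : mkE F 0 (F.B x.1 y.1) = 1 := mul_eq_right.mp h1.symm
    exact congrArg Prod.snd h3
  · rintro _ ⟨x, hx, rfl⟩
    have h1 := hA.2 x hx
    rw [pow_two] at h1
    have h2 : (x * x).2 = 0 := by rw [h1]; rfl
    have h3 : x.2 + x.2 + F.β x.1 x.1 = 0 := h2
    rw [two_z, zero_add] at h3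
    exact h3

end Image

/-! ### The concrete forms -/

section Concrete

variable {n : ℕ}

abbrev Vn (n : ℕ) : Type := Fin n → ZMod 2 × ZMod 2

/-- The local form. -/
def bi (i0 : Fin n) (ε : ZMod 2) (i : Fin n) (p q : ZMod 2 × ZMod 2) : ZMod 2 :=
  p.1 * q.2 + (if i = i0 then ε * (p.1 * q.1 + p.2 * q.2) else 0)

/-- The global form. -/
def formOf (i0 : Fin n) (ε : ZMod 2) : Form (Vn n) where
  β v w := ∑ i, bi i0 ε i (v i) (w i)
  add_l u v w := by
    rw [← Finset.sum_add_distrib]
    apply Finset.sum_congr rfl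
    intro i _
    unfold bi
    simp only [Pi.add_apply, Prod.fst_add, Prod.snd_add]
    split_ifs <;> ring
  add_r u v w := by
    rw [← Finset.sum_add_distrib]
    apply Finset.sum_congr rfl
    intro i _
    unfold bi
    simp only [Pi.add_apply, Prod.fst_add, Prod.snd_add]
    split_ifs <;> ring

theorem formOf_B (i0 : Fin n) (ε : ZMod 2) (v w : Vn n) :
    (formOf i0 ε).B v w = ∑ i, ((v i).1 * (w i).2 + (w i).1 * (v i).2) := by
  unfold Form.B
  change ∑ i, bi i0 ε i (v i) (w i) + ∑ i, bi i0 ε i (w i) (v i) = _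
  rw [← Finset.sum_add_distrib]
  apply Finset.sum_congr rfl
  intro i _
  unfold bi
  generalize (v i).1 = a
  generalize (v i).2 = b
  generalize (w i).1 = c
  generalize (w i).2 = d
  split_ifs
  · revert a b c d ε; decide
  · simp

theorem formOf_nondeg (i0 : Fin n) (ε : ZMod 2) (v : Vn n) (hv : v ≠ 0) :
    ∃ w, (formOf i0 ε).B v w = 1 := by
  classical
  have : ∃ i, v i ≠ 0 := by
    by_contra h
    push Not at h
    exact hv (funext h)
  obtain ⟨i, hi⟩ := this
  refine ⟨Pi.single i (if (v i).1 = 1 then ((0 : ZMod 2), (1 : ZMod 2)) else (1, 0)), ?_⟩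
  rw [formOf_B, Finset.sum_eq_single i]
  · rw [Pi.single_eq_same]
    have h2 : ∀ p : ZMod 2 × ZMod 2, p ≠ 0 → p.1 * (if p.1 = 1 then ((0 : ZMod 2), (1 : ZMod 2)) else (1, 0)).2 +
        (if p.1 = 1 then ((0 : ZMod 2), (1 : ZMod 2)) else (1, 0)).1 * p.2 = 1 := by decide
    exact h2 _ hi
  · intro j _ hj
    rw [Pi.single_eq_of_ne hj]
    simp
  · simp

theorem card_Vn : Nat.card (Vn n) = 2 ^ (2 * n) := by
  rw [Nat.card_pi]
  simp [Finset.prod_const, pow_mul]

theorem exp_two (v : Vn n) : v + v = 0 := by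
  funext i
  apply Prod.ext <;> exact two_z _

theorem ne_zero_Vn (i0 : Fin n) : ∃ v : Vn n, v ≠ 0 := by
  classical
  refine ⟨fun _ => (1, 0), fun h => ?_⟩
  have := congrFun h i0
  have h2 := congrArg Prod.fst this
  exact one_ne_zero h2

theorem chi_sum {ι : Type} (s : Finset ι) (f : ι → ZMod 2) :
    chi (∑ i ∈ s, f i) = ∏ i ∈ s, chi (f i) := by
  classical
  induction s using Finset.induction_on with
  | empty => rfl
  | insert a s ha ih => rw [Finset.sum_insert ha, Finset.prod_insert ha, chi_add, ih]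

/-- The Gauss sum of the minus form is negative. -/
theorem gauss_neg (i0 : Fin n) : ∑ v : Vn n, chi ((formOf i0 1).Q v) < 0 := by
  classical
  have h1 : ∀ v : Vn n, chi ((formOf i0 1).Q v) = ∏ i, chi (bi i0 1 i (v i) (v i)) := by
    intro v
    exact chi_sum Finset.univ (fun i => bi i0 1 i (v i) (v i))
  simp only [h1]
  have h2 : ∑ v : Vn n, ∏ i, chi (bi i0 1 i (v i) (v i)) =
      ∏ i, ∑ p : ZMod 2 × ZMod 2, chi (bi i0 1 i p p) := by
    rw [Finset.prod_univ_sum, Fintype.piFinset_univ]
  rw [h2]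
  have h3 : ∀ i : Fin n, ∑ p : ZMod 2 × ZMod 2, chi (bi i0 1 i p p) =
      2 * (if i = i0 then (-1 : ℤ) else 1) := by
    intro i
    by_cases hi : i = i0
    · simp only [hi, if_true, bi]
      decide
    · simp only [hi, if_false, bi]
      decide
  simp only [h3]
  rw [Finset.prod_mul_distrib, Finset.prod_ite_eq' Finset.univ i0 (fun _ => (-1 : ℤ))]
  simp
  

/-- The subgroup on the free coordinates `S`. -/
def subA (i0 : Fin n) (ε : ZMod 2) (S : Finset (Fin n)) : Subgroup (Ex (formOf i0 ε)) where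
  carrier := {x | ∀ i, (x.1 i).1 = 0 ∧ (i ∉ S → (x.1 i).2 = 0)}
  mul_mem' := by
    intro a b ha hb i
    have h1 := ha i
    have h2 := hb i
    refine ⟨?_, fun hi => ?_⟩
    · change (a.1 i).1 + (b.1 i).1 = 0
      rw [h1.1, h2.1, add_zero]
    · change (a.1 i).2 + (b.1 i).2 = 0
      rw [h1.2 hi, h2.2 hi, add_zero]
  one_mem' := by
    intro i
    exact ⟨rfl, fun _ => rfl⟩
  inv_mem' := by
    intro a ha i
    have h1 := ha i
    refine ⟨?_, fun hi => ?_⟩
    · change -(a.1 i).1 = 0
      rw [h1.1, neg_zero]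
    · change -(a.1 i).2 = 0
      rw [h1.2 hi, neg_zero]

theorem beta_subA (i0 : Fin n) (ε : ZMod 2) (S : Finset (Fin n)) (hS : ε = 0 ∨ i0 ∉ S)
    (x y : Ex (formOf i0 ε)) (hx : x ∈ subA i0 ε S) (hy : y ∈ subA i0 ε S) :
    (formOf i0 ε).β x.1 y.1 = 0 := by
  change ∑ i, bi i0 ε i (x.1 i) (y.1 i) = 0
  apply Finset.sum_eq_zero
  intro i _
  unfold bi
  rw [(hx i).1, zero_mul, zero_add]
  split_ifs with hi
  · subst hi
    rcases hS with h | h
    · rw [h, zero_mul]
    · rw [(hx i).2 h, (hy i).1]; simp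
  · rfl

theorem elem_subA (i0 : Fin n) (ε : ZMod 2) (S : Finset (Fin n)) (hS : ε = 0 ∨ i0 ∉ S) :
    Cfsg.IsElementaryAbelian 2 (subA i0 ε S) := by
  constructor
  · constructor
    constructor
    rintro ⟨x, hx⟩ ⟨y, hy⟩
    apply Subtype.ext
    change x * y = y * x
    apply ex_ext
    · exact add_comm _ _
    · change x.2 + y.2 + (formOf i0 ε).β x.1 y.1 = y.2 + x.2 + (formOf i0 ε).β y.1 x.1
      rw [beta_subA i0 ε S hS x y hx hy, beta_subA i0 ε S hS y x hy hx, add_comm x.2]
  · intro x hx
    rw [pow_two]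
    apply ex_ext
    · exact exp_two _
    · change x.2 + x.2 + (formOf i0 ε).β x.1 x.1 = 0
      rw [beta_subA i0 ε S hS x x hx hx, two_z, add_zero]

theorem card_subA (i0 : Fin n) (ε : ZMod 2) (S : Finset (Fin n)) :
    Nat.card (subA i0 ε S) = 2 ^ (S.card + 1) := by
  classical
  have h : Nat.card (subA i0 ε S) = Nat.card (({i // i ∈ S} → ZMod 2) × ZMod 2) := by
    apply Nat.card_congr
    refine ⟨fun x => (fun i => (x.1.1 i.1).2, x.1.2),
      fun a => ⟨mkE _ (fun i => (0, if h : i ∈ S then a.1 ⟨i, h⟩ else 0)) a.2, ?_⟩, ?_, ?_⟩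
    · intro i
      refine ⟨rfl, fun hi => ?_⟩
      change (if h : i ∈ S then a.1 ⟨i, h⟩ else 0) = 0
      rw [dif_neg hi]
    · rintro ⟨x, hx⟩
      apply Subtype.ext
      apply ex_ext
      · funext i
        apply Prod.ext
        · exact (hx i).1.symm
        · by_cases hi : i ∈ S
          · change (if h : i ∈ S then (x.1 i).2 else 0) = _
            rw [dif_pos hi]
          · change (if h : i ∈ S then (x.1 i).2 else 0) = _
            rw [dif_neg hi]
            exact ((hx i).2 hi).symm
      · rfl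
    · rintro ⟨a, b⟩
      apply Prod.ext
      · funext i
        change (if h : i.1 ∈ S then a ⟨i.1, h⟩ else 0) = a i
        rw [dif_pos i.2]
      · rfl
  rw [h, Nat.card_prod, Nat.card_pi]
  simp [pow_succ]

theorem card_image_lt (i0 : Fin n) (A : Subgroup (Ex (formOf i0 1)))
    (hA : Cfsg.IsElementaryAbelian 2 A) : Nat.card (imgA A) < 2 ^ n := by
  classical
  letI : Fintype (imgA A) := Fintype.ofFinite _
  obtain ⟨h1, h2⟩ := isotropic_of_elem A hA
  have hnd : ∀ v : Vn n, v ≠ 0 → ∃ w, (formOf i0 1).B v w = 1 := formOf_nondeg i0 1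
  have hle := card_sq_le hnd (imgA A) h1
  rw [← Nat.card_eq_fintype_card, card_Vn] at hle
  have hpos : 0 < Nat.card (imgA A) := Nat.card_pos
  by_contra hlt
  push Not at hlt
  have heq : Nat.card (imgA A) * Nat.card (imgA A) = Fintype.card (Vn n) := by
    rw [← Nat.card_eq_fintype_card, card_Vn]
    apply le_antisymm hle
    have := Nat.mul_le_mul hlt hlt
    calc 2 ^ (2 * n) = 2 ^ n * 2 ^ n := by rw [two_mul, pow_add]
      _ ≤ _ := this
  have hg := gauss_eq hnd (imgA A) h1 h2 heq hpos
  have hneg := gauss_neg i0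
  rw [hg] at hneg
  omega

theorem card_image_le (i0 : Fin n) (A : Subgroup (Ex (formOf i0 0)))
    (hA : Cfsg.IsElementaryAbelian 2 A) : Nat.card (imgA A) ≤ 2 ^ n := by
  classical
  letI : Fintype (imgA A) := Fintype.ofFinite _
  obtain ⟨h1, -⟩ := isotropic_of_elem A hA
  have hnd : ∀ v : Vn n, v ≠ 0 → ∃ w, (formOf i0 0).B v w = 1 := formOf_nondeg i0 0
  have hle := card_sq_le hnd (imgA A) h1
  rw [← Nat.card_eq_fintype_card, card_Vn] at hle
  by_contra hlt
  push Not at hlt
  have := Nat.mul_lt_mul'' hlt hlt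
  have h3 : 2 ^ (2 * n) = 2 ^ n * 2 ^ n := by rw [two_mul, pow_add]
  omega

end Concrete

/-- For every n ≥ 1 there exist finite extraspecial 2-groups of order 2^(2n+1) whose 2-rank (the largest rank of an elementary abelian subgroup) is n, and ones whose 2-rank is n + 1 (so for each such order there are two non-isomorphic extraspecial 2-groups, told apart by their 2-rank). -/
theorem result (n : ℕ) (hn : 1 ≤ n) : ∀ r ∈ ({n, n + 1} : Set ℕ), ∃ (E : Type) (_ : Group E) (_ : Finite E), Cfsg.IsExtraspecial 2 E ∧ Nat.card E = 2 ^ (2 * n + 1) ∧ sSup {k : ℕ | ∃ A : Subgroup E, Cfsg.IsElementaryAbelian 2 A ∧ Nat.card A = 2 ^ k} = r := by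
  classical
  intro r hr
  let i0 : Fin n := ⟨0, hn⟩
  have hcard : ∀ ε : ZMod 2, Nat.card (Ex (formOf i0 ε)) = 2 ^ (2 * n + 1) := by
    intro ε
    rw [card_ex, card_Vn, pow_succ]
  have hext : ∀ ε : ZMod 2, Cfsg.IsExtraspecial 2 (Ex (formOf i0 ε)) := fun ε =>
    isExtraspecial_ex card_Vn (formOf_nondeg i0 ε) (ne_zero_Vn i0)
  rcases hr with rfl | hr
  · refine ⟨Ex (formOf i0 1), inferInstance, inferInstance, hext 1, hcard 1, ?_⟩
    apply IsGreatest.csSup_eq
    constructor
    · refine ⟨subA i0 1 (Finset.univ.erase i0), elem_subA i0 1 _ (Or.inr (by simp)), ?_⟩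
      rw [card_subA, Finset.card_erase_of_mem (Finset.mem_univ _), Finset.card_univ,
        Fintype.card_fin]
      congr 1
      omega
    · rintro k ⟨A, hA, hk⟩
      have h1 := card_le_imgA A
      have h2 := card_image_lt i0 A hA
      rw [hk] at h1
      have h3 : 2 ^ k < 2 ^ (r + 1) := by
        rw [pow_succ]; omega
      have := (Nat.pow_lt_pow_iff_right (by norm_num : 1 < 2)).mp h3
      omega
  · have hr' : r = n + 1 := hr
    subst hr'
    refine ⟨Ex (formOf i0 0), inferInstance, inferInstance, hext 0, hcard 0, ?_⟩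
    apply IsGreatest.csSup_eq
    constructor
    · refine ⟨subA i0 0 Finset.univ, elem_subA i0 0 _ (Or.inl rfl), ?_⟩
      rw [card_subA, Finset.card_univ, Fintype.card_fin]
    · rintro k ⟨A, hA, hk⟩
      have h1 := card_le_imgA A
      have h2 := card_image_le i0 A hA
      rw [hk] at h1
      have h3 : 2 ^ k ≤ 2 ^ (n + 1) := by
        rw [pow_succ]; omega
      exact (Nat.pow_le_pow_iff_right (by norm_num : 1 < 2)).mp h3

end Cfsg.Agent.S5396
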