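import Cfsg.Statements.S5412
import Cfsg.Agent.Lib.MonsterBabyC

set_option autoImplicit false
open Cfsg

namespace Cfsg.Agent.S5412

/-- Let G be a finite group of Monster type at the involution z with Q the extraspecial normal subgroup of order 2^25 of C = C_G(z) (so C/Q is identified with the first Conway group with Q modulo its centre the Leech lattice modulo 2, and z is not weakly closed in Q). Let t be an involution of Q not conjugate to z in G. Then the centralizer of t modulo the subgroup generated by t is a group of Baby Monster type (an involution whose centralizer D has generalized Fitting subgroup R extraspecial of order 2^23 with D/R identified with the second Conway group acting on R modulo its centre as on the vectors of the Leech lattice modulo 2 orthogonal to a short vector, modulo that vector; the involution not weakly closed in R). -/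
theorem result {G : Type*} [Group G] [Finite G] (z : G) (Q : Subgroup (Subgroup.centralizer ({z} : Set G))) [Q.Normal] (hM : Cfsg.IsOfMonsterType z Q) (t : G) (htQ : ∃ htc : t ∈ Subgroup.centralizer ({z} : Set G), (⟨t, htc⟩ : Subgroup.centralizer ({z} : Set G)) ∈ Q) (ht2 : orderOf t = 2) (ht : ¬ IsConj z t) [hn : ((Subgroup.zpowers t).subgroupOf (Subgroup.centralizer ({t} : Set G))).Normal] : Cfsg.IsOfBabyMonsterType (↥(Subgroup.centralizer ({t} : Set G)) ⧸ (Subgroup.zpowers t).subgroupOf (Subgroup.centralizer ({t} : Set G))) := by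
  classical
  obtain ⟨hset, e, ψ, hψ⟩ := hM
  have D : Cfsg.Agent.Lib.MonsterLocal.Data z Q e ψ := ⟨hset, hψ⟩
  have T := Cfsg.Agent.Lib.MonsterTrans.coTrans
  have htQ' : t ∈ Cfsg.Agent.Lib.MonsterLocal.Q0 Q := D.mem_Q0_iff.2 htQ
  have ht1 : t ≠ 1 := by
    rintro rfl
    simp at ht2
  have htz : t ≠ z := by
    rintro rfl
    exact ht (IsConj.refl _)
  have htt : t * t = 1 := by
    rw [← pow_two, ← ht2]
    exact pow_orderOf_eq_one t
  obtain ⟨v₀, hv₀⟩ := D.exists_rep htQ'
  have hd : ¬ ∃ u : Cfsg.leechLattice, v₀ = u + u := by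
    intro h
    rcases (D.rep_central_iff hv₀).2 h with h1 | h1
    · exact ht1 h1
    · exact htz h1
  obtain ⟨w, u, rfl, h1⟩ := Cfsg.Agent.Lib.MonsterMain.exists_short hd
  have hw : Cfsg.Agent.Lib.MonsterLocal.Rep ψ w t := by
    have := D.rep_congr hv₀ (-u)
    have e1 : w + (u + u) + (-u + -u) = w := by abel
    rwa [e1] at this
  have h32 : Cfsg.sqNorm (w : Cfsg.GolayPt → ℤ) = 32 := by
    rcases h1 with h1 | h1 | h1
    · exact h1
    · exact (Cfsg.Agent.Lib.MonsterMain.not48 D T hw htt h1).elim
    · exact (ht (Cfsg.Agent.Lib.MonsterMain.conj_of_rep64 D T hw h1).1).elim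
  obtain ⟨g, hg⟩ := T.t32 w Cfsg.Spor.leechU h32 Cfsg.Agent.Lib.MonsterBabyC.sqNorm_leechU
  have D' := Cfsg.Agent.Lib.MonsterBabyA.twist D g
  have hrep : Cfsg.Agent.Lib.MonsterLocal.Rep (fun v => ψ ((g⁻¹ : Cfsg.Co0).1 v)) Cfsg.Spor.leechU t := by
    obtain ⟨hc, hq, h2⟩ := hw
    refine ⟨hc, hq, ?_⟩
    have h3 : (g⁻¹ : Cfsg.Co0).1 Cfsg.Spor.leechU = w := by
      have h4 : g.1 w = Cfsg.Spor.leechU := hg
      rw [← h4]
      exact g.1.symm_apply_apply w
    show ψ ((g⁻¹ : Cfsg.Co0).1 Cfsg.Spor.leechU) = _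
    rw [h3, h2]
  exact Cfsg.Agent.Lib.MonsterBabyC.main D' T hrep ht2 ht

end Cfsg.Agent.S5412
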