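import Cfsg.Statements.S5413
import Cfsg.Agent.Lib.FiveGp4
import Cfsg.Agent.Lib.MonsterTrans

set_option autoImplicit false
open Cfsg

namespace Cfsg.Agent.S5413

/-- Let G be a finite group of Monster type at the involution z with Q the extraspecial normal subgroup of order 2^25 of C = C_G(z) (so C/Q is identified with the first Conway group with Q modulo its centre the Leech lattice modulo 2, and z is not weakly closed in Q). Let s be a conjugate of z in Q other than z and let B be a Sylow 5-subgroup of the joint centralizer of z and s. Then the centralizer of B modulo B is a group of Harada–Norton type (an involution whose centralizer D has generalized Fitting subgroup R extraspecial of order 2^9 with D/R the wreath product of the alternating group of degree 5 by a group of order 2, the involution not weakly closed in R). -/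
theorem result {G : Type*} [Group G] [Finite G] (z : G) (Q : Subgroup (Subgroup.centralizer ({z} : Set G))) [Q.Normal] (hM : Cfsg.IsOfMonsterType z Q) (s : G) (hsQ : ∃ hsc : s ∈ Subgroup.centralizer ({z} : Set G), (⟨s, hsc⟩ : Subgroup.centralizer ({z} : Set G)) ∈ Q) (hs : IsConj z s) (hs1 : s ≠ z) (B : Subgroup G) (hB : B ≤ Subgroup.centralizer ({z, s} : Set G)) (hBp : Nat.card B = 5 ^ (Nat.card ↥(Subgroup.centralizer ({z, s} : Set G))).factorization 5) [hn : (B.subgroupOf (Subgroup.centralizer (B : Set G))).Normal] : Cfsg.IsOfHaradaNortonType (↥(Subgroup.centralizer (B : Set G)) ⧸ B.subgroupOf (Subgroup.centralizer (B : Set G))) := by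
  classical
  obtain ⟨hset, e, ψ, hψ⟩ := hM
  have D : Cfsg.Agent.Lib.MonsterLocal.Data z Q e ψ := ⟨hset, hψ⟩
  have T := Cfsg.Agent.Lib.MonsterTrans.coTrans
  have hsQ' : s ∈ Cfsg.Agent.Lib.MonsterLocal.Q0 Q := D.mem_Q0_iff.2 hsQ
  obtain ⟨e', ψ', b, hb, D', hrep, hBe, hphi, hbs, hb5, hb1, hfac⟩ :=
    Cfsg.Agent.Lib.FiveGp2.exists_normal D T hsQ' hs hs1 hB hBp
  subst hBe
  exact Cfsg.Agent.Lib.FiveGp4.main (N := ⟨D', T, hrep, hs, hs1, hb, hphi, hbs, hb5, hb1, hfac⟩)

end Cfsg.Agent.S5413
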