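import Mathlib
import Cfsg.Statements.S5420
import Cfsg.Agent.Lib.PCore

set_option autoImplicit false
open Cfsg

namespace Cfsg.Agent.S5420

theorem odd_two_eq_one {G : Type*} [Group G] [Finite G] {K P : Subgroup G}
    (hK : Odd (Nat.card K)) (hP : IsPGroup 2 P) {x : G} (hxK : x ∈ K) (hxP : x ∈ P) : x = 1 := by
  have : Fact (Nat.Prime 2) := ⟨Nat.prime_two⟩
  have hc : (Nat.card K).Coprime (Nat.card P) := by
    obtain ⟨n, hn⟩ := IsPGroup.iff_card.mp hP
    rw [hn]
    exact (Nat.Coprime.pow_right n (Nat.coprime_two_right.mpr hK))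
  have := Subgroup.disjoint_of_coprime_natCard hc
  exact (Subgroup.disjoint_def.mp this) hxK hxP

/-- Let Q be an extraspecial 2-subgroup of the finite group G whose centralizer in G is its centre Z and which is normal in the centralizer of Z. If Z lies in the largest normal 2-subgroup of G, then Q is a large extraspecial 2-subgroup of G: it normalizes no non-trivial subgroup of G of odd order. -/
theorem result {G : Type*} [Group G] [Finite G] (Q : Subgroup G) (hL1 : Cfsg.IsExtraspecial 2 ↥Q) (hL2 : Subgroup.centralizer (Q : Set G) = ((Subgroup.center ↥Q).map Q.subtype)) (hL3 : Subgroup.centralizer (((Subgroup.center ↥Q).map Q.subtype) : Set G) ≤ Subgroup.normalizer (Q : Set G)) (hZ : ((Subgroup.center ↥Q).map Q.subtype) ≤ Cfsg.pCore 2 G) : Cfsg.IsLargeExtraspecial Q := by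
  have : Fact (Nat.Prime 2) := ⟨Nat.prime_two⟩
  refine ⟨hL1, hL2, hL3, ?_⟩
  intro K hK hQK
  have hQ2 : IsPGroup 2 Q := hL1.1.1
  have hZQ : (Subgroup.center ↥Q).map Q.subtype ≤ Q := by
    rintro _ ⟨x, -, rfl⟩; exact x.2
  have hP2 : IsPGroup 2 (Cfsg.pCore 2 G) := Cfsg.Agent.Lib.PCore.isPGroup_pCore 2
  -- K centralizes Z
  have h1 : K ≤ Subgroup.centralizer (((Subgroup.center ↥Q).map Q.subtype) : Set G) := by
    intro k hk
    rw [Subgroup.mem_centralizer_iff]
    intro a ha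
    have ha' : a ∈ (Subgroup.center ↥Q).map Q.subtype := ha
    have h2 : k * a * k⁻¹ * a⁻¹ ∈ Cfsg.pCore 2 G :=
      Subgroup.mul_mem _ ((Cfsg.Agent.Lib.PCore.pCore_normal 2).conj_mem a (hZ ha') k)
        (Subgroup.inv_mem _ (hZ ha'))
    have h3 : k * a * k⁻¹ * a⁻¹ ∈ K := by
      have h4 : a * k⁻¹ * a⁻¹ ∈ K :=
        (Subgroup.mem_normalizer_iff.mp (hQK (hZQ ha')) k⁻¹).mp (K.inv_mem hk)
      have h5 : k * a * k⁻¹ * a⁻¹ = k * (a * k⁻¹ * a⁻¹) := by group
      rw [h5]
      exact K.mul_mem hk h4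
    have h6 := odd_two_eq_one hK hP2 h3 h2
    have h7 : k * a * k⁻¹ = a := by
      have := mul_inv_eq_one.mp h6
      exact this
    have h8 : k * a = a * k := by
      calc k * a = (k * a * k⁻¹) * k := by group
        _ = a * k := by rw [h7]
    exact h8.symm
  have h2 : K ≤ Subgroup.normalizer (Q : Set G) := h1.trans hL3
  have h3 : K ≤ Subgroup.centralizer (Q : Set G) := by
    intro k hk
    rw [Subgroup.mem_centralizer_iff]
    intro q hq
    have hq' : q ∈ Q := hq
    have h4 : k * q * k⁻¹ * q⁻¹ ∈ Q :=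
      Q.mul_mem ((Subgroup.mem_normalizer_iff.mp (h2 hk) q).mp hq') (Q.inv_mem hq')
    have h5 : k * q * k⁻¹ * q⁻¹ ∈ K := by
      have h6 : q * k⁻¹ * q⁻¹ ∈ K :=
        (Subgroup.mem_normalizer_iff.mp (hQK hq') k⁻¹).mp (K.inv_mem hk)
      have h7 : k * q * k⁻¹ * q⁻¹ = k * (q * k⁻¹ * q⁻¹) := by group
      rw [h7]
      exact K.mul_mem hk h6
    have h6 := odd_two_eq_one hK hQ2 h5 h4
    have h7 : k * q * k⁻¹ = q := mul_inv_eq_one.mp h6
    have h8 : k * q = q * k := by
      calc k * q = (k * q * k⁻¹) * k := by group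
        _ = q * k := by rw [h7]
    exact h8.symm
  rw [eq_bot_iff]
  intro k hk
  have h4 : k ∈ (Subgroup.center ↥Q).map Q.subtype := hL2 ▸ h3 hk
  exact odd_two_eq_one hK hQ2 hk (hZQ h4)

end Cfsg.Agent.S5420
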