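import Mathlib
import Cfsg.Statements.S5424
import Cfsg.Agent.Lib.SLTwoCore
import Cfsg.Agent.Lib.LargeQuot

set_option autoImplicit false
open Cfsg

namespace Cfsg.Agent.S5424

open Matrix

variable {n : ℕ}

/-- The block form of an element of the centralizer of the transvection. -/
def mat (c : ZMod 2) (a b : Fin n → ZMod 2) (A : Matrix (Fin n) (Fin n) (ZMod 2)) :
    Matrix (Fin (n + 2)) (Fin (n + 2)) (ZMod 2) :=
  Matrix.of fun i j =>
    Fin.cases (motive := fun _ => ZMod 2)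
      (Fin.cases (motive := fun _ => ZMod 2) 1
        (fun j' => Fin.cases (motive := fun _ => ZMod 2) c a j') j)
      (fun i' => Fin.cases (motive := fun _ => ZMod 2)
        (Fin.cases (motive := fun _ => ZMod 2) 0
          (fun j' => Fin.cases (motive := fun _ => ZMod 2) 1 (fun _ => 0) j') j)
        (fun i'' => Fin.cases (motive := fun _ => ZMod 2) 0
          (fun j' => Fin.cases (motive := fun _ => ZMod 2) (b i'') (A i'') j') j) i') i

/-- The indices `≥ 2`. -/
abbrev s (i : Fin n) : Fin (n + 2) := i.succ.succ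

section apply

variable (c : ZMod 2) (a b : Fin n → ZMod 2) (A : Matrix (Fin n) (Fin n) (ZMod 2)) (i j : Fin n)

@[simp] theorem mat_00 : mat c a b A 0 0 = 1 := rfl
@[simp] theorem mat_01 : mat c a b A 0 1 = c := rfl
@[simp] theorem mat_0s : mat c a b A 0 (s j) = a j := rfl
@[simp] theorem mat_10 : mat c a b A 1 0 = 0 := rfl
@[simp] theorem mat_11 : mat c a b A 1 1 = 1 := rfl
@[simp] theorem mat_1s : mat c a b A 1 (s j) = 0 := rfl
@[simp] theorem mat_s0 : mat c a b A (s i) 0 = 0 := rfl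
@[simp] theorem mat_s1 : mat c a b A (s i) 1 = b i := rfl
@[simp] theorem mat_ss : mat c a b A (s i) (s j) = A i j := rfl

end apply

theorem sum_two (f : Fin (n + 2) → ZMod 2) : ∑ k, f k = f 0 + (f 1 + ∑ i : Fin n, f (s i)) := by
  rw [Fin.sum_univ_succ, Fin.sum_univ_succ, Fin.succ_zero_eq_one]

theorem fin_cases3 {P : Fin (n + 2) → Prop} (h0 : P 0) (h1 : P 1) (h2 : ∀ i : Fin n, P (s i))
    (x : Fin (n + 2)) : P x :=
  Fin.cases h0 (fun y => Fin.cases (by rw [Fin.succ_zero_eq_one]; exact h1) h2 y) x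

theorem mat_mul (c c' : ZMod 2) (a b a' b' : Fin n → ZMod 2) (A A' : Matrix (Fin n) (Fin n) (ZMod 2)) :
    mat c a b A * mat c' a' b' A' =
      mat (c' + c + a ⬝ᵥ b') (a' + a ᵥ* A') (b + A *ᵥ b') (A * A') := by
  ext i j
  rw [Matrix.mul_apply, sum_two]
  induction i using fin_cases3 <;> induction j using fin_cases3 <;>
    simp [dotProduct, vecMul, mulVec, Matrix.mul_apply, add_assoc]


theorem s_ne_zero (i : Fin n) : (s i : Fin (n + 2)) ≠ 0 := Fin.succ_ne_zero _

theorem s_ne_one (i : Fin n) : (s i : Fin (n + 2)) ≠ 1 := by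
  intro h
  rw [← Fin.succ_zero_eq_one] at h
  exact Fin.succ_ne_zero _ (Fin.succ_injective _ h)

theorem one_ne_zero' : (1 : Fin (n + 2)) ≠ 0 := by
  rw [← Fin.succ_zero_eq_one]
  exact Fin.succ_ne_zero _

theorem s_inj {i j : Fin n} (h : (s i : Fin (n + 2)) = s j) : i = j :=
  Fin.succ_injective _ (Fin.succ_injective _ h)

theorem mat_one : mat (0 : ZMod 2) (0 : Fin n → ZMod 2) 0 1 = 1 := by
  ext i j
  induction i using fin_cases3 <;> induction j using fin_cases3 <;>
    simp [Matrix.one_apply, s_ne_one, (s_ne_zero _).symm, (s_ne_one _).symm, one_ne_zero'.symm]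

theorem transvection_eq : Matrix.transvection (0 : Fin (n + 2)) 1 (1 : ZMod 2) = mat 1 0 0 1 := by
  ext i j
  rw [Matrix.transvection, Matrix.add_apply, Matrix.single_apply, Matrix.one_apply]
  induction i using fin_cases3 <;> induction j using fin_cases3 <;>
    simp [s_ne_one, (s_ne_zero _).symm, (s_ne_one _).symm, one_ne_zero'.symm, Matrix.one_apply]

theorem mat_inj {c c' : ZMod 2} {a b a' b' : Fin n → ZMod 2} {A A' : Matrix (Fin n) (Fin n) (ZMod 2)}
    (h : mat c a b A = mat c' a' b' A') : c = c' ∧ a = a' ∧ b = b' ∧ A = A' := by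
  refine ⟨?_, ?_, ?_, ?_⟩
  · simpa using congrFun (congrFun h 0) 1
  · funext j
    simpa using congrFun (congrFun h 0) (s j)
  · funext i
    simpa using congrFun (congrFun h (s i)) 1
  · ext i j
    simpa using congrFun (congrFun h (s i)) (s j)

theorem zmod2_mul_eq_one : ∀ x y : ZMod 2, x * y = 1 → x = 1 := by decide

theorem det_of_mul {M M' : Matrix (Fin (n + 2)) (Fin (n + 2)) (ZMod 2)} (h : M * M' = 1) : M.det = 1 := by
  have := congrArg Matrix.det h
  rw [Matrix.det_mul, Matrix.det_one] at this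
  exact zmod2_mul_eq_one _ _ this

theorem det_of_mul' {M M' : Matrix (Fin n) (Fin n) (ZMod 2)} (h : M * M' = 1) : M.det = 1 := by
  have := congrArg Matrix.det h
  rw [Matrix.det_mul, Matrix.det_one] at this
  exact zmod2_mul_eq_one _ _ this

theorem zmod2_add_self : ∀ x : ZMod 2, x + x = 0 := by decide

theorem add_self_fun (a : Fin n → ZMod 2) : a + a = 0 := by
  funext i
  exact zmod2_add_self _

/-- The inverse in the extraspecial part. -/
theorem mat_qinv (c : ZMod 2) (a b : Fin n → ZMod 2) :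
    mat c a b 1 * mat (c + a ⬝ᵥ b) a b 1 = 1 := by
  rw [mat_mul, ← mat_one]
  have h1 : c + a ⬝ᵥ b + c + a ⬝ᵥ b = 0 := by
    generalize a ⬝ᵥ b = x
    generalize c = y
    revert x y
    decide
  rw [h1, vecMul_one, one_mulVec, add_self_fun, add_self_fun, Matrix.mul_one]

abbrev GG (n : ℕ) := Matrix.SpecialLinearGroup (Fin (n + 2)) (ZMod 2)

/-- An element of the extraspecial part. -/
def qel (c : ZMod 2) (a b : Fin n → ZMod 2) : GG n :=
  ⟨mat c a b 1, det_of_mul (mat_qinv c a b)⟩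

theorem qel_val (c : ZMod 2) (a b : Fin n → ZMod 2) :
    (qel c a b : GG n).1 = mat c a b 1 := rfl

theorem ext_val {g h : GG n} (e : g.1 = h) : g = h :=
  Subtype.ext e

theorem qel_mul (c c' : ZMod 2) (a a' b b' : Fin n → ZMod 2) :
    qel c a b * qel c' a' b' = qel (c' + c + a ⬝ᵥ b') (a' + a) (b + b') := by
  apply ext_val
  show mat c a b 1 * mat c' a' b' 1 = mat (c' + c + a ⬝ᵥ b') (a' + a) (b + b') 1
  rw [mat_mul, vecMul_one, one_mulVec, Matrix.mul_one]

theorem qel_zero : (qel 0 0 0 : GG n) = 1 := by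
  apply ext_val
  exact mat_one

theorem qel_inv (c : ZMod 2) (a b : Fin n → ZMod 2) :
    (qel c a b : GG n)⁻¹ = qel (c + a ⬝ᵥ b) a b := by
  apply inv_eq_of_mul_eq_one_right
  apply ext_val
  exact mat_qinv c a b

theorem qel_comm (c c' : ZMod 2) (a a' b b' : Fin n → ZMod 2) :
    qel c a b * qel c' a' b' = qel (a ⬝ᵥ b' + a' ⬝ᵥ b) 0 0 * (qel c' a' b' * qel c a b) := by
  rw [qel_mul, qel_mul, qel_mul]
  have h1 : c' + c + a ⬝ᵥ b' = c + c' + a' ⬝ᵥ b + (a ⬝ᵥ b' + a' ⬝ᵥ b) + 0 ⬝ᵥ (b' + b) := by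
    rw [zero_dotProduct]
    generalize a ⬝ᵥ b' = x
    generalize a' ⬝ᵥ b = y
    generalize c = u
    generalize c' = v
    revert x y u v
    decide
  rw [h1, add_comm a' a]
  simp only [zero_add, add_zero, add_comm b b']

/-- The commutator formula in the extraspecial part. -/
theorem qel_commutator (c c' : ZMod 2) (a a' b b' : Fin n → ZMod 2) :
    qel c a b * qel c' a' b' * (qel c a b)⁻¹ * (qel c' a' b')⁻¹ = qel (a ⬝ᵥ b' + a' ⬝ᵥ b) 0 0 := by
  rw [qel_comm]
  group

theorem qel_sq (c : ZMod 2) (a b : Fin n → ZMod 2) :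
    (qel c a b) ^ 2 = qel (a ⬝ᵥ b) 0 0 := by
  rw [pow_two, qel_mul, add_self_fun, add_self_fun]
  have h1 : c + c + a ⬝ᵥ b = a ⬝ᵥ b := by
    rw [zmod2_add_self, zero_add]
  rw [h1]

theorem qel_inj {c c' : ZMod 2} {a a' b b' : Fin n → ZMod 2} (h : (qel c a b : GG n) = qel c' a' b') :
    c = c' ∧ a = a' ∧ b = b' := by
  have h1 := mat_inj (congrArg Subtype.val h)
  exact ⟨h1.1, h1.2.1, h1.2.2.1⟩

/-- The extraspecial part as a subgroup. -/
def Qm (n : ℕ) : Subgroup (GG n) where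
  carrier := {g | ∃ c a b, g = qel c a b}
  mul_mem' := by
    rintro _ _ ⟨c, a, b, rfl⟩ ⟨c', a', b', rfl⟩
    exact ⟨_, _, _, qel_mul _ _ _ _ _ _⟩
  one_mem' := ⟨0, 0, 0, qel_zero.symm⟩
  inv_mem' := by
    rintro _ ⟨c, a, b, rfl⟩
    exact ⟨_, _, _, qel_inv _ _ _⟩

theorem mem_Qm {g : GG n} : g ∈ Qm n ↔ ∃ c a b, g = qel c a b := Iff.rfl

theorem card_Qm : Nat.card (Qm n) = 2 ^ (2 * n + 1) := by
  let e : (ZMod 2 × (Fin n → ZMod 2) × (Fin n → ZMod 2)) → Qm n :=
    fun x => ⟨qel x.1 x.2.1 x.2.2, x.1, x.2.1, x.2.2, rfl⟩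
  have he : Function.Bijective e := by
    constructor
    · rintro ⟨c, a, b⟩ ⟨c', a', b'⟩ h
      obtain ⟨h1, h2, h3⟩ := qel_inj (congrArg Subtype.val h)
      exact Prod.ext h1 (Prod.ext h2 h3)
    · rintro ⟨_, c, a, b, rfl⟩
      exact ⟨(c, a, b), rfl⟩
  rw [← Nat.card_eq_of_bijective e he, Nat.card_eq_fintype_card, Fintype.card_prod, Fintype.card_prod,
    Fintype.card_fun, ZMod.card, Fintype.card_fin]
  ring


/-- Matrix form of elements commuting with the transvection. -/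
theorem exists_mat_of_comm (g : GG n)
    (h : g.1 * mat 1 0 0 1 = mat 1 0 0 1 * g.1) :
    ∃ c a b A, g.1 = mat c a b A := by
  set M : Matrix (Fin (n + 2)) (Fin (n + 2)) (ZMod 2) := g.1 with hM
  rw [← transvection_eq, Matrix.transvection, Matrix.mul_add, Matrix.add_mul, Matrix.mul_one,
    Matrix.one_mul] at h
  have h1 := add_left_cancel h
  have hk : ∀ k, k ≠ 0 → M k 0 = 0 := by
    intro k hk
    have := congrFun (congrFun h1 k) 1
    rw [Matrix.mul_single_apply_same, Matrix.single_mul_apply_of_ne _ _ _ _ _ hk] at this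
    simpa using this
  have hl : ∀ l, l ≠ 1 → M 1 l = 0 := by
    intro l hl
    have := congrFun (congrFun h1 0) l
    rw [Matrix.mul_single_apply_of_ne _ _ _ _ _ hl, Matrix.single_mul_apply_same] at this
    simpa using this.symm
  have h01 : M 0 0 = M 1 1 := by
    have := congrFun (congrFun h1 0) 1
    rw [Matrix.mul_single_apply_same, Matrix.single_mul_apply_same] at this
    simpa using this
  have h00 : M 0 0 = 1 := by
    have h2 : (g⁻¹ * g : GG n).1 0 0 = 1 := by
      rw [inv_mul_cancel]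
      simp
    have h3 : (g⁻¹ : GG n).1 * M = (g⁻¹ * g : GG n).1 := rfl
    rw [← h3, Matrix.mul_apply, sum_two, hk 1 one_ne_zero'] at h2
    simp only [hk _ (s_ne_zero _), mul_zero, Finset.sum_const_zero, add_zero] at h2
    have key : ∀ x y : ZMod 2, x * y = 1 → y = 1 := by decide
    exact key _ _ h2
  refine ⟨M 0 1, fun j => M 0 (s j), fun i => M (s i) 1, fun i j => M (s i) (s j), ?_⟩
  ext i j
  induction i using fin_cases3 <;> induction j using fin_cases3
  · exact h00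
  · rfl
  · rfl
  · exact hk 1 one_ne_zero'
  · exact h01.symm.trans h00
  · exact hl _ (s_ne_one _)
  · exact hk _ (s_ne_zero _)
  · rfl
  · rfl

theorem mat_comm_z (c : ZMod 2) (a b : Fin n → ZMod 2) (A : Matrix (Fin n) (Fin n) (ZMod 2)) :
    mat c a b A * mat 1 0 0 1 = mat 1 0 0 1 * mat c a b A := by
  rw [mat_mul, mat_mul]
  simp [add_comm]

/-- The block of a matrix. -/
def blk (g : Matrix (Fin (n + 2)) (Fin (n + 2)) (ZMod 2)) : Matrix (Fin n) (Fin n) (ZMod 2) :=
  fun i j => g (s i) (s j)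

theorem blk_mat (c : ZMod 2) (a b : Fin n → ZMod 2) (A : Matrix (Fin n) (Fin n) (ZMod 2)) :
    blk (mat c a b A) = A := rfl

/-- The central involution as element. -/
abbrev z0 (n : ℕ) : GG n := qel 1 0 0

/-- The centralizer. -/
abbrev CC (n : ℕ) : Subgroup (GG n) := Subgroup.centralizer ({z0 n} : Set (GG n))

theorem mem_CC {g : GG n} : g ∈ CC n ↔ ∃ c a b A, g.1 = mat c a b A := by
  rw [Subgroup.mem_centralizer_singleton_iff]
  constructor
  · intro h
    exact exists_mat_of_comm g (congrArg Subtype.val h)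
  · rintro ⟨c, a, b, A, h⟩
    apply ext_val
    show g.1 * mat 1 0 0 1 = mat 1 0 0 1 * g.1
    rw [h, mat_comm_z]

theorem blk_mul_C {g g' : GG n} (hg : g ∈ CC n) (hg' : g' ∈ CC n) :
    blk (g * g' : GG n).1 =
      blk g.1 * blk g'.1 := by
  obtain ⟨c, a, b, A, h⟩ := mem_CC.1 hg
  obtain ⟨c', a', b', A', h'⟩ := mem_CC.1 hg'
  show blk (g.1 * g'.1) = _
  rw [h, h', mat_mul, blk_mat, blk_mat, blk_mat]

theorem blk_one : blk (1 : Matrix (Fin (n + 2)) (Fin (n + 2)) (ZMod 2)) = (1 : Matrix (Fin n) (Fin n) (ZMod 2)) := by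
  rw [← mat_one, blk_mat]

/-- The block homomorphism. -/
def rho (n : ℕ) : CC n →* Matrix.SpecialLinearGroup (Fin n) (ZMod 2) where
  toFun x := ⟨blk (x : GG n).1, by
    have h1 := blk_mul_C x.2 (x⁻¹).2
    have h2 : ((x : GG n) * ((x⁻¹ : CC n) : GG n)) = 1 := by
      rw [← Subgroup.coe_mul, mul_inv_cancel]
      rfl
    rw [h2] at h1
    exact det_of_mul' (h1.symm.trans blk_one)⟩
  map_one' := Subtype.ext blk_one
  map_mul' x y := Subtype.ext (blk_mul_C x.2 y.2)

theorem rho_val (x : CC n) : (rho n x).1 = blk (x : GG n).1 := rfl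

/-- The section. -/
def sig (n : ℕ) : Matrix.SpecialLinearGroup (Fin n) (ZMod 2) →* GG n where
  toFun A := ⟨mat 0 0 0 A.1, det_of_mul (M' := mat 0 0 0 (A⁻¹ : Matrix.SpecialLinearGroup (Fin n) (ZMod 2)).1) (by
    rw [mat_mul, ← mat_one]
    have h : A.1 * (A⁻¹ : Matrix.SpecialLinearGroup (Fin n) (ZMod 2)).1 = 1 := by
      have := congrArg Subtype.val (mul_inv_cancel A)
      exact this
    rw [h]
    simp)⟩
  map_one' := Subtype.ext mat_one
  map_mul' A B := by
    apply Subtype.ext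
    show mat 0 0 0 (A.1 * B.1) = mat 0 0 0 A.1 * mat 0 0 0 B.1
    rw [mat_mul]
    simp

theorem sig_val (A : Matrix.SpecialLinearGroup (Fin n) (ZMod 2)) :
    (sig n A : GG n).1 = mat 0 0 0 A.1 := rfl

theorem sig_mem (A : Matrix.SpecialLinearGroup (Fin n) (ZMod 2)) : sig n A ∈ CC n :=
  mem_CC.2 ⟨0, 0, 0, A.1, rfl⟩

theorem sig_injective : Function.Injective (sig n) := by
  intro A B h
  have := mat_inj (congrArg Subtype.val h)
  exact Subtype.ext this.2.2.2

theorem rho_sig (A : Matrix.SpecialLinearGroup (Fin n) (ZMod 2)) :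
    rho n ⟨sig n A, sig_mem A⟩ = A := Subtype.ext (blk_mat _ _ _ _)

theorem rho_surjective : Function.Surjective (rho n) := fun A => ⟨_, rho_sig A⟩

theorem Qm_le_CC : Qm n ≤ CC n := by
  rintro _ ⟨c, a, b, rfl⟩
  exact mem_CC.2 ⟨c, a, b, 1, rfl⟩

theorem mem_ker_rho {x : CC n} : x ∈ (rho n).ker ↔ (x : GG n) ∈ Qm n := by
  rw [MonoidHom.mem_ker]
  constructor
  · intro h
    obtain ⟨c, a, b, A, he⟩ := mem_CC.1 x.2
    have h1 : blk (x : GG n).1 = 1 := congrArg Subtype.val h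
    rw [he, blk_mat] at h1
    subst h1
    exact ⟨c, a, b, Subtype.ext he⟩
  · rintro ⟨c, a, b, he⟩
    apply Subtype.ext
    show blk (x : GG n).1 = 1
    rw [he]
    rfl

theorem isPGroup_Qm : IsPGroup 2 (Qm n) :=
  IsPGroup.of_card (n := 2 * n + 1) card_Qm

theorem normal_two_eq_bot' (hn : 1 ≤ n) (N : Subgroup (Matrix.SpecialLinearGroup (Fin n) (ZMod 2)))
    (hN : N.Normal) (h2 : IsPGroup 2 N) : N = ⊥ := by
  rcases Nat.lt_or_ge n 2 with h | h
  · obtain rfl : n = 1 := by omega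
    rw [eq_bot_iff]
    intro x _
    rw [Subgroup.mem_bot]
    apply Subtype.ext
    ext i j
    have hi : i = 0 := Subsingleton.elim _ _
    have hj : j = 0 := Subsingleton.elim _ _
    subst hi hj
    have := x.2
    rw [Matrix.det_fin_one] at this
    simpa using this
  · exact Cfsg.Agent.Lib.SLTwoCore.normal_two_eq_bot h N hN h2

/-- The 2-core of the centralizer. -/
theorem core_eq (hn : 1 ≤ n) : (Cfsg.pCore 2 (CC n)).map (CC n).subtype = Qm n := by
  have : Fact (Nat.Prime 2) := ⟨Nat.prime_two⟩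
  apply le_antisymm
  · rintro _ ⟨x, hx, rfl⟩
    show (x : GG n) ∈ Qm n
    rw [← mem_ker_rho]
    have h1 : ((Cfsg.pCore 2 (CC n)).map (rho n)).Normal :=
      Subgroup.Normal.map (Cfsg.Agent.Lib.PCore.pCore_normal 2) _ rho_surjective
    have h2 : IsPGroup 2 ((Cfsg.pCore 2 (CC n)).map (rho n)) :=
      (Cfsg.Agent.Lib.PCore.isPGroup_pCore (G := CC n) 2).map (rho n)
    have h3 := normal_two_eq_bot' hn _ h1 h2
    have h4 : rho n x ∈ (Cfsg.pCore 2 (CC n)).map (rho n) := ⟨x, hx, rfl⟩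
    rw [h3] at h4
    exact h4
  · intro g hg
    have hgC := Qm_le_CC hg
    refine ⟨⟨g, hgC⟩, ?_, rfl⟩
    have h1 : IsPGroup 2 (rho n).ker := by
      let φ : (rho n).ker →* Qm n :=
        { toFun := fun x => ⟨(x : CC n), mem_ker_rho.1 x.2⟩
          map_one' := rfl
          map_mul' := fun _ _ => rfl }
      refine IsPGroup.of_injective isPGroup_Qm φ ?_
      intro x y h
      have := congrArg (fun t : Qm n => (t : GG n)) h
      exact Subtype.ext (Subtype.ext this)
    exact Cfsg.Agent.Lib.PCore.le_pCore (MonoidHom.normal_ker _) h1 (mem_ker_rho.2 hg)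


theorem qel_eq_one_iff {c : ZMod 2} : (qel c 0 0 : GG n) = 1 ↔ c = 0 := by
  rw [← qel_zero]
  constructor
  · intro h
    exact (qel_inj h).1
  · rintro rfl
    rfl

theorem zmod2_cases : ∀ x : ZMod 2, x = 0 ∨ x = 1 := by decide

theorem qel_comm_iff (c c' : ZMod 2) (a a' b b' : Fin n → ZMod 2) :
    qel c a b * qel c' a' b' = qel c' a' b' * qel c a b ↔ a ⬝ᵥ b' + a' ⬝ᵥ b = 0 := by
  rw [qel_comm]
  constructor
  · intro h
    exact qel_eq_one_iff.1 (mul_eq_right.1 h)
  · intro h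
    rw [h, qel_eq_one_iff.2 rfl, one_mul]

theorem extra_Qm (hn : 1 ≤ n) : Cfsg.IsExtraspecial 2 (Qm n) := by
  have hcoe : ∀ (x y : Qm n), ((x * y : Qm n) : GG n) = x * y := fun _ _ => rfl
  have hcom : ∀ a b : Qm n, a * b * a⁻¹ * b⁻¹ = 1 ∨ a * b * a⁻¹ * b⁻¹ = ⟨z0 n, 1, 0, 0, rfl⟩ := by
    rintro ⟨_, c, a, b, rfl⟩ ⟨_, c', a', b', rfl⟩
    have h1 := qel_commutator c c' a a' b b'
    rcases zmod2_cases (a ⬝ᵥ b' + a' ⬝ᵥ b) with h | h
    · left
      apply Subtype.ext
      show qel c a b * qel c' a' b' * (qel c a b)⁻¹ * (qel c' a' b')⁻¹ = 1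
      rw [h1, h]
      exact qel_zero
    · right
      apply Subtype.ext
      show qel c a b * qel c' a' b' * (qel c a b)⁻¹ * (qel c' a' b')⁻¹ = z0 n
      rw [h1, h]
  refine Cfsg.Agent.Lib.LargeQuot.extraspecial_of_elements isPGroup_Qm ⟨z0 n, 1, 0, 0, rfl⟩ ?_ hcom ?_ ?_ ?_
  · intro h
    have h1 : qel 1 0 0 = (1 : GG n) := congrArg Subtype.val h
    have h2 := qel_eq_one_iff.1 h1
    exact absurd h2 (by decide)
  · rintro ⟨_, c, a, b, rfl⟩
    have h1 := qel_sq c a b
    rcases zmod2_cases (a ⬝ᵥ b) with h | h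
    · left
      apply Subtype.ext
      show (qel c a b) ^ 2 = 1
      rw [h1, h]
      exact qel_zero
    · right
      apply Subtype.ext
      show (qel c a b) ^ 2 = z0 n
      rw [h1, h]
  · rintro ⟨_, c, a, b, rfl⟩ h
    have hb : b = 0 := by
      funext j
      have h1 := h ⟨qel 0 (Pi.single j 1) 0, _, _, _, rfl⟩
      have h2 : qel c a b * qel 0 (Pi.single j 1) 0 = qel 0 (Pi.single j 1) 0 * qel c a b :=
        congrArg Subtype.val h1
      have h3 := (qel_comm_iff _ _ _ _ _ _).1 h2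
      simpa using h3
    have ha : a = 0 := by
      funext j
      have h1 := h ⟨qel 0 0 (Pi.single j 1), _, _, _, rfl⟩
      have h2 : qel c a b * qel 0 0 (Pi.single j 1) = qel 0 0 (Pi.single j 1) * qel c a b :=
        congrArg Subtype.val h1
      have h3 := (qel_comm_iff _ _ _ _ _ _).1 h2
      simpa using h3
    subst ha hb
    rcases zmod2_cases c with rfl | rfl
    · left
      exact Subtype.ext qel_zero
    · right
      rfl
  · have e0 : Fin n := ⟨0, by omega⟩
    refine ⟨⟨qel 0 (Pi.single e0 1) 0, _, _, _, rfl⟩, ⟨qel 0 0 (Pi.single e0 1), _, _, _, rfl⟩, ?_⟩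
    intro h
    have h1 : qel 0 (Pi.single e0 1) 0 * qel 0 0 (Pi.single e0 1) * (qel 0 (Pi.single e0 1) 0)⁻¹ *
      (qel 0 0 (Pi.single e0 1))⁻¹ = (1 : GG n) := congrArg Subtype.val h
    rw [qel_commutator, qel_eq_one_iff] at h1
    simp at h1

theorem conj_mem_Qm {x h : GG n} (hx : x ∈ CC n) (hh : h ∈ Qm n) : x * h * x⁻¹ ∈ Qm n := by
  have h1 : (⟨h, Qm_le_CC hh⟩ : CC n) ∈ (rho n).ker := mem_ker_rho.2 hh
  have h2 := (MonoidHom.normal_ker (rho n)).conj_mem _ h1 ⟨x, hx⟩
  exact mem_ker_rho.1 h2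

/-- The permutation matrix exchanging `1` and `s e`. -/
def perm0 (e : Fin n) : Matrix (Fin (n + 2)) (Fin (n + 2)) (ZMod 2) :=
  fun i j => if Equiv.swap (1 : Fin (n + 2)) (s e) i = j then 1 else 0

theorem perm0_mul_self (e : Fin n) : perm0 e * perm0 e = 1 := by
  ext i j
  rw [Matrix.mul_apply, Finset.sum_eq_single (Equiv.swap (1 : Fin (n + 2)) (s e) i)]
  · simp [perm0, Matrix.one_apply]
  · intro b _ hb
    simp [perm0, Ne.symm hb]
  · simp

/-- The element `perm0 e` of the group. -/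
def gS (e : Fin n) : GG n := ⟨perm0 e, det_of_mul (perm0_mul_self e)⟩

theorem gS_inv (e : Fin n) : (gS e)⁻¹ = gS e := by
  apply inv_eq_of_mul_eq_one_right
  exact Subtype.ext (perm0_mul_self e)

theorem transvection_eq' (e : Fin n) :
    Matrix.transvection (0 : Fin (n + 2)) (s e) (1 : ZMod 2) = mat 0 (Pi.single e 1) 0 1 := by
  ext i j
  rw [Matrix.transvection, Matrix.add_apply, Matrix.single_apply, Matrix.one_apply]
  induction i using fin_cases3 <;> induction j using fin_cases3 <;>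
    simp [s_ne_one, (s_ne_zero _).symm, (s_ne_one _).symm, one_ne_zero'.symm, Matrix.one_apply,
      Pi.single_apply, eq_comm]

theorem gS_conj (e : Fin n) : gS e * z0 n * (gS e)⁻¹ = qel 0 (Pi.single e 1) 0 := by
  rw [gS_inv]
  have h1 : gS e * z0 n = qel 0 (Pi.single e 1) 0 * gS e := by
    apply ext_val
    show perm0 e * mat 1 0 0 1 = mat 0 (Pi.single e 1) 0 1 * perm0 e
    rw [← transvection_eq, ← transvection_eq', Matrix.transvection, Matrix.transvection, Matrix.mul_add,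
      Matrix.add_mul, Matrix.mul_one, Matrix.one_mul]
    congr 1
    ext i j
    have hs : ∀ i : Fin (n + 2), Equiv.swap (1 : Fin (n + 2)) (s e) i = 0 ↔ i = 0 := by
      intro i
      constructor
      · intro h
        have := congrArg (Equiv.swap (1 : Fin (n + 2)) (s e)) h
        rw [Equiv.swap_apply_self, Equiv.swap_apply_of_ne_of_ne one_ne_zero'.symm (s_ne_zero e).symm] at this
        exact this
      · rintro rfl
        exact Equiv.swap_apply_of_ne_of_ne one_ne_zero'.symm (s_ne_zero e).symm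
    by_cases hj : j = 1
    · subst hj
      rw [Matrix.mul_single_apply_same]
      by_cases hi : i = 0
      · subst hi
        rw [Matrix.single_mul_apply_same]
        simp [perm0, Equiv.swap_apply_right]
        exact (hs 0).2 rfl
      · rw [Matrix.single_mul_apply_of_ne _ _ _ _ _ hi]
        simp [perm0, hs, hi]
    · rw [Matrix.mul_single_apply_of_ne _ _ _ _ _ hj]
      by_cases hi : i = 0
      · subst hi
        rw [Matrix.single_mul_apply_same]
        simp [perm0, Equiv.swap_apply_right, Ne.symm hj]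
      · rw [Matrix.single_mul_apply_of_ne _ _ _ _ _ hi]
  have h2 : gS e * gS e = 1 := Subtype.ext (perm0_mul_self e)
  rw [h1, mul_assoc, h2, mul_one]

theorem cent_Qm {x : GG n} (hx : ∀ y ∈ Qm n, y * x = x * y) : x = 1 ∨ x = z0 n := by
  have hxC : x ∈ CC n := by
    rw [Subgroup.mem_centralizer_singleton_iff]
    exact (hx _ ⟨1, 0, 0, rfl⟩).symm
  obtain ⟨c, a, b, A, he⟩ := mem_CC.1 hxC
  have hT : ∀ j, b j = 0 ∧ A j = (1 : Matrix (Fin n) (Fin n) (ZMod 2)) j := by
    intro j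
    have h1 := congrArg Subtype.val (hx (qel 0 (Pi.single j 1) 0) ⟨_, _, _, rfl⟩)
    have h2 : mat 0 (Pi.single j 1) 0 1 * x.1 = x.1 * mat 0 (Pi.single j 1) 0 1 := h1
    rw [he, mat_mul, mat_mul] at h2
    obtain ⟨h3, h4, -, -⟩ := mat_inj h2
    simp at h3
    refine ⟨h3, ?_⟩
    have h5 : Pi.single j 1 ᵥ* A = A j := by
      ext k
      simp [vecMul, dotProduct, Pi.single_apply]
    have h6 : (1 : Matrix (Fin n) (Fin n) (ZMod 2)) j = Pi.single j 1 := by
      ext k
      simp [Matrix.one_apply, Pi.single_apply, eq_comm]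
    rw [h5, vecMul_one, add_comm] at h4
    rw [h6]
    exact add_right_cancel h4
  have hU : ∀ j, a j = 0 := by
    intro j
    have h1 := congrArg Subtype.val (hx (qel 0 0 (Pi.single j 1)) ⟨_, _, _, rfl⟩)
    have h2 : mat 0 0 (Pi.single j 1) 1 * x.1 = x.1 * mat 0 0 (Pi.single j 1) 1 := h1
    rw [he, mat_mul, mat_mul] at h2
    obtain ⟨h3, -, -, -⟩ := mat_inj h2
    simp at h3
    exact h3
  have hb : b = 0 := funext fun j => (hT j).1
  have ha : a = 0 := funext hU
  have hA : A = 1 := by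
    ext i j
    exact congrFun (hT i).2 j
  subst ha hb hA
  rcases zmod2_cases c with rfl | rfl
  · left
    apply ext_val
    rw [he]
    exact mat_one
  · right
    exact ext_val he

theorem large_Qm (hn : 2 ≤ n) : Cfsg.IsLargeExtraspecial (Qm n) := by
  have e0 : Fin n := ⟨0, by omega⟩
  refine Cfsg.Agent.Lib.LargeQuot.large_of_elements (extra_Qm (by omega)) n hn card_Qm (z := z0 n) ⟨1, 0, 0, rfl⟩ ?_ ?_ ?_ ?_
    (gS e0) ?_ ?_
  · intro h
    have h2 := qel_eq_one_iff.1 h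
    exact absurd h2 (by decide)
  · intro y hy
    exact (Subgroup.mem_centralizer_singleton_iff.1 (Qm_le_CC hy))
  · exact fun x hx => cent_Qm hx
  · intro x hx
    have hxC : x ∈ CC n := Subgroup.mem_centralizer_singleton_iff.2 hx
    rw [Subgroup.mem_normalizer_iff]
    intro h
    constructor
    · intro hh
      exact conj_mem_Qm hxC hh
    · intro hh
      have := conj_mem_Qm (inv_mem hxC) hh
      have e : x⁻¹ * (x * h * x⁻¹) * x⁻¹⁻¹ = h := by group
      rwa [e] at this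
  · rw [gS_conj]
    exact ⟨_, _, _, rfl⟩
  · rw [gS_conj]
    intro h
    have := (qel_inj h).1
    exact absurd this (by decide)

/-- An elementary abelian subgroup of order `2 ^ (n + 1)`. -/
def Em (n : ℕ) : Subgroup (GG n) where
  carrier := {g | ∃ c b, g = qel c 0 b}
  mul_mem' := by
    rintro _ _ ⟨c, b, rfl⟩ ⟨c', b', rfl⟩
    refine ⟨c' + c + 0 ⬝ᵥ b', b + b', ?_⟩
    rw [qel_mul, add_zero]
  one_mem' := ⟨0, 0, qel_zero.symm⟩
  inv_mem' := by
    rintro _ ⟨c, b, rfl⟩
    exact ⟨_, _, qel_inv _ _ _⟩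

theorem Em_le : Em n ≤ Qm n := by
  rintro _ ⟨c, b, rfl⟩
  exact ⟨_, _, _, rfl⟩

theorem ea_Em : Cfsg.IsElementaryAbelian 2 (Em n) := by
  refine ⟨⟨⟨?_⟩⟩, ?_⟩
  · rintro ⟨_, c, b, rfl⟩ ⟨_, c', b', rfl⟩
    apply Subtype.ext
    show qel c 0 b * qel c' 0 b' = qel c' 0 b' * qel c 0 b
    rw [qel_comm_iff]
    simp
  · rintro _ ⟨c, b, rfl⟩
    rw [qel_sq, zero_dotProduct]
    exact qel_zero

theorem card_Em : Nat.card (Em n) = 2 ^ (n + 1) := by
  let e : (ZMod 2 × (Fin n → ZMod 2)) → Em n :=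
    fun x => ⟨qel x.1 0 x.2, x.1, x.2, rfl⟩
  have he : Function.Bijective e := by
    constructor
    · rintro ⟨c, b⟩ ⟨c', b'⟩ h
      obtain ⟨h1, -, h3⟩ := qel_inj (congrArg Subtype.val h)
      exact Prod.ext h1 h3
    · rintro ⟨_, c, b, rfl⟩
      exact ⟨(c, b), rfl⟩
  rw [← Nat.card_eq_of_bijective e he, Nat.card_eq_fintype_card, Fintype.card_prod,
    Fintype.card_fun, ZMod.card, Fintype.card_fin]
  ring



/-- Let G be the special linear group of degree n + 2 over the field with two elements, n ≥ 2, let z be a transvection, and let Q be the largest normal 2-subgroup of the centralizer C of z. Then Q is extraspecial of order 2^(2n+1) with an elementary abelian subgroup of order 2^(n+1) (plus type), Q is a large extraspecial 2-subgroup of G, and C is the split extension of Q by the special linear group of degree n over the field with two elements. -/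
theorem result (n : ℕ) (hn : 2 ≤ n) (z : Matrix.SpecialLinearGroup (Fin (n + 2)) (ZMod 2)) (hz : (z : Matrix (Fin (n + 2)) (Fin (n + 2)) (ZMod 2)) = Matrix.transvection 0 1 1) (Q : Subgroup (Matrix.SpecialLinearGroup (Fin (n + 2)) (ZMod 2))) (hQ : Q = (Cfsg.pCore 2 ↥(Subgroup.centralizer ({z} : Set (Matrix.SpecialLinearGroup (Fin (n + 2)) (ZMod 2))))).map (Subgroup.centralizer ({z} : Set (Matrix.SpecialLinearGroup (Fin (n + 2)) (ZMod 2)))).subtype) : Cfsg.IsExtraspecial 2 ↥Q ∧ Nat.card ↥Q = 2 ^ (2 * n + 1) ∧ (∃ E : Subgroup (Matrix.SpecialLinearGroup (Fin (n + 2)) (ZMod 2)), E ≤ Q ∧ Cfsg.IsElementaryAbelian 2 E ∧ Nat.card ↥E = 2 ^ (n + 1)) ∧ Cfsg.IsLargeExtraspecial Q ∧ ∃ K : Subgroup (Matrix.SpecialLinearGroup (Fin (n + 2)) (ZMod 2)), K ≤ Subgroup.centralizer ({z} : Set (Matrix.SpecialLinearGroup (Fin (n + 2)) (ZMod 2))) ∧ Q ⊓ K = ⊥ ∧ Q ⊔ K = Subgroup.centralizer ({z} : Set (Matrix.SpecialLinearGroup (Fin (n + 2)) (ZMod 2))) ∧ Nonempty (↥K ≃* Matrix.SpecialLinearGroup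 (Fin n) (ZMod 2)) := by
  have hz0 : z = z0 n := ext_val (by rw [hz, transvection_eq]; rfl)
  subst hz0
  have hQ' : Q = Qm n := hQ.trans (core_eq (by omega))
  subst hQ'
  refine ⟨extra_Qm (by omega), card_Qm, ⟨Em n, Em_le, ea_Em, card_Em⟩, large_Qm hn, (sig n).range, ?_, ?_, ?_,
    ⟨(MonoidHom.ofInjective sig_injective).symm⟩⟩
  · rintro _ ⟨A, rfl⟩
    exact sig_mem A
  · rw [eq_bot_iff]
    rintro x ⟨⟨c, a, b, rfl⟩, ⟨A, hA⟩⟩
    have h1 := mat_inj (congrArg Subtype.val hA)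
    obtain ⟨rfl, rfl, rfl, -⟩ := h1
    exact qel_zero
  · apply le_antisymm
    · refine sup_le Qm_le_CC ?_
      rintro _ ⟨A, rfl⟩
      exact sig_mem A
    · intro x hx
      let A := rho n ⟨x, hx⟩
      have h1 : (⟨x, hx⟩ * ⟨sig n A, sig_mem A⟩⁻¹ : CC n) ∈ (rho n).ker := by
        rw [MonoidHom.mem_ker, map_mul, map_inv, rho_sig]
        exact mul_inv_cancel _
      have h2 := mem_ker_rho.1 h1
      have h3 : x = (x * (sig n A)⁻¹) * sig n A := by group
      rw [h3]
      exact Subgroup.mul_mem_sup h2 ⟨A, rfl⟩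

end Cfsg.Agent.S5424
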