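import Mathlib
import Cfsg.Statements.S5423
import Cfsg.Agent.S5424
import Cfsg.Agent.S5420
import Cfsg.Agent.Lib.CosetGraph2

set_option autoImplicit false
open Cfsg

namespace Cfsg.Agent.S5423

open Matrix Cfsg.Agent.S5424

variable {n : ℕ}

/-- The coordinate space of `U`. -/
abbrev W (n : ℕ) := ZMod 2 × (Fin n → ZMod 2)

section coord

variable {G : Type*} [Group G] [Finite G]

theorem exists_coord {U : Subgroup G} (hU : Cfsg.IsElementaryAbelian 2 U)
    (hcard : Nat.card U = 2 ^ (n + 1)) {a : G} (ha : a ∈ U) (ha1 : a ≠ 1) :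
    ∃ e : W n → G, (∀ w, e w ∈ U) ∧ (∀ x y, e (x + y) = e x * e y) ∧ Function.Injective e ∧
      (∀ u ∈ U, ∃ w, e w = u) ∧ e (1, 0) = a := by
  obtain ⟨hc, hsq⟩ := hU
  let cg : CommGroup U := { (inferInstance : Group U) with mul_comm := hc.is_comm.comm }
  let mod : Module (ZMod 2) (Additive U) := AddCommGroup.zmodModule (n := 2) (fun x => by
    have h1 : ((Additive.toMul x : U) : G) ^ 2 = 1 := hsq _ (Additive.toMul x).2
    apply Additive.toMul.injective
    rw [toMul_nsmul, toMul_zero]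
    exact Subtype.ext h1)
  have hfr : Module.finrank (ZMod 2) (Additive U) = n + 1 := by
    have h1 := Module.natCard_eq_pow_finrank (K := ZMod 2) (V := Additive U)
    have h2 : Nat.card (Additive U) = 2 ^ (n + 1) := hcard
    rw [h2, Nat.card_zmod] at h1
    exact (Nat.pow_right_injective (le_refl 2) h1).symm
  let a' : Additive U := Additive.ofMul ⟨a, ha⟩
  have ha' : a' ≠ 0 := by
    intro h
    apply ha1
    have : (⟨a, ha⟩ : U) = 1 := Additive.ofMul.injective h
    exact congrArg Subtype.val this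
  obtain ⟨H, hH⟩ := Submodule.exists_isCompl (Submodule.span (ZMod 2) {a'})
  have hfin : Module.finrank (ZMod 2) H = n := by
    have h1 := Submodule.finrank_add_eq_of_isCompl hH
    rw [finrank_span_singleton ha', hfr] at h1
    omega
  let bH := Module.finBasisOfFinrankEq (ZMod 2) H hfin
  let φ₁ := bH.equivFun.symm
  let φ₀ := LinearEquiv.toSpanNonzeroSingleton (ZMod 2) (Additive U) a' ha'
  let φ := (φ₀.prodCongr φ₁).trans (Submodule.prodEquivOfIsCompl _ _ hH)
  refine ⟨fun w => (((Additive.toMul (φ w)) : U) : G), fun w => (Additive.toMul (φ w)).2, ?_, ?_, ?_, ?_⟩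
  · intro x y
    show (((Additive.toMul (φ (x + y))) : U) : G) = _
    rw [map_add, toMul_add]
    rfl
  · intro x y h
    apply φ.injective
    apply Additive.toMul.injective
    exact Subtype.ext h
  · intro u hu
    refine ⟨φ.symm (Additive.ofMul ⟨u, hu⟩), ?_⟩
    show (((Additive.toMul (φ (φ.symm (Additive.ofMul ⟨u, hu⟩)))) : U) : G) = u
    rw [LinearEquiv.apply_symm_apply]
    rfl
  · have h1 : φ ((1 : ZMod 2), (0 : Fin n → ZMod 2)) = a' := by
      show (Submodule.prodEquivOfIsCompl _ _ hH) (φ₀ 1, φ₁ 0) = a'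
      rw [Submodule.coe_prodEquivOfIsCompl', map_zero]
      simp only [φ₀, ZeroMemClass.coe_zero, add_zero]
      rw [LinearEquiv.toSpanNonzeroSingleton_one]
    show (((Additive.toMul (φ ((1 : ZMod 2), (0 : Fin n → ZMod 2)))) : U) : G) = a
    rw [h1]
    rfl

end coord


/-- The linear part attached to a block matrix. -/
def Lm (X : Matrix (Fin (n + 2)) (Fin (n + 2)) (ZMod 2)) (w : W n) : W n :=
  (w.1 + (fun j => X 0 (s j)) ⬝ᵥ w.2, blk X *ᵥ w.2)

/-- The translation part attached to a block matrix. -/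
def tr (X : Matrix (Fin (n + 2)) (Fin (n + 2)) (ZMod 2)) : W n := (X 0 1, fun i => X (s i) 1)

theorem Lm_mat (c : ZMod 2) (a b : Fin n → ZMod 2) (A : Matrix (Fin n) (Fin n) (ZMod 2)) (w : W n) :
    Lm (mat c a b A) w = (w.1 + a ⬝ᵥ w.2, A *ᵥ w.2) := rfl

theorem tr_mat (c : ZMod 2) (a b : Fin n → ZMod 2) (A : Matrix (Fin n) (Fin n) (ZMod 2)) :
    tr (mat c a b A) = (c, b) := rfl

theorem Lm_mul_mat (c c' : ZMod 2) (a a' b b' : Fin n → ZMod 2) (A A' : Matrix (Fin n) (Fin n) (ZMod 2)) (w : W n) :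
    Lm (mat c a b A * mat c' a' b' A') w = Lm (mat c a b A) (Lm (mat c' a' b' A') w) := by
  rw [mat_mul, Lm_mat, Lm_mat, Lm_mat]
  simp only [Matrix.mulVec_mulVec]
  refine Prod.ext ?_ rfl
  show w.1 + (a' + a ᵥ* A') ⬝ᵥ w.2 = w.1 + a' ⬝ᵥ w.2 + a ⬝ᵥ (A' *ᵥ w.2)
  rw [add_dotProduct, Matrix.dotProduct_mulVec, add_assoc]

theorem tr_mul_mat (c c' : ZMod 2) (a a' b b' : Fin n → ZMod 2) (A A' : Matrix (Fin n) (Fin n) (ZMod 2)) :
    tr (mat c a b A * mat c' a' b' A') = tr (mat c a b A) + Lm (mat c a b A) (tr (mat c' a' b' A')) := by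
  rw [mat_mul, tr_mat, tr_mat, tr_mat, Lm_mat]
  refine Prod.ext ?_ rfl
  show c' + c + a ⬝ᵥ b' = c + (c' + a ⬝ᵥ b')
  ring

theorem Lm_add_mat (c : ZMod 2) (a b : Fin n → ZMod 2) (A : Matrix (Fin n) (Fin n) (ZMod 2)) (w w' : W n) :
    Lm (mat c a b A) (w + w') = Lm (mat c a b A) w + Lm (mat c a b A) w' := by
  rw [Lm_mat, Lm_mat, Lm_mat]
  refine Prod.ext ?_ ?_
  · show w.1 + w'.1 + a ⬝ᵥ (w.2 + w'.2) = w.1 + a ⬝ᵥ w.2 + (w'.1 + a ⬝ᵥ w'.2)
    rw [dotProduct_add]
    ring
  · show A *ᵥ (w.2 + w'.2) = A *ᵥ w.2 + A *ᵥ w'.2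
    rw [Matrix.mulVec_add]

theorem Lm_one (w : W n) : Lm (1 : Matrix (Fin (n + 2)) (Fin (n + 2)) (ZMod 2)) w = w := by
  rw [← mat_one, Lm_mat]
  simp

theorem rep_CC (x : CC n) : ∃ c a b A, ((x : GG n)).1 = mat c a b A := mem_CC.1 x.2

theorem Lm_mul_CC (x y : CC n) (w : W n) :
    Lm ((x * y : CC n) : GG n).1 w = Lm (x : GG n).1 (Lm (y : GG n).1 w) := by
  obtain ⟨c, a, b, A, h⟩ := rep_CC x
  obtain ⟨c', a', b', A', h'⟩ := rep_CC y
  show Lm ((x : GG n).1 * (y : GG n).1) w = _
  rw [h, h', Lm_mul_mat]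

theorem tr_mul_CC (x y : CC n) :
    tr ((x * y : CC n) : GG n).1 = tr (x : GG n).1 + Lm (x : GG n).1 (tr (y : GG n).1) := by
  obtain ⟨c, a, b, A, h⟩ := rep_CC x
  obtain ⟨c', a', b', A', h'⟩ := rep_CC y
  show tr ((x : GG n).1 * (y : GG n).1) = _
  rw [h, h', tr_mul_mat]

theorem Lm_add_CC (x : CC n) (w w' : W n) :
    Lm (x : GG n).1 (w + w') = Lm (x : GG n).1 w + Lm (x : GG n).1 w' := by
  obtain ⟨c, a, b, A, h⟩ := rep_CC x
  rw [h, Lm_add_mat]

/-- The linear part as an additive automorphism. -/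
def Lam (x : CC n) : W n ≃+ W n where
  toFun := Lm (x : GG n).1
  invFun := Lm ((x⁻¹ : CC n) : GG n).1
  left_inv w := by
    rw [← Lm_mul_CC, inv_mul_cancel]
    exact Lm_one w
  right_inv w := by
    rw [← Lm_mul_CC, mul_inv_cancel]
    exact Lm_one w
  map_add' := Lm_add_CC x

theorem Lam_apply (x : CC n) (w : W n) : Lam x w = Lm (x : GG n).1 w := rfl

section theta

variable {G : Type*} [Group G] [Finite G] {U M : Subgroup G} [U.Normal] {e : W n → G}

/-- Coordinates on `U`. -/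
structure Cd (U : Subgroup G) (e : W n → G) : Prop where
  mem : ∀ w, e w ∈ U
  add : ∀ x y, e (x + y) = e x * e y
  inj : Function.Injective e
  surj : ∀ u ∈ U, ∃ w, e w = u

theorem Cd.zero (h : Cd U e) : e 0 = 1 := by
  have := h.add 0 0
  rw [add_zero] at this
  exact (left_eq_mul.mp this)

theorem Cd.eq_one_iff (h : Cd U e) {w : W n} : e w = 1 ↔ w = 0 := by
  constructor
  · intro h1
    apply h.inj
    rw [h1, h.zero]
  · rintro rfl
    exact h.zero

theorem exists_m (h : Cd U e)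
    (hfull : ∀ φ : ↥U ≃* ↥U, ∃ m ∈ M, ∀ u : ↥U, ((φ u : ↥U) : G) = m * u * m⁻¹) (B : W n ≃+ W n) :
    ∃ m ∈ M, ∀ w, m * e w * m⁻¹ = e (B w) := by
  let e' : W n ≃ U := Equiv.ofBijective (fun w => ⟨e w, h.mem w⟩)
    ⟨fun x y hxy => h.inj (congrArg Subtype.val hxy), fun u => by
      obtain ⟨w, hw⟩ := h.surj u u.2
      exact ⟨w, Subtype.ext hw⟩⟩
  have he' : ∀ w, ((e' w : U) : G) = e w := fun _ => rfl
  have hsymm : ∀ u v : U, e'.symm (u * v) = e'.symm u + e'.symm v := by
    intro u v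
    apply e'.injective
    rw [Equiv.apply_symm_apply]
    apply Subtype.ext
    rw [he', h.add, ← he', ← he', Equiv.apply_symm_apply, Equiv.apply_symm_apply]
    rfl
  let φ : U ≃* U :=
    { toFun := fun u => e' (B (e'.symm u))
      invFun := fun u => e' (B.symm (e'.symm u))
      left_inv := fun u => by simp
      right_inv := fun u => by simp
      map_mul' := fun u v => by
        rw [hsymm, map_add]
        apply Subtype.ext
        rw [he', h.add]
        rfl }
  obtain ⟨m, hm, hφ⟩ := hfull φ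
  refine ⟨m, hm, fun w => ?_⟩
  have := hφ (e' w)
  have h2 : φ (e' w) = e' (B w) := by
    show e' (B (e'.symm (e' w))) = _
    rw [Equiv.symm_apply_apply]
  rw [h2, he', he'] at this
  exact this.symm

theorem m_unique (h : Cd U e)
    (hfaith : ∀ m ∈ M, (∀ u ∈ U, m * u * m⁻¹ = u) → m = 1) {m m' : G} (hm : m ∈ M) (hm' : m' ∈ M)
    (hh : ∀ w, m * e w * m⁻¹ = m' * e w * m'⁻¹) : m = m' := by
  have h1 := hfaith (m'⁻¹ * m) (M.mul_mem (inv_mem hm') hm) (by
    intro u hu
    obtain ⟨w, rfl⟩ := h.surj u hu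
    have := hh w
    calc m'⁻¹ * m * e w * (m'⁻¹ * m)⁻¹ = m'⁻¹ * (m * e w * m⁻¹) * m' := by group
      _ = m'⁻¹ * (m' * e w * m'⁻¹) * m' := by rw [this]
      _ = e w := by group)
  have h2 : m = m' * (m'⁻¹ * m) := by group
  rw [h2, h1, mul_one]

theorem eq_one_of_mulVec {X : Matrix (Fin n) (Fin n) (ZMod 2)} (h : ∀ v, X *ᵥ v = v) : X = 1 := by
  ext i j
  have h1 := congrFun (h (Pi.single j 1)) i
  rw [Matrix.mulVec_single_one] at h1
  have h9 : (X.col j) i = X i j := rfl
  rw [Matrix.one_apply, ← h9, h1]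
  simp [Pi.single_apply]

theorem form_of_add (B : W n →+ W n) (hB : B (1, 0) = (1, 0)) (w : W n) :
    B w = (w.1 + (fun j => (B (0, Pi.single j 1)).1) ⬝ᵥ w.2,
      (Matrix.of fun i j => (B (0, Pi.single j 1)).2 i) *ᵥ w.2) := by
  set f : Fin n → ZMod 2 := fun j => (B (0, Pi.single j 1)).1 with hf
  set A : Matrix (Fin n) (Fin n) (ZMod 2) := Matrix.of fun i j => (B (0, Pi.single j 1)).2 i with hA
  let φ₁ : (Fin n → ZMod 2) →+ W n := B.comp (AddMonoidHom.inr _ _)
  let φ₂ : (Fin n → ZMod 2) →+ W n :=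
    { toFun := fun v => (f ⬝ᵥ v, A *ᵥ v)
      map_zero' := by simp
      map_add' := fun v v' => by
        refine Prod.ext ?_ ?_
        · show f ⬝ᵥ (v + v') = f ⬝ᵥ v + f ⬝ᵥ v'
          exact dotProduct_add _ _ _
        · show A *ᵥ (v + v') = A *ᵥ v + A *ᵥ v'
          exact Matrix.mulVec_add _ _ _ }
  have h12 : φ₁ = φ₂ := by
    apply AddMonoidHom.functions_ext
    intro j x
    have hx : x = 0 ∨ x = 1 := by revert x; decide
    rcases hx with rfl | rfl
    · rw [Pi.single_zero, map_zero, map_zero]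
    · show B (0, Pi.single j 1) = (f ⬝ᵥ Pi.single j 1, A *ᵥ Pi.single j 1)
      refine Prod.ext ?_ ?_
      · simp [hf]
      · funext i
        simp [hA]
  have h1 : ∀ x : ZMod 2, B (x, 0) = (x, 0) := by
    intro x
    have hx : x = 0 ∨ x = 1 := by revert x; decide
    rcases hx with rfl | rfl
    · exact map_zero B
    · exact hB
  have h2 : w = (w.1, 0) + (0, w.2) := by
    refine Prod.ext ?_ ?_ <;> simp
  have h3 : B (0, w.2) = (f ⬝ᵥ w.2, A *ᵥ w.2) := DFunLike.congr_fun h12 w.2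
  conv_lhs => rw [h2, map_add, h1, h3]
  refine Prod.ext ?_ ?_ <;> simp

theorem exists_theta (h : Cd U e) (hUM : U ⊓ M = ⊥) (hUM' : U ⊔ M = ⊤)
    (hfaith : ∀ m ∈ M, (∀ u ∈ U, m * u * m⁻¹ = u) → m = 1)
    (hfull : ∀ φ : ↥U ≃* ↥U, ∃ m ∈ M, ∀ u : ↥U, ((φ u : ↥U) : G) = m * u * m⁻¹)
    (hUc : ∀ x ∈ U, ∀ y ∈ U, x * y = y * x) :
    ∃ Θ : CC n →* G, Function.Injective Θ ∧
      Θ.range = Subgroup.centralizer ({e (1, 0)} : Set G) ∧
      ∀ hz, Θ ⟨z0 n, hz⟩ = e (1, 0) := by
  classical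
  choose mB hmB hmB' using exists_m (M := M) h hfull
  have hLam : ∀ x y : CC n, mB (Lam (x * y)) = mB (Lam x) * mB (Lam y) := by
    intro x y
    apply m_unique h hfaith (hmB _) (M.mul_mem (hmB _) (hmB _))
    intro w
    rw [hmB']
    have e1 : mB (Lam x) * mB (Lam y) * e w * (mB (Lam x) * mB (Lam y))⁻¹ =
        mB (Lam x) * (mB (Lam y) * e w * (mB (Lam y))⁻¹) * (mB (Lam x))⁻¹ := by group
    rw [e1, hmB', hmB', Lam_apply, Lam_apply, Lam_apply, Lm_mul_CC]
  let Θ : CC n →* G := MonoidHom.mk' (fun x => e (tr (x : GG n).1) * mB (Lam x)) (by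
    intro x y
    show e (tr ((x * y : CC n) : GG n).1) * mB (Lam (x * y)) = _
    rw [tr_mul_CC, h.add, hLam, ← Lam_apply, ← hmB' (Lam x)]
    group)
  have hΘ : ∀ x, Θ x = e (tr (x : GG n).1) * mB (Lam x) := fun _ => rfl
  refine ⟨Θ, ?_, ?_, ?_⟩
  · rw [injective_iff_map_eq_one]
    intro x hx
    rw [hΘ] at hx
    have h1 : e (tr (x : GG n).1) = (mB (Lam x))⁻¹ := eq_inv_of_mul_eq_one_left hx
    have h2 : e (tr (x : GG n).1) ∈ U ⊓ M := ⟨h.mem _, by rw [h1]; exact M.inv_mem (hmB _)⟩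
    rw [hUM, Subgroup.mem_bot] at h2
    have h3 : mB (Lam x) = 1 := by
      rw [h2] at hx
      simpa using hx
    have h4 : tr (x : GG n).1 = 0 := h.eq_one_iff.1 h2
    have h5 : ∀ w, Lam x w = w := by
      intro w
      have := hmB' (Lam x) w
      rw [h3] at this
      apply h.inj
      rw [← this]
      group
    obtain ⟨c, a, b, A, hrep⟩ := rep_CC x
    rw [hrep, tr_mat] at h4
    have hc : c = 0 := congrArg Prod.fst h4
    have hb : b = 0 := congrArg Prod.snd h4
    have h6 : ∀ j, a j = 0 ∧ A *ᵥ Pi.single j 1 = Pi.single j 1 := by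
      intro j
      have := h5 (0, Pi.single j 1)
      rw [Lam_apply, hrep, Lm_mat] at this
      have h7 := congrArg Prod.fst this
      have h8 := congrArg Prod.snd this
      simp only [zero_add, dotProduct_single, mul_one] at h7
      exact ⟨h7, h8⟩
    have ha : a = 0 := funext fun j => (h6 j).1
    have hA : A = 1 := by
      ext i j
      have := congrFun (h6 j).2 i
      rw [Matrix.mulVec_single_one] at this
      show A i j = _
      rw [Matrix.one_apply]
      have h9 : (A.col j) i = A i j := rfl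
      rw [← h9, this]
      simp [Pi.single_apply]
    apply Subtype.ext
    apply Subtype.ext
    show (x : GG n).1 = 1
    rw [hrep, hc, ha, hb, hA]
    exact mat_one
  · ext g
    rw [Subgroup.mem_centralizer_singleton_iff, MonoidHom.mem_range]
    constructor
    · rintro ⟨x, rfl⟩
      rw [hΘ]
      have h1 : mB (Lam x) * e (1, 0) * (mB (Lam x))⁻¹ = e (1, 0) := by
        rw [hmB', Lam_apply]
        obtain ⟨c, a, b, A, hrep⟩ := rep_CC x
        rw [hrep, Lm_mat]
        simp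
      have h2 : mB (Lam x) * e (1, 0) = e (1, 0) * mB (Lam x) := by
        rw [← mul_inv_eq_iff_eq_mul]
        exact h1
      rw [mul_assoc, h2, ← mul_assoc, hUc _ (h.mem _) _ (h.mem _), mul_assoc]
    · intro hg
      have hg1 : g ∈ ((U ⊔ M : Subgroup G) : Set G) := by
        rw [hUM']
        trivial
      rw [Subgroup.normal_mul] at hg1
      obtain ⟨u, hu, m, hm, rfl⟩ := Set.mem_mul.1 hg1
      have hU' : U.Normal := inferInstance
      have hma : m * e (1, 0) = e (1, 0) * m := by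
        have h1 : u * e (1, 0) = e (1, 0) * u := hUc _ hu _ (h.mem _)
        apply mul_left_cancel (a := u)
        calc u * (m * e (1, 0)) = u * m * e (1, 0) := by group
          _ = e (1, 0) * (u * m) := hg
          _ = (e (1, 0) * u) * m := by group
          _ = (u * e (1, 0)) * m := by rw [h1]
          _ = u * (e (1, 0) * m) := by group
      have hma' : m⁻¹ * e (1, 0) = e (1, 0) * m⁻¹ := by
        have h3 : m⁻¹ * e (1, 0) = m⁻¹ * (e (1, 0) * m) * m⁻¹ := by group
        rw [h3, ← hma]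
        group
      have hx1 : ∀ w, ∃ w', e w' = m * e w * m⁻¹ := fun w =>
        h.surj _ (hU'.conj_mem _ (h.mem w) m)
      have hx2 : ∀ w, ∃ w', e w' = m⁻¹ * e w * m := fun w => by
        have := hU'.conj_mem _ (h.mem w) m⁻¹
        rw [inv_inv] at this
        exact h.surj _ this
      choose B hB using hx1
      choose B' hB' using hx2
      have hadd : ∀ x y, B (x + y) = B x + B y := by
        intro x y
        apply h.inj
        rw [h.add, hB, hB, hB, h.add]
        group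
      have hadd' : ∀ x y, B' (x + y) = B' x + B' y := by
        intro x y
        apply h.inj
        rw [h.add, hB', hB', hB', h.add]
        group
      have hBB' : ∀ w, B (B' w) = w := by
        intro w
        apply h.inj
        rw [hB, hB']
        group
      have hB10 : B (1, 0) = (1, 0) := by
        apply h.inj
        rw [hB, hma]
        group
      have hB'10 : B' (1, 0) = (1, 0) := by
        apply h.inj
        rw [hB', hma']
        group
      have hF := form_of_add (AddMonoidHom.mk' B hadd) hB10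
      have hF' := form_of_add (AddMonoidHom.mk' B' hadd') hB'10
      simp only [AddMonoidHom.mk'_apply] at hF hF'
      set f : Fin n → ZMod 2 := fun j => (B (0, Pi.single j 1)).1 with hf
      set A : Matrix (Fin n) (Fin n) (ZMod 2) := Matrix.of fun i j => (B (0, Pi.single j 1)).2 i with hA
      set f' : Fin n → ZMod 2 := fun j => (B' (0, Pi.single j 1)).1 with hf'
      set A' : Matrix (Fin n) (Fin n) (ZMod 2) := Matrix.of fun i j => (B' (0, Pi.single j 1)).2 i with hA'
      have hAA : A * A' = 1 := by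
        apply eq_one_of_mulVec
        intro v
        have h1 := hBB' (0, v)
        rw [hF, hF'] at h1
        rw [← Matrix.mulVec_mulVec]
        exact congrArg Prod.snd h1
      obtain ⟨w, hw⟩ := h.surj u hu
      have hX : mat w.1 f w.2 A * mat (w.1 + f ⬝ᵥ (A' *ᵥ w.2)) (f ᵥ* A') (A' *ᵥ w.2) A' = 1 := by
        rw [mat_mul, ← mat_one]
        have h1 : w.1 + f ⬝ᵥ (A' *ᵥ w.2) + w.1 + f ⬝ᵥ (A' *ᵥ w.2) = 0 := by
          generalize f ⬝ᵥ (A' *ᵥ w.2) = x
          generalize w.1 = y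
          revert x y
          decide
        rw [h1, hAA, add_self_fun, Matrix.mulVec_mulVec, hAA, Matrix.one_mulVec, add_self_fun]
      let x : GG n := ⟨mat w.1 f w.2 A, det_of_mul hX⟩
      have hxC : x ∈ CC n := mem_CC.2 ⟨_, _, _, _, rfl⟩
      refine ⟨⟨x, hxC⟩, ?_⟩
      rw [hΘ]
      have h1 : tr ((⟨x, hxC⟩ : CC n) : GG n).1 = w := rfl
      rw [h1, hw]
      congr 1
      apply m_unique h hfaith (hmB _) hm
      intro w'
      rw [hmB', Lam_apply]
      show e (Lm (mat w.1 f w.2 A) w') = _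
      rw [Lm_mat, ← hF, hB]
  · intro hz
    rw [hΘ]
    have h1 : mB (Lam ⟨z0 n, hz⟩) = 1 := by
      apply m_unique h hfaith (hmB _) M.one_mem
      intro w
      rw [hmB', Lam_apply]
      show e (Lm (mat 1 0 0 1) w) = _
      rw [Lm_mat]
      simp
    rw [h1, mul_one]
    rfl

end theta


/-- Over the field with two elements the special linear and general linear groups agree. -/
noncomputable def slGl (n : ℕ) :
    Matrix.SpecialLinearGroup (Fin n) (ZMod 2) ≃* Matrix.GeneralLinearGroup (Fin n) (ZMod 2) :=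
  MulEquiv.ofBijective (Matrix.SpecialLinearGroup.toGL) ⟨Matrix.SpecialLinearGroup.toGL_injective, by
    intro g
    have h1 : IsUnit ((g : Matrix (Fin n) (Fin n) (ZMod 2))).det := Matrix.isUnits_det_units g
    have h2 : ((g : Matrix (Fin n) (Fin n) (ZMod 2))).det = 1 := by
      rcases zmod2_cases ((g : Matrix (Fin n) (Fin n) (ZMod 2))).det with h | h
      · rw [h] at h1
        exact absurd h1 not_isUnit_zero
      · exact h
    refine ⟨⟨g, h2⟩, ?_⟩
    apply Units.ext
    rfl⟩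

/-- The section into the centralizer. -/
def sigC (n : ℕ) : Matrix.SpecialLinearGroup (Fin n) (ZMod 2) →* CC n :=
  (sig n).codRestrict (CC n) sig_mem

theorem sigC_injective : Function.Injective (sigC n) := fun _ _ h =>
  sig_injective (congrArg Subtype.val h)



/-- Let G be a finite group that is the split extension of an elementary abelian normal subgroup U of order 2^(n+1), n ≥ 1, by its full automorphism group: U has a complement M in G whose conjugation action on U is faithful and realizes every automorphism of U. Let Z be a subgroup of U of order 2 and Q the largest normal 2-subgroup of the centralizer C of Z. Then Q is extraspecial of order 2^(2n+1) with an elementary abelian subgroup of order 2^(n+1) (plus type), Q is a large extraspecial 2-subgroup of G, and C is the split extension of Q by the general linear group of degree n over the field with two elements. -/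
theorem result {G : Type*} [Group G] [Finite G] (n : ℕ) (hn : 1 ≤ n) (U M : Subgroup G) [U.Normal] (hU : Cfsg.IsElementaryAbelian 2 U) (hUcard : Nat.card ↥U = 2 ^ (n + 1)) (hUM : U ⊓ M = ⊥) (hUM' : U ⊔ M = ⊤) (hfaith : ∀ m ∈ M, (∀ u ∈ U, m * u * m⁻¹ = u) → m = 1) (hfull : ∀ φ : ↥U ≃* ↥U, ∃ m ∈ M, ∀ u : ↥U, ((φ u : ↥U) : G) = m * u * m⁻¹) (Z : Subgroup G) (hZU : Z ≤ U) (hZ : Nat.card ↥Z = 2) (Q : Subgroup G) (hQ : Q = (Cfsg.pCore 2 ↥(Subgroup.centralizer (Z : Set G))).map (Subgroup.centralizer (Z : Set G)).subtype) : Cfsg.IsExtraspecial 2 ↥Q ∧ Nat.card ↥Q = 2 ^ (2 * n + 1) ∧ (∃ E : Subgroup G, E ≤ Q ∧ Cfsg.IsElementaryAbelian 2 E ∧ Nat.card ↥E = 2 ^ (n + 1)) ∧ Cfsg.IsLargeExtraspecial Q ∧ ∃ K : Subgroup G, K ≤ Subgroup.centralizer (Z : Set G) ∧ Q ⊓ K = ⊥ ∧ Q ⊔ K = Subgroup.centralizer (Z : Set G) ∧ Nonempty (↥K ≃* Matrix.GeneralLinearGroup (Fin n) (ZMod 2)) := by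
  have hp : Fact (Nat.Prime 2) := ⟨Nat.prime_two⟩
  obtain ⟨a', ha1', hau⟩ := (Nat.card_eq_two_iff' (1 : Z)).mp hZ
  have haZ : (a' : G) ∈ Z := a'.2
  have ha1 : (a' : G) ≠ 1 := fun h => ha1' (Subtype.ext h)
  have hZmem : ∀ x ∈ Z, x = 1 ∨ x = (a' : G) := by
    intro x hx
    by_cases h1 : (⟨x, hx⟩ : Z) = 1
    · left
      exact congrArg Subtype.val h1
    · right
      exact congrArg Subtype.val (hau _ h1)
  have hcen : Subgroup.centralizer (Z : Set G) = Subgroup.centralizer ({(a' : G)} : Set G) := by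
    ext g
    rw [Subgroup.mem_centralizer_iff, Subgroup.mem_centralizer_singleton_iff]
    constructor
    · intro h
      exact (h _ haZ).symm
    · intro h x hx
      rcases hZmem x hx with rfl | rfl
      · simp
      · exact h.symm
  obtain ⟨e, he1, he2, he3, he4, he5⟩ := exists_coord (n := n) hU hUcard (hZU haZ) ha1
  have hCd : Cd U e := ⟨he1, he2, he3, he4⟩
  have hUc : ∀ x ∈ U, ∀ y ∈ U, x * y = y * x := by
    intro x hx y hy
    have := hU.1.is_comm.comm (⟨x, hx⟩ : U) ⟨y, hy⟩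
    exact congrArg Subtype.val this
  obtain ⟨Θ, hinj, hrange, hz⟩ := exists_theta (M := M) hCd hUM hUM' hfaith hfull hUc
  rw [he5] at hrange hz
  have hn0 : 1 ≤ n := hn
  -- membership
  have hC : ∀ g, g ∈ Subgroup.centralizer (Z : Set G) ↔ ∃ x, Θ x = g := by
    intro g
    rw [hcen, ← hrange, MonoidHom.mem_range]
  let ΘC : CC n ≃* Subgroup.centralizer (Z : Set G) :=
    (MonoidHom.ofInjective hinj).trans (MulEquiv.subgroupCongr (hrange.trans hcen.symm))
  have hΘC : ∀ x, ((ΘC x : Subgroup.centralizer (Z : Set G)) : G) = Θ x := fun _ => rfl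
  have hcore : ∀ x : CC n, x ∈ Cfsg.pCore 2 (CC n) ↔ (x : GG n) ∈ Qm n := by
    intro x
    rw [← core_eq hn0]
    constructor
    · intro h
      exact ⟨x, h, rfl⟩
    · rintro ⟨y, hy, hyx⟩
      have : y = x := Subtype.ext hyx
      rwa [← this]
  have hQmem : ∀ g, g ∈ Q ↔ ∃ x : CC n, (x : GG n) ∈ Qm n ∧ Θ x = g := by
    intro g
    rw [hQ, ← Cfsg.Agent.Lib.CosetGraph2.pCore_map_equiv 2 ΘC]
    constructor
    · rintro ⟨_, ⟨x, hx, rfl⟩, rfl⟩
      exact ⟨x, (hcore x).1 hx, rfl⟩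
    · rintro ⟨x, hx, rfl⟩
      exact ⟨ΘC x, ⟨x, (hcore x).2 hx, rfl⟩, rfl⟩
  let Θq : Qm n →* G := Θ.comp (Subgroup.inclusion Qm_le_CC)
  have hΘq : ∀ x, Θq x = Θ ⟨x, Qm_le_CC x.2⟩ := fun _ => rfl
  have hqinj : Function.Injective Θq := fun x y h => by
    have h1 : (Subgroup.inclusion Qm_le_CC x : CC n) = Subgroup.inclusion Qm_le_CC y := hinj h
    exact Subtype.ext (congrArg (fun t : CC n => (t : GG n)) h1)
  have hQrange : Q = Θq.range := by
    ext g
    rw [hQmem, MonoidHom.mem_range]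
    constructor
    · rintro ⟨x, hx, rfl⟩
      exact ⟨⟨x, hx⟩, rfl⟩
    · rintro ⟨x, rfl⟩
      exact ⟨⟨x, Qm_le_CC x.2⟩, x.2, rfl⟩
  have hzQ : z0 n ∈ CC n := Qm_le_CC ⟨1, 0, 0, rfl⟩
  have haQ : (a' : G) ∈ Q := by
    rw [hQmem]
    exact ⟨⟨z0 n, hzQ⟩, ⟨1, 0, 0, rfl⟩, hz hzQ⟩
  have hEx : Cfsg.IsExtraspecial 2 Q := by
    rw [hQrange]
    exact Cfsg.Agent.Lib.LargeCent.isExtraspecial_of_equiv (MonoidHom.ofInjective hqinj) (extra_Qm hn0)
  have hQC : Q ≤ Subgroup.centralizer (Z : Set G) := by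
    intro g hg
    obtain ⟨x, -, rfl⟩ := (hQmem g).1 hg
    exact (hC _).2 ⟨x, rfl⟩
  -- centralizer of `Q`
  have hcent : ∀ g, g ∈ Subgroup.centralizer (Q : Set G) ↔ g ∈ Z := by
    intro g
    constructor
    · intro hg
      have h1 : g ∈ Subgroup.centralizer (Z : Set G) := by
        rw [hcen, Subgroup.mem_centralizer_singleton_iff]
        exact (Subgroup.mem_centralizer_iff.1 hg _ haQ).symm
      obtain ⟨x, rfl⟩ := (hC _).1 h1
      have h2 : ∀ y ∈ Qm n, y * (x : GG n) = (x : GG n) * y := by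
        intro y hy
        have h3 := Subgroup.mem_centralizer_iff.1 hg (Θ ⟨y, Qm_le_CC hy⟩)
          ((hQmem _).2 ⟨_, hy, rfl⟩)
        rw [← map_mul, ← map_mul] at h3
        exact congrArg Subtype.val (hinj h3)
      rcases cent_Qm h2 with h3 | h3
      · have : x = 1 := Subtype.ext h3
        rw [this, map_one]
        exact Z.one_mem
      · have : x = ⟨z0 n, hzQ⟩ := Subtype.ext h3
        rw [this, hz]
        exact haZ
    · intro hg
      rw [Subgroup.mem_centralizer_iff]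
      intro h hh
      exact (Subgroup.mem_centralizer_iff.1 (hQC hh) g hg).symm
  have hcenterQ : (Subgroup.center Q).map Q.subtype = Z := by
    ext g
    constructor
    · rintro ⟨x, hx, rfl⟩
      rw [← hcent, Subgroup.mem_centralizer_iff]
      intro h hh
      exact congrArg Subtype.val (Subgroup.mem_center_iff.1 hx ⟨h, hh⟩)
    · intro hg
      have hgQ : g ∈ Q := by
        rcases hZmem g hg with rfl | rfl
        · exact Q.one_mem
        · exact haQ
      refine ⟨⟨g, hgQ⟩, Subgroup.mem_center_iff.2 ?_, rfl⟩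
      rintro ⟨h, hh⟩
      apply Subtype.ext
      exact (Subgroup.mem_centralizer_iff.1 ((hcent g).2 hg) h hh)
  have hLarge : Cfsg.IsLargeExtraspecial Q := by
    refine Cfsg.Agent.S5420.result Q hEx ?_ ?_ ?_
    · rw [hcenterQ]
      ext g
      exact hcent g
    · rw [hcenterQ]
      intro g hg
      obtain ⟨x, rfl⟩ := (hC _).1 hg
      rw [Subgroup.mem_normalizer_iff]
      have hconj : ∀ (x : CC n) (y : CC n), (y : GG n) ∈ Qm n → Θ x * Θ y * (Θ x)⁻¹ ∈ Q := by
        intro x y hy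
        rw [← map_inv, ← map_mul, ← map_mul, hQmem]
        exact ⟨_, conj_mem_Qm x.2 hy, rfl⟩
      intro h
      constructor
      · intro hh
        obtain ⟨y, hy, rfl⟩ := (hQmem _).1 hh
        exact hconj x y hy
      · intro hh
        obtain ⟨y, hy, hy'⟩ := (hQmem _).1 hh
        have h1 : h = Θ x⁻¹ * Θ y * (Θ x⁻¹)⁻¹ := by
          rw [hy', map_inv]
          group
        rw [h1]
        exact hconj _ y hy
    · rw [hcenterQ]
      exact hZU.trans (Cfsg.Agent.Lib.PCore.le_pCore inferInstance (IsPGroup.of_card hUcard))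
  refine ⟨hEx, ?_, ?_, hLarge, ?_⟩
  · rw [hQrange]
    rw [← card_Qm]
    exact (Nat.card_congr (MonoidHom.ofInjective hqinj).toEquiv).symm
  · refine ⟨((Em n).subgroupOf (Qm n)).map Θq, ?_, ?_, ?_⟩
    · rw [hQrange]
      rintro _ ⟨x, _, rfl⟩
      exact ⟨x, rfl⟩
    · refine ⟨⟨⟨?_⟩⟩, ?_⟩
      · rintro ⟨_, x, hx, rfl⟩ ⟨_, y, hy, rfl⟩
        apply Subtype.ext
        show Θq x * Θq y = Θq y * Θq x
        rw [← map_mul, ← map_mul]
        congr 1
        have := (ea_Em (n := n)).1.is_comm.comm (⟨x, hx⟩ : Em n) ⟨y, hy⟩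
        have h5 : (x : GG n) * y = y * x := congrArg (fun t : Em n => (t : GG n)) this
        exact Subtype.ext h5
      · rintro _ ⟨x, hx, rfl⟩
        rw [← map_pow]
        have h1 := (ea_Em (n := n)).2 _ hx
        have h2 : x ^ 2 = 1 := Subtype.ext h1
        rw [h2, map_one]
    · rw [Subgroup.card_map_of_injective hqinj, ← card_Em (n := n)]
      exact Nat.card_congr (Subgroup.subgroupOfEquivOfLe Em_le).toEquiv
  · refine ⟨(Θ.comp (sigC n)).range, ?_, ?_, ?_, ?_⟩
    · rintro _ ⟨A, rfl⟩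
      exact (hC _).2 ⟨_, rfl⟩
    · rw [eq_bot_iff]
      rintro g ⟨hg, ⟨A, hA⟩⟩
      obtain ⟨x, hx, rfl⟩ := (hQmem g).1 hg
      have h1 : sigC n A = x := hinj hA
      obtain ⟨c, a, b, hx'⟩ := hx
      have h2 : qel c a b = sig n A := by
        rw [← hx']
        exact (congrArg Subtype.val h1).symm
      have h3 := mat_inj (congrArg Subtype.val h2)
      obtain ⟨rfl, rfl, rfl, -⟩ := h3
      have h4 : x = 1 := Subtype.ext (hx'.trans qel_zero)
      rw [h4, map_one]
      exact Subgroup.one_mem _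
    · apply le_antisymm
      · refine sup_le hQC ?_
        rintro _ ⟨A, rfl⟩
        exact (hC _).2 ⟨_, rfl⟩
      · intro g hg
        obtain ⟨x, rfl⟩ := (hC _).1 hg
        let A := rho n x
        have h1 : (x * (sigC n A)⁻¹) ∈ (rho n).ker := by
          rw [MonoidHom.mem_ker, map_mul, map_inv]
          have : rho n (sigC n A) = A := rho_sig A
          rw [this]
          exact mul_inv_cancel _
        have h2 := mem_ker_rho.1 h1
        have h3 : x = (x * (sigC n A)⁻¹) * sigC n A := by group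
        rw [h3, map_mul]
        exact Subgroup.mul_mem_sup ((hQmem _).2 ⟨_, h2, rfl⟩) ⟨A, rfl⟩
    · have hi : Function.Injective (Θ.comp (sigC n)) := hinj.comp sigC_injective
      exact ⟨(MonoidHom.ofInjective hi).symm.trans (slGl n)⟩

end Cfsg.Agent.S5423
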