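import Mathlib
import Cfsg.Statements.S5427
import Cfsg.Agent.Lib.LargeCent

set_option autoImplicit false
open Cfsg

namespace Cfsg.Agent.S5427

/-- Let z be an involution of the finite group G whose centralizer C has generalized Fitting subgroup Q, an extraspecial 2-group of width at least 2 (order 2^(2w+1), w ≥ 2). Let K be a subgroup of G such that the subgroup U generated by the K-conjugates of z is abelian and C is generated by the C-conjugates of U. Suppose that either some K-conjugate of z other than z lies in Q, or some element u of U ∩ Q outside the subgroup generated by z has z in the largest normal 2-subgroup of its centralizer. Then G is simple and Q is a large extraspecial 2-subgroup of G. -/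
theorem result {G : Type*} [Group G] [Finite G] (z : G) (hz : orderOf z = 2) (Q : Subgroup G) (hQC : Q ≤ Subgroup.centralizer ({z} : Set G)) (hF : (Cfsg.generalizedFittingSubgroup ↥(Subgroup.centralizer ({z} : Set G))).map (Subgroup.centralizer ({z} : Set G)).subtype = Q) (hQ : Cfsg.IsExtraspecial 2 ↥Q) (w : ℕ) (hw : 2 ≤ w) (hcard : Nat.card ↥Q = 2 ^ (2 * w + 1)) (K U : Subgroup G) (hU : U = Subgroup.closure {x : G | ∃ k ∈ K, x = k * z * k⁻¹}) (hUab : IsMulCommutative ↥U) (hgen : Subgroup.closure {x : G | ∃ c ∈ Subgroup.centralizer ({z} : Set G), ∃ u ∈ U, x = c * u * c⁻¹} = Subgroup.centralizer ({z} : Set G)) (h3 : (∃ k ∈ K, k * z * k⁻¹ ∈ Q ∧ k * z * k⁻¹ ≠ z) ∨ ∃ u ∈ U ⊓ Q, u ∉ Subgroup.zpowers z ∧ (∃ hz' : z ∈ Subgroup.centralizer ({u} : Set G), (⟨z, hz'⟩ : ↥(Subgroup.centralizer ({u} : Set G))) ∈ Cfsg.pCore 2 ↥(Subgroup.centralizer ({u} : Set G)))) : IsSimpleGroup G ∧ Cfsg.IsLargeExtraspecial Q := by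
  obtain ⟨hL2, hZ, hL3, hS⟩ := Cfsg.Agent.Lib.LargeCent.of_centralizer hz hF hQ
  have hlarge : Cfsg.IsLargeExtraspecial Q := by
    rcases h3 with ⟨k, -, hk1, hk2⟩ | ⟨u, huUQ, huz, hz', hcore⟩
    · exact Cfsg.Agent.Lib.LargeCent.large_of_conj hz hF hQ w hw hcard k hk1 hk2
    · have hU2 : ∀ x ∈ U, x * x = 1 := by
        intro x hx
        rw [hU] at hx
        induction hx using Subgroup.closure_induction with
        | mem x hx =>
          obtain ⟨k, -, rfl⟩ := hx
          have h1 : z * z = 1 := by rw [← pow_two, ← hz]; exact pow_orderOf_eq_one z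
          calc k * z * k⁻¹ * (k * z * k⁻¹) = k * (z * z) * k⁻¹ := by group
            _ = 1 := by rw [h1]; group
        | one => simp
        | mul x y hx hy h1 h2 =>
          have hx' : x ∈ U := hU ▸ hx
          have hy' : y ∈ U := hU ▸ hy
          have h3 : y * x = x * y :=
            congrArg Subtype.val (hUab.is_comm.comm (⟨y, hy'⟩ : U) ⟨x, hx'⟩)
          calc x * y * (x * y) = x * (y * x) * y := by group
            _ = x * (x * y) * y := by rw [h3]
            _ = (x * x) * (y * y) := by group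
            _ = 1 := by rw [h1, h2]; simp
        | inv x hx h1 =>
          have h2 : x⁻¹ = x := inv_eq_of_mul_eq_one_left h1
          rw [h2]; exact h1
      have hu1 : u ≠ 1 := by
        rintro rfl
        exact huz (Subgroup.one_mem _)
      have hu2 : orderOf u = 2 :=
        orderOf_eq_prime (by rw [pow_two]; exact hU2 u huUQ.1) hu1
      refine Cfsg.Agent.S5421.result Q hQ hL2 hL3 u huUQ.2 (hZ ▸ huz) hu2 ?_
      rw [hZ, Subgroup.zpowers_le]
      exact ⟨⟨z, hz'⟩, hcore, rfl⟩
  refine ⟨?_, hlarge⟩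
  apply Cfsg.Agent.Lib.LargeCent.simple_of_cz_le hlarge hS
  have hMn : (Subgroup.normalClosure ({z} : Set G)).Normal := Subgroup.normalClosure_normal
  have hzM : z ∈ Subgroup.normalClosure ({z} : Set G) := Subgroup.subset_normalClosure (by simp)
  have hUM : U ≤ Subgroup.normalClosure ({z} : Set G) := by
    rw [hU, Subgroup.closure_le]
    rintro _ ⟨k, -, rfl⟩
    exact hMn.conj_mem z hzM k
  rw [← hgen]
  conv_lhs => rw [hgen]
  rw [← hgen, Subgroup.closure_le]
  rintro _ ⟨c, -, u, hu, rfl⟩
  exact hMn.conj_mem u (hUM hu) c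

end Cfsg.Agent.S5427
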