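import Mathlib
import Cfsg.Statements.S5428
import Cfsg.Agent.Lib.LargeQuot

set_option autoImplicit false
open Cfsg

namespace Cfsg.Agent.S5428

open Cfsg.Agent.Lib.LargeExtra Cfsg.Agent.Lib.LocalCore Cfsg.Agent.Lib.PCore
open Cfsg.Agent.Lib.LargeStruct Cfsg.Agent.Lib.LargeCent Cfsg.Agent.Lib.LargeQuot

/-- A group of order twice an odd number with a central involution: the complement. -/
theorem exists_odd_complement {C : Type*} [Group C] [Finite C] (z : C) (hz : orderOf z = 2)
    (hcen : ∀ x : C, x * z = z * x) (h4 : ¬ 4 ∣ Nat.card C) :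
    ∀ d : C, d ∈ oddCore C ∨ d * z⁻¹ ∈ oddCore C := by
  have hZn : (Subgroup.zpowers z).Normal := by
    constructor
    intro n hn g
    rcases zpowers_eq_of_order_two hz hn with rfl | rfl
    · simp
    · have : g * n * g⁻¹ = n := conj_eq_of_comm (hcen g)
      rw [this]; exact hn
  have hcard : Nat.card (Subgroup.zpowers z) = 2 := by rw [Nat.card_zpowers, hz]
  have hidx := Subgroup.card_mul_index (Subgroup.zpowers z)
  rw [hcard] at hidx
  have hodd : Odd (Subgroup.zpowers z).index := by
    rw [← Nat.not_even_iff_odd]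
    rintro ⟨k, hk⟩
    apply h4
    rw [← hidx, hk]
    exact ⟨k, by ring⟩
  have hcop : Nat.Coprime (Nat.card (Subgroup.zpowers z)) (Subgroup.zpowers z).index := by
    rw [hcard]
    exact Nat.coprime_two_left.mpr hodd
  obtain ⟨K, hK⟩ := Subgroup.exists_right_complement'_of_coprime hcop
  have hKcard : Nat.card K = (Subgroup.zpowers z).index := by
    have h1 := hK.card_mul_card
    rw [hcard] at h1
    omega
  have hdec : ∀ d : C, ∃ h ∈ Subgroup.zpowers z, ∃ k ∈ K, h * k = d := by
    intro d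
    obtain ⟨⟨h, k⟩, hhk⟩ := hK.existsUnique d |>.exists
    exact ⟨h, h.2, k, k.2, hhk⟩
  have hKn : K.Normal := by
    constructor
    intro n hn g
    obtain ⟨h, hh, k, hk, rfl⟩ := hdec g
    have h1 : h * n = n * h := by
      rcases zpowers_eq_of_order_two hz hh with rfl | rfl
      · simp
      · exact (hcen n).symm
    have h2 : h * k * n * (h * k)⁻¹ = k * n * k⁻¹ := by
      rcases zpowers_eq_of_order_two hz hh with rfl | rfl
      · simp
      · have e1 : h * (k * n * k⁻¹) * h⁻¹ = k * n * k⁻¹ := conj_eq_of_comm (hcen _).symm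
        calc h * k * n * (h * k)⁻¹ = h * (k * n * k⁻¹) * h⁻¹ := by group
          _ = k * n * k⁻¹ := e1
    rw [h2]
    exact K.mul_mem (K.mul_mem hk hn) (K.inv_mem hk)
  have hKO : K ≤ oddCore C := by
    apply le_pPrimeCore hKn
    rw [hKcard]
    exact Nat.coprime_two_right.mpr hodd
  intro d
  obtain ⟨h, hh, k, hk, rfl⟩ := hdec d
  rcases zpowers_eq_of_order_two hz hh with rfl | rfl
  · left
    rw [one_mul]
    exact hKO hk
  · right
    have e : h * k * h⁻¹ = k := conj_eq_of_comm (hcen k).symm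
    rw [e]
    exact hKO hk

/-- Let z be an involution of the finite group G whose centralizer C has generalized Fitting subgroup Q extraspecial (as a 2-group), let A be a subgroup of C of odd order, and let R be the centralizer of A in Q; suppose R has order at least 32, the largest normal subgroup of odd order of the centralizer of the subgroup generated by A and R lies in A, the order of that centralizer is not divisible by 4, and g is an element of G with g z g⁻¹ in R but outside the centre Z of Q. Let M be the subgroup generated by A and the centralizer of A (A is normal in it). Then: the centralizer in M of the subgroup generated by R and A, joined with A, equals the subgroup generated by A and Z; the image of R in M/A is a large extraspecial 2-subgroup of M/A; and g z g⁻¹ is conjugate to z inside the subgroup generated by R and the centralizer of A in g Q g⁻¹. -/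
theorem S5434_aux {G : Type*} [Group G] {Q : Subgroup G} {z : G} (S : Setting Q z) {a : G}
    (h : a * z = z * a) : a ∈ Subgroup.normalizer (Q : Set G) := S.mem_normalizer h

theorem result {G : Type*} [Group G] [Finite G] (z : G) (hz : orderOf z = 2) (Q : Subgroup G) (hQC : Q ≤ Subgroup.centralizer ({z} : Set G)) (hF : (Cfsg.generalizedFittingSubgroup ↥(Subgroup.centralizer ({z} : Set G))).map (Subgroup.centralizer ({z} : Set G)).subtype = Q) (hQ : Cfsg.IsExtraspecial 2 ↥Q) (A : Subgroup G) (hA : A ≤ Subgroup.centralizer ({z} : Set G)) (hAodd : Odd (Nat.card ↥A)) (R : Subgroup G) (hR : R = Q ⊓ Subgroup.centralizer (A : Set G)) (hR32 : 32 ≤ Nat.card ↥R) (hO : (Cfsg.oddCore ↥(Subgroup.centralizer ((A ⊔ R : Subgroup G) : Set G))).map (Subgroup.centralizer ((A ⊔ R : Subgroup G) : Set G)).subtype ≤ A) (h4 : ¬ 4 ∣ Nat.card ↥(Subgroup.centralizer ((A ⊔ R : Subgroup G) : Set G))) (g : G) (hgR : g * z * g⁻¹ ∈ R) (hgZ : g * z * g⁻¹ ∉ ((Subgroup.center ↥Q).map Q.subtype)) (M : Subgroup G) (hM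 : M = Subgroup.centralizer (A : Set G) ⊔ A) [hn : (A.subgroupOf M).Normal] : (M ⊓ Subgroup.centralizer ((R ⊔ A : Subgroup G) : Set G)) ⊔ A = A ⊔ ((Subgroup.center ↥Q).map Q.subtype) ∧ Cfsg.IsLargeExtraspecial ((R.subgroupOf M).map (QuotientGroup.mk' (A.subgroupOf M))) ∧ ∃ x ∈ R ⊔ ((Q).map (MulAut.conj g).toMonoidHom ⊓ Subgroup.centralizer (A : Set G)), x * (g * z * g⁻¹) * x⁻¹ = z := by
  have hp2 : Fact (Nat.Prime 2) := ⟨Nat.prime_two⟩
  obtain ⟨hL2, hZ, hL3, hS⟩ := of_centralizer hz hF hQ
  subst hR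
  set R := Q ⊓ Subgroup.centralizer (A : Set G) with hR
  set s := g * z * g⁻¹ with hs
  have hsQ : s ∈ Q := hgR.1
  have hsA : s ∈ Subgroup.centralizer (A : Set G) := hgR.2
  rw [hZ] at hgZ
  have hzzin : z ∈ Subgroup.zpowers z := Subgroup.mem_zpowers z
  have hne : s ≠ z := fun h => hgZ (h ▸ hzzin)
  have hS' : Setting (Q.map (MulAut.conj g).toMonoidHom) s := hS.conj g
  have hs1 : s ≠ 1 := hS'.extra.ne_one
  have hzz : z * z = 1 := hS.extra.sq_eq
  have hss : s * s = 1 := hS'.extra.sq_eq
  have hzs : z * s = s * z := (hS.extra.cen s hsQ).symm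
  have hAC : ∀ a ∈ A, a * z = z * a := fun a ha =>
    Subgroup.mem_centralizer_singleton_iff.mp (hA ha)
  have hAN : A ≤ Subgroup.normalizer (Q : Set G) := fun a ha => S5434_aux hS (hAC a ha)
  have hQ32 : 32 ≤ Nat.card Q := hR32.trans (Subgroup.card_le_of_le inf_le_left)
  obtain ⟨n, hn1, hncard⟩ := Cfsg.Agent.Lib.ExtraBasics.card_of_isExtraspecial hQ
  have hn2 : 2 ≤ n := by
    by_contra hlt
    have : n = 1 := by omega
    subst this
    rw [hncard] at hQ32
    norm_num at hQ32
  have hlarge : IsLargeExtraspecial Q :=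
    large_of_conj hz hF hQ n hn2 (by rw [hncard]; ring_nf) g hsQ hne
  have hzQ' : z ∈ Q.map (MulAut.conj g).toMonoidHom := hS.mem_conj hQ32 hsQ hne
  -- the element `x`
  obtain ⟨p, hpR, hps⟩ := exists_flip hlarge hS hAN hAodd hsQ hsA hs1 hne
  have hA' : (A.map (MulAut.conj g⁻¹).toMonoidHom) ≤ Subgroup.normalizer (Q : Set G) := by
    rintro _ ⟨a, ha, rfl⟩
    apply S5434_aux hS
    have h1 : a * s = s * a := (Subgroup.mem_centralizer_iff.mp hsA a ha)
    show g⁻¹ * a * g⁻¹⁻¹ * z = z * (g⁻¹ * a * g⁻¹⁻¹)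
    calc g⁻¹ * a * g⁻¹⁻¹ * z = g⁻¹ * (a * (g * z * g⁻¹)) * g := by group
      _ = g⁻¹ * ((g * z * g⁻¹) * a) * g := by rw [← hs, h1]
      _ = z * (g⁻¹ * a * g⁻¹⁻¹) := by group
  have hA'odd : Odd (Nat.card (A.map (MulAut.conj g⁻¹).toMonoidHom)) := by
    rw [card_map_equiv]; exact hAodd
  have hz'Q : g⁻¹ * z * g ∈ Q := mem_conj_iff.mp hzQ'
  have hz'C : g⁻¹ * z * g ∈ Subgroup.centralizer
      ((A.map (MulAut.conj g⁻¹).toMonoidHom : Subgroup G) : Set G) := by
    refine Subgroup.mem_centralizer_iff.mpr ?_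
    rintro _ ⟨a, ha, rfl⟩
    have h1 := hAC a ha
    show g⁻¹ * a * g⁻¹⁻¹ * (g⁻¹ * z * g) = g⁻¹ * z * g * (g⁻¹ * a * g⁻¹⁻¹)
    calc g⁻¹ * a * g⁻¹⁻¹ * (g⁻¹ * z * g) = g⁻¹ * (a * z) * g := by group
      _ = g⁻¹ * (z * a) * g := by rw [h1]
      _ = g⁻¹ * z * g * (g⁻¹ * a * g⁻¹⁻¹) := by group
  have hz'1 : g⁻¹ * z * g ≠ 1 := by
    intro h
    apply hS.extra.ne_one
    have h3 := mul_eq_one_iff_eq_inv.mp h
    simpa using h3
  have hz'z : g⁻¹ * z * g ≠ z := by
    intro h
    apply hne
    rw [hs]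
    calc g * z * g⁻¹ = g * (g⁻¹ * z * g) * g⁻¹ := by rw [h]
      _ = z := by group
  obtain ⟨p'', hp''R, hp''⟩ := exists_flip hlarge hS hA' hA'odd hz'Q hz'C hz'1 hz'z
  set p' := g * p'' * g⁻¹ with hp'
  have hp'Q : p' ∈ Q.map (MulAut.conj g).toMonoidHom := ⟨p'', hp''R.1, rfl⟩
  have hp'C : p' ∈ Subgroup.centralizer (A : Set G) := by
    refine Subgroup.mem_centralizer_iff.mpr ?_
    intro a ha
    have h1 := Subgroup.mem_centralizer_iff.mp hp''R.2 (g⁻¹ * a * g⁻¹⁻¹) ⟨a, ha, rfl⟩
    calc a * p' = g * ((g⁻¹ * a * g⁻¹⁻¹) * p'') * g⁻¹ := by rw [hp']; group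
      _ = g * (p'' * (g⁻¹ * a * g⁻¹⁻¹)) * g⁻¹ := by rw [h1]
      _ = p' * a := by rw [hp']; group
  have hp'z : p' * z * p'⁻¹ = z * s := by
    calc p' * z * p'⁻¹ = g * (p'' * (g⁻¹ * z * g) * p''⁻¹) * g⁻¹ := by rw [hp']; group
      _ = g * ((g⁻¹ * z * g) * z) * g⁻¹ := by rw [hp'']
      _ = z * s := by rw [hs]; group
  have hp's : p' * s * p'⁻¹ = s := conj_eq_of_comm (hS'.extra.cen p' hp'Q)
  have hxs : (p' * p) * s * (p' * p)⁻¹ = z := by
    calc (p' * p) * s * (p' * p)⁻¹ = p' * (p * s * p⁻¹) * p'⁻¹ := by group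
      _ = p' * (s * z) * p'⁻¹ := by rw [hps]
      _ = (p' * s * p'⁻¹) * (p' * z * p'⁻¹) := by group
      _ = s * (z * s) := by rw [hp's, hp'z]
      _ = s * (s * z) := by rw [hzs]
      _ = (s * s) * z := by group
      _ = z := by rw [hss, one_mul]
  have hxmem : p' * p ∈ R ⊔ (Q.map (MulAut.conj g).toMonoidHom ⊓ Subgroup.centralizer (A : Set G)) :=
    Subgroup.mul_mem _ (Subgroup.mem_sup_right ⟨hp'Q, hp'C⟩) (Subgroup.mem_sup_left hpR)
  have hxC : p' * p ∈ Subgroup.centralizer (A : Set G) := Subgroup.mul_mem _ hp'C hpR.2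
  -- the centralizer of `A ⊔ R`
  set C := Subgroup.centralizer ((A ⊔ R : Subgroup G) : Set G) with hCdef
  have hzC : z ∈ C := by
    refine Subgroup.mem_centralizer_iff.mpr ?_
    intro y hy
    have h1 : A ⊔ R ≤ Subgroup.centralizer ({z} : Set G) := sup_le hA (inf_le_left.trans hQC)
    exact Subgroup.mem_centralizer_singleton_iff.mp (h1 hy)
  have hkey : ∀ d ∈ C, d ∈ A ∨ d * z⁻¹ ∈ A := by
    intro d hd
    have hz0 : orderOf (⟨z, hzC⟩ : C) = 2 := by rw [Subgroup.orderOf_mk, hz]
    have hcen0 : ∀ x : C, x * ⟨z, hzC⟩ = ⟨z, hzC⟩ * x := by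
      rintro ⟨x, hx⟩
      apply Subtype.ext
      show x * z = z * x
      have h1 : z ∈ A ⊔ R ∨ True := Or.inr trivial
      have h2 : x ∈ Subgroup.centralizer ((A ⊔ R : Subgroup G) : Set G) := hx
      -- `z` lies in `R`
      have hzR : z ∈ R := by
        refine ⟨hS.extra.mem, Subgroup.mem_centralizer_iff.mpr ?_⟩
        intro a ha
        exact hAC a ha
      exact (Subgroup.mem_centralizer_iff.mp h2 z (Subgroup.mem_sup_right hzR)).symm
    rcases exists_odd_complement (⟨z, hzC⟩ : C) hz0 hcen0 h4 ⟨d, hd⟩ with h | h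
    · left
      exact hO ⟨⟨d, hd⟩, h, rfl⟩
    · right
      have := hO ⟨_, h, rfl⟩
      simpa using this
  refine ⟨?_, ?_, p' * p, hxmem, hxs⟩
  · -- part (i)
    rw [hZ]
    have hCA : Subgroup.centralizer (A : Set G) ≤ M := by rw [hM]; exact le_sup_left
    apply le_antisymm
    · refine sup_le ?_ le_sup_left
      rintro x ⟨-, hx⟩
      have hxC' : x ∈ C := by
        rw [hCdef, sup_comm]; exact hx
      rcases hkey x hxC' with h | h
      · exact Subgroup.mem_sup_left h
      · have : x = (x * z⁻¹) * z := by group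
        rw [this]
        exact Subgroup.mul_mem _ (Subgroup.mem_sup_left h) (Subgroup.mem_sup_right hzzin)
    · refine sup_le le_sup_right ?_
      rw [Subgroup.zpowers_le]
      refine Subgroup.mem_sup_left ⟨hCA ?_, ?_⟩
      · refine Subgroup.mem_centralizer_iff.mpr ?_
        intro a ha
        exact hAC a ha
      · rw [sup_comm]; exact hzC
  · -- part (ii)
    have hCA : Subgroup.centralizer (A : Set G) ≤ M := by rw [hM]; exact le_sup_left
    have hAM : A ≤ M := by rw [hM]; exact le_sup_right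
    have hRC : R ≤ Subgroup.centralizer (A : Set G) := inf_le_right
    have hzR : z ∈ R := by
      refine ⟨hS.extra.mem, Subgroup.mem_centralizer_iff.mpr ?_⟩
      intro a ha
      exact hAC a ha
    have hRM : R ≤ M := hRC.trans hCA
    have hzM : z ∈ M := hRM hzR
    have hR2 : IsPGroup 2 R := hS.extra.two.to_le inf_le_left
    have hdisj : ∀ y ∈ R, y ∈ A → y = 1 := fun y hy hyA => odd_two_eq_one hAodd hR2 hyA hy
    have hdisjQ : ∀ y ∈ Q, y ∈ A → y = 1 := fun y hy hyA =>
      odd_two_eq_one hAodd hS.extra.two hyA hy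
    have hzA : z ∉ A := fun h => hS.extra.ne_one (hdisj z hzR h)
    have hT2 : IsPGroup 2 (R.subgroupOf M) := hR2.comap_of_injective M.subtype M.subtype_injective
    have hz₀T : (⟨z, hzM⟩ : M) ∈ R.subgroupOf M := Subgroup.mem_subgroupOf.mpr hzR
    have hz₀N : (⟨z, hzM⟩ : M) ∉ A.subgroupOf M := fun h => hzA (Subgroup.mem_subgroupOf.mp h)
    have hMdec : ∀ x ∈ M, ∃ d ∈ Subgroup.centralizer (A : Set G), ∃ a ∈ A, x = d * a := by
      intro x hx
      rw [hM] at hx
      have hcomm : ⁅Subgroup.centralizer (A : Set G), A⁆ = ⊥ :=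
        commutator_eq_bot_iff_elementwise.mpr
          (fun a ha b hb => (Subgroup.mem_centralizer_iff.mp ha b hb).symm)
      exact mem_sup_of_commute hcomm hx
    have hcenR : ∀ y ∈ R, ∀ a ∈ A, y * a = a * y := fun y hy a ha =>
      (Subgroup.mem_centralizer_iff.mp hy.2 a ha).symm
    have hE := extraspecial_quot (A.subgroupOf M) (R.subgroupOf M) ⟨z, hzM⟩ hT2 hz₀T hz₀N
      (by
        rintro ⟨a, ha⟩ ha' ⟨b, hb⟩ hb'
        have ha'' : a ∈ R := Subgroup.mem_subgroupOf.mp ha'
        have hb'' : b ∈ R := Subgroup.mem_subgroupOf.mp hb'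
        rcases hS.extra.comm a ha''.1 b hb''.1 with h | h
        · left; exact Subtype.ext h
        · right; exact Subtype.ext h)
      (by
        rintro ⟨a, ha⟩ ha'
        have ha'' : a ∈ R := Subgroup.mem_subgroupOf.mp ha'
        rcases hS.extra.sq a ha''.1 with h | h
        · left; exact Subtype.ext h
        · right; exact Subtype.ext h)
      (by
        rintro ⟨c, hc⟩ hc' hq
        have hc'' : c ∈ R := Subgroup.mem_subgroupOf.mp hc'
        by_cases hc1 : c = 1
        · left
          subst hc1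
          exact Subgroup.one_mem _ 
        by_cases hcz : c = z
        · right
          subst hcz
          apply Subgroup.mem_subgroupOf.mpr
          have e : (((⟨c, hc⟩ : M) * (⟨c, hzM⟩ : M)⁻¹ : M) : G) = 1 := by
            show c * c⁻¹ = 1
            group
          rw [e]
          exact A.one_mem
        exfalso
        obtain ⟨q, hq1, hq2⟩ := exists_flip hlarge hS hAN hAodd hc''.1 hc''.2 hc1 hcz
        have h1 := hq ⟨q, hRM hq1⟩ (Subgroup.mem_subgroupOf.mpr hq1)
        have h2 : c * q * c⁻¹ * q⁻¹ ∈ A := Subgroup.mem_subgroupOf.mp h1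
        have h3 : c * q * c⁻¹ * q⁻¹ ∈ Q :=
          Q.mul_mem (Q.mul_mem (Q.mul_mem hc''.1 hq1.1) (Q.inv_mem hc''.1)) (Q.inv_mem hq1.1)
        have h4 := hdisjQ _ h3 h2
        have h5 : c * q = q * c := comm_of_conj_eq (mul_inv_eq_one.mp h4)
        have h6 : q * c * q⁻¹ = c := conj_eq_of_comm h5.symm
        rw [h6] at hq2
        apply hS.extra.ne_one
        have h7 : c * 1 = c * z := by rw [mul_one]; exact hq2
        exact (mul_left_cancel h7).symm)
      (by
        refine ⟨⟨p, hRM hpR⟩, Subgroup.mem_subgroupOf.mpr hpR, ⟨s, hRM hgR⟩,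
          Subgroup.mem_subgroupOf.mpr hgR, ?_⟩
        intro h
        have h1 : p * s * p⁻¹ * s⁻¹ ∈ A := Subgroup.mem_subgroupOf.mp h
        have h2 : p * s * p⁻¹ * s⁻¹ = z := by
          rw [hps]
          have e : s * z * s⁻¹ = z := conj_eq_of_comm hzs.symm
          exact e
        rw [h2] at h1
        exact hzA h1)
    have hcardmap := card_map_mul (QuotientGroup.mk' (A.subgroupOf M)) (R.subgroupOf M)
    have hker : (QuotientGroup.mk' (A.subgroupOf M)).ker.subgroupOf (R.subgroupOf M) = ⊥ := by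
      rw [QuotientGroup.ker_mk', eq_bot_iff]
      rintro ⟨⟨a, ha⟩, ha'⟩ hx
      have h1 : a ∈ R := Subgroup.mem_subgroupOf.mp ha'
      have h2 : a ∈ A := Subgroup.mem_subgroupOf.mp (Subgroup.mem_subgroupOf.mp hx)
      have h3 := hdisj a h1 h2
      rw [Subgroup.mem_bot]
      apply Subtype.ext
      apply Subtype.ext
      exact h3
    rw [hker, Subgroup.card_bot, mul_one] at hcardmap
    have hTcard : Nat.card (R.subgroupOf M) = Nat.card R :=
      Nat.card_congr (Subgroup.subgroupOfEquivOfLe hRM).toEquiv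
    obtain ⟨n', hn'1, hn'⟩ := Cfsg.Agent.Lib.ExtraBasics.card_of_isExtraspecial hE
    have hn'2 : 2 ≤ n' := by
      by_contra hlt
      have : n' = 1 := by omega
      subst this
      rw [hcardmap, hTcard] at hn'
      rw [hn'] at hR32
      norm_num at hR32
    have hxM : (p' * p)⁻¹ ∈ M := M.inv_mem (hCA hxC)
    have hx's : (p' * p)⁻¹ * z * ((p' * p)⁻¹)⁻¹ = s := by
      rw [← hxs]; group
    refine large_quot (A.subgroupOf M) (R.subgroupOf M) ⟨z, hzM⟩ ⟨(p' * p)⁻¹, hxM⟩ hE n' hn'2
      (by rw [hn']; ring_nf) hz₀T hz₀N ?_ ?_ ?_ ?_ ?_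
    · rintro ⟨y, hy⟩ hy'
      have hy'' : y ∈ R := Subgroup.mem_subgroupOf.mp hy'
      apply Subgroup.mem_subgroupOf.mpr
      have e : y * z * y⁻¹ * z⁻¹ = 1 := by
        rw [conj_eq_of_comm (hS.extra.cen y hy''.1)]; group
      show y * z * y⁻¹ * z⁻¹ ∈ A
      rw [e]; exact A.one_mem
    · -- centralizer
      rintro ⟨c, hc⟩ hc'
      have hc'' : ∀ r ∈ R, r * c * r⁻¹ * c⁻¹ ∈ A := by
        intro r hr
        exact Subgroup.mem_subgroupOf.mp (hc' ⟨r, hRM hr⟩ (Subgroup.mem_subgroupOf.mpr hr))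
      obtain ⟨a, haA, hacomm⟩ := exists_comm_in_coset hR2 hAodd
        (fun t ht b hb => by
          rw [conj_eq_of_comm (hcenR t ht b hb)]; exact hb) hc''
      obtain ⟨d, hdC, a', ha', hda⟩ := hMdec (a * c) (M.mul_mem (hAM haA) hc)
      have hdR : ∀ r ∈ R, r * d = d * r := by
        intro r hr
        have h1 := hacomm r hr
        rw [hda] at h1
        have h2 : r * a' = a' * r := hcenR r hr a' ha'
        have h3 : (r * d) * a' = (d * r) * a' := by
          calc (r * d) * a' = r * (d * a') := by group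
            _ = d * a' * r := h1
            _ = d * (a' * r) := by group
            _ = d * (r * a') := by rw [h2]
            _ = (d * r) * a' := by group
        exact mul_right_cancel h3
      have hdC' : d ∈ C := by
        have hle : A ⊔ R ≤ Subgroup.centralizer ({d} : Set G) := by
          refine sup_le ?_ ?_
          · intro y hy
            exact Subgroup.mem_centralizer_singleton_iff.mpr
              (Subgroup.mem_centralizer_iff.mp hdC y hy)
          · intro y hy
            exact Subgroup.mem_centralizer_singleton_iff.mpr (hdR y hy)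
        refine Subgroup.mem_centralizer_iff.mpr ?_
        intro y hy
        exact Subgroup.mem_centralizer_singleton_iff.mp (hle hy)
      have hcdec : c = a⁻¹ * d * a' := by
        have : a⁻¹ * (a * c) = a⁻¹ * (d * a') := by rw [hda]
        calc c = a⁻¹ * (a * c) := by group
          _ = a⁻¹ * (d * a') := this
          _ = a⁻¹ * d * a' := by group
      rcases hkey d hdC' with h | h
      · left
        apply Subgroup.mem_subgroupOf.mpr
        show c ∈ A
        rw [hcdec]
        exact A.mul_mem (A.mul_mem (A.inv_mem haA) h) ha'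
      · right
        apply Subgroup.mem_subgroupOf.mpr
        show c * z⁻¹ ∈ A
        have hz' : a' * z⁻¹ = z⁻¹ * a' := by
          rw [hS.extra.inv_eq]; exact hAC a' ha'
        have e : c * z⁻¹ = a⁻¹ * (d * z⁻¹) * a' := by
          rw [hcdec]
          calc a⁻¹ * d * a' * z⁻¹ = a⁻¹ * d * (a' * z⁻¹) := by group
            _ = a⁻¹ * d * (z⁻¹ * a') := by rw [hz']
            _ = a⁻¹ * (d * z⁻¹) * a' := by group
        rw [e]
        exact A.mul_mem (A.mul_mem (A.inv_mem haA) h) ha'
    · -- normalizer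
      rintro ⟨c, hc⟩ hc'
      have hc'' : c * z * c⁻¹ * z⁻¹ ∈ A := Subgroup.mem_subgroupOf.mp hc'
      have hZ2 : IsPGroup 2 (Subgroup.zpowers z) := by
        rintro ⟨t, ht⟩
        refine ⟨1, ?_⟩
        apply Subtype.ext
        show t ^ 2 ^ 1 = 1
        rcases zpowers_eq_of_order_two hz ht with rfl | rfl
        · simp
        · rw [pow_one, pow_two]; exact hzz
      obtain ⟨a, haA, hacomm⟩ := exists_comm_in_coset (T := Subgroup.zpowers z) (B := A) (c := c)
        hZ2 hAodd
        (fun t ht b hb => by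
          rcases zpowers_eq_of_order_two hz ht with rfl | rfl
          · simpa using hb
          · rw [conj_eq_of_comm (hAC b hb).symm]; exact hb)
        (fun t ht => by
          rcases zpowers_eq_of_order_two hz ht with rfl | rfl
          · simp
          · have e : t * c * t⁻¹ * c⁻¹ = (c * t * c⁻¹ * t⁻¹)⁻¹ := by group
            rw [e]
            exact A.inv_mem hc'')
      obtain ⟨d, hdC, a', ha', hda⟩ := hMdec (a * c) (M.mul_mem (hAM haA) hc)
      have hdz : d * z = z * d := by
        have h1 := hacomm z hzzin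
        rw [hda] at h1
        have h2 : a' * z = z * a' := hAC a' ha'
        have h3 : (z * d) * a' = (d * z) * a' := by
          calc (z * d) * a' = z * (d * a') := by group
            _ = d * a' * z := h1
            _ = d * (a' * z) := by group
            _ = d * (z * a') := by rw [h2]
            _ = (d * z) * a' := by group
        exact (mul_right_cancel h3).symm
      have hcdec : c = a⁻¹ * d * a' := by
        have : a⁻¹ * (a * c) = a⁻¹ * (d * a') := by rw [hda]
        calc c = a⁻¹ * (a * c) := by group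
          _ = a⁻¹ * (d * a') := this
          _ = a⁻¹ * d * a' := by group
      have had : a * d = d * a := (Subgroup.mem_centralizer_iff.mp hdC a haA)
      refine ⟨⟨d, hCA hdC⟩, ?_, ?_⟩
      · apply Subgroup.mem_subgroupOf.mpr
        show c⁻¹ * d ∈ A
        have e : c⁻¹ * d = a'⁻¹ * a := by
          rw [hcdec]
          calc (a⁻¹ * d * a')⁻¹ * d = a'⁻¹ * d⁻¹ * (a * d) := by group
            _ = a'⁻¹ * d⁻¹ * (d * a) := by rw [had]
            _ = a'⁻¹ * a := by group
        rw [e]
        exact A.mul_mem (A.inv_mem ha') haA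
      · rintro ⟨y, hy⟩ hy'
        have hy'' : y ∈ R := Subgroup.mem_subgroupOf.mp hy'
        have hdinv : d⁻¹ * z = z * d⁻¹ := by
          have : d⁻¹ * (d * z) * d⁻¹ = d⁻¹ * (z * d) * d⁻¹ := by rw [hdz]
          simpa [mul_assoc] using this.symm
        constructor
        · apply Subgroup.mem_subgroupOf.mpr
          exact ⟨hS.nQ d hdz y hy''.1, Subgroup.mul_mem _ (Subgroup.mul_mem _ hdC hy''.2)
            (Subgroup.inv_mem _ hdC)⟩
        · apply Subgroup.mem_subgroupOf.mpr
          have h5 := hS.nQ d⁻¹ hdinv y hy''.1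
          rw [inv_inv] at h5
          exact ⟨h5, Subgroup.mul_mem _ (Subgroup.mul_mem _ (Subgroup.inv_mem _ hdC) hy''.2) hdC⟩
    · apply Subgroup.mem_subgroupOf.mpr
      show (p' * p)⁻¹ * z * ((p' * p)⁻¹)⁻¹ ∈ R
      rw [hx's]
      exact hgR
    · intro h
      have h1 : (p' * p)⁻¹ * z * ((p' * p)⁻¹)⁻¹ * z⁻¹ ∈ A := Subgroup.mem_subgroupOf.mp h
      rw [hx's] at h1
      have h2 := hdisjQ _ (Q.mul_mem hsQ (Q.inv_mem hS.extra.mem)) h1
      exact hne (mul_inv_eq_one.mp h2)

end Cfsg.Agent.S5428
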