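import Mathlib
import Cfsg.Statements.S5429
import Cfsg.Agent.Lib.LargeQuot

set_option autoImplicit false
open Cfsg

namespace Cfsg.Agent.S5429

open Cfsg.Agent.Lib.LargeExtra Cfsg.Agent.Lib.LocalCore Cfsg.Agent.Lib.PCore
open Cfsg.Agent.Lib.LargeStruct Cfsg.Agent.Lib.LargeCent Cfsg.Agent.Lib.LargeQuot

variable {G : Type*} [Group G]

/-- A flip commuting with `t`. -/
theorem exists_comm_flip {Q : Subgroup G} {z t a : G} (h : ExtraAt Q z) (ht : t ∈ Q)
    (htt : t * t = 1) (ht1 : t ≠ 1) (htz : t ≠ z) (ha : a ∈ Q) (ha1 : a ≠ 1) (haz : a ≠ z)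
    (hat : a ≠ t) (hatz : a ≠ t * z) : ∃ p ∈ Q, p * t = t * p ∧ p * a * p⁻¹ = a * z := by
  obtain ⟨q₀, hq₀, hq₀t⟩ := h.exists_not_comm ht ht1 htz
  by_contra hno
  push Not at hno
  have hR : ∀ r ∈ Q, r * t = t * r → a * r = r * a := by
    intro r hr hrt
    have h1 := hno r hr hrt
    rcases h.comm r hr a ha with h2 | h2
    · exact (comm_of_conj_eq (mul_inv_eq_one.mp h2)).symm
    · exfalso
      apply h1
      calc r * a * r⁻¹ = (r * a * r⁻¹ * a⁻¹) * a := by group
        _ = z * a := by rw [h2]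
        _ = a * z := (h.cen a ha).symm
  rcases h.mem_of_comm_centralizer ht htt hq₀ hq₀t ha hR with h1 | h1 | h1 | h1
  · exact ha1 h1
  · exact haz h1
  · exact hat h1
  · exact hatz h1

/-- Commutators are unchanged by central factors. -/
theorem comm_mul_central {a b u v : G} (hua : u * a = a * u) (hub : u * b = b * u)
    (hva : v * a = a * v) (hvb : v * b = b * v) (huv : u * v = v * u) :
    (u * a) * (v * b) * (u * a)⁻¹ * (v * b)⁻¹ = a * b * a⁻¹ * b⁻¹ := by
  have h1 : u * (v * b) * u⁻¹ = v * b := by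
    calc u * (v * b) * u⁻¹ = (u * v) * b * u⁻¹ := by group
      _ = (v * u) * b * u⁻¹ := by rw [huv]
      _ = v * (u * b) * u⁻¹ := by group
      _ = v * (b * u) * u⁻¹ := by rw [hub]
      _ = v * b := by group
  have h2 : a * v * a⁻¹ = v := conj_eq_of_comm hva.symm
  have h3 : v * (a * b * a⁻¹ * b⁻¹) * v⁻¹ = a * b * a⁻¹ * b⁻¹ := by
    have h4 : v * a * v⁻¹ = a := conj_eq_of_comm hva
    have h5 : v * b * v⁻¹ = b := conj_eq_of_comm hvb
    calc v * (a * b * a⁻¹ * b⁻¹) * v⁻¹
        = (v * a * v⁻¹) * (v * b * v⁻¹) * (v * a * v⁻¹)⁻¹ * (v * b * v⁻¹)⁻¹ := by group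
      _ = a * b * a⁻¹ * b⁻¹ := by rw [h4, h5]
  calc (u * a) * (v * b) * (u * a)⁻¹ * (v * b)⁻¹
      = (a * u) * (v * b) * (a * u)⁻¹ * (v * b)⁻¹ := by rw [hua]
    _ = a * (u * (v * b) * u⁻¹) * a⁻¹ * (v * b)⁻¹ := by group
    _ = a * (v * b) * a⁻¹ * (v * b)⁻¹ := by rw [h1]
    _ = (a * v * a⁻¹) * (a * b * a⁻¹) * (v * b)⁻¹ := by group
    _ = v * (a * b * a⁻¹) * (v * b)⁻¹ := by rw [h2]
    _ = v * (a * b * a⁻¹ * b⁻¹) * v⁻¹ := by group
    _ = a * b * a⁻¹ * b⁻¹ := h3

/-- Let z be an involution of the finite group G with centralizer C whose generalized Fitting subgroup Q is extraspecial of width at least 3 (order 2^(2w+1), w ≥ 3); let g be an element of G with g z g⁻¹ in Q but outside the centre Z of Q, and t an involution lying in both Q and g Q g⁻¹ that is not conjugate to z; write P for the centralizer of t in Q and suppose that the elements of C acting trivially by conjugation on P modulo the subgroup generated by t and z are exactly the elements of Q. Then the image of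 P in the centralizer of t modulo the subgroup generated by t is a large extraspecial 2-subgroup there, and g z g⁻¹ is conjugate to z inside the subgroup generated by P and the centralizer of t in g Q g⁻¹. -/
theorem result {G : Type*} [Group G] [Finite G] (z : G) (hz : orderOf z = 2) (Q : Subgroup G) (hQC : Q ≤ Subgroup.centralizer ({z} : Set G)) (hF : (Cfsg.generalizedFittingSubgroup ↥(Subgroup.centralizer ({z} : Set G))).map (Subgroup.centralizer ({z} : Set G)).subtype = Q) (hQ : Cfsg.IsExtraspecial 2 ↥Q) (w : ℕ) (hw : 3 ≤ w) (hcard : Nat.card ↥Q = 2 ^ (2 * w + 1)) (g : G) (hgQ : g * z * g⁻¹ ∈ Q) (hgZ : g * z * g⁻¹ ∉ ((Subgroup.center ↥Q).map Q.subtype)) (t : G) (ht : orderOf t = 2) (htQ : t ∈ Q ⊓ (Q).map (MulAut.conj g).toMonoidHom) (htz : ¬ IsConj z t) (P : Subgroup G) (hP : P = Q ⊓ Subgroup.centralizer ({t} : Set G)) (hCP : ∀ c ∈ Subgroup.centralizer ({z} : Set G), (∀ x ∈ P, ∃ y ∈ Subgroup.closure ({t, z} : Set G), c * x * c⁻¹ = x * y) ↔ c ∈ Q) [hn : ((Subgroup.zpowers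 t).subgroupOf (Subgroup.centralizer ({t} : Set G))).Normal] : Cfsg.IsLargeExtraspecial ((P.subgroupOf (Subgroup.centralizer ({t} : Set G))).map (QuotientGroup.mk' ((Subgroup.zpowers t).subgroupOf (Subgroup.centralizer ({t} : Set G))))) ∧ ∃ x ∈ P ⊔ ((Q).map (MulAut.conj g).toMonoidHom ⊓ Subgroup.centralizer ({t} : Set G)), x * (g * z * g⁻¹) * x⁻¹ = z := by
  have hp2 : Fact (Nat.Prime 2) := ⟨Nat.prime_two⟩
  obtain ⟨hL2, hZ, hL3, hS⟩ := of_centralizer hz hF hQ
  subst hP
  set P := Q ⊓ Subgroup.centralizer ({t} : Set G) with hP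
  set s := g * z * g⁻¹ with hs
  have hsQ : s ∈ Q := hgQ
  rw [hZ] at hgZ
  have hzzin : z ∈ Subgroup.zpowers z := Subgroup.mem_zpowers z
  have hne : s ≠ z := fun h => hgZ (h ▸ hzzin)
  have hS' : Setting (Q.map (MulAut.conj g).toMonoidHom) s := hS.conj g
  have hs1 : s ≠ 1 := hS'.extra.ne_one
  have hz1 : z ≠ 1 := hS.extra.ne_one
  have hzz : z * z = 1 := hS.extra.sq_eq
  have hss : s * s = 1 := hS'.extra.sq_eq
  have hzs : z * s = s * z := (hS.extra.cen s hsQ).symm
  have hQ32 : 32 ≤ Nat.card Q := Cfsg.Agent.Lib.LargePair.card32 (by omega) hcard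
  have hzQ' : z ∈ Q.map (MulAut.conj g).toMonoidHom := hS.mem_conj hQ32 hsQ hne
  obtain ⟨htQ1, htQ2⟩ := htQ
  have htt : t * t = 1 := by rw [← pow_two, ← ht]; exact pow_orderOf_eq_one t
  have ht1 : t ≠ 1 := by
    rintro rfl
    rw [orderOf_one] at ht
    omega
  have htz1 : t ≠ z := by
    rintro rfl
    exact htz (IsConj.refl _)
  have hzconjs : IsConj z s := isConj_iff.mpr ⟨g, rfl⟩
  have hts : t ≠ s := by
    intro h
    exact htz (h ▸ hzconjs)
  obtain ⟨q₁, hq₁, hq₁s⟩ := hS.extra.exists_not_comm hsQ hs1 hne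
  have htsz : t ≠ s * z := by
    intro h
    apply htz
    rw [h]
    exact hzconjs.trans (isConj_iff.mpr ⟨q₁, hq₁s⟩)
  have hst : t * s = s * t := hS'.extra.cen t htQ2
  have hzt : t * z = z * t := hS.extra.cen t htQ1
  -- the flips
  obtain ⟨p, hpQ, hpt, hps⟩ := exists_comm_flip hS.extra htQ1 htt ht1 htz1 hsQ hs1 hne hts.symm
    (by
      intro h
      apply htsz
      rw [h, mul_assoc, hzz, mul_one])
  obtain ⟨p', hp'Q, hp't, hp'z⟩ := exists_comm_flip hS'.extra htQ2 htt ht1 hts hzQ' hz1 hne.symm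
    htz1.symm (by
      intro h
      apply htsz
      calc t = (t * s) * s := by rw [mul_assoc, hss, mul_one]
        _ = z * s := by rw [← h]
        _ = s * z := hzs)
  have hp's : p' * s = s * p' := hS'.extra.cen p' hp'Q
  have hxs : (p' * p) * s * (p' * p)⁻¹ = z := by
    calc (p' * p) * s * (p' * p)⁻¹ = p' * (p * s * p⁻¹) * p'⁻¹ := by group
      _ = p' * (s * z) * p'⁻¹ := by rw [hps]
      _ = (p' * s * p'⁻¹) * (p' * z * p'⁻¹) := by group
      _ = s * (z * s) := by rw [conj_eq_of_comm hp's, hp'z]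
      _ = s * (s * z) := by rw [hzs]
      _ = (s * s) * z := by group
      _ = z := by rw [hss, one_mul]
  have hpP : p ∈ P := ⟨hpQ, Subgroup.mem_centralizer_singleton_iff.mpr hpt⟩
  have hp'C : p' ∈ Q.map (MulAut.conj g).toMonoidHom ⊓ Subgroup.centralizer ({t} : Set G) :=
    ⟨hp'Q, Subgroup.mem_centralizer_singleton_iff.mpr hp't⟩
  have hxmem : p' * p ∈ P ⊔ (Q.map (MulAut.conj g).toMonoidHom ⊓ Subgroup.centralizer ({t} : Set G)) :=
    Subgroup.mul_mem _ (Subgroup.mem_sup_right hp'C) (Subgroup.mem_sup_left hpP)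
  refine ⟨?_, p' * p, hxmem, hxs⟩
  -- the quotient
  have hmemC : ∀ y, y ∈ Subgroup.centralizer ({t} : Set G) ↔ y * t = t * y := fun y =>
    Subgroup.mem_centralizer_singleton_iff
  have hPC : P ≤ Subgroup.centralizer ({t} : Set G) := inf_le_right
  have hzP : z ∈ P := ⟨hS.extra.mem, (hmemC z).2 (hS.extra.cen t htQ1).symm⟩
  have hsP : s ∈ P := ⟨hsQ, (hmemC s).2 hst.symm⟩
  have htP : t ∈ P := ⟨htQ1, (hmemC t).2 rfl⟩
  have hNmem : ∀ y : Subgroup.centralizer ({t} : Set G),
      y ∈ (Subgroup.zpowers t).subgroupOf (Subgroup.centralizer ({t} : Set G)) ↔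
        (y : G) = 1 ∨ (y : G) = t := by
    intro y
    rw [Subgroup.mem_subgroupOf]
    constructor
    · exact zpowers_eq_of_order_two ht
    · rintro (h | h) <;> rw [h]
      · exact Subgroup.one_mem _
      · exact Subgroup.mem_zpowers _
  have hzN : z ≠ t := htz1.symm
  set z₀ : Subgroup.centralizer ({t} : Set G) := ⟨z, hPC hzP⟩ with hz₀def
  have hz₀T : z₀ ∈ P.subgroupOf (Subgroup.centralizer ({t} : Set G)) :=
    Subgroup.mem_subgroupOf.mpr hzP
  have hz₀N : z₀ ∉ (Subgroup.zpowers t).subgroupOf (Subgroup.centralizer ({t} : Set G)) := by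
    rw [hNmem]
    rintro (h | h)
    · exact hz1 h
    · exact hzN h
  have hP2 : IsPGroup 2 P := hS.extra.two.to_le inf_le_left
  have hT2 : IsPGroup 2 (P.subgroupOf (Subgroup.centralizer ({t} : Set G))) :=
    hP2.comap_of_injective _ (Subgroup.subtype_injective _)
  -- centrality criterion
  have hcentral : ∀ c ∈ Q, (∀ r ∈ Q, r * t = t * r → c * r = r * c) →
      c = 1 ∨ c = z ∨ c = t ∨ c = t * z := by
    intro c hc hR
    obtain ⟨q₀, hq₀, hq₀t⟩ := hS.extra.exists_not_comm htQ1 ht1 htz1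
    exact hS.extra.mem_of_comm_centralizer htQ1 htt hq₀ hq₀t hc hR
  have hsmall : ∀ e : G, (e = 1 ∨ e = z) → (e = 1 ∨ e = t) → e = 1 := by
    rintro e (h | h) (h' | h')
    · exact h
    · exact h
    · exact h'
    · exact absurd (h.symm.trans h') hzN
  have hE := extraspecial_quot ((Subgroup.zpowers t).subgroupOf (Subgroup.centralizer ({t} : Set G)))
    (P.subgroupOf (Subgroup.centralizer ({t} : Set G))) z₀ hT2 hz₀T hz₀N
    (by
      rintro ⟨a, ha⟩ ha' ⟨b, hb⟩ hb'
      have ha'' : a ∈ P := Subgroup.mem_subgroupOf.mp ha'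
      have hb'' : b ∈ P := Subgroup.mem_subgroupOf.mp hb'
      rcases hS.extra.comm a ha''.1 b hb''.1 with h | h
      · left; exact Subtype.ext h
      · right; exact Subtype.ext h)
    (by
      rintro ⟨a, ha⟩ ha'
      have ha'' : a ∈ P := Subgroup.mem_subgroupOf.mp ha'
      rcases hS.extra.sq a ha''.1 with h | h
      · left; exact Subtype.ext h
      · right; exact Subtype.ext h)
    (by
      rintro ⟨c, hc⟩ hc' hq
      have hc'' : c ∈ P := Subgroup.mem_subgroupOf.mp hc'
      have hR : ∀ r ∈ Q, r * t = t * r → c * r = r * c := by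
        intro r hr hrt
        have hrP : r ∈ P := ⟨hr, (hmemC r).2 hrt⟩
        have h1 := (hNmem _).1 (hq ⟨r, hPC hrP⟩ (Subgroup.mem_subgroupOf.mpr hrP))
        have h2 : c * r * c⁻¹ * r⁻¹ = 1 := hsmall _ (hS.extra.comm c hc''.1 r hr) h1
        exact comm_of_conj_eq (mul_inv_eq_one.mp h2)
      rcases hcentral c hc''.1 hR with h | h | h | h
      · left
        rw [hNmem]
        exact Or.inl h
      · right
        rw [hNmem]
        left
        show c * z⁻¹ = 1
        rw [h]; group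
      · left
        rw [hNmem]
        exact Or.inr h
      · right
        rw [hNmem]
        right
        show c * z⁻¹ = t
        rw [h]; group)
    (by
      refine ⟨⟨p, hPC hpP⟩, Subgroup.mem_subgroupOf.mpr hpP, ⟨s, hPC hsP⟩,
        Subgroup.mem_subgroupOf.mpr hsP, ?_⟩
      intro h
      have h1 := (hNmem _).1 h
      have h2 : p * s * p⁻¹ * s⁻¹ = z := by
        rw [hps]
        exact conj_eq_of_comm hzs.symm
      change p * s * p⁻¹ * s⁻¹ = 1 ∨ p * s * p⁻¹ * s⁻¹ = t at h1
      rw [h2] at h1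
      rcases h1 with h1 | h1
      · exact hz1 h1
      · exact hzN h1)
  -- orders
  obtain ⟨w', rfl⟩ : ∃ w', w = w' + 1 := ⟨w - 1, by omega⟩
  have hPindex : (P.subgroupOf Q).index = 2 := by
    obtain ⟨q₀, hq₀, hq₀t⟩ := hS.extra.exists_not_comm htQ1 ht1 htz1
    rw [Subgroup.index_eq_two_iff]
    refine ⟨⟨q₀, hq₀⟩, ?_⟩
    rintro ⟨b, hb⟩
    have hmem : ∀ y : Q, y ∈ P.subgroupOf Q ↔ (y : G) * t = t * (y : G) := by
      intro y
      rw [Subgroup.mem_subgroupOf]
      constructor
      · intro h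
        exact (hmemC _).1 h.2
      · intro h
        exact ⟨y.2, (hmemC _).2 h⟩
    rw [hmem, hmem]
    show Xor (b * q₀ * t = t * (b * q₀)) (b * t = t * b)
    have hbz : b * z = z * b := hS.extra.cen b hb
    have hbzi : z * b⁻¹ = b⁻¹ * z := (hS.extra.cen _ (Q.inv_mem hb)).symm
    have hcalc : (b * q₀) * t * (b * q₀)⁻¹ = (b * t * b⁻¹) * z := by
      calc (b * q₀) * t * (b * q₀)⁻¹ = b * (q₀ * t * q₀⁻¹) * b⁻¹ := by group
        _ = b * (t * z) * b⁻¹ := by rw [hq₀t]
        _ = b * t * (z * b⁻¹) := by group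
        _ = b * t * (b⁻¹ * z) := by rw [hbzi]
        _ = (b * t * b⁻¹) * z := by group
    rcases hS.extra.comm b hb t htQ1 with h | h
    · right
      have h1 : b * t * b⁻¹ = t := mul_inv_eq_one.mp h
      refine ⟨(comm_of_conj_eq h1), ?_⟩
      intro h2
      have h3 := conj_eq_of_comm h2
      rw [hcalc, h1] at h3
      apply hz1
      have h4 : t * z = t * 1 := by rw [h3, mul_one]
      exact mul_left_cancel h4
    · left
      have h1 : b * t * b⁻¹ = t * z := by
        calc b * t * b⁻¹ = (b * t * b⁻¹ * t⁻¹) * t := by group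
          _ = z * t := by rw [h]
          _ = t * z := hzt.symm
      constructor
      · apply comm_of_conj_eq
        rw [hcalc, h1, mul_assoc, hzz, mul_one]
      · intro h2
        have h3 := conj_eq_of_comm h2
        rw [h1] at h3
        apply hz1
        have h4 : t * z = t * 1 := by rw [h3, mul_one]
        exact mul_left_cancel h4
  have hQP : Nat.card P * 2 = Nat.card Q := by
    have h1 := Subgroup.card_mul_index (P.subgroupOf Q)
    rw [hPindex] at h1
    rw [← h1]
    congr 1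
    exact (Nat.card_congr (Subgroup.subgroupOfEquivOfLe inf_le_left).toEquiv).symm
  have hcardmap := card_map_mul
    (QuotientGroup.mk' ((Subgroup.zpowers t).subgroupOf (Subgroup.centralizer ({t} : Set G))))
    (P.subgroupOf (Subgroup.centralizer ({t} : Set G)))
  rw [QuotientGroup.ker_mk'] at hcardmap
  have hker : Nat.card (((Subgroup.zpowers t).subgroupOf (Subgroup.centralizer ({t} : Set G))).subgroupOf
      (P.subgroupOf (Subgroup.centralizer ({t} : Set G)))) = 2 := by
    have htmem : (⟨t, hPC htP⟩ : Subgroup.centralizer ({t} : Set G)) ∈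
        P.subgroupOf (Subgroup.centralizer ({t} : Set G)) := Subgroup.mem_subgroupOf.mpr htP
    have htmem2 : (⟨⟨t, hPC htP⟩, htmem⟩ : (P.subgroupOf (Subgroup.centralizer ({t} : Set G)))) ∈
        ((Subgroup.zpowers t).subgroupOf (Subgroup.centralizer ({t} : Set G))).subgroupOf
          (P.subgroupOf (Subgroup.centralizer ({t} : Set G))) := by
      apply Subgroup.mem_subgroupOf.mpr
      exact (hNmem _).2 (Or.inr rfl)
    rw [Nat.card_eq_two_iff' 1]
    refine ⟨⟨⟨⟨t, hPC htP⟩, htmem⟩, htmem2⟩, ?_, ?_⟩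
    · intro h
      apply ht1
      have := congrArg (fun x => (((x : P.subgroupOf (Subgroup.centralizer ({t} : Set G))) :
        Subgroup.centralizer ({t} : Set G)) : G)) (congrArg Subtype.val h)
      exact this
    · rintro ⟨⟨⟨y, hy⟩, hy'⟩, hy''⟩ hne1
      have h1 := (hNmem _).1 (Subgroup.mem_subgroupOf.mp hy'')
      rcases h1 with h1 | h1
      · exfalso
        apply hne1
        apply Subtype.ext
        apply Subtype.ext
        apply Subtype.ext
        exact h1
      · apply Subtype.ext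
        apply Subtype.ext
        apply Subtype.ext
        exact h1
  rw [hker] at hcardmap
  have hTP : Nat.card (P.subgroupOf (Subgroup.centralizer ({t} : Set G))) = Nat.card P :=
    Nat.card_congr (Subgroup.subgroupOfEquivOfLe hPC).toEquiv
  rw [hTP] at hcardmap
  have hcardT : Nat.card ((P.subgroupOf (Subgroup.centralizer ({t} : Set G))).map
      (QuotientGroup.mk' ((Subgroup.zpowers t).subgroupOf (Subgroup.centralizer ({t} : Set G))))) =
      2 ^ (2 * w' + 1) := by
    have h1 : 2 ^ (2 * (w' + 1) + 1) = 4 * 2 ^ (2 * w' + 1) := by ring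
    rw [hcard, h1] at hQP
    omega
  have hxC : p' * p ∈ Subgroup.centralizer ({t} : Set G) :=
    Subgroup.mul_mem _ hp'C.2 hpP.2
  have hx's : (p' * p)⁻¹ * z * ((p' * p)⁻¹)⁻¹ = s := by
    rw [← hxs]; group
  refine large_quot _ _ z₀ ⟨(p' * p)⁻¹, Subgroup.inv_mem _ hxC⟩ hE w' (by omega) hcardT hz₀T hz₀N
    ?_ ?_ ?_ ?_ ?_
  · rintro ⟨y, hy⟩ hy'
    have hy'' : y ∈ P := Subgroup.mem_subgroupOf.mp hy'
    rw [hNmem]
    left
    show y * z * y⁻¹ * z⁻¹ = 1
    rw [conj_eq_of_comm (hS.extra.cen y hy''.1)]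
    group
  · -- centralizer
    rintro ⟨c, hc⟩ hc'
    have hct : c * t = t * c := (hmemC c).1 hc
    have hc'' : ∀ r ∈ P, r * c * r⁻¹ * c⁻¹ = 1 ∨ r * c * r⁻¹ * c⁻¹ = t := by
      intro r hr
      exact (hNmem _).1 (hc' ⟨r, hPC hr⟩ (Subgroup.mem_subgroupOf.mpr hr))
    have hconj : ∀ r ∈ P, c * r * c⁻¹ = r ∨ c * r * c⁻¹ = t * r := by
      intro r hr
      have hrt : r * t = t * r := (hmemC r).1 hr.2
      rcases hc'' r hr with h | h
      · left
        have h1 : r * c * r⁻¹ = c := mul_inv_eq_one.mp h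
        exact conj_eq_of_comm (comm_of_conj_eq h1).symm
      · right
        have h1 : r * c = t * (c * r) := by
          calc r * c = (r * c * r⁻¹ * c⁻¹) * (c * r) := by group
            _ = t * (c * r) := by rw [h]
        have h2 : c * r = t * (r * c) := by
          calc c * r = (t * t) * (c * r) := by rw [htt, one_mul]
            _ = t * (t * (c * r)) := by group
            _ = t * (r * c) := by rw [h1]
        calc c * r * c⁻¹ = t * (r * c) * c⁻¹ := by rw [h2]
          _ = t * r := by group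
    have hcz : c * z = z * c := by
      have hz_eq : p * s * p⁻¹ * s⁻¹ = z := by
        rw [hps]
        exact conj_eq_of_comm hzs.symm
      have hpt' : t * p = p * t := hpt.symm
      have hst' : t * s = s * t := hst
      apply comm_of_conj_eq
      have e : c * (p * s * p⁻¹ * s⁻¹) * c⁻¹ =
          (c * p * c⁻¹) * (c * s * c⁻¹) * (c * p * c⁻¹)⁻¹ * (c * s * c⁻¹)⁻¹ := by group
      rw [← hz_eq, e]
      rcases hconj p hpP with h1 | h1 <;> rcases hconj s hsP with h2 | h2 <;> rw [h1, h2]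
      · have := comm_mul_central (a := p) (b := s) (u := 1) (v := t) (by simp) (by simp)
          hpt' hst' (by simp)
        simpa using this
      · have := comm_mul_central (a := p) (b := s) (u := t) (v := 1) hpt' hst' (by simp) (by simp)
          (by simp)
        simpa using this
      · exact comm_mul_central hpt' hst' hpt' hst' rfl
    have hcQ : c ∈ Q := by
      apply (hCP c (Subgroup.mem_centralizer_singleton_iff.mpr hcz)).1
      intro x hx
      have htmem : t ∈ Subgroup.closure ({t, z} : Set G) := Subgroup.subset_closure (by simp)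
      have hxt : x * t = t * x := (hmemC x).1 hx.2
      rcases hconj x hx with h | h
      · exact ⟨1, Subgroup.one_mem _, by rw [h, mul_one]⟩
      · exact ⟨t, htmem, by rw [h, hxt]⟩
    have hR : ∀ r ∈ Q, r * t = t * r → c * r = r * c := by
      intro r hr hrt
      have hrP : r ∈ P := ⟨hr, (hmemC r).2 hrt⟩
      have h2 : r * c * r⁻¹ * c⁻¹ = 1 := hsmall _ (hS.extra.comm r hr c hcQ) (hc'' r hrP)
      exact (comm_of_conj_eq (mul_inv_eq_one.mp h2)).symm
    rcases hcentral c hcQ hR with h | h | h | h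
    · left
      rw [hNmem]
      exact Or.inl h
    · right
      rw [hNmem]
      left
      show c * z⁻¹ = 1
      rw [h]; group
    · left
      rw [hNmem]
      exact Or.inr h
    · right
      rw [hNmem]
      right
      show c * z⁻¹ = t
      rw [h]; group
  · -- normalizer
    rintro ⟨c, hc⟩ hc'
    have hc'' := (hNmem _).1 hc'
    change c * z * c⁻¹ * z⁻¹ = 1 ∨ c * z * c⁻¹ * z⁻¹ = t at hc''
    rcases hc'' with h | h
    · have hcz : c * z = z * c := comm_of_conj_eq (mul_inv_eq_one.mp h)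
      refine ⟨⟨c, hc⟩, ?_, ?_⟩
      · have : (⟨c, hc⟩ : Subgroup.centralizer ({t} : Set G))⁻¹ * ⟨c, hc⟩ = 1 := by group
        rw [this]
        exact Subgroup.one_mem _
      · rintro ⟨y, hy⟩ hy'
        have hy'' : y ∈ P := Subgroup.mem_subgroupOf.mp hy'
        have hcinv : c⁻¹ * z = z * c⁻¹ := by
          have : c⁻¹ * (c * z) * c⁻¹ = c⁻¹ * (z * c) * c⁻¹ := by rw [hcz]
          simpa [mul_assoc] using this.symm
        constructor
        · apply Subgroup.mem_subgroupOf.mpr
          exact ⟨hS.nQ c hcz y hy''.1, Subgroup.mul_mem _ (Subgroup.mul_mem _ hc hy''.2)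
            (Subgroup.inv_mem _ hc)⟩
        · apply Subgroup.mem_subgroupOf.mpr
          have h5 := hS.nQ c⁻¹ hcinv y hy''.1
          rw [inv_inv] at h5
          exact ⟨h5, Subgroup.mul_mem _ (Subgroup.mul_mem _ (Subgroup.inv_mem _ hc) hy''.2) hc⟩
    · exfalso
      -- `c z c⁻¹ = t z`
      have h1 : c * z * c⁻¹ = t * z := by
        calc c * z * c⁻¹ = (c * z * c⁻¹ * z⁻¹) * z := by group
          _ = t * z := by rw [h]
      have h2 : c * z * c⁻¹ ∈ Q := by
        rw [h1]; exact Q.mul_mem htQ1 hS.extra.mem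
      have h3 : c * z * c⁻¹ ≠ z := by
        rw [h1]
        intro h4
        apply ht1
        have h5 : t * z = 1 * z := by rw [h4, one_mul]
        exact mul_right_cancel h5
      have h4 : z ∈ Q.map (MulAut.conj c).toMonoidHom := hS.mem_conj hQ32 h2 h3
      have hS2 : Setting (Q.map (MulAut.conj c).toMonoidHom) (c * z * c⁻¹) := hS.conj c
      obtain ⟨u, -, hu⟩ := hS2.extra.exists_not_comm h4 hz1 h3.symm
      apply htz
      refine isConj_iff.mpr ⟨u, ?_⟩
      rw [hu, h1]
      calc z * (t * z) = (z * t) * z := by group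
        _ = (t * z) * z := by rw [hzt]
        _ = t * (z * z) := by group
        _ = t := by rw [hzz, mul_one]
  · apply Subgroup.mem_subgroupOf.mpr
    show (p' * p)⁻¹ * z * ((p' * p)⁻¹)⁻¹ ∈ P
    rw [hx's]
    exact hsP
  · intro h
    have h1 := (hNmem _).1 h
    change (p' * p)⁻¹ * z * ((p' * p)⁻¹)⁻¹ * z⁻¹ = 1 ∨ (p' * p)⁻¹ * z * ((p' * p)⁻¹)⁻¹ * z⁻¹ = t at h1
    rw [hx's] at h1
    rcases h1 with h1 | h1
    · exact hne (mul_inv_eq_one.mp h1)
    · apply htsz
      rw [← h1, hS.extra.inv_eq]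

end Cfsg.Agent.S5429
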