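import Mathlib
import Cfsg.Statements.S5430
import Cfsg.Agent.Lib.LargePair
import Cfsg.Agent.Lib.ThreeTransS3

set_option autoImplicit false
open Cfsg

namespace Cfsg.Agent.S5430

open Cfsg.Agent.Lib.LargeExtra Cfsg.Agent.Lib.LargeFour Cfsg.Agent.Lib.LargePair

variable {G : Type*} [Group G] {Q Q' : Subgroup G} {z s g t t' : G}

open PairS

theorem RR_symm (Q Q' : Subgroup G) (z s : G) : RR Q' Q s z = RR Q Q' z s := sup_comm _ _

theorem conj_R2 (P : PairS Q Q' z s g) {q y : G} (hq : q ∈ Q) (hy : y ∈ Q') (hyz : y * z = z * y) :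
    q * y * q⁻¹ ∈ RR Q Q' z s := by
  have hys : y * s = s * y := P.hS'.extra.cen y hy
  set c := q * y * q⁻¹ * y⁻¹ with hc
  have hcQ : c ∈ Q := P.comm_mem_left hq hyz
  set u := q⁻¹ * s * q with hu
  have hyu : y * u = u * y := by
    rcases P.hS.extra.comm q⁻¹ (Q.inv_mem hq) s P.hsQ with h | h
    · have h1 : u = s := by
        have := mul_inv_eq_one.mp h
        simpa [hu] using this
      rw [h1, hys]
    · have h1 : u = z * s := by
        calc u = (q⁻¹ * s * q⁻¹⁻¹ * s⁻¹) * s := by rw [hu]; group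
          _ = z * s := by rw [h]
      rw [h1]
      calc y * (z * s) = (y * z) * s := by group
        _ = (z * y) * s := by rw [hyz]
        _ = z * (y * s) := by group
        _ = z * (s * y) := by rw [hys]
        _ = z * s * y := by group
  have h1 : (q * y * q⁻¹) * s = s * (q * y * q⁻¹) := by
    calc (q * y * q⁻¹) * s = q * (y * u) * q⁻¹ := by rw [hu]; group
      _ = q * (u * y) * q⁻¹ := by rw [hyu]
      _ = s * (q * y * q⁻¹) := by rw [hu]; group
  have hyi : y⁻¹ * s = s * y⁻¹ := by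
    have : y⁻¹ * (y * s) * y⁻¹ = y⁻¹ * (s * y) * y⁻¹ := by rw [hys]
    simpa [mul_assoc] using this.symm
  have h2 : c * s = s * c := by
    calc c * s = (q * y * q⁻¹) * (y⁻¹ * s) := by rw [hc]; group
      _ = (q * y * q⁻¹) * (s * y⁻¹) := by rw [hyi]
      _ = ((q * y * q⁻¹) * s) * y⁻¹ := by group
      _ = (s * (q * y * q⁻¹)) * y⁻¹ := by rw [h1]
      _ = s * c := by rw [hc]; group
  have h3 : q * y * q⁻¹ = c * y := by rw [hc]; group
  rw [h3]
  exact Subgroup.mul_mem _ (R1_le_R _ _ _ _ (mem_R1.mpr ⟨hcQ, h2⟩))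
    (R2_le_R _ _ _ _ (mem_R1.mpr ⟨hy, hyz⟩))

theorem conj_R_left (P : PairS Q Q' z s g) {q : G} (hq : q ∈ Q) {r : G} (hr : r ∈ RR Q Q' z s) :
    q * r * q⁻¹ ∈ RR Q Q' z s := by
  have key : RR Q Q' z s ≤ (RR Q Q' z s).comap (MulAut.conj q).toMonoidHom := by
    refine sup_le ?_ ?_
    · intro y hy
      obtain ⟨hy1, hy2⟩ := mem_R1.mp hy
      simpa [MulAut.conj_apply] using conj_R2 P hq hy1 hy2
    · intro x hx
      obtain ⟨hx1, hx2⟩ := mem_R1.mp hx
      have hxR : x ∈ RR Q Q' z s := R1_le_R _ _ _ _ hx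
      have : q * x * q⁻¹ ∈ RR Q Q' z s := by
        rcases P.hS.extra.comm q hq x hx1 with h | h
        · rw [mul_inv_eq_one.mp h]; exact hxR
        · have h1 : q * x * q⁻¹ = z * x := by
            calc q * x * q⁻¹ = (q * x * q⁻¹ * x⁻¹) * x := by group
              _ = z * x := by rw [h]
          rw [h1]
          exact Subgroup.mul_mem _ P.z_mem_R hxR
      simpa [MulAut.conj_apply] using this
  have := key hr
  simpa [MulAut.conj_apply] using this

theorem conj_R_right (P : PairS Q Q' z s g) {q : G} (hq : q ∈ Q') {r : G} (hr : r ∈ RR Q Q' z s) :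
    q * r * q⁻¹ ∈ RR Q Q' z s := by
  have := conj_R_left P.symm hq (r := r) (by rw [RR_symm]; exact hr)
  rwa [RR_symm] at this

theorem X_le_NR (P : PairS Q Q' z s g) :
    Q ⊔ Q' ≤ Subgroup.normalizer ((RR Q Q' z s : Subgroup G) : Set G) := by
  refine sup_le ?_ ?_
  · intro q hq
    rw [Subgroup.mem_normalizer_iff]
    intro r
    refine ⟨conj_R_left P hq, fun h => ?_⟩
    have := conj_R_left P (Q.inv_mem hq) h
    simpa [mul_assoc] using this
  · intro q hq
    rw [Subgroup.mem_normalizer_iff]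
    intro r
    refine ⟨conj_R_right P hq, fun h => ?_⟩
    have := conj_R_right P (Q'.inv_mem hq) h
    simpa [mul_assoc] using this

theorem R_le_X (Q Q' : Subgroup G) (z s : G) : RR Q Q' z s ≤ Q ⊔ Q' :=
  sup_le (inf_le_left.trans le_sup_right) (inf_le_left.trans le_sup_left)

theorem isPGroup_R (P : PairS Q Q' z s g) : IsPGroup 2 (RR Q Q' z s) := by
  apply IsPGroup.to_sup_of_normal_right'
  · exact P.hS'.extra.two.to_le inf_le_left
  · exact P.hS.extra.two.to_le inf_le_left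
  · have hc : ∀ y ∈ R1 Q' z, ∀ x ∈ R1 Q s, y * x * y⁻¹ ∈ R1 Q s := by
      intro y hy x hx
      obtain ⟨hy1, hy2⟩ := mem_R1.mp hy
      obtain ⟨hx1, hx2⟩ := mem_R1.mp hx
      have hys : y * s = s * y := P.hS'.extra.cen y hy1
      refine mem_R1.mpr ⟨P.hS.nQ y hy2 x hx1, ?_⟩
      have hyi : y⁻¹ * s = s * y⁻¹ := by
        have : y⁻¹ * (y * s) * y⁻¹ = y⁻¹ * (s * y) * y⁻¹ := by rw [hys]
        simpa [mul_assoc] using this.symm
      calc y * x * y⁻¹ * s = y * x * (y⁻¹ * s) := by group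
        _ = y * x * (s * y⁻¹) := by rw [hyi]
        _ = y * (x * s) * y⁻¹ := by group
        _ = y * (s * x) * y⁻¹ := by rw [hx2]
        _ = (y * s) * x * y⁻¹ := by group
        _ = (s * y) * x * y⁻¹ := by rw [hys]
        _ = s * (y * x * y⁻¹) := by group
    intro y hy
    rw [Subgroup.mem_normalizer_iff]
    intro x
    refine ⟨hc y hy x, fun h => ?_⟩
    have := hc y⁻¹ (Subgroup.inv_mem _ hy) _ h
    simpa [mul_assoc] using this

/-- The six elements. -/
def Word (t t' w : G) : Prop :=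
  w = 1 ∨ w = t ∨ w = t' ∨ w = t * t' ∨ w = t' * t ∨ w = t * t' * t

theorem Word.mem_X {Q Q' : Subgroup G} {t t' w : G} (h : Word t t' w) (ht : t ∈ Q) (ht' : t' ∈ Q') :
    w ∈ Q ⊔ Q' := by
  have h1 : t ∈ Q ⊔ Q' := (le_sup_left : Q ≤ Q ⊔ Q') ht
  have h2 : t' ∈ Q ⊔ Q' := (le_sup_right : Q' ≤ Q ⊔ Q') ht'
  rcases h with rfl | rfl | rfl | rfl | rfl | rfl
  · exact Subgroup.one_mem _
  · exact h1
  · exact h2
  · exact Subgroup.mul_mem _ h1 h2
  · exact Subgroup.mul_mem _ h2 h1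
  · exact Subgroup.mul_mem _ (Subgroup.mul_mem _ h1 h2) h1

theorem six_of_closure {K : Type*} [Group K] {a b : K} (ha : a * a = 1) (hb : b * b = 1)
    (hab : a * b * a = b * a * b) {x : K} (hx : x ∈ Subgroup.closure ({a, b} : Set K)) :
    x = 1 ∨ x = a ∨ x = b ∨ x = a * b ∨ x = b * a ∨ x = a * b * a := by
  have hai : a⁻¹ = a := inv_eq_of_mul_eq_one_left ha
  have hbi : b⁻¹ = b := inv_eq_of_mul_eq_one_left hb
  have e1 : a * (a * b) = b := by rw [← mul_assoc, ha, one_mul]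
  have e2 : a * (a * b * a) = b * a := by rw [← mul_assoc, ← mul_assoc, ha, one_mul]
  have e3 : b * (a * b) = a * b * a := by rw [hab, mul_assoc]
  have e4 : b * (b * a) = a := by rw [← mul_assoc, hb, one_mul]
  have e5 : b * (a * b * a) = a * b := by
    rw [hab, ← mul_assoc, ← mul_assoc, hb, one_mul]
  have step : ∀ c ∈ ({a, b} : Set K), ∀ y,
      (y = 1 ∨ y = a ∨ y = b ∨ y = a * b ∨ y = b * a ∨ y = a * b * a) →
      (c * y = 1 ∨ c * y = a ∨ c * y = b ∨ c * y = a * b ∨ c * y = b * a ∨ c * y = a * b * a) := by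
    rintro c (rfl | rfl) y (rfl | rfl | rfl | rfl | rfl | rfl)
    · simp
    · simp [ha]
    · simp
    · simp [e1]
    · simp [mul_assoc]
    · simp [e2]
    · simp
    · simp
    · simp [hb]
    · simp [e3]
    · simp [e4]
    · simp [e5]
  induction hx using Subgroup.closure_induction_left with
  | one => simp
  | mul_left c hc y _ hy => exact step c hc y hy
  | inv_mul_cancel c hc y _ hy =>
    have hci : c⁻¹ = c := by
      rcases hc with rfl | rfl
      · exact hai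
      · exact hbi
    rw [hci]
    exact step c hc y hy

theorem perm3_normal_two (N : Subgroup (Equiv.Perm (Fin 3))) (hn : N.Normal) (hp : IsPGroup 2 N) :
    N = ⊥ := by
  have h0 : ∀ x : Equiv.Perm (Fin 3), x * x = 1 ∨ x * x * x = 1 := by decide
  have h1 : ∀ x : Equiv.Perm (Fin 3), x * x = 1 → x ≠ 1 →
      ∃ c : Equiv.Perm (Fin 3), (x * (c * x * c⁻¹)) * (x * (c * x * c⁻¹)) ≠ 1 := by decide +kernel
  have h2 : ∀ x ∈ N, x * x = 1 := by
    intro x hx
    rcases h0 x with h | h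
    · exact h
    · obtain ⟨k, hk⟩ := hp ⟨x, hx⟩
      have hk' : x ^ (2 ^ k) = 1 := by simpa using congrArg Subtype.val hk
      have h3 : x ^ 3 = 1 := by rw [pow_succ, pow_two]; exact h
      have h4 : orderOf x ∣ 3 := orderOf_dvd_of_pow_eq_one h3
      have h5 : orderOf x ∣ 2 ^ k := orderOf_dvd_of_pow_eq_one hk'
      have h6 : orderOf x = 1 := by
        have : Nat.Coprime 3 (2 ^ k) := Nat.Coprime.pow_right k (by norm_num)
        exact Nat.eq_one_of_dvd_coprimes this h4 h5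
      have : x = 1 := orderOf_eq_one_iff.mp h6
      rw [this]; simp
  rw [eq_bot_iff]
  intro x hx
  by_contra hne
  have hne' : x ≠ 1 := hne
  obtain ⟨c, hc⟩ := h1 x (h2 x hx) hne'
  exact hc (h2 _ (N.mul_mem hx (hn.conj_mem x hx c)))

section words

variable (P : PairS Q Q' z s g) (ht : t ∈ Q) (hts : t * s * t⁻¹ = z * s) (ht' : t' ∈ Q')
  (ht'z : t' * z * t'⁻¹ = s * z)
include P ht hts ht' ht'z

theorem t_z : t * z * t⁻¹ = z := conj_eq_of_comm (P.hS.extra.cen t ht)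

theorem t'_s : t' * s * t'⁻¹ = s := conj_eq_of_comm (P.hS'.extra.cen t' ht')

theorem tinv_z : t⁻¹ * z * t = z := by
  have := t_z P ht hts ht' ht'z
  calc t⁻¹ * z * t = t⁻¹ * (t * z * t⁻¹) * t := by rw [this]
    _ = z := by group

theorem t'inv_s : t'⁻¹ * s * t' = s := by
  have := t'_s P ht hts ht' ht'z
  calc t'⁻¹ * s * t' = t'⁻¹ * (t' * s * t'⁻¹) * t' := by rw [this]
    _ = s := by group

theorem t'inv_z : t'⁻¹ * z * t' = s * z := by
  have h1 := t'_s P ht hts ht' ht'z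
  have h2 : t' * (s * z) * t'⁻¹ = z := by
    have : t' * (s * z) * t'⁻¹ = (t' * s * t'⁻¹) * (t' * z * t'⁻¹) := by group
    rw [this, h1, ht'z, ← mul_assoc, P.ss, one_mul]
  calc t'⁻¹ * z * t' = t'⁻¹ * (t' * (s * z) * t'⁻¹) * t' := by rw [h2]
    _ = s * z := by group

/-- The braid word modulo `R`. -/
theorem braid_mem : (t' * t * t'⁻¹)⁻¹ * (t * t' * t⁻¹) ∈ RR Q Q' z s := by
  have htz := t_z P ht hts ht' ht'z
  have hss := P.ss
  have hzz := P.zz
  have hzs := P.zs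
  -- `c` centralizes `z`
  set c := g⁻¹ * t⁻¹ * t' with hc
  have hcz : c * z = z * c := by
    apply comm_of_conj_eq
    have e : c * z * c⁻¹ = g⁻¹ * (t⁻¹ * (t' * z * t'⁻¹) * t) * g := by rw [hc]; group
    rw [e, ht'z, ← hzs]
    have e2 : t⁻¹ * (z * s) * t = s := by rw [← hts]; group
    rw [e2, ← P.hg]; group
  have hct : c * t * c⁻¹ ∈ Q := P.hS.nQ c hcz t ht
  set b' := g * (c * t * c⁻¹) * g⁻¹ with hb'
  have hb'Q' : b' ∈ Q' := by
    rw [P.hQ']
    exact ⟨c * t * c⁻¹, hct, by simp [MulAut.conj_apply, hb']⟩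
  have hB : t' * t * t'⁻¹ = t * b' * t⁻¹ := by
    have ht'e : t' = t * g * c := by rw [hc]; group
    rw [hb']
    conv_lhs => rw [ht'e]
    group
  set y := b'⁻¹ * t' with hy
  have hyQ' : y ∈ Q' := Q'.mul_mem (Q'.inv_mem hb'Q') ht'
  have hw : (t' * t * t'⁻¹)⁻¹ * (t * t' * t⁻¹) = t * y * t⁻¹ := by
    rw [hB, hy]; group
  rw [hw]
  refine conj_R2 P ht hyQ' ?_
  -- `y` centralizes `z`
  have hzsz : z * s * z = s := by
    calc z * s * z = z * (s * z) := by group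
      _ = z * (z * s) := by rw [hzs]
      _ = s := by rw [← mul_assoc, hzz, one_mul]
  have e2 : t * (s * z) * t⁻¹ = z * s * z := by
    have : t * (s * z) * t⁻¹ = (t * s * t⁻¹) * (t * z * t⁻¹) := by group
    rw [this, hts, htz]
  have hA : (t * t' * t⁻¹) * z * (t * t' * t⁻¹)⁻¹ = s := by
    have e : (t * t' * t⁻¹) * z * (t * t' * t⁻¹)⁻¹ = t * (t' * (t⁻¹ * z * t) * t'⁻¹) * t⁻¹ := by
      group
    rw [e, tinv_z P ht hts ht' ht'z, ht'z, e2, hzsz]
  have hBz : (t' * t * t'⁻¹) * z * (t' * t * t'⁻¹)⁻¹ = s := by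
    have e : (t' * t * t'⁻¹) * z * (t' * t * t'⁻¹)⁻¹ = t' * (t * (t'⁻¹ * z * t') * t⁻¹) * t'⁻¹ := by
      group
    rw [e, t'inv_z P ht hts ht' ht'z, e2, hzsz, t'_s P ht hts ht' ht'z]
  have hw2 : (t * y * t⁻¹) * z * (t * y * t⁻¹)⁻¹ = z := by
    rw [← hw]
    have e : ((t' * t * t'⁻¹)⁻¹ * (t * t' * t⁻¹)) * z * ((t' * t * t'⁻¹)⁻¹ * (t * t' * t⁻¹))⁻¹ =
        (t' * t * t'⁻¹)⁻¹ * ((t * t' * t⁻¹) * z * (t * t' * t⁻¹)⁻¹) * (t' * t * t'⁻¹) := by group
    rw [e, hA, ← hBz]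
    group
  have hw3 : y * z * y⁻¹ = z := by
    have e : (t * y * t⁻¹) * z * (t * y * t⁻¹)⁻¹ = t * (y * (t⁻¹ * z * t) * y⁻¹) * t⁻¹ := by group
    rw [e, tinv_z P ht hts ht' ht'z] at hw2
    calc y * z * y⁻¹ = t⁻¹ * (t * (y * z * y⁻¹) * t⁻¹) * t := by group
      _ = t⁻¹ * z * t := by rw [hw2]
      _ = z := tinv_z P ht hts ht' ht'z
  exact comm_of_conj_eq hw3

/-- The structure of the quotient. -/
theorem quot_facts : ∃ _h : ((RR Q Q' z s).subgroupOf (Q ⊔ Q')).Normal,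
    Nonempty (↥(Q ⊔ Q') ⧸ (RR Q Q' z s).subgroupOf (Q ⊔ Q') ≃* Equiv.Perm (Fin 3)) ∧
    ∀ x ∈ Q ⊔ Q', ∃ w, Word t t' w ∧ x⁻¹ * w ∈ RR Q Q' z s := by
  classical
  have hnormal : ((RR Q Q' z s).subgroupOf (Q ⊔ Q')).Normal := by
    constructor
    rintro ⟨r, hr⟩ hr' ⟨x, hx⟩
    rw [Subgroup.mem_subgroupOf] at hr' ⊢
    exact conj_mem_of_normalizer (X_le_NR P hx) hr'
  refine ⟨hnormal, ?_⟩
  have htX : t ∈ Q ⊔ Q' := (le_sup_left : Q ≤ Q ⊔ Q') ht
  have ht'X : t' ∈ Q ⊔ Q' := (le_sup_right : Q' ≤ Q ⊔ Q') ht'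
  let mk : ↥(Q ⊔ Q') →* ↥(Q ⊔ Q') ⧸ (RR Q Q' z s).subgroupOf (Q ⊔ Q') := QuotientGroup.mk' _
  have hmk1 : ∀ x : ↥(Q ⊔ Q'), mk x = 1 ↔ (x : G) ∈ RR Q Q' z s := by
    intro x
    show ((x : ↥(Q ⊔ Q')) : ↥(Q ⊔ Q') ⧸ (RR Q Q' z s).subgroupOf (Q ⊔ Q')) = 1 ↔ _
    rw [QuotientGroup.eq_one_iff, Subgroup.mem_subgroupOf]
  have hmkeq : ∀ x y : ↥(Q ⊔ Q'), mk x = mk y → (x : G)⁻¹ * y ∈ RR Q Q' z s := by
    intro x y h
    have h1 : mk (x⁻¹ * y) = 1 := by rw [map_mul, map_inv, h]; simp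
    have := (hmk1 _).mp h1
    simpa using this
  have hmksurj : Function.Surjective mk := QuotientGroup.mk'_surjective _
  set T : ↥(Q ⊔ Q') := ⟨t, htX⟩ with hT
  set T' : ↥(Q ⊔ Q') := ⟨t', ht'X⟩ with hT'
  set a := mk T with ha
  set b := mk T' with hb
  have haa : a * a = 1 := by
    rw [ha, ← map_mul, hmk1]
    show t * t ∈ RR Q Q' z s
    rw [← pow_two]
    rcases P.hS.extra.sq t ht with h | h <;> rw [h]
    · exact Subgroup.one_mem _
    · exact P.z_mem_R
  have hbb : b * b = 1 := by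
    rw [hb, ← map_mul, hmk1]
    show t' * t' ∈ RR Q Q' z s
    rw [← pow_two]
    rcases P.hS'.extra.sq t' ht' with h | h <;> rw [h]
    · exact Subgroup.one_mem _
    · exact P.s_mem_R
  have hai : a⁻¹ = a := inv_eq_of_mul_eq_one_left haa
  have hbi : b⁻¹ = b := inv_eq_of_mul_eq_one_left hbb
  have hbr : a * b * a = b * a * b := by
    have h1 : mk ((T' * T * T'⁻¹)⁻¹ * (T * T' * T⁻¹)) = 1 := by
      rw [hmk1]
      exact braid_mem P ht hts ht' ht'z
    simp only [map_mul, map_inv] at h1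
    rw [← ha, ← hb, hai, hbi] at h1
    have h2 := inv_mul_eq_one.mp h1
    exact h2.symm
  have ha1 : a ≠ 1 := by
    intro h
    have h1 : t ∈ RR Q Q' z s := (hmk1 T).mp h
    have h2 := P.R_comm_s h1
    have h3 := conj_eq_of_comm h2
    rw [hts] at h3
    exact P.z1 (mul_eq_right.mp h3)
  have hab : a ≠ b := by
    intro h
    have h1 := hmkeq T T' h
    have h1' : t⁻¹ * t' ∈ RR Q Q' z s := h1
    have h2 := P.R_comm_s h1'
    have h3 := conj_eq_of_comm h2
    have h4 : (t⁻¹ * t') * s * (t⁻¹ * t')⁻¹ = t⁻¹ * (t' * s * t'⁻¹) * t := by group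
    rw [h4, t'_s P ht hts ht' ht'z] at h3
    have h5 : t⁻¹ * s * t = z * s := by
      have h6 : t⁻¹ * (z * s) * t = s := by rw [← hts]; group
      have h7 : t⁻¹ * (z * s) * t = (t⁻¹ * z * t) * (t⁻¹ * s * t) := by group
      rw [h7, tinv_z P ht hts ht' ht'z] at h6
      calc t⁻¹ * s * t = z * (z * (t⁻¹ * s * t)) := by rw [← mul_assoc, P.zz, one_mul]
        _ = z * s := by rw [h6]
    rw [h5] at h3
    exact P.z1 (mul_eq_right.mp h3)
  -- generation
  have hQgen : ∀ q (hq : q ∈ Q), mk ⟨q, (le_sup_left : Q ≤ Q ⊔ Q') hq⟩ ∈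
      Subgroup.closure ({a, b} : Set (↥(Q ⊔ Q') ⧸ (RR Q Q' z s).subgroupOf (Q ⊔ Q'))) := by
    intro q hq
    rcases P.split ht hts hq with h | h
    · have : mk ⟨q, (le_sup_left : Q ≤ Q ⊔ Q') hq⟩ = 1 := by
        rw [hmk1]
        exact R1_le_R _ _ _ _ (mem_R1.mpr ⟨hq, h⟩)
      rw [this]
      exact Subgroup.one_mem _
    · have h1 : mk ⟨t⁻¹ * q, (le_sup_left : Q ≤ Q ⊔ Q') (Q.mul_mem (Q.inv_mem ht) hq)⟩ = 1 := by
        rw [hmk1]
        exact R1_le_R _ _ _ _ (mem_R1.mpr ⟨Q.mul_mem (Q.inv_mem ht) hq, h⟩)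
      have h2 : (⟨q, (le_sup_left : Q ≤ Q ⊔ Q') hq⟩ : ↥(Q ⊔ Q')) =
          T * ⟨t⁻¹ * q, (le_sup_left : Q ≤ Q ⊔ Q') (Q.mul_mem (Q.inv_mem ht) hq)⟩ := by
        apply Subtype.ext
        show q = t * (t⁻¹ * q)
        group
      rw [h2, map_mul, h1, mul_one]
      exact Subgroup.subset_closure (by simp [ha])
  have hQ'gen : ∀ q (hq : q ∈ Q'), mk ⟨q, (le_sup_right : Q' ≤ Q ⊔ Q') hq⟩ ∈
      Subgroup.closure ({a, b} : Set (↥(Q ⊔ Q') ⧸ (RR Q Q' z s).subgroupOf (Q ⊔ Q'))) := by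
    intro q hq
    have hsp := P.symm.split ht' (t := t') (by rw [ht'z]) hq
    rcases hsp with h | h
    · have : mk ⟨q, (le_sup_right : Q' ≤ Q ⊔ Q') hq⟩ = 1 := by
        rw [hmk1]
        exact R2_le_R _ _ _ _ (mem_R1.mpr ⟨hq, h⟩)
      rw [this]
      exact Subgroup.one_mem _
    · have h1 : mk ⟨t'⁻¹ * q, (le_sup_right : Q' ≤ Q ⊔ Q') (Q'.mul_mem (Q'.inv_mem ht') hq)⟩ = 1 := by
        rw [hmk1]
        exact R2_le_R _ _ _ _ (mem_R1.mpr ⟨Q'.mul_mem (Q'.inv_mem ht') hq, h⟩)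
      have h2 : (⟨q, (le_sup_right : Q' ≤ Q ⊔ Q') hq⟩ : ↥(Q ⊔ Q')) =
          T' * ⟨t'⁻¹ * q, (le_sup_right : Q' ≤ Q ⊔ Q') (Q'.mul_mem (Q'.inv_mem ht') hq)⟩ := by
        apply Subtype.ext
        show q = t' * (t'⁻¹ * q)
        group
      rw [h2, map_mul, h1, mul_one]
      exact Subgroup.subset_closure (by simp [hb])
  have hXgen : ∀ x : ↥(Q ⊔ Q'), mk x ∈
      Subgroup.closure ({a, b} : Set (↥(Q ⊔ Q') ⧸ (RR Q Q' z s).subgroupOf (Q ⊔ Q'))) := by
    set TT := (Subgroup.closure ({a, b} : Set (↥(Q ⊔ Q') ⧸ (RR Q Q' z s).subgroupOf (Q ⊔ Q')))).comap mk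
      with hTT
    have h1 : Q ⊔ Q' ≤ TT.map (Q ⊔ Q').subtype := by
      refine sup_le ?_ ?_
      · intro q hq
        exact ⟨⟨q, (le_sup_left : Q ≤ Q ⊔ Q') hq⟩, hQgen q hq, rfl⟩
      · intro q hq
        exact ⟨⟨q, (le_sup_right : Q' ≤ Q ⊔ Q') hq⟩, hQ'gen q hq, rfl⟩
    rintro ⟨x, hx⟩
    obtain ⟨x', hx', hxe⟩ := h1 hx
    have : x' = ⟨x, hx⟩ := Subtype.ext hxe
    rw [← this]
    exact hx'
  have htop : Subgroup.closure ({a, b} : Set (↥(Q ⊔ Q') ⧸ (RR Q Q' z s).subgroupOf (Q ⊔ Q'))) = ⊤ := by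
    rw [eq_top_iff]
    intro k _
    obtain ⟨x, rfl⟩ := hmksurj k
    exact hXgen x
  refine ⟨?_, ?_⟩
  · obtain ⟨f⟩ := Cfsg.Agent.Lib.ThreeTransS3.nonempty_closure_equiv haa hbb hbr ha1 hab
    exact ⟨(Subgroup.topEquiv.symm.trans (MulEquiv.subgroupCongr htop.symm)).trans f⟩
  · intro x hx
    have h6 := six_of_closure haa hbb hbr (hXgen ⟨x, hx⟩)
    have hword : ∀ w (hw : w ∈ Q ⊔ Q'), Word t t' w → mk ⟨x, hx⟩ = mk ⟨w, hw⟩ →
        ∃ w, Word t t' w ∧ x⁻¹ * w ∈ RR Q Q' z s := by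
      intro w hw hW h
      exact ⟨w, hW, hmkeq _ _ h⟩
    rcases h6 with h | h | h | h | h | h
    · refine ⟨1, Or.inl rfl, ?_⟩
      have := (hmk1 ⟨x, hx⟩).mp h
      simpa using this
    · exact hword t htX (Or.inr (Or.inl rfl)) h
    · exact hword t' ht'X (Or.inr (Or.inr (Or.inl rfl))) h
    · exact hword (t * t') (Subgroup.mul_mem _ htX ht'X) (Or.inr (Or.inr (Or.inr (Or.inl rfl)))) h
    · exact hword (t' * t) (Subgroup.mul_mem _ ht'X htX)
        (Or.inr (Or.inr (Or.inr (Or.inr (Or.inl rfl))))) h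
    · exact hword (t * t' * t) (Subgroup.mul_mem _ (Subgroup.mul_mem _ htX ht'X) htX)
        (Or.inr (Or.inr (Or.inr (Or.inr (Or.inr rfl))))) h

/-- Action of the words on the pair `(z, s)`. -/
theorem word_acts : (t * z * t⁻¹ = z ∧ t * s * t⁻¹ = z * s) ∧
    (t' * z * t'⁻¹ = z * s ∧ t' * s * t'⁻¹ = s) ∧
    ((t * t') * z * (t * t')⁻¹ = s ∧ (t * t') * s * (t * t')⁻¹ = z * s) ∧
    ((t' * t) * z * (t' * t)⁻¹ = z * s ∧ (t' * t) * s * (t' * t)⁻¹ = z) ∧
    ((t * t' * t) * z * (t * t' * t)⁻¹ = s ∧ (t * t' * t) * s * (t * t' * t)⁻¹ = z) := by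
  have h1 := t_z P ht hts ht' ht'z
  have h2 := t'_s P ht hts ht' ht'z
  have hzs := P.zs
  have hzz := P.zz
  have hss := P.ss
  have hc2 : ∀ a b x : G, (a * b) * x * (a * b)⁻¹ = a * (b * x * b⁻¹) * a⁻¹ := by
    intro a b x; group
  have hc3 : ∀ a x y : G, a * (x * y) * a⁻¹ = (a * x * a⁻¹) * (a * y * a⁻¹) := by
    intro a x y; group
  have h3 : t' * z * t'⁻¹ = z * s := by rw [ht'z, hzs]
  have h4 : t * (z * s) * t⁻¹ = s := by rw [hc3, h1, hts, ← mul_assoc, hzz, one_mul]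
  have h5 : t' * (z * s) * t'⁻¹ = z := by rw [hc3, h3, h2, mul_assoc, hss, mul_one]
  refine ⟨⟨h1, hts⟩, ⟨h3, h2⟩, ⟨?_, ?_⟩, ⟨?_, ?_⟩, ⟨?_, ?_⟩⟩
  · rw [hc2, h3, h4]
  · rw [hc2, h2, hts]
  · rw [hc2, h1, h3]
  · rw [hc2, hts, h5]
  · rw [hc2, h1, hc2, h3, h4]
  · rw [hc2, hts, hc2, h5, h1]

end words

theorem mem_CV (P : PairS Q Q' z s g) {c : G} :
    c ∈ Subgroup.centralizer ((Subgroup.closure ({z, s} : Set G) : Subgroup G) : Set G) ↔
      c * z = z * c ∧ c * s = s * c := by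
  rw [Subgroup.mem_centralizer_iff]
  constructor
  · intro h
    exact ⟨(h z ((P.mem_V z).mpr (Or.inr (Or.inl rfl)))).symm,
      (h s ((P.mem_V s).mpr (Or.inr (Or.inr (Or.inl rfl))))).symm⟩
  · rintro ⟨h1, h2⟩ v hv
    rcases (P.mem_V v).mp hv with rfl | rfl | rfl | rfl
    · simp
    · exact h1.symm
    · exact h2.symm
    · calc z * s * c = z * (s * c) := by group
        _ = z * (c * s) := by rw [h2]
        _ = (z * c) * s := by group
        _ = (c * z) * s := by rw [h1]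
        _ = c * (z * s) := by group

/-- Let Q be a large extraspecial 2-subgroup of the finite group G (extraspecial; centralizer equal to its centre; normal in the centralizer of its centre; normalizing no non-trivial subgroup of odd order) with centre generated by z, an involution, of width w ≥ 2 (order 2^(2w+1)); let g be an element outside the centralizer H of z with g z g⁻¹ in Q; write V for the subgroup generated by z and g z g⁻¹, X for the subgroup generated by Q and g Q g⁻¹, R for the subgroup generated by the centralizer of z in g Q g⁻¹ and the centralizer of g z g⁻¹ in Q, and E for the intersection of Q and g Q g⁻¹. Then R is the centralizer of V in X and is the largest normal 2-subgroup of X, and X/R is isomorphic to the symmetric group of degree 3; moreover the normalizer of V is the product of X and the centralizer of V in H, X is normal in it, and modulo R it is the direct product of X/R and of the centralizer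 of V in H modulo R. -/
theorem result {G : Type*} [Group G] [Finite G] (Q : Subgroup G) (hQ : Cfsg.IsLargeExtraspecial Q) (z : G) (hz : ((Subgroup.center ↥Q).map Q.subtype) = Subgroup.zpowers z) (hz2 : orderOf z = 2) (w : ℕ) (hw : 2 ≤ w) (hcard : Nat.card ↥Q = 2 ^ (2 * w + 1)) (g : G) (hgH : g ∉ Subgroup.centralizer ({z} : Set G)) (hgQ : g * z * g⁻¹ ∈ Q) (V X R E : Subgroup G) (hV : V = Subgroup.closure ({z, g * z * g⁻¹} : Set G)) (hX : X = Q ⊔ (Q).map (MulAut.conj g).toMonoidHom) (hR : R = ((Q).map (MulAut.conj g).toMonoidHom ⊓ Subgroup.centralizer ({z} : Set G)) ⊔ (Q ⊓ Subgroup.centralizer ({g * z * g⁻¹} : Set G))) (hE : E = Q ⊓ (Q).map (MulAut.conj g).toMonoidHom) : R = X ⊓ Subgroup.centralizer (V : Set G) ∧ R = (Cfsg.pCore 2 ↥X).map X.subtype ∧ (∃ h : (R.subgroupOf X).Normal, Nonempty (↥X ⧸ R.subgroupOf X ≃* Equiv.Perm (Fin 3))) ∧ Subgroup.normalizer (V : Set G) = X ⊔ (Subgroup.centralizer ({z} : Set G) ⊓ Subgroup.centralizer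 (V : Set G)) ∧ (∀ y ∈ Subgroup.normalizer (V : Set G), ∀ x ∈ X, y * x * y⁻¹ ∈ X) ∧ R ≤ Subgroup.centralizer ({z} : Set G) ⊓ Subgroup.centralizer (V : Set G) ∧ (∀ x ∈ X, ∀ c ∈ Subgroup.centralizer ({z} : Set G) ⊓ Subgroup.centralizer (V : Set G), x * c * x⁻¹ * c⁻¹ ∈ R) ∧ X ⊓ (Subgroup.centralizer ({z} : Set G) ⊓ Subgroup.centralizer (V : Set G)) = R := by
  have : Fact (Nat.Prime 2) := ⟨Nat.prime_two⟩
  have P := exists_pair hQ hz hz2 hw hcard hgH hgQ
  set s := g * z * g⁻¹ with hs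
  set Q' := Q.map (MulAut.conj g).toMonoidHom with hQ'
  have hRR : R = PairS.RR Q Q' z s := hR
  subst hV hX hRR hE
  obtain ⟨t, ht, hts⟩ := P.exists_t
  obtain ⟨t', ht', ht'z⟩ := P.symm.exists_t
  obtain ⟨hn, ⟨φ⟩, hword⟩ := quot_facts P ht hts ht' ht'z
  obtain ⟨hA1, hA2, hA3, hA4, hA5⟩ := word_acts P ht hts ht' ht'z
  have hzz := P.zz
  have hss := P.ss
  have hzs := P.zs
  have hz1 := P.z1
  have hs1 := P.s1
  have hne : z ≠ s := P.hne.symm
  have hz_ne_zs : z ≠ z * s := fun h => hs1 (by simpa using h)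
  have hs_ne_zs : s ≠ z * s := fun h => hz1 (by simpa using h)
  -- `R` centralizes `V`
  have hRCV : RR Q Q' z s ≤ Subgroup.centralizer
      ((Subgroup.closure ({z, s} : Set G) : Subgroup G) : Set G) := by
    intro r hr
    exact (mem_CV P).mpr ⟨P.R_comm_z hr, P.R_comm_s hr⟩
  have hinf : (Q ⊔ Q') ⊓ Subgroup.centralizer
      ((Subgroup.closure ({z, s} : Set G) : Subgroup G) : Set G) ≤ RR Q Q' z s := by
    rintro x ⟨hx, hxC⟩
    obtain ⟨h1, h2⟩ := (mem_CV P).mp hxC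
    obtain ⟨w, hW, hxw⟩ := hword x hx
    have hw1 : w * z = z * w := by
      have h3 := P.R_comm_z hxw
      have h4 : w = x * (x⁻¹ * w) := by group
      rw [h4]
      calc x * (x⁻¹ * w) * z = x * ((x⁻¹ * w) * z) := by group
        _ = x * (z * (x⁻¹ * w)) := by rw [h3]
        _ = (x * z) * (x⁻¹ * w) := by group
        _ = (z * x) * (x⁻¹ * w) := by rw [h1]
        _ = z * (x * (x⁻¹ * w)) := by group
    have hw2 : w * s = s * w := by
      have h3 := P.R_comm_s hxw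
      have h4 : w = x * (x⁻¹ * w) := by group
      rw [h4]
      calc x * (x⁻¹ * w) * s = x * ((x⁻¹ * w) * s) := by group
        _ = x * (s * (x⁻¹ * w)) := by rw [h3]
        _ = (x * s) * (x⁻¹ * w) := by group
        _ = (s * x) * (x⁻¹ * w) := by rw [h2]
        _ = s * (x * (x⁻¹ * w)) := by group
    have hw1' := conj_eq_of_comm hw1
    have hw2' := conj_eq_of_comm hw2
    rcases hW with rfl | rfl | rfl | rfl | rfl | rfl
    · have := Subgroup.inv_mem _ hxw
      simpa using this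
    · rw [hA1.2] at hw2'
      exact absurd hw2'.symm hs_ne_zs
    · rw [hA2.1] at hw1'
      exact absurd hw1'.symm hz_ne_zs
    · rw [hA3.1] at hw1'
      exact absurd hw1'.symm hne
    · rw [hA4.1] at hw1'
      exact absurd hw1'.symm hz_ne_zs
    · rw [hA5.1] at hw1'
      exact absurd hw1'.symm hne
  have hReq : RR Q Q' z s = (Q ⊔ Q') ⊓ Subgroup.centralizer
      ((Subgroup.closure ({z, s} : Set G) : Subgroup G) : Set G) :=
    le_antisymm (le_inf (R_le_X _ _ _ _) hRCV) hinf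
  -- `C(V)` normalizes `X`
  have hcX : ∀ c, c * z = z * c → c * s = s * c → ∀ x ∈ Q ⊔ Q', c * x * c⁻¹ ∈ Q ⊔ Q' := by
    intro c h1 h2 x hx
    have h3 : Q ⊔ Q' ≤ (Q ⊔ Q').comap (MulAut.conj c).toMonoidHom := by
      refine sup_le ?_ ?_
      · intro q hq
        have := P.hS.nQ c h1 q hq
        simpa [MulAut.conj_apply] using (le_sup_left : Q ≤ Q ⊔ Q') this
      · intro q hq
        have := P.hS'.nQ c h2 q hq
        simpa [MulAut.conj_apply] using (le_sup_right : Q' ≤ Q ⊔ Q') this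
    have := h3 hx
    simpa [MulAut.conj_apply] using this
  have hcX' : ∀ c, c * z = z * c → c * s = s * c → c ∈ Subgroup.normalizer
      ((Q ⊔ Q' : Subgroup G) : Set G) := by
    intro c h1 h2
    rw [Subgroup.mem_normalizer_iff]
    intro x
    refine ⟨hcX c h1 h2 x, fun h => ?_⟩
    have hi1 : c⁻¹ * z = z * c⁻¹ := by
      have : c⁻¹ * (c * z) * c⁻¹ = c⁻¹ * (z * c) * c⁻¹ := by rw [h1]
      simpa [mul_assoc] using this.symm
    have hi2 : c⁻¹ * s = s * c⁻¹ := by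
      have : c⁻¹ * (c * s) * c⁻¹ = c⁻¹ * (s * c) * c⁻¹ := by rw [h2]
      simpa [mul_assoc] using this.symm
    have := hcX c⁻¹ hi1 hi2 _ h
    simpa [mul_assoc] using this
  -- the normalizer of `V`
  have hNV : Subgroup.normalizer ((Subgroup.closure ({z, s} : Set G) : Subgroup G) : Set G) =
      (Q ⊔ Q') ⊔ (Subgroup.centralizer ({z} : Set G) ⊓ Subgroup.centralizer
        ((Subgroup.closure ({z, s} : Set G) : Subgroup G) : Set G)) := by
    apply le_antisymm
    · intro y hy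
      -- the image of `(z, s)` under `y`
      have hVz : z ∈ Subgroup.closure ({z, s} : Set G) := (P.mem_V z).mpr (Or.inr (Or.inl rfl))
      have hVs : s ∈ Subgroup.closure ({z, s} : Set G) := (P.mem_V s).mpr (Or.inr (Or.inr (Or.inl rfl)))
      have h1 : y * z * y⁻¹ ∈ Subgroup.closure ({z, s} : Set G) := conj_mem_of_normalizer hy hVz
      have h2 : y * s * y⁻¹ ∈ Subgroup.closure ({z, s} : Set G) := conj_mem_of_normalizer hy hVs
      have h3 : y * z * y⁻¹ ≠ 1 := by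
        intro h; apply hz1
        have := mul_inv_eq_one.mp h
        exact mul_left_cancel (this.trans (mul_one _).symm)
      have h4 : y * s * y⁻¹ ≠ 1 := by
        intro h; apply hs1
        have := mul_inv_eq_one.mp h
        exact mul_left_cancel (this.trans (mul_one _).symm)
      have h5 : y * z * y⁻¹ ≠ y * s * y⁻¹ := by
        intro h; apply hne
        exact mul_left_cancel (mul_right_cancel h)
      have h1z : (1 : G) * z * (1 : G)⁻¹ = z := by simp
      have h1s : (1 : G) * s * (1 : G)⁻¹ = s := by simp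
      have hex : ∃ w, Word t t' w ∧ w * z * w⁻¹ = y * z * y⁻¹ ∧ w * s * w⁻¹ = y * s * y⁻¹ := by
        rcases (P.mem_V _).mp h1 with e1 | e1 | e1 | e1
        · exact absurd e1 h3
        all_goals
          rcases (P.mem_V _).mp h2 with e2 | e2 | e2 | e2
          · exact absurd e2 h4
          all_goals
            first
            | exact absurd (e1.trans e2.symm) h5
            | exact ⟨1, Or.inl rfl, h1z.trans e1.symm, h1s.trans e2.symm⟩
            | exact ⟨t, Or.inr (Or.inl rfl), hA1.1.trans e1.symm, hA1.2.trans e2.symm⟩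
            | exact ⟨t', Or.inr (Or.inr (Or.inl rfl)), hA2.1.trans e1.symm, hA2.2.trans e2.symm⟩
            | exact ⟨t * t', Or.inr (Or.inr (Or.inr (Or.inl rfl))), hA3.1.trans e1.symm,
                hA3.2.trans e2.symm⟩
            | exact ⟨t' * t, Or.inr (Or.inr (Or.inr (Or.inr (Or.inl rfl)))), hA4.1.trans e1.symm,
                hA4.2.trans e2.symm⟩
            | exact ⟨t * t' * t, Or.inr (Or.inr (Or.inr (Or.inr (Or.inr rfl)))), hA5.1.trans e1.symm,
                hA5.2.trans e2.symm⟩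
      obtain ⟨w, hW, hw1, hw2⟩ := hex
      have hWX := hW.mem_X ht ht'
      have hc1 : (w⁻¹ * y) * z = z * (w⁻¹ * y) := by
        apply comm_of_conj_eq
        have e : (w⁻¹ * y) * z * (w⁻¹ * y)⁻¹ = w⁻¹ * (y * z * y⁻¹) * w := by group
        rw [e, ← hw1]; group
      have hc2 : (w⁻¹ * y) * s = s * (w⁻¹ * y) := by
        apply comm_of_conj_eq
        have e : (w⁻¹ * y) * s * (w⁻¹ * y)⁻¹ = w⁻¹ * (y * s * y⁻¹) * w := by group
        rw [e, ← hw2]; group
      have e : y = w * (w⁻¹ * y) := by group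
      rw [e]
      refine Subgroup.mul_mem _ ((le_sup_left : Q ⊔ Q' ≤ _) hWX) ((le_sup_right :
        (Subgroup.centralizer ({z} : Set G) ⊓ _) ≤ _) ?_)
      exact ⟨Subgroup.mem_centralizer_singleton_iff.mpr hc1, (mem_CV P).mpr ⟨hc1, hc2⟩⟩
    · refine sup_le P.X_le_NV ?_
      rintro c ⟨-, hc⟩
      obtain ⟨h1, h2⟩ := (mem_CV P).mp hc
      rw [Subgroup.mem_normalizer_iff]
      have hi1 : c⁻¹ * z = z * c⁻¹ := by
        have : c⁻¹ * (c * z) * c⁻¹ = c⁻¹ * (z * c) * c⁻¹ := by rw [h1]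
        simpa [mul_assoc] using this.symm
      have hi2 : c⁻¹ * s = s * c⁻¹ := by
        have : c⁻¹ * (c * s) * c⁻¹ = c⁻¹ * (s * c) * c⁻¹ := by rw [h2]
        simpa [mul_assoc] using this.symm
      have hconj : ∀ d, d * z = z * d → d * s = s * d → ∀ v ∈ Subgroup.closure ({z, s} : Set G),
          d * v * d⁻¹ ∈ Subgroup.closure ({z, s} : Set G) := by
        intro d hd1 hd2 v hv
        have h3 : d ∈ Subgroup.centralizer
            ((Subgroup.closure ({z, s} : Set G) : Subgroup G) : Set G) := (mem_CV P).mpr ⟨hd1, hd2⟩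
        rw [Subgroup.mem_centralizer_iff] at h3
        have h4 := h3 v hv
        have : d * v * d⁻¹ = v := conj_eq_of_comm h4.symm
        rw [this]; exact hv
      intro v
      refine ⟨hconj c h1 h2 v, fun h => ?_⟩
      have := hconj c⁻¹ hi1 hi2 _ h
      simpa [mul_assoc] using this
  -- normality of `X` in the normalizer of `V`
  have hXN : ∀ y ∈ Subgroup.normalizer ((Subgroup.closure ({z, s} : Set G) : Subgroup G) : Set G),
      y ∈ Subgroup.normalizer ((Q ⊔ Q' : Subgroup G) : Set G) := by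
    intro y hy
    rw [hNV] at hy
    have hle : (Q ⊔ Q') ⊔ (Subgroup.centralizer ({z} : Set G) ⊓ Subgroup.centralizer
        ((Subgroup.closure ({z, s} : Set G) : Subgroup G) : Set G)) ≤
        Subgroup.normalizer ((Q ⊔ Q' : Subgroup G) : Set G) := by
      refine sup_le Subgroup.le_normalizer ?_
      rintro c ⟨-, hc⟩
      obtain ⟨h1, h2⟩ := (mem_CV P).mp hc
      exact hcX' c h1 h2
    exact hle hy
  -- `C(V)` normal in the normalizer of `V`
  have hCN : ∀ y ∈ Subgroup.normalizer ((Subgroup.closure ({z, s} : Set G) : Subgroup G) : Set G),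
      ∀ c ∈ Subgroup.centralizer ((Subgroup.closure ({z, s} : Set G) : Subgroup G) : Set G),
      y * c * y⁻¹ ∈ Subgroup.centralizer ((Subgroup.closure ({z, s} : Set G) : Subgroup G) : Set G) := by
    intro y hy c hc
    rw [Subgroup.mem_centralizer_iff] at hc ⊢
    intro v hv
    have h1 : y⁻¹ * v * y ∈ Subgroup.closure ({z, s} : Set G) := by
      have := conj_mem_of_normalizer (Subgroup.inv_mem _ hy) hv
      simpa using this
    have h2 := hc _ h1
    calc v * (y * c * y⁻¹) = y * ((y⁻¹ * v * y) * c) * y⁻¹ := by group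
      _ = y * (c * (y⁻¹ * v * y)) * y⁻¹ := by rw [h2]
      _ = y * c * y⁻¹ * v := by group
  have hCVz : ∀ c ∈ Subgroup.centralizer ((Subgroup.closure ({z, s} : Set G) : Subgroup G) : Set G),
      c ∈ Subgroup.centralizer ({z} : Set G) := by
    intro c hc
    exact Subgroup.mem_centralizer_singleton_iff.mpr ((mem_CV P).mp hc).1
  have hXCV : (Q ⊔ Q') ⊓ (Subgroup.centralizer ({z} : Set G) ⊓ Subgroup.centralizer
      ((Subgroup.closure ({z, s} : Set G) : Subgroup G) : Set G)) = RR Q Q' z s := by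
    rw [hReq]
    apply le_antisymm
    · exact inf_le_inf_left _ inf_le_right
    · rintro x ⟨hx, hc⟩
      exact ⟨hx, hCVz x hc, hc⟩
  refine ⟨hReq, ?_, ⟨hn, ⟨φ⟩⟩, hNV, ?_, ?_, ?_, hXCV⟩
  · -- `R = O₂(X)`
    apply le_antisymm
    · intro r hr
      have hrX := R_le_X _ _ _ _ hr
      refine ⟨⟨r, hrX⟩, ?_, rfl⟩
      have h1 : (RR Q Q' z s).subgroupOf (Q ⊔ Q') ≤ Cfsg.pCore 2 ↥(Q ⊔ Q') := by
        apply Cfsg.Agent.Lib.PCore.le_pCore hn
        exact (isPGroup_R P).comap_of_injective (Q ⊔ Q').subtype (Q ⊔ Q').subtype_injective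
      exact h1 (Subgroup.mem_subgroupOf.mpr hr)
    · rintro _ ⟨p, hp, rfl⟩
      let f : ↥(Q ⊔ Q') →* Equiv.Perm (Fin 3) :=
        φ.toMonoidHom.comp (QuotientGroup.mk' ((RR Q Q' z s).subgroupOf (Q ⊔ Q')))
      have hfs : Function.Surjective f :=
        φ.surjective.comp (QuotientGroup.mk'_surjective _)
      have hN : ((Cfsg.pCore 2 ↥(Q ⊔ Q')).map f).Normal :=
        (Cfsg.Agent.Lib.PCore.pCore_normal 2).map f hfs
      have hP2 : IsPGroup 2 ((Cfsg.pCore 2 ↥(Q ⊔ Q')).map f) :=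
        (Cfsg.Agent.Lib.PCore.isPGroup_pCore 2).map f
      have hbot := perm3_normal_two _ hN hP2
      have h1 : f p = 1 := by
        have : f p ∈ (Cfsg.pCore 2 ↥(Q ⊔ Q')).map f := ⟨p, hp, rfl⟩
        rw [hbot] at this
        exact (Subgroup.mem_bot).mp this
      have h2 : (QuotientGroup.mk' ((RR Q Q' z s).subgroupOf (Q ⊔ Q'))) p = 1 :=
        φ.map_eq_one_iff.mp h1
      have h3 := (QuotientGroup.eq_one_iff p).mp h2
      exact Subgroup.mem_subgroupOf.mp h3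
  · intro y hy x hx
    exact conj_mem_of_normalizer (hXN y hy) hx
  · intro r hr
    have := hRCV hr
    exact ⟨hCVz r this, this⟩
  · rintro x hx c ⟨-, hc⟩
    rw [hReq]
    have hyN := P.X_le_NV hx
    obtain ⟨h1, h2⟩ := (mem_CV P).mp hc
    refine ⟨?_, ?_⟩
    · have h3 : c * x⁻¹ * c⁻¹ ∈ Q ⊔ Q' := hcX c h1 h2 _ (Subgroup.inv_mem _ hx)
      have e : x * c * x⁻¹ * c⁻¹ = x * (c * x⁻¹ * c⁻¹) := by group
      rw [e]
      exact Subgroup.mul_mem _ hx h3
    · exact Subgroup.mul_mem _ (hCN x hyN c hc) (Subgroup.inv_mem _ hc)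

end Cfsg.Agent.S5430
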