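import Mathlib
import Cfsg.Statements.S5431
import Cfsg.Agent.Lib.LargePair

set_option autoImplicit false
open Cfsg

namespace Cfsg.Agent.S5431

open Cfsg.Agent.Lib.LargeExtra Cfsg.Agent.Lib.LargeFour Cfsg.Agent.Lib.LargePair

/-- Let Q be a large extraspecial 2-subgroup of the finite group G (extraspecial; centralizer equal to its centre; normal in the centralizer of its centre; normalizing no non-trivial subgroup of odd order) with centre generated by z, an involution, of width w ≥ 2 (order 2^(2w+1)); let g be an element outside the centralizer H of z with g z g⁻¹ in Q; write V for the subgroup generated by z and g z g⁻¹, X for the subgroup generated by Q and g Q g⁻¹, R for the subgroup generated by the centralizer of z in g Q g⁻¹ and the centralizer of g z g⁻¹ in Q, and E for the intersection of Q and g Q g⁻¹. Then V is the centre of R, E lies in the second centre of R, R is nilpotent of class at most 3, E and R/E are elementary abelian, R/E is the direct product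 of the images of the centralizer of g z g⁻¹ in Q and of the centralizer of z in g Q g⁻¹ (R is their product and they meet in E), and the commutator subgroup of X and E lies in V. -/
theorem result {G : Type*} [Group G] [Finite G] (Q : Subgroup G) (hQ : Cfsg.IsLargeExtraspecial Q) (z : G) (hz : ((Subgroup.center ↥Q).map Q.subtype) = Subgroup.zpowers z) (hz2 : orderOf z = 2) (w : ℕ) (hw : 2 ≤ w) (hcard : Nat.card ↥Q = 2 ^ (2 * w + 1)) (g : G) (hgH : g ∉ Subgroup.centralizer ({z} : Set G)) (hgQ : g * z * g⁻¹ ∈ Q) (V X R E : Subgroup G) (hV : V = Subgroup.closure ({z, g * z * g⁻¹} : Set G)) (hX : X = Q ⊔ (Q).map (MulAut.conj g).toMonoidHom) (hR : R = ((Q).map (MulAut.conj g).toMonoidHom ⊓ Subgroup.centralizer ({z} : Set G)) ⊔ (Q ⊓ Subgroup.centralizer ({g * z * g⁻¹} : Set G))) (hE : E = Q ⊓ (Q).map (MulAut.conj g).toMonoidHom) : (Subgroup.center ↥R).map R.subtype = V ∧ E ≤ (Subgroup.upperCentralSeries ↥R 2).map R.subtype ∧ Subgroup.upperCentralSeries ↥R 3 = ⊤ ∧ Cfsg.IsElementaryAbelian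 2 E ∧ (∀ x ∈ R, ∀ y ∈ R, x * y * x⁻¹ * y⁻¹ ∈ E ∧ x ^ 2 ∈ E) ∧ ((Q).map (MulAut.conj g).toMonoidHom ⊓ Subgroup.centralizer ({z} : Set G)) ⊓ (Q ⊓ Subgroup.centralizer ({g * z * g⁻¹} : Set G)) = E ∧ ⁅X, E⁆ ≤ V := by
  have P := exists_pair hQ hz hz2 hw hcard hgH hgQ
  set s := g * z * g⁻¹ with hs
  set Q' := Q.map (MulAut.conj g).toMonoidHom with hQ'
  have hRR : R = PairS.RR Q Q' z s := hR
  subst hV hX hRR hE
  have hcen := P.center_R
  have hcomm := P.R_comm_sq
  have hEV := P.comm_X_E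
  have hvc : ∀ x : ↥(PairS.RR Q Q' z s), ((x : G) ∈ Subgroup.closure ({z, s} : Set G)) →
      x ∈ Subgroup.center ↥(PairS.RR Q Q' z s) := by
    intro x hx
    rw [Subgroup.mem_center_iff]
    rintro ⟨r, hr⟩
    exact Subtype.ext (P.V_comm_R hx hr).symm
  have hcomm2 : ∀ e ∈ Q ⊓ Q', ∀ x ∈ Q ⊔ Q',
      e * x * e⁻¹ * x⁻¹ ∈ Subgroup.closure ({z, s} : Set G) := by
    intro e he x hx
    have h1 := hEV (Subgroup.commutator_mem_commutator hx he)
    have h2 : e * x * e⁻¹ * x⁻¹ = (x * e * x⁻¹ * e⁻¹)⁻¹ := by group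
    rw [h2]
    exact Subgroup.inv_mem _ h1
  have hRX : PairS.RR Q Q' z s ≤ Q ⊔ Q' := by
    refine sup_le ?_ ?_
    · exact inf_le_left.trans le_sup_right
    · exact inf_le_left.trans le_sup_left
  have hE2 : ∀ x : ↥(PairS.RR Q Q' z s), (x : G) ∈ Q ⊓ Q' →
      x ∈ Subgroup.upperCentralSeries ↥(PairS.RR Q Q' z s) 2 := by
    intro x hx
    rw [Subgroup.mem_upperCentralSeries_succ_iff]
    rintro ⟨r, hr⟩
    rw [Subgroup.upperCentralSeries_one]
    apply hvc
    exact hcomm2 _ hx _ (hRX hr)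
  refine ⟨hcen, ?_, ?_, P.inter_elementary, fun x hx y hy => ⟨hcomm.1 x hx y hy, hcomm.2 x hx⟩,
    P.R2_inf_R1, hEV⟩
  · intro e he
    exact ⟨⟨e, P.inter_le_R he⟩, hE2 _ he, rfl⟩
  · rw [eq_top_iff]
    rintro x -
    rw [Subgroup.mem_upperCentralSeries_succ_iff]
    intro y
    apply hE2
    exact hcomm.1 _ x.2 _ y.2

end Cfsg.Agent.S5431
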