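import Mathlib
import Cfsg.Statements.S5432
import Cfsg.Agent.Lib.ExtraOut79
import Cfsg.Agent.S2562

set_option autoImplicit false
open Cfsg

namespace Cfsg.Agent.S5432

open Matrix
open Cfsg.Agent.Lib.ExtraOut79 Cfsg.Agent.Lib.ExtraES Cfsg.Agent.Lib.ExtraES2

variable {ι : Type} [Fintype ι] [DecidableEq ι] {C : Matrix ι ι (ZMod 2)}

def Cp (n : ℕ) : Matrix (Fin n ⊕ Fin n) (Fin n ⊕ Fin n) (ZMod 2) := fromBlocks 0 1 0 0

def Cm (m : ℕ) : Matrix ((Fin m ⊕ Fin m) ⊕ Fin 2) ((Fin m ⊕ Fin m) ⊕ Fin 2) (ZMod 2) :=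
  fromBlocks (Cp m) 0 0 !![1, 1; 0, 1]

theorem bet_Cp (n : ℕ) (v w : Fin n ⊕ Fin n → ZMod 2) :
    bet (Cp n) v w = ∑ i, v (Sum.inl i) * w (Sum.inr i) := by
  simp [bet, Cp, dotProduct, mulVec, Fintype.sum_sum_type, Matrix.one_apply]

theorem bet_Cm (m : ℕ) (v w : (Fin m ⊕ Fin m) ⊕ Fin 2 → ZMod 2) :
    bet (Cm m) v w = (∑ i, v (Sum.inl (Sum.inl i)) * w (Sum.inl (Sum.inr i))) +
      (v (Sum.inr 0) * w (Sum.inr 0) + v (Sum.inr 0) * w (Sum.inr 1) + v (Sum.inr 1) * w (Sum.inr 1)) := by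
  simp [bet, Cm, Cp, dotProduct, mulVec, Fintype.sum_sum_type, Matrix.one_apply, Fin.sum_univ_two]
  ring

theorem hQp (n : ℕ) (v : Fin n ⊕ Fin n → ZMod 2) : Cfsg.quadFormPlus n (ZMod 2) v = bet (Cp n) v v := by
  rw [bet_Cp]
  rfl

theorem hQm (m : ℕ) (v : (Fin m ⊕ Fin m) ⊕ Fin 2 → ZMod 2) :
    Cfsg.quadFormMinus m (ZMod 2) 1 1 v = bet (Cm m) v v := by
  rw [bet_Cm]
  simp only [Cfsg.quadFormMinus]
  ring

theorem nd_Cp (n : ℕ) : ND (Cp n) := by
  intro v hv
  funext x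
  rcases x with i | i
  · have := hv (Pi.single (Sum.inr i) 1)
    rw [bet_Cp, bet_Cp] at this
    simpa [Pi.single_apply, Finset.sum_ite_eq] using this
  · have := hv (Pi.single (Sum.inl i) 1)
    rw [bet_Cp, bet_Cp] at this
    simpa [Pi.single_apply, Finset.sum_ite_eq] using this

theorem nd_Cm (m : ℕ) : ND (Cm m) := by
  intro v hv
  funext x
  rcases x with (i | i) | i
  · have := hv (Pi.single (Sum.inl (Sum.inr i)) 1)
    rw [bet_Cm, bet_Cm] at this
    simpa [Pi.single_apply, Finset.sum_ite_eq] using this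
  · have := hv (Pi.single (Sum.inl (Sum.inl i)) 1)
    rw [bet_Cm, bet_Cm] at this
    simpa [Pi.single_apply, Finset.sum_ite_eq] using this
  · have h0 := hv (Pi.single (Sum.inr 0) 1)
    have h1 := hv (Pi.single (Sum.inr 1) 1)
    rw [bet_Cm, bet_Cm] at h0 h1
    simp [Pi.single_apply] at h0 h1
    fin_cases i
    · show v (Sum.inr 0) = 0
      linear_combination h1 - two_z (v (Sum.inr 1))
    · show v (Sum.inr 1) = 0
      linear_combination h0 - two_z (v (Sum.inr 0))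

/-- A totally singular subspace yields an elementary abelian subgroup. -/
def tsSub (U : Submodule (ZMod 2) (ι → ZMod 2)) : Subgroup (XS C) where
  carrier := {a | a.v ∈ U}
  mul_mem' ha hb := U.add_mem ha hb
  one_mem' := U.zero_mem
  inv_mem' ha := ha

theorem tsSub_ea (U : Submodule (ZMod 2) (ι → ZMod 2)) (hU : ∀ u ∈ U, bet C u u = 0) :
    Cfsg.IsElementaryAbelian 2 (tsSub (C := C) U) := by
  refine ⟨⟨⟨?_⟩⟩, ?_⟩
  · rintro ⟨a, ha⟩ ⟨b, hb⟩
    apply Subtype.ext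
    show a * b = b * a
    rw [comm_formula a b]
    have h1 := hU (a.v + b.v) (U.add_mem ha hb)
    rw [bet_add_left, bet_add_right, bet_add_right, hU _ ha, hU _ hb] at h1
    have h2 : bet C a.v b.v + bet C b.v a.v = 0 := by
      linear_combination h1
    rw [h2, cen_zero, one_mul]
  · intro a ha
    rw [pow_two, sq_formula, hU _ ha, cen_zero]

theorem card_tsSub (U : Submodule (ZMod 2) (ι → ZMod 2)) :
    Nat.card (tsSub (C := C) U) = 2 ^ (Module.finrank (ZMod 2) U + 1) := by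
  have e : (tsSub (C := C) U) ≃ U × ZMod 2 :=
    { toFun := fun a => (⟨a.1.v, a.2⟩, a.1.c)
      invFun := fun p => ⟨⟨p.1.1, p.2⟩, p.1.2⟩
      left_inv := fun _ => rfl
      right_inv := fun _ => rfl }
  rw [Nat.card_congr e, Nat.card_prod, Module.natCard_eq_pow_finrank (K := ZMod 2) (V := U)]
  simp [pow_succ]

/-- Elementary abelian subgroups give totally singular subspaces. -/
theorem card_le_of_ea (A : Subgroup (XS C)) (hA : Cfsg.IsElementaryAbelian 2 A) (k : ℕ)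
    (hts : ∀ U : Submodule (ZMod 2) (ι → ZMod 2), (∀ u ∈ U, bet C u u = 0) → Module.finrank (ZMod 2) U ≤ k) :
    Nat.card A ≤ 2 ^ (k + 1) := by
  let W' : AddSubgroup (ι → ZMod 2) :=
    { carrier := {v | ∃ a ∈ A, a.v = v}
      add_mem' := by
        rintro _ _ ⟨a, ha, rfl⟩ ⟨b, hb, rfl⟩
        exact ⟨a * b, A.mul_mem ha hb, rfl⟩
      zero_mem' := ⟨1, A.one_mem, rfl⟩
      neg_mem' := by
        rintro _ ⟨a, ha, rfl⟩
        refine ⟨a⁻¹, A.inv_mem ha, ?_⟩
        funext i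
        simp }
  let W : Submodule (ZMod 2) (ι → ZMod 2) := AddSubgroup.toZModSubmodule 2 W'
  have hW : ∀ u ∈ W, bet C u u = 0 := by
    rintro u ⟨a, ha, rfl⟩
    have h1 := hA.2 a ha
    rw [pow_two, sq_formula] at h1
    exact congrArg XS.c h1
  have hk := hts W hW
  have hinj : Function.Injective (fun a : A => ((⟨(a : XS C).v, ⟨a, a.2, rfl⟩⟩ : W), (a : XS C).c)) := by
    intro a b h
    apply Subtype.ext
    have h1 := congrArg Prod.fst h
    have h2 := congrArg Prod.snd h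
    ext1
    · exact congrArg Subtype.val h1
    · exact h2
  have h3 := Nat.card_le_card_of_injective _ hinj
  rw [Nat.card_prod, Module.natCard_eq_pow_finrank (K := ZMod 2) (V := W)] at h3
  simp only [Nat.card_zmod] at h3
  calc Nat.card A ≤ 2 ^ Module.finrank (ZMod 2) W * 2 := by simpa using h3
    _ ≤ 2 ^ k * 2 := Nat.mul_le_mul_right _ (Nat.pow_le_pow_right (by norm_num) hk)
    _ = 2 ^ (k + 1) := by rw [pow_succ]

/-- Transport. -/
theorem ea_map {G H : Type*} [Group G] [Group H] (φ : G ≃* H) (A : Subgroup G) (k : ℕ)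
    (hA : Cfsg.IsElementaryAbelian 2 A) (hc : Nat.card A = k) :
    ∃ B : Subgroup H, Cfsg.IsElementaryAbelian 2 B ∧ Nat.card B = k := by
  refine ⟨A.map φ.toMonoidHom, ⟨⟨⟨?_⟩⟩, ?_⟩, ?_⟩
  · rintro ⟨_, a, ha, rfl⟩ ⟨_, b, hb, rfl⟩
    apply Subtype.ext
    show φ.toMonoidHom a * φ.toMonoidHom b = φ.toMonoidHom b * φ.toMonoidHom a
    rw [← map_mul, ← map_mul]
    have := hA.1.is_comm.comm ⟨a, ha⟩ ⟨b, hb⟩
    rw [show a * b = b * a from congrArg Subtype.val this]
  · rintro _ ⟨a, ha, rfl⟩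
    show φ.toMonoidHom a ^ 2 = 1
    rw [← map_pow, hA.2 a ha, map_one]
  · rw [← hc]
    exact Nat.card_congr (Subgroup.equivMapOfInjective A _ φ.injective).toEquiv.symm

/-- Let E be an extraspecial 2-group of order 2^(2n+1), n ≥ 1. If E contains an elementary abelian subgroup of order 2^(n+1) (plus type), then its outer automorphism group is isomorphic to the full isometry group of the hyperbolic quadratic form in dimension 2n over the field with two elements; otherwise (minus type) it is isomorphic to the full isometry group of the elliptic quadratic form in dimension 2n over that field. -/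
theorem result {E : Type*} [Group E] [Finite E] (hE : Cfsg.IsExtraspecial 2 E) (n : ℕ) (hn : 1 ≤ n) (hcard : Nat.card E = 2 ^ (2 * n + 1)) : ((∃ A : Subgroup E, Cfsg.IsElementaryAbelian 2 A ∧ Nat.card ↥A = 2 ^ (n + 1)) → Nonempty (Cfsg.Out E ≃* Cfsg.isometryGroup (ZMod 2) (Cfsg.quadFormPlus n (ZMod 2)))) ∧ ((¬ ∃ A : Subgroup E, Cfsg.IsElementaryAbelian 2 A ∧ Nat.card ↥A = 2 ^ (n + 1)) → Nonempty (Cfsg.Out E ≃* Cfsg.isometryGroup (ZMod 2) (Cfsg.quadFormMinus (n - 1) (ZMod 2) 1 1))) := by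
  haveI : Fact (Nat.Prime 2) := ⟨Nat.prime_two⟩
  obtain ⟨z, hz⟩ := exists_ES hE
  obtain ⟨⟨U, hU, hUd⟩, -, -, hts⟩ := Cfsg.Agent.S2562.result n hn
  have hUp : ∃ A : Subgroup (XS (Cp n)), Cfsg.IsElementaryAbelian 2 A ∧ Nat.card ↥A = 2 ^ (n + 1) :=
    ⟨tsSub U, tsSub_ea U (fun u hu => by rw [← hQp]; exact hU u hu), by rw [card_tsSub, hUd]⟩
  have hNo : ¬ ∃ A : Subgroup (XS (Cm (n - 1))), Cfsg.IsElementaryAbelian 2 A ∧ Nat.card ↥A = 2 ^ (n + 1) := by
    rintro ⟨A, hA, hc⟩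
    have h1 := card_le_of_ea A hA (n - 1) (fun U hU =>
      hts U (fun u hu => by rw [hQm]; exact hU u hu))
    rw [hc] at h1
    have h2 : 2 ^ (n + 1) ≤ 2 ^ (n - 1 + 1) := h1
    have h3 := (Nat.pow_le_pow_iff_right (by norm_num : 1 < 2)).1 h2
    omega
  have hcp : Nat.card (XS (Cp n)) = 2 ^ (2 * n + 1) := by
    rw [card_XS]
    simp [two_mul]
  have hcm : Nat.card (XS (Cm (n - 1))) = 2 ^ (2 * n + 1) := by
    rw [card_XS]
    congr 1
    simp
    omega
  have hcases := two_classes n E (XS (Cp n)) (XS (Cm (n - 1))) z _ _ hz (es_XS (nd_Cp n)) (es_XS (nd_Cm (n - 1)))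
    hcard hcp hcm
  have hnot : ¬ Nonempty (XS (Cp n) ≃* XS (Cm (n - 1))) := by
    rintro ⟨φ⟩
    obtain ⟨A, hA, hc⟩ := hUp
    exact hNo (ea_map φ A _ hA hc)
  constructor
  · rintro ⟨A, hA, hc⟩
    rcases hcases with h | h | h
    · obtain ⟨e⟩ := h
      exact out_iso (nd_Cp n) (hQp n) e
    · exact (hnot h).elim
    · obtain ⟨e⟩ := h
      exact (hNo (ea_map e A _ hA hc)).elim
  · intro hno
    rcases hcases with h | h | h
    · obtain ⟨e⟩ := h
      obtain ⟨A, hA, hc⟩ := hUp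
      exact (hno (ea_map e.symm A _ hA hc)).elim
    · exact (hnot h).elim
    · obtain ⟨e⟩ := h
      exact out_iso (nd_Cm (n - 1)) (hQm (n - 1)) e

end Cfsg.Agent.S5432
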