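import Mathlib
import Cfsg.Statements.S5435
import Cfsg.Agent.Lib.MaxP
import Cfsg.Agent.Lib.Frat
import Cfsg.Agent.Lib.InvolutionDihedral

set_option autoImplicit false
open Cfsg
open scoped commutatorElement

namespace Cfsg.Agent.S5435

open Cfsg.Agent.Lib.MaxP

variable {L : Type*} [Group L]

/-- The centralizer of an element. -/
abbrev cz (x : L) : Subgroup L := Subgroup.centralizer ({x} : Set L)

theorem mem_cz {a x : L} : a ∈ cz x ↔ a * x = x * a := Subgroup.mem_centralizer_singleton_iff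

theorem comm_conj {a z g : L} (h : a * (g * z * g⁻¹) = (g * z * g⁻¹) * a) :
    (g⁻¹ * a * g) * z = z * (g⁻¹ * a * g) := by
  have h1 : g⁻¹ * (a * (g * z * g⁻¹)) * g = g⁻¹ * ((g * z * g⁻¹) * a) * g := by rw [h]
  calc g⁻¹ * a * g * z = g⁻¹ * (a * (g * z * g⁻¹)) * g := by group
    _ = g⁻¹ * ((g * z * g⁻¹) * a) * g := h1
    _ = z * (g⁻¹ * a * g) := by group

theorem comm_conj' {a z g : L} (h : a * z = z * a) :
    (g * a * g⁻¹) * (g * z * g⁻¹) = (g * z * g⁻¹) * (g * a * g⁻¹) := by
  calc g * a * g⁻¹ * (g * z * g⁻¹) = g * (a * z) * g⁻¹ := by group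
    _ = g * (z * a) * g⁻¹ := by rw [h]
    _ = (g * z * g⁻¹) * (g * a * g⁻¹) := by group

theorem map_conj_cz (g x : L) :
    (cz x).map (MulAut.conj g).toMonoidHom = cz (g * x * g⁻¹) := by
  ext c
  constructor
  · rintro ⟨d, hd, rfl⟩
    have hd' : d * x = x * d := mem_cz.mp hd
    rw [mem_cz]
    simpa [MulAut.conj_apply] using comm_conj' (g := g) hd'
  · intro hc
    have hc' := mem_cz.mp hc
    refine ⟨g⁻¹ * c * g, mem_cz.mpr (comm_conj hc'), ?_⟩
    simp [MulAut.conj_apply]; group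

/-- The hypotheses on an involution. -/
structure Good (z : L) : Prop where
  two : z * z = 1
  ne : z ≠ 1
  comm : ∀ a b, a * z = z * a → b * z = z * b → a * b * a⁻¹ * b⁻¹ = 1 ∨ a * b * a⁻¹ * b⁻¹ = z
  sq : ∀ a, a * z = z * a → a * a = 1 ∨ a * a = z
  frat : ∀ N : Subgroup L, (∀ a b, a * z = z * a → b * z = z * b → a * b * a⁻¹ * b⁻¹ ∈ N) →
    (∀ a, a * z = z * a → a * a ∈ N) → z ∈ N
  syl : ∀ T : Subgroup L, IsPGroup 2 T → ∃ c, ∀ t ∈ T, (c * t * c⁻¹) * z = z * (c * t * c⁻¹)
  max : ∀ T : Subgroup L, cz z ≤ T → IsPGroup 2 T → T = cz z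
  pg : IsPGroup 2 (cz z)

theorem Good.conj {z : L} (h : Good z) (g : L) : Good (g * z * g⁻¹) where
  two := by
    calc g * z * g⁻¹ * (g * z * g⁻¹) = g * (z * z) * g⁻¹ := by group
      _ = 1 := by rw [h.two]; group
  ne := by
    intro h1
    apply h.ne
    have h2 := mul_inv_eq_one.mp h1
    exact mul_left_cancel (h2.trans (mul_one _).symm)
  comm := by
    intro a b ha hb
    have e : (g⁻¹ * a * g) * (g⁻¹ * b * g) * (g⁻¹ * a * g)⁻¹ * (g⁻¹ * b * g)⁻¹ =
        g⁻¹ * (a * b * a⁻¹ * b⁻¹) * g := by group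
    rcases h.comm _ _ (comm_conj ha) (comm_conj hb) with h1 | h1 <;> rw [e] at h1
    · left
      have : a * b * a⁻¹ * b⁻¹ = g * (g⁻¹ * (a * b * a⁻¹ * b⁻¹) * g) * g⁻¹ := by group
      rw [this, h1]; group
    · right
      have : a * b * a⁻¹ * b⁻¹ = g * (g⁻¹ * (a * b * a⁻¹ * b⁻¹) * g) * g⁻¹ := by group
      rw [this, h1]
  sq := by
    intro a ha
    have e : (g⁻¹ * a * g) * (g⁻¹ * a * g) = g⁻¹ * (a * a) * g := by group
    rcases h.sq _ (comm_conj ha) with h1 | h1 <;> rw [e] at h1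
    · left
      have : a * a = g * (g⁻¹ * (a * a) * g) * g⁻¹ := by group
      rw [this, h1]; group
    · right
      have : a * a = g * (g⁻¹ * (a * a) * g) * g⁻¹ := by group
      rw [this, h1]
  frat := by
    intro N h1 h2
    have := h.frat (N.comap (MulAut.conj g).toMonoidHom) ?_ ?_
    · simpa [MulAut.conj_apply] using this
    · intro a b ha hb
      have := h1 _ _ (comm_conj' (g := g) ha) (comm_conj' (g := g) hb)
      have e : (g * a * g⁻¹) * (g * b * g⁻¹) * (g * a * g⁻¹)⁻¹ * (g * b * g⁻¹)⁻¹ =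
          g * (a * b * a⁻¹ * b⁻¹) * g⁻¹ := by group
      rw [e] at this
      simpa [MulAut.conj_apply] using this
    · intro a ha
      have := h2 _ (comm_conj' (g := g) ha)
      have e : (g * a * g⁻¹) * (g * a * g⁻¹) = g * (a * a) * g⁻¹ := by group
      rw [e] at this
      simpa [MulAut.conj_apply] using this
  syl := by
    intro T hT
    obtain ⟨c, hc⟩ := h.syl T hT
    refine ⟨g * c, fun t ht => ?_⟩
    have := comm_conj' (g := g) (hc t ht)
    have e : g * c * t * (g * c)⁻¹ = g * (c * t * c⁻¹) * g⁻¹ := by group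
    rw [e]
    exact this
  max := by
    intro T h1 h2
    have h3 : T.map (MulAut.conj g⁻¹).toMonoidHom = cz z := by
      apply h.max
      · intro a ha
        refine ⟨g * a * g⁻¹, h1 (mem_cz.mpr (comm_conj' (mem_cz.mp ha))), ?_⟩
        simp [MulAut.conj_apply]
        group
      · exact h2.map _
    rw [← map_conj_cz, ← h3]
    ext x
    constructor
    · intro hx
      refine ⟨g⁻¹ * x * g, ⟨x, hx, by simp [MulAut.conj_apply]⟩, ?_⟩
      simp [MulAut.conj_apply]
      group
    · rintro ⟨_, ⟨y, hy, rfl⟩, rfl⟩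
      simpa [MulAut.conj_apply, mul_assoc] using hy
  pg := by
    rw [← map_conj_cz]
    exact h.pg.map _

theorem Good.of_isConj {z x : L} (h : Good z) (hx : IsConj z x) : Good x := by
  obtain ⟨g, rfl⟩ := isConj_iff.mp hx
  exact h.conj g

theorem eq_of_mem_zpowers {y z : L} (hyy : y * y = 1) (h : z ∈ Subgroup.zpowers y) :
    z = 1 ∨ z = y := by
  obtain ⟨k, rfl⟩ := Subgroup.mem_zpowers_iff.mp h
  have h2 : y ^ (2 : ℤ) = 1 := by
    rw [zpow_ofNat, pow_two]; exact hyy
  rcases Int.emod_two_eq_zero_or_one k with h | h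
  · left
    have : k = 2 * (k / 2) := by omega
    rw [this, zpow_mul, h2, one_zpow]
  · right
    have : k = 2 * (k / 2) + 1 := by omega
    rw [this, zpow_add, zpow_mul, h2, one_zpow, one_mul, zpow_one]

variable [Finite L]

/-- A conjugate of `z` central in `C(z)` is `z`. -/
theorem Good.central_eq {z y : L} (h : Good z) (hy : IsConj z y)
    (hc : ∀ a, a * z = z * a → a * y = y * a) : y = z := by
  have hy' := h.of_isConj hy
  have h1 : cz y = cz z := by
    apply h.max _ _ hy'.pg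
    intro a ha
    exact mem_cz.mpr (hc a (mem_cz.mp ha))
  have hmem : ∀ a, a * z = z * a → a * y = y * a := hc
  have hmem' : ∀ a, a * y = y * a → a * z = z * a := by
    intro a ha
    have : a ∈ cz y := mem_cz.mpr ha
    rw [h1] at this
    exact mem_cz.mp this
  have h2 : z ∈ Subgroup.zpowers y := by
    apply h.frat
    · intro a b ha hb
      rcases hy'.comm a b (hc a ha) (hc b hb) with h3 | h3 <;> rw [h3]
      · exact Subgroup.one_mem _
      · exact Subgroup.mem_zpowers _
    · intro a ha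
      rcases hy'.sq a (hc a ha) with h3 | h3 <;> rw [h3]
      · exact Subgroup.one_mem _
      · exact Subgroup.mem_zpowers _
  rcases eq_of_mem_zpowers hy'.two h2 with h3 | h3
  · exact absurd h3 h.ne
  · exact h3.symm

/-- A conjugate `x ≠ z` of `z` in `C(z)` is moved by some `t ∈ C(z)`. -/
theorem Good.exists_t {z x : L} (h : Good z) (hx : IsConj z x) (hxz : x * z = z * x) (hne : x ≠ z) :
    ∃ t, t * z = z * t ∧ t * x * t⁻¹ = z * x := by
  have h1 : ¬ ∀ a, a * z = z * a → a * x = x * a := fun h2 => hne (h.central_eq hx h2)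
  push Not at h1
  obtain ⟨t, ht, htx⟩ := h1
  refine ⟨t, ht, ?_⟩
  rcases h.comm t x ht hxz with h2 | h2
  · exact absurd (by
      have h5 := mul_inv_eq_one.mp h2
      calc t * x = (t * x * t⁻¹) * t := by group
        _ = x * t := by rw [h5]) htx
  · calc t * x * t⁻¹ = (t * x * t⁻¹ * x⁻¹) * x := by group
      _ = z * x := by rw [h2]

/-- Commutators with an element conjugating `z` to `x`. -/
theorem commV {z x a k : L} (hz : Good z) (hx : IsConj z x) (hxz : x * z = z * x) (hne : x ≠ z)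
    (haz : a * z = z * a) (hax : a * x = x * a) (hk : k * z * k⁻¹ = x) :
    k * a * k⁻¹ * a⁻¹ ∈ Subgroup.closure ({z, x} : Set L) := by
  have hxG : Good x := hz.of_isConj hx
  obtain ⟨t, ht, htx⟩ := hz.exists_t hx hxz hne
  obtain ⟨t', ht', ht'z⟩ := hxG.exists_t hx.symm hxz.symm hne.symm
  set V := Subgroup.closure ({z, x} : Set L) with hV
  have hVz : z ∈ V := Subgroup.subset_closure (by simp)
  have hVx : x ∈ V := Subgroup.subset_closure (by simp)
  have htz : t * z * t⁻¹ = z := by rw [ht]; group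
  have ht'x : t' * x * t'⁻¹ = x := by rw [ht']; group
  have hVt : ∀ v ∈ V, t * v * t⁻¹ ∈ V := by
    have hle : V ≤ V.comap (MulAut.conj t).toMonoidHom := by
      rw [hV, Subgroup.closure_le]
      rintro y (rfl | rfl)
      · simp only [Subgroup.coe_comap, Set.mem_preimage, MulEquiv.coe_toMonoidHom, MulAut.conj_apply]
        rw [htz]; exact hVz
      · simp only [Subgroup.coe_comap, Set.mem_preimage, MulEquiv.coe_toMonoidHom, MulAut.conj_apply]
        rw [htx]; exact Subgroup.mul_mem _ hVz hVx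
    intro v hv
    simpa [MulAut.conj_apply] using hle hv
  have hVt' : ∀ v ∈ V, t' * v * t'⁻¹ ∈ V := by
    have hle : V ≤ V.comap (MulAut.conj t').toMonoidHom := by
      rw [hV, Subgroup.closure_le]
      rintro y (rfl | rfl)
      · simp only [Subgroup.coe_comap, Set.mem_preimage, MulEquiv.coe_toMonoidHom, MulAut.conj_apply]
        rw [ht'z]; exact Subgroup.mul_mem _ hVx hVz
      · simp only [Subgroup.coe_comap, Set.mem_preimage, MulEquiv.coe_toMonoidHom, MulAut.conj_apply]
        rw [ht'x]; exact hVx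
    intro v hv
    simpa [MulAut.conj_apply] using hle hv
  have hzz := hz.two
  -- `u = t t'` conjugates `z` to `x`
  have hu : (t * t') * z * (t * t')⁻¹ = x := by
    have e : (t * t') * z * (t * t')⁻¹ = t * (t' * z * t'⁻¹) * t⁻¹ := by group
    rw [e, ht'z]
    have e2 : t * (x * z) * t⁻¹ = (t * x * t⁻¹) * (t * z * t⁻¹) := by group
    rw [e2, htx, htz]
    calc z * x * z = z * (x * z) := by group
      _ = z * (z * x) := by rw [hxz]
      _ = x := by rw [← mul_assoc, hzz, one_mul]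
  set r := (t * t')⁻¹ * k with hr
  have hrz : r * z = z * r := by
    have h1 : r * z * r⁻¹ = z := by
      have e : r * z * r⁻¹ = (t * t')⁻¹ * (k * z * k⁻¹) * (t * t') := by rw [hr]; group
      rw [e, hk, ← hu]; group
    calc r * z = (r * z * r⁻¹) * r := by group
      _ = z * r := by rw [h1]
  have hmem1 : r * a * r⁻¹ * a⁻¹ ∈ V := by
    rcases hz.comm r a hrz haz with h | h <;> rw [h]
    · exact Subgroup.one_mem _
    · exact hVz
  have hmem2 : t' * a * t'⁻¹ * a⁻¹ ∈ V := by
    rcases hxG.comm t' a ht' hax with h | h <;> rw [h]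
    · exact Subgroup.one_mem _
    · exact hVx
  have hmem3 : t * a * t⁻¹ * a⁻¹ ∈ V := by
    rcases hz.comm t a ht haz with h | h <;> rw [h]
    · exact Subgroup.one_mem _
    · exact hVz
  have hk' : k = t * t' * r := by rw [hr]; group
  have e : k * a * k⁻¹ * a⁻¹ = t * (t' * (r * a * r⁻¹ * a⁻¹) * t'⁻¹ * (t' * a * t'⁻¹ * a⁻¹)) * t⁻¹ *
      (t * a * t⁻¹ * a⁻¹) := by
    rw [hk']; group
  rw [e]
  exact Subgroup.mul_mem _ (hVt _ (Subgroup.mul_mem _ (hVt' _ hmem1) hmem2)) hmem3

/-- The subgroup generated by the conjugates of `z` in `C(z)`. -/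
def N0 (z : L) : Subgroup L := Subgroup.closure {y | IsConj z y ∧ y * z = z * y}

theorem lemK {z a a' x₀ : L} (hz : Good z) (ha : a * z = z * a)
    (hx : x₀ * a * x₀⁻¹ = a') (ha' : a' * z = z * a')
    (hz₁ : (x₀ * z * x₀⁻¹) * z = z * (x₀ * z * x₀⁻¹)) : a' * a⁻¹ ∈ N0 z := by
  set z₁ := x₀ * z * x₀⁻¹ with hz₁def
  have hconj : IsConj z z₁ := isConj_iff.mpr ⟨x₀, rfl⟩
  have hzN : z ∈ N0 z := Subgroup.subset_closure ⟨IsConj.refl z, rfl⟩
  have hz₁N : z₁ ∈ N0 z := Subgroup.subset_closure ⟨hconj, hz₁⟩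
  by_cases hcase : z₁ = z
  · have h1 : x₀ * z = z * x₀ := by
      calc x₀ * z = (x₀ * z * x₀⁻¹) * x₀ := by group
        _ = z * x₀ := by rw [← hz₁def, hcase]
    rw [← hx]
    rcases hz.comm x₀ a h1 ha with h | h
    · rw [h]; exact Subgroup.one_mem _
    · rw [h]; exact hzN
  · have hG₁ : Good z₁ := hz.of_isConj hconj
    have ha'z₁ : a' * z₁ = z₁ * a' := by
      rw [← hx, hz₁def]; exact comm_conj' ha
    have h1 := commV (z := z₁) (x := z) (a := a') (k := x₀⁻¹) hG₁ hconj.symm hz₁.symm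
      (Ne.symm hcase) ha'z₁ ha' (by rw [hz₁def]; group)
    have hle : Subgroup.closure ({z₁, z} : Set L) ≤ N0 z := by
      rw [Subgroup.closure_le]
      rintro y (rfl | rfl)
      · exact hz₁N
      · exact hzN
    have h2 := hle h1
    have e : x₀⁻¹ * a' * x₀⁻¹⁻¹ * a'⁻¹ = a * a'⁻¹ := by
      rw [← hx]; group
    rw [e] at h2
    have h3 := Subgroup.inv_mem _ h2
    simpa using h3

/-- The fully centralized property. -/
def FC (z y : L) : Prop := IsMaxP 2 (cz y) (cz z ⊓ cz y)

theorem fcFus {z a a' g : L} (hz : Good z) (ha : a * z = z * a) (ha' : a' * z = z * a')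
    (hg : g * a * g⁻¹ = a') (hFC : FC z a') : a' * a⁻¹ ∈ N0 z := by
  have : Fact (Nat.Prime 2) := ⟨Nat.prime_two⟩
  obtain ⟨T, hTge, hT⟩ := exists_isMaxP 2 (K := cz a) (T₀ := cz z ⊓ cz a) inf_le_right
    (hz.pg.to_le inf_le_left)
  have h1 := hT.map_conj g
  rw [map_conj_cz, hg] at h1
  obtain ⟨c, hc, hcT⟩ := h1.conj_le hFC
  have hzT : z ∈ T := hTge (Subgroup.mem_inf.mpr ⟨mem_cz.mpr rfl, mem_cz.mpr ha.symm⟩)
  have h2 := hcT (g * z * g⁻¹) ⟨z, hzT, by simp [MulAut.conj_apply]⟩
  have h3 : (c * g) * z * (c * g)⁻¹ = c * (g * z * g⁻¹) * c⁻¹ := by group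
  have hc' : c * a' = a' * c := mem_cz.mp hc
  refine lemK hz ha (x₀ := c * g) ?_ ha' ?_
  · have e : c * g * a * (c * g)⁻¹ = c * (g * a * g⁻¹) * c⁻¹ := by group
    rw [e, hg, hc']; group
  · rw [h3]
    exact mem_cz.mp (Subgroup.mem_inf.mp h2).1

theorem existsFC {z a : L} (hz : Good z) (ha : a * z = z * a) :
    ∃ c, (c * a * c⁻¹) * z = z * (c * a * c⁻¹) ∧ FC z (c * a * c⁻¹) := by
  have : Fact (Nat.Prime 2) := ⟨Nat.prime_two⟩
  obtain ⟨T, hTge, hT⟩ := exists_isMaxP 2 (K := cz a) (T₀ := cz z ⊓ cz a) inf_le_right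
    (hz.pg.to_le inf_le_left)
  obtain ⟨c, hc⟩ := hz.syl T hT.pg
  have haT : a ∈ T := hTge (Subgroup.mem_inf.mpr ⟨mem_cz.mpr ha, mem_cz.mpr rfl⟩)
  refine ⟨c, hc a haT, ?_⟩
  have h1 := hT.map_conj c
  rw [map_conj_cz] at h1
  have hle : T.map (MulAut.conj c).toMonoidHom ≤ cz z ⊓ cz (c * a * c⁻¹) := by
    rintro _ ⟨t, ht, rfl⟩
    refine Subgroup.mem_inf.mpr ⟨?_, h1.le ⟨t, ht, rfl⟩⟩
    have := hc t ht
    simpa [MulAut.conj_apply] using mem_cz.mpr this
  have heq := h1.max _ hle inf_le_right (hz.pg.to_le inf_le_left)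
  unfold FC
  rw [heq]
  exact h1

/-- The fusion statement. -/
theorem fus {z a a' g : L} (hz : Good z) (ha : a * z = z * a) (ha' : a' * z = z * a')
    (hg : g * a * g⁻¹ = a') : a' * a⁻¹ ∈ N0 z := by
  obtain ⟨c, hc1, hc2⟩ := existsFC hz ha
  have h1 := fcFus hz ha hc1 rfl hc2
  have h2 := fcFus (a := a') (a' := c * a * c⁻¹) (g := c * g⁻¹) hz ha' hc1 (by
    rw [← hg]; group) hc2
  have h3 := Subgroup.mul_mem _ (Subgroup.inv_mem _ h2) h1
  have e : (c * a * c⁻¹ * a'⁻¹)⁻¹ * (c * a * c⁻¹ * a⁻¹) = a' * a⁻¹ := by group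
  rwa [e] at h3

theorem split {z x t : L} (hz : Good z) (ht : t * z = z * t) (htx : t * x * t⁻¹ = z * x)
    (hxz : x * z = z * x) {r : L} (hr : r * z = z * r) :
    r * x = x * r ∨ (t⁻¹ * r) * x = x * (t⁻¹ * r) := by
  have htz' : t⁻¹ * z * t = z := by
    calc t⁻¹ * z * t = t⁻¹ * (z * t) := by group
      _ = t⁻¹ * (t * z) := by rw [ht]
      _ = z := by group
  have htx' : t⁻¹ * x * t = z * x := by
    have h1 : t⁻¹ * (z * x) * t = x := by rw [← htx]; group
    have h2 : t⁻¹ * (z * x) * t = z * (t⁻¹ * x * t) := by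
      calc t⁻¹ * (z * x) * t = (t⁻¹ * z * t) * (t⁻¹ * x * t) := by group
        _ = z * (t⁻¹ * x * t) := by rw [htz']
    rw [h2] at h1
    calc t⁻¹ * x * t = z * (z * (t⁻¹ * x * t)) := by rw [← mul_assoc, hz.two, one_mul]
      _ = z * x := by rw [h1]
  rcases hz.comm r x hr hxz with h | h
  · left
    have h5 := mul_inv_eq_one.mp h
    calc r * x = (r * x * r⁻¹) * r := by group
      _ = x * r := by rw [h5]
  · right
    have h2 : r * x * r⁻¹ = z * x := by
      calc r * x * r⁻¹ = (r * x * r⁻¹ * x⁻¹) * x := by group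
        _ = z * x := by rw [h]
    have h3 : (t⁻¹ * r) * x * (t⁻¹ * r)⁻¹ = x := by
      calc (t⁻¹ * r) * x * (t⁻¹ * r)⁻¹ = t⁻¹ * (r * x * r⁻¹) * t := by group
        _ = t⁻¹ * (z * x) * t := by rw [h2]
        _ = (t⁻¹ * z * t) * (t⁻¹ * x * t) := by group
        _ = z * (z * x) := by rw [htz', htx']
        _ = x := by rw [← mul_assoc, hz.two, one_mul]
    calc (t⁻¹ * r) * x = ((t⁻¹ * r) * x * (t⁻¹ * r)⁻¹) * (t⁻¹ * r) := by group
      _ = x * (t⁻¹ * r) := by rw [h3]

theorem S_comm {z x a b : L} (hz : Good z) (hxG : Good x) (hne : x ≠ z)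
    (haz : a * z = z * a) (hax : a * x = x * a) (hbz : b * z = z * b) (hbx : b * x = x * b) :
    a * b = b * a := by
  rcases hz.comm a b haz hbz with h | h
  · have h5 := mul_inv_eq_one.mp h
    calc a * b = (a * b * a⁻¹) * a := by group
      _ = b * a := by rw [h5]
  · rcases hxG.comm a b hax hbx with h' | h'
    · have h5 := mul_inv_eq_one.mp h'
      calc a * b = (a * b * a⁻¹) * a := by group
        _ = b * a := by rw [h5]
    · exact absurd (h'.symm.trans h) hne

theorem moved {z x t y : L} (hz : Good z) (hxG : Good x) (hne : x ≠ z)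
    (hxz : x * z = z * x) (ht : t * z = z * t) (htx : t * x * t⁻¹ = z * x)
    (hy : IsConj z y) (hyz : y * z = z * y) (hyx : y * x = x * y) (hyne : y ≠ z) :
    t * y * t⁻¹ = z * y := by
  rcases hz.comm t y ht hyz with h | h
  · exfalso
    apply hyne
    apply hz.central_eq hy
    intro r hr
    have hty : t * y = y * t := by
      have h5 := mul_inv_eq_one.mp h
      calc t * y = (t * y * t⁻¹) * t := by group
        _ = y * t := by rw [h5]
    rcases split hz ht htx hxz hr with h1 | h1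
    · exact S_comm hz hxG hne hr h1 hyz hyx
    · have htr : (t⁻¹ * r) * z = z * (t⁻¹ * r) := by
        have hti : t⁻¹ * z = z * t⁻¹ := by
          have : t⁻¹ * (t * z) * t⁻¹ = t⁻¹ * (z * t) * t⁻¹ := by rw [ht]
          simpa [mul_assoc] using this.symm
        calc t⁻¹ * r * z = t⁻¹ * (r * z) := by group
          _ = t⁻¹ * (z * r) := by rw [hr]
          _ = (t⁻¹ * z) * r := by group
          _ = (z * t⁻¹) * r := by rw [hti]
          _ = z * (t⁻¹ * r) := by group
      have h2 := S_comm hz hxG hne htr h1 hyz hyx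
      calc r * y = t * ((t⁻¹ * r) * y) := by group
        _ = t * (y * (t⁻¹ * r)) := by rw [h2]
        _ = (t * y) * (t⁻¹ * r) := by group
        _ = (y * t) * (t⁻¹ * r) := by rw [hty]
        _ = y * r := by group
  · calc t * y * t⁻¹ = (t * y * t⁻¹ * y⁻¹) * y := by group
      _ = z * y := by rw [h]

/-- The conjugates of `z` centralizing `x`. -/
theorem star {z x y : L} (hz : Good z) (hx : IsConj z x) (hxz : x * z = z * x) (hne : x ≠ z)
    (hy : IsConj z y) (hyz : y * z = z * y) (hyx : y * x = x * y) : y = z ∨ y = x ∨ y = z * x := by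
  by_contra hcon
  push Not at hcon
  obtain ⟨hyz', hyx', hyzx⟩ := hcon
  have hxG : Good x := hz.of_isConj hx
  have hzz := hz.two
  have hxx := hxG.two
  obtain ⟨t, ht, htx⟩ := hz.exists_t hx hxz hne
  obtain ⟨t', ht', ht'z⟩ := hxG.exists_t hx.symm hxz.symm hne.symm
  have hty := moved hz hxG hne hxz ht htx hy hyz hyx hyz'
  have ht'y := moved hxG hz hne.symm hxz.symm ht' ht'z (hx.symm.trans hy) hyx hyz hyx'
  have htz : t * z * t⁻¹ = z := by rw [ht]; group
  have ht'x : t' * x * t'⁻¹ = x := by rw [ht']; group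
  have htz' : t⁻¹ * z * t = z := by
    calc t⁻¹ * z * t = t⁻¹ * (z * t) := by group
      _ = t⁻¹ * (t * z) := by rw [ht]
      _ = z := by group
  have htx' : t⁻¹ * x * t = z * x := by
    have h1 : t⁻¹ * (z * x) * t = x := by rw [← htx]; group
    have h2 : t⁻¹ * (z * x) * t = z * (t⁻¹ * x * t) := by
      calc t⁻¹ * (z * x) * t = (t⁻¹ * z * t) * (t⁻¹ * x * t) := by group
        _ = z * (t⁻¹ * x * t) := by rw [htz']
    rw [h2] at h1
    calc t⁻¹ * x * t = z * (z * (t⁻¹ * x * t)) := by rw [← mul_assoc, hzz, one_mul]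
      _ = z * x := by rw [h1]
  have hty' : t⁻¹ * y * t = z * y := by
    have h1 : t⁻¹ * (z * y) * t = y := by rw [← hty]; group
    have h2 : t⁻¹ * (z * y) * t = z * (t⁻¹ * y * t) := by
      calc t⁻¹ * (z * y) * t = (t⁻¹ * z * t) * (t⁻¹ * y * t) := by group
        _ = z * (t⁻¹ * y * t) := by rw [htz']
    rw [h2] at h1
    calc t⁻¹ * y * t = z * (z * (t⁻¹ * y * t)) := by rw [← mul_assoc, hzz, one_mul]
      _ = z * y := by rw [h1]
  -- elements of `S`, conjugated by `t`, remain in `S`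
  have hSt : ∀ s, s * z = z * s → s * x = x * s →
      (t * s * t⁻¹) * z = z * (t * s * t⁻¹) ∧ (t * s * t⁻¹) * x = x * (t * s * t⁻¹) := by
    intro s hsz hsx
    have h1 : (t * s * t⁻¹) * z = z * (t * s * t⁻¹) := by
      have := comm_conj' (g := t) hsz
      rwa [htz] at this
    refine ⟨h1, ?_⟩
    have h3 : s * (z * x) * s⁻¹ = z * x := by
      calc s * (z * x) * s⁻¹ = (s * z) * x * s⁻¹ := by group
        _ = (z * s) * x * s⁻¹ := by rw [hsz]
        _ = z * (s * x) * s⁻¹ := by group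
        _ = z * (x * s) * s⁻¹ := by rw [hsx]
        _ = z * x := by group
    have h4 : (t * s * t⁻¹) * x * (t * s * t⁻¹)⁻¹ = x := by
      calc (t * s * t⁻¹) * x * (t * s * t⁻¹)⁻¹ = t * (s * (t⁻¹ * x * t) * s⁻¹) * t⁻¹ := by group
        _ = t * (s * (z * x) * s⁻¹) * t⁻¹ := by rw [htx']
        _ = t * (z * x) * t⁻¹ := by rw [h3]
        _ = (t * z * t⁻¹) * (t * x * t⁻¹) := by group
        _ = z * (z * x) := by rw [htz, htx]
        _ = x := by rw [← mul_assoc, hzz, one_mul]
    calc (t * s * t⁻¹) * x = ((t * s * t⁻¹) * x * (t * s * t⁻¹)⁻¹) * (t * s * t⁻¹) := by group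
      _ = x * (t * s * t⁻¹) := by rw [h4]
  -- `y` is central in `C(z x)`
  have hu : IsConj z (z * x) := hx.trans (isConj_iff.mpr ⟨t, htx⟩)
  have huG : Good (z * x) := hz.of_isConj hu
  have hcentral : y = z * x := by
    apply huG.central_eq (hu.symm.trans hy)
    intro r hr
    have hq : (t⁻¹ * r * t) * x = x * (t⁻¹ * r * t) := by
      have h1 := comm_conj (g := t) (a := r) (z := x) (by rw [htx]; exact hr)
      exact h1
    set q := t⁻¹ * r * t with hqd
    have hr' : r = t * q * t⁻¹ := by rw [hqd]; group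
    have ht'i : t'⁻¹ * x = x * t'⁻¹ := by
      have : t'⁻¹ * (t' * x) * t'⁻¹ = t'⁻¹ * (x * t') * t'⁻¹ := by rw [ht']
      simpa [mul_assoc] using this.symm
    rcases split hxG ht' ht'z hxz.symm hq with h1 | h1
    · -- `q ∈ S`
      obtain ⟨h2, h3⟩ := hSt q h1 hq
      rw [hr']
      exact S_comm hz hxG hne h2 h3 hyz hyx
    · -- `t'⁻¹ q ∈ S`
      have hs1 : (t'⁻¹ * q) * x = x * (t'⁻¹ * q) := by
        calc t'⁻¹ * q * x = t'⁻¹ * (q * x) := by group
          _ = t'⁻¹ * (x * q) := by rw [hq]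
          _ = (t'⁻¹ * x) * q := by group
          _ = (x * t'⁻¹) * q := by rw [ht'i]
          _ = x * (t'⁻¹ * q) := by group
      obtain ⟨h2, h3⟩ := hSt _ h1 hs1
      have hcomm1 := S_comm hz hxG hne h2 h3 hyz hyx
      set s' := t * (t'⁻¹ * q) * t⁻¹ with hs'
      have hr'' : r = (t * t' * t⁻¹) * s' := by
        rw [hr', hs']; group
      have hty2 : (t * t' * t⁻¹) * y * (t * t' * t⁻¹)⁻¹ = y := by
        have e : (t * t' * t⁻¹) * y * (t * t' * t⁻¹)⁻¹ = t * (t' * (t⁻¹ * y * t) * t'⁻¹) * t⁻¹ := by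
          group
        rw [e, hty']
        have e2 : t' * (z * y) * t'⁻¹ = (t' * z * t'⁻¹) * (t' * y * t'⁻¹) := by group
        rw [e2, ht'z, ht'y]
        have e3 : x * z * (x * y) = z * y := by
          calc x * z * (x * y) = (x * z) * x * y := by group
            _ = (z * x) * x * y := by rw [hxz]
            _ = z * (x * x) * y := by group
            _ = z * y := by rw [hxx, mul_one]
        rw [e3]
        have e4 : t * (z * y) * t⁻¹ = (t * z * t⁻¹) * (t * y * t⁻¹) := by group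
        rw [e4, htz, hty, ← mul_assoc, hzz, one_mul]
      have hty3 : (t * t' * t⁻¹) * y = y * (t * t' * t⁻¹) := by
        calc (t * t' * t⁻¹) * y = ((t * t' * t⁻¹) * y * (t * t' * t⁻¹)⁻¹) * (t * t' * t⁻¹) := by group
          _ = y * (t * t' * t⁻¹) := by rw [hty2]
      rw [hr'']
      calc (t * t' * t⁻¹) * s' * y = (t * t' * t⁻¹) * (s' * y) := by group
        _ = (t * t' * t⁻¹) * (y * s') := by rw [hcomm1]
        _ = ((t * t' * t⁻¹) * y) * s' := by group
        _ = (y * (t * t' * t⁻¹)) * s' := by rw [hty3]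
        _ = y * ((t * t' * t⁻¹) * s') := by group
  exact hyzx hcentral

theorem good_of_hyp (z : L) (hz : orderOf z = 2) (R : Sylow 2 L)
    (hR : (R : Subgroup L) = Subgroup.centralizer ({z} : Set L))
    (hΦ : (frattini ↥(R : Subgroup L)).map (R : Subgroup L).subtype = Subgroup.zpowers z) : Good z := by
  have hp : Fact (Nat.Prime 2) := ⟨Nat.prime_two⟩
  have hRz : ∀ a, a ∈ (R : Subgroup L) ↔ a * z = z * a := by
    intro a; rw [hR, Subgroup.mem_centralizer_singleton_iff]
  have hzz : z * z = 1 := by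
    rw [← pow_two, ← hz]; exact pow_orderOf_eq_one z
  have hz1 : z ≠ 1 := by
    rintro rfl
    simp at hz
  have hG : IsPGroup 2 ↥(R : Subgroup L) := R.isPGroup'
  have hfr : ∀ f : ↥(R : Subgroup L), f ∈ frattini ↥(R : Subgroup L) → (f : L) = 1 ∨ (f : L) = z := by
    intro f hf
    have h1 : (f : L) ∈ Subgroup.zpowers z := by
      rw [← hΦ]; exact ⟨f, hf, rfl⟩
    exact eq_of_mem_zpowers hzz h1
  refine ⟨hzz, hz1, ?_, ?_, ?_, ?_, ?_, ?_⟩
  · intro a b ha hb
    have h1 : ⁅(⟨a, (hRz a).mpr ha⟩ : ↥(R : Subgroup L)), (⟨b, (hRz b).mpr hb⟩ : ↥(R : Subgroup L))⁆ ∈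
        frattini ↥(R : Subgroup L) := by
      apply Cfsg.Agent.Lib.Frat.commutator_le_frattini hG
      rw [commutator_def]
      exact Subgroup.commutator_mem_commutator (Subgroup.mem_top _) (Subgroup.mem_top _)
    exact hfr _ h1
  · intro a ha
    have h1 := Cfsg.Agent.Lib.Frat.pow_mem_frattini hG (⟨a, (hRz a).mpr ha⟩ : ↥(R : Subgroup L))
    rcases hfr _ h1 with h | h
    · left
      simpa [pow_two] using h
    · right
      simpa [pow_two] using h
  · intro N h1 h2
    have hle : frattini ↥(R : Subgroup L) ≤ N.subgroupOf (R : Subgroup L) := by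
      apply Cfsg.Agent.Lib.Frat.frattini_le_of_commutator_pow (p := 2)
      · rw [commutator_def, Subgroup.commutator_le]
        rintro ⟨a, ha⟩ - ⟨b, hb⟩ -
        rw [Subgroup.mem_subgroupOf]
        exact h1 a b ((hRz a).mp ha) ((hRz b).mp hb)
      · rintro ⟨a, ha⟩
        rw [Subgroup.mem_subgroupOf]
        have := h2 a ((hRz a).mp ha)
        simpa [pow_two] using this
    have h3 : z ∈ (frattini ↥(R : Subgroup L)).map (R : Subgroup L).subtype := by
      rw [hΦ]; exact Subgroup.mem_zpowers z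
    obtain ⟨f, hf, rfl⟩ := h3
    have := hle hf
    rwa [Subgroup.mem_subgroupOf] at this
  · intro T hT
    obtain ⟨P', hP'⟩ := hT.exists_le_sylow
    obtain ⟨c, hc⟩ := MulAction.exists_smul_eq L P' R
    refine ⟨c, fun t ht => ?_⟩
    rw [← hRz, ← hc, Sylow.coe_subgroup_smul]
    have := Subgroup.smul_mem_pointwise_smul t (MulAut.conj c) _ (hP' ht)
    simpa [MulAut.conj_apply] using this
  · intro T h1 h2
    have h3 : (R : Subgroup L) ≤ T := by rw [hR]; exact h1
    have := R.is_maximal' h2 h3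
    rw [this, hR]
  · have := R.isPGroup'
    rw [hR] at this
    exact this

/-- Let L be a finite non-abelian simple group with an involution z whose centralizer R is a Sylow 2-subgroup of L whose Frattini subgroup is the subgroup generated by z. Then R is dihedral of order 8. -/
theorem result {L : Type*} [Group L] [Finite L] [IsSimpleGroup L] (hL : ¬ IsMulCommutative L) (z : L) (hz : orderOf z = 2) (R : Sylow 2 L) (hR : (R : Subgroup L) = Subgroup.centralizer ({z} : Set L)) (hΦ : (frattini ↥(R : Subgroup L)).map (R : Subgroup L).subtype = Subgroup.zpowers z) : Nonempty (↥(R : Subgroup L) ≃* DihedralGroup 4) := by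
  have hp : Fact (Nat.Prime 2) := ⟨Nat.prime_two⟩
  have G : Good z := good_of_hyp z hz R hR hΦ
  have hRz : ∀ a, a ∈ (R : Subgroup L) ↔ a * z = z * a := by
    intro a; rw [hR, Subgroup.mem_centralizer_singleton_iff]
  have hzz := G.two
  -- the commutator subgroup is everything
  have hcomm : commutator L = ⊤ := by
    have hn : (commutator L).Normal := inferInstance
    rcases hn.eq_bot_or_eq_top with h | h
    · exfalso
      apply hL
      refine ⟨⟨?_⟩⟩
      intro a b
      have h1 : ⁅a, b⁆ ∈ commutator L := by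
        rw [commutator_def]
        exact Subgroup.commutator_mem_commutator (Subgroup.mem_top _) (Subgroup.mem_top _)
      rw [h, Subgroup.mem_bot] at h1
      exact commutatorElement_eq_one_iff_mul_comm.mp h1
    · exact h
  -- the focal subgroup theorem
  have hfoc : (R : Subgroup L) ≤ N0 z := by
    have h1 : commutator L ⊓ (R : Subgroup L) = (R : Subgroup L).focalSubgroup :=
      Subgroup.commutator_inf_eq_focalSubgroup R
    rw [hcomm, top_inf_eq] at h1
    rw [h1, Subgroup.focalSubgroup_def, Subgroup.closure_le]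
    rintro g ⟨hg, x, hx, u, rfl⟩
    have hg' : x * u * x⁻¹ * u⁻¹ ∈ (R : Subgroup L) := by
      simpa [commutatorElement_def] using hg
    have hy : u * x * u⁻¹ ∈ (R : Subgroup L) := by
      have h2 := Subgroup.inv_mem _ (Subgroup.mul_mem _ (Subgroup.inv_mem _ hx) hg')
      have e : (x⁻¹ * (x * u * x⁻¹ * u⁻¹))⁻¹ = u * x * u⁻¹ := by group
      rwa [e] at h2
    have h3 := fus (a := u * x * u⁻¹) (a' := x) (g := u⁻¹) G ((hRz _).mp hy) ((hRz _).mp hx) (by group)
    have e : x * (u * x * u⁻¹)⁻¹ = ⁅x, u⁆ := by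
      rw [commutatorElement_def]; group
    rw [e] at h3
    exact h3
  -- a non-commuting pair
  have hpair : ∃ z₁ z₂, IsConj z z₁ ∧ z₁ * z = z * z₁ ∧ IsConj z z₂ ∧ z₂ * z = z * z₂ ∧
      z₁ * z₂ ≠ z₂ * z₁ := by
    by_contra hcon
    push Not at hcon
    have hcentral : ∀ y, IsConj z y → y * z = z * y → y = z := by
      intro y hy hyz
      apply G.central_eq hy
      intro a ha
      have h1 : a ∈ N0 z := hfoc ((hRz a).mpr ha)
      have hle : N0 z ≤ cz y := by
        unfold N0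
        rw [Subgroup.closure_le]
        rintro w ⟨hw1, hw2⟩
        exact mem_cz.mpr (hcon w y hw1 hw2 hy hyz)
      exact mem_cz.mp (hle h1)
    have hall : ∀ a, a * z = z * a → a = 1 ∨ a = z := by
      intro a ha
      have h1 : a ∈ N0 z := hfoc ((hRz a).mpr ha)
      have hle : N0 z ≤ Subgroup.zpowers z := by
        unfold N0
        rw [Subgroup.closure_le]
        rintro w ⟨hw1, hw2⟩
        have := hcentral w hw1 hw2
        rw [this]
        exact Subgroup.mem_zpowers z
      exact eq_of_mem_zpowers hzz (hle h1)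
    have : z ∈ (⊥ : Subgroup L) := by
      apply G.frat
      · intro a b ha hb
        rcases hall a ha with rfl | rfl
        · simp
        · rcases hall b hb with rfl | rfl
          · simp
          · simp
      · intro a ha
        rcases hall a ha with rfl | rfl
        · simp
        · rw [hzz]; exact Subgroup.one_mem _
    exact G.ne (by simpa using this)
  obtain ⟨z₁, z₂, h₁, h₁c, h₂, h₂c, hne⟩ := hpair
  have hz₁ne : z₁ ≠ z := by
    rintro rfl
    exact hne h₂c.symm
  have hz₂ne : z₂ ≠ z := by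
    rintro rfl
    exact hne h₁c
  have hG₁ : Good z₁ := G.of_isConj h₁
  have hG₂ : Good z₂ := G.of_isConj h₂
  have h12 : z₁ * z₂ * z₁⁻¹ * z₂⁻¹ = z := by
    rcases G.comm z₁ z₂ h₁c h₂c with h | h
    · exfalso
      apply hne
      have h5 := mul_inv_eq_one.mp h
      calc z₁ * z₂ = (z₁ * z₂ * z₁⁻¹) * z₁ := by group
        _ = z₂ * z₁ := by rw [h5]
    · exact h
  have h₁i : z₁⁻¹ = z₁ := inv_eq_of_mul_eq_one_left hG₁.two
  have h₂i : z₂⁻¹ = z₂ := inv_eq_of_mul_eq_one_left hG₂.two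
  have hsq : z₁ * z₂ * (z₁ * z₂) = z := by
    rw [h₁i, h₂i] at h12
    calc z₁ * z₂ * (z₁ * z₂) = z₁ * z₂ * z₁ * z₂ := by group
      _ = z := h12
  -- `P = ⟨z₁, z₂⟩` contains all conjugates of `z` in `C(z)`
  have hzP : z ∈ Subgroup.closure ({z₁, z₂} : Set L) := by
    rw [← hsq]
    have h1 : z₁ ∈ Subgroup.closure ({z₁, z₂} : Set L) := Subgroup.subset_closure (by simp)
    have h2 : z₂ ∈ Subgroup.closure ({z₁, z₂} : Set L) := Subgroup.subset_closure (by simp)
    exact Subgroup.mul_mem _ (Subgroup.mul_mem _ h1 h2) (Subgroup.mul_mem _ h1 h2)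
  have hP1 : z₁ ∈ Subgroup.closure ({z₁, z₂} : Set L) := Subgroup.subset_closure (by simp)
  have hP2 : z₂ ∈ Subgroup.closure ({z₁, z₂} : Set L) := Subgroup.subset_closure (by simp)
  have hD : ∀ y, IsConj z y → y * z = z * y → y ∈ Subgroup.closure ({z₁, z₂} : Set L) := by
    intro y hy hyz
    by_cases h1 : y * z₁ = z₁ * y
    · rcases star G h₁ h₁c hz₁ne hy hyz h1 with h | h | h <;> rw [h]
      · exact hzP
      · exact hP1
      · exact Subgroup.mul_mem _ hzP hP1
    by_cases h2 : y * z₂ = z₂ * y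
    · rcases star G h₂ h₂c hz₂ne hy hyz h2 with h | h | h <;> rw [h]
      · exact hzP
      · exact hP2
      · exact Subgroup.mul_mem _ hzP hP2
    exfalso
    have hy1 : y * z₁ * y⁻¹ * z₁⁻¹ = z := by
      rcases G.comm y z₁ hyz h₁c with h | h
      · exfalso
        apply h1
        have h5 := mul_inv_eq_one.mp h
        calc y * z₁ = (y * z₁ * y⁻¹) * y := by group
          _ = z₁ * y := by rw [h5]
      · exact h
    have hy2 : y * z₂ * y⁻¹ * z₂⁻¹ = z := by
      rcases G.comm y z₂ hyz h₂c with h | h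
      · exfalso
        apply h2
        have h5 := mul_inv_eq_one.mp h
        calc y * z₂ = (y * z₂ * y⁻¹) * y := by group
          _ = z₂ * y := by rw [h5]
      · exact h
    -- `y z₁ = z z₁ y`
    have c1 : y * z₁ = z * z₁ * y := by
      calc y * z₁ = (y * z₁ * y⁻¹ * z₁⁻¹) * z₁ * y := by group
        _ = z * z₁ * y := by rw [hy1]
    have c2 : y * z₂ = z * z₂ * y := by
      calc y * z₂ = (y * z₂ * y⁻¹ * z₂⁻¹) * z₂ * y := by group
        _ = z * z₂ * y := by rw [hy2]
    have c0 : z₁ * z₂ = z * z₂ * z₁ := by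
      calc z₁ * z₂ = (z₁ * z₂ * z₁⁻¹ * z₂⁻¹) * z₂ * z₁ := by group
        _ = z * z₂ * z₁ := by rw [h12]
    have d1 : z₁ * y = z * y * z₁ := by
      calc z₁ * y = z * (z * z₁ * y) := by
            rw [← mul_assoc, ← mul_assoc, hzz, one_mul]
        _ = z * (y * z₁) := by rw [← c1]
        _ = z * y * z₁ := by group
    have d2 : z₂ * y = z * y * z₂ := by
      calc z₂ * y = z * (z * z₂ * y) := by
            rw [← mul_assoc, ← mul_assoc, hzz, one_mul]
        _ = z * (y * z₂) := by rw [← c2]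
        _ = z * y * z₂ := by group
    set w := y * z₁ * z₂ with hw
    -- `z` commutes with everything
    have hw1 : w * z₁ = z₁ * w := by
      have hz₁1 : z₁ * z₁ = 1 := hG₁.two
      have hz₂1 : z₂ * z₂ = 1 := hG₂.two
      have e1 : w * z₁ = y * (z₁ * z₂) * z₁ := by rw [hw]; group
      have e2 : z₁ * w = (z₁ * y) * z₁ * z₂ := by rw [hw]; group
      rw [e1, e2, c0, d1]
      calc y * (z * z₂ * z₁) * z₁ = y * z * z₂ * (z₁ * z₁) := by group
        _ = y * z * z₂ := by rw [hz₁1, mul_one]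
        _ = z * y * z₂ := by rw [hyz]
        _ = z * y * (z₁ * z₁) * z₂ := by rw [hz₁1, mul_one]
        _ = z * y * z₁ * z₁ * z₂ := by group
    have hww : w * w = z := by
      have hz₁1 : z₁ * z₁ = 1 := hG₁.two
      have hz₂1 : z₂ * z₂ = 1 := hG₂.two
      have e3 : z₁ * z₂ * y = y * z₁ * z₂ := by
        calc z₁ * z₂ * y = z₁ * (z₂ * y) := by group
          _ = z₁ * (z * y * z₂) := by rw [d2]
          _ = (z₁ * z) * y * z₂ := by group
          _ = (z * z₁) * y * z₂ := by rw [h₁c]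
          _ = z * (z₁ * y) * z₂ := by group
          _ = z * (z * y * z₁) * z₂ := by rw [d1]
          _ = (z * z) * y * z₁ * z₂ := by group
          _ = y * z₁ * z₂ := by rw [hzz, one_mul]
      have hyy : y * y = 1 := (G.of_isConj hy).two
      calc w * w = y * (z₁ * z₂ * y) * z₁ * z₂ := by rw [hw]; group
        _ = y * (y * z₁ * z₂) * z₁ * z₂ := by rw [e3]
        _ = (y * y) * (z₁ * z₂ * (z₁ * z₂)) := by group
        _ = z := by rw [hyy, one_mul, hsq]
    rcases hG₁.sq w hw1 with h | h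
    · rw [hww] at h
      exact G.ne h
    · rw [hww] at h
      exact hz₁ne h.symm
  have hRP : (R : Subgroup L) = Subgroup.closure ({z₁, z₂} : Set L) := by
    apply le_antisymm
    · refine hfoc.trans ?_
      unfold N0
      rw [Subgroup.closure_le]
      rintro w ⟨hw1, hw2⟩
      exact hD w hw1 hw2
    · rw [Subgroup.closure_le]
      rintro w (rfl | rfl)
      · exact (hRz _).mpr h₁c
      · exact (hRz _).mpr h₂c
  have ho1 : orderOf z₁ = 2 := orderOf_eq_prime (by rw [pow_two]; exact hG₁.two) hG₁.ne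
  have ho2 : orderOf z₂ = 2 := orderOf_eq_prime (by rw [pow_two]; exact hG₂.two) hG₂.ne
  have hne12 : z₁ ≠ z₂ := by
    rintro rfl
    exact hne rfl
  have ho : orderOf (z₁ * z₂) = 4 := by
    have h4 : orderOf (z₁ * z₂) = 2 ^ (1 + 1) := by
      apply orderOf_eq_prime_pow
      · rw [pow_one, pow_two, hsq]; exact G.ne
      · have : (z₁ * z₂) ^ 2 ^ (1 + 1) = (z₁ * z₂ * (z₁ * z₂)) * (z₁ * z₂ * (z₁ * z₂)) := by
          simp only [pow_succ, pow_zero, one_mul, mul_assoc]
          norm_num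
          simp only [pow_succ, pow_zero, one_mul, mul_assoc]
        rw [this, hsq, hzz]
    simpa using h4
  obtain ⟨f⟩ := Cfsg.Agent.Lib.InvolutionDihedral.closure_pair_equiv z₁ z₂ ho1 ho2 hne12
  rw [ho] at f
  exact ⟨(MulEquiv.subgroupCongr hRP).trans f⟩

end Cfsg.Agent.S5435
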