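import Mathlib
import Cfsg.Statements.S5436
import Cfsg.Agent.Lib.LargeCent

set_option autoImplicit false
open Cfsg

namespace Cfsg.Agent.S5436

/-- Let z be an involution of the finite group G with centralizer H whose generalized Fitting subgroup Q is extraspecial of width at least 2 (order 2^(2w+1), w ≥ 2); suppose some conjugate of z other than z lies in Q, H/Q is a non-abelian simple group, H acts irreducibly by conjugation on Q modulo the subgroup generated by z (the only H-invariant subgroups of Q containing z are that subgroup and Q), and Q is not the subgroup generated by the conjugates of z lying in H. Then G is simple. -/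
theorem result {G : Type*} [Group G] [Finite G] (z : G) (hz : orderOf z = 2) (Q : Subgroup (Subgroup.centralizer ({z} : Set G))) [Q.Normal] (hF : Cfsg.generalizedFittingSubgroup ↥(Subgroup.centralizer ({z} : Set G)) = Q) (hQ : Cfsg.IsExtraspecial 2 ↥Q) (w : ℕ) (hw : 2 ≤ w) (hcard : Nat.card ↥Q = 2 ^ (2 * w + 1)) (hnwc : ∃ g : G, (∃ hq : g * z * g⁻¹ ∈ Subgroup.centralizer ({z} : Set G), (⟨g * z * g⁻¹, hq⟩ : Subgroup.centralizer ({z} : Set G)) ∈ Q) ∧ g * z * g⁻¹ ≠ z) (hsimp : IsSimpleGroup (↥(Subgroup.centralizer ({z} : Set G)) ⧸ Q)) (hna : ¬ IsMulCommutative (↥(Subgroup.centralizer ({z} : Set G)) ⧸ Q)) (hirr : ∀ W : Subgroup (Subgroup.centralizer ({z} : Set G)), W.Normal → W ≤ Q → (W = Q ∨ ∀ x ∈ W, (x : G) ∈ Subgroup.zpowers z)) (hwcl : Subgroup.closure {x : Subgroup.centralizer ({z} : Set G) | IsConj z (x : G)} ≠ Q) : IsSimpleGroup G := by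
  set Q' : Subgroup G := Q.map (Subgroup.centralizer ({z} : Set G)).subtype with hQ'def
  have hF' : (Cfsg.generalizedFittingSubgroup ↥(Subgroup.centralizer ({z} : Set G))).map (Subgroup.centralizer ({z} : Set G)).subtype = Q' := by rw [hF]
  have hQ' : Cfsg.IsExtraspecial 2 ↥Q' :=
    Cfsg.Agent.Lib.LargeCent.isExtraspecial_of_equiv
      (Q.equivMapOfInjective (Subgroup.centralizer ({z} : Set G)).subtype (Subgroup.centralizer ({z} : Set G)).subtype_injective) hQ
  have hcard' : Nat.card ↥Q' = 2 ^ (2 * w + 1) := by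
    rw [hQ'def, Subgroup.card_map_of_injective (Subgroup.centralizer ({z} : Set G)).subtype_injective, hcard]
  obtain ⟨g, ⟨hq, hgQ⟩, hne⟩ := hnwc
  have hgQ' : g * z * g⁻¹ ∈ Q' := ⟨_, hgQ, rfl⟩
  have hlarge := Cfsg.Agent.Lib.LargeCent.large_of_conj hz hF' hQ' w hw hcard' g hgQ' hne
  obtain ⟨-, -, -, hS⟩ := Cfsg.Agent.Lib.LargeCent.of_centralizer hz hF' hQ'
  apply Cfsg.Agent.Lib.LargeCent.simple_of_cz_le hlarge hS
  have hMn : (Subgroup.normalClosure ({z} : Set G)).Normal := Subgroup.normalClosure_normal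
  have hzM : z ∈ Subgroup.normalClosure ({z} : Set G) := Subgroup.subset_normalClosure (by simp)
  set M := Subgroup.normalClosure ({z} : Set G) with hM
  have hconjM : ∀ x : G, IsConj z x → x ∈ M := by
    intro x hx
    obtain ⟨c, rfl⟩ := isConj_iff.mp hx
    exact hMn.conj_mem z hzM c
  -- the subgroup generated by the conjugates of `z` in `(Subgroup.centralizer ({z} : Set G))`
  set N : Subgroup (Subgroup.centralizer ({z} : Set G)) := Subgroup.closure {x : (Subgroup.centralizer ({z} : Set G)) | IsConj z (x : G)} with hN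
  have hNn : N.Normal := by
    constructor
    intro n hn h
    have h1 : N ≤ N.comap (MulAut.conj h).toMonoidHom := by
      rw [hN, Subgroup.closure_le]
      intro x hx
      apply Subgroup.subset_closure
      show IsConj z ((h * x * h⁻¹ : (Subgroup.centralizer ({z} : Set G))) : G)
      have hx' : IsConj z (x : G) := hx
      refine hx'.trans ?_
      exact isConj_iff.mpr ⟨(h : G), rfl⟩
    exact h1 hn
  have hNM : N ≤ M.subgroupOf (Subgroup.centralizer ({z} : Set G)) := by
    rw [hN, Subgroup.closure_le]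
    intro x hx
    exact Subgroup.mem_subgroupOf.mpr (hconjM _ hx)
  have hx0N : (⟨g * z * g⁻¹, hq⟩ : (Subgroup.centralizer ({z} : Set G))) ∈ N := by
    apply Subgroup.subset_closure
    exact isConj_iff.mpr ⟨g, rfl⟩
  have hx0z : ∀ hh : (g * z * g⁻¹) ∈ Subgroup.zpowers z, False := by
    intro hh
    rcases Cfsg.Agent.Lib.LargeExtra.zpowers_eq_of_order_two hz hh with h1 | h1
    · apply hS.extra.ne_one
      have h3 := mul_inv_eq_one.mp h1
      exact mul_left_cancel (h3.trans (mul_one _).symm)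
    · exact hne h1
  have hQM : Q ≤ M.subgroupOf (Subgroup.centralizer ({z} : Set G)) := by
    have hWn : (Q ⊓ M.subgroupOf (Subgroup.centralizer ({z} : Set G))).Normal := by
      have : (M.subgroupOf (Subgroup.centralizer ({z} : Set G))).Normal := Subgroup.Normal.subgroupOf hMn (Subgroup.centralizer ({z} : Set G))
      infer_instance
    rcases hirr _ hWn inf_le_left with h1 | h1
    · rw [← h1]; exact inf_le_right
    · exfalso
      apply hx0z
      apply h1 ⟨g * z * g⁻¹, hq⟩
      exact ⟨hgQ, hNM hx0N⟩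
  have hNtop : N.map (QuotientGroup.mk' Q) = ⊤ := by
    have hn' : (N.map (QuotientGroup.mk' Q)).Normal :=
      Subgroup.Normal.map hNn _ (QuotientGroup.mk'_surjective Q)
    rcases hsimp.eq_bot_or_eq_top_of_normal _ hn' with h1 | h1
    · exfalso
      have hNQ : N ≤ Q := by
        rw [Subgroup.map_eq_bot_iff, QuotientGroup.ker_mk'] at h1
        exact h1
      rcases hirr N hNn hNQ with h2 | h2
      · exact hwcl h2
      · exact hx0z (h2 _ hx0N)
    · exact h1
  intro h hh
  have hmem : QuotientGroup.mk' Q (⟨h, hh⟩ : (Subgroup.centralizer ({z} : Set G))) ∈ N.map (QuotientGroup.mk' Q) := by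
    rw [hNtop]; exact Subgroup.mem_top _
  obtain ⟨n, hn, hnh⟩ := hmem
  have h1 : n⁻¹ * ⟨h, hh⟩ ∈ Q := by
    rw [← QuotientGroup.eq]
    exact hnh
  have h2 : (n⁻¹ * ⟨h, hh⟩ : (Subgroup.centralizer ({z} : Set G))) ∈ M.subgroupOf (Subgroup.centralizer ({z} : Set G)) := hQM h1
  have h3 : (n : G) ∈ M := Subgroup.mem_subgroupOf.mp (hNM hn)
  have h4 : ((n⁻¹ * ⟨h, hh⟩ : (Subgroup.centralizer ({z} : Set G))) : G) ∈ M := Subgroup.mem_subgroupOf.mp h2
  have h5 : h = (n : G) * ((n⁻¹ * ⟨h, hh⟩ : (Subgroup.centralizer ({z} : Set G))) : G) := by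
    simp
  rw [h5]
  exact M.mul_mem h3 h4

end Cfsg.Agent.S5436
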