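import Mathlib
import Cfsg.Statements.S5437

set_option autoImplicit false
open Cfsg

namespace Cfsg.Agent.S5437

/-- Let I be a set of involutions of the finite group G closed under conjugation, and H a subgroup of G. The following are equivalent: (1) for every member x of I lying in H, the conjugates of x lying in H form a single H-class and the centralizer of x lies in H; (2) for every g outside H, no member of I lies in both H and g H g⁻¹; (3) every member of I lying in H fixes exactly one coset in the action of G on the cosets of H. -/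
theorem result {G : Type*} [Group G] [Finite G] (I : Set G) (hI : ∀ x ∈ I, orderOf x = 2) (hIc : ∀ g : G, ∀ x ∈ I, g * x * g⁻¹ ∈ I) (H : Subgroup G) : ((∀ x ∈ I, x ∈ H → (∀ g : G, g * x * g⁻¹ ∈ H → ∃ h ∈ H, h * x * h⁻¹ = g * x * g⁻¹) ∧ Subgroup.centralizer ({x} : Set G) ≤ H) ↔ (∀ g : G, g ∉ H → ∀ x ∈ I, ¬ (x ∈ H ∧ x ∈ (H : Subgroup G).map (MulAut.conj g).toMonoidHom))) ∧ ((∀ g : G, g ∉ H → ∀ x ∈ I, ¬ (x ∈ H ∧ x ∈ (H : Subgroup G).map (MulAut.conj g).toMonoidHom)) ↔ ∀ x ∈ I, x ∈ H → ∃! c : G ⧸ H, x • c = c) := by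
  have hmem : ∀ g x : G, x ∈ (H : Subgroup G).map (MulAut.conj g).toMonoidHom ↔ g⁻¹ * x * g ∈ H := by
    intro g x
    constructor
    · rintro ⟨a, ha, rfl⟩
      have : g⁻¹ * ((MulAut.conj g).toMonoidHom a) * g = a := by
        simp [MulAut.conj_apply]; group
      rw [this]; exact ha
    · intro h
      refine ⟨g⁻¹ * x * g, h, ?_⟩
      simp [MulAut.conj_apply]; group
  have hfix : ∀ (g x : G), x • (g : G ⧸ H) = (g : G ⧸ H) ↔ g⁻¹ * x * g ∈ H := by
    intro g x
    change ((x * g : G) : G ⧸ H) = (g : G ⧸ H) ↔ _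
    rw [QuotientGroup.eq]
    have e : (x * g)⁻¹ * g = (g⁻¹ * x * g)⁻¹ := by group
    rw [e, Subgroup.inv_mem_iff]
  refine ⟨⟨?_, ?_⟩, ?_, ?_⟩
  · intro h g hg x hx ⟨hxH, hxg⟩
    rw [hmem] at hxg
    obtain ⟨h1, h2⟩ := h x hx hxH
    obtain ⟨k, hk, hk2⟩ := h1 g⁻¹ (by simpa using hxg)
    apply hg
    -- (g k) commutes with x
    have h3 : g * k ∈ Subgroup.centralizer ({x} : Set G) := by
      rw [Subgroup.mem_centralizer_singleton_iff]
      have h4 : k * x * k⁻¹ = g⁻¹ * x * g := by simpa using hk2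
      calc g * k * x = g * (k * x * k⁻¹) * k := by group
        _ = g * (g⁻¹ * x * g) * k := by rw [h4]
        _ = x * (g * k) := by group
    have h5 := h2 h3
    have h6 : g = (g * k) * k⁻¹ := by group
    rw [h6]
    exact H.mul_mem h5 (H.inv_mem hk)
  · intro h x hx hxH
    constructor
    · intro g hg
      have hg' : g ∈ H := by
        by_contra hgn
        have hgi : g⁻¹ ∉ H := fun h1 => hgn (by simpa using H.inv_mem h1)
        exact h g⁻¹ hgi x hx ⟨hxH, (hmem _ _).mpr (by simpa using hg)⟩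
      exact ⟨g, hg', rfl⟩
    · intro c hc
      by_contra hcn
      refine h c hcn x hx ⟨hxH, (hmem _ _).mpr ?_⟩
      rw [Subgroup.mem_centralizer_singleton_iff] at hc
      have : c⁻¹ * x * c = x := by rw [mul_assoc, ← hc]; group
      rw [this]; exact hxH
  · intro h x hx hxH
    refine ⟨((1 : G) : G ⧸ H), ?_, ?_⟩
    · show x • ((1 : G) : G ⧸ H) = ((1 : G) : G ⧸ H)
      rw [hfix]; simpa using hxH
    · intro c hc
      have hc' : x • c = c := hc
      induction c using QuotientGroup.induction_on with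
      | H g =>
        rw [hfix] at hc'
        by_cases hg : g ∈ H
        · have : (g : G ⧸ H) = ((1 : G) : G ⧸ H) := by
            rw [QuotientGroup.eq]; simpa using hg
          exact this
        · exact absurd ⟨hxH, (hmem _ _).mpr hc'⟩ (h g hg x hx)
  · intro h g hg x hx ⟨hxH, hxg⟩
    rw [hmem] at hxg
    obtain ⟨c, _, hc⟩ := h x hx hxH
    have h1 := hc ((1 : G) : G ⧸ H) ((hfix _ _).mpr (by simpa using hxH))
    have h2 := hc (g : G ⧸ H) ((hfix _ _).mpr hxg)
    apply hg
    have h3 : (g : G ⧸ H) = ((1 : G) : G ⧸ H) := h2.trans h1.symm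
    rw [QuotientGroup.eq] at h3
    simpa using H.inv_mem (by simpa using h3)

end Cfsg.Agent.S5437
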