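import Mathlib
import Cfsg.Statements.S5438
import Cfsg.Agent.Lib.MaxP

set_option autoImplicit false
open Cfsg

namespace Cfsg.Agent.S5438

open Cfsg.Agent.Lib.MaxP

theorem map_conj_centralizer {G : Type*} [Group G] (g x : G) :
    (Subgroup.centralizer ({x} : Set G)).map (MulAut.conj g).toMonoidHom
      = Subgroup.centralizer ({g * x * g⁻¹} : Set G) := by
  ext c
  constructor
  · rintro ⟨d, hd, rfl⟩
    have hd : d ∈ Subgroup.centralizer ({x} : Set G) := hd
    rw [Subgroup.mem_centralizer_singleton_iff] at hd ⊢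
    simp only [MulEquiv.coe_toMonoidHom, MulAut.conj_apply]
    calc g * d * g⁻¹ * (g * x * g⁻¹) = g * (d * x) * g⁻¹ := by group
      _ = g * (x * d) * g⁻¹ := by rw [hd]
      _ = g * x * g⁻¹ * (g * d * g⁻¹) := by group
  · intro hc
    rw [Subgroup.mem_centralizer_singleton_iff] at hc
    refine ⟨g⁻¹ * c * g, ?_, by simp [MulAut.conj_apply]; group⟩
    show g⁻¹ * c * g ∈ Subgroup.centralizer ({x} : Set G)
    rw [Subgroup.mem_centralizer_singleton_iff]
    have h1 : g⁻¹ * (c * (g * x * g⁻¹)) * g = g⁻¹ * ((g * x * g⁻¹) * c) * g := by rw [hc]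
    calc g⁻¹ * c * g * x = g⁻¹ * (c * (g * x * g⁻¹)) * g := by group
      _ = g⁻¹ * ((g * x * g⁻¹) * c) * g := h1
      _ = x * (g⁻¹ * c * g) := by group

/-- Let z be a 2-central involution of the finite group G (an involution central in some Sylow 2-subgroup) and H a subgroup containing z such that the coset H is the only coset of H fixed by z (in the action of G on the cosets of H). Then H has odd index in G, and for every 2-element x of H the conjugates of x lying in H form a single H-class. -/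
theorem result {G : Type*} [Group G] [Finite G] (z : G) (hz : Cfsg.IsTwoCentralInvolution z) (H : Subgroup G) (hzH : z ∈ H) (hfix : ∀ g : G, g⁻¹ * z * g ∈ H → g ∈ H) : Odd H.index ∧ ∀ x ∈ H, (∃ k : ℕ, orderOf x = 2 ^ k) → ∀ g : G, g * x * g⁻¹ ∈ H → ∃ h ∈ H, h * x * h⁻¹ = g * x * g⁻¹ := by
  have : Fact (Nat.Prime 2) := ⟨Nat.prime_two⟩
  obtain ⟨hz2, P, hzP, hPz⟩ := hz
  have hC : ∀ c, c * z = z * c → c ∈ H := by
    intro c hc
    apply hfix
    have : c⁻¹ * z * c = z := by rw [mul_assoc, ← hc]; group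
    rw [this]; exact hzH
  have hPH : (P : Subgroup G) ≤ H := fun x hx => hC x (hPz x hx)
  have hodd : Odd H.index := by
    have h1 : H.index ∣ (P : Subgroup G).index := Subgroup.index_dvd_of_le hPH
    have h2 : ¬ 2 ∣ (P : Subgroup G).index := P.not_dvd_index
    have h3 : ¬ 2 ∣ H.index := fun h => h2 (h.trans h1)
    exact Nat.not_even_iff_odd.mp (fun h => h3 h.two_dvd)
  refine ⟨hodd, ?_⟩
  have hPmax : IsMaxP 2 H (P : Subgroup G) := by
    refine ⟨hPH, P.isPGroup', ?_⟩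
    intro T' h1 _ h3
    exact P.is_maximal' h3 h1
  -- Part (i)
  have hi : ∀ y ∈ H, (∃ k : ℕ, orderOf y = 2 ^ k) → ∀ T, IsMaxP 2 (H ⊓ Subgroup.centralizer ({y} : Set G)) T →
      ∃ a ∈ H, a * z * a⁻¹ ∈ T := by
    intro y hyH hy T hT
    have hyC : y ∈ H ⊓ Subgroup.centralizer ({y} : Set G) :=
      Subgroup.mem_inf.mpr ⟨hyH, Subgroup.mem_centralizer_singleton_iff.mpr rfl⟩
    have hyT : y ∈ T := by
      apply hT.mem_of_normalizing hyC hy
      intro t ht
      have h1 : t ∈ Subgroup.centralizer ({y} : Set G) := (hT.le ht).2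
      rw [Subgroup.mem_centralizer_singleton_iff] at h1
      have : t * y * t⁻¹ = y := by rw [h1]; group
      rw [this]; exact Subgroup.mem_zpowers y
    -- extend T to a maximal 2-subgroup of H, conjugate into P
    obtain ⟨T₁, hTT₁, hT₁⟩ := exists_isMaxP 2 (K := H) (T₀ := T) (hT.le.trans inf_le_left) hT.pg
    obtain ⟨c, hcH, hc⟩ := hT₁.conj_le hPmax
    have hcomm : ∀ t ∈ T, t * (c⁻¹ * z * c) = (c⁻¹ * z * c) * t := by
      intro t ht
      have h1 := hPz _ (hc t (hTT₁ ht))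
      have h2 : c⁻¹ * (c * t * c⁻¹ * z) * c = c⁻¹ * (z * (c * t * c⁻¹)) * c := by rw [h1]
      calc t * (c⁻¹ * z * c) = c⁻¹ * (c * t * c⁻¹ * z) * c := by group
        _ = c⁻¹ * (z * (c * t * c⁻¹)) * c := h2
        _ = (c⁻¹ * z * c) * t := by group
    have hwH : c⁻¹ * z * c ∈ H := H.mul_mem (H.mul_mem (H.inv_mem hcH) hzH) hcH
    refine ⟨c⁻¹, H.inv_mem hcH, ?_⟩
    rw [inv_inv]
    apply hT.mem_of_normalizing (Subgroup.mem_inf.mpr ⟨hwH, ?_⟩) ⟨1, ?_⟩
    · intro t ht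
      have : t * (c⁻¹ * z * c) * t⁻¹ = c⁻¹ * z * c := by rw [hcomm t ht]; group
      rw [this]; exact Subgroup.mem_zpowers _
    · rw [Subgroup.mem_centralizer_singleton_iff]
      exact (hcomm y hyT).symm
    · have h1 := MulEquiv.orderOf_eq (MulAut.conj c⁻¹) z
      simp only [MulAut.conj_apply, inv_inv] at h1
      rw [h1, hz2]; norm_num
  -- Part (ii)
  have hii : ∀ y ∈ H, (∃ k : ℕ, orderOf y = 2 ^ k) → ∀ T, IsMaxP 2 (H ⊓ Subgroup.centralizer ({y} : Set G)) T →
      IsMaxP 2 (Subgroup.centralizer ({y} : Set G)) T := by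
    intro y hyH hy T hT
    refine ⟨hT.le.trans inf_le_right, hT.pg, ?_⟩
    intro T' h1 h2 h3
    by_contra hne
    obtain ⟨n, hnT', hnT, hnn⟩ := exists_normalizing h3 h1 (Ne.symm hne)
    obtain ⟨a, haH, haT⟩ := hi y hyH hy T hT
    have h4 : n * (a * z * a⁻¹) * n⁻¹ ∈ T := hnn _ haT
    have h5 : (n * a)⁻¹ ∈ H := by
      apply hfix
      have e : ((n * a)⁻¹)⁻¹ * z * (n * a)⁻¹ = n * (a * z * a⁻¹) * n⁻¹ := by group
      rw [e]
      exact (hT.le h4).1
    have h6 : n * a ∈ H := by simpa using H.inv_mem h5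
    have h7 : n ∈ H := by
      have e : n = (n * a) * a⁻¹ := by group
      rw [e]
      exact H.mul_mem h6 (H.inv_mem haH)
    have h8 : T ⊔ Subgroup.zpowers n ≤ T' := sup_le h1 (by
      rw [Subgroup.zpowers_le]; exact hnT')
    have h9 := hT.max (T ⊔ Subgroup.zpowers n) le_sup_left
      (sup_le hT.le (by rw [Subgroup.zpowers_le]; exact ⟨h7, h2 hnT'⟩)) (h3.to_le h8)
    apply hnT
    rw [← h9]
    exact (le_sup_right : Subgroup.zpowers n ≤ T ⊔ Subgroup.zpowers n) (Subgroup.mem_zpowers n)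
  intro x hxH hx g hg
  have hy : ∃ k : ℕ, orderOf (g * x * g⁻¹) = 2 ^ k := by
    obtain ⟨k, hk⟩ := hx
    refine ⟨k, ?_⟩
    have h1 := MulEquiv.orderOf_eq (MulAut.conj g) x
    simp only [MulAut.conj_apply] at h1
    rw [h1, hk]
  obtain ⟨T₁, hT₁⟩ := exists_isMaxP' 2 (H ⊓ Subgroup.centralizer ({g * x * g⁻¹} : Set G))
  obtain ⟨T₂, hT₂⟩ := exists_isMaxP' 2 (H ⊓ Subgroup.centralizer ({x} : Set G))
  have h1 := hii _ hg hy _ hT₁
  have h2 := hii _ hxH hx _ hT₂
  have h3 := h2.map_conj g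
  rw [map_conj_centralizer] at h3
  obtain ⟨c, hcC, hc⟩ := h3.conj_le h1
  obtain ⟨a, haH, haT⟩ := hi x hxH hx T₂ hT₂
  have h4 := hc _ ⟨_, haT, rfl⟩
  simp only [MulEquiv.coe_toMonoidHom, MulAut.conj_apply] at h4
  have h5 : (c * g * a)⁻¹ ∈ H := by
    apply hfix
    have e : ((c * g * a)⁻¹)⁻¹ * z * (c * g * a)⁻¹ = c * (g * (a * z * a⁻¹) * g⁻¹) * c⁻¹ := by group
    rw [e]
    exact (hT₁.le h4).1
  have h6 : c * g * a ∈ H := by simpa using H.inv_mem h5
  have h7 : c * g ∈ H := by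
    have e : c * g = (c * g * a) * a⁻¹ := by group
    rw [e]
    exact H.mul_mem h6 (H.inv_mem haH)
  refine ⟨c * g, h7, ?_⟩
  rw [Subgroup.mem_centralizer_singleton_iff] at hcC
  calc c * g * x * (c * g)⁻¹ = c * (g * x * g⁻¹) * c⁻¹ := by group
    _ = g * x * g⁻¹ := by rw [hcC]; group

end Cfsg.Agent.S5438
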