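import Mathlib
import Cfsg.Statements.S5439

set_option autoImplicit false
open Cfsg

namespace Cfsg.Agent.S5439

section
variable {G : Type*} [Group G]

theorem inv_pow_mul (a x : G) (h : x⁻¹ * a = a * x) (m : ℕ) :
    (x ^ m)⁻¹ * a = a * x ^ m := by
  induction m with
  | zero => simp
  | succ n ih =>
    calc (x ^ (n + 1))⁻¹ * a = x⁻¹ * ((x ^ n)⁻¹ * a) := by
          rw [pow_succ, mul_inv_rev, mul_assoc]
      _ = x⁻¹ * (a * x ^ n) := by rw [ih]
      _ = (x⁻¹ * a) * x ^ n := by rw [mul_assoc]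
      _ = (a * x) * x ^ n := by rw [h]
      _ = a * x ^ (n + 1) := by rw [pow_succ', mul_assoc]

theorem conj_even (a x : G) (h : x⁻¹ * a = a * x) (m : ℕ) :
    (x ^ m)⁻¹ * a * ((x ^ m)⁻¹)⁻¹ = a * x ^ (2 * m) := by
  rw [inv_inv, inv_pow_mul a x h, two_mul, pow_add, mul_assoc]

theorem conj_odd (a x : G) (h : x⁻¹ * a = a * x) (m : ℕ) :
    (x ^ m)⁻¹ * (a * x) * ((x ^ m)⁻¹)⁻¹ = a * x ^ (2 * m + 1) := by
  rw [inv_inv]
  calc (x ^ m)⁻¹ * (a * x) * x ^ m = ((x ^ m)⁻¹ * a) * x * x ^ m := by group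
    _ = (a * x ^ m) * x * x ^ m := by rw [inv_pow_mul a x h]
    _ = a * x ^ (2 * m + 1) := by
      have : x ^ (2 * m + 1) = x ^ m * x * x ^ m := by
        rw [two_mul, pow_add, pow_add, pow_one]
        calc x ^ m * x ^ m * x = x ^ m * (x ^ m * x) := by rw [mul_assoc]
          _ = x ^ m * (x * x ^ m) := by rw [← pow_succ, pow_succ']
          _ = x ^ m * x * x ^ m := by rw [mul_assoc]
      rw [this]; group

end

/-- Let I and J be two different conjugacy classes of involutions of the finite group G and H a subgroup such that every member of I ∪ J fixes exactly one coset in the action on the cosets of H, and such that for every a in I ∩ H and every b in (I ∪ J) ∩ H different from a and commuting with it, the centralizer of a b lies in H. Then H = G. -/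
theorem result {G : Type*} [Group G] [Finite G] (I J : Set G) (a₀ b₀ : G) (ha₀ : orderOf a₀ = 2) (hb₀ : orderOf b₀ = 2) (hI : I = {x | IsConj a₀ x}) (hJ : J = {x | IsConj b₀ x}) (hIJ : I ≠ J) (H : Subgroup G) (hfix : ∀ x ∈ I ∪ J, ∃! c : G ⧸ H, x • c = c) (hcent : ∀ a ∈ I, a ∈ H → ∀ b ∈ I ∪ J, b ∈ H → a ≠ b → a * b = b * a → Subgroup.centralizer ({a * b} : Set G) ≤ H) : H = ⊤ := by
  classical
  have hconj : ∀ c g x : G, IsConj c x → IsConj c (g * x * g⁻¹) := by
    intro c g x hx
    exact hx.trans (isConj_iff.mpr ⟨g, rfl⟩)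
  have hIc : ∀ g x, x ∈ I → g * x * g⁻¹ ∈ I := by
    intro g x hx
    rw [hI] at hx ⊢
    exact hconj _ _ _ hx
  have hJc : ∀ g x, x ∈ J → g * x * g⁻¹ ∈ J := by
    intro g x hx
    rw [hJ] at hx ⊢
    exact hconj _ _ _ hx
  have hFc : ∀ g x, x ∈ I ∪ J → g * x * g⁻¹ ∈ I ∪ J := by
    rintro g x (hx | hx)
    · exact Or.inl (hIc g x hx)
    · exact Or.inr (hJc g x hx)
  have ha₀I : a₀ ∈ I := by rw [hI]; exact IsConj.refl _
  have hb₀J : b₀ ∈ J := by rw [hJ]; exact IsConj.refl _
  have hinv : ∀ x ∈ I ∪ J, x * x = 1 := by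
    have hI' : ∀ x ∈ I, x * x = 1 := by
      intro x hx
      rw [hI] at hx
      obtain ⟨c, rfl⟩ := isConj_iff.mp hx
      have h2 : a₀ * a₀ = 1 := by
        have := pow_orderOf_eq_one a₀
        rwa [ha₀, pow_two] at this
      calc c * a₀ * c⁻¹ * (c * a₀ * c⁻¹) = c * (a₀ * a₀) * c⁻¹ := by group
        _ = 1 := by rw [h2]; group
    have hJ' : ∀ x ∈ J, x * x = 1 := by
      intro x hx
      rw [hJ] at hx
      obtain ⟨c, rfl⟩ := isConj_iff.mp hx
      have h2 : b₀ * b₀ = 1 := by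
        have := pow_orderOf_eq_one b₀
        rwa [hb₀, pow_two] at this
      calc c * b₀ * c⁻¹ * (c * b₀ * c⁻¹) = c * (b₀ * b₀) * c⁻¹ := by group
        _ = 1 := by rw [h2]; group
    rintro x (hx | hx)
    · exact hI' x hx
    · exact hJ' x hx
  -- the unique fixed point
  choose! f hf hfu using hfix
  have hfsmul : ∀ x ∈ I ∪ J, x • f x = f x := fun x hx => hf x hx
  -- P2: commuting members have the same fixed point
  have hcommf : ∀ x ∈ I ∪ J, ∀ c : G ⧸ H, ∀ w : G, w * x = x * w → x • c = c → x • (w • c) = w • c := by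
    intro x _ c w hw hc
    rw [← mul_smul, ← hw, mul_smul, hc]
  have hP2 : ∀ x ∈ I ∪ J, ∀ y ∈ I ∪ J, x * y = y * x → f x = f y := by
    intro x hx y hy hxy
    -- y (f x) is fixed by x, so y (f x) = f x, hence f x is fixed by y
    have h1 : x • (y • f x) = y • f x := hcommf x hx (f x) y hxy.symm (hfsmul x hx)
    have h2 : y • f x = f x := hfu x hx _ h1
    exact hfu y hy _ h2
  -- P3
  have hP3 : ∀ a ∈ I, ∀ b ∈ I ∪ J, a ≠ b → a * b = b * a → ∀ w : G, w * (a * b) = (a * b) * w →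
      w • f a = f a := by
    intro a ha b hb hab hcm w hw
    obtain ⟨g, hg⟩ := QuotientGroup.mk_surjective (f a)
    have hmemH : ∀ x, x • f a = f a → g⁻¹ * x * g ∈ H := by
      intro x hx
      rw [← hg] at hx
      have h1 : ((x * g : G) : G ⧸ H) = (g : G ⧸ H) := hx
      rw [QuotientGroup.eq] at h1
      have e : (x * g)⁻¹ * g = (g⁻¹ * x * g)⁻¹ := by group
      rw [e, Subgroup.inv_mem_iff] at h1
      exact h1
    have ha' : g⁻¹ * a * g ∈ H := hmemH a (hfsmul a (Or.inl ha))
    have hb' : g⁻¹ * b * g ∈ H := by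
      apply hmemH b
      rw [hP2 a (Or.inl ha) b hb hcm]
      exact hfsmul b hb
    have haI : g⁻¹ * a * g ∈ I := by
      have := hIc g⁻¹ a ha
      simpa using this
    have hbF : g⁻¹ * b * g ∈ I ∪ J := by
      have := hFc g⁻¹ b hb
      simpa using this
    have hne : g⁻¹ * a * g ≠ g⁻¹ * b * g := by
      intro h
      apply hab
      have : g * (g⁻¹ * a * g) * g⁻¹ = g * (g⁻¹ * b * g) * g⁻¹ := by rw [h]
      simpa using this
    have hcm' : g⁻¹ * a * g * (g⁻¹ * b * g) = g⁻¹ * b * g * (g⁻¹ * a * g) := by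
      calc g⁻¹ * a * g * (g⁻¹ * b * g) = g⁻¹ * (a * b) * g := by group
        _ = g⁻¹ * (b * a) * g := by rw [hcm]
        _ = g⁻¹ * b * g * (g⁻¹ * a * g) := by group
    have h3 := hcent _ haI ha' _ hbF hb' hne hcm'
    have h4 : g⁻¹ * w * g ∈ Subgroup.centralizer ({g⁻¹ * a * g * (g⁻¹ * b * g)} : Set G) := by
      rw [Subgroup.mem_centralizer_singleton_iff]
      calc g⁻¹ * w * g * (g⁻¹ * a * g * (g⁻¹ * b * g)) = g⁻¹ * (w * (a * b)) * g := by group
        _ = g⁻¹ * ((a * b) * w) * g := by rw [hw]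
        _ = g⁻¹ * a * g * (g⁻¹ * b * g) * (g⁻¹ * w * g) := by group
    have h5 := h3 h4
    rw [← hg]
    change ((w * g : G) : G ⧸ H) = (g : G ⧸ H)
    rw [QuotientGroup.eq]
    have e : (w * g)⁻¹ * g = (g⁻¹ * w * g)⁻¹ := by group
    rw [e, Subgroup.inv_mem_iff]
    exact h5
  -- P4
  have hP4 : ∀ a ∈ I, ∀ b ∈ J, f a = f b := by
    intro a ha b hb
    have ha2 := hinv a (Or.inl ha)
    have hb2 := hinv b (Or.inr hb)
    have hai : a⁻¹ = a := inv_eq_of_mul_eq_one_left ha2
    have hbi : b⁻¹ = b := inv_eq_of_mul_eq_one_left hb2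
    set x := a * b with hx
    have hxa : x⁻¹ * a = a * x := by
      rw [hx, mul_inv_rev, hai, hbi]
      calc b * a * a = b * (a * a) := by group
        _ = b := by rw [ha2, mul_one]
        _ = (a * a) * b := by rw [ha2, one_mul]
        _ = a * (a * b) := by group
    have hbx : b = a * x := by
      rw [hx, ← mul_assoc, ha2, one_mul]
    have hnot : ¬ IsConj a b := by
      intro h
      apply hIJ
      have haa : IsConj a₀ a := by rw [hI] at ha; exact ha
      have hbb : IsConj b₀ b := by rw [hJ] at hb; exact hb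
      rw [hI, hJ]
      ext y
      constructor
      · intro (hy : IsConj a₀ y)
        exact hbb.trans (h.symm.trans (haa.symm.trans hy))
      · intro (hy : IsConj b₀ y)
        exact haa.trans (h.trans (hbb.symm.trans hy))
    have hn : orderOf x ≠ 0 := (orderOf_pos x).ne'
    -- `orderOf x` is even
    obtain ⟨k, hk⟩ : ∃ k, orderOf x = 2 * k := by
      rcases Nat.even_or_odd' (orderOf x) with ⟨m, hm | hm⟩
      · exact ⟨m, hm⟩
      · exfalso
        apply hnot
        -- 2 (m+1) ≡ 1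
        refine isConj_iff.mpr ⟨(x ^ (m + 1))⁻¹, ?_⟩
        rw [conj_even a x hxa]
        have : x ^ (2 * (m + 1)) = x := by
          have h1 : 2 * (m + 1) = orderOf x + 1 := by omega
          rw [h1, pow_succ, pow_orderOf_eq_one, one_mul]
        rw [this, ← hbx]
    have hk0 : k ≠ 0 := by
      intro h; rw [h] at hk; exact hn (by simpa using hk)
    set t := x ^ k with ht
    have ht1 : t ≠ 1 := by
      intro h
      have := orderOf_le_of_pow_eq_one (Nat.pos_of_ne_zero hk0) h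
      omega
    have ht2 : t * t = 1 := by
      rw [ht, ← pow_add, ← two_mul, ← hk, pow_orderOf_eq_one]
    have hti : t⁻¹ = t := inv_eq_of_mul_eq_one_left ht2
    have hat : a * t = t * a := by
      -- a t a⁻¹ = t⁻¹ = t
      have h1 := inv_pow_mul a x hxa k
      rw [← ht, hti] at h1
      exact h1.symm
    have hbt : b * t = t * b := by
      have h1 : x * t = t * x := by rw [ht]; exact (pow_succ' x k).symm.trans (pow_succ x k)
      rw [hbx, mul_assoc, h1, ← mul_assoc, hat, mul_assoc]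
    -- u = a t ∈ I ∪ J
    have hu : a * t ∈ I ∪ J := by
      rcases Nat.even_or_odd' k with ⟨m, hm | hm⟩
      · left
        have := hIc (x ^ m)⁻¹ a ha
        rw [conj_even a x hxa, ← hm] at this
        exact this
      · right
        have := hJc (x ^ m)⁻¹ b hb
        rw [hbx, conj_odd a x hxa, ← hm] at this
        exact this
    have hne : a ≠ a * t := by
      intro h
      apply ht1
      have : a⁻¹ * a = a⁻¹ * (a * t) := by rw [← h]
      simpa using this.symm
    have hcm : a * (a * t) = (a * t) * a := by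
      rw [mul_assoc, ← hat]
    have hprod : a * (a * t) = t := by rw [← mul_assoc, ha2, one_mul]
    have h1 : b • f a = f a := by
      apply hP3 a ha _ hu hne hcm b
      rw [hprod]
      exact hbt
    exact hfu b (Or.inr hb) _ h1
  -- conclusion
  obtain ⟨g₀, hg₀⟩ := QuotientGroup.mk_surjective (f a₀)
  rw [eq_top_iff]
  intro y _
  -- every `w` fixes f a₀
  have hw : ∀ w : G, w • f a₀ = f a₀ := by
    intro w
    have h1 : w * a₀ * w⁻¹ ∈ I := hIc w a₀ ha₀I
    have h2 : (w * a₀ * w⁻¹) • (w • f a₀) = w • f a₀ := by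
      rw [← mul_smul, show w * a₀ * w⁻¹ * w = w * a₀ by group, mul_smul, hfsmul a₀ (Or.inl ha₀I)]
    have h3 := hfu _ (Or.inl h1) _ h2
    rw [h3, hP4 _ h1 b₀ hb₀J, ← hP4 _ ha₀I b₀ hb₀J]
  have h4 := hw (g₀ * y * g₀⁻¹)
  rw [← hg₀] at h4
  have h5 : ((g₀ * y * g₀⁻¹ * g₀ : G) : G ⧸ H) = (g₀ : G ⧸ H) := h4
  rw [QuotientGroup.eq] at h5
  have e : (g₀ * y * g₀⁻¹ * g₀)⁻¹ * g₀ = y⁻¹ := by group
  rw [e, Subgroup.inv_mem_iff] at h5
  exact h5

end Cfsg.Agent.S5439
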