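import Mathlib
import Cfsg.Statements.S5459

set_option autoImplicit false
open Cfsg
open scoped commutatorElement

namespace Cfsg.Agent.S5459

variable {G : Type*} [Group G]

theorem conj_mem {d x g : G} (hx : x ∈ conjugatesOf d) : g * x * g⁻¹ ∈ conjugatesOf d := by
  have h1 : IsConj d x := hx
  have h2 : IsConj x (g * x * g⁻¹) := isConj_iff.mpr ⟨g, rfl⟩
  exact h1.trans h2

/-- Conjugation as a graph homomorphism of the commuting graph. -/
def conjHom (d g : G) : commutingGraph (conjugatesOf d) →g commutingGraph (conjugatesOf d) where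
  toFun x := ⟨g * x * g⁻¹, conj_mem x.2⟩
  map_rel' := by
    rintro ⟨a, ha⟩ ⟨b, hb⟩ h
    simp only [commutingGraph, SimpleGraph.fromRel_adj] at h ⊢
    obtain ⟨h1, h2⟩ := h
    refine ⟨?_, ?_⟩
    · intro h3
      apply h1
      apply Subtype.ext
      have h4 := congrArg Subtype.val h3
      exact mul_left_cancel (mul_right_cancel h4)
    · rcases h2 with h2 | h2
      · left
        have h2' : a * b = b * a := h2
        show (g * a * g⁻¹) * (g * b * g⁻¹) = (g * b * g⁻¹) * (g * a * g⁻¹)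
        calc (g * a * g⁻¹) * (g * b * g⁻¹) = g * (a * b) * g⁻¹ := by group
          _ = g * (b * a) * g⁻¹ := by rw [h2']
          _ = (g * b * g⁻¹) * (g * a * g⁻¹) := by group
      · right
        have h2' : b * a = a * b := h2
        show (g * b * g⁻¹) * (g * a * g⁻¹) = (g * a * g⁻¹) * (g * b * g⁻¹)
        calc (g * b * g⁻¹) * (g * a * g⁻¹) = g * (b * a) * g⁻¹ := by group
          _ = g * (a * b) * g⁻¹ := by rw [h2']
          _ = (g * a * g⁻¹) * (g * b * g⁻¹) := by group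

/-- The base vertex. -/
abbrev base (d : G) : conjugatesOf d := ⟨d, mem_conjugatesOf_self⟩

/-- The stabilizer of the connected component of `d`. -/
def stab (d : G) : Subgroup G where
  carrier := {g | (commutingGraph (conjugatesOf d)).Reachable (base d) ⟨g * d * g⁻¹, conj_mem mem_conjugatesOf_self⟩}
  one_mem' := by
    show (commutingGraph (conjugatesOf d)).Reachable (base d) ⟨1 * d * 1⁻¹, _⟩
    have : (⟨1 * d * 1⁻¹, conj_mem mem_conjugatesOf_self⟩ : conjugatesOf d) = base d :=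
      Subtype.ext (by simp)
    rw [this]
  mul_mem' := by
    intro a b ha hb
    have h1 := hb.map (conjHom d a)
    have h2 := ha.trans h1
    have : (conjHom d a) ⟨b * d * b⁻¹, conj_mem mem_conjugatesOf_self⟩ =
        (⟨(a * b) * d * (a * b)⁻¹, conj_mem mem_conjugatesOf_self⟩ : conjugatesOf d) :=
      Subtype.ext (by show a * (b * d * b⁻¹) * a⁻¹ = _; group)
    rw [this] at h2
    exact h2
  inv_mem' := by
    intro a ha
    have h1 := (show (commutingGraph (conjugatesOf d)).Reachable (base d) _ from ha).map (conjHom d a⁻¹)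
    have h2 : (conjHom d a⁻¹) (base d) =
        (⟨a⁻¹ * d * a⁻¹⁻¹, conj_mem mem_conjugatesOf_self⟩ : conjugatesOf d) := rfl
    have h3 : (conjHom d a⁻¹) ⟨a * d * a⁻¹, conj_mem mem_conjugatesOf_self⟩ = base d :=
      Subtype.ext (by show a⁻¹ * (a * d * a⁻¹) * a⁻¹⁻¹ = d; group)
    rw [h2, h3] at h1
    exact h1.symm

theorem mem_stab {d g : G} : g ∈ stab d ↔
    (commutingGraph (conjugatesOf d)).Reachable (base d) ⟨g * d * g⁻¹, conj_mem mem_conjugatesOf_self⟩ :=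
  Iff.rfl

theorem reach_closed {V : Type*} {Γ : SimpleGraph V} (P : V → Prop)
    (h : ∀ a b, Γ.Adj a b → P a → P b) {a b : V} (hr : Γ.Reachable a b) (ha : P a) : P b := by
  obtain ⟨w⟩ := hr
  induction w with
  | nil => exact ha
  | cons hadj _ ih => exact ih (h _ _ hadj ha)

/-- Let G be a finite group with a quasisimple normal subgroup L and an involution d such that G is generated by L and d, the centre of L has odd order, and d inverts every element of the centre of L. If the commuting graph on the conjugacy class of the image of d in G modulo the centre of L is connected, then the commuting graph on the conjugacy class of d is connected. -/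
theorem result {G : Type*} [Group G] [Finite G] (L : Subgroup G) [L.Normal] (hL : Cfsg.IsQuasisimple ↥L) (d : G) (hd : orderOf d = 2) (hgen : L ⊔ Subgroup.zpowers d = ⊤) (hodd : Odd (Nat.card ↥(Subgroup.center ↥L))) (hinv : ∀ c ∈ (Subgroup.center ↥L).map L.subtype, d * c * d⁻¹ = c⁻¹) [hn : ((Subgroup.center ↥L).map L.subtype).Normal] (hconn : (Cfsg.commutingGraph (conjugatesOf (QuotientGroup.mk d : G ⧸ (Subgroup.center ↥L).map L.subtype))).Connected) : (Cfsg.commutingGraph (conjugatesOf d)).Connected := by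
  set Z : Subgroup G := (Subgroup.center ↥L).map L.subtype with hZ
  have hZL : Z ≤ L := Subgroup.map_subtype_le _
  have hZcen : ∀ c ∈ Z, ∀ l ∈ L, c * l = l * c := by
    rintro _ ⟨c, hc, rfl⟩ l hl
    have := (Subgroup.mem_center_iff.mp hc) ⟨l, hl⟩
    exact (congrArg Subtype.val this).symm
  have hZcomm : ∀ a ∈ Z, ∀ b ∈ Z, a * b = b * a := fun a ha b hb => hZcen a ha b (hZL hb)
  have hZodd : Odd (Nat.card Z) := by
    rw [hZ, Subgroup.card_map_of_injective L.subtype_injective]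
    exact hodd
  -- roots in `Z`
  have hroot : ∀ n : ℕ, Nat.Coprime (Nat.card Z) (2 ^ n) → ∀ c ∈ Z, ∃ u ∈ Z, u ^ (2 ^ n) = c := by
    intro n hn c hc
    obtain ⟨u, hu⟩ := (powCoprime hn).surjective ⟨c, hc⟩
    refine ⟨u, u.2, ?_⟩
    have := congrArg Subtype.val hu
    simpa using this
  have hcop : ∀ n : ℕ, Nat.Coprime (Nat.card Z) (2 ^ n) := fun n =>
    Nat.Coprime.pow_right n (Nat.coprime_two_right.mpr hZodd)
  -- every conjugate of `d` is an involution inverting `Z`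
  have hconj : ∀ x ∈ conjugatesOf d, ∃ g, g * d * g⁻¹ = x := fun x hx => isConj_iff.mp hx
  have hdd : d * d = 1 := by
    rw [← pow_two, ← hd]; exact pow_orderOf_eq_one d
  have hxx : ∀ x ∈ conjugatesOf d, x * x = 1 := by
    intro x hx
    obtain ⟨g, rfl⟩ := hconj x hx
    calc g * d * g⁻¹ * (g * d * g⁻¹) = g * (d * d) * g⁻¹ := by group
      _ = 1 := by rw [hdd]; group
  have hxinv : ∀ x ∈ conjugatesOf d, ∀ c ∈ Z, x * c * x⁻¹ = c⁻¹ := by
    intro x hx c hc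
    obtain ⟨g, rfl⟩ := hconj x hx
    have h1 : g⁻¹ * c * g ∈ Z := by
      have := hn.conj_mem c hc g⁻¹
      simpa using this
    have h2 := hinv _ h1
    calc g * d * g⁻¹ * c * (g * d * g⁻¹)⁻¹ = g * (d * (g⁻¹ * c * g) * d⁻¹) * g⁻¹ := by group
      _ = g * (g⁻¹ * c * g)⁻¹ * g⁻¹ := by rw [h2]
      _ = c⁻¹ := by group
  -- `u y u⁻¹ = u ^ 2 * y`
  have hconj2 : ∀ y ∈ conjugatesOf d, ∀ u ∈ Z, u * y * u⁻¹ = u ^ 2 * y := by
    intro y hy u hu
    have h1 := hxinv y hy u⁻¹ (Z.inv_mem hu)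
    calc u * y * u⁻¹ = u * (y * u⁻¹ * y⁻¹) * y := by group
      _ = u * (u⁻¹)⁻¹ * y := by rw [h1]
      _ = u ^ 2 * y := by simp [pow_two]
  -- edge lifting
  have hlift : ∀ x ∈ conjugatesOf d, ∀ y ∈ conjugatesOf d, x * y * x⁻¹ * y⁻¹ ∈ Z →
      ∃ u ∈ Z, x * (u * y * u⁻¹) = (u * y * u⁻¹) * x := by
    intro x hx y hy hc
    obtain ⟨u, hu, huc⟩ := hroot 2 (hcop 2) _ hc
    refine ⟨u, hu, ?_⟩
    rw [hconj2 y hy u hu]
    have h1 : x * u ^ 2 * x⁻¹ = (u ^ 2)⁻¹ := hxinv x hx (u ^ 2) (Z.pow_mem hu 2)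
    have h3 : x * (u ^ 2 * y) * x⁻¹ = u ^ 2 * y := by
      calc x * (u ^ 2 * y) * x⁻¹ = (x * u ^ 2 * x⁻¹) * ((x * y * x⁻¹ * y⁻¹) * y) := by group
        _ = (u ^ 2)⁻¹ * (u ^ 2 ^ 2 * y) := by rw [h1, huc]
        _ = u ^ 2 * y := by
          have : u ^ 2 ^ 2 = u ^ 2 * u ^ 2 := by rw [← pow_add]; norm_num
          rw [this]; group
    calc x * (u ^ 2 * y) = (x * (u ^ 2 * y) * x⁻¹) * x := by group
      _ = u ^ 2 * y * x := by rw [h3]
  -- the fibres are `Z`-classes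
  have hfib : ∀ x ∈ conjugatesOf d, ∀ y ∈ conjugatesOf d, x * y⁻¹ ∈ Z → ∃ u ∈ Z, u * y * u⁻¹ = x := by
    intro x hx y hy hc
    obtain ⟨u, hu, huc⟩ := hroot 1 (hcop 1) _ hc
    refine ⟨u, hu, ?_⟩
    rw [hconj2 y hy u hu]
    have : u ^ 2 = x * y⁻¹ := by simpa using huc
    rw [this]; group
  have hmk1 : ∀ x : G, (QuotientGroup.mk x : G ⧸ Z) = 1 ↔ x ∈ Z := fun x =>
    QuotientGroup.eq_one_iff x
  have hmkmul : ∀ x y : G, (QuotientGroup.mk (x * y) : G ⧸ Z) = QuotientGroup.mk x * QuotientGroup.mk y :=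
    fun _ _ => rfl
  have hmkinv : ∀ x : G, (QuotientGroup.mk x⁻¹ : G ⧸ Z) = (QuotientGroup.mk x)⁻¹ :=
    fun _ => rfl
  -- the component meets every fibre
  have hmeet : ∀ v : conjugatesOf (QuotientGroup.mk d : G ⧸ Z),
      ∃ x : conjugatesOf d, (commutingGraph (conjugatesOf d)).Reachable (base d) x ∧
        (QuotientGroup.mk (x : G) : G ⧸ Z) = v := by
    intro v
    refine reach_closed (Γ := commutingGraph (conjugatesOf (QuotientGroup.mk d : G ⧸ Z)))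
      (fun v => ∃ x : conjugatesOf d, (commutingGraph (conjugatesOf d)).Reachable (base d) x ∧
        (QuotientGroup.mk (x : G) : G ⧸ Z) = v) ?_
      (hconn.preconnected (base _) v) ⟨base d, SimpleGraph.Reachable.refl _, rfl⟩
    rintro ⟨v, hv⟩ ⟨w, hw⟩ hadj ⟨x, hx, hxv⟩
    simp only [commutingGraph, SimpleGraph.fromRel_adj] at hadj
    obtain ⟨hne, hcomm⟩ := hadj
    obtain ⟨c, hc⟩ := isConj_iff.mp hw
    obtain ⟨g, rfl⟩ := QuotientGroup.mk_surjective c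
    set y := g * d * g⁻¹ with hy
    have hyD : y ∈ conjugatesOf d := conj_mem mem_conjugatesOf_self
    have hyw : (QuotientGroup.mk y : G ⧸ Z) = w := hc
    have hxv' : (QuotientGroup.mk (x : G) : G ⧸ Z) = v := hxv
    have hcz : (x : G) * y * (x : G)⁻¹ * y⁻¹ ∈ Z := by
      rw [← hmk1, hmkmul, hmkmul, hmkmul, hmkinv, hmkinv, hxv', hyw]
      rcases hcomm with h | h
      · have h' : v * w = w * v := h
        rw [h']; group
      · have h' : w * v = v * w := h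
        rw [← h']; group
    obtain ⟨u, hu, hcm⟩ := hlift x x.2 y hyD hcz
    have hy'D : u * y * u⁻¹ ∈ conjugatesOf d := conj_mem hyD
    have hy'w : (QuotientGroup.mk (u * y * u⁻¹) : G ⧸ Z) = w := by
      rw [hmkmul, hmkmul, hmkinv, (hmk1 u).mpr hu, hyw]; simp
    refine ⟨⟨u * y * u⁻¹, hy'D⟩, hx.trans (SimpleGraph.Adj.reachable ?_), hy'w⟩
    simp only [commutingGraph, SimpleGraph.fromRel_adj]
    refine ⟨?_, Or.inl hcm⟩
    intro h
    apply hne
    apply Subtype.ext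
    show v = w
    rw [← hxv', ← hy'w]
    have := congrArg Subtype.val h
    exact congrArg _ this
  -- the factorization `G = Z H`
  have hfac : ∀ g : G, ∃ u ∈ Z, ∃ h ∈ stab d, g = u * h := by
    intro g
    have hgD : g * d * g⁻¹ ∈ conjugatesOf d := conj_mem mem_conjugatesOf_self
    obtain ⟨x, hx, hxv⟩ := hmeet ⟨QuotientGroup.mk (g * d * g⁻¹), by
      obtain h := isConj_iff.mpr ⟨(QuotientGroup.mk g : G ⧸ Z), rfl⟩
      exact h⟩
    have hz : g * d * g⁻¹ * (x : G)⁻¹ ∈ Z := by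
      rw [← hmk1, hmkmul, hmkinv]
      have hxv' : (QuotientGroup.mk (x : G) : G ⧸ Z) = QuotientGroup.mk (g * d * g⁻¹) := hxv
      rw [hxv']; simp
    obtain ⟨u, hu, hue⟩ := hfib _ hgD x x.2 hz
    obtain ⟨h₀, hh₀⟩ := hconj x x.2
    have hh₀s : h₀ ∈ stab d := by
      rw [mem_stab]
      have : (⟨h₀ * d * h₀⁻¹, conj_mem mem_conjugatesOf_self⟩ : conjugatesOf d) = x :=
        Subtype.ext hh₀
      rw [this]; exact hx
    have hast : ((u * h₀)⁻¹ * g) ∈ stab d := by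
      rw [mem_stab]
      have : (⟨((u * h₀)⁻¹ * g) * d * ((u * h₀)⁻¹ * g)⁻¹, conj_mem mem_conjugatesOf_self⟩ :
          conjugatesOf d) = base d := by
        apply Subtype.ext
        show ((u * h₀)⁻¹ * g) * d * ((u * h₀)⁻¹ * g)⁻¹ = d
        have e : ((u * h₀)⁻¹ * g) * d * ((u * h₀)⁻¹ * g)⁻¹ = (u * h₀)⁻¹ * (g * d * g⁻¹) * (u * h₀) := by
          group
        rw [e, ← hue, ← hh₀]
        group
      rw [this]
    refine ⟨u, hu, h₀ * ((u * h₀)⁻¹ * g), Subgroup.mul_mem _ hh₀s hast, by group⟩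
  -- `L ≤ H`
  have hLH : L ≤ stab d := by
    have hperf := hL.1
    have hcomm : commutator ↥L ≤ (stab d).comap L.subtype := by
      rw [commutator_def, Subgroup.commutator_le]
      rintro ⟨a, ha⟩ - ⟨b, hb⟩ -
      obtain ⟨u₁, hu₁, h₁, hh₁, rfl⟩ := hfac a
      obtain ⟨u₂, hu₂, h₂, hh₂, rfl⟩ := hfac b
      have hh₁L : h₁ ∈ L := by
        have := L.mul_mem (L.inv_mem (hZL hu₁)) ha
        simpa using this
      have hh₂L : h₂ ∈ L := by
        have := L.mul_mem (L.inv_mem (hZL hu₂)) hb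
        simpa using this
      have c1 : ∀ l ∈ L, u₁ * l = l * u₁ := hZcen u₁ hu₁
      have c2 : ∀ l ∈ L, u₂ * l = l * u₂ := hZcen u₂ hu₂
      have e : ⁅(⟨u₁ * h₁, ha⟩ : ↥L), (⟨u₂ * h₂, hb⟩ : ↥L)⁆ = ⁅(⟨h₁, hh₁L⟩ : ↥L), (⟨h₂, hh₂L⟩ : ↥L)⁆ := by
        have hu₁' : (⟨u₁, hZL hu₁⟩ : ↥L) ∈ Subgroup.center ↥L := by
          rw [Subgroup.mem_center_iff]
          rintro ⟨l, hl⟩
          exact Subtype.ext (c1 l hl).symm
        have hu₂' : (⟨u₂, hZL hu₂⟩ : ↥L) ∈ Subgroup.center ↥L := by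
          rw [Subgroup.mem_center_iff]
          rintro ⟨l, hl⟩
          exact Subtype.ext (c2 l hl).symm
        have e1 : (⟨u₁ * h₁, ha⟩ : ↥L) = ⟨u₁, hZL hu₁⟩ * ⟨h₁, hh₁L⟩ := rfl
        have e2 : (⟨u₂ * h₂, hb⟩ : ↥L) = ⟨u₂, hZL hu₂⟩ * ⟨h₂, hh₂L⟩ := rfl
        rw [e1, e2]
        generalize (⟨h₁, hh₁L⟩ : ↥L) = A
        generalize (⟨h₂, hh₂L⟩ : ↥L) = B
        generalize (⟨u₁, hZL hu₁⟩ : ↥L) = U₁ at hu₁'
        generalize (⟨u₂, hZL hu₂⟩ : ↥L) = U₂ at hu₂'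
        have k1 := Subgroup.mem_center_iff.mp hu₁'
        have k2 := Subgroup.mem_center_iff.mp hu₂'
        simp only [commutatorElement_def]
        have k1i : ∀ g : ↥L, g * U₁⁻¹ = U₁⁻¹ * g := fun g => by
          have := k1 g
          calc g * U₁⁻¹ = U₁⁻¹ * (U₁ * g) * U₁⁻¹ := by group
            _ = U₁⁻¹ * (g * U₁) * U₁⁻¹ := by rw [k1 g]
            _ = U₁⁻¹ * g := by group
        have k2i : ∀ g : ↥L, g * U₂⁻¹ = U₂⁻¹ * g := fun g => by
          calc g * U₂⁻¹ = U₂⁻¹ * (U₂ * g) * U₂⁻¹ := by group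
            _ = U₂⁻¹ * (g * U₂) * U₂⁻¹ := by rw [k2 g]
            _ = U₂⁻¹ * g := by group
        calc U₁ * A * (U₂ * B) * (U₁ * A)⁻¹ * (U₂ * B)⁻¹
            = U₁ * (A * U₂) * B * A⁻¹ * U₁⁻¹ * B⁻¹ * U₂⁻¹ := by group
          _ = U₁ * (U₂ * A) * B * A⁻¹ * U₁⁻¹ * B⁻¹ * U₂⁻¹ := by rw [k2 A]
          _ = U₁ * U₂ * (A * B * A⁻¹ * B⁻¹) * (B * (U₁⁻¹ * (B⁻¹ * U₂⁻¹))) := by group
          _ = U₁ * U₂ * (A * B * A⁻¹ * B⁻¹) * (B * (U₁⁻¹ * (U₂⁻¹ * B⁻¹))) := by rw [k2i]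
          _ = U₁ * U₂ * (A * B * A⁻¹ * B⁻¹) * (B * U₁⁻¹ * U₂⁻¹ * B⁻¹) := by group
          _ = U₁ * U₂ * (A * B * A⁻¹ * B⁻¹) * (U₁⁻¹ * B * U₂⁻¹ * B⁻¹) := by rw [k1i]
          _ = U₁ * U₂ * (A * B * A⁻¹ * B⁻¹) * (U₁⁻¹ * (B * U₂⁻¹) * B⁻¹) := by group
          _ = U₁ * U₂ * (A * B * A⁻¹ * B⁻¹) * (U₁⁻¹ * (U₂⁻¹ * B) * B⁻¹) := by rw [k2i]
          _ = U₁ * U₂ * (A * B * A⁻¹ * B⁻¹) * U₁⁻¹ * U₂⁻¹ := by group
          _ = U₁ * (U₂ * (A * B * A⁻¹ * B⁻¹)) * U₁⁻¹ * U₂⁻¹ := by group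
          _ = U₁ * ((A * B * A⁻¹ * B⁻¹) * U₂) * U₁⁻¹ * U₂⁻¹ := by rw [k2]
          _ = (U₁ * (A * B * A⁻¹ * B⁻¹)) * (U₂ * U₁⁻¹) * U₂⁻¹ := by group
          _ = ((A * B * A⁻¹ * B⁻¹) * U₁) * (U₂ * U₁⁻¹) * U₂⁻¹ := by rw [k1]
          _ = (A * B * A⁻¹ * B⁻¹) * (U₁ * (U₂ * U₁⁻¹)) * U₂⁻¹ := by group
          _ = (A * B * A⁻¹ * B⁻¹) * (U₁ * (U₁⁻¹ * U₂)) * U₂⁻¹ := by rw [k1i]
          _ = A * B * A⁻¹ * B⁻¹ := by group
      rw [e]
      show h₁ * h₂ * h₁⁻¹ * h₂⁻¹ ∈ stab d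
      exact Subgroup.mul_mem _ (Subgroup.mul_mem _ (Subgroup.mul_mem _ hh₁ hh₂)
        (Subgroup.inv_mem _ hh₁)) (Subgroup.inv_mem _ hh₂)
    intro l hl
    have h1 : (⟨l, hl⟩ : ↥L) ∈ commutator ↥L := by
      rw [hperf.commutator_eq_top]; exact Subgroup.mem_top _
    exact hcomm h1
  have htop : ∀ g : G, g ∈ stab d := by
    intro g
    obtain ⟨u, hu, h, hh, rfl⟩ := hfac g
    exact Subgroup.mul_mem _ (hLH (hZL hu)) hh
  have hall : ∀ x : conjugatesOf d, (commutingGraph (conjugatesOf d)).Reachable (base d) x := by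
    intro x
    obtain ⟨g, hg⟩ := hconj x x.2
    have := htop g
    rw [mem_stab] at this
    have e : (⟨g * d * g⁻¹, conj_mem mem_conjugatesOf_self⟩ : conjugatesOf d) = x := Subtype.ext hg
    rw [e] at this
    exact this
  exact { preconnected := fun a b => (hall a).symm.trans (hall b), nonempty := ⟨base d⟩ }

end Cfsg.Agent.S5459
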