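import Mathlib
import Cfsg.Statements.S5473
import Cfsg.Agent.Lib.Fi22KI
import Cfsg.Agent.Lib.Fi22K3
import Cfsg.Agent.Lib.Fi22Q4

set_option autoImplicit false
open Cfsg

namespace Cfsg.Agent.S5473

/-- Let G be a finite group with trivial centre generated by a conjugation-invariant set D of 3-transpositions on which it acts primitively, such that for some d in D the subgroup generated by the members of D other than d commuting with d has central largest normal 2- and 3-subgroups, and suppose G with D is of type M(22), and let A be the automorphism group of G. Let d₁, d₂ be distinct commuting members of D and j the inner automorphism of their product. Then the generalized Fitting subgroup Q of the centralizer of j in A is a large extraspecial 2-subgroup of A of order 2^11 (extraspecial; centralizer equal to its centre; normal in the centralizer of its centre; normalizing no non-trivial odd-order subgroup), and the centralizer of j modulo Q is isomorphic to the full automorphism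 group of the projective special unitary group of dimension 4 over the field with four elements. -/
theorem result {G : Type*} [Group G] [Finite G] {D : Set G} (hD : Cfsg.IsThreeTranspositionGroup D) (hprim : Cfsg.IsPrimitiveUnderConj D) (d₀ : G) (hd₀ : d₀ ∈ D) (h3 : Cfsg.pCore 3 ↥(Subgroup.closure {y : G | y ∈ D ∧ y ≠ d₀ ∧ Commute d₀ y}) ≤ Subgroup.center ↥(Subgroup.closure {y : G | y ∈ D ∧ y ≠ d₀ ∧ Commute d₀ y})) (h2 : Cfsg.pCore 2 ↥(Subgroup.closure {y : G | y ∈ D ∧ y ≠ d₀ ∧ Commute d₀ y}) ≤ Subgroup.center ↥(Subgroup.closure {y : G | y ∈ D ∧ y ≠ d₀ ∧ Commute d₀ y})) (h22 : Cfsg.IsOfTypeM22 G D) (d₁ d₂ : G) (h₁ : d₁ ∈ D) (h₂ : d₂ ∈ D) (hne : d₁ ≠ d₂) (hc : Commute d₁ d₂) (j : MulAut G) (hj : j = MulAut.conj (d₁ * d₂)) (Q : Subgroup (MulAut G)) (hQ : Q = (Cfsg.generalizedFittingSubgroup ↥(Subgroup.centralizer ({j} : Set (MulAut G)))).map (Subgroup.centralizer ({j} : Set (MulAut G))).subtype) : Cfsg.IsLargeExtraspecial Q ∧ Nat.card Q = 2 ^ 11 ∧ Q ≤ Subgroup.centralizer ({j}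 : Set (MulAut G)) ∧ ∃ (_ : (Q.subgroupOf (Subgroup.centralizer ({j} : Set (MulAut G)))).Normal) (F : Type) (_ : Field F) (_ : Fintype F), Fintype.card F = 4 ∧ Nonempty (↥(Subgroup.centralizer ({j} : Set (MulAut G))) ⧸ Q.subgroupOf (Subgroup.centralizer ({j} : Set (MulAut G))) ≃* MulAut (Cfsg.PSU 4 F 2)) := by
  obtain ⟨e, he⟩ := Cfsg.Agent.Lib.Fi22K.exists_iso hD hprim h22
  obtain ⟨e', h1, h2, h3⟩ := Cfsg.Agent.Lib.Fi22K.exists_equiv2 he h₁ h₂ hne hc.eq
  let Ψ : MulAut Cfsg.Agent.Lib.Fi22K.Gq ≃* MulAut G := MulAut.congr e'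
  have hj' : j = Ψ Cfsg.Agent.Lib.Fi22Q.jq := by
    rw [hj]
    apply MulEquiv.ext
    intro y
    show d₁ * d₂ * y * (d₁ * d₂)⁻¹ = e' (Cfsg.Agent.Lib.Fi22Q.zq * e'.symm y * Cfsg.Agent.Lib.Fi22Q.zq⁻¹)
    rw [map_mul, map_mul, map_inv, e'.apply_symm_apply, Cfsg.Agent.Lib.Fi22Q.zq, map_mul, h2, h3]
  rw [hj'] at hQ ⊢
  exact Cfsg.Agent.Lib.Fi22Q.main_X Ψ Q hQ

end Cfsg.Agent.S5473
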