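import Mathlib
import Cfsg.Agent.S2608
import Cfsg.Agent.S0296
import Cfsg.Agent.Lib.BenderPair
import Cfsg.Agent.Lib.AutOrthOut
import Cfsg.Statements.S5515

set_option autoImplicit false
open Cfsg

namespace Cfsg.Agent.S5515

open Equiv

/-- Shorthand for the simple group `PΩ⁺₈(3)`. -/
abbrev PP : Type := Cfsg.POmega (ZMod 3) (Cfsg.quadFormPlus 4 (ZMod 3))

theorem center_PP : Subgroup.center PP = ⊥ := by
  obtain ⟨fr⟩ := Cfsg.Agent.Lib.OrthoFinal.framePlus (F := ZMod 3) 1
  exact Cfsg.Agent.Lib.AutOrthOut.center_POmega _ (q := Cfsg.Agent.Lib.OrthoCount.qPlus (1 + 3) (ZMod 3))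
    (fun v => (Cfsg.Agent.Lib.OrthoCount.qPlus_apply (1 + 3) v).symm)
    (Cfsg.Agent.Lib.OrthoOrder.nondeg_qPlus (1 + 3)) (Cfsg.Agent.Lib.OrthoGen.genR_qPlus (1 + 3)) fr

theorem out_PP : Nonempty (Cfsg.Out PP ≃* Perm (Fin 4)) := by
  haveI : Fact (Nat.Prime 3) := ⟨by norm_num⟩
  have h := Cfsg.Agent.S2608.result (F := ZMod 3) (p := 3) (f := 1) (m := 4) le_rfl (by simp [ZMod.card]) (by norm_num) le_rfl
  rw [if_pos rfl] at h
  obtain ⟨e⟩ := h
  haveI : Unique (Multiplicative (ZMod 1)) := inferInstanceAs (Unique (ZMod 1))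
  exact ⟨e.trans MulEquiv.prodUnique⟩

/-- A self-centralizing copy of `PP` embeds the group into the automorphism group of `PP`. -/
theorem embed {G : Type*} [Group G] [Finite G] [hn : (Cfsg.generalizedFittingSubgroup G).Normal]
    (e : ↥(Cfsg.generalizedFittingSubgroup G) ≃* PP)
    (hq : Nonempty (G ⧸ Cfsg.generalizedFittingSubgroup G ≃* Perm (Fin 3))) :
    ∃ A : Subgroup (MulAut PP), Cfsg.Inn PP ≤ A ∧ Nonempty (G ≃* A) ∧
      Nat.card (A.map (QuotientGroup.mk' (Cfsg.Inn PP))) = 6 := by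
  classical
  obtain ⟨q⟩ := hq
  let L := Cfsg.generalizedFittingSubgroup G
  let Φ : G →* MulAut PP := (MulAut.congr e).toMonoidHom.comp (MulAut.conjNormal (H := L))
  have hΦ : ∀ (g : G) (p : PP), Φ g p = e ⟨g * (e.symm p : G) * g⁻¹, hn.conj_mem _ (e.symm p).2 g⟩ := by
    intro g p
    rfl
  have hΦL : ∀ l : L, Φ l = MulAut.conj (e l) := by
    intro l
    ext p
    rw [hΦ, MulAut.conj_apply]
    apply e.symm.injective
    rw [MulEquiv.symm_apply_apply, map_mul, map_mul, map_inv, MulEquiv.symm_apply_apply]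
    apply Subtype.ext
    simp
  have hker : ∀ g : G, Φ g = 1 → g = 1 := by
    intro g hg
    have hcen : g ∈ Subgroup.centralizer (L : Set G) := by
      rw [Subgroup.mem_centralizer_iff]
      intro l hl
      have h1 : Φ g (e ⟨l, hl⟩) = e ⟨l, hl⟩ := by rw [hg]; rfl
      rw [hΦ] at h1
      have h2 := e.injective h1
      simp only [MulEquiv.symm_apply_apply, Subtype.mk.injEq] at h2
      have h3 : g * l * g⁻¹ = l := h2
      rw [mul_inv_eq_iff_eq_mul] at h3
      exact h3.symm
    have hfit : g ∈ Cfsg.fittingSubgroup G := Cfsg.Agent.Lib.BenderPair.cen_fstar_le_fitting hcen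
    have hgL : g ∈ L := by
      have : Cfsg.fittingSubgroup G ≤ L := le_sup_right
      exact this hfit
    have h1 : MulAut.conj (e ⟨g, hgL⟩) = 1 := by
      rw [← hΦL]
      exact hg
    have h2 : e ⟨g, hgL⟩ ∈ Subgroup.center PP := by
      rw [Subgroup.mem_center_iff]
      intro b
      have h3 := congrArg (fun φ : MulAut PP => φ b) h1
      simp only [MulAut.conj_apply, MulAut.one_apply] at h3
      rw [mul_inv_eq_iff_eq_mul] at h3
      exact h3.symm
    rw [center_PP, Subgroup.mem_bot] at h2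
    have h3 : (⟨g, hgL⟩ : L) = 1 := by
      apply e.injective
      rw [h2, map_one]
    exact congrArg Subtype.val h3
  have hinj : Function.Injective Φ := (injective_iff_map_eq_one Φ).2 hker
  refine ⟨Φ.range, ?_, ⟨MonoidHom.ofInjective hinj⟩, ?_⟩
  · rintro _ ⟨p, rfl⟩
    refine ⟨((e.symm p : L) : G), ?_⟩
    have := hΦL (e.symm p)
    rw [MulEquiv.apply_symm_apply] at this
    exact this
  · let π : G →* Cfsg.Out PP := (QuotientGroup.mk' (Cfsg.Inn PP)).comp Φ
    have hkerπ : π.ker = L := by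
      ext g
      rw [MonoidHom.mem_ker]
      constructor
      · intro h
        have h1 : Φ g ∈ Cfsg.Inn PP := by
          have : (QuotientGroup.mk' (Cfsg.Inn PP)) (Φ g) = 1 := h
          rwa [QuotientGroup.mk'_apply, QuotientGroup.eq_one_iff] at this
        obtain ⟨p, hp⟩ := h1
        have h2 : g = ((e.symm p : L) : G) := by
          apply hinj
          rw [hΦL, MulEquiv.apply_symm_apply]
          exact hp.symm
        rw [h2]
        exact (e.symm p).2
      · intro h
        have h1 : Φ g = MulAut.conj (e ⟨g, h⟩) := hΦL ⟨g, h⟩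
        change (QuotientGroup.mk' (Cfsg.Inn PP)) (Φ g) = 1
        rw [QuotientGroup.mk'_apply, QuotientGroup.eq_one_iff, h1]
        exact ⟨_, rfl⟩
    have hr : (Φ.range).map (QuotientGroup.mk' (Cfsg.Inn PP)) = π.range := by
      exact MonoidHom.map_range _ _
    rw [hr]
    have e1 : G ⧸ π.ker ≃* π.range := QuotientGroup.quotientKerEquivRange π
    have e2 : G ⧸ π.ker ≃* G ⧸ L := QuotientGroup.quotientMulEquivOfEq hkerπ
    rw [← Nat.card_congr e1.toEquiv, Nat.card_congr e2.toEquiv, Nat.card_congr q.toEquiv]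
    simp [Nat.card_eq_fintype_card, Fintype.card_perm]
    rfl

set_option maxRecDepth 100000 in
theorem dec_fix : ∀ c : Perm (Fin 4), c ^ 3 = 1 → c ≠ 1 → ∃ p, c p = p ∧ ∀ q, c q = q → q = p := by
  decide

set_option maxRecDepth 100000 in
theorem dec_stab : ∀ p : Fin 4, (Finset.univ.filter (fun σ : Perm (Fin 4) => σ p = p)).card = 6 := by
  decide

/-- The point stabilizer as a subgroup. -/
def stabS (p : Fin 4) : Subgroup (Perm (Fin 4)) where
  carrier := {σ | σ p = p}
  one_mem' := rfl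
  mul_mem' := by
    intro a b ha hb
    simp only [Set.mem_ofPred_eq] at ha hb ⊢
    rw [Perm.mul_apply, hb, ha]
  inv_mem' := by
    intro a ha
    simp only [Set.mem_ofPred_eq] at ha ⊢
    rw [Perm.inv_eq_iff_eq, ha]

theorem card_stabS (p : Fin 4) : Nat.card (stabS p) = 6 := by
  classical
  have h := dec_stab p
  rw [← h, Nat.card_eq_fintype_card, ← Fintype.card_subtype]
  apply Fintype.card_congr
  exact Equiv.refl _

/-- Any subgroup of order six in the symmetric group of degree four is a point stabilizer. -/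
theorem eq_stabS (U : Subgroup (Perm (Fin 4))) (hU : Nat.card U = 6) : ∃ p, U = stabS p := by
  classical
  have h3 : Nat.Prime 3 := by norm_num
  haveI : Fact (Nat.Prime 3) := ⟨h3⟩
  have hdvd : 3 ∣ Nat.card U := by rw [hU]; norm_num
  obtain ⟨c, hc⟩ := exists_prime_orderOf_dvd_card' (G := U) 3 hdvd
  have hc3 : (c : Perm (Fin 4)) ^ 3 = 1 := by
    have := pow_orderOf_eq_one c
    rw [hc] at this
    exact_mod_cast congrArg Subtype.val this
  have hc1 : (c : Perm (Fin 4)) ≠ 1 := by
    intro h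
    have : c = 1 := Subtype.ext h
    rw [this, orderOf_one] at hc
    norm_num at hc
  obtain ⟨p, hp, hpu⟩ := dec_fix c hc3 hc1
  refine ⟨p, ?_⟩
  have hle : U ≤ stabS p := by
    intro u hu
    -- the cyclic subgroup of order three has index two in `U`, hence is normal
    have hidx : (Subgroup.zpowers c).index = 2 := by
      have h1 := Subgroup.card_mul_index (Subgroup.zpowers c)
      rw [Nat.card_zpowers, hc, hU] at h1
      omega
    haveI : (Subgroup.zpowers c).Normal := Subgroup.normal_of_index_eq_two hidx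
    have hm : (⟨u, hu⟩ : U) * c * (⟨u, hu⟩ : U)⁻¹ ∈ Subgroup.zpowers c :=
      Subgroup.Normal.conj_mem inferInstance c (Subgroup.mem_zpowers c) _
    -- every element of the cyclic group fixes `p`
    have hzp : ∀ x ∈ Subgroup.zpowers c, (x : Perm (Fin 4)) p = p := by
      intro x hx
      obtain ⟨k, rfl⟩ := hx
      have hf : Function.IsFixedPt (c : Perm (Fin 4)) p := hp
      have := Perm.zpow_apply_eq_self_of_apply_eq_self hp k
      simpa using this
    have h1 := hzp _ hm
    simp only [Subgroup.coe_mul, Subgroup.coe_inv, Perm.mul_apply] at h1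
    -- `u⁻¹ p` is fixed by `c`
    have h2 : (c : Perm (Fin 4)) ((u⁻¹ : Perm (Fin 4)) p) = (u⁻¹ : Perm (Fin 4)) p := by
      have := congrArg (fun z => (u⁻¹ : Perm (Fin 4)) z) h1
      simpa using this
    have h3 := hpu _ h2
    change u p = p
    have h4 := congrArg u h3
    simpa using h4.symm
  apply Subgroup.eq_of_le_of_card_ge hle
  rw [card_stabS, hU]

theorem s4_conj (U V : Subgroup (Perm (Fin 4))) (hU : Nat.card U = 6) (hV : Nat.card V = 6) :
    ∃ σ : Perm (Fin 4), U.map (MulAut.conj σ).toMonoidHom = V := by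
  classical
  obtain ⟨p, rfl⟩ := eq_stabS U hU
  obtain ⟨r, rfl⟩ := eq_stabS V hV
  refine ⟨Equiv.swap p r, ?_⟩
  ext y
  simp only [Subgroup.mem_map]
  constructor
  · rintro ⟨x, hx, rfl⟩
    change (MulAut.conj (Equiv.swap p r)) x r = r
    have hx' : x p = p := hx
    simp [MulAut.conj_apply, Perm.mul_apply, hx']
  · intro hy
    have hy' : y r = r := hy
    refine ⟨(MulAut.conj (Equiv.swap p r)).symm y, ?_, ?_⟩
    · change ((MulAut.conj (Equiv.swap p r)).symm y) p = p
      simp [MulAut.conj_symm_apply, Perm.mul_apply, hy']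
    · exact MulEquiv.apply_symm_apply _ _

theorem conj_lift {M : Type*} [Group M] (N : Subgroup M) [hN : N.Normal] (A A' : Subgroup M)
    (hA : N ≤ A) (hA' : N ≤ A') (ω : M ⧸ N)
    (h : (A.map (QuotientGroup.mk' N)).map (MulAut.conj ω).toMonoidHom = A'.map (QuotientGroup.mk' N)) :
    ∃ w : M, A.map (MulAut.conj w).toMonoidHom = A' := by
  obtain ⟨w, rfl⟩ := QuotientGroup.mk_surjective ω
  refine ⟨w, ?_⟩
  have key : ∀ x : M, (QuotientGroup.mk' N) ((MulAut.conj w).toMonoidHom x)
      = (MulAut.conj (w : M ⧸ N)).toMonoidHom ((QuotientGroup.mk' N) x) := by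
    intro x
    rfl
  ext y
  constructor
  · rintro ⟨x, hx, rfl⟩
    have h1 : (MulAut.conj (w : M ⧸ N)).toMonoidHom ((QuotientGroup.mk' N) x) ∈ A'.map (QuotientGroup.mk' N) := by
      rw [← h]
      exact ⟨_, ⟨x, hx, rfl⟩, rfl⟩
    rw [← key] at h1
    obtain ⟨a, ha, hae⟩ := h1
    have hae' : (QuotientGroup.mk a : M ⧸ N) = QuotientGroup.mk ((MulAut.conj w).toMonoidHom x) := hae
    rw [QuotientGroup.eq] at hae'
    have h2 := hA' hae'
    have h3 := A'.mul_mem ha h2
    simpa using h3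
  · intro hy
    have h1 : (QuotientGroup.mk' N) y ∈ A'.map (QuotientGroup.mk' N) := ⟨y, hy, rfl⟩
    rw [← h] at h1
    obtain ⟨_, ⟨x, hx, rfl⟩, hxe⟩ := h1
    rw [← key] at hxe
    have hae' : (QuotientGroup.mk ((MulAut.conj w).toMonoidHom x) : M ⧸ N) = QuotientGroup.mk y := hxe
    rw [QuotientGroup.eq] at hae'
    refine ⟨x * (w⁻¹ * (((MulAut.conj w).toMonoidHom x)⁻¹ * y) * w), ?_, ?_⟩
    · apply A.mul_mem hx
      apply hA
      have := hN.conj_mem _ hae' w⁻¹
      simpa using this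
    · simp only [MulEquiv.coe_toMonoidHom, MulAut.conj_apply]
      group

theorem transport_conj {Q : Type*} [Group Q] (E : Q ≃* Perm (Fin 4)) (U V : Subgroup Q)
    (hU : Nat.card U = 6) (hV : Nat.card V = 6) :
    ∃ ω : Q, U.map (MulAut.conj ω).toMonoidHom = V := by
  have hU' : Nat.card (U.map E.toMonoidHom) = 6 := by
    rw [← hU]
    exact (Nat.card_congr (E.subgroupMap _).toEquiv).symm
  have hV' : Nat.card (V.map E.toMonoidHom) = 6 := by
    rw [← hV]
    exact (Nat.card_congr (E.subgroupMap _).toEquiv).symm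
  obtain ⟨σ, hσ⟩ := s4_conj _ _ hU' hV'
  refine ⟨E.symm σ, ?_⟩
  ext y
  constructor
  · rintro ⟨x, hx, rfl⟩
    have h1 : (MulAut.conj σ).toMonoidHom (E x) ∈ (V.map E.toMonoidHom) := by
      rw [← hσ]
      exact ⟨E x, ⟨x, hx, rfl⟩, rfl⟩
    obtain ⟨z, hz, hze⟩ := h1
    have h2 : z = (MulAut.conj (E.symm σ)).toMonoidHom x := by
      apply E.injective
      have : E z = σ * E x * σ⁻¹ := hze
      rw [this]
      simp [MulAut.conj_apply]
    rw [← h2]
    exact hz
  · intro hy
    have h1 : E y ∈ (V.map E.toMonoidHom) := ⟨y, hy, rfl⟩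
    rw [← hσ] at h1
    obtain ⟨_, ⟨x, hx, rfl⟩, hxe⟩ := h1
    refine ⟨x, hx, ?_⟩
    apply E.injective
    have : σ * E x * σ⁻¹ = E y := hxe
    rw [← this]
    simp [MulAut.conj_apply]

/-- Let G and G′ be finite groups whose generalized Fitting subgroups are isomorphic to PΩ⁺(8, 3) (the commutator subgroup of the isometry group of the hyperbolic quadratic form in dimension 8 over the field with three elements, modulo its centre) with quotients isomorphic to the symmetric group of degree 3. Then G and G′ are isomorphic. -/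
theorem result {G G' : Type*} [Group G] [Finite G] [Group G'] [Finite G'] (hF : Nonempty (↥(Cfsg.generalizedFittingSubgroup G) ≃* Cfsg.POmega (ZMod 3) (Cfsg.quadFormPlus 4 (ZMod 3)))) (hF' : Nonempty (↥(Cfsg.generalizedFittingSubgroup G') ≃* Cfsg.POmega (ZMod 3) (Cfsg.quadFormPlus 4 (ZMod 3)))) [hn : (Cfsg.generalizedFittingSubgroup G).Normal] [hn' : (Cfsg.generalizedFittingSubgroup G').Normal] (hq : Nonempty (G ⧸ Cfsg.generalizedFittingSubgroup G ≃* Equiv.Perm (Fin 3))) (hq' : Nonempty (G' ⧸ Cfsg.generalizedFittingSubgroup G' ≃* Equiv.Perm (Fin 3))) : Nonempty (G ≃* G') := by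
  obtain ⟨e⟩ := hF
  obtain ⟨e'⟩ := hF'
  obtain ⟨A, hA, ⟨eA⟩, cA⟩ := embed e hq
  obtain ⟨B, hB, ⟨eB⟩, cB⟩ := embed e' hq'
  obtain ⟨E⟩ := out_PP
  obtain ⟨ω, hω⟩ := transport_conj E _ _ cA cB
  obtain ⟨w, hw⟩ := conj_lift (Cfsg.Inn PP) A B hA hB ω hω
  exact ⟨(eA.trans ((MulAut.conj w).subgroupMap A)).trans ((MulEquiv.subgroupCongr hw).trans eB.symm)⟩
end Cfsg.Agent.S5515
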