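import Cfsg.Statements.S5516
import Cfsg.Agent.S5515
import Cfsg.Agent.Lib.O8CAut
import Cfsg.Agent.Lib.O8CP2
import Cfsg.Agent.Lib.OutNorm

set_option autoImplicit false
open Cfsg

namespace Cfsg.Agent.S5516

open Cfsg.Agent.Lib.O8CGam Cfsg.Agent.Lib.O8CBr2 Cfsg.Agent.Lib.O8CAut Cfsg.Agent.Lib.O8CP2 Cfsg.Agent.Lib.O8CW
open Cfsg.Agent.Lib.PcClass36

theorem hOutG : Nat.card (Cfsg.Out GG) = 24 := by
  rw [← Cfsg.Agent.Lib.OutNorm.card_out_congr ePG]
  obtain ⟨e⟩ := Cfsg.Agent.S5515.out_PP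
  have h := Nat.card_congr e.toEquiv
  refine h.trans ?_
  simp [Nat.card_eq_fintype_card, Fintype.card_perm]
  rfl

theorem hZG : Subgroup.center GG = ⊥ := by
  rw [← Cfsg.Agent.Lib.OrthoFinal.map_center_equiv ePG]
  have h : Subgroup.center (Cfsg.POmega (ZMod 3) (Cfsg.quadFormPlus 4 (ZMod 3))) = ⊥ := Cfsg.Agent.S5515.center_PP
  rw [h, Subgroup.map_bot]

/-- PΩ⁺(8, 3) (the commutator subgroup of the isometry group of the hyperbolic quadratic form in dimension 8 over the field with three elements, modulo its centre) has exactly 13 conjugacy classes of subgroups of order 3; and a finite group G whose generalized Fitting subgroup L is isomorphic to PΩ⁺(8, 3) with G/L the symmetric group of degree 3 has exactly 7 orbits, under conjugation, on the subgroups of L of order 3. -/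
theorem result {G : Type*} [Group G] [Finite G] (L : Subgroup G) (hL : L = Cfsg.generalizedFittingSubgroup G) (hF : Nonempty (↥L ≃* Cfsg.POmega (ZMod 3) (Cfsg.quadFormPlus 4 (ZMod 3)))) [hn : L.Normal] (hq : Nonempty (G ⧸ L ≃* Equiv.Perm (Fin 3))) : (∃ Y : Fin 13 → Subgroup (Cfsg.POmega (ZMod 3) (Cfsg.quadFormPlus 4 (ZMod 3))), (∀ i, Nat.card (Y i) = 3) ∧ (∀ i j, (∃ g : Cfsg.POmega (ZMod 3) (Cfsg.quadFormPlus 4 (ZMod 3)), (Y i).map (MulAut.conj g).toMonoidHom = Y j) → i = j) ∧ (∀ X : Subgroup (Cfsg.POmega (ZMod 3) (Cfsg.quadFormPlus 4 (ZMod 3))), Nat.card X = 3 → ∃ i, ∃ g : Cfsg.POmega (ZMod 3) (Cfsg.quadFormPlus 4 (ZMod 3)), X.map (MulAut.conj g).toMonoidHom = Y i)) ∧ ∃ Y : Fin 7 → Subgroup G, (∀ i, Y i ≤ L ∧ Nat.card (Y i) = 3) ∧ (∀ i j, (∃ g : G, (Y i).map (MulAut.conj g).toMonoidHom = Y j) → i = j) ∧ ∀ X : Subgroup G, X ≤ L → Nat.card X = 3 → ∃ i, ∃ g : G, X.map (MulAut.conj g).toMonoidHom = Y i := by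
  obtain ⟨eL⟩ := hF
  refine ⟨?_, ?_⟩
  · exact ClassesOf.transport ePG.symm classes_GG
  · exact part2_abs hy3 hy1 hcov FF_conj FF_inv FF_inj hZG hOutG class_A class_T W_inj W_mem orbits L hL (eL.trans ePG) hq

end Cfsg.Agent.S5516
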