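import Cfsg.Statements.S5519
import Cfsg.Agent.Lib.Fi22J2.E0
import Cfsg.Agent.Lib.TypeM22.Iso
import Cfsg.Agent.Lib.BalanceB

set_option autoImplicit false
open Cfsg

namespace Cfsg.Agent.S5519

/-- Let G be a finite group with trivial centre generated by a conjugation-invariant set D of 3-transpositions on which it acts primitively, such that for some d in D the subgroup generated by the members of D other than d commuting with d has central largest normal 2- and 3-subgroups, and suppose G with D is of type M(22). Let d₁, d₂ be distinct commuting members of D and C the centralizer of their product. Then the generalized Fitting subgroup of C is the direct product of a group of order 2 and an extraspecial 2-group of order 2^9, and C modulo it is isomorphic to the full isometry group of the elliptic quadratic form in dimension 6 over the field with two elements. -/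
theorem result {G : Type*} [Group G] [Finite G] {D : Set G} (hD : Cfsg.IsThreeTranspositionGroup D) (hprim : Cfsg.IsPrimitiveUnderConj D) (d₀ : G) (hd₀ : d₀ ∈ D) (h3 : Cfsg.pCore 3 ↥(Subgroup.closure {y : G | y ∈ D ∧ y ≠ d₀ ∧ Commute d₀ y}) ≤ Subgroup.center ↥(Subgroup.closure {y : G | y ∈ D ∧ y ≠ d₀ ∧ Commute d₀ y})) (h2 : Cfsg.pCore 2 ↥(Subgroup.closure {y : G | y ∈ D ∧ y ≠ d₀ ∧ Commute d₀ y}) ≤ Subgroup.center ↥(Subgroup.closure {y : G | y ∈ D ∧ y ≠ d₀ ∧ Commute d₀ y})) (h22 : Cfsg.IsOfTypeM22 G D) (d₁ d₂ : G) (h₁ : d₁ ∈ D) (h₂ : d₂ ∈ D) (hne : d₁ ≠ d₂) (hc : Commute d₁ d₂) (C : Subgroup G) (hC : C = Subgroup.centralizer ({d₁ * d₂} : Set G)) [hn : (Cfsg.generalizedFittingSubgroup ↥C).Normal] : (∃ (E : Type) (_ : Group E) (_ : Finite E), Cfsg.IsExtraspecial 2 E ∧ Nat.card E = 2 ^ 9 ∧ Nonempty (↥(Cfsg.generalizedFittingSubgroup ↥C) ≃* Multiplicative (ZMod 2) × E)) ∧ Nonempty (↥C ⧸ Cfsg.generalizedFittingSubgroup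 ↥C ≃* Cfsg.isometryGroup (ZMod 2) (Cfsg.quadFormMinus 2 (ZMod 2) 1 1)) := by
  classical
  obtain ⟨e0, he0⟩ := Cfsg.Agent.Lib.TypeM22.iso_of_type hD hprim h22
  have hE : e0 '' Cfsg.Agent.Lib.Fi22K.D0 = D := Cfsg.Agent.Lib.Fi22J2.image_D0 hD hprim he0
  obtain ⟨e, _, h2', h3'⟩ := Cfsg.Agent.Lib.Fi22K.exists_equiv2 hE h₁ h₂ hne hc
  subst hC
  have hj : e Cfsg.Agent.Lib.Fi22J2.jj = d₁ * d₂ := by
    rw [Cfsg.Agent.Lib.Fi22J2.jj, map_mul, h2', h3']
  let φ : ↥Cfsg.Agent.Lib.Fi22J2.XX ≃* ↥(Subgroup.centralizer ({d₁ * d₂} : Set G)) :=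
    (Cfsg.Agent.Lib.BalanceB.centralizerEquiv e Cfsg.Agent.Lib.Fi22J2.jj).trans (MulEquiv.subgroupCongr (by rw [hj]))
  obtain ⟨⟨E, i1, i2, hx, hc2, ⟨i⟩⟩, hq⟩ := Cfsg.Agent.Lib.Fi22J2.main_J2
  haveI hnX : (Cfsg.generalizedFittingSubgroup ↥Cfsg.Agent.Lib.Fi22J2.XX).Normal :=
    Cfsg.Agent.Lib.Fi22J2.fstar_XX ▸ inferInstance
  obtain ⟨q⟩ := hq hnX
  refine ⟨⟨E, i1, i2, hx, hc2, ⟨(Cfsg.Agent.Lib.BalanceB.genFitEquiv φ.symm).trans i⟩⟩, ⟨?_⟩⟩
  exact (QuotientGroup.congr _ _ φ.symm (Cfsg.Agent.Lib.BalanceB.map_genFit_equiv φ.symm)).trans q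

end Cfsg.Agent.S5519
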