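import Cfsg.Statements.S5520
import Cfsg.Agent.Lib.S5520A
import Cfsg.Agent.Lib.SUTransfer

set_option autoImplicit false
open Cfsg

namespace Cfsg.Agent.S5520

open Subgroup

theorem center_map_eq {A B : Type*} [Group A] [Group B] (E : A ≃* B) :
    (center A).map E.toMonoidHom = center B := by
  ext y
  constructor
  · rintro ⟨a, ha, rfl⟩
    rw [Subgroup.mem_center_iff]
    intro g
    obtain ⟨g', rfl⟩ := E.surjective g
    show E g' * E a = E a * E g'
    rw [← map_mul, ← map_mul, Subgroup.mem_center_iff.1 ha g']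
  · intro hy
    refine ⟨E.symm y, ?_, E.apply_symm_apply y⟩
    rw [SetLike.mem_coe, Subgroup.mem_center_iff]
    intro g
    apply E.injective
    rw [map_mul, map_mul, E.apply_symm_apply]
    exact Subgroup.mem_center_iff.1 hy _

theorem psu_congr {F K : Type*} [Field F] [Field K] (φ : F ≃+* K) (n q : ℕ) : Nonempty (PSU n F q ≃* PSU n K q) := by
  let e : SU n F q ≃* SU n K q := Cfsg.Agent.Lib.SUTransfer.suEquiv φ
  exact ⟨QuotientGroup.congr _ _ e (center_map_eq e)⟩

/-- The statement for abstract groups. -/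
def P (G S : Type) [Group G] [Group S] : Prop :=
  ∃ K₁ K₂ K₃ : Subgroup G, (∀ K ∈ [K₁, K₂, K₃], Nat.card (center K) = 3 ∧ Nonempty (K ⧸ center K ≃* S)) ∧
    (¬ ∃ g : G, K₁.map (MulAut.conj g).toMonoidHom = K₂) ∧ (¬ ∃ g : G, K₁.map (MulAut.conj g).toMonoidHom = K₃) ∧
    (¬ ∃ g : G, K₂.map (MulAut.conj g).toMonoidHom = K₃) ∧
    ∀ K : Subgroup G, Nat.card (center K) = 3 → Nonempty (K ⧸ center K ≃* S) →
      ∃ g : G, K.map (MulAut.conj g).toMonoidHom = K₁ ∨ K.map (MulAut.conj g).toMonoidHom = K₂ ∨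
        K.map (MulAut.conj g).toMonoidHom = K₃

section
variable {G G' S S' : Type} [Group G] [Group G'] [Group S] [Group S']

theorem facts_tr (e : G' ≃* G) (e9 : S ≃* S') (K : Subgroup G)
    (h : Nat.card (center K) = 3 ∧ Nonempty (K ⧸ center K ≃* S)) :
    Nat.card (center (K.map e.symm.toMonoidHom)) = 3 ∧
      Nonempty ((K.map e.symm.toMonoidHom) ⧸ center (K.map e.symm.toMonoidHom) ≃* S') := by
  obtain ⟨h1, ⟨f⟩⟩ := h
  let E : K ≃* K.map e.symm.toMonoidHom := e.symm.subgroupMap K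
  refine ⟨?_, ⟨?_⟩⟩
  · rw [← h1]
    exact (Nat.card_congr (Subgroup.centerCongr E).toEquiv).symm
  · exact (QuotientGroup.congr _ _ E (center_map_eq E)).symm.trans (f.trans e9)

theorem conj_tr (e : G' ≃* G) (K : Subgroup G) (g' : G') :
    (K.map e.symm.toMonoidHom).map (MulAut.conj g').toMonoidHom =
      (K.map (MulAut.conj (e g')).toMonoidHom).map e.symm.toMonoidHom := by
  rw [Subgroup.map_map, Subgroup.map_map]
  congr 1
  ext k
  show g' * e.symm k * g'⁻¹ = e.symm (e g' * k * (e g')⁻¹)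
  rw [map_mul, map_mul, map_inv, e.symm_apply_apply]

theorem not_conj_tr (e : G' ≃* G) {K L : Subgroup G} (h : ¬ ∃ g : G, K.map (MulAut.conj g).toMonoidHom = L) :
    ¬ ∃ g : G', (K.map e.symm.toMonoidHom).map (MulAut.conj g).toMonoidHom = L.map e.symm.toMonoidHom := by
  rintro ⟨g', hg⟩
  rw [conj_tr] at hg
  exact h ⟨e g', Subgroup.map_injective e.symm.injective hg⟩

theorem transfer (e : G' ≃* G) (e9 : S ≃* S') (h : P G S) : P G' S' := by
  obtain ⟨K₁, K₂, K₃, h1, h2, h3, h4, h5⟩ := h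
  refine ⟨K₁.map e.symm.toMonoidHom, K₂.map e.symm.toMonoidHom, K₃.map e.symm.toMonoidHom, ?_, not_conj_tr e h2,
    not_conj_tr e h3, not_conj_tr e h4, ?_⟩
  · intro K hK
    simp only [List.mem_cons, List.not_mem_nil, or_false] at hK
    rcases hK with rfl | rfl | rfl
    · exact facts_tr e e9 _ (h1 K₁ (by simp))
    · exact facts_tr e e9 _ (h1 K₂ (by simp))
    · exact facts_tr e e9 _ (h1 K₃ (by simp))
  · intro K' hc hq
    have hK' : (K'.map e.toMonoidHom).map e.symm.toMonoidHom = K' := by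
      rw [Subgroup.map_map]
      have : e.symm.toMonoidHom.comp e.toMonoidHom = MonoidHom.id G' := by
        ext x
        exact e.symm_apply_apply x
      rw [this, Subgroup.map_id]
    have hf := facts_tr e.symm e9.symm K' ⟨hc, hq⟩
    obtain ⟨g, hg⟩ := h5 (K'.map e.symm.symm.toMonoidHom) hf.1 hf.2
    have hKe : K'.map e.symm.symm.toMonoidHom = K'.map e.toMonoidHom := rfl
    rw [hKe] at hg
    refine ⟨e.symm g, ?_⟩
    have key : K'.map (MulAut.conj (e.symm g)).toMonoidHom =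
        ((K'.map e.toMonoidHom).map (MulAut.conj g).toMonoidHom).map e.symm.toMonoidHom := by
      have h6 := conj_tr e (K'.map e.toMonoidHom) (e.symm g)
      rw [hK', e.apply_symm_apply] at h6
      exact h6
    rw [key]
    rcases hg with hg | hg | hg
    · exact Or.inl (by rw [hg])
    · exact Or.inr (Or.inl (by rw [hg]))
    · exact Or.inr (Or.inr (by rw [hg]))

end

/-- In the special unitary group of dimension 6 over the field with four elements (determinant-one matrices preserving the standard Hermitian form), the subgroups K whose centre has order 3 with K modulo its centre isomorphic to the projective special unitary group of dimension 4 over the field with nine elements fall into exactly three conjugacy classes. -/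
theorem result (F : Type) [Field F] [Fintype F] (hF : Fintype.card F = 4) (F9 : Type) [Field F9] [Fintype F9] (hF9 : Fintype.card F9 = 9) : ∃ K₁ K₂ K₃ : Subgroup ↥(Cfsg.SU 6 F 2), (∀ K ∈ [K₁, K₂, K₃], Nat.card ↥(Subgroup.center ↥K) = 3 ∧ Nonempty (↥K ⧸ Subgroup.center ↥K ≃* Cfsg.PSU 4 F9 3)) ∧ (¬ ∃ g : ↥(Cfsg.SU 6 F 2), K₁.map (MulAut.conj g).toMonoidHom = K₂) ∧ (¬ ∃ g : ↥(Cfsg.SU 6 F 2), K₁.map (MulAut.conj g).toMonoidHom = K₃) ∧ (¬ ∃ g : ↥(Cfsg.SU 6 F 2), K₂.map (MulAut.conj g).toMonoidHom = K₃) ∧ ∀ K : Subgroup ↥(Cfsg.SU 6 F 2), Nat.card ↥(Subgroup.center ↥K) = 3 → Nonempty (↥K ⧸ Subgroup.center ↥K ≃* Cfsg.PSU 4 F9 3) → ∃ g : ↥(Cfsg.SU 6 F 2), K.map (MulAut.conj g).toMonoidHom = K₁ ∨ K.map (MulAut.conj g).toMonoidHom = K₂ ∨ K.map (MulAut.conj g).toMonoidHom = K₃ := by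
  have hc4 : Fintype.card F = Fintype.card Cfsg.Agent.Lib.F4K.K4 := by
    rw [hF, Cfsg.Agent.Lib.F4K.K4.card_K4]
  have hc9 : Fintype.card Cfsg.Agent.Lib.F9K.K9 = Fintype.card F9 := by
    rw [hF9, Cfsg.Agent.Lib.F9K.K9.card_K9]
  let e4 : SU 6 F 2 ≃* SU 6 Cfsg.Agent.Lib.F4K.K4 2 :=
    Cfsg.Agent.Lib.SUTransfer.suEquiv (FiniteField.ringEquivOfCardEq hc4)
  obtain ⟨e9⟩ := psu_congr (FiniteField.ringEquivOfCardEq hc9) 4 3
  have h : P (SU 6 Cfsg.Agent.Lib.F4K.K4 2) (PSU 4 Cfsg.Agent.Lib.F9K.K9 3) := Cfsg.Agent.Lib.S5520A.main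
  exact transfer e4 e9 h

end Cfsg.Agent.S5520
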