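import Mathlib
import Cfsg.Statements.S5541

set_option autoImplicit false
open Cfsg

namespace Cfsg.Agent.S5541

theorem result {H : Type*} [Group H] {U : Type*} [AddCommGroup U] [Module ℝ U] [FiniteDimensional ℝ U] (ρ : Representation ℝ H U) (hirr : ∀ W : Submodule ℝ U, (∀ g : H, W.map (ρ g) ≤ W) → W = ⊥ ∨ W = ⊤) (B : LinearMap.BilinForm ℝ U) (hB0 : B ≠ 0) (hBs : ∀ u v, B u v = B v u) (hBi : ∀ (g : H) (u v : U), B (ρ g u) (ρ g v) = B u v) : (∃ m : U →ₗ[ℝ] U →ₗ[ℝ] U, m ≠ 0 ∧ (∀ u v, m u v = m v u) ∧ (∀ (g : H) (u v : U), m (ρ g u) (ρ g v) = ρ g (m u v)) ∧ ∀ m' : U →ₗ[ℝ] U →ₗ[ℝ] U, (∀ (g : H) (u v : U), m' (ρ g u) (ρ g v) = ρ g (m' u v)) → ∃ c : ℝ, m' = c • m) ↔ (∃ t : U →ₗ[ℝ] U →ₗ[ℝ] U →ₗ[ℝ] ℝ, t ≠ 0 ∧ (∀ u v w, t u v w = t v u w ∧ t u v w = t u w v) ∧ (∀ (g : H) (u v w : U), t (ρ g u) (ρ g v) (ρ g w) = t u v w) ∧ ∀ t' : U →ₗ[ℝ] U →ₗ[ℝ] U →ₗ[ℝ] ℝ, (∀ (g : H) (u v w : U), t' (ρ g u) (ρ g v) (ρ g w) = t' u v w) → ∃ c : ℝ, t' = c • t) := by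
  -- the action by inverses
  have hρinv : ∀ (g : H) (w : U), ρ g (ρ g⁻¹ w) = w := by
    intro g w
    rw [← Module.End.mul_apply, ← map_mul, mul_inv_cancel, map_one, Module.End.one_apply]
  have hρinv' : ∀ (g : H) (w : U), ρ g⁻¹ (ρ g w) = w := by
    intro g w
    rw [← Module.End.mul_apply, ← map_mul, inv_mul_cancel, map_one, Module.End.one_apply]
  -- nondegeneracy
  have hker : LinearMap.ker B = ⊥ := by
    refine (hirr (LinearMap.ker B) ?_).resolve_right ?_
    · rintro g x ⟨y, hy, rfl⟩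
      have hy' : B y = 0 := hy
      show B (ρ g y) = 0
      ext w
      have := hBi g y (ρ g⁻¹ w)
      rw [hρinv] at this
      rw [LinearMap.zero_apply, this, hy', LinearMap.zero_apply]
    · intro h
      apply hB0
      rw [LinearMap.ker_eq_top] at h
      exact h
  have hinj : Function.Injective B := LinearMap.ker_eq_bot.mp hker
  have hBinj : ∀ x y : U, (∀ w, B x w = B y w) → x = y := by
    intro x y h
    apply hinj
    ext w
    exact h w
  let Bd : U ≃ₗ[ℝ] Module.Dual ℝ U :=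
    LinearMap.linearEquivOfInjective B hinj (Subspace.dual_finrank_eq).symm
  have hBd : ∀ x w, Bd x w = B x w := fun _ _ => rfl
  have hBdsymm : ∀ (f : Module.Dual ℝ U) w, B (Bd.symm f) w = f w := by
    intro f w
    rw [← hBd, LinearEquiv.apply_symm_apply]
  -- conversions
  let toM : (U →ₗ[ℝ] U →ₗ[ℝ] U →ₗ[ℝ] ℝ) → (U →ₗ[ℝ] U →ₗ[ℝ] U) :=
    fun t => t.compr₂ (Bd.symm : Module.Dual ℝ U →ₗ[ℝ] U)
  let toT : (U →ₗ[ℝ] U →ₗ[ℝ] U) → (U →ₗ[ℝ] U →ₗ[ℝ] U →ₗ[ℝ] ℝ) := fun m => m.compr₂ B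
  have hMT : ∀ t u v w, B (toM t u v) w = t u v w := by
    intro t u v w
    exact hBdsymm (t u v) w
  have hTM : ∀ m u v w, toT m u v w = B (m u v) w := fun _ _ _ _ => rfl
  have hTMT : ∀ t, toT (toM t) = t := by
    intro t
    ext u v w
    rw [hTM, hMT]
  have hMTM : ∀ m, toM (toT m) = m := by
    intro m
    ext u v
    apply hBinj
    intro w
    rw [hMT, hTM]
  have hinvT : ∀ m : U →ₗ[ℝ] U →ₗ[ℝ] U, (∀ (g : H) (u v : U), m (ρ g u) (ρ g v) = ρ g (m u v)) →
      ∀ (g : H) (u v w : U), toT m (ρ g u) (ρ g v) (ρ g w) = toT m u v w := by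
    intro m hm g u v w
    rw [hTM, hTM, hm, hBi]
  have hinvM : ∀ t : U →ₗ[ℝ] U →ₗ[ℝ] U →ₗ[ℝ] ℝ, (∀ (g : H) (u v w : U), t (ρ g u) (ρ g v) (ρ g w) = t u v w) →
      ∀ (g : H) (u v : U), toM t (ρ g u) (ρ g v) = ρ g (toM t u v) := by
    intro t ht g u v
    apply hBinj
    intro w
    rw [hMT]
    have e1 := ht g u v (ρ g⁻¹ w)
    rw [hρinv] at e1
    rw [e1, ← hMT, ← hBi g, hρinv]
  constructor
  · rintro ⟨m, hm0, hmc, hme, hmu⟩
    have hunique : ∀ t' : U →ₗ[ℝ] U →ₗ[ℝ] U →ₗ[ℝ] ℝ,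
        (∀ (g : H) (u v w : U), t' (ρ g u) (ρ g v) (ρ g w) = t' u v w) → ∃ c : ℝ, t' = c • toT m := by
      intro t' ht'
      obtain ⟨c, hc⟩ := hmu (toM t') (hinvM t' ht')
      refine ⟨c, ?_⟩
      ext u v w
      have := hMT t' u v w
      rw [hc] at this
      rw [← this]
      simp [hTM]
    have ht0 : toT m ≠ 0 := by
      intro h
      apply hm0
      rw [← hMTM m, h]
      ext u v
      apply hBinj
      intro w
      rw [hMT]
      simp
    refine ⟨toT m, ht0, ?_, hinvT m hme, hunique⟩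
    -- the swapped form
    let s : U →ₗ[ℝ] U →ₗ[ℝ] U →ₗ[ℝ] ℝ :=
      LinearMap.mk₂ ℝ (fun u v => (toT m u).flip v)
        (fun _ _ _ => by ext; simp) (fun _ _ _ => by ext; simp)
        (fun _ _ _ => by ext; simp) (fun _ _ _ => by ext; simp)
    have hs : ∀ u v w, s u v w = toT m u w v := fun _ _ _ => rfl
    obtain ⟨c, hc⟩ := hunique s (by
      intro g u v w
      rw [hs, hs, hinvT m hme])
    have hcs : ∀ u v w, toT m u w v = c * toT m u v w := by
      intro u v w
      rw [← hs, hc]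
      simp
    have hsym12 : ∀ u v w, toT m u v w = toT m v u w := by
      intro u v w
      rw [hTM, hTM, hmc]
    have hc1 : c = 1 := by
      -- find a nonzero value
      have : ∃ u v w, toT m u v w ≠ 0 := by
        by_contra hh
        push Not at hh
        apply ht0
        ext u v w
        simpa using hh u v w
      obtain ⟨u, v, w, hX⟩ := this
      have e1 : toT m u v w = c ^ 2 * toT m u v w := by
        calc toT m u v w = c * toT m u w v := hcs u w v
          _ = c * (c * toT m u v w) := by rw [hcs u v w]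
          _ = c ^ 2 * toT m u v w := by ring
      have e2 : c * toT m u v w = c ^ 2 * toT m u v w := by
        calc c * toT m u v w = toT m u w v := (hcs u v w).symm
          _ = toT m w u v := hsym12 _ _ _
          _ = c * toT m w v u := hcs w v u
          _ = c * toT m v w u := by rw [hsym12 w v u]
          _ = c * (c * toT m v u w) := by rw [hcs v u w]
          _ = c ^ 2 * toT m u v w := by rw [hsym12 v u w]; ring
      have e3 : (c ^ 2 - 1) * toT m u v w = 0 := by linarith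
      have e4 : (c ^ 2 - c) * toT m u v w = 0 := by linarith
      have e5 : c ^ 2 - 1 = 0 := (mul_eq_zero.mp e3).resolve_right hX
      have e6 : c ^ 2 - c = 0 := (mul_eq_zero.mp e4).resolve_right hX
      linarith
    intro u v w
    refine ⟨hsym12 u v w, ?_⟩
    have := hcs u v w
    rw [hc1, one_mul] at this
    exact this.symm
  · rintro ⟨t, ht0, hts, hti, htu⟩
    refine ⟨toM t, ?_, ?_, hinvM t hti, ?_⟩
    · intro h
      apply ht0
      rw [← hTMT t, h]
      ext u v w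
      simp [hTM]
    · intro u v
      apply hBinj
      intro w
      rw [hMT, hMT]
      exact (hts u v w).1
    · intro m' hm'
      obtain ⟨c, hc⟩ := htu (toT m') (hinvT m' hm')
      refine ⟨c, ?_⟩
      ext u v
      apply hBinj
      intro w
      have := congrArg (fun f => f u v w) hc
      simp only [hTM, LinearMap.smul_apply, smul_eq_mul] at this
      rw [this]
      simp [hMT]

end Cfsg.Agent.S5541
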