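import Mathlib
import Cfsg.Statements.S5543
import Cfsg.Agent.Lib.Majorana

set_option autoImplicit false
open Cfsg
open Cfsg.Agent.Lib.Majorana

namespace Cfsg.Agent.S5543

theorem result {V : Type*} [AddCommGroup V] [Module ℝ V] [FiniteDimensional ℝ V] (mul : V →ₗ[ℝ] V →ₗ[ℝ] V) (B : LinearMap.BilinForm ℝ V) (hV : Cfsg.Axial.IsMajoranaAmbient mul B) (X : Subgroup (V ≃ₗ[ℝ] V)) (hX : ∀ x ∈ X, x * x = 1) (ax : (V ≃ₗ[ℝ] V) → V) (hax : ∀ x ∈ X, x ≠ 1 → Cfsg.Axial.IsMajoranaPair mul B x (ax x)) (h1 : ∀ x ∈ X, x ≠ 1 → B (ax x) (ax x) = 1) (h2A : ∀ x ∈ X, ∀ y ∈ X, x ≠ 1 → y ≠ 1 → x ≠ y → mul (ax x) (ax y) = (1 / 8 : ℝ) • (ax x + ax y - ax (x * y))) : Nat.card ↥X ≤ 4 := by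
  classical
  by_contra hcard
  push Not at hcard
  have hinv : ∀ x ∈ X, x⁻¹ = x := fun x hx => inv_eq_of_mul_eq_one_left (hX x hx)
  have hcomm : ∀ x ∈ X, ∀ y ∈ X, x * y = y * x := by
    intro x hx y hy
    have h := inv_eq_of_mul_eq_one_left (hX _ (X.mul_mem hx hy))
    rw [mul_inv_rev, hinv x hx, hinv y hy] at h
    exact h.symm
  have hext : ∀ s : Finset (V ≃ₗ[ℝ] V), s.card ≤ 4 → ∃ z ∈ X, z ∉ s := by
    intro s hs
    by_contra h
    push Not at h
    have hsub : (X : Set (V ≃ₗ[ℝ] V)) ⊆ ↑s := h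
    have h2 := Set.ncard_le_ncard hsub s.finite_toSet
    rw [Set.ncard_coe_finset] at h2
    have h3 : Nat.card X = (X : Set (V ≃ₗ[ℝ] V)).ncard := rfl
    omega
  have hmm : ∀ g ∈ X, g * g = 1 := hX
  -- cancellation facts
  have hmul1 : ∀ g ∈ X, ∀ h ∈ X, g ≠ h → g * h ≠ 1 := by
    intro g hg h hh hne h3
    apply hne
    have : g = h⁻¹ := eq_inv_of_mul_eq_one_left h3
    rw [this, hinv h hh]
  have hself : ∀ g ∈ X, ∀ h ∈ X, g * (g * h) = h := by
    intro g hg h _
    rw [← mul_assoc, hX g hg, one_mul]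
  have hneL : ∀ g h : (V ≃ₗ[ℝ] V), h ≠ 1 → g ≠ g * h := by
    intro g h hne h3
    apply hne
    have : g * 1 = g * h := by rw [mul_one]; exact h3
    exact (mul_left_cancel this).symm
  -- inner products
  have hB : ∀ g ∈ X, ∀ h ∈ X, g ≠ 1 → h ≠ 1 → g ≠ h → B (ax g) (ax h) = 1 / 8 := by
    intro g hg h hh hg1 hh1 hne
    have hid := (axis_of_pair (hax g hg hg1)).idem
    have hgh : g * h ≠ 1 := hmul1 g hg h hh hne
    have hgmem : g * h ∈ X := X.mul_mem hg hh
    have hassoc := hV.2.2.2.1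
    have E1 : B (ax g) (ax h) = (1 / 8 : ℝ) * (1 + B (ax g) (ax h) - B (ax g) (ax (g * h))) := by
      have := hassoc (ax g) (ax g) (ax h)
      rw [hid, h2A g hg h hh hg1 hh1 hne] at this
      simp only [map_smul, map_add, map_sub, smul_eq_mul, h1 g hg hg1] at this
      linarith
    have E2 : B (ax g) (ax (g * h)) = (1 / 8 : ℝ) * (1 + B (ax g) (ax (g * h)) - B (ax g) (ax h)) := by
      have := hassoc (ax g) (ax g) (ax (g * h))
      rw [hid, h2A g hg (g * h) hgmem hg1 hgh (hneL g h hh1), hself g hg h hh] at this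
      simp only [map_smul, map_add, map_sub, smul_eq_mul, h1 g hg hg1] at this
      linarith
    linarith
  -- pick three independent elements
  obtain ⟨x, hx, hx'⟩ := hext {1} (by simp)
  obtain ⟨y, hy, hy'⟩ := hext {1, x} (by
    exact (Finset.card_le_two).trans (by norm_num))
  obtain ⟨z, hz, hz'⟩ := hext {1, x, y, x * y} (Finset.card_le_four)
  simp only [Finset.mem_singleton, Finset.mem_insert, not_or] at hx' hy' hz'
  obtain ⟨hx1⟩ := And.intro hx' trivial
  obtain ⟨hy1, hyx⟩ := hy'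
  obtain ⟨hz1, hzx, hzy, hzxy⟩ := hz'
  have hxne : x ≠ y := fun h => hyx h.symm
  have hxy1 : x * y ≠ 1 := hmul1 x hx y hy hxne
  have hxymem : x * y ∈ X := X.mul_mem hx hy
  have hxz1 : x * z ≠ 1 := hmul1 x hx z hz (fun h => hzx h.symm)
  have hxzmem : x * z ∈ X := X.mul_mem hx hz
  have hyzmem : y * z ∈ X := X.mul_mem hy hz
  have hyz1 : y * z ≠ 1 := hmul1 y hy z hz (fun h => hzy h.symm)
  have hxyzmem : x * (y * z) ∈ X := X.mul_mem hx hyzmem
  have hxyz1 : x * (y * z) ≠ 1 := by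
    apply hmul1 x hx _ hyzmem
    intro h
    apply hzxy
    calc z = y * (y * z) := (hself y hy z hz).symm
      _ = y * x := by rw [← h]
      _ = x * y := (hcomm x hx y hy).symm
  have hyzne : y * z ≠ x * (y * z) := by
    intro h
    apply hx1
    have h' : 1 * (y * z) = x * (y * z) := by rw [one_mul]; exact h
    exact (mul_right_cancel h').symm
  -- the 1/4-eigenvectors
  have hax' := axis_of_pair (hax x hx hx1)
  have hq : ∀ g ∈ X, g ≠ 1 → g ≠ x → ax g - ax (x * g) ∈ Cfsg.Axial.eigen mul (ax x) (1 / 4) := by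
    intro g hg hg1 hgx
    rw [mem_eigen, map_sub, h2A x hx g hg hx1 hg1 (fun h => hgx h.symm),
      h2A x hx (x * g) (X.mul_mem hx hg) hx1 (hmul1 x hx g hg (fun h => hgx h.symm)) (hneL x g hg1),
      hself x hx g hg]
    module
  have hv1 := hq y hy hy1 (fun h => hyx h)
  have hv2 := hq z hz hz1 hzx
  have hw := hq (y * z) hyzmem hyz1 (by
    intro h
    apply hzxy
    calc z = y * (y * z) := (hself y hy z hz).symm
      _ = y * x := by rw [h]
      _ = x * y := (hcomm x hx y hy).symm)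
  have hprod : mul (ax y - ax (x * y)) (ax z - ax (x * z))
      = (-(1 / 4) : ℝ) • (ax (y * z) - ax (x * (y * z))) := by
    have e1 := h2A y hy z hz hy1 hz1 (fun h => hzy h.symm)
    have e2 := h2A y hy (x * z) hxzmem hy1 hxz1 (by
      intro h
      apply hzxy
      calc z = x * (x * z) := (hself x hx z hz).symm
        _ = x * y := by rw [h])
    have e3 := h2A (x * y) hxymem z hz hxy1 hz1 (fun h => hzxy h.symm)
    have e4 := h2A (x * y) hxymem (x * z) hxzmem hxy1 hxz1 (by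
      intro h
      have h' := mul_left_cancel h
      exact hzy h'.symm)
    have g2 : y * (x * z) = x * (y * z) := by
      rw [← mul_assoc, ← mul_assoc, hcomm y hy x hx]
    have g3 : x * y * z = x * (y * z) := mul_assoc _ _ _
    have g4 : x * y * (x * z) = y * z := by
      calc x * y * (x * z) = x * (y * x) * z := by group
        _ = x * (x * y) * z := by rw [hcomm y hy x hx]
        _ = (x * x) * y * z := by group
        _ = y * z := by rw [hX x hx, one_mul]
    rw [g2] at e2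
    rw [g3] at e3
    rw [g4] at e4
    simp only [map_sub, LinearMap.sub_apply, e1, e2, e3, e4]
    module
  have hmem := hax'.qq _ hv1 _ hv2
  rw [hprod] at hmem
  have hmem' : ax (y * z) - ax (x * (y * z)) ∈ Cfsg.Axial.eigen mul (ax x) 1 ⊔ Cfsg.Axial.eigen mul (ax x) 0 := by
    have := Submodule.smul_mem _ (-4 : ℝ) hmem
    rw [smul_smul] at this
    norm_num at this
    exact this
  have hzero := quarter_of_sup hw hmem'
  have heq : ax (y * z) = ax (x * (y * z)) := sub_eq_zero.mp hzero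
  have h8 := hB (y * z) hyzmem (x * (y * z)) hxyzmem hyz1 hxyz1 hyzne
  rw [← heq, h1 _ hyzmem hyz1] at h8
  norm_num at h8

end Cfsg.Agent.S5543
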