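import Mathlib
import Cfsg.Statements.S5545
import Cfsg.Agent.Lib.Majorana

set_option autoImplicit false
open Cfsg
open Cfsg.Agent.Lib.Majorana

namespace Cfsg.Agent.S5545

theorem result {V : Type*} [AddCommGroup V] [Module ℝ V] [FiniteDimensional ℝ V] (mul : V →ₗ[ℝ] V →ₗ[ℝ] V) (B : LinearMap.BilinForm ℝ V) (hV : Cfsg.Axial.IsMajoranaAmbient mul B) (μ₀ μ₁ : V ≃ₗ[ℝ] V) (a₀ a₁ : V) (h₀ : Cfsg.Axial.IsMajoranaPair mul B μ₀ a₀) (h₁ : Cfsg.Axial.IsMajoranaPair mul B μ₁ a₁) (hu₀ : ∀ a : V, Cfsg.Axial.IsMajoranaPair mul B μ₀ a → a = a₀) (hu₁ : ∀ a : V, Cfsg.Axial.IsMajoranaPair mul B μ₁ a → a = a₁) (hn₀ : B a₀ a₀ = 1) (hn₁ : B a₁ a₁ = 1) (hc : μ₀ * μ₁ = μ₁ * μ₀) (hne : a₀ ≠ a₁) : (B a₀ a₁ = 0 ∧ mul a₀ a₁ = 0) ∨ (B a₀ a₁ = 1 / 8 ∧ mul (a₀ + a₁ - (8 : ℝ) • mul a₀ a₁) (a₀ + a₁ - (8 : ℝ) • mul a₀ a₁) = a₀ + a₁ - (8 : ℝ) • mul a₀ a₁ ∧ mul a₀ (a₀ + a₁ - (8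 : ℝ) • mul a₀ a₁) = (1 / 8 : ℝ) • (a₀ + (a₀ + a₁ - (8 : ℝ) • mul a₀ a₁) - a₁) ∧ mul a₁ (a₀ + a₁ - (8 : ℝ) • mul a₀ a₁) = (1 / 8 : ℝ) • (a₁ + (a₀ + a₁ - (8 : ℝ) • mul a₀ a₁) - a₀)) := by
  obtain ⟨hcomm, hsym, hpos, hassoc, -⟩ := hV
  have hax₀ := axis_of_pair h₀
  have hax₁ := axis_of_pair h₁
  have hfix₁ : μ₀ a₁ = a₁ := by
    apply hu₁
    have := pair_conj (g := μ₀) h₀.1 h₀.2.1 h₁
    have e : μ₀ * μ₁ * μ₀⁻¹ = μ₁ := by rw [hc]; group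
    rwa [e] at this
  have hfix₀ : μ₁ a₀ = a₀ := by
    apply hu₀
    have := pair_conj (g := μ₁) h₁.1 h₁.2.1 h₀
    have e : μ₁ * μ₀ * μ₁⁻¹ = μ₀ := by rw [← hc]; group
    rwa [e] at this
  obtain ⟨c, u, v, hb, hu, hv⟩ := decomp_fixed h₀ hfix₁
  obtain ⟨c', u', v', hb', hu', hv'⟩ := decomp_fixed h₁ hfix₀
  have hcc : B a₀ a₁ = c := B_a_b hcomm hassoc hax₀ hn₀ hb hu hv
  have hcc' : B a₁ a₀ = c' := B_a_b hcomm hassoc hax₁ hn₁ hb' hu' hv'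
  have hcc2 : c = c' := by rw [← hcc', ← hcc]; exact hsym _ _
  subst hcc2
  rcases c_or_v hcomm hax₀ hax₁ hb hu hv hb' hu' hv' with h8 | h0
  · -- type 2A
    right
    subst h8
    obtain ⟨e1, e2⟩ := twoA_side hax₀ hb hu hv
    obtain ⟨-, e3⟩ := twoA_side hax₁ hb' hu' hv'
    have hsw : a₁ + a₀ - (8 : ℝ) • mul a₁ a₀ = a₀ + a₁ - (8 : ℝ) • mul a₀ a₁ := by
      rw [hcomm a₁ a₀, add_comm]
    rw [hsw] at e3
    refine ⟨hcc, ?_, e2, e3⟩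
    rw [e1]
    exact twoA_sq hcomm hax₀ hax₁.idem hb hu hv
  · -- v = 0
    subst h0
    have hexp := expand_sq hcomm hax₀ hb hu (zero_mem_eigen _ _)
    rw [hax₁.idem] at hexp
    have ha1 : ∀ t : ℝ, t • a₀ ∈ Cfsg.Axial.eigen mul a₀ 1 := fun t => by
      rw [hax₀.line]; exact Submodule.smul_mem _ _ (Submodule.mem_span_singleton_self a₀)
    have hcomp := comp_unique (a := a₀) (x1 := c • a₀) (x0 := u) (xq := 0) (xt := 0)
      (y1 := (c ^ 2) • a₀) (y0 := mul u u) (yq := 0) (yt := 0) (ha1 _) hu (zero_mem_eigen _ _)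
      (zero_mem_eigen _ _) (ha1 _) (hax₀.zz u hu u hu) (zero_mem_eigen _ _) (zero_mem_eigen _ _) (by
        have h2 := hexp
        rw [hb] at h2
        simpa using h2)
    have h1 : (c - c ^ 2) • a₀ = 0 := by
      rw [sub_smul, hcomp.1, sub_self]
    have h2 : c - c ^ 2 = 0 := (smul_eq_zero.mp h1).resolve_right hax₀.ne_zero
    have h3 : c = 0 ∨ c = 1 := by
      have : c * (1 - c) = 0 := by ring_nf; ring_nf at h2; linarith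
      rcases mul_eq_zero.mp this with h | h
      · left; exact h
      · right; linarith
    rcases h3 with h3 | h3
    · left
      subst h3
      refine ⟨hcc, ?_⟩
      rw [mul_a_b hax₀ hb hu (zero_mem_eigen _ _)]
      simp
    · exfalso
      subst h3
      apply hne
      by_contra hne'
      have hne'' : a₀ - a₁ ≠ 0 := sub_ne_zero.mpr hne'
      have := hpos _ hne''
      have e : B (a₀ - a₁) (a₀ - a₁) = 0 := by
        simp only [map_sub, LinearMap.sub_apply, hn₀, hn₁, hcc, hsym a₁ a₀]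
        norm_num
      linarith

end Cfsg.Agent.S5545
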