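import Mathlib
import Cfsg.Statements.S5546
import Cfsg.Agent.Lib.Co0Mod

set_option autoImplicit false
open Cfsg

namespace Cfsg.Agent.S5546

open Cfsg.Agent.Lib.Co0Mod Matrix Cfsg.Spor

instance fact13 : Fact (Nat.Prime 13) := ⟨by norm_num⟩

/-- The reduction of the fixed vector. -/
def ubar : GolayPt → ZMod 13 := red vecU

theorem ubar_self : ubar ⬝ᵥ ubar = 6 := by decide +kernel

/-- The functional given by the fixed vector. -/
def phiU : (GolayPt → ZMod 13) →ₗ[ZMod 13] ZMod 13 where
  toFun x := ubar ⬝ᵥ x
  map_add' x y := dotProduct_add ubar x y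
  map_smul' c x := by simp [dotProduct_smul]

/-- The orthogonal hyperplane of the fixed vector. -/
abbrev U : Submodule (ZMod 13) (GolayPt → ZMod 13) := LinearMap.ker phiU

theorem mem_U {x : GolayPt → ZMod 13} : x ∈ U ↔ ubar ⬝ᵥ x = 0 := LinearMap.mem_ker

theorem phiU_surj : Function.Surjective phiU := by
  intro a
  refine ⟨(a * 11) • ubar, ?_⟩
  show ubar ⬝ᵥ ((a * 11) • ubar) = a
  rw [dotProduct_smul, ubar_self, smul_eq_mul, mul_assoc]
  have : (11 : ZMod 13) * 6 = 1 := by decide
  rw [this, mul_one]

theorem finrank_U : Module.finrank (ZMod 13) U = 23 := by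
  have h := LinearMap.finrank_range_add_finrank_ker phiU
  rw [LinearMap.range_eq_top.2 phiU_surj, finrank_top, Module.finrank_self] at h
  have h2 : Module.finrank (ZMod 13) (GolayPt → ZMod 13) = 24 := by
    rw [Module.finrank_fintype_fun_eq_card]
    decide +kernel
  rw [h2] at h
  exact Nat.add_left_cancel (n := 1) h

/-- An identification of the hyperplane with the standard space. -/
noncomputable def eU : U ≃ₗ[ZMod 13] (Fin 23 → ZMod 13) :=
  LinearEquiv.ofFinrankEq _ _ (by rw [finrank_U]; simp)

/-- From the subgroup to the whole group. -/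
def toCo0 : ↥Co2 →* ↥Co0 := Subgroup.inclusion inf_le_left

theorem toCo0_inj : Function.Injective toCo0 := Subgroup.inclusion_injective _

theorem M_fix (g : ↥Co2) : M (toCo0 g) *ᵥ ubar = ubar := by
  have h1 := M_mulVec (toCo0 g) leechU
  have h2 : (g : Equiv.Perm leechLattice) leechU = leechU := g.2.2
  have h3 : img (toCo0 g) leechU = vecU := congrArg Subtype.val h2
  rw [h3] at h1
  exact h1

theorem M_U (g : ↥Co2) : ∀ x ∈ U, (M (toCo0 g)).mulVecLin x ∈ U := by
  intro x hx
  rw [mem_U] at hx ⊢
  rw [Matrix.mulVecLin_apply]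
  have h := M_dot (toCo0 g) ubar x
  rw [M_fix, hx] at h
  exact h

/-- The action on the hyperplane. -/
def psi (g : ↥Co2) : U →ₗ[ZMod 13] U := ((M (toCo0 g)).mulVecLin).restrict (M_U g)

theorem psi_apply (g : ↥Co2) (x : U) : (psi g x : GolayPt → ZMod 13) = M (toCo0 g) *ᵥ (x : GolayPt → ZMod 13) := rfl

/-- The matrix of the action on the hyperplane. -/
noncomputable def A (g : ↥Co2) : Matrix (Fin 23) (Fin 23) (ZMod 13) :=
  LinearMap.toMatrix' (eU.toLinearMap ∘ₗ psi g ∘ₗ eU.symm.toLinearMap)

theorem psi_one : psi 1 = LinearMap.id := by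
  ext x
  rw [psi_apply]
  have : toCo0 1 = 1 := map_one _
  rw [this, M_one, Matrix.one_mulVec]
  rfl

theorem psi_mul (g h : ↥Co2) : psi (g * h) = psi g ∘ₗ psi h := by
  ext x
  rw [psi_apply]
  have : toCo0 (g * h) = toCo0 g * toCo0 h := map_mul _ _ _
  rw [this, M_mul, ← Matrix.mulVec_mulVec]
  rfl

theorem A_one : A 1 = 1 := by
  unfold A
  rw [psi_one]
  have : eU.toLinearMap ∘ₗ LinearMap.id ∘ₗ eU.symm.toLinearMap = LinearMap.id := by
    apply LinearMap.ext
    intro x
    simp
  rw [this, LinearMap.toMatrix'_id]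

theorem A_mul (g h : ↥Co2) : A (g * h) = A g * A h := by
  unfold A
  rw [← LinearMap.toMatrix'_comp, psi_mul]
  refine congrArg LinearMap.toMatrix' ?_
  apply LinearMap.ext
  intro x
  simp only [LinearMap.comp_apply, LinearEquiv.coe_coe, LinearEquiv.symm_apply_apply]

/-- The homomorphism into the matrix ring. -/
noncomputable def Ahom : ↥Co2 →* Matrix (Fin 23) (Fin 23) (ZMod 13) where
  toFun := A
  map_one' := A_one
  map_mul' := A_mul

theorem eq_one_of_A {h : ↥Co2} (hA : A h = 1) : h = 1 := by
  -- the action on the hyperplane is trivial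
  have h1 : eU.toLinearMap ∘ₗ psi h ∘ₗ eU.symm.toLinearMap = LinearMap.id := by
    apply LinearMap.toMatrix'.injective
    rw [LinearMap.toMatrix'_id]
    exact hA
  have h2 : ∀ x : U, psi h x = x := by
    intro x
    have h3 := LinearMap.congr_fun h1 (eU x)
    simp only [LinearMap.comp_apply, LinearEquiv.coe_coe, LinearEquiv.symm_apply_apply, LinearMap.id_apply] at h3
    exact eU.injective h3
  have h3 : ∀ x, M (toCo0 h) *ᵥ x = x := by
    intro x
    set a : ZMod 13 := (ubar ⬝ᵥ x) * 11 with ha
    have hu : x - a • ubar ∈ U := by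
      rw [mem_U, dotProduct_sub, dotProduct_smul, ubar_self, ha, smul_eq_mul, mul_assoc]
      have : (11 : ZMod 13) * 6 = 1 := by decide
      rw [this, mul_one, sub_self]
    have h4 := h2 ⟨_, hu⟩
    have h5 : M (toCo0 h) *ᵥ (x - a • ubar) = x - a • ubar := by
      have := congrArg Subtype.val h4
      rwa [psi_apply] at this
    rw [Matrix.mulVec_sub, Matrix.mulVec_smul, M_fix] at h5
    exact sub_left_injective h5
  have h6 : M (toCo0 h) = 1 := by
    ext i j
    have h7 := congrFun (h3 (fun k => if k = j then 1 else 0)) i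
    rw [Matrix.mulVec, dotProduct] at h7
    simp only [mul_ite, mul_one, mul_zero, Finset.sum_ite_eq', Finset.mem_univ, if_true] at h7
    rw [h7, Matrix.one_apply]
  have h8 : toCo0 h = 1 := eq_one_of_M h6
  have h9 : toCo0 h = toCo0 1 := by rw [h8, map_one]
  exact toCo0_inj h9

/-- The second Conway group (the stabilizer in the Leech lattice automorphism group of the short vector fixed in the definitions) is isomorphic to a subgroup of the general linear group of degree 23 over the field with 13 elements: there is an injective homomorphism into it. -/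
theorem result : ∃ f : ↥Cfsg.Spor.Co2 →* GL (Fin 23) (ZMod 13), Function.Injective f := by
  refine ⟨MonoidHom.toHomUnits Ahom, (injective_iff_map_eq_one _).2 fun h hf => ?_⟩
  apply eq_one_of_A
  have h2 : Ahom h = 1 := by simpa using congrArg Units.val hf
  exact h2

end Cfsg.Agent.S5546
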