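import Mathlib
import Cfsg.Statements.S5547
import Cfsg.Agent.TcChain36.Rep78.Main

set_option autoImplicit false
open Cfsg

namespace Cfsg.Agent.S5547

/-- The Fischer group embeds in GL 78 over the field with 13 elements. -/
theorem result : ∃ f : Cfsg.Spor.Fi22 →* GL (Fin 78) (ZMod 13), Function.Injective f := by
  exact ⟨Cfsg.Agent.TcChain36.Rep78.rho, Cfsg.Agent.TcChain36.Rep78.rho_inj⟩

end Cfsg.Agent.S5547
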