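import Mathlib
import Cfsg.Statements.S5548
import Cfsg.Agent.Lib.GolayMod

set_option autoImplicit false
open Cfsg

namespace Cfsg.Agent.S5548

open Cfsg.Agent.Lib Cfsg.Agent.Lib.Golay Cfsg.Agent.Lib.M24Facts Cfsg.Agent.Lib.GolayMod
open scoped Pointwise

/-- The elements of the chain fixing the first octad pointwise. -/
def S16 : List ℕ := S48L.filter (fun c => Nat.beq (ap c 5) 5)

/-- The points off the first octad. -/
def comp16 : List ℕ := idxL.filter (fun i => !(Nat.testBit 8536111 i))

theorem S16_length : S16.length = 16 := by decide +kernel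

theorem S16_perm : ∀ i ∈ comp16, (S16.map (fun c => ap c i)).Perm comp16 := by decide +kernel

theorem S16_G {c : ℕ} (hc : c ∈ S16) : decode c ∈ G [5,3,2,1,0,23] := by
  obtain ⟨h1, h2⟩ := List.mem_filter.1 hc
  have hG := S48L_mem c h1
  have hv := S48L_valid c h1
  refine ⟨hG.1, ?_⟩
  intro i hi
  rcases List.mem_cons.1 hi with rfl | hi
  · rw [decode_pt hv (by norm_num), Nat.eq_of_beq_eq_true h2]
  · exact hG.2 i hi

theorem S16_invol {c : ℕ} (hc : c ∈ S16) : (decode c).symm = decode c := by
  obtain ⟨-, -, h⟩ := G6_spec (S16_G hc)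
  have h1 : (decode c)⁻¹ = decode c := inv_eq_of_mul_eq_one_left h
  exact h1

theorem S16_fix {c : ℕ} (hc : c ∈ S16) {p : GolayPt} (hp : p ∈ ofMask 8536111) : decode c p = p := by
  have h := S16_G hc
  rw [← octadFix_O0, mem_octadFix] at h
  exact h.2 p hp

theorem S16_mem_M24 {c : ℕ} (hc : c ∈ S16) : decode c ∈ M24 := (S16_G hc).1

theorem S16_apply {c : ℕ} (hc : c ∈ S16) {i : ℕ} (hi : i < 24) : decode c (pt i) = pt (ap c i) := by
  obtain ⟨h1, -⟩ := List.mem_filter.1 hc
  exact decode_pt (S48L_valid c h1) hi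

theorem list_sum_apply (L : List ℕ) (F : ℕ → GolayPt → ZMod 2) (p : GolayPt) :
    (L.map F).sum p = (L.map (fun c => F c p)).sum := by
  induction L with
  | nil => rfl
  | cons a l ih => simp [ih]

theorem sum_univ_eq_list (f : GolayPt → ZMod 2) : ∑ p, f p = (idxL.map (fun i => f (pt i))).sum := by
  have h1 : (idxL.map pt).Nodup := by decide +kernel
  have h2 : (idxL.map pt).toFinset = Finset.univ := by decide +kernel
  rw [← h2, List.sum_toFinset f h1, List.map_map]
  rfl

theorem dot_compl_list (w : GolayPt → ZMod 2) :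
    dot w (ind' (ofMask 8536111)ᶜ) = (comp16.map (fun q => w (pt q))).sum := by
  unfold dot comp16
  rw [sum_univ_eq_list]
  have key : ∀ l : List ℕ, (∀ i ∈ l, i < 24) →
      (l.map (fun i => w (pt i) * ind' (ofMask 8536111)ᶜ (pt i))).sum =
        ((l.filter (fun i => !(Nat.testBit 8536111 i))).map (fun q => w (pt q))).sum := by
    intro l
    induction l with
    | nil => intro _; rfl
    | cons a l ih =>
      intro h
      have ha : a < 24 := h a (by simp)
      have hl := ih (fun i hi => h i (List.mem_cons_of_mem _ hi))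
      simp only [List.map_cons, List.sum_cons, List.filter_cons]
      by_cases hb : Nat.testBit 8536111 a = true
      · have h1 : pt a ∈ ofMask 8536111 := by rw [mem_ofMask, idx_pt ha]; exact hb
        have h2 : pt a ∉ (ofMask 8536111)ᶜ := by simpa using h1
        rw [ind'_apply_not_mem h2, hl]
        simp [hb]
      · have h1 : pt a ∉ ofMask 8536111 := by rw [mem_ofMask, idx_pt ha]; exact hb
        have h2 : pt a ∈ (ofMask 8536111)ᶜ := by simpa using h1
        rw [ind'_apply_mem h2, hl]
        simp [hb]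
  exact key idxL (fun i hi => mem_idxL.1 hi)

theorem sum_S16 (w : GolayPt → ZMod 2) (p : GolayPt) :
    ((S16.map (fun c => act (decode c) w)).sum) p =
      if p ∈ ofMask 8536111 then 0 else (comp16.map (fun q => w (pt q))).sum := by
  rw [list_sum_apply]
  have hact : ∀ c ∈ S16, act (decode c) w p = w (decode c p) := by
    intro c hc
    rw [act_apply, S16_invol hc]
  rw [List.map_congr_left hact]
  by_cases hp : p ∈ ofMask 8536111
  · rw [if_pos hp]
    have : ∀ c ∈ S16, w (decode c p) = w p := fun c hc => by rw [S16_fix hc hp]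
    rw [List.map_congr_left this, List.map_const', List.sum_replicate, S16_length]
    have h2 : ∀ a : ZMod 2, (16 : ℕ) • a = 0 := by decide
    exact h2 _
  · rw [if_neg hp]
    have hi : idx p ∈ comp16 := by
      rw [comp16, List.mem_filter]
      refine ⟨mem_idxL.2 (idx_lt p), ?_⟩
      rw [mem_ofMask] at hp
      simpa using hp
    have : ∀ c ∈ S16, w (decode c p) = (fun q => w (pt q)) (ap c (idx p)) := by
      intro c hc
      show w (decode c p) = w (pt (ap c (idx p)))
      rw [← S16_apply hc (idx_lt p), pt_idx]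
    rw [List.map_congr_left this]
    have h3 := (S16_perm _ hi).map (fun q => w (pt q))
    rw [List.map_map] at h3
    exact h3.sum_eq

section Module

variable {W : Submodule (ZMod 2) (GolayPt → ZMod 2)}
  (hW : ∀ σ ∈ M24, ∀ w ∈ W, act σ w ∈ W)
include hW

/-- Words off the first octad obtained from a word outside the code. -/
theorem compl_of_not_code {w : GolayPt → ZMod 2} (hw : w ∈ W) (hc : w ∉ golayCode) :
    ind' (ofMask 8536111)ᶜ ∈ W := by
  have hex : ∃ O ∈ octads, dot w (ind' Oᶜ) ≠ 0 := by
    by_contra hcon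
    push Not at hcon
    exact hc (mem_code_of_dot_compl hcon)
  obtain ⟨O, hO, hdot⟩ := hex
  obtain ⟨g, hg, hgO⟩ := exists_smul_octad hO (ofMask_mem_octads (show (8536111 : ℕ) ∈ octL by decide +kernel))
  set w' := act g w with hw'
  have hw'W : w' ∈ W := hW g hg w hw
  have hd : dot w' (ind' (ofMask 8536111)ᶜ) = 1 := by
    have h1 : ind' (ofMask 8536111)ᶜ = act g (ind' Oᶜ) := by
      rw [ind'_compl, ind'_compl, act_add, act_ind', hgO, act_all_one]
    rw [h1, hw', dot_act]
    have h2 : ∀ a : ZMod 2, a ≠ 0 → a = 1 := by decide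
    exact h2 _ hdot
  have hsum := sum_S16 w'
  have hmem : (S16.map (fun c => act (decode c) w')).sum ∈ W := by
    apply list_sum_mem
    intro x hx
    obtain ⟨c, hc, rfl⟩ := List.mem_map.1 hx
    exact hW _ (S16_mem_M24 hc) _ hw'W
  convert hmem using 1
  funext p
  rw [hsum, ← dot_compl_list, hd]
  by_cases hp : p ∈ ofMask 8536111
  · rw [if_pos hp, ind'_apply_not_mem (by simpa using hp)]
  · rw [if_neg hp, ind'_apply_mem (by simpa using hp)]

theorem code_of_octad {O' : Finset GolayPt} (hO' : O' ∈ octads) (h : ind' O' ∈ W) : golayCode ≤ W := by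
  have h1 : Submodule.span (ZMod 2) {w : GolayPt → ZMod 2 | w ∈ golayCode ∧ hammingNorm w = 8} ≤ W := by
    rw [Submodule.span_le]
    rintro v ⟨hv, hv8⟩
    obtain ⟨g, hg, hgO⟩ := exists_smul_octad hO' (mem_octads_of_norm hv hv8)
    have h2 := hW g hg _ h
    rw [act_ind', hgO, ind'_support₂] at h2
    exact h2
  rwa [AbstractGolay.span_octads isAbstractGolay card_pt] at h1

theorem code_of_compl (h : ind' (ofMask 8536111)ᶜ ∈ W) : golayCode ≤ W := by
  obtain ⟨h1, h2, h3, hsum⟩ := trio_octads
  have hall : ∀ O ∈ octads, ind' Oᶜ ∈ W := by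
    intro O hO
    obtain ⟨g, hg, hgO⟩ := exists_smul_octad h1 hO
    have h4 := hW g hg _ h
    rw [ind'_compl, act_add, act_ind', hgO, act_all_one, ← ind'_compl] at h4
    exact h4
  have h5 := W.add_mem (hall _ h1) (hall _ h2)
  have h6 : ind' (ofMask 8536111)ᶜ + ind' (ofMask 5279)ᶜ = ind' (ofMask 8541360) := by
    funext p
    revert p
    decide +kernel
  rw [h6] at h5
  exact code_of_octad hW h3 h5

/-- A proper nonzero word of the code generates the code. -/
theorem code_of_code {w : GolayPt → ZMod 2} (hw : w ∈ W) (hc : w ∈ golayCode) (h0 : w ≠ 0)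
    (h1 : w ≠ fun _ => 1) : golayCode ≤ W := by
  obtain ⟨x, hx⟩ : ∃ x, w x ≠ 0 := by
    by_contra hcon
    push Not at hcon
    exact h0 (funext hcon)
  obtain ⟨y, hy⟩ : ∃ y, w y = 0 := by
    by_contra hcon
    push Not at hcon
    apply h1
    funext p
    have h2 : ∀ a : ZMod 2, a ≠ 0 → a = 1 := by decide
    exact h2 _ (hcon p)
  have hxy : x ≠ y := by
    rintro rfl
    exact hx hy
  -- the translation
  obtain ⟨c₀, hc₀, h4, h5⟩ : ∃ c₀ ∈ S16, ap c₀ 4 ≠ 4 ∧ ¬ (Nat.testBit 8536111 (ap c₀ 4) = true) := by decide +kernel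
  have h24 : ap c₀ 4 < 24 := by
    obtain ⟨h1, -⟩ := List.mem_filter.1 hc₀
    exact valid_ap_lt (S48L_valid c₀ h1) (by norm_num)
  have hne : pt 4 ≠ pt (ap c₀ 4) := fun h => h4 (pt_injOn (by norm_num) h24 h).symm
  obtain ⟨⟨g, hg⟩, hgx, hgy⟩ := exists_two hxy hne
  rw [Submonoid.smul_def, Equiv.Perm.smul_def] at hgx hgy
  set w' := act g w with hw'
  have hw'W : w' ∈ W := hW g hg w hw
  have hw'C : w' ∈ golayCode := act_mem hg hc
  have e1 : w' (pt 4) = 1 := by
    have : w' (pt 4) = w x := by
      rw [hw', act_apply, ← hgx]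
      simp
    rw [this]
    have h2 : ∀ a : ZMod 2, a ≠ 0 → a = 1 := by decide
    exact h2 _ hx
  have e2 : w' (pt (ap c₀ 4)) = 0 := by
    have : w' (pt (ap c₀ 4)) = w y := by
      rw [hw', act_apply, ← hgy]
      simp
    rw [this, hy]
  set v := w' + act (decode c₀) w' with hv
  have hvW : v ∈ W := W.add_mem hw'W (hW _ (S16_mem_M24 hc₀) _ hw'W)
  have hvC : v ∈ golayCode := golayCode.add_mem hw'C (act_mem (S16_mem_M24 hc₀) hw'C)
  have hinv : decode c₀ (pt (ap c₀ 4)) = pt 4 := by
    rw [← S16_apply hc₀ (by norm_num)]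
    have := (G6_spec (S16_G hc₀)).2.2
    have h3 := congrArg (fun f : Equiv.Perm GolayPt => f (pt 4)) this
    simpa using h3
  have hv1 : v (pt (ap c₀ 4)) = 1 := by
    simp only [hv, Pi.add_apply]
    rw [act_apply, S16_invol hc₀, hinv, e1, e2]
    simp
  have hv0 : v ≠ 0 := by
    intro h
    rw [h] at hv1
    simp at hv1
  have hvoff : ∀ p ∈ ofMask 8536111, v p = 0 := by
    intro p hp
    simp only [hv, Pi.add_apply]
    rw [act_apply, S16_invol hc₀, S16_fix hc₀ hp]
    have h2 : ∀ a : ZMod 2, a + a = 0 := by decide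
    exact h2 _
  -- weights
  have hsub : support₂ v ⊆ (ofMask 8536111)ᶜ := by
    intro p hp
    rw [Finset.mem_compl]
    intro hp'
    simp only [support₂, Finset.mem_filter, Finset.mem_univ, true_and] at hp
    exact hp (hvoff p hp')
  have hcomplC : ind' (ofMask 8536111)ᶜ ∈ golayCode := by
    rw [ind'_compl]
    exact golayCode.add_mem (code_of_mem_octads (ofMask_mem_octads (by decide +kernel))) one_mem_code
  have hcardC : ((ofMask 8536111)ᶜ).card = 16 := by decide +kernel
  by_cases heq : support₂ v = (ofMask 8536111)ᶜ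
  · have : v = ind' (ofMask 8536111)ᶜ := by
      rw [← heq, ind'_support₂]
    rw [this] at hvW
    exact code_of_compl hW hvW
  · -- the difference
    set u := v + ind' (ofMask 8536111)ᶜ with hu
    have huC : u ∈ golayCode := golayCode.add_mem hvC hcomplC
    have hu0 : u ≠ 0 := by
      intro h
      apply heq
      have h7 : v = ind' (ofMask 8536111)ᶜ := by
        have h8 : ∀ a b : ZMod 2, a + b = 0 → a = b := by decide
        funext p
        exact h8 _ _ (congrFun h p)
      rw [h7, support₂_ind']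
    have hnu := isAbstractGolay.min u huC hu0
    have hnv := isAbstractGolay.min v hvC hv0
    have hadd : hammingNorm u + hammingNorm v = 16 := by
      have h9 := AbstractGolay.norm_add v (ind' (ofMask 8536111)ᶜ)
      have h10 : AbstractGolay.supp (ind' (ofMask 8536111)ᶜ) = (ofMask 8536111)ᶜ := support₂_ind' _
      have h11 : AbstractGolay.supp v ∩ (ofMask 8536111)ᶜ = AbstractGolay.supp v := Finset.inter_eq_left.2 hsub
      have h12 : hammingNorm (ind' (ofMask 8536111)ᶜ) = 16 := by
        rw [AbstractGolay.hammingNorm_eq_card, h10, hcardC]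
      have h13 : (AbstractGolay.supp v).card = hammingNorm v := rfl
      rw [h10, h11, h12, h13] at h9
      have h14 : hammingNorm u + 2 * hammingNorm v = hammingNorm v + 16 := h9
      have h15 : (AbstractGolay.supp v).card = hammingNorm v := rfl
      omega
    have h8 : hammingNorm v = 8 := by omega
    have hO := mem_octads_of_norm hvC h8
    apply code_of_octad hW hO
    rwa [ind'_support₂]

omit hW in
/-- A permutation fixing up to three points and moving another. -/
theorem exists_move {T : Finset GolayPt} (hT : T.card ≤ 3) {x y : GolayPt} (hx : x ∉ T) (hy : y ∉ T) (hxy : x ≠ y) :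
    ∃ g ∈ M24, g x = y ∧ ∀ t ∈ T, g t = t := by
  -- enlarge `T`
  have hsub : T ⊆ (Finset.univ.erase x).erase y := by
    intro t ht
    simp only [Finset.mem_erase, Finset.mem_univ, and_true]
    exact ⟨fun h => hy (h ▸ ht), fun h => hx (h ▸ ht)⟩
  have hcard : 4 ≤ ((Finset.univ.erase x).erase y).card := by
    rw [Finset.card_erase_of_mem (by simp [hxy.symm]), Finset.card_erase_of_mem (by simp), Finset.card_univ, card_pt]
    norm_num
  obtain ⟨T', hT1, hT2, hT3⟩ := Finset.exists_subsuperset_card_eq hsub (by omega) hcard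
  let e : Fin 4 ≃ T' := (T'.equivFinOfCardEq hT3).symm
  have hxT : ∀ i, x ≠ (e i : GolayPt) := by
    intro i h
    have := hT2 (e i).2
    rw [← h] at this
    simp at this
  have hyT : ∀ i, y ≠ (e i : GolayPt) := by
    intro i h
    have := hT2 (e i).2
    rw [← h] at this
    simp at this
  have hinj : ∀ i j, (e i : GolayPt) = e j → i = j := by
    intro i j h
    exact e.injective (Subtype.ext h)
  have hne : ∀ i j : Fin 4, i ≠ j → (e i : GolayPt) ≠ e j := fun i j hij h => hij (hinj i j h)
  obtain ⟨g1, hg1, a1, a2, a3, a4, a5⟩ := exists_M24_five x (e 0) (e 1) (e 2) (e 3) (hxT 0) (hxT 1) (hxT 2) (hxT 3)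
    (hne 0 1 (by decide)) (hne 0 2 (by decide)) (hne 0 3 (by decide)) (hne 1 2 (by decide)) (hne 1 3 (by decide))
    (hne 2 3 (by decide))
  obtain ⟨g2, hg2, b1, b2, b3, b4, b5⟩ := exists_M24_five y (e 0) (e 1) (e 2) (e 3) (hyT 0) (hyT 1) (hyT 2) (hyT 3)
    (hne 0 1 (by decide)) (hne 0 2 (by decide)) (hne 0 3 (by decide)) (hne 1 2 (by decide)) (hne 1 3 (by decide))
    (hne 2 3 (by decide))
  refine ⟨g2 * g1⁻¹, M24.mul_mem hg2 (M24.inv_mem hg1), ?_, ?_⟩
  · rw [Equiv.Perm.mul_apply, ← a1, ← b1]
    simp
  · intro t ht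
    have ht' := hT1 ht
    have : ∃ i, (e i : GolayPt) = t := ⟨e.symm ⟨t, ht'⟩, by simp⟩
    obtain ⟨i, rfl⟩ := this
    have key : ∀ j : Fin 4, (g2 * g1⁻¹) (e j : GolayPt) = e j := by
      intro j
      fin_cases j
      · show (g2 * g1⁻¹) (e 0 : GolayPt) = e 0
        calc (g2 * g1⁻¹) (e 0 : GolayPt) = (g2 * g1⁻¹) (g1 (pt 0)) := by rw [a2]
          _ = g2 (pt 0) := by simp
          _ = e 0 := b2
      · show (g2 * g1⁻¹) (e 1 : GolayPt) = e 1
        calc (g2 * g1⁻¹) (e 1 : GolayPt) = (g2 * g1⁻¹) (g1 (pt 1)) := by rw [a3]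
          _ = g2 (pt 1) := by simp
          _ = e 1 := b3
      · show (g2 * g1⁻¹) (e 2 : GolayPt) = e 2
        calc (g2 * g1⁻¹) (e 2 : GolayPt) = (g2 * g1⁻¹) (g1 (pt 2)) := by rw [a4]
          _ = g2 (pt 2) := by simp
          _ = e 2 := b4
      · show (g2 * g1⁻¹) (e 3 : GolayPt) = e 3
        calc (g2 * g1⁻¹) (e 3 : GolayPt) = (g2 * g1⁻¹) (g1 (pt 3)) := by rw [a5]
          _ = g2 (pt 3) := by simp
          _ = e 3 := b5
    exact key i

/-- All pairs are in `W` when one is. -/
theorem all_pairs {x y : GolayPt} (hxy : x ≠ y) (h : ind' {x, y} ∈ W) {a b : GolayPt} (hab : a ≠ b) :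
    ind' {a, b} ∈ W := by
  obtain ⟨⟨g, hg⟩, hgx, hgy⟩ := exists_two hxy hab
  rw [Submonoid.smul_def, Equiv.Perm.smul_def] at hgx hgy
  have h2 := hW g hg _ h
  rw [act_ind'] at h2
  convert h2 using 2
  rw [Finset.smul_finset_insert, Finset.smul_finset_singleton, Equiv.Perm.smul_def, Equiv.Perm.smul_def, hgx, hgy]

/-- A short nonzero word yields a pair. -/
theorem pair_of_short {u : GolayPt → ZMod 2} (hu : u ∈ W) (h0 : u ≠ 0) (h4 : hammingNorm u ≤ 4) :
    ∃ x y, x ≠ y ∧ ind' {x, y} ∈ W := by
  obtain ⟨x, hx⟩ : ∃ x, u x ≠ 0 := by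
    by_contra hcon
    push Not at hcon
    exact h0 (funext hcon)
  have hxs : x ∈ support₂ u := by simp [support₂, hx]
  have hcard : (support₂ u).card ≤ 4 := h4
  obtain ⟨y, hy⟩ : ∃ y, y ∉ support₂ u := by
    by_contra hcon
    push Not at hcon
    have : support₂ u = Finset.univ := Finset.eq_univ_iff_forall.2 hcon
    rw [this, Finset.card_univ, card_pt] at hcard
    omega
  have hxy : x ≠ y := by
    rintro rfl
    exact hy hxs
  set T := (support₂ u).erase x with hT
  obtain ⟨g, hg, hgx, hgT⟩ := exists_move (T := T) (by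
      rw [hT, Finset.card_erase_of_mem hxs]; omega) (x := x) (y := y) (by simp [hT]) (by
      simp [hT, hy]) hxy
  refine ⟨x, y, hxy, ?_⟩
  have h1 := W.add_mem hu (hW g hg u hu)
  convert h1 using 1
  rw [← ind'_support₂ u, act_ind', ind'_support₂]
  have hst : g • (support₂ u) = insert y T := by
    ext p
    rw [Finset.mem_smul_finset]
    constructor
    · rintro ⟨q, hq, rfl⟩
      rw [Equiv.Perm.smul_def]
      by_cases hqx : q = x
      · subst hqx
        rw [hgx]
        simp
      · have hqT : q ∈ T := by simp [hT, hq, hqx]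
        rw [hgT q hqT]
        simp [hqT]
    · intro hp
      rcases Finset.mem_insert.1 hp with rfl | hp
      · exact ⟨x, hxs, hgx⟩
      · exact ⟨p, (Finset.mem_erase.1 hp).2, hgT p hp⟩
  rw [hst]
  have e : u + ind' (insert y T) = ind' (support₂ u) + ind' (insert y T) := by rw [ind'_support₂]
  rw [e, ind'_add]
  congr 1
  ext p
  simp only [Finset.mem_symmDiff, Finset.mem_insert, Finset.mem_singleton, hT, Finset.mem_erase]
  by_cases h1 : p = x
  · subst h1
    simp [hxs, hxy]
  · by_cases h2 : p = y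
    · subst h2
      simp [hy, h1]
    · simp [h1, h2]

/-- Even words are in `W` when all pairs are. -/
theorem even_le (hall : ∀ a b : GolayPt, a ≠ b → ind' {a, b} ∈ W) {w : GolayPt → ZMod 2}
    (hw : ∑ p, w p = 0) : w ∈ W := by
  set a₀ : GolayPt := none with ha₀
  have h1 : w = ∑ i ∈ Finset.univ.erase a₀, w i • ind' {i, a₀} := by
    funext p
    simp only [Finset.sum_apply, Pi.smul_apply, smul_eq_mul]
    by_cases hp : p = a₀
    · subst hp
      have h2 : ∀ i ∈ Finset.univ.erase a₀, w i * ind' {i, a₀} a₀ = w i := by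
        intro i _
        rw [ind'_apply_mem (by simp), mul_one]
      rw [Finset.sum_congr rfl h2]
      have h3 := Finset.add_sum_erase Finset.univ w (Finset.mem_univ a₀)
      rw [hw] at h3
      have h4 : ∀ a b : ZMod 2, a + b = 0 → a = b := by decide
      exact h4 _ _ h3
    · rw [Finset.sum_eq_single p]
      · rw [ind'_apply_mem (by simp), mul_one]
      · intro i hi hip
        rw [ind'_apply_not_mem, mul_zero]
        simp only [Finset.mem_insert, Finset.mem_singleton, not_or]
        exact ⟨fun h => hip h.symm, hp⟩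
      · intro h
        exact absurd (Finset.mem_erase.2 ⟨hp, Finset.mem_univ _⟩) h
  rw [h1]
  apply W.sum_mem
  intro i hi
  exact W.smul_mem _ (hall i a₀ (Finset.mem_erase.1 hi).1)

/-- A single point word makes everything. -/
theorem top_of_odd (hall : ∀ a b : GolayPt, a ≠ b → ind' {a, b} ∈ W) {w : GolayPt → ZMod 2}
    (hw : w ∈ W) (hodd : ∑ p, w p ≠ 0) : W = ⊤ := by
  rw [eq_top_iff]
  intro v _
  -- odd words
  have hv : ∀ v : GolayPt → ZMod 2, ∑ p, v p ≠ 0 → v ∈ W := by
    intro v hv
    have h1 : ∑ p, (v + w) p = 0 := by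
      simp only [Pi.add_apply, Finset.sum_add_distrib]
      have h2 : ∀ a b : ZMod 2, a ≠ 0 → b ≠ 0 → a + b = 0 := by decide
      exact h2 _ _ hv hodd
    have h3 := even_le hW hall h1
    have h4 := W.add_mem h3 hw
    rwa [add_assoc, GolayMod.word_add_self', add_zero] at h4
  by_cases h : ∑ p, v p = 0
  · exact even_le hW hall h
  · exact hv v h

end Module

/-- For the automorphism group of the length-24 binary Golay code of the definitions (the Mathieu group of degree 24) acting on binary words of length 24 by permuting coordinates, the only invariant subspaces of the space of all words are: zero, the span of the all-ones word, the code itself, the even-weight words, and the whole space. (So the permutation module has a unique composition series.) -/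
theorem result (W : Submodule (ZMod 2) (Cfsg.GolayPt → ZMod 2)) (hW : ∀ σ ∈ Cfsg.M24, ∀ w ∈ W, (fun p => w (σ.symm p)) ∈ W) : W = ⊥ ∨ W = Submodule.span (ZMod 2) {fun _ => (1 : ZMod 2)} ∨ W = Cfsg.golayCode ∨ (W : Set (Cfsg.GolayPt → ZMod 2)) = {w | ∑ p, w p = 0} ∨ W = ⊤ := by
  have hW' : ∀ σ ∈ M24, ∀ w ∈ W, act σ w ∈ W := hW
  by_cases h1 : W ≤ Submodule.span (ZMod 2) {fun _ => (1 : ZMod 2)}
  · -- inside the span of the all-ones word
    by_cases h2 : (fun _ => (1 : ZMod 2) : GolayPt → ZMod 2) ∈ W
    · right; left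
      apply le_antisymm h1
      rw [Submodule.span_le]
      rintro x rfl
      exact h2
    · left
      rw [eq_bot_iff]
      intro x hx
      obtain ⟨a, rfl⟩ := Submodule.mem_span_singleton.1 (h1 hx)
      rw [Submodule.mem_bot]
      have h3 : ∀ a : ZMod 2, a = 0 ∨ a = 1 := by decide
      rcases h3 a with rfl | rfl
      · simp
      · rw [one_smul] at hx
        exact absurd hx h2
  · right; right
    obtain ⟨w, hw, hw1⟩ := SetLike.not_le_iff_exists.1 h1
    have hne0 : w ≠ 0 := by
      rintro rfl
      exact hw1 (Submodule.zero_mem _)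
    have hne1 : w ≠ fun _ => 1 := by
      rintro rfl
      exact hw1 (Submodule.mem_span_singleton_self _)
    have hC : golayCode ≤ W := by
      by_cases hc : w ∈ golayCode
      · exact code_of_code hW' hw hc hne0 hne1
      · exact code_of_compl hW' (compl_of_not_code hW' hw hc)
    by_cases h2 : W ≤ golayCode
    · left
      exact le_antisymm h2 hC
    · right
      obtain ⟨w2, hw2, hw2C⟩ := SetLike.not_le_iff_exists.1 h2
      obtain ⟨u, huC, hu4⟩ := AbstractGolay.leaders_nonempty isAbstractGolay card_pt w2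
      have huW : u ∈ W := by
        have h3 := W.add_mem (hC huC) hw2
        have h4 : u - w2 + w2 = u := by abel
        rwa [h4] at h3
      have hu0 : u ≠ 0 := by
        rintro rfl
        apply hw2C
        have h3 := golayCode.neg_mem huC
        simpa using h3
      obtain ⟨x, y, hxy, hpair⟩ := pair_of_short hW' huW hu0 hu4
      have hall : ∀ a b : GolayPt, a ≠ b → ind' {a, b} ∈ W := fun a b hab => all_pairs hW' hxy hpair hab
      by_cases h3 : ∃ v ∈ W, ∑ p, v p ≠ 0
      · right
        obtain ⟨v, hv, hodd⟩ := h3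
        exact top_of_odd hW' hall hv hodd
      · left
        push Not at h3
        ext v
        constructor
        · intro hv
          exact h3 v hv
        · intro hv
          exact even_le hW' hall hv

end Cfsg.Agent.S5548
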