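import Mathlib
import Cfsg.Statements.S5549
import Cfsg.Agent.Lib.GolayMod
import Cfsg.Agent.Lib.GolayFamilies

set_option autoImplicit false
open Cfsg

namespace Cfsg.Agent.S5549

open Cfsg.Agent.Lib Cfsg.Agent.Lib.Golay Cfsg.Agent.Lib.M24Facts Cfsg.Agent.Lib.GolayMod
open scoped Pointwise

/-- Octads meeting a set in an odd number of points. -/
def oddOct (S : Finset GolayPt) : Set (Finset GolayPt) := {O | O ∈ octads ∧ Odd (O ∩ S).card}

theorem oddOct_smul {g : Equiv.Perm GolayPt} (hg : g ∈ M24) (S : Finset GolayPt) :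
    oddOct (g • S) = (fun O => g • O) '' oddOct S := by
  ext O
  constructor
  · rintro ⟨h1, h2⟩
    refine ⟨g⁻¹ • O, ⟨smul_mem_octads (M24.inv_mem hg) h1, ?_⟩, smul_inv_smul g O⟩
    have : g⁻¹ • O ∩ S = g⁻¹ • (O ∩ g • S) := by
      rw [Finset.smul_finset_inter, inv_smul_smul]
    rw [this, Finset.card_smul_finset]
    exact h2
  · rintro ⟨O', ⟨h1, h2⟩, rfl⟩
    refine ⟨smul_mem_octads hg h1, ?_⟩
    show Odd (g • O' ∩ g • S).card
    rw [← Finset.smul_finset_inter, Finset.card_smul_finset]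
    exact h2

theorem ncard_oddOct_smul {g : Equiv.Perm GolayPt} (hg : g ∈ M24) (S : Finset GolayPt) :
    (oddOct (g • S)).ncard = (oddOct S).ncard := by
  rw [oddOct_smul hg, Set.ncard_image_of_injective _ (MulAction.injective g)]

theorem ncard_base (m : ℕ) : (oddOct (ofMask m)).ncard =
    (octL.filter fun o => Nat.beq (pop (Nat.land o m) % 2) 1).length := by
  refine ncard_octads_filter (fun S => Odd (S ∩ ofMask m).card)
    (fun o => Nat.beq (pop (Nat.land o m) % 2) 1) ?_
  intro o _
  show Nat.beq (pop (Nat.land o m) % 2) 1 = true ↔ Odd (ofMask o ∩ ofMask m).card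
  rw [← ofMask_land, card_ofMask, Nat.odd_iff, Nat.beq_eq]

theorem ncard_duad {a b : GolayPt} (hab : a ≠ b) : (oddOct {a, b}).ncard = 352 := by
  have hne : pt 0 ≠ pt 1 := fun h => by
    have := pt_injOn (by norm_num) (by norm_num) h
    omega
  obtain ⟨⟨g, hg⟩, h1, h2⟩ := exists_two hne hab
  rw [Submonoid.smul_def, Equiv.Perm.smul_def] at h1 h2
  have e : ({a, b} : Finset GolayPt) = g • ofMask 3 := by
    have h3 : ofMask 3 = {pt 0, pt 1} := by decide +kernel
    rw [h3, Finset.smul_finset_insert, Finset.smul_finset_singleton, Equiv.Perm.smul_def, Equiv.Perm.smul_def, h1, h2]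
  rw [e, ncard_oddOct_smul hg, ncard_base]
  decide +kernel

theorem ncard_tetrad {T : Finset GolayPt} (hT : T.card = 4) : (oddOct T).ncard = 384 := by
  obtain ⟨a, t1, ha, rfl, ht1⟩ := Finset.card_eq_succ.mp hT
  obtain ⟨b, t2, hb, rfl, ht2⟩ := Finset.card_eq_succ.mp ht1
  obtain ⟨c, d, hcd, rfl⟩ := Finset.card_eq_two.mp ht2
  simp only [Finset.mem_insert, Finset.mem_singleton, not_or] at ha hb
  obtain ⟨hab, hac, had⟩ := ha
  obtain ⟨hbc, hbd⟩ := hb
  obtain ⟨e, he⟩ : ∃ e, e ∉ ({a, b, c, d} : Finset GolayPt) := by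
    by_contra hcon
    push Not at hcon
    have h1 : ({a, b, c, d} : Finset GolayPt) = Finset.univ := Finset.eq_univ_iff_forall.2 hcon
    have h2 : ({a, b, c, d} : Finset GolayPt).card ≤ 4 := Finset.card_le_four
    rw [h1, Finset.card_univ, card_pt] at h2
    omega
  simp only [Finset.mem_insert, Finset.mem_singleton, not_or] at he
  obtain ⟨hea, heb, hec, hed⟩ := he
  obtain ⟨g, hg, h1, h2, h3, h4, -⟩ := exists_M24_five a b c d e hab hac had (Ne.symm hea) hbc hbd (Ne.symm heb) hcd
    (Ne.symm hec) (Ne.symm hed)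
  have e1 : ({a, b, c, d} : Finset GolayPt) = g • ofMask 8388615 := by
    have h5 : ofMask 8388615 = {pt 23, pt 0, pt 1, pt 2} := by decide +kernel
    rw [h5, Finset.smul_finset_insert, Finset.smul_finset_insert, Finset.smul_finset_insert, Finset.smul_finset_singleton]
    simp only [Equiv.Perm.smul_def, h1, h2, h3, h4]
  rw [e1, ncard_oddOct_smul hg, ncard_base]
  decide +kernel

theorem dot_ind_ind (S O : Finset GolayPt) : dot (ind' S) (ind' O) = ((O ∩ S).card : ZMod 2) := by
  unfold dot ind'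
  have h : ∀ i : GolayPt, ((if i ∈ S then (1 : ZMod 2) else 0) * if i ∈ O then (1 : ZMod 2) else 0)
      = if i ∈ O ∩ S then 1 else 0 := by
    intro i
    by_cases ha : i ∈ S <;> by_cases hb : i ∈ O <;> simp [ha, hb]
  simp only [h]
  rw [Finset.sum_boole]
  congr 2
  ext i; simp

theorem dot_pair {a b : GolayPt} (hab : a ≠ b) (c : GolayPt → ZMod 2) : dot (ind' {a, b}) c = c a + c b := by
  unfold dot ind'
  have h : ∀ i : GolayPt, (if i ∈ ({a, b} : Finset GolayPt) then (1 : ZMod 2) else 0) * c i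
      = if i ∈ ({a, b} : Finset GolayPt) then c i else 0 := by
    intro i
    by_cases ha : i ∈ ({a, b} : Finset GolayPt) <;> simp [ha]
  simp only [h]
  rw [Finset.sum_ite_mem, Finset.univ_inter, Finset.sum_pair hab]

theorem dot_all_one (u : GolayPt → ZMod 2) : dot u (fun _ => 1) = ((support₂ u).card : ZMod 2) := by
  nth_rewrite 1 [← ind'_support₂ u]
  have h : (fun _ => (1 : ZMod 2) : GolayPt → ZMod 2) = ind' Finset.univ := by
    funext p
    simp [ind']
  rw [h, dot_ind_ind, Finset.univ_inter]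

/-- A short word orthogonal to the code vanishes. -/
theorem eq_empty_of_perp {R : Finset GolayPt} (hR : R.card < 8)
    (h : ∀ c ∈ golayCode, dot (ind' R) c = 0) : R = ∅ := by
  have h1 := self_dual h
  by_contra hne
  have h2 : ind' R ≠ 0 := by
    intro h3
    apply hne
    rw [← support₂_ind' R, h3]
    simp [support₂]
  have h3 := isAbstractGolay.min _ h1 h2
  have h4 : hammingNorm (ind' R) = R.card := by
    show (support₂ (ind' R)).card = _
    rw [support₂_ind']
  omega

theorem eq_of_dot_eq {S S' : Finset GolayPt} (hc : S.card + S'.card < 8)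
    (h : ∀ c ∈ golayCode, dot (ind' S) c = dot (ind' S') c) : S = S' := by
  have h1 : symmDiff S S' = ∅ := by
    apply eq_empty_of_perp
    · have h2 : (symmDiff S S').card ≤ S.card + S'.card := by
        have : symmDiff S S' = (S \ S') ∪ (S' \ S) := rfl
        rw [this]
        exact (Finset.card_union_le _ _).trans (add_le_add (Finset.card_le_card Finset.sdiff_subset) (Finset.card_le_card Finset.sdiff_subset))
      omega
    · intro c hc
      rw [← ind'_add, dot_add_left, h c hc]
      have h2 : ∀ a : ZMod 2, a + a = 0 := by decide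
      exact h2 _
  exact symmDiff_eq_bot.1 h1

theorem cast_of_odd {n : ℕ} (h : Odd n) : (n : ZMod 2) = 1 := by
  obtain ⟨k, rfl⟩ := h
  push_cast
  have h2 : ∀ a : ZMod 2, 2 * a + 1 = 1 := by decide
  exact h2 _

theorem odd_of_cast {n : ℕ} (h : (n : ZMod 2) = 1) : Odd n := by
  by_contra hcon
  rw [Nat.not_odd_iff_even] at hcon
  obtain ⟨k, rfl⟩ := hcon
  push_cast at h
  have h2 : ∀ a : ZMod 2, a + a ≠ 1 := by decide
  exact h2 _ h

section Main

variable (x : ↥golayCode ≃ₗ[ZMod 2] ↥golayCode)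
  (hx1 : ∀ e : ↥golayCode, (e : GolayPt → ZMod 2) = (fun _ => (1 : ZMod 2)) → x e = e)
  (horb : ∀ c : ↥golayCode, ∃ σ ∈ M24, ((x c : ↥golayCode) : GolayPt → ZMod 2) = act σ c ∨
    ((x c : ↥golayCode) : GolayPt → ZMod 2) = act σ c + fun _ => (1 : ZMod 2))

/-- The word of an octad as an element of the code. -/
def octW {O : Finset GolayPt} (hO : O ∈ octads) : ↥golayCode := ⟨ind' O, code_of_mem_octads hO⟩

include horb in
theorem exists_psi {O : Finset GolayPt} (hO : O ∈ octads) : ∃ O' ∈ octads,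
    ((x (octW hO) : ↥golayCode) : GolayPt → ZMod 2) = ind' O' ∨
    ((x (octW hO) : ↥golayCode) : GolayPt → ZMod 2) = ind' O' + fun _ => (1 : ZMod 2) := by
  obtain ⟨σ, hσ, h⟩ := horb (octW hO)
  refine ⟨σ • O, smul_mem_octads hσ hO, ?_⟩
  have e : act σ ((octW hO : ↥golayCode) : GolayPt → ZMod 2) = ind' (σ • O) := act_ind' σ O
  rw [← e]
  exact h

/-- Duad functional on the code. -/
def phi (a b : GolayPt) : ↥golayCode →ₗ[ZMod 2] ZMod 2 :=
  (LinearMap.proj (R := ZMod 2) (φ := fun _ : GolayPt => ZMod 2) a +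
    LinearMap.proj (R := ZMod 2) (φ := fun _ : GolayPt => ZMod 2) b) ∘ₗ golayCode.subtype ∘ₗ
    (x : ↥golayCode →ₗ[ZMod 2] ↥golayCode)

theorem phi_apply (a b : GolayPt) (c : ↥golayCode) :
    phi x a b c = ((x c : ↥golayCode) : GolayPt → ZMod 2) a + ((x c : ↥golayCode) : GolayPt → ZMod 2) b := rfl

/-- Functionals on the code are dot products with short words. -/
theorem exists_short (φ : ↥golayCode →ₗ[ZMod 2] ZMod 2) :
    ∃ u, hammingNorm u ≤ 4 ∧ ∀ c : ↥golayCode, φ c = dot u c := by
  obtain ⟨g, hg⟩ := LinearMap.exists_extend φ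
  set v : GolayPt → ZMod 2 := fun i => g (fun j => if i = j then 1 else 0) with hv
  have h1 : ∀ w, g w = dot v w := by
    intro w
    rw [LinearMap.pi_apply_eq_sum_univ g w]
    unfold dot
    refine Finset.sum_congr rfl fun i _ => ?_
    rw [smul_eq_mul, mul_comm]
  obtain ⟨u, hu1, hu2⟩ := AbstractGolay.leaders_nonempty isAbstractGolay card_pt v
  refine ⟨u, hu2, fun c => ?_⟩
  have h2 : φ c = g c := by
    rw [← hg]
    rfl
  rw [h2, h1]
  have h3 : dot (u - v) c = 0 := golay_orth _ hu1 _ c.2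
  have h4 : u = (u - v) + v := by abel
  conv_rhs => rw [h4]
  rw [dot_add_left, h3, zero_add]

theorem phi_surj_sep {a b : GolayPt} (hab : a ≠ b) : ∃ c : ↥golayCode, phi x a b c ≠ 0 := by
  by_contra hcon
  push Not at hcon
  have h1 : ({a, b} : Finset GolayPt) = ∅ := by
    apply eq_empty_of_perp
    · exact lt_of_le_of_lt Finset.card_le_two (by norm_num)
    · intro c hc
      rw [dot_pair hab]
      have h2 := hcon (x.symm ⟨c, hc⟩)
      rw [phi_apply, x.apply_symm_apply] at h2
      exact h2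
  simp at h1

include hx1 horb in
/-- A duad functional does not go to a tetrad functional. -/
theorem no_tetrad {a b : GolayPt} (hab : a ≠ b) {u : GolayPt → ZMod 2} (hu : ∀ c : ↥golayCode, phi x a b c = dot u c)
    (h : (support₂ u).card = 4) : False := by
  have hS : ind' (support₂ u) = u := ind'_support₂ u
  have hT := ncard_tetrad h
  have hD := ncard_duad hab
  choose! ψ hψ hψ2 using fun (O : Finset GolayPt) (hO : O ∈ octads) => exists_psi x horb hO
  have hmaps : Set.MapsTo ψ (oddOct (support₂ u)) (oddOct {a, b}) := by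
    rintro O ⟨hO, hodd⟩
    refine ⟨hψ O hO, ?_⟩
    have h1 := hu (octW hO)
    have h2 : dot u ((octW hO : ↥golayCode) : GolayPt → ZMod 2) = ((O ∩ support₂ u).card : ZMod 2) := by
      have := dot_ind_ind (support₂ u) O
      rw [hS] at this
      exact this
    rw [h2, cast_of_odd hodd, phi_apply] at h1
    have h3 : (ind' (ψ O)) a + (ind' (ψ O)) b = 1 := by
      rcases hψ2 O hO with e | e
      · rw [e] at h1
        exact h1
      · rw [e] at h1
        simp only [Pi.add_apply] at h1
        have h4 : ∀ p q : ZMod 2, (p + 1) + (q + 1) = p + q := by decide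
        rw [h4] at h1
        exact h1
    have h5 : dot (ind' {a, b}) (ind' (ψ O)) = 1 := by
      rw [dot_pair hab]
      exact h3
    rw [dot_ind_ind] at h5
    exact odd_of_cast h5
  have hinj : Set.InjOn ψ (oddOct (support₂ u)) := by
    rintro O₁ ⟨h1, -⟩ O₂ ⟨h2, -⟩ he
    have hE := hx1 ⟨fun _ => 1, one_mem_code⟩ rfl
    have hsame : ∀ {O₁ O₂ : Finset GolayPt} (h1 : O₁ ∈ octads) (h2 : O₂ ∈ octads),
        ((x (octW h1) : ↥golayCode) : GolayPt → ZMod 2) = (x (octW h2) : ↥golayCode) → O₁ = O₂ := by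
      intro O₁ O₂ h1 h2 h
      have h3 : octW h1 = octW h2 := x.injective (Subtype.ext h)
      have h4 : ind' O₁ = ind' O₂ := congrArg Subtype.val h3
      rw [← support₂_ind' O₁, h4, support₂_ind']
    have hdiff : ∀ {O₁ O₂ : Finset GolayPt} (h1 : O₁ ∈ octads) (h2 : O₂ ∈ octads),
        ((x (octW h1) : ↥golayCode) : GolayPt → ZMod 2) =
          ((x (octW h2) : ↥golayCode) : GolayPt → ZMod 2) + (fun _ => (1 : ZMod 2)) → False := by
      intro O₁ O₂ h1 h2 h
      have h3 : x (octW h1) = x (octW h2 + ⟨fun _ => 1, one_mem_code⟩) := by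
        rw [map_add, hE]
        exact Subtype.ext h
      have h4 : octW h1 = octW h2 + ⟨fun _ => 1, one_mem_code⟩ := x.injective h3
      have h5 : ind' O₁ = ind' O₂ + fun _ => (1 : ZMod 2) := congrArg Subtype.val h4
      rw [← ind'_compl] at h5
      have h6 : O₁ = O₂ᶜ := by
        rw [← support₂_ind' O₁, h5, support₂_ind']
      have h7 : O₁.card = 8 := h1.2
      have h8 : O₂.card = 8 := h2.2
      rw [h6, Finset.card_compl, card_pt, h8] at h7
      norm_num at h7
    have a1 := hψ2 O₁ h1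
    have a2 := hψ2 O₂ h2
    rw [he] at a1
    rcases a1 with a1 | a1 <;> rcases a2 with a2 | a2
    · exact hsame h1 h2 (a1.trans a2.symm)
    · exact (hdiff h2 h1 (by rw [a1, a2])).elim
    · exact (hdiff h1 h2 (by rw [a1, a2])).elim
    · exact hsame h1 h2 (a1.trans a2.symm)
  have h9 := Set.ncard_le_ncard_of_injOn ψ hmaps hinj (Set.toFinite _)
  rw [hT, hD] at h9
  norm_num at h9

include hx1 horb in
/-- Duad functionals go to duad functionals. -/
theorem key {a b : GolayPt} (hab : a ≠ b) : ∃ S : Finset GolayPt, S.card = 2 ∧ ∀ c : ↥golayCode,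
    ((x c : ↥golayCode) : GolayPt → ZMod 2) a + ((x c : ↥golayCode) : GolayPt → ZMod 2) b = dot (ind' S) c := by
  obtain ⟨u, hu4, hu⟩ := exists_short (phi x a b)
  have hS : ind' (support₂ u) = u := ind'_support₂ u
  refine ⟨support₂ u, ?_, fun c => ?_⟩
  · -- the parity
    have hpar : ((support₂ u).card : ZMod 2) = 0 := by
      rw [← dot_all_one]
      have h1 := hu ⟨fun _ => 1, one_mem_code⟩
      have h2 : dot u (fun _ => 1) = phi x a b ⟨fun _ => 1, one_mem_code⟩ := h1.symm
      rw [h2, phi_apply, hx1 ⟨fun _ => 1, one_mem_code⟩ rfl]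
      show (1 : ZMod 2) + 1 = 0
      decide
    have heven : 2 ∣ (support₂ u).card := (ZMod.natCast_eq_zero_iff _ 2).1 hpar
    have hnz : (support₂ u).card ≠ 0 := by
      intro h0
      obtain ⟨c, hc⟩ := phi_surj_sep x hab
      apply hc
      rw [hu]
      have : u = 0 := by
        rw [← hS, Finset.card_eq_zero.1 h0]
        funext p
        simp [ind']
      rw [this]
      simp [dot]
    have hle : (support₂ u).card ≤ 4 := hu4
    have hcases : (support₂ u).card = 2 ∨ (support₂ u).card = 4 := by omega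
    rcases hcases with h | h
    · exact h
    · exact (no_tetrad x hx1 horb hab hu h).elim
  · rw [← phi_apply, hu, hS]

include hx1 horb in
/-- The permutation induced on the points. -/
theorem exists_perm : ∃ ρ : Equiv.Perm GolayPt, ∀ c : ↥golayCode, ∀ a b, a ≠ b →
    ((x c : ↥golayCode) : GolayPt → ZMod 2) a + ((x c : ↥golayCode) : GolayPt → ZMod 2) b =
      (c : GolayPt → ZMod 2) (ρ.symm a) + (c : GolayPt → ZMod 2) (ρ.symm b) := by
  choose! τ hτ2 hτ using fun (a b : GolayPt) (hab : a ≠ b) => key x hx1 horb hab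
  have τ_symm : ∀ {a b}, a ≠ b → τ a b = τ b a := by
    intro a b hab
    apply eq_of_dot_eq (by rw [hτ2 a b hab, hτ2 b a hab.symm]; norm_num)
    intro c hc
    have h1 := hτ a b hab ⟨c, hc⟩
    have h2 := hτ b a hab.symm ⟨c, hc⟩
    rw [← h1.trans rfl, ← h2.trans rfl, add_comm]
  have τ_inj : ∀ {a b a' b'}, a ≠ b → a' ≠ b' → τ a b = τ a' b' → ({a, b} : Finset GolayPt) = {a', b'} := by
    intro a b a' b' hab hab' he
    apply eq_of_dot_eq (lt_of_le_of_lt (add_le_add Finset.card_le_two Finset.card_le_two) (by norm_num))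
    intro c hc
    rw [dot_pair hab, dot_pair hab']
    have h1 := hτ a b hab (x.symm ⟨c, hc⟩)
    have h2 := hτ a' b' hab' (x.symm ⟨c, hc⟩)
    rw [x.apply_symm_apply] at h1 h2
    rw [he] at h1
    exact h1.trans h2.symm
  have τ_tri : ∀ {a b c}, a ≠ b → a ≠ c → b ≠ c → symmDiff (τ a b) (τ a c) = τ b c := by
    intro a b c hab hac hbc
    apply eq_of_dot_eq
    · have h1 : (symmDiff (τ a b) (τ a c)).card ≤ 4 := by
        have := AbstractGolay.card_symmDiff' (τ a b) (τ a c)
        rw [hτ2 a b hab, hτ2 a c hac] at this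
        omega
      rw [hτ2 b c hbc]
      omega
    · intro d hd
      rw [← ind'_add, dot_add_left]
      have h1 := hτ a b hab ⟨d, hd⟩
      have h2 := hτ a c hac ⟨d, hd⟩
      have h3 := hτ b c hbc ⟨d, hd⟩
      have e1 : dot (ind' (τ a b)) d = _ := h1.symm
      have e2 : dot (ind' (τ a c)) d = _ := h2.symm
      have e3 : dot (ind' (τ b c)) d = _ := h3.symm
      rw [e1, e2, e3]
      have h4 : ∀ p q r : ZMod 2, p + q + (p + r) = q + r := by decide
      exact h4 _ _ _
  have τ_inter : ∀ {a b c}, a ≠ b → a ≠ c → b ≠ c → (τ a b ∩ τ a c).card = 1 := by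
    intro a b c hab hac hbc
    have := AbstractGolay.card_symmDiff' (τ a b) (τ a c)
    rw [τ_tri hab hac hbc, hτ2 a b hab, hτ2 a c hac, hτ2 b c hbc] at this
    omega
  have hthree : ∀ a b : GolayPt, ∃ c, c ≠ a ∧ c ≠ b := by
    intro a b
    by_contra hcon
    push Not at hcon
    have h1 : (Finset.univ : Finset GolayPt) ⊆ {a, b} := by
      intro c _
      by_cases hca : c = a
      · simp [hca]
      · simp [hcon c hca]
    have h2 := Finset.card_le_card h1
    rw [Finset.card_univ, card_pt] at h2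
    have h3 : ({a, b} : Finset GolayPt).card ≤ 2 := Finset.card_le_two
    omega
  -- the point of a star
  have hstar : ∀ a, ∃ p, ∀ b, b ≠ a → p ∈ τ a b := by
    intro a
    obtain ⟨b₁, hb₁⟩ : ∃ b₁, b₁ ≠ a := by
      obtain ⟨c, hc, -⟩ := hthree a a
      exact ⟨c, hc⟩
    obtain ⟨b₂, hb₂, hb₁₂⟩ := hthree a b₁
    have hne1 : a ≠ b₁ := hb₁.symm
    have hne2 : a ≠ b₂ := hb₂.symm
    have hne12 : b₁ ≠ b₂ := hb₁₂.symm
    obtain ⟨p, hp⟩ := Finset.card_eq_one.1 (τ_inter hne1 hne2 hne12)
    have hp1 : p ∈ τ a b₁ := (Finset.mem_inter.1 (by rw [hp]; simp)).1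
    have hp2 : p ∈ τ a b₂ := (Finset.mem_inter.1 (by rw [hp]; simp)).2
    refine ⟨p, fun b hb => ?_⟩
    by_cases hbb1 : b = b₁
    · rw [hbb1]; exact hp1
    by_cases hbb2 : b = b₂
    · rw [hbb2]; exact hp2
    by_contra hpS
    have aux : ∀ {T : Finset GolayPt}, T.card = 2 → p ∈ T → (τ a b ∩ T).card = 1 → ∀ y ∈ T, y ≠ p → y ∈ τ a b := by
      intro T hT hpT hST y hy hyp
      obtain ⟨z, hz⟩ := Finset.card_eq_one.1 hST
      have hz1 : z ∈ τ a b ∩ T := by rw [hz]; simp
      have hz2 := Finset.mem_inter.1 hz1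
      have hzp : z ≠ p := fun h => hpS (h ▸ hz2.1)
      have hTeq : T = {p, y} := by
        symm
        apply Finset.eq_of_subset_of_card_le
        · intro w hw
          simp only [Finset.mem_insert, Finset.mem_singleton] at hw
          rcases hw with rfl | rfl
          · exact hpT
          · exact hy
        · rw [Finset.card_pair (Ne.symm hyp), hT]
      rw [hTeq] at hz2
      have h3 := hz2.2
      simp only [Finset.mem_insert, Finset.mem_singleton] at h3
      rcases h3 with h3 | h3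
      · exact absurd h3 hzp
      · rw [← h3]; exact hz2.1
    have hab : a ≠ b := hb.symm
    have hsub : τ b₁ b₂ ⊆ τ a b := by
      rw [← τ_tri hne1 hne2 hne12]
      intro y hy
      rcases Finset.mem_symmDiff.1 hy with ⟨h1, h2⟩ | ⟨h1, h2⟩
      · apply aux (hτ2 a b₁ hne1) hp1 _ y h1
        · rintro rfl
          exact h2 hp2
        · exact τ_inter hab hne1 (Ne.symm (Ne.symm hbb1))
      · apply aux (hτ2 a b₂ hne2) hp2 _ y h1
        · rintro rfl
          exact h2 hp1
        · exact τ_inter hab hne2 hbb2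
    have heq : τ b₁ b₂ = τ a b :=
      Finset.eq_of_subset_of_card_le hsub (by rw [hτ2 a b hab, hτ2 b₁ b₂ hne12])
    have h5 := τ_inj hne12 hab heq
    have h6 : a ∈ ({b₁, b₂} : Finset GolayPt) := by rw [h5]; simp
    simp only [Finset.mem_insert, Finset.mem_singleton] at h6
    rcases h6 with h6 | h6
    · exact hne1 h6
    · exact hne2 h6
  choose σ hσ using hstar
  have hinj : Function.Injective σ := by
    intro a b he
    by_contra hab
    obtain ⟨c, hca, hcb⟩ := hthree a b
    have h1 := hσ a b (Ne.symm hab)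
    have h2 := hσ a c hca
    have h3 := hσ b c hcb
    rw [← he] at h3
    rw [← τ_tri hab (Ne.symm hca) (Ne.symm hcb)] at h3
    rcases Finset.mem_symmDiff.1 h3 with ⟨-, h4⟩ | ⟨-, h4⟩
    · exact h4 h2
    · exact h4 h1
  have hτσ : ∀ {a b}, a ≠ b → τ a b = {σ a, σ b} := by
    intro a b hab
    symm
    apply Finset.eq_of_subset_of_card_le
    · intro w hw
      simp only [Finset.mem_insert, Finset.mem_singleton] at hw
      rcases hw with rfl | rfl
      · exact hσ a b (Ne.symm hab)
      · rw [τ_symm hab]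
        exact hσ b a hab
    · rw [hτ2 a b hab, Finset.card_pair (fun h => hab (hinj h))]
  refine ⟨(Equiv.ofBijective σ (Finite.injective_iff_bijective.1 hinj)).symm, fun c a b hab => ?_⟩
  have h1 := hτ a b hab c
  rw [hτσ hab, dot_pair (fun h => hab (hinj h))] at h1
  exact h1

end Main

/-- Let X be a group of linear automorphisms of the length-24 binary Golay code of the definitions that fix the all-ones word, containing the coordinate-permutation action of every element of the code's automorphism group (the Mathieu group of degree 24), and such that every element of X sends each codeword into its orbit under that Mathieu group up to adding the all-ones word (X has the same orbits as the Mathieu group on the code modulo the all-ones word). Then every element of X agrees, modulo the all-ones word, with the action of a single element of the Mathieu group: X induces exactly the Mathieu group on the code modulo the all-ones word. -/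
theorem result (X : Subgroup (↥Cfsg.golayCode ≃ₗ[ZMod 2] ↥Cfsg.golayCode)) (h1 : ∀ x ∈ X, ∀ e : ↥Cfsg.golayCode, (e : (Cfsg.GolayPt → ZMod 2)) = (fun _ => (1 : ZMod 2)) → x e = e) (hM : ∀ σ ∈ Cfsg.M24, ∃ x ∈ X, ∀ c : ↥Cfsg.golayCode, ((x c : ↥Cfsg.golayCode) : (Cfsg.GolayPt → ZMod 2)) = fun p => (c : (Cfsg.GolayPt → ZMod 2)) (σ.symm p)) (horb : ∀ x ∈ X, ∀ c : ↥Cfsg.golayCode, ∃ σ ∈ Cfsg.M24, ((x c : ↥Cfsg.golayCode) : (Cfsg.GolayPt → ZMod 2)) = (fun p => (c : (Cfsg.GolayPt → ZMod 2)) (σ.symm p)) ∨ ((x c : ↥Cfsg.golayCode) : (Cfsg.GolayPt → ZMod 2)) = (fun p => (c : (Cfsg.GolayPt → ZMod 2)) (σ.symm p)) + fun _ => (1 : ZMod 2)) (x : ↥Cfsg.golayCode ≃ₗ[ZMod 2] ↥Cfsg.golayCode) (hx : x ∈ X) : ∃ σ ∈ Cfsg.M24, ∀ c : ↥Cfsg.golayCode, ((x c : ↥Cfsg.golayCode) : (Cfsg.GolayPt → ZMod 2)) = (fun p => (c : (Cfsg.GolayPt → ZMod 2)) (σ.symm p)) ∨ ((x c : ↥Cfsg.golayCode) : (Cfsg.GolayPt → ZMod 2)) = (fun p => (c : (Cfsg.GolayPt → ZMod 2)) (σ.symm p)) + fun _ => (1 : ZMod 2) := by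
  have hx1 := h1 x hx
  have horb' : ∀ c : ↥golayCode, ∃ σ ∈ M24, ((x c : ↥golayCode) : GolayPt → ZMod 2) = act σ c ∨
      ((x c : ↥golayCode) : GolayPt → ZMod 2) = act σ c + fun _ => (1 : ZMod 2) := horb x hx
  obtain ⟨ρ, hρ⟩ := exists_perm x hx1 horb'
  have hcases : ∀ c : ↥golayCode, ((x c : ↥golayCode) : GolayPt → ZMod 2) = act ρ c ∨
      ((x c : ↥golayCode) : GolayPt → ZMod 2) = act ρ c + fun _ => (1 : ZMod 2) := by
    intro c
    set y : GolayPt → ZMod 2 := ((x c : ↥golayCode) : GolayPt → ZMod 2) + act ρ c with hy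
    have hconst : ∀ a b, y a = y b := by
      intro a b
      by_cases hab : a = b
      · rw [hab]
      have h2 := hρ c a b hab
      simp only [hy, Pi.add_apply, act_apply]
      have h3 : ∀ p q r s : ZMod 2, p + q = r + s → p + r = q + s := by decide
      exact h3 _ _ _ _ h2
    have h4 : ∀ p q : ZMod 2, p + q = 0 → p = q := by decide
    have h5 : ∀ p q : ZMod 2, p + q = 1 → p = q + 1 := by decide
    have h6 : ∀ a : ZMod 2, a = 0 ∨ a = 1 := by decide
    rcases h6 (y none) with h | h
    · left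
      funext p
      have h7 : y p = 0 := by rw [hconst p none, h]
      exact h4 _ _ h7
    · right
      funext p
      have h7 : y p = 1 := by rw [hconst p none, h]
      exact h5 _ _ h7
  have hρM : ρ ∈ M24 := by
    apply mem_M24_of_push
    intro w hw
    show act ρ w ∈ golayCode
    rcases hcases ⟨w, hw⟩ with h | h
    · have := (x ⟨w, hw⟩).2
      rw [h] at this
      exact this
    · have h7 := (x ⟨w, hw⟩).2
      rw [h] at h7
      have h8 := golayCode.add_mem h7 one_mem_code
      rwa [add_assoc, GolayMod.word_add_self', add_zero] at h8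
  exact ⟨ρ, hρM, hcases⟩

end Cfsg.Agent.S5549
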