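import Mathlib
import Cfsg.Statements.S5550
import Cfsg.Agent.Lib.GolayMod
import Cfsg.Agent.Lib.DodecadFacts

set_option autoImplicit false
open Cfsg

namespace Cfsg.Agent.S5550

open Cfsg.Agent.Lib Cfsg.Agent.Lib.Golay Cfsg.Agent.Lib.M24Facts Cfsg.Agent.Lib.GolayMod
open scoped Pointwise

/-- The test of a certificate: each row of the code is a sum of commutators. -/
def certOK (m : ℕ) (Cs : List ℕ) (X : List (List (ℕ × ℕ))) : Bool :=
  (Cs.all fun c => isM24 c && Nat.beq (img c m) m) &&
  (rowMasks.all fun r => X.any fun l =>
    Nat.beq (xorList (l.map fun p => Nat.xor (img p.1 p.2) p.2)) r &&
    l.all fun p => Cs.contains p.1 && rowMasks.contains p.2)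

def CsO : List ℕ := [59072133876357370999562495324240418,964847698640070267886482296895703505,229378189708471126446341999810021472]

def XO : List (List (ℕ × ℕ)) := [[(59072133876357370999562495324240418,10558),(59072133876357370999562495324240418,18147),(59072133876357370999562495324240418,69395),(59072133876357370999562495324240418,262637),(59072133876357370999562495324240418,525274),(964847698640070267886482296895703505,10558)],
  [(59072133876357370999562495324240418,36294),(59072133876357370999562495324240418,525274),(59072133876357370999562495324240418,2101096),(964847698640070267886482296895703505,10558)],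
  [(59072133876357370999562495324240418,5279),(59072133876357370999562495324240418,10558),(59072133876357370999562495324240418,525274),(59072133876357370999562495324240418,1050548),(59072133876357370999562495324240418,2101096),(964847698640070267886482296895703505,5279),(964847698640070267886482296895703505,10558)],
  [(59072133876357370999562495324240418,5279),(59072133876357370999562495324240418,10558),(59072133876357370999562495324240418,525274),(59072133876357370999562495324240418,2101096),(964847698640070267886482296895703505,5279),(964847698640070267886482296895703505,10558)],
  [(59072133876357370999562495324240418,10558),(59072133876357370999562495324240418,262637),(59072133876357370999562495324240418,525274),(59072133876357370999562495324240418,1050548),(964847698640070267886482296895703505,10558)],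
  [(59072133876357370999562495324240418,10558),(59072133876357370999562495324240418,36294),(59072133876357370999562495324240418,262637),(59072133876357370999562495324240418,525274),(59072133876357370999562495324240418,2101096),(964847698640070267886482296895703505,10558)],
  [(59072133876357370999562495324240418,262637),(59072133876357370999562495324240418,1050548)],
  [(59072133876357370999562495324240418,5279),(59072133876357370999562495324240418,10558),(59072133876357370999562495324240418,69395),(59072133876357370999562495324240418,262637),(59072133876357370999562495324240418,525274),(964847698640070267886482296895703505,10558)],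
  [(59072133876357370999562495324240418,5279),(59072133876357370999562495324240418,18147),(59072133876357370999562495324240418,36294),(59072133876357370999562495324240418,262637),(59072133876357370999562495324240418,1050548),(964847698640070267886482296895703505,5279)],
  [(59072133876357370999562495324240418,18147),(59072133876357370999562495324240418,36294)],
  [(59072133876357370999562495324240418,10558),(59072133876357370999562495324240418,36294),(59072133876357370999562495324240418,69395),(964847698640070267886482296895703505,5279),(964847698640070267886482296895703505,10558)],
  [(59072133876357370999562495324240418,10558),(59072133876357370999562495324240418,36294),(59072133876357370999562495324240418,133817),(59072133876357370999562495324240418,262637),(59072133876357370999562495324240418,525274),(59072133876357370999562495324240418,2101096),(964847698640070267886482296895703505,10558)]]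

def CsD : List ℕ := [313590539715909461293927226244596454,515522607042397528419888911049887463,360222114005506000748218003779435235,596693691629046116550990400692717664]

def XD : List (List (ℕ × ℕ)) := [[(313590539715909461293927226244596454,69395),(313590539715909461293927226244596454,262637),(313590539715909461293927226244596454,2101096),(515522607042397528419888911049887463,10558)],
  [(313590539715909461293927226244596454,5279),(313590539715909461293927226244596454,10558),(313590539715909461293927226244596454,18147),(313590539715909461293927226244596454,36294),(313590539715909461293927226244596454,69395),(313590539715909461293927226244596454,133817),(313590539715909461293927226244596454,262637),(313590539715909461293927226244596454,525274),(313590539715909461293927226244596454,1050548),(313590539715909461293927226244596454,2101096),(515522607042397528419888911049887463,10558),(515522607042397528419888911049887463,69395)],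
  [(313590539715909461293927226244596454,5279),(313590539715909461293927226244596454,36294),(313590539715909461293927226244596454,262637),(313590539715909461293927226244596454,2101096)],
  [(313590539715909461293927226244596454,5279),(313590539715909461293927226244596454,18147),(313590539715909461293927226244596454,69395),(313590539715909461293927226244596454,262637),(313590539715909461293927226244596454,2101096),(515522607042397528419888911049887463,10558)],
  [(313590539715909461293927226244596454,5279),(313590539715909461293927226244596454,10558),(313590539715909461293927226244596454,18147),(313590539715909461293927226244596454,69395),(313590539715909461293927226244596454,133817),(313590539715909461293927226244596454,525274),(313590539715909461293927226244596454,1050548),(515522607042397528419888911049887463,69395)],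
  [(313590539715909461293927226244596454,5279),(313590539715909461293927226244596454,18147),(313590539715909461293927226244596454,36294),(313590539715909461293927226244596454,69395),(313590539715909461293927226244596454,133817),(313590539715909461293927226244596454,262637),(313590539715909461293927226244596454,525274),(313590539715909461293927226244596454,1050548),(313590539715909461293927226244596454,2101096),(515522607042397528419888911049887463,10558)],
  [(313590539715909461293927226244596454,5279),(313590539715909461293927226244596454,18147),(313590539715909461293927226244596454,262637)],
  [(313590539715909461293927226244596454,5279),(313590539715909461293927226244596454,10558),(313590539715909461293927226244596454,18147),(313590539715909461293927226244596454,36294),(313590539715909461293927226244596454,69395),(313590539715909461293927226244596454,262637),(313590539715909461293927226244596454,525274),(313590539715909461293927226244596454,2101096)],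
  [(313590539715909461293927226244596454,5279),(313590539715909461293927226244596454,18147),(313590539715909461293927226244596454,36294),(313590539715909461293927226244596454,69395),(313590539715909461293927226244596454,525274),(313590539715909461293927226244596454,1050548),(515522607042397528419888911049887463,10558)],
  [(313590539715909461293927226244596454,10558),(313590539715909461293927226244596454,69395)],
  [(313590539715909461293927226244596454,69395),(515522607042397528419888911049887463,10558)],
  [(313590539715909461293927226244596454,10558),(313590539715909461293927226244596454,36294),(313590539715909461293927226244596454,69395),(313590539715909461293927226244596454,262637),(313590539715909461293927226244596454,2101096)]]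

theorem certO : certOK 8536111 CsO XO = true := by decide +kernel

theorem certD : certOK 8442831 CsD XD = true := by decide +kernel

theorem act_word {c : ℕ} (hv : valid c = true) (m : ℕ) : act (decode c) (word m) = word (img c m) := by
  rw [act_eq_pushWord, pushWord_word, decode_smul_ofMask hv, toMask_ofMask (img_lt hv m)]

/-- The property: the stabiliser of a set has no fixed point on words modulo the code. -/
def Fix (S : Finset GolayPt) : Prop :=
  ∀ w, w ∉ golayCode → ∃ σ ∈ M24, σ • S = S ∧ act σ w + w ∉ golayCode

theorem word_row_mem {r : ℕ} (hr : r ∈ rowMasks) : word r ∈ golayCode := by
  rw [golayCode_eq_R]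
  exact Submodule.subset_span ⟨r, hr, rfl⟩

theorem fix_of_cert {m : ℕ} {Cs : List ℕ} {X : List (List (ℕ × ℕ))} (h : certOK m Cs X = true)
    (hm : m < 2 ^ 24) : Fix (ofMask m) := by
  simp only [certOK, Bool.and_eq_true, List.all_eq_true, List.any_eq_true, List.contains_iff_mem] at h
  obtain ⟨h1, h2⟩ := h
  intro w hw
  by_contra hcon
  push Not at hcon
  apply hw
  apply self_dual
  intro c hc
  have hK : golayCode ≤ LinearMap.ker (dotB w) := by
    rw [golayCode_eq_R, R, Submodule.span_le]
    rintro _ ⟨r, hr, rfl⟩
    obtain ⟨l, -, hxor, hl⟩ := h2 r hr
    show word r ∈ LinearMap.ker (dotB w)
    rw [← Nat.eq_of_beq_eq_true hxor]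
    apply word_xorList_mem
    intro x hx
    obtain ⟨⟨a, b⟩, hp, rfl⟩ := List.mem_map.1 hx
    obtain ⟨ha, hb⟩ := hl _ hp
    simp only at ha hb ⊢
    obtain ⟨hM, hS⟩ := h1 a ha
    have hv := isM24_valid hM
    have hg := decode_mem_M24 hM
    have hstab : (decode a)⁻¹ • ofMask m = ofMask m := by
      have h3 : decode a • ofMask m = ofMask m := by
        rw [decode_smul_ofMask hv, Nat.eq_of_beq_eq_true hS]
      rw [inv_smul_eq_iff, h3]
    have h4 := hcon _ (M24.inv_mem hg) hstab
    show dotB w (word (Nat.xor (img a b) b)) = 0
    rw [dotB_apply, word_xor, ← act_word hv, dot_add_right, ← dot_comm (act _ _), dot_act_left,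
      dot_comm (word b)]
    have h5 := golay_orth _ h4 _ (word_row_mem hb)
    have h6 : dot (act (decode a)⁻¹ w + w) (word b) = 0 := h5
    rw [dot_add_left] at h6
    exact h6
  have h7 : dotB w c = 0 := hK hc
  rwa [dotB_apply] at h7

theorem Fix_smul {S : Finset GolayPt} (h : Fix S) {g : Equiv.Perm GolayPt} (hg : g ∈ M24) : Fix (g • S) := by
  intro w hw
  have hw' : act g⁻¹ w ∉ golayCode := fun h' => hw ((act_mem_iff (M24.inv_mem hg)).1 h')
  obtain ⟨σ, hσ, hS, hn⟩ := h _ hw'
  refine ⟨g * σ * g⁻¹, M24.mul_mem (M24.mul_mem hg hσ) (M24.inv_mem hg), ?_, ?_⟩
  · rw [mul_smul, mul_smul, inv_smul_smul, hS]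
  · intro hmem
    apply hn
    rw [← act_mem_iff hg]
    have e : act g (act σ (act g⁻¹ w) + act g⁻¹ w) = act (g * σ * g⁻¹) w + w := by
      rw [act_add, act_act_inv]
      rfl
    rw [e]
    exact hmem

theorem Fix_octad {O : Finset GolayPt} (hO : O ∈ octads) : Fix O := by
  have h0 : ofMask 8536111 ∈ octads := ofMask_mem_octads (by decide +kernel)
  obtain ⟨g, hg, rfl⟩ := exists_smul_octad h0 hO
  exact Fix_smul (fix_of_cert certO (by norm_num)) hg

theorem Fix_dodecad {D : Finset GolayPt} (hD : D ∈ dodecads) : Fix D := by
  obtain ⟨g, hg, rfl⟩ := DodecadFacts.exists_smul_dod0 hD
  exact Fix_smul (fix_of_cert certD (by decide)) hg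

/-- The all-ones word. -/
abbrev one' : GolayPt → ZMod 2 := fun _ => 1

theorem norm_add_one (u : GolayPt → ZMod 2) : hammingNorm (u + one') + hammingNorm u = 24 := by
  have h9 := AbstractGolay.norm_add u one'
  have h10 : AbstractGolay.supp one' = Finset.univ := by
    ext p
    simp [AbstractGolay.mem_supp]
  have h11 : AbstractGolay.supp u ∩ AbstractGolay.supp one' = AbstractGolay.supp u := by
    rw [h10, Finset.inter_univ]
  have h12 : hammingNorm one' = 24 := by
    rw [AbstractGolay.hammingNorm_eq_card, h10, Finset.card_univ, card_pt]
  have h13 : (AbstractGolay.supp u).card = hammingNorm u := rfl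
  rw [h11, h12, h13] at h9
  omega

/-- Words of the code have one of the known shapes. -/
theorem code_cases {u : GolayPt → ZMod 2} (hu : u ∈ golayCode) :
    u = 0 ∨ u = one' ∨ support₂ u ∈ octads ∨ support₂ (u + one') ∈ octads ∧ u = ind' (support₂ (u + one')) + one' ∨
      support₂ u ∈ dodecads := by
  by_cases h0 : u = 0
  · exact Or.inl h0
  by_cases h1 : u = one'
  · exact Or.inr (Or.inl h1)
  right; right
  have hv : u + one' ∈ golayCode := golayCode.add_mem hu one_mem_code
  have hv0 : u + one' ≠ 0 := by
    intro h
    apply h1
    funext p
    have h2 : ∀ a b : ZMod 2, a + b = 0 → a = b := by decide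
    exact h2 _ _ (congrFun h p)
  have n1 := isAbstractGolay.min u hu h0
  have n2 := isAbstractGolay.min _ hv hv0
  have n3 := norm_add_one u
  have n4 := AbstractGolay.doubly_even isAbstractGolay card_pt hu
  have hcases : hammingNorm u = 8 ∨ hammingNorm u = 12 ∨ hammingNorm u = 16 := by omega
  rcases hcases with h | h | h
  · exact Or.inl (mem_octads_of_norm hu h)
  · right; right
    exact ⟨⟨u, hu, rfl⟩, h⟩
  · right; left
    have h8 : hammingNorm (u + one') = 8 := by omega
    refine ⟨mem_octads_of_norm hv h8, ?_⟩
    rw [ind'_support₂]
    funext p
    simp only [Pi.add_apply]
    have h2 : ∀ a b : ZMod 2, a = a + b + b := by decide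
    exact h2 _ _

theorem act_ind_self {O : Finset GolayPt} {σ : Equiv.Perm GolayPt} (h : σ • O = O) : act σ (ind' O) = ind' O := by
  rw [act_ind', h]

/-- Let u be a word of the length-24 binary Golay code of the definitions (possibly zero or all-ones) and w any binary word of length 24 outside the code. Then some automorphism of the code (a coordinate permutation preserving it) fixes u but moves w to a word not congruent to w modulo the code: the stabilizer of a codeword fixes no non-zero element of the quotient of the space of all words by the code. -/
theorem result (u : (Cfsg.GolayPt → ZMod 2)) (hu : u ∈ Cfsg.golayCode) (w : (Cfsg.GolayPt → ZMod 2)) (hw : w ∉ Cfsg.golayCode) : ∃ σ ∈ Cfsg.M24, (fun p => u (σ.symm p)) = u ∧ (fun p => w (σ.symm p)) - w ∉ Cfsg.golayCode := by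
  have hsub : ∀ σ, (fun p => w (σ.symm p)) - w = act σ w + w := by
    intro σ
    exact AbstractGolay.word_sub_eq_add _ _
  simp only [hsub]
  have hfin : ∀ S : Finset GolayPt, Fix S → (∀ σ : Equiv.Perm GolayPt, σ • S = S → act σ u = u) →
      ∃ σ ∈ M24, act σ u = u ∧ act σ w + w ∉ golayCode := by
    intro S hS hact
    obtain ⟨σ, hσ, h1, h2⟩ := hS w hw
    exact ⟨σ, hσ, hact σ h1, h2⟩
  have h0 : ofMask 8536111 ∈ octads := ofMask_mem_octads (by decide +kernel)
  rcases code_cases hu with h | h | h | ⟨h, he⟩ | h
  · exact hfin _ (Fix_octad h0) (fun σ _ => by rw [h]; rfl)
  · exact hfin _ (Fix_octad h0) (fun σ _ => by rw [h]; rfl)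
  · refine hfin _ (Fix_octad h) (fun σ hσ => ?_)
    have := act_ind_self hσ
    rwa [ind'_support₂] at this
  · refine hfin _ (Fix_octad h) (fun σ hσ => ?_)
    have h2 := act_ind_self hσ
    calc act σ u = act σ (ind' (support₂ (u + one')) + one') := by rw [← he]
      _ = act σ (ind' (support₂ (u + one'))) + act σ one' := act_add _ _ _
      _ = ind' (support₂ (u + one')) + one' := by rw [h2]; rfl
      _ = u := he.symm
  · refine hfin _ (Fix_dodecad h) (fun σ hσ => ?_)
    have := act_ind_self hσ
    rwa [ind'_support₂] at this

end Cfsg.Agent.S5550
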