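import Mathlib
import Cfsg.Statements.S5553
import Cfsg.Agent.Lib.Leech
import Cfsg.Agent.Lib.Golay

set_option autoImplicit false
open Cfsg

namespace Cfsg.Agent.S5553

open Cfsg.Agent.Lib.Leech

/-- The subgroup of the statement. -/
def A : AddSubgroup (GolayPt → ℤ) where
  carrier := {x | (∀ i, (2 : ℤ) ∣ x i) ∧ (∀ i j, x i ≡ x j [ZMOD 4]) ∧ (8 : ℤ) ∣ ∑ i, x i}
  zero_mem' := by
    refine ⟨fun i => by simp, fun i j => by simp [Int.ModEq], by simp⟩
  add_mem' := by
    rintro x y ⟨h1, h2, h3⟩ ⟨h1', h2', h3'⟩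
    refine ⟨fun i => ?_, fun i j => ?_, ?_⟩
    · exact dvd_add (h1 i) (h1' i)
    · exact Int.ModEq.add (h2 i j) (h2' i j)
    · simp only [Pi.add_apply, Finset.sum_add_distrib]
      exact dvd_add h3 h3'
  neg_mem' := by
    rintro x ⟨h1, h2, h3⟩
    refine ⟨fun i => ?_, fun i j => ?_, ?_⟩
    · simpa using h1 i
    · exact Int.ModEq.neg (h2 i j)
    · simp only [Pi.neg_apply, Finset.sum_neg_distrib]
      exact (dvd_neg).2 h3

theorem A_le : A ≤ leechLattice := by
  rintro x ⟨h1, h2, h3⟩
  rw [mem_leechLattice_iff]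
  by_cases h : x none % 4 = 0
  · refine ⟨0, ∅, empty_mem_codeSets, fun i => ?_, ?_⟩
    · have := h2 i none
      simp only [br, Finset.notMem_empty, if_false, Int.ModEq] at this ⊢
      omega
    · simp only [Int.ModEq]
      omega
  · refine ⟨0, Finset.univ, univ_mem_codeSets, fun i => ?_, ?_⟩
    · have h4 := h2 i none
      have h5 := h1 none
      simp only [br, Finset.mem_univ, if_true, Int.ModEq] at h4 ⊢
      omega
    · simp only [Int.ModEq]
      omega

theorem two_smul_mem {v : GolayPt → ℤ} (hv : v ∈ leechLattice) : (2 : ℤ) • v ∈ A := by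
  obtain ⟨m, α, -, h2, h3⟩ := mem_leechLattice_iff.1 hv
  refine ⟨fun i => ?_, fun i j => ?_, ?_⟩
  · simp
  · have e1 := h2 i
    have e2 := h2 j
    simp only [Pi.smul_apply, smul_eq_mul, Int.ModEq] at e1 e2 ⊢
    rcases br_cases α i with ⟨_, hb⟩ | ⟨_, hb⟩ <;> rcases br_cases α j with ⟨_, hb'⟩ | ⟨_, hb'⟩ <;>
      rw [hb] at e1 <;> rw [hb'] at e2 <;> omega
  · simp only [Pi.smul_apply, smul_eq_mul, ← Finset.mul_sum]
    simp only [Int.ModEq] at h3
    omega

theorem norm_dvd {x : GolayPt → ℤ} (hx : x ∈ A) : (32 : ℤ) ∣ sqNorm x := by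
  obtain ⟨h1, h2, h3⟩ := hx
  have hc : ∑ _i : GolayPt, (4 : ℤ) = 96 := by
    simp [Finset.card_univ]
  by_cases h : x none % 4 = 0
  · have key : (32 : ℤ) ∣ ∑ i, (x i ^ 2 - 4 * x i) := by
      apply Finset.dvd_sum
      intro i _
      have h4 := h2 i none
      simp only [Int.ModEq] at h4
      obtain ⟨y, hy⟩ : ∃ y, x i = 4 * y := ⟨x i / 4, by omega⟩
      rw [hy]
      have h5 : (2 : ℤ) ∣ y * (y - 1) := by
        rcases Int.even_mul_pred_self y with ⟨k, hk⟩
        exact ⟨k, by rw [hk]; ring⟩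
      obtain ⟨k, hk⟩ := h5
      exact ⟨k, by linear_combination 16 * hk⟩
    have e : sqNorm x = ∑ i, (x i ^ 2 - 4 * x i) + 4 * ∑ i, x i := by
      unfold sqNorm
      rw [Finset.sum_sub_distrib, ← Finset.mul_sum]
      ring
    rw [e]
    obtain ⟨a, ha⟩ := h3
    rw [ha]
    exact dvd_add key ⟨a, by ring⟩
  · have key : (32 : ℤ) ∣ ∑ i, (x i ^ 2 - 4) := by
      apply Finset.dvd_sum
      intro i _
      have h4 := h2 i none
      have h5 := h1 none
      simp only [Int.ModEq] at h4
      obtain ⟨y, hy⟩ : ∃ y, x i = 4 * y + 2 := ⟨x i / 4, by omega⟩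
      rw [hy]
      have h6 : (2 : ℤ) ∣ y * (y + 1) := by
        rcases Int.even_mul_succ_self y with ⟨k, hk⟩
        exact ⟨k, by rw [hk]; ring⟩
      obtain ⟨k, hk⟩ := h6
      exact ⟨k, by linear_combination 16 * hk⟩
    have e : sqNorm x = ∑ i, (x i ^ 2 - 4) + 96 := by
      unfold sqNorm
      rw [Finset.sum_sub_distrib, hc]
      ring
    rw [e]
    exact dvd_add key ⟨3, by norm_num⟩

/-! ### the index -/

/-- Words of the code not containing the extra point. -/
def Z : Submodule (ZMod 2) (GolayPt → ZMod 2) :=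
  golayCode ⊓ LinearMap.ker (LinearMap.proj (R := ZMod 2) (φ := fun _ : GolayPt => ZMod 2) none)

theorem mem_Z {c : GolayPt → ZMod 2} : c ∈ Z ↔ c ∈ golayCode ∧ c none = 0 := by
  simp [Z, LinearMap.mem_ker]

theorem one_mem_code : (1 : GolayPt → ZMod 2) ∈ golayCode :=
  Submodule.subset_span (Or.inr rfl)

theorem zmod2_add_self (a : ZMod 2) : a + a = 0 := by revert a; decide

/-- The code splits as the words avoiding the extra point and the span of the all-ones word. -/
def codeEquiv : ↥golayCode ≃ ↥Z × ZMod 2 where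
  toFun c := (⟨c.1 + (c.1 none) • (1 : GolayPt → ZMod 2), mem_Z.2 ⟨golayCode.add_mem c.2 (golayCode.smul_mem _ one_mem_code), by
      simp [zmod2_add_self]⟩⟩, c.1 none)
  invFun p := ⟨p.1.1 + p.2 • (1 : GolayPt → ZMod 2), golayCode.add_mem (mem_Z.1 p.1.2).1 (golayCode.smul_mem _ one_mem_code)⟩
  left_inv c := by
    apply Subtype.ext
    funext i
    simp only [Pi.add_apply, Pi.smul_apply, smul_eq_mul, Pi.one_apply, mul_one]
    rw [add_assoc, zmod2_add_self, add_zero]
  right_inv p := by
    obtain ⟨⟨c, hc⟩, a⟩ := p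
    have hc0 := (mem_Z.1 hc).2
    refine Prod.ext (Subtype.ext ?_) ?_
    · funext i
      simp only [Pi.add_apply, Pi.smul_apply, smul_eq_mul, Pi.one_apply, mul_one, hc0, zero_add]
      rw [add_assoc, zmod2_add_self, add_zero]
    · simp [hc0]

theorem card_Z : Nat.card ↥Z = 2048 := by
  have h := Nat.card_congr codeEquiv
  rw [Cfsg.Agent.Lib.Golay.natCard_golayCode, Nat.card_prod, Nat.card_zmod] at h
  omega

/-- The coordinate differences of a lattice vector, halved. -/
def w (x : GolayPt → ℤ) (i : GolayPt) : ZMod 2 := (((x i - x none) / 2 : ℤ) : ZMod 2)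

theorem cast_even {t : ℤ} (h : (2 : ℤ) ∣ t) : (t : ZMod 2) = 0 :=
  (ZMod.intCast_zmod_eq_zero_iff_dvd t 2).2 h

theorem cast_odd {t : ℤ} (h : ¬ (2 : ℤ) ∣ t) : (t : ZMod 2) = 1 := by
  have h1 : ((t - 1 : ℤ) : ZMod 2) = 0 := by
    apply cast_even
    omega
  push_cast at h1
  have h2 : ∀ a : ZMod 2, a - 1 = 0 → a = 1 := by decide
  exact h2 _ h1

theorem two_dvd_sub {x : GolayPt → ℤ} (hx : x ∈ leechLattice) (i j : GolayPt) : (2 : ℤ) ∣ x i - x j := by
  obtain ⟨m, α, -, h2, -⟩ := mem_leechLattice_iff.1 hx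
  have e1 := h2 i
  have e2 := h2 j
  simp only [Int.ModEq] at e1 e2
  rcases br_cases α i with ⟨_, hb⟩ | ⟨_, hb⟩ <;> rcases br_cases α j with ⟨_, hb'⟩ | ⟨_, hb'⟩ <;>
    rw [hb] at e1 <;> rw [hb'] at e2 <;> omega

theorem w_add {x y : GolayPt → ℤ} (hx : x ∈ leechLattice) (hy : y ∈ leechLattice) : w (x + y) = w x + w y := by
  funext i
  have h1 := two_dvd_sub hx i none
  have h2 := two_dvd_sub hy i none
  simp only [w, Pi.add_apply]
  have h3 : (x i + y i - (x none + y none)) / 2 = (x i - x none) / 2 + (y i - y none) / 2 := by omega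
  rw [h3]
  push_cast
  rfl

theorem w_mem_code {x : GolayPt → ℤ} (hx : x ∈ leechLattice) : w x ∈ golayCode := by
  have hx' := mem_leechLattice_iff_leechSet.1 hx
  obtain ⟨m, -, -, h3⟩ := hx'
  have h4 := h3 (x none + 2)
  rw [mem_codeSets_iff] at h4
  convert h4 using 1
  funext i
  have h5 := two_dvd_sub hx i none
  have hmem : i ∈ Finset.univ.filter (fun i => x i ≡ x none + 2 [ZMOD 4]) ↔ x i % 4 = (x none + 2) % 4 := by
    rw [Finset.mem_filter]
    simp [Int.ModEq]
  simp only [w, ind]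
  by_cases h6 : x i % 4 = (x none + 2) % 4
  · rw [if_pos (hmem.2 h6)]
    apply cast_odd
    omega
  · rw [if_neg (fun h => h6 (hmem.1 h))]
    apply cast_even
    omega

theorem w_none (x : GolayPt → ℤ) : w x none = 0 := by
  simp [w]

/-- The homomorphism with kernel `A`. -/
def phi : ↥leechLattice →+ ZMod 2 × ↥Z where
  toFun x := (((x.1 none : ℤ) : ZMod 2), ⟨w x.1, mem_Z.2 ⟨w_mem_code x.2, w_none _⟩⟩)
  map_zero' := by
    refine Prod.ext ?_ (Subtype.ext ?_)
    · simp
    · funext i
      simp [w]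
  map_add' x y := by
    refine Prod.ext ?_ (Subtype.ext ?_)
    · simp
    · exact w_add x.2 y.2

theorem phi_surjective : Function.Surjective phi := by
  have hz : (fun i : GolayPt => if i = some 0 then (-3 : ℤ) else 1) ∈ leechLattice := by
    rw [mem_leechLattice_iff]
    refine ⟨1, ∅, empty_mem_codeSets, fun i => ?_, ?_⟩
    · simp only [br, Finset.notMem_empty, if_false, Int.ModEq]
      split_ifs <;> norm_num
    · have : ∑ i : GolayPt, (if i = some 0 then (-3 : ℤ) else 1) = 20 := by decide +kernel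
      rw [this]
      decide
  have hc : ∀ c : ↥Z, (fun i : GolayPt => 2 * br (support₂ c.1) i) ∈ leechLattice := by
    intro c
    have hcs : support₂ c.1 ∈ codeSets := ⟨c.1, (mem_Z.1 c.2).1, rfl⟩
    rw [mem_leechLattice_iff]
    refine ⟨0, support₂ c.1, hcs, fun i => ?_, ?_⟩
    · simp [Int.ModEq]
    · rw [← Finset.mul_sum, sum_br]
      obtain ⟨a, ha⟩ := four_dvd_card hcs
      rw [ha]
      simp only [Int.ModEq]
      push_cast
      omega
  have hcw : ∀ c : ↥Z, w (fun i : GolayPt => 2 * br (support₂ c.1) i) = c.1 := by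
    intro c
    funext i
    have hc0 : c.1 none = 0 := (mem_Z.1 c.2).2
    have hn : br (support₂ c.1) none = 0 := by
      simp [br, support₂, hc0]
    simp only [w, hn, mul_zero, sub_zero]
    rw [Int.mul_ediv_cancel_left _ (by norm_num)]
    rcases zmod2_eq_zero_or_one (c.1 i) with h | h
    · simp [br, support₂, h]
    · simp [br, support₂, h]
  rintro ⟨a, c⟩
  set z : ↥leechLattice := ⟨_, hz⟩ with hzdef
  set y : ↥leechLattice := ⟨_, hc c⟩ with hydef
  have hphiz : phi z = (1, 0) := by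
    refine Prod.ext ?_ (Subtype.ext ?_)
    · show (((if (none : GolayPt) = some 0 then (-3 : ℤ) else 1 : ℤ)) : ZMod 2) = 1
      simp
    · funext i
      show w (fun i : GolayPt => if i = some 0 then (-3 : ℤ) else 1) i = 0
      simp only [w]
      by_cases h : i = some 0
      · simp only [h]
        decide
      · simp [h]
  have hphiy : phi y = (0, c) := by
    refine Prod.ext ?_ (Subtype.ext ?_)
    · have hc0 : c.1 none = 0 := (mem_Z.1 c.2).2
      show (((2 * br (support₂ c.1) none : ℤ)) : ZMod 2) = 0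
      simp [br, support₂, hc0]
    · exact hcw c
  rcases zmod2_eq_zero_or_one a with rfl | rfl
  · exact ⟨y, hphiy⟩
  · refine ⟨z + y, ?_⟩
    rw [map_add, hphiz, hphiy]
    simp

theorem ker_phi : A.addSubgroupOf leechLattice = phi.ker := by
  ext x
  rw [AddSubgroup.mem_addSubgroupOf, AddMonoidHom.mem_ker]
  constructor
  · rintro ⟨h1, h2, h3⟩
    refine Prod.ext (cast_even (h1 none)) (Subtype.ext ?_)
    funext i
    apply cast_even
    have := h2 i none
    simp only [Int.ModEq] at this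
    have h5 := h1 i
    have h6 := h1 none
    omega
  · intro h
    have h0 := congrArg Prod.fst h
    have h1 := congrArg (fun p => (p.2 : GolayPt → ZMod 2)) h
    have hm : (2 : ℤ) ∣ x.1 none := (ZMod.intCast_zmod_eq_zero_iff_dvd _ 2).1 h0
    have hw : ∀ i, (4 : ℤ) ∣ x.1 i - x.1 none := by
      intro i
      have h2 := congrFun h1 i
      have h3 : (2 : ℤ) ∣ (x.1 i - x.1 none) / 2 := (ZMod.intCast_zmod_eq_zero_iff_dvd _ 2).1 h2
      have h4 := two_dvd_sub x.2 i none
      omega
    refine ⟨fun i => ?_, fun i j => ?_, ?_⟩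
    · have := hw i
      omega
    · have e1 := hw i
      have e2 := hw j
      simp only [Int.ModEq]
      omega
    · obtain ⟨m, h5, h6, -⟩ := mem_leechLattice_iff_leechSet.1 x.2
      have h7 := h5 none
      simp only [Int.ModEq] at h6 h7
      omega

/-- The Leech lattice of the definitions has an additive subgroup A containing twice the lattice, of index 2^12 in the lattice, all of whose vectors have squared length divisible by 32: the invariant quadratic form 'squared length over 16 modulo 2' on the lattice modulo twice the lattice (a 24-dimensional space over the field with two elements) vanishes on a 12-dimensional subspace, so it is of plus type. -/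
theorem result : ∃ A : AddSubgroup (Cfsg.GolayPt → ℤ), A ≤ Cfsg.leechLattice ∧ (∀ v ∈ Cfsg.leechLattice, (2 : ℤ) • v ∈ A) ∧ (A.addSubgroupOf Cfsg.leechLattice).index = 2 ^ 12 ∧ ∀ v ∈ A, (32 : ℤ) ∣ Cfsg.sqNorm v := by
  refine ⟨A, A_le, fun v hv => two_smul_mem hv, ?_, fun v hv => norm_dvd hv⟩
  rw [ker_phi, AddSubgroup.index_ker, AddMonoidHom.range_eq_top_of_surjective _ phi_surjective]
  rw [Nat.card_congr AddSubgroup.topEquiv.toEquiv, Nat.card_prod, Nat.card_zmod, card_Z]
  norm_num

end Cfsg.Agent.S5553
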