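import Mathlib
import Cfsg.Statements.S5588
import Cfsg.Agent.Lib.Y555K

set_option autoImplicit false
open Cfsg

namespace Cfsg.Agent.S5588

open Cfsg.Agent.Lib.CoxCert Cfsg.Agent.Lib.Y555Base Cfsg.Agent.Lib.Y555Rho Cfsg.Agent.Lib.Y555K
open Cfsg.Spor Cfsg.Spor.Bimonster

/-- The spider relator of the statement. -/
abbrev spR : FreeGroup Gen := (a * b1 * c1 * a * b2 * c2 * a * b3 * c3) ^ 10

/-- The relators of the statement. -/
abbrev relP : Set (FreeGroup Gen) := coxRelators edges ∪ {r' | r' ∈ [spR]}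

/-- The group of the statement. -/
abbrev PG : Type := PresentedGroup relP

/-- The numbering of the generators. -/
def gen16 : ℕ → Gen
  | 0 => .a | 1 => .b1 | 2 => .c1 | 3 => .d1 | 4 => .e1 | 5 => .b2 | 6 => .c2 | 7 => .d2
  | 8 => .b3 | 9 => .c3 | 10 => .f1 | 11 => .e2 | 12 => .f2 | 13 => .d3 | 14 => .e3 | 15 => .f3
  | _ => .a

/-- The generators by number. -/
noncomputable def g16 (n : ℕ) : PG := PresentedGroup.of (gen16 n)

theorem gen_node (x : Gen) : x ∈ coxNodes edges := by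
  cases x <;> decide

theorem cox_rel (x y : Gen) : ((PresentedGroup.of x : PG) * PresentedGroup.of y) ^ coxLabel edges x y = 1 := by
  have h : (FreeGroup.of x * FreeGroup.of y) ^ coxLabel edges x y ∈ relP :=
    Or.inl ⟨x, gen_node x, y, gen_node y, rfl⟩
  have h2 := (PresentedGroup.mk_eq_one_iff (rels := relP)).mpr (Subgroup.subset_normalClosure h)
  simp only [map_pow, map_mul] at h2
  exact h2

theorem g16_inv (n : ℕ) : g16 n * g16 n = 1 := by
  have := cox_rel (gen16 n) (gen16 n)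
  have h1 : coxLabel edges (gen16 n) (gen16 n) = 1 := by simp [coxLabel]
  rw [h1, pow_one] at this
  exact this

/-- Repetition of a word. -/
def rep (k : ℕ) (w : List ℕ) : List ℕ :=
  match k with
  | 0 => []
  | k + 1 => w ++ rep k w

theorem ev_rep {X : Type*} [Group X] (f : ℕ → X) (k : ℕ) (w : List ℕ) : ev f (rep k w) = (ev f w) ^ k := by
  induction k with
  | zero => simp [rep]
  | succ k ih => rw [rep, ev_append, ih, pow_succ]

/-- The product of a word in the written order. -/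
theorem ev_eq_inv {X : Type*} [Group X] (f : ℕ → X) (hf : ∀ n, f n * f n = 1) (w : List ℕ) :
    ev f w = ((w.map f).prod)⁻¹ := by
  induction w with
  | nil => simp
  | cons a t ih =>
    simp only [ev_cons, ih, List.map_cons, List.prod_cons, mul_inv_rev]
    congr 1
    exact (inv_eq_of_mul_eq_one_left (hf a)).symm

theorem ev_map {X : Type*} [Group X] (f : ℕ → X) (σ : ℕ → ℕ) (w : List ℕ) :
    ev (fun n => f (σ n)) w = ev f (w.map σ) := by
  induction w with
  | nil => rfl
  | cons a t ih => simp only [ev_cons, List.map_cons, ih]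

theorem sp10_rep : sp10 = rep 10 spW := by decide

theorem spider_P : ev g16 sp10 = 1 := by
  have h : spR ∈ relP := Or.inr (by simp)
  have h2 := (PresentedGroup.mk_eq_one_iff (rels := relP)).mpr (Subgroup.subset_normalClosure h)
  have h3 : ev g16 spW = (g16 0 * g16 1 * g16 2 * g16 0 * g16 5 * g16 6 * g16 0 * g16 8 * g16 9)⁻¹ := by
    rw [ev_eq_inv _ g16_inv]
    simp [spW, mul_assoc]
  rw [sp10_rep, ev_rep, h3, inv_pow]
  have h4 : (g16 0 * g16 1 * g16 2 * g16 0 * g16 5 * g16 6 * g16 0 * g16 8 * g16 9) ^ 10 = 1 := by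
    simp only [spR, map_pow, map_mul] at h2
    exact h2
  rw [h4, inv_one]

/-- The repetition of a pair. -/
def rep2 (k g h : ℕ) : List ℕ := rep k [g, h]

theorem ev_rep2 {X : Type*} [Group X] (f : ℕ → X) (k g h : ℕ) : ev f (rep2 k g h) = (f h * f g) ^ k := by
  rw [rep2, ev_rep]
  simp

/-- The eleven letters. -/
def l11 : List ℕ := [0, 1, 2, 3, 4, 5, 6, 7, 8, 9, 10]

theorem mem_l11 {g : ℕ} (hg : g < 11) : g ∈ l11 := by
  interval_cases g <;> decide

/-- The three embeddings of the diagram. -/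
def s0 : ℕ → ℕ := fun n => n
def s1 : ℕ → ℕ := fun n => [0, 5, 6, 7, 11, 8, 9, 13, 1, 2, 12].getD n 0
def s2 : ℕ → ℕ := fun n => [0, 8, 9, 13, 14, 1, 2, 3, 5, 6, 15].getD n 0

theorem cox_s0 : ∀ g ∈ l11, ∀ h ∈ l11, cox5 g h = rep2 (coxLabel edges (gen16 (s0 h)) (gen16 (s0 g))) g h := by
  decide +kernel
theorem cox_s1 : ∀ g ∈ l11, ∀ h ∈ l11, cox5 g h = rep2 (coxLabel edges (gen16 (s1 h)) (gen16 (s1 g))) g h := by
  decide +kernel
theorem cox_s2 : ∀ g ∈ l11, ∀ h ∈ l11, cox5 g h = rep2 (coxLabel edges (gen16 (s2 h)) (gen16 (s2 g))) g h := by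
  decide +kernel

theorem sp_s0 : ev g16 (sp10.map s0) = 1 := by
  have : sp10.map s0 = sp10 := by decide +kernel
  rw [this]
  exact spider_P
theorem sp_s1 : ev g16 (sp10.map s1) = 1 := by
  have : sp10.map s1 = sp10.rotate 3 := by decide +kernel
  rw [this]
  exact ev_rotate _ _ spider_P _
theorem sp_s2 : ev g16 (sp10.map s2) = 1 := by
  have : sp10.map s2 = sp10.rotate 6 := by decide +kernel
  rw [this]
  exact ev_rotate _ _ spider_P _

/-- The map from the group of the smaller diagram. -/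
theorem transfer (σ : ℕ → ℕ)
    (hc : ∀ g ∈ l11, ∀ h ∈ l11, cox5 g h = rep2 (coxLabel edges (gen16 (σ h)) (gen16 (σ g))) g h)
    (hs : ev g16 (sp10.map σ) = 1) :
    g16 (σ 10) = ev g16 (Fw.map σ) ∧ g16 (σ 10) = ev g16 (F2w.map σ) := by
  let F : ℕ → PG := fun n => if n < 11 then g16 (σ n) else 1
  have hlow : ∀ w : List ℕ, (∀ l ∈ w, l < 11) → ev F w = ev g16 (w.map σ) := by
    intro w hw
    rw [← ev_map]
    exact ev_congr w (fun l hl => by simp [F, hw l hl])
  let Φ : K5 →* PG := liftG R5 F (by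
    rintro w ((⟨g, h, hg, hh, rfl⟩ | ⟨n, hn, rfl⟩) | rfl)
    · rw [hc g (mem_l11 hg) h (mem_l11 hh), ev_rep2]
      simp only [F, if_pos hg, if_pos hh]
      exact cox_rel _ _
    · simp only [ev_cons, ev_nil, one_mul, F]
      rw [if_neg (by omega)]
    · rw [hlow _ (by decide)]
      exact hs)
  have hΦ : ∀ n, Φ (g5 n) = F n := fun n => by simp [Φ, g5]
  have hΦw : ∀ w : List ℕ, (∀ l ∈ w, l < 11) → Φ (ev g5 w) = ev g16 (w.map σ) := by
    intro w hw
    rw [map_ev, ← hlow w hw]
    exact ev_congr w (fun l _ => hΦ l)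
  have h10 : Φ (g5 10) = g16 (σ 10) := by rw [hΦ]; simp [F]
  constructor
  · rw [← h10, f_eq, hΦw _ (by decide)]
  · rw [← h10, f_eq2, hΦw _ (by decide)]

theorem Fw_rep : Fw = rep 9 [0, 1, 5, 8, 2, 6, 3] := by decide
theorem F2w_rep : F2w = rep 9 [0, 1, 8, 5, 2, 9, 3] := by decide

/-- The form of a relator. -/
theorem rel_form (x : ℕ) (w L : List ℕ) (U : PG) (h1 : g16 x = ev g16 w) (h2 : w = rep 9 L)
    (h3 : (L.map g16).prod = U) : g16 x * (U ^ 9)⁻¹ = 1 := by
  have h4 : g16 x = (U ^ 9)⁻¹ := by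
    rw [h1, h2, ev_rep, ev_eq_inv _ g16_inv, h3, inv_pow]
  rw [← h4]
  exact g16_inv x

/-- In the group presented by the sixteen involutions of the Y₅₅₅ Coxeter diagram subject only to the Coxeter relations and the single spider relation (a b₁ c₁ a b₂ c₂ a b₃ c₃)^10 = 1, each of the further relators used in the definitions' presentation of the Bimonster (each end node equals the ninth power of the Coxeter element of a sub-diagram of type E₇) already holds. Equivalently, the Y₅₅₅ diagram with the spider relation alone presents the Bimonster. -/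
theorem result :
    ∀ r ∈ Cfsg.Spor.Bimonster.extra,
      (PresentedGroup.mk (Cfsg.Spor.coxRelators Cfsg.Spor.Bimonster.edges ∪ {r' | r' ∈ [(Cfsg.Spor.Bimonster.a * Cfsg.Spor.Bimonster.b1 * Cfsg.Spor.Bimonster.c1 * Cfsg.Spor.Bimonster.a * Cfsg.Spor.Bimonster.b2 * Cfsg.Spor.Bimonster.c2 * Cfsg.Spor.Bimonster.a * Cfsg.Spor.Bimonster.b3 * Cfsg.Spor.Bimonster.c3) ^ 10]}) r) = 1 := by
  obtain ⟨t0, t0'⟩ := transfer s0 cox_s0 sp_s0
  obtain ⟨t1, t1'⟩ := transfer s1 cox_s1 sp_s1
  obtain ⟨t2, t2'⟩ := transfer s2 cox_s2 sp_s2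
  intro r hr
  simp only [extra, List.mem_cons, List.not_mem_nil, or_false] at hr
  rcases hr with rfl | rfl | rfl | rfl | rfl | rfl | rfl
  · have h : spR ∈ relP := Or.inr (by simp)
    exact (PresentedGroup.mk_eq_one_iff (rels := relP)).mpr (Subgroup.subset_normalClosure h)
  · have := rel_form 10 (Fw.map s0) [0, 1, 5, 8, 2, 6, 3] (g16 0 * g16 1 * g16 5 * g16 8 * g16 2 * g16 6 * g16 3) t0 (by decide +kernel) (by simp [mul_assoc])
    simp only [map_mul, map_pow, map_inv]
    exact this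
  · have := rel_form 10 (F2w.map s0) [0, 1, 8, 5, 2, 9, 3] (g16 0 * g16 1 * g16 8 * g16 5 * g16 2 * g16 9 * g16 3) t0' (by decide +kernel) (by simp [mul_assoc])
    simp only [map_mul, map_pow, map_inv]
    exact this
  · have := rel_form 12 (F2w.map s1) [0, 5, 1, 8, 6, 2, 7] (g16 0 * g16 5 * g16 1 * g16 8 * g16 6 * g16 2 * g16 7) t1' (by decide +kernel) (by simp [mul_assoc])
    simp only [map_mul, map_pow, map_inv]
    exact this
  · have := rel_form 12 (Fw.map s1) [0, 5, 8, 1, 6, 9, 7] (g16 0 * g16 5 * g16 8 * g16 1 * g16 6 * g16 9 * g16 7) t1 (by decide +kernel) (by simp [mul_assoc])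
    simp only [map_mul, map_pow, map_inv]
    exact this
  · have := rel_form 15 (Fw.map s2) [0, 8, 1, 5, 9, 2, 13] (g16 0 * g16 8 * g16 1 * g16 5 * g16 9 * g16 2 * g16 13) t2 (by decide +kernel) (by simp [mul_assoc])
    simp only [map_mul, map_pow, map_inv]
    exact this
  · have := rel_form 15 (F2w.map s2) [0, 8, 5, 1, 9, 6, 13] (g16 0 * g16 8 * g16 5 * g16 1 * g16 9 * g16 6 * g16 13) t2' (by decide +kernel) (by simp [mul_assoc])
    simp only [map_mul, map_pow, map_inv]
    exact this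

end Cfsg.Agent.S5588
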