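import Mathlib
import Cfsg.Statements.S5594
import Cfsg.Agent.Lib.Co0Mono
import Cfsg.Agent.Lib.GolayPerm

set_option autoImplicit false
open Cfsg

namespace Cfsg.Agent.S5594

/-- The permutation code of the inversion of the projective line. -/
def piCode : ℕ := 1795248432537898728475572672376535

theorem piCode_isM24 : Cfsg.Agent.Lib.Golay.isM24 piCode = true := by decide +kernel

theorem decode_piCode : Cfsg.Agent.Lib.Golay.decode piCode = projInv := by
  apply Equiv.ext
  intro p
  rw [Cfsg.Agent.Lib.Golay.decode_apply (Cfsg.Agent.Lib.Golay.isM24_valid piCode_isM24)]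
  revert p
  decide +kernel

theorem projInv_mem : projInv ∈ M24 := by
  rw [← decode_piCode]
  exact Cfsg.Agent.Lib.Golay.decode_mem_M24 piCode_isM24

/-- The set of squares. -/
def Q : Finset GolayPt := support₂ (qrWord 0)

theorem Q_mem : Q ∈ Cfsg.Agent.Lib.Leech.codeSets :=
  ⟨qrWord 0, Submodule.subset_span (Or.inl ⟨0, rfl⟩), rfl⟩

theorem Q_flip : ∀ i : GolayPt, (i ∈ Q ↔ projInv i ∉ Q) := by decide +kernel

theorem projInv_projInv (i : GolayPt) : projInv (projInv i) = i := projInv.left_inv i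

open Cfsg.Agent.Lib.Co0Mono in
/-- The element of the automorphism group whose square is the negation. -/
def g₀ : Co0 := monoCo0 Q_mem projInv_mem

theorem g₀_sq : g₀ * g₀ = Cfsg.Agent.Lib.Co0Mono.negCo0 := by
  apply Subtype.ext
  ext v i
  show Cfsg.Agent.Lib.Co0Mono.mono Q projInv (Cfsg.Agent.Lib.Co0Mono.mono Q projInv (v : GolayPt → ℤ)) i = - (v : GolayPt → ℤ) i
  simp only [Cfsg.Agent.Lib.Co0Mono.mono, projInv_projInv]
  have := Q_flip i
  by_cases h : i ∈ Q
  · have h2 : projInv i ∉ Q := this.1 h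
    simp [h, h2]
  · have h2 : projInv i ∈ Q := by
      by_contra h3
      exact h (this.2 h3)
    simp [h, h2]

/-- A nonzero vector of the lattice. -/
def e₀ : GolayPt → ℤ := fun i => if i = none then 8 else 0

theorem e₀_mem : e₀ ∈ leechLattice := by
  rw [Cfsg.Agent.Lib.Leech.mem_leechLattice_iff]
  refine ⟨0, ∅, Cfsg.Agent.Lib.Leech.empty_mem_codeSets, fun i => ?_, ?_⟩
  · simp only [e₀, Cfsg.Agent.Lib.Leech.br, Finset.notMem_empty, if_false, Int.ModEq]
    split_ifs <;> norm_num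
  · have : ∑ i, e₀ i = 8 := by
      simp [e₀]
    rw [this]
    decide

theorem negCo0_ne_one : (Cfsg.Agent.Lib.Co0Mono.negCo0 : Co0) ≠ 1 := by
  intro h
  have h1 : ((Cfsg.Agent.Lib.Co0Mono.negCo0 : Co0) : Equiv.Perm leechLattice) ⟨e₀, e₀_mem⟩ = ⟨e₀, e₀_mem⟩ := by
    rw [h]; rfl
  have h2 := congrArg (fun v : leechLattice => (v : GolayPt → ℤ) none) h1
  simp only [Cfsg.Agent.Lib.Co0Mono.negCo0_apply] at h2
  have h3 : ((-(⟨e₀, e₀_mem⟩ : leechLattice) : leechLattice) : GolayPt → ℤ) none = - e₀ none := rfl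
  rw [h3] at h2
  simp [e₀] at h2

/-- A group element whose square has order two is not a product from a complement of the group generated by the square. -/
theorem no_complement {C : Type*} [Group C] (g : C) (hg : (g * g) * (g * g) = 1) (hne : g * g ≠ 1)
    (K : Subgroup C) : ¬ (Subgroup.zpowers (g * g)).IsComplement' K := by
  intro hK
  -- write `g = a * k`
  have hex : ∃ a ∈ Subgroup.zpowers (g * g), ∃ k ∈ K, a * k = g := by
    obtain ⟨⟨⟨a, ha⟩, ⟨k, hk⟩⟩, hak, -⟩ := Subgroup.IsComplement.existsUnique hK g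
    exact ⟨a, ha, k, hk, hak⟩
  obtain ⟨a, ha, k, hk, hak⟩ := hex
  obtain ⟨i, rfl⟩ := Subgroup.mem_zpowers_iff.mp ha
  -- the square of `a` is trivial
  have hk' : k = ((g * g) ^ i)⁻¹ * g := eq_inv_mul_of_mul_eq hak
  have hcomm : Commute ((g * g) ^ i) g := by
    apply Commute.zpow_left
    exact (Commute.refl g).mul_left (Commute.refl g)
  have hkg : k * k = ((g * g) ^ i)⁻¹ * ((g * g) ^ i)⁻¹ * (g * g) := by
    rw [hk']
    have h3 : Commute (((g * g) ^ i)⁻¹) g := hcomm.inv_left
    calc ((g * g) ^ i)⁻¹ * g * (((g * g) ^ i)⁻¹ * g)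
        = ((g * g) ^ i)⁻¹ * (g * ((g * g) ^ i)⁻¹) * g := by group
      _ = ((g * g) ^ i)⁻¹ * (((g * g) ^ i)⁻¹ * g) * g := by rw [h3.eq]
      _ = _ := by group
  have hsq : ((g * g) ^ i)⁻¹ * ((g * g) ^ i)⁻¹ = 1 := by
    have h4 : ((g * g) ^ i) * ((g * g) ^ i) = 1 := by
      rw [← zpow_add, ← two_mul, zpow_mul, zpow_two, hg, one_zpow]
    rw [← mul_inv_rev, h4, inv_one]
  rw [hsq, one_mul] at hkg
  have hmem : g * g ∈ K := by
    rw [← hkg]
    exact K.mul_mem hk hk
  have hdisj := hK.disjoint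
  have h5 : g * g ∈ Subgroup.zpowers (g * g) ⊓ K := ⟨Subgroup.mem_zpowers _, hmem⟩
  rw [hdisj.eq_bot, Subgroup.mem_bot] at h5
  exact hne h5

/-- The automorphism group of the Leech lattice contains the negation map, and the subgroup of order 2 it generates has no complement: the automorphism group is a non-split extension of its quotient by that subgroup (it is not the direct product of a group of order 2 with the first Conway group). -/
theorem result :
    ∃ n : ↥Cfsg.Co0, (∀ v : ↥Cfsg.leechLattice, ((n • v : ↥Cfsg.leechLattice) : Cfsg.GolayPt → ℤ) = -(v : Cfsg.GolayPt → ℤ)) ∧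
    ∀ K : Subgroup ↥Cfsg.Co0, ¬ (Subgroup.zpowers n).IsComplement' K := by
  refine ⟨Cfsg.Agent.Lib.Co0Mono.negCo0, fun v => rfl, fun K hK => ?_⟩
  have h1 : (g₀ * g₀) * (g₀ * g₀) = 1 := by
    rw [g₀_sq]
    apply Subtype.ext
    ext v i
    show (- (- (v : GolayPt → ℤ))) i = (v : GolayPt → ℤ) i
    rw [neg_neg]
  have h2 : g₀ * g₀ ≠ 1 := by
    rw [g₀_sq]
    exact negCo0_ne_one
  rw [← g₀_sq] at hK
  exact no_complement g₀ h1 h2 K hK

end Cfsg.Agent.S5594
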