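import Mathlib
import Cfsg.Statements.S5599
import Cfsg.Agent.Lib.GolayTransport

set_option autoImplicit false
open Cfsg

open scoped Pointwise

namespace Cfsg.Agent.S5599
open Finset Cfsg.Agent.Lib.Golay

def X22 : List ℕ := [983059561210413999718143853908662304,983414986309725625349248477362063776,972362386286786380836966929462835552,974353617404058596083807352028531904,979012527453962348626837820319113280,968878239529639312854576141790913184,969998681150510943479118724090838176,980617334576615920553390885045834048,960874962315056447256269522532357696,974178165495837196072599120796467776,972919355001944882575281399512945184,961968781772212596391877626679728416,957581324931706780225253818530877664,964861060160477596732448554567091776,959500127384331679143694701919689312,969180333109804909621003325059346592,959820193251456443811071425066406560,976931991918848065682022961669265696,970088137056815926634123013161956480,957152359476425465477944439591832992,980913748097927735979636304861712640,984773934353286564660242071186541792]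

theorem X22_ok : X22.all (fun c => isM24 c && Nat.beq (ap c 23) 23 && Nat.beq (ap c 0) 0) = true := by decide +kernel

theorem X22_cover : idxL.all (fun p => Nat.beq p 23 || Nat.beq p 0 ||
    X22.any (fun c => Nat.beq (ap c p) p &&
      idxL.all (fun q => !(Nat.beq (ap c q) q) || Nat.beq q 23 || Nat.beq q 0 || Nat.beq q p))) = true := by
  decide +kernel

theorem pt23 : pt 23 = none := rfl
theorem pt0 : pt 0 = some 0 := by decide

theorem mem_M22 {x : Equiv.Perm GolayPt} :
    x ∈ Cfsg.Spor.M22 ↔ x ∈ M24 ∧ x none = none ∧ x (some 0) = some 0 := by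
  simp only [Cfsg.Spor.M22, Cfsg.Spor.M23, Subgroup.mem_inf, MulAction.mem_stabilizer_iff, Equiv.Perm.smul_def]
  tauto

theorem exists_x {p : GolayPt} (h1 : p ≠ none) (h2 : p ≠ some 0) :
    ∃ x ∈ Cfsg.Spor.M22, x p = p ∧ ∀ q, x q = q → q = none ∨ q = some 0 ∨ q = p := by
  have hcov := X22_cover
  simp only [List.all_eq_true, Bool.or_eq_true, List.any_eq_true, Bool.and_eq_true] at hcov
  have hp : idx p ∈ idxL := mem_idxL.2 (idx_lt p)
  rcases hcov (idx p) hp with (h | h) | ⟨c, hc, h3, h4⟩
  · exfalso
    apply h1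
    rw [← pt_idx p, Nat.eq_of_beq_eq_true h]; rfl
  · exfalso
    apply h2
    rw [← pt_idx p, Nat.eq_of_beq_eq_true h]; exact pt0
  · have hok := List.all_eq_true.1 X22_ok c hc
    simp only [Bool.and_eq_true] at hok
    have hv := isM24_valid hok.1.1
    refine ⟨decode c, mem_M22.2 ⟨decode_mem_M24 hok.1.1, ?_, ?_⟩, ?_, ?_⟩
    · rw [← pt23, decode_pt hv (by norm_num), Nat.eq_of_beq_eq_true hok.1.2]
    · rw [← pt0, decode_pt hv (by norm_num), Nat.eq_of_beq_eq_true hok.2]
    · rw [decode_apply hv, Nat.eq_of_beq_eq_true h3, pt_idx]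
    · intro q hq
      have h5 := h4 (idx q) (mem_idxL.2 (idx_lt q))
      have h6 : ap c (idx q) = idx q := by
        have := congrArg idx hq
        rwa [idx_decode hv] at this
      rw [h6] at h5
      have h7 : (Nat.beq (idx q) (idx q)) = true := by simp
      rw [h7] at h5
      simp only [Bool.not_true, Bool.false_eq_true, false_or] at h5
      rcases h5 with (h8 | h8) | h8
      · left
        rw [← pt_idx q, Nat.eq_of_beq_eq_true h8]; rfl
      · right; left
        rw [← pt_idx q, Nat.eq_of_beq_eq_true h8]; exact pt0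
      · right; right
        exact idx_injective (Nat.eq_of_beq_eq_true h8)

/-- an octad containing the extra point and not the residue 0 -/
def o1 : ℕ := 8394986

theorem o1_mem : o1 ∈ octL := by decide +kernel

theorem no_transposition {c : Equiv.Perm GolayPt} (hc : c ∈ M24) (h1 : c none = some 0)
    (hfix : ∀ p, p ≠ none → p ≠ some 0 → c p = p) : False := by
  have ho := ofMask_mem_octads o1_mem
  have hcard : (ofMask o1 \ {none}).card = 7 := by
    have h2 : none ∈ ofMask o1 := by
      rw [← pt23, mem_ofMask, idx_pt (by norm_num)]; decide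
    rw [Finset.sdiff_singleton_eq_erase, card_erase_of_mem h2, card_ofMask]
    decide +kernel
  obtain ⟨P, hP, hPc⟩ := Finset.exists_subset_card_eq (s := ofMask o1 \ {none}) (n := 5) (by omega)
  have h0 : some 0 ∉ ofMask o1 := by
    rw [← pt0, mem_ofMask, idx_pt (by norm_num)]; decide
  have hinv : c • ofMask o1 = ofMask o1 := by
    apply smul_octad_eq_of_fix hc hPc ho (hP.trans sdiff_subset)
    intro p hp
    have hp1 := hP hp
    rw [mem_sdiff, mem_singleton] at hp1
    apply hfix p hp1.2
    rintro rfl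
    exact h0 hp1.1
  have h2 : none ∈ ofMask o1 := by
    rw [← pt23, mem_ofMask, idx_pt (by norm_num)]; decide
  have h3 := (mem_ofMask_smul_iff hinv none).2 h2
  rw [h1] at h3
  exact h0 h3

theorem result (g : Equiv.Perm Cfsg.GolayPt) (hg : g ∈ Cfsg.M24) (h₁ : g none = some 0) (h₂ : g (some 0) = none) : Cfsg.Spor.M22.relIndex (Cfsg.M24 ⊓ MulAction.stabilizer (Equiv.Perm Cfsg.GolayPt) ({none, some 0} : Finset Cfsg.GolayPt)) = 2 ∧ (∀ x ∈ Cfsg.Spor.M22, g * x * g⁻¹ ∈ Cfsg.Spor.M22) ∧ ¬ ∃ h ∈ Cfsg.Spor.M22, ∀ x ∈ Cfsg.Spor.M22, g * x * g⁻¹ = h * x * h⁻¹ := by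
  have hginv0 : g⁻¹ none = some 0 := by rw [Equiv.Perm.inv_eq_iff_eq, h₂]
  have hginv1 : g⁻¹ (some 0) = none := by rw [Equiv.Perm.inv_eq_iff_eq, h₁]
  have hnorm : ∀ x ∈ Cfsg.Spor.M22, g * x * g⁻¹ ∈ Cfsg.Spor.M22 := by
    intro x hx
    obtain ⟨hx1, hx2, hx3⟩ := mem_M22.1 hx
    refine mem_M22.2 ⟨M24.mul_mem (M24.mul_mem hg hx1) (M24.inv_mem hg), ?_, ?_⟩
    · simp only [Equiv.Perm.mul_apply, hginv0, hx3, h₂]
    · simp only [Equiv.Perm.mul_apply, hginv1, hx2, h₁]
  refine ⟨?_, hnorm, ?_⟩
  · -- index two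
    set K := Cfsg.M24 ⊓ MulAction.stabilizer (Equiv.Perm Cfsg.GolayPt) ({none, some 0} : Finset Cfsg.GolayPt) with hK
    have hstab : ∀ b ∈ K, (b none = none ∧ b (some 0) = some 0) ∨ (b none = some 0 ∧ b (some 0) = none) := by
      intro b hb
      have hb2 : b • ({none, some 0} : Finset Cfsg.GolayPt) = {none, some 0} := hb.2
      have h1 := (mem_ofMask_smul_iff hb2 none).2 (by simp)
      have h2 := (mem_ofMask_smul_iff hb2 (some 0)).2 (by simp)
      simp only [mem_insert, mem_singleton] at h1 h2
      rcases h1 with h1 | h1 <;> rcases h2 with h2 | h2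
      · exact absurd (b.injective (h1.trans h2.symm)) (by simp)
      · exact Or.inl ⟨h1, h2⟩
      · exact Or.inr ⟨h1, h2⟩
      · exact absurd (b.injective (h1.trans h2.symm)) (by simp)
    have hgK : g ∈ K := by
      refine ⟨hg, ?_⟩
      show g • ({none, some 0} : Finset Cfsg.GolayPt) = {none, some 0}
      rw [Finset.smul_finset_insert, Finset.smul_finset_singleton]
      simp only [Equiv.Perm.smul_def, h₁, h₂]
      ext x
      simp only [mem_insert, mem_singleton]
      tauto
    show (Cfsg.Spor.M22.subgroupOf K).index = 2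
    rw [Subgroup.index_eq_two_iff]
    refine ⟨⟨g, hgK⟩, ?_⟩
    rintro ⟨b, hb⟩
    simp only [Subgroup.mem_subgroupOf, Subgroup.coe_mul]
    rcases hstab b hb with ⟨h1, h2⟩ | ⟨h1, h2⟩
    · refine Or.inr ⟨mem_M22.2 ⟨hb.1, h1, h2⟩, fun hc => ?_⟩
      obtain ⟨-, h3, -⟩ := mem_M22.1 hc
      rw [Equiv.Perm.mul_apply, h₁, h2] at h3
      simp at h3
    · refine Or.inl ⟨mem_M22.2 ⟨M24.mul_mem hb.1 hg, ?_, ?_⟩, fun hc => ?_⟩
      · rw [Equiv.Perm.mul_apply, h₁, h2]
      · rw [Equiv.Perm.mul_apply, h₂, h1]
      · obtain ⟨-, h3, -⟩ := mem_M22.1 hc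
        rw [h1] at h3
        simp at h3
  · rintro ⟨h, hh, hconj⟩
    obtain ⟨hh1, hh2, hh3⟩ := mem_M22.1 hh
    have hh2' : h⁻¹ none = none := by rw [Equiv.Perm.inv_eq_iff_eq, hh2]
    have hh3' : h⁻¹ (some 0) = some 0 := by rw [Equiv.Perm.inv_eq_iff_eq, hh3]
    let c := h⁻¹ * g
    have hc : c ∈ M24 := M24.mul_mem (M24.inv_mem hh1) hg
    have hc1 : c none = some 0 := by
      simp only [c, Equiv.Perm.mul_apply, h₁, hh3']
    have hc2 : c (some 0) = none := by
      simp only [c, Equiv.Perm.mul_apply, h₂, hh2']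
    have hcomm : ∀ x ∈ Cfsg.Spor.M22, c * x = x * c := by
      intro x hx
      have := hconj x hx
      have e : g * x = h * x * h⁻¹ * g := by
        rw [← this]; group
      simp only [c]
      calc h⁻¹ * g * x = h⁻¹ * (g * x) := by group
        _ = h⁻¹ * (h * x * h⁻¹ * g) := by rw [e]
        _ = x * (h⁻¹ * g) := by group
    apply no_transposition hc hc1
    intro p hp1 hp2
    obtain ⟨x, hx, hxp, hxq⟩ := exists_x hp1 hp2
    have h3 : x (c p) = c p := by
      have := congrArg (fun f : Equiv.Perm GolayPt => f p) (hcomm x hx)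
      simp only [Equiv.Perm.mul_apply, hxp] at this
      exact this.symm
    rcases hxq _ h3 with h4 | h4 | h4
    · exfalso
      apply hp2
      apply c.injective
      rw [h4, hc2]
    · exfalso
      apply hp1
      apply c.injective
      rw [h4, hc1]
    · exact h4

end Cfsg.Agent.S5599
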