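import Mathlib
import Cfsg.Statements.S5600
import Cfsg.Agent.Lib.GolayTransport

set_option autoImplicit false
open Cfsg

open scoped Pointwise

namespace Cfsg.Agent.S5600
open Finset Cfsg.Agent.Lib.Golay

/-- the restriction homomorphism -/
noncomputable def restrictHom (E : Finset GolayPt) : ↥(MulAction.stabilizer Cfsg.M24 E) →* Equiv.Perm ↥E where
  toFun g := Equiv.Perm.subtypePerm ((g : ↥Cfsg.M24) : Equiv.Perm GolayPt) (by
    intro x
    have h : ((g : ↥Cfsg.M24) : Equiv.Perm GolayPt) • E = E := g.2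
    have := mem_ofMask_smul_iff h x
    exact this)
  map_one' := by
    ext x; rfl
  map_mul' := by
    intro a b
    ext x; rfl

theorem result (E : Finset Cfsg.GolayPt) (hE : E.card = 6) : (∀ σ : Equiv.Perm ↥E, ∃ g ∈ Cfsg.M24, ∀ p : ↥E, g p = σ p) ∧ ((∃ o ∈ Cfsg.octads, E ⊆ o) → Nat.card {g : Equiv.Perm Cfsg.GolayPt // g ∈ Cfsg.M24 ∧ ∀ p ∈ E, g p = p} = 16) ∧ ((¬ ∃ o ∈ Cfsg.octads, E ⊆ o) → Nat.card {g : Equiv.Perm Cfsg.GolayPt // g ∈ Cfsg.M24 ∧ ∀ p ∈ E, g p = p} = 3 ∧ Nat.card ↥(MulAction.stabilizer Cfsg.M24 E) = 2160) := by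
  refine ⟨extend_six hE, fun h => card_Fix_six_in hE h, fun h => ⟨card_Fix_six_out hE h, ?_⟩⟩
  have hsurj : Function.Surjective (restrictHom E) := by
    intro σ
    obtain ⟨g, hg, hgσ⟩ := extend_six hE σ
    have hgE : g • E = E := by
      apply Finset.eq_of_subset_of_card_le
      · intro x hx
        obtain ⟨y, hy, rfl⟩ := Finset.mem_smul_finset.1 hx
        have := hgσ ⟨y, hy⟩
        rw [Equiv.Perm.smul_def, this]
        exact (σ ⟨y, hy⟩).2
      · rw [Finset.card_smul_finset]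
    refine ⟨⟨⟨g, hg⟩, hgE⟩, ?_⟩
    apply Equiv.ext
    intro x
    apply Subtype.ext
    exact hgσ x
  have hcardker : Nat.card (restrictHom E).ker = 3 := by
    rw [← card_Fix_six_out hE h]
    apply Nat.card_congr
    refine
      { toFun := fun g => ⟨g.1.1.1, g.1.1.2, fun p hp => ?_⟩
        invFun := fun g => ⟨⟨⟨g.1, g.2.1⟩, ?_⟩, ?_⟩
        left_inv := fun g => rfl
        right_inv := fun g => rfl }
    · have h1 : restrictHom E g.1 = 1 := g.2
      have h2 := congrArg (fun s : Equiv.Perm ↥E => ((s ⟨p, hp⟩ : ↥E) : GolayPt)) h1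
      exact h2
    · show (g.1 : Equiv.Perm GolayPt) • E = E
      apply Finset.eq_of_subset_of_card_le
      · intro x hx
        obtain ⟨y, hy, rfl⟩ := Finset.mem_smul_finset.1 hx
        rw [Equiv.Perm.smul_def, g.2.2 y hy]
        exact hy
      · rw [Finset.card_smul_finset]
    · show restrictHom E _ = 1
      apply Equiv.ext
      intro x
      apply Subtype.ext
      exact g.2.2 x x.2
  have h1 := Subgroup.card_mul_index (restrictHom E).ker
  rw [Subgroup.index_ker, MonoidHom.range_eq_top.2 hsurj, hcardker] at h1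
  rw [← h1, Nat.card_congr (Subgroup.topEquiv.toEquiv), Nat.card_eq_fintype_card, Fintype.card_perm, Fintype.card_coe, hE]
  decide

end Cfsg.Agent.S5600
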