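import Mathlib
import Cfsg.Agent.Lib.GolayClasses
import Cfsg.Statements.S5601

set_option autoImplicit false
open scoped Pointwise
open Cfsg

namespace Cfsg.Agent.S5601

open Cfsg.Agent.Lib.Golay

/-- fixed points of a subgroup generated by an element -/
theorem fix_zpowers (x : ↥Cfsg.M24) :
    {p : Cfsg.GolayPt | ∀ y ∈ Subgroup.zpowers x, ((y : ↥Cfsg.M24) : Equiv.Perm Cfsg.GolayPt) p = p}.ncard =
      (Finset.univ.filter fun p => (x : Equiv.Perm Cfsg.GolayPt) p = p).card := by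
  have : {p : Cfsg.GolayPt | ∀ y ∈ Subgroup.zpowers x, ((y : ↥Cfsg.M24) : Equiv.Perm Cfsg.GolayPt) p = p} =
      ((Finset.univ.filter fun p => (x : Equiv.Perm Cfsg.GolayPt) p = p : Finset _) : Set _) := by
    ext p
    simp only [Set.mem_ofPred_eq, Finset.coe_filter, Finset.mem_univ, true_and]
    constructor
    · intro h
      exact h x (Subgroup.mem_zpowers x)
    · rintro h _ ⟨n, rfl⟩
      show (((x : Equiv.Perm Cfsg.GolayPt) ^ n : Equiv.Perm Cfsg.GolayPt)) p = p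
      exact (Equiv.Perm.zpow_apply_eq_self_of_apply_eq_self h n)
  rw [this, Set.ncard_coe_finset]

/-- a subgroup of order three is generated by an element of order three -/
theorem exists_gen {X : Subgroup ↥Cfsg.M24} (hX : Nat.card X = 3) :
    ∃ x : ↥Cfsg.M24, X = Subgroup.zpowers x ∧ (x : Equiv.Perm Cfsg.GolayPt) ^ 3 = 1 ∧
      (x : Equiv.Perm Cfsg.GolayPt) ≠ 1 := by
  have : Finite X := Nat.finite_of_card_ne_zero (by omega)
  have : Nontrivial X := Finite.one_lt_card_iff_nontrivial.1 (by omega)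
  obtain ⟨y, hy, hne⟩ := X.exists_ne_one_of_nontrivial
  have hle : Subgroup.zpowers y ≤ X := by
    rw [Subgroup.zpowers_le]; exact hy
  have hd : orderOf y ∣ 3 := hX ▸ Subgroup.orderOf_dvd_natCard X hy
  have hord : orderOf y = 3 := by
    rcases (Nat.dvd_prime (by norm_num)).1 hd with h | h
    · exact absurd (orderOf_eq_one_iff.1 h) hne
    · exact h
  refine ⟨y, (Subgroup.eq_of_le_of_card_ge hle (by rw [Nat.card_zpowers, hord, hX])).symm, ?_, ?_⟩
  · have : y ^ 3 = 1 := by rw [← hord]; exact pow_orderOf_eq_one y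
    exact congrArg Subtype.val this
  · intro h
    exact hne (Subtype.ext h)

theorem conj_zpowers (K x R : ↥Cfsg.M24) (e : x = K * R * K⁻¹) :
    MulAut.conj K • Subgroup.zpowers R = Subgroup.zpowers x := by
  have : MulAut.conj K • Subgroup.zpowers R = (Subgroup.zpowers R).map (MulAut.conj K).toMonoidHom := rfl
  rw [this, MonoidHom.map_zpowers, e]
  rfl

/-- representatives -/
noncomputable def R3A : ↥Cfsg.M24 := ⟨decode X3A, decode_mem_M24 X3A_isM24⟩
noncomputable def R3B : ↥Cfsg.M24 := ⟨decode X3B, decode_mem_M24 X3B_isM24⟩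

theorem key6 {X : Subgroup ↥Cfsg.M24} (hX : Nat.card X = 3)
    (hf : {p : Cfsg.GolayPt | ∀ x ∈ X, ((x : ↥Cfsg.M24) : Equiv.Perm Cfsg.GolayPt) p = p}.ncard = 6) :
    ∃ k : ↥Cfsg.M24, MulAut.conj k • Subgroup.zpowers R3A = X := by
  obtain ⟨x, rfl, h3, h1⟩ := exists_gen hX
  rw [fix_zpowers] at hf
  obtain ⟨k, hk, e | e⟩ := class3A x.2 h3 h1 (by omega)
  · exact ⟨⟨k, hk⟩, conj_zpowers _ _ _ (Subtype.ext e)⟩
  · refine ⟨⟨k, hk⟩, ?_⟩
    rw [← Subgroup.zpowers_inv (g := R3A)]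
    exact conj_zpowers _ _ _ (Subtype.ext e)

theorem key0 {X : Subgroup ↥Cfsg.M24} (hX : Nat.card X = 3)
    (hf : {p : Cfsg.GolayPt | ∀ x ∈ X, ((x : ↥Cfsg.M24) : Equiv.Perm Cfsg.GolayPt) p = p}.ncard = 0) :
    ∃ k : ↥Cfsg.M24, MulAut.conj k • Subgroup.zpowers R3B = X := by
  obtain ⟨x, rfl, h3, h1⟩ := exists_gen hX
  rw [fix_zpowers] at hf
  have h0 : ∀ p, (x : Equiv.Perm Cfsg.GolayPt) p ≠ p := by
    intro p hp
    have : p ∈ (Finset.univ.filter fun p => (x : Equiv.Perm Cfsg.GolayPt) p = p) := by simp [hp]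
    rw [Finset.card_eq_zero.1 hf] at this
    simp at this
  obtain ⟨k, hk, e⟩ := class3B x.2 h3 h0
  exact ⟨⟨k, hk⟩, conj_zpowers _ _ _ (Subtype.ext e)⟩

theorem pow3 {c : ℕ} (hc : isM24 c = true) (h : ∀ i ∈ idxL, ap c (ap c (ap c i)) = i) : decode c ^ 3 = 1 := by
  have hr := repBy_decode (isM24_valid hc)
  have : decode c ^ 3 = decode c * (decode c * decode c) := by
    rw [pow_succ, pow_two, mul_assoc]
  rw [this]
  apply eq_of_repBy (hr.mul (hr.mul hr)) (f' := id) (fun p => rfl)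
  intro i hi
  exact h i (mem_idxL.2 hi)

theorem R3A_order : orderOf R3A = 3 := by
  have : Fact (Nat.Prime 3) := ⟨by norm_num⟩
  apply orderOf_eq_prime
  · apply Subtype.ext
    exact pow3 X3A_isM24 (by decide +kernel)
  · intro h
    have h2 : decode X3A = 1 := congrArg Subtype.val h
    have := X3A_fix
    rw [h2] at this
    simp [card_pt] at this

theorem R3B_order : orderOf R3B = 3 := by
  have : Fact (Nat.Prime 3) := ⟨by norm_num⟩
  apply orderOf_eq_prime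
  · apply Subtype.ext
    exact pow3 X3B_isM24 (by decide +kernel)
  · intro h
    have h2 : decode X3B = 1 := congrArg Subtype.val h
    have := X3B_fix
    rw [h2] at this
    simp [card_pt] at this

/-- The group of the length-24 code has exactly two conjugacy classes of subgroups of order 3: a subgroup of order 3 fixes either exactly 6 of the 24 points or none of them, both cases occur, and two subgroups of order 3 with the same number of fixed points are conjugate. -/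
theorem result : (∀ X : Subgroup ↥Cfsg.M24, Nat.card X = 3 → {p : Cfsg.GolayPt | ∀ x ∈ X, ((x : ↥Cfsg.M24) : Equiv.Perm Cfsg.GolayPt) p = p}.ncard = 6 ∨ {p : Cfsg.GolayPt | ∀ x ∈ X, ((x : ↥Cfsg.M24) : Equiv.Perm Cfsg.GolayPt) p = p}.ncard = 0) ∧ (∃ X : Subgroup ↥Cfsg.M24, Nat.card X = 3 ∧ {p : Cfsg.GolayPt | ∀ x ∈ X, ((x : ↥Cfsg.M24) : Equiv.Perm Cfsg.GolayPt) p = p}.ncard = 6) ∧ (∃ X : Subgroup ↥Cfsg.M24, Nat.card X = 3 ∧ {p : Cfsg.GolayPt | ∀ x ∈ X, ((x : ↥Cfsg.M24) : Equiv.Perm Cfsg.GolayPt) p = p}.ncard = 0) ∧ ∀ X Y : Subgroup ↥Cfsg.M24, Nat.card X = 3 → Nat.card Y = 3 → {p : Cfsg.GolayPt | ∀ x ∈ X, ((x : ↥Cfsg.M24) : Equiv.Perm Cfsg.GolayPt) p = p}.ncard = {p : Cfsg.GolayPt | ∀ x ∈ Y, ((x : ↥Cfsg.M24) : Equiv.Perm Cfsg.GolayPt) p = p}.ncard → ∃ k : ↥Cfsg.M24, MulAut.conj k • X = Y := by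
  have h60 : ∀ X : Subgroup ↥Cfsg.M24, Nat.card X = 3 → {p : Cfsg.GolayPt | ∀ x ∈ X, ((x : ↥Cfsg.M24) : Equiv.Perm Cfsg.GolayPt) p = p}.ncard = 6 ∨ {p : Cfsg.GolayPt | ∀ x ∈ X, ((x : ↥Cfsg.M24) : Equiv.Perm Cfsg.GolayPt) p = p}.ncard = 0 := by
    intro X hX
    obtain ⟨x, rfl, h3, h1⟩ := exists_gen hX
    rw [fix_zpowers]
    exact order3_fix x.2 h3 h1
  refine ⟨h60, ⟨Subgroup.zpowers R3A, by rw [Nat.card_zpowers, R3A_order], ?_⟩,
    ⟨Subgroup.zpowers R3B, by rw [Nat.card_zpowers, R3B_order], ?_⟩, ?_⟩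
  · rw [fix_zpowers]; exact X3A_fix
  · rw [fix_zpowers]; exact X3B_fix
  · intro X Y hX hY he
    have aux : ∀ Z : Subgroup ↥Cfsg.M24, (∃ k : ↥Cfsg.M24, MulAut.conj k • Z = X) → (∃ k : ↥Cfsg.M24, MulAut.conj k • Z = Y) →
        ∃ k : ↥Cfsg.M24, MulAut.conj k • X = Y := by
      rintro Z ⟨k1, rfl⟩ ⟨k2, rfl⟩
      refine ⟨k2 * k1⁻¹, ?_⟩
      rw [smul_smul, ← map_mul]
      congr 2
      group
    rcases h60 X hX with h | h
    · exact aux _ (key6 hX h) (key6 hY (he ▸ h))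
    · exact aux _ (key0 hX h) (key0 hY (he ▸ h))

end Cfsg.Agent.S5601
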