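import Mathlib
import Cfsg.Agent.Lib.GolayClasses
import Cfsg.Statements.S5602
-- import your own Cfsg.Agent.* helpers here

set_option autoImplicit false
open scoped Pointwise
open Cfsg

namespace Cfsg.Agent.S5602

/-- An element of order 3 of the group of the length-24 code having exactly 6 fixed points maps to themselves exactly 21 octads, exactly 15 trios, exactly 16 sextets and exactly 20 dodecads. -/
theorem result (g : Equiv.Perm Cfsg.GolayPt) (hg : g ∈ Cfsg.M24) (h₃ : orderOf g = 3) (h₆ : (Finset.univ.filter fun p => g p = p).card = 6) : {o : Finset Cfsg.GolayPt | o ∈ Cfsg.octads ∧ g • o = o}.ncard = 21 ∧ {T : Finset (Finset Cfsg.GolayPt) | T ∈ Cfsg.trios ∧ g • T = T}.ncard = 15 ∧ {S : Finset (Finset Cfsg.GolayPt) | S ∈ Cfsg.sextets ∧ g • S = S}.ncard = 16 ∧ {d : Finset Cfsg.GolayPt | d ∈ Cfsg.dodecads ∧ g • d = d}.ncard = 20 := by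
  open Cfsg.Agent.Lib.Golay in
  have h3 : g ^ 3 = 1 := by rw [← h₃]; exact pow_orderOf_eq_one g
  have h1 : g ≠ 1 := by
    intro h
    rw [h, orderOf_one] at h₃
    omega
  have hv := isM24_valid X3A_isM24
  have key : ∀ {X : Type} [MulAction (Equiv.Perm Cfsg.GolayPt) X] (A : Set X)
      (_ : ∀ g ∈ Cfsg.M24, ∀ x ∈ A, g • x ∈ A),
      {x | x ∈ A ∧ g • x = x}.ncard = {x | x ∈ A ∧ decode X3A • x = x}.ncard := by
    intro X _ A hA
    obtain ⟨k, hk, e | e⟩ := class3A hg h3 h1 (by omega)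
    · rw [e]; exact ncard_fix_conj A hA hk
    · rw [e, ncard_fix_conj A hA hk, ncard_fix_inv]
  refine ⟨?_, ?_, ?_, ?_⟩
  · rw [key _ octads_inv, ncard_octads_code hv]; decide +kernel
  · rw [key _ trios_inv, ncard_trios_code hv]; decide +kernel
  · rw [key _ sextets_inv, ncard_sextets_code hv]; decide +kernel
  · rw [key _ dodecads_inv, ncard_dodecads_code hv]; decide +kernel

end Cfsg.Agent.S5602
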