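import Mathlib
import Cfsg.Agent.Lib.GolaySubChain
import Cfsg.Statements.S5604

set_option autoImplicit false
set_option maxRecDepth 100000
open scoped Pointwise
open Cfsg

namespace Cfsg.Agent.S5604
open Cfsg.Agent.Lib.Golay Finset

def Sig : ℕ := 958798117965418237790603320641424416

def CW1 : List ℕ := [965288482694216940235287126760427521,14654321465844470179036714455188193,67641095341513329835606380772956896]

def CW2 : List ℕ := [977679576482160237583761145024567328,965288482694216940235287126760427521]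

def CW4 : List ℕ := [984818244535754528103549039458486304,958798117965418237790603320641424416,975638626453909173883417004317517856,968830706877006667297563293650564128,959544957771279099217032301198523424,972913765953960197343202653875422240,977679576482160237583761145024567328]

def W5 : List ℕ := [984818244535754528103549039458486304,968613938911358100717867658200385568,978241145575134347961306523904739360]

def Uex : List ℕ := [980538597604666641427584009798748192,979383848149202763275852014489733152,971586097767224052852166069785921568]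

def L4 : List ℕ := [2,3,10,13,15,17,22]

def L5 : List ℕ := [3,13,15]

def Ex : List ℕ := [10,17,22]

def T0L : List ℕ := [283537,4367374,12126304]

def O3 : ℕ := 4367374

def NA : ℕ := 965288482694216940235287126760427521

def NB : ℕ := 14654321465844470179036714455188193

def I0 : ℕ := 0

theorem Sig_isM24 : isM24 Sig = true := by decide +kernel

theorem Sig_valid : valid Sig = true := isM24_valid Sig_isM24

/-- the representative -/
noncomputable def Sg : Equiv.Perm GolayPt := decode Sig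

theorem Sg_mem : Sg ∈ M24 := decode_mem_M24 Sig_isM24

/-- the representative in the group -/
noncomputable def R : ↥M24 := ⟨Sg, Sg_mem⟩

theorem Sg_rep : RepBy Sg (ap Sig) := repBy_decode Sig_valid

/-- functions of powers -/
def pwFn : ℕ → ℕ → ℕ
  | 0, i => i
  | k + 1, i => ap Sig (pwFn k i)

theorem rep_pow (k : ℕ) : RepBy (Sg ^ k) (pwFn k) := by
  induction k with
  | zero => intro p; rfl
  | succ k ih =>
    rw [pow_succ']
    exact Sg_rep.mul ih

theorem Sg_pow7 : Sg ^ 7 = 1 := by
  apply eq_of_repBy (rep_pow 7) (f' := id) (fun p => rfl)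
  have h : ∀ i ∈ idxL, pwFn 7 i = i := by decide +kernel
  exact fun i hi => h i (mem_idxL.2 hi)

theorem Sg_ne : Sg ≠ 1 := by
  intro h
  have h1 := Sg_rep.val (i := 2) (by norm_num)
  rw [h] at h1
  simp only [Equiv.Perm.coe_one, id_eq] at h1
  rw [idx_pt (by norm_num)] at h1
  revert h1
  decide +kernel

theorem R_order : orderOf R = 7 := by
  have : Fact (Nat.Prime 7) := ⟨by norm_num⟩
  apply orderOf_eq_prime
  · apply Subtype.ext
    exact Sg_pow7
  · intro h
    exact Sg_ne (congrArg Subtype.val h)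

theorem Sg_order : orderOf Sg = 7 := by
  have : Fact (Nat.Prime 7) := ⟨by norm_num⟩
  exact orderOf_eq_prime Sg_pow7 Sg_ne

/-- every power of the representative is one of the first seven -/
theorem exists_pow {x : Equiv.Perm GolayPt} (hx : x ∈ Subgroup.zpowers Sg) : ∃ k < 7, x = Sg ^ k := by
  obtain ⟨n, rfl⟩ := hx
  refine ⟨(n % 7).toNat, ?_, ?_⟩
  · omega
  · show Sg ^ n = _
    rw [← zpow_natCast, Int.toNat_of_nonneg (by omega)]
    have := zpow_mod_orderOf Sg n
    rw [Sg_order] at this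
    exact_mod_cast this.symm

/-! ### normaliser and centraliser as subgroups of the symmetric group -/

/-- the normaliser -/
noncomputable def Np : Subgroup (Equiv.Perm GolayPt) :=
  (Subgroup.normalizer ((Subgroup.zpowers R : Subgroup ↥M24) : Set ↥M24)).map M24.subtype

/-- the centraliser -/
noncomputable def Cp : Subgroup (Equiv.Perm GolayPt) :=
  (Subgroup.centralizer ((Subgroup.zpowers R : Subgroup ↥M24) : Set ↥M24)).map M24.subtype

theorem mem_Cp {g : Equiv.Perm GolayPt} : g ∈ Cp ↔ g ∈ M24 ∧ g * Sg = Sg * g := by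
  constructor
  · rintro ⟨n, hn, rfl⟩
    refine ⟨n.2, ?_⟩
    have h := Subgroup.mem_centralizer_iff.1 hn R (Subgroup.mem_zpowers R)
    exact (congrArg Subtype.val h).symm
  · rintro ⟨h1, h2⟩
    refine ⟨⟨g, h1⟩, ?_, rfl⟩
    rw [SetLike.mem_coe, Subgroup.mem_centralizer_iff]
    rintro _ ⟨k, rfl⟩
    have hc : Commute R (⟨g, h1⟩ : ↥M24) := Subtype.ext h2.symm
    exact (hc.zpow_left k).eq

theorem mem_Np {g : Equiv.Perm GolayPt} : g ∈ Np ↔ g ∈ M24 ∧ g * Sg * g⁻¹ ∈ Subgroup.zpowers Sg := by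
  constructor
  · rintro ⟨n, hn, rfl⟩
    refine ⟨n.2, ?_⟩
    have h : n * R * n⁻¹ ∈ Subgroup.zpowers R :=
      (Subgroup.mem_normalizer_iff.1 hn R).1 (Subgroup.mem_zpowers R)
    obtain ⟨k, hk⟩ := h
    refine ⟨k, ?_⟩
    have := congrArg Subtype.val hk
    exact this
  · rintro ⟨h1, h2⟩
    obtain ⟨k, hk⟩ := h2
    let n : ↥M24 := ⟨g, h1⟩
    have h3 : n * R * n⁻¹ = R ^ k := Subtype.ext hk.symm
    refine ⟨n, ?_, rfl⟩
    rw [SetLike.mem_coe, Subgroup.mem_normalizer_iff_map_conj_eq]
    have h4 : (Subgroup.zpowers R).map (MulAut.conj n).toMonoidHom = Subgroup.zpowers (n * R * n⁻¹) := by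
      rw [MonoidHom.map_zpowers]
      rfl
    change Subgroup.map (MulAut.conj n).toMonoidHom (Subgroup.zpowers R) = Subgroup.zpowers R
    rw [h4]
    apply Subgroup.eq_of_le_of_card_ge
    · rw [Subgroup.zpowers_le, h3]
      exact Subgroup.zpow_mem_zpowers R k
    · rw [Nat.card_zpowers, Nat.card_zpowers, R_order, ← MulAut.conj_apply, MulEquiv.orderOf_eq, R_order]

theorem Cp_le_Np : Cp ≤ Np := by
  intro g hg
  obtain ⟨h1, h2⟩ := mem_Cp.1 hg
  refine mem_Np.2 ⟨h1, ?_⟩
  rw [h2, mul_inv_cancel_right]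
  exact Subgroup.mem_zpowers Sg

theorem Np_inv {g : Equiv.Perm GolayPt} (hg : g ∈ Np) : g⁻¹ * Sg * g ∈ Subgroup.zpowers Sg := by
  have := (mem_Np.1 (Np.inv_mem hg)).2
  rwa [inv_inv] at this

/-- elements of the normaliser preserve the fixed points -/
theorem Np_fix {g : Equiv.Perm GolayPt} (hg : g ∈ Np) {p : GolayPt} (hp : Sg p = p) : Sg (g p) = g p := by
  obtain ⟨k, hk, e⟩ := exists_pow (Np_inv hg)
  have h1 : (Sg ^ k) p = p := by
    rw [Equiv.Perm.coe_pow]
    exact Function.iterate_fixed hp k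
  rw [← e] at h1
  simp only [Equiv.Perm.mul_apply] at h1
  rw [Equiv.Perm.inv_eq_iff_eq] at h1
  exact h1

/-! ### the invariant trio -/

/-- the trio -/
noncomputable def T0 : Finset (Finset GolayPt) := famOf T0L

theorem T0L_mem : T0L ∈ triL := by decide +kernel

theorem T0_trio : T0 ∈ trios := by
  rw [trios_eq_image]
  exact ⟨T0L, T0L_mem, rfl⟩

theorem T0L_unique : triL.filter (famInv Sig) = [T0L] := by decide +kernel

theorem T0L_lt : allLt T0L = true := by decide +kernel

theorem Sg_fix_T0 : Sg • T0 = T0 :=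
  (famInv_spec Sig_valid T0L_lt).1 (by decide +kernel)

theorem zpowers_fix_T0 {x : Equiv.Perm GolayPt} (hx : x ∈ Subgroup.zpowers Sg) : x • T0 = T0 := by
  have h : Subgroup.zpowers Sg ≤ MulAction.stabilizer (Equiv.Perm GolayPt) T0 := by
    rw [Subgroup.zpowers_le]
    exact Sg_fix_T0
  exact h hx

/-- unique invariant trio -/
theorem trio_unique {T : Finset (Finset GolayPt)} (hT : T ∈ trios) (h : Sg • T = T) : T = T0 := by
  rw [trios_eq_image] at hT
  obtain ⟨l, hl, rfl⟩ := hT
  have hlt := (triOK_asc (List.all_eq_true.1 triL_ok l hl)).2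
  have h2 : l ∈ triL.filter (famInv Sig) :=
    List.mem_filter.2 ⟨hl, (famInv_spec Sig_valid hlt).2 h⟩
  rw [T0L_unique, List.mem_singleton] at h2
  rw [h2]
  rfl

theorem Np_fix_T0 {g : Equiv.Perm GolayPt} (hg : g ∈ Np) : g • T0 = T0 := by
  apply trio_unique (smul_mem_trios (mem_Np.1 hg).1 T0_trio)
  rw [smul_smul]
  have : Sg * g = g * (g⁻¹ * Sg * g) := by group
  rw [this, mul_smul, zpowers_fix_T0 (Np_inv hg)]

theorem O3_mem : O3 ∈ T0L := by decide +kernel

theorem Np_fix_O3 {g : Equiv.Perm GolayPt} (hg : g ∈ Np) (h1 : g (pt 1) = pt 1) : g • ofMask O3 = ofMask O3 := by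
  by_contra hne
  have h2 : g • ofMask O3 ∈ T0 := by
    rw [← Np_fix_T0 hg]
    exact Finset.smul_mem_smul_finset (ofMask_mem_famOf O3_mem)
  have h3 := T0_trio.2.2 _ h2 _ (ofMask_mem_famOf O3_mem) hne
  have h4 : pt 1 ∈ ofMask O3 := (pt_mem_ofMask (by norm_num)).2 (by decide +kernel)
  have h5 : pt 1 ∈ g • ofMask O3 := Finset.mem_smul_finset.2 ⟨pt 1, h4, h1⟩
  exact (Finset.disjoint_left.1 h3) h5 h4

/-! ### witnesses -/

/-- codes in the centraliser with prescribed fixed points -/
def okL (pre L : List ℕ) : Bool :=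
  L.all fun c => isM24 c && commCode Sig c && pre.all fun x => Nat.beq (ap c x) x

theorem okL_spec {pre L : List ℕ} (h : okL pre L = true) {c : ℕ} (hc : c ∈ L) :
    decode c ∈ Cp ∧ valid c = true ∧ ∀ x ∈ pre, x < 24 → decode c (pt x) = pt x := by
  have h1 := List.all_eq_true.1 h c hc
  simp only [Bool.and_eq_true, List.all_eq_true] at h1
  have hv := isM24_valid h1.1.1
  refine ⟨mem_Cp.2 ⟨decode_mem_M24 h1.1.1, commCode_spec Sig_valid hv h1.1.2⟩, hv, fun x hx hlt => ?_⟩
  rw [decode_pt hv hlt, Nat.eq_of_beq_eq_true (h1.2 x hx)]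

theorem CW1_ok : okL [] CW1 = true := by decide +kernel
theorem CW2_ok : okL [23] CW2 = true := by decide +kernel
theorem CW4_ok : okL [23, 0, 1] CW4 = true := by decide +kernel

/-- normalising test -/
def normT (f : ℕ → ℕ) : Bool :=
  [0,1,2,3,4,5,6].any fun k => idxL.all fun i => Nat.beq (f (ap Sig i)) (pwFn k (f i))

theorem normT_of {g : Equiv.Perm GolayPt} {f : ℕ → ℕ} (hf : RepBy g f) (hg : g ∈ Np) : normT f = true := by
  obtain ⟨k, hk, e⟩ := exists_pow (mem_Np.1 hg).2
  have e2 : g * Sg = Sg ^ k * g := by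
    rw [← e]; group
  simp only [normT, List.any_eq_true, List.all_eq_true, Nat.beq_eq]
  refine ⟨k, by simp only [List.mem_cons, List.not_mem_nil, or_false]; omega, fun i hi => ?_⟩
  have hi' := mem_idxL.1 hi
  have h1 : idx ((g * Sg) (pt i)) = idx ((Sg ^ k * g) (pt i)) := by rw [e2]
  rw [(hf.mul Sg_rep).val hi', ((rep_pow k).mul hf).val hi'] at h1
  exact h1

theorem normT_spec {c : ℕ} (hc : isM24 c = true) (h : normT (ap c) = true) : decode c ∈ Np := by
  simp only [normT, List.any_eq_true, List.all_eq_true, Nat.beq_eq] at h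
  obtain ⟨k, -, h⟩ := h
  have hv := isM24_valid hc
  refine mem_Np.2 ⟨decode_mem_M24 hc, ?_⟩
  have h1 : decode c * Sg = Sg ^ k * decode c :=
    comm_of_repBy (repBy_decode hv) Sg_rep (rep_pow k) (fun i hi => h i (mem_idxL.2 hi))
  rw [h1, mul_inv_cancel_right]
  exact Subgroup.npow_mem_zpowers Sg k

theorem W5_ok : W5.all (fun c => isM24 c && normT (ap c) && Nat.beq (ap c 23) 23 && Nat.beq (ap c 0) 0 &&
    Nat.beq (ap c 1) 1 && Nat.beq (ap c 2) 2) = true := by decide +kernel

theorem L1_cov : [23,0,1].all (fun q => CW1.any fun c => Nat.beq (ap c 23) q) = true := by decide +kernel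
theorem L2_cov : [0,1].all (fun q => CW2.any fun c => Nat.beq (ap c 0) q) = true := by decide +kernel
theorem L4_cov : L4.all (fun q => CW4.any fun c => Nat.beq (ap c 2) q) = true := by decide +kernel
theorem L5_cov : L5.all (fun q => W5.any fun c => Nat.beq (ap c 3) q) = true := by decide +kernel

theorem fix_list : idxL.all (fun q => !(Nat.beq (ap Sig q) q) || [23,0,1].contains q) = true := by decide +kernel

theorem fix_idx {p : GolayPt} (h : Sg p = p) : idx p ∈ [23,0,1] := by
  have h1 := List.all_eq_true.1 fix_list (idx p) (mem_idxL.2 (idx_lt p))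
  have h2 : ap Sig (idx p) = idx p := by
    rw [← Sg_rep p, h]
  rw [h2, Nat.beq_refl, Bool.not_true, Bool.false_or, List.contains_iff_mem] at h1
  exact h1

theorem Sg_23 : Sg (pt 23) = pt 23 := by
  rw [Sg, decode_pt Sig_valid (by norm_num)]; congr 1
theorem Sg_0 : Sg (pt 0) = pt 0 := by
  rw [Sg, decode_pt Sig_valid (by norm_num)]; congr 1
theorem Sg_1 : Sg (pt 1) = pt 1 := by
  rw [Sg, decode_pt Sig_valid (by norm_num)]; congr 1
theorem Sg_2 : Sg (pt 2) = pt 3 := by
  rw [Sg, decode_pt Sig_valid (by norm_num)]; congr 1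

section chain

/-- stabiliser of a point in a subgroup -/
noncomputable abbrev st (H : Subgroup (Equiv.Perm GolayPt)) (b : ℕ) : Subgroup (Equiv.Perm GolayPt) :=
  H ⊓ MulAction.stabilizer (Equiv.Perm GolayPt) (pt b)

variable (H : Subgroup (Equiv.Perm GolayPt)) (hle : H ≤ Np) (hge : Cp ≤ H)
include hle hge

theorem chain1 : Nat.card H = 3 * Nat.card (st H 23) := by
  have := card_step H 23 [23,0,1] (by decide) (by decide) (fun g hg => fix_idx (Np_fix (hle hg) Sg_23)) ?_
  · simpa using this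
  · intro q hq
    obtain ⟨c, hc, e⟩ := List.any_eq_true.1 (List.all_eq_true.1 L1_cov q hq)
    have h := okL_spec CW1_ok hc
    exact ⟨decode c, hge h.1, by rw [decode_pt h.2.1 (by norm_num), Nat.eq_of_beq_eq_true e]⟩

theorem chain2 : Nat.card (st H 23) = 2 * Nat.card (st (st H 23) 0) := by
  have := card_step (st H 23) 0 [0,1] (by decide) (by decide) ?_ ?_
  · simpa using this
  · intro g hg
    obtain ⟨hg1, hg2⟩ := mem_stab_iff.1 hg
    have h1 := fix_idx (Np_fix (hle hg1) Sg_0)
    have h2 : idx (g (pt 0)) ≠ 23 := by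
      intro h
      have h3 : g (pt 0) = pt 23 := by rw [← h, pt_idx]
      rw [← hg2] at h3
      have := g.injective h3
      exact absurd (pt_injOn (by norm_num) (by norm_num) this) (by norm_num)
    simp only [List.mem_cons, List.not_mem_nil, or_false] at h1 ⊢
    tauto
  · intro q hq
    obtain ⟨c, hc, e⟩ := List.any_eq_true.1 (List.all_eq_true.1 L2_cov q hq)
    have h := okL_spec CW2_ok hc
    exact ⟨decode c, mem_stab_iff.2 ⟨hge h.1, h.2.2 23 (by simp) (by norm_num)⟩,
      by rw [decode_pt h.2.1 (by norm_num), Nat.eq_of_beq_eq_true e]⟩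

theorem chain3 {g : Equiv.Perm GolayPt} (hg : g ∈ st (st H 23) 0) : g (pt 1) = pt 1 := by
  obtain ⟨hg1, hg2⟩ := mem_stab_iff.1 hg
  obtain ⟨hg3, hg4⟩ := mem_stab_iff.1 hg1
  have h1 := fix_idx (Np_fix (hle hg3) Sg_1)
  have h2 : idx (g (pt 1)) ≠ 23 := by
    intro h
    have h3 : g (pt 1) = pt 23 := by rw [← h, pt_idx]
    rw [← hg4] at h3
    have := g.injective h3
    exact absurd (pt_injOn (by norm_num) (by norm_num) this) (by norm_num)
  have h2' : idx (g (pt 1)) ≠ 0 := by
    intro h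
    have h3 : g (pt 1) = pt 0 := by rw [← h, pt_idx]
    rw [← hg2] at h3
    have := g.injective h3
    exact absurd (pt_injOn (by norm_num) (by norm_num) this) (by norm_num)
  have h3 : idx (g (pt 1)) = 1 := by
    simp only [List.mem_cons, List.not_mem_nil, or_false] at h1
    tauto
  calc g (pt 1) = pt (idx (g (pt 1))) := (pt_idx _).symm
    _ = pt 1 := by rw [h3]

omit hle hge in
theorem L4_mem : idxL.all (fun q => !(Nat.beq (bit O3 q) 1) || Nat.beq q 1 || L4.contains q) = true := by
  decide +kernel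

theorem chain4 : Nat.card (st (st H 23) 0) = 7 * Nat.card (st (st (st H 23) 0) 2) := by
  have := card_step (st (st H 23) 0) 2 L4 (by decide) (by decide) ?_ ?_
  · simpa [L4] using this
  · intro g hg
    have h1 := chain3 H hle hge hg
    have hgN : g ∈ Np := hle (mem_stab_iff.1 (mem_stab_iff.1 hg).1).1
    have h2 : pt 2 ∈ ofMask O3 := (pt_mem_ofMask (by norm_num)).2 (by decide +kernel)
    have h3 := smul_mem (Np_fix_O3 hgN h1) h2
    rw [bit_of_mem] at h3
    have h4 := List.all_eq_true.1 L4_mem _ (mem_idxL.2 (idx_lt (g (pt 2))))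
    rw [h3] at h4
    simp only [Nat.beq_refl, Bool.not_true, Bool.false_or, Bool.or_eq_true, List.contains_iff_mem,
      Nat.beq_eq] at h4
    rcases h4 with h4 | h4
    · exfalso
      have h5 : g (pt 2) = pt 1 := by rw [← h4, pt_idx]
      rw [← h1] at h5
      have := g.injective h5
      exact absurd (pt_injOn (by norm_num) (by norm_num) this) (by norm_num)
    · exact h4
  · intro q hq
    obtain ⟨c, hc, e⟩ := List.any_eq_true.1 (List.all_eq_true.1 L4_cov q hq)
    have h := okL_spec CW4_ok hc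
    refine ⟨decode c, mem_stab_iff.2 ⟨mem_stab_iff.2 ⟨hge h.1, h.2.2 23 (by simp) (by norm_num)⟩,
      h.2.2 0 (by simp) (by norm_num)⟩, ?_⟩
    rw [decode_pt h.2.1 (by norm_num), Nat.eq_of_beq_eq_true e]

theorem chain_all : Nat.card H = 42 * Nat.card (st (st (st H 23) 0) 2) := by
  rw [chain1 H hle hge, chain2 H hle hge, chain4 H hle hge]
  ring

end chain

theorem S48_norm : S48L.all (fun s => !(normT (ap s)) || isIdC s) = true := by decide +kernel

theorem eq_one_of_fix5 {g : Equiv.Perm GolayPt} (hg : g ∈ Np) (h23 : g (pt 23) = pt 23) (h0 : g (pt 0) = pt 0)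
    (h1 : g (pt 1) = pt 1) (h2 : g (pt 2) = pt 2) (h3 : g (pt 3) = pt 3) : g = 1 := by
  have hG : g ∈ G [3,2,1,0,23] := by
    refine ⟨(mem_Np.1 hg).1, fun i hi => ?_⟩
    simp only [List.mem_cons, List.not_mem_nil, or_false] at hi
    rcases hi with rfl | rfl | rfl | rfl | rfl
    · exact h3
    · exact h2
    · exact h1
    · exact h0
    · exact h23
  obtain ⟨s, hs, e⟩ := mem_S48L hG
  have hv := isM24_valid (S48L_isM24 s hs)
  have h4 := List.all_eq_true.1 S48_norm s hs
  have h5 : normT (ap s) = true := normT_of (repBy_decode hv) (e ▸ hg)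
  rw [h5, Bool.not_true, Bool.false_or] at h4
  rw [e]
  exact isIdC_spec hv h4

theorem card_Cp : Nat.card Cp = 42 := by
  rw [chain_all Cp Cp_le_Np le_rfl]
  have h : st (st (st Cp 23) 0) 2 = ⊥ := by
    rw [eq_bot_iff]
    intro g hg
    have h1 := chain3 Cp Cp_le_Np le_rfl (mem_stab_iff.1 hg).1
    obtain ⟨hg1, hg2⟩ := mem_stab_iff.1 hg
    obtain ⟨hg3, hg4⟩ := mem_stab_iff.1 hg1
    obtain ⟨hg5, hg6⟩ := mem_stab_iff.1 hg3
    have h3 : g (pt 3) = pt 3 := by
      rw [← Sg_2, ← Equiv.Perm.mul_apply, (mem_Cp.1 hg5).2, Equiv.Perm.mul_apply, hg2]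
    exact eq_one_of_fix5 (Cp_le_Np hg5) hg6 hg4 h1 hg2 h3
  rw [h]
  simp

theorem Uex_ok : Uex.all (fun u => isM24 u && Nat.beq (ap u 23) 23 && Nat.beq (ap u 0) 0 && Nat.beq (ap u 1) 1 &&
    Nat.beq (ap u 2) 2) = true := by decide +kernel

theorem Ex_cov : Ex.all (fun q => Uex.any fun u => Nat.beq (ap u 3) q) = true := by decide +kernel

theorem Ex_none : noneProd Uex S48L (fun u s => normT (fn2 u s)) = true := by decide +kernel

theorem L5_mem : idxL.all (fun q => !(Nat.beq (bit O3 q) 1) || Nat.beq q 1 || Nat.beq q 2 || L5.contains q || Ex.contains q) = true := by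
  decide +kernel

theorem card_H4 : Nat.card (st (st (st Np 23) 0) 2) = 3 := by
  have h := card_step (st (st (st Np 23) 0) 2) 3 L5 (by decide) (by decide) ?_ ?_
  · have hb : st (st (st (st Np 23) 0) 2) 3 = ⊥ := by
      rw [eq_bot_iff]
      intro g hg
      have h1 := chain3 Np le_rfl Cp_le_Np (mem_stab_iff.1 (mem_stab_iff.1 hg).1).1
      obtain ⟨hg0, hg3⟩ := mem_stab_iff.1 hg
      obtain ⟨hg1, hg2⟩ := mem_stab_iff.1 hg0
      obtain ⟨hg7, hg4⟩ := mem_stab_iff.1 hg1
      obtain ⟨hg5, hg6⟩ := mem_stab_iff.1 hg7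
      exact eq_one_of_fix5 hg5 hg6 hg4 h1 hg2 hg3
    rw [h]
    change L5.length * Nat.card ↥(st (st (st (st Np 23) 0) 2) 3) = 3
    rw [hb]
    simp [L5]
  · intro g hg
    have h1 := chain3 Np le_rfl Cp_le_Np (mem_stab_iff.1 hg).1
    obtain ⟨hg1, hg2⟩ := mem_stab_iff.1 hg
    obtain ⟨hg7, hg4⟩ := mem_stab_iff.1 hg1
    obtain ⟨hg5, hg6⟩ := mem_stab_iff.1 hg7
    have h2 : pt 3 ∈ ofMask O3 := (pt_mem_ofMask (by norm_num)).2 (by decide +kernel)
    have h3 := smul_mem (Np_fix_O3 hg5 h1) h2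
    rw [bit_of_mem] at h3
    have h4 := List.all_eq_true.1 L5_mem _ (mem_idxL.2 (idx_lt (g (pt 3))))
    rw [h3] at h4
    simp only [Nat.beq_refl, Bool.not_true, Bool.false_or, Bool.or_eq_true, List.contains_iff_mem,
      Nat.beq_eq] at h4
    rcases h4 with ((h4 | h4) | h4) | h4
    · exfalso
      have h5 : g (pt 3) = pt 1 := by rw [← h4, pt_idx]
      rw [← h1] at h5
      have := g.injective h5
      exact absurd (pt_injOn (by norm_num) (by norm_num) this) (by norm_num)
    · exfalso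
      have h5 : g (pt 3) = pt 2 := by rw [← h4, pt_idx]
      rw [← hg2] at h5
      have := g.injective h5
      exact absurd (pt_injOn (by norm_num) (by norm_num) this) (by norm_num)
    · exact h4
    · exfalso
      obtain ⟨u, hu, e⟩ := List.any_eq_true.1 (List.all_eq_true.1 Ex_cov _ h4)
      have hu1 := List.all_eq_true.1 Uex_ok u hu
      simp only [Bool.and_eq_true] at hu1
      obtain ⟨⟨⟨⟨hu2, hu3⟩, hu4⟩, hu5⟩, hu6⟩ := hu1
      have hv := isM24_valid hu2
      obtain ⟨s, hs, es⟩ := exists_S48_of_agree (mem_Np.1 hg5).1 (decode_mem_M24 hu2) (by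
        intro i hi
        simp only [List.mem_cons, List.not_mem_nil, or_false] at hi
        rcases hi with rfl | rfl | rfl | rfl | rfl
        · rw [decode_pt hv (by norm_num), Nat.eq_of_beq_eq_true e, pt_idx]
        · rw [decode_pt hv (by norm_num), Nat.eq_of_beq_eq_true hu6, hg2]
        · rw [decode_pt hv (by norm_num), Nat.eq_of_beq_eq_true hu5, h1]
        · rw [decode_pt hv (by norm_num), Nat.eq_of_beq_eq_true hu4, hg4]
        · rw [decode_pt hv (by norm_num), Nat.eq_of_beq_eq_true hu3, hg6])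
      have hsv := isM24_valid (S48L_isM24 s hs)
      have h6 : normT (fn2 u s) = true := normT_of (repBy_fn2 hv hsv) (es ▸ hg5)
      have h7 := noneProd_spec Ex_none hu hs
      rw [h6] at h7
      cases h7
  · intro q hq
    obtain ⟨c, hc, e⟩ := List.any_eq_true.1 (List.all_eq_true.1 L5_cov q hq)
    have h := List.all_eq_true.1 W5_ok c hc
    simp only [Bool.and_eq_true] at h
    obtain ⟨⟨⟨⟨⟨h1, h2⟩, h3⟩, h4⟩, h5⟩, h6⟩ := h
    have hv := isM24_valid h1
    have hN := normT_spec h1 h2
    refine ⟨decode c, mem_stab_iff.2 ⟨mem_stab_iff.2 ⟨mem_stab_iff.2 ⟨hN, ?_⟩, ?_⟩, ?_⟩, ?_⟩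
    · rw [decode_pt hv (by norm_num), Nat.eq_of_beq_eq_true h3]
    · rw [decode_pt hv (by norm_num), Nat.eq_of_beq_eq_true h4]
    · rw [decode_pt hv (by norm_num), Nat.eq_of_beq_eq_true h6]
    · rw [decode_pt hv (by norm_num), Nat.eq_of_beq_eq_true e]

theorem card_Np : Nat.card Np = 126 := by
  rw [chain_all Np le_rfl Cp_le_Np, card_H4]

/-! ### transport -/

theorem factorization7 : Nat.factorization 244823040 7 = 1 := by
  have h7 : Nat.Prime 7 := by norm_num
  have hn : (244823040 : ℕ) ≠ 0 := by norm_num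
  have h1 : 1 ≤ Nat.factorization 244823040 7 := (h7.pow_dvd_iff_le_factorization hn).1 (by norm_num)
  have h2 : ¬ 2 ≤ Nat.factorization 244823040 7 := fun h =>
    absurd ((h7.pow_dvd_iff_le_factorization hn).2 h) (by norm_num)
  omega

theorem exists_conj (S : Subgroup ↥M24) (hS : Nat.card S = 7) :
    ∃ K : ↥M24, MulAut.conj K • Subgroup.zpowers R = S := by
  have : Fact (Nat.Prime 7) := ⟨by norm_num⟩
  have hcard : Nat.card ↥M24 = 244823040 := card_M24
  let P : Sylow 7 ↥M24 := Sylow.ofCard S (by rw [hS, hcard, factorization7, pow_one])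
  let Q : Sylow 7 ↥M24 := Sylow.ofCard (Subgroup.zpowers R)
    (by rw [Nat.card_zpowers, R_order, hcard, factorization7, pow_one])
  obtain ⟨K, hK⟩ := MulAction.exists_smul_eq (↥M24) Q P
  refine ⟨K, ?_⟩
  have := congrArg (fun X : Sylow 7 ↥M24 => (X : Subgroup ↥M24)) hK
  simp only [Sylow.coe_subgroup_smul] at this
  rw [Sylow.coe_ofCard] at this
  rw [this]
  exact Sylow.coe_ofCard S _

theorem centralizer_conj (K : ↥M24) (X : Subgroup ↥M24) :
    Subgroup.centralizer ((X.map (MulAut.conj K).toMonoidHom : Subgroup ↥M24) : Set ↥M24) =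
      (Subgroup.centralizer (X : Set ↥M24)).map (MulAut.conj K).toMonoidHom := by
  ext x
  constructor
  · intro hx
    refine ⟨K⁻¹ * x * K, ?_, ?_⟩
    · rw [SetLike.mem_coe, Subgroup.mem_centralizer_iff]
      intro h hh
      have h1 := Subgroup.mem_centralizer_iff.1 hx (K * h * K⁻¹) ⟨h, hh, rfl⟩
      calc h * (K⁻¹ * x * K) = K⁻¹ * ((K * h * K⁻¹) * x) * K := by group
        _ = K⁻¹ * (x * (K * h * K⁻¹)) * K := by rw [h1]
        _ = K⁻¹ * x * K * h := by group
    · show K * (K⁻¹ * x * K) * K⁻¹ = x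
      group
  · rintro ⟨y, hy, rfl⟩
    rw [Subgroup.mem_centralizer_iff]
    rintro _ ⟨h, hh, rfl⟩
    have h1 := Subgroup.mem_centralizer_iff.1 hy h hh
    show (K * h * K⁻¹) * (K * y * K⁻¹) = (K * y * K⁻¹) * (K * h * K⁻¹)
    calc (K * h * K⁻¹) * (K * y * K⁻¹) = K * (h * y) * K⁻¹ := by group
      _ = K * (y * h) * K⁻¹ := by rw [h1]
      _ = (K * y * K⁻¹) * (K * h * K⁻¹) := by group

theorem card_map_conj (K : ↥M24) (X : Subgroup ↥M24) :
    Nat.card ↥(X.map (MulAut.conj K).toMonoidHom) = Nat.card X :=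
  Nat.card_congr (X.equivMapOfInjective _ (MulAut.conj K).injective).symm.toEquiv

theorem NA_ok : okL [] [NA, NB] = true := by decide +kernel

theorem NA_NB_ne : decode NA * decode NB ≠ decode NB * decode NA := by
  intro h
  have h1 : idx ((decode NA * decode NB) (pt I0)) = idx ((decode NB * decode NA) (pt I0)) := by rw [h]
  have ha := okL_spec NA_ok (c := NA) (by simp)
  have hb := okL_spec NA_ok (c := NB) (by simp)
  have hi : I0 < 24 := by decide +kernel
  rw [((repBy_decode ha.2.1).mul (repBy_decode hb.2.1)).val hi,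
    ((repBy_decode hb.2.1).mul (repBy_decode ha.2.1)).val hi] at h1
  revert h1
  decide +kernel

/-- For a subgroup S of order 7 of the group of the length-24 code (a Sylow 7-subgroup): the normaliser of S has order 126, the centraliser of S has order 42 and is non-abelian, and the whole normaliser leaves some trio invariant. (These are the orders of a Frobenius group of order 21 times a symmetric group of degree 3; the isomorphism type itself is not asserted here.) -/
theorem result (S : Subgroup ↥Cfsg.M24) (hS : Nat.card S = 7) : Nat.card ↥(Subgroup.normalizer (S : Set ↥Cfsg.M24)) = 126 ∧ Nat.card ↥(Subgroup.centralizer (S : Set ↥Cfsg.M24)) = 42 ∧ (∃ x ∈ Subgroup.centralizer (S : Set ↥Cfsg.M24), ∃ y ∈ Subgroup.centralizer (S : Set ↥Cfsg.M24), x * y ≠ y * x) ∧ ∃ T ∈ Cfsg.trios, ∀ n ∈ Subgroup.normalizer (S : Set ↥Cfsg.M24), ((n : ↥Cfsg.M24) : Equiv.Perm Cfsg.GolayPt) • T = T := by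
  obtain ⟨K, rfl⟩ := exists_conj S hS
  have hS' : MulAut.conj K • Subgroup.zpowers R = (Subgroup.zpowers R).map (MulAut.conj K).toMonoidHom := rfl
  rw [hS']
  have hNeq : Subgroup.normalizer (((Subgroup.zpowers R).map (MulAut.conj K).toMonoidHom : Subgroup ↥M24) : Set ↥M24) =
      (Subgroup.normalizer ((Subgroup.zpowers R : Subgroup ↥M24) : Set ↥M24)).map (MulAut.conj K).toMonoidHom :=
    (Subgroup.map_equiv_normalizer_eq _ _).symm
  refine ⟨?_, ?_, ?_, ?_⟩
  · rw [hNeq, card_map_conj, ← card_map_subtype]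
    exact card_Np
  · rw [centralizer_conj, card_map_conj, ← card_map_subtype]
    exact card_Cp
  · rw [centralizer_conj]
    have ha := okL_spec NA_ok (c := NA) (by simp)
    have hb := okL_spec NA_ok (c := NB) (by simp)
    obtain ⟨a, ha1, ea⟩ := ha.1
    obtain ⟨b, hb1, eb⟩ := hb.1
    refine ⟨_, ⟨a, ha1, rfl⟩, _, ⟨b, hb1, rfl⟩, ?_⟩
    intro h
    apply NA_NB_ne
    have h2 : a * b = b * a := by
      have := congrArg (fun y => K⁻¹ * y * K) h
      have e1 : ∀ u v : ↥M24, K⁻¹ * ((MulAut.conj K).toMonoidHom u * (MulAut.conj K).toMonoidHom v) * K = u * v := by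
        intro u v
        show K⁻¹ * ((K * u * K⁻¹) * (K * v * K⁻¹)) * K = u * v
        group
      rw [e1, e1] at this
      exact this
    have h3 := congrArg Subtype.val h2
    rw [← ea, ← eb]
    exact h3
  · refine ⟨(K : Equiv.Perm GolayPt) • T0, smul_mem_trios K.2 T0_trio, ?_⟩
    intro n hn
    rw [hNeq] at hn
    obtain ⟨m, hm, rfl⟩ := hn
    have h1 : (m : Equiv.Perm GolayPt) ∈ Np := ⟨m, hm, rfl⟩
    have h2 := Np_fix_T0 h1
    rw [smul_smul]
    have h3 : ((((MulAut.conj K).toMonoidHom m : ↥M24) : Equiv.Perm GolayPt)) * (K : Equiv.Perm GolayPt) =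
        (K : Equiv.Perm GolayPt) * (m : Equiv.Perm GolayPt) := by
      show ((K * m * K⁻¹ : ↥M24) : Equiv.Perm GolayPt) * (K : Equiv.Perm GolayPt) = _
      simp only [Subgroup.coe_mul, Subgroup.coe_inv]
      group
    rw [h3, mul_smul, h2]

end Cfsg.Agent.S5604
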