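import Mathlib
import Cfsg.Agent.Lib.GolaySubChain
import Cfsg.Statements.S5607

set_option autoImplicit false
set_option maxRecDepth 100000
open scoped Pointwise
open Cfsg

namespace Cfsg.Agent.S5607
open Cfsg.Agent.Lib.Golay Finset

def CW1 : List ℕ := [22861668434165072353846638706951255,54862175598110107948820226516690274,83204951293381546236822511890414273,148839437358623558569625968941860900,183274691139572130753070975797428963,236517281708953217123152249434014448,277879205445780192332601629780072039,305825346581704852198063303006226470,334266992444767186376397344833451572,382325209016151947087719140185325739,424815879498835879847197368361133426,485729784746723933851510940534692873,529149396011823840864730198277598511,563612957209357625308414052343897105,601342552057855706626023585646980406,632704106103685702268382571978801324,685046000984418820140296331856255205,708889413882015632496287626382989773,749463299734513708634704784645607690,793732314166237791254727376599992661,834894348850619305398525014944990632,902505925117622535333590562742938931,936691961408736296881054408314619950,984818244535754528103549039458486304]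

def CW2 : List ℕ := [984818244535754528103549039458486304,962657247483050244616093180018197568,982252319311132430850520523295985760,983227457919225679878272210790550656,967757957101848080454093591212736672,959724698382739718881929884401881344,980384024556028907437067502901832992,957182033561920483897130715050527040,980880480909641990214714290035795296,973012263028040046909733145300614528,982850734471541219681548126820287904,982810912077820526242404157890812352,961311830687244422454832959188578784,984487309419224856265884817106802176,980713039579804938974250969618003488,957301073361133924421567805512067648,971003981040506851974585869983372896,980511644243983542335150275793298048,983992320483950390445268853277707936,968527024138768743544456523883625152]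

def CW3 : List ℕ := [984818244535754528103549039458486304,974422238081544939122441376219924512,973122887587861701392823884636653600,967857139963342044689680818369726496,966545122754800979356836019163138080,971748839566330706286476990097983520,982132167227327194473266876696070176,969162837256568004384996759176611872,962748449556181013399451750574229536,961438956620049001677386430328277024,979523344840966551745588179348457504,978317721293770322615222185527609376,977023451795203591179182037798520864,975630375892886210127325910446704672,970454579689078435272134634154625056,960139612709388908960211975096961056]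

def S0L : List ℕ := [204832,300032,1051392,2621446,4210712,8388801]

def T23 : ℕ := 8388801

def T1 : ℕ := 2621446

/-- the representative -/
noncomputable def Z : Equiv.Perm GolayPt := decode Z2B

theorem Z2B_valid : valid Z2B = true := isM24_valid Z2B_isM24

/-- the centraliser of the representative -/
noncomputable def C : Subgroup (Equiv.Perm GolayPt) := M24 ⊓ Subgroup.centralizer {Z}

theorem mem_C {g : Equiv.Perm GolayPt} : g ∈ C ↔ g ∈ M24 ∧ g * Z = Z * g := by
  simp only [C, Subgroup.mem_inf, Subgroup.mem_centralizer_iff, Set.mem_singleton_iff, forall_eq]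
  constructor
  · rintro ⟨h1, h2⟩; exact ⟨h1, h2.symm⟩
  · rintro ⟨h1, h2⟩; exact ⟨h1, h2.symm⟩

/-- codes in the centraliser with prescribed fixed points -/
def okL (pre L : List ℕ) : Bool :=
  L.all fun c => isM24 c && commCode Z2B c && pre.all fun x => Nat.beq (ap c x) x

theorem okL_spec {pre L : List ℕ} (h : okL pre L = true) {c : ℕ} (hc : c ∈ L) :
    decode c ∈ C ∧ valid c = true ∧ ∀ x ∈ pre, x < 24 → decode c (pt x) = pt x := by
  have h1 := List.all_eq_true.1 h c hc
  simp only [Bool.and_eq_true, List.all_eq_true] at h1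
  have hv := isM24_valid h1.1.1
  refine ⟨mem_C.2 ⟨decode_mem_M24 h1.1.1, commCode_spec Z2B_valid hv h1.1.2⟩, hv, fun x hx hlt => ?_⟩
  rw [decode_pt hv hlt, Nat.eq_of_beq_eq_true (h1.2 x hx)]

theorem CW1_ok : okL [] CW1 = true := by decide +kernel
theorem CW2_ok : okL [23] CW2 = true := by decide +kernel
theorem CW3_ok : okL [23, 1] CW3 = true := by decide +kernel

/-- the lists of images -/
def L1 : List ℕ := idxL
def L2 : List ℕ := idxL.filter fun i => Nat.beq (bit T23 i) 0
def L3 : List ℕ := idxL.filter fun i => Nat.beq (bit T23 i) 0 && Nat.beq (bit T1 i) 0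

theorem L1_len : L1.length = 24 := by decide +kernel
theorem L2_len : L2.length = 20 := by decide +kernel
theorem L3_len : L3.length = 16 := by decide +kernel

theorem L1_nd : L1.Nodup := idxL_nodup
theorem L2_nd : L2.Nodup := idxL_nodup.filter _
theorem L3_nd : L3.Nodup := idxL_nodup.filter _

theorem L1_lt : ∀ q ∈ L1, q < 24 := fun q hq => mem_idxL.1 hq
theorem L2_lt : ∀ q ∈ L2, q < 24 := fun q hq => mem_idxL.1 (List.mem_of_mem_filter hq)
theorem L3_lt : ∀ q ∈ L3, q < 24 := fun q hq => mem_idxL.1 (List.mem_of_mem_filter hq)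

theorem L1_cov : L1.all (fun q => CW1.any fun c => Nat.beq (ap c 23) q) = true := by decide +kernel
theorem L2_cov : L2.all (fun q => CW2.any fun c => Nat.beq (ap c 1) q) = true := by decide +kernel
theorem L3_cov : L3.all (fun q => CW3.any fun c => Nat.beq (ap c 3) q) = true := by decide +kernel

/-! ### the invariant sextet -/

/-- the sextet -/
noncomputable def S0 : Finset (Finset GolayPt) := famOf S0L

theorem S0L_mem : S0L ∈ sexL := by decide +kernel

theorem S0_sextet : S0 ∈ sextets := by
  rw [sextets_eq_image]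
  exact ⟨S0L, S0L_mem, rfl⟩

theorem S0L_unique : sexL.filter (fun l => l.all (maskInv Z2B)) = [S0L] := by decide +kernel

theorem S0L_lt : allLt S0L = true := by decide +kernel

theorem Z_fix_tetrad {m : ℕ} (hm : m ∈ S0L) : Z • ofMask m = ofMask m := by
  have h : S0L.all (maskInv Z2B) = true := by decide +kernel
  exact (maskInv_spec Z2B_valid (allLt_spec S0L_lt m hm)).1 (List.all_eq_true.1 h m hm)

theorem Z_fix_S0 : Z • S0 = S0 := by
  rw [Z, S0]
  exact (famInv_spec Z2B_valid S0L_lt).1 (by decide +kernel)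

theorem C_fix_S0 {c : Equiv.Perm GolayPt} (hc : c ∈ C) : c • S0 = S0 := by
  obtain ⟨hc1, hc2⟩ := mem_C.1 hc
  have h1 : c • S0 ∈ sextets := smul_mem_sextets hc1 S0_sextet
  rw [sextets_eq_image] at h1
  obtain ⟨l, hl, e⟩ := h1
  have hl2 : l ∈ sexL.filter (fun l => l.all (maskInv Z2B)) := by
    refine List.mem_filter.2 ⟨hl, List.all_eq_true.2 fun t ht => ?_⟩
    have hlt := allLt_spec (sexOK_asc (List.all_eq_true.1 sexL_ok l hl)).2 t ht
    refine (maskInv_spec Z2B_valid hlt).2 ?_
    have h2 : ofMask t ∈ c • S0 := by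
      rw [← e]; exact ofMask_mem_famOf ht
    obtain ⟨T, hT, e2⟩ := Finset.mem_smul_finset.1 h2
    obtain ⟨m, hm, rfl⟩ := mem_famOf.1 hT
    change c • ofMask m = ofMask t at e2
    rw [← e2]
    change Z • (c • ofMask m) = c • ofMask m
    rw [smul_smul, ← hc2, mul_smul, Z_fix_tetrad hm]
  rw [S0L_unique, List.mem_singleton] at hl2
  rw [← e, hl2]
  rfl

theorem T23_mem : T23 ∈ S0L := by decide +kernel
theorem T1_mem : T1 ∈ S0L := by decide +kernel

theorem C_fix_T23 {c : Equiv.Perm GolayPt} (hc : c ∈ C) (h : c (pt 23) = pt 23) : c • ofMask T23 = ofMask T23 :=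
  smul_tetrad S0_sextet (C_fix_S0 hc) (ofMask_mem_famOf T23_mem) ((pt_mem_ofMask (by norm_num)).2 (by decide +kernel)) h

theorem C_fix_T1 {c : Equiv.Perm GolayPt} (hc : c ∈ C) (h : c (pt 1) = pt 1) : c • ofMask T1 = ofMask T1 :=
  smul_tetrad S0_sextet (C_fix_S0 hc) (ofMask_mem_famOf T1_mem) ((pt_mem_ofMask (by norm_num)).2 (by decide +kernel)) h

/-! ### the chain -/

noncomputable def C1 : Subgroup (Equiv.Perm GolayPt) := C ⊓ MulAction.stabilizer (Equiv.Perm GolayPt) (pt 23)
noncomputable def C2 : Subgroup (Equiv.Perm GolayPt) := C1 ⊓ MulAction.stabilizer (Equiv.Perm GolayPt) (pt 1)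
noncomputable def C3 : Subgroup (Equiv.Perm GolayPt) := C2 ⊓ MulAction.stabilizer (Equiv.Perm GolayPt) (pt 3)

theorem card_C : Nat.card C = 24 * Nat.card C1 := by
  rw [C1, card_step C 23 L1 L1_nd L1_lt (fun g _ => mem_idxL.2 (idx_lt _)), L1_len]
  intro q hq
  obtain ⟨c, hc, e⟩ := List.any_eq_true.1 (List.all_eq_true.1 L1_cov q hq)
  have h := okL_spec CW1_ok hc
  exact ⟨decode c, h.1, by rw [decode_pt h.2.1 (by norm_num), Nat.eq_of_beq_eq_true e]⟩

theorem card_C1 : Nat.card C1 = 20 * Nat.card C2 := by
  rw [C2, card_step C1 1 L2 L2_nd L2_lt _ _, L2_len]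
  · intro g hg
    obtain ⟨hg1, hg2⟩ := mem_stab_iff.1 hg
    refine List.mem_filter.2 ⟨mem_idxL.2 (idx_lt _), ?_⟩
    have h1 : pt 1 ∉ ofMask T23 := by
      rw [pt_mem_ofMask (by norm_num)]; decide +kernel
    have h2 := smul_not_mem (C_fix_T23 hg1 hg2) h1
    rw [bit_of_not_mem] at h2
    rw [h2]; rfl
  · intro q hq
    obtain ⟨c, hc, e⟩ := List.any_eq_true.1 (List.all_eq_true.1 L2_cov q hq)
    have h := okL_spec CW2_ok hc
    refine ⟨decode c, mem_stab_iff.2 ⟨h.1, h.2.2 23 (by simp) (by norm_num)⟩, ?_⟩
    rw [decode_pt h.2.1 (by norm_num), Nat.eq_of_beq_eq_true e]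

theorem card_C2 : Nat.card C2 = 16 * Nat.card C3 := by
  rw [C3, card_step C2 3 L3 L3_nd L3_lt _ _, L3_len]
  · intro g hg
    obtain ⟨hg1, hg2⟩ := mem_stab_iff.1 hg
    obtain ⟨hg3, hg4⟩ := mem_stab_iff.1 hg1
    refine List.mem_filter.2 ⟨mem_idxL.2 (idx_lt _), ?_⟩
    have h1 : pt 3 ∉ ofMask T23 := by
      rw [pt_mem_ofMask (by norm_num)]; decide +kernel
    have h2 := smul_not_mem (C_fix_T23 hg3 hg4) h1
    rw [bit_of_not_mem] at h2
    have h3 : pt 3 ∉ ofMask T1 := by
      rw [pt_mem_ofMask (by norm_num)]; decide +kernel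
    have h4 := smul_not_mem (C_fix_T1 hg3 hg2) h3
    rw [bit_of_not_mem] at h4
    rw [h2, h4]; rfl
  · intro q hq
    obtain ⟨c, hc, e⟩ := List.any_eq_true.1 (List.all_eq_true.1 L3_cov q hq)
    have h := okL_spec CW3_ok hc
    refine ⟨decode c, mem_stab_iff.2 ⟨mem_stab_iff.2 ⟨h.1, h.2.2 23 (by simp) (by norm_num)⟩,
      h.2.2 1 (by simp) (by norm_num)⟩, ?_⟩
    rw [decode_pt h.2.1 (by norm_num), Nat.eq_of_beq_eq_true e]

theorem S48_comm : S48L.all (fun s => !(commCode Z2B s) || isIdC s) = true := by decide +kernel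

theorem Z_23 : Z (pt 23) = pt 0 := by
  rw [Z, decode_pt Z2B_valid (by norm_num)]
  congr 1

theorem Z_1 : Z (pt 1) = pt 2 := by
  rw [Z, decode_pt Z2B_valid (by norm_num)]
  congr 1

theorem card_C3 : Nat.card C3 = 1 := by
  have h : C3 = ⊥ := by
    rw [eq_bot_iff]
    intro g hg
    obtain ⟨hg1, hg2⟩ := mem_stab_iff.1 hg
    obtain ⟨hg3, hg4⟩ := mem_stab_iff.1 hg1
    obtain ⟨hg5, hg6⟩ := mem_stab_iff.1 hg3
    obtain ⟨hg7, hg8⟩ := mem_C.1 hg5
    have h0 : g (pt 0) = pt 0 := by
      rw [← Z_23, ← Equiv.Perm.mul_apply, hg8, Equiv.Perm.mul_apply, hg6]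
    have h2 : g (pt 2) = pt 2 := by
      rw [← Z_1, ← Equiv.Perm.mul_apply, hg8, Equiv.Perm.mul_apply, hg4]
    have hG : g ∈ G [3,2,1,0,23] := by
      refine ⟨hg7, fun i hi => ?_⟩
      simp only [List.mem_cons, List.not_mem_nil, or_false] at hi
      rcases hi with rfl | rfl | rfl | rfl | rfl
      · exact hg2
      · exact h2
      · exact hg4
      · exact h0
      · exact hg6
    obtain ⟨s, hs, e⟩ := mem_S48L hG
    have hv := isM24_valid (S48L_isM24 s hs)
    have h1 := List.all_eq_true.1 S48_comm s hs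
    have h3 : commCode Z2B s = true := by
      apply commCode_of Z2B_valid hv
      rw [← e]
      exact hg8
    rw [h3, Bool.not_true, Bool.false_or] at h1
    rw [Subgroup.mem_bot, e]
    exact isIdC_spec hv h1
  rw [h]
  exact Nat.card_unique

theorem card_C_eq : Nat.card C = 7680 := by
  rw [card_C, card_C1, card_C2, card_C3]

/-- conjugation preserves commuting -/
theorem comm_conj {k c z : Equiv.Perm GolayPt} :
    c * (k * z * k⁻¹) = (k * z * k⁻¹) * c ↔ (k⁻¹ * c * k) * z = z * (k⁻¹ * c * k) := by
  constructor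
  · intro h
    calc (k⁻¹ * c * k) * z = k⁻¹ * (c * (k * z * k⁻¹)) * k := by group
      _ = k⁻¹ * ((k * z * k⁻¹) * c) * k := by rw [h]
      _ = z * (k⁻¹ * c * k) := by group
  · intro h
    calc c * (k * z * k⁻¹) = k * ((k⁻¹ * c * k) * z) * k⁻¹ := by group
      _ = k * (z * (k⁻¹ * c * k)) * k⁻¹ := by rw [h]
      _ = (k * z * k⁻¹) * c := by group

/-- For a fixed-point-free involution t of the group of the length-24 code: its centraliser in that group has order 7680, is transitive on the 24 points, and is contained, together with t, in the stabiliser of some sextet. -/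
theorem result (t : Equiv.Perm Cfsg.GolayPt) (ht : t ∈ Cfsg.M24) (h₂ : orderOf t = 2) (h₀ : ∀ p, t p ≠ p) : Nat.card {c : Equiv.Perm Cfsg.GolayPt // c ∈ Cfsg.M24 ∧ c * t = t * c} = 7680 ∧ (∀ p q : Cfsg.GolayPt, ∃ c ∈ Cfsg.M24, c * t = t * c ∧ c p = q) ∧ ∃ S ∈ Cfsg.sextets, t • S = S ∧ ∀ c ∈ Cfsg.M24, c * t = t * c → c • S = S := by
  obtain ⟨k, hk, rfl⟩ := class2B ht (by rw [← h₂]; exact pow_orderOf_eq_one t) h₀
  have hmem : ∀ c, (c ∈ Cfsg.M24 ∧ c * (k * decode Z2B * k⁻¹) = (k * decode Z2B * k⁻¹) * c) ↔ k⁻¹ * c * k ∈ C := by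
    intro c
    rw [mem_C, comm_conj]
    constructor
    · rintro ⟨h1, h2⟩
      exact ⟨M24.mul_mem (M24.mul_mem (M24.inv_mem hk) h1) hk, h2⟩
    · rintro ⟨h1, h2⟩
      refine ⟨?_, h2⟩
      have : c = k * (k⁻¹ * c * k) * k⁻¹ := by group
      rw [this]
      exact M24.mul_mem (M24.mul_mem hk h1) (M24.inv_mem hk)
  refine ⟨?_, ?_, ?_⟩
  · rw [← card_C_eq]
    apply Nat.card_congr
    refine Equiv.subtypeEquiv (MulAut.conj k⁻¹).toEquiv (fun c => ?_)
    rw [hmem]
    have : (MulAut.conj k⁻¹).toEquiv c = k⁻¹ * c * k := by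
      simp [MulAut.conj_apply]
    rw [this]
  · intro p q
    have hp := List.any_eq_true.1 (List.all_eq_true.1 L1_cov (idx (k⁻¹ p)) (mem_idxL.2 (idx_lt _)))
    have hq := List.any_eq_true.1 (List.all_eq_true.1 L1_cov (idx (k⁻¹ q)) (mem_idxL.2 (idx_lt _)))
    obtain ⟨a, ha, ea⟩ := hp
    obtain ⟨b, hb, eb⟩ := hq
    have ha' := okL_spec CW1_ok ha
    have hb' := okL_spec CW1_ok hb
    have e1 : decode a (pt 23) = k⁻¹ p := by
      rw [decode_pt ha'.2.1 (by norm_num), Nat.eq_of_beq_eq_true ea, pt_idx]
    have e2 : decode b (pt 23) = k⁻¹ q := by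
      rw [decode_pt hb'.2.1 (by norm_num), Nat.eq_of_beq_eq_true eb, pt_idx]
    have hc0 : decode b * (decode a)⁻¹ ∈ C := C.mul_mem hb'.1 (C.inv_mem ha'.1)
    have h3 : k * (decode b * (decode a)⁻¹) * k⁻¹ ∈ Cfsg.M24 ∧
        (k * (decode b * (decode a)⁻¹) * k⁻¹) * (k * decode Z2B * k⁻¹) =
          (k * decode Z2B * k⁻¹) * (k * (decode b * (decode a)⁻¹) * k⁻¹) := by
      rw [hmem]
      have : k⁻¹ * (k * (decode b * (decode a)⁻¹) * k⁻¹) * k = decode b * (decode a)⁻¹ := by group
      rw [this]
      exact hc0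
    refine ⟨_, h3.1, h3.2, ?_⟩
    simp only [Equiv.Perm.mul_apply]
    have e3 : (decode a)⁻¹ (decode a (pt 23)) = pt 23 := by simp
    rw [← e1, e3, e2]
    simp
  · refine ⟨k • S0, smul_mem_sextets hk S0_sextet, ?_, ?_⟩
    · rw [smul_smul]
      have : k * decode Z2B * k⁻¹ * k = k * Z := by rw [Z]; group
      rw [this, mul_smul, Z_fix_S0]
    · intro c hc hct
      have h1 : k⁻¹ * c * k ∈ C := (hmem c).1 ⟨hc, hct⟩
      have h2 := C_fix_S0 h1
      rw [smul_smul]
      have : c * k = k * (k⁻¹ * c * k) := by group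
      rw [this, mul_smul, h2]

end Cfsg.Agent.S5607
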