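import Mathlib
import Cfsg.Agent.Lib.GolayClasses
import Cfsg.Statements.S5608

set_option autoImplicit false
open scoped Pointwise
open Cfsg

namespace Cfsg.Agent.S5608

open Cfsg.Agent.Lib.Golay Finset

/-- a fixed-point-free element of order three commuting with `s` forces `3` to divide the number of fixed points of `s` -/
theorem three_dvd {x s : Equiv.Perm GolayPt} (h3 : x ^ 3 = 1) (h0 : ∀ p, x p ≠ p) (hc : Commute x s) :
    3 ∣ (univ.filter fun p => s p = p).card := by
  have hmem : ∀ p, s p = p → s (x p) = x p := by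
    intro p hp
    have := congrArg (fun g : Equiv.Perm GolayPt => g p) hc.eq
    simp only [Equiv.Perm.mul_apply] at this
    rw [← this, hp]
  have h33 : ∀ p, x (x (x p)) = p := by
    intro p
    have := congrArg (fun s : Equiv.Perm GolayPt => s p) h3
    simpa [pow_succ, Equiv.Perm.mul_apply] using this
  let f : Function.End {p // s p = p} := fun p => ⟨x p.1, hmem _ p.2⟩
  have : Fact (Nat.Prime 3) := ⟨by norm_num⟩
  have hf : f ^ 3 ^ 1 = 1 := by
    have e : f ^ 3 ^ 1 = f * f * f := by
      rw [pow_one, pow_succ, pow_two]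
    rw [e]
    funext p
    apply Subtype.ext
    exact h33 _
  have := Equiv.Perm.card_fixedPoints_modEq hf
  have e2 : Fintype.card (Function.fixedPoints f) = 0 := by
    rw [Fintype.card_eq_zero_iff]
    refine ⟨fun p => ?_⟩
    have hp : f p.1 = p.1 := p.2
    exact h0 _ (congrArg Subtype.val hp)
  rw [e2, Fintype.card_subtype] at this
  exact (Nat.modEq_zero_iff_dvd).1 this

/-- commuting test -/
def commT (x u s : ℕ) : Bool := idxL.all fun i => Nat.beq (ap x (fn2 u s i)) (fn2 u s (ap x i))

theorem commT_of {x u s : ℕ} (hx : valid x = true) (hu : valid u = true) (hs : valid s = true)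
    (h : decode x * (decode u * decode s) = (decode u * decode s) * decode x) : commT x u s = true := by
  simp only [commT, List.all_eq_true, Nat.beq_eq]
  intro i hi
  have hi' := mem_idxL.1 hi
  have h1 : idx ((decode x * (decode u * decode s)) (pt i)) = idx (((decode u * decode s) * decode x) (pt i)) := by
    rw [h]
  rw [((repBy_decode hx).mul (repBy_fn2 hu hs)).val hi', ((repBy_fn2 hu hs).mul (repBy_decode hx)).val hi'] at h1
  exact h1

set_option maxRecDepth 100000 in
theorem no_comm : W2B.all (fun w => S48L.all fun x => !(ord3 idC x && nontriv idC x && commT x w.1 w.2.1)) = true := by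
  decide +kernel

theorem ord3_nontriv {s : ℕ} (hv : valid s = true) (h3 : decode s ^ 3 = 1) (h1 : decode s ≠ 1) :
    (ord3 idC s && nontriv idC s) = true := by
  have hu := isM24_valid isM24_idC
  have e : decode idC * decode s = decode s := by rw [decode_idC, one_mul]
  rw [Bool.and_eq_true]
  exact ⟨ord3_of hu hv (e.symm ▸ h3), nontriv_of hu hv (e.symm ▸ h1)⟩

/-- no fixed-point-free involution commutes with an element of order three having six fixed points -/
theorem excl {x s : Equiv.Perm GolayPt} (hx : x ∈ M24) (hs : s ∈ M24) (h3 : x ^ 3 = 1) (h1 : x ≠ 1) (h2 : s ^ 2 = 1)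
    (hf : (univ.filter fun p => x p = p).card = 6) (h0 : ∀ p, s p ≠ p) (hc : Commute x s) : False := by
  have h22 : ∀ p, s (s p) = p := by
    intro p
    have := congrArg (fun g : Equiv.Perm GolayPt => g p) h2
    simpa [pow_succ, Equiv.Perm.mul_apply] using this
  set F := univ.filter fun p => x p = p with hF
  have hFmem : ∀ p, p ∈ F ↔ x p = p := by simp [hF]
  have hs_F : ∀ p, p ∈ F → s p ∈ F := by
    intro p hp
    rw [hFmem] at hp ⊢
    have := congrArg (fun g : Equiv.Perm GolayPt => g p) hc.eq
    simp only [Equiv.Perm.mul_apply] at this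
    rw [this, hp]
  obtain ⟨a, ha⟩ : F.Nonempty := Finset.card_pos.1 (by omega)
  obtain ⟨c, hc1, hc2⟩ := Finset.exists_mem_notMem_of_card_lt_card
    (s := {a, s a}) (t := F) (lt_of_le_of_lt Finset.card_le_two (by omega))
  simp only [mem_insert, mem_singleton, not_or] at hc2
  obtain ⟨hca, hcb⟩ := hc2
  have hda : s c ≠ a := by
    intro h; apply hcb; rw [← h, h22]
  have hdb : s c ≠ s a := fun h => hca (s.injective h)
  obtain ⟨e, he1, he2⟩ := Finset.exists_mem_notMem_of_card_lt_card
    (s := {a, s a, c, s c}) (t := F) (lt_of_le_of_lt Finset.card_le_four (by omega))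
  simp only [mem_insert, mem_singleton, not_or] at he2
  obtain ⟨hea, heb, hec, hed⟩ := he2
  obtain ⟨k, hk, e1, e2, e3, e4, e5⟩ := exists_M24_five a (s a) c (s c) e (h0 a).symm (Ne.symm hca) (Ne.symm hda) (Ne.symm hea)
    (Ne.symm hcb) (Ne.symm hdb) (Ne.symm heb) (h0 c).symm (Ne.symm hec) (Ne.symm hed)
  have hs' : k⁻¹ * s * k ∈ M24 := M24.mul_mem (M24.mul_mem (M24.inv_mem hk) hs) hk
  have hx' : k⁻¹ * x * k ∈ M24 := M24.mul_mem (M24.mul_mem (M24.inv_mem hk) hx) hk
  have i1 := conj_apply (g := s) e1 e2 rfl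
  have i2 := conj_apply (g := s) e2 e1 (h22 a)
  have i3 := conj_apply (g := s) e3 e4 rfl
  have i4 := conj_apply (g := s) e4 e3 (h22 c)
  have hq : idx ((k⁻¹ * s * k) (pt 3)) ∉ [23,0,1,2,3] := by
    intro hmem
    have h5 : (k⁻¹ * s * k) (pt 3) = pt (idx ((k⁻¹ * s * k) (pt 3))) := (pt_idx _).symm
    have h6 : ∀ i ∈ [23,0,1,2,3], (k⁻¹ * s * k) (pt 3) ≠ pt i := by
      intro i hi
      simp only [List.mem_cons, List.not_mem_nil, or_false] at hi
      simp only [Equiv.Perm.mul_apply]
      rw [e5, Ne, Equiv.Perm.inv_eq_iff_eq]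
      rcases hi with rfl | rfl | rfl | rfl | rfl
      · rw [e1]; intro h; apply heb; rw [← h22 e, h]
      · rw [e2]; intro h; apply hea; exact s.injective h
      · rw [e3]; intro h; apply hed; rw [← h22 e, h]
      · rw [e4]; intro h; apply hec; exact s.injective h
      · rw [e5]; exact h0 _
    apply h6 _ hmem
    exact h5
  obtain ⟨u, hu, hm, t, ht, e'⟩ := coverU_spec cover2B hs' i1 i2 i3 i4 hq
  have huv := isM24_valid hm
  have htv := isM24_valid (S48L_isM24 t ht)
  have e3' : (decode u * decode t) ^ 2 = 1 := by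
    rw [← e', conj_pow_inv, h2]
    group
  have e0' : ∀ p, (decode u * decode t) p ≠ p := by
    intro p hp
    rw [← e'] at hp
    simp only [Equiv.Perm.mul_apply] at hp
    rw [Equiv.Perm.inv_eq_iff_eq] at hp
    exact h0 _ hp
  have ht' : (ord2 u t && fpf2 u t) = true := by
    rw [Bool.and_eq_true]
    exact ⟨ord2_of huv htv e3', fpf2_of huv htv e0'⟩
  obtain ⟨k1, hk1⟩ := WComplete_spec W2B_complete hu ht ht'
  -- the conjugate of `x`
  have hG : k⁻¹ * x * k ∈ G [3,2,1,0,23] := by
    refine ⟨hx', fun i hi => ?_⟩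
    simp only [List.mem_cons, List.not_mem_nil, or_false] at hi
    rcases hi with rfl | rfl | rfl | rfl | rfl
    · exact conj_apply (g := x) e5 e5 ((hFmem e).1 he1)
    · exact conj_apply (g := x) e4 e4 ((hFmem _).1 (hs_F _ hc1))
    · exact conj_apply (g := x) e3 e3 ((hFmem _).1 hc1)
    · exact conj_apply (g := x) e2 e2 ((hFmem _).1 (hs_F _ ha))
    · exact conj_apply (g := x) e1 e1 ((hFmem _).1 ha)
  obtain ⟨y, hy, ey⟩ := mem_S48L hG
  have hyv := isM24_valid (S48L_isM24 y hy)
  have hx3 : decode y ^ 3 = 1 := by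
    rw [← ey, conj_pow_inv, h3]
    group
  have hx1 : decode y ≠ 1 := by
    intro h
    rw [← ey] at h
    apply h1
    have : x = k * (k⁻¹ * x * k) * k⁻¹ := by group
    rw [this, h]
    group
  have hcomm : decode y * (decode u * decode t) = (decode u * decode t) * decode y := by
    rw [← ey, ← e']
    have := hc.eq
    calc k⁻¹ * x * k * (k⁻¹ * s * k) = k⁻¹ * (x * s) * k := by group
      _ = k⁻¹ * (s * x) * k := by rw [this]
      _ = k⁻¹ * s * k * (k⁻¹ * x * k) := by group
  have ht2 := commT_of hyv huv htv hcomm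
  have hno := List.all_eq_true.1 no_comm _ hk1
  have hno2 := List.all_eq_true.1 hno y hy
  simp only [Bool.not_eq_true', Bool.and_eq_false_iff] at hno2
  have h4 := ord3_nontriv hyv hx3 hx1
  rw [Bool.and_eq_true] at h4
  rcases hno2 with (h5 | h5) | h5
  · rw [h4.1] at h5; cases h5
  · rw [h4.2] at h5; cases h5
  · rw [ht2] at h5; cases h5

/-- If an element of order 3 and an involution of the group of the length-24 code commute, then either the element of order 3 has exactly 6 fixed points and the involution exactly 8, or both are fixed-point-free. -/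
theorem result (x s : Equiv.Perm Cfsg.GolayPt) (hx : x ∈ Cfsg.M24) (hs : s ∈ Cfsg.M24) (h₃ : orderOf x = 3) (h₂ : orderOf s = 2) (hc : Commute x s) : ((Finset.univ.filter fun p => x p = p).card = 6 ∧ (Finset.univ.filter fun p => s p = p).card = 8) ∨ ((Finset.univ.filter fun p => x p = p).card = 0 ∧ (Finset.univ.filter fun p => s p = p).card = 0) := by
  have h3 : x ^ 3 = 1 := by rw [← h₃]; exact pow_orderOf_eq_one x
  have h2 : s ^ 2 = 1 := by rw [← h₂]; exact pow_orderOf_eq_one s
  have hx1 : x ≠ 1 := by
    intro h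
    rw [h, orderOf_one] at h₃
    omega
  have hs1 : s ≠ 1 := by
    intro h
    rw [h, orderOf_one] at h₂
    omega
  have zero_fpf : ∀ {g : Equiv.Perm GolayPt}, (univ.filter fun p => g p = p).card = 0 → ∀ p, g p ≠ p := by
    intro g hg p hp
    have : p ∈ (univ.filter fun p => g p = p) := by simp [hp]
    rw [Finset.card_eq_zero.1 hg] at this
    simp at this
  rcases order3_fix hx h3 hx1 with h6 | h6 <;> rcases order2_fix hs h2 hs1 with h8 | h8
  · exact Or.inl ⟨h6, h8⟩
  · exact (excl hx hs h3 hx1 h2 h6 (zero_fpf h8) hc).elim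
  · have := three_dvd h3 (zero_fpf h6) hc
    rw [h8] at this
    norm_num at this
  · exact Or.inr ⟨h6, h8⟩

end Cfsg.Agent.S5608
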