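import Mathlib
import Cfsg.Agent.Lib.GolayOctPairs
import Cfsg.Statements.S5609
-- import your own Cfsg.Agent.* helpers here

set_option autoImplicit false
set_option maxRecDepth 100000
open scoped Pointwise
open Cfsg

namespace Cfsg.Agent.S5609

open Cfsg.Agent.Lib.Golay Finset

theorem adj_iff (a b : ↥(Cfsg.octads)) : (Cfsg.blockGraph Cfsg.octads).Adj a b ↔ ((a : Finset Cfsg.GolayPt) ∩ b).card = 0 := by
  rw [Cfsg.blockGraph, SimpleGraph.fromRel_adj, Finset.card_eq_zero, ← Finset.disjoint_iff_inter_eq_empty]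
  constructor
  · rintro ⟨_, h | h⟩
    · exact h
    · exact h.symm
  · intro h
    refine ⟨?_, Or.inl h⟩
    intro e
    have h1 := a.2.2
    rw [e, Finset.disjoint_self_iff_empty] at h
    have h2 := b.2.2
    rw [h] at h2
    simp at h2

/-- the numbers of common points -/
theorem meet_list : octL.all (fun y => Nat.beq y oct0 || Nat.beq (pop (Nat.land y oct0)) 0 ||
    Nat.beq (pop (Nat.land y oct0)) 2 || Nat.beq (pop (Nat.land y oct0)) 4) = true := by decide +kernel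

theorem meet_cases {a b : Finset Cfsg.GolayPt} (ha : a ∈ Cfsg.octads) (hb : b ∈ Cfsg.octads) (hne : a ≠ b) :
    (a ∩ b).card = 0 ∨ (a ∩ b).card = 2 ∨ (a ∩ b).card = 4 := by
  obtain ⟨k, hk, rfl⟩ := Cfsg.Agent.Lib.M24Facts.exists_smul_octad oct0_octad ha
  have h1 : k⁻¹ • b ∈ Cfsg.octads := smul_mem_octads (Cfsg.M24.inv_mem hk) hb
  have h2 : (k • ofMask oct0 ∩ b).card = (ofMask oct0 ∩ k⁻¹ • b).card := by
    rw [← Finset.card_smul_finset k (ofMask oct0 ∩ k⁻¹ • b), Finset.smul_finset_inter, smul_inv_smul]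
  rw [h2]
  rw [octads_eq_image] at h1
  obtain ⟨m, hm, e⟩ := h1
  have h3 := List.all_eq_true.1 meet_list m hm
  simp only [Bool.or_eq_true, Nat.beq_eq] at h3
  rw [← e, Finset.inter_comm, ← ofMask_land, card_ofMask]
  rcases h3 with ((h3 | h3) | h3) | h3
  · exfalso
    apply hne
    rw [← smul_inv_smul k b, ← e, h3]
  · exact Or.inl h3
  · exact Or.inr (Or.inl h3)
  · exact Or.inr (Or.inr h3)

theorem CC4_mem : ofMask CC4 ∈ Cfsg.octads := by
  rw [octads_eq_image]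
  exact ⟨CC4, by decide +kernel, rfl⟩

theorem AA2_mem : ofMask AA2 ∈ Cfsg.octads := by
  rw [octads_eq_image]
  exact ⟨AA2, by decide +kernel, rfl⟩

theorem disj_of_land {a b : ℕ} (h : Nat.land a b = 0) : (ofMask a ∩ ofMask b).card = 0 := by
  rw [← ofMask_land, card_ofMask, h]
  rfl

theorem card_smul_inter' (k : Equiv.Perm Cfsg.GolayPt) (a b : Finset Cfsg.GolayPt) :
    (k • a ∩ k • b).card = (a ∩ b).card := by
  rw [← Finset.smul_finset_inter, Finset.card_smul_finset]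

/-- a common neighbour of two octads meeting in four points -/
theorem common4 {a b : Finset Cfsg.GolayPt} (ha : a ∈ Cfsg.octads) (hb : b ∈ Cfsg.octads) (h : (a ∩ b).card = 4) :
    ∃ c ∈ Cfsg.octads, (a ∩ c).card = 0 ∧ (c ∩ b).card = 0 := by
  obtain ⟨k, hk, rfl, rfl⟩ := exists_pair_base ha hb (fun x hx => mem_orb4 hx) h
  refine ⟨k • ofMask CC4, smul_mem_octads hk CC4_mem, ?_, ?_⟩
  · rw [card_smul_inter']
    exact disj_of_land (by decide +kernel)
  · rw [card_smul_inter']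
    exact disj_of_land (by decide +kernel)

/-- no common neighbour of two octads meeting in two points -/
theorem no_common2 {a b : Finset Cfsg.GolayPt} (ha : a ∈ Cfsg.octads) (hb : b ∈ Cfsg.octads) (h : (a ∩ b).card = 2)
    {c : Finset Cfsg.GolayPt} (hc : c ∈ Cfsg.octads) (h1 : (a ∩ c).card = 0) (h2 : (c ∩ b).card = 0) : False := by
  obtain ⟨k, hk, rfl, rfl⟩ := exists_pair_base ha hb (fun x hx => mem_orb2 hx) h
  have h3 : k⁻¹ • c ∈ Cfsg.octads := smul_mem_octads (Cfsg.M24.inv_mem hk) hc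
  rw [octads_eq_image] at h3
  obtain ⟨m, hm, e⟩ := h3
  have hc' : c = k • ofMask m := by
    rw [e, smul_inv_smul]
  rw [hc', card_smul_inter'] at h1 h2
  rw [← ofMask_land, card_ofMask] at h1 h2
  have h4 : octL.all (fun c => !(Nat.beq (pop (Nat.land oct0 c)) 0 && Nat.beq (pop (Nat.land c RR2)) 0)) = true := by
    decide +kernel
  have h5 := List.all_eq_true.1 h4 m hm
  rw [h1, h2] at h5
  cases h5

/-- a path of length three between two octads meeting in two points -/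
theorem path2 {a b : Finset Cfsg.GolayPt} (ha : a ∈ Cfsg.octads) (hb : b ∈ Cfsg.octads) (h : (a ∩ b).card = 2) :
    ∃ x ∈ Cfsg.octads, (a ∩ x).card = 0 ∧ (x ∩ b).card = 4 := by
  obtain ⟨k, hk, rfl, rfl⟩ := exists_pair_base ha hb (fun x hx => mem_orb2 hx) h
  refine ⟨k • ofMask AA2, smul_mem_octads hk AA2_mem, ?_, ?_⟩
  · rw [card_smul_inter']
    exact disj_of_land (by decide +kernel)
  · rw [card_smul_inter', ← ofMask_land, card_ofMask]
    decide +kernel

abbrev GG := Cfsg.blockGraph Cfsg.octads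

theorem walk4 {a b : ↥(Cfsg.octads)} (h : ((a : Finset Cfsg.GolayPt) ∩ b).card = 4) : ∃ w : GG.Walk a b, w.length = 2 := by
  obtain ⟨c, hc, h1, h2⟩ := common4 a.2 b.2 h
  refine ⟨SimpleGraph.Walk.cons ((adj_iff a ⟨c, hc⟩).2 h1) (SimpleGraph.Walk.cons ((adj_iff ⟨c, hc⟩ b).2 h2) SimpleGraph.Walk.nil), rfl⟩

theorem walk2 {a b : ↥(Cfsg.octads)} (h : ((a : Finset Cfsg.GolayPt) ∩ b).card = 2) : ∃ w : GG.Walk a b, w.length = 3 := by
  obtain ⟨x, hx, h1, h2⟩ := path2 a.2 b.2 h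
  obtain ⟨w, hw⟩ := walk4 (a := ⟨x, hx⟩) (b := b) h2
  exact ⟨SimpleGraph.Walk.cons ((adj_iff a ⟨x, hx⟩).2 h1) w, by simp [hw]⟩

theorem reach (a b : ↥(Cfsg.octads)) : GG.Reachable a b := by
  by_cases hab : a = b
  · rw [hab]
  · have hne : (a : Finset Cfsg.GolayPt) ≠ b := fun e => hab (Subtype.ext e)
    rcases meet_cases a.2 b.2 hne with h | h | h
    · exact ((adj_iff a b).2 h).reachable
    · obtain ⟨w, -⟩ := walk2 h
      exact ⟨w⟩
    · obtain ⟨w, -⟩ := walk4 h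
      exact ⟨w⟩

theorem card_self_ne {a : ↥(Cfsg.octads)} (b : ↥(Cfsg.octads)) (h : ((a : Finset Cfsg.GolayPt) ∩ b).card ≠ 8) :
    a ≠ b := by
  intro e
  rw [← e, Finset.inter_self, a.2.2] at h
  exact h rfl

theorem dist_ne_zero' {a b : ↥(Cfsg.octads)} (h : a ≠ b) : GG.dist a b ≠ 0 := by
  intro h0
  exact h (((reach a b).dist_eq_zero_iff).1 h0)

theorem dist4 {a b : ↥(Cfsg.octads)} (h : ((a : Finset Cfsg.GolayPt) ∩ b).card = 4) : GG.dist a b = 2 := by
  obtain ⟨w, hw⟩ := walk4 h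
  have h1 := SimpleGraph.dist_le w
  have h2 : a ≠ b := card_self_ne b (by omega)
  have h3 := dist_ne_zero' h2
  have h4 : GG.dist a b ≠ 1 := by
    intro h5
    have := (adj_iff a b).1 (SimpleGraph.dist_eq_one_iff_adj.1 h5)
    omega
  omega

theorem walk_two {a b : ↥(Cfsg.octads)} (w : GG.Walk a b) (hw : w.length = 2) : ∃ c, GG.Adj a c ∧ GG.Adj c b := by
  cases w with
  | nil => simp at hw
  | cons h w' =>
    cases w' with
    | nil => simp at hw
    | cons h2 w'' =>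
      cases w'' with
      | nil => exact ⟨_, h, h2⟩
      | cons h3 w3 =>
        simp at hw

theorem dist2 {a b : ↥(Cfsg.octads)} (h : ((a : Finset Cfsg.GolayPt) ∩ b).card = 2) : GG.dist a b = 3 := by
  obtain ⟨w, hw⟩ := walk2 h
  have h1 := SimpleGraph.dist_le w
  have h2 : a ≠ b := card_self_ne b (by omega)
  have h3 := dist_ne_zero' h2
  have h4 : GG.dist a b ≠ 1 := by
    intro h5
    have := (adj_iff a b).1 (SimpleGraph.dist_eq_one_iff_adj.1 h5)
    omega
  have h5 : GG.dist a b ≠ 2 := by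
    intro h6
    obtain ⟨p, hp⟩ := (reach a b).exists_walk_length_eq_dist
    rw [h6] at hp
    obtain ⟨c, hc1, hc2⟩ := walk_two p hp
    exact no_common2 a.2 b.2 h c.2 ((adj_iff _ _).1 hc1) ((adj_iff _ _).1 hc2)
  omega


/-- In the graph on the 759 octads of the length-24 code in which two octads are adjacent when they are disjoint, the graph is connected (of diameter 3) and two distinct octads are at distance 1, 2 or 3 exactly when they meet in 0, 4 or 2 points respectively. -/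
theorem result (o o' : Finset Cfsg.GolayPt) (ho : o ∈ Cfsg.octads) (ho' : o' ∈ Cfsg.octads) (hne : o ≠ o') : (Cfsg.blockGraph Cfsg.octads).Connected ∧ ((Cfsg.blockGraph Cfsg.octads).dist ⟨o, ho⟩ ⟨o', ho'⟩ = 1 ↔ (o ∩ o').card = 0) ∧ ((Cfsg.blockGraph Cfsg.octads).dist ⟨o, ho⟩ ⟨o', ho'⟩ = 2 ↔ (o ∩ o').card = 4) ∧ ((Cfsg.blockGraph Cfsg.octads).dist ⟨o, ho⟩ ⟨o', ho'⟩ = 3 ↔ (o ∩ o').card = 2) := by
  have hne' : (⟨o, ho⟩ : ↥(Cfsg.octads)) ≠ ⟨o', ho'⟩ := fun e => hne (congrArg Subtype.val e)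
  have hconn : (Cfsg.blockGraph Cfsg.octads).Connected := by
    have : Nonempty ↥(Cfsg.octads) := ⟨⟨o, ho⟩⟩
    exact ⟨reach⟩
  refine ⟨hconn, ?_, ?_, ?_⟩
  · rw [SimpleGraph.dist_eq_one_iff_adj]
    exact adj_iff _ _
  · constructor
    · intro h
      have h' : GG.dist ⟨o, ho⟩ ⟨o', ho'⟩ = 2 := h
      rcases meet_cases ho ho' hne with h0 | h0 | h0
      · have := (SimpleGraph.dist_eq_one_iff_adj (G := GG)).2 ((adj_iff ⟨o, ho⟩ ⟨o', ho'⟩).2 h0)
        omega
      · have := dist2 (a := ⟨o, ho⟩) (b := ⟨o', ho'⟩) h0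
        omega
      · exact h0
    · intro h
      exact dist4 (a := ⟨o, ho⟩) (b := ⟨o', ho'⟩) h
  · constructor
    · intro h
      have h' : GG.dist ⟨o, ho⟩ ⟨o', ho'⟩ = 3 := h
      rcases meet_cases ho ho' hne with h0 | h0 | h0
      · have := (SimpleGraph.dist_eq_one_iff_adj (G := GG)).2 ((adj_iff ⟨o, ho⟩ ⟨o', ho'⟩).2 h0)
        omega
      · exact h0
      · have := dist4 (a := ⟨o, ho⟩) (b := ⟨o', ho'⟩) h0
        omega
    · intro h
      exact dist2 (a := ⟨o, ho⟩) (b := ⟨o', ho'⟩) h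

end Cfsg.Agent.S5609
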