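import Mathlib
import Cfsg.Agent.Lib.GolayOrbTree
import Cfsg.Agent.Lib.M24Facts
import Cfsg.Statements.S5615
-- import your own Cfsg.Agent.* helpers here

set_option autoImplicit false
set_option maxRecDepth 100000
open scoped Pointwise
open Cfsg

namespace Cfsg.Agent.S5615

open Cfsg.Agent.Lib.Golay Cfsg.Agent.Lib.OrbitTree Finset

def TLp : List ℕ × List ℕ := ([337856,7903248,8536111], [628112,7612992,8536111])

def TLt : OTree := (.node 0 (.node 0 (.node 0 (.node 0 (.node 0 .leaf (.node 1 .leaf (.node 2 (.node 2 .leaf .leaf) .leaf))) (.node 1 (.node 0 .leaf (.node 1 (.node 0 .leaf .leaf) .leaf)) .leaf)) (.node 2 (.node 0 (.node 1 (.node 1 .leaf (.node 2 .leaf .leaf)) (.node 2 .leaf .leaf)) (.node 1 (.node 1 (.node 0 .leaf .leaf) .leaf) (.node 2 (.node 1 .leaf (.node 2 (.node 0 .leaf .leaf) .leaf)) .leaf))) .leaf)) (.node 1 (.node 0 (.node 0 (.node 0 (.node 1 .leaf .leaf) (.node 1 .leaf .leaf)) (.node 1 (.node 0 .leaf (.node 1 (.node 2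 .leaf .leaf) (.node 2 .leaf .leaf))) (.node 2 .leaf .leaf))) (.node 1 (.node 0 (.node 1 (.node 1 .leaf .leaf) (.node 2 (.node 2 .leaf .leaf) .leaf)) (.node 1 (.node 1 .leaf .leaf) (.node 2 (.node 0 (.node 2 .leaf .leaf) .leaf) .leaf))) (.node 2 (.node 0 (.node 0 .leaf (.node 2 .leaf .leaf)) (.node 1 (.node 2 .leaf .leaf) (.node 2 (.node 0 .leaf (.node 2 (.node 0 .leaf .leaf) .leaf)) .leaf))) .leaf))) (.node 2 (.node 0 (.node 0 (.node 0 .leaf (.node 1 (.node 2 .leaf .leaf) .leaf)) (.node 1 (.node 0 .leaf (.node 2 (.node 0 .leaf .leaf) .leaf)) (.node 2 (.node 0 .leaf (.node 2 .leaf .leaf)) .leaf))) (.node 1 (.node 0 (.node 0 .leaf .leaf) (.node 1 (.node 1 (.node 2 .leaf .leaf) .leaf) .leaf)) (.node 2 (.node 0 (.node 2 (.node 1 .leaf .leaf) .leaf) (.node 1 .leaf .leaf)) .leaf))) .leaf))) (.node 1 (.node 0 (.node 0 (.node 0 (.node 0 .leaf .leaf) (.node 1 (.node 0 (.node 1 .leaf (.node 2 .leaf .leaf)) .leaf) .leaf)) (.node 1 (.node 0 (.node 0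 .leaf .leaf) (.node 1 (.node 0 (.node 2 .leaf .leaf) (.node 2 (.node 1 .leaf .leaf) .leaf)) (.node 2 (.node 0 .leaf (.node 1 (.node 0 .leaf .leaf) (.node 2 .leaf .leaf))) .leaf))) (.node 2 (.node 0 (.node 0 .leaf (.node 1 (.node 2 .leaf .leaf) .leaf)) (.node 1 .leaf (.node 2 .leaf .leaf))) .leaf))) (.node 1 (.node 0 (.node 0 (.node 1 .leaf (.node 2 (.node 0 .leaf .leaf) .leaf)) (.node 1 (.node 1 .leaf (.node 2 .leaf .leaf)) (.node 2 (.node 1 .leaf .leaf) .leaf))) (.node 1 (.node 0 (.node 0 (.node 2 .leaf .leaf) (.node 1 .leaf (.node 2 .leaf .leaf))) (.node 1 (.node 0 (.node 2 .leaf .leaf) (.node 1 .leaf (.node 2 .leaf .leaf))) (.node 2 .leaf .leaf))) (.node 2 (.node 0 (.node 0 (.node 2 .leaf .leaf) (.node 1 (.node 2 .leaf .leaf) (.node 2 .leaf .leaf))) (.node 1 (.node 2 (.node 0 .leaf (.node 1 .leaf .leaf)) .leaf) (.node 2 (.node 0 .leaf (.node 1 .leaf .leaf)) .leaf))) .leaf))) (.node 2 (.node 0 (.node 0 (.node 0 .leaf (.node 1 .leaf (.node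 2 (.node 1 .leaf (.node 2 .leaf .leaf)) .leaf))) (.node 1 .leaf (.node 2 (.node 0 (.node 2 .leaf .leaf) (.node 1 (.node 1 .leaf .leaf) .leaf)) .leaf))) (.node 1 .leaf (.node 2 (.node 0 .leaf (.node 1 (.node 1 .leaf .leaf) .leaf)) .leaf))) .leaf))) (.node 2 (.node 0 (.node 0 (.node 0 (.node 1 .leaf .leaf) (.node 1 (.node 0 .leaf (.node 1 .leaf .leaf)) .leaf)) (.node 1 (.node 1 .leaf (.node 2 (.node 0 .leaf .leaf) .leaf)) (.node 2 (.node 0 (.node 0 (.node 0 .leaf .leaf) (.node 1 .leaf (.node 2 .leaf .leaf))) (.node 1 .leaf (.node 2 (.node 0 .leaf (.node 1 .leaf .leaf)) .leaf))) .leaf))) (.node 2 (.node 0 (.node 0 (.node 0 .leaf .leaf) (.node 1 (.node 2 .leaf .leaf) (.node 2 (.node 2 .leaf .leaf) .leaf))) (.node 1 (.node 2 (.node 0 .leaf .leaf) .leaf) (.node 2 (.node 0 (.node 2 .leaf .leaf) (.node 1 (.node 0 .leaf (.node 1 .leaf .leaf)) (.node 2 (.node 0 .leaf (.node 2 .leaf .leaf)) .leaf))) .leaf))) .leaf)) .leaf)))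

def W0 : ℕ := 194160516312180986142567138239750374


/-- the trios through the standard octad -/
def TL15 : List (List ℕ) := triL.filter fun l => l.contains oct0

theorem TL15_len : TL15.length = 15 := by decide +kernel

theorem oct0_lt : oct0 < 2 ^ 24 := by decide +kernel

theorem mem_famOf_oct {l : List ℕ} (hl : l ∈ triL) : ofMask oct0 ∈ famOf l ↔ l.contains oct0 = true := by
  rw [mem_famOf, List.contains_iff_mem]
  constructor
  · rintro ⟨m, hm, e⟩
    have hlt := allLt_spec (triOK_asc (List.all_eq_true.1 triL_ok l hl)).2 m hm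
    rw [← ofMask_injOn hlt oct0_lt e]
    exact hm
  · intro h
    exact ⟨oct0, h, rfl⟩

theorem count_base : {T | T ∈ Cfsg.trios ∧ ofMask oct0 ∈ T}.ncard = 15 := by
  rw [ncard_trios_filter _ (fun l => l.contains oct0) (fun l hl => (mem_famOf_oct hl).symm)]
  exact TL15_len

theorem mem_TL15 {T : Finset (Finset Cfsg.GolayPt)} (hT : T ∈ Cfsg.trios) (hO : ofMask oct0 ∈ T) :
    ∃ l ∈ TL15, famOf l = T := by
  rw [trios_eq_image] at hT
  obtain ⟨l, hl, rfl⟩ := hT
  exact ⟨l, List.mem_filter.2 ⟨hl, (mem_famOf_oct hl).1 hO⟩, rfl⟩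

theorem of_mem_TL15 {l : List ℕ} (hl : l ∈ TL15) : famOf l ∈ Cfsg.trios ∧ ofMask oct0 ∈ famOf l := by
  obtain ⟨h1, h2⟩ := List.mem_filter.1 hl
  refine ⟨?_, (mem_famOf_oct h1).2 h2⟩
  rw [trios_eq_image]
  exact ⟨l, h1, rfl⟩

/-- ordered pairs of distinct trios through the octad -/
def TLpairs : List (List ℕ × List ℕ) := TL15.flatMap fun a => TL15.flatMap fun b => if a = b then [] else [(a, b)]

/-- lexicographic comparison -/
def ltP (p q : List ℕ × List ℕ) : Bool :=
  match ltL p.1 q.1 with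
  | true => true
  | false =>
    match ltL q.1 p.1 with
    | true => false
    | false => ltL p.2 q.2

theorem total_ltP : Total ltP := by
  rintro ⟨a, b⟩ ⟨c, d⟩ h1 h2
  simp only [ltP] at h1 h2
  cases h3 : ltL a c with
  | true => simp [h3] at h1
  | false =>
    cases h4 : ltL c a with
    | true => simp [h3, h4] at h1 h2
    | false =>
      simp only [h3, h4] at h1 h2
      rw [total_ltL a c h3 h4, total_ltL b d h1 h2]

/-- action on pairs -/
def actP (c : ℕ) (p : List ℕ × List ℕ) : List ℕ × List ℕ := (actS c p.1, actS c p.2)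

/-- decoding of pairs -/
noncomputable def decP (p : List ℕ × List ℕ) : Finset (Finset Cfsg.GolayPt) × Finset (Finset Cfsg.GolayPt) :=
  (famOf p.1, famOf p.2)

theorem hdecP : ∀ c, valid c = true → ∀ x, decode c • decP x = decP (actP c x) := by
  intro c hv x
  show (decode c • famOf x.1, decode c • famOf x.2) = (famOf (actS c x.1), famOf (actS c x.2))
  rw [decode_smul_famOf'' c hv, decode_smul_famOf'' c hv]

set_option maxHeartbeats 4000000 in
theorem pairs_check : sortU ltP (TLp :: evalT actP GOct TLt TLp) = sortU ltP TLpairs := by decide +kernel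

/-- double transitivity at the base -/
theorem base_2trans {T₁ T₂ T₁' T₂' : Finset (Finset Cfsg.GolayPt)} (h1 : T₁ ∈ Cfsg.trios) (h2 : T₂ ∈ Cfsg.trios)
    (h1' : T₁' ∈ Cfsg.trios) (h2' : T₂' ∈ Cfsg.trios) (o1 : ofMask oct0 ∈ T₁) (o2 : ofMask oct0 ∈ T₂)
    (o1' : ofMask oct0 ∈ T₁') (o2' : ofMask oct0 ∈ T₂') (hne : T₁ ≠ T₂) (hne' : T₁' ≠ T₂') :
    ∃ g ∈ Cfsg.M24, g • ofMask oct0 = ofMask oct0 ∧ g • T₁ = T₁' ∧ g • T₂ = T₂' := by
  obtain ⟨a, ha, rfl⟩ := mem_TL15 h1 o1
  obtain ⟨b, hb, rfl⟩ := mem_TL15 h2 o2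
  obtain ⟨a', ha', rfl⟩ := mem_TL15 h1' o1'
  obtain ⟨b', hb', rfl⟩ := mem_TL15 h2' o2'
  have hp : (a, b) ∈ TLpairs := by
    refine List.mem_flatMap.2 ⟨a, ha, List.mem_flatMap.2 ⟨b, hb, ?_⟩⟩
    rw [if_neg (fun e => hne (by rw [e]))]
    simp
  have hp' : (a', b') ∈ TLpairs := by
    refine List.mem_flatMap.2 ⟨a', ha', List.mem_flatMap.2 ⟨b', hb', ?_⟩⟩
    rw [if_neg (fun e => hne' (by rw [e]))]
    simp
  obtain ⟨g₁, hg₁, e₁⟩ := reach_all_of_tree total_ltP hdecP GOct_ok.spec TLt pairs_check hp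
  obtain ⟨g₂, hg₂, e₂⟩ := reach_all_of_tree total_ltP hdecP GOct_ok.spec TLt pairs_check hp'
  have h3 := (stabP (ofMask oct0)).mul_mem hg₂ ((stabP (ofMask oct0)).inv_mem hg₁)
  obtain ⟨h4, h5⟩ := mem_stabP.1 h3
  have e3 : (g₂ * g₁⁻¹) • decP (a, b) = decP (a', b') := by
    rw [mul_smul, ← e₁, inv_smul_smul, e₂]
  exact ⟨_, h4, h5, congrArg Prod.fst e3, congrArg Prod.snd e3⟩

/-- the points of the octad -/
def octPts : List ℕ := [0,1,2,3,5,14,17,23]

/-- code fixes the octad pointwise -/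
def fixO (s : ℕ) : Bool := octPts.all fun i => Nat.beq (ap s i) i

theorem octPts_spec : idxL.all (fun i => !(Nat.beq (bit oct0 i) 1) || octPts.contains i) = true := by decide +kernel

theorem idx_mem_octPts {p : Cfsg.GolayPt} (hp : p ∈ ofMask oct0) : idx p ∈ octPts := by
  have h1 := List.all_eq_true.1 octPts_spec (idx p) (mem_idxL.2 (idx_lt p))
  rw [bit_of_mem.1 hp] at h1
  simpa using h1

theorem pt_mem_oct {i : ℕ} (hi : i ∈ octPts) : pt i ∈ ofMask oct0 := by
  have h : octPts.all (fun i => Nat.blt i 24 && Nat.beq (bit oct0 i) 1) = true := by decide +kernel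
  have h1 := List.all_eq_true.1 h i hi
  simp only [Bool.and_eq_true, Nat.beq_eq] at h1
  exact (pt_mem_ofMask (Nat.le_of_ble_eq_true h1.1)).2 h1.2

theorem fixO_spec {s : ℕ} (hv : valid s = true) (h : fixO s = true) {p : Cfsg.GolayPt} (hp : p ∈ ofMask oct0) :
    decode s p = p := by
  have h1 := List.all_eq_true.1 h _ (idx_mem_octPts hp)
  have h2 := (repBy_decode hv) p
  apply idx_injective
  rw [h2]
  exact Nat.eq_of_beq_eq_true h1

theorem fixO_of {s : ℕ} (hv : valid s = true) (h : ∀ p ∈ ofMask oct0, decode s p = p) : fixO s = true := by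
  apply List.all_eq_true.2
  intro i hi
  have h1 := h _ (pt_mem_oct hi)
  have hlt : i < 24 := by
    have h2 : octPts.all (fun i => Nat.blt i 24) = true := by decide +kernel
    exact Nat.le_of_ble_eq_true (List.all_eq_true.1 h2 i hi)
  rw [decode_pt hv hlt] at h1
  rw [pt_injOn ((repBy_decode hv).lt hlt) hlt h1]
  exact Nat.beq_refl i

theorem smul_oct_of_fix {g : Equiv.Perm Cfsg.GolayPt} (h : ∀ p ∈ ofMask oct0, g p = p) :
    g • ofMask oct0 = ofMask oct0 := by
  ext p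
  rw [Finset.mem_smul_finset]
  constructor
  · rintro ⟨q, hq, rfl⟩
    show g q ∈ _
    rw [h q hq]
    exact hq
  · intro hp
    exact ⟨p, hp, h p hp⟩

theorem E_fix : S48L.all (fun s => !(fixO s) || TL15.all (famInv s)) = true := by decide +kernel

/-- elements fixing the octad pointwise fix the trios through it -/
theorem fix_trios {g : Equiv.Perm Cfsg.GolayPt} (hg : g ∈ Cfsg.M24) (h : ∀ p ∈ ofMask oct0, g p = p)
    {T : Finset (Finset Cfsg.GolayPt)} (hT : T ∈ Cfsg.trios) (hO : ofMask oct0 ∈ T) : g • T = T := by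
  have hG : g ∈ G [3,2,1,0,23] := by
    refine ⟨hg, fun i hi => h _ (pt_mem_oct ?_)⟩
    revert i
    decide
  obtain ⟨s, hs, rfl⟩ := mem_S48L hG
  have hv := isM24_valid (S48L_isM24 s hs)
  have h1 := List.all_eq_true.1 E_fix s hs
  rw [fixO_of hv h, Bool.not_true, Bool.false_or] at h1
  obtain ⟨l, hl, rfl⟩ := mem_TL15 hT hO
  have hl' := (List.mem_filter.1 hl).1
  exact (famInv_spec hv (triOK_asc (List.all_eq_true.1 triL_ok l hl')).2).1 (List.all_eq_true.1 h1 l hl)

theorem cover_E : idxL.all (fun z => !(Nat.beq (bit oct0 z) 0) || S48L.any fun t => fixO t && Nat.beq (ap t 4) z) = true := by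
  decide +kernel

/-- octads through the point outside -/
def As : List ℕ := TL15.flatMap fun l => l.filter fun m => Nat.beq (bit m 4) 1

/-- points outside the octad -/
def compl : List ℕ := idxL.filter fun i => Nat.beq (bit oct0 i) 0

theorem sep : compl.all (fun a => compl.all fun b => Nat.beq a b || As.any fun m => !(Nat.beq (bit m a) (bit m b))) = true := by
  decide +kernel

/-- preimages under the auxiliary element of the points outside -/
def pre0 : List ℕ := idxL.filter fun i => Nat.beq (bit oct0 (ap W0 i)) 0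

theorem W0_isM24 : isM24 W0 = true := by decide +kernel

theorem pre_check : S48L.all (fun s => !(pre0.all fun i => Nat.beq (ap s i) i) || isIdC s) = true := by decide +kernel

theorem base_in_pre : [23,0,1,2,3].all (fun i => pre0.contains i) = true := by decide +kernel

/-- an element fixing all points outside the octad is trivial -/
theorem eq_one_of_fix_out {g : Equiv.Perm Cfsg.GolayPt} (hg : g ∈ Cfsg.M24) (h : ∀ p, p ∉ ofMask oct0 → g p = p) : g = 1 := by
  let W := decode W0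
  have hW : W ∈ Cfsg.M24 := decode_mem_M24 W0_isM24
  have hv := isM24_valid W0_isM24
  have h1 : ∀ i ∈ pre0, (W⁻¹ * g * W) (pt i) = pt i := by
    intro i hi
    obtain ⟨hi1, hi2⟩ := List.mem_filter.1 hi
    have hlt := mem_idxL.1 hi1
    have h2 : W (pt i) ∉ ofMask oct0 := by
      rw [bit_of_not_mem, (repBy_decode hv).val hlt]
      exact Nat.eq_of_beq_eq_true hi2
    simp only [Equiv.Perm.mul_apply]
    rw [h _ h2]
    simp
  have hG : W⁻¹ * g * W ∈ G [3,2,1,0,23] := by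
    refine ⟨Cfsg.M24.mul_mem (Cfsg.M24.mul_mem (Cfsg.M24.inv_mem hW) hg) hW, fun i hi => h1 i ?_⟩
    have := List.all_eq_true.1 base_in_pre i (by
      simp only [List.mem_cons, List.not_mem_nil, or_false] at hi ⊢
      rcases hi with rfl | rfl | rfl | rfl | rfl <;> simp)
    simpa using this
  obtain ⟨s, hs, e⟩ := mem_S48L hG
  have hsv := isM24_valid (S48L_isM24 s hs)
  have h3 := List.all_eq_true.1 pre_check s hs
  have h4 : (pre0.all fun i => Nat.beq (ap s i) i) = true := by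
    apply List.all_eq_true.2
    intro i hi
    have h5 := h1 i hi
    have hlt := mem_idxL.1 (List.mem_filter.1 hi).1
    rw [e, decode_pt hsv hlt] at h5
    rw [pt_injOn ((repBy_decode hsv).lt hlt) hlt h5]
    exact Nat.beq_refl i
  rw [h4, Bool.not_true, Bool.false_or] at h3
  have h6 := isIdC_spec hsv h3
  rw [← e] at h6
  have : g = W * (W⁻¹ * g * W) * W⁻¹ := by group
  rw [this, h6]
  group

/-- elements fixing the trios through the octad fix the octad pointwise -/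
theorem fix_of_trios {g : Equiv.Perm Cfsg.GolayPt} (hg : g ∈ Cfsg.M24) (ho : g • ofMask oct0 = ofMask oct0)
    (h : ∀ T ∈ Cfsg.trios, ofMask oct0 ∈ T → g • T = T) : ∀ p ∈ ofMask oct0, g p = p := by
  have h4 : pt 4 ∉ ofMask oct0 := by
    rw [pt_mem_ofMask (by norm_num)]
    decide +kernel
  have h5 : g (pt 4) ∉ ofMask oct0 := smul_not_mem ho h4
  have h6 := List.all_eq_true.1 cover_E _ (mem_idxL.2 (idx_lt (g (pt 4))))
  rw [bit_of_not_mem.1 h5] at h6
  simp only [Nat.beq_refl, Bool.not_true, Bool.false_or, List.any_eq_true, Bool.and_eq_true] at h6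
  obtain ⟨t, ht, ht1, ht2⟩ := h6
  have hvt := isM24_valid (S48L_isM24 t ht)
  have htM := decode_mem_M24 (S48L_isM24 t ht)
  have ht3 : ∀ p ∈ ofMask oct0, decode t p = p := fun p hp => fixO_spec hvt ht1 hp
  let g₁ := (decode t)⁻¹ * g
  have hg₁ : g₁ ∈ Cfsg.M24 := Cfsg.M24.mul_mem (Cfsg.M24.inv_mem htM) hg
  have h7 : g₁ (pt 4) = pt 4 := by
    have h8 : decode t (pt 4) = g (pt 4) := by
      rw [decode_pt hvt (by norm_num), Nat.eq_of_beq_eq_true ht2, pt_idx]
    show (decode t)⁻¹ (g (pt 4)) = pt 4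
    rw [← h8]
    simp
  have hto := smul_oct_of_fix ht3
  have ho₁ : g₁ • ofMask oct0 = ofMask oct0 := by
    show ((decode t)⁻¹ * g) • ofMask oct0 = _
    rw [mul_smul, ho, inv_smul_eq_iff, hto]
  have hT₁ : ∀ T ∈ Cfsg.trios, ofMask oct0 ∈ T → g₁ • T = T := by
    intro T hT hO
    show ((decode t)⁻¹ * g) • T = _
    rw [mul_smul, h T hT hO, inv_smul_eq_iff, fix_trios htM ht3 hT hO]
  have hA : ∀ m ∈ As, g₁ • ofMask m = ofMask m := by
    intro m hm
    obtain ⟨l, hl, hm2⟩ := List.mem_flatMap.1 hm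
    obtain ⟨hm3, hm4⟩ := List.mem_filter.1 hm2
    obtain ⟨hl1, hl2⟩ := of_mem_TL15 hl
    by_contra hne
    have h8 : g₁ • ofMask m ∈ famOf l := by
      rw [← hT₁ _ hl1 hl2]
      exact Finset.smul_mem_smul_finset (ofMask_mem_famOf hm3)
    have h9 := hl1.2.2 _ h8 _ (ofMask_mem_famOf hm3) hne
    have h10 : pt 4 ∈ ofMask m := (pt_mem_ofMask (by norm_num)).2 (Nat.eq_of_beq_eq_true hm4)
    have h11 : pt 4 ∈ g₁ • ofMask m := Finset.mem_smul_finset.2 ⟨pt 4, h10, h7⟩
    exact (Finset.disjoint_left.1 h9) h11 h10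
  have hout : ∀ p, p ∉ ofMask oct0 → g₁ p = p := by
    intro p hp
    have hp' := smul_not_mem ho₁ hp
    have e1 : idx p ∈ compl := List.mem_filter.2 ⟨mem_idxL.2 (idx_lt p), by rw [bit_of_not_mem.1 hp]; rfl⟩
    have e2 : idx (g₁ p) ∈ compl := List.mem_filter.2 ⟨mem_idxL.2 (idx_lt _), by rw [bit_of_not_mem.1 hp']; rfl⟩
    have h8 := List.all_eq_true.1 (List.all_eq_true.1 sep _ e1) _ e2
    simp only [Bool.or_eq_true, Nat.beq_eq, List.any_eq_true, Bool.not_eq_true'] at h8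
    rcases h8 with h8 | ⟨m, hm, h8⟩
    · exact idx_injective h8.symm
    · exfalso
      have h9 := hA m hm
      have h10 : bit m (idx p) = bit m (idx (g₁ p)) := by
        by_cases h11 : p ∈ ofMask m
        · rw [bit_of_mem.1 h11, bit_of_mem.1 (smul_mem h9 h11)]
        · rw [bit_of_not_mem.1 h11, bit_of_not_mem.1 (smul_not_mem h9 h11)]
      rw [h10, Nat.beq_refl] at h8
      cases h8
  have h11 := eq_one_of_fix_out hg₁ hout
  have h12 : g = decode t := by
    have h13 : (decode t)⁻¹ * g = 1 := h11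
    rw [inv_mul_eq_one] at h13
    exact h13.symm
  rw [h12]
  exact ht3


/-- An octad of the length-24 code lies in exactly 15 trios; the stabiliser of the octad in the code's group acts doubly transitively on these 15 trios, and the kernel of this action is the pointwise stabiliser of the octad. -/
theorem result (o : Finset Cfsg.GolayPt) (ho : o ∈ Cfsg.octads) : {T : Finset (Finset Cfsg.GolayPt) | T ∈ Cfsg.trios ∧ o ∈ T}.ncard = 15 ∧ (∀ T₁ T₂ T₁' T₂' : Finset (Finset Cfsg.GolayPt), T₁ ∈ Cfsg.trios → T₂ ∈ Cfsg.trios → T₁' ∈ Cfsg.trios → T₂' ∈ Cfsg.trios → o ∈ T₁ → o ∈ T₂ → o ∈ T₁' → o ∈ T₂' → T₁ ≠ T₂ → T₁' ≠ T₂' → ∃ g ∈ Cfsg.M24, g • o = o ∧ g • T₁ = T₁' ∧ g • T₂ = T₂') ∧ ∀ g ∈ Cfsg.M24, g • o = o → ((∀ T ∈ Cfsg.trios, o ∈ T → g • T = T) ↔ ∀ p ∈ o, g p = p) := by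
  obtain ⟨k, hk, rfl⟩ := Cfsg.Agent.Lib.M24Facts.exists_smul_octad oct0_octad ho
  have hki := Cfsg.M24.inv_mem hk
  have hmem : ∀ {T : Finset (Finset Cfsg.GolayPt)}, k • ofMask oct0 ∈ T → ofMask oct0 ∈ k⁻¹ • T := by
    intro T hT
    exact Finset.mem_smul_finset.2 ⟨_, hT, inv_smul_smul k _⟩
  refine ⟨?_, ?_, ?_⟩
  · have : {T : Finset (Finset Cfsg.GolayPt) | T ∈ Cfsg.trios ∧ k • ofMask oct0 ∈ T} =
        (fun T => k • T) '' {T | T ∈ Cfsg.trios ∧ ofMask oct0 ∈ T} := by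
      ext T
      constructor
      · rintro ⟨h1, h2⟩
        exact ⟨k⁻¹ • T, ⟨smul_mem_trios hki h1, hmem h2⟩, smul_inv_smul k T⟩
      · rintro ⟨T', ⟨h1, h2⟩, rfl⟩
        exact ⟨smul_mem_trios hk h1, Finset.smul_mem_smul_finset h2⟩
    rw [this, Set.ncard_image_of_injective _ (MulAction.injective k), count_base]
  · intro T₁ T₂ T₁' T₂' h1 h2 h1' h2' o1 o2 o1' o2' hne hne'
    obtain ⟨g, hg, e0, e1, e2⟩ := base_2trans (smul_mem_trios hki h1) (smul_mem_trios hki h2) (smul_mem_trios hki h1')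
      (smul_mem_trios hki h2') (hmem o1) (hmem o2) (hmem o1') (hmem o2')
      (fun e => hne (smul_left_cancel _ e)) (fun e => hne' (smul_left_cancel _ e))
    refine ⟨k * g * k⁻¹, Cfsg.M24.mul_mem (Cfsg.M24.mul_mem hk hg) hki, ?_, ?_, ?_⟩
    · rw [mul_smul, mul_smul, inv_smul_smul, e0]
    · rw [mul_smul, mul_smul, e1, smul_inv_smul]
    · rw [mul_smul, mul_smul, e2, smul_inv_smul]
  · intro g hg hgo
    have hg0 : k⁻¹ * g * k ∈ Cfsg.M24 := Cfsg.M24.mul_mem (Cfsg.M24.mul_mem hki hg) hk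
    have hgo0 : (k⁻¹ * g * k) • ofMask oct0 = ofMask oct0 := by
      rw [mul_smul, mul_smul, hgo, inv_smul_smul]
    constructor
    · intro h p hp
      obtain ⟨q, hq, rfl⟩ := Finset.mem_smul_finset.1 hp
      have h1 := fix_of_trios hg0 hgo0 (by
        intro T hT hO
        rw [mul_smul, mul_smul, h (k • T) (smul_mem_trios hk hT) (Finset.smul_mem_smul_finset hO), inv_smul_smul]) q hq
      show g (k q) = k q
      simp only [Equiv.Perm.mul_apply] at h1
      rw [Equiv.Perm.inv_eq_iff_eq] at h1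
      exact h1
    · intro h T hT hO
      have h0 : ∀ p ∈ ofMask oct0, (k⁻¹ * g * k) p = p := by
        intro p hp
        have := h (k p) (Finset.mem_smul_finset.2 ⟨p, hp, rfl⟩)
        simp [Equiv.Perm.mul_apply, this]
      have h1 := fix_trios hg0 h0 (smul_mem_trios hki hT) (hmem hO)
      have h2 : (k⁻¹ * g * k) • k⁻¹ • T = k⁻¹ • (g • T) := by
        rw [mul_smul, mul_smul, smul_inv_smul]
      rw [h2] at h1
      exact smul_left_cancel _ h1

end Cfsg.Agent.S5615
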