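import Mathlib
import Cfsg.Agent.Lib.GolayOrbTree
import Cfsg.Agent.Lib.M24Facts
import Cfsg.Statements.S5616
-- import your own Cfsg.Agent.* helpers here

set_option autoImplicit false
set_option maxRecDepth 100000
open scoped Pointwise
open Cfsg

namespace Cfsg.Agent.S5616

open Cfsg.Agent.Lib.Golay Cfsg.Agent.Lib.OrbitTree Finset

def GY : List ℕ := [983226000714786429868689529513317408,63106425175118431666909372498499296,6631803736474831684490092755854391]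

def YR1 : List ℕ := [147496,268544,1082880,2621632,4268048,8388615]

def YT1 : OTree := (.node 0 (.node 0 (.node 0 .leaf (.node 1 .leaf .leaf)) (.node 1 (.node 0 .leaf (.node 1 (.node 0 .leaf .leaf) .leaf)) (.node 2 .leaf .leaf))) (.node 1 (.node 0 (.node 0 .leaf (.node 2 .leaf .leaf)) (.node 1 (.node 2 .leaf .leaf) (.node 2 .leaf .leaf))) (.node 2 (.node 0 .leaf (.node 2 (.node 1 .leaf .leaf) .leaf)) .leaf)))

def YR2 : List ℕ := [15,5264,622848,3416064,4196928,8536096]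

def YT2 : OTree := (.node 0 (.node 0 (.node 0 (.node 1 (.node 0 (.node 0 (.node 1 .leaf .leaf) (.node 1 (.node 0 .leaf .leaf) (.node 2 .leaf .leaf))) (.node 1 (.node 1 .leaf (.node 2 .leaf .leaf)) (.node 2 (.node 0 .leaf (.node 1 (.node 0 .leaf (.node 1 .leaf (.node 2 .leaf .leaf))) (.node 2 (.node 1 .leaf (.node 2 (.node 2 .leaf .leaf) .leaf)) .leaf))) .leaf))) (.node 2 (.node 1 (.node 0 (.node 2 .leaf .leaf) (.node 1 .leaf (.node 2 (.node 0 .leaf .leaf) .leaf))) (.node 2 (.node 2 .leaf .leaf) .leaf)) .leaf)) (.node 1 (.node 0 (.node 0 (.node 0 (.node 0 .leaf (.node 1 .leaf (.node 2 .leaf .leaf))) (.node 2 (.node 2 (.node 0 .leaf .leaf) .leaf) .leaf)) (.node 1 (.node 1 (.node 1 .leaf .leaf) (.node 2 .leaf .leaf)) .leaf)) (.node 1 (.node 0 (.node 1 .leaf (.node 2 .leaf .leaf)) (.node 1 (.node 0 (.node 0 .leaf (.node 2 .leaf .leaf)) (.node 2 (.node 1 .leaf .leaf) .leaf)) (.node 2 (.node 0 (.node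 1 .leaf .leaf) (.node 1 (.node 2 .leaf .leaf) (.node 2 (.node 0 .leaf .leaf) .leaf))) .leaf))) (.node 2 (.node 0 (.node 0 (.node 2 .leaf .leaf) (.node 2 .leaf .leaf)) (.node 1 (.node 1 (.node 2 .leaf .leaf) .leaf) (.node 2 (.node 0 (.node 0 .leaf .leaf) (.node 1 .leaf (.node 2 (.node 0 .leaf (.node 2 .leaf .leaf)) .leaf))) .leaf))) .leaf))) (.node 2 (.node 0 (.node 1 (.node 1 (.node 0 .leaf (.node 1 (.node 1 .leaf .leaf) .leaf)) (.node 2 (.node 2 (.node 0 .leaf .leaf) .leaf) .leaf)) (.node 2 (.node 0 .leaf (.node 1 .leaf (.node 2 (.node 2 .leaf .leaf) .leaf))) .leaf)) (.node 1 (.node 0 .leaf (.node 1 (.node 1 (.node 0 .leaf .leaf) (.node 2 .leaf .leaf)) (.node 2 (.node 1 .leaf .leaf) .leaf))) .leaf)) .leaf))) (.node 1 (.node 0 (.node 0 (.node 0 (.node 0 (.node 0 .leaf (.node 2 .leaf .leaf)) .leaf) (.node 1 (.node 0 (.node 0 .leaf .leaf) (.node 2 (.node 0 .leaf .leaf) .leaf)) (.node 2 (.node 0 .leaf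 (.node 1 .leaf .leaf)) .leaf))) (.node 1 (.node 0 (.node 0 (.node 2 .leaf .leaf) (.node 1 .leaf (.node 2 .leaf .leaf))) .leaf) (.node 2 (.node 0 (.node 1 (.node 2 .leaf .leaf) .leaf) .leaf) .leaf))) (.node 1 (.node 0 (.node 1 (.node 0 .leaf (.node 2 (.node 2 .leaf .leaf) .leaf)) (.node 2 .leaf .leaf)) (.node 1 (.node 0 (.node 1 (.node 2 .leaf .leaf) .leaf) (.node 1 (.node 0 (.node 2 .leaf .leaf) (.node 1 .leaf (.node 2 .leaf .leaf))) (.node 2 (.node 2 .leaf .leaf) .leaf))) .leaf)) (.node 2 (.node 0 (.node 0 (.node 1 (.node 0 .leaf .leaf) .leaf) (.node 2 (.node 1 .leaf (.node 2 (.node 0 .leaf (.node 2 .leaf .leaf)) .leaf)) .leaf)) (.node 2 (.node 0 (.node 0 (.node 0 .leaf .leaf) (.node 1 (.node 0 .leaf (.node 1 .leaf .leaf)) (.node 2 .leaf .leaf))) (.node 1 (.node 2 .leaf .leaf) .leaf)) .leaf)) .leaf))) (.node 2 (.node 0 (.node 0 (.node 0 (.node 0 (.node 1 .leaf .leaf) (.node 1 .leaf .leaf)) (.node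 1 (.node 0 .leaf (.node 2 .leaf .leaf)) .leaf)) (.node 1 (.node 0 (.node 0 (.node 1 .leaf (.node 2 .leaf .leaf)) (.node 2 (.node 0 .leaf (.node 2 .leaf .leaf)) .leaf)) (.node 1 (.node 0 (.node 0 .leaf .leaf) (.node 1 .leaf .leaf)) (.node 2 .leaf .leaf))) (.node 2 (.node 0 (.node 1 (.node 2 (.node 2 .leaf .leaf) .leaf) (.node 2 (.node 1 .leaf .leaf) .leaf)) (.node 1 (.node 0 (.node 1 .leaf (.node 2 .leaf .leaf)) (.node 1 (.node 2 .leaf .leaf) (.node 2 .leaf .leaf))) .leaf)) .leaf))) (.node 1 (.node 0 (.node 0 (.node 0 (.node 0 .leaf (.node 1 .leaf .leaf)) (.node 1 .leaf .leaf)) (.node 1 (.node 0 .leaf .leaf) (.node 2 (.node 1 .leaf (.node 2 .leaf .leaf)) .leaf))) (.node 1 (.node 0 (.node 0 (.node 0 .leaf .leaf) (.node 2 (.node 1 .leaf .leaf) .leaf)) (.node 1 (.node 1 .leaf .leaf) .leaf)) (.node 2 (.node 1 (.node 2 (.node 1 .leaf .leaf) .leaf) (.node 2 (.node 1 .leaf (.node 2 .leaf .leaf)) .leaf))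 .leaf))) (.node 2 (.node 0 (.node 0 (.node 1 (.node 0 .leaf .leaf) (.node 2 (.node 0 .leaf (.node 2 .leaf .leaf)) .leaf)) (.node 1 (.node 0 (.node 2 .leaf .leaf) (.node 1 .leaf (.node 2 (.node 2 .leaf .leaf) .leaf))) (.node 2 (.node 0 (.node 2 .leaf .leaf) (.node 1 .leaf (.node 2 .leaf .leaf))) .leaf))) (.node 1 (.node 0 (.node 2 .leaf .leaf) (.node 1 (.node 2 .leaf .leaf) (.node 2 (.node 0 .leaf (.node 2 (.node 2 .leaf .leaf) .leaf)) .leaf))) (.node 2 (.node 0 (.node 1 (.node 0 .leaf .leaf) (.node 2 (.node 0 (.node 0 .leaf .leaf) (.node 2 .leaf .leaf)) .leaf)) (.node 1 (.node 0 (.node 2 .leaf .leaf) (.node 1 .leaf (.node 2 .leaf .leaf))) .leaf)) .leaf))) .leaf))) .leaf))) (.node 1 (.node 0 (.node 0 (.node 0 (.node 0 (.node 0 (.node 0 .leaf .leaf) (.node 1 .leaf .leaf)) (.node 1 (.node 2 (.node 1 .leaf .leaf) .leaf) (.node 2 (.node 1 .leaf (.node 2 .leaf .leaf)) .leaf))) (.node 1 (.node 0 (.node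 0 .leaf (.node 1 (.node 1 .leaf .leaf) (.node 2 .leaf .leaf))) (.node 1 (.node 0 (.node 1 .leaf .leaf) (.node 1 .leaf .leaf)) .leaf)) .leaf)) (.node 1 (.node 0 (.node 0 .leaf (.node 1 (.node 0 .leaf (.node 1 (.node 0 .leaf .leaf) (.node 2 (.node 0 .leaf (.node 1 .leaf .leaf)) .leaf))) .leaf)) (.node 2 (.node 0 (.node 0 .leaf (.node 1 (.node 1 .leaf .leaf) (.node 2 .leaf .leaf))) (.node 1 (.node 0 (.node 1 .leaf (.node 2 .leaf .leaf)) (.node 2 (.node 0 .leaf (.node 2 .leaf .leaf)) .leaf)) .leaf)) .leaf)) (.node 2 (.node 0 (.node 0 (.node 2 (.node 2 .leaf .leaf) .leaf) (.node 1 (.node 0 (.node 1 .leaf .leaf) .leaf) (.node 2 (.node 2 (.node 0 .leaf (.node 2 .leaf .leaf)) .leaf) .leaf))) (.node 1 (.node 2 (.node 0 .leaf (.node 1 (.node 1 .leaf .leaf) .leaf)) .leaf) (.node 2 (.node 0 (.node 1 (.node 0 .leaf .leaf) (.node 2 (.node 2 .leaf .leaf) .leaf)) (.node 1 (.node 0 .leaf .leaf) (.node 2 (.node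 1 .leaf .leaf) .leaf))) .leaf))) .leaf))) (.node 1 (.node 0 (.node 0 (.node 1 .leaf .leaf) (.node 1 (.node 0 (.node 0 .leaf (.node 1 (.node 0 .leaf .leaf) .leaf)) (.node 1 (.node 1 .leaf .leaf) (.node 2 (.node 1 .leaf (.node 2 .leaf .leaf)) .leaf))) (.node 2 (.node 0 (.node 0 (.node 0 .leaf .leaf) (.node 1 (.node 0 .leaf .leaf) (.node 2 .leaf .leaf))) (.node 1 (.node 1 (.node 0 .leaf .leaf) .leaf) (.node 2 (.node 1 .leaf .leaf) .leaf))) .leaf))) (.node 1 (.node 0 (.node 1 (.node 1 .leaf .leaf) (.node 2 (.node 2 (.node 1 .leaf .leaf) .leaf) .leaf)) (.node 1 (.node 0 (.node 0 (.node 2 .leaf .leaf) (.node 1 (.node 1 .leaf (.node 2 .leaf .leaf)) .leaf)) (.node 1 (.node 1 (.node 2 .leaf .leaf) (.node 2 (.node 1 .leaf .leaf) .leaf)) (.node 2 (.node 0 .leaf (.node 1 (.node 2 .leaf .leaf) .leaf)) .leaf))) (.node 2 (.node 1 (.node 0 .leaf .leaf) (.node 2 (.node 2 .leaf .leaf) .leaf)) .leaf))) (.node 2 (.node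 0 (.node 1 (.node 0 .leaf (.node 1 (.node 0 .leaf .leaf) (.node 2 .leaf .leaf))) .leaf) (.node 1 (.node 1 (.node 0 .leaf (.node 1 (.node 2 .leaf .leaf) .leaf)) (.node 2 (.node 0 (.node 2 .leaf .leaf) (.node 2 .leaf .leaf)) .leaf)) (.node 2 (.node 0 (.node 1 (.node 0 .leaf .leaf) .leaf) (.node 1 (.node 1 .leaf (.node 2 (.node 2 .leaf .leaf) .leaf)) (.node 2 .leaf .leaf))) .leaf))) .leaf))) (.node 2 (.node 0 (.node 1 (.node 1 (.node 0 .leaf (.node 2 .leaf .leaf)) (.node 2 (.node 0 (.node 2 .leaf .leaf) (.node 1 .leaf .leaf)) .leaf)) .leaf) (.node 1 (.node 1 (.node 0 .leaf (.node 1 (.node 0 (.node 1 .leaf .leaf) .leaf) .leaf)) (.node 2 (.node 0 (.node 1 .leaf .leaf) (.node 1 (.node 0 .leaf (.node 2 .leaf .leaf)) (.node 2 (.node 0 .leaf .leaf) .leaf))) .leaf)) (.node 2 (.node 0 (.node 1 (.node 0 .leaf (.node 1 (.node 0 (.node 1 .leaf .leaf) .leaf) (.node 2 .leaf .leaf))) (.node 2 (.node 1 .leaf .leaf)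 .leaf)) (.node 1 (.node 0 .leaf (.node 1 .leaf .leaf)) .leaf)) .leaf))) .leaf))) (.node 2 (.node 0 (.node 0 (.node 0 (.node 0 (.node 1 .leaf (.node 2 .leaf .leaf)) (.node 1 .leaf (.node 2 (.node 1 .leaf .leaf) .leaf))) (.node 1 (.node 1 (.node 0 .leaf (.node 2 .leaf .leaf)) (.node 2 (.node 0 (.node 2 .leaf .leaf) (.node 2 .leaf .leaf)) .leaf)) (.node 2 (.node 0 (.node 2 .leaf .leaf) (.node 2 (.node 0 .leaf .leaf) .leaf)) .leaf))) (.node 1 (.node 1 (.node 1 (.node 0 (.node 2 .leaf .leaf) (.node 1 .leaf .leaf)) .leaf) (.node 2 (.node 0 (.node 0 .leaf (.node 1 .leaf .leaf)) (.node 1 (.node 1 .leaf .leaf) (.node 2 .leaf .leaf))) .leaf)) (.node 2 (.node 0 (.node 0 (.node 0 .leaf (.node 1 (.node 0 .leaf .leaf) .leaf)) (.node 1 (.node 1 .leaf (.node 2 .leaf .leaf)) .leaf)) (.node 1 (.node 0 .leaf (.node 1 (.node 0 (.node 0 .leaf .leaf) (.node 1 .leaf .leaf)) (.node 2 (.node 1 (.node 2 .leaf .leaf) .leaf)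 .leaf))) (.node 2 (.node 0 (.node 0 (.node 0 .leaf .leaf) (.node 1 (.node 0 .leaf .leaf) (.node 2 .leaf .leaf))) (.node 1 (.node 0 .leaf .leaf) (.node 2 (.node 0 .leaf .leaf) .leaf))) .leaf))) .leaf))) (.node 1 (.node 0 (.node 0 (.node 0 .leaf (.node 2 (.node 1 .leaf .leaf) .leaf)) (.node 1 (.node 1 (.node 0 .leaf (.node 1 .leaf (.node 2 .leaf .leaf))) .leaf) (.node 2 (.node 0 (.node 1 .leaf .leaf) (.node 2 (.node 0 .leaf (.node 1 (.node 2 .leaf .leaf) (.node 2 .leaf .leaf))) .leaf)) .leaf))) (.node 1 (.node 0 (.node 0 (.node 2 .leaf .leaf) (.node 1 (.node 2 .leaf .leaf) (.node 2 (.node 1 .leaf .leaf) .leaf))) (.node 1 (.node 0 (.node 0 .leaf (.node 2 (.node 2 .leaf .leaf) .leaf)) (.node 2 (.node 1 .leaf .leaf) .leaf)) (.node 2 (.node 0 (.node 1 .leaf (.node 2 .leaf .leaf)) (.node 2 (.node 2 .leaf .leaf) .leaf)) .leaf))) (.node 2 (.node 0 (.node 0 .leaf (.node 1 (.node 0 .leaf (.node 2 (.node 0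 .leaf (.node 2 .leaf .leaf)) .leaf)) .leaf)) (.node 1 (.node 0 (.node 0 .leaf (.node 1 .leaf (.node 2 .leaf .leaf))) (.node 1 (.node 1 .leaf (.node 2 .leaf .leaf)) .leaf)) .leaf)) .leaf))) (.node 2 (.node 0 (.node 0 (.node 0 (.node 0 .leaf .leaf) (.node 1 (.node 1 .leaf .leaf) (.node 2 (.node 0 .leaf (.node 2 .leaf .leaf)) .leaf))) (.node 1 (.node 0 (.node 1 .leaf .leaf) (.node 1 .leaf .leaf)) (.node 2 (.node 0 (.node 1 .leaf (.node 2 (.node 1 .leaf .leaf) .leaf)) (.node 1 .leaf .leaf)) .leaf))) (.node 1 (.node 0 (.node 0 (.node 2 .leaf .leaf) (.node 1 .leaf (.node 2 .leaf .leaf))) (.node 1 (.node 0 .leaf .leaf) (.node 2 (.node 0 (.node 1 .leaf .leaf) (.node 1 (.node 0 .leaf .leaf) .leaf)) .leaf))) (.node 2 (.node 0 (.node 1 (.node 0 .leaf (.node 2 .leaf .leaf)) (.node 2 (.node 0 (.node 2 .leaf .leaf) .leaf) .leaf)) (.node 1 .leaf (.node 2 (.node 1 (.node 2 .leaf .leaf) (.node 2 (.node 1 (.node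 0 .leaf .leaf) (.node 2 .leaf .leaf)) .leaf)) .leaf))) .leaf))) .leaf))) .leaf)))

def YR3 : List ℕ := [29,5250,346112,663616,5275680,10486528]

def YT3 : OTree := (.node 0 (.node 0 (.node 0 (.node 0 (.node 1 (.node 0 (.node 2 .leaf .leaf) (.node 1 (.node 1 .leaf .leaf) (.node 2 .leaf .leaf))) (.node 2 (.node 1 .leaf .leaf) .leaf)) (.node 1 (.node 0 (.node 0 (.node 0 (.node 2 .leaf .leaf) (.node 1 (.node 0 .leaf .leaf) .leaf)) (.node 1 (.node 2 (.node 1 .leaf .leaf) .leaf) (.node 2 (.node 0 .leaf (.node 1 (.node 0 .leaf (.node 2 .leaf .leaf)) .leaf)) .leaf))) (.node 1 (.node 0 (.node 1 .leaf .leaf) .leaf) (.node 2 (.node 0 (.node 1 (.node 2 .leaf .leaf) (.node 2 .leaf .leaf)) (.node 1 .leaf (.node 2 (.node 0 .leaf .leaf) .leaf))) .leaf))) (.node 2 (.node 0 (.node 0 .leaf (.node 1 (.node 0 (.node 2 .leaf .leaf) (.node 1 (.node 0 .leaf .leaf) (.node 2 .leaf .leaf))) (.node 2 (.node 0 .leaf (.node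 1 .leaf (.node 2 .leaf .leaf))) .leaf))) (.node 1 (.node 0 (.node 0 .leaf .leaf) .leaf) (.node 2 (.node 1 (.node 1 (.node 2 .leaf .leaf) (.node 2 .leaf .leaf)) (.node 2 (.node 0 .leaf (.node 1 (.node 0 .leaf .leaf) (.node 2 .leaf .leaf))) .leaf)) .leaf))) .leaf))) (.node 1 (.node 0 (.node 0 (.node 0 (.node 1 .leaf (.node 2 .leaf .leaf)) (.node 1 (.node 0 .leaf (.node 2 .leaf .leaf)) (.node 2 (.node 2 (.node 0 .leaf .leaf) .leaf) .leaf))) (.node 1 (.node 0 (.node 0 .leaf (.node 1 .leaf (.node 2 .leaf .leaf))) (.node 2 (.node 0 .leaf (.node 2 .leaf .leaf)) .leaf)) (.node 2 (.node 0 (.node 0 .leaf (.node 1 .leaf .leaf)) (.node 2 (.node 0 (.node 1 .leaf .leaf) (.node 1 .leaf .leaf)) .leaf)) .leaf))) (.node 1 (.node 0 (.node 0 (.node 1 .leaf (.node 2 .leaf .leaf)) (.node 2 (.node 0 .leaf (.node 2 .leaf .leaf)) .leaf)) (.node 1 (.node 0 (.node 2 .leaf .leaf) (.node 1 (.node 0 .leaf (.node 2 (.node 0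 .leaf .leaf) .leaf)) .leaf)) (.node 2 (.node 1 (.node 1 .leaf .leaf) (.node 2 (.node 2 .leaf .leaf) .leaf)) .leaf))) (.node 2 (.node 1 (.node 0 (.node 0 .leaf (.node 2 (.node 2 .leaf .leaf) .leaf)) (.node 1 (.node 1 .leaf (.node 2 .leaf .leaf)) (.node 2 (.node 0 .leaf (.node 2 .leaf .leaf)) .leaf))) (.node 2 (.node 0 (.node 0 .leaf .leaf) (.node 1 .leaf (.node 2 (.node 0 (.node 0 .leaf .leaf) (.node 2 (.node 2 .leaf .leaf) .leaf)) .leaf))) .leaf)) .leaf))) (.node 2 (.node 0 (.node 0 (.node 0 (.node 0 (.node 2 .leaf .leaf) (.node 1 .leaf (.node 2 .leaf .leaf))) (.node 2 (.node 2 (.node 0 .leaf (.node 1 .leaf .leaf)) .leaf) .leaf)) (.node 1 (.node 0 (.node 1 .leaf (.node 2 (.node 1 .leaf .leaf) .leaf)) (.node 1 (.node 0 .leaf .leaf) (.node 2 .leaf .leaf))) (.node 2 (.node 1 (.node 0 (.node 1 .leaf .leaf) (.node 1 .leaf .leaf)) .leaf) .leaf))) (.node 1 (.node 0 (.node 0 .leaf (.node 1 (.node 1 .leaf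 .leaf) (.node 2 (.node 0 .leaf (.node 1 (.node 0 .leaf .leaf) (.node 2 .leaf .leaf))) .leaf))) (.node 1 (.node 0 (.node 0 .leaf (.node 2 .leaf .leaf)) (.node 1 (.node 1 .leaf (.node 2 .leaf .leaf)) .leaf)) (.node 2 (.node 0 .leaf (.node 1 (.node 0 (.node 2 .leaf .leaf) (.node 1 .leaf .leaf)) .leaf)) .leaf))) (.node 2 (.node 0 (.node 0 (.node 0 .leaf (.node 1 .leaf .leaf)) (.node 1 (.node 1 .leaf .leaf) (.node 2 (.node 1 .leaf .leaf) .leaf))) (.node 1 (.node 0 (.node 0 (.node 1 .leaf (.node 2 .leaf .leaf)) .leaf) (.node 1 (.node 0 .leaf .leaf) (.node 2 (.node 1 .leaf .leaf) .leaf))) (.node 2 (.node 2 (.node 1 .leaf .leaf) .leaf) .leaf))) .leaf))) .leaf))) (.node 1 (.node 0 (.node 0 (.node 0 (.node 0 (.node 0 (.node 1 .leaf .leaf) (.node 2 .leaf .leaf)) (.node 1 (.node 1 .leaf .leaf) (.node 2 .leaf .leaf))) (.node 1 (.node 0 (.node 0 .leaf .leaf) (.node 1 .leaf (.node 2 (.node 1 .leaf (.node 2 (.node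 0 .leaf .leaf) .leaf)) .leaf))) (.node 2 (.node 0 (.node 2 .leaf .leaf) (.node 1 (.node 0 .leaf (.node 2 .leaf .leaf)) .leaf)) .leaf))) (.node 1 (.node 0 (.node 1 (.node 0 .leaf (.node 2 .leaf .leaf)) (.node 2 (.node 0 .leaf .leaf) .leaf)) (.node 1 (.node 1 (.node 1 .leaf (.node 2 .leaf .leaf)) (.node 2 .leaf .leaf)) .leaf)) (.node 2 (.node 0 (.node 0 (.node 2 .leaf .leaf) (.node 1 (.node 0 .leaf (.node 2 .leaf .leaf)) (.node 2 (.node 2 .leaf .leaf) .leaf))) (.node 1 (.node 0 (.node 1 .leaf .leaf) (.node 1 (.node 1 (.node 1 .leaf .leaf) .leaf) (.node 2 (.node 2 (.node 0 .leaf .leaf) .leaf) .leaf))) (.node 2 (.node 2 (.node 0 .leaf (.node 1 .leaf (.node 2 .leaf .leaf))) .leaf) .leaf))) .leaf))) (.node 1 (.node 0 (.node 0 (.node 0 (.node 1 (.node 0 .leaf (.node 2 .leaf .leaf)) .leaf) (.node 1 (.node 0 .leaf (.node 2 .leaf .leaf)) (.node 2 (.node 0 .leaf .leaf) .leaf))) (.node 1 (.node 0 (.node 1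 (.node 0 .leaf .leaf) .leaf) (.node 1 .leaf (.node 2 (.node 0 .leaf .leaf) .leaf))) (.node 2 (.node 1 (.node 0 .leaf (.node 2 (.node 0 .leaf .leaf) .leaf)) .leaf) .leaf))) (.node 1 (.node 0 (.node 0 .leaf (.node 1 (.node 2 (.node 2 .leaf .leaf) .leaf) (.node 2 (.node 0 .leaf (.node 2 .leaf .leaf)) .leaf))) (.node 1 (.node 0 (.node 0 (.node 1 .leaf .leaf) .leaf) (.node 2 (.node 2 .leaf .leaf) .leaf)) (.node 2 (.node 0 (.node 0 .leaf (.node 2 .leaf .leaf)) (.node 1 (.node 0 .leaf .leaf) (.node 2 (.node 2 .leaf .leaf) .leaf))) .leaf))) .leaf)) (.node 2 (.node 0 (.node 1 (.node 0 (.node 0 .leaf (.node 1 .leaf (.node 2 .leaf .leaf))) (.node 2 (.node 0 .leaf (.node 1 .leaf (.node 2 .leaf .leaf))) .leaf)) (.node 2 (.node 1 (.node 2 .leaf .leaf) (.node 2 (.node 0 .leaf (.node 2 .leaf .leaf)) .leaf)) .leaf)) (.node 1 (.node 0 (.node 0 (.node 0 .leaf .leaf) (.node 1 (.node 0 (.node 2 .leaf .leaf) (.node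 1 .leaf (.node 2 (.node 1 .leaf .leaf) .leaf))) (.node 2 (.node 1 .leaf (.node 2 .leaf .leaf)) .leaf))) (.node 1 (.node 0 .leaf (.node 1 (.node 1 .leaf .leaf) (.node 2 (.node 0 .leaf .leaf) .leaf))) (.node 2 (.node 1 (.node 1 .leaf .leaf) (.node 2 .leaf .leaf)) .leaf))) (.node 2 (.node 0 (.node 1 (.node 2 .leaf .leaf) (.node 2 (.node 1 (.node 1 .leaf .leaf) (.node 2 .leaf .leaf)) .leaf)) (.node 2 (.node 2 (.node 0 (.node 0 .leaf .leaf) .leaf) .leaf) .leaf)) .leaf))) .leaf))) (.node 2 (.node 0 (.node 0 (.node 0 (.node 0 (.node 0 .leaf (.node 1 (.node 1 .leaf .leaf) .leaf)) (.node 1 (.node 0 .leaf .leaf) (.node 2 (.node 2 .leaf .leaf) .leaf))) (.node 1 (.node 0 (.node 0 (.node 2 .leaf .leaf) (.node 1 .leaf .leaf)) (.node 1 (.node 2 .leaf .leaf) (.node 2 (.node 2 .leaf .leaf) .leaf))) (.node 2 (.node 2 (.node 1 .leaf (.node 2 .leaf .leaf)) .leaf) .leaf))) (.node 1 (.node 0 (.node 0 (.node 1 .leaf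 .leaf) (.node 1 (.node 0 .leaf .leaf) (.node 2 (.node 0 (.node 1 .leaf .leaf) .leaf) .leaf))) (.node 1 (.node 0 .leaf (.node 1 (.node 2 .leaf .leaf) .leaf)) (.node 2 (.node 2 (.node 0 .leaf .leaf) .leaf) .leaf))) (.node 2 (.node 0 (.node 0 (.node 0 .leaf (.node 1 .leaf .leaf)) (.node 1 (.node 0 .leaf .leaf) (.node 2 (.node 2 .leaf .leaf) .leaf))) (.node 1 (.node 0 .leaf (.node 1 (.node 0 .leaf (.node 1 .leaf .leaf)) (.node 2 (.node 0 .leaf (.node 1 .leaf (.node 2 (.node 1 .leaf .leaf) .leaf))) .leaf))) (.node 2 (.node 0 (.node 0 .leaf (.node 1 (.node 0 .leaf .leaf) (.node 2 .leaf .leaf))) (.node 1 (.node 0 .leaf .leaf) (.node 2 (.node 0 .leaf .leaf) .leaf))) .leaf))) .leaf))) (.node 1 (.node 0 (.node 0 (.node 0 (.node 1 .leaf .leaf) (.node 2 (.node 0 .leaf (.node 1 .leaf .leaf)) .leaf)) (.node 1 (.node 0 .leaf (.node 1 (.node 1 .leaf (.node 2 .leaf .leaf)) (.node 2 (.node 1 (.node 0 .leaf .leaf)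 .leaf) .leaf))) (.node 2 (.node 1 (.node 0 .leaf .leaf) (.node 2 .leaf .leaf)) .leaf))) (.node 1 (.node 0 (.node 0 (.node 0 .leaf (.node 1 .leaf (.node 2 .leaf .leaf))) (.node 1 (.node 2 .leaf .leaf) .leaf)) (.node 1 (.node 0 (.node 0 .leaf .leaf) (.node 2 (.node 2 .leaf .leaf) .leaf)) .leaf)) (.node 2 (.node 1 (.node 1 (.node 2 .leaf .leaf) .leaf) (.node 2 (.node 0 .leaf (.node 2 (.node 0 (.node 0 .leaf .leaf) .leaf) .leaf)) .leaf)) .leaf))) (.node 2 (.node 0 (.node 0 (.node 0 (.node 1 .leaf .leaf) (.node 1 (.node 2 .leaf .leaf) (.node 2 (.node 1 (.node 2 .leaf .leaf) .leaf) .leaf))) (.node 1 (.node 0 (.node 1 .leaf .leaf) (.node 1 (.node 0 .leaf (.node 1 .leaf .leaf)) (.node 2 .leaf .leaf))) .leaf)) (.node 1 (.node 0 (.node 0 .leaf (.node 1 .leaf (.node 2 .leaf .leaf))) (.node 1 (.node 0 (.node 0 .leaf .leaf) (.node 1 (.node 0 (.node 2 .leaf .leaf) .leaf) .leaf)) (.node 2 (.node 1 (.node 1 (.node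 2 .leaf .leaf) .leaf) (.node 2 .leaf .leaf)) .leaf))) (.node 2 (.node 0 (.node 0 .leaf (.node 2 (.node 1 .leaf .leaf) .leaf)) (.node 1 (.node 0 (.node 0 .leaf (.node 1 .leaf (.node 2 .leaf .leaf))) .leaf) .leaf)) .leaf))) .leaf))) .leaf))) (.node 1 (.node 0 (.node 0 (.node 0 (.node 0 (.node 0 (.node 2 .leaf .leaf) (.node 1 (.node 2 .leaf .leaf) (.node 2 .leaf .leaf))) (.node 1 (.node 0 (.node 0 .leaf (.node 1 .leaf (.node 2 .leaf .leaf))) (.node 1 (.node 1 .leaf .leaf) (.node 2 .leaf .leaf))) (.node 2 (.node 0 (.node 0 .leaf .leaf) (.node 2 (.node 1 .leaf .leaf) .leaf)) .leaf))) (.node 1 (.node 0 (.node 0 (.node 0 .leaf (.node 2 .leaf .leaf)) (.node 1 (.node 1 .leaf .leaf) (.node 2 (.node 2 .leaf .leaf) .leaf))) (.node 1 (.node 0 (.node 2 .leaf .leaf) (.node 1 .leaf (.node 2 (.node 0 .leaf .leaf) .leaf))) (.node 2 (.node 1 (.node 1 .leaf .leaf) (.node 2 .leaf .leaf)) .leaf))) (.node 2 (.node 0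 (.node 0 (.node 1 .leaf .leaf) (.node 1 .leaf (.node 2 (.node 1 .leaf (.node 2 .leaf .leaf)) .leaf))) (.node 2 (.node 0 .leaf (.node 2 .leaf .leaf)) .leaf)) .leaf))) (.node 2 (.node 0 (.node 0 (.node 0 .leaf (.node 1 (.node 1 .leaf .leaf) .leaf)) (.node 1 (.node 0 .leaf .leaf) (.node 2 (.node 0 (.node 1 .leaf (.node 2 .leaf .leaf)) (.node 2 (.node 0 .leaf .leaf) .leaf)) .leaf))) (.node 1 (.node 0 (.node 0 (.node 2 .leaf .leaf) (.node 1 .leaf (.node 2 (.node 1 (.node 0 .leaf .leaf) .leaf) .leaf))) (.node 1 (.node 0 .leaf (.node 1 (.node 0 .leaf (.node 1 .leaf .leaf)) .leaf)) (.node 2 (.node 1 (.node 1 .leaf .leaf) .leaf) .leaf))) (.node 2 (.node 0 (.node 0 (.node 0 (.node 1 .leaf .leaf) (.node 1 .leaf .leaf)) (.node 2 .leaf .leaf)) (.node 2 (.node 1 (.node 2 (.node 0 .leaf .leaf) .leaf) .leaf) .leaf)) .leaf))) .leaf)) (.node 1 (.node 0 (.node 0 (.node 0 (.node 0 (.node 2 .leaf .leaf) (.node 1 .leaf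 (.node 2 (.node 2 .leaf .leaf) .leaf))) (.node 1 .leaf (.node 2 (.node 0 (.node 0 (.node 1 .leaf .leaf) (.node 1 .leaf .leaf)) (.node 1 .leaf (.node 2 (.node 1 .leaf .leaf) .leaf))) .leaf))) (.node 1 (.node 0 (.node 1 .leaf (.node 2 .leaf .leaf)) (.node 2 (.node 0 .leaf (.node 1 (.node 0 .leaf .leaf) (.node 2 (.node 1 .leaf .leaf) .leaf))) .leaf)) (.node 2 (.node 0 (.node 0 (.node 0 .leaf .leaf) (.node 1 (.node 2 .leaf .leaf) (.node 2 .leaf .leaf))) (.node 1 (.node 2 (.node 1 .leaf .leaf) .leaf) (.node 2 (.node 0 (.node 2 .leaf .leaf) .leaf) .leaf))) .leaf))) (.node 1 (.node 1 (.node 0 (.node 0 (.node 0 .leaf (.node 1 .leaf .leaf)) (.node 2 .leaf .leaf)) (.node 1 (.node 0 (.node 0 .leaf (.node 2 .leaf .leaf)) (.node 2 (.node 1 .leaf .leaf) .leaf)) (.node 2 (.node 0 (.node 0 (.node 0 .leaf .leaf) .leaf) (.node 1 (.node 0 .leaf .leaf) (.node 2 (.node 1 .leaf .leaf) .leaf))) .leaf))) (.node 2 (.node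 0 (.node 0 .leaf (.node 1 (.node 1 .leaf .leaf) (.node 2 (.node 2 .leaf .leaf) .leaf))) (.node 1 (.node 0 (.node 0 .leaf (.node 2 .leaf .leaf)) (.node 1 .leaf (.node 2 (.node 1 .leaf .leaf) .leaf))) (.node 2 (.node 0 (.node 0 .leaf .leaf) .leaf) .leaf))) .leaf)) (.node 2 (.node 0 (.node 0 (.node 0 (.node 2 (.node 1 .leaf .leaf) .leaf) (.node 1 .leaf (.node 2 .leaf .leaf))) (.node 1 (.node 1 (.node 0 (.node 0 .leaf .leaf) (.node 2 .leaf .leaf)) (.node 2 .leaf .leaf)) (.node 2 (.node 0 .leaf (.node 2 .leaf .leaf)) .leaf))) (.node 1 (.node 0 (.node 1 .leaf .leaf) (.node 1 (.node 0 (.node 0 .leaf (.node 1 .leaf (.node 2 .leaf .leaf))) .leaf) (.node 2 (.node 0 (.node 2 .leaf .leaf) (.node 1 (.node 2 (.node 2 .leaf .leaf) .leaf) (.node 2 .leaf .leaf))) .leaf))) .leaf)) .leaf))) (.node 2 (.node 0 (.node 0 (.node 0 (.node 0 (.node 1 .leaf (.node 2 .leaf .leaf)) (.node 1 (.node 0 .leaf .leaf) (.node 2 (.node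 1 .leaf .leaf) .leaf))) (.node 1 (.node 0 (.node 1 .leaf .leaf) (.node 1 (.node 1 .leaf .leaf) (.node 2 (.node 2 .leaf .leaf) .leaf))) .leaf)) (.node 1 (.node 0 (.node 0 .leaf (.node 1 .leaf (.node 2 (.node 0 .leaf .leaf) .leaf))) (.node 1 (.node 1 .leaf (.node 2 .leaf .leaf)) (.node 2 (.node 0 (.node 2 .leaf .leaf) (.node 1 .leaf (.node 2 (.node 0 .leaf (.node 2 (.node 2 .leaf .leaf) .leaf)) .leaf))) .leaf))) (.node 2 (.node 0 .leaf (.node 2 (.node 1 .leaf (.node 2 .leaf .leaf)) .leaf)) .leaf))) (.node 1 (.node 0 (.node 0 (.node 1 (.node 2 .leaf .leaf) .leaf) (.node 1 (.node 0 (.node 0 .leaf .leaf) (.node 2 (.node 1 .leaf .leaf) .leaf)) (.node 2 (.node 0 .leaf (.node 1 (.node 1 .leaf .leaf) (.node 2 (.node 0 .leaf (.node 1 .leaf .leaf)) .leaf))) .leaf))) (.node 1 (.node 0 (.node 1 .leaf (.node 2 .leaf .leaf)) (.node 1 (.node 0 (.node 2 .leaf .leaf) (.node 1 (.node 0 .leaf (.node 1 .leaf .leaf))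 (.node 2 (.node 0 .leaf .leaf) .leaf))) (.node 2 (.node 0 (.node 2 .leaf .leaf) (.node 1 (.node 2 .leaf .leaf) .leaf)) .leaf))) (.node 2 (.node 1 (.node 0 .leaf (.node 2 (.node 0 .leaf .leaf) .leaf)) .leaf) .leaf))) (.node 2 (.node 0 (.node 0 (.node 1 (.node 0 .leaf .leaf) (.node 2 .leaf .leaf)) (.node 1 (.node 1 .leaf .leaf) (.node 2 (.node 1 .leaf (.node 2 .leaf .leaf)) .leaf))) (.node 1 (.node 0 (.node 0 (.node 2 .leaf .leaf) (.node 2 .leaf .leaf)) (.node 1 .leaf (.node 2 (.node 0 .leaf (.node 1 .leaf (.node 2 .leaf .leaf))) .leaf))) .leaf)) .leaf))) .leaf))) (.node 2 (.node 0 (.node 0 (.node 0 (.node 0 (.node 0 .leaf .leaf) (.node 1 (.node 0 (.node 1 .leaf .leaf) .leaf) (.node 2 (.node 0 .leaf (.node 1 .leaf .leaf)) .leaf))) (.node 1 (.node 0 (.node 0 (.node 1 .leaf (.node 2 .leaf .leaf)) (.node 2 (.node 0 .leaf (.node 2 .leaf .leaf)) .leaf)) (.node 1 (.node 2 (.node 2 .leaf .leaf) .leaf) (.node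 2 (.node 0 .leaf (.node 2 .leaf .leaf)) .leaf))) (.node 2 (.node 1 (.node 2 (.node 0 .leaf (.node 1 .leaf (.node 2 .leaf .leaf))) .leaf) .leaf) .leaf))) (.node 1 (.node 0 (.node 0 (.node 0 .leaf (.node 1 (.node 0 .leaf .leaf) (.node 2 (.node 1 .leaf (.node 2 .leaf .leaf)) .leaf))) .leaf) (.node 1 (.node 0 (.node 0 .leaf (.node 1 .leaf .leaf)) (.node 1 (.node 0 (.node 2 .leaf .leaf) .leaf) (.node 2 (.node 0 .leaf (.node 2 .leaf .leaf)) .leaf))) (.node 2 (.node 1 (.node 0 .leaf (.node 1 (.node 1 .leaf .leaf) (.node 2 .leaf .leaf))) (.node 2 (.node 1 (.node 1 .leaf (.node 2 .leaf .leaf)) (.node 2 .leaf .leaf)) .leaf)) .leaf))) (.node 2 (.node 0 (.node 0 (.node 2 (.node 1 .leaf .leaf) .leaf) (.node 1 (.node 1 (.node 1 .leaf .leaf) .leaf) .leaf)) (.node 1 (.node 0 (.node 1 .leaf .leaf) (.node 1 (.node 0 .leaf (.node 1 .leaf (.node 2 (.node 1 .leaf (.node 2 .leaf .leaf)) .leaf))) (.node 2 (.node 0 .leaf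 (.node 1 (.node 1 .leaf .leaf) (.node 2 .leaf .leaf))) .leaf))) (.node 2 (.node 0 (.node 2 .leaf .leaf) (.node 1 (.node 1 .leaf .leaf) .leaf)) .leaf))) .leaf))) (.node 1 (.node 0 (.node 0 (.node 1 (.node 0 (.node 0 .leaf .leaf) (.node 1 (.node 1 .leaf (.node 2 .leaf .leaf)) .leaf)) (.node 2 (.node 0 .leaf (.node 1 .leaf (.node 2 (.node 0 .leaf .leaf) .leaf))) .leaf)) (.node 2 (.node 0 (.node 0 (.node 2 .leaf .leaf) (.node 1 (.node 1 .leaf .leaf) (.node 2 (.node 1 .leaf .leaf) .leaf))) (.node 1 .leaf (.node 2 (.node 0 (.node 1 .leaf .leaf) (.node 1 .leaf .leaf)) .leaf))) .leaf)) (.node 1 (.node 0 (.node 0 (.node 0 (.node 2 .leaf .leaf) (.node 1 .leaf (.node 2 (.node 2 .leaf .leaf) .leaf))) (.node 1 (.node 1 (.node 0 .leaf .leaf) (.node 2 (.node 0 .leaf .leaf) .leaf)) (.node 2 .leaf .leaf))) (.node 1 (.node 0 (.node 1 .leaf (.node 2 (.node 1 .leaf .leaf) .leaf)) (.node 1 (.node 0 (.node 2 .leaf .leaf)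 (.node 1 (.node 0 .leaf .leaf) (.node 2 (.node 1 .leaf .leaf) .leaf))) .leaf)) (.node 2 (.node 0 (.node 0 (.node 2 .leaf .leaf) .leaf) (.node 1 (.node 1 .leaf .leaf) (.node 2 .leaf .leaf))) .leaf))) (.node 2 (.node 0 (.node 0 (.node 0 .leaf (.node 2 (.node 2 .leaf .leaf) .leaf)) (.node 1 (.node 1 (.node 0 .leaf .leaf) (.node 2 (.node 1 .leaf (.node 2 .leaf .leaf)) .leaf)) (.node 2 (.node 0 (.node 1 .leaf (.node 2 .leaf .leaf)) .leaf) .leaf))) (.node 1 (.node 0 (.node 0 (.node 1 .leaf .leaf) .leaf) (.node 1 (.node 0 (.node 1 .leaf (.node 2 .leaf .leaf)) (.node 1 (.node 0 .leaf (.node 1 .leaf .leaf)) (.node 2 (.node 1 .leaf .leaf) .leaf))) (.node 2 .leaf .leaf))) (.node 2 (.node 0 .leaf (.node 1 (.node 0 .leaf (.node 1 .leaf .leaf)) (.node 2 (.node 0 .leaf .leaf) .leaf))) .leaf))) .leaf))) (.node 2 (.node 0 (.node 0 (.node 0 (.node 2 (.node 2 .leaf .leaf) .leaf) (.node 1 (.node 2 (.node 0 (.node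 2 .leaf .leaf) .leaf) .leaf) (.node 2 (.node 0 .leaf (.node 1 .leaf (.node 2 .leaf .leaf))) .leaf))) (.node 1 (.node 0 (.node 0 (.node 2 .leaf .leaf) (.node 1 (.node 2 .leaf .leaf) (.node 2 .leaf .leaf))) (.node 1 (.node 0 (.node 0 .leaf .leaf) (.node 1 (.node 0 .leaf .leaf) .leaf)) .leaf)) (.node 2 (.node 0 (.node 0 .leaf (.node 1 .leaf .leaf)) (.node 1 (.node 1 (.node 0 (.node 2 .leaf .leaf) (.node 1 .leaf .leaf)) (.node 2 (.node 0 .leaf (.node 2 .leaf .leaf)) .leaf)) .leaf)) .leaf))) (.node 1 (.node 0 (.node 0 (.node 0 (.node 1 .leaf .leaf) (.node 1 .leaf (.node 2 (.node 0 .leaf .leaf) .leaf))) (.node 1 (.node 1 .leaf .leaf) (.node 2 .leaf .leaf))) (.node 1 (.node 2 (.node 0 .leaf (.node 1 .leaf (.node 2 (.node 0 .leaf (.node 2 .leaf .leaf)) .leaf))) .leaf) (.node 2 (.node 0 (.node 0 (.node 0 .leaf (.node 1 .leaf .leaf)) (.node 1 (.node 0 .leaf .leaf) (.node 2 .leaf .leaf))) (.node 1 (.node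 2 .leaf .leaf) (.node 2 (.node 1 .leaf (.node 2 (.node 2 .leaf .leaf) .leaf)) .leaf))) .leaf))) (.node 2 (.node 0 (.node 0 (.node 0 (.node 0 .leaf (.node 2 .leaf .leaf)) (.node 1 (.node 0 .leaf .leaf) (.node 2 .leaf .leaf))) (.node 1 (.node 1 .leaf .leaf) (.node 2 (.node 0 .leaf (.node 1 (.node 0 .leaf (.node 2 .leaf .leaf)) (.node 2 (.node 1 .leaf .leaf) .leaf))) .leaf))) (.node 1 (.node 0 (.node 0 .leaf (.node 2 (.node 0 .leaf (.node 2 .leaf .leaf)) .leaf)) (.node 1 (.node 0 .leaf (.node 1 .leaf (.node 2 .leaf .leaf))) (.node 2 (.node 2 .leaf .leaf) .leaf))) (.node 2 (.node 0 (.node 1 (.node 1 .leaf .leaf) .leaf) (.node 1 (.node 1 (.node 0 .leaf (.node 2 .leaf .leaf)) .leaf) (.node 2 (.node 0 .leaf (.node 1 .leaf (.node 2 .leaf .leaf))) .leaf))) .leaf))) .leaf))) .leaf))) .leaf)))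


/-- the standard set of three points -/
def Y0m : ℕ := 8388611

/-- the number of tetrads meeting a set -/
def NN (S : Finset (Finset Cfsg.GolayPt)) (Y : Finset Cfsg.GolayPt) : ℕ := (S.filter fun t => (t ∩ Y).Nonempty).card

/-- code of this number -/
def nC (l : List ℕ) : ℕ := (l.filter fun t => !(Nat.beq (Nat.land t Y0m) 0)).length

theorem NN_smul (k : Equiv.Perm Cfsg.GolayPt) (S : Finset (Finset Cfsg.GolayPt)) (Y : Finset Cfsg.GolayPt) :
    NN (k • S) (k • Y) = NN S Y := by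
  unfold NN
  have h0 : k • S = S.image (fun x => k • x) := Finset.image_smul.symm
  rw [h0, Finset.filter_image, Finset.card_image_of_injective _ (MulAction.injective k)]
  congr 1
  ext t
  simp only [Finset.mem_filter]
  rw [← Finset.smul_finset_inter, Finset.smul_finset_nonempty]

theorem Y0_lt : Y0m < 2 ^ 24 := by decide +kernel

theorem ofMask_zero : ofMask 0 = ∅ := by
  ext p
  simp [mem_ofMask]

theorem nonempty_iff {t : ℕ} : (ofMask t ∩ ofMask Y0m).Nonempty ↔ Nat.land t Y0m ≠ 0 := by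
  rw [← ofMask_land]
  have hlt : Nat.land t Y0m < 2 ^ 24 := by
    have : Nat.land t Y0m ≤ Y0m := Nat.and_le_right
    exact lt_of_le_of_lt this Y0_lt
  constructor
  · rintro ⟨p, hp⟩ h
    rw [h, ofMask_zero] at hp
    simp at hp
  · intro h
    rw [Finset.nonempty_iff_ne_empty]
    intro h2
    rw [← ofMask_zero] at h2
    exact h (ofMask_injOn hlt (by norm_num) h2)

theorem NN_code {l : List ℕ} (hl : niceL l = true) : NN (famOf l) (ofMask Y0m) = nC l := by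
  have h1 : (famOf l).filter (fun t => (t ∩ ofMask Y0m).Nonempty) =
      famOf (l.filter fun t => !(Nat.beq (Nat.land t Y0m) 0)) := by
    ext S
    simp only [Finset.mem_filter, mem_famOf, List.mem_filter]
    constructor
    · rintro ⟨⟨m, hm, rfl⟩, h⟩
      refine ⟨m, ⟨hm, ?_⟩, rfl⟩
      have := nonempty_iff.1 h
      simp only [Bool.not_eq_true', Bool.eq_false_iff, ne_eq, Nat.beq_eq]
      exact this
    · rintro ⟨m, ⟨hm, h⟩, rfl⟩
      refine ⟨⟨m, hm, rfl⟩, nonempty_iff.2 ?_⟩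
      simp only [Bool.not_eq_true', Bool.eq_false_iff, ne_eq, Nat.beq_eq] at h
      exact h
  unfold NN nC
  rw [h1]
  unfold famOf
  rw [List.toFinset_card_of_nodup, List.length_map]
  exact (nice_nodup hl).sublist (List.Sublist.map _ List.filter_sublist)

theorem count_base (n : ℕ) :
    {S | S ∈ Cfsg.sextets ∧ NN S (ofMask Y0m) = n}.ncard = (sexL.filter fun y => Nat.beq (nC y) n).length := by
  apply ncard_sextets_filter
  intro l hl
  rw [NN_code (sexL_nice l hl), Nat.beq_eq]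

theorem count_transport {k : Equiv.Perm Cfsg.GolayPt} (hk : k ∈ Cfsg.M24) (n : ℕ) :
    {S | S ∈ Cfsg.sextets ∧ NN S (k • ofMask Y0m) = n}.ncard = {S | S ∈ Cfsg.sextets ∧ NN S (ofMask Y0m) = n}.ncard := by
  have : {S | S ∈ Cfsg.sextets ∧ NN S (k • ofMask Y0m) = n} = (fun S => k • S) '' {S | S ∈ Cfsg.sextets ∧ NN S (ofMask Y0m) = n} := by
    ext S
    constructor
    · rintro ⟨h1, h2⟩
      refine ⟨k⁻¹ • S, ⟨smul_mem_sextets (Cfsg.M24.inv_mem hk) h1, ?_⟩, smul_inv_smul k S⟩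
      rw [← NN_smul k, smul_inv_smul]
      exact h2
    · rintro ⟨S', ⟨h1, h2⟩, rfl⟩
      exact ⟨smul_mem_sextets hk h1, by rw [NN_smul]; exact h2⟩
  rw [this]
  exact Set.ncard_image_of_injective _ (MulAction.injective k)

theorem GY_ok : GenOK (ofMask Y0m) GY := by
  intro c hc
  have h : GY.all (fun c => isM24 c && maskInv c Y0m) = true := by decide +kernel
  have h1 := List.all_eq_true.1 h c hc
  simp only [Bool.and_eq_true] at h1
  exact ⟨h1.1, (maskInv_spec (isM24_valid h1.1) Y0_lt).1 h1.2⟩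

set_option maxHeartbeats 4000000 in
theorem reach1 {y : List ℕ} (hy : y ∈ sexL) (hn : nC y = 1) :
    ∃ g ∈ stabP (ofMask Y0m), g • famOf YR1 = famOf y := by
  have hc : sortU ltL (YR1 :: evalT actS GY YT1 YR1) = sortU ltL (sexL.filter fun y => Nat.beq (nC y) 1) := by
    decide +kernel
  exact reach_all_of_tree total_ltL decode_smul_famOf'' GY_ok.spec YT1 hc
    (List.mem_filter.2 ⟨hy, by rw [hn]; rfl⟩)

set_option maxHeartbeats 4000000 in
theorem reach2 {y : List ℕ} (hy : y ∈ sexL) (hn : nC y = 2) :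
    ∃ g ∈ stabP (ofMask Y0m), g • famOf YR2 = famOf y := by
  have hc : sortU ltL (YR2 :: evalT actS GY YT2 YR2) = sortU ltL (sexL.filter fun y => Nat.beq (nC y) 2) := by
    decide +kernel
  exact reach_all_of_tree total_ltL decode_smul_famOf'' GY_ok.spec YT2 hc
    (List.mem_filter.2 ⟨hy, by rw [hn]; rfl⟩)

set_option maxHeartbeats 4000000 in
theorem reach3 {y : List ℕ} (hy : y ∈ sexL) (hn : nC y = 3) :
    ∃ g ∈ stabP (ofMask Y0m), g • famOf YR3 = famOf y := by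
  have hc : sortU ltL (YR3 :: evalT actS GY YT3 YR3) = sortU ltL (sexL.filter fun y => Nat.beq (nC y) 3) := by
    decide +kernel
  exact reach_all_of_tree total_ltL decode_smul_famOf'' GY_ok.spec YT3 hc
    (List.mem_filter.2 ⟨hy, by rw [hn]; rfl⟩)

theorem nC_values : sexL.all (fun y => Nat.beq (nC y) 1 || Nat.beq (nC y) 2 || Nat.beq (nC y) 3) = true := by
  decide +kernel

/-- two sextets with the same number are conjugate -/
theorem conj_base {y y' : List ℕ} (hy : y ∈ sexL) (hy' : y' ∈ sexL) (h : nC y = nC y') :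
    ∃ g ∈ Cfsg.M24, g • ofMask Y0m = ofMask Y0m ∧ g • famOf y = famOf y' := by
  have aux : ∀ {R : List ℕ}, (∃ g ∈ stabP (ofMask Y0m), g • famOf R = famOf y) → (∃ g ∈ stabP (ofMask Y0m), g • famOf R = famOf y') →
      ∃ g ∈ Cfsg.M24, g • ofMask Y0m = ofMask Y0m ∧ g • famOf y = famOf y' := by
    rintro R ⟨g₁, hg₁, e₁⟩ ⟨g₂, hg₂, e₂⟩
    have h3 := (stabP (ofMask Y0m)).mul_mem hg₂ ((stabP (ofMask Y0m)).inv_mem hg₁)
    obtain ⟨h4, h5⟩ := mem_stabP.1 h3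
    refine ⟨_, h4, h5, ?_⟩
    rw [mul_smul, ← e₁, inv_smul_smul, e₂]
  have h2 := List.all_eq_true.1 nC_values y hy
  simp only [Bool.or_eq_true, Nat.beq_eq] at h2
  rcases h2 with (h2 | h2) | h2
  · exact aux (reach1 hy h2) (reach1 hy' (h ▸ h2))
  · exact aux (reach2 hy h2) (reach2 hy' (h ▸ h2))
  · exact aux (reach3 hy h2) (reach3 hy' (h ▸ h2))

theorem ofMask_Y0 : ofMask Y0m = {pt 23, pt 0, pt 1} := by
  ext p
  have h1 := pt_idx p
  have h2 : idxL.all (fun i => (Nat.beq (bit Y0m i) 1) == ([23,0,1].contains i)) = true := by decide +kernel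
  have h3 := List.all_eq_true.1 h2 (idx p) (mem_idxL.2 (idx_lt p))
  rw [beq_iff_eq] at h3
  rw [bit_of_mem]
  simp only [Finset.mem_insert, Finset.mem_singleton]
  have h4 : bit Y0m (idx p) = 1 ↔ idx p ∈ [23,0,1] := by
    rw [← Nat.beq_eq, h3, List.contains_iff_mem]
  rw [h4]
  simp only [List.mem_cons, List.not_mem_nil, or_false]
  constructor
  · rintro (h | h | h)
    · left; rw [← h1, h]
    · right; left; rw [← h1, h]
    · right; right; rw [← h1, h]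
  · rintro (h | h | h)
    · left; rw [h, idx_pt (by norm_num)]
    · right; left; rw [h, idx_pt (by norm_num)]
    · right; right; rw [h, idx_pt (by norm_num)]

theorem exists_smul_Y0 {Y : Finset Cfsg.GolayPt} (hY : Y.card = 3) : ∃ k ∈ Cfsg.M24, k • ofMask Y0m = Y := by
  obtain ⟨a, b, c, hab, hac, hbc, rfl⟩ := Finset.card_eq_three.1 hY
  have h1 : (pt 23 : Cfsg.GolayPt) ≠ pt 0 := fun h => absurd (pt_injOn (by norm_num) (by norm_num) h) (by norm_num)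
  have h2 : (pt 23 : Cfsg.GolayPt) ≠ pt 1 := fun h => absurd (pt_injOn (by norm_num) (by norm_num) h) (by norm_num)
  have h3 : (pt 0 : Cfsg.GolayPt) ≠ pt 1 := fun h => absurd (pt_injOn (by norm_num) (by norm_num) h) (by norm_num)
  obtain ⟨⟨k, hk⟩, e1, e2, e3⟩ := Cfsg.Agent.Lib.M24Facts.exists_three h1 h2 h3 hab hac hbc
  refine ⟨k, hk, ?_⟩
  have e1' : k (pt 23) = a := e1
  have e2' : k (pt 0) = b := e2
  have e3' : k (pt 1) = c := e3
  rw [ofMask_Y0, Finset.smul_finset_insert, Finset.smul_finset_insert, Finset.smul_finset_singleton]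
  simp only [Equiv.Perm.smul_def, e1', e2', e3']


/-- Let Y be a set of 3 of the 24 points. The sextets of the length-24 code whose tetrads meeting Y number 1, 2 or 3 are respectively 21, 630 and 1120 in number, and two sextets with the same number of tetrads meeting Y are conjugate under the setwise stabiliser of Y in the code's group. -/
theorem result (Y : Finset Cfsg.GolayPt) (hY : Y.card = 3) : {S : Finset (Finset Cfsg.GolayPt) | S ∈ Cfsg.sextets ∧ (S.filter fun t => (t ∩ Y).Nonempty).card = 1}.ncard = 21 ∧ {S : Finset (Finset Cfsg.GolayPt) | S ∈ Cfsg.sextets ∧ (S.filter fun t => (t ∩ Y).Nonempty).card = 2}.ncard = 630 ∧ {S : Finset (Finset Cfsg.GolayPt) | S ∈ Cfsg.sextets ∧ (S.filter fun t => (t ∩ Y).Nonempty).card = 3}.ncard = 1120 ∧ ∀ S S' : Finset (Finset Cfsg.GolayPt), S ∈ Cfsg.sextets → S' ∈ Cfsg.sextets → (S.filter fun t => (t ∩ Y).Nonempty).card = (S'.filter fun t => (t ∩ Y).Nonempty).card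 → ∃ g ∈ Cfsg.M24, g • Y = Y ∧ g • S = S' := by
  obtain ⟨k, hk, rfl⟩ := exists_smul_Y0 hY
  have hcount : ∀ n, {S | S ∈ Cfsg.sextets ∧ NN S (k • ofMask Y0m) = n}.ncard = (sexL.filter fun y => Nat.beq (nC y) n).length := by
    intro n
    rw [count_transport hk, count_base]
  refine ⟨?_, ?_, ?_, ?_⟩
  · exact (hcount 1).trans (by decide +kernel)
  · exact (hcount 2).trans (by decide +kernel)
  · exact (hcount 3).trans (by decide +kernel)
  · intro S S' hS hS' hN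
    have h1 : k⁻¹ • S ∈ Cfsg.sextets := smul_mem_sextets (Cfsg.M24.inv_mem hk) hS
    have h2 : k⁻¹ • S' ∈ Cfsg.sextets := smul_mem_sextets (Cfsg.M24.inv_mem hk) hS'
    rw [sextets_eq_image] at h1 h2
    obtain ⟨y, hy, e⟩ := h1
    obtain ⟨y', hy', e'⟩ := h2
    have h3 : nC y = NN S (k • ofMask Y0m) := by
      rw [← NN_code (sexL_nice y hy), e, ← NN_smul k, smul_inv_smul]
    have h4 : nC y' = NN S' (k • ofMask Y0m) := by
      rw [← NN_code (sexL_nice y' hy'), e', ← NN_smul k, smul_inv_smul]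
    obtain ⟨g, hg, hg1, hg2⟩ := conj_base hy hy' (by rw [h3, h4]; exact hN)
    refine ⟨k * g * k⁻¹, Cfsg.M24.mul_mem (Cfsg.M24.mul_mem hk hg) (Cfsg.M24.inv_mem hk), ?_, ?_⟩
    · rw [mul_smul, mul_smul, inv_smul_smul, hg1]
    · rw [mul_smul, mul_smul]
      show k • g • (k⁻¹ • S) = S'
      rw [← e, hg2, e', smul_inv_smul]

end Cfsg.Agent.S5616
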