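import Mathlib
import Cfsg.Agent.Lib.GolayOrbDod
import Cfsg.Agent.Lib.DodecadFacts
import Cfsg.Statements.S5617
-- import your own Cfsg.Agent.* helpers here

set_option autoImplicit false
open scoped Pointwise
open Cfsg

namespace Cfsg.Agent.S5617

open Cfsg.Agent.Lib.Golay Finset in
theorem d0_dodecad : ofMask 28637 ∈ Cfsg.dodecads := by
  rw [dodecads_eq_image]
  exact ⟨28637, by decide +kernel, rfl⟩

open Cfsg.Agent.Lib.Golay Finset in
theorem D0_eq : famOf D0L = {ofMask 28637, Finset.univ \ ofMask 28637} := by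
  have h : famOf D0L = {ofMask 28637, ofMask 16748578} := by
    simp [famOf, D0L]
  have h5 : ofMask 16748578 = Finset.univ \ ofMask 28637 := ?_
  · rw [h, h5]
  ext p
  rw [Finset.mem_sdiff, bit_of_mem, bit_of_mem]
  have h2 : idxL.all (fun i => (Nat.beq (bit 16748578 i) 1 && !(Nat.beq (bit 28637 i) 1)) ||
      (!(Nat.beq (bit 16748578 i) 1) && Nat.beq (bit 28637 i) 1)) = true := by decide +kernel
  have h3 := List.all_eq_true.1 h2 (idx p) (mem_idxL.2 (idx_lt p))
  simp only [Bool.or_eq_true, Bool.and_eq_true, Bool.not_eq_true', Nat.beq_eq] at h3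
  simp only [Finset.mem_univ, true_and]
  have h4 : ∀ m i, Nat.beq (bit m i) 1 = false ↔ bit m i ≠ 1 := by
    intro m i
    rw [Ne, ← Nat.beq_eq, Bool.not_eq_true]
  rw [h4, h4] at h3
  tauto


/-- The setwise stabiliser, in the group of the length-24 code, of a complementary pair of dodecads has exactly three orbits on the 1771 sextets, of sizes 396, 495 and 880. -/
theorem result (d : Finset Cfsg.GolayPt) (hd : d ∈ Cfsg.dodecads) : ∃ X₁ ∈ Cfsg.sextets, ∃ X₂ ∈ Cfsg.sextets, ∃ X₃ ∈ Cfsg.sextets, (MulAction.orbit ↥(MulAction.stabilizer Cfsg.M24 ({d, Finset.univ \ d} : Finset (Finset Cfsg.GolayPt))) X₁).ncard = 396 ∧ (MulAction.orbit ↥(MulAction.stabilizer Cfsg.M24 ({d, Finset.univ \ d} : Finset (Finset Cfsg.GolayPt))) X₂).ncard = 495 ∧ (MulAction.orbit ↥(MulAction.stabilizer Cfsg.M24 ({d, Finset.univ \ d} : Finset (Finset Cfsg.GolayPt))) X₃).ncard = 880 ∧ Cfsg.sextets = MulAction.orbit ↥(MulAction.stabilizer Cfsg.M24 ({d, Finset.univ \ d} : Finset (Finset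 Cfsg.GolayPt))) X₁ ∪ MulAction.orbit ↥(MulAction.stabilizer Cfsg.M24 ({d, Finset.univ \ d} : Finset (Finset Cfsg.GolayPt))) X₂ ∪ MulAction.orbit ↥(MulAction.stabilizer Cfsg.M24 ({d, Finset.univ \ d} : Finset (Finset Cfsg.GolayPt))) X₃ := by
  open Cfsg.Agent.Lib.Golay Cfsg.Agent.Lib.DodecadFacts in
  obtain ⟨k, hk, rfl⟩ := exists_smul_dodecad d0_dodecad hd
  have h1 : ({k • ofMask 28637, Finset.univ \ (k • ofMask 28637)} : Finset (Finset GolayPt)) = k • famOf D0L := by
    rw [D0_eq, Finset.smul_finset_insert, Finset.smul_finset_singleton, Finset.smul_finset_sdiff,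
      Finset.smul_finset_univ]
  rw [h1]
  exact Orb3.smul dod_sextets sextets_inv hk

end Cfsg.Agent.S5617
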