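import Mathlib
import Cfsg.Prelude.Def_SporadicCombinatorics
import Cfsg.Agent.Lib.DodecadFacts
import Cfsg.Agent.Lib.DodecadQuartets
import Cfsg.Statements.S5618

set_option maxRecDepth 100000
set_option autoImplicit false

open scoped Pointwise

namespace Cfsg.Agent.S5618

open Cfsg Cfsg.Agent.Lib.Golay Cfsg.Agent.Lib.M24Facts Cfsg.Agent.Lib.DodecadFacts
  Cfsg.Agent.Lib.DodecadQuartets

theorem hex_base : hexL.all (fun h => !(h.testBit 23 && h.testBit 0 && h.testBit 1 && h.testBit 2 &&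
    h.testBit 3) || Nat.beq h 8405007) = true := by decide +kernel

theorem hexad_subset {d C : Finset GolayPt} (hC : C ∈ hexadsOn d) : C ⊆ d := by
  obtain ⟨_, o, _, rfl⟩ := hC
  exact Finset.inter_subset_right

theorem mem_inv_smul {a : Equiv.Perm GolayPt} {S : Finset GolayPt} {p q : GolayPt}
    (h : a q = p) (hp : p ∈ S) : q ∈ a⁻¹ • S := by
  rw [Finset.mem_smul_finset]
  exact ⟨p, hp, by rw [← h]; simp [Equiv.Perm.smul_def]⟩

theorem base_mask {a : Equiv.Perm GolayPt} {C : Finset GolayPt} (x : Fin 5 ↪ GolayPt)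
    (hxC : ∀ i, x i ∈ C) (a0 : a (pt 23) = x 0) (a1 : a (pt 0) = x 1) (a2 : a (pt 1) = x 2)
    (a3 : a (pt 2) = x 3) (a4 : a (pt 3) = x 4) (hh : toMask (a⁻¹ • C) ∈ hexL) :
    toMask (a⁻¹ • C) = 8405007 := by
  have h := List.all_eq_true.1 hex_base _ hh
  have b0 := mem_toMask_testBit (mem_inv_smul a0 (hxC 0))
  have b1 := mem_toMask_testBit (mem_inv_smul a1 (hxC 1))
  have b2 := mem_toMask_testBit (mem_inv_smul a2 (hxC 2))
  have b3 := mem_toMask_testBit (mem_inv_smul a3 (hxC 3))
  have b4 := mem_toMask_testBit (mem_inv_smul a4 (hxC 4))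
  rw [idx_pt (by norm_num)] at b0 b1 b2 b3 b4
  rw [b0, b1, b2, b3, b4] at h
  exact Nat.eq_of_beq_eq_true h

/-- two hexads on a dodecad with five common points coincide -/
theorem hexad_unique {d C C' : Finset GolayPt} (hd : d ∈ dodecads) (hC : C ∈ hexadsOn d)
    (hC' : C' ∈ hexadsOn d) (x : Fin 5 ↪ GolayPt) (hx : ∀ i, x i ∈ C) (hx' : ∀ i, x i ∈ C') :
    C = C' := by
  obtain ⟨a, ha, had, a0, a1, a2, a3, a4⟩ := exists_M24_dodecad hd x (fun i => hexad_subset hC (hx i))
  have h1 : a⁻¹ • d = D := by rw [← had, inv_smul_smul]; rfl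
  have e1 : toMask (a⁻¹ • C) ∈ hexL := by
    rw [← mem_hexadsOn_iff, ← h1]
    exact smul_mem_hexadsOn (M24.inv_mem ha) hC
  have e2 : toMask (a⁻¹ • C') ∈ hexL := by
    rw [← mem_hexadsOn_iff, ← h1]
    exact smul_mem_hexadsOn (M24.inv_mem ha) hC'
  have e3 := base_mask x hx a0 a1 a2 a3 a4 e1
  have e4 := base_mask x hx' a0 a1 a2 a3 a4 e2
  have e5 : a⁻¹ • C = a⁻¹ • C' := by
    rw [← ofMask_toMask (a⁻¹ • C), ← ofMask_toMask (a⁻¹ • C'), e3, e4]
  exact smul_left_cancel _ e5

theorem exists_five_emb {A : Finset GolayPt} (hA : 5 ≤ A.card) :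
    ∃ x : Fin 5 ↪ GolayPt, ∀ i, x i ∈ A := by
  have h : Fintype.card (Fin 5) ≤ Fintype.card {p // p ∈ A} := by simpa using hA
  obtain ⟨f⟩ := Function.Embedding.nonempty_of_card_le h
  exact ⟨f.trans (Function.Embedding.subtype _), fun i => (f i).2⟩

/-- faithfulness on at least five points of the dodecad -/
theorem eq_one_of_fix_subset {d A : Finset GolayPt} (hd : d ∈ dodecads) (hA : A ⊆ d) (h5 : 5 ≤ A.card)
    {g : Equiv.Perm GolayPt} (hg : g ∈ M24) (hgd : g • d = d) (hfix : ∀ p ∈ A, g p = p) : g = 1 := by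
  obtain ⟨x, hx⟩ := exists_five_emb h5
  exact eq_one_of_fix_five hd x (fun i => hA (hx i)) hg hgd (fun i => hfix _ (hx i))

/-- a permutation of a `Fin 6`-indexed set fixing the first five fixes everything -/
theorem perm_eq_one {α : Type*} (e : α ≃ Fin 6) (σ : Equiv.Perm α)
    (h : ∀ i : Fin 5, σ (e.symm i.castSucc) = e.symm i.castSucc) : σ = 1 := by
  have key : σ (e.symm (Fin.last 5)) = e.symm (Fin.last 5) := by
    by_contra hne
    have h1 : e (σ (e.symm (Fin.last 5))) ≠ Fin.last 5 := by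
      intro h2
      apply hne
      have := e.symm_apply_apply (σ (e.symm (Fin.last 5)))
      rw [h2] at this
      exact this.symm
    obtain ⟨i, hi⟩ := Fin.exists_castSucc_eq.2 h1
    have h2 : σ (e.symm i.castSucc) = σ (e.symm (Fin.last 5)) := by
      rw [h, hi]
      simp
    have h3 := e.symm.injective (σ.injective h2)
    exact (Fin.castSucc_lt_last i).ne h3
  apply Equiv.ext
  intro p
  have : p = e.symm (e p) := by simp
  rw [this]
  induction e p using Fin.lastCases with
  | last => exact key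
  | cast i => exact h i

theorem main_iso {d C : Finset GolayPt} (hd : d ∈ dodecads) (hC : C ∈ hexadsOn d) :
    Nonempty (↥(MulAction.stabilizer M24 d ⊓ MulAction.stabilizer M24 C) ≃* Equiv.Perm (Fin 6)) := by
  classical
  have hC6 : C.card = 6 := hC.1
  have hsub := hexad_subset hC
  let ψ : ↥(MulAction.stabilizer M24 d ⊓ MulAction.stabilizer M24 C) →* Equiv.Perm {p // p ∈ C} :=
    { toFun := fun g => (g.1.1 : Equiv.Perm GolayPt).subtypePerm (fun p => by
        have e2 : (g.1.1 : Equiv.Perm GolayPt) • C = C := g.2.2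
        constructor
        · intro hp
          by_contra hn
          have h3 : (g.1.1 : Equiv.Perm GolayPt) p ∈ (g.1.1 : Equiv.Perm GolayPt) • C := by
            rw [e2]; exact hp
          obtain ⟨q, hq, hqe⟩ := Finset.mem_smul_finset.1 h3
          have : q = p := (g.1.1 : Equiv.Perm GolayPt).injective hqe
          exact hn (this ▸ hq)
        · intro hp
          have := Finset.smul_mem_smul_finset (a := (g.1.1 : Equiv.Perm GolayPt)) hp
          rwa [e2] at this)
      map_one' := by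
        apply Equiv.ext
        intro p
        apply Subtype.ext
        rfl
      map_mul' := by
        intro a b
        apply Equiv.ext
        intro p
        apply Subtype.ext
        rfl }
  have hinj : Function.Injective ψ := by
    rw [injective_iff_map_eq_one]
    rintro ⟨⟨g, hg⟩, hg1, hg2⟩ h1
    have : g = 1 := by
      apply eq_one_of_fix_subset hd hsub (by omega) hg hg1
      intro p hp
      have := congrArg (fun s : Equiv.Perm {p // p ∈ C} => ((s ⟨p, hp⟩ : {p // p ∈ C}) : GolayPt)) h1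
      exact this
    subst this
    rfl
  have hcard : Fintype.card {p // p ∈ C} = 6 := by rw [Fintype.card_coe, hC6]
  let e : {p // p ∈ C} ≃ Fin 6 := Fintype.equivFinOfCardEq hcard
  have hsurj : Function.Surjective ψ := by
    intro π
    let x : Fin 5 ↪ GolayPt := ⟨fun i => (e.symm i.castSucc).1, fun i j h => by
      have h2 := e.symm.injective (Subtype.ext h)
      exact Fin.castSucc_injective _ h2⟩
    let y : Fin 5 ↪ GolayPt := ⟨fun i => (π (e.symm i.castSucc)).1, fun i j h => by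
      have h2 := e.symm.injective (π.injective (Subtype.ext h))
      exact Fin.castSucc_injective _ h2⟩
    have hx : ∀ i, x i ∈ C := fun i => (e.symm i.castSucc).2
    have hy : ∀ i, y i ∈ C := fun i => (π (e.symm i.castSucc)).2
    obtain ⟨g, hg, hgd, hgx⟩ := exists_dodecad_five hd x y (fun i => hsub (hx i)) (fun i => hsub (hy i))
    have hgC : g • C = C := by
      have h1 : g • C ∈ hexadsOn d := by
        have := smul_mem_hexadsOn hg hC
        rwa [hgd] at this
      refine hexad_unique hd h1 hC y (fun i => ?_) hy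
      rw [← hgx]
      exact Finset.smul_mem_smul_finset (hx i)
    refine ⟨⟨⟨g, hg⟩, hgd, hgC⟩, ?_⟩
    have h2 : π⁻¹ * ψ ⟨⟨g, hg⟩, hgd, hgC⟩ = 1 := by
      apply perm_eq_one e
      intro i
      rw [Equiv.Perm.mul_apply, Equiv.Perm.inv_eq_iff_eq]
      apply Subtype.ext
      exact hgx i
    exact (inv_mul_eq_one.1 h2).symm
  exact ⟨(MulEquiv.ofBijective ψ ⟨hinj, hsurj⟩).trans (Equiv.permCongrHom e)⟩

theorem result (d : Finset Cfsg.GolayPt) (hd : d ∈ Cfsg.dodecads) (C : Finset Cfsg.GolayPt) (hC : C ∈ Cfsg.hexadsOn d) : Nonempty (↥(MulAction.stabilizer Cfsg.M24 d ⊓ MulAction.stabilizer Cfsg.M24 C) ≃* Equiv.Perm (Fin 6)) ∧ (∀ g ∈ MulAction.stabilizer Cfsg.M24 d ⊓ MulAction.stabilizer Cfsg.M24 C, (∀ p ∈ C, ((g : ↥Cfsg.M24) : Equiv.Perm Cfsg.GolayPt) p = p) → g = 1) ∧ ∀ g ∈ MulAction.stabilizer Cfsg.M24 d ⊓ MulAction.stabilizer Cfsg.M24 C, (∀ p ∈ d \ C, ((g : ↥Cfsg.M24) : Equiv.Perm Cfsg.GolayPt) p = p) → g = 1 := by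
  classical
  have hC6 : C.card = 6 := hC.1
  have hsub := hexad_subset hC
  refine ⟨main_iso hd hC, ?_, ?_⟩
  · rintro ⟨g, hg⟩ ⟨hg1, hg2⟩ hfix
    have := eq_one_of_fix_subset hd hsub (by omega) hg hg1 hfix
    exact Subtype.ext this
  · rintro ⟨g, hg⟩ ⟨hg1, hg2⟩ hfix
    have h6 : (d \ C).card = 6 := by
      rw [Finset.card_sdiff_of_subset hsub, hd.2, hC6]
    have := eq_one_of_fix_subset hd Finset.sdiff_subset (by omega) hg hg1 hfix
    exact Subtype.ext this

end Cfsg.Agent.S5618
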