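import Mathlib
import Cfsg.Agent.Lib.DodecadFacts
import Cfsg.Agent.Lib.DodecadQuartets
import Cfsg.Agent.Lib.GolayClasses
import Cfsg.Agent.Lib.GolaySubChain
import Cfsg.Statements.S5619

set_option autoImplicit false
set_option maxRecDepth 100000
open scoped Pointwise
open Cfsg

namespace Cfsg.Agent.S5619

open Cfsg.Agent.Lib Cfsg.Agent.Lib.Golay Cfsg.Agent.Lib.M24Facts Cfsg.Agent.Lib.DodecadFacts

/-- the hypotheses used on the point stabiliser -/
structure M9Like (G : Type*) [Group G] : Prop where
  card : Nat.card G = 72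
  e9 : Set.ncard {g : G | g ^ 3 = 1} ≤ 9
  no9 : ∀ g : G, g ^ 9 = 1 → g ^ 3 = 1
  quat : ∃ f : QuaternionGroup 2 →* G, Function.Injective f

theorem M9Like.transport {G H : Type*} [Group G] [Group H] (e : G ≃* H) (h : M9Like G) : M9Like H := by
  have : Finite G := Nat.finite_of_card_ne_zero (by rw [h.card]; norm_num)
  refine ⟨by rw [← Nat.card_congr e.toEquiv]; exact h.card, ?_, ?_, ?_⟩
  · have h1 : {g : H | g ^ 3 = 1} = e '' {g : G | g ^ 3 = 1} := by
      ext x
      constructor
      · intro hx
        refine ⟨e.symm x, ?_, by simp⟩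
        show (e.symm x) ^ 3 = 1
        rw [← map_pow, show x ^ 3 = 1 from hx, map_one]
      · rintro ⟨y, hy, rfl⟩
        show (e y) ^ 3 = 1
        rw [← map_pow, show y ^ 3 = 1 from hy, map_one]
    rw [h1]
    exact le_trans (Set.ncard_image_le (Set.toFinite _)) h.e9
  · intro g hg
    have h2 : (e.symm g) ^ 9 = 1 := by rw [← map_pow, hg, map_one]
    have h3 := h.no9 _ h2
    have h4 := congrArg e h3
    simpa [map_pow] using h4
  · obtain ⟨f, hf⟩ := h.quat
    exact ⟨e.toMonoidHom.comp f, e.injective.comp hf⟩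

theorem fact72_3 : Nat.factorization 72 3 = 2 := by
  rw [show (72 : ℕ) = 3 ^ 2 * 8 by norm_num, Nat.factorization_mul (by norm_num) (by norm_num),
    Nat.factorization_pow]
  simp [Nat.factorization_eq_zero_of_not_dvd (show ¬ 3 ∣ 8 by norm_num), Nat.Prime.factorization_self Nat.prime_three]

theorem fact72_2 : Nat.factorization 72 2 = 3 := by
  rw [show (72 : ℕ) = 2 ^ 3 * 9 by norm_num, Nat.factorization_mul (by norm_num) (by norm_num),
    Nat.factorization_pow]
  simp [Nat.factorization_eq_zero_of_not_dvd (show ¬ 2 ∣ 9 by norm_num), Nat.Prime.factorization_self Nat.prime_two]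

theorem M9Like.conclusion {G : Type*} [Group G] [Finite G] (h : M9Like G) :
    (∀ Q : Sylow 3 G, (Q : Subgroup G).Normal ∧ Nat.card ↥Q = 9 ∧ ∀ x ∈ (Q : Subgroup G), x ^ 3 = 1) ∧
      ∀ P : Sylow 2 G, Nonempty (↥P ≃* QuaternionGroup 2) := by
  constructor
  · intro Q
    have hQ : Nat.card ↥Q = 9 := by
      have h0 : Nat.card ↥(Q : Subgroup G) = 3 ^ (Nat.card G).factorization 3 := Sylow.card_eq_multiplicity Q
      rw [h.card, fact72_3] at h0
      exact h0
    have hx3 : ∀ x ∈ (Q : Subgroup G), x ^ 3 = 1 := by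
      intro x hx
      apply h.no9
      have h1 := pow_card_eq_one' (G := ↥Q) (x := ⟨x, hx⟩)
      rw [hQ] at h1
      exact congrArg Subtype.val h1
    have hS : ((Q : Subgroup G) : Set G) = {g : G | g ^ 3 = 1} := by
      apply Set.eq_of_subset_of_ncard_le (fun x hx => hx3 x hx) _ (Set.toFinite _)
      rw [show ((Q : Subgroup G) : Set G).ncard = Nat.card ↥Q from (Nat.card_coe_set_eq _).symm, hQ]
      exact h.e9
    refine ⟨⟨fun n hn g => ?_⟩, hQ, hx3⟩
    have h1 : n ^ 3 = 1 := hx3 n hn
    have h2 : (g * n * g⁻¹) ∈ ((Q : Subgroup G) : Set G) := by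
      rw [hS]
      show (g * n * g⁻¹) ^ 3 = 1
      rw [conj_pow, h1]
      group
    exact h2
  · obtain ⟨f, hf⟩ := h.quat
    have hc : Nat.card f.range = 8 := by
      rw [← Nat.card_congr (MonoidHom.ofInjective hf).toEquiv, Nat.card_eq_fintype_card, QuaternionGroup.card]
    let P0 : Sylow 2 G := Sylow.ofCard f.range (by rw [hc, h.card, fact72_2]; rfl)
    intro P
    have e1 : ↥P ≃* ↥P0 := Sylow.equiv P P0
    have e2 : ↥P0 ≃* f.range := MulEquiv.subgroupCongr (Sylow.coe_ofCard _ _)
    exact ⟨e1.trans (e2.trans (MonoidHom.ofInjective hf).symm)⟩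

/-- a homomorphism from the quaternion group out of its relations -/
theorem exists_quat_hom {G : Type*} [Group G] (α β : G) (h4 : α ^ 4 = 1) (h2 : β ^ 2 = α ^ 2)
    (hc : α * β * α = β) (hne : α ^ 2 ≠ 1) : ∃ f : QuaternionGroup 2 →* G, Function.Injective f := by
  have key : ∀ m n : ℕ, m % 4 = n % 4 → α ^ m = α ^ n := by
    intro m n hmn
    rw [pow_eq_pow_mod m h4, pow_eq_pow_mod n h4, hmn]
  have h1 : α * β = β * α ^ 3 := by
    have : α⁻¹ = α ^ 3 := by
      rw [inv_eq_iff_mul_eq_one, ← pow_succ', h4]
    rw [← this]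
    nth_rw 2 [← hc]
    group
  have hcomm : ∀ i : ℕ, α ^ i * β = β * α ^ (3 * i) := by
    intro i
    induction i with
    | zero => simp
    | succ i ih =>
      rw [pow_succ, mul_assoc, h1, ← mul_assoc, ih, mul_assoc, ← pow_add]
      congr 2
  let F : QuaternionGroup 2 → G := fun x => match x with
    | .a i => α ^ (ZMod.val i)
    | .xa i => β * α ^ (ZMod.val i)
  have hF : ∀ x y, F (x * y) = F x * F y := by
    rintro (i | i) (j | j)
    · show α ^ (ZMod.val (i + j)) = α ^ (ZMod.val i) * α ^ (ZMod.val j)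
      rw [← pow_add]
      apply key
      revert i j
      decide
    · show β * α ^ (ZMod.val (j - i)) = α ^ (ZMod.val i) * (β * α ^ (ZMod.val j))
      rw [← mul_assoc, hcomm, mul_assoc, ← pow_add]
      congr 1
      apply key
      revert i j
      decide
    · show β * α ^ (ZMod.val (i + j)) = β * α ^ (ZMod.val i) * α ^ (ZMod.val j)
      rw [mul_assoc, ← pow_add]
      congr 1
      apply key
      revert i j
      decide
    · show α ^ (ZMod.val ((2 : ℕ) + j - i : ZMod (2 * 2))) = β * α ^ (ZMod.val i) * (β * α ^ (ZMod.val j))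
      have e : β * α ^ (ZMod.val i) * (β * α ^ (ZMod.val j)) = α ^ (2 + 3 * ZMod.val i + ZMod.val j) := by
        rw [mul_assoc, ← mul_assoc (α ^ (ZMod.val i)), hcomm, mul_assoc, ← pow_add, ← mul_assoc, ← pow_two, h2, ← pow_add,
          add_assoc]
      rw [e]
      clear e
      apply key
      revert i j
      decide
  let f : QuaternionGroup 2 →* G :=
    { toFun := F
      map_one' := by
        show α ^ (ZMod.val (0 : ZMod (2 * 2))) = 1
        rw [ZMod.val_zero, pow_zero]
      map_mul' := hF }
  refine ⟨f, ?_⟩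
  rw [injective_iff_map_eq_one]
  intro x hx
  by_contra hne1
  have hpow : ∀ x : QuaternionGroup 2, x ≠ 1 → x = QuaternionGroup.a 2 ∨ x ^ 2 = QuaternionGroup.a 2 := by
    decide
  have hA : f (QuaternionGroup.a 2) = α ^ 2 := by
    show α ^ (ZMod.val (2 : ZMod (2 * 2))) = α ^ 2
    rfl
  rcases hpow x hne1 with rfl | h3
  · exact hne (by rw [← hA]; exact hx)
  · apply hne
    rw [← hA, ← h3, map_pow, hx, one_pow]

/-! ### the standard group -/

def L72 : List ℕ := [984818244535754528103549039458486304,961287549667283201426177752282892320,960792386108188404871541436004403232,972690654788068270555282010416613408,976888774479474864997516652471158816,973093386122642432831531753268447264,984724508489452699215480746259449888,976620311940227580045552674370193440,980915266709283679625909308187806752,970317553152264875908707334731533344,981899740180765567200638860598152224,970413816723260913173792713288715296,981776911847549885571076928117705760,961285018165632515674876685174836256,980951986951017870453124109145934880,9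60801247330106828774215118862388256,962583049052544552416187657945684000,979402527825026585148956979945904160,962049886769385557593025881059858464,979216378665369791964214565764601888,984728318097572058002623567840450592,984805558863217693247631069753514016,981898487193044901871029544582322208,981774360376483848975691882925889568,977673174087184283007205668609399840,968915591316301102576062963584703520,977635175595271619883596410324720672,984737193616507953332582334206319648,969201801737914399582087469765794848,970398603952780882525231244152020000,970316283145511195738452356036500512,984809368035280166958453665004231712,981778164387565612539766139250614304,976887510154770538766490027346206752,976605097772023899913323629758324768,983426482554381605818421604213039136,977626298262095591357407496854872096,981895936084179490344870648004091936,977675700850916535859931809945428000,983551852417171758156912368798900256,970397333438387248265932395064140832,972688134266055579891466361512240160,9834391565396186444730476142549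49408,973097173253489427018857814261212192,962056221415872664652324427776926752,983548058628271758227072553185584160,962585596646897021367213807849907232,970332766586372488476379061509661728,969203085545096192581837129131307040,962576714539515933862448732285546528,980924132068208647414064372895658016,976903988488357046571053803337134112,968918125094133312867142674648674336,980955791882061147476043190404165664,976603834103289591883962494260555808,962058769054186077686417142960336928,983430277307270629577775126545512480,983560732202510771760283209707927584,968919409030377569367867774279563296,979419005076317945616368219168421920,960798715614879300320412435083442208,961278688604686681898179689373284384,979201170686462026945191602333038624,969199267465777758467557010220496928,979199902066532810481018051797007392,977666823536203675389992086812081184,972691920945534030602486367832456224,980911461251221312023219252313177120,980964656811598351650102294615440416,979403796593800993275903105318566944,977632649001851940335108048784079904,973095906777892999349257471726664736]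

def E9 : List ℕ := [983426482554381605818421604213039136,980951986951017870453124109145934880,983439156539618644473047614254949408,983430277307270629577775126545512480,980955791882061147476043190404165664,984805558863217693247631069753514016,980964656811598351650102294615440416,984809368035280166958453665004231712,984818244535754528103549039458486304]

def alC : ℕ := 972690654788068270555282010416613408

def beC : ℕ := 976620311940227580045552674370193440


def cube (s i : ℕ) : ℕ := ap s (ap s (ap s i))

def isCube (s : ℕ) : Bool := idxL.all fun i => Nat.beq (cube s i) i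

def is9 (s : ℕ) : Bool := idxL.all fun i => Nat.beq (cube s (cube s (cube s i))) i

def keyOf (s : ℕ) : ℕ := ap s 2 * 32 + ap s 3

theorem L72_ok : L72.all (fun s => isM24 s && Nat.beq (img s d0Mask) d0Mask && Nat.beq (ap s 23) 23 &&
    Nat.beq (ap s 0) 0 && Nat.beq (ap s 1) 1) = true := by decide +kernel

theorem L72_cover : DodecadQuartets.dIdx.all (fun a => DodecadQuartets.dIdx.all fun b =>
    Nat.beq a b || Nat.beq a 23 || Nat.beq a 0 || Nat.beq a 1 || Nat.beq b 23 || Nat.beq b 0 || Nat.beq b 1 ||
      L72.any fun s => Nat.beq (ap s 2) a && Nat.beq (ap s 3) b) = true := by decide +kernel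

theorem L72_nodup : (L72.map keyOf).Nodup := by decide +kernel

theorem L72_length : L72.length = 72 := by decide +kernel

theorem L72_E9 : L72.all (fun s => !(isCube s) || E9.any fun t => Nat.beq t s) = true := by decide +kernel

theorem E9_length : E9.length = 9 := by decide +kernel

theorem L72_no9 : L72.all (fun s => !(is9 s) || isCube s) = true := by decide +kernel

theorem al_mem : alC ∈ L72 := by decide +kernel

theorem be_mem : beC ∈ L72 := by decide +kernel

theorem al4 : idxL.all (fun i => Nat.beq (ap alC (ap alC (ap alC (ap alC i)))) i) = true := by decide +kernel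

theorem albe2 : idxL.all (fun i => Nat.beq (ap beC (ap beC i)) (ap alC (ap alC i))) = true := by decide +kernel

theorem alcomm : idxL.all (fun i => Nat.beq (ap alC (ap beC (ap alC i))) (ap beC i)) = true := by decide +kernel

theorem al2ne : idxL.any (fun i => !(Nat.beq (ap alC (ap alC i)) i)) = true := by decide +kernel

/-- membership facts for the elements of the list -/
theorem L72_spec {s : ℕ} (hs : s ∈ L72) : isM24 s = true ∧ img s d0Mask = d0Mask ∧ ap s 23 = 23 ∧ ap s 0 = 0 ∧
    ap s 1 = 1 := by
  have h := List.all_eq_true.1 L72_ok s hs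
  simp only [Bool.and_eq_true] at h
  obtain ⟨⟨⟨⟨h1, h2⟩, h3⟩, h4⟩, h5⟩ := h
  exact ⟨h1, Nat.eq_of_beq_eq_true h2, Nat.eq_of_beq_eq_true h3, Nat.eq_of_beq_eq_true h4, Nat.eq_of_beq_eq_true h5⟩

theorem L72_valid {s : ℕ} (hs : s ∈ L72) : valid s = true := isM24_valid (L72_spec hs).1

/-- the standard subgroup -/
noncomputable def H0 : Subgroup ↥M24 :=
  MulAction.stabilizer M24 dod0 ⊓ MulAction.stabilizer M24 (pt 23) ⊓ MulAction.stabilizer M24 (pt 0) ⊓
    MulAction.stabilizer M24 (pt 1)

theorem mem_H0_iff (g : ↥M24) : g ∈ H0 ↔ (g : Equiv.Perm GolayPt) • dod0 = dod0 ∧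
    (g : Equiv.Perm GolayPt) (pt 23) = pt 23 ∧ (g : Equiv.Perm GolayPt) (pt 0) = pt 0 ∧
    (g : Equiv.Perm GolayPt) (pt 1) = pt 1 := by
  simp only [H0, Subgroup.mem_inf, MulAction.mem_stabilizer_iff]
  constructor
  · rintro ⟨⟨⟨h1, h2⟩, h3⟩, h4⟩
    exact ⟨h1, h2, h3, h4⟩
  · rintro ⟨h1, h2, h3, h4⟩
    exact ⟨⟨⟨h1, h2⟩, h3⟩, h4⟩

theorem decode_mem_H0 {s : ℕ} (hs : s ∈ L72) :
    (⟨decode s, decode_mem_M24 (L72_spec hs).1⟩ : ↥M24) ∈ H0 := by
  obtain ⟨h1, h2, h3, h4, h5⟩ := L72_spec hs
  have hv := isM24_valid h1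
  rw [mem_H0_iff]
  refine ⟨?_, ?_, ?_, ?_⟩
  · show decode s • ofMask d0Mask = ofMask d0Mask
    rw [decode_smul_ofMask hv, h2]
  · show decode s (pt 23) = pt 23
    rw [decode_pt hv (by norm_num), h3]
  · show decode s (pt 0) = pt 0
    rw [decode_pt hv (by norm_num), h4]
  · show decode s (pt 1) = pt 1
    rw [decode_pt hv (by norm_num), h5]

theorem pt_mem_dod0 : ∀ i ∈ DodecadQuartets.dIdx, pt i ∈ dod0 := by
  intro i hi
  have hlt : i < 24 := by
    revert i
    decide
  rw [dod0, pt_mem_ofMask hlt]
  revert i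
  decide +kernel

/-- every element of the standard subgroup is in the list -/
theorem exists_L72 {g : Equiv.Perm GolayPt} (hg : g ∈ M24) (hd : g • dod0 = dod0) (h23 : g (pt 23) = pt 23)
    (h0 : g (pt 0) = pt 0) (h1 : g (pt 1) = pt 1) : ∃ s ∈ L72, g = decode s := by
  have hmem : ∀ i ∈ DodecadQuartets.dIdx, idx (g (pt i)) ∈ DodecadQuartets.dIdx := by
    intro i hi
    apply DodecadQuartets.idx_mem_dIdx
    have := Finset.smul_mem_smul_finset (a := g) (pt_mem_dod0 i hi)
    rw [hd] at this
    exact this
  have ha := hmem 2 (by decide)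
  have hb := hmem 3 (by decide)
  have hne : ∀ {i j : ℕ}, i < 24 → j < 24 → i ≠ j → Nat.beq (idx (g (pt i))) (idx (g (pt j))) = false := by
    intro i j hi hj hij
    cases e : Nat.beq (idx (g (pt i))) (idx (g (pt j)))
    · rfl
    · exfalso
      have := g.injective (idx_injective (Nat.eq_of_beq_eq_true e))
      exact hij (pt_injOn hi hj this)
  have hfix : ∀ {i j k : ℕ}, i < 24 → j < 24 → i ≠ j → g (pt k) = pt k → k = j → Nat.beq (idx (g (pt i))) k = false := by
    intro i j k hi hj hij hk hkj
    subst hkj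
    have h2 := hne hi hj hij
    rw [hk, idx_pt hj] at h2
    exact h2
  have h3 := List.all_eq_true.1 (List.all_eq_true.1 L72_cover _ ha) _ hb
  rw [hne (by norm_num) (by norm_num) (by norm_num), hfix (by norm_num) (by norm_num) (by norm_num) h23 rfl,
    hfix (by norm_num) (by norm_num) (by norm_num) h0 rfl, hfix (by norm_num) (by norm_num) (by norm_num) h1 rfl,
    hfix (by norm_num) (by norm_num) (by norm_num) h23 rfl, hfix (by norm_num) (by norm_num) (by norm_num) h0 rfl,
    hfix (by norm_num) (by norm_num) (by norm_num) h1 rfl] at h3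
  simp only [Bool.false_or, List.any_eq_true, Bool.and_eq_true] at h3
  obtain ⟨s, hs, e2, e3⟩ := h3
  obtain ⟨s1, s2, s3, s4, s5⟩ := L72_spec hs
  have hv := isM24_valid s1
  refine ⟨s, hs, ?_⟩
  have key : ∀ i ∈ [3,2,1,0,23], g (pt i) = decode s (pt i) := by
    intro i hi
    simp only [List.mem_cons, List.not_mem_nil, or_false] at hi
    rcases hi with rfl | rfl | rfl | rfl | rfl
    · rw [decode_pt hv (by norm_num), Nat.eq_of_beq_eq_true e3, pt_idx]
    · rw [decode_pt hv (by norm_num), Nat.eq_of_beq_eq_true e2, pt_idx]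
    · rw [decode_pt hv (by norm_num), s5, h1]
    · rw [decode_pt hv (by norm_num), s4, h0]
    · rw [decode_pt hv (by norm_num), s3, h23]
  have hdm := decode_mem_M24 s1
  have h5 : (decode s)⁻¹ * g = 1 := by
    apply eq_one_of_fix (M24.mul_mem (M24.inv_mem hdm) hg)
    · have h6 : decode s • dod0 = dod0 := by
        show decode s • ofMask d0Mask = ofMask d0Mask
        rw [decode_smul_ofMask hv, s2]
      rw [mul_smul, hd]
      conv_lhs => rw [← h6]
      rw [inv_smul_smul]
    · intro i hi
      rw [Equiv.Perm.mul_apply, key i hi]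
      simp
  exact (inv_mul_eq_one.1 h5).symm

theorem val_inj : Function.Injective (fun g : ↥H0 => ((g : ↥M24) : Equiv.Perm GolayPt)) := by
  intro a b h
  exact Subtype.ext (Subtype.ext h)

theorem exists_L72' (g : ↥H0) : ∃ s ∈ L72, ((g : ↥M24) : Equiv.Perm GolayPt) = decode s := by
  obtain ⟨h1, h2, h3, h4⟩ := (mem_H0_iff g.1).1 g.2
  exact exists_L72 g.1.2 h1 h2 h3 h4

theorem idx_decode' {c i : ℕ} (hv : valid c = true) (hi : i < 24) : idx (decode c (pt i)) = ap c i := by
  rw [idx_decode hv, idx_pt hi]

theorem decode_inj {s t : ℕ} (hs : s ∈ L72) (ht : t ∈ L72) (h : decode s = decode t) : s = t := by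
  apply List.inj_on_of_nodup_map L72_nodup hs ht
  have hvs := L72_valid hs
  have hvt := L72_valid ht
  have e : ∀ i < 24, ap s i = ap t i := by
    intro i hi
    rw [← idx_decode' hvs hi, ← idx_decode' hvt hi, h]
  show ap s 2 * 32 + ap s 3 = ap t 2 * 32 + ap t 3
  rw [e 2 (by norm_num), e 3 (by norm_num)]

theorem H0_card : Nat.card ↥H0 = 72 := by
  classical
  let F : {s // s ∈ L72.toFinset} → ↥H0 := fun s =>
    ⟨⟨decode s.1, decode_mem_M24 (L72_spec (List.mem_toFinset.1 s.2)).1⟩, decode_mem_H0 (List.mem_toFinset.1 s.2)⟩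
  have hF : Function.Bijective F := by
    constructor
    · intro a b h
      have h1 : decode a.1 = decode b.1 := congrArg (fun g : ↥H0 => ((g : ↥M24) : Equiv.Perm GolayPt)) h
      exact Subtype.ext (decode_inj (List.mem_toFinset.1 a.2) (List.mem_toFinset.1 b.2) h1)
    · intro g
      obtain ⟨s, hs, e⟩ := exists_L72' g
      exact ⟨⟨s, List.mem_toFinset.2 hs⟩, val_inj e.symm⟩
  rw [← Nat.card_congr (Equiv.ofBijective F hF), Nat.card_eq_fintype_card, Fintype.card_coe,
    List.toFinset_card_of_nodup (List.Nodup.of_map _ L72_nodup), L72_length]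

theorem pow3_rep {g : Equiv.Perm GolayPt} {s : ℕ} (h : RepBy g (ap s)) : RepBy (g ^ 3) (cube s) := by
  intro p
  have : g ^ 3 = g * (g * g) := by
    rw [pow_succ, pow_two, mul_assoc]
  rw [this]
  exact (h.mul (h.mul h)) p

theorem rep_one : RepBy (1 : Equiv.Perm GolayPt) id := fun _ => rfl

theorem e9_H0 : Set.ncard {g : ↥H0 | g ^ 3 = 1} ≤ 9 := by
  classical
  have h1 : ∀ g ∈ {g : ↥H0 | g ^ 3 = 1}, ((g : ↥M24) : Equiv.Perm GolayPt) ∈ decode '' (E9.toFinset : Set ℕ) := by
    intro g hg
    obtain ⟨s, hs, e⟩ := exists_L72' g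
    have h2 : (decode s) ^ 3 = 1 := by
      rw [← e]
      have := congrArg (fun g : ↥H0 => ((g : ↥M24) : Equiv.Perm GolayPt)) (show g ^ 3 = 1 from hg)
      exact this
    have hv := L72_valid hs
    have h3 : isCube s = true := by
      apply List.all_eq_true.2
      intro i hi
      rw [Nat.beq_eq]
      exact (repBy_decode hv).pow3 h2 (mem_idxL.1 hi)
    have h4 := List.all_eq_true.1 L72_E9 s hs
    rw [h3, Bool.not_true, Bool.false_or, List.any_eq_true] at h4
    obtain ⟨t, ht, e2⟩ := h4
    rw [Nat.eq_of_beq_eq_true e2] at ht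
    exact ⟨s, by simpa using ht, e.symm⟩
  have h5 : ((fun g : ↥H0 => ((g : ↥M24) : Equiv.Perm GolayPt)) '' {g : ↥H0 | g ^ 3 = 1}) ⊆ decode '' (E9.toFinset : Set ℕ) := by
    rintro _ ⟨g, hg, rfl⟩
    exact h1 g hg
  calc Set.ncard {g : ↥H0 | g ^ 3 = 1}
      = Set.ncard ((fun g : ↥H0 => ((g : ↥M24) : Equiv.Perm GolayPt)) '' {g : ↥H0 | g ^ 3 = 1}) :=
        (Set.ncard_image_of_injective _ val_inj).symm
    _ ≤ Set.ncard (decode '' (E9.toFinset : Set ℕ)) := Set.ncard_le_ncard h5 (Set.toFinite _)
    _ ≤ Set.ncard (E9.toFinset : Set ℕ) := Set.ncard_image_le (Finset.finite_toSet _)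
    _ = E9.toFinset.card := Set.ncard_coe_finset _
    _ ≤ E9.length := List.toFinset_card_le _
    _ = 9 := E9_length

theorem no9_H0 (g : ↥H0) (hg : g ^ 9 = 1) : g ^ 3 = 1 := by
  obtain ⟨s, hs, e⟩ := exists_L72' g
  have hv := L72_valid hs
  have h1 : (decode s) ^ 9 = 1 := by
    rw [← e]
    have := congrArg (fun g : ↥H0 => ((g : ↥M24) : Equiv.Perm GolayPt)) hg
    exact this
  have hr := pow3_rep (repBy_decode hv)
  have h2 : is9 s = true := by
    apply List.all_eq_true.2
    intro i hi
    rw [Nat.beq_eq]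
    refine hr.pow3 ?_ (mem_idxL.1 hi)
    rw [← pow_mul]
    exact h1
  have h3 := List.all_eq_true.1 L72_no9 s hs
  rw [h2, Bool.not_true, Bool.false_or] at h3
  have h4 : (decode s) ^ 3 = 1 := by
    apply eq_of_repBy hr rep_one
    intro i hi
    exact Nat.eq_of_beq_eq_true (List.all_eq_true.1 h3 i (mem_idxL.2 hi))
  apply val_inj
  show ((g : ↥M24) : Equiv.Perm GolayPt) ^ 3 = 1
  rw [e, h4]

theorem quat_H0 : ∃ f : QuaternionGroup 2 →* ↥H0, Function.Injective f := by
  have ha := L72_valid al_mem
  have hb := L72_valid be_mem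
  let α : ↥H0 := ⟨⟨decode alC, decode_mem_M24 (L72_spec al_mem).1⟩, decode_mem_H0 al_mem⟩
  let β : ↥H0 := ⟨⟨decode beC, decode_mem_M24 (L72_spec be_mem).1⟩, decode_mem_H0 be_mem⟩
  have ra := repBy_decode ha
  have rb := repBy_decode hb
  apply exists_quat_hom α β
  · apply val_inj
    show decode alC ^ 4 = 1
    have : decode alC ^ 4 = decode alC * (decode alC * (decode alC * decode alC)) := by
      simp only [pow_succ, pow_zero, one_mul, mul_assoc]
    rw [this]
    apply eq_of_repBy (ra.mul (ra.mul (ra.mul ra))) rep_one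
    intro i hi
    exact Nat.eq_of_beq_eq_true (List.all_eq_true.1 al4 i (mem_idxL.2 hi))
  · apply val_inj
    show decode beC ^ 2 = decode alC ^ 2
    rw [pow_two, pow_two]
    apply eq_of_repBy (rb.mul rb) (ra.mul ra)
    intro i hi
    exact Nat.eq_of_beq_eq_true (List.all_eq_true.1 albe2 i (mem_idxL.2 hi))
  · apply val_inj
    show decode alC * decode beC * decode alC = decode beC
    apply eq_of_repBy ((ra.mul rb).mul ra) rb
    intro i hi
    exact Nat.eq_of_beq_eq_true (List.all_eq_true.1 alcomm i (mem_idxL.2 hi))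
  · intro h
    have h1 : decode alC ^ 2 = 1 := congrArg (fun g : ↥H0 => ((g : ↥M24) : Equiv.Perm GolayPt)) h
    obtain ⟨i, hi, e⟩ := List.any_eq_true.1 al2ne
    have h2 := ra.pow2 h1 (mem_idxL.1 hi)
    rw [h2] at e
    simp [Nat.beq_refl] at e

theorem H0_like : M9Like ↥H0 := ⟨H0_card, e9_H0, no9_H0, quat_H0⟩

/-- conjugation between subgroups -/
def conjIso {G : Type*} [Group G] (k : G) (A B : Subgroup G) (h : ∀ g, g ∈ A ↔ k * g * k⁻¹ ∈ B) : ↥A ≃* ↥B where
  toFun g := ⟨k * g * k⁻¹, (h g).1 g.2⟩
  invFun g := ⟨k⁻¹ * g * k, (h _).2 (by simpa [mul_assoc] using g.2)⟩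
  left_inv g := by
    apply Subtype.ext
    simp [mul_assoc]
  right_inv g := by
    apply Subtype.ext
    simp [mul_assoc]
  map_mul' a b := by
    apply Subtype.ext
    simp [mul_assoc]

theorem result (d : Finset Cfsg.GolayPt) (hd : d ∈ Cfsg.dodecads) (p q r : Cfsg.GolayPt) (hp : p ∈ d) (hq : q ∈ d) (hr : r ∈ d) (hpq : p ≠ q) (hpr : p ≠ r) (hqr : q ≠ r) : (∀ Q : Sylow 3 ↥(MulAction.stabilizer Cfsg.M24 d ⊓ MulAction.stabilizer Cfsg.M24 p ⊓ MulAction.stabilizer Cfsg.M24 q ⊓ MulAction.stabilizer Cfsg.M24 r), (Q : Subgroup ↥(MulAction.stabilizer Cfsg.M24 d ⊓ MulAction.stabilizer Cfsg.M24 p ⊓ MulAction.stabilizer Cfsg.M24 q ⊓ MulAction.stabilizer Cfsg.M24 r)).Normal ∧ Nat.card ↥Q = 9 ∧ ∀ x ∈ (Q : Subgroup ↥(MulAction.stabilizer Cfsg.M24 d ⊓ MulAction.stabilizer Cfsg.M24 p ⊓ MulAction.stabilizer Cfsg.M24 q ⊓ MulAction.stabilizer Cfsg.M24 r)), x ^ 3 = 1) ∧ ∀ P : Sylow 2 ↥(MulAction.stabilizer Cfsg.M24 d ⊓ MulAction.stabilizer Cfsg.M24 p ⊓ MulAction.stabilizer Cfsg.M24 q ⊓ MulAction.stabilizer Cfsg.M24 r), Nonempty (↥P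 ≃* QuaternionGroup 2) := by
  classical
  -- the three points as an embedding
  let x : Fin 3 ↪ GolayPt := ⟨![p, q, r], by
    intro i j hij
    fin_cases i <;> fin_cases j <;> simp_all⟩
  have hx : ∀ i, x i ∈ d := by
    intro i
    fin_cases i
    · exact hp
    · exact hq
    · exact hr
  obtain ⟨y, hy, hyx⟩ := exists_emb_extend (k := 3) (by norm_num) (by rw [hd.2]; norm_num) x hx
  obtain ⟨k, hk, hkd, k0, k1, k2, -, -⟩ := exists_M24_dodecad hd y hy
  have y0 : y 0 = p := hyx 0
  have y1 : y 1 = q := hyx 1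
  have y2 : y 2 = r := hyx 2
  rw [y0] at k0
  rw [y1] at k1
  rw [y2] at k2
  let K : ↥M24 := ⟨k, hk⟩
  have hiff : ∀ g : ↥M24, g ∈ H0 ↔ K * g * K⁻¹ ∈ MulAction.stabilizer Cfsg.M24 d ⊓ MulAction.stabilizer Cfsg.M24 p ⊓ MulAction.stabilizer Cfsg.M24 q ⊓ MulAction.stabilizer Cfsg.M24 r := by
    intro g
    rw [mem_H0_iff]
    simp only [Subgroup.mem_inf, MulAction.mem_stabilizer_iff]
    have e1 : ∀ (i : ℕ) (a : GolayPt), k (pt i) = a → (((K * g * K⁻¹) • a = a) ↔ (g : Equiv.Perm GolayPt) (pt i) = pt i) := by
      intro i a hia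
      subst hia
      constructor
      · intro h
        apply k.injective
        have h2 : k ((g : Equiv.Perm GolayPt) (k⁻¹ (k (pt i)))) = k (pt i) := h
        simpa using h2
      · intro h
        show k ((g : Equiv.Perm GolayPt) (k⁻¹ (k (pt i)))) = k (pt i)
        simp [h]
    have e2 : ((K * g * K⁻¹) • d = d) ↔ (g : Equiv.Perm GolayPt) • dod0 = dod0 := by
      rw [← hkd]
      show (k * (g : Equiv.Perm GolayPt) * k⁻¹) • (k • dod0) = k • dod0 ↔ _
      rw [mul_smul, mul_smul, inv_smul_smul]
      exact smul_left_cancel_iff k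
    rw [e1 _ _ k0, e1 _ _ k1, e1 _ _ k2, e2]
    constructor
    · rintro ⟨a, b, c, e⟩
      exact ⟨⟨⟨a, b⟩, c⟩, e⟩
    · rintro ⟨⟨⟨a, b⟩, c⟩, e⟩
      exact ⟨a, b, c, e⟩
  have hH : Nat.card ↥(MulAction.stabilizer Cfsg.M24 d ⊓ MulAction.stabilizer Cfsg.M24 p ⊓ MulAction.stabilizer Cfsg.M24 q ⊓ MulAction.stabilizer Cfsg.M24 r) = 72 := by
    rw [← Nat.card_congr (conjIso K _ _ hiff).toEquiv]
    exact H0_card
  have : Finite ↥(MulAction.stabilizer Cfsg.M24 d ⊓ MulAction.stabilizer Cfsg.M24 p ⊓ MulAction.stabilizer Cfsg.M24 q ⊓ MulAction.stabilizer Cfsg.M24 r) :=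
    Nat.finite_of_card_ne_zero (by rw [hH]; norm_num)
  exact (H0_like.transport (conjIso K _ _ hiff)).conclusion

end Cfsg.Agent.S5619
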