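import Mathlib
import Cfsg.Statements.S5620
import Cfsg.Agent.Lib.M11Chain

set_option autoImplicit false
open scoped Pointwise
open Cfsg

namespace Cfsg.Agent.S5620

open Cfsg.Spor Cfsg.Agent.Lib.Golay Cfsg.Agent.Lib.M11Data Cfsg.Agent.Lib.M11Chain Finset

/-- the code of an element of `M24` moving the dodecad to its complement -/
def gc : ℕ := 344253827323779150060277556463638199

/-- the code of an element of `M11` without fixed point outside the dodecad -/
def mc : ℕ := 719923664328491199848526586197411872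

theorem gc_M24 : isM24 gc = true := by decide +kernel
theorem mc_M11 : isM11 mc = true := by decide +kernel

theorem pt_23 : pt 23 = none := by simp [pt]

theorem g_zero : decode gc (some 0) = none := by
  rw [← pt_zero, decode_pt (isM24_valid gc_M24) (by norm_num), show ap gc 0 = 23 by decide +kernel, pt_23]

theorem smul_compl {h : Equiv.Perm GolayPt} {S T : Finset GolayPt} (hs : h • S = T) :
    h • (univ \ S) = univ \ T := by
  ext x
  subst hs
  simp only [Finset.mem_smul_finset, mem_sdiff, mem_univ, true_and, Equiv.Perm.smul_def]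
  constructor
  · rintro ⟨y, hy, rfl⟩
    rintro ⟨z, hz, hzy⟩
    exact hy (h.injective hzy ▸ hz)
  · intro hx
    refine ⟨h⁻¹ x, ?_, by simp⟩
    intro hy
    exact hx ⟨h⁻¹ x, hy, by simp⟩

theorem compl_compl' (S : Finset GolayPt) : univ \ (univ \ S) = S := by
  ext x; simp

theorem g_D : decode gc • squareDodecad = univ \ squareDodecad := by
  rw [squareDodecad_eq, decode_smul_ofMask (isM24_valid gc_M24)]
  ext x
  have h : ∀ i ∈ idxL, (img gc dod).testBit i = !dod.testBit i := by decide +kernel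
  have h1 := h _ (mem_idxL.2 (idx_lt x))
  simp only [mem_ofMask, mem_sdiff, mem_univ, true_and, h1]
  cases dod.testBit (idx x) <;> simp

theorem g_C : decode gc • (univ \ squareDodecad) = squareDodecad := by
  rw [smul_compl g_D, compl_compl']

theorem mem_M12_iff (h : Equiv.Perm GolayPt) : h ∈ M12 ↔ h ∈ M24 ∧ h • squareDodecad = squareDodecad := by
  simp [M12, Subgroup.mem_inf, MulAction.mem_stabilizer_iff]

theorem mem_M11_iff' (h : Equiv.Perm GolayPt) :
    h ∈ M11 ↔ h ∈ M24 ∧ h • squareDodecad = squareDodecad ∧ h (some 0) = some 0 := by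
  simp [M11, Subgroup.mem_inf, MulAction.mem_stabilizer_iff, mem_M12_iff, Equiv.Perm.smul_def, and_assoc]

theorem mem_N_iff (h : Equiv.Perm GolayPt) :
    h ∈ M12 ⊓ MulAction.stabilizer (Equiv.Perm GolayPt) (none : GolayPt) ↔
      h ∈ M24 ∧ h • squareDodecad = squareDodecad ∧ h none = none := by
  simp [Subgroup.mem_inf, MulAction.mem_stabilizer_iff, mem_M12_iff, Equiv.Perm.smul_def, and_assoc]

/-- the two stabilisers are conjugate under `g` -/
theorem conj_g_iff (h : Equiv.Perm GolayPt) :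
    h ∈ M11 ↔ decode gc * h * (decode gc)⁻¹ ∈ M12 ⊓ MulAction.stabilizer (Equiv.Perm GolayPt) (none : GolayPt) := by
  have hg : decode gc ∈ M24 := decode_mem_M24 gc_M24
  rw [mem_M11_iff', mem_N_iff]
  have hinv : (decode gc)⁻¹ none = some 0 := by
    rw [Equiv.Perm.inv_eq_iff_eq, g_zero]
  have hinvD : (decode gc)⁻¹ • squareDodecad = univ \ squareDodecad := by
    rw [inv_smul_eq_iff, g_C]
  constructor
  · rintro ⟨h1, h2, h3⟩
    refine ⟨M24.mul_mem (M24.mul_mem hg h1) (M24.inv_mem hg), ?_, ?_⟩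
    · rw [mul_smul, mul_smul, hinvD, smul_compl h2, g_C]
    · rw [Equiv.Perm.mul_apply, Equiv.Perm.mul_apply, hinv, h3, g_zero]
  · rintro ⟨h1, h2, h3⟩
    refine ⟨?_, ?_, ?_⟩
    · have := M24.mul_mem (M24.mul_mem (M24.inv_mem hg) h1) hg
      simpa [mul_assoc] using this
    · have h4 : h • (univ \ squareDodecad) = univ \ squareDodecad := by
        rw [← hinvD]
        have h5 : (decode gc * h * (decode gc)⁻¹) • squareDodecad = squareDodecad := h2
        rw [mul_smul, mul_smul] at h5
        rw [smul_eq_iff_eq_inv_smul] at h5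
        exact h5
      have h6 := smul_compl h4
      rwa [compl_compl'] at h6
    · have h5 : (decode gc * h * (decode gc)⁻¹) none = none := h3
      rw [Equiv.Perm.mul_apply, Equiv.Perm.mul_apply, hinv] at h5
      apply (decode gc).injective
      rw [h5, g_zero]

theorem mem_conj_smul (g x : Equiv.Perm GolayPt) (K : Subgroup (Equiv.Perm GolayPt)) :
    x ∈ MulAut.conj g • K ↔ g⁻¹ * x * g ∈ K := by
  rw [Subgroup.mem_pointwise_smul_iff_inv_smul_mem]
  have : (MulAut.conj g)⁻¹ • x = g⁻¹ * x * g := by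
    rw [MulAut.smul_def, MulAut.inv_def]
    simp
  rw [this]

theorem conj_g_eq : MulAut.conj (decode gc) • M11 = M12 ⊓ MulAction.stabilizer (Equiv.Perm GolayPt) (none : GolayPt) := by
  ext x
  rw [mem_conj_smul, conj_g_iff]
  have : decode gc * ((decode gc)⁻¹ * x * decode gc) * (decode gc)⁻¹ = x := by group
  rw [this]

/-- `m` has no fixed point outside the dodecad -/
theorem m_nofix (x : GolayPt) (hx : x ∉ squareDodecad) : decode mc x ≠ x := by
  rw [squareDodecad_eq, mem_ofMask] at hx
  have h : ∀ i ∈ idxL, dod.testBit i = false → ap mc i ≠ i := by decide +kernel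
  have hv := isM11_valid mc_M11
  intro hfix
  have h2 := idx_decode hv x
  rw [hfix] at h2
  exact h _ (mem_idxL.2 (idx_lt x)) (by simpa using hx) h2.symm

theorem not_conj : ¬ ∃ k ∈ M12, MulAut.conj k • M11 = M12 ⊓ MulAction.stabilizer (Equiv.Perm GolayPt) (none : GolayPt) := by
  rintro ⟨k, hk, heq⟩
  have hm : decode mc ∈ M11 := decode_mem_M11 mc_M11
  have h1 := (conj_g_iff _).1 hm
  rw [← heq, mem_conj_smul] at h1
  have h2 := ((mem_M11_iff' _).1 h1).2.2
  have hk2 := ((mem_M12_iff k).1 hk).2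
  -- the point `k 0` is fixed by `g m g⁻¹`
  have h3 : (decode gc * decode mc * (decode gc)⁻¹) (k (some 0)) = k (some 0) := by
    have h4 : k⁻¹ ((decode gc * decode mc * (decode gc)⁻¹) (k (some 0))) = some 0 := h2
    rw [Equiv.Perm.inv_eq_iff_eq] at h4
    exact h4
  have h0 : (some 0 : GolayPt) ∈ squareDodecad := by
    rw [squareDodecad_eq, ← pt_zero, mem_ofMask, idx_pt (by norm_num)]
    decide +kernel
  have h5 : k (some 0) ∈ squareDodecad := by
    rw [← hk2]
    exact Finset.smul_mem_smul_finset h0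
  -- `y = g⁻¹ (k 0)` is outside the dodecad
  have h6 : (decode gc)⁻¹ (k (some 0)) ∉ squareDodecad := by
    intro hy
    have h7 : decode gc ((decode gc)⁻¹ (k (some 0))) ∈ decode gc • squareDodecad :=
      Finset.smul_mem_smul_finset hy
    rw [g_D] at h7
    simp at h7
    exact h7 h5
  apply m_nofix _ h6
  apply (decode gc).injective
  rw [Equiv.Perm.mul_apply, Equiv.Perm.mul_apply] at h3
  rw [h3]
  simp

theorem result : Nonempty (↥(Cfsg.Spor.M12 ⊓ MulAction.stabilizer (Equiv.Perm Cfsg.GolayPt) (none : Cfsg.GolayPt)) ≃* ↥Cfsg.Spor.M11) ∧ (¬ ∃ k ∈ Cfsg.Spor.M12, MulAut.conj k • Cfsg.Spor.M11 = Cfsg.Spor.M12 ⊓ MulAction.stabilizer (Equiv.Perm Cfsg.GolayPt) (none : Cfsg.GolayPt)) ∧ ∃ g ∈ Cfsg.M24, g • Cfsg.Spor.squareDodecad = Finset.univ \ Cfsg.Spor.squareDodecad ∧ MulAut.conj g • Cfsg.Spor.M11 = Cfsg.Spor.M12 ⊓ MulAction.stabilizer (Equiv.Perm Cfsg.GolayPt) (none : Cfsg.GolayPt) := by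
  refine ⟨?_, not_conj, decode gc, decode_mem_M24 gc_M24, g_D, conj_g_eq⟩
  rw [← conj_g_eq]
  exact ⟨(Subgroup.equivSMul _ _).symm⟩

end Cfsg.Agent.S5620
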