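import Mathlib
import Cfsg.Statements.S5625
import Cfsg.Agent.Lib.Steiner

set_option autoImplicit false
open Cfsg

namespace Cfsg.Agent.S5625
open Finset Cfsg.Agent.Lib.Steiner

/-- In any Steiner system S(5, 8, 24) and for any set Y of three points, the blocks meeting Y in exactly 3, 2, 1 and 0 points number 21, 168, 360 and 210 respectively (so there are 759 blocks in all). -/
theorem result (α : Type*) [Fintype α] [DecidableEq α] (hα : Fintype.card α = 24) (B : Set (Finset α)) (hB : Cfsg.IsSteinerSystem 5 8 B) (Y : Finset α) (hY : Y.card = 3) : {b : Finset α | b ∈ B ∧ (b ∩ Y).card = 3}.ncard = 21 ∧ {b : Finset α | b ∈ B ∧ (b ∩ Y).card = 2}.ncard = 168 ∧ {b : Finset α | b ∈ B ∧ (b ∩ Y).card = 1}.ncard = 360 ∧ {b : Finset α | b ∈ B ∧ (b ∩ Y).card = 0}.ncard = 210 := by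
  classical
  -- the finset of all blocks
  set BB : Finset (Finset α) := blocksOver B ∅ with hBB
  have memBB : ∀ b, b ∈ BB ↔ b ∈ B := by
    intro b; simp [hBB, mem_blocksOver]
  have lam : ∀ s : Finset α, s.card ≤ 5 → (BB.filter (fun b => s ⊆ b)).card * (8 - s.card).choose (5 - s.card)
      = (24 - s.card).choose (5 - s.card) := by
    intro s hs
    have := card_blocksOver_mul hα hB s hs
    convert this using 3
    ext b
    simp [memBB, mem_blocksOver]
  have lam0 : ∀ s : Finset α, s.card = 0 → (BB.filter (fun b => s ⊆ b)).card = 759 := by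
    intro s hs
    have := lam s (by omega)
    rw [hs] at this
    norm_num [Nat.choose] at this
    omega
  have lam1 : ∀ s : Finset α, s.card = 1 → (BB.filter (fun b => s ⊆ b)).card = 253 := by
    intro s hs
    have := lam s (by omega)
    rw [hs] at this
    norm_num [Nat.choose] at this
    omega
  have lam2 : ∀ s : Finset α, s.card = 2 → (BB.filter (fun b => s ⊆ b)).card = 77 := by
    intro s hs
    have := lam s (by omega)
    rw [hs] at this
    norm_num [Nat.choose] at this
    omega
  have lam3 : ∀ s : Finset α, s.card = 3 → (BB.filter (fun b => s ⊆ b)).card = 21 := by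
    intro s hs
    have := lam s (by omega)
    rw [hs] at this
    norm_num [Nat.choose] at this
    omega
  -- the four classes
  let E : ℕ → ℕ := fun j => (BB.filter (fun b => (b ∩ Y).card = j)).card
  have hbY : ∀ b : Finset α, (b ∩ Y).card ≤ 3 := fun b => hY ▸ card_le_card inter_subset_right
  have hsum : ∀ f : ℕ → ℕ, ∑ b ∈ BB, f (b ∩ Y).card = ∑ j ∈ range 4, E j * f j := by
    intro f
    have := Finset.sum_fiberwise_of_maps_to (s := BB) (t := range 4) (g := fun b => (b ∩ Y).card)
      (fun b _ => by simp only [mem_range]; have := hbY b; omega) (fun b => f (b ∩ Y).card)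
    rw [← this]
    refine sum_congr rfl fun j _ => ?_
    rw [show ∑ b ∈ BB with (b ∩ Y).card = j, f (b ∩ Y).card = ∑ b ∈ BB with (b ∩ Y).card = j, f j from
      sum_congr rfl (fun b hb => by rw [(mem_filter.1 hb).2])]
    simp [E, mul_comm]
  have eqi : ∀ (i l : ℕ), (∀ P ∈ Y.powersetCard i, (BB.filter (fun b => P ⊆ b)).card = l) →
      ∑ j ∈ range 4, E j * j.choose i = (3 : ℕ).choose i * l := by
    intro i l h
    rw [← hsum (fun j => j.choose i), sum_choose_inter, sum_congr rfl h]
    simp [hY]
  have e3 := eqi 3 21 (fun P hP => lam3 P (mem_powersetCard.1 hP).2)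
  have e2 := eqi 2 77 (fun P hP => lam2 P (mem_powersetCard.1 hP).2)
  have e1 := eqi 1 253 (fun P hP => lam1 P (mem_powersetCard.1 hP).2)
  have e0 := eqi 0 759 (fun P hP => lam0 P (mem_powersetCard.1 hP).2)
  simp only [sum_range_succ, sum_range_zero, zero_add] at e3 e2 e1 e0
  norm_num [Nat.choose] at e3 e2 e1 e0
  have conv : ∀ j, {b : Finset α | b ∈ B ∧ (b ∩ Y).card = j}.ncard = E j := by
    intro j
    rw [Set.ncard_eq_toFinset_card' , ]
    congr 1
    ext b
    simp [memBB]
  rw [conv, conv, conv, conv]
  omega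

end Cfsg.Agent.S5625
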