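import Mathlib
import Cfsg.Statements.S5631
import Cfsg.Agent.Lib.TvGL

set_option autoImplicit false
set_option linter.unusedSectionVars false
set_option linter.unusedVariables false
open Cfsg

namespace Cfsg.Agent.S5631

open Matrix Cfsg.Agent.Lib.TvGL Cfsg.Geo
open scoped MatrixGroups

section

variable {ι : Type} [Fintype ι] [DecidableEq ι] {F : Type*} [Field F]

/-- `M` contains the transvection with data `(x, y)`. -/
def Gam (M : Subgroup (GL ι F)) (x y : ι → F) : Prop := ∃ h : y ⬝ᵥ x = 0, tv x y h ∈ M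

variable {W : Submodule F (ι → F)} {M : Subgroup (GL ι F)}

theorem gam_of_center (hM : subspaceStabilizer W ⊓ specialLinear ι F ≤ M) {x y : ι → F}
    (hxy : y ⬝ᵥ x = 0) (hx : x ∈ W) : Gam M x y :=
  ⟨hxy, hM ⟨tv_mem_stab_of_center hxy hx, tv_mem_specialLinear x y hxy⟩⟩

theorem gam_of_axis (hM : subspaceStabilizer W ⊓ specialLinear ι F ≤ M) {x y : ι → F}
    (hxy : y ⬝ᵥ x = 0) (hy : ∀ w ∈ W, y ⬝ᵥ w = 0) : Gam M x y :=
  ⟨hxy, hM ⟨tv_mem_stab_of_axis hxy hy, tv_mem_specialLinear x y hxy⟩⟩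

/-- Conjugation by an element of `M`. -/
theorem gam_move {x y a b : ι → F} (hG : Gam M x y) (hab : b ⬝ᵥ a = 0) (hm : tv a b hab ∈ M) :
    Gam M (x + (b ⬝ᵥ x) • a) (y - (y ⬝ᵥ a) • b) := by
  obtain ⟨h, ht⟩ := hG
  have h' : (y - (y ⬝ᵥ a) • b) ⬝ᵥ (x + (b ⬝ᵥ x) • a) = 0 := by
    simp only [sub_dotProduct, dotProduct_add, smul_dotProduct, dotProduct_smul, smul_eq_mul, h, hab]
    ring
  refine ⟨h', ?_⟩
  have e := conj_tv (tv a b hab) x y (x + (b ⬝ᵥ x) • a) (y - (y ⬝ᵥ a) • b) h h'
    (by rw [tv_mulVec]) (by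
      rw [tv_val, vecMul_add, vecMul_one]
      have : (y - (y ⬝ᵥ a) • b) ᵥ* vecMulVec a b = ((y - (y ⬝ᵥ a) • b) ⬝ᵥ a) • b := by
        ext j
        simp only [vecMul, vecMulVec_apply, dotProduct, Pi.smul_apply, smul_eq_mul, Finset.sum_mul]
        refine Finset.sum_congr rfl fun k _ => ?_
        ring_nf
      rw [this, sub_dotProduct, smul_dotProduct, hab]
      simp)
  rw [← e]
  exact M.mul_mem (M.mul_mem hm ht) (M.inv_mem hm)

theorem gam_add_cov {x y y' : ι → F} (h1 : Gam M x y) (h2 : Gam M x y') : Gam M x (y + y') := by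
  obtain ⟨h, ht⟩ := h1
  obtain ⟨h', ht'⟩ := h2
  have h'' : (y + y') ⬝ᵥ x = 0 := by rw [add_dotProduct, h, h', add_zero]
  exact ⟨h'', tv_mul_same_center h h' h'' ▸ M.mul_mem ht ht'⟩

theorem gam_smul_comm {x y : ι → F} {c : F} (h : Gam M (c • x) y) : Gam M x (c • y) := by
  obtain ⟨h0, ht⟩ := h
  have h1 : (c • y) ⬝ᵥ x = 0 := by
    rw [smul_dotProduct]
    rwa [dotProduct_smul] at h0
  refine ⟨h1, ?_⟩
  have e : tv x (c • y) h1 = tv (c • x) y h0 :=
    tv_ext (by rw [vecMulVec_smul_left, vecMulVec_smul_right])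
  rw [e]
  exact ht

theorem gam_smul_comm' {x y : ι → F} {c : F} (h : Gam M x (c • y)) : Gam M (c • x) y := by
  obtain ⟨h0, ht⟩ := h
  have h1 : y ⬝ᵥ (c • x) = 0 := by
    rw [dotProduct_smul]
    rwa [smul_dotProduct] at h0
  refine ⟨h1, ?_⟩
  have e : tv (c • x) y h1 = tv x (c • y) h0 :=
    tv_ext (by rw [vecMulVec_smul_left, vecMulVec_smul_right])
  rw [e]
  exact ht

/-- Moving the centre by `a` with `y ⬝ a = 0` when `a ∈ W`. -/
theorem center_move_W (hM : subspaceStabilizer W ⊓ specialLinear ι F ≤ M) {x y a : ι → F}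
    (hG : Gam M x y) (hx : x ∉ W) (ha : a ∈ W) (hya : y ⬝ᵥ a = 0) : Gam M (x + a) y := by
  have hs : x ∉ Submodule.span F {a} := by
    intro hm
    exact hx ((Submodule.span_singleton_le_iff_mem a W).mpr ha hm)
  obtain ⟨b, hb1, hb2⟩ := exists_covector hs
  have hab : b ⬝ᵥ a = 0 := hb2 a (Submodule.mem_span_singleton_self a)
  have := gam_move hG hab (hM ⟨tv_mem_stab_of_center hab ha, tv_mem_specialLinear a b hab⟩)
  simpa [hb1, hya] using this

/-- Moving the centre by `a` with `y ⬝ a = 0` when `x ∉ W ⊔ ⟨a⟩`. -/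
theorem center_move_sup (hM : subspaceStabilizer W ⊓ specialLinear ι F ≤ M) {x y a : ι → F}
    (hG : Gam M x y) (hx : x ∉ W ⊔ Submodule.span F {a}) (hya : y ⬝ᵥ a = 0) : Gam M (x + a) y := by
  obtain ⟨b, hb1, hb2⟩ := exists_covector hx
  have hab : b ⬝ᵥ a = 0 := hb2 a (Submodule.mem_sup_right (Submodule.mem_span_singleton_self a))
  have hbW : ∀ w ∈ W, b ⬝ᵥ w = 0 := fun w hw => hb2 w (Submodule.mem_sup_left hw)
  have := gam_move hG hab (hM ⟨tv_mem_stab_of_axis hab hbW, tv_mem_specialLinear a b hab⟩)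
  simpa [hb1, hya] using this

/-- Moving the covector by `e` (`e ⬝ x = 0`) when there is `a ∈ W` with `e ⬝ a = 0`, `y ⬝ a ≠ 0`. -/
theorem cov_move_W (hM : subspaceStabilizer W ⊓ specialLinear ι F ≤ M) {x y e a : ι → F}
    (hG : Gam M x y) (hex : e ⬝ᵥ x = 0) (ha : a ∈ W) (hea : e ⬝ᵥ a = 0) (hya : y ⬝ᵥ a ≠ 0) :
    Gam M x (y - e) := by
  set c := (y ⬝ᵥ a)⁻¹ with hc
  have ha' : c • a ∈ W := W.smul_mem _ ha
  have hab : e ⬝ᵥ (c • a) = 0 := by rw [dotProduct_smul, hea, smul_zero]
  have := gam_move hG hab (hM ⟨tv_mem_stab_of_center hab ha', tv_mem_specialLinear _ e hab⟩)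
  have h1 : y ⬝ᵥ (c • a) = 1 := by
    rw [dotProduct_smul, smul_eq_mul, hc, inv_mul_cancel₀ hya]
  simpa [hex, h1] using this

end

section main

variable {ι : Type} [Fintype ι] [DecidableEq ι] {F : Type*} [Field F]
variable {W : Submodule F (ι → F)} {M : Subgroup (GL ι F)}

/-- `x, z` are independent modulo `W`. -/
theorem indep_mod {x z : ι → F} (hx : x ∉ W) (hz : z ∉ W ⊔ Submodule.span F {x}) (α β : F)
    (h : α • x + β • z ∈ W) : α = 0 ∧ β = 0 := by
  have hβ : β = 0 := by
    by_contra hβ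
    apply hz
    have e : z = β⁻¹ • (α • x + β • z) + (-(β⁻¹ * α)) • x := by
      rw [smul_add, smul_smul, smul_smul, inv_mul_cancel₀ hβ, one_smul, neg_smul]
      abel
    rw [e]
    exact Submodule.add_mem _ (Submodule.mem_sup_left (W.smul_mem _ h))
      (Submodule.mem_sup_right (Submodule.smul_mem _ _ (Submodule.mem_span_singleton_self x)))
  subst hβ
  refine ⟨?_, rfl⟩
  by_contra hα
  apply hx
  have e : x = α⁻¹ • (α • x + (0 : F) • z) := by
    rw [zero_smul, add_zero, smul_smul, inv_mul_cancel₀ hα, one_smul]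
  rw [e]
  exact W.smul_mem _ h

/-- Scaling the centre. -/
theorem gam_scale (hM : subspaceStabilizer W ⊓ specialLinear ι F ≤ M)
    (hdim : 3 ≤ Fintype.card ι) {x y : ι → F} (hG : Gam M x y) (hx : x ∉ W)
    (hy : ∃ w ∈ W, y ⬝ᵥ w ≠ 0) {c : F} (hc : c ≠ 0) : Gam M (c • x) y := by
  obtain ⟨w₀, hw₀, hyw₀⟩ := hy
  obtain ⟨h0, -⟩ := id hG
  -- normalise `a₁ ∈ W`, `y ⬝ a₁ = 1`
  set a₁ := (y ⬝ᵥ w₀)⁻¹ • w₀ with ha₁
  have ha₁W : a₁ ∈ W := W.smul_mem _ hw₀
  have hya₁ : y ⬝ᵥ a₁ = 1 := by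
    rw [ha₁, dotProduct_smul, smul_eq_mul, inv_mul_cancel₀ hyw₀]
  by_cases hs : W ⊔ Submodule.span F {x} = ⊤
  · -- codimension one: `W` has dimension at least two
    have ha₂ : ∃ a₂ ∈ W, a₂ ≠ 0 ∧ y ⬝ᵥ a₂ = 0 := by
      by_contra hcon
      push Not at hcon
      -- then `W ⊔ ⟨x⟩` is at most 2-dimensional
      have hW : W ≤ Submodule.span F {a₁} := by
        intro v hv
        have hv' : v - (y ⬝ᵥ v) • a₁ ∈ W := W.sub_mem hv (W.smul_mem _ ha₁W)
        by_cases h0' : v - (y ⬝ᵥ v) • a₁ = 0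
        · rw [sub_eq_zero] at h0'
          rw [h0']
          exact Submodule.smul_mem _ _ (Submodule.mem_span_singleton_self a₁)
        · exact absurd (by rw [dotProduct_sub, dotProduct_smul, hya₁]; simp) (hcon _ hv' h0')
      have hle : (⊤ : Submodule F (ι → F)) ≤ Submodule.span F {a₁, x} := by
        rw [← hs]
        refine sup_le (hW.trans (Submodule.span_mono (by simp))) (Submodule.span_mono (by simp))
      have h2 : Module.finrank F (⊤ : Submodule F (ι → F)) ≤ 2 := by
        refine le_trans (Submodule.finrank_mono hle) ?_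
        classical
        have := finrank_span_finset_le_card (R := F) ({a₁, x} : Finset (ι → F))
        rw [Finset.coe_pair] at this
        exact le_trans this Finset.card_le_two
      simp at h2
      omega
    obtain ⟨a₂, ha₂W, ha₂0, hya₂⟩ := ha₂
    -- covector `y₁` with `y₁ a₂ = 1`, vanishing on `x, a₁`
    have hsep : a₂ ∉ Submodule.span F {x, a₁} := by
      intro hm
      obtain ⟨α, β, rfl⟩ := Submodule.mem_span_pair.mp hm
      have hα : α = 0 := by
        by_contra hα
        apply hx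
        have e : x = α⁻¹ • ((α • x + β • a₁) - β • a₁) := by
          rw [add_sub_cancel_right, smul_smul, inv_mul_cancel₀ hα, one_smul]
        rw [e]
        exact W.smul_mem _ (W.sub_mem ha₂W (W.smul_mem _ ha₁W))
      subst hα
      have hβ : β = 0 := by
        rw [zero_smul, zero_add, dotProduct_smul, hya₁] at hya₂
        simpa using hya₂
      subst hβ
      simp at ha₂0
    obtain ⟨y₁, hy₁1, hy₁2⟩ := exists_covector hsep
    have hy₁x : y₁ ⬝ᵥ x = 0 := hy₁2 x (Submodule.subset_span (by simp))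
    have hy₁a₁ : y₁ ⬝ᵥ a₁ = 0 := hy₁2 a₁ (Submodule.subset_span (by simp))
    -- step 1: `y` to `y + y₁`
    have h1 : Gam M x (y + y₁) := by
      have := cov_move_W hM hG (e := -y₁) (a := a₁) (by simp [hy₁x]) ha₁W (by simp [hy₁a₁])
        (by rw [hya₁]; exact one_ne_zero)
      simpa using this
    -- step 2: `y + y₁` to `c • y`
    by_cases hc1 : c = 1
    · subst hc1
      simpa using hG
    have h2 : Gam M x (c • y) := by
      have ha : a₁ - (1 - c) • a₂ ∈ W := W.sub_mem ha₁W (W.smul_mem _ ha₂W)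
      have := cov_move_W hM h1 (e := y + y₁ - c • y) (a := a₁ - (1 - c) • a₂)
        (by simp [hy₁x, h0, add_dotProduct, sub_dotProduct, smul_dotProduct]) ha
        (by
          simp only [add_dotProduct, sub_dotProduct, smul_dotProduct, dotProduct_sub, dotProduct_smul,
            hya₁, hya₂, hy₁a₁, hy₁1, smul_eq_mul]
          ring)
        (by
          simp only [add_dotProduct, dotProduct_sub, dotProduct_smul, hya₁, hya₂, hy₁a₁, hy₁1,
            smul_eq_mul]
          have : (1 : F) + 0 - (1 - c) * (0 + 1) = c := by ring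
          rw [this]
          exact hc)
      simpa using this
    exact gam_smul_comm' h2
  · -- codimension at least two: two steps
    obtain ⟨z', hz'⟩ : ∃ z, z ∉ W ⊔ Submodule.span F {x} := by
      by_contra hcon
      push Not at hcon
      exact hs (Submodule.eq_top_iff'.mpr hcon)
    set z := z' - (y ⬝ᵥ z') • a₁ with hz
    have hyz : y ⬝ᵥ z = 0 := by
      rw [hz, dotProduct_sub, dotProduct_smul, hya₁]; simp
    have hzn : z ∉ W ⊔ Submodule.span F {x} := by
      intro hm
      apply hz'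
      have e : z' = z + (y ⬝ᵥ z') • a₁ := by rw [hz]; abel
      rw [e]
      exact Submodule.add_mem _ hm (Submodule.mem_sup_left (W.smul_mem _ ha₁W))
    have hi := indep_mod hx hzn
    -- step 1: `x` to `x + z`
    have hx1 : x ∉ W ⊔ Submodule.span F {z} := by
      intro hm
      obtain ⟨w, hw, s, hs', e⟩ := Submodule.mem_sup.mp hm
      obtain ⟨d, rfl⟩ := Submodule.mem_span_singleton.mp hs'
      have := hi 1 (-d) (by
        have e' : (1 : F) • x + (-d) • z = w := by
          rw [one_smul, neg_smul, ← e]; abel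
        rw [e']; exact hw)
      exact one_ne_zero this.1
    have h1 : Gam M (x + z) y := center_move_sup hM hG hx1 hyz
    -- step 2: `x + z` to `c • x`
    have hyx : y ⬝ᵥ x = 0 := h0
    have hx2 : x + z ∉ W ⊔ Submodule.span F {c • x - (x + z)} := by
      intro hm
      obtain ⟨w, hw, s, hs', e⟩ := Submodule.mem_sup.mp hm
      obtain ⟨d, rfl⟩ := Submodule.mem_span_singleton.mp hs'
      have := hi (1 + d - d * c) (1 + d) (by
        have e' : (1 + d - d * c) • x + (1 + d) • z = w := by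
          have : w = (x + z) - d • (c • x - (x + z)) := eq_sub_of_add_eq e
          rw [this]
          module
        rw [e']; exact hw)
      have hd : d = -1 := by
        have := this.2
        linear_combination this
      have := this.1
      rw [hd] at this
      apply hc
      linear_combination this
    have h2 := center_move_sup hM h1 hx2 (a := c • x - (x + z)) (by
      simp [dotProduct_sub, dotProduct_add, dotProduct_smul, hyx, hyz])
    simpa using h2

theorem center_reach (hM : subspaceStabilizer W ⊓ specialLinear ι F ≤ M)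
    (hdim : 3 ≤ Fintype.card ι) {x y x' : ι → F} (hG : Gam M x y) (hx : x ∉ W)
    (hy : ∃ w ∈ W, y ⬝ᵥ w ≠ 0) (hx' : x' ∉ W) (hyx' : y ⬝ᵥ x' = 0) : Gam M x' y := by
  obtain ⟨h0, -⟩ := id hG
  by_cases hs : x ∈ W ⊔ Submodule.span F {x' - x}
  · obtain ⟨w, hw, s, hs', e⟩ := Submodule.mem_sup.mp hs
    obtain ⟨d, rfl⟩ := Submodule.mem_span_singleton.mp hs'
    have hd0 : d ≠ 0 := by
      rintro rfl
      apply hx
      rw [← e]
      simpa using hw
    have hw' : w = (1 + d) • x - d • x' := by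
      have : w = x - d • (x' - x) := eq_sub_of_add_eq e
      rw [this]
      module
    have hd1 : 1 + d ≠ 0 := by
      intro hd
      apply hx'
      have hd' : d = -1 := by linear_combination hd
      have : x' = w := by
        rw [hw', hd]
        simp [hd']
      rw [this]
      exact hw
    set c := (1 + d) / d with hc
    have hc0 : c ≠ 0 := div_ne_zero hd1 hd0
    have hcx : c • x ∉ W := by
      intro hm
      apply hx
      have := W.smul_mem c⁻¹ hm
      rwa [smul_smul, inv_mul_cancel₀ hc0, one_smul] at this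
    have hsc := gam_scale hM hdim hG hx hy hc0
    have ha : x' - c • x ∈ W := by
      have e2 : x' - c • x = (-d⁻¹) • w := by
        rw [hw', hc]
        have : (-d⁻¹) • ((1 + d) • x - d • x') = x' - (d⁻¹ * (1 + d)) • x := by
          rw [smul_sub, smul_smul, smul_smul, neg_mul, neg_mul, inv_mul_cancel₀ hd0, neg_smul, neg_smul,
            one_smul]
          abel
        rw [this, div_eq_mul_inv, mul_comm]
      rw [e2]
      exact W.smul_mem _ hw
    have := center_move_W hM hsc hcx ha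
      (by simp [dotProduct_sub, dotProduct_smul, h0, hyx'])
    simpa using this
  · have := center_move_sup hM hG hs (a := x' - x) (by simp [dotProduct_sub, h0, hyx'])
    simpa using this

theorem cov_reach (hM : subspaceStabilizer W ⊓ specialLinear ι F ≤ M)
    (hdim : 3 ≤ Fintype.card ι) {x y y' : ι → F} (hG : Gam M x y) (hx : x ∉ W)
    (hy : ∃ w ∈ W, y ⬝ᵥ w ≠ 0) (hy' : ∃ w ∈ W, y' ⬝ᵥ w ≠ 0) (hy'x : y' ⬝ᵥ x = 0) : Gam M x y' := by
  obtain ⟨h0, -⟩ := id hG
  rcases ker_dichotomy W y (y - y') with ⟨a, ha, hea, hya⟩ | ⟨d, hd⟩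
  · have := cov_move_W hM hG (e := y - y') (by simp [sub_dotProduct, h0, hy'x]) ha hea hya
    simpa using this
  · obtain ⟨w₀, hw₀, hne⟩ := id hy
    have hd0 : d ≠ 0 := by
      rintro rfl
      exact hne (by simpa using hd w₀ hw₀)
    set c := 1 - d⁻¹ with hc
    have hcW : ∀ a ∈ W, y' ⬝ᵥ a = c * (y ⬝ᵥ a) := by
      intro a ha
      have := hd a ha
      rw [sub_dotProduct] at this
      rw [hc]
      field_simp
      linear_combination this
    have hc0 : c ≠ 0 := by
      intro hc0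
      obtain ⟨w₁, hw₁, hne'⟩ := hy'
      apply hne'
      rw [hcW w₁ hw₁, hc0, zero_mul]
    have h1 : Gam M x (c • y) := gam_smul_comm (gam_scale hM hdim hG hx hy hc0)
    have h2 : Gam M x (y' - c • y) := gam_of_axis hM
      (by simp [sub_dotProduct, smul_dotProduct, h0, hy'x])
      (fun w hw => by
        rw [sub_dotProduct, smul_dotProduct, hcW w hw]
        simp)
    have := gam_add_cov h1 h2
    simpa using this

theorem gam_all (hM : subspaceStabilizer W ⊓ specialLinear ι F ≤ M)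
    (hdim : 5 ≤ Fintype.card ι) {x₀ y₀ x y : ι → F} (hG : Gam M x₀ y₀) (hx₀ : x₀ ∉ W)
    (hy₀ : ∃ w ∈ W, y₀ ⬝ᵥ w ≠ 0) (hx : x ∉ W) (hy : ∃ w ∈ W, y ⬝ᵥ w ≠ 0) (hyx : y ⬝ᵥ x = 0) :
    Gam M x y := by
  have hd3 : 3 ≤ Fintype.card ι := by omega
  by_cases hW : W ≤ Submodule.span F {x₀, x}
  · -- common kernel of `y₀, y` is not contained in `W`
    obtain ⟨x₁, h1, h2, h3⟩ : ∃ x₁ : ι → F, y₀ ⬝ᵥ x₁ = 0 ∧ y ⬝ᵥ x₁ = 0 ∧ x₁ ∉ W := by
      by_contra hcon
      push Not at hcon
      let φ : (ι → F) →ₗ[F] (Fin 2 → F) := LinearMap.pi ![dotL y₀, dotL y]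
      have hker : LinearMap.ker φ ≤ W := by
        intro v hv
        have hv' : φ v = 0 := hv
        have h1 : y₀ ⬝ᵥ v = 0 := by simpa [φ] using congrFun hv' 0
        have h2 : y ⬝ᵥ v = 0 := by simpa [φ] using congrFun hv' 1
        exact hcon v h1 h2
      have hr := LinearMap.finrank_range_add_finrank_ker φ
      have hr2 : Module.finrank F (LinearMap.range φ) ≤ 2 := by
        refine le_trans (Submodule.finrank_le _) ?_
        simp
      have hk : Module.finrank F (LinearMap.ker φ) ≤ 2 := by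
        refine le_trans (Submodule.finrank_mono (hker.trans hW)) ?_
        classical
        have := finrank_span_finset_le_card (R := F) ({x₀, x} : Finset (ι → F))
        rw [Finset.coe_pair] at this
        exact le_trans this Finset.card_le_two
      have : Module.finrank F (ι → F) = Fintype.card ι := Module.finrank_fintype_fun_eq_card F
      omega
    exact center_reach hM hd3
      (cov_reach hM hd3 (center_reach hM hd3 hG hx₀ hy₀ h3 h1) h3 hy₀ hy h2) h3 hy hx hyx
  · obtain ⟨a, ha, ha'⟩ := SetLike.not_le_iff_exists.mp hW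
    obtain ⟨y₁, h1, h2⟩ := exists_covector ha'
    have h3 : y₁ ⬝ᵥ x₀ = 0 := h2 x₀ (Submodule.subset_span (by simp))
    have h4 : y₁ ⬝ᵥ x = 0 := h2 x (Submodule.subset_span (by simp))
    have h5 : ∃ w ∈ W, y₁ ⬝ᵥ w ≠ 0 := ⟨a, ha, by rw [h1]; exact one_ne_zero⟩
    exact cov_reach hM hd3
      (center_reach hM hd3 (cov_reach hM hd3 hG hx₀ hy₀ h5 h3) hx₀ h5 hx h4) hx h5 hy hyx

/-- The stabiliser of a proper non-zero subspace is maximal in `SL`. -/
theorem max_stab (hdim : 5 ≤ Fintype.card ι) (h0 : W ≠ ⊥) (h1 : W ≠ ⊤) :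
    IsMaximalIn (specialLinear ι F) (subspaceStabilizer W ⊓ specialLinear ι F) := by
  refine ⟨lt_of_le_of_ne inf_le_right ?_, ?_⟩
  · obtain ⟨x', y', h', h1'⟩ := exists_tv_not_mem_stab h0 h1
    intro heq
    have hm := tv_mem_specialLinear x' y' h'
    rw [← heq] at hm
    exact h1' hm.1
  · intro M hHM hMS
    by_cases hMH : M ≤ subspaceStabilizer W ⊓ specialLinear ι F
    · exact Or.inl (le_antisymm hMH hHM)
    right
    apply le_antisymm hMS
    obtain ⟨g, hgM, hgH⟩ := SetLike.not_le_iff_exists.mp hMH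
    have hgS : g ∉ subspaceStabilizer W := fun hs => hgH ⟨hs, hMS hgM⟩
    obtain ⟨w, hw, hgw⟩ : ∃ w ∈ W, (g : Matrix ι ι F) *ᵥ w ∉ W := by
      by_contra hcon
      push Not at hcon
      exact hgS (mem_stab_of_map_le W g hcon)
    obtain ⟨w₀, hw₀, hw₀0⟩ := Submodule.exists_mem_ne_zero_of_ne_bot h0
    set x₀ := (g : Matrix ι ι F) *ᵥ w with hx₀
    have hsp : w₀ ∉ Submodule.span F {x₀} := by
      intro hm
      obtain ⟨c, hc⟩ := Submodule.mem_span_singleton.mp hm
      have hc0 : c ≠ 0 := by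
        rintro rfl
        rw [zero_smul] at hc
        exact hw₀0 hc.symm
      apply hgw
      have : x₀ = c⁻¹ • w₀ := by rw [← hc, smul_smul, inv_mul_cancel₀ hc0, one_smul]
      rw [this]
      exact W.smul_mem _ hw₀
    obtain ⟨y₀, hy1, hy2⟩ := exists_covector hsp
    have hyx : y₀ ⬝ᵥ x₀ = 0 := hy2 x₀ (Submodule.mem_span_singleton_self x₀)
    have hdot : (y₀ ᵥ* (g : Matrix ι ι F)) ⬝ᵥ w = 0 := by
      rw [← dotProduct_mulVec]
      exact hyx
    have hG0 : Gam M x₀ y₀ := by
      refine ⟨hyx, ?_⟩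
      have e := conj_tv g w (y₀ ᵥ* (g : Matrix ι ι F)) x₀ y₀ hdot hyx rfl rfl
      rw [← e]
      have hw1 := hHM ⟨tv_mem_stab_of_center hdot hw, tv_mem_specialLinear w _ hdot⟩
      exact M.mul_mem (M.mul_mem hgM hw1) (M.inv_mem hgM)
    have hy₀ : ∃ v ∈ W, y₀ ⬝ᵥ v ≠ 0 := ⟨w₀, hw₀, by rw [hy1]; exact one_ne_zero⟩
    apply specialLinear_le_of_tv
    intro x y hxy
    by_cases hx : x ∈ W
    · exact hHM ⟨tv_mem_stab_of_center hxy hx, tv_mem_specialLinear x y hxy⟩
    by_cases hy : ∀ v ∈ W, y ⬝ᵥ v = 0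
    · exact hHM ⟨tv_mem_stab_of_axis hxy hy, tv_mem_specialLinear x y hxy⟩
    push Not at hy
    obtain ⟨h, ht⟩ := gam_all hHM hdim hG0 hgw hy₀ hx hy hxy
    exact ht

end main

/-- For a finite field F and n ≥ 13, the stabiliser in SL_n(F) of any proper non-zero subspace W of F^n is a maximal subgroup of SL_n(F). Here SL_n(F) is the kernel of the determinant inside GL_n(F) and the stabiliser is the set of elements of determinant one mapping W onto itself. -/
theorem result {F : Type*} [Field F] [Fintype F] (n : ℕ) (hn : 13 ≤ n) (W : Submodule F (Fin n → F)) (hW0 : W ≠ ⊥) (hW1 : W ≠ ⊤) : Cfsg.Geo.IsMaximalIn (Cfsg.Geo.specialLinear (Fin n) F) (Cfsg.Geo.subspaceStabilizer W ⊓ Cfsg.Geo.specialLinear (Fin n) F) :=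
  max_stab (by simpa using (by omega : 5 ≤ n)) hW0 hW1

end Cfsg.Agent.S5631
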