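import Mathlib
import Cfsg.Statements.S5632
import Cfsg.Agent.Lib.TvGL

set_option autoImplicit false
open Cfsg

namespace Cfsg.Agent.S5632

open Cfsg.Agent.Lib.TvGL Cfsg.Geo

/-- For a finite field F and subspaces 0 < W < U of F^n with dim W + dim U = n, the elements of SL_n(F) stabilising both W and U form a subgroup that is not maximal in SL_n(F): some subgroup lies strictly between it and SL_n(F). -/
theorem result {F : Type*} [Field F] [Fintype F] (n : ℕ) (W U : Submodule F (Fin n → F)) (hW0 : W ≠ ⊥) (hWU : W < U) (hdim : Module.finrank F W + Module.finrank F U = n) : ∃ K : Subgroup (Matrix.GeneralLinearGroup (Fin n) F), Cfsg.Geo.subspaceStabilizer W ⊓ Cfsg.Geo.subspaceStabilizer U ⊓ Cfsg.Geo.specialLinear (Fin n) F < K ∧ K < Cfsg.Geo.specialLinear (Fin n) F := by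
  have hU : U ≠ ⊤ := by
    rintro rfl
    have h1 : Module.finrank F (⊤ : Submodule F (Fin n → F)) = n := by simp
    have h2 : Module.finrank F W = 0 := by omega
    exact hW0 (Submodule.finrank_eq_zero.mp h2)
  have hW1 : W ≠ ⊤ := fun h => hU (top_le_iff.mp (h ▸ hWU.le))
  obtain ⟨u, huU, huW⟩ := SetLike.exists_of_lt hWU
  obtain ⟨z, hz⟩ : ∃ z, z ∉ U := by
    by_contra hcon
    push Not at hcon
    exact hU (Submodule.eq_top_iff'.mpr hcon)
  have hsep : u ∉ W ⊔ Submodule.span F {z} := by
    intro hm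
    obtain ⟨w, hw, s, hs, rfl⟩ := Submodule.mem_sup.mp hm
    obtain ⟨c, rfl⟩ := Submodule.mem_span_singleton.mp hs
    have hc : c = 0 := by
      by_contra hc
      apply hz
      have h3 : c • z ∈ U := by
        have := U.sub_mem huU (hWU.le hw)
        simpa using this
      have := U.smul_mem c⁻¹ h3
      rwa [smul_smul, inv_mul_cancel₀ hc, one_smul] at this
    apply huW
    simpa [hc] using hw
  obtain ⟨x, y, h, h1, h2⟩ := exists_tv_fix_not_stab huU hz hsep
  refine ⟨subspaceStabilizer W ⊓ specialLinear (Fin n) F, ?_, ?_⟩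
  · refine lt_of_le_of_ne (fun g hg => ⟨hg.1.1, hg.2⟩) fun heq => ?_
    have hm : tv x y h ∈ subspaceStabilizer W ⊓ specialLinear (Fin n) F :=
      ⟨h1, tv_mem_specialLinear x y h⟩
    rw [← heq] at hm
    exact h2 hm.1.2
  · obtain ⟨x', y', h', h1'⟩ := exists_tv_not_mem_stab hW0 hW1
    refine lt_of_le_of_ne inf_le_right fun heq => ?_
    have hm := tv_mem_specialLinear x' y' h'
    rw [← heq] at hm
    exact h1' hm.1

end Cfsg.Agent.S5632
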