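import Mathlib
import Cfsg.Statements.S5633
import Cfsg.Agent.Lib.TvGL

set_option autoImplicit false
open Cfsg

namespace Cfsg.Agent.S5633

open Cfsg.Agent.Lib.TvGL Cfsg.Geo

/-- For a finite field F and complementary non-zero subspaces W ⊕ U = F^n with dim W < dim U, the elements of SL_n(F) stabilising both W and U form a subgroup that is not maximal in SL_n(F): some subgroup lies strictly between it and SL_n(F). -/
theorem result {F : Type*} [Field F] [Fintype F] (n : ℕ) (W U : Submodule F (Fin n → F)) (hW0 : W ≠ ⊥) (hWU : W ⊓ U = ⊥) (hWU' : W ⊔ U = ⊤) (hdim : Module.finrank F W < Module.finrank F U) : ∃ K : Subgroup (Matrix.GeneralLinearGroup (Fin n) F), Cfsg.Geo.subspaceStabilizer W ⊓ Cfsg.Geo.subspaceStabilizer U ⊓ Cfsg.Geo.specialLinear (Fin n) F < K ∧ K < Cfsg.Geo.specialLinear (Fin n) F := by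
  have hU0 : U ≠ ⊥ := by
    rintro rfl
    simp at hdim
  have hW1 : W ≠ ⊤ := by
    rintro rfl
    rw [top_inf_eq] at hWU
    exact hU0 hWU
  obtain ⟨u, huU, hu0⟩ := Submodule.exists_mem_ne_zero_of_ne_bot hU0
  obtain ⟨z, hzW, hz0⟩ := Submodule.exists_mem_ne_zero_of_ne_bot hW0
  have hdis : ∀ v, v ∈ W → v ∈ U → v = 0 := by
    intro v h1 h2
    have : v ∈ W ⊓ U := ⟨h1, h2⟩
    rw [hWU] at this
    simpa using this
  have hz : z ∉ U := fun h => hz0 (hdis z hzW h)
  have hsep : u ∉ W ⊔ Submodule.span F {z} := by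
    have : W ⊔ Submodule.span F {z} = W :=
      sup_eq_left.mpr ((Submodule.span_singleton_le_iff_mem z W).mpr hzW)
    rw [this]
    exact fun h => hu0 (hdis u h huU)
  obtain ⟨x, y, h, h1, h2⟩ := exists_tv_fix_not_stab huU hz hsep
  refine ⟨subspaceStabilizer W ⊓ specialLinear (Fin n) F, ?_, ?_⟩
  · refine lt_of_le_of_ne (fun g hg => ⟨hg.1.1, hg.2⟩) fun heq => ?_
    have hm : tv x y h ∈ subspaceStabilizer W ⊓ specialLinear (Fin n) F :=
      ⟨h1, tv_mem_specialLinear x y h⟩
    rw [← heq] at hm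
    exact h2 hm.1.2
  · obtain ⟨x', y', h', h1'⟩ := exists_tv_not_mem_stab hW0 hW1
    refine lt_of_le_of_ne inf_le_right fun heq => ?_
    have hm := tv_mem_specialLinear x' y' h'
    rw [← heq] at hm
    exact h1' hm.1

end Cfsg.Agent.S5633
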