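import Mathlib
import Cfsg.Statements.S5635
import Cfsg.Agent.Lib.DecompWt
import Cfsg.Agent.Lib.H97Uni5
-- import your own Cfsg.Agent.* helpers here

set_option autoImplicit false
open Cfsg

namespace Cfsg.Agent.S5635

open Matrix Cfsg Cfsg.Geo Module Cfsg.Agent.Lib.SympT Cfsg.Agent.Lib.DecompWt Cfsg.Agent.Lib.TvGL

local notation:70 g:71 " ⋆ " x:70 => Matrix.mulVec (Units.val g) x

theorem exists_sigma {F : Type*} [Field F] [Fintype F] (h : Fintype.card F ≤ 4) :
    ∃ σ : F ≃+* F, (∀ a : F, a ≠ 0 → a * σ a = 1) ∧ (6 : F) = 0 := by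
  have hcast := FiniteField.cast_card_eq_zero F
  have h1 : 1 < Fintype.card F := Fintype.one_lt_card
  have hp := fun a (ha : a ≠ (0 : F)) => FiniteField.pow_card_sub_one_eq_one a ha
  obtain h2 | h2 | h2 : Fintype.card F = 2 ∨ Fintype.card F = 3 ∨ Fintype.card F = 4 := by omega
  · rw [h2] at hcast hp
    refine ⟨RingEquiv.refl F, fun a ha => ?_, ?_⟩
    · have := hp a ha
      simp only [Nat.add_one_sub_one, pow_one] at this
      simp [this]
    · have h3 : (2 : F) = 0 := by exact_mod_cast hcast
      linear_combination 3 * h3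
  · rw [h2] at hcast hp
    refine ⟨RingEquiv.refl F, fun a ha => ?_, ?_⟩
    · have := hp a ha
      simp only [RingEquiv.refl_apply]
      linear_combination this
    · have h3 : (3 : F) = 0 := by exact_mod_cast hcast
      linear_combination 2 * h3
  · rw [h2] at hcast hp
    have hF2 : Fintype.card F = 2 ^ 2 := by
      rw [h2]
      norm_num
    refine ⟨Cfsg.Agent.H97.Asch.hermSigma hF2, fun a ha => ?_, ?_⟩
    · have := hp a ha
      rw [Cfsg.Agent.H97.Asch.hermSigma_apply]
      linear_combination this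
    · have h4 : (4 : F) = 0 := by exact_mod_cast hcast
      have h3 : (2 : F) = 0 := by
        have h5 : (2 : F) * 2 = 0 := by
          linear_combination h4
        exact mul_self_eq_zero.1 h5
      linear_combination 3 * h3



/-- For a finite field F with q elements and n ≥ 13, let D be a decomposition of F^n into t ≥ 2 independent subspaces of equal dimension m spanning F^n, where m = 1 and q ≤ 4, or m = 2 and q = 2. Then the elements of SL_n(F) permuting the members of D form a subgroup that is not maximal: some subgroup lies strictly between it and SL_n(F). -/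
theorem result {F : Type*} [Field F] [Fintype F] (n : ℕ) (hn : 13 ≤ n) {t : ℕ} (m : ℕ) (D : Fin t → Submodule F (Fin n → F)) (hD : Cfsg.Geo.IsMDecomposition m D) (h : (m = 1 ∧ Fintype.card F ≤ 4) ∨ (m = 2 ∧ Fintype.card F = 2)) : ∃ K : Subgroup (Matrix.GeneralLinearGroup (Fin n) F), Cfsg.Geo.decompositionStabilizer D ⊓ Cfsg.Geo.specialLinear (Fin n) F < K ∧ K < Cfsg.Geo.specialLinear (Fin n) F := by
  classical
  obtain ⟨B, hB1, hB⟩ := exists_basis hD
  have hc : t * m = n := by simpa using card_eq B
  have hle : decompositionStabilizer D ⊓ specialLinear (Fin n) F ≤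
      isoN (fun x => (wt B x : F)) ⊓ specialLinear (Fin n) F := by
    rintro g ⟨hg1, hg2⟩
    refine ⟨fun x => ?_, hg2⟩
    show (wt B (g ⋆ x) : F) = _
    rw [wt_stab B hB1 hB hg1]
  have hm : 0 < m := hD.pos
  have h2t : 2 ≤ t := hD.two_le
  refine ⟨isoN (fun x => (wt B x : F)) ⊓ specialLinear (Fin n) F, ?_, ?_⟩
  · rw [SetLike.lt_iff_le_and_exists]
    refine ⟨hle, ?_⟩
    rcases h with ⟨rfl, hq⟩ | ⟨rfl, hq⟩
    · obtain ⟨σ, hσ, h6⟩ := exists_sigma hq
      have h8t : 8 ≤ t := by omega
      obtain ⟨S, -, hS⟩ := Finset.exists_subset_card_eq (s := (Finset.univ : Finset (Fin t))) (n := 4) (by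
        simp
        omega)
      obtain ⟨S', hS'sub, hS'⟩ := Finset.exists_subset_card_eq (s := (Finset.univ \ S : Finset (Fin t))) (n := 4) (by
        rw [Finset.card_sdiff_of_subset (Finset.subset_univ _), hS]
        simp
        omega)
      have hdisj : Disjoint S S' := by
        rw [Finset.disjoint_right]
        intro a ha
        exact (Finset.mem_sdiff.1 (hS'sub ha)).2
      obtain ⟨i₀, hi₀, i₁, hi₁, i₂, hi₂, h01, h02, h12⟩ := Finset.two_lt_card.1 (by omega : 2 < S.card)
      have h55 : (5 : F) * 5 = 1 := by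
        linear_combination 4 * h6
      have h5 : (5 : F) ≠ 0 := by
        intro h0
        rw [h0] at h55
        simp at h55
      have hcw : ∀ T : Finset (Fin t), T.card = 4 → cS B T 0 (wS B T 0) = 4 := by
        intro T hT
        rw [cS_wS, if_pos rfl, Finset.inter_self, hT]
        norm_num
      have h14 : (1 : F) + 4 ≠ 0 := by
        have : (1 : F) + 4 = 5 := by norm_num
        rwa [this]
      have hne : ∀ T : Finset (Fin t), T.card = 4 → 1 + cS B T 0 (wS B T 0) ≠ 0 := by
        intro T hT
        rw [hcw T hT]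
        exact h14
      -- isometry
      have hiso : ∀ (T : Finset (Fin t)) (hT : T.card = 4) (x : Fin n → F),
          (wt B (dtv (cS B T 0) (wS B T 0) (hne T hT) ⋆ x) : F) = (wt B x : F) := by
        intro T hT x
        rw [wt_cast_one B σ hσ, wt_cast_one B σ hσ, dtv_apply]
        have hcoord : ∀ i : Fin t, B.coord ⟨i, 0⟩ (x + cS B T 0 x • wS B T 0) =
            B.coord ⟨i, 0⟩ x + (∑ k ∈ T, B.coord ⟨k, 0⟩ x) * (if i ∈ T then 1 else 0) := by
          intro i
          rw [map_add, map_smul, smul_eq_mul, coord_wS, cS_apply]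
          simp
        simp only [hcoord]
        rw [norm_one_add, hT]
        have : (((4 : ℕ) : F) + 2) = 0 := by
          push_cast
          linear_combination h6
        rw [this, zero_mul, add_zero]
      refine ⟨dtv (cS B S 0) (wS B S 0) (hne S hS) * dtv (cS B S' 0) (wS B S' 0) (hne S' hS'),
        ⟨?_, ?_⟩, ?_⟩
      · intro x
        show (wt B (_ ⋆ x) : F) = _
        rw [mulVec_mul_GL, hiso S hS, hiso S' hS']
      · show _ ∈ specialLinear (Fin n) F
        rw [mem_specialLinear_iff, Units.val_mul, Matrix.det_mul, dtv_det, dtv_det, hcw S hS, hcw S' hS']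
        linear_combination h55
      · rintro ⟨hg, -⟩
        refine not_mem_stab B hB (i := i₀) (x := B ⟨i₀, 0⟩) (hB1 i₀ 0) h12 (j := 0) (j' := 0) ?_ ?_ hg
        all_goals
          have hi₀' : i₀ ∉ S' := fun h => (Finset.disjoint_left.1 hdisj hi₀) h
          rw [mulVec_mul_GL, dtv_apply, dtv_apply, cS_apply]
          simp only [coord_self, map_add, map_smul, smul_eq_mul, coord_wS, cS_apply]
          simp [hi₀', h01, h02, h12, hi₀, hi₁, hi₂, h01.symm, h02.symm, h12.symm]
    · -- blocks of dimension two over the field with two elements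
      have h7t : 7 ≤ t := by omega
      have h2F : (2 : F) = 0 := by
        have := FiniteField.cast_card_eq_zero F
        rw [hq] at this
        exact_mod_cast this
      obtain ⟨S, -, hS⟩ := Finset.exists_subset_card_eq (s := (Finset.univ : Finset (Fin t))) (n := 3) (by
        simp
        omega)
      obtain ⟨i₀, hi₀, i₁, hi₁, i₂, hi₂, h01, h02, h12⟩ := Finset.two_lt_card.1 (by omega : 2 < S.card)
      have hcw : cS B S 1 (wS B S 0) = 0 := by
        rw [cS_wS, if_neg (by decide)]
      have hne : 1 + cS B S 1 (wS B S 0) ≠ 0 := by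
        rw [hcw, add_zero]
        exact one_ne_zero
      refine ⟨dtv (cS B S 1) (wS B S 0) hne, ⟨?_, ?_⟩, ?_⟩
      · intro x
        show (wt B (_ ⋆ x) : F) = (wt B x : F)
        rw [wt_cast_two hq, wt_cast_two hq, dtv_apply]
        have hcoord : ∀ i : Fin t, B.coord ⟨i, 0⟩ (x + cS B S 1 x • wS B S 0) =
            B.coord ⟨i, 0⟩ x + (∑ k ∈ S, B.coord ⟨k, 1⟩ x) * (if i ∈ S then 1 else 0) := by
          intro i
          rw [map_add, map_smul, smul_eq_mul, coord_wS, cS_apply]
          simp
        have hcoord' : ∀ i : Fin t, B.coord ⟨i, 1⟩ (x + cS B S 1 x • wS B S 0) = B.coord ⟨i, 1⟩ x := by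
          intro i
          rw [map_add, map_smul, smul_eq_mul, coord_wS]
          simp
        simp only [hcoord, hcoord']
        rw [norm_two_add h2F, hS]
        have : (((3 : ℕ) : F) + 1) = 0 := by
          push_cast
          linear_combination 2 * h2F
        rw [this, zero_mul, add_zero]
      · show _ ∈ specialLinear (Fin n) F
        rw [mem_specialLinear_iff, dtv_det, hcw, add_zero]
      · rintro ⟨hg, -⟩
        refine not_mem_stab B hB (i := i₀) (x := B ⟨i₀, 1⟩) (hB1 i₀ 1) h12 (j := 0) (j' := 0) ?_ ?_ hg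
        all_goals
          rw [dtv_apply, cS_apply]
          simp only [coord_self, map_add, map_smul, smul_eq_mul, coord_wS]
          simp [h01, h02, h12, hi₀, hi₁, hi₂, h01.symm, h02.symm, h12.symm]
  · refine lt_of_le_of_ne inf_le_right ?_
    intro he
    have hi : (⟨0, by omega⟩ : Fin t) ≠ ⟨1, by omega⟩ := by
      intro h
      simpa using congrArg Fin.val h
    set i₀ : Fin t := ⟨0, by omega⟩ with hi₀
    set i₁ : Fin t := ⟨1, by omega⟩ with hi₁
    set j₀ : Fin m := ⟨0, hm⟩ with hj₀
    have hcw : B.coord ⟨i₁, j₀⟩ (B ⟨i₀, j₀⟩) = 0 := by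
      rw [coord_self, if_neg (fun h => hi h.1.symm)]
    have hne : 1 + B.coord ⟨i₁, j₀⟩ (B ⟨i₀, j₀⟩) ≠ 0 := by
      rw [hcw, add_zero]
      exact one_ne_zero
    have hmem : dtv (B.coord ⟨i₁, j₀⟩) (B ⟨i₀, j₀⟩) hne ∈ specialLinear (Fin n) F := by
      rw [mem_specialLinear_iff, dtv_det, hcw, add_zero]
    rw [← he] at hmem
    have h1 : (wt B (dtv (B.coord ⟨i₁, j₀⟩) (B ⟨i₀, j₀⟩) hne ⋆ (B ⟨i₁, j₀⟩)) : F) = (wt B (B ⟨i₁, j₀⟩) : F) :=
      hmem.1 _
    rw [dtv_apply, coord_self, if_pos ⟨rfl, rfl⟩, one_smul, wt_single, add_comm, wt_pair B hi] at h1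
    have h2 : (1 : F) = 0 := by
      push_cast at h1
      linear_combination h1
    exact one_ne_zero h2

end Cfsg.Agent.S5635
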