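import Mathlib
import Cfsg.Statements.S5642
import Cfsg.Agent.Lib.SympT

set_option autoImplicit false
set_option linter.unusedSectionVars false
set_option linter.unusedVariables false
open Cfsg

namespace Cfsg.Agent.S5642

open Matrix Cfsg.Geo Cfsg.Agent.Lib.TvGL Cfsg.Agent.Lib.SympT

local notation:70 g:71 " ⋆ " x:70 => Matrix.mulVec (Units.val g) x

section Core

variable {ι : Type} [Fintype ι] [DecidableEq ι] {F : Type*} [Field F]
  {f : (ι → F) → (ι → F) → F} (hf : IsSymplecticForm f)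
include hf

theorem dot_ok {x u : ι → F} (h : f x u = 0) : cov f u ⬝ᵥ x = 0 := by
  rw [cov_dot hf.bilinear, h]

/-- The transvection `z ↦ z + f(z, u) x`. -/
def tau (x u : ι → F) (h : f x u = 0) : GL ι F := tv x (cov f u) (dot_ok hf h)

theorem tau_apply (x u : ι → F) (h : f x u = 0) (z : ι → F) :
    tau hf x u h ⋆ z = z + f z u • x := by
  unfold tau
  rw [tv_mulVec, cov_dot hf.bilinear]

theorem exists_rep (ℓ : (ι → F) →ₗ[F] F) : ∃ ψ : ι → F, ∀ z, f z ψ = ℓ z := by
  refine ⟨-(LinearMap.BilinForm.toDual (Bf hf.bilinear) (Bf_nondeg hf)).symm ℓ, fun z => ?_⟩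
  have h1 := LinearMap.BilinForm.apply_toDual_symm_apply (B := Bf hf.bilinear) (hB := Bf_nondeg hf) ℓ z
  rw [f_neg_right hf.bilinear, hf.skew]
  simp only [Bf_apply] at h1
  rw [neg_neg, h1]

theorem exists_cov (y : ι → F) : ∃ ψ : ι → F, cov f ψ = y := by
  obtain ⟨ψ, hψ⟩ := exists_rep hf (dotL y)
  refine ⟨ψ, ?_⟩
  ext i
  have h1 := hψ (Pi.single i 1)
  simpa [cov] using h1

theorem tau_conj {t : GL ι F} (ht : t ∈ preserving (glToMat ι F) f) {x u : ι → F} (h : f x u = 0) :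
    t * tau hf x u h * t⁻¹ = tau hf (t ⋆ x) (t ⋆ u) (by rw [pres_apply ht, h]) := by
  apply GL_ext
  intro z
  rw [mulVec_mul_GL, mulVec_mul_GL, tau_apply, Matrix.mulVec_add, Matrix.mulVec_smul, mulVec_inv_GL,
    tau_apply]
  congr 2
  rw [← pres_apply ht ((t⁻¹) ⋆ z) u, mulVec_inv_GL]

variable {M : Subgroup (GL ι F)}

/-- The pair `(x, u)` gives a transvection in `M`. -/
def P (hf : IsSymplecticForm f) (M : Subgroup (GL ι F)) (x u : ι → F) : Prop :=
  ∃ h : f x u = 0, tau hf x u h ∈ M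

theorem P_conj (hT : ∀ v c, tvS hf v c ∈ M) {x u : ι → F} (h : P hf M x u) (w : ι → F) (c : F) :
    P hf M (tvS hf w c ⋆ x) (tvS hf w c ⋆ u) := by
  obtain ⟨h0, h1⟩ := h
  have ht := tvS_pres hf w c
  refine ⟨by rw [pres_apply ht, h0], ?_⟩
  have h2 := M.mul_mem (M.mul_mem (hT w c) h1) (M.inv_mem (hT w c))
  rwa [tau_conj hf ht] at h2

/-- Moving `u` within the perp of `x`. -/
theorem move_u_step (hT : ∀ v c, tvS hf v c ∈ M) {x u u' : ι → F} (h : P hf M x u)
    (hu' : f x u' = 0) (huu : f u u' ≠ 0) : P hf M x u' := by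
  have hbil := hf.bilinear
  have h1 := P_conj hf hT h (u - u') (f u u')⁻¹
  rw [tvS_apply, tvS_apply] at h1
  have h3 : f x (u - u') = 0 := by
    rw [f_sub_right hbil, h.1, hu', sub_zero]
  have h4 : u + ((f u u')⁻¹ * f u (u - u')) • (u - u') = u' := by
    rw [f_sub_right hbil, hf.alternating]
    have : (f u u')⁻¹ * (0 - f u u') = -1 := by
      field_simp
      ring
    rw [this]
    simp
  rw [h3, h4] at h1
  simpa using h1

theorem move_u (hT : ∀ v c, tvS hf v c ∈ M) {x u u' : ι → F} (h : P hf M x u)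
    (hu' : f x u' = 0) (hu : u ∉ Submodule.span F {x}) (hu2 : u' ∉ Submodule.span F {x}) :
    P hf M x u' := by
  obtain ⟨a, ha, h1⟩ := exists_perp_of_notMem hf hu
  obtain ⟨b, hb, h3⟩ := exists_perp_of_notMem hf hu2
  obtain ⟨z, hz, h4, h5⟩ := exists_two hf _ ⟨a, ha, h1⟩ ⟨b, hb, h3⟩
  have hxz : f x z = 0 := (mem_perp hf).1 hz x (Submodule.mem_span_singleton_self x)
  have h6 := move_u_step hf hT h hxz h4
  refine move_u_step hf hT h6 hu' ?_
  rw [hf.skew]
  simpa using h5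

theorem move_x_step (hT : ∀ v c, tvS hf v c ∈ M) {x x' u : ι → F} (h : P hf M x u)
    (hu : u ∉ Submodule.span F {x}) (hxx : f x x' ≠ 0) :
    ∃ u', P hf M x' u' ∧ u' ∉ Submodule.span F {x'} := by
  have hbil := hf.bilinear
  have h1 := P_conj hf hT h (x - x') (f x x')⁻¹
  have h4 : tvS hf (x - x') (f x x')⁻¹ ⋆ x = x' := by
    rw [tvS_apply, f_sub_right hbil, hf.alternating]
    have : (f x x')⁻¹ * (0 - f x x') = -1 := by
      field_simp
      ring
    rw [this]
    simp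
  rw [h4] at h1
  generalize tvS hf (x - x') (f x x')⁻¹ = t at h1 h4
  refine ⟨_, h1, ?_⟩
  intro hmem
  obtain ⟨c, hc⟩ := Submodule.mem_span_singleton.1 hmem
  apply hu
  rw [Submodule.mem_span_singleton]
  refine ⟨c, ?_⟩
  have h5 : t⁻¹ ⋆ (c • x') = u := by
    rw [hc, inv_mulVec_GL]
  rwa [← h4, ← Matrix.mulVec_smul, inv_mulVec_GL] at h5

theorem move_x (hT : ∀ v c, tvS hf v c ∈ M) {x x' u : ι → F} (h : P hf M x u)
    (hx : x ≠ 0) (hx' : x' ≠ 0) (hu : u ∉ Submodule.span F {x}) :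
    ∃ u', P hf M x' u' ∧ u' ∉ Submodule.span F {x'} := by
  obtain ⟨a, ha⟩ := (hf.nondegenerate x hx).2
  obtain ⟨b, hb⟩ := (hf.nondegenerate x' hx').2
  obtain ⟨z, -, h1, h3⟩ := exists_two hf ⊤ ⟨a, trivial, ha⟩ ⟨b, trivial, hb⟩
  obtain ⟨u₁, h4, h5⟩ := move_x_step hf hT h hu h1
  refine move_x_step hf hT h4 h5 ?_
  rw [hf.skew]
  simpa using h3

/-- Everything from one independent pair. -/
theorem all_tau (hT : ∀ v c, tvS hf v c ∈ M) {x₀ u₀ : ι → F} (h : P hf M x₀ u₀) (hx₀ : x₀ ≠ 0)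
    (hu₀ : u₀ ∉ Submodule.span F {x₀}) (x u : ι → F) (hxu : f x u = 0) : P hf M x u := by
  by_cases hx : x = 0
  · subst hx
    refine ⟨hxu, ?_⟩
    have : tau hf 0 u hxu = 1 := by
      apply GL_ext
      intro z
      rw [tau_apply]
      simp
    rw [this]
    exact M.one_mem
  by_cases hu : u ∈ Submodule.span F {x}
  · obtain ⟨c, rfl⟩ := Submodule.mem_span_singleton.1 hu
    refine ⟨hxu, ?_⟩
    have : tau hf x (c • x) hxu = tvS hf x c := by
      apply GL_ext
      intro z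
      rw [tau_apply, tvS_apply, hf.bilinear.smul_right]
    rw [this]
    exact hT _ _
  · obtain ⟨u₁, h1, h3⟩ := move_x hf hT h hx₀ hx hu₀
    exact move_u hf hT h1 hxu h3 hu

/-- If all the `g`-images of symplectic transvections are symplectic, `g` is a similarity. -/
theorem sim_of_prop {g : GL ι F} (hg : ∀ v, v ≠ 0 → ∃ c : F, ∀ w, f w v = c * f (g ⋆ w) (g ⋆ v))
    (hne : ∃ v : ι → F, v ≠ 0) : g ∈ similarityGroup f := by
  classical
  choose! c hc using hg
  have hstep : ∀ a b : ι → F, a ≠ 0 → b ≠ 0 → f a b ≠ 0 → c a = c b := by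
    intro a b ha hb hab
    have h1 := hc b hb a
    have h3 := hc a ha b
    have h4 : f (g ⋆ b) (g ⋆ a) = - f (g ⋆ a) (g ⋆ b) := hf.skew _ _
    rw [hf.skew, h4] at h3
    have h5 : f (g ⋆ a) (g ⋆ b) ≠ 0 := by
      intro h0
      rw [h0, mul_zero] at h1
      exact hab h1
    have h6 : (c a - c b) * f (g ⋆ a) (g ⋆ b) = 0 := by
      linear_combination h3 + h1
    exact sub_eq_zero.1 ((mul_eq_zero.1 h6).resolve_right h5)
  have hconst : ∀ a b : ι → F, a ≠ 0 → b ≠ 0 → c a = c b := by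
    intro a b ha hb
    obtain ⟨x, hx⟩ := (hf.nondegenerate a ha).2
    obtain ⟨y, hy⟩ := (hf.nondegenerate b hb).2
    obtain ⟨z, -, h1, h3⟩ := exists_two hf ⊤ ⟨x, trivial, hx⟩ ⟨y, trivial, hy⟩
    have hz : z ≠ 0 := by
      rintro rfl
      exact h1 (f_zero_right hf.bilinear a)
    rw [hstep a z ha hz h1, hstep b z hb hz h3]
  obtain ⟨v₀, hv₀⟩ := hne
  have hc0 : c v₀ ≠ 0 := by
    obtain ⟨w, hw⟩ := (hf.nondegenerate v₀ hv₀).1
    intro h0
    rw [hc v₀ hv₀ w, h0, zero_mul] at hw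
    exact hw rfl
  refine ⟨Units.mk0 (c v₀)⁻¹ (inv_ne_zero hc0), fun u v => ?_⟩
  by_cases hv : v = 0
  · subst hv
    rw [Matrix.mulVec_zero, f_zero_right hf.bilinear, f_zero_right hf.bilinear, mul_zero]
  · rw [hc v hv u, hconst v v₀ hv hv₀]
    simp only [Units.val_mk0]
    field_simp

theorem tau_not_sim {x u : ι → F} (h : f x u = 0) (hx : x ≠ 0) (hu : u ∉ Submodule.span F {x}) :
    tau hf x u h ∉ similarityGroup f := by
  rintro ⟨c, hc⟩
  have hbil := hf.bilinear
  obtain ⟨z₀, hz₀⟩ := (hf.nondegenerate x hx).1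
  have h1 := hc z₀ x
  rw [tau_apply, tau_apply, h, zero_smul, add_zero, hbil.add_left, hbil.smul_left, hf.alternating,
    mul_zero, add_zero] at h1
  have hc1 : (c : F) = 1 := by
    have h3 : ((c : F) - 1) * f z₀ x = 0 := by
      linear_combination -h1
    exact sub_eq_zero.1 ((mul_eq_zero.1 h3).resolve_right hz₀)
  apply hu
  rw [Submodule.mem_span_singleton]
  refine ⟨f z₀ u / f z₀ x, ?_⟩
  -- nondegeneracy
  by_contra hne
  have hne' : u - (f z₀ u / f z₀ x) • x ≠ 0 := by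
    intro h0
    exact hne (sub_eq_zero.1 h0).symm
  obtain ⟨w, hw⟩ := (hf.nondegenerate _ hne').1
  apply hw
  have h3 := hc z₀ w
  rw [tau_apply, tau_apply, hc1, one_mul, hbil.add_left, hbil.add_right, hbil.add_right,
    hbil.smul_left, hbil.smul_left, hbil.smul_right, hbil.smul_right, hf.alternating, hf.skew x w] at h3
  rw [f_sub_right hbil, hbil.smul_right]
  field_simp
  linear_combination h3

theorem conj_tvS_eq {g : GL ι F} {v ψ : ι → F} (hψ : ∀ z, f z ψ = f (g⁻¹ ⋆ z) v)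
    (h : f (g ⋆ v) ψ = 0) : g * tvS hf v 1 * g⁻¹ = tau hf (g ⋆ v) ψ h := by
  apply GL_ext
  intro z
  rw [mulVec_mul_GL, mulVec_mul_GL, tvS_apply, Matrix.mulVec_add, Matrix.mulVec_smul, mulVec_inv_GL,
    tau_apply, hψ, one_mul]

/-- A linear functional built from a group element. -/
def ellOf (hf : IsSymplecticForm f) (g : GL ι F) (v : ι → F) : (ι → F) →ₗ[F] F where
  toFun z := f (g⁻¹ ⋆ z) v
  map_add' a b := by rw [Matrix.mulVec_add, hf.bilinear.add_left]
  map_smul' c a := by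
    rw [Matrix.mulVec_smul, hf.bilinear.smul_left]
    rfl

/-- Main theorem, general index type. -/
theorem main (hcard : 3 ≤ Fintype.card ι) :
    IsMaximalIn (specialLinear ι F) (similarityGroup f ⊓ specialLinear ι F) := by
  classical
  have hbil := hf.bilinear
  -- an independent pair exists
  obtain ⟨x₁, hx₁⟩ : ∃ x : ι → F, x ≠ 0 := by
    have hne : Nonempty ι := Fintype.card_pos_iff.1 (by omega)
    obtain ⟨i⟩ := hne
    refine ⟨Pi.single i 1, fun h => ?_⟩
    have := congrFun h i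
    simp at this
  obtain ⟨u₁, hu₁, hu₁'⟩ : ∃ u ∈ perp hf (Submodule.span F {x₁}), u ∉ Submodule.span F {x₁} := by
    by_contra hcon
    push Not at hcon
    have h1 : perp hf (Submodule.span F {x₁}) ≤ Submodule.span F {x₁} := hcon
    have h3 := Submodule.finrank_mono h1
    rw [finrank_perp, finrank_span_singleton hx₁] at h3
    omega
  have hx₁u₁ : f x₁ u₁ = 0 := (mem_perp hf).1 hu₁ x₁ (Submodule.mem_span_singleton_self x₁)
  have hTH : ∀ v c, tvS hf v c ∈ similarityGroup f ⊓ specialLinear ι F := by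
    intro v c
    refine ⟨⟨1, fun a b => ?_⟩, tvS_mem_SL hf _ _⟩
    rw [pres_apply (tvS_pres hf v c)]
    simp
  refine ⟨lt_of_le_of_ne inf_le_right ?_, ?_⟩
  · intro heq
    have h1 : tau hf x₁ u₁ hx₁u₁ ∈ similarityGroup f ⊓ specialLinear ι F := by
      rw [heq]
      exact tv_mem_specialLinear _ _ _
    exact tau_not_sim hf hx₁u₁ hx₁ hu₁' h1.1
  · intro M hHM hMS
    by_cases hMH : M ≤ similarityGroup f ⊓ specialLinear ι F
    · exact Or.inl (le_antisymm hMH hHM)
    right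
    refine le_antisymm hMS ?_
    obtain ⟨g, hgM, hgH⟩ := SetLike.not_le_iff_exists.1 hMH
    have hgSim : g ∉ similarityGroup f := fun h => hgH ⟨h, hMS hgM⟩
    have hT : ∀ v c, tvS hf v c ∈ M := fun v c => hHM (hTH v c)
    have hpair : ∃ x u, P hf M x u ∧ x ≠ 0 ∧ u ∉ Submodule.span F {x} := by
      by_contra hcon
      push Not at hcon
      apply hgSim
      refine sim_of_prop hf (fun v hv => ?_) ⟨x₁, hx₁⟩
      obtain ⟨ψ, hψ⟩ := exists_rep hf (ellOf hf g v)
      have hψ' : ∀ z, f z ψ = f (g⁻¹ ⋆ z) v := hψ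
      have h0 : f (g ⋆ v) ψ = 0 := by
        rw [hψ', inv_mulVec_GL, hf.alternating]
      have h1 := M.mul_mem (M.mul_mem hgM (hT v 1)) (M.inv_mem hgM)
      rw [conj_tvS_eq hf hψ' h0] at h1
      have hgv : g ⋆ v ≠ 0 := by
        intro h3
        apply hv
        have h4 := inv_mulVec_GL g v
        rw [h3, Matrix.mulVec_zero] at h4
        exact h4.symm
      obtain ⟨c, hc⟩ := Submodule.mem_span_singleton.1 (hcon _ _ ⟨h0, h1⟩ hgv)
      refine ⟨c, fun w => ?_⟩
      have h5 := hψ' (g ⋆ w)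
      rw [inv_mulVec_GL, ← hc, hbil.smul_right] at h5
      exact h5.symm
    obtain ⟨x₀, u₀, h0, hx₀, hu₀⟩ := hpair
    apply specialLinear_le_of_tv
    intro x y h
    obtain ⟨ψ, rfl⟩ := exists_cov hf y
    have hxψ : f x ψ = 0 := by
      rw [cov_dot hbil] at h
      exact h
    obtain ⟨_, h3⟩ := all_tau hf hT h0 hx₀ hu₀ x ψ hxψ
    exact h3

end Core

/-- For a finite field F and n ≥ 13, let f be a non-degenerate symplectic form on F^n (so n is even). Then the elements of SL_n(F) that are similarities of f (f(gu, gv) = c f(u, v) for a non-zero scalar c depending on g) form a maximal subgroup of SL_n(F). -/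
theorem result {F : Type*} [Field F] [Fintype F] (n : ℕ) (hn : 13 ≤ n) (f : (Fin n → F) → (Fin n → F) → F) (hf : Cfsg.Geo.IsSymplecticForm f) : Cfsg.Geo.IsMaximalIn (Cfsg.Geo.specialLinear (Fin n) F) (Cfsg.Geo.similarityGroup f ⊓ Cfsg.Geo.specialLinear (Fin n) F) := by
  refine main hf ?_
  rw [Fintype.card_fin]
  omega

end Cfsg.Agent.S5642
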