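import Mathlib
import Cfsg.Statements.S5643
import Cfsg.Agent.Lib.UForm

set_option autoImplicit false
set_option linter.unusedSectionVars false
set_option linter.unusedVariables false
open Cfsg

namespace Cfsg.Agent.S5643

open Matrix Cfsg.Geo Cfsg.Agent.Lib.TvGL Cfsg.Agent.Lib.SympT Cfsg.Agent.Lib.UForm

local notation:70 g:71 " ⋆ " x:70 => Matrix.mulVec (Units.val g) x

section Core

variable {ι : Type} [Fintype ι] [DecidableEq ι] {F : Type*} [Field F] [Fintype F]
  {σ : F ≃+* F} {f : (ι → F) → (ι → F) → F} (hf : IsUnitaryForm σ f)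
include hf

theorem exists_common (hcard : Fintype.card ι < 2 * (Fintype.card ι - 3)) {v v' : ι → F}
    (hv : v ≠ 0) (hv' : v' ≠ 0) : ∃ z, f z z = 0 ∧ f z v ≠ 0 ∧ f z v' ≠ 0 := by
  classical
  obtain ⟨a, ha⟩ := (hf.nondegenerate v hv).2
  obtain ⟨b, hb⟩ := (hf.nondegenerate v' hv').2
  obtain ⟨z₀, -, h1, h3⟩ := Cfsg.Agent.Lib.UForm.exists_two hf ⊤ ⟨a, trivial, ha⟩ ⟨b, trivial, hb⟩
  obtain ⟨z, hz1, hz⟩ := prescribed hf {v, v'} z₀ 0 (map_zero σ) (by
    have : ({v, v'} : Finset (ι → F)).card ≤ 2 := Finset.card_le_two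
    omega)
  refine ⟨z, hz, ?_, ?_⟩
  · rw [hz1 v (by simp)]
    exact f_swap_ne hf h1
  · rw [hz1 v' (by simp)]
    exact f_swap_ne hf h3

/-- If all the `g`-images of unitary transvections are "unitary", `g` is a similarity. -/
theorem sim_of_prop (hcard : Fintype.card ι < 2 * (Fintype.card ι - 3)) {g : GL ι F}
    (hg : ∀ v, f v v = 0 → v ≠ 0 → ∃ c : F, ∀ w, f w v = c * f (g ⋆ w) (g ⋆ v))
    {v₀ : ι → F} (hv₀ : f v₀ v₀ = 0) (hv₀0 : v₀ ≠ 0) : g ∈ similarityGroup f := by
  classical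
  choose! c hc using hg
  have hedge : ∀ v v' : ι → F, f v v = 0 → f v' v' = 0 → v ≠ 0 → v' ≠ 0 → f v v' ≠ 0 →
      c v' = σ (c v) := by
    intro v v' hv hv' hv0 hv'0 hne
    have h1 := hc v' hv' hv'0 v
    have h3 := hc v hv hv0 v'
    have h4 : f v v' = σ (c v) * f (g ⋆ v) (g ⋆ v') := by
      rw [hf.herm v v', h3, map_mul, ← hf.herm]
    have h5 : f (g ⋆ v) (g ⋆ v') ≠ 0 := by
      intro h0
      rw [h0, mul_zero] at h1
      exact hne h1
    have h6 : (c v' - σ (c v)) * f (g ⋆ v) (g ⋆ v') = 0 := by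
      linear_combination h4 - h1
    exact sub_eq_zero.1 ((mul_eq_zero.1 h6).resolve_right h5)
  have hconst : ∀ v v' : ι → F, f v v = 0 → f v' v' = 0 → v ≠ 0 → v' ≠ 0 → c v = c v' := by
    intro v v' hv hv' hv0 hv'0
    obtain ⟨z, hz, h1, h3⟩ := exists_common hf hcard hv0 hv'0
    have hz0 : z ≠ 0 := by
      rintro rfl
      exact h1 (f_zero_left hf v)
    have h4 := hedge v z hv hz hv0 hz0 (f_swap_ne hf h1)
    have h5 := hedge v' z hv' hz hv'0 hz0 (f_swap_ne hf h3)
    exact σ.injective (h4.symm.trans h5)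
  have hc0 : c v₀ ≠ 0 := by
    obtain ⟨w, hw⟩ := (hf.nondegenerate v₀ hv₀0).1
    intro h0
    rw [hc v₀ hv₀ hv₀0 w, h0, zero_mul] at hw
    exact hw rfl
  -- the subspace where the relation holds
  let S : Submodule F (ι → F) :=
    { carrier := {v | ∀ w, f w v = c v₀ * f (g ⋆ w) (g ⋆ v)}
      add_mem' := by
        intro a b ha hb w
        rw [f_add_right hf, Matrix.mulVec_add, f_add_right hf, ha w, hb w]
        ring
      zero_mem' := by
        intro w
        rw [f_zero_right hf, Matrix.mulVec_zero, f_zero_right hf, mul_zero]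
      smul_mem' := by
        intro d a ha w
        rw [f_smul_right hf, Matrix.mulVec_smul, f_smul_right hf, ha w]
        ring }
  have hiso : ∀ v, f v v = 0 → v ∈ S := by
    intro v hv w
    by_cases hv0 : v = 0
    · subst hv0
      rw [f_zero_right hf, Matrix.mulVec_zero, f_zero_right hf, mul_zero]
    · rw [hc v hv hv0 w, hconst v v₀ hv hv₀ hv0 hv₀0]
  have htop : ∀ v, v ∈ S := by
    intro v
    by_contra hv
    obtain ⟨a, ha, hva⟩ := exists_perp_of_notMem hf hv
    have ha0 : a ≠ 0 := by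
      rintro rfl
      exact hva (f_zero_right hf v)
    obtain ⟨z₀, hz₀⟩ := (hf.nondegenerate a ha0).1
    obtain ⟨z, hz1, hz⟩ := prescribed hf {a} z₀ 0 (map_zero σ) (by
      simp only [Finset.card_singleton]
      omega)
    have h1 : f z a = 0 := ha z (hiso z hz)
    rw [hz1 a (by simp)] at h1
    exact hz₀ h1
  refine ⟨Units.mk0 (c v₀)⁻¹ (inv_ne_zero hc0), fun u v => ?_⟩
  rw [htop v u]
  simp only [Units.val_mk0]
  field_simp

theorem tau_not_sim {x u : ι → F} (h : f x u = 0) (hxx : f x x = 0) (hx : x ≠ 0)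
    (hu : u ∉ Submodule.span F {x}) : tau hf x u h ∉ similarityGroup f := by
  rintro ⟨c, hc⟩
  obtain ⟨z₀, hz₀⟩ := (hf.nondegenerate x hx).1
  have h1 := hc z₀ x
  rw [tau_apply, tau_apply, h, zero_smul, add_zero, hf.add_left, hf.smul_left, hxx, mul_zero,
    add_zero] at h1
  have hc1 : (c : F) = 1 := by
    have h3 : ((c : F) - 1) * f z₀ x = 0 := by
      linear_combination -h1
    exact sub_eq_zero.1 ((mul_eq_zero.1 h3).resolve_right hz₀)
  apply hu
  rw [Submodule.mem_span_singleton]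
  refine ⟨-(f z₀ u / f z₀ x), ?_⟩
  by_contra hne
  have hne' : f z₀ x • u + f z₀ u • x ≠ 0 := by
    intro h0
    apply hne
    have h2 : u = -(f z₀ u / f z₀ x) • x := by
      have h5 : f z₀ x • u = -(f z₀ u • x) := eq_neg_of_add_eq_zero_left h0
      have h6 := congrArg (fun t => (f z₀ x)⁻¹ • t) h5
      simp only [smul_smul, inv_mul_cancel₀ hz₀, one_smul] at h6
      have h7 : (f z₀ x)⁻¹ • -(f z₀ u • x) = -(f z₀ u / f z₀ x) • x := by
        rw [smul_neg, smul_smul, neg_smul, div_eq_inv_mul]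
      exact h6.trans h7
    exact h2.symm
  obtain ⟨w, hw⟩ := (hf.nondegenerate _ hne').1
  apply hw
  have h3 := hc z₀ w
  rw [tau_apply, tau_apply, hc1, one_mul, hf.add_left, f_add_right hf, f_add_right hf,
    hf.smul_left, hf.smul_left, f_smul_right hf, f_smul_right hf, hxx] at h3
  have h4 : σ (f w u) * f z₀ x + f z₀ u * f x w = 0 := by
    linear_combination h3
  have h5 := congrArg σ h4
  rw [map_add, map_mul, map_mul, hf.involutive, map_zero, ← hf.herm w x] at h5
  rw [f_add_right hf, f_smul_right hf, f_smul_right hf]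
  linear_combination h5

theorem tauU_mem {v : ι → F} {c : F} (hv : f v v = 0) (hc : c + σ c = 0) (h : f (c • v) v = 0) :
    tau hf (c • v) v h ∈ similarityGroup f ⊓ specialLinear ι F := by
  refine ⟨⟨1, fun a b => ?_⟩, tv_mem_specialLinear _ _ _⟩
  rw [tau_apply, tau_apply, hf.add_left, f_add_right hf, f_add_right hf]
  simp only [smul_smul, hf.smul_left, f_smul_right hf, hv, map_mul]
  rw [← hf.herm v b]
  simp only [Units.val_one, one_mul, mul_zero, add_zero]
  linear_combination f a v * f v b * hc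

/-- A linear functional built from a group element. -/
def ellOf (hf : IsUnitaryForm σ f) (g : GL ι F) (v : ι → F) : (ι → F) →ₗ[F] F where
  toFun z := f (g⁻¹ ⋆ z) v
  map_add' a b := by rw [Matrix.mulVec_add, hf.add_left]
  map_smul' c a := by
    rw [Matrix.mulVec_smul, hf.smul_left]
    rfl

/-- Main theorem, general index type. -/
theorem main (hcard : 9 ≤ Fintype.card ι) :
    IsMaximalIn (specialLinear ι F) (similarityGroup f ⊓ specialLinear ι F) := by
  classical
  have hc2 : Fintype.card ι < 2 * (Fintype.card ι - 4) := by omega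
  have hc3 : Fintype.card ι < 2 * (Fintype.card ι - 3) := by omega
  -- an isotropic vector and an independent pair
  obtain ⟨x₁, hx₁, hx₁0⟩ : ∃ x : ι → F, f x x = 0 ∧ x ≠ 0 := by
    have hne : Nonempty ι := Fintype.card_pos_iff.1 (by omega)
    obtain ⟨i⟩ := hne
    have h0 : (Pi.single i 1 : ι → F) ≠ 0 := by
      intro h
      have := congrFun h i
      simp at this
    obtain ⟨z, hz, h1, -⟩ := exists_common hf hc3 h0 h0
    refine ⟨z, hz, ?_⟩
    rintro rfl
    exact h1 (f_zero_left hf _)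
  obtain ⟨u₁, hu₁, hu₁'⟩ : ∃ u ∈ perpU hf (Submodule.span F {x₁}), u ∉ Submodule.span F {x₁} := by
    by_contra hcon
    push Not at hcon
    have h1 : perpU hf (Submodule.span F {x₁}) ≤ Submodule.span F {x₁} := hcon
    have h3 := Submodule.finrank_mono h1
    rw [finrank_perpU hf, finrank_span_singleton hx₁0] at h3
    omega
  have hx₁u₁ : f x₁ u₁ = 0 := hu₁ x₁ (Submodule.mem_span_singleton_self x₁)
  refine ⟨lt_of_le_of_ne inf_le_right ?_, ?_⟩
  · intro heq
    have h1 : tau hf x₁ u₁ hx₁u₁ ∈ similarityGroup f ⊓ specialLinear ι F := by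
      rw [heq]
      exact tv_mem_specialLinear _ _ _
    exact tau_not_sim hf hx₁u₁ hx₁ hx₁0 hu₁' h1.1
  · intro M hHM hMS
    by_cases hMH : M ≤ similarityGroup f ⊓ specialLinear ι F
    · exact Or.inl (le_antisymm hMH hHM)
    right
    refine le_antisymm hMS ?_
    obtain ⟨g, hgM, hgH⟩ := SetLike.not_le_iff_exists.1 hMH
    have hgSim : g ∉ similarityGroup f := fun h => hgH ⟨h, hMS hgM⟩
    have hU : HasU hf M := by
      intro v c hv hc
      have h0 : f (c • v) v = 0 := by rw [hf.smul_left, hv, mul_zero]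
      exact ⟨h0, hHM (tauU_mem hf hv hc h0)⟩
    obtain ⟨c₀, hc₀0, hc₀⟩ := exists_traceless hf
    have hpair : ∃ x u, P hf M x u ∧ x ≠ 0 ∧ u ∉ Submodule.span F {x} := by
      by_contra hcon
      push Not at hcon
      apply hgSim
      refine sim_of_prop hf hc3 (fun v hv hv0 => ?_) hx₁ hx₁0
      obtain ⟨ψ, hψ⟩ := exists_rep hf (ellOf hf g v)
      have hψ' : ∀ z, f z ψ = f (g⁻¹ ⋆ z) v := hψ
      have h0 : f (c₀ • (g ⋆ v)) ψ = 0 := by
        rw [hf.smul_left, hψ', inv_mulVec_GL, hv, mul_zero]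
      have h00 : f (c₀ • v) v = 0 := by rw [hf.smul_left, hv, mul_zero]
      have h1 := M.mul_mem (M.mul_mem hgM (hU v c₀ hv hc₀).2) (M.inv_mem hgM)
      have h2 : g * tau hf (c₀ • v) v (hU v c₀ hv hc₀).1 * g⁻¹ = tau hf (c₀ • (g ⋆ v)) ψ h0 := by
        apply GL_ext
        intro z
        rw [mulVec_mul_GL, mulVec_mul_GL, tau_apply, Matrix.mulVec_add, Matrix.mulVec_smul,
          Matrix.mulVec_smul, mulVec_inv_GL, tau_apply, hψ']
      rw [h2] at h1
      have hgv : c₀ • (g ⋆ v) ≠ 0 := by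
        refine smul_ne_zero hc₀0 ?_
        intro h3
        apply hv0
        have h4 := inv_mulVec_GL g v
        rw [h3, Matrix.mulVec_zero] at h4
        exact h4.symm
      obtain ⟨d, hd⟩ := Submodule.mem_span_singleton.1 (hcon _ _ ⟨h0, h1⟩ hgv)
      refine ⟨σ (d * c₀), fun w => ?_⟩
      have h5 := hψ' (g ⋆ w)
      rw [inv_mulVec_GL, ← hd, smul_smul, f_smul_right hf] at h5
      exact h5.symm
    obtain ⟨x₀, u₀, h0, hx₀, hu₀⟩ := hpair
    apply specialLinear_le_of_tv
    intro x y h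
    obtain ⟨ψ, rfl⟩ := exists_cov hf y
    have hxψ : f x ψ = 0 := by
      rw [cov_dot hf] at h
      exact h
    obtain ⟨_, h3⟩ := all_P hf hc2 hU h0 hx₀ hu₀ x ψ hxψ
    exact h3

end Core

/-- For a finite field F and n ≥ 13, let σ be a field automorphism of F of order two and f a non-degenerate unitary form on F^n with respect to σ. Then the elements of SL_n(F) that are similarities of f form a maximal subgroup of SL_n(F). -/
theorem result {F : Type*} [Field F] [Fintype F] (n : ℕ) (hn : 13 ≤ n) (σ : F ≃+* F) (f : (Fin n → F) → (Fin n → F) → F) (hf : Cfsg.Geo.IsUnitaryForm σ f) : Cfsg.Geo.IsMaximalIn (Cfsg.Geo.specialLinear (Fin n) F) (Cfsg.Geo.similarityGroup f ⊓ Cfsg.Geo.specialLinear (Fin n) F) := by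
  refine main hf ?_
  rw [Fintype.card_fin]
  omega

end Cfsg.Agent.S5643
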