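import Mathlib
import Cfsg.Statements.S5644
import Cfsg.Agent.Lib.QForm

set_option autoImplicit false
set_option linter.unusedSectionVars false
set_option linter.unusedVariables false
open Cfsg

namespace Cfsg.Agent.S5644

open Matrix Cfsg.Geo Cfsg.Agent.Lib.TvGL Cfsg.Agent.Lib.SympT Cfsg.Agent.Lib.QForm

local notation:70 g:71 " ⋆ " x:70 => Matrix.mulVec (Units.val g) x

section Core

variable {ι : Type} [Fintype ι] [DecidableEq ι] {F : Type*} [Field F] [Fintype F]
  {f : (ι → F) → (ι → F) → F} {Q : (ι → F) → F} (hq : QFo f Q)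
include hq

/-- A linear functional built from a group element. -/
def ellOf (hq : QFo f Q) (g : GL ι F) (v : ι → F) : (ι → F) →ₗ[F] F where
  toFun z := f (g⁻¹ ⋆ z) v
  map_add' a b := by rw [Matrix.mulVec_add, hq.bil.add_left]
  map_smul' c a := by
    rw [Matrix.mulVec_smul, hq.bil.smul_left]
    rfl

theorem exists_common (hcard : 13 ≤ Fintype.card ι) {v v' : ι → F}
    (hv : v ≠ 0) (hv' : v' ≠ 0) : ∃ z, Q z = 0 ∧ f z v ≠ 0 ∧ f z v' ≠ 0 := by
  classical
  obtain ⟨a, ha⟩ := (hq.nondeg v hv).2
  obtain ⟨b, hb⟩ := (hq.nondeg v' hv').2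
  obtain ⟨z₀, -, h1, h3⟩ := exists_two' hq ⊤ ⟨a, trivial, ha⟩ ⟨b, trivial, hb⟩
  obtain ⟨z, hz1, hz⟩ := prescribed hq {v, v'} z₀ 0 (by
    have : ({v, v'} : Finset (ι → F)).card ≤ 2 := Finset.card_le_two
    omega)
  refine ⟨z, hz, ?_, ?_⟩
  · rw [hz1 v (by simp), hq.symm]
    exact h1
  · rw [hz1 v' (by simp), hq.symm]
    exact h3

/-- If the relation holds on singular vectors, `g` is a similarity. -/
theorem sim_of_prop (hcard : 13 ≤ Fintype.card ι) {g : GL ι F}
    (hg : ∀ v, Q v = 0 → v ≠ 0 → ∃ c : F, ∀ w, f w v = c * f (g ⋆ w) (g ⋆ v))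
    {v₀ : ι → F} (hv₀ : Q v₀ = 0) (hv₀0 : v₀ ≠ 0) : g ∈ quadSimilarityGroup Q := by
  classical
  choose! c hc using hg
  have hedge : ∀ v v' : ι → F, Q v = 0 → Q v' = 0 → v ≠ 0 → v' ≠ 0 → f v v' ≠ 0 → c v' = c v := by
    intro v v' hv hv' hv0 hv'0 hne
    have h1 := hc v' hv' hv'0 v
    have h3 := hc v hv hv0 v'
    rw [hq.symm v' v, hq.symm (g ⋆ v') (g ⋆ v)] at h3
    have h5 : f (g ⋆ v) (g ⋆ v') ≠ 0 := by
      intro h0
      rw [h0, mul_zero] at h1
      exact hne h1
    have h6 : (c v' - c v) * f (g ⋆ v) (g ⋆ v') = 0 := by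
      linear_combination h3 - h1
    exact sub_eq_zero.1 ((mul_eq_zero.1 h6).resolve_right h5)
  have hconst : ∀ v v' : ι → F, Q v = 0 → Q v' = 0 → v ≠ 0 → v' ≠ 0 → c v = c v' := by
    intro v v' hv hv' hv0 hv'0
    obtain ⟨z, hz, h1, h3⟩ := exists_common hq hcard hv0 hv'0
    have hz0 : z ≠ 0 := by
      rintro rfl
      exact h1 (f_zero_left hq.bil v)
    have h4 := hedge z v hz hv hz0 hv0 h1
    have h5 := hedge z v' hz hv' hz0 hv'0 h3
    rw [h4, h5]
  have hc0 : c v₀ ≠ 0 := by
    obtain ⟨w, hw⟩ := (hq.nondeg v₀ hv₀0).1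
    intro h0
    rw [hc v₀ hv₀ hv₀0 w, h0, zero_mul] at hw
    exact hw rfl
  let S : Submodule F (ι → F) :=
    { carrier := {v | ∀ w, f w v = c v₀ * f (g ⋆ w) (g ⋆ v)}
      add_mem' := by
        intro a b ha hb w
        rw [hq.bil.add_right, Matrix.mulVec_add, hq.bil.add_right, ha w, hb w]
        ring
      zero_mem' := by
        intro w
        rw [f_zero_right hq.bil, Matrix.mulVec_zero, f_zero_right hq.bil, mul_zero]
      smul_mem' := by
        intro d a ha w
        rw [hq.bil.smul_right, Matrix.mulVec_smul, hq.bil.smul_right, ha w]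
        ring }
  have hiso : ∀ v, Q v = 0 → v ∈ S := by
    intro v hv w
    by_cases hv0 : v = 0
    · subst hv0
      rw [f_zero_right hq.bil, Matrix.mulVec_zero, f_zero_right hq.bil, mul_zero]
    · rw [hc v hv hv0 w, hconst v v₀ hv hv₀ hv0 hv₀0]
  have htop : ∀ v, v ∈ S := by
    intro v
    by_contra hv
    obtain ⟨a, ha, hva⟩ := exists_perp_of_notMem hq hv
    have ha0 : a ≠ 0 := by
      rintro rfl
      exact hva (f_zero_right hq.bil v)
    obtain ⟨z₀, hz₀⟩ := (hq.nondeg a ha0).1
    obtain ⟨z, hz1, hz⟩ := prescribed hq {a} z₀ 0 (by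
      simp only [Finset.card_singleton]
      omega)
    have h1 : f z a = 0 := ha z (hiso z hz)
    rw [hz1 a (by simp)] at h1
    exact hz₀ h1
  refine ⟨Units.mk0 (c v₀)⁻¹ (inv_ne_zero hc0), fun v => ?_⟩
  have h1 := htop v v
  rw [f_self hq, f_self hq] at h1
  have h2 := two_ne hq
  have h3 : Q v = c v₀ * Q (g ⋆ v) := mul_left_cancel₀ h2 (by linear_combination h1)
  simp only [Units.val_mk0]
  rw [h3]
  field_simp

/-- Main theorem, general index type. -/
theorem main (hcard : 13 ≤ Fintype.card ι) :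
    IsMaximalIn (specialLinear ι F) (quadSimilarityGroup Q ⊓ specialLinear ι F) := by
  classical
  -- a singular vector
  obtain ⟨x₁, -, hx₁0, hx₁⟩ := exists_singular hq ⊤ (by
    rw [finrank_top, Module.finrank_fintype_fun_eq_card]
    omega)
  have hx₁x₁ := f_self_zero hq hx₁
  have hRH : HasRho hq (quadSimilarityGroup Q ⊓ specialLinear ι F) := by
    intro a b ha hb hab
    refine ⟨⟨1, fun v => ?_⟩, rho_mem_SL hq ha hb hab⟩
    rw [rho_pres hq]
    simp
  refine ⟨lt_of_le_of_ne inf_le_right ?_, ?_⟩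
  · intro heq
    have h1 : tauQ hq x₁ x₁ hx₁x₁ ∈ quadSimilarityGroup Q ⊓ specialLinear ι F := by
      rw [heq]
      exact tv_mem_specialLinear _ _ _
    obtain ⟨z, hz, h3, -⟩ := exists_common hq hcard hx₁0 hx₁0
    obtain ⟨c, hc⟩ := h1.1
    have h4 := hc z
    rw [tauQ_apply, hq.add, hq.smul, hz, hx₁, hq.bil.smul_right] at h4
    apply h3
    have h5 : f z x₁ * f z x₁ = 0 := by
      linear_combination h4
    simpa using h5
  · intro M hHM hMS
    by_cases hMH : M ≤ quadSimilarityGroup Q ⊓ specialLinear ι F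
    · exact Or.inl (le_antisymm hMH hHM)
    right
    refine le_antisymm hMS ?_
    obtain ⟨g, hgM, hgH⟩ := SetLike.not_le_iff_exists.1 hMH
    have hgSim : g ∉ quadSimilarityGroup Q := fun h => hgH ⟨h, hMS hgM⟩
    have hR : HasRho hq M := fun a b ha hb hab => hHM (hRH a b ha hb hab)
    have hginj : ∀ {a b : ι → F}, g ⋆ a = g ⋆ b → a = b := by
      intro a b hab
      have h1 := inv_mulVec_GL g a
      rw [hab, inv_mulVec_GL] at h1
      exact h1.symm
    have hpair : ∃ x u, P hq M x u ∧ x ≠ 0 ∧ u ∉ Submodule.span F {x} := by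
      by_contra hcon
      push Not at hcon
      apply hgSim
      choose ψ hψ using fun u => exists_rep hq (ellOf hq g u)
      have hψ' : ∀ u z, f z (ψ u) = f (g⁻¹ ⋆ z) u := hψ
      have hgψ : ∀ a b, f (g ⋆ a) (ψ b) = f a b := by
        intro a b
        rw [hψ', inv_mulVec_GL]
      have hψsub : ∀ (u v : ι → F) (γ : F), ψ (u - γ • v) = ψ u - γ • ψ v := by
        intro u v γ
        by_contra hne
        obtain ⟨w, hw⟩ := (hq.nondeg _ (sub_ne_zero.2 hne)).1
        apply hw
        rw [f_sub_right hq.bil, f_sub_right hq.bil, hq.bil.smul_right, hψ', hψ', hψ',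
          f_sub_right hq.bil, hq.bil.smul_right]
        ring
      -- claim C
      have hC : ∀ a b, Q a = 0 → Q b = 0 → f a b = 0 → a ≠ 0 →
          ψ b ∈ Submodule.span F ({g ⋆ a, g ⋆ b, ψ a} : Set (ι → F)) := by
        intro a b ha hb hab ha0
        by_contra hnot
        have hba : f b a = 0 := by rw [hq.symm, hab]
        have haa := f_self_zero hq ha
        have hbb := f_self_zero hq hb
        have h11 : f (g ⋆ a) (ψ b) = 0 := by rw [hgψ, hab]
        have h12 : f (g ⋆ a) (ψ a) = 0 := by rw [hgψ, haa]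
        have h21 : f (-(g ⋆ b)) (ψ b) = 0 := by rw [f_neg_left hq.bil, hgψ, hbb, neg_zero]
        have h22 : f (-(g ⋆ b)) (ψ a) = 0 := by rw [f_neg_left hq.bil, hgψ, hba, neg_zero]
        have hX : (vecMulVec (g ⋆ a) (cov f (ψ b)) + vecMulVec (-(g ⋆ b)) (cov f (ψ a))) *
            (vecMulVec (g ⋆ a) (cov f (ψ b)) + vecMulVec (-(g ⋆ b)) (cov f (ψ a))) = 0 := by
          rw [add_mul, mul_add, mul_add, vv_mul, vv_mul, vv_mul, vv_mul, cov_dot hq.bil, cov_dot hq.bil,
            cov_dot hq.bil, cov_dot hq.bil, h11, h12, h21, h22]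
          simp
        have hσ : unip (vecMulVec (g ⋆ a) (cov f (ψ b)) + vecMulVec (-(g ⋆ b)) (cov f (ψ a))) hX ∈ M := by
          have h1 := M.mul_mem (M.mul_mem hgM (hR a b ha hb hab)) (M.inv_mem hgM)
          have h2 : g * rho hq a b ha hb hab * g⁻¹ =
              unip (vecMulVec (g ⋆ a) (cov f (ψ b)) + vecMulVec (-(g ⋆ b)) (cov f (ψ a))) hX := by
            apply GL_ext
            intro z
            rw [mulVec_mul_GL, mulVec_mul_GL, rho_apply hq, Matrix.mulVec_add, Matrix.mulVec_sub,
              Matrix.mulVec_smul, Matrix.mulVec_smul, mulVec_inv_GL, unip_apply, add_mulVec,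
              vecMulVec_mulVec', vecMulVec_mulVec', cov_dot hq.bil, cov_dot hq.bil, hψ', hψ']
            ext i
            simp only [Pi.add_apply, Pi.sub_apply, Pi.smul_apply, Pi.neg_apply, smul_eq_mul]
            ring
          rwa [h2] at h1
        have hp₁ : g ⋆ a ≠ 0 := by
          intro h0
          apply ha0
          apply hginj
          rw [h0, Matrix.mulVec_zero]
        obtain ⟨x, u, h3, h4, h5⟩ := stage0 hq hcard hR h11 h12 h21 h22 hX hσ hp₁ (by
          intro hmem
          apply hnot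
          have hle : Submodule.span F ({g ⋆ a, -(g ⋆ b), ψ a} : Set (ι → F)) ≤
              Submodule.span F ({g ⋆ a, g ⋆ b, ψ a} : Set (ι → F)) := by
            rw [Submodule.span_le]
            rintro y (rfl | rfl | rfl)
            · exact Submodule.subset_span (by simp)
            · exact Submodule.neg_mem _ (Submodule.subset_span (by simp))
            · exact Submodule.subset_span (by simp)
          exact hle hmem)
        exact h5 (hcon x u h3 h4)
      -- claim D
      have hD : ∀ u v, Q u = 0 → Q v = 0 → f u v = 0 → v ∉ Submodule.span F {u} →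
          ψ u ∈ Submodule.span F ({g ⋆ u, g ⋆ v} : Set (ι → F)) := by
        intro u v hu hv huv hvu
        have hv0 : v ≠ 0 := by
          rintro rfl
          exact hvu (Submodule.zero_mem _)
        by_contra hnot
        have h1 := hC v u hv hu (by rw [hq.symm, huv]) hv0
        obtain ⟨α, β, γ, h2⟩ := Submodule.mem_span_triple.1 h1
        have hP : ∀ (α β : F), α • (g ⋆ v) + β • (g ⋆ u) ∈
            Submodule.span F ({g ⋆ u, g ⋆ v} : Set (ι → F)) := by
          intro α β
          exact Submodule.add_mem _ (Submodule.smul_mem _ _ (Submodule.subset_span (by simp)))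
            (Submodule.smul_mem _ _ (Submodule.subset_span (by simp)))
        have hγ : γ ≠ 0 := by
          rintro rfl
          apply hnot
          rw [← h2, zero_smul, add_zero]
          exact hP α β
        set u'' : ι → F := u - γ • v with hu''
        have hu''0 : u'' ≠ 0 := by
          intro h0
          apply hvu
          have h3 : u = γ • v := sub_eq_zero.1 h0
          rw [Submodule.mem_span_singleton]
          refine ⟨γ⁻¹, ?_⟩
          rw [h3, smul_smul, inv_mul_cancel₀ hγ, one_smul]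
        have hQu'' : Q u'' = 0 := by
          rw [hu'', sub_eq_add_neg, ← neg_smul, hq.add, hq.smul, hu, hv, hq.bil.smul_right, huv]
          ring
        have hfu''u : f u'' u = 0 := by
          rw [hu'', f_sub_left hq.bil, hq.bil.smul_left, hq.symm v u, huv, f_self_zero hq hu]
          ring
        have h3 := hC u'' u hQu'' hu hfu''u hu''0
        apply hnot
        refine (Submodule.span_le.2 ?_) h3
        rintro y (rfl | rfl | rfl)
        · rw [hu'', Matrix.mulVec_sub, Matrix.mulVec_smul]
          exact Submodule.sub_mem _ (Submodule.subset_span (by simp))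
            (Submodule.smul_mem _ _ (Submodule.subset_span (by simp)))
        · exact Submodule.subset_span (by simp)
        · rw [hu'', hψsub]
          have h4 : ψ u - γ • ψ v = α • (g ⋆ v) + β • (g ⋆ u) := by
            rw [← h2]
            abel
          rw [h4]
          exact hP α β
      -- claim E
      refine sim_of_prop hq hcard (fun u hu hu0 => ?_) hx₁ hx₁0
      obtain ⟨v, e₁, hv, hv1, he₁, hve₁⟩ := sing_sep hq hcard {u} (by simp)
      obtain ⟨v', e₂, hv', hv'1, he₂, hv'e₂⟩ := sing_sep hq hcard {u, v}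
        (Finset.card_le_two.trans (by norm_num))
      have hvu : f v u = 0 := hv1 u (by simp)
      have hv'u : f v' u = 0 := hv'1 u (by simp)
      have hue₁ : f u e₁ = 0 := he₁ u (by simp)
      have hue₂ : f u e₂ = 0 := he₂ u (by simp)
      have hve₂ : f v e₂ = 0 := he₂ v (by simp)
      obtain ⟨α, β, h1⟩ := Submodule.mem_span_pair.1 (hD u v hu hv (by rw [hq.symm, hvu])
        (notMem_single hq hue₁ hve₁))
      obtain ⟨α', β', h2⟩ := Submodule.mem_span_pair.1 (hD u v' hu hv' (by rw [hq.symm, hv'u])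
        (notMem_single hq hue₂ hv'e₂))
      have h3 : α • u + β • v = α' • u + β' • v' := by
        apply hginj
        rw [Matrix.mulVec_add, Matrix.mulVec_add, Matrix.mulVec_smul, Matrix.mulVec_smul,
          Matrix.mulVec_smul, Matrix.mulVec_smul, h1, h2]
      have h4 := congrArg (fun t => f t e₂) h3
      simp only [hq.bil.add_left, hq.bil.smul_left, hue₂, hve₂, mul_zero, add_zero, zero_add] at h4
      have hβ' : β' = 0 := (mul_eq_zero.1 h4.symm).resolve_right hv'e₂
      rw [hβ', zero_smul, add_zero] at h3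
      have h5 := congrArg (fun t => f t e₁) h3
      simp only [hq.bil.add_left, hq.bil.smul_left, hue₁, mul_zero, zero_add] at h5
      have hβ : β = 0 := (mul_eq_zero.1 h5).resolve_right hve₁
      rw [hβ, zero_smul, add_zero] at h1
      refine ⟨α, fun w => ?_⟩
      rw [← hgψ w u, ← h1, hq.bil.smul_right]
    obtain ⟨x₀, u₀, h0, hx₀, hu₀⟩ := hpair
    apply specialLinear_le_of_tv
    intro x y h
    obtain ⟨ψ, rfl⟩ := exists_cov hq y
    have hxψ : f x ψ = 0 := by
      rw [cov_dot hq.bil] at h
      exact h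
    obtain ⟨_, h3⟩ := all_P hq hcard hR h0 hx₀ hu₀ x ψ hxψ
    exact h3

end Core

/-- For a finite field F of odd order and n ≥ 13, let Q be a non-degenerate quadratic form on F^n (its polar form is non-degenerate). Then the elements of SL_n(F) that are similarities of Q (Q(gv) = c Q(v) for a non-zero scalar c depending on g) form a maximal subgroup of SL_n(F). -/
theorem result {F : Type*} [Field F] [Fintype F] (n : ℕ) (hn : 13 ≤ n) (hodd : Odd (Fintype.card F)) (Q : (Fin n → F) → F) (hQ : Cfsg.Geo.IsNondegenerateQuadraticForm Q) : Cfsg.Geo.IsMaximalIn (Cfsg.Geo.specialLinear (Fin n) F) (Cfsg.Geo.quadSimilarityGroup Q ⊓ Cfsg.Geo.specialLinear (Fin n) F) := by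
  have hq : QFo (QuadraticMap.polar Q) Q :=
    { bil := hQ.polar_bilinear
      symm := fun a b => QuadraticMap.polar_comm Q a b
      nondeg := hQ.nondegenerate
      add := fun a b => by
        show Q (a + b) = Q a + Q b + (Q (a + b) - Q a - Q b)
        ring
      smul := hQ.smul
      odd := Nat.odd_iff.1 hodd }
  refine main hq ?_
  rw [Fintype.card_fin]
  exact hn

end Cfsg.Agent.S5644
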