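import Mathlib
import Cfsg.Statements.S5645
import Cfsg.Agent.Lib.SympT

set_option autoImplicit false
set_option linter.unusedSectionVars false
set_option linter.unusedVariables false
open Cfsg

namespace Cfsg.Agent.S5645

open Matrix Cfsg.Geo Cfsg.Agent.Lib.TvGL Cfsg.Agent.Lib.SympT Cfsg.Agent.Lib.SympForm

local notation:70 g:71 " ⋆ " x:70 => Matrix.mulVec (Units.val g) x

/-- For a finite field F and m ≥ 7, in the symplectic group Sp_2m(F) of the standard alternating form on F^(2m) (as a subgroup of GL_2m(F)), the stabiliser of any non-zero subspace on which the form vanishes identically is a maximal subgroup. -/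
theorem result {F : Type*} [Field F] [Fintype F] (m : ℕ) (hm : 7 ≤ m) (W : Submodule F (Fin m ⊕ Fin m → F)) (hW0 : W ≠ ⊥) (hW : Cfsg.Geo.IsTotallySingularFor (Cfsg.sympForm m F) W) : Cfsg.Geo.IsMaximalIn (Cfsg.spGL m F) (Cfsg.Geo.subspaceStabilizer W ⊓ Cfsg.spGL m F) := by
  have hS := sympForm_isSymplectic (m := m) (F := F)
  have hbil := hS.bilinear
  have hperpW : W ≤ perp hS W := fun w hw => (mem_perp hS).2 (fun w' hw' => hW w' hw' w hw)
  have hperp_ne : ∀ x, x ∉ perp hS W → ∃ w ∈ W, sympForm m F w x ≠ 0 := by
    intro x hx
    by_contra hcon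
    push Not at hcon
    exact hx ((mem_perp hS).2 hcon)
  -- transvections with centre in the orthogonal lie in the stabiliser
  have hperpH : ∀ a ∈ perp hS W, ∀ c, tvS hS a c ∈ subspaceStabilizer W ⊓ spGL m F := by
    intro a ha c
    refine ⟨mem_stab_of_map_le W _ ?_, tvS_pres hS a c⟩
    intro w hw
    rw [tvS_apply, (mem_perp hS).1 ha w hw]
    simpa using hw
  refine ⟨lt_of_le_of_ne inf_le_right ?_, ?_⟩
  · -- properness
    intro he
    obtain ⟨w, hw, hw0⟩ := Submodule.exists_mem_ne_zero_of_ne_bot hW0
    obtain ⟨v, hv⟩ := exists_sympForm_ne_zero hw0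
    have hvW : v ∉ W := fun hvW => hv (hW w hw v hvW)
    have : tvS hS v 1 ∈ subspaceStabilizer W ⊓ spGL m F := by
      rw [he]
      exact tvS_pres hS v 1
    exact tvS_not_stab hS hvW hw hv this.1
  · intro M hHM hMS
    by_cases hne : M = subspaceStabilizer W ⊓ spGL m F
    · exact Or.inl hne
    · right
      obtain ⟨g, hgM, hgH⟩ : ∃ g ∈ M, g ∉ subspaceStabilizer W ⊓ spGL m F := by
        by_contra hcon
        push Not at hcon
        exact hne (le_antisymm hcon hHM)
      have hgS : g ∉ subspaceStabilizer W := fun h => hgH ⟨h, hMS hgM⟩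
      have hMpres : ∀ k ∈ M, k ∈ preserving (glToMat (Fin m ⊕ Fin m) F) (sympForm m F) :=
        fun k hk => hMS hk
      have hT1 : ∀ a ∈ perp hS W, a ∈ TS hS M := fun a ha c => hHM (hperpH a ha c)
      -- a centre outside the orthogonal
      have hout : ∃ v ∈ TS hS M, v ∉ perp hS W := by
        by_contra hcon
        push Not at hcon
        obtain ⟨w₀, hw₀, hu⟩ : ∃ w ∈ W, (g ⋆ w) ∉ W := by
          by_contra h
          push Not at h
          exact hgS (mem_stab_of_map_le W g h)
        have hginv : g⁻¹ ∉ subspaceStabilizer W := fun h => hgS (by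
          have := Subgroup.inv_mem _ h
          simpa using this)
        obtain ⟨w₁, hw₁, hy⟩ : ∃ w ∈ W, (g⁻¹ ⋆ w) ∉ W := by
          by_contra h
          push Not at h
          exact hginv (mem_stab_of_map_le W _ h)
        set u := g ⋆ w₀ with hudef
        set y := g⁻¹ ⋆ w₁ with hydef
        have hut : u ∈ perp hS W := hcon _ (TS_conj hS hgM (hMS hgM) (hT1 _ (hperpW hw₀)))
        have hyt : y ∈ perp hS W := hcon _ (TS_conj hS (M.inv_mem hgM) (hMpres _ (M.inv_mem hgM))
          (hT1 _ (hperpW hw₁)))
        obtain ⟨a₁, ha₁, h1⟩ := exists_perp_of_notMem hS hu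
        obtain ⟨a₂, ha₂, h2⟩ := exists_perp_of_notMem hS hy
        obtain ⟨a, ha, h3, h4⟩ := exists_two hS (perp hS W) ⟨a₁, ha₁, h1⟩ ⟨a₂, ha₂, h2⟩
        -- the element `g h g`
        have hkey : ∀ c : F, sympForm m F y u + c * sympForm m F u a * sympForm m F y a = 0 := by
          intro c
          have hk : g * tvS hS a c * g ∈ M := M.mul_mem (M.mul_mem hgM (hHM (hperpH a ha c))) hgM
          have h5 := hcon _ (TS_conj hS hk (hMS hk) (hT1 _ (hperpW hw₀)))
          have h6 := (mem_perp hS).1 h5 w₁ hw₁
          rw [mulVec_mul_GL, mulVec_mul_GL] at h6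
          have h7 : sympForm m F w₁ (g ⋆ (tvS hS a c ⋆ u)) = sympForm m F y (tvS hS a c ⋆ u) := by
            have := hMpres g hgM y (tvS hS a c ⋆ u)
            rw [← this]
            show sympForm m F w₁ _ = sympForm m F (g ⋆ (g⁻¹ ⋆ w₁)) _
            rw [mulVec_inv_GL]
            rfl
          rw [h7, tvS_apply, hbil.add_right, hbil.smul_right] at h6
          rw [← h6]
        have h8 := hkey 0
        simp only [zero_mul, add_zero] at h8
        have h9 := hkey 1
        rw [h8] at h9
        simp only [zero_add, one_mul] at h9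
        exact (mul_ne_zero h3 h4) h9
      obtain ⟨v, hvT, hvp⟩ := hout
      -- everything is a centre
      have hall : ∀ x, x ∈ TS hS M := by
        intro x
        by_cases hx : x ∈ perp hS W
        · exact hT1 x hx
        · obtain ⟨w, hw, h1⟩ := hperp_ne v hvp
          obtain ⟨w', hw', h2⟩ := hperp_ne x hx
          obtain ⟨a, haW, h3, h4⟩ : ∃ a ∈ W, sympForm m F a v ≠ 0 ∧ sympForm m F a x ≠ 0 := by
            have hv' : ∃ z ∈ W, sympForm m F v z ≠ 0 := ⟨w, hw, by
              rw [hS.skew]
              simpa using h1⟩
            have hx' : ∃ z ∈ W, sympForm m F x z ≠ 0 := ⟨w', hw', by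
              rw [hS.skew]
              simpa using h2⟩
            obtain ⟨z, hz, h5, h6⟩ := exists_two hS W hv' hx'
            refine ⟨z, hz, ?_, ?_⟩
            · rw [hS.skew]
              simpa using h5
            · rw [hS.skew]
              simpa using h6
          set l := sympForm m F a v / sympForm m F a x with hl
          have hl0 : l ≠ 0 := div_ne_zero h3 h4
          set x' := l • x with hx'def
          set b := x' - v with hbdef
          have hab : sympForm m F a b = 0 := by
            rw [hbdef, f_sub_right hbil, hx'def, hbil.smul_right, hl]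
            field_simp
            ring
          have hva : sympForm m F v a ≠ 0 := by
            rw [hS.skew]
            simpa using h3
          set c := (sympForm m F v a)⁻¹ with hc
          have hsg : sg hS a b c ∈ M := by
            refine hHM ⟨mem_stab_of_map_le W _ ?_, sg_pres hS a b c⟩
            intro z hz
            rw [sg_apply hS hab, hW z hz a haW]
            simpa using W.add_mem hz (W.smul_mem _ haW)
          have hv' := TS_conj hS hsg (hMS hsg) hvT
          rw [sg_apply hS hab, hc, inv_mul_cancel₀ hva, one_smul, hbdef, add_sub_cancel] at hv'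
          have haT : a ∈ TS hS M := hT1 a (hperpW haW)
          set κ := (sympForm m F v a)⁻¹ * sympForm m F v (x' - v) with hκ
          have hfa : sympForm m F (x' + κ • a) a ≠ 0 := by
            rw [hbil.add_left, hbil.smul_left κ a a, hS.alternating, mul_zero, add_zero, hS.skew,
              hx'def, hbil.smul_right, hl]
            have : sympForm m F a v / sympForm m F a x * sympForm m F a x = sympForm m F a v := by
              field_simp
            rw [this]
            simpa using h3
          have h7 := TS_step hS hv' haT hfa (-κ)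
          have h8 : x' + κ • a + (-κ) • a = x' := by
            rw [add_assoc, ← add_smul, add_neg_cancel, zero_smul, add_zero]
          rw [h8] at h7
          have h9 := TS_smul hS h7 l⁻¹
          rw [hx'def, smul_smul, inv_mul_cancel₀ hl0, one_smul] at h9
          exact h9
      exact le_antisymm hMS (spGL_le M (fun v c => hall v c))

end Cfsg.Agent.S5645
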