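import Mathlib
import Cfsg.Statements.S5646
import Cfsg.Agent.Lib.SympT

set_option autoImplicit false
set_option linter.unusedSectionVars false
set_option linter.unusedVariables false
open Cfsg

namespace Cfsg.Agent.S5646

open Matrix Cfsg.Geo Cfsg.Agent.Lib.TvGL Cfsg.Agent.Lib.SympT Cfsg.Agent.Lib.SympForm

local notation:70 g:71 " ⋆ " x:70 => Matrix.mulVec (Units.val g) x

/-- For a finite field F and m ≥ 7, in the symplectic group Sp_2m(F) of the standard alternating form on F^(2m), the stabiliser of any non-zero subspace W on which the form is non-degenerate and with dim W < m is a maximal subgroup. -/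
theorem result {F : Type*} [Field F] [Fintype F] (m : ℕ) (hm : 7 ≤ m) (W : Submodule F (Fin m ⊕ Fin m → F)) (hW0 : W ≠ ⊥) (hW : Cfsg.Geo.IsNondegenerateOn (Cfsg.sympForm m F) W) (hdim : Module.finrank F W < m) : Cfsg.Geo.IsMaximalIn (Cfsg.spGL m F) (Cfsg.Geo.subspaceStabilizer W ⊓ Cfsg.spGL m F) := by
  have hS := sympForm_isSymplectic (m := m) (F := F)
  have hbil := hS.bilinear
  set P := perp hS W with hP
  have hPmem : ∀ a, a ∈ P ↔ ∀ w ∈ W, sympForm m F w a = 0 := fun a => mem_perp hS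
  have hdisj : ∀ z, z ∈ W → z ∈ P → z = 0 := by
    intro z hz hz'
    by_contra h0
    obtain ⟨⟨x, hx, hne⟩, _⟩ := hW z hz h0
    exact hne ((hPmem z).1 hz' x hx)
  have hcompl : IsCompl W P := by
    refine (LinearMap.BilinForm.isCompl_orthogonal_iff_disjoint (Bf_refl hS)).2 ?_
    rw [Submodule.disjoint_def]
    exact fun z hz hz' => hdisj z hz hz'
  have hsplit : ∀ x : Fin m ⊕ Fin m → F, ∃ x₁ ∈ W, ∃ x₂ ∈ P, x₁ + x₂ = x := by
    intro x
    have : x ∈ W ⊔ P := by
      rw [hcompl.sup_eq_top]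
      trivial
    exact Submodule.mem_sup.mp this
  have hfinP : Module.finrank F W < Module.finrank F P := by
    have h1 := finrank_perp hS W
    rw [Fintype.card_sum, Fintype.card_fin] at h1
    rw [hP, h1]
    omega
  have hWnd : ∀ a ∈ W, a ≠ 0 → ∃ z ∈ W, sympForm m F a z ≠ 0 := fun a ha h0 => (hW a ha h0).2
  have hPnd : ∀ a ∈ P, a ≠ 0 → ∃ z ∈ P, sympForm m F a z ≠ 0 := by
    intro a ha h0
    obtain ⟨x, hx⟩ := exists_sympForm_ne_zero h0
    obtain ⟨x₁, hx₁, x₂, hx₂, rfl⟩ := hsplit x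
    refine ⟨x₂, hx₂, ?_⟩
    rw [hbil.add_right, hS.skew a x₁, (hPmem a).1 ha x₁ hx₁] at hx
    simpa using hx
  have hPW : ∀ u ∈ P, ∀ b ∈ W, sympForm m F u b = 0 := by
    intro u hu b hb
    rw [hS.skew, (hPmem u).1 hu b hb, neg_zero]
  have hWH : ∀ a ∈ W, ∀ c, tvS hS a c ∈ subspaceStabilizer W ⊓ spGL m F := by
    intro a ha c
    refine ⟨mem_stab_of_map_le W _ ?_, tvS_pres hS a c⟩
    intro w hw
    rw [tvS_apply]
    exact W.add_mem hw (W.smul_mem _ ha)
  have hPH : ∀ a ∈ P, ∀ c, tvS hS a c ∈ subspaceStabilizer W ⊓ spGL m F := by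
    intro a ha c
    refine ⟨mem_stab_of_map_le W _ ?_, tvS_pres hS a c⟩
    intro w hw
    rw [tvS_apply, (hPmem a).1 ha w hw]
    simpa using hw
  obtain ⟨w₀, hw₀, hw₀0⟩ := Submodule.exists_mem_ne_zero_of_ne_bot hW0
  refine ⟨lt_of_le_of_ne inf_le_right ?_, ?_⟩
  · intro he
    obtain ⟨v₀, hv₀, hne⟩ := hWnd w₀ hw₀ hw₀0
    have hP0 : P ≠ ⊥ := by
      intro h0
      rw [h0, finrank_bot] at hfinP
      omega
    obtain ⟨p, hp, hp0⟩ := Submodule.exists_mem_ne_zero_of_ne_bot hP0
    have hv : v₀ + p ∉ W := by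
      intro h1
      have h2 : p ∈ W := by
        have := W.sub_mem h1 hv₀
        simpa using this
      exact hp0 (hdisj p h2 hp)
    have hne' : sympForm m F w₀ (v₀ + p) ≠ 0 := by
      rw [hbil.add_right, (hPmem p).1 hp w₀ hw₀, add_zero]
      exact hne
    have : tvS hS (v₀ + p) 1 ∈ subspaceStabilizer W ⊓ spGL m F := by
      rw [he]
      exact tvS_pres hS _ 1
    exact tvS_not_stab hS hv hw₀ hne' this.1
  · intro M hHM hMS
    by_cases hne : M = subspaceStabilizer W ⊓ spGL m F
    · exact Or.inl hne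
    · right
      obtain ⟨g, hgM, hgH⟩ : ∃ g ∈ M, g ∉ subspaceStabilizer W ⊓ spGL m F := by
        by_contra hcon
        push Not at hcon
        exact hne (le_antisymm hcon hHM)
      have hgS : g ∉ subspaceStabilizer W := fun h => hgH ⟨h, hMS hgM⟩
      have hWT : ∀ a ∈ W, a ∈ TS hS M := fun a ha c => hHM (hWH a ha c)
      have hPT : ∀ a ∈ P, a ∈ TS hS M := fun a ha c => hHM (hPH a ha c)
      -- a mixed centre
      have hmix : ∃ v ∈ TS hS M, v ∉ W ∧ v ∉ P := by
        by_contra hcon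
        push Not at hcon
        have hdich : ∀ U : Submodule F (Fin m ⊕ Fin m → F), (∀ z ∈ U, z ∈ TS hS M) →
            (∀ z ∈ U, g ⋆ z ∈ W) ∨ (∀ z ∈ U, g ⋆ z ∈ P) := by
          intro U hU
          by_contra h1
          push Not at h1
          obtain ⟨⟨z₁, hz₁, h2⟩, ⟨z₂, hz₂, h3⟩⟩ := h1
          have hmem : ∀ z ∈ U, g ⋆ z ∉ W → g ⋆ z ∈ P := fun z hz h4 =>
            hcon _ (TS_conj hS hgM (hMS hgM) (hU z hz)) h4
          have h4 : g ⋆ z₁ ∈ P := hmem z₁ hz₁ h2
          have h5 : g ⋆ z₂ ∈ W := by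
            by_contra h6
            exact h3 (hmem z₂ hz₂ h6)
          have h6 : g ⋆ (z₁ + z₂) = g ⋆ z₁ + g ⋆ z₂ := Matrix.mulVec_add _ _ _
          by_cases h7 : g ⋆ (z₁ + z₂) ∈ W
          · apply h2
            rw [h6] at h7
            have := W.sub_mem h7 h5
            simpa using this
          · have h8 := hmem _ (U.add_mem hz₁ hz₂) h7
            rw [h6] at h8
            apply h3
            have := P.sub_mem h8 h4
            simpa using this
        rcases hdich W hWT with h1 | h1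
        · exact hgS (mem_stab_of_map_le W g h1)
        · rcases hdich P hPT with h2 | h2
          · have := finrank_le_of_maps g h2
            omega
          · have hstab : g ∈ subspaceStabilizer P := mem_stab_of_map_le P g h2
            apply hw₀0
            refine hdisj w₀ hw₀ ?_
            exact ((mem_stab_iff P g).1 hstab w₀).2 (h1 w₀ hw₀)
      obtain ⟨v, hvT, hvW, hvP⟩ := hmix
      obtain ⟨v₁, hv₁, v₂, hv₂, rfl⟩ := hsplit v
      have hv₁0 : v₁ ≠ 0 := by
        rintro rfl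
        apply hvP
        simpa using hv₂
      have hv₂0 : v₂ ≠ 0 := by
        rintro rfl
        apply hvW
        simpa using hv₁
      have hall : ∀ x, x ∈ TS hS M := by
        intro x
        obtain ⟨x₁, hx₁, x₂, hx₂, rfl⟩ := hsplit x
        by_cases hx₁0 : x₁ = 0
        · subst hx₁0
          rw [zero_add]
          exact hPT x₂ hx₂
        by_cases hx₂0 : x₂ = 0
        · subst hx₂0
          rw [add_zero]
          exact hWT x₁ hx₁
        have h1 : x₁ + v₂ ∈ TS hS M := TS_change hS hWnd hWT hv₁ hv₁0 hx₁ hx₁0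
          (fun u hu => (hPmem v₂).1 hv₂ u hu) hvT
        have h2 : x₂ + x₁ ∈ TS hS M := by
          refine TS_change hS hPnd hPT hv₂ hv₂0 hx₂ hx₂0 (fun u hu => hPW u hu x₁ hx₁) ?_
          rwa [add_comm]
        rwa [add_comm]
      exact le_antisymm hMS (spGL_le M (fun v c => hall v c))

end Cfsg.Agent.S5646
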