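import Mathlib
import Cfsg.Statements.S5647
import Cfsg.Agent.Lib.SympDecomp

set_option autoImplicit false
set_option linter.unusedSectionVars false
set_option linter.unusedVariables false
open Cfsg

namespace Cfsg.Agent.S5647

open Matrix Cfsg.Geo Cfsg.Agent.Lib.TvGL Cfsg.Agent.Lib.SympT Cfsg.Agent.Lib.SympForm
  Cfsg.Agent.Lib.SympDecomp

local notation:70 g:71 " ⋆ " x:70 => Matrix.mulVec (Units.val g) x

/-- For a finite field F with q elements and m ≥ 7, let D be a decomposition of F^(2m) into t ≥ 2 pairwise orthogonal subspaces of equal dimension k on each of which the standard alternating form is non-degenerate, spanning F^(2m). Unless k = 2 and q = 2, the elements of Sp_2m(F) permuting the members of D form a maximal subgroup of Sp_2m(F). -/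
theorem result {F : Type*} [Field F] [Fintype F] (m : ℕ) (hm : 7 ≤ m) {t : ℕ} (k : ℕ) (D : Fin t → Submodule F (Fin m ⊕ Fin m → F)) (hD : Cfsg.Geo.IsNondegenerateMDecomposition (Cfsg.sympForm m F) k D) (hex : ¬ (k = 2 ∧ Fintype.card F = 2)) : Cfsg.Geo.IsMaximalIn (Cfsg.spGL m F) (Cfsg.Geo.decompositionStabilizer D ⊓ Cfsg.spGL m F) := by
  classical
  have hS := sympForm_isSymplectic (m := m) (F := F)
  have hbil := hS.bilinear
  have h2t : 2 ≤ t := hD.decomp.two_le
  have hfin : ∀ i, Module.finrank F (D i) = k := hD.decomp.finrank_eq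
  have hk : 0 < k := hD.decomp.pos
  have htop : iSup D = ⊤ := hD.decomp.iSup_eq_top
  have horth : ∀ i j, i ≠ j → ∀ u ∈ D i, ∀ v ∈ D j, sympForm m F u v = 0 := hD.orthogonal
  have hnd : ∀ i, ∀ a ∈ D i, a ≠ 0 → ∃ z ∈ D i, sympForm m F a z ≠ 0 :=
    fun i a ha h0 => (hD.nondegenerate i a ha h0).2
  have hnd' : ∀ i, ∀ a ∈ D i, a ≠ 0 → ∃ z ∈ D i, sympForm m F z a ≠ 0 :=
    fun i a ha h0 => (hD.nondegenerate i a ha h0).1
  have hne : ∀ i, ∃ z ∈ D i, z ≠ 0 := by
    intro i
    apply Submodule.exists_mem_ne_zero_of_ne_bot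
    intro h0
    have := hfin i
    rw [h0, finrank_bot] at this
    omega
  have hDH : ∀ i, ∀ a ∈ D i, ∀ c, tvS hS a c ∈ decompositionStabilizer D ⊓ spGL m F := by
    intro i a ha c
    refine ⟨decomp_of_maps hfin _ 1 ?_, tvS_pres hS a c⟩
    intro j x hx
    rw [tvS_apply]
    by_cases hji : j = i
    · subst hji
      exact (D j).add_mem hx ((D j).smul_mem _ ha)
    · rw [horth j i hji x hx a ha]
      simpa using hx
  have hb : ∀ i, ∀ a ∈ D i, a ≠ 0 → ∃ b ∈ D i, sympForm m F a b = 0 ∧ b ≠ 0 ∧ b ≠ a := by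
    intro i a ha h0
    by_cases hl : ∃ l : F, l ≠ 0 ∧ l ≠ 1
    · obtain ⟨l, hl0, hl1⟩ := hl
      refine ⟨l • a, (D i).smul_mem _ ha, ?_, smul_ne_zero hl0 h0, ?_⟩
      · rw [hbil.smul_right, hS.alternating, mul_zero]
      · intro h1
        apply hl1
        have h2 : (l - 1) • a = 0 := by
          rw [sub_smul, one_smul, h1, sub_self]
        rcases smul_eq_zero.mp h2 with h3 | h3
        · exact sub_eq_zero.mp h3
        · exact absurd h3 h0
    · push Not at hl
      have hcard : Fintype.card F = 2 := by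
        apply le_antisymm
        · have hsub : (Finset.univ : Finset F) ⊆ {0, 1} := by
            intro l _
            by_cases hl0 : l = 0
            · simp [hl0]
            · simp [hl l hl0]
          have := Finset.card_le_card hsub
          rw [Finset.card_univ] at this
          exact this.trans (Finset.card_le_two)
        · exact Fintype.one_lt_card
      have hk2 : k ≠ 2 := fun h => hex ⟨h, hcard⟩
      set a' : ↥(D i) := ⟨a, ha⟩ with ha'
      have ha'0 : a' ≠ 0 := fun h => h0 (congrArg Subtype.val h)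
      have hk1 : k ≠ 1 := by
        intro h1
        have h2 : Module.finrank F ↥(D i) = 1 := (hfin i).trans h1
        rw [finrank_eq_one_iff_of_nonzero' a' ha'0] at h2
        obtain ⟨z, hz, hfz⟩ := hnd i a ha h0
        obtain ⟨c, hc⟩ := h2 ⟨z, hz⟩
        have h3 : c • a = z := congrArg Subtype.val hc
        apply hfz
        rw [← h3, hbil.smul_right, hS.alternating, mul_zero]
      have hk3 : 3 ≤ k := by omega
      let φ : ↥(D i) →ₗ[F] F := ((Bf hbil) a).comp (D i).subtype
      have hrn := LinearMap.finrank_range_add_finrank_ker φ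
      have hr1 : Module.finrank F (LinearMap.range φ) ≤ 1 := by
        have := Submodule.finrank_le (LinearMap.range φ)
        rwa [Module.finrank_self] at this
      have hnot : ¬ LinearMap.ker φ ≤ Submodule.span F {a'} := by
        intro hle
        have h3 := Submodule.finrank_mono hle
        rw [finrank_span_singleton ha'0] at h3
        rw [hfin] at hrn
        omega
      obtain ⟨y, hy, hy2⟩ := SetLike.not_le_iff_exists.mp hnot
      refine ⟨y.1, y.2, hy, ?_, ?_⟩
      · intro h3
        apply hy2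
        have : y = 0 := Subtype.ext h3
        rw [this]
        exact Submodule.zero_mem _
      · intro h3
        apply hy2
        have : y = a' := Subtype.ext h3
        rw [this]
        exact Submodule.mem_span_singleton_self a'
  refine ⟨lt_of_le_of_ne inf_le_right ?_, ?_⟩
  · -- properness
    intro he
    let i₀ : Fin t := ⟨0, by omega⟩
    let i₁ : Fin t := ⟨1, by omega⟩
    have h01 : i₀ ≠ i₁ := by
      intro h
      have := congrArg Fin.val h
      simp [i₀, i₁] at this
    obtain ⟨w₁, hw₁, hw₁0⟩ := hne i₀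
    obtain ⟨w₂, hw₂, hw₂0⟩ := hne i₁
    have hmem : tvS hS (w₁ + w₂) 1 ∈ decompositionStabilizer D ⊓ spGL m F := by
      rw [he]
      exact tvS_pres hS _ 1
    obtain ⟨σ, hσ⟩ := hmem.1
    obtain ⟨x, hx, hfx⟩ := hnd' i₀ w₁ hw₁ hw₁0
    have hy : tvS hS (w₁ + w₂) 1 ⋆ x ∈ D (σ i₀) := by
      rw [← hσ i₀]
      exact ⟨x, hx, rfl⟩
    have hc : sympForm m F x (w₁ + w₂) = sympForm m F x w₁ := by
      rw [hbil.add_right, horth i₀ i₁ h01 x hx w₂ hw₂, add_zero]
    rw [tvS_apply, one_mul, hc] at hy
    by_cases hj : σ i₀ = i₁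
    · have h3 := horth i₁ i₀ (Ne.symm h01) _ (hj ▸ hy) w₁ hw₁
      rw [hbil.add_left, hbil.smul_left, hbil.add_left, hS.alternating,
        horth i₁ i₀ (Ne.symm h01) w₂ hw₂ w₁ hw₁] at h3
      apply hfx
      simpa using h3
    · obtain ⟨z, hz, hfz⟩ := hnd i₁ w₂ hw₂ hw₂0
      have h3 := horth (σ i₀) i₁ hj _ hy z hz
      rw [hbil.add_left, hbil.smul_left, hbil.add_left, horth i₀ i₁ h01 x hx z hz,
        horth i₀ i₁ h01 w₁ hw₁ z hz] at h3
      simp only [zero_add] at h3
      exact (mul_ne_zero hfx hfz) h3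
  · intro M hHM hMS
    by_cases hne' : M = decompositionStabilizer D ⊓ spGL m F
    · exact Or.inl hne'
    · right
      obtain ⟨g, hgM, hgH⟩ : ∃ g ∈ M, g ∉ decompositionStabilizer D ⊓ spGL m F := by
        by_contra hcon
        push Not at hcon
        exact hne' (le_antisymm hcon hHM)
      have hgS : g ∉ decompositionStabilizer D := fun h => hgH ⟨h, hMS hgM⟩
      have hDT : ∀ i, ∀ a ∈ D i, a ∈ TS hS M := fun i a ha c => hHM (hDH i a ha c)
      have hmix : ∃ x ∈ TS hS M, ∀ j, x ∉ D j := by
        by_contra hcon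
        push Not at hcon
        apply hgS
        refine stab_of_cover hS horth hnd hfin hne g ?_
        intro i w hw
        exact hcon _ (TS_conj hS hgM (hMS hgM) (hDT i w hw))
      have hswap : ∀ p q : Fin t, p ≠ q → ∃ g ∈ M, g ∈ preserving (glToMat (Fin m ⊕ Fin m) F) (sympForm m F) ∧
          ∀ i, ∀ x ∈ D i, g ⋆ x ∈ D (Equiv.swap p q i) := by
        intro p q hpq
        obtain ⟨φ, hφ⟩ := exists_isometry_alt ((Bf hbil).restrict (D p)) ((Bf hbil).restrict (D q))
          (fun x => hS.alternating x.1) (fun x => hS.alternating x.1)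
          (fun x hx => by
            obtain ⟨z, hz, hfz⟩ := hnd p x.1 x.2 (fun h => hx (Subtype.ext h))
            exact ⟨⟨z, hz⟩, hfz⟩)
          (fun x hx => by
            obtain ⟨z, hz, hfz⟩ := hnd q x.1 x.2 (fun h => hx (Subtype.ext h))
            exact ⟨⟨z, hz⟩, hfz⟩)
          ((hfin p).trans (hfin q).symm)
        obtain ⟨g', hg'1, hg'2⟩ := exists_swap hS horth hnd hpq φ hφ
        exact ⟨g', hHM ⟨decomp_of_maps hfin g' _ hg'2, hg'1⟩, hg'1, hg'2⟩
      have hall := core hS horth hnd hDT h2t htop hb hswap hne hmix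
      exact le_antisymm hMS (spGL_le M (fun v c => hall v c))

end Cfsg.Agent.S5647
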