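import Mathlib
import Cfsg.Statements.S5648
import Cfsg.Agent.Lib.DecompWt
-- import your own Cfsg.Agent.* helpers here

set_option autoImplicit false
open Cfsg

namespace Cfsg.Agent.S5648

open Matrix Cfsg Cfsg.Geo Module Cfsg.Agent.Lib.SympT Cfsg.Agent.Lib.DecompWt Cfsg.Agent.Lib.TvGL

local notation:70 g:71 " ⋆ " x:70 => Matrix.mulVec (Units.val g) x



/-- Over the field with 2 elements and for m ≥ 7, let D be a decomposition of F^(2m) into t pairwise orthogonal non-degenerate 2-dimensional subspaces for the standard alternating form (t = m ≥ 2). Then the elements of Sp_2m(2) permuting the members of D form a subgroup that is not maximal: some subgroup lies strictly between it and Sp_2m(2). -/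
theorem result {F : Type*} [Field F] [Fintype F] (m : ℕ) (hm : 7 ≤ m) (hq : Fintype.card F = 2) {t : ℕ} (D : Fin t → Submodule F (Fin m ⊕ Fin m → F)) (hD : Cfsg.Geo.IsNondegenerateMDecomposition (Cfsg.sympForm m F) 2 D) : ∃ K : Subgroup (Matrix.GeneralLinearGroup (Fin m ⊕ Fin m) F), Cfsg.Geo.decompositionStabilizer D ⊓ Cfsg.spGL m F < K ∧ K < Cfsg.spGL m F := by
  classical
  obtain ⟨B, hB1, hB⟩ := exists_basis hD.decomp
  have hc : t * 2 = m + m := by simpa using card_eq B
  have hf : IsSymplecticForm (sympForm m F) := sympForm_isSymplectic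
  set f := sympForm m F with hfdef
  have hone : ∀ a : F, a ≠ 0 → a = 1 := by
    intro a ha
    have := FiniteField.pow_card_sub_one_eq_one a ha
    rw [hq] at this
    simpa using this
  have h2F : (2 : F) = 0 := by
    have := FiniteField.cast_card_eq_zero F
    rw [hq] at this
    exact_mod_cast this
  have hle : decompositionStabilizer D ⊓ spGL m F ≤ isoN (fun x => (wt B x : F)) ⊓ spGL m F := by
    rintro g ⟨hg1, hg2⟩
    refine ⟨fun x => ?_, hg2⟩
    show (wt B (g ⋆ x) : F) = _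
    rw [wt_stab B hB1 hB hg1]
  have horth : ∀ i k, i ≠ k → ∀ l l', f (B ⟨i, l⟩) (B ⟨k, l'⟩) = 0 := fun i k hik l l' =>
    hD.orthogonal i k hik _ (hB1 i l) _ (hB1 k l')
  have hnz : ∀ (i : Fin t) (l : Fin 2), B ⟨i, l⟩ ≠ 0 := fun i l => B.ne_zero _
  have hqp : ∀ i, f (B ⟨i, 1⟩) (B ⟨i, 0⟩) = 1 := by
    intro i
    obtain ⟨x, hx, hne⟩ := (hD.nondegenerate i _ (hB1 i 0) (hnz i 0)).1
    apply hone
    intro h0
    apply hne
    have hsum := B.sum_repr x
    rw [Fintype.sum_sigma] at hsum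
    -- only the block `i` contributes
    have hx2 : x = ∑ j : Fin t, ∑ l : Fin 2, B.repr x ⟨j, l⟩ • B ⟨j, l⟩ := hsum.symm
    have h3 : ∀ j : Fin t, ∀ l : Fin 2, B.repr x ⟨j, l⟩ • f (B ⟨j, l⟩) (B ⟨i, 0⟩) = 0 := by
      intro j l
      by_cases hj : j = i
      · subst hj
        fin_cases l
        · show _ • f (B ⟨j, 0⟩) (B ⟨j, 0⟩) = 0
          rw [hf.alternating, smul_zero]
        · show _ • f (B ⟨j, 1⟩) (B ⟨j, 0⟩) = 0
          rw [h0, smul_zero]
      · rw [horth j i hj, smul_zero]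
    rw [hx2]
    have h4 : ∀ (s : Finset (Fin t)) (u : Fin t → Fin m ⊕ Fin m → F),
        f (∑ j ∈ s, u j) (B ⟨i, 0⟩) = ∑ j ∈ s, f (u j) (B ⟨i, 0⟩) := by
      intro s u
      induction s using Finset.induction_on with
      | empty => simp [f_zero_left hf.bilinear]
      | insert a s ha ih =>
        rw [Finset.sum_insert ha, Finset.sum_insert ha, hf.bilinear.add_left, ih]
    rw [h4]
    refine Finset.sum_eq_zero (fun j _ => ?_)
    rw [Fin.sum_univ_two, hf.bilinear.add_left, hf.bilinear.smul_left, hf.bilinear.smul_left]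
    have h5 := h3 j 0
    have h6 := h3 j 1
    rw [smul_eq_mul] at h5 h6
    rw [h5, h6, add_zero]
  -- the key formula
  have hkey : ∀ (x : Fin m ⊕ Fin m → F) (j : Fin t), f x (B ⟨j, 0⟩) = B.coord ⟨j, 1⟩ x := by
    intro x j
    let L : (Fin m ⊕ Fin m → F) →ₗ[F] F :=
      { toFun := fun x => f x (B ⟨j, 0⟩)
        map_add' := fun a b => hf.bilinear.add_left a b _
        map_smul' := fun c a => hf.bilinear.smul_left c a _ }
    have hL : L = B.coord ⟨j, 1⟩ := by
      apply B.ext
      rintro ⟨i, l⟩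
      show f (B ⟨i, l⟩) (B ⟨j, 0⟩) = _
      rw [coord_self]
      by_cases hij : j = i
      · subst hij
        fin_cases l
        · show f (B ⟨j, 0⟩) (B ⟨j, 0⟩) = _
          rw [hf.alternating]
          simp
        · show f (B ⟨j, 1⟩) (B ⟨j, 0⟩) = _
          rw [hqp]
          simp
      · rw [horth i j (Ne.symm hij), if_neg (fun h => hij h.1)]
    exact congrArg (fun L' : (Fin m ⊕ Fin m → F) →ₗ[F] F => L' x) hL
  have hsumr : ∀ (x : Fin m ⊕ Fin m → F) (S : Finset (Fin t)), f x (wS B S 0) = cS B S 1 x := by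
    intro x S
    rw [cS_apply]
    unfold wS
    induction S using Finset.induction_on with
    | empty => simp [f_zero_right hf.bilinear]
    | insert a s ha ih =>
      rw [Finset.sum_insert ha, Finset.sum_insert ha, hf.bilinear.add_right, ih, hkey]
  have hform : ∀ (S : Finset (Fin t)) (x : Fin m ⊕ Fin m → F),
      (wt B (tvS hf (wS B S 0) 1 ⋆ x) : F) = (wt B x : F) + ((S.card : F) + 1) * (cS B S 1 x) ^ 2 := by
    intro S x
    rw [wt_cast_two hq, wt_cast_two hq, tvS_apply, one_mul, hsumr]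
    have hcoord : ∀ i : Fin t, B.coord ⟨i, 0⟩ (x + cS B S 1 x • wS B S 0) =
        B.coord ⟨i, 0⟩ x + (∑ k ∈ S, B.coord ⟨k, 1⟩ x) * (if i ∈ S then 1 else 0) := by
      intro i
      rw [map_add, map_smul, smul_eq_mul, coord_wS, cS_apply]
      simp
    have hcoord' : ∀ i : Fin t, B.coord ⟨i, 1⟩ (x + cS B S 1 x • wS B S 0) = B.coord ⟨i, 1⟩ x := by
      intro i
      rw [map_add, map_smul, smul_eq_mul, coord_wS]
      simp
    simp only [hcoord, hcoord']
    rw [norm_two_add h2F, cS_apply]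
  have hcq : ∀ (S : Finset (Fin t)) (i : Fin t), i ∈ S → cS B S 1 (B ⟨i, 1⟩) = 1 := by
    intro S i hi
    rw [cS_apply]
    simp only [coord_self, and_true]
    simp [hi]
  refine ⟨isoN (fun x => (wt B x : F)) ⊓ spGL m F, ?_, ?_⟩
  · rw [SetLike.lt_iff_le_and_exists]
    refine ⟨hle, ?_⟩
    obtain ⟨S, -, hS⟩ := Finset.exists_subset_card_eq (s := (Finset.univ : Finset (Fin t))) (n := 3) (by
      simp
      omega)
    obtain ⟨i₀, hi₀, i₁, hi₁, i₂, hi₂, h01, h02, h12⟩ := Finset.two_lt_card.1 (by omega : 2 < S.card)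
    refine ⟨tvS hf (wS B S 0) 1, ⟨?_, tvS_pres hf _ _⟩, ?_⟩
    · intro x
      show (wt B (_ ⋆ x) : F) = (wt B x : F)
      rw [hform, hS]
      have : (((3 : ℕ) : F) + 1) = 0 := by
        push_cast
        linear_combination 2 * h2F
      rw [this, zero_mul, add_zero]
    · rintro ⟨hg, -⟩
      refine not_mem_stab B hB (i := i₀) (x := B ⟨i₀, 1⟩) (hB1 i₀ 1) h12 (j := 0) (j' := 0) ?_ ?_ hg
      all_goals
        rw [tvS_apply, one_mul, hsumr, hcq S i₀ hi₀, one_smul]
        simp only [coord_self, map_add, coord_wS]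
        simp [hi₁, hi₂, h01.symm, h02.symm]
  · refine lt_of_le_of_ne inf_le_right ?_
    intro he
    obtain ⟨S, -, hS⟩ := Finset.exists_subset_card_eq (s := (Finset.univ : Finset (Fin t))) (n := 2) (by
      simp
      omega)
    obtain ⟨i₀, hi₀⟩ : S.Nonempty := by
      rw [← Finset.card_pos]
      omega
    have hmem : tvS hf (wS B S 0) 1 ∈ spGL m F := tvS_pres hf _ _
    rw [← he] at hmem
    have h1 : (wt B (tvS hf (wS B S 0) 1 ⋆ (B ⟨i₀, 1⟩)) : F) = (wt B (B ⟨i₀, 1⟩) : F) := hmem.1 _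
    rw [hform, hcq S i₀ hi₀, hS] at h1
    have h3 : (1 : F) = 0 := by
      push_cast at h1
      linear_combination h1 - h2F
    exact one_ne_zero h3

end Cfsg.Agent.S5648
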