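import Mathlib
import Cfsg.Statements.S5649
import Cfsg.Agent.Lib.SympTIPair

set_option autoImplicit false
set_option linter.unusedSectionVars false
set_option linter.unusedVariables false
open Cfsg

namespace Cfsg.Agent.S5649

open Matrix Cfsg.Geo Cfsg.Agent.Lib.TvGL Cfsg.Agent.Lib.SympT Cfsg.Agent.Lib.SympDecomp
  Cfsg.Agent.Lib.SympTIPair
open Cfsg.Agent.Lib.QForm (unip unip_val unip_apply unip_inv_val vv_mul)

local notation:70 g:71 " ⋆ " x:70 => Matrix.mulVec (Units.val g) x

/-- For a finite field F of odd order and m ≥ 7, let D be a decomposition of F^(2m) into two complementary subspaces of dimension m on each of which the standard alternating form vanishes identically. Then the elements of Sp_2m(F) preserving or interchanging the two subspaces form a maximal subgroup of Sp_2m(F). -/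
theorem result {F : Type*} [Field F] [Fintype F] (m : ℕ) (hm : 7 ≤ m) (hodd : Odd (Fintype.card F)) (D : Fin 2 → Submodule F (Fin m ⊕ Fin m → F)) (hD : Cfsg.Geo.IsMDecomposition m D) (hts : ∀ i, Cfsg.Geo.IsTotallySingularFor (Cfsg.sympForm m F) (D i)) : Cfsg.Geo.IsMaximalIn (Cfsg.spGL m F) (Cfsg.Geo.decompositionStabilizer D ⊓ Cfsg.spGL m F) := by
  classical
  have hS := sympForm_isSymplectic (m := m) (F := F)
  have hbil := hS.bilinear
  have h2 : (2 : F) ≠ 0 := by
    intro h
    have hchar : ringChar F = 2 := by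
      have h1 : ((2 : ℕ) : F) = 0 := by exact_mod_cast h
      have h3 := (ringChar.spec F 2).1 h1
      exact (Nat.prime_two.eq_one_or_self_of_dvd _ h3).resolve_left (CharP.ringChar_ne_one)
    have h4 := (FiniteField.even_card_iff_char_two (F := F)).1 hchar
    have := Nat.odd_iff.1 hodd
    omega
  have hcompl : IsCompl (D 0) (D 1) := by
    refine ⟨hD.indep.pairwiseDisjoint (by decide : (0 : Fin 2) ≠ 1), ?_⟩
    rw [codisjoint_iff, eq_top_iff, ← hD.iSup_eq_top]
    refine iSup_le (fun i => ?_)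
    fin_cases i
    · exact le_sup_left
    · exact le_sup_right
  have hp : TSP (sympForm m F) (D 0) (D 1) := ⟨hts 0, hts 1, hcompl⟩
  have hf0 : Module.finrank F (D 0) = m := hD.finrank_eq 0
  have hf1 : Module.finrank F (D 1) = m := hD.finrank_eq 1
  have hdec : ∀ g : GL (Fin m ⊕ Fin m) F, (σ : Equiv.Perm (Fin 2)) → (∀ x ∈ D 0, g ⋆ x ∈ D (σ 0)) →
      (∀ x ∈ D 1, g ⋆ x ∈ D (σ 1)) → g ∈ decompositionStabilizer D := by
    intro g σ h0 h1
    refine decomp_of_maps (k := m) hD.finrank_eq g σ (fun i => ?_)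
    fin_cases i
    · exact h0
    · exact h1
  -- the elements of the stabiliser
  have hHin : ∀ a ∈ D 0, ∀ b ∈ D 1, ∀ h : sympForm m F a b = 0,
      unip (Xm (sympForm m F) a b) (Xm_sq hS h) ∈ decompositionStabilizer D ⊓ spGL m F := by
    intro a ha b hb h
    refine ⟨hdec _ (Equiv.refl _) (fun x hx => ?_) (fun x hx => ?_), unip_pres hS h _⟩
    · rw [unip_apply, Xm_apply hS, hts 0 x hx a ha, zero_smul, add_zero]
      exact (D 0).add_mem hx ((D 0).smul_mem _ ha)
    · rw [unip_apply, Xm_apply hS, hts 1 x hx b hb, zero_smul, zero_add]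
      exact (D 1).add_mem hx ((D 1).smul_mem _ hb)
  obtain ⟨s, hsp, hs1, hs2⟩ := Cfsg.Agent.Lib.SympTIPair.exists_swap hS hp (by rw [hf0, hf1])
  have hsH : s ∈ decompositionStabilizer D ⊓ spGL m F := by
    refine ⟨hdec s (Equiv.swap 0 1) ?_ ?_, hsp⟩
    · simpa using hs1
    · simpa using hs2
  refine ⟨lt_of_le_of_ne inf_le_right ?_, ?_⟩
  · intro heq
    -- a transvection outside the stabiliser
    obtain ⟨z, hz, hz0⟩ : ∃ z ∈ D 0, z ≠ 0 := by
      apply Cfsg.Agent.Lib.QForm.exists_ne_zero_mem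
      omega
    obtain ⟨b, hbD, hzb⟩ : ∃ b ∈ D 1, sympForm m F z b ≠ 0 := by
      obtain ⟨w, hw⟩ := (hS.nondegenerate z hz0).2
      obtain ⟨w₀, hw₀, w₁, hw₁, rfl⟩ := hp.decomp w
      refine ⟨w₁, hw₁, ?_⟩
      rw [hbil.add_right, hts 0 z hz w₀ hw₀, zero_add] at hw
      exact hw
    obtain ⟨a, haD, haz⟩ : ∃ a ∈ D 0, a ∉ Submodule.span F {z} := by
      by_contra hcon
      push Not at hcon
      have h1 := Submodule.finrank_mono (show D 0 ≤ Submodule.span F {z} from hcon)
      have h3 := finrank_span_one (F := F) z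
      omega
    have hmem : tvS hS (a + b) 1 ∈ decompositionStabilizer D ⊓ spGL m F := by
      rw [heq]
      exact tvS_pres hS _ _
    obtain ⟨σ, hσ⟩ := hmem.1
    have hzimg : tvS hS (a + b) 1 ⋆ z ∈ D (σ 0) := by
      rw [← hσ 0]
      exact ⟨z, hz, rfl⟩
    rw [tvS_apply, hbil.add_right, hts 0 z hz a haD, zero_add, one_mul] at hzimg
    have hsplit : z + sympForm m F z b • (a + b) = (z + sympForm m F z b • a) + sympForm m F z b • b := by
      rw [smul_add, add_assoc]
    rw [hsplit] at hzimg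
    have hz1 : z + sympForm m F z b • a ∈ D 0 := (D 0).add_mem hz ((D 0).smul_mem _ haD)
    have hz2 : sympForm m F z b • b ∈ D 1 := (D 1).smul_mem _ hbD
    have hσ0 : σ 0 = 0 ∨ σ 0 = 1 := by
      generalize σ 0 = i
      fin_cases i <;> simp
    rcases hσ0 with h0 | h0
    · rw [h0] at hzimg
      have h3 : sympForm m F z b • b ∈ D 0 := by
        have := (D 0).sub_mem hzimg hz1
        simpa using this
      have h4 := Submodule.disjoint_def.1 hcompl.disjoint _ h3 hz2
      have h5 : b = 0 := (smul_eq_zero.1 h4).resolve_left hzb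
      rw [h5, f_zero_right hbil] at hzb
      exact hzb rfl
    · rw [h0] at hzimg
      have h3 : z + sympForm m F z b • a ∈ D 1 := by
        have := (D 1).sub_mem hzimg hz2
        simpa using this
      have h4 := Submodule.disjoint_def.1 hcompl.disjoint _ hz1 h3
      apply haz
      rw [Submodule.mem_span_singleton]
      refine ⟨-(sympForm m F z b)⁻¹, ?_⟩
      have h5 : sympForm m F z b • a = -z := eq_neg_of_add_eq_zero_right h4
      rw [neg_smul, ← smul_neg, ← h5, smul_smul, inv_mul_cancel₀ hzb, one_smul]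
  · intro M hHM hMS
    by_cases hMH : M ≤ decompositionStabilizer D ⊓ spGL m F
    · exact Or.inl (le_antisymm hMH hHM)
    right
    refine le_antisymm hMS ?_
    obtain ⟨g, hgM, hgH⟩ := SetLike.not_le_iff_exists.1 hMH
    have hgS : g ∈ spGL m F := hMS hgM
    have hnot : ¬ (((∀ x ∈ D 0, g ⋆ x ∈ D 0) ∧ ∀ x ∈ D 1, g ⋆ x ∈ D 1) ∨
        ((∀ x ∈ D 0, g ⋆ x ∈ D 1) ∧ ∀ x ∈ D 1, g ⋆ x ∈ D 0)) := by
      rintro (⟨h0, h1⟩ | ⟨h0, h1⟩)
      · exact hgH ⟨hdec g (Equiv.refl _) h0 h1, hgS⟩
      · refine hgH ⟨hdec g (Equiv.swap 0 1) ?_ ?_, hgS⟩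
        · simpa using h0
        · simpa using h1
    exact spGL_le M (all_tv hS hp (by omega) (by rw [hf0, hf1]) h2 hMS
      (fun a ha b hb hab => ⟨hab, hHM (hHin a ha b hb hab)⟩) ⟨s, hHM hsH, hs1, hs2⟩ hgM hnot)

end Cfsg.Agent.S5649
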