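import Mathlib
import Cfsg.Statements.S5653
import Cfsg.Agent.Lib.UWitt

set_option autoImplicit false
set_option linter.unusedSectionVars false
set_option linter.unusedVariables false
open Cfsg

namespace Cfsg.Agent.S5653

open Matrix Cfsg.Geo Cfsg.Agent.Lib.TvGL Cfsg.Agent.Lib.SympT Cfsg.Agent.Lib.UForm
  Cfsg.Agent.Lib.UTrans Cfsg.Agent.Lib.UWitt
open Cfsg.Agent.H97.Asch (herm_unitary hermSigma)

local notation:70 g:71 " ⋆ " x:70 => Matrix.mulVec (Units.val g) x

/-- Let F be the field with q² elements and n ≥ 13, and let SU_n(q) be the group of matrices of determinant one preserving the standard unitary form Σ u_i v_i^q on F^n (the intersection of the unitary group GU_n with the kernel of the determinant). The elements of SU_n(q) stabilising a non-zero subspace on which the form vanishes identically form a maximal subgroup of SU_n(q). -/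
theorem result {F : Type*} [Field F] [Fintype F] (n q : ℕ) (hF : Fintype.card F = q ^ 2) (hn : 13 ≤ n) (W : Submodule F (Fin n → F)) (hW0 : W ≠ ⊥) (hW : Cfsg.Geo.IsTotallySingularFor (Cfsg.hermForm n F q) W) : Cfsg.Geo.IsMaximalIn (Cfsg.GU n F q ⊓ Cfsg.Geo.specialLinear (Fin n) F) (Cfsg.Geo.subspaceStabilizer W ⊓ (Cfsg.GU n F q ⊓ Cfsg.Geo.specialLinear (Fin n) F)) := by
  classical
  have hf := herm_unitary (n := n) hF
  set σ := hermSigma hF with hσ
  set f := hermForm n F q with hfdef
  set K := GU n F q ⊓ specialLinear (Fin n) F with hK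
  set H := subspaceStabilizer W ⊓ K with hH
  have hcard : Fintype.card (Fin n) = n := Fintype.card_fin n
  have hWperp : W ≤ perpU hf W := fun w hw w' hw' => hW w' hw' w hw
  -- transvections with centre in the orthogonal lie in `H`
  have hperpH : ∀ v ∈ perpU hf W, f v v = 0 → ∀ c, c + σ c = 0 → ∀ h, tau hf (c • v) v h ∈ H := by
    intro v hv hvv c hc h
    refine ⟨mem_stab_of_map_le W _ ?_, tau_mem_K hF hvv hc h⟩
    intro w hw
    rw [tau_apply, show f w v = 0 from hv w hw]
    simpa using hw
  obtain ⟨c₀, hc₀0, hc₀⟩ := exists_traceless hf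
  refine ⟨lt_of_le_of_ne inf_le_right ?_, ?_⟩
  · -- properness
    intro he
    obtain ⟨w, hw, hw0⟩ := Submodule.exists_mem_ne_zero_of_ne_bot hW0
    obtain ⟨z₀, hz₀⟩ := (hf.nondegenerate w hw0).1
    obtain ⟨z, hz1, hz2⟩ := prescribed hf {w} z₀ 0 (map_zero _) (by
      simp only [hcard, Finset.card_singleton]
      omega)
    have hzw : f z w ≠ 0 := by
      rw [hz1 w (by simp)]
      exact hz₀
    have hwz : f w z ≠ 0 := f_swap_ne hf hzw
    have h0 : f (c₀ • z) z = 0 := by
      rw [hf.smul_left, hz2, mul_zero]
    have hmem : tau hf (c₀ • z) z h0 ∈ H := by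
      rw [he]
      exact tau_mem_K hF hz2 hc₀ h0
    have hzW : z ∉ W := fun hzW => hwz (hW w hw z hzW)
    apply hzW
    have h1 := ((mem_stab_iff W _).1 hmem.1 w).1 hw
    rw [tau_apply] at h1
    have h2 := W.sub_mem h1 hw
    rw [add_sub_cancel_left, smul_smul] at h2
    have h3 := W.smul_mem (f w z * c₀)⁻¹ h2
    rwa [smul_smul, inv_mul_cancel₀ (mul_ne_zero hwz hc₀0), one_smul] at h3
  · intro M hHM hMK
    by_cases hne : M = H
    · exact Or.inl hne
    right
    obtain ⟨g, hgM, hgH⟩ : ∃ g ∈ M, g ∉ H := by
      by_contra hcon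
      push Not at hcon
      exact hne (le_antisymm hcon hHM)
    have hgS : g ∉ subspaceStabilizer W := fun h => hgH ⟨h, hMK hgM⟩
    have hMp : ∀ k ∈ M, k ∈ preserving (glToMat (Fin n) F) f := fun k hk => (hMK hk).1
    have hTI : ∀ v ∈ perpU hf W, f v v = 0 → v ∈ TU hf M := by
      intro v hv hvv
      refine ⟨hvv, fun c hc => ?_⟩
      have h0 : f (c • v) v = 0 := by rw [hf.smul_left, hvv, mul_zero]
      exact ⟨h0, hHM (hperpH v hv hvv c hc h0)⟩
    -- a centre outside the orthogonal
    have hout : ∃ i ∈ perpU hf W, f i i = 0 ∧ g ⋆ i ∉ perpU hf W := by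
      by_contra hcon
      push Not at hcon
      have hmaps : ∀ i : {v // v ∈ perpU hf W ∧ f v v = 0}, g ⋆ i.1 ∈ perpU hf W ∧ f (g ⋆ i.1) (g ⋆ i.1) = 0 := by
        rintro ⟨i, hi, hii⟩
        refine ⟨hcon i hi hii, ?_⟩
        rw [pres_apply (hMp g hgM), hii]
      let φ : {v // v ∈ perpU hf W ∧ f v v = 0} → {v // v ∈ perpU hf W ∧ f v v = 0} :=
        fun i => ⟨g ⋆ i.1, hmaps i⟩
      have hφinj : Function.Injective φ := by
        intro a b hab
        have h1 : g ⋆ a.1 = g ⋆ b.1 := congrArg Subtype.val hab
        have h2 := congrArg (fun x => g⁻¹ ⋆ x) h1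
        simp only [inv_mulVec_GL] at h2
        exact Subtype.ext h2
      have hφsurj : Function.Surjective φ := Finite.injective_iff_surjective.1 hφinj
      obtain ⟨w, hw, hgw⟩ : ∃ w ∈ W, g ⋆ w ∉ W := by
        by_contra h1
        push Not at h1
        exact hgS (mem_stab_of_map_le W g h1)
      have hww : f w w = 0 := hW w hw w hw
      have hu : g ⋆ w ∈ perpU hf W := hcon w (hWperp hw) hww
      have huu : f (g ⋆ w) (g ⋆ w) = 0 := by rw [pres_apply (hMp g hgM), hww]
      obtain ⟨a, ha, hua⟩ := exists_perp_of_notMem hf hgw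
      have hfix : σ (-(f a a)) = -(f a a) := by rw [map_neg, Q_fixed hf]
      obtain ⟨e, he⟩ := exists_trace_eq hf hfix
      set u := g ⋆ w with hudef
      set c := e / f u a with hc
      have hce : c * f u a = e := by
        rw [hc]
        field_simp
      have hzz : f (a + c • u) (a + c • u) = 0 := by
        rw [hf.add_left, f_add_right hf, f_add_right hf, hf.smul_left, hf.smul_left, f_smul_right hf,
          f_smul_right hf, huu, hce]
        have h2 : σ c * f a u = σ e := by
          rw [← hce, map_mul, ← hf.herm a u]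
        rw [h2]
        linear_combination he
      have hzperp : a + c • u ∈ perpU hf W :=
        (perpU hf W).add_mem ha ((perpU hf W).smul_mem _ hu)
      obtain ⟨⟨i, hi, hii⟩, hi'⟩ := hφsurj ⟨a + c • u, hzperp, hzz⟩
      have hi2 : g ⋆ i = a + c • u := congrArg Subtype.val hi'
      have h3 : f u (a + c • u) = f w i := by
        rw [← hi2, hudef, pres_apply (hMp g hgM)]
      have h4 : f w i = 0 := hi w hw
      rw [h4, f_add_right hf, f_smul_right hf, huu, mul_zero, add_zero] at h3
      exact hua h3
    obtain ⟨i, hi, hii, hgi⟩ := hout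
    set u := g ⋆ i with hu
    have huT : u ∈ TU hf M := TU_conj hf (hMp g hgM) hgM (hTI i hi hii)
    have huu : f u u = 0 := huT.1
    -- transitivity
    have htrans : ∀ v, f v v = 0 → v ∉ perpU hf W → v ∈ TU hf M := by
      intro v hvv hvW
      have hex1 : ∃ z ∈ W, f u z ≠ 0 := by
        by_contra h1
        push Not at h1
        exact hgi (fun w hw => f_swap_zero hf (h1 w hw))
      have hex2 : ∃ z ∈ W, f v z ≠ 0 := by
        by_contra h1
        push Not at h1
        exact hvW (fun w hw => f_swap_zero hf (h1 w hw))
      obtain ⟨t₀, ht₀, h1, h2⟩ := exists_two hf W hex1 hex2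
      have h2' : f t₀ v ≠ 0 := f_swap_ne hf h2
      have h1' : f t₀ u ≠ 0 := f_swap_ne hf h1
      set t := (f t₀ v)⁻¹ • t₀ with ht
      have htW : t ∈ W := W.smul_mem _ ht₀
      have htv : f t v = 1 := by
        rw [ht, hf.smul_left, inv_mul_cancel₀ h2']
      have htu : f t u ≠ 0 := by
        rw [ht, hf.smul_left]
        exact mul_ne_zero (inv_ne_zero h2') h1'
      have hvt : f v t = 1 := by
        rw [hf.herm v t, htv, map_one]
      -- the map on `W`
      let L : (Fin n → F) →ₗ[F] F :=
        { toFun := fun x => f x u - f x v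
          map_add' := by
            intro x y
            rw [hf.add_left, hf.add_left]
            ring
          map_smul' := by
            intro c x
            rw [hf.smul_left, hf.smul_left]
            simp only [RingHom.id_apply, smul_eq_mul]
            ring }
      have hL : ∀ x, L x = f x u - f x v := fun x => rfl
      let i₁ : (↥W × F) →ₗ[F] (Fin n → F) :=
        W.subtype.coprod (LinearMap.toSpanSingleton F _ u)
      let j₁ : (↥W × F) →ₗ[F] (Fin n → F) :=
        (W.subtype + (LinearMap.toSpanSingleton F _ t).comp (L.comp W.subtype)).coprod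
          (LinearMap.toSpanSingleton F _ v)
      have hi₁ : ∀ x : ↥W × F, i₁ x = (x.1 : Fin n → F) + x.2 • u := by
        intro x
        simp [i₁, LinearMap.coprod_apply]
      have hj₁ : ∀ x : ↥W × F, j₁ x = ((x.1 : Fin n → F) + L x.1 • t) + x.2 • v := by
        intro x
        simp [j₁, LinearMap.coprod_apply]
      have hAW : ∀ w ∈ W, w + L w • t ∈ W := fun w hw => W.add_mem hw (W.smul_mem _ htW)
      have hAv : ∀ w ∈ W, f (w + L w • t) v = f w u := by
        intro w hw
        rw [hf.add_left, hf.smul_left, htv, hL]
        ring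
      have huW : u ∉ W := fun h => hgi (hWperp h)
      have hvW' : v ∉ W := fun h => hvW (hWperp h)
      have hinj1 : Function.Injective i₁ := by
        rw [injective_iff_map_eq_zero]
        rintro ⟨w, c⟩ h0
        rw [hi₁] at h0
        simp only at h0
        have hc : c = 0 := by
          by_contra hc
          apply huW
          have h3 : u = c⁻¹ • (-(w : Fin n → F)) := by
            rw [smul_neg, eq_neg_iff_add_eq_zero, add_comm, ← smul_eq_zero_iff_right hc, smul_add, smul_smul,
              mul_inv_cancel₀ hc, one_smul]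
            exact h0
          rw [h3]
          exact W.smul_mem _ (W.neg_mem w.2)
        subst hc
        rw [zero_smul, add_zero] at h0
        ext1
        · exact Subtype.ext h0
        · rfl
      have hinj2 : Function.Injective j₁ := by
        rw [injective_iff_map_eq_zero]
        rintro ⟨w, c⟩ h0
        rw [hj₁] at h0
        simp only at h0
        have hc : c = 0 := by
          by_contra hc
          apply hvW'
          have h3 : v = c⁻¹ • (-((w : Fin n → F) + L w • t)) := by
            rw [smul_neg, eq_neg_iff_add_eq_zero, add_comm, ← smul_eq_zero_iff_right hc, smul_add, smul_smul,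
              mul_inv_cancel₀ hc, one_smul]
            exact h0
          rw [h3]
          exact W.smul_mem _ (W.neg_mem (hAW w w.2))
        subst hc
        rw [zero_smul, add_zero] at h0
        have ht0 : t ≠ 0 := by
          intro h
          rw [h, f_zero_left hf] at htv
          exact zero_ne_one htv
        have hw : (w : Fin n → F) = (-(L w)) • t := by
          rw [neg_smul, eq_neg_iff_add_eq_zero]
          exact h0
        have h5 : L t = f t u - 1 := by rw [hL, htv]
        have h6 : L (w : Fin n → F) = (-(L w)) * L t := by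
          conv_lhs => rw [hw]
          rw [L.map_smul, smul_eq_mul]
        have h7 : L (w : Fin n → F) * f t u = 0 := by
          rw [h5] at h6
          linear_combination h6
        have h8 : L (w : Fin n → F) = 0 := (mul_eq_zero.1 h7).resolve_right htu
        rw [h8, zero_smul, add_zero] at h0
        ext1
        · exact Subtype.ext h0
        · rfl
      have hG : ∀ x y, f (i₁ x) (i₁ y) = f (j₁ x) (j₁ y) := by
        rintro ⟨w, c⟩ ⟨w', c'⟩
        rw [hi₁, hi₁, hj₁, hj₁]
        simp only
        have ha := hAW w w.2
        have ha' := hAW w' w'.2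
        have h3 := hAv w w.2
        have h4 : f v ((w' : Fin n → F) + L w' • t) = f u w' := by
          rw [hf.herm v, hAv w' w'.2, ← hf.herm u]
        generalize (w : Fin n → F) + L w • t = a at *
        generalize (w' : Fin n → F) + L w' • t = a' at *
        rw [hf.add_left, f_add_right hf, f_add_right hf, hf.smul_left, hf.smul_left, f_smul_right hf,
          f_smul_right hf, huu, hW w w.2 w' w'.2]
        rw [hf.add_left, f_add_right hf, f_add_right hf, hf.smul_left, hf.smul_left, f_smul_right hf,
          f_smul_right hf, hvv, hW _ ha _ ha', h3, h4]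
      obtain ⟨A, hA, hAx⟩ := exists_GU_of_maps hF i₁ j₁ hinj1 hinj2 hG
      have hAu : A ⋆ u = v := by
        have := hAx (0, 1)
        rw [hi₁, hj₁] at this
        simpa using this
      have hAw : ∀ w ∈ W, A ⋆ w ∈ W := by
        intro w hw
        have := hAx (⟨w, hw⟩, 0)
        rw [hi₁, hj₁] at this
        simp only [zero_smul, add_zero] at this
        rw [this]
        exact hAW w hw
      obtain ⟨m, hm0, T, hT, hTx', hTA⟩ := exists_torus_fix hF hA hvv (hW t htW t htW) htv
      have hTx : ∀ x, T ⋆ x = x + ((m - 1) * f x t) • v + (((m ^ q)⁻¹ - 1) * f x v) • t := hTx'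
      have hTv : T ⋆ v = m • v := by
        rw [hTx, hvv, hvt]
        simp only [mul_zero, zero_smul, add_zero, mul_one]
        ext k
        simp only [Pi.add_apply, Pi.smul_apply, smul_eq_mul]
        ring
      have hTw : ∀ w ∈ W, T ⋆ w ∈ W := by
        intro w hw
        rw [hTx, hW w hw t htW]
        simp only [mul_zero, zero_smul, add_zero]
        exact W.add_mem hw (W.smul_mem _ htW)
      have hmem : T * A ∈ M := by
        apply hHM
        refine ⟨mem_stab_of_map_le W _ ?_, hTA⟩
        intro w hw
        rw [mulVec_mul_GL]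
        exact hTw _ (hAw w hw)
      have h3 : (T * A) ⋆ u = m • v := by
        rw [mulVec_mul_GL, hAu, hTv]
      have h4 := TU_conj hf (hMp _ hmem) hmem huT
      rw [h3] at h4
      have h5 := TU_smul hf h4 m⁻¹
      rwa [smul_smul, inv_mul_cancel₀ hm0, one_smul] at h5
    refine le_antisymm hMK (su_le hF (by omega) (by omega) ?_)
    intro v hv
    by_cases hvp : v ∈ perpU hf W
    · exact hTI v hvp hv
    · exact htrans v hv hvp

end Cfsg.Agent.S5653
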