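import Mathlib
import Cfsg.Statements.S5654
import Cfsg.Agent.Lib.UWitt
-- import your own Cfsg.Agent.* helpers here

set_option autoImplicit false
open Cfsg

namespace Cfsg.Agent.S5654

open Matrix Cfsg Cfsg.Geo Cfsg.Agent.Lib.TvGL Cfsg.Agent.Lib.SympT Cfsg.Agent.Lib.UForm
  Cfsg.Agent.Lib.UTrans Cfsg.Agent.Lib.UWitt Module
open Cfsg.Agent.H97.Asch (herm_unitary hermSigma)

local notation:70 g:71 " ⋆ " x:70 => Matrix.mulVec (Units.val g) x

section General

variable {ι : Type} [Fintype ι] [DecidableEq ι] {F : Type*} [Field F] [Fintype F]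
  {σ : F ≃+* F} {f : (ι → F) → (ι → F) → F} (hf : IsUnitaryForm σ f)

include hf

theorem polar_iso (P : Submodule F (ι → F)) (hcon : ∀ y ∈ P, f y y = 0) : P ≤ perpU hf P := by
  intro b hb a ha
  by_contra hab
  obtain ⟨d, hd⟩ := exists_trace_one hf
  have h1 := hcon _ (P.add_mem (P.smul_mem (d / f a b) ha) hb)
  rw [hf.add_left, f_add_right hf, f_add_right hf, hf.smul_left, hf.smul_left, f_smul_right hf,
    f_smul_right hf, hcon a ha, hcon b hb, mul_zero, mul_zero, zero_add, add_zero] at h1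
  have h2 : f b a = σ (f a b) := hf.herm b a
  have h3 : d / f a b * f a b = d := by
    field_simp
  have h4 : σ (d / f a b) * f b a = σ d := by
    rw [h2, ← map_mul, h3]
  rw [h3, h4, hd] at h1
  exact one_ne_zero h1

/-- A vector of the orthogonal of `W`, orthogonal to a small set, of prescribed norm. -/
theorem unit_perp {W : Submodule F (ι → F)} (hWU : W ⊓ perpU hf W = ⊥) (C : Finset (ι → F))
    (hC : 2 * C.card + finrank F W < Fintype.card ι) (δ : F) (hδ : σ δ = δ) :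
    ∃ y ∈ perpU hf W, (∀ c ∈ C, f c y = 0) ∧ f y y = δ := by
  classical
  set S := Submodule.span F (C : Set (ι → F)) with hS
  set P := perpU hf (W ⊔ S) with hPdef
  have hP1 : P ≤ perpU hf W := fun y hy w hw => hy w (Submodule.mem_sup_left hw)
  have hP2 : ∀ y ∈ P, ∀ c ∈ C, f c y = 0 := fun y hy c hc =>
    hy c (Submodule.mem_sup_right (Submodule.subset_span hc))
  have hSle : finrank F S ≤ C.card := by
    have := finrank_span_finset_le_card (R := F) C
    exact this
  have hle : finrank F ↥(W ⊔ S) ≤ finrank F W + C.card := by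
    have h2 := Submodule.finrank_sup_add_finrank_inf_eq W S
    omega
  obtain ⟨y₀, hy₀, hn⟩ : ∃ y₀ ∈ P, f y₀ y₀ ≠ 0 := by
    by_contra hcon
    push Not at hcon
    have h1 := polar_iso hf P hcon
    have h2 : P ≤ perpU hf (P ⊔ W) := by
      intro y hy
      intro z hz
      obtain ⟨p, hp, w, hw, rfl⟩ := Submodule.mem_sup.1 hz
      rw [hf.add_left, h1 hy p hp, hP1 hy w hw, add_zero]
    have h3 := Submodule.finrank_mono h2
    have h8 : finrank F (perpU hf (P ⊔ W)) = Fintype.card ι - finrank F ↥(P ⊔ W) := finrank_perpU hf _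
    have h4 : P ⊓ W = ⊥ := by
      rw [eq_bot_iff]
      intro x hx
      have : x ∈ W ⊓ perpU hf W := ⟨hx.2, hP1 hx.1⟩
      rwa [hWU] at this
    have h5 := Submodule.finrank_sup_add_finrank_inf_eq P W
    rw [h4, finrank_bot] at h5
    have h6 : finrank F P = Fintype.card ι - finrank F ↥(W ⊔ S) := finrank_perpU hf _
    have h7 : finrank F ↥(W ⊔ S) ≤ Fintype.card ι := by
      have := Submodule.finrank_le (W ⊔ S)
      simpa using this
    omega
  have hfix : σ (δ / f y₀ y₀) = δ / f y₀ y₀ := by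
    rw [map_div₀, hδ, Q_fixed hf]
  obtain ⟨μ, hμ⟩ := exists_norm hf hfix
  refine ⟨μ • y₀, (perpU hf W).smul_mem _ (hP1 hy₀), ?_, ?_⟩
  · intro c hc
    rw [f_smul_right hf, hP2 y₀ hy₀ c hc, mul_zero]
  · rw [hf.smul_left, f_smul_right hf, ← mul_assoc, hμ]
    field_simp

/-- A hyperbolic pair in the orthogonal of `W`, orthogonal to a given vector. -/
theorem exists_hyp_perp {W : Submodule F (ι → F)} (hWU : W ⊓ perpU hf W = ⊥)
    (hdim : 7 + finrank F W ≤ Fintype.card ι) (b : ι → F) :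
    ∃ e ∈ perpU hf W, ∃ g ∈ perpU hf W, f e e = 0 ∧ f g g = 0 ∧ f g e = 1 ∧ f b e = 0 ∧ f b g = 0 := by
  classical
  obtain ⟨y, hy, hyC, hyn⟩ := unit_perp hf hWU {b}
    (by simp; omega) 1 (map_one _)
  have hby : f b y = 0 := hyC b (by simp)
  have hm : σ (-1 : F) = -1 := by simp
  obtain ⟨y', hy', hyC', hyn'⟩ := unit_perp hf hWU ({b, y} : Finset (ι → F))
    (by
      have := Finset.card_le_two (a := b) (b := y)
      omega) (-1) hm
  have hby' : f b y' = 0 := hyC' b (by simp)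
  have hyy' : f y y' = 0 := hyC' y (by simp)
  have hy'y : f y' y = 0 := f_swap_zero hf hyy'
  obtain ⟨v, hv, hvC, hvn⟩ := unit_perp hf hWU ({b, y, y'} : Finset (ι → F))
    (by
      have := Finset.card_le_three (a := b) (b := y) (c := y')
      omega) (-1) hm
  have hbv : f b v = 0 := hvC b (by simp)
  have hyv : f y v = 0 := hvC y (by simp)
  have hy'v : f y' v = 0 := hvC y' (by simp)
  have hvy : f v y = 0 := f_swap_zero hf hyv
  have hvy' : f v y' = 0 := f_swap_zero hf hy'v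
  refine ⟨y + y', (perpU hf W).add_mem hy hy', y + v, (perpU hf W).add_mem hy hv, ?_, ?_, ?_, ?_, ?_⟩
  · rw [hf.add_left, f_add_right hf, f_add_right hf, hyn, hyn', hyy', hy'y]
    ring
  · rw [hf.add_left, f_add_right hf, f_add_right hf, hyn, hvn, hyv, hvy]
    ring
  · rw [hf.add_left, f_add_right hf, f_add_right hf, hyn, hyy', hvy, hvy']
    ring
  · rw [f_add_right hf, hby, hby', add_zero]
  · rw [f_add_right hf, hby, hbv, add_zero]

/-- A pair of vectors of the orthogonal of `W` with prescribed Gram matrix. -/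
theorem exists_pair {W : Submodule F (ι → F)} (hWU : W ⊓ perpU hf W = ⊥)
    (hdim : 7 + finrank F W ≤ Fintype.card ι) {n₁ n₂ : F} (h₁ : σ n₁ = n₁) (h₂ : σ n₂ = n₂) (δ : F) :
    ∃ z ∈ perpU hf W, ∃ z' ∈ perpU hf W, z ≠ 0 ∧ z' ≠ 0 ∧ (∀ κ : F, z + κ • z' ≠ 0) ∧ f z z = n₁ ∧
      f z' z' = n₂ ∧ f z z' = δ := by
  classical
  have hm : σ (1 : F) = 1 := map_one _
  obtain ⟨c₁, hc₁, -, hc₁n⟩ := unit_perp hf hWU ∅ (by simp; omega) 1 hm
  obtain ⟨c₂, hc₂, hC₂, hc₂n⟩ := unit_perp hf hWU {c₁} (by simp; omega) (n₁ - 1)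
    (by rw [map_sub, h₁, hm])
  obtain ⟨c₃, hc₃, hC₃, hc₃n⟩ := unit_perp hf hWU ({c₁, c₂} : Finset (ι → F))
    (by
      have := Finset.card_le_two (a := c₁) (b := c₂)
      omega) 1 hm
  set γ := σ δ with hγ
  have hσγ : σ γ = δ := hf.involutive δ
  obtain ⟨c₄, hc₄, hC₄, hc₄n⟩ := unit_perp hf hWU ({c₁, c₂, c₃} : Finset (ι → F))
    (by
      have := Finset.card_le_three (a := c₁) (b := c₂) (c := c₃)
      omega) (n₂ - 1 - γ * σ γ)
    (by rw [map_sub, map_sub, h₂, hm, map_mul, hσγ, ← hγ]; ring)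
  have h12 : f c₁ c₂ = 0 := hC₂ c₁ (by simp)
  have h13 : f c₁ c₃ = 0 := hC₃ c₁ (by simp)
  have h23 : f c₂ c₃ = 0 := hC₃ c₂ (by simp)
  have h14 : f c₁ c₄ = 0 := hC₄ c₁ (by simp)
  have h24 : f c₂ c₄ = 0 := hC₄ c₂ (by simp)
  have h34 : f c₃ c₄ = 0 := hC₄ c₃ (by simp)
  have h21 := f_swap_zero hf h12
  have h31 := f_swap_zero hf h13
  have h32 := f_swap_zero hf h23
  have h41 := f_swap_zero hf h14
  have h42 := f_swap_zero hf h24
  have h43 := f_swap_zero hf h34
  have hκ : ∀ κ : F, c₁ + c₂ + κ • (γ • c₁ + c₃ + c₄) ≠ 0 := by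
    intro κ h0
    have h3 := congrArg (fun x => f x c₃) h0
    simp only [hf.add_left, hf.smul_left, h13, h23, hc₃n, h43, f_zero_left hf] at h3
    have hκ0 : κ = 0 := by simpa using h3
    rw [hκ0, zero_smul, add_zero] at h0
    have h4 := congrArg (fun x => f x c₁) h0
    simp only [hf.add_left, hc₁n, h21, f_zero_left hf] at h4
    simp at h4
  refine ⟨c₁ + c₂, (perpU hf W).add_mem hc₁ hc₂, γ • c₁ + c₃ + c₄,
    (perpU hf W).add_mem ((perpU hf W).add_mem ((perpU hf W).smul_mem _ hc₁) hc₃) hc₄, ?_, ?_, hκ, ?_, ?_, ?_⟩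
  · have := hκ 0
    rwa [zero_smul, add_zero] at this
  · intro h0
    have h3 := congrArg (fun x => f x c₃) h0
    simp only [hf.add_left, hf.smul_left, h13, h23, hc₃n, h43, f_zero_left hf] at h3
    simp at h3
  · rw [hf.add_left, f_add_right hf, f_add_right hf, hc₁n, hc₂n, h12, h21]
    ring
  · simp only [hf.add_left, f_add_right hf, hf.smul_left, f_smul_right hf, hc₁n, hc₃n, hc₄n,
      h13, h14, h31, h34, h41, h43]
    ring
  · simp only [hf.add_left, f_add_right hf, f_smul_right hf, hc₁n, h13, h14, h21, h23, h24]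
    rw [hσγ]
    ring


/-- An isotropic vector of the orthogonal of `W` outside a proper subspace. -/
theorem exists_iso_out {W : Submodule F (ι → F)} (hWU : W ⊓ perpU hf W = ⊥)
    (hdim : 7 + finrank F W ≤ Fintype.card ι) {P : Submodule F (ι → F)} (hP : P ≤ perpU hf W)
    (hne : P ≠ perpU hf W) : ∃ x ∈ perpU hf W, f x x = 0 ∧ x ∉ P := by
  classical
  obtain ⟨u, hu, huP⟩ : ∃ u ∈ perpU hf W, u ∉ P := by
    by_contra hcon
    push Not at hcon
    exact hne (le_antisymm hP hcon)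
  obtain ⟨y, hy, hyC, hyn⟩ := unit_perp hf hWU {u} (by simp; omega) (- f u u)
    (by rw [map_neg, Q_fixed hf])
  have huy : f u y = 0 := hyC u (by simp)
  have hyu : f y u = 0 := f_swap_zero hf huy
  obtain ⟨ν, hν⟩ : ∃ ν, σ ν ≠ ν := by
    by_contra hcon
    push Not at hcon
    apply sigma_ne hf
    ext x
    exact hcon x
  have hν0 : ν ≠ 0 := by
    rintro rfl
    exact hν (map_zero _)
  have hσν0 : σ ν ≠ 0 := fun h => hν0 ((map_eq_zero σ).1 h)
  set μ := σ ν / ν with hμ
  have hμ1 : μ * σ μ = 1 := by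
    rw [hμ, map_div₀, hf.involutive]
    field_simp
  have hμne : μ ≠ 1 := by
    intro h
    apply hν
    rw [hμ, div_eq_one_iff_eq hν0] at h
    exact h
  have hx : ∀ l : F, l * σ l = 1 → f (u + l • y) (u + l • y) = 0 := by
    intro l hl
    rw [hf.add_left, f_add_right hf, f_add_right hf, hf.smul_left, hf.smul_left, f_smul_right hf,
      f_smul_right hf, huy, hyu, hyn, ← mul_assoc, hl]
    ring
  by_cases h1 : u + y ∈ P
  · by_cases h2 : u + μ • y ∈ P
    · exfalso
      apply huP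
      have h3 : (μ - 1) • u ∈ P := by
        have h4 := P.sub_mem (P.smul_mem μ h1) h2
        have h5 : μ • (u + y) - (u + μ • y) = (μ - 1) • u := by
          rw [smul_add, sub_smul, one_smul]
          abel
        rwa [h5] at h4
      have h6 := P.smul_mem (μ - 1)⁻¹ h3
      rwa [smul_smul, inv_mul_cancel₀ (sub_ne_zero.2 hμne), one_smul] at h6
    · exact ⟨_, (perpU hf W).add_mem hu ((perpU hf W).smul_mem _ hy), hx μ hμ1, h2⟩
  · refine ⟨_, (perpU hf W).add_mem hu hy, ?_, h1⟩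
    have := hx 1 (by simp)
    rwa [one_smul] at this

end General

section Herm

variable {n q : ℕ} {F : Type*} [Field F] [Fintype F]

local notation "f" => hermForm n F q

/-- Witt: an isometry fixing `S` pointwise and moving `x` to `y`. -/
theorem exists_fix_move (hF : Fintype.card F = q ^ 2) {S : Submodule F (Fin n → F)} {x y : Fin n → F}
    (hx : x ∉ S) (hy : y ∉ S) (hS : ∀ s ∈ S, f s x = f s y) (hxy : f x x = f y y) :
    ∃ A : GL (Fin n) F, A ∈ GU n F q ∧ A ⋆ x = y ∧ ∀ s ∈ S, A ⋆ s = s := by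
  classical
  have hf := herm_unitary (n := n) hF
  let i : (↥S × F) →ₗ[F] (Fin n → F) := S.subtype.coprod (LinearMap.toSpanSingleton F _ x)
  let j : (↥S × F) →ₗ[F] (Fin n → F) := S.subtype.coprod (LinearMap.toSpanSingleton F _ y)
  have hi : ∀ p : ↥S × F, i p = (p.1 : Fin n → F) + p.2 • x := by
    intro p
    simp [i, LinearMap.coprod_apply]
  have hj : ∀ p : ↥S × F, j p = (p.1 : Fin n → F) + p.2 • y := by
    intro p
    simp [j, LinearMap.coprod_apply]
  have inj : ∀ (L : (↥S × F) →ₗ[F] (Fin n → F)) (z : Fin n → F), z ∉ S →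
      (∀ p : ↥S × F, L p = (p.1 : Fin n → F) + p.2 • z) → Function.Injective L := by
    intro L z hz hL
    rw [injective_iff_map_eq_zero]
    rintro ⟨s, c⟩ h0
    rw [hL] at h0
    simp only at h0
    have hc : c = 0 := by
      by_contra hc
      apply hz
      have h3 : z = c⁻¹ • (-(s : Fin n → F)) := by
        rw [smul_neg, eq_neg_iff_add_eq_zero, add_comm, ← smul_eq_zero_iff_right hc, smul_add, smul_smul,
          mul_inv_cancel₀ hc, one_smul]
        exact h0
      rw [h3]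
      exact S.smul_mem _ (S.neg_mem s.2)
    subst hc
    rw [zero_smul, add_zero] at h0
    ext1
    · exact Subtype.ext h0
    · rfl
  have hS' : ∀ s ∈ S, f x s = f y s := by
    intro s hs
    rw [hf.herm x s, hf.herm y s, hS s hs]
  obtain ⟨A, hA, hAx⟩ := exists_GU_of_maps hF i j (inj i x hx hi) (inj j y hy hj) (by
    rintro ⟨s, c⟩ ⟨s', c'⟩
    rw [hi, hi, hj, hj]
    simp only
    rw [hf.add_left, f_add_right hf, f_add_right hf, hf.smul_left, hf.smul_left, f_smul_right hf,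
      f_smul_right hf, hf.add_left, f_add_right hf, f_add_right hf, hf.smul_left, hf.smul_left,
      f_smul_right hf, f_smul_right hf, hS s s.2, hS' s' s'.2, hxy])
  refine ⟨A, hA, ?_, ?_⟩
  · have := hAx (0, 1)
    rw [hi, hj] at this
    simpa using this
  · intro s hs
    have := hAx (⟨s, hs⟩, 0)
    rw [hi, hj] at this
    simpa using this

/-- The data of the maximality argument. -/
structure Ctx (hF : Fintype.card F = q ^ 2) (W : Submodule F (Fin n → F))
    (M : Subgroup (GL (Fin n) F)) : Prop where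
  hWU : W ⊓ perpU (herm_unitary hF) W = ⊥
  hdim : 7 + finrank F W ≤ n
  hsup : ∀ x : Fin n → F, ∃ a ∈ W, ∃ b ∈ perpU (herm_unitary hF) W, x = a + b
  hperp : ∀ x : Fin n → F, (∀ u ∈ perpU (herm_unitary hF) W, f u x = 0) → x ∈ W
  hH : subspaceStabilizer W ⊓ (GU n F q ⊓ specialLinear (Fin n) F) ≤ M
  hM : M ≤ GU n F q ⊓ specialLinear (Fin n) F

namespace Ctx

variable {hF : Fintype.card F = q ^ 2} {W : Submodule F (Fin n → F)} {M : Subgroup (GL (Fin n) F)}
  (C : Ctx hF W M)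

include C

theorem hdim'' : 7 + finrank F W ≤ Fintype.card (Fin n) := by
  simpa using C.hdim

theorem eq_zero {x : Fin n → F} (hx : x ∈ W) (hx' : x ∈ perpU (herm_unitary hF) W) : x = 0 := by
  have : x ∈ W ⊓ perpU (herm_unitary hF) W := ⟨hx, hx'⟩
  rwa [C.hWU] at this

theorem center_U {b : Fin n → F} (hb : b ∈ perpU (herm_unitary hF) W) (hbb : f b b = 0) :
    b ∈ TU (herm_unitary hF) M := by
  have hf := herm_unitary (n := n) hF
  refine ⟨hbb, fun c hc => ?_⟩
  have h0 : f (c • b) b = 0 := by rw [hf.smul_left, hbb, mul_zero]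
  refine ⟨h0, C.hH ⟨mem_stab_of_map_le W _ ?_, tau_mem_K hF hbb hc h0⟩⟩
  intro w hw
  rw [tau_apply, hb w hw, zero_smul, add_zero]
  exact hw

theorem center_W {b : Fin n → F} (hb : b ∈ W) (hbb : f b b = 0) : b ∈ TU (herm_unitary hF) M := by
  have hf := herm_unitary (n := n) hF
  refine ⟨hbb, fun c hc => ?_⟩
  have h0 : f (c • b) b = 0 := by rw [hf.smul_left, hbb, mul_zero]
  refine ⟨h0, C.hH ⟨mem_stab_of_map_le W _ ?_, tau_mem_K hF hbb hc h0⟩⟩
  intro w hw
  rw [tau_apply]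
  exact W.add_mem hw (W.smul_mem _ (W.smul_mem _ hb))

theorem move {A : GL (Fin n) F} (hA : A ∈ GU n F q) (hAW : ∀ w ∈ W, A ⋆ w ∈ W) {x a b : Fin n → F}
    (ha : a ∈ W) (hAx : A ⋆ x = a + b) (hx : x ∈ TU (herm_unitary hF) M) :
    a + b ∈ TU (herm_unitary hF) M := by
  have hf := herm_unitary (n := n) hF
  obtain ⟨e, he, g, hg, hee, hgg, hge, hbe, hbg⟩ := exists_hyp_perp hf C.hWU C.hdim'' b
  obtain ⟨m, hm0, T, hT, hTx, hTA⟩ := exists_torus_fix hF hA hee hgg hge
  have hTw : ∀ w ∈ W, T ⋆ w = w := by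
    intro w hw
    rw [hTx, he w hw, hg w hw]
    simp
  have hTb : T ⋆ b = b := by
    rw [hTx, hbg, hbe]
    simp
  have hmem : T * A ∈ M := C.hH ⟨mem_stab_of_map_le W _ (fun w hw => by
    rw [mulVec_mul_GL, hTw _ (hAW w hw)]
    exact hAW w hw), hTA⟩
  have h3 : (T * A) ⋆ x = a + b := by
    rw [mulVec_mul_GL, hAx, Matrix.mulVec_add, hTw a ha, hTb]
  have h4 := TU_conj hf (C.hM hmem).1 hmem hx
  rwa [h3] at h4

theorem move_b {a b₁ b₂ : Fin n → F} (ha : a ∈ W) (hb₁ : b₁ ∈ perpU (herm_unitary hF) W)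
    (hb₂ : b₂ ∈ perpU (herm_unitary hF) W) (hb₁0 : b₁ ≠ 0) (hb₂0 : b₂ ≠ 0) (hn : f b₁ b₁ = f b₂ b₂)
    (h : a + b₁ ∈ TU (herm_unitary hF) M) : a + b₂ ∈ TU (herm_unitary hF) M := by
  obtain ⟨A, hA, hAx, hAs⟩ := exists_fix_move hF (S := W) (x := b₁) (y := b₂)
    (fun h => hb₁0 (C.eq_zero h hb₁)) (fun h => hb₂0 (C.eq_zero h hb₂))
    (fun s hs => by rw [hb₁ s hs, hb₂ s hs]) hn
  refine C.move hA (fun w hw => by rw [hAs w hw]; exact hw) ha ?_ h
  rw [Matrix.mulVec_add, hAs a ha, hAx]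

theorem move_a {a₁ a₂ b : Fin n → F} (ha₁ : a₁ ∈ W) (ha₂ : a₂ ∈ W)
    (hb : b ∈ perpU (herm_unitary hF) W) (ha₁0 : a₁ ≠ 0) (ha₂0 : a₂ ≠ 0) (hn : f a₁ a₁ = f a₂ a₂)
    (h : a₁ + b ∈ TU (herm_unitary hF) M) : a₂ + b ∈ TU (herm_unitary hF) M := by
  have hf := herm_unitary (n := n) hF
  have hsw : ∀ w ∈ W, ∀ u ∈ perpU (herm_unitary hF) W, f u w = 0 := fun w hw u hu =>
    f_swap_zero hf (hu w hw)
  obtain ⟨A, hA, hAx, hAs⟩ := exists_fix_move hF (S := perpU (herm_unitary hF) W) (x := a₁) (y := a₂)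
    (fun h => ha₁0 (C.eq_zero ha₁ h)) (fun h => ha₂0 (C.eq_zero ha₂ h))
    (fun s hs => by rw [hsw a₁ ha₁ s hs, hsw a₂ ha₂ s hs]) hn
  refine C.move hA (fun w hw => ?_) ha₂ ?_ h
  · refine C.hperp _ (fun u hu => ?_)
    have h1 := pres_apply hA u w
    rw [hAs u hu] at h1
    rw [h1]
    exact hsw w hw u hu
  · rw [Matrix.mulVec_add, hAx, hAs b hb]

end Ctx

/-- The property of `a ∈ W`: all isotropic `a + b` with `b ≠ 0` are centres. -/
def Aw (hF : Fintype.card F = q ^ 2) (W : Submodule F (Fin n → F)) (M : Subgroup (GL (Fin n) F))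
    (a : Fin n → F) : Prop :=
  ∀ b ∈ perpU (herm_unitary hF) W, b ≠ 0 → f a a + f b b = 0 → a + b ∈ TU (herm_unitary hF) M

namespace Ctx

variable {hF : Fintype.card F = q ^ 2} {W : Submodule F (Fin n → F)} {M : Subgroup (GL (Fin n) F)}
  (C : Ctx hF W M)

include C

theorem norm_add {a b : Fin n → F} (ha : a ∈ W) (hb : b ∈ perpU (herm_unitary hF) W) :
    f (a + b) (a + b) = f a a + f b b := by
  have hf := herm_unitary (n := n) hF
  rw [hf.add_left, f_add_right hf, f_add_right hf, hb a ha, f_swap_zero hf (hb a ha)]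
  ring

theorem aw_of_one {a b : Fin n → F} (ha : a ∈ W) (hb : b ∈ perpU (herm_unitary hF) W) (hb0 : b ≠ 0)
    (h : a + b ∈ TU (herm_unitary hF) M) : Aw hF W M a := by
  intro b' hb' hb'0 hn
  have h1 : f (a + b) (a + b) = 0 := h.1
  rw [C.norm_add ha hb] at h1
  exact C.move_b ha hb hb' hb0 hb'0 (by linear_combination h1 - hn) h

theorem aw_zero : Aw hF W M 0 := by
  have hf := herm_unitary (n := n) hF
  intro b hb _ hn
  rw [zero_add]
  rw [f_zero_left hf, zero_add] at hn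
  exact C.center_U hb hn

theorem aw_add {a a' : Fin n → F} (ha : a ∈ W) (ha' : a' ∈ W) (h : Aw hF W M a) (h' : Aw hF W M a')
    (κ : F) : Aw hF W M (a + κ • a') := by
  have hf := herm_unitary (n := n) hF
  obtain ⟨c, hc0, hc⟩ := exists_traceless hf
  obtain ⟨z, hz, z', hz', hz0, hz'0, hκ, hzn, hz'n, hzz'⟩ := exists_pair hf C.hWU C.hdim''
    (n₁ := - f a a) (n₂ := - f a' a') (by rw [map_neg, Q_fixed hf]) (by rw [map_neg, Q_fixed hf])
    (κ / c - f a a')
  have hy := h z hz hz0 (by rw [hzn]; ring)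
  have hb := h' z' hz' hz'0 (by rw [hz'n]; ring)
  obtain ⟨h0, h1⟩ := hb.2 c hc
  have h2 := TU_conj (herm_unitary hF) (C.hM h1).1 h1 hy
  rw [tau_apply] at h2
  have h3 : f (a + z) (a' + z') = κ / c := by
    rw [hf.add_left, f_add_right hf, f_add_right hf, hz' a ha, f_swap_zero hf (hz a' ha'), hzz']
    ring
  rw [h3] at h2
  have h4 : a + z + (κ / c) • c • (a' + z') = (a + κ • a') + (z + κ • z') := by
    rw [smul_smul, div_mul_cancel₀ _ hc0, smul_add]
    abel
  rw [h4] at h2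
  exact C.aw_of_one (W.add_mem ha (W.smul_mem _ ha'))
    ((perpU (herm_unitary hF) W).add_mem hz ((perpU (herm_unitary hF) W).smul_mem _ hz')) (hκ κ) h2

theorem aw_move {a a' : Fin n → F} (ha : a ∈ W) (ha' : a' ∈ W) (ha0 : a ≠ 0) (ha'0 : a' ≠ 0)
    (hn : f a a = f a' a') (h : Aw hF W M a) : Aw hF W M a' := by
  have hf := herm_unitary (n := n) hF
  obtain ⟨z, hz, -, -, hz0, -, -, hzn, -, -⟩ := exists_pair hf C.hWU C.hdim''
    (n₁ := - f a a) (n₂ := 0) (by rw [map_neg, Q_fixed hf]) (map_zero _) 0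
  have hy := h z hz hz0 (by rw [hzn]; ring)
  exact C.aw_of_one ha' hz hz0 (C.move_a ha ha' hz ha0 ha'0 hn hy)

/-- A non-zero `a` with the property gives all of `W`. -/
theorem aw_all (hND : IsNondegenerateOn f W) {a : Fin n → F} (ha : a ∈ W) (ha0 : a ≠ 0)
    (h : Aw hF W M a) : ∀ x ∈ W, Aw hF W M x := by
  have hf := herm_unitary (n := n) hF
  -- a partner in `W`
  have hpartner : ∀ x ∈ W, x ≠ 0 → f x x = 0 → ∀ δ : F, hermSigma hF δ = δ →
      ∃ p ∈ W, f x p = 1 ∧ f p p = δ := by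
    intro x hx hx0 hxx δ hδ
    obtain ⟨p₁, hp₁W, hp₁⟩ : ∃ p₁ ∈ W, f x p₁ = 1 := by
      obtain ⟨p₀, hp₀, hne⟩ := (hND x hx hx0).2
      refine ⟨(hermSigma hF (f x p₀))⁻¹ • p₀, W.smul_mem _ hp₀, ?_⟩
      rw [f_smul_right hf, map_inv₀, hf.involutive]
      exact inv_mul_cancel₀ hne
    have hp₁x : f p₁ x = 1 := by
      rw [hf.herm p₁ x, hp₁, map_one]
    obtain ⟨β, hβ⟩ := exists_trace_eq hf (a := δ - f p₁ p₁) (by rw [map_sub, hδ, Q_fixed hf])
    refine ⟨p₁ + β • x, W.add_mem hp₁W (W.smul_mem _ hx), ?_, ?_⟩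
    · rw [f_add_right hf, f_smul_right hf, hxx, hp₁]
      ring
    · rw [hf.add_left, f_add_right hf, f_add_right hf, hf.smul_left, hf.smul_left, f_smul_right hf,
        f_smul_right hf, hxx, hp₁, hp₁x]
      linear_combination hβ
  have step1 : ∀ a ∈ W, f a a ≠ 0 → Aw hF W M a → ∀ x ∈ W, f x x ≠ 0 → Aw hF W M x := by
    intro a ha ha1 h x hx hx1
    obtain ⟨μ, hμ⟩ := exists_norm hf (a := f x x / f a a) (by rw [map_div₀, Q_fixed hf, Q_fixed hf])
    have h1 := C.aw_add W.zero_mem ha C.aw_zero h μ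
    rw [zero_add] at h1
    have h2 : f (μ • a) (μ • a) = f x x := by
      rw [hf.smul_left, f_smul_right hf, ← mul_assoc, hμ]
      field_simp
    have h3 : μ • a ≠ 0 := by
      intro h0
      rw [h0, f_zero_left hf] at h2
      exact hx1 h2.symm
    have h4 : x ≠ 0 := by
      rintro rfl
      exact hx1 (f_zero_left hf 0)
    exact C.aw_move (W.smul_mem _ ha) hx h3 h4 h2 h1
  have step2 : ∀ a ∈ W, f a a ≠ 0 → Aw hF W M a → ∀ x ∈ W, Aw hF W M x := by
    intro a ha ha1 h x hx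
    by_cases hx0 : x = 0
    · rw [hx0]
      exact C.aw_zero
    by_cases hxx : f x x = 0
    · obtain ⟨p, hp, hxp, hpp⟩ := hpartner x hx hx0 hxx 1 (map_one _)
      have hpx : f p x = 1 := by
        rw [hf.herm p x, hxp, map_one]
      have h1 : f (x + (-1 : F) • p) (x + (-1 : F) • p) = -1 := by
        rw [hf.add_left, f_add_right hf, f_add_right hf, hf.smul_left, hf.smul_left, f_smul_right hf,
          f_smul_right hf, hxx, hxp, hpx, hpp]
        simp only [map_neg, map_one]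
        ring
      have h2 : f (x + (-1 : F) • p) (x + (-1 : F) • p) ≠ 0 := by
        rw [h1]
        exact neg_ne_zero.2 one_ne_zero
      have h3 := step1 a ha ha1 h _ (W.add_mem hx (W.smul_mem _ hp)) h2
      have h4 := step1 a ha ha1 h p hp (by rw [hpp]; exact one_ne_zero)
      have h5 := C.aw_add (W.add_mem hx (W.smul_mem _ hp)) hp h3 h4 1
      have h6 : x + (-1 : F) • p + (1 : F) • p = x := by
        rw [neg_smul, one_smul]
        abel
      rwa [h6] at h5
    · exact step1 a ha ha1 h x hx hxx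
  by_cases haa : f a a = 0
  · obtain ⟨p, hp, hap, hpp⟩ := hpartner a ha ha0 haa 0 (map_zero _)
    have hp0 : p ≠ 0 := by
      rintro rfl
      rw [f_zero_right hf] at hap
      exact zero_ne_one hap
    have hpa : f p a = 1 := by
      rw [hf.herm p a, hap, map_one]
    have h1 := C.aw_move ha hp ha0 hp0 (by rw [haa, hpp]) h
    obtain ⟨d, hd⟩ := exists_trace_one hf
    have h2 := C.aw_add ha hp h h1 d
    refine step2 _ (W.add_mem ha (W.smul_mem _ hp)) ?_ h2
    rw [hf.add_left, f_add_right hf, f_add_right hf, hf.smul_left, hf.smul_left, f_smul_right hf,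
      f_smul_right hf, haa, hap, hpa, hpp]
    have : (0 : F) + hermSigma hF d * 1 + (d * 1 + d * (hermSigma hF d * 0)) = 1 := by
      linear_combination hd
    rw [this]
    exact one_ne_zero
  · exact step2 a ha haa h

/-- The element `g` moves some isotropic vector of the orthogonal to a mixed vector. -/
theorem exists_mixed (hdim2 : 2 * finrank F W < n) {g : GL (Fin n) F} (hg : g ∈ GU n F q)
    (hgS : g ∉ subspaceStabilizer W) :
    ∃ z ∈ perpU (herm_unitary hF) W, f z z = 0 ∧ g ⋆ z ∉ perpU (herm_unitary hF) W ∧ g ⋆ z ∉ W := by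
  classical
  have hf := herm_unitary (n := n) hF
  set U := perpU (herm_unitary hF) W with hU
  set L : (Fin n → F) →ₗ[F] (Fin n → F) := Matrix.mulVecLin (g : Matrix (Fin n) (Fin n) F) with hL
  have hLa : ∀ x, L x = g ⋆ x := fun x => rfl
  have hLinj : Function.Injective L := by
    intro x y hxy
    have h1 : g ⋆ x = g ⋆ y := hxy
    have h2 := congrArg (fun v => g⁻¹ ⋆ v) h1
    simpa only [inv_mulVec_GL] using h2
  by_contra hcon
  push Not at hcon
  have hP₁ : (U ⊓ U.comap L) ≠ U := by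
    intro he
    have hUU : ∀ u ∈ U, g ⋆ u ∈ U := by
      intro u hu
      rw [← he] at hu
      exact hu.2
    let ψ : U → U := fun u => ⟨g ⋆ u.1, hUU u.1 u.2⟩
    have hψinj : Function.Injective ψ := by
      intro a b hab
      have h1 : L a.1 = L b.1 := congrArg Subtype.val hab
      exact Subtype.ext (hLinj h1)
    have hψsurj : Function.Surjective ψ := Finite.injective_iff_surjective.1 hψinj
    apply hgS
    refine mem_stab_of_map_le W g (fun w hw => C.hperp _ (fun u hu => ?_))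
    obtain ⟨⟨u', hu'⟩, h1⟩ := hψsurj ⟨u, hu⟩
    have h2 : g ⋆ u' = u := congrArg Subtype.val h1
    rw [← h2, pres_apply hg]
    exact f_swap_zero hf (hu' w hw)
  have hP₂ : (U ⊓ W.comap L) ≠ U := by
    intro he
    have hUW : ∀ u ∈ U, g ⋆ u ∈ W := by
      intro u hu
      rw [← he] at hu
      exact hu.2
    let ψ : U →ₗ[F] W := (L.comp U.subtype).codRestrict W (fun u => hUW u.1 u.2)
    have hψinj : Function.Injective ψ := by
      intro a b hab
      have h1 : L a.1 = L b.1 := congrArg Subtype.val hab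
      exact Subtype.ext (hLinj h1)
    have h1 := LinearMap.finrank_le_finrank_of_injective hψinj
    have h2 : finrank F U = Fintype.card (Fin n) - finrank F W := finrank_perpU hf W
    rw [Fintype.card_fin] at h2
    omega
  obtain ⟨x₁, hx₁, hx₁n, hx₁P⟩ := exists_iso_out hf C.hWU C.hdim'' inf_le_left hP₁
  obtain ⟨x₂, hx₂, hx₂n, hx₂P⟩ := exists_iso_out hf C.hWU C.hdim'' inf_le_left hP₂
  have h1 : g ⋆ x₁ ∉ U := fun h => hx₁P ⟨hx₁, h⟩
  have h2 : g ⋆ x₂ ∉ W := fun h => hx₂P ⟨hx₂, h⟩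
  have h1' : g ⋆ x₁ ∈ W := hcon x₁ hx₁ hx₁n h1
  have h2' : g ⋆ x₂ ∈ U := by
    by_contra h
    exact h2 (hcon x₂ hx₂ hx₂n h)
  obtain ⟨l, hl0, hl⟩ : ∃ l : F, l ≠ 0 ∧ hermSigma hF l * f x₁ x₂ + l * f x₂ x₁ = 0 := by
    by_cases ht : f x₂ x₁ = 0
    · refine ⟨1, one_ne_zero, ?_⟩
      rw [ht, f_swap_zero hf ht]
      simp
    · obtain ⟨c, hc0, hc⟩ := exists_traceless hf
      refine ⟨c / f x₂ x₁, div_ne_zero hc0 ht, ?_⟩
      have h3 : f x₁ x₂ = hermSigma hF (f x₂ x₁) := hf.herm x₁ x₂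
      rw [h3, ← map_mul, div_mul_cancel₀ _ ht]
      rw [add_comm]
      exact hc
  have hy : x₁ + l • x₂ ∈ U := U.add_mem hx₁ (U.smul_mem _ hx₂)
  have hyn : f (x₁ + l • x₂) (x₁ + l • x₂) = 0 := by
    rw [hf.add_left, f_add_right hf, f_add_right hf, hf.smul_left, hf.smul_left, f_smul_right hf,
      f_smul_right hf, hx₁n, hx₂n]
    linear_combination hl
  have hgy : g ⋆ (x₁ + l • x₂) = g ⋆ x₁ + l • (g ⋆ x₂) := by
    rw [Matrix.mulVec_add, Matrix.mulVec_smul]
  by_cases h3 : g ⋆ (x₁ + l • x₂) ∈ U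
  · apply h1
    have h4 := U.sub_mem h3 (U.smul_mem l h2')
    rwa [hgy, add_sub_cancel_right] at h4
  · have h4 := hcon _ hy hyn h3
    apply h2
    have h5 := W.sub_mem h4 h1'
    rw [hgy, add_sub_cancel_left] at h5
    have h6 := W.smul_mem l⁻¹ h5
    rwa [smul_smul, inv_mul_cancel₀ hl0, one_smul] at h6

/-- All isotropic vectors are centres, so `M` is everything. -/
theorem eq_top (hND : IsNondegenerateOn f W) (hdim2 : 2 * finrank F W < n) (hn : 13 ≤ n)
    {g : GL (Fin n) F} (hgM : g ∈ M) (hgS : g ∉ subspaceStabilizer W) :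
    GU n F q ⊓ specialLinear (Fin n) F ≤ M := by
  have hf := herm_unitary (n := n) hF
  have hg : g ∈ GU n F q := (C.hM hgM).1
  obtain ⟨z, hz, hzn, hz1, hz2⟩ := C.exists_mixed hdim2 hg hgS
  obtain ⟨a, ha, b, hb, hab⟩ := C.hsup (g ⋆ z)
  have ha0 : a ≠ 0 := by
    rintro rfl
    rw [zero_add] at hab
    rw [hab] at hz1
    exact hz1 hb
  have hb0 : b ≠ 0 := by
    rintro rfl
    rw [add_zero] at hab
    rw [hab] at hz2
    exact hz2 ha
  have h1 : g ⋆ z ∈ TU (herm_unitary hF) M := TU_conj hf hg hgM (C.center_U hz hzn)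
  rw [hab] at h1
  have hall := C.aw_all hND ha ha0 (C.aw_of_one ha hb hb0 h1)
  refine su_le hF (by omega) (by omega) ?_
  intro v hv
  obtain ⟨x, hx, y, hy, hxy⟩ := C.hsup v
  by_cases hy0 : y = 0
  · rw [hy0, add_zero] at hxy
    rw [hxy] at hv ⊢
    exact C.center_W hx hv
  · rw [hxy] at hv ⊢
    rw [C.norm_add hx hy] at hv
    exact hall x hx y hy hy0 hv

end Ctx

end Herm



/-- Let F be the field with q² elements and n ≥ 13. In SU_n(q) (determinant-one isometries of the standard unitary form on F^n) the stabiliser of a non-zero subspace W on which the form is non-degenerate and with 2 dim W < n is a maximal subgroup. -/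
theorem result {F : Type*} [Field F] [Fintype F] (n q : ℕ) (hF : Fintype.card F = q ^ 2) (hn : 13 ≤ n) (W : Submodule F (Fin n → F)) (hW0 : W ≠ ⊥) (hW : Cfsg.Geo.IsNondegenerateOn (Cfsg.hermForm n F q) W) (hdim : 2 * Module.finrank F W < n) : Cfsg.Geo.IsMaximalIn (Cfsg.GU n F q ⊓ Cfsg.Geo.specialLinear (Fin n) F) (Cfsg.Geo.subspaceStabilizer W ⊓ (Cfsg.GU n F q ⊓ Cfsg.Geo.specialLinear (Fin n) F)) := by
  classical
  have hf := herm_unitary (n := n) hF
  set U := perpU (herm_unitary hF) W with hU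
  have hcard : Fintype.card (Fin n) = n := Fintype.card_fin n
  have hfU : finrank F U = n - finrank F W := by
    have h1 : finrank F U = Fintype.card (Fin n) - finrank F W := finrank_perpU hf W
    rwa [hcard] at h1
  have hsw : ∀ w ∈ W, ∀ u ∈ U, hermForm n F q u w = 0 := fun w hw u hu => f_swap_zero hf (hu w hw)
  have hWU : W ⊓ U = ⊥ := by
    rw [eq_bot_iff]
    rintro x ⟨hx, hx'⟩
    rw [Submodule.mem_bot]
    by_contra hx0
    obtain ⟨y, hy, hne⟩ := (hW x hx hx0).1
    exact hne (hx' y hy)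
  have hsupp : W ⊔ U = ⊤ := by
    apply Submodule.eq_top_of_finrank_eq
    have h2 := Submodule.finrank_sup_add_finrank_inf_eq W U
    rw [hWU, finrank_bot] at h2
    rw [Module.finrank_fintype_fun_eq_card, hcard]
    omega
  have hsup : ∀ x : Fin n → F, ∃ a ∈ W, ∃ b ∈ U, x = a + b := by
    intro x
    have hx : x ∈ W ⊔ U := by
      rw [hsupp]
      trivial
    obtain ⟨a, ha, b, hb, hab⟩ := Submodule.mem_sup.1 hx
    exact ⟨a, ha, b, hb, hab.symm⟩
  have hperp : ∀ x : Fin n → F, (∀ u ∈ U, hermForm n F q u x = 0) → x ∈ W := by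
    have hle : W ≤ perpU hf U := fun w hw u hu => hsw w hw u hu
    have hfr : finrank F (perpU hf U) = finrank F W := by
      have h1 : finrank F (perpU hf U) = Fintype.card (Fin n) - finrank F U := finrank_perpU hf U
      rw [hcard] at h1
      omega
    have he := Submodule.eq_of_le_of_finrank_eq hle hfr.symm
    intro x hx
    rw [he]
    exact hx
  have hdim7 : 7 + finrank F W ≤ n := by omega
  refine ⟨lt_of_le_of_ne inf_le_right ?_, ?_⟩
  · -- properness
    intro he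
    obtain ⟨a, ha, ha0⟩ := Submodule.exists_mem_ne_zero_of_ne_bot hW0
    obtain ⟨c₀, hc₀0, hc₀⟩ := exists_traceless hf
    obtain ⟨z, hz, -, -, hz0, -, -, hzn, -, -⟩ := exists_pair hf hWU (by rwa [hcard])
      (n₁ := - hermForm n F q a a) (n₂ := 0) (by rw [map_neg, Q_fixed hf]) (map_zero _) 0
    obtain ⟨w, hw, hwa⟩ := (hW a ha ha0).1
    have hvv : hermForm n F q (a + z) (a + z) = 0 := by
      rw [hf.add_left, f_add_right hf, f_add_right hf, hz a ha, f_swap_zero hf (hz a ha), hzn]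
      ring
    have h0 : hermForm n F q (c₀ • (a + z)) (a + z) = 0 := by
      rw [hf.smul_left, hvv, mul_zero]
    have hmem : tau hf (c₀ • (a + z)) (a + z) h0 ∈ subspaceStabilizer W ⊓ (GU n F q ⊓ specialLinear (Fin n) F) := by
      rw [he]
      exact tau_mem_K hF hvv hc₀ h0
    have h1 := ((mem_stab_iff W _).1 hmem.1 w).1 hw
    rw [tau_apply] at h1
    have h2 := W.sub_mem h1 hw
    rw [add_sub_cancel_left, smul_smul] at h2
    have h3 : hermForm n F q w (a + z) = hermForm n F q w a := by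
      rw [f_add_right hf, hz w hw, add_zero]
    rw [h3] at h2
    have h4 := W.smul_mem (hermForm n F q w a * c₀)⁻¹ h2
    rw [smul_smul, inv_mul_cancel₀ (mul_ne_zero hwa hc₀0), one_smul] at h4
    have h5 := W.sub_mem h4 ha
    rw [add_sub_cancel_left] at h5
    apply hz0
    have : z ∈ W ⊓ U := ⟨h5, hz⟩
    rwa [hWU] at this
  · intro M hHM hMK
    by_cases hne : M = subspaceStabilizer W ⊓ (GU n F q ⊓ specialLinear (Fin n) F)
    · exact Or.inl hne
    right
    obtain ⟨g, hgM, hgH⟩ : ∃ g ∈ M, g ∉ subspaceStabilizer W ⊓ (GU n F q ⊓ specialLinear (Fin n) F) := by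
      by_contra hcon
      push Not at hcon
      exact hne (le_antisymm hcon hHM)
    have hgS : g ∉ subspaceStabilizer W := fun h => hgH ⟨h, hMK hgM⟩
    have C : Ctx hF W M := ⟨hWU, hdim7, hsup, hperp, hHM, hMK⟩
    exact le_antisymm hMK (C.eq_top hW hdim hn hgM hgS)

end Cfsg.Agent.S5654
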