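import Cfsg.Statements.S5655
import Cfsg.Agent.Lib.H97VS

set_option autoImplicit false
open Cfsg

namespace Cfsg.Agent.S5655

open Cfsg.Geo Cfsg.Agent.Lib.GLMon Cfsg.Agent.Lib.GLMonDec Cfsg.Agent.Lib.H97VS in
/-- Let F be the field with q² elements and n ≥ 13. Let D be a decomposition of F^n into t ≥ 2 pairwise orthogonal subspaces of equal dimension k, each non-degenerate for the standard unitary form, spanning F^n. Unless k = 2 and q = 2, the elements of SU_n(q) permuting the members of D form a maximal subgroup of SU_n(q). -/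
theorem result {F : Type*} [Field F] [Fintype F] (n q : ℕ) (hF : Fintype.card F = q ^ 2) (hn : 13 ≤ n) {t : ℕ} (k : ℕ) (D : Fin t → Submodule F (Fin n → F)) (hD : Cfsg.Geo.IsNondegenerateMDecomposition (Cfsg.hermForm n F q) k D) (hex : ¬ (k = 2 ∧ q = 2)) : Cfsg.Geo.IsMaximalIn (Cfsg.GU n F q ⊓ Cfsg.Geo.specialLinear (Fin n) F) (Cfsg.Geo.decompositionStabilizer D ⊓ (Cfsg.GU n F q ⊓ Cfsg.Geo.specialLinear (Fin n) F)) := by
  classical
  obtain ⟨e, B, hB1, hBo, hB2⟩ := exists_ortho hF hn hD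
  have hm := hD.decomp.pos
  have ht := hD.decomp.two_le
  obtain ⟨P, hP⟩ : ∃ P, P = matOf B := ⟨_, rfl⟩
  have hPU : P ∈ GU n F q := by
    rw [hP]
    exact matOf_mem_GU hF hBo
  have hPiU : P⁻¹ ∈ GU n F q := (GU n F q).inv_mem hPU
  have hdec : ∀ z : Matrix.GeneralLinearGroup (Fin n) F, z ∈ decompositionStabilizer D ↔
      BlockPres (cc e) (P⁻¹ * z * P) := by
    intro z
    rw [hP]
    exact mem_dec_iff hD.decomp e B hB1 hB2 z
  refine ⟨?_, ?_⟩
  · refine lt_of_le_of_ne inf_le_right ?_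
    intro heq
    obtain ⟨y, hy, hyb⟩ := exists_not_block hF hn e ht hm
    have h1 := conj_K hPU hy
    rw [← heq] at h1
    have h3 := (hdec _).1 h1.1
    have e1 : P⁻¹ * (P * y * P⁻¹) * P = y := by group
    rw [e1] at h3
    exact hyb h3
  · intro M hHM hMS
    by_cases hle : M ≤ decompositionStabilizer D ⊓ (GU n F q ⊓ specialLinear (Fin n) F)
    · exact Or.inl (le_antisymm hle hHM)
    right
    refine le_antisymm hMS ?_
    obtain ⟨g, hgM, hgH⟩ := SetLike.not_le_iff_exists.mp hle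
    have hgD : g ∉ decompositionStabilizer D := fun h => hgH ⟨h, hMS hgM⟩
    let M' : Subgroup (Matrix.GeneralLinearGroup (Fin n) F) := M.comap (MulAut.conj P).toMonoidHom
    have hM' : ∀ y, y ∈ M' ↔ P * y * P⁻¹ ∈ M := fun y => Iff.rfl
    have hK : GU n F q ⊓ specialLinear (Fin n) F ≤ M' := by
      refine main_coords hF hn e hm hex (g := P⁻¹ * g * P) ?_ ?_ ?_ ?_
      · intro y hy
        rw [hM'] at hy
        have h1 := conj_K hPiU (hMS hy)
        have e1 : P⁻¹ * (P * y * P⁻¹) * P⁻¹⁻¹ = y := by group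
        rwa [e1] at h1
      · intro y hy hy2
        rw [hM']
        have e1 : P⁻¹ * (P * y * P⁻¹) * P = y := by group
        exact hHM (Subgroup.mem_inf.mpr ⟨(hdec _).mpr (by rw [e1]; exact hy2), conj_K hPU hy⟩)
      · rw [hM']
        have e1 : P * (P⁻¹ * g * P) * P⁻¹ = g := by group
        rw [e1]
        exact hgM
      · intro h
        exact hgD ((hdec g).mpr h)
    intro z hz
    have h3 := hK (conj_K hPiU hz)
    rw [hM'] at h3
    have e1 : P * (P⁻¹ * z * P⁻¹⁻¹) * P⁻¹ = z := by group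
    rwa [e1] at h3

end Cfsg.Agent.S5655
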