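import Mathlib
import Cfsg.Statements.S5656
import Cfsg.Agent.Lib.UWitt
import Cfsg.Agent.Lib.HermOrtho
-- import your own Cfsg.Agent.* helpers here

set_option autoImplicit false
open Cfsg

namespace Cfsg.Agent.S5656

open Matrix Cfsg Cfsg.Geo Cfsg.Agent.Lib.TvGL Cfsg.Agent.Lib.SympT Cfsg.Agent.Lib.UForm
  Cfsg.Agent.Lib.UTrans Cfsg.Agent.Lib.UWitt Module
open Cfsg.Agent.H97.Asch (herm_unitary hermSigma hermSigma_apply)

local notation:70 g:71 " ⋆ " x:70 => Matrix.mulVec (Units.val g) x



/-- Let F be the field with 4 elements (q = 2) and n ≥ 13. Let D be a decomposition of F^n into t pairwise orthogonal 2-dimensional subspaces, each non-degenerate for the standard unitary form Σ u_i v_i². Then the elements of SU_n(2) permuting the members of D form a subgroup that is not maximal: some subgroup lies strictly between it and SU_n(2). -/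
theorem result {F : Type*} [Field F] [Fintype F] (n : ℕ) (hF : Fintype.card F = 4) (hn : 13 ≤ n) {t : ℕ} (D : Fin t → Submodule F (Fin n → F)) (hD : Cfsg.Geo.IsNondegenerateMDecomposition (Cfsg.hermForm n F 2) 2 D) : ∃ K : Subgroup (Matrix.GeneralLinearGroup (Fin n) F), Cfsg.Geo.decompositionStabilizer D ⊓ (Cfsg.GU n F 2 ⊓ Cfsg.Geo.specialLinear (Fin n) F) < K ∧ K < (Cfsg.GU n F 2 ⊓ Cfsg.Geo.specialLinear (Fin n) F) := by
  classical
  have hF2 : Fintype.card F = 2 ^ 2 := by
    rw [hF]
    norm_num
  have hf := herm_unitary (n := n) hF2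
  set f := hermForm n F 2 with hfdef
  set G := GU n F 2 ⊓ specialLinear (Fin n) F with hG
  have h4 : (4 : F) = 0 := by
    have := FiniteField.cast_card_eq_zero F
    rw [hF] at this
    exact_mod_cast this
  have h2 : (2 : F) = 0 := by
    have h3 : (2 : F) * 2 = 0 := by
      rw [← h4]
      norm_num
    exact mul_self_eq_zero.1 h3
  have h11' : (1 : F) + 1 = 0 := by
    rw [one_add_one_eq_two, h2]
  have hdbl : ∀ a : F, a + a = 0 := by
    intro a
    rw [← two_mul, h2, zero_mul]
  have hN : ∀ α : F, α ≠ 0 → α * hermSigma hF2 α = 1 := by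
    intro α hα
    rw [hermSigma_apply]
    have := FiniteField.pow_card_sub_one_eq_one α hα
    rw [hF] at this
    rw [← this]
    ring
  have hND : ∀ i, Cfsg.Agent.Lib.HermOrtho.ND 2 (D i) := by
    intro i u hu h0
    by_contra hu0
    obtain ⟨x, hx, hne⟩ := (hD.nondegenerate i u hu hu0).2
    exact hne (h0 x hx)
  have hfr : ∀ i, ∃ x ∈ D i, ∃ x' ∈ D i, f x x = 1 ∧ f x' x' = 1 ∧ f x x' = 0 ∧
      ∀ z ∈ D i, ∃ α β : F, z = α • x + β • x' := by
    intro i
    obtain ⟨c, hc, hco⟩ := Cfsg.Agent.Lib.HermOrtho.exists_orthonormal hF2 2 (D i)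
      (hD.decomp.finrank_eq i) (hND i)
    have hspan := Cfsg.Agent.Lib.HermOrtho.span_orthonormal hF2 (hD.decomp.finrank_eq i) hc hco
    refine ⟨c 0, hc 0, c 1, hc 1, ?_, ?_, ?_, ?_⟩
    · simpa using hco 0 0
    · simpa using hco 1 1
    · simpa using hco 0 1
    · intro z hz
      rw [← hspan] at hz
      obtain ⟨g, hg⟩ := (Submodule.mem_span_range_iff_exists_fun F).1 hz
      refine ⟨g 0, g 1, ?_⟩
      rw [← hg, Fin.sum_univ_two]
  have hort : ∀ i j, i ≠ j → ∀ x ∈ D i, ∀ y ∈ D j, f x y = 0 := fun i j hij x hx y hy =>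
    hD.orthogonal i j hij x hx y hy
  have hsig1 : hermSigma hF2 (1 : F) = 1 := map_one _
  have htr : (1 : F) + hermSigma hF2 (1 : F) = 0 := by
    rw [hsig1, h11']
  have h2t : 2 ≤ t := hD.decomp.two_le
  set i₁ : Fin t := ⟨0, by omega⟩ with hi₁
  set i₂ : Fin t := ⟨1, by omega⟩ with hi₂
  have hi : i₁ ≠ i₂ := by
    intro h
    have := congrArg Fin.val h
    simp [hi₁, hi₂] at this
  obtain ⟨x₁, hx₁, y₁, hy₁, hx₁n, hy₁n, hxy₁, hs₁⟩ := hfr i₁
  obtain ⟨x₂, hx₂, y₂, hy₂, hx₂n, hy₂n, hxy₂, hs₂⟩ := hfr i₂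
  have hyx₁ := f_swap_zero hf hxy₁
  have hyx₂ := f_swap_zero hf hxy₂
  have hc1 : f x₁ x₂ = 0 := hort _ _ hi _ hx₁ _ hx₂
  have hc2 : f x₁ y₂ = 0 := hort _ _ hi _ hx₁ _ hy₂
  have hc3 : f y₁ x₂ = 0 := hort _ _ hi _ hy₁ _ hx₂
  have hc4 : f y₁ y₂ = 0 := hort _ _ hi _ hy₁ _ hy₂
  have hc1' := f_swap_zero hf hc1
  have hc2' := f_swap_zero hf hc2
  have hc3' := f_swap_zero hf hc3
  have hc4' := f_swap_zero hf hc4
  -- the set of non-isotropic vectors in the members of `D`
  set X : Set (Fin n → F) := {x | ∃ i, x ∈ D i ∧ f x x ≠ 0} with hX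
  refine ⟨stabilizing (glToMat (Fin n) F) X ⊓ G, ?_, ?_⟩
  · rw [SetLike.lt_iff_le_and_exists]
    constructor
    · rintro g ⟨⟨π, hπ⟩, hgG⟩
      refine ⟨?_, hgG⟩
      intro v
      show v ∈ X ↔ g ⋆ v ∈ X
      have hp : ∀ a b, f (g ⋆ a) (g ⋆ b) = f a b := fun a b => pres_apply hgG.1 a b
      constructor
      · rintro ⟨i, hvi, hvn⟩
        refine ⟨π i, ?_, by rwa [hp]⟩
        rw [← hπ i]
        exact ⟨v, hvi, rfl⟩
      · rintro ⟨j, hvj, hvn⟩
        have h3 := hπ (π.symm j)
        rw [Equiv.apply_symm_apply] at h3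
        rw [← h3] at hvj
        obtain ⟨y, hy, hye⟩ := hvj
        have hye' : g ⋆ y = g ⋆ v := hye
        have h5 : y = v := by
          have := congrArg (fun w => g⁻¹ ⋆ w) hye'
          simpa only [inv_mulVec_GL] using this
        rw [hp] at hvn
        rw [← h5] at hvn ⊢
        exact ⟨π.symm j, hy, hvn⟩
    · -- the swap of `y₁` and `x₂`
      set v := y₁ + x₂ with hv
      have hvv : f v v = 0 := by
        rw [hv, hf.add_left, f_add_right hf, f_add_right hf, hy₁n, hx₂n, hc3, hc3']
        rw [add_zero, zero_add]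
        exact h11'
      have h0 : f ((1 : F) • v) v = 0 := by
        rw [one_smul, hvv]
      set τ := tau hf ((1 : F) • v) v h0 with hτdef
      have hτ : ∀ z, τ ⋆ z = z + f z v • v := by
        intro z
        rw [hτdef, tau_apply, one_smul]
      have hτG : τ ∈ G := tau_mem_K hF2 hvv htr h0
      have hinv : ∀ z, τ ⋆ (τ ⋆ z) = z := by
        intro z
        rw [hτ, hτ, hf.add_left, hf.smul_left, hvv, mul_zero, add_zero, add_assoc, ← add_smul, hdbl,
          zero_smul, add_zero]
      have hnorm : ∀ (x y : Fin n → F) (α β : F), f x x = 1 → f y y = 1 → f x y = 0 →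
          f (α • x + β • y) (α • x + β • y) = α * hermSigma hF2 α + β * hermSigma hF2 β := by
        intro x y α β h3 h5 h6
        rw [hf.add_left, f_add_right hf, f_add_right hf, hf.smul_left, hf.smul_left, f_smul_right hf,
          f_smul_right hf, f_smul_right hf, f_smul_right hf, hf.smul_left, hf.smul_left, h3, h5, h6,
          f_swap_zero hf h6]
        ring
      have hexcl : ∀ α β : F, α * hermSigma hF2 α + β * hermSigma hF2 β ≠ 0 → α = 0 ∨ β = 0 := by
        intro α β h3
        by_contra h5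
        push Not at h5
        apply h3
        rw [hN α h5.1, hN β h5.2]
        exact h11'
      have hkey : ∀ z ∈ X, τ ⋆ z ∈ X := by
        rintro z ⟨i, hzi, hzn⟩
        by_cases hz1 : f z v = 0
        · rw [hτ, hz1, zero_smul, add_zero]
          exact ⟨i, hzi, hzn⟩
        by_cases hii₁ : i = i₁
        · subst hii₁
          obtain ⟨α, β, rfl⟩ := hs₁ z hzi
          rw [hnorm _ _ α β hx₁n hy₁n hxy₁] at hzn
          rcases hexcl α β hzn with h3 | h3
          · subst h3
            rw [zero_smul, zero_add] at hz1 ⊢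
            have hβ : β ≠ 0 := by
              rintro rfl
              rw [zero_smul, f_zero_left hf] at hz1
              exact hz1 rfl
            have h5 : f (β • y₁) v = β := by
              rw [hv, f_add_right hf, hf.smul_left, hf.smul_left, hy₁n, hc3]
              ring
            rw [hτ, h5, hv]
            have h6 : β • y₁ + β • (y₁ + x₂) = β • x₂ := by
              rw [smul_add, ← add_assoc, ← add_smul, hdbl, zero_smul, zero_add]
            rw [h6]
            refine ⟨i₂, (D i₂).smul_mem _ hx₂, ?_⟩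
            rw [hf.smul_left, f_smul_right hf, hx₂n, mul_one, hN β hβ]
            exact one_ne_zero
          · subst h3
            exfalso
            apply hz1
            rw [zero_smul, add_zero, hf.smul_left, hv, f_add_right hf, hxy₁, hc1]
            simp
        by_cases hii₂ : i = i₂
        · subst hii₂
          obtain ⟨α, β, rfl⟩ := hs₂ z hzi
          rw [hnorm _ _ α β hx₂n hy₂n hxy₂] at hzn
          rcases hexcl α β hzn with h3 | h3
          · subst h3
            exfalso
            apply hz1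
            rw [zero_smul, zero_add, hf.smul_left, hv, f_add_right hf, hc4', hyx₂]
            simp
          · subst h3
            rw [zero_smul, add_zero] at hz1 ⊢
            have hα : α ≠ 0 := by
              rintro rfl
              rw [zero_smul, f_zero_left hf] at hz1
              exact hz1 rfl
            have h5 : f (α • x₂) v = α := by
              rw [hv, f_add_right hf, hf.smul_left, hf.smul_left, hx₂n, hc3']
              ring
            rw [hτ, h5, hv]
            have h6 : α • x₂ + α • (y₁ + x₂) = α • y₁ := by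
              rw [smul_add, add_comm (α • y₁), ← add_assoc, ← add_smul, hdbl, zero_smul, zero_add]
            rw [h6]
            refine ⟨i₁, (D i₁).smul_mem _ hy₁, ?_⟩
            rw [hf.smul_left, f_smul_right hf, hy₁n, mul_one, hN α hα]
            exact one_ne_zero
        · exfalso
          apply hz1
          rw [hv, f_add_right hf, hort i i₁ hii₁ z hzi y₁ hy₁, hort i i₂ hii₂ z hzi x₂ hx₂, add_zero]
      refine ⟨τ, ⟨?_, hτG⟩, ?_⟩
      · intro z
        show z ∈ X ↔ τ ⋆ z ∈ X
        refine ⟨hkey z, fun h3 => ?_⟩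
        have h5 := hkey _ h3
        rwa [hinv] at h5
      · rintro ⟨⟨π, hπ⟩, -⟩
        have h3 := hπ i₁
        have h5 : τ ⋆ x₁ ∈ D (π i₁) := by
          rw [← h3]
          exact ⟨x₁, hx₁, rfl⟩
        have h6 : τ ⋆ y₁ ∈ D (π i₁) := by
          rw [← h3]
          exact ⟨y₁, hy₁, rfl⟩
        have h7 : f x₁ v = 0 := by
          rw [hv, f_add_right hf, hxy₁, hc1, add_zero]
        have h8 : f y₁ v = 1 := by
          rw [hv, f_add_right hf, hy₁n, hc3, add_zero]
        rw [hτ, h7, zero_smul, add_zero] at h5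
        rw [hτ, h8, one_smul, hv, ← add_assoc, ← two_smul F y₁, h2, zero_smul, zero_add] at h6
        have h9 : π i₁ = i₁ := by
          by_contra h9
          have := hort _ _ h9 _ h5 _ hx₁
          rw [hx₁n] at this
          exact one_ne_zero this
        rw [h9] at h6
        have := hort _ _ hi _ h6 _ hx₂
        rw [hx₂n] at this
        exact one_ne_zero this
  · refine lt_of_le_of_ne inf_le_right ?_
    intro he
    set v := x₁ + y₁ + x₂ + y₂ with hv
    have hvx₁ : f x₁ v = 1 := by
      rw [hv, f_add_right hf, f_add_right hf, f_add_right hf, hx₁n, hxy₁, hc1, hc2]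
      ring
    have hvy₁ : f v y₁ = 1 := by
      rw [hv, hf.add_left, hf.add_left, hf.add_left, hxy₁, hy₁n, hc3', hc4']
      ring
    have hvx₂ : f v x₂ = 1 := by
      rw [hv, hf.add_left, hf.add_left, hf.add_left, hc1, hc3, hx₂n, hyx₂]
      ring
    have hvv : f v v = 0 := by
      have h3 : f v x₁ = 1 := by
        rw [hf.herm, hvx₁, hsig1]
      have h5 : f v y₂ = 1 := by
        rw [hv, hf.add_left, hf.add_left, hf.add_left, hc2, hc4, hxy₂, hy₂n]
        ring
      conv_lhs => rw [hv]
      rw [← hv, f_add_right hf, f_add_right hf, f_add_right hf, h3, hvy₁, hvx₂, h5]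
      rw [← h4]
      norm_num
    have h0 : f ((1 : F) • v) v = 0 := by
      rw [one_smul, hvv]
    set τ := tau hf ((1 : F) • v) v h0 with hτdef
    have hτ : ∀ z, τ ⋆ z = z + f z v • v := by
      intro z
      rw [hτdef, tau_apply, one_smul]
    have hτG : τ ∈ G := tau_mem_K hF2 hvv htr h0
    rw [← he] at hτG
    have hx₁X : x₁ ∈ X := ⟨i₁, hx₁, by rw [hx₁n]; exact one_ne_zero⟩
    have h3 : τ ⋆ x₁ ∈ X := (hτG.1 x₁).1 hx₁X
    rw [hτ, hvx₁, one_smul] at h3
    obtain ⟨i, hi₀, -⟩ := h3
    have h5 : f (x₁ + v) y₁ = 1 := by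
      rw [hf.add_left, hxy₁, hvy₁, zero_add]
    have h6 : f (x₁ + v) x₂ = 1 := by
      rw [hf.add_left, hc1, hvx₂, zero_add]
    by_cases hii : i = i₁
    · subst hii
      have := hort _ _ hi _ hi₀ _ hx₂
      rw [h6] at this
      exact one_ne_zero this
    · have := hort _ _ hii _ hi₀ _ hy₁
      rw [h5] at this
      exact one_ne_zero this

end Cfsg.Agent.S5656
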