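import Mathlib
import Cfsg.Statements.S5657
import Cfsg.Agent.Lib.UTIPair

set_option autoImplicit false
set_option linter.unusedSectionVars false
set_option linter.unusedVariables false
open Cfsg

namespace Cfsg.Agent.S5657

open Matrix Cfsg.Geo Cfsg.Agent.Lib.TvGL Cfsg.Agent.Lib.UForm Cfsg.Agent.Lib.UTrans Cfsg.Agent.Lib.UWitt
  Cfsg.Agent.Lib.UTIPair
open Cfsg.Agent.H97.Asch (herm_unitary hermSigma)
open Cfsg.Agent.Lib.SympT (cov GL_ext mulVec_mul_GL mulVec_inv_GL inv_mulVec_GL pres_apply linOf linOf_apply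
  finrank_le_of_maps)
open Cfsg.Agent.Lib.QForm (unip unip_val unip_apply unip_inv_val vv_mul exists_ne_zero_mem)
open Cfsg.Agent.Lib.SympDecomp (decomp_of_maps)
open Cfsg.Agent.Lib.SympTIPair (finrank_span_one)

local notation:70 g:71 " ⋆ " x:70 => Matrix.mulVec (Units.val g) x

/-- Let F be the field with q² elements and n = 2k ≥ 13. Let D be a decomposition of F^n into two complementary subspaces of dimension k on each of which the standard unitary form vanishes identically. Then the elements of SU_n(q) preserving or interchanging the two subspaces form a maximal subgroup of SU_n(q). -/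
theorem result {F : Type*} [Field F] [Fintype F] (n q : ℕ) (hF : Fintype.card F = q ^ 2) (hn : 13 ≤ n) (k : ℕ) (hk : 2 * k = n) (D : Fin 2 → Submodule F (Fin n → F)) (hD : Cfsg.Geo.IsMDecomposition k D) (hts : ∀ i, Cfsg.Geo.IsTotallySingularFor (Cfsg.hermForm n F q) (D i)) : Cfsg.Geo.IsMaximalIn (Cfsg.GU n F q ⊓ Cfsg.Geo.specialLinear (Fin n) F) (Cfsg.Geo.decompositionStabilizer D ⊓ (Cfsg.GU n F q ⊓ Cfsg.Geo.specialLinear (Fin n) F)) := by
  classical
  have hf := herm_unitary (n := n) hF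
  set σ := hermSigma hF with hσ
  set f := hermForm n F q with hfdef
  set K := GU n F q ⊓ specialLinear (Fin n) F with hK
  have hcompl : IsCompl (D 0) (D 1) := by
    refine ⟨hD.indep.pairwiseDisjoint (by decide : (0 : Fin 2) ≠ 1), ?_⟩
    rw [codisjoint_iff, eq_top_iff, ← hD.iSup_eq_top]
    refine iSup_le (fun i => ?_)
    fin_cases i
    · exact le_sup_left
    · exact le_sup_right
  have hp : UTP f (D 0) (D 1) := ⟨hts 0, hts 1, hcompl⟩
  have hf0 : Module.finrank F (D 0) = k := hD.finrank_eq 0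
  have hf1 : Module.finrank F (D 1) = k := hD.finrank_eq 1
  have hdec : ∀ g : GL (Fin n) F, (τ : Equiv.Perm (Fin 2)) → (∀ x ∈ D 0, g ⋆ x ∈ D (τ 0)) →
      (∀ x ∈ D 1, g ⋆ x ∈ D (τ 1)) → g ∈ decompositionStabilizer D := by
    intro g τ h0 h1
    refine decomp_of_maps (k := k) hD.finrank_eq g τ (fun i => ?_)
    fin_cases i
    · exact h0
    · exact h1
  -- the elements of the stabiliser
  have hHin : ∀ a ∈ D 0, ∀ b ∈ D 1, ∀ h : f a a = 0 ∧ f b b = 0 ∧ f a b = 0,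
      unip (Ym f a b) (Ym_sq hf h) ∈ decompositionStabilizer D ⊓ K := by
    intro a ha b hb h
    refine ⟨hdec _ (Equiv.refl _) (fun x hx => ?_) (fun x hx => ?_), unipY_pres hf h, unipY_mem_SL hf h⟩
    · rw [unip_apply, Ym_apply hf, hts 0 x hx a ha, zero_smul, sub_zero]
      exact (D 0).add_mem hx ((D 0).smul_mem _ ha)
    · rw [unip_apply, Ym_apply hf, hts 1 x hx b hb, zero_smul, zero_sub]
      exact (D 1).add_mem hx ((D 1).neg_mem ((D 1).smul_mem _ hb))
  -- an element interchanging the subspaces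
  obtain ⟨s₀, hs₀p, hs₀1, hs₀2⟩ := exists_swap hf hp (by rw [hf0, hf1])
  obtain ⟨e₀, he₀, he₀0⟩ : ∃ z ∈ D 0, z ≠ 0 := by
    apply exists_ne_zero_mem
    omega
  obtain ⟨g₀, hg₀D, hg₀e⟩ : ∃ b ∈ D 1, f b e₀ = 1 := by
    obtain ⟨w, hw⟩ := (hf.nondegenerate e₀ he₀0).1
    obtain ⟨w₀, hw₀, w₁, hw₁, rfl⟩ := hp.decomp w
    rw [hf.add_left, hts 0 w₀ hw₀ e₀ he₀, zero_add] at hw
    refine ⟨(f w₁ e₀)⁻¹ • w₁, (D 1).smul_mem _ hw₁, ?_⟩
    rw [hf.smul_left, inv_mul_cancel₀ hw]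
  obtain ⟨m, hm0, T, hT, hTx', hTA⟩ := exists_torus_fix hF hs₀p (hts 0 e₀ he₀ e₀ he₀) (hts 1 g₀ hg₀D g₀ hg₀D) hg₀e
  have hTx : ∀ x, T ⋆ x = x + ((m - 1) * f x g₀) • e₀ + (((m ^ q)⁻¹ - 1) * f x e₀) • g₀ := hTx'
  have hs1 : ∀ x ∈ D 0, (T * s₀) ⋆ x ∈ D 1 := by
    intro x hx
    rw [mulVec_mul_GL, hTx, hts 1 _ (hs₀1 x hx) g₀ hg₀D]
    simp only [mul_zero, zero_smul, add_zero]
    exact (D 1).add_mem (hs₀1 x hx) ((D 1).smul_mem _ hg₀D)
  have hs2 : ∀ x ∈ D 1, (T * s₀) ⋆ x ∈ D 0 := by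
    intro x hx
    rw [mulVec_mul_GL, hTx, hts 0 _ (hs₀2 x hx) e₀ he₀]
    simp only [mul_zero, zero_smul, add_zero]
    exact (D 0).add_mem (hs₀2 x hx) ((D 0).smul_mem _ he₀)
  have hsH : T * s₀ ∈ decompositionStabilizer D ⊓ K := by
    refine ⟨hdec _ (Equiv.swap 0 1) ?_ ?_, hTA⟩
    · simpa using hs1
    · simpa using hs2
  refine ⟨lt_of_le_of_ne inf_le_right ?_, ?_⟩
  · intro heq
    -- a transvection outside the stabiliser
    obtain ⟨z, hz, hz0⟩ : ∃ z ∈ D 0, z ≠ 0 := ⟨e₀, he₀, he₀0⟩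
    obtain ⟨b, hbD, hzb⟩ : ∃ b ∈ D 1, f z b ≠ 0 := by
      obtain ⟨w, hw⟩ := (hf.nondegenerate z hz0).2
      obtain ⟨w₀, hw₀, w₁, hw₁, rfl⟩ := hp.decomp w
      refine ⟨w₁, hw₁, ?_⟩
      rw [f_add_right hf, hts 0 z hz w₀ hw₀, zero_add] at hw
      exact hw
    -- a vector of `D 0` orthogonal to `b` and outside the span of `z`
    obtain ⟨a, haK, haz⟩ : ∃ a ∈ (D 0 ⊓ perpU hf (Submodule.span F {b}) : Submodule F (Fin n → F)),
        a ∉ Submodule.span F {z} := by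
      by_contra hcon
      push Not at hcon
      have h1 := Submodule.finrank_mono
        (show (D 0 ⊓ perpU hf (Submodule.span F {b}) : Submodule F (Fin n → F)) ≤ Submodule.span F {z} from hcon)
      have h3 := finrank_span_one (F := F) z
      have h4 := finrank_inf_perp hf (D 0) (Submodule.span F {b})
      have h5 := finrank_span_one (F := F) b
      omega
    have haD : a ∈ D 0 := haK.1
    have hba : f b a = 0 := haK.2 b (Submodule.mem_span_singleton_self b)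
    have hab : f a b = 0 := f_swap_zero hf hba
    have hvv : f (a + b) (a + b) = 0 := by
      rw [hf.add_left, f_add_right hf, f_add_right hf, hab, hba, hts 0 a haD a haD, hts 1 b hbD b hbD]
      ring
    obtain ⟨c₀, hc₀0, hc₀⟩ := exists_traceless hf
    have h0 : f (c₀ • (a + b)) (a + b) = 0 := by rw [hf.smul_left, hvv, mul_zero]
    have hmem : tau hf (c₀ • (a + b)) (a + b) h0 ∈ decompositionStabilizer D ⊓ K := by
      rw [heq]
      exact tau_mem_K hF hvv hc₀ h0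
    obtain ⟨τ, hτ⟩ := hmem.1
    have hzimg : tau hf (c₀ • (a + b)) (a + b) h0 ⋆ z ∈ D (τ 0) := by
      rw [← hτ 0]
      exact ⟨z, hz, rfl⟩
    rw [tau_apply, f_add_right hf, hts 0 z hz a haD, zero_add] at hzimg
    set κ := f z b * c₀ with hκ
    have hκ0 : κ ≠ 0 := mul_ne_zero hzb hc₀0
    have hsplit : z + f z b • c₀ • (a + b) = (z + κ • a) + κ • b := by
      rw [smul_smul, smul_add, add_assoc]
    rw [hsplit] at hzimg
    have hz1 : z + κ • a ∈ D 0 := (D 0).add_mem hz ((D 0).smul_mem _ haD)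
    have hz2 : κ • b ∈ D 1 := (D 1).smul_mem _ hbD
    have hτ0 : τ 0 = 0 ∨ τ 0 = 1 := by
      generalize τ 0 = i
      fin_cases i <;> simp
    rcases hτ0 with h0' | h0'
    · rw [h0'] at hzimg
      have h3 : κ • b ∈ D 0 := by
        have := (D 0).sub_mem hzimg hz1
        simpa using this
      have h4 := Submodule.disjoint_def.1 hcompl.disjoint _ h3 hz2
      have h5 : b = 0 := (smul_eq_zero.1 h4).resolve_left hκ0
      rw [h5, f_zero_right hf] at hzb
      exact hzb rfl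
    · rw [h0'] at hzimg
      have h3 : z + κ • a ∈ D 1 := by
        have := (D 1).sub_mem hzimg hz2
        simpa using this
      have h4 := Submodule.disjoint_def.1 hcompl.disjoint _ hz1 h3
      apply haz
      rw [Submodule.mem_span_singleton]
      refine ⟨-κ⁻¹, ?_⟩
      have h5 : κ • a = -z := eq_neg_of_add_eq_zero_right h4
      rw [neg_smul, ← smul_neg, ← h5, smul_smul, inv_mul_cancel₀ hκ0, one_smul]
  · intro M hHM hMK
    by_cases hMH : M ≤ decompositionStabilizer D ⊓ K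
    · exact Or.inl (le_antisymm hMH hHM)
    right
    refine le_antisymm hMK ?_
    obtain ⟨g, hgM, hgH⟩ := SetLike.not_le_iff_exists.1 hMH
    have hgK : g ∈ K := hMK hgM
    have hnot : ¬ (((∀ x ∈ D 0, g ⋆ x ∈ D 0) ∧ ∀ x ∈ D 1, g ⋆ x ∈ D 1) ∨
        ((∀ x ∈ D 0, g ⋆ x ∈ D 1) ∧ ∀ x ∈ D 1, g ⋆ x ∈ D 0)) := by
      rintro (⟨h0, h1⟩ | ⟨h0, h1⟩)
      · exact hgH ⟨hdec g (Equiv.refl _) h0 h1, hgK⟩
      · refine hgH ⟨hdec g (Equiv.swap 0 1) ?_ ?_, hgK⟩
        · simpa using h0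
        · simpa using h1
    exact su_le hF (by omega) (by omega) (all_iso hf hp (by omega) (by rw [hf0, hf1])
      (fun k hk => (hMK hk).1)
      (fun a ha b hb hab => ⟨⟨hts 0 a ha a ha, hts 1 b hb b hb, hab⟩,
        hHM (hHin a ha b hb ⟨hts 0 a ha a ha, hts 1 b hb b hb, hab⟩)⟩)
      ⟨T * s₀, hHM hsH, hs1, hs2⟩ hgM hnot)

end Cfsg.Agent.S5657
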