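import Mathlib
import Cfsg.Statements.S5658
import Cfsg.Agent.Lib.USubfield
-- import your own Cfsg.Agent.* helpers here

set_option autoImplicit false
open Cfsg

namespace Cfsg.Agent.S5658

open Matrix Cfsg Cfsg.Geo Cfsg.Agent.Lib.USubfield Cfsg.Agent.Lib.UForm Cfsg.Agent.Lib.UTrans Cfsg.Agent.Lib.TvGL
open Cfsg.Agent.Lib.SympT (cov GL_ext mulVec_mul_GL mulVec_inv_GL inv_mulVec_GL pres_apply)

local notation:70 g:71 " ⋆ " x:70 => Matrix.mulVec (Units.val g) x



/-- Let F be the field with q² elements, n ≥ 13, and F₀ a subfield with |F| = |F₀| ^ r for an odd prime r. Let P be an invertible matrix such that the standard unitary form takes values in F₀ on the F₀-span of the columns of P. Then the elements of SU_n(q) lying in the subfield group of P (the conjugate by P of the product of GL_n(F₀) with the scalars) form a maximal subgroup of SU_n(q). -/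
theorem result {F : Type*} [Field F] [Fintype F] (n q : ℕ) (hF : Fintype.card F = q ^ 2) (hn : 13 ≤ n) (F₀ : Subfield F) (r : ℕ) (hr : r.Prime) (hro : Odd r) (hcard : Fintype.card F = Nat.card F₀ ^ r) (P : Matrix.GeneralLinearGroup (Fin n) F) (hP : Cfsg.Geo.IsFormRationalStructure (Cfsg.hermForm n F q) F₀ 1 P) : Cfsg.Geo.IsMaximalIn (Cfsg.GU n F q ⊓ Cfsg.Geo.specialLinear (Fin n) F) (Cfsg.Geo.subfieldSubgroup F₀ P ⊓ (Cfsg.GU n F q ⊓ Cfsg.Geo.specialLinear (Fin n) F)) := by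
  classical
  have hfh := Cfsg.Agent.H97.Asch.herm_unitary (n := n) hF
  have hω := exists_moved hfh hro hcard
  set σ := Cfsg.Agent.H97.Asch.hermSigma (F := F) hF with hσ
  have hf' := transport hfh P
  have hS : RatForm σ (fun x y => hermForm n F q (P ⋆ x) (P ⋆ y)) F₀ := by
    refine ⟨fun a ha => ?_, hω, fun x y => ?_⟩
    · rw [mem_iff F₀] at ha ⊢
      have h1 : σ a = a ^ q := rfl
      rw [h1, ← pow_mul, mul_comm, pow_mul, ha]
    · have := hP (emb x) (emb y) (fun i => (x i).2) (fun i => (y i).2)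
      rwa [one_mul] at this
  have hn' : 13 ≤ Fintype.card (Fin n) := by simpa using hn
  set K₀ := (Matrix.GeneralLinearGroup.map (F₀.subtype : F₀ →+* F)).range ⊔ scalars (Fin n) F with hK₀
  have hmemS : ∀ x, x ∈ K₀ → P * x * P⁻¹ ∈ subfieldSubgroup F₀ P := by
    intro x hx
    exact ⟨x, hx, rfl⟩
  have hmemS' : ∀ x, x ∈ subfieldSubgroup F₀ P → P⁻¹ * x * P ∈ K₀ := by
    rintro _ ⟨y, hy, rfl⟩
    have : P⁻¹ * ((MulAut.conj P).toMonoidHom y) * P = y := by
      simp [MulAut.conj_apply]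
      group
    rw [this]
    exact hy
  -- isometries for the two forms
  have hconjG : ∀ x : GL (Fin n) F, (∀ a b, hermForm n F q (P ⋆ (x ⋆ a)) (P ⋆ (x ⋆ b)) = hermForm n F q (P ⋆ a) (P ⋆ b)) →
      P * x * P⁻¹ ∈ GU n F q := by
    intro x hx u v
    have h1 := hx ((P⁻¹ : GL (Fin n) F) ⋆ u) ((P⁻¹ : GL (Fin n) F) ⋆ v)
    rw [mulVec_inv_GL, mulVec_inv_GL] at h1
    show hermForm n F q (((P * x * P⁻¹ : GL (Fin n) F) : Matrix (Fin n) (Fin n) F) *ᵥ u)
      (((P * x * P⁻¹ : GL (Fin n) F) : Matrix (Fin n) (Fin n) F) *ᵥ v) = _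
    rw [mulVec_mul_GL, mulVec_mul_GL, mulVec_mul_GL, mulVec_mul_GL]
    exact h1
  refine ⟨lt_of_le_of_ne inf_le_right ?_, ?_⟩
  · intro heq
    obtain ⟨l, hl⟩ := exists_notMem_of_card (F₀ := F₀) hr hcard
    obtain ⟨g, hg1, hg2, hg3⟩ := exists_nonrational hf' hS hn' hl
    have h1 : P * g * P⁻¹ ∈ GU n F q ⊓ specialLinear (Fin n) F :=
      ⟨hconjG g hg1, Cfsg.Agent.Lib.SubfieldMax.conj_mem_specialLinear hg2 P⟩
    rw [← heq] at h1
    have h2 := hmemS' _ h1.1
    have h3 : P⁻¹ * (P * g * P⁻¹) * P = g := by group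
    rw [h3] at h2
    exact hg3 h2
  · intro M hHM hMG
    by_cases hMH : M ≤ subfieldSubgroup F₀ P ⊓ (GU n F q ⊓ specialLinear (Fin n) F)
    · exact Or.inl (le_antisymm hMH hHM)
    right
    refine le_antisymm hMG ?_
    obtain ⟨g, hgM, hgH⟩ := SetLike.not_le_iff_exists.mp hMH
    set M' : Subgroup (GL (Fin n) F) := M.comap (MulAut.conj P).toMonoidHom with hM'
    have hM'mem : ∀ x, x ∈ M' ↔ P * x * P⁻¹ ∈ M := fun x => Iff.rfl
    have hCtx : Ctx hf' F₀ M' := by
      refine ⟨?_, ?_⟩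
      · intro x hx a b
        have h1 := (hMG ((hM'mem x).1 hx)).1
        have h2 := h1 (P ⋆ a) (P ⋆ b)
        have h3 : ∀ y, ((P * x * P⁻¹ : GL (Fin n) F) : Matrix (Fin n) (Fin n) F) *ᵥ (P ⋆ y) = P ⋆ (x ⋆ y) := by
          intro y
          rw [mulVec_mul_GL, mulVec_mul_GL, inv_mulVec_GL]
        show hermForm n F q (P ⋆ (x ⋆ a)) (P ⋆ (x ⋆ b)) = hermForm n F q (P ⋆ a) (P ⋆ b)
        rw [← h3, ← h3]
        exact h2
      · intro x hx1 hx2 hx3
        rw [hM'mem]
        apply hHM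
        refine ⟨hmemS _ ?_, hconjG x hx2, Cfsg.Agent.Lib.SubfieldMax.conj_mem_specialLinear hx3 P⟩
        refine Cfsg.Agent.Lib.SubfieldMax.mem_sup_scalars_of_entries one_ne_zero fun k l => ?_
        rw [one_mul]
        exact hx1 k l
    set g' := P⁻¹ * g * P with hg'
    have hg'M : g' ∈ M' := by
      rw [hM'mem, hg']
      have : P * (P⁻¹ * g * P) * P⁻¹ = g := by group
      rwa [this]
    have hg'K : g' ∉ K₀ := by
      intro hmem
      apply hgH
      refine ⟨?_, hMG hgM⟩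
      have h1 := hmemS _ hmem
      have : P * g' * P⁻¹ = g := by rw [hg']; group
      rwa [this] at h1
    have hall := main_abstract hf' hS hCtx hn' hr hcard hg'M hg'K
    refine su_le hF (by omega) (by omega) ?_
    intro v hv
    have h1 := hall ((P⁻¹ : GL (Fin n) F) ⋆ v) (by
      show hermForm n F q (P ⋆ ((P⁻¹ : GL (Fin n) F) ⋆ v)) (P ⋆ ((P⁻¹ : GL (Fin n) F) ⋆ v)) = 0
      rw [mulVec_inv_GL]
      exact hv)
    have h2 := TU_of_comap hfh P h1
    rwa [mulVec_inv_GL] at h2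

end Cfsg.Agent.S5658
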