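import Mathlib
import Cfsg.Statements.S5665
import Cfsg.Agent.Lib.SpK
import Cfsg.Agent.Lib.H97Ort4

set_option autoImplicit false
open Cfsg

namespace Cfsg.Agent.S5665

open Matrix QuadraticMap Cfsg.Geo Module Cfsg.Agent.Lib.OrthoBasic Cfsg.Agent.Lib.OrthoSiegel Cfsg.Agent.Lib.OmCalc Cfsg.Agent.Lib.OmPerp Cfsg.Agent.Lib.OmK Cfsg.Agent.Lib.SpK
open Cfsg.Agent.Lib.SympT (GL_ext mulVec_mul_GL mulVec_inv_GL inv_mulVec_GL tvS tvS_apply tvS_pres spGL_le sympForm_isSymplectic)
open Cfsg.Agent.Lib.QuadFF (Q_ad Q_sm polar_sm_l polar_sm_r)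

local notation:70 g:71 " ⋆ " x:70 => Matrix.mulVec (Units.val g) x


/-- For a finite field F of odd order and m ≥ 7, let K be a subfield of the algebra of 2m × 2m matrices over F containing the scalars, of degree 2 over F, that is closed under adjoints for the standard alternating form on F^(2m) but whose elements are not all self-adjoint (so the adjoint map induces the automorphism of order two of K). Then the elements of Sp_2m(F) normalising K form a maximal subgroup of Sp_2m(F). -/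
theorem result {F : Type*} [Field F] [Fintype F] (m : ℕ) (hm : 7 ≤ m) (hodd : Odd (Fintype.card F)) (K : Subalgebra F (Matrix (Fin m ⊕ Fin m) (Fin m ⊕ Fin m) F)) (hK : Cfsg.Geo.IsFieldSubalgebra 2 K) (hac : Cfsg.Geo.IsAdjointClosedFor (Cfsg.sympForm m F) K) (hnsa : ¬ Cfsg.Geo.IsSelfAdjointFor (Cfsg.sympForm m F) K) : Cfsg.Geo.IsMaximalIn (Cfsg.spGL m F) (Cfsg.Geo.subalgebraNormalizer K ⊓ Cfsg.spGL m F) := by
  classical
  set f := sympForm m F with hfd
  have hf : IsSymplecticForm f := sympForm_isSymplectic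
  have h2 : (2 : F) ≠ 0 := Cfsg.Agent.H97.Asch.two_ne_of_odd_card hodd
  have hne : Nonempty (Fin m ⊕ Fin m) := ⟨Sum.inl ⟨0, by omega⟩⟩
  have h14 : 14 ≤ Fintype.card (Fin m ⊕ Fin m) := by
    rw [Fintype.card_sum, Fintype.card_fin]
    omega
  -- a skew element of the field
  have hnsa' : ∃ k ∈ K, ∃ u v, f (k *ᵥ u) v ≠ f u (k *ᵥ v) := by
    by_contra hcon
    push Not at hcon
    exact hnsa hcon
  obtain ⟨k, hk, u₀, v₀, hne₀⟩ := hnsa'
  obtain ⟨k', hk', hadj⟩ := hac k hk
  set W : Matrix (Fin m ⊕ Fin m) (Fin m ⊕ Fin m) F := k - k' with hWd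
  have hW : W ∈ K := K.sub_mem hk hk'
  have hW0 : W ≠ 0 := by
    intro h
    have : k = k' := sub_eq_zero.1 h
    apply hne₀
    rw [hadj, this]
  have hskew : ∀ x y, f (W *ᵥ x) y = - f x (W *ᵥ y) := by
    intro x y
    have e1 : f (k' *ᵥ x) y = f x (k *ᵥ y) := by
      rw [hf.skew, ← hadj, hf.skew]
      ring
    rw [hWd, Matrix.sub_mulVec, Matrix.sub_mulVec, Cfsg.Agent.Lib.SympT.f_sub_left hf.bilinear, Cfsg.Agent.Lib.SympT.f_sub_right hf.bilinear,
      hadj, e1]
    ring
  have hex : ∃ x y, f (W *ᵥ x) y ≠ 0 := by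
    have : ∃ x, W *ᵥ x ≠ 0 := by
      by_contra hcon
      push Not at hcon
      apply hW0
      apply Matrix.toLin'.injective
      refine LinearMap.ext fun v => ?_
      simp [hcon v]
    obtain ⟨x, hx⟩ := this
    obtain ⟨y, hy⟩ := (hf.nondegenerate _ hx).2
    exact ⟨x, y, hy⟩
  obtain ⟨x₁, y₁, hxy₁⟩ := hex
  have hns : ∀ r : F, W ≠ r • (1 : Matrix (Fin m ⊕ Fin m) (Fin m ⊕ Fin m) F) := by
    intro r hr
    have e1 := hskew x₁ y₁
    rw [hr, Matrix.smul_mulVec, Matrix.smul_mulVec, Matrix.one_mulVec, Matrix.one_mulVec, hf.bilinear.smul_left,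
      hf.bilinear.smul_right] at e1
    have e2 : r * f x₁ y₁ = 0 := by
      have : 2 * (r * f x₁ y₁) = 0 := by linear_combination e1
      exact (mul_eq_zero.1 this).resolve_left h2
    apply hxy₁
    rw [hr, Matrix.smul_mulVec, Matrix.one_mulVec, hf.bilinear.smul_left]
    exact e2
  have hspan := field_span hK hW hns
  -- the square of the skew element
  obtain ⟨d, b, hdb⟩ := hspan (W * W) (K.mul_mem hW hW)
  have hb0 : b = 0 := by
    have e1 : f ((W * W) *ᵥ x₁) y₁ = f x₁ ((W * W) *ᵥ y₁) := by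
      rw [← Matrix.mulVec_mulVec, ← Matrix.mulVec_mulVec, hskew, hskew]
      ring
    rw [hdb, Matrix.add_mulVec, Matrix.add_mulVec, Matrix.smul_mulVec, Matrix.smul_mulVec, Matrix.smul_mulVec,
      Matrix.smul_mulVec, Matrix.one_mulVec, Matrix.one_mulVec, hf.bilinear.add_left, hf.bilinear.add_right,
      hf.bilinear.smul_left, hf.bilinear.smul_left, hf.bilinear.smul_right, hf.bilinear.smul_right, hskew x₁ y₁] at e1
    have e3 : f (W *ᵥ x₁) y₁ = - f x₁ (W *ᵥ y₁) := hskew x₁ y₁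
    have e4 : 2 * (b * f (W *ᵥ x₁) y₁) = 0 := by
      rw [e3]
      linear_combination e1
    have e5 := (mul_eq_zero.1 e4).resolve_left h2
    exact (mul_eq_zero.1 e5).resolve_right hxy₁
  rw [hb0, zero_smul, add_zero] at hdb
  have hsq : ∀ s : F, s ^ 2 ≠ d := by
    intro s hs
    set A : Matrix (Fin m ⊕ Fin m) (Fin m ⊕ Fin m) F := W - s • 1 with hA
    set B : Matrix (Fin m ⊕ Fin m) (Fin m ⊕ Fin m) F := W + s • 1 with hB
    have hAK : A ∈ K := K.sub_mem hW (K.smul_mem K.one_mem _)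
    have hBK : B ∈ K := K.add_mem hW (K.smul_mem K.one_mem _)
    have hAB : A * B = 0 := by
      rw [hA, hB]
      simp only [Matrix.sub_mul, Matrix.mul_add, Matrix.mul_smul, Matrix.smul_mul, Matrix.mul_one, Matrix.one_mul, hdb, ← hs]
      module
    have hA0 : A ≠ 0 := fun h => hns s (sub_eq_zero.1 h)
    have hB0 : B ≠ 0 := fun h => hns (-s) (by rw [neg_smul]; exact eq_neg_of_add_eq_zero_left h)
    obtain ⟨y, hy, hy'⟩ := hK.inv A hAK hA0
    apply hB0
    have := congrArg (fun x => y * x) hAB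
    simp only [Matrix.mul_zero, ← Matrix.mul_assoc] at this
    rwa [hK.comm y hy A hAK, hy', Matrix.one_mul] at this
  set w := Matrix.mulVecLin W with hw
  have hwa : ∀ v, W *ᵥ v = w v := fun v => rfl
  have hww : ∀ x, w (w x) = d • x := by
    intro x
    rw [← hwa, ← hwa, Matrix.mulVec_mulVec, hdb, Matrix.smul_mulVec, Matrix.one_mulVec]
  obtain ⟨Q, hs⟩ := exists_SK (w := w) hf h2 hskew hww hsq
  have hKS := hs.ks
  have hform : ∀ g ∈ subalgebraNormalizer K, ∃ α β : F, ∀ v, g ⋆ w (g⁻¹ ⋆ v) = α • v + β • w v := by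
    intro g hg
    obtain ⟨a, b, hab⟩ := hspan _ ((hg W).1 hW)
    refine ⟨a, b, fun v => ?_⟩
    have := congrArg (fun m => m *ᵥ v) hab
    simp only [Matrix.add_mulVec, Matrix.smul_mulVec, Matrix.one_mulVec] at this
    rw [← Matrix.mulVec_mulVec, ← Matrix.mulVec_mulVec] at this
    exact this
  have hbase : ∀ {M : Subgroup (GL (Fin m ⊕ Fin m) F)}, subalgebraNormalizer K ⊓ spGL m F ≤ M → Base hs.nd w M := by
    intro M hM u l hu
    have hy : polar Q u (l • w u) = 0 := by rw [polar_sm_r, hKS.perp_w hu, mul_zero]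
    refine ⟨hu, hy, hM ⟨?_, sE_pres hs l hu hy⟩⟩
    refine mem_normalizer_of hW hspan (α := 0) (β := 1) one_ne_zero (fun v => ?_)
    rw [hwa, sE_comm_w hKS l hu hy, mulVec_inv_GL, zero_smul, zero_add, one_smul]
    rfl
  refine ⟨?_, fun M hHM hMO => ?_⟩
  · refine SetLike.lt_iff_le_and_exists.2 ⟨inf_le_right, ?_⟩
    have ha : (Function.const _ 1 : Fin m ⊕ Fin m → F) ≠ 0 := by
      intro h
      have := congrFun h (Sum.inl ⟨0, by omega⟩)
      simp at this
    refine ⟨tvS hf (Function.const _ 1) 1, tvS_pres hf _ _, fun hmem => ?_⟩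
    obtain ⟨α, β, h⟩ := hform _ hmem.1
    exact tv_not_normal h14 hs ha h
  · by_cases hle : M ≤ subalgebraNormalizer K ⊓ spGL m F
    · exact Or.inl (le_antisymm hle hHM)
    right
    refine le_antisymm hMO ?_
    obtain ⟨g, hgM, hgH⟩ := SetLike.not_le_iff_exists.1 hle
    have hgO := hMO hgM
    by_contra hcon
    have hall : ∀ u, Q u = 0 → g ⋆ w u ∈ KL w (g ⋆ u) := by
      intro u hu
      by_contra h
      exact hcon (spGL_le M (fun a c => tv_all h14 hs (hbase hHM) hMO hgM hu h a c))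
    set L : (Fin m ⊕ Fin m → F) →ₗ[F] (Fin m ⊕ Fin m → F) :=
      Matrix.mulVecLin ((g⁻¹ : GL (Fin m ⊕ Fin m) F) : Matrix (Fin m ⊕ Fin m) (Fin m ⊕ Fin m) F) ∘ₗ w ∘ₗ
        Matrix.mulVecLin (g : Matrix (Fin m ⊕ Fin m) (Fin m ⊕ Fin m) F) with hL
    have hLa : ∀ v, L v = g⁻¹ ⋆ w (g ⋆ v) := fun v => rfl
    obtain ⟨α, β, hαβ⟩ := scalar_of_KL h14 hKS hs.nd L (fun z hz => by
      by_cases hz0 : z = 0
      · rw [hz0, map_zero]
        exact Submodule.zero_mem _
      obtain ⟨a, b, hab⟩ := mem_KL.1 (hall z hz)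
      have e1 : a • z + b • L z = w z := by
        have := congrArg (fun x => g⁻¹ ⋆ x) hab
        simp only [inv_mulVec_GL, Matrix.mulVec_add, Matrix.mulVec_smul] at this
        exact this
      have hb : b ≠ 0 := by
        rintro rfl
        apply hz0
        refine KL_eq_zero hKS (a := a) (b := -1) ?_ (Or.inr (neg_ne_zero.2 one_ne_zero))
        rw [← e1]
        module
      have e2 : L z = b⁻¹ • (w z - a • z) := by
        rw [← e1, add_sub_cancel_left, smul_smul, inv_mul_cancel₀ hb, one_smul]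
      rw [e2]
      exact Submodule.smul_mem _ _ (Submodule.sub_mem _ (w_mem_KL _) (Submodule.smul_mem _ _ (self_mem_KL _))))
    have hβ : β ≠ 0 := by
      rintro rfl
      apply hns α
      apply Matrix.toLin'.injective
      refine LinearMap.ext fun v => ?_
      simp only [Matrix.toLin'_apply, Matrix.smul_mulVec, Matrix.one_mulVec]
      have h1 := hαβ (g⁻¹ ⋆ v)
      rw [hLa, mulVec_inv_GL, zero_smul, add_zero] at h1
      have h3 := congrArg (fun x => g ⋆ x) h1
      simp only [mulVec_inv_GL, Matrix.mulVec_smul] at h3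
      exact h3
    apply hgH
    refine ⟨?_, hgO⟩
    have h3 : g⁻¹ ∈ subalgebraNormalizer K := by
      refine mem_normalizer_of hW hspan (α := α) hβ (fun v => ?_)
      rw [inv_inv]
      exact hαβ v
    simpa using (subalgebraNormalizer K).inv_mem h3

end Cfsg.Agent.S5665
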