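import Mathlib
import Cfsg.Statements.S5671
import Cfsg.Agent.Lib.TensorForm
import Cfsg.Agent.Lib.UWitt
-- import your own Cfsg.Agent.* helpers here

set_option autoImplicit false
open Cfsg

namespace Cfsg.Agent.S5671

open Matrix Cfsg Cfsg.Geo Module Cfsg.Agent.Lib.SympT Cfsg.Agent.Lib.TvGL Cfsg.Agent.Lib.UForm
  Cfsg.Agent.Lib.UTrans Cfsg.Agent.Lib.UWitt Cfsg.Agent.Lib.TensorForm
open Cfsg.Agent.H97.Asch (herm_unitary hermSigma hermSigma_apply)
open scoped Kronecker

local notation:70 g:71 " ⋆ " x:70 => Matrix.mulVec (Units.val g) x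

section Aux

variable {F : Type*} [Field F] [Fintype F] {κ : Type} [Fintype κ] [DecidableEq κ]

theorem toUnitary (hF2 : Fintype.card F = 2 ^ 2) {f : (κ → F) → (κ → F) → F} (h : IsUnitaryFormPow 2 f) :
    IsUnitaryForm (hermSigma hF2) f where
  ne_refl := (herm_unitary (n := 1) hF2).ne_refl
  involutive := (herm_unitary (n := 1) hF2).involutive
  add_left := h.add_left
  smul_left := h.smul_left
  herm := h.herm
  nondegenerate := h.nondegenerate

theorem gram_two (hF2 : Fintype.card F = 2 ^ 2) {f : (κ → F) → (κ → F) → F} (h : IsUnitaryFormPow 2 f)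
    (x y : κ → F) : f x y = formOfGram (fun x : F => x ^ 2) (gramMatrix f) x y := by
  classical
  have hU := toUnitary hF2 h
  refine gram_of_left _ f h.add_left h.smul_left ?_ x y
  intro z a
  have hs : ∀ (s : Finset κ) (u : κ → κ → F), f (Pi.single a 1) (∑ b ∈ s, u b) = ∑ b ∈ s, f (Pi.single a 1) (u b) := by
    intro s u
    induction s using Finset.induction_on with
    | empty => simp [f_zero_right hU]
    | insert b s hb ih => rw [Finset.sum_insert hb, Finset.sum_insert hb, f_add_right hU, ih]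
  have hz : z = ∑ b, z b • (Pi.single b 1 : κ → F) := by
    ext j
    simp [Finset.sum_apply, Pi.single_apply]
  conv_lhs => rw [hz]
  rw [hs]
  refine Finset.sum_congr rfl (fun b _ => ?_)
  rw [f_smul_right hU, hermSigma_apply]
  ring

/-- The orthonormal frame of a two-dimensional Hermitian space. -/
theorem exists_frame (hF2 : Fintype.card F = 2 ^ 2) {f : (Fin 2 → F) → (Fin 2 → F) → F}
    (h : IsUnitaryFormPow 2 f) :
    ∃ u₁ u₂ : Fin 2 → F, f u₁ u₁ = 1 ∧ f u₂ u₂ = 1 ∧ f u₁ u₂ = 0 ∧ ∀ u, ∃ α β : F, u = α • u₁ + β • u₂ := by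
  classical
  have hU := toUnitary hF2 h
  have hfix : ∀ x : F, x ≠ 0 → hermSigma hF2 x = x → x = 1 := by
    intro x hx h2
    rw [hermSigma_apply, pow_two] at h2
    exact mul_left_cancel₀ hx (by rw [h2, mul_one])
  obtain ⟨y, -, hy⟩ := exists_noniso hU (⊤ : Submodule F (Fin 2 → F)) (by
    rw [finrank_top, Module.finrank_fintype_fun_eq_card]
    simp)
  have hy1 : f y y = 1 := hfix _ hy (Q_fixed hU y)
  have hy0 : y ≠ 0 := by
    rintro rfl
    exact hy (f_zero_left hU 0)
  set U := perpU hU (Submodule.span F {y}) with hUdef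
  have hUf : finrank F U = 1 := by
    have h1 : finrank F U = Fintype.card (Fin 2) - finrank F (Submodule.span F {y}) := finrank_perpU hU _
    rw [finrank_span_singleton hy0] at h1
    simpa using h1
  obtain ⟨⟨z, hzU⟩, hz0⟩ : ∃ z : U, z ≠ 0 := by
    have : 0 < finrank F U := by omega
    have := Module.finrank_pos_iff_exists_ne_zero.1 this
    exact this
  have hz0' : z ≠ 0 := fun h => hz0 (Subtype.ext h)
  have hyz : f y z = 0 := hzU y (Submodule.mem_span_singleton_self y)
  have hzy : f z y = 0 := f_swap_zero hU hyz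
  have hall : ∀ v, f y v = 0 → ∃ β : F, v = β • z := by
    intro v hv
    have hvU : v ∈ U := by
      intro t ht
      obtain ⟨a, rfl⟩ := Submodule.mem_span_singleton.1 ht
      rw [hU.smul_left, hv, mul_zero]
    obtain ⟨β, hβ⟩ := (finrank_eq_one_iff_of_nonzero' (⟨z, hzU⟩ : U) hz0).1 hUf ⟨v, hvU⟩
    refine ⟨β, ?_⟩
    have := congrArg Subtype.val hβ
    exact this.symm
  have hdec : ∀ u, ∃ α β : F, u = α • y + β • z := by
    intro u
    have h1 : f y (u - hermSigma hF2 (f y u) • y) = 0 := by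
      rw [f_sub_right hU, f_smul_right hU, hU.involutive, hy1]
      ring
    obtain ⟨β, hβ⟩ := hall _ h1
    refine ⟨hermSigma hF2 (f y u), β, ?_⟩
    rw [← hβ]
    abel
  have hzz : f z z ≠ 0 := by
    intro h0
    obtain ⟨x, hx⟩ := (hU.nondegenerate z hz0').1
    apply hx
    obtain ⟨α, β, rfl⟩ := hdec x
    rw [hU.add_left, hU.smul_left, hU.smul_left, hyz, h0]
    ring
  exact ⟨y, z, hy1, hfix _ hzz (Q_fixed hU z), hyz, hdec⟩

end Aux



/-- Let F be the field with 4 elements (q = 2) and n = 2 n₂ ≥ 13. Suppose the standard unitary form Σ u_i v_i² on F^n is similar, through P and e, to the tensor product of non-degenerate unitary forms f₁ on F^2 and f₂ on F^(n₂). Then the elements of SU_n(2) in the stabiliser of this tensor decomposition form a subgroup that is not maximal: some subgroup lies strictly between it and SU_n(2). -/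
theorem result {F : Type*} [Field F] [Fintype F] (n : ℕ) (hF : Fintype.card F = 4) (hn : 13 ≤ n) (n₂ : ℕ) (e : Fin n ≃ Fin 2 × Fin n₂) (P : Matrix.GeneralLinearGroup (Fin n) F) (f₁ : (Fin 2 → F) → (Fin 2 → F) → F) (f₂ : (Fin n₂ → F) → (Fin n₂ → F) → F) (hf₁ : Cfsg.Geo.IsUnitaryFormPow 2 f₁) (hf₂ : Cfsg.Geo.IsUnitaryFormPow 2 f₂) (hT : Cfsg.Geo.IsTensorFormStructure (fun x : F => x ^ 2) (Cfsg.hermForm n F 2) f₁ f₂ e P) : ∃ K : Subgroup (Matrix.GeneralLinearGroup (Fin n) F), Cfsg.Geo.tensorProductSubgroup 2 n₂ e P ⊓ (Cfsg.GU n F 2 ⊓ Cfsg.Geo.specialLinear (Fin n) F) < K ∧ K < (Cfsg.GU n F 2 ⊓ Cfsg.Geo.specialLinear (Fin n) F) := by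
  classical
  have hF2 : Fintype.card F = 2 ^ 2 := by
    rw [hF]
    norm_num
  have hf := herm_unitary (n := n) hF2
  set f := hermForm n F 2 with hfdef
  set G := GU n F 2 ⊓ specialLinear (Fin n) F with hG
  have h4 : (4 : F) = 0 := by
    have := FiniteField.cast_card_eq_zero F
    rw [hF] at this
    exact_mod_cast this
  have h2F : (2 : F) = 0 := by
    have h3 : (2 : F) * 2 = 0 := by
      rw [← h4]
      norm_num
    exact mul_self_eq_zero.1 h3
  have h11 : (1 : F) + 1 = 0 := by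
    rw [one_add_one_eq_two, h2F]
  have hN : ∀ α : F, α ≠ 0 → α * hermSigma hF2 α = 1 := by
    intro α hα
    rw [hermSigma_apply]
    have := FiniteField.pow_card_sub_one_eq_one α hα
    rw [hF] at this
    rw [← this]
    ring
  have hsig1 : hermSigma hF2 (1 : F) = 1 := map_one _
  have htr : (1 : F) + hermSigma hF2 (1 : F) = 0 := by
    rw [hsig1, h11]
  have hU₁ := toUnitary hF2 hf₁
  have hU₂ := toUnitary hF2 hf₂
  obtain ⟨c, hc, hform⟩ := form_tn e P (fun x : F => x ^ 2) (fun a b => mul_pow a b 2)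
    (gram_two hF2 hf₁) (gram_two hF2 hf₂) hT
  obtain ⟨u₁, u₂, hu₁, hu₂, hu₁₂, hdec⟩ := exists_frame hF2 hf₁
  have hu₂₁ : f₁ u₂ u₁ = 0 := f_swap_zero hU₁ hu₁₂
  have hcard : n = 2 * n₂ := by
    have := Fintype.card_congr e
    simpa using this
  have hcn : Fintype.card (Fin n₂) = n₂ := Fintype.card_fin n₂
  obtain ⟨w, -, hw⟩ := prescribed hU₂ (∅ : Finset (Fin n₂ → F)) 0 1 hsig1 (by
    rw [hcn]
    simp
    omega)
  obtain ⟨w', hw'C, hw'⟩ := prescribed hU₂ ({w} : Finset (Fin n₂ → F)) 0 1 hsig1 (by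
    rw [hcn]
    simp
    omega)
  have hw'w : f₂ w' w = 0 := by
    rw [hw'C w (by simp), f_zero_left hU₂]
  have hww' : f₂ w w' = 0 := f_swap_zero hU₂ hw'w
  set dd : (Fin 2 → F) → (Fin n₂ → F) → (Fin n → F) := fun u x => psi e P (tn u x) with hdd
  have hdd_form : ∀ u x u' x', f (dd u x) (dd u' x') = c * (f₁ u u' * f₂ x x') := hform
  have hdd_addr : ∀ u x y, dd u (x + y) = dd u x + dd u y := by
    intro u x y
    simp only [hdd]
    rw [tn_add_right, psi_add]
  have hdd_addl : ∀ u v x, dd (u + v) x = dd u x + dd v x := by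
    intro u v x
    simp only [hdd]
    rw [tn_add_left, psi_add]
  have hdd_smulr : ∀ (a : F) u x, dd u (a • x) = a • dd u x := by
    intro a u x
    simp only [hdd]
    rw [tn_smul_right, psi_smul]
  have hdd_smull : ∀ (a : F) u x, dd (a • u) x = a • dd u x := by
    intro a u x
    simp only [hdd]
    rw [tn_smul_left, psi_smul]
  have hdd_inj : ∀ {u x u' x'}, dd u x = dd u' x' → tn u x = tn u' x' := by
    intro u x u' x' h
    exact psi_inj e P h
  set X : Set (Fin n → F) := {v | ∃ u x, v = dd u x ∧ f₁ u u ≠ 0} with hX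
  have hXchar : ∀ v ∈ X, (∃ x, v = dd u₁ x) ∨ (∃ x, v = dd u₂ x) := by
    rintro v ⟨u, x, rfl, hn⟩
    obtain ⟨α, β, rfl⟩ := hdec u
    have h3 : f₁ (α • u₁ + β • u₂) (α • u₁ + β • u₂) = α * hermSigma hF2 α + β * hermSigma hF2 β := by
      rw [hU₁.add_left, f_add_right hU₁, f_add_right hU₁, hU₁.smul_left, hU₁.smul_left, f_smul_right hU₁,
        f_smul_right hU₁, f_smul_right hU₁, f_smul_right hU₁, hU₁.smul_left, hU₁.smul_left, hu₁, hu₂, hu₁₂, hu₂₁]
      ring
    rw [h3] at hn
    by_cases hα : α = 0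
    · right
      refine ⟨β • x, ?_⟩
      rw [hα, zero_smul, zero_add, hdd_smull, hdd_smulr]
    · by_cases hβ : β = 0
      · left
        refine ⟨α • x, ?_⟩
        rw [hβ, zero_smul, add_zero, hdd_smull, hdd_smulr]
      · exfalso
        apply hn
        rw [hN α hα, hN β hβ, h11]
  have hX₁ : ∀ x, dd u₁ x ∈ X := fun x => ⟨u₁, x, rfl, by rw [hu₁]; exact one_ne_zero⟩
  have hX₂ : ∀ x, dd u₂ x ∈ X := fun x => ⟨u₂, x, rfl, by rw [hu₂]; exact one_ne_zero⟩
  -- the stabiliser of the tensor decomposition preserves `X`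
  have hstep : ∀ g ∈ tensorProductSubgroup 2 n₂ e P ⊓ G, ∀ v ∈ X, g ⋆ v ∈ X := by
    rintro g ⟨hg1, hg2⟩ v ⟨u, x, rfl, hn⟩
    obtain ⟨a, b, hab⟩ := mem_tensor_tn e P hg1
    have hact : ∀ u x, g ⋆ dd u x = dd ((a : Matrix _ _ F) *ᵥ u) ((b : Matrix _ _ F) *ᵥ x) := fun u x => hab u x
    refine ⟨_, _, hact u x, ?_⟩
    intro h0
    have h3 : f (g ⋆ dd u w) (g ⋆ dd u w) = f (dd u w) (dd u w) := pres_apply hg2.1 (dd u w) (dd u w)
    rw [hact, hdd_form, hdd_form, h0, hw] at h3
    apply hn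
    have h5 : c * f₁ u u = 0 := by
      linear_combination -h3
    exact (mul_eq_zero.1 h5).resolve_left hc
  have hle : tensorProductSubgroup 2 n₂ e P ⊓ G ≤ stabilizing (glToMat (Fin n) F) X ⊓ G := by
    intro g hg
    refine ⟨fun v => ⟨hstep g hg v, fun h3 => ?_⟩, hg.2⟩
    have h5 := hstep g⁻¹ ((tensorProductSubgroup 2 n₂ e P ⊓ G).inv_mem hg) _ h3
    rwa [show (g⁻¹ : GL (Fin n) F) ⋆ ((glToMat (Fin n) F g) *ᵥ v) = v from inv_mulVec_GL g v] at h5
  have hw₀ : f₂ (w + w') (w + w') = 0 := by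
    rw [hU₂.add_left, f_add_right hU₂, f_add_right hU₂, hw, hw', hww', hw'w]
    linear_combination h11
  refine ⟨stabilizing (glToMat (Fin n) F) X ⊓ G, ?_, ?_⟩
  · rw [SetLike.lt_iff_le_and_exists]
    refine ⟨hle, ?_⟩
    -- the transvection with centre in the second summand
    set v := dd u₂ (w + w') with hv
    have hvv : f v v = 0 := by
      rw [hv, hdd_form, hw₀, mul_zero, mul_zero]
    have h0 : f ((1 : F) • v) v = 0 := by
      rw [one_smul, hvv]
    set τ := tau hf ((1 : F) • v) v h0 with hτdef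
    have hτ : ∀ z, τ ⋆ z = z + f z v • v := by
      intro z
      rw [hτdef, tau_apply, one_smul]
    have hτG : τ ∈ G := tau_mem_K hF2 hvv htr h0
    have hinv : ∀ z, τ ⋆ (τ ⋆ z) = z := by
      intro z
      rw [hτ, hτ, hf.add_left, hf.smul_left, hvv, mul_zero, add_zero, add_assoc, ← add_smul, ← two_mul, h2F,
        zero_mul, zero_smul, add_zero]
    have hτ₁ : ∀ x, τ ⋆ dd u₁ x = dd u₁ x := by
      intro x
      rw [hτ, hv, hdd_form, hu₁₂, zero_mul, mul_zero, zero_smul, add_zero]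
    have hτ₂ : ∀ x, τ ⋆ dd u₂ x = dd u₂ (x + (c * f₂ x (w + w')) • (w + w')) := by
      intro x
      rw [hτ, hv, hdd_form, hu₂, one_mul, hdd_addr u₂ x, hdd_smulr]
    have hkey : ∀ z ∈ X, τ ⋆ z ∈ X := by
      intro z hz
      rcases hXchar z hz with ⟨x, rfl⟩ | ⟨x, rfl⟩
      · rw [hτ₁]
        exact hX₁ x
      · rw [hτ₂]
        exact hX₂ _
    refine ⟨τ, ⟨fun z => ⟨hkey z, fun h3 => ?_⟩, hτG⟩, ?_⟩
    · have h5 := hkey _ h3
      rwa [show τ ⋆ ((glToMat (Fin n) F τ) *ᵥ z) = z from hinv z] at h5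
    · rintro ⟨hτT, -⟩
      obtain ⟨a, b, hab⟩ := mem_tensor_tn e P hτT
      have hact : ∀ u x, τ ⋆ dd u x = dd ((a : Matrix _ _ F) *ᵥ u) ((b : Matrix _ _ F) *ᵥ x) := fun u x => hab u x
      have hu₁0 : u₁ ≠ 0 := by
        rintro rfl
        rw [f_zero_left hU₁] at hu₁
        exact zero_ne_one hu₁
      have hu₂0 : u₂ ≠ 0 := by
        rintro rfl
        rw [f_zero_left hU₁] at hu₂
        exact zero_ne_one hu₂
      have hw0 : w ≠ 0 := by
        rintro rfl
        rw [f_zero_left hU₂] at hw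
        exact zero_ne_one hw
      have h3 := hact u₁ w
      rw [hτ₁] at h3
      obtain ⟨l, hl0, -, hl⟩ := tn_eq hu₁0 hw0 (hdd_inj h3.symm)
      have h5 := hact u₂ w
      have hww0 : f₂ w (w + w') = 1 := by
        rw [f_add_right hU₂, hw, hww', add_zero]
      rw [hτ₂, hww0, mul_one] at h5
      have hne : w + c • (w + w') ≠ 0 := by
        intro h0'
        have h6 := congrArg (fun t => f₂ t w') h0'
        simp only [hU₂.add_left, hU₂.smul_left, hww', hw', f_zero_left hU₂] at h6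
        apply hc
        linear_combination h6
      obtain ⟨l', hl'0, -, hl'⟩ := tn_eq hu₂0 hne (hdd_inj h5.symm)
      have hbw : (b : Matrix _ _ F) *ᵥ w = l⁻¹ • w := by
        have h7 := congrArg (fun t => l⁻¹ • t) hl
        simp only [smul_smul, inv_mul_cancel₀ hl0, one_smul] at h7
        exact h7
      rw [hbw, smul_smul] at hl'
      have h6 := congrArg (fun t => f₂ t w') hl'
      simp only [hU₂.add_left, hU₂.smul_left, hww', hw', mul_zero] at h6
      apply hc
      linear_combination -h6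
  · refine lt_of_le_of_ne inf_le_right ?_
    intro he
    set v := dd (u₁ + u₂) w with hv
    have hu12 : f₁ (u₁ + u₂) (u₁ + u₂) = 0 := by
      rw [hU₁.add_left, f_add_right hU₁, f_add_right hU₁, hu₁, hu₂, hu₁₂, hu₂₁]
      linear_combination h11
    have hvv : f v v = 0 := by
      rw [hv, hdd_form, hu12, zero_mul, mul_zero]
    have h0 : f ((1 : F) • v) v = 0 := by
      rw [one_smul, hvv]
    set τ := tau hf ((1 : F) • v) v h0 with hτdef
    have hτ : ∀ z, τ ⋆ z = z + f z v • v := by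
      intro z
      rw [hτdef, tau_apply, one_smul]
    have hτG : τ ∈ G := tau_mem_K hF2 hvv htr h0
    rw [← he] at hτG
    have h3 : τ ⋆ dd u₁ (w + w') ∈ X := (hτG.1 _).1 (hX₁ _)
    have h5 : f (dd u₁ (w + w')) v = c := by
      rw [hv, hdd_form, f_add_right hU₁, hu₁, hu₁₂, hU₂.add_left, hw, hw'w]
      ring
    have h6 : τ ⋆ dd u₁ (w + w') = dd u₁ (w + w' + c • w) + dd u₂ (c • w) := by
      rw [hτ, h5, hv, hdd_addl, hdd_addr u₁ (w + w'), smul_add, hdd_smulr, hdd_smulr]
      abel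
    rw [h6] at h3
    rcases hXchar _ h3 with ⟨y, hy⟩ | ⟨y, hy⟩
    · have h7 := congrArg (fun t => f t (dd u₂ w)) hy
      simp only [hf.add_left, hdd_form, hu₁₂, hu₂, zero_mul, mul_zero, zero_add, one_mul, hU₂.smul_left, hw] at h7
      apply hc
      have h8 : c * c = 0 := by
        linear_combination h7
      exact mul_self_eq_zero.1 h8
    · have h7 := congrArg (fun t => f t (dd u₁ w')) hy
      simp only [hf.add_left, hdd_form, hu₂₁, hu₁, zero_mul, mul_zero, add_zero, one_mul, hU₂.add_left,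
        hU₂.smul_left, hww', hw'] at h7
      apply hc
      linear_combination h7

end Cfsg.Agent.S5671
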