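import Mathlib
import Cfsg.Statements.S5674
import Cfsg.Agent.Lib.OmTS
import Cfsg.Agent.Lib.H97Ort4

set_option autoImplicit false
open Cfsg

namespace Cfsg.Agent.S5674

open Matrix QuadraticMap Cfsg.Geo Module Cfsg.Agent.Lib.OrthoBasic Cfsg.Agent.Lib.OmCalc Cfsg.Agent.Lib.OmTS

/-- Let F be a finite field of odd order, m ≥ 6, Q the standard quadratic form x₀² + Σ x_i y_i on F^(2m+1) and Ω the commutator subgroup of its isometry group inside GL_(2m+1)(F). The elements of Ω stabilising a non-zero subspace on which Q vanishes form a maximal subgroup of Ω. -/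
theorem result {F : Type*} [Field F] [Fintype F] (hodd : Odd (Fintype.card F)) (m : ℕ) (hm : 6 ≤ m) (W : Submodule F (Unit ⊕ (Fin m ⊕ Fin m) → F)) (hW0 : W ≠ ⊥) (hW : Cfsg.Geo.IsTotallySingularQuad (Cfsg.quadFormOdd m F) W) : Cfsg.Geo.IsMaximalIn (Cfsg.Geo.omegaGL (Cfsg.quadFormOdd m F)) (Cfsg.Geo.subspaceStabilizer W ⊓ Cfsg.Geo.omegaGL (Cfsg.quadFormOdd m F)) := by
  classical
  have h2 := Cfsg.Agent.H97.Asch.two_ne_of_odd_card hodd
  have hQ := Cfsg.Agent.H97.Asch.qOdd_nondeg (m := m) h2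
  have hf : ⇑(Cfsg.Agent.Lib.OrthoCount.qOdd m F) = Cfsg.quadFormOdd m F := funext (Cfsg.Agent.Lib.OrthoCount.qOdd_apply m)
  rw [← hf] at hW ⊢
  have hc : Fintype.card (Unit ⊕ (Fin m ⊕ Fin m)) = 2 * m + 1 := by simp; omega
  exact ts_maximal (nondeg_of hQ) (by omega) hW0 hW (fun _ _ _ _ => by rw [hc]; omega)

end Cfsg.Agent.S5674
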