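import Mathlib
import Cfsg.Statements.S5675
import Cfsg.Agent.Lib.OmStab
import Cfsg.Agent.Lib.H97Ort4

set_option autoImplicit false
open Cfsg

namespace Cfsg.Agent.S5675


open Matrix QuadraticMap Cfsg.Geo Module Cfsg.Agent.Lib.OrthoBasic Cfsg.Agent.Lib.OmCalc Cfsg.Agent.Lib.OmPerp Cfsg.Agent.Lib.OmNd Cfsg.Agent.Lib.OmK Cfsg.Agent.Lib.OmStab


/-- Let F be a finite field of odd order q, m ≥ 6, Q the standard quadratic form on F^(2m+1) and Ω the commutator subgroup of its isometry group. Let W be a non-zero subspace of even dimension on which the polar form of Q is non-degenerate; exclude the case q = 3, dim W = 2 with Q vanishing on some line of W (a plus-type plane). Then the elements of Ω stabilising W (equivalently, stabilising its orthogonal complement, of odd dimension) form a maximal subgroup of Ω. -/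
theorem result {F : Type*} [Field F] [Fintype F] (hodd : Odd (Fintype.card F)) (m : ℕ) (hm : 6 ≤ m) (W : Submodule F (Unit ⊕ (Fin m ⊕ Fin m) → F)) (hW0 : W ≠ ⊥) (hev : Even (Module.finrank F W)) (hW : Cfsg.Geo.IsNondegenerateOn (QuadraticMap.polar (Cfsg.quadFormOdd m F)) W) (hex : ¬ (Fintype.card F = 3 ∧ Module.finrank F W = 2 ∧ Cfsg.Geo.IsPlusTypeOn (Cfsg.quadFormOdd m F) W)) : Cfsg.Geo.IsMaximalIn (Cfsg.Geo.omegaGL (Cfsg.quadFormOdd m F)) (Cfsg.Geo.subspaceStabilizer W ⊓ Cfsg.Geo.omegaGL (Cfsg.quadFormOdd m F)) := by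
  classical
  have h2 := Cfsg.Agent.H97.Asch.two_ne_of_odd_card hodd
  have hQ := Cfsg.Agent.H97.Asch.qOdd_nondeg (m := m) h2
  have hf : ⇑(Cfsg.Agent.Lib.OrthoCount.qOdd m F) = Cfsg.quadFormOdd m F := funext (Cfsg.Agent.Lib.OrthoCount.qOdd_apply m)
  rw [← hf] at hW hex ⊢
  have hc : Fintype.card (Unit ⊕ (Fin m ⊕ Fin m)) = 2 * m + 1 := by simp; omega
  have hQ' := nondeg_of hQ
  have hW1 : W ≠ ⊤ := by
    rintro rfl
    rw [finrank_top, Module.finrank_fintype_fun_eq_card, hc] at hev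
    exact (Nat.not_even_iff_odd.2 ⟨m, rfl⟩) hev
  obtain ⟨k, hk⟩ := hev
  have hN' : ∀ x ∈ W, (∀ y ∈ W, polar (Cfsg.Agent.Lib.OrthoCount.qOdd m F) x y = 0) → x = 0 := by
    intro x hx h
    by_contra hx0
    obtain ⟨y, hy, hy'⟩ := (hW x hx hx0).2
    exact hy' (h y hy)
  have hp0 := opair_of_nondeg hQ' hN'
  have hf' := finrank_perpQ hQ' W
  have hft : finrank F W < Fintype.card (Unit ⊕ (Fin m ⊕ Fin m)) := by
    have := Submodule.finrank_lt hW1
    rwa [Module.finrank_fintype_fun_eq_card] at this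
  rw [hc] at hf' hft
  refine maximal_of_nd hQ' (by omega) hW0 hW1 hW (by rw [hc]; omega) ?_
  intro P' hP' h3 h4 ⟨s, hs, hs0, hQs⟩
  rcases hP' with rfl | rfl
  · apply hex
    refine ⟨?_, h3, (plane_plus hQ' hp0 h3 hs hs0 hQs).2⟩
    have h5 : 1 < Fintype.card F := Fintype.one_lt_card
    have h6 : Fintype.card F ≠ 2 := by
      intro h
      rw [h] at hodd
      exact (by decide : ¬ Odd 2) hodd
    omega
  · omega

end Cfsg.Agent.S5675
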