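import Mathlib
import Cfsg.Statements.S5676
import Cfsg.Agent.Lib.OmNotMax
import Cfsg.Agent.Lib.H97Ort4
-- import your own Cfsg.Agent.* helpers here

set_option autoImplicit false
open Cfsg

namespace Cfsg.Agent.S5676

/-- Let F be the field with 3 elements, m ≥ 6, Q the standard quadratic form on F^(2m+1) and Ω the commutator subgroup of its isometry group. Let W be a 2-dimensional subspace on which the polar form is non-degenerate and which contains a line on which Q vanishes. Then the elements of Ω stabilising W form a subgroup that is not maximal: some subgroup lies strictly between it and Ω. -/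
theorem result {F : Type*} [Field F] [Fintype F] (hq : Fintype.card F = 3) (m : ℕ) (hm : 6 ≤ m) (W : Submodule F (Unit ⊕ (Fin m ⊕ Fin m) → F)) (hdim : Module.finrank F W = 2) (hW : Cfsg.Geo.IsNondegenerateOn (QuadraticMap.polar (Cfsg.quadFormOdd m F)) W) (hplus : Cfsg.Geo.IsPlusTypeOn (Cfsg.quadFormOdd m F) W) : ∃ K : Subgroup (Matrix.GeneralLinearGroup (Unit ⊕ (Fin m ⊕ Fin m)) F), Cfsg.Geo.subspaceStabilizer W ⊓ Cfsg.Geo.omegaGL (Cfsg.quadFormOdd m F) < K ∧ K < Cfsg.Geo.omegaGL (Cfsg.quadFormOdd m F) := by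
  classical
  have hodd : Odd (Fintype.card F) := by
    rw [hq]
    decide
  have h2 := Cfsg.Agent.H97.Asch.two_ne_of_odd_card hodd
  have hQ := Cfsg.Agent.H97.Asch.qOdd_nondeg (m := m) h2
  have hf : ⇑(Cfsg.Agent.Lib.OrthoCount.qOdd m F) = Cfsg.quadFormOdd m F := funext (Cfsg.Agent.Lib.OrthoCount.qOdd_apply m)
  rw [← hf] at hW hplus ⊢
  have hc : Fintype.card (Unit ⊕ (Fin m ⊕ Fin m)) = 2 * m + 1 := by simp; omega
  exact Cfsg.Agent.Lib.OmNotMax.plus_plane (Cfsg.Agent.Lib.OmCalc.nondeg_of hQ) (by omega) (by omega) hdim hW hplus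

end Cfsg.Agent.S5676
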