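import Mathlib
import Cfsg.Statements.S5677
import Cfsg.Agent.Lib.OmBlk5
import Cfsg.Agent.Lib.H97Ort4

set_option autoImplicit false
open Cfsg

namespace Cfsg.Agent.S5677

open Matrix QuadraticMap Cfsg.Geo Module Cfsg.Agent.Lib.OrthoBasic Cfsg.Agent.Lib.OmCalc Cfsg.Agent.Lib.OmBlk5

/-- Let F be a finite field of odd order q, m ≥ 6, Q the standard quadratic form on F^(2m+1) and Ω the commutator subgroup of its isometry group. Let D be a decomposition of F^(2m+1) into t ≥ 2 pairwise orthogonal, pairwise Q-isometric subspaces of equal dimension k > 1 on which the polar form is non-degenerate. Unless q = 3 and k = 3, the elements of Ω permuting the members of D form a maximal subgroup of Ω. -/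
theorem result {F : Type*} [Field F] [Fintype F] (hodd : Odd (Fintype.card F)) (m : ℕ) (hm : 6 ≤ m) {t : ℕ} (k : ℕ) (hk : 1 < k) (D : Fin t → Submodule F (Unit ⊕ (Fin m ⊕ Fin m) → F)) (hD : Cfsg.Geo.IsOrthogonalMDecomposition (Cfsg.quadFormOdd m F) k D) (hex : ¬ (Fintype.card F = 3 ∧ k = 3)) : Cfsg.Geo.IsMaximalIn (Cfsg.Geo.omegaGL (Cfsg.quadFormOdd m F)) (Cfsg.Geo.decompositionStabilizer D ⊓ Cfsg.Geo.omegaGL (Cfsg.quadFormOdd m F)) := by
  classical
  have h2 := Cfsg.Agent.H97.Asch.two_ne_of_odd_card hodd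
  have hQ := Cfsg.Agent.H97.Asch.qOdd_nondeg (m := m) h2
  have hf : ⇑(Cfsg.Agent.Lib.OrthoCount.qOdd m F) = Cfsg.quadFormOdd m F := funext (Cfsg.Agent.Lib.OrthoCount.qOdd_apply m)
  rw [← hf] at hD ⊢
  have hc : Fintype.card (Unit ⊕ (Fin m ⊕ Fin m)) = 2 * m + 1 := by simp; omega
  exact blocks_maximal (nondeg_of hQ) (by rw [hc]; omega) hodd h2 (by rw [hc]; exact ⟨m, rfl⟩) hk hD hex

end Cfsg.Agent.S5677
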