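import Mathlib
import Cfsg.Statements.S5678
import Cfsg.Agent.Lib.OmFrame
import Cfsg.Agent.Lib.H97Ort4
import Cfsg.Agent.Lib.DecompWt
-- import your own Cfsg.Agent.* helpers here

set_option autoImplicit false
open Cfsg

namespace Cfsg.Agent.S5678

/-- Let F be the field with 3 elements, m ≥ 6, Q the standard quadratic form on F^(2m+1) and Ω the commutator subgroup of its isometry group. Let D be a decomposition of F^(2m+1) into t pairwise orthogonal, pairwise Q-isometric 3-dimensional subspaces on which the polar form is non-degenerate. Then the elements of Ω permuting the members of D form a subgroup that is not maximal: some subgroup lies strictly between it and Ω. -/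
theorem result {F : Type*} [Field F] [Fintype F] (hq : Fintype.card F = 3) (m : ℕ) (hm : 6 ≤ m) {t : ℕ} (D : Fin t → Submodule F (Unit ⊕ (Fin m ⊕ Fin m) → F)) (hD : Cfsg.Geo.IsOrthogonalMDecomposition (Cfsg.quadFormOdd m F) 3 D) : ∃ K : Subgroup (Matrix.GeneralLinearGroup (Unit ⊕ (Fin m ⊕ Fin m)) F), Cfsg.Geo.decompositionStabilizer D ⊓ Cfsg.Geo.omegaGL (Cfsg.quadFormOdd m F) < K ∧ K < Cfsg.Geo.omegaGL (Cfsg.quadFormOdd m F) := by
  classical
  have hodd : Odd (Fintype.card F) := by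
    rw [hq]
    decide
  have h2 := Cfsg.Agent.H97.Asch.two_ne_of_odd_card hodd
  have hQ := Cfsg.Agent.H97.Asch.qOdd_nondeg (m := m) h2
  have hf : ⇑(Cfsg.Agent.Lib.OrthoCount.qOdd m F) = Cfsg.quadFormOdd m F := funext (Cfsg.Agent.Lib.OrthoCount.qOdd_apply m)
  rw [← hf] at hD ⊢
  have hc : Fintype.card (Unit ⊕ (Fin m ⊕ Fin m)) = 2 * m + 1 := by simp; omega
  have ht2 := hD.decomp.decomp.two_le
  obtain ⟨B, -⟩ := Cfsg.Agent.Lib.DecompWt.exists_basis hD.decomp.decomp
  have hcard := Cfsg.Agent.Lib.DecompWt.card_eq B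
  rw [hc] at hcard
  obtain ⟨ε, hε, hB⟩ := Cfsg.Agent.Lib.OmFrame.blk_three₃ (Q := Cfsg.Agent.Lib.OrthoCount.qOdd m F) hq (hD.decomp.decomp.finrank_eq ⟨0, by omega⟩) (hD.decomp.nondegenerate _)
  exact Cfsg.Agent.Lib.OmFrame.frame_decomp (Cfsg.Agent.Lib.OmCalc.nondeg_of hQ) (by omega) h2 hD (by omega) hε hB

end Cfsg.Agent.S5678
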