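-- Statement S5679: the stabiliser of an orthogonal frame of lines over a prime field is maximal in Ω.
import Cfsg.Statements.S5679
import Cfsg.Agent.H28.FrG
import Cfsg.Agent.Lib.H97Ort4

set_option autoImplicit false
open Cfsg

namespace Cfsg.Agent.S5679

open Matrix QuadraticMap Cfsg.Geo Module Cfsg.Agent.Lib.OrthoBasic Cfsg.Agent.Lib.OmCalc Cfsg.Agent.Lib.OmBlk5

/-- Let F be a field of odd prime order p, m ≥ 6, Q the standard quadratic form on F^(2m+1) and Ω the commutator subgroup of its isometry group. Let D be a decomposition of F^(2m+1) into pairwise orthogonal lines on which Q takes non-zero values lying in one square class (pairwise Q-isometric non-degenerate 1-spaces). Then the elements of Ω permuting these lines form a maximal subgroup of Ω. -/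
theorem result {F : Type*} [Field F] [Fintype F] (hodd : Odd (Fintype.card F)) (m : ℕ) (hm : 6 ≤ m) (hprime : (Fintype.card F).Prime) {t : ℕ} (D : Fin t → Submodule F (Unit ⊕ (Fin m ⊕ Fin m) → F)) (hD : Cfsg.Geo.IsOrthogonalMDecomposition (Cfsg.quadFormOdd m F) 1 D) : Cfsg.Geo.IsMaximalIn (Cfsg.Geo.omegaGL (Cfsg.quadFormOdd m F)) (Cfsg.Geo.decompositionStabilizer D ⊓ Cfsg.Geo.omegaGL (Cfsg.quadFormOdd m F)) := by
  classical
  have h2 := Cfsg.Agent.H97.Asch.two_ne_of_odd_card hodd
  have hQ := Cfsg.Agent.H97.Asch.qOdd_nondeg (m := m) h2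
  have hf : ⇑(Cfsg.Agent.Lib.OrthoCount.qOdd m F) = Cfsg.quadFormOdd m F := funext (Cfsg.Agent.Lib.OrthoCount.qOdd_apply m)
  rw [← hf] at hD ⊢
  have hc : Fintype.card (Unit ⊕ (Fin m ⊕ Fin m)) = 2 * m + 1 := by simp; omega
  have ht : t * 1 = Fintype.card (Unit ⊕ (Fin m ⊕ Fin m)) := mul_card hD.decomp.decomp
  rw [hc, mul_one] at ht
  haveI : Fact (Fintype.card F).Prime := ⟨hprime⟩
  haveI : CharP F (Fintype.card F) := by
    obtain ⟨q, hq⟩ := CharP.exists F
    obtain ⟨n, hqp, hcard⟩ := FiniteField.card F q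
    have h1 : q = Fintype.card F := ((Nat.Prime.pow_eq_iff hprime).1 hcard.symm).1
    rwa [← h1]
  exact Cfsg.Agent.H28.FrG.frame_maximal (nondeg_of hQ) (by rw [hc]; omega) (by omega) (by rw [ht]; exact ⟨m, rfl⟩) rfl hodd h2 hD

end Cfsg.Agent.S5679
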