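import Mathlib
import Cfsg.Statements.S5687
import Cfsg.Agent.Lib.OmTS

set_option autoImplicit false
open Cfsg

namespace Cfsg.Agent.S5687

open Matrix QuadraticMap Cfsg.Geo Module Cfsg.Agent.Lib.OrthoBasic Cfsg.Agent.Lib.OmCalc Cfsg.Agent.Lib.OmTS

/-- Let F be a finite field with q elements, n ≥ 13 even, Q a non-degenerate quadratic form on F^n of minus type (no subspace of dimension n/2 is totally singular), and Ω the commutator subgroup of the isometry group of Q, viewed inside GL_n(F). The elements of Ω stabilising a non-zero subspace on which Q vanishes form a maximal subgroup of Ω. -/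
theorem result {F : Type*} [Field F] [Fintype F] {n : ℕ} (hn : 13 ≤ n) (heven : Even n) (Q : (Fin n → F) → F) (hQ : Cfsg.Geo.IsNondegenerateQuadraticForm Q) (hminus : ¬ Cfsg.Geo.IsPlusTypeOn Q ⊤) (W : Submodule F (Fin n → F)) (hW0 : W ≠ ⊥) (hW : Cfsg.Geo.IsTotallySingularQuad Q W) : Cfsg.Geo.IsMaximalIn (Cfsg.Geo.omegaGL Q) (Cfsg.Geo.subspaceStabilizer W ⊓ Cfsg.Geo.omegaGL Q) := by
  classical
  obtain ⟨Q', rfl⟩ := exists_toQF Q hQ
  have hc : Fintype.card (Fin n) = n := Fintype.card_fin n
  refine ts_maximal (nondeg_of hQ) (by omega) hW0 hW (fun u hu hperp hQu => ?_)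
  rw [hc]
  intro hdim
  apply hminus
  refine ⟨W ⊔ Submodule.span F {u}, le_top, ?_, ?_⟩
  · intro z hz
    obtain ⟨y', hy', z', hz', rfl⟩ := Submodule.mem_sup.1 hz
    obtain ⟨r, rfl⟩ := Submodule.mem_span_singleton.1 hz'
    rw [Cfsg.Agent.Lib.QuadFF.Q_ad, hW y' hy', Cfsg.Agent.Lib.QuadFF.Q_sm, hQu, Cfsg.Agent.Lib.QuadFF.polar_sm_r, hperp y' hy']
    ring
  · have hdisj : Disjoint W (Submodule.span F {u}) := by
      rw [Submodule.disjoint_def]
      intro x hx hx'
      obtain ⟨r, rfl⟩ := Submodule.mem_span_singleton.1 hx'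
      by_contra hne0
      have hr : r ≠ 0 := by
        rintro rfl
        simp at hne0
      apply hu
      have := W.smul_mem r⁻¹ hx
      rwa [smul_smul, inv_mul_cancel₀ hr, one_smul] at this
    have h6 := Submodule.finrank_sup_add_finrank_inf_eq W (Submodule.span F {u})
    rw [hdisj.eq_bot, finrank_bot, add_zero] at h6
    have hu0 : u ≠ 0 := by
      intro h0
      apply hu
      rw [h0]
      exact W.zero_mem
    rw [finrank_span_singleton hu0] at h6
    rw [h6, finrank_top]
    simp
    omega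

end Cfsg.Agent.S5687
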