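import Mathlib
import Cfsg.Statements.S5688
import Cfsg.Agent.Lib.OmStab

set_option autoImplicit false
open Cfsg

namespace Cfsg.Agent.S5688


open Matrix QuadraticMap Cfsg.Geo Module Cfsg.Agent.Lib.OrthoBasic Cfsg.Agent.Lib.OmCalc Cfsg.Agent.Lib.OmPerp Cfsg.Agent.Lib.OmNd Cfsg.Agent.Lib.OmK Cfsg.Agent.Lib.OmStab


/-- Let F be a finite field with q elements, n ≥ 13 even, Q a non-degenerate quadratic form on F^n of plus type (some subspace of dimension n/2 is totally singular), and Ω the commutator subgroup of the isometry group of Q, viewed inside GL_n(F). Let W be a non-zero proper subspace with dim W ≠ n/2 on which the polar form of Q is non-degenerate. Exclude the case q ≤ 3 in which W, or its orthogonal complement, is a plane containing a line on which Q vanishes. Then the elements of Ω stabilising W form a maximal subgroup of Ω. -/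
theorem result {F : Type*} [Field F] [Fintype F] {n : ℕ} (hn : 13 ≤ n) (heven : Even n) (Q : (Fin n → F) → F) (hQ : Cfsg.Geo.IsNondegenerateQuadraticForm Q) (hplus : Cfsg.Geo.IsPlusTypeOn Q ⊤) (W : Submodule F (Fin n → F)) (hW0 : W ≠ ⊥) (hW1 : W ≠ ⊤) (hdim : 2 * Module.finrank F W ≠ n) (hW : Cfsg.Geo.IsNondegenerateOn (QuadraticMap.polar Q) W) (hex : ¬ (Fintype.card F ≤ 3 ∧ (∃ U : Submodule F (Fin n → F), Module.finrank F U = 2 ∧ Cfsg.Geo.IsNondegenerateOn (QuadraticMap.polar Q) U ∧ Cfsg.Geo.IsPlusTypeOn Q U ∧ (U = W ∨ (Cfsg.Geo.AreOrthogonalFor (QuadraticMap.polar Q) U W ∧ Module.finrank F U + Module.finrank F W = n))))) : Cfsg.Geo.IsMaximalIn (Cfsg.Geo.omegaGL Q) (Cfsg.Geo.subspaceStabilizer W ⊓ Cfsg.Geo.omegaGL Q) := by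
  classical
  obtain ⟨Q', rfl⟩ := exists_toQF Q hQ
  have hQ' := nondeg_of hQ
  have hc : Fintype.card (Fin n) = n := Fintype.card_fin n
  refine maximal_of_nd hQ' (by omega) hW0 hW1 hW (by rw [hc]; exact hdim) ?_
  intro P' hP' h2 h3 ⟨s, hs, hs0, hQs⟩
  apply hex
  refine ⟨h3, P', h2, ?_⟩
  have hN' : ∀ x ∈ W, (∀ y ∈ W, polar Q' x y = 0) → x = 0 := by
    intro x hx h
    by_contra hx0
    obtain ⟨y, hy, hy'⟩ := (hW x hx hx0).2
    exact hy' (h y hy)
  have hp0 := opair_of_nondeg hQ' hN'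
  have hf := finrank_perpQ hQ' W
  have hft : finrank F W < Fintype.card (Fin n) := by
    have := Submodule.finrank_lt hW1
    rwa [Module.finrank_fintype_fun_eq_card] at this
  rcases hP' with rfl | rfl
  · have := plane_plus hQ' hp0 h2 hs hs0 hQs
    exact ⟨this.1, this.2, Or.inl rfl⟩
  · have := plane_plus hQ' hp0.symm h2 hs hs0 hQs
    refine ⟨this.1, this.2, Or.inr ⟨fun u hu v hv => ?_, ?_⟩⟩
    · exact hp0.orth u hu v hv
    · rw [hc] at hf hft
      omega

end Cfsg.Agent.S5688
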