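import Mathlib
import Cfsg.Statements.S5693
import Cfsg.Agent.Lib.OmFrame2
import Cfsg.Agent.Lib.DecompWt
-- import your own Cfsg.Agent.* helpers here

set_option autoImplicit false
open Cfsg

namespace Cfsg.Agent.S5693

/-- Let F be a finite field with q elements, n ≥ 13 even, Q a non-degenerate quadratic form on F^n of plus type (some subspace of dimension n/2 is totally singular), and Ω the commutator subgroup of the isometry group of Q, viewed inside GL_n(F). Let D be a decomposition of F^n into t ≥ 2 pairwise orthogonal, pairwise Q-isometric subspaces of equal dimension k on which the polar form is non-degenerate (with, for even k, all members of plus type or t even; for odd k, q odd and square discriminant), in one of the cases: k = 2 with q = 3; k = 2 with plus-type members and q ∈ {2, 4, 5}; k = 3 with q = 3; k = 4 with plus-type members and q = 2. Then the elements of Ω permuting the members of D form a subgroup that is not maximal: some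 subgroup lies strictly between it and Ω. -/
theorem result {F : Type*} [Field F] [Fintype F] {n : ℕ} (hn : 13 ≤ n) (heven : Even n) (Q : (Fin n → F) → F) (hQ : Cfsg.Geo.IsNondegenerateQuadraticForm Q) (hplus : Cfsg.Geo.IsPlusTypeOn Q ⊤) {t : ℕ} (k : ℕ) (D : Fin t → Submodule F (Fin n → F)) (hD : Cfsg.Geo.IsOrthogonalMDecomposition Q k D) (hke : Even k → ((∀ i, Cfsg.Geo.IsPlusTypeOn Q (D i)) ∨ Even t)) (hko : Odd k → (Odd (Fintype.card F) ∧ Cfsg.Geo.HasSquareDiscriminant Q)) (hcase : ((k = 2 ∧ (Fintype.card F = 3 ∨ ((∀ i, Cfsg.Geo.IsPlusTypeOn Q (D i)) ∧ (Fintype.card F = 2 ∨ Fintype.card F = 4 ∨ Fintype.card F = 5)))) ∨ (k = 3 ∧ Fintype.card F = 3) ∨ (k = 4 ∧ Fintype.card F = 2 ∧ ∀ i, Cfsg.Geo.IsPlusTypeOn Q (D i)))) : ∃ K : Subgroup (Matrix.GeneralLinearGroup (Fin n) F), Cfsg.Geo.decompositionStabilizer D ⊓ Cfsg.Geo.omegaGL Q < K ∧ K < Cfsg.Geo.omegaGL Q := by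
  classical
  obtain ⟨Q', rfl⟩ := Cfsg.Agent.Lib.OmCalc.exists_toQF Q hQ
  have ht2 := hD.decomp.decomp.two_le
  obtain ⟨B, -⟩ := Cfsg.Agent.Lib.DecompWt.exists_basis hD.decomp.decomp
  have hcard := Cfsg.Agent.Lib.DecompWt.card_eq B
  rw [Fintype.card_fin] at hcard
  have hQ' := Cfsg.Agent.Lib.OmCalc.nondeg_of hQ
  have h11 : 11 ≤ Fintype.card (Fin n) := by
    simp only [Fintype.card_fin]
    omega
  rcases hcase with ⟨rfl, h3 | ⟨hp, h4 | h4 | h4⟩⟩ | ⟨rfl, h3⟩ | ⟨rfl, h4, hp⟩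
  · obtain ⟨ε, hε, hB⟩ := Cfsg.Agent.Lib.OmFrame.blk_plane₃ (Q := Q') h3 (hD.decomp.decomp.finrank_eq ⟨0, by omega⟩) (hD.decomp.nondegenerate _)
    exact Cfsg.Agent.Lib.OmFrame.frame_decomp hQ' h11 (Cfsg.Agent.Lib.OmFrame.two_ne₃ h3) hD (by omega) hε hB
  · exact Cfsg.Agent.Lib.OmFrame2.not_max_q2 h4 hQ' h11 hD (by omega) hp
  · exact Cfsg.Agent.Lib.OmFrame2.not_max_q4 h4 hQ' h11 hD (by omega) hp
  · have hc2 : (2 : F) ≠ 0 := by
      intro h
      have h5 := FiniteField.cast_card_eq_zero F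
      rw [h4] at h5
      have : (1 : F) = 0 := by
        push_cast at h5
        linear_combination h5 - 2 * h
      exact one_ne_zero this
    exact Cfsg.Agent.Lib.OmFrame.frame_decomp hQ' h11 hc2 hD (by omega) one_ne_zero
      (Cfsg.Agent.Lib.OmFrame.blk_plus₅ h4 (hD.decomp.decomp.finrank_eq ⟨0, by omega⟩) (hD.decomp.nondegenerate _) (hp _))
  · obtain ⟨ε, hε, hB⟩ := Cfsg.Agent.Lib.OmFrame.blk_three₃ (Q := Q') h3 (hD.decomp.decomp.finrank_eq ⟨0, by omega⟩) (hD.decomp.nondegenerate _)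
    exact Cfsg.Agent.Lib.OmFrame.frame_decomp hQ' h11 (Cfsg.Agent.Lib.OmFrame.two_ne₃ h3) hD (by omega) hε hB
  · exact Cfsg.Agent.Lib.OmFrame2.not_max_k4 h4 hQ' h11 hD hp

end Cfsg.Agent.S5693
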