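import Mathlib
import Cfsg.Statements.S5695
import Cfsg.Agent.Lib.OmFrame
import Cfsg.Agent.Lib.DecompWt
-- import your own Cfsg.Agent.* helpers here

set_option autoImplicit false
open Cfsg

namespace Cfsg.Agent.S5695

/-- Let F be a finite field with q elements, n ≥ 13 even, Q a non-degenerate quadratic form on F^n of minus type (no subspace of dimension n/2 is totally singular), and Ω the commutator subgroup of the isometry group of Q, viewed inside GL_n(F). Suppose q = 3 and let D be a decomposition of F^n into t ≥ 2 pairwise orthogonal, pairwise Q-isometric subspaces of equal dimension k ∈ {2, 3} on which the polar form is non-degenerate (for k = 3 the discriminant of Q is a square; for k = 2, t is odd and no member is of plus type). Then the elements of Ω permuting the members of D form a subgroup that is not maximal: some subgroup lies strictly between it and Ω. -/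
theorem result {F : Type*} [Field F] [Fintype F] {n : ℕ} (hn : 13 ≤ n) (heven : Even n) (Q : (Fin n → F) → F) (hQ : Cfsg.Geo.IsNondegenerateQuadraticForm Q) (hminus : ¬ Cfsg.Geo.IsPlusTypeOn Q ⊤) (hq : Fintype.card F = 3) {t : ℕ} (k : ℕ) (hk : k = 2 ∨ k = 3) (D : Fin t → Submodule F (Fin n → F)) (hD : Cfsg.Geo.IsOrthogonalMDecomposition Q k D) (hko : Odd k → Cfsg.Geo.HasSquareDiscriminant Q) (hke : Even k → (Odd t ∧ ∀ i, ¬ Cfsg.Geo.IsPlusTypeOn Q (D i))) : ∃ K : Subgroup (Matrix.GeneralLinearGroup (Fin n) F), Cfsg.Geo.decompositionStabilizer D ⊓ Cfsg.Geo.omegaGL Q < K ∧ K < Cfsg.Geo.omegaGL Q := by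
  classical
  obtain ⟨Q', rfl⟩ := Cfsg.Agent.Lib.OmCalc.exists_toQF Q hQ
  have h2 := Cfsg.Agent.Lib.OmFrame.two_ne₃ hq
  have ht2 := hD.decomp.decomp.two_le
  obtain ⟨B, -⟩ := Cfsg.Agent.Lib.DecompWt.exists_basis hD.decomp.decomp
  have hcard := Cfsg.Agent.Lib.DecompWt.card_eq B
  rw [Fintype.card_fin] at hcard
  have hQ' := Cfsg.Agent.Lib.OmCalc.nondeg_of hQ
  rcases hk with rfl | rfl
  · obtain ⟨ε, hε, hB⟩ := Cfsg.Agent.Lib.OmFrame.blk_plane₃ (Q := Q') hq (hD.decomp.decomp.finrank_eq ⟨0, by omega⟩) (hD.decomp.nondegenerate _)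
    exact Cfsg.Agent.Lib.OmFrame.frame_decomp hQ' (by simp; omega) h2 hD (by omega) hε hB
  · obtain ⟨ε, hε, hB⟩ := Cfsg.Agent.Lib.OmFrame.blk_three₃ (Q := Q') hq (hD.decomp.decomp.finrank_eq ⟨0, by omega⟩) (hD.decomp.nondegenerate _)
    exact Cfsg.Agent.Lib.OmFrame.frame_decomp hQ' (by simp; omega) h2 hD (by omega) hε hB

end Cfsg.Agent.S5695
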