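import Mathlib
import Cfsg.Statements.S5697
import Cfsg.Agent.Lib.OmPair
import Cfsg.Agent.Lib.SympDecomp

set_option autoImplicit false
open Cfsg

namespace Cfsg.Agent.S5697

open Matrix QuadraticMap Cfsg.Geo Module Cfsg.Agent.Lib.OrthoBasic Cfsg.Agent.Lib.OmCalc Cfsg.Agent.Lib.OmPerp Cfsg.Agent.Lib.OmPair
open Cfsg.Agent.Lib.SympT (GL_ext mulVec_mul_GL mulVec_inv_GL inv_mulVec_GL)
open Cfsg.Agent.Lib.SympDecomp (decomp_of_maps)
open Cfsg.Agent.Lib.QForm (exists_ne_zero_mem)
open Cfsg.Agent.Lib.SympTIPair (finrank_span_one)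

local notation:70 g:71 " ⋆ " x:70 => Matrix.mulVec (Units.val g) x


/-- Let F be a finite field with q elements, n ≥ 13 even, Q a non-degenerate quadratic form on F^n of plus type (some subspace of dimension n/2 is totally singular), and Ω the commutator subgroup of the isometry group of Q, viewed inside GL_n(F). Suppose n/2 is even and let D be a decomposition of F^n into two complementary subspaces of dimension n/2 on each of which Q vanishes. Then the elements of Ω preserving or interchanging the two subspaces form a maximal subgroup of Ω. -/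
theorem result {F : Type*} [Field F] [Fintype F] {n : ℕ} (hn : 13 ≤ n) (heven : Even n) (Q : (Fin n → F) → F) (hQ : Cfsg.Geo.IsNondegenerateQuadraticForm Q) (hplus : Cfsg.Geo.IsPlusTypeOn Q ⊤) (k : ℕ) (hk : 2 * k = n) (hke : Even k) (D : Fin 2 → Submodule F (Fin n → F)) (hD : Cfsg.Geo.IsMDecomposition k D) (hts : ∀ i, Cfsg.Geo.IsTotallySingularQuad Q (D i)) : Cfsg.Geo.IsMaximalIn (Cfsg.Geo.omegaGL Q) (Cfsg.Geo.decompositionStabilizer D ⊓ Cfsg.Geo.omegaGL Q) := by
  classical
  obtain ⟨Q', rfl⟩ := exists_toQF Q hQ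
  have hQ' := nondeg_of hQ
  have hc : Fintype.card (Fin n) = n := Fintype.card_fin n
  have h11 : 11 ≤ Fintype.card (Fin n) := by omega
  have hcompl : IsCompl (D 0) (D 1) := by
    refine ⟨hD.indep.pairwiseDisjoint (by decide : (0 : Fin 2) ≠ 1), ?_⟩
    rw [codisjoint_iff, eq_top_iff, ← hD.iSup_eq_top]
    refine iSup_le (fun i => ?_)
    fin_cases i
    · exact le_sup_left
    · exact le_sup_right
  have hp : TSP Q' (D 0) (D 1) := ⟨hts 0, hts 1, hcompl⟩
  have hf0 : finrank F (D 0) = k := hD.finrank_eq 0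
  have hf1 : finrank F (D 1) = k := hD.finrank_eq 1
  have hdec : ∀ g : GL (Fin n) F, (τ : Equiv.Perm (Fin 2)) → (∀ x ∈ D 0, g ⋆ x ∈ D (τ 0)) →
      (∀ x ∈ D 1, g ⋆ x ∈ D (τ 1)) → g ∈ decompositionStabilizer D := by
    intro g τ h0 h1
    refine decomp_of_maps (k := k) hD.finrank_eq g τ (fun i => ?_)
    fin_cases i
    · exact h0
    · exact h1
  have hHin : ∀ a ∈ D 0, ∀ b ∈ D 1, ∀ (ha : Q' a = 0) (hab : polar Q' a b = 0),
      sE hQ' ha hab ∈ decompositionStabilizer D ⊓ omegaGL ⇑Q' := by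
    intro a ha b hb ha' hab
    refine ⟨hdec _ (Equiv.refl _) (fun x hx => ?_) (fun x hx => ?_), sE_mem_omegaGL hQ' h11 _ _⟩
    · rw [sE_apply', hp.ti hx ha, hp.ts' b hb]
      simp only [zero_smul, add_zero, mul_zero]
      exact (D 0).sub_mem hx ((D 0).smul_mem _ ha)
    · rw [sE_apply', hp.ti' hx hb, hp.ts' b hb]
      simp only [zero_mul, add_zero, zero_smul, sub_zero]
      exact (D 1).add_mem hx ((D 1).smul_mem _ hb)
  obtain ⟨s, hsO, hs1, hs2⟩ := exists_swap_omega hQ' h11 hp hf0 hf1 hke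
  have hsH : s ∈ decompositionStabilizer D ⊓ omegaGL ⇑Q' := by
    refine ⟨hdec _ (Equiv.swap 0 1) ?_ ?_, hsO⟩
    · simpa using hs1
    · simpa using hs2
  refine ⟨lt_of_le_of_ne inf_le_right ?_, ?_⟩
  · intro heq
    obtain ⟨a, ha, ha0⟩ : ∃ z ∈ D 0, z ≠ 0 := by
      apply exists_ne_zero_mem
      omega
    obtain ⟨a', ha', haa'⟩ : ∃ a' ∈ D 0, a' ∉ Submodule.span F {a} := by
      by_contra hcon
      push Not at hcon
      have h1 := Submodule.finrank_mono (show D 0 ≤ Submodule.span F {a} from hcon)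
      have h3 := finrank_span_one (F := F) a
      omega
    have ha'0 : a' ≠ 0 := by
      rintro rfl
      exact haa' (Submodule.zero_mem _)
    have hsp : Submodule.span F {a'} ≤ D 0 := by
      rw [Submodule.span_singleton_le_iff_mem]
      exact ha'
    have haa2 : a ∉ Submodule.span F {a'} := by
      intro hmem
      obtain ⟨c, hc'⟩ := Submodule.mem_span_singleton.1 hmem
      have hc0 : c ≠ 0 := by
        rintro rfl
        rw [zero_smul] at hc'
        exact ha0 hc'.symm
      apply haa'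
      rw [Submodule.mem_span_singleton]
      exact ⟨c⁻¹, by rw [← hc', smul_smul, inv_mul_cancel₀ hc0, one_smul]⟩
    obtain ⟨b, hb, hb1, hb2⟩ := hp.symm.sep_val hQ' hsp ha haa2 1
    have hba' : polar Q' b a' = 0 := hb1 a' (Submodule.mem_span_singleton_self a')
    have hmem : sE hQ' (hp.ts a ha) (hp.ti ha ha') ∈ decompositionStabilizer D ⊓ omegaGL ⇑Q' := by
      rw [heq]
      exact sE_mem_omegaGL hQ' h11 _ _
    obtain ⟨τ, hτ⟩ := hmem.1
    have himg : sE hQ' (hp.ts a ha) (hp.ti ha ha') ⋆ b ∈ D (τ 1) := by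
      rw [← hτ 1]
      exact ⟨b, hb, rfl⟩
    rw [sE_apply', hb2, hba', hp.ts a' ha'] at himg
    simp only [one_smul, zero_mul, add_zero, zero_smul, sub_zero] at himg
    have hτ0 : τ 1 = 0 ∨ τ 1 = 1 := by
      generalize τ 1 = i
      fin_cases i <;> simp
    rcases hτ0 with h0' | h0'
    · rw [h0'] at himg
      have h3 : b ∈ D 0 := by
        have := (D 0).sub_mem himg ha'
        simpa using this
      have h4 := Submodule.disjoint_def.1 hcompl.disjoint _ h3 hb
      rw [h4, polar_zero_left] at hb2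
      exact zero_ne_one hb2
    · rw [h0'] at himg
      have h3 : a' ∈ D 1 := by
        have := (D 1).sub_mem himg hb
        simpa using this
      exact ha'0 (Submodule.disjoint_def.1 hcompl.disjoint _ ha' h3)
  · intro M hHM hMK
    by_cases hne : M = decompositionStabilizer D ⊓ omegaGL ⇑Q'
    · exact Or.inl hne
    right
    obtain ⟨g, hgM, hgH⟩ : ∃ g ∈ M, g ∉ decompositionStabilizer D ⊓ omegaGL ⇑Q' := by
      by_contra hcon
      push Not at hcon
      exact hne (le_antisymm hcon hHM)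
    have hMi : ∀ t ∈ M, ∀ v, Q' (t ⋆ v) = Q' v := fun t ht => iso_omega (hMK ht)
    refine le_antisymm hMK (omega_le (hQ := hQ') hQ' h11 hp (by omega) (by rw [hf0, hf1]) hMi ?_ (hHM hsH) hs1 hs2 hgM ?_)
    · intro a ha b hb hab
      exact ⟨hp.ts a ha, hab, hHM (hHin a ha b hb _ _)⟩
    · rintro (⟨h0, h1⟩ | ⟨h0, h1⟩)
      · exact hgH ⟨hdec g (Equiv.refl _) h0 h1, hMK hgM⟩
      · refine hgH ⟨hdec g (Equiv.swap 0 1) ?_ ?_, hMK hgM⟩
        · simpa using h0
        · simpa using h1

end Cfsg.Agent.S5697
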