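import Mathlib
import Cfsg.Statements.S5699
import Cfsg.Agent.Lib.OmNd
import Cfsg.Agent.Lib.SympDecomp

set_option autoImplicit false
open Cfsg

namespace Cfsg.Agent.S5699

open Matrix QuadraticMap Cfsg.Geo Module Cfsg.Agent.Lib.OrthoBasic Cfsg.Agent.Lib.OmCalc Cfsg.Agent.Lib.OmPerp Cfsg.Agent.Lib.OmNd
open Cfsg.Agent.Lib.SympT (GL_ext mulVec_mul_GL mulVec_inv_GL inv_mulVec_GL)
open Cfsg.Agent.Lib.SympDecomp (decomp_of_maps)
open Cfsg.Agent.Lib.QForm (exists_ne_zero_mem)

local notation:70 g:71 " ⋆ " x:70 => Matrix.mulVec (Units.val g) x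


/-- Let F be a finite field with q elements, n ≥ 13 even, Q a non-degenerate quadratic form on F^n (of either type), and Ω the commutator subgroup of the isometry group of Q, viewed inside GL_n(F). Let D be a decomposition of F^n into two orthogonal subspaces of odd dimension n/2 on which the polar form is non-degenerate and which are not Q-isometric to each other. Then the elements of Ω permuting (necessarily fixing) the two subspaces form a maximal subgroup of Ω. -/
theorem result {F : Type*} [Field F] [Fintype F] {n : ℕ} (hn : 13 ≤ n) (heven : Even n) (Q : (Fin n → F) → F) (hQ : Cfsg.Geo.IsNondegenerateQuadraticForm Q) (k : ℕ) (hk : 2 * k = n) (hko : Odd k) (D : Fin 2 → Submodule F (Fin n → F)) (hD : Cfsg.Geo.IsNondegenerateMDecomposition (QuadraticMap.polar Q) k D) (hni : ¬ Cfsg.Geo.AreIsometricFor Q (D 0) (D 1)) : Cfsg.Geo.IsMaximalIn (Cfsg.Geo.omegaGL Q) (Cfsg.Geo.decompositionStabilizer D ⊓ Cfsg.Geo.omegaGL Q) := by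
  classical
  obtain ⟨Q', rfl⟩ := exists_toQF Q hQ
  have hQ' := nondeg_of hQ
  have hc : Fintype.card (Fin n) = n := Fintype.card_fin n
  have h11 : 11 ≤ Fintype.card (Fin n) := by omega
  have hcompl : IsCompl (D 0) (D 1) := by
    refine ⟨hD.decomp.indep.pairwiseDisjoint (by decide : (0 : Fin 2) ≠ 1), ?_⟩
    rw [codisjoint_iff, eq_top_iff, ← hD.decomp.iSup_eq_top]
    refine iSup_le (fun i => ?_)
    fin_cases i
    · exact le_sup_left
    · exact le_sup_right
  have hp : OPair Q' (D 0) (D 1) := ⟨hD.orthogonal 0 1 (by decide), hcompl⟩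
  have hf0 : finrank F (D 0) = k := hD.decomp.finrank_eq 0
  have hf1 : finrank F (D 1) = k := hD.decomp.finrank_eq 1
  have hdec : ∀ g : GL (Fin n) F, (τ : Equiv.Perm (Fin 2)) → (∀ x ∈ D 0, g ⋆ x ∈ D (τ 0)) →
      (∀ x ∈ D 1, g ⋆ x ∈ D (τ 1)) → g ∈ decompositionStabilizer D := by
    intro g τ h0 h1
    refine decomp_of_maps (k := k) hD.decomp.finrank_eq g τ (fun i => ?_)
    fin_cases i
    · exact h0
    · exact h1
  have hHin : ∀ i j : Fin 2, i ≠ j → ∀ a ∈ D i, ∀ (ha : Q' a = 0), ∀ y ∈ D i, ∀ (hay : polar Q' a y = 0),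
      sE hQ' ha hay ∈ decompositionStabilizer D ⊓ omegaGL ⇑Q' := by
    intro i j hij a ha ha' y hy hay
    have hmem : ∀ l : Fin 2, l = i ∨ l = j := by
      intro l
      fin_cases i <;> fin_cases j <;> fin_cases l <;> simp_all
    have hact : ∀ l : Fin 2, ∀ x ∈ D l, sE hQ' ha' hay ⋆ x ∈ D l := by
      intro l x hx
      rcases hmem l with rfl | rfl
      · rw [sE_apply']
        exact (D l).sub_mem ((D l).add_mem hx ((D l).smul_mem _ hy)) ((D l).smul_mem _ ha)
      · have h1 := hD.orthogonal l i (Ne.symm hij) x hx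
        rw [sE_apply', h1 a ha, h1 y hy]
        simpa using hx
    exact ⟨hdec _ (Equiv.refl _) (hact 0) (hact 1), sE_mem_omegaGL hQ' h11 _ _⟩
  refine ⟨lt_of_le_of_ne inf_le_right ?_, ?_⟩
  · intro heq
    obtain ⟨e, he, z₀, hz₀, hez, -⟩ := hp.hyp_in hQ' (C := ∅) (by simp) (by simp; omega)
    obtain ⟨y, hy, hy0⟩ : ∃ z ∈ D 1, z ≠ 0 := by
      apply exists_ne_zero_mem
      omega
    obtain ⟨z, hz, hzy⟩ := hp.symm.nondeg hQ' hy hy0
    have hzy' : polar Q' z y ≠ 0 := by rwa [polar_comm]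
    have hz0 : z ≠ 0 := by
      rintro rfl
      exact hzy' (polar_zero_left _ _)
    have he0 : e ≠ 0 := by
      rintro rfl
      have := hez.vw
      rw [polar_zero_left] at this
      exact zero_ne_one this
    have hey : polar Q' e y = 0 := hp.orth e he y hy
    have hmem : sE hQ' hez.Qv hey ∈ decompositionStabilizer D ⊓ omegaGL ⇑Q' := by
      rw [heq]
      exact sE_mem_omegaGL hQ' h11 _ _
    obtain ⟨τ, hτ⟩ := hmem.1
    have himg : sE hQ' hez.Qv hey ⋆ z ∈ D (τ 1) := by
      rw [← hτ 1]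
      exact ⟨z, hz, rfl⟩
    have hze : polar Q' z e = 0 := by
      rw [polar_comm]
      exact hp.orth e he z hz
    rw [sE_apply', hze] at himg
    simp only [zero_smul, add_zero, mul_zero] at himg
    have hτ0 : τ 1 = 0 ∨ τ 1 = 1 := by
      generalize τ 1 = i
      fin_cases i <;> simp
    rcases hτ0 with h0' | h0'
    · rw [h0'] at himg
      have h3 : z ∈ D 0 := by
        have := (D 0).add_mem himg ((D 0).smul_mem (polar Q' z y) he)
        simpa using this
      exact hz0 (hp.eq_zero h3 hz)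
    · rw [h0'] at himg
      have h3 : polar Q' z y • e ∈ D 1 := by
        have := (D 1).sub_mem hz himg
        simpa using this
      have h4 := hp.eq_zero ((D 0).smul_mem _ he) h3
      exact (smul_ne_zero hzy' he0) h4
  · intro M hHM hMK
    by_cases hne : M = decompositionStabilizer D ⊓ omegaGL ⇑Q'
    · exact Or.inl hne
    right
    obtain ⟨g, hgM, hgH⟩ : ∃ g ∈ M, g ∉ decompositionStabilizer D ⊓ omegaGL ⇑Q' := by
      by_contra hcon
      push Not at hcon
      exact hne (le_antisymm hcon hHM)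
    have hMi : ∀ t ∈ M, ∀ v, Q' (t ⋆ v) = Q' v := fun t ht => iso_omega (hMK ht)
    refine le_antisymm hMK (omega_le_nd (hQ := hQ') hQ' h11 hp (by omega) (by omega) hMi ?_ ?_ hgM ?_)
    · intro a ha ha' y hy hay
      exact ⟨ha', hay, hHM (hHin 0 1 (by decide) a ha ha' y hy hay)⟩
    · intro a ha ha' y hy hay
      exact ⟨ha', hay, hHM (hHin 1 0 (by decide) a ha ha' y hy hay)⟩
    · rintro (⟨h0, h1⟩ | ⟨h0, h1⟩)
      · exact hgH ⟨hdec g (Equiv.refl _) h0 h1, hMK hgM⟩
      · refine hgH ⟨hdec g (Equiv.swap 0 1) ?_ ?_, hMK hgM⟩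
        · simpa using h0
        · simpa using h1

end Cfsg.Agent.S5699
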