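import Mathlib
import Cfsg.Statements.S5700
import Cfsg.Agent.Lib.OmK

set_option autoImplicit false
open Cfsg

namespace Cfsg.Agent.S5700

open Matrix QuadraticMap Cfsg.Geo Module Cfsg.Agent.Lib.OrthoBasic Cfsg.Agent.Lib.OrthoSiegel Cfsg.Agent.Lib.OmCalc Cfsg.Agent.Lib.OmPerp Cfsg.Agent.Lib.OmK
open Cfsg.Agent.Lib.SympT (GL_ext mulVec_mul_GL mulVec_inv_GL inv_mulVec_GL)
open Cfsg.Agent.Lib.QuadFF (Q_ad Q_sm polar_sm_l polar_sm_r)

local notation:70 g:71 " ⋆ " x:70 => Matrix.mulVec (Units.val g) x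

variable {F : Type*} [Field F] [Fintype F] {n : ℕ}

/-- `g` normalises the field if it acts on the generator through an element of the field. -/
theorem mem_normalizer_of {K : Subalgebra F (Matrix (Fin n) (Fin n) F)} {W : Matrix (Fin n) (Fin n) F}
    (hW : W ∈ K) (hspan : ∀ k ∈ K, ∃ a b : F, k = a • (1 : Matrix (Fin n) (Fin n) F) + b • W) {g : GL (Fin n) F}
    {α β : F} (hβ : β ≠ 0) (h : ∀ v, g ⋆ (W *ᵥ (g⁻¹ ⋆ v)) = α • v + β • (W *ᵥ v)) :
    g ∈ subalgebraNormalizer K := by
  have h1 : (g : Matrix (Fin n) (Fin n) F) * W * ((g⁻¹ : GL (Fin n) F) : Matrix (Fin n) (Fin n) F) = α • 1 + β • W := by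
    apply Matrix.toLin'.injective
    refine LinearMap.ext fun v => ?_
    simp only [Matrix.toLin'_apply, Matrix.add_mulVec, Matrix.smul_mulVec, Matrix.one_mulVec]
    rw [← Matrix.mulVec_mulVec, ← Matrix.mulVec_mulVec]
    exact h _
  have hone : (g : Matrix (Fin n) (Fin n) F) * ((g⁻¹ : GL (Fin n) F) : Matrix (Fin n) (Fin n) F) = 1 := by
    rw [← Units.val_mul, mul_inv_cancel, Units.val_one]
  have hone' : ((g⁻¹ : GL (Fin n) F) : Matrix (Fin n) (Fin n) F) * (g : Matrix (Fin n) (Fin n) F) = 1 := by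
    rw [← Units.val_mul, inv_mul_cancel, Units.val_one]
  intro k
  constructor
  · intro hk
    obtain ⟨a, b, rfl⟩ := hspan k hk
    have : (g : Matrix (Fin n) (Fin n) F) * (a • 1 + b • W) * ((g⁻¹ : GL (Fin n) F) : Matrix (Fin n) (Fin n) F) =
        a • 1 + b • ((g : Matrix (Fin n) (Fin n) F) * W * ((g⁻¹ : GL (Fin n) F) : Matrix (Fin n) (Fin n) F)) := by
      rw [Matrix.mul_add, Matrix.add_mul, Matrix.mul_smul, Matrix.mul_smul, Matrix.smul_mul, Matrix.smul_mul, Matrix.mul_one,
        hone]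
    rw [this, h1]
    exact K.add_mem (K.smul_mem K.one_mem _) (K.smul_mem (K.add_mem (K.smul_mem K.one_mem _) (K.smul_mem hW _)) _)
  · intro hk
    obtain ⟨a, b, hab⟩ := hspan _ hk
    have h2 : ((g⁻¹ : GL (Fin n) F) : Matrix (Fin n) (Fin n) F) * W * (g : Matrix (Fin n) (Fin n) F) = β⁻¹ • (W - α • 1) := by
      have h3 : W = α • 1 + β • (((g⁻¹ : GL (Fin n) F) : Matrix (Fin n) (Fin n) F) * W * (g : Matrix (Fin n) (Fin n) F)) := by
        have := congrArg (fun x => ((g⁻¹ : GL (Fin n) F) : Matrix (Fin n) (Fin n) F) * x * (g : Matrix (Fin n) (Fin n) F)) h1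
        simp only [Matrix.mul_add, Matrix.add_mul, Matrix.mul_smul, Matrix.smul_mul, Matrix.mul_one, hone'] at this
        have h4 : ((g⁻¹ : GL (Fin n) F) : Matrix (Fin n) (Fin n) F) * ((g : Matrix (Fin n) (Fin n) F) * W * ((g⁻¹ : GL (Fin n) F) : Matrix (Fin n) (Fin n) F)) * (g : Matrix (Fin n) (Fin n) F) = W := by
          calc _ = (((g⁻¹ : GL (Fin n) F) : Matrix (Fin n) (Fin n) F) * (g : Matrix (Fin n) (Fin n) F)) * W * (((g⁻¹ : GL (Fin n) F) : Matrix (Fin n) (Fin n) F) * (g : Matrix (Fin n) (Fin n) F)) := by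
                simp only [Matrix.mul_assoc]
            _ = W := by rw [hone', Matrix.one_mul, Matrix.mul_one]
        rw [h4] at this
        exact this
      have h5 : W - α • 1 = β • (((g⁻¹ : GL (Fin n) F) : Matrix (Fin n) (Fin n) F) * W * (g : Matrix (Fin n) (Fin n) F)) := by
        nth_rewrite 1 [h3]
        abel
      rw [h5, smul_smul, inv_mul_cancel₀ hβ, one_smul]
    have h6 : k = a • 1 + b • (((g⁻¹ : GL (Fin n) F) : Matrix (Fin n) (Fin n) F) * W * (g : Matrix (Fin n) (Fin n) F)) := by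
      have := congrArg (fun x => ((g⁻¹ : GL (Fin n) F) : Matrix (Fin n) (Fin n) F) * x * (g : Matrix (Fin n) (Fin n) F)) hab
      simp only [Matrix.mul_add, Matrix.add_mul, Matrix.mul_smul, Matrix.smul_mul, Matrix.mul_one, hone'] at this
      rw [← this]
      calc k = (((g⁻¹ : GL (Fin n) F) : Matrix (Fin n) (Fin n) F) * (g : Matrix (Fin n) (Fin n) F)) * k * (((g⁻¹ : GL (Fin n) F) : Matrix (Fin n) (Fin n) F) * (g : Matrix (Fin n) (Fin n) F)) := by
            rw [hone', Matrix.one_mul, Matrix.mul_one]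
        _ = _ := by simp only [Matrix.mul_assoc]
    rw [h6, h2]
    exact K.add_mem (K.smul_mem K.one_mem _) (K.smul_mem (K.smul_mem (K.sub_mem hW (K.smul_mem K.one_mem _)) _) _)

/-- Structure of a quadratic field subalgebra. -/
theorem field_data (hn : 1 ≤ n) {K : Subalgebra F (Matrix (Fin n) (Fin n) F)} (hK : IsFieldSubalgebra 2 K) :
    ∃ W ∈ K, (∀ r : F, W ≠ r • (1 : Matrix (Fin n) (Fin n) F)) ∧
      ∀ k ∈ K, ∃ a b : F, k = a • (1 : Matrix (Fin n) (Fin n) F) + b • W := by
  classical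
  haveI : Nonempty (Fin n) := ⟨⟨0, by omega⟩⟩
  have hf : Module.finrank F (Subalgebra.toSubmodule K) = 2 := hK.finrank_eq
  have h1 : ∃ W ∈ K, ∀ r : F, W ≠ r • (1 : Matrix (Fin n) (Fin n) F) := by
    by_contra hcon
    push Not at hcon
    have h2 : Subalgebra.toSubmodule K ≤ Submodule.span F {(1 : Matrix (Fin n) (Fin n) F)} := by
      intro x hx
      obtain ⟨r, rfl⟩ := hcon x hx
      exact Submodule.smul_mem _ _ (Submodule.mem_span_singleton_self _)
    have h3 := Submodule.finrank_mono h2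
    have h4 := finrank_span_singleton (K := F) (one_ne_zero : (1 : Matrix (Fin n) (Fin n) F) ≠ 0)
    rw [hf, h4] at h3
    omega
  obtain ⟨W, hW, hns⟩ := h1
  refine ⟨W, hW, hns, ?_⟩
  have hind : LinearIndependent F ![(1 : Matrix (Fin n) (Fin n) F), W] := by
    rw [LinearIndependent.pair_iff]
    intro s t hst
    have ht : t = 0 := by
      by_contra ht
      apply hns (-(t⁻¹ * s))
      have : W = t⁻¹ • (t • W) := by rw [smul_smul, inv_mul_cancel₀ ht, one_smul]
      rw [this, neg_smul, mul_smul, ← smul_neg, eq_neg_of_add_eq_zero_right hst]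
    rw [ht, zero_smul, add_zero] at hst
    refine ⟨?_, ht⟩
    by_contra hs
    have := (smul_eq_zero.1 hst).resolve_left hs
    exact one_ne_zero this
  have h5 : Module.finrank F (Submodule.span F {(1 : Matrix (Fin n) (Fin n) F), W}) = 2 := by
    have hr : Set.range ![(1 : Matrix (Fin n) (Fin n) F), W] = {1, W} := by
      ext x
      constructor
      · rintro ⟨i, rfl⟩
        fin_cases i <;> simp
      · rintro (rfl | rfl)
        · exact ⟨0, rfl⟩
        · exact ⟨1, rfl⟩
    have := finrank_span_eq_card hind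
    rw [hr] at this
    simpa using this
  have h6 : Submodule.span F {(1 : Matrix (Fin n) (Fin n) F), W} ≤ Subalgebra.toSubmodule K := by
    rw [Submodule.span_le]
    intro x hx
    simp only [Set.mem_insert_iff, Set.mem_singleton_iff] at hx
    rcases hx with rfl | rfl
    · exact K.one_mem
    · exact hW
  have h7 := Submodule.eq_of_le_of_finrank_eq h6 (by rw [h5, hf])
  intro k hk
  have h8 : k ∈ Submodule.span F {(1 : Matrix (Fin n) (Fin n) F), W} := by
    rw [h7]
    exact hk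
  obtain ⟨a, b, hab⟩ := Submodule.mem_span_pair.1 h8
  exact ⟨a, b, hab.symm⟩

/-- The compatible field structure on the quadratic space. -/
theorem ks_data (hn : 1 ≤ n) {Q : QuadraticForm F (Fin n → F)} (hQ : Nondeg Q)
    {K : Subalgebra F (Matrix (Fin n) (Fin n) F)} (hK : IsFieldSubalgebra 2 K)
    (hsc : ∀ k ∈ K, ∃ c : F, ∀ v : (Fin n → F), Q (Matrix.mulVec k v) = c * Q v)
    {W : Matrix (Fin n) (Fin n) F} (hW : W ∈ K) (hns : ∀ r : F, W ≠ r • (1 : Matrix (Fin n) (Fin n) F)) :
    ∃ τ c : F, KS Q (Matrix.mulVecLin W) τ c := by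
  classical
  haveI : Nonempty (Fin n) := ⟨⟨0, by omega⟩⟩
  obtain ⟨c, hc⟩ := hsc W hW
  obtain ⟨c₁, hc₁⟩ := hsc (1 + W) (K.add_mem K.one_mem hW)
  set w := Matrix.mulVecLin W with hw
  have hwa : ∀ v, w v = W *ᵥ v := fun v => rfl
  have hc' : ∀ v, Q (w v) = c * Q v := hc
  refine ⟨c₁ - 1 - c, c, ?_⟩
  set τ := c₁ - 1 - c with hτ
  have hslf : ∀ v, polar Q v (w v) = τ * Q v := by
    intro v
    have h1 := hc₁ v
    rw [Matrix.add_mulVec, Matrix.one_mulVec, Q_ad, ← hwa, hc' v] at h1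
    rw [hτ]
    linear_combination h1
  have hadj : ∀ x y, polar Q (w x) y = τ * polar Q x y - polar Q x (w y) := by
    intro x y
    have h1 := hslf (x + y)
    rw [map_add, polar_add_left, polar_add_right, polar_add_right, hslf x, hslf y, Q_ad] at h1
    rw [polar_comm Q y (w x)] at h1
    linear_combination h1
  have hpww : ∀ x y, polar Q (w x) (w y) = c * polar Q x y := by
    intro x y
    rw [polar, polar, ← map_add, hc', hc', hc']
    ring
  have hquad : ∀ v, w (w v) = τ • w v - c • v := by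
    intro v
    by_contra h
    obtain ⟨z, hz⟩ := hQ _ (sub_ne_zero.2 h)
    apply hz
    rw [polar_sub_left, polar_sub_left, polar_sm_l, polar_sm_l, hadj (w v) z, hpww]
    ring
  have hWW : W * W = τ • W - c • (1 : Matrix (Fin n) (Fin n) F) := by
    apply Matrix.toLin'.injective
    refine LinearMap.ext fun v => ?_
    simp only [Matrix.toLin'_apply, Matrix.sub_mulVec, Matrix.smul_mulVec, Matrix.one_mulVec]
    rw [← Matrix.mulVec_mulVec]
    exact hquad v
  refine ⟨hslf, hc', hquad, fun p s hps => ?_⟩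
  set A : Matrix (Fin n) (Fin n) F := p • W - s • 1 with hA
  set B : Matrix (Fin n) (Fin n) F := (p * τ - s) • 1 - p • W with hB
  have hAK : A ∈ K := K.sub_mem (K.smul_mem hW _) (K.smul_mem K.one_mem _)
  have hBK : B ∈ K := K.sub_mem (K.smul_mem K.one_mem _) (K.smul_mem hW _)
  have hAB : A * B = 0 := by
    have h1 : A * B = (c * p ^ 2 - τ * p * s + s ^ 2) • (1 : Matrix (Fin n) (Fin n) F) + (p ^ 2 * τ - p ^ 2 * τ) • W := by
      rw [hA, hB]
      simp only [Matrix.sub_mul, Matrix.mul_sub, Matrix.smul_mul, Matrix.mul_smul, hWW, Matrix.mul_one, Matrix.one_mul]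
      module
    rw [h1, hps, sub_self, zero_smul, zero_smul, add_zero]
  have hor : A = 0 ∨ B = 0 := by
    by_cases h : A = 0
    · exact Or.inl h
    · right
      obtain ⟨y, hy, hy'⟩ := hK.inv A hAK h
      have := congrArg (fun x => y * x) hAB
      simp only [Matrix.mul_zero, ← Matrix.mul_assoc] at this
      rwa [hK.comm y hy A hAK, hy', Matrix.one_mul] at this
  have hp : p = 0 := by
    by_contra hp
    rcases hor with h | h
    · apply hns (p⁻¹ * s)
      have h1 : p • W = s • 1 := sub_eq_zero.1 h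
      have : W = p⁻¹ • (p • W) := by rw [smul_smul, inv_mul_cancel₀ hp, one_smul]
      rw [this, h1, smul_smul]
    · apply hns (p⁻¹ * (p * τ - s))
      have h1 : (p * τ - s) • 1 = p • W := sub_eq_zero.1 h
      have : W = p⁻¹ • (p • W) := by rw [smul_smul, inv_mul_cancel₀ hp, one_smul]
      rw [this, ← h1, smul_smul]
  refine ⟨hp, ?_⟩
  rw [hp] at hps
  have : s ^ 2 = 0 := by linear_combination hps
  exact pow_eq_zero_iff (two_ne_zero) |>.1 this


/-- Let F be a finite field with q elements, n ≥ 13 even, Q a non-degenerate quadratic form on F^n (of either type), and Ω the commutator subgroup of the isometry group of Q, viewed inside GL_n(F). Let K be a subfield of the algebra of n × n matrices over F containing the scalars, of degree 2 over F, closed under adjoints for the polar form of Q but not consisting of self-adjoint elements, and such that every k in K rescales Q (Q(k v) = c Q(v) for a constant c depending on k). Then the elements of Ω normalising K form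 a maximal subgroup of Ω. -/
theorem result {F : Type*} [Field F] [Fintype F] {n : ℕ} (hn : 13 ≤ n) (heven : Even n) (Q : (Fin n → F) → F) (hQ : Cfsg.Geo.IsNondegenerateQuadraticForm Q) (K : Subalgebra F (Matrix (Fin n) (Fin n) F)) (hK : Cfsg.Geo.IsFieldSubalgebra 2 K) (hac : Cfsg.Geo.IsAdjointClosedFor (QuadraticMap.polar Q) K) (hnsa : ¬ Cfsg.Geo.IsSelfAdjointFor (QuadraticMap.polar Q) K) (hsc : ∀ k ∈ K, ∃ c : F, ∀ v : (Fin n → F), Q (Matrix.mulVec k v) = c * Q v) : Cfsg.Geo.IsMaximalIn (Cfsg.Geo.omegaGL Q) (Cfsg.Geo.subalgebraNormalizer K ⊓ Cfsg.Geo.omegaGL Q) := by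
  classical
  obtain ⟨Q', rfl⟩ := exists_toQF Q hQ
  have hQ' := nondeg_of hQ
  have hc : Fintype.card (Fin n) = n := Fintype.card_fin n
  have h14 : 14 ≤ Fintype.card (Fin n) := by
    obtain ⟨m, hm⟩ := heven
    omega
  have h11 : 11 ≤ Fintype.card (Fin n) := by omega
  obtain ⟨W, hW, hns, hspan⟩ := field_data (by omega) hK
  obtain ⟨τ, c, hKS⟩ := ks_data (by omega) hQ' hK hsc hW hns
  set w := Matrix.mulVecLin W with hw
  have hwa : ∀ v, W *ᵥ v = w v := fun v => rfl
  have hform : ∀ g ∈ subalgebraNormalizer K, ∃ α β : F, ∀ v, g ⋆ w (g⁻¹ ⋆ v) = α • v + β • w v := by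
    intro g hg
    obtain ⟨a, b, hab⟩ := hspan _ ((hg W).1 hW)
    refine ⟨a, b, fun v => ?_⟩
    have := congrArg (fun m => m *ᵥ v) hab
    simp only [Matrix.add_mulVec, Matrix.smul_mulVec, Matrix.one_mulVec] at this
    rw [← Matrix.mulVec_mulVec, ← Matrix.mulVec_mulVec] at this
    exact this
  have hbase : ∀ {M : Subgroup (GL (Fin n) F)}, subalgebraNormalizer K ⊓ omegaGL ⇑Q' ≤ M → Base hQ' w M := by
    intro M hM u l hu
    have hy : polar Q' u (l • w u) = 0 := by rw [polar_sm_r, hKS.perp_w hu, mul_zero]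
    refine ⟨hu, hy, hM ⟨?_, sE_mem_omegaGL hQ' h11 hu hy⟩⟩
    refine mem_normalizer_of hW hspan (α := 0) (β := 1) one_ne_zero (fun v => ?_)
    rw [hwa, sE_comm_w hKS l hu hy, mulVec_inv_GL, zero_smul, zero_add, one_smul]
    rfl
  refine ⟨?_, fun M hHM hMO => ?_⟩
  · refine SetLike.lt_iff_le_and_exists.2 ⟨inf_le_right, ?_⟩
    obtain ⟨u, y, hu, hu0, huy, hQy, hy⟩ := exists_not_KL h14 hQ' hKS
    refine ⟨sE hQ' hu huy, sE_mem_omegaGL hQ' h11 hu huy, fun hmem => ?_⟩
    obtain ⟨α, β, h⟩ := hform _ hmem.1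
    exact not_normal h14 hKS hu hu0 huy hQy hy h
  · by_cases hle : M ≤ subalgebraNormalizer K ⊓ omegaGL ⇑Q'
    · exact Or.inl (le_antisymm hle hHM)
    right
    refine le_antisymm hMO ?_
    obtain ⟨g, hgM, hgH⟩ := SetLike.not_le_iff_exists.1 hle
    have hgO := hMO hgM
    have hiso := iso_omega hgO
    by_contra hcon
    have hall : ∀ u, Q' u = 0 → g ⋆ w u ∈ KL w (g ⋆ u) := by
      intro u hu
      by_contra h
      exact hcon (omega_le_K h14 hKS (hbase hHM) hgM hiso hu h)
    set L : (Fin n → F) →ₗ[F] (Fin n → F) :=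
      Matrix.mulVecLin (g : Matrix (Fin n) (Fin n) F) ∘ₗ w ∘ₗ Matrix.mulVecLin ((g⁻¹ : GL (Fin n) F) : Matrix (Fin n) (Fin n) F) with hL
    have hLa : ∀ v, L v = g ⋆ w (g⁻¹ ⋆ v) := fun v => rfl
    obtain ⟨α, β, hαβ⟩ := scalar_of_KL h14 hKS hQ' L (fun z hz => by
      rw [hLa]
      have := hall (g⁻¹ ⋆ z) (by rw [iso_inv hiso, hz])
      rwa [mulVec_inv_GL] at this)
    have hβ : β ≠ 0 := by
      rintro rfl
      apply hns α
      apply Matrix.toLin'.injective
      refine LinearMap.ext fun v => ?_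
      simp only [Matrix.toLin'_apply, Matrix.smul_mulVec, Matrix.one_mulVec]
      have h1 := hαβ (g ⋆ v)
      rw [hLa, inv_mulVec_GL, zero_smul, add_zero] at h1
      have h2 := congrArg (fun x => g⁻¹ ⋆ x) h1
      simp only [inv_mulVec_GL, Matrix.mulVec_smul] at h2
      exact h2
    apply hgH
    exact ⟨mem_normalizer_of hW hspan hβ (fun v => hαβ v), hgO⟩

end Cfsg.Agent.S5700
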