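import Cfsg.Statements.S5707
import Cfsg.Agent.Lib.TensSpinG

set_option autoImplicit false
open Cfsg

namespace Cfsg.Agent.S5707

/-- Let F be a finite field with q elements, n ≥ 13 even, Q a non-degenerate quadratic form on F^n of plus type (some subspace of dimension n/2 is totally singular), and Ω the commutator subgroup of the isometry group of Q, viewed inside GL_n(F). Suppose q is even and that, through P and e, the polar form of Q is similar to the t-fold tensor power (t ≥ 2) of a non-degenerate symplectic form f₁ on F^k with k ≤ 4 and (q, k) ≠ (2, 2), Q vanishing on the images of all pure tensors. Then the elements of Ω in the stabiliser of this decomposition form a subgroup that is not maximal: some subgroup lies strictly between it and Ω. -/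
theorem result {F : Type*} [Field F] [Fintype F] {n : ℕ} (hn : 13 ≤ n) (heven : Even n) (Q : (Fin n → F) → F) (hQ : Cfsg.Geo.IsNondegenerateQuadraticForm Q) (hplus : Cfsg.Geo.IsPlusTypeOn Q ⊤) (hchar : ¬ Odd (Fintype.card F)) (k t : ℕ) (ht : 2 ≤ t) (hk : k ≤ 4) (hex1 : ¬ (Fintype.card F = 2 ∧ k = 2)) (e : (Fin n) ≃ (Fin t → Fin k)) (P : Matrix.GeneralLinearGroup (Fin n) F) (f₁ : (Fin k → F) → (Fin k → F) → F) (hf₁ : Cfsg.Geo.IsSymplecticForm f₁) (hT : Cfsg.Geo.IsTensorPowerFormStructure id (QuadraticMap.polar Q) f₁ e P) (hpure : (∀ xs : Fin t → (Fin k → F), Q (Matrix.mulVec (P : Matrix (Fin n) (Fin n) F) ((fun a : Fin t → Fin k => ∏ i, xs i (a i)) ∘ e)) = 0)) : ∃ K : Subgroup (Matrix.GeneralLinearGroup (Fin n) F), Cfsg.Geo.tensorWreathSubgroup k t e P ⊓ Cfsg.Geo.omegaGL Q < K ∧ K < Cfsg.Geo.omegaGL Q := by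
  classical
  have hF2 : ringChar F = 2 := by
    by_contra h
    have := FiniteField.odd_card_of_char_ne_two h
    exact hchar (Nat.odd_iff.2 this)
  have : CharP F 2 := ringChar.of_eq hF2
  -- two distinct factors
  let i₁ : Fin t := ⟨0, by omega⟩
  let i₂ : Fin t := ⟨1, by omega⟩
  have hi : i₁ ≠ i₂ := by
    intro h
    have := congrArg Fin.val h
    simp [i₁, i₂] at this
  -- a symplectic basis
  let B : (Fin k → F) →ₗ[F] (Fin k → F) →ₗ[F] F :=
    LinearMap.mk₂ F f₁ hf₁.bilinear.add_left hf₁.bilinear.smul_left hf₁.bilinear.add_right hf₁.bilinear.smul_right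
  have halt : ∀ v, B v v = 0 := hf₁.alternating
  have hnd : ∀ v, (∀ w, B v w = 0) → v = 0 := by
    intro v hv
    by_contra h0
    obtain ⟨x, hx⟩ := (hf₁.nondegenerate v h0).2
    exact hx (hv x)
  obtain ⟨m, s, hs⟩ := Cfsg.Agent.Lib.SympBasis.exists_symp_basis B halt hnd
  have hkm : k = 2 * m := by
    have h1 := Module.finrank_eq_card_basis s
    rw [Module.finrank_fin_fun] at h1
    simpa using h1
  have hm : m = 1 ∨ m = 2 := by
    have hm0 : m ≠ 0 := by
      rintro rfl
      have hk0 : k = 0 := by omega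
      subst hk0
      exact (e ⟨0, by omega⟩ ⟨0, by omega⟩).elim0
    omega
  rcases hm with rfl | rfl
  · obtain rfl : k = 2 := by omega
    have ht3 : 3 ≤ t := by
      by_contra h
      have ht2 : t = 2 := by omega
      subst ht2
      have hcard := Fintype.card_congr e
      simp at hcard
      omega
    let φ : Fin 2 ≃ Fin 2 × Fin 1 :=
      { toFun := fun p => (p, 0)
        invFun := fun p => p.1
        left_inv := fun _ => rfl
        right_inv := by decide }
    obtain ⟨A, hA⟩ := Cfsg.Agent.Lib.TensSpinG.gram_change hf₁.bilinear (s.reindex φ.symm)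
    have hA' : Matrix.transpose (A : Matrix (Fin 2) (Fin 2) F) * Cfsg.Geo.gramMatrix f₁ * (A : Matrix (Fin 2) (Fin 2) F) =
        (Cfsg.Agent.Lib.TensSpinF.S2 F).J := by
      ext p q
      rw [hA]
      simp only [Module.Basis.reindex_apply, Equiv.symm_symm]
      have := hs (φ p).1 (φ q).1 (φ p).2 (φ q).2
      change f₁ (s (φ p)) (s (φ q)) = _
      have h3 : f₁ (s (φ p)) (s (φ q)) = if (φ p).2 = (φ q).2 then Cfsg.Agent.Lib.SympBasis.J (φ p).1 (φ q).1 else 0 := this
      rw [h3]
      fin_cases p <;> fin_cases q <;> simp [φ, Cfsg.Agent.Lib.SympBasis.J, Cfsg.Agent.Lib.TensSpinF.S2,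
        Cfsg.Agent.Lib.TensSpinF.J2, CharTwo.neg_eq]
    exact Cfsg.Agent.Lib.TensSpinG.reduce (Cfsg.Agent.Lib.TensSpinF.S2 F) hi (Or.inl ht3) A hA' hQ hT hpure
  · obtain rfl : k = 4 := by omega
    let φ : Fin 4 ≃ Fin 2 × Fin 2 :=
      { toFun := ![(0, 0), (1, 0), (0, 1), (1, 1)]
        invFun := fun p => ![![0, 2], ![1, 3]] p.1 p.2
        left_inv := by decide
        right_inv := by decide }
    obtain ⟨A, hA⟩ := Cfsg.Agent.Lib.TensSpinG.gram_change hf₁.bilinear (s.reindex φ.symm)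
    have hA' : Matrix.transpose (A : Matrix (Fin 4) (Fin 4) F) * Cfsg.Geo.gramMatrix f₁ * (A : Matrix (Fin 4) (Fin 4) F) =
        (Cfsg.Agent.Lib.TensSpinF.S4 F).J := by
      ext p q
      rw [hA]
      simp only [Module.Basis.reindex_apply, Equiv.symm_symm]
      have := hs (φ p).1 (φ q).1 (φ p).2 (φ q).2
      change f₁ (s (φ p)) (s (φ q)) = _
      have h3 : f₁ (s (φ p)) (s (φ q)) = if (φ p).2 = (φ q).2 then Cfsg.Agent.Lib.SympBasis.J (φ p).1 (φ q).1 else 0 := this
      rw [h3]
      fin_cases p <;> fin_cases q <;> simp [φ, Cfsg.Agent.Lib.SympBasis.J, Cfsg.Agent.Lib.TensSpinF.S4,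
        Cfsg.Agent.Lib.TensSpinF.J4, CharTwo.neg_eq]
    exact Cfsg.Agent.Lib.TensSpinG.reduce (Cfsg.Agent.Lib.TensSpinF.S4 F) hi
      (Or.inr ⟨Cfsg.Agent.Lib.TensSpinF.S4_star, Cfsg.Agent.Lib.TensSpinF.S4_diag⟩) A hA' hQ hT hpure

end Cfsg.Agent.S5707
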