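import Cfsg.Statements.S5775
import Cfsg.Agent.Lib.H97Q4

set_option autoImplicit false
open Cfsg

namespace Cfsg.Agent.S5775

/-- Every maximal subgroup of SL_3(q) is of one of the listed geometric types or lies in the residual class. Let F be a finite field with q elements and H a maximal subgroup of SL_3(F) (viewed inside GL_3(F)). Then H is the intersection with SL_3(F) of one of: the stabiliser of a proper non-zero subspace; for q ≥ 5, the stabiliser of a decomposition of F^3 into three independent lines; for q ≠ 4, the normaliser of a degree-3 subfield of the matrix algebra; a subfield group for a subfield F₀ with |F| = |F₀|^r, r prime; for q = p ≡ 1 mod 3 prime, the normaliser of an absolutely irreducible 3-subgroup R of exponent 3 with centre of order 3, all of whose characteristic abelian subgroups are cyclic, of order 3^(1+2m) for some m ≥ 1, with F the smallest field of characteristic p containing the cube roots of unity (so R is extraspecial of order 27); for q odd,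 the similarity group of a non-degenerate quadratic form; the similarity group of a non-degenerate unitary form — or else H lies in the residual class of the linear case (modulo scalars H is almost simple, with absolutely irreducible perfect socle preimage realisable over no proper subfield and fixing no non-degenerate quadratic, symplectic or unitary form). -/
theorem result {F : Type*} [Field F] [Fintype F] (H : Subgroup (Matrix.GeneralLinearGroup (Fin 3) F)) (hH : Cfsg.Geo.IsMaximalIn (Cfsg.Geo.specialLinear (Fin 3) F) H) :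
    (∃ W : Submodule F (Fin 3 → F), W ≠ ⊥ ∧ W ≠ ⊤ ∧ H = Cfsg.Geo.subspaceStabilizer W ⊓ Cfsg.Geo.specialLinear (Fin 3) F) ∨
    (5 ≤ Fintype.card F ∧ ∃ D : Fin 3 → Submodule F (Fin 3 → F), Cfsg.Geo.IsMDecomposition 1 D ∧ H = Cfsg.Geo.decompositionStabilizer D ⊓ Cfsg.Geo.specialLinear (Fin 3) F) ∨
    (Fintype.card F ≠ 4 ∧ ∃ K : Subalgebra F (Matrix (Fin 3) (Fin 3) F), Cfsg.Geo.IsFieldSubalgebra 3 K ∧ H = Cfsg.Geo.subalgebraNormalizer K ⊓ Cfsg.Geo.specialLinear (Fin 3) F) ∨
    (∃ (F₀ : Subfield F) (r : ℕ) (P : Matrix.GeneralLinearGroup (Fin 3) F), r.Prime ∧ Fintype.card F = Nat.card F₀ ^ r ∧ H = Cfsg.Geo.subfieldSubgroup F₀ P ⊓ Cfsg.Geo.specialLinear (Fin 3) F) ∨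
    (∃ (p : ℕ) (R : Subgroup (Matrix.GeneralLinearGroup (Fin 3) F)), p.Prime ∧ Fintype.card F = p ∧ p % 3 = 1 ∧ Cfsg.Geo.IsLinearSymplecticTypeData 3 R ∧ H = Cfsg.Geo.subgroupNormalizer R ⊓ Cfsg.Geo.specialLinear (Fin 3) F) ∨
    (Odd (Fintype.card F) ∧ ∃ Q : (Fin 3 → F) → F, Cfsg.Geo.IsNondegenerateQuadraticForm Q ∧ H = Cfsg.Geo.quadSimilarityGroup Q ⊓ Cfsg.Geo.specialLinear (Fin 3) F) ∨
    (∃ (σ : F ≃+* F) (f : (Fin 3 → F) → (Fin 3 → F) → F), Cfsg.Geo.IsUnitaryForm σ f ∧ H = Cfsg.Geo.similarityGroup f ⊓ Cfsg.Geo.specialLinear (Fin 3) F) ∨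
    Cfsg.Geo.InLinearResidualClass H := by
  classical
  rcases Cfsg.Agent.H97.Asch.linear_prime_main (n := 3) (by norm_num) (by decide) hH with h | h | ⟨K, hK, hHK⟩ | h | ⟨p, e, he, hmin, R, hR, hHR⟩ | h | h | h
  · exact Or.inl h
  · exact Or.inr (Or.inl h)
  · by_cases hq : Fintype.card F = 4
    · refine Or.inr (Or.inr (Or.inr (Or.inl ?_)))
      obtain ⟨F₀, P, hF₀, hmain⟩ := Cfsg.Agent.H97.Asch.q4_main hq hK
      have hne : F₀ ≠ ⊤ := by
        rintro rfl
        have h1 : Nat.card (⊤ : Subfield F) = Nat.card F := Nat.card_congr Subfield.topEquiv.toEquiv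
        rw [h1, Nat.card_eq_fintype_card, hq] at hF₀
        omega
      refine ⟨F₀, 2, P, Nat.prime_two, by rw [hF₀, hq]; norm_num, ?_⟩
      refine Cfsg.Agent.H97.Asch.maximal_eq hH ?_ (Cfsg.Agent.H97.Asch.sl_not_le_subfield hne (by simp) P)
      intro g hg
      rw [hHK] at hg
      exact hmain g hg.1 hg.2
    · exact Or.inr (Or.inr (Or.inl ⟨hq, K, hK, hHK⟩))
  · exact Or.inr (Or.inr (Or.inr (Or.inl h)))
  · refine Or.inr (Or.inr (Or.inr (Or.inr (Or.inl ?_))))
    have : Fact (Nat.Prime 3) := ⟨by norm_num⟩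
    obtain ⟨he0, hdvd, h1, hne⟩ := Cfsg.Agent.H97.Asch.min_field_order hmin
    obtain ⟨hp, hc, hcard, -, -⟩ := hmin
    have he1 : e = 1 := Cfsg.Agent.H97.Asch.odd_dvd_2 he hdvd
    subst he1
    refine ⟨p, R, hp, by simpa using hcard, ?_, hR, hHR⟩
    have h2 : ((p : ZMod 3)).val = 1 := by
      rw [pow_one] at h1
      rw [h1]; rfl
    rwa [ZMod.val_natCast] at h2
  · exact Or.inr (Or.inr (Or.inr (Or.inr (Or.inr (Or.inl h)))))
  · exact Or.inr (Or.inr (Or.inr (Or.inr (Or.inr (Or.inr (Or.inl h))))))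
  · exact Or.inr (Or.inr (Or.inr (Or.inr (Or.inr (Or.inr (Or.inr h))))))

end Cfsg.Agent.S5775
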