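import Cfsg.Statements.S5778
import Cfsg.Agent.Lib.SU3O
import Cfsg.Agent.Lib.SU3K3
import Cfsg.Agent.Lib.SU3K5

set_option autoImplicit false
open Cfsg

namespace Cfsg.Agent.S5778

theorem zmod3_e2 : ∀ a : ZMod 3, a ^ 2 = 1 → a ≠ 1 → a.val = 2 := by decide

/-- Every maximal subgroup of SU_3(q), q ≥ 3, is of one of the listed geometric types or lies in the residual class. Let F be the field with q² elements, f the standard unitary form Σ u_i v_i^q on F^3, and H a maximal subgroup of SU_3(q) (the determinant-one isometries of f, inside GL_3(F)). Then H is the intersection with SU_3(q) of one of: the stabiliser of a non-zero subspace on which f vanishes; the stabiliser of a non-degenerate 1-space; for q ≠ 5, the stabiliser of a decomposition into three mutually orthogonal non-degenerate 1-spaces; for q ≠ 3, 5, the normaliser of an adjoint-closed degree-3 subfield of the matrix algebra; a subfield group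 of odd prime index whose F₀-structure carries f; for q odd, q ≥ 7, a subfield group of index 2 whose F₀-structure carries f; for q = p ≡ 2 mod 3 prime with p ≥ 11, the normaliser of an absolutely irreducible subgroup of order 27 with centre of order 3, exponent 3 and all characteristic abelian subgroups cyclic, contained in the similarity group of f — or else H lies in the residual class of the unitary case. -/
theorem result {F : Type*} [Field F] [Fintype F] (q : ℕ) (hF : Fintype.card F = q ^ 2) (hq : 3 ≤ q) (H : Subgroup (Matrix.GeneralLinearGroup (Fin 3) F)) (hH : Cfsg.Geo.IsMaximalIn (Cfsg.GU 3 F q ⊓ Cfsg.Geo.specialLinear (Fin 3) F) H) :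
    (∃ W : Submodule F (Fin 3 → F), W ≠ ⊥ ∧ Cfsg.Geo.IsTotallySingularFor (Cfsg.hermForm 3 F q) W ∧ H = Cfsg.Geo.subspaceStabilizer W ⊓ (Cfsg.GU 3 F q ⊓ Cfsg.Geo.specialLinear (Fin 3) F)) ∨
    (∃ W : Submodule F (Fin 3 → F), W ≠ ⊥ ∧ Cfsg.Geo.IsNondegenerateOn (Cfsg.hermForm 3 F q) W ∧ 2 * Module.finrank F W < 3 ∧ H = Cfsg.Geo.subspaceStabilizer W ⊓ (Cfsg.GU 3 F q ⊓ Cfsg.Geo.specialLinear (Fin 3) F)) ∨
    (q ≠ 5 ∧ ∃ D : Fin 3 → Submodule F (Fin 3 → F), Cfsg.Geo.IsNondegenerateMDecomposition (Cfsg.hermForm 3 F q) 1 D ∧ H = Cfsg.Geo.decompositionStabilizer D ⊓ (Cfsg.GU 3 F q ⊓ Cfsg.Geo.specialLinear (Fin 3) F)) ∨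
    (q ≠ 3 ∧ q ≠ 5 ∧ ∃ K : Subalgebra F (Matrix (Fin 3) (Fin 3) F), Cfsg.Geo.IsFieldSubalgebra 3 K ∧ Cfsg.Geo.IsAdjointClosedFor (Cfsg.hermForm 3 F q) K ∧ H = Cfsg.Geo.subalgebraNormalizer K ⊓ (Cfsg.GU 3 F q ⊓ Cfsg.Geo.specialLinear (Fin 3) F)) ∨
    (∃ (F₀ : Subfield F) (r : ℕ) (P : Matrix.GeneralLinearGroup (Fin 3) F), r.Prime ∧ Odd r ∧ Fintype.card F = Nat.card F₀ ^ r ∧ Cfsg.Geo.IsFormRationalStructure (Cfsg.hermForm 3 F q) F₀ 1 P ∧ H = Cfsg.Geo.subfieldSubgroup F₀ P ⊓ (Cfsg.GU 3 F q ⊓ Cfsg.Geo.specialLinear (Fin 3) F)) ∨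
    (Odd q ∧ 7 ≤ q ∧ ∃ (F₀ : Subfield F) (P : Matrix.GeneralLinearGroup (Fin 3) F), Fintype.card F = Nat.card F₀ ^ 2 ∧ Cfsg.Geo.IsFormRationalStructure (Cfsg.hermForm 3 F q) F₀ 1 P ∧ H = Cfsg.Geo.subfieldSubgroup F₀ P ⊓ (Cfsg.GU 3 F q ⊓ Cfsg.Geo.specialLinear (Fin 3) F)) ∨
    (∃ (p : ℕ) (R : Subgroup (Matrix.GeneralLinearGroup (Fin 3) F)), p.Prime ∧ q = p ∧ p % 3 = 2 ∧ 11 ≤ p ∧ Cfsg.Geo.IsSymplecticTypeGroup 3 R ∧ Cfsg.Geo.ActsAbsolutelyIrreducibly (Cfsg.Geo.matrixSet R) ∧ R ≤ Cfsg.Geo.similarityGroup (Cfsg.hermForm 3 F q) ∧ Nat.card R = 27 ∧ Nat.card (Subgroup.center R) = 3 ∧ H = Cfsg.Geo.subgroupNormalizer R ⊓ (Cfsg.GU 3 F q ⊓ Cfsg.Geo.specialLinear (Fin 3) F)) ∨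
    Cfsg.Geo.InUnitaryResidualClass H := by
  classical
  have C := Cfsg.Agent.H97.Asch.herm_ctx (n := 3) hF (by norm_num)
  rcases Cfsg.Agent.SU3Main.su3_main C q hF (fun x => rfl) hq inf_le_right hH with
    h | h | ⟨D, hD, hHD⟩ | ⟨A, hA, hadj, hHA⟩ | h | ⟨hodd, F₀, P, hc, hP, hHP⟩ | ⟨p, e, R, hp3, hmin, hR1, hR2, hR3, hR4, hR5, E, hHR⟩ | h
  · exact Or.inl h
  · exact Or.inr (Or.inl h)
  · by_cases h5 : q = 5
    · subst h5
      exact (Cfsg.Agent.SU3X5.no_frame5 hF hD (hHD ▸ hH)).elim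
    · exact Or.inr (Or.inr (Or.inl ⟨h5, D, hD, hHD⟩))
  · by_cases h3 : q = 3
    · subst h3
      obtain ⟨i, CC⟩ := Cfsg.Agent.SU3C.exists_cx (p := 3) (Or.inl rfl) hF
      exact (Cfsg.Agent.SU3K.no_K Cfsg.Agent.SU3K3.chk CC hF hA hadj (hHA ▸ hH)).elim
    by_cases h5 : q = 5
    · subst h5
      obtain ⟨i, CC⟩ := Cfsg.Agent.SU3C.exists_cx (p := 5) (Or.inr rfl) hF
      exact (Cfsg.Agent.SU3K.no_K Cfsg.Agent.SU3K5.chk CC hF hA hadj (hHA ▸ hH)).elim
    · exact Or.inr (Or.inr (Or.inr (Or.inl ⟨h3, h5, A, hA, hadj, hHA⟩)))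
  · exact Or.inr (Or.inr (Or.inr (Or.inr (Or.inl h))))
  · by_cases h3 : q = 3
    · subst h3
      obtain ⟨D, hD, hHD⟩ := Cfsg.Agent.SU3O.orth3 hF hc hP hH hHP
      exact Or.inr (Or.inr (Or.inl ⟨by norm_num, D, hD, hHD⟩))
    by_cases h5 : q = 5
    · subst h5
      exact (Cfsg.Agent.SU3O.no_orth5 hF hc hP (hHP ▸ hH)).elim
    · have h7 : 7 ≤ q := by
        obtain ⟨k, rfl⟩ := hodd
        omega
      exact Or.inr (Or.inr (Or.inr (Or.inr (Or.inr (Or.inl ⟨hodd, h7, F₀, P, hc, hP, hHP⟩)))))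
  · have : Fact (Nat.Prime 3) := ⟨by norm_num⟩
    obtain ⟨k, hk0, hqk, hdvd, h1, hne⟩ := Cfsg.Agent.H97.Asch.min_field_q hF hmin
    have hval : ((p : ZMod 3)).val = p % 3 := ZMod.val_natCast 3 p
    have hk : k = 1 := by
      have h6 : 2 * k ∣ 2 := hdvd
      have hle := Nat.le_of_dvd (by norm_num) h6
      omega
    subst hk
    have hp : p.Prime := hmin.1
    have hqp : q = p := by simpa using hqk
    subst hqp
    have hq3 : q % 3 = 2 := by
      rw [← hval]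
      exact zmod3_e2 _ h1 (by simpa using hne 1 (by norm_num) (by norm_num))
    by_cases h5 : q = 5
    · subst h5
      exact (Cfsg.Agent.SU3R5.no_R5 hF E hR3 (hHR ▸ hH)).elim
    · have h8 : q ≠ 8 := by
        rintro rfl
        norm_num at hp
      have h11 : 11 ≤ q := by omega
      have hsim : R ≤ Cfsg.Geo.similarityGroup (Cfsg.hermForm 3 F q) := by
        intro g hg
        refine ⟨1, fun u v => ?_⟩
        rw [Units.val_one, one_mul]
        exact (hR3 hg).1 u v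
      refine Or.inr (Or.inr (Or.inr (Or.inr (Or.inr (Or.inr (Or.inl ⟨q, R, hp, rfl, hq3, h11, hR1, hR2, hsim, ?_, hR5, hHR⟩))))))
      rw [hR4]
      norm_num
  · exact Or.inr (Or.inr (Or.inr (Or.inr (Or.inr (Or.inr (Or.inr h))))))

end Cfsg.Agent.S5778
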