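import Cfsg.Statements.S5781
import Cfsg.Agent.Lib.H97Max8

set_option autoImplicit false
open Cfsg

namespace Cfsg.Agent.S5781

/-- Every maximal subgroup of SL_4(q) is of one of the listed geometric types or lies in the residual class. Let F be a finite field with q elements and H a maximal subgroup of SL_4(F) (inside GL_4(F)). Then H is the intersection with SL_4(F) of one of: the stabiliser of a proper non-zero subspace; for q ≥ 7, the stabiliser of a decomposition into four independent lines; for q ≥ 4, the stabiliser of a decomposition into two independent planes; the normaliser of a degree-2 subfield of the matrix algebra; a subfield group for a subfield F₀ with |F| = |F₀|^r, r prime; for q = p ≡ 1 mod 4 prime, the normaliser of an absolutely irreducible 2-subgroup R of exponent 4 with centre of order 4, all of whose characteristic abelian subgroups are cyclic, of order 2^(2+2m) for some m (here |R| = 64), with 4 dividing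 p − 1; for q odd, the similarity group of a non-degenerate quadratic form; the similarity group of a non-degenerate symplectic form; the similarity group of a non-degenerate unitary form — or else H lies in the residual class of the linear case. -/
theorem result {F : Type*} [Field F] [Fintype F] (H : Subgroup (Matrix.GeneralLinearGroup (Fin 4) F)) (hH : Cfsg.Geo.IsMaximalIn (Cfsg.Geo.specialLinear (Fin 4) F) H) :
    (∃ W : Submodule F (Fin 4 → F), W ≠ ⊥ ∧ W ≠ ⊤ ∧ H = Cfsg.Geo.subspaceStabilizer W ⊓ Cfsg.Geo.specialLinear (Fin 4) F) ∨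
    (7 ≤ Fintype.card F ∧ ∃ D : Fin 4 → Submodule F (Fin 4 → F), Cfsg.Geo.IsMDecomposition 1 D ∧ H = Cfsg.Geo.decompositionStabilizer D ⊓ Cfsg.Geo.specialLinear (Fin 4) F) ∨
    (4 ≤ Fintype.card F ∧ ∃ D : Fin 2 → Submodule F (Fin 4 → F), Cfsg.Geo.IsMDecomposition 2 D ∧ H = Cfsg.Geo.decompositionStabilizer D ⊓ Cfsg.Geo.specialLinear (Fin 4) F) ∨
    (∃ K : Subalgebra F (Matrix (Fin 4) (Fin 4) F), Cfsg.Geo.IsFieldSubalgebra 2 K ∧ H = Cfsg.Geo.subalgebraNormalizer K ⊓ Cfsg.Geo.specialLinear (Fin 4) F) ∨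
    (∃ (F₀ : Subfield F) (r : ℕ) (P : Matrix.GeneralLinearGroup (Fin 4) F), r.Prime ∧ Fintype.card F = Nat.card F₀ ^ r ∧ H = Cfsg.Geo.subfieldSubgroup F₀ P ⊓ Cfsg.Geo.specialLinear (Fin 4) F) ∨
    (∃ (p : ℕ) (R : Subgroup (Matrix.GeneralLinearGroup (Fin 4) F)), p.Prime ∧ Fintype.card F = p ∧ p % 4 = 1 ∧ Cfsg.Geo.IsLinearSymplecticTypeData 2 R ∧ H = Cfsg.Geo.subgroupNormalizer R ⊓ Cfsg.Geo.specialLinear (Fin 4) F) ∨
    (Odd (Fintype.card F) ∧ ∃ Q : (Fin 4 → F) → F, Cfsg.Geo.IsNondegenerateQuadraticForm Q ∧ H = Cfsg.Geo.quadSimilarityGroup Q ⊓ Cfsg.Geo.specialLinear (Fin 4) F) ∨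
    (∃ f : (Fin 4 → F) → (Fin 4 → F) → F, Cfsg.Geo.IsSymplecticForm f ∧ H = Cfsg.Geo.similarityGroup f ⊓ Cfsg.Geo.specialLinear (Fin 4) F) ∨
    (∃ (σ : F ≃+* F) (f : (Fin 4 → F) → (Fin 4 → F) → F), Cfsg.Geo.IsUnitaryForm σ f ∧ H = Cfsg.Geo.similarityGroup f ⊓ Cfsg.Geo.specialLinear (Fin 4) F) ∨
    Cfsg.Geo.InLinearResidualClass H := by
  classical
  have hq2 : 2 ≤ Fintype.card F := Fintype.one_lt_card
  have hres := Cfsg.Agent.H97.Asch.linear_maximal_main (by norm_num) hH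
  rcases hres with ⟨W, h0, h1, h⟩ | ⟨t, m, D, hD, hmul, hm1, hm2, h⟩ | ⟨r, K, hr, hrn, hK, h⟩ | ⟨n₁, n₂, e, P, h1, h2, h3, h⟩ | ⟨F₀, r, P, hr, hc, h⟩ | ⟨r, m, R, hr, hm, hd, h⟩ | ⟨m, t, e, P, hm, ht, h⟩ | ⟨hodd, Q, hQ, h⟩ | ⟨f, hf, h⟩ | ⟨σ, f, hf, h⟩ | hres
  · exact Or.inl ⟨W, h0, h1, h⟩
  · have hD2 := hD.two_le
    have hm0 := hD.pos
    have hmle : m ≤ 2 := by nlinarith
    interval_cases m
    · obtain rfl : t = 4 := by omega
      by_cases hq5 : Fintype.card F = 5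
      · have hle : H ≤ Cfsg.Geo.decompositionStabilizer D := by rw [h]; exact inf_le_left
        obtain ⟨R, C, hR⟩ := Cfsg.Agent.H97.Asch.frame4_nrm hq5 hH hD hle
        rcases Cfsg.Agent.H97.Asch.sym_outcomes (by norm_num) hH C hR with ⟨F₀, r, P, hr, hc, h⟩ | ⟨m, hr, hm, hd, h⟩ | ⟨hodd, Q, hQ, h⟩ | ⟨f, hf, h⟩ | ⟨σ, f, hf, h⟩
        · exact Or.inr <| Or.inr <| Or.inr <| Or.inr <| Or.inl ⟨F₀, r, P, hr, hc, h⟩
        · obtain ⟨p, hp, hc, hp4⟩ := Cfsg.Agent.H97.Asch.class6_two (by norm_num) hd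
          exact Or.inr <| Or.inr <| Or.inr <| Or.inr <| Or.inr <| Or.inl ⟨p, R, hp, hc, hp4, hd, h⟩
        · exact Or.inr <| Or.inr <| Or.inr <| Or.inr <| Or.inr <| Or.inr <| Or.inl ⟨hodd, Q, hQ, h⟩
        · exact Or.inr <| Or.inr <| Or.inr <| Or.inr <| Or.inr <| Or.inr <| Or.inr <| Or.inl ⟨f, hf, h⟩
        · exact Or.inr <| Or.inr <| Or.inr <| Or.inr <| Or.inr <| Or.inr <| Or.inr <| Or.inr <| Or.inl ⟨σ, f, hf, h⟩
      · have h5 := hm1 rfl
        have h6 : Fintype.card F ≠ 6 := by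
          intro h6
          obtain ⟨p, hp⟩ := CharP.exists F
          obtain ⟨e, hpp, hcp⟩ := FiniteField.card F p
          rw [h6] at hcp
          exact Cfsg.Agent.H97.Asch.no_prime_pow_of_two_primes (by norm_num : Nat.Prime 2) (by norm_num : Nat.Prime 3) (by norm_num) (by norm_num) (by norm_num) hpp hcp
        exact Or.inr <| Or.inl ⟨by omega, D, hD, h⟩
    · obtain rfl : t = 2 := by omega
      by_cases hq3 : Fintype.card F = 3
      · obtain ⟨f, hf, hle⟩ := Cfsg.Agent.H97.Asch.planes_symp3 hq3 hD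
        have hle' : H ≤ Cfsg.Geo.similarityGroup f := by
          rw [h]
          exact hle
        refine Or.inr <| Or.inr <| Or.inr <| Or.inr <| Or.inr <| Or.inr <| Or.inr <| Or.inl ⟨f, hf, Cfsg.Agent.H97.Asch.maximal_eq hH hle' ?_⟩
        exact Cfsg.Agent.H97.Asch.sl_not_le_sim (by simp) (Cfsg.Agent.H97.Asch.sesq_of_bilinear hf.bilinear) (fun v hv => (hf.nondegenerate v hv).2)
      · have h3 := hm2 rfl
        exact Or.inr <| Or.inr <| Or.inl ⟨by omega, D, hD, h⟩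
  · have hrle : r ≤ 4 := Nat.le_of_dvd (by norm_num) hrn
    have hr2 := hr.two_le
    interval_cases r
    · exact Or.inr <| Or.inr <| Or.inr <| Or.inl ⟨K, hK, h⟩
    · exact absurd hrn (by norm_num)
    · exact absurd hr (by norm_num)
  · have hprod := Cfsg.Agent.H97.Asch.tensor_dims e
    have hn₁ : n₁ ≤ 2 := by nlinarith
    interval_cases n₁
    omega
  · exact Or.inr <| Or.inr <| Or.inr <| Or.inr <| Or.inl ⟨F₀, r, P, hr, hc, h⟩
  · obtain rfl := Cfsg.Agent.H97.Asch.prime_of_dvd_pow (by norm_num : Nat.Prime 2) (by norm_num : 2 ∣ 4) hr hm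
    obtain ⟨p, hp, hc, hp4⟩ := Cfsg.Agent.H97.Asch.class6_two (by norm_num) hd
    exact Or.inr <| Or.inr <| Or.inr <| Or.inr <| Or.inr <| Or.inl ⟨p, R, hp, hc, hp4, hd, h⟩
  · have hpow := Cfsg.Agent.H97.Asch.wreath_dims e
    have h9 := Nat.pow_le_pow_right (by omega : 0 < m) ht
    exfalso
    nlinarith
  · exact Or.inr <| Or.inr <| Or.inr <| Or.inr <| Or.inr <| Or.inr <| Or.inl ⟨hodd, Q, hQ, h⟩
  · exact Or.inr <| Or.inr <| Or.inr <| Or.inr <| Or.inr <| Or.inr <| Or.inr <| Or.inl ⟨f, hf, h⟩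
  · exact Or.inr <| Or.inr <| Or.inr <| Or.inr <| Or.inr <| Or.inr <| Or.inr <| Or.inr <| Or.inl ⟨σ, f, hf, h⟩
  · exact Or.inr <| Or.inr <| Or.inr <| Or.inr <| Or.inr <| Or.inr <| Or.inr <| Or.inr <| Or.inr <| hres

end Cfsg.Agent.S5781
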