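import Cfsg.Statements.S5784
import Cfsg.Agent.Lib.H97K10

set_option autoImplicit false
open Cfsg

namespace Cfsg.Agent.S5784

/-- Every maximal subgroup of SU_4(q) is of one of the listed geometric types or lies in the residual class. Let F be the field with q² elements, f the standard unitary form Σ u_i v_i^q on F^4, and H a maximal subgroup of SU_4(q) (inside GL_4(F)). Then H is the intersection with SU_4(q) of one of: the stabiliser of a non-zero subspace on which f vanishes; the stabiliser of a non-degenerate 1-space; for q ≠ 3, the stabiliser of a decomposition into four mutually orthogonal non-degenerate 1-spaces; for q ≥ 3, of a decomposition into two orthogonal non-degenerate 2-spaces; for q ≥ 4, of a decomposition into two totally isotropic 2-spaces; a subfield group of odd prime index whose F₀-structure carries f; a subfield group of index 2 whose F₀-structure carries ζ f,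 vanishing on pairs (u, u), for some non-zero ζ with ζ + ζ^q = 0; for q odd, a subfield group of index 2 whose F₀-structure carries f; for q = p ≡ 3 mod 4 prime, the normaliser of an absolutely irreducible symplectic-type 2-group of exponent 4, order 64 and centre of order 4 inside the similarity group of f — or else H lies in the residual class of the unitary case. -/
theorem result {F : Type*} [Field F] [Fintype F] (q : ℕ) (hF : Fintype.card F = q ^ 2) (H : Subgroup (Matrix.GeneralLinearGroup (Fin 4) F)) (hH : Cfsg.Geo.IsMaximalIn (Cfsg.GU 4 F q ⊓ Cfsg.Geo.specialLinear (Fin 4) F) H) :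
    (∃ W : Submodule F (Fin 4 → F), W ≠ ⊥ ∧ Cfsg.Geo.IsTotallySingularFor (Cfsg.hermForm 4 F q) W ∧ H = Cfsg.Geo.subspaceStabilizer W ⊓ (Cfsg.GU 4 F q ⊓ Cfsg.Geo.specialLinear (Fin 4) F)) ∨
    (∃ W : Submodule F (Fin 4 → F), W ≠ ⊥ ∧ Cfsg.Geo.IsNondegenerateOn (Cfsg.hermForm 4 F q) W ∧ 2 * Module.finrank F W < 4 ∧ H = Cfsg.Geo.subspaceStabilizer W ⊓ (Cfsg.GU 4 F q ⊓ Cfsg.Geo.specialLinear (Fin 4) F)) ∨
    (q ≠ 3 ∧ ∃ D : Fin 4 → Submodule F (Fin 4 → F), Cfsg.Geo.IsNondegenerateMDecomposition (Cfsg.hermForm 4 F q) 1 D ∧ H = Cfsg.Geo.decompositionStabilizer D ⊓ (Cfsg.GU 4 F q ⊓ Cfsg.Geo.specialLinear (Fin 4) F)) ∨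
    (3 ≤ q ∧ ∃ D : Fin 2 → Submodule F (Fin 4 → F), Cfsg.Geo.IsNondegenerateMDecomposition (Cfsg.hermForm 4 F q) 2 D ∧ H = Cfsg.Geo.decompositionStabilizer D ⊓ (Cfsg.GU 4 F q ⊓ Cfsg.Geo.specialLinear (Fin 4) F)) ∨
    (4 ≤ q ∧ ∃ D : Fin 2 → Submodule F (Fin 4 → F), Cfsg.Geo.IsMDecomposition 2 D ∧ (∀ i, Cfsg.Geo.IsTotallySingularFor (Cfsg.hermForm 4 F q) (D i)) ∧ H = Cfsg.Geo.decompositionStabilizer D ⊓ (Cfsg.GU 4 F q ⊓ Cfsg.Geo.specialLinear (Fin 4) F)) ∨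
    (∃ (F₀ : Subfield F) (r : ℕ) (P : Matrix.GeneralLinearGroup (Fin 4) F), r.Prime ∧ Odd r ∧ Fintype.card F = Nat.card F₀ ^ r ∧ Cfsg.Geo.IsFormRationalStructure (Cfsg.hermForm 4 F q) F₀ 1 P ∧ H = Cfsg.Geo.subfieldSubgroup F₀ P ⊓ (Cfsg.GU 4 F q ⊓ Cfsg.Geo.specialLinear (Fin 4) F)) ∨
    (∃ (F₀ : Subfield F) (P : Matrix.GeneralLinearGroup (Fin 4) F) (ζ : F), Fintype.card F = Nat.card F₀ ^ 2 ∧ ζ ≠ 0 ∧ ζ + ζ ^ q = 0 ∧ Cfsg.Geo.IsFormRationalStructure (Cfsg.hermForm 4 F q) F₀ ζ P ∧ (∀ u : Fin 4 → F, (∀ i, u i ∈ F₀) → (Cfsg.hermForm 4 F q) (Matrix.mulVec (P : Matrix (Fin 4) (Fin 4) F) u) (Matrix.mulVec (P : Matrix (Fin 4) (Fin 4) F) u) = 0) ∧ H = Cfsg.Geo.subfieldSubgroup F₀ P ⊓ (Cfsg.GU 4 F q ⊓ Cfsg.Geo.specialLinear (Fin 4) F)) ∨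
    (Odd q ∧ ∃ (F₀ : Subfield F) (P : Matrix.GeneralLinearGroup (Fin 4) F), Fintype.card F = Nat.card F₀ ^ 2 ∧ Cfsg.Geo.IsFormRationalStructure (Cfsg.hermForm 4 F q) F₀ 1 P ∧ H = Cfsg.Geo.subfieldSubgroup F₀ P ⊓ (Cfsg.GU 4 F q ⊓ Cfsg.Geo.specialLinear (Fin 4) F)) ∨
    (∃ (p : ℕ) (R : Subgroup (Matrix.GeneralLinearGroup (Fin 4) F)), p.Prime ∧ q = p ∧ p % 4 = 3 ∧ Cfsg.Geo.IsSymplecticTypeGroup 2 R ∧ Cfsg.Geo.ActsAbsolutelyIrreducibly (Cfsg.Geo.matrixSet R) ∧ R ≤ Cfsg.Geo.similarityGroup (Cfsg.hermForm 4 F q) ∧ Nat.card R = 64 ∧ Nat.card (Subgroup.center R) = 4 ∧ H = Cfsg.Geo.subgroupNormalizer R ⊓ (Cfsg.GU 4 F q ⊓ Cfsg.Geo.specialLinear (Fin 4) F)) ∨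
    Cfsg.Geo.InUnitaryResidualClass H := by
  classical
  have hmax := Cfsg.Agent.H97.Asch.Su.herm_max hF (by norm_num) hH
  have hq2 := Cfsg.Agent.H97.Asch.two_le_q_of_card hF
  have C := Cfsg.Agent.H97.Asch.herm_ctx (n := 4) hF (by norm_num)
  rcases hmax with ⟨W, h0, h1, h2⟩ | ⟨W, h0, h1, h2, h3⟩ | ⟨t, k, D, h1, h2⟩ | ⟨k, D, h0, h1, h2, h3⟩ |
    ⟨F₀, r, P, h0, h1, h2, h3, h4⟩ | ⟨F₀, P, h0, h1, h2, h3⟩ | ⟨F₀, P, ζ, h0, h1, h2, h3, h4, h5, h6⟩ |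
    ⟨r, R, p, e, k, h0, h1, h2, h3, h4, h5, h6, h7, h8⟩ |
    ⟨r, K', h0, h1, h2, h3, h4⟩ | ⟨n₁, n₂, e, P, f₁, f₂, h0, h1, h2, h3, h4, h5⟩ |
    ⟨k, t, e, P, f₁, h0, h1, h2, h3, h4, h5⟩ | h
  · exact Or.inl ⟨W, h0, h1, h2⟩
  · refine Or.inr <| Or.inl ⟨W, h0, h1, ?_, h3⟩
    simpa using h2
  · have hc := Cfsg.Agent.H97.Asch.card_of_mdecomp h1.decomp
    have ht := h1.decomp.two_le
    have hk := h1.decomp.pos
    rw [Fintype.card_fin] at hc
    have hkle : k ≤ 2 := by nlinarith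
    interval_cases k
    · obtain rfl : t = 4 := by omega
      by_cases hq3 : q = 3
      · subst hq3
        have hF9 : Fintype.card F = 9 := by rw [hF]; norm_num
        obtain ⟨R, r1, r2, r3, r4, r5, r6⟩ := Cfsg.Agent.H97.Asch.Su.frame_q3 C (fun _ => rfl) hF9 (by simp)
          (fun g hg => (Cfsg.Agent.H97.Asch.mem_sl_iff g).mp hg.2) hH h1 (h2 ▸ inf_le_left)
        exact Or.inr <| Or.inr <| Or.inr <| Or.inr <| Or.inr <| Or.inr <| Or.inr <| Or.inr <| Or.inl ⟨3, R, by norm_num, rfl, by norm_num, r1, r2, r3, r4, r5, r6⟩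
      · exact Or.inr <| Or.inr <| Or.inl ⟨hq3, D, h1, h2⟩
    · obtain rfl : t = 2 := by omega
      by_cases hq3 : 3 ≤ q
      · exact Or.inr <| Or.inr <| Or.inr <| Or.inl ⟨hq3, D, h1, h2⟩
      · obtain rfl : q = 2 := by omega
        have hF4 : Fintype.card F = 4 := by rw [hF]; norm_num
        obtain ⟨D', hD', hE⟩ := Cfsg.Agent.H97.Asch.SuMax.frame_of_two C hF4 (fun _ => rfl) (by norm_num) h1 hH (h2 ▸ inf_le_left)
        exact Or.inr <| Or.inr <| Or.inl ⟨by norm_num, D', hD', hE⟩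
  · obtain rfl : k = 2 := by
      simp at h0
      omega
    by_cases hq4 : 4 ≤ q
    · exact Or.inr <| Or.inr <| Or.inr <| Or.inr <| Or.inl ⟨hq4, D, h1, h2, h3⟩
    · have hq23 : q = 2 ∨ q = 3 := by omega
      obtain ⟨F₀, P, ζ, r1, r2, r3, r4, r5, r6⟩ := Cfsg.Agent.H97.Asch.Su.ts_pair_q23 C (fun _ => rfl) hF hq23
        (fun g hg => (Cfsg.Agent.H97.Asch.mem_sl_iff g).mp hg.2) hH h1 h2 (h3 ▸ inf_le_left)
      exact Or.inr <| Or.inr <| Or.inr <| Or.inr <| Or.inr <| Or.inr <| Or.inl ⟨F₀, P, ζ, r1, r2, r3, r4, r5, r6⟩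
  · exact Or.inr <| Or.inr <| Or.inr <| Or.inr <| Or.inr <| Or.inl ⟨F₀, r, P, h0, h1, h2, h3, h4⟩
  · exact Or.inr <| Or.inr <| Or.inr <| Or.inr <| Or.inr <| Or.inr <| Or.inr <| Or.inl ⟨h0, F₀, P, h1, h2, h3⟩
  · exact Or.inr <| Or.inr <| Or.inr <| Or.inr <| Or.inr <| Or.inr <| Or.inl ⟨F₀, P, ζ, h1, h2, h3, h4, h5, h6⟩
  · rw [Fintype.card_fin] at h6
    obtain rfl := Cfsg.Agent.H97.Asch.prime_of_dvd_pow (by norm_num : Nat.Prime 2) (by norm_num : 2 ∣ 4) h0.prime h6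
    have hk2 : k = 2 := by
      have h9 : (2 : ℕ) ^ 2 = 2 ^ k := by rw [← h6]; norm_num
      exact (Nat.pow_right_injective (le_refl 2) h9).symm
    subst hk2
    rcases h5 with ⟨ho, -⟩ | ⟨-, he, hz, hR⟩
    · exact absurd ho (by decide)
    · subst he
      rw [hz] at h4
      obtain ⟨hqp, hmod⟩ := Cfsg.Agent.H97.Asch.class6_4 hF h4
      exact Or.inr <| Or.inr <| Or.inr <| Or.inr <| Or.inr <| Or.inr <| Or.inr <| Or.inr <| Or.inl ⟨p, R, h4.1, hqp, hmod, h0, h1, h2, by rw [hR]; norm_num, hz, h8⟩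
  · have hd := Cfsg.Agent.H97.Asch.dvd_of_fieldSubalgebra h2
    rw [Fintype.card_fin] at hd
    have hrle : r ≤ 4 := Nat.le_of_dvd (by norm_num) hd
    have hr2 := h0.two_le
    interval_cases r
    · exact absurd h1 (by decide)
    · exact absurd hd (by norm_num)
    · exact absurd h1 (by decide)
  · exfalso
    have hprod := Cfsg.Agent.H97.Asch.tensor_dims e
    nlinarith
  · exfalso
    have hpow := Cfsg.Agent.H97.Asch.wreath_dims e
    have h6 := Nat.pow_le_pow_right (by omega : 0 < k) h1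
    have h27 := Nat.pow_le_pow_left h0 2
    omega
  · exact Or.inr <| Or.inr <| Or.inr <| Or.inr <| Or.inr <| Or.inr <| Or.inr <| Or.inr <| Or.inr <| h

end Cfsg.Agent.S5784
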