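import Cfsg.Statements.S5787
import Cfsg.Agent.Lib.H97K5

set_option autoImplicit false
open Cfsg

namespace Cfsg.Agent.S5787

/-- Every maximal subgroup of Sp_4(q), q odd, is of one of the listed geometric types or lies in the residual class. Let F be a finite field of odd order q, f the standard alternating form on F^4 (coordinates Fin 2 ⊕ Fin 2), and H a maximal subgroup of the isometry group Sp_4(F) (inside GL_4(F)). Then H is the intersection with Sp_4(F) of one of: the stabiliser of a non-zero totally isotropic subspace; the stabiliser of a decomposition into two orthogonal non-degenerate 2-spaces; for q ≥ 5, of a decomposition into two totally isotropic 2-spaces; the normaliser of a degree-2 subfield K of the matrix algebra, self-adjoint with f(k v, v) = 0; for q ≥ 5, the normaliser of a degree-2 subfield closed under adjoints but not self-adjoint; a subfield group whose F₀-structure carries a non-zero multiple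 of f, |F| = |F₀|^r with r prime; for q = p prime, the normaliser of an absolutely irreducible symplectic-type 2-group of exponent 4, order 32, centre of order 2 and minus type inside the similarity group of f — or else H lies in the residual class of the symplectic case. -/
theorem result {F : Type*} [Field F] [Fintype F] (hodd : Odd (Fintype.card F)) (H : Subgroup (Matrix.GeneralLinearGroup (Fin 2 ⊕ Fin 2) F)) (hH : Cfsg.Geo.IsMaximalIn (Cfsg.spGL 2 F) H) :
    (∃ W : Submodule F (Fin 2 ⊕ Fin 2 → F), W ≠ ⊥ ∧ Cfsg.Geo.IsTotallySingularFor (Cfsg.sympForm 2 F) W ∧ H = Cfsg.Geo.subspaceStabilizer W ⊓ Cfsg.spGL 2 F) ∨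
    (∃ D : Fin 2 → Submodule F (Fin 2 ⊕ Fin 2 → F), Cfsg.Geo.IsNondegenerateMDecomposition (Cfsg.sympForm 2 F) 2 D ∧ H = Cfsg.Geo.decompositionStabilizer D ⊓ Cfsg.spGL 2 F) ∨
    (5 ≤ Fintype.card F ∧ ∃ D : Fin 2 → Submodule F (Fin 2 ⊕ Fin 2 → F), Cfsg.Geo.IsMDecomposition 2 D ∧ (∀ i, Cfsg.Geo.IsTotallySingularFor (Cfsg.sympForm 2 F) (D i)) ∧ H = Cfsg.Geo.decompositionStabilizer D ⊓ Cfsg.spGL 2 F) ∨
    (∃ K : Subalgebra F (Matrix (Fin 2 ⊕ Fin 2) (Fin 2 ⊕ Fin 2) F), Cfsg.Geo.IsFieldSubalgebra 2 K ∧ Cfsg.Geo.IsSelfAdjointFor (Cfsg.sympForm 2 F) K ∧ (∀ k ∈ K, ∀ v : (Fin 2 ⊕ Fin 2 → F), (Cfsg.sympForm 2 F) (Matrix.mulVec k v) v = 0) ∧ H = Cfsg.Geo.subalgebraNormalizer K ⊓ Cfsg.spGL 2 F) ∨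
    (5 ≤ Fintype.card F ∧ ∃ K : Subalgebra F (Matrix (Fin 2 ⊕ Fin 2) (Fin 2 ⊕ Fin 2) F), Cfsg.Geo.IsFieldSubalgebra 2 K ∧ Cfsg.Geo.IsAdjointClosedFor (Cfsg.sympForm 2 F) K ∧ ¬ Cfsg.Geo.IsSelfAdjointFor (Cfsg.sympForm 2 F) K ∧ H = Cfsg.Geo.subalgebraNormalizer K ⊓ Cfsg.spGL 2 F) ∨
    (∃ (F₀ : Subfield F) (r : ℕ) (P : Matrix.GeneralLinearGroup (Fin 2 ⊕ Fin 2) F) (ζ : F), r.Prime ∧ Fintype.card F = Nat.card F₀ ^ r ∧ ζ ≠ 0 ∧ Cfsg.Geo.IsFormRationalStructure (Cfsg.sympForm 2 F) F₀ ζ P ∧ H = Cfsg.Geo.subfieldSubgroup F₀ P ⊓ Cfsg.spGL 2 F) ∨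
    (∃ (p : ℕ) (R : Subgroup (Matrix.GeneralLinearGroup (Fin 2 ⊕ Fin 2) F)), p.Prime ∧ Fintype.card F = p ∧ Cfsg.Geo.IsSymplecticTypeGroup 2 R ∧ Cfsg.Geo.ActsAbsolutelyIrreducibly (Cfsg.Geo.matrixSet R) ∧ R ≤ Cfsg.Geo.similarityGroup (Cfsg.sympForm 2 F) ∧ Nat.card R = 32 ∧ Nat.card (Subgroup.center R) = 2 ∧ Cfsg.Geo.IsOfMinusType 2 R ∧ H = Cfsg.Geo.subgroupNormalizer R ⊓ Cfsg.spGL 2 F) ∨
    Cfsg.Geo.InSymplecticResidualClass H := by
  classical
  haveI : Nonempty (Fin 2 ⊕ Fin 2) := ⟨Sum.inl ⟨0, by norm_num⟩⟩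
  have C := Cfsg.Agent.H97.Asch.sp_ctx (F := F) 2
  have hcardι : Fintype.card (Fin 2 ⊕ Fin 2) = 4 := by simp
  have hmax := Cfsg.Agent.H97.Asch.Sp.maximal C (by omega) hH
  have hq2 : 2 ≤ Fintype.card F := Fintype.one_lt_card
  rcases hmax with ⟨W, h0, h1, h2⟩ | ⟨W, h0, h1, h2, h3⟩ | ⟨t, k, D, h1, h2⟩ | ⟨k, D, h0, h1, h2, h3⟩ |
    ⟨F₀, r, P, ζ, h0, h1, h2, h3, h4⟩ | ⟨R, p, k, h0, h1, h2, h3, h4, h5, h6, h7, h8, h9, h10, h11⟩ | ⟨Q, h0, h1, h2, h3⟩ |
    ⟨r, K', h0, h1, h2, h3, h4⟩ | ⟨K', h0, h1, h2, h3, h4⟩ | ⟨n₁, n₂, e, P, f₁, f₂, h0, h1, h2, h3, h4, h5⟩ |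
    ⟨k, t, e, P, f₁, h0, h1, h2, h3, h4, h5, h6⟩ | h
  · exact Or.inl ⟨W, h0, h1, h2⟩
  · exfalso
    have hev := Cfsg.Agent.H97.Asch.finrank_even_of_nondeg C.ctx.sesq C.alt h1
    rw [hcardι] at h2
    have h9 : Module.finrank F W ≠ 0 := by
      intro h10
      exact h0 (Submodule.finrank_eq_zero.mp h10)
    obtain ⟨d, hd⟩ := hev
    omega
  · have hc := Cfsg.Agent.H97.Asch.card_of_mdecomp h1.decomp
    have ht := h1.decomp.two_le
    have hk := h1.decomp.pos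
    rw [hcardι] at hc
    have hev : Even k := by
      have h9 := Cfsg.Agent.H97.Asch.finrank_even_of_nondeg C.ctx.sesq C.alt (h1.nondegenerate ⟨0, by omega⟩)
      rwa [h1.decomp.finrank_eq] at h9
    have hkle : k ≤ 2 := by nlinarith
    interval_cases k
    · exact absurd hev (by decide)
    · obtain rfl : t = 2 := by omega
      exact Or.inr <| Or.inl ⟨D, h1, h2⟩
  · obtain rfl : k = 2 := by
      have := Cfsg.Agent.H97.Asch.card_of_mdecomp h1
      rw [hcardι] at this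
      omega
    by_cases hq5 : 5 ≤ Fintype.card F
    · exact Or.inr <| Or.inr <| Or.inl ⟨hq5, D, h1, h2, h3⟩
    · have hF3 : Fintype.card F = 3 := by
        obtain ⟨j, hj⟩ := h0
        omega
      obtain ⟨D', hD', hle⟩ := Cfsg.Agent.H97.Asch.ts_pair_three C.ctx C.alt hF3 hcardι h1 h2
        (fun g hg => C.fix g (hH.1.le hg)) (h3 ▸ inf_le_left)
      exact Or.inr <| Or.inl ⟨D', hD', Cfsg.Agent.H97.Asch.maximal_eq' hH hle (C.not_le_decomp hD'.decomp (by norm_num))⟩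
  · exact Or.inr <| Or.inr <| Or.inr <| Or.inr <| Or.inr <| Or.inl ⟨F₀, r, P, ζ, h0, h1, h2, h3, h4⟩
  · have hk2 : k = 2 := by
      have h4' : (2 : ℕ) ^ k = 2 ^ 2 := by rw [← h9, hcardι]; norm_num
      exact Nat.pow_right_injective (le_refl 2) h4'
    subst hk2
    exact Or.inr <| Or.inr <| Or.inr <| Or.inr <| Or.inr <| Or.inr <| Or.inl ⟨p, R, h3, h5.symm ▸ rfl, h0, h1, h2, by rw [h6]; norm_num, h7, h8, h11⟩
  · exact absurd (Or.elim (Nat.even_or_odd _) (fun h => h) (fun h => absurd h h0)) (by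
      intro h9
      exact absurd hodd h0)
  · have hd := Cfsg.Agent.H97.Asch.selfadj_dvd C.ctx C.alt h1 h2 h3
    rw [hcardι] at hd
    obtain rfl : r = 2 := by
      have hr2 := h0.two_le
      have hle := Nat.le_of_dvd (by norm_num) hd
      omega
    exact Or.inr <| Or.inr <| Or.inr <| Or.inl ⟨K', h1, h2, h3, h4⟩
  · by_cases hq5 : 5 ≤ Fintype.card F
    · exact Or.inr <| Or.inr <| Or.inr <| Or.inr <| Or.inl ⟨hq5, K', h1, h2, h3, h4⟩
    · have hF3 : Fintype.card F = 3 := by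
        obtain ⟨j, hj⟩ := h0
        omega
      obtain ⟨R, a1, a2, a3, a4, a5, a6, a7⟩ := Cfsg.Agent.H97.Asch.Sp.q3_nonselfadj C hF3 hcardι hH h1 h2 h3 (h4 ▸ inf_le_left)
      exact Or.inr <| Or.inr <| Or.inr <| Or.inr <| Or.inr <| Or.inr <| Or.inl ⟨3, R, Nat.prime_three, hF3, a1, a2, a3, a4, a5, a6, a7⟩
  · exfalso
    have hc : n₁ * n₂ = 4 := by
      have := Fintype.card_congr e
      rw [hcardι] at this
      simpa [Fintype.card_prod] using this.symm
    have hev : Even n₁ := by simpa using Cfsg.Agent.H97.Asch.IsSymplecticForm.even h2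
    have hn₁ : n₁ ≤ 1 := by nlinarith
    interval_cases n₁
    · omega
    · exact absurd hev (by decide)
  · exfalso
    have hc : k ^ t = 4 := by
      have := Fintype.card_congr e
      rw [hcardι] at this
      simpa [Fintype.card_fun] using this.symm
    have hev : Even k := by simpa using Cfsg.Agent.H97.Asch.IsSymplecticForm.even h4
    have h27 : 3 ^ 3 ≤ 3 ^ t := Nat.pow_le_pow_right (by norm_num) h2
    have hk2 : k < 3 := by
      by_contra hlt
      have := Nat.pow_le_pow_left (show 3 ≤ k by omega) t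
      omega
    interval_cases k
    · rw [zero_pow (by omega)] at hc
      omega
    · simp at hc
    · have h8 : 2 ^ 3 ≤ 2 ^ t := Nat.pow_le_pow_right (by norm_num) h2
      have h16 : t = 3 ∨ 4 ≤ t := by omega
      rcases h16 with rfl | h17
      · norm_num at hc
      · have := Nat.pow_le_pow_right (by norm_num : 0 < 2) h17
        omega
  · exact Or.inr <| Or.inr <| Or.inr <| Or.inr <| Or.inr <| Or.inr <| Or.inr <| h

end Cfsg.Agent.S5787
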