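import Cfsg.Statements.S5789
import Cfsg.Agent.Lib.Sp4E97A
import Cfsg.Agent.Lib.Sp4E97B
import Cfsg.Agent.Lib.Sp4E97C
import Cfsg.Agent.Lib.Sp4E97D

set_option autoImplicit false
open Cfsg

namespace Cfsg.Agent.S5789

/-- Maximal subgroups of Sp_4(q) of geometric type, q ≥ 4 even. Let F be a finite field of even order q ≥ 4, f the standard alternating form on F^4 (coordinates Fin 2 ⊕ Fin 2) and Sp_4(F) its isometry group inside GL_4(F). Each of the following, intersected with Sp_4(F), is a maximal subgroup of Sp_4(F): (1) the stabiliser of any non-zero totally isotropic subspace (totally isotropic 1-spaces and 2-spaces); (2) the stabiliser of any decomposition of F^4 into two mutually orthogonal non-degenerate 2-spaces; (3) the normaliser of any degree-2 subfield K of the matrix algebra whose elements are self-adjoint for f with f(k v, v) = 0 for all k in K and all v; (4) every subfield group for a subfield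 F₀ with |F| = |F₀|^r, r prime, whose F₀-structure carries a non-zero scalar multiple of f; (5) the similarity group of any non-degenerate quadratic form whose polar form is f (either Witt type); its intersection with Sp_4(F) is the orthogonal group of that form. -/
theorem result {F : Type*} [Field F] [Fintype F] (heven : ¬ Odd (Fintype.card F)) (h4 : 4 ≤ Fintype.card F) :
    (∀ W : Submodule F (Fin 2 ⊕ Fin 2 → F), W ≠ ⊥ → Cfsg.Geo.IsTotallySingularFor (Cfsg.sympForm 2 F) W → Cfsg.Geo.IsMaximalIn (Cfsg.spGL 2 F) (Cfsg.Geo.subspaceStabilizer W ⊓ Cfsg.spGL 2 F)) ∧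
    (∀ D : Fin 2 → Submodule F (Fin 2 ⊕ Fin 2 → F), Cfsg.Geo.IsNondegenerateMDecomposition (Cfsg.sympForm 2 F) 2 D → Cfsg.Geo.IsMaximalIn (Cfsg.spGL 2 F) (Cfsg.Geo.decompositionStabilizer D ⊓ Cfsg.spGL 2 F)) ∧
    (∀ K : Subalgebra F (Matrix (Fin 2 ⊕ Fin 2) (Fin 2 ⊕ Fin 2) F), Cfsg.Geo.IsFieldSubalgebra 2 K → Cfsg.Geo.IsSelfAdjointFor (Cfsg.sympForm 2 F) K → (∀ k ∈ K, ∀ v : (Fin 2 ⊕ Fin 2 → F), (Cfsg.sympForm 2 F) (Matrix.mulVec k v) v = 0) → Cfsg.Geo.IsMaximalIn (Cfsg.spGL 2 F) (Cfsg.Geo.subalgebraNormalizer K ⊓ Cfsg.spGL 2 F)) ∧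
    (∀ (F₀ : Subfield F) (r : ℕ) (P : Matrix.GeneralLinearGroup (Fin 2 ⊕ Fin 2) F) (ζ : F), r.Prime → Fintype.card F = Nat.card F₀ ^ r → ζ ≠ 0 → Cfsg.Geo.IsFormRationalStructure (Cfsg.sympForm 2 F) F₀ ζ P → Cfsg.Geo.IsMaximalIn (Cfsg.spGL 2 F) (Cfsg.Geo.subfieldSubgroup F₀ P ⊓ Cfsg.spGL 2 F)) ∧
    (∀ Q : (Fin 2 ⊕ Fin 2 → F) → F, Cfsg.Geo.IsNondegenerateQuadraticForm Q → (∀ u v : (Fin 2 ⊕ Fin 2 → F), QuadraticMap.polar Q u v = (Cfsg.sympForm 2 F) u v) → Cfsg.Geo.IsMaximalIn (Cfsg.spGL 2 F) (Cfsg.Geo.quadSimilarityGroup Q ⊓ Cfsg.spGL 2 F)) := by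
  classical
  have hchar : ringChar F = 2 := by
    rw [FiniteField.even_card_iff_char_two]
    exact Nat.not_odd_iff.mp heven
  have h2' : ((2 : ℕ) : F) = 0 := by
    have := ringChar.Nat.cast_ringChar (R := F)
    rwa [hchar] at this
  have h2 : (2 : F) = 0 := by exact_mod_cast h2'
  obtain ⟨t0, h0, h1, -⟩ := Cfsg.Agent.Lib.Sp4E97D.exists_ne3 h4 (0 : F) 1 0
  exact ⟨fun W hW0 hW => Cfsg.Agent.Lib.Sp4E97A.ts_max 2 W hW0 hW,
    fun D hD => Cfsg.Agent.Lib.Sp4E97A.dec_max 2 2 D hD (by rintro ⟨_, h⟩; omega),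
    fun K hK hsa halt => Cfsg.Agent.Lib.Sp4E97C.mainq 2 le_rfl ⟨t0, h0, h1⟩ 2 Nat.prime_two K hK hsa halt,
    fun F₀ r P ζ hr hcard hζ hP => Cfsg.Agent.Lib.Sp4E97B.subfield_sp4_isMaximalIn le_rfl h2 hr hcard P ζ hζ hP,
    fun Q hQ hpol => Cfsg.Agent.Lib.Sp4E97D.o_max 2 le_rfl h4 heven Q hQ hpol⟩

end Cfsg.Agent.S5789
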