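import Cfsg.Statements.S5790
import Cfsg.Agent.Lib.H97J9

set_option autoImplicit false
open Cfsg

namespace Cfsg.Agent.S5790

/-- Every maximal subgroup of Sp_4(q), q ≥ 4 even, is of one of the listed geometric types or lies in the residual class. Let F be a finite field of even order q ≥ 4, f the standard alternating form on F^4 (coordinates Fin 2 ⊕ Fin 2), and H a maximal subgroup of Sp_4(F) (inside GL_4(F)). Then H is the intersection with Sp_4(F) of one of: the stabiliser of a non-zero totally isotropic subspace; the stabiliser of a decomposition into two orthogonal non-degenerate 2-spaces; the normaliser of a degree-2 subfield K of the matrix algebra, self-adjoint with f(k v, v) = 0; a subfield group whose F₀-structure carries a non-zero multiple of f, |F| = |F₀|^r with r prime; the similarity group of a non-degenerate quadratic form whose polar form is f — or else H lies in the residual class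 of the symplectic case. -/
theorem result {F : Type*} [Field F] [Fintype F] (heven : ¬ Odd (Fintype.card F)) (h4 : 4 ≤ Fintype.card F) (H : Subgroup (Matrix.GeneralLinearGroup (Fin 2 ⊕ Fin 2) F)) (hH : Cfsg.Geo.IsMaximalIn (Cfsg.spGL 2 F) H) :
    (∃ W : Submodule F (Fin 2 ⊕ Fin 2 → F), W ≠ ⊥ ∧ Cfsg.Geo.IsTotallySingularFor (Cfsg.sympForm 2 F) W ∧ H = Cfsg.Geo.subspaceStabilizer W ⊓ Cfsg.spGL 2 F) ∨
    (∃ D : Fin 2 → Submodule F (Fin 2 ⊕ Fin 2 → F), Cfsg.Geo.IsNondegenerateMDecomposition (Cfsg.sympForm 2 F) 2 D ∧ H = Cfsg.Geo.decompositionStabilizer D ⊓ Cfsg.spGL 2 F) ∨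
    (∃ K : Subalgebra F (Matrix (Fin 2 ⊕ Fin 2) (Fin 2 ⊕ Fin 2) F), Cfsg.Geo.IsFieldSubalgebra 2 K ∧ Cfsg.Geo.IsSelfAdjointFor (Cfsg.sympForm 2 F) K ∧ (∀ k ∈ K, ∀ v : (Fin 2 ⊕ Fin 2 → F), (Cfsg.sympForm 2 F) (Matrix.mulVec k v) v = 0) ∧ H = Cfsg.Geo.subalgebraNormalizer K ⊓ Cfsg.spGL 2 F) ∨
    (∃ (F₀ : Subfield F) (r : ℕ) (P : Matrix.GeneralLinearGroup (Fin 2 ⊕ Fin 2) F) (ζ : F), r.Prime ∧ Fintype.card F = Nat.card F₀ ^ r ∧ ζ ≠ 0 ∧ Cfsg.Geo.IsFormRationalStructure (Cfsg.sympForm 2 F) F₀ ζ P ∧ H = Cfsg.Geo.subfieldSubgroup F₀ P ⊓ Cfsg.spGL 2 F) ∨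
    (∃ Q : (Fin 2 ⊕ Fin 2 → F) → F, Cfsg.Geo.IsNondegenerateQuadraticForm Q ∧ (∀ u v : (Fin 2 ⊕ Fin 2 → F), QuadraticMap.polar Q u v = (Cfsg.sympForm 2 F) u v) ∧ H = Cfsg.Geo.quadSimilarityGroup Q ⊓ Cfsg.spGL 2 F) ∨
    Cfsg.Geo.InSymplecticResidualClass H := by
  classical
  haveI : Nonempty (Fin 2 ⊕ Fin 2) := ⟨Sum.inl ⟨0, by norm_num⟩⟩
  have C := Cfsg.Agent.H97.Asch.sp_ctx (F := F) 2
  have hcardι : Fintype.card (Fin 2 ⊕ Fin 2) = 4 := by simp
  have hmax := Cfsg.Agent.H97.Asch.Sp.maximal C (by omega) hH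
  have hq2 : 2 ≤ Fintype.card F := Fintype.one_lt_card
  rcases hmax with ⟨W, h0, h1, h2⟩ | ⟨W, h0, h1, h2, h3⟩ | ⟨t, k, D, h1, h2⟩ | ⟨k, D, h0, h1, h2, h3⟩ |
    ⟨F₀, r, P, ζ, h0, h1, h2, h3, h4⟩ | ⟨R, p, k, h0, h1, h2, h3, hp4, h5, h6, h7, h8, h9, h10, h11⟩ | ⟨Q, h0, h1, h2, h3⟩ |
    ⟨r, K', h0, h1, h2, h3, h4⟩ | ⟨K', h0, h1, h2, h3, h4⟩ | ⟨n₁, n₂, e, P, f₁, f₂, h0, h1, h2, h3, h4, h5⟩ |
    ⟨k, t, e, P, f₁, h0, h1, h2, h3, h4, h5, h6⟩ | h
  · exact Or.inl ⟨W, h0, h1, h2⟩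
  · exfalso
    have hev := Cfsg.Agent.H97.Asch.finrank_even_of_nondeg C.ctx.sesq C.alt h1
    rw [hcardι] at h2
    have h9 : Module.finrank F W ≠ 0 := by
      intro h10
      exact h0 (Submodule.finrank_eq_zero.mp h10)
    obtain ⟨d, hd⟩ := hev
    omega
  · have hc := Cfsg.Agent.H97.Asch.card_of_mdecomp h1.decomp
    have ht := h1.decomp.two_le
    have hk := h1.decomp.pos
    rw [hcardι] at hc
    have hev : Even k := by
      have h9 := Cfsg.Agent.H97.Asch.finrank_even_of_nondeg C.ctx.sesq C.alt (h1.nondegenerate ⟨0, by omega⟩)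
      rwa [h1.decomp.finrank_eq] at h9
    have hkle : k ≤ 2 := by nlinarith
    interval_cases k
    · exact absurd hev (by decide)
    · obtain rfl : t = 2 := by omega
      exact Or.inr <| Or.inl ⟨D, h1, h2⟩
  · exact absurd h0 heven
  · exact Or.inr <| Or.inr <| Or.inr <| Or.inl ⟨F₀, r, P, ζ, h0, h1, h2, h3, h4⟩
  · exfalso
    apply heven
    rw [h5]
    exact hp4
  · exact Or.inr <| Or.inr <| Or.inr <| Or.inr <| Or.inl ⟨Q, h1, h2, h3⟩
  · have hd := Cfsg.Agent.H97.Asch.selfadj_dvd C.ctx C.alt h1 h2 h3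
    rw [hcardι] at hd
    obtain rfl : r = 2 := by
      have hr2 := h0.two_le
      have hle := Nat.le_of_dvd (by norm_num) hd
      omega
    exact Or.inr <| Or.inr <| Or.inl ⟨K', h1, h2, h3, h4⟩
  · exact absurd h0 heven
  · exact absurd h0 heven
  · exact absurd h0 heven
  · exact Or.inr <| Or.inr <| Or.inr <| Or.inr <| Or.inr <| h

end Cfsg.Agent.S5790
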