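import Cfsg.Statements.S5796
import Cfsg.Agent.Lib.H97Uni5
import Cfsg.Agent.Lib.SU5TwoC
-- import your own Cfsg.Agent.* helpers here

set_option autoImplicit false
open Cfsg

namespace Cfsg.Agent.S5796

theorem zmod5_e2 : ∀ a : ZMod 5, a ^ 2 = 1 → a ≠ 1 → a.val = 4 := by decide

theorem zmod5_e4 : ∀ a : ZMod 5, a ^ 4 = 1 → a ≠ 1 → a ^ 2 ≠ 1 → a.val = 2 ∨ a.val = 3 := by decide

theorem class6_5 {p e q : ℕ} {F : Type*} [Field F] [Fintype F] (hF : Fintype.card F = q ^ 2)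
    (h : Cfsg.Geo.IsMinimalFieldFor 5 p e F) : (q = p ∧ p % 5 = 4) ∨ (q = p ^ 2 ∧ (p % 5 = 2 ∨ p % 5 = 3)) := by
  have : Fact (Nat.Prime 5) := ⟨by norm_num⟩
  obtain ⟨k, hk0, hq, hdvd, h1, hne⟩ := Cfsg.Agent.H97.Asch.min_field_q hF h
  have hval : ((p : ZMod 5)).val = p % 5 := ZMod.val_natCast 5 p
  have hk : k = 1 ∨ k = 2 := by
    have h6 : 2 * k ∣ 4 := hdvd
    have hle := Nat.le_of_dvd (by norm_num) h6
    omega
  rcases hk with rfl | rfl
  · left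
    refine ⟨by simpa using hq, ?_⟩
    rw [← hval]
    exact zmod5_e2 _ h1 (by simpa using hne 1 (by norm_num) (by norm_num))
  · right
    refine ⟨hq, ?_⟩
    rw [← hval]
    exact zmod5_e4 _ h1 (by simpa using hne 1 (by norm_num) (by norm_num)) (hne 2 (by norm_num) (by norm_num))

/-- Every maximal subgroup of SU_5(q) is of one of the listed geometric types or lies in the residual class. Let F be the field with q² elements (characteristic p), f the standard unitary form Σ u_i v_i^q on F^5, and H a maximal subgroup of SU_5(q) (inside GL_5(F)). Then H is the intersection with SU_5(q) of one of: the stabiliser of a non-zero totally isotropic subspace; the stabiliser of a non-degenerate 1-space or 2-space; the stabiliser of a decomposition into five mutually orthogonal non-degenerate 1-spaces; for q ≥ 3, the normaliser of an adjoint-closed degree-5 subfield of the matrix algebra; a subfield group of odd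 prime index whose F₀-structure carries f; for q odd, a subfield group of index 2 whose F₀-structure carries f; for q = p ≡ 4 mod 5 or q = p² with p ≡ 2, 3 mod 5, the normaliser of an absolutely irreducible 5-group of exponent 5, order 125 and centre of order 5 with all characteristic abelian subgroups cyclic inside the similarity group of f — or else H lies in the residual class of the unitary case. -/
theorem result {F : Type*} [Field F] [Fintype F] (q : ℕ) (hF : Fintype.card F = q ^ 2) (H : Subgroup (Matrix.GeneralLinearGroup (Fin 5) F)) (hH : Cfsg.Geo.IsMaximalIn (Cfsg.GU 5 F q ⊓ Cfsg.Geo.specialLinear (Fin 5) F) H) :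
    (∃ W : Submodule F (Fin 5 → F), W ≠ ⊥ ∧ Cfsg.Geo.IsTotallySingularFor (Cfsg.hermForm 5 F q) W ∧ H = Cfsg.Geo.subspaceStabilizer W ⊓ (Cfsg.GU 5 F q ⊓ Cfsg.Geo.specialLinear (Fin 5) F)) ∨
    (∃ W : Submodule F (Fin 5 → F), W ≠ ⊥ ∧ Cfsg.Geo.IsNondegenerateOn (Cfsg.hermForm 5 F q) W ∧ 2 * Module.finrank F W < 5 ∧ H = Cfsg.Geo.subspaceStabilizer W ⊓ (Cfsg.GU 5 F q ⊓ Cfsg.Geo.specialLinear (Fin 5) F)) ∨
    (∃ D : Fin 5 → Submodule F (Fin 5 → F), Cfsg.Geo.IsNondegenerateMDecomposition (Cfsg.hermForm 5 F q) 1 D ∧ H = Cfsg.Geo.decompositionStabilizer D ⊓ (Cfsg.GU 5 F q ⊓ Cfsg.Geo.specialLinear (Fin 5) F)) ∨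
    (3 ≤ q ∧ ∃ K : Subalgebra F (Matrix (Fin 5) (Fin 5) F), Cfsg.Geo.IsFieldSubalgebra 5 K ∧ Cfsg.Geo.IsAdjointClosedFor (Cfsg.hermForm 5 F q) K ∧ H = Cfsg.Geo.subalgebraNormalizer K ⊓ (Cfsg.GU 5 F q ⊓ Cfsg.Geo.specialLinear (Fin 5) F)) ∨
    (∃ (F₀ : Subfield F) (r : ℕ) (P : Matrix.GeneralLinearGroup (Fin 5) F), r.Prime ∧ Odd r ∧ Fintype.card F = Nat.card F₀ ^ r ∧ Cfsg.Geo.IsFormRationalStructure (Cfsg.hermForm 5 F q) F₀ 1 P ∧ H = Cfsg.Geo.subfieldSubgroup F₀ P ⊓ (Cfsg.GU 5 F q ⊓ Cfsg.Geo.specialLinear (Fin 5) F)) ∨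
    (Odd q ∧ ∃ (F₀ : Subfield F) (P : Matrix.GeneralLinearGroup (Fin 5) F), Fintype.card F = Nat.card F₀ ^ 2 ∧ Cfsg.Geo.IsFormRationalStructure (Cfsg.hermForm 5 F q) F₀ 1 P ∧ H = Cfsg.Geo.subfieldSubgroup F₀ P ⊓ (Cfsg.GU 5 F q ⊓ Cfsg.Geo.specialLinear (Fin 5) F)) ∨
    (∃ (p : ℕ) (R : Subgroup (Matrix.GeneralLinearGroup (Fin 5) F)), p.Prime ∧ CharP F p ∧ ((q = p ∧ p % 5 = 4) ∨ (q = p ^ 2 ∧ (p % 5 = 2 ∨ p % 5 = 3))) ∧ Cfsg.Geo.IsSymplecticTypeGroup 5 R ∧ Cfsg.Geo.ActsAbsolutelyIrreducibly (Cfsg.Geo.matrixSet R) ∧ R ≤ Cfsg.Geo.similarityGroup (Cfsg.hermForm 5 F q) ∧ Nat.card R = 125 ∧ Nat.card (Subgroup.center R) = 5 ∧ H = Cfsg.Geo.subgroupNormalizer R ⊓ (Cfsg.GU 5 F q ⊓ Cfsg.Geo.specialLinear (Fin 5) F)) ∨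
    Cfsg.Geo.InUnitaryResidualClass H := by
  rcases Cfsg.Agent.H97.Asch.unitary_prime_main (Cfsg.Agent.H97.Asch.herm_ctx hF (by norm_num)) q hF (fun x => rfl)
    (by norm_num) (by decide) (by norm_num) inf_le_right hH with h | h | h | ⟨K, hK, hadj, hE⟩ | h | h | ⟨p, e, R, hnp, hmin, hs, ha, hRK, hc1, hc2, hE⟩ | h
  · exact Or.inl h
  · exact Or.inr (Or.inl h)
  · exact Or.inr (Or.inr (Or.inl h))
  · refine Or.inr (Or.inr (Or.inr (Or.inl ⟨?_, K, hK, hadj, hE⟩)))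
    by_contra hq
    have hq2 : 2 ≤ q := Cfsg.Agent.Lib.FFNorm.two_le hF
    have hq3 : q = 2 := by omega
    subst hq3
    subst hE
    exact Cfsg.Agent.SU5Two.no_field_max (by rw [hF]; norm_num) hK hadj hH
  · exact Or.inr (Or.inr (Or.inr (Or.inr (Or.inl h))))
  · exact Or.inr (Or.inr (Or.inr (Or.inr (Or.inr (Or.inl h)))))
  · refine Or.inr (Or.inr (Or.inr (Or.inr (Or.inr (Or.inr (Or.inl ⟨p, R, hmin.1, hmin.2.1, class6_5 hF hmin, hs, ha, ?_, ?_, hc2, hE⟩))))))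
    · intro g hg
      exact ⟨1, fun u v => by simpa using (hRK hg).1 u v⟩
    · rw [hc1]; norm_num
  · exact Or.inr (Or.inr (Or.inr (Or.inr (Or.inr (Or.inr (Or.inr h))))))


end Cfsg.Agent.S5796
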