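import Cfsg.Statements.S5802
import Cfsg.Agent.Lib.H97J6
import Cfsg.Agent.Lib.SU6TwoA
import Cfsg.Agent.Lib.SU6TwoD
-- import your own Cfsg.Agent.* helpers here

set_option autoImplicit false
open Cfsg

namespace Cfsg.Agent.S5802

/-- Every maximal subgroup of SU_6(q) is of one of the listed geometric types or lies in the residual class. Let F be the field with q² elements, f the standard unitary form Σ u_i v_i^q on F^6, and H a maximal subgroup of SU_6(q) (inside GL_6(F)). Then H is the intersection with SU_6(q) of one of: the stabiliser of a non-zero totally isotropic subspace; the stabiliser of a non-degenerate 1- or 2-space; for q ≥ 3, the stabiliser of a decomposition into six mutually orthogonal non-degenerate 1-spaces; for q ≥ 3, of a decomposition into three mutually orthogonal non-degenerate 2-spaces; of a decomposition into two orthogonal non-degenerate 3-spaces; of a decomposition into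 two totally isotropic 3-spaces; for q ≥ 3, the normaliser of an adjoint-closed degree-3 subfield of the matrix algebra; for q ≥ 3, the stabiliser of a tensor decomposition of f into unitary forms on F^2 and F^3; a subfield group of odd prime index whose F₀-structure carries f; a subfield group of index 2 and symplectic type; for q odd, a subfield group of index 2 and orthogonal type — or else H lies in the residual class of the unitary case. -/
theorem result {F : Type*} [Field F] [Fintype F] (q : ℕ) (hF : Fintype.card F = q ^ 2) (H : Subgroup (Matrix.GeneralLinearGroup (Fin 6) F)) (hH : Cfsg.Geo.IsMaximalIn (Cfsg.GU 6 F q ⊓ Cfsg.Geo.specialLinear (Fin 6) F) H) :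
    (∃ W : Submodule F (Fin 6 → F), W ≠ ⊥ ∧ Cfsg.Geo.IsTotallySingularFor (Cfsg.hermForm 6 F q) W ∧ H = Cfsg.Geo.subspaceStabilizer W ⊓ (Cfsg.GU 6 F q ⊓ Cfsg.Geo.specialLinear (Fin 6) F)) ∨
    (∃ W : Submodule F (Fin 6 → F), W ≠ ⊥ ∧ Cfsg.Geo.IsNondegenerateOn (Cfsg.hermForm 6 F q) W ∧ 2 * Module.finrank F W < 6 ∧ H = Cfsg.Geo.subspaceStabilizer W ⊓ (Cfsg.GU 6 F q ⊓ Cfsg.Geo.specialLinear (Fin 6) F)) ∨
    (3 ≤ q ∧ ∃ D : Fin 6 → Submodule F (Fin 6 → F), Cfsg.Geo.IsNondegenerateMDecomposition (Cfsg.hermForm 6 F q) 1 D ∧ H = Cfsg.Geo.decompositionStabilizer D ⊓ (Cfsg.GU 6 F q ⊓ Cfsg.Geo.specialLinear (Fin 6) F)) ∨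
    (3 ≤ q ∧ ∃ D : Fin 3 → Submodule F (Fin 6 → F), Cfsg.Geo.IsNondegenerateMDecomposition (Cfsg.hermForm 6 F q) 2 D ∧ H = Cfsg.Geo.decompositionStabilizer D ⊓ (Cfsg.GU 6 F q ⊓ Cfsg.Geo.specialLinear (Fin 6) F)) ∨
    (∃ D : Fin 2 → Submodule F (Fin 6 → F), Cfsg.Geo.IsNondegenerateMDecomposition (Cfsg.hermForm 6 F q) 3 D ∧ H = Cfsg.Geo.decompositionStabilizer D ⊓ (Cfsg.GU 6 F q ⊓ Cfsg.Geo.specialLinear (Fin 6) F)) ∨
    (∃ D : Fin 2 → Submodule F (Fin 6 → F), Cfsg.Geo.IsMDecomposition 3 D ∧ (∀ i, Cfsg.Geo.IsTotallySingularFor (Cfsg.hermForm 6 F q) (D i)) ∧ H = Cfsg.Geo.decompositionStabilizer D ⊓ (Cfsg.GU 6 F q ⊓ Cfsg.Geo.specialLinear (Fin 6) F)) ∨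
    (3 ≤ q ∧ ∃ K : Subalgebra F (Matrix (Fin 6) (Fin 6) F), Cfsg.Geo.IsFieldSubalgebra 3 K ∧ Cfsg.Geo.IsAdjointClosedFor (Cfsg.hermForm 6 F q) K ∧ H = Cfsg.Geo.subalgebraNormalizer K ⊓ (Cfsg.GU 6 F q ⊓ Cfsg.Geo.specialLinear (Fin 6) F)) ∨
    (3 ≤ q ∧ ∃ (e : Fin 6 ≃ Fin 2 × Fin 3) (P : Matrix.GeneralLinearGroup (Fin 6) F) (f₁ : (Fin 2 → F) → (Fin 2 → F) → F) (f₂ : (Fin 3 → F) → (Fin 3 → F) → F), Cfsg.Geo.IsUnitaryFormPow q f₁ ∧ Cfsg.Geo.IsUnitaryFormPow q f₂ ∧ Cfsg.Geo.IsTensorFormStructure (fun x : F => x ^ q) (Cfsg.hermForm 6 F q) f₁ f₂ e P ∧ H = Cfsg.Geo.tensorProductSubgroup 2 3 e P ⊓ (Cfsg.GU 6 F q ⊓ Cfsg.Geo.specialLinear (Fin 6) F)) ∨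
    (∃ (F₀ : Subfield F) (r : ℕ) (P : Matrix.GeneralLinearGroup (Fin 6) F), r.Prime ∧ Odd r ∧ Fintype.card F = Nat.card F₀ ^ r ∧ Cfsg.Geo.IsFormRationalStructure (Cfsg.hermForm 6 F q) F₀ 1 P ∧ H = Cfsg.Geo.subfieldSubgroup F₀ P ⊓ (Cfsg.GU 6 F q ⊓ Cfsg.Geo.specialLinear (Fin 6) F)) ∨
    (∃ (F₀ : Subfield F) (P : Matrix.GeneralLinearGroup (Fin 6) F) (ζ : F), Fintype.card F = Nat.card F₀ ^ 2 ∧ ζ ≠ 0 ∧ ζ + ζ ^ q = 0 ∧ Cfsg.Geo.IsFormRationalStructure (Cfsg.hermForm 6 F q) F₀ ζ P ∧ (∀ u : Fin 6 → F, (∀ i, u i ∈ F₀) → (Cfsg.hermForm 6 F q) (Matrix.mulVec (P : Matrix (Fin 6) (Fin 6) F) u) (Matrix.mulVec (P : Matrix (Fin 6) (Fin 6) F) u) = 0) ∧ H = Cfsg.Geo.subfieldSubgroup F₀ P ⊓ (Cfsg.GU 6 F q ⊓ Cfsg.Geo.specialLinear (Fin 6) F)) ∨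
    (Odd q ∧ ∃ (F₀ : Subfield F) (P : Matrix.GeneralLinearGroup (Fin 6) F), Fintype.card F = Nat.card F₀ ^ 2 ∧ Cfsg.Geo.IsFormRationalStructure (Cfsg.hermForm 6 F q) F₀ 1 P ∧ H = Cfsg.Geo.subfieldSubgroup F₀ P ⊓ (Cfsg.GU 6 F q ⊓ Cfsg.Geo.specialLinear (Fin 6) F)) ∨
    Cfsg.Geo.InUnitaryResidualClass H := by
  classical
  have hmax := Cfsg.Agent.H97.Asch.Su.herm_max hF (by norm_num) hH
  have hq2 := Cfsg.Agent.H97.Asch.two_le_q_of_card hF
  have C := Cfsg.Agent.H97.Asch.herm_ctx (n := 6) hF (by norm_num)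
  rcases hmax with ⟨W, h0, h1, h2⟩ | ⟨W, h0, h1, h2, h3⟩ | ⟨t, k, D, h1, h2⟩ | ⟨k, D, h0, h1, h2, h3⟩ |
    ⟨F₀, r, P, h0, h1, h2, h3, h4⟩ | ⟨F₀, P, h0, h1, h2, h3⟩ | ⟨F₀, P, ζ, h0, h1, h2, h3, h4, h5, h6⟩ |
    ⟨r, R, p, e, k, h0, h1, h2, h3, h4, h5, h6, h7, h8⟩ |
    ⟨r, K', h0, h1, h2, h3, h4⟩ | ⟨n₁, n₂, e, P, f₁, f₂, h0, h1, h2, h3, h4, h5⟩ |
    ⟨k, t, e, P, f₁, h0, h1, h2, h3, h4, h5⟩ | h
  · exact Or.inl ⟨W, h0, h1, h2⟩
  · refine Or.inr <| Or.inl ⟨W, h0, h1, ?_, h3⟩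
    simpa using h2
  · have hc := Cfsg.Agent.H97.Asch.card_of_mdecomp h1.decomp
    have ht := h1.decomp.two_le
    have hk := h1.decomp.pos
    rw [Fintype.card_fin] at hc
    have hkle : k ≤ 3 := by nlinarith
    interval_cases k
    · obtain rfl : t = 6 := by omega
      by_cases hq3 : 3 ≤ q
      · exact Or.inr <| Or.inr <| Or.inl ⟨hq3, D, h1, h2⟩
      · exfalso
        obtain rfl : q = 2 := by omega
        have hF4 : Fintype.card F = 4 := by rw [hF]; norm_num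
        subst h2
        exact Cfsg.Agent.SU6Two.frame_not_max hF4 h1 hH
    · obtain rfl : t = 3 := by omega
      by_cases hq3 : 3 ≤ q
      · exact Or.inr <| Or.inr <| Or.inr <| Or.inl ⟨hq3, D, h1, h2⟩
      · exfalso
        obtain rfl : q = 2 := by omega
        have hF4 : Fintype.card F = 4 := by rw [hF]; norm_num
        obtain ⟨D', hD', hE⟩ := Cfsg.Agent.H97.Asch.SuMax.frame_of_two C hF4 (fun _ => rfl) (by norm_num) h1 hH (h2 ▸ inf_le_left)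
        subst hE
        exact Cfsg.Agent.SU6Two.frame_not_max hF4 hD' hH
    · obtain rfl : t = 2 := by omega
      exact Or.inr <| Or.inr <| Or.inr <| Or.inr <| Or.inl ⟨D, h1, h2⟩
  · obtain rfl : k = 3 := by
      simp at h0
      omega
    exact Or.inr <| Or.inr <| Or.inr <| Or.inr <| Or.inr <| Or.inl ⟨D, h1, h2, h3⟩
  · exact Or.inr <| Or.inr <| Or.inr <| Or.inr <| Or.inr <| Or.inr <| Or.inr <| Or.inr <| Or.inl ⟨F₀, r, P, h0, h1, h2, h3, h4⟩
  · exact Or.inr <| Or.inr <| Or.inr <| Or.inr <| Or.inr <| Or.inr <| Or.inr <| Or.inr <| Or.inr <| Or.inr <| Or.inl ⟨h0, F₀, P, h1, h2, h3⟩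
  · exact Or.inr <| Or.inr <| Or.inr <| Or.inr <| Or.inr <| Or.inr <| Or.inr <| Or.inr <| Or.inr <| Or.inl ⟨F₀, P, ζ, h1, h2, h3, h4, h5, h6⟩
  · exfalso
    rw [Fintype.card_fin] at h6
    exact Cfsg.Agent.H97.Asch.no_prime_pow_of_two_primes (by norm_num : Nat.Prime 2) (by norm_num : Nat.Prime 3) (by norm_num) (by norm_num : 2 ∣ 6) (by norm_num : 3 ∣ 6) h0.prime h6
  · have hd := Cfsg.Agent.H97.Asch.dvd_of_fieldSubalgebra h2
    rw [Fintype.card_fin] at hd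
    have hrle : r ≤ 6 := Nat.le_of_dvd (by norm_num) hd
    have hr2 := h0.two_le
    interval_cases r
    · exact absurd h1 (by decide)
    · by_cases hq3 : 3 ≤ q
      · exact Or.inr <| Or.inr <| Or.inr <| Or.inr <| Or.inr <| Or.inr <| Or.inl ⟨hq3, K', h2, h3, h4⟩
      · obtain rfl : q = 2 := by omega
        have hF4 : Fintype.card F = 4 := by rw [hF]; norm_num
        have h2' := Cfsg.Agent.SU5Two.two_eq_zero_of_card hF4
        obtain ⟨P, hP1, hP2, hle⟩ := Cfsg.Agent.SU6Two.field_three hF4 h2' h2 h3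
        have hcard : Fintype.card F = Nat.card (Cfsg.Agent.SU6Two.F2 h2') ^ 2 := by
          rw [Cfsg.Agent.SU6Two.card_F2, hF4]
          norm_num
        refine Or.inr <| Or.inr <| Or.inr <| Or.inr <| Or.inr <| Or.inr <| Or.inr <| Or.inr <| Or.inr <| Or.inl
          ⟨Cfsg.Agent.SU6Two.F2 h2', P, 1, hcard, one_ne_zero, ?_, hP1, hP2, ?_⟩
        · linear_combination h2'
        · exact Cfsg.Agent.H97.Asch.maximal_eq' hH (h4 ▸ hle)
            (C.not_le_subfield' (by simp) (Cfsg.Agent.H97.Asch.subfield_ne_top_of_card le_rfl hcard) P)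
    · exact absurd h1 (by decide)
    · exact absurd hd (by norm_num)
    · exact absurd h1 (by decide)
  · have hprod := Cfsg.Agent.H97.Asch.tensor_dims e
    have hn₁ : n₁ ≤ 2 := by nlinarith
    interval_cases n₁
    obtain rfl : n₂ = 3 := by omega
    by_cases hq3 : 3 ≤ q
    · exact Or.inr <| Or.inr <| Or.inr <| Or.inr <| Or.inr <| Or.inr <| Or.inr <| Or.inl ⟨hq3, e, P, f₁, f₂, h2, h3, h4, h5⟩
    · obtain rfl : q = 2 := by omega
      have hF4 : Fintype.card F = 4 := by rw [hF]; norm_num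
      obtain ⟨D', hD', hE⟩ := Cfsg.Agent.H97.Asch.SuMax.decomp_of_tensor C hF4 (fun _ => rfl) (by norm_num) h2 h3 h4 hH (h5 ▸ inf_le_left)
      exact Or.inr <| Or.inr <| Or.inr <| Or.inr <| Or.inl ⟨D', hD', hE⟩
  · exfalso
    have hpow := Cfsg.Agent.H97.Asch.wreath_dims e
    have h6 : t = 2 := by
      by_contra hne
      have ht3 : 3 ≤ t := by omega
      have := Nat.pow_le_pow_right (by omega : 0 < k) ht3
      have h27 := Nat.pow_le_pow_left h0 3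
      omega
    subst h6
    have h9 := Nat.pow_le_pow_left h0 2
    omega
  · exact Or.inr <| Or.inr <| Or.inr <| Or.inr <| Or.inr <| Or.inr <| Or.inr <| Or.inr <| Or.inr <| Or.inr <| Or.inr <| h

end Cfsg.Agent.S5802
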