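import Cfsg.Statements.S5805
import Cfsg.Agent.Lib.H97K1

set_option autoImplicit false
open Cfsg

namespace Cfsg.Agent.S5805

/-- Every maximal subgroup of Sp_6(q) is of one of the listed geometric types or lies in the residual class. Let F be a finite field with q elements, f the standard alternating form on F^6 (coordinates Fin 3 ⊕ Fin 3), and H a maximal subgroup of Sp_6(F) (inside GL_6(F)). Then H is the intersection with Sp_6(F) of one of: the stabiliser of a non-zero totally isotropic subspace; the stabiliser of a non-degenerate 2-space; for q ≥ 3, the stabiliser of a decomposition into three mutually orthogonal non-degenerate 2-spaces; for q odd, of a decomposition into two totally isotropic 3-spaces; the normaliser of a degree-3 subfield K of the matrix algebra, self-adjoint with f(k v, v) = 0; for q odd, the normaliser of a degree-2 subfield closed under adjoints but not self-adjoint; for q odd,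 q ≥ 5, the stabiliser of a tensor decomposition of f into an alternating form on F^2 and a symmetric form on F^3; a subfield group (|F| = |F₀|^r, r prime) whose F₀-structure carries a non-zero multiple of f; for q even, the similarity group of a non-degenerate quadratic form polarising to f — or else H lies in the residual class of the symplectic case. -/
theorem result {F : Type*} [Field F] [Fintype F] (H : Subgroup (Matrix.GeneralLinearGroup (Fin 3 ⊕ Fin 3) F)) (hH : Cfsg.Geo.IsMaximalIn (Cfsg.spGL 3 F) H) :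
    (∃ W : Submodule F (Fin 3 ⊕ Fin 3 → F), W ≠ ⊥ ∧ Cfsg.Geo.IsTotallySingularFor (Cfsg.sympForm 3 F) W ∧ H = Cfsg.Geo.subspaceStabilizer W ⊓ Cfsg.spGL 3 F) ∨
    (∃ W : Submodule F (Fin 3 ⊕ Fin 3 → F), W ≠ ⊥ ∧ Cfsg.Geo.IsNondegenerateOn (Cfsg.sympForm 3 F) W ∧ Module.finrank F W < 3 ∧ H = Cfsg.Geo.subspaceStabilizer W ⊓ Cfsg.spGL 3 F) ∨
    (3 ≤ Fintype.card F ∧ ∃ D : Fin 3 → Submodule F (Fin 3 ⊕ Fin 3 → F), Cfsg.Geo.IsNondegenerateMDecomposition (Cfsg.sympForm 3 F) 2 D ∧ H = Cfsg.Geo.decompositionStabilizer D ⊓ Cfsg.spGL 3 F) ∨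
    (Odd (Fintype.card F) ∧ ∃ D : Fin 2 → Submodule F (Fin 3 ⊕ Fin 3 → F), Cfsg.Geo.IsMDecomposition 3 D ∧ (∀ i, Cfsg.Geo.IsTotallySingularFor (Cfsg.sympForm 3 F) (D i)) ∧ H = Cfsg.Geo.decompositionStabilizer D ⊓ Cfsg.spGL 3 F) ∨
    (∃ K : Subalgebra F (Matrix (Fin 3 ⊕ Fin 3) (Fin 3 ⊕ Fin 3) F), Cfsg.Geo.IsFieldSubalgebra 3 K ∧ Cfsg.Geo.IsSelfAdjointFor (Cfsg.sympForm 3 F) K ∧ (∀ k ∈ K, ∀ v : (Fin 3 ⊕ Fin 3 → F), (Cfsg.sympForm 3 F) (Matrix.mulVec k v) v = 0) ∧ H = Cfsg.Geo.subalgebraNormalizer K ⊓ Cfsg.spGL 3 F) ∨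
    (Odd (Fintype.card F) ∧ ∃ K : Subalgebra F (Matrix (Fin 3 ⊕ Fin 3) (Fin 3 ⊕ Fin 3) F), Cfsg.Geo.IsFieldSubalgebra 2 K ∧ Cfsg.Geo.IsAdjointClosedFor (Cfsg.sympForm 3 F) K ∧ ¬ Cfsg.Geo.IsSelfAdjointFor (Cfsg.sympForm 3 F) K ∧ H = Cfsg.Geo.subalgebraNormalizer K ⊓ Cfsg.spGL 3 F) ∨
    (Odd (Fintype.card F) ∧ 5 ≤ Fintype.card F ∧ ∃ (e : (Fin 3 ⊕ Fin 3) ≃ Fin 2 × Fin 3) (P : Matrix.GeneralLinearGroup (Fin 3 ⊕ Fin 3) F) (f₁ : (Fin 2 → F) → (Fin 2 → F) → F) (f₂ : (Fin 3 → F) → (Fin 3 → F) → F), Cfsg.Geo.IsSymplecticForm f₁ ∧ Cfsg.Geo.IsSymmetricForm f₂ ∧ Cfsg.Geo.IsTensorFormStructure id (Cfsg.sympForm 3 F) f₁ f₂ e P ∧ H = Cfsg.Geo.tensorProductSubgroup 2 3 e P ⊓ Cfsg.spGL 3 F) ∨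
    (∃ (F₀ : Subfield F) (r : ℕ) (P : Matrix.GeneralLinearGroup (Fin 3 ⊕ Fin 3) F) (ζ : F), r.Prime ∧ Fintype.card F = Nat.card F₀ ^ r ∧ ζ ≠ 0 ∧ Cfsg.Geo.IsFormRationalStructure (Cfsg.sympForm 3 F) F₀ ζ P ∧ H = Cfsg.Geo.subfieldSubgroup F₀ P ⊓ Cfsg.spGL 3 F) ∨
    (¬ Odd (Fintype.card F) ∧ ∃ Q : (Fin 3 ⊕ Fin 3 → F) → F, Cfsg.Geo.IsNondegenerateQuadraticForm Q ∧ (∀ u v : (Fin 3 ⊕ Fin 3 → F), QuadraticMap.polar Q u v = (Cfsg.sympForm 3 F) u v) ∧ H = Cfsg.Geo.quadSimilarityGroup Q ⊓ Cfsg.spGL 3 F) ∨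
    Cfsg.Geo.InSymplecticResidualClass H := by
  classical
  haveI : Nonempty (Fin 3 ⊕ Fin 3) := ⟨Sum.inl ⟨0, by norm_num⟩⟩
  have C := Cfsg.Agent.H97.Asch.sp_ctx (F := F) 3
  have hcardι : Fintype.card (Fin 3 ⊕ Fin 3) = 6 := by simp
  have hmax := Cfsg.Agent.H97.Asch.Sp.maximal C (by omega) hH
  have hq2 : 2 ≤ Fintype.card F := Fintype.one_lt_card
  rcases hmax with ⟨W, h0, h1, h2⟩ | ⟨W, h0, h1, h2, h3⟩ | ⟨t, k, D, h1, h2⟩ | ⟨k, D, h0, h1, h2, h3⟩ |
    ⟨F₀, r, P, ζ, h0, h1, h2, h3, h4⟩ | ⟨R, p, k, h0, h1, h2, h3, h4, h5, h6, h7, h8, h9, h10, h11⟩ | ⟨Q, h0, h1, h2, h3⟩ |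
    ⟨r, K', h0, h1, h2, h3, h4⟩ | ⟨K', h0, h1, h2, h3, h4⟩ | ⟨n₁, n₂, e, P, f₁, f₂, h0, h1, h2, h3, h4, h5⟩ |
    ⟨k, t, e, P, f₁, h0, h1, h2, h3, h4, h5, h6⟩ | h
  · exact Or.inl ⟨W, h0, h1, h2⟩
  · refine Or.inr <| Or.inl ⟨W, h0, h1, ?_, h3⟩
    rw [hcardι] at h2
    omega
  · have hc := Cfsg.Agent.H97.Asch.card_of_mdecomp h1.decomp
    have ht := h1.decomp.two_le
    have hk := h1.decomp.pos
    rw [hcardι] at hc
    have hev : Even k := by
      have h9 := Cfsg.Agent.H97.Asch.finrank_even_of_nondeg C.ctx.sesq C.alt (h1.nondegenerate ⟨0, by omega⟩)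
      rwa [h1.decomp.finrank_eq] at h9
    have hkle : k ≤ 3 := by nlinarith
    interval_cases k
    · exact absurd hev (by decide)
    · obtain rfl : t = 3 := by omega
      by_cases hq3 : 3 ≤ Fintype.card F
      · exact Or.inr <| Or.inr <| Or.inl ⟨hq3, D, h1, h2⟩
      · have hF2 : Fintype.card F = 2 := by omega
        obtain ⟨Q, hQ1, hQ2, hQ3⟩ := Cfsg.Agent.H97.Asch.SpMax.quad_of_two C (by omega) hF2 h1 hH (h2 ▸ inf_le_left)
        exact Or.inr <| Or.inr <| Or.inr <| Or.inr <| Or.inr <| Or.inr <| Or.inr <| Or.inr <| Or.inl ⟨by rw [hF2]; decide, Q, hQ1, hQ2, hQ3⟩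
    · exact absurd hev (by decide)
  · obtain rfl : k = 3 := by
      have := Cfsg.Agent.H97.Asch.card_of_mdecomp h1
      rw [hcardι] at this
      omega
    exact Or.inr <| Or.inr <| Or.inr <| Or.inl ⟨h0, D, h1, h2, h3⟩
  · exact Or.inr <| Or.inr <| Or.inr <| Or.inr <| Or.inr <| Or.inr <| Or.inr <| Or.inl ⟨F₀, r, P, ζ, h0, h1, h2, h3, h4⟩
  · exfalso
    rw [hcardι] at h9
    exact Cfsg.Agent.H97.Asch.no_prime_pow_of_two_primes (by norm_num : Nat.Prime 2) (by norm_num : Nat.Prime 3) (by norm_num) (by norm_num : 2 ∣ 6) (by norm_num : 3 ∣ 6) Nat.prime_two h9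
  · exact Or.inr <| Or.inr <| Or.inr <| Or.inr <| Or.inr <| Or.inr <| Or.inr <| Or.inr <| Or.inl ⟨h0, Q, h1, h2, h3⟩
  · have hd := Cfsg.Agent.H97.Asch.selfadj_dvd C.ctx C.alt h1 h2 h3
    rw [hcardι] at hd
    obtain rfl : r = 3 := by
      have hr2 := h0.two_le
      have hle := Nat.le_of_dvd (by norm_num) hd
      have hrle : r ≤ 3 := by omega
      interval_cases r
      · norm_num at hd
      · rfl
    exact Or.inr <| Or.inr <| Or.inr <| Or.inr <| Or.inl ⟨K', h1, h2, h3, h4⟩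
  · exact Or.inr <| Or.inr <| Or.inr <| Or.inr <| Or.inr <| Or.inl ⟨h0, K', h1, h2, h3, h4⟩
  · have hc : n₁ * n₂ = 6 := by
      have := Fintype.card_congr e
      rw [hcardι] at this
      simpa [Fintype.card_prod] using this.symm
    have hev : Even n₁ := by simpa using Cfsg.Agent.H97.Asch.IsSymplecticForm.even h2
    have hn₁ : n₁ ≤ 2 := by nlinarith
    interval_cases n₁
    · omega
    · exact absurd hev (by decide)
    · obtain rfl : n₂ = 3 := by omega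
      by_cases hq5 : 5 ≤ Fintype.card F
      · exact Or.inr <| Or.inr <| Or.inr <| Or.inr <| Or.inr <| Or.inr <| Or.inl ⟨h0, hq5, e, P, f₁, f₂, h2, h3, h4, h5⟩
      · have hF3 : Fintype.card F = 3 := by
          obtain ⟨j, hj⟩ := h0
          omega
        obtain ⟨D', hD', hE⟩ := Cfsg.Agent.H97.Asch.SpMax.decomp_of_tensor_three C hF3 (by norm_num) h2 h3 h4 hH (h5 ▸ inf_le_left)
        exact Or.inr <| Or.inr <| Or.inl ⟨by omega, D', hD', hE⟩
  · exfalso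
    have hc : k ^ t = 6 := by
      have := Fintype.card_congr e
      rw [hcardι] at this
      simpa [Fintype.card_fun] using this.symm
    have hev : Even k := by simpa using Cfsg.Agent.H97.Asch.IsSymplecticForm.even h4
    have h27 : 3 ^ 3 ≤ 3 ^ t := Nat.pow_le_pow_right (by norm_num) h2
    have hk2 : k < 3 := by
      by_contra hlt
      have := Nat.pow_le_pow_left (show 3 ≤ k by omega) t
      omega
    interval_cases k
    · rw [zero_pow (by omega)] at hc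
      omega
    · simp at hc
    · have h8 : 2 ^ 3 ≤ 2 ^ t := Nat.pow_le_pow_right (by norm_num) h2
      have h16 : t = 3 ∨ 4 ≤ t := by omega
      rcases h16 with rfl | h17
      · norm_num at hc
      · have := Nat.pow_le_pow_right (by norm_num : 0 < 2) h17
        omega
  · exact Or.inr <| Or.inr <| Or.inr <| Or.inr <| Or.inr <| Or.inr <| Or.inr <| Or.inr <| Or.inr <| h

end Cfsg.Agent.S5805
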