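import Cfsg.Statements.S5813
import Cfsg.Agent.Lib.H97Ort4
import Cfsg.Agent.Lib.Om7Sf
import Cfsg.Agent.Lib.Fr7C
import Mathlib

set_option autoImplicit false
open Cfsg

namespace Cfsg.Agent.S5813

open Matrix QuadraticMap Cfsg.Geo Module Cfsg.Agent.Lib.OrthoBasic Cfsg.Agent.Lib.OmCalc Cfsg.Agent.Lib.OmPerp Cfsg.Agent.H28.Nd Cfsg.Agent.H28.Kk Cfsg.Agent.H28.St

/-- Maximal subgroups of Ω_7(q) of geometric type, q odd. Let F be a finite field of odd order q, Q the standard quadratic form x₀² + Σ x_i y_i on F^7 (coordinates Unit ⊕ (Fin 3 ⊕ Fin 3)), and Ω = Ω_7(q) the commutator subgroup of its isometry group, inside GL_7(F). Each of the following, intersected with Ω, is a maximal subgroup of Ω: (1) the stabiliser of any non-zero subspace on which Q vanishes identically (totally singular 1-, 2- and 3-spaces); (2) the stabiliser of any non-zero even-dimensional subspace W on which the polar form of Q is non-degenerate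 (equivalently of its odd-dimensional orthogonal complement), except when q = 3 and W is a 2-space containing a non-zero singular vector (a plus-type plane); (3) for q = p prime, the stabiliser of any decomposition of F^7 into seven pairwise orthogonal, pairwise Q-isometric non-degenerate 1-spaces; (4) every subfield group for a subfield F₀ with |F| = |F₀|^r, r prime, whose F₀-structure carries Q. -/
theorem result {F : Type*} [Field F] [Fintype F] (hodd : Odd (Fintype.card F)) :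
    (∀ W : Submodule F (Unit ⊕ (Fin 3 ⊕ Fin 3) → F), W ≠ ⊥ → Cfsg.Geo.IsTotallySingularQuad (Cfsg.quadFormOdd 3 F) W → Cfsg.Geo.IsMaximalIn (Cfsg.Geo.omegaGL (Cfsg.quadFormOdd 3 F)) (Cfsg.Geo.subspaceStabilizer W ⊓ Cfsg.Geo.omegaGL (Cfsg.quadFormOdd 3 F))) ∧
    (∀ W : Submodule F (Unit ⊕ (Fin 3 ⊕ Fin 3) → F), W ≠ ⊥ → Even (Module.finrank F W) → Cfsg.Geo.IsNondegenerateOn (QuadraticMap.polar (Cfsg.quadFormOdd 3 F)) W → ¬ (Fintype.card F = 3 ∧ Module.finrank F W = 2 ∧ Cfsg.Geo.IsPlusTypeOn (Cfsg.quadFormOdd 3 F) W) → Cfsg.Geo.IsMaximalIn (Cfsg.Geo.omegaGL (Cfsg.quadFormOdd 3 F)) (Cfsg.Geo.subspaceStabilizer W ⊓ Cfsg.Geo.omegaGL (Cfsg.quadFormOdd 3 F))) ∧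
    ((Fintype.card F).Prime → ∀ D : Fin 7 → Submodule F (Unit ⊕ (Fin 3 ⊕ Fin 3) → F), Cfsg.Geo.IsOrthogonalMDecomposition (Cfsg.quadFormOdd 3 F) 1 D → Cfsg.Geo.IsMaximalIn (Cfsg.Geo.omegaGL (Cfsg.quadFormOdd 3 F)) (Cfsg.Geo.decompositionStabilizer D ⊓ Cfsg.Geo.omegaGL (Cfsg.quadFormOdd 3 F))) ∧
    (∀ (F₀ : Subfield F) (r : ℕ) (P : Matrix.GeneralLinearGroup (Unit ⊕ (Fin 3 ⊕ Fin 3)) F), r.Prime → Fintype.card F = Nat.card F₀ ^ r → Cfsg.Geo.IsQuadFormRationalStructure (Cfsg.quadFormOdd 3 F) F₀ P → Cfsg.Geo.IsMaximalIn (Cfsg.Geo.omegaGL (Cfsg.quadFormOdd 3 F)) (Cfsg.Geo.subfieldSubgroup F₀ P ⊓ Cfsg.Geo.omegaGL (Cfsg.quadFormOdd 3 F))) := by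
  classical
  have h2 := Cfsg.Agent.H97.Asch.two_ne_of_odd_card hodd
  have hQ := Cfsg.Agent.H97.Asch.qOdd_nondeg (m := 3) h2
  have hf : ⇑(Cfsg.Agent.Lib.OrthoCount.qOdd 3 F) = Cfsg.quadFormOdd 3 F := funext (Cfsg.Agent.Lib.OrthoCount.qOdd_apply 3)
  have hc : Fintype.card (Unit ⊕ (Fin 3 ⊕ Fin 3)) = 2 * 3 + 1 := by simp
  have hQ' := nondeg_of hQ
  have hodd' : Odd (Fintype.card (Unit ⊕ (Fin 3 ⊕ Fin 3))) := by
    rw [hc]
    exact ⟨3, rfl⟩
  obtain ⟨fr⟩ := Cfsg.Agent.Lib.Om7Base.exists_frame7 hQ' (by omega)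
  rw [← hf]
  refine ⟨fun W hW0 hW => ?_, fun W hW0 hev hW hex => ?_, fun hprime D hD => ?_, fun F₀ r P hr hcard hP => ?_⟩
  · exact Cfsg.Agent.Lib.Om7Aux.ts_maximal7 hQ' (by omega) fr hW0 hW (fun _ _ _ _ => by rw [hc]; omega)
  · have hW1 : W ≠ ⊤ := by
      rintro rfl
      rw [finrank_top, Module.finrank_fintype_fun_eq_card, hc] at hev
      exact (Nat.not_even_iff_odd.2 ⟨3, rfl⟩) hev
    obtain ⟨k, hk⟩ := hev
    have hN' : ∀ x ∈ W, (∀ y ∈ W, polar (Cfsg.Agent.Lib.OrthoCount.qOdd 3 F) x y = 0) → x = 0 := by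
      intro x hx h
      by_contra hx0
      obtain ⟨y, hy, hy'⟩ := (hW x hx hx0).2
      exact hy' (h y hy)
    have hp0 := opair_of_nondeg hQ' hN'
    have hf' := finrank_perpQ hQ' W
    have hft : finrank F W < Fintype.card (Unit ⊕ (Fin 3 ⊕ Fin 3)) := by
      have := Submodule.finrank_lt hW1
      rwa [Module.finrank_fintype_fun_eq_card] at this
    rw [hc] at hf' hft
    refine Cfsg.Agent.Lib.Om7Nd.maximal_of_nd7 hQ' (by omega) fr h2 hodd' hW0 hW1 hW ?_
    intro P' hP' h3 h4 ⟨s, hs, hs0, hQs⟩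
    rcases hP' with rfl | rfl
    · apply hex
      refine ⟨?_, h3, (plane_plus hQ' hp0 h3 hs hs0 hQs).2⟩
      have h5 : 1 < Fintype.card F := Fintype.one_lt_card
      have h6 : Fintype.card F ≠ 2 := by
        intro h
        rw [h] at hodd
        exact (by decide : ¬ Odd 2) hodd
      omega
    · omega
  · haveI : Fact (Fintype.card F).Prime := ⟨hprime⟩
    haveI : CharP F (Fintype.card F) := by
      obtain ⟨q, hq⟩ := CharP.exists F
      obtain ⟨n, hqp, hcard⟩ := FiniteField.card F q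
      have h1 : q = Fintype.card F := ((Nat.Prime.pow_eq_iff hprime).1 hcard.symm).1
      rwa [← h1]
    exact Cfsg.Agent.Lib.Fr7C.frame_maximal7 hQ' (by omega) (Cfsg.Agent.Lib.Om7Base.exists_frame7 hQ' (by omega)) (by omega) (by decide) rfl hodd h2 hD
  · refine Cfsg.Agent.Lib.Om7Sf.maximal_abstract7 (by rw [hf]; rw [hf] at hQ; exact hQ) (by omega) hodd' h2 F₀ hr hcard P (ζ := 1) one_ne_zero ?_
    intro u hu
    show 1 * _ ∈ F₀
    rw [one_mul]
    exact hP u hu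

end Cfsg.Agent.S5813
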