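import Cfsg.Statements.S5820
import Cfsg.Agent.Lib.H97J6

set_option autoImplicit false
open Cfsg

namespace Cfsg.Agent.S5820

/-- Every maximal subgroup of SU_8(q) is of one of the listed geometric types or lies in the residual class. Let F be the field with q² elements, f the standard unitary form Σ u_i v_i^q on F^8, and H a maximal subgroup of SU_8(q) (inside GL_8(F)). Then H is the intersection with SU_8(q) of one of: the stabiliser of a non-zero totally isotropic subspace; the stabiliser of a non-degenerate 1-, 2- or 3-space; the stabiliser of a decomposition into eight mutually orthogonal non-degenerate 1-spaces; for q ≥ 3, of a decomposition into four mutually orthogonal non-degenerate 2-spaces; of a decomposition into two orthogonal non-degenerate 4-spaces; of a decomposition into two totally isotropic 4-spaces; for q ≥ 3, the stabiliser of a tensor decomposition of f into unitary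 forms on F^2 and F^4; a subfield group of odd prime index whose F₀-structure carries f; a subfield group of index 2 and symplectic type; for q odd, a subfield group of index 2 and orthogonal type; for q = p ≡ 3 mod 4 prime, the normaliser of an absolutely irreducible symplectic-type 2-group of order 2^8 with centre of order 4 inside the similarity group of f — or else H lies in the residual class of the unitary case. -/
theorem result {F : Type*} [Field F] [Fintype F] (q : ℕ) (hF : Fintype.card F = q ^ 2) (H : Subgroup (Matrix.GeneralLinearGroup (Fin 8) F)) (hH : Cfsg.Geo.IsMaximalIn (Cfsg.GU 8 F q ⊓ Cfsg.Geo.specialLinear (Fin 8) F) H) :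
    (∃ W : Submodule F (Fin 8 → F), W ≠ ⊥ ∧ Cfsg.Geo.IsTotallySingularFor (Cfsg.hermForm 8 F q) W ∧ H = Cfsg.Geo.subspaceStabilizer W ⊓ (Cfsg.GU 8 F q ⊓ Cfsg.Geo.specialLinear (Fin 8) F)) ∨
    (∃ W : Submodule F (Fin 8 → F), W ≠ ⊥ ∧ Cfsg.Geo.IsNondegenerateOn (Cfsg.hermForm 8 F q) W ∧ 2 * Module.finrank F W < 8 ∧ H = Cfsg.Geo.subspaceStabilizer W ⊓ (Cfsg.GU 8 F q ⊓ Cfsg.Geo.specialLinear (Fin 8) F)) ∨
    (∃ D : Fin 8 → Submodule F (Fin 8 → F), Cfsg.Geo.IsNondegenerateMDecomposition (Cfsg.hermForm 8 F q) 1 D ∧ H = Cfsg.Geo.decompositionStabilizer D ⊓ (Cfsg.GU 8 F q ⊓ Cfsg.Geo.specialLinear (Fin 8) F)) ∨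
    (3 ≤ q ∧ ∃ D : Fin 4 → Submodule F (Fin 8 → F), Cfsg.Geo.IsNondegenerateMDecomposition (Cfsg.hermForm 8 F q) 2 D ∧ H = Cfsg.Geo.decompositionStabilizer D ⊓ (Cfsg.GU 8 F q ⊓ Cfsg.Geo.specialLinear (Fin 8) F)) ∨
    (∃ D : Fin 2 → Submodule F (Fin 8 → F), Cfsg.Geo.IsNondegenerateMDecomposition (Cfsg.hermForm 8 F q) 4 D ∧ H = Cfsg.Geo.decompositionStabilizer D ⊓ (Cfsg.GU 8 F q ⊓ Cfsg.Geo.specialLinear (Fin 8) F)) ∨
    (∃ D : Fin 2 → Submodule F (Fin 8 → F), Cfsg.Geo.IsMDecomposition 4 D ∧ (∀ i, Cfsg.Geo.IsTotallySingularFor (Cfsg.hermForm 8 F q) (D i)) ∧ H = Cfsg.Geo.decompositionStabilizer D ⊓ (Cfsg.GU 8 F q ⊓ Cfsg.Geo.specialLinear (Fin 8) F)) ∨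
    (3 ≤ q ∧ ∃ (e : Fin 8 ≃ Fin 2 × Fin 4) (P : Matrix.GeneralLinearGroup (Fin 8) F) (f₁ : (Fin 2 → F) → (Fin 2 → F) → F) (f₂ : (Fin 4 → F) → (Fin 4 → F) → F), Cfsg.Geo.IsUnitaryFormPow q f₁ ∧ Cfsg.Geo.IsUnitaryFormPow q f₂ ∧ Cfsg.Geo.IsTensorFormStructure (fun x : F => x ^ q) (Cfsg.hermForm 8 F q) f₁ f₂ e P ∧ H = Cfsg.Geo.tensorProductSubgroup 2 4 e P ⊓ (Cfsg.GU 8 F q ⊓ Cfsg.Geo.specialLinear (Fin 8) F)) ∨
    (∃ (F₀ : Subfield F) (r : ℕ) (P : Matrix.GeneralLinearGroup (Fin 8) F), r.Prime ∧ Odd r ∧ Fintype.card F = Nat.card F₀ ^ r ∧ Cfsg.Geo.IsFormRationalStructure (Cfsg.hermForm 8 F q) F₀ 1 P ∧ H = Cfsg.Geo.subfieldSubgroup F₀ P ⊓ (Cfsg.GU 8 F q ⊓ Cfsg.Geo.specialLinear (Fin 8) F)) ∨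
    (∃ (F₀ : Subfield F) (P : Matrix.GeneralLinearGroup (Fin 8) F) (ζ : F), Fintype.card F = Nat.card F₀ ^ 2 ∧ ζ ≠ 0 ∧ ζ + ζ ^ q = 0 ∧ Cfsg.Geo.IsFormRationalStructure (Cfsg.hermForm 8 F q) F₀ ζ P ∧ (∀ u : Fin 8 → F, (∀ i, u i ∈ F₀) → (Cfsg.hermForm 8 F q) (Matrix.mulVec (P : Matrix (Fin 8) (Fin 8) F) u) (Matrix.mulVec (P : Matrix (Fin 8) (Fin 8) F) u) = 0) ∧ H = Cfsg.Geo.subfieldSubgroup F₀ P ⊓ (Cfsg.GU 8 F q ⊓ Cfsg.Geo.specialLinear (Fin 8) F)) ∨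
    (Odd q ∧ ∃ (F₀ : Subfield F) (P : Matrix.GeneralLinearGroup (Fin 8) F), Fintype.card F = Nat.card F₀ ^ 2 ∧ Cfsg.Geo.IsFormRationalStructure (Cfsg.hermForm 8 F q) F₀ 1 P ∧ H = Cfsg.Geo.subfieldSubgroup F₀ P ⊓ (Cfsg.GU 8 F q ⊓ Cfsg.Geo.specialLinear (Fin 8) F)) ∨
    (∃ (p : ℕ) (R : Subgroup (Matrix.GeneralLinearGroup (Fin 8) F)), p.Prime ∧ q = p ∧ p % 4 = 3 ∧ Cfsg.Geo.IsSymplecticTypeGroup 2 R ∧ Cfsg.Geo.ActsAbsolutelyIrreducibly (Cfsg.Geo.matrixSet R) ∧ R ≤ Cfsg.Geo.similarityGroup (Cfsg.hermForm 8 F q) ∧ Nat.card R = 256 ∧ Nat.card (Subgroup.center R) = 4 ∧ H = Cfsg.Geo.subgroupNormalizer R ⊓ (Cfsg.GU 8 F q ⊓ Cfsg.Geo.specialLinear (Fin 8) F)) ∨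
    Cfsg.Geo.InUnitaryResidualClass H := by
  classical
  have hmax := Cfsg.Agent.H97.Asch.Su.herm_max hF (by norm_num) hH
  have hq2 := Cfsg.Agent.H97.Asch.two_le_q_of_card hF
  have C := Cfsg.Agent.H97.Asch.herm_ctx (n := 8) hF (by norm_num)
  rcases hmax with ⟨W, h0, h1, h2⟩ | ⟨W, h0, h1, h2, h3⟩ | ⟨t, k, D, h1, h2⟩ | ⟨k, D, h0, h1, h2, h3⟩ |
    ⟨F₀, r, P, h0, h1, h2, h3, h4⟩ | ⟨F₀, P, h0, h1, h2, h3⟩ | ⟨F₀, P, ζ, h0, h1, h2, h3, h4, h5, h6⟩ |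
    ⟨r, R, p, e, k, h0, h1, h2, h3, h4, h5, h6, h7, h8⟩ |
    ⟨r, K', h0, h1, h2, h3, h4⟩ | ⟨n₁, n₂, e, P, f₁, f₂, h0, h1, h2, h3, h4, h5⟩ |
    ⟨k, t, e, P, f₁, h0, h1, h2, h3, h4, h5⟩ | h
  · exact Or.inl ⟨W, h0, h1, h2⟩
  · refine Or.inr <| Or.inl ⟨W, h0, h1, ?_, h3⟩
    simpa using h2
  · have hc := Cfsg.Agent.H97.Asch.card_of_mdecomp h1.decomp
    have ht := h1.decomp.two_le
    have hk := h1.decomp.pos
    rw [Fintype.card_fin] at hc
    have hkle : k ≤ 4 := by nlinarith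
    interval_cases k
    · obtain rfl : t = 8 := by omega
      exact Or.inr <| Or.inr <| Or.inl ⟨D, h1, h2⟩
    · obtain rfl : t = 4 := by omega
      by_cases hq3 : 3 ≤ q
      · exact Or.inr <| Or.inr <| Or.inr <| Or.inl ⟨hq3, D, h1, h2⟩
      · obtain rfl : q = 2 := by omega
        have hF4 : Fintype.card F = 4 := by rw [hF]; norm_num
        obtain ⟨D', hD', hE⟩ := Cfsg.Agent.H97.Asch.SuMax.frame_of_two C hF4 (fun _ => rfl) (by norm_num) h1 hH (h2 ▸ inf_le_left)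
        exact Or.inr <| Or.inr <| Or.inl ⟨D', hD', hE⟩
    · omega
    · obtain rfl : t = 2 := by omega
      exact Or.inr <| Or.inr <| Or.inr <| Or.inr <| Or.inl ⟨D, h1, h2⟩
  · obtain rfl : k = 4 := by
      simp at h0
      omega
    exact Or.inr <| Or.inr <| Or.inr <| Or.inr <| Or.inr <| Or.inl ⟨D, h1, h2, h3⟩
  · exact Or.inr <| Or.inr <| Or.inr <| Or.inr <| Or.inr <| Or.inr <| Or.inr <| Or.inl ⟨F₀, r, P, h0, h1, h2, h3, h4⟩
  · exact Or.inr <| Or.inr <| Or.inr <| Or.inr <| Or.inr <| Or.inr <| Or.inr <| Or.inr <| Or.inr <| Or.inl ⟨h0, F₀, P, h1, h2, h3⟩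
  · exact Or.inr <| Or.inr <| Or.inr <| Or.inr <| Or.inr <| Or.inr <| Or.inr <| Or.inr <| Or.inl ⟨F₀, P, ζ, h1, h2, h3, h4, h5, h6⟩
  · rw [Fintype.card_fin] at h6
    obtain rfl := Cfsg.Agent.H97.Asch.prime_of_dvd_pow (by norm_num : Nat.Prime 2) (by norm_num : 2 ∣ 8) h0.prime h6
    have hk2 : k = 3 := by
      have h9 : (2 : ℕ) ^ 3 = 2 ^ k := by rw [← h6]; norm_num
      exact (Nat.pow_right_injective (le_refl 2) h9).symm
    subst hk2
    rcases h5 with ⟨ho, -⟩ | ⟨-, he, hz, hR⟩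
    · exact absurd ho (by decide)
    · subst he
      rw [hz] at h4
      obtain ⟨hqp, hmod⟩ := Cfsg.Agent.H97.Asch.class6_4 hF h4
      exact Or.inr <| Or.inr <| Or.inr <| Or.inr <| Or.inr <| Or.inr <| Or.inr <| Or.inr <| Or.inr <| Or.inr <| Or.inl ⟨p, R, h4.1, hqp, hmod, h0, h1, h2, by rw [hR]; norm_num, hz, h8⟩
  · have hd := Cfsg.Agent.H97.Asch.dvd_of_fieldSubalgebra h2
    rw [Fintype.card_fin] at hd
    have hrle : r ≤ 8 := Nat.le_of_dvd (by norm_num) hd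
    have hr2 := h0.two_le
    interval_cases r
    · exact absurd h1 (by decide)
    · exact absurd hd (by norm_num)
    · exact absurd h1 (by decide)
    · exact absurd hd (by norm_num)
    · exact absurd h1 (by decide)
    · exact absurd hd (by norm_num)
    · exact absurd h1 (by decide)
  · have hprod := Cfsg.Agent.H97.Asch.tensor_dims e
    have hn₁ : n₁ ≤ 2 := by nlinarith
    interval_cases n₁
    obtain rfl : n₂ = 4 := by omega
    by_cases hq3 : 3 ≤ q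
    · exact Or.inr <| Or.inr <| Or.inr <| Or.inr <| Or.inr <| Or.inr <| Or.inl ⟨hq3, e, P, f₁, f₂, h2, h3, h4, h5⟩
    · obtain rfl : q = 2 := by omega
      have hF4 : Fintype.card F = 4 := by rw [hF]; norm_num
      obtain ⟨D', hD', hE⟩ := Cfsg.Agent.H97.Asch.SuMax.decomp_of_tensor C hF4 (fun _ => rfl) (by norm_num) h2 h3 h4 hH (h5 ▸ inf_le_left)
      exact Or.inr <| Or.inr <| Or.inr <| Or.inr <| Or.inl ⟨D', hD', hE⟩
  · exfalso
    have hpow := Cfsg.Agent.H97.Asch.wreath_dims e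
    have h6 : t = 2 := by
      by_contra hne
      have ht3 : 3 ≤ t := by omega
      have := Nat.pow_le_pow_right (by omega : 0 < k) ht3
      have h27 := Nat.pow_le_pow_left h0 3
      omega
    subst h6
    have h7 : k = 3 := by nlinarith
    subst h7
    norm_num at hpow
  · exact Or.inr <| Or.inr <| Or.inr <| Or.inr <| Or.inr <| Or.inr <| Or.inr <| Or.inr <| Or.inr <| Or.inr <| Or.inr <| h

end Cfsg.Agent.S5820
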