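import Cfsg.Statements.S5826
import Cfsg.Agent.Lib.H97L13

set_option autoImplicit false
open Cfsg

namespace Cfsg.Agent.S5826

/-- Every maximal subgroup of Ω_8^-(q) is of one of the listed geometric types or lies in the residual class. Let F be a finite field with q elements, Q a non-degenerate quadratic form on F^8 of minus type (no totally singular 4-space), Ω the commutator subgroup of its isometry group, and H a maximal subgroup of Ω (inside GL_8(F)). Then H is the intersection with Ω of one of: the stabiliser of a non-zero totally singular subspace; for q odd, the stabiliser of a non-degenerate subspace of odd dimension; the stabiliser of a non-degenerate 2-space of minus type; for q ≥ 4, the stabiliser of a non-degenerate 2-space of plus type; the stabiliser of a non-degenerate 4-space; for q even, the stabiliser of the span of a non-singular vector; the normaliser of a degree-2 subfield of the matrix algebra; a subfield group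 of odd prime index whose F₀-structure carries a non-zero multiple of Q — or else H lies in the residual class of the orthogonal case (modulo scalars H is almost simple, with absolutely irreducible perfect socle preimage realisable over no proper subfield and fixing no non-degenerate unitary form). -/
theorem result {F : Type*} [Field F] [Fintype F] (Q : (Fin 8 → F) → F) (hQ : Cfsg.Geo.IsNondegenerateQuadraticForm Q) (hminus : ¬ Cfsg.Geo.IsPlusTypeOn Q ⊤) (H : Subgroup (Matrix.GeneralLinearGroup (Fin 8) F)) (hH : Cfsg.Geo.IsMaximalIn (Cfsg.Geo.omegaGL Q) H) :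
    (∃ W : Submodule F (Fin 8 → F), W ≠ ⊥ ∧ Cfsg.Geo.IsTotallySingularQuad Q W ∧ H = Cfsg.Geo.subspaceStabilizer W ⊓ Cfsg.Geo.omegaGL Q) ∨
    (Odd (Fintype.card F) ∧ ∃ W : Submodule F (Fin 8 → F), W ≠ ⊥ ∧ W ≠ ⊤ ∧ Odd (Module.finrank F W) ∧ Cfsg.Geo.IsNondegenerateOn (QuadraticMap.polar Q) W ∧ H = Cfsg.Geo.subspaceStabilizer W ⊓ Cfsg.Geo.omegaGL Q) ∨
    (∃ W : Submodule F (Fin 8 → F), Module.finrank F W = 2 ∧ Cfsg.Geo.IsNondegenerateOn (QuadraticMap.polar Q) W ∧ ¬ Cfsg.Geo.IsPlusTypeOn Q W ∧ H = Cfsg.Geo.subspaceStabilizer W ⊓ Cfsg.Geo.omegaGL Q) ∨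
    (4 ≤ Fintype.card F ∧ ∃ W : Submodule F (Fin 8 → F), Module.finrank F W = 2 ∧ Cfsg.Geo.IsNondegenerateOn (QuadraticMap.polar Q) W ∧ Cfsg.Geo.IsPlusTypeOn Q W ∧ H = Cfsg.Geo.subspaceStabilizer W ⊓ Cfsg.Geo.omegaGL Q) ∨
    (∃ W : Submodule F (Fin 8 → F), Module.finrank F W = 4 ∧ Cfsg.Geo.IsNondegenerateOn (QuadraticMap.polar Q) W ∧ H = Cfsg.Geo.subspaceStabilizer W ⊓ Cfsg.Geo.omegaGL Q) ∨
    (¬ Odd (Fintype.card F) ∧ ∃ v : (Fin 8 → F), Q v ≠ 0 ∧ H = Cfsg.Geo.subspaceStabilizer (Submodule.span F {v}) ⊓ Cfsg.Geo.omegaGL Q) ∨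
    (∃ K : Subalgebra F (Matrix (Fin 8) (Fin 8) F), Cfsg.Geo.IsFieldSubalgebra 2 K ∧ H = Cfsg.Geo.subalgebraNormalizer K ⊓ Cfsg.Geo.omegaGL Q) ∨
    (∃ (F₀ : Subfield F) (r : ℕ) (P : Matrix.GeneralLinearGroup (Fin 8) F) (ζ : F), r.Prime ∧ Odd r ∧ Fintype.card F = Nat.card F₀ ^ r ∧ ζ ≠ 0 ∧ Cfsg.Geo.IsQuadFormRationalStructure (fun v : Fin 8 → F => ζ * Q v) F₀ P ∧ H = Cfsg.Geo.subfieldSubgroup F₀ P ⊓ Cfsg.Geo.omegaGL Q) ∨
    Cfsg.Geo.InOrthogonalResidualClass H := by
  classical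
  obtain ⟨Q', rfl⟩ := Cfsg.Agent.Lib.OmCalc.exists_toQF Q hQ
  have C := Cfsg.Agent.H97.Asch.ectx_omega Q' (by simp) hQ
  have hHK : H ≤ Cfsg.Geo.omegaGL ⇑Q' := hH.1.le
  have hstab : ∀ W : Submodule F (Fin 8 → F), W ≠ ⊥ → W ≠ ⊤ → H ≤ Cfsg.Geo.subspaceStabilizer W → H = Cfsg.Geo.subspaceStabilizer W ⊓ Cfsg.Geo.omegaGL ⇑Q' :=
    fun W h0 h1 h => Cfsg.Agent.H97.Asch.maximal_eq' hH h (C.not_le_stab (by simp) h0 h1)
  rcases C.main (Or.inl (by simp)) hHK with ⟨W, h0, h1, h2⟩ | ⟨W, h0, h1, hnd, h2⟩ | ⟨hq, v, hv, h2⟩ | ⟨t, k, D, hD, h2⟩ | ⟨k, D, hD, h1, h2⟩ |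
    ⟨ℓ, K', hℓ, hK', -, h2, -⟩ | ⟨d, m, e, P, f₁, f₂, hd, hdm, -, -, -, hpure, -⟩ | ⟨d, m, e, P, f₁, f₂, -, hd, hdm, -⟩ |
    ⟨F₀, r, P, ζ, hr, hF, hζ, hrat, h2⟩ | ⟨-, h9⟩ | h10
  · exact Or.inl ⟨W, h0, h1, hstab W h0 (C.ts_ne_top h1) h2⟩
  · obtain ⟨W', h0', h1', hnd', h2', hdim⟩ := C.nondeg_half hHK h0 h1 hnd h2
    rw [Fintype.card_fin] at hdim
    have hd0 : Module.finrank F W' ≠ 0 := fun h => h0' (Submodule.finrank_eq_zero.mp h)
    by_cases hodd : Odd (Module.finrank F W')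
    · exact Or.inr <| Or.inl ⟨C.odd_of_odd_dim hnd' hodd, W', h0', h1', hodd, hnd', hstab W' h0' h1' h2'⟩
    · have hcases : Module.finrank F W' = 2 ∨ Module.finrank F W' = 4 := by
        have hle4 : Module.finrank F W' ≤ 4 := by omega
        interval_cases h : Module.finrank F W'
        · exact absurd rfl hd0
        · exact absurd (by decide) hodd
        · exact Or.inl rfl
        · exact absurd (by decide) hodd
        · exact Or.inr rfl
      rcases hcases with h | h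
      · by_cases hp : Cfsg.Geo.IsPlusTypeOn ⇑Q' W'
        · exact Or.inr <| Or.inr <| Or.inr <| Or.inl ⟨Cfsg.Agent.H97.Asch.plane_cases Q' hQ (by simp) hH h hnd' h2' hp, W', h, hnd', hp, hstab W' h0' h1' h2'⟩
        · exact Or.inr <| Or.inr <| Or.inl ⟨W', h, hnd', hp, hstab W' h0' h1' h2'⟩
      · exact Or.inr <| Or.inr <| Or.inr <| Or.inr <| Or.inl ⟨W', h, hnd', hstab W' h0' h1' h2'⟩
  · have hv0 : v ≠ 0 := by
      rintro rfl
      exact hv C.Q_zero
    have h0' : Submodule.span F {v} ≠ ⊥ := by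
      simpa using hv0
    have h1' : Submodule.span F {v} ≠ ⊤ := by
      intro h
      have h3 := finrank_span_singleton (K := F) hv0
      rw [h, finrank_top, Module.finrank_fintype_fun_eq_card, Fintype.card_fin] at h3
      omega
    exact Or.inr <| Or.inr <| Or.inr <| Or.inr <| Or.inr <| Or.inl ⟨hq, v, hv, hstab _ h0' h1' h2⟩
  · exfalso
    have hc := Cfsg.Agent.H97.Asch.card_of_mdecomp hD.decomp.decomp
    have hk := hD.decomp.decomp.pos
    have ht := hD.decomp.decomp.two_le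
    rw [Fintype.card_fin] at hc
    have hkle : k ≤ 4 := by nlinarith
    interval_cases k
    · exact hminus (Cfsg.Agent.H97.Ty.blocks_pairs (s := 4) hD (by omega) (by decide))
    · exact hminus (Cfsg.Agent.H97.Ty.blocks_pairs (s := 2) hD (by omega) (by decide))
    · omega
    · obtain rfl : t = 2 := by omega
      rcases Cfsg.Agent.H97.Ty.blocks_even (a := 2) hD with ⟨-, h⟩ | ⟨-, h, -⟩
      · exact hminus h
      · exact hminus (h (by decide))
  · exfalso
    have hc := Cfsg.Agent.H97.Asch.card_of_mdecomp hD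
    rw [Fintype.card_fin] at hc
    refine hminus ⟨D 0, le_top, h1 0, ?_⟩
    rw [hD.finrank_eq, finrank_top, Module.finrank_fintype_fun_eq_card, Fintype.card_fin]
    omega
  · have hd : ℓ ∣ 8 := by
      simpa using Cfsg.Agent.H97.Asch.dvd_of_fieldSubalgebra hK'
    have hd2 : ℓ ∣ 2 ^ 3 := by simpa using hd
    obtain rfl : ℓ = 2 := (Nat.prime_dvd_prime_iff_eq hℓ Nat.prime_two).mp (hℓ.dvd_of_dvd_pow hd2)
    exact Or.inr <| Or.inr <| Or.inr <| Or.inr <| Or.inr <| Or.inr <| Or.inl ⟨K', hK', Cfsg.Agent.H97.Asch.maximal_eq' hH h2 (C.not_le_field' (by simp) le_rfl hK')⟩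
  · exfalso
    have hp := Cfsg.Agent.H97.Asch.tensor_dims e
    obtain rfl : d = 2 := by nlinarith
    exact hminus (Cfsg.Agent.H97.Asch.tensor_alt_plus (by omega) hpure)
  · exfalso
    have hp := Cfsg.Agent.H97.Asch.tensor_dims e
    nlinarith
  · rcases hr.eq_two_or_odd' with rfl | hodd
    · exact absurd (Cfsg.Agent.H97.Asch.rational_two_plus C (a := 4) (by simp) hF hζ hrat) hminus
    · exact Or.inr <| Or.inr <| Or.inr <| Or.inr <| Or.inr <| Or.inr <| Or.inr <| Or.inl ⟨F₀, r, P, ζ, hr, hodd, hF, hζ, hrat,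
        Cfsg.Agent.H97.Asch.maximal_eq' hH h2 (C.not_le_subfield (by simp) (Cfsg.Agent.H97.Asch.subfield_ne_top hF hr) P)⟩
  · exact absurd h9 hminus
  · exact Or.inr <| Or.inr <| Or.inr <| Or.inr <| Or.inr <| Or.inr <| Or.inr <| Or.inr h10

end Cfsg.Agent.S5826
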