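import Cfsg.Statements.S5835
import Cfsg.Agent.Lib.H97G7

set_option autoImplicit false
open Cfsg

namespace Cfsg.Agent.S5835

/-- Every maximal subgroup of Ω_9(q), q odd, is of one of the listed geometric types or lies in the residual class. Let F be a finite field of odd order q, Q the standard quadratic form x₀² + Σ x_i y_i on F^9 (coordinates Unit ⊕ (Fin 4 ⊕ Fin 4)), Ω the commutator subgroup of its isometry group, and H a maximal subgroup of Ω (inside GL_9(F)). Then H is the intersection with Ω of one of: the stabiliser of a non-zero totally singular subspace; the stabiliser of a non-zero non-degenerate subspace of even dimension (not a plus-type plane when q = 3); for q prime, the stabiliser of a decomposition into nine pairwise orthogonal, pairwise isometric non-degenerate 1-spaces; for q ≥ 5, the stabiliser of a decomposition into three pairwise orthogonal, pairwise isometric non-degenerate 3-spaces; the normaliser of a degree-3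 subfield of the matrix algebra, self-adjoint for the polar form; a subfield group (|F| = |F₀|^r, r prime) whose F₀-structure carries Q; for q ≥ 5, the stabiliser of a tensor decomposition of the polar form as a tensor square of a symmetric form on F^3 — or else H lies in the residual class of the orthogonal case (modulo scalars H is almost simple, with absolutely irreducible perfect socle preimage realisable over no proper subfield and fixing no non-degenerate unitary form). -/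
theorem result {F : Type*} [Field F] [Fintype F] (hodd : Odd (Fintype.card F)) (H : Subgroup (Matrix.GeneralLinearGroup (Unit ⊕ (Fin 4 ⊕ Fin 4)) F)) (hH : Cfsg.Geo.IsMaximalIn (Cfsg.Geo.omegaGL (Cfsg.quadFormOdd 4 F)) H) :
    (∃ W : Submodule F (Unit ⊕ (Fin 4 ⊕ Fin 4) → F), W ≠ ⊥ ∧ Cfsg.Geo.IsTotallySingularQuad (Cfsg.quadFormOdd 4 F) W ∧ H = Cfsg.Geo.subspaceStabilizer W ⊓ Cfsg.Geo.omegaGL (Cfsg.quadFormOdd 4 F)) ∨
    (∃ W : Submodule F (Unit ⊕ (Fin 4 ⊕ Fin 4) → F), W ≠ ⊥ ∧ Even (Module.finrank F W) ∧ Cfsg.Geo.IsNondegenerateOn (QuadraticMap.polar (Cfsg.quadFormOdd 4 F)) W ∧ ¬ (Fintype.card F = 3 ∧ Module.finrank F W = 2 ∧ Cfsg.Geo.IsPlusTypeOn (Cfsg.quadFormOdd 4 F) W) ∧ H = Cfsg.Geo.subspaceStabilizer W ⊓ Cfsg.Geo.omegaGL (Cfsg.quadFormOdd 4 F)) ∨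
    ((Fintype.card F).Prime ∧ ∃ D : Fin 9 → Submodule F (Unit ⊕ (Fin 4 ⊕ Fin 4) → F), Cfsg.Geo.IsOrthogonalMDecomposition (Cfsg.quadFormOdd 4 F) 1 D ∧ H = Cfsg.Geo.decompositionStabilizer D ⊓ Cfsg.Geo.omegaGL (Cfsg.quadFormOdd 4 F)) ∨
    (5 ≤ Fintype.card F ∧ ∃ D : Fin 3 → Submodule F (Unit ⊕ (Fin 4 ⊕ Fin 4) → F), Cfsg.Geo.IsOrthogonalMDecomposition (Cfsg.quadFormOdd 4 F) 3 D ∧ H = Cfsg.Geo.decompositionStabilizer D ⊓ Cfsg.Geo.omegaGL (Cfsg.quadFormOdd 4 F)) ∨
    (∃ K : Subalgebra F (Matrix (Unit ⊕ (Fin 4 ⊕ Fin 4)) (Unit ⊕ (Fin 4 ⊕ Fin 4)) F), Cfsg.Geo.IsFieldSubalgebra 3 K ∧ Cfsg.Geo.IsSelfAdjointFor (QuadraticMap.polar (Cfsg.quadFormOdd 4 F)) K ∧ H = Cfsg.Geo.subalgebraNormalizer K ⊓ Cfsg.Geo.omegaGL (Cfsg.quadFormOdd 4 F)) ∨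
    (∃ (F₀ : Subfield F) (r : ℕ) (P : Matrix.GeneralLinearGroup (Unit ⊕ (Fin 4 ⊕ Fin 4)) F), r.Prime ∧ Fintype.card F = Nat.card F₀ ^ r ∧ Cfsg.Geo.IsQuadFormRationalStructure (Cfsg.quadFormOdd 4 F) F₀ P ∧ H = Cfsg.Geo.subfieldSubgroup F₀ P ⊓ Cfsg.Geo.omegaGL (Cfsg.quadFormOdd 4 F)) ∨
    (5 ≤ Fintype.card F ∧ ∃ (e : (Unit ⊕ (Fin 4 ⊕ Fin 4)) ≃ (Fin 2 → Fin 3)) (P : Matrix.GeneralLinearGroup (Unit ⊕ (Fin 4 ⊕ Fin 4)) F) (f₁ : (Fin 3 → F) → (Fin 3 → F) → F), Cfsg.Geo.IsSymmetricForm f₁ ∧ Cfsg.Geo.IsTensorPowerFormStructure id (QuadraticMap.polar (Cfsg.quadFormOdd 4 F)) f₁ e P ∧ H = Cfsg.Geo.tensorWreathSubgroup 3 2 e P ⊓ Cfsg.Geo.omegaGL (Cfsg.quadFormOdd 4 F)) ∨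
    Cfsg.Geo.InOrthogonalResidualClass H := by
  classical
  have C := Cfsg.Agent.H97.Asch.octx_qOdd (F := F) (m := 4) hodd (by omega)
  have hcard : Fintype.card (Unit ⊕ (Fin 4 ⊕ Fin 4)) = 9 := by
    simp
  have hHK := hH.1.le
  have hfixQ : ∀ g ∈ H, ∀ v, Cfsg.quadFormOdd 4 F (Matrix.mulVec (g : Matrix _ _ F) v) = Cfsg.quadFormOdd 4 F v :=
    fun g hg => C.fix g (hHK hg)
  have hoddn : Odd (Fintype.card (Unit ⊕ (Fin 4 ⊕ Fin 4))) := by
    rw [hcard]
    decide
  have hn5 : 5 ≤ Fintype.card (Unit ⊕ (Fin 4 ⊕ Fin 4)) := by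
    rw [hcard]
    omega
  have hq5 : Fintype.card F ≠ 3 → 5 ≤ Fintype.card F := by
    intro h3
    have h2 : 1 < Fintype.card F := Fintype.one_lt_card
    rcases hodd with ⟨j, hj⟩
    omega
  by_cases hirr : Cfsg.Agent.H97.Asch.Irr H
  · rcases C.main hoddn (by rw [hcard]; omega) hHK with
      ⟨W, h0, h1, hle⟩ | ⟨W, h0, h1, h2, hle⟩ | ⟨t, k, D, h1, h2, hle⟩ | ⟨t, D, h1, h2, hle⟩ | ⟨r, K, h1, h2, h3, h4, hle⟩ |
      ⟨n₁, n₂, e, P, f₁, f₂, h1, h2, h3, h4, h5, hle⟩ | ⟨F₀, r, P, h1, h2, h3, hle⟩ | ⟨k, t, e, P, f₁, h1, h2, h3, h4, h5, hle⟩ | hres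
    · -- a totally singular subspace
      have hst : Cfsg.Agent.H97.Asch.Stable H W := fun g hg w hw => ((Cfsg.Agent.H97.Asch.mem_stab_iff W g).mp (hle hg) w).mp hw
      rcases hirr W hst with hb | ht
      · exact absurd hb h0
      · exfalso
        obtain ⟨v, hv⟩ := exists_ne (0 : Unit ⊕ (Fin 4 ⊕ Fin 4) → F)
        obtain ⟨x, hx⟩ := C.nd hv
        apply hx
        have hall : ∀ z, Cfsg.quadFormOdd 4 F z = 0 := fun z => h1 z (ht ▸ Submodule.mem_top)
        simp only [QuadraticMap.polar]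
        rw [hall, hall, hall]
        ring
    · exfalso
      have hst : Cfsg.Agent.H97.Asch.Stable H W := fun g hg w hw => ((Cfsg.Agent.H97.Asch.mem_stab_iff W g).mp (hle hg) w).mp hw
      rcases hirr W hst with hb | ht
      · exact h0 hb
      · exact h1 ht
    · -- decompositions into larger spaces
      have hc := Cfsg.Agent.H97.Asch.card_of_mdecomp h2.decomp.decomp
      rw [hcard] at hc
      have ht2 := h2.decomp.decomp.two_le
      have ht3 : t = 3 ∧ k = 3 := by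
        have hk9 : k ≤ 9 := by nlinarith
        interval_cases k <;> omega
      obtain ⟨rfl, rfl⟩ := ht3
      by_cases hq : Fintype.card F = 3
      · -- a frame
        have hp : (Fintype.card F).Prime := by rw [hq]; decide
        obtain ⟨b, hb1, hb2, hb3⟩ := Cfsg.Agent.H97.Asch.f3_decomp_frame C hq h2 hfixQ hle
        obtain ⟨D', hD1, hD2, hD3⟩ := Cfsg.Agent.H97.Asch.frame_decomp' C.fctx hcard (by omega) hirr b hb1 hb2 hb3
        have hiso := Cfsg.Agent.H97.Asch.OCtx.isometric_of_trans hfixQ hD3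
        obtain ⟨b', hb'⟩ := Cfsg.Agent.H97.Asch.basis_of_lines hD1.decomp
        have hb'orth : ∀ i j, i ≠ j → QuadraticMap.polar (Cfsg.quadFormOdd 4 F) (b' i) (b' j) = 0 := by
          intro i j hij
          exact hD1.orthogonal i j hij _ (by rw [hb']; exact Submodule.mem_span_singleton_self _) _
            (by rw [hb']; exact Submodule.mem_span_singleton_self _)
        have hb'Q : ∀ i, Cfsg.quadFormOdd 4 F (b' i) ≠ 0 := Cfsg.Agent.H97.Asch.OCtx.line_aniso C hD1 hb'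
        have hDeq : D' = fun i => Submodule.span F {b' i} := funext hb'
        refine Or.inr <| Or.inr <| Or.inl ⟨hp, D', ⟨hD1, hiso⟩, Cfsg.Agent.H97.Asch.maximal_eq' hH hD2 ?_⟩
        rw [hDeq]
        exact C.not_le_frame (by omega) b' hb'orth hb'Q
      · exact Or.inr <| Or.inr <| Or.inr <| Or.inl ⟨hq5 hq, D, h2, Cfsg.Agent.H97.Asch.maximal_eq' hH hle (C.not_le_decomp hn5 h2.decomp.decomp (by omega))⟩
    · -- frames
      have hc := Cfsg.Agent.H97.Asch.card_of_mdecomp h2.decomp.decomp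
      rw [hcard] at hc
      have ht9 : t = 9 := by omega
      subst ht9
      obtain ⟨b', hb'⟩ := Cfsg.Agent.H97.Asch.basis_of_lines h2.decomp.decomp
      have hb'orth : ∀ i j, i ≠ j → QuadraticMap.polar (Cfsg.quadFormOdd 4 F) (b' i) (b' j) = 0 := by
        intro i j hij
        exact h2.decomp.orthogonal i j hij _ (by rw [hb']; exact Submodule.mem_span_singleton_self _) _
          (by rw [hb']; exact Submodule.mem_span_singleton_self _)
      have hb'Q : ∀ i, Cfsg.quadFormOdd 4 F (b' i) ≠ 0 := Cfsg.Agent.H97.Asch.OCtx.line_aniso C h2.decomp hb'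
      have hDeq : D = fun i => Submodule.span F {b' i} := funext hb'
      refine Or.inr <| Or.inr <| Or.inl ⟨h1, D, h2, Cfsg.Agent.H97.Asch.maximal_eq' hH hle ?_⟩
      rw [hDeq]
      exact C.not_le_frame (by omega) b' hb'orth hb'Q
    · -- fields
      have hdvd := Cfsg.Agent.H97.Asch.dvd_of_fieldSubalgebra h3
      rw [hcard] at hdvd h2
      have hr3 : r = 3 := by
        have h9 : r ∣ 3 ^ 2 := hdvd
        exact (Nat.prime_dvd_prime_iff_eq h1 Nat.prime_three).mp (h1.dvd_of_dvd_pow h9)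
      subst hr3
      exact Or.inr <| Or.inr <| Or.inr <| Or.inr <| Or.inl ⟨K, h3, h4, Cfsg.Agent.H97.Asch.maximal_eq' hH hle (C.not_le_field hn5 le_rfl h3)⟩
    · exfalso
      have hc := Fintype.card_congr e
      rw [hcard] at hc
      simp at hc
      have hn9 : n₁ ≤ 9 := by nlinarith
      interval_cases n₁ <;> omega
    · exact Or.inr <| Or.inr <| Or.inr <| Or.inr <| Or.inr <| Or.inl ⟨F₀, r, P, h1, h2, h3, Cfsg.Agent.H97.Asch.maximal_eq' hH hle (C.not_le_subfield hn5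
        (Cfsg.Agent.H97.Asch.subfield_ne_top h2 h1) P)⟩
    · have hc := Fintype.card_congr e
      rw [hcard] at hc
      simp at hc
      have hkt : k = 3 ∧ t = 2 := by
        have ht3 : t < 3 := by
          by_contra hlt
          have h6 : 3 ^ 3 ≤ k ^ t := calc
            3 ^ 3 ≤ 3 ^ t := Nat.pow_le_pow_right (by norm_num) (by omega)
            _ ≤ k ^ t := Nat.pow_le_pow_left h1 t
          omega
        have ht2 : t = 2 := by omega
        subst ht2
        have hk3 : k = 3 := by nlinarith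
        exact ⟨hk3, rfl⟩
      obtain ⟨rfl, rfl⟩ := hkt
      have hq : Fintype.card F ≠ 3 := fun h => h3 ⟨h, rfl⟩
      exact Or.inr <| Or.inr <| Or.inr <| Or.inr <| Or.inr <| Or.inr <| Or.inl ⟨hq5 hq, e, P, f₁, h4, h5,
        Cfsg.Agent.H97.Asch.maximal_eq' hH hle (C.not_le_wreath2 hn5 (by omega) e P)⟩
    · exact Or.inr <| Or.inr <| Or.inr <| Or.inr <| Or.inr <| Or.inr <| Or.inr hres
  · unfold Cfsg.Agent.H97.Asch.Irr at hirr
    push Not at hirr
    obtain ⟨W, hW, h0, h1⟩ := hirr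
    rcases C.reducible_case hn5 (Nat.not_even_iff_odd.mpr hoddn) hH hW h0 h1 with h | h
    · exact Or.inl h
    · exact Or.inr (Or.inl h)

end Cfsg.Agent.S5835
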