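import Cfsg.Statements.S5876
import Cfsg.Agent.H97PrimSol

set_option autoImplicit false
open Cfsg

namespace Cfsg.Agent.S5876

/-- Fixed-point spaces in primitive soluble linear groups. Let F be a finite field and G a soluble subgroup of GL_n(F) that acts irreducibly on F^n and primitively (G preserves no decomposition of F^n into two or more independent subspaces of equal dimension). Then every non-identity element g of G has fixed-point space {v : g v = v} of dimension at most 3n/4. -/
theorem result {F : Type*} [Field F] [Fintype F] {n : ℕ} (G : Subgroup (Matrix.GeneralLinearGroup (Fin n) F)) (hsol : IsSolvable G) (hirr : Cfsg.Geo.ActsIrreducibly (Cfsg.Geo.matrixSet G)) (hprim : ∀ (m t : ℕ) (D : Fin t → Submodule F (Fin n → F)), 2 ≤ t → Cfsg.Geo.IsMDecomposition m D → ¬ G ≤ Cfsg.Geo.decompositionStabilizer D) (g : Matrix.GeneralLinearGroup (Fin n) F) (hg : g ∈ G) (hg1 : g ≠ 1) :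
    4 * Module.finrank F (Module.End.eigenspace (Matrix.toLin' (g : Matrix (Fin n) (Fin n) F)) 1) ≤ 3 * n := by
  classical
  let ρ : G →* Module.End F (Fin n → F) :=
    { toFun := fun γ => Matrix.toLin' ((γ : Matrix.GeneralLinearGroup (Fin n) F) : Matrix (Fin n) (Fin n) F)
      map_one' := by simp [Module.End.one_eq_id]
      map_mul' := fun a b => by
        simp [Matrix.toLin'_mul, Module.End.mul_eq_comp] }
  have hinj : Function.Injective ρ := by
    intro a b hab
    apply Subtype.ext
    apply Units.ext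
    exact Matrix.toLin'.injective hab
  have hirr' : ∀ W : Submodule F (Fin n → F), (∀ γ : G, ∀ v ∈ W, ρ γ v ∈ W) → W = ⊥ ∨ W = ⊤ := by
    intro W hW
    apply hirr W
    rintro _ ⟨γ, hγ, rfl⟩ _ ⟨v, hv, rfl⟩
    exact hW ⟨γ, hγ⟩ v hv
  have hprim' : Cfsg.Agent.H97.PS.PrimHyp ρ := by
    intro t m D ht hm hrk hind htop hpres
    apply hprim m t D ht ⟨ht, hm, hrk, hind, htop⟩
    intro γ hγ
    obtain ⟨σ, hσ⟩ := hpres ⟨γ, hγ⟩
    exact ⟨σ, hσ⟩
  have hfin : Finite (Matrix.GeneralLinearGroup (Fin n) F) := inferInstance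
  have hsol' : Group.IsSolvable G := hsol
  have key := Cfsg.Agent.H97.PS.fix_bound hinj hirr' hprim' ⟨g, hg⟩
    (by intro h; exact hg1 (congrArg Subtype.val h))
  have hfr : Module.finrank F (Fin n → F) = n := by simp
  rw [hfr] at key
  have heq : Module.End.eigenspace (Matrix.toLin' (g : Matrix (Fin n) (Fin n) F)) 1 =
      Cfsg.Agent.H97.PS.fixSp ρ ⟨g, hg⟩ := by
    ext v
    rw [Module.End.mem_eigenspace_iff, Cfsg.Agent.H97.PS.mem_fixSp, one_smul]
    rfl
  rw [heq]
  exact key

end Cfsg.Agent.S5876
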