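import Mathlib
import Cfsg.Statements.S5877
import Cfsg.Agent.Lib.XSpEigMain
-- import your own Cfsg.Agent.* helpers here

set_option autoImplicit false
open Cfsg

namespace Cfsg.Agent.S5877

open scoped commutatorElement

theorem comm_mul_central_left {G : Type*} [Group G] {a z b : G} (hz : z * b = b * z) :
    ⁅a * z, b⁆ = ⁅a, b⁆ := by
  simp only [commutatorElement_def]
  calc a * z * b * (a * z)⁻¹ * b⁻¹ = a * (z * b) * z⁻¹ * a⁻¹ * b⁻¹ := by group
    _ = a * (b * z) * z⁻¹ * a⁻¹ * b⁻¹ := by rw [hz]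
    _ = a * b * a⁻¹ * b⁻¹ := by group

theorem comm_mul_central_right {G : Type*} [Group G] {a z b : G} (hz : z * a = a * z) :
    ⁅a, b * z⁆ = ⁅a, b⁆ := by
  rw [← commutatorElement_inv (b * z) a, comm_mul_central_left hz, commutatorElement_inv]

theorem pow_mul_of_central {G : Type*} [Group G] {x b : G} (hx : Commute ⁅x, b⁆ x)
    (hb : Commute ⁅x, b⁆ b) (k : ℕ) : x ^ k * b = ⁅x, b⁆ ^ k * b * x ^ k := by
  induction k with
  | zero => simp
  | succ k ih =>
    have h1 : x * b = ⁅x, b⁆ * b * x := by simp [commutatorElement_def]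
    have h2 : x * ⁅x, b⁆ ^ k = ⁅x, b⁆ ^ k * x := (hx.pow_left k).eq.symm
    calc x ^ (k + 1) * b = x * (x ^ k * b) := by rw [pow_succ']; group
      _ = x * (⁅x, b⁆ ^ k * b * x ^ k) := by rw [ih]
      _ = (x * ⁅x, b⁆ ^ k) * b * x ^ k := by group
      _ = ⁅x, b⁆ ^ k * (x * b) * x ^ k := by rw [h2]; group
      _ = ⁅x, b⁆ ^ k * (⁅x, b⁆ * b * x) * x ^ k := by rw [← h1]
      _ = ⁅x, b⁆ ^ (k + 1) * b * x ^ (k + 1) := by rw [pow_succ, pow_succ']; group



/-- Eigenspaces of elements normalising an absolutely irreducible extraspecial group. Let F be a finite field, r a prime, and R ≤ GL_n(F) an absolutely irreducible extraspecial r-group (an r-group whose centre equals its derived subgroup and has order r) of exponent r or 4. Let g ∈ GL_n(F) normalise the product of R with the scalar matrices, have prime order ϖ and not be scalar, and let W be the eigenspace of g for any c ∈ F (W may be the zero subspace). Then dim W ≤ 3n/4 if ϖ = 2, dim W ≤ 2n/3 if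 ϖ = 3, and dim W ≤ n/2 if ϖ > 3; moreover if ϖ = 3 and 3 does not divide n then dim W ≤ n/2. -/
theorem result {F : Type*} [Field F] [Fintype F] {n r ϖ : ℕ} (R : Subgroup (Matrix.GeneralLinearGroup (Fin n) F)) (hr : r.Prime) (hR : IsPGroup r R) (hZ : Nat.card (Subgroup.center R) = r) (hext : commutator R = Subgroup.center R) (hexp : Monoid.exponent R = r ∨ Monoid.exponent R = 4) (hirr : Cfsg.Geo.ActsAbsolutelyIrreducibly (Cfsg.Geo.matrixSet R)) (g : Matrix.GeneralLinearGroup (Fin n) F) (hg : g ∈ Cfsg.Geo.subgroupNormalizer (R ⊔ Cfsg.Geo.scalars (Fin n) F)) (hϖ : ϖ.Prime) (hord : orderOf g = ϖ) (hns : g ∉ Cfsg.Geo.scalars (Fin n) F) (c : F) :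
    (ϖ = 2 → 4 * Module.finrank F (Module.End.eigenspace (Matrix.toLin' (g : Matrix (Fin n) (Fin n) F)) c) ≤ 3 * n) ∧
    (ϖ = 3 → 3 * Module.finrank F (Module.End.eigenspace (Matrix.toLin' (g : Matrix (Fin n) (Fin n) F)) c) ≤ 2 * n) ∧
    (3 < ϖ → 2 * Module.finrank F (Module.End.eigenspace (Matrix.toLin' (g : Matrix (Fin n) (Fin n) F)) c) ≤ n) ∧
    (ϖ = 3 → ¬ 3 ∣ n → 2 * Module.finrank F (Module.End.eigenspace (Matrix.toLin' (g : Matrix (Fin n) (Fin n) F)) c) ≤ n) := by
  classical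
let Z := Cfsg.Geo.scalars (Fin n) F
let P := R ⊔ Z
have hcomm' : ∀ x : Matrix.GeneralLinearGroup (Fin n) F, (∀ b ∈ R, x * b = b * x) → x ∈ Z := by
  intro x hx
  obtain ⟨c', hc'⟩ := hirr.2 (x : Matrix (Fin n) (Fin n) F) (by
    rintro s ⟨b, hb, rfl⟩
    have := congrArg (fun u : Matrix.GeneralLinearGroup (Fin n) F => (u : Matrix (Fin n) (Fin n) F)) (hx b hb)
    simpa using this)
  apply (Cfsg.Geo.mem_scalars_iff x).mpr
  by_cases h0 : c' = 0
  · refine ⟨1, ?_⟩
    have h1 : (x : Matrix (Fin n) (Fin n) F) = 0 := by rw [hc', h0, zero_smul]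
    have h2 : (1 : Matrix (Fin n) (Fin n) F) = 0 := by
      have h3 : ((x * x⁻¹ : Matrix.GeneralLinearGroup (Fin n) F) : Matrix (Fin n) (Fin n) F) = 1 := by
        rw [mul_inv_cancel]; rfl
      rw [Units.val_mul, h1, zero_mul] at h3
      exact h3.symm
    simp [h1, h2]
  · exact ⟨Units.mk0 c' h0, by simpa using hc'⟩
have hcen : ∀ z ∈ Z, ∀ x : Matrix.GeneralLinearGroup (Fin n) F, z * x = x * z := by
  intro z hz x
  obtain ⟨c', hc'⟩ := (Cfsg.Geo.mem_scalars_iff z).mp hz
  apply Units.ext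
  rw [Units.val_mul, Units.val_mul, hc', Matrix.smul_mul, Matrix.mul_smul, Matrix.one_mul, Matrix.mul_one]
have hRR : ∀ a ∈ R, ∀ b ∈ R, ⁅a, b⁆ ∈ Z ∧ ⁅a, b⁆ ^ r = 1 := by
  intro a ha b hb
  let a' : R := ⟨a, ha⟩
  let b' : R := ⟨b, hb⟩
  have hc : ⁅a', b'⁆ ∈ Subgroup.center R := by
    rw [← hext, commutator_def]
    exact Subgroup.commutator_mem_commutator (Subgroup.mem_top _) (Subgroup.mem_top _)
  constructor
  · apply hcomm'
    intro u hu
    have := Subgroup.mem_center_iff.mp hc ⟨u, hu⟩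
    exact (congrArg Subtype.val this).symm
  · have h1 := pow_card_eq_one' (x := (⟨⁅a', b'⁆, hc⟩ : Subgroup.center R))
    rw [hZ] at h1
    have h2 := congrArg (fun u : Subgroup.center R => ((u : R) : Matrix.GeneralLinearGroup (Fin n) F)) h1
    exact h2
have hdec : ∀ a ∈ P, ∃ a' ∈ R, ∃ z ∈ Z, a = a' * z := by
  intro a ha
  have h1 : a ∈ (↑(R ⊔ Z) : Set (Matrix.GeneralLinearGroup (Fin n) F)) := ha
  rw [Subgroup.mul_normal] at h1
  obtain ⟨a', ha', z, hz, rfl⟩ := Set.mem_mul.mp h1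
  exact ⟨a', ha', z, hz, rfl⟩
have hPcomm : ∀ a ∈ P, ∀ b ∈ P, ∃ a' ∈ R, ∃ b' ∈ R, ⁅a, b⁆ = ⁅a', b'⁆ := by
  intro a ha b hb
  obtain ⟨a', ha', z, hz, rfl⟩ := hdec a ha
  obtain ⟨b', hb', z', hz', rfl⟩ := hdec b hb
  refine ⟨a', ha', b', hb', ?_⟩
  rw [comm_mul_central_left (hcen z hz _), comm_mul_central_right (hcen z' hz' _)]
let ρ : Matrix.GeneralLinearGroup (Fin n) F →* Module.End F (Fin n → F) :=
  { toFun := fun x => Matrix.toLin' (x : Matrix (Fin n) (Fin n) F)
    map_one' := by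
      simp
      rfl
    map_mul' := by
      intro a b
      simp only [Units.val_mul, Matrix.toLin'_mul]
      rfl }
have H : Cfsg.Agent.XSpEig.XRep ρ P Z r :=
  { inj := by
      intro x hx
      apply Units.ext
      apply Matrix.toLin'.injective
      refine hx.trans ?_
      simp
      rfl
    le := le_sup_right
    central := hcen
    scalar := by
      intro z hz
      obtain ⟨c', hc'⟩ := (Cfsg.Geo.mem_scalars_iff z).mp hz
      refine ⟨(c' : F), ?_⟩
      show Matrix.toLin' (z : Matrix (Fin n) (Fin n) F) = _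
      rw [hc', map_smul]
      simp
      rfl
    comm_mem := by
      intro a ha b hb
      obtain ⟨a', ha', b', hb', h⟩ := hPcomm a ha b hb
      rw [h]
      exact (hRR a' ha' b' hb').1
    comm_pow := by
      intro a ha b hb
      obtain ⟨a', ha', b', hb', h⟩ := hPcomm a ha b hb
      rw [h]
      exact (hRR a' ha' b' hb').2
    pow_mem := by
      intro a ha
      obtain ⟨a', ha', z, hz, rfl⟩ := hdec a ha
      have h1 : Commute a' z := (hcen z hz a').symm
      rw [h1.mul_pow]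
      refine Z.mul_mem ?_ (Z.pow_mem hz r)
      apply hcomm'
      intro b hb
      have h2 := hRR a' ha' b hb
      rw [pow_mul_of_central (hcen _ h2.1 _) (hcen _ h2.1 _) r, h2.2, one_mul]
    nondeg := by
      intro a _ h
      apply hcomm'
      intro b hb
      have := h b (Subgroup.mem_sup_left hb)
      exact (commutatorElement_eq_one_iff_mul_comm.mp this).symm }
have hgP : ∀ a ∈ P, g * a * g⁻¹ ∈ P := fun a ha => (Subgroup.mem_normalizer_iff.mp hg a).mp ha
have hgϖ : g ^ ϖ = 1 := by rw [← hord]; exact pow_orderOf_eq_one g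
obtain ⟨a₀, ha₀, hgn⟩ : ∃ a₀ ∈ P, g * a₀ ≠ a₀ * g := by
  by_contra hcon
  push Not at hcon
  exact hns (hcomm' g (fun b hb => hcon b (Subgroup.mem_sup_left hb)))
have hmain := Cfsg.Agent.XSpEig.main_abstract ρ P Z hr hϖ H g hgP hgϖ a₀ ha₀ hgn c
rw [Module.finrank_fin_fun] at hmain
exact hmain

end Cfsg.Agent.S5877
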