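import Mathlib
import Cfsg.Agent.Lib.PSL2Max
import Cfsg.Statements.S5942

set_option autoImplicit false
open Cfsg

namespace Cfsg.Agent.S5942

open Cfsg.Agent.Lib.SL2Core Cfsg.Agent.Lib.PSL2Max Cfsg.Agent.Lib.PSL2Sub Cfsg.Agent.Lib.DicksonTT

/-- Let K and F be finite fields of odd characteristic with #F = (#K)^r for an odd prime r. Then PSL_2(F) has a maximal subgroup isomorphic to PSL_2(K). -/
theorem result {F K : Type*} [Field F] [Fintype F] [Field K] [Fintype K] (q r : ℕ) (hK : Fintype.card K = q) (hF : Fintype.card F = q ^ r) (hq : Odd q) (hr : r.Prime) (hr2 : r ≠ 2) : ∃ H : Subgroup (Matrix.ProjectiveSpecialLinearGroup (Fin 2) F), IsCoatom H ∧ Nonempty (H ≃* Matrix.ProjectiveSpecialLinearGroup (Fin 2) K) := by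
  classical
  have hr0 : r ≠ 0 := hr.ne_zero
  have hrodd : Odd r := hr.odd_of_ne_two hr2
  obtain ⟨p, f, hpp, hf, hn, hchK, hchF⟩ := char_setup F K hr0 (by rw [hF, hK])
  haveI : Fact p.Prime := ⟨hpp⟩
  rw [hK] at hn
  have hq0 : 3 ≤ q := by
    have h1 : 1 < q := by
      rw [← hK]
      exact Fintype.one_lt_card
    obtain ⟨y, hy⟩ := hq
    omega
  have hpodd : Odd p := by
    rw [hn] at hq
    exact (Nat.odd_pow_iff (by omega)).mp hq
  obtain ⟨φ⟩ := exists_ringHom (F := F) (K := K) (m := r) hr.one_le (by rw [hF, hK])
  have hQodd : Odd (q ^ r) := hq.pow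
  have hcardG : 2 * Nat.card (PSL2 F) = q ^ r * ((q ^ r) ^ 2 - 1) := by
    have h1 := card_PSL2_form (K := F)
    rw [hF] at h1
    have h2 : Nat.gcd 2 (q ^ r - 1) = 2 := Nat.gcd_eq_left (Nat.Odd.sub_odd hQodd odd_one).two_dvd
    rwa [h2] at h1
  have hcardK : 2 * Nat.card (PSL2 K) = q * (q ^ 2 - 1) := by
    have h1 := card_PSL2_form (K := K)
    rw [hK] at h1
    have h2 : Nat.gcd 2 (q - 1) = 2 := Nat.gcd_eq_left (Nat.Odd.sub_odd hq odd_one).two_dvd
    rwa [h2] at h1
  refine ⟨(pslMap φ).range, ?_, ⟨(MonoidHom.ofInjective (pslMap_injective φ)).symm⟩⟩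
  have hcardH : Nat.card (pslMap φ).range = Nat.card (PSL2 K) :=
    Nat.card_congr (MonoidHom.ofInjective (pslMap_injective φ)).symm.toEquiv
  set A := Nat.card (PSL2 K) with hA
  have hqQ : q < q ^ r := by
    calc q = q ^ 1 := (pow_one q).symm
      _ < q ^ r := Nat.pow_lt_pow_right (by omega) hr.one_lt
  have hobst : ¬ (2 * A ∣ Nat.card (PSL2 F)) := by
    rw [hcardK]
    exact two_adic_obstruction hq (by omega) hrodd hcardG
  apply coatom_of_card
  · intro h
    rw [h, Subgroup.card_top] at hcardH
    have h1 := num_lt (by omega) hqQ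
    rw [← hcardK, ← hcardG] at h1
    have h2 : Nat.card (PSL2 F) = A := hcardH
    omega
  · intro L hL
    have hdvd : A ∣ Nat.card L := by
      rw [← hcardH]
      exact Subgroup.card_dvd_of_le hL
    have hLG : Nat.card L ∣ Nat.card (PSL2 F) := Subgroup.card_subgroup_dvd_card L
    have hLG' : Nat.card L ≤ Nat.card (PSL2 F) := Nat.le_of_dvd Nat.card_pos hLG
    have ha : proj (uu (1 : F)) ∈ L := hL (by
      have := proj_uu_mem_range φ 1
      rwa [map_one] at this)
    have hb : proj (vv (1 : F)) ∈ L := hL (by
      have := proj_vv_mem_range φ 1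
      rwa [map_one] at this)
    rw [hcardH]
    have hq5 : q = 3 ∨ q = 5 ∨ 7 ≤ q := by
      obtain ⟨y, hy⟩ := hq
      omega
    rcases overgroup_cases_unip p L ha hb (fun h => absurd (h ▸ hpodd) (by decide)) with
      h | h | h | ⟨K', _, _, m, hm, hiso⟩
    · -- order 12
      left
      rw [h] at hdvd ⊢
      rcases hq5 with rfl | rfl | h7
      · norm_num at hcardK
        omega
      · norm_num at hcardK
        have h2 : A = 60 := by omega
        rw [h2] at hdvd
        omega
      · have h1 : 7 * (7 ^ 2 - 1) ≤ q * (q ^ 2 - 1) := by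
          rcases h7.eq_or_lt with h | h
          · rw [← h]
          · exact (num_lt (by norm_num) h).le
        have := Nat.le_of_dvd (by norm_num) hdvd
        omega
    · -- order 24
      exfalso
      rw [h] at hdvd hLG
      rcases hq5 with rfl | rfl | h7
      · norm_num at hcardK
        apply hobst
        have h2 : 2 * A = 24 := by omega
        rw [h2]
        exact hLG
      · norm_num at hcardK
        have h2 : A = 60 := by omega
        rw [h2] at hdvd
        omega
      · have h1 : 7 * (7 ^ 2 - 1) ≤ q * (q ^ 2 - 1) := by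
          rcases h7.eq_or_lt with h | h
          · rw [← h]
          · exact (num_lt (by norm_num) h).le
        have := Nat.le_of_dvd (by norm_num) hdvd
        omega
    · -- order 60
      rw [h] at hdvd hLG ⊢
      rcases hq5 with rfl | rfl | h7
      · exfalso
        have h5 : 5 ∣ 2 * Nat.card (PSL2 F) := by
          exact ((by norm_num : 5 ∣ 60).trans hLG).trans (Dvd.intro_left _ rfl)
        rw [hcardG] at h5
        rcases (Nat.Prime.dvd_mul (by norm_num)).mp h5 with h6 | h6
        · have := (by norm_num : Nat.Prime 5).dvd_of_dvd_pow h6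
          omega
        · have h7 : ∀ s : ℕ, (3 ^ (2 * s + 1)) ^ 2 % 5 = 4 := by
            intro s
            induction s with
            | zero => norm_num
            | succ s ih =>
              have : (3 ^ (2 * (s + 1) + 1)) ^ 2 = (3 ^ (2 * s + 1)) ^ 2 * 81 := by ring
              rw [this]
              omega
          obtain ⟨s, rfl⟩ := hrodd
          have h8 := h7 s
          have h9 : 1 ≤ (3 ^ (2 * s + 1)) ^ 2 := Nat.one_le_pow _ _ (by positivity)
          omega
      · left
        norm_num at hcardK
        omega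
      · have h1 : 7 * (7 ^ 2 - 1) ≤ q * (q ^ 2 - 1) := by
          rcases h7.eq_or_lt with h | h
          · rw [← h]
          · exact (num_lt (by norm_num) h).le
        have := Nat.le_of_dvd (by norm_num) hdvd
        omega
    · set x := Fintype.card K' with hx
      have hx1 : 1 < x := Fintype.one_lt_card
      have hQ : x ^ m = p ^ (f * r) := by
        rw [hm, hF, hn, pow_mul]
      obtain ⟨e, hxe, he, hem⟩ := exists_exponent hpp hQ hx1 (Nat.mul_pos hf hr.pos)
      have hxodd : Odd x := by
        rw [hxe]
        exact hpodd.pow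
      have hg : Nat.gcd 2 (x - 1) = 2 := Nat.gcd_eq_left (Nat.Odd.sub_odd hxodd odd_one).two_dvd
      have hcL : 2 * Nat.card L = x * (x ^ 2 - 1) ∨ Nat.card L = x * (x ^ 2 - 1) := by
        rcases hiso with ⟨⟨e'⟩⟩ | ⟨⟨e'⟩⟩
        · left
          rw [Nat.card_congr e'.toEquiv]
          have h1 := card_PSL2_form (K := K')
          rwa [hg] at h1
        · right
          rw [Nat.card_congr e'.toEquiv]
          exact card_PGL2_form (K := K')
      have h1 : (q ^ 2 - 1) ∣ 2 * (x ^ 2 - 1) := by
        have h2 : (q ^ 2 - 1) ∣ 2 * Nat.card L := by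
          obtain ⟨c, hc⟩ := hdvd
          rw [hc]
          have : 2 * (A * c) = (2 * A) * c := by ring
          rw [this, hcardK]
          exact ⟨q * c, by ring⟩
        have h3 : (q ^ 2 - 1) ∣ x * (2 * (x ^ 2 - 1)) := by
          rcases hcL with h4 | h4
          · refine h2.trans ?_
            rw [h4]
            exact ⟨2, by ring⟩
          · rw [h4] at h2
            have : x * (2 * (x ^ 2 - 1)) = 2 * (x * (x ^ 2 - 1)) := by ring
            rw [this]
            exact h2
        have h4 : Nat.Coprime (q ^ 2 - 1) x := by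
          rw [hn]
          exact coprime_of_pow hpp hxe he hf
        exact h4.dvd_of_dvd_mul_left h3
      have h5 : p ^ (2 * f) - 1 ∣ 2 * (p ^ (2 * e) - 1) := by
        have h6 : q ^ 2 = p ^ (2 * f) := by
          rw [hn, ← pow_mul, mul_comm]
        have h7 : x ^ 2 = p ^ (2 * e) := by
          rw [hxe, ← pow_mul, mul_comm]
        rwa [h6, h7] at h1
      rcases exponent_cases hpp hf he (by norm_num) le_rfl hr hem h5 with h6 | h6
      · have hxq : x = q := by
          rw [hxe, h6, ← hn]
        rw [hxq] at hcL
        rcases hcL with h7 | h7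
        · left
          omega
        · exfalso
          apply hobst
          rw [hcardK, ← h7]
          exact hLG
      · have hxQ : x = q ^ r := by
          rw [hxe, h6, pow_mul, ← hn]
        rw [hxQ] at hcL
        rcases hcL with h7 | h7
        · right
          change Nat.card L = Nat.card (PSL2 F)
          omega
        · exfalso
          have : 0 < Nat.card (PSL2 F) := Nat.card_pos
          omega

end Cfsg.Agent.S5942
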