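import Mathlib
import Cfsg.Agent.Lib.PSL2Max
import Cfsg.Statements.S5943

set_option autoImplicit false
open Cfsg

namespace Cfsg.Agent.S5943

open Cfsg.Agent.Lib.SL2Core Cfsg.Agent.Lib.PSL2Max Cfsg.Agent.Lib.PSL2Sub Cfsg.Agent.Lib.DicksonTT

/-- Let K and F be finite fields of characteristic 2 with #K = q > 2 and #F = q^r for a prime r. Then PSL_2(F) has a maximal subgroup isomorphic to PSL_2(K) (which equals PGL_2(K) in characteristic 2). -/
theorem result {F K : Type*} [Field F] [Fintype F] [Field K] [Fintype K] (q r : ℕ) (hK : Fintype.card K = q) (hF : Fintype.card F = q ^ r) (hq : Even q) (hq2 : q ≠ 2) (hr : r.Prime) : ∃ H : Subgroup (Matrix.ProjectiveSpecialLinearGroup (Fin 2) F), IsCoatom H ∧ Nonempty (H ≃* Matrix.ProjectiveSpecialLinearGroup (Fin 2) K) := by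
  classical
  have hr0 : r ≠ 0 := hr.ne_zero
  obtain ⟨p, f, hpp, hf, hn, hchK, hchF⟩ := char_setup F K hr0 (by rw [hF, hK])
  haveI : Fact p.Prime := ⟨hpp⟩
  rw [hK] at hn
  have hq0 : 2 ≤ q := by
    rw [← hK]
    exact Fintype.one_lt_card
  have hp2 : p = 2 := by
    have h1 : 2 ∣ p ^ f := by
      rw [← hn]
      exact hq.two_dvd
    exact ((Nat.prime_dvd_prime_iff_eq Nat.prime_two hpp).mp (Nat.prime_two.dvd_of_dvd_pow h1)).symm
  subst hp2
  have hq4 : 4 ≤ q := by
    obtain ⟨y, hy⟩ := hq
    omega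
  obtain ⟨φ⟩ := exists_ringHom (F := F) (K := K) (m := r) hr.one_le (by rw [hF, hK])
  have hcardG : Nat.card (PSL2 F) = q ^ r * ((q ^ r) ^ 2 - 1) := by
    have h1 := card_PSL2_form (K := F)
    rw [hF] at h1
    have h2 : Nat.gcd 2 (q ^ r - 1) = 1 := by
      rw [Nat.coprime_two_left.mpr]
      have : Even (q ^ r) := (Nat.even_pow' hr0).mpr hq
      have hpos : 1 ≤ q ^ r := Nat.one_le_pow _ _ (by omega)
      exact Nat.Even.sub_odd hpos this odd_one
    rw [h2, one_mul] at h1
    exact h1
  have hcardK : Nat.card (PSL2 K) = q * (q ^ 2 - 1) := by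
    have h1 := card_PSL2_form (K := K)
    rw [hK] at h1
    have h2 : Nat.gcd 2 (q - 1) = 1 := by
      rw [Nat.coprime_two_left.mpr]
      exact Nat.Even.sub_odd (by omega) hq odd_one
    rw [h2, one_mul] at h1
    exact h1
  refine ⟨(pslMap φ).range, ?_, ⟨(MonoidHom.ofInjective (pslMap_injective φ)).symm⟩⟩
  have hcardH : Nat.card (pslMap φ).range = q * (q ^ 2 - 1) := by
    rw [← hcardK]
    exact Nat.card_congr (MonoidHom.ofInjective (pslMap_injective φ)).symm.toEquiv
  have hqQ : q < q ^ r := by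
    calc q = q ^ 1 := (pow_one q).symm
      _ < q ^ r := Nat.pow_lt_pow_right (by omega) hr.one_lt
  apply coatom_of_card
  · intro h
    rw [h, Subgroup.card_top, hcardG] at hcardH
    exact (num_lt (by omega) hqQ).ne hcardH.symm
  · intro L hL
    have hdvd : q * (q ^ 2 - 1) ∣ Nat.card L := by
      rw [← hcardH]
      exact Subgroup.card_dvd_of_le hL
    have hL0 : 0 < Nat.card L := Nat.card_pos
    have hle := Nat.le_of_dvd hL0 hdvd
    have h60 : 60 ≤ q * (q ^ 2 - 1) := by
      have h1 : 4 * (4 ^ 2 - 1) ≤ q * (q ^ 2 - 1) := by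
        rcases hq4.eq_or_lt with h | h
        · rw [← h]
        · exact (num_lt (by norm_num) h).le
      simpa using h1
    have h4q : 4 ∣ q := by
      have hf2 : 2 ≤ f := by
        by_contra h
        have : f = 1 := by omega
        rw [this, pow_one] at hn
        omega
      rw [hn]
      exact pow_dvd_pow 2 hf2
    have h4 : 4 ∣ Nat.card L := (h4q.trans (Dvd.intro _ rfl)).trans hdvd
    have ha : proj (uu (1 : F)) ∈ L := hL (by
      have := proj_uu_mem_range φ 1
      rwa [map_one] at this)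
    have hb : proj (vv (1 : F)) ∈ L := hL (by
      have := proj_vv_mem_range φ 1
      rwa [map_one] at this)
    rw [hcardH, hcardG]
    rcases overgroup_cases_unip 2 L ha hb (fun _ => h4) with h | h | h | ⟨K', _, _, m, hm, hiso⟩
    · rw [h] at hle
      omega
    · rw [h] at hle
      omega
    · left
      rw [h] at hle ⊢
      omega
    · set x := Fintype.card K' with hx
      have hx1 : 1 < x := Fintype.one_lt_card
      have hQ : x ^ m = 2 ^ (f * r) := by
        rw [hm, hF, hn, pow_mul]
      obtain ⟨e, hxe, he, hem⟩ := exists_exponent Nat.prime_two hQ hx1 (Nat.mul_pos hf hr.pos)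
      have hg : Nat.gcd 2 (x - 1) = 1 := by
        rw [Nat.coprime_two_left.mpr]
        have : Even x := by
          rw [hxe]
          exact (Nat.even_pow' (by omega)).mpr even_two
        exact Nat.Even.sub_odd (by omega) this odd_one
      have hcL : Nat.card L = x * (x ^ 2 - 1) := by
        rcases hiso with ⟨⟨e'⟩⟩ | ⟨⟨e'⟩⟩
        · rw [Nat.card_congr e'.toEquiv]
          have h1 := card_PSL2_form (K := K')
          rwa [hg, one_mul] at h1
        · rw [Nat.card_congr e'.toEquiv]
          exact card_PGL2_form (K := K')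
      have h1 : (q ^ 2 - 1) ∣ x ^ 2 - 1 := by
        have h2 : (q ^ 2 - 1) ∣ x * (x ^ 2 - 1) := by
          rw [← hcL]
          exact (Dvd.intro_left _ rfl).trans hdvd
        have h3 : Nat.Coprime (q ^ 2 - 1) x := by
          rw [hn]
          exact coprime_of_pow Nat.prime_two hxe he hf
        exact h3.dvd_of_dvd_mul_left h2
      have h5 : 2 ^ (2 * f) - 1 ∣ 1 * (2 ^ (2 * e) - 1) := by
        rw [one_mul]
        have h6 : q ^ 2 = 2 ^ (2 * f) := by
          rw [hn, ← pow_mul, mul_comm]
        have h7 : x ^ 2 = 2 ^ (2 * e) := by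
          rw [hxe, ← pow_mul, mul_comm]
        rwa [h6, h7] at h1
      rcases exponent_cases Nat.prime_two hf he le_rfl (by norm_num) hr hem h5 with h6 | h6
      · left
        rw [hcL, hxe, h6, ← hn]
      · right
        rw [hcL, hxe, h6, pow_mul, ← hn]

end Cfsg.Agent.S5943
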