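import Mathlib
import Cfsg.Statements.S5945
import Cfsg.Agent.Lib.SymS6

set_option autoImplicit false
open Cfsg

namespace Cfsg.Agent.S5945

open Equiv Cfsg.Agent.Lib.SymAut2 Cfsg.Agent.Lib.SymS6

/-- The symmetric group S_6 has exactly 12 subgroups of index 6; each of them is isomorphic to S_5, and at least one of them is not the stabilizer of any point. -/
theorem result : Nat.card {H : Subgroup (Equiv.Perm (Fin 6)) // H.index = 6} = 12 ∧ (∀ H : Subgroup (Equiv.Perm (Fin 6)), H.index = 6 → Nonempty (H ≃* Equiv.Perm (Fin 5))) ∧ ∃ H : Subgroup (Equiv.Perm (Fin 6)), H.index = 6 ∧ ∀ a : Fin 6, H ≠ MulAction.stabilizer (Equiv.Perm (Fin 6)) a := by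
  have h6 : Fintype.card (Fin 6) = 6 := by simp
  refine ⟨card_index_six h6, fun H hH => iso_perm_five h6 H hH, ?_⟩
  obtain ⟨H₂, hidx₂, hno⟩ := exists_H2 h6
  refine ⟨H₂, hidx₂, fun a ha => ?_⟩
  obtain ⟨u, v, hu, hv, huv⟩ := exists_two_other h6 a
  have h2 := swap_mem_stabilizer hu hv
  rw [← ha] at h2
  exact hno _ _ huv h2

end Cfsg.Agent.S5945
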