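import Mathlib
import Cfsg.Statements.S5950
import Cfsg.Agent.Lib.ElusiveCompl

set_option autoImplicit false
open scoped MatrixGroups
open Cfsg

namespace Cfsg.Agent.S5950

/-- Elements of prime order of PSL_n(q) fixing no decomposition `F^n = U ⊕ W` with `dim U = m`. Here `T = PSL_n(F)` for a field `F` with `q = p^f` elements (`n ≥ 2`, `(n, q) ≠ (2, 2), (2, 3)`); an element of `T` of prime order `r` is represented by a matrix `x` of determinant 1 with `x^r` scalar and `x` not scalar; `i` denotes the multiplicative order of `q` modulo `r` (when `r ≠ p`), and `(a)_r` the `r`-part of `a`. Let `n ≥ 3`, `1 ≤ m < n/2`, and let `r` be a prime dividing the number of such decompositions (unordered pairs `{U, W}` of complementary subspaces with `dim U = m`; since `m ≠ n − m` these are the ordered pairs with `dim U = m`). Then every element of `T` of order `r` fixes such a pair (fixes both `U` and `W` for some complementary `U, W` with `dim U = m`) if and only if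 one of: (i) `r = p > 2` and every partition of `n` into parts of size at most `p` contains, as a sub-multiset, a partition of `m`; (ii) `r = p = 2` and `n` is odd or `m` is even; (iii) `r ≠ p`, `i = 1`, and `r ∣ m` or `(q−1)_r ≥ (n)_r` (with `q ≡ 1 (mod 4)` required when `r = 2` and `n` is even); (iv) `r ≠ p`, `2 ≤ i ≤ m` and `n mod i ≥ m mod i`. -/
theorem result {F : Type*} [Field F] [Fintype F] {p : ℕ} [Fact p.Prime] [CharP F p] {q : ℕ} (hq : Fintype.card F = q)
    (n m : ℕ) (hn : 3 ≤ n) (hm : 1 ≤ m) (hmn : 2 * m < n)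
    (r : ℕ) [Fact r.Prime]
    (hrΩ : r ∣ Nat.card {P : Submodule F (Fin n → F) × Submodule F (Fin n → F) // IsCompl P.1 P.2 ∧ Module.finrank F ↥P.1 = m}) :
    (∀ x : Matrix.SpecialLinearGroup (Fin n) F,
      (∃ c : F, ((x ^ r : Matrix.SpecialLinearGroup (Fin n) F) : Matrix (Fin n) (Fin n) F) = c • (1 : Matrix (Fin n) (Fin n) F)) →
      (∀ c : F, (x : Matrix (Fin n) (Fin n) F) ≠ c • (1 : Matrix (Fin n) (Fin n) F)) →
      ∃ U W : Submodule F (Fin n → F), IsCompl U W ∧ Module.finrank F ↥U = m ∧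
        U.map (Matrix.toLin' (x : Matrix (Fin n) (Fin n) F)) ≤ U ∧ W.map (Matrix.toLin' (x : Matrix (Fin n) (Fin n) F)) ≤ W) ↔
    ((r = p ∧ 2 < p ∧ (∀ μ : Multiset ℕ, (∀ a ∈ μ, 0 < a ∧ a ≤ p) → μ.sum = n → ∃ ν : Multiset ℕ, ν ≤ μ ∧ ν.sum = m)) ∨
     (r = p ∧ p = 2 ∧ (Odd n ∨ Even m)) ∨
     (r ≠ p ∧
      ((orderOf (q : ZMod r) = 1 ∧ (r ∣ m ∨ (padicValNat r n ≤ padicValNat r (q - 1) ∧ (r = 2 → Even n → q % 4 = 1)))) ∨
       (2 ≤ orderOf (q : ZMod r) ∧ orderOf (q : ZMod r) ≤ m ∧ m % orderOf (q : ZMod r) ≤ n % orderOf (q : ZMod r))))) := by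
  classical
  subst hq
  have hfr : Module.finrank F (Fin n → F) = n := by simp
  by_cases hrp : r = p
  · subst hrp
    have key : (∀ x : Matrix.SpecialLinearGroup (Fin n) F,
      (∃ c : F, ((x ^ r : Matrix.SpecialLinearGroup (Fin n) F) : Matrix (Fin n) (Fin n) F) = c • (1 : Matrix (Fin n) (Fin n) F)) →
      (∀ c : F, (x : Matrix (Fin n) (Fin n) F) ≠ c • (1 : Matrix (Fin n) (Fin n) F)) →
      ∃ U W : Submodule F (Fin n → F), IsCompl U W ∧ Module.finrank F ↥U = m ∧
        U.map (Matrix.toLin' (x : Matrix (Fin n) (Fin n) F)) ≤ U ∧ W.map (Matrix.toLin' (x : Matrix (Fin n) (Fin n) F)) ≤ W) ↔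
      (∀ μ : Multiset ℕ, (∀ a ∈ μ, 0 < a ∧ a ≤ r) → μ.sum = n → ∃ ν : Multiset ℕ, ν ≤ μ ∧ ν.sum = m) :=
      ⟨fun h μ hμ hsum => Cfsg.Agent.Lib.ElusiveCompl.forward_p (by omega) (by omega) h μ hμ hsum,
        fun h x hc _ => by
          obtain ⟨c, hx⟩ := hc
          exact Cfsg.Agent.Lib.ElusiveCompl.backward_p (by omega) h x hx⟩
    rw [key]
    by_cases h2 : r = 2
    · subst h2
      rw [Cfsg.Agent.Lib.ElusiveCompl.two_iff (by omega)]
      constructor
      · intro h
        exact Or.inr (Or.inl ⟨rfl, rfl, h⟩)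
      · rintro (⟨-, h, -⟩ | ⟨-, -, h⟩ | ⟨h, -⟩)
        · omega
        · exact h
        · exact absurd rfl h
    · have h3 : 2 < r := by
        have := (Fact.out : r.Prime).two_le
        omega
      constructor
      · intro h
        exact Or.inl ⟨rfl, h3, h⟩
      · rintro (⟨-, -, h⟩ | ⟨-, h, -⟩ | ⟨h, -⟩)
        · exact h
        · exact absurd h h2
        · exact absurd rfl h
  · obtain hj := Cfsg.Agent.Lib.ElusiveCompl.prime_dvd_card_compl (p := p) hfr (by omega) hm Fact.out hrp hrΩ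
    constructor
    · intro h
      refine Or.inr (Or.inr ⟨hrp, Cfsg.Agent.Lib.ElusiveMain.single_forward (p := p) (by omega) hrp hm (by omega) hj ?_⟩)
      intro x h1 h2
      obtain ⟨U, W, -, hU, h3, -⟩ := h x h1 h2
      exact ⟨U, hU, h3⟩
    · rintro (⟨h, -⟩ | ⟨h, -⟩ | ⟨-, hc⟩)
      · exact absurd h hrp
      · exact absurd h hrp
      · rintro x ⟨c, hx⟩ -
        obtain ⟨U, hU, hU2⟩ := Cfsg.Agent.Lib.ElusiveMain.single_backward (p := p) (by omega) (by omega) hrp hc x hx
        obtain ⟨W, hW, hW2⟩ := Cfsg.Agent.Lib.ElusiveCompl.exists_inv_compl (p := p) (by omega) hrp Fact.out hx hU2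
        exact ⟨U, W, hW, hU, hU2, hW2⟩

end Cfsg.Agent.S5950
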