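import Mathlib
import Cfsg.Statements.S5952

set_option autoImplicit false
open Cfsg

namespace Cfsg.Agent.S5952

/-- Subspaces of every smaller dimension exist. -/
theorem exists_le_finrank_eq {F V : Type*} [Field F] [AddCommGroup V] [Module F V]
    [FiniteDimensional F V] (C : Submodule F V) (c : ℕ) (hc : c ≤ Module.finrank F C) :
    ∃ W : Submodule F V, W ≤ C ∧ Module.finrank F W = c := by
  let b := Module.finBasis F C
  let v : Fin c → V := fun i => (b (Fin.castLE hc i) : C)
  have hv : LinearIndependent F v := by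
    have h1 : LinearIndependent F (fun i : Fin c => b (Fin.castLE hc i)) :=
      b.linearIndependent.comp _ (Fin.castLE_injective hc)
    exact h1.map' C.subtype C.ker_subtype
  refine ⟨Submodule.span F (Set.range v), ?_, ?_⟩
  · rw [Submodule.span_le]
    rintro _ ⟨i, rfl⟩
    exact (b (Fin.castLE hc i)).2
  · rw [finrank_span_eq_card hv]
    simp

section
variable {F V : Type*} [Field F] [AddCommGroup V] [Module F V] [FiniteDimensional F V]

/-- One step of the filtration argument. -/
theorem finrank_step (W A B : Submodule F V) (f : V →ₗ[F] V) (a : ℕ)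
    (hAB : A ⊓ B = ⊥) (hAinv : A.map f ≤ A) (hWinv : W.map f ≤ W) (hBinv : B.map f ≤ B)
    (hBdim : Module.finrank F B = a)
    (hBirr : ∀ X : Submodule F V, X ≤ B → X.map f ≤ X → X = ⊥ ∨ X = B) :
    Module.finrank F ↥(W ⊓ (A ⊔ B)) = Module.finrank F ↥(W ⊓ A) ∨
    Module.finrank F ↥(W ⊓ (A ⊔ B)) = Module.finrank F ↥(W ⊓ A) + a := by
  set W' := W ⊓ (A ⊔ B) with hW'
  set X := (W' ⊔ A) ⊓ B with hX
  have hW'inv : W'.map f ≤ W' := by
    refine (Submodule.map_inf_le f).trans (inf_le_inf hWinv ?_)
    rw [Submodule.map_sup]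
    exact sup_le_sup hAinv hBinv
  have hXinv : X.map f ≤ X := by
    refine (Submodule.map_inf_le f).trans (inf_le_inf ?_ hBinv)
    rw [Submodule.map_sup]
    exact sup_le_sup hW'inv hAinv
  have hmod : W' ⊔ A = X ⊔ A := by
    have h1 : W' ⊔ A ≤ A ⊔ B := sup_le inf_le_right le_sup_left
    have h2 : A ≤ W' ⊔ A := le_sup_right
    have h3 := sup_inf_assoc_of_le B h2
    rw [inf_eq_right.2 h1] at h3
    rw [h3, sup_comm, inf_comm]
  have hinf1 : W' ⊓ A = W ⊓ A := by
    rw [hW', inf_assoc, inf_eq_right.2 (le_sup_left : A ≤ A ⊔ B)]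
  have hinf2 : X ⊓ A = ⊥ := by
    rw [eq_bot_iff, ← hAB, inf_comm]
    exact inf_le_inf_left A inf_le_right
  have e1 := Submodule.finrank_sup_add_finrank_inf_eq W' A
  have e2 := Submodule.finrank_sup_add_finrank_inf_eq X A
  rw [hinf1] at e1
  rw [hinf2, finrank_bot, ← hmod] at e2
  have e3 : Module.finrank F W' = Module.finrank F ↥(W ⊓ A) + Module.finrank F X := by omega
  rcases hBirr X inf_le_right hXinv with h | h
  · left
    rw [e3, h, finrank_bot]; rfl
  · right
    rw [e3, h, hBdim]

/-- Congruence of dimensions of invariant subspaces along the filtration. -/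
theorem finrank_filtration {s a : ℕ} (f : V →ₗ[F] V) (C : Submodule F V) (U : Fin s → Submodule F V)
    (hCinv : C.map f ≤ C)
    (hUinv : ∀ j, (U j).map f ≤ U j) (hUdim : ∀ j, Module.finrank F ↥(U j) = a)
    (hUirr : ∀ j, ∀ W : Submodule F V, W ≤ U j → W.map f ≤ W → W = ⊥ ∨ W = U j)
    (hind : ∀ (T : Finset (Fin s)) (i : Fin s), i ∉ T → (C ⊔ ⨆ j ∈ T, U j) ⊓ U i = ⊥)
    (W : Submodule F V) (hW : W.map f ≤ W) (T : Finset (Fin s)) :
    ∃ t : ℕ, Module.finrank F ↥(W ⊓ (C ⊔ ⨆ j ∈ T, U j)) = Module.finrank F ↥(W ⊓ C) + a * t := by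
  induction T using Finset.induction_on with
  | empty =>
    have hemp : (⨆ j ∈ (∅ : Finset (Fin s)), U j) = ⊥ :=
      le_bot_iff.1 (iSup₂_le (fun j hj => absurd hj (Finset.notMem_empty j)))
    exact ⟨0, by rw [hemp, sup_bot_eq, mul_zero, add_zero]⟩
  | insert i T hi ih =>
    obtain ⟨t, ht⟩ := ih
    have hAinv : (C ⊔ ⨆ j ∈ T, U j).map f ≤ (C ⊔ ⨆ j ∈ T, U j) := by
      rw [Submodule.map_sup]
      refine sup_le_sup hCinv ?_
      rw [Submodule.map_iSup]
      refine iSup_mono fun j => ?_
      rw [Submodule.map_iSup]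
      exact iSup_mono fun hj => hUinv j
    have h1 := finrank_step W (C ⊔ ⨆ j ∈ T, U j) (U i) f a (hind T i hi) hAinv hW (hUinv i)
      (hUdim i) (hUirr i)
    have heq : C ⊔ ⨆ j ∈ insert i T, U j = (C ⊔ ⨆ j ∈ T, U j) ⊔ U i := by
      rw [Finset.iSup_insert, sup_assoc, sup_comm (U i)]
    rw [heq]
    rcases h1 with h | h
    · exact ⟨t, by rw [h, ht]⟩
    · exact ⟨t + 1, by rw [h, ht, Nat.mul_succ, add_assoc]⟩

/-- Dimension of a partial sum of the decomposition. -/
theorem finrank_partial {s a : ℕ} (C0 : Submodule F V) (U : Fin s → Submodule F V)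
    (hUdim : ∀ j, Module.finrank F ↥(U j) = a)
    (hind : ∀ (T : Finset (Fin s)) (i : Fin s), i ∉ T → (C0 ⊔ ⨆ j ∈ T, U j) ⊓ U i = ⊥)
    (T : Finset (Fin s)) :
    Module.finrank F ↥(C0 ⊔ ⨆ j ∈ T, U j) = Module.finrank F C0 + a * T.card := by
  induction T using Finset.induction_on with
  | empty =>
    have hemp : (⨆ j ∈ (∅ : Finset (Fin s)), U j) = ⊥ :=
      le_bot_iff.1 (iSup₂_le (fun j hj => absurd hj (Finset.notMem_empty j)))
    rw [hemp, sup_bot_eq, Finset.card_empty, mul_zero, add_zero]
  | insert i T hi ih =>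
    have heq : C0 ⊔ ⨆ j ∈ insert i T, U j = (C0 ⊔ ⨆ j ∈ T, U j) ⊔ U i := by
      rw [Finset.iSup_insert, sup_assoc, sup_comm (U i)]
    have e := Submodule.finrank_sup_add_finrank_inf_eq (C0 ⊔ ⨆ j ∈ T, U j) (U i)
    rw [hind T i hi, finrank_bot, hUdim, ih] at e
    rw [heq, Finset.card_insert_of_notMem hi, Nat.mul_succ]
    omega

end

/-- Which dimensions of invariant subspaces a semisimple linear map has. Let `V` be a finite-dimensional vector space over a field `F` and `f` an invertible semisimple linear map of `V`. Suppose `V` is the internal direct sum of the fixed space `C_V(f)` (the eigenspace for 1) and subspaces `U_1, …, U_s`, each `f`-invariant of dimension `a ≥ 1` on which `f` acts irreducibly (no `f`-invariant subspaces other than 0 and `U_j`). Let `0 < m < dim V` and `ℓ = m mod a`. Then `f` leaves some `m`-dimensional subspace invariant if and only if `dim C_V(f) ≥ m`, or `a ≤ m` and `dim C_V(f) ≥ ℓ`. -/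
theorem result {F V : Type*} [Field F] [AddCommGroup V] [Module F V]
    [FiniteDimensional F V] (f : V →ₗ[F] V) (hf : Function.Bijective f) (hss : Module.End.IsSemisimple f)
    {s a : ℕ} (ha : 1 ≤ a) (U : Fin s → Submodule F V)
    (hUinv : ∀ j, (U j).map f ≤ U j) (hUdim : ∀ j, Module.finrank F ↥(U j) = a)
    (hUirr : ∀ j, ∀ W : Submodule F V, W ≤ U j → W.map f ≤ W → W = ⊥ ∨ W = U j)
    (hdec : DirectSum.IsInternal (fun o : Option (Fin s) => o.elim (Module.End.eigenspace f 1) U))
    (m : ℕ) (hm : 0 < m) (hmV : m < Module.finrank F V) :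
    (∃ W : Submodule F V, Module.finrank F ↥W = m ∧ W.map f ≤ W) ↔
    (m ≤ Module.finrank F ↥(Module.End.eigenspace f 1) ∨
      (a ≤ m ∧ m % a ≤ Module.finrank F ↥(Module.End.eigenspace f 1))) := by
  classical
  set C := Module.End.eigenspace f 1 with hC
  let A : Option (Fin s) → Submodule F V := fun o => o.elim C U
  have hAind : iSupIndep A := hdec.submodule_iSupIndep
  have hAtop : iSup A = ⊤ := hdec.submodule_iSup_eq_top
  have hfC : ∀ x ∈ C, f x = x := by
    intro x hx
    have := Module.End.mem_eigenspace_iff.1 hx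
    simpa using this
  have hCinv : C.map f ≤ C := by
    rintro _ ⟨x, hx, rfl⟩
    rw [hfC x hx]
    exact hx
  -- independence in the form we use
  have hind : ∀ (C0 : Submodule F V), C0 ≤ C → ∀ (T : Finset (Fin s)) (i : Fin s), i ∉ T →
      (C0 ⊔ ⨆ j ∈ T, U j) ⊓ U i = ⊥ := by
    intro C0 hC0 T i hi
    have h1 := hAind.disjoint_biSup (x := some i) (y := {o | o = none ∨ ∃ j ∈ T, o = some j}) (by
      rintro (h | ⟨j, hj, h⟩)
      · simp at h
      · simp only [Option.some.injEq] at h
        exact hi (h ▸ hj))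
    rw [disjoint_iff, inf_comm] at h1
    rw [eq_bot_iff, ← h1]
    refine inf_le_inf_right _ ?_
    refine sup_le ?_ ?_
    · refine hC0.trans ?_
      exact le_iSup₂_of_le none (Or.inl rfl) le_rfl
    · refine iSup₂_le fun j hj => ?_
      exact le_iSup₂_of_le (some j) (Or.inr ⟨j, hj, rfl⟩) le_rfl
  have hdim : Module.finrank F V = Module.finrank F C + a * s := by
    have h1 := finrank_partial C U hUdim (hind C le_rfl) Finset.univ
    have h2 : C ⊔ ⨆ j ∈ (Finset.univ : Finset (Fin s)), U j = ⊤ := by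
      rw [eq_top_iff, ← hAtop]
      refine iSup_le fun o => ?_
      cases o with
      | none => exact le_sup_left
      | some j => exact le_sup_of_le_right (le_iSup₂_of_le j (Finset.mem_univ j) le_rfl)
    rw [h2, finrank_top, Finset.card_univ, Fintype.card_fin] at h1
    exact h1
  constructor
  · rintro ⟨W, hWdim, hW⟩
    obtain ⟨t, ht⟩ := finrank_filtration f C U hCinv hUinv hUdim hUirr (hind C le_rfl) W hW Finset.univ
    have h2 : C ⊔ ⨆ j ∈ (Finset.univ : Finset (Fin s)), U j = ⊤ := by
      rw [eq_top_iff, ← hAtop]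
      refine iSup_le fun o => ?_
      cases o with
      | none => exact le_sup_left
      | some j => exact le_sup_of_le_right (le_iSup₂_of_le j (Finset.mem_univ j) le_rfl)
    rw [h2, inf_top_eq, hWdim] at ht
    have hle : Module.finrank F ↥(W ⊓ C) ≤ Module.finrank F C :=
      Submodule.finrank_mono inf_le_right
    by_cases ht0 : t = 0
    · left
      subst ht0
      simp at ht
      omega
    · right
      have : 1 ≤ t := Nat.one_le_iff_ne_zero.2 ht0
      constructor
      · rw [ht]
        nlinarith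
      · rw [ht, Nat.add_mul_mod_self_left]
        exact (Nat.mod_le _ _).trans hle
  · intro h
    -- choose the number of blocks used and the piece in `C`
    have hex : ∃ t c : ℕ, t ≤ s ∧ c ≤ Module.finrank F C ∧ m = c + a * t := by
      rcases h with h | ⟨h1, h2⟩
      · exact ⟨0, m, Nat.zero_le _, h, by simp⟩
      · have hmd := Nat.mod_add_div m a
        by_cases hts : m / a ≤ s
        · exact ⟨m / a, m % a, hts, h2, hmd.symm⟩
        · push Not at hts
          refine ⟨s, m - a * s, le_rfl, ?_, ?_⟩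
          · omega
          · have : a * s ≤ m := by
              have : a * s ≤ a * (m / a) := Nat.mul_le_mul_left _ hts.le
              omega
            omega
    obtain ⟨t, c, hts, hc, hmeq⟩ := hex
    obtain ⟨C0, hC0, hC0dim⟩ := exists_le_finrank_eq C c hc
    have hcard : t ≤ (Finset.univ : Finset (Fin s)).card := by simpa using hts
    obtain ⟨T, -, hT⟩ := Finset.exists_subset_card_eq hcard
    refine ⟨C0 ⊔ ⨆ j ∈ T, U j, ?_, ?_⟩
    · rw [finrank_partial C0 U hUdim (hind C0 hC0) T, hC0dim, hT, hmeq]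
    · rw [Submodule.map_sup]
      refine sup_le_sup ?_ ?_
      · rintro _ ⟨x, hx, rfl⟩
        rw [hfC x (hC0 hx)]
        exact hx
      · rw [Submodule.map_iSup]
        refine iSup_mono fun j => ?_
        rw [Submodule.map_iSup]
        exact iSup_mono fun hj => hUinv j

end Cfsg.Agent.S5952
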