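import Cfsg.Statements.S5953
import Cfsg.Agent.Lib.TIUMain

set_option autoImplicit false
open scoped MatrixGroups
open Cfsg

namespace Cfsg.Agent.S5953

/-- Elements of prime order of PSU_n(q) with no fixed totally isotropic `m`-space. Here `T = PSU_n(q)` (`n ≥ 3`, `(n, q) ≠ (3, 2)`), realised through the matrices of determinant 1 over the field `F` with `q²` elements preserving the Hermitian form `h(u, v) = Σ u_i v_i^q`; an element of `T` of prime order `r` is such a matrix `x` with `x^r` scalar and `x` not scalar. For `r ≠ p` let `i` be the multiplicative order of `q` modulo `r`, `b = i/2` for `i` even and `b = i` for `i` odd, `c = i, i/2, 2i` according as `i ≡ 0, 2 (mod 4)` or `i` odd, and write `k = n mod c`, `ℓ = m mod b`, `ℓ' = m mod c`, `n' = ⌊n/b⌋`, `m' = ⌊m/b⌋`, `s = (r−1)/b`; `(a)_r` is the `r`-part of `a`. Let `1 ≤ m ≤ n/2` and let `r` be a prime dividing the number of totally isotropic `m`-spaces. Then every element of `T` of order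 `r` fixes a totally isotropic `m`-space if and only if either (i) `r = 2`, `p ≠ 2`, and (`m < n/2` or `(q+1)_2 ≤ (n)_2`); or (ii) `r ≠ p`, `r > 2`, `b ≤ m`, `k ≥ 2ℓ`, and either `i ≢ 2 (mod 4)`, or `i ≡ 2 (mod 4)`, `n' − 2m' ≥ s` and (`i > 2`, or `i = 2` and (`r ∣ m` or `(q+1)_r ≥ (n)_r`)). -/
theorem result {F : Type*} [Field F] [Fintype F] {p : ℕ} [Fact p.Prime] [CharP F p] {q : ℕ} (hq : Fintype.card F = q ^ 2)
    (n m : ℕ) (hn : 3 ≤ n) (hT : (n, q) ≠ (3, 2)) (hm : 1 ≤ m) (hmn : 2 * m ≤ n)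
    (r : ℕ) [Fact r.Prime]
    (hrΩ : r ∣ Nat.card {W : Submodule F (Fin n → F) // Module.finrank F ↥W = m ∧ (∀ u ∈ W, ∀ v ∈ W, Cfsg.hermForm n F q u v = 0)})
    (i b c : ℕ) (hi : i = orderOf (q : ZMod r)) (hb : b = if Even i then i / 2 else i)
    (hc : c = if i % 4 = 0 then i else if i % 4 = 2 then i / 2 else 2 * i) :
    (∀ x : Matrix.SpecialLinearGroup (Fin n) F, x ∈ Cfsg.SU n F q →
      (∃ z : F, ((x ^ r : Matrix.SpecialLinearGroup (Fin n) F) : Matrix (Fin n) (Fin n) F) = z • (1 : Matrix (Fin n) (Fin n) F)) →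
      (∀ z : F, (x : Matrix (Fin n) (Fin n) F) ≠ z • (1 : Matrix (Fin n) (Fin n) F)) →
      ∃ W : Submodule F (Fin n → F), Module.finrank F ↥W = m ∧ (∀ u ∈ W, ∀ v ∈ W, Cfsg.hermForm n F q u v = 0) ∧
        W.map (Matrix.toLin' (x : Matrix (Fin n) (Fin n) F)) ≤ W) ↔
    ((r = 2 ∧ p ≠ 2 ∧ (2 * m < n ∨ padicValNat 2 (q + 1) ≤ padicValNat 2 n)) ∨
     (r ≠ p ∧ 2 < r ∧ b ≤ m ∧ 2 * (m % b) ≤ n % c ∧
       (i % 4 ≠ 2 ∨ (i % 4 = 2 ∧ (r - 1) / b + 2 * (m / b) ≤ n / b ∧
         (2 < i ∨ (i = 2 ∧ (r ∣ m ∨ padicValNat r n ≤ padicValNat r (q + 1)))))))) := by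
  classical
  have hprime : r.Prime := Fact.out
  have hpp : p.Prime := Fact.out
  have hq2 := Cfsg.Agent.Lib.HermCount.two_le_q hq
  -- the characteristic divides `q`
  have hpq : p ∣ q := by
    obtain ⟨f, -, hf⟩ := FiniteField.card F p
    have h2 : p ∣ q ^ 2 := by
      rw [← hq, hf]
      exact dvd_pow_self _ (PNat.ne_zero f)
    exact hpp.dvd_of_dvd_pow h2
  obtain ⟨k, hk1, hk2, hk3, hk4⟩ := Cfsg.Agent.Lib.TIU.exists_k_of_dvd hq hmn hrΩ
  have hrp : r ≠ p := Cfsg.Agent.Lib.TIU.ne_char_of_k hpp hpq hk3 hk4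
  have hrF : (r : F) ≠ 0 := by
    rw [Ne, CharP.cast_eq_zero_iff F p]
    intro hd
    exact hrp ((Nat.prime_dvd_prime_iff_eq hpp hprime).1 hd).symm
  rw [Cfsg.Agent.Lib.TIU.lhs_iff_LHSP p hq hrF hmn]
  by_cases hr2 : r = 2
  · rw [Cfsg.Agent.Lib.TIU.main_two p hq hr2 hrF hrp hm hmn]
    constructor
    · intro h
      exact Or.inl ⟨hr2, fun hp => hrp (hr2.trans hp.symm), h⟩
    · rintro (⟨-, -, h⟩ | ⟨-, h, -⟩)
      · exact h
      · omega
  -- the odd case
  have hr2' : 2 < r := by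
    have := hprime.two_le
    omega
  have hx0 : (q : ZMod r) ≠ 0 := by
    rw [Ne, ZMod.natCast_eq_zero_iff]
    intro hd
    obtain ⟨f, -, hf⟩ := FiniteField.card F p
    have h2 : r ∣ p ^ (f : ℕ) := by
      rw [← hf, hq]
      exact dvd_pow hd two_ne_zero
    exact hrp ((Nat.prime_dvd_prime_iff_eq hprime hpp).1 (hprime.dvd_of_dvd_pow h2))
  have hi0 : orderOf (q : ZMod r) ≠ 0 := by
    have h1 : (q : ZMod r) ^ (r - 1) = 1 := ZMod.pow_card_sub_one_eq_one hx0
    have h2 := orderOf_dvd_of_pow_eq_one h1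
    intro h3
    rw [h3] at h2
    have := Nat.eq_zero_of_zero_dvd h2
    omega
  have hi0' : i ≠ 0 := hi ▸ hi0
  have hQ : ((Fintype.card F : ℕ) : ZMod r) = (q : ZMod r) ^ 2 := by
    rw [hq]
    push_cast
    rfl
  have hordQ : orderOf ((Fintype.card F : ℕ) : ZMod r) = b := by
    rw [hQ, orderOf_pow' _ two_ne_zero, ← hi, hb]
    split_ifs with ho
    · have h1 : i.gcd 2 = 2 := Nat.gcd_eq_right ho.two_dvd
      rw [h1]
    · rw [Nat.not_even_iff_odd] at ho
      have h1 : i.gcd 2 = 1 := Nat.coprime_two_right.2 ho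
      rw [h1, Nat.div_one]
  have hcard := Cfsg.Agent.Lib.PrimeFactors.card_Idx (F := F) (r := r) hrF
  rw [hordQ] at hcard
  have hbpos : 0 < b := by
    rcases Nat.eq_zero_or_pos b with h | h
    · rw [h, mul_zero] at hcard
      omega
    · exact h
  have hs : (r - 1) / b = Fintype.card ↥(Cfsg.Agent.Lib.PrimeFactors.Idx F r) := by
    rw [← hcard]
    exact Nat.mul_div_cancel _ hbpos
  have hfixiff : ∀ j, Cfsg.Agent.Lib.TIU.dlU hq hrF hprime.ne_zero j = j ↔ i % 4 = 2 := by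
    intro j
    rw [hi]
    exact Cfsg.Agent.Lib.TIU.dlU_fix_iff (p := p) hq hrF hprime.ne_zero hr2 hi0 j
  have hcb : i % 4 = 2 → c = b := by
    intro h4
    have he : Even i := by
      rw [Nat.even_iff]
      omega
    rw [hc, hb, if_neg (by omega), if_pos h4, if_pos he]
  have hcb2 : i % 4 ≠ 2 → c = 2 * b := by
    intro h4
    rw [hc, hb]
    by_cases h0 : i % 4 = 0
    · have he : Even i := by
        rw [Nat.even_iff]
        omega
      rw [if_pos h0, if_pos he]
      omega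
    · have he : ¬ Even i := by
        rw [Nat.even_iff]
        omega
      rw [if_neg h0, if_neg h4, if_neg he]
  have hnc : n % c < 2 * m :=
    Cfsg.Agent.Lib.TIU.mod_lt_of_dvd (Cfsg.Agent.Lib.TIU.c_dvd_of_k hr2 hi hc hk4) hk1 hk2 hk3 hmn
  have hbm : 2 * (m % b) ≤ n % c → b ≤ m := by
    intro h
    by_contra hcon
    push Not at hcon
    rw [Nat.mod_eq_of_lt hcon] at h
    omega
  have hdq1 : r ∣ q + 1 → i = 2 := by
    intro h
    rw [hi]
    exact Cfsg.Agent.Lib.TIU.order_two_of_dvd hr2 h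
  have hdq2 : i = 2 → r ∣ q + 1 := by
    intro h
    exact Cfsg.Agent.Lib.TIU.dvd_q_add_one_of_order_two hr2 (hi ▸ h)
  have hb1 : i = 2 → b = 1 := by
    intro h
    rw [hb, h]
    norm_num
  have hc1 : i = 2 → c = 1 := by
    intro h
    rw [hc, h]
    norm_num
  constructor
  · -- necessity
    intro h
    right
    refine ⟨hrp, hr2', ?_⟩
    by_cases h4 : i % 4 = 2
    · have hcb' := hcb h4
      by_cases hi2 : i = 2
      · have hb' := hb1 hi2
        have hc' := hc1 hi2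
        have hrq := hdq2 hi2
        refine ⟨by omega, ?_, Or.inr ⟨h4, ?_, Or.inr ⟨hi2, ?_⟩⟩⟩
        · rw [hb', hc', Nat.mod_one, Nat.mod_one]
        · rw [hb', Nat.div_one, Nat.div_one, Nat.div_one]
          have := Cfsg.Agent.Lib.TIU.i2_numeric p hq h hrF hr2 hrq hm hmn
          omega
        · by_contra hcon
          push Not at hcon
          exact hcon.1 (Cfsg.Agent.Lib.TIU.nonpower_numeric p hq h hr2 hrq hcon.2 rfl)
      · have hrq : ¬ r ∣ q + 1 := fun hd => hi2 (hdq1 hd)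
        have hfix : ∀ j, Cfsg.Agent.Lib.TIU.dlU hq hrF hprime.ne_zero j = j := fun j => (hfixiff j).2 h4
        have h1 := Cfsg.Agent.Lib.TIU.sd_numeric p hq h hrF hrq hfix
        rw [hordQ] at h1
        have h1' : 2 * (m % b) ≤ n % c := by
          rw [hcb']
          exact h1
        have hbm' := hbm h1'
        have h2 := Cfsg.Agent.Lib.TIU.sd_numeric2 p hq h hrF hrq hfix hmn (by rw [hordQ]; exact hbm')
        rw [hordQ] at h2
        refine ⟨hbm', h1', Or.inr ⟨h4, ?_, Or.inl (by omega)⟩⟩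
        rw [hs]
        exact h2
    · have hrq : ¬ r ∣ q + 1 := fun hd => h4 (by rw [hdq1 hd])
      have hfp : ∀ j, Cfsg.Agent.Lib.TIU.dlU hq hrF hprime.ne_zero j ≠ j := fun j hj => h4 ((hfixiff j).1 hj)
      have h1 := Cfsg.Agent.Lib.TIU.pair_numeric p hq h hrF hrq hfp
      rw [hordQ, ← hcb2 h4] at h1
      exact ⟨hbm h1, h1, Or.inl h4⟩
  · -- sufficiency
    rintro (⟨h, -⟩ | ⟨-, -, hbm', hmod, hrest⟩)
    · exact absurd h hr2
    rintro M hdet hM ⟨z, hz⟩
    have hzq := Cfsg.Agent.Lib.TIU.scalar_norm hq (by omega) hM hz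
    rcases Cfsg.Agent.Lib.TIU.dichotomy_z hq hr2 hzq with ⟨w, hw, hwz⟩ | ⟨hrq, hnp⟩
    · refine Cfsg.Agent.Lib.TIU.suff_M p hq hrF hrp hmn ?_ ?_ hM hz hw hwz
      · by_cases h4 : i % 4 = 2
        · exact Or.inl fun j => (hfixiff j).2 h4
        · exact Or.inr fun j hj => h4 ((hfixiff j).1 hj)
      · intro a hsum hinv _
        rw [hordQ] at hsum ⊢
        by_cases h4 : i % 4 = 2
        · obtain hrest' : (r - 1) / b + 2 * (m / b) ≤ n / b := by
            rcases hrest with h | ⟨-, h, -⟩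
            · exact absurd h4 h
            · exact h
          rw [hs] at hrest'
          rw [hcb h4] at hmod
          refine Cfsg.Agent.Lib.TIU.sd_hyp_arith hbpos hrest' hmod ?_ hsum
          exact (Finset.card_le_univ _)
        · have hmod' := hmod
          rw [hcb2 h4] at hmod'
          have hfp : ∀ j, Cfsg.Agent.Lib.TIU.dlU hq hrF hprime.ne_zero j ≠ j := fun j hj => h4 ((hfixiff j).1 hj)
          have hEven := Cfsg.Agent.Lib.TIU.even_sum_of_fpf _ (Cfsg.Agent.Lib.TIU.dlU_dlU hq hrF hprime.ne_zero) hfp a hinv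
          refine ⟨Cfsg.Agent.Lib.TIU.pair_hyp_arith hmod' hsum hEven, ?_⟩
          have h0 : (Finset.univ.filter fun j => Cfsg.Agent.Lib.TIU.dlU hq hrF hprime.ne_zero j = j ∧ Odd (a j)) = ∅ := by
            rw [Finset.filter_eq_empty_iff]
            intro j _ hj
            exact hfp j hj.1
          rw [h0]
          simpa using hmn
    · have hi2 := hdq1 hrq
      have h4 : i % 4 = 2 := by
        rw [hi2]
      have hm' : r ∣ m ∨ padicValNat r n ≤ padicValNat r (q + 1) := by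
        rcases hrest with h | ⟨-, -, h | ⟨-, h⟩⟩
        · exact absurd h4 h
        · omega
        · exact h
      exact Cfsg.Agent.Lib.TIU.suff_nonpower p hq hrp hr2 hrq hmn (by omega) hdet hM hz hnp hm'

end Cfsg.Agent.S5953
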