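import Cfsg.Statements.S5954
import Cfsg.Agent.Lib.HSSemi2
import Cfsg.Agent.Lib.HSUni
-- import your own Cfsg.Agent.* helpers here

set_option autoImplicit false
open scoped MatrixGroups
open Cfsg

namespace Cfsg.Agent.S5954

/-- Elements of prime order of PSU_n(q) with no fixed nondegenerate `m`-space. Here `T = PSU_n(q)` (`n ≥ 3`, `(n, q) ≠ (3, 2)`), realised through the matrices of determinant 1 over the field `F` with `q²` elements preserving the Hermitian form `h(u, v) = Σ u_i v_i^q`; an element of `T` of prime order `r` is such a matrix `x` with `x^r` scalar and `x` not scalar. For `r ≠ p` let `i` be the multiplicative order of `q` modulo `r`, `b = i/2` for `i` even and `b = i` for `i` odd, `c = i, i/2, 2i` according as `i ≡ 0, 2 (mod 4)` or `i` odd, and write `k = n mod c`, `ℓ = m mod b`, `ℓ' = m mod c`, `n' = ⌊n/b⌋`, `m' = ⌊m/b⌋`, `s = (r−1)/b`; `(a)_r` is the `r`-part of `a`. Let `1 ≤ m < n/2` and let `r` be a prime dividing the number of nondegenerate `m`-spaces.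 Then every element of `T` of order `r` fixes a nondegenerate `m`-space if and only if one of: (i) `r = p > 2` and every partition of `n` into parts of size at most `p` contains (as a sub-multiset) a partition of `m`; (ii) `r = p = 2` and (`n` is odd or `m` is even); (iii) `r = 2 ≠ p` and (`n` is odd, or `m` is even, or `(q+1)_2 ≥ (n)_2` and `q ≡ 3 (mod 4)`); (iv) `r ≠ p`, `r > 2`, and either `i ≠ 2`, `c ≤ m` and `k ≥ ℓ'`, or `i = 2` and (`r ∣ m` or `(q+1)_r ≥ (n)_r`). -/
theorem result {F : Type*} [Field F] [Fintype F] {p : ℕ} [Fact p.Prime] [CharP F p] {q : ℕ} (hq : Fintype.card F = q ^ 2)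
    (n m : ℕ) (hn : 3 ≤ n) (hT : (n, q) ≠ (3, 2)) (hm : 1 ≤ m) (hmn : 2 * m < n)
    (r : ℕ) [Fact r.Prime]
    (hrΩ : r ∣ Nat.card {W : Submodule F (Fin n → F) // Module.finrank F ↥W = m ∧ (∀ u ∈ W, u ≠ 0 → ∃ v ∈ W, Cfsg.hermForm n F q u v ≠ 0)})
    (i b c : ℕ) (hi : i = orderOf (q : ZMod r)) (hb : b = if Even i then i / 2 else i)
    (hc : c = if i % 4 = 0 then i else if i % 4 = 2 then i / 2 else 2 * i) :
    (∀ x : Matrix.SpecialLinearGroup (Fin n) F, x ∈ Cfsg.SU n F q →
      (∃ z : F, ((x ^ r : Matrix.SpecialLinearGroup (Fin n) F) : Matrix (Fin n) (Fin n) F) = z • (1 : Matrix (Fin n) (Fin n) F)) →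
      (∀ z : F, (x : Matrix (Fin n) (Fin n) F) ≠ z • (1 : Matrix (Fin n) (Fin n) F)) →
      ∃ W : Submodule F (Fin n → F), Module.finrank F ↥W = m ∧ (∀ u ∈ W, u ≠ 0 → ∃ v ∈ W, Cfsg.hermForm n F q u v ≠ 0) ∧
        W.map (Matrix.toLin' (x : Matrix (Fin n) (Fin n) F)) ≤ W) ↔
    ((r = p ∧ 2 < p ∧ (∀ μ : Multiset ℕ, (∀ a ∈ μ, 0 < a ∧ a ≤ p) → μ.sum = n → ∃ ν : Multiset ℕ, ν ≤ μ ∧ ν.sum = m)) ∨
     (r = p ∧ p = 2 ∧ (Odd n ∨ Even m)) ∨
     (r = 2 ∧ p ≠ 2 ∧ (Odd n ∨ Even m ∨ (padicValNat 2 n ≤ padicValNat 2 (q + 1) ∧ q % 4 = 3))) ∨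
     (r ≠ p ∧ 2 < r ∧ ((i ≠ 2 ∧ c ≤ m ∧ m % c ≤ n % c) ∨ (i = 2 ∧ (r ∣ m ∨ padicValNat r n ≤ padicValNat r (q + 1)))))) := by
  classical
  have hm' : m ≤ n := by omega
  have hn0 : 0 < n := by omega
  subst hi
  have hc' : c = Cfsg.Agent.Lib.HSBase.blkC (orderOf (q : ZMod r)) := hc
  clear hc
  by_cases hrp : r = p
  · subst hrp
    rw [Cfsg.Agent.Lib.HSBase.lhs_iff_char (p := r) hq hn0 hm']
    by_cases h2 : r = 2
    · subst h2
      constructor
      · intro h
        exact Or.inr (Or.inl ⟨rfl, rfl, (Cfsg.Agent.Lib.HSBase.cond_two hm').1 h⟩)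
      · rintro (⟨-, h, -⟩ | ⟨-, -, h⟩ | ⟨-, h, -⟩ | ⟨h, -⟩)
        · omega
        · exact (Cfsg.Agent.Lib.HSBase.cond_two hm').2 h
        · exact absurd rfl h
        · exact absurd rfl h
    · have h3 : 2 < r := by
        have := (Fact.out : r.Prime).two_le
        omega
      constructor
      · intro h
        exact Or.inl ⟨rfl, h3, h⟩
      · rintro (⟨-, -, h⟩ | ⟨-, h, -⟩ | ⟨h, -⟩ | ⟨h, -⟩)
        · exact h
        · exact absurd h h2
        · exact absurd h h2
        · exact absurd rfl h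
  · have hrF : (r : F) ≠ 0 := Cfsg.Agent.Lib.PrimOrder.natCast_ne_zero_of_ne Fact.out Fact.out hrp
    by_cases h2 : r = 2
    · subst h2
      have hp2 : p ≠ 2 := fun h => hrp h.symm
      have hcp : CharP F p := inferInstance
      obtain ⟨p', k, hp', hcp', hqk⟩ := Cfsg.Agent.Lib.HermForm.exists_char_pow hq
      have hpp : p' = p := CharP.eq F hcp' hcp
      subst hpp
      have hodd : Odd q := by
        rw [hqk]
        exact ((Fact.out : p'.Prime).odd_of_ne_two hp2).pow
      rw [Cfsg.Agent.Lib.HSBase.lhs_iff_two hq hodd hn0 hm']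
      constructor
      · intro h
        exact Or.inr (Or.inr (Or.inl ⟨rfl, hp2, h⟩))
      · rintro (⟨h, -⟩ | ⟨h, -⟩ | ⟨-, -, h⟩ | ⟨-, h, -⟩)
        · exact absurd h hrp
        · exact absurd h hrp
        · exact h
        · omega
    · have h3 : 2 < r := by
        have := (Fact.out : r.Prime).two_le
        omega
      by_cases h4 : r ∣ q + 1
      · have hx : (q : ZMod r) = -1 := by
          have h5 := (ZMod.natCast_eq_zero_iff (q + 1) r).2 h4
          push_cast at h5
          exact eq_neg_of_add_eq_zero_left h5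
        have hi2 : orderOf (q : ZMod r) = 2 := by
          rw [hx, orderOf_neg_one, ZMod.ringChar_zmod_n, if_neg h2]
        rw [Cfsg.Agent.Lib.HSBase.lhs_iff_root hq hn0 hm' h2 hrF h4, hi2]
        constructor
        · intro h
          exact Or.inr (Or.inr (Or.inr ⟨hrp, h3, Or.inr ⟨rfl, h⟩⟩))
        · rintro (⟨h, -⟩ | ⟨h, -⟩ | ⟨h, -⟩ | ⟨-, -, ⟨h, -⟩ | ⟨-, h⟩⟩)
          · exact absurd h hrp
          · exact absurd h hrp
          · exact absurd h h2
          · exact absurd rfl h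
          · exact h
      · have hi2 : orderOf (q : ZMod r) ≠ 2 := by
          intro h
          have h5 : (q : ZMod r) ^ 2 = 1 := by
            rw [← h]
            exact pow_orderOf_eq_one _
          have h6 : ((q : ZMod r) - 1) * ((q : ZMod r) + 1) = 0 := by
            ring_nf
            rw [h5]
            ring
          rcases mul_eq_zero.1 h6 with h7 | h7
          · have h8 : (q : ZMod r) = 1 := sub_eq_zero.1 h7
            rw [h8, orderOf_one] at h
            omega
          · apply h4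
            rw [← ZMod.natCast_eq_zero_iff]
            push_cast
            exact h7
        rw [Cfsg.Agent.Lib.HSBase.lhs_iff_semi hq hn0 hm' h2 hrF h4 hrΩ, ← hc']
        constructor
        · intro h
          exact Or.inr (Or.inr (Or.inr ⟨hrp, h3, Or.inl ⟨hi2, h⟩⟩))
        · rintro (⟨h, -⟩ | ⟨h, -⟩ | ⟨h, -⟩ | ⟨-, -, ⟨-, h⟩ | ⟨h, -⟩⟩)
          · exact absurd h hrp
          · exact absurd h hrp
          · exact absurd h h2
          · exact h
          · exact absurd h hi2

end Cfsg.Agent.S5954
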