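import Cfsg.Statements.S5955
import Cfsg.Agent.Lib.SpTI.Count
import Cfsg.Agent.Lib.SpTI.Back
import Cfsg.Agent.Lib.SpTI.Forward
import Cfsg.Agent.Lib.SpTI.Two

set_option autoImplicit false
open scoped MatrixGroups
open Cfsg

namespace Cfsg.Agent.S5955

/-- Elements of prime order of PSp_n(q) with no fixed totally isotropic `m`-space. Here `T = PSp_n(q)` with `n = 2d ≥ 4`, `(n, q) ≠ (4, 2)`, realised through the symplectic matrices over the field `F` with `q` elements (preserving the standard alternating form); an element of `T` of prime order `r` is such a matrix `x` with `x^r` scalar and `x` not scalar. For `r ≠ p` let `i` be the multiplicative order of `q` modulo `r`, `c = i` for `i` even and `c = 2i` for `i` odd, and write `k = n mod c`, `ℓ = m mod i`, `ℓ' = m mod c`, `n' = ⌊n/i⌋`, `m' = ⌊m/i⌋`, `t = (r−1)/i`. Let `1 ≤ m ≤ n/2` and let `r` be a prime dividing the number of totally isotropic `m`-spaces. Then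 every element of `T` of order `r` fixes a totally isotropic `m`-space if and only if either (i) `r = 2 ≠ p` and (`m` is even or `q ≡ 1 (mod 4)`); or (ii) `r ≠ p`, `r > 2`, `i ≤ m`, `k ≥ 2ℓ`, and (`i` is odd or `n' − 2m' ≥ t`). -/
theorem result {F : Type*} [Field F] [Fintype F] {p : ℕ} [Fact p.Prime] [CharP F p] {q : ℕ} (hq : Fintype.card F = q)
    (d m : ℕ) (hd : 2 ≤ d) (hT : (d, q) ≠ (2, 2)) (hm : 1 ≤ m) (hmd : m ≤ d)
    (r : ℕ) [Fact r.Prime]
    (hrΩ : r ∣ Nat.card {W : Submodule F (Fin d ⊕ Fin d → F) // Module.finrank F ↥W = m ∧ (∀ u ∈ W, ∀ v ∈ W, Cfsg.sympForm d F u v = 0)})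
    (i c : ℕ) (hi : i = orderOf (q : ZMod r)) (hc : c = if Even i then i else 2 * i) :
    (∀ x : ↥(Matrix.symplecticGroup (Fin d) F),
      (∃ z : F, ((x ^ r : ↥(Matrix.symplecticGroup (Fin d) F)) : Matrix (Fin d ⊕ Fin d) (Fin d ⊕ Fin d) F) = z • (1 : Matrix (Fin d ⊕ Fin d) (Fin d ⊕ Fin d) F)) →
      (∀ z : F, (x : Matrix (Fin d ⊕ Fin d) (Fin d ⊕ Fin d) F) ≠ z • (1 : Matrix (Fin d ⊕ Fin d) (Fin d ⊕ Fin d) F)) →
      ∃ W : Submodule F (Fin d ⊕ Fin d → F), Module.finrank F ↥W = m ∧ (∀ u ∈ W, ∀ v ∈ W, Cfsg.sympForm d F u v = 0) ∧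
        W.map (Matrix.toLin' (x : Matrix (Fin d ⊕ Fin d) (Fin d ⊕ Fin d) F)) ≤ W) ↔
    ((r = 2 ∧ p ≠ 2 ∧ (Even m ∨ q % 4 = 1)) ∨
     (r ≠ p ∧ 2 < r ∧ i ≤ m ∧ 2 * (m % i) ≤ (2 * d) % c ∧ (Odd i ∨ (r - 1) / i + 2 * (m / i) ≤ (2 * d) / i))) := by
  classical
  have hrf : Fact r.Prime := inferInstance
  have hr : r.Prime := hrf.out
  have hd0 : 0 < d := by omega
  obtain ⟨hrp, j, hjm, hjd⟩ := Cfsg.Agent.Lib.SpTI.prime_dvd_card_ti (F := F) (p := p) hmd hr hrΩ
  rw [hq] at hjd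
  have hrF : (r : F) ≠ 0 := Cfsg.Agent.Lib.PrimOrder.natCast_ne_zero_of_ne hr Fact.out hrp
  by_cases hr2 : r = 2
  · subst hr2
    have hp2 : p ≠ 2 := hrp.symm
    have h2F : (2 : F) ≠ 0 := by exact_mod_cast hrF
    constructor
    · intro H
      left
      refine ⟨rfl, hp2, ?_⟩
      by_cases hq4 : q % 4 = 1
      · exact Or.inr hq4
      · exact Or.inl (Cfsg.Agent.Lib.SpTI.forward_two hq h2F hd0 hq4 (fun x hx hns => by
          obtain ⟨W, h1, -, h3⟩ := H x hx hns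
          exact ⟨W, h1, h3⟩))
    · rintro (⟨-, -, hc2⟩ | ⟨-, h, -⟩)
      · rintro x ⟨z, hz⟩ -
        exact Cfsg.Agent.Lib.SpTI.backward_two hq h2F hd0 hmd hc2 x hz
      · omega
  · constructor
    · intro H
      right
      have h2r : 2 < r := by
        have := hr.two_le
        omega
      have h3 := Cfsg.Agent.Lib.SpTI.forward_odd hq hr2 hrF hd0 hm hmd hi hc ⟨j, hjm, hjd⟩ (fun x hx hns => by
        obtain ⟨W, h1, h2, h3⟩ := H x ⟨1, by rw [hx]; simp⟩ hns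
        exact ⟨W, fun v hv => h3 (Submodule.mem_map_of_mem hv), fun a ha b hb => h2 a ha b hb, h1⟩)
      exact ⟨hrp, h2r, h3⟩
    · rintro (⟨h, -⟩ | ⟨-, -, him, hk, hev⟩)
      · exact absurd h hr2
      · rintro x ⟨z, hz⟩ -
        exact Cfsg.Agent.Lib.SpTI.backward_odd hq hr2 hrF hd0 hmd hi hc hk hev x hz

end Cfsg.Agent.S5955
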