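import Cfsg.Statements.S5956
import Cfsg.Agent.Lib.SpFMChar2
import Cfsg.Agent.Lib.SpNDSub

set_option autoImplicit false
open scoped MatrixGroups
open Cfsg

namespace Cfsg.Agent.S5956

/-- Elements of prime order of PSp_n(q) with no fixed nondegenerate `m`-space. Here `T = PSp_n(q)` with `n = 2d ≥ 4`, `(n, q) ≠ (4, 2)`, realised through the symplectic matrices over the field `F` with `q` elements (preserving the standard alternating form); an element of `T` of prime order `r` is such a matrix `x` with `x^r` scalar and `x` not scalar. For `r ≠ p` let `i` be the multiplicative order of `q` modulo `r`, `c = i` for `i` even and `c = 2i` for `i` odd, and write `k = n mod c`, `ℓ = m mod i`, `ℓ' = m mod c`, `n' = ⌊n/i⌋`, `m' = ⌊m/i⌋`, `t = (r−1)/i`. Let `m` be even with `2 ≤ m < n/2` and let `r` be a prime dividing the number of nondegenerate `m`-spaces. Then every element of `T` of order `r` fixes a nondegenerate `m`-space if and only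 if one of: (i) `r = p > 2` and every partition of `n` into parts of size at most `p` in which every odd part has even multiplicity contains (as a sub-multiset) a partition of `m` in which every odd part has even multiplicity; (ii) `r = p = 2` and (`n ≡ 2 (mod 4)` or `m ≡ 0 (mod 4)`); (iii) `r = 2 ≠ p`; (iv) `r ≠ p`, `r > 2`, `c ≤ m` and `k ≥ ℓ'`. -/
theorem result {F : Type*} [Field F] [Fintype F] {p : ℕ} [Fact p.Prime] [CharP F p] {q : ℕ} (hq : Fintype.card F = q)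
    (d m : ℕ) (hd : 2 ≤ d) (hT : (d, q) ≠ (2, 2)) (hm : 2 ≤ m) (hme : Even m) (hmd : m < d)
    (r : ℕ) [Fact r.Prime]
    (hrΩ : r ∣ Nat.card {W : Submodule F (Fin d ⊕ Fin d → F) // Module.finrank F ↥W = m ∧ (∀ u ∈ W, u ≠ 0 → ∃ v ∈ W, Cfsg.sympForm d F u v ≠ 0)})
    (i c : ℕ) (hi : i = orderOf (q : ZMod r)) (hc : c = if Even i then i else 2 * i) :
    (∀ x : ↥(Matrix.symplecticGroup (Fin d) F),
      (∃ z : F, ((x ^ r : ↥(Matrix.symplecticGroup (Fin d) F)) : Matrix (Fin d ⊕ Fin d) (Fin d ⊕ Fin d) F) = z • (1 : Matrix (Fin d ⊕ Fin d) (Fin d ⊕ Fin d) F)) →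
      (∀ z : F, (x : Matrix (Fin d ⊕ Fin d) (Fin d ⊕ Fin d) F) ≠ z • (1 : Matrix (Fin d ⊕ Fin d) (Fin d ⊕ Fin d) F)) →
      ∃ W : Submodule F (Fin d ⊕ Fin d → F), Module.finrank F ↥W = m ∧ (∀ u ∈ W, u ≠ 0 → ∃ v ∈ W, Cfsg.sympForm d F u v ≠ 0) ∧
        W.map (Matrix.toLin' (x : Matrix (Fin d ⊕ Fin d) (Fin d ⊕ Fin d) F)) ≤ W) ↔
    ((r = p ∧ 2 < p ∧ (∀ μ : Multiset ℕ, (∀ a ∈ μ, 0 < a ∧ a ≤ p) → (∀ a : ℕ, Odd a → Even (μ.count a)) → μ.sum = 2 * d →
        ∃ ν : Multiset ℕ, ν ≤ μ ∧ ν.sum = m ∧ ∀ a : ℕ, Odd a → Even (ν.count a))) ∨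
     (r = p ∧ p = 2 ∧ ((2 * d) % 4 = 2 ∨ m % 4 = 0)) ∨
     (r = 2 ∧ p ≠ 2) ∨
     (r ≠ p ∧ 2 < r ∧ c ≤ m ∧ m % c ≤ (2 * d) % c)) := by
  classical
  have hd0 : 0 < d := by omega
  have hpp : p.Prime := Fact.out
  have hrr : r.Prime := Fact.out
  have hm2 : m ≤ 2 * d := by omega
  by_cases hrp : r = p
  · subst hrp
    by_cases hp2 : r = 2
    · subst hp2
      rw [Cfsg.Agent.Lib.SpFM.FM.partB d m hd0 hme hm2 (fun x z hz => Cfsg.Agent.S5961.scalar_sq hd0 x z hz)]
      constructor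
      · intro h
        exact Or.inr (Or.inl ⟨rfl, rfl, h⟩)
      · rintro (⟨-, h, -⟩ | ⟨-, -, h⟩ | ⟨-, h⟩ | ⟨h, -⟩)
        · omega
        · exact h
        · exact absurd rfl h
        · exact absurd rfl h
    · have hp2' : 2 < r := lt_of_le_of_ne hrr.two_le (Ne.symm hp2)
      rw [Cfsg.Agent.Lib.SpFM.FM.partA hp2' d m hd0 hme hm2 (fun x z hz => Cfsg.Agent.S5961.scalar_sq hd0 x z hz)]
      constructor
      · exact fun h => Or.inl ⟨rfl, hp2', h⟩
      · rintro (⟨-, -, h⟩ | ⟨-, h, -⟩ | ⟨h, h'⟩ | ⟨h, -⟩)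
        · exact h
        · exact absurd h hp2
        · exact absurd h hp2
        · exact absurd rfl h
  · have hrF : (r : F) ≠ 0 := by
      intro h
      have h1 := (CharP.cast_eq_zero_iff F p r).mp h
      exact hrp ((Nat.prime_dvd_prime_iff_eq hpp hrr).mp h1).symm
    by_cases hr2 : r = 2
    · subst hr2
      have h2 : (2 : F) ≠ 0 := by exact_mod_cast hrF
      exact iff_of_true (fun x ⟨z, hz⟩ _ => Cfsg.Agent.Lib.SpNDSub.partC h2 hd0 m hme hm2 x z hz)
        (Or.inr (Or.inr (Or.inl ⟨rfl, fun h => hrp h.symm⟩)))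
    · have hr3 : 2 < r := lt_of_le_of_ne hrr.two_le (Ne.symm hr2)
      obtain ⟨k, hk⟩ := hme
      have hk2 : m = 2 * k := by omega
      subst hk2
      have hcb : c = Cfsg.Agent.Lib.IsomBlock.blockDim r q := by
        rw [hc, hi]
        rfl
      rw [hcb, Cfsg.Agent.Lib.SpNDSub.partD hq hd0 hr2 hrF k (by omega) hrΩ]
      constructor
      · exact fun h => Or.inr (Or.inr (Or.inr ⟨hrp, hr3, h⟩))
      · rintro (⟨h, -⟩ | ⟨h, -⟩ | ⟨h, -⟩ | ⟨-, -, h⟩)
        · exact absurd h hrp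
        · exact absurd h hrp
        · exact absurd h hr2
        · exact h

end Cfsg.Agent.S5956
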