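import Mathlib
import Cfsg.Agent.Lib.InvolNormal
import Cfsg.Statements.S5957

set_option autoImplicit false
open scoped MatrixGroups
open Cfsg

namespace Cfsg.Agent.S5957

/-- Involutions of PSL_n(q) and imprimitive subgroups. Here `T = PSL_n(F)` for a field `F` with `q = p^f` elements (`n ≥ 2`, `(n, q) ≠ (2, 2), (2, 3)`), `n = a·t` with `t ≥ 2`, and Ω is the set of direct-sum decompositions of `F^n` into `t` subspaces of dimension `a` (unordered; their number is the number of ordered ones divided by `t!`), whose stabilizers are the imprimitive subgroups of type GL_a(q) ≀ S_t (maximal except in some small cases; maximality is not assumed); an element of `T` of prime order `r` (a matrix `x` of determinant 1 with `x^r` scalar, `x` not scalar) fixes a point of Ω when it permutes the summands of some such decomposition. If the number of such decompositions is even, then every involution of `T` stabilizes one of them (the action is 2-elusive). -/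
theorem result {F : Type*} [Field F] [Fintype F] {p : ℕ} [Fact p.Prime] [CharP F p] {q : ℕ} (hq : Fintype.card F = q)
    (n a t : ℕ) (hn : 2 ≤ n) (hT : (n, q) ≠ (2, 2) ∧ (n, q) ≠ (2, 3)) (hat : n = a * t) (ha : 1 ≤ a) (ht : 2 ≤ t)
    (hΩ : 2 ∣ Nat.card {D : Fin t → Submodule F (Fin n → F) // Cfsg.Geo.IsMDecomposition a D} / Nat.factorial t)
    (x : Matrix.SpecialLinearGroup (Fin n) F)
    (hx1 : ∃ z : F, ((x ^ 2 : Matrix.SpecialLinearGroup (Fin n) F) : Matrix (Fin n) (Fin n) F) = z • (1 : Matrix (Fin n) (Fin n) F))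
    (hx2 : ∀ z : F, (x : Matrix (Fin n) (Fin n) F) ≠ z • (1 : Matrix (Fin n) (Fin n) F)) :
    ∃ D : Fin t → Submodule F (Fin n → F), Cfsg.Geo.IsMDecomposition a D ∧
        ∃ σ : Equiv.Perm (Fin t), ∀ j, (D j).map (Matrix.toLin' (x : Matrix (Fin n) (Fin n) F)) = D (σ j) := by
  classical
  obtain ⟨z, hz⟩ := hx1
  have hpow : ((x ^ 2 : Matrix.SpecialLinearGroup (Fin n) F) : Matrix (Fin n) (Fin n) F) =
      (x : Matrix (Fin n) (Fin n) F) * (x : Matrix (Fin n) (Fin n) F) := by
    rw [pow_two]
    rfl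
  rw [hpow] at hz
  have hz0 : z ≠ 0 := by
    rintro rfl
    have h1 := congrArg Matrix.det hz
    rw [Matrix.det_mul, x.2] at h1
    haveI : Nonempty (Fin n) := ⟨⟨0, by omega⟩⟩
    rw [zero_smul, Matrix.det_zero] at h1
    simp at h1
  let T : (Fin n → F) →ₗ[F] (Fin n → F) := Matrix.toLin' (x : Matrix (Fin n) (Fin n) F)
  have hT : ∀ v, T (T v) = z • v := by
    intro v
    have h1 : T (T v) = ((x : Matrix (Fin n) (Fin n) F) * (x : Matrix (Fin n) (Fin n) F)).mulVec v := by
      simp [T, Matrix.toLin'_apply, Matrix.mulVec_mulVec]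
    rw [h1, hz, Matrix.smul_mulVec, Matrix.one_mulVec]
  obtain ⟨𝓛, h1, h2, h3, h4⟩ := Cfsg.Agent.Lib.InvolNormal.lines_normal_form T z hz0 hT _ ⊤ rfl
    (fun _ _ => trivial)
  let L : 𝓛 → Submodule F (Fin n → F) := fun i => i.1
  have hLind : iSupIndep L := h2.independent
  have hLtop : ⨆ i, L i = ⊤ := by
    rw [eq_top_iff, ← h3]
    refine Finset.sup_le fun M hM => ?_
    exact le_iSup L ⟨M, hM⟩
  have hcard : Fintype.card 𝓛 = a * t := by
    have h5 := Cfsg.Agent.Lib.BlockPerm.finrank_finset_sup L hLind Finset.univ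
    rw [Finset.sup_univ_eq_iSup, hLtop, finrank_top, Module.finrank_fin_fun] at h5
    have h6 : ∑ i, Module.finrank F (L i) = Fintype.card 𝓛 := by
      rw [Finset.sum_congr rfl (fun i _ => (h1 i.1 i.2).1), Finset.sum_const,
        Finset.card_univ, smul_eq_mul, mul_one]
    exact (h5.trans h6).symm.trans hat
  let π : 𝓛 → 𝓛 := fun i => ⟨i.1.map T, h4 i.1 i.2⟩
  have hπ : ∀ i, π (π i) = i := by
    intro i
    apply Subtype.ext
    change (i.1.map T).map T = i.1
    ext w
    simp only [Submodule.mem_map, exists_exists_and_eq_and]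
    constructor
    · rintro ⟨y, hy, rfl⟩
      rw [hT]
      exact i.1.smul_mem _ hy
    · intro hw
      refine ⟨z⁻¹ • w, i.1.smul_mem _ hw, ?_⟩
      rw [hT, smul_smul, mul_inv_cancel₀ hz0, one_smul]
  obtain ⟨f, σ, D, -, hD1, hD2, hD3, hD4⟩ := Cfsg.Agent.Lib.BlockPerm.exists_decomp L hLind hLtop 1
    (fun i => (h1 i.1 i.2).1) T hπ (fun _ => rfl) a ha t hcard
  refine ⟨D, ⟨ht, by omega, fun i => by rw [hD1, mul_one], hD2, hD3⟩, σ, hD4⟩

end Cfsg.Agent.S5957
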