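import Mathlib
import Cfsg.Agent.Lib.JordanType
import Cfsg.Statements.S5959

set_option autoImplicit false
open scoped MatrixGroups
open Cfsg

namespace Cfsg.Agent.S5959


open Module Cfsg.Agent.Lib.JordanType

section aux

variable {F V : Type*} [Field F] [AddCommGroup V] [Module F V]

/-- Injectivity of `N ^ (p - 1)` on a summand permuted in a `p`-cycle. -/
theorem injOn_of_cycle (N : V →ₗ[F] V) {p t : ℕ} (_hp : p.Prime) (D : Fin t → Submodule F V)
    (hind : iSupIndep D) (σ : Equiv.Perm (Fin t))
    (hσ : ∀ j, (D j).map (1 + N) = D (σ j)) (j : Fin t) (hper : ∀ m, 0 < m → m < p → (σ ^ m) j ≠ j)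
    (v : V) (hv : v ∈ D j) (h0 : (N ^ (p - 1)) v = 0) : v = 0 := by
  classical
  set T : V →ₗ[F] V := 1 + N with hT
  have hTpow : ∀ m : ℕ, ∀ w ∈ D j, (T ^ m) w ∈ D ((σ ^ m) j) := by
    intro m
    induction m with
    | zero =>
      intro w hw
      simpa using hw
    | succ m ih =>
      intro w hw
      have h1 : (σ ^ (m + 1)) j = σ ((σ ^ m) j) := by
        rw [pow_succ']
        rfl
      rw [h1, pow_succ' T, Module.End.mul_apply, ← hσ]
      exact Submodule.mem_map_of_mem (ih w hw)
  have hN : N = T + (-1) := by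
    rw [hT]
    abel
  have hcomm : Commute T (-1 : V →ₗ[F] V) := (Commute.one_right T).neg_right
  set c : ℕ → F := fun m => (-1 : F) ^ (p - 1 - m) * ((p - 1).choose m : F) with hc
  have hexp : (N ^ (p - 1)) v = ∑ m ∈ Finset.range (p - 1 + 1), c m • (T ^ m) v := by
    rw [hN, hcomm.add_pow, LinearMap.sum_apply]
    refine Finset.sum_congr rfl fun m _ => ?_
    have h1 : (-1 : V →ₗ[F] V) ^ (p - 1 - m) * (((p - 1).choose m : ℕ) : V →ₗ[F] V)
        = algebraMap F (V →ₗ[F] V) (c m) := by
      simp [hc, map_mul, map_pow, map_neg, map_one, map_natCast]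
    rw [mul_assoc, h1, Module.End.mul_apply, Module.algebraMap_end_apply, map_smul]
  rw [hexp, Finset.sum_range_succ'] at h0
  set U : Submodule F V := ⨆ j' : {j' // j' ≠ j}, D j'.1 with hU
  have hsum : (∑ m ∈ Finset.range (p - 1), c (m + 1) • (T ^ (m + 1)) v) ∈ U := by
    refine Submodule.sum_mem _ fun m hm => Submodule.smul_mem _ _ ?_
    have hm' : m + 1 < p := by
      have := Finset.mem_range.mp hm
      omega
    exact Submodule.mem_iSup_of_mem ⟨(σ ^ (m + 1)) j, hper _ (Nat.succ_pos m) hm'⟩
      (hTpow (m + 1) v hv)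
  have hc0 : c 0 ≠ 0 := by
    simp [hc]
  have hv' : c 0 • v ∈ U := by
    have h1 : c 0 • v = - ∑ m ∈ Finset.range (p - 1), c (m + 1) • (T ^ (m + 1)) v := by
      simp only [pow_zero, Module.End.one_apply] at h0
      exact eq_neg_of_add_eq_zero_right h0
    rw [h1]
    exact U.neg_mem hsum
  have hdisj : Disjoint (D j) U := by
    have h2 := hind j
    refine h2.mono_right ?_
    refine iSup_le fun j' => ?_
    exact le_iSup₂_of_le j'.1 j'.2 le_rfl
  have hv'' : c 0 • v ∈ D j ⊓ U := ⟨(D j).smul_mem _ hv, hv'⟩
  rw [hdisj.eq_bot, Submodule.mem_bot] at hv''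
  exact (smul_eq_zero.mp hv'').resolve_left hc0

end aux

/-- Elements of order `p` of PSL_n(q) and imprimitive subgroups: a necessary condition. Here `T = PSL_n(F)` for a field `F` with `q = p^f` elements (`n ≥ 2`, `(n, q) ≠ (2, 2), (2, 3)`), `n = a·t` with `t ≥ 2`, and Ω is the set of direct-sum decompositions of `F^n` into `t` subspaces of dimension `a` (unordered; their number is the number of ordered ones divided by `t!`), whose stabilizers are the imprimitive subgroups of type GL_a(q) ≀ S_t (maximal except in some small cases; maximality is not assumed); an element of `T` of prime order `r` (a matrix `x` of determinant 1 with `x^r` scalar, `x` not scalar) fixes a point of Ω when it permutes the summands of some such decomposition. Suppose `p > 2` divides the number of such decompositions. If every element of `T` of order `p` stabilizes such a decomposition, then every partition of `n` into parts of size at most `p` in which the part `p` occurs fewer than `a` times contains (as a sub-multiset) a partition of `a`. -/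
theorem result {F : Type*} [Field F] [Fintype F] {p : ℕ} [Fact p.Prime] [CharP F p] {q : ℕ} (hq : Fintype.card F = q)
    (n a t : ℕ) (hn : 2 ≤ n) (hT : (n, q) ≠ (2, 2) ∧ (n, q) ≠ (2, 3)) (hat : n = a * t) (ha : 1 ≤ a) (ht : 2 ≤ t)
    (hp : 2 < p) (hΩ : p ∣ Nat.card {D : Fin t → Submodule F (Fin n → F) // Cfsg.Geo.IsMDecomposition a D} / Nat.factorial t)
    (h : ∀ x : Matrix.SpecialLinearGroup (Fin n) F,
      (∃ z : F, ((x ^ p : Matrix.SpecialLinearGroup (Fin n) F) : Matrix (Fin n) (Fin n) F) = z • (1 : Matrix (Fin n) (Fin n) F)) →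
      (∀ z : F, (x : Matrix (Fin n) (Fin n) F) ≠ z • (1 : Matrix (Fin n) (Fin n) F)) →
      ∃ D : Fin t → Submodule F (Fin n → F), Cfsg.Geo.IsMDecomposition a D ∧
        ∃ σ : Equiv.Perm (Fin t), ∀ j, (D j).map (Matrix.toLin' (x : Matrix (Fin n) (Fin n) F)) = D (σ j)) :
    (∀ μ : Multiset ℕ, (∀ b ∈ μ, 0 < b ∧ b ≤ p) → μ.sum = n → μ.count p < a → ∃ ν : Multiset ℕ, ν ≤ μ ∧ ν.sum = a) := by
  classical
  intro μ hμ hsum hcount
  have hpp : p.Prime := Fact.out
  have han : a ≤ n := by
    rw [hat]
    exact Nat.le_mul_of_pos_right a (by omega)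
  by_cases hall : ∀ b ∈ μ, b = 1
  · have hμ1 : μ = Multiset.replicate (Multiset.card μ) 1 := Multiset.eq_replicate_card.mpr hall
    have hcard : Multiset.card μ = n := by
      rw [hμ1] at hsum
      simpa using hsum
    refine ⟨Multiset.replicate a 1, ?_, by simp⟩
    rw [hμ1, hcard]
    exact Multiset.replicate_le_replicate 1 |>.mpr han
  -- the nilpotent operator with blocks `μ`
  obtain ⟨N, hN⟩ := exists_jordan (F := F) μ n hsum
  have hzero : ∀ k, p ≤ k → (μ.map (· - k)).sum = 0 := by
    intro k hk
    have h1 : μ.map (· - k) = μ.map (fun _ => 0) := by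
      apply Multiset.map_congr rfl
      intro b hb
      have := (hμ b hb).2
      omega
    rw [h1]
    simp
  have hNp : N ^ p = 0 := by
    have h1 := hN p
    rw [hzero p le_rfl, Submodule.finrank_eq_zero, LinearMap.range_eq_bot] at h1
    exact h1
  have : Nontrivial (Fin n → F) := by
    have : Nonempty (Fin n) := ⟨⟨0, by omega⟩⟩
    infer_instance
  have hchar : CharP ((Fin n → F) →ₗ[F] (Fin n → F)) p :=
    charP_of_injective_algebraMap (algebraMap F ((Fin n → F) →ₗ[F] (Fin n → F))).injective p
  set T : (Fin n → F) →ₗ[F] (Fin n → F) := 1 + N with hT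
  have hTp : T ^ p = 1 := by
    rw [hT, add_pow_char_of_commute p (Commute.one_left N), hNp]
    simp
  set A : Matrix (Fin n) (Fin n) F := LinearMap.toMatrix' T with hA
  have hAT : Matrix.toLin' A = T := by
    rw [hA, Matrix.toLin'_toMatrix']
  have hAp : A ^ p = 1 := by
    apply Matrix.toLin'.injective
    rw [Matrix.toLin'_pow, hAT, hTp, Matrix.toLin'_one]
    rfl
  have hdet : A.det = 1 := by
    have h1 : A.det ^ p = 1 := by
      rw [← Matrix.det_pow, hAp, Matrix.det_one]
    apply frobenius_inj F p
    simp [frobenius_def, h1]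
  let x : Matrix.SpecialLinearGroup (Fin n) F := ⟨A, hdet⟩
  have hxA : (x : Matrix (Fin n) (Fin n) F) = A := rfl
  have hxp : ∃ z : F, ((x ^ p : Matrix.SpecialLinearGroup (Fin n) F) : Matrix (Fin n) (Fin n) F)
      = z • (1 : Matrix (Fin n) (Fin n) F) := by
    refine ⟨1, ?_⟩
    rw [Matrix.SpecialLinearGroup.coe_pow, hxA, hAp, one_smul]
  have hxns : ∀ z : F, (x : Matrix (Fin n) (Fin n) F) ≠ z • (1 : Matrix (Fin n) (Fin n) F) := by
    intro z hz
    rw [hxA] at hz
    have h1 : T = z • (1 : (Fin n → F) →ₗ[F] (Fin n → F)) := by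
      rw [← hAT, hz, map_smul, Matrix.toLin'_one]
      rfl
    have h2 : N = (z - 1) • (1 : (Fin n → F) →ₗ[F] (Fin n → F)) := by
      have h3 : N = T - 1 := by
        rw [hT]
        abel
      rw [h3, h1]
      ext v i
      simp [sub_smul]
    have h3 : (z - 1) ^ p • (1 : (Fin n → F) →ₗ[F] (Fin n → F)) = 0 := by
      rw [← hNp, h2, smul_pow, one_pow]
    have h4 : (z - 1) ^ p = 0 := by
      by_contra hne
      have := (smul_eq_zero.mp h3).resolve_left hne
      exact one_ne_zero this
    have h5 : z - 1 = 0 := pow_eq_zero_iff (hpp.ne_zero) |>.mp h4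
    have h6 : N = 0 := by
      rw [h2, h5, zero_smul]
    have h7 := hN 1
    rw [pow_one, h6, LinearMap.range_zero, finrank_bot] at h7
    push Not at hall
    obtain ⟨b, hb, hb1⟩ := hall
    have hb2 : 0 < b - 1 := by
      have := (hμ b hb).1
      omega
    have h8 : b - 1 ≤ (μ.map (· - 1)).sum :=
      Multiset.single_le_sum (fun _ _ => Nat.zero_le _) _ (Multiset.mem_map_of_mem _ hb)
    omega
  obtain ⟨D, hD, σ, hσ⟩ := h x hxp hxns
  have hσ' : ∀ j, (D j).map T = D (σ j) := by
    intro j
    rw [← hσ j, hxA, hAT]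
  let j : Fin t := ⟨0, by omega⟩
  by_cases hfix : σ j = j
  · -- a fixed summand
    set B : Submodule F (Fin n → F) := ⨆ j' : {j' // j' ≠ j}, D j'.1 with hB
    have hcompl : IsCompl (D j) B := by
      constructor
      · refine (hD.indep j).mono_right ?_
        refine iSup_le fun j' => ?_
        exact le_iSup₂_of_le j'.1 j'.2 le_rfl
      · rw [codisjoint_iff, eq_top_iff, ← hD.iSup_eq_top]
        refine iSup_le fun j' => ?_
        by_cases hj' : j' = j
        · rw [hj']
          exact le_sup_left
        · exact le_sup_of_le_right (le_iSup (fun j' : {j' // j' ≠ j} => D j'.1) ⟨j', hj'⟩)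
    have hinvA : ∀ v ∈ D j, N v ∈ D j := by
      intro v hv
      have h1 : T v ∈ D j := by
        rw [← hfix, ← hσ' j]
        exact Submodule.mem_map_of_mem hv
      have h2 : N v = T v - v := by
        simp [hT]
      rw [h2]
      exact Submodule.sub_mem _ h1 hv
    have hinvB : ∀ v ∈ B, N v ∈ B := by
      intro v hv
      have h1 : B.map T ≤ B := by
        rw [hB, Submodule.map_iSup]
        refine iSup_le fun j' => ?_
        rw [hσ' j'.1]
        have hne : σ j'.1 ≠ j := by
          intro he
          apply j'.2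
          apply σ.injective
          rw [he, hfix]
        exact le_iSup (fun j' : {j' // j' ≠ j} => D j'.1) ⟨σ j'.1, hne⟩
      have h1' : T v ∈ B := h1 (Submodule.mem_map_of_mem hv)
      have h2 : N v = T v - v := by
        simp [hT]
      rw [h2]
      exact Submodule.sub_mem _ h1' hv
    obtain ⟨ν, hν, hνs⟩ := exists_sub_multiset N μ hN hcompl hinvA hinvB
    exact ⟨ν, hν, by rw [hνs, hD.finrank_eq]⟩
  · -- a moved summand: contradiction with the number of blocks of size `p`
    exfalso
    have hDinj : Function.Injective D := by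
      apply hD.indep.injective
      intro i hi
      have h1 := hD.finrank_eq i
      rw [hi, finrank_bot] at h1
      have := hD.pos
      omega
    have hpow : ∀ m : ℕ, (D j).map (T ^ m) = D ((σ ^ m) j) := by
      intro m
      induction m with
      | zero =>
        rw [pow_zero, pow_zero]
        exact Submodule.map_id (D j)
      | succ m ih =>
        have h1 : (σ ^ (m + 1)) j = σ ((σ ^ m) j) := by
          rw [pow_succ']
          rfl
        rw [h1, ← hσ', ← ih, pow_succ', Module.End.mul_eq_comp, Submodule.map_comp]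
    have hperp : (σ ^ p) j = j := by
      apply hDinj
      rw [← hpow, hTp]
      exact Submodule.map_id (D j)
    have hper : ∀ m, 0 < m → m < p → (σ ^ m) j ≠ j := by
      intro m hm hmp he
      have h1 : Function.IsPeriodicPt σ p j := by
        change (σ : Fin t → Fin t)^[p] j = j
        rw [Equiv.Perm.iterate_eq_pow]
        exact hperp
      have h2 : Function.IsPeriodicPt σ m j := by
        change (σ : Fin t → Fin t)^[m] j = j
        rw [Equiv.Perm.iterate_eq_pow]
        exact he
      have h3 := h2.gcd h1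
      have h4 : m.gcd p = 1 := by
        have : Nat.Coprime p m :=
          (Nat.Prime.coprime_iff_not_dvd hpp).mpr (Nat.not_dvd_of_pos_of_lt hm hmp)
        exact this.symm
      rw [h4] at h3
      exact hfix h3
    have hinj := injOn_of_cycle N hpp D hD.indep σ hσ' j hper
    have hle : a ≤ finrank F (LinearMap.range (N ^ (p - 1))) := by
      let f : D j →ₗ[F] (Fin n → F) := (N ^ (p - 1)).domRestrict (D j)
      have hf : Function.Injective f := by
        rw [← LinearMap.ker_eq_bot, LinearMap.ker_eq_bot']
        intro v hv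
        have := hinj v.1 v.2 hv
        exact Subtype.ext this
      have h1 : finrank F (LinearMap.range f) = a := by
        rw [LinearMap.finrank_range_of_inj hf, hD.finrank_eq]
      rw [← h1]
      apply Submodule.finrank_mono
      rintro _ ⟨v, rfl⟩
      exact ⟨v.1, rfl⟩
    have hid := sum_trunc_identity μ (p - 1)
    have h1 : p - 1 + 1 = p := Nat.sub_add_cancel hpp.one_lt.le
    rw [h1, hzero p le_rfl, hzero (p - 1 + 2) (by omega)] at hid
    rw [hN] at hle
    omega

end Cfsg.Agent.S5959
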