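import Mathlib
import Cfsg.Agent.Lib.SympPlanes
import Cfsg.Agent.Lib.SympForm
import Cfsg.Statements.S5960

set_option autoImplicit false
open scoped MatrixGroups
open Cfsg

namespace Cfsg.Agent.S5960

/-- Involutions of PSp_n(q) and imprimitive subgroups. Here `T = PSp_n(q)`, `n = 2d ≥ 4`, `(n, q) ≠ (4, 2)`, realised through the symplectic matrices over the field `F` with `q` elements and the standard alternating form; `n = a·t` with `a` even and `t ≥ 2`, and Ω is the (nonempty) set of orthogonal decompositions of `F^n` into `t` nondegenerate subspaces of dimension `a` (unordered; counted as ordered ones divided by `t!`), whose stabilizers are the imprimitive subgroups of type Sp_a(q) ≀ S_t (maximality is not assumed); an element of `T` of prime order `r` (a symplectic matrix `x` with `x^r` scalar, `x` not scalar) fixes a point of Ω when it permutes the summands of some such decomposition. If the number of such decompositions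 is even, then every involution of `T` stabilizes one of them (the action is 2-elusive). -/
theorem result {F : Type*} [Field F] [Fintype F] {p : ℕ} [Fact p.Prime] [CharP F p] {q : ℕ} (hq : Fintype.card F = q)
    (d : ℕ) (hd : 2 ≤ d) (hT : (d, q) ≠ (2, 2))
    (a t : ℕ) (hat : 2 * d = a * t) (ha : 2 ≤ a) (hae : Even a) (ht : 2 ≤ t) (hΩ : 2 ∣ Nat.card {D : Fin t → Submodule F (Fin d ⊕ Fin d → F) // (Cfsg.Geo.IsMDecomposition a D ∧ (∀ j, ∀ u ∈ D j, u ≠ 0 → ∃ v ∈ D j, Cfsg.sympForm d F u v ≠ 0) ∧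
          (∀ j j', j ≠ j' → ∀ u ∈ D j, ∀ v ∈ D j', Cfsg.sympForm d F u v = 0))} / Nat.factorial t)
    (x : ↥(Matrix.symplecticGroup (Fin d) F))
    (hx1 : ∃ z : F, ((x ^ 2 : ↥(Matrix.symplecticGroup (Fin d) F)) : Matrix (Fin d ⊕ Fin d) (Fin d ⊕ Fin d) F) = z • (1 : Matrix (Fin d ⊕ Fin d) (Fin d ⊕ Fin d) F))
    (hx2 : ∀ z : F, (x : Matrix (Fin d ⊕ Fin d) (Fin d ⊕ Fin d) F) ≠ z • (1 : Matrix (Fin d ⊕ Fin d) (Fin d ⊕ Fin d) F)) :
    ∃ D : Fin t → Submodule F (Fin d ⊕ Fin d → F), (Cfsg.Geo.IsMDecomposition a D ∧ (∀ j, ∀ u ∈ D j, u ≠ 0 → ∃ v ∈ D j, Cfsg.sympForm d F u v ≠ 0) ∧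
          (∀ j j', j ≠ j' → ∀ u ∈ D j, ∀ v ∈ D j', Cfsg.sympForm d F u v = 0)) ∧
        ∃ σ : Equiv.Perm (Fin t), ∀ j, (D j).map (Matrix.toLin' (x : Matrix (Fin d ⊕ Fin d) (Fin d ⊕ Fin d) F)) = D (σ j) := by
  classical
  obtain ⟨z, hz⟩ := hx1
  have hpow : ((x ^ 2 : ↥(Matrix.symplecticGroup (Fin d) F)) : Matrix (Fin d ⊕ Fin d) (Fin d ⊕ Fin d) F) =
      (x : Matrix (Fin d ⊕ Fin d) (Fin d ⊕ Fin d) F) * (x : Matrix (Fin d ⊕ Fin d) (Fin d ⊕ Fin d) F) := by
    rw [pow_two]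
    rfl
  rw [hpow] at hz
  let B : LinearMap.BilinForm F (Fin d ⊕ Fin d → F) :=
    LinearMap.mk₂ F (Cfsg.sympForm d F) Cfsg.Agent.Lib.SympForm.sympForm_add_left
      Cfsg.Agent.Lib.SympForm.sympForm_smul_left Cfsg.Agent.Lib.SympForm.sympForm_add_right
      Cfsg.Agent.Lib.SympForm.sympForm_smul_right
  have hBapp : ∀ u v, B u v = Cfsg.sympForm d F u v := fun _ _ => rfl
  have hB : ∀ v, B v v = 0 := fun v => Cfsg.Agent.Lib.SympForm.sympForm_self v
  let T : (Fin d ⊕ Fin d → F) →ₗ[F] (Fin d ⊕ Fin d → F) :=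
    Matrix.toLin' (x : Matrix (Fin d ⊕ Fin d) (Fin d ⊕ Fin d) F)
  have hiso : ∀ u v, B (T u) (T v) = B u v := fun u v => Cfsg.Agent.Lib.SympForm.sp_preserves x u v
  have hT : ∀ v, T (T v) = z • v := by
    intro v
    have h1 : T (T v) = ((x : Matrix (Fin d ⊕ Fin d) (Fin d ⊕ Fin d) F) *
        (x : Matrix (Fin d ⊕ Fin d) (Fin d ⊕ Fin d) F)).mulVec v := by
      simp [T, Matrix.toLin'_apply, Matrix.mulVec_mulVec]
    rw [h1, hz, Matrix.smul_mulVec, Matrix.one_mulVec]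
  have hV : Cfsg.Agent.Lib.SympPlanes.NondegOn B (⊤ : Submodule F (Fin d ⊕ Fin d → F)) := by
    intro u _ hu
    obtain ⟨w, hw⟩ := Cfsg.Agent.Lib.SympForm.exists_sympForm_ne_zero hu
    exact ⟨w, trivial, hw⟩
  have hTinj : ∀ v, T v = 0 → v = 0 := by
    intro v hv
    by_contra hne
    obtain ⟨w, -, hw⟩ := hV v trivial hne
    apply hw
    rw [← hiso, hv, map_zero, LinearMap.zero_apply]
  have hz0 : z ≠ 0 := by
    rintro rfl
    have hne : (Pi.single (Sum.inl ⟨0, by omega⟩) 1 : Fin d ⊕ Fin d → F) ≠ 0 := by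
      intro h
      have := congrFun h (Sum.inl ⟨0, by omega⟩)
      simp at this
    apply hne
    apply hTinj
    apply hTinj
    rw [hT, zero_smul]
  obtain ⟨a', rfl⟩ : ∃ a', a = a' * 2 := by
    obtain ⟨r, hr⟩ := hae
    exact ⟨r, by omega⟩
  have hdim : Module.finrank F (Fin d ⊕ Fin d → F) = 2 * (a' * t) := by
    rw [Module.finrank_fintype_fun_eq_card, Fintype.card_sum, Fintype.card_fin]
    linarith
  obtain ⟨D, σ, h1, h2, h3, h4, h5, h6⟩ := Cfsg.Agent.Lib.SympPlanes.exists_orth_decomp hB hz0 hT hiso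
    hV a' t (by omega) hdim
  exact ⟨D, ⟨⟨ht, by omega, h1, h2, h3⟩, h5, h6⟩, σ, h4⟩

end Cfsg.Agent.S5960
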