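import Mathlib
import Cfsg.Agent.Lib.AltPairs
import Cfsg.Agent.Lib.SympForm
import Cfsg.Statements.S5962
-- import your own Cfsg.Agent.* helpers here

set_option autoImplicit false
open scoped MatrixGroups
open Cfsg

namespace Cfsg.Agent.S5962

open Cfsg.Agent.Lib.AltPairs Cfsg.Agent.Lib.SympForm

/-- `sympForm` as a bilinear map. -/
noncomputable def sB (d : ℕ) (F : Type*) [Field F] :
    (Fin d ⊕ Fin d → F) →ₗ[F] (Fin d ⊕ Fin d → F) →ₗ[F] F :=
  LinearMap.mk₂ F (Cfsg.sympForm d F) sympForm_add_left (fun c u v => by rw [sympForm_smul_left, smul_eq_mul])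
    sympForm_add_right (fun c u v => by rw [sympForm_smul_right, smul_eq_mul])

@[simp] theorem sB_apply (d : ℕ) (F : Type*) [Field F] (u v : Fin d ⊕ Fin d → F) :
    sB d F u v = Cfsg.sympForm d F u v := rfl

theorem result' {F : Type*} [Field F] [Fintype F] {q : ℕ} (hq : Fintype.card F = q)
    (d : ℕ) (hd : 2 ≤ d) (hodd : Odd q)
    (x : ↥(Matrix.symplecticGroup (Fin d) F))
    (hx1 : ∃ z : F, ((x ^ 2 : ↥(Matrix.symplecticGroup (Fin d) F)) : Matrix (Fin d ⊕ Fin d) (Fin d ⊕ Fin d) F) = z • (1 : Matrix (Fin d ⊕ Fin d) (Fin d ⊕ Fin d) F)) :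
    ∃ U W : Submodule F (Fin d ⊕ Fin d → F), IsCompl U W ∧ (∀ u ∈ U, ∀ v ∈ U, Cfsg.sympForm d F u v = 0) ∧ (∀ u ∈ W, ∀ v ∈ W, Cfsg.sympForm d F u v = 0) ∧
        ((U.map (Matrix.toLin' (x : Matrix (Fin d ⊕ Fin d) (Fin d ⊕ Fin d) F)) = U ∧ W.map (Matrix.toLin' (x : Matrix (Fin d ⊕ Fin d) (Fin d ⊕ Fin d) F)) = W) ∨
         (U.map (Matrix.toLin' (x : Matrix (Fin d ⊕ Fin d) (Fin d ⊕ Fin d) F)) = W ∧ W.map (Matrix.toLin' (x : Matrix (Fin d ⊕ Fin d) (Fin d ⊕ Fin d) F)) = U)) := by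
  classical
  obtain ⟨z, hz⟩ := hx1
  set X : Matrix (Fin d ⊕ Fin d) (Fin d ⊕ Fin d) F := (x : Matrix (Fin d ⊕ Fin d) (Fin d ⊕ Fin d) F) with hX
  have hXX : X * X = z • (1 : Matrix (Fin d ⊕ Fin d) (Fin d ⊕ Fin d) F) := by
    rw [← hz, pow_two]; rfl
  have h2 : (2 : F) ≠ 0 := by
    apply Ring.two_ne_zero
    intro h
    have := FiniteField.even_card_iff_char_two.mp h
    rw [hq] at this
    rcases hodd with ⟨k, rfl⟩
    omega
  have hiso : ∀ u v, Cfsg.sympForm d F (X.mulVec u) (X.mulVec v) = Cfsg.sympForm d F u v :=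
    (mem_symplecticGroup_iff_preserves X).mp x.2
  set T : (Fin d ⊕ Fin d → F) →ₗ[F] (Fin d ⊕ Fin d → F) := Matrix.toLin' X with hT
  have hTv : ∀ v, T v = X.mulVec v := fun v => rfl
  have hTT : ∀ v, T (T v) = z • v := by
    intro v
    rw [hTv, hTv, Matrix.mulVec_mulVec, hXX, Matrix.smul_mulVec, Matrix.one_mulVec]
  have hB : ∀ u v, sB d F (T u) (T v) = sB d F u v := hiso
  have halt : ∀ v, sB d F v v = 0 := sympForm_self
  have hnd : NondegOn (sB d F) ⊤ := by
    intro u _ h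
    by_contra hu
    obtain ⟨w, hw⟩ := exists_sympForm_ne_zero hu
    exact hw (h w trivial)
  -- `z² = 1`
  have hzz : z * z = 1 := by
    have hne : (Pi.single (Sum.inl ⟨0, by omega⟩) 1 : Fin d ⊕ Fin d → F) ≠ 0 := by
      intro h
      have := congrFun h (Sum.inl ⟨0, by omega⟩)
      simp at this
    obtain ⟨w, hw⟩ := exists_sympForm_ne_zero hne
    have h3 := hB (T (Pi.single (Sum.inl ⟨0, by omega⟩) 1)) (T w)
    rw [hTT, hTT, hB, sB_apply, sympForm_smul_left, sympForm_smul_right, sB_apply] at h3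
    have h4 : (z * z - 1) * Cfsg.sympForm d F (Pi.single (Sum.inl ⟨0, by omega⟩) 1) w = 0 := by
      linear_combination h3
    rcases mul_eq_zero.mp h4 with h | h
    · linear_combination h
    · exact absurd h hw
  have hz' : z = 1 ∨ z = -1 := by
    have : (z - 1) * (z + 1) = 0 := by linear_combination hzz
    rcases mul_eq_zero.mp this with h | h
    · left; linear_combination h
    · right; linear_combination h
  rcases hz' with rfl | rfl
  · obtain ⟨U, W, hs, hi, hU, hW, hTU, hTW⟩ := exists_pair_of_sq_one h2 halt T hB (by simpa using hTT) ⊤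
      (fun _ _ => trivial) hnd
    refine ⟨U, W, ⟨disjoint_iff.mpr hi, codisjoint_iff.mpr hs⟩, hU, hW, Or.inl ⟨?_, ?_⟩⟩
    · apply le_antisymm
      · rintro _ ⟨v, hv, rfl⟩
        exact hTU v hv
      · intro v hv
        refine ⟨T v, hTU v hv, ?_⟩
        show T (T v) = v
        rw [hTT, one_smul]
    · apply le_antisymm
      · rintro _ ⟨v, hv, rfl⟩
        exact hTW v hv
      · intro v hv
        refine ⟨T v, hTW v hv, ?_⟩
        show T (T v) = v
        rw [hTT, one_smul]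
  · have hTT' : ∀ v, T (T v) = -v := by
      intro v; rw [hTT, neg_smul, one_smul]
    obtain ⟨U, W, hs, hi, hU, hW, hTU, hTW⟩ := exists_pair_of_sq_neg_one h2 halt T hB hTT' ⊤
      (fun _ _ => trivial) hnd
    refine ⟨U, W, ⟨disjoint_iff.mpr hi, codisjoint_iff.mpr hs⟩, hU, hW, Or.inr ⟨?_, ?_⟩⟩
    · apply le_antisymm
      · rintro _ ⟨v, hv, rfl⟩
        exact hTU v hv
      · intro v hv
        refine ⟨-T v, U.neg_mem (hTW v hv), ?_⟩
        show T (- T v) = v
        rw [map_neg, hTT', neg_neg]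
    · apply le_antisymm
      · rintro _ ⟨v, hv, rfl⟩
        exact hTW v hv
      · intro v hv
        refine ⟨-T v, W.neg_mem (hTU v hv), ?_⟩
        show T (- T v) = v
        rw [map_neg, hTT', neg_neg]



/-- Involutions of PSp_n(q), q odd, and the subgroups GL_{n/2}(q).2. Here `T = PSp_n(q)`, `n = 2d ≥ 4`, `q` odd, realised through the symplectic matrices over the field `F` with `q` elements; Ω is the set of unordered pairs `{U, W}` of complementary totally isotropic `d`-spaces (`F^n = U ⊕ W`), whose stabilizers are the subgroups of type GL_d(q).2 (maximal except in some small cases; maximality is not assumed); an element of `T` of prime order `r` (a symplectic matrix `x` with `x^r` scalar, `x` not scalar) fixes such a pair when it fixes or interchanges `U` and `W`. If the number of such pairs is even, every involution of `T` fixes one of them (the action is 2-elusive). -/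
theorem result {F : Type*} [Field F] [Fintype F] {p : ℕ} [Fact p.Prime] [CharP F p] {q : ℕ} (hq : Fintype.card F = q)
    (d : ℕ) (hd : 2 ≤ d) (hT : (d, q) ≠ (2, 2)) (hodd : Odd q)
    (hΩ : 2 ∣ Nat.card {P : Submodule F (Fin d ⊕ Fin d → F) × Submodule F (Fin d ⊕ Fin d → F) // IsCompl P.1 P.2 ∧ (∀ u ∈ P.1, ∀ v ∈ P.1, Cfsg.sympForm d F u v = 0) ∧ (∀ u ∈ P.2, ∀ v ∈ P.2, Cfsg.sympForm d F u v = 0)} / 2)
    (x : ↥(Matrix.symplecticGroup (Fin d) F))
    (hx1 : ∃ z : F, ((x ^ 2 : ↥(Matrix.symplecticGroup (Fin d) F)) : Matrix (Fin d ⊕ Fin d) (Fin d ⊕ Fin d) F) = z • (1 : Matrix (Fin d ⊕ Fin d) (Fin d ⊕ Fin d) F))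
    (hx2 : ∀ z : F, (x : Matrix (Fin d ⊕ Fin d) (Fin d ⊕ Fin d) F) ≠ z • (1 : Matrix (Fin d ⊕ Fin d) (Fin d ⊕ Fin d) F)) :
    ∃ U W : Submodule F (Fin d ⊕ Fin d → F), IsCompl U W ∧ (∀ u ∈ U, ∀ v ∈ U, Cfsg.sympForm d F u v = 0) ∧ (∀ u ∈ W, ∀ v ∈ W, Cfsg.sympForm d F u v = 0) ∧
        ((U.map (Matrix.toLin' (x : Matrix (Fin d ⊕ Fin d) (Fin d ⊕ Fin d) F)) = U ∧ W.map (Matrix.toLin' (x : Matrix (Fin d ⊕ Fin d) (Fin d ⊕ Fin d) F)) = W) ∨
         (U.map (Matrix.toLin' (x : Matrix (Fin d ⊕ Fin d) (Fin d ⊕ Fin d) F)) = W ∧ W.map (Matrix.toLin' (x : Matrix (Fin d ⊕ Fin d) (Fin d ⊕ Fin d) F)) = U)) := by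
  exact result' hq d hd hodd x hx1

end Cfsg.Agent.S5962
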