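import Mathlib
import Cfsg.Statements.S5997
-- import your own Cfsg.Agent.* helpers here

set_option autoImplicit false
open scoped MatrixGroups
open Cfsg

namespace Cfsg.Agent.S5997

open Matrix

set_option linter.unusedSimpArgs false

section mat2
variable {F : Type*} [Field F]

abbrev M2 (F : Type*) := Matrix (Fin 2) (Fin 2) F

theorem ch2 (A : M2 F) : A * A = A.trace • A - A.det • (1 : M2 F) := by
  ext i j
  fin_cases i <;> fin_cases j <;>
    simp [Matrix.mul_apply, Fin.sum_univ_two, Matrix.det_fin_two, Matrix.trace_fin_two] <;> ring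

theorem anticomm_of_trace_zero (A B : M2 F) (hA : A.trace = 0) (hB : B.trace = 0) :
    A * B + B * A = (A * B).trace • (1 : M2 F) := by
  have ha : A 1 1 = - A 0 0 := by
    rw [Matrix.trace_fin_two] at hA; linear_combination hA
  have hb : B 1 1 = - B 0 0 := by
    rw [Matrix.trace_fin_two] at hB; linear_combination hB
  ext i j
  fin_cases i <;> fin_cases j <;>
    simp [Matrix.mul_apply, Fin.sum_univ_two, Matrix.trace_fin_two, ha, hb] <;> ring

theorem det_add_smul (A : M2 F) (a b : F) :
    (a • (1 : M2 F) + b • A).det = a ^ 2 + a * b * A.trace + b ^ 2 * A.det := by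
  simp [Matrix.det_fin_two, Matrix.trace_fin_two]
  ring

/-- a non-scalar matrix has a cyclic vector -/
theorem exists_cyclic (A : M2 F) (hA : ∀ z : F, A ≠ z • (1 : M2 F)) :
    ∃ v : Fin 2 → F, (Matrix.of ![![v 0, (A *ᵥ v) 0], ![v 1, (A *ᵥ v) 1]]).det ≠ 0 := by
  by_cases h1 : A 1 0 = 0
  · by_cases h2 : A 0 1 = 0
    · refine ⟨![1, 1], ?_⟩
      have h3 : A 0 0 ≠ A 1 1 := by
        intro h
        apply hA (A 0 0)
        ext i j
        fin_cases i <;> fin_cases j <;> simp [h1, h2, h]
      simp [Matrix.det_fin_two, Matrix.mulVec, dotProduct, Fin.sum_univ_two, h1, h2]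
      intro h
      apply h3
      linear_combination -h
    · refine ⟨![0, 1], ?_⟩
      simp [Matrix.det_fin_two, Matrix.mulVec, dotProduct, Fin.sum_univ_two]
      exact h2
  · refine ⟨![1, 0], ?_⟩
    simp [Matrix.det_fin_two, Matrix.mulVec, dotProduct, Fin.sum_univ_two]
    exact h1

/-- companion matrix -/
def comp2 (t d : F) : M2 F := Matrix.of ![![0, -d], ![1, t]]

theorem conj_comp (A : M2 F) (hA : ∀ z : F, A ≠ z • (1 : M2 F)) :
    ∃ P : M2 F, P.det ≠ 0 ∧ A * P = P * comp2 A.trace A.det := by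
  obtain ⟨v, hv⟩ := exists_cyclic A hA
  refine ⟨_, hv, ?_⟩
  have hch := ch2 A
  have h00 := congrFun (congrFun hch 0) 0
  have h01 := congrFun (congrFun hch 0) 1
  have h10 := congrFun (congrFun hch 1) 0
  have h11 := congrFun (congrFun hch 1) 1
  simp [Matrix.mul_apply, Fin.sum_univ_two] at h00 h01 h10 h11
  ext i j
  fin_cases i <;> fin_cases j <;>
    simp [Matrix.mul_apply, Fin.sum_univ_two, comp2, Matrix.mulVec, dotProduct]
  all_goals first
    | ring1
    | (linear_combination (v 0) * h00 + (v 1) * h01)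
    | (linear_combination (v 0) * h10 + (v 1) * h11)

variable [Fintype F]

theorem exists_norm_eq (hF : Fintype.card F % 2 = 1) (t c : F) (hD : (4 : F) ≠ t ^ 2) (h2 : (2:F) ≠ 0) :
    ∃ a b : F, a ^ 2 + a * b * t + b ^ 2 = c := by
  classical
  set D : F := 1 - t ^ 2 / 4 with hDdef
  have h4 : (4 : F) ≠ 0 := by
    have : (4 : F) = 2 * 2 := by norm_num
    rw [this]; exact mul_ne_zero h2 h2
  have hD0 : D ≠ 0 := by
    intro h
    apply hD
    rw [hDdef] at h
    field_simp at h
    linear_combination h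
  have hf : (Polynomial.X ^ 2 : Polynomial F).degree = 2 := by simp
  have hg : (Polynomial.C D * Polynomial.X ^ 2 - Polynomial.C c : Polynomial F).degree = 2 := by
    compute_degree!
  obtain ⟨u, v, huv⟩ := FiniteField.exists_root_sum_quadratic hf hg hF
  simp at huv
  refine ⟨u - t / 2 * v, v, ?_⟩
  rw [hDdef] at huv
  field_simp
  field_simp at huv
  linear_combination huv

/-- Two non-scalar matrices of determinant one with the same trace `t`, `t² ≠ 4`, are conjugate in `SL₂`. -/
theorem sl2_conj (hF : Fintype.card F % 2 = 1) (h2 : (2:F) ≠ 0) (A B : M2 F) (hAd : A.det = 1) (hBd : B.det = 1)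
    (ht : A.trace = B.trace) (hD : (4 : F) ≠ A.trace ^ 2)
    (hA : ∀ z : F, A ≠ z • (1 : M2 F)) (hB : ∀ z : F, B ≠ z • (1 : M2 F)) :
    ∃ g : M2 F, g.det = 1 ∧ A * g = g * B := by
  obtain ⟨P, hP, hPA⟩ := conj_comp A hA
  obtain ⟨Q, hQ, hQB⟩ := conj_comp B hB
  rw [← ht, hBd, ← hAd] at hQB
  have hQu : IsUnit Q.det := isUnit_iff_ne_zero.mpr hQ
  have hQinv : Q * Q⁻¹ = 1 := Matrix.mul_nonsing_inv Q hQu
  have hQinv' : Q⁻¹ * Q = 1 := Matrix.nonsing_inv_mul Q hQu
  set g0 : M2 F := P * Q⁻¹ with hg0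
  have hg0d : g0.det ≠ 0 := by
    rw [hg0, Matrix.det_mul]
    refine mul_ne_zero hP ?_
    rw [Matrix.det_nonsing_inv]
    simp [hQ]
  have hg0c : A * g0 = g0 * B := by
    have h1 : Q⁻¹ * B = comp2 A.trace A.det * Q⁻¹ := by
      calc Q⁻¹ * B = Q⁻¹ * (B * Q) * Q⁻¹ := by rw [Matrix.mul_assoc, Matrix.mul_assoc, hQinv, Matrix.mul_one]
        _ = Q⁻¹ * (Q * comp2 A.trace A.det) * Q⁻¹ := by rw [hQB]
        _ = comp2 A.trace A.det * Q⁻¹ := by rw [← Matrix.mul_assoc Q⁻¹, hQinv', Matrix.one_mul]
    calc A * g0 = (A * P) * Q⁻¹ := by rw [hg0, Matrix.mul_assoc]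
      _ = P * comp2 A.trace A.det * Q⁻¹ := by rw [hPA]
      _ = P * (comp2 A.trace A.det * Q⁻¹) := by rw [Matrix.mul_assoc]
      _ = P * (Q⁻¹ * B) := by rw [h1]
      _ = g0 * B := by rw [hg0, Matrix.mul_assoc]
  obtain ⟨a, b, hab⟩ := exists_norm_eq hF A.trace (g0.det)⁻¹ hD h2
  refine ⟨(a • (1 : M2 F) + b • A) * g0, ?_, ?_⟩
  · rw [Matrix.det_mul, det_add_smul, hAd]
    have : a ^ 2 + a * b * A.trace + b ^ 2 * 1 = (g0.det)⁻¹ := by rw [← hab]; ring
    rw [this]
    exact inv_mul_cancel₀ hg0d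
  · have hcomm : A * (a • (1 : M2 F) + b • A) = (a • (1 : M2 F) + b • A) * A := by
      simp [Matrix.mul_add, Matrix.add_mul, Matrix.mul_smul, Matrix.smul_mul]
    calc A * ((a • (1 : M2 F) + b • A) * g0) = (A * (a • (1 : M2 F) + b • A)) * g0 := by rw [Matrix.mul_assoc]
      _ = (a • (1 : M2 F) + b • A) * (A * g0) := by rw [hcomm, Matrix.mul_assoc]
      _ = (a • (1 : M2 F) + b • A) * (g0 * B) := by rw [hg0c]
      _ = _ := (Matrix.mul_assoc _ _ _).symm

end mat2

section q8

open QuaternionGroup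

abbrev Q8 := QuaternionGroup 2

theorem q8_sq (q : Q8) : q * q = 1 ∨ q * q = a 2 := by
  revert q; decide

theorem q8_a2_ne : (a 2 : Q8) ≠ 1 := by decide

/-- an automorphism of `Q8` of prime order at least `5` is trivial. -/
theorem q8_aut_trivial (f : MulAut Q8) (r : ℕ) [hr : Fact r.Prime] (hr5 : 5 ≤ r) (hf : f ^ r = 1) : f = 1 := by
  classical
  have hfa : f (a 2) = a 2 := by
    have h : f (a 2) = f (a 1) * f (a 1) := by
      rw [← map_mul]; rfl
    rcases q8_sq (f (a 1)) with h1 | h1
    · exfalso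
      rw [h1] at h
      have : (a 2 : Q8) = 1 := f.injective (by rw [h, map_one])
      exact q8_a2_ne this
    · rw [h, h1]
  -- the function-level power
  let e : Function.End Q8 := (f : Q8 → Q8)
  have he : e ^ r ^ 1 = 1 := by
    rw [pow_one]
    funext q
    have h1 : ∀ n : ℕ, ∀ q : Q8, (e ^ n) q = (f ^ n) q := by
      intro n
      induction n with
      | zero => intro q; rfl
      | succ n ih =>
        intro q
        rw [pow_succ, pow_succ]
        show (e ^ n) (e q) = (f ^ n) (f q)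
        rw [ih]
    rw [h1, hf]; rfl
  have hmod := Equiv.Perm.card_fixedPoints_modEq he
  -- fixed subgroup
  let S : Subgroup Q8 := MonoidHom.eqLocus (f : Q8 →* Q8) (MonoidHom.id Q8)
  have hS : ∀ q, q ∈ S ↔ f q = q := fun q => Iff.rfl
  have hcardS : Nat.card S = Fintype.card e.fixedPoints := by
    rw [Nat.card_eq_fintype_card]
    apply Fintype.card_congr
    exact Equiv.subtypeEquivRight (fun q => by
      rw [hS]; rfl)
  have hdvd : Nat.card S ∣ 8 := by
    have := Subgroup.card_subgroup_dvd_card S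
    rwa [Nat.card_eq_fintype_card (α := Q8), QuaternionGroup.card] at this
  have hmem1 : (1 : Q8) ∈ S := S.one_mem
  have hmem2 : (a 2 : Q8) ∈ S := (hS _).mpr hfa
  have hne1 : Nat.card S ≠ 1 := by
    intro h
    have := Subgroup.eq_bot_of_card_eq S h
    rw [this, Subgroup.mem_bot] at hmem2
    exact q8_a2_ne hmem2
  have hcard : Fintype.card Q8 = 8 := QuaternionGroup.card
  rw [hcard, ← hcardS] at hmod
  have hS8 : Nat.card S = 8 := by
    have hle : Nat.card S ≤ 8 := Nat.le_of_dvd (by norm_num) hdvd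
    have hS' : Nat.card S = 2 ∨ Nat.card S = 4 ∨ Nat.card S = 8 := by
      have : Nat.card S ∈ Nat.divisors 8 := Nat.mem_divisors.mpr ⟨hdvd, by norm_num⟩
      have h8 : Nat.divisors 8 = {1,2,4,8} := by decide
      rw [h8] at this
      simp only [Finset.mem_insert, Finset.mem_singleton] at this
      omega
    rcases hS' with h | h | h
    · exfalso
      rw [h] at hmod
      have : r ∣ 6 := (Nat.modEq_iff_dvd' (by norm_num)).mp hmod.symm
      have := Nat.le_of_dvd (by norm_num) this
      have h6 : r = 5 ∨ r = 6 := by omega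
      rcases h6 with h6 | h6
      · subst h6; omega
      · subst h6; exact absurd hr.out (by norm_num)
    · exfalso
      rw [h] at hmod
      have : r ∣ 4 := (Nat.modEq_iff_dvd' (by norm_num)).mp hmod.symm
      have := Nat.le_of_dvd (by norm_num) this
      omega
    · exact h
  have htop : S = ⊤ := by
    apply Subgroup.eq_top_of_card_eq
    rw [hS8, Nat.card_eq_fintype_card, hcard]
  ext q
  have : q ∈ S := by rw [htop]; trivial
  simpa using (hS q).mp this

theorem q8_gen (T : Subgroup Q8) (h1 : (a 1 : Q8) ∈ T) (h2 : (xa 0 : Q8) ∈ T) : T = ⊤ := by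
  rw [eq_top_iff]
  have hak : ∀ k : ZMod (2 * 2), (a k : Q8) ∈ T := by
    intro k
    have : (a k : Q8) = (a 1) ^ k.val := by
      rw [QuaternionGroup.a_one_pow, ZMod.natCast_zmod_val]
    rw [this]
    exact T.pow_mem h1 _
  intro q _
  cases q with
  | a k => exact hak k
  | xa k =>
    have : (xa k : Q8) = xa 0 * a k := by
      rw [QuaternionGroup.xa_mul_a, zero_add]
    rw [this]
    exact T.mul_mem h2 (hak k)

end q8

section quat

variable {F : Type*} [Field F]

theorem neg_one_of_comm (h2 : (2 : F) ≠ 0) (C I J : M2 F) (hC : C * C = 1) (hC1 : C ≠ 1)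
    (hIJ : I * J = C * J * I) (hI : I.det ≠ 0) (hJ : J.det ≠ 0) : C = -1 := by
  have hd : C.det = 1 := by
    have := congrArg Matrix.det hIJ
    rw [Matrix.det_mul, Matrix.det_mul, Matrix.det_mul] at this
    have h3 : (C.det - 1) * (I.det * J.det) = 0 := by linear_combination -this
    rcases mul_eq_zero.mp h3 with h | h
    · linear_combination h
    · exact absurd h (mul_ne_zero hI hJ)
  have hch := ch2 C
  rw [hC, hd] at hch
  set t := C.trace with ht
  have h1 : t • C = (2 : F) • (1 : M2 F) := by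
    have : (1 : M2 F) + (1 : F) • (1 : M2 F) = t • C := eq_sub_iff_add_eq.mp hch
    rw [← this, one_smul, two_smul]
  have ht0 : t ≠ 0 := by
    intro h
    rw [h, zero_smul] at h1
    have := congrFun (congrFun h1 0) 0
    simp at this
    exact h2 this.symm
  have h3 : C = (2 / t) • (1 : M2 F) := by
    have : C = t⁻¹ • (t • C) := by rw [smul_smul, inv_mul_cancel₀ ht0, one_smul]
    rw [this, h1, smul_smul]
    congr 1
    field_simp
  set s := 2 / t with hs
  have hs2 : s * s = 1 := by
    have := congrFun (congrFun hC 0) 0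
    rw [h3] at this
    simpa [Matrix.mul_apply, Fin.sum_univ_two] using this
  have : (s - 1) * (s + 1) = 0 := by linear_combination hs2
  rcases mul_eq_zero.mp this with h | h
  · exfalso
    apply hC1
    have : s = 1 := by linear_combination h
    rw [h3, this, one_smul]
  · have : s = -1 := by linear_combination h
    rw [h3, this, neg_smul, one_smul]

theorem trace_zero_of_anti (h2 : (2 : F) ≠ 0) (A B : M2 F) (hA : A * A = -1) (hAB : A * B = -(B * A)) (hB : B.det ≠ 0) :
    A.trace = 0 ∧ A.det = 1 := by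
  have hAd : A.det ≠ 0 := by
    intro h
    have := congrArg Matrix.det hA
    rw [Matrix.det_mul, h] at this
    simp [Matrix.det_fin_two] at this
  have hch := ch2 A
  rw [hA] at hch
  have ht : A.trace = 0 := by
    by_contra ht
    have h1 : A.trace • A = (A.det - 1) • (1 : M2 F) := by
      have : -1 + A.det • (1 : M2 F) = A.trace • A := eq_sub_iff_add_eq.mp hch
      rw [sub_smul, one_smul, ← this]; abel
    have h3 : A = ((A.det - 1) / A.trace) • (1 : M2 F) := by
      have : A = (A.trace)⁻¹ • (A.trace • A) := by rw [smul_smul, inv_mul_cancel₀ ht, one_smul]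
      conv_lhs => rw [this, h1, smul_smul]
      congr 1
      field_simp
    have h4 : A * B = B * A := by
      rw [h3]
      simp [Matrix.smul_mul, Matrix.mul_smul]
    have h5 : (2 : F) • (B * A) = 0 := by
      rw [two_smul]
      nth_rewrite 1 [← h4]
      rw [hAB]; abel
    have h6 : B * A = 0 := by
      rcases smul_eq_zero.mp h5 with h | h
      · exact absurd h h2
      · exact h
    have := congrArg Matrix.det h6
    rw [Matrix.det_mul] at this
    simp [hB, hAd] at this
  refine ⟨ht, ?_⟩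
  rw [ht, zero_smul, zero_sub] at hch
  have h1 : A.det • (1 : M2 F) = 1 := by
    exact (neg_inj.mp hch).symm
  have := congrFun (congrFun h1 0) 0
  simpa using this

structure QT (I J K : M2 F) : Prop where
  ii : I * I = -1
  ij : I * J = K
  ik : I * K = -J
  ji : J * I = -K
  jj : J * J = -1
  jk : J * K = I
  ki : K * I = J
  kj : K * J = -I
  kk : K * K = -1

theorem QT.mk' (I J : M2 F) (hI : I * I = -1) (hJ : J * J = -1) (hIJ : I * J = -(J * I)) : QT I J (I * J) := by
  have hji : J * I = -(I * J) := by rw [hIJ, neg_neg]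
  refine ⟨hI, rfl, ?_, hji, hJ, ?_, ?_, ?_, ?_⟩
  · rw [← Matrix.mul_assoc, hI]; simp
  · rw [← Matrix.mul_assoc, hji]; simp [Matrix.mul_assoc, hJ]
  · rw [Matrix.mul_assoc, hji]; simp [← Matrix.mul_assoc, hI]
  · rw [Matrix.mul_assoc, hJ]; simp
  · rw [Matrix.mul_assoc, ← Matrix.mul_assoc J, hji]
    simp only [Matrix.neg_mul, Matrix.mul_neg, Matrix.mul_assoc, hJ]
    simp [← Matrix.mul_assoc, hI]

/-- the Hurwitz unit -/
noncomputable def hw (I J K : M2 F) : M2 F := (2 : F)⁻¹ • (-1 + I + J + K)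

theorem hw_sq {I J K : M2 F} (h : QT I J K) (h2 : (2 : F) ≠ 0) : hw I J K * hw I J K = - hw I J K - 1 := by
  have hu : (-1 + I + J + K) * (-1 + I + J + K) = (-2 : F) • (1 + I + J + K) := by
    simp only [Matrix.mul_add, Matrix.add_mul, h.ii, h.ij, h.ik, h.ji, h.jj, h.jk, h.ki, h.kj, h.kk,
      Matrix.neg_mul, Matrix.mul_neg, Matrix.one_mul, Matrix.mul_one, neg_neg]
    module
  unfold hw
  rw [smul_mul_smul_comm, hu, smul_smul]
  have he : (2 : F)⁻¹ * (2 : F)⁻¹ * (-2) = -(2 : F)⁻¹ := by field_simp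
  rw [he]
  have h1 : (1 : M2 F) = ((2 : F)⁻¹ * 2) • (1 : M2 F) := by rw [inv_mul_cancel₀ h2, one_smul]
  have h3 : (-(2 : F)⁻¹) • (1 + I + J + K) = - (2 : F)⁻¹ • (-1 + I + J + K) - ((2 : F)⁻¹ * 2) • (1 : M2 F) := by
    module
  rw [h3, inv_mul_cancel₀ h2, one_smul, neg_smul]

theorem hw_i {I J K : M2 F} (h : QT I J K) : hw I J K * I = K * hw I J K := by
  unfold hw
  simp only [Matrix.mul_add, Matrix.add_mul, Matrix.mul_smul, Matrix.smul_mul, h.ii, h.ij, h.ik, h.ji, h.jj, h.jk, h.ki, h.kj, h.kk,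
    Matrix.neg_mul, Matrix.mul_neg, Matrix.one_mul, Matrix.mul_one, neg_neg]
  module

theorem hw_j {I J K : M2 F} (h : QT I J K) : hw I J K * J = I * hw I J K := by
  unfold hw
  simp only [Matrix.mul_add, Matrix.add_mul, Matrix.mul_smul, Matrix.smul_mul, h.ii, h.ij, h.ik, h.ji, h.jj, h.jk, h.ki, h.kj, h.kk,
    Matrix.neg_mul, Matrix.mul_neg, Matrix.one_mul, Matrix.mul_one, neg_neg]
  module

theorem comm_scalar (h2 : (2 : F) ≠ 0) {I J : M2 F} (hI : I * I = -1) (hJ : J * J = -1) (hIJ : I * J = -(J * I))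
    (hIt : I.trace = 0) (hJt : J.trace = 0)
    (M : M2 F) (hMI : M * I = I * M) (hMJ : M * J = J * M) : ∃ c : F, M = c • (1 : M2 F) := by
  set E : M2 F := M - ((2 : F)⁻¹ * M.trace) • (1 : M2 F) with hE
  have hEt : E.trace = 0 := by
    rw [hE, Matrix.trace_sub, Matrix.trace_smul, Matrix.trace_one]
    simp
    field_simp
    ring
  have hEI : E * I = I * E := by
    rw [hE]
    simp [Matrix.sub_mul, Matrix.mul_sub, Matrix.smul_mul, Matrix.mul_smul, hMI]
  have hEJ : E * J = J * E := by
    rw [hE]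
    simp [Matrix.sub_mul, Matrix.mul_sub, Matrix.smul_mul, Matrix.mul_smul, hMJ]
  have key : ∀ X : M2 F, X * X = -1 → X.trace = 0 → E * X = X * E → ∃ l : F, E = l • X := by
    intro X hX hXt hEX
    have h1 := anticomm_of_trace_zero E X hEt hXt
    rw [← hEX, ← two_smul F] at h1
    have h3 : E * X = ((2 : F)⁻¹ * (E * X).trace) • (1 : M2 F) := by
      rw [mul_smul, ← h1, smul_smul, inv_mul_cancel₀ h2, one_smul]
    refine ⟨-((2 : F)⁻¹ * (E * X).trace), ?_⟩
    have h4 : E * X * X = ((2 : F)⁻¹ * (E * X).trace) • X := by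
      nth_rewrite 1 [h3]
      simp [Matrix.smul_mul]
    rw [Matrix.mul_assoc, hX] at h4
    rw [neg_smul, ← h4]
    simp
  obtain ⟨l, hl⟩ := key I hI hIt hEI
  obtain ⟨m, hm⟩ := key J hJ hJt hEJ
  by_cases hl0 : l = 0
  · refine ⟨(2 : F)⁻¹ * M.trace, ?_⟩
    have : E = 0 := by rw [hl, hl0, zero_smul]
    rw [hE, sub_eq_zero] at this
    exact this
  · exfalso
    have hI' : I = (l⁻¹ * m) • J := by
      have : l • I = m • J := by rw [← hl, hm]
      have h3 : I = l⁻¹ • (l • I) := by rw [smul_smul, inv_mul_cancel₀ hl0, one_smul]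
      rw [h3, this, smul_smul]
    have hc : I * J = J * I := by
      rw [hI']
      simp [Matrix.smul_mul, Matrix.mul_smul]
    have h5 : (2 : F) • (J * I) = 0 := by
      rw [two_smul]
      nth_rewrite 1 [← hc]
      rw [hIJ]; abel
    have h6 : J * I = 0 := by
      rcases smul_eq_zero.mp h5 with h | h
      · exact absurd h h2
      · exact h
    have h7 : J * I * I = -J := by rw [Matrix.mul_assoc, hI]; simp
    rw [h6, Matrix.zero_mul] at h7
    have h8 : J = 0 := by
      rw [eq_comm, neg_eq_zero] at h7; exact h7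
    rw [h8] at hJ
    have := congrFun (congrFun hJ 0) 0
    simp at this

end quat

section final

open QuaternionGroup

theorem mem_norm_of_conj {G : Type*} [Group G] [Finite G] (R : Subgroup G) (g : G)
    (h : ∀ x ∈ R, g * x * g⁻¹ ∈ R) : g ∈ Subgroup.normalizer (R : Set G) := by
  rw [Subgroup.mem_normalizer_iff]
  intro x
  refine ⟨h x, fun hx => ?_⟩
  have hk : ∀ k : ℕ, ∀ y ∈ R, g ^ k * y * (g ^ k)⁻¹ ∈ R := by
    intro k
    induction k with
    | zero => intro y hy; simpa using hy
    | succ k ih =>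
      intro y hy
      have := h _ (ih y hy)
      rw [pow_succ']
      simpa [mul_assoc] using this
  have hn : 0 < orderOf g := orderOf_pos g
  have h1 := hk (orderOf g - 1) _ hx
  have h2 : g ^ (orderOf g - 1) * g = 1 := by
    rw [← pow_succ, Nat.sub_add_cancel hn, pow_orderOf_eq_one]
  have h3 : g⁻¹ * (g ^ (orderOf g - 1))⁻¹ = 1 := by
    rw [← _root_.mul_inv_rev, h2, inv_one]
  have h4 : g ^ (orderOf g - 1) * (g * x * g⁻¹) * (g ^ (orderOf g - 1))⁻¹ = x := by
    calc g ^ (orderOf g - 1) * (g * x * g⁻¹) * (g ^ (orderOf g - 1))⁻¹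
        = (g ^ (orderOf g - 1) * g) * x * (g⁻¹ * (g ^ (orderOf g - 1))⁻¹) := by group
      _ = x := by rw [h2, h3, one_mul, mul_one]
  rwa [h4] at h1

variable {F : Type*} [Field F] [Fintype F] {p : ℕ} [Fact p.Prime] [CharP F p]

theorem mem_sl_iff (g : GL (Fin 2) F) :
    g ∈ Cfsg.Geo.specialLinear (Fin 2) F ↔ (g : M2 F).det = 1 := by
  unfold Cfsg.Geo.specialLinear
  rw [MonoidHom.mem_ker, Units.ext_iff]
  simp

theorem result' (hF : Fintype.card F = p) (hp : 5 ≤ p)
    (R : Subgroup (GL (Fin 2) F)) (hR : Nonempty (↥R ≃* QuaternionGroup 2))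
    (r : ℕ) [Fact r.Prime]
    (hΩ : r ∣ (Cfsg.Geo.subgroupNormalizer R).relIndex (Cfsg.Geo.specialLinear (Fin 2) F)) :
    (∀ x ∈ Cfsg.Geo.specialLinear (Fin 2) F, (∃ z : F, ((x ^ r : GL (Fin 2) F) : Matrix (Fin 2) (Fin 2) F) = z • (1 : Matrix (Fin 2) (Fin 2) F)) →
      (∀ z : F, (x : Matrix (Fin 2) (Fin 2) F) ≠ z • (1 : Matrix (Fin 2) (Fin 2) F)) →
      ∃ g ∈ Cfsg.Geo.specialLinear (Fin 2) F, g⁻¹ * x * g ∈ Cfsg.Geo.subgroupNormalizer R) ↔ (r = 2 ∨ r = 3) := by
  classical
  obtain ⟨φ⟩ := hR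
  have hpp : p.Prime := Fact.out
  have h2 : (2 : F) ≠ 0 := by
    intro h
    have : ((2 : ℕ) : F) = 0 := by exact_mod_cast h
    rw [CharP.cast_eq_zero_iff F p] at this
    have := Nat.le_of_dvd (by norm_num) this
    omega
  have h3 : (3 : F) ≠ 0 := by
    intro h
    have : ((3 : ℕ) : F) = 0 := by exact_mod_cast h
    rw [CharP.cast_eq_zero_iff F p] at this
    have := Nat.le_of_dvd (by norm_num) this
    omega
  have hFodd : Fintype.card F % 2 = 1 := by
    rw [hF]
    exact (hpp.eq_two_or_odd).resolve_left (by omega)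
  -- quaternion elements
  set gi : GL (Fin 2) F := (φ.symm (a 1)).1 with hgi
  set gj : GL (Fin 2) F := (φ.symm (xa 0)).1 with hgj
  set gc : GL (Fin 2) F := (φ.symm (a 2)).1 with hgc
  have hgiR : gi ∈ R := (φ.symm (a 1)).2
  have hgjR : gj ∈ R := (φ.symm (xa 0)).2
  have hgcR : gc ∈ R := (φ.symm (a 2)).2
  have hsym : ∀ q q' : QuaternionGroup 2, ((φ.symm (q * q')).1 : GL (Fin 2) F) = (φ.symm q).1 * (φ.symm q').1 := by
    intro q q'
    rw [map_mul]; rfl
  have hii : gi * gi = gc := by
    rw [hgi, hgc, ← hsym]; rfl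
  have hjj : gj * gj = gc := by
    rw [hgj, hgc, ← hsym]; rfl
  have hcc : gc * gc = 1 := by
    rw [hgc, ← hsym]
    have : (a 2 * a 2 : QuaternionGroup 2) = 1 := by decide
    rw [this, map_one]; rfl
  have hc1 : gc ≠ 1 := by
    intro h
    have h' : φ.symm (a 2) = 1 := Subtype.ext h
    have : (a 2 : QuaternionGroup 2) = 1 := φ.symm.injective (by rw [h', map_one])
    exact q8_a2_ne this
  have hij : gi * gj = gc * gj * gi := by
    rw [hgi, hgj, hgc, ← hsym, ← hsym, ← hsym]
    have : (a 1 * xa 0 : QuaternionGroup 2) = a 2 * xa 0 * a 1 := by decide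
    rw [this]
  set I : M2 F := (gi : M2 F) with hI
  set J : M2 F := (gj : M2 F) with hJ
  set C : M2 F := (gc : M2 F) with hC
  have hdetu : ∀ g : GL (Fin 2) F, (g : M2 F).det ≠ 0 := by
    intro g
    exact (Matrix.isUnits_det_units g).ne_zero
  have hCm : C = -1 := by
    apply neg_one_of_comm h2 C I J
    · rw [hC, ← Units.val_mul, hcc]; rfl
    · intro h
      apply hc1
      apply Units.ext
      exact h
    · rw [hI, hJ, hC, ← Units.val_mul, hij]; rfl
    · exact hdetu gi
    · exact hdetu gj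
  have hI2 : I * I = -1 := by
    rw [← hCm, hC, hI, ← Units.val_mul, hii]
  have hJ2 : J * J = -1 := by
    rw [← hCm, hC, hJ, ← Units.val_mul, hjj]
  have hIJ : I * J = -(J * I) := by
    have : I * J = C * J * I := by
      rw [hI, hJ, hC, ← Units.val_mul, hij]; rfl
    rw [this, hCm]; simp
  have hqt := QT.mk' I J hI2 hJ2 hIJ
  have hJI : J * I = -(I * J) := by rw [hIJ, neg_neg]
  obtain ⟨hIt, hId⟩ := trace_zero_of_anti h2 I J hI2 hIJ (hdetu gj)
  obtain ⟨hJt, hJd⟩ := trace_zero_of_anti h2 J I hJ2 hJI (hdetu gi)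
  have hKdet : (I * J).det ≠ 0 := by
    rw [Matrix.det_mul, hId, hJd]; norm_num
  have hKJ : (I * J) * J = -(J * (I * J)) := by rw [hqt.kj, hqt.jk]
  obtain ⟨hKt, hKd⟩ := trace_zero_of_anti h2 (I * J) J hqt.kk hKJ (hdetu gj)
  -- scalar helpers
  have hscal : ∀ (A : M2 F) (t : F), A.trace = t → A.det = 1 → 4 ≠ t ^ 2 → ∀ z : F, A ≠ z • (1 : M2 F) := by
    intro A t ht hd h4 z hz
    rw [hz] at ht hd
    rw [Matrix.trace_smul, Matrix.det_smul] at *
    simp [Matrix.trace_one] at ht hd
    apply h4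
    rw [← ht]
    have h9 : z * z = 1 := by
      rcases hd with h | h <;> rw [h] <;> ring
    linear_combination (-4 : F) * h9
  have h4 : (4 : F) ≠ 0 := by
    have : (4 : F) = 2 * 2 := by norm_num
    rw [this]; exact mul_ne_zero h2 h2
  have h41 : (4 : F) ≠ 1 := by
    intro h
    apply h3
    linear_combination h
  -- the Hurwitz unit
  set W : M2 F := hw I J (I * J) with hW
  have hWsq : W * W = -W - 1 := hw_sq hqt h2
  have hWt : W.trace = -1 := by
    rw [hW]
    unfold hw
    rw [Matrix.trace_smul]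
    simp [Matrix.trace_add, Matrix.trace_neg, hIt, hJt, hKt, Matrix.trace_one]
    field_simp
  have hWd : W.det = 1 := by
    have := ch2 W
    rw [hWsq, hWt] at this
    have h1 : W.det • (1 : M2 F) = 1 := by
      have h5 : W.det • (1 : M2 F) = (-1 : F) • W - (-W - 1) := eq_sub_iff_add_eq'.mpr (by
        rw [this]; abel)
      rw [h5]; simp
    have := congrFun (congrFun h1 0) 0
    simpa using this
  let gw : GL (Fin 2) F := Matrix.GeneralLinearGroup.mkOfDetNeZero W (by rw [hWd]; exact one_ne_zero)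
  have hgw : (gw : M2 F) = W := rfl
  have hgw_i : gw * gi * gw⁻¹ = gi * gj := by
    rw [mul_inv_eq_iff_eq_mul]
    apply Units.ext
    simp only [Units.val_mul]
    rw [hgw, ← hI, ← hJ]
    exact hw_i hqt
  have hgw_j : gw * gj * gw⁻¹ = gi := by
    rw [mul_inv_eq_iff_eq_mul]
    apply Units.ext
    simp only [Units.val_mul]
    rw [hgw, ← hI, ← hJ]
    exact hw_j hqt
  have hgwN : gw ∈ Subgroup.normalizer (R : Set (GL (Fin 2) F)) := by
    apply mem_norm_of_conj
    -- the subgroup of `Q8` of elements whose conjugate lies in `R`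
    let T : Subgroup (QuaternionGroup 2) :=
      { carrier := {q | gw * (φ.symm q).1 * gw⁻¹ ∈ R}
        mul_mem' := by
          intro x y hx hy
          have hx' : gw * (φ.symm x).1 * gw⁻¹ ∈ R := hx
          have hy' : gw * (φ.symm y).1 * gw⁻¹ ∈ R := hy
          show gw * (φ.symm (x * y)).1 * gw⁻¹ ∈ R
          rw [hsym]
          have := R.mul_mem hx' hy'
          convert this using 1
          group
        one_mem' := by
          show gw * (φ.symm 1).1 * gw⁻¹ ∈ R
          rw [map_one]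
          simp
        inv_mem' := by
          intro x hx
          have hx' : gw * (φ.symm x).1 * gw⁻¹ ∈ R := hx
          show gw * (φ.symm x⁻¹).1 * gw⁻¹ ∈ R
          rw [map_inv]
          have := R.inv_mem hx'
          convert this using 1
          simp [mul_assoc] }
    have hT : T = ⊤ := by
      apply q8_gen
      · show gw * (φ.symm (a 1)).1 * gw⁻¹ ∈ R
        rw [← hgi, hgw_i]
        exact R.mul_mem hgiR hgjR
      · show gw * (φ.symm (xa 0)).1 * gw⁻¹ ∈ R
        rw [← hgj, hgw_j]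
        exact hgiR
    intro x hx
    have : φ ⟨x, hx⟩ ∈ T := by rw [hT]; trivial
    have h' : gw * (φ.symm (φ ⟨x, hx⟩)).1 * gw⁻¹ ∈ R := this
    simpa using h'
  have hRN : R ≤ Subgroup.normalizer (R : Set (GL (Fin 2) F)) := Subgroup.le_normalizer
  -- conjugation helper
  have hconj : ∀ (x b : GL (Fin 2) F), (x : M2 F).det = 1 → (b : M2 F).det = 1 →
      (x : M2 F).trace = (b : M2 F).trace → (4 : F) ≠ (x : M2 F).trace ^ 2 →
      (∀ z : F, (x : M2 F) ≠ z • (1 : M2 F)) → (∀ z : F, (b : M2 F) ≠ z • (1 : M2 F)) →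
      ∃ g ∈ Cfsg.Geo.specialLinear (Fin 2) F, g⁻¹ * x * g = b := by
    intro x b hxd hbd ht hD hxs hbs
    obtain ⟨g, hg, hgc⟩ := sl2_conj hFodd h2 (x : M2 F) (b : M2 F) hxd hbd ht hD hxs hbs
    let g' : GL (Fin 2) F := Matrix.GeneralLinearGroup.mkOfDetNeZero g (by rw [hg]; exact one_ne_zero)
    refine ⟨g', (mem_sl_iff g').mpr hg, ?_⟩
    rw [mul_assoc, inv_mul_eq_iff_eq_mul]
    apply Units.ext
    exact hgc
  constructor
  · -- `→`
    intro hall
    by_contra hr23
    push_neg at hr23
    have hrp : r.Prime := Fact.out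
    have hr5 : 5 ≤ r := by
      have := hrp.two_le
      by_contra h
      have h3 : r = 2 ∨ r = 3 ∨ r = 4 := by omega
      rcases h3 with h | h | h
      · exact hr23.1 h
      · exact hr23.2 h
      · subst h; exact absurd hrp (by norm_num)
    have hdvd : r ∣ Nat.card (Cfsg.Geo.specialLinear (Fin 2) F) :=
      hΩ.trans (Subgroup.relIndex_dvd_card _ _)
    obtain ⟨x, hx⟩ := exists_prime_orderOf_dvd_card' r hdvd
    have hxr : (x : GL (Fin 2) F) ^ r = 1 := by
      have : x ^ r = 1 := by rw [← hx]; exact pow_orderOf_eq_one x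
      exact_mod_cast congrArg Subtype.val this
    have hxd : ((x : GL (Fin 2) F) : M2 F).det = 1 := (mem_sl_iff _).mp x.2
    have hns : ∀ z : F, ((x : GL (Fin 2) F) : M2 F) ≠ z • (1 : M2 F) := by
      intro z hz
      rw [hz] at hxd
      rw [Matrix.det_smul] at hxd
      simp only [Fintype.card_fin, Matrix.det_one, mul_one] at hxd
      have hx2 : x ^ 2 = 1 := by
        apply Subtype.ext
        apply Units.ext
        show ((x : GL (Fin 2) F) : M2 F) ^ 2 = 1
        rw [hz, pow_two]
        ext i j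
        have hzz : z * z = 1 := by rw [← pow_two]; exact hxd
        fin_cases i <;> fin_cases j <;> simp [Matrix.mul_apply, Fin.sum_univ_two, hzz]
      have := orderOf_dvd_of_pow_eq_one hx2
      rw [hx] at this
      have := Nat.le_of_dvd (by norm_num) this
      omega
    obtain ⟨g, hg, hgN⟩ := hall x.1 x.2 ⟨1, by rw [hxr]; simp⟩ hns
    set y : GL (Fin 2) F := g⁻¹ * x.1 * g with hy
    have hyr : y ^ r = 1 := by
      have : y = (MulAut.conj g⁻¹) x.1 := by simp [hy, MulAut.conj_apply]
      rw [this, ← map_pow, hxr, map_one]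
    -- the automorphism of `Q8` induced by `y`
    let yN : Subgroup.normalizer (R : Set (GL (Fin 2) F)) := ⟨y, hgN⟩
    have hyN : yN ^ r = 1 := Subtype.ext hyr
    let f : MulAut (QuaternionGroup 2) := MulAut.congr φ (R.normalizerMonoidHom yN)
    have hf : f ^ r = 1 := by
      show (MulAut.congr φ (R.normalizerMonoidHom yN)) ^ r = 1
      rw [← map_pow, ← map_pow, hyN, map_one, map_one]
    have hf1 : f = 1 := q8_aut_trivial f r hr5 hf
    have hcomm : ∀ u ∈ R, y * u * y⁻¹ = u := by
      intro u hu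
      have h1 : f (φ ⟨u, hu⟩) = φ ⟨u, hu⟩ := by rw [hf1]; rfl
      have h2 : f (φ ⟨u, hu⟩) = φ ((R.normalizerMonoidHom yN) ⟨u, hu⟩) := by
        simp [f, MulAut.congr]
      rw [h2] at h1
      have h3 := φ.injective h1
      have h4 := congrArg Subtype.val h3
      exact h4
    have hcommM : ∀ u ∈ R, (y : M2 F) * (u : M2 F) = (u : M2 F) * (y : M2 F) := by
      intro u hu
      have := hcomm u hu
      rw [mul_inv_eq_iff_eq_mul] at this
      rw [← Units.val_mul, this, Units.val_mul]
    obtain ⟨c, hc⟩ := comm_scalar h2 hI2 hJ2 hIJ hIt hJt (y : M2 F) (hcommM gi hgiR) (hcommM gj hgjR)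
    apply hns c
    have hxy : x.1 = g * y * g⁻¹ := by rw [hy]; group
    rw [hxy]
    simp only [Units.val_mul, hc]
    simp [Matrix.mul_smul, Matrix.smul_mul]
  · -- `←`
    rintro (rfl | rfl) x hx ⟨z, hz⟩ hns
    · -- involutions
      have hxd : (x : M2 F).det = 1 := (mem_sl_iff x).mp hx
      have hch := ch2 (x : M2 F)
      rw [hxd, one_smul] at hch
      have hz' : (x : M2 F) * (x : M2 F) = z • (1 : M2 F) := by
        rw [← hz, pow_two, Units.val_mul]
      have ht0 : (x : M2 F).trace = 0 := by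
        by_contra ht
        apply hns (((x : M2 F).trace)⁻¹ * (z + 1))
        have h5 : (x : M2 F).trace • (x : M2 F) = (z + 1) • (1 : M2 F) := by
          rw [add_smul, one_smul, ← hz', hch]; abel
        calc (x : M2 F) = ((x : M2 F).trace)⁻¹ • ((x : M2 F).trace • (x : M2 F)) := by
              rw [smul_smul, inv_mul_cancel₀ ht, one_smul]
          _ = _ := by rw [h5, smul_smul]
      obtain ⟨g, hg, hgc⟩ := hconj x gi hxd hId (by rw [ht0, ← hI, hIt]) (by rw [ht0]; simpa using h4)
        hns (hscal I 0 hIt hId (by simpa using h4))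
      exact ⟨g, hg, by rw [hgc]; exact hRN hgiR⟩
    · -- order three
      have hxd : (x : M2 F).det = 1 := (mem_sl_iff x).mp hx
      have hch := ch2 (x : M2 F)
      rw [hxd, one_smul] at hch
      set t := (x : M2 F).trace with ht
      have hz' : (x : M2 F) * (x : M2 F) * (x : M2 F) = z • (1 : M2 F) := by
        rw [← hz, pow_succ, pow_two, Units.val_mul, Units.val_mul]
      have h6 : (t ^ 2 - 1) • (x : M2 F) = (z + t) • (1 : M2 F) := by
        rw [hch] at hz'
        have h7 : (t • (x : M2 F) - 1) * (x : M2 F) = t • ((x : M2 F) * (x : M2 F)) - (x : M2 F) := by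
          simp [Matrix.sub_mul, Matrix.smul_mul]
        rw [h7, hch] at hz'
        rw [add_smul, ← hz']
        simp only [smul_sub, smul_smul, sub_smul, one_smul]
        rw [pow_two]
        abel
      have ht2 : t ^ 2 = 1 := by
        by_contra h
        have h8 : t ^ 2 - 1 ≠ 0 := sub_ne_zero.mpr h
        apply hns ((t ^ 2 - 1)⁻¹ * (z + t))
        have : (x : M2 F) = (t ^ 2 - 1)⁻¹ • ((t ^ 2 - 1) • (x : M2 F)) := by
          rw [smul_smul, inv_mul_cancel₀ h8, one_smul]
        rw [this, h6, smul_smul]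
      have ht3 : t = -1 ∨ t = 1 := by
        have : (t + 1) * (t - 1) = 0 := by linear_combination ht2
        rcases mul_eq_zero.mp this with h | h
        · left; linear_combination h
        · right; linear_combination h
      rcases ht3 with htm | htp
      · obtain ⟨g, hg, hgc⟩ := hconj x gw hxd hWd (by rw [← ht, htm, hgw, hWt])
          (by rw [← ht, ht2]; exact h41) hns (hscal W (-1) hWt hWd (by norm_num; exact h41))
        exact ⟨g, hg, by rw [hgc]; exact hgwN⟩
      · let gn : GL (Fin 2) F := gc * gw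
        have hgn : (gn : M2 F) = -W := by
          show ((gc : M2 F)) * (gw : M2 F) = -W
          rw [← hC, hCm, hgw]; simp
        have hgnN : gn ∈ Subgroup.normalizer (R : Set (GL (Fin 2) F)) :=
          Subgroup.mul_mem _ (hRN hgcR) hgwN
        have hnd : (gn : M2 F).det = 1 := by
          rw [hgn]
          simp [Matrix.det_neg, hWd]
        have hnt : (gn : M2 F).trace = 1 := by
          rw [hgn, Matrix.trace_neg, hWt, neg_neg]
        obtain ⟨g, hg, hgc⟩ := hconj x gn hxd hnd (by rw [← ht, htp, hnt])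
          (by rw [← ht, ht2]; exact h41) hns (hscal _ 1 hnt hnd (by norm_num; exact h41))
        exact ⟨g, hg, by rw [hgc]; exact hgnN⟩

end final



/-- Elements of prime order of PSL_2(p) and the normalizer of a quaternion subgroup. Here `T = PSL_2(F)` for the field `F` with `p` elements, `p ≥ 5` prime; `R` is a subgroup of GL_2(F) isomorphic to the quaternion group of order 8 (an absolutely irreducible 2-group of symplectic type), and `H` is the subgroup of matrices of determinant 1 normalizing `R` — a subgroup of type 2^{1+2}.O₂⁻(2), isomorphic modulo scalars to A₄ or S₄ (maximality is not assumed). Ω is the set of cosets of `H` in `T`, so an element of `T` of prime order `r` (a matrix `x` of determinant 1 with `x^r` scalar, `x` not scalar) fixes a point of Ω exactly when some conjugate of `x` by a matrix of determinant 1 normalizes `R`. Let `r` be a prime dividing the index of `H`. Then every element of `T` of order `r` fixes a point of Ω if and only if `r = 2` or `r = 3`. -/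
theorem result {F : Type*} [Field F] [Fintype F] {p : ℕ} [Fact p.Prime] [CharP F p] (hF : Fintype.card F = p) (hp : 5 ≤ p)
    (R : Subgroup (GL (Fin 2) F)) (hR : Nonempty (↥R ≃* QuaternionGroup 2))
    (r : ℕ) [Fact r.Prime]
    (hΩ : r ∣ (Cfsg.Geo.subgroupNormalizer R).relIndex (Cfsg.Geo.specialLinear (Fin 2) F)) :
    (∀ x ∈ Cfsg.Geo.specialLinear (Fin 2) F, (∃ z : F, ((x ^ r : GL (Fin 2) F) : Matrix (Fin 2) (Fin 2) F) = z • (1 : Matrix (Fin 2) (Fin 2) F)) →
      (∀ z : F, (x : Matrix (Fin 2) (Fin 2) F) ≠ z • (1 : Matrix (Fin 2) (Fin 2) F)) →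
      ∃ g ∈ Cfsg.Geo.specialLinear (Fin 2) F, g⁻¹ * x * g ∈ Cfsg.Geo.subgroupNormalizer R) ↔ (r = 2 ∨ r = 3) := by
  exact result' hF hp R hR r hΩ

end Cfsg.Agent.S5997
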