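import Mathlib
import Cfsg.Agent.S5997
import Cfsg.Agent.Lib.SqScalar
import Cfsg.Agent.Lib.MatConj
import Cfsg.Agent.Lib.EigenSq
import Cfsg.Agent.Lib.FieldSub
import Cfsg.Statements.S5969
-- import your own Cfsg.Agent.* helpers here

set_option autoImplicit false
open scoped MatrixGroups
open Cfsg

namespace Cfsg.Agent.S5969

open Matrix Polynomial Module Cfsg.Geo
open Cfsg.Agent.Lib.SqScalar Cfsg.Agent.Lib.MatConj Cfsg.Agent.Lib.EigenSq Cfsg.Agent.Lib.FieldSub

set_option linter.unusedSimpArgs false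
set_option linter.unusedVariables false

variable {F : Type*} [Field F] {n : ℕ} {K : Subalgebra F (Matrix (Fin n) (Fin n) F)}

local notation "Mt" => Matrix (Fin n) (Fin n) F

theorem conj_mem {ω : Mt} (hgen : ∀ k ∈ K, ∃ α β : F, k = α • (1 : Mt) + β • ω)
    (g h : Mt) (hgh : g * h = 1) (h1 : g * ω * h ∈ K) {k : Mt} (hk : k ∈ K) : g * k * h ∈ K := by
  obtain ⟨α, β, rfl⟩ := hgen k hk
  have : g * (α • 1 + β • ω) * h = α • 1 + β • (g * ω * h) := by
    rw [Matrix.mul_add, Matrix.add_mul, Matrix.mul_smul, Matrix.smul_mul, Matrix.mul_one, hgh,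
      Matrix.mul_smul, Matrix.smul_mul]
  rw [this]
  exact K.add_mem (scalar_mem α) (K.smul_mem h1 β)

theorem mem_norm_of {ω : Mt} (hgen : ∀ k ∈ K, ∃ α β : F, k = α • (1 : Mt) + β • ω) (g : GL (Fin n) F)
    (h1 : (g : Mt) * ω * ((g⁻¹ : GL (Fin n) F) : Mt) ∈ K) (h2 : ((g⁻¹ : GL (Fin n) F) : Mt) * ω * (g : Mt) ∈ K) :
    g ∈ subalgebraNormalizer K := by
  intro k
  constructor
  · exact fun hk => conj_mem hgen _ _ (Units.mul_inv g) h1 hk
  · intro hk
    have := conj_mem hgen _ _ (Units.inv_mul g) h2 hk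
    have e : ((g⁻¹ : GL (Fin n) F) : Mt) * ((g : Mt) * k * ((g⁻¹ : GL (Fin n) F) : Mt)) * (g : Mt) = k := by
      calc _ = (((g⁻¹ : GL (Fin n) F) : Mt) * (g : Mt)) * k * (((g⁻¹ : GL (Fin n) F) : Mt) * (g : Mt)) := by
              simp only [Matrix.mul_assoc]
        _ = k := by rw [Units.inv_mul, Matrix.one_mul, Matrix.mul_one]
    rwa [e] at this

theorem mem_norm_comm {ω : Mt} (hωK : ω ∈ K) (hgen : ∀ k ∈ K, ∃ α β : F, k = α • (1 : Mt) + β • ω) (g : GL (Fin n) F)
    (hc : (g : Mt) * ω = ω * g) : g ∈ subalgebraNormalizer K := by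
  apply mem_norm_of hgen
  · rw [hc, Matrix.mul_assoc, Units.mul_inv, Matrix.mul_one]; exact hωK
  · have : ((g⁻¹ : GL (Fin n) F) : Mt) * ω * (g : Mt) = ω := by
      rw [Matrix.mul_assoc, ← hc, ← Matrix.mul_assoc, Units.inv_mul, Matrix.one_mul]
    rw [this]; exact hωK

theorem mem_norm_anti {ω : Mt} (hωK : ω ∈ K) (hgen : ∀ k ∈ K, ∃ α β : F, k = α • (1 : Mt) + β • ω) (g : GL (Fin n) F)
    (a : F) (hc : (g : Mt) * ω = (a • 1 - ω) * g) : g ∈ subalgebraNormalizer K := by
  have hm : a • (1 : Mt) - ω ∈ K := K.sub_mem (scalar_mem a) hωK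
  apply mem_norm_of hgen
  · rw [hc, Matrix.mul_assoc, Units.mul_inv, Matrix.mul_one]; exact hm
  · have : ((g⁻¹ : GL (Fin n) F) : Mt) * ω * (g : Mt) = a • 1 - ω := by
      have h1 : ω * (g : Mt) = (g : Mt) * (a • 1 - ω) := by
        rw [Matrix.mul_sub, hc, Matrix.mul_smul, Matrix.mul_one, Matrix.sub_mul, Matrix.smul_mul, Matrix.one_mul]
        abel
      rw [Matrix.mul_assoc, h1, ← Matrix.mul_assoc, Units.inv_mul, Matrix.one_mul]
    rw [this]; exact hm

/-- the quadratic relation of a generator -/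
theorem quad_no_root (hK : IsFieldSubalgebra 2 K) {ω : Mt} (hωK : ω ∈ K) (hns : ∀ s : F, ω ≠ s • (1 : Mt))
    {a b : F} (hab : ω * ω = a • ω + b • (1 : Mt)) : ∀ s : F, s * s - a * s - b ≠ 0 := by
  intro s hs
  have h1 : (ω - s • 1) * (ω - (a - s) • 1) = 0 := by
    have : (ω - s • (1 : Mt)) * (ω - (a - s) • 1) = ω * ω - a • ω + (s * (a - s)) • 1 := by
      simp only [Matrix.mul_sub, Matrix.sub_mul, Matrix.mul_smul, Matrix.smul_mul, Matrix.mul_one, Matrix.one_mul]
      module
    rw [this, hab]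
    have h0 : b + s * (a - s) = 0 := by linear_combination -hs
    have : a • ω + b • (1 : Mt) - a • ω + (s * (a - s)) • 1 = (b + s * (a - s)) • 1 := by module
    rw [this, h0, zero_smul]
  have h2 := K_no_zero hK (K.sub_mem hωK (scalar_mem s)) (fun h => hns s (sub_eq_zero.mp h)) h1
  exact hns _ (sub_eq_zero.mp h2)

theorem exists_quad (hK : IsFieldSubalgebra 2 K) {ω : Mt} (hωK : ω ∈ K) (hns : ∀ s : F, ω ≠ s • (1 : Mt))
    (hgen : ∀ k ∈ K, ∃ α β : F, k = α • (1 : Mt) + β • ω) :
    ∃ a b : F, ω * ω = a • ω + b • (1 : Mt) ∧ ∀ s : F, s * s - a * s - b ≠ 0 := by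
  obtain ⟨b, a, hab⟩ := hgen (ω * ω) (K.mul_mem hωK hωK)
  have h : ω * ω = a • ω + b • (1 : Mt) := by rw [hab, add_comm]
  exact ⟨a, b, h, quad_no_root hK hωK hns h⟩

/-- the minimal polynomial -/
noncomputable def quadPoly (a b : F) : F[X] := X ^ 2 - C a * X - C b

theorem quadPoly_monic (a b : F) : (quadPoly a b).Monic := by
  unfold quadPoly
  have : (X ^ 2 - C a * X - C b : F[X]) = X ^ 2 + (-(C a * X) - C b) := by ring
  rw [this]
  apply Polynomial.monic_X_pow_add
  have h1 : (-(C a * X) - C b : F[X]).degree ≤ 1 := by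
    have : (-(C a * X) - C b : F[X]) = C (-a) * X + C (-b) := by simp; ring
    rw [this]
    exact Polynomial.degree_linear_le
  exact lt_of_le_of_lt h1 (by norm_num)

theorem quadPoly_natDegree (a b : F) : (quadPoly a b).natDegree = 2 := by
  unfold quadPoly
  compute_degree!

theorem quadPoly_irred (a b : F) (h : ∀ s : F, s * s - a * s - b ≠ 0) : Irreducible (quadPoly a b) := by
  rw [Polynomial.Monic.irreducible_iff_roots_eq_zero_of_degree_le_three (quadPoly_monic a b)
    (by rw [quadPoly_natDegree]) (by rw [quadPoly_natDegree]; norm_num)]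
  rw [Multiset.eq_zero_iff_forall_notMem]
  intro s hs
  have h0 := (Polynomial.mem_roots'.mp hs).2
  apply h s
  have : (quadPoly a b).eval s = s * s - a * s - b := by
    simp [quadPoly]; ring
  rw [← this]
  exact h0

theorem aeval_quadPoly {A : Type*} [Ring A] [Algebra F A] (a b : F) (T : A) :
    aeval T (quadPoly a b) = T * T - a • T - b • 1 := by
  simp [quadPoly, Algebra.smul_def, sq]

/-- An `ω`-invariant subspace has even dimension. -/
theorem two_dvd_of_inv {ω : Mt} {a b : F} (h2 : ω * ω = a • ω + b • (1 : Mt)) (hno : ∀ s : F, s * s - a * s - b ≠ 0)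
    (E : Submodule F (Fin n → F)) (hE : ∀ v ∈ E, ω *ᵥ v ∈ E) : 2 ∣ finrank F E := by
  have hR : ∀ v ∈ E, Matrix.toLin' ω v ∈ E := fun v hv => by simpa using hE v hv
  let R : Module.End F E := (Matrix.toLin' ω).restrict hR
  have hR0 : aeval R (quadPoly a b) = 0 := by
    refine (aeval_quadPoly a b R).trans ?_
    ext v i
    have hv : R (R v) = a • R v + b • v := by
      apply Subtype.ext
      show ω *ᵥ (ω *ᵥ (v : Fin n → F)) = a • (ω *ᵥ (v : Fin n → F)) + b • (v : Fin n → F)
      rw [Matrix.mulVec_mulVec, h2, Matrix.add_mulVec, Matrix.smul_mulVec, Matrix.smul_mulVec, Matrix.one_mulVec]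
    have : (R * R - a • R - b • 1) v = 0 := by
      simp only [LinearMap.sub_apply, Module.End.mul_apply, LinearMap.smul_apply, Module.End.one_apply, hv]
      abel
    rw [this]
    rfl
  have := Cfsg.Agent.Lib.PolyBasis.natDegree_dvd_finrank R (quadPoly a b) (quadPoly_irred a b hno) hR0
  rwa [quadPoly_natDegree] at this

/-- A normalizing element has no big eigenspace unless it is scalar. -/
theorem eigen_small (hK : IsFieldSubalgebra 2 K) {ω : Mt} (hωK : ω ∈ K) (hns : ∀ s : F, ω ≠ s • (1 : Mt))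
    {a b : F} (h2 : ω * ω = a • ω + b • (1 : Mt)) (hno : ∀ s : F, s * s - a * s - b ≠ 0)
    (hn : 3 ≤ n) (h2n : 2 ∣ n) (y : GL (Fin n) F) (hy : y ∈ subalgebraNormalizer K) (c : F) (hc : c ≠ 0)
    (hr : ((y : Mt) - c • 1).rank ≤ 1) : (y : Mt) = c • 1 := by
  classical
  set E : Submodule F (Fin n → F) := LinearMap.ker ((y : Mt) - c • 1).mulVecLin with hE
  have hmem : ∀ v, v ∈ E ↔ (y : Mt) *ᵥ v = c • v := by
    intro v
    rw [hE, LinearMap.mem_ker, Matrix.mulVecLin_apply, Matrix.sub_mulVec, Matrix.smul_mulVec, Matrix.one_mulVec,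
      sub_eq_zero]
  have hdim : finrank F (LinearMap.range ((y : Mt) - c • 1).mulVecLin) + finrank F E = n := by
    have := LinearMap.finrank_range_add_finrank_ker ((y : Mt) - c • 1).mulVecLin
    simpa using this
  have hrank : finrank F (LinearMap.range ((y : Mt) - c • 1).mulVecLin) ≤ 1 := hr
  have hEn : finrank F E = n := by
    by_cases hw : (y : Mt) * ω = ω * y
    · have := two_dvd_of_inv h2 hno E (by
        intro v hv
        rw [hmem] at hv ⊢
        rw [Matrix.mulVec_mulVec, hw, ← Matrix.mulVec_mulVec, hv, Matrix.mulVec_smul])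
      omega
    · exfalso
      have hω0 : ω ≠ 0 := by
        intro h
        apply hns 0
        rw [h, zero_smul]
      obtain ⟨ω', hω'K, h1, h1'⟩ := inv_mem_K hK hωK hω0
      set w : Mt := (y : Mt) * ω * ((y⁻¹ : GL (Fin n) F) : Mt) with hwdef
      have hwK : w ∈ K := (hy ω).mp hωK
      have hwy : w * y = y * ω := by
        rw [hwdef, Matrix.mul_assoc, Units.inv_mul, Matrix.mul_one]
      have hne : w - ω ≠ 0 := by
        intro h
        apply hw
        rw [← hwy, sub_eq_zero.mp h]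
      obtain ⟨d, -, h3, h3'⟩ := inv_mem_K hK (K.sub_mem hwK hωK) hne
      let W : Submodule F (Fin n → F) := E.map (Matrix.toLin' ω')
      have hinj : Function.Injective (Matrix.toLin' ω') := by
        intro u v huv
        have : ω *ᵥ (ω' *ᵥ u) = ω *ᵥ (ω' *ᵥ v) := by
          simp only [Matrix.toLin'_apply] at huv
          rw [huv]
        simpa [Matrix.mulVec_mulVec, h1] using this
      have hWdim : finrank F W = finrank F E :=
        (LinearEquiv.finrank_eq (Submodule.equivMapOfInjective _ hinj E)).symm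
      have hdisj : Disjoint E W := by
        rw [Submodule.disjoint_def]
        intro v hvE hvW
        obtain ⟨u, huE, rfl⟩ := hvW
        replace huE : u ∈ E := huE
        rw [Matrix.toLin'_apply] at hvE ⊢
        rw [hmem] at hvE huE
        have hu : ω *ᵥ (ω' *ᵥ u) = u := by rw [Matrix.mulVec_mulVec, h1, Matrix.one_mulVec]
        set v := ω' *ᵥ u with hv
        have e1 : c • (w *ᵥ v) = c • (ω *ᵥ v) := by
          rw [← Matrix.mulVec_smul, ← hvE, Matrix.mulVec_mulVec, hwy, ← Matrix.mulVec_mulVec, hu, huE, ← hu]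
        have e2 : w *ᵥ v = ω *ᵥ v := smul_right_injective _ hc e1
        have e3 : (w - ω) *ᵥ v = 0 := by rw [Matrix.sub_mulVec, e2, sub_self]
        have e4 : d *ᵥ ((w - ω) *ᵥ v) = v := by rw [Matrix.mulVec_mulVec, h3', Matrix.one_mulVec]
        rw [← e4, e3, Matrix.mulVec_zero]
      have := Submodule.finrank_add_finrank_le_of_disjoint hdisj
      simp only [finrank_fintype_fun_eq_card, Fintype.card_fin] at this
      omega
  have htop : E = ⊤ := Submodule.eq_top_of_finrank_eq (by simpa using hEn)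
  have : ∀ v, (y : Mt) *ᵥ v = (c • (1 : Mt)) *ᵥ v := by
    intro v
    have : v ∈ E := by rw [htop]; trivial
    rw [hmem] at this
    rw [this, Matrix.smul_mulVec, Matrix.one_mulVec]
  exact Matrix.ext_of_mulVec_single fun i => this _

theorem forward_aux (hK : IsFieldSubalgebra 2 K) {ω : Mt} (hωK : ω ∈ K) (hns : ∀ s : F, ω ≠ s • (1 : Mt))
    {a b : F} (h2 : ω * ω = a • ω + b • (1 : Mt)) (hno : ∀ s : F, s * s - a * s - b ≠ 0)
    (hn : 3 ≤ n) (h2n : 2 ∣ n)
    (hall : ∀ x : Matrix.SpecialLinearGroup (Fin n) F,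
      (∃ z : F, ((x ^ 2 : Matrix.SpecialLinearGroup (Fin n) F) : Matrix (Fin n) (Fin n) F) = z • (1 : Matrix (Fin n) (Fin n) F)) →
      (∀ z : F, (x : Matrix (Fin n) (Fin n) F) ≠ z • (1 : Matrix (Fin n) (Fin n) F)) →
      ∃ P : Matrix.SpecialLinearGroup (Fin n) F, P⁻¹ * x * P ∈ ((Cfsg.Geo.subalgebraNormalizer K).comap (Matrix.SpecialLinearGroup.toGL : Matrix.SpecialLinearGroup (Fin n) F →* GL (Fin n) F)))
    (c : F) (hc : c ≠ 0) (hcn : c ^ n = -1) (u v : Fin n → F) (h2c : 2 * c + v ⬝ᵥ u = 0)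
    (hvu : ∀ s : F, c • (1 : Mt) + vecMulVec u v ≠ s • 1) : False := by
  classical
  set X : Mt := c • (1 : Mt) + vecMulVec u v with hX
  have hdet : X.det = 1 := by
    have e : X = c • (1 + (replicateCol Unit (c⁻¹ • u) * replicateRow Unit v)) := by
      rw [← Matrix.vecMulVec_eq, hX, smul_add]
      congr 1
      ext i j
      simp [Matrix.vecMulVec_apply, Matrix.smul_apply]
      field_simp
    rw [e, Matrix.det_smul, Matrix.det_one_add_replicateCol_mul_replicateRow]
    simp only [Fintype.card_fin, hcn, dotProduct_smul, smul_eq_mul]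
    have : c⁻¹ * (v ⬝ᵥ u) = -2 := by
      have : v ⬝ᵥ u = -(2 * c) := by linear_combination h2c
      rw [this]
      field_simp
    rw [this]
    ring
  have hsq : X * X = (c * c) • (1 : Mt) := by
    have hMM : vecMulVec u v * vecMulVec u v = (v ⬝ᵥ u) • vecMulVec u v := by
      rw [Matrix.vecMulVec_mul_vecMulVec]
      ext i j
      simp [Matrix.vecMulVec_apply]
      ring
    have : X * X = (c * c) • (1 : Mt) + (2 * c + v ⬝ᵥ u) • vecMulVec u v := by
      rw [hX]
      simp only [Matrix.mul_add, Matrix.add_mul, Matrix.mul_smul, Matrix.smul_mul, Matrix.mul_one, Matrix.one_mul, hMM]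
      module
    rw [this, h2c, zero_smul, add_zero]
  let x : Matrix.SpecialLinearGroup (Fin n) F := ⟨X, hdet⟩
  obtain ⟨P, hP⟩ := hall x ⟨c * c, by
    rw [pow_two, Matrix.SpecialLinearGroup.coe_mul]
    exact hsq⟩ (fun z hz => hvu z hz)
  have hy := hP
  rw [Subgroup.mem_comap] at hy
  set Q : Mt := ((P⁻¹ : Matrix.SpecialLinearGroup (Fin n) F) : Mt) with hQ
  set R : Mt := (P : Mt) with hR
  have hQR : Q * R = 1 := by
    have : ((P⁻¹ * P : Matrix.SpecialLinearGroup (Fin n) F) : Mt) = 1 := by rw [inv_mul_cancel]; rfl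
    rwa [Matrix.SpecialLinearGroup.coe_mul] at this
  have hRQ : R * Q = 1 := by
    have : ((P * P⁻¹ : Matrix.SpecialLinearGroup (Fin n) F) : Mt) = 1 := by rw [mul_inv_cancel]; rfl
    rwa [Matrix.SpecialLinearGroup.coe_mul] at this
  have hval : ((Matrix.SpecialLinearGroup.toGL (P⁻¹ * x * P) : GL (Fin n) F) : Mt) = Q * X * R := rfl
  have hsub : Q * X * R - c • (1 : Mt) = Q * vecMulVec u v * R := by
    rw [hX, Matrix.mul_add, Matrix.add_mul, Matrix.mul_smul, Matrix.smul_mul, Matrix.mul_one, hQR]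
    abel
  have hrank : (Q * X * R - c • (1 : Mt)).rank ≤ 1 := by
    rw [hsub]
    exact (Matrix.rank_mul_le_left _ _).trans ((Matrix.rank_mul_le_right _ _).trans (Matrix.rank_vecMulVec_le u v))
  have := eigen_small hK hωK hns h2 hno hn h2n _ hy c hc (by rw [hval]; exact hrank)
  rw [hval] at this
  apply hvu c
  calc X = R * (Q * X * R) * Q := by
          calc X = (R * Q) * X * (R * Q) := by rw [hRQ, Matrix.one_mul, Matrix.mul_one]
            _ = _ := by simp only [Matrix.mul_assoc]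
    _ = c • 1 := by rw [this, Matrix.mul_smul, Matrix.mul_one, Matrix.smul_mul, hRQ]

/-- Reduction to conjugation in `GL`. -/
theorem reduce_GL (x : Matrix.SpecialLinearGroup (Fin n) F) (z : F)
    (hz : ((x ^ 2 : Matrix.SpecialLinearGroup (Fin n) F) : Mt) = z • (1 : Mt))
    (hx : ∀ z : F, (x : Mt) ≠ z • (1 : Mt))
    (h : ∃ P : GL (Fin n) F, P⁻¹ * (Matrix.SpecialLinearGroup.toGL x) * P ∈ subalgebraNormalizer K) [Fintype F] :
    ∃ P : Matrix.SpecialLinearGroup (Fin n) F, P⁻¹ * x * P ∈ ((Cfsg.Geo.subalgebraNormalizer K).comap (Matrix.SpecialLinearGroup.toGL : Matrix.SpecialLinearGroup (Fin n) F →* GL (Fin n) F)) := by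
  obtain ⟨P, hP⟩ := h
  obtain ⟨P', hdet, he⟩ := exists_conj_fix (Matrix.SpecialLinearGroup.toGL x) P z (by
    rw [Matrix.SpecialLinearGroup.coe_GL_coe_matrix]
    rw [pow_two, Matrix.SpecialLinearGroup.coe_mul] at hz
    exact hz) (fun c hc => hx c hc)
  let P₁ : Matrix.SpecialLinearGroup (Fin n) F := ⟨P', hdet⟩
  have hP₁ : Matrix.SpecialLinearGroup.toGL P₁ = P' := Units.ext rfl
  refine ⟨P₁, ?_⟩
  rw [Subgroup.mem_comap, map_mul, map_mul, map_inv, hP₁, he]
  exact hP

section two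

open Cfsg.Agent.S5997

theorem exists_norm_neg_one [Fintype F] (a d : F) (hno : ∀ s : F, s * s - a * s + d ≠ 0) :
    ∃ α β : F, α * α + a * α * β + d * (β * β) = -1 := by
  by_cases h2 : (2 : F) = 0
  · refine ⟨1, 0, ?_⟩
    have : (-1 : F) = 1 := by linear_combination -h2
    rw [this]
    ring
  · obtain ⟨t, rfl⟩ : ∃ t : F, a = 2 * t := ⟨a / 2, by field_simp⟩
    have h4 : (t * t - d) ≠ 0 := by
      intro h
      apply hno t
      linear_combination -h
    obtain ⟨α, β, h⟩ := Cfsg.Agent.Lib.SqScalar.exists_norm_eq (t * t - d) (-1) h4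
    refine ⟨α - t * β, β, ?_⟩
    linear_combination h

theorem two_or_ne [Fintype F] (a d : F) (hno : ∀ s : F, s * s - a * s + d ≠ 0) (h2 : (2 : F) = 0) : a ≠ 0 := by
  classical
  rintro rfl
  haveI : CharP F 2 := CharTwo.of_one_ne_zero_of_two_eq_zero one_ne_zero h2
  have hc : ringChar F = 2 := ringChar.eq F 2
  obtain ⟨s, hs⟩ : IsSquare d := by
    apply FiniteField.isSquare_of_char_two
    rw [hc]
  apply hno s
  rw [hs]
  linear_combination s * s * h2

theorem exists_good_two [Fintype F] (K : Subalgebra F (Matrix (Fin 2) (Fin 2) F)) (hK : IsFieldSubalgebra 2 K) :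
    ∃ Y : GL (Fin 2) F, Y ∈ subalgebraNormalizer K ∧ (Y : Matrix (Fin 2) (Fin 2) F).det = 1 ∧
      (Y : Matrix (Fin 2) (Fin 2) F).trace = 0 ∧ ∀ s : F, (Y : Matrix (Fin 2) (Fin 2) F) ≠ s • 1 := by
  classical
  obtain ⟨ω, hωK, hns, hgen⟩ := exists_gen hK
  set a := ω.trace with ha
  set d := ω.det with hd
  have hω2 : ω * ω = a • ω + (-d) • (1 : M2 F) := by
    rw [ch2 ω]; module
  have hno : ∀ s : F, s * s - a * s + d ≠ 0 := by
    intro s hs
    apply quad_no_root hK hωK hns hω2 s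
    linear_combination hs
  obtain ⟨P₁, hP₁, hP₁c⟩ := conj_comp ω hns
  set C := comp2 a d with hC
  set P₁' := P₁⁻¹ with hP₁'
  have hu : IsUnit P₁.det := hP₁.isUnit
  have h11 : P₁ * P₁' = 1 := Matrix.mul_nonsing_inv _ hu
  have h12 : P₁' * P₁ = 1 := Matrix.nonsing_inv_mul _ hu
  let S : M2 F := !![1, a; 0, -1]
  have hSS : S * S = 1 := by
    ext i j
    fin_cases i <;> fin_cases j <;> simp [S, Matrix.mul_apply, Fin.sum_univ_two]
  have hSC : S * C = (a • (1 : M2 F) - C) * S := by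
    ext i j
    fin_cases i <;> fin_cases j <;> simp [S, hC, comp2, Matrix.mul_apply, Fin.sum_univ_two] <;> ring
  set y₀ := P₁ * S * P₁' with hy₀
  have hy₀2 : y₀ * y₀ = 1 := by
    calc y₀ * y₀ = P₁ * S * (P₁' * P₁) * S * P₁' := by simp only [hy₀, Matrix.mul_assoc]
      _ = P₁ * (S * S) * P₁' := by rw [h12, Matrix.mul_one]; simp only [Matrix.mul_assoc]
      _ = 1 := by rw [hSS, Matrix.mul_one, h11]
  have h1ω : P₁' * ω = C * P₁' := by
    calc P₁' * ω = P₁' * ω * (P₁ * P₁') := by rw [h11, Matrix.mul_one]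
      _ = P₁' * (ω * P₁) * P₁' := by simp only [Matrix.mul_assoc]
      _ = C * P₁' := by rw [hP₁c, ← Matrix.mul_assoc, h12, Matrix.one_mul]
  have haP : (a • (1 : M2 F) - ω) * P₁ = P₁ * (a • (1 : M2 F) - C) := by
    rw [Matrix.sub_mul, Matrix.mul_sub, hP₁c, Matrix.smul_mul, Matrix.mul_smul, Matrix.one_mul, Matrix.mul_one]
  have hy₀ω : y₀ * ω = (a • (1 : M2 F) - ω) * y₀ := by
    calc y₀ * ω = P₁ * S * (P₁' * ω) := by simp only [hy₀, Matrix.mul_assoc]
      _ = P₁ * (S * C) * P₁' := by rw [h1ω]; simp only [Matrix.mul_assoc]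
      _ = P₁ * (a • (1 : M2 F) - C) * S * P₁' := by rw [hSC]; simp only [Matrix.mul_assoc]
      _ = ((a • (1 : M2 F) - ω) * P₁) * S * P₁' := by rw [haP]
      _ = _ := by simp only [hy₀, Matrix.mul_assoc]
  have hdety₀ : y₀.det = -1 := by
    rw [hy₀, Matrix.det_mul, Matrix.det_mul, mul_comm, ← mul_assoc, ← Matrix.det_mul, h12, Matrix.det_one, one_mul]
    simp [S, Matrix.det_fin_two]
  obtain ⟨α, β, hαβ⟩ := exists_norm_neg_one a d hno
  set κ : M2 F := α • 1 + β • ω with hκ
  have hdetκ : κ.det = -1 := by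
    rw [hκ, det_add_smul, ← hαβ]
    ring
  have hκω : κ * ω = ω * κ := by
    rw [hκ, Matrix.add_mul, Matrix.mul_add, Matrix.smul_mul, Matrix.smul_mul, Matrix.mul_smul, Matrix.mul_smul,
      Matrix.one_mul, Matrix.mul_one]
  set y := y₀ * κ with hy
  have hdet : y.det = 1 := by
    rw [hy, Matrix.det_mul, hdety₀, hdetκ]; ring
  have hyω : y * ω = (a • (1 : M2 F) - ω) * y := by
    rw [hy, Matrix.mul_assoc, hκω, ← Matrix.mul_assoc, hy₀ω, Matrix.mul_assoc]
  have hy₀κ : y₀ * κ = (α • (1 : M2 F) + β • (a • (1 : M2 F) - ω)) * y₀ := by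
    rw [hκ, Matrix.mul_add, Matrix.add_mul, Matrix.mul_smul, Matrix.mul_smul, Matrix.smul_mul, Matrix.smul_mul,
      hy₀ω, Matrix.mul_one, Matrix.one_mul]
  have hyy : y * y = -1 := by
    calc y * y = (α • (1 : M2 F) + β • (a • (1 : M2 F) - ω)) * (y₀ * y₀) * κ := by
          rw [hy]
          nth_rw 1 [hy₀κ]
          simp only [Matrix.mul_assoc]
      _ = (α • (1 : M2 F) + β • (a • (1 : M2 F) - ω)) * κ := by rw [hy₀2, Matrix.mul_one]
      _ = (α * α + a * α * β + d * (β * β)) • (1 : M2 F) := by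
          rw [hκ]
          simp only [Matrix.mul_add, Matrix.add_mul, Matrix.sub_mul, Matrix.smul_mul, Matrix.mul_smul, Matrix.one_mul, Matrix.mul_one, hω2]
          module
      _ = -1 := by rw [hαβ]; simp
  let Y : GL (Fin 2) F := Matrix.GeneralLinearGroup.mkOfDetNeZero y (by rw [hdet]; exact one_ne_zero)
  have hYv : (Y : M2 F) = y := rfl
  refine ⟨Y, ?_, ?_, ?_, ?_⟩
  · exact mem_norm_anti hωK hgen Y a hyω
  · rw [hYv, hdet]
  · rw [hYv]
    have hch := ch2 y
    rw [hyy, hdet] at hch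
    have h0 : y.trace • y = 0 := by
      have : y.trace • y - (1 : F) • (1 : M2 F) + (1 : F) • (1 : M2 F) = (-1 : M2 F) + (1 : F) • (1 : M2 F) := by rw [← hch]
      rw [sub_add_cancel] at this
      rw [this]; simp
    rcases smul_eq_zero.mp h0 with h | h
    · exact h
    · exfalso
      rw [h] at hdet
      simp [Matrix.det_fin_two] at hdet
  · intro s hs
    rw [hYv] at hs
    have hs0 : s ≠ 0 := by
      rintro rfl
      rw [hs, zero_smul] at hdet
      simp [Matrix.det_fin_two] at hdet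
    rw [hs, Matrix.smul_mul, Matrix.mul_smul, Matrix.one_mul, Matrix.mul_one] at hyω
    have e1 : ω = a • (1 : M2 F) - ω := smul_right_injective _ hs0 hyω
    by_cases h2 : (2 : F) = 0
    · have ha0 := two_or_ne a d hno h2
      have : a • (1 : M2 F) = 0 := by
        have h3 : a • (1 : M2 F) = (2 : F) • ω := by
          rw [two_smul]
          nth_rw 2 [e1]
          abel
        rw [h3, h2, zero_smul]
      rcases smul_eq_zero.mp this with h | h
      · exact ha0 h
      · exact one_ne_zero h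
    · apply hns ((2 : F)⁻¹ * a)
      have h3 : (2 : F) • ω = a • (1 : M2 F) := by
        rw [two_smul]
        nth_rw 1 [e1]
        abel
      calc ω = (2 : F)⁻¹ • ((2 : F) • ω) := by rw [smul_smul, inv_mul_cancel₀ h2, one_smul]
        _ = _ := by rw [h3, smul_smul]

theorem case_two [Fintype F] (K : Subalgebra F (Matrix (Fin 2) (Fin 2) F)) (hK : IsFieldSubalgebra 2 K)
    (x : Matrix.SpecialLinearGroup (Fin 2) F) (z : F)
    (hz : ((x ^ 2 : Matrix.SpecialLinearGroup (Fin 2) F) : M2 F) = z • (1 : M2 F))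
    (hx : ∀ z : F, (x : M2 F) ≠ z • (1 : M2 F)) :
    ∃ P : GL (Fin 2) F, P⁻¹ * (Matrix.SpecialLinearGroup.toGL x) * P ∈ subalgebraNormalizer K := by
  classical
  obtain ⟨Y, hY, hYdet, hYtr, hYns⟩ := exists_good_two K hK
  rw [pow_two, Matrix.SpecialLinearGroup.coe_mul] at hz
  have hxdet : (x : M2 F).det = 1 := x.2
  have htr : (x : M2 F).trace = 0 := by
    by_contra ht
    have hch := ch2 (x : M2 F)
    rw [hz, hxdet] at hch
    apply hx (((x : M2 F).trace)⁻¹ * (z + 1))
    have : (x : M2 F).trace • (x : M2 F) = (z + 1) • (1 : M2 F) := by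
      rw [add_smul, hch]; module
    calc (x : M2 F) = ((x : M2 F).trace)⁻¹ • ((x : M2 F).trace • (x : M2 F)) := by
          rw [smul_smul, inv_mul_cancel₀ ht, one_smul]
      _ = _ := by rw [this, smul_smul]
  obtain ⟨A, hAd, hA⟩ := conj_comp (x : M2 F) hx
  obtain ⟨B, hBd, hB⟩ := conj_comp (Y : M2 F) hYns
  rw [htr, hxdet] at hA
  rw [hYtr, hYdet] at hB
  let A' : GL (Fin 2) F := Matrix.GeneralLinearGroup.mkOfDetNeZero A hAd
  let B' : GL (Fin 2) F := Matrix.GeneralLinearGroup.mkOfDetNeZero B hBd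
  have hA' : (A' : M2 F) = A := rfl
  have hB' : (B' : M2 F) = B := rfl
  refine ⟨A' * B'⁻¹, ?_⟩
  have : (A' * B'⁻¹)⁻¹ * (Matrix.SpecialLinearGroup.toGL x) * (A' * B'⁻¹) = Y := by
    have h1 : Matrix.SpecialLinearGroup.toGL x * A' = A' * (B'⁻¹ * Y * B') := by
      apply Units.ext
      have e1 : ((B'⁻¹ * Y * B' : GL (Fin 2) F) : M2 F) = comp2 0 1 := by
        rw [Units.val_mul, Units.val_mul, Matrix.mul_assoc, hB', hB, ← Matrix.mul_assoc, ← hB', Units.inv_mul, Matrix.one_mul]
      rw [Units.val_mul, Units.val_mul, e1, hA']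
      exact hA
    have h2 : (A' * B'⁻¹)⁻¹ * (Matrix.SpecialLinearGroup.toGL x) * (A' * B'⁻¹) = B' * (A'⁻¹ * (Matrix.SpecialLinearGroup.toGL x * A')) * B'⁻¹ := by group
    rw [h2, h1]
    group
  rw [this]
  exact hY

end two

theorem two_ne_zero_of_odd [Fintype F] {q : ℕ} (hq : Fintype.card F = q) (hodd : Odd q) : (2 : F) ≠ 0 := by
  intro h2
  haveI : CharP F 2 := CharTwo.of_one_ne_zero_of_two_eq_zero one_ne_zero h2
  have hc : ringChar F = 2 := ringChar.eq F 2
  have := FiniteField.even_card_of_char_two hc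
  rw [hq] at this
  obtain ⟨k, rfl⟩ := hodd
  omega

theorem two_eq_zero_of_even [Fintype F] {q : ℕ} (hq : Fintype.card F = q) (hodd : ¬ Odd q) : (2 : F) = 0 := by
  have h1 : Fintype.card F % 2 = 0 := by
    rw [hq]
    exact Nat.not_odd_iff.mp hodd
  by_contra h2
  have hc : ringChar F ≠ 2 := by
    intro hc
    apply h2
    have := ringChar.Nat.cast_ringChar (R := F)
    rw [hc] at this
    exact_mod_cast this
  have := FiniteField.odd_card_of_char_ne_two hc
  omega

theorem case_nonsq [Fintype F] (h2F : (2 : F) ≠ 0) (hK : IsFieldSubalgebra 2 K)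
    (x : GL (Fin n) F) (z : F) (hz : (x : Mt) * x = z • (1 : Mt)) (hnsq : ¬ IsSquare z) :
    ∃ P : GL (Fin n) F, P⁻¹ * x * P ∈ subalgebraNormalizer K := by
  classical
  obtain ⟨ω, hωK, hns, hgen⟩ := exists_gen hK
  obtain ⟨a, b, hab, hno⟩ := exists_quad hK hωK hns hgen
  obtain ⟨t, rfl⟩ : ∃ t : F, a = 2 * t := ⟨a / 2, by field_simp⟩
  set c := b + t * t with hc
  set ω₀ : Mt := ω - t • 1 with hω₀
  have hω₀2 : ω₀ * ω₀ = c • (1 : Mt) := by
    rw [hω₀]
    simp only [Matrix.mul_sub, Matrix.sub_mul, Matrix.mul_smul, Matrix.smul_mul, Matrix.mul_one, Matrix.one_mul, hab]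
    rw [hc]
    module
  have hcn : ¬ IsSquare c := by
    rintro ⟨e, he⟩
    apply hno (t + e)
    rw [hc] at he
    linear_combination -he
  have hz0 : z ≠ 0 := fun h => hnsq (h ▸ IsSquare.zero)
  have hc0 : c ≠ 0 := fun h => hcn (h ▸ IsSquare.zero)
  have hzc : IsSquare (z * c) := by
    rw [← quadraticChar_one_iff_isSquare (mul_ne_zero hz0 hc0), map_mul,
      quadraticChar_neg_one_iff_not_isSquare.mpr hnsq, quadraticChar_neg_one_iff_not_isSquare.mpr hcn]
    norm_num
  obtain ⟨g, hg⟩ := hzc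
  set s := g / c with hs
  have hzs : z = c * (s * s) := by
    rw [hs]
    field_simp
    linear_combination hg
  have hρK : s • ω₀ ∈ K := K.smul_mem (K.sub_mem hωK (scalar_mem t)) s
  have hρ2 : (s • ω₀) * (s • ω₀) = z • (1 : Mt) := by
    rw [Matrix.smul_mul, Matrix.mul_smul, hω₀2, smul_smul, smul_smul, hzs]
    congr 1
    ring
  obtain ⟨P, hP⟩ := exists_conj_of_poly x (s • ω₀) (quadPoly 0 z) (quadPoly_irred 0 z (by
      intro r hr
      apply hnsq
      exact ⟨r, by linear_combination -hr⟩)) (quadPoly_monic 0 z)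
    (by rw [aeval_quadPoly, hz]; simp) (by rw [aeval_quadPoly, hρ2]; simp)
  refine ⟨P, mem_norm_comm hωK hgen _ ?_⟩
  rw [hP, Matrix.smul_mul, Matrix.mul_smul]
  congr 1
  rw [hω₀]
  simp only [Matrix.mul_sub, Matrix.sub_mul, Matrix.mul_smul, Matrix.smul_mul, Matrix.mul_one, Matrix.one_mul]

theorem pairing_basis [Fintype F] {q : ℕ} (hq : Fintype.card F = q) (hodd : Odd q)
    (hv : padicValNat 2 (q - 1) ≤ padicValNat 2 n) (hn0 : n ≠ 0) (h2n : 2 ∣ n) (x : Matrix.SpecialLinearGroup (Fin n) F)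
    (w : F) (hw0 : w ≠ 0) (hz : (x : Mt) * x = (w * w) • (1 : Mt)) :
    ∃ (m : ℕ) (ε : Fin m → F) (e : Basis (Fin 2 × Fin m) F (Fin n → F)), ∀ i j, (x : Mt) *ᵥ e (i, j) = ε j • e (i, j) := by
  classical
  have h2F := two_ne_zero_of_odd hq hodd
  obtain ⟨a, b, e, he1, he2⟩ := exists_eigen_basis (Matrix.toLin' (x : Mt)) w (mul_ne_zero h2F hw0) (by
    intro v
    simp only [Matrix.toLin'_apply, Matrix.mulVec_mulVec, hz, Matrix.smul_mulVec, Matrix.one_mulVec])
  have hab : a + b = n := by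
    have := Module.finrank_eq_card_basis e
    simpa using this.symm
  have hdet : w ^ a * (-w) ^ b = 1 := by
    have hm : LinearMap.toMatrix e e (Matrix.toLin' (x : Mt)) = Matrix.diagonal (Sum.elim (fun _ => w) (fun _ => -w)) := by
      ext i j
      rw [LinearMap.toMatrix_apply]
      rcases j with j | j
      · rw [he1]
        simp [Basis.repr_self, Matrix.diagonal_apply, Finsupp.single_apply, Sum.inl.injEq]
        by_cases h : i = Sum.inl j
        · subst h; simp
        · rw [if_neg (Ne.symm h), if_neg h]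
      · rw [he2]
        simp [Basis.repr_self, Matrix.diagonal_apply, Finsupp.single_apply]
        by_cases h : i = Sum.inr j
        · subst h; simp
        · rw [if_neg (Ne.symm h), if_neg h]; exact neg_zero
    have hd := LinearMap.det_toMatrix e (Matrix.toLin' (x : Mt))
    rw [hm, LinearMap.det_toLin', Matrix.det_diagonal, Fintype.prod_sum_type] at hd
    have hxd : (x : Mt).det = 1 := x.2
    rw [hxd] at hd
    simpa using hd
  have hwn : w ^ n * (-1) ^ b = 1 := by
    have : w ^ n * (-1) ^ b = w ^ a * (-w) ^ b := by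
      rw [← hab, pow_add, neg_pow w b]
      ring
    rw [this, hdet]
  have hb : Even b := by
    by_contra hb
    have hb' : Odd b := Nat.not_even_iff_odd.mp hb
    rw [hb'.neg_one_pow] at hwn
    have : w ^ n = -1 := by linear_combination -hwn
    have := (pow_eq_neg_one_iff hq hodd n hn0).mp ⟨w, this⟩
    omega
  have ha : Even a := by
    have : Even n := even_iff_two_dvd.mpr h2n
    rw [← hab] at this
    exact (Nat.even_add.mp this).mpr hb
  obtain ⟨a', rfl⟩ := ha
  obtain ⟨b', rfl⟩ := hb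
  let σ₁ : Fin (a' + a') ≃ Fin 2 × Fin a' := Fintype.equivOfCardEq (by simp; ring)
  let σ₂ : Fin (b' + b') ≃ Fin 2 × Fin b' := Fintype.equivOfCardEq (by simp; ring)
  let σ : Fin (a' + a') ⊕ Fin (b' + b') ≃ Fin 2 × Fin (a' + b') :=
    (σ₁.sumCongr σ₂).trans ((Equiv.prodSumDistrib _ _ _).symm.trans (Equiv.prodCongr (Equiv.refl _) finSumFinEquiv))
  refine ⟨a' + b', fun j => Sum.elim (fun _ => w) (fun _ => -w) (finSumFinEquiv.symm j), e.reindex σ, ?_⟩
  intro i j
  obtain ⟨k, rfl⟩ := finSumFinEquiv.surjective j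
  rcases k with k | k
  · have : (e.reindex σ) (i, finSumFinEquiv (Sum.inl k)) = e (Sum.inl (σ₁.symm (i, k))) := by
      rw [Basis.reindex_apply]
      congr 1
      simp [σ]
    rw [this]
    simpa using he1 (σ₁.symm (i, k))
  · have : (e.reindex σ) (i, finSumFinEquiv (Sum.inr k)) = e (Sum.inr (σ₂.symm (i, k))) := by
      rw [Basis.reindex_apply]
      congr 1
      simp [σ]
    rw [this]
    simpa using he2 (σ₂.symm (i, k))

theorem case_sq [Fintype F] {q : ℕ} (hq : Fintype.card F = q) (hodd : Odd q)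
    (hv : padicValNat 2 (q - 1) ≤ padicValNat 2 n) (hn0 : n ≠ 0) (h2n : 2 ∣ n) (hK : IsFieldSubalgebra 2 K)
    (x : Matrix.SpecialLinearGroup (Fin n) F)
    (w : F) (hw0 : w ≠ 0) (hz : (x : Mt) * x = (w * w) • (1 : Mt)) :
    ∃ P : GL (Fin n) F, P⁻¹ * (Matrix.SpecialLinearGroup.toGL x) * P ∈ subalgebraNormalizer K := by
  classical
  obtain ⟨m, ε, e, he⟩ := pairing_basis hq hodd hv hn0 h2n x w hw0 hz
  obtain ⟨ω, hωK, hns, hgen⟩ := exists_gen hK
  obtain ⟨a, b, hab, hno⟩ := exists_quad hK hωK hns hgen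
  set W : Module.End F (Fin n → F) := Matrix.toLin' ω with hW
  have hWW : ∀ v, W (W v) = a • W v + b • v := by
    intro v
    simp only [hW, Matrix.toLin'_apply, Matrix.mulVec_mulVec, hab, Matrix.add_mulVec, Matrix.smul_mulVec, Matrix.one_mulVec]
  have hW0 : aeval W (quadPoly a b) = 0 := by
    refine (aeval_quadPoly a b W).trans ?_
    apply LinearMap.ext
    intro v
    simp only [LinearMap.sub_apply, Module.End.mul_apply, LinearMap.smul_apply, Module.End.one_apply, hWW, LinearMap.zero_apply]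
    abel
  obtain ⟨m', v, b', hb'⟩ := exists_poly_basis' W (quadPoly a b) (quadPoly_irred a b hno) hW0 2 (quadPoly_natDegree a b)
  have hmm : m' = m := by
    have h1 := Module.finrank_eq_card_basis e
    have h2 := Module.finrank_eq_card_basis b'
    simp at h1 h2
    omega
  subst hmm
  let L : Module.End F (Fin n → F) := b'.constr F (fun p => ε p.2 • b' p)
  have hL : ∀ i j, L (b' (i, j)) = ε j • b' (i, j) := by
    intro i j
    exact b'.constr_basis F _ (i, j)
  let E : (Fin n → F) ≃ₗ[F] (Fin n → F) := e.equiv b' (Equiv.refl _)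
  have hE : ∀ p, E (e p) = b' p := by
    intro p
    simp [E, Basis.equiv_apply]
  have hEL : ∀ u, E ((x : Mt) *ᵥ u) = L (E u) := by
    intro u
    have : (E : (Fin n → F) →ₗ[F] (Fin n → F)).comp (Matrix.toLin' (x : Mt)) = L.comp (E : (Fin n → F) →ₗ[F] (Fin n → F)) := by
      apply e.ext
      rintro ⟨i, j⟩
      simp only [LinearMap.comp_apply, Matrix.toLin'_apply, LinearEquiv.coe_coe]
      rw [he, map_smul, hE, hL]
    have := LinearMap.congr_fun this u
    simpa using this
  obtain ⟨P, hP⟩ := exists_conj_of_equiv' E (Matrix.SpecialLinearGroup.toGL x) (LinearMap.toMatrix' L) (by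
    intro u
    rw [LinearMap.toMatrix'_mulVec]
    exact hEL u)
  refine ⟨P, mem_norm_comm hωK hgen _ ?_⟩
  rw [hP]
  have hcomm : L * W = W * L := by
    apply b'.ext
    rintro ⟨i, j⟩
    simp only [Module.End.mul_apply]
    fin_cases i
    · have e0 : b' (0, j) = v j := by rw [hb']; simp
      have e1 : b' (1, j) = W (v j) := by rw [hb']; simp
      show L (W (b' (0, j))) = W (L (b' (0, j)))
      rw [hL, map_smul, e0, ← e1, hL]
    · have e0 : b' (0, j) = v j := by rw [hb']; simp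
      have e1 : b' (1, j) = W (v j) := by rw [hb']; simp
      show L (W (b' (1, j))) = W (L (b' (1, j)))
      rw [hL, map_smul, e1, hWW, map_add, map_smul, map_smul, ← e1, ← e0, hL, hL]
      module
  have := congrArg LinearMap.toMatrix' hcomm
  rw [Module.End.mul_eq_comp, Module.End.mul_eq_comp, LinearMap.toMatrix'_comp, LinearMap.toMatrix'_comp, hW,
    LinearMap.toMatrix'_toLin'] at this
  exact this

theorem main_forward {q : ℕ} [Fintype F] (hq : Fintype.card F = q) (hK : IsFieldSubalgebra 2 K)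
    (hn : 2 ≤ n) (h2n : 2 ∣ n)
    (hall : ∀ x : Matrix.SpecialLinearGroup (Fin n) F,
      (∃ z : F, ((x ^ 2 : Matrix.SpecialLinearGroup (Fin n) F) : Matrix (Fin n) (Fin n) F) = z • (1 : Matrix (Fin n) (Fin n) F)) →
      (∀ z : F, (x : Matrix (Fin n) (Fin n) F) ≠ z • (1 : Matrix (Fin n) (Fin n) F)) →
      ∃ P : Matrix.SpecialLinearGroup (Fin n) F, P⁻¹ * x * P ∈ ((Cfsg.Geo.subalgebraNormalizer K).comap (Matrix.SpecialLinearGroup.toGL : Matrix.SpecialLinearGroup (Fin n) F →* GL (Fin n) F))) :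
    n = 2 ∨ (Odd q ∧ padicValNat 2 (q - 1) ≤ padicValNat 2 n) := by
  classical
  by_contra hcon
  push_neg at hcon
  obtain ⟨hn2, hcon⟩ := hcon
  have hn3 : 3 ≤ n := by omega
  obtain ⟨ω, hωK, hns, hgen⟩ := exists_gen hK
  obtain ⟨a, b, hab, hno⟩ := exists_quad hK hωK hns hgen
  let i₀ : Fin n := ⟨0, by omega⟩
  let i₁ : Fin n := ⟨1, by omega⟩
  have hi : i₀ ≠ i₁ := by
    intro h
    have := congrArg Fin.val h
    simp [i₀, i₁] at this
  by_cases hodd : Odd q
  · have h2F := two_ne_zero_of_odd hq hodd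
    obtain ⟨c, hc⟩ := (pow_eq_neg_one_iff hq hodd n (by omega)).mpr (hcon hodd)
    have hc0 : c ≠ 0 := by
      rintro rfl
      rw [zero_pow (by omega)] at hc
      exact one_ne_zero (neg_eq_zero.mp hc.symm)
    refine forward_aux hK hωK hns hab hno hn3 h2n hall c hc0 hc (Pi.single i₀ (-(2 * c))) (Pi.single i₀ 1) ?_ ?_
    · simp [single_dotProduct]
    · intro s hs
      have h0 := congrFun (congrFun hs i₀) i₀
      have h1 := congrFun (congrFun hs i₁) i₁
      simp [Matrix.vecMulVec_apply, hi.symm, hi] at h0 h1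
      apply mul_ne_zero h2F hc0
      rw [← h1] at h0
      linear_combination -h0
  · have h2F := two_eq_zero_of_even hq hodd
    refine forward_aux hK hωK hns hab hno hn3 h2n hall 1 one_ne_zero ?_ (Pi.single i₀ 1) (Pi.single i₁ 1) ?_ ?_
    · rw [one_pow]
      linear_combination h2F
    · simp [single_dotProduct, hi, h2F]
    · intro s hs
      have h0 := congrFun (congrFun hs i₀) i₁
      simp [Matrix.vecMulVec_apply, hi] at h0



/-- Involutions of PSL_n(q) and extension-field subgroups of degree 2. Here `T = PSL_n(F)` for a field `F` with `q = p^f` elements (`n ≥ 2`, `(n, q) ≠ (2, 2), (2, 3)`), `k` is a prime dividing `n`, `K` is a subalgebra of the `n × n` matrices that is a field of degree `k` over `F` (an extension-field structure F_{q^k} on `F^n`), and `H` is the subgroup of matrices of determinant 1 normalizing `K` — a subgroup of type GL_{n/k}(q^k) (maximal except in some small cases; maximality is not assumed); Ω is the set of cosets of `H` in `T`,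 so an element of `T` of prime order `r` (a matrix `x` of determinant 1 with `x^r` scalar, `x` not scalar) fixes a point of Ω when some conjugate of `x` by a matrix of determinant 1 normalizes `K`. Take `k = 2` and suppose the index of `H` is even. Then every involution of `T` is conjugate in `T` into `H` if and only if `n = 2`, or `q` is odd and `(q − 1)_2 ≤ (n)_2`. -/
theorem result {F : Type*} [Field F] [Fintype F] {p : ℕ} [Fact p.Prime] [CharP F p] {q : ℕ} (hq : Fintype.card F = q)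
    (n : ℕ) (hn : 2 ≤ n) (hT : (n, q) ≠ (2, 2) ∧ (n, q) ≠ (2, 3))
    (k : ℕ) (hk : k.Prime) (hkn : k ∣ n) (K : Subalgebra F (Matrix (Fin n) (Fin n) F)) (hK : Cfsg.Geo.IsFieldSubalgebra k K) (hk2 : k = 2) (hΩ : 2 ∣ ((Cfsg.Geo.subalgebraNormalizer K).comap (Matrix.SpecialLinearGroup.toGL : Matrix.SpecialLinearGroup (Fin n) F →* GL (Fin n) F)).index) :
    (∀ x : Matrix.SpecialLinearGroup (Fin n) F,
      (∃ z : F, ((x ^ 2 : Matrix.SpecialLinearGroup (Fin n) F) : Matrix (Fin n) (Fin n) F) = z • (1 : Matrix (Fin n) (Fin n) F)) →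
      (∀ z : F, (x : Matrix (Fin n) (Fin n) F) ≠ z • (1 : Matrix (Fin n) (Fin n) F)) →
      ∃ P : Matrix.SpecialLinearGroup (Fin n) F, P⁻¹ * x * P ∈ ((Cfsg.Geo.subalgebraNormalizer K).comap (Matrix.SpecialLinearGroup.toGL : Matrix.SpecialLinearGroup (Fin n) F →* GL (Fin n) F))) ↔
    (n = 2 ∨ (Odd q ∧ padicValNat 2 (q - 1) ≤ padicValNat 2 n)) := by
  subst hk2
  refine ⟨fun hall => main_forward hq hK hn hkn hall, ?_⟩
  rintro hright x ⟨z, hz⟩ hx
  apply reduce_GL x z hz hx
  have hzz : (x : Matrix (Fin n) (Fin n) F) * x = z • (1 : Matrix (Fin n) (Fin n) F) := by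
    rw [pow_two, Matrix.SpecialLinearGroup.coe_mul] at hz
    exact hz
  rcases hright with rfl | ⟨hodd, hv⟩
  · exact case_two K hK x z hz hx
  · by_cases hsq : IsSquare z
    · obtain ⟨w, rfl⟩ := hsq
      have hw0 : w ≠ 0 := by
        rintro rfl
        have h1 := congrArg Matrix.det hzz
        have hxd : (x : Matrix (Fin n) (Fin n) F).det = 1 := x.2
        haveI : Nonempty (Fin n) := ⟨⟨0, by omega⟩⟩
        rw [Matrix.det_mul, hxd] at h1
        simp at h1
      exact case_sq hq hodd hv (by omega) hkn hK x w hw0 hzz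
    · exact case_nonsq (two_ne_zero_of_odd hq hodd) hK (Matrix.SpecialLinearGroup.toGL x) z hzz hsq

end Cfsg.Agent.S5969
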